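import Cfsg.Statements.S4720
import Cfsg.Agent.Lib.Helper82.SectPrincipal

set_option autoImplicit false
open Cfsg

namespace Cfsg.Agent.S4720

open Cfsg.Agent.Lib.Helper4 Cfsg.Agent.Lib.Helper21 Cfsg.Agent.Lib.Helper22
open Cfsg.Agent.Lib.Helper82
open scoped ComplexConjugate

/-- A conjugacy between `p'`-powers of two `p`-elements gives a conjugacy of the elements. -/
theorem conj_of_pow_conj {G : Type*} [Group G] {p : ℕ} (hp : p.Prime) {y y' g : G} {k c : ℕ}
    (hy : y ^ (p ^ k) = 1) (hy' : y' ^ (p ^ k) = 1) (hc : ¬ p ∣ c)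
    (h : y ^ c = g⁻¹ * y' ^ c * g) : y = g⁻¹ * y' * g := by
  obtain ⟨j, hj⟩ := exists_mul_mod hp k c hc
  have h1 : y ^ (c * j) = y := pow_mul_eq_self hy hj
  have h2 : y' ^ (c * j) = y' := pow_mul_eq_self hy' hj
  calc y = (y ^ c) ^ j := by rw [← pow_mul, h1]
    _ = (g⁻¹ * y' ^ c * g) ^ j := by rw [h]
    _ = g⁻¹ * (y' ^ c) ^ j * g := by
        have h3 := conj_pow (a := g⁻¹) (b := y' ^ c) (i := j)
        rw [inv_inv] at h3
        exact h3
    _ = g⁻¹ * y' * g := by rw [← pow_mul, h2]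

/-- Let p be a prime, M a maximal ideal of the algebraic integers containing p, P a p-subgroup of the finite group G, N a subgroup with P ≤ N ≤ N_G(P), and U a nonempty subset of P normalized by N such that an element of U and an element of P that are conjugate in G are already conjugate in N, and such that λ(C_G(y)) = w·#C_N(y) for every y ∈ U with one rational number w, where λ(X) denotes the sum of the squares of the degrees of the irreducible characters in the principal p-block of X. For a complex function θ on P and χ in the principal block of G put a_χ(θ) = #P⁻¹ Σ_{y ∈ P} χ(y) θ(y⁻¹). Then for generalized characters θ, η of P with θ vanishing outside U, Σ_χ a_χ(θ)·conj(a_χ(η)) = (w/#P²)·Σ_{y ∈ P} θ(y)·conj(Σ_{x ∈ N} η(x y x⁻¹)) (η extended by zero off P; the conjugates lie in P), the first sum over the principal p-block of G. -/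
theorem result {G : Type*} [Group G] [Finite G] (p : ℕ) [Fact p.Prime] (M : Ideal Cfsg.AlgInt) (hM : Cfsg.IsPModular p M) (P : Subgroup G) (hP : IsPGroup p P) (N : Subgroup G) (hPN : P ≤ N) (hNN : N ≤ Subgroup.normalizer (P : Set G)) (U : Set G) (hUne : U.Nonempty) (hUP : U ⊆ (P : Set G)) (hUN : ∀ n ∈ N, ∀ u ∈ U, n * u * n⁻¹ ∈ U) (hfus : ∀ u ∈ U, ∀ g : G, g * u * g⁻¹ ∈ (P : Set G) → ∃ n ∈ N, n * u * n⁻¹ = g * u * g⁻¹) (w : ℚ) (hw : ∀ y ∈ U, ((∑ᶠ ψ ∈ Cfsg.principalBlock M ↥(Subgroup.centralizer ({y} : Set G)), Cfsg.charDegree (ψ : ↥(Subgroup.centralizer ({y} : Set G)) → ℂ) ^ 2) : ℚ) = w * Nat.card ↥(N ⊓ Subgroup.centralizer ({y} : Set G))) (θ η : ↥P → ℂ) (hθ : Cfsg.IsGeneralizedCharacter ↥P θ) (hη : Cfsg.IsGeneralizedCharacter ↥P η) (hθU : ∀ y : ↥P, (y : G) ∉ U → θ y = 0) : ∑ᶠ χ ∈ Cfsg.principalBlock M G, ((Nat.card ↥P : ℂ)⁻¹ * ∑ᶠ y : ↥P, (χ : G → ℂ) (y : G) * θ y⁻¹) * (starRingEnd ℂ) ((Nat.card ↥P : ℂ)⁻¹ * ∑ᶠ y : ↥P, (χ : G → ℂ) (y : G) * η y⁻¹) = ((w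 : ℂ) / ((Nat.card ↥P : ℂ) ^ 2)) * ∑ᶠ y : ↥P, θ y * (starRingEnd ℂ) (∑ᶠ x : ↥N, Cfsg.extendByZero P η ((x : G) * (y : G) * (x : G)⁻¹)) := by
  classical
  letI := Fintype.ofFinite G
  haveI := irr_finite (G := G)
  letI := Fintype.ofFinite (IrrCharacter G)
  have hp : p.Prime := Fact.out
  have hB₀ := Cfsg.Agent.S4691.principal_isPBlock (G := G) M
  have hPel : ∀ y : P, ∃ k : ℕ, (y : G) ^ (p ^ k) = 1 := by
    intro y
    obtain ⟨k, hk⟩ := hP y
    refine ⟨k, ?_⟩
    have := congrArg (Subtype.val) hk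
    simpa using this
  have hPord : ∀ y : P, ∃ k : ℕ, orderOf (y : G) = p ^ k := by
    intro y
    obtain ⟨k, hk⟩ := hPel y
    obtain ⟨j, -, hj⟩ := (Nat.dvd_prime_pow hp).mp (orderOf_dvd_of_pow_eq_one hk)
    exact ⟨j, hj⟩
  have hNP : ∀ (n : N) (y : P), (n : G) * y * (n : G)⁻¹ ∈ P := by
    intro n y
    have h1 := hNN n.2
    exact (Subgroup.mem_normalizer_iff.mp h1 y).mp y.2
  let K' : P → P → ℂ := fun y y' => ∑ χ : IrrCharacter G,
    (if χ ∈ principalBlock M G then (1 : ℂ) else 0) *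
      (conj ((χ : G → ℂ) y) * (χ : G → ℂ) y')
  let cnt : P → P → ℂ := fun y y' =>
    ∑ n : N, if (n : G) * y * (n : G)⁻¹ = y' then (1 : ℂ) else 0
  have key : ∀ y : P, (y : G) ∈ U → ∀ y' : P, K' y y' = (w : ℂ) * cnt y y' := by
    intro y hyU y'
    by_cases hex : ∃ n : N, (n : G) * y * (n : G)⁻¹ = y'
    · obtain ⟨n₀, hn₀⟩ := hex
      have h1 : K' y y' =
          ∑ᶠ χ ∈ principalBlock M G, conj ((χ : G → ℂ) y) * (χ : G → ℂ) y := by
        rw [finsum_mem_def, finsum_eq_sum_of_fintype]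
        refine Finset.sum_congr rfl fun χ _ => ?_
        rw [← hn₀, isClassFunction_irr χ]
        by_cases h : χ ∈ principalBlock M G
        · simp [h]
        · simp [h]
      rw [h1, principal_column_norm hM (y : G) (hPord y)]
      have h2 := hw (y : G) hyU
      have h3 : (∑ᶠ ψ ∈ principalBlock M (Subgroup.centralizer ({(y : G)} : Set G)),
          ((charDegree (ψ : Subgroup.centralizer ({(y : G)} : Set G) → ℂ) : ℕ) : ℂ) ^ 2) =
          (w : ℂ) * (Nat.card (N ⊓ Subgroup.centralizer ({(y : G)} : Set G) : Subgroup G) : ℂ) := by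
        have h4 := congrArg (fun q : ℚ => (q : ℂ)) h2
        simp only [Rat.cast_mul, Rat.cast_natCast] at h4
        rw [← h4]
        haveI := irr_finite (G := Subgroup.centralizer ({(y : G)} : Set G))
        letI := Fintype.ofFinite (IrrCharacter (Subgroup.centralizer ({(y : G)} : Set G)))
        rw [finsum_mem_def, finsum_eq_sum_of_fintype, finsum_mem_def, finsum_eq_sum_of_fintype]
        rw [Rat.cast_sum]
        refine Finset.sum_congr rfl fun ψ _ => ?_
        by_cases h : ψ ∈ principalBlock M (Subgroup.centralizer ({(y : G)} : Set G))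
        · simp [h]
        · simp [h]
      rw [h3]
      congr 1
      have h5 : cnt y y' =
          ((Finset.univ.filter (fun n : N => (n : G) * y * (n : G)⁻¹ = y')).card : ℂ) := by
        simp only [cnt]
        rw [Finset.sum_boole]
      rw [h5]
      congr 1
      rw [← Fintype.card_subtype, ← Nat.card_eq_fintype_card]
      refine Nat.card_congr
        { toFun := fun c => ⟨⟨n₀ * c, N.mul_mem n₀.2 (Subgroup.mem_inf.mp c.2).1⟩, ?_⟩
          invFun := fun n => ⟨(n₀ : G)⁻¹ * n.1,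
            Subgroup.mem_inf.mpr ⟨N.mul_mem (N.inv_mem n₀.2) n.1.2, ?_⟩⟩
          left_inv := fun c => by apply Subtype.ext; simp
          right_inv := fun n => by apply Subtype.ext; apply Subtype.ext; simp }
      · have hc : (y : G) * c = c * y :=
          Subgroup.mem_centralizer_iff.mp (Subgroup.mem_inf.mp c.2).2 y rfl
        show (n₀ : G) * c * y * ((n₀ : G) * c)⁻¹ = y'
        rw [← hn₀, mul_inv_rev]
        calc (n₀ : G) * c * y * ((c : G)⁻¹ * (n₀ : G)⁻¹)
            = n₀ * ((y : G) * c) * (c : G)⁻¹ * (n₀ : G)⁻¹ := by rw [hc]; group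
          _ = (n₀ : G) * y * (n₀ : G)⁻¹ := by group
      · rw [Subgroup.mem_centralizer_iff]
        intro z hz
        rw [Set.mem_singleton_iff] at hz
        rw [hz]
        have h7 : (n.1 : G) * y * (n.1 : G)⁻¹ = (n₀ : G) * y * (n₀ : G)⁻¹ := by rw [n.2, hn₀]
        calc (y : G) * ((n₀ : G)⁻¹ * n.1)
            = (n₀ : G)⁻¹ * ((n₀ : G) * y * (n₀ : G)⁻¹) * n.1 := by group
          _ = (n₀ : G)⁻¹ * ((n.1 : G) * y * (n.1 : G)⁻¹) * n.1 := by rw [h7]
          _ = (n₀ : G)⁻¹ * n.1 * y := by group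
    · have hcnt : cnt y y' = 0 := Finset.sum_eq_zero fun n _ => if_neg (fun h => hex ⟨n, h⟩)
      rw [hcnt, mul_zero]
      have h1 : K' y y' =
          ∑ᶠ χ ∈ principalBlock M G, (χ : G → ℂ) y' * conj ((χ : G → ℂ) y) := by
        rw [finsum_mem_def, finsum_eq_sum_of_fintype]
        refine Finset.sum_congr rfl fun χ _ => ?_
        by_cases h : χ ∈ principalBlock M G
        · simp [h, mul_comm]
        · simp [h]
      rw [h1]
      refine strong_block_orth hM (principalBlock M G) hB₀ (y' : G) (y : G) ?_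
      intro c g hc hcg
      obtain ⟨k₁, hk₁⟩ := hPel y
      obtain ⟨k₂, hk₂⟩ := hPel y'
      have e1 : (y : G) ^ (p ^ (k₁ + k₂)) = 1 := by rw [pow_add, pow_mul, hk₁, one_pow]
      have e2 : (y' : G) ^ (p ^ (k₁ + k₂)) = 1 := by
        rw [pow_add, mul_comm, pow_mul, hk₂, one_pow]
      have h5 := conj_of_pow_conj hp e1 e2 hc hcg
      have h6 : g * (y : G) * g⁻¹ = y' := by rw [h5]; group
      obtain ⟨n, hn, hn2⟩ := hfus (y : G) hyU g (by rw [h6]; exact y'.2)
      exact hex ⟨⟨n, hn⟩, by rw [← h6, ← hn2]⟩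
  have hPc : (Nat.card P : ℂ) ≠ 0 := by exact_mod_cast (Nat.card_pos (α := P)).ne'
  have hA : ∀ χ : IrrCharacter G, (∑ᶠ y : ↥P, (χ : G → ℂ) (y : G) * θ y⁻¹) =
      ∑ y : P, conj ((χ : G → ℂ) y) * θ y := by
    intro χ
    rw [finsum_eq_sum_of_fintype, ← Equiv.sum_comp (Equiv.inv P)]
    refine Finset.sum_congr rfl fun y _ => ?_
    simp only [Equiv.inv_apply, inv_inv]
    rw [Subgroup.coe_inv, Cfsg.Agent.Lib.Helper82.irr_inv]
  have hB : ∀ χ : IrrCharacter G, conj (∑ᶠ y : ↥P, (χ : G → ℂ) (y : G) * η y⁻¹) =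
      ∑ y : P, (χ : G → ℂ) y * conj (η y) := by
    intro χ
    rw [finsum_eq_sum_of_fintype, ← Equiv.sum_comp (Equiv.inv P), map_sum]
    refine Finset.sum_congr rfl fun y _ => ?_
    simp only [Equiv.inv_apply, inv_inv, map_mul]
    rw [Subgroup.coe_inv, Cfsg.Agent.Lib.Helper82.irr_inv, Complex.conj_conj]
  have hL : ∑ᶠ χ ∈ Cfsg.principalBlock M G, ((Nat.card ↥P : ℂ)⁻¹ * ∑ᶠ y : ↥P, (χ : G → ℂ) (y : G) * θ y⁻¹) * (starRingEnd ℂ) ((Nat.card ↥P : ℂ)⁻¹ * ∑ᶠ y : ↥P, (χ : G → ℂ) (y : G) * η y⁻¹) =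
      ((Nat.card P : ℂ)⁻¹) ^ 2 * ∑ y : P, θ y * ∑ y' : P, conj (η y') * K' y y' := by
    rw [finsum_mem_def, finsum_eq_sum_of_fintype]
    have hχ : ∀ χ : IrrCharacter G, (principalBlock M G).indicator
        (fun χ : IrrCharacter G => ((Nat.card ↥P : ℂ)⁻¹ * ∑ᶠ y : ↥P, (χ : G → ℂ) (y : G) * θ y⁻¹) *
          (starRingEnd ℂ) ((Nat.card ↥P : ℂ)⁻¹ * ∑ᶠ y : ↥P, (χ : G → ℂ) (y : G) * η y⁻¹)) χ =
        ((Nat.card P : ℂ)⁻¹) ^ 2 * ∑ y : P, ∑ y' : P, θ y * (conj (η y') *
          ((if χ ∈ principalBlock M G then (1 : ℂ) else 0) *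
            (conj ((χ : G → ℂ) y) * (χ : G → ℂ) y'))) := by
      intro χ
      by_cases h : χ ∈ principalBlock M G
      · rw [Set.indicator_of_mem h, map_mul, hA, hB, map_inv₀, map_natCast]
        simp only [if_pos h, one_mul]
        rw [show ∀ a b c : ℂ, a * b * (a * c) = a ^ 2 * (b * c) from fun a b c => by ring,
          Finset.sum_mul_sum]
        congr 1
        refine Finset.sum_congr rfl fun y _ => Finset.sum_congr rfl fun y' _ => ?_
        ring
      · rw [Set.indicator_of_notMem h]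
        simp [h]
    rw [Finset.sum_congr rfl fun χ _ => hχ χ, ← Finset.mul_sum]
    congr 1
    rw [Finset.sum_comm]
    refine Finset.sum_congr rfl fun y _ => ?_
    rw [Finset.sum_comm, Finset.mul_sum]
    refine Finset.sum_congr rfl fun y' _ => ?_
    show _ = θ y * (conj (η y') * ∑ χ : IrrCharacter G,
      (if χ ∈ principalBlock M G then (1 : ℂ) else 0) *
        (conj ((χ : G → ℂ) y) * (χ : G → ℂ) y'))
    rw [Finset.mul_sum, Finset.mul_sum]
  have hR : ∀ y : P, θ y * ∑ y' : P, conj (η y') * K' y y' =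
      (w : ℂ) * (θ y * conj (∑ᶠ x : ↥N, extendByZero P η ((x : G) * (y : G) * (x : G)⁻¹))) := by
    intro y
    by_cases hyU : (y : G) ∈ U
    · have h1 : ∑ y' : P, conj (η y') * K' y y' =
          (w : ℂ) * conj (∑ y' : P, η y' * cnt y y') := by
        rw [map_sum, Finset.mul_sum]
        refine Finset.sum_congr rfl fun y' _ => ?_
        rw [key y hyU y', map_mul]
        have h2 : conj (cnt y y') = cnt y y' := by
          simp only [cnt, map_sum]
          refine Finset.sum_congr rfl fun n _ => ?_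
          split_ifs <;> simp
        rw [h2]
        ring
      have h2 : ∑ y' : P, η y' * cnt y y' =
          ∑ᶠ x : ↥N, extendByZero P η ((x : G) * (y : G) * (x : G)⁻¹) := by
        rw [finsum_eq_sum_of_fintype]
        simp only [cnt, Finset.mul_sum]
        rw [Finset.sum_comm]
        refine Finset.sum_congr rfl fun n _ => ?_
        rw [extendByZero_apply_mem' P η (hNP n y)]
        rw [Finset.sum_eq_single ⟨(n : G) * y * (n : G)⁻¹, hNP n y⟩]
        · rw [if_pos rfl, mul_one]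
        · intro y' _ hne
          rw [if_neg, mul_zero]
          intro h
          apply hne
          exact Subtype.ext h.symm
        · intro h
          exact absurd (Finset.mem_univ _) h
      rw [h1, h2]
      ring
    · rw [hθU y hyU]
      simp
  rw [hL, Finset.sum_congr rfl fun y _ => hR y, ← Finset.mul_sum, finsum_eq_sum_of_fintype]
  field_simp

end Cfsg.Agent.S4720
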