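import Cfsg.Statements.S0514
import Cfsg.Agent.Lib.Helper12.TwoComp

set_option autoImplicit false
open Cfsg

namespace Cfsg.Agent.S0514

/-- In a finite group whose Sylow 2-subgroups are dihedral of order at least 4, the centralizer of any involution has a
normal subgroup of odd order whose index in the centralizer is a power of 2. -/
theorem result {X : Type*} [Group X] [Finite X]
    (S : Sylow 2 X) (n : ℕ) (hn : 2 ≤ n) (hS : Nonempty ((S : Subgroup X) ≃* DihedralGroup n)) (t : X)
    (ht : orderOf t = 2) :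
    ∃ N : Subgroup (Subgroup.centralizer ({t} : Set X)), N.Normal ∧ Odd (Nat.card N) ∧ ∃ k : ℕ, N.index = 2 ^ k := by
  classical
  obtain ⟨e⟩ := hS
  have hn0 : NeZero n := ⟨by omega⟩
  obtain ⟨T⟩ : Nonempty (Sylow 2 (Subgroup.centralizer ({t} : Set X))) := inferInstance
  have hpg : IsPGroup 2 ((T : Subgroup (Subgroup.centralizer ({t} : Set X))).map
      (Subgroup.centralizer ({t} : Set X)).subtype) := T.isPGroup'.map _
  obtain ⟨P', hP'⟩ := hpg.exists_le_sylow
  obtain ⟨g, hg⟩ := MulAction.exists_smul_eq X S P'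
  subst hg
  have e' : ((g • S : Sylow 2 X) : Subgroup X) ≃* DihedralGroup n :=
    (Sylow.equivSMul S g).symm.trans e
  obtain ⟨R', hR'P, hR'c, hinv', hidx'⟩ :=
    Cfsg.Agent.Lib.Helper12.exists_cyclic_of_mulEquiv_dihedral e'
  have htmem : t ∈ Subgroup.centralizer ({t} : Set X) :=
    Subgroup.mem_centralizer_iff.mpr (fun h hh => by
      rw [Set.mem_singleton_iff] at hh
      rw [hh])
  refine Cfsg.Agent.Lib.Helper12.exists_normal_two_complement_of_dihedral_like T ⟨t, htmem⟩
    ?_ ?_ (R'.subgroupOf (Subgroup.centralizer ({t} : Set X)) ⊓ T) inf_le_right ?_ ?_ ?_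
  · intro c
    apply Subtype.ext
    exact (Subgroup.mem_centralizer_iff.mp c.2 t rfl).symm
  · rw [Subgroup.orderOf_mk]
    exact ht
  · have hf : Function.Injective
        (((Subgroup.centralizer ({t} : Set X)).subtype.comp
          (R'.subgroupOf (Subgroup.centralizer ({t} : Set X)) ⊓ T).subtype).codRestrict R'
          (fun y => Subgroup.mem_subgroupOf.mp y.2.1)) := by
      intro a b hab
      have h0 := congrArg (fun z : R' => (z : X)) hab
      have h1 : ((a : Subgroup.centralizer ({t} : Set X)) : X) =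
          ((b : Subgroup.centralizer ({t} : Set X)) : X) := h0
      exact Subtype.ext (Subtype.ext h1)
    exact isCyclic_of_injective _ hf
  · intro u hu huR
    have huX : (u : X) ∈ ((g • S : Sylow 2 X) : Subgroup X) := hP' ⟨u, hu, rfl⟩
    have huR' : (u : X) ∉ R' := fun h => huR ⟨Subgroup.mem_subgroupOf.mpr h, hu⟩
    apply Subtype.ext
    exact hinv' _ huX huR'
  · intro u hu huR v hv hvR
    have huX : (u : X) ∈ ((g • S : Sylow 2 X) : Subgroup X) := hP' ⟨u, hu, rfl⟩
    have huR' : (u : X) ∉ R' := fun h => huR ⟨Subgroup.mem_subgroupOf.mpr h, hu⟩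
    have hvX : (v : X) ∈ ((g • S : Sylow 2 X) : Subgroup X) := hP' ⟨v, hv, rfl⟩
    have hvR' : (v : X) ∉ R' := fun h => hvR ⟨Subgroup.mem_subgroupOf.mpr h, hv⟩
    exact ⟨Subgroup.mem_subgroupOf.mpr (hidx' _ huX huR' _ hvX hvR'), mul_mem hu hv⟩

end Cfsg.Agent.S0514
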