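-- S4481 (helper1): Brauer's theorem on the principal 2-block of a group with dihedral Sylow
-- 2-subgroups: the column lemma S4720 on the cyclic subgroup of index 2 (fusion controlled by the
-- Sylow subgroup, centralizers 2-nilpotent by S0514) gives the Gram matrix of the coefficient
-- vectors; see Lib/Helper1/Dih*.lean.
import Cfsg.Statements.S4481
import Cfsg.Agent.Lib.Helper1.DihAsm
import Cfsg.Agent.Lib.Helper1.DihHom

set_option autoImplicit false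
open Cfsg

namespace Cfsg.Agent.S4481

/-- The principal 2-block of a group with dihedral Sylow 2-subgroups. Let G be a finite group whose Sylow 2-subgroup P is dihedral of order 2^n ≥ 8, let σ be an element of P of order 2^(n−1), ζ a primitive 2^(n−1)-th root of unity, and M a maximal ideal of the algebraic integers containing 2. Then the principal 2-block consists of exactly 3 + 2^(n−2) irreducible characters, which can be labelled 1, χ₁, χ₂, χ₃ and χ^(j) for 1 ≤ j ≤ 2^(n−2) − 1 (all distinct), with signs δ₁, δ₂, δ₃ such that for 0 < λ < 2^(n−1): χ₁(σ^λ) = δ₁, χ₂(σ^λ) = δ₂(−1)^(λ+1), χ₃(σ^λ) = δ₃(−1)^(λ+1) and χ^(j)(σ^λ) = δ₁(ζ^(jλ) + ζ^(−jλ)); and for every element ρ of odd order and every j: 1 + δ₁χ₁(ρ) = −δ₂χ₂(ρ) − δ₃χ₃(ρ) = δ₁χ^(j)(ρ). -/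
theorem result {G : Type*} [Group G] [Finite G] (M : Ideal Cfsg.AlgInt) (hM : Cfsg.IsPModular 2 M) (n : ℕ) (hn : 3 ≤ n) (P : Sylow 2 G) (hP : Nonempty ((P : Subgroup G) ≃* DihedralGroup (2 ^ (n - 1)))) (σ : G) (hσ : σ ∈ (P : Subgroup G)) (hσo : orderOf σ = 2 ^ (n - 1)) (ζ : ℂ) (hζ : IsPrimitiveRoot ζ (2 ^ (n - 1))) : Nat.card (Cfsg.principalBlock M G) = 3 + 2 ^ (n - 2) ∧ ∃ (χ₁ χ₂ χ₃ : Cfsg.IrrCharacter G) (χ' : Fin (2 ^ (n - 2) - 1) → Cfsg.IrrCharacter G) (δ₁ δ₂ δ₃ : ℤ), (δ₁ = 1 ∨ δ₁ = -1) ∧ (δ₂ = 1 ∨ δ₂ = -1) ∧ (δ₃ = 1 ∨ δ₃ = -1) ∧ Function.Injective χ' ∧ (χ₁ : G → ℂ) ≠ (fun _ => 1) ∧ (χ₂ : G → ℂ) ≠ (fun _ => 1) ∧ (χ₃ : G → ℂ) ≠ (fun _ => 1) ∧ χ₁ ≠ χ₂ ∧ χ₁ ≠ χ₃ ∧ χ₂ ≠ χ₃ ∧ (∀ j, χ' j ≠ χ₁ ∧ χ' j ≠ χ₂ ∧ χ' j ≠ χ₃ ∧ (χ' j : G → ℂ) ≠ (fun _ => 1)) ∧ Cfsg.principalBlock M G = {χ : Cfsg.IrrCharacter G | (χ : G → ℂ) = (fun _ => 1) ∨ χ = χ₁ ∨ χ = χ₂ ∨ χ = χ₃ ∨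 ∃ j, χ = χ' j} ∧ (∀ l : ℕ, 0 < l → l < 2 ^ (n - 1) → (χ₁ : G → ℂ) (σ ^ l) = δ₁ ∧ (χ₂ : G → ℂ) (σ ^ l) = δ₂ * (-1) ^ (l + 1) ∧ (χ₃ : G → ℂ) (σ ^ l) = δ₃ * (-1) ^ (l + 1) ∧ ∀ j : Fin (2 ^ (n - 2) - 1), (χ' j : G → ℂ) (σ ^ l) = δ₁ * (ζ ^ (((j : ℕ) + 1) * l) + (ζ ^ (((j : ℕ) + 1) * l))⁻¹)) ∧ ∀ ρ : G, Odd (orderOf ρ) → ∀ j : Fin (2 ^ (n - 2) - 1), 1 + δ₁ * (χ₁ : G → ℂ) ρ = -δ₂ * (χ₂ : G → ℂ) ρ - δ₃ * (χ₃ : G → ℂ) ρ ∧ 1 + δ₁ * (χ₁ : G → ℂ) ρ = δ₁ * (χ' j : G → ℂ) ρ := by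
  classical
  have hp2 : Fact (Nat.Prime 2) := ⟨Nat.prime_two⟩
  let _ : Fintype G := Fintype.ofFinite G
  have hirr := Cfsg.Agent.Lib.Helper4.irr_finite (G := G)
  let _ : Fintype (IrrCharacter G) := Fintype.ofFinite _
  let _ : Fintype (↥(Subgroup.zpowers σ) →* ℂˣ) := Fintype.ofFinite _
  obtain ⟨h, hh⟩ : ∃ h : ℕ, h = 2 ^ (n - 2) := ⟨_, rfl⟩
  have hm : 2 ^ (n - 1) = 2 * h := by
    rw [hh, ← pow_succ']
    congr 1
    omega
  have hh2 : 2 ≤ h := by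
    rw [hh]
    calc 2 = 2 ^ 1 := by norm_num
      _ ≤ 2 ^ (n - 2) := Nat.pow_le_pow_right (by norm_num) (by omega)
  have hmpos : 0 < 2 ^ (n - 1) := by positivity
  obtain ⟨ψ₁, hval, hsurj, hinj, hper⟩ :=
    Cfsg.Agent.Lib.Helper1.dih_hom σ (2 ^ (n - 1)) hmpos hσo ζ hζ
  obtain ⟨hlam1, hlam2, hlamU, hS, hRk, hcls⟩ :=
    Cfsg.Agent.Lib.Helper1.dih_hom_two n hn ψ₁ hsurj hinj hper
  rw [← hh] at hlam1 hlam2 hlamU hS hRk hcls
  have hcase : (∀ ψ ψ' : ↥(Subgroup.zpowers σ) →* ℂˣ, ψ ≠ 1 → ψ ≠ ψ₁ ^ h → ψ' ≠ 1 →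
        ψ' ≠ ψ₁ ^ h → (ψ = ψ' ∨ ψ = ψ'⁻¹)) ∨
      ∃ ψ1 ψ2 ψ3 : ↥(Subgroup.zpowers σ) →* ℂˣ, (ψ1 ≠ 1 ∧ ψ1 ≠ ψ₁ ^ h) ∧
        (ψ2 ≠ 1 ∧ ψ2 ≠ ψ₁ ^ h) ∧ (ψ3 ≠ 1 ∧ ψ3 ≠ ψ₁ ^ h) ∧ ¬ (ψ1 = ψ2 ∨ ψ1 = ψ2⁻¹) ∧
        ¬ (ψ1 = ψ3 ∨ ψ1 = ψ3⁻¹) ∧ ¬ (ψ2 = ψ3 ∨ ψ2 = ψ3⁻¹) := by
    by_cases hn3 : n = 3
    · left
      intro ψ ψ' h1 h2 h1' h2'
      obtain ⟨k, hk0, hk, hψ⟩ := hcls ψ h1 h2
      obtain ⟨k', hk0', hk', hψ'⟩ := hcls ψ' h1' h2'
      have hh' : h = 2 := by rw [hh, hn3]; norm_num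
      have hk1 : k = 1 := by omega
      have hk1' : k' = 1 := by omega
      subst hk1 hk1'
      rcases hψ with rfl | rfl <;> rcases hψ' with rfl | rfl
      · left; rfl
      · right; exact (inv_inv (ψ₁ ^ 1)).symm
      · right; rfl
      · left; rfl
    · right
      have hh4 : 4 ≤ h := by
        rw [hh]
        calc 4 = 2 ^ 2 := by norm_num
          _ ≤ 2 ^ (n - 2) := Nat.pow_le_pow_right (by norm_num) (by omega)
      refine ⟨ψ₁ ^ 1, ψ₁ ^ 2, ψ₁ ^ 3, hS 1 (by omega) (by omega), hS 2 (by omega) (by omega),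
        hS 3 (by omega) (by omega), ?_, ?_, ?_⟩
      · intro hR
        have := hRk 1 2 (by omega) (by omega) (by omega) (by omega) hR
        omega
      · intro hR
        have := hRk 1 3 (by omega) (by omega) (by omega) (by omega) hR
        omega
      · intro hR
        have := hRk 2 3 (by omega) (by omega) (by omega) (by omega) hR
        omega
  have hex : ∃ ψ0 : ↥(Subgroup.zpowers σ) →* ℂˣ, ψ0 ≠ 1 ∧ ψ0 ≠ ψ₁ ^ h :=
    ⟨ψ₁ ^ 1, hS 1 (by omega) (by omega)⟩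
  obtain ⟨ε, s2, s3, χ1, χ2, χ3, Θ, hε, hs2, hs3, h11, h21, h31, h12, h13, h23, hχ1B, hχ2B, hχ3B,
      hΘ, hΘiff, hcoef, hcoefl, hreg, hregl⟩ :=
    Cfsg.Agent.Lib.Helper1.dih_struct hM n hn P hP σ hσ hσo (ψ₁ ^ h) hlam1 hlam2 hlamU hcase hex
  have hjlt : ∀ j : Fin (2 ^ (n - 2) - 1), 0 < (j : ℕ) + 1 ∧ (j : ℕ) + 1 < h := by
    intro j
    have h3 : (j : ℕ) < h - 1 := by rw [hh]; exact j.2
    omega
  obtain ⟨χ', hχ'⟩ : ∃ χ' : Fin (2 ^ (n - 2) - 1) → IrrCharacter G,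
      χ' = fun j : Fin (2 ^ (n - 2) - 1) => Θ (ψ₁ ^ ((j : ℕ) + 1)) := ⟨_, rfl⟩
  have hχ'inj : Function.Injective χ' := by
    intro j k hjk
    rw [hχ'] at hjk
    simp only at hjk
    have hSj := hS _ (hjlt j).1 (hjlt j).2
    have hSk := hS _ (hjlt k).1 (hjlt k).2
    have hR := (hΘiff _ hSj.1 hSj.2 _ hSk.1 hSk.2).mp hjk
    have := hRk _ _ (hjlt j).1 (hjlt j).2 (hjlt k).1 (hjlt k).2 hR
    exact Fin.ext (by omega)
  have hχ'prop : ∀ j, χ' j ∈ principalBlock M G ∧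
      χ' j ≠ Cfsg.Agent.Lib.Helper83.trivIrr G ∧ χ' j ≠ χ1 ∧ χ' j ≠ χ2 ∧ χ' j ≠ χ3 := by
    intro j
    rw [hχ']
    exact hΘ _ (hS _ (hjlt j).1 (hjlt j).2).1 (hS _ (hjlt j).1 (hjlt j).2).2
  have hfour : ∀ (χ : IrrCharacter G) (y : ↥(Subgroup.zpowers σ)), y ≠ 1 →
      ∑ ψ : ↥(Subgroup.zpowers σ) →* ℂˣ,
        Cfsg.Agent.Lib.Helper1.babCoef (Subgroup.zpowers σ) (χ : G → ℂ) ψ * ((ψ y : ℂˣ) : ℂ) =
      (χ : G → ℂ) (y : G) :=
    fun χ y hy => Cfsg.Agent.Lib.Helper1.bab_fourier (Subgroup.zpowers σ) (χ : G → ℂ) y hy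
  have hBsub : ∀ χ ∈ principalBlock M G, χ = Cfsg.Agent.Lib.Helper83.trivIrr G ∨ χ = χ1 ∨
      χ = χ2 ∨ χ = χ3 ∨ ∃ j, χ = χ' j := by
    intro χ hχ
    have hne := Cfsg.Agent.Lib.Helper1.dih_ne_zero hM P χ hχ (σ ^ (2 ^ (n - 2)))
      (Cfsg.Agent.Lib.Helper1.dih_P_le n hn (P : Subgroup G) hP σ hσ hσo)
    have hf := hfour χ ⟨σ ^ (2 ^ (n - 2)), pow_mem (Subgroup.mem_zpowers σ) _⟩
      (fun h' => Cfsg.Agent.Lib.Helper1.dih_J_ne_one n hn σ hσo (congrArg Subtype.val h'))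
    obtain ⟨ψ, hψ⟩ : ∃ ψ : ↥(Subgroup.zpowers σ) →* ℂˣ,
        Cfsg.Agent.Lib.Helper1.babCoef (Subgroup.zpowers σ) (χ : G → ℂ) ψ ≠ 0 := by
      by_contra hcon
      push Not at hcon
      apply hne
      refine Eq.trans hf.symm ?_
      exact Finset.sum_eq_zero fun ψ _ => by rw [hcon ψ, zero_mul]
    have hψ1 : ψ ≠ 1 := by
      rintro rfl
      exact hψ (Cfsg.Agent.Lib.Helper1.babCoef_one _ _)
    by_cases hψl : ψ = ψ₁ ^ h
    · rw [hψl, hcoefl χ hχ] at hψ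
      by_contra hcon
      push Not at hcon
      apply hψ
      rw [if_neg hcon.1, if_neg hcon.2.1, if_neg hcon.2.2.1, if_neg hcon.2.2.2.1]
      ring
    · rw [hcoef ψ hψ1 hψl χ hχ] at hψ
      by_contra hcon
      push Not at hcon
      apply hψ
      have hΘχ : χ ≠ Θ ψ := by
        obtain ⟨k, hk0, hk, hk'⟩ := hcls ψ hψ1 hψl
        have hj : k - 1 < 2 ^ (n - 2) - 1 := by rw [← hh]; omega
        have hχ'k : χ' ⟨k - 1, hj⟩ = Θ (ψ₁ ^ k) := by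
          rw [hχ']
          simp only
          rw [show k - 1 + 1 = k by omega]
        have hΘeq : Θ ψ = Θ (ψ₁ ^ k) :=
          (hΘiff ψ hψ1 hψl _ (hS k hk0 hk).1 (hS k hk0 hk).2).mpr hk'
        rw [hΘeq, ← hχ'k]
        exact hcon.2.2.2.2 ⟨k - 1, hj⟩
      rw [if_neg hcon.1, if_neg hcon.2.1, if_neg hΘχ]
      ring
  have hBeq : principalBlock M G = {χ : IrrCharacter G | (χ : G → ℂ) = (fun _ => 1) ∨ χ = χ1 ∨
      χ = χ2 ∨ χ = χ3 ∨ ∃ j, χ = χ' j} := by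
    ext χ
    constructor
    · intro hχ
      rcases hBsub χ hχ with h' | h' | h' | h' | h'
      · left; rw [h']; rfl
      · right; left; exact h'
      · right; right; left; exact h'
      · right; right; right; left; exact h'
      · right; right; right; right; exact h'
    · rintro (h' | h' | h' | h' | ⟨j, h'⟩)
      · have h'' : χ = Cfsg.Agent.Lib.Helper83.trivIrr G := Subtype.ext h'
        rw [h'']
        exact Cfsg.Agent.Lib.Helper79.trivIrr_mem_principalBlock hM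
      · rw [h']; exact hχ1B
      · rw [h']; exact hχ2B
      · rw [h']; exact hχ3B
      · rw [h']; exact (hχ'prop j).1
  have hcard : Nat.card (principalBlock M G) = 3 + 2 ^ (n - 2) := by
    have hn3' : χ3 ∉ Finset.univ.image χ' := by
      rw [Finset.mem_image]
      rintro ⟨j, -, hj⟩
      exact (hχ'prop j).2.2.2.2 hj
    have hn2' : χ2 ∉ insert χ3 (Finset.univ.image χ') := by
      rw [Finset.mem_insert, Finset.mem_image]
      rintro (h' | ⟨j, -, hj⟩)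
      · exact h23 h'
      · exact (hχ'prop j).2.2.2.1 hj
    have hn1' : χ1 ∉ insert χ2 (insert χ3 (Finset.univ.image χ')) := by
      rw [Finset.mem_insert, Finset.mem_insert, Finset.mem_image]
      rintro (h' | h' | ⟨j, -, hj⟩)
      · exact h12 h'
      · exact h13 h'
      · exact (hχ'prop j).2.2.1 hj
    have hn0' : Cfsg.Agent.Lib.Helper83.trivIrr G ∉
        insert χ1 (insert χ2 (insert χ3 (Finset.univ.image χ'))) := by
      rw [Finset.mem_insert, Finset.mem_insert, Finset.mem_insert, Finset.mem_image]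
      rintro (h' | h' | h' | ⟨j, -, hj⟩)
      · exact h11 h'.symm
      · exact h21 h'.symm
      · exact h31 h'.symm
      · exact (hχ'prop j).2.1 hj
    have hF : principalBlock M G = ((insert (Cfsg.Agent.Lib.Helper83.trivIrr G)
        (insert χ1 (insert χ2 (insert χ3 (Finset.univ.image χ')))) :
          Finset (IrrCharacter G)) : Set (IrrCharacter G)) := by
      ext χ
      rw [Finset.mem_coe, Finset.mem_insert, Finset.mem_insert, Finset.mem_insert,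
        Finset.mem_insert, Finset.mem_image]
      constructor
      · intro hχ
        rcases hBsub χ hχ with h' | h' | h' | h' | ⟨j, h'⟩
        · left; exact h'
        · right; left; exact h'
        · right; right; left; exact h'
        · right; right; right; left; exact h'
        · right; right; right; right; exact ⟨j, Finset.mem_univ _, h'.symm⟩
      · rintro (h' | h' | h' | h' | ⟨j, -, h'⟩)
        · rw [h']
          exact Cfsg.Agent.Lib.Helper79.trivIrr_mem_principalBlock hM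
        · rw [h']; exact hχ1B
        · rw [h']; exact hχ2B
        · rw [h']; exact hχ3B
        · rw [← h']; exact (hχ'prop j).1
    rw [hF, Nat.card_coe_set_eq, Set.ncard_coe_finset, Finset.card_insert_of_notMem hn0',
      Finset.card_insert_of_notMem hn1', Finset.card_insert_of_notMem hn2',
      Finset.card_insert_of_notMem hn3', Finset.card_image_of_injective _ hχ'inj,
      Finset.card_univ, Fintype.card_fin]
    have : 1 ≤ 2 ^ (n - 2) := Nat.one_le_two_pow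
    omega
  -- the coefficient functions
  have hc1 : ∀ ψ : ↥(Subgroup.zpowers σ) →* ℂˣ,
      Cfsg.Agent.Lib.Helper1.babCoef (Subgroup.zpowers σ) (χ1 : G → ℂ) ψ =
        -(ε : ℂ) + (ε : ℂ) * (if ψ = 1 then 1 else 0) := by
    intro ψ
    by_cases h1 : ψ = 1
    · rw [h1, Cfsg.Agent.Lib.Helper1.babCoef_one, if_pos rfl]
      ring
    · rw [if_neg h1]
      by_cases h2 : ψ = ψ₁ ^ h
      · rw [h2, hcoefl χ1 hχ1B, if_neg h11, if_pos rfl, if_neg h12, if_neg h13]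
        ring
      · rw [hcoef ψ h1 h2 χ1 hχ1B, if_neg h11, if_pos rfl,
          if_neg (Ne.symm (hΘ ψ h1 h2).2.2.1)]
        ring
  have hc2 : ∀ ψ : ↥(Subgroup.zpowers σ) →* ℂˣ,
      Cfsg.Agent.Lib.Helper1.babCoef (Subgroup.zpowers σ) (χ2 : G → ℂ) ψ =
        (s2 : ℂ) * (if ψ = ψ₁ ^ h then 1 else 0) := by
    intro ψ
    by_cases h1 : ψ = 1
    · rw [h1, Cfsg.Agent.Lib.Helper1.babCoef_one, if_neg (Ne.symm hlam1)]
      ring
    · by_cases h2 : ψ = ψ₁ ^ h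
      · rw [if_pos h2, h2, hcoefl χ2 hχ2B, if_neg h21, if_neg (Ne.symm h12), if_pos rfl,
          if_neg h23]
        ring
      · rw [if_neg h2, hcoef ψ h1 h2 χ2 hχ2B, if_neg h21, if_neg (Ne.symm h12),
          if_neg (Ne.symm (hΘ ψ h1 h2).2.2.2.1)]
        ring
  have hc3 : ∀ ψ : ↥(Subgroup.zpowers σ) →* ℂˣ,
      Cfsg.Agent.Lib.Helper1.babCoef (Subgroup.zpowers σ) (χ3 : G → ℂ) ψ =
        (s3 : ℂ) * (if ψ = ψ₁ ^ h then 1 else 0) := by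
    intro ψ
    by_cases h1 : ψ = 1
    · rw [h1, Cfsg.Agent.Lib.Helper1.babCoef_one, if_neg (Ne.symm hlam1)]
      ring
    · by_cases h2 : ψ = ψ₁ ^ h
      · rw [if_pos h2, h2, hcoefl χ3 hχ3B, if_neg h31, if_neg (Ne.symm h13),
          if_neg (Ne.symm h23), if_pos rfl]
        ring
      · rw [if_neg h2, hcoef ψ h1 h2 χ3 hχ3B, if_neg h31, if_neg (Ne.symm h13),
          if_neg (Ne.symm (hΘ ψ h1 h2).2.2.2.2)]
        ring
  have hcΘ : ∀ ψ0 : ↥(Subgroup.zpowers σ) →* ℂˣ, ψ0 ≠ 1 → ψ0 ≠ ψ₁ ^ h →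
      ∀ ψ : ↥(Subgroup.zpowers σ) →* ℂˣ,
      Cfsg.Agent.Lib.Helper1.babCoef (Subgroup.zpowers σ) (Θ ψ0 : G → ℂ) ψ =
        (ε : ℂ) * (if ψ = ψ0 then 1 else 0) + (ε : ℂ) * (if ψ = ψ0⁻¹ then 1 else 0) := by
    intro ψ0 h01 h0l ψ
    have hΘ0 := hΘ ψ0 h01 h0l
    have hself : ψ0 ≠ ψ0⁻¹ := by
      intro h'
      rcases hlamU ψ0 h'.symm with h'' | h''
      · exact h01 h''
      · exact h0l h''
    have hinv1 : ψ0⁻¹ ≠ 1 := fun h' => h01 ((inv_eq_one (a := ψ0)).mp h')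
    have hinvl : ψ0⁻¹ ≠ ψ₁ ^ h := by
      intro h'
      apply h0l
      rw [← inv_inv ψ0, h', hlam2]
    by_cases h1 : ψ = 1
    · rw [h1, Cfsg.Agent.Lib.Helper1.babCoef_one, if_neg (Ne.symm h01), if_neg (Ne.symm hinv1)]
      ring
    · by_cases h2 : ψ = ψ₁ ^ h
      · rw [h2, hcoefl _ hΘ0.1, if_neg hΘ0.2.1, if_neg hΘ0.2.2.1, if_neg hΘ0.2.2.2.1,
          if_neg hΘ0.2.2.2.2, if_neg (Ne.symm h0l), if_neg (Ne.symm hinvl)]
        ring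
      · rw [hcoef ψ h1 h2 _ hΘ0.1, if_neg hΘ0.2.1, if_neg hΘ0.2.2.1]
        by_cases h3 : ψ = ψ0
        · rw [if_pos h3, if_pos (by rw [h3]), if_neg (h3 ▸ hself)]
          ring
        · by_cases h4 : ψ = ψ0⁻¹
          · rw [if_neg h3, if_pos h4,
              if_pos ((hΘiff ψ0 h01 h0l ψ h1 h2).mpr (Or.inr (by rw [h4]; exact (inv_inv ψ0).symm)))]
            ring
          · have h5 : ¬ Θ ψ0 = Θ ψ := by
              intro h'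
              rcases (hΘiff ψ0 h01 h0l ψ h1 h2).mp h' with h5 | h5
              · exact h3 h5.symm
              · exact h4 (by rw [h5]; exact (inv_inv ψ).symm)
            rw [if_neg h3, if_neg h4, if_neg h5]
            ring
  have hsum0 : ∀ y : ↥(Subgroup.zpowers σ), y ≠ 1 →
      ∑ ψ : ↥(Subgroup.zpowers σ) →* ℂˣ, ((ψ y : ℂˣ) : ℂ) = 0 := by
    intro y hy
    rw [Cfsg.Agent.Lib.Helper1.bab_orth_dual, if_neg hy]
  have hv1 : ∀ y : ↥(Subgroup.zpowers σ), y ≠ 1 → (χ1 : G → ℂ) (y : G) = (ε : ℂ) := by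
    intro y hy
    rw [← hfour χ1 y hy]
    have h4 : ∀ ψ : ↥(Subgroup.zpowers σ) →* ℂˣ,
        Cfsg.Agent.Lib.Helper1.babCoef (Subgroup.zpowers σ) (χ1 : G → ℂ) ψ * ((ψ y : ℂˣ) : ℂ) =
        -(ε : ℂ) * ((ψ y : ℂˣ) : ℂ) + (ε : ℂ) * ((if ψ = 1 then (1 : ℂ) else 0) *
          ((ψ y : ℂˣ) : ℂ)) := by
      intro ψ
      rw [hc1 ψ]
      ring
    rw [Finset.sum_congr rfl (fun ψ _ => h4 ψ), Finset.sum_add_distrib, ← Finset.mul_sum,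
      ← Finset.mul_sum, hsum0 y hy,
      Cfsg.Agent.Lib.Helper1.dih_sum_ite (1 : ↥(Subgroup.zpowers σ) →* ℂˣ)
        (fun ψ => ((ψ y : ℂˣ) : ℂ))]
    simp
  have hv23 : ∀ (χ : IrrCharacter G) (s : ℤ), (∀ ψ : ↥(Subgroup.zpowers σ) →* ℂˣ,
      Cfsg.Agent.Lib.Helper1.babCoef (Subgroup.zpowers σ) (χ : G → ℂ) ψ =
        (s : ℂ) * (if ψ = ψ₁ ^ h then 1 else 0)) →
      ∀ y : ↥(Subgroup.zpowers σ), y ≠ 1 →
        (χ : G → ℂ) (y : G) = (s : ℂ) * (((ψ₁ ^ h) y : ℂˣ) : ℂ) := by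
    intro χ s hc y hy
    rw [← hfour χ y hy]
    have h4 : ∀ ψ : ↥(Subgroup.zpowers σ) →* ℂˣ,
        Cfsg.Agent.Lib.Helper1.babCoef (Subgroup.zpowers σ) (χ : G → ℂ) ψ * ((ψ y : ℂˣ) : ℂ) =
        (s : ℂ) * ((if ψ = ψ₁ ^ h then (1 : ℂ) else 0) * ((ψ y : ℂˣ) : ℂ)) := by
      intro ψ
      rw [hc ψ]
      ring
    rw [Finset.sum_congr rfl (fun ψ _ => h4 ψ), ← Finset.mul_sum,
      Cfsg.Agent.Lib.Helper1.dih_sum_ite (ψ₁ ^ h) (fun ψ => ((ψ y : ℂˣ) : ℂ))]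
  have hvΘ : ∀ ψ0 : ↥(Subgroup.zpowers σ) →* ℂˣ, ψ0 ≠ 1 → ψ0 ≠ ψ₁ ^ h →
      ∀ y : ↥(Subgroup.zpowers σ), y ≠ 1 →
        (Θ ψ0 : G → ℂ) (y : G) = (ε : ℂ) * (((ψ0 y : ℂˣ) : ℂ) + (((ψ0 y : ℂˣ) : ℂ))⁻¹) := by
    intro ψ0 h01 h0l y hy
    rw [← hfour (Θ ψ0) y hy]
    have h4 : ∀ ψ : ↥(Subgroup.zpowers σ) →* ℂˣ,
        Cfsg.Agent.Lib.Helper1.babCoef (Subgroup.zpowers σ) (Θ ψ0 : G → ℂ) ψ *
          ((ψ y : ℂˣ) : ℂ) =
        (ε : ℂ) * ((if ψ = ψ0 then (1 : ℂ) else 0) * ((ψ y : ℂˣ) : ℂ)) +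
          (ε : ℂ) * ((if ψ = ψ0⁻¹ then (1 : ℂ) else 0) * ((ψ y : ℂˣ) : ℂ)) := by
      intro ψ
      rw [hcΘ ψ0 h01 h0l ψ]
      ring
    rw [Finset.sum_congr rfl (fun ψ _ => h4 ψ), Finset.sum_add_distrib, ← Finset.mul_sum,
      ← Finset.mul_sum, Cfsg.Agent.Lib.Helper1.dih_sum_ite ψ0 (fun ψ => ((ψ y : ℂˣ) : ℂ)),
      Cfsg.Agent.Lib.Helper1.dih_sum_ite ψ0⁻¹ (fun ψ => ((ψ y : ℂˣ) : ℂ)),
      MonoidHom.inv_apply, Units.val_inv_eq_inv_val]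
    ring
  have hζh : ζ ^ h = -1 := by
    have h1 : (ζ ^ h) ^ 2 = 1 := by
      rw [← pow_mul, mul_comm, ← hm]
      exact hζ.pow_eq_one
    have h2 : ζ ^ h ≠ 1 := hζ.pow_ne_one_of_pos_of_lt (by omega) (by omega)
    rcases sq_eq_one_iff.mp h1 with h3 | h3
    · exact absurd h3 h2
    · exact h3
  refine ⟨hcard, χ1, χ2, χ3, χ', ε, -s2, -s3, hε, ?_, ?_, hχ'inj,
    fun hf => h11 (Subtype.ext hf), fun hf => h21 (Subtype.ext hf),
    fun hf => h31 (Subtype.ext hf), h12, h13, h23, ?_, hBeq, ?_, ?_⟩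
  · rcases hs2 with h' | h' <;> rw [h'] <;> norm_num
  · rcases hs3 with h' | h' <;> rw [h'] <;> norm_num
  · intro j
    exact ⟨(hχ'prop j).2.2.1, (hχ'prop j).2.2.2.1, (hχ'prop j).2.2.2.2,
      fun hf => (hχ'prop j).2.1 (Subtype.ext hf)⟩
  · intro l hl0 hl
    have hy : (⟨σ ^ l, pow_mem (Subgroup.mem_zpowers σ) l⟩ : ↥(Subgroup.zpowers σ)) ≠ 1 := by
      intro h'
      have h'' : σ ^ l = 1 := congrArg Subtype.val h'
      exact pow_ne_one_of_lt_orderOf hl0.ne' (by rw [hσo]; exact hl) h''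
    have hlam : (((ψ₁ ^ h) ⟨σ ^ l, pow_mem (Subgroup.mem_zpowers σ) l⟩ : ℂˣ) : ℂ) = (-1) ^ l := by
      rw [hval h l, pow_mul, hζh]
    refine ⟨hv1 _ hy, ?_, ?_, ?_⟩
    · have h1 := hv23 χ2 s2 hc2 _ hy
      rw [hlam] at h1
      refine Eq.trans h1 ?_
      push_cast
      ring
    · have h1 := hv23 χ3 s3 hc3 _ hy
      rw [hlam] at h1
      refine Eq.trans h1 ?_
      push_cast
      ring
    · intro j
      have hSj := hS _ (hjlt j).1 (hjlt j).2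
      have h1 := hvΘ _ hSj.1 hSj.2 _ hy
      rw [hval] at h1
      rw [hχ']
      exact h1
  · intro ρ hρ j
    have hρ2 : ¬ 2 ∣ orderOf ρ := by
      intro h'
      exact (Nat.not_even_iff_odd.mpr hρ) (even_iff_two_dvd.mpr h')
    have hSj := hS _ (hjlt j).1 (hjlt j).2
    have h1 := congrArg (starRingEnd ℂ) (hreg _ hSj.1 hSj.2 ρ hρ2)
    have h2 := congrArg (starRingEnd ℂ) (hregl ρ hρ2)
    simp only [map_sub, map_add, map_mul, map_neg, map_one, Complex.conj_conj, map_intCast,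
      map_zero] at h1 h2
    constructor
    · push_cast
      linear_combination (-1 : ℂ) * h2
    · rw [hχ']
      linear_combination (-1 : ℂ) * h1

end Cfsg.Agent.S4481
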