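import Cfsg.Statements.S0780
import Mathlib
import Cfsg.Agent.Lib.Helper7.SUGenC

set_option autoImplicit false
open Cfsg

namespace Cfsg.Agent.S0780

/-- Generation of SU_n(q), n ≥ 3, (n, q) ≠ (3, 2), by unitary transvections: the subgroup generated by the elements whose matrix is x ↦ x + c h(x, v) v with v isotropic is all of SU_n(q). -/
theorem result {F : Type*} [Field F] [Fintype F] {q : ℕ} (hF : Fintype.card F = q ^ 2) (n : ℕ) (hn : 3 ≤ n) (h32 : ¬ (n = 3 ∧ q = 2)) : Subgroup.closure {A : ↥(Cfsg.SU n F q) | ∃ (v : Fin n → F) (c : F), Cfsg.hermForm n F q v v = 0 ∧ ((A : Matrix.SpecialLinearGroup (Fin n) F) : Matrix (Fin n) (Fin n) F) = Cfsg.unitaryTransvection n q v c} = ⊤ := by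
  have hq2 := Cfsg.Agent.Lib.Helper7.herm_two_le hF
  have hnq : 4 ≤ n ∨ 3 ≤ q := by
    by_cases h3 : n = 3
    · right
      by_contra hq
      exact h32 ⟨h3, by omega⟩
    · left
      omega
  rw [eq_top_iff]
  intro A _
  exact Cfsg.Agent.Lib.Helper7.su_mem_closure_of_mem_TM hF n _
    (Cfsg.Agent.Lib.Helper7.suTM_eq hF n hn hnq _
      ((Cfsg.Agent.Lib.Helper7.mem_SU_iff A.1).mp A.2) A.1.2) A rfl

end Cfsg.Agent.S0780
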