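import Cfsg.Statements.S0783
import Mathlib
import Cfsg.Agent.Lib.Helper7.SUOrder

set_option autoImplicit false
open Cfsg

namespace Cfsg.Agent.S0783

open Cfsg.Agent.Lib.Helper7 Matrix

variable {F : Type*} [Field F] [Fintype F] {q : ℕ}

private noncomputable def mkGU (hF : Fintype.card F = q ^ 2) {n : ℕ}
    (M : Matrix (Fin n) (Fin n) F) (hM : IsFr q n n (colFr M)) : Cfsg.GU n F q :=
  ⟨(isUnit_of_preserves hF M (preserves_of_isFr hF M hM)).unit, (mem_GU_iff_isFr hF _).mpr hM⟩

private theorem mkGU_val (hF : Fintype.card F = q ^ 2) {n : ℕ}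
    (M : Matrix (Fin n) (Fin n) F) (hM : IsFr q n n (colFr M)) :
    (((mkGU hF M hM : Cfsg.GU n F q) : GL (Fin n) F) : Matrix (Fin n) (Fin n) F) = M := rfl

private theorem isFr_perm (hF : Fintype.card F = q ^ 2) {n : ℕ} (σ : Equiv.Perm (Fin n)) :
    IsFr q n n (colFr (σ.toPEquiv.toMatrix : Matrix (Fin n) (Fin n) F)) := by
  apply isFr_of_preserves hF
  intro u v
  rw [PEquiv.toMatrix_toPEquiv_mulVec, PEquiv.toMatrix_toPEquiv_mulVec]
  unfold Cfsg.hermForm
  exact Equiv.sum_comp σ (fun i => u i * v i ^ q)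

private theorem exists_norm_one_ne_one (hF : Fintype.card F = q ^ 2) :
    ∃ a : F, a ^ (q + 1) = 1 ∧ a ≠ 1 := by
  have hcard := herm_card_ker (F := F) hF
  have h2 := herm_two_le hF
  have : Nontrivial (powMonoidHom (q + 1) : Fˣ →* Fˣ).ker := by
    rw [← Finite.one_lt_card_iff_nontrivial, hcard]
    omega
  obtain ⟨x, hx⟩ := exists_ne (1 : (powMonoidHom (q + 1) : Fˣ →* Fˣ).ker)
  refine ⟨((x : Fˣ) : F), ?_, ?_⟩
  · have := x.2
    rw [MonoidHom.mem_ker, powMonoidHom_apply] at this
    rw [← Units.val_pow_eq_pow_val, this, Units.val_one]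
  · intro h
    apply hx
    apply Subtype.ext
    apply Units.ext
    exact h

private theorem center_scalar (hF : Fintype.card F = q ^ 2) {n : ℕ} (hn : 2 ≤ n)
    (z : Cfsg.GU n F q) (hz : z ∈ Subgroup.center (Cfsg.GU n F q)) :
    ∃ c : F, c ^ (q + 1) = 1 ∧
      ((z : GL (Fin n) F) : Matrix (Fin n) (Fin n) F) = Matrix.diagonal (fun _ => c) := by
  classical
  obtain ⟨a, ha, ha1⟩ := exists_norm_one_ne_one hF
  set Z : Matrix (Fin n) (Fin n) F := ((z : GL (Fin n) F) : Matrix (Fin n) (Fin n) F) with hZ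
  have comm : ∀ (M : Matrix (Fin n) (Fin n) F) (hM : IsFr q n n (colFr M)), M * Z = Z * M := by
    intro M hM
    have h := Subgroup.mem_center_iff.mp hz (mkGU hF M hM)
    have h' := congrArg (fun g : Cfsg.GU n F q =>
      ((g : GL (Fin n) F) : Matrix (Fin n) (Fin n) F)) h
    exact h'
  have offdiag : ∀ j i, j ≠ i → Z j i = 0 := by
    intro j i hji
    have hd : ∀ l, (Function.update (fun _ => (1 : F)) i a) l ^ (q + 1) = 1 := by
      intro l
      by_cases hl : l = i
      · subst hl; simp [ha]
      · simp [Function.update_of_ne hl]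
    have h := comm _ (isFr_diagonal hF _ hd)
    have h' := congrFun (congrFun h j) i
    rw [Matrix.diagonal_mul, Matrix.mul_diagonal, Function.update_of_ne hji,
      Function.update_self, one_mul] at h'
    have h'' : Z j i * (a - 1) = 0 := by linear_combination -h'
    rcases mul_eq_zero.mp h'' with h3 | h3
    · exact h3
    · exact absurd (sub_eq_zero.mp h3) ha1
  have diag : ∀ i j, Z i i = Z j j := by
    intro i j
    have h := comm _ (isFr_perm hF (Equiv.swap i j))
    rw [PEquiv.toMatrix_toPEquiv_mul, PEquiv.mul_toMatrix_toPEquiv] at h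
    have h' := congrFun (congrFun h i) j
    simp only [Matrix.submatrix_apply, id, Equiv.swap_apply_left, Equiv.symm_swap,
      Equiv.swap_apply_right] at h'
    exact h'.symm
  have hn0 : 0 < n := by omega
  refine ⟨Z ⟨0, hn0⟩ ⟨0, hn0⟩, ?_, ?_⟩
  · have hfr := (mem_GU_iff_isFr hF z.1).mp z.2 ⟨0, hn0⟩ ⟨0, hn0⟩
    rw [if_pos rfl] at hfr
    unfold Cfsg.hermForm colFr at hfr
    rw [Finset.sum_eq_single (⟨0, hn0⟩ : Fin n)] at hfr
    · rw [pow_succ']; exact hfr
    · intro l _ hl
      have : Z l ⟨0, hn0⟩ = 0 := offdiag l _ hl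
      show Z l ⟨0, hn0⟩ * Z l ⟨0, hn0⟩ ^ q = 0
      rw [this, zero_mul]
    · intro h; exact absurd (Finset.mem_univ _) h
  · ext i j
    by_cases hij : i = j
    · subst hij
      rw [Matrix.diagonal_apply_eq]
      exact diag _ _
    · rw [Matrix.diagonal_apply_ne _ hij]
      exact offdiag i j hij

theorem result {F : Type*} [Field F] [Fintype F] {q : ℕ} (hF : Fintype.card F = q ^ 2) (n : ℕ) (hn : 2 ≤ n) : ∃ φ : ↥(Cfsg.GU n F q) →* Multiplicative (ZMod (Nat.gcd n (q + 1))), Function.Surjective φ ∧ φ.ker = (Matrix.GeneralLinearGroup.det : Matrix.GeneralLinearGroup (Fin n) F →* Fˣ).ker.subgroupOf (Cfsg.GU n F q) ⊔ Subgroup.center ↥(Cfsg.GU n F q) := by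
  classical
  let K : Subgroup Fˣ := (powMonoidHom (q + 1) : Fˣ →* Fˣ).ker
  have hKcard : Nat.card K = q + 1 := herm_card_ker hF
  let N : Subgroup K := (powMonoidHom n : K →* K).range
  have hNidx : N.index = Nat.gcd n (q + 1) := by
    rw [IsCyclic.index_powMonoidHom_range, hKcard, Nat.gcd_comm]
  have hrange := detGU_range hF n (by omega : 1 ≤ n)
  let detK : Cfsg.GU n F q →* K := (detGU n F q).codRestrict K (fun g => by
    show detGU n F q g ∈ (powMonoidHom (q + 1) : Fˣ →* Fˣ).ker
    rw [← hrange]; exact ⟨g, rfl⟩)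
  have hdetK_val : ∀ g, ((detK g : K) : Fˣ) = detGU n F q g := fun g => rfl
  have hdetK : Function.Surjective detK := by
    intro x
    have hx : (x : Fˣ) ∈ (detGU n F q).range := by rw [hrange]; exact x.2
    obtain ⟨g, hg⟩ := hx
    exact ⟨g, Subtype.ext hg⟩
  have hcyc : IsCyclic (K ⧸ N) := inferInstance
  have hcard : Nat.card (K ⧸ N) = Nat.gcd n (q + 1) := hNidx
  obtain ⟨e⟩ : Nonempty (K ⧸ N ≃* Multiplicative (ZMod (Nat.gcd n (q + 1)))) := by
    rw [← hcard]; exact ⟨(zmodCyclicMulEquiv hcyc).symm⟩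
  refine ⟨e.toMonoidHom.comp ((QuotientGroup.mk' N).comp detK), ?_, ?_⟩
  · exact e.surjective.comp ((QuotientGroup.mk'_surjective N).comp hdetK)
  · have hker : (e.toMonoidHom.comp ((QuotientGroup.mk' N).comp detK)).ker = N.comap detK := by
      ext g
      rw [MonoidHom.mem_ker, Subgroup.mem_comap]
      show e (QuotientGroup.mk' N (detK g)) = 1 ↔ _
      rw [MulEquiv.map_eq_one_iff, QuotientGroup.mk'_apply, QuotientGroup.eq_one_iff]
    rw [hker]
    apply le_antisymm
    · intro g hg
      rw [Subgroup.mem_comap] at hg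
      obtain ⟨lam, hlam⟩ := hg
      rw [powMonoidHom_apply] at hlam
      -- the scalar
      have hlamK : ((lam : Fˣ) : F) ^ (q + 1) = 1 := by
        have := lam.2
        rw [MonoidHom.mem_ker, powMonoidHom_apply] at this
        rw [← Units.val_pow_eq_pow_val, this, Units.val_one]
      let s : Cfsg.GU n F q := mkGU hF (Matrix.diagonal (fun _ => ((lam : Fˣ) : F)))
        (isFr_diagonal hF _ (fun _ => hlamK))
      have hs : s ∈ Subgroup.center (Cfsg.GU n F q) := by
        rw [Subgroup.mem_center_iff]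
        intro h
        apply Subtype.ext
        apply Units.ext
        show ((h : GL (Fin n) F) : Matrix (Fin n) (Fin n) F) * Matrix.diagonal _ =
          Matrix.diagonal _ * ((h : GL (Fin n) F) : Matrix (Fin n) (Fin n) F)
        ext a b
        rw [Matrix.mul_diagonal, Matrix.diagonal_mul, mul_comm]
      have hdets : detGU n F q s = (lam : Fˣ) ^ n := by
        apply Units.ext
        rw [detGU_val, Units.val_pow_eq_pow_val]
        show (Matrix.diagonal (fun _ => ((lam : Fˣ) : F))).det = _
        rw [Matrix.det_diagonal, Finset.prod_const, Finset.card_univ, Fintype.card_fin]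
      have hdetg : detGU n F q g = (lam : Fˣ) ^ n := by
        rw [← hdetK_val, ← hlam]; rfl
      have hgs : g * s⁻¹ ∈ (Matrix.GeneralLinearGroup.det :
          Matrix.GeneralLinearGroup (Fin n) F →* Fˣ).ker.subgroupOf (Cfsg.GU n F q) := by
        rw [Subgroup.mem_subgroupOf, MonoidHom.mem_ker]
        show detGU n F q (g * s⁻¹) = 1
        rw [map_mul, map_inv, hdets, hdetg, mul_inv_cancel]
      have : g = (g * s⁻¹) * s := by group
      rw [this]
      exact Subgroup.mul_mem_sup hgs hs
    · apply sup_le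
      · intro g hg
        rw [Subgroup.mem_subgroupOf, MonoidHom.mem_ker] at hg
        rw [Subgroup.mem_comap]
        have : detK g = 1 := by
          apply Subtype.ext
          rw [hdetK_val]
          exact hg
        rw [this]
        exact one_mem _
      · intro z hz
        obtain ⟨c, hc, hzc⟩ := center_scalar hF hn z hz
        rw [Subgroup.mem_comap]
        have hc0 : c ≠ 0 := by
          intro h
          rw [h, zero_pow (by omega)] at hc
          exact zero_ne_one hc
        let cu : Fˣ := Units.mk0 c hc0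
        have hcu : cu ∈ K := by
          show cu ∈ (powMonoidHom (q + 1) : Fˣ →* Fˣ).ker
          rw [MonoidHom.mem_ker, powMonoidHom_apply]
          apply Units.ext
          rw [Units.val_pow_eq_pow_val, Units.val_one]
          exact hc
        refine ⟨⟨cu, hcu⟩, ?_⟩
        rw [powMonoidHom_apply]
        apply Subtype.ext
        apply Units.ext
        rw [hdetK_val, detGU_val, hzc, Matrix.det_diagonal, Finset.prod_const, Finset.card_univ,
          Fintype.card_fin]
        rfl

end Cfsg.Agent.S0783
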