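import Cfsg.Statements.S0375
import Cfsg.Agent.Lib.Helper9.GolayUniq

set_option autoImplicit false
open Cfsg

namespace Cfsg.Agent.S0375

/-- A doubly even self-dual binary code of length 24 with no words of weight 4 is equivalent to the length-24 code built from the squares modulo 23. -/
theorem result (C : Submodule (ZMod 2) (Fin 24 → ZMod 2)) (hdim : Module.finrank (ZMod 2) C = 12) (horth : ∀ v ∈ C, ∀ w ∈ C, ∑ i, v i * w i = 0) (h4 : ∀ w ∈ C, 4 ∣ hammingNorm w) (hno4 : ∀ w ∈ C, hammingNorm w ≠ 4) : ∃ e : Fin 24 ≃ Cfsg.GolayPt, ∀ w : Cfsg.GolayPt → ZMod 2, w ∈ Cfsg.golayCode ↔ (fun i => w (e i)) ∈ C := by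
  exact Cfsg.Agent.Lib.Helper9.golay_unique C hdim horth h4 hno4

end Cfsg.Agent.S0375
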