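import Cfsg.Statements.S0717
import Cfsg.Agent.Lib.Helper17.PermMod4

set_option autoImplicit false
open Cfsg

namespace Cfsg.Agent.S0717

open Cfsg.Agent.Lib.Helper17
open scoped Matrix

/-- All suborbits of a transitive group are self-paired (every pair of points is interchanged by some group element) if and only if the permutation character is multiplicity-free and each of its irreducible constituents is real-valued. -/
theorem result {G : Type*} [Group G] [Fintype G] {Ω : Type*} [Fintype Ω] [MulAction G Ω] [MulAction.IsPretransitive G Ω] : (∀ a b : Ω, ∃ g : G, g • a = b ∧ g • b = a) ↔ ∀ χ : G → ℂ, Cfsg.IsIrrCharacter G χ → Cfsg.classInner (fun g : G => (Nat.card (MulAction.fixedBy Ω g) : ℂ)) χ ≠ 0 → Cfsg.classInner (fun g : G => (Nat.card (MulAction.fixedBy Ω g) : ℂ)) χ = 1 ∧ ∀ g : G, (starRingEnd ℂ) (χ g) = χ g := by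
  classical
  constructor
  · intro hgen
    have hsymm : ∀ M : Matrix Ω Ω ℂ, InvMat G M → Mᵀ = M := by
      intro M hM
      ext α β
      obtain ⟨g, h1, h2⟩ := hgen α β
      rw [Matrix.transpose_apply, ← hM g α β, h1, h2]
    have hcomm : ∀ M N : Matrix Ω Ω ℂ, InvMat G M → InvMat G N → M * N = N * M := by
      intro M N hM hN
      have hMN : InvMat G (M * N) := by
        rw [invMat_iff_comm]
        intro g
        rw [← Matrix.mul_assoc, hM.comm g, Matrix.mul_assoc, hN.comm g, Matrix.mul_assoc]
      have h1 := hsymm _ hMN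
      rw [Matrix.transpose_mul, hsymm M hM, hsymm N hN] at h1
      exact h1.symm
    intro χ hχ h0
    refine ⟨?_, fun g => real_of_symm hsymm hχ h0 g⟩
    rcases multFree_of_comm hcomm hχ with h | h
    · exact absurd h h0
    · exact h
  · intro h a b
    have hsym := symm_of_multFree_real (G := G) (Ω := Ω) h (orbMat_inv a b)
    have h1 : ((orbMat G a b).map (Int.castRingHom ℂ)) a b = 1 := by
      rw [orbMat_map_apply, if_pos ⟨1, one_smul _ _, one_smul _ _⟩]
    have h2 : ((orbMat G a b).map (Int.castRingHom ℂ)) b a = 1 := by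
      rw [← h1]
      exact congrFun (congrFun hsym a) b
    rw [orbMat_map_apply] at h2
    by_contra hcon
    rw [if_neg hcon] at h2
    exact zero_ne_one h2

end Cfsg.Agent.S0717
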