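import Cfsg.Statements.S0719
import Cfsg.Agent.Lib.Helper17.PermMod4
import Cfsg.Agent.S0717

set_option autoImplicit false
open Cfsg

namespace Cfsg.Agent.S0719

open Cfsg.Agent.Lib.Helper17 Cfsg.Agent.Lib.Helper4
open scoped Matrix ComplexConjugate Pointwise

/-- The arithmetic core of the rank three computation. -/
theorem nt_core (m k : ℕ) (u : ℤ) (hm : 2 ≤ m) (hk2 : 2 ≤ k) (hk3 : k + 3 ≤ 2 * m)
    (h : (k : ℤ) ^ 2 + ((m : ℤ) - 1) * (k + m * u) ^ 2 + m * (k + ((m : ℤ) - 1) * u) ^ 2 =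
      2 * m * k) :
    ∃ a : ℕ, 0 < a ∧ m = 2 * a ^ 2 + 2 * a + 1 ∧ (k = a * (2 * a + 1) ∨ k = (a + 1) * (2 * a + 1)) := by
  have hm0 : (m : ℤ) ≠ 0 := by exact_mod_cast (by omega : m ≠ 0)
  have key0 : (m : ℤ) * ((2 * (k : ℤ) + 2 * ((m : ℤ) - 1) * u - 1) ^ 2 -
      (1 - 2 * ((m : ℤ) - 1) * u * (u + 2))) = 0 := by
    linear_combination 2 * h
  have key : (2 * (k : ℤ) + 2 * ((m : ℤ) - 1) * u - 1) ^ 2 =
      1 - 2 * ((m : ℤ) - 1) * u * (u + 2) := by
    rcases mul_eq_zero.mp key0 with h0 | h0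
    · exact absurd h0 hm0
    · linarith
  have hm1 : (1 : ℤ) ≤ (m : ℤ) - 1 := by
    have : (2 : ℤ) ≤ m := by exact_mod_cast hm
    linarith
  have hu1 : u ≤ 0 := by
    by_contra hcon
    push Not at hcon
    have h1 : 0 ≤ (2 * (k : ℤ) + 2 * ((m : ℤ) - 1) * u - 1) ^ 2 := sq_nonneg _
    have h2 : 3 ≤ u * (u + 2) := by nlinarith
    nlinarith
  have hu2 : -2 ≤ u := by
    by_contra hcon
    push Not at hcon
    have h1 : 0 ≤ (2 * (k : ℤ) + 2 * ((m : ℤ) - 1) * u - 1) ^ 2 := sq_nonneg _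
    have h2 : 3 ≤ u * (u + 2) := by nlinarith
    nlinarith
  have hk2' : (2 : ℤ) ≤ k := by exact_mod_cast hk2
  have hk3' : (k : ℤ) + 3 ≤ 2 * m := by exact_mod_cast hk3
  have hu : u = 0 ∨ u = -1 ∨ u = -2 := by omega
  rcases hu with rfl | rfl | rfl
  · exfalso
    have h1 : (2 * (k : ℤ) - 1) ^ 2 = 1 := by linarith
    have h2 : 2 * (k : ℤ) - 1 = 1 ∨ 2 * (k : ℤ) - 1 = -1 := by
      have h3 : (2 * (k : ℤ) - 1 - 1) * (2 * (k : ℤ) - 1 + 1) = 0 := by linear_combination h1
      rcases mul_eq_zero.mp h3 with h4 | h4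
      · left; linarith
      · right; linarith
    omega
  · have h1 : (2 * (k : ℤ) - 2 * m + 1) ^ 2 = 2 * m - 1 := by linarith
    set w : ℕ := (2 * (k : ℤ) - 2 * m + 1).natAbs with hw
    have hw2 : (w : ℤ) ^ 2 = 2 * m - 1 := by
      rw [hw, Int.natAbs_sq]
      exact h1
    have hwodd : w % 2 = 1 := by
      rcases Nat.mod_two_eq_zero_or_one w with h0 | h0
      · exfalso
        obtain ⟨c, hc⟩ : ∃ c, w = 2 * c := ⟨w / 2, by omega⟩
        rw [hc] at hw2
        push_cast at hw2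
        omega
      · exact h0
    obtain ⟨a, ha⟩ : ∃ a, w = 2 * a + 1 := ⟨w / 2, by omega⟩
    have hma : (m : ℤ) = 2 * (a : ℤ) ^ 2 + 2 * a + 1 := by
      rw [ha] at hw2
      push_cast at hw2
      linarith
    have hma' : m = 2 * a ^ 2 + 2 * a + 1 := by exact_mod_cast hma
    have ha0 : 0 < a := by
      rcases Nat.eq_zero_or_pos a with h0 | h0
      · subst h0
        omega
      · exact h0
    refine ⟨a, ha0, hma', ?_⟩
    have hcases : 2 * (k : ℤ) - 2 * m + 1 = (w : ℤ) ∨ 2 * (k : ℤ) - 2 * m + 1 = -(w : ℤ) := by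
      rw [hw]
      exact Int.natAbs_eq _
    rcases hcases with h2 | h2
    · right
      have : (k : ℤ) = ((a : ℤ) + 1) * (2 * a + 1) := by
        rw [ha] at h2
        push_cast at h2
        nlinarith
      exact_mod_cast this
    · left
      have : (k : ℤ) = (a : ℤ) * (2 * a + 1) := by
        rw [ha] at h2
        push_cast at h2
        nlinarith
      exact_mod_cast this
  · exfalso
    have h1 : (2 * (k : ℤ) - 4 * m + 3) ^ 2 = 1 := by linarith
    have h2 : 2 * (k : ℤ) - 4 * m + 3 = 1 ∨ 2 * (k : ℤ) - 4 * m + 3 = -1 := by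
      have h3 : (2 * (k : ℤ) - 4 * m + 3 - 1) * (2 * (k : ℤ) - 4 * m + 3 + 1) = 0 := by
        linear_combination h1
      rcases mul_eq_zero.mp h3 with h4 | h4
      · left; linarith
      · right; linarith
    omega

/-- In a primitive generously transitive group, a point stabiliser fixing a second point
forces degree two. -/
theorem two_of_fixed {G : Type*} [Group G] {Ω : Type*} [MulAction G Ω]
    (hprim : MulAction.IsPreprimitive G Ω)
    (hgen : ∀ a b : Ω, ∃ g : G, g • a = b ∧ g • b = a) (a b : Ω) (hab : b ≠ a)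
    (hfix : ∀ g : G, g • a = a → g • b = b) : ∀ ω : Ω, ω = a ∨ ω = b := by
  obtain ⟨g₀, hg₀a, hg₀b⟩ := hgen a b
  have hpair : ∀ g : G, (g • a = a ∧ g • b = b) ∨ (g • a = b ∧ g • b = a) ∨
      (g • a ≠ a ∧ g • a ≠ b ∧ g • b ≠ a ∧ g • b ≠ b) := by
    intro g
    by_cases h1 : g • a = a
    · exact Or.inl ⟨h1, hfix g h1⟩
    · by_cases h2 : g • a = b
      · right; left
        refine ⟨h2, ?_⟩
        have h3 : (g₀⁻¹ * g) • a = a := by
          rw [mul_smul, h2, inv_smul_eq_iff, hg₀a]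
        have h4 := hfix _ h3
        rw [mul_smul, inv_smul_eq_iff, hg₀b] at h4
        exact h4
      · right; right
        refine ⟨h1, h2, ?_, ?_⟩
        · intro h3
          have h4 : (g * g₀) • a = a := by rw [mul_smul, hg₀a, h3]
          have h5 := hfix _ h4
          rw [mul_smul, hg₀b] at h5
          exact h2 h5
        · intro h3
          have h4 : (g₀⁻¹ * g * g₀) • a = a := by
            rw [mul_smul, mul_smul, hg₀a, h3, inv_smul_eq_iff, hg₀a]
          have h5 := hfix _ h4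
          rw [mul_smul, mul_smul, hg₀b, inv_smul_eq_iff, hg₀b] at h5
          exact h1 h5
  have hblock : MulAction.IsBlock G ({a, b} : Set Ω) := by
    rw [MulAction.isBlock_iff_smul_eq_of_mem]
    intro g x hx hgx
    have himg : g • ({a, b} : Set Ω) = {g • a, g • b} := by
      show (fun x => g • x) '' ({a, b} : Set Ω) = _
      rw [Set.image_pair]
    rw [himg]
    rcases hpair g with ⟨h1, h2⟩ | ⟨h1, h2⟩ | ⟨h1, h2, h3, h4⟩
    · rw [h1, h2]
    · rw [h1, h2, Set.pair_comm]
    · exfalso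
      rcases hx with rfl | rfl
      · rcases hgx with h | h
        · exact h1 h
        · exact h2 h
      · rcases hgx with h | h
        · exact h3 h
        · exact h4 h
  rcases hprim.isTrivialBlock_of_isBlock hblock with h | h
  · exact absurd (h (Set.mem_insert_of_mem a rfl) (Set.mem_insert a {b})) hab
  · intro ω
    have : ω ∈ ({a, b} : Set Ω) := by rw [h]; exact Set.mem_univ ω
    exact this

theorem exists_third {G : Type*} [Group G] {Ω : Type*} [Fintype Ω] [MulAction G Ω] (a b : Ω)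
    (hr : Nat.card (MulAction.orbitRel.Quotient (MulAction.stabilizer G a) Ω) = 3) :
    ∃ b' : Ω, b' ≠ a ∧ b' ∉ MulAction.orbit (MulAction.stabilizer G a) b := by
  classical
  by_contra hcon
  push Not at hcon
  have hall : ∀ q : MulAction.orbitRel.Quotient (MulAction.stabilizer G a) Ω,
      q ∈ ({Quotient.mk'' a, Quotient.mk'' b} :
        Finset (MulAction.orbitRel.Quotient (MulAction.stabilizer G a) Ω)) := by
    intro q
    induction q using Quotient.inductionOn' with | _ x => ?_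
    by_cases hx : x = a
    · rw [hx]; exact Finset.mem_insert_self _ _
    · have h1 := hcon x hx
      have h2 : (Quotient.mk'' x : MulAction.orbitRel.Quotient (MulAction.stabilizer G a) Ω) =
          Quotient.mk'' b := Quotient.sound' (MulAction.orbitRel_apply.mpr h1)
      rw [h2]
      exact Finset.mem_insert_of_mem (Finset.mem_singleton_self _)
  have h3 : Fintype.card (MulAction.orbitRel.Quotient (MulAction.stabilizer G a) Ω) ≤ 2 := by
    calc Fintype.card (MulAction.orbitRel.Quotient (MulAction.stabilizer G a) Ω)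
        = (Finset.univ : Finset (MulAction.orbitRel.Quotient (MulAction.stabilizer G a) Ω)).card :=
          rfl
      _ ≤ ({Quotient.mk'' a, Quotient.mk'' b} :
            Finset (MulAction.orbitRel.Quotient (MulAction.stabilizer G a) Ω)).card :=
          Finset.card_le_card (fun q _ => hall q)
      _ ≤ 2 := Finset.card_le_two
  rw [Nat.card_eq_fintype_card] at hr
  omega

theorem suborbit_sum_le {G : Type*} [Group G] {Ω : Type*} [Fintype Ω] [MulAction G Ω]
    (a b b' : Ω) (hb : b ≠ a) (hb' : b' ≠ a)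
    (hbb' : b' ∉ MulAction.orbit (MulAction.stabilizer G a) b) :
    1 + Nat.card (MulAction.orbit (MulAction.stabilizer G a) b) +
      Nat.card (MulAction.orbit (MulAction.stabilizer G a) b') ≤ Fintype.card Ω := by
  classical
  have hna : ∀ x : Ω, x ≠ a → a ∉ MulAction.orbit (MulAction.stabilizer G a) x := by
    intro x hx h
    obtain ⟨s, hs⟩ := h
    have hs' : s • x = a := hs
    have h1 : x = s⁻¹ • a := eq_inv_smul_iff.mpr hs'
    apply hx
    rw [h1]
    exact (s⁻¹).2
  have hdisj : Disjoint (MulAction.orbit (MulAction.stabilizer G a) b)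
      (MulAction.orbit (MulAction.stabilizer G a) b') := by
    rcases MulAction.orbit.eq_or_disjoint (G := MulAction.stabilizer G a) b b' with h | h
    · exfalso
      apply hbb'
      rw [h]
      exact MulAction.mem_orbit_self b'
    · exact h
  have h1 : (({a} : Set Ω) ∪ MulAction.orbit (MulAction.stabilizer G a) b ∪
      MulAction.orbit (MulAction.stabilizer G a) b').ncard =
      1 + (MulAction.orbit (MulAction.stabilizer G a) b).ncard +
        (MulAction.orbit (MulAction.stabilizer G a) b').ncard := by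
    rw [Set.ncard_union_eq, Set.ncard_union_eq, Set.ncard_singleton]
    · rw [Set.disjoint_singleton_left]
      exact hna b hb
    · rw [Set.disjoint_union_left]
      refine ⟨?_, hdisj⟩
      rw [Set.disjoint_singleton_left]
      exact hna b' hb'
  rw [Nat.card_coe_set_eq, Nat.card_coe_set_eq, ← h1, ← Nat.card_eq_fintype_card,
    ← Set.ncard_univ]
  exact Set.ncard_le_ncard (Set.subset_univ _)

/-- For a transitive group the idempotent of the principal character is `J / |Ω|`. -/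
theorem idem_triv_apply {G : Type*} [Group G] [Fintype G] {Ω : Type*} [Fintype Ω] [DecidableEq Ω]
    [MulAction G Ω] [MulAction.IsPretransitive G Ω] (α β : Ω) :
    (idem (fun _ : G => (1 : ℂ)) : Matrix Ω Ω ℂ) α β = (Fintype.card Ω : ℂ)⁻¹ := by
  rw [idem_def]
  simp only [one_mul, one_smul, Matrix.smul_apply, Matrix.sum_apply, smul_eq_mul, pm_apply]
  have h1 := sum_smul_eq (G := G) (fun γ : Ω => if α = γ then (1 : ℂ) else 0) β
  simp only [Finset.sum_ite_eq, Finset.mem_univ, if_true, mul_one] at h1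
  have hΩ : (Fintype.card Ω : ℂ) ≠ 0 := by
    have : Nonempty Ω := ⟨α⟩
    exact_mod_cast Fintype.card_ne_zero
  have hG : (Nat.card G : ℂ) ≠ 0 := card_ne_zero_complex
  rw [Nat.card_eq_fintype_card] at hG ⊢
  field_simp
  linear_combination h1

/-- The main computation for one non-trivial suborbit. -/
theorem suborbit_case {G : Type*} [Group G] [Fintype G] {Ω : Type*} [Fintype Ω] [MulAction G Ω]
    (hprim : MulAction.IsPreprimitive G Ω) {m : ℕ} (hm : Fintype.card Ω = 2 * m) (a₀ : Ω)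
    (hrank : Nat.card (MulAction.orbitRel.Quotient (MulAction.stabilizer G a₀) Ω) = 3)
    (χ₁ χ₂ : G → ℂ) (h₁ : Cfsg.IsIrrCharacter G χ₁) (h₂ : Cfsg.IsIrrCharacter G χ₂)
    (hπ : (fun g : G => (Nat.card (MulAction.fixedBy Ω g) : ℂ)) = fun g => 1 + χ₁ g + χ₂ g)
    (hd₁ : χ₁ 1 = (m : ℂ) - 1) (hd₂ : χ₂ 1 = m) (b : Ω) (hb : b ≠ a₀) :
    ∃ a : ℕ, 0 < a ∧ m = 2 * a ^ 2 + 2 * a + 1 ∧
      (Nat.card (MulAction.orbit (MulAction.stabilizer G a₀) b) = a * (2 * a + 1) ∨
        Nat.card (MulAction.orbit (MulAction.stabilizer G a₀) b) = (a + 1) * (2 * a + 1)) := by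
  classical
  have : MulAction.IsPretransitive G Ω := hprim.toIsPretransitive
  have := irr_finite (G := G)
  let _ : Fintype (IrrCharacter G) := Fintype.ofFinite _
  set t : IrrCharacter G := trivIrr with ht
  set X₁ : IrrCharacter G := ⟨χ₁, h₁⟩ with hX₁
  set X₂ : IrrCharacter G := ⟨χ₂, h₂⟩ with hX₂
  have hinner : ∀ ψ : IrrCharacter G, classInner (permChar G Ω) (ψ : G → ℂ) =
      (if t = ψ then 1 else 0) + (if X₁ = ψ then 1 else 0) + (if X₂ = ψ then 1 else 0) := by
    intro ψ
    have h0 : permChar G Ω = (t : G → ℂ) + (X₁ : G → ℂ) + (X₂ : G → ℂ) := by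
      funext g
      exact congrFun hπ g
    rw [h0, ← innerL_apply, map_add, map_add, innerL_apply, innerL_apply, innerL_apply,
      classInner_irr, classInner_irr, classInner_irr]
  have hmt : classInner (permChar G Ω) (t : G → ℂ) = 1 := by
    rw [mult_spec, mult_triv (G := G) a₀, Nat.cast_one]
  have hX₁t : X₁ ≠ t := by
    intro h
    have h1 := hinner t
    rw [hmt, if_pos rfl, if_pos h] at h1
    by_cases h2 : X₂ = t
    · rw [if_pos h2] at h1; norm_num at h1
    · rw [if_neg h2] at h1; norm_num at h1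
  have hX₂t : X₂ ≠ t := by
    intro h
    have h1 := hinner t
    rw [hmt, if_pos rfl, if_pos h, if_neg hX₁t] at h1
    norm_num at h1
  have hX₁₂ : X₁ ≠ X₂ := by
    intro h
    have h1 : χ₁ 1 = χ₂ 1 := congrFun (congrArg Subtype.val h) 1
    rw [hd₁, hd₂] at h1
    norm_num at h1
  -- multiplicities
  have hi_t : classInner (permChar G Ω) (t : G → ℂ) = 1 := hmt
  have hi_1 : classInner (permChar G Ω) χ₁ = 1 := by
    have h1 := hinner X₁
    rw [if_neg (Ne.symm hX₁t), if_pos rfl, if_neg (Ne.symm hX₁₂)] at h1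
    rw [show classInner (permChar G Ω) χ₁ = classInner (permChar G Ω) (X₁ : G → ℂ) from rfl, h1]
    norm_num
  have hi_2 : classInner (permChar G Ω) χ₂ = 1 := by
    have h1 := hinner X₂
    rw [if_neg (Ne.symm hX₂t), if_neg hX₁₂, if_pos rfl] at h1
    rw [show classInner (permChar G Ω) χ₂ = classInner (permChar G Ω) (X₂ : G → ℂ) from rfl, h1]
    norm_num
  have hi_0 : ∀ ψ : IrrCharacter G, ψ ≠ t → ψ ≠ X₁ → ψ ≠ X₂ →
      classInner (permChar G Ω) (ψ : G → ℂ) = 0 := by
    intro ψ h1 h2 h3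
    rw [hinner ψ, if_neg (Ne.symm h1), if_neg (Ne.symm h2), if_neg (Ne.symm h3)]
    norm_num
  have hmem : ∀ ψ : IrrCharacter G, classInner (permChar G Ω) (ψ : G → ℂ) ≠ 0 →
      ψ = t ∨ ψ = X₁ ∨ ψ = X₂ := by
    intro ψ h0
    by_contra hcon
    push Not at hcon
    exact h0 (hi_0 ψ hcon.1 hcon.2.1 hcon.2.2)
  -- the permutation character is real
  have hconj : ∀ ψ : IrrCharacter G, classInner (permChar G Ω) (irrConj ψ : G → ℂ) =
      conj (classInner (permChar G Ω) (ψ : G → ℂ)) := by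
    intro ψ
    rw [← classInner_conj_conj]
    congr 1
    funext g
    show (Nat.card (MulAction.fixedBy Ω g) : ℂ) = conj (Nat.card (MulAction.fixedBy Ω g) : ℂ)
    rw [map_natCast]
  have hreal₁ : ∀ g : G, conj (χ₁ g) = χ₁ g := by
    have h1 : classInner (permChar G Ω) (irrConj X₁ : G → ℂ) ≠ 0 := by
      rw [hconj X₁, show classInner (permChar G Ω) (X₁ : G → ℂ) = 1 from hi_1, map_one]
      exact one_ne_zero
    rcases hmem _ h1 with h | h | h
    · exfalso
      apply hX₁t
      rw [← irrConj_irrConj X₁, h]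
      apply Subtype.ext
      funext g
      show conj (1 : ℂ) = 1
      rw [map_one]
    · intro g
      exact congrFun (congrArg Subtype.val h) g
    · exfalso
      have h2 : conj (χ₁ 1) = χ₂ 1 := congrFun (congrArg Subtype.val h) 1
      rw [hd₁, hd₂, map_sub, map_natCast, map_one] at h2
      exact one_ne_zero (show (1 : ℂ) = 0 by linear_combination -h2)
  have hreal₂ : ∀ g : G, conj (χ₂ g) = χ₂ g := by
    have h1 : classInner (permChar G Ω) (irrConj X₂ : G → ℂ) ≠ 0 := by
      rw [hconj X₂, show classInner (permChar G Ω) (X₂ : G → ℂ) = 1 from hi_2, map_one]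
      exact one_ne_zero
    rcases hmem _ h1 with h | h | h
    · exfalso
      apply hX₂t
      rw [← irrConj_irrConj X₂, h]
      apply Subtype.ext
      funext g
      show conj (1 : ℂ) = 1
      rw [map_one]
    · exfalso
      have h2 : conj (χ₂ 1) = χ₁ 1 := congrFun (congrArg Subtype.val h) 1
      rw [hd₁, hd₂, map_natCast] at h2
      exact one_ne_zero (show (1 : ℂ) = 0 by linear_combination h2)
    · intro g
      exact congrFun (congrArg Subtype.val h) g
  have hall : ∀ χ : G → ℂ, IsIrrCharacter G χ → classInner (permChar G Ω) χ ≠ 0 →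
      classInner (permChar G Ω) χ = 1 ∧ ∀ g : G, conj (χ g) = χ g := by
    intro χ hχ h0
    rcases hmem ⟨χ, hχ⟩ h0 with h | h | h
    · have h' : χ = fun _ => 1 := congrArg Subtype.val h
      subst h'
      exact ⟨hi_t, fun g => map_one _⟩
    · have h' : χ = χ₁ := congrArg Subtype.val h
      subst h'
      exact ⟨hi_1, hreal₁⟩
    · have h' : χ = χ₂ := congrArg Subtype.val h
      subst h'
      exact ⟨hi_2, hreal₂⟩
  have hmf : ∀ χ : G → ℂ, IsIrrCharacter G χ →
      classInner (permChar G Ω) χ = 0 ∨ classInner (permChar G Ω) χ = 1 := by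
    intro χ hχ
    by_cases h0 : classInner (permChar G Ω) χ = 0
    · exact Or.inl h0
    · exact Or.inr (hall χ hχ h0).1
  have hgen : ∀ a b : Ω, ∃ g : G, g • a = b ∧ g • b = a :=
    (Cfsg.Agent.S0717.result (G := G) (Ω := Ω)).mpr hall
  -- `m ≥ 2`
  have hm2 : 2 ≤ m := by
    have h1 := deg_spec X₁
    have h2 := deg_pos X₁
    rw [show (X₁ : G → ℂ) 1 = χ₁ 1 from rfl, hd₁] at h1
    have h3 : (m : ℂ) = ((deg X₁ + 1 : ℕ) : ℂ) := by
      push_cast
      linear_combination h1
    have h4 : m = deg X₁ + 1 := by exact_mod_cast h3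
    omega
  -- no suborbit of length one
  have hne1 : ∀ x : Ω, x ≠ a₀ → 2 ≤ Nat.card (MulAction.orbit (MulAction.stabilizer G a₀) x) := by
    intro x hx
    have hpos : 0 < Nat.card (MulAction.orbit (MulAction.stabilizer G a₀) x) := by
      have : Nonempty (MulAction.orbit (MulAction.stabilizer G a₀) x) :=
        ⟨⟨x, MulAction.mem_orbit_self x⟩⟩
      exact Nat.card_pos
    by_contra hcon
    have h1 : Nat.card (MulAction.orbit (MulAction.stabilizer G a₀) x) = 1 := by omega
    rw [Nat.card_coe_set_eq, Set.ncard_eq_one] at h1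
    obtain ⟨y, hy⟩ := h1
    have hxy : x = y := by
      have : x ∈ MulAction.orbit (MulAction.stabilizer G a₀) x := MulAction.mem_orbit_self x
      rw [hy] at this
      exact this
    have hfix : ∀ g : G, g • a₀ = a₀ → g • x = x := by
      intro g hg
      have : g • x ∈ MulAction.orbit (MulAction.stabilizer G a₀) x := ⟨⟨g, hg⟩, rfl⟩
      rw [hy] at this
      exact (Set.mem_singleton_iff.mp this).trans hxy.symm
    have h2 := two_of_fixed hprim hgen a₀ x hx hfix
    have h3 : Fintype.card Ω ≤ 2 := by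
      calc Fintype.card Ω = (Finset.univ : Finset Ω).card := rfl
        _ ≤ ({a₀, x} : Finset Ω).card := Finset.card_le_card (fun ω _ => by
            rcases h2 ω with h | h
            · rw [h]; exact Finset.mem_insert_self _ _
            · rw [h]; exact Finset.mem_insert_of_mem (Finset.mem_singleton_self _))
        _ ≤ 2 := Finset.card_le_two
    omega
  obtain ⟨b', hb'a, hb'orb⟩ := exists_third a₀ b hrank
  have hk2 := hne1 b hb
  have hk3 : Nat.card (MulAction.orbit (MulAction.stabilizer G a₀) b) + 3 ≤ 2 * m := by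
    have h1 := hne1 b' hb'a
    have h2 := suborbit_sum_le a₀ b b' hb hb'a hb'orb
    omega
  -- the orbital matrix
  set B : Matrix Ω Ω ℤ := orbMat G a₀ b with hB
  set A : Matrix Ω Ω ℂ := B.map (Int.castRingHom ℂ) with hAdef
  have hA : InvMat G A := orbMat_inv a₀ b
  set k : ℕ := Nat.card (MulAction.orbit (MulAction.stabilizer G a₀) b) with hk
  have hrow : ∀ α : Ω, ∑ β, A α β = (k : ℂ) :=
    fun α => (hA.rowSum a₀ α).trans (orbMat_rowSum a₀ b)
  have hsymA : ∀ α β, A β α = A α β := by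
    intro α β
    obtain ⟨g, h1, h2⟩ := hgen α β
    have h3 := hA g α β
    rw [h1, h2] at h3
    exact h3
  have h01 : ∀ α β, A α β * A α β = A α β := by
    intro α β
    rw [hAdef, orbMat_map_apply]
    split_ifs <;> simp
  have htrAA : Matrix.trace (A * A) = (2 * m : ℂ) * k := by
    rw [Matrix.trace]
    simp only [Matrix.diag_apply, Matrix.mul_apply]
    have h1 : ∀ α : Ω, ∑ β, A α β * A β α = (k : ℂ) := by
      intro α
      rw [← hrow α]
      refine Finset.sum_congr rfl fun β _ => ?_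
      rw [hsymA α β, h01]
    rw [Finset.sum_congr rfl fun α _ => h1 α, Finset.sum_const, Finset.card_univ, hm]
    simp
  have htrA : Matrix.trace A = 0 := orbMat_trace hb
  -- decomposition into the three idempotents
  set e_t : Matrix Ω Ω ℂ := idem (t : G → ℂ) with he_t
  set e₁ : Matrix Ω Ω ℂ := idem χ₁ with he₁
  set e₂ : Matrix Ω Ω ℂ := idem χ₂ with he₂
  have hzero : ∀ ψ : IrrCharacter G, ψ ∉ ({t, X₁, X₂} : Finset (IrrCharacter G)) →
      (idem (ψ : G → ℂ) : Matrix Ω Ω ℂ) = 0 := by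
    intro ψ hψ
    simp only [Finset.mem_insert, Finset.mem_singleton, not_or] at hψ
    exact idem_eq_zero ψ.2 (hi_0 ψ hψ.1 hψ.2.1 hψ.2.2)
  have hsum3 : ∀ F : IrrCharacter G → Matrix Ω Ω ℂ,
      (∀ ψ, ψ ∉ ({t, X₁, X₂} : Finset (IrrCharacter G)) → F ψ = 0) →
      ∑ ψ, F ψ = F t + F X₁ + F X₂ := by
    intro F hF
    rw [← Finset.sum_subset (Finset.subset_univ ({t, X₁, X₂} : Finset (IrrCharacter G)))
      (fun ψ _ hψ => hF ψ hψ)]
    rw [Finset.sum_insert, Finset.sum_insert, Finset.sum_singleton, add_assoc]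
    · simp only [Finset.mem_singleton]
      exact hX₁₂
    · simp only [Finset.mem_insert, Finset.mem_singleton, not_or]
      exact ⟨Ne.symm hX₁t, Ne.symm hX₂t⟩
  have hone : (1 : Matrix Ω Ω ℂ) = e_t + e₁ + e₂ := by
    rw [← sum_idem (G := G), hsum3 _ hzero]
  have hthetat : theta (t : G → ℂ) A = (k : ℂ) := by
    rw [show (t : G → ℂ) = fun _ => 1 from rfl, theta_one hA a₀, hrow]
  set c₁ := theta χ₁ A with hc₁
  set c₂ := theta χ₂ A with hc₂
  have hAdec : A = (k : ℂ) • e_t + c₁ • e₁ + c₂ • e₂ := by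
    have h1 := decomp_of_multFree hmf hA
    rw [hsum3 _ (fun ψ hψ => by rw [hzero ψ hψ, smul_zero]), hthetat] at h1
    exact h1
  have hAt : A * e_t = (k : ℂ) • e_t := by
    have h1 := mul_idem_eq_theta t.2 hi_t hA
    rw [hthetat] at h1
    exact h1
  have hA1 : A * e₁ = c₁ • e₁ := mul_idem_eq_theta h₁ hi_1 hA
  have hA2 : A * e₂ = c₂ • e₂ := mul_idem_eq_theta h₂ hi_2 hA
  have hAA : A * A = ((k : ℂ) ^ 2) • e_t + (c₁ ^ 2) • e₁ + (c₂ ^ 2) • e₂ := by
    calc A * A = A * ((k : ℂ) • e_t + c₁ • e₁ + c₂ • e₂) := by rw [← hAdec]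
      _ = ((k : ℂ) ^ 2) • e_t + (c₁ ^ 2) • e₁ + (c₂ ^ 2) • e₂ := by
        rw [Matrix.mul_add, Matrix.mul_add, Matrix.mul_smul, Matrix.mul_smul, Matrix.mul_smul,
          hAt, hA1, hA2, smul_smul, smul_smul, smul_smul, sq, sq, sq]
  have htr_t : Matrix.trace e_t = 1 := by
    rw [he_t, trace_idem t.2, hi_t]
    show (1 : ℂ) * 1 = 1
    rw [mul_one]
  have htr_1 : Matrix.trace e₁ = (m : ℂ) - 1 := by
    rw [he₁, trace_idem h₁, hi_1, hd₁, mul_one]
  have htr_2 : Matrix.trace e₂ = (m : ℂ) := by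
    rw [he₂, trace_idem h₂, hi_2, hd₂, mul_one]
  have hE1 : (k : ℂ) + c₁ * ((m : ℂ) - 1) + c₂ * m = 0 := by
    have h1 := congrArg Matrix.trace hAdec
    rw [htrA, Matrix.trace_add, Matrix.trace_add, Matrix.trace_smul, Matrix.trace_smul,
      Matrix.trace_smul, htr_t, htr_1, htr_2] at h1
    simp only [smul_eq_mul, mul_one] at h1
    exact h1.symm
  have hE2 : (k : ℂ) ^ 2 + c₁ ^ 2 * ((m : ℂ) - 1) + c₂ ^ 2 * m = (2 * m : ℂ) * k := by
    have h1 := congrArg Matrix.trace hAA
    rw [htrAA, Matrix.trace_add, Matrix.trace_add, Matrix.trace_smul, Matrix.trace_smul,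
      Matrix.trace_smul, htr_t, htr_1, htr_2] at h1
    simp only [smul_eq_mul, mul_one] at h1
    exact h1.symm
  have hid : A * A - (c₁ + c₂) • A + (c₁ * c₂) • (1 : Matrix Ω Ω ℂ) =
      (((k : ℂ) - c₁) * ((k : ℂ) - c₂)) • e_t := by
    rw [hAA]
    conv_lhs => rw [hAdec, hone]
    module
  -- entries
  have hAab : A a₀ b = 1 := by
    rw [hAdef, orbMat_map_apply, if_pos ⟨1, one_smul _ _, one_smul _ _⟩]
  have hAab' : A a₀ b' = 0 := by
    rw [hAdef, orbMat_map_apply, if_neg]
    rintro ⟨g, hg, hgb⟩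
    exact hb'orb ⟨⟨g, hg⟩, hgb⟩
  have hAAint : ∀ α β, (A * A) α β = (((B * B) α β : ℤ) : ℂ) := by
    intro α β
    rw [hAdef, ← Matrix.map_mul]
    rfl
  have het : ∀ α β, e_t α β = (Fintype.card Ω : ℂ)⁻¹ := fun α β => idem_triv_apply α β
  have hent := fun β => congrFun (congrFun hid a₀) β
  have h1b := hent b
  have h1b' := hent b'
  simp only [Matrix.add_apply, Matrix.sub_apply, Matrix.smul_apply, smul_eq_mul, hAab,
    Matrix.one_apply, if_neg (Ne.symm hb), het, mul_one, mul_zero,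
    add_zero] at h1b
  simp only [Matrix.add_apply, Matrix.sub_apply, Matrix.smul_apply, smul_eq_mul, hAab',
    Matrix.one_apply, if_neg (Ne.symm hb'a), het, mul_zero,
    add_zero, sub_zero] at h1b'
  set u : ℤ := (B * B) a₀ b - (B * B) a₀ b' with hu
  have hcu : c₁ + c₂ = (u : ℂ) := by
    rw [hu, Int.cast_sub, ← hAAint, ← hAAint]
    linear_combination h1b' - h1b
  have hc₂ : c₂ = -(k : ℂ) - ((m : ℂ) - 1) * u := by
    linear_combination hE1 - ((m : ℂ) - 1) * hcu
  have hc₁ : c₁ = (k : ℂ) + m * u := by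
    linear_combination hcu - hc₂
  have hZ : (k : ℤ) ^ 2 + ((m : ℤ) - 1) * (k + m * u) ^ 2 + m * (k + ((m : ℤ) - 1) * u) ^ 2 =
      2 * m * k := by
    have h2 : (((k : ℤ) ^ 2 + ((m : ℤ) - 1) * (k + m * u) ^ 2 +
        m * (k + ((m : ℤ) - 1) * u) ^ 2 : ℤ) : ℂ) = ((2 * m * k : ℤ) : ℂ) := by
      push_cast
      rw [hc₁, hc₂] at hE2
      linear_combination hE2
    exact_mod_cast h2
  exact nt_core m k u hm2 hk2 hk3 hZ

/-- Groups of Wielandt type: if a primitive group of degree `2m` has rank 3 and permutation character `1 + χ₁ + χ₂` with irreducible `χ₁, χ₂` of degrees `m - 1` and `m`, then `m = 2a² + 2a + 1` for some positive integer `a` and the two non-trivial subdegrees are `a(2a+1)` and `(a+1)(2a+1)`. -/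
theorem result {G : Type*} [Group G] [Fintype G] {Ω : Type*} [Fintype Ω] [MulAction G Ω] (hprim : MulAction.IsPreprimitive G Ω) {m : ℕ} (hm : Fintype.card Ω = 2 * m) (a₀ : Ω) (hrank : Nat.card (MulAction.orbitRel.Quotient (MulAction.stabilizer G a₀) Ω) = 3) (χ₁ χ₂ : G → ℂ) (h₁ : Cfsg.IsIrrCharacter G χ₁) (h₂ : Cfsg.IsIrrCharacter G χ₂) (hπ : (fun g : G => (Nat.card (MulAction.fixedBy Ω g) : ℂ)) = fun g => 1 + χ₁ g + χ₂ g) (hd₁ : χ₁ 1 = (m : ℂ) - 1) (hd₂ : χ₂ 1 = m) : ∃ a : ℕ, 0 < a ∧ m = 2 * a ^ 2 + 2 * a + 1 ∧ ∀ b : Ω, b ≠ a₀ → Nat.card (MulAction.orbit (MulAction.stabilizer G a₀) b) = a * (2 * a + 1) ∨ Nat.card (MulAction.orbit (MulAction.stabilizer G a₀) b) = (a + 1) * (2 * a + 1) := by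
  obtain ⟨b₀, hb₀, -⟩ := exists_third a₀ a₀ hrank
  obtain ⟨a, ha0, hma, -⟩ := suborbit_case hprim hm a₀ hrank χ₁ χ₂ h₁ h₂ hπ hd₁ hd₂ b₀ hb₀
  refine ⟨a, ha0, hma, fun b hb => ?_⟩
  obtain ⟨a', ha'0, hma', hk⟩ := suborbit_case hprim hm a₀ hrank χ₁ χ₂ h₁ h₂ hπ hd₁ hd₂ b hb
  have h : 2 * a' ^ 2 + 2 * a' + 1 = 2 * a ^ 2 + 2 * a + 1 := by rw [← hma', ← hma]
  have haa : a' = a := by
    rcases Nat.lt_trichotomy a' a with h1 | h1 | h1
    · exfalso; nlinarith
    · exact h1
    · exfalso; nlinarith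
  rw [haa] at hk
  exact hk

end Cfsg.Agent.S0719
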