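import Cfsg.Statements.S0720
import Cfsg.Agent.Lib.Helper17.W2pH
import Cfsg.Agent.S0713
import Cfsg.Agent.S0719

set_option autoImplicit false
open Cfsg

namespace Cfsg.Agent.S0720

open Cfsg.Agent.Lib.Helper17 Cfsg.Agent.Lib.Helper4 Cfsg.Agent.Lib.Helper80

/-- A primitive group of degree `2p` containing an element of order `p` with a fixed point is
doubly transitive (Jordan). -/
theorem jordan_case {α : Type*} [Fintype α] [DecidableEq α] {p : ℕ} (hp : p.Prime)
    (hα : Fintype.card α = 2 * p) (G : Subgroup (Equiv.Perm α))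
    (hG : MulAction.IsPreprimitive G α) (y : Equiv.Perm α) (hyG : y ∈ G) (hy1 : y ≠ 1)
    (hyp : y ^ p = 1) (ω : α) (hω : y ω = ω) : MulAction.IsMultiplyPretransitive G α 2 := by
  have hord : orderOf y = p := by
    have hfact : Fact p.Prime := ⟨hp⟩
    exact orderOf_eq_prime hyp hy1
  obtain ⟨k, hk⟩ := Equiv.Perm.cycleType_prime_order (σ := y) (by rw [hord]; exact hp)
  have hsupp : y.support.card = (k + 1) * p := by
    rw [← Equiv.Perm.sum_cycleType, hk, Multiset.sum_replicate, hord, smul_eq_mul]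
  have hlt : y.support.card < 2 * p := by
    rw [← hα]
    apply Finset.card_lt_univ_of_notMem (x := ω)
    rw [Equiv.Perm.notMem_support]
    exact hω
  have hk0 : k = 0 := by
    rw [hsupp] at hlt
    by_contra hk0
    have h1 : 2 * p ≤ (k + 1) * p := Nat.mul_le_mul_right p (by omega)
    omega
  subst hk0
  have hcyc : y.IsCycle := by
    rw [← Equiv.Perm.card_cycleType_eq_one, hk]
    simp
  have hsc : y.support.card = p := by
    rw [hsupp]
    simp
  by_cases hp2 : p = 2
  · have hswap : y.IsSwap := by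
      rw [← Equiv.Perm.card_support_eq_two, hsc, hp2]
    have htop := Equiv.Perm.subgroup_eq_top_of_isPreprimitive_of_isSwap_mem hG y hswap hyG
    rw [MulAction.is_two_pretransitive_iff]
    intro a b c d hab hcd
    obtain ⟨g, hg1, hg2⟩ := MulAction.is_two_pretransitive_iff.mp
      (Equiv.Perm.isMultiplyPretransitive α 2) hab hcd
    exact ⟨⟨g, by rw [htop]; exact Subgroup.mem_top g⟩, hg1, hg2⟩
  · have hp3 : 3 ≤ p := by
      have := hp.two_le
      omega
    have halt := Cfsg.Agent.S0713.result G hG hp (by rw [hα]; omega) (by rw [hα]; omega) hcyc hsc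
      hyG
    have h1 : MulAction.IsMultiplyPretransitive (alternatingGroup α) α (Nat.card α - 2) :=
      alternatingGroup.isMultiplyPretransitive α
    have h2 : MulAction.IsMultiplyPretransitive (alternatingGroup α) α 2 := by
      have hle : 2 ≤ Nat.card α - 2 := by
        rw [Nat.card_eq_fintype_card]
        omega
      exact MulAction.isMultiplyPretransitive_of_le hle (by
        rw [Nat.card_eq_fintype_card]
        simp)
    rw [MulAction.is_two_pretransitive_iff]
    intro a b c d hab hcd
    obtain ⟨g, hg1, hg2⟩ := MulAction.is_two_pretransitive_iff.mp h2 hab hcd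
    exact ⟨⟨g.1, halt g.2⟩, hg1, hg2⟩

/-- Wielandt's Theorem on primitive groups of degree `2p`: such a group is doubly transitive, or it has rank 3, `p = 2a² + 2a + 1`, and subdegrees `a(2a+1)` and `(a+1)(2a+1)`. -/
theorem result {α : Type*} [Fintype α] [DecidableEq α] {p : ℕ} (hp : p.Prime) (hα : Fintype.card α = 2 * p) (G : Subgroup (Equiv.Perm α)) (hG : MulAction.IsPreprimitive G α) (a₀ : α) : MulAction.IsMultiplyPretransitive G α 2 ∨ (Nat.card (MulAction.orbitRel.Quotient (MulAction.stabilizer G a₀) α) = 3 ∧ ∃ a : ℕ, 0 < a ∧ p = 2 * a ^ 2 + 2 * a + 1 ∧ ∀ b : α, b ≠ a₀ → Nat.card (MulAction.orbit (MulAction.stabilizer G a₀) b) = a * (2 * a + 1) ∨ Nat.card (MulAction.orbit (MulAction.stabilizer G a₀) b) = (a + 1) * (2 * a + 1)) := by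
  classical
  have := irr_finite (G := G)
  let _ : Fintype (IrrCharacter G) := Fintype.ofFinite _
  by_cases hfp : ∃ y : G, y ≠ 1 ∧ y ^ p = 1 ∧ ∃ ω : α, y • ω = ω
  · left
    obtain ⟨y, hy1, hyp, ω, hω⟩ := hfp
    exact jordan_case hp hα G hG (y : Equiv.Perm α) y.2 (fun h => hy1 (Subtype.ext h))
      (by have h1 := congrArg Subtype.val hyp; simpa using h1) ω hω
  · have hnofix : ∀ y : G, y ≠ 1 → y ^ p = 1 → ∀ ω : α, y • ω ≠ ω := by
      intro y hy1 hyp ω hω
      exact hfp ⟨y, hy1, hyp, ω, hω⟩
    have hdvd : p ∣ Nat.card G := by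
      have h1 : (MulAction.stabilizer G a₀).index = Nat.card α :=
        MulAction.index_stabilizer_of_transitive G a₀
      have h2 := Subgroup.index_dvd_card (MulAction.stabilizer G a₀)
      rw [h1, Nat.card_eq_fintype_card, hα] at h2
      exact Dvd.dvd.trans (Dvd.intro_left 2 rfl) h2
    have hfact : Fact p.Prime := ⟨hp⟩
    obtain ⟨x, hx⟩ := exists_prime_orderOf_dvd_card' p hdvd
    have hxp : x ^ p = 1 := by
      rw [← hx]
      exact pow_orderOf_eq_one x
    have hx1 : x ≠ 1 := by
      rintro rfl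
      rw [orderOf_one] at hx
      exact hp.one_lt.ne hx
    have hfix : ∀ k : ℕ, ¬ p ∣ k → ∀ ω : α, x ^ k • ω ≠ ω := by
      intro k hk ω
      apply hnofix (x ^ k)
      · intro h
        rw [← hx] at hk
        exact hk (orderOf_dvd_of_pow_eq_one h)
      · rw [← pow_mul, mul_comm, pow_mul, hxp, one_pow]
    obtain ⟨ζ, hζ⟩ : ∃ ζ : ℂ, IsPrimitiveRoot ζ p :=
      ⟨_, Complex.isPrimitiveRoot_exp p hp.pos.ne'⟩
    have hF : Fpf G α p ζ x := ⟨hp, hα, hxp, hζ, hfix⟩
    obtain ⟨χ₀, hc1, hc2, hc3, hc4, hc5, b, hb1, hb2, hb3⟩ := charI hp hα hxp hζ hfix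
    rcases Nat.lt_or_ge b 2 with hb | hb
    · interval_cases b
      · exfalso
        have hdeg : (χ₀ : G → ℂ) 1 = 1 := by
          rw [deg_spec, hb2]
          simp
        have hxχ : (χ₀ : G → ℂ) x = 1 := by
          have h1 := hb3 1 (fun hd => hp.one_lt.ne' (Nat.dvd_one.mp hd))
          simpa using h1
        exact linear_false χ₀ hc1 hc2 hdeg x hx1 hxχ
      · have h0 : Chi0 α p ζ x χ₀ := ⟨hc1, hc2, hc3, hc4, hc5, hb1⟩
        have hrk := rank_eq_psi hF h0 a₀
        have hsd := sum_deg_psi hF h0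
        rcases Nat.lt_or_ge (psiSet α χ₀).card 2 with hΨ | hΨ
        · have hΨ1 : (psiSet α χ₀).card = 1 := by
            by_contra hne
            have h0' : (psiSet α χ₀).card = 0 := by omega
            rw [Finset.card_eq_zero] at h0'
            rw [h0', Finset.sum_empty] at hsd
            have := hp.two_le
            omega
          obtain ⟨ψ, hψ⟩ := Finset.card_eq_one.mp hΨ1
          right
          refine ⟨by rw [hrk, hΨ1], ?_⟩
          have hdeg0 : deg χ₀ = p := by
            rw [hb2]
            have := hp.pos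
            omega
          have hdegψ : deg ψ = p - 1 := by
            rw [hψ, Finset.sum_singleton] at hsd
            exact hsd
          exact Cfsg.Agent.S0719.result hG hα a₀ (by rw [hrk, hΨ1]) (ψ : G → ℂ) (χ₀ : G → ℂ) ψ.2
            χ₀.2 (permChar_decomp hF h0 ψ hψ)
            (by rw [deg_spec, hdegψ, Nat.cast_sub hp.pos]; simp) (by rw [deg_spec, hdeg0])
        · exfalso
          exact rank_ge_four_false hF h0 hnofix a₀ (by rw [hrk]; omega)
    · left
      have hdeg : 2 * p - 1 ≤ deg χ₀ := by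
        rw [hb2]
        have := hp.pos
        have h1 : (p - 1) * 2 ≤ (p - 1) * b := Nat.mul_le_mul_left _ hb
        omega
      exact two_trans_of_rank_two a₀ (rank_two_of_deg hα χ₀ hc1 hc2 hdeg hp.pos a₀)

end Cfsg.Agent.S0720
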