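import Cfsg.Statements.S2426
import Cfsg.Agent.Lib.Helper48.SPg

set_option autoImplicit false
open Cfsg

namespace Cfsg.Agent.S2426

/-- The rank-one Steinberg presentation of `SL₂` over a finite field `K`: generators `x(t)`, `y(t)` (`t ∈ K`; the two opposite root subgroups) subject to additivity `x(t)x(u) = x(t+u)`, `y(t)y(u) = y(t+u)` and, with `w(t) = x(t) y(−t⁻¹) x(t)` and `w'(t) = y(t) x(−t⁻¹) y(t)` for `t ≠ 0`, the relations `w(t) x(u) w(t)⁻¹ = y(−t⁻² u)` and `w'(t) y(u) w'(t)⁻¹ = x(−t⁻² u)`, present `SL₂(K)`, with `x(t) ↦ (1 t; 0 1)` and `y(t) ↦ (1 0; t 1)`. -/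
theorem result {K : Type*} [Field K] [Finite K] :
    ∃ e : PresentedGroup
        ({g : FreeGroup (Bool × K) | ∃ (b : Bool) (t u : K), g = FreeGroup.of (b, t) * FreeGroup.of (b, u) * (FreeGroup.of (b, t + u))⁻¹} ∪
          {g | ∃ (b : Bool) (t u : K), t ≠ 0 ∧
            g = (FreeGroup.of (b, t) * FreeGroup.of (!b, -t⁻¹) * FreeGroup.of (b, t)) * FreeGroup.of (b, u) *
                  (FreeGroup.of (b, t) * FreeGroup.of (!b, -t⁻¹) * FreeGroup.of (b, t))⁻¹ * (FreeGroup.of (!b, -(t⁻¹ ^ 2 * u)))⁻¹})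
        ≃* Matrix.SpecialLinearGroup (Fin 2) K,
      (∀ t : K, ((e (PresentedGroup.of (true, t)) : Matrix (Fin 2) (Fin 2) K)) = !![1, t; 0, 1]) ∧
      (∀ t : K, ((e (PresentedGroup.of (false, t)) : Matrix (Fin 2) (Fin 2) K)) = !![1, 0; t, 1]) := by
  classical
  set rels : Set (FreeGroup (Bool × K)) :=
    ({g : FreeGroup (Bool × K) | ∃ (b : Bool) (t u : K), g = FreeGroup.of (b, t) * FreeGroup.of (b, u) * (FreeGroup.of (b, t + u))⁻¹} ∪
          {g | ∃ (b : Bool) (t u : K), t ≠ 0 ∧
            g = (FreeGroup.of (b, t) * FreeGroup.of (!b, -t⁻¹) * FreeGroup.of (b, t)) * FreeGroup.of (b, u) *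
                  (FreeGroup.of (b, t) * FreeGroup.of (!b, -t⁻¹) * FreeGroup.of (b, t))⁻¹ * (FreeGroup.of (!b, -(t⁻¹ ^ 2 * u)))⁻¹}) with hrels
  let X : Bool → K → PresentedGroup rels := fun b t => PresentedGroup.of (b, t)
  have hXdef : ∀ b t, X b t = PresentedGroup.mk rels (FreeGroup.of (b, t)) := fun _ _ => rfl
  have hX : Cfsg.Agent.Lib.Helper48.SPRel X := by
    constructor
    · intro b t u
      have hmem : FreeGroup.of (b, t) * FreeGroup.of (b, u) * (FreeGroup.of (b, t + u))⁻¹ ∈ rels :=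
        Or.inl ⟨b, t, u, rfl⟩
      have := PresentedGroup.one_of_mem hmem
      rw [map_mul, map_mul, map_inv, mul_inv_eq_one] at this
      exact this
    · intro b t u ht
      have hmem : (FreeGroup.of (b, t) * FreeGroup.of (!b, -t⁻¹) * FreeGroup.of (b, t)) * FreeGroup.of (b, u) *
                  (FreeGroup.of (b, t) * FreeGroup.of (!b, -t⁻¹) * FreeGroup.of (b, t))⁻¹ * (FreeGroup.of (!b, -(t⁻¹ ^ 2 * u)))⁻¹ ∈ rels :=
        Or.inr ⟨b, t, u, ht, rfl⟩
      have := PresentedGroup.one_of_mem hmem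
      simp only [map_mul, map_inv] at this
      rw [mul_inv_eq_one] at this
      exact this
  have hrel : ∀ r ∈ rels, FreeGroup.lift (fun p : Bool × K =>
      (Cfsg.Agent.Lib.Helper48.spM p.1 p.2 : Matrix.SpecialLinearGroup (Fin 2) K)) r = 1 := by
    intro r hr
    have hM := Cfsg.Agent.Lib.Helper48.spM_rel (K := K)
    rcases hr with ⟨b, t, u, rfl⟩ | ⟨b, t, u, ht, rfl⟩
    · simp only [map_mul, map_inv, FreeGroup.lift_apply_of]
      rw [mul_inv_eq_one]
      exact hM.add b t u
    · simp only [map_mul, map_inv, FreeGroup.lift_apply_of]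
      rw [mul_inv_eq_one]
      exact hM.conj b t u ht
  let π : PresentedGroup rels →* Matrix.SpecialLinearGroup (Fin 2) K := PresentedGroup.toGroup hrel
  have hπ : ∀ b t, π (X b t) = Cfsg.Agent.Lib.Helper48.spM b t := fun b t => PresentedGroup.toGroup.of hrel
  have hgen : ∀ P : PresentedGroup rels → Prop, P 1 → (∀ b t g, P g → P (X b t * g)) → ∀ g, P g := by
    intro P h1 hstep g
    obtain ⟨w, rfl⟩ := PresentedGroup.mk_surjective rels g
    have key : ∀ w : FreeGroup (Bool × K), ∀ z, P z → P (PresentedGroup.mk rels w * z) := by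
      intro w
      induction w using FreeGroup.induction_on with
      | C1 => intro z hz; simpa using hz
      | of x => intro z hz; exact hstep x.1 x.2 z hz
      | inv_of x _ =>
        intro z hz
        have : PresentedGroup.mk rels (FreeGroup.of x)⁻¹ = X x.1 (-x.2) := by
          rw [map_inv]; exact hX.inv x.1 x.2
        rw [this]
        exact hstep x.1 (-x.2) z hz
      | mul a b ha hb =>
        intro z hz
        rw [map_mul, mul_assoc]
        exact ha _ (hb z hz)
    simpa using key w 1 h1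
  have hinj : Function.Injective π := hX.pi_injective π hπ hgen
  have hsurj : Function.Surjective π := by
    intro g
    have hg := Cfsg.Agent.Lib.Helper48.spM_generate g
    have hle : Subgroup.closure (Set.range fun p : Bool × K =>
        (Cfsg.Agent.Lib.Helper48.spM p.1 p.2 : Matrix.SpecialLinearGroup (Fin 2) K)) ≤ π.range := by
      rw [Subgroup.closure_le]
      rintro _ ⟨p, rfl⟩
      exact ⟨X p.1 p.2, hπ p.1 p.2⟩
    exact hle hg
  refine ⟨MulEquiv.ofBijective π ⟨hinj, hsurj⟩, fun t => ?_, fun t => ?_⟩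
  · change ((π (X true t) : Matrix.SpecialLinearGroup (Fin 2) K) : Matrix (Fin 2) (Fin 2) K) = _
    rw [hπ]; rfl
  · change ((π (X false t) : Matrix.SpecialLinearGroup (Fin 2) K) : Matrix (Fin 2) (Fin 2) K) = _
    rw [hπ]; rfl

end Cfsg.Agent.S2426
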