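import Cfsg.Statements.S0559
import Mathlib

set_option autoImplicit false
open Pointwise
open Cfsg

namespace Cfsg.Agent.S0559

/-- Let G = HK be a finite group (every element a product of an element of H and an element of K), and let A and B be conjugates of H and K. Then every element is a product of an element of A and one of B, and there is g with A = gHg⁻¹ and B = gKg⁻¹ simultaneously. -/
theorem result {G : Type*} [Group G] [Finite G] (H K A B : Subgroup G) (hHK : ∀ g : G, ∃ h ∈ H, ∃ k ∈ K, g = h * k) (hA : ∃ x : G, A = MulAut.conj x • H) (hB : ∃ y : G, B = MulAut.conj y • K) : (∀ g : G, ∃ a ∈ A, ∃ b ∈ B, g = a * b) ∧ ∃ g : G, A = MulAut.conj g • H ∧ B = MulAut.conj g • K := by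
  obtain ⟨x, rfl⟩ := hA
  obtain ⟨y, rfl⟩ := hB
  obtain ⟨h, hh, k, hk, hxy⟩ := hHK (x⁻¹ * y)
  have key : ∃ g : G, MulAut.conj x • H = MulAut.conj g • H ∧ MulAut.conj y • K = MulAut.conj g • K := by
    refine ⟨x * h, ?_, ?_⟩
    · ext z
      simp only [Subgroup.mem_pointwise_smul_iff_inv_smul_mem, MulAut.smul_def, ← map_inv,
        MulAut.conj_apply, inv_inv, mul_inv_rev]
      constructor
      · intro hz
        have : h⁻¹ * x⁻¹ * z * (x * h) = h⁻¹ * (x⁻¹ * z * x) * h := by group
        rw [this]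
        exact H.mul_mem (H.mul_mem (H.inv_mem hh) hz) hh
      · intro hz
        have : x⁻¹ * z * x = h * (h⁻¹ * x⁻¹ * z * (x * h)) * h⁻¹ := by group
        rw [this]
        exact H.mul_mem (H.mul_mem hh hz) (H.inv_mem hh)
    · have hg : x * h = y * k⁻¹ := by
        have : y = x * (h * k) := by rw [← hxy]; group
        rw [this]; group
      rw [hg]
      ext z
      simp only [Subgroup.mem_pointwise_smul_iff_inv_smul_mem, MulAut.smul_def, ← map_inv,
        MulAut.conj_apply, inv_inv, mul_inv_rev]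
      constructor
      · intro hz
        have : k * y⁻¹ * z * (y * k⁻¹) = k * (y⁻¹ * z * y) * k⁻¹ := by group
        rw [this]
        exact K.mul_mem (K.mul_mem hk hz) (K.inv_mem hk)
      · intro hz
        have : y⁻¹ * z * y = k⁻¹ * (k * y⁻¹ * z * (y * k⁻¹)) * k := by group
        rw [this]
        exact K.mul_mem (K.mul_mem (K.inv_mem hk) hz) hk
  refine ⟨?_, key⟩
  obtain ⟨g, hgH, hgK⟩ := key
  rw [hgH, hgK]
  intro z
  obtain ⟨h', hh', k', hk', hz⟩ := hHK (g⁻¹ * z * g)
  refine ⟨g * h' * g⁻¹, ?_, g * k' * g⁻¹, ?_, ?_⟩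
  · simp only [Subgroup.mem_pointwise_smul_iff_inv_smul_mem, MulAut.smul_def, ← map_inv,
      MulAut.conj_apply, inv_inv]
    have : g⁻¹ * (g * h' * g⁻¹) * g = h' := by group
    rw [this]; exact hh'
  · simp only [Subgroup.mem_pointwise_smul_iff_inv_smul_mem, MulAut.smul_def, ← map_inv,
      MulAut.conj_apply, inv_inv]
    have : g⁻¹ * (g * k' * g⁻¹) * g = k' := by group
    rw [this]; exact hk'
  · have : z = g * (h' * k') * g⁻¹ := by rw [← hz]; group
    rw [this]; group

end Cfsg.Agent.S0559
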