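import Cfsg.Statements.S0561
import Mathlib
import Cfsg.Agent.S0004
import Cfsg.Agent.S0005
import Cfsg.Agent.S0559
import Cfsg.Agent.Lib.Helper13.Prod
import Cfsg.Agent.Lib.Helper13.Perm

set_option autoImplicit false
open Pointwise
open Cfsg

namespace Cfsg.Agent.S0561

open Cfsg.Agent.Lib.Helper13

theorem core {G : Type*} [Group G] [Finite G] [Group.IsSolvable G] (H K A B : Subgroup G)
    (hHK : ∀ g : G, ∃ h ∈ H, ∃ k ∈ K, g = h * k)
    (hAn : ∀ h ∈ H, ∀ x ∈ A, h * x * h⁻¹ ∈ A) (hBn : ∀ k ∈ K, ∀ x ∈ B, k * x * k⁻¹ ∈ B)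
    (hAh : (Nat.card A).Coprime A.index) (hBh : (Nat.card B).Coprime B.index) :
    ∃ S : Subgroup G, (S : Set G) = (A : Set G) * (B : Set G) := by
  obtain ⟨a, ha⟩ : ∃ a, a = Nat.card A := ⟨_, rfl⟩
  obtain ⟨b, hb⟩ : ∃ b, b = Nat.card B := ⟨_, rfl⟩
  obtain ⟨n, hn⟩ : ∃ n, n = Nat.card G := ⟨_, rfl⟩
  have hapos : 0 < a := by rw [ha]; exact Nat.card_pos
  have hbpos : 0 < b := by rw [hb]; exact Nat.card_pos
  have han : a * A.index = n := by rw [ha, hn]; exact Subgroup.card_mul_index A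
  have hbn : b * B.index = n := by rw [hb, hn]; exact Subgroup.card_mul_index B
  rw [← ha] at hAh
  rw [← hb] at hBh
  obtain ⟨t, ht⟩ : ∃ t, t = Nat.lcm a b := ⟨_, rfl⟩
  have hat : a ∣ t := by rw [ht]; exact Nat.dvd_lcm_left a b
  have hbt : b ∣ t := by rw [ht]; exact Nat.dvd_lcm_right a b
  have htn : t ∣ n := by rw [ht]; exact Nat.lcm_dvd (Dvd.intro _ han) (Dvd.intro _ hbn)
  obtain ⟨s, hs⟩ := htn
  have hsA : s ∣ A.index := by
    obtain ⟨t', ht'⟩ := hat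
    have h1 : a * A.index = a * (t' * s) := by rw [han, hs, ht']; ring
    have h2 := Nat.eq_of_mul_eq_mul_left hapos h1
    exact Dvd.intro_left _ h2.symm
  have hsB : s ∣ B.index := by
    obtain ⟨t', ht'⟩ := hbt
    have h1 : b * B.index = b * (t' * s) := by rw [hbn, hs, ht']; ring
    have h2 := Nat.eq_of_mul_eq_mul_left hbpos h1
    exact Dvd.intro_left _ h2.symm
  have has : a.Coprime s := Nat.Coprime.coprime_dvd_right hsA hAh
  have hbs : b.Coprime s := Nat.Coprime.coprime_dvd_right hsB hBh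
  have hts : t.Coprime s := by
    have h1 : (a * b).Coprime s := Nat.Coprime.mul_left has hbs
    rw [ht]
    exact Nat.Coprime.coprime_dvd_left (Nat.lcm_dvd_mul a b) h1
  have hG : Nat.card G = t * s := by rw [← hn]; exact hs
  obtain ⟨T₁, hT₁, hAT₁⟩ := Cfsg.Agent.S0005.result t s hG hts A (by rw [← ha]; exact has)
  obtain ⟨T₂, hT₂, hBT₂⟩ := Cfsg.Agent.S0005.result t s hG hts B (by rw [← hb]; exact hbs)
  obtain ⟨g, hg⟩ := Cfsg.Agent.S0004.result t s hG hts T₁ T₂ hT₁ hT₂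
  obtain ⟨h, hh, k, hk, hgk⟩ := hHK g⁻¹
  obtain ⟨T, hTdef⟩ : ∃ T : Subgroup G, T = MulAut.conj h⁻¹ • T₁ := ⟨_, rfl⟩
  have hT2 : T = MulAut.conj k • T₂ := by
    rw [hTdef, ← hg, conj_smul_conj_smul]
    have h1 : k * g = h⁻¹ := by
      have h2 : g = (g⁻¹)⁻¹ := by simp
      rw [h2, hgk]; group
    rw [h1]
  have hTcard : Nat.card T = t := by
    rw [hTdef, ← hT₁]
    exact Nat.card_congr (Subgroup.equivSMul (MulAut.conj h⁻¹) T₁).toEquiv.symm
  have hAT : A ≤ T := by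
    intro x hx
    rw [hTdef, mem_conj_smul_iff, inv_inv]
    exact hAT₁ (hAn h hh x hx)
  have hBT : B ≤ T := by
    intro x hx
    rw [hT2, mem_conj_smul_iff]
    have h1 := hBn k⁻¹ (K.inv_mem hk) x hx
    rw [inv_inv] at h1
    exact hBT₂ h1
  refine ⟨T, ?_⟩
  symm
  apply Set.eq_of_subset_of_ncard_le
  · rintro _ ⟨x, hx, y, hy, rfl⟩
    exact T.mul_mem (hAT hx) (hBT hy)
  · have h1 := card_mul_set A B
    rw [← ha, ← hb] at h1
    have h2 : Nat.card ↥(A ⊓ B) ∣ Nat.gcd a b :=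
      Nat.dvd_gcd (by rw [ha]; exact Subgroup.card_dvd_of_le inf_le_left)
        (by rw [hb]; exact Subgroup.card_dvd_of_le inf_le_right)
    have h3 : Nat.gcd a b * Nat.lcm a b = a * b := Nat.gcd_mul_lcm a b
    have h4 : 0 < Nat.gcd a b := Nat.gcd_pos_of_pos_left b hapos
    have h5 : Nat.card ↥(A ⊓ B) ≤ Nat.gcd a b := Nat.le_of_dvd h4 h2
    have h6 : 0 < Nat.card ↥(A ⊓ B) := Nat.card_pos
    rw [← Nat.card_coe_set_eq, ← Nat.card_coe_set_eq]
    show Nat.card ↥T ≤ _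
    rw [hTcard, ht]
    apply Nat.le_of_mul_le_mul_right _ h6
    calc Nat.lcm a b * Nat.card ↥(A ⊓ B) ≤ Nat.lcm a b * Nat.gcd a b :=
          Nat.mul_le_mul_left _ h5
      _ = a * b := by rw [mul_comm]; exact h3
      _ = _ := h1.symm
  · exact Set.toFinite _

/-- Let the finite solvable group G be the product HK of subgroups, and let A be normal in H and B normal in K, where A and B are Hall subgroups of G (order coprime to index). Then for all x, y the product set of xAx⁻¹ and yBy⁻¹ is a subgroup of G. -/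
theorem result {G : Type*} [Group G] [Finite G] [Group.IsSolvable G] (H K A B : Subgroup G) (hHK : ∀ g : G, ∃ h ∈ H, ∃ k ∈ K, g = h * k) (hA : A ≤ H) (hAn : (A.subgroupOf H).Normal) (hB : B ≤ K) (hBn : (B.subgroupOf K).Normal) (hAh : (Nat.card A).Coprime A.index) (hBh : (Nat.card B).Coprime B.index) (x y : G) : ∃ S : Subgroup G, (S : Set G) = ((MulAut.conj x • A : Subgroup G) : Set G) * ((MulAut.conj y • B : Subgroup G) : Set G) := by
  obtain ⟨H', hH'⟩ : ∃ H' : Subgroup G, H' = MulAut.conj x • H := ⟨_, rfl⟩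
  obtain ⟨K', hK'⟩ : ∃ K' : Subgroup G, K' = MulAut.conj y • K := ⟨_, rfl⟩
  have hHK' := (Cfsg.Agent.S0559.result H K H' K' hHK ⟨x, hH'⟩ ⟨y, hK'⟩).1
  have hAn1 : ∀ h ∈ H, ∀ z ∈ A, h * z * h⁻¹ ∈ A := by
    intro h hh z hz
    have h1 := hAn.conj_mem ⟨z, hA hz⟩ (Subgroup.mem_subgroupOf.mpr hz) ⟨h, hh⟩
    exact Subgroup.mem_subgroupOf.mp h1
  have hBn1 : ∀ k ∈ K, ∀ z ∈ B, k * z * k⁻¹ ∈ B := by
    intro k hk z hz
    have h1 := hBn.conj_mem ⟨z, hB hz⟩ (Subgroup.mem_subgroupOf.mpr hz) ⟨k, hk⟩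
    exact Subgroup.mem_subgroupOf.mp h1
  have hAn' : ∀ h ∈ H', ∀ z ∈ (MulAut.conj x • A : Subgroup G), h * z * h⁻¹ ∈ (MulAut.conj x • A : Subgroup G) := by
    intro h hh z hz
    rw [hH', Cfsg.Agent.Lib.Helper13.mem_conj_smul_iff] at hh
    rw [Cfsg.Agent.Lib.Helper13.mem_conj_smul_iff] at hz ⊢
    have h1 := hAn1 _ hh _ hz
    have h2 : x⁻¹ * (h * z * h⁻¹) * x = x⁻¹ * h * x * (x⁻¹ * z * x) * (x⁻¹ * h * x)⁻¹ := by group
    rw [h2]; exact h1
  have hBn' : ∀ k ∈ K', ∀ z ∈ (MulAut.conj y • B : Subgroup G), k * z * k⁻¹ ∈ (MulAut.conj y • B : Subgroup G) := by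
    intro k hk z hz
    rw [hK', Cfsg.Agent.Lib.Helper13.mem_conj_smul_iff] at hk
    rw [Cfsg.Agent.Lib.Helper13.mem_conj_smul_iff] at hz ⊢
    have h1 := hBn1 _ hk _ hz
    have h2 : y⁻¹ * (k * z * k⁻¹) * y = y⁻¹ * k * y * (y⁻¹ * z * y) * (y⁻¹ * k * y)⁻¹ := by group
    rw [h2]; exact h1
  have hcard : ∀ (z : G) (C : Subgroup G), (Nat.card C).Coprime C.index →
      (Nat.card (MulAut.conj z • C : Subgroup G)).Coprime (MulAut.conj z • C : Subgroup G).index := by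
    intro z C hC
    have h1 : Nat.card (MulAut.conj z • C : Subgroup G) = Nat.card C :=
      Nat.card_congr (Subgroup.equivSMul (MulAut.conj z) C).toEquiv.symm
    have h2 := Subgroup.card_mul_index (MulAut.conj z • C : Subgroup G)
    have h3 := Subgroup.card_mul_index C
    rw [h1, ← h3] at h2
    have h4 := Nat.eq_of_mul_eq_mul_left Nat.card_pos h2
    rw [h1, h4]; exact hC
  exact core H' K' _ _ hHK' hAn' hBn' (hcard x A hAh) (hcard y B hBh)

end Cfsg.Agent.S0561
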