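import Cfsg.Statements.S0562
import Mathlib

set_option autoImplicit false
open Cfsg

namespace Cfsg.Agent.S0562

/-- Let the finite group G be the product HK of subgroups, A normal in H, B normal in K, and L the normalizer of the subgroup generated by A and B. Then every element of L is a product of an element of L ∩ H and an element of L ∩ K. -/
theorem result {G : Type*} [Group G] [Finite G] (H K A B : Subgroup G) (hHK : ∀ g : G, ∃ h ∈ H, ∃ k ∈ K, g = h * k) (hA : A ≤ H) (hAn : (A.subgroupOf H).Normal) (hB : B ≤ K) (hBn : (B.subgroupOf K).Normal) : ∀ g ∈ Subgroup.normalizer ((A ⊔ B : Subgroup G) : Set G), ∃ h ∈ Subgroup.normalizer ((A ⊔ B : Subgroup G) : Set G) ⊓ H, ∃ k ∈ Subgroup.normalizer ((A ⊔ B : Subgroup G) : Set G) ⊓ K, g = h * k := by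
  intro g hg
  obtain ⟨h, hh, k, hk, rfl⟩ := hHK g
  have hkinv : k⁻¹ ∈ Subgroup.normalizer ((A ⊔ B : Subgroup G) : Set G) := by
    apply Subgroup.mem_normalizer_fintype
    have hle : A ⊔ B ≤ (A ⊔ B).comap (MulAut.conj k⁻¹).toMonoidHom := by
      apply sup_le
      · intro a ha
        rw [Subgroup.mem_comap]
        show k⁻¹ * a * k⁻¹⁻¹ ∈ A ⊔ B
        have h1 : h * a * h⁻¹ ∈ A := by
          have := hAn.conj_mem ⟨a, hA ha⟩ (by simpa [Subgroup.mem_subgroupOf] using ha) ⟨h, hh⟩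
          simpa [Subgroup.mem_subgroupOf] using this
        have h2 : (h * k)⁻¹ ∈ Subgroup.normalizer ((A ⊔ B : Subgroup G) : Set G) := inv_mem hg
        have h3 := (Subgroup.mem_normalizer_iff.mp h2 (h * a * h⁻¹)).mp
          (show h * a * h⁻¹ ∈ A ⊔ B from (le_sup_left : A ≤ A ⊔ B) h1)
        have h4 : (h * k)⁻¹ * (h * a * h⁻¹) * (h * k)⁻¹⁻¹ = k⁻¹ * a * k⁻¹⁻¹ := by group
        rw [h4] at h3
        exact h3
      · intro b hb
        rw [Subgroup.mem_comap]
        show k⁻¹ * b * k⁻¹⁻¹ ∈ A ⊔ B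
        have h1 : k⁻¹ * b * k⁻¹⁻¹ ∈ B := by
          have := hBn.conj_mem ⟨b, hB hb⟩ (by simpa [Subgroup.mem_subgroupOf] using hb) ⟨k, hk⟩⁻¹
          simpa [Subgroup.mem_subgroupOf] using this
        exact (le_sup_right : B ≤ A ⊔ B) h1
    intro n hn
    exact hle hn
  have hkN : k ∈ Subgroup.normalizer ((A ⊔ B : Subgroup G) : Set G) := by
    have := inv_mem hkinv
    simpa using this
  have hhN : h ∈ Subgroup.normalizer ((A ⊔ B : Subgroup G) : Set G) := by
    have := mul_mem hg hkinv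
    simpa using this
  exact ⟨h, ⟨hhN, hh⟩, k, ⟨hkN, hk⟩, rfl⟩

end Cfsg.Agent.S0562
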