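import Cfsg.Statements.S0566
import Mathlib
import Cfsg.Agent.Lib.Helper13.Perm

set_option autoImplicit false
open Pointwise
open Cfsg

namespace Cfsg.Agent.S0566

/-- Let A and B be nontrivial subgroups of a finite group G such that for every x the product set of A and xBx⁻¹ is a proper subgroup of G. Then there is a proper normal subgroup of G containing A or containing B. -/
theorem result {G : Type*} [Group G] [Finite G] (A B : Subgroup G) (hA : A ≠ ⊥) (hB : B ≠ ⊥) (h : ∀ x : G, ∃ S : Subgroup G, S ≠ ⊤ ∧ (S : Set G) = (A : Set G) * ((MulAut.conj x • B : Subgroup G) : Set G)) : ∃ N : Subgroup G, N.Normal ∧ N ≠ ⊤ ∧ (A ≤ N ∨ B ≤ N) := by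
  classical
  have hgoodA : ∀ x : G, Cfsg.Agent.Lib.Helper13.MulPerm A (MulAut.conj x • B) ∧
      ∃ g : G, ¬ ∃ a ∈ A, ∃ c ∈ MulAut.conj x • B, g = a * c := by
    intro x
    obtain ⟨S, hS, hSeq⟩ := h x
    refine ⟨Cfsg.Agent.Lib.Helper13.mulPerm_of_coe_eq S A _ hSeq, ?_⟩
    by_contra hall
    push Not at hall
    apply hS
    rw [eq_top_iff]
    intro g _
    obtain ⟨a, ha, c, hc, rfl⟩ := hall g
    have h1 : a * c ∈ (S : Set G) := by rw [hSeq]; exact Set.mul_mem_mul ha hc
    exact h1
  obtain ⟨X, hAX, hXmax⟩ := Finite.exists_le_maximal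
    (p := fun X : Subgroup G => ∀ x : G, Cfsg.Agent.Lib.Helper13.MulPerm X (MulAut.conj x • B) ∧
      ∃ g : G, ¬ ∃ a ∈ X, ∃ c ∈ MulAut.conj x • B, g = a * c) hgoodA
  have hXgood : ∀ x : G, Cfsg.Agent.Lib.Helper13.MulPerm X (MulAut.conj x • B) ∧
      ∃ g : G, ¬ ∃ a ∈ X, ∃ c ∈ MulAut.conj x • B, g = a * c := hXmax.1
  have hnorm : ∀ y : G, ∀ b ∈ MulAut.conj y • B, MulAut.conj b • X ≤ X := by
    intro y b hb
    have hgood' : ∀ x : G, Cfsg.Agent.Lib.Helper13.MulPerm (X ⊔ MulAut.conj b • X)
        (MulAut.conj x • B) ∧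
        ∃ g : G, ¬ ∃ a ∈ X ⊔ MulAut.conj b • X, ∃ c ∈ MulAut.conj x • B, g = a * c := by
      intro x
      constructor
      · apply Cfsg.Agent.Lib.Helper13.mulPerm_sup (hXgood x).1
        have h1 := Cfsg.Agent.Lib.Helper13.mulPerm_conj (hXgood (b⁻¹ * x)).1 b
        rw [Cfsg.Agent.Lib.Helper13.conj_smul_conj_smul] at h1
        have h2 : b * (b⁻¹ * x) = x := by group
        rw [h2] at h1
        exact h1
      · by_contra hall
        push Not at hall
        have h2 : ∀ g : G, ∃ a ∈ X ⊔ MulAut.conj b • X,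
            ∃ c ∈ MulAut.conj (x * y⁻¹) • (MulAut.conj y • B), g = a * c := by
          intro g
          obtain ⟨a, ha, c, hc, e⟩ := hall g
          refine ⟨a, ha, c, ?_, e⟩
          rw [Cfsg.Agent.Lib.Helper13.conj_smul_conj_smul]
          have h3 : x * y⁻¹ * y = x := by group
          rw [h3]; exact hc
        have h3 := Cfsg.Agent.Lib.Helper13.mul_eq_univ_of_conj _ _ _ h2
        obtain ⟨g0, hg0⟩ := (hXgood y).2
        apply hg0
        have hS := Cfsg.Agent.Lib.Helper13.coe_sup_of_mulPerm (hXgood y).1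
        obtain ⟨a, ha, c, hc, e⟩ := h3 g0
        have hmem : g0 ∈ ((X ⊔ MulAut.conj y • B : Subgroup G) : Set G) := by
          rw [e]
          apply Subgroup.mul_mem
          · have hle : X ⊔ MulAut.conj b • X ≤ X ⊔ MulAut.conj y • B := by
              apply sup_le le_sup_left
              intro w hw
              rw [Cfsg.Agent.Lib.Helper13.mem_conj_smul_iff] at hw
              have hb' : b ∈ X ⊔ MulAut.conj y • B := Subgroup.mem_sup_right hb
              have h4 : w = b * (b⁻¹ * w * b) * b⁻¹ := by group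
              rw [h4]
              exact Subgroup.mul_mem _ (Subgroup.mul_mem _ hb' (Subgroup.mem_sup_left hw))
                (Subgroup.inv_mem _ hb')
            exact hle ha
          · exact Subgroup.mem_sup_right hc
        rw [hS] at hmem
        obtain ⟨a', ha', c', hc', e'⟩ := hmem
        exact ⟨a', ha', c', hc', e'.symm⟩
    have h5 := hXmax.2 hgood' le_sup_left
    exact le_trans le_sup_right h5
  have hNle : Subgroup.normalClosure (B : Set G) ≤ Subgroup.normalizer (X : Set G) := by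
    rw [Subgroup.normalClosure, Subgroup.closure_le]
    intro w hw
    rw [Group.mem_conjugatesOfSet_iff] at hw
    obtain ⟨b, hb, hbw⟩ := hw
    obtain ⟨g, rfl⟩ := isConj_iff.mp hbw
    apply Subgroup.mem_normalizer_fintype
    intro n hn
    have h6 := hnorm g (g * b * g⁻¹) (Cfsg.Agent.Lib.Helper13.conj_mem_conj_smul g hb)
    apply h6
    exact Cfsg.Agent.Lib.Helper13.conj_mem_conj_smul _ hn
  by_cases hB' : Subgroup.normalClosure (B : Set G) = ⊤
  · refine ⟨X, ?_, ?_, Or.inl hAX⟩
    · rw [← Subgroup.normalizer_eq_top_iff]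
      rw [hB'] at hNle
      exact top_le_iff.mp hNle
    · intro hX
      obtain ⟨g0, hg0⟩ := (hXgood 1).2
      exact hg0 ⟨g0, hX ▸ Subgroup.mem_top g0, 1, Subgroup.one_mem _, by simp⟩
  · exact ⟨Subgroup.normalClosure (B : Set G), Subgroup.normalClosure_normal, hB',
      Or.inr Subgroup.le_normalClosure⟩

end Cfsg.Agent.S0566
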