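import Cfsg.Statements.S0557
import Mathlib

set_option autoImplicit false
open Cfsg

namespace Cfsg.Agent.S0557

open scoped commutatorElement

theorem focal_step {G : Type*} [Group G] [Finite G] (H : Subgroup G)
    (hHall : (Nat.card H).Coprime H.index) :
    ∃ K : Subgroup G, K.Normal ∧ K ⊓ H = H.focalSubgroup ∧ K ⊔ H = ⊤ := by
  have hcop : (Nat.card (H ⧸ H.focalSubgroupOf)).Coprime H.index :=
    Nat.Coprime.coprime_dvd_left (Subgroup.card_quotient_dvd_card _) hHall
  have hpow1 : ∀ y : H ⧸ H.focalSubgroupOf, y ^ H.index = 1 → y = 1 := by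
    intro y hy
    have h1 : orderOf y ∣ H.index := orderOf_dvd_of_pow_eq_one hy
    have h2 : orderOf y ∣ Nat.card (H ⧸ H.focalSubgroupOf) := orderOf_dvd_natCard y
    exact orderOf_eq_one_iff.mp (Nat.eq_one_of_dvd_coprimes hcop h2 h1)
  refine ⟨H.transferFocal.ker, inferInstance, ?_, ?_⟩
  · ext x
    constructor
    · intro hx
      have hxK := (Subgroup.mem_inf.mp hx).1
      have hxH := (Subgroup.mem_inf.mp hx).2
      have h0 := H.transferFocal_eq_pow ⟨x, hxH⟩
      have hk : H.transferFocal x = 1 := MonoidHom.mem_ker.mp hxK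
      have h1 := hpow1 _ (h0.symm.trans hk)
      rw [QuotientGroup.eq_one_iff, Subgroup.focalSubgroupOf_def, Subgroup.mem_subgroupOf] at h1
      exact h1
    · intro hx
      have hxH : x ∈ H := H.focalSubgroup_le hx
      refine Subgroup.mem_inf.mpr ⟨?_, hxH⟩
      rw [MonoidHom.mem_ker]
      have h0 := H.transferFocal_eq_pow ⟨x, hxH⟩
      have h1 : ((⟨x, hxH⟩ : H) : H ⧸ H.focalSubgroupOf) = 1 := by
        rw [QuotientGroup.eq_one_iff, Subgroup.focalSubgroupOf_def, Subgroup.mem_subgroupOf]
        exact hx
      rw [h1, one_pow] at h0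
      exact h0
  · rw [eq_top_iff]
    intro g _
    obtain ⟨y, hy⟩ := (powCoprime hcop).surjective (H.transferFocal g)
    obtain ⟨x, rfl⟩ := QuotientGroup.mk_surjective y
    rw [powCoprime_apply] at hy
    have hx : H.transferFocal (x : G) = H.transferFocal g := by
      rw [H.transferFocal_eq_pow x]; exact hy
    have hk : (x : G)⁻¹ * g ∈ H.transferFocal.ker := by
      rw [MonoidHom.mem_ker, map_mul, map_inv, hx, inv_mul_cancel]
    have e : g = (x : G) * ((x : G)⁻¹ * g) := by group
    rw [e, sup_comm]
    exact Subgroup.mul_mem_sup x.2 hk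

theorem focal_map_le {G : Type*} [Group G] (K : Subgroup G) (L : Subgroup K) :
    (L.focalSubgroup).map K.subtype ≤ (L.map K.subtype).focalSubgroup := by
  rw [Subgroup.focalSubgroup_def, MonoidHom.map_closure, Subgroup.closure_le]
  rintro _ ⟨g, ⟨hg, x, hx, u, rfl⟩, rfl⟩
  apply Subgroup.subset_closure
  refine ⟨⟨_, hg, rfl⟩, (x : G), ⟨x, hx, rfl⟩, (u : G), ?_⟩
  simp [commutatorElement_def]

theorem focal_mono {G : Type*} [Group G] {A B : Subgroup G} (h : A ≤ B) :
    A.focalSubgroup ≤ B.focalSubgroup := by
  rw [Subgroup.focalSubgroup_def, Subgroup.focalSubgroup_def]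
  apply Subgroup.closure_mono
  rintro g ⟨hg, x, hx, u, rfl⟩
  exact ⟨h hg, x, h hx, u, rfl⟩

theorem focal_iter_map_le {G : Type*} [Group G] (K : Subgroup G) (L : Subgroup K) (j : ℕ) :
    ((fun M : Subgroup K => M.focalSubgroup)^[j] L).map K.subtype ≤
      (fun M : Subgroup G => M.focalSubgroup)^[j] (L.map K.subtype) := by
  induction j with
  | zero => exact le_rfl
  | succ j ih =>
    rw [Function.iterate_succ_apply', Function.iterate_succ_apply']
    exact (focal_map_le K _).trans (focal_mono ih)

theorem mem_of_coprime {K : Type*} [Group K] [Finite K] (N : Subgroup K) [N.Normal] (y : K)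
    (h : (orderOf y).Coprime N.index) : y ∈ N := by
  rw [← QuotientGroup.eq_one_iff]
  have h1 : (y : K ⧸ N) ^ orderOf y = 1 := by
    rw [← QuotientGroup.mk_pow, pow_orderOf_eq_one]; rfl
  have h2 : (y : K ⧸ N) ^ N.index = 1 := by
    rw [Subgroup.index_eq_card]; exact pow_card_eq_one'
  have h3 := pow_gcd_eq_one.mpr ⟨h1, h2⟩
  rw [Nat.Coprime] at h
  rw [h, pow_one] at h3
  exact h3

theorem aux.{u} : ∀ (n : ℕ) (G : Type u) [Group G] [Finite G] (H : Subgroup G),
    (Nat.card H).Coprime H.index →
    (fun K : Subgroup G => Subgroup.focalSubgroup K)^[n] H = ⊥ →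
    ∃ N : Subgroup G, N.Normal ∧ Subgroup.IsComplement' N H := by
  intro n
  induction n with
  | zero =>
    intro G _ _ H _ hfoc
    rw [Function.iterate_zero, id] at hfoc
    subst hfoc
    exact ⟨⊤, inferInstance, Subgroup.isComplement'_top_bot⟩
  | succ n ih =>
    intro G _ _ H hHall hfoc
    rw [Function.iterate_succ_apply] at hfoc
    obtain ⟨K, hKn, hKH, hKtop⟩ := focal_step H hHall
    have hle : H.focalSubgroup ≤ K := by rw [← hKH]; exact inf_le_left
    have hidx : (H.focalSubgroup.subgroupOf K).index = H.index := by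
      change H.focalSubgroup.relIndex K = H.index
      have e1 : (K ⊓ H).relIndex K * K.index = (K ⊓ H).index :=
        Subgroup.relIndex_mul_index inf_le_left
      have e2 : (K ⊓ H).relIndex H * H.index = (K ⊓ H).index :=
        Subgroup.relIndex_mul_index inf_le_right
      have e3 : (K ⊓ H).relIndex H = K.index := by
        rw [Subgroup.inf_relIndex_right, ← Subgroup.relIndex_sup_left (K := K) (H := H), hKtop,
          Subgroup.relIndex_top_right]
      rw [e3, ← e1] at e2
      have hK0 : K.index ≠ 0 := Subgroup.index_ne_zero_of_finite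
      rw [← hKH]
      have e4 : K.index * H.index = K.index * (K ⊓ H).relIndex K := by rw [e2, mul_comm]
      exact (Nat.eq_of_mul_eq_mul_left (Nat.pos_of_ne_zero hK0) e4).symm
    have hcard : Nat.card (H.focalSubgroup.subgroupOf K) = Nat.card H.focalSubgroup :=
      Nat.card_congr (Subgroup.subgroupOfEquivOfLe hle).toEquiv
    have hdvd : Nat.card (H.focalSubgroup.subgroupOf K) ∣ Nat.card H := by
      rw [hcard]; exact Subgroup.card_dvd_of_le H.focalSubgroup_le
    have hHall' : (Nat.card (H.focalSubgroup.subgroupOf K)).Coprime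
        (H.focalSubgroup.subgroupOf K).index := by
      rw [hidx]; exact Nat.Coprime.coprime_dvd_left hdvd hHall
    have hfoc' : (fun M : Subgroup K => Subgroup.focalSubgroup M)^[n]
        (H.focalSubgroup.subgroupOf K) = ⊥ := by
      have h1 := focal_iter_map_le K (H.focalSubgroup.subgroupOf K) n
      rw [Subgroup.map_subgroupOf_eq_of_le hle, hfoc, le_bot_iff] at h1
      exact (Subgroup.map_eq_bot_iff_of_injective _ K.subtype_injective).mp h1
    obtain ⟨N', hN'n, hN'c⟩ := ih K (H.focalSubgroup.subgroupOf K) hHall' hfoc'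
    have hN'card : Nat.card N' = H.index := by
      rw [← hN'c.index_eq_card, hidx]
    have hN'idx : N'.index ∣ Nat.card H := by
      have h1 : Nat.card N' * Nat.card (H.focalSubgroup.subgroupOf K) = Nat.card K :=
        hN'c.card_mul_card
      have h2 : N'.index * Nat.card N' = Nat.card K := N'.index_mul_card
      have h3 : N'.index = Nat.card (H.focalSubgroup.subgroupOf K) := by
        have hpos : 0 < Nat.card N' := Nat.card_pos
        have : Nat.card N' * N'.index = Nat.card N' * Nat.card (H.focalSubgroup.subgroupOf K) := by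
          rw [h1, mul_comm, h2]
        exact Nat.eq_of_mul_eq_mul_left hpos this
      rw [h3]; exact hdvd
    have hNcard : Nat.card (N'.map K.subtype) = H.index := by
      rw [Subgroup.card_map_of_injective K.subtype_injective, hN'card]
    refine ⟨N'.map K.subtype, ?_, ?_⟩
    · constructor
      rintro _ ⟨x, hx, rfl⟩ g
      have hgx : g * (x : G) * g⁻¹ ∈ K := hKn.conj_mem _ x.2 g
      refine ⟨⟨g * (x : G) * g⁻¹, hgx⟩, ?_, rfl⟩
      apply mem_of_coprime
      have ho : orderOf (⟨g * (x : G) * g⁻¹, hgx⟩ : K) = orderOf (⟨x, hx⟩ : N') := by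
        rw [← Subgroup.orderOf_coe, ← Subgroup.orderOf_coe, ← Subgroup.orderOf_coe]
        have hs : SemiconjBy g ((x : K) : G) (g * (x : G) * g⁻¹) := by
          simp [SemiconjBy]
        exact (SemiconjBy.orderOf_eq g hs).symm
      have ho2 : orderOf (⟨x, hx⟩ : N') ∣ H.index := by
        rw [← hN'card]; exact orderOf_dvd_natCard _
      rw [ho]
      exact Nat.Coprime.coprime_dvd_left ho2 (Nat.Coprime.coprime_dvd_right hN'idx hHall.symm)
    · apply Subgroup.isComplement'_of_coprime
      · rw [hNcard]; exact H.index_mul_card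
      · rw [hNcard]; exact hHall.symm

/-- Let H be a subgroup of a finite group G with order coprime to its index. If iterating the focal-subgroup construction starting from H reaches the trivial subgroup after finitely many steps, then H has a normal complement in G. -/
theorem result {G : Type*} [Group G] [Finite G] (H : Subgroup G) (hHall : (Nat.card H).Coprime H.index) (n : ℕ) (hfoc : (fun K : Subgroup G => Subgroup.focalSubgroup K)^[n] H = ⊥) : ∃ N : Subgroup G, N.Normal ∧ Subgroup.IsComplement' N H := by
  exact aux n G H hHall hfoc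

end Cfsg.Agent.S0557
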