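import Cfsg.Statements.S0558
import Mathlib
import Cfsg.Agent.S0557

set_option autoImplicit false
open Cfsg

namespace Cfsg.Agent.S0558

open scoped commutatorElement

theorem sylow_of_normalizer {G : Type*} [Group G] [Finite G] (H : Subgroup G) (p : ℕ)
    [Fact p.Prime] (P : Sylow p H)
    (hn : Subgroup.normalizer (((P : Subgroup H).map H.subtype : Subgroup G) : Set G) = H) :
    ∃ Q : Sylow p G, (Q : Subgroup G) = (P : Subgroup H).map H.subtype := by
  have hpg : IsPGroup p ((P : Subgroup H).map H.subtype) := P.2.map H.subtype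
  obtain ⟨Q, hQ⟩ := hpg.exists_le_sylow
  refine ⟨Q, ?_⟩
  have hQH : (Q : Subgroup G) ⊓ H ≤ (P : Subgroup H).map H.subtype := by
    have hR : IsPGroup p (((Q : Subgroup G) ⊓ H).subgroupOf H) :=
      (Q.2.to_le inf_le_left).comap_of_injective H.subtype H.subtype_injective
    have hPR : (P : Subgroup H) ≤ ((Q : Subgroup G) ⊓ H).subgroupOf H := by
      intro y hy
      rw [Subgroup.mem_subgroupOf]
      exact Subgroup.mem_inf.mpr ⟨hQ ⟨y, hy, rfl⟩, y.2⟩
    have hRP := P.3 hR hPR
    intro x hx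
    have hxH : x ∈ H := (Subgroup.mem_inf.mp hx).2
    have hxR : (⟨x, hxH⟩ : H) ∈ ((Q : Subgroup G) ⊓ H).subgroupOf H := by
      rw [Subgroup.mem_subgroupOf]; exact hx
    rw [hRP] at hxR
    exact ⟨⟨x, hxH⟩, hxR, rfl⟩
  by_contra hne
  have hlt : ((P : Subgroup H).map H.subtype).subgroupOf Q < ⊤ := by
    rw [lt_top_iff_ne_top, Ne, Subgroup.subgroupOf_eq_top]
    intro hle; exact hne (le_antisymm hle hQ)
  have hnil : Group.IsNilpotent (Q : Subgroup G) := Q.isPGroup'.isNilpotent
  have hnc := Group.normalizerCondition_of_isNilpotent (G := (Q : Subgroup G)) _ hlt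
  rw [← Subgroup.subgroupOf_normalizer_eq hQ, hn] at hnc
  obtain ⟨x, hxH, hxP⟩ := SetLike.exists_of_lt hnc
  rw [Subgroup.mem_subgroupOf] at hxH hxP
  exact hxP (hQH (Subgroup.mem_inf.mpr ⟨x.2, hxH⟩))

theorem normal_of_normalizer {G : Type*} [Group G] (H : Subgroup G) (P : Subgroup H)
    (hn : Subgroup.normalizer ((P.map H.subtype : Subgroup G) : Set G) = H) : P.Normal := by
  constructor
  intro x hx h
  have hh : (h : G) ∈ Subgroup.normalizer ((P.map H.subtype : Subgroup G) : Set G) := by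
    rw [hn]; exact h.2
  have h1 := (Subgroup.mem_normalizer_iff.mp hh (x : G)).mp ⟨x, hx, rfl⟩
  obtain ⟨y, hy, hyx⟩ := h1
  have : h * x * h⁻¹ = y := Subtype.ext hyx.symm
  rw [this]; exact hy

theorem sylow_conj_in {G : Type*} [Group G] [Finite G] {q : ℕ} [Fact q.Prime] (Q₁ Q₂ : Sylow q G)
    (C : Subgroup G) (h₁ : (Q₁ : Subgroup G) ≤ C) (h₂ : (Q₂ : Subgroup G) ≤ C) :
    ∃ c ∈ C, c • Q₁ = Q₂ := by
  obtain ⟨t, ht⟩ := MulAction.exists_smul_eq C (Q₁.subtype h₁) (Q₂.subtype h₂)
  rw [Sylow.smul_subtype] at ht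
  exact ⟨t, t.2, Sylow.subtype_injective ht⟩

theorem decomp {H : Type*} [Group H] [Finite H] (p : ℕ) [Fact p.Prime] (P : Sylow p H)
    (hall : ∀ (r : ℕ) [Fact r.Prime] (R : Sylow r H), (R : Subgroup H).Normal) :
    ∀ h : H, ∃ a ∈ (P : Subgroup H), ∃ b ∈ Subgroup.centralizer ((P : Subgroup H) : Set H),
      h = a * b := by
  have hPn := hall p P
  have htop : (P : Subgroup H) ⊔ Subgroup.centralizer ((P : Subgroup H) : Set H) = ⊤ := by
    rw [← Subgroup.index_eq_one]
    by_contra hne
    obtain ⟨r, hr, hrdvd⟩ := Nat.exists_prime_and_dvd hne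
    have : Fact r.Prime := ⟨hr⟩
    obtain ⟨R⟩ : Nonempty (Sylow r H) := inferInstance
    have hRle : (R : Subgroup H) ≤
        (P : Subgroup H) ⊔ Subgroup.centralizer ((P : Subgroup H) : Set H) := by
      by_cases hrp : r = p
      · subst hrp
        have hRP : R = P := by
          have := Sylow.unique_of_normal P hPn
          exact Subsingleton.elim _ _
        rw [hRP]; exact le_sup_left
      · have hRn := hall r R
        have hdis : Disjoint (R : Subgroup H) (P : Subgroup H) :=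
          IsPGroup.disjoint_of_ne r p hrp _ _ R.2 P.2
        apply le_trans _ le_sup_right
        intro x hx
        rw [Subgroup.mem_centralizer_iff]
        intro y hy
        exact (Subgroup.commute_of_normal_of_disjoint _ _ hRn hPn hdis x y hx hy).eq.symm
    exact R.not_dvd_index (hrdvd.trans (Subgroup.index_dvd_of_le hRle))
  intro h
  have hh : h ∈ (P : Subgroup H) ⊔ Subgroup.centralizer ((P : Subgroup H) : Set H) :=
    htop ▸ Subgroup.mem_top h
  rw [Subgroup.mem_sup_of_normal_left] at hh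
  obtain ⟨a, ha, b, hb, rfl⟩ := hh
  exact ⟨a, ha, b, hb, rfl⟩

theorem npc {G : Type*} [Group G] [Finite G] (H : Subgroup G)
    (hnot : ∀ p : ℕ, p.Prime → ∀ P : Sylow p G, (P : Subgroup G) ≠ H)
    (hnorm : ∀ p : ℕ, p.Prime → p ∣ Nat.card H → ∀ P : Sylow p H,
      Subgroup.normalizer (((P : Subgroup H).map H.subtype : Subgroup G) : Set G) = H)
    (p : ℕ) [hpf : Fact p.Prime] (hp : p ∣ Nat.card H) (P : Sylow p H) :
    ∃ N : Subgroup G, N.Normal ∧
      Subgroup.IsComplement' N ((P : Subgroup H).map H.subtype) := by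
  obtain ⟨Q, hQ⟩ := sylow_of_normalizer H p P (hnorm p hpf.out hp P)
  have hall : ∀ (r : ℕ) [Fact r.Prime] (R : Sylow r H), (R : Subgroup H).Normal := by
    intro r hr R
    by_cases hrd : r ∣ Nat.card H
    · exact normal_of_normalizer H R (hnorm r hr.out hrd R)
    · have hR1 : Nat.card (R : Subgroup H) = 1 := by
        rcases R.2.card_eq_or_dvd with h1 | h1
        · exact h1
        · exact absurd (h1.trans (Subgroup.card_subgroup_dvd_card _)) hrd
      rw [Subgroup.card_eq_one] at hR1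
      rw [hR1]; infer_instance
  have hdec := decomp p P hall
  have hq : ∃ q : ℕ, q.Prime ∧ q ≠ p ∧ q ∣ Nat.card H := by
    by_contra hno
    push Not at hno
    have hcard : Nat.card H = p ^ (Nat.card H).primeFactorsList.length :=
      Nat.eq_prime_pow_of_unique_prime_dvd Nat.card_pos.ne' (fun {d} hd hdvd => by
        by_contra hne
        exact hno d hd hne hdvd)
    have hpg : IsPGroup p H := IsPGroup.of_card hcard
    have hPtop : (⊤ : Subgroup H) = P := P.3 (hpg.to_subgroup ⊤) le_top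
    have hPG : (P : Subgroup H).map H.subtype = H := by
      rw [← hPtop, ← MonoidHom.range_eq_map, Subgroup.range_subtype]
    exact hnot p hpf.out Q (hQ.trans hPG)
  obtain ⟨q, hqp, hqne, hqdvd⟩ := hq
  have : Fact q.Prime := ⟨hqp⟩
  obtain ⟨Qh⟩ : Nonempty (Sylow q H) := inferInstance
  obtain ⟨Q', hQ'⟩ := sylow_of_normalizer H q Qh (hnorm q hqp hqdvd Qh)
  have hcent : ∀ b ∈ (Qh : Subgroup H).map H.subtype, ∀ y ∈ (P : Subgroup H).map H.subtype,
      b * y = y * b := by
    rintro _ ⟨b, hb, rfl⟩ _ ⟨y, hy, rfl⟩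
    have hdis : Disjoint (Qh : Subgroup H) (P : Subgroup H) :=
      IsPGroup.disjoint_of_ne q p hqne _ _ Qh.2 P.2
    have := Subgroup.commute_of_normal_of_disjoint _ _ (hall q Qh) (hall p P) hdis b y hb hy
    exact congrArg Subtype.val this.eq
  have hfus : ∀ y ∈ (P : Subgroup H).map H.subtype, ∀ u : G,
      u * y * u⁻¹ ∈ (P : Subgroup H).map H.subtype →
      ∃ a ∈ (P : Subgroup H).map H.subtype, u * y * u⁻¹ = a * y * a⁻¹ := by
    intro y hy u huy
    have h1 : (Q' : Subgroup G) ≤ Subgroup.centralizer {u * y * u⁻¹} := by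
      rw [hQ']
      intro b hb
      rw [Subgroup.mem_centralizer_iff]
      intro z hz
      rw [Set.mem_singleton_iff] at hz
      rw [hz]
      exact (hcent b hb _ huy).symm
    have h2 : ((u • Q' : Sylow q G) : Subgroup G) ≤ Subgroup.centralizer {u * y * u⁻¹} := by
      intro b hb
      rw [Sylow.coe_subgroup_smul, Subgroup.mem_pointwise_smul_iff_inv_smul_mem] at hb
      have hb' : u⁻¹ * b * u ∈ (Q' : Subgroup G) := by
        simpa [MulAut.smul_def, MulAut.conj_apply] using hb
      rw [hQ'] at hb'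
      have hc := hcent _ hb' y hy
      rw [Subgroup.mem_centralizer_iff]
      intro z hz
      rw [Set.mem_singleton_iff] at hz
      rw [hz]
      calc u * y * u⁻¹ * b = u * (y * (u⁻¹ * b * u)) * u⁻¹ := by group
        _ = u * ((u⁻¹ * b * u) * y) * u⁻¹ := by rw [hc]
        _ = b * (u * y * u⁻¹) := by group
    obtain ⟨c, hc, hcQ⟩ := sylow_conj_in (u • Q') Q' _ h2 h1
    have hcu : c * u ∈ H := by
      have h3 : (c * u) • Q' = Q' := by rw [mul_smul]; exact hcQ
      have h4 := Sylow.smul_eq_iff_mem_normalizer.mp h3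
      have hn := hnorm q hqp hqdvd Qh
      rw [← hQ'] at hn
      rw [← hn]; exact h4
    obtain ⟨a, ha, b, hb, hab⟩ := hdec ⟨c * u, hcu⟩
    refine ⟨(a : G), ⟨a, ha, rfl⟩, ?_⟩
    obtain ⟨y', hy', rfl⟩ := hy
    have hb' : (b : G) * (y' : G) = (y' : G) * (b : G) := by
      have := (Subgroup.mem_centralizer_iff.mp hb) y' hy'
      exact congrArg Subtype.val this.symm
    have hcc : c * (u * (y' : G) * u⁻¹) = (u * (y' : G) * u⁻¹) * c := by
      have := (Subgroup.mem_centralizer_iff.mp hc) (u * (y' : G) * u⁻¹) rfl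
      exact this.symm
    have hcu' : c * u = (a : G) * (b : G) := congrArg Subtype.val hab
    calc u * (y' : G) * u⁻¹ = c * (u * (y' : G) * u⁻¹) * c⁻¹ := by rw [hcc]; group
      _ = (c * u) * (y' : G) * (c * u)⁻¹ := by group
      _ = ((a : G) * (b : G)) * (y' : G) * ((a : G) * (b : G))⁻¹ := by rw [hcu']
      _ = (a : G) * ((b : G) * (y' : G)) * (b : G)⁻¹ * (a : G)⁻¹ := by group
      _ = (a : G) * ((y' : G) * (b : G)) * (b : G)⁻¹ * (a : G)⁻¹ := by rw [hb']
      _ = (a : G) * (y' : G) * (a : G)⁻¹ := by group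
  have hfoc1 : ∀ K : Subgroup G, K ≤ (P : Subgroup H).map H.subtype →
      K.focalSubgroup ≤ ⁅K, (P : Subgroup H).map H.subtype⁆ := by
    intro K hK
    rw [Subgroup.focalSubgroup_def, Subgroup.closure_le]
    rintro g ⟨hg, x, hx, u, rfl⟩
    have hy : u * x⁻¹ * u⁻¹ ∈ (P : Subgroup H).map H.subtype := by
      have e : u * x⁻¹ * u⁻¹ = x⁻¹ * ⁅x, u⁆ := by
        simp only [commutatorElement_def]; group
      rw [e]; exact hK (K.mul_mem (K.inv_mem hx) hg)
    obtain ⟨a, ha, hau⟩ := hfus x⁻¹ (hK (K.inv_mem hx)) u hy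
    have e2 : ⁅x, u⁆ = ⁅x, a⁆ := by
      simp only [commutatorElement_def]
      calc x * u * x⁻¹ * u⁻¹ = x * (u * x⁻¹ * u⁻¹) := by group
        _ = x * (a * x⁻¹ * a⁻¹) := by rw [hau]
        _ = x * a * x⁻¹ * a⁻¹ := by group
    rw [SetLike.mem_coe, e2]
    exact Subgroup.commutator_mem_commutator hx ha
  have hiter : ∀ n : ℕ, (fun K : Subgroup G => K.focalSubgroup)^[n]
      ((P : Subgroup H).map H.subtype) ≤ ((P : Subgroup H).map H.subtype).lowerCentralSeries n := by
    intro n
    induction n with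
    | zero => exact le_rfl
    | succ n ih =>
      rw [Function.iterate_succ_apply', Subgroup.lowerCentralSeries_succ]
      exact (hfoc1 _ (ih.trans (Subgroup.lowerCentralSeries_le_self _ n))).trans
        (Subgroup.commutator_mono ih le_rfl)
  have hnilP : Group.IsNilpotent ((P : Subgroup H).map H.subtype) :=
    (P.2.map H.subtype).isNilpotent
  obtain ⟨n, hn⟩ := (Subgroup.isNilpotent_iff_lowerCentralSeries _).mp hnilP
  have hbot : (fun K : Subgroup G => K.focalSubgroup)^[n] ((P : Subgroup H).map H.subtype) = ⊥ :=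
    le_bot_iff.mp (hn ▸ hiter n)
  have hHallP : (Nat.card ((P : Subgroup H).map H.subtype)).Coprime
      ((P : Subgroup H).map H.subtype).index := by
    rw [← hQ]; exact Q.card_coprime_index
  exact Cfsg.Agent.S0557.result _ hHallP n hbot

/-- Let H be a subgroup of a finite group G that is not a Sylow subgroup of G for any prime, and suppose that for every prime p dividing the order of H and every Sylow p-subgroup P of H the normalizer of P in G is exactly H. Then some normal subgroup of G is a complement to H. -/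
theorem result {G : Type*} [Group G] [Finite G] (H : Subgroup G) (hnot : ∀ p : ℕ, p.Prime → ∀ P : Sylow p G, (P : Subgroup G) ≠ H) (hnorm : ∀ p : ℕ, p.Prime → p ∣ Nat.card H → ∀ P : Sylow p H, Subgroup.normalizer (((P : Subgroup H).map H.subtype : Subgroup G) : Set G) = H) : ∃ N : Subgroup G, N.Normal ∧ Subgroup.IsComplement' N H := by
  classical
  have hex : ∀ p : (Nat.card H).primeFactors, ∃ N : Subgroup G, N.Normal ∧
      N.index = (p : ℕ) ^ (Nat.card H).factorization p ∧ ¬ (p : ℕ) ∣ Nat.card N := by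
    rintro ⟨p, hp⟩
    have hpp : p.Prime := Nat.prime_of_mem_primeFactors hp
    have hpd : p ∣ Nat.card H := Nat.dvd_of_mem_primeFactors hp
    have : Fact p.Prime := ⟨hpp⟩
    obtain ⟨P⟩ : Nonempty (Sylow p H) := inferInstance
    obtain ⟨N, hNn, hNc⟩ := npc H hnot hnorm p hpd P
    obtain ⟨Q, hQ⟩ := sylow_of_normalizer H p P (hnorm p hpp hpd P)
    refine ⟨N, hNn, ?_, ?_⟩
    · rw [hNc.symm.index_eq_card, Subgroup.card_map_of_injective H.subtype_injective,
        P.card_eq_multiplicity]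
    · rw [← hNc.index_eq_card, ← hQ]
      exact Q.not_dvd_index
  choose N hNn hNidx hNnd using hex
  have hnorm' : (⨅ p, N p).Normal := Subgroup.normal_iInf_normal hNn
  refine ⟨⨅ p, N p, hnorm', ?_⟩
  have hdisj : (⨅ p, N p) ⊓ H = ⊥ := by
    rw [eq_bot_iff]
    intro x hx
    rw [Subgroup.mem_bot]
    by_contra hx1
    have hxN := (Subgroup.mem_inf.mp hx).1
    have hxH := (Subgroup.mem_inf.mp hx).2
    have hord : orderOf x ≠ 1 := by rwa [Ne, orderOf_eq_one_iff]
    obtain ⟨p, hp, hpdvd⟩ := Nat.exists_prime_and_dvd hord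
    have hoH : orderOf x ∣ Nat.card H := by
      have := orderOf_dvd_natCard (⟨x, hxH⟩ : H)
      rwa [Subgroup.orderOf_mk] at this
    have hpm : p ∈ (Nat.card H).primeFactors :=
      Nat.mem_primeFactors.mpr ⟨hp, hpdvd.trans hoH, Nat.card_pos.ne'⟩
    have hxNp : x ∈ N ⟨p, hpm⟩ := (Subgroup.mem_iInf.mp hxN) ⟨p, hpm⟩
    have hoN : orderOf x ∣ Nat.card (N ⟨p, hpm⟩) := by
      have := orderOf_dvd_natCard (⟨x, hxNp⟩ : N ⟨p, hpm⟩)
      rwa [Subgroup.orderOf_mk] at this
    exact hNnd ⟨p, hpm⟩ (hpdvd.trans hoN)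
  have hidx_le : (⨅ p, N p).index ≤ Nat.card H := by
    calc (⨅ p, N p).index ≤ ∏ p, (N p).index := Subgroup.index_iInf_le N
      _ = ∏ p : (Nat.card H).primeFactors, (p : ℕ) ^ (Nat.card H).factorization p :=
          Finset.prod_congr rfl (fun p _ => hNidx p)
      _ = ∏ p ∈ (Nat.card H).primeFactors, p ^ (Nat.card H).factorization p :=
          Finset.prod_coe_sort (Nat.card H).primeFactors (fun p => p ^ (Nat.card H).factorization p)
      _ = Nat.card H := (Nat.prod_primeFactors_pow_factorization Nat.card_pos.ne').symm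
  have hdvd : Nat.card H ∣ (⨅ p, N p).index := by
    have h1 : (⨅ p, N p).relIndex H ∣ (⨅ p, N p).index := Subgroup.relIndex_dvd_index_of_normal _ _
    have h2 : (⨅ p, N p).relIndex H = Nat.card H := by
      rw [← Subgroup.inf_relIndex_right, hdisj, Subgroup.relIndex_bot_left]
    rwa [h2] at h1
  have hidx : (⨅ p, N p).index = Nat.card H :=
    le_antisymm hidx_le (Nat.le_of_dvd (Nat.pos_of_ne_zero Subgroup.index_ne_zero_of_finite) hdvd)
  apply Subgroup.isComplement'_of_card_mul_and_disjoint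
  · have h3 := Subgroup.card_mul_index (⨅ p, N p)
    rw [hidx] at h3
    exact h3
  · exact disjoint_iff.mpr hdisj

end Cfsg.Agent.S0558
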