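import Cfsg.Statements.S0560
import Mathlib
import Cfsg.Agent.Lib.Helper13.Prod

set_option autoImplicit false
open Pointwise
open Cfsg

namespace Cfsg.Agent.S0560

/-- Let the finite group G be the product HK of two subgroups and p a prime. Then there are Sylow p-subgroups P of H and Q of K and a Sylow p-subgroup R of G whose underlying set is the product set of P and Q. -/
theorem result {G : Type*} [Group G] [Finite G] (H K : Subgroup G) (hHK : ∀ g : G, ∃ h ∈ H, ∃ k ∈ K, g = h * k) (p : ℕ) [Fact p.Prime] : ∃ (P : Sylow p H) (Q : Sylow p K) (R : Sylow p G), ((R : Subgroup G) : Set G) = (((P : Subgroup H).map H.subtype : Subgroup G) : Set G) * (((Q : Subgroup K).map K.subtype : Subgroup G) : Set G) := by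
  classical
  obtain ⟨P0⟩ : Nonempty (Sylow p H) := inferInstance
  obtain ⟨Q0⟩ : Nonempty (Sylow p K) := inferInstance
  obtain ⟨R1, hR1⟩ := P0.exists_comap_subtype_eq
  obtain ⟨R2, hR2⟩ := Q0.exists_comap_subtype_eq
  obtain ⟨g, hg⟩ := MulAction.exists_smul_eq G R1 R2
  obtain ⟨h, hh, k, hk, hgk⟩ := hHK g⁻¹
  have hg' : g = k⁻¹ * h⁻¹ := by
    have : g = (g⁻¹)⁻¹ := by group
    rw [this, hgk]; group
  have hR2' : R2 = k⁻¹ • (h⁻¹ • R1) := by
    rw [← hg, hg', mul_smul]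
  have hP0R1 : ∀ y : H, y ∈ (P0 : Subgroup H) → (y : G) ∈ (R1 : Subgroup G) := by
    intro y hy
    rw [← hR1] at hy
    exact hy
  have hQ0R2 : ∀ y : K, y ∈ (Q0 : Subgroup K) → (y : G) ∈ (R2 : Subgroup G) := by
    intro y hy
    rw [← hR2] at hy
    exact hy
  refine ⟨(⟨h⁻¹, H.inv_mem hh⟩ : H) • P0, (⟨k, hk⟩ : K) • Q0, h⁻¹ • R1, ?_⟩
  obtain ⟨P, hPdef⟩ : ∃ P : Sylow p H, P = (⟨h⁻¹, H.inv_mem hh⟩ : H) • P0 := ⟨_, rfl⟩
  obtain ⟨Q, hQdef⟩ : ∃ Q : Sylow p K, Q = (⟨k, hk⟩ : K) • Q0 := ⟨_, rfl⟩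
  obtain ⟨R, hRdef⟩ : ∃ R : Sylow p G, R = h⁻¹ • R1 := ⟨_, rfl⟩
  rw [← hPdef, ← hQdef, ← hRdef]
  have hA : (P : Subgroup H).map H.subtype ≤ (R : Subgroup G) := by
    rintro _ ⟨x, hx, rfl⟩
    rw [hPdef] at hx
    have hx' : x ∈ MulAut.conj (⟨h⁻¹, H.inv_mem hh⟩ : H) • (P0 : Subgroup H) := hx
    rw [Subgroup.mem_smul_pointwise_iff_exists] at hx'
    obtain ⟨y, hy, rfl⟩ := hx'
    rw [hRdef]
    show _ ∈ MulAut.conj h⁻¹ • (R1 : Subgroup G)
    rw [Subgroup.mem_smul_pointwise_iff_exists]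
    exact ⟨(y : G), hP0R1 y hy, rfl⟩
  have hB : (Q : Subgroup K).map K.subtype ≤ (R : Subgroup G) := by
    rintro _ ⟨x, hx, rfl⟩
    rw [hQdef] at hx
    have hx' : x ∈ MulAut.conj (⟨k, hk⟩ : K) • (Q0 : Subgroup K) := hx
    rw [Subgroup.mem_smul_pointwise_iff_exists] at hx'
    obtain ⟨y, hy, rfl⟩ := hx'
    have h1 : (y : G) ∈ (R2 : Subgroup G) := hQ0R2 y hy
    rw [hR2', ← hRdef] at h1
    have h2 : (y : G) ∈ MulAut.conj k⁻¹ • (R : Subgroup G) := h1
    rw [Subgroup.mem_smul_pointwise_iff_exists] at h2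
    obtain ⟨z, hz, hzy⟩ := h2
    have h3 : (k : G) * (y : G) * k⁻¹ = z := by
      rw [← hzy]
      show k * (k⁻¹ * z * k⁻¹⁻¹) * k⁻¹ = z
      group
    have h4 : K.subtype (MulAut.conj (⟨k, hk⟩ : K) • y) = (k : G) * (y : G) * k⁻¹ := rfl
    rw [h4, h3]; exact hz
  obtain ⟨A, hAdef⟩ : ∃ A : Subgroup G, A = (P : Subgroup H).map H.subtype := ⟨_, rfl⟩
  obtain ⟨B, hBdef⟩ : ∃ B : Subgroup G, B = (Q : Subgroup K).map K.subtype := ⟨_, rfl⟩
  rw [← hAdef] at hA
  rw [← hBdef] at hB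
  rw [← hAdef, ← hBdef]
  have hsub : (A : Set G) * (B : Set G) ⊆ ((R : Subgroup G) : Set G) := by
    rintro _ ⟨a, ha, b, hb, rfl⟩
    exact (R : Subgroup G).mul_mem (hA ha) (hB hb)
  symm
  apply Set.eq_of_subset_of_ncard_le hsub _ (Set.toFinite _)
  rw [← Nat.card_coe_set_eq, ← Nat.card_coe_set_eq]
  have hAB := Cfsg.Agent.Lib.Helper13.card_mul_set A B
  have hG := Cfsg.Agent.Lib.Helper13.card_mul_of_factorization H K hHK
  have hcA : Nat.card A = Nat.card (P : Subgroup H) := by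
    rw [hAdef]; exact Subgroup.card_map_of_injective H.subtype_injective
  have hcB : Nat.card B = Nat.card (Q : Subgroup K) := by
    rw [hBdef]; exact Subgroup.card_map_of_injective K.subtype_injective
  have hH := Subgroup.card_mul_index (P : Subgroup H)
  have hK := Subgroup.card_mul_index (Q : Subgroup K)
  have hR := Subgroup.card_mul_index (R : Subgroup G)
  have hpa : ¬ p ∣ (P : Subgroup H).index := P.not_dvd_index
  have hpb : ¬ p ∣ (Q : Subgroup K).index := Q.not_dvd_index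
  have hApg : IsPGroup p A := by rw [hAdef]; exact P.isPGroup'.map _
  obtain ⟨j, hj⟩ := IsPGroup.iff_card.mp (hApg.to_le (inf_le_left : A ⊓ B ≤ A))
  obtain ⟨r, hr⟩ := IsPGroup.iff_card.mp R.isPGroup'
  have hAH : A ≤ H := by rw [hAdef]; exact Subgroup.map_subtype_le _
  have hBK : B ≤ K := by rw [hBdef]; exact Subgroup.map_subtype_le _
  obtain ⟨e', he'⟩ := Subgroup.card_dvd_of_le (inf_le_inf hAH hBK : A ⊓ B ≤ H ⊓ K)
  have hp' : p.Prime := Fact.out
  have hcop : (Nat.card (R : Subgroup G) * Nat.card ↥(A ⊓ B)).Coprime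
      ((P : Subgroup H).index * (Q : Subgroup K).index) := by
    rw [hr, hj, ← pow_add]
    apply Nat.Coprime.pow_left
    rw [Nat.Prime.coprime_iff_not_dvd hp']
    intro hdvd
    rcases (Nat.Prime.dvd_mul hp').mp hdvd with h1 | h1
    · exact hpa h1
    · exact hpb h1
  have hdvd : Nat.card (R : Subgroup G) * Nat.card ↥(A ⊓ B) ∣
      (Nat.card A * Nat.card B) * ((P : Subgroup H).index * (Q : Subgroup K).index) := by
    refine ⟨(R : Subgroup G).index * e', ?_⟩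
    have e1 : Nat.card A * Nat.card B * ((P : Subgroup H).index * (Q : Subgroup K).index)
        = (Nat.card (P : Subgroup H) * (P : Subgroup H).index) *
          (Nat.card (Q : Subgroup K) * (Q : Subgroup K).index) := by
      rw [hcA, hcB]; ring
    rw [e1, hH, hK, ← hG, ← hR, he']
    ring
  have hdvd2 := hcop.dvd_of_dvd_mul_right hdvd
  have hposA : 0 < Nat.card A := Nat.card_pos
  have hposB : 0 < Nat.card B := Nat.card_pos
  have hle := Nat.le_of_dvd (Nat.mul_pos hposA hposB) hdvd2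
  rw [← hAB] at hle
  have hposd : 0 < Nat.card ↥(A ⊓ B) := Nat.card_pos
  exact Nat.le_of_mul_le_mul_right hle hposd

end Cfsg.Agent.S0560
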