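import Cfsg.Statements.S0047
import Mathlib

set_option autoImplicit false
open Cfsg
open scoped commutatorElement

namespace Cfsg.Agent.S0047

variable {G : Type*} [Group G]

/-- Key identity: conjugating `⁅a, b⁆` by `a₁ * b₁` or by `b₁ * a₁` gives the same element. -/
theorem conj_comm_eq (A B : Subgroup G)
    [IsMulCommutative A] [IsMulCommutative B] (hAB : ∀ g : G, ∃ a ∈ A, ∃ b ∈ B, g = a * b)
    {a a₁ b b₁ : G} (ha : a ∈ A) (ha₁ : a₁ ∈ A) (hb : b ∈ B) (hb₁ : b₁ ∈ B) :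
    (a₁ * b₁) * ⁅a, b⁆ * (a₁ * b₁)⁻¹ = (b₁ * a₁) * ⁅a, b⁆ * (b₁ * a₁)⁻¹ := by
  have cA : ∀ {x y : G}, x ∈ A → y ∈ A → x * y = y * x := fun hx hy =>
    setLike_mul_comm hx hy
  have cB : ∀ {x y : G}, x ∈ B → y ∈ B → x * y = y * x := fun hx hy =>
    setLike_mul_comm hx hy
  -- b₁ a b₁⁻¹ = a₃ b₃
  obtain ⟨a₃, ha₃, b₃, hb₃, h3⟩ := hAB (b₁ * a * b₁⁻¹)
  -- a₁ b a₁⁻¹ = b₂ a₂, from (a₁ b⁻¹ a₁⁻¹) = a₂' b₂'
  obtain ⟨a₂, ha₂, b₂, hb₂, h2⟩ := hAB (a₁ * b⁻¹ * a₁⁻¹)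
  have h2' : a₁ * b * a₁⁻¹ = b₂⁻¹ * a₂⁻¹ := by
    have : (a₁ * b⁻¹ * a₁⁻¹)⁻¹ = (a₂ * b₂)⁻¹ := by rw [h2]
    simpa [mul_assoc] using this
  have hb₂' : b₂⁻¹ ∈ B := B.inv_mem hb₂
  have ha₂' : a₂⁻¹ ∈ A := A.inv_mem ha₂
  have key1 : (a₁ * b₁) * ⁅a, b⁆ * (a₁ * b₁)⁻¹ = ⁅a₃, b₂⁻¹⁆ := by
    have e1 : b₁ * ⁅a, b⁆ * b₁⁻¹ = ⁅a₃, b⁆ := by
      have : b₁ * ⁅a, b⁆ * b₁⁻¹ = ⁅b₁ * a * b₁⁻¹, b₁ * b * b₁⁻¹⁆ := by
        simp only [commutatorElement_def]; group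
      rw [this, h3]
      have hbb : b₁ * b * b₁⁻¹ = b := by rw [cB hb₁ hb]; group
      rw [hbb]
      simp only [commutatorElement_def, mul_inv_rev]
      have := cB hb₃ hb
      calc a₃ * b₃ * b * (b₃⁻¹ * a₃⁻¹) * b⁻¹ = a₃ * (b₃ * b) * b₃⁻¹ * a₃⁻¹ * b⁻¹ := by group
        _ = a₃ * (b * b₃) * b₃⁻¹ * a₃⁻¹ * b⁻¹ := by rw [this]
        _ = a₃ * b * a₃⁻¹ * b⁻¹ := by group
    have e2 : a₁ * ⁅a₃, b⁆ * a₁⁻¹ = ⁅a₃, b₂⁻¹⁆ := by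
      have : a₁ * ⁅a₃, b⁆ * a₁⁻¹ = ⁅a₁ * a₃ * a₁⁻¹, a₁ * b * a₁⁻¹⁆ := by
        simp only [commutatorElement_def]; group
      rw [this, h2']
      have haa : a₁ * a₃ * a₁⁻¹ = a₃ := by rw [cA ha₁ ha₃]; group
      rw [haa]
      simp only [commutatorElement_def, mul_inv_rev, inv_inv]
      have := cA ha₂' ha₃
      calc a₃ * (b₂⁻¹ * a₂⁻¹) * a₃⁻¹ * (a₂ * b₂) = a₃ * b₂⁻¹ * (a₂⁻¹ * a₃⁻¹) * a₂ * b₂ := by group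
        _ = a₃ * b₂⁻¹ * (a₃ * a₂)⁻¹ * a₂ * b₂ := by group
        _ = a₃ * b₂⁻¹ * (a₂ * a₃)⁻¹ * a₂ * b₂ := by
            have h' : a₃ * a₂ = a₂ * a₃ := by
              have h'' := cA ha₂ ha₃
              exact h''.symm
            rw [h']
        _ = a₃ * b₂⁻¹ * a₃⁻¹ * b₂ := by group
    calc (a₁ * b₁) * ⁅a, b⁆ * (a₁ * b₁)⁻¹ = a₁ * (b₁ * ⁅a, b⁆ * b₁⁻¹) * a₁⁻¹ := by group
      _ = ⁅a₃, b₂⁻¹⁆ := by rw [e1, e2]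
  have key2 : (b₁ * a₁) * ⁅a, b⁆ * (b₁ * a₁)⁻¹ = ⁅a₃, b₂⁻¹⁆ := by
    have e1 : a₁ * ⁅a, b⁆ * a₁⁻¹ = ⁅a, b₂⁻¹⁆ := by
      have : a₁ * ⁅a, b⁆ * a₁⁻¹ = ⁅a₁ * a * a₁⁻¹, a₁ * b * a₁⁻¹⁆ := by
        simp only [commutatorElement_def]; group
      rw [this, h2']
      have haa : a₁ * a * a₁⁻¹ = a := by rw [cA ha₁ ha]; group
      rw [haa]
      simp only [commutatorElement_def, mul_inv_rev, inv_inv]
      have h' : a * a₂ = a₂ * a := (cA ha₂ ha).symm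
      calc a * (b₂⁻¹ * a₂⁻¹) * a⁻¹ * (a₂ * b₂) = a * b₂⁻¹ * (a * a₂)⁻¹ * a₂ * b₂ := by group
        _ = a * b₂⁻¹ * (a₂ * a)⁻¹ * a₂ * b₂ := by rw [h']
        _ = a * b₂⁻¹ * a⁻¹ * b₂ := by group
    have e2 : b₁ * ⁅a, b₂⁻¹⁆ * b₁⁻¹ = ⁅a₃, b₂⁻¹⁆ := by
      have : b₁ * ⁅a, b₂⁻¹⁆ * b₁⁻¹ = ⁅b₁ * a * b₁⁻¹, b₁ * b₂⁻¹ * b₁⁻¹⁆ := by
        simp only [commutatorElement_def]; group
      rw [this, h3]
      have hbb : b₁ * b₂⁻¹ * b₁⁻¹ = b₂⁻¹ := by rw [cB hb₁ hb₂']; group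
      rw [hbb]
      simp only [commutatorElement_def, mul_inv_rev, inv_inv]
      have := cB hb₃ hb₂'
      calc a₃ * b₃ * b₂⁻¹ * (b₃⁻¹ * a₃⁻¹) * b₂ = a₃ * (b₃ * b₂⁻¹) * b₃⁻¹ * a₃⁻¹ * b₂ := by group
        _ = a₃ * (b₂⁻¹ * b₃) * b₃⁻¹ * a₃⁻¹ * b₂ := by rw [this]
        _ = a₃ * b₂⁻¹ * a₃⁻¹ * b₂ := by group
    calc (b₁ * a₁) * ⁅a, b⁆ * (b₁ * a₁)⁻¹ = b₁ * (a₁ * ⁅a, b⁆ * a₁⁻¹) * b₁⁻¹ := by group
      _ = ⁅a₃, b₂⁻¹⁆ := by rw [e1, e2]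
  rw [key1, key2]

theorem gens_commute (A B : Subgroup G)
    [IsMulCommutative A] [IsMulCommutative B] (hAB : ∀ g : G, ∃ a ∈ A, ∃ b ∈ B, g = a * b)
    {a a₁ b b₁ : G} (ha : a ∈ A) (ha₁ : a₁ ∈ A) (hb : b ∈ B) (hb₁ : b₁ ∈ B) :
    ⁅a₁, b₁⁆ * ⁅a, b⁆ = ⁅a, b⁆ * ⁅a₁, b₁⁆ := by
  have h := conj_comm_eq A B hAB ha (A.inv_mem ha₁) hb (B.inv_mem hb₁)
  -- (a₁⁻¹ b₁⁻¹) c (a₁⁻¹ b₁⁻¹)⁻¹ = (b₁⁻¹ a₁⁻¹) c (b₁⁻¹ a₁⁻¹)⁻¹
  have h2 : ⁅a₁, b₁⁆ * ⁅a, b⁆ * ⁅a₁, b₁⁆⁻¹ = ⁅a, b⁆ := by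
    have : ⁅a₁, b₁⁆ * ⁅a, b⁆ * ⁅a₁, b₁⁆⁻¹ =
        (b₁⁻¹ * a₁⁻¹)⁻¹ * ((a₁⁻¹ * b₁⁻¹) * ⁅a, b⁆ * (a₁⁻¹ * b₁⁻¹)⁻¹) * (b₁⁻¹ * a₁⁻¹) := by
      rw [commutatorElement_def a₁ b₁]; group
    rw [this, h]; group
  calc ⁅a₁, b₁⁆ * ⁅a, b⁆ = (⁅a₁, b₁⁆ * ⁅a, b⁆ * ⁅a₁, b₁⁆⁻¹) * ⁅a₁, b₁⁆ := by group
    _ = ⁅a, b⁆ * ⁅a₁, b₁⁆ := by rw [h2]

theorem comm_AB (A B : Subgroup G)
    [IsMulCommutative A] [IsMulCommutative B] (hAB : ∀ g : G, ∃ a ∈ A, ∃ b ∈ B, g = a * b) :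
    IsMulCommutative (⁅A, B⁆ : Subgroup G) := by
  rw [Subgroup.commutator_def]
  apply Subgroup.isMulCommutative_closure
  rintro x ⟨a₁, ha₁, b₁, hb₁, rfl⟩ y ⟨a, ha, b, hb, rfl⟩
  exact gens_commute A B hAB ha ha₁ hb hb₁

theorem normal_AB (A B : Subgroup G) (hAB : ∀ g : G, ∃ a ∈ A, ∃ b ∈ B, g = a * b) :
    (⁅A, B⁆ : Subgroup G).Normal := by
  have hA : ∀ a' ∈ A, ∀ n ∈ (⁅A, B⁆ : Subgroup G), a' * n * a'⁻¹ ∈ (⁅A, B⁆ : Subgroup G) := by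
    intro a' ha' n hn
    rw [Subgroup.commutator_def] at hn
    induction hn using Subgroup.closure_induction with
    | mem z hz =>
      obtain ⟨a, ha, b, hb, rfl⟩ := hz
      have : a' * ⁅a, b⁆ * a'⁻¹ = ⁅a' * a, b⁆ * ⁅a', b⁆⁻¹ := by
        simp only [commutatorElement_def]; group
      rw [this]
      exact Subgroup.mul_mem _ (Subgroup.commutator_mem_commutator (A.mul_mem ha' ha) hb)
        (Subgroup.inv_mem _ (Subgroup.commutator_mem_commutator ha' hb))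
    | one => simp
    | mul x y _ _ hx hy =>
      have : a' * (x * y) * a'⁻¹ = (a' * x * a'⁻¹) * (a' * y * a'⁻¹) := by group
      rw [this]; exact Subgroup.mul_mem _ hx hy
    | inv x _ hx =>
      have : a' * x⁻¹ * a'⁻¹ = (a' * x * a'⁻¹)⁻¹ := by group
      rw [this]; exact Subgroup.inv_mem _ hx
  have hB : ∀ b' ∈ B, ∀ n ∈ (⁅A, B⁆ : Subgroup G), b' * n * b'⁻¹ ∈ (⁅A, B⁆ : Subgroup G) := by
    intro b' hb' n hn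
    rw [Subgroup.commutator_def] at hn
    induction hn using Subgroup.closure_induction with
    | mem z hz =>
      obtain ⟨a, ha, b, hb, rfl⟩ := hz
      have : b' * ⁅a, b⁆ * b'⁻¹ = ⁅a, b'⁆⁻¹ * ⁅a, b' * b⁆ := by
        simp only [commutatorElement_def]; group
      rw [this]
      exact Subgroup.mul_mem _ (Subgroup.inv_mem _ (Subgroup.commutator_mem_commutator ha hb'))
        (Subgroup.commutator_mem_commutator ha (B.mul_mem hb' hb))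
    | one => simp
    | mul x y _ _ hx hy =>
      have : b' * (x * y) * b'⁻¹ = (b' * x * b'⁻¹) * (b' * y * b'⁻¹) := by group
      rw [this]; exact Subgroup.mul_mem _ hx hy
    | inv x _ hx =>
      have : b' * x⁻¹ * b'⁻¹ = (b' * x * b'⁻¹)⁻¹ := by group
      rw [this]; exact Subgroup.inv_mem _ hx
  constructor
  intro n hn g
  obtain ⟨a, ha, b, hb, rfl⟩ := hAB g
  have : a * b * n * (a * b)⁻¹ = a * (b * n * b⁻¹) * a⁻¹ := by group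
  rw [this]
  exact hA a ha _ (hB b hb n hn)

theorem commutator_le_AB (A B : Subgroup G)
    [IsMulCommutative A] [IsMulCommutative B] (hAB : ∀ g : G, ∃ a ∈ A, ∃ b ∈ B, g = a * b) :
    commutator G ≤ (⁅A, B⁆ : Subgroup G) := by
  have := normal_AB A B hAB
  rw [commutator_def, Subgroup.commutator_le]
  intro g _ g' _
  obtain ⟨a, ha, b, hb, rfl⟩ := hAB g
  obtain ⟨a', ha', b', hb', rfl⟩ := hAB g'
  rw [← QuotientGroup.eq_one_iff]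
  have hmk : ((⁅a * b, a' * b'⁆ : G) : G ⧸ (⁅A, B⁆ : Subgroup G)) =
      ⁅((a * b : G) : G ⧸ (⁅A, B⁆ : Subgroup G)), ((a' * b' : G) : G ⧸ (⁅A, B⁆ : Subgroup G))⁆ := by
    simp [commutatorElement_def]
  rw [hmk, commutatorElement_eq_one_iff_commute]
  have haa : Commute (a : G ⧸ (⁅A, B⁆ : Subgroup G)) (a' : G ⧸ (⁅A, B⁆ : Subgroup G)) := by
    have := setLike_mul_comm ha ha'
    show (a : G ⧸ (⁅A, B⁆ : Subgroup G)) * a' = a' * a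
    rw [← QuotientGroup.mk_mul, this, QuotientGroup.mk_mul]
  have hbb : Commute (b : G ⧸ (⁅A, B⁆ : Subgroup G)) (b' : G ⧸ (⁅A, B⁆ : Subgroup G)) := by
    have := setLike_mul_comm hb hb'
    show (b : G ⧸ (⁅A, B⁆ : Subgroup G)) * b' = b' * b
    rw [← QuotientGroup.mk_mul, this, QuotientGroup.mk_mul]
  have hab : ∀ {x y : G}, x ∈ A → y ∈ B →
      Commute (x : G ⧸ (⁅A, B⁆ : Subgroup G)) (y : G ⧸ (⁅A, B⁆ : Subgroup G)) := by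
    intro x y hx hy
    rw [← commutatorElement_eq_one_iff_commute]
    have : (⁅(x : G ⧸ (⁅A, B⁆ : Subgroup G)), (y : G ⧸ (⁅A, B⁆ : Subgroup G))⁆) =
        ((⁅x, y⁆ : G) : G ⧸ (⁅A, B⁆ : Subgroup G)) := by
      simp [commutatorElement_def]
    rw [this, QuotientGroup.eq_one_iff]
    exact Subgroup.commutator_mem_commutator hx hy
  simp only [QuotientGroup.mk_mul]
  exact ((haa.mul_right (hab ha hb')).mul_left ((hab ha' hb).symm.mul_right hbb))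

theorem result {G : Type*} [Group G] [Finite G] (A B : Subgroup G)
    [IsMulCommutative A] [IsMulCommutative B] (hAB : ∀ g : G, ∃ a ∈ A, ∃ b ∈ B, g = a * b) :
    Group.IsSolvable G := by
  have hn := normal_AB A B hAB
  have hc := comm_AB A B hAB
  have hq : IsMulCommutative (G ⧸ (⁅A, B⁆ : Subgroup G)) :=
    Subgroup.Normal.quotient_commutative_iff_commutator_le.mpr (commutator_le_AB A B hAB)
  have : Group.IsSolvable (⁅A, B⁆ : Subgroup G) :=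
    Group.isSolvable_of_comm (fun a b => mul_comm' a b)
  have : Group.IsSolvable (G ⧸ (⁅A, B⁆ : Subgroup G)) :=
    Group.isSolvable_of_comm (fun a b => mul_comm' a b)
  exact Group.isSolvable_of_ker_le_range (⁅A, B⁆ : Subgroup G).subtype
    (QuotientGroup.mk' (⁅A, B⁆ : Subgroup G)) (by simp)

end Cfsg.Agent.S0047
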