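import Cfsg.Statements.S0003
import Cfsg.Agent.Lib.Helper1.Hall

set_option autoImplicit false
open Cfsg

namespace Cfsg.Agent.S0003

theorem result {G : Type*} [Group G] [Finite G] [Group.IsSolvable G] (m n : ℕ)
    (hG : Nat.card G = m * n) (hmn : m.Coprime n) : ∃ H : Subgroup G, Nat.card H = m :=
  Cfsg.Agent.Lib.Helper1.hall_exists m n hG hmn

end Cfsg.Agent.S0003
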