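import Cfsg.Statements.S2401
import Cfsg.Agent.Lib.Helper48.StMain

set_option autoImplicit false
open Cfsg

namespace Cfsg.Agent.S2401

open Cfsg.Agent.Lib.Helper48.St in
/-- The Steinberg presentation of `SL_n` over a finite field for `n ≥ 3`: the group generated by symbols `x_ij(t)` (`i ≠ j`, `t` in the field) subject to `x_ij(t) x_ij(u) = x_ij(t + u)` and, for `i ≠ l`, `x_ij(t) x_kl(u) x_ij(t)⁻¹ x_kl(u)⁻¹ = x_il(tu)` if `j = k` and `= 1` if `j ≠ k`, is isomorphic to `SL_n` by an isomorphism sending `x_ij(t)` to the elementary matrix `1 + t E_ij`. -/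
theorem result {K : Type*} [Field K] [Finite K] (n : ℕ) (hn : 3 ≤ n) :
    ∃ e : PresentedGroup
        ({g : FreeGroup ({ij : Fin n × Fin n // ij.1 ≠ ij.2} × K) | ∃ (a : {ij : Fin n × Fin n // ij.1 ≠ ij.2}) (t u : K),
            g = FreeGroup.of (a, t) * FreeGroup.of (a, u) * (FreeGroup.of (a, t + u))⁻¹} ∪
          {g | ∃ (a b : {ij : Fin n × Fin n // ij.1 ≠ ij.2}) (t u : K), a.1.1 ≠ b.1.2 ∧ a.1.2 ≠ b.1.1 ∧
            g = FreeGroup.of (a, t) * FreeGroup.of (b, u) * (FreeGroup.of (a, t))⁻¹ * (FreeGroup.of (b, u))⁻¹} ∪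
          {g | ∃ (a b : {ij : Fin n × Fin n // ij.1 ≠ ij.2}) (h : a.1.1 ≠ b.1.2) (t u : K), a.1.2 = b.1.1 ∧
            g = FreeGroup.of (a, t) * FreeGroup.of (b, u) * (FreeGroup.of (a, t))⁻¹ * (FreeGroup.of (b, u))⁻¹ *
              (FreeGroup.of (⟨(a.1.1, b.1.2), h⟩, t * u))⁻¹}) ≃* Matrix.SpecialLinearGroup (Fin n) K,
      ∀ (a : {ij : Fin n × Fin n // ij.1 ≠ ij.2}) (t : K), ((e (PresentedGroup.of (a, t)) : Matrix (Fin n) (Fin n) K)) = Matrix.transvection a.1.1 a.1.2 t := by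
  classical
  set rels : Set (FreeGroup ({ij : Fin n × Fin n // ij.1 ≠ ij.2} × K)) :=
    ({g : FreeGroup ({ij : Fin n × Fin n // ij.1 ≠ ij.2} × K) | ∃ (a : {ij : Fin n × Fin n // ij.1 ≠ ij.2}) (t u : K),
            g = FreeGroup.of (a, t) * FreeGroup.of (a, u) * (FreeGroup.of (a, t + u))⁻¹} ∪
          {g | ∃ (a b : {ij : Fin n × Fin n // ij.1 ≠ ij.2}) (t u : K), a.1.1 ≠ b.1.2 ∧ a.1.2 ≠ b.1.1 ∧
            g = FreeGroup.of (a, t) * FreeGroup.of (b, u) * (FreeGroup.of (a, t))⁻¹ * (FreeGroup.of (b, u))⁻¹} ∪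
          {g | ∃ (a b : {ij : Fin n × Fin n // ij.1 ≠ ij.2}) (h : a.1.1 ≠ b.1.2) (t u : K), a.1.2 = b.1.1 ∧
            g = FreeGroup.of (a, t) * FreeGroup.of (b, u) * (FreeGroup.of (a, t))⁻¹ * (FreeGroup.of (b, u))⁻¹ *
              (FreeGroup.of (⟨(a.1.1, b.1.2), h⟩, t * u))⁻¹}) with hrels
  -- the root elements
  let X : Fin n → Fin n → K → PresentedGroup rels := fun i j t =>
    if h : i ≠ j then PresentedGroup.of (⟨(i, j), h⟩, t) else 1
  have hXof : ∀ (a : {ij : Fin n × Fin n // ij.1 ≠ ij.2}) (t : K),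
      PresentedGroup.of (a, t) = X a.1.1 a.1.2 t := by
    intro a t
    simp only [X, dif_pos a.2]
  have hXdef : ∀ i j (h : i ≠ j) t, X i j t = PresentedGroup.mk rels (FreeGroup.of (⟨(i, j), h⟩, t)) := by
    intro i j h t
    simp only [X, dif_pos h]
    rfl
  have hX : StRel X := by
    constructor
    · intro i j hij t u
      have hmem : FreeGroup.of ((⟨(i, j), hij⟩ : {ij : Fin n × Fin n // ij.1 ≠ ij.2}), t) *
          FreeGroup.of (⟨(i, j), hij⟩, u) * (FreeGroup.of (⟨(i, j), hij⟩, t + u))⁻¹ ∈ rels :=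
        Or.inl (Or.inl ⟨⟨(i, j), hij⟩, t, u, rfl⟩)
      have := PresentedGroup.one_of_mem hmem
      rw [map_mul, map_mul, map_inv, mul_inv_eq_one] at this
      rw [hXdef i j hij, hXdef i j hij, hXdef i j hij]
      exact this
    · intro i j k l hij hkl hil hjk t u
      have hmem : FreeGroup.of ((⟨(i, j), hij⟩ : {ij : Fin n × Fin n // ij.1 ≠ ij.2}), t) *
          FreeGroup.of (⟨(k, l), hkl⟩, u) * (FreeGroup.of (⟨(i, j), hij⟩, t))⁻¹ *
          (FreeGroup.of (⟨(k, l), hkl⟩, u))⁻¹ ∈ rels :=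
        Or.inl (Or.inr ⟨⟨(i, j), hij⟩, ⟨(k, l), hkl⟩, t, u, hil, hjk, rfl⟩)
      have := PresentedGroup.one_of_mem hmem
      simp only [map_mul, map_inv] at this
      rw [hXdef i j hij, hXdef k l hkl]
      rw [mul_inv_eq_one, mul_inv_eq_iff_eq_mul] at this
      exact this
    · intro i j l hij hjl hil t u
      have hmem : FreeGroup.of ((⟨(i, j), hij⟩ : {ij : Fin n × Fin n // ij.1 ≠ ij.2}), t) *
          FreeGroup.of (⟨(j, l), hjl⟩, u) * (FreeGroup.of (⟨(i, j), hij⟩, t))⁻¹ *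
          (FreeGroup.of (⟨(j, l), hjl⟩, u))⁻¹ * (FreeGroup.of (⟨(i, l), hil⟩, t * u))⁻¹ ∈ rels :=
        Or.inr ⟨⟨(i, j), hij⟩, ⟨(j, l), hjl⟩, hil, t, u, rfl, rfl⟩
      have := PresentedGroup.one_of_mem hmem
      simp only [map_mul, map_inv] at this
      rw [hXdef i j hij, hXdef j l hjl, hXdef i l hil]
      rw [mul_inv_eq_one] at this
      exact this
  -- the homomorphism to matrices
  have hrel : ∀ r ∈ rels, FreeGroup.lift (fun p : {ij : Fin n × Fin n // ij.1 ≠ ij.2} × K =>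
      (Matrix.SpecialLinearGroup.transvection p.1.2 p.2 : Matrix.SpecialLinearGroup (Fin n) K)) r = 1 := by
    intro r hr
    rcases hr with (⟨a, t, u, rfl⟩ | ⟨a, b, t, u, h1, h2, rfl⟩) | ⟨a, b, h, t, u, h2, rfl⟩
    · simp only [map_mul, map_inv, FreeGroup.lift_apply_of]
      rw [mul_inv_eq_one]
      apply Subtype.ext
      rw [Matrix.SpecialLinearGroup.coe_mul]
      exact Matrix.transvection_mul_transvection_same a.1.1 a.1.2 a.2 t u
    · simp only [map_mul, map_inv, FreeGroup.lift_apply_of]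
      rw [mul_inv_eq_one, mul_inv_eq_iff_eq_mul]
      apply Subtype.ext
      simp only [Matrix.SpecialLinearGroup.coe_mul, Matrix.SpecialLinearGroup.transvection_coe]
      rw [add_mul, mul_add, mul_add, add_mul, mul_add, mul_add]
      simp only [one_mul, mul_one, Matrix.single_mul_single_of_ne _ _ _ _ h2,
        Matrix.single_mul_single_of_ne _ _ _ _ h1.symm]
      abel
    · simp only [map_mul, map_inv, FreeGroup.lift_apply_of]
      rw [mul_inv_eq_one]
      obtain ⟨⟨a1, a2⟩, ha⟩ := a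
      obtain ⟨⟨b1, b2⟩, hb⟩ := b
      simp only at h h2 ha hb ⊢
      subst h2
      exact Cfsg.Agent.Lib.Helper47.transvection_comm_eq ha hb h t u
  let π : PresentedGroup rels →* Matrix.SpecialLinearGroup (Fin n) K := PresentedGroup.toGroup hrel
  have hπ : ∀ i j (hij : i ≠ j) t, π (X i j t) = Matrix.SpecialLinearGroup.transvection hij t := by
    intro i j hij t
    rw [hXdef i j hij]
    exact PresentedGroup.toGroup.of hrel
  have hgen : Subgroup.closure {g | ∃ i j t, i ≠ j ∧ g = X i j t} = ⊤ := by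
    rw [eq_top_iff, ← PresentedGroup.closure_range_of, Subgroup.closure_le]
    rintro _ ⟨⟨a, t⟩, rfl⟩
    exact Subgroup.subset_closure ⟨a.1.1, a.1.2, t, a.2, hXof a t⟩
  have hinj := st_inj hX hn hgen π hπ
  have hsurj := st_surj π (by omega) hπ
  refine ⟨MulEquiv.ofBijective π ⟨hinj, hsurj⟩, fun a t => ?_⟩
  change ((π (PresentedGroup.of (a, t)) : Matrix.SpecialLinearGroup (Fin n) K) : Matrix (Fin n) (Fin n) K) = _
  rw [hXof, hπ a.1.1 a.1.2 a.2]
  rfl

end Cfsg.Agent.S2401
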