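import Cfsg.Statements.S0622
import Cfsg.Agent.Lib.Helper14.Stable

set_option autoImplicit false
universe u
open Cfsg

namespace Cfsg.Agent.S0622

open Cfsg.Agent.Lib.Helper14

theorem stableFamily_map_equiv {S : Type u} [Group S] [Finite S] {p : ℕ} [Fact p.Prime]
    {S' : Type u} [Group S'] (η : S ≃* S') {W : Subgroup S} (hW : W ∈ stableFamily p S) :
    W.map η.toMonoidHom ∈ stableFamily p S' := by
  refine ⟨?_, ?_⟩
  · rw [← center_map_equiv η, ← omegaOne_map_equiv]
    exact Subgroup.map_mono hW.1
  · intro H _ τ' hτ'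
    rw [Subgroup.map_map]
    apply hW.2 H (τ'.comp η.toMonoidHom)
    obtain ⟨hinj, hfin, ⟨P, hP⟩, hc, hJ, hV⟩ := hτ'
    refine ⟨hinj.comp η.injective, hfin, ⟨P, ?_⟩, hc, ?_, ?_⟩
    · rw [hP]
      ext y
      constructor
      · rintro ⟨x, rfl⟩
        exact ⟨η.symm x, by simp⟩
      · rintro ⟨x, rfl⟩
        exact ⟨η x, rfl⟩
    · rw [← Subgroup.map_map, thompson_map_equiv]
      exact hJ
    · intro V _ hVle
      apply hV V
      rw [← Subgroup.map_map, omegaCenterThompson_map_equiv] at hVle
      exact hVle

theorem stable_map_equiv {S : Type u} [Group S] [Finite S] {p : ℕ} [Fact p.Prime]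
    {S' : Type u} [Group S'] (η : S ≃* S') :
    (stableNormalClosure p S).map η.toMonoidHom = stableNormalClosure p S' := by
  have : Finite S' := Finite.of_equiv S η.toEquiv
  apply le_antisymm
  · have h := stable_le_of_mem (stableFamily_map_equiv η.symm (stable_mem_stableFamily (S := S') (p := p)))
    calc (stableNormalClosure p S).map η.toMonoidHom
        ≤ ((stableNormalClosure p S').map η.symm.toMonoidHom).map η.toMonoidHom := Subgroup.map_mono h
      _ = stableNormalClosure p S' := map_symm_map_equiv η _
  · exact stable_le_of_mem (stableFamily_map_equiv η (stable_mem_stableFamily (S := S) (p := p)))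

/-- Basic properties of the stable normal closure W(S) of Ω₁(Z(S)) in a finite p-group: characteristic, squeezed between Ω₁(Z(S)) and Ω₁(Z(J(S))), nontrivial for S ≠ 1, and transported by group isomorphisms. -/
theorem result {S : Type u} [Group S] [Finite S] {p : ℕ} [Fact p.Prime] (hS : IsPGroup p S) : (Cfsg.stableNormalClosure p S).Characteristic ∧ Cfsg.omegaOne p (Subgroup.center S) ≤ Cfsg.stableNormalClosure p S ∧ Cfsg.stableNormalClosure p S ≤ Cfsg.omegaCenterThompson p S ∧ (Nontrivial S → Cfsg.stableNormalClosure p S ≠ ⊥) ∧ ∀ (S' : Type u) [Group S'] (η : S ≃* S'), (Cfsg.stableNormalClosure p S).map η.toMonoidHom = Cfsg.stableNormalClosure p S' := by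
  refine ⟨?_, omegaOne_center_le_stable, stable_le_omegaCenterThompson, ?_, ?_⟩
  · rw [Subgroup.characteristic_iff_map_eq]
    intro ϕ
    exact stable_map_equiv ϕ
  · intro hnt hbot
    have := hnt
    have : Nontrivial (Subgroup.center S) := hS.center_nontrivial
    have hdvd : p ∣ Nat.card (Subgroup.center S) := by
      have hZ : IsPGroup p (Subgroup.center S) := hS.to_subgroup _
      rcases hZ.card_eq_or_dvd with h | h
      · exact absurd h (ne_of_gt Finite.one_lt_card)
      · exact h
    obtain ⟨z, hz⟩ := exists_prime_orderOf_dvd_card' p hdvd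
    have hz1 : (z : S) ^ p = 1 := by
      have : z ^ p = 1 := by rw [← hz]; exact pow_orderOf_eq_one z
      exact_mod_cast congrArg Subtype.val this
    have hmem : (z : S) ∈ stableNormalClosure p S :=
      omegaOne_center_le_stable (mem_omegaOne_of_mem z.2 hz1)
    rw [hbot] at hmem
    have hz2 : z = 1 := Subtype.ext (Subgroup.mem_bot.mp hmem)
    rw [hz2, orderOf_one] at hz
    exact (Fact.out : p.Prime).one_lt.ne hz
  · intro S' _ η
    exact stable_map_equiv η

end Cfsg.Agent.S0622
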