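import Cfsg.Statements.S4282
import Cfsg.Agent.Lib.Helper17.HHa
import Cfsg.Agent.Lib.Helper17.HHb
import Cfsg.Agent.Lib.Helper17.HHc

set_option autoImplicit false
open Cfsg

namespace Cfsg.Agent.S4282

open Cfsg.Agent.Lib.Helper17

open Module

/-- A critical case behind the Hall–Higman theorem. Let p ≠ q be primes and G a finite group generated by a normal q-subgroup Q and a cyclic p-subgroup generated by x, such that the centralizer of every non-identity element of that cyclic subgroup is its product with the centre of G. Let K be an algebraically closed field of characteristic p and ρ a faithful representation of G on a nonzero finite-dimensional K-space whose restriction to Q is irreducible. If s is the least exponent with (ρ(x) − 1)^s = 0, then |⟨x⟩| − 1 ≤ s ≤ |⟨x⟩|; and if s = |⟨x⟩| − 1 then |⟨x⟩| − 1 is a power of q and Q is non-abelian. -/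
theorem result {G : Type*} [Group G] [Finite G] (p q : ℕ) [Fact p.Prime] [Fact q.Prime] (hpq : p ≠ q) (Q : Subgroup G) [Q.Normal] (hQ : IsPGroup q Q) (x : G) (hx : IsPGroup p (Subgroup.zpowers x)) (hgen : Q ⊔ Subgroup.zpowers x = ⊤) (hC : ∀ y ∈ Subgroup.zpowers x, y ≠ 1 → Subgroup.centralizer ({y} : Set G) = Subgroup.zpowers x ⊔ Subgroup.center G) {K : Type*} [Field K] [IsAlgClosed K] [CharP K p] {V : Type*} [AddCommGroup V] [Module K V] [FiniteDimensional K V] [Nontrivial V] (ρ : Representation K G V) (hfaith : Function.Injective ρ) (hirr : ∀ W : Submodule K V, (∀ g ∈ Q, Submodule.map (ρ g) W ≤ W) → W = ⊥ ∨ W = ⊤) (s : ℕ) (hs : (ρ x - 1) ^ s = 0) (hmin : ∀ k < s, (ρ x - 1) ^ k ≠ 0) : Nat.card (Subgroup.zpowers x) - 1 ≤ s ∧ s ≤ Nat.card (Subgroup.zpowers x) ∧ (s = Nat.card (Subgroup.zpowers x) - 1 → (∃ b : ℕ, Nat.card (Subgroup.zpowers x) - 1 = q ^ b) ∧ ¬ IsMulCommutative Q) := by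
  classical
  obtain ⟨e, he⟩ := IsPGroup.iff_card.1 hx
  have hord : orderOf x = p ^ e := by rw [← he, Nat.card_zpowers]
  have hxn : x ^ (p ^ e) = 1 := by rw [← hord]; exact pow_orderOf_eq_one x
  have hpos : 0 < p ^ e := Nat.pos_of_ne_zero (pow_ne_zero _ (Fact.out : p.Prime).ne_zero)
  have haw : ρ x * ρ x⁻¹ = 1 := by rw [← map_mul, mul_inv_cancel, map_one]
  have hwa : ρ x⁻¹ * ρ x = 1 := by rw [← map_mul, inv_mul_cancel, map_one]
  have hapow : ρ x ^ (p ^ e) = 1 := by rw [← map_pow, hxn, map_one]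
  have hun : (ρ x - 1) ^ (p ^ e) = 0 := by rw [hh_sub_one_pow K p (ρ x) e, hapow, sub_self]
  have hsn : s ≤ p ^ e := by
    by_contra h
    push Not at h
    exact hmin (p ^ e) h hun
  have hs_pos : 1 ≤ s := by
    rcases Nat.eq_zero_or_pos s with h | h
    · subst h
      rw [pow_zero] at hs
      exact absurd hs one_ne_zero
    · exact h
  have hs1 : (ρ x - 1) ^ (s - 1) ≠ 0 := hmin (s - 1) (by omega)
  rw [he]
  by_cases hx1 : x = 1
  · have h1 : p ^ e = 1 := by rw [← hord, hx1, orderOf_one]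
    rw [h1] at hsn ⊢
    exact ⟨by omega, hsn, fun h => absurd h (by omega)⟩
  have ha1 : ρ x ≠ 1 := by
    intro h
    apply hx1
    apply hfaith
    rw [h, map_one]
  have hs2 : 2 ≤ s := by
    by_contra h
    have h1 : s = 1 := by omega
    rw [h1, pow_one] at hs
    exact ha1 (sub_eq_zero.1 hs)
  obtain ⟨f, hf⟩ := IsPGroup.iff_card.1 hQ
  have hqK : (q : K) ≠ 0 := by
    intro h0
    have h1 := (CharP.cast_eq_zero_iff K p q).1 h0
    exact hpq ((Nat.prime_dvd_prime_iff_eq Fact.out Fact.out).1 h1)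
  have hQK : (Nat.card Q : K) ≠ 0 := by
    rw [hf, Nat.cast_pow]
    exact pow_ne_zero _ hqK
  -- elements commuting with a nontrivial power of `x` commute with `x`, and have a normal form
  have hnf : ∀ g : G, ∀ y ∈ Subgroup.zpowers x, y ≠ 1 → y * g = g * y →
      ∃ y' ∈ Subgroup.zpowers x, ∃ z ∈ Subgroup.center G, y' * z = g := by
    intro g y hy hy1 hyg
    have h1 : g ∈ Subgroup.centralizer ({y} : Set G) := by
      rw [Subgroup.mem_centralizer_iff]
      intro h hh
      rw [Set.mem_singleton_iff] at hh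
      rw [hh]; exact hyg
    rw [hC y hy hy1] at h1
    have h2 : g ∈ ((Subgroup.zpowers x ⊔ Subgroup.center G : Subgroup G) : Set G) := h1
    rw [Subgroup.mul_normal] at h2
    obtain ⟨y', hy', z, hz, h3⟩ := Set.mem_mul.1 h2
    exact ⟨y', hy', z, hz, h3⟩
  have hxy : ∀ y' ∈ Subgroup.zpowers x, x * y' = y' * x := by
    intro y' hy'
    obtain ⟨k, rfl⟩ := Subgroup.mem_zpowers_iff.1 hy'
    exact ((Commute.refl x).zpow_right k).eq
  have hcent : ∀ g : G, ∀ y ∈ Subgroup.zpowers x, y ≠ 1 → y * g = g * y → x * g = g * x := by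
    intro g y hy hy1 hyg
    obtain ⟨y', hy', z, hz, rfl⟩ := hnf g y hy hy1 hyg
    have hzx : z * x = x * z := (Subgroup.mem_center_iff.1 hz x).symm
    rw [← mul_assoc, hxy y' hy', mul_assoc, mul_assoc, hzx]
  have hcentral_scalar : ∀ z ∈ Subgroup.center G, ∃ ζ : K, ρ z = ζ • 1 := by
    intro z hz
    apply hh_schurQ ρ Q hirr
    intro h _
    rw [← map_mul, ← map_mul, Subgroup.mem_center_iff.1 hz h]
  have hfix : ∀ g ∈ Q, x * g * x⁻¹ = g → ∃ κ : K, ρ g = κ • 1 := by
    intro g hg hxg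
    have hxg' : x * g = g * x := by
      have := congrArg (fun t => t * x) hxg
      simpa using this
    obtain ⟨y, hy, z, hz, hyz⟩ := hnf g x (Subgroup.mem_zpowers x) hx1 hxg'
    obtain ⟨ζ, hζ⟩ := hcentral_scalar z hz
    have hζ0 : ζ ≠ 0 := by
      rintro rfl
      rw [zero_smul] at hζ
      have h1 : ρ z⁻¹ * ρ z = 1 := by rw [← map_mul, inv_mul_cancel, map_one]
      rw [hζ, mul_zero] at h1
      exact one_ne_zero h1.symm
    -- `y = 1`
    have hgm : g ^ Nat.card Q = 1 := by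
      have h1 : (⟨g, hg⟩ : Q) ^ Nat.card Q = 1 := pow_card_eq_one'
      have h2 : (((⟨g, hg⟩ : Q) ^ Nat.card Q : Q) : G) = ((1 : Q) : G) := congrArg Subtype.val h1
      rw [Subgroup.coe_pow, Subgroup.coe_one] at h2
      exact h2
    have hρy : ρ y = ζ⁻¹ • ρ g := by
      rw [← hyz, map_mul, hζ, mul_smul_comm, mul_one, smul_smul, inv_mul_cancel₀ hζ0, one_smul]
    have hρym : ρ (y ^ Nat.card Q) = (ζ⁻¹) ^ Nat.card Q • 1 := by
      rw [map_pow, hρy, smul_pow, ← map_pow, hgm, map_one]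
    have hype : y ^ (p ^ e) = 1 := by
      obtain ⟨k, rfl⟩ := Subgroup.mem_zpowers_iff.1 hy
      rw [← zpow_natCast, ← zpow_mul, mul_comm, zpow_mul, zpow_natCast, hxn, one_zpow]
    have hc1 : ((ζ⁻¹) ^ Nat.card Q) ^ (p ^ e) = 1 := by
      have h1 : ρ ((y ^ Nat.card Q) ^ (p ^ e)) = 1 := by
        rw [← pow_mul, mul_comm, pow_mul, hype, one_pow, map_one]
      rw [map_pow, hρym, smul_pow, one_pow] at h1
      have h2 : (((ζ⁻¹) ^ Nat.card Q) ^ (p ^ e) - 1) • (1 : Module.End K V) = 0 := by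
        rw [sub_smul, h1, one_smul, sub_self]
      rcases smul_eq_zero.1 h2 with h | h
      · exact sub_eq_zero.1 h
      · exact absurd h one_ne_zero
    have hc : (ζ⁻¹) ^ Nat.card Q = 1 := by
      have h1 : ((ζ⁻¹) ^ Nat.card Q - 1) ^ (p ^ e) = 0 := by
        rw [sub_pow_char_pow, one_pow, hc1, sub_self]
      exact sub_eq_zero.1 (pow_eq_zero_iff (pow_ne_zero _ (Fact.out : p.Prime).ne_zero) |>.1 h1)
    have hym : y ^ Nat.card Q = 1 := by
      apply hfaith
      rw [hρym, hc, one_smul, map_one]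
    have hy1 : y = 1 := by
      have h1 : orderOf y ∣ q ^ f := by rw [← hf]; exact orderOf_dvd_of_pow_eq_one hym
      have h2 : orderOf y ∣ p ^ e := orderOf_dvd_of_pow_eq_one hype
      have h3 : Nat.Coprime (p ^ e) (q ^ f) :=
        Nat.Coprime.pow _ _ ((Nat.coprime_primes Fact.out Fact.out).2 hpq)
      have h4 : orderOf y = 1 := Nat.eq_one_of_dvd_coprimes h3 h2 h1
      exact orderOf_eq_one_iff.1 h4
    refine ⟨ζ, ?_⟩
    rw [← hyz, hy1, one_mul, hζ]
  have hfree : ∀ g ∈ Q, x * g * x⁻¹ ≠ g → ∀ i : ℕ, x ^ i * g * (x ^ i)⁻¹ = g → p ^ e ∣ i := by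
    intro g hg hne i hi
    by_contra hdiv
    have hxi : x ^ i ≠ 1 := by
      intro h
      apply hdiv
      rw [← hord]
      exact orderOf_dvd_of_pow_eq_one h
    have hcomm : x ^ i * g = g * x ^ i := by
      have := congrArg (fun t => t * x ^ i) hi
      simpa using this
    have h1 := hcent g (x ^ i) (Subgroup.pow_mem _ (Subgroup.mem_zpowers x) i) hxi hcomm
    apply hne
    rw [h1, mul_assoc, mul_inv_cancel, mul_one]
  have hdec : ∀ T : Module.End K V, T * ρ x = ρ x * T → ∃ (κ : K) (T' : Module.End K V),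
      T = κ • 1 + ∑ i ∈ Finset.range (p ^ e), ρ x ^ i * T' * ρ x⁻¹ ^ i :=
    fun T hT => hh_cent_decomp ρ Q hirr hQK x (p ^ e) hpos hxn hfix hfree T hT
  have hB : p ^ e - 1 ≤ s := hh_sideB p (ρ x) (ρ x⁻¹) haw hwa e hdec s hs2 hs hs1
  refine ⟨hB, hsn, fun hseq => ?_⟩
  have hn1 : (ρ x - 1) ^ (p ^ e - 1) = 0 := by rw [← hseq]; exact hs
  have hd : finrank K V = s := hh_sideC p (ρ x) (ρ x⁻¹) haw hwa e hdec s hs_pos hs hs1 hn1
  constructor
  · have hirrQ : ∀ W : Submodule K V,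
        (∀ g : Q, Submodule.map (((ρ : G →* Module.End K V).comp Q.subtype) g) W ≤ W) →
        W = ⊥ ∨ W = ⊤ := fun W hW => hirr W (fun g hg => hW ⟨g, hg⟩)
    obtain ⟨b, hb⟩ := hh_powdim q (Nat.card Q) Q V ((ρ : G →* Module.End K V).comp Q.subtype)
      rfl hQ hirrQ
    exact ⟨b, by rw [← hseq, ← hd, hb]⟩
  · intro hcomm
    have hsc : ∀ g ∈ Q, ∃ κ : K, ρ g = κ • 1 := by
      intro g hg
      apply hh_schurQ ρ Q hirr
      intro h hh
      rw [← map_mul, ← map_mul]
      congr 1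
      have h1 : (⟨g, hg⟩ : Q) * ⟨h, hh⟩ = ⟨h, hh⟩ * ⟨g, hg⟩ := mul_comm' _ _
      exact congrArg Subtype.val h1
    obtain ⟨v, hv⟩ := exists_ne (0 : V)
    have hspan : (K ∙ v) = ⊤ := by
      have hinv : ∀ g ∈ Q, Submodule.map (ρ g) (K ∙ v) ≤ (K ∙ v) := by
        intro g hg w hw
        obtain ⟨y, hy, rfl⟩ := Submodule.mem_map.1 hw
        obtain ⟨κ, hκ⟩ := hsc g hg
        rw [hκ]
        simpa using Submodule.smul_mem _ κ hy
      rcases hirr (K ∙ v) hinv with h | h
      · exact absurd h (by simpa using hv)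
      · exact h
    have h1 : finrank K V = 1 := by
      rw [← finrank_top K V, ← hspan, finrank_span_singleton hv]
    omega

end Cfsg.Agent.S4282
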