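import Cfsg.Statements.S0633
import Cfsg.Agent.Lib.Helper17.HBCoreC
import Cfsg.Agent.Lib.Helper43.HBWrap

set_option autoImplicit false
open Cfsg

namespace Cfsg.Agent.S0633

/-- Theorem B of Hall and Higman on the minimal polynomial of a p-element of order p^n in a p-solvable linear group on a nonzero vector space in characteristic p with no nontrivial normal p-subgroup: its degree is p^n, except when some p^n₀ - 1 (n₀ ≤ n) is a power of a prime q for which the Sylow q-subgroups are non-abelian, in which case the degree is at least p^(n-n₀)(p^n₀ - 1). -/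
theorem result {F : Type*} [Field F] {p : ℕ} [Fact p.Prime] [CharP F p] {V : Type*} [AddCommGroup V] [Module F V] [FiniteDimensional F V] [Nontrivial V] (H : Subgroup (V ≃ₗ[F] V)) [Finite H] (hsol : Cfsg.IsPSolvable p H) (hOp : Cfsg.pCore p H = ⊥) (x : V ≃ₗ[F] V) (hx : x ∈ H) (n : ℕ) (hn : orderOf x = p ^ n) (r : ℕ) (hr : minpoly F (x : Module.End F V) = (Polynomial.X - 1) ^ r) : r = p ^ n ∨ ∃ n₀ q m : ℕ, 1 ≤ n₀ ∧ n₀ ≤ n ∧ q.Prime ∧ 1 ≤ m ∧ p ^ n₀ - 1 = q ^ m ∧ (∀ Q : Sylow q H, ¬ IsMulCommutative Q) ∧ p ^ (n - n₀) * (p ^ n₀ - 1) ≤ r := by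
  haveI : CharP (AlgebraicClosure F) p := charP_of_injective_algebraMap (algebraMap F (AlgebraicClosure F)).injective p
  refine Cfsg.Agent.Lib.Helper43.HBWrap.hb_wrap (fun q hq hqp => ?_) H hsol hOp x hx n hn r hr
  haveI : Fact q.Prime := ⟨hq⟩
  exact Cfsg.Agent.Lib.Helper17.hb_core (AlgebraicClosure F) p q (Ne.symm hqp)

end Cfsg.Agent.S0633
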