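import Cfsg.Statements.S0784
import Mathlib

set_option autoImplicit false
open Cfsg

namespace Cfsg.Agent.S0784

open Matrix

theorem polarVec_dot {F : Type*} [Field F] {n : ℕ} (Q : QuadraticForm F (Fin n → F)) (v x : Fin n → F) :
    Cfsg.polarVec (⇑Q) v ⬝ᵥ x = QuadraticMap.polar (⇑Q) v x := by
  have h : QuadraticMap.polar (⇑Q) v x = QuadraticMap.polarBilin Q v x := rfl
  rw [h]
  conv_rhs => rw [pi_eq_sum_univ' x]
  rw [map_sum]
  simp only [map_smul, smul_eq_mul]
  unfold Cfsg.polarVec dotProduct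
  exact Finset.sum_congr rfl (fun i _ => mul_comm _ _)

theorem refl_mulVec {F : Type*} [Field F] {n : ℕ} (Q : QuadraticForm F (Fin n → F)) (v x : Fin n → F) :
    (Cfsg.reflectionMatrix (⇑Q) v).mulVec x = x - ((Q v)⁻¹ * QuadraticMap.polar (⇑Q) v x) • v := by
  unfold Cfsg.reflectionMatrix
  rw [Matrix.sub_mulVec, Matrix.one_mulVec, Matrix.smul_mulVec, Matrix.vecMulVec_mulVec,
    op_smul_eq_smul, polarVec_dot, smul_smul]

/-- Reflections: if Q(v) ≠ 0 then the matrix R = 1 − Q(v)⁻¹ · v f(v, ·)ᵀ preserves Q, maps v to −v, fixes each x with f(v, x) = 0, and has determinant −1 (in characteristic two, −1 = 1 and R is the orthogonal transvection of v). -/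
theorem result {F : Type*} [Field F] {n : ℕ} (Q : QuadraticForm F (Fin n → F)) (v : Fin n → F) (hv : Q v ≠ 0) : (∀ x, Q ((Cfsg.reflectionMatrix ⇑Q v).mulVec x) = Q x) ∧ (Cfsg.reflectionMatrix ⇑Q v).mulVec v = -v ∧ (∀ x, QuadraticMap.polar ⇑Q v x = 0 → (Cfsg.reflectionMatrix ⇑Q v).mulVec x = x) ∧ (Cfsg.reflectionMatrix ⇑Q v).det = -1 := by
  have hself : QuadraticMap.polar (⇑Q) v v = 2 * Q v := by
    rw [QuadraticMap.polar_self, two_smul, two_mul]
  refine ⟨?_, ?_, ?_, ?_⟩
  · intro x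
    rw [refl_mulVec, sub_eq_add_neg, ← neg_smul, QuadraticMap.map_add (⇑Q), QuadraticMap.map_smul,
      QuadraticMap.polar_smul_right, QuadraticMap.polar_comm (⇑Q) x v]
    simp only [smul_eq_mul]
    field_simp
    ring
  · rw [refl_mulVec, hself]
    have e : (Q v)⁻¹ * (2 * Q v) = 2 := by field_simp
    rw [e, two_smul]
    abel
  · intro x hx
    rw [refl_mulVec, hx, mul_zero, zero_smul, sub_zero]
  · unfold Cfsg.reflectionMatrix
    have e : (1 : Matrix (Fin n) (Fin n) F) - (Q v)⁻¹ • Matrix.vecMulVec v (Cfsg.polarVec (⇑Q) v)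
        = 1 + Matrix.replicateCol Unit (-(Q v)⁻¹ • v) * Matrix.replicateRow Unit (Cfsg.polarVec (⇑Q) v) := by
      rw [← Matrix.vecMulVec_eq, Matrix.smul_vecMulVec, neg_smul, sub_eq_add_neg]
    rw [e, Matrix.det_one_add_replicateCol_mul_replicateRow, dotProduct_smul, polarVec_dot, hself]
    simp only [smul_eq_mul]
    field_simp
    ring

end Cfsg.Agent.S0784
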