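import Cfsg.Statements.S0089
import Mathlib

set_option autoImplicit false
open Cfsg

namespace Cfsg.Agent.S0089

open scoped IsMulCommutative in
/-- When all Sylow subgroups are abelian, the derived subgroup meets the centre trivially. -/
theorem result {G : Type*} [Group G] [Finite G] (h : ∀ p : ℕ, p.Prime → ∀ P : Sylow p G, IsMulCommutative P) : commutator G ⊓ Subgroup.center G = ⊥ := by
  rw [eq_bot_iff]
  rintro z ⟨hzc, hzZ⟩
  rw [Subgroup.mem_bot]
  by_contra hz
  have hord : orderOf z ≠ 1 := fun h1 => hz (orderOf_eq_one_iff.mp h1)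
  obtain ⟨q, hq, hqz⟩ := Nat.exists_prime_and_dvd hord
  haveI := Fact.mk hq
  let P : Sylow q G := default
  haveI := h q hq P
  have key : ∀ (k : ℕ) (g₀ : G), g₀⁻¹ * z ^ k * g₀ ∈ (P : Subgroup G) → g₀⁻¹ * z ^ k * g₀ = z ^ k := by
    intro k g₀ _
    have hzk : z ^ k ∈ Subgroup.center G := Subgroup.pow_mem _ hzZ k
    rw [Subgroup.mem_center_iff] at hzk
    rw [mul_assoc, ← hzk g₀, inv_mul_cancel_left]
  have h1 := MonoidHom.transfer_eq_pow (MonoidHom.id (P : Subgroup G)) z key
  have h2 : MonoidHom.transfer (MonoidHom.id (P : Subgroup G)) z = 1 :=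
    Abelianization.commutator_subset_ker (MonoidHom.transfer (MonoidHom.id (P : Subgroup G))) hzc
  rw [h2] at h1
  have h3 : z ^ (P : Subgroup G).index = 1 := by
    have := congrArg Subtype.val h1
    simpa using this.symm
  exact P.not_dvd_index (hqz.trans (orderOf_dvd_of_pow_eq_one h3))

end Cfsg.Agent.S0089
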