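import Cfsg.Statements.S0939
import Mathlib
import Cfsg.Agent.Lib.Helper81.BlockNormal
import Cfsg.Agent.Lib.Helper81.PSolv2
import Cfsg.Agent.S4487

set_option autoImplicit false
open Cfsg

namespace Cfsg.Agent.S0939

theorem pPrimeCore_eq_bot_of_isPGroup {Q : Type*} [Group Q] [Finite Q] (p : ℕ) [Fact p.Prime]
    (hQ : IsPGroup p Q) : Cfsg.pPrimeCore p Q = ⊥ := by
  have hp : p.Prime := Fact.out
  unfold Cfsg.pPrimeCore
  rw [sSup_eq_bot]
  rintro N ⟨-, hN⟩
  obtain ⟨j, hj⟩ := IsPGroup.iff_card.mp (hQ.to_subgroup N)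
  rw [hj] at hN
  have hj0 : j = 0 := by
    by_contra hne
    have h1 : p ∣ p ^ j := dvd_pow_self p hne
    have h2 := Nat.Coprime.eq_one_of_dvd hN.symm h1
    exact hp.ne_one h2
  rw [hj0, pow_zero] at hj
  exact Subgroup.eq_bot_of_card_eq N hj

theorem pCore_eq_top_of_isPGroup {Q : Type*} [Group Q] (p : ℕ)
    (hQ : IsPGroup p Q) : Cfsg.pCore p Q = ⊤ := by
  refine le_antisymm le_top ?_
  unfold Cfsg.pCore
  exact le_sSup ⟨inferInstance, hQ.to_subgroup ⊤⟩

/-- Let G be a finite group with a normal p-complement (the largest normal subgroup O_p'(G) of order prime to p has p-power index). Then, relative to any maximal ideal M of the algebraic integers containing p, the principal block of G is the set of irreducible characters χ with χ n = χ 1 for every n ∈ O_p'(G). -/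
theorem result {G : Type*} [Group G] [Finite G] (p : ℕ) [Fact p.Prime] (M : Ideal Cfsg.AlgInt) (hM : Cfsg.IsPModular p M) (hnc : ∃ k : ℕ, (Cfsg.pPrimeCore p G).index = p ^ k) : Cfsg.principalBlock M G = {χ : Cfsg.IrrCharacter G | ∀ n ∈ Cfsg.pPrimeCore p G, (χ : G → ℂ) n = (χ : G → ℂ) 1} := by
  classical
  cases nonempty_fintype G
  have hKn : (Cfsg.pPrimeCore p G).Normal := Cfsg.Agent.Lib.Helper81.pPrimeCore_normal p
  have hp : p.Prime := Fact.out
  have hKp : ¬ p ∣ Nat.card (Cfsg.pPrimeCore p G) :=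
    (Nat.Prime.coprime_iff_not_dvd hp).mp (Cfsg.Agent.Lib.Helper81.pPrimeCore_coprime p).symm
  ext χ
  constructor
  · intro hχ
    have h : SameBlock M (χ : G → ℂ)
        ((Cfsg.Agent.Lib.Helper83.trivIrr G : IrrCharacter G) : G → ℂ) :=
      Cfsg.Agent.Lib.Helper79.sameBlock_symm' hM hχ
    exact Cfsg.Agent.Lib.Helper81.ker_of_sameBlock hM (Cfsg.pPrimeCore p G) hKp χ
      (Cfsg.Agent.Lib.Helper83.trivIrr G) h (fun n _ => rfl)
  · intro hχ
    obtain ⟨ψ, hψ⟩ := Cfsg.Agent.Lib.Helper83.exists_inflate_eq (Cfsg.pPrimeCore p G) χ hχ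
    obtain ⟨k, hk⟩ := hnc
    have hQ : IsPGroup p (G ⧸ Cfsg.pPrimeCore p G) := by
      apply IsPGroup.of_card (n := k)
      rw [← Subgroup.index_eq_card]
      exact hk
    have hcore : Cfsg.pPrimeCore p (G ⧸ Cfsg.pPrimeCore p G) = ⊥ :=
      pPrimeCore_eq_bot_of_isPGroup p hQ
    have hpc : Cfsg.pCore p (G ⧸ Cfsg.pPrimeCore p G) = ⊤ := pCore_eq_top_of_isPGroup p hQ
    have h1 := Cfsg.Agent.S4487.result p M hM hcore (by rw [hpc]; exact le_top)
      (Cfsg.Agent.Lib.Helper83.trivIrr (G ⧸ Cfsg.pPrimeCore p G)) ψ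
    have h2 := Cfsg.Agent.Lib.Helper81.sameBlock_inflate hM (Cfsg.pPrimeCore p G) _ _ h1
    have e2 : (ψ : G ⧸ Cfsg.pPrimeCore p G → ℂ) ∘ QuotientGroup.mk = (χ : G → ℂ) := by
      rw [← hψ]
      rfl
    rw [e2] at h2
    exact h2

end Cfsg.Agent.S0939
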