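import Cfsg.Statements.S4646
-- import your own Cfsg.Agent.* helpers here
import Mathlib
import Cfsg.Agent.S4691
import Cfsg.Agent.Lib.Helper79.Prin2
import Cfsg.Agent.Lib.Helper81.RegPart
import Cfsg.Agent.Lib.Helper83.Quot
import Cfsg.Agent.Lib.Helper22.PPart

set_option autoImplicit false
open Cfsg

namespace Cfsg.Agent.S4646

open Cfsg.Agent.Lib.Helper4 Cfsg.Agent.Lib.Helper22 Cfsg.Agent.Lib.Helper79
  Cfsg.Agent.Lib.Helper81
open scoped ComplexConjugate

section

variable {G : Type*} [Group G] [Finite G] {p : ℕ} [Fact p.Prime] {M : Ideal AlgInt}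

/-- The common kernel of the characters of the principal block. -/
def prinKer (G : Type*) [Group G] [Finite G] (M : Ideal AlgInt) : Subgroup G where
  carrier := {g | ∀ χ ∈ principalBlock M G, (χ : G → ℂ) g = (χ : G → ℂ) 1}
  mul_mem' := by
    intro a b ha hb χ hχ
    exact (Cfsg.Agent.Lib.Helper83.mem_irrKer χ _).mp
      ((Cfsg.Agent.Lib.Helper83.irrKer χ).mul_mem
        ((Cfsg.Agent.Lib.Helper83.mem_irrKer χ a).mpr (ha χ hχ))
        ((Cfsg.Agent.Lib.Helper83.mem_irrKer χ b).mpr (hb χ hχ)))
  one_mem' := fun χ _ => rfl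
  inv_mem' := by
    intro a ha χ hχ
    exact (Cfsg.Agent.Lib.Helper83.mem_irrKer χ _).mp
      ((Cfsg.Agent.Lib.Helper83.irrKer χ).inv_mem
        ((Cfsg.Agent.Lib.Helper83.mem_irrKer χ a).mpr (ha χ hχ)))

theorem prinKer_normal (M : Ideal AlgInt) : (prinKer G M).Normal := by
  classical
  letI := Fintype.ofFinite G
  refine ⟨fun n hn g χ hχ => ?_⟩
  rw [isClassFunction_irr χ n g]
  exact hn χ hχ

/-- With a normal `p`-complement, the characters of the principal block are constant on the
`p`-regular elements. -/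
theorem ker_of_npc (hM : IsPModular p M) (h : HasNormalPComplement p G) :
    ∀ χ ∈ principalBlock M G, ∀ g : G, ¬ p ∣ orderOf g →
      (χ : G → ℂ) g = (χ : G → ℂ) 1 := by
  classical
  letI := Fintype.ofFinite G
  have hp : p.Prime := Fact.out
  obtain ⟨P, N, hN, hNP⟩ := h
  obtain ⟨a, ha⟩ : ∃ a, a = (Nat.card G).factorization p := ⟨_, rfl⟩
  have hidx : N.index = p ^ a := by
    rw [hNP.symm.index_eq_card, P.card_eq_multiplicity, ha]
  have hcard : Nat.card N * p ^ a = Nat.card G := by
    rw [← hidx]; exact Subgroup.card_mul_index N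
  have hpN : ¬ p ∣ Nat.card N := by
    intro hd
    have : p ^ (a + 1) ∣ Nat.card G := by
      rw [← hcard, pow_succ, mul_comm]
      exact Nat.mul_dvd_mul_right hd _
    rw [ha] at this
    exact Nat.pow_succ_factorization_not_dvd Nat.card_pos.ne' hp this
  intro χ hχ g hg
  have hgN : g ∈ N :=
    (mem_iff_pRegular_of_index N a hidx ((Nat.Prime.coprime_iff_not_dvd hp).mpr hpN).symm g).mpr hg
  exact ker_of_sameBlock hM N hpN χ (Cfsg.Agent.Lib.Helper83.trivIrr G) (sameBlock_symm' hM hχ)
    (fun n _ => rfl) g hgN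

/-- If the characters of the principal block are constant on the `p`-regular elements, there is
a normal `p`-complement. -/
theorem npc_of_ker (hM : IsPModular p M)
    (h : ∀ χ ∈ principalBlock M G, ∀ g : G, ¬ p ∣ orderOf g →
      (χ : G → ℂ) g = (χ : G → ℂ) 1) : HasNormalPComplement p G := by
  classical
  letI := Fintype.ofFinite G
  have hp : p.Prime := Fact.out
  haveI := irr_finite (G := G)
  letI := Fintype.ofFinite (IrrCharacter G)
  haveI hNn : (prinKer G M).Normal := prinKer_normal M
  have hreg : ∀ g : G, ¬ p ∣ orderOf g → g ∈ prinKer G M := fun g hg χ hχ => h χ hχ g hg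
  -- the common kernel is a `p'`-group
  have hpN : ¬ p ∣ Nat.card (prinKer G M) := by
    intro hdvd
    obtain ⟨y, hy⟩ := exists_prime_orderOf_dvd_card' p hdvd
    have hy' : p ∣ orderOf (y : G) := by rw [Subgroup.orderOf_coe, hy]
    have h0 := weak_block_orth hM (principalBlock M G) isPBlock_principalBlock 1 (y : G)
      (by rw [orderOf_one]; exact hp.not_dvd_one) hy'
    have h1 : ∑ᶠ χ ∈ principalBlock M G, (χ : G → ℂ) 1 * conj ((χ : G → ℂ) 1) = 0 := by
      rw [← h0]
      refine finsum_mem_congr rfl fun χ hχ => ?_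
      rw [y.2 χ hχ]
    rw [← ofReal_finsum_norm_sq, Complex.ofReal_eq_zero, finsum_mem_eq_sum_filter_univ] at h1
    have h2 := (Finset.sum_eq_zero_iff_of_nonneg (fun χ _ => by positivity)).mp h1
      (Cfsg.Agent.Lib.Helper83.trivIrr G) (by simp [trivIrr_mem_principalBlock hM])
    rw [Cfsg.Agent.Lib.Helper83.trivIrr_apply] at h2
    norm_num at h2
  -- its index is a power of `p`
  have hpg : IsPGroup p (G ⧸ prinKer G M) := by
    intro q
    obtain ⟨g, rfl⟩ := QuotientGroup.mk_surjective q
    obtain ⟨x, y, hxy, hc, ⟨k, hk⟩, hy⟩ := exists_isPPart hp g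
    refine ⟨k, ?_⟩
    rw [← QuotientGroup.mk_pow, QuotientGroup.eq_one_iff, ← hxy, hc.mul_pow, ← hk,
      pow_orderOf_eq_one, one_mul]
    exact (prinKer G M).pow_mem (hreg y hy) _
  obtain ⟨n, hn⟩ := IsPGroup.iff_card.mp hpg
  have hidx : (prinKer G M).index = p ^ n := by rw [Subgroup.index_eq_card, hn]
  have hcard : Nat.card (prinKer G M) * p ^ n = Nat.card G := by
    rw [← hidx]; exact Subgroup.card_mul_index _
  have hcop : Nat.Coprime (Nat.card (prinKer G M)) p :=
    ((Nat.Prime.coprime_iff_not_dvd hp).mpr hpN).symm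
  have hPcard : Nat.card (default : Sylow p G) = p ^ n := by
    rw [Sylow.card_eq_multiplicity, ← hcard]
    congr 1
    rw [Nat.factorization_mul (Nat.card_pos.ne') (pow_ne_zero _ hp.ne_zero), Finsupp.add_apply,
      Nat.factorization_eq_zero_of_not_dvd hpN, zero_add, hp.factorization_pow,
      Finsupp.single_eq_same]
  refine ⟨default, prinKer G M, hNn, Subgroup.isComplement'_of_coprime ?_ ?_⟩
  · rw [hPcard]; exact hcard
  · rw [hPcard]; exact Nat.Coprime.pow_right _ hcop

/-- The principal block has rank one exactly when its characters are constant on the `p`-regular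
elements. -/
theorem rank_one_iff (hM : IsPModular p M) :
    blockRank p (principalBlock M G) = 1 ↔
      ∀ χ ∈ principalBlock M G, ∀ g : G, ¬ p ∣ orderOf g →
        (χ : G → ℂ) g = (χ : G → ℂ) 1 := by
  classical
  have hp : p.Prime := Fact.out
  have h1reg : ¬ p ∣ orderOf (1 : G) := by rw [orderOf_one]; exact hp.not_dvd_one
  have hv₀ : pRegularPart p (Cfsg.Agent.Lib.Helper83.trivIrr G : G → ℂ) ≠ 0 := by
    intro h0
    have h1 := congrFun h0 1
    rw [pRegularPart_of_reg _ h1reg, Cfsg.Agent.Lib.Helper83.trivIrr_apply] at h1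
    simp at h1
  have hmem₀ : pRegularPart p (Cfsg.Agent.Lib.Helper83.trivIrr G : G → ℂ) ∈
      Submodule.span ℂ ((fun χ : IrrCharacter G => pRegularPart p (χ : G → ℂ)) ''
        principalBlock M G) :=
    Submodule.subset_span ⟨_, trivIrr_mem_principalBlock hM, rfl⟩
  unfold blockRank
  constructor
  · intro h χ hχ g hg
    have hne : (⟨_, hmem₀⟩ : ↥(Submodule.span ℂ ((fun χ : IrrCharacter G =>
        pRegularPart p (χ : G → ℂ)) '' principalBlock M G))) ≠ 0 := by
      intro h0
      exact hv₀ (congrArg Subtype.val h0)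
    obtain ⟨c, hc⟩ := (finrank_eq_one_iff_of_nonzero' _ hne).mp h
      ⟨pRegularPart p (χ : G → ℂ), Submodule.subset_span ⟨χ, hχ, rfl⟩⟩
    have hc' : c • pRegularPart p (Cfsg.Agent.Lib.Helper83.trivIrr G : G → ℂ) =
        pRegularPart p (χ : G → ℂ) := congrArg Subtype.val hc
    have e1 := congrFun hc' 1
    have eg := congrFun hc' g
    rw [Pi.smul_apply, pRegularPart_of_reg _ h1reg, pRegularPart_of_reg _ h1reg,
      Cfsg.Agent.Lib.Helper83.trivIrr_apply] at e1
    rw [Pi.smul_apply, pRegularPart_of_reg _ hg, pRegularPart_of_reg _ hg,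
      Cfsg.Agent.Lib.Helper83.trivIrr_apply] at eg
    rw [← eg, ← e1]
  · intro h
    have hspan : Submodule.span ℂ ((fun χ : IrrCharacter G => pRegularPart p (χ : G → ℂ)) ''
        principalBlock M G) =
        Submodule.span ℂ {pRegularPart p (Cfsg.Agent.Lib.Helper83.trivIrr G : G → ℂ)} := by
      apply le_antisymm
      · refine Submodule.span_le.mpr ?_
        rintro _ ⟨χ, hχ, rfl⟩
        have e : pRegularPart p (χ : G → ℂ) = (χ : G → ℂ) 1 •
            pRegularPart p (Cfsg.Agent.Lib.Helper83.trivIrr G : G → ℂ) := by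
          funext g
          by_cases hg : p ∣ orderOf g
          · rw [Pi.smul_apply, pRegularPart_of_sing _ hg, pRegularPart_of_sing _ hg, smul_zero]
          · rw [Pi.smul_apply, pRegularPart_of_reg _ hg, pRegularPart_of_reg _ hg,
              Cfsg.Agent.Lib.Helper83.trivIrr_apply, smul_eq_mul, mul_one]
            exact h χ hχ g hg
        show pRegularPart p (χ : G → ℂ) ∈ _
        rw [e]
        exact Submodule.smul_mem _ _ (Submodule.subset_span rfl)
      · refine Submodule.span_le.mpr ?_
        rintro _ rfl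
        exact hmem₀
    rw [hspan]
    exact finrank_span_singleton hv₀

end

/-- For a finite group G, a prime p and a maximal ideal M of the algebraic integers containing p: the principal block of G is nilpotent if and only if its p-regular rank is 1 (the trivial Brauer character is its only irreducible Brauer character). -/
theorem result {G : Type*} [Group G] [Finite G] (p : ℕ) [Fact p.Prime] (M : Ideal Cfsg.AlgInt) (hM : Cfsg.IsPModular p M) : Cfsg.IsNilpotentBlock p M (Cfsg.principalBlock M G) ↔ Cfsg.blockRank p (Cfsg.principalBlock M G) = 1 := by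
  classical
  letI := Fintype.ofFinite G
  constructor
  · intro h
    exact (rank_one_iff hM).mpr (ker_of_npc hM ((Cfsg.Agent.S4691.result p M hM).mpr h))
  · intro h
    exact (Cfsg.Agent.S4691.result p M hM).mp (npc_of_ker hM ((rank_one_iff hM).mp h))

end Cfsg.Agent.S4646
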