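import Cfsg.Statements.S5396
import Cfsg.Agent.Lib.Helper72.Frattini

set_option autoImplicit false
open Cfsg
open scoped commutatorElement

namespace Cfsg.Agent.S5396

/-- The central extension of `V` by `ZMod 2` with cocycle `β`. -/
@[ext] structure Ext {V : Type} [AddCommGroup V] (β : V →+ V →+ ZMod 2) where
  v : V
  s : ZMod 2

theorem two_s (x : ZMod 2) : x + x = 0 := CharTwo.add_self_eq_zero x

theorem z2_ne_zero : ∀ x : ZMod 2, x ≠ 0 → x = 1 := by decide
theorem z2_add_ne : ∀ x y : ZMod 2, x ≠ y → x + y = 1 := by decide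
theorem z2_add_eq : ∀ x y : ZMod 2, x + y = 0 → x = y := by decide

namespace Ext

variable {V : Type} [AddCommGroup V] {β : V →+ V →+ ZMod 2}

instance : Mul (Ext β) := ⟨fun a b => ⟨a.v + b.v, a.s + b.s + β a.v b.v⟩⟩
instance : One (Ext β) := ⟨⟨0, 0⟩⟩
instance : Inv (Ext β) := ⟨fun a => ⟨-a.v, a.s + β a.v a.v⟩⟩

@[simp] theorem mul_v (a b : Ext β) : (a * b).v = a.v + b.v := rfl
@[simp] theorem mul_s (a b : Ext β) : (a * b).s = a.s + b.s + β a.v b.v := rfl
@[simp] theorem one_v : (1 : Ext β).v = 0 := rfl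
@[simp] theorem one_s : (1 : Ext β).s = 0 := rfl
@[simp] theorem inv_v (a : Ext β) : (a⁻¹).v = -a.v := rfl
@[simp] theorem inv_s (a : Ext β) : (a⁻¹).s = a.s + β a.v a.v := rfl

instance : Group (Ext β) := Group.ofLeftAxioms
  (by
    intro a b c
    ext
    · simp [add_assoc]
    · simp only [mul_s, mul_v, map_add, AddMonoidHom.add_apply]
      ring)
  (by
    intro a
    ext
    · simp
    · simp)
  (by
    intro a
    ext
    · simp
    · simp only [mul_s, inv_s, inv_v, map_neg, AddMonoidHom.neg_apply, one_s]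
      have h := two_s a.s
      linear_combination h)

theorem comm_iff (a b : Ext β) : a * b = b * a ↔ β a.v b.v = β b.v a.v := by
  constructor
  · intro h
    have h1 := congrArg Ext.s h
    simp only [mul_s] at h1
    linear_combination h1
  · intro h
    ext
    · simp [add_comm]
    · simp only [mul_s]
      rw [h]
      ring

theorem comm_eq (a b : Ext β) : a * b * a⁻¹ * b⁻¹ = ⟨0, β a.v b.v + β b.v a.v⟩ := by
  have h : a * b = (⟨0, β a.v b.v + β b.v a.v⟩ : Ext β) * (b * a) := by
    ext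
    · simp [add_comm]
    · simp only [mul_s, mul_v, map_zero, AddMonoidHom.zero_apply]
      have h1 := two_s (β b.v a.v)
      linear_combination -h1
  rw [h]
  group

theorem mem_center_iff' (hnd : ∀ v, (∀ w, β v w = β w v) → v = 0) (a : Ext β) :
    a ∈ Subgroup.center (Ext β) ↔ a.v = 0 := by
  rw [Subgroup.mem_center_iff]
  constructor
  · intro h
    apply hnd
    intro w
    have h1 := h ⟨w, 0⟩
    exact ((comm_iff _ _).mp h1).symm
  · intro h g
    rw [comm_iff, h]
    simp

theorem card_center (hnd : ∀ v, (∀ w, β v w = β w v) → v = 0) :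
    Nat.card (Subgroup.center (Ext β)) = 2 := by
  have e : Subgroup.center (Ext β) ≃ ZMod 2 :=
    { toFun := fun a => a.1.s
      invFun := fun s => ⟨⟨0, s⟩, (mem_center_iff' hnd _).mpr rfl⟩
      left_inv := fun a => by
        apply Subtype.ext
        ext
        · exact ((mem_center_iff' hnd _).mp a.2).symm
        · rfl
      right_inv := fun s => rfl }
  rw [Nat.card_congr e, Nat.card_eq_fintype_card, ZMod.card]

/-- the underlying set -/
def equivProd : Ext β ≃ V × ZMod 2 :=
  ⟨fun a => (a.v, a.s), fun p => ⟨p.1, p.2⟩, fun _ => rfl, fun _ => rfl⟩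

theorem card_eq : Nat.card (Ext β) = Nat.card V * 2 := by
  rw [Nat.card_congr (equivProd (β := β)), Nat.card_prod, Nat.card_eq_fintype_card (α := ZMod 2),
    ZMod.card]

theorem isExtraspecial [Finite V] [Nontrivial V] (h2 : ∀ v : V, v + v = 0)
    (hnd : ∀ v, (∀ w, β v w = β w v) → v = 0) (k : ℕ) (hk : Nat.card V = 2 ^ k) :
    IsExtraspecial 2 (Ext β) := by
  have : Finite (Ext β) := Finite.of_equiv _ (equivProd (β := β)).symm
  have : Fact (Nat.Prime 2) := ⟨Nat.prime_two⟩
  have hP : IsPGroup 2 (Ext β) :=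
    IsPGroup.of_card (n := k + 1) (by rw [card_eq, hk, pow_succ])
  have hcomm : ∀ x y : Ext β, x * y * x⁻¹ * y⁻¹ ∈ Subgroup.center (Ext β) := by
    intro x y
    rw [comm_eq, mem_center_iff' hnd]
  have hsq : ∀ x : Ext β, x ^ 2 ∈ Subgroup.center (Ext β) := by
    intro x
    rw [mem_center_iff' hnd, pow_two, mul_v]
    exact h2 _
  have hz : ∀ c ∈ Subgroup.center (Ext β), ∃ x y : Ext β, c = x * y * x⁻¹ * y⁻¹ := by
    intro c hc
    rw [mem_center_iff' hnd] at hc
    obtain ⟨v, hv⟩ := exists_ne (0 : V)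
    have h3 : ¬ ∀ w, β v w = β w v := fun h => hv (hnd v h)
    push Not at h3
    obtain ⟨w, hw⟩ := h3
    by_cases hs : c.s = 0
    · refine ⟨1, 1, ?_⟩
      ext
      · simp [hc]
      · simp [hs]
    · refine ⟨⟨v, 0⟩, ⟨w, 0⟩, ?_⟩
      rw [comm_eq]
      ext
      · exact hc
      · show c.s = β v w + β w v
        rw [z2_ne_zero _ hs, z2_add_ne _ _ hw]
  refine ⟨⟨hP, le_antisymm ?_ ?_, le_antisymm ?_ ?_⟩, card_center hnd⟩
  · exact Cfsg.Agent.Lib.Helper72.frattini_le_of_forall_pow_mem Nat.prime_two _ hsq hcomm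
  · intro c hc
    rw [Cfsg.Agent.Lib.Helper72.mem_frattini_iff]
    intro M hM
    obtain ⟨x, y, rfl⟩ := hz c hc
    exact (Cfsg.Agent.Lib.Helper72.pow_mem_and_comm_mem_of_isCoatom hP hM).2 x y
  · rw [commutator_def, Subgroup.commutator_le]
    intro x _ y _
    rw [commutatorElement_def]
    exact hcomm x y
  · intro c hc
    obtain ⟨x, y, rfl⟩ := hz c hc
    rw [← commutatorElement_def, commutator_def]
    exact Subgroup.commutator_mem_commutator (Subgroup.mem_top x) (Subgroup.mem_top y)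

/-- the preimage of an additive subgroup of `V` -/
def lift (β : V →+ V →+ ZMod 2) (W : AddSubgroup V) : Subgroup (Ext β) where
  carrier := {a | a.v ∈ W}
  mul_mem' := fun ha hb => W.add_mem ha hb
  one_mem' := W.zero_mem
  inv_mem' := fun ha => W.neg_mem ha

theorem mem_lift (W : AddSubgroup V) (a : Ext β) : a ∈ lift β W ↔ a.v ∈ W := Iff.rfl

theorem lift_elem (h2 : ∀ v : V, v + v = 0) (W : AddSubgroup V)
    (hW : ∀ v ∈ W, ∀ w ∈ W, β v w = 0) : IsElementaryAbelian 2 (lift β W) := by
  constructor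
  · refine ⟨⟨fun a b => Subtype.ext ?_⟩⟩
    exact (comm_iff _ _).mpr (by rw [hW _ a.2 _ b.2, hW _ b.2 _ a.2])
  · intro a ha
    rw [pow_two]
    ext
    · simp [h2]
    · simp [hW _ ha _ ha, two_s]

theorem card_lift (W : AddSubgroup V) : Nat.card (lift β W) = Nat.card W * 2 := by
  have e : lift β W ≃ W × ZMod 2 :=
    { toFun := fun a => (⟨a.1.v, a.2⟩, a.1.s)
      invFun := fun p => ⟨⟨p.1.1, p.2⟩, p.1.2⟩
      left_inv := fun _ => rfl
      right_inv := fun _ => rfl }
  rw [Nat.card_congr e, Nat.card_prod, Nat.card_eq_fintype_card (α := ZMod 2), ZMod.card]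

theorem exists_W [Finite V] (A : Subgroup (Ext β)) (hA : IsElementaryAbelian 2 A) :
    ∃ W : AddSubgroup V, (∀ w ∈ W, β w w = 0) ∧ Nat.card A ≤ Nat.card W * 2 := by
  let W : AddSubgroup V :=
    { carrier := {w | ∃ a ∈ A, a.v = w}
      add_mem' := by
        rintro _ _ ⟨a, ha, rfl⟩ ⟨b, hb, rfl⟩
        exact ⟨a * b, A.mul_mem ha hb, rfl⟩
      zero_mem' := ⟨1, A.one_mem, rfl⟩
      neg_mem' := by
        rintro _ ⟨a, ha, rfl⟩
        exact ⟨a⁻¹, A.inv_mem ha, rfl⟩ }
  refine ⟨W, ?_, ?_⟩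
  · rintro _ ⟨a, ha, rfl⟩
    have h1 := congrArg Ext.s (hA.2 a ha)
    rw [pow_two, mul_s, one_s, two_s, zero_add] at h1
    exact h1
  · have hinj : Function.Injective (fun a : A => ((⟨a.1.v, ⟨a.1, a.2, rfl⟩⟩ : W), a.1.s)) := by
      intro a b hab
      simp only [Prod.mk.injEq, Subtype.mk.injEq] at hab
      exact Subtype.ext (Ext.ext hab.1 hab.2)
    have h1 := Nat.card_le_card_of_injective _ hinj
    rwa [Nat.card_prod, Nat.card_eq_fintype_card (α := ZMod 2), ZMod.card] at h1

end Ext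

/-! ### Character sums -/

section count

open scoped Classical

/-- the nontrivial character of `ZMod 2` -/
def chi (t : ZMod 2) : ℤ := if t = 0 then 1 else -1

theorem chi_add : ∀ s t : ZMod 2, chi (s + t) = chi s * chi t := by decide
theorem chi_zero : chi 0 = 1 := rfl
theorem chi_le : ∀ t : ZMod 2, chi t ≤ 1 := by decide
theorem chi_ge : ∀ t : ZMod 2, 0 ≤ chi t + 1 := by decide
theorem chi_ne : ∀ t : ZMod 2, t ≠ 0 → chi t = -1 := by decide

theorem chi_sum {ι : Type} (s : Finset ι) (f : ι → ZMod 2) :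
    chi (∑ i ∈ s, f i) = ∏ i ∈ s, chi (f i) := by
  induction s using Finset.induction_on with
  | empty => simp [chi]
  | insert a s ha ih => rw [Finset.sum_insert ha, Finset.prod_insert ha, chi_add, ih]

theorem orth {X : Type} [AddCommGroup X] [Fintype X] (f : X → ZMod 2)
    (hf : ∀ x y, f (x + y) = f x + f y) [Decidable (∀ x, f x = 0)] :
    ∑ x, chi (f x) = if ∀ x, f x = 0 then (Fintype.card X : ℤ) else 0 := by
  split_ifs with h
  · simp [h, chi_zero]
  · push Not at h
    obtain ⟨x₀, hx₀⟩ := h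
    have h1 : chi (f x₀) = -1 := chi_ne _ hx₀
    have h2 : ∑ x, chi (f x) = ∑ x, chi (f (x + x₀)) :=
      (Equiv.sum_comp (Equiv.addRight x₀) (fun x => chi (f x))).symm
    have h3 : ∑ x, chi (f (x + x₀)) = - ∑ x, chi (f x) := by
      rw [← Finset.sum_neg_distrib]
      apply Finset.sum_congr rfl
      intro x _
      rw [hf, chi_add, h1]
      ring
    linarith

/-- the symmetrization of `β` -/
def om {V : Type} [AddCommGroup V] (β : V →+ V →+ ZMod 2) (v w : V) : ZMod 2 := β v w + β w v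

variable {V : Type} [AddCommGroup V] [Fintype V] (β : V →+ V →+ ZMod 2)

theorem card_perp (hnd : ∀ w, (∀ v, om β v w = 0) → w = 0) (W : AddSubgroup V) :
    (Fintype.card W : ℤ) * ∑ v : V, (if ∀ w : W, om β v w = 0 then (1 : ℤ) else 0) =
      Fintype.card V := by
  have h1 : ∀ v : V, ∑ w : W, chi (om β v w) =
      if ∀ w : W, om β v w = 0 then (Fintype.card W : ℤ) else 0 := fun v =>
    orth (fun w : W => om β v w) (by
      intro x y
      simp only [om, AddSubgroup.coe_add, map_add, AddMonoidHom.add_apply]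
      ring)
  have h2 : ∀ w : W, ∑ v : V, chi (om β v w) =
      if ∀ v : V, om β v w = 0 then (Fintype.card V : ℤ) else 0 := fun w =>
    orth (fun v : V => om β v w) (by
      intro x y
      simp only [om, map_add, AddMonoidHom.add_apply]
      ring)
  have h3 : ∑ w : W, (if ∀ v : V, om β v w = 0 then (Fintype.card V : ℤ) else 0) =
      Fintype.card V := by
    rw [Finset.sum_eq_single (0 : W)]
    · rw [if_pos]
      intro v
      simp [om]
    · intro w _ hw
      rw [if_neg]
      intro h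
      exact hw (Subtype.ext (hnd w h))
    · intro h
      exact absurd (Finset.mem_univ _) h
  calc (Fintype.card W : ℤ) * ∑ v : V, (if ∀ w : W, om β v w = 0 then (1 : ℤ) else 0)
      = ∑ v : V, (if ∀ w : W, om β v w = 0 then (Fintype.card W : ℤ) else 0) := by
        rw [Finset.mul_sum]
        apply Finset.sum_congr rfl
        intro v _
        split_ifs <;> ring
    _ = ∑ v : V, ∑ w : W, chi (om β v w) := by
        apply Finset.sum_congr rfl
        intro v _
        exact (h1 v).symm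
    _ = ∑ w : W, ∑ v : V, chi (om β v w) := Finset.sum_comm
    _ = ∑ w : W, (if ∀ v : V, om β v w = 0 then (Fintype.card V : ℤ) else 0) := by
        apply Finset.sum_congr rfl
        intro w _
        exact h2 w
    _ = Fintype.card V := h3

theorem gauss (W : AddSubgroup V) (hW : ∀ w ∈ W, β w w = 0) :
    (Fintype.card W : ℤ) * ∑ v : V, chi (β v v) =
      (Fintype.card W : ℤ) *
        ∑ v : V, (if ∀ w : W, om β v w = 0 then chi (β v v) else 0) := by
  have h1 : (Fintype.card W : ℤ) * ∑ v : V, chi (β v v) =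
      ∑ w : W, ∑ v : V, chi (β (v + w) (v + w)) := by
    rw [← Finset.card_univ (α := W), ← nsmul_eq_mul, ← Finset.sum_const]
    apply Finset.sum_congr rfl
    intro w _
    exact (Equiv.sum_comp (Equiv.addRight (w : V)) (fun v => chi (β v v))).symm
  rw [h1, Finset.sum_comm, Finset.mul_sum]
  apply Finset.sum_congr rfl
  intro v _
  have h2 : ∀ w : W, chi (β (v + w) (v + w)) = chi (β v v) * chi (om β v w) := by
    intro w
    rw [← chi_add]
    congr 1
    simp only [map_add, AddMonoidHom.add_apply, om, hW w w.2]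
    ring
  simp_rw [h2]
  rw [← Finset.mul_sum, orth (fun w : W => om β v w) (by
      intro x y
      simp only [om, AddSubgroup.coe_add, map_add, AddMonoidHom.add_apply]
      ring)]
  split_ifs <;> ring

theorem bound_pos (hnd : ∀ w, (∀ v, om β v w = 0) → w = 0) (W : AddSubgroup V)
    (hW : ∀ w ∈ W, β w w = 0) (N : ℤ) (hS : ∑ v : V, chi (β v v) = N) :
    (Fintype.card W : ℤ) * N ≤ Fintype.card V := by
  have hg := gauss β W hW
  have hc := card_perp β hnd W
  have hWpos : (0 : ℤ) < Fintype.card W := by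
    exact_mod_cast Fintype.card_pos
  have h3 : ∑ v : V, (if ∀ w : W, om β v w = 0 then chi (β v v) else 0) ≤
      ∑ v : V, (if ∀ w : W, om β v w = 0 then (1 : ℤ) else 0) := by
    apply Finset.sum_le_sum
    intro v _
    split_ifs
    · exact chi_le _
    · exact le_refl _
  rw [hS] at hg
  rw [hg, ← hc]
  exact mul_le_mul_of_nonneg_left h3 hWpos.le

theorem bound_neg (hnd : ∀ w, (∀ v, om β v w = 0) → w = 0) (W : AddSubgroup V)
    (hW : ∀ w ∈ W, β w w = 0) (N : ℤ) (hS : ∑ v : V, chi (β v v) = -N) :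
    (Fintype.card W : ℤ) * N < Fintype.card V := by
  have hg := gauss β W hW
  have hc := card_perp β hnd W
  have hWpos : (0 : ℤ) < Fintype.card W := by
    exact_mod_cast Fintype.card_pos
  have h0 : ∀ w : W, om β 0 w = 0 := by
    intro w
    simp [om]
  have h3 : (2 : ℤ) ≤ ∑ v : V, ((if ∀ w : W, om β v w = 0 then chi (β v v) else 0) +
      (if ∀ w : W, om β v w = 0 then (1 : ℤ) else 0)) := by
    have h4 : (2 : ℤ) = (if ∀ w : W, om β 0 w = 0 then chi (β 0 0) else 0) +
        (if ∀ w : W, om β 0 w = 0 then (1 : ℤ) else 0) := by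
      rw [if_pos h0, if_pos h0]
      simp [chi_zero]
    rw [h4]
    exact Finset.single_le_sum
      (f := fun v : V => (if ∀ w : W, om β v w = 0 then chi (β v v) else 0) +
        (if ∀ w : W, om β v w = 0 then (1 : ℤ) else 0))
      (fun v _ => by
        show 0 ≤ (if ∀ w : W, om β v w = 0 then chi (β v v) else 0) +
          (if ∀ w : W, om β v w = 0 then (1 : ℤ) else 0)
        split_ifs
        · exact chi_ge _
        · simp) (Finset.mem_univ 0)
  rw [Finset.sum_add_distrib] at h3
  rw [hS] at hg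
  have hc' : ∑ v : V, (if ∀ w : W, om β v w = 0 then chi (β v v) else 0) = -N :=
    (mul_left_cancel₀ hWpos.ne' hg).symm
  rw [hc'] at h3
  rw [← hc]
  apply mul_lt_mul_of_pos_left _ hWpos
  linarith

end count

/-! ### The concrete forms -/

/-- the underlying vector space -/
abbrev Vm (m : ℕ) : Type := Fin (m + 1) → ZMod 2 × ZMod 2

/-- the local form on a plane: hyperbolic for `e = 0`, anisotropic for `e = 1` -/
def b (e : ZMod 2) (k l : ZMod 2 × ZMod 2) : ZMod 2 := k.1 * l.2 + e * (k.1 * l.1 + k.2 * l.2)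

/-- the type of the `i`-th plane -/
def ee (m : ℕ) (e : ZMod 2) (i : Fin (m + 1)) : ZMod 2 := if i = 0 then e else 0

theorem ee_zero (m : ℕ) (e : ZMod 2) : ee m e 0 = e := by simp [ee]
theorem ee_succ (m : ℕ) (e : ZMod 2) (i : Fin m) : ee m e i.succ = 0 := by
  simp [ee, Fin.succ_ne_zero]
theorem ee_zero' (m : ℕ) (i : Fin (m + 1)) : ee m 0 i = 0 := by simp [ee]

/-- the cocycle -/
def form (m : ℕ) (e : ZMod 2) : Vm m →+ Vm m →+ ZMod 2 :=
  AddMonoidHom.mk' (fun v => AddMonoidHom.mk' (fun w => ∑ i, b (ee m e i) (v i) (w i))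
    (by
      intro w w'
      rw [← Finset.sum_add_distrib]
      apply Finset.sum_congr rfl
      intro i _
      simp only [b, Pi.add_apply, Prod.fst_add, Prod.snd_add]
      ring))
    (by
      intro v v'
      refine AddMonoidHom.ext (fun w => ?_)
      show ∑ i, b (ee m e i) ((v + v') i) (w i) =
        ∑ i, b (ee m e i) (v i) (w i) + ∑ i, b (ee m e i) (v' i) (w i)
      rw [← Finset.sum_add_distrib]
      apply Finset.sum_congr rfl
      intro i _
      simp only [b, Pi.add_apply, Prod.fst_add, Prod.snd_add]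
      ring)

theorem form_apply (m : ℕ) (e : ZMod 2) (v w : Vm m) :
    form m e v w = ∑ i, b (ee m e i) (v i) (w i) := rfl

theorem b_zero_right (t : ZMod 2) (k : ZMod 2 × ZMod 2) : b t k 0 = 0 := by simp [b]
theorem b_zero_left (t : ZMod 2) (k : ZMod 2 × ZMod 2) : b t 0 k = 0 := by simp [b]

theorem form_single (m : ℕ) (e : ZMod 2) (v : Vm m) (i : Fin (m + 1)) (x : ZMod 2 × ZMod 2) :
    form m e v (Pi.single i x) = b (ee m e i) (v i) x := by
  rw [form_apply, Finset.sum_eq_single i]
  · rw [Pi.single_eq_same]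
  · intro j _ hj
    rw [Pi.single_eq_of_ne hj, b_zero_right]
  · intro h
    exact absurd (Finset.mem_univ _) h

theorem form_single' (m : ℕ) (e : ZMod 2) (v : Vm m) (i : Fin (m + 1)) (x : ZMod 2 × ZMod 2) :
    form m e (Pi.single i x) v = b (ee m e i) x (v i) := by
  rw [form_apply, Finset.sum_eq_single i]
  · rw [Pi.single_eq_same]
  · intro j _ hj
    rw [Pi.single_eq_of_ne hj, b_zero_left]
  · intro h
    exact absurd (Finset.mem_univ _) h

theorem b_nd : ∀ (t : ZMod 2) (k : ZMod 2 × ZMod 2),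
    b t k (1, 0) = b t (1, 0) k → b t k (0, 1) = b t (0, 1) k → k = 0 := by decide

theorem form_nd (m : ℕ) (e : ZMod 2) (v : Vm m) (h : ∀ w, form m e v w = form m e w v) :
    v = 0 := by
  funext i
  have h1 := h (Pi.single i (1, 0))
  have h2 := h (Pi.single i (0, 1))
  rw [form_single, form_single'] at h1 h2
  exact b_nd _ _ h1 h2

theorem form_nd' (m : ℕ) (e : ZMod 2) (w : Vm m) (h : ∀ v, om (form m e) v w = 0) : w = 0 := by
  apply form_nd m e
  intro v
  exact (z2_add_eq _ _ (h v)).symm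

theorem vm_two (m : ℕ) (v : Vm m) : v + v = 0 := by
  funext i
  exact Prod.ext (two_s _) (two_s _)

theorem card_vm (m : ℕ) : Nat.card (Vm m) = 2 ^ (2 * (m + 1)) := by
  rw [Nat.card_eq_fintype_card, Fintype.card_fun, Fintype.card_prod, ZMod.card, Fintype.card_fin,
    pow_mul]
  norm_num

theorem gauss_form (m : ℕ) (e : ZMod 2) :
    ∑ v : Vm m, chi (form m e v v) = (∑ k : ZMod 2 × ZMod 2, chi (b e k k)) * 2 ^ m := by
  have h1 : ∀ v : Vm m, chi (form m e v v) = ∏ i, chi (b (ee m e i) (v i) (v i)) := fun v => by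
    rw [form_apply, chi_sum]
  simp_rw [h1]
  have h2 := Finset.prod_univ_sum (fun _ : Fin (m + 1) => (Finset.univ : Finset (ZMod 2 × ZMod 2)))
    (fun i k => chi (b (ee m e i) k k))
  rw [Fintype.piFinset_univ] at h2
  rw [← h2, Fin.prod_univ_succ, ee_zero]
  have h4 : ∀ i : Fin m, ∑ k : ZMod 2 × ZMod 2, chi (b (ee m e i.succ) k k) = 2 := by
    intro i
    rw [ee_succ]
    decide
  simp_rw [h4]
  rw [Finset.prod_const, Finset.card_univ, Fintype.card_fin]

theorem gauss_plus (m : ℕ) : ∑ v : Vm m, chi (form m 0 v v) = (2 ^ (m + 1) : ℤ) := by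
  rw [gauss_form]
  have h : ∑ k : ZMod 2 × ZMod 2, chi (b 0 k k) = 2 := by decide
  rw [h, pow_succ]
  ring

theorem gauss_minus (m : ℕ) : ∑ v : Vm m, chi (form m 1 v v) = -(2 ^ (m + 1) : ℤ) := by
  rw [gauss_form]
  have h : ∑ k : ZMod 2 × ZMod 2, chi (b 1 k k) = -2 := by decide
  rw [h, pow_succ]
  ring

/-- a maximal totally singular subspace -/
def W0 (m : ℕ) (e : ZMod 2) : AddSubgroup (Vm m) where
  carrier := {v | ∀ i, (v i).2 = 0 ∧ ee m e i * (v i).1 = 0}
  add_mem' := by
    intro v w hv hw i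
    refine ⟨?_, ?_⟩
    · simp [(hv i).1, (hw i).1]
    · simp [mul_add, (hv i).2, (hw i).2]
  zero_mem' := by
    intro i
    simp
  neg_mem' := by
    intro v hv i
    refine ⟨?_, ?_⟩
    · simp [(hv i).1]
    · simp [(hv i).2]

theorem W0_sing (m : ℕ) (e : ZMod 2) : ∀ v ∈ W0 m e, ∀ w ∈ W0 m e, form m e v w = 0 := by
  intro v hv w hw
  rw [form_apply]
  apply Finset.sum_eq_zero
  intro i _
  have h1 := (hv i).1
  have h2 := (hv i).2
  have h3 := (hw i).1
  simp only [b]
  rw [h3, h1]
  linear_combination (w i).1 * h2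

theorem card_W0_plus (m : ℕ) : Nat.card (W0 m 0) = 2 ^ (m + 1) := by
  have e : W0 m 0 ≃ (Fin (m + 1) → ZMod 2) :=
    { toFun := fun v i => (v.1 i).1
      invFun := fun f => ⟨fun i => (f i, 0), fun i => ⟨rfl, by rw [ee_zero', zero_mul]⟩⟩
      left_inv := fun v => by
        apply Subtype.ext
        funext i
        exact Prod.ext rfl (v.2 i).1.symm
      right_inv := fun f => rfl }
  rw [Nat.card_congr e, Nat.card_eq_fintype_card, Fintype.card_fun, ZMod.card, Fintype.card_fin]

theorem card_W0_minus (m : ℕ) : Nat.card (W0 m 1) = 2 ^ m := by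
  have e : W0 m 1 ≃ (Fin m → ZMod 2) :=
    { toFun := fun v i => (v.1 i.succ).1
      invFun := fun f => ⟨Fin.cons (0, 0) (fun i => (f i, 0)), fun i => by
        refine Fin.cases ?_ (fun j => ?_) i
        · simp
        · simp [ee_succ]⟩
      left_inv := fun v => by
        apply Subtype.ext
        funext i
        refine Fin.cases ?_ (fun j => ?_) i
        · have h1 := (v.2 0).1
          have h2 := (v.2 0).2
          rw [ee_zero, one_mul] at h2
          simp only [Fin.cons_zero]
          exact Prod.ext h2.symm h1.symm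
        · simp only [Fin.cons_succ]
          exact Prod.ext rfl (v.2 j.succ).1.symm
      right_inv := fun f => by
        funext i
        simp }
  rw [Nat.card_congr e, Nat.card_eq_fintype_card, Fintype.card_fun, ZMod.card, Fintype.card_fin]

theorem rank_bound_plus (m : ℕ) (A : Subgroup (Ext (form m 0))) (hA : IsElementaryAbelian 2 A)
    (k : ℕ) (hk : Nat.card A = 2 ^ k) : k ≤ m + 2 := by
  classical
  obtain ⟨W, hW, hcard⟩ := Ext.exists_W A hA
  have h1 := bound_pos (form m 0) (form_nd' m 0) W hW _ (gauss_plus m)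
  rw [← Nat.card_eq_fintype_card, ← Nat.card_eq_fintype_card, card_vm] at h1
  have h2 : Nat.card W * 2 ^ (m + 1) ≤ 2 ^ (2 * (m + 1)) := by exact_mod_cast h1
  have h3 : Nat.card W ≤ 2 ^ (m + 1) := by
    have h4 : (2 : ℕ) ^ (2 * (m + 1)) = 2 ^ (m + 1) * 2 ^ (m + 1) := by
      rw [← pow_add]
      congr 1
      ring
    rw [h4] at h2
    exact Nat.le_of_mul_le_mul_right h2 (by positivity)
  rw [hk] at hcard
  have h5 : 2 ^ k ≤ 2 ^ (m + 2) := by
    calc 2 ^ k ≤ Nat.card W * 2 := hcard
      _ ≤ 2 ^ (m + 1) * 2 := Nat.mul_le_mul_right 2 h3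
      _ = 2 ^ (m + 2) := by rw [← pow_succ]
  exact (Nat.pow_le_pow_iff_right (by norm_num)).mp h5

theorem rank_bound_minus (m : ℕ) (A : Subgroup (Ext (form m 1))) (hA : IsElementaryAbelian 2 A)
    (k : ℕ) (hk : Nat.card A = 2 ^ k) : k ≤ m + 1 := by
  classical
  obtain ⟨W, hW, hcard⟩ := Ext.exists_W A hA
  have h1 := bound_neg (form m 1) (form_nd' m 1) W hW _ (gauss_minus m)
  rw [← Nat.card_eq_fintype_card, ← Nat.card_eq_fintype_card, card_vm] at h1
  have h2 : Nat.card W * 2 ^ (m + 1) < 2 ^ (2 * (m + 1)) := by exact_mod_cast h1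
  have h3 : Nat.card W < 2 ^ (m + 1) := by
    have h4 : (2 : ℕ) ^ (2 * (m + 1)) = 2 ^ (m + 1) * 2 ^ (m + 1) := by
      rw [← pow_add]
      congr 1
      ring
    rw [h4] at h2
    exact Nat.lt_of_mul_lt_mul_right h2
  have h6 : Nat.card W ∣ 2 ^ (2 * (m + 1)) := by
    rw [← card_vm]
    exact AddSubgroup.card_addSubgroup_dvd_card W
  obtain ⟨j, -, hj⟩ := (Nat.dvd_prime_pow Nat.prime_two).mp h6
  rw [hj] at h3 hcard
  have hj' : j < m + 1 := (Nat.pow_lt_pow_iff_right (by norm_num)).mp h3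
  rw [hk, ← pow_succ] at hcard
  have h7 : k ≤ j + 1 := (Nat.pow_le_pow_iff_right (by norm_num)).mp hcard
  omega

/-- For every n ≥ 1 there exist finite extraspecial 2-groups of order 2^(2n+1) whose 2-rank (the largest rank of an elementary abelian subgroup) is n, and ones whose 2-rank is n + 1 (so for each such order there are two non-isomorphic extraspecial 2-groups, told apart by their 2-rank). -/
theorem result (n : ℕ) (hn : 1 ≤ n) : ∀ r ∈ ({n, n + 1} : Set ℕ), ∃ (E : Type) (_ : Group E) (_ : Finite E), Cfsg.IsExtraspecial 2 E ∧ Nat.card E = 2 ^ (2 * n + 1) ∧ sSup {k : ℕ | ∃ A : Subgroup E, Cfsg.IsElementaryAbelian 2 A ∧ Nat.card A = 2 ^ k} = r := by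
  obtain ⟨m, rfl⟩ : ∃ m, n = m + 1 := ⟨n - 1, by omega⟩
  intro r hr
  rcases hr with rfl | hr
  · refine ⟨Ext (form m 1), inferInstance, Finite.of_equiv _ (Ext.equivProd (β := form m 1)).symm,
      Ext.isExtraspecial (vm_two m) (form_nd m 1) _ (card_vm m), ?_, ?_⟩
    · rw [Ext.card_eq, card_vm, pow_succ]
    · apply IsGreatest.csSup_eq
      refine ⟨⟨Ext.lift (form m 1) (W0 m 1), Ext.lift_elem (vm_two m) _ (W0_sing m 1), ?_⟩, ?_⟩
      · rw [Ext.card_lift, card_W0_minus, pow_succ]
      · rintro k ⟨A, hA, hk⟩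
        exact rank_bound_minus m A hA k hk
  · rw [Set.mem_singleton_iff] at hr
    subst hr
    refine ⟨Ext (form m 0), inferInstance, Finite.of_equiv _ (Ext.equivProd (β := form m 0)).symm,
      Ext.isExtraspecial (vm_two m) (form_nd m 0) _ (card_vm m), ?_, ?_⟩
    · rw [Ext.card_eq, card_vm, pow_succ]
    · apply IsGreatest.csSup_eq
      refine ⟨⟨Ext.lift (form m 0) (W0 m 0), Ext.lift_elem (vm_two m) _ (W0_sing m 0), ?_⟩, ?_⟩
      · rw [Ext.card_lift, card_W0_plus, pow_succ, pow_succ, pow_succ]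
      · rintro k ⟨A, hA, hk⟩
        exact rank_bound_plus m A hA k hk

end Cfsg.Agent.S5396
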