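import Cfsg.Statements.S0298
import Mathlib
import Cfsg.Agent.Lib.Helper47.SLGen

set_option autoImplicit false
set_option linter.unusedSectionVars false
open Cfsg
open scoped commutatorElement

namespace Cfsg.Agent.S0298

open Matrix

/-- the index type of the three-dimensional space -/
abbrev I3 : Type := Unit ⊕ (Fin 1 ⊕ Fin 1)

section basics

variable {α : Type*}

/-- a vector with the three given coordinates -/
def vec3 (x y z : α) : I3 → α := Sum.elim (fun _ => x) (Sum.elim (fun _ => y) (fun _ => z))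

@[simp] theorem vec3_0 (x y z : α) (u : Unit) : vec3 x y z (.inl u) = x := rfl
@[simp] theorem vec3_1 (x y z : α) (i : Fin 1) : vec3 x y z (.inr (.inl i)) = y := rfl
@[simp] theorem vec3_2 (x y z : α) (i : Fin 1) : vec3 x y z (.inr (.inr i)) = z := rfl

theorem vec3_eta (v : I3 → α) : v = vec3 (v (.inl ())) (v (.inr (.inl 0))) (v (.inr (.inr 0))) := by
  funext i
  rcases i with ⟨⟩ | i | i
  · rfl
  · have : i = 0 := Subsingleton.elim _ _
    subst this; rfl
  · have : i = 0 := Subsingleton.elim _ _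
    subst this; rfl

theorem vec3_inj {x y z x' y' z' : α} (h : vec3 x y z = vec3 x' y' z') : x = x' ∧ y = y' ∧ z = z' :=
  ⟨congrFun h (.inl ()), congrFun h (.inr (.inl 0)), congrFun h (.inr (.inr 0))⟩

end basics

variable {F : Type*} [Field F]

theorem Q_vec3 (x y z : F) : quadFormOdd 1 F (vec3 x y z) = x ^ 2 + y * z := by
  simp [quadFormOdd]

/-- the matrix with the three given rows -/
def mat3 (a00 a01 a02 a10 a11 a12 a20 a21 a22 : F) : Matrix I3 I3 F :=
  Matrix.of (vec3 (vec3 a00 a01 a02) (vec3 a10 a11 a12) (vec3 a20 a21 a22))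

theorem mat3_eta (M : Matrix I3 I3 F) :
    M = mat3 (M (.inl ()) (.inl ())) (M (.inl ()) (.inr (.inl 0))) (M (.inl ()) (.inr (.inr 0)))
      (M (.inr (.inl 0)) (.inl ())) (M (.inr (.inl 0)) (.inr (.inl 0))) (M (.inr (.inl 0)) (.inr (.inr 0)))
      (M (.inr (.inr 0)) (.inl ())) (M (.inr (.inr 0)) (.inr (.inl 0))) (M (.inr (.inr 0)) (.inr (.inr 0))) := by
  funext i
  rcases i with ⟨⟩ | i | i
  · exact vec3_eta _
  · have : i = 0 := Subsingleton.elim _ _
    subst this; exact vec3_eta _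
  · have : i = 0 := Subsingleton.elim _ _
    subst this; exact vec3_eta _

theorem mat3_mulVec (a00 a01 a02 a10 a11 a12 a20 a21 a22 x y z : F) :
    mat3 a00 a01 a02 a10 a11 a12 a20 a21 a22 *ᵥ vec3 x y z =
      vec3 (a00 * x + a01 * y + a02 * z) (a10 * x + a11 * y + a12 * z) (a20 * x + a21 * y + a22 * z) := by
  funext i
  rcases i with ⟨⟩ | i | i <;>
    simp [mat3, Matrix.mulVec, dotProduct, Fintype.sum_sum_type, add_assoc]

theorem mat3_mul (a00 a01 a02 a10 a11 a12 a20 a21 a22 b00 b01 b02 b10 b11 b12 b20 b21 b22 : F) :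
    mat3 a00 a01 a02 a10 a11 a12 a20 a21 a22 * mat3 b00 b01 b02 b10 b11 b12 b20 b21 b22 =
      mat3 (a00 * b00 + a01 * b10 + a02 * b20) (a00 * b01 + a01 * b11 + a02 * b21) (a00 * b02 + a01 * b12 + a02 * b22)
        (a10 * b00 + a11 * b10 + a12 * b20) (a10 * b01 + a11 * b11 + a12 * b21) (a10 * b02 + a11 * b12 + a12 * b22)
        (a20 * b00 + a21 * b10 + a22 * b20) (a20 * b01 + a21 * b11 + a22 * b21) (a20 * b02 + a21 * b12 + a22 * b22) := by
  ext i j
  rcases i with ⟨⟩ | i | i <;> rcases j with ⟨⟩ | j | j <;>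
    simp [mat3, Matrix.mul_apply, Fintype.sum_sum_type, add_assoc]

theorem mat3_one : (1 : Matrix I3 I3 F) = mat3 1 0 0 0 1 0 0 0 1 := by
  ext i j
  rcases i with ⟨⟩ | i | i <;> rcases j with ⟨⟩ | j | j <;>
    simp [mat3, Matrix.one_apply] <;> exact Subsingleton.elim _ _

theorem mat3_smul (c a00 a01 a02 a10 a11 a12 a20 a21 a22 : F) :
    c • mat3 a00 a01 a02 a10 a11 a12 a20 a21 a22 =
      mat3 (c * a00) (c * a01) (c * a02) (c * a10) (c * a11) (c * a12) (c * a20) (c * a21) (c * a22) := by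
  ext i j
  rcases i with ⟨⟩ | i | i <;> rcases j with ⟨⟩ | j | j <;>
    simp [mat3]

theorem mat3_neg (a00 a01 a02 a10 a11 a12 a20 a21 a22 : F) :
    -mat3 a00 a01 a02 a10 a11 a12 a20 a21 a22 =
      mat3 (-a00) (-a01) (-a02) (-a10) (-a11) (-a12) (-a20) (-a21) (-a22) := by
  ext i j
  rcases i with ⟨⟩ | i | i <;> rcases j with ⟨⟩ | j | j <;>
    simp [mat3]

theorem mat3_inj {a00 a01 a02 a10 a11 a12 a20 a21 a22 b00 b01 b02 b10 b11 b12 b20 b21 b22 : F}
    (h : mat3 a00 a01 a02 a10 a11 a12 a20 a21 a22 = mat3 b00 b01 b02 b10 b11 b12 b20 b21 b22) :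
    (a00 = b00 ∧ a01 = b01 ∧ a02 = b02) ∧ (a10 = b10 ∧ a11 = b11 ∧ a12 = b12) ∧
      (a20 = b20 ∧ a21 = b21 ∧ a22 = b22) :=
  ⟨⟨congrFun (congrFun h (.inl ())) (.inl ()), congrFun (congrFun h (.inl ())) (.inr (.inl 0)),
      congrFun (congrFun h (.inl ())) (.inr (.inr 0))⟩,
    ⟨congrFun (congrFun h (.inr (.inl 0))) (.inl ()), congrFun (congrFun h (.inr (.inl 0))) (.inr (.inl 0)),
      congrFun (congrFun h (.inr (.inl 0))) (.inr (.inr 0))⟩,
    ⟨congrFun (congrFun h (.inr (.inr 0))) (.inl ()), congrFun (congrFun h (.inr (.inr 0))) (.inr (.inl 0)),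
      congrFun (congrFun h (.inr (.inr 0))) (.inr (.inr 0))⟩⟩

/-- the polynomial part of the adjoint action of a 2 x 2 matrix on trace zero matrices -/
def N3 (A : Matrix (Fin 2) (Fin 2) F) : Matrix I3 I3 F :=
  mat3 (A 0 0 * A 1 1 + A 0 1 * A 1 0) (-(A 0 0 * A 1 0)) (A 0 1 * A 1 1)
    (-(2 * (A 0 0 * A 0 1))) (A 0 0 ^ 2) (-(A 0 1 ^ 2))
    (2 * (A 1 0 * A 1 1)) (-(A 1 0 ^ 2)) (A 1 1 ^ 2)

theorem N3_mul (A B : Matrix (Fin 2) (Fin 2) F) : N3 (A * B) = N3 A * N3 B := by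
  unfold N3
  rw [mat3_mul]
  simp only [Matrix.mul_apply, Fin.sum_univ_two]
  congr 1 <;> ring

theorem N3_one : N3 (1 : Matrix (Fin 2) (Fin 2) F) = 1 := by
  unfold N3
  rw [mat3_one]
  simp

/-- the adjoint action as a monoid hom on all matrices (zero on singular ones) -/
noncomputable def M3 : Matrix (Fin 2) (Fin 2) F →* Matrix I3 I3 F where
  toFun A := (A.det)⁻¹ • N3 A
  map_one' := by simp [N3_one]
  map_mul' A B := by
    rw [N3_mul, Matrix.det_mul, mul_inv, Matrix.smul_mul, Matrix.mul_smul, smul_smul]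

theorem M3_apply (A : Matrix (Fin 2) (Fin 2) F) : M3 A = (A.det)⁻¹ • N3 A := rfl

theorem Q_N3 (A : Matrix (Fin 2) (Fin 2) F) (x y z : F) :
    quadFormOdd 1 F (N3 A *ᵥ vec3 x y z) = A.det ^ 2 * quadFormOdd 1 F (vec3 x y z) := by
  unfold N3
  rw [mat3_mulVec, Q_vec3, Q_vec3, Matrix.det_fin_two]
  ring

theorem Q_M3 (A : Matrix (Fin 2) (Fin 2) F) (hA : A.det ≠ 0) (v : I3 → F) :
    quadFormOdd 1 F (M3 A *ᵥ v) = quadFormOdd 1 F v := by
  rw [vec3_eta v, M3_apply]
  unfold N3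
  rw [mat3_smul, mat3_mulVec, Q_vec3, Q_vec3, Matrix.det_fin_two]
  rw [Matrix.det_fin_two] at hA
  field_simp
  ring

/-! ### the homs -/

local notation "OQ" => isometryGroup F (quadFormOdd 1 F)

theorem mem_iso (g : Matrix.GeneralLinearGroup I3 F) :
    g ∈ isometryGroup F (quadFormOdd 1 F) ↔
      ∀ u, quadFormOdd 1 F ((g : Matrix I3 I3 F) *ᵥ u) = quadFormOdd 1 F u :=
  ⟨fun h u => h u u, fun h u _ => h u⟩

/-- the underlying matrix of an isometry, as a monoid hom -/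
def toM : isometryGroup F (quadFormOdd 1 F) →* Matrix I3 I3 F :=
  (Units.coeHom (Matrix I3 I3 F)).comp (isometryGroup F (quadFormOdd 1 F)).subtype

theorem toM_injective : Function.Injective (toM (F := F)) := by
  intro a b h
  exact Subtype.ext (Units.ext h)

theorem Q_toM (T : isometryGroup F (quadFormOdd 1 F)) (u : I3 → F) :
    quadFormOdd 1 F (toM T *ᵥ u) = quadFormOdd 1 F u :=
  (mem_iso T.1).mp T.2 u

theorem toM_inv_mulVec (T : isometryGroup F (quadFormOdd 1 F)) (u : I3 → F) :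
    toM T⁻¹ *ᵥ (toM T *ᵥ u) = u := by
  rw [Matrix.mulVec_mulVec, ← map_mul, inv_mul_cancel, map_one, Matrix.one_mulVec]

theorem det_ne_zero_GL (g : Matrix.GeneralLinearGroup (Fin 2) F) :
    (g : Matrix (Fin 2) (Fin 2) F).det ≠ 0 :=
  ((Matrix.isUnit_iff_isUnit_det _).mp g.isUnit).ne_zero

/-- the adjoint hom `GL₂ → O(Q)` -/
noncomputable def rhoGL : Matrix.GeneralLinearGroup (Fin 2) F →* isometryGroup F (quadFormOdd 1 F) :=
  (Units.map (M3 (F := F))).codRestrict _ (fun g => by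
    rw [mem_iso]
    intro u
    exact Q_M3 _ (det_ne_zero_GL g) u)

theorem toM_rhoGL (g : Matrix.GeneralLinearGroup (Fin 2) F) :
    toM (rhoGL g) = M3 (g : Matrix (Fin 2) (Fin 2) F) := rfl

/-- the adjoint hom `SL₂ → O(Q)` -/
noncomputable def rho : Matrix.SpecialLinearGroup (Fin 2) F →* isometryGroup F (quadFormOdd 1 F) :=
  rhoGL.comp Matrix.SpecialLinearGroup.toGL

theorem toM_rho (s : Matrix.SpecialLinearGroup (Fin 2) F) :
    toM (rho s) = M3 (s : Matrix (Fin 2) (Fin 2) F) := rfl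

theorem rho_ker : (rho (F := F)).ker = Subgroup.center (Matrix.SpecialLinearGroup (Fin 2) F) := by
  ext s
  rw [MonoidHom.mem_ker, Matrix.SpecialLinearGroup.mem_center_iff]
  constructor
  · intro h
    have hM : M3 (s : Matrix (Fin 2) (Fin 2) F) = 1 := by
      rw [← toM_rho, h, map_one]
    rw [M3_apply, s.2, inv_one, one_smul, mat3_one] at hM
    unfold N3 at hM
    obtain ⟨⟨h00, h01, h02⟩, ⟨h10, h11, h12⟩, ⟨h20, h21, h22⟩⟩ := mat3_inj hM
    have hb : s 0 1 = 0 := by simpa using h12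
    have hc : s 1 0 = 0 := by simpa using h21
    have had : s 0 0 * s 1 1 = 1 := by rw [hb] at h00; simpa using h00
    have hd : s 1 1 = s 0 0 := by
      have ha0 : s 0 0 ≠ 0 := by intro h0; rw [h0] at had; simp at had
      apply mul_left_cancel₀ ha0
      rw [had, ← sq, h11]
    refine ⟨s 0 0, by simpa using h11, ?_⟩
    ext i j
    fin_cases i <;> fin_cases j <;> simp [Matrix.scalar_apply, hb, hc, hd]
  · rintro ⟨r, hr, hs⟩
    have hr2 : r ^ 2 = 1 := by simpa using hr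
    apply toM_injective
    rw [toM_rho, map_one, ← hs, M3_apply, mat3_one]
    unfold N3
    rw [mat3_smul]
    simp [Matrix.det_fin_two, ← sq, hr2]

/-! ### surjectivity up to sign -/

theorem stab_e1_e2 (T : Matrix I3 I3 F)
    (hT : ∀ u, quadFormOdd 1 F (T *ᵥ u) = quadFormOdd 1 F u)
    (h1 : T *ᵥ vec3 0 1 0 = vec3 0 1 0) (h2 : T *ᵥ vec3 0 0 1 = vec3 0 0 1) :
    T = 1 ∨ T = mat3 (-1) 0 0 0 1 0 0 0 1 := by
  obtain ⟨a00, a01, a02, a10, a11, a12, a20, a21, a22, rfl⟩ :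
      ∃ a00 a01 a02 a10 a11 a12 a20 a21 a22 : F, T = mat3 a00 a01 a02 a10 a11 a12 a20 a21 a22 :=
    ⟨_, _, _, _, _, _, _, _, _, mat3_eta T⟩
  rw [mat3_mulVec] at h1 h2
  obtain ⟨e01, e11, e21⟩ := vec3_inj h1
  obtain ⟨e02, e12, e22⟩ := vec3_inj h2
  simp only [mul_zero, mul_one, zero_add, add_zero] at e01 e11 e21 e02 e12 e22
  subst e01 e11 e21 e02 e12 e22
  have q0 := hT (vec3 1 0 0)
  have q1 := hT (vec3 1 1 0)
  have q2 := hT (vec3 1 0 1)
  rw [mat3_mulVec, Q_vec3, Q_vec3] at q0 q1 q2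
  simp only [mul_zero, mul_one, zero_add, add_zero, one_pow, zero_mul] at q0 q1 q2
  have h20 : a20 = 0 := by linear_combination q1 - q0
  have h10 : a10 = 0 := by linear_combination q2 - q0
  subst h20 h10
  have hsq : a00 ^ 2 = 1 := by linear_combination q0
  rcases sq_eq_one_iff.mp hsq with h | h
  · left; rw [h, mat3_one]
  · right; rw [h]

theorem exists_move_e1 (u0 u1 u2 : F) (hQ : u0 ^ 2 + u1 * u2 = 0)
    (hne : ¬ (u0 = 0 ∧ u1 = 0 ∧ u2 = 0)) :
    ∃ A : Matrix (Fin 2) (Fin 2) F, A.det ≠ 0 ∧ M3 A *ᵥ vec3 0 1 0 = vec3 u0 u1 u2 := by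
  by_cases h2 : u2 = 0
  · subst h2
    have h0 : u0 = 0 := by simpa using hQ
    subst h0
    have h1 : u1 ≠ 0 := by intro h; exact hne ⟨rfl, h, rfl⟩
    refine ⟨!![u1, 0; 0, 1], by simp [Matrix.det_fin_two, h1], ?_⟩
    rw [M3_apply]; unfold N3; rw [mat3_smul, mat3_mulVec]
    have hdet : (!![u1, 0; 0, 1] : Matrix (Fin 2) (Fin 2) F).det = u1 := by
      simp [Matrix.det_fin_two]
    rw [hdet]
    simp only [Matrix.of_apply, Matrix.cons_val', Matrix.cons_val_zero,
      Matrix.cons_val_one, Matrix.empty_val', Matrix.cons_val_fin_one]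
    congr 1
    · ring
    · field_simp; ring
    · ring
  · refine ⟨!![u0, 1; u2, 0], by simp [Matrix.det_fin_two, h2], ?_⟩
    rw [M3_apply]; unfold N3; rw [mat3_smul, mat3_mulVec]
    have hdet : (!![u0, 1; u2, 0] : Matrix (Fin 2) (Fin 2) F).det = -u2 := by
      simp [Matrix.det_fin_two]
    rw [hdet]
    simp only [Matrix.of_apply, Matrix.cons_val', Matrix.cons_val_zero,
      Matrix.cons_val_one, Matrix.empty_val', Matrix.cons_val_fin_one]
    have hd : -u2 ≠ 0 := neg_ne_zero.mpr h2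
    congr 1
    · field_simp; ring
    · field_simp; linear_combination (-1 : F) * hQ
    · field_simp; ring

theorem move_e2 (x : F) :
    M3 !![1, x; 0, 1] *ᵥ vec3 0 1 0 = vec3 0 1 0 ∧
      M3 !![1, x; 0, 1] *ᵥ vec3 0 0 1 = vec3 x (-x ^ 2) 1 := by
  constructor <;>
  · rw [M3_apply]; unfold N3; rw [mat3_smul, mat3_mulVec]
    simp only [Matrix.det_fin_two, Matrix.of_apply, Matrix.cons_val', Matrix.cons_val_zero,
      Matrix.cons_val_one, Matrix.empty_val', Matrix.cons_val_fin_one]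
    congr 1 <;> simp

theorem M3_inv_mul (A : Matrix (Fin 2) (Fin 2) F) (hA : A.det ≠ 0) : M3 A⁻¹ * M3 A = 1 := by
  rw [← map_mul, Matrix.nonsing_inv_mul _ (isUnit_iff_ne_zero.mpr hA), map_one]

theorem M3_mul_inv (A : Matrix (Fin 2) (Fin 2) F) (hA : A.det ≠ 0) : M3 A * M3 A⁻¹ = 1 := by
  rw [← map_mul, Matrix.mul_nonsing_inv _ (isUnit_iff_ne_zero.mpr hA), map_one]

theorem det_inv_ne_zero (A : Matrix (Fin 2) (Fin 2) F) (hA : A.det ≠ 0) : A⁻¹.det ≠ 0 := by
  rw [Matrix.det_nonsing_inv]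
  simpa using hA

/-- every isometry is, up to sign, in the image of the adjoint action -/
theorem exists_rep_matrix (T T' : Matrix I3 I3 F) (hT' : T' * T = 1)
    (hT : ∀ u, quadFormOdd 1 F (T *ᵥ u) = quadFormOdd 1 F u) :
    ∃ A : Matrix (Fin 2) (Fin 2) F, A.det ≠ 0 ∧ (T = M3 A ∨ T = -M3 A) := by
  -- first step: move `T e₁` back to `e₁`
  obtain ⟨u0, u1, u2, hu⟩ : ∃ u0 u1 u2 : F, T *ᵥ vec3 0 1 0 = vec3 u0 u1 u2 :=
    ⟨_, _, _, vec3_eta _⟩
  have hQu : u0 ^ 2 + u1 * u2 = 0 := by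
    have := hT (vec3 0 1 0)
    rw [hu, Q_vec3, Q_vec3] at this
    simpa using this
  have hune : ¬ (u0 = 0 ∧ u1 = 0 ∧ u2 = 0) := by
    rintro ⟨rfl, rfl, rfl⟩
    have h := congrArg (fun v => T' *ᵥ v) hu
    simp only [Matrix.mulVec_mulVec, hT', Matrix.one_mulVec] at h
    have h' := congrFun h (.inr (.inl 0))
    have hz : T' *ᵥ vec3 (0 : F) 0 0 = 0 := by
      have : vec3 (0 : F) 0 0 = 0 := by
        funext i; rcases i with ⟨⟩ | i | i <;> rfl
      rw [this, Matrix.mulVec_zero]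
    rw [hz] at h'
    simp at h'
  obtain ⟨A₁, hA₁, hA₁u⟩ := exists_move_e1 u0 u1 u2 hQu hune
  -- `T₁ = M3 A₁⁻¹ * T` fixes `e₁`
  have hT₁e : (M3 A₁⁻¹ * T) *ᵥ vec3 0 1 0 = vec3 0 1 0 := by
    rw [← Matrix.mulVec_mulVec, hu, ← hA₁u, Matrix.mulVec_mulVec, M3_inv_mul A₁ hA₁,
      Matrix.one_mulVec]
  have hT₁ : ∀ u, quadFormOdd 1 F ((M3 A₁⁻¹ * T) *ᵥ u) = quadFormOdd 1 F u := by
    intro u
    rw [← Matrix.mulVec_mulVec, Q_M3 _ (det_inv_ne_zero A₁ hA₁), hT]
  obtain ⟨w0, w1, w2, hw⟩ : ∃ w0 w1 w2 : F, (M3 A₁⁻¹ * T) *ᵥ vec3 0 0 1 = vec3 w0 w1 w2 :=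
    ⟨_, _, _, vec3_eta _⟩
  have hQw : w0 ^ 2 + w1 * w2 = 0 := by
    have := hT₁ (vec3 0 0 1)
    rw [hw, Q_vec3, Q_vec3] at this
    simpa using this
  have hw2 : w2 = 1 := by
    have h := hT₁ (vec3 0 1 0 + vec3 0 0 1)
    rw [Matrix.mulVec_add, hT₁e, hw] at h
    have e1 : vec3 (0 : F) 1 0 + vec3 w0 w1 w2 = vec3 w0 (1 + w1) w2 := by
      funext i; rcases i with ⟨⟩ | i | i <;> simp
    have e2 : vec3 (0 : F) 1 0 + vec3 0 0 1 = vec3 0 1 1 := by
      funext i; rcases i with ⟨⟩ | i | i <;> simp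
    rw [e1, e2, Q_vec3, Q_vec3] at h
    linear_combination h - hQw
  subst hw2
  have hw1 : w1 = -w0 ^ 2 := by linear_combination hQw
  subst hw1
  obtain ⟨hm1, hm2⟩ := move_e2 w0
  have hA₂ : (!![1, w0; 0, 1] : Matrix (Fin 2) (Fin 2) F).det ≠ 0 := by
    simp [Matrix.det_fin_two]
  -- `T₂ = M3 A₂⁻¹ * (M3 A₁⁻¹ * T)` fixes `e₁` and `e₂`
  have hT₂e1 : (M3 (!![1, w0; 0, 1] : Matrix (Fin 2) (Fin 2) F)⁻¹ * (M3 A₁⁻¹ * T)) *ᵥ vec3 0 1 0
      = vec3 0 1 0 := by
    rw [← Matrix.mulVec_mulVec, hT₁e]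
    nth_rewrite 1 [← hm1]
    rw [Matrix.mulVec_mulVec, M3_inv_mul _ hA₂, Matrix.one_mulVec]
  have hT₂e2 : (M3 (!![1, w0; 0, 1] : Matrix (Fin 2) (Fin 2) F)⁻¹ * (M3 A₁⁻¹ * T)) *ᵥ vec3 0 0 1
      = vec3 0 0 1 := by
    rw [← Matrix.mulVec_mulVec, hw, ← hm2, Matrix.mulVec_mulVec, M3_inv_mul _ hA₂,
      Matrix.one_mulVec]
  have hT₂ : ∀ u, quadFormOdd 1 F
      ((M3 (!![1, w0; 0, 1] : Matrix (Fin 2) (Fin 2) F)⁻¹ * (M3 A₁⁻¹ * T)) *ᵥ u)
      = quadFormOdd 1 F u := by
    intro u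
    rw [← Matrix.mulVec_mulVec, Q_M3 _ (det_inv_ne_zero _ hA₂), hT₁]
  have hTeq : T = M3 (A₁ * !![1, w0; 0, 1]) *
      (M3 (!![1, w0; 0, 1] : Matrix (Fin 2) (Fin 2) F)⁻¹ * (M3 A₁⁻¹ * T)) := by
    rw [map_mul, Matrix.mul_assoc, ← Matrix.mul_assoc (M3 !![1, w0; 0, 1]), M3_mul_inv _ hA₂,
      Matrix.one_mul, ← Matrix.mul_assoc, M3_mul_inv _ hA₁, Matrix.one_mul]
  have hdet12 : (A₁ * !![1, w0; 0, 1]).det ≠ 0 := by
    rw [Matrix.det_mul]; exact mul_ne_zero hA₁ hA₂
  rcases stab_e1_e2 _ hT₂ hT₂e1 hT₂e2 with h | h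
  · refine ⟨A₁ * !![1, w0; 0, 1], hdet12, Or.inl ?_⟩
    rw [h, Matrix.mul_one] at hTeq
    exact hTeq
  · have hδ : (!![1, 0; 0, -1] : Matrix (Fin 2) (Fin 2) F).det = -1 := by
      simp [Matrix.det_fin_two]
    have hMδ : mat3 (-1 : F) 0 0 0 1 0 0 0 1 = -M3 (!![1, 0; 0, -1] : Matrix (Fin 2) (Fin 2) F) := by
      rw [M3_apply, hδ]; unfold N3; rw [mat3_smul, mat3_neg]
      simp only [Matrix.of_apply, Matrix.cons_val', Matrix.cons_val_zero,
        Matrix.cons_val_one, Matrix.empty_val', Matrix.cons_val_fin_one]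
      congr 1 <;> simp [inv_neg_one]
    refine ⟨A₁ * !![1, w0; 0, 1] * !![1, 0; 0, -1], ?_, Or.inr ?_⟩
    · rw [Matrix.det_mul, hδ]; exact mul_ne_zero hdet12 (by simp)
    · rw [h, hMδ, Matrix.mul_neg, ← map_mul] at hTeq
      exact hTeq

/-! ### group-level statements -/

theorem neg_vec3 (x y z : F) : -vec3 x y z = vec3 (-x) (-y) (-z) := by
  funext i; rcases i with ⟨⟩ | i | i <;> simp

/-- minus the identity, as an isometry -/
def negOne : isometryGroup F (quadFormOdd 1 F) :=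
  ⟨-1, by
    rw [mem_iso]
    intro u
    rw [Units.val_neg, Units.val_one, Matrix.neg_mulVec, Matrix.one_mulVec, vec3_eta u, neg_vec3,
      Q_vec3, Q_vec3]
    ring⟩

theorem toM_negOne : toM (negOne (F := F)) = -1 := rfl

theorem negOne_mem_center : negOne (F := F) ∈ Subgroup.center (isometryGroup F (quadFormOdd 1 F)) := by
  rw [Subgroup.mem_center_iff]
  intro T
  apply toM_injective
  rw [map_mul, map_mul, toM_negOne, mul_neg, neg_mul, mul_one, one_mul]

theorem exists_rep (T : isometryGroup F (quadFormOdd 1 F)) :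
    ∃ z ∈ Subgroup.center (isometryGroup F (quadFormOdd 1 F)),
      ∃ g : Matrix.GeneralLinearGroup (Fin 2) F, T = z * rhoGL g := by
  obtain ⟨A, hA, h⟩ := exists_rep_matrix (toM T) (toM T⁻¹)
    (by rw [← map_mul, inv_mul_cancel, map_one]) (Q_toM T)
  rcases h with h | h
  · refine ⟨1, Subgroup.one_mem _, Matrix.GeneralLinearGroup.mkOfDetNeZero A hA, ?_⟩
    apply toM_injective
    rw [one_mul, toM_rhoGL]
    exact h
  · refine ⟨negOne, negOne_mem_center, Matrix.GeneralLinearGroup.mkOfDetNeZero A hA, ?_⟩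
    apply toM_injective
    rw [map_mul, toM_rhoGL, toM_negOne, neg_mul, one_mul]
    exact h

theorem comm_center_left {G : Type*} [Group G] {z x w : G} (hz : z ∈ Subgroup.center G) :
    ⁅z * x, w⁆ = ⁅x, w⁆ := by
  have c1 : ∀ g, g * z = z * g := Subgroup.mem_center_iff.mp hz
  rw [commutatorElement_def, commutatorElement_def]
  calc z * x * w * (z * x)⁻¹ * w⁻¹ = z * (x * w * x⁻¹) * z⁻¹ * w⁻¹ := by group
    _ = (x * w * x⁻¹) * z * z⁻¹ * w⁻¹ := by rw [c1]
    _ = x * w * x⁻¹ * w⁻¹ := by group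

theorem comm_center_mul {G : Type*} [Group G] {z₁ z₂ x y : G} (h₁ : z₁ ∈ Subgroup.center G)
    (h₂ : z₂ ∈ Subgroup.center G) : ⁅z₁ * x, z₂ * y⁆ = ⁅x, y⁆ := by
  rw [comm_center_left h₁, ← commutatorElement_inv, comm_center_left h₂, commutatorElement_inv]

theorem commutator_le_range :
    commutator (isometryGroup F (quadFormOdd 1 F)) ≤ (rho (F := F)).range := by
  rw [commutator_def, Subgroup.commutator_le]
  intro T₁ _ T₂ _
  obtain ⟨z₁, hz₁, g₁, rfl⟩ := exists_rep T₁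
  obtain ⟨z₂, hz₂, g₂, rfl⟩ := exists_rep T₂
  rw [comm_center_mul hz₁ hz₂, ← map_commutatorElement]
  have hdet : (⁅g₁, g₂⁆ : Matrix.GeneralLinearGroup (Fin 2) F).1.det = 1 := by
    have h1 : Matrix.GeneralLinearGroup.det ⁅g₁, g₂⁆ = 1 := by
      rw [map_commutatorElement]
      exact commutatorElement_eq_one_iff_commute.mpr (Commute.all _ _)
    have h3 : ((Matrix.GeneralLinearGroup.det ⁅g₁, g₂⁆ : Fˣ) : F) = 1 := by rw [h1]; rfl
    rwa [Matrix.GeneralLinearGroup.val_det_apply] at h3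
  exact ⟨⟨_, hdet⟩, toM_injective rfl⟩

theorem comm_of_mul_eq {G : Type*} [Group G] {X Y Z : G} (h : X * Y = Z * Y * X) : ⁅X, Y⁆ = Z := by
  rw [commutatorElement_def, h]; group

theorem rho_transvection_mem (h2 : (2 : F) ≠ 0) (i j : Fin 2) (hij : i ≠ j) (c : F) :
    rho (Matrix.SpecialLinearGroup.transvection hij c) ∈
      commutator (isometryGroup F (quadFormOdd 1 F)) := by
  have hD : (!![-1, 0; 0, 1] : Matrix (Fin 2) (Fin 2) F).det ≠ 0 := by simp [Matrix.det_fin_two]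
  have key : rhoGL (Matrix.GeneralLinearGroup.mkOfDetNeZero _ hD) *
      rho (Matrix.SpecialLinearGroup.transvection hij (-c / 2)) =
      rho (Matrix.SpecialLinearGroup.transvection hij c) *
        rho (Matrix.SpecialLinearGroup.transvection hij (-c / 2)) *
        rhoGL (Matrix.GeneralLinearGroup.mkOfDetNeZero _ hD) := by
    apply toM_injective
    simp only [map_mul, toM_rhoGL, toM_rho]
    rw [← map_mul, ← map_mul, ← map_mul]
    congr 1
    simp only [Matrix.SpecialLinearGroup.transvection_coe]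
    show (!![-1, 0; 0, 1] : Matrix (Fin 2) (Fin 2) F) * _ = _ * _ * (!![-1, 0; 0, 1] : Matrix (Fin 2) (Fin 2) F)
    fin_cases i <;> fin_cases j
    · exact absurd rfl hij
    · ext a b
      fin_cases a <;> fin_cases b <;>
        simp [Matrix.mul_apply, Fin.sum_univ_two, Matrix.single_apply] <;> field_simp <;> ring
    · ext a b
      fin_cases a <;> fin_cases b <;>
        simp [Matrix.mul_apply, Fin.sum_univ_two, Matrix.single_apply] <;> field_simp <;> ring
    · exact absurd rfl hij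
  rw [← comm_of_mul_eq key, commutator_def]
  exact Subgroup.commutator_mem_commutator (Subgroup.mem_top _) (Subgroup.mem_top _)

theorem range_rho (h2 : (2 : F) ≠ 0) :
    (rho (F := F)).range = commutator (isometryGroup F (quadFormOdd 1 F)) := by
  apply le_antisymm
  · have key : (commutator (isometryGroup F (quadFormOdd 1 F))).comap rho = ⊤ :=
      Cfsg.Agent.Lib.Helper47.eq_top_of_transvection_mem _
        (fun i j hij c => rho_transvection_mem h2 i j hij c)
    rintro _ ⟨s, rfl⟩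
    have : s ∈ (commutator (isometryGroup F (quadFormOdd 1 F))).comap rho := by rw [key]; trivial
    exact this
  · exact commutator_le_range

/-! ### the centre of `PSL₂` and the assembly -/

theorem sl2_mem_center_of_comm (g : Matrix.SpecialLinearGroup (Fin 2) F)
    (h : ∀ h : Matrix.SpecialLinearGroup (Fin 2) F, ∃ r : F, g.1 * h.1 = r • (h.1 * g.1)) :
    g ∈ Subgroup.center (Matrix.SpecialLinearGroup (Fin 2) F) := by
  have hdet : g.1 0 0 * g.1 1 1 - g.1 0 1 * g.1 1 0 = 1 := by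
    have := g.2
    rwa [Matrix.det_fin_two] at this
  obtain ⟨r, hr⟩ := h (Matrix.SpecialLinearGroup.transvection (show (0 : Fin 2) ≠ 1 by decide) 1)
  obtain ⟨r', hr'⟩ := h (Matrix.SpecialLinearGroup.transvection (show (1 : Fin 2) ≠ 0 by decide) 1)
  rw [Matrix.SpecialLinearGroup.transvection_coe] at hr hr'
  have e00 := congrFun (congrFun hr 0) 0
  have e01 := congrFun (congrFun hr 0) 1
  have e10 := congrFun (congrFun hr 1) 0
  have f01 := congrFun (congrFun hr' 0) 1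
  have f11 := congrFun (congrFun hr' 1) 1
  simp [Matrix.mul_apply, Fin.sum_univ_two, Matrix.single_apply, Matrix.add_apply] at e00 e01 e10 f01 f11
  -- `r = 1`
  have hr1 : r = 1 := by
    by_contra hne
    have hc : g.1 1 0 = 0 := by
      have : (1 - r) * g.1 1 0 = 0 := by linear_combination e10
      rcases mul_eq_zero.mp this with h | h
      · exact absurd (by linear_combination -h) hne
      · exact h
    have ha : g.1 0 0 = 0 := by
      have : (1 - r) * g.1 0 0 = 0 := by rw [hc] at e00; linear_combination e00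
      rcases mul_eq_zero.mp this with h | h
      · exact absurd (by linear_combination -h) hne
      · exact h
    rw [ha, hc] at hdet
    simp at hdet
  have hr1' : r' = 1 := by
    by_contra hne
    have hb : g.1 0 1 = 0 := by
      have : (1 - r') * g.1 0 1 = 0 := by linear_combination f01
      rcases mul_eq_zero.mp this with h | h
      · exact absurd (by linear_combination -h) hne
      · exact h
    have hd : g.1 1 1 = 0 := by
      have : (1 - r') * g.1 1 1 = 0 := by rw [hb] at f11; linear_combination f11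
      rcases mul_eq_zero.mp this with h | h
      · exact absurd (by linear_combination -h) hne
      · exact h
    rw [hb, hd] at hdet
    simp at hdet
  subst hr1 hr1'
  have hc : g.1 1 0 = 0 := by linear_combination -e00
  have had : g.1 1 1 = g.1 0 0 := by linear_combination -e01
  have hb : g.1 0 1 = 0 := by linear_combination -f11
  rw [Matrix.SpecialLinearGroup.mem_center_iff]
  refine ⟨g.1 0 0, ?_, ?_⟩
  · rw [hb, had] at hdet
    simp only [Fintype.card_fin]
    linear_combination hdet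
  · ext i j
    fin_cases i <;> fin_cases j <;> simp [Matrix.scalar_apply, hb, hc, had]

theorem psl2_center_trivial
    (x : Matrix.SpecialLinearGroup (Fin 2) F ⧸ Subgroup.center (Matrix.SpecialLinearGroup (Fin 2) F))
    (hx : x ∈ Subgroup.center
      (Matrix.SpecialLinearGroup (Fin 2) F ⧸ Subgroup.center (Matrix.SpecialLinearGroup (Fin 2) F))) :
    x = 1 := by
  obtain ⟨g, rfl⟩ := QuotientGroup.mk_surjective x
  rw [QuotientGroup.eq_one_iff]
  rw [Subgroup.mem_center_iff] at hx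
  apply sl2_mem_center_of_comm
  intro h
  have h1 := hx (QuotientGroup.mk h)
  rw [← QuotientGroup.mk_mul, ← QuotientGroup.mk_mul, QuotientGroup.eq,
    Matrix.SpecialLinearGroup.mem_center_iff] at h1
  obtain ⟨r, -, hr⟩ := h1
  refine ⟨r, ?_⟩
  have h2 : (g * h : Matrix.SpecialLinearGroup (Fin 2) F) = (h * g) * ((h * g)⁻¹ * (g * h)) := by
    group
  have h3 := congrArg Subtype.val h2
  rw [Matrix.SpecialLinearGroup.coe_mul, Matrix.SpecialLinearGroup.coe_mul (h * g), ← hr,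
    Matrix.SpecialLinearGroup.coe_mul] at h3
  rw [h3]
  ext i j
  simp [Matrix.mul_apply, Matrix.scalar_apply, Matrix.diagonal_apply, mul_comm]

theorem assemble {A B : Type*} [Group A] [Group B] (f : A →* B) (Ω : Subgroup B)
    (hrange : f.range = Ω) (hker : f.ker = Subgroup.center A)
    (hc : ∀ x : A ⧸ Subgroup.center A, x ∈ Subgroup.center (A ⧸ Subgroup.center A) → x = 1) :
    Nonempty (Ω ⧸ Subgroup.center Ω ≃* A ⧸ Subgroup.center A) := by
  subst hrange
  let e : f.range ≃* A ⧸ Subgroup.center A :=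
    (QuotientGroup.quotientKerEquivRange f).symm.trans (QuotientGroup.quotientMulEquivOfEq hker)
  have hbot : Subgroup.center f.range = ⊥ := by
    rw [eq_bot_iff]
    intro y hy
    rw [Subgroup.mem_bot]
    apply e.injective
    rw [map_one]
    apply hc
    rw [Subgroup.mem_center_iff] at hy ⊢
    intro z
    obtain ⟨w, rfl⟩ := e.surjective z
    rw [← map_mul, ← map_mul, hy w]
  exact ⟨((QuotientGroup.quotientMulEquivOfEq hbot).trans QuotientGroup.quotientBot).trans e⟩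

/-- PΩ_3(q) is isomorphic to PSL_2(q) for q odd. -/
theorem result {F : Type*} [Field F] [Fintype F] (hodd : Odd (Fintype.card F)) : Nonempty (Cfsg.POmega F (Cfsg.quadFormOdd 1 F) ≃* Matrix.ProjectiveSpecialLinearGroup (Fin 2) F) := by
  have h2 : (2 : F) ≠ 0 := by
    intro h
    have hchar : ringChar F = 2 := by
      have hdvd : ringChar F ∣ 2 := (ringChar.spec F 2).mp (by exact_mod_cast h)
      rcases (Nat.dvd_prime Nat.prime_two).mp hdvd with h1 | h1
      · exact absurd h1 (CharP.ringChar_ne_one)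
      · exact h1
    have heven := FiniteField.even_card_iff_char_two.mp hchar
    have hodd' := Nat.odd_iff.mp hodd
    omega
  exact assemble rho _ (range_rho h2) rho_ker psl2_center_trivial

end Cfsg.Agent.S0298
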