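import Cfsg.Statements.S0299
import Mathlib
import Cfsg.Agent.Lib.Helper47.SLGen
import Cfsg.Agent.Lib.Helper99.IsoModel
import Cfsg.Agent.S0298

set_option autoImplicit false
set_option linter.unusedSectionVars false
open Cfsg
open scoped commutatorElement

namespace Cfsg.Agent.S0299

open Matrix Cfsg.Agent.Lib.Helper99

variable {F : Type*} [Field F]

/-- coordinates: a vector of `F⁴` as a 2 x 2 matrix, the quadratic form becoming the determinant -/
def psi : ((Fin 2 ⊕ Fin 2) → F) ≃ₗ[F] Matrix (Fin 2) (Fin 2) F where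
  toFun v := !![v (.inl 0), v (.inl 1); -v (.inr 1), v (.inr 0)]
  invFun X := Sum.elim ![X 0 0, X 0 1] ![X 1 1, -X 1 0]
  map_add' u v := by
    ext i j
    fin_cases i <;> fin_cases j <;> simp <;> ring
  map_smul' c v := by
    ext i j
    fin_cases i <;> fin_cases j <;> simp
  left_inv v := by
    funext i
    rcases i with i | i <;> fin_cases i <;> simp
  right_inv X := by
    ext i j
    fin_cases i <;> fin_cases j <;> simp

theorem det_psi (v : (Fin 2 ⊕ Fin 2) → F) : (psi v).det = quadFormPlus 2 F v := by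
  simp [psi, quadFormPlus, Matrix.det_fin_two, Fin.sum_univ_two]

/-- `X ↦ A * X * C` -/
def lr (A C : Matrix (Fin 2) (Fin 2) F) : Module.End F (Matrix (Fin 2) (Fin 2) F) :=
  LinearMap.mulLeft F A ∘ₗ LinearMap.mulRight F C

theorem lr_apply (A C X : Matrix (Fin 2) (Fin 2) F) : lr A C X = A * X * C := by
  simp [lr, Matrix.mul_assoc]

theorem lr_mul (A C A' C' : Matrix (Fin 2) (Fin 2) F) :
    lr A C * lr A' C' = lr (A * A') (C' * C) := by
  refine LinearMap.ext fun X => ?_
  rw [Module.End.mul_apply, lr_apply, lr_apply, lr_apply]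
  simp only [Matrix.mul_assoc]

theorem lr_one : lr (1 : Matrix (Fin 2) (Fin 2) F) 1 = 1 := by
  refine LinearMap.ext fun X => ?_
  rw [lr_apply]; simp

theorem det_lr (A C X : Matrix (Fin 2) (Fin 2) F) : (lr A C X).det = A.det * X.det * C.det := by
  rw [lr_apply, det_mul, det_mul]

/-- the action of `SL₂ × SL₂`: `(A, B) · X = A X Bᵀ` -/
def f1hom : Matrix.SpecialLinearGroup (Fin 2) F × Matrix.SpecialLinearGroup (Fin 2) F →*
    Module.End F (Matrix (Fin 2) (Fin 2) F) where
  toFun s := lr s.1.1 s.2.1ᵀ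
  map_one' := by simp [lr_one]
  map_mul' s t := by
    rw [lr_mul]
    simp [Matrix.transpose_mul]

theorem f1hom_apply (s : Matrix.SpecialLinearGroup (Fin 2) F × Matrix.SpecialLinearGroup (Fin 2) F) :
    f1hom s = lr s.1.1 s.2.1ᵀ := rfl

/-- the action of `SL₂ × SL₂` as a hom to the isometry group of the determinant -/
def f1 : Matrix.SpecialLinearGroup (Fin 2) F × Matrix.SpecialLinearGroup (Fin 2) F →*
    isoUnits (F := F) (W := Matrix (Fin 2) (Fin 2) F) Matrix.det :=
  liftU _ f1hom (fun s X => by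
    rw [f1hom_apply, det_lr, det_transpose, s.1.2, s.2.2, one_mul, mul_one])

/-- the diagonal torus: `X ↦ diag(t,1) X diag(t⁻¹,1)` -/
def dhom : Fˣ →* Module.End F (Matrix (Fin 2) (Fin 2) F) where
  toFun t := lr !![(t : F), 0; 0, 1] !![((t⁻¹ : Fˣ) : F), 0; 0, 1]
  map_one' := by
    simp [← Matrix.one_fin_two, lr_one]
  map_mul' s t := by
    rw [lr_mul, Matrix.mul_fin_two, Matrix.mul_fin_two]
    simp [mul_comm]

theorem dhom_apply (t : Fˣ) : dhom t = lr !![(t : F), 0; 0, 1] !![((t⁻¹ : Fˣ) : F), 0; 0, 1] := rfl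

/-- the diagonal torus in the isometry group -/
def dd : Fˣ →* isoUnits (F := F) (W := Matrix (Fin 2) (Fin 2) F) Matrix.det :=
  liftU _ dhom (fun t X => by
    rw [dhom_apply, det_lr, Matrix.det_fin_two_of, Matrix.det_fin_two_of]
    simp
    field_simp)

/-- the adjugate, as a linear map -/
def adjLin : Module.End F (Matrix (Fin 2) (Fin 2) F) where
  toFun X := !![X 1 1, -X 0 1; -X 1 0, X 0 0]
  map_add' X Y := by
    ext i j
    fin_cases i <;> fin_cases j <;> simp <;> ring
  map_smul' c X := by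
    ext i j
    fin_cases i <;> fin_cases j <;> simp

theorem adjLin_apply (X : Matrix (Fin 2) (Fin 2) F) : adjLin X = !![X 1 1, -X 0 1; -X 1 0, X 0 0] := rfl

theorem adjLin_of (a b c d : F) : adjLin !![a, b; c, d] = !![d, -b; -c, a] := by
  rw [adjLin_apply]; simp

theorem adjLin_mul_self : (adjLin : Module.End F (Matrix (Fin 2) (Fin 2) F)) * adjLin = 1 := by
  refine LinearMap.ext fun X => ?_
  rw [Module.End.mul_apply, adjLin_apply, adjLin_apply]
  ext i j
  fin_cases i <;> fin_cases j <;> simp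

theorem det_adjLin (X : Matrix (Fin 2) (Fin 2) F) : (adjLin X).det = X.det := by
  rw [adjLin_apply, Matrix.det_fin_two_of, Matrix.det_fin_two]; ring

/-- the adjugate, as an isometry -/
def alpha : isoUnits (F := F) (W := Matrix (Fin 2) (Fin 2) F) Matrix.det :=
  mkU _ adjLin adjLin adjLin_mul_self adjLin_mul_self det_adjLin

/-! ### linear algebra of 2 x 2 matrices -/

theorem m2_ext {a b c d a' b' c' d' : F} (h1 : a = a') (h2 : b = b') (h3 : c = c') (h4 : d = d') :
    !![a, b; c, d] = !![a', b'; c', d'] := by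
  subst h1 h2 h3 h4; rfl

theorem m2_inj {a b c d a' b' c' d' : F} (h : !![a, b; c, d] = !![a', b'; c', d']) :
    a = a' ∧ b = b' ∧ c = c' ∧ d = d' := by
  refine ⟨?_, ?_, ?_, ?_⟩
  · simpa using congrFun (congrFun h 0) 0
  · simpa using congrFun (congrFun h 0) 1
  · simpa using congrFun (congrFun h 1) 0
  · simpa using congrFun (congrFun h 1) 1

theorem m2_add (a b c d a' b' c' d' : F) :
    !![a, b; c, d] + !![a', b'; c', d'] = !![a + a', b + b'; c + c', d + d'] := by
  ext i j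
  fin_cases i <;> fin_cases j <;> simp

theorem lin_ext_m2 (f g : Module.End F (Matrix (Fin 2) (Fin 2) F))
    (h11 : f !![1, 0; 0, 0] = g !![1, 0; 0, 0]) (h12 : f !![0, 1; 0, 0] = g !![0, 1; 0, 0])
    (h21 : f !![0, 0; 1, 0] = g !![0, 0; 1, 0]) (h22 : f !![0, 0; 0, 1] = g !![0, 0; 0, 1]) :
    f = g := by
  refine LinearMap.ext fun X => ?_
  have hX : X = X 0 0 • !![(1 : F), 0; 0, 0] + X 0 1 • !![(0 : F), 1; 0, 0]
      + X 1 0 • !![(0 : F), 0; 1, 0] + X 1 1 • !![(0 : F), 0; 0, 1] := by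
    ext i j
    fin_cases i <;> fin_cases j <;> simp
  rw [hX]
  simp only [map_add, map_smul, h11, h12, h21, h22]

theorem exists_rank_one (a b c d : F) (h : a * d - b * c = 0)
    (hne : ¬ (a = 0 ∧ b = 0 ∧ c = 0 ∧ d = 0)) :
    ∃ A C : Matrix (Fin 2) (Fin 2) F, A.det = 1 ∧ C.det = 1 ∧
      A * !![1, 0; 0, 0] * C = !![a, b; c, d] := by
  by_cases ha : a = 0
  · subst ha
    by_cases hb : b = 0
    · subst hb
      by_cases hc : c = 0
      · subst hc
        have hd : d ≠ 0 := fun hd => hne ⟨rfl, rfl, rfl, hd⟩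
        refine ⟨!![0, -d⁻¹; d, 0], !![0, 1; -1, 0], ?_, ?_, ?_⟩
        · rw [det_fin_two_of]; field_simp <;> ring
        · rw [det_fin_two_of]; ring
        · rw [mul_fin_two, mul_fin_two]
          apply m2_ext <;> simp
      · refine ⟨!![0, -1; 1, 0], !![c, d; 0, c⁻¹], ?_, ?_, ?_⟩
        · rw [det_fin_two_of]; ring
        · rw [det_fin_two_of]; field_simp <;> ring
        · rw [mul_fin_two, mul_fin_two]
          apply m2_ext <;> simp
    · have hc : c = 0 := by
        have : b * c = 0 := by linear_combination -h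
        exact (mul_eq_zero.mp this).resolve_left hb
      subst hc
      refine ⟨!![b, 0; d, b⁻¹], !![0, 1; -1, 0], ?_, ?_, ?_⟩
      · rw [det_fin_two_of]; field_simp <;> ring
      · rw [det_fin_two_of]; ring
      · rw [mul_fin_two, mul_fin_two]
        apply m2_ext <;> simp
  · refine ⟨!![a, 0; c, a⁻¹], !![1, b / a; 0, 1], ?_, ?_, ?_⟩
    · rw [det_fin_two_of]; field_simp <;> ring
    · rw [det_fin_two_of]; ring
    · rw [mul_fin_two, mul_fin_two]
      apply m2_ext
      · simp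
      · field_simp; ring
      · simp
      · field_simp
        linear_combination (-a) * h

theorem lr_adj_mul (A C : Matrix (Fin 2) (Fin 2) F) (hA : A.det = 1) (hC : C.det = 1) :
    lr (adjugate A) (adjugate C) * lr A C = 1 := by
  rw [lr_mul, adjugate_mul, mul_adjugate, hA, hC, one_smul, lr_one]

theorem lr_mul_adj (A C : Matrix (Fin 2) (Fin 2) F) (hA : A.det = 1) (hC : C.det = 1) :
    lr A C * lr (adjugate A) (adjugate C) = 1 := by
  rw [lr_mul, adjugate_mul, mul_adjugate, hA, hC, one_smul, lr_one]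

theorem det_adj_one (A : Matrix (Fin 2) (Fin 2) F) (hA : A.det = 1) : (adjugate A).det = 1 := by
  rw [det_adjugate, hA, one_pow]

/-- a determinant preserving map fixing `E₁₁` and `E₂₂` is diagonal or anti-diagonal -/
theorem stab_E11_E22 (T : Module.End F (Matrix (Fin 2) (Fin 2) F))
    (hT : ∀ X, (T X).det = X.det)
    (h11 : T !![1, 0; 0, 0] = !![1, 0; 0, 0]) (h22 : T !![0, 0; 0, 1] = !![0, 0; 0, 1]) :
    ∃ t : F, t ≠ 0 ∧ (T = lr !![t, 0; 0, 1] !![t⁻¹, 0; 0, 1] ∨
      T = lr !![0, 1; -1, 0] !![0, -1; 1, 0] * lr !![t, 0; 0, 1] !![t⁻¹, 0; 0, 1] * adjLin) := by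
  obtain ⟨p0, p1, p2, p3, hY⟩ : ∃ p0 p1 p2 p3 : F, T !![0, 1; 0, 0] = !![p0, p1; p2, p3] :=
    ⟨_, _, _, _, eta_fin_two _⟩
  obtain ⟨r0, r1, r2, r3, hY'⟩ : ∃ r0 r1 r2 r3 : F, T !![0, 0; 1, 0] = !![r0, r1; r2, r3] :=
    ⟨_, _, _, _, eta_fin_two _⟩
  have e1 := hT !![0, 1; 0, 0]
  have e2 := hT (!![1, 0; 0, 0] + !![0, 1; 0, 0])
  have e3 := hT (!![0, 0; 0, 1] + !![0, 1; 0, 0])
  have e4 := hT !![0, 0; 1, 0]
  have e5 := hT (!![1, 0; 0, 0] + !![0, 0; 1, 0])
  have e6 := hT (!![0, 0; 0, 1] + !![0, 0; 1, 0])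
  have e7 := hT (!![0, 1; 0, 0] + !![0, 0; 1, 0])
  rw [hY, det_fin_two_of, det_fin_two_of] at e1
  rw [map_add, h11, hY, m2_add, m2_add, det_fin_two_of, det_fin_two_of] at e2
  rw [map_add, h22, hY, m2_add, m2_add, det_fin_two_of, det_fin_two_of] at e3
  rw [hY', det_fin_two_of, det_fin_two_of] at e4
  rw [map_add, h11, hY', m2_add, m2_add, det_fin_two_of, det_fin_two_of] at e5
  rw [map_add, h22, hY', m2_add, m2_add, det_fin_two_of, det_fin_two_of] at e6
  rw [map_add, hY, hY', m2_add, m2_add, det_fin_two_of, det_fin_two_of] at e7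
  have hp3 : p3 = 0 := by linear_combination e2 - e1
  have hp0 : p0 = 0 := by linear_combination e3 - e1
  have hr3 : r3 = 0 := by linear_combination e5 - e4
  have hr0 : r0 = 0 := by linear_combination e6 - e4
  subst hp3 hp0 hr3 hr0
  have hp : p1 * p2 = 0 := by linear_combination -e1
  have hr : r1 * r2 = 0 := by linear_combination -e4
  have hpr : p1 * r2 + r1 * p2 = 1 := by linear_combination -e7 - hp - hr
  by_cases hp1 : p1 = 0
  · subst hp1
    have hp2 : p2 ≠ 0 := by
      intro h0; rw [h0] at hpr; simp at hpr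
    have hr1 : r1 = p2⁻¹ := by
      field_simp; linear_combination hpr
    have hr2 : r2 = 0 := by
      rcases mul_eq_zero.mp hr with h0 | h0
      · rw [h0] at hr1
        exact absurd hr1.symm (inv_ne_zero hp2)
      · exact h0
    subst hr1 hr2
    refine ⟨p2, hp2, Or.inr ?_⟩
    apply lin_ext_m2
    · rw [h11, Module.End.mul_apply, Module.End.mul_apply, adjLin_of, lr_apply, lr_apply,
        mul_fin_two, mul_fin_two, mul_fin_two, mul_fin_two]
      apply m2_ext <;> simp [hp2]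
    · rw [hY, Module.End.mul_apply, Module.End.mul_apply, adjLin_of, lr_apply, lr_apply,
        mul_fin_two, mul_fin_two, mul_fin_two, mul_fin_two]
      apply m2_ext <;> simp [hp2]
    · rw [hY', Module.End.mul_apply, Module.End.mul_apply, adjLin_of, lr_apply, lr_apply,
        mul_fin_two, mul_fin_two, mul_fin_two, mul_fin_two]
      apply m2_ext <;> simp [hp2]
    · rw [h22, Module.End.mul_apply, Module.End.mul_apply, adjLin_of, lr_apply, lr_apply,
        mul_fin_two, mul_fin_two, mul_fin_two, mul_fin_two]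
      apply m2_ext <;> simp [hp2]
  · have hp2 : p2 = 0 := (mul_eq_zero.mp hp).resolve_left hp1
    subst hp2
    have hr2 : r2 = p1⁻¹ := by
      field_simp; linear_combination hpr
    have hr1 : r1 = 0 := by
      rcases mul_eq_zero.mp hr with h0 | h0
      · exact h0
      · rw [h0] at hr2
        exact absurd hr2.symm (inv_ne_zero hp1)
    subst hr1 hr2
    refine ⟨p1, hp1, Or.inl ?_⟩
    apply lin_ext_m2
    · rw [h11, lr_apply, mul_fin_two, mul_fin_two]
      apply m2_ext <;> simp [hp1]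
    · rw [hY, lr_apply, mul_fin_two, mul_fin_two]
      apply m2_ext <;> simp
    · rw [hY', lr_apply, mul_fin_two, mul_fin_two]
      apply m2_ext <;> simp
    · rw [h22, lr_apply, mul_fin_two, mul_fin_two]
      apply m2_ext <;> simp

/-- every invertible determinant preserving linear map of the 2 x 2 matrices is
`X ↦ A X C` with `det A = det C = 1`, times a diagonal map, times possibly the adjugate -/
theorem exists_rep_lin (T T' : Module.End F (Matrix (Fin 2) (Fin 2) F)) (hT' : ∀ X, T' (T X) = X)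
    (hT : ∀ X, (T X).det = X.det) :
    ∃ A C : Matrix (Fin 2) (Fin 2) F, A.det = 1 ∧ C.det = 1 ∧ ∃ t : F, t ≠ 0 ∧
      (T = lr A C * lr !![t, 0; 0, 1] !![t⁻¹, 0; 0, 1] ∨
        T = lr A C * lr !![t, 0; 0, 1] !![t⁻¹, 0; 0, 1] * adjLin) := by
  obtain ⟨a, b, c, d, hU⟩ : ∃ a b c d : F, T !![1, 0; 0, 0] = !![a, b; c, d] :=
    ⟨_, _, _, _, eta_fin_two _⟩
  have hdetU : a * d - b * c = 0 := by
    have := hT !![1, 0; 0, 0]
    rw [hU, det_fin_two_of, det_fin_two_of] at this
    linear_combination this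
  have hne : ¬ (a = 0 ∧ b = 0 ∧ c = 0 ∧ d = 0) := by
    rintro ⟨rfl, rfl, rfl, rfl⟩
    have h := hT' !![1, 0; 0, 0]
    rw [hU] at h
    have hz : (!![0, 0; 0, 0] : Matrix (Fin 2) (Fin 2) F) = 0 := by
      ext i j; fin_cases i <;> fin_cases j <;> rfl
    rw [hz, map_zero] at h
    have := congrFun (congrFun h 0) 0
    simp at this
  obtain ⟨A₁, C₁, hA₁, hC₁, h1⟩ := exists_rank_one a b c d hdetU hne
  have hT₁e : (lr (adjugate A₁) (adjugate C₁) * T) !![1, 0; 0, 0] = !![1, 0; 0, 0] := by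
    rw [Module.End.mul_apply, hU, ← h1, ← lr_apply, ← Module.End.mul_apply,
      lr_adj_mul A₁ C₁ hA₁ hC₁, Module.End.one_apply]
  have hT₁ : ∀ X, ((lr (adjugate A₁) (adjugate C₁) * T) X).det = X.det := by
    intro X
    rw [Module.End.mul_apply, det_lr, det_adj_one A₁ hA₁, det_adj_one C₁ hC₁, hT, one_mul,
      mul_one]
  obtain ⟨a', b', c', d', hW⟩ : ∃ a' b' c' d' : F,
      (lr (adjugate A₁) (adjugate C₁) * T) !![0, 0; 0, 1] = !![a', b'; c', d'] :=
    ⟨_, _, _, _, eta_fin_two _⟩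
  have e1 := hT₁ !![0, 0; 0, 1]
  have e2 := hT₁ (!![1, 0; 0, 0] + !![0, 0; 0, 1])
  rw [hW, det_fin_two_of, det_fin_two_of] at e1
  rw [map_add, hT₁e, hW, m2_add, m2_add, det_fin_two_of, det_fin_two_of] at e2
  have hd' : d' = 1 := by linear_combination e2 - e1
  subst hd'
  have ha' : a' = b' * c' := by linear_combination e1
  subst ha'
  have hA₂ : (!![1, b'; 0, 1] : Matrix (Fin 2) (Fin 2) F).det = 1 := by
    rw [det_fin_two_of]; ring
  have hC₂ : (!![1, 0; c', 1] : Matrix (Fin 2) (Fin 2) F).det = 1 := by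
    rw [det_fin_two_of]; ring
  have h2a : lr !![1, b'; 0, 1] !![1, 0; c', 1] !![1, 0; 0, 0] = !![1, 0; 0, 0] := by
    rw [lr_apply, mul_fin_two, mul_fin_two]; apply m2_ext <;> simp
  have h2b : lr !![1, b'; 0, 1] !![1, 0; c', 1] !![0, 0; 0, 1] = !![b' * c', b'; c', 1] := by
    rw [lr_apply, mul_fin_two, mul_fin_two]; apply m2_ext <;> simp
  have hT₂e1 : (lr (adjugate !![1, b'; 0, 1]) (adjugate !![1, 0; c', 1]) *
      (lr (adjugate A₁) (adjugate C₁) * T)) !![1, 0; 0, 0] = !![1, 0; 0, 0] := by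
    rw [Module.End.mul_apply, hT₁e]
    nth_rewrite 1 [← h2a]
    rw [← Module.End.mul_apply, lr_adj_mul _ _ hA₂ hC₂, Module.End.one_apply]
  have hT₂e2 : (lr (adjugate !![1, b'; 0, 1]) (adjugate !![1, 0; c', 1]) *
      (lr (adjugate A₁) (adjugate C₁) * T)) !![0, 0; 0, 1] = !![0, 0; 0, 1] := by
    rw [Module.End.mul_apply, hW, ← h2b, ← Module.End.mul_apply, lr_adj_mul _ _ hA₂ hC₂,
      Module.End.one_apply]
  have hT₂ : ∀ X, ((lr (adjugate !![1, b'; 0, 1]) (adjugate !![1, 0; c', 1]) *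
      (lr (adjugate A₁) (adjugate C₁) * T)) X).det = X.det := by
    intro X
    rw [Module.End.mul_apply, det_lr, det_adj_one _ hA₂, det_adj_one _ hC₂, hT₁, one_mul,
      mul_one]
  have hTeq : T = lr (A₁ * !![1, b'; 0, 1]) (!![1, 0; c', 1] * C₁) *
      (lr (adjugate !![1, b'; 0, 1]) (adjugate !![1, 0; c', 1]) *
        (lr (adjugate A₁) (adjugate C₁) * T)) := by
    rw [← lr_mul, mul_assoc, ← mul_assoc (lr !![1, b'; 0, 1] !![1, 0; c', 1]),
      lr_mul_adj _ _ hA₂ hC₂, one_mul, ← mul_assoc, lr_mul_adj _ _ hA₁ hC₁, one_mul]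
  obtain ⟨t, ht, h | h⟩ := stab_E11_E22 _ hT₂ hT₂e1 hT₂e2
  · refine ⟨A₁ * !![1, b'; 0, 1], !![1, 0; c', 1] * C₁, ?_, ?_, t, ht, Or.inl ?_⟩
    · rw [det_mul, hA₁, hA₂, one_mul]
    · rw [det_mul, hC₁, hC₂, one_mul]
    · rw [h] at hTeq
      exact hTeq
  · refine ⟨A₁ * !![1, b'; 0, 1] * !![0, 1; -1, 0], !![0, -1; 1, 0] * (!![1, 0; c', 1] * C₁),
      ?_, ?_, t, ht, Or.inr ?_⟩
    · rw [det_mul, det_mul, hA₁, hA₂, det_fin_two_of]; ring
    · rw [det_mul, det_mul, hC₁, hC₂, det_fin_two_of]; ring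
    · rw [h] at hTeq
      rw [← lr_mul]
      simp only [mul_assoc] at hTeq ⊢
      exact hTeq

/-! ### the group level -/

theorem appHom_f1 (s : Matrix.SpecialLinearGroup (Fin 2) F × Matrix.SpecialLinearGroup (Fin 2) F) :
    appHom Matrix.det (f1 s) = lr s.1.1 s.2.1ᵀ := rfl

theorem appHom_dd (t : Fˣ) :
    appHom Matrix.det (dd t) = lr !![(t : F), 0; 0, 1] !![((t⁻¹ : Fˣ) : F), 0; 0, 1] := rfl

theorem appHom_alpha : appHom Matrix.det (alpha (F := F)) = adjLin := rfl

/-- the abelian complement: the diagonal torus and its coset by the adjugate -/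
def KK : Set (isoUnits (F := F) (W := Matrix (Fin 2) (Fin 2) F) Matrix.det) :=
  {k | ∃ t : Fˣ, k = dd t ∨ k = dd t * alpha}

theorem alpha_comm_dd (t : Fˣ) : Commute (alpha (F := F)) (dd t) := by
  show alpha * dd t = dd t * alpha
  apply appHom_injective
  rw [map_mul, map_mul, appHom_alpha, appHom_dd]
  apply lin_ext_m2 <;>
  · simp only [Module.End.mul_apply, lr_apply, adjLin_of, mul_fin_two]
    apply m2_ext <;> simp

theorem KK_comm : ∀ a ∈ KK (F := F), ∀ b ∈ KK (F := F), ⁅a, b⁆ ∈ (f1 (F := F)).range := by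
  intro a ha b hb
  have : Commute a b := by
    obtain ⟨t, rfl | rfl⟩ := ha <;> obtain ⟨s, rfl | rfl⟩ := hb
    · exact (Commute.all t s).map dd
    · exact ((Commute.all t s).map dd).mul_right (alpha_comm_dd t).symm
    · exact ((Commute.all t s).map dd).mul_left (alpha_comm_dd s)
    · exact (((Commute.all t s).map dd).mul_right (alpha_comm_dd t).symm).mul_left
        ((alpha_comm_dd s).mul_right (Commute.refl alpha))
  rw [commutatorElement_eq_one_iff_commute.mpr this]
  exact Subgroup.one_mem _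

/-- conjugation of `SL₂` by `diag(t, 1)` -/
def cj (t : Fˣ) (A : Matrix.SpecialLinearGroup (Fin 2) F) : Matrix.SpecialLinearGroup (Fin 2) F :=
  ⟨!![A.1 0 0, t * A.1 0 1; ((t⁻¹ : Fˣ) : F) * A.1 1 0, A.1 1 1], by
    have := A.2
    rw [det_fin_two] at this
    rw [det_fin_two_of]
    have ht : (t : F) * ((t⁻¹ : Fˣ) : F) = 1 := Units.mul_inv t
    linear_combination this - A.1 0 1 * A.1 1 0 * ht⟩

/-- inverse transpose in `SL₂` -/
def tinv (B : Matrix.SpecialLinearGroup (Fin 2) F) : Matrix.SpecialLinearGroup (Fin 2) F :=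
  ⟨!![B.1 1 1, -B.1 1 0; -B.1 0 1, B.1 0 0], by
    have := B.2
    rw [det_fin_two] at this
    rw [det_fin_two_of]
    linear_combination this⟩

theorem dd_mul_f1 (t : Fˣ)
    (s : Matrix.SpecialLinearGroup (Fin 2) F × Matrix.SpecialLinearGroup (Fin 2) F) :
    dd t * f1 s = f1 (cj t s.1, cj t⁻¹ s.2) * dd t := by
  apply appHom_injective
  rw [map_mul, map_mul, appHom_dd, appHom_f1, appHom_f1, lr_mul, lr_mul]
  have ht : (t : F) * ((t⁻¹ : Fˣ) : F) = 1 := Units.mul_inv t
  have ht' : ((t⁻¹ : Fˣ) : F) * (t : F) = 1 := Units.inv_mul t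
  have ht0 : (t : F) ≠ 0 := t.ne_zero
  congr 1
  · ext i j
    fin_cases i <;> fin_cases j <;>
      simp [cj, Matrix.mul_apply, Fin.sum_univ_two]
    all_goals (try field_simp)
    all_goals (try ring)
  · ext i j
    fin_cases i <;> fin_cases j <;>
      simp [cj, Matrix.mul_apply, Fin.sum_univ_two]
    all_goals (try field_simp)
    all_goals (try ring)

theorem alpha_mul_f1
    (s : Matrix.SpecialLinearGroup (Fin 2) F × Matrix.SpecialLinearGroup (Fin 2) F) :
    alpha * f1 s = f1 (tinv s.2, tinv s.1) * alpha := by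
  apply appHom_injective
  rw [map_mul, map_mul, appHom_alpha, appHom_f1, appHom_f1]
  refine LinearMap.ext fun X => ?_
  rw [Module.End.mul_apply, Module.End.mul_apply, lr_apply, lr_apply, adjLin_apply, adjLin_apply]
  ext i j
  fin_cases i <;> fin_cases j <;>
    simp [tinv, Matrix.mul_apply, Fin.sum_univ_two] <;> ring

theorem KK_conj (k : isoUnits (F := F) (W := Matrix (Fin 2) (Fin 2) F) Matrix.det)
    (hk : k ∈ KK (F := F))
    (s : Matrix.SpecialLinearGroup (Fin 2) F × Matrix.SpecialLinearGroup (Fin 2) F) :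
    ∃ s', k * f1 s = f1 s' * k := by
  obtain ⟨t, rfl | rfl⟩ := hk
  · exact ⟨_, dd_mul_f1 t s⟩
  · refine ⟨(cj t (tinv s.2), cj t⁻¹ (tinv s.1)), ?_⟩
    rw [mul_assoc, alpha_mul_f1, ← mul_assoc, dd_mul_f1, mul_assoc]

theorem exists_rep (u : isoUnits (F := F) (W := Matrix (Fin 2) (Fin 2) F) Matrix.det) :
    ∃ n ∈ (f1 (F := F)).range, ∃ k ∈ KK (F := F), u = n * k := by
  obtain ⟨A, C, hA, hC, t, ht, h⟩ := exists_rep_lin (appHom _ u) (appHom _ u⁻¹)
    (appHom_inv_apply _ u) (N_appHom _ u)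
  have hCt : Cᵀ.det = 1 := by rw [det_transpose]; exact hC
  have hf : appHom Matrix.det (f1 ((⟨A, hA⟩ : Matrix.SpecialLinearGroup (Fin 2) F),
      (⟨Cᵀ, hCt⟩ : Matrix.SpecialLinearGroup (Fin 2) F))) = lr A C := by
    rw [appHom_f1]; simp
  have hd : appHom Matrix.det (dd (Units.mk0 t ht)) = lr !![t, 0; 0, 1] !![t⁻¹, 0; 0, 1] := by
    rw [appHom_dd]; simp
  rcases h with h | h
  · refine ⟨_, ⟨(⟨A, hA⟩, ⟨Cᵀ, hCt⟩), rfl⟩, dd (Units.mk0 t ht), ⟨_, Or.inl rfl⟩, ?_⟩
    apply appHom_injective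
    rw [map_mul, hf, hd]; exact h
  · refine ⟨_, ⟨(⟨A, hA⟩, ⟨Cᵀ, hCt⟩), rfl⟩, dd (Units.mk0 t ht) * alpha, ⟨_, Or.inr rfl⟩, ?_⟩
    apply appHom_injective
    rw [← mul_assoc, map_mul, map_mul, hf, hd, appHom_alpha]; exact h

theorem f1_range_normal : ((f1 (F := F)).range).Normal := by
  constructor
  intro n hn g
  obtain ⟨s, rfl⟩ := hn
  obtain ⟨m, ⟨s₀, rfl⟩, k, hk, rfl⟩ := exists_rep g
  obtain ⟨s', hs'⟩ := KK_conj k hk s
  refine ⟨s₀ * s' * s₀⁻¹, ?_⟩
  rw [map_mul, map_mul, map_inv]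
  have h3 : k * f1 s * k⁻¹ = f1 s' := by rw [hs']; group
  rw [← h3]; group

theorem commutator_le_range :
    commutator (isoUnits (F := F) (W := Matrix (Fin 2) (Fin 2) F) Matrix.det) ≤
      (f1 (F := F)).range := by
  have := f1_range_normal (F := F)
  exact commutator_le_of_normal_mul _ KK KK_comm exists_rep

/-! ### the image is the commutator subgroup -/

theorem transvection_identities (a : F) (ha0 : a ≠ 0) (ha1 : a ≠ 1) (i j : Fin 2) (hij : i ≠ j)
    (c : F) :
    ∃ y y' : F,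
      !![a, 0; 0, 1] * (1 + Matrix.single i j y : Matrix (Fin 2) (Fin 2) F) =
        (1 + Matrix.single i j c) * (1 + Matrix.single i j y) * !![a, 0; 0, 1] ∧
      (1 + Matrix.single i j y' : Matrix (Fin 2) (Fin 2) F)ᵀ * !![a⁻¹, 0; 0, 1] =
        !![a⁻¹, 0; 0, 1] * ((1 + Matrix.single i j y')ᵀ * (1 + Matrix.single i j c)ᵀ) := by
  have h1 : a - 1 ≠ 0 := sub_ne_zero.mpr ha1
  have h1' : 1 - a ≠ 0 := sub_ne_zero.mpr (Ne.symm ha1)
  fin_cases i <;> fin_cases j
  · exact absurd rfl hij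
  · refine ⟨c / (a - 1), c * a / (1 - a), ?_, ?_⟩ <;>
    · ext x y
      fin_cases x <;> fin_cases y <;>
        simp [Matrix.mul_apply, Fin.sum_univ_two, Matrix.single_apply] <;> field_simp <;> ring
  · refine ⟨c * a / (1 - a), c / (a - 1), ?_, ?_⟩ <;>
    · ext x y
      fin_cases x <;> fin_cases y <;>
        simp [Matrix.mul_apply, Fin.sum_univ_two, Matrix.single_apply] <;> field_simp <;> ring
  · exact absurd rfl hij

theorem f1_transvection_mem (hF : ∃ a : F, a ≠ 0 ∧ a ≠ 1) (i j : Fin 2) (hij : i ≠ j) (c : F) :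
    f1 (Matrix.SpecialLinearGroup.transvection hij c, 1) ∈
        commutator (isoUnits (F := F) (W := Matrix (Fin 2) (Fin 2) F) Matrix.det) ∧
      f1 (1, Matrix.SpecialLinearGroup.transvection hij c) ∈
        commutator (isoUnits (F := F) (W := Matrix (Fin 2) (Fin 2) F) Matrix.det) := by
  obtain ⟨a, ha0, ha1⟩ := hF
  obtain ⟨y, y', h1, h2⟩ := transvection_identities a ha0 ha1 i j hij c
  have hd : appHom Matrix.det (dd (Units.mk0 a ha0)) = lr !![a, 0; 0, 1] !![a⁻¹, 0; 0, 1] := by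
    rw [appHom_dd]; simp
  constructor
  · have key : dd (Units.mk0 a ha0) * f1 (Matrix.SpecialLinearGroup.transvection hij y, 1) =
        f1 (Matrix.SpecialLinearGroup.transvection hij c, 1) *
          f1 (Matrix.SpecialLinearGroup.transvection hij y, 1) * dd (Units.mk0 a ha0) := by
      apply appHom_injective
      simp only [map_mul, hd, appHom_f1, lr_mul, Matrix.SpecialLinearGroup.transvection_coe,
        Matrix.SpecialLinearGroup.coe_one, Matrix.transpose_one, Matrix.one_mul, Matrix.mul_one]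
      rw [h1]
    rw [← comm_of_mul_eq key, commutator_def]
    exact Subgroup.commutator_mem_commutator (Subgroup.mem_top _) (Subgroup.mem_top _)
  · have key : dd (Units.mk0 a ha0) * f1 (1, Matrix.SpecialLinearGroup.transvection hij y') =
        f1 (1, Matrix.SpecialLinearGroup.transvection hij c) *
          f1 (1, Matrix.SpecialLinearGroup.transvection hij y') * dd (Units.mk0 a ha0) := by
      apply appHom_injective
      simp only [map_mul, hd, appHom_f1, lr_mul, Matrix.SpecialLinearGroup.transvection_coe,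
        Matrix.SpecialLinearGroup.coe_one, Matrix.one_mul, Matrix.mul_one]
      rw [h2]
    rw [← comm_of_mul_eq key, commutator_def]
    exact Subgroup.commutator_mem_commutator (Subgroup.mem_top _) (Subgroup.mem_top _)

theorem range_f1 (hF : ∃ a : F, a ≠ 0 ∧ a ≠ 1) :
    (f1 (F := F)).range = commutator (isoUnits (F := F) (W := Matrix (Fin 2) (Fin 2) F) Matrix.det) := by
  apply le_antisymm
  · have k1 : ((commutator (isoUnits (F := F) (W := Matrix (Fin 2) (Fin 2) F) Matrix.det)).comap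
        f1).comap (MonoidHom.inl _ _) = ⊤ :=
      Cfsg.Agent.Lib.Helper47.eq_top_of_transvection_mem _
        (fun i j hij c => (f1_transvection_mem hF i j hij c).1)
    have k2 : ((commutator (isoUnits (F := F) (W := Matrix (Fin 2) (Fin 2) F) Matrix.det)).comap
        f1).comap (MonoidHom.inr _ _) = ⊤ :=
      Cfsg.Agent.Lib.Helper47.eq_top_of_transvection_mem _
        (fun i j hij c => (f1_transvection_mem hF i j hij c).2)
    rintro _ ⟨s, rfl⟩
    have m1 : f1 (s.1, 1) ∈
        commutator (isoUnits (F := F) (W := Matrix (Fin 2) (Fin 2) F) Matrix.det) := by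
      have : s.1 ∈ ((commutator (isoUnits (F := F) (W := Matrix (Fin 2) (Fin 2) F)
          Matrix.det)).comap f1).comap (MonoidHom.inl _ _) := by rw [k1]; trivial
      exact this
    have m2 : f1 (1, s.2) ∈
        commutator (isoUnits (F := F) (W := Matrix (Fin 2) (Fin 2) F) Matrix.det) := by
      have : s.2 ∈ ((commutator (isoUnits (F := F) (W := Matrix (Fin 2) (Fin 2) F)
          Matrix.det)).comap f1).comap (MonoidHom.inr _ _) := by rw [k2]; trivial
      exact this
    have := Subgroup.mul_mem _ m1 m2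
    rw [← map_mul] at this
    simpa using this
  · exact commutator_le_range

/-! ### the kernel -/

theorem f1_ker_le
    (s : Matrix.SpecialLinearGroup (Fin 2) F × Matrix.SpecialLinearGroup (Fin 2) F)
    (hs : f1 s = 1) :
    s.1 ∈ Subgroup.center (Matrix.SpecialLinearGroup (Fin 2) F) ∧
      s.2 ∈ Subgroup.center (Matrix.SpecialLinearGroup (Fin 2) F) := by
  have h : lr s.1.1 s.2.1ᵀ = 1 := by rw [← appHom_f1, hs, map_one]
  have hdA := s.1.2
  have hdB := s.2.2
  rw [det_fin_two] at hdA hdB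
  have e11 := LinearMap.congr_fun h !![1, 0; 0, 0]
  have e22 := LinearMap.congr_fun h !![0, 0; 0, 1]
  have e12 := LinearMap.congr_fun h !![0, 1; 0, 0]
  rw [lr_apply, Module.End.one_apply] at e11 e22 e12
  have a1 := congrFun (congrFun e11 0) 0
  have a2 := congrFun (congrFun e11 0) 1
  have a3 := congrFun (congrFun e11 1) 0
  have b1 := congrFun (congrFun e22 1) 1
  have b2 := congrFun (congrFun e22 0) 1
  have b3 := congrFun (congrFun e22 1) 0
  have c1 := congrFun (congrFun e12 0) 1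
  simp [Matrix.mul_apply, Fin.sum_univ_two] at a1 a2 a3 b1 b2 b3 c1
  -- a1 : A00 * B00 = 1, a2 : A00 * B10 = 0, a3 : A10 * B00 = 0
  -- b1 : A11 * B11 = 1, b2 : A01 * B11 = 0, b3 : A11 * B01 = 0, c1 : A00 * B11 = 1
  have hA00 : s.1.1 0 0 ≠ 0 := by intro h0; rw [h0] at a1; simp at a1
  have hB00 : s.2.1 0 0 ≠ 0 := by intro h0; rw [h0] at a1; simp at a1
  have hA11 : s.1.1 1 1 ≠ 0 := by intro h0; rw [h0] at b1; simp at b1
  have hB11 : s.2.1 1 1 ≠ 0 := by intro h0; rw [h0] at b1; simp at b1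
  have hB10 : s.2.1 1 0 = 0 := a2.resolve_left hA00
  have hA10 : s.1.1 1 0 = 0 := a3.resolve_right hB00
  have hA01 : s.1.1 0 1 = 0 := b2.resolve_right hB11
  have hB01 : s.2.1 0 1 = 0 := b3.resolve_left hA11
  have hB : s.2.1 1 1 = s.2.1 0 0 := mul_left_cancel₀ hA00 (by rw [c1, a1])
  have hA : s.1.1 1 1 = s.1.1 0 0 := mul_right_cancel₀ hB11 (by rw [b1, c1])
  constructor
  · rw [Matrix.SpecialLinearGroup.mem_center_iff]
    refine ⟨s.1.1 0 0, ?_, ?_⟩
    · rw [hA01, hA] at hdA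
      simp only [Fintype.card_fin]
      linear_combination hdA
    · ext i j
      fin_cases i <;> fin_cases j <;> simp [Matrix.scalar_apply, hA01, hA10, hA]
  · rw [Matrix.SpecialLinearGroup.mem_center_iff]
    refine ⟨s.2.1 0 0, ?_, ?_⟩
    · rw [hB01, hB] at hdB
      simp only [Fintype.card_fin]
      linear_combination hdB
    · ext i j
      fin_cases i <;> fin_cases j <;> simp [Matrix.scalar_apply, hB01, hB10, hB]

/-- PΩ^+_4(q) is isomorphic to PSL_2(q) x PSL_2(q) for q at least 3. -/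
theorem result {F : Type*} [Field F] [Fintype F] (hF : 3 ≤ Fintype.card F) : Nonempty (Cfsg.POmega F (Cfsg.quadFormPlus 2 F) ≃* Matrix.ProjectiveSpecialLinearGroup (Fin 2) F × Matrix.ProjectiveSpecialLinearGroup (Fin 2) F) := by
  classical
  have hex : ∃ a : F, a ≠ 0 ∧ a ≠ 1 := by
    by_contra hcon
    push Not at hcon
    have hsub : (Finset.univ : Finset F) ⊆ {0, 1} := by
      intro x _
      by_cases hx : x = 0
      · simp [hx]
      · simp [hcon x hx]
    have h1 : Fintype.card F ≤ ({0, 1} : Finset F).card := by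
      rw [← Finset.card_univ]; exact Finset.card_le_card hsub
    have h2 : ({0, 1} : Finset F).card ≤ 2 := Finset.card_le_two
    omega
  refine commutator_quotient_center_equiv
    (isoEquiv psi (quadFormPlus 2 F) Matrix.det det_psi) f1 (range_f1 hex)
    (MonoidHom.prodMap (QuotientGroup.mk' _) (QuotientGroup.mk' _)) ?_ ?_ ?_ ?_
  · rintro ⟨x, y⟩
    obtain ⟨a, rfl⟩ := QuotientGroup.mk_surjective x
    obtain ⟨b, rfl⟩ := QuotientGroup.mk_surjective y
    exact ⟨(a, b), rfl⟩
  · intro s hs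
    rw [MonoidHom.mem_ker] at hs ⊢
    obtain ⟨h1, h2⟩ := f1_ker_le s hs
    exact Prod.ext ((QuotientGroup.eq_one_iff _).mpr h1) ((QuotientGroup.eq_one_iff _).mpr h2)
  · intro s hs
    rw [MonoidHom.mem_ker] at hs
    have h1 : s.1 ∈ Subgroup.center (Matrix.SpecialLinearGroup (Fin 2) F) :=
      (QuotientGroup.eq_one_iff _).mp (congrArg Prod.fst hs)
    have h2 : s.2 ∈ Subgroup.center (Matrix.SpecialLinearGroup (Fin 2) F) :=
      (QuotientGroup.eq_one_iff _).mp (congrArg Prod.snd hs)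
    rw [Subgroup.mem_center_iff] at h1 h2 ⊢
    intro g
    exact Prod.ext (h1 g.1) (h2 g.2)
  · rintro ⟨x, y⟩ hxy
    rw [Subgroup.mem_center_iff] at hxy
    have hx : x = 1 := Cfsg.Agent.S0298.psl2_center_trivial x (by
      rw [Subgroup.mem_center_iff]; intro g
      exact congrArg Prod.fst (hxy (g, 1)))
    have hy : y = 1 := Cfsg.Agent.S0298.psl2_center_trivial y (by
      rw [Subgroup.mem_center_iff]; intro g
      exact congrArg Prod.snd (hxy (1, g)))
    rw [hx, hy]; rfl

end Cfsg.Agent.S0299
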