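import Cfsg.Statements.S1056
import Mathlib
import Cfsg.Agent.Lib.Helper99.B2Iso
import Cfsg.Agent.Lib.Helper99.B2Omega
import Cfsg.Agent.Lib.Helper99.B2Simple

set_option autoImplicit false
open Cfsg

namespace Cfsg.Agent.S1056

/-- B₂(F) is simple for every field `F` other than the field with two elements. -/
theorem result {F : Type*} [Field F] (hF : ∃ a : F, a ≠ 0 ∧ a ≠ 1) : IsSimpleGroup ↥(Cfsg.Lie.chevB2.group F) ∧ ¬ IsMulCommutative ↥(Cfsg.Lie.chevB2.group F) := by
  obtain ⟨e⟩ := Cfsg.Agent.Lib.Helper99.B2.chevB2_equiv_psp (F := F)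
  have hs : IsSimpleGroup (Cfsg.PSp 2 F) := Cfsg.Agent.Lib.Helper99.B2.psp4_simple hF
  have hsG : IsSimpleGroup ↥(Cfsg.Lie.chevB2.group F) := e.isSimpleGroup
  refine ⟨hsG, ?_⟩
  intro hc
  have hperf : commutator (Matrix.symplecticGroup (Fin 2) F) = ⊤ :=
    Cfsg.Agent.Lib.Helper99.B2.perfect_sp4 hF
  have hperf2 : commutator (Cfsg.PSp 2 F) = ⊤ := by
    have h1 := Subgroup.map_commutator (⊤ : Subgroup (Matrix.symplecticGroup (Fin 2) F)) ⊤
      (QuotientGroup.mk' (Subgroup.center (Matrix.symplecticGroup (Fin 2) F)))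
    rw [← commutator_def, hperf,
      Subgroup.map_top_of_surjective _ (QuotientGroup.mk'_surjective _)] at h1
    rw [commutator_def]
    exact h1.symm
  have hc2 : IsMulCommutative (Cfsg.PSp 2 F) := ⟨⟨fun a b => by
    have h := hc.is_comm.comm (e.symm a) (e.symm b)
    have h2 := congrArg e h
    simpa using h2⟩⟩
  haveI : Nontrivial (Cfsg.PSp 2 F) := hs.toNontrivial
  exact Cfsg.Agent.Lib.Helper99.B2.not_comm_of_perfect hperf2 hc2

end Cfsg.Agent.S1056
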