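import Cfsg.Statements.S1108
import Cfsg.Agent.Lib.Helper24.TwD4

set_option autoImplicit false
open Cfsg

namespace Cfsg.Agent.S1108

open Cfsg.Agent.Lib.Helper24 in
/-- ³D₄(q) equals its derived subgroup. -/
theorem result {K : Type*} [Field K] [Fintype K] {q : ℕ} (hq : IsPrimePow q) (hK : Fintype.card K = q ^ 3) : commutator ↥(Cfsg.Lie.twistedD4 K q) = ⊤ := by
  obtain ⟨σ, hσ⟩ := exists_frob K q 3 hq hK
  have h4 : 4 ≤ Fintype.card K := by
    rw [hK]
    have h2 : 2 ≤ q := hq.two_le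
    calc 4 ≤ 2 ^ 3 := by norm_num
      _ ≤ q ^ 3 := Nat.pow_le_pow_left h2 3
  obtain ⟨c, hc, hc2⟩ := exists_sq_ne_one K h4
  exact twistedD4_perfect q σ hσ c hc hc2

end Cfsg.Agent.S1108
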