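import Cfsg.Statements.S3785
import Mathlib
import Cfsg.Agent.S3766
import Cfsg.Agent.Lib.Helper41.Crit

set_option autoImplicit false
open Cfsg

namespace Cfsg.Agent.S3785

open scoped commutatorElement

theorem pCore_normal (p : ℕ) (G : Type*) [Group G] : (Cfsg.pCore p G).Normal := by
  unfold Cfsg.pCore
  exact Subgroup.sSup_normal _ (fun H hH => hH.1)

theorem mem_smul_sylow {G : Type*} [Group G] {p : ℕ} (P : Sylow p G) (g x : G) :
    x ∈ ((g • P : Sylow p G) : Subgroup G) ↔ g⁻¹ * x * g ∈ (P : Subgroup G) := by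
  rw [Sylow.coe_subgroup_smul, Subgroup.mem_pointwise_smul_iff_inv_smul_mem, MulAut.smul_def]
  simp

theorem normal_pgroup_le_sylow {G : Type*} [Group G] [Finite G] {p : ℕ} [Fact p.Prime]
    (P : Sylow p G) (N : Subgroup G) (hN : N.Normal) (hNp : IsPGroup p N) :
    N ≤ (P : Subgroup G) := by
  obtain ⟨P', hNP'⟩ := hNp.exists_le_sylow
  obtain ⟨g, hg⟩ := MulAction.exists_smul_eq G P' P
  intro x hx
  have h1 : g⁻¹ * x * g ∈ N := by
    have := hN.conj_mem x hx g⁻¹
    simpa using this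
  have h2 : g⁻¹ * x * g ∈ P' := hNP' h1
  rw [← hg]
  exact (mem_smul_sylow P' g x).mpr h2

theorem pCore_le_sylow {G : Type*} [Group G] [Finite G] {p : ℕ} [Fact p.Prime] (P : Sylow p G) :
    Cfsg.pCore p G ≤ (P : Subgroup G) := by
  unfold Cfsg.pCore
  apply sSup_le
  rintro N ⟨hN, hNp⟩
  exact normal_pgroup_le_sylow P N hN hNp

theorem pCore_isPGroup {G : Type*} [Group G] [Finite G] (p : ℕ) [Fact p.Prime] :
    IsPGroup p (Cfsg.pCore p G) := by
  obtain ⟨P⟩ : Nonempty (Sylow p G) := inferInstance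
  exact P.2.to_le (pCore_le_sylow P)

/-- in a nilpotent group, a normal subgroup not contained in `A` has an element outside `A`
that is central modulo `A` -/
theorem central_mod {P : Type*} [Group P] [Group.IsNilpotent P] {C A : Subgroup P} [C.Normal]
    (h : ¬ C ≤ A) : ∃ x ∈ C, x ∉ A ∧ ∀ g : P, x * g * x⁻¹ * g⁻¹ ∈ A := by
  classical
  obtain ⟨n, hn⟩ := Group.IsNilpotent.nilpotent P
  have hQ : ∃ i, ¬ (C ⊓ Subgroup.upperCentralSeries P i ≤ A) :=
    ⟨n, by rw [hn, inf_top_eq]; exact h⟩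
  have hi := Nat.find_spec hQ
  have hmin := fun j => Nat.find_min hQ (m := j)
  rcases hk : Nat.find hQ with _ | j
  · rw [hk] at hi
    exact absurd (by rw [Subgroup.upperCentralSeries_zero, inf_bot_eq]; exact bot_le) hi
  · rw [hk] at hi hmin
    have hj : C ⊓ Subgroup.upperCentralSeries P j ≤ A := by
      have := hmin j (Nat.lt_succ_self j)
      exact not_not.mp this
    rw [SetLike.not_le_iff_exists] at hi
    obtain ⟨x, hx, hxA⟩ := hi
    refine ⟨x, hx.1, hxA, fun g => hj ⟨?_, ?_⟩⟩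
    · have h1 : g * x⁻¹ * g⁻¹ ∈ C := Subgroup.Normal.conj_mem inferInstance _ (C.inv_mem hx.1) g
      have : x * g * x⁻¹ * g⁻¹ = x * (g * x⁻¹ * g⁻¹) := by group
      rw [this]
      exact C.mul_mem hx.1 h1
    · exact (Subgroup.mem_upperCentralSeries_succ_iff).mp hx.2 g

/-- a `p'`-element centralizing the elements of order `p` of a normal `p`-subgroup (`p` odd)
centralizes it -/
theorem cent_of_omega {G : Type*} [Group G] [Finite G] {r : ℕ} [Fact r.Prime] (hr2 : r ≠ 2)
    (Q : Subgroup G) (hQn : Q.Normal) (hQ : IsPGroup r Q) (c : G)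
    (hcop : (orderOf c).Coprime r) (hc : ∀ x ∈ Q, x ^ r = 1 → c * x = x * c) :
    c ∈ Subgroup.centralizer (Q : Set G) := by
  by_contra hnc
  have hcN : c ∈ Subgroup.normalizer (Q : Set G) := by
    rw [Subgroup.normalizer_eq_top_iff.2 hQn]
    exact Subgroup.mem_top c
  obtain ⟨D, hDQ, -, hDcl, hDexp, hDne⟩ :=
    Cfsg.Agent.Lib.Helper41.exists_crit_sub Q hQ c hcN hcop hnc
  apply hDne
  rw [eq_bot_iff]
  refine hDcl.trans ?_
  rw [Subgroup.closure_le]
  rintro y ⟨d, hd, rfl⟩
  have h1 : d ^ r = 1 := by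
    rcases hDexp d hd with h | ⟨h, -⟩
    · exact h
    · exact absurd h hr2
  have h2 := hc d (hDQ hd) h1
  show d⁻¹ * (c * d * c⁻¹) ∈ (⊥ : Subgroup G)
  rw [h2, Subgroup.mem_bot]
  group

/-- if every Sylow part of `U` lies in `V` then `U ≤ V` -/
theorem le_of_pCore_parts {G : Type*} [Group G] [Finite G] (U V : Subgroup G) (hUn : U.Normal)
    (hUnil : Group.IsNilpotent U)
    (h : ∀ r : ℕ, r.Prime → U ⊓ Cfsg.pCore r G ≤ V) : U ≤ V := by
  have hidx : (V.subgroupOf U).index = 1 := by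
    by_contra hne
    obtain ⟨s, hs, hsd⟩ := Nat.exists_prime_and_dvd hne
    haveI : Fact s.Prime := ⟨hs⟩
    obtain ⟨S⟩ : Nonempty (Sylow s ↥U) := inferInstance
    haveI := hUnil
    have hSn : (S : Subgroup ↥U).Normal := inferInstance
    have hSc : (S : Subgroup ↥U).Characteristic := Sylow.characteristic_of_normal S hSn
    have hSG : ((S : Subgroup ↥U).map U.subtype).Normal :=
      ConjAct.normal_of_characteristic_of_normal
    have hSp : IsPGroup s ((S : Subgroup ↥U).map U.subtype) := S.2.map U.subtype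
    have h1 : (S : Subgroup ↥U).map U.subtype ≤ Cfsg.pCore s G := le_sSup ⟨hSG, hSp⟩
    have h2 : (S : Subgroup ↥U) ≤ V.subgroupOf U := by
      intro x hx
      rw [Subgroup.mem_subgroupOf]
      exact h s hs ⟨x.2, h1 ⟨x, hx, rfl⟩⟩
    have h3 : (V.subgroupOf U).index ∣ (S : Subgroup ↥U).index := Subgroup.index_dvd_of_le h2
    exact S.not_dvd_index (hsd.trans h3)
  have htop := Subgroup.index_eq_one.1 hidx
  intro u hu
  have : (⟨u, hu⟩ : ↥U) ∈ V.subgroupOf U := by rw [htop]; exact Subgroup.mem_top _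
  exact this

/-- the key step: `C` centralizes every chief factor below the Fitting subgroup -/
theorem chief_cent {G : Type*} [Group G] [Finite G]
    (hodd : Odd (Nat.card (Cfsg.fittingSubgroup G)))
    (C : Subgroup G) (hCn : C.Normal)
    (hC : ∀ c ∈ C, ∀ x ∈ Cfsg.fittingSubgroup G, (orderOf x).Prime → c * x = x * c)
    (U V : Subgroup G) (hUn : U.Normal) (hVn : V.Normal) (hVU : V < U)
    (hmin : ∀ W : Subgroup G, W.Normal → V ≤ W → W ≤ U → W = V ∨ W = U)
    (hUF : U ≤ Cfsg.fittingSubgroup G) :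
    ∀ u ∈ U, ∀ c ∈ C, u * c * u⁻¹ * c⁻¹ ∈ V := by
  classical
  obtain ⟨hFn, hFnil⟩ := Cfsg.Agent.S3766.fitting_mem G
  set F := Cfsg.fittingSubgroup G with hF
  set π := QuotientGroup.mk' V with hπ
  have hπs : Function.Surjective π := QuotientGroup.mk'_surjective V
  have hCπ : (C.map π).Normal := hCn.map π hπs
  set W : Subgroup G :=
    U ⊓ (Subgroup.centralizer ((C.map π : Subgroup (G ⧸ V)) : Set (G ⧸ V))).comap π with hW
  have hWn : W.Normal := by
    haveI := hUn
    haveI : (Subgroup.centralizer ((C.map π : Subgroup (G ⧸ V)) : Set (G ⧸ V))).Normal :=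
      Subgroup.normal_centralizer
    rw [hW]
    infer_instance
  have memW : ∀ u : G, u ∈ W ↔ u ∈ U ∧ ∀ c ∈ C, u * c * u⁻¹ * c⁻¹ ∈ V := by
    intro u
    rw [hW, Subgroup.mem_inf, Subgroup.mem_comap, Subgroup.mem_centralizer_iff]
    constructor
    · rintro ⟨h1, h2⟩
      refine ⟨h1, fun c hc => ?_⟩
      have h3 := h2 (π c) ⟨c, hc, rfl⟩
      have h4 : π (u * c * u⁻¹ * c⁻¹) = 1 := by
        rw [map_mul, map_mul, map_mul, map_inv, map_inv, ← h3]
        group
      exact (QuotientGroup.eq_one_iff _).1 h4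
    · rintro ⟨h1, h2⟩
      refine ⟨h1, ?_⟩
      rintro y ⟨c, hc, rfl⟩
      have h4 : π (u * c * u⁻¹ * c⁻¹) = 1 := (QuotientGroup.eq_one_iff _).2 (h2 c hc)
      rw [map_mul, map_mul, map_mul, map_inv, map_inv] at h4
      have h5 : π u * π c * (π u)⁻¹ = π c := mul_inv_eq_one.1 h4
      have h6 : π u * π c = π c * π u := mul_inv_eq_iff_eq_mul.1 h5
      exact h6.symm
  have hVW : V ≤ W := by
    intro v hv
    rw [memW]
    refine ⟨hVU.le hv, fun c _ => ?_⟩
    have h1 : c * v⁻¹ * c⁻¹ ∈ V := hVn.conj_mem _ (V.inv_mem hv) c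
    have : v * c * v⁻¹ * c⁻¹ = v * (c * v⁻¹ * c⁻¹) := by group
    rw [this]
    exact V.mul_mem hv h1
  have hWU : W ≤ U := inf_le_left
  rcases hmin W hWn hVW hWU with hWV | hWU'
  · exfalso
    -- find a prime r with U ⊓ O_r(G) ≰ V
    have hUnil : Group.IsNilpotent U := by
      haveI : Group.IsNilpotent ↥F := hFnil
      have h1 : Group.IsNilpotent ↥(U.subgroupOf F) := Subgroup.isNilpotent _
      exact Group.nilpotent_of_mulEquiv (Subgroup.subgroupOfEquivOfLe hUF)
    have hex : ∃ r : ℕ, r.Prime ∧ ¬ U ⊓ Cfsg.pCore r G ≤ V := by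
      by_contra hcon
      push Not at hcon
      exact (not_le_of_gt hVU) (le_of_pCore_parts U V hUn hUnil hcon)
    obtain ⟨r, hr, hrV⟩ := hex
    haveI : Fact r.Prime := ⟨hr⟩
    set P := Cfsg.pCore r G with hP
    have hPn : P.Normal := pCore_normal r G
    have hPp : IsPGroup r P := pCore_isPGroup r
    have hPF : P ≤ F := by
      apply le_sSup
      refine ⟨hPn, ?_⟩
      exact hPp.isNilpotent
    have hPne : P ≠ ⊥ := by
      intro h
      apply hrV
      rw [h, inf_bot_eq]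
      exact bot_le
    have hr2 : r ≠ 2 := by
      intro h2
      have h1 : r ∣ Nat.card P := by
        obtain ⟨n, hn⟩ := IsPGroup.iff_card.1 hPp
        rw [hn]
        have : n ≠ 0 := by
          intro h0
          rw [h0, pow_zero] at hn
          exact hPne (Subgroup.card_eq_one.1 hn)
        exact dvd_pow_self r this
      have h3 : r ∣ Nat.card F := h1.trans (Subgroup.card_dvd_of_le hPF)
      rw [h2] at h3
      exact (Nat.not_even_iff_odd.2 hodd) (even_iff_two_dvd.2 h3)
    -- r'-elements of C centralize P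
    have hcent : ∀ c ∈ C, (orderOf c).Coprime r → c ∈ Subgroup.centralizer (P : Set G) := by
      intro c hc hcop
      apply cent_of_omega hr2 P hPn hPp c hcop
      intro x hx hxr
      by_cases hx1 : x = 1
      · rw [hx1]; simp
      · have : orderOf x = r := orderOf_eq_prime hxr hx1
        exact hC c hc x (hPF hx) (by rw [this]; exact hr)
    set K := C ⊓ Subgroup.centralizer (P : Set G) with hK
    have hKn : K.Normal := by
      haveI := hCn
      haveI := hPn
      haveI : (Subgroup.centralizer (P : Set G)).Normal := Subgroup.normal_centralizer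
      rw [hK]
      infer_instance
    obtain ⟨R₁⟩ : Nonempty (Sylow r ↥C) := inferInstance
    obtain ⟨R₀, hR₁R₀⟩ := (R₁.2.map C.subtype).exists_le_sylow
    have hPR : P ≤ (R₀ : Subgroup G) := pCore_le_sylow R₀
    -- C ≤ (R₀ ⊓ C) ⊔ K
    have hquot : IsPGroup r (↥C ⧸ K.subgroupOf C) := by
      intro y
      obtain ⟨c, rfl⟩ := QuotientGroup.mk_surjective y
      obtain ⟨e, m, hm, hem⟩ := Nat.exists_eq_pow_mul_and_not_dvd (orderOf_pos (c : G)).ne' r
        hr.ne_one
      refine ⟨e, ?_⟩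
      rw [← QuotientGroup.mk_pow, QuotientGroup.eq_one_iff, Subgroup.mem_subgroupOf]
      refine ⟨(C.pow_mem c.2 _), ?_⟩
      apply hcent _ (C.pow_mem c.2 _)
      have h1 : ((c : G) ^ r ^ e) ^ m = 1 := by
        rw [← pow_mul, ← hem, pow_orderOf_eq_one]
      have h2 : orderOf ((c : G) ^ r ^ e) ∣ m := orderOf_dvd_of_pow_eq_one h1
      have h3 : m.Coprime r := (Nat.Coprime.symm ((Nat.Prime.coprime_iff_not_dvd hr).2 hm))
      exact Nat.Coprime.coprime_dvd_left h2 h3
    have hKidx : ∃ j, K.relIndex C = r ^ j := by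
      obtain ⟨j, hj⟩ := IsPGroup.iff_card.1 hquot
      refine ⟨j, ?_⟩
      rw [← hj]
      rfl
    have hRidx : ¬ r ∣ ((R₀ : Subgroup G) ⊓ C).relIndex C := by
      rw [Subgroup.inf_relIndex_right]
      intro h
      have h1 : (R₀ : Subgroup G).relIndex C ∣ ((R₁ : Subgroup ↥C).map C.subtype).relIndex C :=
        Subgroup.relIndex_dvd_of_le_left C hR₁R₀
      have h2 : ((R₁ : Subgroup ↥C).map C.subtype).relIndex C = (R₁ : Subgroup ↥C).index := by
        show (((R₁ : Subgroup ↥C).map C.subtype).comap C.subtype).index = _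
        rw [Subgroup.comap_map_eq_self_of_injective C.subtype_injective]
      rw [h2] at h1
      exact R₁.not_dvd_index (h.trans h1)
    have hX : C ≤ ((R₀ : Subgroup G) ⊓ C) ⊔ K := by
      rw [← Subgroup.relIndex_eq_one]
      obtain ⟨j, hj⟩ := hKidx
      have h1 : (((R₀ : Subgroup G) ⊓ C) ⊔ K).relIndex C ∣ r ^ j := by
        rw [← hj]
        exact Subgroup.relIndex_dvd_of_le_left C le_sup_right
      have h2 : (((R₀ : Subgroup G) ⊓ C) ⊔ K).relIndex C ∣ ((R₀ : Subgroup G) ⊓ C).relIndex C :=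
        Subgroup.relIndex_dvd_of_le_left C le_sup_left
      obtain ⟨i, -, hi⟩ := (Nat.dvd_prime_pow hr).1 h1
      rw [hi] at h2 ⊢
      rcases Nat.eq_zero_or_pos i with h0 | hpos
      · rw [h0, pow_zero]
      · exact absurd ((dvd_pow_self r hpos.ne').trans h2) hRidx
    -- central element mod V in the Sylow subgroup
    haveI : Group.IsNilpotent ↥(R₀ : Subgroup G) := R₀.2.isNilpotent
    haveI hUPn : (U ⊓ P).Normal := by
      haveI := hUn
      haveI := hPn
      infer_instance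
    have hnle : ¬ (U ⊓ P).subgroupOf (R₀ : Subgroup G) ≤ V.subgroupOf (R₀ : Subgroup G) := by
      intro hle
      apply hrV
      intro x hx
      have hxR : x ∈ (R₀ : Subgroup G) := hPR hx.2
      have : (⟨x, hxR⟩ : ↥(R₀ : Subgroup G)) ∈ V.subgroupOf (R₀ : Subgroup G) :=
        hle (Subgroup.mem_subgroupOf.2 hx)
      exact Subgroup.mem_subgroupOf.1 this
    obtain ⟨x, hxUP, hxV, hxc⟩ := central_mod hnle
    rw [Subgroup.mem_subgroupOf] at hxUP hxV
    have hxW : (x : G) ∈ W := by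
      rw [memW]
      refine ⟨hxUP.1, fun c hc => ?_⟩
      have hc' : c ∈ (((R₀ : Subgroup G) ⊓ C) ⊔ K : Subgroup G) := hX hc
      have hc'' : c ∈ ((((R₀ : Subgroup G) ⊓ C) ⊔ K : Subgroup G) : Set G) := hc'
      haveI := hKn
      rw [Subgroup.mul_normal, Set.mem_mul] at hc''
      obtain ⟨ρ, hρ, k, hk, rfl⟩ := hc''
      have h1 := hxc ⟨ρ, hρ.1⟩
      rw [Subgroup.mem_subgroupOf] at h1
      have h2 : k * (x : G)⁻¹ = (x : G)⁻¹ * k := by
        have := (Subgroup.mem_centralizer_iff.1 hk.2) (x : G)⁻¹ (P.inv_mem hxUP.2)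
        exact this.symm
      have h3 : (x : G) * (ρ * k) * (x : G)⁻¹ * (ρ * k)⁻¹ = (x : G) * ρ * (x : G)⁻¹ * ρ⁻¹ := by
        calc (x : G) * (ρ * k) * (x : G)⁻¹ * (ρ * k)⁻¹
            = (x : G) * ρ * (k * (x : G)⁻¹) * k⁻¹ * ρ⁻¹ := by group
          _ = (x : G) * ρ * ((x : G)⁻¹ * k) * k⁻¹ * ρ⁻¹ := by rw [h2]
          _ = (x : G) * ρ * (x : G)⁻¹ * ρ⁻¹ := by group
      rw [h3]
      exact h1
    rw [hWV] at hxW
    exact hxV hxW
  · intro u hu c hc
    have : u ∈ W := by rw [hWU']; exact hu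
    exact ((memW u).1 this).2 c hc

/-- Let G be a finite solvable group whose Fitting subgroup F(G) has odd order. If an element g of G commutes with every element of prime order of F(G), then g ∈ F(G). -/
theorem result {G : Type*} [Group G] [Finite G] (hG : Group.IsSolvable G) (hodd : Odd (Nat.card (Cfsg.fittingSubgroup G))) (g : G) (hg : ∀ x ∈ Cfsg.fittingSubgroup G, (orderOf x).Prime → g * x = x * g) : g ∈ Cfsg.fittingSubgroup G := by
  classical
  obtain ⟨hFn, hFnil⟩ := Cfsg.Agent.S3766.fitting_mem G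
  set C : Subgroup G :=
    Subgroup.centralizer {x : G | x ∈ Cfsg.fittingSubgroup G ∧ (orderOf x).Prime} with hCdef
  have hCmem : ∀ c : G, c ∈ C ↔
      ∀ x ∈ Cfsg.fittingSubgroup G, (orderOf x).Prime → c * x = x * c := by
    intro c
    rw [hCdef, Subgroup.mem_centralizer_iff]
    constructor
    · intro h x hx hxo
      exact (h x ⟨hx, hxo⟩).symm
    · rintro h x ⟨hx, hxo⟩
      exact (h x hx hxo).symm
  have hCn : C.Normal := by
    constructor
    intro c hc y
    rw [hCmem] at hc ⊢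
    intro x hx hxo
    have h1 : y⁻¹ * x * y ∈ Cfsg.fittingSubgroup G := by
      have := hFn.conj_mem x hx y⁻¹
      simpa using this
    have h2 : orderOf (y⁻¹ * x * y) = orderOf x := by
      have := orderOf_injective (MulAut.conj y⁻¹).toMonoidHom (MulAut.conj y⁻¹).injective x
      simpa using this
    have h3 := hc (y⁻¹ * x * y) h1 (by rw [h2]; exact hxo)
    calc y * c * y⁻¹ * x = y * (c * (y⁻¹ * x * y)) * y⁻¹ := by group
      _ = y * ((y⁻¹ * x * y) * c) * y⁻¹ := by rw [h3]
      _ = x * (y * c * y⁻¹) := by group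
  have hgC : g ∈ C := (hCmem g).2 hg
  apply Cfsg.Agent.S3766.dir3 hG ⊤ (Cfsg.fittingSubgroup G)
    (fun E hE _ hEnil => le_sSup ⟨hE, hEnil⟩) g (Subgroup.mem_top g)
  rintro U V ⟨hUn, hVn, hVU, hmin⟩ hUF u hu
  exact chief_cent hodd C hCn (fun c hc => (hCmem c).1 hc) U V hUn hVn hVU hmin hUF u hu g hgC

end Cfsg.Agent.S3785
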