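import Cfsg.Statements.S3794
import Mathlib
import Cfsg.Agent.S3785

set_option autoImplicit false
open Cfsg

namespace Cfsg.Agent.S3794

universe u

/-- for a fixed-point-free automorphism, `z ↦ z⁻¹ σ(z)` is onto every invariant subgroup -/
theorem surj_on {G : Type*} [Group G] [Finite G] (σ : MulAut G)
    (hfpf : ∀ g : G, σ g = g → g = 1) (N : Subgroup G) (hN : ∀ g ∈ N, σ g ∈ N) :
    ∀ n ∈ N, ∃ z ∈ N, z⁻¹ * σ z = n := by
  let f : ↥N → ↥N := fun z => ⟨z.1⁻¹ * σ z.1, N.mul_mem (N.inv_mem z.2) (hN _ z.2)⟩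
  have hinj : Function.Injective f := by
    intro a b hab
    have h1 : a.1⁻¹ * σ a.1 = b.1⁻¹ * σ b.1 := congrArg Subtype.val hab
    have h2 : σ (a.1 * b.1⁻¹) = a.1 * b.1⁻¹ := by
      rw [map_mul, map_inv]
      have e : σ a.1 = a.1 * (b.1⁻¹ * σ b.1) := by rw [← h1]; group
      rw [e]
      group
    have h3 := hfpf _ h2
    apply Subtype.ext
    have : a.1 = a.1 * b.1⁻¹ * b.1 := by group
    rw [this, h3, one_mul]
  have hsur : Function.Surjective f := Finite.injective_iff_surjective.1 hinj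
  intro n hn
  obtain ⟨z, hz⟩ := hsur ⟨n, hn⟩
  exact ⟨z.1, z.2, congrArg Subtype.val hz⟩

theorem surj {G : Type*} [Group G] [Finite G] (σ : MulAut G)
    (hfpf : ∀ g : G, σ g = g → g = 1) (n : G) : ∃ z, z⁻¹ * σ z = n := by
  obtain ⟨z, -, hz⟩ := surj_on σ hfpf ⊤ (fun _ _ => Subgroup.mem_top _) n (Subgroup.mem_top _)
  exact ⟨z, hz⟩

/-- the norm relation `g σ(g) σ²(g) σ³(g) = 1` -/
theorem norm_one {G : Type*} [Group G] [Finite G] (σ : MulAut G)
    (h4 : ∀ g : G, σ (σ (σ (σ g))) = g)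
    (hfpf : ∀ g : G, σ g = g → g = 1) (g : G) :
    g * σ g * σ (σ g) * σ (σ (σ g)) = 1 := by
  obtain ⟨z, rfl⟩ := surj σ hfpf g
  simp only [map_mul, map_inv, h4]
  group

theorem odd_card {G : Type*} [Group G] [Finite G] (σ : MulAut G)
    (h4 : ∀ g : G, σ (σ (σ (σ g))) = g)
    (hfpf : ∀ g : G, σ g = g → g = 1) : Odd (Nat.card G) := by
  classical
  haveI : Fintype G := Fintype.ofFinite G
  haveI : Fact (Nat.Prime 2) := ⟨Nat.prime_two⟩
  let f : Function.End G := (σ : G → G)
  have hf : f ^ 2 ^ 2 = 1 := by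
    have h1 := hom_coe_pow (fun g : Function.End G => (g : G → G)) rfl (fun _ _ => rfl) f (2 ^ 2)
    have h2 : (f ^ 2 ^ 2 : Function.End G) = (f : G → G)^[2 ^ 2] := h1
    rw [h2]
    funext x
    exact h4 x
  have h := Equiv.Perm.card_fixedPoints_modEq (f := f) (p := 2) (n := 2) hf
  have h1 : Fintype.card (Function.fixedPoints f) = 1 := by
    rw [Fintype.card_eq_one_iff]
    refine ⟨⟨1, map_one σ⟩, fun y => Subtype.ext (hfpf y.1 y.2)⟩
  rw [h1, ← Nat.card_eq_fintype_card] at h
  rw [Nat.odd_iff]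
  exact h

theorem no_inv {G : Type*} [Group G] [Finite G] (σ : MulAut G)
    (h4 : ∀ g : G, σ (σ (σ (σ g))) = g)
    (hfpf : ∀ g : G, σ g = g → g = 1) (g : G) (hg : g * g = 1) : g = 1 := by
  obtain ⟨k, hk⟩ := odd_card σ h4 hfpf
  have h1 : g ^ Nat.card G = 1 := pow_card_eq_one'
  rw [hk, pow_succ, pow_mul, pow_two, hg, one_pow, one_mul] at h1
  exact h1

/-- an element inverted by `σ²` commutes with its image under `σ` -/
theorem comm_img {G : Type*} [Group G] [Finite G] (σ : MulAut G)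
    (hfpf : ∀ g : G, σ g = g → g = 1) (x : G) (hx : σ (σ x) = x⁻¹) :
    x * σ x = σ x * x := by
  obtain ⟨k, hk⟩ := surj σ hfpf x
  have hk' : σ k = k * x := by rw [← hk]; group
  have h1 : σ (k * (x * σ x * x⁻¹ * (σ x)⁻¹) * k⁻¹) = k * (x * σ x * x⁻¹ * (σ x)⁻¹) * k⁻¹ := by
    simp only [map_mul, map_inv, hx, hk']
    group
  have h2 := hfpf _ h1
  have h3 : x * σ x * x⁻¹ * (σ x)⁻¹ = 1 := by
    have : x * σ x * x⁻¹ * (σ x)⁻¹ = k⁻¹ * (k * (x * σ x * x⁻¹ * (σ x)⁻¹) * k⁻¹) * k := by group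
    rw [this, h2]
    group
  calc x * σ x = (x * σ x * x⁻¹ * (σ x)⁻¹) * (σ x * x) := by group
    _ = σ x * x := by rw [h3, one_mul]

/-- the averaging identity in abstract form -/
theorem absK {V B : Type*} [Group V] [Group B] [Fintype B] (hc : ∀ a b : V, a * b = b * a)
    (act : B → V → V) (hmul : ∀ b v w, act b (v * w) = act b v * act b w)
    (hcomp : ∀ a b v, act a (act b v) = act (a * b) v)
    (s : V → V) (β γ : B → B) (hβ : Function.Bijective β) (hγ : Function.Bijective γ)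
    (h : ∀ (v : V) (b : B),
      v * act b (s v) * act (γ b) (s (s v)) * act (β b) (s (s (s v))) = 1)
    (v : V) (a : B) : act a (v ^ Fintype.card B) = v ^ Fintype.card B := by
  letI : CommGroup V := { ‹Group V› with mul_comm := hc }
  let f : B → V →* V := fun b => MonoidHom.mk' (act b) (fun v w => hmul b v w)
  let P : V → V := fun w => ∏ b : B, act b w
  have hP : ∀ a w, act a (P w) = P w := by
    intro a w
    have h1 : act a (P w) = f a (∏ b : B, act b w) := rfl
    rw [h1, map_prod]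
    have h2 : ∀ b : B, f a (act b w) = act (a * b) w := fun b => hcomp a b w
    simp only [h2]
    exact Fintype.prod_bijective (fun b => a * b) (Group.mulLeft_bijective a) _ _ (fun _ => rfl)
  have hβP : ∀ w, ∏ b : B, act (β b) w = P w :=
    fun w => Fintype.prod_bijective β hβ _ _ (fun _ => rfl)
  have hγP : ∀ w, ∏ b : B, act (γ b) w = P w :=
    fun w => Fintype.prod_bijective γ hγ _ _ (fun _ => rfl)
  have h1 : ∏ b : B, (v * act b (s v) * act (γ b) (s (s v)) * act (β b) (s (s (s v)))) = 1 :=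
    Finset.prod_eq_one (fun b _ => h v b)
  rw [Finset.prod_mul_distrib, Finset.prod_mul_distrib, Finset.prod_mul_distrib,
    Finset.prod_const, Finset.card_univ, hβP, hγP] at h1
  have h2 : v ^ Fintype.card B = (P (s v) * P (s (s v)) * P (s (s (s v))))⁻¹ := by
    rw [eq_inv_iff_mul_eq_one, ← h1]
    simp only [mul_assoc]
    rfl
  have h3 : act a ((P (s v) * P (s (s v)) * P (s (s (s v))))⁻¹)
      = (P (s v) * P (s (s v)) * P (s (s (s v))))⁻¹ := by
    have e : act a ((P (s v) * P (s (s v)) * P (s (s (s v))))⁻¹)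
        = f a ((P (s v) * P (s (s v)) * P (s (s (s v))))⁻¹) := rfl
    rw [e, map_inv, map_mul, map_mul]
    have e2 : ∀ w, f a (P w) = P w := fun w => hP a w
    rw [e2, e2, e2]
  have h4 : act a (v ^ Fintype.card B) = act a ((P (s v) * P (s (s v)) * P (s (s (s v))))⁻¹) :=
    congrArg (act a) h2
  exact h4.trans (h3.trans h2.symm)

/-- the key lemma: an element `x` inverted by `σ²` centralizes every invariant abelian normal
subgroup of order prime to the order of `x` -/
theorem key {G : Type*} [Group G] [Finite G] (σ : MulAut G)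
    (h4 : ∀ g : G, σ (σ (σ (σ g))) = g) (hfpf : ∀ g : G, σ g = g → g = 1)
    (V : Subgroup G) (hVn : V.Normal) (hVσ : ∀ v ∈ V, σ v ∈ V)
    (hVc : ∀ a ∈ V, ∀ b ∈ V, a * b = b * a)
    (x : G) (hx : σ (σ x) = x⁻¹)
    (hcop : ∀ q : ℕ, q.Prime → q ∣ Nat.card V → ¬ q ∣ orderOf x) :
    ∀ v ∈ V, x * v = v * x := by
  classical
  have hxc : x * σ x = σ x * x := comm_img σ hfpf x hx
  set B : Subgroup G := Subgroup.closure {x, σ x} with hB
  have hxB : x ∈ B := Subgroup.subset_closure (Set.mem_insert _ _)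
  have hsxB : σ x ∈ B :=
    Subgroup.subset_closure (Set.mem_insert_of_mem _ (Set.mem_singleton _))
  have hBc : ∀ a ∈ B, ∀ b ∈ B, a * b = b * a := by
    have h1 : B ≤ Subgroup.centralizer ({x, σ x} : Set G) := by
      rw [hB, Subgroup.closure_le]
      intro g hg
      rw [SetLike.mem_coe, Subgroup.mem_centralizer_iff]
      intro y hy
      rcases hg with hg | hg <;> rcases hy with hy | hy
      · rw [hg, hy]
      · rw [Set.mem_singleton_iff] at hy
        rw [hg, hy]
        exact hxc.symm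
      · rw [Set.mem_singleton_iff] at hg
        rw [hg, hy]
        exact hxc
      · rw [Set.mem_singleton_iff] at hg hy
        rw [hg, hy]
    intro a ha b hb
    have h2 : B ≤ Subgroup.centralizer ({b} : Set G) := by
      rw [hB, Subgroup.closure_le]
      intro g hg
      rw [SetLike.mem_coe, Subgroup.mem_centralizer_iff]
      intro y hy
      rw [Set.mem_singleton_iff] at hy
      rw [hy]
      exact ((Subgroup.mem_centralizer_iff.1 (h1 hb)) g hg).symm
    exact ((Subgroup.mem_centralizer_iff.1 (h2 ha)) b (Set.mem_singleton _)).symm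
  have hBσ : ∀ b ∈ B, σ b ∈ B := by
    intro b hb
    rw [hB] at hb
    refine Subgroup.closure_induction (p := fun e _ => σ e ∈ B) ?_ ?_ ?_ ?_ hb
    · intro g hg
      rcases hg with hg | hg
      · rw [hg]
        exact hsxB
      · rw [Set.mem_singleton_iff] at hg
        rw [hg, hx]
        exact B.inv_mem hxB
    · rw [map_one]
      exact B.one_mem
    · intro a b _ _ ha hb
      rw [map_mul]
      exact B.mul_mem ha hb
    · intro a _ ha
      rw [map_inv]
      exact B.inv_mem ha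
  have hBτ : ∀ b ∈ B, σ (σ b) = b⁻¹ := by
    intro b hb
    have hb' := hb
    rw [hB] at hb'
    refine Subgroup.closure_induction (p := fun e _ => σ (σ e) = e⁻¹) ?_ ?_ ?_ ?_ hb'
    · intro g hg
      rcases hg with hg | hg
      · rw [hg]
        exact hx
      · rw [Set.mem_singleton_iff] at hg
        rw [hg, hx, map_inv]
    · rw [map_one, map_one, inv_one]
    · intro a b ha' hb' ha hb
      rw [map_mul, map_mul, ha, hb, hBc a (by rw [hB]; exact ha') b (by rw [hB]; exact hb'),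
        mul_inv_rev]
    · intro a _ ha
      rw [map_inv, map_inv, ha]
  have hexp : ∀ b ∈ B, b ^ orderOf x = 1 := by
    intro b hb
    have hb' := hb
    rw [hB] at hb'
    refine Subgroup.closure_induction (p := fun e _ => e ^ orderOf x = 1) ?_ ?_ ?_ ?_ hb'
    · intro g hg
      rcases hg with hg | hg
      · rw [hg]
        exact pow_orderOf_eq_one x
      · rw [Set.mem_singleton_iff] at hg
        rw [hg, ← map_pow, pow_orderOf_eq_one, map_one]
    · exact one_pow _
    · intro a b ha' hb' ha hb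
      have hcm : Commute a b := hBc a (by rw [hB]; exact ha') b (by rw [hB]; exact hb')
      rw [hcm.mul_pow, ha, hb, one_mul]
    · intro a _ ha
      rw [inv_pow, ha, inv_one]
  haveI : Fintype ↥B := Fintype.ofFinite _
  have hcopB : (Nat.card ↥V).Coprime (Fintype.card ↥B) := by
    apply Nat.coprime_of_dvd
    intro k hk hkV hkB
    haveI : Fact k.Prime := ⟨hk⟩
    obtain ⟨b, hb⟩ := exists_prime_orderOf_dvd_card k hkB
    apply hcop k hk hkV
    rw [← hb]
    apply orderOf_dvd_of_pow_eq_one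
    apply Subtype.ext
    have := hexp b.1 b.2
    simpa using this
  let act : ↥B → ↥V → ↥V := fun b v => ⟨b.1 * v.1 * b.1⁻¹, hVn.conj_mem v.1 v.2 b.1⟩
  let s : ↥V → ↥V := fun v => ⟨σ v.1, hVσ v.1 v.2⟩
  let β : ↥B → ↥B := fun b => ⟨σ b.1, hBσ b.1 b.2⟩
  let γ : ↥B → ↥B := fun b => ⟨b.1 * σ b.1, B.mul_mem b.2 (hBσ b.1 b.2)⟩
  have hβ : Function.Bijective β := by
    rw [← Finite.injective_iff_bijective]
    intro a b hab
    exact Subtype.ext (σ.injective (congrArg Subtype.val hab))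
  have hγ : Function.Bijective γ := by
    rw [← Finite.injective_iff_bijective]
    intro a b hab
    have h1 : a.1 * σ a.1 = b.1 * σ b.1 := congrArg Subtype.val hab
    have hd : (a.1⁻¹ * b.1) ∈ B := B.mul_mem (B.inv_mem a.2) b.2
    have h2 : σ (a.1⁻¹ * b.1) = (a.1⁻¹ * b.1)⁻¹ := by
      rw [map_mul, map_inv]
      have e : σ b.1 = b.1⁻¹ * (a.1 * σ a.1) := by rw [h1]; group
      rw [e]
      have c1 := hBc (σ a.1) (hBσ _ a.2) (b.1⁻¹ * a.1) (B.mul_mem (B.inv_mem b.2) a.2)
      calc (σ a.1)⁻¹ * (b.1⁻¹ * (a.1 * σ a.1))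
          = (σ a.1)⁻¹ * ((b.1⁻¹ * a.1) * σ a.1) := by group
        _ = (σ a.1)⁻¹ * (σ a.1 * (b.1⁻¹ * a.1)) := by rw [c1]
        _ = (a.1⁻¹ * b.1)⁻¹ := by group
    have h3 : σ (σ (a.1⁻¹ * b.1)) = a.1⁻¹ * b.1 := by rw [h2, map_inv, h2, inv_inv]
    have h5 : (a.1⁻¹ * b.1) * (a.1⁻¹ * b.1) = 1 := by
      have h6 := hBτ _ hd
      rw [h3] at h6
      calc (a.1⁻¹ * b.1) * (a.1⁻¹ * b.1) = (a.1⁻¹ * b.1) * (a.1⁻¹ * b.1)⁻¹ := by rw [← h6]
        _ = 1 := mul_inv_cancel _
    have h7 := no_inv σ h4 hfpf _ h5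
    apply Subtype.ext
    calc a.1 = a.1 * (a.1⁻¹ * b.1) := by rw [h7, mul_one]
      _ = b.1 := by group
  have hid : ∀ (v : ↥V) (b : ↥B),
      v * act b (s v) * act (γ b) (s (s v)) * act (β b) (s (s (s v))) = 1 := by
    intro v b
    apply Subtype.ext
    have hb2 : σ (σ b.1) = b.1⁻¹ := hBτ b.1 b.2
    have hcb : b.1 * σ b.1 = σ b.1 * b.1 := hBc _ b.2 _ (hBσ _ b.2)
    have hn : v.1 * b.1 * (σ v.1 * σ b.1) * (σ (σ v.1) * b.1⁻¹)
        * (σ (σ (σ v.1)) * (σ b.1)⁻¹) = 1 := by
      have := norm_one σ h4 hfpf (v.1 * b.1)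
      simpa only [map_mul, map_inv, hb2] using this
    have e : (σ b.1)⁻¹ * b.1⁻¹ * σ b.1 = b.1⁻¹ := by
      calc (σ b.1)⁻¹ * b.1⁻¹ * σ b.1 = (σ b.1)⁻¹ * b.1⁻¹ * (σ b.1 * b.1) * b.1⁻¹ := by group
        _ = (σ b.1)⁻¹ * b.1⁻¹ * (b.1 * σ b.1) * b.1⁻¹ := by rw [hcb]
        _ = b.1⁻¹ := by group
    show v.1 * (b.1 * σ v.1 * b.1⁻¹) * (b.1 * σ b.1 * σ (σ v.1) * (b.1 * σ b.1)⁻¹)
      * (σ b.1 * σ (σ (σ v.1)) * (σ b.1)⁻¹) = 1
    rw [← hn]
    calc v.1 * (b.1 * σ v.1 * b.1⁻¹) * (b.1 * σ b.1 * σ (σ v.1) * (b.1 * σ b.1)⁻¹)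
          * (σ b.1 * σ (σ (σ v.1)) * (σ b.1)⁻¹)
        = v.1 * b.1 * σ v.1 * σ b.1 * σ (σ v.1) * ((σ b.1)⁻¹ * b.1⁻¹ * σ b.1)
          * σ (σ (σ v.1)) * (σ b.1)⁻¹ := by group
      _ = v.1 * b.1 * σ v.1 * σ b.1 * σ (σ v.1) * b.1⁻¹ * σ (σ (σ v.1)) * (σ b.1)⁻¹ := by
          rw [e]
      _ = v.1 * b.1 * (σ v.1 * σ b.1) * (σ (σ v.1) * b.1⁻¹)
          * (σ (σ (σ v.1)) * (σ b.1)⁻¹) := by group
  have hK := absK (V := ↥V) (B := ↥B) (fun a b => Subtype.ext (hVc a.1 a.2 b.1 b.2)) act
    (fun b v w => Subtype.ext (by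
      show b.1 * (v.1 * w.1) * b.1⁻¹ = (b.1 * v.1 * b.1⁻¹) * (b.1 * w.1 * b.1⁻¹)
      group))
    (fun a b v => Subtype.ext (by
      show a.1 * (b.1 * v.1 * b.1⁻¹) * a.1⁻¹ = (a.1 * b.1) * v.1 * (a.1 * b.1)⁻¹
      group))
    s β γ hβ hγ hid
  intro v hv
  have h1 := hK ⟨v, hv⟩ ⟨x, hxB⟩
  have h2 : (act ⟨x, hxB⟩ ⟨v, hv⟩) ^ Fintype.card ↥B = (⟨v, hv⟩ : ↥V) ^ Fintype.card ↥B := by
    rw [← h1]
    apply Subtype.ext
    show (x * v * x⁻¹) ^ Fintype.card ↥B = x * v ^ Fintype.card ↥B * x⁻¹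
    rw [conj_pow]
  have h3 := (powCoprime hcopB).injective
    (show powCoprime hcopB (act ⟨x, hxB⟩ ⟨v, hv⟩) = powCoprime hcopB ⟨v, hv⟩ from h2)
  have h5 : x * v * x⁻¹ = v := congrArg Subtype.val h3
  calc x * v = (x * v * x⁻¹) * x := by group
    _ = v * x := by rw [h5]

theorem map_eq {G : Type*} [Group G] [Finite G] (σ : MulAut G) (N : Subgroup G)
    (hN : ∀ g ∈ N, σ g ∈ N) : N.map (σ : G →* G) = N := by
  apply Subgroup.eq_of_le_of_card_ge
  · rintro _ ⟨x, hx, rfl⟩
    exact hN x hx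
  · rw [Subgroup.card_map_of_injective (f := (σ : G →* G)) σ.injective]

/-- the induced automorphism of the quotient by an invariant normal subgroup is
fixed-point-free -/
theorem q_fpf {G : Type*} [Group G] [Finite G] (σ : MulAut G)
    (hfpf : ∀ g : G, σ g = g → g = 1) (N : Subgroup G) [N.Normal]
    (hN : ∀ g ∈ N, σ g ∈ N) (h : N.map (σ : G →* G) = N) :
    ∀ q : G ⧸ N, QuotientGroup.congr N N σ h q = q → q = 1 := by
  intro q
  induction q using QuotientGroup.induction_on with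
  | H g =>
    intro hq
    have hq' : (QuotientGroup.mk (σ g) : G ⧸ N) = QuotientGroup.mk g := hq
    have h1 : (σ g)⁻¹ * g ∈ N := QuotientGroup.eq.mp hq'
    have h2 : g⁻¹ * σ g ∈ N := by
      have := N.inv_mem h1
      simpa using this
    obtain ⟨z, hz, hz'⟩ := surj_on σ hfpf N hN _ h2
    have h3 : σ (g * z⁻¹) = g * z⁻¹ := by
      rw [map_mul, map_inv]
      have e : σ g = g * (z⁻¹ * σ z) := by rw [hz']; group
      rw [e]
      group
    have h4' := hfpf _ h3
    have : g = z := by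
      calc g = g * z⁻¹ * z := by group
        _ = z := by rw [h4', one_mul]
    rw [this]
    exact (QuotientGroup.eq_one_iff z).mpr hz

/-- an element of order prime to `p` inverted by `σ²` centralizes every invariant normal
`p`-subgroup -/
theorem cent_pgroup : ∀ (n : ℕ) (G : Type u) [Group G] [Finite G] (σ : MulAut G),
    Nat.card G = n → (∀ g : G, σ (σ (σ (σ g))) = g) → (∀ g : G, σ g = g → g = 1) →
    ∀ (p : ℕ) [Fact p.Prime] (P : Subgroup G), P.Normal → (∀ v ∈ P, σ v ∈ P) → IsPGroup p P →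
    ∀ x : G, σ (σ x) = x⁻¹ → (orderOf x).Coprime p → ∀ v ∈ P, x * v = v * x := by
  intro n
  induction n using Nat.strong_induction_on with
  | _ n ih =>
    intro G _ _ σ hn h4 hfpf p _ P hPn hPσ hPp x hx hcop v hv
    by_cases hbot : P = ⊥
    · rw [hbot, Subgroup.mem_bot] at hv
      rw [hv, mul_one, one_mul]
    let Z : Subgroup G := P ⊓ Subgroup.centralizer (P : Set G)
    have hZmem : ∀ g, g ∈ Z ↔ g ∈ P ∧ ∀ w ∈ P, w * g = g * w := by
      intro g
      show g ∈ P ⊓ Subgroup.centralizer (P : Set G) ↔ _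
      rw [Subgroup.mem_inf, Subgroup.mem_centralizer_iff]
      rfl
    have hZn : Z.Normal := by
      constructor
      intro g hg h
      rw [hZmem] at hg ⊢
      refine ⟨hPn.conj_mem g hg.1 h, fun w hw => ?_⟩
      have h1 : h⁻¹ * w * h ∈ P := by
        have := hPn.conj_mem w hw h⁻¹
        simpa using this
      have h2 := hg.2 _ h1
      calc w * (h * g * h⁻¹) = h * ((h⁻¹ * w * h) * g) * h⁻¹ := by group
        _ = h * (g * (h⁻¹ * w * h)) * h⁻¹ := by rw [h2]
        _ = h * g * h⁻¹ * w := by group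
    have hZσ : ∀ g ∈ Z, σ g ∈ Z := by
      intro g hg
      rw [hZmem] at hg ⊢
      refine ⟨hPσ g hg.1, fun w hw => ?_⟩
      have h1 : σ (σ (σ w)) ∈ P := hPσ _ (hPσ _ (hPσ _ hw))
      have h2 := hg.2 _ h1
      have h3 := congrArg σ h2
      rw [map_mul, map_mul, h4] at h3
      exact h3
    have hZc : ∀ a ∈ Z, ∀ b ∈ Z, a * b = b * a := by
      intro a ha b hb
      exact ((hZmem b).1 hb).2 a ((hZmem a).1 ha).1
    have hZne : Z ≠ ⊥ := by
      haveI : Nontrivial ↥P := (Subgroup.nontrivial_iff_ne_bot P).2 hbot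
      haveI : Nontrivial (Subgroup.center ↥P) := hPp.center_nontrivial
      obtain ⟨z, hz⟩ := exists_ne (1 : Subgroup.center ↥P)
      intro h
      apply hz
      have h1 : (z.1.1 : G) ∈ Z := by
        rw [hZmem]
        refine ⟨z.1.2, fun w hw => ?_⟩
        have := Subgroup.mem_center_iff.1 z.2 ⟨w, hw⟩
        exact congrArg Subtype.val this
      rw [h, Subgroup.mem_bot] at h1
      apply Subtype.ext
      apply Subtype.ext
      exact h1
    have hZP : Z ≤ P := inf_le_left
    have hxZ : ∀ z ∈ Z, x * z = z * x := by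
      apply key σ h4 hfpf Z hZn hZσ hZc x hx
      intro q hq hqZ hqx
      have hZp : IsPGroup p Z := hPp.to_le hZP
      obtain ⟨k, hk⟩ := IsPGroup.iff_card.1 hZp
      rw [hk] at hqZ
      have hqp : q = p := (Nat.prime_dvd_prime_iff_eq hq Fact.out).1 (hq.dvd_of_dvd_pow hqZ)
      rw [hqp] at hqx
      have h1 := Nat.dvd_gcd hqx (dvd_refl p)
      rw [Nat.Coprime] at hcop
      rw [hcop] at h1
      exact (Fact.out : p.Prime).one_lt.ne' (Nat.dvd_one.1 h1)
    have hmap : Z.map (σ : G →* G) = Z := map_eq σ Z hZσ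
    let σ' : MulAut (G ⧸ Z) := QuotientGroup.congr Z Z σ hmap
    have hmk : ∀ g : G, σ' (QuotientGroup.mk g) = QuotientGroup.mk (σ g) := fun g => rfl
    have hlt : Nat.card (G ⧸ Z) < n := by
      rw [← hn, Subgroup.card_eq_card_quotient_mul_card_subgroup Z]
      have h1 : 1 < Nat.card Z := (Subgroup.one_lt_card_iff_ne_bot Z).2 hZne
      have h2 : 0 < Nat.card (G ⧸ Z) := Nat.card_pos
      nlinarith
    have h4' : ∀ q : G ⧸ Z, σ' (σ' (σ' (σ' q))) = q := by
      intro q
      induction q using QuotientGroup.induction_on with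
      | H g => rw [hmk, hmk, hmk, hmk, h4]
    have hfpf' : ∀ q : G ⧸ Z, σ' q = q → q = 1 := q_fpf σ hfpf Z hZσ hmap
    let P' : Subgroup (G ⧸ Z) := P.map (QuotientGroup.mk' Z)
    have hP'n : P'.Normal := hPn.map _ (QuotientGroup.mk'_surjective Z)
    have hP'σ : ∀ w ∈ P', σ' w ∈ P' := by
      rintro _ ⟨w, hw, rfl⟩
      exact ⟨σ w, hPσ w hw, rfl⟩
    have hP'p : IsPGroup p P' := hPp.map _
    have hx' : σ' (σ' (QuotientGroup.mk x : G ⧸ Z)) = (QuotientGroup.mk x : G ⧸ Z)⁻¹ := by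
      rw [hmk, hmk, hx]
      rfl
    have hcop' : (orderOf (QuotientGroup.mk x : G ⧸ Z)).Coprime p := by
      have h1 : orderOf (QuotientGroup.mk x : G ⧸ Z) ∣ orderOf x := by
        apply orderOf_dvd_of_pow_eq_one
        rw [← QuotientGroup.mk_pow, pow_orderOf_eq_one]
        rfl
      exact Nat.Coprime.coprime_dvd_left h1 hcop
    have hq := ih _ hlt (G ⧸ Z) σ' rfl h4' hfpf' p P' hP'n hP'σ hP'p _ hx' hcop'
      (QuotientGroup.mk v) ⟨v, hv, rfl⟩
    have hz : (v * x)⁻¹ * (x * v) ∈ Z := by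
      apply QuotientGroup.eq.1
      exact hq.symm
    set z := (v * x)⁻¹ * (x * v) with hzdef
    have hxz : x * z = z * x := hxZ z hz
    have e1 : x * v = v * x * z := by rw [hzdef]; group
    have hcz : ∀ j : ℕ, x ^ j * z = z * x ^ j := by
      intro j
      exact (Commute.pow_left (show Commute x z from hxz) j).eq
    have hconj : ∀ k : ℕ, x ^ k * v = v * z ^ k * x ^ k := by
      intro k
      induction k with
      | zero => simp
      | succ k ihk =>
        calc x ^ (k + 1) * v = x ^ k * (x * v) := by rw [pow_succ]; group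
          _ = x ^ k * (v * x * z) := by rw [e1]
          _ = (x ^ k * v) * x * z := by group
          _ = (v * z ^ k * x ^ k) * x * z := by rw [ihk]
          _ = v * z ^ k * (x ^ (k + 1) * z) := by rw [pow_succ]; group
          _ = v * z ^ k * (z * x ^ (k + 1)) := by rw [hcz]
          _ = v * z ^ (k + 1) * x ^ (k + 1) := by rw [pow_succ z]; group
    have h5 := hconj (orderOf x)
    rw [pow_orderOf_eq_one, one_mul, mul_one] at h5
    have h6 : z ^ orderOf x = 1 := by
      have : v * z ^ orderOf x = v * 1 := by rw [mul_one]; exact h5.symm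
      exact mul_left_cancel this
    obtain ⟨j, hj⟩ := hPp ⟨z, hZP hz⟩
    have h7 : z ^ p ^ j = 1 := by
      have := congrArg Subtype.val hj
      simpa using this
    have h8 : z ^ Nat.gcd (orderOf x) (p ^ j) = 1 := pow_gcd_eq_one.2 ⟨h6, h7⟩
    have h9 : Nat.gcd (orderOf x) (p ^ j) = 1 := Nat.Coprime.pow_right j hcop
    rw [h9, pow_one] at h8
    rw [e1, h8, mul_one]

theorem main : ∀ (n : ℕ) (G : Type u) [Group G] [Finite G], Nat.card G = n →
    Group.IsSolvable G → ∀ σ : MulAut G, (∀ g : G, σ (σ (σ (σ g))) = g) →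
    (∀ g : G, σ g = g → g = 1) → Group.IsNilpotent (commutator G) := by
  intro n
  induction n using Nat.strong_induction_on with
  | _ n ih =>
    intro G _ _ hn hG σ h4 hfpf
    classical
    let 𝒮 : Set (Subgroup G) := {N | N ≠ ⊥ ∧ N.Normal ∧ ∀ g ∈ N, σ g ∈ N}
    by_cases hS : 𝒮.Nonempty
    swap
    · have htop : (⊤ : Subgroup G) = ⊥ := by
        by_contra h
        exact hS ⟨⊤, h, inferInstance, fun _ _ => Subgroup.mem_top _⟩
      haveI : Subsingleton G := by
        constructor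
        intro a b
        have ha : a ∈ (⊤ : Subgroup G) := Subgroup.mem_top a
        have hb : b ∈ (⊤ : Subgroup G) := Subgroup.mem_top b
        rw [htop, Subgroup.mem_bot] at ha hb
        rw [ha, hb]
      infer_instance
    obtain ⟨N, hNmin⟩ := Set.Finite.exists_minimal (Set.toFinite 𝒮) hS
    obtain ⟨hNne, hNn, hNσ⟩ := hNmin.1
    have hquot : ∀ (M : Subgroup G) [M.Normal], M ≠ ⊥ → (∀ g ∈ M, σ g ∈ M) →
        Group.IsNilpotent (commutator (G ⧸ M)) := by
      intro M _ hMne hMσ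
      have hmap : M.map (σ : G →* G) = M := map_eq σ M hMσ
      let σ' : MulAut (G ⧸ M) := QuotientGroup.congr M M σ hmap
      have hmk : ∀ g : G, σ' (QuotientGroup.mk g) = QuotientGroup.mk (σ g) := fun g => rfl
      have hlt : Nat.card (G ⧸ M) < n := by
        rw [← hn, Subgroup.card_eq_card_quotient_mul_card_subgroup M]
        have h1 : 1 < Nat.card M := (Subgroup.one_lt_card_iff_ne_bot M).2 hMne
        have h2 : 0 < Nat.card (G ⧸ M) := Nat.card_pos
        nlinarith
      have h4' : ∀ q : G ⧸ M, σ' (σ' (σ' (σ' q))) = q := by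
        intro q
        induction q using QuotientGroup.induction_on with
        | H g => rw [hmk, hmk, hmk, hmk, h4]
      have hfpf' : ∀ q : G ⧸ M, σ' q = q → q = 1 := q_fpf σ hfpf M hMσ hmap
      haveI := hG
      exact ih _ hlt (G ⧸ M) rfl inferInstance σ' h4' hfpf'
    by_cases huniq : ∀ M ∈ 𝒮, N ≤ M
    swap
    · push Not at huniq
      obtain ⟨M, ⟨hMne, hMn, hMσ⟩, hNM⟩ := huniq
      haveI := hNn
      haveI := hMn
      have hinf : N ⊓ M = ⊥ := by
        by_contra h
        have h1 : N ⊓ M ∈ 𝒮 := ⟨h, inferInstance, fun g hg => ⟨hNσ g hg.1, hMσ g hg.2⟩⟩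
        have h2 : N ≤ N ⊓ M := hNmin.2 h1 inf_le_left
        exact hNM (h2.trans inf_le_right)
      have hN' := hquot N hNne hNσ
      have hM' := hquot M hMne hMσ
      have hc : ∀ (K : Subgroup G) [K.Normal], ∀ g : ↥(commutator G),
          (QuotientGroup.mk' K).comp (commutator G).subtype g ∈ commutator (G ⧸ K) := by
        intro K _ g
        have h1 : (commutator G).map (QuotientGroup.mk' K) ≤ commutator (G ⧸ K) := by
          rw [commutator_def, commutator_def, Subgroup.map_commutator]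
          exact Subgroup.commutator_mono le_top le_top
        exact h1 ⟨g.1, g.2, rfl⟩
      let f : ↥(commutator G) →* ↥(commutator (G ⧸ N)) × ↥(commutator (G ⧸ M)) :=
        MonoidHom.prod
          (((QuotientGroup.mk' N).comp (commutator G).subtype).codRestrict _ (hc N))
          (((QuotientGroup.mk' M).comp (commutator G).subtype).codRestrict _ (hc M))
      have hinj : Function.Injective f := by
        rw [injective_iff_map_eq_one]
        intro g hg
        have h1 : (QuotientGroup.mk g.1 : G ⧸ N) = 1 :=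
          congrArg (fun t : ↥(commutator (G ⧸ N)) × ↥(commutator (G ⧸ M)) => (t.1 : G ⧸ N)) hg
        have h2 : (QuotientGroup.mk g.1 : G ⧸ M) = 1 :=
          congrArg (fun t : ↥(commutator (G ⧸ N)) × ↥(commutator (G ⧸ M)) => (t.2 : G ⧸ M)) hg
        rw [QuotientGroup.eq_one_iff] at h1 h2
        have h3 : g.1 ∈ N ⊓ M := ⟨h1, h2⟩
        rw [hinf, Subgroup.mem_bot] at h3
        exact Subtype.ext h3
      haveI := hN'
      haveI := hM'
      exact Group.nilpotent_of_mulEquiv (MonoidHom.ofInjective hinj).symm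
    -- now `N` is the unique minimal invariant normal subgroup
    set F : Subgroup G := Cfsg.fittingSubgroup G with hFdef
    obtain ⟨hFn, hFnil⟩ := Cfsg.Agent.S3766.fitting_mem G
    have hFchar := Cfsg.Agent.S3766.fitting_char G
    have hFσ : ∀ g ∈ F, σ g ∈ F := by
      intro g hg
      exact (Subgroup.characteristic_iff_map_le.1 hFchar σ) ⟨g, hg, rfl⟩
    have hodd : Odd (Nat.card G) := odd_card σ h4 hfpf
    have hoddF : Odd (Nat.card F) := Odd.of_dvd_nat hodd (Subgroup.card_subgroup_dvd_card F)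
    have hCF : ∀ g : G, (∀ y ∈ F, g * y = y * g) → g ∈ F :=
      fun g hg => Cfsg.Agent.S3785.result hG hoddF g (fun y hy _ => hg y hy)
    have hNcard : Nat.card N ≠ 1 := by
      have := (Subgroup.one_lt_card_iff_ne_bot N).2 hNne
      omega
    obtain ⟨p, hp, hpN⟩ := Nat.exists_prime_and_dvd hNcard
    haveI : Fact p.Prime := ⟨hp⟩
    have hFp : IsPGroup p F := by
      have hle : F ≤ Cfsg.pCore p G := by
        apply Cfsg.Agent.S3785.le_of_pCore_parts F (Cfsg.pCore p G) hFn hFnil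
        intro r hr
        by_cases hrp : r = p
        · rw [hrp]
          exact inf_le_right
        · haveI : Fact r.Prime := ⟨hr⟩
          have hbot : Cfsg.pCore r G = ⊥ := by
            by_contra hne
            have hmemS : Cfsg.pCore r G ∈ 𝒮 := by
              refine ⟨hne, Cfsg.Agent.S3785.pCore_normal r G, ?_⟩
              intro g hg
              have h1 : (Cfsg.pCore r G).map (σ : G →* G)
                  ≤ sSup {N : Subgroup G | N.Normal ∧ IsPGroup r N} :=
                le_sSup ⟨(Cfsg.Agent.S3785.pCore_normal r G).map _ σ.surjective,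
                  (Cfsg.Agent.S3785.pCore_isPGroup r).map _⟩
              exact h1 ⟨g, hg, rfl⟩
            have h2 : N ≤ Cfsg.pCore r G := huniq _ hmemS
            have h3 : IsPGroup r N := (Cfsg.Agent.S3785.pCore_isPGroup r).to_le h2
            obtain ⟨k, hk⟩ := IsPGroup.iff_card.1 h3
            rw [hk] at hpN
            exact hrp ((Nat.prime_dvd_prime_iff_eq hp hr).1 (hp.dvd_of_dvd_pow hpN)).symm
          rw [hbot]
          exact inf_le_right.trans bot_le
      exact (Cfsg.Agent.S3785.pCore_isPGroup p).to_le hle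
    have hA : ∀ x : G, σ (σ x) = x⁻¹ → (orderOf x).Coprime p → x = 1 := by
      intro x hx hcop
      have h1 := cent_pgroup _ G σ rfl h4 hfpf p F hFn hFσ hFp x hx hcop
      have h2 : x ∈ F := hCF x h1
      obtain ⟨k, hk⟩ := hFp ⟨x, h2⟩
      have h3 : x ^ p ^ k = 1 := by
        have := congrArg Subtype.val hk
        simpa using this
      have h5 : x ^ Nat.gcd (orderOf x) (p ^ k) = 1 :=
        pow_gcd_eq_one.2 ⟨pow_orderOf_eq_one x, h3⟩
      rw [Nat.Coprime.pow_right k hcop, pow_one] at h5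
      exact h5
    have hA' : ∀ x : G, σ (σ x) = x⁻¹ → ∃ k : ℕ, x ^ p ^ k = 1 := by
      intro x hx
      obtain ⟨k, m, hm, hkm⟩ :=
        Nat.exists_eq_pow_mul_and_not_dvd (orderOf_pos x).ne' p hp.ne_one
      refine ⟨k, ?_⟩
      apply hA
      · rw [map_pow, map_pow, hx, inv_pow]
      · have h1 : orderOf (x ^ p ^ k) ∣ m := by
          apply orderOf_dvd_of_pow_eq_one
          rw [← pow_mul, ← hkm, pow_orderOf_eq_one]
        exact Nat.Coprime.coprime_dvd_left h1 ((Nat.Prime.coprime_iff_not_dvd hp).2 hm).symm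
    haveI := hFn
    have hmapF : F.map (σ : G →* G) = F := map_eq σ F hFσ
    let σ' : MulAut (G ⧸ F) := QuotientGroup.congr F F σ hmapF
    have hmk : ∀ g : G, σ' (QuotientGroup.mk g) = QuotientGroup.mk (σ g) := fun g => rfl
    have hfpf' : ∀ q : G ⧸ F, σ' q = q → q = 1 := q_fpf σ hfpf F hFσ hmapF
    set F₂ : Subgroup (G ⧸ F) := Cfsg.fittingSubgroup (G ⧸ F) with hF₂def
    obtain ⟨hF₂n, hF₂nil⟩ := Cfsg.Agent.S3766.fitting_mem (G ⧸ F)
    have hF₂char := Cfsg.Agent.S3766.fitting_char (G ⧸ F)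
    have hF₂σ : ∀ q ∈ F₂, σ' q ∈ F₂ :=
      fun q hq => (Subgroup.characteristic_iff_map_le.1 hF₂char σ') ⟨q, hq, rfl⟩
    haveI hsolQ : Group.IsSolvable (G ⧸ F) := by
      haveI := hG
      infer_instance
    have hoddQ : Odd (Nat.card (G ⧸ F)) :=
      Odd.of_dvd_nat hodd (Subgroup.card_quotient_dvd_card F)
    have hoddF₂ : Odd (Nat.card F₂) :=
      Odd.of_dvd_nat hoddQ (Subgroup.card_subgroup_dvd_card F₂)
    have hCF₂ : ∀ q : G ⧸ F, (∀ y ∈ F₂, q * y = y * q) → q ∈ F₂ :=
      fun q hq => Cfsg.Agent.S3785.result hsolQ hoddF₂ q (fun y hy _ => hq y hy)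
    have hF₂p : ¬ p ∣ Nat.card F₂ := by
      obtain ⟨S₀⟩ : Nonempty (Sylow p ↥F₂) := inferInstance
      haveI := hF₂nil
      haveI := hF₂n
      have hSn : (S₀ : Subgroup ↥F₂).Normal := inferInstance
      haveI hSc : (S₀ : Subgroup ↥F₂).Characteristic := Sylow.characteristic_of_normal S₀ hSn
      have hSG : ((S₀ : Subgroup ↥F₂).map F₂.subtype).Normal :=
        ConjAct.normal_of_characteristic_of_normal
      have hSp : IsPGroup p ((S₀ : Subgroup ↥F₂).map F₂.subtype) := S₀.2.map F₂.subtype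
      let T : Subgroup G := ((S₀ : Subgroup ↥F₂).map F₂.subtype).comap (QuotientGroup.mk' F)
      have hTn : T.Normal := hSG.comap _
      have hTp : IsPGroup p T :=
        hSp.comap_of_ker_isPGroup (QuotientGroup.mk' F) (by rw [QuotientGroup.ker_mk']; exact hFp)
      have hTF : T ≤ F := by
        rw [hFdef]
        unfold Cfsg.fittingSubgroup
        exact le_sSup ⟨hTn, hTp.isNilpotent⟩
      have hbot : (S₀ : Subgroup ↥F₂) = ⊥ := by
        rw [eq_bot_iff]
        intro y hy
        obtain ⟨g, hg⟩ := QuotientGroup.mk'_surjective F y.1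
        have h1 : g ∈ T := by
          show QuotientGroup.mk' F g ∈ (S₀ : Subgroup ↥F₂).map F₂.subtype
          rw [hg]
          exact ⟨y, hy, rfl⟩
        have h2 : y.1 = 1 := by
          rw [← hg]
          exact (QuotientGroup.eq_one_iff g).2 (hTF h1)
        rw [Subgroup.mem_bot]
        exact Subtype.ext h2
      have h3 := S₀.not_dvd_index
      rw [hbot, Subgroup.index_bot] at h3
      exact h3
    have hF₂el : ∀ y ∈ F₂, ∀ k : ℕ, y ^ p ^ k = 1 → y = 1 := by
      intro y hy k hk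
      have h1 : orderOf (⟨y, hy⟩ : ↥F₂) ∣ p ^ k := by
        apply orderOf_dvd_of_pow_eq_one
        apply Subtype.ext
        simpa using hk
      obtain ⟨j, -, hj⟩ := (Nat.dvd_prime_pow hp).1 h1
      have h2 : orderOf (⟨y, hy⟩ : ↥F₂) ∣ Nat.card F₂ := orderOf_dvd_natCard _
      rcases Nat.eq_zero_or_pos j with h0 | hpos
      · rw [h0, pow_zero, orderOf_eq_one_iff] at hj
        exact congrArg Subtype.val hj
      · exfalso
        apply hF₂p
        rw [hj] at h2
        exact (dvd_pow_self p hpos.ne').trans h2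
    have hw : ∀ q : G ⧸ F, ∃ k : ℕ, (q⁻¹ * σ' (σ' q)) ^ p ^ k = 1 := by
      intro q
      induction q using QuotientGroup.induction_on with
      | H g =>
        have hx : σ (σ (g⁻¹ * σ (σ g))) = (g⁻¹ * σ (σ g))⁻¹ := by
          simp only [map_mul, map_inv, h4]
          group
        obtain ⟨k, hk⟩ := hA' _ hx
        refine ⟨k, ?_⟩
        rw [hmk, hmk]
        have e : ((QuotientGroup.mk g : G ⧸ F))⁻¹ * QuotientGroup.mk (σ (σ g))
            = QuotientGroup.mk (g⁻¹ * σ (σ g)) := rfl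
        rw [e, ← QuotientGroup.mk_pow, hk]
        rfl
    have hτF₂ : ∀ y ∈ F₂, σ' (σ' y) = y := by
      intro y hy
      obtain ⟨k, hk⟩ := hw y
      have h1 : y⁻¹ * σ' (σ' y) ∈ F₂ := F₂.mul_mem (F₂.inv_mem hy) (hF₂σ _ (hF₂σ _ hy))
      have h2 := hF₂el _ h1 k hk
      calc σ' (σ' y) = y * (y⁻¹ * σ' (σ' y)) := by group
        _ = y := by rw [h2, mul_one]
    have hτ : ∀ q : G ⧸ F, σ' (σ' q) = q := by
      intro q
      obtain ⟨k, hk⟩ := hw q
      have h1 : q⁻¹ * σ' (σ' q) ∈ F₂ := by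
        apply hCF₂
        intro f hf
        have h2 : q * f * q⁻¹ ∈ F₂ := hF₂n.conj_mem f hf q
        have h3 := hτF₂ _ h2
        rw [map_mul, map_mul, map_mul, map_mul, map_inv, map_inv, hτF₂ f hf] at h3
        calc q⁻¹ * σ' (σ' q) * f
            = q⁻¹ * (σ' (σ' q) * f * (σ' (σ' q))⁻¹) * σ' (σ' q) := by group
          _ = q⁻¹ * (q * f * q⁻¹) * σ' (σ' q) := by rw [h3]
          _ = f * (q⁻¹ * σ' (σ' q)) := by group
      have h2 := hF₂el _ h1 k hk
      calc σ' (σ' q) = q * (q⁻¹ * σ' (σ' q)) := by group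
        _ = q := by rw [h2, mul_one]
    have hinv : ∀ q : G ⧸ F, σ' q = q⁻¹ := by
      intro q
      obtain ⟨z, rfl⟩ := surj σ' hfpf' q
      rw [map_mul, map_inv, hτ]
      group
    have hab : ∀ a b : G ⧸ F, a * b = b * a := by
      intro a b
      have h1 := hinv (a * b)
      rw [map_mul, hinv, hinv] at h1
      have h2 : (a⁻¹ * b⁻¹)⁻¹ = ((a * b)⁻¹)⁻¹ := by rw [h1]
      rw [mul_inv_rev, inv_inv, inv_inv, inv_inv] at h2
      exact h2.symm
    have hcomm : commutator G ≤ F := by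
      rw [commutator_def, Subgroup.commutator_le]
      intro a _ b _
      rw [← QuotientGroup.eq_one_iff]
      show (QuotientGroup.mk a : G ⧸ F) * QuotientGroup.mk b * (QuotientGroup.mk a)⁻¹
        * (QuotientGroup.mk b)⁻¹ = 1
      rw [hab (QuotientGroup.mk a) (QuotientGroup.mk b)]
      group
    haveI := hFnil
    exact Group.nilpotent_of_mulEquiv (Subgroup.subgroupOfEquivOfLe hcomm)

/-- Let G be a finite solvable group with an automorphism σ satisfying σ⁴ = 1 and fixing only the identity. Then the derived subgroup G' is nilpotent. -/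
theorem result {G : Type*} [Group G] [Finite G] (hG : Group.IsSolvable G) (σ : MulAut G) (hσ : σ ^ 4 = 1) (hfpf : ∀ g : G, σ g = g → g = 1) : Group.IsNilpotent (commutator G) := by
  have h4 : ∀ g : G, σ (σ (σ (σ g))) = g := by
    intro g
    have := congrArg (fun f : MulAut G => f g) hσ
    simpa [pow_succ, MulAut.mul_apply] using this
  exact main _ G rfl hG σ h4 hfpf

end Cfsg.Agent.S3794
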