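import Cfsg.Statements.S0948
import Mathlib
import Cfsg.Agent.S0947
import Cfsg.Agent.Lib.Helper22.KleinCent
import Cfsg.Agent.Lib.Helper22.WeakOrth
import Cfsg.Agent.Lib.Helper4.Eigen
import Cfsg.Agent.Lib.Helper4.CharClosure
import Cfsg.Agent.Lib.Helper4.CharExp2
import Cfsg.Agent.Lib.Helper79.Blk2
import Cfsg.Agent.Lib.Helper21.Loc2
import Cfsg.Agent.Lib.Helper83.Linear

set_option autoImplicit false
open Cfsg

namespace Cfsg.Agent.S0948

open Cfsg.Agent.Lib.Helper22 Cfsg.Agent.Lib.Helper4 Cfsg.Agent.Lib.Helper5 Cfsg.Agent.Lib.Helper79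
  Cfsg.Agent.Lib.Helper21 Cfsg.Agent.Lib.Helper83
open scoped ComplexConjugate

/-- The value of an irreducible character at an element of order dividing 2 is an integer. -/
theorem irr_int_of_sq_eq_one {G : Type*} [Group G] [Finite G] (χ : IrrCharacter G) (g : G)
    (hg : g * g = 1) : ∃ m : ℤ, (χ : G → ℂ) g = (m : ℂ) := by
  classical
  obtain ⟨n, ρ, -, hρ⟩ := χ.2
  obtain ⟨ι, hι, hd, v, μ, h1, h2, -, -⟩ := exists_eigenbasis_rep ρ g
  have h3 : ∀ i, μ i = 1 ∨ μ i = -1 := by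
    intro i
    have ho : orderOf g ∣ 2 := orderOf_dvd_of_pow_eq_one (by rw [pow_two]; exact hg)
    obtain ⟨c, hc⟩ := ho
    have h4 : μ i ^ 2 = 1 := by rw [hc, pow_mul, h2 i, one_pow]
    rw [pow_two] at h4
    exact mul_self_eq_one_iff.mp h4
  refine ⟨∑ i, (if μ i = 1 then (1 : ℤ) else -1), ?_⟩
  rw [← hρ, Representation.character, trace_eq_sum_of_eigenbasis v (ρ g) μ h1]
  push_cast
  refine Finset.sum_congr rfl fun i _ => ?_
  rcases h3 i with h | h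
  · simp [h]
  · rw [h]; norm_num

/-- A character of the principal block does not vanish at an element whose class size is
prime to `p`. -/
theorem principal_ne_zero {G : Type*} [Group G] [Finite G] {p : ℕ} {M : Ideal AlgInt}
    (hM : IsPModular p M) (ζ : IrrCharacter G) (hζ : ζ ∈ principalBlock M G) (z : G)
    (hz : ¬ p ∣ (Subgroup.centralizer ({z} : Set G)).index) : (ζ : G → ℂ) z ≠ 0 := by
  intro h0
  have h : MemLocalIdeal M (centralChar (fun _ : G => (1 : ℂ)) z - centralChar (ζ : G → ℂ) z) :=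
    hζ z
  simp only [centralChar, h0, mul_zero, zero_div, sub_zero, mul_one, div_one] at h
  exact hz ((locIdeal_natCast_iff hM _).mp h)

theorem result {G : Type*} [Group G] [Finite G] (M : Ideal Cfsg.AlgInt) (hM : Cfsg.IsPModular 2 M) (P : Sylow 2 G) (hP : IsKleinFour (P : Subgroup G)) (hone : ∀ s t : G, orderOf s = 2 → orderOf t = 2 → IsConj s t) : ∃ ζ₂ ζ₃ ζ₄ : Cfsg.IrrCharacter G, ∃ ε : ℤ, (ε = 1 ∨ ε = -1) ∧ (ζ₂ : G → ℂ) ≠ (fun _ => 1) ∧ (ζ₃ : G → ℂ) ≠ (fun _ => 1) ∧ ζ₂ ≠ ζ₃ ∧ ζ₂ ≠ ζ₄ ∧ ζ₃ ≠ ζ₄ ∧ Cfsg.principalBlock M G = {χ : Cfsg.IrrCharacter G | (χ : G → ℂ) = (fun _ => 1) ∨ χ = ζ₂ ∨ χ = ζ₃ ∨ χ = ζ₄} ∧ (∀ z : G, orderOf z = 2 → (ζ₂ : G → ℂ) z = 1 ∧ (ζ₃ : G → ℂ) z = (ε : ℂ) ∧ (ζ₄ : G → ℂ) z = -1) ∧ (4 : ℤ) ∣ (Cfsg.charDegree (ζ₂ : G → ℂ) : ℤ) - 1 ∧ (4 : ℤ) ∣ (Cfsg.charDegree (ζ₃ : G → ℂ) : ℤ) - ε ∧ (4 : ℤ) ∣ (Cfsg.charDegree (ζ₄ : G → ℂ) : ℤ) + 1 ∧ ∀ y : G, Odd (orderOf y) → 1 +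 (ζ₂ : G → ℂ) y + (ε : ℂ) * (ζ₃ : G → ℂ) y - (ζ₄ : G → ℂ) y = 0 := by
  classical
  haveI := irr_finite (G := G)
  letI := Fintype.ofFinite (IrrCharacter G)
  letI := Fintype.ofFinite G
  haveI hprime : Fact (Nat.Prime 2) := ⟨Nat.prime_two⟩
  -- an involution z in P
  obtain ⟨z, -, hzP, -, hz1, -, -⟩ := klein_exists P hP
  have hzo : orderOf z = 2 := klein_orderOf P hP z hzP hz1
  have hzz : z * z = 1 := klein_mul_self P hP z hzP
  -- sum of squares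
  have hsum := (Cfsg.Agent.S0947.result 2 M hM z ⟨1, by rw [hzo, pow_one]⟩ hz1
    (1 : Subgroup.centralizer ({z} : Set G)) (by simp)).2
    (klein_centralizer_pPrimeCore_index P hP z hzP hz1)
  rw [klein_centralizer_factorization P hP z hzP] at hsum
  simp only [OneMemClass.coe_one, mul_one] at hsum
  -- integer values
  have hint : ∀ ζ : IrrCharacter G, ∃ m : ℤ, (ζ : G → ℂ) z = (m : ℂ) :=
    fun ζ => irr_int_of_sq_eq_one ζ z hzz
  choose f hf using hint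
  set S : Finset (IrrCharacter G) := Finset.univ.filter (· ∈ principalBlock M G) with hS
  have hmemS : ∀ ζ, ζ ∈ S ↔ ζ ∈ principalBlock M G := by intro ζ; simp [hS]
  have hsumS : ∑ ζ ∈ S, (f ζ) ^ 2 = 4 := by
    rw [finsum_mem_eq_sum_filter_univ] at hsum
    have h1 : ((∑ ζ ∈ S, (f ζ) ^ 2 : ℤ) : ℝ) = ((4 : ℤ) : ℝ) := by
      push_cast
      refine Eq.trans (Finset.sum_congr rfl fun ζ _ => ?_) (hsum.trans (by norm_num))
      rw [hf ζ, Complex.norm_intCast, sq_abs]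
    exact_mod_cast h1
  have hidx : ¬ 2 ∣ (Subgroup.centralizer ({z} : Set G)).index := by
    intro h
    exact P.not_dvd_index (h.trans (Subgroup.index_dvd_of_le (klein_le_centralizer P hP z hzP)))
  have hfne : ∀ ζ ∈ S, f ζ ≠ 0 := by
    intro ζ hζ h0
    have h1 := principal_ne_zero hM ζ ((hmemS ζ).mp hζ) z hidx
    rw [hf ζ, h0] at h1
    simp at h1
  set t₀ := trivIrr G with ht₀
  have ht₀S : t₀ ∈ S := (hmemS _).mpr (trivIrr_mem_principalBlock hM)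
  have hft₀ : f t₀ = 1 := by
    have h1 := hf t₀
    rw [ht₀, Cfsg.Agent.Lib.Helper83.trivIrr_apply] at h1
    exact_mod_cast h1.symm
  set T := S.erase t₀ with hT
  have hsumT : ∑ ζ ∈ T, (f ζ) ^ 2 = 3 := by
    have h1 := Finset.add_sum_erase S (fun ζ => (f ζ) ^ 2) ht₀S
    rw [hsumS, hft₀] at h1
    linarith
  have hsq : ∀ ζ ∈ T, (f ζ) ^ 2 = 1 := by
    by_contra hcon
    push Not at hcon
    obtain ⟨ζ₀, hζ₀, hne⟩ := hcon
    have h4 : 4 ≤ (f ζ₀) ^ 2 := by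
      have h0 := hfne ζ₀ (Finset.mem_of_mem_erase hζ₀)
      rcases lt_trichotomy (f ζ₀) 0 with h | h | h
      · have h1 : f ζ₀ ≤ -1 := by omega
        rcases eq_or_lt_of_le h1 with h' | h'
        · exact absurd (by rw [h']; norm_num) hne
        · nlinarith
      · exact absurd h h0
      · have h1 : 1 ≤ f ζ₀ := by omega
        rcases eq_or_lt_of_le h1 with h' | h'
        · exact absurd (by rw [← h']; norm_num) hne
        · nlinarith
    have h5 : (f ζ₀) ^ 2 ≤ ∑ ζ ∈ T, (f ζ) ^ 2 :=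
      Finset.single_le_sum (f := fun ζ => (f ζ) ^ 2) (fun ζ _ => sq_nonneg (f ζ)) hζ₀
    linarith
  have hcardT : T.card = 3 := by
    have h1 : ∑ ζ ∈ T, (f ζ) ^ 2 = ∑ ζ ∈ T, (1 : ℤ) := Finset.sum_congr rfl hsq
    rw [hsumT] at h1
    simp at h1
    exact_mod_cast h1.symm
  have hpm : ∀ ζ ∈ T, f ζ = 1 ∨ f ζ = -1 := by
    intro ζ hζ
    have h1 := hsq ζ hζ
    rw [pow_two] at h1
    exact mul_self_eq_one_iff.mp h1
  -- relation from weak block orthogonality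
  have hrel : ∀ y : G, Odd (orderOf y) →
      1 + ∑ ζ ∈ T, (ζ : G → ℂ) y * (f ζ : ℂ) = 0 := by
    intro y hy
    have h0 := weak_block_orth hM (principalBlock M G) isPBlock_principalBlock y z
      hy.not_two_dvd_nat (by rw [hzo])
    rw [finsum_mem_eq_sum_filter_univ] at h0
    have h1 := Finset.add_sum_erase S (fun ζ : IrrCharacter G =>
      (ζ : G → ℂ) y * conj ((ζ : G → ℂ) z)) ht₀S
    rw [h0] at h1
    have e1 : (t₀ : G → ℂ) y * conj ((t₀ : G → ℂ) z) = 1 := by simp [ht₀, Cfsg.Agent.Lib.Helper83.trivIrr_apply]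
    rw [e1] at h1
    refine Eq.trans ?_ h1
    congr 1
    refine Finset.sum_congr rfl fun ζ _ => ?_
    rw [hf ζ, map_intCast]
  -- value at involutions
  have hinv : ∀ (ζ : IrrCharacter G) (u : G), orderOf u = 2 → (ζ : G → ℂ) u = (f ζ : ℂ) := by
    intro ζ u hu
    rw [irr_eq_of_isConj ζ (hone u z hu hzo), hf ζ]
  -- degrees
  have hdiv : ∀ ζ : IrrCharacter G, (4 : ℤ) ∣ (charDegree (ζ : G → ℂ) : ℤ) - f ζ := by
    intro ζ
    obtain ⟨d, hd0, hd⟩ := irr_one_nat ζ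
    have hcd : charDegree (ζ : G → ℂ) = d := by simp [charDegree, hd]
    rw [hcd]
    letI : Fintype (P : Subgroup G) := Fintype.ofFinite _
    have hchar : IsCharacter (P : Subgroup G) (fun u : (P : Subgroup G) => (ζ : G → ℂ) u) :=
      isCharacter_restrict (P : Subgroup G) _ (isCharacter_of_irr ζ)
    have hone' : IsCharacter (P : Subgroup G) (fun _ : (P : Subgroup G) => (1 : ℂ)) :=
      isCharacter_of_irr ⟨_, isIrr_one⟩
    obtain ⟨k, hk⟩ := classInner_isCharacter_isCharacter_nat _ _ hchar hone'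
    rw [classInner, hP.card_four] at hk
    have hsumP : ∑ u : (P : Subgroup G), (ζ : G → ℂ) u * conj (1 : ℂ) = (d : ℂ) + 3 * (f ζ : ℂ) := by
      rw [← Finset.add_sum_erase Finset.univ _ (Finset.mem_univ (1 : (P : Subgroup G)))]
      have h2 : ∀ u ∈ Finset.univ.erase (1 : (P : Subgroup G)),
          (ζ : G → ℂ) u * conj (1 : ℂ) = (f ζ : ℂ) := by
        intro u hu
        have hu1 : (u : G) ≠ 1 := fun h => (Finset.ne_of_mem_erase hu) (Subtype.ext h)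
        rw [hinv ζ u (klein_orderOf P hP u u.2 hu1), map_one, mul_one]
      rw [Finset.sum_congr rfl h2, Finset.sum_const, Finset.card_erase_of_mem (Finset.mem_univ _),
        Finset.card_univ, ← Nat.card_eq_fintype_card, hP.card_four]
      simp [hd]
    rw [hsumP] at hk
    have h3 : ((d : ℤ) : ℂ) + 3 * (f ζ : ℂ) = 4 * ((k : ℤ) : ℂ) := by
      push_cast
      have h4 : ((4 : ℕ) : ℂ) ≠ 0 := by norm_num
      field_simp at hk
      push_cast at hk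
      linear_combination hk
    have h5 : (d : ℤ) + 3 * f ζ = 4 * (k : ℤ) := by exact_mod_cast h3
    exact ⟨(k : ℤ) - f ζ, by linarith⟩
  -- the key assembly, for a suitably ordered triple
  have key : ∀ ζ₂ ζ₃ ζ₄ : IrrCharacter G, ζ₂ ≠ ζ₃ → ζ₂ ≠ ζ₄ → ζ₃ ≠ ζ₄ →
      T = {ζ₂, ζ₃, ζ₄} → f ζ₂ = 1 → f ζ₄ = -1 →
      ∃ ζ₂ ζ₃ ζ₄ : Cfsg.IrrCharacter G, ∃ ε : ℤ, (ε = 1 ∨ ε = -1) ∧ (ζ₂ : G → ℂ) ≠ (fun _ => 1) ∧ (ζ₃ : G → ℂ) ≠ (fun _ => 1) ∧ ζ₂ ≠ ζ₃ ∧ ζ₂ ≠ ζ₄ ∧ ζ₃ ≠ ζ₄ ∧ Cfsg.principalBlock M G = {χ : Cfsg.IrrCharacter G | (χ : G → ℂ) = (fun _ => 1) ∨ χ = ζ₂ ∨ χ = ζ₃ ∨ χ = ζ₄} ∧ (∀ z : G, orderOf z = 2 → (ζ₂ : G → ℂ) z = 1 ∧ (ζ₃ : G → ℂ) z = (ε : ℂ) ∧ (ζ₄ : G → ℂ) z = -1) ∧ (4 : ℤ) ∣ (Cfsg.charDegree (ζ₂ : G → ℂ) : ℤ) - 1 ∧ (4 : ℤ) ∣ (Cfsg.charDegree (ζ₃ : G → ℂ) : ℤ) - ε ∧ (4 : ℤ) ∣ (Cfsg.charDegree (ζ₄ : G → ℂ) : ℤ) + 1 ∧ ∀ y : G, Odd (orderOf y) → 1 + (ζ₂ : G → ℂ) y + (ε : ℂ) * (ζ₃ : G → ℂ)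 y - (ζ₄ : G → ℂ) y = 0 := by
    intro ζ₂ ζ₃ ζ₄ h23 h24 h34 hT' h2 h4
    have hm2 : ζ₂ ∈ T := by rw [hT']; simp
    have hm3 : ζ₃ ∈ T := by rw [hT']; simp
    have hm4 : ζ₄ ∈ T := by rw [hT']; simp
    have hnt : ∀ ζ ∈ T, (ζ : G → ℂ) ≠ (fun _ => 1) := by
      intro ζ hζ h
      exact (Finset.ne_of_mem_erase hζ) (Subtype.ext h)
    refine ⟨ζ₂, ζ₃, ζ₄, f ζ₃, hpm ζ₃ hm3, hnt ζ₂ hm2, hnt ζ₃ hm3, h23, h24, h34, ?_, ?_, ?_, ?_,
      ?_, ?_⟩
    · ext χ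
      rw [Set.mem_ofPred_eq, ← hmemS]
      constructor
      · intro hχ
        by_cases hχ0 : χ = t₀
        · left; rw [hχ0]; rfl
        · right
          have hχT : χ ∈ T := Finset.mem_erase.mpr ⟨hχ0, hχ⟩
          rw [hT'] at hχT
          simpa using hχT
      · rintro (h | h)
        · have hχ0 : χ = t₀ := Subtype.ext h
          rw [hχ0]; exact ht₀S
        · have hχT : χ ∈ T := by rw [hT']; simpa using h
          exact Finset.mem_of_mem_erase hχT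
    · intro u hu
      refine ⟨?_, hinv ζ₃ u hu, ?_⟩
      · rw [hinv ζ₂ u hu, h2]; norm_num
      · rw [hinv ζ₄ u hu, h4]; norm_num
    · have h1 := hdiv ζ₂
      rwa [h2] at h1
    · exact hdiv ζ₃
    · have h1 := hdiv ζ₄
      rw [h4] at h1
      simpa using h1
    · intro y hy
      have h1 := hrel y hy
      rw [hT', Finset.sum_insert (by simp [h23, h24]), Finset.sum_insert (by simp [h34]),
        Finset.sum_singleton, h2, h4] at h1
      push_cast at h1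
      linear_combination h1
  obtain ⟨a, b, c, hab, hac, hbc, hTabc⟩ := Finset.card_eq_three.mp hcardT
  have haT : a ∈ T := by rw [hTabc]; simp
  have hbT : b ∈ T := by rw [hTabc]; simp
  have hcT : c ∈ T := by rw [hTabc]; simp
  obtain ⟨da, hda0, hda⟩ := irr_one_nat a
  obtain ⟨db, hdb0, hdb⟩ := irr_one_nat b
  obtain ⟨dc, hdc0, hdc⟩ := irr_one_nat c
  have hrel1 := hrel 1 (by simp)
  rw [hTabc, Finset.sum_insert (by simp [hab, hac]), Finset.sum_insert (by simp [hbc]),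
    Finset.sum_singleton, hda, hdb, hdc] at hrel1
  have hrel1' : (1 : ℤ) + ((da : ℤ) * f a + ((db : ℤ) * f b + (dc : ℤ) * f c)) = 0 := by
    exact_mod_cast hrel1
  rcases hpm a haT with ha | ha
  · rcases hpm b hbT with hb | hb
    · rcases hpm c hcT with hc | hc
      · exfalso
        rw [ha, hb, hc] at hrel1'
        omega
      · exact key a b c hab hac hbc hTabc ha hc
    · refine key a c b hac hab (Ne.symm hbc) ?_ ha hb
      rw [hTabc]; ext x; simp; tauto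
  · rcases hpm b hbT with hb | hb
    · refine key b c a hbc (Ne.symm hab) (Ne.symm hac) ?_ hb ha
      rw [hTabc]; ext x; simp; tauto
    · rcases hpm c hcT with hc | hc
      · refine key c b a (Ne.symm hbc) (Ne.symm hac) (Ne.symm hab) ?_ hc ha
        rw [hTabc]; ext x; simp; tauto
      · exfalso
        rw [ha, hb, hc] at hrel1'
        omega

end Cfsg.Agent.S0948
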