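import Cfsg.Statements.S2581
import Cfsg.Agent.Lib.Helper51.JType

set_option autoImplicit false
open Cfsg

namespace Cfsg.Agent.S2581

open Cfsg.Agent.S2315 (shiftM shiftM_pow shiftM_nil)
open Cfsg.Agent.Lib.Helper51.Jordan Cfsg.Agent.Lib.Helper51.JType
open scoped Matrix

universe v

section basic

variable {F : Type v} [Field F] {t : ℕ} (d : Fin t → ℕ)

/-- The nilpotent part of the Jordan matrix of type `d`. -/
noncomputable def NN (F : Type v) [Field F] {t : ℕ} (d : Fin t → ℕ) :
    Matrix ((k : Fin t) × Fin (d k)) ((k : Fin t) × Fin (d k)) F :=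
  Matrix.blockDiagonal' (fun k => shiftM F (d k))

theorem NN_pow_apply (j : ℕ) (x z : (k : Fin t) × Fin (d k)) :
    (NN F d ^ j) x z = if x.1 = z.1 ∧ (x.2 : ℕ) = (z.2 : ℕ) + j then 1 else 0 := by
  obtain ⟨l, i⟩ := x
  obtain ⟨k, r⟩ := z
  unfold NN
  rw [← Matrix.blockDiagonal'_pow, Matrix.blockDiagonal'_apply]
  by_cases hk : l = k
  · subst hk
    rw [dif_pos rfl, Pi.pow_apply, cast_eq, shiftM_pow]
    simp
  · rw [dif_neg hk, if_neg]
    rintro ⟨h, -⟩
    exact hk h

theorem NN_pow_mulVec (j : ℕ) (w : ((k : Fin t) × Fin (d k)) → F) (l : Fin t) (i : Fin (d l)) :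
    ((NN F d ^ j) *ᵥ w) ⟨l, i⟩
      = if h : j ≤ (i : ℕ) then w ⟨l, ⟨(i : ℕ) - j, by have := i.2; omega⟩⟩ else 0 := by
  rw [Matrix.mulVec, dotProduct]
  by_cases h : j ≤ (i : ℕ)
  · rw [dif_pos h, Finset.sum_eq_single
      (⟨l, ⟨(i : ℕ) - j, by have := i.2; omega⟩⟩ : (k : Fin t) × Fin (d k))]
    · rw [NN_pow_apply, if_pos ⟨rfl, by simp only; omega⟩, one_mul]
    · intro z _ hz
      rw [NN_pow_apply, if_neg, zero_mul]
      rintro ⟨h1, h2⟩
      apply hz
      obtain ⟨k, r⟩ := z
      simp only at h1 h2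
      subst h1
      congr 1
      apply Fin.ext
      simp only
      omega
    · intro h'
      exact absurd (Finset.mem_univ _) h'
  · rw [dif_neg h]
    apply Finset.sum_eq_zero
    intro z _
    rw [NN_pow_apply, if_neg, zero_mul]
    rintro ⟨-, h2⟩
    simp only at h2
    omega

theorem NN_pow_single (j : ℕ) (k : Fin t) (i : Fin (d k)) :
    (NN F d ^ j) *ᵥ (Pi.single (⟨k, i⟩ : (k : Fin t) × Fin (d k)) 1)
      = if h : (i : ℕ) + j < d k then
          Pi.single (⟨k, ⟨(i : ℕ) + j, h⟩⟩ : (k : Fin t) × Fin (d k)) 1 else 0 := by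
  have h := bd_pow_single (F := F) d j k i
  rw [← Matrix.toLin'_pow, Matrix.toLin'_apply] at h
  exact h

variable {d}

/-- The index of the generator of block `k`. -/
def o (hd : ∀ k, 1 ≤ d k) (k : Fin t) : (k : Fin t) × Fin (d k) := ⟨k, ⟨0, hd k⟩⟩

theorem col_of_comm (hd : ∀ k, 1 ≤ d k)
    {X : Matrix ((k : Fin t) × Fin (d k)) ((k : Fin t) × Fin (d k)) F}
    (hX : X * NN F d = NN F d * X) (k : Fin t) (j : Fin (d k)) :
    X *ᵥ Pi.single (⟨k, j⟩ : (k : Fin t) × Fin (d k)) 1
      = (NN F d ^ (j : ℕ)) *ᵥ (X *ᵥ Pi.single (o hd k) 1) := by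
  have hc : X * NN F d ^ (j : ℕ) = NN F d ^ (j : ℕ) * X :=
    (Commute.pow_right (show Commute X (NN F d) from hX) (j : ℕ)).eq
  have h1 := NN_pow_single (F := F) d (j : ℕ) k ⟨0, hd k⟩
  rw [dif_pos (by simp)] at h1
  rw [Matrix.mulVec_mulVec, ← hc, ← Matrix.mulVec_mulVec, o, h1]
  congr 3
  apply Fin.ext
  simp

theorem pow_col_of_comm (hd : ∀ k, 1 ≤ d k)
    {X : Matrix ((k : Fin t) × Fin (d k)) ((k : Fin t) × Fin (d k)) F}
    (hX : X * NN F d = NN F d * X) (k : Fin t) :
    (NN F d ^ d k) *ᵥ (X *ᵥ Pi.single (o hd k) 1) = 0 := by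
  have hc : X * NN F d ^ d k = NN F d ^ d k * X :=
    (Commute.pow_right (show Commute X (NN F d) from hX) (d k)).eq
  have h1 := NN_pow_single (F := F) d (d k) k ⟨0, hd k⟩
  rw [dif_neg (by simp)] at h1
  rw [Matrix.mulVec_mulVec, ← hc, ← Matrix.mulVec_mulVec, o, h1, Matrix.mulVec_zero]

/-- The matrix with prescribed images of the generators. -/
noncomputable def ofGens (w : (k : Fin t) → ((l : Fin t) × Fin (d l)) → F) :
    Matrix ((k : Fin t) × Fin (d k)) ((k : Fin t) × Fin (d k)) F :=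
  Matrix.of fun x y => ((NN F d ^ (y.2 : ℕ)) *ᵥ (w y.1)) x

theorem ofGens_mulVec_single (w : (k : Fin t) → ((l : Fin t) × Fin (d l)) → F)
    (y : (k : Fin t) × Fin (d k)) :
    ofGens w *ᵥ Pi.single y 1 = (NN F d ^ (y.2 : ℕ)) *ᵥ (w y.1) := by
  rw [Matrix.mulVec_single_one]
  rfl

theorem ofGens_comm (w : (k : Fin t) → ((l : Fin t) × Fin (d l)) → F)
    (hw : ∀ k, (NN F d ^ d k) *ᵥ (w k) = 0) : ofGens w * NN F d = NN F d * ofGens w := by
  have key : ∀ y : (k : Fin t) × Fin (d k),
      (ofGens w * NN F d) *ᵥ Pi.single y 1 = (NN F d * ofGens w) *ᵥ Pi.single y 1 := by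
    rintro ⟨k, j⟩
    rw [← Matrix.mulVec_mulVec, ← Matrix.mulVec_mulVec, ofGens_mulVec_single]
    have h1 := NN_pow_single (F := F) d 1 k j
    rw [pow_one] at h1
    rw [h1, Matrix.mulVec_mulVec, ← pow_succ']
    by_cases h : (j : ℕ) + 1 < d k
    · rw [dif_pos h, ofGens_mulVec_single]
    · rw [dif_neg h, Matrix.mulVec_zero]
      have hj : (j : ℕ) + 1 = d k := by have := j.2; omega
      simp only
      rw [hj, hw]
  ext x y
  have h := congrFun (key y) x
  rw [Matrix.mulVec_single_one, Matrix.mulVec_single_one] at h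
  exact h

/-- The commutant of `NN` is the product of the kernels of `NN ^ d k`. -/
noncomputable def commEquiv (hd : ∀ k, 1 ≤ d k) :
    {X : Matrix ((k : Fin t) × Fin (d k)) ((k : Fin t) × Fin (d k)) F //
        X * NN F d = NN F d * X}
      ≃ ((k : Fin t) → {w : ((l : Fin t) × Fin (d l)) → F // (NN F d ^ d k) *ᵥ w = 0}) where
  toFun X := fun k => ⟨X.1 *ᵥ Pi.single (o hd k) 1, pow_col_of_comm hd X.2 k⟩
  invFun w := ⟨ofGens (fun k => (w k).1), ofGens_comm _ (fun k => (w k).2)⟩
  left_inv X := by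
    apply Subtype.ext
    ext x y
    obtain ⟨k, j⟩ := y
    have h := congrFun (col_of_comm hd X.2 k j) x
    rw [Matrix.mulVec_single_one] at h
    exact h.symm
  right_inv w := by
    funext k
    apply Subtype.ext
    simp only
    rw [ofGens_mulVec_single]
    simp [o]

end basic

section entries

variable {F : Type v} [Field F] {t : ℕ} {d : Fin t → ℕ}

theorem card_ker [Fintype F] (d : Fin t → ℕ) (j : ℕ) :
    Nat.card {w : ((l : Fin t) × Fin (d l)) → F // (NN F d ^ j) *ᵥ w = 0}
      = Fintype.card F ^ (∑ k, min (d k) j) := by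
  have h := kap_bd (F := F) d j
  unfold kap at h
  rw [← h, ← Nat.card_eq_fintype_card, ← Module.natCard_eq_pow_finrank]
  apply Nat.card_congr
  refine Equiv.subtypeEquivRight ?_
  intro w
  rw [LinearMap.mem_ker, ← Matrix.toLin'_pow, Matrix.toLin'_apply]
  rfl

theorem card_comm [Fintype F] (hd : ∀ k, 1 ≤ d k) :
    Nat.card {X : Matrix ((k : Fin t) × Fin (d k)) ((k : Fin t) × Fin (d k)) F //
        X * NN F d = NN F d * X}
      = Fintype.card F ^ (∑ k, ∑ l, min (d l) (d k)) := by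
  rw [Nat.card_congr (commEquiv hd), Nat.card_pi]
  simp only [card_ker]
  rw [Finset.prod_pow_eq_pow_sum]

theorem entry_of_comm (hd : ∀ k, 1 ≤ d k)
    {X : Matrix ((k : Fin t) × Fin (d k)) ((k : Fin t) × Fin (d k)) F}
    (hX : X * NN F d = NN F d * X) (l : Fin t) (i : Fin (d l)) (k : Fin t) (j : Fin (d k)) :
    X ⟨l, i⟩ ⟨k, j⟩ = if h : (j : ℕ) ≤ (i : ℕ) then
      X ⟨l, ⟨(i : ℕ) - j, by have := i.2; omega⟩⟩ (o hd k) else 0 := by
  have h := congrFun (col_of_comm hd hX k j) ⟨l, i⟩
  rw [Matrix.mulVec_single_one, NN_pow_mulVec, Matrix.mulVec_single_one] at h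
  exact h

theorem top_vanish (hd : ∀ k, 1 ≤ d k)
    {X : Matrix ((k : Fin t) × Fin (d k)) ((k : Fin t) × Fin (d k)) F}
    (hX : X * NN F d = NN F d * X) (l k : Fin t) (r : ℕ) (hr : r + d k < d l) :
    X ⟨l, ⟨r, by omega⟩⟩ (o hd k) = 0 := by
  have h := congrFun (pow_col_of_comm hd hX k) ⟨l, ⟨r + d k, hr⟩⟩
  rw [NN_pow_mulVec, dif_pos (by simp), Matrix.mulVec_single_one] at h
  have e : (⟨l, ⟨r, by omega⟩⟩ : (k : Fin t) × Fin (d k))
      = ⟨l, ⟨(⟨r + d k, hr⟩ : Fin (d l)) - d k, by simp; omega⟩⟩ := by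
    congr 1
    apply Fin.ext
    simp
  rw [e]
  exact h

/-- The action on the generators modulo the image of `NN`. -/
def top (hd : ∀ k, 1 ≤ d k) (X : Matrix ((k : Fin t) × Fin (d k)) ((k : Fin t) × Fin (d k)) F) :
    Matrix (Fin t) (Fin t) F :=
  Matrix.of fun l k => X (o hd l) (o hd k)

/-- The level function for which commuting matrices are block triangular. -/
def lev (d : Fin t → ℕ) (x : (k : Fin t) × Fin (d k)) : ℤ ×ₗ ℤ :=
  toLex (-((x.2 : ℕ) : ℤ), (d x.1 : ℤ))

theorem lev_eq_iff (x y : (k : Fin t) × Fin (d k)) :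
    lev d x = lev d y ↔ (x.2 : ℕ) = (y.2 : ℕ) ∧ d x.1 = d y.1 := by
  unfold lev
  rw [toLex.injective.eq_iff, Prod.mk.injEq]
  constructor
  · rintro ⟨h1, h2⟩
    exact ⟨by omega, by omega⟩
  · rintro ⟨h1, h2⟩
    exact ⟨by omega, by omega⟩

theorem blockTriangular_of_comm (hd : ∀ k, 1 ≤ d k)
    {X : Matrix ((k : Fin t) × Fin (d k)) ((k : Fin t) × Fin (d k)) F}
    (hX : X * NN F d = NN F d * X) : Matrix.BlockTriangular X (lev d) := by
  rintro ⟨l, i⟩ ⟨k, j⟩ hlt
  rw [lev, lev, Prod.Lex.toLex_lt_toLex] at hlt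
  rw [entry_of_comm hd hX]
  rcases hlt with h | ⟨h1, h2⟩
  · rw [dif_neg (by simp only at h; omega)]
  · simp only at h1 h2
    rw [dif_pos (by omega)]
    have h3 := top_vanish hd hX l k 0 (by omega)
    have e : (⟨l, ⟨(i : ℕ) - j, by have := i.2; omega⟩⟩ : (k : Fin t) × Fin (d k))
        = ⟨l, ⟨0, by have := i.2; omega⟩⟩ := by
      congr 1
      apply Fin.ext
      simp only
      omega
    rw [e]
    exact h3

theorem det_block (hd : ∀ k, 1 ≤ d k)
    {X : Matrix ((k : Fin t) × Fin (d k)) ((k : Fin t) × Fin (d k)) F}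
    (hX : X * NN F d = NN F d * X) (k₀ : Fin t) (j₀ : Fin (d k₀)) :
    (X.toSquareBlock (lev d) (lev d ⟨k₀, j₀⟩)).det
      = ((top hd X).toSquareBlock d (d k₀)).det := by
  let e : {x : (k : Fin t) × Fin (d k) // lev d x = lev d ⟨k₀, j₀⟩} ≃ {k : Fin t // d k = d k₀} :=
    { toFun := fun x => ⟨x.1.1, ((lev_eq_iff _ _).mp x.2).2⟩
      invFun := fun k => ⟨⟨k.1, ⟨(j₀ : ℕ), by rw [k.2]; exact j₀.2⟩⟩,
        (lev_eq_iff _ _).mpr ⟨rfl, k.2⟩⟩
      left_inv := by
        rintro ⟨⟨l, i⟩, hx⟩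
        have h1 := ((lev_eq_iff _ _).mp hx).1
        simp only at h1
        apply Subtype.ext
        simp only
        congr 1
        apply Fin.ext
        simp only
        omega
      right_inv := by
        rintro ⟨k, hk⟩
        rfl }
  have h : X.toSquareBlock (lev d) (lev d ⟨k₀, j₀⟩)
      = ((top hd X).toSquareBlock d (d k₀)).submatrix e e := by
    ext ⟨⟨l, i⟩, hx⟩ ⟨⟨k, j⟩, hy⟩
    have h1 := ((lev_eq_iff _ _).mp hx).1
    have h2 := ((lev_eq_iff _ _).mp hy).1
    simp only at h1 h2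
    rw [Matrix.toSquareBlock_def, Matrix.submatrix_apply, Matrix.toSquareBlock_def]
    simp only [Matrix.of_apply]
    rw [entry_of_comm hd hX, dif_pos (by omega)]
    show _ = X (o hd l) (o hd k)
    congr 2
    apply Fin.ext
    simp only
    omega
  rw [h, Matrix.det_submatrix_equiv_self]

end entries

section count

variable {F : Type v} [Field F] {t : ℕ} {d : Fin t → ℕ}

theorem det_ne_zero_iff (hd : ∀ k, 1 ≤ d k)
    {X : Matrix ((k : Fin t) × Fin (d k)) ((k : Fin t) × Fin (d k)) F}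
    (hX : X * NN F d = NN F d * X) :
    X.det ≠ 0 ↔ ∀ s : Fin (Finset.univ.sup d + 1),
      ((top hd X).toSquareBlock d (s : ℕ)).det ≠ 0 := by
  classical
  rw [(blockTriangular_of_comm hd hX).det, Finset.prod_ne_zero_iff]
  constructor
  · intro h s
    by_cases hs : ∃ k, d k = (s : ℕ)
    · obtain ⟨k₀, hk₀⟩ := hs
      have h1 := h (lev d (o hd k₀)) (Finset.mem_image_of_mem _ (Finset.mem_univ _))
      rw [o, det_block hd hX, hk₀] at h1
      exact h1
    · have : IsEmpty {k : Fin t // d k = (s : ℕ)} := ⟨fun k => hs ⟨k.1, k.2⟩⟩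
      rw [Matrix.det_isEmpty]
      exact one_ne_zero
  · intro h a ha
    obtain ⟨⟨k₀, j₀⟩, -, rfl⟩ := Finset.mem_image.mp ha
    rw [det_block hd hX]
    exact h ⟨d k₀, Nat.lt_succ_of_le (Finset.le_sup (Finset.mem_univ k₀))⟩

theorem exists_section (hd : ∀ k, 1 ≤ d k)
    (B : (s : Fin (Finset.univ.sup d + 1)) →
      Matrix {k : Fin t // d k = (s : ℕ)} {k : Fin t // d k = (s : ℕ)} F) :
    ∃ X : Matrix ((k : Fin t) × Fin (d k)) ((k : Fin t) × Fin (d k)) F,
      X * NN F d = NN F d * X ∧ ∀ s : Fin (Finset.univ.sup d + 1),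
        (top hd X).toSquareBlock d (s : ℕ) = B s := by
  classical
  have hlt : ∀ k : Fin t, d k < Finset.univ.sup d + 1 :=
    fun k => Nat.lt_succ_of_le (Finset.le_sup (Finset.mem_univ k))
  let w : (k : Fin t) → ((l : Fin t) × Fin (d l)) → F := fun k x =>
    if h : (x.2 : ℕ) = 0 ∧ d x.1 = d k then B ⟨d k, hlt k⟩ ⟨x.1, h.2⟩ ⟨k, rfl⟩ else 0
  have hw : ∀ k, (NN F d ^ d k) *ᵥ (w k) = 0 := by
    intro k
    funext ⟨l, i⟩
    rw [NN_pow_mulVec, Pi.zero_apply]
    by_cases h : d k ≤ (i : ℕ)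
    · rw [dif_pos h]
      simp only [w]
      rw [dif_neg]
      rintro ⟨h1, h2⟩
      have := i.2
      omega
    · rw [dif_neg h]
  refine ⟨ofGens w, ofGens_comm w hw, ?_⟩
  rintro ⟨s, hs⟩
  ext ⟨l, hl⟩ ⟨k, hk⟩
  simp only at hl hk
  subst hk
  rw [Matrix.toSquareBlock_def]
  simp only [Matrix.of_apply, top]
  show ((NN F d ^ ((o hd k).2 : ℕ)) *ᵥ (w (o hd k).1)) (o hd l) = _
  simp only [o, pow_zero, Matrix.one_mulVec, w]
  rw [dif_pos ⟨trivial, hl⟩]

theorem card_units_mul [Fintype F] (hd : ∀ k, 1 ≤ d k) :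
    Nat.card {X : Matrix ((k : Fin t) × Fin (d k)) ((k : Fin t) × Fin (d k)) F //
        X * NN F d = NN F d * X ∧ X.det ≠ 0}
      * Nat.card ((s : Fin (Finset.univ.sup d + 1)) →
          Matrix {k : Fin t // d k = (s : ℕ)} {k : Fin t // d k = (s : ℕ)} F)
    = Nat.card {X : Matrix ((k : Fin t) × Fin (d k)) ((k : Fin t) × Fin (d k)) F //
        X * NN F d = NN F d * X}
      * Nat.card ((s : Fin (Finset.univ.sup d + 1)) →
          {B : Matrix {k : Fin t // d k = (s : ℕ)} {k : Fin t // d k = (s : ℕ)} F //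
            B.det ≠ 0}) := by
  classical
  choose σ hσ1 hσ2 using exists_section (F := F) hd
  let τ : Matrix ((k : Fin t) × Fin (d k)) ((k : Fin t) × Fin (d k)) F →
      (s : Fin (Finset.univ.sup d + 1)) →
        Matrix {k : Fin t // d k = (s : ℕ)} {k : Fin t // d k = (s : ℕ)} F :=
    fun X s => (top hd X).toSquareBlock d (s : ℕ)
  have hτ : ∀ X Y Z, τ (X - Y + Z) = τ X - τ Y + τ Z := by
    intro X Y Z
    funext s
    ext ⟨l, hl⟩ ⟨k, hk⟩
    rfl
  have hτσ : ∀ b, τ (σ b) = b := fun b => funext (hσ2 b)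
  have hcomm : ∀ X Y Z : Matrix ((k : Fin t) × Fin (d k)) ((k : Fin t) × Fin (d k)) F,
      X * NN F d = NN F d * X → Y * NN F d = NN F d * Y → Z * NN F d = NN F d * Z →
      (X - Y + Z) * NN F d = NN F d * (X - Y + Z) := by
    intro X Y Z h1 h2 h3
    rw [add_mul, sub_mul, mul_add, mul_sub, h1, h2, h3]
  have hτ2 : ∀ (X : Matrix ((k : Fin t) × Fin (d k)) ((k : Fin t) × Fin (d k)) F)
      (b : (s : Fin (Finset.univ.sup d + 1)) →
        Matrix {k : Fin t // d k = (s : ℕ)} {k : Fin t // d k = (s : ℕ)} F),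
      τ (X - σ (τ X) + σ b) = b := by
    intro X b
    rw [hτ, hτσ, hτσ, sub_self, zero_add]
  rw [← Nat.card_prod, ← Nat.card_prod]
  apply Nat.card_congr
  exact
    { toFun := fun p => (⟨p.1.1 - σ (τ p.1.1) + σ p.2, hcomm _ _ _ p.1.2.1 (hσ1 _) (hσ1 _)⟩,
        fun s => ⟨τ p.1.1 s, (det_ne_zero_iff hd p.1.2.1).mp p.1.2.2 s⟩)
      invFun := fun p => (⟨p.1.1 - σ (τ p.1.1) + σ (fun s => (p.2 s).1),
        hcomm _ _ _ p.1.2 (hσ1 _) (hσ1 _),
        (det_ne_zero_iff hd (hcomm _ _ _ p.1.2 (hσ1 _) (hσ1 _))).mpr (fun s => by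
          have h := congrFun (hτ2 p.1.1 (fun s => (p.2 s).1)) s
          have h2 := (p.2 s).2
          rw [← h] at h2
          exact h2)⟩, τ p.1.1)
      left_inv := by
        rintro ⟨⟨X, hX1, hX2⟩, b⟩
        have e1 := hτ2 X b
        apply Prod.ext
        · apply Subtype.ext
          simp only
          rw [e1]
          abel
        · exact e1
      right_inv := by
        rintro ⟨⟨Y, hY⟩, u⟩
        have e1 := hτ2 Y (fun s => (u s).1)
        apply Prod.ext
        · apply Subtype.ext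
          simp only
          rw [e1]
          abel
        · funext s
          apply Subtype.ext
          exact congrFun e1 s }

theorem card_matrix' [Fintype F] (S : Type) [Fintype S] :
    Nat.card (Matrix S S F) = Fintype.card F ^ (Fintype.card S * Fintype.card S) := by
  show Nat.card (S → S → F) = _
  rw [Nat.card_fun, Nat.card_fun, Nat.card_eq_fintype_card, Nat.card_eq_fintype_card,
    ← pow_mul]

theorem card_det_ne_zero [Fintype F] (S : Type) [Fintype S] [DecidableEq S] :
    Nat.card {B : Matrix S S F // B.det ≠ 0}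
      = ∏ j : Fin (Fintype.card S),
          (Fintype.card F ^ Fintype.card S - Fintype.card F ^ (j : ℕ)) := by
  rw [← Matrix.card_GL_field]
  apply Nat.card_congr
  exact
    { toFun := fun B => Matrix.GeneralLinearGroup.mkOfDetNeZero
        (Matrix.reindex (Fintype.equivFin S) (Fintype.equivFin S) B.1)
        (by rw [Matrix.det_reindex_self]; exact B.2)
      invFun := fun g => ⟨Matrix.reindex (Fintype.equivFin S).symm (Fintype.equivFin S).symm
        (g : Matrix (Fin (Fintype.card S)) (Fin (Fintype.card S)) F),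
        by rw [Matrix.det_reindex_self]; exact (Matrix.GeneralLinearGroup.det g).ne_zero⟩
      left_inv := by
        rintro ⟨B, hB⟩
        apply Subtype.ext
        ext i j
        simp [Matrix.GeneralLinearGroup.mkOfDetNeZero]
      right_inv := by
        intro g
        apply Units.ext
        ext i j
        simp [Matrix.GeneralLinearGroup.mkOfDetNeZero] }

end count

section final

variable {t : ℕ} (d : Fin t → ℕ)

/-- The number of blocks of size `i`. -/
def mult (i : ℕ) : ℕ := (Finset.univ.filter (fun k : Fin t => d k = i)).card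

theorem sum_fiber (g : ℕ → ℕ) :
    ∑ k, g (d k) = ∑ i ∈ Finset.range (Finset.univ.sup d + 1), mult d i * g i := by
  rw [← Finset.sum_fiberwise_of_maps_to (s := Finset.univ)
    (t := Finset.range (Finset.univ.sup d + 1)) (g := d)
    (fun k _ => Finset.mem_range.mpr (Nat.lt_succ_of_le (Finset.le_sup (Finset.mem_univ k))))]
  apply Finset.sum_congr rfl
  intro i _
  rw [Finset.sum_congr rfl (fun k hk => by rw [(Finset.mem_filter.mp hk).2] :
    ∀ k ∈ Finset.univ.filter (fun k : Fin t => d k = i), g (d k) = g i), Finset.sum_const,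
    smul_eq_mul]
  rfl

theorem sum_min (hd : ∀ k, 1 ≤ d k) :
    ∑ k, ∑ l, min (d l) (d k)
      = (2 * (∑ i ∈ Finset.range (Finset.univ.sup d + 1),
            ∑ j ∈ Finset.range (Finset.univ.sup d + 1),
              if i < j then i * mult d i * mult d j else 0)
          + ∑ i ∈ Finset.range (Finset.univ.sup d + 1), (i - 1) * mult d i ^ 2)
        + ∑ i ∈ Finset.range (Finset.univ.sup d + 1), mult d i * mult d i := by
  have h0 : mult d 0 = 0 := by
    unfold mult
    rw [Finset.card_eq_zero, Finset.filter_eq_empty_iff]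
    intro k _ hk
    have := hd k
    omega
  have h1 : ∀ k, ∑ l, min (d l) (d k)
      = ∑ j ∈ Finset.range (Finset.univ.sup d + 1), mult d j * min j (d k) :=
    fun k => sum_fiber d (fun j => min j (d k))
  simp only [h1]
  rw [sum_fiber d (fun i => ∑ j ∈ Finset.range (Finset.univ.sup d + 1), mult d j * min j i)]
  have h2 : ∀ i ∈ Finset.range (Finset.univ.sup d + 1),
      mult d i * ∑ j ∈ Finset.range (Finset.univ.sup d + 1), mult d j * min j i
        = ∑ j ∈ Finset.range (Finset.univ.sup d + 1),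
            ((if i < j then i * mult d i * mult d j else 0)
              + (if j < i then j * mult d j * mult d i else 0)
              + (if i = j then ((i - 1) * mult d i ^ 2 + mult d i * mult d i) else 0)) := by
    intro i _
    rw [Finset.mul_sum]
    apply Finset.sum_congr rfl
    intro j _
    rcases Nat.lt_trichotomy i j with h | h | h
    · rw [if_pos h, if_neg (by omega), if_neg (by omega), Nat.min_eq_right h.le]
      ring
    · subst h
      rw [if_neg (lt_irrefl i), if_pos rfl, Nat.min_self]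
      rcases Nat.eq_zero_or_pos i with hi | hi
      · subst hi
        rw [h0]
        simp
      · obtain ⟨i', rfl⟩ : ∃ i', i = i' + 1 := ⟨i - 1, by omega⟩
        rw [Nat.add_sub_cancel]
        ring
    · rw [if_neg (by omega), if_pos h, if_neg (by omega), Nat.min_eq_left h.le]
      ring
  rw [Finset.sum_congr rfl h2]
  simp only [Finset.sum_add_distrib]
  rw [Finset.sum_comm (f := fun i j => if j < i then j * mult d j * mult d i else 0)]
  have h3 : ∀ i ∈ Finset.range (Finset.univ.sup d + 1),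
      (∑ j ∈ Finset.range (Finset.univ.sup d + 1),
        if i = j then ((i - 1) * mult d i ^ 2 + mult d i * mult d i) else 0)
        = (i - 1) * mult d i ^ 2 + mult d i * mult d i := by
    intro i hi
    rw [Finset.sum_ite_eq, if_pos hi]
  rw [Finset.sum_congr rfl h3, Finset.sum_add_distrib]
  ring

end final

section main

variable {F : Type v} [Field F] [Fintype F] {t : ℕ} {d : Fin t → ℕ}

theorem card_det_ne_zero' (S : Type) [Fintype S] [DecidableEq S] (n : ℕ)
    (hn : Fintype.card S = n) :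
    Nat.card {B : Matrix S S F // B.det ≠ 0}
      = ∏ j : Fin n, (Fintype.card F ^ n - Fintype.card F ^ (j : ℕ)) := by
  subst hn
  exact card_det_ne_zero S

theorem card_centralizer (hd : ∀ k, 1 ≤ d k) :
    Nat.card {X : Matrix ((k : Fin t) × Fin (d k)) ((k : Fin t) × Fin (d k)) F //
        X * NN F d = NN F d * X ∧ X.det ≠ 0}
      = Fintype.card F ^ (2 * (∑ i ∈ Finset.range (Finset.univ.sup d + 1),
            ∑ j ∈ Finset.range (Finset.univ.sup d + 1),
              if i < j then i * mult d i * mult d j else 0)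
          + ∑ i ∈ Finset.range (Finset.univ.sup d + 1), (i - 1) * mult d i ^ 2)
        * ∏ i ∈ Finset.range (Finset.univ.sup d + 1), ∏ j : Fin (mult d i),
            (Fintype.card F ^ mult d i - Fintype.card F ^ (j : ℕ)) := by
  classical
  have h := card_units_mul (F := F) hd
  rw [card_comm hd, Nat.card_pi, Nat.card_pi] at h
  have e1 : ∀ s : Fin (Finset.univ.sup d + 1),
      Nat.card (Matrix {k : Fin t // d k = (s : ℕ)} {k : Fin t // d k = (s : ℕ)} F)
        = Fintype.card F ^ (mult d (s : ℕ) * mult d (s : ℕ)) := by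
    intro s
    rw [card_matrix', Fintype.card_subtype]
    rfl
  have e2 : ∀ s : Fin (Finset.univ.sup d + 1),
      Nat.card {B : Matrix {k : Fin t // d k = (s : ℕ)} {k : Fin t // d k = (s : ℕ)} F //
          B.det ≠ 0}
        = ∏ j : Fin (mult d (s : ℕ)),
            (Fintype.card F ^ mult d (s : ℕ) - Fintype.card F ^ (j : ℕ)) := by
    intro s
    exact card_det_ne_zero' _ _ (Fintype.card_subtype _)
  rw [Finset.prod_congr rfl (fun s _ => e1 s), Finset.prod_congr rfl (fun s _ => e2 s),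
    Fin.prod_univ_eq_prod_range (fun i => Fintype.card F ^ (mult d i * mult d i)),
    Fin.prod_univ_eq_prod_range (fun i => ∏ j : Fin (mult d i),
      (Fintype.card F ^ mult d i - Fintype.card F ^ (j : ℕ))),
    Finset.prod_pow_eq_pow_sum, sum_min d hd, pow_add, mul_right_comm] at h
  exact Nat.eq_of_mul_eq_mul_right (pow_pos Fintype.card_pos _) h

end main

/-- Order of the centraliser in GL of a unipotent matrix of given Jordan type. -/
theorem result {F : Type*} [Field F] [Fintype F] {q : ℕ} (hF : Fintype.card F = q) {t : ℕ} (d : Fin t → ℕ) (hd : ∀ k, 1 ≤ d k) : Nat.card {g : GL ((k : Fin t) × Fin (d k)) F // (g : Matrix ((k : Fin t) × Fin (d k)) ((k : Fin t) × Fin (d k)) F) * Cfsg.jordanTypeMatrix d F = Cfsg.jordanTypeMatrix d F * (g : Matrix ((k : Fin t) × Fin (d k)) ((k : Fin t) × Fin (d k)) F)} = q ^ (2 * (∑ i ∈ Finset.range (Finset.univ.sup d + 1), ∑ j ∈ Finset.range (Finset.univ.sup d + 1), if i < j then i * (Finset.univ.filter (fun k : Fin t => d k = i)).card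 * (Finset.univ.filter (fun k : Fin t => d k = j)).card else 0) + ∑ i ∈ Finset.range (Finset.univ.sup d + 1), (i - 1) * (Finset.univ.filter (fun k : Fin t => d k = i)).card ^ 2) * ∏ i ∈ Finset.range (Finset.univ.sup d + 1), ∏ j : Fin ((Finset.univ.filter (fun k : Fin t => d k = i)).card), (q ^ (Finset.univ.filter (fun k : Fin t => d k = i)).card - q ^ (j : ℕ)) := by
  subst hF
  refine Eq.trans ?_ (card_centralizer (F := F) hd)
  have hJ : Cfsg.jordanTypeMatrix d F = NN F d + 1 := eq_add_of_sub_eq (jordanType_sub_one d)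
  have hiff : ∀ X : Matrix ((k : Fin t) × Fin (d k)) ((k : Fin t) × Fin (d k)) F,
      X * Cfsg.jordanTypeMatrix d F = Cfsg.jordanTypeMatrix d F * X
        ↔ X * NN F d = NN F d * X := by
    intro X
    rw [hJ, mul_add, add_mul, mul_one, one_mul]
    exact add_left_inj X
  apply Nat.card_congr
  exact
    { toFun := fun g => ⟨(g.1 : Matrix ((k : Fin t) × Fin (d k)) ((k : Fin t) × Fin (d k)) F),
        (hiff _).mp g.2, (Matrix.GeneralLinearGroup.det g.1).ne_zero⟩
      invFun := fun X => ⟨Matrix.GeneralLinearGroup.mkOfDetNeZero X.1 X.2.2, (hiff _).mpr X.2.1⟩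
      left_inv := by
        rintro ⟨g, hg⟩
        apply Subtype.ext
        apply Units.ext
        rfl
      right_inv := by
        rintro ⟨X, hX⟩
        rfl }

end Cfsg.Agent.S2581
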