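import Cfsg.Statements.S5142
import Cfsg.Agent.Lib.Helper88.NormChiE

set_option autoImplicit false
open Cfsg

namespace Cfsg.Agent.S5142

open Cfsg.FusionSystem Cfsg.Agent.Lib.Helper90 Cfsg.Agent.Lib.Helper91 Cfsg.Agent.Lib.Helper88
open Cfsg.Agent.Lib.Helper88.PIdx

/-- Let F be a saturated fusion system over a finite p-group S and E a normal subsystem of F over T. Then the p'-residual subsystem of E (the least saturated subsystem of E over T of index prime to p) is contained in every normal subsystem of F over T; together with its normality in F (the case of a weakly normal E) this makes it the least normal subsystem of F over T. -/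
theorem result {Ω : Type*} [Group Ω] {S : Subgroup Ω} [Finite S] (p : ℕ) [Fact p.Prime] (hS : IsPGroup p S) (F : Cfsg.FusionSystem S) (hF : F.IsSaturated p) {T : Subgroup Ω} (E : Cfsg.FusionSystem T) (hE : E.IsNormalIn F p) (D : Cfsg.FusionSystem T) (hD : E.IsPPrimeResidual p D) : ∀ D' : Cfsg.FusionSystem T, D'.IsNormalIn F p → D.IsSubsystemOf D' := by
  classical
  intro D' hD'
  have hEs : E.IsSaturated p := hE.1.1
  have hEinv : E.IsInvariantIn F := hE.1.2.2
  have hTS : T ≤ S := hEinv.2.1.1
  have hfinT : Finite T := finite_of_le hTS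
  have hT : IsPGroup p T := hS.to_le hTS
  have hD's : D'.IsSaturated p := hD'.1.1
  have hD'inv : D'.IsInvariantIn F := hD'.1.2.2
  have hsE := setup_of_invariant hS hF hEs hEinv
  have hsD' := setup_of_invariant hS hF hD's hD'inv
  have hD2 : D.IsSubsystemOf (S5140.sys2 E p) :=
    hD.2.2 (S5140.sys2 E p) (S5140.sys2_saturated hT hEs) (S5140.sys2_index hT hEs).1
  have hfam : ∀ Q : Subgroup Ω, E.IsCentric Q →
      S5114.opP p (E.autGroup Q) ≤ D'.autGroup Q := by
    intro Q hQ
    unfold S5114.opP
    rw [Subgroup.closure_le]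
    rintro κ ⟨hκ, k, hk⟩
    exact aut_ppow_mem hEs hEinv hD'inv hQ.1 hκ hk
  have hA : S5140.A0 E p ≤ D'.autGroup T := by
    unfold S5140.A0
    rw [Subgroup.closure_le]
    rintro α ⟨hα, P, hPc, hm⟩
    exact W2 hsD' hEs hEinv _ P rfl (hsE.CT_of_centric hPc) α hα (S5140.sys1_min hm D' hfam)
  have hmain : ∀ P f, Mor (S5140.sys2 E p) P f → Mor D' P f := by
    intro P f hf
    obtain ⟨α, hα, f₀, h0, hff⟩ := S5140.mor_sys2_iff.mp hf
    have h1 : Mor D' P f₀ := S5140.sys1_min h0 D' hfam
    have h2 : Mor D' T (autFun T α) := (mem_autGroup_iff D' le_rfl α).mp (hA hα)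
    have h3 : Mor D' P (autFun T α ∘ f₀) :=
      h1.comp (h2.restrict h1.img_le) (fun x hx => h1.mem_img_of_mem hx)
    exact h3.congr (fun x hx => (hff x hx).symm)
  intro P φ hφ
  exact hom_subset_of_mor' hmain P (hD2 P hφ)

end Cfsg.Agent.S5142
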