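import Cfsg.Statements.S4480
import Mathlib
import Cfsg.Agent.Lib.Helper79.Klein8

set_option autoImplicit false
open Cfsg

namespace Cfsg.Agent.S4480

/-- Same setting as the Klein-four order formula: G of order 4·g₀ (g₀ odd) with no normal 2-complement, P a Sylow 2-subgroup, J an involution of P, M over 2, principal 2-block {1, χ₁, χ₂, χ₃} with χ_i(J) = ε_i = ±1. Suppose ε₁ε₂ε₃ = −1 and ε₃ = −1, and put q = x₃ = χ₃(1). Then there is a natural number m with 4·c(J) = m·c(P)·(q + 1), and the order of G equals (m³·c(P)/4)·(q³ − q)/2, that is 8·#G = m³·c(P)·(q³ − q). -/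
theorem result {G : Type*} [Group G] [Finite G] (M : Ideal Cfsg.AlgInt) (hM : Cfsg.IsPModular 2 M) (g₀ : ℕ) (hg₀ : Odd g₀) (hG : Nat.card G = 4 * g₀) (hnc : ¬ ∃ N : Subgroup G, N.Normal ∧ Nat.card N = g₀) (P : Sylow 2 G) (J : G) (hJ : J ∈ (P : Subgroup G)) (hJ2 : orderOf J = 2) (χ₁ χ₂ χ₃ : Cfsg.IrrCharacter G) (ε₁ ε₂ ε₃ : ℤ) (hB : Cfsg.principalBlock M G = {χ : Cfsg.IrrCharacter G | (χ : G → ℂ) = (fun _ => 1) ∨ χ = χ₁ ∨ χ = χ₂ ∨ χ = χ₃}) (hdist : (χ₁ : G → ℂ) ≠ (fun _ => 1) ∧ (χ₂ : G → ℂ) ≠ (fun _ => 1) ∧ (χ₃ : G → ℂ) ≠ (fun _ => 1) ∧ χ₁ ≠ χ₂ ∧ χ₁ ≠ χ₃ ∧ χ₂ ≠ χ₃) (hε : (ε₁ = 1 ∨ ε₁ = -1) ∧ (ε₂ = 1 ∨ ε₂ = -1) ∧ (ε₃ = 1 ∨ ε₃ = -1)) (hval : (χ₁ : G → ℂ) J = ε₁ ∧ (χ₂ : G → ℂ) J = ε₂ ∧ (χ₃ : G → ℂ) J = ε₃) (hprod : ε₁ * ε₂ * ε₃ = -1) (hε₃ : ε₃ = -1) : ∃ m : ℕ, 4 * Nat.card (Subgroup.centralizer ({J} : Set G)) = m * Nat.card (Subgroup.centralizer ((P : Subgroup G) : Set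 G)) * (Cfsg.charDegree (χ₃ : G → ℂ) + 1) ∧ 8 * Nat.card G = m ^ 3 * Nat.card (Subgroup.centralizer ((P : Subgroup G) : Set G)) * (Cfsg.charDegree (χ₃ : G → ℂ) ^ 3 - Cfsg.charDegree (χ₃ : G → ℂ)) := by
  classical
  letI := Fintype.ofFinite G
  obtain ⟨hrel, n, hn, hform⟩ := Cfsg.Agent.Lib.Helper79.klein_four_relations hM g₀ hg₀ hG hnc P J
    hJ hJ2 χ₁ χ₂ χ₃ ε₁ ε₂ ε₃ hB hdist hε hval
  have hx₁pos := Cfsg.Agent.Lib.Helper79.charDegree_pos χ₁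
  have hx₂pos := Cfsg.Agent.Lib.Helper79.charDegree_pos χ₂
  have hx₃pos := Cfsg.Agent.Lib.Helper79.charDegree_pos χ₃
  -- the signs
  have hε₁ : ε₁ = 1 := by
    rcases hε.1 with h | h
    · exact h
    · exfalso
      rcases hε.2.1 with h' | h'
      · rw [h, h', hε₃] at hprod; norm_num at hprod
      · rw [h, h', hε₃] at hrel; omega
  have hε₂ : ε₂ = 1 := by
    rcases hε.2.1 with h | h
    · exact h
    · exfalso
      rw [hε₁, h, hε₃] at hprod; norm_num at hprod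
  subst hε₁ hε₂ hε₃
  have hv₁ : (χ₁ : G → ℂ) J = 1 := by rw [hval.1]; norm_num
  have hv₂ : (χ₂ : G → ℂ) J = 1 := by rw [hval.2.1]; norm_num
  have hv₃ : (χ₃ : G → ℂ) J = -1 := by rw [hval.2.2]; norm_num
  have hdeg := Cfsg.Agent.Lib.Helper79.klein_degrees_eq hM g₀ hg₀ hG hnc P J hJ hJ2 χ₁ χ₂ χ₃ hB
    hdist hv₁ hv₂ hv₃
  have hq : Cfsg.charDegree (χ₃ : G → ℂ) = 2 * Cfsg.charDegree (χ₁ : G → ℂ) + 1 := by
    rw [← hdeg] at hrel
    omega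
  rw [← hdeg, hq] at hform
  set x : ℕ := Cfsg.charDegree (χ₁ : G → ℂ) with hx
  set cJ : ℕ := Nat.card (Subgroup.centralizer ({J} : Set G)) with hcJ
  set cP : ℕ := Nat.card (Subgroup.centralizer ((P : Subgroup G) : Set G)) with hcP
  set g : ℕ := Nat.card G with hg
  have hcJpos : 0 < cJ := Nat.card_pos
  -- (A): g (x+1)² = 4 n² cJ x (2x+1)
  have hA : g * (x + 1) ^ 2 = 4 * n ^ 2 * cJ * x * (2 * x + 1) := by
    have hxQ : (0 : ℚ) < (x : ℚ) := by exact_mod_cast hx₁pos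
    have h1 : ((g * (x + 1) ^ 2 : ℕ) : ℚ) = ((4 * n ^ 2 * cJ * x * (2 * x + 1) : ℕ) : ℚ) := by
      push_cast
      push_cast at hform
      have h2 : (2 * (x : ℚ) + 1) ≠ 0 := by positivity
      field_simp at hform
      linear_combination (1 / 2 : ℚ) * hform
    exact_mod_cast h1
  -- the index
  have hidx : (Subgroup.centralizer ({J} : Set G)).index * cJ = g := by
    rw [mul_comm]; exact Subgroup.card_mul_index _
  have hA' : (Subgroup.centralizer ({J} : Set G)).index * (x + 1) ^ 2 =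
      (2 * n) ^ 2 * (x * (2 * x + 1)) := by
    apply Nat.eq_of_mul_eq_mul_right hcJpos
    calc (Subgroup.centralizer ({J} : Set G)).index * (x + 1) ^ 2 * cJ
        = ((Subgroup.centralizer ({J} : Set G)).index * cJ) * (x + 1) ^ 2 := by ring
      _ = 4 * n ^ 2 * cJ * x * (2 * x + 1) := by rw [hidx, hA]
      _ = (2 * n) ^ 2 * (x * (2 * x + 1)) * cJ := by ring
  have hcop : Nat.Coprime ((x + 1) ^ 2) (x * (2 * x + 1)) := by
    apply Nat.Coprime.pow_left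
    apply Nat.Coprime.mul_right
    · simp
    · have h1 : 2 * x + 1 = x + (x + 1) := by ring
      rw [h1]
      simp
  have hdvd : (x + 1) ∣ 2 * n := by
    have h1 : (x + 1) ^ 2 ∣ (2 * n) ^ 2 * (x * (2 * x + 1)) := ⟨_, hA'.symm.trans (mul_comm _ _)⟩
    have h2 := hcop.dvd_of_dvd_mul_right h1
    exact (Nat.pow_dvd_pow_iff (by norm_num)).mp h2
  obtain ⟨m, hm⟩ := hdvd
  refine ⟨m, ?_, ?_⟩
  · rw [hq]
    calc 4 * cJ = 4 * (n * cP) := by rw [hn]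
      _ = 2 * (2 * n) * cP := by ring
      _ = 2 * ((x + 1) * m) * cP := by rw [hm]
      _ = m * cP * (2 * x + 1 + 1) := by ring
  · rw [hq]
    have hsub : (2 * x + 1) ^ 3 - (2 * x + 1) = 4 * x * (x + 1) * (2 * x + 1) := by
      apply Nat.sub_eq_of_eq_add
      ring
    rw [hsub]
    apply Nat.eq_of_mul_eq_mul_right (pow_pos (Nat.succ_pos x) 2)
    calc 8 * g * (x + 1) ^ 2 = 8 * (g * (x + 1) ^ 2) := by ring
      _ = 8 * (4 * n ^ 2 * cJ * x * (2 * x + 1)) := by rw [hA]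
      _ = 8 * (4 * n ^ 2 * (n * cP) * x * (2 * x + 1)) := by rw [hn]
      _ = (2 * n) ^ 3 * cP * (4 * x * (2 * x + 1)) := by ring
      _ = ((x + 1) * m) ^ 3 * cP * (4 * x * (2 * x + 1)) := by rw [hm]
      _ = m ^ 3 * cP * (4 * x * (x + 1) * (2 * x + 1)) * (x + 1) ^ 2 := by ring

end Cfsg.Agent.S4480
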