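import Cfsg.Statements.S4479
import Mathlib
import Cfsg.Agent.Lib.Helper79.Klein6

set_option autoImplicit false
open Cfsg

namespace Cfsg.Agent.S4479

/-- An order formula from the principal 2-block. Let G be a finite group of order 4·g₀ with g₀ odd having no normal 2-complement (no normal subgroup of order g₀); let P be a Sylow 2-subgroup, J an involution of P, and fix a maximal ideal M of the algebraic integers containing 2. Suppose the principal 2-block consists of the principal character and three further distinct characters χ₁, χ₂, χ₃ of degrees x₁, x₂, x₃, with χ_i(J) = ε_i = ±1. Then, writing c(J) and c(P) for the orders of the centralizers of J and of P, the order of G equals 8·α·c(J)³/c(P)² with α = x₁x₂x₃ / ((x₁ + ε₁)(x₂ + ε₂)(x₃ + ε₃)). -/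
theorem result {G : Type*} [Group G] [Finite G] (M : Ideal Cfsg.AlgInt) (hM : Cfsg.IsPModular 2 M) (g₀ : ℕ) (hg₀ : Odd g₀) (hG : Nat.card G = 4 * g₀) (hnc : ¬ ∃ N : Subgroup G, N.Normal ∧ Nat.card N = g₀) (P : Sylow 2 G) (J : G) (hJ : J ∈ (P : Subgroup G)) (hJ2 : orderOf J = 2) (χ₁ χ₂ χ₃ : Cfsg.IrrCharacter G) (ε₁ ε₂ ε₃ : ℤ) (hB : Cfsg.principalBlock M G = {χ : Cfsg.IrrCharacter G | (χ : G → ℂ) = (fun _ => 1) ∨ χ = χ₁ ∨ χ = χ₂ ∨ χ = χ₃}) (hdist : (χ₁ : G → ℂ) ≠ (fun _ => 1) ∧ (χ₂ : G → ℂ) ≠ (fun _ => 1) ∧ (χ₃ : G → ℂ) ≠ (fun _ => 1) ∧ χ₁ ≠ χ₂ ∧ χ₁ ≠ χ₃ ∧ χ₂ ≠ χ₃) (hε : (ε₁ = 1 ∨ ε₁ = -1) ∧ (ε₂ = 1 ∨ ε₂ = -1) ∧ (ε₃ = 1 ∨ ε₃ = -1)) (hval : (χ₁ : G → ℂ) J = ε₁ ∧ (χ₂ : G → ℂ) J = ε₂ ∧ (χ₃ : G → ℂ) J = ε₃) : (Nat.card G : ℚ) = 8 * (((Cfsg.charDegree (χ₁ : G → ℂ) : ℚ) * Cfsg.charDegree (χ₂ : G → ℂ) * Cfsg.charDegree (χ₃ : G → ℂ)) / ((Cfsg.charDegree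 (χ₁ : G → ℂ) + ε₁) * (Cfsg.charDegree (χ₂ : G → ℂ) + ε₂) * (Cfsg.charDegree (χ₃ : G → ℂ) + ε₃))) * (Nat.card (Subgroup.centralizer ({J} : Set G)) : ℚ) ^ 3 / (Nat.card (Subgroup.centralizer ((P : Subgroup G) : Set G)) : ℚ) ^ 2 := by
  classical
  letI := Fintype.ofFinite G
  obtain ⟨hrel, n, hn, hform⟩ := Cfsg.Agent.Lib.Helper79.klein_four_relations hM g₀ hg₀ hG hnc P J
    hJ hJ2 χ₁ χ₂ χ₃ ε₁ ε₂ ε₃ hB hdist hε hval
  have ha : (0 : ℚ) < (Cfsg.charDegree (χ₁ : G → ℂ) : ℚ) := by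
    exact_mod_cast Cfsg.Agent.Lib.Helper79.charDegree_pos χ₁
  have hb : (0 : ℚ) < (Cfsg.charDegree (χ₂ : G → ℂ) : ℚ) := by
    exact_mod_cast Cfsg.Agent.Lib.Helper79.charDegree_pos χ₂
  have hc : (0 : ℚ) < (Cfsg.charDegree (χ₃ : G → ℂ) : ℚ) := by
    exact_mod_cast Cfsg.Agent.Lib.Helper79.charDegree_pos χ₃
  have hrelQ : (1 : ℚ) + (ε₁ : ℚ) * (Cfsg.charDegree (χ₁ : G → ℂ) : ℚ) +
      (ε₂ : ℚ) * (Cfsg.charDegree (χ₂ : G → ℂ) : ℚ) +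
      (ε₃ : ℚ) * (Cfsg.charDegree (χ₃ : G → ℂ) : ℚ) = 0 := by
    exact_mod_cast hrel
  have hcJ : (Nat.card (Subgroup.centralizer ({J} : Set G)) : ℚ) =
      (n : ℚ) * (Nat.card (Subgroup.centralizer ((P : Subgroup G) : Set G)) : ℚ) := by
    exact_mod_cast hn.symm
  have hcP : (0 : ℚ) < (Nat.card (Subgroup.centralizer ((P : Subgroup G) : Set G)) : ℚ) := by
    exact_mod_cast Nat.card_pos
  have hcJpos : (0 : ℚ) < (Nat.card (Subgroup.centralizer ({J} : Set G)) : ℚ) := by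
    exact_mod_cast Nat.card_pos
  have hGpos : (0 : ℚ) < (Nat.card G : ℚ) := by exact_mod_cast Nat.card_pos
  have hnpos : (0 : ℚ) < (n : ℚ) := by
    rcases Nat.eq_zero_or_pos n with h | h
    · exfalso
      rw [h, Nat.cast_zero, zero_mul] at hcJ
      rw [hcJ] at hcJpos
      exact absurd hcJpos (lt_irrefl _)
    · exact_mod_cast h
  set a : ℚ := (Cfsg.charDegree (χ₁ : G → ℂ) : ℚ) with ha_def
  set b : ℚ := (Cfsg.charDegree (χ₂ : G → ℂ) : ℚ) with hb_def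
  set c : ℚ := (Cfsg.charDegree (χ₃ : G → ℂ) : ℚ) with hc_def
  set cJ : ℚ := (Nat.card (Subgroup.centralizer ({J} : Set G)) : ℚ) with hcJ_def
  set cP : ℚ := (Nat.card (Subgroup.centralizer ((P : Subgroup G) : Set G)) : ℚ) with hcP_def
  set g : ℚ := (Nat.card G : ℚ) with hg_def
  have he₁ : (ε₁ : ℚ) * (ε₁ : ℚ) = 1 := by
    rcases hε.1 with h | h <;> rw [h] <;> norm_num
  have he₂ : (ε₂ : ℚ) * (ε₂ : ℚ) = 1 := by
    rcases hε.2.1 with h | h <;> rw [h] <;> norm_num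
  have he₃ : (ε₃ : ℚ) * (ε₃ : ℚ) = 1 := by
    rcases hε.2.2 with h | h <;> rw [h] <;> norm_num
  have hS : (1 + (ε₁ : ℚ) / a + (ε₂ : ℚ) / b + (ε₃ : ℚ) / c) ≠ 0 := by
    intro h0
    rw [h0, mul_zero] at hform
    have : (0 : ℚ) < 8 * (n : ℚ) ^ 2 * cJ := by positivity
    rw [← hform] at this
    exact lt_irrefl _ this
  have hprod : (a + (ε₁ : ℚ)) * (b + (ε₂ : ℚ)) * (c + (ε₃ : ℚ)) =
      a * b * c * (1 + (ε₁ : ℚ) / a + (ε₂ : ℚ) / b + (ε₃ : ℚ) / c) := by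
    field_simp
    linear_combination ((ε₁ : ℚ) * (ε₂ : ℚ) * (ε₃ : ℚ)) * hrelQ -
      ((ε₂ : ℚ) * (ε₃ : ℚ) * a) * he₁ - ((ε₁ : ℚ) * (ε₃ : ℚ) * b) * he₂ -
      ((ε₁ : ℚ) * (ε₂ : ℚ) * c) * he₃
  rw [hprod]
  have hg : g = 8 * (n : ℚ) ^ 2 * cJ / (1 + (ε₁ : ℚ) / a + (ε₂ : ℚ) / b + (ε₃ : ℚ) / c) :=
    eq_div_of_mul_eq hS hform
  rw [hg, hcJ]
  generalize (1 + (ε₁ : ℚ) / a + (ε₂ : ℚ) / b + (ε₃ : ℚ) / c) = S at hS
  have ha' := ha.ne'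
  have hb' := hb.ne'
  have hc' := hc.ne'
  have hcP' := hcP.ne'
  field_simp

end Cfsg.Agent.S4479
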