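import Cfsg.Statements.S0631
import Cfsg.Agent.S0028
import Cfsg.Agent.S3800
import Cfsg.Agent.Lib.Helper30.PLayer
import Cfsg.Agent.Lib.Helper41.Cores

set_option autoImplicit false
open Cfsg
open Cfsg.Agent.Lib.Helper30

namespace Cfsg.Agent.S0631

theorem isPConstrained_of_centralizer_le {G : Type*} [Group G] [Finite G] {p : ℕ} [Fact p.Prime]
    (h : Subgroup.centralizer (pCore p (G ⧸ pPrimeCore p G) : Set (G ⧸ pPrimeCore p G))
      ≤ pCore p (G ⧸ pPrimeCore p G)) :
    IsPConstrained p G := by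
  intro P' c hc
  have hP'map := sylow_pPrimePCore_map p P'
  have h1 : (QuotientGroup.mk' (pPrimeCore p G)) c ∈ Subgroup.centralizer
      ((((P' : Subgroup ↥(pPrimePCore p G)).map (pPrimePCore p G).subtype).map
        (QuotientGroup.mk' (pPrimeCore p G)) : Subgroup (G ⧸ pPrimeCore p G)) :
          Set (G ⧸ pPrimeCore p G)) := by
    rw [Subgroup.mem_centralizer_iff]
    rintro _ ⟨y, hy, rfl⟩
    rw [Subgroup.mem_centralizer_iff] at hc
    rw [← map_mul, ← map_mul, hc y hy]
  rw [hP'map] at h1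
  exact h h1

theorem centralizer_le_of_isPConstrained {G : Type*} [Group G] [Finite G] {p : ℕ} [Fact p.Prime]
    (h : IsPConstrained p G) :
    Subgroup.centralizer (pCore p (G ⧸ pPrimeCore p G) : Set (G ⧸ pPrimeCore p G))
      ≤ pCore p (G ⧸ pPrimeCore p G) := by
  have hOc : (Nat.card (pPrimeCore p G)).Coprime p := pPrimeCore_coprime p
  let P : Sylow p ↥(pPrimePCore p G) := default
  have hPp : IsPGroup p ((P : Subgroup ↥(pPrimePCore p G)).map (pPrimePCore p G).subtype) :=
    P.isPGroup'.map _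
  have hPmap := sylow_pPrimePCore_map p P
  obtain ⟨-, hcent⟩ := Cfsg.Agent.S3800.result (pPrimeCore p G) hOc _ hPp
  rw [hPmap] at hcent
  rw [hcent]
  rintro _ ⟨c, hc, rfl⟩
  exact h P hc

theorem map_inf_pCore_eq_bot {G : Type*} [Group G] [Finite G] {p : ℕ} [Fact p.Prime]
    (X : Subgroup G) (hX : (Nat.card X).Coprime p) :
    X.map (QuotientGroup.mk' (pPrimeCore p G)) ⊓ pCore p (G ⧸ pPrimeCore p G) = ⊥ := by
  have hQp : IsPGroup p (pCore p (G ⧸ pPrimeCore p G)) := pCore_isPGroup p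
  have hXbc : (Nat.card (X.map (QuotientGroup.mk' (pPrimeCore p G)))).Coprime p :=
    Nat.Coprime.coprime_dvd_left (Subgroup.card_map_dvd _ _) hX
  apply disjoint_iff.mp
  apply Subgroup.disjoint_of_coprime_natCard
  obtain ⟨k, hk⟩ := IsPGroup.iff_card.mp hQp
  rw [hk]; exact Nat.Coprime.pow_right k hXbc

/-- Thompson `P × Q` argument in `G / O_{p'}(G)`. -/
theorem core_gen {G : Type*} [Group G] [Finite G] {p : ℕ} [Fact p.Prime]
    (hc : Subgroup.centralizer (pCore p (G ⧸ pPrimeCore p G) : Set (G ⧸ pPrimeCore p G))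
      ≤ pCore p (G ⧸ pPrimeCore p G))
    (P : Subgroup G) (hP : IsPGroup p P) (X : Subgroup G)
    (hXcard : (Nat.card X).Coprime p) (hXP : ∀ x ∈ X, ∀ y ∈ P, x * y = y * x)
    (hCK : ∀ y ∈ Subgroup.centralizer (P : Set G), y ∈ pPrimePCore p G → ∀ x ∈ X,
      (QuotientGroup.mk' (pPrimeCore p G)) (x * y) = (QuotientGroup.mk' (pPrimeCore p G)) (y * x)) :
    X ≤ pPrimeCore p G := by
  have hOc : (Nat.card (pPrimeCore p G)).Coprime p := pPrimeCore_coprime p
  obtain ⟨-, hcent⟩ := Cfsg.Agent.S3800.result (pPrimeCore p G) hOc P hP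
  have hQp : IsPGroup p (pCore p (G ⧸ pPrimeCore p G)) := pCore_isPGroup p
  have hXbc : (Nat.card (X.map (QuotientGroup.mk' (pPrimeCore p G)))).Coprime p :=
    Nat.Coprime.coprime_dvd_left (Subgroup.card_map_dvd _ _) hXcard
  have hdisj2 := map_inf_pCore_eq_bot X hXcard
  have key := Cfsg.Agent.S0028.result p (P.map (QuotientGroup.mk' (pPrimeCore p G)))
    (X.map (QuotientGroup.mk' (pPrimeCore p G))) (pCore p (G ⧸ pPrimeCore p G)) (hP.map _) hXbc hQp
    (by
      rintro _ ⟨y, hy, rfl⟩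
      rw [Subgroup.mem_centralizer_iff]
      rintro _ ⟨x, hx, rfl⟩
      rw [← map_mul, ← map_mul, hXP x hx y hy])
    (by rw [Subgroup.normalizer_eq_top]; exact le_top)
    (by rw [Subgroup.normalizer_eq_top]; exact le_top)
    (by
      intro y hy
      obtain ⟨hyQ, hyC⟩ := Subgroup.mem_inf.1 hy
      rw [hcent] at hyC
      obtain ⟨c, hc', rfl⟩ := hyC
      rw [Subgroup.mem_centralizer_iff]
      rintro _ ⟨x, hx, rfl⟩
      have h := hCK c hc' hyQ x hx
      rw [map_mul, map_mul] at h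
      exact h)
  have hle := key.trans hc
  have hbot : X.map (QuotientGroup.mk' (pPrimeCore p G)) = ⊥ := by
    rw [← hdisj2]; exact (inf_eq_left.mpr hle).symm
  rw [Subgroup.map_eq_bot_iff, QuotientGroup.ker_mk'] at hbot
  exact hbot

theorem subgroupOf_pPrimeCore_le {G : Type*} [Group G] [Finite G] {p : ℕ}
    (H : Subgroup G) : (pPrimeCore p G).subgroupOf H ≤ pPrimeCore p ↥H := by
  apply le_sSup
  refine ⟨inferInstance, ?_⟩
  exact Nat.Coprime.coprime_dvd_left
    (Subgroup.card_comap_dvd_of_injective _ _ Subtype.coe_injective) (pPrimeCore_coprime p)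

theorem normal_pSubgroup_le_sylow_pPrimePCore {X : Type*} [Group X] [Finite X] {p : ℕ}
    [Fact p.Prime] (R : Subgroup X) [hRn : R.Normal] (hR : IsPGroup p R)
    (T : Sylow p ↥(pPrimePCore p X)) :
    R ≤ (T : Subgroup ↥(pPrimePCore p X)).map (pPrimePCore p X).subtype := by
  have hRK : R ≤ pPrimePCore p X :=
    Cfsg.Agent.Lib.Helper41.mem_pPrimePCore_of_normal_sup R hR inferInstance
  have hn : (R.subgroupOf (pPrimePCore p X)).Normal := inferInstance
  have hp' : IsPGroup p (R.subgroupOf (pPrimePCore p X)) := hR.comap_subtype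
  have hle := hp'.le_sylow_of_normal T
  have h := Subgroup.map_mono (f := (pPrimePCore p X).subtype) hle
  rwa [Subgroup.map_subgroupOf_eq_of_le hRK] at h

theorem isPConstrained_of_pPrime_elements {X : Type*} [Group X] [Finite X] {p : ℕ} [Fact p.Prime]
    (T : Sylow p ↥(pPrimePCore p X))
    (h : ∀ c ∈ Subgroup.centralizer (((T : Subgroup ↥(pPrimePCore p X)).map
      (pPrimePCore p X).subtype : Subgroup X) : Set X), (orderOf c).Coprime p → c ∈ pPrimeCore p X) :
    IsPConstrained p X := by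
  have hp : p.Prime := Fact.out
  apply isPConstrained_of_centralizer_le
  have hOc : (Nat.card (pPrimeCore p X)).Coprime p := pPrimeCore_coprime p
  have hTp : IsPGroup p ((T : Subgroup ↥(pPrimePCore p X)).map (pPrimePCore p X).subtype) :=
    T.isPGroup'.map _
  have hTmap := sylow_pPrimePCore_map p T
  obtain ⟨-, hcent⟩ := Cfsg.Agent.S3800.result (pPrimeCore p X) hOc _ hTp
  rw [hTmap] at hcent
  have hYn : (Subgroup.centralizer
      (pCore p (X ⧸ pPrimeCore p X) : Set (X ⧸ pPrimeCore p X))).Normal := inferInstance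
  have hYp : IsPGroup p ↥(Subgroup.centralizer
      (pCore p (X ⧸ pPrimeCore p X) : Set (X ⧸ pPrimeCore p X))) := by
    rintro ⟨y, hy⟩
    have hy' := hy
    rw [hcent] at hy'
    obtain ⟨c, hc, rfl⟩ := hy'
    obtain ⟨a, m, hm, hnm⟩ := Nat.exists_eq_pow_mul_and_not_dvd (orderOf_pos c).ne' p hp.ne_one
    refine ⟨a, Subtype.ext ?_⟩
    have hc2 : c ^ p ^ a ∈ Subgroup.centralizer (((T : Subgroup ↥(pPrimePCore p X)).map
        (pPrimePCore p X).subtype : Subgroup X) : Set X) := pow_mem hc _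
    have hord : (orderOf (c ^ p ^ a)).Coprime p := by
      have h1 : orderOf (c ^ p ^ a) ∣ m := by
        apply orderOf_dvd_of_pow_eq_one
        rw [← pow_mul, ← hnm, pow_orderOf_eq_one]
      exact Nat.Coprime.coprime_dvd_left h1 ((Nat.Prime.coprime_iff_not_dvd hp).2 hm).symm
    have h2 := h _ hc2 hord
    show ((QuotientGroup.mk' (pPrimeCore p X)) c) ^ p ^ a = 1
    rw [← map_pow]
    exact (QuotientGroup.eq_one_iff _).mpr h2
  exact le_sSup ⟨hYn, hYp⟩

theorem isPConstrained_subgroup {G : Type*} [Group G] [Finite G] {p : ℕ} [Fact p.Prime]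
    (hc : Subgroup.centralizer (pCore p (G ⧸ pPrimeCore p G) : Set (G ⧸ pPrimeCore p G))
      ≤ pCore p (G ⧸ pPrimeCore p G))
    (P : Subgroup G) (hP : IsPGroup p P) (H : Subgroup G)
    (hCH : Subgroup.centralizer (P : Set G) ≤ H) (hHN : H ≤ Subgroup.normalizer (P : Set G))
    (hHP : ∀ c ∈ H, (∀ y ∈ P ⊓ H, c * y = y * c) → ∀ y ∈ P, c * y = y * c) :
    IsPConstrained p ↥H := by
  have hp : p.Prime := Fact.out
  have hXc : (Nat.card (pPrimeCore p ↥H)).Coprime p := pPrimeCore_coprime p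
  have hQn : (pCore p (G ⧸ pPrimeCore p G)).Normal := inferInstance
  have hF1 : (pPrimeCore p ↥H).map H.subtype ≤ pPrimeCore p G := by
    obtain ⟨X, hX⟩ : ∃ X : Subgroup G, X = (pPrimeCore p ↥H).map H.subtype := ⟨_, rfl⟩
    rw [← hX]
    have hXcard : (Nat.card X).Coprime p := by rw [hX, Subgroup.card_subtype]; exact hXc
    have hXH : X ≤ H := by rw [hX]; exact Subgroup.map_subtype_le _
    have hNX : ∀ n ∈ H, ∀ x ∈ X, n * x * n⁻¹ ∈ X := by
      intro n hn x hx
      rw [hX] at hx ⊢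
      obtain ⟨x₀, hx₀, rfl⟩ := hx
      have hnorm : (pPrimeCore p ↥H).Normal := inferInstance
      refine ⟨⟨n, hn⟩ * x₀ * ⟨n, hn⟩⁻¹, hnorm.conj_mem x₀ hx₀ ⟨n, hn⟩, ?_⟩
      simp
    have hdisj : X ⊓ P = ⊥ := by
      apply disjoint_iff.mp
      apply Subgroup.disjoint_of_coprime_natCard
      obtain ⟨k, hk⟩ := IsPGroup.iff_card.mp hP
      rw [hk]; exact Nat.Coprime.pow_right k hXcard
    have hXP : ∀ x ∈ X, ∀ y ∈ P, x * y = y * x := by
      intro x hx
      apply hHP x (hXH hx)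
      intro y hy
      obtain ⟨hyP, hyH⟩ := Subgroup.mem_inf.1 hy
      have h1 : x * y * x⁻¹ * y⁻¹ ∈ X := by
        have h := hNX y hyH x⁻¹ (X.inv_mem hx)
        have e : x * y * x⁻¹ * y⁻¹ = x * (y * x⁻¹ * y⁻¹) := by group
        rw [e]; exact X.mul_mem hx h
      have h2 : x * y * x⁻¹ * y⁻¹ ∈ P := by
        have h := (Subgroup.mem_normalizer_iff.mp (hHN (hXH hx)) y).1 hyP
        exact P.mul_mem h (P.inv_mem hyP)
      have h3 : x * y * x⁻¹ * y⁻¹ ∈ X ⊓ P := Subgroup.mem_inf.2 ⟨h1, h2⟩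
      rw [hdisj, Subgroup.mem_bot] at h3
      calc x * y = (x * y * x⁻¹ * y⁻¹) * (y * x) := by group
        _ = y * x := by rw [h3, one_mul]
    apply core_gen hc P hP X hXcard hXP
    intro y hyC hyK x hx
    have h1 : (QuotientGroup.mk' (pPrimeCore p G)) (y * x * y⁻¹ * x⁻¹)
        ∈ X.map (QuotientGroup.mk' (pPrimeCore p G)) :=
      Subgroup.mem_map_of_mem _ (X.mul_mem (hNX y (hCH hyC) x hx) (X.inv_mem hx))
    have h2 : (QuotientGroup.mk' (pPrimeCore p G)) (y * x * y⁻¹ * x⁻¹)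
        ∈ pCore p (G ⧸ pPrimeCore p G) := by
      have e : (QuotientGroup.mk' (pPrimeCore p G)) (y * x * y⁻¹ * x⁻¹)
          = (QuotientGroup.mk' (pPrimeCore p G)) y
            * ((QuotientGroup.mk' (pPrimeCore p G)) x
              * ((QuotientGroup.mk' (pPrimeCore p G)) y)⁻¹
              * ((QuotientGroup.mk' (pPrimeCore p G)) x)⁻¹) := by
        simp only [map_mul, map_inv]; group
      rw [e]
      have hyQ : (QuotientGroup.mk' (pPrimeCore p G)) y ∈ pCore p (G ⧸ pPrimeCore p G) := hyK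
      exact mul_mem hyQ (hQn.conj_mem _ (inv_mem hyQ) _)
    have h3 := Subgroup.mem_inf.2 ⟨h1, h2⟩
    rw [map_inf_pCore_eq_bot X hXcard, Subgroup.mem_bot] at h3
    have h5 : y * x = (y * x * y⁻¹ * x⁻¹) * (x * y) := by group
    have h6 : (QuotientGroup.mk' (pPrimeCore p G)) (y * x)
        = (QuotientGroup.mk' (pPrimeCore p G)) (x * y) := by
      rw [h5, map_mul, h3, one_mul]
    exact h6.symm
  have hF0 := subgroupOf_pPrimeCore_le (p := p) H
  have hF2 : ∀ y₀ : ↥H, (y₀ : G) ∈ pPrimePCore p G → y₀ ∈ pPrimePCore p ↥H := by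
    intro y₀ hy₀
    have hKn : (pPrimePCore p G).Normal := Cfsg.Agent.Lib.Helper41.pPrimePCore_normal' p
    have hK0n : ((pPrimePCore p G).subgroupOf H).Normal := inferInstance
    have hmapn : (((pPrimePCore p G).subgroupOf H).map
        (QuotientGroup.mk' (pPrimeCore p ↥H))).Normal :=
      hK0n.map _ (QuotientGroup.mk'_surjective _)
    have hmapp : IsPGroup p (((pPrimePCore p G).subgroupOf H).map
        (QuotientGroup.mk' (pPrimeCore p ↥H))) := by
      rintro ⟨_, ⟨k, hk, rfl⟩⟩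
      have hQp : IsPGroup p (pCore p (G ⧸ pPrimeCore p G)) := pCore_isPGroup p
      have hk' : (QuotientGroup.mk' (pPrimeCore p G)) (k : G) ∈ pCore p (G ⧸ pPrimeCore p G) :=
        Subgroup.mem_subgroupOf.1 hk
      obtain ⟨j, hj⟩ := hQp ⟨_, hk'⟩
      refine ⟨j, Subtype.ext ?_⟩
      have hj' : (QuotientGroup.mk' (pPrimeCore p G)) ((k : G) ^ p ^ j) = 1 := by
        have h := congrArg Subtype.val hj
        rw [map_pow]; exact h
      have h2 : k ^ p ^ j ∈ pPrimeCore p ↥H := by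
        apply hF0
        rw [Subgroup.mem_subgroupOf]
        have h := (QuotientGroup.eq_one_iff _).mp hj'
        simpa using h
      show ((QuotientGroup.mk' (pPrimeCore p ↥H)) k) ^ p ^ j = 1
      rw [← map_pow]; exact (QuotientGroup.eq_one_iff _).mpr h2
    have hle : ((pPrimePCore p G).subgroupOf H).map (QuotientGroup.mk' (pPrimeCore p ↥H))
        ≤ pCore p (↥H ⧸ pPrimeCore p ↥H) := le_sSup ⟨hmapn, hmapp⟩
    exact hle (Subgroup.mem_map_of_mem _ (Subgroup.mem_subgroupOf.2 hy₀))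
  let T : Sylow p ↥(pPrimePCore p ↥H) := default
  apply isPConstrained_of_pPrime_elements T
  intro c hcT hcord
  apply hF0
  rw [Subgroup.mem_subgroupOf]
  have hTmap := sylow_pPrimePCore_map p T
  have hcP : ∀ y ∈ P, (c : G) * y = y * c := by
    apply hHP c c.2
    intro y hy
    have hPn : ((P ⊓ H).subgroupOf H).Normal := by
      constructor
      intro n hn g
      rw [Subgroup.mem_subgroupOf] at hn ⊢
      simp only [Subgroup.coe_mul, Subgroup.coe_inv]
      refine Subgroup.mem_inf.2 ⟨?_, H.mul_mem (H.mul_mem g.2 n.2) (H.inv_mem g.2)⟩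
      exact (Subgroup.mem_normalizer_iff.mp (hHN g.2) _).1 (Subgroup.mem_inf.1 hn).1
    have hPp : IsPGroup p ((P ⊓ H).subgroupOf H) := (hP.to_le inf_le_left).comap_subtype
    have hle := normal_pSubgroup_le_sylow_pPrimePCore ((P ⊓ H).subgroupOf H) hPp T
    have hy' : (⟨y, (Subgroup.mem_inf.1 hy).2⟩ : ↥H) ∈
        (T : Subgroup ↥(pPrimePCore p ↥H)).map (pPrimePCore p ↥H).subtype :=
      hle (Subgroup.mem_subgroupOf.2 hy)
    have h := (Subgroup.mem_centralizer_iff.mp hcT) _ hy'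
    exact (congrArg Subtype.val h).symm
  have hzc : (Nat.card (Subgroup.zpowers (c : G))).Coprime p := by
    rw [Nat.card_zpowers, Subgroup.orderOf_coe]; exact hcord
  have hmain := core_gen hc P hP (Subgroup.zpowers (c : G)) hzc
    (by
      intro x hx y hy
      obtain ⟨k, rfl⟩ := Subgroup.mem_zpowers_iff.mp hx
      exact ((show Commute (c : G) y from hcP y hy).zpow_left k).eq)
    (by
      intro y hyC hyK x hx
      obtain ⟨k, rfl⟩ := Subgroup.mem_zpowers_iff.mp hx
      have hyH : y ∈ H := hCH hyC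
      have hy0 : (⟨y, hyH⟩ : ↥H) ∈ pPrimePCore p ↥H := hF2 ⟨y, hyH⟩ hyK
      have h1 : (QuotientGroup.mk' (pPrimeCore p ↥H)) ⟨y, hyH⟩
          ∈ pCore p (↥H ⧸ pPrimeCore p ↥H) := hy0
      rw [← hTmap] at h1
      obtain ⟨t, ht, hty⟩ := h1
      have ho : t⁻¹ * ⟨y, hyH⟩ ∈ pPrimeCore p ↥H := QuotientGroup.eq.mp hty
      have ho' : ((t : G))⁻¹ * y ∈ pPrimeCore p G := hF1 ⟨_, ho, rfl⟩
      have hπ : (QuotientGroup.mk' (pPrimeCore p G)) y
          = (QuotientGroup.mk' (pPrimeCore p G)) (t : G) := by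
        have e : y = (t : G) * ((t : G)⁻¹ * y) := by group
        have h7 : (QuotientGroup.mk' (pPrimeCore p G)) ((t : G)⁻¹ * y) = 1 :=
          (QuotientGroup.eq_one_iff _).mpr ho'
        rw [e, map_mul, h7, mul_one]
      have hct : (c : G) * (t : G) = (t : G) * (c : G) :=
        congrArg Subtype.val ((Subgroup.mem_centralizer_iff.mp hcT) t ht).symm
      have hckt : Commute ((c : G) ^ k) (t : G) :=
        (show Commute (c : G) (t : G) from hct).zpow_left k
      rw [map_mul, map_mul, hπ, ← map_mul, ← map_mul, hckt.eq])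
  exact hmain (Subgroup.mem_zpowers _)

/-- In a p-constrained group the normalizer and the centralizer of any p-subgroup are again p-constrained. -/
theorem result {G : Type*} [Group G] [Finite G] {p : ℕ} [Fact p.Prime] (hG : Cfsg.IsPConstrained p G) (P : Subgroup G) (hP : IsPGroup p P) : Cfsg.IsPConstrained p ↥(Subgroup.normalizer (P : Set G)) ∧ Cfsg.IsPConstrained p ↥(Subgroup.centralizer (P : Set G)) := by
  have hc := centralizer_le_of_isPConstrained hG
  constructor
  · apply isPConstrained_subgroup hc P hP _ (Subgroup.centralizer_le_normalizer _) le_rfl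
    intro c _ h y hy
    exact h y (Subgroup.mem_inf.2 ⟨hy, Subgroup.le_normalizer hy⟩)
  · apply isPConstrained_subgroup hc P hP _ le_rfl (Subgroup.centralizer_le_normalizer _)
    intro c hcC _ y hy
    exact ((Subgroup.mem_centralizer_iff.mp hcC) y hy).symm

end Cfsg.Agent.S0631
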