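import Cfsg.Statements.S1466
import Mathlib

set_option autoImplicit false
open Cfsg

namespace Cfsg.Agent.S1466

/-- in a nilpotent group, a normal subgroup `N` with `⁅N, ⊤⁆ = N` is trivial -/
theorem eq_bot_of_commutator_top_eq {R : Type*} [Group R] [Group.IsNilpotent R]
    (N : Subgroup R) (h : N ≤ ⁅N, (⊤ : Subgroup R)⁆) : N = ⊥ := by
  have key : ∀ k, N ≤ (⊤ : Subgroup R).lowerCentralSeries k := by
    intro k
    induction k with
    | zero => simp
    | succ k ih =>
      calc N ≤ ⁅N, (⊤ : Subgroup R)⁆ := h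
        _ ≤ ⁅(⊤ : Subgroup R).lowerCentralSeries k, (⊤ : Subgroup R)⁆ :=
            Subgroup.commutator_mono ih le_rfl
        _ = (⊤ : Subgroup R).lowerCentralSeries (k + 1) := rfl
  have hnil : Group.IsNilpotent (⊤ : Subgroup R) := inferInstance
  obtain ⟨n, hn⟩ := (Subgroup.isNilpotent_iff_lowerCentralSeries _).1 hnil
  rw [eq_bot_iff, ← hn]
  exact key n

/-- a maximal normal abelian subgroup of a finite nilpotent group is self-centralizing -/
theorem centralizer_le_of_maximal {R : Type*} [Group R] [Finite R] [Group.IsNilpotent R]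
    (B : Subgroup R) (hBn : B.Normal) (hBc : IsMulCommutative B)
    (hmax : ∀ D : Subgroup R, D.Normal → IsMulCommutative D → B ≤ D → D = B) :
    Subgroup.centralizer (B : Set R) ≤ B := by
  by_contra hnot
  -- minimal normal N ≤ C(B) with N not ≤ B
  have hfin : {N : Subgroup R | N.Normal ∧ N ≤ Subgroup.centralizer (B : Set R) ∧ ¬ N ≤ B}.Finite :=
    Set.toFinite _
  obtain ⟨N, hN⟩ := hfin.exists_minimal ⟨Subgroup.centralizer (B : Set R),
    ⟨inferInstance, le_rfl, hnot⟩⟩
  obtain ⟨⟨hNn, hNC, hNB⟩, hmin⟩ := hN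
  have hcomm_le : ⁅N, (⊤ : Subgroup R)⁆ ≤ N := Subgroup.commutator_le_left N ⊤
  have hcomm_B : ⁅N, (⊤ : Subgroup R)⁆ ≤ B := by
    by_contra hnb
    have h1 : N ≤ ⁅N, (⊤ : Subgroup R)⁆ :=
      hmin ⟨inferInstance, hcomm_le.trans hNC, hnb⟩ hcomm_le
    have h2 := eq_bot_of_commutator_top_eq N h1
    exact hNB (h2 ▸ bot_le)
  obtain ⟨x, hxN, hxB⟩ := SetLike.not_le_iff_exists.1 hNB
  have hxC : x ∈ Subgroup.centralizer (B : Set R) := hNC hxN
  -- D = closure (B ∪ {x})
  have hcomm : ∀ a ∈ (B : Set R) ∪ {x}, ∀ b ∈ (B : Set R) ∪ {x}, a * b = b * a := by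
    intro a ha b hb
    rcases ha with ha | ha <;> rcases hb with hb | hb
    · have := isMulCommutative_iff.1 hBc ⟨a, ha⟩ ⟨b, hb⟩
      exact congrArg Subtype.val this
    · rw [Set.mem_singleton_iff] at hb; subst hb
      exact (Subgroup.mem_centralizer_iff.1 hxC a ha)
    · rw [Set.mem_singleton_iff] at ha; subst ha
      exact (Subgroup.mem_centralizer_iff.1 hxC b hb).symm
    · rw [Set.mem_singleton_iff] at ha hb; subst ha; subst hb; rfl
  have hDc : IsMulCommutative (Subgroup.closure ((B : Set R) ∪ {x})) := by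
    exact Subgroup.isMulCommutative_closure hcomm
  have hDn : (Subgroup.closure ((B : Set R) ∪ {x})).Normal := by
    rw [← Subgroup.normalizer_eq_top_iff, eq_top_iff, Subgroup.le_normalizer_closure_iff]
    intro r _ g hg
    rcases hg with hg | hg
    · exact Subgroup.subset_closure (Or.inl (hBn.conj_mem g hg r))
    · rw [Set.mem_singleton_iff] at hg; subst hg
      have h1 : r * g * r⁻¹ * g⁻¹ ∈ B := by
        apply hcomm_B
        have h2 := Subgroup.commutator_mem_commutator hxN (Subgroup.mem_top r)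
        rw [commutatorElement_def] at h2
        have h3 : r * g * r⁻¹ * g⁻¹ = (g * r * g⁻¹ * r⁻¹)⁻¹ := by group
        rw [h3]
        exact Subgroup.inv_mem _ h2
      have h4 : r * g * r⁻¹ = (r * g * r⁻¹ * g⁻¹) * g := by group
      rw [h4]
      exact Subgroup.mul_mem _ (Subgroup.subset_closure (Or.inl h1))
        (Subgroup.subset_closure (Or.inr rfl))
  have hBD : B ≤ Subgroup.closure ((B : Set R) ∪ {x}) := by
    intro b hb
    exact Subgroup.subset_closure (Or.inl hb)
  have hD := hmax _ hDn hDc hBD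
  apply hxB
  rw [← hD]
  exact Subgroup.subset_closure (Or.inr rfl)

theorem step_ge {R : Type*} [Group R] (B X : Subgroup R) (hBn : B.Normal)
    (hBc : IsMulCommutative B) : B ≤ Cfsg.puigStep X := by
  unfold Cfsg.puigStep
  apply le_sSup
  refine ⟨hBc, ?_⟩
  rw [Subgroup.normalizer_eq_top_iff.2 hBn]
  exact le_top

/-- Let p be a prime and R a nontrivial finite p-group. Then for every i > 0, Z(R) ≤ C_R(L_i(R)) ≤ L_i(R); likewise Z(R) ≤ C_R(L_*(R)) ≤ L_*(R) and Z(R) ≤ C_R(L(R)) ≤ L(R); and L(R) ≠ 1, L_*(R) ≠ 1. -/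
theorem result {R : Type*} [Group R] [Finite R] (p : ℕ) [Fact p.Prime] (hR : IsPGroup p R) [Nontrivial R] :
    (∀ i : ℕ, 0 < i → Subgroup.center R ≤ Subgroup.centralizer ((Cfsg.puigSeq R i : Subgroup R) : Set R) ∧
        Subgroup.centralizer ((Cfsg.puigSeq R i : Subgroup R) : Set R) ≤ Cfsg.puigSeq R i) ∧
      (Subgroup.center R ≤ Subgroup.centralizer ((Cfsg.puigLower R : Subgroup R) : Set R) ∧ Subgroup.centralizer ((Cfsg.puigLower R : Subgroup R) : Set R) ≤ Cfsg.puigLower R) ∧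
      (Subgroup.center R ≤ Subgroup.centralizer ((Cfsg.puigSubgroup R : Subgroup R) : Set R) ∧ Subgroup.centralizer ((Cfsg.puigSubgroup R : Subgroup R) : Set R) ≤ Cfsg.puigSubgroup R) ∧
      Cfsg.puigSubgroup R ≠ ⊥ ∧ Cfsg.puigLower R ≠ ⊥ := by
  have hnil : Group.IsNilpotent R := hR.isNilpotent
  have hfin : {N : Subgroup R | N.Normal ∧ IsMulCommutative N}.Finite := Set.toFinite _
  obtain ⟨B, hB⟩ := hfin.exists_maximal ⟨⊥, ⟨inferInstance, inferInstance⟩⟩
  obtain ⟨⟨hBn, hBc⟩, hBmax⟩ := hB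
  have hBself : Subgroup.centralizer (B : Set R) ≤ B :=
    centralizer_le_of_maximal B hBn hBc
      (fun D hDn hDc hBD => le_antisymm (hBmax ⟨hDn, hDc⟩ hBD) hBD)
  have hseq : ∀ i : ℕ, 0 < i → B ≤ Cfsg.puigSeq R i := by
    intro i hi
    obtain ⟨j, rfl⟩ := Nat.exists_eq_succ_of_ne_zero hi.ne'
    exact step_ge B _ hBn hBc
  have hcl : ∀ L : Subgroup R, B ≤ L → Subgroup.centralizer (L : Set R) ≤ L := by
    intro L hL
    exact (Subgroup.centralizer_le hL).trans (hBself.trans hL)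
  have hlow : B ≤ Cfsg.puigLower R := by
    unfold Cfsg.puigLower
    exact (hseq 2 (by norm_num)).trans (le_iSup (fun n => Cfsg.puigSeq R (2 * n)) 1)
  have hup : B ≤ Cfsg.puigSubgroup R := by
    unfold Cfsg.puigSubgroup
    apply le_iInf
    intro n
    exact hseq _ (Nat.succ_pos _)
  have hZ : (⊥ : Subgroup R) < Subgroup.center R := hR.bot_lt_center
  have hne : ∀ L : Subgroup R, B ≤ L → L ≠ ⊥ := by
    intro L hL h
    have h1 : Subgroup.center R ≤ L := (Subgroup.center_le_centralizer _).trans (hcl L hL)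
    rw [h] at h1
    exact (lt_of_lt_of_le hZ h1).ne rfl
  exact ⟨fun i hi => ⟨Subgroup.center_le_centralizer _, hcl _ (hseq i hi)⟩,
    ⟨Subgroup.center_le_centralizer _, hcl _ hlow⟩,
    ⟨Subgroup.center_le_centralizer _, hcl _ hup⟩, hne _ hup, hne _ hlow⟩

end Cfsg.Agent.S1466
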