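import Cfsg.Statements.S1465
import Mathlib
import Cfsg.Agent.Lib.Helper34.Quad3

set_option autoImplicit false
open Cfsg

namespace Cfsg.Agent.S1465

/-- Let p be an odd prime, G a solvable group of odd order, P a normal p-subgroup of G, and X the subgroup generated by a family of abelian p-subgroups of G each normalized by P. Then the image of X in G/C_G(P) lies in O_p(G/C_G(P)); and if O_{p'}(G) = 1 and O_p(G) ∩ C_G(P) ≤ P then X ≤ O_p(G). -/
theorem result {G : Type*} [Group G] [Finite G] [Group.IsSolvable G] (hodd : Odd (Nat.card G)) (p : ℕ) [Fact p.Prime] (hp : p ≠ 2) (P : Subgroup G) [P.Normal] (hP : IsPGroup p P)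
    (S : Set (Subgroup G)) (hS : ∀ B ∈ S, IsMulCommutative B ∧ IsPGroup p B ∧ P ≤ Subgroup.normalizer (B : Set G)) :
    (sSup S).map (QuotientGroup.mk' (Subgroup.centralizer (P : Set G))) ≤ Cfsg.pCore p (G ⧸ Subgroup.centralizer (P : Set G)) ∧
      (Cfsg.pPrimeCore p G = ⊥ → Cfsg.pCore p G ⊓ Subgroup.centralizer (P : Set G) ≤ P → sSup S ≤ Cfsg.pCore p G) := by
  have part1 : sSup S ≤ (Cfsg.pCore p (G ⧸ Subgroup.centralizer (P : Set G))).comap
      (QuotientGroup.mk' (Subgroup.centralizer (P : Set G))) := by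
    apply sSup_le
    intro B hB b hb
    obtain ⟨hBc, hBp, hBn⟩ := hS B hB
    rw [Subgroup.mem_comap]
    obtain ⟨k, hk⟩ := hBp ⟨b, hb⟩
    have hbk : b ^ (p ^ k) = 1 := by
      have := congrArg Subtype.val hk
      simpa using this
    apply Cfsg.Agent.Lib.Helper34.quad_mem_pCore hodd p hp P hP b k hbk
    intro x hx
    have hxn := hBn hx
    have hc : b * x * b⁻¹ * x⁻¹ ∈ B := by
      have h1 : x * b⁻¹ * x⁻¹ ∈ B := by
        rw [Subgroup.mem_normalizer_iff] at hxn
        exact (hxn b⁻¹).mp (B.inv_mem hb)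
      have : b * x * b⁻¹ * x⁻¹ = b * (x * b⁻¹ * x⁻¹) := by group
      rw [this]
      exact B.mul_mem hb h1
    have := hBc.is_comm.comm ⟨b, hb⟩ ⟨_, hc⟩
    exact congrArg Subtype.val this
  refine ⟨Subgroup.map_le_iff_le_comap.mpr part1, ?_⟩
  intro hbot hle
  set C := Subgroup.centralizer (P : Set G) with hC
  have hCn : C.Normal := inferInstance
  -- C is a p-group
  have hCp : IsPGroup p C := by
    have h1 : Cfsg.pPrimeCore p ↥C = ⊥ := by
      have := Cfsg.Agent.Lib.Helper30.pPrimeCore_map_subtype_le p (Subgroup.Normal.isSubnormal hCn)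
      rw [hbot, le_bot_iff] at this
      exact (Subgroup.map_eq_bot_iff_of_injective _ C.subtype_injective).mp this
    have h2 : (Cfsg.pCore p ↥C).map C.subtype ≤ P := by
      refine le_trans ?_ hle
      refine le_inf (Cfsg.Agent.Lib.Helper30.pCore_map_subtype_le p (Subgroup.Normal.isSubnormal hCn)) ?_
      rintro _ ⟨x, -, rfl⟩
      exact x.2
    have h3 : Subgroup.centralizer (Cfsg.pCore p ↥C : Set ↥C) = ⊤ := by
      rw [eq_top_iff]
      intro c _
      rw [Subgroup.mem_centralizer_iff]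
      intro x hx
      have hxP : (x : G) ∈ P := h2 ⟨x, hx, rfl⟩
      have hc2 : (c : G) ∈ Subgroup.centralizer (P : Set G) := c.2
      rw [Subgroup.mem_centralizer_iff] at hc2
      exact Subtype.ext (hc2 _ hxP)
    have h4 := Cfsg.Agent.Lib.Helper34.solv_centralizer_pCore_le (H := ↥C) p h1
    rw [h3, top_le_iff] at h4
    have h5 := Cfsg.Agent.Lib.Helper30.pCore_isPGroup (G := ↥C) p
    rw [h4] at h5
    exact h5.of_equiv Subgroup.topEquiv
  exact le_trans part1 (Cfsg.Agent.Lib.Helper34.comap_pCore_le p C hCp)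

end Cfsg.Agent.S1465
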