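import Cfsg.Statements.S1503
import Cfsg.Agent.Lib.Helper35.Ind

set_option autoImplicit false
open Cfsg

namespace Cfsg.Agent.S1503

open Cfsg.Agent.Lib.Helper35 Cfsg.Agent.Lib.Helper4
open scoped ComplexConjugate

/-- the values of a homomorphism to the units of ℂ from a finite group have norm one -/
theorem hom_norm {A : Type*} [Group A] [Finite A] (φ : A →* ℂˣ) (a : A) :
    ‖((φ a : ℂˣ) : ℂ)‖ = 1 := by
  have h1 : (φ a) ^ (Nat.card A) = 1 := by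
    rw [← map_pow, pow_card_eq_one', map_one]
  have h2 : ((φ a : ℂˣ) : ℂ) ^ (Nat.card A) = 1 := by
    rw [← Units.val_pow_eq_pow_val, h1, Units.val_one]
  exact Complex.norm_eq_one_of_pow_eq_one h2 (Nat.card_pos (α := A)).ne'

theorem hom_conj {A : Type*} [Group A] [Finite A] (φ : A →* ℂˣ) (a : A) :
    conj ((φ a : ℂˣ) : ℂ) = ((φ a⁻¹ : ℂˣ) : ℂ) := by
  rw [← Complex.inv_eq_conj (hom_norm φ a), map_inv, Units.val_inv_eq_inv_val]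

/-- orthogonality for the characters of a finite abelian group trivial on a subgroup -/
theorem dual_sum_zero {A : Type*} [Group A] [Finite A] (hc : ∀ a b : A, a * b = b * a)
    (N : Subgroup A) (Φ : Finset (A →* ℂˣ)) (hΦ : ∀ φ, φ ∈ Φ ↔ ∀ y ∈ N, φ y = 1)
    (a : A) (ha : a ∉ N) :
    ∑ φ ∈ Φ, ((φ a : ℂˣ) : ℂ) = 0 := by
  classical
  obtain ⟨φ₀, hφ₀N, hφ₀a⟩ : ∃ φ₀ : A →* ℂˣ, (∀ y ∈ N, φ₀ y = 1) ∧ φ₀ a ≠ 1 := by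
    let _ : CommGroup A := { (inferInstance : Group A) with mul_comm := hc }
    have h := (CommGroup.forall_monoidHom_apply_eq_one_iff (G := A) ℂ N a).not.mpr ha
    push Not at h
    exact h
  have hbij : ∑ φ ∈ Φ, ((φ a : ℂˣ) : ℂ) = ∑ φ ∈ Φ, (((φ₀ * φ) a : ℂˣ) : ℂ) := by
    symm
    refine Finset.sum_bij' (fun φ _ => φ₀ * φ) (fun φ _ => φ₀⁻¹ * φ) ?_ ?_ ?_ ?_ ?_
    · intro φ hφ
      rw [hΦ] at hφ ⊢
      intro y hy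
      rw [MonoidHom.mul_apply, hφ₀N y hy, hφ y hy, one_mul]
    · intro φ hφ
      rw [hΦ] at hφ ⊢
      intro y hy
      rw [MonoidHom.mul_apply, MonoidHom.inv_apply, hφ₀N y hy, hφ y hy, inv_one, one_mul]
    · intro φ _
      ext x
      simp
    · intro φ _
      ext x
      simp
    · intro φ _
      rfl
  have h2 : ∑ φ ∈ Φ, (((φ₀ * φ) a : ℂˣ) : ℂ) = ((φ₀ a : ℂˣ) : ℂ) *
      ∑ φ ∈ Φ, ((φ a : ℂˣ) : ℂ) := by
    rw [Finset.mul_sum]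
    refine Finset.sum_congr rfl fun φ _ => ?_
    rw [MonoidHom.mul_apply, Units.val_mul]
  rw [h2] at hbij
  have h3 : ((φ₀ a : ℂˣ) : ℂ) ≠ 1 := by
    intro h
    apply hφ₀a
    exact Units.ext h
  have h4 : (1 - ((φ₀ a : ℂˣ) : ℂ)) * ∑ φ ∈ Φ, ((φ a : ℂˣ) : ℂ) = 0 := by
    linear_combination hbij
  rcases mul_eq_zero.mp h4 with h | h
  · exact absurd (sub_eq_zero.mp h).symm h3
  · exact h

open Classical in
/-- the weighted sum used for Fourier inversion -/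
theorem dual_sum_weight {A : Type*} [Group A] [Finite A] (hc : ∀ a b : A, a * b = b * a)
    (N : Subgroup A) (Φ : Finset (A →* ℂˣ)) (hΦ : ∀ φ, φ ∈ Φ ↔ ∀ y ∈ N, φ y = 1)
    (w₀ w : A) (hw₀ : w₀ ∉ N) :
    ∑ φ ∈ Φ, ((φ w₀ : ℂˣ) : ℂ) * conj (1 - ((φ w : ℂˣ) : ℂ)) =
    if w₀ * w⁻¹ ∈ N then -((Φ.card : ℕ) : ℂ) else 0 := by
  have h1 : ∀ φ : A →* ℂˣ, ((φ w₀ : ℂˣ) : ℂ) * conj (1 - ((φ w : ℂˣ) : ℂ)) =
      ((φ w₀ : ℂˣ) : ℂ) - ((φ (w₀ * w⁻¹) : ℂˣ) : ℂ) := by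
    intro φ
    rw [map_sub, map_one, hom_conj, map_mul, Units.val_mul]
    ring
  simp only [h1]
  rw [Finset.sum_sub_distrib, dual_sum_zero hc N Φ hΦ w₀ hw₀, zero_sub]
  split_ifs with h
  · congr 1
    rw [Finset.sum_congr rfl (g := fun _ => (1 : ℂ))]
    · simp
    · intro φ hφ
      rw [hΦ] at hφ
      rw [hφ _ h, Units.val_one]
  · rw [dual_sum_zero hc N Φ hΦ _ h, neg_zero]

/-- Let W₁, W₂ ≤ G with W = W₁ ⊔ W₂ and let χ an orthonormal family of irreducible characters of G up to sign, indexed by the linear characters ω of W, with χ_1 = 1, χ_ω = ω on W outside W₁ ∪ W₂, and the induction identity for (1 − φ)(1 − ψ). If θ is an irreducible character of G orthogonal to χ ω for every linear character ω of W, then θ vanishes at every element of W lying outside W₁ ∪ W₂. -/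
theorem result {G : Type*} [Group G] [Fintype G] (W₁ W₂ : Subgroup G) (hW : Cfsg.IsSelfNormalizingCyclic W₁ W₂) (χ : (↥(W₁ ⊔ W₂) →* ℂˣ) → (G → ℂ)) (hχ : Cfsg.IsCyclicTIFamily W₁ W₂ χ) (θ : G → ℂ) (hθ : Cfsg.IsIrrCharacter G θ) (horth : ∀ ω, Cfsg.classInner θ (χ ω) = 0) (w : ↥(W₁ ⊔ W₂)) (hw₁ : (w : G) ∉ W₁) (hw₂ : (w : G) ∉ W₂) : θ w = 0 := by
  classical
  obtain ⟨hW₁, hW₂, hint, hcomm, hcyc, hnorm⟩ := hW
  let _ : Fintype ↥(W₁ ⊔ W₂) := Fintype.ofFinite _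
  let _ : Fintype (↥(W₁ ⊔ W₂) →* ℂˣ) := Fintype.ofFinite _
  have hc : ∀ a b : ↥(W₁ ⊔ W₂), a * b = b * a := by
    have := hcyc
    let _ := IsCyclic.commGroup (α := ↥(W₁ ⊔ W₂))
    intro a b
    exact mul_comm a b
  have hθc : IsClassFunction G θ := isClassFunction_of_isCharacter (isChar_of_irr hθ)
  -- the two subgroups of W
  obtain ⟨N₁, hN₁⟩ : ∃ N₁ : Subgroup ↥(W₁ ⊔ W₂), N₁ = W₁.subgroupOf (W₁ ⊔ W₂) := ⟨_, rfl⟩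
  obtain ⟨N₂, hN₂⟩ : ∃ N₂ : Subgroup ↥(W₁ ⊔ W₂), N₂ = W₂.subgroupOf (W₁ ⊔ W₂) := ⟨_, rfl⟩
  have hmem₁ : ∀ y : ↥(W₁ ⊔ W₂), y ∈ N₁ ↔ (y : G) ∈ W₁ := by
    intro y; rw [hN₁, Subgroup.mem_subgroupOf]
  have hmem₂ : ∀ y : ↥(W₁ ⊔ W₂), y ∈ N₂ ↔ (y : G) ∈ W₂ := by
    intro y; rw [hN₂, Subgroup.mem_subgroupOf]
  obtain ⟨Φ, hΦ⟩ : ∃ Φ : Finset (↥(W₁ ⊔ W₂) →* ℂˣ),
      Φ = Finset.univ.filter (fun φ : ↥(W₁ ⊔ W₂) →* ℂˣ => ∀ y ∈ N₂, φ y = 1) := ⟨_, rfl⟩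
  obtain ⟨Ψ, hΨ⟩ : ∃ Ψ : Finset (↥(W₁ ⊔ W₂) →* ℂˣ),
      Ψ = Finset.univ.filter (fun φ : ↥(W₁ ⊔ W₂) →* ℂˣ => ∀ y ∈ N₁, φ y = 1) := ⟨_, rfl⟩
  have hΦm : ∀ φ, φ ∈ Φ ↔ ∀ y ∈ N₂, φ y = 1 := by
    intro φ; rw [hΦ, Finset.mem_filter]; simp
  have hΨm : ∀ φ, φ ∈ Ψ ↔ ∀ y ∈ N₁, φ y = 1 := by
    intro φ; rw [hΨ, Finset.mem_filter]; simp
  -- the vanishing of the inner products
  have hzero : ∀ φ ∈ Φ, ∀ ψ ∈ Ψ, ∑ v : ↥(W₁ ⊔ W₂),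
      θ v * (conj (1 - ((φ v : ℂˣ) : ℂ)) * conj (1 - ((ψ v : ℂˣ) : ℂ))) = 0 := by
    intro φ hφ ψ hψ
    rw [hΦm] at hφ
    rw [hΨm] at hψ
    by_cases hφ1 : φ = 1
    · subst hφ1
      simp
    by_cases hψ1 : ψ = 1
    · subst hψ1
      simp
    have hind := hχ.induced_eq φ ψ hφ1 hψ1 (fun v hv => hφ v ((hmem₂ v).mpr hv))
      (fun v hv => hψ v ((hmem₁ v).mpr hv))
    have hfun : (fun g => 1 - χ φ g - χ ψ g + χ (φ * ψ) g) = χ 1 - χ φ - χ ψ + χ (φ * ψ) := by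
      funext g
      simp [hχ.map_one]
    have h0 : classInner θ (indFun (W₁ ⊔ W₂)
        (fun v => 1 - (φ v : ℂ) - (ψ v : ℂ) + (φ v : ℂ) * (ψ v : ℂ))) = 0 := by
      rw [hind, hfun, classInner_add_right, classInner_sub_right, classInner_sub_right,
        horth, horth, horth, horth]
      ring
    rw [frobenius_reciprocity' _ _ _ hθc] at h0
    unfold classInner at h0
    have hcard : (Nat.card ↥(W₁ ⊔ W₂) : ℂ)⁻¹ ≠ 0 := by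
      apply inv_ne_zero
      exact_mod_cast (Nat.card_pos (α := ↥(W₁ ⊔ W₂))).ne'
    have h1 := (mul_eq_zero.mp h0).resolve_left hcard
    rw [← h1]
    refine Finset.sum_congr rfl fun v _ => ?_
    rw [res_apply, ← map_mul]
    congr 2
    ring
  -- weighted sum
  have hsum : ∑ φ ∈ Φ, ∑ ψ ∈ Ψ, ((φ w : ℂˣ) : ℂ) * ((ψ w : ℂˣ) : ℂ) *
      ∑ v : ↥(W₁ ⊔ W₂),
        θ v * (conj (1 - ((φ v : ℂˣ) : ℂ)) * conj (1 - ((ψ v : ℂˣ) : ℂ))) = 0 := by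
    refine Finset.sum_eq_zero fun φ hφ => Finset.sum_eq_zero fun ψ hψ => ?_
    rw [hzero φ hφ ψ hψ, mul_zero]
  have hswap : ∑ φ ∈ Φ, ∑ ψ ∈ Ψ, ((φ w : ℂˣ) : ℂ) * ((ψ w : ℂˣ) : ℂ) *
      ∑ v : ↥(W₁ ⊔ W₂),
        θ v * (conj (1 - ((φ v : ℂˣ) : ℂ)) * conj (1 - ((ψ v : ℂˣ) : ℂ))) =
      ∑ v : ↥(W₁ ⊔ W₂), θ v *
        ((∑ φ ∈ Φ, ((φ w : ℂˣ) : ℂ) * conj (1 - ((φ v : ℂˣ) : ℂ))) *
         (∑ ψ ∈ Ψ, ((ψ w : ℂˣ) : ℂ) * conj (1 - ((ψ v : ℂˣ) : ℂ)))) := by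
    symm
    calc ∑ v : ↥(W₁ ⊔ W₂), θ v *
        ((∑ φ ∈ Φ, ((φ w : ℂˣ) : ℂ) * conj (1 - ((φ v : ℂˣ) : ℂ))) *
         (∑ ψ ∈ Ψ, ((ψ w : ℂˣ) : ℂ) * conj (1 - ((ψ v : ℂˣ) : ℂ))))
        = ∑ v : ↥(W₁ ⊔ W₂), ∑ φ ∈ Φ, ∑ ψ ∈ Ψ, θ v *
          ((((φ w : ℂˣ) : ℂ) * conj (1 - ((φ v : ℂˣ) : ℂ))) *
           (((ψ w : ℂˣ) : ℂ) * conj (1 - ((ψ v : ℂˣ) : ℂ)))) := by
          refine Finset.sum_congr rfl fun v _ => ?_
          rw [Finset.sum_mul_sum, Finset.mul_sum]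
          refine Finset.sum_congr rfl fun φ _ => ?_
          rw [Finset.mul_sum]
      _ = ∑ φ ∈ Φ, ∑ v : ↥(W₁ ⊔ W₂), ∑ ψ ∈ Ψ, θ v *
          ((((φ w : ℂˣ) : ℂ) * conj (1 - ((φ v : ℂˣ) : ℂ))) *
           (((ψ w : ℂˣ) : ℂ) * conj (1 - ((ψ v : ℂˣ) : ℂ)))) := Finset.sum_comm
      _ = ∑ φ ∈ Φ, ∑ ψ ∈ Ψ, ∑ v : ↥(W₁ ⊔ W₂), θ v *
          ((((φ w : ℂˣ) : ℂ) * conj (1 - ((φ v : ℂˣ) : ℂ))) *
           (((ψ w : ℂˣ) : ℂ) * conj (1 - ((ψ v : ℂˣ) : ℂ)))) := by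
          refine Finset.sum_congr rfl fun φ _ => Finset.sum_comm
      _ = _ := by
          refine Finset.sum_congr rfl fun φ _ => Finset.sum_congr rfl fun ψ _ => ?_
          rw [Finset.mul_sum]
          refine Finset.sum_congr rfl fun v _ => ?_
          ring
  rw [hswap] at hsum
  have hw₁' : w ∉ N₁ := fun h => hw₁ ((hmem₁ w).mp h)
  have hw₂' : w ∉ N₂ := fun h => hw₂ ((hmem₂ w).mp h)
  have hterm : ∀ v : ↥(W₁ ⊔ W₂), θ v *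
        ((∑ φ ∈ Φ, ((φ w : ℂˣ) : ℂ) * conj (1 - ((φ v : ℂˣ) : ℂ))) *
         (∑ ψ ∈ Ψ, ((ψ w : ℂˣ) : ℂ) * conj (1 - ((ψ v : ℂˣ) : ℂ)))) =
      if v = w then θ w * ((Φ.card : ℂ) * (Ψ.card : ℂ)) else 0 := by
    intro v
    rw [dual_sum_weight hc N₂ Φ hΦm w v hw₂', dual_sum_weight hc N₁ Ψ hΨm w v hw₁']
    by_cases hv : v = w
    · subst hv
      rw [if_pos (by rw [mul_inv_cancel]; exact one_mem _),
        if_pos (by rw [mul_inv_cancel]; exact one_mem _), if_pos rfl]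
      ring
    · rw [if_neg hv]
      by_cases h2 : w * v⁻¹ ∈ N₂
      · by_cases h1 : w * v⁻¹ ∈ N₁
        · exfalso
          apply hv
          have h3 : ((w * v⁻¹ : ↥(W₁ ⊔ W₂)) : G) ∈ W₁ ⊓ W₂ :=
            ⟨(hmem₁ _).mp h1, (hmem₂ _).mp h2⟩
          rw [hint, Subgroup.mem_bot] at h3
          have h4 : w * v⁻¹ = 1 := Subtype.ext h3
          exact (mul_inv_eq_one.mp h4).symm
        · rw [if_neg h1, mul_zero, mul_zero]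
      · rw [if_neg h2, zero_mul, mul_zero]
  rw [Finset.sum_congr rfl fun v _ => hterm v, Finset.sum_ite_eq' Finset.univ w,
    if_pos (Finset.mem_univ _)] at hsum
  have hΦ0 : (Φ.card : ℂ) ≠ 0 := by
    have : (1 : ↥(W₁ ⊔ W₂) →* ℂˣ) ∈ Φ := by
      rw [hΦm]
      exact fun _ _ => rfl
    exact_mod_cast (Finset.card_pos.mpr ⟨_, this⟩).ne'
  have hΨ0 : (Ψ.card : ℂ) ≠ 0 := by
    have : (1 : ↥(W₁ ⊔ W₂) →* ℂˣ) ∈ Ψ := by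
      rw [hΨm]
      exact fun _ _ => rfl
    exact_mod_cast (Finset.card_pos.mpr ⟨_, this⟩).ne'
  rcases mul_eq_zero.mp hsum with h | h
  · exact h
  · exact absurd h (mul_ne_zero hΦ0 hΨ0)

end Cfsg.Agent.S1503
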