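import Cfsg.Statements.S1505
import Cfsg.Agent.Lib.Helper35.Ind

set_option autoImplicit false
open Cfsg

namespace Cfsg.Agent.S1505

open Cfsg.Agent.Lib.Helper35 Cfsg.Agent.Lib.Helper4
open scoped ComplexConjugate

/-- in a finite cyclic group, elements of the same order generate the same subgroup -/
theorem mem_zpowers_of_orderOf_eq {C : Type*} [Group C] [Finite C] [IsCyclic C] (a b : C)
    (h : orderOf a = orderOf b) : b ∈ Subgroup.zpowers a := by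
  classical
  let _ : Fintype C := Fintype.ofFinite C
  have hn : 0 < orderOf a := orderOf_pos a
  have h1 := IsCyclic.card_pow_eq_one_le (α := C) hn
  have h2 : (Finset.univ.filter (fun c : C => c ∈ Subgroup.zpowers a)) ⊆
      Finset.univ.filter (fun c : C => c ^ orderOf a = 1) := by
    intro c hc
    rw [Finset.mem_filter] at hc ⊢
    obtain ⟨k, rfl⟩ := hc.2
    refine ⟨Finset.mem_univ _, ?_⟩
    rw [← zpow_natCast, ← zpow_mul, mul_comm, zpow_mul, zpow_natCast, pow_orderOf_eq_one,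
      one_zpow]
  have h3 : (Finset.univ.filter (fun c : C => c ∈ Subgroup.zpowers a)).card = orderOf a := by
    rw [← Nat.card_zpowers a, Nat.card_eq_fintype_card, Fintype.card_subtype]
  have h4 := Finset.eq_of_subset_of_card_le h2 (by rw [h3]; exact h1)
  have h5 : b ∈ Finset.univ.filter (fun c : C => c ^ orderOf a = 1) := by
    rw [Finset.mem_filter]
    exact ⟨Finset.mem_univ _, by rw [h, pow_orderOf_eq_one]⟩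
  rw [← h4, Finset.mem_filter] at h5
  exact h5.2

/-- the TI property of the set `W ∖ (W₁ ∪ W₂)` -/
theorem ti_mem {G : Type*} [Group G] [Finite G] (W₁ W₂ : Subgroup G)
    (hW : Cfsg.IsSelfNormalizingCyclic W₁ W₂) (w x : G) (hw : w ∈ W₁ ⊔ W₂) (hw₁ : w ∉ W₁)
    (hw₂ : w ∉ W₂) (hx : x⁻¹ * w * x ∈ W₁ ⊔ W₂) : x ∈ W₁ ⊔ W₂ := by
  obtain ⟨-, -, -, -, hcyc, hnorm⟩ := hW
  have hord : orderOf (x⁻¹ * w * x) = orderOf w := by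
    have h := MulEquiv.orderOf_eq (MulAut.conj x⁻¹) w
    rw [MulAut.conj_apply, inv_inv] at h
    exact h
  have hord' : orderOf (⟨w, hw⟩ : ↥(W₁ ⊔ W₂)) = orderOf (⟨x⁻¹ * w * x, hx⟩ : ↥(W₁ ⊔ W₂)) := by
    rw [Subgroup.orderOf_mk, Subgroup.orderOf_mk, hord]
  have hK1 : x⁻¹ * w * x ∈ Subgroup.zpowers w := by
    obtain ⟨k, hk⟩ := mem_zpowers_of_orderOf_eq _ _ hord'
    refine ⟨k, ?_⟩
    have := congrArg (Subtype.val) hk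
    simpa using this
  have hK2 : w ∈ Subgroup.zpowers (x⁻¹ * w * x) := by
    obtain ⟨k, hk⟩ := mem_zpowers_of_orderOf_eq _ _ hord'.symm
    refine ⟨k, ?_⟩
    have := congrArg (Subtype.val) hk
    simpa using this
  have hK : Subgroup.zpowers (x⁻¹ * w * x) = Subgroup.zpowers w :=
    le_antisymm ((Subgroup.zpowers_le).mpr hK1) ((Subgroup.zpowers_le).mpr hK2)
  have hmap : ∀ n : G, Subgroup.zpowers (x⁻¹ * n * x⁻¹⁻¹) =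
      (Subgroup.zpowers n).map (MulAut.conj x⁻¹).toMonoidHom := by
    intro n
    rw [MonoidHom.map_zpowers]
    rfl
  have hKmap : (Subgroup.zpowers w).map (MulAut.conj x⁻¹).toMonoidHom = Subgroup.zpowers w := by
    rw [← hmap, inv_inv, hK]
  have hX := hnorm {u | Subgroup.zpowers u = Subgroup.zpowers w} (by
    intro u hu
    have hu' : Subgroup.zpowers u = Subgroup.zpowers w := hu
    refine ⟨?_, ?_⟩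
    · have : u ∈ Subgroup.zpowers w := hu' ▸ Subgroup.mem_zpowers u
      exact ((Subgroup.zpowers_le).mpr hw) this
    · rintro (h | h)
      · apply hw₁
        have : w ∈ Subgroup.zpowers u := hu' ▸ Subgroup.mem_zpowers w
        exact ((Subgroup.zpowers_le).mpr h) this
      · apply hw₂
        have : w ∈ Subgroup.zpowers u := hu' ▸ Subgroup.mem_zpowers w
        exact ((Subgroup.zpowers_le).mpr h) this) ⟨w, rfl⟩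
  have hxin : x⁻¹ ∈ Subgroup.normalizer {u | Subgroup.zpowers u = Subgroup.zpowers w} := by
    rw [Subgroup.mem_set_normalizer_iff]
    intro n
    constructor
    · intro hn
      have hn' : Subgroup.zpowers n = Subgroup.zpowers w := hn
      show Subgroup.zpowers (x⁻¹ * n * x⁻¹⁻¹) = Subgroup.zpowers w
      rw [hmap, hn', hKmap]
    · intro hn
      have hn' : Subgroup.zpowers (x⁻¹ * n * x⁻¹⁻¹) = Subgroup.zpowers w := hn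
      show Subgroup.zpowers n = Subgroup.zpowers w
      rw [hmap] at hn'
      rw [← hKmap] at hn'
      exact Subgroup.map_injective (MulAut.conj x⁻¹).injective hn'
  rw [hX] at hxin
  exact (inv_mem_iff).mp hxin

/-- induction from `W` does not change the values on `W ∖ (W₁ ∪ W₂)` -/
theorem ind_eq_on {G : Type*} [Group G] [Fintype G] (W₁ W₂ : Subgroup G)
    (hW : Cfsg.IsSelfNormalizingCyclic W₁ W₂) (α : ↥(W₁ ⊔ W₂) → ℂ) (w : ↥(W₁ ⊔ W₂))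
    (hw₁ : (w : G) ∉ W₁) (hw₂ : (w : G) ∉ W₂) : indFun (W₁ ⊔ W₂) α w = α w := by
  classical
  let _ : Fintype ↥(W₁ ⊔ W₂) := Fintype.ofFinite _
  have hcyc : IsCyclic ↥(W₁ ⊔ W₂) := hW.2.2.2.2.1
  have hc : ∀ a b : ↥(W₁ ⊔ W₂), a * b = b * a := by
    let _ := IsCyclic.commGroup (α := ↥(W₁ ⊔ W₂))
    intro a b
    exact mul_comm a b
  have h1 : ∀ x : G, extendByZero (W₁ ⊔ W₂) α (x⁻¹ * (w : G) * x) =
      extendByZero (W₁ ⊔ W₂) (fun _ => α w) x * 1 := by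
    intro x
    rw [mul_one]
    by_cases hx : x ∈ W₁ ⊔ W₂
    · rw [ext_mem _ _ _ hx]
      have h2 : x⁻¹ * (w : G) * x = w := by
        have := hc w ⟨x, hx⟩
        have h3 := congrArg Subtype.val this
        simp only [Subgroup.coe_mul] at h3
        rw [mul_assoc, h3, inv_mul_cancel_left]
      rw [h2, ext_coe]
    · rw [ext_not_mem _ _ _ hx]
      apply ext_not_mem
      intro h
      exact hx (ti_mem W₁ W₂ hW w x w.2 hw₁ hw₂ h)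
  unfold indFun
  rw [Finset.sum_congr rfl fun x _ => h1 x, sum_ext_mul]
  simp only [mul_one, Finset.sum_const, Finset.card_univ, nsmul_eq_mul]
  rw [← Nat.card_eq_fintype_card, ← mul_assoc, inv_mul_cancel₀, one_mul]
  exact_mod_cast (Nat.card_pos (α := ↥(W₁ ⊔ W₂))).ne'

theorem hom_norm {A : Type*} [Group A] [Finite A] (φ : A →* ℂˣ) (a : A) :
    ‖((φ a : ℂˣ) : ℂ)‖ = 1 := by
  have h1 : (φ a) ^ (Nat.card A) = 1 := by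
    rw [← map_pow, pow_card_eq_one', map_one]
  have h2 : ((φ a : ℂˣ) : ℂ) ^ (Nat.card A) = 1 := by
    rw [← Units.val_pow_eq_pow_val, h1, Units.val_one]
  exact Complex.norm_eq_one_of_pow_eq_one h2 (Nat.card_pos (α := A)).ne'

theorem hom_conj {A : Type*} [Group A] [Finite A] (φ : A →* ℂˣ) (a : A) :
    conj ((φ a : ℂˣ) : ℂ) = ((φ⁻¹ a : ℂˣ) : ℂ) := by
  rw [← Complex.inv_eq_conj (hom_norm φ a), MonoidHom.inv_apply, Units.val_inv_eq_inv_val]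

open Classical in
/-- orthogonality of linear characters -/
theorem lin_sum {A : Type*} [Group A] [Fintype A] (ω ω' : A →* ℂˣ) :
    ∑ a : A, ((ω a : ℂˣ) : ℂ) * conj ((ω' a : ℂˣ) : ℂ) =
      if ω = ω' then (Nat.card A : ℂ) else 0 := by
  have h1 : ∀ a : A, ((ω a : ℂˣ) : ℂ) * conj ((ω' a : ℂˣ) : ℂ) =
      ((Units.coeHom ℂ).comp (ω * ω'⁻¹)) a := by
    intro a
    rw [hom_conj]
    simp
  rw [Finset.sum_congr rfl fun a _ => h1 a]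
  split_ifs with h
  · subst h
    have : ω * ω⁻¹ = 1 := mul_inv_cancel ω
    rw [this]
    simp [Nat.card_eq_fintype_card]
  · apply sum_hom_units_eq_zero
    intro h2
    apply h
    have h3 : ω * ω'⁻¹ = 1 := by
      ext a
      have := congrArg (fun f : A →* ℂ => f a) h2
      simpa using this
    exact mul_inv_eq_one.mp h3

/-- a linear character of `W₁ ⊔ W₂` trivial on both factors is trivial -/
theorem triv_of_triv {G : Type*} [Group G] (W₁ W₂ : Subgroup G) (δ : ↥(W₁ ⊔ W₂) →* ℂˣ)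
    (h₁ : ∀ w : ↥(W₁ ⊔ W₂), (w : G) ∈ W₁ → δ w = 1)
    (h₂ : ∀ w : ↥(W₁ ⊔ W₂), (w : G) ∈ W₂ → δ w = 1) : δ = 1 := by
  have hle : W₁ ⊔ W₂ ≤ δ.ker.map (W₁ ⊔ W₂).subtype := by
    refine sup_le ?_ ?_
    · intro a ha
      exact ⟨⟨a, (le_sup_left : W₁ ≤ W₁ ⊔ W₂) ha⟩, h₁ _ ha, rfl⟩
    · intro a ha
      exact ⟨⟨a, (le_sup_right : W₂ ≤ W₁ ⊔ W₂) ha⟩, h₂ _ ha, rfl⟩
  ext w
  obtain ⟨y, hy, hyw⟩ := hle w.2
  have : y = w := Subtype.ext hyw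
  rw [← this]
  have hy' : δ y = 1 := hy
  rw [hy']
  rfl

/-- uniqueness of the decomposition of a linear character of `W` -/
theorem uniq {G : Type*} [Group G] (W₁ W₂ : Subgroup G) (φ₁ φ₂ ψ₁ ψ₂ : ↥(W₁ ⊔ W₂) →* ℂˣ)
    (hφ₁ : ∀ w : ↥(W₁ ⊔ W₂), (w : G) ∈ W₂ → φ₁ w = 1)
    (hφ₂ : ∀ w : ↥(W₁ ⊔ W₂), (w : G) ∈ W₂ → φ₂ w = 1)
    (hψ₁ : ∀ w : ↥(W₁ ⊔ W₂), (w : G) ∈ W₁ → ψ₁ w = 1)
    (hψ₂ : ∀ w : ↥(W₁ ⊔ W₂), (w : G) ∈ W₁ → ψ₂ w = 1)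
    (h : φ₁ * ψ₁ = φ₂ * ψ₂) : φ₁ = φ₂ ∧ ψ₁ = ψ₂ := by
  have hw : ∀ w : ↥(W₁ ⊔ W₂), φ₁ w * ψ₁ w = φ₂ w * ψ₂ w := by
    intro w
    have := congrArg (fun f : ↥(W₁ ⊔ W₂) →* ℂˣ => f w) h
    simpa using this
  have h1 : φ₁ * φ₂⁻¹ = 1 := by
    apply triv_of_triv
    · intro w hw1
      have h3 := hw w
      rw [hψ₁ w hw1, hψ₂ w hw1, mul_one, mul_one] at h3
      rw [MonoidHom.mul_apply, MonoidHom.inv_apply, h3, mul_inv_cancel]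
    · intro w hw2
      rw [MonoidHom.mul_apply, MonoidHom.inv_apply, hφ₁ w hw2, hφ₂ w hw2, inv_one, one_mul]
  have h2 : φ₁ = φ₂ := by
    ext w
    have h3 := congrArg (fun f : ↥(W₁ ⊔ W₂) →* ℂˣ => f w) h1
    simp only [MonoidHom.mul_apply, MonoidHom.inv_apply, MonoidHom.one_apply] at h3
    rw [mul_inv_eq_one.mp h3]
  refine ⟨h2, ?_⟩
  ext w
  have h3 := hw w
  rw [h2] at h3
  rw [mul_left_cancel h3]

open Classical in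
/-- orthogonality for products -/
theorem lin_sum_mul {G : Type*} [Group G] (W₁ W₂ : Subgroup G) [Fintype ↥(W₁ ⊔ W₂)]
    (φ₁ φ₂ ψ₁ ψ₂ : ↥(W₁ ⊔ W₂) →* ℂˣ)
    (hφ₁ : ∀ w : ↥(W₁ ⊔ W₂), (w : G) ∈ W₂ → φ₁ w = 1)
    (hφ₂ : ∀ w : ↥(W₁ ⊔ W₂), (w : G) ∈ W₂ → φ₂ w = 1)
    (hψ₁ : ∀ w : ↥(W₁ ⊔ W₂), (w : G) ∈ W₁ → ψ₁ w = 1)
    (hψ₂ : ∀ w : ↥(W₁ ⊔ W₂), (w : G) ∈ W₁ → ψ₂ w = 1) :
    ∑ a : ↥(W₁ ⊔ W₂), (((φ₁ * ψ₁) a : ℂˣ) : ℂ) * conj (((φ₂ * ψ₂) a : ℂˣ) : ℂ) =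
      (Nat.card ↥(W₁ ⊔ W₂) : ℂ) * ((if φ₁ = φ₂ then 1 else 0) * (if ψ₁ = ψ₂ then 1 else 0)) := by
  rw [lin_sum]
  by_cases h : φ₁ * ψ₁ = φ₂ * ψ₂
  · obtain ⟨h1, h2⟩ := uniq W₁ W₂ φ₁ φ₂ ψ₁ ψ₂ hφ₁ hφ₂ hψ₁ hψ₂ h
    rw [if_pos h, if_pos h1, if_pos h2]
    ring
  · rw [if_neg h]
    by_cases h1 : φ₁ = φ₂
    · by_cases h2 : ψ₁ = ψ₂
      · exact absurd (by rw [h1, h2]) h
      · rw [if_neg h2]; ring
    · rw [if_neg h1]; ring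

open Classical in
/-- the inner product of `(1 - φ)(1 - ψ)` with a linear character of `W` -/
theorem alpha_lin {G : Type*} [Group G] (W₁ W₂ : Subgroup G) [Fintype ↥(W₁ ⊔ W₂)]
    (φ φ' ψ ψ' : ↥(W₁ ⊔ W₂) →* ℂˣ)
    (hφ : ∀ w : ↥(W₁ ⊔ W₂), (w : G) ∈ W₂ → φ w = 1)
    (hφ' : ∀ w : ↥(W₁ ⊔ W₂), (w : G) ∈ W₂ → φ' w = 1)
    (hψ : ∀ w : ↥(W₁ ⊔ W₂), (w : G) ∈ W₁ → ψ w = 1)
    (hψ' : ∀ w : ↥(W₁ ⊔ W₂), (w : G) ∈ W₁ → ψ' w = 1) :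
    ∑ w : ↥(W₁ ⊔ W₂), (1 - (φ w : ℂ) - (ψ w : ℂ) + (φ w : ℂ) * (ψ w : ℂ)) *
      conj (((φ' * ψ') w : ℂˣ) : ℂ) =
    (Nat.card ↥(W₁ ⊔ W₂) : ℂ) *
      (((if (1 : ↥(W₁ ⊔ W₂) →* ℂˣ) = φ' then 1 else 0) - (if φ = φ' then 1 else 0)) *
       ((if (1 : ↥(W₁ ⊔ W₂) →* ℂˣ) = ψ' then 1 else 0) - (if ψ = ψ' then 1 else 0))) := by
  have h2 : ∀ w : ↥(W₁ ⊔ W₂), (w : G) ∈ W₂ → (1 : ↥(W₁ ⊔ W₂) →* ℂˣ) w = 1 :=
    fun _ _ => rfl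
  have h1 : ∀ w : ↥(W₁ ⊔ W₂), (w : G) ∈ W₁ → (1 : ↥(W₁ ⊔ W₂) →* ℂˣ) w = 1 :=
    fun _ _ => rfl
  have hexp : ∀ w : ↥(W₁ ⊔ W₂), (1 - (φ w : ℂ) - (ψ w : ℂ) + (φ w : ℂ) * (ψ w : ℂ)) *
      conj (((φ' * ψ') w : ℂˣ) : ℂ) =
      (((1 * 1 : ↥(W₁ ⊔ W₂) →* ℂˣ) w : ℂˣ) : ℂ) * conj (((φ' * ψ') w : ℂˣ) : ℂ)
      - (((φ * 1 : ↥(W₁ ⊔ W₂) →* ℂˣ) w : ℂˣ) : ℂ) * conj (((φ' * ψ') w : ℂˣ) : ℂ)
      - (((1 * ψ : ↥(W₁ ⊔ W₂) →* ℂˣ) w : ℂˣ) : ℂ) * conj (((φ' * ψ') w : ℂˣ) : ℂ)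
      + (((φ * ψ : ↥(W₁ ⊔ W₂) →* ℂˣ) w : ℂˣ) : ℂ) * conj (((φ' * ψ') w : ℂˣ) : ℂ) := by
    intro w
    simp only [MonoidHom.mul_apply, MonoidHom.one_apply, Units.val_mul, Units.val_one,
      one_mul, mul_one]
    ring
  rw [Finset.sum_congr rfl fun w _ => hexp w]
  simp only [Finset.sum_add_distrib, Finset.sum_sub_distrib]
  rw [lin_sum_mul W₁ W₂ 1 φ' 1 ψ' h2 hφ' h1 hψ', lin_sum_mul W₁ W₂ φ φ' 1 ψ' hφ hφ' h1 hψ',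
    lin_sum_mul W₁ W₂ 1 φ' ψ ψ' h2 hφ' hψ hψ', lin_sum_mul W₁ W₂ φ φ' ψ ψ' hφ hφ' hψ hψ']
  ring

open Classical in
/-- the inner product of two of the functions `(1 - φ)(1 - ψ)` on `W` -/
theorem alpha_inner {G : Type*} [Group G] (W₁ W₂ : Subgroup G) [Fintype ↥(W₁ ⊔ W₂)]
    (φ φ' ψ ψ' : ↥(W₁ ⊔ W₂) →* ℂˣ)
    (hφ : ∀ w : ↥(W₁ ⊔ W₂), (w : G) ∈ W₂ → φ w = 1)
    (hφ' : ∀ w : ↥(W₁ ⊔ W₂), (w : G) ∈ W₂ → φ' w = 1)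
    (hψ : ∀ w : ↥(W₁ ⊔ W₂), (w : G) ∈ W₁ → ψ w = 1)
    (hψ' : ∀ w : ↥(W₁ ⊔ W₂), (w : G) ∈ W₁ → ψ' w = 1)
    (hφ1 : φ ≠ 1) (hφ'1 : φ' ≠ 1) (hψ1 : ψ ≠ 1) (hψ'1 : ψ' ≠ 1) :
    ∑ w : ↥(W₁ ⊔ W₂), (1 - (φ w : ℂ) - (ψ w : ℂ) + (φ w : ℂ) * (ψ w : ℂ)) *
      conj (1 - (φ' w : ℂ) - (ψ' w : ℂ) + (φ' w : ℂ) * (ψ' w : ℂ)) =
    (Nat.card ↥(W₁ ⊔ W₂) : ℂ) * (1 + (if φ = φ' then 1 else 0) + (if ψ = ψ' then 1 else 0) +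
      (if φ = φ' then 1 else 0) * (if ψ = ψ' then 1 else 0)) := by
  have h2 : ∀ w : ↥(W₁ ⊔ W₂), (w : G) ∈ W₂ → (1 : ↥(W₁ ⊔ W₂) →* ℂˣ) w = 1 :=
    fun _ _ => rfl
  have h1 : ∀ w : ↥(W₁ ⊔ W₂), (w : G) ∈ W₁ → (1 : ↥(W₁ ⊔ W₂) →* ℂˣ) w = 1 :=
    fun _ _ => rfl
  have hexp : ∀ w : ↥(W₁ ⊔ W₂), (1 - (φ w : ℂ) - (ψ w : ℂ) + (φ w : ℂ) * (ψ w : ℂ)) *
      conj (1 - (φ' w : ℂ) - (ψ' w : ℂ) + (φ' w : ℂ) * (ψ' w : ℂ)) =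
      (1 - (φ w : ℂ) - (ψ w : ℂ) + (φ w : ℂ) * (ψ w : ℂ)) *
        conj (((1 * 1 : ↥(W₁ ⊔ W₂) →* ℂˣ) w : ℂˣ) : ℂ)
      - (1 - (φ w : ℂ) - (ψ w : ℂ) + (φ w : ℂ) * (ψ w : ℂ)) *
        conj (((φ' * 1 : ↥(W₁ ⊔ W₂) →* ℂˣ) w : ℂˣ) : ℂ)
      - (1 - (φ w : ℂ) - (ψ w : ℂ) + (φ w : ℂ) * (ψ w : ℂ)) *
        conj (((1 * ψ' : ↥(W₁ ⊔ W₂) →* ℂˣ) w : ℂˣ) : ℂ)
      + (1 - (φ w : ℂ) - (ψ w : ℂ) + (φ w : ℂ) * (ψ w : ℂ)) *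
        conj (((φ' * ψ' : ↥(W₁ ⊔ W₂) →* ℂˣ) w : ℂˣ) : ℂ) := by
    intro w
    simp only [MonoidHom.mul_apply, MonoidHom.one_apply, Units.val_mul, Units.val_one, map_sub,
      map_add, map_mul, map_one, one_mul, mul_one]
    ring
  rw [Finset.sum_congr rfl fun w _ => hexp w]
  simp only [Finset.sum_add_distrib, Finset.sum_sub_distrib]
  rw [alpha_lin W₁ W₂ φ 1 ψ 1 hφ h2 hψ h1, alpha_lin W₁ W₂ φ φ' ψ 1 hφ hφ' hψ h1,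
    alpha_lin W₁ W₂ φ 1 ψ ψ' hφ h2 hψ hψ', alpha_lin W₁ W₂ φ φ' ψ ψ' hφ hφ' hψ hψ']
  rw [if_neg hφ1, if_neg hψ1, if_neg (Ne.symm hφ'1), if_neg (Ne.symm hψ'1), if_pos rfl]
  ring

open Classical in
/-- Let W₁, W₂ ≤ G form a self-normalising cyclic subgroup W = W₁ ⊔ W₂. For nontrivial linear characters φ, φ' of W trivial on W₂ and ψ, ψ' trivial on W₁, put α = (1 − φ)(1 − ψ) and α' = (1 − φ')(1 − ψ'). Then the function induced from α to G has inner product 1 with the principal character, and the inner product of the functions induced from α and α' is 1 + a + b + ab where a = 1 if φ = φ' (else 0) and b = 1 if ψ = ψ' (else 0). -/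
theorem result {G : Type*} [Group G] [Fintype G] (W₁ W₂ : Subgroup G) (hW : Cfsg.IsSelfNormalizingCyclic W₁ W₂) (φ φ' ψ ψ' : ↥(W₁ ⊔ W₂) →* ℂˣ) (hφ : φ ≠ 1) (hφ' : φ' ≠ 1) (hψ : ψ ≠ 1) (hψ' : ψ' ≠ 1) (hφ₂ : ∀ w : ↥(W₁ ⊔ W₂), (w : G) ∈ W₂ → φ w = 1 ∧ φ' w = 1) (hψ₁ : ∀ w : ↥(W₁ ⊔ W₂), (w : G) ∈ W₁ → ψ w = 1 ∧ ψ' w = 1) : Cfsg.classInner (Cfsg.indFun (W₁ ⊔ W₂) (fun w => 1 - (φ w : ℂ) - (ψ w : ℂ) + (φ w : ℂ) * (ψ w : ℂ))) (fun _ => 1) = 1 ∧ Cfsg.classInner (Cfsg.indFun (W₁ ⊔ W₂) (fun w => 1 - (φ w : ℂ) - (ψ w : ℂ) + (φ w : ℂ) * (ψ w : ℂ))) (Cfsg.indFun (W₁ ⊔ W₂) (fun w => 1 - (φ' w : ℂ) - (ψ' w : ℂ) + (φ' w : ℂ) * (ψ' w : ℂ))) = 1 + (if φ = φ' then 1 else 0) + (if ψ = ψ' then 1 else 0) + (if φ = φ' then 1 else 0) * (if ψ = ψ' then 1 else 0) := by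
  let _ : Fintype ↥(W₁ ⊔ W₂) := Fintype.ofFinite _
  have hcard : (Nat.card ↥(W₁ ⊔ W₂) : ℂ) ≠ 0 := by
    exact_mod_cast (Nat.card_pos (α := ↥(W₁ ⊔ W₂))).ne'
  have h1 : ∀ w : ↥(W₁ ⊔ W₂), (w : G) ∈ W₁ → (1 : ↥(W₁ ⊔ W₂) →* ℂˣ) w = 1 :=
    fun _ _ => rfl
  have h2 : ∀ w : ↥(W₁ ⊔ W₂), (w : G) ∈ W₂ → (1 : ↥(W₁ ⊔ W₂) →* ℂˣ) w = 1 :=
    fun _ _ => rfl
  constructor
  · have hcf : IsClassFunction G (fun _ => (1 : ℂ)) := fun _ _ => rfl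
    rw [frobenius_reciprocity _ _ _ hcf]
    unfold classInner
    have h3 := alpha_lin W₁ W₂ φ 1 ψ 1 (fun w hw => (hφ₂ w hw).1) h2
      (fun w hw => (hψ₁ w hw).1) h1
    rw [if_neg hφ, if_neg hψ, if_pos rfl] at h3
    have h4 : ∑ g : ↥(W₁ ⊔ W₂), (1 - (φ g : ℂ) - (ψ g : ℂ) + (φ g : ℂ) * (ψ g : ℂ)) *
        conj (res (W₁ ⊔ W₂) (fun _ => (1 : ℂ)) g) =
        ∑ w : ↥(W₁ ⊔ W₂), (1 - (φ w : ℂ) - (ψ w : ℂ) + (φ w : ℂ) * (ψ w : ℂ)) *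
        conj (((1 * 1 : ↥(W₁ ⊔ W₂) →* ℂˣ) w : ℂˣ) : ℂ) := by
      refine Finset.sum_congr rfl fun w _ => ?_
      simp
    rw [h4, h3]
    field_simp
    ring
  · rw [frobenius_reciprocity _ _ _ (isClassFunction_indFun _ _)]
    unfold classInner
    have h4 : ∑ g : ↥(W₁ ⊔ W₂), (1 - (φ g : ℂ) - (ψ g : ℂ) + (φ g : ℂ) * (ψ g : ℂ)) *
        conj (res (W₁ ⊔ W₂) (indFun (W₁ ⊔ W₂)
          (fun w => 1 - (φ' w : ℂ) - (ψ' w : ℂ) + (φ' w : ℂ) * (ψ' w : ℂ))) g) =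
        ∑ w : ↥(W₁ ⊔ W₂), (1 - (φ w : ℂ) - (ψ w : ℂ) + (φ w : ℂ) * (ψ w : ℂ)) *
        conj (1 - (φ' w : ℂ) - (ψ' w : ℂ) + (φ' w : ℂ) * (ψ' w : ℂ)) := by
      refine Finset.sum_congr rfl fun w _ => ?_
      by_cases hw1 : (w : G) ∈ W₁
      · have h3 := (hψ₁ w hw1).1
        have hz : (1 : ℂ) - (φ w : ℂ) - (ψ w : ℂ) + (φ w : ℂ) * (ψ w : ℂ) = 0 := by
          rw [h3]; simp
        rw [hz, zero_mul, zero_mul]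
      · by_cases hw2 : (w : G) ∈ W₂
        · have h3 := (hφ₂ w hw2).1
          have hz : (1 : ℂ) - (φ w : ℂ) - (ψ w : ℂ) + (φ w : ℂ) * (ψ w : ℂ) = 0 := by
            rw [h3]; simp
          rw [hz, zero_mul, zero_mul]
        · rw [res_apply, ind_eq_on W₁ W₂ hW _ w hw1 hw2]
    rw [h4, alpha_inner W₁ W₂ φ φ' ψ ψ' (fun w hw => (hφ₂ w hw).1) (fun w hw => (hφ₂ w hw).2)
      (fun w hw => (hψ₁ w hw).1) (fun w hw => (hψ₁ w hw).2) hφ hφ' hψ hψ']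
    rw [← mul_assoc, inv_mul_cancel₀ hcard, one_mul]
    by_cases h : φ = φ' <;> by_cases h' : ψ = ψ' <;> simp [h, h']

end Cfsg.Agent.S1505
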