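import Cfsg.Statements.S1511
import Cfsg.Agent.S1505
import Cfsg.Agent.S1503
import Cfsg.Agent.Lib.Helper20.Coh
import Cfsg.Agent.Lib.Helper83.Linear

set_option autoImplicit false
open Cfsg

namespace Cfsg.Agent.S1511

open Cfsg.Agent.Lib Cfsg.Agent.Lib.Helper35
open scoped ComplexConjugate Pointwise

section Grp

variable {L : Type*} [Group L] (K W₁ W₂ : Subgroup L)

/-- the elements of `W₂` commute with those of `W₁` -/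
theorem comm12 (hC : ∀ x ∈ W₁, x ≠ 1 → K ⊓ Subgroup.centralizer ({x} : Set L) = W₂)
    : ∀ a ∈ W₁, ∀ b ∈ W₂, a * b = b * a := by
  intro a ha b hb
  by_cases ha1 : a = 1
  · rw [ha1, one_mul, mul_one]
  · rw [← hC a ha ha1] at hb
    exact Subgroup.mem_centralizer_iff.mp hb.2 a rfl

/-- every element of `W₁ ⊔ W₂` is a product -/
theorem exists_prod (hcomm : ∀ a ∈ W₁, ∀ b ∈ W₂, a * b = b * a) (g : L) (hg : g ∈ W₁ ⊔ W₂) :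
    ∃ a ∈ W₁, ∃ b ∈ W₂, g = a * b := by
  let S : Subgroup L :=
    { carrier := {g | ∃ a ∈ W₁, ∃ b ∈ W₂, g = a * b}
      one_mem' := ⟨1, W₁.one_mem, 1, W₂.one_mem, (mul_one 1).symm⟩
      mul_mem' := by
        rintro _ _ ⟨a, ha, b, hb, rfl⟩ ⟨a', ha', b', hb', rfl⟩
        refine ⟨a * a', W₁.mul_mem ha ha', b * b', W₂.mul_mem hb hb', ?_⟩
        calc a * b * (a' * b') = a * (b * a') * b' := by group
          _ = a * (a' * b) * b' := by rw [hcomm a' ha' b hb]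
          _ = a * a' * (b * b') := by group
      inv_mem' := by
        rintro _ ⟨a, ha, b, hb, rfl⟩
        refine ⟨a⁻¹, W₁.inv_mem ha, b⁻¹, W₂.inv_mem hb, ?_⟩
        rw [mul_inv_rev, hcomm a⁻¹ (W₁.inv_mem ha) b⁻¹ (W₂.inv_mem hb)] }
  have h1 : W₁ ⊔ W₂ ≤ S := sup_le (fun a ha => ⟨a, ha, 1, W₂.one_mem, (mul_one a).symm⟩)
    (fun b hb => ⟨1, W₁.one_mem, b, hb, (one_mul b).symm⟩)
  exact h1 hg

/-- `W₁ ⊔ W₂` is abelian -/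
theorem comm_sup (hW₁c : IsCyclic W₁) (hW₂c : IsCyclic W₂)
    (hcomm : ∀ a ∈ W₁, ∀ b ∈ W₂, a * b = b * a) (u v : ↥(W₁ ⊔ W₂)) : u * v = v * u := by
  have hc₁ : ∀ a ∈ W₁, ∀ a' ∈ W₁, a * a' = a' * a := by
    intro a ha a' ha'
    let _ := IsCyclic.commGroup (α := W₁)
    exact congrArg Subtype.val (mul_comm (⟨a, ha⟩ : W₁) ⟨a', ha'⟩)
  have hc₂ : ∀ b ∈ W₂, ∀ b' ∈ W₂, b * b' = b' * b := by
    intro b hb b' hb'
    let _ := IsCyclic.commGroup (α := W₂)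
    exact congrArg Subtype.val (mul_comm (⟨b, hb⟩ : W₂) ⟨b', hb'⟩)
  obtain ⟨a, ha, b, hb, hu⟩ := exists_prod W₁ W₂ hcomm u u.2
  obtain ⟨a', ha', b', hb', hv⟩ := exists_prod W₁ W₂ hcomm v v.2
  apply Subtype.ext
  rw [Subgroup.coe_mul, Subgroup.coe_mul, hu, hv]
  calc a * b * (a' * b') = a * (b * a') * b' := by group
    _ = a * (a' * b) * b' := by rw [hcomm a' ha' b hb]
    _ = (a * a') * (b * b') := by group
    _ = (a' * a) * (b' * b) := by rw [hc₁ a ha a' ha', hc₂ b hb b' hb']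
    _ = a' * (a * b') * b := by group
    _ = a' * (b' * a) * b := by rw [hcomm a ha b' hb']
    _ = a' * b' * (a * b) := by group

/-- the trivial-intersection property of `W ∖ W₂` -/
theorem ti_mem' [hK : K.Normal] (hKW₁ : K ⊓ W₁ = ⊥) (hKW₁' : K ⊔ W₁ = ⊤)
    (hcop : Nat.Coprime (Nat.card W₁) (Nat.card K)) (hW₂K : W₂ ≤ K)
    (hC : ∀ x ∈ W₁, x ≠ 1 → K ⊓ Subgroup.centralizer ({x} : Set L) = W₂)
    (w x : L) (hw : w ∈ W₁ ⊔ W₂) (hw₂ : w ∉ W₂) (h : x⁻¹ * w * x ∈ W₁ ⊔ W₂) :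
    x ∈ W₁ ⊔ W₂ := by
  have hcomm := comm12 K W₁ W₂ hC
  obtain ⟨a, ha, b, hb, rfl⟩ := exists_prod W₁ W₂ hcomm w hw
  obtain ⟨a', ha', b', hb', hg'⟩ := exists_prod W₁ W₂ hcomm _ h
  have ha1 : a ≠ 1 := by
    rintro rfl
    rw [one_mul] at hw₂
    exact hw₂ hb
  obtain ⟨n, hn⟩ : ∃ n : ℕ, n = Nat.card K := ⟨_, rfl⟩
  have hKpow : ∀ k ∈ K, k ^ n = 1 := by
    intro k hk
    have h1 : (⟨k, hk⟩ : K) ^ Nat.card K = 1 := pow_card_eq_one'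
    rw [hn]
    exact congrArg Subtype.val h1
  have hpow : ∀ a ∈ W₁, ∀ b ∈ W₂, (a * b) ^ n = a ^ n := by
    intro a ha b hb
    rw [(show Commute a b from hcomm a ha b hb).mul_pow, hKpow b (hW₂K hb), mul_one]
  obtain ⟨y, hy⟩ : ∃ y : L, y = a ^ n := ⟨_, rfl⟩
  have hyW : y ∈ W₁ := by
    rw [hy]
    exact W₁.pow_mem ha n
  have hy1 : y ≠ 1 := by
    intro h1
    rw [hy] at h1
    have h2 : orderOf a ∣ n := orderOf_dvd_of_pow_eq_one h1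
    have h3 : orderOf a ∣ Nat.card W₁ := by
      have h4 : orderOf (⟨a, ha⟩ : W₁) ∣ Nat.card W₁ := orderOf_dvd_natCard _
      rwa [Subgroup.orderOf_mk] at h4
    rw [hn] at h2
    have h5 : orderOf a = 1 := Nat.eq_one_of_dvd_coprimes hcop h3 h2
    exact ha1 (orderOf_eq_one_iff.mp h5)
  have hconj : x⁻¹ * y * x = a' ^ n := by
    have h1 : (x⁻¹ * (a * b) * x) ^ n = x⁻¹ * (a * b) ^ n * x := by
      have h2 := conj_pow (a := x⁻¹) (b := a * b) (i := n)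
      rwa [inv_inv] at h2
    rw [hy, ← hpow a ha b hb, ← h1, hg', hpow a' ha' b' hb']
  have hx : x ∈ (K : Set L) * (W₁ : Set L) := by
    rw [← Subgroup.normal_mul, hKW₁']
    exact Set.mem_univ x
  obtain ⟨k, hk, c, hc, rfl⟩ := Set.mem_mul.mp hx
  have hz : k⁻¹ * y * k ∈ W₁ := by
    have h1 : k⁻¹ * y * k = c * (a' ^ n) * c⁻¹ := by
      rw [← hconj]
      group
    rw [h1]
    exact W₁.mul_mem (W₁.mul_mem hc (W₁.pow_mem ha' n)) (W₁.inv_mem hc)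
  have hzK : y⁻¹ * (k⁻¹ * y * k) ∈ K := by
    have h1 : y⁻¹ * (k⁻¹ * y * k) = (y⁻¹ * k⁻¹ * y⁻¹⁻¹) * k := by group
    rw [h1]
    exact K.mul_mem (hK.conj_mem _ (K.inv_mem hk) _) hk
  have h1 : y⁻¹ * (k⁻¹ * y * k) = 1 := by
    have h2 : y⁻¹ * (k⁻¹ * y * k) ∈ K ⊓ W₁ := ⟨hzK, W₁.mul_mem (W₁.inv_mem hyW) hz⟩
    rw [hKW₁] at h2
    exact Subgroup.mem_bot.mp h2
  have hkC : k ∈ K ⊓ Subgroup.centralizer ({y} : Set L) := by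
    refine ⟨hk, ?_⟩
    show k ∈ Subgroup.centralizer ({y} : Set L)
    rw [Subgroup.mem_centralizer_iff]
    intro h hh
    rw [Set.mem_singleton_iff.mp hh]
    have h3 : k⁻¹ * y * k = y := by
      have h4 := congrArg (fun t => y * t) h1
      simpa using h4
    calc y * k = k * (k⁻¹ * y * k) := by group
      _ = k * y := by rw [h3]
  rw [hC y hyW hy1] at hkC
  exact Subgroup.mul_mem _ (Subgroup.mem_sup_right hkC) (Subgroup.mem_sup_left hc)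

end Grp

theorem lin_inner {A : Type*} [Group A] [Fintype A] (ω ω' : A →* ℂˣ) :
    classInner (fun a => ((ω a : ℂˣ) : ℂ)) (fun a => ((ω' a : ℂˣ) : ℂ)) =
      if ω = ω' then 1 else 0 := by
  unfold classInner
  rw [S1505.lin_sum]
  have hA : (Nat.card A : ℂ) ≠ 0 := by exact_mod_cast (Nat.card_pos (α := A)).ne'
  split_ifs
  · rw [inv_mul_cancel₀ hA]
  · rw [mul_zero]

section Chr

variable {L : Type*} [Group L] [Fintype L] (W₁ W₂ : Subgroup L)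

/-- induction from `W` does not change the values on `W ∖ W₂` -/
theorem ind_eq_on' (hc : ∀ u v : ↥(W₁ ⊔ W₂), u * v = v * u)
    (hti : ∀ w x : L, w ∈ W₁ ⊔ W₂ → w ∉ W₂ → x⁻¹ * w * x ∈ W₁ ⊔ W₂ → x ∈ W₁ ⊔ W₂)
    (α : ↥(W₁ ⊔ W₂) → ℂ) (w : ↥(W₁ ⊔ W₂)) (hw₂ : (w : L) ∉ W₂) :
    indFun (W₁ ⊔ W₂) α w = α w := by
  classical
  let _ : Fintype ↥(W₁ ⊔ W₂) := Fintype.ofFinite _
  have h1 : ∀ x : L, extendByZero (W₁ ⊔ W₂) α (x⁻¹ * (w : L) * x) =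
      extendByZero (W₁ ⊔ W₂) (fun _ => α w) x * 1 := by
    intro x
    rw [mul_one]
    by_cases hx : x ∈ W₁ ⊔ W₂
    · rw [ext_mem _ _ _ hx]
      have h2 : x⁻¹ * (w : L) * x = w := by
        have := hc w ⟨x, hx⟩
        have h3 := congrArg Subtype.val this
        simp only [Subgroup.coe_mul] at h3
        rw [mul_assoc, h3, inv_mul_cancel_left]
      rw [h2, ext_coe]
    · rw [ext_not_mem _ _ _ hx]
      apply ext_not_mem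
      intro h
      exact hx (hti w x w.2 hw₂ h)
  unfold indFun
  rw [Finset.sum_congr rfl fun x _ => h1 x, sum_ext_mul]
  simp only [mul_one, Finset.sum_const, Finset.card_univ, nsmul_eq_mul]
  rw [← Nat.card_eq_fintype_card, ← mul_assoc, inv_mul_cancel₀, one_mul]
  exact_mod_cast (Nat.card_pos (α := ↥(W₁ ⊔ W₂))).ne'

/-- induction from `W` is an isometry on functions vanishing on `W₂` -/
theorem ind_inner [Fintype ↥(W₁ ⊔ W₂)] (hc : ∀ u v : ↥(W₁ ⊔ W₂), u * v = v * u)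
    (hti : ∀ w x : L, w ∈ W₁ ⊔ W₂ → w ∉ W₂ → x⁻¹ * w * x ∈ W₁ ⊔ W₂ → x ∈ W₁ ⊔ W₂)
    (φ ψ : ↥(W₁ ⊔ W₂) → ℂ) (hφ : ∀ w : ↥(W₁ ⊔ W₂), (w : L) ∈ W₂ → φ w = 0) :
    classInner (indFun (W₁ ⊔ W₂) φ) (indFun (W₁ ⊔ W₂) ψ) = classInner φ ψ := by
  rw [frobenius_reciprocity (W₁ ⊔ W₂) φ _ (Helper35.isClassFunction_indFun _ ψ)]
  unfold classInner
  congr 1
  refine Finset.sum_congr rfl fun w _ => ?_
  by_cases hw : (w : L) ∈ W₂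
  · rw [hφ w hw, zero_mul, zero_mul]
  · rw [res_apply, ind_eq_on' W₁ W₂ hc hti ψ w hw]

/-- the exceptional characters attached to one fibre of the restriction to `W₂` -/
theorem fibre (hc : ∀ u v : ↥(W₁ ⊔ W₂), u * v = v * u)
    (hti : ∀ w x : L, w ∈ W₁ ⊔ W₂ → w ∉ W₂ → x⁻¹ * w * x ∈ W₁ ⊔ W₂ → x ∈ W₁ ⊔ W₂)
    (ω₀ : ↥(W₁ ⊔ W₂) →* ℂˣ) :
    ∃ (ε : ℂ) (f : (↥(W₁ ⊔ W₂) →* ℂˣ) → (L → ℂ)), (ε = 1 ∨ ε = -1) ∧
      (∀ ω, (∀ w : ↥(W₁ ⊔ W₂), (w : L) ∈ W₂ → ω w = ω₀ w) → IsIrrCharacter L (f ω)) ∧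
      (∀ ω ω', (∀ w : ↥(W₁ ⊔ W₂), (w : L) ∈ W₂ → ω w = ω₀ w) →
        (∀ w : ↥(W₁ ⊔ W₂), (w : L) ∈ W₂ → ω' w = ω₀ w) → f ω = f ω' → ω = ω') ∧
      (∀ ω ω', (∀ w : ↥(W₁ ⊔ W₂), (w : L) ∈ W₂ → ω w = ω₀ w) →
        (∀ w : ↥(W₁ ⊔ W₂), (w : L) ∈ W₂ → ω' w = ω₀ w) →
        indFun (W₁ ⊔ W₂) (fun w => (ω w : ℂ) - (ω' w : ℂ)) = ε • (f ω - f ω')) := by
  classical
  let _ : Fintype ↥(W₁ ⊔ W₂) := Fintype.ofFinite _
  obtain ⟨I, hI⟩ : ∃ I : {ω : ↥(W₁ ⊔ W₂) →* ℂˣ // ∀ w : ↥(W₁ ⊔ W₂), (w : L) ∈ W₂ →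
      ω w = ω₀ w} → L → ℂ, I = fun ω => indFun (W₁ ⊔ W₂) (fun w => ((ω.1 w : ℂˣ) : ℂ)) :=
    ⟨_, rfl⟩
  have hdiff : ∀ χ ξ, I χ - I ξ = indFun (W₁ ⊔ W₂)
      (fun w => ((χ.1 w : ℂˣ) : ℂ) - ((ξ.1 w : ℂˣ) : ℂ)) := by
    intro χ ξ
    rw [hI]
    exact (indFun_sub _ _ _).symm
  have hvan : ∀ χ ξ : {ω : ↥(W₁ ⊔ W₂) →* ℂˣ // ∀ w : ↥(W₁ ⊔ W₂), (w : L) ∈ W₂ →
      ω w = ω₀ w}, ∀ w : ↥(W₁ ⊔ W₂), (w : L) ∈ W₂ →
      ((χ.1 w : ℂˣ) : ℂ) - ((ξ.1 w : ℂˣ) : ℂ) = 0 := by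
    intro χ ξ w hw
    rw [χ.2 w hw, ξ.2 w hw, sub_self]
  obtain ⟨ε, f, hε, hf, hIf⟩ := Helper20.coherent_of_norm_two I (by
    intro χ ξ _
    constructor
    · rw [hI]
      exact isGenChar_sub
        (isGenChar_of_char (isCharacter_indFun _ (isChar_of_irr (Helper83.isIrr_of_hom χ.1))))
        (isGenChar_of_char (isCharacter_indFun _ (isChar_of_irr (Helper83.isIrr_of_hom ξ.1))))
    · rw [hdiff, indFun_one_eq]
      simp) (by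
    intro χ ξ ζ h1 h2
    rw [hdiff, hdiff, ind_inner W₁ W₂ hc hti _ _ (hvan χ ξ)]
    have h3 : classInner (fun w : ↥(W₁ ⊔ W₂) => ((χ.1 w : ℂˣ) : ℂ) - ((ξ.1 w : ℂˣ) : ℂ))
        (fun w => ((χ.1 w : ℂˣ) : ℂ) - ((ζ.1 w : ℂˣ) : ℂ)) =
        classInner ((fun w : ↥(W₁ ⊔ W₂) => ((χ.1 w : ℂˣ) : ℂ)) - (fun w => ((ξ.1 w : ℂˣ) : ℂ)))
          ((fun w : ↥(W₁ ⊔ W₂) => ((χ.1 w : ℂˣ) : ℂ)) - (fun w => ((ζ.1 w : ℂˣ) : ℂ))) := rfl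
    rw [h3, classInner_sub_left, classInner_sub_right, classInner_sub_right, lin_inner,
      lin_inner, lin_inner, lin_inner, if_pos rfl,
      if_neg (fun h : χ.1 = ζ.1 => h2 (Subtype.ext h)),
      if_neg (fun h : ξ.1 = χ.1 => h1 (Subtype.ext h).symm)]
    by_cases h : ξ = ζ
    · rw [if_pos h, if_pos (congrArg Subtype.val h)]
      norm_num
    · rw [if_neg h, if_neg (fun h' : ξ.1 = ζ.1 => h (Subtype.ext h'))]
      norm_num)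
  refine ⟨ε, fun ω => if h : (∀ w : ↥(W₁ ⊔ W₂), (w : L) ∈ W₂ → ω w = ω₀ w) then
    (f ⟨ω, h⟩ : L → ℂ) else 0, hε, ?_, ?_, ?_⟩
  · intro ω hω
    dsimp only
    rw [dif_pos hω]
    exact (f ⟨ω, hω⟩).2
  · intro ω ω' hω hω' h
    dsimp only at h
    rw [dif_pos hω, dif_pos hω'] at h
    exact congrArg Subtype.val (hf (Subtype.ext h))
  · intro ω ω' hω hω'
    dsimp only
    rw [dif_pos hω, dif_pos hω', ← hIf ⟨ω, hω⟩ ⟨ω', hω'⟩, hdiff]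

end Chr

section Core

variable {L : Type*} [Group L] [Fintype L] (W₁ W₂ : Subgroup L)

theorem exists_nontriv (hc : ∀ u v : ↥(W₁ ⊔ W₂), u * v = v * u) (w₀ : ↥(W₁ ⊔ W₂))
    (hw₀ : (w₀ : L) ∉ W₂) :
    ∃ ξ : ↥(W₁ ⊔ W₂) →* ℂˣ, (∀ w : ↥(W₁ ⊔ W₂), (w : L) ∈ W₂ → ξ w = 1) ∧ ξ w₀ ≠ 1 := by
  let _ : CommGroup ↥(W₁ ⊔ W₂) := { (inferInstance : Group ↥(W₁ ⊔ W₂)) with mul_comm := hc }
  have h := (CommGroup.forall_monoidHom_apply_eq_one_iff (G := ↥(W₁ ⊔ W₂)) ℂ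
    (W₂.subgroupOf (W₁ ⊔ W₂)) w₀).not.mpr (by rw [Subgroup.mem_subgroupOf]; exact hw₀)
  push Not at h
  obtain ⟨ξ, h1, h2⟩ := h
  exact ⟨ξ, fun w hw => h1 w (Subgroup.mem_subgroupOf.mpr hw), h2⟩

open Classical in
theorem fourier [Fintype (↥(W₁ ⊔ W₂) →* ℂˣ)] (hc : ∀ u v : ↥(W₁ ⊔ W₂), u * v = v * u)
    (w₀ w : ↥(W₁ ⊔ W₂)) :
    ∑ ω : ↥(W₁ ⊔ W₂) →* ℂˣ, conj ((ω w₀ : ℂˣ) : ℂ) * ((ω w : ℂˣ) : ℂ) =
      if w = w₀ then (Nat.card ↥(W₁ ⊔ W₂) : ℂ) else 0 := by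
  classical
  have h1 : ∀ ω : ↥(W₁ ⊔ W₂) →* ℂˣ, conj ((ω w₀ : ℂˣ) : ℂ) * ((ω w : ℂˣ) : ℂ) =
      ((ω (w₀⁻¹ * w) : ℂˣ) : ℂ) := by
    intro ω
    rw [S1503.hom_conj, map_mul, Units.val_mul]
  simp only [h1]
  split_ifs with h
  · subst h
    simp only [inv_mul_cancel, map_one, Units.val_one, Finset.sum_const, Finset.card_univ,
      nsmul_eq_mul, mul_one]
    let _ : CommGroup ↥(W₁ ⊔ W₂) := { (inferInstance : Group ↥(W₁ ⊔ W₂)) with mul_comm := hc }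
    rw [← Nat.card_eq_fintype_card, CommGroup.card_monoidHom_of_hasEnoughRootsOfUnity _ ℂ]
  · exact S1503.dual_sum_zero hc ⊥ Finset.univ (fun φ => by
      simp only [Finset.mem_univ, true_iff]
      intro y hy
      rw [Subgroup.mem_bot.mp hy, map_one]) (w₀⁻¹ * w) (by
      rw [Subgroup.mem_bot]
      intro h'
      exact h (inv_mul_eq_one.mp h').symm)

/-- the values on `W ∖ W₂` of a class function in terms of the exceptional characters -/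
theorem value_formula [Fintype (↥(W₁ ⊔ W₂) →* ℂˣ)] (hc : ∀ u v : ↥(W₁ ⊔ W₂), u * v = v * u)
    (μ : (↥(W₁ ⊔ W₂) →* ℂˣ) → (L → ℂ)) (δ : (↥(W₁ ⊔ W₂) →* ℂˣ) → ℂ)
    (hsign : ∀ ω, δ ω = 1 ∨ δ ω = -1)
    (hfib : ∀ ω ω' : ↥(W₁ ⊔ W₂) →* ℂˣ, (∀ w : ↥(W₁ ⊔ W₂), (w : L) ∈ W₂ → ω w = ω' w) →
        δ ω = δ ω' ∧ indFun (W₁ ⊔ W₂) (fun w => (ω w : ℂ) - (ω' w : ℂ)) = δ ω • (μ ω - μ ω'))
    (θ : L → ℂ) (hθ : IsClassFunction L θ) (w₀ : ↥(W₁ ⊔ W₂)) (hw₀ : (w₀ : L) ∉ W₂) :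
    θ w₀ = ∑ ω : ↥(W₁ ⊔ W₂) →* ℂˣ, ((ω w₀ : ℂˣ) : ℂ) * δ ω * classInner θ (μ ω) := by
  classical
  let _ : Fintype ↥(W₁ ⊔ W₂) := Fintype.ofFinite _
  have hW : (Nat.card ↥(W₁ ⊔ W₂) : ℂ) ≠ 0 := by
    exact_mod_cast (Nat.card_pos (α := ↥(W₁ ⊔ W₂))).ne'
  obtain ⟨D, hD⟩ : ∃ D : ↥(W₁ ⊔ W₂) → ℂ, D = fun w => if w = w₀ then 1 else 0 := ⟨_, rfl⟩
  have hD1 : classInner θ (indFun (W₁ ⊔ W₂) D) = (Nat.card ↥(W₁ ⊔ W₂) : ℂ)⁻¹ * θ w₀ := by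
    rw [frobenius_reciprocity' (W₁ ⊔ W₂) D θ hθ]
    unfold classInner
    congr 1
    rw [Finset.sum_eq_single w₀]
    · rw [res_apply, hD]
      simp
    · intro b _ hb
      rw [hD]
      simp [hb]
    · intro h
      exact absurd (Finset.mem_univ _) h
  have hD2 : (Nat.card ↥(W₁ ⊔ W₂) : ℂ) • D = ∑ ω : ↥(W₁ ⊔ W₂) →* ℂˣ,
      conj ((ω w₀ : ℂˣ) : ℂ) • (fun w : ↥(W₁ ⊔ W₂) => ((ω w : ℂˣ) : ℂ)) := by
    funext w
    simp only [Pi.smul_apply, Finset.sum_apply, smul_eq_mul]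
    rw [fourier W₁ W₂ hc w₀ w, hD]
    dsimp only
    by_cases h : w = w₀
    · rw [if_pos h, if_pos h, mul_one]
    · rw [if_neg h, if_neg h, mul_zero]
  obtain ⟨M, hM⟩ : ∃ M : (↥(W₁ ⊔ W₂) →* ℂˣ) → (L → ℂ), M = fun ω =>
      indFun (W₁ ⊔ W₂) (fun w : ↥(W₁ ⊔ W₂) => ((ω w : ℂˣ) : ℂ)) - δ ω • μ ω := ⟨_, rfl⟩
  have hMeq : ∀ ω ω' : ↥(W₁ ⊔ W₂) →* ℂˣ, (∀ w : ↥(W₁ ⊔ W₂), (w : L) ∈ W₂ → ω w = ω' w) →
      M ω = M ω' := by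
    intro ω ω' h
    obtain ⟨h1, h2⟩ := hfib ω ω' h
    have h3 : indFun (W₁ ⊔ W₂) (fun w : ↥(W₁ ⊔ W₂) => ((ω w : ℂˣ) : ℂ) - ((ω' w : ℂˣ) : ℂ)) =
        indFun (W₁ ⊔ W₂) (fun w : ↥(W₁ ⊔ W₂) => ((ω w : ℂˣ) : ℂ)) -
        indFun (W₁ ⊔ W₂) (fun w : ↥(W₁ ⊔ W₂) => ((ω' w : ℂˣ) : ℂ)) := indFun_sub _ _ _
    rw [h3] at h2
    rw [hM]
    dsimp only
    rw [← h1, ← sub_eq_zero]
    have h4 : indFun (W₁ ⊔ W₂) (fun w : ↥(W₁ ⊔ W₂) => ((ω w : ℂˣ) : ℂ)) - δ ω • μ ω -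
        (indFun (W₁ ⊔ W₂) (fun w : ↥(W₁ ⊔ W₂) => ((ω' w : ℂˣ) : ℂ)) - δ ω • μ ω') =
        (indFun (W₁ ⊔ W₂) (fun w : ↥(W₁ ⊔ W₂) => ((ω w : ℂˣ) : ℂ)) -
        indFun (W₁ ⊔ W₂) (fun w : ↥(W₁ ⊔ W₂) => ((ω' w : ℂˣ) : ℂ))) - δ ω • (μ ω - μ ω') := by
      rw [smul_sub]
      abel
    rw [h4, h2, sub_self]
  obtain ⟨ξ, hξ, hξ1⟩ := exists_nontriv W₁ W₂ hc w₀ hw₀
  obtain ⟨T, hT⟩ : ∃ T : L → ℂ, T = ∑ ω : ↥(W₁ ⊔ W₂) →* ℂˣ, conj ((ω w₀ : ℂˣ) : ℂ) • M ω :=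
    ⟨_, rfl⟩
  have hT1 : T = conj ((ξ w₀ : ℂˣ) : ℂ) • T := by
    rw [hT, Finset.smul_sum,
      ← Equiv.sum_comp (Equiv.mulRight ξ)
        (fun ω : ↥(W₁ ⊔ W₂) →* ℂˣ => conj ((ω w₀ : ℂˣ) : ℂ) • M ω)]
    refine Finset.sum_congr rfl fun ω _ => ?_
    simp only [Equiv.coe_mulRight]
    rw [hMeq (ω * ξ) ω (fun w hw => by rw [MonoidHom.mul_apply, hξ w hw, mul_one]),
      MonoidHom.mul_apply, Units.val_mul, map_mul, smul_smul, mul_comm]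
  have hT0 : T = 0 := by
    have h1 : (1 - conj ((ξ w₀ : ℂˣ) : ℂ)) • T = 0 := by
      rw [sub_smul, one_smul, ← hT1, sub_self]
    rcases smul_eq_zero.mp h1 with h | h
    · exfalso
      apply hξ1
      apply Units.ext
      have h2 : conj ((ξ w₀ : ℂˣ) : ℂ) = 1 := (sub_eq_zero.mp h).symm
      have h3 := congrArg (starRingEnd ℂ) h2
      rwa [Complex.conj_conj, map_one] at h3
    · exact h
  have hInd : (Nat.card ↥(W₁ ⊔ W₂) : ℂ) • indFun (W₁ ⊔ W₂) D =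
      ∑ ω : ↥(W₁ ⊔ W₂) →* ℂˣ, (conj ((ω w₀ : ℂˣ) : ℂ) * δ ω) • μ ω := by
    rw [← indFun_smul, hD2, indFun_sum]
    have h1 : ∀ ω : ↥(W₁ ⊔ W₂) →* ℂˣ, indFun (W₁ ⊔ W₂)
        (conj ((ω w₀ : ℂˣ) : ℂ) • (fun w : ↥(W₁ ⊔ W₂) => ((ω w : ℂˣ) : ℂ))) =
        (conj ((ω w₀ : ℂˣ) : ℂ) * δ ω) • μ ω + conj ((ω w₀ : ℂˣ) : ℂ) • M ω := by
      intro ω
      rw [indFun_smul, hM]
      dsimp only
      rw [smul_sub, smul_smul]
      abel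
    rw [Finset.sum_congr rfl fun ω _ => h1 ω, Finset.sum_add_distrib, ← hT, hT0, add_zero]
  have hfin : classInner θ ((Nat.card ↥(W₁ ⊔ W₂) : ℂ) • indFun (W₁ ⊔ W₂) D) = θ w₀ := by
    rw [classInner_smul_right, hD1, Complex.conj_natCast, ← mul_assoc, mul_inv_cancel₀ hW,
      one_mul]
  rw [← hfin, hInd, classInner_sum_right]
  refine Finset.sum_congr rfl fun ω _ => ?_
  rw [classInner_smul_right, map_mul, Complex.conj_conj]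
  rcases hsign ω with h | h
  · rw [h, map_one]
  · rw [h, map_neg, map_one]

/-- the remaining assertions, from the fibrewise exceptional characters -/
theorem core (hc : ∀ u v : ↥(W₁ ⊔ W₂), u * v = v * u)
    (hti : ∀ w x : L, w ∈ W₁ ⊔ W₂ → w ∉ W₂ → x⁻¹ * w * x ∈ W₁ ⊔ W₂ → x ∈ W₁ ⊔ W₂)
    (hW₁ : ∃ a ∈ W₁, a ≠ 1) (hint : ∀ a ∈ W₁, a ∈ W₂ → a = 1)
    (μ : (↥(W₁ ⊔ W₂) →* ℂˣ) → (L → ℂ)) (δ : (↥(W₁ ⊔ W₂) →* ℂˣ) → ℂ)
    (hirr : ∀ ω, IsIrrCharacter L (μ ω)) (hsign : ∀ ω, δ ω = 1 ∨ δ ω = -1)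
    (hfib : ∀ ω ω' : ↥(W₁ ⊔ W₂) →* ℂˣ, (∀ w : ↥(W₁ ⊔ W₂), (w : L) ∈ W₂ → ω w = ω' w) →
        δ ω = δ ω' ∧ indFun (W₁ ⊔ W₂) (fun w => (ω w : ℂ) - (ω' w : ℂ)) = δ ω • (μ ω - μ ω') ∧
        (μ ω = μ ω' → ω = ω')) :
    Function.Injective μ ∧
    (∀ ω, ∀ w : ↥(W₁ ⊔ W₂), (w : L) ∉ W₂ → μ ω w = δ ω * (ω w : ℂ)) ∧
    (∀ θ : L → ℂ, IsIrrCharacter L θ → (∀ ω, θ ≠ μ ω) →
      ∀ w : ↥(W₁ ⊔ W₂), (w : L) ∉ W₂ → θ w = 0) ∧
    (∀ ω, ∃ n : ℤ, μ ω 1 - δ ω = n * (Nat.card W₁ : ℂ)) := by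
  classical
  let _ : Fintype ↥(W₁ ⊔ W₂) := Fintype.ofFinite _
  let _ : Fintype (↥(W₁ ⊔ W₂) →* ℂˣ) := Fintype.ofFinite _
  have hfib' : ∀ ω ω' : ↥(W₁ ⊔ W₂) →* ℂˣ, (∀ w : ↥(W₁ ⊔ W₂), (w : L) ∈ W₂ → ω w = ω' w) →
      δ ω = δ ω' ∧ indFun (W₁ ⊔ W₂) (fun w => (ω w : ℂ) - (ω' w : ℂ)) = δ ω • (μ ω - μ ω') :=
    fun ω ω' h => ⟨(hfib ω ω' h).1, (hfib ω ω' h).2.1⟩
  have hδ0 : ∀ ω, δ ω ≠ 0 := by
    intro ω
    rcases hsign ω with h | h <;> rw [h] <;> norm_num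
  -- injectivity
  have hinj : Function.Injective μ := by
    intro ω ω' heq
    by_cases hr : ∀ w : ↥(W₁ ⊔ W₂), (w : L) ∈ W₂ → ω w = ω' w
    · exact (hfib ω ω' hr).2.2 heq
    exfalso
    obtain ⟨a, ha, ha1⟩ := hW₁
    obtain ⟨ξ, hξ, hξ1⟩ := exists_nontriv W₁ W₂ hc ⟨a, Subgroup.mem_sup_left ha⟩
      (fun h => ha1 (hint a ha h))
    have hξne : ξ ≠ 1 := by
      rintro rfl
      exact hξ1 rfl
    have hr1 : ∀ w : ↥(W₁ ⊔ W₂), (w : L) ∈ W₂ → ω w = (ω * ξ) w := fun w hw => by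
      rw [MonoidHom.mul_apply, hξ w hw, mul_one]
    have hr2 : ∀ w : ↥(W₁ ⊔ W₂), (w : L) ∈ W₂ → ω' w = (ω' * ξ) w := fun w hw => by
      rw [MonoidHom.mul_apply, hξ w hw, mul_one]
    have hne1 : ω ≠ ω * ξ := fun h =>
      hξne (mul_left_cancel ((mul_one ω).trans h)).symm
    have hne2 : ω' ≠ ω' * ξ := fun h =>
      hξne (mul_left_cancel ((mul_one ω').trans h)).symm
    have hne3 : ω ≠ ω' := by
      rintro rfl
      exact hr (fun _ _ => rfl)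
    have hne4 : ω ≠ ω' * ξ := by
      intro h
      apply hr
      intro w hw
      rw [h, MonoidHom.mul_apply, hξ w hw, mul_one]
    have hne5 : ω * ξ ≠ ω' := by
      intro h
      apply hr
      intro w hw
      rw [← h, MonoidHom.mul_apply, hξ w hw, mul_one]
    have hne6 : ω * ξ ≠ ω' * ξ := fun h => hne3 (mul_right_cancel h)
    have key := ind_inner W₁ W₂ hc hti
      (fun w : ↥(W₁ ⊔ W₂) => ((ω w : ℂˣ) : ℂ) - (((ω * ξ) w : ℂˣ) : ℂ))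
      (fun w : ↥(W₁ ⊔ W₂) => ((ω' w : ℂˣ) : ℂ) - (((ω' * ξ) w : ℂˣ) : ℂ))
      (fun w hw => by rw [hr1 w hw, sub_self])
    have h3 : classInner (fun w : ↥(W₁ ⊔ W₂) => ((ω w : ℂˣ) : ℂ) - (((ω * ξ) w : ℂˣ) : ℂ))
        (fun w => ((ω' w : ℂˣ) : ℂ) - (((ω' * ξ) w : ℂˣ) : ℂ)) =
        classInner ((fun w : ↥(W₁ ⊔ W₂) => ((ω w : ℂˣ) : ℂ)) -
          (fun w => (((ω * ξ) w : ℂˣ) : ℂ)))
          ((fun w : ↥(W₁ ⊔ W₂) => ((ω' w : ℂˣ) : ℂ)) - (fun w => (((ω' * ξ) w : ℂˣ) : ℂ))) := rfl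
    rw [h3, classInner_sub_left, classInner_sub_right, classInner_sub_right, lin_inner,
      lin_inner, lin_inner, lin_inner, if_neg hne3, if_neg hne4, if_neg hne5, if_neg hne6,
      (hfib ω (ω * ξ) hr1).2.1, (hfib ω' (ω' * ξ) hr2).2.1, classInner_smul_left,
      classInner_smul_right, classInner_sub_left, classInner_sub_right, classInner_sub_right,
      classInner_irr' (hirr ω) (hirr ω'), classInner_irr' (hirr ω) (hirr (ω' * ξ)),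
      classInner_irr' (hirr (ω * ξ)) (hirr ω'), classInner_irr' (hirr (ω * ξ)) (hirr (ω' * ξ)),
      if_pos heq,
      if_neg (fun h : μ ω = μ (ω' * ξ) => hne2 ((hfib ω' (ω' * ξ) hr2).2.2 (heq.symm.trans h))),
      if_neg (fun h : μ (ω * ξ) = μ ω' => hne1 ((hfib ω (ω * ξ) hr1).2.2 (heq.trans h.symm)))]
      at key
    have hc1 : (starRingEnd ℂ) (δ ω') ≠ 0 := by
      rcases hsign ω' with h | h <;> rw [h] <;> norm_num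
    by_cases h : μ (ω * ξ) = μ (ω' * ξ)
    · rw [if_pos h] at key
      have h5 : δ ω * ((starRingEnd ℂ) (δ ω') * 2) = 0 := by
        linear_combination key
      rcases mul_eq_zero.mp h5 with h6 | h6
      · exact hδ0 ω h6
      · rcases mul_eq_zero.mp h6 with h7 | h7
        · exact hc1 h7
        · norm_num at h7
    · rw [if_neg h] at key
      have h5 : δ ω * ((starRingEnd ℂ) (δ ω') * 1) = 0 := by
        linear_combination key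
      rcases mul_eq_zero.mp h5 with h6 | h6
      · exact hδ0 ω h6
      · rcases mul_eq_zero.mp h6 with h7 | h7
        · exact hc1 h7
        · norm_num at h7
  -- the values
  have hval : ∀ ω, ∀ w : ↥(W₁ ⊔ W₂), (w : L) ∉ W₂ → μ ω w = δ ω * (ω w : ℂ) := by
    intro ω w hw
    rw [value_formula W₁ W₂ hc μ δ hsign hfib' (μ ω)
      (isClassFunction_of_isCharacter (isChar_of_irr (hirr ω))) w hw,
      Finset.sum_eq_single ω]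
    · rw [classInner_irr' (hirr ω) (hirr ω), if_pos rfl]
      ring
    · intro b _ hb
      rw [classInner_irr' (hirr ω) (hirr b), if_neg (fun h => hb (hinj h).symm), mul_zero]
    · intro h
      exact absurd (Finset.mem_univ _) h
  refine ⟨hinj, hval, ?_, ?_⟩
  · intro θ hθ hne w hw
    rw [value_formula W₁ W₂ hc μ δ hsign hfib' θ
      (isClassFunction_of_isCharacter (isChar_of_irr hθ)) w hw]
    apply Finset.sum_eq_zero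
    intro ω _
    rw [classInner_irr' hθ (hirr ω), if_neg (hne ω), mul_zero]
  · intro ω
    let _ : Fintype W₁ := Fintype.ofFinite _
    have hcard : (Nat.card W₁ : ℂ) ≠ 0 := by exact_mod_cast (Nat.card_pos (α := W₁)).ne'
    obtain ⟨k, hk⟩ := classInner_char_nat (isCharacter_res W₁ (isChar_of_irr (hirr ω)))
      (isCharacter_one (G := W₁))
    have hsum1 : ∑ x : W₁, μ ω (x : L) = (Nat.card W₁ : ℂ) * k := by
      rw [← hk]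
      unfold classInner
      rw [← mul_assoc, mul_inv_cancel₀ hcard, one_mul]
      refine Finset.sum_congr rfl fun x _ => ?_
      simp
    obtain ⟨j, hj⟩ : ∃ j : W₁ →* ↥(W₁ ⊔ W₂), j = Subgroup.inclusion le_sup_left := ⟨_, rfl⟩
    have hjc : ∀ x : W₁, ((j x : ↥(W₁ ⊔ W₂)) : L) = x := by
      intro x
      rw [hj]
      rfl
    have hsum2 : ∑ x : W₁, (((ω.comp j) x : ℂˣ) : ℂ) =
        if ω.comp j = 1 then (Nat.card W₁ : ℂ) else 0 := by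
      have h1 := S1505.lin_sum (ω.comp j) 1
      rw [← h1]
      refine Finset.sum_congr rfl fun x _ => ?_
      simp
    have hsplit : ∑ x : W₁, μ ω (x : L) - μ ω 1 =
        δ ω * ∑ x : W₁, (((ω.comp j) x : ℂˣ) : ℂ) - δ ω := by
      rw [← Finset.add_sum_erase Finset.univ _ (Finset.mem_univ (1 : W₁)),
        ← Finset.add_sum_erase Finset.univ (fun x : W₁ => (((ω.comp j) x : ℂˣ) : ℂ))
          (Finset.mem_univ (1 : W₁))]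
      have h1 : ∑ x ∈ Finset.univ.erase (1 : W₁), μ ω (x : L) =
          δ ω * ∑ x ∈ Finset.univ.erase (1 : W₁), (((ω.comp j) x : ℂˣ) : ℂ) := by
        rw [Finset.mul_sum]
        refine Finset.sum_congr rfl fun x hx => ?_
        have hx1 : x ≠ 1 := Finset.ne_of_mem_erase hx
        have h2 := hval ω (j x) (by
          rw [hjc]
          intro h
          exact hx1 (Subtype.ext (hint x x.2 h)))
        rw [hjc] at h2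
        rw [h2]
        rfl
      rw [h1]
      simp only [OneMemClass.coe_one, map_one, Units.val_one]
      ring
    have hmain : μ ω 1 - δ ω = (Nat.card W₁ : ℂ) * k -
        δ ω * (if ω.comp j = 1 then (Nat.card W₁ : ℂ) else 0) := by
      rw [← hsum1, ← hsum2]
      linear_combination -hsplit
    by_cases h1 : ω.comp j = 1
    · rw [if_pos h1] at hmain
      rcases hsign ω with h | h
      · refine ⟨(k : ℤ) - 1, ?_⟩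
        rw [hmain, h]
        push_cast
        ring
      · refine ⟨(k : ℤ) + 1, ?_⟩
        rw [hmain, h]
        push_cast
        ring
    · rw [if_neg h1] at hmain
      refine ⟨(k : ℤ), ?_⟩
      rw [hmain]
      push_cast
      ring

end Core

/-- Let L be a finite group with K normal with complement W₁ ≠ 1 a cyclic Hall subgroup, and W₂ ≠ 1 a cyclic subgroup of K equal to C_K(x) for every non-identity x ∈ W₁, with W₁W₂ of odd order. Then there are a map μ from the linear characters of W = W₁ ⊔ W₂ to irreducible characters of L, injective, and a sign δ(ω) ∈ {1, −1} depending only on the values of ω on W₂, such that: for ω, ω' agreeing on W₂, the function induced to L from ω − ω' equals δ(ω) • (μ ω − μ ω'); μ ω x = δ(ω) ω x for x ∈ W outside W₂; every irreducible character of L not of the form μ ω vanishes on W outside W₂;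 and μ ω 1 − δ(ω) is an integer multiple of Nat.card W₁. -/
theorem result {L : Type*} [Group L] [Fintype L] (K W₁ W₂ : Subgroup L) [hK : K.Normal] (hKW₁ : K ⊓ W₁ = ⊥) (hKW₁' : K ⊔ W₁ = ⊤) (hW₁ : W₁ ≠ ⊥) (hW₁c : IsCyclic W₁) (hHall : Nat.Coprime (Nat.card W₁) W₁.index) (hW₂ : W₂ ≠ ⊥) (hW₂c : IsCyclic W₂) (hW₂K : W₂ ≤ K) (hC : ∀ x ∈ W₁, x ≠ 1 → K ⊓ Subgroup.centralizer ({x} : Set L) = W₂) (hodd : Odd (Nat.card ↥(W₁ ⊔ W₂))) : ∃ (μ : (↥(W₁ ⊔ W₂) →* ℂˣ) → (L → ℂ)) (δ : (↥(W₁ ⊔ W₂) →* ℂˣ) → ℂ), Function.Injective μ ∧ (∀ ω, Cfsg.IsIrrCharacter L (μ ω)) ∧ (∀ ω, δ ω = 1 ∨ δ ω = -1) ∧ (∀ ω ω' : ↥(W₁ ⊔ W₂) →* ℂˣ, (∀ w : ↥(W₁ ⊔ W₂), (w : L) ∈ W₂ → ω w = ω' w) → δ ω = δ ω' ∧ Cfsg.indFun (W₁ ⊔ W₂) (fun w => (ω w : ℂ) - (ω' w : ℂ)) = δ ω • (μ ω - μ ω')) ∧ (∀ ω, ∀ w : ↥(W₁ ⊔ W₂), (w : L) ∉ W₂ → μ ω w = δ ω * (ω w : ℂ)) ∧ (∀ θ : L → ℂ, Cfsg.IsIrrCharacter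 L θ → (∀ ω, θ ≠ μ ω) → ∀ w : ↥(W₁ ⊔ W₂), (w : L) ∉ W₂ → θ w = 0) ∧ (∀ ω, ∃ n : ℤ, μ ω 1 - δ ω = n * (Nat.card W₁ : ℂ)) := by
  classical
  let _ : Fintype ↥(W₁ ⊔ W₂) := Fintype.ofFinite _
  let _ : Fintype (↥(W₁ ⊔ W₂) →* ℂˣ) := Fintype.ofFinite _
  have hcomm := comm12 K W₁ W₂ hC
  have hc := comm_sup W₁ W₂ hW₁c hW₂c hcomm
  have hcop : Nat.Coprime (Nat.card W₁) (Nat.card K) := by
    have hdisj : Disjoint K W₁ := disjoint_iff.mpr hKW₁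
    have hmul : (K : Set L) * (W₁ : Set L) = Set.univ := by
      rw [← Subgroup.normal_mul, hKW₁']
      rfl
    have hcompl := Subgroup.isComplement'_of_disjoint_and_mul_eq_univ hdisj hmul
    rw [← hcompl.index_eq_card]
    exact hHall
  have hti : ∀ w x : L, w ∈ W₁ ⊔ W₂ → w ∉ W₂ → x⁻¹ * w * x ∈ W₁ ⊔ W₂ → x ∈ W₁ ⊔ W₂ :=
    fun w x hw hw₂ h => ti_mem' K W₁ W₂ hKW₁ hKW₁' hcop hW₂K hC w x hw hw₂ h
  have hint : ∀ a ∈ W₁, a ∈ W₂ → a = 1 := by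
    intro a ha ha2
    have h1 : a ∈ K ⊓ W₁ := ⟨hW₂K ha2, ha⟩
    rw [hKW₁] at h1
    exact Subgroup.mem_bot.mp h1
  have hW₁' : ∃ a ∈ W₁, a ≠ 1 := by
    by_contra hcon
    push Not at hcon
    exact hW₁ ((Subgroup.eq_bot_iff_forall _).mpr hcon)
  obtain ⟨s, hs⟩ : ∃ s : Setoid (↥(W₁ ⊔ W₂) →* ℂˣ), ∀ ω ω', s.r ω ω' ↔
      ∀ w : ↥(W₁ ⊔ W₂), (w : L) ∈ W₂ → ω w = ω' w :=
    ⟨⟨fun ω ω' => ∀ w : ↥(W₁ ⊔ W₂), (w : L) ∈ W₂ → ω w = ω' w,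
      ⟨fun _ _ _ => rfl, fun h w hw => (h w hw).symm,
        fun h1 h2 w hw => (h1 w hw).trans (h2 w hw)⟩⟩, fun _ _ => Iff.rfl⟩
  choose ε f hε hirr hinj hind using fibre W₁ W₂ hc hti
  obtain ⟨rep, hrep⟩ : ∃ rep : (↥(W₁ ⊔ W₂) →* ℂˣ) → (↥(W₁ ⊔ W₂) →* ℂˣ),
      rep = fun ω => Quotient.out (Quotient.mk s ω) := ⟨_, rfl⟩
  have hrep1 : ∀ ω, ∀ w : ↥(W₁ ⊔ W₂), (w : L) ∈ W₂ → ω w = rep ω w := by
    intro ω
    have h1 : s.r (rep ω) ω := by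
      rw [hrep]
      exact Quotient.mk_out (s := s) ω
    rw [hs] at h1
    exact fun w hw => (h1 w hw).symm
  have hrep2 : ∀ ω ω', (∀ w : ↥(W₁ ⊔ W₂), (w : L) ∈ W₂ → ω w = ω' w) → rep ω = rep ω' := by
    intro ω ω' h
    rw [hrep]
    dsimp only
    rw [Quotient.sound (s := s) ((hs ω ω').mpr h)]
  obtain ⟨hA, hB, hD, hE⟩ := core W₁ W₂ hc hti hW₁' hint (fun ω => f (rep ω) ω)
    (fun ω => ε (rep ω)) (fun ω => hirr (rep ω) ω (hrep1 ω)) (fun ω => hε (rep ω)) (by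
      intro ω ω' h
      have h1 := hrep2 ω ω' h
      have h2 : ∀ w : ↥(W₁ ⊔ W₂), (w : L) ∈ W₂ → ω' w = rep ω w := by
        rw [h1]
        exact hrep1 ω'
      refine ⟨by rw [h1], ?_, ?_⟩
      · rw [← h1]
        exact hind (rep ω) ω ω' (hrep1 ω) h2
      · rw [← h1]
        exact hinj (rep ω) ω ω' (hrep1 ω) h2)
  refine ⟨fun ω => f (rep ω) ω, fun ω => ε (rep ω), hA, fun ω => hirr (rep ω) ω (hrep1 ω),
    fun ω => hε (rep ω), ?_, hB, hD, hE⟩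
  intro ω ω' h
  have h1 := hrep2 ω ω' h
  have h2 : ∀ w : ↥(W₁ ⊔ W₂), (w : L) ∈ W₂ → ω' w = rep ω w := by
    rw [h1]
    exact hrep1 ω'
  dsimp only
  refine ⟨by rw [h1], ?_⟩
  rw [← h1]
  exact hind (rep ω) ω ω' (hrep1 ω) h2

end Cfsg.Agent.S1511
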