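import Cfsg.Statements.S1640
import Cfsg.Agent.Lib.Helper10.Pair48

set_option autoImplicit false
open Cfsg

namespace Cfsg.Agent.S1640

/-- The stabiliser of a vector of customary norm 6 is transitive on the 11178 minimal vectors of customary inner product −2 with it. -/
theorem result (u : ↥Cfsg.leechLattice) (hu : Cfsg.sqNorm (u : Cfsg.GolayPt → ℤ) = 48) : {x : ↥Cfsg.leechLattice | Cfsg.sqNorm (x : Cfsg.GolayPt → ℤ) = 32 ∧ Cfsg.dotInt (u : Cfsg.GolayPt → ℤ) (x : Cfsg.GolayPt → ℤ) = -16}.ncard = 11178 ∧ ∀ x ∈ {x : ↥Cfsg.leechLattice | Cfsg.sqNorm (x : Cfsg.GolayPt → ℤ) = 32 ∧ Cfsg.dotInt (u : Cfsg.GolayPt → ℤ) (x : Cfsg.GolayPt → ℤ) = -16}, ∀ x' ∈ {x : ↥Cfsg.leechLattice | Cfsg.sqNorm (x : Cfsg.GolayPt → ℤ) = 32 ∧ Cfsg.dotInt (u : Cfsg.GolayPt → ℤ) (x : Cfsg.GolayPt → ℤ) = -16}, ∃ g : ↥Cfsg.Co0, g • u = u ∧ g • x = x' :=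
  ⟨Cfsg.Agent.Lib.Helper10.ncard_48_m16 u hu, fun x hx x' hx' => Cfsg.Agent.Lib.Helper10.pair48_trans u x x' hu hx.1 hx'.1 hx.2 hx'.2⟩

end Cfsg.Agent.S1640
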