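import Cfsg.Statements.S3764
import Cfsg.Agent.Lib.Helper67.ExtraGlue

set_option autoImplicit false
open Cfsg

namespace Cfsg.Agent.S3764

open Cfsg.Agent.Lib.Helper67

/-- conjugation representation on functions -/
noncomputable def conjRep (K : Type*) [Field K] (G : Type*) [Group G] :
    G →* Module.End K (G → K) where
  toFun g := LinearMap.funLeft K K (fun a => g⁻¹ * a * g)
  map_one' := by
    apply LinearMap.ext; intro f; funext a
    simp [LinearMap.funLeft_apply]
  map_mul' := by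
    intro g g'
    apply LinearMap.ext; intro f; funext a
    simp [LinearMap.funLeft_apply, mul_assoc]

theorem conjRep_apply {K : Type*} [Field K] {G : Type*} [Group G] (g : G) (f : G → K) (a : G) :
    conjRep K G g f a = f (g⁻¹ * a * g) := rfl

/-- functions supported on `V` and additive there -/
def addSub (K : Type*) [Field K] {G : Type*} [Group G] (V : Subgroup G) :
    Submodule K (G → K) where
  carrier := {f | (∀ a, a ∉ V → f a = 0) ∧ ∀ a ∈ V, ∀ b ∈ V, f (a * b) = f a + f b}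
  add_mem' := by
    rintro f f' ⟨h1, h2⟩ ⟨h1', h2'⟩
    refine ⟨fun a ha => by simp [h1 a ha, h1' a ha], fun a ha b hb => ?_⟩
    simp only [Pi.add_apply, h2 a ha b hb, h2' a ha b hb]; ring
  zero_mem' := ⟨fun a _ => rfl, fun a _ b _ => by simp⟩
  smul_mem' := by
    rintro c f ⟨h1, h2⟩
    refine ⟨fun a ha => by simp [h1 a ha], fun a ha b hb => ?_⟩
    simp only [Pi.smul_apply, h2 a ha b hb, smul_add]

theorem exists_hom_ne {A : Type*} [CommGroup A] {p : ℕ} [Fact p.Prime]
    (hexp : ∀ a : A, a ^ p = 1) (u : A) (hu : u ≠ 1) :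
    ∃ f : A → ZMod p, (∀ a b, f (a * b) = f a + f b) ∧ f u ≠ 0 := by
  have hp0 : ∀ a : Additive A, p • a = 0 :=
    fun a => congrArg Additive.ofMul (hexp (Additive.toMul a))
  have iM : Module (ZMod p) (Additive A) := AddCommGroup.zmodModule hp0
  have hne : Additive.ofMul u ≠ 0 := fun hc => hu hc
  obtain ⟨φ, hφ⟩ : ∃ φ : Additive A →ₗ[ZMod p] ZMod p, φ (Additive.ofMul u) ≠ 0 := by
    by_contra hcon
    push Not at hcon
    exact hne ((Module.forall_dual_apply_eq_zero_iff (ZMod p) _).1 hcon)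
  exact ⟨fun a => φ (Additive.ofMul a), fun a b => by
    show φ (Additive.ofMul (a * b)) = φ (Additive.ofMul a) + φ (Additive.ofMul b)
    rw [ofMul_mul, map_add], hφ⟩

/-- the commutative group structure on a commutative subgroup -/
@[reducible] def commGroupOf {G : Type*} [Group G] (V : Subgroup G)
    (hcomm : ∀ a ∈ V, ∀ b ∈ V, a * b = b * a) : CommGroup V :=
  { (inferInstance : Group V) with
    mul_comm := fun a b => Subtype.ext (hcomm a a.2 b b.2) }

theorem exists_additive {G : Type*} [Group G] {p : ℕ} [Fact p.Prime] (K : Type*) [Field K]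
    [Algebra (ZMod p) K] (V : Subgroup G) (hcomm : ∀ a ∈ V, ∀ b ∈ V, a * b = b * a)
    (hexp : ∀ a ∈ V, a ^ p = 1) (u : G) (hu : u ∈ V) (hu1 : u ≠ 1) :
    ∃ f ∈ addSub K V, f u ≠ 0 := by
  classical
  obtain ⟨f, hf, hfu⟩ := @exists_hom_ne ↥V (commGroupOf V hcomm) p _
    (fun a => Subtype.ext (hexp a a.2)) ⟨u, hu⟩ (fun hc => hu1 (congrArg Subtype.val hc))
  have hf' : ∀ a b : V, f (a * b) = f a + f b := hf
  refine ⟨fun a => if ha : a ∈ V then algebraMap (ZMod p) K (f ⟨a, ha⟩) else 0,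
    ⟨?_, ?_⟩, ?_⟩
  · intro a ha
    simp only [dif_neg ha]
  · intro a ha b hb
    simp only [dif_pos ha, dif_pos hb, dif_pos (V.mul_mem ha hb)]
    rw [← map_add, ← hf']
    rfl
  · simp only [dif_pos hu]
    intro hc
    apply hfu
    exact (map_eq_zero_iff _ (algebraMap (ZMod p) K).injective).1 hc

/-- Let p, q, r be distinct primes and let X, Q, V be subgroups of a finite group with X of order r, Q an extraspecial q-group normalized by X with C_Q(X) = Z(Q), and V an elementary abelian p-group normalized by X and Q on which XQ acts faithfully ((X ⊔ Q) ∩ C(V) = 1). If C_V(X) = 1, then q = 2, r = 2^n + 1 for some n, and Q has order 2^(2n+1). -/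
theorem result {G : Type*} [Group G] [Finite G] {p q r : ℕ} (hp : p.Prime) (hq : q.Prime) (hr : r.Prime) (hpq : p ≠ q) (hpr : p ≠ r) (hqr : q ≠ r) (X Q V : Subgroup G) (hX : Nat.card X = r) (hQ : Cfsg.IsExtraspecial q ↥Q) (hXQ : X ≤ Subgroup.normalizer (Q : Set G)) (hCQ : Q ⊓ Subgroup.centralizer (X : Set G) = (Subgroup.center ↥Q).map Q.subtype) (hV : Cfsg.IsElementaryAbelian p V) (hXV : X ≤ Subgroup.normalizer (V : Set G)) (hQV : Q ≤ Subgroup.normalizer (V : Set G)) (hfaith : (X ⊔ Q) ⊓ Subgroup.centralizer (V : Set G) = ⊥) (hCV : V ⊓ Subgroup.centralizer (X : Set G) = ⊥) : q = 2 ∧ ∃ n : ℕ, r = 2 ^ n + 1 ∧ Nat.card Q = 2 ^ (2 * n + 1) := by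
  classical
  obtain ⟨⟨hQq, hfrat, hcomm⟩, hcard⟩ := hQ
  obtain ⟨hVc, hVexp⟩ := hV
  have hVcomm : ∀ a ∈ V, ∀ b ∈ V, a * b = b * a := by
    intro a ha b hb
    exact congrArg Subtype.val (hVc.is_comm.comm ⟨a, ha⟩ ⟨b, hb⟩)
  haveI : Fact p.Prime := ⟨hp⟩
  haveI : Fact q.Prime := ⟨hq⟩
  haveI : Fact r.Prime := ⟨hr⟩
  haveI : IsCyclic X := isCyclic_of_prime_card hX
  obtain ⟨x₀, hx₀⟩ := IsCyclic.exists_generator (α := X)
  have hxX : (x₀ : G) ∈ X := x₀.2
  have hord : orderOf (x₀ : G) = r := by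
    rw [Subgroup.orderOf_coe, orderOf_eq_card_of_forall_mem_zpowers hx₀, hX]
  have hxr : (x₀ : G) ^ r = 1 := by rw [← hord]; exact pow_orderOf_eq_one _
  have hXpow : ∀ y ∈ X, ∃ k : ℤ, (x₀ : G) ^ k = y := by
    intro y hy
    obtain ⟨k, hk⟩ := Subgroup.mem_zpowers_iff.1 (hx₀ ⟨y, hy⟩)
    refine ⟨k, ?_⟩
    have h1 := congrArg Subtype.val hk
    simpa using h1
  have hcentX : ∀ g : G, (x₀ : G) * g = g * (x₀ : G) →
      g ∈ Subgroup.centralizer (X : Set G) := by
    intro g hg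
    rw [Subgroup.mem_centralizer_iff]
    intro y hy
    obtain ⟨k, rfl⟩ := hXpow y hy
    exact ((show Commute (x₀ : G) g from hg).zpow_left k).eq
  have hZx : ∀ z ∈ (Subgroup.center Q).map Q.subtype, (x₀ : G) * z = z * (x₀ : G) := by
    intro z hz
    rw [← hCQ] at hz
    exact Subgroup.mem_centralizer_iff.1 hz.2 _ hxX
  have hfix' : ∀ i : ℕ, ¬ r ∣ i → ∀ g ∈ Q, (x₀ : G) ^ i * g = g * (x₀ : G) ^ i →
      g ∈ (Subgroup.center Q).map Q.subtype := by
    intro i hi g hg hc
    rw [← hCQ]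
    refine ⟨hg, hcentX g ?_⟩
    have hcop : Nat.Coprime i r := Nat.Coprime.symm ((Nat.Prime.coprime_iff_not_dvd hr).2 hi)
    obtain ⟨m, -, hm⟩ := Nat.exists_mul_mod_eq_one_of_coprime hcop hr.one_lt
    have h1 : ((x₀ : G) ^ i) ^ m = (x₀ : G) := by
      rw [← pow_mul, ← pow_mod_orderOf, hord, hm, pow_one]
    rw [← h1]
    exact ((show Commute ((x₀ : G) ^ i) g from hc).pow_left m).eq
  have hrq : r.Coprime q := (Nat.coprime_primes hr hq).2 (Ne.symm hqr)
  obtain ⟨hZQ, hZc, hfree, hnc, hcardZ⟩ :=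
    extra_hyps Q hcomm hcard (x₀ : G) r hrq hxr hZx hfix'
  have hxQ : ∀ g ∈ Q, (x₀ : G) * g * (x₀ : G)⁻¹ ∈ Q :=
    fun g hg => (Subgroup.mem_normalizer_iff.1 (hXQ hxX) g).1 hg
  -- the field
  let K := AlgebraicClosure (ZMod p)
  haveI : CharP K p := charP_of_injective_algebraMap (algebraMap (ZMod p) K).injective p
  have hcast : ∀ m : ℕ, ¬ p ∣ m → (m : K) ≠ 0 :=
    fun m hm hc => hm ((CharP.cast_eq_zero_iff K p m).1 hc)
  have hqK : (q : K) ≠ 0 := hcast q (fun hc => hpq ((Nat.prime_dvd_prime_iff_eq hp hq).1 hc))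
  have hrK : (r : K) ≠ 0 := hcast r (fun hc => hpr ((Nat.prime_dvd_prime_iff_eq hp hr).1 hc))
  obtain ⟨k, hk⟩ := (IsPGroup.iff_card (p := q)).1 hQq
  have hQK : (Nat.card Q : K) ≠ 0 := by
    rw [hk]
    apply hcast
    intro hc
    exact hpq ((Nat.prime_dvd_prime_iff_eq hp hq).1 (hp.dvd_of_dvd_pow hc))
  -- normalizer facts
  have hnormV : ∀ g ∈ Subgroup.normalizer (V : Set G), ∀ a, (g⁻¹ * a * g ∈ V ↔ a ∈ V) := by
    intro g hg a
    have h1 := Subgroup.mem_normalizer_iff.1 (Subgroup.inv_mem _ hg) a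
    rw [inv_inv] at h1
    exact h1.symm
  have hAinv : ∀ g ∈ Subgroup.normalizer (V : Set G), ∀ w ∈ addSub K V,
      conjRep K G g w ∈ addSub K V := by
    intro g hg w hw
    refine ⟨fun a ha => ?_, fun a ha b hb => ?_⟩
    · rw [conjRep_apply]; exact hw.1 _ (fun hc => ha ((hnormV g hg a).1 hc))
    · rw [conjRep_apply, conjRep_apply, conjRep_apply]
      have e : g⁻¹ * (a * b) * g = (g⁻¹ * a * g) * (g⁻¹ * b * g) := by group
      rw [e]
      exact hw.2 _ ((hnormV g hg a).2 ha) _ ((hnormV g hg b).2 hb)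
  have hex : ∃ z₀ ∈ (Subgroup.center Q).map Q.subtype, ∃ f₀ ∈ addSub K V,
      conjRep K G z₀ f₀ ≠ f₀ := by
    have hZne : (Subgroup.center Q).map Q.subtype ≠ ⊥ := by
      intro hc
      have h1 := Subgroup.card_eq_one.2 hc
      rw [hcardZ] at h1
      exact hq.one_lt.ne' h1
    obtain ⟨z₀, hz₀⟩ := (Subgroup.ne_bot_iff_exists_ne_one).1 hZne
    have hz₀Q : (z₀ : G) ∈ Q := hZQ z₀.2
    have hz₀1 : (z₀ : G) ≠ 1 := fun hc => hz₀ (Subtype.ext hc)
    have hncent : (z₀ : G) ∉ Subgroup.centralizer (V : Set G) := by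
      intro hc
      have h1 : (z₀ : G) ∈ (X ⊔ Q) ⊓ Subgroup.centralizer (V : Set G) :=
        ⟨(le_sup_right : Q ≤ X ⊔ Q) hz₀Q, hc⟩
      rw [hfaith, Subgroup.mem_bot] at h1
      exact hz₀1 h1
    rw [Subgroup.mem_centralizer_iff] at hncent
    push Not at hncent
    obtain ⟨v, hv, hvz⟩ := hncent
    have hu : (z₀ : G)⁻¹ * v * z₀ * v⁻¹ ∈ V :=
      V.mul_mem ((hnormV _ (hQV hz₀Q) v).2 hv) (V.inv_mem hv)
    have hu1 : (z₀ : G)⁻¹ * v * z₀ * v⁻¹ ≠ 1 := by
      intro hc
      apply hvz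
      calc v * (z₀ : G) = z₀ * ((z₀ : G)⁻¹ * v * z₀ * v⁻¹) * v := by group
        _ = z₀ * v := by rw [hc, mul_one]
    obtain ⟨f₀, hf₀, hf₀u⟩ := exists_additive K V hVcomm hVexp _ hu hu1
    refine ⟨z₀, z₀.2, f₀, hf₀, ?_⟩
    intro hc
    have h1 := congrFun hc v
    rw [conjRep_apply] at h1
    have e : (z₀ : G)⁻¹ * v * z₀ = ((z₀ : G)⁻¹ * v * z₀ * v⁻¹) * v := by group
    rw [e, hf₀.2 _ hu _ hv] at h1
    exact hf₀u (by simpa using h1)
  -- `x` has no fixed vector
  have hne1 : ∀ w ∈ addSub K V, conjRep K G (x₀ : G) w = w → w = 0 := by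
    intro w hw hxw
    have hinv : ∀ b : G, w ((x₀ : G)⁻¹ * b * x₀) = w b := by
      intro b
      have h1 := congrFun hxw b
      rw [conjRep_apply] at h1
      exact h1
    have hw1 : w 1 = 0 := by
      have h1 := hw.2 1 V.one_mem 1 V.one_mem
      rw [mul_one] at h1
      have h2 : w 1 + w 1 = w 1 + 0 := by rw [← h1, add_zero]
      exact add_left_cancel h2
    funext a
    by_cases ha : a ∈ V
    · -- the orbit product
      let t : ℕ → G := fun k => ((x₀ : G) ^ k)⁻¹ * a * (x₀ : G) ^ k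
      have ht : ∀ k, t k ∈ V := by
        intro k
        exact (hnormV _ ((Subgroup.normalizer (V : Set G)).pow_mem (hXV hxX) k) a).2 ha
      have htw : ∀ k, w (t k) = w a := by
        intro k
        induction k with
        | zero => simp [t]
        | succ k ih =>
          have e : t (k + 1) = (x₀ : G)⁻¹ * t k * x₀ := by
            simp only [t]; rw [pow_succ]; group
          rw [e, hinv, ih]
      let Pm : ℕ → G := fun m => Nat.rec 1 (fun k acc => acc * t k) m
      have hPm0 : Pm 0 = 1 := rfl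
      have hPmS : ∀ m, Pm (m + 1) = Pm m * t m := fun m => rfl
      have hPmV : ∀ m, Pm m ∈ V := by
        intro m
        induction m with
        | zero => rw [hPm0]; exact V.one_mem
        | succ m ih => rw [hPmS]; exact V.mul_mem ih (ht m)
      have hPmw : ∀ m, w (Pm m) = (m : K) * w a := by
        intro m
        induction m with
        | zero => rw [hPm0, hw1]; simp
        | succ m ih =>
          rw [hPmS, hw.2 _ (hPmV m) _ (ht m), ih, htw]
          push_cast; ring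
      have hPmc : ∀ m, a * ((x₀ : G)⁻¹ * Pm m * x₀) = Pm (m + 1) := by
        intro m
        induction m with
        | zero =>
          rw [hPmS, hPm0]
          simp [t]
        | succ m ih =>
          have e : a * ((x₀ : G)⁻¹ * Pm (m + 1) * x₀)
              = (a * ((x₀ : G)⁻¹ * Pm m * x₀)) * ((x₀ : G)⁻¹ * t m * x₀) := by
            rw [hPmS m]; group
          have e2 : (x₀ : G)⁻¹ * t m * x₀ = t (m + 1) := by
            simp only [t]; rw [pow_succ]; group
          rw [e, ih, e2, ← hPmS (m + 1)]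
      have htr : t r = a := by simp [t, hxr]
      have hfixP : (x₀ : G) * Pm r = Pm r * (x₀ : G) := by
        have h1 := hPmc r
        rw [hPmS, htr, hVcomm _ (hPmV r) a ha] at h1
        have h2 : (x₀ : G)⁻¹ * Pm r * x₀ = Pm r := mul_left_cancel h1
        calc (x₀ : G) * Pm r = x₀ * ((x₀ : G)⁻¹ * Pm r * x₀) := by rw [h2]
          _ = Pm r * x₀ := by group
      have hP1 : Pm r = 1 := by
        have h1 : Pm r ∈ V ⊓ Subgroup.centralizer (X : Set G) := ⟨hPmV r, hcentX _ hfixP⟩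
        rw [hCV, Subgroup.mem_bot] at h1
        exact h1
      have h2 := hPmw r
      rw [hP1, hw1] at h2
      rcases mul_eq_zero.1 h2.symm with h3 | h3
      · exact absurd h3 hrK
      · exact h3
    · exact hw.1 a ha
  obtain ⟨n₀, ι, hι, μ, h1, h2, h3, h4, h5⟩ := exists_rep_data' (K := K) (conjRep K G)
    (addSub K V) Q ((Subgroup.center Q).map Q.subtype) (x₀ : G) r q
    (fun g hg => hAinv g (hQV hg)) (hAinv _ (hXV hxX))
    hQK hq hcardZ hqK hex hZQ hZc hZx hxQ hr.two_le hrK hxr hfree hnc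
  -- numerics
  have hμ1 : ∀ i, μ i ≠ 1 := by
    intro i hc
    obtain ⟨w, hwA, hw0, hw⟩ := h4 i
    rw [hc, one_smul] at hw
    exact hw0 (hne1 w hwA hw)
  have hn2 : 2 ≤ n₀ := by
    by_contra hcon
    have hn01 : n₀ = 0 ∨ n₀ = 1 := by omega
    rcases hn01 with h0 | h0
    · rw [h0] at h1
      have : 0 < Nat.card Q := Nat.card_pos
      omega
    · rw [h0, one_pow, one_mul] at h1
      have h6 : Subgroup.center Q = ⊤ := by
        apply Subgroup.eq_top_of_card_eq
        rw [hcard, h1]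
      have h7 : commutator Q = ⊥ := (commutator_eq_bot_iff_center_eq_top ↥Q).2 h6
      rw [hcomm] at h7
      have h8 := Subgroup.card_eq_one.2 h7
      rw [hcard] at h8
      exact hq.one_lt.ne' h8
  set R := (Polynomial.nthRootsFinset r (1 : K)).erase 1 with hR
  have hRmem : ∀ i, μ i ∈ R := fun i =>
    Finset.mem_erase.2 ⟨hμ1 i, (Polynomial.mem_nthRootsFinset hr.pos 1).2 (h3 i)⟩
  have hRcard : R.card ≤ r - 1 := by
    rw [hR, Finset.card_erase_of_mem ((Polynomial.mem_nthRootsFinset hr.pos 1).2 (one_pow r))]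
    exact Nat.sub_le_sub_right
      ((Multiset.toFinset_card_le _).trans (Polynomial.card_nthRoots _ _)) 1
  have hnP := card_le_pairs μ
  have hCS := sq_le_mul_pairs μ R hRmem
  rw [h2] at hnP hCS
  have hn₀ : n₀ = r - 1 := eq_pred_of_no_fixed n₀ r _ _ hn2 hr.pos le_rfl hnP
    (hCS.trans (Nat.mul_le_mul_right _ hRcard)) h5
  -- `r - 1` is a power of `q`
  have hdvd : r - 1 ∣ q ^ k := by
    rw [← hk, ← h1, hn₀]
    exact Dvd.intro ((r - 1) * q) (by ring)
  obtain ⟨j, -, hj⟩ := (Nat.dvd_prime_pow hq).1 hdvd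
  have hj0 : j ≠ 0 := by
    intro hc
    rw [hc, pow_zero] at hj
    omega
  have hq2 : q = 2 := by
    rcases hq.eq_two_or_odd' with h6 | h6
    · exact h6
    · exfalso
      have h7 : Odd (q ^ j) := h6.pow
      have h8 : Even r := by
        have : r = q ^ j + 1 := by have := hr.two_le; omega
        rw [this]; exact h7.add_one
      have h9 : r = 2 := (Nat.Prime.even_iff hr).1 h8
      omega
  refine ⟨hq2, j, ?_, ?_⟩
  · have := hr.two_le
    rw [← hq2]; omega
  · rw [← h1, hn₀, hj, hq2]; ring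

end Cfsg.Agent.S3764
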