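import Cfsg.Statements.S3783
import Mathlib
import Cfsg.Agent.S3790
import Cfsg.Agent.Lib.Helper75.FrattiniAct
import Cfsg.Agent.Lib.Helper40.HallHigman

set_option autoImplicit false
open Cfsg

namespace Cfsg.Agent.S3783

universe u

open scoped Pointwise

/-- **Frobenius sum lemma.** If `Q ⋊ ⟨x⟩` acts on the abelian group `V`, every `x ^ i`
(`0 < i < n`) acts fixed-point-freely on `Q`, the norm of `x` vanishes on `V` and the trace of
`Q` kills the `x`-translates of `w`, then `w ^ |Q| = 1`. -/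
theorem frob_sum {Γ V : Type*} [Group Γ] [CommGroup V] (ρ : Γ →* MulAut V)
    (Q : Subgroup Γ) [Fintype Q] (x : Γ) (n : ℕ) (hn : 0 < n)
    (hxQ : ∀ u ∈ Q, x * u * x⁻¹ ∈ Q)
    (hfpf : ∀ i, 0 < i → i < n → ∀ u ∈ Q, x ^ i * u = u * x ^ i → u = 1)
    (hN : ∀ v : V, ∏ i ∈ Finset.range n, ρ (x ^ i) v = 1)
    (w : V) (hT : ∀ i, ∏ u : Q, ρ (u : Γ) (ρ (x ^ i) w) = 1) :
    w ^ Fintype.card Q = 1 := by
  classical
  have hxiQ : ∀ i : ℕ, ∀ u ∈ Q, x ^ i * u * (x ^ i)⁻¹ ∈ Q := by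
    intro i
    induction i with
    | zero => intro u hu; simpa using hu
    | succ i ih =>
      intro u hu
      have h1 := hxQ _ (ih u hu)
      have e : x ^ (i + 1) * u * (x ^ (i + 1))⁻¹ = x * (x ^ i * u * (x ^ i)⁻¹) * x⁻¹ := by
        rw [pow_succ']; group
      rw [e]; exact h1
  have hA1 : ∏ u : Q, ∏ i ∈ Finset.range n, ρ ((u : Γ) * x ^ i * (u : Γ)⁻¹) w = 1 := by
    apply Finset.prod_eq_one
    intro u _
    have h1 : ∀ i, ρ ((u : Γ) * x ^ i * (u : Γ)⁻¹) w = ρ (u : Γ) (ρ (x ^ i) (ρ (u : Γ)⁻¹ w)) := by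
      intro i
      rw [map_mul, map_mul]; rfl
    simp_rw [h1]
    rw [← map_prod, hN, map_one]
  have hA2 : ∏ u : Q, ∏ i ∈ Finset.range n, ρ ((u : Γ) * x ^ i * (u : Γ)⁻¹) w
      = w ^ Fintype.card Q := by
    rw [Finset.prod_comm]
    obtain ⟨m, rfl⟩ : ∃ m, n = m + 1 := ⟨n - 1, by omega⟩
    rw [Finset.prod_range_succ']
    have h0 : ∏ u : Q, ρ ((u : Γ) * x ^ 0 * (u : Γ)⁻¹) w = w ^ Fintype.card Q := by
      simp
    have hi : ∀ i ∈ Finset.range m, ∏ u : Q, ρ ((u : Γ) * x ^ (i + 1) * (u : Γ)⁻¹) w = 1 := by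
      intro i hi
      have hi' : i + 1 < m + 1 := by have := Finset.mem_range.1 hi; omega
      let φ : Q → Q := fun u => ⟨(u : Γ) * (x ^ (i + 1) * (u : Γ)⁻¹ * (x ^ (i + 1))⁻¹),
        Q.mul_mem u.2 (hxiQ (i + 1) _ (Q.inv_mem u.2))⟩
      have hφinj : Function.Injective φ := by
        intro u u' h
        have h1 : (u : Γ) * (x ^ (i + 1) * (u : Γ)⁻¹ * (x ^ (i + 1))⁻¹)
            = (u' : Γ) * (x ^ (i + 1) * (u' : Γ)⁻¹ * (x ^ (i + 1))⁻¹) := congrArg Subtype.val h
        have h3 : (u : Γ) * x ^ (i + 1) * (u : Γ)⁻¹ = (u' : Γ) * x ^ (i + 1) * (u' : Γ)⁻¹ := by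
          have := congrArg (· * x ^ (i + 1)) h1
          simpa [mul_assoc] using this
        have h2 : x ^ (i + 1) * ((u' : Γ)⁻¹ * (u : Γ)) = ((u' : Γ)⁻¹ * (u : Γ)) * x ^ (i + 1) := by
          calc x ^ (i + 1) * ((u' : Γ)⁻¹ * (u : Γ))
              = (u' : Γ)⁻¹ * ((u' : Γ) * x ^ (i + 1) * (u' : Γ)⁻¹) * (u : Γ) := by group
            _ = (u' : Γ)⁻¹ * ((u : Γ) * x ^ (i + 1) * (u : Γ)⁻¹) * (u : Γ) := by rw [h3]
            _ = ((u' : Γ)⁻¹ * (u : Γ)) * x ^ (i + 1) := by group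
        have h4 := hfpf (i + 1) (Nat.succ_pos i) hi' _ (Q.mul_mem (Q.inv_mem u'.2) u.2) h2
        exact Subtype.ext (inv_mul_eq_one.1 h4).symm
      have hφbij : Function.Bijective φ := Finite.injective_iff_bijective.1 hφinj
      have hterm : ∀ u : Q, ρ ((u : Γ) * x ^ (i + 1) * (u : Γ)⁻¹) w
          = ρ ((φ u : Q) : Γ) (ρ (x ^ (i + 1)) w) := by
        intro u
        rw [← MulAut.mul_apply, ← map_mul]
        congr 2
        show _ = (u : Γ) * (x ^ (i + 1) * (u : Γ)⁻¹ * (x ^ (i + 1))⁻¹) * x ^ (i + 1)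
        group
      simp_rw [hterm]
      rw [Fintype.prod_bijective φ hφbij (fun u => ρ ((φ u : Q) : Γ) (ρ (x ^ (i + 1)) w))
        (fun u => ρ (u : Γ) (ρ (x ^ (i + 1)) w)) (fun u => rfl)]
      exact hT (i + 1)
    rw [Finset.prod_eq_one hi, one_mul, h0]
  rw [← hA2, hA1]

/-- the trace of `Q` kills commutators. -/
theorem trace_comm {Γ V : Type*} [Group Γ] [CommGroup V] (ρ : Γ →* MulAut V)
    (Q : Subgroup Γ) [Fintype Q] (u₁ : Γ) (hu₁ : u₁ ∈ Q) (v : V) :
    ∏ u : Q, ρ (u : Γ) (ρ u₁ v / v) = 1 := by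
  have h1 : ∀ u : Q, ρ (u : Γ) (ρ u₁ v / v)
      = ρ ((u * ⟨u₁, hu₁⟩ : Q) : Γ) v / ρ (u : Γ) v := by
    intro u
    rw [map_div, ← MulAut.mul_apply, ← map_mul]; rfl
  simp_rw [h1]
  rw [Finset.prod_div_distrib]
  rw [Fintype.prod_bijective (fun u : Q => u * ⟨u₁, hu₁⟩) (Group.mulRight_bijective _)
    (fun u : Q => ρ ((u * ⟨u₁, hu₁⟩ : Q) : Γ) v) (fun u => ρ (u : Γ) v) (fun u => rfl)]
  exact div_self' _


theorem of_surj {P : Type*} [Group P] :
    Function.Surjective (Abelianization.of : P → Abelianization P) :=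
  QuotientGroup.mk_surjective

/-- the action of `G` on the abelianization of a normal subgroup -/
noncomputable def rho {G : Type*} [Group G] (P : Subgroup G) [P.Normal] :
    G →* MulAut (Abelianization P) where
  toFun g := (MulAut.conjNormal g : MulAut P).abelianizationCongr
  map_one' := by
    apply MulEquiv.ext
    intro v
    obtain ⟨r, rfl⟩ := of_surj v
    rw [abelianizationCongr_of, map_one]; rfl
  map_mul' := by
    intro g h
    apply MulEquiv.ext
    intro v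
    obtain ⟨r, rfl⟩ := of_surj v
    rw [abelianizationCongr_of, map_mul, MulAut.mul_apply, MulAut.mul_apply,
      abelianizationCongr_of, abelianizationCongr_of]

theorem rho_of {G : Type*} [Group G] (P : Subgroup G) [P.Normal] (g : G) (r : P) :
    rho P g (Abelianization.of r) = Abelianization.of (MulAut.conjNormal g r) :=
  abelianizationCongr_of _ _

theorem rho_triv {G : Type*} [Group G] (P : Subgroup G) [P.Normal] (g : G) (hg : g ∈ P) :
    rho P g = 1 := by
  apply MulEquiv.ext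
  intro v
  obtain ⟨r, rfl⟩ := of_surj v
  rw [rho_of]
  have h1 : (MulAut.conjNormal g r : P) = ⟨g, hg⟩ * r * ⟨g, hg⟩⁻¹ :=
    Subtype.ext (by simp [MulAut.conjNormal_apply])
  rw [h1, map_mul, map_mul, map_inv, mul_inv_cancel_comm]
  rfl

/-- the induced action of `G ⧸ P` on the abelianization of `P` -/
noncomputable def rhoBar {G : Type*} [Group G] (P : Subgroup G) [P.Normal] :
    G ⧸ P →* MulAut (Abelianization P) :=
  QuotientGroup.lift P (rho P) (fun g hg => rho_triv P g hg)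

theorem rhoBar_mk {G : Type*} [Group G] (P : Subgroup G) [P.Normal] (g : G) :
    rhoBar P (g : G ⧸ P) = rho P g := rfl

/-- norm computation: `(v x)^k = r x^k` with `r ∈ P` of image the partial norm of `v`. -/
theorem norm_formula {G : Type*} [Group G] (P : Subgroup G) [P.Normal] (x : G) (v : P) (k : ℕ) :
    ∃ r : P, (r : G) * x ^ k = ((v : G) * x) ^ k ∧
      Abelianization.of r = ∏ i ∈ Finset.range k, rho P (x ^ i) (Abelianization.of v) := by
  induction k with
  | zero => exact ⟨1, by simp, by simp⟩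
  | succ k ih =>
    obtain ⟨r, hr1, hr2⟩ := ih
    refine ⟨r * MulAut.conjNormal (x ^ k) v, ?_, ?_⟩
    · rw [pow_succ ((v : G) * x), ← hr1]
      simp only [Subgroup.coe_mul, MulAut.conjNormal_apply]
      rw [pow_succ]; group
    · rw [map_mul, hr2, Finset.prod_range_succ, rho_of]


theorem conj_pow_mem {Γ : Type*} [Group Γ] (Q : Subgroup Γ) (x : Γ)
    (hxQ : ∀ u ∈ Q, x * u * x⁻¹ ∈ Q) : ∀ i : ℕ, ∀ u ∈ Q, x ^ i * u * (x ^ i)⁻¹ ∈ Q := by
  intro i
  induction i with
  | zero => intro u hu; simpa using hu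
  | succ i ih =>
    intro u hu
    have h1 := hxQ _ (ih u hu)
    have e : x ^ (i + 1) * u * (x ^ (i + 1))⁻¹ = x * (x ^ i * u * (x ^ i)⁻¹) * x⁻¹ := by
      rw [pow_succ']; group
    rw [e]; exact h1

/-- **Raising the order.** If a `q`-subgroup `Q ≠ 1` of `G/P` (`P` a self-centralizing normal
`p`-subgroup) is normalized by the image of `x`, all of whose powers `x^i`, `0 < i < n`, act
fixed-point-freely on `Q`, then `(v x)^n ≠ x^n` for some `v ∈ P`. -/
theorem raise {G : Type*} [Group G] [Finite G] (p : ℕ) [Fact p.Prime]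
    (P : Subgroup G) [P.Normal] (hP : IsPGroup p P)
    (hC : Subgroup.centralizer (P : Set G) ≤ P)
    (q : ℕ) [Fact q.Prime] (hqp : q ≠ p)
    (Q : Subgroup (G ⧸ P)) (hQ : IsPGroup q Q) (hQ1 : Q ≠ ⊥)
    (x : G) (n : ℕ) (hn : 0 < n)
    (hxQ : ∀ u ∈ Q, (x : G ⧸ P) * u * (x : G ⧸ P)⁻¹ ∈ Q)
    (hfpf : ∀ i, 0 < i → i < n → ∀ u ∈ Q, (x : G ⧸ P) ^ i * u = u * (x : G ⧸ P) ^ i → u = 1) :
    ∃ v ∈ P, (v * x) ^ n ≠ x ^ n := by
  classical
  by_contra hcon
  push Not at hcon
  haveI : Fintype Q := Fintype.ofFinite Q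
  have hpq : Nat.Coprime p q := (Nat.coprime_primes Fact.out Fact.out).2 (Ne.symm hqp)
  have hN : ∀ vb : Abelianization P,
      ∏ i ∈ Finset.range n, rhoBar P ((x : G ⧸ P) ^ i) vb = 1 := by
    intro vb
    obtain ⟨v, rfl⟩ := of_surj vb
    obtain ⟨r, hr1, hr2⟩ := norm_formula P x v n
    have h1 : r = 1 := by
      have h := hcon v v.2
      rw [h] at hr1
      exact Subtype.ext (mul_eq_right.1 hr1)
    have h2 : ∀ i, rhoBar P ((x : G ⧸ P) ^ i) = rho P (x ^ i) := fun i => by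
      rw [← QuotientGroup.mk_pow]; rfl
    simp_rw [h2]
    rw [← hr2, h1, map_one]
  have hVp : ∀ vb : Abelianization P, ∃ k : ℕ, vb ^ p ^ k = 1 := by
    intro vb
    obtain ⟨v, rfl⟩ := of_surj vb
    obtain ⟨k, hk⟩ := hP v
    exact ⟨k, by rw [← map_pow, hk, map_one]⟩
  obtain ⟨j, hj⟩ := IsPGroup.iff_card.1 hQ
  have hfix : ∀ u₀ ∈ Q, ∀ vb : Abelianization P, rhoBar P u₀ vb = vb := by
    intro u₀ hu₀ vb
    have hT : ∀ i, ∏ u : Q, rhoBar P (u : G ⧸ P)
        (rhoBar P ((x : G ⧸ P) ^ i) (rhoBar P u₀ vb / vb)) = 1 := by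
      intro i
      have hxi : (x : G ⧸ P) ^ i * u₀ * ((x : G ⧸ P) ^ i)⁻¹ ∈ Q := conj_pow_mem Q _ hxQ i u₀ hu₀
      have h1 : rhoBar P ((x : G ⧸ P) ^ i) (rhoBar P u₀ vb / vb)
          = rhoBar P ((x : G ⧸ P) ^ i * u₀ * ((x : G ⧸ P) ^ i)⁻¹)
              (rhoBar P ((x : G ⧸ P) ^ i) vb) / rhoBar P ((x : G ⧸ P) ^ i) vb := by
        rw [map_div, ← MulAut.mul_apply, ← MulAut.mul_apply, ← map_mul, ← map_mul]
        congr 3
        group
      rw [h1]
      exact trace_comm (rhoBar P) Q _ hxi _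
    have hw := frob_sum (rhoBar P) Q (x : G ⧸ P) n hn hxQ hfpf hN (rhoBar P u₀ vb / vb) hT
    obtain ⟨k, hk⟩ := hVp (rhoBar P u₀ vb / vb)
    have hcard : Fintype.card Q = q ^ j := by rw [← Nat.card_eq_fintype_card]; exact hj
    rw [hcard] at hw
    have h1 := pow_gcd_eq_one.2 ⟨hk, hw⟩
    have h2 : Nat.gcd (p ^ k) (q ^ j) = 1 := Nat.Coprime.pow _ _ hpq
    rw [h2, pow_one] at h1
    exact div_eq_one.1 h1
  obtain ⟨u₀, hu₀, hu₀1⟩ : ∃ u₀ ∈ Q, u₀ ≠ 1 := by
    by_contra h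
    push Not at h
    exact hQ1 ((Subgroup.eq_bot_iff_forall _).2 h)
  obtain ⟨c₀, rfl⟩ := QuotientGroup.mk_surjective u₀
  obtain ⟨jj, hjj⟩ := hQ ⟨(c₀ : G ⧸ P), hu₀⟩
  have hu₀q : (c₀ : G ⧸ P) ^ q ^ jj = 1 := by simpa using congrArg Subtype.val hjj
  obtain ⟨a, ha⟩ := IsPGroup.iff_card.1 hP
  have hjj1 : 1 < q ^ jj := by
    apply Nat.one_lt_pow _ (Fact.out : q.Prime).one_lt
    rintro rfl
    apply hu₀1
    simpa using hu₀q
  obtain ⟨e, -, he⟩ := Nat.exists_mul_mod_eq_one_of_coprime (Nat.Coprime.pow a jj hpq) hjj1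
  set c := c₀ ^ (p ^ a * e) with hc
  have hc1 : (c : G ⧸ P) = (c₀ : G ⧸ P) := by
    rw [hc, QuotientGroup.mk_pow, pow_eq_pow_mod _ hu₀q, he, pow_one]
  have hc2 : c ^ q ^ jj = 1 := by
    have h1 : c₀ ^ q ^ jj ∈ P := by
      rw [← QuotientGroup.eq_one_iff, QuotientGroup.mk_pow]; exact hu₀q
    have h2 : (c₀ ^ q ^ jj) ^ p ^ a = 1 := by
      have h3 := pow_card_eq_one' (G := P) (x := ⟨_, h1⟩)
      rw [ha] at h3
      simpa using congrArg Subtype.val h3
    calc c ^ q ^ jj = ((c₀ ^ q ^ jj) ^ p ^ a) ^ e := by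
          rw [hc, ← pow_mul, ← pow_mul, ← pow_mul]; ring_nf
      _ = 1 := by rw [h2, one_pow]
  have hcfix : ∀ r : P, Abelianization.of (MulAut.conjNormal c r) = Abelianization.of r := by
    intro r
    have h := hfix (c₀ : G ⧸ P) hu₀ (Abelianization.of r)
    rw [← hc1, rhoBar_mk, rho_of] at h
    exact h
  have hcent : c ∈ Subgroup.centralizer (P : Set G) := by
    apply Cfsg.Agent.Lib.Helper75.Fratt.mem_centralizer_of_frattini (p := p) (q := q) (Ne.symm hqp) P hP
      c jj hc2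
    intro y hy
    have h1 := hcfix ⟨y, hy⟩
    have h2 : (MulAut.conjNormal c ⟨y, hy⟩ : P) * (⟨y, hy⟩ : P)⁻¹ ∈ commutator P := by
      rw [← Abelianization.ker_of, MonoidHom.mem_ker, map_mul, map_inv, h1, mul_inv_cancel]
    have h3 := Cfsg.Agent.Lib.Helper75.Fratt.commutator_le_frattini (p := p) hP h2
    refine ⟨_, h3, ?_⟩
    simp [MulAut.conjNormal_apply]
  have hcP : c ∈ P := hC hcent
  apply hu₀1
  rw [← hc1]
  exact (QuotientGroup.eq_one_iff c).2 hcP


/-- A normal subgroup `M` with a central `p'`-subgroup `M0` of `p`-power index is a `p'`-group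
as soon as `O_p(S) = 1`. -/
theorem coprime_of_central_of_ppow {S : Type*} [Group S] [Finite S] {p : ℕ} [Fact p.Prime]
    (hred : pCore p S = ⊥) (M M0 : Subgroup S) (hMn : M.Normal)
    (hcent : ∀ z ∈ M0, ∀ c ∈ M, z * c = c * z)
    (b : ℕ) (hidx : M0.relIndex M = p ^ b) : (Nat.card M).Coprime p := by
  have hp : p.Prime := Fact.out
  have hZc : M0.subgroupOf M ≤ Subgroup.center M := by
    intro z hz
    rw [Subgroup.mem_center_iff]
    intro c
    exact Subtype.ext (hcent z hz c c.2).symm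
  haveI hZn : (M0.subgroupOf M).Normal := by
    refine ⟨fun z hz c => ?_⟩
    have h1 := (Subgroup.mem_center_iff.1 (hZc hz)) c
    rw [h1, mul_inv_cancel_right]
    exact hz
  have hquot : IsPGroup p (M ⧸ M0.subgroupOf M) :=
    IsPGroup.of_card (n := b) (by rw [← Subgroup.index_eq_card]; exact hidx)
  haveI : Group.IsNilpotent (M ⧸ M0.subgroupOf M) := hquot.isNilpotent
  haveI hnil : Group.IsNilpotent M :=
    Subgroup.isNilpotent_of_ker_le_center (QuotientGroup.mk' (M0.subgroupOf M))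
      (by rw [QuotientGroup.ker_mk']; exact hZc)
  obtain ⟨T⟩ : Nonempty (Sylow p M) := inferInstance
  haveI hTn : (T : Subgroup M).Normal := inferInstance
  haveI hTc : (T : Subgroup M).Characteristic := Sylow.characteristic_of_normal T hTn
  haveI := hMn
  have hTG : ((T : Subgroup M).map M.subtype).Normal := ConjAct.normal_of_characteristic_of_normal
  have hTp : IsPGroup p ((T : Subgroup M).map M.subtype) := T.2.map _
  have hTle : (T : Subgroup M).map M.subtype ≤ pCore p S := le_sSup ⟨hTG, hTp⟩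
  rw [hred] at hTle
  have hTbot : (T : Subgroup M) = ⊥ := by
    rw [eq_bot_iff]
    intro t ht
    have h1 : (t : S) ∈ (⊥ : Subgroup S) := hTle ⟨t, ht, rfl⟩
    rw [Subgroup.mem_bot] at h1 ⊢
    exact Subtype.ext h1
  have h1 := T.not_dvd_index
  rw [hTbot, Subgroup.index_bot] at h1
  exact ((Nat.Prime.coprime_iff_not_dvd hp).2 h1).symm

/-- **Dual Hall–Higman Lemma 1.2.3.** In a finite `p`-solvable group `S` with `O_p(S) = 1`,
`C_S(O_{p'}(S)) ≤ O_{p'}(S)`. -/
theorem cent_pPrimeCore_le {S : Type*} [Group S] [Finite S] {p : ℕ} [Fact p.Prime]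
    (hS : IsPSolvable p S) (hred : pCore p S = ⊥) :
    Subgroup.centralizer (pPrimeCore p S : Set S) ≤ pPrimeCore p S := by
  have hp : p.Prime := Fact.out
  haveI hKn : (pPrimeCore p S).Normal := Cfsg.Agent.Lib.Helper81.pPrimeCore_normal p
  have hKc : (Nat.card (pPrimeCore p S)).Coprime p := Cfsg.Agent.Lib.Helper81.pPrimeCore_coprime p
  obtain ⟨n, H, h0, hlast, hmono, hnorm, hfac⟩ := hS
  have key : ∀ i : Fin (n + 1),
      Subgroup.centralizer (pPrimeCore p S : Set S) ⊓ H i ≤ pPrimeCore p S := by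
    intro i
    induction i using Fin.induction with
    | zero => rw [h0]; simp
    | succ i ih =>
      have hle : H i.castSucc ≤ H i.succ := hmono (Fin.castSucc_lt_succ).le
      haveI hn1 : (H i.succ).Normal := hnorm _
      haveI hn0 : (H i.castSucc).Normal := hnorm _
      have hMn : (Subgroup.centralizer (pPrimeCore p S : Set S) ⊓ H i.succ).Normal := inferInstance
      have hM0c : (Nat.card ↥(Subgroup.centralizer (pPrimeCore p S : Set S) ⊓ H i.castSucc)).Coprime p :=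
        Nat.Coprime.coprime_dvd_left (Subgroup.card_dvd_of_le ih) hKc
      have hcent : ∀ z ∈ Subgroup.centralizer (pPrimeCore p S : Set S) ⊓ H i.castSucc,
          ∀ c ∈ Subgroup.centralizer (pPrimeCore p S : Set S) ⊓ H i.succ, z * c = c * z := by
        intro z hz c hc
        exact Subgroup.mem_centralizer_iff.mp hc.1 z (ih hz)
      have hdvd : (Subgroup.centralizer (pPrimeCore p S : Set S) ⊓ H i.castSucc).relIndex
          (Subgroup.centralizer (pPrimeCore p S : Set S) ⊓ H i.succ) ∣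
          (H i.castSucc).relIndex (H i.succ) := by
        have e1 : Subgroup.centralizer (pPrimeCore p S : Set S) ⊓ H i.castSucc =
            H i.castSucc ⊓ (Subgroup.centralizer (pPrimeCore p S : Set S) ⊓ H i.succ) := by
          rw [inf_comm (H i.castSucc), inf_assoc, inf_eq_right.2 hle]
        rw [e1, Subgroup.inf_relIndex_right, ← Subgroup.relIndex_sup_right]
        have h1 : H i.castSucc ≤
            Subgroup.centralizer (pPrimeCore p S : Set S) ⊓ H i.succ ⊔ H i.castSucc :=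
          le_sup_right
        have h2 : Subgroup.centralizer (pPrimeCore p S : Set S) ⊓ H i.succ ⊔ H i.castSucc
            ≤ H i.succ :=
          sup_le inf_le_right hle
        exact Dvd.intro _ (Subgroup.relIndex_mul_relIndex _ _ _ h1 h2)
      have hcard := Subgroup.relIndex_mul_relIndex ⊥
        (Subgroup.centralizer (pPrimeCore p S : Set S) ⊓ H i.castSucc)
        (Subgroup.centralizer (pPrimeCore p S : Set S) ⊓ H i.succ) bot_le
        (inf_le_inf_left _ hle)
      rw [Subgroup.relIndex_bot_left, Subgroup.relIndex_bot_left] at hcard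
      have hMc : (Nat.card ↥(Subgroup.centralizer (pPrimeCore p S : Set S) ⊓ H i.succ)).Coprime p := by
        rcases hfac i with ⟨m, hm⟩ | hc
        · rw [hm] at hdvd
          obtain ⟨b, -, hb⟩ := (Nat.dvd_prime_pow hp).mp hdvd
          exact coprime_of_central_of_ppow hred _ _ hMn hcent b hb
        · rw [← hcard]
          exact Nat.Coprime.mul_left hM0c (Nat.Coprime.coprime_dvd_left hdvd hc)
      exact Cfsg.Agent.Lib.Helper81.le_pPrimeCore p _ hMn hMc
  have := key (Fin.last n)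
  rw [hlast, inf_top_eq] at this
  exact this

theorem pCore_quot_bot {G : Type*} [Group G] [Finite G] (p : ℕ) [Fact p.Prime]
    [hn : (pCore p G).Normal] : pCore p (G ⧸ pCore p G) = ⊥ := by
  have hPp : IsPGroup p (pCore p G) := Cfsg.Agent.Lib.Helper40.pCore_isPGroup' p
  have h1 : (pCore p (G ⧸ pCore p G)).comap (QuotientGroup.mk' (pCore p G)) ≤ pCore p G := by
    apply le_sSup
    refine ⟨(Cfsg.Agent.Lib.Helper40.pCore_normal' p).comap _, ?_⟩
    apply IsPGroup.comap_of_ker_isPGroup (Cfsg.Agent.Lib.Helper40.pCore_isPGroup' p)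
    rw [QuotientGroup.ker_mk']; exact hPp
  rw [eq_bot_iff]
  intro y hy
  obtain ⟨g, rfl⟩ := QuotientGroup.mk_surjective y
  rw [Subgroup.mem_bot, QuotientGroup.eq_one_iff]
  exact h1 hy

/-- a `p`-element normalizes some Sylow `q`-subgroup of a normal `p'`-subgroup -/
theorem inv_sylow {H : Type*} [Group H] [Finite H] (p : ℕ) [Fact p.Prime] (N : Subgroup H)
    [N.Normal] (hpN : (Nat.card N).Coprime p) (x : H) (hx : ∃ k : ℕ, x ^ p ^ k = 1)
    (q : ℕ) [Fact q.Prime] :
    ∃ S : Subgroup H, S ≤ N ∧ Nat.card S = q ^ (Nat.card N).factorization q ∧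
      ∀ s ∈ S, x * s * x⁻¹ ∈ S := by
  have hp : p.Prime := Fact.out
  have hZ : IsPGroup p (Subgroup.zpowers x) := by
    obtain ⟨k, hk⟩ := hx
    rintro ⟨g, hg⟩
    obtain ⟨i, rfl⟩ := Subgroup.mem_zpowers_iff.1 hg
    refine ⟨k, Subtype.ext ?_⟩
    show (x ^ i) ^ p ^ k = 1
    rw [← zpow_natCast, ← zpow_mul, mul_comm, zpow_mul, zpow_natCast, hk, one_zpow]
  letI : MulAction (Subgroup.zpowers x) (Sylow q N) :=
    MulAction.compHom (Sylow q N) ((MulAut.conjNormal (H := N)).comp (Subgroup.zpowers x).subtype)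
  have hcard : ¬ p ∣ Nat.card (Sylow q N) := by
    obtain ⟨Q₀⟩ : Nonempty (Sylow q N) := inferInstance
    intro h
    exact (Nat.Prime.coprime_iff_not_dvd hp).1 hpN.symm
      (h.trans ((Sylow.card_dvd_index Q₀).trans (Subgroup.index_dvd_card _)))
  obtain ⟨Q, hQ⟩ := hZ.nonempty_fixed_point_of_prime_not_dvd_card (Sylow q N) hcard
  refine ⟨(Q : Subgroup N).map N.subtype, ?_, ?_, ?_⟩
  · rintro _ ⟨t, -, rfl⟩
    exact t.2
  · rw [← Q.card_eq_multiplicity]
    exact (Nat.card_congr (Subgroup.equivMapOfInjective _ _ N.subtype_injective).toEquiv).symm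
  · rintro _ ⟨t, ht, rfl⟩
    have h1 : (MulAut.conjNormal x : MulAut N) • Q = Q := hQ ⟨x, Subgroup.mem_zpowers x⟩
    have h2 : (MulAut.conjNormal x : MulAut N) • t ∈ (MulAut.conjNormal x : MulAut N) • (Q : Subgroup N) :=
      Subgroup.smul_mem_pointwise_smul _ _ _ ht
    rw [← Sylow.pointwise_smul_def, h1] at h2
    refine ⟨_, h2, ?_⟩
    simp [MulAut.smul_def, MulAut.conjNormal_apply]


/-- **Exponent drop.** If `P` is a self-centralizing normal `p`-subgroup with `O_p(G/P) = 1`,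
`G/P` is `p`-solvable, the Sylow `q`-subgroups (`q ≠ p`) are abelian and the `p`-elements of `G`
have order dividing `p^n`, then the `p`-elements of `G/P` have order dividing `p^(n-1)`. -/
theorem exp_drop {G : Type*} [Group G] [Finite G] (p : ℕ) [Fact p.Prime]
    (P : Subgroup G) [P.Normal] (hP : IsPGroup p P)
    (hC : Subgroup.centralizer (P : Set G) ≤ P)
    (hH1 : pCore p (G ⧸ P) = ⊥) (hHsep : IsPSolvable p (G ⧸ P))
    (hab : ∀ (q : ℕ) [Fact q.Prime], q ≠ p → ∀ Q : Sylow q G, IsMulCommutative (Q : Subgroup G))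
    (n : ℕ) (hexp : ∀ g : G, (∃ k : ℕ, g ^ p ^ k = 1) → g ^ p ^ n = 1)
    (xb : G ⧸ P) (hxb : ∃ k : ℕ, xb ^ p ^ k = 1) : xb ^ p ^ (n - 1) = 1 := by
  classical
  have hp : p.Prime := Fact.out
  obtain ⟨k, hk⟩ := hxb
  obtain ⟨m, -, hm⟩ := (Nat.dvd_prime_pow hp).1 (orderOf_dvd_of_pow_eq_one hk)
  rcases Nat.eq_zero_or_pos m with rfl | hm1
  · rw [pow_zero, orderOf_eq_one_iff] at hm
    rw [hm, one_pow]
  suffices hmn : m < n by
    apply orderOf_dvd_iff_pow_eq_one.1
    rw [hm]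
    exact pow_dvd_pow p (by omega)
  by_contra hnm
  push Not at hnm
  have hKC := cent_pPrimeCore_le hHsep hH1
  haveI hKn : (pPrimeCore p (G ⧸ P)).Normal := Cfsg.Agent.Lib.Helper81.pPrimeCore_normal p
  have hKc : (Nat.card (pPrimeCore p (G ⧸ P))).Coprime p :=
    Cfsg.Agent.Lib.Helper81.pPrimeCore_coprime p
  set K := pPrimeCore p (G ⧸ P) with hKdef
  set yb := xb ^ p ^ (m - 1) with hyb
  have hybp : yb ^ p = 1 := by
    rw [hyb, ← pow_mul, ← pow_succ, Nat.sub_add_cancel hm1, ← hm, pow_orderOf_eq_one]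
  have hyb1 : yb ≠ 1 := by
    intro h
    have h1 := orderOf_dvd_of_pow_eq_one h
    rw [hm] at h1
    have := (Nat.pow_dvd_pow_iff_le_right hp.one_lt).1 h1
    omega
  have hybK : yb ∉ K := by
    intro h
    have h1 : orderOf yb = p := orderOf_eq_prime hybp hyb1
    have h2 : orderOf yb ∣ Nat.card K := by
      have := orderOf_dvd_natCard (⟨yb, h⟩ : K)
      rwa [Subgroup.orderOf_mk] at this
    rw [h1] at h2
    exact (Nat.Prime.coprime_iff_not_dvd hp).1 hKc.symm h2
  have hybC : yb ∉ Subgroup.centralizer (K : Set (G ⧸ P)) := fun h => hybK (hKC h)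
  obtain ⟨q, hq, S, hSK, hScard, hSinv, s, hs, hsy⟩ : ∃ q : ℕ, q.Prime ∧
      ∃ S : Subgroup (G ⧸ P), S ≤ K ∧
      Nat.card S = q ^ (Nat.card K).factorization q ∧ (∀ s ∈ S, xb * s * xb⁻¹ ∈ S) ∧
      ∃ s ∈ S, yb * s ≠ s * yb := by
    by_contra hcon
    push Not at hcon
    apply hybC
    have hdvd : Nat.card K ∣
        Nat.card (K ⊓ Subgroup.centralizer ({yb} : Set (G ⧸ P)) : Subgroup (G ⧸ P)) := by
      rw [← Nat.factorization_prime_le_iff_dvd Nat.card_pos.ne' Nat.card_pos.ne']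
      intro q hq
      haveI := Fact.mk hq
      obtain ⟨S, hSK, hScard, hSinv⟩ := inv_sylow p K hKc xb ⟨k, hk⟩ q
      have hcen := hcon q hq S hSK hScard hSinv
      have hSle : S ≤ K ⊓ Subgroup.centralizer ({yb} : Set (G ⧸ P)) := by
        intro s hs
        refine ⟨hSK hs, ?_⟩
        show s ∈ Subgroup.centralizer ({yb} : Set (G ⧸ P))
        rw [Subgroup.mem_centralizer_iff]
        intro h hh
        rw [Set.mem_singleton_iff] at hh
        rw [hh]; exact hcen s hs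
      have h1 := Subgroup.card_dvd_of_le hSle
      rw [hScard] at h1
      exact (hq.pow_dvd_iff_le_factorization Nat.card_pos.ne').1 h1
    have heq : K ⊓ Subgroup.centralizer ({yb} : Set (G ⧸ P)) = K := by
      apply Subgroup.eq_of_le_of_card_ge inf_le_left
      exact Nat.le_of_dvd Nat.card_pos hdvd
    rw [Subgroup.mem_centralizer_iff]
    intro h hh
    have h1 : h ∈ K ⊓ Subgroup.centralizer ({yb} : Set (G ⧸ P)) := by rw [heq]; exact hh
    have h2 := Subgroup.mem_centralizer_iff.1 h1.2 yb rfl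
    exact h2.symm
  haveI : Fact q.Prime := ⟨hq⟩
  have hSq : IsPGroup q S := IsPGroup.of_card hScard
  have hqp : q ≠ p := by
    rintro rfl
    have h0 : (Nat.card K).factorization q = 0 :=
      Nat.factorization_eq_zero_of_not_dvd ((Nat.Prime.coprime_iff_not_dvd hp).1 hKc.symm)
    rw [h0, pow_zero] at hScard
    have h1 : s = 1 := by
      have h2 := Subgroup.card_eq_one.1 hScard
      rw [h2] at hs; exact Subgroup.mem_bot.1 hs
    apply hsy; rw [h1]; simp
  have hSab : ∀ a ∈ S, ∀ b ∈ S, a * b = b * a := by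
    obtain ⟨Qb, hQb⟩ := hSq.exists_le_sylow
    obtain ⟨Q, rfl⟩ := Sylow.mapSurjective_surjective (QuotientGroup.mk'_surjective P) q Qb
    have hcomm := hab q hqp Q
    intro a ha b hb
    have ha2 := hQb ha
    have hb2 := hQb hb
    rw [Sylow.coe_mapSurjective] at ha2 hb2
    obtain ⟨a', ha', rfl⟩ := ha2
    obtain ⟨b', hb', rfl⟩ := hb2
    rw [← map_mul, ← map_mul]
    congr 1
    exact congrArg Subtype.val (hcomm.is_comm.comm (⟨a', ha'⟩ : (Q : Subgroup G)) ⟨b', hb'⟩)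
  have hSinvy : ∀ s ∈ S, yb * s * yb⁻¹ ∈ S := conj_pow_mem S xb hSinv (p ^ (m - 1))
  let κ : S →* G ⧸ P := MonoidHom.mk' (fun u => yb * (u : G ⧸ P) * yb⁻¹ * (u : G ⧸ P)⁻¹) (by
    intro u v
    have h1 := hSab _ (S.mul_mem (hSinvy v v.2) (S.inv_mem v.2)) _ (S.inv_mem u.2)
    simp only [Subgroup.coe_mul]
    calc yb * ((u : G ⧸ P) * (v : G ⧸ P)) * yb⁻¹ * ((u : G ⧸ P) * (v : G ⧸ P))⁻¹
        = yb * (u : G ⧸ P) * yb⁻¹ * ((yb * (v : G ⧸ P) * yb⁻¹ * (v : G ⧸ P)⁻¹) * (u : G ⧸ P)⁻¹) := by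
          group
      _ = yb * (u : G ⧸ P) * yb⁻¹ * ((u : G ⧸ P)⁻¹ * (yb * (v : G ⧸ P) * yb⁻¹ * (v : G ⧸ P)⁻¹)) := by
          rw [h1]
      _ = _ := by group)
  have hκ : ∀ u : S, κ u = yb * (u : G ⧸ P) * yb⁻¹ * (u : G ⧸ P)⁻¹ := fun u => rfl
  have hQ₁S : κ.range ≤ S := by
    rintro _ ⟨u, rfl⟩
    rw [hκ]
    exact S.mul_mem (hSinvy u u.2) (S.inv_mem u.2)
  have hQ₁q : IsPGroup q κ.range := hSq.to_le hQ₁S
  have hQ₁1 : κ.range ≠ ⊥ := by
    intro h
    have h1 : κ ⟨s, hs⟩ ∈ κ.range := ⟨_, rfl⟩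
    rw [h, Subgroup.mem_bot, hκ] at h1
    apply hsy
    have h2 : yb * s * yb⁻¹ = s := mul_inv_eq_one.1 h1
    calc yb * s = (yb * s * yb⁻¹) * yb := by group
      _ = s * yb := by rw [h2]
  have hxy : xb * yb = yb * xb := by
    rw [hyb, ← pow_succ', ← pow_succ]
  have hQ₁x : ∀ u ∈ κ.range, xb * u * xb⁻¹ ∈ κ.range := by
    rintro _ ⟨u, rfl⟩
    refine ⟨⟨xb * u * xb⁻¹, hSinv u u.2⟩, ?_⟩
    rw [hκ, hκ]
    show yb * (xb * (u : G ⧸ P) * xb⁻¹) * yb⁻¹ * (xb * (u : G ⧸ P) * xb⁻¹)⁻¹ = _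
    have e1 : yb * xb = xb * yb := hxy.symm
    have e2 : xb⁻¹ * yb⁻¹ = yb⁻¹ * xb⁻¹ := by rw [← mul_inv_rev, ← mul_inv_rev, hxy.symm]
    calc yb * (xb * (u : G ⧸ P) * xb⁻¹) * yb⁻¹ * (xb * (u : G ⧸ P) * xb⁻¹)⁻¹
        = (yb * xb) * (u : G ⧸ P) * (xb⁻¹ * yb⁻¹) * xb * (u : G ⧸ P)⁻¹ * xb⁻¹ := by group
      _ = (xb * yb) * (u : G ⧸ P) * (yb⁻¹ * xb⁻¹) * xb * (u : G ⧸ P)⁻¹ * xb⁻¹ := by rw [e1, e2]
      _ = _ := by group
  have hxpm : xb ^ p ^ m = 1 := by rw [← hm]; exact pow_orderOf_eq_one _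
  have hfpf : ∀ i, 0 < i → i < p ^ m → ∀ w ∈ κ.range, xb ^ i * w = w * xb ^ i → w = 1 := by
    intro i hi0 hi w hw hcomm
    -- `w` commutes with `yb`
    have hc1 : Commute w (xb ^ i) := hcomm.symm
    obtain ⟨a, ham, hga⟩ := (Nat.dvd_prime_pow hp).1 (Nat.gcd_dvd_right i (p ^ m))
    have ha : a ≤ m - 1 := by
      by_contra hcon
      have ham' : a = m := by omega
      rw [ham'] at hga
      have h1 : p ^ m ∣ i := by rw [← hga]; exact Nat.gcd_dvd_left i (p ^ m)
      have := Nat.le_of_dvd hi0 h1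
      omega
    have hc2 : Commute w (xb ^ p ^ a) := by
      have h1 : xb ^ p ^ a = (xb ^ i) ^ (Nat.gcdA i (p ^ m)) := by
        have h2 : ((p ^ a : ℕ) : ℤ) = (i : ℤ) * Nat.gcdA i (p ^ m) + ((p ^ m : ℕ) : ℤ) * Nat.gcdB i (p ^ m) := by
          rw [← hga]; exact Nat.gcd_eq_gcd_ab i (p ^ m)
        rw [← zpow_natCast xb (p ^ a), h2, zpow_add, zpow_mul, zpow_mul, zpow_natCast, zpow_natCast,
          hxpm, one_zpow, mul_one]
      rw [h1]
      exact hc1.zpow_right _
    have hc3 : Commute w yb := by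
      have h1 : yb = (xb ^ p ^ a) ^ p ^ (m - 1 - a) := by
        rw [hyb, ← pow_mul, ← pow_add]; congr 2; omega
      rw [h1]
      exact hc2.pow_right _
    obtain ⟨u, rfl⟩ := hw
    have hwS : κ u ∈ S := hQ₁S ⟨u, rfl⟩
    have hstep : ∀ t : ℕ, yb ^ t * (u : G ⧸ P) * (yb ^ t)⁻¹ = κ u ^ t * (u : G ⧸ P) := by
      intro t
      induction t with
      | zero => simp
      | succ t ih =>
        have e1 : yb ^ (t + 1) * (u : G ⧸ P) * (yb ^ (t + 1))⁻¹
            = yb * (yb ^ t * (u : G ⧸ P) * (yb ^ t)⁻¹) * yb⁻¹ := by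
          rw [pow_succ']; group
        have e2 : yb * κ u ^ t = κ u ^ t * yb := ((hc3.pow_left t).eq).symm
        have e3 : yb * (u : G ⧸ P) * yb⁻¹ = κ u * (u : G ⧸ P) := by rw [hκ]; group
        rw [e1, ih]
        calc yb * (κ u ^ t * (u : G ⧸ P)) * yb⁻¹ = (yb * κ u ^ t) * (u : G ⧸ P) * yb⁻¹ := by group
          _ = κ u ^ t * (yb * (u : G ⧸ P) * yb⁻¹) := by rw [e2]; group
          _ = κ u ^ (t + 1) * (u : G ⧸ P) := by rw [e3, pow_succ]; group
    have hwp : κ u ^ p = 1 := by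
      have h1 := hstep p
      rw [hybp] at h1
      simpa using h1.symm
    obtain ⟨j, hj⟩ := hSq ⟨κ u, hwS⟩
    have hwq : κ u ^ q ^ j = 1 := by simpa using congrArg Subtype.val hj
    have h1 := pow_gcd_eq_one.2 ⟨hwp, hwq⟩
    have h2 : Nat.gcd p (q ^ j) = 1 :=
      Nat.Coprime.pow_right _ ((Nat.coprime_primes hp hq).2 (Ne.symm hqp))
    rw [h2, pow_one] at h1
    exact h1
  obtain ⟨x, rfl⟩ := QuotientGroup.mk_surjective xb
  obtain ⟨v, hv, hne⟩ := raise p P hP hC q hqp κ.range hQ₁q hQ₁1 x (p ^ m) (pow_pos hp.pos m)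
    hQ₁x hfpf
  have hpel : ∀ g : G, (g : G ⧸ P) = (x : G ⧸ P) → g ^ p ^ m = 1 := by
    intro g hg
    have h1 : g ^ p ^ m ∈ P := by
      rw [← QuotientGroup.eq_one_iff, QuotientGroup.mk_pow, hg]; exact hxpm
    obtain ⟨a, ha⟩ := hP ⟨_, h1⟩
    have h2 : g ^ p ^ (m + a) = 1 := by
      rw [pow_add, pow_mul]; simpa using congrArg Subtype.val ha
    have h3 := hexp g ⟨_, h2⟩
    obtain ⟨d, rfl⟩ := Nat.exists_eq_add_of_le hnm
    rw [pow_add, pow_mul, h3, one_pow]
  apply hne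
  rw [hpel x rfl, hpel (v * x) (by
    rw [QuotientGroup.mk_mul, (QuotientGroup.eq_one_iff v).2 hv, one_mul])]


theorem chain_comap {G : Type*} [Group G] (p : ℕ) (N : Subgroup G) [N.Normal] (k : ℕ)
    (h : S3790.Chain p (⊥ : Subgroup (G ⧸ N)) ⊤ k) : S3790.Chain p N ⊤ k := by
  obtain ⟨W, h0, he, hn, hm, hs⟩ := h
  refine ⟨fun n => (W n).comap (QuotientGroup.mk' N), ?_, ?_, ?_, ?_, ?_⟩
  · show (W 0).comap _ = N
    rw [h0, MonoidHom.comap_bot, QuotientGroup.ker_mk']
  · show (W (2 * k + 1)).comap _ = ⊤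
    rw [he, Subgroup.comap_top]
  · intro n; exact (hn n).comap _
  · intro n; exact Subgroup.comap_mono (hm n)
  · intro n x hx
    obtain ⟨e, he, hxe⟩ := hs n _ (Subgroup.mem_comap.1 hx)
    refine ⟨e, he, ?_⟩
    rw [Subgroup.mem_comap, map_pow]; exact hxe

theorem chain_pprime {G : Type*} [Group G] (p : ℕ) (U M : Subgroup G) (hUn : U.Normal)
    (hMn : M.Normal) (hUM : U ≤ M) (hs : S3790.IsStep (S3790.EP p) U M) :
    S3790.Chain p U M 0 := by
  refine ⟨fun n => if n = 0 then U else M, rfl, rfl, ?_, ?_, ?_⟩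
  · intro n
    show (if n = 0 then U else M).Normal
    split_ifs
    · exact hUn
    · exact hMn
  · intro n
    show (if n = 0 then U else M) ≤ (if n + 1 = 0 then U else M)
    rw [if_neg (Nat.succ_ne_zero n)]
    by_cases hn : n = 0
    · rw [if_pos hn]; exact hUM
    · rw [if_neg hn]
  · intro n
    show S3790.IsStep (S3790.stepSet p n) (if n = 0 then U else M) (if n + 1 = 0 then U else M)
    rw [if_neg (Nat.succ_ne_zero n)]
    by_cases hn : n = 0
    · rw [if_pos hn]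
      subst hn
      intro x hx
      obtain ⟨m, hm, hxm⟩ := hs x hx
      refine ⟨m, ?_, hxm⟩
      show m ∈ (if Even 0 then S3790.EP p else S3790.EQ p)
      rw [if_pos (by decide)]
      exact hm
    · rw [if_neg hn]
      exact S3790.isStep_refl _ (S3790.stepSet_one p n) M

theorem main (p : ℕ) [Fact p.Prime] : ∀ (N : ℕ) (G : Type u) [Group G] [Finite G],
    Nat.card G ≤ N → IsPSolvable p G →
    (∀ (q : ℕ) [Fact q.Prime], q ≠ p → ∀ Q : Sylow q G, IsMulCommutative (Q : Subgroup G)) →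
    ∀ n : ℕ, (∀ (P : Sylow p G), ∀ x ∈ (P : Subgroup G), x ^ p ^ n = 1) →
    S3790.Chain p (⊥ : Subgroup G) ⊤ n := by
  intro N
  induction N with
  | zero =>
    intro G _ _ hN
    have := Nat.card_pos (α := G)
    omega
  | succ N ih =>
    intro G _ _ hN hsep hab n hexp
    have hp : p.Prime := Fact.out
    have hquot : ∀ (M : Subgroup G) [M.Normal], M ≠ ⊥ → Nat.card (G ⧸ M) ≤ N := by
      intro M _ hM
      have h1 := Subgroup.card_eq_card_quotient_mul_card_subgroup M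
      have h2 := (Subgroup.one_lt_card_iff_ne_bot M).2 hM
      have h3 : 0 < Nat.card (G ⧸ M) := Nat.card_pos
      nlinarith
    have habq : ∀ (M : Subgroup G) [M.Normal], ∀ (q : ℕ) [Fact q.Prime], q ≠ p →
        ∀ Q : Sylow q (G ⧸ M), IsMulCommutative (Q : Subgroup (G ⧸ M)) := by
      intro M _ q _ hqp Qb
      obtain ⟨Q, rfl⟩ := Sylow.mapSurjective_surjective (QuotientGroup.mk'_surjective M) q Qb
      have hc := hab q hqp Q
      refine ⟨⟨fun a b => Subtype.ext ?_⟩⟩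
      have ha : (a : G ⧸ M) ∈ (Q : Subgroup G).map (QuotientGroup.mk' M) := by
        rw [← Sylow.coe_mapSurjective]; exact a.2
      have hb : (b : G ⧸ M) ∈ (Q : Subgroup G).map (QuotientGroup.mk' M) := by
        rw [← Sylow.coe_mapSurjective]; exact b.2
      obtain ⟨a', ha', hae⟩ := ha
      obtain ⟨b', hb', hbe⟩ := hb
      show (a : G ⧸ M) * (b : G ⧸ M) = (b : G ⧸ M) * (a : G ⧸ M)
      rw [← hae, ← hbe, ← map_mul, ← map_mul]
      congr 1
      exact congrArg Subtype.val (hc.is_comm.comm (⟨a', ha'⟩ : (Q : Subgroup G)) ⟨b', hb'⟩)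
    by_cases hK : pPrimeCore p G = ⊥
    · haveI hPn : (pCore p G).Normal := Cfsg.Agent.Lib.Helper40.pCore_normal' p
      have hPp : IsPGroup p (pCore p G) := Cfsg.Agent.Lib.Helper40.pCore_isPGroup' p
      have hC := Cfsg.Agent.Lib.Helper40.centralizer_pCore_le hsep hK
      by_cases hP : pCore p G = ⊥
      · rw [hP] at hC
        have htriv : ∀ g : G, g = 1 := by
          intro g
          have h1 : g ∈ Subgroup.centralizer ((⊥ : Subgroup G) : Set G) := by
            rw [Subgroup.mem_centralizer_iff]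
            intro h hh
            rw [SetLike.mem_coe, Subgroup.mem_bot] at hh
            rw [hh]; simp
          exact Subgroup.mem_bot.1 (hC h1)
        have hbt : (⊥ : Subgroup G) = ⊤ := by
          ext g; simp [htriv g]
        rw [hbt]
        exact ⟨fun _ => ⊤, rfl, rfl, fun _ => inferInstance, fun _ => le_rfl,
          fun k => S3790.isStep_refl _ (S3790.stepSet_one p k) ⊤⟩
      · have hn1 : 1 ≤ n := by
          by_contra h0
          have hn0 : n = 0 := by omega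
          subst hn0
          apply hP
          rw [eq_bot_iff]
          intro g hg
          obtain ⟨P₀, hP₀⟩ := hPp.exists_le_sylow
          have h1 := hexp P₀ g (hP₀ hg)
          simpa using h1
        have hcard : Nat.card (G ⧸ pCore p G) ≤ N := hquot _ hP
        have hexp' : ∀ g : G, (∃ k : ℕ, g ^ p ^ k = 1) → g ^ p ^ n = 1 := by
          rintro g ⟨k, hk⟩
          have hZ : IsPGroup p (Subgroup.zpowers g) := by
            rintro ⟨y, hy⟩
            obtain ⟨i, rfl⟩ := Subgroup.mem_zpowers_iff.1 hy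
            refine ⟨k, Subtype.ext ?_⟩
            show (g ^ i) ^ p ^ k = 1
            rw [← zpow_natCast, ← zpow_mul, mul_comm, zpow_mul, zpow_natCast, hk, one_zpow]
          obtain ⟨P₀, hP₀⟩ := hZ.exists_le_sylow
          exact hexp P₀ g (hP₀ (Subgroup.mem_zpowers g))
        have hH1 : pCore p (G ⧸ pCore p G) = ⊥ := pCore_quot_bot p
        have hHsep := Cfsg.Agent.Lib.Helper75.Fratt.isPSolvable_quotient (pCore p G) hsep
        have hdrop := exp_drop p (pCore p G) hPp hC hH1 hHsep hab n hexp'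
        have hch := ih (G ⧸ pCore p G) hcard hHsep (habq (pCore p G)) (n - 1) (by
          intro Pb x hx
          apply hdrop
          obtain ⟨k, hk⟩ := Pb.2 ⟨x, hx⟩
          exact ⟨k, by simpa using congrArg Subtype.val hk⟩)
        have h1 := chain_comap p (pCore p G) (n - 1) hch
        have h2 : S3790.Chain p (⊥ : Subgroup G) (pCore p G) 1 :=
          S3790.chain_of_pstep p ⊥ (pCore p G) inferInstance hPn bot_le (by
            intro x hx
            obtain ⟨k, hk⟩ := hPp ⟨x, hx⟩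
            exact ⟨p ^ k, ⟨k, rfl⟩, by
              rw [Subgroup.mem_bot]; simpa using congrArg Subtype.val hk⟩)
        have h3 := S3790.chain_concat p ⊥ (pCore p G) ⊤ 1 (n - 1) h2 h1
        have e : 1 + (n - 1) = n := by omega
        rw [e] at h3
        exact h3
    · haveI hKn : (pPrimeCore p G).Normal := Cfsg.Agent.Lib.Helper81.pPrimeCore_normal p
      have hKc : (Nat.card (pPrimeCore p G)).Coprime p :=
        Cfsg.Agent.Lib.Helper81.pPrimeCore_coprime p
      have hcard := hquot _ hK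
      have hch := ih (G ⧸ pPrimeCore p G) hcard
        (Cfsg.Agent.Lib.Helper75.Fratt.isPSolvable_quotient (pPrimeCore p G) hsep)
        (habq (pPrimeCore p G)) n (by
          intro Pb x hx
          obtain ⟨P₀, rfl⟩ := Sylow.mapSurjective_surjective
            (QuotientGroup.mk'_surjective (pPrimeCore p G)) p Pb
          rw [Sylow.coe_mapSurjective] at hx
          obtain ⟨x', hx', rfl⟩ := hx
          rw [← map_pow, hexp P₀ x' hx', map_one])
      have h1 := chain_comap p (pPrimeCore p G) n hch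
      have h2 : S3790.Chain p (⊥ : Subgroup G) (pPrimeCore p G) 0 :=
        chain_pprime p ⊥ _ inferInstance hKn bot_le (by
          intro x hx
          refine ⟨Nat.card (pPrimeCore p G), hKc, ?_⟩
          rw [Subgroup.mem_bot]
          have h4 := pow_card_eq_one' (G := pPrimeCore p G) (x := ⟨x, hx⟩)
          have h5 : x ^ Nat.card (pPrimeCore p G)
              = ((⟨x, hx⟩ : pPrimeCore p G) ^ Nat.card (pPrimeCore p G) : pPrimeCore p G) := rfl
          rw [h5, h4]; rfl)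
      have h3 := S3790.chain_concat p ⊥ _ ⊤ 0 n h2 h1
      rw [zero_add] at h3
      exact h3

/-- Let G be a finite p-soluble group in which, for every prime q ≠ p, the Sylow q-subgroups are abelian. If the Sylow p-subgroups of G have exponent dividing p^n, then G has p-length at most n. -/
theorem result {G : Type*} [Group G] [Finite G] {p : ℕ} [Fact p.Prime] (hG : Cfsg.IsPSolvable p G) (hab : ∀ (q : ℕ) [Fact q.Prime], q ≠ p → ∀ Q : Sylow q G, IsMulCommutative (Q : Subgroup G)) (n : ℕ) (hexp : ∀ (P : Sylow p G), ∀ x ∈ (P : Subgroup G), x ^ p ^ n = 1) : Cfsg.PLengthLE p n G :=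
  S3790.plength_of_chain p Fact.out n (main p _ G le_rfl hG hab n hexp)

end Cfsg.Agent.S3783
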