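import Cfsg.Statements.S4510
import Cfsg.Agent.Lib.Helper22.Defect
import Cfsg.Agent.Lib.Helper22.IndBlock

set_option autoImplicit false
open Cfsg

namespace Cfsg.Agent.S4510

open Cfsg.Agent.Lib.Helper4 Cfsg.Agent.Lib.Helper21 Cfsg.Agent.Lib.Helper22

/-- `ν_p |G| = ν_p [G : C] + ν_p |C|`. -/
theorem fac_split {G : Type*} [Group G] [Finite G] (p : ℕ) (C : Subgroup G) :
    (Nat.card G).factorization p = C.index.factorization p + (Nat.card C).factorization p := by
  have hidx0 : C.index ≠ 0 := Subgroup.index_ne_zero_of_finite
  have hC0 : Nat.card C ≠ 0 := Nat.card_pos.ne'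
  rw [← Subgroup.index_mul_card C, Nat.factorization_mul hidx0 hC0]
  rfl

/-- If the central character of `χ` at `g` is a local unit, the class of `g` has defect at
least the defect of the block of `χ`. -/
theorem defect_le_of_unit {G : Type*} [Group G] [Fintype G] {p : ℕ} {M : Ideal AlgInt}
    (hM : IsPModular p M) (χ : IrrCharacter G) (g : G)
    (hu : ¬ MemLocalIdeal M (centralChar (χ : G → ℂ) g)) :
    blockDefect p (blockOf M (χ : G → ℂ)) ≤
      (Nat.card (Subgroup.centralizer ({g} : Set G))).factorization p := by
  set C := Subgroup.centralizer ({g} : Set G) with hC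
  have hfac := fac_split p C
  set S : Set ℕ := (fun χ' : IrrCharacter G => (charDegree (χ' : G → ℂ)).factorization p) ''
    (blockOf M (χ : G → ℂ)) with hS
  have hχB : χ ∈ blockOf M (χ : G → ℂ) := Cfsg.Agent.S0952.sameBlock_refl hM _
  have hSne : S.Nonempty := ⟨_, ⟨χ, hχB, rfl⟩⟩
  have hlow : ∀ s ∈ S, C.index.factorization p ≤ s := by
    rintro s ⟨χ', hχ', rfl⟩
    refine index_factorization_le_of_centralChar_unit hM χ' g ?_
    intro h'
    apply hu
    have h1 : MemLocalIdeal M (centralChar (χ : G → ℂ) g - centralChar (χ' : G → ℂ) g) := hχ' g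
    have h2 := locIdeal_add hM h1 h'
    rwa [sub_add_cancel] at h2
  have h1 : C.index.factorization p ≤ sInf S := le_csInf hSne hlow
  unfold blockDefect
  rw [← hS]
  omega

/-- If the block idempotent coefficient at `g` is a local unit, the class of `g` has defect at
most the defect of the block. -/
theorem defect_ge_of_unit {G : Type*} [Group G] [Fintype G] {p : ℕ} {M : Ideal AlgInt}
    (hM : IsPModular p M) (B : Set (IrrCharacter G)) (hB : IsPBlock M B) (g : G)
    (ha : ¬ MemLocalIdeal M (blockCoeff B g)) :
    (Nat.card (Subgroup.centralizer ({g} : Set G))).factorization p ≤ blockDefect p B := by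
  have hfac := fac_split p (Subgroup.centralizer ({g} : Set G))
  obtain ⟨χ₁, hχ₁, hle⟩ := exists_factorization_le_of_blockCoeff_unit hM B hB g ha
  set S : Set ℕ := (fun χ' : IrrCharacter G => (charDegree (χ' : G → ℂ)).factorization p) '' B
    with hS
  have h1 : sInf S ≤ (charDegree (χ₁ : G → ℂ)).factorization p := Nat.sInf_le ⟨χ₁, hχ₁, rfl⟩
  unfold blockDefect
  rw [← hS]
  omega

/-- Let G be a finite group, p a prime, M a maximal ideal of the algebraic integers containing p, and call the defect of a conjugacy class the exponent of p in the order of the centralizer of its elements. Two irreducible characters lying in p-blocks of defect exactly d lie in the same block if and only if their central characters (class size times χ(x)/χ(1)) agree modulo the local ideal at M at every p-regular element x whose class has defect exactly d. -/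
theorem result {G : Type*} [Group G] [Finite G] (p : ℕ) [Fact p.Prime] (M : Ideal Cfsg.AlgInt) (hM : Cfsg.IsPModular p M) (d : ℕ) (χ ψ : Cfsg.IrrCharacter G) (hχ : Cfsg.blockDefect p (Cfsg.blockOf M (χ : G → ℂ)) = d) (hψ : Cfsg.blockDefect p (Cfsg.blockOf M (ψ : G → ℂ)) = d) : Cfsg.SameBlock M (χ : G → ℂ) (ψ : G → ℂ) ↔ ∀ x : G, ¬ p ∣ orderOf x → (Nat.card (Subgroup.centralizer ({x} : Set G))).factorization p = d → Cfsg.MemLocalIdeal M (Cfsg.centralChar (χ : G → ℂ) x - Cfsg.centralChar (ψ : G → ℂ) x) := by
  classical
  let _ : Fintype G := Fintype.ofFinite G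
  constructor
  · intro h x _ _
    exact h x
  · intro h
    by_contra hne
    set B := blockOf M (χ : G → ℂ) with hBdef
    have hB : IsPBlock M B := ⟨χ, rfl⟩
    have hχB : χ ∈ B := Cfsg.Agent.S0952.sameBlock_refl hM _
    have hψB : ψ ∉ B := hne
    have h1 : omega (χ : G → ℂ) (blockCoeff B) = 1 := by rw [omega_blockCoeff, if_pos hχB]
    have h0 : omega (ψ : G → ℂ) (blockCoeff B) = 0 := by rw [omega_blockCoeff, if_neg hψB]
    have hdiff : MemLocalIdeal M
        (omega (χ : G → ℂ) (blockCoeff B) - omega (ψ : G → ℂ) (blockCoeff B)) := by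
      rw [omega_eq_sum_classes _ _ (isClassFunction_irr χ) (blockCoeff_isClassFunction B),
        omega_eq_sum_classes _ _ (isClassFunction_irr ψ) (blockCoeff_isClassFunction B),
        ← Finset.sum_sub_distrib]
      refine locIdeal_sum hM _ _ fun c _ => ?_
      rw [← mul_sub]
      generalize Quotient.out c = g
      by_cases ha : MemLocalIdeal M (blockCoeff B g)
      · exact locIdeal_mul_right hM ha
          (locRing_sub hM (centralChar_locRing hM χ g) (centralChar_locRing hM ψ g))
      · refine locIdeal_mul_left hM (osima hM B hB g) ?_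
        have hreg : ¬ p ∣ orderOf g :=
          pRegular_of_blockCoeff_ne_zero hM B hB g (fun h0 => ha (h0 ▸ locIdeal_zero hM))
        have hle := defect_ge_of_unit hM B hB g ha
        by_cases hd : (Nat.card (Subgroup.centralizer ({g} : Set G))).factorization p = d
        · exact h g hreg hd
        · have hχ0 : MemLocalIdeal M (centralChar (χ : G → ℂ) g) := by
            by_contra hu
            have := defect_le_of_unit hM χ g hu
            rw [← hBdef] at this
            omega
          have hψ0 : MemLocalIdeal M (centralChar (ψ : G → ℂ) g) := by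
            by_contra hu
            have := defect_le_of_unit hM ψ g hu
            omega
          exact locIdeal_sub hM hχ0 hψ0
    rw [h1, h0, sub_zero] at hdiff
    exact locIdeal_one_not hM hdiff

end Cfsg.Agent.S4510
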