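import Mathlib
import Cfsg.Statements.S2433

set_option autoImplicit false
open Cfsg

namespace Cfsg.Agent.S2433

open Matrix

/-- the Borel subgroup of `SL₂` -/
abbrev Bor (F : Type*) [Field F] : Subgroup (Matrix.SpecialLinearGroup (Fin 2) F) :=
  (Cfsg.upperTriangularGL 2 F).comap Matrix.SpecialLinearGroup.toGL

/-- the linear character of the Borel subgroup attached to a multiplicative character -/
noncomputable abbrev theta {F : Type*} [Field F] (α : MulChar F ℂ) : Bor F → ℂ :=
  fun b => α (((b : Matrix.SpecialLinearGroup (Fin 2) F) : Matrix (Fin 2) (Fin 2) F) 0 0)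

lemma mem_bor_iff {F : Type*} [Field F] (g : Matrix.SpecialLinearGroup (Fin 2) F) :
    g ∈ Bor F ↔ (g : Matrix (Fin 2) (Fin 2) F) 1 0 = 0 := by
  rw [Subgroup.mem_comap]
  change ((Matrix.SpecialLinearGroup.toGL g : GL (Fin 2) F) : Matrix (Fin 2) (Fin 2) F).BlockTriangular id ↔ _
  rw [Matrix.SpecialLinearGroup.coe_GL_coe_matrix]
  constructor
  · intro h
    exact h (by decide : (id (0 : Fin 2)) < id 1)
  · intro h i j hij
    fin_cases i <;> fin_cases j <;> simp_all

lemma det_eq {F : Type*} [Field F] (A : Matrix.SpecialLinearGroup (Fin 2) F) :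
    (A : Matrix (Fin 2) (Fin 2) F) 0 0 * (A : Matrix (Fin 2) (Fin 2) F) 1 1
      - (A : Matrix (Fin 2) (Fin 2) F) 0 1 * (A : Matrix (Fin 2) (Fin 2) F) 1 0 = 1 := by
  have := A.det_coe
  rwa [Matrix.det_fin_two] at this

lemma ext_theta {F : Type*} [Field F] (α : MulChar F ℂ) (y : Matrix.SpecialLinearGroup (Fin 2) F)
    [Decidable ((y : Matrix (Fin 2) (Fin 2) F) 1 0 = 0)] :
    Cfsg.extendByZero (Bor F) (theta α) y =
      if (y : Matrix (Fin 2) (Fin 2) F) 1 0 = 0 then α ((y : Matrix (Fin 2) (Fin 2) F) 0 0) else 0 := by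
  unfold Cfsg.extendByZero
  by_cases h : (y : Matrix (Fin 2) (Fin 2) F) 1 0 = 0
  · rw [if_pos h]
    have hy : y ∈ Bor F := (mem_bor_iff y).mpr h
    have e : y = ((⟨y, hy⟩ : Bor F) : Matrix.SpecialLinearGroup (Fin 2) F) := rfl
    conv_lhs => rw [e]
    rw [Subtype.val_injective.extend_apply]
  · rw [if_neg h]
    rw [Function.extend_apply']
    · rfl
    · rintro ⟨b, hb⟩
      apply h
      rw [← hb]
      exact (mem_bor_iff b.1).mp b.2

lemma inv_conj_10 {F : Type*} [Field F] (x g : Matrix.SpecialLinearGroup (Fin 2) F) :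
    ((x⁻¹ * g * x : Matrix.SpecialLinearGroup (Fin 2) F) : Matrix (Fin 2) (Fin 2) F) 1 0 =
      (-(x : Matrix (Fin 2) (Fin 2) F) 1 0 * (g : Matrix (Fin 2) (Fin 2) F) 0 0 + (x : Matrix (Fin 2) (Fin 2) F) 0 0 * (g : Matrix (Fin 2) (Fin 2) F) 1 0) * (x : Matrix (Fin 2) (Fin 2) F) 0 0
      + (-(x : Matrix (Fin 2) (Fin 2) F) 1 0 * (g : Matrix (Fin 2) (Fin 2) F) 0 1 + (x : Matrix (Fin 2) (Fin 2) F) 0 0 * (g : Matrix (Fin 2) (Fin 2) F) 1 1) * (x : Matrix (Fin 2) (Fin 2) F) 1 0 := by
  simp only [Matrix.SpecialLinearGroup.coe_mul, Matrix.SpecialLinearGroup.coe_inv,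
          Matrix.adjugate_fin_two, Matrix.mul_apply, Fin.sum_univ_two]
  simp

lemma inv_conj_00 {F : Type*} [Field F] (x g : Matrix.SpecialLinearGroup (Fin 2) F) :
    ((x⁻¹ * g * x : Matrix.SpecialLinearGroup (Fin 2) F) : Matrix (Fin 2) (Fin 2) F) 0 0 =
      ((x : Matrix (Fin 2) (Fin 2) F) 1 1 * (g : Matrix (Fin 2) (Fin 2) F) 0 0 - (x : Matrix (Fin 2) (Fin 2) F) 0 1 * (g : Matrix (Fin 2) (Fin 2) F) 1 0) * (x : Matrix (Fin 2) (Fin 2) F) 0 0
      + ((x : Matrix (Fin 2) (Fin 2) F) 1 1 * (g : Matrix (Fin 2) (Fin 2) F) 0 1 - (x : Matrix (Fin 2) (Fin 2) F) 0 1 * (g : Matrix (Fin 2) (Fin 2) F) 1 1) * (x : Matrix (Fin 2) (Fin 2) F) 1 0 := by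
  simp only [Matrix.SpecialLinearGroup.coe_mul, Matrix.SpecialLinearGroup.coe_inv,
          Matrix.adjugate_fin_two, Matrix.mul_apply, Fin.sum_univ_two]
  simp
  ring

lemma ind_eq {F : Type*} [Field F] [Fintype F] [DecidableEq F] (α : MulChar F ℂ)
    (g : Matrix.SpecialLinearGroup (Fin 2) F) :
    Cfsg.indFun (Bor F) (theta α) g = (Nat.card (Bor F) : ℂ)⁻¹ *
      ∑ x : Matrix.SpecialLinearGroup (Fin 2) F,
        if ((x⁻¹ * g * x : Matrix.SpecialLinearGroup (Fin 2) F) : Matrix (Fin 2) (Fin 2) F) 1 0 = 0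
        then α (((x⁻¹ * g * x : Matrix.SpecialLinearGroup (Fin 2) F) : Matrix (Fin 2) (Fin 2) F) 0 0) else 0 := by
  unfold Cfsg.indFun
  congr 1
  apply Finset.sum_congr rfl
  intro x _
  exact ext_theta α _

/-- upper triangular element with given diagonal unit and corner entry -/
def mkB {F : Type*} [Field F] (a : Fˣ) (b : F) : Matrix.SpecialLinearGroup (Fin 2) F :=
  ⟨!![(a : F), b; 0, (a : F)⁻¹], by simp [Matrix.det_fin_two]⟩

lemma mkB_coe {F : Type*} [Field F] (a : Fˣ) (b : F) :
    ((mkB a b : Matrix.SpecialLinearGroup (Fin 2) F) : Matrix (Fin 2) (Fin 2) F) = !![(a : F), b; 0, (a : F)⁻¹] := rfl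

/-- element with nonzero lower-left entry -/
def mkC {F : Type*} [Field F] (c : Fˣ) (a d : F) : Matrix.SpecialLinearGroup (Fin 2) F :=
  ⟨!![a, (a * d - 1) / (c : F); (c : F), d], by
    rw [Matrix.det_fin_two]
    simp⟩

lemma mkC_coe {F : Type*} [Field F] (c : Fˣ) (a d : F) :
    ((mkC c a d : Matrix.SpecialLinearGroup (Fin 2) F) : Matrix (Fin 2) (Fin 2) F) = !![a, (a * d - 1) / (c : F); (c : F), d] := rfl

/-- a parametrisation of `SL₂` -/
noncomputable def slEquiv (F : Type*) [Field F] [DecidableEq F] :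
    (Fˣ × F × F) ⊕ (Fˣ × F) ≃ Matrix.SpecialLinearGroup (Fin 2) F :=
  Equiv.ofBijective (fun p => Sum.elim (fun t => mkC t.1 t.2.1 t.2.2) (fun t => mkB t.1 t.2) p) (by
    constructor
    · intro p p' h
      have h' := congrArg (fun z : Matrix.SpecialLinearGroup (Fin 2) F => (z : Matrix (Fin 2) (Fin 2) F)) h
      simp only at h'
      rcases p with ⟨c, a, d⟩ | ⟨a, b⟩ <;> rcases p' with ⟨c', a', d'⟩ | ⟨a', b'⟩
      · simp only [Sum.elim_inl, mkC_coe] at h'
        have e1 := congrFun (congrFun h' 1) 0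
        have e2 := congrFun (congrFun h' 0) 0
        have e3 := congrFun (congrFun h' 1) 1
        simp at e1 e2 e3
        rw [Units.ext e1, e2, e3]
      · simp only [Sum.elim_inl, Sum.elim_inr, mkC_coe, mkB_coe] at h'
        have e1 := congrFun (congrFun h' 1) 0
        simp at e1
      · simp only [Sum.elim_inl, Sum.elim_inr, mkC_coe, mkB_coe] at h'
        have e1 := congrFun (congrFun h' 1) 0
        simp at e1
        exact absurd e1.symm (Units.ne_zero _)
      · simp only [Sum.elim_inr, mkB_coe] at h'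
        have e1 := congrFun (congrFun h' 0) 0
        have e2 := congrFun (congrFun h' 0) 1
        simp at e1 e2
        rw [Units.ext e1, e2]
    · intro x
      have hdet := det_eq x
      by_cases h10 : (x : Matrix (Fin 2) (Fin 2) F) 1 0 = 0
      · rw [h10, mul_zero, sub_zero] at hdet
        refine ⟨Sum.inr (Units.mk0 _ (left_ne_zero_of_mul_eq_one hdet), (x : Matrix (Fin 2) (Fin 2) F) 0 1), ?_⟩
        apply Subtype.ext
        simp only [Sum.elim_inr, mkB_coe]
        ext i j
        fin_cases i <;> fin_cases j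
        · simp
        · simp
        · simp [h10]
        · simp
          exact (eq_inv_of_mul_eq_one_right hdet).symm
      · refine ⟨Sum.inl (Units.mk0 _ h10, (x : Matrix (Fin 2) (Fin 2) F) 0 0, (x : Matrix (Fin 2) (Fin 2) F) 1 1), ?_⟩
        apply Subtype.ext
        simp only [Sum.elim_inl, mkC_coe]
        ext i j
        fin_cases i <;> fin_cases j
        · simp
        · simp
          field_simp
          linear_combination hdet
        · simp
        · simp)

lemma card_SL {F : Type*} [Field F] [Fintype F] [DecidableEq F] :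
    Fintype.card (Matrix.SpecialLinearGroup (Fin 2) F) =
      (Fintype.card F - 1) * Fintype.card F * (Fintype.card F + 1) := by
  rw [← Fintype.card_congr (slEquiv F), Fintype.card_sum, Fintype.card_prod, Fintype.card_prod,
    Fintype.card_prod, Fintype.card_units]
  ring

/-- the Borel subgroup is in bijection with `Fˣ × F` -/
noncomputable def borEquiv (F : Type*) [Field F] [DecidableEq F] : Fˣ × F ≃ Bor F :=
  Equiv.ofBijective (fun p => ⟨mkB p.1 p.2, (mem_bor_iff _).mpr (by simp [mkB_coe])⟩) (by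
    constructor
    · intro p p' h
      have h' := congrArg (fun z : Bor F => ((z : Matrix.SpecialLinearGroup (Fin 2) F) : Matrix (Fin 2) (Fin 2) F)) h
      simp only [mkB_coe] at h'
      have e1 := congrFun (congrFun h' 0) 0
      have e2 := congrFun (congrFun h' 0) 1
      simp at e1 e2
      exact Prod.ext (Units.ext e1) e2
    · rintro ⟨x, hx⟩
      have h10 := (mem_bor_iff x).mp hx
      have hdet := det_eq x
      rw [h10, mul_zero, sub_zero] at hdet
      refine ⟨(Units.mk0 _ (left_ne_zero_of_mul_eq_one hdet), (x : Matrix (Fin 2) (Fin 2) F) 0 1), ?_⟩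
      apply Subtype.ext
      apply Subtype.ext
      simp only [mkB_coe]
      ext i j
      fin_cases i <;> fin_cases j
      · simp
      · simp
      · simp [h10]
      · simp
        exact (eq_inv_of_mul_eq_one_right hdet).symm)

lemma card_Bor {F : Type*} [Field F] [Fintype F] [DecidableEq F] :
    Nat.card (Bor F) = (Fintype.card F - 1) * Fintype.card F := by
  rw [← Nat.card_congr (borEquiv F), Nat.card_eq_fintype_card, Fintype.card_prod, Fintype.card_units]

lemma card_Bor_ne_zero {F : Type*} [Field F] [Fintype F] [DecidableEq F] :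
    (Nat.card (Bor F) : ℂ) ≠ 0 := by
  rw [card_Bor]
  have hq : 2 ≤ Fintype.card F := Fintype.one_lt_card
  have : 0 < (Fintype.card F - 1) * Fintype.card F := Nat.mul_pos (by omega) (by omega)
  exact_mod_cast this.ne'

/-- Weyl element -/
def weyl {F : Type*} [Field F] : Matrix.SpecialLinearGroup (Fin 2) F :=
  ⟨!![0, 1; -1, 0], by simp [Matrix.det_fin_two]⟩

lemma weyl_coe {F : Type*} [Field F] :
    ((weyl : Matrix.SpecialLinearGroup (Fin 2) F) : Matrix (Fin 2) (Fin 2) F) = !![0, 1; -1, 0] := rfl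

lemma count10 {F : Type*} [Field F] [Fintype F] [DecidableEq F] :
    (Finset.univ.filter (fun x : Matrix.SpecialLinearGroup (Fin 2) F => (x : Matrix (Fin 2) (Fin 2) F) 1 0 = 0)).card
      = Nat.card (Bor F) := by
  rw [← Fintype.card_subtype, ← Nat.card_eq_fintype_card]
  apply Nat.card_congr
  exact Equiv.subtypeEquivRight (fun x => (mem_bor_iff x).symm)

lemma count00 {F : Type*} [Field F] [Fintype F] [DecidableEq F] :
    (Finset.univ.filter (fun x : Matrix.SpecialLinearGroup (Fin 2) F => (x : Matrix (Fin 2) (Fin 2) F) 0 0 = 0)).card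
      = Nat.card (Bor F) := by
  rw [← count10, ← Fintype.card_subtype, ← Fintype.card_subtype]
  apply Fintype.card_congr
  refine (Equiv.mulLeft (weyl : Matrix.SpecialLinearGroup (Fin 2) F)).subtypeEquiv ?_
  intro x
  simp only [Equiv.coe_mulLeft, Matrix.SpecialLinearGroup.coe_mul, weyl_coe, Matrix.mul_apply, Fin.sum_univ_two]
  simp

theorem result {F : Type*} [Field F] [Fintype F] [DecidableEq F] (hodd : Odd (Fintype.card F)) (α : MulChar F ℂ) (g : Matrix.SpecialLinearGroup (Fin 2) F) :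
    ((g : Matrix (Fin 2) (Fin 2) F) 0 1 = 0 → (g : Matrix (Fin 2) (Fin 2) F) 1 0 = 0 → (g : Matrix (Fin 2) (Fin 2) F) 0 0 ^ 2 ≠ 1 →
      (Cfsg.indFun ((Cfsg.upperTriangularGL 2 F).comap Matrix.SpecialLinearGroup.toGL) (fun b => α (((b : Matrix.SpecialLinearGroup (Fin 2) F) : Matrix (Fin 2) (Fin 2) F) 0 0))) g = α ((g : Matrix (Fin 2) (Fin 2) F) 0 0) + α ((g : Matrix (Fin 2) (Fin 2) F) 1 1)) ∧
    ((∀ (c : F) (v : Fin 2 → F), v ≠ 0 → (g : Matrix (Fin 2) (Fin 2) F).mulVec v ≠ c • v) → (Cfsg.indFun ((Cfsg.upperTriangularGL 2 F).comap Matrix.SpecialLinearGroup.toGL) (fun b => α (((b : Matrix.SpecialLinearGroup (Fin 2) F) : Matrix (Fin 2) (Fin 2) F) 0 0))) g = 0) ∧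
    ((g : Matrix (Fin 2) (Fin 2) F) 1 0 = 0 → (g : Matrix (Fin 2) (Fin 2) F) 0 0 = (g : Matrix (Fin 2) (Fin 2) F) 1 1 → (g : Matrix (Fin 2) (Fin 2) F) 0 1 ≠ 0 →
      (Cfsg.indFun ((Cfsg.upperTriangularGL 2 F).comap Matrix.SpecialLinearGroup.toGL) (fun b => α (((b : Matrix.SpecialLinearGroup (Fin 2) F) : Matrix (Fin 2) (Fin 2) F) 0 0))) g = α ((g : Matrix (Fin 2) (Fin 2) F) 0 0)) ∧
    ((g : Matrix (Fin 2) (Fin 2) F) 0 1 = 0 → (g : Matrix (Fin 2) (Fin 2) F) 1 0 = 0 → (g : Matrix (Fin 2) (Fin 2) F) 0 0 = (g : Matrix (Fin 2) (Fin 2) F) 1 1 →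
      (Cfsg.indFun ((Cfsg.upperTriangularGL 2 F).comap Matrix.SpecialLinearGroup.toGL) (fun b => α (((b : Matrix.SpecialLinearGroup (Fin 2) F) : Matrix (Fin 2) (Fin 2) F) 0 0))) g = ((Fintype.card F : ℂ) + 1) * α ((g : Matrix (Fin 2) (Fin 2) F) 0 0)) := by
  have hI := ind_eq α g
  have hBne := card_Bor_ne_zero (F := F)
  have hdet := det_eq g
  refine ⟨?_, ?_, ?_, ?_⟩
  · intro h01 h10 ha
    rw [h01, zero_mul, sub_zero] at hdet
    have hne : (g : Matrix (Fin 2) (Fin 2) F) 1 1 - (g : Matrix (Fin 2) (Fin 2) F) 0 0 ≠ 0 := by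
      intro h
      apply ha
      have : (g : Matrix (Fin 2) (Fin 2) F) 1 1 = (g : Matrix (Fin 2) (Fin 2) F) 0 0 := by linear_combination h
      rw [pow_two]
      nth_rewrite 2 [← this]
      exact hdet
    have key : ∀ x : Matrix.SpecialLinearGroup (Fin 2) F,
        (if ((x⁻¹ * g * x : Matrix.SpecialLinearGroup (Fin 2) F) : Matrix (Fin 2) (Fin 2) F) 1 0 = 0
        then α (((x⁻¹ * g * x : Matrix.SpecialLinearGroup (Fin 2) F) : Matrix (Fin 2) (Fin 2) F) 0 0) else 0) =
        (if (x : Matrix (Fin 2) (Fin 2) F) 1 0 = 0 then α ((g : Matrix (Fin 2) (Fin 2) F) 0 0) else 0) +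
        (if (x : Matrix (Fin 2) (Fin 2) F) 0 0 = 0 then α ((g : Matrix (Fin 2) (Fin 2) F) 1 1) else 0) := by
      intro x
      have hx := det_eq x
      rw [inv_conj_10, inv_conj_00, h01, h10]
      by_cases hx10 : (x : Matrix (Fin 2) (Fin 2) F) 1 0 = 0
      · rw [hx10, mul_zero, sub_zero] at hx
        have hx00 : (x : Matrix (Fin 2) (Fin 2) F) 0 0 ≠ 0 := left_ne_zero_of_mul_eq_one hx
        simp only [hx10, hx00, if_true, if_false, add_zero]
        rw [if_pos (by ring)]
        congr 1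
        linear_combination (g : Matrix (Fin 2) (Fin 2) F) 0 0 * hx
      · by_cases hx00 : (x : Matrix (Fin 2) (Fin 2) F) 0 0 = 0
        · rw [hx00, zero_mul, zero_sub] at hx
          simp only [hx10, hx00, if_true, if_false, zero_add]
          rw [if_pos (by ring)]
          congr 1
          linear_combination (g : Matrix (Fin 2) (Fin 2) F) 1 1 * hx
        · simp only [hx10, hx00, if_false, add_zero]
          rw [if_neg]
          intro h
          have : (x : Matrix (Fin 2) (Fin 2) F) 0 0 * (x : Matrix (Fin 2) (Fin 2) F) 1 0 *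
              ((g : Matrix (Fin 2) (Fin 2) F) 1 1 - (g : Matrix (Fin 2) (Fin 2) F) 0 0) = 0 := by
            linear_combination h
          rcases mul_eq_zero.mp this with h' | h'
          · rcases mul_eq_zero.mp h' with h'' | h''
            · exact hx00 h''
            · exact hx10 h''
          · exact hne h'
    rw [hI]
    simp only [key]
    rw [Finset.sum_add_distrib, Finset.sum_ite, Finset.sum_ite]
    simp only [Finset.sum_const, Finset.sum_const_zero, add_zero, nsmul_eq_mul]
    rw [count10, count00]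
    field_simp
    ring
  · intro hne
    rw [hI]
    have key : ∀ x : Matrix.SpecialLinearGroup (Fin 2) F,
        (if ((x⁻¹ * g * x : Matrix.SpecialLinearGroup (Fin 2) F) : Matrix (Fin 2) (Fin 2) F) 1 0 = 0
        then α (((x⁻¹ * g * x : Matrix.SpecialLinearGroup (Fin 2) F) : Matrix (Fin 2) (Fin 2) F) 0 0) else 0) = 0 := by
      intro x
      rw [if_neg]
      intro h
      set y := x⁻¹ * g * x with hy
      have hgx : (g : Matrix (Fin 2) (Fin 2) F) * (x : Matrix (Fin 2) (Fin 2) F)
          = (x : Matrix (Fin 2) (Fin 2) F) * (y : Matrix (Fin 2) (Fin 2) F) := by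
        rw [← Matrix.SpecialLinearGroup.coe_mul, ← Matrix.SpecialLinearGroup.coe_mul, hy,
          mul_assoc x⁻¹ g x, mul_inv_cancel_left]
      apply hne ((y : Matrix (Fin 2) (Fin 2) F) 0 0) (fun i => (x : Matrix (Fin 2) (Fin 2) F) i 0)
      · intro hv
        have h0 := congrFun hv 0
        have h1 := congrFun hv 1
        simp only [Pi.zero_apply] at h0 h1
        have hx := det_eq x
        rw [h0, h1] at hx
        simp at hx
      · funext i
        have e := congrFun (congrFun hgx i) 0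
        simp only [Matrix.mul_apply, Fin.sum_univ_two, h, mul_zero, add_zero] at e
        simp only [Matrix.mulVec, dotProduct, Fin.sum_univ_two, Pi.smul_apply, smul_eq_mul]
        rw [e]
        ring
    simp only [key]
    simp
  · intro h10 hd h01
    rw [h10, mul_zero, sub_zero, ← hd] at hdet
    have key : ∀ x : Matrix.SpecialLinearGroup (Fin 2) F,
        (if ((x⁻¹ * g * x : Matrix.SpecialLinearGroup (Fin 2) F) : Matrix (Fin 2) (Fin 2) F) 1 0 = 0
        then α (((x⁻¹ * g * x : Matrix.SpecialLinearGroup (Fin 2) F) : Matrix (Fin 2) (Fin 2) F) 0 0) else 0) =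
        (if (x : Matrix (Fin 2) (Fin 2) F) 1 0 = 0 then α ((g : Matrix (Fin 2) (Fin 2) F) 0 0) else 0) := by
      intro x
      have hx := det_eq x
      rw [inv_conj_10, inv_conj_00, h10, ← hd]
      by_cases hx10 : (x : Matrix (Fin 2) (Fin 2) F) 1 0 = 0
      · rw [hx10, mul_zero, sub_zero] at hx
        simp only [hx10, if_true]
        rw [if_pos (by ring)]
        congr 1
        linear_combination (g : Matrix (Fin 2) (Fin 2) F) 0 0 * hx
      · simp only [hx10, if_false]
        rw [if_neg]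
        intro h
        have : (x : Matrix (Fin 2) (Fin 2) F) 1 0 * (x : Matrix (Fin 2) (Fin 2) F) 1 0 *
            (g : Matrix (Fin 2) (Fin 2) F) 0 1 = 0 := by
          linear_combination -h
        rcases mul_eq_zero.mp this with h' | h'
        · rcases mul_eq_zero.mp h' with h'' | h''
          · exact hx10 h''
          · exact hx10 h''
        · exact h01 h'
    rw [hI]
    simp only [key]
    rw [Finset.sum_ite]
    simp only [Finset.sum_const, Finset.sum_const_zero, add_zero, nsmul_eq_mul]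
    rw [count10]
    field_simp
    ring
  · intro h01 h10 hd
    rw [h01, zero_mul, sub_zero, ← hd] at hdet
    have key : ∀ x : Matrix.SpecialLinearGroup (Fin 2) F,
        (if ((x⁻¹ * g * x : Matrix.SpecialLinearGroup (Fin 2) F) : Matrix (Fin 2) (Fin 2) F) 1 0 = 0
        then α (((x⁻¹ * g * x : Matrix.SpecialLinearGroup (Fin 2) F) : Matrix (Fin 2) (Fin 2) F) 0 0) else 0) =
        α ((g : Matrix (Fin 2) (Fin 2) F) 0 0) := by
      intro x
      have hx := det_eq x
      rw [inv_conj_10, inv_conj_00, h10, h01, ← hd]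
      rw [if_pos (by ring)]
      congr 1
      linear_combination (g : Matrix (Fin 2) (Fin 2) F) 0 0 * hx
    rw [hI]
    simp only [key]
    rw [Finset.sum_const, Finset.card_univ, card_SL, card_Bor, nsmul_eq_mul]
    have hq : 2 ≤ Fintype.card F := Fintype.one_lt_card
    have h1 : ((Fintype.card F - 1 : ℕ) : ℂ) ≠ 0 := by
      have : 0 < Fintype.card F - 1 := by omega
      exact_mod_cast this.ne'
    have h2 : ((Fintype.card F : ℕ) : ℂ) ≠ 0 := by
      have : 0 < Fintype.card F := by omega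
      exact_mod_cast this.ne'
    push_cast
    field_simp

end Cfsg.Agent.S2433
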