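import Mathlib
import Cfsg.Statements.S2432
import Cfsg.Agent.S2433

set_option autoImplicit false
open Cfsg

namespace Cfsg.Agent.S2432

open Matrix
open Cfsg.Agent.S2433 (Bor theta mkB mkB_coe mkC mkC_coe slEquiv borEquiv card_Bor card_Bor_ne_zero det_eq ext_theta mem_bor_iff)

open scoped ComplexConjugate

lemma ind_conj {G : Type*} [Group G] [Fintype G] (H : Subgroup G) (θ : H → ℂ) (y g : G) :
    Cfsg.indFun H θ (y * g * y⁻¹) = Cfsg.indFun H θ g := by
  unfold Cfsg.indFun
  congr 1
  rw [← Equiv.sum_comp (Equiv.mulLeft y)]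
  apply Finset.sum_congr rfl
  intro x _
  congr 1
  simp only [Equiv.coe_mulLeft]
  group

lemma frob {F : Type*} [Field F] [Fintype F] [DecidableEq F] (α : MulChar F ℂ)
    (ψ : Matrix.SpecialLinearGroup (Fin 2) F → ℂ)
    (hψ : ∀ x g : Matrix.SpecialLinearGroup (Fin 2) F, ψ (x * g * x⁻¹) = ψ g) :
    ∑ g : Matrix.SpecialLinearGroup (Fin 2) F, Cfsg.indFun (Bor F) (theta α) g * conj (ψ g) =
      (Fintype.card (Matrix.SpecialLinearGroup (Fin 2) F) : ℂ) * (Nat.card (Bor F) : ℂ)⁻¹ *
        ∑ a : Fˣ, ∑ b : F, α (a : F) * conj (ψ (mkB a b)) := by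
  have h1 : ∀ x : Matrix.SpecialLinearGroup (Fin 2) F,
      ∑ g : Matrix.SpecialLinearGroup (Fin 2) F, Cfsg.extendByZero (Bor F) (theta α) (x⁻¹ * g * x) * conj (ψ g)
        = ∑ g : Matrix.SpecialLinearGroup (Fin 2) F, Cfsg.extendByZero (Bor F) (theta α) g * conj (ψ g) := by
    intro x
    rw [← Equiv.sum_comp (MulAut.conj x).toEquiv]
    apply Finset.sum_congr rfl
    intro g _
    simp only [MulEquiv.toEquiv_eq_coe, EquivLike.coe_coe, MulAut.conj_apply]
    rw [hψ]
    congr 2
    group
  have h2 : ∑ g : Matrix.SpecialLinearGroup (Fin 2) F, Cfsg.extendByZero (Bor F) (theta α) g * conj (ψ g)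
      = ∑ a : Fˣ, ∑ b : F, α (a : F) * conj (ψ (mkB a b)) := by
    rw [← Equiv.sum_comp (slEquiv F)]
    rw [Fintype.sum_sum_type]
    have z1 : ∀ t : Fˣ × F × F,
        Cfsg.extendByZero (Bor F) (theta α) (slEquiv F (Sum.inl t)) * conj (ψ (slEquiv F (Sum.inl t))) = 0 := by
      intro t
      rw [ext_theta]
      have : slEquiv F (Sum.inl t) = mkC t.1 t.2.1 t.2.2 := rfl
      rw [this, mkC_coe]
      simp
    have z2 : ∀ t : Fˣ × F,
        Cfsg.extendByZero (Bor F) (theta α) (slEquiv F (Sum.inr t)) * conj (ψ (slEquiv F (Sum.inr t)))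
          = α (t.1 : F) * conj (ψ (mkB t.1 t.2)) := by
      intro t
      rw [ext_theta]
      have : slEquiv F (Sum.inr t) = mkB t.1 t.2 := rfl
      rw [this, mkB_coe]
      simp
    simp only [z1, z2, Finset.sum_const_zero, zero_add]
    rw [Fintype.sum_prod_type]
  have hind : ∀ g : Matrix.SpecialLinearGroup (Fin 2) F, Cfsg.indFun (Bor F) (theta α) g * conj (ψ g)
      = (Nat.card (Bor F) : ℂ)⁻¹ * ∑ x : Matrix.SpecialLinearGroup (Fin 2) F,
          Cfsg.extendByZero (Bor F) (theta α) (x⁻¹ * g * x) * conj (ψ g) := by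
    intro g
    unfold Cfsg.indFun
    rw [mul_assoc, Finset.sum_mul]
  simp only [hind]
  rw [← Finset.mul_sum, Finset.sum_comm]
  simp only [h1, h2]
  rw [Finset.sum_const, Finset.card_univ, nsmul_eq_mul]
  ring

lemma norm_char {F : Type*} [Field F] [Fintype F] (β : MulChar F ℂ) (a : Fˣ) : ‖β (a : F)‖ = 1 := by
  have hq : 2 ≤ Fintype.card F := Fintype.one_lt_card
  apply Complex.norm_eq_one_of_pow_eq_one (n := Fintype.card F - 1)
  · rw [← map_pow, FiniteField.pow_card_sub_one_eq_one _ a.ne_zero, map_one]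
  · omega

lemma conj_char {F : Type*} [Field F] [Fintype F] (β : MulChar F ℂ) (a : Fˣ) :
    conj (β (a : F)) = β ((a : F)⁻¹) := by
  rw [← Complex.inv_eq_conj (norm_char β a)]
  have h : β (a : F) * β ((a : F)⁻¹) = 1 := by
    rw [← map_mul, mul_inv_cancel₀ a.ne_zero, map_one]
  exact inv_eq_of_mul_eq_one_right h

lemma conj_char' {F : Type*} [Field F] [Fintype F] (β : MulChar F ℂ) (a : Fˣ) :
    conj (β ((a : F)⁻¹)) = β (a : F) := by
  have := conj_char β a⁻¹
  simpa using this

/-- upper unitriangular -/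
def upperU {F : Type*} [Field F] (x : F) : Matrix.SpecialLinearGroup (Fin 2) F :=
  ⟨!![1, x; 0, 1], by simp [Matrix.det_fin_two]⟩

lemma upperU_coe {F : Type*} [Field F] (x : F) :
    ((upperU x : Matrix.SpecialLinearGroup (Fin 2) F) : Matrix (Fin 2) (Fin 2) F) = !![1, x; 0, 1] := rfl

lemma ind_mkB {F : Type*} [Field F] [Fintype F] [DecidableEq F] (hodd : Odd (Fintype.card F))
    (β : MulChar F ℂ) (a : Fˣ) (b : F) :
    Cfsg.indFun (Bor F) (theta β) (mkB a b) =
      if (a : F) ^ 2 = 1 then (if b = 0 then ((Fintype.card F : ℂ) + 1) * β (a : F) else β (a : F))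
      else β (a : F) + β ((a : F)⁻¹) := by
  by_cases ha : (a : F) ^ 2 = 1
  · rw [if_pos ha]
    have ha' : (a : F) = (a : F)⁻¹ := by
      have : (a : F) * (a : F) = 1 := by rw [← pow_two]; exact ha
      exact eq_inv_of_mul_eq_one_left this
    by_cases hb : b = 0
    · rw [if_pos hb]
      have := (Cfsg.Agent.S2433.result hodd β (mkB a b)).2.2.2
      rw [mkB_coe] at this
      simp only [Matrix.of_apply, Matrix.cons_val', Matrix.cons_val_zero, Matrix.cons_val_one,
        Matrix.cons_val_fin_one] at this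
      exact this hb trivial ha'
    · rw [if_neg hb]
      have := (Cfsg.Agent.S2433.result hodd β (mkB a b)).2.2.1
      rw [mkB_coe] at this
      simp only [Matrix.of_apply, Matrix.cons_val', Matrix.cons_val_zero, Matrix.cons_val_one,
        Matrix.cons_val_fin_one] at this
      exact this trivial ha' hb
  · rw [if_neg ha]
    have hne : (a : F)⁻¹ - (a : F) ≠ 0 := by
      intro h
      apply ha
      have h' : (a : F)⁻¹ = (a : F) := by linear_combination h
      rw [pow_two]
      nth_rewrite 1 [← h']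
      exact inv_mul_cancel₀ a.ne_zero
    have hconj : mkB a b = upperU (b / ((a : F)⁻¹ - (a : F))) * mkB a 0 * (upperU (b / ((a : F)⁻¹ - (a : F))))⁻¹ := by
      rw [eq_mul_inv_iff_mul_eq]
      apply Subtype.ext
      simp only [Matrix.SpecialLinearGroup.coe_mul, mkB_coe, upperU_coe]
      ext i j
      fin_cases i <;> fin_cases j
      · simp [Matrix.mul_apply, Fin.sum_univ_two]
      · simp [Matrix.mul_apply, Fin.sum_univ_two]
        field_simp
        ring
      · simp [Matrix.mul_apply, Fin.sum_univ_two]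
      · simp [Matrix.mul_apply, Fin.sum_univ_two]
    rw [hconj, ind_conj]
    have := (Cfsg.Agent.S2433.result hodd β (mkB a 0)).1
    rw [mkB_coe] at this
    simp only [Matrix.of_apply, Matrix.cons_val', Matrix.cons_val_zero, Matrix.cons_val_one,
      Matrix.cons_val_fin_one] at this
    exact this trivial trivial ha

lemma sum_units_char {F : Type*} [Field F] [Fintype F] [DecidableEq F] (χ : MulChar F ℂ) :
    ∑ a : Fˣ, χ (a : F) = if χ = 1 then ((Fintype.card F : ℂ) - 1) else 0 := by
  have e : ∑ a : Fˣ, χ (a : F) = ∑ x : F, χ x := by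
    have h1 : ∑ a : Fˣ, χ (a : F) = ∑ x : {x : F // x ≠ 0}, χ (x : F) :=
      Fintype.sum_equiv unitsEquivNeZero _ _ (fun a => rfl)
    rw [h1, ← Finset.sum_subtype (Finset.univ.filter (fun x : F => x ≠ 0)) (by simp) (fun x => χ x)]
    rw [Finset.sum_filter]
    apply Finset.sum_congr rfl
    intro x _
    by_cases hx : x = 0
    · subst hx
      simp [MulChar.map_zero]
    · simp [hx]
  rw [e]
  by_cases h : χ = 1
  · rw [if_pos h, h, MulChar.sum_one_eq_card_units, Fintype.card_units]
    have hq : 1 ≤ Fintype.card F := Fintype.card_pos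
    push_cast [Nat.cast_sub hq]
    ring
  · rw [if_neg h, MulChar.sum_eq_zero_of_ne_one h]

lemma inner_sum {F : Type*} [Field F] [Fintype F] [DecidableEq F] (hodd : Odd (Fintype.card F))
    (α β : MulChar F ℂ) (a : Fˣ) :
    ∑ b : F, α (a : F) * conj (Cfsg.indFun (Bor F) (theta β) (mkB a b)) =
      (Fintype.card F : ℂ) * ((α * β⁻¹) (a : F) + (α * β) (a : F)) := by
  simp only [ind_mkB hodd β a, MulChar.mul_apply, MulChar.inv_apply']
  by_cases ha : (a : F) ^ 2 = 1
  · simp only [if_pos ha]
    have ha' : (a : F)⁻¹ = (a : F) := by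
      have : (a : F) * (a : F) = 1 := by rw [← pow_two]; exact ha
      exact (eq_inv_of_mul_eq_one_left this).symm
    have hc : conj (β (a : F)) = β (a : F) := by
      have := conj_char β a
      rw [ha'] at this
      exact this
    have e : ∀ b : F, α (a : F) * conj (if b = 0 then ((Fintype.card F : ℂ) + 1) * β (a : F) else β (a : F))
        = α (a : F) * β (a : F) + (if b = 0 then (Fintype.card F : ℂ) * (α (a : F) * β (a : F)) else 0) := by
      intro b
      by_cases hb : b = 0
      · simp only [if_pos hb, map_mul, map_add, map_one, hc, Complex.conj_natCast]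
        ring
      · simp only [if_neg hb, hc, add_zero]
    simp only [e, Finset.sum_add_distrib, Finset.sum_const, Finset.card_univ, nsmul_eq_mul,
      Finset.sum_ite_eq', Finset.mem_univ, if_true, ha']
    ring
  · simp only [if_neg ha, map_add, conj_char, conj_char', Finset.sum_const, Finset.card_univ, nsmul_eq_mul]
    ring

theorem result {F : Type*} [Field F] [Fintype F] [DecidableEq F] (hodd : Odd (Fintype.card F))
    (α β : MulChar F ℂ) [Decidable (α = β)] [Decidable (α = β⁻¹)] :
    Cfsg.classInner (Cfsg.indFun ((Cfsg.upperTriangularGL 2 F).comap Matrix.SpecialLinearGroup.toGL) (fun b => α (((b : Matrix.SpecialLinearGroup (Fin 2) F) : Matrix (Fin 2) (Fin 2) F) 0 0))) (Cfsg.indFun ((Cfsg.upperTriangularGL 2 F).comap Matrix.SpecialLinearGroup.toGL) (fun b => β (((b : Matrix.SpecialLinearGroup (Fin 2) F) : Matrix (Fin 2) (Fin 2) F) 0 0))) =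
      (if α = β then 1 else 0) + (if α = β⁻¹ then 1 else 0) := by
  unfold Cfsg.classInner
  have hfr := frob α (Cfsg.indFun (Bor F) (theta β)) (fun x g => ind_conj (Bor F) (theta β) x g)
  rw [hfr]
  simp only [inner_sum hodd α β, ← Finset.mul_sum, Finset.sum_add_distrib, sum_units_char]
  rw [Nat.card_eq_fintype_card, card_Bor]
  have hq : 2 ≤ Fintype.card F := Fintype.one_lt_card
  have hG : (Fintype.card (Matrix.SpecialLinearGroup (Fin 2) F) : ℂ) ≠ 0 := by
    have : 0 < Fintype.card (Matrix.SpecialLinearGroup (Fin 2) F) := Fintype.card_pos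
    exact_mod_cast this.ne'
  have h1 : ((Fintype.card F : ℕ) : ℂ) - 1 ≠ 0 := by
    intro h
    have h' : ((Fintype.card F : ℕ) : ℂ) = 1 := by linear_combination h
    have : (Fintype.card F : ℕ) = 1 := by exact_mod_cast h'
    omega
  have h2 : ((Fintype.card F : ℕ) : ℂ) ≠ 0 := by
    have : 0 < Fintype.card F := by omega
    exact_mod_cast this.ne'
  have e1 : (α * β⁻¹ = 1) ↔ α = β := mul_inv_eq_one
  have e2 : (α * β = 1) ↔ α = β⁻¹ := mul_eq_one_iff_eq_inv
  have hc : (((Fintype.card F - 1) * Fintype.card F : ℕ) : ℂ) = ((Fintype.card F : ℂ) - 1) * (Fintype.card F : ℂ) := by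
    have hq1 : 1 ≤ Fintype.card F := by omega
    push_cast [Nat.cast_sub hq1]
    ring
  rw [hc]
  by_cases hab : α = β <;> by_cases hab' : α = β⁻¹
  · simp only [e1.mpr hab, e2.mpr hab', if_true, if_pos hab, if_pos hab']
    first | (field_simp; done) | (field_simp; ring)
  · simp only [e1.mpr hab, (not_congr e2).mpr hab', if_true, if_false, if_pos hab, if_neg hab']
    first | (field_simp; done) | (field_simp; ring)
  · simp only [(not_congr e1).mpr hab, e2.mpr hab', if_true, if_false, if_neg hab, if_pos hab']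
    first | (field_simp; done) | (field_simp; ring)
  · simp only [(not_congr e1).mpr hab, (not_congr e2).mpr hab', if_false, if_neg hab, if_neg hab']
    simp

end Cfsg.Agent.S2432
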