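import Cfsg.Statements.S0178
import Mathlib
import Cfsg.Agent.Lib.Helper5.CharRed

set_option autoImplicit false
open Cfsg

namespace Cfsg.Agent.S0178

/-- The degree of an irreducible complex representation of a finite group is at most the index of any abelian subgroup. -/
theorem result {G : Type*} [Group G] [Finite G] {V : Type*} [AddCommGroup V] [Module ℂ V] [FiniteDimensional ℂ V] (ρ : Representation ℂ G V) [ρ.IsIrreducible] (A : Subgroup G) (hA : ∀ a ∈ A, ∀ b ∈ A, a * b = b * a) : Module.finrank ℂ V ≤ A.index := by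
  classical
  have hnt : Nontrivial V := Cfsg.Agent.Lib.Helper5.irr_nontrivial ρ
  obtain ⟨W, hW0, hWirr⟩ := Cfsg.Agent.Lib.Helper5.exists_irr_sub (ρ.comp A.subtype)
  have hcA : IsMulCommutative A := ⟨⟨fun a b => Subtype.ext (hA a a.2 b b.2)⟩⟩
  have h1 : Module.finrank ℂ W.toSubmodule = 1 :=
    Representation.IsIrreducible.finrank_eq_one_of_isMulCommutative W.toRepresentation
  obtain ⟨w, hw0, hw⟩ := finrank_eq_one_iff'.mp h1
  obtain ⟨S, hS, h1S⟩ := Subgroup.exists_isComplement_left A 1
  have : Fintype S := Fintype.ofFinite S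
  have hstable : ∀ g : G, ∀ v ∈ Submodule.span ℂ (Set.range (fun s : S => ρ (s : G) (w : V))),
      ρ g v ∈ Submodule.span ℂ (Set.range (fun s : S => ρ (s : G) (w : V))) := by
    intro g v hv
    induction hv using Submodule.span_induction with
    | mem x hx =>
      obtain ⟨s, rfl⟩ := hx
      obtain ⟨⟨s', a⟩, hsa⟩ := hS.2 (g * (s : G))
      obtain ⟨c, hc⟩ := hw (W.toRepresentation a w)
      have hc' : c • (w : V) = ρ (a : G) (w : V) := congrArg Subtype.val hc
      have h2 : ρ g (ρ (s : G) (w : V)) = c • ρ (s' : G) (w : V) := by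
        have hsa' : (s' : G) * (a : G) = g * (s : G) := hsa
        rw [← Module.End.mul_apply, ← map_mul, ← hsa', map_mul, Module.End.mul_apply, ← hc',
          map_smul]
      change ρ g (ρ (s : G) (w : V)) ∈ _
      rw [h2]
      exact Submodule.smul_mem _ _ (Submodule.subset_span ⟨s', rfl⟩)
    | zero => simp
    | add x y _ _ hx hy =>
      rw [map_add]
      exact Submodule.add_mem _ hx hy
    | smul c x _ hx =>
      rw [map_smul]
      exact Submodule.smul_mem _ _ hx
  rcases Cfsg.Agent.Lib.Helper5.irr_stable_eq_bot_or_top ρ _ hstable with h | h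
  · exfalso
    have h2 : (w : V) ∈ Submodule.span ℂ (Set.range (fun s : S => ρ (s : G) (w : V))) := by
      apply Submodule.subset_span
      exact ⟨⟨1, h1S⟩, by simp⟩
    rw [h, Submodule.mem_bot] at h2
    exact hw0 (Subtype.ext h2)
  · have h2 := finrank_range_le_card (R := ℂ) (fun s : S => ρ (s : G) (w : V))
    have h3 : Module.finrank ℂ V =
        Set.finrank ℂ (Set.range (fun s : S => ρ (s : G) (w : V))) := by
      change _ = Module.finrank ℂ (Submodule.span ℂ (Set.range (fun s : S => ρ (s : G) (w : V))))
      rw [h, finrank_top]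
    rw [h3]
    calc _ ≤ Fintype.card S := h2
      _ = A.index := by
        rw [← Nat.card_eq_fintype_card]
        exact hS.card_left

end Cfsg.Agent.S0178
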