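import Mathlib
import Cfsg.Statements.S2428

set_option autoImplicit false
open Cfsg

namespace Cfsg.Agent.S2428

open Matrix

lemma det_eq {F : Type*} [Field F] (A : Matrix.SpecialLinearGroup (Fin 2) F) :
    (A : Matrix (Fin 2) (Fin 2) F) 0 0 * (A : Matrix (Fin 2) (Fin 2) F) 1 1
      - (A : Matrix (Fin 2) (Fin 2) F) 0 1 * (A : Matrix (Fin 2) (Fin 2) F) 1 0 = 1 := by
  have := A.det_coe
  rwa [Matrix.det_fin_two] at this

lemma conj_apply_10 {F : Type*} [Field F] (P A : Matrix.SpecialLinearGroup (Fin 2) F) :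
    ((P * A * P⁻¹ : Matrix.SpecialLinearGroup (Fin 2) F) : Matrix (Fin 2) (Fin 2) F) 1 0 =
      ((P : Matrix (Fin 2) (Fin 2) F) 1 0 * (A : Matrix (Fin 2) (Fin 2) F) 0 0 + (P : Matrix (Fin 2) (Fin 2) F) 1 1 * (A : Matrix (Fin 2) (Fin 2) F) 1 0) * (P : Matrix (Fin 2) (Fin 2) F) 1 1
      - ((P : Matrix (Fin 2) (Fin 2) F) 1 0 * (A : Matrix (Fin 2) (Fin 2) F) 0 1 + (P : Matrix (Fin 2) (Fin 2) F) 1 1 * (A : Matrix (Fin 2) (Fin 2) F) 1 1) * (P : Matrix (Fin 2) (Fin 2) F) 1 0 := by
  simp only [Matrix.SpecialLinearGroup.coe_mul, Matrix.SpecialLinearGroup.coe_inv,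
          Matrix.adjugate_fin_two, Matrix.mul_apply, Fin.sum_univ_two]
  simp
  ring

lemma conj_apply_01 {F : Type*} [Field F] (P A : Matrix.SpecialLinearGroup (Fin 2) F) :
    ((P * A * P⁻¹ : Matrix.SpecialLinearGroup (Fin 2) F) : Matrix (Fin 2) (Fin 2) F) 0 1 =
      -((P : Matrix (Fin 2) (Fin 2) F) 0 0 * (A : Matrix (Fin 2) (Fin 2) F) 0 0 + (P : Matrix (Fin 2) (Fin 2) F) 0 1 * (A : Matrix (Fin 2) (Fin 2) F) 1 0) * (P : Matrix (Fin 2) (Fin 2) F) 0 1
      + ((P : Matrix (Fin 2) (Fin 2) F) 0 0 * (A : Matrix (Fin 2) (Fin 2) F) 0 1 + (P : Matrix (Fin 2) (Fin 2) F) 0 1 * (A : Matrix (Fin 2) (Fin 2) F) 1 1) * (P : Matrix (Fin 2) (Fin 2) F) 0 0 := by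
  simp only [Matrix.SpecialLinearGroup.coe_mul, Matrix.SpecialLinearGroup.coe_inv,
          Matrix.adjugate_fin_two, Matrix.mul_apply, Fin.sum_univ_two]
  simp
  ring

lemma mem_cent_iff {F : Type*} [Field F] (d : Matrix.SpecialLinearGroup (Fin 2) F)
    (hd01 : (d : Matrix (Fin 2) (Fin 2) F) 0 1 = 0) (hd10 : (d : Matrix (Fin 2) (Fin 2) F) 1 0 = 0)
    (hda : (d : Matrix (Fin 2) (Fin 2) F) 0 0 ^ 2 ≠ 1) (g : Matrix.SpecialLinearGroup (Fin 2) F) :
    g ∈ Subgroup.centralizer ({d} : Set (Matrix.SpecialLinearGroup (Fin 2) F)) ↔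
      ((g : Matrix (Fin 2) (Fin 2) F) 0 1 = 0 ∧ (g : Matrix (Fin 2) (Fin 2) F) 1 0 = 0) := by
  rw [Subgroup.mem_centralizer_iff]
  simp only [Set.mem_singleton_iff, forall_eq]
  have hdet := det_eq d
  rw [hd01, zero_mul, sub_zero] at hdet
  have hne : (d : Matrix (Fin 2) (Fin 2) F) 0 0 - (d : Matrix (Fin 2) (Fin 2) F) 1 1 ≠ 0 := by
    intro h
    apply hda
    have : (d : Matrix (Fin 2) (Fin 2) F) 0 0 = (d : Matrix (Fin 2) (Fin 2) F) 1 1 := by linear_combination h
    rw [pow_two]
    nth_rewrite 2 [this]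
    exact hdet
  constructor
  · intro h
    have h' : (d : Matrix (Fin 2) (Fin 2) F) * (g : Matrix (Fin 2) (Fin 2) F)
        = (g : Matrix (Fin 2) (Fin 2) F) * (d : Matrix (Fin 2) (Fin 2) F) := by
      rw [← Matrix.SpecialLinearGroup.coe_mul, ← Matrix.SpecialLinearGroup.coe_mul, h]
    have e01 := congrFun (congrFun h' 0) 1
    have e10 := congrFun (congrFun h' 1) 0
    simp only [Matrix.mul_apply, Fin.sum_univ_two, hd01, hd10, mul_zero, zero_mul, add_zero, zero_add] at e01 e10
    constructor
    · have : (g : Matrix (Fin 2) (Fin 2) F) 0 1 * ((d : Matrix (Fin 2) (Fin 2) F) 0 0 - (d : Matrix (Fin 2) (Fin 2) F) 1 1) = 0 := by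
        linear_combination e01
      exact (mul_eq_zero.mp this).resolve_right hne
    · have : (g : Matrix (Fin 2) (Fin 2) F) 1 0 * ((d : Matrix (Fin 2) (Fin 2) F) 0 0 - (d : Matrix (Fin 2) (Fin 2) F) 1 1) = 0 := by
        linear_combination -e10
      exact (mul_eq_zero.mp this).resolve_right hne
  · rintro ⟨h1, h2⟩
    ext i j
    fin_cases i <;> fin_cases j <;>
      simp [Matrix.SpecialLinearGroup.coe_mul, Matrix.mul_apply, Fin.sum_univ_two, hd01, hd10, h1, h2, mul_comm]

lemma mem_norm_iff {F : Type*} [Field F] (d : Matrix.SpecialLinearGroup (Fin 2) F)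
    (hd01 : (d : Matrix (Fin 2) (Fin 2) F) 0 1 = 0) (hd10 : (d : Matrix (Fin 2) (Fin 2) F) 1 0 = 0)
    (hda : (d : Matrix (Fin 2) (Fin 2) F) 0 0 ^ 2 ≠ 1) (g : Matrix.SpecialLinearGroup (Fin 2) F) :
    g ∈ Subgroup.normalizer ((Subgroup.centralizer ({d} : Set (Matrix.SpecialLinearGroup (Fin 2) F))) : Set (Matrix.SpecialLinearGroup (Fin 2) F)) ↔
      (((g : Matrix (Fin 2) (Fin 2) F) 0 1 = 0 ∧ (g : Matrix (Fin 2) (Fin 2) F) 1 0 = 0) ∨
       ((g : Matrix (Fin 2) (Fin 2) F) 0 0 = 0 ∧ (g : Matrix (Fin 2) (Fin 2) F) 1 1 = 0)) := by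
  rw [Subgroup.mem_set_normalizer_iff]
  simp only [SetLike.mem_coe, mem_cent_iff d hd01 hd10 hda]
  have hdet := det_eq d
  rw [hd01, zero_mul, sub_zero] at hdet
  have hne : (d : Matrix (Fin 2) (Fin 2) F) 0 0 - (d : Matrix (Fin 2) (Fin 2) F) 1 1 ≠ 0 := by
    intro h
    apply hda
    have : (d : Matrix (Fin 2) (Fin 2) F) 0 0 = (d : Matrix (Fin 2) (Fin 2) F) 1 1 := by linear_combination h
    rw [pow_two]
    nth_rewrite 2 [this]
    exact hdet
  have hg := det_eq g
  constructor
  · intro h
    obtain ⟨e01, e10⟩ := (h d).mp ⟨hd01, hd10⟩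
    rw [conj_apply_01] at e01
    rw [conj_apply_10] at e10
    simp only [hd01, hd10, mul_zero, add_zero, zero_add] at e01 e10
    have p1 : (g : Matrix (Fin 2) (Fin 2) F) 0 0 * (g : Matrix (Fin 2) (Fin 2) F) 0 1 = 0 := by
      have : (g : Matrix (Fin 2) (Fin 2) F) 0 0 * (g : Matrix (Fin 2) (Fin 2) F) 0 1 *
          ((d : Matrix (Fin 2) (Fin 2) F) 0 0 - (d : Matrix (Fin 2) (Fin 2) F) 1 1) = 0 := by
        linear_combination -e01
      exact (mul_eq_zero.mp this).resolve_right hne
    have p2 : (g : Matrix (Fin 2) (Fin 2) F) 1 0 * (g : Matrix (Fin 2) (Fin 2) F) 1 1 = 0 := by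
      have : (g : Matrix (Fin 2) (Fin 2) F) 1 0 * (g : Matrix (Fin 2) (Fin 2) F) 1 1 *
          ((d : Matrix (Fin 2) (Fin 2) F) 0 0 - (d : Matrix (Fin 2) (Fin 2) F) 1 1) = 0 := by
        linear_combination e10
      exact (mul_eq_zero.mp this).resolve_right hne
    rcases mul_eq_zero.mp p1 with h00 | h01
    · right
      refine ⟨h00, ?_⟩
      rw [h00, zero_mul, zero_sub] at hg
      have h10 : (g : Matrix (Fin 2) (Fin 2) F) 1 0 ≠ 0 := by
        intro h0
        rw [h0, mul_zero, neg_zero] at hg
        exact zero_ne_one hg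
      exact (mul_eq_zero.mp p2).resolve_left h10
    · left
      refine ⟨h01, ?_⟩
      rw [h01, zero_mul, sub_zero] at hg
      have h11 : (g : Matrix (Fin 2) (Fin 2) F) 1 1 ≠ 0 := right_ne_zero_of_mul_eq_one hg
      exact (mul_eq_zero.mp p2).resolve_right h11
  · rintro (⟨h1, h2⟩ | ⟨h1, h2⟩) h
    · rw [conj_apply_01, conj_apply_10]
      rw [h1, zero_mul, sub_zero] at hg
      have h00 : (g : Matrix (Fin 2) (Fin 2) F) 0 0 ≠ 0 := left_ne_zero_of_mul_eq_one hg
      have h11 : (g : Matrix (Fin 2) (Fin 2) F) 1 1 ≠ 0 := right_ne_zero_of_mul_eq_one hg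
      simp [h1, h2, h00, h11]
    · rw [conj_apply_01, conj_apply_10]
      rw [h1, zero_mul, zero_sub] at hg
      have h01 : (g : Matrix (Fin 2) (Fin 2) F) 0 1 ≠ 0 := by
        intro h0; rw [h0, zero_mul, neg_zero] at hg; exact zero_ne_one hg
      have h10 : (g : Matrix (Fin 2) (Fin 2) F) 1 0 ≠ 0 := by
        intro h0; rw [h0, mul_zero, neg_zero] at hg; exact zero_ne_one hg
      simp [h1, h2, h01, h10]
      exact and_comm

/-- the monomial element attached to a point of `Fˣ ⊕ Fˣ` -/
def elt {F : Type*} [Field F] : Fˣ ⊕ Fˣ → Matrix.SpecialLinearGroup (Fin 2) F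
  | Sum.inl a => ⟨!![(a : F), 0; 0, (a : F)⁻¹], by simp [Matrix.det_fin_two]⟩
  | Sum.inr b => ⟨!![0, (b : F); -(b : F)⁻¹, 0], by simp [Matrix.det_fin_two]⟩

lemma elt_inl_coe {F : Type*} [Field F] (a : Fˣ) :
    ((elt (Sum.inl a) : Matrix.SpecialLinearGroup (Fin 2) F) : Matrix (Fin 2) (Fin 2) F)
      = !![(a : F), 0; 0, (a : F)⁻¹] := rfl

lemma elt_inr_coe {F : Type*} [Field F] (b : Fˣ) :
    ((elt (Sum.inr b) : Matrix.SpecialLinearGroup (Fin 2) F) : Matrix (Fin 2) (Fin 2) F)
      = !![0, (b : F); -(b : F)⁻¹, 0] := rfl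

lemma elt_mem {F : Type*} [Field F] (d : Matrix.SpecialLinearGroup (Fin 2) F)
    (hd01 : (d : Matrix (Fin 2) (Fin 2) F) 0 1 = 0) (hd10 : (d : Matrix (Fin 2) (Fin 2) F) 1 0 = 0)
    (hda : (d : Matrix (Fin 2) (Fin 2) F) 0 0 ^ 2 ≠ 1) (x : Fˣ ⊕ Fˣ) :
    elt x ∈ Subgroup.normalizer ((Subgroup.centralizer ({d} : Set (Matrix.SpecialLinearGroup (Fin 2) F))) : Set (Matrix.SpecialLinearGroup (Fin 2) F)) := by
  rw [mem_norm_iff d hd01 hd10 hda]
  cases x with
  | inl a => left; simp [elt_inl_coe]
  | inr b => right; simp [elt_inr_coe]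

/-- the normalizer of the split torus is in bijection with `Fˣ ⊕ Fˣ` -/
noncomputable def normEquiv {F : Type*} [Field F] [DecidableEq F] (d : Matrix.SpecialLinearGroup (Fin 2) F)
    (hd01 : (d : Matrix (Fin 2) (Fin 2) F) 0 1 = 0) (hd10 : (d : Matrix (Fin 2) (Fin 2) F) 1 0 = 0)
    (hda : (d : Matrix (Fin 2) (Fin 2) F) 0 0 ^ 2 ≠ 1) :
    Fˣ ⊕ Fˣ ≃ Subgroup.normalizer ((Subgroup.centralizer ({d} : Set (Matrix.SpecialLinearGroup (Fin 2) F))) : Set (Matrix.SpecialLinearGroup (Fin 2) F)) :=
  Equiv.ofBijective (fun x => ⟨elt x, elt_mem d hd01 hd10 hda x⟩) (by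
    constructor
    · intro x y hxy
      have h := congrArg (fun z : Subgroup.normalizer ((Subgroup.centralizer ({d} : Set (Matrix.SpecialLinearGroup (Fin 2) F))) : Set (Matrix.SpecialLinearGroup (Fin 2) F)) =>
        ((z : Matrix.SpecialLinearGroup (Fin 2) F) : Matrix (Fin 2) (Fin 2) F)) hxy
      simp only at h
      cases x with
      | inl a =>
        cases y with
        | inl c =>
          have := congrFun (congrFun h 0) 0
          simp [elt_inl_coe] at this
          exact congrArg Sum.inl (Units.ext this)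
        | inr c =>
          have := congrFun (congrFun h 0) 0
          simp [elt_inl_coe, elt_inr_coe] at this
      | inr b =>
        cases y with
        | inl c =>
          have := congrFun (congrFun h 0) 1
          simp [elt_inl_coe, elt_inr_coe] at this
        | inr c =>
          have := congrFun (congrFun h 0) 1
          simp [elt_inr_coe] at this
          exact congrArg Sum.inr (Units.ext this)
    · rintro ⟨g, hg⟩
      have hdet := det_eq g
      rcases (mem_norm_iff d hd01 hd10 hda g).mp hg with ⟨h1, h2⟩ | ⟨h1, h2⟩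
      · rw [h1, zero_mul, sub_zero] at hdet
        refine ⟨Sum.inl (Units.mk0 _ (left_ne_zero_of_mul_eq_one hdet)), ?_⟩
        apply Subtype.ext
        apply Subtype.ext
        ext i j
        fin_cases i <;> fin_cases j
        · simp [elt_inl_coe]
        · simp [elt_inl_coe, h1]
        · simp [elt_inl_coe, h2]
        · simp [elt_inl_coe]
          exact (eq_inv_of_mul_eq_one_right hdet).symm
      · rw [h1, zero_mul, zero_sub] at hdet
        have h01 : (g : Matrix (Fin 2) (Fin 2) F) 0 1 ≠ 0 := by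
          intro h0; rw [h0, zero_mul, neg_zero] at hdet; exact zero_ne_one hdet
        refine ⟨Sum.inr (Units.mk0 _ h01), ?_⟩
        apply Subtype.ext
        apply Subtype.ext
        ext i j
        fin_cases i <;> fin_cases j
        · simp [elt_inr_coe, h1]
        · simp [elt_inr_coe]
        · simp [elt_inr_coe]
          field_simp
          linear_combination hdet
        · simp [elt_inr_coe, h2])

/-- commutation relation transported to `Fˣ ⊕ Fˣ` -/
def commCond {F : Type*} [Field F] : Fˣ ⊕ Fˣ → Fˣ ⊕ Fˣ → Prop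
  | Sum.inl _, Sum.inl _ => True
  | Sum.inl a, Sum.inr _ => a * a = 1
  | Sum.inr _, Sum.inl a => a * a = 1
  | Sum.inr b, Sum.inr c => b * b = c * c

lemma elt_commute_iff {F : Type*} [Field F] (x y : Fˣ ⊕ Fˣ) :
    elt x * elt y = elt y * elt x ↔ commCond x y := by
  cases x with
  | inl a =>
    cases y with
    | inl c =>
      simp only [commCond, iff_true]
      ext i j
      fin_cases i <;> fin_cases j <;>
        simp [elt_inl_coe, elt_inr_coe, Matrix.SpecialLinearGroup.coe_mul, Matrix.mul_apply, Fin.sum_univ_two, mul_comm]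
    | inr b =>
      simp only [commCond]
      have ha : (a : F) ≠ 0 := a.ne_zero
      have hb : (b : F) ≠ 0 := b.ne_zero
      constructor
      · intro h
        have h' := congrArg (fun z : Matrix.SpecialLinearGroup (Fin 2) F => (z : Matrix (Fin 2) (Fin 2) F) 0 1) h
        simp [elt_inl_coe, elt_inr_coe, Matrix.SpecialLinearGroup.coe_mul, Matrix.mul_apply, Fin.sum_univ_two] at h'
        apply Units.ext
        simp only [Units.val_mul, Units.val_one]
        field_simp at h'
        first | linear_combination h' | linear_combination -h'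
      · intro h
        have h' : (a : F) * (a : F) = 1 := by
          have := congrArg Units.val h
          simpa using this
        ext i j
        fin_cases i <;> fin_cases j
        · simp [elt_inl_coe, elt_inr_coe, Matrix.SpecialLinearGroup.coe_mul, Matrix.mul_apply, Fin.sum_univ_two]
        · simp [elt_inl_coe, elt_inr_coe, Matrix.SpecialLinearGroup.coe_mul, Matrix.mul_apply, Fin.sum_univ_two]
          field_simp
          first | linear_combination h' | linear_combination -h'
        · simp [elt_inl_coe, elt_inr_coe, Matrix.SpecialLinearGroup.coe_mul, Matrix.mul_apply, Fin.sum_univ_two]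
          field_simp
          first | linear_combination h' | linear_combination -h'
        · simp [elt_inl_coe, elt_inr_coe, Matrix.SpecialLinearGroup.coe_mul, Matrix.mul_apply, Fin.sum_univ_two]
  | inr b =>
    cases y with
    | inl a =>
      simp only [commCond]
      have ha : (a : F) ≠ 0 := a.ne_zero
      have hb : (b : F) ≠ 0 := b.ne_zero
      constructor
      · intro h
        have h' := congrArg (fun z : Matrix.SpecialLinearGroup (Fin 2) F => (z : Matrix (Fin 2) (Fin 2) F) 0 1) h
        simp [elt_inl_coe, elt_inr_coe, Matrix.SpecialLinearGroup.coe_mul, Matrix.mul_apply, Fin.sum_univ_two] at h'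
        apply Units.ext
        simp only [Units.val_mul, Units.val_one]
        field_simp at h'
        first | linear_combination h' | linear_combination -h'
      · intro h
        have h' : (a : F) * (a : F) = 1 := by
          have := congrArg Units.val h
          simpa using this
        ext i j
        fin_cases i <;> fin_cases j
        · simp [elt_inl_coe, elt_inr_coe, Matrix.SpecialLinearGroup.coe_mul, Matrix.mul_apply, Fin.sum_univ_two]
        · simp [elt_inl_coe, elt_inr_coe, Matrix.SpecialLinearGroup.coe_mul, Matrix.mul_apply, Fin.sum_univ_two]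
          field_simp
          first | linear_combination h' | linear_combination -h'
        · simp [elt_inl_coe, elt_inr_coe, Matrix.SpecialLinearGroup.coe_mul, Matrix.mul_apply, Fin.sum_univ_two]
          field_simp
          first | linear_combination h' | linear_combination -h'
        · simp [elt_inl_coe, elt_inr_coe, Matrix.SpecialLinearGroup.coe_mul, Matrix.mul_apply, Fin.sum_univ_two]
    | inr c =>
      simp only [commCond]
      have hc : (c : F) ≠ 0 := c.ne_zero
      have hb : (b : F) ≠ 0 := b.ne_zero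
      constructor
      · intro h
        have h' := congrArg (fun z : Matrix.SpecialLinearGroup (Fin 2) F => (z : Matrix (Fin 2) (Fin 2) F) 0 0) h
        simp [elt_inl_coe, elt_inr_coe, Matrix.SpecialLinearGroup.coe_mul, Matrix.mul_apply, Fin.sum_univ_two] at h'
        apply Units.ext
        simp only [Units.val_mul]
        field_simp at h'
        linear_combination h'
      · intro h
        have h' : (b : F) * (b : F) = (c : F) * (c : F) := by
          have := congrArg Units.val h
          simpa using this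
        ext i j
        fin_cases i <;> fin_cases j
        · simp [elt_inl_coe, elt_inr_coe, Matrix.SpecialLinearGroup.coe_mul, Matrix.mul_apply, Fin.sum_univ_two]
          field_simp
          linear_combination h'
        · simp [elt_inl_coe, elt_inr_coe, Matrix.SpecialLinearGroup.coe_mul, Matrix.mul_apply, Fin.sum_univ_two]
        · simp [elt_inl_coe, elt_inr_coe, Matrix.SpecialLinearGroup.coe_mul, Matrix.mul_apply, Fin.sum_univ_two]
        · simp [elt_inl_coe, elt_inr_coe, Matrix.SpecialLinearGroup.coe_mul, Matrix.mul_apply, Fin.sum_univ_two]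
          field_simp
          linear_combination -h'

lemma units_sq_iff {F : Type*} [Field F] (b c : Fˣ) : b * b = c * c ↔ (c = b ∨ c = -b) := by
  constructor
  · intro h
    have h' : (b : F) * (b : F) = (c : F) * (c : F) := by
      have := congrArg Units.val h
      simpa using this
    have : ((c : F) - (b : F)) * ((c : F) + (b : F)) = 0 := by linear_combination -h'
    rcases mul_eq_zero.mp this with h'' | h''
    · left
      exact Units.ext (by linear_combination h'')
    · right
      exact Units.ext (by rw [Units.val_neg]; linear_combination h'')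
  · rintro (h | h)
    · rw [h]
    · rw [h]; simp

lemma count_sq {F : Type*} [Field F] [Fintype F] [DecidableEq F] (hodd : Odd (Fintype.card F)) (b : Fˣ) :
    (∑ c : Fˣ, if b * b = c * c then 1 else 0 : ℕ) = 2 := by
  have h2 : (2 : F) ≠ 0 := by
    apply Ring.two_ne_zero
    intro h
    have := FiniteField.even_card_iff_char_two.mp h
    rcases hodd with ⟨k, hk⟩
    omega
  have hne : b ≠ -b := by
    intro h
    have : (b : F) = -(b : F) := by
      have := congrArg Units.val h
      simpa using this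
    have h3 : (2 : F) * (b : F) = 0 := by linear_combination this
    rcases mul_eq_zero.mp h3 with h4 | h4
    · exact h2 h4
    · exact b.ne_zero h4
  rw [← Finset.card_filter]
  have : (Finset.univ.filter (fun c : Fˣ => b * b = c * c)) = {b, -b} := by
    ext c
    simp only [Finset.mem_filter, Finset.mem_univ, true_and, Finset.mem_insert, Finset.mem_singleton]
    exact units_sq_iff b c
  rw [this, Finset.card_pair hne]

lemma count_sq_one {F : Type*} [Field F] [Fintype F] [DecidableEq F] (hodd : Odd (Fintype.card F)) :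
    (∑ a : Fˣ, if a * a = 1 then 1 else 0 : ℕ) = 2 := by
  have := count_sq hodd (1 : Fˣ)
  simp only [mul_one] at this
  rw [← this]
  apply Finset.sum_congr rfl
  intro a _
  simp only [eq_comm]

instance commCondDecidable {F : Type*} [Field F] [DecidableEq F] (x y : Fˣ ⊕ Fˣ) : Decidable (commCond x y) := by
  cases x <;> cases y <;> simp only [commCond] <;> infer_instance

lemma count_pairs {F : Type*} [Field F] [Fintype F] [DecidableEq F] (hodd : Odd (Fintype.card F)) :
    Fintype.card {p : (Fˣ ⊕ Fˣ) × (Fˣ ⊕ Fˣ) // commCond p.1 p.2} =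
      (Fintype.card F - 1) * (Fintype.card F + 5) := by
  rw [Fintype.card_subtype, Finset.card_filter, Fintype.sum_prod_type]
  simp only [Fintype.sum_sum_type]
  have e1 : ∀ a c : Fˣ, (if commCond (Sum.inl a) (Sum.inl c) then 1 else 0 : ℕ) = 1 := by
    intro a c; simp [commCond]
  have e2 : ∀ a b : Fˣ, (if commCond (Sum.inl a) (Sum.inr b) then 1 else 0 : ℕ) = if a * a = 1 then 1 else 0 := by
    intro a b; by_cases h : a * a = 1 <;> simp [commCond, h]
  have e3 : ∀ b a : Fˣ, (if commCond (Sum.inr b) (Sum.inl a) then 1 else 0 : ℕ) = if a * a = 1 then 1 else 0 := by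
    intro b a; by_cases h : a * a = 1 <;> simp [commCond, h]
  have e4 : ∀ b c : Fˣ, (if commCond (Sum.inr b) (Sum.inr c) then 1 else 0 : ℕ) = if b * b = c * c then 1 else 0 := by
    intro b c; by_cases h : b * b = c * c <;> simp [commCond, h]
  simp only [e1, e2, e3, e4]
  have s1 : ∀ a : Fˣ, (∑ _b : Fˣ, (if a * a = 1 then 1 else 0 : ℕ)) = Fintype.card Fˣ * (if a * a = 1 then 1 else 0) := by
    intro a; rw [Finset.sum_const, Finset.card_univ, smul_eq_mul]
  simp only [s1, Finset.sum_add_distrib, ← Finset.mul_sum, count_sq_one hodd, count_sq hodd, Finset.sum_const,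
    Finset.card_univ, smul_eq_mul, Fintype.card_units]
  have hq : 1 ≤ Fintype.card F := Fintype.card_pos
  obtain ⟨n, hn⟩ : ∃ n, Fintype.card F = n + 1 := ⟨Fintype.card F - 1, by omega⟩
  rw [hn]
  simp
  ring

theorem result {F : Type*} [Field F] [Fintype F] (hodd : Odd (Fintype.card F))
    (d : Matrix.SpecialLinearGroup (Fin 2) F) (hd01 : (d : Matrix (Fin 2) (Fin 2) F) 0 1 = 0) (hd10 : (d : Matrix (Fin 2) (Fin 2) F) 1 0 = 0) (hda : (d : Matrix (Fin 2) (Fin 2) F) 0 0 ^ 2 ≠ 1) :
    (∀ g : Matrix.SpecialLinearGroup (Fin 2) F, g ∈ Subgroup.centralizer ({d} : Set (Matrix.SpecialLinearGroup (Fin 2) F)) ↔ ((g : Matrix (Fin 2) (Fin 2) F) 0 1 = 0 ∧ (g : Matrix (Fin 2) (Fin 2) F) 1 0 = 0)) ∧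
    Nat.card (Subgroup.normalizer ((Subgroup.centralizer ({d} : Set (Matrix.SpecialLinearGroup (Fin 2) F))) : Set (Matrix.SpecialLinearGroup (Fin 2) F))) = 2 * (Fintype.card F - 1) ∧
    Nat.card (ConjClasses (Subgroup.normalizer ((Subgroup.centralizer ({d} : Set (Matrix.SpecialLinearGroup (Fin 2) F))) : Set (Matrix.SpecialLinearGroup (Fin 2) F)))) = (Fintype.card F + 5) / 2 ∧
    ∀ g : Matrix.SpecialLinearGroup (Fin 2) F, g ∈ Subgroup.normalizer ((Subgroup.centralizer ({d} : Set (Matrix.SpecialLinearGroup (Fin 2) F))) : Set (Matrix.SpecialLinearGroup (Fin 2) F)) →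
      g ∉ Subgroup.centralizer ({d} : Set (Matrix.SpecialLinearGroup (Fin 2) F)) → ((g * g) : Matrix (Fin 2) (Fin 2) F) = -1 := by
  classical
  have hcardN : Nat.card (Subgroup.normalizer ((Subgroup.centralizer ({d} : Set (Matrix.SpecialLinearGroup (Fin 2) F))) : Set (Matrix.SpecialLinearGroup (Fin 2) F))) = 2 * (Fintype.card F - 1) := by
    rw [← Nat.card_congr (normEquiv d hd01 hd10 hda), Nat.card_eq_fintype_card, Fintype.card_sum, Fintype.card_units]
    ring
  refine ⟨mem_cent_iff d hd01 hd10 hda, hcardN, ?_, ?_⟩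
  · have h1 := card_comm_eq_card_conjClasses_mul_card (Subgroup.normalizer ((Subgroup.centralizer ({d} : Set (Matrix.SpecialLinearGroup (Fin 2) F))) : Set (Matrix.SpecialLinearGroup (Fin 2) F)))
    have h3 : Nat.card {p : (Subgroup.normalizer ((Subgroup.centralizer ({d} : Set (Matrix.SpecialLinearGroup (Fin 2) F))) : Set (Matrix.SpecialLinearGroup (Fin 2) F))) × (Subgroup.normalizer ((Subgroup.centralizer ({d} : Set (Matrix.SpecialLinearGroup (Fin 2) F))) : Set (Matrix.SpecialLinearGroup (Fin 2) F))) // Commute p.1 p.2}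
        = (Fintype.card F - 1) * (Fintype.card F + 5) := by
      rw [← count_pairs hodd, ← Nat.card_eq_fintype_card]
      apply Nat.card_congr
      symm
      refine (Equiv.prodCongr (normEquiv d hd01 hd10 hda) (normEquiv d hd01 hd10 hda)).subtypeEquiv ?_
      intro p
      rw [← elt_commute_iff]
      constructor
      · intro h
        apply Subtype.ext
        exact h
      · intro h
        have := congrArg Subtype.val h.eq
        exact this
    rw [h3, hcardN] at h1
    have hq : 2 ≤ Fintype.card F := Fintype.one_lt_card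
    have hpos : 0 < Fintype.card F - 1 := by omega
    have h4 : Fintype.card F + 5 = Nat.card (ConjClasses (Subgroup.normalizer ((Subgroup.centralizer ({d} : Set (Matrix.SpecialLinearGroup (Fin 2) F))) : Set (Matrix.SpecialLinearGroup (Fin 2) F)))) * 2 := by
      apply Nat.eq_of_mul_eq_mul_left hpos
      rw [h1]; ring
    omega
  · intro g hg hgT
    rw [mem_norm_iff d hd01 hd10 hda] at hg
    rw [mem_cent_iff d hd01 hd10 hda] at hgT
    rcases hg with h | ⟨h1, h2⟩
    · exact absurd h hgT
    · have hdet := det_eq g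
      rw [h1, zero_mul, zero_sub] at hdet
      ext i j
      fin_cases i <;> fin_cases j
      · simp [Matrix.mul_apply, Fin.sum_univ_two, h1, h2]
        linear_combination (-1 : F) * hdet
      · simp [Matrix.mul_apply, Fin.sum_univ_two, h1, h2]
      · simp [Matrix.mul_apply, Fin.sum_univ_two, h1, h2]
      · simp [Matrix.mul_apply, Fin.sum_univ_two, h1, h2]
        linear_combination (-1 : F) * hdet

end Cfsg.Agent.S2428
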