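import Cfsg.Statements.S2431
import Mathlib
import Cfsg.Agent.Lib.Helper54.SL2Syl
import Cfsg.Agent.Lib.Helper7.SL2Sylow
import Cfsg.Agent.S0261

set_option autoImplicit false
open Cfsg
open Cfsg.Agent.Lib.Helper54

namespace Cfsg.Agent.S2431

theorem sixteen_dvd (q : ℕ) (hq : q % 8 = 1 ∨ q % 8 = 7) : 16 ∣ (q - 1) * q * (q + 1) := by
  rcases hq with h | h
  · obtain ⟨m, rfl⟩ : ∃ m, q = 8 * m + 1 := ⟨q / 8, by omega⟩
    refine ⟨m * (8 * m + 1) * (4 * m + 1), ?_⟩
    have : 8 * m + 1 - 1 = 8 * m := by omega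
    rw [this]
    ring
  · obtain ⟨m, rfl⟩ : ∃ m, q = 8 * m + 7 := ⟨q / 8, by omega⟩
    refine ⟨(4 * m + 3) * (8 * m + 7) * (m + 1), ?_⟩
    have : 8 * m + 7 - 1 = 8 * m + 6 := by omega
    rw [this]
    ring

theorem not_sixteen_dvd (q : ℕ) (hq : q % 8 = 3 ∨ q % 8 = 5) :
    ¬ 16 ∣ (q - 1) * q * (q + 1) := by
  have key : ∀ a b c : ℕ, a % 2 = 1 → b % 2 = 1 → c % 2 = 1 → ¬ 16 ∣ 8 * (a * b * c) := by
    intro a b c ha hb hc hd
    have h2 : 2 ∣ a * b * c := by
      have : (16 : ℕ) = 8 * 2 := rfl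
      rw [this] at hd
      exact Nat.dvd_of_mul_dvd_mul_left (by norm_num) hd
    rcases (Nat.Prime.dvd_mul Nat.prime_two).mp h2 with h3 | h3
    · rcases (Nat.Prime.dvd_mul Nat.prime_two).mp h3 with h4 | h4 <;> omega
    · omega
  rcases hq with h | h
  · obtain ⟨m, rfl⟩ : ∃ m, q = 8 * m + 3 := ⟨q / 8, by omega⟩
    have : 8 * m + 3 - 1 = 8 * m + 2 := by omega
    rw [this]
    have e : (8 * m + 2) * (8 * m + 3) * (8 * m + 3 + 1) =
        8 * ((4 * m + 1) * (8 * m + 3) * (2 * m + 1)) := by ring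
    rw [e]
    exact key _ _ _ (by omega) (by omega) (by omega)
  · obtain ⟨m, rfl⟩ : ∃ m, q = 8 * m + 5 := ⟨q / 8, by omega⟩
    have : 8 * m + 5 - 1 = 8 * m + 4 := by omega
    rw [this]
    have e : (8 * m + 4) * (8 * m + 5) * (8 * m + 5 + 1) =
        8 * ((2 * m + 1) * (8 * m + 5) * (4 * m + 3)) := by ring
    rw [e]
    exact key _ _ _ (by omega) (by omega) (by omega)


/-- Let F be a finite field with q elements, q odd, and S a Sylow 2-subgroup of SL₂ over F. The centraliser of S is the centre of SL₂ (of order 2); S is its own normaliser when q ≡ ±1 mod 8, and has index 3 in its normaliser when q ≡ ±3 mod 8. -/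
theorem result {F : Type*} [Field F] [Fintype F] (hodd : Odd (Fintype.card F)) (S : Sylow 2 (Matrix.SpecialLinearGroup (Fin 2) F)) :
    Subgroup.centralizer ((S : Subgroup (Matrix.SpecialLinearGroup (Fin 2) F)) : Set (Matrix.SpecialLinearGroup (Fin 2) F)) = Subgroup.center (Matrix.SpecialLinearGroup (Fin 2) F) ∧
    ((Fintype.card F % 8 = 1 ∨ Fintype.card F % 8 = 7) →
      Subgroup.normalizer ((S : Subgroup (Matrix.SpecialLinearGroup (Fin 2) F)) : Set (Matrix.SpecialLinearGroup (Fin 2) F)) = (S : Subgroup (Matrix.SpecialLinearGroup (Fin 2) F))) ∧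
    ((Fintype.card F % 8 = 3 ∨ Fintype.card F % 8 = 5) →
      Nat.card (Subgroup.normalizer ((S : Subgroup (Matrix.SpecialLinearGroup (Fin 2) F)) : Set (Matrix.SpecialLinearGroup (Fin 2) F))) = 3 * Nat.card S) := by
  classical
  obtain ⟨k, hk, ⟨e⟩⟩ := Cfsg.Agent.S0261.result hodd S
  have : Fact (ringChar F).Prime := ⟨CharP.prime_ringChar F⟩
  have hp2 : ringChar F ≠ 2 := by
    intro h2
    have h3 := FiniteField.even_card_of_char_two h2
    obtain ⟨j, hj⟩ := hodd
    omega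
  obtain ⟨c, y, h⟩ := exists_QSyl (S : Subgroup (Matrix.SpecialLinearGroup (Fin 2) F)) k hk e
  have hcardS : Nat.card (S : Subgroup (Matrix.SpecialLinearGroup (Fin 2) F)) = 4 * 2 ^ k := by
    rw [Nat.card_congr e.toEquiv, Nat.card_eq_fintype_card, QuaternionGroup.card]
  have hcardG : Nat.card (Matrix.SpecialLinearGroup (Fin 2) F) =
      (Fintype.card F - 1) * Fintype.card F * (Fintype.card F + 1) :=
    Cfsg.Agent.Lib.Helper7.card_SL2
  have hdvd : Nat.card (S : Subgroup (Matrix.SpecialLinearGroup (Fin 2) F)) ∣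
      Nat.card (Matrix.SpecialLinearGroup (Fin 2) F) := Subgroup.card_subgroup_dvd_card _
  refine ⟨h.centralizer_eq (two_ne_zero_of_char (ringChar F) hp2), ?_, ?_⟩
  · intro hq
    apply h.normalizer_eq (ringChar F) hp2
    have h16 : 2 ^ 4 ∣ Nat.card (Matrix.SpecialLinearGroup (Fin 2) F) := by
      rw [hcardG]; exact sixteen_dvd _ hq
    have h1 : 2 ^ 4 ∣ Nat.card (S : Subgroup (Matrix.SpecialLinearGroup (Fin 2) F)) :=
      S.pow_dvd_card_of_pow_dvd_card h16
    rw [hcardS] at h1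
    have h4 : 4 ∣ 2 ^ k := by
      have h5 : 4 * 4 ∣ 4 * 2 ^ k := by
        have : (2 : ℕ) ^ 4 = 4 * 4 := by norm_num
        rwa [this] at h1
      exact Nat.dvd_of_mul_dvd_mul_left (by norm_num) h5
    exact Nat.le_of_dvd (by positivity) h4
  · intro hq
    have hk1 : k = 1 := by
      by_contra hk1
      have hk2 : 2 ≤ k := by omega
      apply not_sixteen_dvd _ hq
      rw [← hcardG]
      refine dvd_trans ?_ hdvd
      rw [hcardS]
      obtain ⟨j, rfl⟩ : ∃ j, k = j + 2 := ⟨k - 2, by omega⟩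
      exact ⟨2 ^ j, by ring⟩
    subst hk1
    have h8 : Nat.card (S : Subgroup (Matrix.SpecialLinearGroup (Fin 2) F)) = 8 := by
      rw [hcardS]; norm_num
    have h' : QSyl (S : Subgroup (Matrix.SpecialLinearGroup (Fin 2) F)) 2 c y := by
      have h0 := h
      rwa [pow_one] at h0
    rw [h'.card_normalizer (ringChar F) hp2 h8]
    have h9 : Nat.card S = 8 := h8
    rw [h9]

end Cfsg.Agent.S2431
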