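import Mathlib
import Cfsg.Statements.S2437

set_option autoImplicit false
open Cfsg

namespace Cfsg.Agent.S2437

open Matrix

lemma mem_bor_iff {F : Type*} [Field F] (g : Matrix.SpecialLinearGroup (Fin 2) F) :
    g ∈ (Cfsg.upperTriangularGL 2 F).comap Matrix.SpecialLinearGroup.toGL ↔
      (g : Matrix (Fin 2) (Fin 2) F) 1 0 = 0 := by
  rw [Subgroup.mem_comap]
  change ((Matrix.SpecialLinearGroup.toGL g : GL (Fin 2) F) : Matrix (Fin 2) (Fin 2) F).BlockTriangular id ↔ _
  rw [Matrix.SpecialLinearGroup.coe_GL_coe_matrix]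
  constructor
  · intro h
    exact h (by decide : (id (0 : Fin 2)) < id 1)
  · intro h i j hij
    fin_cases i <;> fin_cases j <;> simp_all

lemma det_eq {F : Type*} [Field F] (A : Matrix.SpecialLinearGroup (Fin 2) F) :
    (A : Matrix (Fin 2) (Fin 2) F) 0 0 * (A : Matrix (Fin 2) (Fin 2) F) 1 1
      - (A : Matrix (Fin 2) (Fin 2) F) 0 1 * (A : Matrix (Fin 2) (Fin 2) F) 1 0 = 1 := by
  have := A.det_coe
  rwa [Matrix.det_fin_two] at this

lemma bor_mul {F : Type*} [Field F]
    (g : (Cfsg.upperTriangularGL 2 F).comap Matrix.SpecialLinearGroup.toGL) :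
    ((g : Matrix.SpecialLinearGroup (Fin 2) F) : Matrix (Fin 2) (Fin 2) F) 1 0 = 0 ∧
    ((g : Matrix.SpecialLinearGroup (Fin 2) F) : Matrix (Fin 2) (Fin 2) F) 0 0 *
      ((g : Matrix.SpecialLinearGroup (Fin 2) F) : Matrix (Fin 2) (Fin 2) F) 1 1 = 1 := by
  have h := (mem_bor_iff g.1).mp g.2
  have hd := det_eq g.1
  rw [h, mul_zero, sub_zero] at hd
  exact ⟨h, hd⟩

/-- upper triangular element with given diagonal unit and corner entry -/
def mkB {F : Type*} [Field F] (a : Fˣ) (b : F) : Matrix.SpecialLinearGroup (Fin 2) F :=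
  ⟨!![(a : F), b; 0, (a : F)⁻¹], by simp [Matrix.det_fin_two]⟩

/-- the Borel subgroup is in bijection with `Fˣ × F` -/
noncomputable def borEquiv (F : Type*) [Field F] :
    ((Cfsg.upperTriangularGL 2 F).comap Matrix.SpecialLinearGroup.toGL) ≃ Fˣ × F where
  toFun g := (Units.mk0 (((g : Matrix.SpecialLinearGroup (Fin 2) F) : Matrix (Fin 2) (Fin 2) F) 0 0)
      (left_ne_zero_of_mul_eq_one (bor_mul g).2),
    ((g : Matrix.SpecialLinearGroup (Fin 2) F) : Matrix (Fin 2) (Fin 2) F) 0 1)
  invFun p := ⟨mkB p.1 p.2, (mem_bor_iff _).mpr (by simp [mkB])⟩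
  left_inv g := by
    obtain ⟨h1, h2⟩ := bor_mul g
    apply Subtype.ext
    apply Subtype.ext
    ext i j
    fin_cases i <;> fin_cases j
    · simp [mkB]
    · simp [mkB]
    · simp [mkB, h1]
    · simp [mkB]
      exact (eq_inv_of_mul_eq_one_right h2).symm
  right_inv p := by
    apply Prod.ext
    · apply Units.ext
      simp [mkB]
    · simp [mkB]

lemma commute_iff {F : Type*} [Field F]
    (g h : (Cfsg.upperTriangularGL 2 F).comap Matrix.SpecialLinearGroup.toGL) :
    Commute g h ↔
      (borEquiv F h).2 * (((borEquiv F g).1 : F) - ((borEquiv F g).1 : F)⁻¹)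
        = (borEquiv F g).2 * (((borEquiv F h).1 : F) - ((borEquiv F h).1 : F)⁻¹) := by
  obtain ⟨g1, g2⟩ := bor_mul g
  obtain ⟨h1, h2⟩ := bor_mul h
  have eg : ((g : Matrix.SpecialLinearGroup (Fin 2) F) : Matrix (Fin 2) (Fin 2) F) 1 1
      = (((g : Matrix.SpecialLinearGroup (Fin 2) F) : Matrix (Fin 2) (Fin 2) F) 0 0)⁻¹ :=
    eq_inv_of_mul_eq_one_right g2
  have eh : ((h : Matrix.SpecialLinearGroup (Fin 2) F) : Matrix (Fin 2) (Fin 2) F) 1 1
      = (((h : Matrix.SpecialLinearGroup (Fin 2) F) : Matrix (Fin 2) (Fin 2) F) 0 0)⁻¹ :=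
    eq_inv_of_mul_eq_one_right h2
  simp only [borEquiv, Equiv.coe_fn_mk, Units.val_mk0]
  rw [← eg, ← eh]
  constructor
  · intro hc
    have hc' : ((g : Matrix.SpecialLinearGroup (Fin 2) F) : Matrix (Fin 2) (Fin 2) F) *
        ((h : Matrix.SpecialLinearGroup (Fin 2) F) : Matrix (Fin 2) (Fin 2) F) =
        ((h : Matrix.SpecialLinearGroup (Fin 2) F) : Matrix (Fin 2) (Fin 2) F) *
        ((g : Matrix.SpecialLinearGroup (Fin 2) F) : Matrix (Fin 2) (Fin 2) F) := by
      have := congrArg (fun x : (Cfsg.upperTriangularGL 2 F).comap Matrix.SpecialLinearGroup.toGL =>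
        ((x : Matrix.SpecialLinearGroup (Fin 2) F) : Matrix (Fin 2) (Fin 2) F)) hc.eq
      simpa using this
    have h01 := congrFun (congrFun hc' 0) 1
    simp only [Matrix.mul_apply, Fin.sum_univ_two] at h01
    linear_combination h01
  · intro hc
    apply Subtype.ext
    apply Subtype.ext
    simp only [Subgroup.coe_mul, Matrix.SpecialLinearGroup.coe_mul]
    ext i j
    fin_cases i <;> fin_cases j
    · simp [Matrix.mul_apply, Fin.sum_univ_two, g1, h1]
      ring
    · simp only [Matrix.mul_apply, Fin.sum_univ_two]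
      simp
      linear_combination hc
    · simp [Matrix.mul_apply, Fin.sum_univ_two, g1, h1]
    · simp [Matrix.mul_apply, Fin.sum_univ_two, g1, h1]
      ring

lemma inner_count {F : Type*} [Field F] [Fintype F] [DecidableEq F] (u v : F) :
    (∑ b : F, ∑ d : F, if d * u = b * v then 1 else 0 : ℕ) =
      Fintype.card F + (if u = 0 then 1 else 0) * (if v = 0 then 1 else 0) *
        ((Fintype.card F - 1) * Fintype.card F) := by
  have hq : 1 ≤ Fintype.card F := Fintype.card_pos
  by_cases hu : u = 0
  · by_cases hv : v = 0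
    · subst hu; subst hv
      simp
      have : Fintype.card F * Fintype.card F = Fintype.card F + (Fintype.card F - 1) * Fintype.card F := by
        obtain ⟨n, hn⟩ : ∃ n, Fintype.card F = n + 1 := ⟨Fintype.card F - 1, by omega⟩
        rw [hn]; simp; ring
      exact this
    · subst hu
      have h2 : ∀ b : F, (∑ d : F, if d * (0 : F) = b * v then 1 else 0 : ℕ) = if b = 0 then Fintype.card F else 0 := by
        intro b
        by_cases hb : b = 0
        · simp [hb]
        · have : ¬ (0 : F) = b * v := fun h => (mul_ne_zero hb hv) h.symm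
          simp [hb, this]
      simp only [h2]
      simp [hv]
  · have h2 : ∀ b : F, (∑ d : F, if d * u = b * v then 1 else 0 : ℕ) = 1 := by
      intro b
      have : ∀ d : F, (d * u = b * v) ↔ d = b * v / u := fun d => (eq_div_iff hu).symm
      simp only [this]
      simp
    simp only [h2]
    simp [hu]

lemma card_roots_u {F : Type*} [Field F] [Fintype F] [DecidableEq F] (hodd : Odd (Fintype.card F)) :
    (∑ a : Fˣ, if ((a : F) - (a : F)⁻¹) = 0 then 1 else 0 : ℕ) = 2 := by
  have h2 : (2 : F) ≠ 0 := by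
    apply Ring.two_ne_zero
    intro h
    have := FiniteField.even_card_iff_char_two.mp h
    rcases hodd with ⟨k, hk⟩
    omega
  have hne : (1 : Fˣ) ≠ -1 := by
    intro h
    have : (1 : F) = -1 := by simpa using congrArg Units.val h
    apply h2
    linear_combination this
  have key : ∀ a : Fˣ, ((a : F) - (a : F)⁻¹ = 0) ↔ a ∈ ({1, -1} : Finset Fˣ) := by
    intro a
    simp only [Finset.mem_insert, Finset.mem_singleton]
    constructor
    · intro h
      have ha : (a : F) ≠ 0 := a.ne_zero
      have h' : ((a : F) - 1) * ((a : F) + 1) = 0 := by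
        field_simp at h
        linear_combination h
      rcases mul_eq_zero.mp h' with h'' | h''
      · left
        have : (a : F) = 1 := by linear_combination h''
        exact Units.ext this
      · right
        have : (a : F) = -1 := by linear_combination h''
        exact Units.ext (by rw [Units.val_neg, Units.val_one]; exact this)
    · rintro (h | h)
      · subst h; simp
      · subst h; simp
  simp only [key]
  rw [← Finset.card_filter]
  have : (Finset.univ.filter (fun a : Fˣ => a ∈ ({1, -1} : Finset Fˣ))) = {1, -1} := by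
    ext a; simp
  rw [this, Finset.card_pair hne]

lemma count_pairs {F : Type*} [Field F] [Fintype F] [DecidableEq F] (hodd : Odd (Fintype.card F)) :
    Fintype.card {p : (Fˣ × F) × (Fˣ × F) //
      p.2.2 * ((p.1.1 : F) - (p.1.1 : F)⁻¹) = p.1.2 * ((p.2.1 : F) - (p.2.1 : F)⁻¹)} =
      (Fintype.card F - 1) * Fintype.card F * (Fintype.card F + 3) := by
  rw [Fintype.card_subtype, Finset.card_filter]
  rw [Fintype.sum_prod_type]
  simp only [Fintype.sum_prod_type]
  have step : ∀ a : Fˣ, (∑ b : F, ∑ c : Fˣ, ∑ d : F,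
      if d * ((a : F) - (a : F)⁻¹) = b * ((c : F) - (c : F)⁻¹) then 1 else 0 : ℕ) =
      ∑ c : Fˣ, (Fintype.card F + (if ((a : F) - (a : F)⁻¹) = 0 then 1 else 0) *
        (if ((c : F) - (c : F)⁻¹) = 0 then 1 else 0) * ((Fintype.card F - 1) * Fintype.card F)) := by
    intro a
    rw [Finset.sum_comm]
    apply Finset.sum_congr rfl
    intro c _
    exact inner_count _ _
  simp only [step]
  simp only [Finset.sum_add_distrib, Finset.sum_const, Finset.card_univ, smul_eq_mul, Fintype.card_units]
  simp only [← Finset.sum_mul, ← Finset.mul_sum]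
  rw [card_roots_u hodd]
  have hq : 1 ≤ Fintype.card F := Fintype.card_pos
  obtain ⟨n, hn⟩ : ∃ n, Fintype.card F = n + 1 := ⟨Fintype.card F - 1, by omega⟩
  rw [hn]
  simp
  ring

theorem result {F : Type*} [Field F] [Fintype F] (hodd : Odd (Fintype.card F)) :
    Nat.card (ConjClasses ((Cfsg.upperTriangularGL 2 F).comap Matrix.SpecialLinearGroup.toGL)) = Fintype.card F + 3 := by
  classical
  have h1 := card_comm_eq_card_conjClasses_mul_card ((Cfsg.upperTriangularGL 2 F).comap Matrix.SpecialLinearGroup.toGL)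
  have h2 : Nat.card ((Cfsg.upperTriangularGL 2 F).comap Matrix.SpecialLinearGroup.toGL) = (Fintype.card F - 1) * Fintype.card F := by
    rw [Nat.card_congr (borEquiv F), Nat.card_eq_fintype_card, Fintype.card_prod, Fintype.card_units]
  have h3 : Nat.card {p : ((Cfsg.upperTriangularGL 2 F).comap Matrix.SpecialLinearGroup.toGL) × ((Cfsg.upperTriangularGL 2 F).comap Matrix.SpecialLinearGroup.toGL) // Commute p.1 p.2}
      = (Fintype.card F - 1) * Fintype.card F * (Fintype.card F + 3) := by
    rw [← count_pairs hodd, ← Nat.card_eq_fintype_card]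
    apply Nat.card_congr
    exact (Equiv.prodCongr (borEquiv F) (borEquiv F)).subtypeEquiv (fun p => commute_iff p.1 p.2)
  rw [h3, h2] at h1
  have hq : 2 ≤ Fintype.card F := Fintype.one_lt_card
  have hpos : 0 < (Fintype.card F - 1) * Fintype.card F := by
    apply Nat.mul_pos <;> omega
  have := Nat.eq_of_mul_eq_mul_left hpos (h1.trans (mul_comm _ _))
  exact this.symm

end Cfsg.Agent.S2437
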