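import Cfsg.Statements.S0248
import Mathlib

set_option autoImplicit false
open Cfsg

namespace Cfsg.Agent.S0248
open Matrix Matrix.SpecialLinearGroup
open scoped commutatorElement

section aux

variable {ι F : Type*} [DecidableEq ι] [Fintype ι] [Field F]

lemma transvection_commutator {i j k : ι} (hij : i ≠ j) (hik : i ≠ k) (hkj : k ≠ j) (c : F) :
    ⁅transvection hik c, transvection hkj (1:F)⁆ = transvection hij c := by
  rw [commutatorElement_def, transvection_inv, transvection_inv]
  apply Subtype.ext
  simp [transvection_coe, mul_add, add_mul, single_mul_single_of_ne, hij.symm, hik.symm, hkj.symm]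
  simp only [← single_neg]
  abel

lemma diag2n_eq {i j : ι} (hij : i ≠ j) (a : F) (ha : a ≠ 0) :
    diag2n hij a ha = transvection hij a * transvection hij.symm (-a⁻¹) * transvection hij a *
      transvection hij (-1) * transvection hij.symm 1 * transvection hij (-1) := by
  apply Subtype.ext
  simp [transvection_coe, diag2n_coe, mul_add, add_mul, single_mul_single_of_ne, hij, hij.symm, ha]
  ext k l
  simp only [diagonal_apply, single_apply, one_apply, Matrix.add_apply]
  grind

lemma exists_third (h3 : 3 ≤ Fintype.card ι) (i j : ι) : ∃ k : ι, k ≠ i ∧ k ≠ j := by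
  by_contra h
  push Not at h
  have hsub : (Finset.univ : Finset ι) ⊆ {i, j} := fun k _ => by
    by_cases hk : k = i
    · simp [hk]
    · simp [h k hk]
  have h1 := Finset.card_le_card hsub
  have h2 : ({i, j} : Finset ι).card ≤ 2 := Finset.card_le_two
  rw [Finset.card_univ] at h1
  omega

lemma transvection_mem_commutator (h3 : 3 ≤ Fintype.card ι) {i j : ι} (hij : i ≠ j) (c : F) :
    transvection hij c ∈ commutator (SpecialLinearGroup ι F) := by
  obtain ⟨k, hki, hkj⟩ := exists_third h3 i j
  rw [← transvection_commutator hij hki.symm hkj c]
  exact Subgroup.commutator_mem_commutator (Subgroup.mem_top _) (Subgroup.mem_top _)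

lemma commutator_eq_top (h3 : 3 ≤ Fintype.card ι) :
    commutator (SpecialLinearGroup ι F) = ⊤ := by
  have : Nontrivial ι := Fintype.one_lt_card_iff_nontrivial.mp (by omega)
  refine le_antisymm le_top (fun A _ => ?_)
  refine diagonal_transvection_induction' (fun A => A ∈ commutator (SpecialLinearGroup ι F)) A
    ?_ ?_ ?_
  · intro i j hij c hc
    rw [diag2n_eq hij c hc]
    exact mul_mem (mul_mem (mul_mem (mul_mem (mul_mem
      (transvection_mem_commutator h3 _ _) (transvection_mem_commutator h3 _ _))
      (transvection_mem_commutator h3 _ _)) (transvection_mem_commutator h3 _ _))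
      (transvection_mem_commutator h3 _ _)) (transvection_mem_commutator h3 _ _)
  · intro i j hij a
    exact transvection_mem_commutator h3 hij a
  · intro A B hA hB
    exact mul_mem hA hB

end aux

/-- SL_n(F) is perfect for n at least 3, over any field F. -/
theorem result {F : Type*} [Field F] (n : ℕ) (hn : 3 ≤ n) : commutator (Matrix.SpecialLinearGroup (Fin n) F) = ⊤ := by
  exact commutator_eq_top (by simpa using hn)

end Cfsg.Agent.S0248
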