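import Cfsg.Statements.S0262
import Mathlib
import Cfsg.Agent.Lib.Helper7.SL2Torus

set_option autoImplicit false
open Cfsg

namespace Cfsg.Agent.S0262

open Cfsg.Agent.Lib.Helper7

/-- For an odd prime r different from the characteristic, the Sylow r-subgroups of SL_2(q) are cyclic. -/
theorem result {F : Type*} [Field F] [Fintype F] (p : ℕ) [Fact p.Prime] [CharP F p] (r : ℕ) [Fact r.Prime] (hr : r ≠ 2) (hrp : r ≠ p) (R : Sylow r (Matrix.SpecialLinearGroup (Fin 2) F)) : IsCyclic (R : Subgroup (Matrix.SpecialLinearGroup (Fin 2) F)) := by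
  classical
  have hpp : p.Prime := Fact.out
  have hrr : r.Prime := Fact.out
  set a := (Nat.card (Matrix.SpecialLinearGroup (Fin 2) F)).factorization r with ha
  have hR : Nat.card R = r ^ a := R.card_eq_multiplicity
  by_cases ha0 : a = 0
  · rw [ha0, pow_zero] at hR
    have : Subsingleton R := (Nat.card_eq_one_iff_unique.mp hR).1
    exact isCyclic_of_subsingleton
  · have hq : 1 < Fintype.card F := Fintype.one_lt_card
    obtain ⟨k, -, hk⟩ := FiniteField.card F p
    have hdvd : r ^ a ∣ (Fintype.card F - 1) * Fintype.card F * (Fintype.card F + 1) := by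
      rw [← card_SL2]
      exact Nat.ordProj_dvd _ _
    have hrq : ¬ r ∣ Fintype.card F := by
      rw [hk]
      intro h
      exact hrp ((Nat.prime_dvd_prime_iff_eq hrr hpp).mp (hrr.dvd_of_dvd_pow h))
    have hcop : Nat.Coprime (r ^ a) (Fintype.card F) :=
      Nat.Coprime.pow_left _ ((Nat.Prime.coprime_iff_not_dvd hrr).mpr hrq)
    have hdvd2 : r ^ a ∣ (Fintype.card F - 1) * (Fintype.card F + 1) := by
      have : (Fintype.card F - 1) * Fintype.card F * (Fintype.card F + 1) =
          Fintype.card F * ((Fintype.card F - 1) * (Fintype.card F + 1)) := by ring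
      rw [this] at hdvd
      exact hcop.dvd_of_dvd_mul_left hdvd
    have hd : r ^ a ∣ Fintype.card F - 1 ∨ r ^ a ∣ Fintype.card F + 1 := by
      by_cases h1 : r ∣ Fintype.card F - 1
      · left
        have h2 : ¬ r ∣ Fintype.card F + 1 := by
          intro h2
          have h3 : r ∣ 2 := by
            have : Fintype.card F + 1 = (Fintype.card F - 1) + 2 := by omega
            rw [this] at h2
            exact (Nat.dvd_add_right h1).mp h2
          exact hr ((Nat.prime_dvd_prime_iff_eq hrr Nat.prime_two).mp h3)
        have hc : Nat.Coprime (r ^ a) (Fintype.card F + 1) :=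
          Nat.Coprime.pow_left _ ((Nat.Prime.coprime_iff_not_dvd hrr).mpr h2)
        exact hc.dvd_of_dvd_mul_right hdvd2
      · right
        have hc : Nat.Coprime (r ^ a) (Fintype.card F - 1) :=
          Nat.Coprime.pow_left _ ((Nat.Prime.coprime_iff_not_dvd hrr).mpr h1)
        exact hc.dvd_of_dvd_mul_left hdvd2
    have h3 : 3 ≤ r ^ a := by
      have hr3 : 3 ≤ r := by
        have := hrr.two_le
        omega
      calc 3 ≤ r := hr3
        _ = r ^ 1 := (pow_one r).symm
        _ ≤ r ^ a := Nat.pow_le_pow_right hrr.pos (Nat.one_le_iff_ne_zero.mpr ha0)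
    obtain ⟨t, -, ht⟩ := exists_cmp_orderOf (F := F) (r ^ a) h3 hd
    have hcard : Nat.card (Subgroup.zpowers (cmp t)) =
        r ^ (Nat.card (Matrix.SpecialLinearGroup (Fin 2) F)).factorization r := by
      rw [Nat.card_zpowers, ht]
    let S : Sylow r (Matrix.SpecialLinearGroup (Fin 2) F) := Sylow.ofCard _ hcard
    have hS : IsCyclic S := by
      show IsCyclic (Subgroup.zpowers (cmp t))
      infer_instance
    let e : R ≃* S := Sylow.equiv R S
    exact isCyclic_of_surjective e.symm e.symm.surjective

end Cfsg.Agent.S0262
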