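import Cfsg.Statements.S3963
import Cfsg.Agent.Lib.Helper70.StemTools

set_option autoImplicit false
open Cfsg
open scoped commutatorElement

namespace Cfsg.Agent.S3963

open Cfsg.Agent.Lib.Helper70 QuaternionGroup

theorem inv_xa' (n : ℕ) (i : ZMod (2 * n)) : (xa i : QuaternionGroup n)⁻¹ = xa ((n : ZMod (2 * n)) + i) := rfl
theorem inv_a' (n : ℕ) (i : ZMod (2 * n)) : (a i : QuaternionGroup n)⁻¹ = a (-i) := rfl

theorem two_n (n : ℕ) : ((n : ZMod (2 * n)) + n) = 0 := by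
  rw [← Nat.cast_add, ZMod.natCast_eq_zero_iff]
  exact ⟨1, by ring⟩

theorem closure_gens (n : ℕ) [NeZero n] : Subgroup.closure ({a 1, xa 0} : Set (QuaternionGroup n)) = ⊤ := by
  rw [eq_top_iff]
  rintro (i | i) -
  · have h : (a i : QuaternionGroup n) = (a 1) ^ i.val := by
      rw [a_one_pow, ZMod.natCast_zmod_val]
    rw [h]
    exact Subgroup.pow_mem _ (Subgroup.subset_closure (by simp)) _
  · have h : (xa i : QuaternionGroup n) = xa 0 * (a 1) ^ i.val := by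
      rw [a_one_pow, ZMod.natCast_zmod_val, xa_mul_a, zero_add]
    rw [h]
    exact Subgroup.mul_mem _ (Subgroup.subset_closure (by simp))
      (Subgroup.pow_mem _ (Subgroup.subset_closure (by simp)) _)

/-- For every `n ≥ 1` the dicyclic (generalized quaternion) group of order `4 n` has trivial Schur multiplier. -/
theorem result (n : ℕ) [NeZero n] : Cfsg.HasCyclicSchurMultiplier (QuaternionGroup n) 1 := by
  rw [hasCyclicSchurMultiplier_one_iff]
  intro Γ _ _ σ hσ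
  obtain ⟨hsurj, hcen, hcomm⟩ := hσ
  obtain ⟨ρ, hρ⟩ := hsurj (a 1)
  obtain ⟨ξ, hξ⟩ := hsurj (xa 0)
  have hgen : Subgroup.closure (({ρ, ξ} : Set Γ) ∪ (σ.ker : Set Γ)) = ⊤ := by
    apply closure_union_ker_eq_top
    rw [hρ, hξ]; exact closure_gens n
  have h2 : ξ * ρ * ξ⁻¹ * ρ ∈ σ.ker := by
    rw [MonoidHom.mem_ker]
    simp only [map_mul, map_inv, hρ, hξ, inv_xa', xa_mul_a, xa_mul_xa, a_mul_a, one_def]
    congr 1
    linear_combination two_n n
  -- ξ * ξ = k * ρ ^ n with k central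
  have hk : ξ * ξ * (ρ ^ n)⁻¹ ∈ σ.ker := by
    rw [MonoidHom.mem_ker]
    simp only [map_mul, map_inv, map_pow, hρ, hξ, a_one_pow, inv_a', xa_mul_xa, a_mul_a, one_def]
    congr 1
    ring
  have hkc := hcen hk
  have hξξ : ξ * ξ = (ξ * ξ * (ρ ^ n)⁻¹) * ρ ^ n := by group
  have h3 : Commute (ξ * ξ) ρ := by
    rw [hξξ]
    have hkρ : Commute ρ (ξ * ξ * (ρ ^ n)⁻¹) := Subgroup.mem_center_iff.mp hkc ρ
    exact Commute.mul_left hkρ.symm (Commute.pow_left (Commute.refl ρ) n)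
  have hle := commutator_le_zpowers_of_dihedral_type σ.ker hcen ρ ξ hgen h2 h3
  have hpow : ⁅ρ, ξ⁆ ^ n = 1 := by
    apply dihedral_type_pow_eq_one σ.ker hcen ρ ξ h2 n
    have hρn : ρ ^ n = (ξ * ξ * (ρ ^ n)⁻¹)⁻¹ * (ξ * ξ) := by group
    rw [hρn]
    have hkξ : Commute ξ (ξ * ξ * (ρ ^ n)⁻¹) := Subgroup.mem_center_iff.mp hkc ξ
    apply Commute.mul_right
    · exact hkξ.inv_right
    · exact (Commute.refl ξ).mul_right (Commute.refl ξ)
  apply ker_eq_bot_of_le_zpowers σ ⁅ρ, ξ⁆ n (hcomm.trans hle) hpow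
  have hc : σ ⁅ρ, ξ⁆ = (a 1) ^ 2 := by
    rw [map_commutatorElement, hρ, hξ, commutatorElement_def, inv_xa', inv_a']
    simp only [a_mul_xa, xa_mul_a, xa_mul_xa, pow_two, a_mul_a]
    congr 1
    linear_combination two_n n
  rw [hc, orderOf_pow, orderOf_a_one]
  have : Nat.gcd (2 * n) 2 = 2 := Nat.gcd_eq_right (Dvd.intro n rfl)
  rw [this, Nat.mul_div_cancel_left n (by norm_num)]

end Cfsg.Agent.S3963
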