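import Cfsg.Statements.S2117
import Mathlib
import Cfsg.Agent.Lib.Helper70.SchurLocal
import Cfsg.Agent.Lib.Helper7.SL2Sylow
import Cfsg.Agent.S0261
import Cfsg.Agent.S0262
import Cfsg.Agent.S3963

set_option autoImplicit false
open Cfsg

namespace Cfsg.Agent.S2117

open Cfsg.Agent.Lib.Helper70 Cfsg.Agent.Lib.Helper7
open scoped commutatorElement

/-! ### Commutator calculus with central commutators -/

section Comm

variable {Γ : Type*} [Group Γ]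

theorem comm_mul_left (a b c : Γ) (h : ⁅b, c⁆ ∈ Subgroup.center Γ) :
    ⁅a * b, c⁆ = ⁅a, c⁆ * ⁅b, c⁆ := by
  have hc : ∀ g : Γ, g * ⁅b, c⁆ = ⁅b, c⁆ * g := fun g => Subgroup.mem_center_iff.mp h g
  calc ⁅a * b, c⁆ = a * ⁅b, c⁆ * (c * a⁻¹ * c⁻¹) := by simp only [commutatorElement_def]; group
    _ = ⁅b, c⁆ * a * (c * a⁻¹ * c⁻¹) := by rw [hc]
    _ = ⁅b, c⁆ * ⁅a, c⁆ := by simp only [commutatorElement_def]; group
    _ = ⁅a, c⁆ * ⁅b, c⁆ := (hc _).symm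

theorem comm_mul_right (a b c : Γ) (h : ⁅a, c⁆ ∈ Subgroup.center Γ) :
    ⁅a, b * c⁆ = ⁅a, b⁆ * ⁅a, c⁆ := by
  have hc : ∀ g : Γ, g * ⁅a, c⁆ = ⁅a, c⁆ * g := fun g => Subgroup.mem_center_iff.mp h g
  calc ⁅a, b * c⁆ = (a * b * a⁻¹) * ⁅a, c⁆ * b⁻¹ := by simp only [commutatorElement_def]; group
    _ = ⁅a, c⁆ * (a * b * a⁻¹) * b⁻¹ := by rw [hc]
    _ = ⁅a, c⁆ * ⁅a, b⁆ := by simp only [commutatorElement_def]; group
    _ = ⁅a, b⁆ * ⁅a, c⁆ := (hc _).symm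

theorem comm_conj (h a b : Γ) (hz : ⁅a, b⁆ ∈ Subgroup.center Γ) :
    ⁅h * a * h⁻¹, h * b * h⁻¹⁆ = ⁅a, b⁆ := by
  have hc := Subgroup.mem_center_iff.mp hz h
  calc ⁅h * a * h⁻¹, h * b * h⁻¹⁆ = h * ⁅a, b⁆ * h⁻¹ := by
        simp only [commutatorElement_def]; group
    _ = ⁅a, b⁆ := by rw [hc]; group

/-- A central extension of the additive group of a field on which the nonzero squares act compatibly has
trivial commutator pairing, as soon as some nonzero squares `μ₁ + μ₂ = μ₃` have `μ₁⁻¹ + μ₂⁻¹ ≠ μ₃⁻¹`. -/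
theorem pairing_trivial {F : Type*} [Field F] (u : F → Γ)
    (hcomm : ∀ x y, ⁅u x, u y⁆ ∈ Subgroup.center Γ)
    (hadd : ∀ x y, ∃ z ∈ Subgroup.center Γ, u (x + y) = u x * u y * z)
    (hconj : ∀ a : F, a ≠ 0 → ∃ h : Γ, ∀ x, ∃ z ∈ Subgroup.center Γ,
      u (a ^ 2 * x) = h * u x * h⁻¹ * z)
    (a₁ a₂ a₃ : F) (h₁ : a₁ ≠ 0) (h₂ : a₂ ≠ 0) (h₃ : a₃ ≠ 0) (hsum : a₁ ^ 2 + a₂ ^ 2 = a₃ ^ 2)
    (hδ : (a₁ ^ 2)⁻¹ + (a₂ ^ 2)⁻¹ - (a₃ ^ 2)⁻¹ ≠ 0) (x y : F) : ⁅u x, u y⁆ = 1 := by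
  have hL : ∀ x x' y, ⁅u (x + x'), u y⁆ = ⁅u x, u y⁆ * ⁅u x', u y⁆ := by
    intro x x' y
    obtain ⟨z, hz, h⟩ := hadd x x'
    rw [h, commutatorElement_mul_central_left _ _ _ hz, comm_mul_left _ _ _ (hcomm x' y)]
  have hR : ∀ x y y', ⁅u x, u (y + y')⁆ = ⁅u x, u y⁆ * ⁅u x, u y'⁆ := by
    intro x y y'
    obtain ⟨z, hz, h⟩ := hadd y y'
    rw [h, commutatorElement_mul_central_right _ _ _ hz, comm_mul_right _ _ _ (hcomm x y')]
  have hI : ∀ a : F, a ≠ 0 → ∀ x y, ⁅u (a ^ 2 * x), u (a ^ 2 * y)⁆ = ⁅u x, u y⁆ := by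
    intro a ha x y
    obtain ⟨h, hh⟩ := hconj a ha
    obtain ⟨z, hz, e1⟩ := hh x
    obtain ⟨z', hz', e2⟩ := hh y
    rw [e1, e2, commutatorElement_mul_central _ _ _ _ hz hz', comm_conj _ _ _ (hcomm x y)]
  have hadj : ∀ a : F, a ≠ 0 → ∀ x y, ⁅u (a ^ 2 * x), u y⁆ = ⁅u x, u ((a ^ 2)⁻¹ * y)⁆ := by
    intro a ha x y
    have h := hI a ha x ((a ^ 2)⁻¹ * y)
    rw [← mul_assoc, mul_inv_cancel₀ (pow_ne_zero 2 ha), one_mul] at h
    exact h
  have hRsub : ∀ x y y', ⁅u x, u (y - y')⁆ = ⁅u x, u y⁆ * (⁅u x, u y'⁆)⁻¹ := by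
    intro x y y'
    have h := hR x (y - y') y'
    rw [sub_add_cancel] at h
    rw [h, mul_inv_cancel_right]
  have key : ∀ x y, ⁅u x, u (((a₁ ^ 2)⁻¹ + (a₂ ^ 2)⁻¹ - (a₃ ^ 2)⁻¹) * y)⁆ = 1 := by
    intro x y
    have e1 : ⁅u (a₃ ^ 2 * x), u y⁆ =
        ⁅u x, u ((a₁ ^ 2)⁻¹ * y)⁆ * ⁅u x, u ((a₂ ^ 2)⁻¹ * y)⁆ := by
      rw [← hsum, add_mul, hL, hadj a₁ h₁, hadj a₂ h₂]
    have e2 := hadj a₃ h₃ x y
    rw [e1, ← hR] at e2
    rw [sub_mul, hRsub, add_mul, e2, mul_inv_cancel]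
  have h := key x (((a₁ ^ 2)⁻¹ + (a₂ ^ 2)⁻¹ - (a₃ ^ 2)⁻¹)⁻¹ * y)
  rwa [← mul_assoc, mul_inv_cancel₀ hδ, one_mul] at h

end Comm

/-! ### The unipotent subgroup of `SL₂` -/

section SL2

variable {F : Type*} [Field F]

/-- The diagonal element `diag(a, a⁻¹)`. -/
def dg (a : F) (ha : a ≠ 0) : Matrix.SpecialLinearGroup (Fin 2) F :=
  ⟨!![a, 0; 0, a⁻¹], by rw [Matrix.det_fin_two_of]; simp [ha]⟩

theorem dg_conj (a : F) (ha : a ≠ 0) (t : F) : dg a ha * tu t * (dg a ha)⁻¹ = tu (a ^ 2 * t) := by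
  have h := sl2_conj_upper (dg a ha) (by simp [dg]) t
  rw [h]
  congr 1
  simp [dg]
  ring

theorem comap_USL_abelian {Γ : Type*} [Group Γ] (σ : Γ →* Matrix.SpecialLinearGroup (Fin 2) F)
    (hσ : Function.Surjective σ) (hc : σ.ker ≤ Subgroup.center Γ)
    (a₁ a₂ a₃ : F) (h₁ : a₁ ≠ 0) (h₂ : a₂ ≠ 0) (h₃ : a₃ ≠ 0) (hsum : a₁ ^ 2 + a₂ ^ 2 = a₃ ^ 2)
    (hδ : (a₁ ^ 2)⁻¹ + (a₂ ^ 2)⁻¹ - (a₃ ^ 2)⁻¹ ≠ 0) :
    ⁅(USL F).comap σ, (USL F).comap σ⁆ = ⊥ := by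
  choose u hu using fun x : F => hσ (tu x)
  have hker : ∀ g k : Γ, σ g = σ k → ∃ z ∈ Subgroup.center Γ, g = k * z := by
    intro g k h
    refine ⟨k⁻¹ * g, hc ?_, by group⟩
    rw [MonoidHom.mem_ker, map_mul, map_inv, h, inv_mul_cancel]
  have hcomm : ∀ x y, ⁅u x, u y⁆ ∈ Subgroup.center Γ := by
    intro x y
    apply hc
    rw [MonoidHom.mem_ker, map_commutatorElement, hu, hu, commutatorElement_eq_one_iff_commute]
    show tu x * tu y = tu y * tu x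
    rw [← tu_add, ← tu_add, add_comm]
  have hadd : ∀ x y, ∃ z ∈ Subgroup.center Γ, u (x + y) = u x * u y * z := by
    intro x y
    apply hker
    rw [map_mul, hu, hu, hu, tu_add]
  have hconj : ∀ a : F, a ≠ 0 → ∃ h : Γ, ∀ x, ∃ z ∈ Subgroup.center Γ,
      u (a ^ 2 * x) = h * u x * h⁻¹ * z := by
    intro a ha
    obtain ⟨h, hh⟩ := hσ (dg a ha)
    refine ⟨h, fun x => hker _ _ ?_⟩
    rw [map_mul, map_mul, map_inv, hu, hu, hh, dg_conj]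
  have hB := pairing_trivial u hcomm hadd hconj a₁ a₂ a₃ h₁ h₂ h₃ hsum hδ
  rw [eq_bot_iff, Subgroup.commutator_le]
  intro g hg k hk
  rw [Subgroup.mem_comap, mem_USL_iff] at hg hk
  obtain ⟨x, hx⟩ := hg
  obtain ⟨y, hy⟩ := hk
  obtain ⟨z, hz, rfl⟩ := hker g (u x) (by rw [hu, hx])
  obtain ⟨z', hz', rfl⟩ := hker k (u y) (by rw [hu, hy])
  rw [commutatorElement_mul_central _ _ _ _ hz hz', hB]
  exact Subgroup.one_mem _

end SL2

/-! ### Existence of the triple of squares -/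

section Triple

variable {F : Type*} [Field F] [Fintype F]

open Polynomial in
theorem exists_triple_char_two (hchar : (2 : F) = 0) (hcard : 4 < Fintype.card F) :
    ∃ a₁ a₂ a₃ : F, a₁ ≠ 0 ∧ a₂ ≠ 0 ∧ a₃ ≠ 0 ∧ a₁ ^ 2 + a₂ ^ 2 = a₃ ^ 2 ∧
      (a₁ ^ 2)⁻¹ + (a₂ ^ 2)⁻¹ - (a₃ ^ 2)⁻¹ ≠ 0 := by
  have hP : (X * (X + 1) * (X ^ 2 + X + 1) : F[X]) ≠ 0 := by
    refine mul_ne_zero (mul_ne_zero X_ne_zero ?_) ?_
    · intro h
      have := congrArg (Polynomial.eval 0) h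
      simp at this
    · intro h
      have := congrArg (Polynomial.eval 0) h
      simp at this
  have hdeg : (X * (X + 1) * (X ^ 2 + X + 1) : F[X]).natDegree ≤ 4 := by
    compute_degree
  obtain ⟨b, hb⟩ := Polynomial.exists_eval_ne_zero_of_natDegree_lt_card _ hP (by
    rw [Cardinal.mk_fintype]
    exact_mod_cast lt_of_le_of_lt hdeg hcard)
  simp only [eval_mul, eval_add, eval_X, eval_one, eval_pow, mul_ne_zero_iff] at hb
  obtain ⟨⟨hb0, hb1⟩, hb2⟩ := hb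
  have hb1' : (1 + b) ≠ 0 := by rwa [add_comm]
  refine ⟨1, b, 1 + b, one_ne_zero, hb0, hb1', ?_, ?_⟩
  · linear_combination (-b) * hchar
  · intro h
    have e : ((1 : F) ^ 2)⁻¹ + (b ^ 2)⁻¹ - ((1 + b) ^ 2)⁻¹ =
        ((1 + b) ^ 2 * b ^ 2 + (1 + b) ^ 2 - b ^ 2) / (b ^ 2 * (1 + b) ^ 2) := by
      field_simp
    rw [e, div_eq_zero_iff] at h
    rcases h with h | h
    · have h' : (b ^ 2 + b + 1) ^ 2 = 0 := by
        linear_combination h + b ^ 2 * hchar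
      exact hb2 ((pow_eq_zero_iff (two_ne_zero)).mp h')
    · exact mul_ne_zero (pow_ne_zero 2 hb0) (pow_ne_zero 2 hb1') h

open Polynomial in
theorem exists_triple_odd (hchar : (2 : F) ≠ 0) (hcard : 13 < Fintype.card F) :
    ∃ a₁ a₂ a₃ : F, a₁ ≠ 0 ∧ a₂ ≠ 0 ∧ a₃ ≠ 0 ∧ a₁ ^ 2 + a₂ ^ 2 = a₃ ^ 2 ∧
      (a₁ ^ 2)⁻¹ + (a₂ ^ 2)⁻¹ - (a₃ ^ 2)⁻¹ ≠ 0 := by
  have hP : (X * (X ^ 2 - 1) * (X ^ 2 + 1) *
      ((X ^ 2 + 1) ^ 4 - 4 * X ^ 2 * (X ^ 2 - 1) ^ 2) : F[X]) ≠ 0 := by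
    refine mul_ne_zero (mul_ne_zero (mul_ne_zero X_ne_zero ?_) ?_) ?_
    · intro h
      have := congrArg (Polynomial.eval 0) h
      simp at this
    · intro h
      have := congrArg (Polynomial.eval 0) h
      simp at this
    · intro h
      have := congrArg (Polynomial.eval 0) h
      simp at this
  have hdeg : (X * (X ^ 2 - 1) * (X ^ 2 + 1) *
      ((X ^ 2 + 1) ^ 4 - 4 * X ^ 2 * (X ^ 2 - 1) ^ 2) : F[X]).natDegree ≤ 13 := by
    compute_degree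
  obtain ⟨s, hs⟩ := Polynomial.exists_eval_ne_zero_of_natDegree_lt_card _ hP (by
    rw [Cardinal.mk_fintype]
    exact_mod_cast lt_of_le_of_lt hdeg hcard)
  simp only [eval_mul, eval_add, eval_sub, eval_X, eval_one, eval_pow, eval_ofNat,
    mul_ne_zero_iff] at hs
  obtain ⟨⟨⟨hs0, hs1⟩, hs2⟩, hs3⟩ := hs
  refine ⟨2 * s, s ^ 2 - 1, s ^ 2 + 1, mul_ne_zero hchar hs0, hs1, hs2, by ring, ?_⟩
  intro h
  have e : ((2 * s) ^ 2)⁻¹ + ((s ^ 2 - 1) ^ 2)⁻¹ - ((s ^ 2 + 1) ^ 2)⁻¹ =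
      ((s ^ 2 + 1) ^ 4 - 4 * s ^ 2 * (s ^ 2 - 1) ^ 2) /
        ((2 * s) ^ 2 * (s ^ 2 - 1) ^ 2 * (s ^ 2 + 1) ^ 2) := by
    field_simp
    ring
  rw [e, div_eq_zero_iff] at h
  rcases h with h | h
  · exact hs3 h
  · exact mul_ne_zero (mul_ne_zero (pow_ne_zero 2 (mul_ne_zero hchar hs0)) (pow_ne_zero 2 hs1))
      (pow_ne_zero 2 hs2) h

end Triple

/-! ### The main theorem -/

theorem unipotent_case {F : Type*} [Field F] [Fintype F] (p : ℕ) [Fact p.Prime] [CharP F p]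
    (h4 : Fintype.card F ≠ 4) (h9 : Fintype.card F ≠ 9) {Γ : Type*} [Group Γ]
    (σ : Γ →* Matrix.SpecialLinearGroup (Fin 2) F) (hσ : Function.Surjective σ)
    (hc : σ.ker ≤ Subgroup.center Γ) : ⁅(USL F).comap σ, (USL F).comap σ⁆ = ⊥ := by
  obtain ⟨k, hp, hk⟩ := FiniteField.card F p
  by_cases hk1 : (k : ℕ) = 1
  · have : IsCyclic (USL F) := isCyclic_of_prime_card (p := p) (by rw [card_USL, hk, hk1, pow_one])
    exact commutator_comap_eq_bot_of_isCyclic σ hc (USL F)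
  · have hk2 : 2 ≤ (k : ℕ) := by have := k.pos; omega
    by_cases hp2 : p = 2
    · have hq : 4 < Fintype.card F := by
        rw [hk, hp2]
        have hne : (k : ℕ) ≠ 2 := fun h => h4 (by rw [hk, hp2, h]; norm_num)
        have h3 : 3 ≤ (k : ℕ) := by omega
        calc 4 < 2 ^ 3 := by norm_num
          _ ≤ 2 ^ (k : ℕ) := Nat.pow_le_pow_right (by norm_num) h3
      have h2 : (2 : F) = 0 := by
        have := CharP.cast_eq_zero F p
        rw [hp2] at this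
        exact_mod_cast this
      obtain ⟨a₁, a₂, a₃, h₁, h₂, h₃, hsum, hδ⟩ := exists_triple_char_two h2 hq
      exact comap_USL_abelian σ hσ hc a₁ a₂ a₃ h₁ h₂ h₃ hsum hδ
    · have hq : 13 < Fintype.card F := by
        rw [hk]
        by_cases hp3 : p = 3
        · have hne : (k : ℕ) ≠ 2 := fun h => h9 (by rw [hk, hp3, h]; norm_num)
          have h3 : 3 ≤ (k : ℕ) := by omega
          rw [hp3]
          calc 13 < 3 ^ 3 := by norm_num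
            _ ≤ 3 ^ (k : ℕ) := Nat.pow_le_pow_right (by norm_num) h3
        · have hp5 : 5 ≤ p := by
            have h2le := hp.two_le
            by_contra hlt
            have h4' : p = 4 := by omega
            rw [h4'] at hp
            exact absurd hp (by norm_num)
          calc 13 < 5 ^ 2 := by norm_num
            _ ≤ p ^ 2 := Nat.pow_le_pow_left hp5 2
            _ ≤ p ^ (k : ℕ) := Nat.pow_le_pow_right (by omega) hk2
      have h2 : (2 : F) ≠ 0 := by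
        intro h
        have hdvd : p ∣ 2 := (CharP.cast_eq_zero_iff F p 2).mp (by exact_mod_cast h)
        exact hp2 ((Nat.prime_dvd_prime_iff_eq hp Nat.prime_two).mp hdvd)
      obtain ⟨a₁, a₂, a₃, h₁, h₂, h₃, hsum, hδ⟩ := exists_triple_odd h2 hq
      exact comap_USL_abelian σ hσ hc a₁ a₂ a₃ h₁ h₂ h₃ hsum hδ

/-- For a finite field with q elements, q ≠ 4 and q ≠ 9, the special linear group SL₂ has trivial Schur multiplier (here the Schur multiplier is described through stem extensions, as in the definitions). -/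
theorem result {F : Type*} [Field F] [Fintype F] (h4 : Fintype.card F ≠ 4) (h9 : Fintype.card F ≠ 9) : Cfsg.HasCyclicSchurMultiplier (Matrix.SpecialLinearGroup (Fin 2) F) 1 := by
  classical
  obtain ⟨p, hchar⟩ := CharP.exists F
  have : Fact p.Prime := ⟨CharP.char_is_prime F p⟩
  apply hasCyclicSchurMultiplier_one_of_local
  intro Γ _ _ σ hσ ℓ hℓ
  have : Fact ℓ.Prime := ⟨hℓ⟩
  by_cases hℓp : ℓ = p
  · subst hℓp
    refine ⟨USL F, USL_index_not_dvd ℓ, ?_⟩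
    have hbot := unipotent_case ℓ h4 h9 σ hσ.1 hσ.2.1
    intro a ha _
    rw [hbot] at ha
    exact Subgroup.mem_bot.mp ha
  · by_cases hℓ2 : ℓ = 2
    · subst hℓ2
      have hodd : Odd (Fintype.card F) := by
        obtain ⟨k, hp, hk⟩ := FiniteField.card F p
        rw [hk]
        apply Odd.pow
        exact hp.odd_of_ne_two (fun h => hℓp h.symm)
      let R : Sylow 2 (Matrix.SpecialLinearGroup (Fin 2) F) := default
      obtain ⟨k, hk, ⟨e⟩⟩ := Cfsg.Agent.S0261.result hodd R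
      have : NeZero (2 ^ k) := ⟨by positivity⟩
      have hQ := Cfsg.Agent.S3963.result (2 ^ k)
      have hR : Cfsg.HasCyclicSchurMultiplier (R : Subgroup (Matrix.SpecialLinearGroup (Fin 2) F)) 1 :=
        hasSchurMultiplier_of_mulEquiv e.symm hQ
      exact ⟨R, R.not_dvd_index, commutator_comap_inf_ker_of_trivial σ hσ.1 hσ.2.1 R hR⟩
    · let R : Sylow ℓ (Matrix.SpecialLinearGroup (Fin 2) F) := default
      have hcyc := Cfsg.Agent.S0262.result p ℓ hℓ2 hℓp R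
      refine ⟨R, R.not_dvd_index, ?_⟩
      have hbot := commutator_comap_eq_bot_of_isCyclic σ hσ.2.1
        (R : Subgroup (Matrix.SpecialLinearGroup (Fin 2) F))
      intro a ha _
      rw [hbot] at ha
      exact Subgroup.mem_bot.mp ha

end Cfsg.Agent.S2117
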