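import Mathlib
import Cfsg.Statements.S0856
import Cfsg.Agent.Lib.Helper20.NormalInd
import Cfsg.Agent.Lib.Helper36.CharBasic

set_option autoImplicit false
open scoped ComplexConjugate
open Cfsg

namespace Cfsg.Agent.S0856

open Cfsg.Agent.Lib Cfsg.Agent.Lib.Helper20

/-- Let N be a normal subgroup of the finite group G and φ, ϑ irreducible characters of N that are invariant under conjugation by G, such that the pointwise product φ * ϑ is irreducible and ϑ is the restriction of an irreducible character χ of G. Then multiplication by χ is a bijection from the set of irreducible characters of G having nonzero inner product with the function induced from φ onto the set of those having nonzero inner product with the function induced from φ * ϑ. -/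
theorem result {G : Type*} [Group G] [Fintype G] (N : Subgroup G) [hN : N.Normal] (φ ϑ : N → ℂ) (hφ : Cfsg.IsIrrCharacter N φ) (hϑ : Cfsg.IsIrrCharacter N ϑ) (hφinv : ∀ (g : G) (n : N), φ ⟨g * n * g⁻¹, hN.conj_mem (n : G) n.2 g⟩ = φ n) (hϑinv : ∀ (g : G) (n : N), ϑ ⟨g * n * g⁻¹, hN.conj_mem (n : G) n.2 g⟩ = ϑ n) (hprod : Cfsg.IsIrrCharacter N (φ * ϑ)) (χ : G → ℂ) (hχ : Cfsg.IsIrrCharacter G χ) (hext : ∀ n : N, χ n = ϑ n) : Set.BijOn (fun β : G → ℂ => β * χ) {β : G → ℂ | Cfsg.IsIrrCharacter G β ∧ Cfsg.classInner (Cfsg.indFun N φ) β ≠ 0} {ψ : G → ℂ | Cfsg.IsIrrCharacter G ψ ∧ Cfsg.classInner (Cfsg.indFun N (φ * ϑ)) ψ ≠ 0} := by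
  classical
  have := Helper4.irr_finite (G := G)
  let _ : Fintype (IrrCharacter G) := Fintype.ofFinite _
  let _ : Fintype N := Fintype.ofFinite N
  have hcharχ := Helper35.isChar_of_irr hχ
  have hcfχ : IsClassFunction G χ := Helper35.isClassFunction_of_isCharacter hcharχ
  have hidx : (N.index : ℂ) ≠ 0 := by
    have : N.index ≠ 0 := Subgroup.index_ne_zero_of_finite
    exact_mod_cast this
  -- Ψ = Φ χ
  have hϑres : ϑ = fun n : N => χ n := by funext n; exact (hext n).symm
  have hΨ : indFun N (φ * ϑ) = indFun N φ * χ := by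
    rw [hϑres]; exact indFun_mul_res N φ hcfχ
  have hprodinv : ∀ (g : G) (n : N), (φ * ϑ) ⟨g * n * g⁻¹, hN.conj_mem (n : G) n.2 g⟩ = (φ * ϑ) n := by
    intro g n
    simp only [Pi.mul_apply, hφinv, hϑinv]
  -- norms
  have hnormΦ : classInner (indFun N φ) (indFun N φ) = (N.index : ℂ) := by
    rw [classInner_indFun_of_invariant N φ φ hφinv, Helper35.classInner_irr' hφ hφ, if_pos rfl,
      mul_one]
  have hnormΨ : classInner (indFun N (φ * ϑ)) (indFun N (φ * ϑ)) = (N.index : ℂ) := by
    rw [classInner_indFun_of_invariant N _ _ hprodinv, Helper35.classInner_irr' hprod hprod,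
      if_pos rfl, mul_one]
  -- decomposition of Φ
  obtain ⟨m, hm⟩ := Helper4.exists_decomp_of_isCharacter (indFun N φ)
    (Helper35.isCharacter_indFun N (Helper35.isChar_of_irr hφ))
  have hcoef : ∀ β : IrrCharacter G, classInner (indFun N φ) (β : G → ℂ) = (m β : ℂ) := by
    intro β
    rw [hm]
    exact Helper4.classInner_sum_irr (fun χ => (m χ : ℂ)) β
  -- the products β χ
  have hcharprod : ∀ β : IrrCharacter G, IsCharacter G ((β : G → ℂ) * χ) :=
    fun β => Helper35.isCharacter_mul (Helper35.isChar_of_irr β.2) hcharχ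
  have hc : ∀ β β' : IrrCharacter G, ∃ k : ℕ,
      classInner ((β : G → ℂ) * χ) ((β' : G → ℂ) * χ) = (k : ℂ) :=
    fun β β' => Helper35.classInner_char_nat (hcharprod β) (hcharprod β')
  choose c hc using hc
  have hcpos : ∀ β : IrrCharacter G, 1 ≤ c β β := by
    intro β
    by_contra h
    have h0 : c β β = 0 := by omega
    have h1 := hc β β
    rw [h0, Nat.cast_zero] at h1
    have h2 := congrFun (Helper36.classInner_self_eq_zero h1) 1
    simp only [Pi.mul_apply, Pi.zero_apply] at h2
    rcases mul_eq_zero.mp h2 with h3 | h3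
    · exact Helper83.irr_one_ne_zero β.2 h3
    · exact Helper83.irr_one_ne_zero hχ h3
  have hΨdec : indFun N (φ * ϑ) = ∑ β : IrrCharacter G, (m β : ℂ) • ((β : G → ℂ) * χ) := by
    rw [hΨ, hm, Finset.sum_mul]
    apply Finset.sum_congr rfl
    intro β _
    rw [smul_mul_assoc]
  have hΨinner : ∀ f : G → ℂ, classInner (indFun N (φ * ϑ)) f =
      ∑ β : IrrCharacter G, (m β : ℂ) * classInner ((β : G → ℂ) * χ) f := by
    intro f
    rw [hΨdec, Helper35.classInner_sum_left]
    apply Finset.sum_congr rfl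
    intro β _
    rw [Helper35.classInner_smul_left]
  -- the key numerical identity
  have hS : ∑ β : IrrCharacter G, ∑ β' : IrrCharacter G, m β * m β' * c β β' =
      ∑ β : IrrCharacter G, (m β) ^ 2 := by
    have h1 : classInner (indFun N φ) (indFun N φ) =
        ((∑ β : IrrCharacter G, (m β) ^ 2 : ℕ) : ℂ) := by
      conv_lhs => rw [hm]
      rw [Helper4.classInner_sum_sum_irr]
      push_cast
      apply Finset.sum_congr rfl
      intro β _
      simp [pow_two]
    have h2 : classInner (indFun N (φ * ϑ)) (indFun N (φ * ϑ)) =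
        ((∑ β : IrrCharacter G, ∑ β' : IrrCharacter G, m β * m β' * c β β' : ℕ) : ℂ) := by
      rw [hΨinner]
      push_cast
      apply Finset.sum_congr rfl
      intro β _
      conv_lhs => rw [hΨdec]
      rw [Helper35.classInner_sum_right, Finset.mul_sum]
      apply Finset.sum_congr rfl
      intro β' _
      rw [Helper35.classInner_smul_right, hc]
      simp
      ring
    rw [hnormΦ] at h1
    rw [hnormΨ] at h2
    exact Nat.cast_injective (h2.symm.trans h1)
  -- consequences
  have hT : ∀ β β' : IrrCharacter G,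
      ((m β * m β' * c β β' : ℕ) : ℤ) - ((if β = β' then (m β) ^ 2 else 0 : ℕ) : ℤ) = 0 := by
    have hnonneg : ∀ β β' : IrrCharacter G,
        0 ≤ ((m β * m β' * c β β' : ℕ) : ℤ) - ((if β = β' then (m β) ^ 2 else 0 : ℕ) : ℤ) := by
      intro β β'
      by_cases h : β = β'
      · subst h
        rw [if_pos rfl, sub_nonneg]
        have := hcpos β
        have h2 : (m β) ^ 2 ≤ m β * m β * c β β := by
          calc (m β) ^ 2 = m β * m β * 1 := by ring
            _ ≤ m β * m β * c β β := Nat.mul_le_mul_left _ this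
        exact_mod_cast h2
      · rw [if_neg h, Nat.cast_zero, sub_zero]
        exact Int.natCast_nonneg _
    have hsum : ∑ β : IrrCharacter G, ∑ β' : IrrCharacter G,
        (((m β * m β' * c β β' : ℕ) : ℤ) - ((if β = β' then (m β) ^ 2 else 0 : ℕ) : ℤ)) = 0 := by
      simp only [Finset.sum_sub_distrib]
      have h1 : ∑ β : IrrCharacter G, ∑ β' : IrrCharacter G,
          ((if β = β' then (m β) ^ 2 else 0 : ℕ) : ℤ) = ((∑ β : IrrCharacter G, (m β) ^ 2 : ℕ) : ℤ) := by
        push_cast
        apply Finset.sum_congr rfl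
        intro β _
        simp
      rw [h1, ← hS]
      push_cast
      ring
    intro β β'
    have h1 := (Finset.sum_eq_zero_iff_of_nonneg
      (fun β _ => Finset.sum_nonneg (fun β' _ => hnonneg β β'))).mp hsum β (Finset.mem_univ _)
    exact (Finset.sum_eq_zero_iff_of_nonneg (fun β' _ => hnonneg β β')).mp h1 β' (Finset.mem_univ _)
  have hA : ∀ β : IrrCharacter G, m β ≠ 0 → c β β = 1 := by
    intro β hmβ
    have h := hT β β
    rw [if_pos rfl] at h
    have h2 : m β * m β * c β β = (m β) ^ 2 := by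
      have := sub_eq_zero.mp h
      exact_mod_cast this
    have h3 : m β * m β * c β β = m β * m β * 1 := by rw [h2]; ring
    exact Nat.eq_of_mul_eq_mul_left (Nat.mul_pos (Nat.pos_of_ne_zero hmβ) (Nat.pos_of_ne_zero hmβ)) h3
  have hB : ∀ β β' : IrrCharacter G, β ≠ β' → m β ≠ 0 → m β' ≠ 0 → c β β' = 0 := by
    intro β β' hne hmβ hmβ'
    have h := hT β β'
    rw [if_neg hne] at h
    have h2 : m β * m β' * c β β' = 0 := by
      have := sub_eq_zero.mp h
      exact_mod_cast this
    rcases Nat.mul_eq_zero.mp h2 with h3 | h3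
    · rcases Nat.mul_eq_zero.mp h3 with h4 | h4
      · exact absurd h4 hmβ
      · exact absurd h4 hmβ'
    · exact h3
  have hirr : ∀ β : IrrCharacter G, m β ≠ 0 → IsIrrCharacter G ((β : G → ℂ) * χ) := by
    intro β hmβ
    apply Helper4.isIrrCharacter_of_norm_one _ (hcharprod β)
    rw [hc, hA β hmβ, Nat.cast_one]
  refine ⟨?_, ?_, ?_⟩
  · -- maps to
    rintro β ⟨hβ, hβ0⟩
    have hmβ : m ⟨β, hβ⟩ ≠ 0 := by
      intro h
      apply hβ0
      have := hcoef ⟨β, hβ⟩
      rw [h, Nat.cast_zero] at this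
      exact this
    refine ⟨hirr ⟨β, hβ⟩ hmβ, ?_⟩
    show classInner (indFun N (φ * ϑ)) (β * χ) ≠ 0
    rw [hΨinner, Finset.sum_eq_single (⟨β, hβ⟩ : IrrCharacter G)]
    · have h1 := hc ⟨β, hβ⟩ ⟨β, hβ⟩
      simp only at h1
      rw [h1, hA _ hmβ, Nat.cast_one, mul_one]
      exact_mod_cast hmβ
    · intro β' _ hne
      by_cases hmβ' : m β' = 0
      · rw [hmβ', Nat.cast_zero, zero_mul]
      · have := hc β' ⟨β, hβ⟩
        simp only at this
        rw [this, hB β' ⟨β, hβ⟩ hne hmβ' hmβ, Nat.cast_zero, mul_zero]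
    · intro h
      exact absurd (Finset.mem_univ _) h
  · -- injective
    rintro β ⟨hβ, hβ0⟩ β' ⟨hβ', hβ'0⟩ heq
    simp only at heq
    have hmβ : m ⟨β, hβ⟩ ≠ 0 := by
      intro h
      apply hβ0
      have := hcoef ⟨β, hβ⟩
      rw [h, Nat.cast_zero] at this
      exact this
    have hmβ' : m ⟨β', hβ'⟩ ≠ 0 := by
      intro h
      apply hβ'0
      have := hcoef ⟨β', hβ'⟩
      rw [h, Nat.cast_zero] at this
      exact this
    by_contra hne
    have hne' : (⟨β, hβ⟩ : IrrCharacter G) ≠ ⟨β', hβ'⟩ := fun h => hne (congrArg Subtype.val h)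
    have h1 := hc ⟨β, hβ⟩ ⟨β', hβ'⟩
    simp only at h1
    rw [hB _ _ hne' hmβ hmβ', ← heq] at h1
    have h2 := hc ⟨β, hβ⟩ ⟨β, hβ⟩
    simp only at h2
    rw [h2, hA _ hmβ] at h1
    simp at h1
  · -- surjective
    rintro ψ ⟨hψ, hψ0⟩
    have hψ0' : classInner (indFun N (φ * ϑ)) ψ ≠ 0 := hψ0
    rw [hΨinner] at hψ0'
    obtain ⟨β, _, hβ⟩ := Finset.exists_ne_zero_of_sum_ne_zero hψ0'
    have hmβ : m β ≠ 0 := by
      intro h
      apply hβ
      rw [h, Nat.cast_zero, zero_mul]
    have h1 : classInner ((β : G → ℂ) * χ) ψ ≠ 0 := by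
      intro h
      apply hβ
      rw [h, mul_zero]
    rw [Helper35.classInner_irr' (hirr β hmβ) hψ] at h1
    have h2 : (β : G → ℂ) * χ = ψ := by
      by_contra h
      rw [if_neg h] at h1
      exact h1 rfl
    refine ⟨(β : G → ℂ), ⟨β.2, ?_⟩, h2⟩
    rw [hcoef]
    exact_mod_cast hmβ

end Cfsg.Agent.S0856
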