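import Cfsg.Statements.S0945
import Cfsg.Agent.Lib.Helper22.SylowAux
import Mathlib

set_option autoImplicit false
open Cfsg

namespace Cfsg.Agent.S0945

open Cfsg.Agent.Lib.Helper22

theorem zmod_two_torsion (m : ℕ) (hm : 1 ≤ m) (a : ZMod (2 ^ m)) (h : a + a = 0) :
    a = 0 ∨ a = ((2 ^ (m - 1) : ℕ) : ZMod (2 ^ m)) := by
  obtain ⟨k, rfl⟩ : ∃ k, m = k + 1 := ⟨m - 1, by omega⟩
  have : NeZero (2 ^ (k + 1)) := ⟨by positivity⟩
  have hv := ZMod.natCast_zmod_val a
  have h2 : ((a.val + a.val : ℕ) : ZMod (2 ^ (k + 1))) = 0 := by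
    push_cast; rw [hv]; exact h
  rw [ZMod.natCast_eq_zero_iff] at h2
  have hlt := ZMod.val_lt a
  have h3 : 2 ^ k ∣ a.val := by
    have : 2 * 2 ^ k ∣ 2 * a.val := by
      have e1 : 2 ^ (k + 1) = 2 * 2 ^ k := by ring
      have e2 : a.val + a.val = 2 * a.val := by ring
      rw [← e2]; exact (dvd_of_eq e1.symm).trans h2
    exact (Nat.mul_dvd_mul_iff_left (by norm_num)).mp this
  obtain ⟨q, hq⟩ := h3
  have hq2 : q < 2 := by
    by_contra hcon
    have : 2 ≤ q := by omega
    have e1 : 2 ^ (k + 1) = 2 * 2 ^ k := by ring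
    have : 2 ^ k * 2 ≤ 2 ^ k * q := Nat.mul_le_mul_left _ this
    omega
  interval_cases q
  · left
    rw [← hv, hq]; simp
  · right
    rw [← hv, hq]; simp

theorem inv_V (m : ℕ) (hm : 1 ≤ m) :
    ∃ s : Finset (Multiplicative (ZMod (2 ^ m) × ZMod (2 ^ m))), s.card ≤ 3 ∧
      ∀ v : Multiplicative (ZMod (2 ^ m) × ZMod (2 ^ m)), v ^ 2 = 1 → v ≠ 1 → v ∈ s := by
  classical
  refine ⟨{Multiplicative.ofAdd (((2 ^ (m - 1) : ℕ) : ZMod (2 ^ m)), (0 : ZMod (2 ^ m))),
      Multiplicative.ofAdd ((0 : ZMod (2 ^ m)), ((2 ^ (m - 1) : ℕ) : ZMod (2 ^ m))),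
      Multiplicative.ofAdd (((2 ^ (m - 1) : ℕ) : ZMod (2 ^ m)), ((2 ^ (m - 1) : ℕ) : ZMod (2 ^ m)))},
    Finset.card_le_three, ?_⟩
  intro v hv hv1
  have h2 : (2 : ℕ) • Multiplicative.toAdd v = 0 := by
    have := congrArg Multiplicative.toAdd hv
    simpa using this
  have ha : (Multiplicative.toAdd v).1 + (Multiplicative.toAdd v).1 = 0 := by
    have := congrArg Prod.fst h2
    rw [two_nsmul] at this
    exact this
  have hb : (Multiplicative.toAdd v).2 + (Multiplicative.toAdd v).2 = 0 := by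
    have := congrArg Prod.snd h2
    rw [two_nsmul] at this
    exact this
  have hv' : v = Multiplicative.ofAdd ((Multiplicative.toAdd v).1, (Multiplicative.toAdd v).2) := rfl
  rcases zmod_two_torsion m hm _ ha with h1 | h1 <;> rcases zmod_two_torsion m hm _ hb with h3 | h3
  · exfalso; apply hv1
    rw [hv', h1, h3]; rfl
  · rw [hv', h1, h3]
    exact Finset.mem_insert_of_mem (Finset.mem_insert_self _ _)
  · rw [hv', h1, h3]
    exact Finset.mem_insert_self _ _
  · rw [hv', h1, h3]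
    exact Finset.mem_insert_of_mem (Finset.mem_insert_of_mem (Finset.mem_singleton_self _))

theorem inv_P {G : Type*} [Group G] (P : Subgroup G) (m : ℕ) (hm : 1 ≤ m)
    (e : P ≃* Multiplicative (ZMod (2 ^ m) × ZMod (2 ^ m))) :
    ∃ s : Finset G, s.card ≤ 3 ∧ ∀ x ∈ P, x ^ 2 = 1 → x ≠ 1 → x ∈ s := by
  classical
  obtain ⟨s, hs, hs'⟩ := inv_V m hm
  refine ⟨s.image (fun v => ((e.symm v : P) : G)), le_trans Finset.card_image_le hs, ?_⟩
  intro x hx hx2 hx1
  rw [Finset.mem_image]
  refine ⟨e ⟨x, hx⟩, hs' _ ?_ ?_, by simp⟩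
  · rw [← map_pow]
    have : (⟨x, hx⟩ : P) ^ 2 = 1 := Subtype.ext (by simpa using hx2)
    rw [this, map_one]
  · intro h1
    apply hx1
    have : (⟨x, hx⟩ : P) = 1 := by
      apply e.injective; rw [h1, map_one]
    exact congrArg Subtype.val this

theorem comm_of_equiv {G : Type*} [Group G] (P : Subgroup G) (m : ℕ)
    (e : P ≃* Multiplicative (ZMod (2 ^ m) × ZMod (2 ^ m))) :
    ∀ x ∈ P, ∀ y ∈ P, x * y = y * x := by
  intro x hx y hy
  have : (⟨x, hx⟩ : P) * ⟨y, hy⟩ = ⟨y, hy⟩ * ⟨x, hx⟩ := by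
    apply e.injective
    rw [map_mul, map_mul, mul_comm]
  exact congrArg Subtype.val this

/-- A conjugation of odd order on an abelian 2-group that fixes all involutions is trivial. -/
theorem centralizes_of_odd {G : Type*} [Group G] {P : Subgroup G}
    (hab : ∀ x ∈ P, ∀ y ∈ P, x * y = y * x) (h2 : ∀ x ∈ P, ∃ j : ℕ, x ^ (2 ^ j) = 1)
    (n : G) (hn : n ∈ Subgroup.normalizer (P : Set G)) (k : ℕ) (hk : Odd k)
    (hnk : n ^ k ∈ Subgroup.centralizer (P : Set G))
    (hinv : ∀ x ∈ P, x ^ 2 = 1 → n * x * n⁻¹ = x) : n ∈ Subgroup.centralizer (P : Set G) := by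
  have hnP : ∀ x ∈ P, n * x * n⁻¹ ∈ P := fun x hx => (Subgroup.mem_normalizer_iff.mp hn x).mp hx
  have key : ∀ j : ℕ, ∀ x ∈ P, x ^ (2 ^ j) = 1 → n * x * n⁻¹ = x := by
    intro j
    induction j with
    | zero =>
      intro x _ hx1
      rw [pow_zero, pow_one] at hx1
      rw [hx1]; group
    | succ j ih =>
      intro x hx hxj
      have hy : (x ^ 2) ^ (2 ^ j) = 1 := by
        rw [← pow_mul, ← pow_succ']; exact hxj
      have hy' := ih (x ^ 2) (P.pow_mem hx 2) hy
      rw [pow_two] at hy'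
      set t := x⁻¹ * (n * x * n⁻¹) with ht
      have htP : t ∈ P := P.mul_mem (P.inv_mem hx) (hnP x hx)
      have ht2 : t ^ 2 = 1 := by
        have hc : (n * x * n⁻¹) * x⁻¹ = x⁻¹ * (n * x * n⁻¹) :=
          hab _ (hnP x hx) _ (P.inv_mem hx)
        have e1 : t ^ 2 = x⁻¹ * ((n * x * n⁻¹) * x⁻¹) * (n * x * n⁻¹) := by
          rw [ht, pow_two]; group
        rw [e1, hc]
        have e2 : x⁻¹ * (x⁻¹ * (n * x * n⁻¹)) * (n * x * n⁻¹)
            = (x * x)⁻¹ * (n * (x * x) * n⁻¹) := by
          group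
        rw [e2, hy']; group
      have htn := hinv t htP ht2
      have hx' : n * x * n⁻¹ = x * t := by rw [ht]; group
      have hpow : ∀ i : ℕ, n ^ i * x * (n ^ i)⁻¹ = x * t ^ i := by
        intro i
        induction i with
        | zero => simp
        | succ i ihi =>
          have e3 : n ^ (i + 1) * x * (n ^ (i + 1))⁻¹ = n * (n ^ i * x * (n ^ i)⁻¹) * n⁻¹ := by
            rw [pow_succ']; group
          rw [e3, ihi]
          have e4 : n * (x * t ^ i) * n⁻¹ = (n * x * n⁻¹) * (n * t * n⁻¹) ^ i := by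
            rw [conj_pow]; group
          rw [e4, hx', htn, pow_succ']
          group
      have hk1 := hpow k
      have hck : n ^ k * x * (n ^ k)⁻¹ = x := by
        have := (Subgroup.mem_centralizer_iff.mp hnk) x hx
        rw [← this]; group
      rw [hck] at hk1
      have htk : t ^ k = 1 := by
        have : x * t ^ k = x * 1 := by rw [mul_one]; exact hk1.symm
        exact mul_left_cancel this
      obtain ⟨q, rfl⟩ := hk
      have ht1 : t = 1 := by
        rw [pow_succ, pow_mul, ht2, one_pow, one_mul] at htk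
        exact htk
      rw [hx', ht1, mul_one]
  rw [Subgroup.mem_centralizer_iff]
  intro x hx
  obtain ⟨j, hj⟩ := h2 x hx
  have := key j x hx hj
  calc x * n = (n * x * n⁻¹) * n := by rw [this]
    _ = n * x := by group

theorem perm_eq_one_of_fixed {α : Type*} [Finite α] (hα : Nat.card α ≤ 3) (σ : Equiv.Perm α)
    (t : α) (ht : σ t = t) (k : ℕ) (hk : Odd k) (hσ : σ ^ k = 1) : σ = 1 := by
  classical
  have : Fintype α := Fintype.ofFinite α
  ext s
  by_contra hs
  have hs' : σ s ≠ s := hs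
  have hst : s ≠ t := by rintro rfl; exact hs' ht
  have hσst : σ s ≠ t := by
    intro h; apply hst; apply σ.injective; rw [h, ht]
  have hall : ∀ u : α, u = t ∨ u = s ∨ u = σ s := by
    have hcard : ({t, s, σ s} : Finset α).card = 3 := by
      rw [Finset.card_insert_of_notMem, Finset.card_insert_of_notMem, Finset.card_singleton]
      · simpa using hs'.symm
      · simp only [Finset.mem_insert, Finset.mem_singleton, not_or]
        exact ⟨hst.symm, hσst.symm⟩
    have huniv : ({t, s, σ s} : Finset α) = Finset.univ := by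
      apply Finset.eq_univ_of_card
      have h1 : Fintype.card α ≤ 3 := by rw [← Nat.card_eq_fintype_card]; exact hα
      have h2 := Finset.card_le_univ ({t, s, σ s} : Finset α)
      omega
    intro u
    have : u ∈ ({t, s, σ s} : Finset α) := by rw [huniv]; exact Finset.mem_univ u
    simpa using this
  have h2 : σ (σ s) = s := by
    rcases hall (σ (σ s)) with h | h | h
    · exfalso; apply hσst; apply σ.injective; rw [h, ht]
    · exact h
    · exfalso; apply hs'; exact σ.injective h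
  obtain ⟨q, rfl⟩ := hk
  have h3 : ∀ i : ℕ, (σ ^ (2 * i)) s = s := by
    intro i
    induction i with
    | zero => simp
    | succ i ih =>
      have : 2 * (i + 1) = 2 * i + 2 := by ring
      rw [this, pow_add, Equiv.Perm.mul_apply, pow_two, Equiv.Perm.mul_apply, h2, ih]
  have h4 : (σ ^ (2 * q + 1)) s = σ s := by
    rw [pow_succ', Equiv.Perm.mul_apply, h3]
  rw [hσ] at h4
  exact hs' h4.symm


/-- The involutions of `P`, stable under conjugation by the normalizer. -/
def invSub {G : Type*} [Group G] (P : Subgroup G) :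
    SubMulAction (Subgroup.normalizer (P : Set G)) P where
  carrier := {h | h ^ 2 = 1 ∧ h ≠ 1}
  smul_mem' n h hh := by
    refine ⟨?_, ?_⟩
    · rw [← smul_pow', hh.1, smul_one]
    · intro h1
      apply hh.2
      have := congrArg (fun y => n⁻¹ • y) h1
      simpa using this

theorem exists_involution_pow {G : Type*} [Group G] (z : G) (hz : ∃ j : ℕ, z ^ (2 ^ j) = 1)
    (hz1 : z ≠ 1) : ∃ i : ℕ, (z ^ i) ^ 2 = 1 ∧ z ^ i ≠ 1 := by
  classical
  have hj0 : Nat.find hz ≠ 0 := by
    intro h0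
    have := Nat.find_spec hz
    rw [h0, pow_zero, pow_one] at this
    exact hz1 this
  obtain ⟨j, hj⟩ : ∃ j, Nat.find hz = j + 1 := ⟨Nat.find hz - 1, by omega⟩
  refine ⟨2 ^ j, ?_, ?_⟩
  · rw [← pow_mul, ← pow_succ, ← hj]
    exact Nat.find_spec hz
  · exact Nat.find_min hz (by omega : j < Nat.find hz)

theorem key {G : Type*} [Group G] [Finite G] (P : Sylow 2 G) (m : ℕ) (hm : 1 ≤ m)
    (e : (P : Subgroup G) ≃* Multiplicative (ZMod (2 ^ m) × ZMod (2 ^ m))) :
    ((Subgroup.centralizer ((P : Subgroup G) : Set G)).relIndex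
        (Subgroup.normalizer ((P : Subgroup G) : Set G)) = 1 ∨
      (Subgroup.centralizer ((P : Subgroup G) : Set G)).relIndex
        (Subgroup.normalizer ((P : Subgroup G) : Set G)) = 3) ∧
    (∀ n ∈ Subgroup.normalizer ((P : Subgroup G) : Set G), ∀ t ∈ (P : Subgroup G),
      t ^ 2 = 1 → t ≠ 1 → n * t * n⁻¹ = t →
        n ∈ Subgroup.centralizer ((P : Subgroup G) : Set G)) := by
  classical
  set Pg : Subgroup G := (P : Subgroup G) with hPg
  set N := Subgroup.normalizer (Pg : Set G) with hN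
  set C := Subgroup.centralizer (Pg : Set G) with hC
  have hab := comm_of_equiv Pg m e
  have h2grp : ∀ x ∈ Pg, ∃ j : ℕ, x ^ (2 ^ j) = 1 := by
    intro x hx
    obtain ⟨j, hj⟩ := P.isPGroup' ⟨x, hx⟩
    exact ⟨j, by simpa using congrArg Subtype.val hj⟩
  obtain ⟨s, hs3, hs⟩ := inv_P Pg m hm e
  have hCN : C ≤ N := Subgroup.centralizer_le_normalizer _
  have hPC : Pg ≤ C := by
    intro x hx
    rw [Subgroup.mem_centralizer_iff]
    intro y hy
    exact hab y hy x hx
  set k := C.relIndex N with hk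
  have hkodd : Odd k := by
    rw [← Nat.not_even_iff_odd, even_iff_two_dvd]
    intro h2
    have h3 : Pg.relIndex C * C.relIndex N = Pg.relIndex N :=
      Subgroup.relIndex_mul_relIndex Pg C N hPC hCN
    have h4 : Pg.relIndex N * N.index = Pg.index :=
      Subgroup.relIndex_mul_index (hPC.trans hCN)
    have h5 : 2 ∣ Pg.index := by
      rw [← h4, ← h3]
      exact Dvd.dvd.mul_right (Dvd.dvd.mul_left h2 _) _
    exact P.not_dvd_index h5
  have hpow : ∀ n ∈ N, n ^ k ∈ C := by
    intro n hn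
    have := Subgroup.pow_index_mem (C.subgroupOf N) (⟨n, hn⟩ : N)
    rw [Subgroup.mem_subgroupOf] at this
    simp only [Subgroup.coe_pow] at this
    exact this
  -- the permutation action on involutions
  let φ : N →* Equiv.Perm (invSub Pg) := MulAction.toPermHom N (invSub Pg)
  have hφ : ∀ (n : N) (x : invSub Pg), (((φ n x : invSub Pg) : Pg) : G)
      = (n : G) * ((x : Pg) : G) * (n : G)⁻¹ := fun n x => rfl
  have hfix : ∀ n : N, n ∈ φ.ker → (n : G) ∈ C := by
    intro n hn
    refine centralizes_of_odd hab h2grp (n : G) n.2 k hkodd (hpow n n.2) ?_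
    intro x hx hx2
    by_cases hx1 : x = 1
    · rw [hx1]; group
    · have hmem : (⟨x, hx⟩ : Pg) ∈ invSub Pg := by
        refine ⟨Subtype.ext (by simpa using hx2), ?_⟩
        intro h; exact hx1 (congrArg Subtype.val h)
      have h1 : φ n ⟨⟨x, hx⟩, hmem⟩ = ⟨⟨x, hx⟩, hmem⟩ := by
        rw [MonoidHom.mem_ker] at hn
        rw [hn]; rfl
      have h2 := hφ n ⟨⟨x, hx⟩, hmem⟩
      rw [h1] at h2
      exact h2.symm
  have hker : φ.ker = C.subgroupOf N := by
    ext n
    constructor
    · intro hn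
      rw [Subgroup.mem_subgroupOf]
      exact hfix n hn
    · intro hn
      rw [Subgroup.mem_subgroupOf, Subgroup.mem_centralizer_iff] at hn
      rw [MonoidHom.mem_ker]
      ext x
      rw [hφ]
      have := hn ((x : Pg) : G) (x : Pg).2
      simp only [Equiv.Perm.coe_one, id_eq]
      rw [← this]; group
  have hcardI : Nat.card (invSub Pg) ≤ 3 := by
    have hinj : Function.Injective (fun x : invSub Pg =>
        (⟨((x : Pg) : G), hs _ (x : Pg).2 (by simpa using congrArg Subtype.val x.2.1)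
          (fun h => x.2.2 (Subtype.ext h))⟩ : s)) := by
      intro x y hxy
      have : ((x : Pg) : G) = ((y : Pg) : G) := by simpa using hxy
      exact Subtype.ext (Subtype.ext this)
    have := Nat.card_le_card_of_injective _ hinj
    rw [Nat.card_eq_finsetCard] at this
    exact this.trans hs3
  have hk6 : k ∣ 6 := by
    have h1 : k = (φ.ker).index := by rw [hker]; rfl
    rw [h1, Subgroup.index_ker]
    have h2 : Nat.card φ.range ∣ Nat.card (Equiv.Perm (invSub Pg)) :=
      Subgroup.card_subgroup_dvd_card _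
    rw [Nat.card_perm] at h2
    exact h2.trans (Nat.factorial_dvd_factorial hcardI)
  have hk13 : k = 1 ∨ k = 3 := by
    have hle : k ≤ 6 := Nat.le_of_dvd (by norm_num) hk6
    obtain ⟨q, hq⟩ := hkodd
    interval_cases k <;> omega
  refine ⟨hk13, ?_⟩
  intro n hn t ht ht2 ht1 hnt
  have hmem : (⟨t, ht⟩ : Pg) ∈ invSub Pg := by
    refine ⟨Subtype.ext (by simpa using ht2), ?_⟩
    intro h; exact ht1 (congrArg Subtype.val h)
  have hσt : φ ⟨n, hn⟩ ⟨⟨t, ht⟩, hmem⟩ = ⟨⟨t, ht⟩, hmem⟩ := by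
    apply Subtype.ext; apply Subtype.ext
    rw [hφ]; exact hnt
  have hσk : (φ ⟨n, hn⟩) ^ k = 1 := by
    rw [← map_pow]
    have : (⟨n, hn⟩ : N) ^ k ∈ φ.ker := by
      rw [hker, Subgroup.mem_subgroupOf]
      simpa using hpow n hn
    exact this
  have hσ1 := perm_eq_one_of_fixed hcardI (φ ⟨n, hn⟩) _ hσt k hkodd hσk
  exact hfix ⟨n, hn⟩ hσ1

theorem result {G : Type*} [Group G] [Finite G] (P : Sylow 2 G) (m : ℕ) (hm : 1 ≤ m) (e : (P : Subgroup G) ≃* Multiplicative (ZMod (2 ^ m) × ZMod (2 ^ m))) : ((Subgroup.centralizer (P : Set G)).relIndex (Subgroup.normalizer (P : Set G)) = 1 ∨ (Subgroup.centralizer (P : Set G)).relIndex (Subgroup.normalizer (P : Set G)) = 3) ∧ ((Subgroup.centralizer (P : Set G)).relIndex (Subgroup.normalizer (P : Set G)) ≠ 1 → ∀ z ∈ (P : Subgroup G), z ≠ 1 → Subgroup.centralizer ({z} : Set G) ⊓ Subgroup.normalizer (P : Set G) = Subgroup.centralizer (P : Set G)) := by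
  obtain ⟨h1, h2⟩ := key P m hm e
  refine ⟨h1, ?_⟩
  intro _ z hz hz1
  apply le_antisymm
  · intro n hn
    obtain ⟨hnz, hnN⟩ := hn
    have hzj : ∃ j : ℕ, z ^ (2 ^ j) = 1 := by
      obtain ⟨j, hj⟩ := P.isPGroup' ⟨z, hz⟩
      exact ⟨j, by simpa using congrArg Subtype.val hj⟩
    obtain ⟨i, hi2, hi1⟩ := exists_involution_pow z hzj hz1
    refine h2 n hnN (z ^ i) (Subgroup.pow_mem _ hz i) hi2 hi1 ?_
    have hc : z * n = n * z := (mem_centralizer_singleton_iff' z n).mp hnz
    have hz' : n * z * n⁻¹ = z := by rw [← hc]; group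
    rw [← conj_pow, hz']
  · refine le_inf ?_ (Subgroup.centralizer_le_normalizer _)
    intro c hc
    rw [mem_centralizer_singleton_iff']
    exact (Subgroup.mem_centralizer_iff.mp hc) z hz

end Cfsg.Agent.S0945
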