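import Mathlib
import Cfsg.Statements.S0440
import Cfsg.Agent.Lib.Helper18.Symp
import Cfsg.Agent.S0271

set_option autoImplicit false
open Cfsg

namespace Cfsg.Agent.S0440

open Matrix Cfsg.Agent.Lib.Helper18

section Rank

variable {K : Type*} [Field K] {ι : Type*} [Fintype ι] [DecidableEq ι]

theorem rank_vecMulVec_eq_one (a b : ι → K) (ha : a ≠ 0) (hb : b ≠ 0) :
    (vecMulVec a b).rank = 1 := by
  apply le_antisymm (rank_vecMulVec_le a b)
  rw [Nat.one_le_iff_ne_zero]
  intro h0
  have hex : ∃ j, b j ≠ 0 := by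
    by_contra hcon
    push Not at hcon
    exact hb (funext hcon)
  obtain ⟨j, hj⟩ := hex
  have hmem : a ∈ LinearMap.range (vecMulVec a b).mulVecLin := by
    refine ⟨Pi.single j (b j)⁻¹, ?_⟩
    rw [Matrix.mulVecLin_apply, vecMulVec_mulVec, dotProduct_single, mul_inv_cancel₀ hj]
    simp
  rw [Matrix.rank, Submodule.finrank_eq_zero] at h0
  rw [h0, Submodule.mem_bot] at hmem
  exact ha hmem

theorem exists_vecMulVec_of_rank_eq_one (M : Matrix ι ι K) (h : M.rank = 1) :
    ∃ a b : ι → K, a ≠ 0 ∧ b ≠ 0 ∧ M = vecMulVec a b := by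
  rw [Matrix.rank, finrank_eq_one_iff'] at h
  obtain ⟨⟨a, ha⟩, hne, hall⟩ := h
  have ha0 : a ≠ 0 := fun h0 => hne (Subtype.ext h0)
  have hcol : ∀ j : ι, ∃ c : K, c • a = M.col j := by
    intro j
    have hm : M.col j ∈ LinearMap.range M.mulVecLin :=
      ⟨Pi.single j 1, by rw [Matrix.mulVecLin_apply, mulVec_single_one]⟩
    obtain ⟨c, hc⟩ := hall ⟨M.col j, hm⟩
    exact ⟨c, congrArg Subtype.val hc⟩
  choose b hb using hcol
  have hM : M = vecMulVec a b := by
    ext i j
    have := congrFun (hb j) i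
    rw [vecMulVec_apply, mul_comm]
    exact this.symm
  refine ⟨a, b, ha0, ?_, hM⟩
  rintro rfl
  have hM0 : M = 0 := by
    rw [hM]
    ext i j
    simp [vecMulVec_apply]
  apply ha0
  have hmem : a ∈ LinearMap.range M.mulVecLin := ha
  rw [hM0] at hmem
  obtain ⟨x, hx⟩ := hmem
  rw [← hx]
  simp

end Rank

section Main

variable (n : ℕ)

/-- The vectors. -/
abbrev Vec := Fin n ⊕ Fin n → ZMod 2

/-- The symplectic transvection along `w`, as an element of the symplectic group. -/
def T (w : Vec n) : Matrix.symplecticGroup (Fin n) (ZMod 2) :=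
  ⟨Cfsg.sympTransvection n w 1, sympTransvection_mem n w 1⟩

theorem toLin_T (w : Vec n) : Matrix.toLin' (T n w).1 = transv (sympB n) w 1 :=
  toLin'_sympTransvection n w 1

theorem T_mulVec (w x : Vec n) : (T n w).1 *ᵥ x = x + (sympB n x w) • w := by
  have h := congrArg (fun f => f x) (toLin_T n w)
  simp only [Matrix.toLin'_apply, transv_apply, one_mul] at h
  exact h

theorem T_zero : T n 0 = 1 := by
  apply Subtype.ext
  show Cfsg.sympTransvection n (0 : Vec n) 1 = 1
  unfold Cfsg.sympTransvection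
  ext i j
  simp

theorem T_mul_self (w : Vec n) : T n w * T n w = 1 := by
  apply Subtype.ext
  show (T n w).1 * (T n w).1 = 1
  apply Matrix.toLin'.injective
  rw [Matrix.toLin'_mul, toLin_T, Matrix.toLin'_one]
  have h := transv_mul (sympB_isAlt (F := ZMod 2) n) w 1 1
  rw [show (1 : ZMod 2) + 1 = 0 from by decide, transv_zero] at h
  exact h

theorem conj_T (g : Matrix.symplecticGroup (Fin n) (ZMod 2)) (w : Vec n) :
    g * T n w = T n (g.1 *ᵥ w) * g := by
  apply Subtype.ext
  show g.1 * (T n w).1 = (T n (g.1 *ᵥ w)).1 * g.1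
  apply Matrix.toLin'.injective
  refine LinearMap.ext (fun x => ?_)
  rw [Matrix.toLin'_mul, Matrix.toLin'_mul, LinearMap.comp_apply, LinearMap.comp_apply,
    Matrix.toLin'_apply, Matrix.toLin'_apply, Matrix.toLin'_apply, Matrix.toLin'_apply,
    T_mulVec, T_mulVec, Matrix.mulVec_add, Matrix.mulVec_smul]
  have h := symplectic_isometry n g.1 g.2 x w
  rw [Matrix.toLin'_apply, Matrix.toLin'_apply] at h
  rw [h]

theorem rank_T (w : Vec n) (hw : w ≠ 0) : ((T n w).1 - 1).rank = 1 := by
  have h1 : (T n w).1 - 1 = vecMulVec w (J (Fin n) (ZMod 2) *ᵥ w) := by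
    show Cfsg.sympTransvection n w 1 - 1 = _
    unfold Cfsg.sympTransvection
    rw [one_smul, add_sub_cancel_left]
  rw [h1]
  apply rank_vecMulVec_eq_one _ _ hw
  intro h0
  apply hw
  have h2 := congrArg (fun v => J (Fin n) (ZMod 2) *ᵥ v) h0
  simp only [Matrix.mulVec_mulVec, Matrix.J_squared, Matrix.mulVec_zero] at h2
  rw [Matrix.neg_mulVec, Matrix.one_mulVec, neg_eq_zero] at h2
  exact h2

theorem zmod2_eq_one {c : ZMod 2} (h : c ≠ 0) : c = 1 := by
  revert c
  decide

theorem eq_T_of_rank (g : Matrix.symplecticGroup (Fin n) (ZMod 2))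
    (h : (g.1 - 1).rank = 1) : ∃ w : Vec n, w ≠ 0 ∧ g = T n w := by
  obtain ⟨a, b, ha, hb, hab⟩ := exists_vecMulVec_of_rank_eq_one _ h
  have hg : ∀ x : Vec n, g.1 *ᵥ x = x + (b ⬝ᵥ x) • a := by
    intro x
    have h1 : g.1 = 1 + vecMulVec a b := by rw [← hab]; abel
    rw [h1, Matrix.add_mulVec, Matrix.one_mulVec, vecMulVec_mulVec, op_smul_eq_smul]
  have hiso : ∀ x y : Vec n, sympB n (g.1 *ᵥ x) (g.1 *ᵥ y) = sympB n x y := by
    intro x y
    have h1 := symplectic_isometry n g.1 g.2 x y
    rw [Matrix.toLin'_apply, Matrix.toLin'_apply] at h1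
    exact h1
  have haa : sympB n a a = 0 := (sympB_isAlt (F := ZMod 2) n).self_eq_zero a
  have key : ∀ x y : Vec n, (b ⬝ᵥ y) * sympB n x a + (b ⬝ᵥ x) * sympB n a y = 0 := by
    intro x y
    have h1 := hiso x y
    rw [hg x, hg y] at h1
    simp only [map_add, map_smul, LinearMap.add_apply, LinearMap.smul_apply, smul_eq_mul, haa,
      mul_zero, add_zero] at h1
    linear_combination h1
  have hex : ∃ j, b j ≠ 0 := by
    by_contra hcon
    push Not at hcon
    exact hb (funext hcon)
  obtain ⟨j, hj⟩ := hex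
  have hj1 : b j = 1 := zmod2_eq_one hj
  have hy0 : b ⬝ᵥ (Pi.single j 1 : Vec n) = 1 := by rw [dotProduct_single_one, hj1]
  have key2 : ∀ x : Vec n, sympB n x a = (b ⬝ᵥ x) * sympB n a (Pi.single j 1) := by
    intro x
    have h1 := key x (Pi.single j 1)
    rw [hy0, one_mul] at h1
    have h2 : ∀ u v : ZMod 2, u + v = 0 → u = v := by decide
    exact h2 _ _ h1
  have hc : sympB n a (Pi.single j 1) = 1 := by
    apply zmod2_eq_one
    intro h0
    apply ha
    have hnd := sympB_nondegenerate (F := ZMod 2) n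
    apply hnd.2 a
    intro x
    rw [key2 x, h0, mul_zero]
  refine ⟨a, ha, ?_⟩
  apply Subtype.ext
  apply Matrix.toLin'.injective
  refine LinearMap.ext (fun x => ?_)
  rw [Matrix.toLin'_apply, Matrix.toLin'_apply, T_mulVec, hg x, key2 x, hc, mul_one]

theorem T_ne_one (w : Vec n) (hw : w ≠ 0) : T n w ≠ 1 := by
  intro h1
  have h := rank_T n w hw
  rw [h1] at h
  have h2 : ((1 : Matrix.symplecticGroup (Fin n) (ZMod 2)).1 - 1 :
      Matrix (Fin n ⊕ Fin n) (Fin n ⊕ Fin n) (ZMod 2)) = 0 := sub_self _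
  rw [h2, Matrix.rank_zero] at h
  exact zero_ne_one h

theorem comm_sq {G : Type*} [Group G] (X Y : G) (hX : X * X = 1) (hY : Y * Y = 1)
    (e : X * Y = Y * X) : (X * Y) ^ 2 = 1 := by
  rw [pow_two]
  calc X * Y * (X * Y) = X * Y * (Y * X) := by rw [← e]
    _ = X * (Y * Y) * X := by group
    _ = 1 := by rw [hY, mul_one, hX]

theorem braid_cube {G : Type*} [Group G] (X Y S : G) (hX : X * X = 1) (hY : Y * Y = 1)
    (hS : S * S = 1) (e1 : X * Y = S * X) (e2 : Y * X = S * Y) : (X * Y) ^ 3 = 1 := by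
  rw [pow_succ, pow_two]
  calc X * Y * (X * Y) * (X * Y) = S * X * (X * Y) * (X * Y) := by rw [← e1]
    _ = S * (X * X) * Y * (X * Y) := by group
    _ = S * (Y * X) * Y := by rw [hX, mul_one]; group
    _ = S * (S * Y) * Y := by rw [e2]
    _ = (S * S) * (Y * Y) := by group
    _ = 1 := by rw [hS, hY, one_mul]

end Main

/-- In the symplectic group in dimension 2n ≥ 2 over the field with two elements, the elements g for which g - 1 has rank one (the symplectic transvections) form a conjugacy class of 3-transpositions generating the group. -/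
theorem result (n : ℕ) (hn : 1 ≤ n) : Cfsg.IsThreeTranspositionClass {g : Matrix.symplecticGroup (Fin n) (ZMod 2) | ((g : Matrix (Fin n ⊕ Fin n) (Fin n ⊕ Fin n) (ZMod 2)) - 1).rank = 1} := by
  refine ⟨⟨?_, ?_⟩, ?_, ?_⟩
  · intro d hd
    obtain ⟨w, hw, rfl⟩ := eq_T_of_rank n d hd
    apply orderOf_eq_prime
    · rw [pow_two]
      exact T_mul_self n w
    · exact T_ne_one n w hw
  · intro d hd e he
    obtain ⟨u, hu, rfl⟩ := eq_T_of_rank n d hd
    obtain ⟨w, hw, rfl⟩ := eq_T_of_rank n e he
    by_cases h0 : sympB n w u = 0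
    · left
      apply comm_sq _ _ (T_mul_self n u) (T_mul_self n w)
      have h := conj_T n (T n u) w
      rw [T_mulVec, h0, zero_smul, add_zero] at h
      exact h
    · right
      have h1 : sympB n w u = 1 := zmod2_eq_one h0
      have h1' : sympB n u w = 1 := by
        have h := (sympB_isAlt (F := ZMod 2) n).neg_eq w u
        rw [h1] at h
        rw [← h]
        decide
      apply braid_cube _ _ (T n (w + u)) (T_mul_self n u) (T_mul_self n w) (T_mul_self n (w + u))
      · have h := conj_T n (T n u) w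
        rw [T_mulVec, h1, one_smul] at h
        exact h
      · have h := conj_T n (T n w) u
        rw [T_mulVec, h1', one_smul, add_comm] at h
        exact h
  · have he0 : (Pi.single (Sum.inl ⟨0, hn⟩) 1 : Vec n) ≠ 0 := by
      intro h
      have := congrFun h (Sum.inl ⟨0, hn⟩)
      simp at this
    refine ⟨T n (Pi.single (Sum.inl ⟨0, hn⟩) 1), rank_T n _ he0, ?_⟩
    ext g
    have hmem : g ∈ conjugatesOf (T n (Pi.single (Sum.inl ⟨0, hn⟩) 1)) ↔
        IsConj (T n (Pi.single (Sum.inl ⟨0, hn⟩) 1)) g := Iff.rfl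
    rw [hmem, isConj_iff]
    constructor
    · intro hg
      obtain ⟨w, hw, rfl⟩ := eq_T_of_rank n g hg
      obtain ⟨c, hc⟩ := Cfsg.Agent.S0271.result n _ w he0 hw
      refine ⟨c, ?_⟩
      rw [conj_T, hc, mul_inv_cancel_right]
    · rintro ⟨c, rfl⟩
      rw [conj_T, mul_inv_cancel_right]
      apply rank_T
      intro h0
      have h := conj_T n c (Pi.single (Sum.inl ⟨0, hn⟩) 1)
      rw [h0, T_zero, one_mul] at h
      exact T_ne_one n _ he0 (mul_left_cancel (h.trans (mul_one c).symm))
  · have h := closure_sympTransvection_eq_top (F := ZMod 2) n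
    rw [eq_top_iff, ← h, Subgroup.closure_le]
    rintro A ⟨w, c, hA⟩
    by_cases hc : c = 0
    · have hA1 : A = 1 := by
        apply Subtype.ext
        rw [hA, hc]
        unfold Cfsg.sympTransvection
        rw [zero_smul, add_zero]
        rfl
      rw [hA1]
      exact Subgroup.one_mem _
    · have hc1 : c = 1 := zmod2_eq_one hc
      have hA1 : A = T n w := by
        apply Subtype.ext
        rw [hA, hc1]
        rfl
      by_cases hw : w = 0
      · rw [hA1, hw, T_zero]
        exact Subgroup.one_mem _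
      · rw [hA1]
        exact Subgroup.subset_closure (rank_T n w hw)

end Cfsg.Agent.S0440
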