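import Cfsg.Statements.S5016
import Mathlib
import Cfsg.Agent.Lib.Helper86.RankOne

set_option autoImplicit false
open Cfsg

namespace Cfsg.Agent.S5016

open Matrix Cfsg.Agent.Lib.Helper86

variable {k : Type*} [Field k]

def Lm (t : k) : Matrix.SpecialLinearGroup (Fin 2) k := ⟨!![1, 0; t, 1], by simp [Matrix.det_fin_two]⟩
def Um (t : k) : Matrix.SpecialLinearGroup (Fin 2) k := ⟨!![1, t; 0, 1], by simp [Matrix.det_fin_two]⟩

theorem Lm_coe (t : k) : (Lm t : Matrix (Fin 2) (Fin 2) k) = !![1, 0; t, 1] := rfl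
theorem Um_coe (t : k) : (Um t : Matrix (Fin 2) (Fin 2) k) = !![1, t; 0, 1] := rfl

theorem Lm_add (s t : k) : Lm (s + t) = Lm s * Lm t := by
  ext i j
  rw [Matrix.SpecialLinearGroup.coe_mul, Lm_coe, Lm_coe, Lm_coe, Matrix.mul_fin_two]
  fin_cases i <;> fin_cases j <;> simp [add_comm]

theorem Um_add (s t : k) : Um (s + t) = Um s * Um t := by
  ext i j
  rw [Matrix.SpecialLinearGroup.coe_mul, Um_coe, Um_coe, Um_coe, Matrix.mul_fin_two]
  fin_cases i <;> fin_cases j <;> simp [add_comm]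

theorem Lm_zero : Lm (0 : k) = 1 := by
  ext i j
  rw [Lm_coe]
  fin_cases i <;> fin_cases j <;> simp

theorem Um_zero : Um (0 : k) = 1 := by
  ext i j
  rw [Um_coe]
  fin_cases i <;> fin_cases j <;> simp

theorem Lm_inv (t : k) : (Lm t)⁻¹ = Lm (-t) := by
  rw [inv_eq_iff_mul_eq_one, ← Lm_add]; simp [Lm_zero]

theorem Um_inv (t : k) : (Um t)⁻¹ = Um (-t) := by
  rw [inv_eq_iff_mul_eq_one, ← Um_add]; simp [Um_zero]

theorem Lm_inj {s t : k} (h : Lm s = Lm t) : s = t := by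
  have := congrArg (fun g : Matrix.SpecialLinearGroup (Fin 2) k => (g : Matrix (Fin 2) (Fin 2) k) 1 0) h
  simpa [Lm_coe] using this

theorem Um_inj {s t : k} (h : Um s = Um t) : s = t := by
  have := congrArg (fun g : Matrix.SpecialLinearGroup (Fin 2) k => (g : Matrix (Fin 2) (Fin 2) k) 0 1) h
  simpa [Um_coe] using this

theorem Lm_ne_one {t : k} (ht : t ≠ 0) : Lm t ≠ 1 := by
  intro h; rw [← Lm_zero] at h; exact ht (Lm_inj h)

theorem Um_ne_one {t : k} (ht : t ≠ 0) : Um t ≠ 1 := by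
  intro h; rw [← Um_zero] at h; exact ht (Um_inj h)

theorem mem_lower_iff {g : Matrix.SpecialLinearGroup (Fin 2) k} :
    g ∈ lowerUnipotentSL2 k ↔ ∃ t, g = Lm t := by
  constructor
  · intro hg
    unfold lowerUnipotentSL2 at hg
    induction hg using Subgroup.closure_induction with
    | mem y hy =>
      obtain ⟨h1, h2, h3⟩ := hy
      refine ⟨(y : Matrix (Fin 2) (Fin 2) k) 1 0, ?_⟩
      ext i j
      rw [Lm_coe]
      fin_cases i <;> fin_cases j <;> simp [h1, h2, h3]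
    | one => exact ⟨0, Lm_zero.symm⟩
    | mul y z _ _ ihy ihz =>
      obtain ⟨s, rfl⟩ := ihy
      obtain ⟨t, rfl⟩ := ihz
      exact ⟨s + t, (Lm_add s t).symm⟩
    | inv y _ ih =>
      obtain ⟨s, rfl⟩ := ih
      exact ⟨-s, Lm_inv s⟩
  · rintro ⟨t, rfl⟩
    apply Subgroup.subset_closure
    simp [Lm_coe]

theorem mem_upper_iff {g : Matrix.SpecialLinearGroup (Fin 2) k} :
    g ∈ upperUnipotentSL2 k ↔ ∃ t, g = Um t := by
  constructor
  · intro hg
    unfold upperUnipotentSL2 at hg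
    induction hg using Subgroup.closure_induction with
    | mem y hy =>
      obtain ⟨h1, h2, h3⟩ := hy
      refine ⟨(y : Matrix (Fin 2) (Fin 2) k) 0 1, ?_⟩
      ext i j
      rw [Um_coe]
      fin_cases i <;> fin_cases j <;> simp [h1, h2, h3]
    | one => exact ⟨0, Um_zero.symm⟩
    | mul y z _ _ ihy ihz =>
      obtain ⟨s, rfl⟩ := ihy
      obtain ⟨t, rfl⟩ := ihz
      exact ⟨s + t, (Um_add s t).symm⟩
    | inv y _ ih =>
      obtain ⟨s, rfl⟩ := ih
      exact ⟨-s, Um_inv s⟩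
  · rintro ⟨t, rfl⟩
    apply Subgroup.subset_closure
    simp [Um_coe]

theorem Lm_mem (t : k) : Lm t ∈ lowerUnipotentSL2 k := mem_lower_iff.mpr ⟨t, rfl⟩
theorem Um_mem (t : k) : Um t ∈ upperUnipotentSL2 k := mem_upper_iff.mpr ⟨t, rfl⟩

theorem conj_key {t : k} (ht : t ≠ 0) (s : k) :
    Um t⁻¹ * Lm (-t) * Um s * Lm t * Um (-t⁻¹) = Lm (-(t ^ 2 * s)) := by
  ext i j
  simp only [Matrix.SpecialLinearGroup.coe_mul, Lm_coe, Um_coe, Matrix.mul_fin_two]
  fin_cases i <;> fin_cases j <;> simp <;> field_simp <;> ring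

theorem special_key {t : k} (ht : t ≠ 0) :
    Um (-t⁻¹) * Lm t * Um t⁻¹ = Lm (-t) * Um (-t⁻¹) * Lm t := by
  ext i j
  simp only [Matrix.SpecialLinearGroup.coe_mul, Lm_coe, Um_coe, Matrix.mul_fin_two]
  fin_cases i <;> fin_cases j <;> simp <;> field_simp <;> first | ring1 | simp

theorem gen_key (g : Matrix.SpecialLinearGroup (Fin 2) k)
    (hc : (g : Matrix (Fin 2) (Fin 2) k) 1 0 ≠ 0) :
    g = Um (((g : Matrix (Fin 2) (Fin 2) k) 0 0 - 1) / (g : Matrix (Fin 2) (Fin 2) k) 1 0) *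
      Lm ((g : Matrix (Fin 2) (Fin 2) k) 1 0) *
      Um (((g : Matrix (Fin 2) (Fin 2) k) 1 1 - 1) / (g : Matrix (Fin 2) (Fin 2) k) 1 0) := by
  have hdet := g.det_coe
  rw [Matrix.det_fin_two] at hdet
  ext i j
  simp only [Matrix.SpecialLinearGroup.coe_mul, Lm_coe, Um_coe, Matrix.mul_fin_two]
  fin_cases i <;> fin_cases j <;> simp
  · field_simp
    ring
  · field_simp
    linear_combination (-1 : k) * hdet
  · field_simp
    ring

theorem sup_eq_top : lowerUnipotentSL2 k ⊔ upperUnipotentSL2 k = ⊤ := by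
  have h1 : ∀ g : Matrix.SpecialLinearGroup (Fin 2) k, (g : Matrix (Fin 2) (Fin 2) k) 1 0 ≠ 0 →
      g ∈ lowerUnipotentSL2 k ⊔ upperUnipotentSL2 k := by
    intro g hg
    rw [gen_key g hg]
    exact Subgroup.mul_mem _ (Subgroup.mul_mem _ (Subgroup.mem_sup_right (Um_mem _))
      (Subgroup.mem_sup_left (Lm_mem _))) (Subgroup.mem_sup_right (Um_mem _))
  rw [eq_top_iff]
  intro g _
  by_cases hg : (g : Matrix (Fin 2) (Fin 2) k) 1 0 = 0
  · have hdet := g.det_coe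
    rw [Matrix.det_fin_two, hg, mul_zero, sub_zero] at hdet
    have h00 : (g : Matrix (Fin 2) (Fin 2) k) 0 0 ≠ 0 := by
      intro h0; rw [h0, zero_mul] at hdet; exact zero_ne_one hdet
    have h2 : ((Lm 1 * g : Matrix.SpecialLinearGroup (Fin 2) k) : Matrix (Fin 2) (Fin 2) k) 1 0 ≠ 0 := by
      rw [Matrix.SpecialLinearGroup.coe_mul, Lm_coe, Matrix.mul_apply, Fin.sum_univ_two]
      simp [hg, h00]
    have h3 := h1 _ h2
    have h4 : g = (Lm 1)⁻¹ * (Lm 1 * g) := by group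
    rw [h4]
    exact Subgroup.mul_mem _ (Subgroup.inv_mem _ (Subgroup.mem_sup_left (Lm_mem _))) h3
  · exact h1 g hg

/-- `w B w⁻¹ = A` for `w = U(t⁻¹) L(-t)`. -/
theorem conj_upper {t : k} (ht : t ≠ 0) :
    conjBy (upperUnipotentSL2 k) (Um t⁻¹ * Lm (-t)) = lowerUnipotentSL2 k := by
  have hwinv : (Um t⁻¹ * Lm (-t))⁻¹ = Lm t * Um (-t⁻¹) := by
    rw [_root_.mul_inv_rev, Lm_inv, Um_inv, neg_neg]
  ext x
  rw [mem_conjBy, mem_upper_iff, mem_lower_iff]
  constructor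
  · rintro ⟨s, hs⟩
    refine ⟨-(t ^ 2 * s), ?_⟩
    rw [← conj_key ht s, ← hs, hwinv]
    have hw2 : Lm t * Um (-t⁻¹) * (Um t⁻¹ * Lm (-t)) = 1 := by
      rw [← hwinv]; exact inv_mul_cancel _
    calc x = (Um t⁻¹ * Lm (-t)) * (Lm t * Um (-t⁻¹) * x * (Um t⁻¹ * Lm (-t))) * (Lm t * Um (-t⁻¹)) := by
            rw [← hwinv]; group
      _ = Um t⁻¹ * Lm (-t) * (Lm t * Um (-t⁻¹) * x * (Um t⁻¹ * Lm (-t))) * Lm t * Um (-t⁻¹) := by
            group
  · rintro ⟨y, rfl⟩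
    refine ⟨-(y / t ^ 2), ?_⟩
    have h1 := conj_key ht (-(y / t ^ 2))
    have h2 : -(t ^ 2 * -(y / t ^ 2)) = y := by field_simp
    rw [h2] at h1
    rw [← h1, hwinv]
    have hw2 : Lm t * Um (-t⁻¹) * (Um t⁻¹ * Lm (-t)) = 1 := by
      rw [← hwinv]; exact inv_mul_cancel _
    calc Lm t * Um (-t⁻¹) * (Um t⁻¹ * Lm (-t) * Um (-(y / t ^ 2)) * Lm t * Um (-t⁻¹)) * (Um t⁻¹ * Lm (-t))
        = (Lm t * Um (-t⁻¹) * (Um t⁻¹ * Lm (-t))) * Um (-(y / t ^ 2)) *
            (Lm t * Um (-t⁻¹) * (Um t⁻¹ * Lm (-t))) := by group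
      _ = Um (-(y / t ^ 2)) := by rw [hw2, one_mul, mul_one]

theorem partner_eq {t : k} (ht : t ≠ 0) :
    conjBy (lowerUnipotentSL2 k) (Um t⁻¹)⁻¹ = conjBy (upperUnipotentSL2 k) (Lm t)⁻¹ := by
  have h := conj_upper ht
  rw [← Lm_inv, ← conjBy_conjBy, conjBy_eq_iff] at h
  exact h.symm

theorem isComm_lower : IsMulCommutative (lowerUnipotentSL2 k) := by
  refine .of_setLike_mul_comm ?_
  intro a ha b hb
  obtain ⟨s, rfl⟩ := mem_lower_iff.mp ha
  obtain ⟨t, rfl⟩ := mem_lower_iff.mp hb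
  rw [← Lm_add, ← Lm_add, add_comm]

theorem isComm_upper : IsMulCommutative (upperUnipotentSL2 k) := by
  refine .of_setLike_mul_comm ?_
  intro a ha b hb
  obtain ⟨s, rfl⟩ := mem_upper_iff.mp ha
  obtain ⟨t, rfl⟩ := mem_upper_iff.mp hb
  rw [← Um_add, ← Um_add, add_comm]

theorem isNilpotent_of_comm {G : Type*} [Group G] {H : Subgroup G} (h : IsMulCommutative H) :
    Group.IsNilpotent H :=
  ⟨⟨1, Subgroup.upperCentralSeries_one_eq_top_iff.mpr h⟩⟩

theorem pair : IsRankOnePair (lowerUnipotentSL2 k) (upperUnipotentSL2 k) := by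
  refine ⟨?_, isNilpotent_of_comm isComm_lower, isNilpotent_of_comm isComm_upper, ?_, ?_⟩
  · intro h
    have h1 : Lm (1 : k) ∈ upperUnipotentSL2 k := by rw [← h]; exact Lm_mem 1
    obtain ⟨s, hs⟩ := mem_upper_iff.mp h1
    have := congrArg (fun g : Matrix.SpecialLinearGroup (Fin 2) k => (g : Matrix (Fin 2) (Fin 2) k) 1 0) hs
    simp [Lm_coe, Um_coe] at this
  · intro a ha ha1
    obtain ⟨t, rfl⟩ := mem_lower_iff.mp ha
    have ht : t ≠ 0 := by rintro rfl; exact ha1 Lm_zero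
    exact ⟨Um t⁻¹, Um_mem _, Um_ne_one (inv_ne_zero ht), partner_eq ht⟩
  · intro b hb hb1
    obtain ⟨s, rfl⟩ := mem_upper_iff.mp hb
    have hs : s ≠ 0 := by rintro rfl; exact hb1 Um_zero
    refine ⟨Lm s⁻¹, Lm_mem _, Lm_ne_one (inv_ne_zero hs), ?_⟩
    have := partner_eq (inv_ne_zero hs)
    rw [inv_inv] at this
    exact this.symm

/-- For any field k, the special linear group SL₂(k) is a special rank one group with abelian unipotent subgroups, the unipotent subgroups being the group of lower unitriangular matrices and the group of upper unitriangular matrices. -/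
theorem result (k : Type*) [Field k] :
    Cfsg.IsRankOneGroup (Matrix.SpecialLinearGroup (Fin 2) k) (Cfsg.lowerUnipotentSL2 k) (Cfsg.upperUnipotentSL2 k) ∧
    Cfsg.IsSpecialRankOnePair (Cfsg.lowerUnipotentSL2 k) (Cfsg.upperUnipotentSL2 k) ∧
    Cfsg.HasAbelianUnipotents (Cfsg.lowerUnipotentSL2 k) (Cfsg.upperUnipotentSL2 k) := by
  refine ⟨⟨sup_eq_top, pair⟩, ⟨pair, ?_⟩, isComm_lower, isComm_upper⟩
  intro a ha ha1 b hb hb1 hab
  obtain ⟨t, rfl⟩ := mem_lower_iff.mp ha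
  have ht : t ≠ 0 := by rintro rfl; exact ha1 Lm_zero
  have hb_eq : b = Um t⁻¹ :=
    rk1_partner_unique_left pair hb (Um_mem _) (hab.trans (partner_eq ht).symm)
  rw [hb_eq, Um_inv, Lm_inv]
  exact special_key ht

end Cfsg.Agent.S5016
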