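import Cfsg.Statements.S5955
import Cfsg.Agent.Lib.Helper96.SpNd
import Cfsg.Agent.Lib.Helper96.SpTI
import Cfsg.Agent.Lib.Helper43.SpPLIN
import Cfsg.Agent.Lib.Helper31.SpWittTI
import Cfsg.Agent.Lib.Helper18.SpBadElt
import Cfsg.Agent.Lib.Helper73.SpR2C
import Cfsg.Agent.Lib.Helper77.SpTypes
import Cfsg.Agent.Lib.Helper8.SpPigeon
import Cfsg.Agent.Lib.Helper31.SpFixCntTI
import Cfsg.Agent.Lib.Helper64.SpTICntC
import Cfsg.Agent.Lib.Helper31.SpTICntA
import Cfsg.Agent.Lib.Helper73.TiCntB
import Cfsg.Agent.Lib.Helper73.SpR2A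
import Cfsg.Agent.Lib.Helper78.SpR2B
import Cfsg.Agent.Lib.Helper4.SpR2OB
import Cfsg.Agent.Lib.Helper4.SpALG
import Cfsg.Agent.Lib.Helper14.SpCountTI
import Cfsg.Agent.Lib.Helper96.SpTIOdd
import Cfsg.Agent.Lib.Helper96.SpTIBound

set_option autoImplicit false
open scoped MatrixGroups
open Cfsg

namespace Cfsg.Agent.S5955

open Cfsg.Agent.Lib.Helper96.Sp Cfsg.Agent.Lib.Helper96.BG Cfsg.Agent.Lib.Helper18 Module

theorem smul_one_inj {F : Type*} [Field F] {V : Type*} [AddCommGroup V] [Module F V]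
    [Nontrivial V] (a b : F) (h : a • (1 : Module.End F V) = b • (1 : Module.End F V)) :
    a = b := by
  obtain ⟨v, hv⟩ := exists_ne (0 : V)
  have h1 := LinearMap.congr_fun h v
  rw [LinearMap.smul_apply, LinearMap.smul_apply, Module.End.one_apply] at h1
  have h2 : (a - b) • v = 0 := by rw [sub_smul, h1, sub_self]
  rcases smul_eq_zero.mp h2 with h3 | h3
  · exact sub_eq_zero.mp h3
  · exact absurd h3 hv

theorem isom_pow' {F : Type*} [Field F] {V : Type*} [AddCommGroup V] [Module F V]
    {B : LinearMap.BilinForm F V} (T : Module.End F V) (hT : Isom B T) (k : ℕ) :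
    Isom B (T ^ k) := by
  induction k with
  | zero => intro u v; rfl
  | succ k ih =>
    intro u v
    rw [pow_succ]
    exact (ih (T u) (T v)).trans (hT u v)

theorem pow_fix {F : Type*} [Field F] {V : Type*} [AddCommGroup V] [Module F V]
    (T : Module.End F V) (u : V) (h : T u = u) (k : ℕ) : (T ^ k) u = u := by
  induction k with
  | zero => rfl
  | succ k ih => rw [pow_succ, Module.End.mul_apply, h, ih]

/-- Scaling an isometry with scalar `r`-th power (`r` odd) to one of order `r`. -/
theorem scale_odd {F : Type*} [Field F] {V : Type*} [AddCommGroup V] [Module F V]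
    [Nontrivial V] {B : LinearMap.BilinForm F V} (hN : ND B ⊤) (T : Module.End F V)
    (hT : Isom B T) (r : ℕ) (hodd : Odd r) (z : F) (hz : T ^ r = z • (1 : Module.End F V)) :
    z * z = 1 ∧ Isom B (z • T) ∧ (z • T) ^ r = 1 ∧
      ∀ W : Submodule F V, W.map (z • T) ≤ W → W.map T ≤ W := by
  have hzz : z * z = 1 := scalar_sq_of_isom hN z (by rw [← hz]; exact isom_pow' T hT r)
  refine ⟨hzz, ?_, ?_, ?_⟩
  · intro u v
    simp only [LinearMap.smul_apply, map_smul, smul_eq_mul]
    rw [← mul_assoc, hzz, one_mul]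
    exact hT u v
  · rw [smul_pow, hz, smul_smul, pow_eq_self_of_sq z hzz r hodd, hzz, one_smul]
  · rintro W hW _ ⟨w, hw, rfl⟩
    have h1 : (z • T) w ∈ W := hW ⟨w, hw, rfl⟩
    have h2 : T w = z • (z • T) w := by
      rw [LinearMap.smul_apply, smul_smul, hzz, one_smul]
    rw [h2]
    exact W.smul_mem z h1

section Lin

variable {F : Type*} [Field F] [Fintype F] {V : Type*} [AddCommGroup V] [Module F V]
  [FiniteDimensional F V] {B : LinearMap.BilinForm F V}

omit [Fintype F] [FiniteDimensional F V] in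
theorem range_inv (T : Module.End F V) :
    (LinearMap.range (T - 1)).map T ≤ LinearMap.range (T - 1) := by
  rintro _ ⟨_, ⟨w, rfl⟩, rfl⟩
  refine ⟨T w, ?_⟩
  simp only [LinearMap.sub_apply, Module.End.one_apply, map_sub]

omit [Fintype F] in
/-- Sum of totally isotropic subspaces of two orthogonal subspaces, the first nondegenerate. -/
theorem sup_ti_finrank (hA : B.IsAlt) {Q Q' U U' : Submodule F V} (hQ : ND B Q)
    (hQQ' : Orth B Q Q') (hU : U ≤ Q) (hU' : U' ≤ Q') (hUt : Orth B U U) (hU't : Orth B U' U') :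
    Orth B (U ⊔ U') (U ⊔ U') ∧ finrank F ↥(U ⊔ U') = finrank F U + finrank F U' := by
  refine ⟨ti_sup hA hUt hU't (orth_mono hQQ' hU hU'), ?_⟩
  have h1 := Submodule.finrank_sup_add_finrank_inf_eq U U'
  have h2 : U ⊓ U' = ⊥ := by
    rw [eq_bot_iff]
    rintro x ⟨hx1, hx2⟩
    rw [Submodule.mem_bot]
    apply hQ x (hU hx1)
    intro y hy
    rw [alt_swap hA, hQQ' y hy x (hU' hx2), neg_zero]
  rw [h2, finrank_bot] at h1
  omega

/-- EVEN-STEP: in a large enough invariant nondegenerate subspace of the commutator space, two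
orthogonal blocks of the same type give a totally isotropic invariant subspace. -/
theorem exists_ti_pair (hA : B.IsAlt) (hN : ND B ⊤)
    (T : Module.End F V) (hT : Isom B T) (r : ℕ) [Fact r.Prime] (hr2 : r ≠ 2)
    (hrq : ¬ r ∣ Fintype.card F) (hr0 : (r : F) ≠ 0) (hTr : T ^ r = 1)
    (heven : Even (orderOf ((Fintype.card F : ℕ) : ZMod r)))
    (hi1 : 1 ≤ orderOf ((Fintype.card F : ℕ) : ZMod r))
    (Z : Submodule F V) (hZ : ND B Z ∧ Z.map T ≤ Z ∧ Z ≤ LinearMap.range (T - 1))
    (hZdim : (r - 1) + orderOf ((Fintype.card F : ℕ) : ZMod r) ≤ finrank F Z) :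
    ∃ Q U : Submodule F V, Q ≤ Z ∧ (ND B Q ∧ Q.map T ≤ Q ∧ Q ≤ LinearMap.range (T - 1)) ∧
      finrank F Q = 2 * orderOf ((Fintype.card F : ℕ) : ZMod r) ∧ U ≤ Q ∧ U.map T ≤ U ∧
      Orth B U U ∧ finrank F U = orderOf ((Fintype.card F : ℕ) : ZMod r) := by
  have hblk : blk (Fintype.card F) r = orderOf ((Fintype.card F : ℕ) : ZMod r) := by
    unfold blk
    rw [if_pos heven]
  obtain ⟨s, P, hP, hPorth, hPsup, hfin⟩ := orth_atoms hA (blk (Fintype.card F) r)
    (by rw [hblk]; exact hi1)
    (fun W => ND B W ∧ W.map T ≤ W ∧ W ≤ LinearMap.range (T - 1)) (fun W h => h.1)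
    (fun W hW hW0 => block_step hA hN T hT r hr2 hrq hr0 hTr W hW hW0) Z hZ
  rw [hblk] at hfin
  have hs : (r - 1) / orderOf ((Fintype.card F : ℕ) : ZMod r) < s := by
    rw [Nat.div_lt_iff_lt_mul (by omega)]
    rw [hfin] at hZdim
    have : orderOf ((Fintype.card F : ℕ) : ZMod r) * s = s * orderOf ((Fintype.card F : ℕ) : ZMod r) :=
      mul_comm _ _
    omega
  obtain ⟨j, j', hne, f, hf, hk1, hk2⟩ :=
    Cfsg.Agent.Lib.Helper8.SpPigeon.exists_same_type T r hrq hr0 hTr P
      (fun j => ⟨(hP j).1.2.1, (hP j).1.2.2, by rw [(hP j).2.1, hblk]⟩) hs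
  obtain ⟨U, hU1, hU2, hU3, hU4⟩ :=
    Cfsg.Agent.Lib.Helper43.SpPLIN.exists_ti_of_same_type hA hN T hT r hr2 hrq hr0 hTr
      (P j) (P j') (hP j).1 (by rw [(hP j).2.1, hblk]) (hP j').1 (by rw [(hP j').2.1, hblk])
      (hPorth j j' hne) f hf hk1 hk2
      (fun E _ _ σ h1 h2 a ha => Cfsg.Agent.Lib.Helper4.SpALG.exists_norm_eq σ h1 h2 a ha)
  obtain ⟨hnd, hdim⟩ := nd_sup hA (hP j).1.1 (hP j').1.1 (hPorth j j' hne)
  refine ⟨P j ⊔ P j', U, sup_le (hP j).2.2 (hP j').2.2, ⟨hnd, ?_, sup_le (hP j).1.2.2 (hP j').1.2.2⟩,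
    ?_, hU1, hU2, hU3, hU4⟩
  · rw [Submodule.map_sup]
    exact sup_le_sup (hP j).1.2.1 (hP j').1.2.1
  · rw [hdim, (hP j).2.1, (hP j').2.1, hblk]
    ring

/-- EVEN-ASM: totally isotropic invariant subspaces of the commutator space, `i` even. -/
theorem exists_ti_inv_even (hA : B.IsAlt) (hN : ND B ⊤)
    (T : Module.End F V) (hT : Isom B T) (r : ℕ) [Fact r.Prime] (hr2 : r ≠ 2)
    (hrq : ¬ r ∣ Fintype.card F) (hr0 : (r : F) ≠ 0) (hTr : T ^ r = 1)
    (heven : Even (orderOf ((Fintype.card F : ℕ) : ZMod r)))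
    (hi1 : 1 ≤ orderOf ((Fintype.card F : ℕ) : ZMod r)) (b : ℕ)
    (hb : b ≠ 0 → (r - 1) + 2 * (orderOf ((Fintype.card F : ℕ) : ZMod r) * b) ≤
      finrank F (LinearMap.range (T - 1)) + orderOf ((Fintype.card F : ℕ) : ZMod r)) :
    ∃ Q U : Submodule F V, Q ≤ LinearMap.range (T - 1) ∧ ND B Q ∧ Q.map T ≤ Q ∧
      finrank F Q = 2 * (orderOf ((Fintype.card F : ℕ) : ZMod r) * b) ∧ U ≤ Q ∧ U.map T ≤ U ∧
      Orth B U U ∧ finrank F U = orderOf ((Fintype.card F : ℕ) : ZMod r) * b := by
  induction b with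
  | zero =>
    refine ⟨⊥, ⊥, bot_le, nd_bot, by rw [Submodule.map_bot], by rw [finrank_bot, mul_zero, mul_zero],
      le_rfl, by rw [Submodule.map_bot], ?_, by rw [finrank_bot, mul_zero]⟩
    intro u hu v hv
    rw [Submodule.mem_bot] at hu
    rw [hu, map_zero, LinearMap.zero_apply]
  | succ b ih =>
    have hb' := hb (Nat.succ_ne_zero b)
    have hexp : orderOf ((Fintype.card F : ℕ) : ZMod r) * (b + 1) =
        orderOf ((Fintype.card F : ℕ) : ZMod r) * b + orderOf ((Fintype.card F : ℕ) : ZMod r) := by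
      ring
    rw [hexp] at hb'
    obtain ⟨Q, U, hQR, hQnd, hQinv, hQfin, hUQ, hUinv, hUti, hUfin⟩ := ih (fun _ => by omega)
    have hRnd := nd_range hA hN T hT r hrq hr0 hTr
    obtain ⟨hZnd, -, hZfin⟩ := nd_rel hA hQnd hRnd hQR
    have hZinv : (LinearMap.range (T - 1) ⊓ B.orthogonal Q).map T ≤
        LinearMap.range (T - 1) ⊓ B.orthogonal Q := by
      refine le_trans (Submodule.map_inf_le T) (inf_le_inf (range_inv T) ?_)
      exact perp_invariant hN hT hQinv
    obtain ⟨Q', U', hQ'Z, ⟨hQ'nd, hQ'inv, hQ'R⟩, hQ'fin, hU'Q', hU'inv, hU'ti, hU'fin⟩ :=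
      exists_ti_pair hA hN T hT r hr2 hrq hr0 hTr heven hi1
        (LinearMap.range (T - 1) ⊓ B.orthogonal Q) ⟨hZnd, hZinv, inf_le_left⟩ (by omega)
    have horth : Orth B Q Q' := orth_iff_le_perp.mpr (le_trans hQ'Z inf_le_right)
    obtain ⟨hnd, hdim⟩ := nd_sup hA hQnd hQ'nd horth
    obtain ⟨hti, htidim⟩ := sup_ti_finrank hA hQnd horth hUQ hU'Q' hUti hU'ti
    refine ⟨Q ⊔ Q', U ⊔ U', sup_le hQR hQ'R, hnd, ?_, ?_, sup_le_sup hUQ hU'Q', ?_, hti, ?_⟩
    · rw [Submodule.map_sup]
      exact sup_le_sup hQinv hQ'inv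
    · rw [hdim, hQfin, hQ'fin, hexp]
      ring
    · rw [Submodule.map_sup]
      exact sup_le_sup hUinv hU'inv
    · rw [htidim, hUfin, hU'fin, hexp]

/-- Every isometry of odd prime order `r` fixes a totally isotropic `m`-space under the
numerical conditions. -/
theorem exists_ti_inv_of_pow (hA : B.IsAlt) (hN : ND B ⊤)
    (T : Module.End F V) (hT : Isom B T) (r : ℕ) [Fact r.Prime] (hr2 : r ≠ 2)
    (hrq : ¬ r ∣ Fintype.card F) (hr0 : (r : F) ≠ 0) (hTr : T ^ r = 1)
    (hi1 : 1 ≤ orderOf ((Fintype.card F : ℕ) : ZMod r)) (d m : ℕ)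
    (hV : finrank F V = 2 * d) (hmd : m ≤ d)
    (hk : 2 * (m % orderOf ((Fintype.card F : ℕ) : ZMod r)) ≤ (2 * d) % blk (Fintype.card F) r)
    (hcond : Odd (orderOf ((Fintype.card F : ℕ) : ZMod r)) ∨
      (r - 1) / orderOf ((Fintype.card F : ℕ) : ZMod r) +
        2 * (m / orderOf ((Fintype.card F : ℕ) : ZMod r)) ≤
        (2 * d) / orderOf ((Fintype.card F : ℕ) : ZMod r)) :
    ∃ W : Submodule F V, W.map T ≤ W ∧ Orth B W W ∧ finrank F W = m := by
  have hr : r.Prime := Fact.out
  have hKnd := nd_ker hA hN T hT r hrq hr0 hTr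
  have hRnd := nd_range hA hN T hT r hrq hr0 hTr
  have hdimKR := LinearMap.finrank_range_add_finrank_ker (T - 1)
  rw [hV] at hdimKR
  obtain ⟨A, hA'⟩ := blk_dvd_range hA hN T hT r hr2 hrq hr0 hTr (LinearMap.range (T - 1))
    (range_inv T) hRnd le_rfl
  have hKmod : (2 * d) % blk (Fintype.card F) r ≤ finrank F (LinearMap.ker (T - 1)) := by
    have h1 : 2 * d = finrank F (LinearMap.ker (T - 1)) + blk (Fintype.card F) r * A := by omega
    rw [h1, Nat.add_mul_mod_self_left]
    exact Nat.mod_le _ _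
  -- the commutator part
  have key : ∃ (b : ℕ) (U : Submodule F V), U ≤ LinearMap.range (T - 1) ∧ U.map T ≤ U ∧
      Orth B U U ∧ finrank F U = orderOf ((Fintype.card F : ℕ) : ZMod r) * b ∧
      orderOf ((Fintype.card F : ℕ) : ZMod r) * b ≤ m ∧
      2 * (m - orderOf ((Fintype.card F : ℕ) : ZMod r) * b) ≤
        finrank F (LinearMap.ker (T - 1)) := by
    generalize hidef : orderOf ((Fintype.card F : ℕ) : ZMod r) = i at *
    have hdivmul : i * (m / i) ≤ m := Nat.mul_div_le m i
    have hmodeq : m - i * (m / i) = m % i := by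
      have := Nat.div_add_mod m i
      omega
    by_cases hodd : Odd i
    · have hblk : blk (Fintype.card F) r = 2 * i := by
        unfold blk
        rw [hidef, if_neg (Nat.not_even_iff_odd.mpr hodd)]
      rw [hblk] at hA' hKmod hk
      have hle : 2 * (i * min (m / i) A) ≤ finrank F (LinearMap.range (T - 1)) := by
        rw [hA']
        have : i * min (m / i) A ≤ i * A := Nat.mul_le_mul_left i (min_le_right _ _)
        have e : 2 * i * A = 2 * (i * A) := by ring
        omega
      obtain ⟨U, hU1, hU2, hU3, hU4⟩ :=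
        Cfsg.Agent.Lib.Helper96.Sp.exists_ti_inv_odd hA hN T hT r hr2 hrq hr0 hTr
          (by rw [hidef]; exact hodd) (min (m / i) A) (by rw [hidef]; exact hle)
      rw [hidef] at hU4
      refine ⟨min (m / i) A, U, hU1, hU2, hU3, hU4, ?_, ?_⟩
      · exact le_trans (Nat.mul_le_mul_left i (min_le_left _ _)) hdivmul
      · rcases le_total (m / i) A with h | h
        · rw [min_eq_left h, hmodeq]
          omega
        · rw [min_eq_right h]
          have e : 2 * i * A = 2 * (i * A) := by ring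
          omega
    · have heven : Even i := Nat.not_odd_iff_even.mp hodd
      have hblk : blk (Fintype.card F) r = i := by
        unfold blk
        rw [hidef, if_pos heven]
      rw [hblk] at hA' hKmod hk
      have hcond' : (r - 1) / i + 2 * (m / i) ≤ (2 * d) / i := by
        rcases hcond with h | h
        · exact absurd h hodd
        · exact h
      have hit : i * ((r - 1) / i) = r - 1 := by
        apply Nat.mul_div_cancel'
        rw [← hidef]
        apply ZMod.orderOf_dvd_card_sub_one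
        intro h0
        exact hrq ((ZMod.natCast_eq_zero_iff _ _).mp h0)
      generalize htdef : (r - 1) / i = t at *
      have hmul1 : i * min (m / i) ((A + 1 - t) / 2) ≤ i * (m / i) :=
        Nat.mul_le_mul_left i (min_le_left _ _)
      have hEven : ∃ Q U : Submodule F V, Q ≤ LinearMap.range (T - 1) ∧ ND B Q ∧ Q.map T ≤ Q ∧
          finrank F Q = 2 * (i * min (m / i) ((A + 1 - t) / 2)) ∧ U ≤ Q ∧ U.map T ≤ U ∧
          Orth B U U ∧ finrank F U = i * min (m / i) ((A + 1 - t) / 2) := by
        have := exists_ti_inv_even hA hN T hT r hr2 hrq hr0 hTr (by rw [hidef]; exact heven)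
          (by rw [hidef]; exact hi1) (min (m / i) ((A + 1 - t) / 2)) (by
            rw [hidef]
            intro hb0
            have h1 : min (m / i) ((A + 1 - t) / 2) ≤ (A + 1 - t) / 2 := min_le_right _ _
            have h2 : 2 * min (m / i) ((A + 1 - t) / 2) + t ≤ A + 1 := by omega
            have h3 := Nat.mul_le_mul_left i h2
            have e1 : i * (2 * min (m / i) ((A + 1 - t) / 2) + t) =
                2 * (i * min (m / i) ((A + 1 - t) / 2)) + i * t := by ring
            have e2 : i * (A + 1) = i * A + i := by ring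
            rw [e1, e2] at h3
            omega)
        rw [hidef] at this
        exact this
      obtain ⟨Q, U, hQ1, -, -, -, hUQ, hU2, hU3, hU4⟩ := hEven
      refine ⟨min (m / i) ((A + 1 - t) / 2), U, le_trans hUQ hQ1, hU2, hU3, hU4,
        le_trans hmul1 hdivmul, ?_⟩
      rcases le_total (m / i) ((A + 1 - t) / 2) with h | h
      · rw [min_eq_left h, hmodeq]
        omega
      · rw [min_eq_right h]
        -- A ≤ 2 s₀ + t
        have h1 : A ≤ 2 * ((A + 1 - t) / 2) + t := by omega
        have h2 := Nat.mul_le_mul_left i h1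
        have e1 : i * (2 * ((A + 1 - t) / 2) + t) = 2 * (i * ((A + 1 - t) / 2)) + i * t := by ring
        rw [e1] at h2
        have h3 := Nat.mul_le_mul_left i hcond'
        have e2 : i * (t + 2 * (m / i)) = i * t + 2 * (i * (m / i)) := by ring
        rw [e2] at h3
        have h4 : i * (2 * d / i) + (2 * d) % i = 2 * d := Nat.div_add_mod (2 * d) i
        have h5 := Nat.div_add_mod m i
        omega
  obtain ⟨b, U, hU1, hU2, hU3, hU4, hbm, hbK⟩ := key
  obtain ⟨U', hU'1, hU'2, hU'3⟩ := exists_ti_sub hA hN (LinearMap.ker (T - 1)) hKnd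
    (m - orderOf ((Fintype.card F : ℕ) : ZMod r) * b) hbK
  have horth : Orth B (LinearMap.range (T - 1)) (LinearMap.ker (T - 1)) :=
    orth_symm hA (orth_ker_range hT)
  obtain ⟨hti, hdim⟩ := sup_ti_finrank hA hRnd horth hU1 hU'1 hU3 hU'2
  refine ⟨U ⊔ U', ?_, hti, ?_⟩
  · rw [Submodule.map_sup]
    refine sup_le_sup hU2 ?_
    rintro _ ⟨u, hu, rfl⟩
    have h1 : u ∈ LinearMap.ker (T - 1) := hU'1 hu
    rw [LinearMap.mem_ker, LinearMap.sub_apply, sub_eq_zero] at h1
    rw [h1]
    exact hu
  · rw [hdim, hU4, hU'3]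
    omega


/-- the number of indices of a clipped enumeration hitting the last value -/
theorem card_clip_le (A t : ℕ) (ht : 1 ≤ t) (τ : Fin A → Fin t)
    (hτ : ∀ s, (τ s : ℕ) = min (s : ℕ) (t - 1)) (a₀ : Fin t) (ha₀ : (a₀ : ℕ) = t - 1) :
    (Finset.univ.filter (fun s => τ s = a₀)).card ≤ A - (t - 1) := by
  have h1 : (Finset.univ.filter (fun s => τ s = a₀)).card ≤ (Finset.range (A - (t - 1))).card := by
    apply Finset.card_le_card_of_injOn (fun s : Fin A => (s : ℕ) - (t - 1))
    · intro s hs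
      have hs' : τ s = a₀ := (Finset.mem_filter.mp (Finset.mem_coe.mp hs)).2
      have h2 : min (s : ℕ) (t - 1) = t - 1 := by rw [← hτ s, hs', ha₀]
      have h3 := s.2
      rw [Finset.coe_range, Set.mem_Iio]
      have : t - 1 ≤ (s : ℕ) := by
        rcases le_total (s : ℕ) (t - 1) with h | h
        · rw [min_eq_left h] at h2
          omega
        · exact h
      show (s : ℕ) - (t - 1) < A - (t - 1)
      omega
    · intro s hs s' hs' heq
      have hs1 : τ s = a₀ := (Finset.mem_filter.mp (Finset.mem_coe.mp hs)).2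
      have hs2 : τ s' = a₀ := (Finset.mem_filter.mp (Finset.mem_coe.mp hs')).2
      have h2 : min (s : ℕ) (t - 1) = t - 1 := by rw [← hτ s, hs1, ha₀]
      have h3 : min (s' : ℕ) (t - 1) = t - 1 := by rw [← hτ s', hs2, ha₀]
      have h4 : t - 1 ≤ (s : ℕ) := by
        rcases le_total (s : ℕ) (t - 1) with h | h
        · rw [min_eq_left h] at h2
          omega
        · exact h
      have h5 : t - 1 ≤ (s' : ℕ) := by
        rcases le_total (s' : ℕ) (t - 1) with h | h
        · rw [min_eq_left h] at h3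
          omega
        · exact h
      apply Fin.ext
      have heq' : (s : ℕ) - (t - 1) = (s' : ℕ) - (t - 1) := heq
      omega
  rwa [Finset.card_range] at h1

end Lin

/-- Elements of prime order of PSp_n(q) with no fixed totally isotropic `m`-space. Here `T = PSp_n(q)` with `n = 2d ≥ 4`, `(n, q) ≠ (4, 2)`, realised through the symplectic matrices over the field `F` with `q` elements (preserving the standard alternating form); an element of `T` of prime order `r` is such a matrix `x` with `x^r` scalar and `x` not scalar. For `r ≠ p` let `i` be the multiplicative order of `q` modulo `r`, `c = i` for `i` even and `c = 2i` for `i` odd, and write `k = n mod c`, `ℓ = m mod i`, `ℓ' = m mod c`, `n' = ⌊n/i⌋`, `m' = ⌊m/i⌋`, `t = (r−1)/i`. Let `1 ≤ m ≤ n/2` and let `r` be a prime dividing the number of totally isotropic `m`-spaces. Then every element of `T` of order `r` fixes a totally isotropic `m`-space if and only if either (i) `r = 2 ≠ p` and (`m` is even or `q ≡ 1 (mod 4)`); or (ii) `r ≠ p`,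 `r > 2`, `i ≤ m`, `k ≥ 2ℓ`, and (`i` is odd or `n' − 2m' ≥ t`). -/
theorem result {F : Type*} [Field F] [Fintype F] {p : ℕ} [Fact p.Prime] [CharP F p] {q : ℕ} (hq : Fintype.card F = q)
    (d m : ℕ) (hd : 2 ≤ d) (hT : (d, q) ≠ (2, 2)) (hm : 1 ≤ m) (hmd : m ≤ d)
    (r : ℕ) [Fact r.Prime]
    (hrΩ : r ∣ Nat.card {W : Submodule F (Fin d ⊕ Fin d → F) // Module.finrank F ↥W = m ∧ (∀ u ∈ W, ∀ v ∈ W, Cfsg.sympForm d F u v = 0)})
    (i c : ℕ) (hi : i = orderOf (q : ZMod r)) (hc : c = if Even i then i else 2 * i) :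
    (∀ x : ↥(Matrix.symplecticGroup (Fin d) F),
      (∃ z : F, ((x ^ r : ↥(Matrix.symplecticGroup (Fin d) F)) : Matrix (Fin d ⊕ Fin d) (Fin d ⊕ Fin d) F) = z • (1 : Matrix (Fin d ⊕ Fin d) (Fin d ⊕ Fin d) F)) →
      (∀ z : F, (x : Matrix (Fin d ⊕ Fin d) (Fin d ⊕ Fin d) F) ≠ z • (1 : Matrix (Fin d ⊕ Fin d) (Fin d ⊕ Fin d) F)) →
      ∃ W : Submodule F (Fin d ⊕ Fin d → F), Module.finrank F ↥W = m ∧ (∀ u ∈ W, ∀ v ∈ W, Cfsg.sympForm d F u v = 0) ∧
        W.map (Matrix.toLin' (x : Matrix (Fin d ⊕ Fin d) (Fin d ⊕ Fin d) F)) ≤ W) ↔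
    ((r = 2 ∧ p ≠ 2 ∧ (Even m ∨ q % 4 = 1)) ∨
     (r ≠ p ∧ 2 < r ∧ i ≤ m ∧ 2 * (m % i) ≤ (2 * d) % c ∧ (Odd i ∨ (r - 1) / i + 2 * (m / i) ≤ (2 * d) / i))) := by
  classical
  subst hq
  subst hi
  obtain rfl : c = blk (Fintype.card F) r := hc
  have hr : r.Prime := Fact.out
  have hp : p.Prime := Fact.out
  have hA := sympB_isAlt (F := F) d
  have hN := sympB_nd (F := F) d
  have : Nonempty (Fin d ⊕ Fin d) := ⟨Sum.inl ⟨0, by omega⟩⟩
  have hfinV : finrank F (Fin d ⊕ Fin d → F) = 2 * d := by
    rw [Module.finrank_fintype_fun_eq_card, Fintype.card_sum, Fintype.card_fin]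
    ring
  have hpred : ∀ W : Submodule F (Fin d ⊕ Fin d → F),
      (∀ u ∈ W, ∀ v ∈ W, Cfsg.sympForm d F u v = 0) ↔ Orth (sympB d) W W := by
    intro W
    constructor
    · intro h u hu v hv
      rw [sympB_eq_sympForm]
      exact h u hu v hv
    · intro h u hu v hv
      rw [← sympB_eq_sympForm]
      exact h u hu v hv
  have hrΩ' : r ∣ Nat.card {W : Submodule F (Fin d ⊕ Fin d → F) //
      finrank F W = m ∧ Orth (sympB d) W W} := by
    rw [← Nat.card_congr (Equiv.subtypeEquivRight
      (fun W => and_congr Iff.rfl (hpred W)))]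
    exact hrΩ
  -- the statement in terms of isometries
  have hLHS : (∀ x : ↥(Matrix.symplecticGroup (Fin d) F),
      (∃ z : F, ((x ^ r : ↥(Matrix.symplecticGroup (Fin d) F)) : Matrix (Fin d ⊕ Fin d) (Fin d ⊕ Fin d) F) = z • (1 : Matrix (Fin d ⊕ Fin d) (Fin d ⊕ Fin d) F)) →
      (∀ z : F, (x : Matrix (Fin d ⊕ Fin d) (Fin d ⊕ Fin d) F) ≠ z • (1 : Matrix (Fin d ⊕ Fin d) (Fin d ⊕ Fin d) F)) →
      ∃ W : Submodule F (Fin d ⊕ Fin d → F), Module.finrank F ↥W = m ∧ (∀ u ∈ W, ∀ v ∈ W, Cfsg.sympForm d F u v = 0) ∧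
        W.map (Matrix.toLin' (x : Matrix (Fin d ⊕ Fin d) (Fin d ⊕ Fin d) F)) ≤ W) ↔
      (∀ T : Module.End F (Fin d ⊕ Fin d → F), Isom (sympB d) T →
        (∃ z : F, T ^ r = z • (1 : Module.End F (Fin d ⊕ Fin d → F))) →
        (∀ z : F, T ≠ z • (1 : Module.End F (Fin d ⊕ Fin d → F))) →
        ∃ W : Submodule F (Fin d ⊕ Fin d → F), finrank F ↥W = m ∧ Orth (sympB d) W W ∧
          W.map T ≤ W) := by
    constructor
    · rintro hL T hT ⟨z, hz⟩ hT1
      have hmem := toMatrix'_mem d T hT
      have hpow : (((⟨LinearMap.toMatrix' T, hmem⟩ : ↥(Matrix.symplecticGroup (Fin d) F)) ^ r :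
          ↥(Matrix.symplecticGroup (Fin d) F)) : Matrix (Fin d ⊕ Fin d) (Fin d ⊕ Fin d) F) =
          z • (1 : Matrix (Fin d ⊕ Fin d) (Fin d ⊕ Fin d) F) := by
        rw [SubmonoidClass.coe_pow]
        show (LinearMap.toMatrix' T) ^ r = _
        rw [← toMatrix'_pow', hz, map_smul, LinearMap.toMatrix'_one]
      obtain ⟨W, h1, h2, h3⟩ := hL ⟨LinearMap.toMatrix' T, hmem⟩ ⟨z, hpow⟩ (by
        intro z' hz'
        apply hT1 z'
        have hz'' : LinearMap.toMatrix' T = z' • (1 : Matrix (Fin d ⊕ Fin d) (Fin d ⊕ Fin d) F) :=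
          hz'
        have h2 := congrArg Matrix.toLin' hz''
        rw [Matrix.toLin'_toMatrix', map_smul, Matrix.toLin'_one] at h2
        exact h2)
      refine ⟨W, h1, (hpred W).mp h2, ?_⟩
      have h5 : Matrix.toLin' (LinearMap.toMatrix' T) = T := Matrix.toLin'_toMatrix' T
      rw [← h5]
      exact h3
    · rintro hL' x ⟨z, hz⟩ hx
      have hT : Isom (sympB d) (Matrix.toLin' (x : Matrix (Fin d ⊕ Fin d) (Fin d ⊕ Fin d) F)) :=
        fun u v => symplectic_isometry d _ x.2 u v
      have hTz : (Matrix.toLin' (x : Matrix (Fin d ⊕ Fin d) (Fin d ⊕ Fin d) F)) ^ r =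
          z • (1 : Module.End F (Fin d ⊕ Fin d → F)) := by
        rw [← toLin'_pow', ← SubmonoidClass.coe_pow, hz, map_smul, Matrix.toLin'_one]
        rfl
      obtain ⟨W, h1, h2, h3⟩ := hL' _ hT ⟨z, hTz⟩ (by
        intro z' hz'
        apply hx z'
        have h2 := congrArg LinearMap.toMatrix' hz'
        rw [LinearMap.toMatrix'_toLin', map_smul] at h2
        rw [h2]
        congr 1
        exact LinearMap.toMatrix'_one)
      exact ⟨W, h1, (hpred W).mpr h2, h3⟩
  refine hLHS.trans ?_
  by_cases hrp : r = p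
  · -- r = p: the number of totally isotropic m-spaces is prime to p
    exfalso
    subst hrp
    exact Cfsg.Agent.Lib.Helper64.SpTICntC.not_dvd_card_ti (p := r) hA hN
      (fun W₀ h j hj hjd => Cfsg.Agent.Lib.Helper31.SpTICntA.card_ti_ext_modEq hA hN W₀ h j hj hjd)
      (fun W₁ j hj => Cfsg.Agent.Lib.Helper73.TiCntB.card_hyperplanes_modEq W₁ j hj)
      m (by rw [hfinV]; omega) hrΩ'
  by_cases hr2 : r = 2
  · -- r = 2 ≠ p
    subst hr2
    have h2F : (2 : F) ≠ 0 := by
      have h1 : ((2 : ℕ) : F) ≠ 0 := by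
        rw [Ne, CharP.cast_eq_zero_iff F p]
        intro h
        exact hrp ((Nat.prime_dvd_prime_iff_eq hp Nat.prime_two).mp h).symm
      exact_mod_cast h1
    have hp2 : p ≠ 2 := fun h => hrp h.symm
    have hcardodd : Fintype.card F % 2 = 1 :=
      FiniteField.odd_card_of_char_ne_two (by rw [ringChar.eq F p]; exact hp2)
    have hiff : (∀ T : Module.End F (Fin d ⊕ Fin d → F), Isom (sympB d) T →
        (∃ z : F, T ^ 2 = z • (1 : Module.End F (Fin d ⊕ Fin d → F))) →
        (∀ z : F, T ≠ z • (1 : Module.End F (Fin d ⊕ Fin d → F))) →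
        ∃ W : Submodule F (Fin d ⊕ Fin d → F), finrank F ↥W = m ∧ Orth (sympB d) W W ∧
          W.map T ≤ W) ↔ (Even m ∨ Fintype.card F % 4 = 1) := by
      constructor
      · intro hL'
        by_contra hcon
        push Not at hcon
        obtain ⟨hmodd, hq4⟩ := hcon
        have hns : ¬ IsSquare (-1 : F) := by
          rw [FiniteField.isSquare_neg_one_iff]
          omega
        have hJ := SymplecticGroup.J_mem (Fin d) F
        have hTJ : Isom (sympB d) (Matrix.toLin' (Matrix.J (Fin d) F)) :=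
          fun u v => symplectic_isometry d _ hJ u v
        have hTsq : Matrix.toLin' (Matrix.J (Fin d) F) * Matrix.toLin' (Matrix.J (Fin d) F) = -1 := by
          show Matrix.toLin' (Matrix.J (Fin d) F) ∘ₗ Matrix.toLin' (Matrix.J (Fin d) F) = -1
          rw [← Matrix.toLin'_mul, Matrix.J_squared, map_neg, Matrix.toLin'_one]
          rfl
        obtain ⟨W, h1, h2, h3⟩ := hL' _ hTJ ⟨-1, by
            rw [pow_two, hTsq]
            exact (neg_one_smul F (1 : Module.End F (Fin d ⊕ Fin d → F))).symm⟩ (by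
          intro z hz
          apply hns
          have h4 := hTsq
          rw [hz, smul_mul_smul_comm, one_mul, ← neg_one_smul F (1 : Module.End F (Fin d ⊕ Fin d → F))] at h4
          exact ⟨z, (smul_one_inj _ _ h4).symm⟩)
        apply hns
        apply Cfsg.Agent.Lib.Helper4.SpR2OB.isSquare_neg_one_of_odd_inv _ hTsq W h3
        rw [h1]
        exact Nat.not_even_iff_odd.mp hmodd
      · intro hcond T hT ⟨z, hz⟩ hT1
        have hzz : z * z = 1 := scalar_sq_of_isom hN z (by rw [← hz]; exact isom_pow' T hT 2)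
        have hsq : T * T = 1 ∨ T * T = -1 := by
          rw [pow_two] at hz
          rcases mul_self_eq_one_iff.mp hzz with h | h
          · left
            rw [hz, h, one_smul]
          · right
            rw [hz, h]
            exact neg_one_smul F (1 : Module.End F (Fin d ⊕ Fin d → F))
        have hm2 : 2 * m ≤ finrank F (Fin d ⊕ Fin d → F) := by rw [hfinV]; omega
        rcases hsq with hsq | hsq
        · obtain ⟨W, h1, h2, h3⟩ :=
            Cfsg.Agent.Lib.Helper73.SpR2A.exists_ti_inv_of_sq_one hA hN h2F T hT hsq m hm2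
          exact ⟨W, h3, h2, h1⟩
        · by_cases hs : IsSquare (-1 : F)
          · obtain ⟨ι, hι⟩ := hs
            obtain ⟨W, h1, h2, h3⟩ :=
              Cfsg.Agent.Lib.Helper78.SpR2B.exists_ti_inv_of_sq_neg_of_sqrt hA hN h2F T hT hsq
                ι hι.symm m hm2
            exact ⟨W, h3, h2, h1⟩
          · have hme : Even m := by
              rcases hcond with h | h
              · exact h
              · exfalso
                apply hs
                rw [FiniteField.isSquare_neg_one_iff]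
                omega
            obtain ⟨W, h1, h2, h3⟩ :=
              Cfsg.Agent.Lib.Helper73.SpR2C.exists_ti_inv_of_sq_neg_even hA hN h2F T hT hsq
                hs m hme hm2
            exact ⟨W, h3, h2, h1⟩
    rw [hiff]
    constructor
    · intro h
      exact Or.inl ⟨rfl, hp2, h⟩
    · rintro (⟨-, -, h⟩ | ⟨-, h, -⟩)
      · exact h
      · omega
  · -- r odd, r ≠ p
    have hodd : Odd r := hr.odd_of_ne_two hr2
    obtain ⟨hrq, hr0, hi1⟩ := facts (F := F) p r hrp
    have hc1 := blk_pos (Fintype.card F) r hi1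
    have hiff : (∀ T : Module.End F (Fin d ⊕ Fin d → F), Isom (sympB d) T →
        (∃ z : F, T ^ r = z • (1 : Module.End F (Fin d ⊕ Fin d → F))) →
        (∀ z : F, T ≠ z • (1 : Module.End F (Fin d ⊕ Fin d → F))) →
        ∃ W : Submodule F (Fin d ⊕ Fin d → F), finrank F ↥W = m ∧ Orth (sympB d) W W ∧
          W.map T ≤ W) ↔
        (orderOf ((Fintype.card F : ℕ) : ZMod r) ≤ m ∧
          2 * (m % orderOf ((Fintype.card F : ℕ) : ZMod r)) ≤ (2 * d) % blk (Fintype.card F) r ∧
          (Odd (orderOf ((Fintype.card F : ℕ) : ZMod r)) ∨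
            (r - 1) / orderOf ((Fintype.card F : ℕ) : ZMod r) +
              2 * (m / orderOf ((Fintype.card F : ℕ) : ZMod r)) ≤
              (2 * d) / orderOf ((Fintype.card F : ℕ) : ZMod r))) := by
      constructor
      · intro hL'
        -- an isometry of order r
        obtain ⟨W₀, -, hW₀ti, hW₀fin⟩ := exists_ti_sub hA hN ⊤ hN m (by rw [finrank_top, hfinV]; omega)
        obtain ⟨g, hg, hgr, hg1⟩ := Cfsg.Agent.Lib.Helper14.SpCountTI.exists_isom_of_dvd_card_ti
          hA hN m W₀ ⟨hW₀fin, hW₀ti⟩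
          (fun W W' h h' hf => Cfsg.Agent.Lib.Helper31.SpWittTI.witt_ti hA hN h h' hf) r hrΩ'
        obtain ⟨y, hy, hyr, hyk⟩ := exists_max_elt hA hN r hr2 hrq hr0 g hg hgr hg1
        rw [hfinV] at hyk
        have hcn : blk (Fintype.card F) r ≤ 2 * d := by
          have h1 := sp_dvd hA hN g hg r hr2 hrq hr0 hgr ⊤ le_top hN
          rw [top_inf_eq, finrank_top, hfinV] at h1
          have h2 : finrank F (LinearMap.ker (g - 1)) < finrank F (Fin d ⊕ Fin d → F) := by
            apply Submodule.finrank_lt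
            intro h
            apply hg1
            refine LinearMap.ext fun x => ?_
            have h6 : x ∈ LinearMap.ker (g - 1) := by
              rw [h]
              trivial
            rw [LinearMap.mem_ker, LinearMap.sub_apply, sub_eq_zero] at h6
            exact h6
          rw [hfinV] at h2
          have h3 := Nat.le_of_dvd (by omega) h1
          omega
        have hmod : (2 * d) % blk (Fintype.card F) r < blk (Fintype.card F) r :=
          Nat.mod_lt _ (by omega)
        have hnonscalar : ∀ x : Module.End F (Fin d ⊕ Fin d → F), Isom (sympB d) x → x ^ r = 1 →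
            x ≠ 1 → ∀ z : F, x ≠ z • (1 : Module.End F (Fin d ⊕ Fin d → F)) := by
          intro x hx hxr hx1 z hz
          have hzz : z * z = 1 := scalar_sq_of_isom hN z (by rw [← hz]; exact hx)
          have h4 : x ^ r = x := by
            rw [hz, smul_pow, one_pow, pow_eq_self_of_sq z hzz r hodd]
          exact hx1 (h4.symm.trans hxr)
        have hy1 : y ≠ 1 := by
          intro h
          rw [h, sub_self, LinearMap.ker_zero, finrank_top, hfinV] at hyk
          omega
        -- splitting of an invariant totally isotropic subspace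
        have hsplit : ∀ x : Module.End F (Fin d ⊕ Fin d → F), Isom (sympB d) x → x ^ r = 1 →
            ∀ W : Submodule F (Fin d ⊕ Fin d → F), finrank F W = m → Orth (sympB d) W W →
            W.map x ≤ W →
            finrank F ↥(W ⊓ LinearMap.ker (x - 1)) + finrank F ↥(W ⊓ LinearMap.range (x - 1)) = m ∧
            2 * finrank F ↥(W ⊓ LinearMap.ker (x - 1)) ≤ finrank F (LinearMap.ker (x - 1)) ∧
            orderOf ((Fintype.card F : ℕ) : ZMod r) ∣ finrank F ↥(W ⊓ LinearMap.range (x - 1)) ∧
            (W ⊓ LinearMap.range (x - 1)).map x ≤ W ⊓ LinearMap.range (x - 1) := by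
          intro x hx hxr W hW1 hW2 hW3
          have hs1 := inv_split x r hr0 hxr W hW3
          have hdisj : (W ⊓ LinearMap.ker (x - 1)) ⊓ (W ⊓ LinearMap.range (x - 1)) = ⊥ := by
            rw [eq_bot_iff]
            rintro v ⟨hv1, hv2⟩
            have : v ∈ LinearMap.ker (x - 1) ⊓ LinearMap.range (x - 1) := ⟨hv1.2, hv2.2⟩
            rw [ker_inf_range x r hr0 hxr] at this
            exact this
          have hs2 := Submodule.finrank_sup_add_finrank_inf_eq (W ⊓ LinearMap.ker (x - 1))
            (W ⊓ LinearMap.range (x - 1))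
          rw [hs1, hdisj, finrank_bot, hW1] at hs2
          have hinvR : (W ⊓ LinearMap.range (x - 1)).map x ≤ W ⊓ LinearMap.range (x - 1) :=
            le_trans (Submodule.map_inf_le x) (inf_le_inf hW3 (range_inv x))
          refine ⟨by omega, ?_, ?_, hinvR⟩
          · exact ti_le_half hA hN (nd_ker hA hN x hx r hrq hr0 hxr) inf_le_right
              (orth_mono hW2 inf_le_left inf_le_left)
          · have h5 := orderOf_dvd_sub x r hrq hxr (W ⊓ LinearMap.range (x - 1)) hinvR
            have h6 : W ⊓ LinearMap.range (x - 1) ⊓ LinearMap.ker (x - 1) = ⊥ := by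
              rw [eq_bot_iff]
              rintro v ⟨hv1, hv2⟩
              have : v ∈ LinearMap.ker (x - 1) ⊓ LinearMap.range (x - 1) := ⟨hv2, hv1.2⟩
              rw [ker_inf_range x r hr0 hxr] at this
              exact this
            rw [h6, finrank_bot, Nat.sub_zero] at h5
            exact h5
        obtain ⟨W, h1, h2, h3⟩ := hL' y hy ⟨1, by rw [hyr, one_smul]⟩ (hnonscalar y hy hyr hy1)
        obtain ⟨hs1, hs2, ⟨β, hβ⟩, hs4⟩ := hsplit y hy hyr W h1 h2 h3
        rw [hyk] at hs2
        -- (a) i ≤ m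
        have him : orderOf ((Fintype.card F : ℕ) : ZMod r) ≤ m := by
          by_contra hlt
          push Not at hlt
          have hWR : W ⊓ LinearMap.range (y - 1) = ⊥ := by
            by_contra hne
            obtain ⟨U, hU1, -, hU3⟩ := exists_inv_dim y r hrq hr0 hyr _ hs4 inf_le_right hne
            have := Submodule.finrank_mono hU1
            omega
          rw [hWR, finrank_bot] at hs1
          have hKnd := nd_ker hA hN y hy r hrq hr0 hyr
          refine Cfsg.Agent.Lib.Helper31.SpFixCntTI.not_dvd_card_ti_of_lt hA hN r hr2 hrq hr0 y hy hyr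
            m hlt (by rw [hyk]; omega) (by rw [hyk]; exact hmod) ?_ hrΩ'
          rintro ⟨W₁, hW₁⟩ hdiv
          have hA' : ((sympB d).restrict (LinearMap.ker (y - 1))).IsAlt :=
            fun x => hA (x : Fin d ⊕ Fin d → F)
          have hN' : ND ((sympB d).restrict (LinearMap.ker (y - 1))) ⊤ := by
            intro u _ h
            exact Subtype.ext (hKnd u.1 u.2 (fun v hv => h ⟨v, hv⟩ Submodule.mem_top))
          exact Cfsg.Agent.Lib.Helper14.SpCountTI.exists_isom_of_dvd_card_ti
            hA' hN' m W₁ hW₁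
            (fun W W' h h' hf => Cfsg.Agent.Lib.Helper31.SpWittTI.witt_ti hA' hN' h h' hf) r hdiv
        -- (b)
        have hb : 2 * (m % orderOf ((Fintype.card F : ℕ) : ZMod r)) ≤
            (2 * d) % blk (Fintype.card F) r := by
          have h5 : m % orderOf ((Fintype.card F : ℕ) : ZMod r) ≤
              finrank F ↥(W ⊓ LinearMap.ker (y - 1)) := by
            rw [← hs1, hβ, Nat.add_mul_mod_self_left]
            exact Nat.mod_le _ _
          omega
        refine ⟨him, hb, ?_⟩
        -- (c)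
        by_cases heven : Even (orderOf ((Fintype.card F : ℕ) : ZMod r))
        swap
        · exact Or.inl (Nat.not_even_iff_odd.mp heven)
        right
        by_contra hneg
        push Not at hneg
        have hblk : blk (Fintype.card F) r = orderOf ((Fintype.card F : ℕ) : ZMod r) := by
          unfold blk
          rw [if_pos heven]
        obtain ⟨x₁, P₀, hP₀nd, hP₀fin, hx₁, hx₁r, hx₁inv, hx₁P, hx₁fix⟩ :=
          exists_one_block hA hN r hr2 hrq hr0 g hg hgr hg1
        rw [hblk] at hP₀fin hcn hb hmod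
        obtain ⟨e, f, hef, hfco⟩ := Cfsg.Agent.Lib.Helper77.SpTypes.exists_types r hrq hr0 x₁ P₀
          hx₁r hx₁inv hP₀fin hx₁fix
        have hile : orderOf ((Fintype.card F : ℕ) : ZMod r) ≤ r - 1 := by
          rw [← hblk]
          exact blk_le (Fintype.card F) r hr2 hrq
        generalize hidef : orderOf ((Fintype.card F : ℕ) : ZMod r) = i at *
        have ht1 : 1 ≤ (r - 1) / i := Nat.div_pos hile (by omega)
        generalize htdef : (r - 1) / i = t at *
        have hn1 : 1 ≤ (2 * d) / i := Nat.div_pos hcn (by omega)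
        have hnk := Nat.div_add_mod (2 * d) i
        have hkk : (2 * d) % i < i := Nat.mod_lt _ (by omega)
        generalize hndef : (2 * d) / i = n' at *
        -- the number of blocks
        obtain ⟨A, hA1, hAn, hAcases⟩ : ∃ A : ℕ, 1 ≤ A ∧ A ≤ n' ∧
            ((n' < t ∧ A = n') ∨ (t ≤ n' ∧ (n' - t) % 2 = 0 ∧ A = n') ∨
              (t ≤ n' ∧ (n' - t) % 2 = 1 ∧ A + 1 = n')) := by
          by_cases h1 : n' < t
          · exact ⟨n', hn1, le_rfl, Or.inl ⟨h1, rfl⟩⟩
          · by_cases h2 : (n' - t) % 2 = 0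
            · exact ⟨n', hn1, le_rfl, Or.inr (Or.inl ⟨by omega, h2, rfl⟩)⟩
            · exact ⟨n' - 1, by omega, by omega, Or.inr (Or.inr ⟨by omega, by omega, by omega⟩)⟩
        have hAc : i * A ≤ finrank F (Fin d ⊕ Fin d → F) := by
          rw [hfinV]
          have := Nat.mul_le_mul_left i hAn
          omega
        obtain ⟨x, P, hx, hxr, hP, hPorth, hxrange, hxker⟩ :=
          Cfsg.Agent.Lib.Helper18.SpBadElt.exists_typed_elt hA hN r i hi1 P₀ hP₀nd hP₀fin
            (fun a => x₁ ^ e a) f (fun a => ⟨isom_pow' x₁ hx₁ (e a), by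
              rw [← pow_mul, mul_comm, pow_mul, hx₁r, one_pow], by
              rintro _ ⟨u, hu, rfl⟩
              exact Cfsg.Agent.Lib.Helper96.Sp.pow_mem_of_map_le x₁ P₀ hx₁inv (e a) hu,
              fun u hu => pow_fix x₁ u (hx₁P u hu) (e a), (hef a).2.2.2.2, (hef a).2.2.2.1⟩)
            A hAc (fun s => ⟨min (s : ℕ) (t - 1), by omega⟩)
        rw [hfinV] at hxker
        have hx1 : x ≠ 1 := by
          intro h
          rw [h, sub_self, LinearMap.ker_zero, finrank_top, hfinV] at hxker
          have : i * 1 ≤ i * A := Nat.mul_le_mul_left i hA1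
          omega
        obtain ⟨W', h1', h2', h3'⟩ := hL' x hx ⟨1, by rw [hxr, one_smul]⟩ (hnonscalar x hx hxr hx1)
        obtain ⟨hs1', hs2', ⟨β', hβ'⟩, hs4'⟩ := hsplit x hx hxr W' h1' h2' h3'
        rw [hxker] at hs2'
        have hbound := Cfsg.Agent.Lib.Helper96.Sp.ti_bound_of_types hA hN x hx r hr2 hrq hr0
          hxr P f (fun s => ⟨min (s : ℕ) (t - 1), by omega⟩)
          (fun s => ⟨(hP s).1, (hP s).2.1, (hP s).2.2.2.2, by rw [hidef]; exact (hP s).2.2.1,
            (hP s).2.2.2.1⟩) hPorth hfco ⟨t - 1, by omega⟩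
          (by
            intro s s' hss hne
            have h5 : min (s : ℕ) (t - 1) = min (s' : ℕ) (t - 1) := by
              have := congrArg Fin.val hss
              exact this
            have h6 : min (s : ℕ) (t - 1) ≠ t - 1 := by
              intro h
              apply hne
              exact Fin.ext h
            apply Fin.ext
            rcases le_total (s : ℕ) (t - 1) with h | h
            · rw [min_eq_left h] at h5 h6
              rcases le_total (s' : ℕ) (t - 1) with h' | h'
              · rw [min_eq_left h'] at h5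
                exact h5
              · rw [min_eq_right h'] at h5
                exact absurd h5 h6
            · rw [min_eq_right h] at h6
              exact absurd rfl h6)
          (W' ⊓ LinearMap.range (x - 1)) hs4' (orth_mono h2' inf_le_left inf_le_left)
          (le_trans inf_le_right hxrange)
        rw [hidef] at hbound
        have hcard := card_clip_le A t ht1 (fun s => ⟨min (s : ℕ) (t - 1), by omega⟩)
          (fun s => rfl) ⟨t - 1, by omega⟩ rfl
        have hβa : 2 * β' ≤ A - (t - 1) := by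
          have h5 : i * (2 * β') ≤ i * (A - (t - 1)) := by
            have h6 := Nat.mul_le_mul_left i hcard
            have e1 : i * (2 * β') = 2 * (i * β') := by ring
            rw [e1, ← hβ']
            exact le_trans hbound h6
          exact Nat.le_of_mul_le_mul_left h5 (by omega)
        have hdm := Nat.div_add_mod m i
        have hmm : m % i < i := Nat.mod_lt _ (by omega)
        -- i (β' + 1) ≤ i (m / i) when β' + 1 ≤ m / i
        have hfin : ∀ (hβm : β' + 1 ≤ m / i), i ≤ finrank F ↥(W' ⊓ LinearMap.ker (x - 1)) := by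
          intro hβm
          have h5 := Nat.mul_le_mul_left i hβm
          have e1 : i * (β' + 1) = i * β' + i := by ring
          rw [e1] at h5
          omega
        rcases hAcases with ⟨hc1', rfl⟩ | ⟨hc1', hc2', rfl⟩ | ⟨hc1', hc2', hc3'⟩
        · -- n' < t
          have hβ0 : β' = 0 := by omega
          rw [hβ0, mul_zero] at hβ'
          omega
        · have hβm : β' + 1 ≤ m / i := by omega
          have := hfin hβm
          omega
        · have hβm : β' + 1 ≤ m / i := by omega
          have := hfin hβm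
          have e2 : i * n' = i * A + i := by rw [← hc3']; ring
          omega
      · rintro ⟨-, hk, hcond⟩ T hT ⟨z, hz⟩ hT1
        obtain ⟨hzz, hu, hur, hinv⟩ := scale_odd hN T hT r hodd z hz
        obtain ⟨W, h2, h3, h4⟩ := exists_ti_inv_of_pow hA hN (z • T) hu r hr2 hrq hr0 hur hi1 d m
          hfinV hmd hk hcond
        exact ⟨W, h4, h3, hinv W h2⟩
    rw [hiff]
    constructor
    · rintro ⟨h1, h2, h3⟩
      exact Or.inr ⟨hrp, by have := hr.two_le; omega, h1, h2, h3⟩
    · rintro (⟨h, -⟩ | ⟨-, -, h1, h2, h3⟩)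
      · exact absurd h hr2
      · exact ⟨h1, h2, h3⟩

end Cfsg.Agent.S5955
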