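import Cfsg.Statements.S2724
import Cfsg.Agent.Lib.Helper54.OrthDih

set_option autoImplicit false
open Cfsg
open Cfsg.Agent.Lib.Helper54

namespace Cfsg.Agent.S2724

/-- Let T = PΩ⁺_{2m}(F) with m ≥ 4 and |F| = q odd. The image G̃ of the conformal orthogonal group in Aut(T), taken modulo the inner automorphism group T, is elementary abelian of order 4 when m is odd and q ≡ 3 (mod 4), and dihedral of order 8 otherwise. -/
theorem result {F : Type*} [Field F] [Fintype F] (hodd : Odd (Fintype.card F)) {m : ℕ} (hm : 4 ≤ m) :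
    ((Odd m ∧ Fintype.card F % 4 = 3) → (∃ φ : ↥(Cfsg.pgoAut F (Cfsg.quadFormPlus m F)) →* Multiplicative (ZMod 2 × ZMod 2), Function.Surjective φ ∧ φ.ker = (Cfsg.Inn (Cfsg.POmega F (Cfsg.quadFormPlus m F))).subgroupOf (Cfsg.pgoAut F (Cfsg.quadFormPlus m F)))) ∧ (¬ (Odd m ∧ Fintype.card F % 4 = 3) → (∃ φ : ↥(Cfsg.pgoAut F (Cfsg.quadFormPlus m F)) →* DihedralGroup 4, Function.Surjective φ ∧ φ.ker = (Cfsg.Inn (Cfsg.POmega F (Cfsg.quadFormPlus m F))).subgroupOf (Cfsg.pgoAut F (Cfsg.quadFormPlus m F)))) := by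
  have hF := ringChar_ne_two_of_odd hodd
  have h2 : (2 : F) ≠ 0 := Ring.two_ne_zero hF
  have hm3 : 3 ≤ m := by omega
  have hm1 : 1 ≤ m := by omega
  rw [← Cfsg.Agent.Lib.Helper51.coe_QPlus m F]
  obtain ⟨hi1, hi2⟩ := relIndex_plus (F := F) (m := m) hodd hm3
  refine ⟨fun h => klein_of_relIndex_one _ (hi1 h) (plus_main hF hm3), fun h => ?_⟩
  obtain ⟨c, hc⟩ := FiniteField.exists_nonsquare (F := F) hF
  have hc0 : c ≠ 0 := by
    rintro rfl
    exact hc ⟨0, by simp⟩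
  refine dihedral_of_relIndex_two (Cfsg.Agent.Lib.Helper51.QPlus m F) hF (hv_plus hm1)
    (simAut_ker_plus hm3)
    ⟨_, (Cfsg.Agent.Lib.Helper51.hypPlus m F ⟨0, hm1⟩).Q_plus_ne, ?_⟩ ?_
    (simOfMatrix (Cfsg.Agent.Lib.Helper51.QPlus m F) polarSep_plus _ c hc0 (plus_scale_sim c)) ?_
    (hi2 h) (plus_main hF hm3)
  · rw [(Cfsg.Agent.Lib.Helper51.hypPlus m F ⟨0, hm1⟩).Q_plus]
    exact ⟨1, by simp⟩
  · rw [negO_mem_plus_iff h2, neg_one_cond hodd m]
    exact h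
  · rintro ⟨r, hr⟩
    apply hc
    refine ⟨(r : F), ?_⟩
    rw [← simMul_simOfMatrix (Cfsg.Agent.Lib.Helper51.QPlus m F) polarSep_plus (hv_plus hm1) _ c
      hc0 (plus_scale_sim c), hr, Units.val_mul]

end Cfsg.Agent.S2724
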