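import Cfsg.Statements.S5344
import Mathlib

set_option autoImplicit false
set_option linter.unusedSimpArgs false
open Cfsg

namespace Cfsg.Agent.S5344

/-- The 24 normal forms. -/
def nfList {P : Type*} [Group P] (a b c : P) : List P :=
  [1, a, b, c, a * (b), a * (c), b * (a), b * (c), c * (b), a * (b * (a)), a * (b * (c)), a * (c * (b)), b * (a * (c)), b * (c * (b)), c * (b * (a)), a * (b * (a * (c))), a * (b * (c * (b))), a * (c * (b * (a))), b * (a * (c * (b))), b * (c * (b * (a))), a * (b * (a * (c * (b)))), a * (b * (c * (b * (a)))), b * (a * (c * (b * (a)))), a * (b * (a * (c * (b * (a)))))]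

theorem mem_nfList {P : Type*} [Group P] (a b c : P) (haa : a * a = 1) (hbb : b * b = 1)
    (hcc : c * c = 1) (hca : c * a = a * c) (hbab : b * a * b = a * b * a)
    (hcbc : c * b * c = b * c * b) :
    ∀ x ∈ Subgroup.closure ({a, b, c} : Set P), x ∈ nfList a b c := by
  have haa' : ∀ x, a * (a * x) = x := fun x => by rw [← mul_assoc, haa, one_mul]
  have hbb' : ∀ x, b * (b * x) = x := fun x => by rw [← mul_assoc, hbb, one_mul]
  have hcc' : ∀ x, c * (c * x) = x := fun x => by rw [← mul_assoc, hcc, one_mul]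
  have hca' : ∀ x, c * (a * x) = a * (c * x) := fun x => by rw [← mul_assoc, hca, mul_assoc]
  have hbab0 : b * (a * b) = a * (b * a) := by rw [← mul_assoc, hbab, mul_assoc]
  have hbab' : ∀ x, b * (a * (b * x)) = a * (b * (a * x)) := fun x => by
    rw [← mul_assoc, ← mul_assoc, hbab, mul_assoc, mul_assoc]
  have hcbc0 : c * (b * c) = b * (c * b) := by rw [← mul_assoc, hcbc, mul_assoc]
  have hcbc' : ∀ x, c * (b * (c * x)) = b * (c * (b * x)) := fun x => by
    rw [← mul_assoc, ← mul_assoc, hcbc, mul_assoc, mul_assoc]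
  have hcbac0 : c * (b * (a * c)) = b * (c * (b * a)) := by
    rw [← hca, ← mul_assoc b, ← mul_assoc c, ← mul_assoc c, hcbc]
    simp only [mul_assoc]
  have hcbac' : ∀ x, c * (b * (a * (c * x))) = b * (c * (b * (a * x))) := fun x => by
    rw [← mul_assoc a c, ← mul_assoc b, ← mul_assoc c, hcbac0]
    simp only [mul_assoc]
  have hainv : a⁻¹ = a := inv_eq_of_mul_eq_one_left haa
  have hbinv : b⁻¹ = b := inv_eq_of_mul_eq_one_left hbb
  have hcinv : c⁻¹ = c := inv_eq_of_mul_eq_one_left hcc
  have hA : ∀ y ∈ nfList a b c, a * y ∈ nfList a b c := by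
    intro y hy
    simp only [nfList, List.mem_cons, List.not_mem_nil, or_false] at hy ⊢
    rcases hy with rfl | rfl | rfl | rfl | rfl | rfl | rfl | rfl | rfl | rfl | rfl | rfl | rfl | rfl | rfl | rfl | rfl | rfl | rfl | rfl | rfl | rfl | rfl | rfl <;>
      simp only [mul_assoc, mul_one, one_mul, haa, hbb, hcc, hca, hbab0, hcbc0, hcbac0, haa', hbb',
        hcc', hca', hbab', hcbc', hcbac', true_or, or_true]
  have hB : ∀ y ∈ nfList a b c, b * y ∈ nfList a b c := by
    intro y hy
    simp only [nfList, List.mem_cons, List.not_mem_nil, or_false] at hy ⊢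
    rcases hy with rfl | rfl | rfl | rfl | rfl | rfl | rfl | rfl | rfl | rfl | rfl | rfl | rfl | rfl | rfl | rfl | rfl | rfl | rfl | rfl | rfl | rfl | rfl | rfl <;>
      simp only [mul_assoc, mul_one, one_mul, haa, hbb, hcc, hca, hbab0, hcbc0, hcbac0, haa', hbb',
        hcc', hca', hbab', hcbc', hcbac', true_or, or_true]
  have hC : ∀ y ∈ nfList a b c, c * y ∈ nfList a b c := by
    intro y hy
    simp only [nfList, List.mem_cons, List.not_mem_nil, or_false] at hy ⊢
    rcases hy with rfl | rfl | rfl | rfl | rfl | rfl | rfl | rfl | rfl | rfl | rfl | rfl | rfl | rfl | rfl | rfl | rfl | rfl | rfl | rfl | rfl | rfl | rfl | rfl <;>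
      simp only [mul_assoc, mul_one, one_mul, haa, hbb, hcc, hca, hbab0, hcbc0, hcbac0, haa', hbb',
        hcc', hca', hbab', hcbc', hcbac', true_or, or_true]
  intro x hx
  induction hx using Subgroup.closure_induction_left with
  | one => simp [nfList]
  | mul_left g hg y _ ih =>
    rcases hg with rfl | rfl | rfl
    · exact hA y ih
    · exact hB y ih
    · exact hC y ih
  | inv_mul_cancel g hg y _ ih =>
    rcases hg with rfl | rfl | rfl
    · rw [hainv]; exact hA y ih
    · rw [hbinv]; exact hB y ih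
    · rw [hcinv]; exact hC y ih

/-- The Coxeter relations of type `A₃`. -/
def rels : Set (FreeGroup (Fin 3)) :=
  {FreeGroup.of 0 * FreeGroup.of 0, FreeGroup.of 1 * FreeGroup.of 1,
    FreeGroup.of 2 * FreeGroup.of 2,
    (FreeGroup.of 2 * FreeGroup.of 0) * (FreeGroup.of 0 * FreeGroup.of 2)⁻¹,
    (FreeGroup.of 1 * FreeGroup.of 0 * FreeGroup.of 1) *
      (FreeGroup.of 0 * FreeGroup.of 1 * FreeGroup.of 0)⁻¹,
    (FreeGroup.of 2 * FreeGroup.of 1 * FreeGroup.of 2) *
      (FreeGroup.of 1 * FreeGroup.of 2 * FreeGroup.of 1)⁻¹}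

theorem lift_rels {H : Type*} [Group H] (f : Fin 3 → H) (h1 : f 0 * f 0 = 1)
    (h2 : f 1 * f 1 = 1) (h3 : f 2 * f 2 = 1) (h4 : f 2 * f 0 = f 0 * f 2)
    (h5 : f 1 * f 0 * f 1 = f 0 * f 1 * f 0) (h6 : f 2 * f 1 * f 2 = f 1 * f 2 * f 1) :
    ∀ r ∈ rels, FreeGroup.lift f r = 1 := by
  rintro r (rfl | rfl | rfl | rfl | rfl | rfl)
  · simpa using h1
  · simpa using h2
  · simpa using h3
  · simp only [map_mul, map_inv, FreeGroup.lift_apply_of]
    rw [h4]
    exact mul_inv_cancel _
  · simp only [map_mul, map_inv, FreeGroup.lift_apply_of]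
    rw [h5]
    exact mul_inv_cancel _
  · simp only [map_mul, map_inv, FreeGroup.lift_apply_of]
    rw [h6]
    exact mul_inv_cancel _

set_option maxRecDepth 100000 in
theorem s4_key : ∀ σ : Equiv.Perm (Fin 4), σ ≠ 1 → ∃ τ₁ τ₂ : Equiv.Perm (Fin 4),
    τ₁ * σ * τ₁⁻¹ * (τ₂ * σ * τ₂⁻¹) = Equiv.swap 0 1 * Equiv.swap 2 3 := by
  decide +kernel

theorem braid_of {G : Type*} [Group G] {a b : G} (haa : a * a = 1) (hbb : b * b = 1)
    (h : (a * b) ^ 2 = 1 ∨ (a * b) ^ 3 = 1) (hnc : ¬ Commute a b) : b * a * b = a * b * a := by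
  have hainv : a⁻¹ = a := inv_eq_of_mul_eq_one_left haa
  have hbinv : b⁻¹ = b := inv_eq_of_mul_eq_one_left hbb
  rcases h with h | h
  · exfalso
    apply hnc
    show a * b = b * a
    have h1 : a * b * (a * b) = 1 := by rw [← pow_two]; exact h
    have h2 : a * b = (a * b)⁻¹ := eq_inv_of_mul_eq_one_right h1
    rw [h2, mul_inv_rev, hainv, hbinv]
  · have h1 : a * b * a * (b * a * b) = 1 := by
      rw [← h]
      simp only [pow_succ, pow_zero, one_mul, mul_assoc]
    have h2 : b * a * b = (a * b * a)⁻¹ := eq_inv_of_mul_eq_one_right h1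
    rw [h2, mul_inv_rev, mul_inv_rev, hainv, hbinv, mul_assoc]

/-- In a set of 3-transpositions, let a, b, c be members with a and c different and commuting, while neither a nor c commutes with b (a 3-string). Then there is an injective homomorphism from the symmetric group of degree 4 into the ambient group sending the transpositions (0 1), (1 2), (2 3) to a, b, c; so a, b, c generate a copy of the symmetric group of degree 4 in which they are transpositions. -/
theorem result {G : Type*} [Group G] {D : Set G} (hD : Cfsg.IsThreeTranspositionSet D) {a b c : G} (ha : a ∈ D) (hb : b ∈ D) (hc : c ∈ D) (hac : a ≠ c) (hac' : Commute a c) (hab : ¬ Commute a b) (hbc : ¬ Commute b c) : ∃ φ : Equiv.Perm (Fin 4) →* G, Function.Injective φ ∧ φ (Equiv.swap 0 1) = a ∧ φ (Equiv.swap 1 2) = b ∧ φ (Equiv.swap 2 3) = c := by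
  have hsq : ∀ d ∈ D, d * d = 1 := by
    intro d hd
    have h1 := pow_orderOf_eq_one d
    rw [hD.1 d hd, pow_two] at h1
    exact h1
  have haa := hsq a ha
  have hbb := hsq b hb
  have hcc := hsq c hc
  have hca : c * a = a * c := hac'.eq.symm
  have hbab : b * a * b = a * b * a := braid_of haa hbb (hD.2 a ha b hb) hab
  have hcbc : c * b * c = b * c * b := braid_of hbb hcc (hD.2 b hb c hc) hbc
  -- the presented group
  have hP0 : (PresentedGroup.of 0 : PresentedGroup rels) * PresentedGroup.of 0 = 1 := by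
    have h := PresentedGroup.one_of_mem (rels := rels)
      (x := FreeGroup.of 0 * FreeGroup.of 0) (by simp [rels])
    rwa [map_mul] at h
  have hP1 : (PresentedGroup.of 1 : PresentedGroup rels) * PresentedGroup.of 1 = 1 := by
    have h := PresentedGroup.one_of_mem (rels := rels)
      (x := FreeGroup.of 1 * FreeGroup.of 1) (by simp [rels])
    rwa [map_mul] at h
  have hP2 : (PresentedGroup.of 2 : PresentedGroup rels) * PresentedGroup.of 2 = 1 := by
    have h := PresentedGroup.one_of_mem (rels := rels)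
      (x := FreeGroup.of 2 * FreeGroup.of 2) (by simp [rels])
    rwa [map_mul] at h
  have hP3 : (PresentedGroup.of 2 : PresentedGroup rels) * PresentedGroup.of 0 =
      PresentedGroup.of 0 * PresentedGroup.of 2 := by
    have h := PresentedGroup.mk_eq_mk_of_mul_inv_mem (rels := rels)
      (x := FreeGroup.of 2 * FreeGroup.of 0) (y := FreeGroup.of 0 * FreeGroup.of 2)
      (by simp [rels])
    rwa [map_mul, map_mul] at h
  have hP4 : (PresentedGroup.of 1 : PresentedGroup rels) * PresentedGroup.of 0 *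
      PresentedGroup.of 1 = PresentedGroup.of 0 * PresentedGroup.of 1 * PresentedGroup.of 0 := by
    have h := PresentedGroup.mk_eq_mk_of_mul_inv_mem (rels := rels)
      (x := FreeGroup.of 1 * FreeGroup.of 0 * FreeGroup.of 1)
      (y := FreeGroup.of 0 * FreeGroup.of 1 * FreeGroup.of 0) (by simp [rels])
    rwa [map_mul, map_mul, map_mul, map_mul] at h
  have hP5 : (PresentedGroup.of 2 : PresentedGroup rels) * PresentedGroup.of 1 *
      PresentedGroup.of 2 = PresentedGroup.of 1 * PresentedGroup.of 2 * PresentedGroup.of 1 := by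
    have h := PresentedGroup.mk_eq_mk_of_mul_inv_mem (rels := rels)
      (x := FreeGroup.of 2 * FreeGroup.of 1 * FreeGroup.of 2)
      (y := FreeGroup.of 1 * FreeGroup.of 2 * FreeGroup.of 1) (by simp [rels])
    rwa [map_mul, map_mul, map_mul, map_mul] at h
  have hrange : Set.range (PresentedGroup.of : Fin 3 → PresentedGroup rels) =
      {PresentedGroup.of 0, PresentedGroup.of 1, PresentedGroup.of 2} := by
    ext x
    constructor
    · rintro ⟨i, rfl⟩
      fin_cases i <;> simp
    · rintro (rfl | rfl | rfl) <;> exact ⟨_, rfl⟩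
  have hall : ∀ x : PresentedGroup rels, x ∈ nfList (PresentedGroup.of 0 : PresentedGroup rels)
      (PresentedGroup.of 1) (PresentedGroup.of 2) := by
    intro x
    apply mem_nfList _ _ _ hP0 hP1 hP2 hP3 hP4 hP5
    rw [← hrange, PresentedGroup.closure_range_of]
    trivial
  have hsurjL : Function.Surjective (fun i : Fin (nfList (PresentedGroup.of 0 : PresentedGroup rels)
      (PresentedGroup.of 1) (PresentedGroup.of 2)).length =>
      (nfList (PresentedGroup.of 0 : PresentedGroup rels)
      (PresentedGroup.of 1) (PresentedGroup.of 2)).get i) := by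
    intro x
    obtain ⟨i, hi⟩ := List.get_of_mem (hall x)
    exact ⟨i, hi⟩
  have hfin : Finite (PresentedGroup rels) := Finite.of_surjective _ hsurjL
  have hcard : Nat.card (PresentedGroup rels) ≤ 24 := by
    have h := Nat.card_le_card_of_surjective _ hsurjL
    rw [Nat.card_fin] at h
    exact h
  -- the map to the symmetric group
  obtain ⟨π, hπ⟩ : ∃ π : PresentedGroup rels →* Equiv.Perm (Fin 4),
      ∀ i : Fin 3, π (PresentedGroup.of i) = Equiv.swap i.castSucc i.succ :=
    ⟨PresentedGroup.toGroup (f := fun i : Fin 3 => Equiv.swap i.castSucc i.succ)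
      (lift_rels _ (by decide) (by decide) (by decide) (by decide) (by decide) (by decide)),
      fun i => PresentedGroup.toGroup.of _⟩
  have hπsurj : Function.Surjective π := by
    intro σ
    have hle : Submonoid.closure (Set.range fun i : Fin 3 => Equiv.swap i.castSucc i.succ) ≤
        MonoidHom.mrange π := by
      rw [Submonoid.closure_le]
      rintro _ ⟨i, rfl⟩
      exact ⟨PresentedGroup.of i, hπ i⟩
    rw [Equiv.Perm.mclosure_swap_castSucc_succ] at hle
    exact hle (Submonoid.mem_top σ)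
  have hπbij : Function.Bijective π := by
    apply hπsurj.bijective_of_nat_card_le
    have h24 : Nat.card (Equiv.Perm (Fin 4)) = 24 := by
      rw [Nat.card_eq_fintype_card, Fintype.card_perm, Fintype.card_fin]
      rfl
    rw [h24]
    exact hcard
  obtain ⟨e, he⟩ : ∃ e : PresentedGroup rels ≃* Equiv.Perm (Fin 4), ∀ x, e x = π x :=
    ⟨MulEquiv.ofBijective π hπbij, fun _ => rfl⟩
  obtain ⟨ψ, hψ⟩ : ∃ ψ : PresentedGroup rels →* G, ψ (PresentedGroup.of 0) = a ∧
      ψ (PresentedGroup.of 1) = b ∧ ψ (PresentedGroup.of 2) = c :=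
    ⟨PresentedGroup.toGroup (f := ![a, b, c]) (lift_rels _ haa hbb hcc hca hbab hcbc),
      PresentedGroup.toGroup.of _, PresentedGroup.toGroup.of _, PresentedGroup.toGroup.of _⟩
  have hφ0 : (ψ.comp e.symm.toMonoidHom) (Equiv.swap 0 1) = a := by
    have h1 : e.symm (Equiv.swap 0 1) = PresentedGroup.of 0 := by
      rw [MulEquiv.symm_apply_eq, he, hπ]
      rfl
    show ψ (e.symm (Equiv.swap 0 1)) = a
    rw [h1, hψ.1]
  have hφ1 : (ψ.comp e.symm.toMonoidHom) (Equiv.swap 1 2) = b := by
    have h1 : e.symm (Equiv.swap 1 2) = PresentedGroup.of 1 := by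
      rw [MulEquiv.symm_apply_eq, he, hπ]
      rfl
    show ψ (e.symm (Equiv.swap 1 2)) = b
    rw [h1, hψ.2.1]
  have hφ2 : (ψ.comp e.symm.toMonoidHom) (Equiv.swap 2 3) = c := by
    have h1 : e.symm (Equiv.swap 2 3) = PresentedGroup.of 2 := by
      rw [MulEquiv.symm_apply_eq, he, hπ]
      rfl
    show ψ (e.symm (Equiv.swap 2 3)) = c
    rw [h1, hψ.2.2]
  refine ⟨ψ.comp e.symm.toMonoidHom, ?_, hφ0, hφ1, hφ2⟩
  rw [injective_iff_map_eq_one]
  intro σ hσ
  by_contra hne
  obtain ⟨τ₁, τ₂, h⟩ := s4_key σ hne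
  have h1 : (ψ.comp e.symm.toMonoidHom) (Equiv.swap 0 1 * Equiv.swap 2 3) = 1 := by
    rw [← h]
    simp only [map_mul, map_inv, hσ, mul_one, mul_inv_cancel]
  rw [map_mul, hφ0, hφ2] at h1
  have h2 : a = c⁻¹ := eq_inv_of_mul_eq_one_left h1
  rw [inv_eq_of_mul_eq_one_left hcc] at h2
  exact hac h2

end Cfsg.Agent.S5344
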