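import Cfsg.Statements.S3370
import Mathlib
import Cfsg.Agent.S0016

namespace Cfsg.Agent.S3370

open scoped Pointwise

theorem odd_factor_sub (r : ℕ) (hr : Even r) (k : ℕ) :
    ∃ c, Odd c ∧ (r + 1) ^ (2 * k + 1) = c * r + 1 := by
  induction k with
  | zero => exact ⟨1, odd_one, by ring⟩
  | succ k ih =>
    obtain ⟨c, hc, h⟩ := ih
    refine ⟨c * (r + 1) ^ 2 + r + 2, ?_, ?_⟩
    · have h1 : Odd (r + 1) := hr.add_one
      have h2 : Odd (c * (r + 1) ^ 2) := hc.mul h1.pow
      have h3 : Even (r + 2) := hr.add even_two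
      rw [add_assoc]
      exact h2.add_even h3
    · have : (r + 1) ^ (2 * (k + 1) + 1) = (r + 1) ^ (2 * k + 1) * (r + 1) ^ 2 := by ring
      rw [this, h]; ring

theorem odd_factor_add (p : ℕ) (hp : Odd p) (k : ℕ) :
    ∃ c, Odd c ∧ p ^ (2 * k + 1) + 1 = c * (p + 1) := by
  induction k with
  | zero => exact ⟨1, odd_one, by ring⟩
  | succ k ih =>
    obtain ⟨c, hc, h⟩ := ih
    obtain ⟨i, rfl⟩ := hc
    obtain ⟨j, rfl⟩ := hp
    refine ⟨2 * ((2 * j + 1) * (2 * i * j + i + j)) + 1, ⟨_, rfl⟩, ?_⟩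
    have e : (2 * j + 1) ^ (2 * (k + 1) + 1) = (2 * j + 1) ^ (2 * k + 1) * (2 * j + 1) ^ 2 := by ring
    have h' : (2 * j + 1) ^ (2 * k + 1) * (2 * j + 1) ^ 2 + (2 * j + 1) ^ 2
        = (2 * i + 1) * (2 * j + 1 + 1) * (2 * j + 1) ^ 2 := by
      rw [← h]; ring
    rw [e]
    have : (2 * j + 1) ^ (2 * k + 1) * (2 * j + 1) ^ 2 + 1 + (2 * j + 1) ^ 2
        = (2 * ((2 * j + 1) * (2 * i * j + i + j)) + 1) * (2 * j + 1 + 1) + (2 * j + 1) ^ 2 := by
      rw [add_right_comm, h']; ring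
    exact Nat.add_right_cancel this

theorem odd_dvd_two_pow {c m : ℕ} (hc : Odd c) (h : c ∣ 2 ^ m) : c = 1 := by
  obtain ⟨i, -, rfl⟩ := (Nat.dvd_prime_pow Nat.prime_two).1 h
  rcases i with _ | i
  · rfl
  · exfalso
    rw [pow_succ] at hc
    exact (Nat.not_even_iff_odd.2 hc) (even_two.mul_left _)

theorem nt (q n p b : ℕ) (hq : q.Prime) (hp : p.Prime) (hn : 1 ≤ n) (hb : 1 ≤ b)
    (h : q ^ n = p ^ b + 1) :
    (q = 2 ∧ b = 1) ∨ (p = 2 ∧ n = 1) ∨ (p = 2 ∧ q = 3 ∧ n = 2) := by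
  by_cases hq2 : q = 2
  · subst hq2
    left
    refine ⟨rfl, ?_⟩
    have hpodd : Odd p := by
      rcases hp.eq_two_or_odd' with h2 | h2
      · exfalso
        subst h2
        have h1 : Even (2 ^ n) := (Nat.even_pow.2 ⟨even_two, by omega⟩)
        have h2 : Even (2 ^ b) := (Nat.even_pow.2 ⟨even_two, by omega⟩)
        rw [h] at h1
        exact (Nat.not_even_iff_odd.2 (h2.add_one)) h1
      · exact h2
    rcases Nat.even_or_odd' b with ⟨e, rfl | rfl⟩
    · exfalso
      have he : Odd (p ^ e) := hpodd.pow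
      obtain ⟨j, hj⟩ := he
      have h1 : 2 ^ n = 2 * (2 * (j * j + j) + 1) := by
        rw [h, pow_mul', hj]; ring
      obtain ⟨n', rfl⟩ : ∃ n', n = n' + 1 := ⟨n - 1, by omega⟩
      rw [pow_succ, mul_comm] at h1
      have h2 : 2 ^ n' = 2 * (j * j + j) + 1 := by omega
      have h3 : (2 * (j * j + j) + 1) = 1 := odd_dvd_two_pow (m := n') ⟨_, rfl⟩ (by rw [h2])
      have hj0 : j = 0 := by nlinarith
      subst hj0
      have : p ^ e = 1 := by simpa using hj
      have he0 : e ≠ 0 := by omega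
      have := Nat.one_lt_pow he0 hp.one_lt
      omega
    · obtain ⟨c, hc, hc2⟩ := odd_factor_add p hpodd e
      have hc1 : c = 1 := odd_dvd_two_pow (m := n) hc (by rw [h, hc2]; exact dvd_mul_right _ _)
      subst hc1
      have h4 : p ^ (2 * e + 1) = p ^ 1 := by rw [pow_one]; omega
      have := Nat.pow_right_injective hp.two_le h4
      omega
  · right
    have hqodd : Odd q := by
      rcases hq.eq_two_or_odd' with h2 | h2
      · exact absurd h2 hq2
      · exact h2
    have hp2 : p = 2 := by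
      rcases hp.eq_two_or_odd' with h2 | h2
      · exact h2
      · exfalso
        have h1 : Odd (q ^ n) := hqodd.pow
        have h3 : Odd (p ^ b) := h2.pow
        rw [h] at h1
        exact (Nat.not_even_iff_odd.2 h1) h3.add_one
    subst hp2
    rcases Nat.even_or_odd' n with ⟨m, rfl | rfl⟩
    · right
      refine ⟨rfl, ?_⟩
      have hm : 1 ≤ m := by omega
      have hqm : 3 ≤ q ^ m := by
        have h3 : 3 ≤ q := by
          have := hq.two_le
          omega
        calc 3 ≤ q := h3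
          _ = q ^ 1 := (pow_one q).symm
          _ ≤ q ^ m := Nat.pow_le_pow_right (by omega) hm
      obtain ⟨u, hu⟩ : ∃ u, q ^ m = u + 1 := ⟨q ^ m - 1, by omega⟩
      have h1 : u * (u + 2) = 2 ^ b := by
        have : q ^ (2 * m) = (q ^ m) ^ 2 := by rw [pow_mul']
        rw [this, hu] at h
        nlinarith
      obtain ⟨i, -, hi⟩ := (Nat.dvd_prime_pow Nat.prime_two).1 (Dvd.intro _ h1)
      obtain ⟨j, -, hj⟩ := (Nat.dvd_prime_pow Nat.prime_two).1 (Dvd.intro_left _ h1)
      have hu2 : u = 2 := by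
        rcases i with _ | _ | i
        · simp at hi; omega
        · simpa using hi
        · exfalso
          have e2 : 2 ^ (i + 1 + 1) = 4 * 2 ^ i := by ring
          rw [e2] at hi
          have hij : i + 2 < j := by
            by_contra hcon
            have h5 : 2 ^ j ≤ 2 ^ (i + 2) := Nat.pow_le_pow_right (by omega) (by omega)
            have e3 : 2 ^ (i + 2) = 4 * 2 ^ i := by ring
            omega
          obtain ⟨d, rfl⟩ : ∃ d, j = i + 2 + d + 1 := ⟨j - (i + 2) - 1, by omega⟩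
          have e1 : 2 ^ (i + 2 + d + 1) = 4 * (2 ^ i * 2 ^ d * 2) := by ring
          rw [e1] at hj
          omega
      subst hu2
      have hq3 : q ^ m = 3 := hu
      have hqd : q ∣ 3 := by
        rw [← hq3]; exact dvd_pow_self q (by omega)
      have hq3' : q = 3 := (Nat.prime_dvd_prime_iff_eq hq Nat.prime_three).1 hqd
      subst hq3'
      have : 3 ^ m = 3 ^ 1 := by omega
      have := Nat.pow_right_injective (le_refl 2 |>.trans (by norm_num : 2 ≤ 3)) this
      exact ⟨rfl, by omega⟩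
    · left
      refine ⟨rfl, ?_⟩
      obtain ⟨r, rfl⟩ : ∃ r, q = r + 1 := ⟨q - 1, by have := hq.two_le; omega⟩
      have hr : Even r := by
        rcases Nat.even_or_odd r with hr | hr
        · exact hr
        · exact absurd hqodd (Nat.not_odd_iff_even.2 hr.add_one)
      obtain ⟨c, hc, hc2⟩ := odd_factor_sub r hr m
      have hc1 : c = 1 := odd_dvd_two_pow (m := b) hc (by
        have : c * r = 2 ^ b := by omega
        rw [← this]; exact dvd_mul_right _ _)
      subst hc1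
      have h4 : (r + 1) ^ (2 * m + 1) = (r + 1) ^ 1 := by rw [pow_one]; omega
      have := Nat.pow_right_injective hq.two_le h4
      omega


section act
variable {q : ℕ} [Fact q.Prime] {V : Type*} [AddCommGroup V] [Module (ZMod q) V]
  {G : Type*} [Group G] (ρ : G →* (V ≃ₗ[ZMod q] V))

/-- The action of `G` on `V` through `ρ`. -/
@[reducible] def act : MulAction G V where
  smul g v := ρ g v
  one_smul v := by show ρ 1 v = v; rw [map_one]; rfl
  mul_smul g h v := by show ρ (g * h) v = ρ g (ρ h v); rw [map_mul]; rfl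

/-- The stabilizer of a vector. -/
def stab (v₀ : V) : Subgroup G where
  carrier := {g | ρ g v₀ = v₀}
  mul_mem' := by
    intro a b ha hb
    have ha' : ρ a v₀ = v₀ := ha
    have hb' : ρ b v₀ = v₀ := hb
    show ρ (a * b) v₀ = v₀
    rw [map_mul, LinearEquiv.mul_apply, hb', ha']
  one_mem' := by show ρ 1 v₀ = v₀; rw [map_one]; rfl
  inv_mem' := by
    intro a ha
    have ha' : ρ a v₀ = v₀ := ha
    show ρ a⁻¹ v₀ = v₀
    rw [map_inv]
    conv_lhs => rw [← ha']
    exact (ρ a).symm_apply_apply v₀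

theorem mem_stab (v₀ : V) (g : G) : g ∈ stab ρ v₀ ↔ ρ g v₀ = v₀ := Iff.rfl

theorem orbit_stab [Finite V] [Finite G] (htrans : ∀ v w : V, v ≠ 0 → w ≠ 0 → ∃ g : G, ρ g v = w)
    (v₀ : V) (hv₀ : v₀ ≠ 0) :
    Nat.card (stab ρ v₀) * (Nat.card V - 1) = Nat.card G := by
  letI := act ρ
  have h1 : MulAction.stabilizer G v₀ = stab ρ v₀ := by ext g; rfl
  have h2 : MulAction.orbit G v₀ = ({0} : Set V)ᶜ := by
    ext w
    constructor
    · rintro ⟨g, rfl⟩
      show ρ g v₀ ∉ ({0} : Set V)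
      simpa using hv₀
    · intro hw
      obtain ⟨g, hg⟩ := htrans v₀ w hv₀ (by simpa using hw)
      exact ⟨g, hg⟩
  have h3 := MulAction.index_stabilizer G v₀
  rw [h1, h2, Set.ncard_compl, Set.ncard_singleton] at h3
  rw [← h3]; exact Subgroup.card_mul_index _

theorem eq_one_of_fix (hρ : Function.Injective ρ) (g : G) (h : ∀ v : V, v ≠ 0 → ρ g v = v) :
    g = 1 := by
  apply hρ
  rw [map_one]
  ext v
  by_cases hv : v = 0
  · subst hv; simp
  · simpa using h v hv

theorem card_le_of_prime [Finite V] [Finite G] (hρ : Function.Injective ρ) (p k : ℕ) (hp : p.Prime)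
    (hV : Nat.card V = p + 1) (hG : Nat.card G = p ^ k) : k ≤ 1 := by
  letI := act ρ
  have hinj : Function.Injective (MulAction.toPermHom G V) := by
    intro g h hgh
    apply hρ
    ext v
    have := congrArg (fun σ : Equiv.Perm V => σ v) hgh
    exact this
  have hdvd := Subgroup.card_dvd_of_injective _ hinj
  rw [Nat.card_perm, hV, hG] at hdvd
  by_contra hk
  have h2 : p ^ 2 ∣ (p + 1).factorial := (Nat.pow_dvd_pow p (by omega)).trans hdvd
  obtain ⟨p', rfl⟩ : ∃ p', p = p' + 1 := ⟨p - 1, by have := hp.two_le; omega⟩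
  rw [Nat.factorial_succ, Nat.factorial_succ, pow_two] at h2
  have h3 : (p' + 1) ∣ (p' + 1 + 1) * p'.factorial := by
    have : (p' + 1) * (p' + 1) ∣ (p' + 1) * ((p' + 1 + 1) * p'.factorial) := by
      convert h2 using 1; ring
    exact (Nat.mul_dvd_mul_iff_left (by omega)).1 this
  rcases (Nat.Prime.dvd_mul hp).1 h3 with h4 | h4
  · have h5 : (p' + 1) ∣ 1 := (Nat.dvd_add_right (dvd_refl _)).1 h4
    have := Nat.le_of_dvd one_pos h5
    have := hp.two_le
    omega
  · have := (Nat.Prime.dvd_factorial hp).1 h4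
    omega

theorem dim_one [Finite V] [Finite G] (hρ : Function.Injective ρ) (hV : Nat.card V = q)
    (v₀ : V) (hv₀ : v₀ ≠ 0) : IsCyclic G ∧ stab ρ v₀ = ⊥ := by
  have hinj : Function.Injective (fun a : ZMod q => a • v₀) := by
    intro a b hab
    have hab' : a • v₀ = b • v₀ := hab
    have h0 : (a - b) • v₀ = 0 := by rw [sub_smul]; exact sub_eq_zero.2 hab'
    rcases smul_eq_zero.1 h0 with h | h
    · exact sub_eq_zero.1 h
    · exact absurd h hv₀
  have hsurj : Function.Surjective (fun a : ZMod q => a • v₀) :=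
    (hinj.bijective_of_nat_card_le (by rw [hV, Nat.card_zmod])).2
  choose c hc using fun g : G => hsurj (ρ g v₀)
  have hc' : ∀ g, c g • v₀ = ρ g v₀ := hc
  have hext : ∀ g h : G, c g = c h → g = h := by
    intro g h hgh
    apply hρ
    ext v
    obtain ⟨a, rfl⟩ := hsurj v
    show ρ g (a • v₀) = ρ h (a • v₀)
    rw [map_smul, map_smul, ← hc', ← hc', hgh]
  let f : G →* ZMod q :=
    { toFun := c
      map_one' := by
        apply hinj
        show c 1 • v₀ = (1 : ZMod q) • v₀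
        rw [hc', map_one, one_smul]; rfl
      map_mul' := by
        intro g h
        apply hinj
        show c (g * h) • v₀ = (c g * c h) • v₀
        rw [hc', map_mul, LinearEquiv.mul_apply, ← hc' h, map_smul, ← hc' g, smul_smul, mul_comm] }
  have hf : Function.Injective f := fun g h hgh => hext g h hgh
  refine ⟨isCyclic_of_injective_ringHom f hf, ?_⟩
  rw [Subgroup.eq_bot_iff_forall]
  intro g hg
  have hg' : ρ g v₀ = v₀ := hg
  apply hext
  apply hinj
  show c g • v₀ = c 1 • v₀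
  rw [hc', hc', hg', map_one]; rfl

end act

/-! ### The case `|V| = 9` -/

/-- Matrices of `ΓL(1,9)` inside `GL(2,3)`. -/
def predE (a b c d : ZMod 3) : Prop := (d = a ∧ b = -c) ∨ (d = -a ∧ b = c)

instance (a b c d : ZMod 3) : Decidable (predE a b c d) := by unfold predE; infer_instance

theorem predE_pow8 : ∀ a b c d : ZMod 3, predE a b c d → a * d - b * c ≠ 0 →
    (!![a, b; c, d] : Matrix (Fin 2) (Fin 2) (ZMod 3)) ^ 8 = 1 := by decide

abbrev Γ := GL (Fin 2) (ZMod 3)

def pred (M : Matrix (Fin 2) (Fin 2) (ZMod 3)) : Prop := predE (M 0 0) (M 0 1) (M 1 0) (M 1 1)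

theorem pred_mul (M N : Matrix (Fin 2) (Fin 2) (ZMod 3)) (hM : pred M) (hN : pred N) :
    pred (M * N) := by
  unfold pred predE at *
  rcases hM with ⟨h1, h2⟩ | ⟨h1, h2⟩ <;> rcases hN with ⟨h3, h4⟩ | ⟨h3, h4⟩
  · left
    simp only [Matrix.mul_apply, Fin.sum_univ_two, h1, h2, h3, h4]
    constructor <;> ring
  · right
    simp only [Matrix.mul_apply, Fin.sum_univ_two, h1, h2, h3, h4]
    constructor <;> ring
  · right
    simp only [Matrix.mul_apply, Fin.sum_univ_two, h1, h2, h3, h4]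
    constructor <;> ring
  · left
    simp only [Matrix.mul_apply, Fin.sum_univ_two, h1, h2, h3, h4]
    constructor <;> ring

theorem pred_one : pred 1 := by
  unfold pred predE
  left
  simp

theorem pred_pow (M : Matrix (Fin 2) (Fin 2) (ZMod 3)) (hM : pred M) (k : ℕ) : pred (M ^ k) := by
  induction k with
  | zero => rw [pow_zero]; exact pred_one
  | succ k ih => rw [pow_succ]; exact pred_mul _ _ ih hM

theorem pred_pow8 (A : Γ) (hA : pred (A : Matrix (Fin 2) (Fin 2) (ZMod 3))) : A ^ 8 = 1 := by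
  apply Units.ext
  rw [Units.val_pow_eq_pow_val, Units.val_one]
  have hdet : (A : Matrix (Fin 2) (Fin 2) (ZMod 3)).det ≠ 0 :=
    ((Matrix.isUnit_iff_isUnit_det _).1 A.isUnit).ne_zero
  rw [Matrix.det_fin_two] at hdet
  have h := predE_pow8 _ _ _ _ hA hdet
  rwa [← Matrix.eta_fin_two] at h

/-- The explicit semidihedral subgroup of order 16. -/
def S0 : Subgroup Γ where
  carrier := {A | pred (A : Matrix (Fin 2) (Fin 2) (ZMod 3))}
  mul_mem' := by
    intro a b ha hb
    show pred ((a * b : Γ) : Matrix (Fin 2) (Fin 2) (ZMod 3))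
    rw [Units.val_mul]
    exact pred_mul _ _ ha hb
  one_mem' := by
    show pred ((1 : Γ) : Matrix (Fin 2) (Fin 2) (ZMod 3))
    exact pred_one
  inv_mem' := by
    intro a ha
    have h8 := pred_pow8 a ha
    have hinv : a⁻¹ = a ^ 7 := by
      apply inv_eq_of_mul_eq_one_right
      rw [← pow_succ']
      exact h8
    show pred ((a⁻¹ : Γ) : Matrix (Fin 2) (Fin 2) (ZMod 3))
    rw [hinv, Units.val_pow_eq_pow_val]
    exact pred_pow _ ha 7

theorem S0_pgroup : IsPGroup 2 S0 := by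
  intro g
  refine ⟨3, ?_⟩
  apply Subtype.ext
  have := pred_pow8 g.1 g.2
  simpa using this

def Xm : Γ := ⟨!![1, -1; 1, 1], !![-1, -1; 1, -1], by decide, by decide⟩
def Ym : Γ := ⟨!![1, 0; 0, -1], !![1, 0; 0, -1], by decide, by decide⟩

theorem Xm_mem : Xm ∈ S0 := by
  show pred _
  unfold pred predE
  decide

theorem Ym_mem : Ym ∈ S0 := by
  show pred _
  unfold pred predE
  decide

theorem Xm_order : orderOf Xm = 8 := by
  haveI : Fact (Nat.Prime 2) := ⟨Nat.prime_two⟩
  have h1 : ¬ Xm ^ 2 ^ 2 = 1 := by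
    intro h
    have := congrArg Units.val h
    rw [Units.val_pow_eq_pow_val] at this
    revert this
    decide
  have h2 : Xm ^ 2 ^ (2 + 1) = 1 := by
    apply Units.ext
    rw [Units.val_pow_eq_pow_val]
    decide
  exact orderOf_eq_prime_pow h1 h2

theorem Ym_order : orderOf Ym = 2 := by
  haveI : Fact (Nat.Prime 2) := ⟨Nat.prime_two⟩
  refine orderOf_eq_prime ?_ ?_
  · apply Units.ext
    rw [Units.val_pow_eq_pow_val]
    decide
  · intro h
    have := congrArg Units.val h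
    revert this
    decide

theorem XY_rel : Ym * Xm * Ym⁻¹ = Xm ^ 3 := by
  apply Units.ext
  rw [Units.val_pow_eq_pow_val]
  decide

theorem card_Γ : Nat.card Γ = 48 := by
  rw [Matrix.card_GL_field]
  simp [Fin.prod_univ_two, ZMod.card]

theorem sd_exists (P : Subgroup Γ) (hP : Nat.card P = 16) :
    ∃ x ∈ P, ∃ y ∈ P, orderOf x = 8 ∧ orderOf y = 2 ∧ y * x * y⁻¹ = x ^ 3 := by
  haveI : Fact (Nat.Prime 2) := ⟨Nat.prime_two⟩
  have hPp : IsPGroup 2 P := IsPGroup.of_card (n := 4) (by rw [hP]; norm_num)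
  obtain ⟨P', hP'⟩ := hPp.exists_le_sylow
  obtain ⟨j, hj⟩ := IsPGroup.iff_card.1 P'.isPGroup'
  have hdvd : Nat.card (P' : Subgroup Γ) ∣ 48 := card_Γ ▸ Subgroup.card_subgroup_dvd_card _
  have hj4 : j ≤ 4 := by
    by_contra hcon
    have h32 : 2 ^ 5 ∣ 2 ^ j := Nat.pow_dvd_pow 2 (by omega)
    rw [hj] at hdvd
    have := h32.trans hdvd
    revert this
    decide
  have hPeq : P = (P' : Subgroup Γ) := by
    apply Subgroup.eq_of_le_of_card_ge hP'
    rw [hP, hj]
    calc 2 ^ j ≤ 2 ^ 4 := Nat.pow_le_pow_right (by norm_num) hj4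
      _ = 16 := by norm_num
  obtain ⟨Q, hQ⟩ := S0_pgroup.exists_le_sylow
  obtain ⟨γ, hγ⟩ := MulAction.exists_smul_eq Γ Q P'
  have hmem : ∀ A ∈ S0, MulAut.conj γ A ∈ P := by
    intro A hA
    have h1 : MulAut.conj γ • A ∈ MulAut.conj γ • (Q : Subgroup Γ) :=
      Subgroup.smul_mem_pointwise_smul A (MulAut.conj γ) Q (hQ hA)
    have h2 : (MulAut.conj γ • (Q : Subgroup Γ)) = ((γ • Q : Sylow 2 Γ) : Subgroup Γ) := rfl
    rw [h2, hγ, ← hPeq] at h1
    exact h1
  refine ⟨MulAut.conj γ Xm, hmem _ Xm_mem, MulAut.conj γ Ym, hmem _ Ym_mem, ?_, ?_, ?_⟩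
  · rw [MulEquiv.orderOf_eq, Xm_order]
  · rw [MulEquiv.orderOf_eq, Ym_order]
  · have h2 : MulAut.conj γ (Ym * Xm * Ym⁻¹) = MulAut.conj γ (Xm ^ 3) := by rw [XY_rel]
    rw [map_mul, map_mul, map_inv, map_pow] at h2
    exact h2

/-- Transport of a linear automorphism of a 2-dimensional space to `GL(2,3)`. -/
noncomputable def toGL {V : Type*} [AddCommGroup V] [Module (ZMod 3) V]
    (b : Module.Basis (Fin 2) (ZMod 3) V) : (V ≃ₗ[ZMod 3] V) →* Γ :=
  ((Units.mapEquiv (LinearMap.toMatrixAlgEquiv b).toRingEquiv.toMulEquiv).toMonoidHom).comp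
    (LinearMap.GeneralLinearGroup.generalLinearEquiv (ZMod 3) V).symm.toMonoidHom

theorem toGL_injective {V : Type*} [AddCommGroup V] [Module (ZMod 3) V]
    (b : Module.Basis (Fin 2) (ZMod 3) V) : Function.Injective (toGL b) := by
  unfold toGL
  rw [MonoidHom.coe_comp]
  exact (MulEquiv.injective
    (Units.mapEquiv (LinearMap.toMatrixAlgEquiv b).toRingEquiv.toMulEquiv)).comp
    (MulEquiv.injective (LinearMap.GeneralLinearGroup.generalLinearEquiv (ZMod 3) V).symm)

theorem nine [hq3 : Fact (Nat.Prime 3)] {V : Type*} [AddCommGroup V] [Module (ZMod 3) V] [Finite V]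
    {G : Type*} [Group G] [Finite G] (hG : IsPGroup 2 G)
    (ρ : G →* (V ≃ₗ[ZMod 3] V)) (hρ : Function.Injective ρ)
    (htrans : ∀ v w : V, v ≠ 0 → w ≠ 0 → ∃ g : G, ρ g v = w)
    (hfr : Module.finrank (ZMod 3) V = 2) (hV : Nat.card V = 9) :
    (IsCyclic G ∧ Nat.card G = 8) ∨ Nonempty (G ≃* QuaternionGroup 2) ∨
      (Cfsg.IsQuasiDihedral G ∧ Nat.card G = 16) := by
  haveI : Fact (Nat.Prime 2) := ⟨Nat.prime_two⟩
  have b := Module.finBasisOfFinrankEq (ZMod 3) V hfr
  let μ : G →* Γ := (toGL b).comp ρ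
  have hμ : Function.Injective μ := (toGL_injective b).comp hρ
  obtain ⟨k, hk⟩ := IsPGroup.iff_card.1 hG
  have hdvd : Nat.card G ∣ 48 := card_Γ ▸ Subgroup.card_dvd_of_injective μ hμ
  have hos : ∀ v : V, v ≠ 0 → Nat.card (stab ρ v) * 8 = Nat.card G := by
    intro v hv
    have := orbit_stab ρ htrans v hv
    rwa [hV] at this
  obtain ⟨v₀, hv₀⟩ : ∃ v : V, v ≠ 0 := by
    haveI : Nontrivial V := by
      rw [← Finite.one_lt_card_iff_nontrivial, hV]; norm_num
    exact exists_ne 0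
  have hk4 : k ≤ 4 := by
    by_contra hcon
    have h32 : 2 ^ 5 ∣ 2 ^ k := Nat.pow_dvd_pow 2 (by omega)
    rw [hk] at hdvd
    have := h32.trans hdvd
    revert this
    decide
  have hk3 : 3 ≤ k := by
    by_contra hcon
    have h8 : 8 ∣ 2 ^ k := by rw [← hk, ← hos v₀ hv₀]; exact dvd_mul_left _ _
    have hle : 2 ^ k ≤ 2 ^ 2 := Nat.pow_le_pow_right (by norm_num) (by omega)
    have := Nat.le_of_dvd (by positivity) h8
    omega
  obtain rfl | rfl : k = 3 ∨ k = 4 := by omega
  · -- regular case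
    have hG8 : Nat.card G = 8 := by rw [hk]; norm_num
    have hst : ∀ v : V, v ≠ 0 → ∀ g : G, ρ g v = v → g = 1 := by
      intro v hv g hg
      have h1 := hos v hv
      rw [hG8] at h1
      have h2 : Nat.card (stab ρ v) = 1 := by omega
      have h3 := (Subgroup.card_eq_one.1 h2)
      have : g ∈ stab ρ v := hg
      rw [h3] at this
      exact Subgroup.mem_bot.1 this
    have hneg : ∀ x : G, x ^ 2 = 1 → x ≠ 1 → ∀ v : V, ρ x v = -v := by
      intro x hx2 hx1 v
      have hxx : ρ x (ρ x v) = v := by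
        have : ρ (x ^ 2) v = v := by rw [hx2, map_one]; rfl
        rwa [pow_two, map_mul] at this
      by_contra hcon
      have hw : ρ x v + v ≠ 0 := fun h => hcon (eq_neg_of_add_eq_zero_left h)
      apply hx1
      apply hst _ hw
      rw [map_add, hxx, add_comm]
    have hinv : ∀ x y : G, x ^ 2 = 1 → x ≠ 1 → y ^ 2 = 1 → y ≠ 1 → x = y := by
      intro x y hx hx1 hy hy1
      apply hρ
      ext v
      rw [hneg x hx hx1, hneg y hy hy1]
    have hsq : ∀ H : Subgroup G, Nat.card H = 2 → ∀ x ∈ H, x ^ 2 = 1 := by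
      intro H hH x hx
      have h1 : (⟨x, hx⟩ : H) ^ Nat.card H = 1 := pow_card_eq_one'
      rw [hH] at h1
      exact congrArg Subtype.val h1
    have hle : ∀ H K : Subgroup G, Nat.card H = 2 → Nat.card K = 2 → H ≤ K := by
      intro H K hH hK x hx
      by_cases hx1 : x = 1
      · rw [hx1]; exact K.one_mem
      · have hKne : K ≠ ⊥ := by
          intro h
          rw [h, Subgroup.card_bot] at hK
          omega
        obtain ⟨⟨y, hyK⟩, hy1⟩ := (Subgroup.ne_bot_iff_exists_ne_one).1 hKne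
        have hy1' : y ≠ 1 := fun h => hy1 (Subtype.ext h)
        have := hinv x y (hsq H hH x hx) hx1 (hsq K hK y hyK) hy1'
        rw [this]; exact hyK
    have huniq : ∀ H K : Subgroup G, Nat.card H = 2 → Nat.card K = 2 → H = K :=
      fun H K hH hK => le_antisymm (hle H K hH hK) (hle K H hK hH)
    rcases Cfsg.Agent.S0016.result 2 hG huniq with hcyc | ⟨-, n, ⟨e⟩⟩
    · exact Or.inl ⟨hcyc, hG8⟩
    · right; left
      have hn : 2 ^ n = 2 := by
        have h1 : Nat.card G = Nat.card (QuaternionGroup (2 ^ n)) := Nat.card_congr e.toEquiv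
        haveI : NeZero (2 ^ n) := ⟨by positivity⟩
        rw [hG8, Nat.card_eq_fintype_card, QuaternionGroup.card] at h1
        omega
      rw [hn] at e
      exact ⟨e⟩
  · -- Sylow case
    have hG16 : Nat.card G = 16 := by rw [hk]; norm_num
    right; right
    refine ⟨?_, hG16⟩
    have hP : Nat.card μ.range = 16 := by
      rw [← hG16]
      exact (Nat.card_congr (MonoidHom.ofInjective hμ).toEquiv).symm
    obtain ⟨X, ⟨x, rfl⟩, Y, ⟨y, rfl⟩, hx, hy, hxy⟩ := sd_exists μ.range hP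
    refine ⟨3, le_refl 3, by rw [hG16]; norm_num, x, y, ?_, ?_, ?_⟩
    · rw [← orderOf_injective μ hμ, hx]; norm_num
    · rw [← orderOf_injective μ hμ, hy]
    · apply hμ
      rw [map_mul, map_mul, map_inv, map_pow, hxy]
      norm_num

theorem result (q : ℕ) [Fact q.Prime] {V : Type*} [AddCommGroup V] [Module (ZMod q) V] [Finite V] [Nontrivial V]
    {G : Type*} [Group G] [Finite G] [Nontrivial G] (p : ℕ) [Fact p.Prime] (hG : IsPGroup p G)
    (ρ : G →* (V ≃ₗ[ZMod q] V)) (hρ : Function.Injective ρ)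
    (htrans : ∀ v w : V, v ≠ 0 → w ≠ 0 → ∃ g : G, ρ g v = w) :
    (q = 2 ∧ p = Nat.card V - 1 ∧ Nat.card G = p) ∨
    (p = 2 ∧ Nat.card V = q ∧ (∃ m : ℕ, q = 2 ^ m + 1 ∧ Nat.card G = 2 ^ m) ∧ IsCyclic G) ∨
    (p = 2 ∧ q = 3 ∧ Nat.card V = 9 ∧
      ((IsCyclic G ∧ Nat.card G = 8) ∨ Nonempty (G ≃* QuaternionGroup 2) ∨ (Cfsg.IsQuasiDihedral G ∧ Nat.card G = 16))) := by
  have hq : q.Prime := Fact.out
  have hp : p.Prime := Fact.out
  obtain ⟨v₀, hv₀⟩ := exists_ne (0 : V)
  have hcard : Nat.card V = q ^ Module.finrank (ZMod q) V := by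
    rw [Module.natCard_eq_pow_finrank (K := ZMod q) (V := V), Nat.card_zmod]
  have hn : 1 ≤ Module.finrank (ZMod q) V := Module.finrank_pos
  generalize hnn : Module.finrank (ZMod q) V = n at hcard hn
  obtain ⟨k, hk⟩ := IsPGroup.iff_card.1 hG
  have hos := orbit_stab ρ htrans v₀ hv₀
  have hdvd : (Nat.card V - 1) ∣ p ^ k := hk ▸ Dvd.intro_left _ hos
  obtain ⟨b, -, hb⟩ := (Nat.dvd_prime_pow hp).1 hdvd
  have hV1 : 1 ≤ q ^ n := Nat.one_le_pow _ _ hq.pos
  have hb1 : 1 ≤ b := by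
    by_contra hb0
    have hb0 : b = 0 := by omega
    subst hb0
    rw [pow_zero] at hb
    have hV2 : Nat.card V = 2 := by omega
    obtain ⟨y, -, hy⟩ := (Nat.card_eq_two_iff' (0 : V)).1 hV2
    rw [hb, mul_one] at hos
    have htop := (Subgroup.card_eq_iff_eq_top _).1 hos
    obtain ⟨g, hg⟩ := exists_ne (1 : G)
    apply hg
    apply eq_one_of_fix ρ hρ
    intro v hv
    have h1 : g ∈ stab ρ v₀ := by rw [htop]; exact Subgroup.mem_top g
    have h2 : ρ g v₀ = v₀ := h1
    rw [hy v hv, ← hy v₀ hv₀]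
    exact h2
  have hqn : q ^ n = p ^ b + 1 := by omega
  rcases nt q n p b hq hp hn hb1 hqn with ⟨rfl, rfl⟩ | ⟨rfl, rfl⟩ | ⟨rfl, rfl, rfl⟩
  · left
    rw [pow_one] at hb
    refine ⟨rfl, hb.symm, ?_⟩
    have hk1 : k ≤ 1 := card_le_of_prime ρ hρ p k hp (by omega) hk
    have hk0 : k ≠ 0 := by
      intro h0
      subst h0
      rw [pow_zero] at hk
      rw [hk, hb] at hos
      have := Nat.le_of_dvd one_pos (Dvd.intro_left _ hos)
      have := hp.two_le
      omega
    have : k = 1 := by omega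
    rw [hk, this, pow_one]
  · right; left
    rw [pow_one] at hcard
    have h1 := dim_one ρ hρ hcard v₀ hv₀
    refine ⟨rfl, hcard, ⟨b, by rw [pow_one] at hqn; exact hqn, ?_⟩, h1.1⟩
    rw [h1.2, Subgroup.card_bot, one_mul, hb] at hos
    exact hos.symm
  · right; right
    have hV9 : Nat.card V = 9 := by rw [hcard]; norm_num
    exact ⟨rfl, rfl, hV9, nine hG ρ hρ htrans hnn hV9⟩

end Cfsg.Agent.S3370
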