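import Cfsg.Statements.S0042
import Mathlib
import Cfsg.Agent.S0033
import Cfsg.Agent.S0037

set_option autoImplicit false
open Cfsg

namespace Cfsg.Agent.S0042

universe u

open scoped Pointwise in
theorem aux {G : Type u} [Group G] [Finite G] (H : Subgroup G)
    (hH : Cfsg.IsFrobeniusComplement H) :
    ∃ N : Subgroup G, (N : Set G) = Cfsg.frobeniusKernel H ∧ N.Normal ∧ Group.IsNilpotent N := by
  classical
  obtain ⟨N, hNn, hc, hN1, hmem, hfpf⟩ := Cfsg.Agent.S0037.frob_data H hH
  have hset : Cfsg.frobeniusKernel H = (N : Set G) := by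
    ext x
    rw [SetLike.mem_coe, hmem]
    show (x = 1 ∨ ∀ g : G, x ∉ MulAut.conj g • H) ↔ _
    apply or_congr Iff.rfl
    apply forall_congr'
    intro g
    rw [Subgroup.mem_pointwise_smul_iff_inv_smul_mem]
    have : (MulAut.conj g)⁻¹ • x = g⁻¹ * x * g := by
      rw [MulAut.smul_def, MulAut.conj_inv_apply]
    rw [this]
  refine ⟨N, hset.symm, hNn, ?_⟩
  -- an element of prime order in `H`
  have hHcard : 1 < Nat.card H := H.one_lt_card_iff_ne_bot.mpr hH.1
  obtain ⟨r, hr, hrd⟩ := Nat.exists_prime_and_dvd (Nat.ne_of_gt hHcard)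
  haveI : Fact r.Prime := ⟨hr⟩
  obtain ⟨h, hh⟩ := exists_prime_orderOf_dvd_card' r hrd
  have hh1 : (h : G) ≠ 1 := by
    intro h1
    have : h = 1 := Subtype.ext h1
    rw [this, orderOf_one] at hh
    exact hr.one_lt.ne hh
  have hhr : (h : G) ^ r = 1 := by
    have : h ^ r = 1 := by rw [← hh]; exact pow_orderOf_eq_one h
    have h2 := congrArg Subtype.val this
    simpa using h2
  let φ : N ≃* N := MulAut.conjNormal (h : G)
  have hφ : ∀ x : N, ((φ x : N) : G) = (h : G) * x * (h : G)⁻¹ := fun x => rfl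
  have hfix : ∀ x : N, φ x = x → x = 1 := by
    intro x hx
    have h1 : (h : G) * x * (h : G)⁻¹ = x := by rw [← hφ, hx]
    have h2 : (x : G) ∈ N ⊓ Subgroup.centralizer {(h : G)} := by
      refine Subgroup.mem_inf.mpr ⟨x.2, ?_⟩
      rw [Subgroup.mem_centralizer_iff]
      intro y hy
      rw [Set.mem_singleton_iff] at hy
      rw [hy]
      calc (h : G) * x = (h : G) * x * (h : G)⁻¹ * h := by group
        _ = x * h := by rw [h1]
    rw [hfpf (h : G) h.2 hh1, Subgroup.mem_bot] at h2
    exact Subtype.ext h2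
  have hit : ∀ (n : ℕ) (x : N), (((⇑φ)^[n] x : N) : G) = (h : G) ^ n * x * ((h : G) ^ n)⁻¹ := by
    intro n
    induction n with
    | zero => intro x; simp
    | succ n ih =>
      intro x
      rw [Function.iterate_succ_apply', hφ, ih]
      rw [pow_succ']
      group
  have hpow : (⇑φ)^[r] = id := by
    funext x
    apply Subtype.ext
    rw [hit, hhr]
    simp
  exact Cfsg.Agent.S0033.fpf_nilpotent r hr _ N rfl φ hfix hpow

/-- In a finite Frobenius group, the Frobenius kernel is (the carrier of) a normal subgroup which is nilpotent. -/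
theorem result {G : Type*} [Group G] [Finite G] (H : Subgroup G) (hH : Cfsg.IsFrobeniusComplement H) :
    ∃ N : Subgroup G, (N : Set G) = Cfsg.frobeniusKernel H ∧ N.Normal ∧ Group.IsNilpotent N := by
  exact aux H hH

end Cfsg.Agent.S0042
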