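import Cfsg.Statements.S0641
import Mathlib

set_option autoImplicit false
open Cfsg

namespace Cfsg.Agent.S0641

/-- Regularity of a p-group passes to quotient groups. -/
theorem result {G : Type*} [Group G] {p : ℕ} [Fact p.Prime] (hG : Cfsg.IsRegularPGroup p G) (N : Subgroup G) [N.Normal] : Cfsg.IsRegularPGroup p (G ⧸ N) := by
  obtain ⟨hp, h⟩ := hG
  refine ⟨hp.to_quotient N, ?_⟩
  intro a b n
  obtain ⟨a, rfl⟩ := QuotientGroup.mk_surjective a
  obtain ⟨b, rfl⟩ := QuotientGroup.mk_surjective b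
  obtain ⟨c, hc, hab⟩ := h a b n
  refine ⟨(c : G ⧸ N), ?_, ?_⟩
  · have h1 : (⁅Subgroup.closure ({a, b} : Set G), Subgroup.closure ({a, b} : Set G)⁆).map
        (QuotientGroup.mk' N) =
        ⁅Subgroup.closure ({(a : G ⧸ N), (b : G ⧸ N)} : Set (G ⧸ N)),
          Subgroup.closure ({(a : G ⧸ N), (b : G ⧸ N)} : Set (G ⧸ N))⁆ := by
      rw [Subgroup.map_commutator, MonoidHom.map_closure]
      simp [Set.image_pair]
    have h2 : (powerClosure p n ⁅Subgroup.closure ({a, b} : Set G),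
        Subgroup.closure ({a, b} : Set G)⁆).map (QuotientGroup.mk' N) ≤
        powerClosure p n ⁅Subgroup.closure ({(a : G ⧸ N), (b : G ⧸ N)} : Set (G ⧸ N)),
          Subgroup.closure ({(a : G ⧸ N), (b : G ⧸ N)} : Set (G ⧸ N))⁆ := by
      unfold powerClosure
      rw [MonoidHom.map_closure]
      apply Subgroup.closure_mono
      rintro _ ⟨y, ⟨x, hx, rfl⟩, rfl⟩
      refine ⟨QuotientGroup.mk' N x, ?_, by simp⟩
      rw [← h1]
      exact Subgroup.mem_map_of_mem _ hx
    exact h2 (Subgroup.mem_map_of_mem _ hc)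
  · have := congrArg (QuotientGroup.mk' N) hab
    simpa using this

end Cfsg.Agent.S0641
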