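-- Statement S5613: joint stabilisers of two octads in the group of the length-24 code.
import Cfsg.Statements.S5613
import Cfsg.Agent.Lib.Helper94.M24Enum4
import Cfsg.Agent.Lib.Helper94.M24Conf

set_option autoImplicit false
open Cfsg

namespace Cfsg.Agent.S5613

open Cfsg.Agent.Lib.Helper9 Cfsg.Agent.Lib.Helper94
open scoped Pointwise

/-- The joint stabiliser in `M24` of the supports of two masks. -/
abbrev J (a b : ℕ) : Subgroup (Equiv.Perm GolayPt) :=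
  M24 ⊓ MulAction.stabilizer (Equiv.Perm GolayPt) (support₂ (dec a)) ⊓
    MulAction.stabilizer (Equiv.Perm GolayPt) (support₂ (dec b))

/-- The test on tables deciding membership in `J a b`. -/
def PJ (a b : ℕ) (T : List ℕ) : Bool := (true && pull T a == a) && pull T b == b

theorem tdecJ (a b : ℕ) (ha : a < 2 ^ 24) (hb : b < 2 ^ 24) : TDec (J a b) (PJ a b) :=
  (tdec_M24.inf_stab ha).inf_stab hb

theorem invA (a b : ℕ) (ha : a < 2 ^ 24) (hb : b < 2 ^ 24) : InvMask (J a b) a :=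
  (tdecJ a b ha hb).invMask ha (fun T hT => by
    simp only [PJ, Bool.true_and, Bool.and_eq_true, beq_iff_eq] at hT
    exact hT.1)

theorem invB (a b : ℕ) (ha : a < 2 ^ 24) (hb : b < 2 ^ 24) : InvMask (J a b) b :=
  (tdecJ a b ha hb).invMask hb (fun T hT => by
    simp only [PJ, Bool.true_and, Bool.and_eq_true, beq_iff_eq] at hT
    exact hT.2)

theorem lvl (a b : ℕ) (ha : a < 2 ^ 24) (hb : b < 2 ^ 24) {I : ℕ} (hI : InvMask (J a b) I)
    {ws ts : List (List ℕ)} (hts : ws.map (prodT sgsTabs) = ts) (hP : ts.all (PJ a b) = true)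
    (L : List ℕ) {bp : ℕ} (hbp : bp < 24) {m : ℕ}
    (hfix : ts.all (fun T => L.all (fun c => decide (c < 24) && T.getD c 0 == c)) = true)
    (horb : orbIter ts 24 (2 ^ bp) = m) (hbm : m.testBit bp = true)
    (hm : I &&& (16777215 ^^^ maskOf L) = m) :
    Nat.card ↥(J a b ⊓ fixing L) = popc m * Nat.card ↥(J a b ⊓ fixing (bp :: L)) :=
  (tdecJ a b ha hb).level hts hP L hbp 24 hfix horb hbm (by
    rw [← hm]
    exact invMask_inter_fix hI L)

theorem of_imp_bool {c d : Bool} (h : (!c || d) = true) (hc : c = true) : d = true := by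
  subst hc
  simpa using h

theorem bit_iff {g : Equiv.Perm GolayPt} {o : Finset GolayPt} {m : ℕ}
    (hgo : g • o = support₂ (dec m)) {i : ℕ} (hi : i < 24) {p : GolayPt} (e : g p = pt i) :
    m.testBit i = true ↔ p ∈ o := by
  rw [← mem_dec_pt m hi, ← hgo, ← e, ← Equiv.Perm.smul_def, Finset.smul_mem_smul_finset_iff]

theorem bit_true {g : Equiv.Perm GolayPt} {o : Finset GolayPt} {m : ℕ}
    (hgo : g • o = support₂ (dec m)) {i : ℕ} (hi : i < 24) {p : GolayPt} (e : g p = pt i)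
    (hp : p ∈ o) : m.testBit i = true := (bit_iff hgo hi e).2 hp

theorem bit_false {g : Equiv.Perm GolayPt} {o : Finset GolayPt} {m : ℕ}
    (hgo : g • o = support₂ (dec m)) {i : ℕ} (hi : i < 24) {p : GolayPt} (e : g p = pt i)
    (hp : p ∉ o) : m.testBit i = false := by
  rw [← Bool.not_eq_true]
  exact fun h => hp ((bit_iff hgo hi e).1 h)

theorem popc_inter {g : Equiv.Perm GolayPt} {o o' : Finset GolayPt} {m m' : ℕ}
    (hgo : g • o = support₂ (dec m)) (hgo' : g • o' = support₂ (dec m')) :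
    popc (m &&& m') = (o ∩ o').card := by
  rw [← card_inter_dec, ← hgo, ← hgo', ← Finset.smul_finset_inter, Finset.card_smul_finset]

/-- The octad through the points `23, 0, 1, 2, 3`. -/
def O5m : ℕ := 8536111

theorem O5m_lt : O5m < 2 ^ 24 := by decide

/-- An octad containing `23, 0, 1, 2, 3` is `O5m`. -/
def condA (m : ℕ) : Bool :=
  m.testBit 23 && m.testBit 0 && m.testBit 1 && m.testBit 2 && m.testBit 3 && popc m == 8

theorem checkA : allP (fun m => !condA m || m == O5m) gB 0 = true := by decide +kernel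

theorem eq_O5m {m : ℕ} (hm : m ∈ sums gB) (h8 : popc m = 8) (h23 : m.testBit 23 = true)
    (h0 : m.testBit 0 = true) (h1 : m.testBit 1 = true) (h2 : m.testBit 2 = true)
    (h3 : m.testBit 3 = true) : m = O5m := by
  have h := (allP_iff _ gB 0).mp checkA m hm
  rw [Nat.zero_xor] at h
  have hc : condA m = true := by
    unfold condA
    rw [h23, h0, h1, h2, h3, h8]
    rfl
  exact beq_iff_eq.1 (of_imp_bool h hc)

/-! ### Octads meeting in two points -/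

/-- An octad meeting `O5m` in two points and avoiding `23, 0, 1, 2, 3`. -/
def c2 : ℕ := 84464

theorem c2_lt : c2 < 2 ^ 24 := by decide

def w2_0 : List (List ℕ) :=
  [[2, 15, 6, 12, 18, 10, 21, 17, 20, 16, 22, 22, 26, 28]]

def t2_0 : List (List ℕ) :=
  [[1, 2, 3, 17, 8, 14, 11, 6, 4, 18, 21, 7, 12, 15, 5, 20, 16, 23, 10, 9, 13, 22, 19, 0]]

def w2_1 : List (List ℕ) :=
  [[6, 14, 6, 13, 8, 10, 10, 21, 16, 22, 26, 28]]

def t2_1 : List (List ℕ) :=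
  [[1, 2, 3, 17, 6, 5, 7, 8, 16, 19, 12, 11, 21, 15, 14, 9, 4, 0, 10, 20, 13, 22, 18, 23]]

def w2_2 : List (List ℕ) :=
  [[9, 12, 19, 19, 21, 16, 22, 22, 26, 30]]

def t2_2 : List (List ℕ) :=
  [[0, 2, 3, 17, 7, 14, 6, 16, 8, 19, 22, 4, 21, 15, 5, 10, 11, 1, 9, 20, 18, 12, 13, 23]]

def w2_3 : List (List ℕ) :=
  [[18, 10, 21, 16, 24, 26, 28]]

def t2_3 : List (List ℕ) :=
  [[0, 1, 3, 17, 8, 5, 11, 4, 7, 12, 22, 16, 18, 10, 14, 15, 6, 2, 9, 20, 21, 19, 13, 23]]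

def w2_4 : List (List ℕ) :=
  [[17, 22, 24, 26, 28]]

def t2_4 : List (List ℕ) :=
  [[0, 1, 2, 17, 16, 14, 7, 6, 11, 9, 10, 8, 18, 22, 5, 15, 4, 3, 12, 21, 20, 19, 13, 23]]


theorem card_J2 : Nat.card ↥(J O5m c2) = 720 := by
  have hI : InvMask (J O5m c2) (O5m &&& (16777215 ^^^ c2)) :=
    (invA O5m c2 O5m_lt c2_lt).and (invB O5m c2 O5m_lt c2_lt).compl
  have e0 := lvl O5m c2 O5m_lt c2_lt hI
    (ws := w2_0) (ts := t2_0) (by decide +kernel) (by decide +kernel) []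
    (bp := 23) (by norm_num) (m := 8519695) (by decide +kernel) (by decide +kernel)
    (by decide +kernel) (by decide +kernel)
  have e1 := lvl O5m c2 O5m_lt c2_lt hI
    (ws := w2_1) (ts := t2_1) (by decide +kernel) (by decide +kernel) [23]
    (bp := 0) (by norm_num) (m := 131087) (by decide +kernel) (by decide +kernel)
    (by decide +kernel) (by decide +kernel)
  have e2 := lvl O5m c2 O5m_lt c2_lt hI
    (ws := w2_2) (ts := t2_2) (by decide +kernel) (by decide +kernel) [0, 23]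
    (bp := 1) (by norm_num) (m := 131086) (by decide +kernel) (by decide +kernel)
    (by decide +kernel) (by decide +kernel)
  have e3 := lvl O5m c2 O5m_lt c2_lt hI
    (ws := w2_3) (ts := t2_3) (by decide +kernel) (by decide +kernel) [1, 0, 23]
    (bp := 2) (by norm_num) (m := 131084) (by decide +kernel) (by decide +kernel)
    (by decide +kernel) (by decide +kernel)
  have e4 := lvl O5m c2 O5m_lt c2_lt hI
    (ws := w2_4) (ts := t2_4) (by decide +kernel) (by decide +kernel) [2, 1, 0, 23]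
    (bp := 3) (by norm_num) (m := 131080) (by decide +kernel) (by decide +kernel)
    (by decide +kernel) (by decide +kernel)
  have e5 := (tdecJ O5m c2 O5m_lt c2_lt).card_fix enum5
    (List.Nodup.filter _ stab5T_nodup)
  have e6 : (stab5T.filter (PJ O5m c2)).length = 1 := by decide +kernel
  rw [← inf_fixing_nil (J O5m c2), e0, e1, e2, e3, e4, e5, e6]
  decide +kernel

def cond2 (m : ℕ) : Bool :=
  !m.testBit 23 && !m.testBit 0 && !m.testBit 1 && !m.testBit 2 && !m.testBit 3 && popc m == 8 &&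
    popc (m &&& O5m) == 2

theorem check2 : allP (fun m => !cond2 m ||
    stab5T.any (fun T => pull T O5m == O5m && pull T c2 == m)) gB 0 = true := by decide +kernel

theorem red2 (o o' : Finset GolayPt) (ho : o ∈ octads) (ho' : o' ∈ octads)
    (h2 : (o ∩ o').card = 2) :
    ∃ g ∈ M24, g • o = support₂ (dec O5m) ∧ g • o' = support₂ (dec c2) := by
  have hcard : (o \ o').card = 6 := by
    have := Finset.card_sdiff_add_card_inter o o'
    rw [card_octad ho] at this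
    omega
  obtain ⟨p0, hp0, p1, hp1, p2, hp2, p3, hp3, p4, hp4, n01, n02, n03, n04, n12, n13, n14, n23,
    n24, n34⟩ := exists_five_of_card (by omega : 5 ≤ (o \ o').card)
  rw [Finset.mem_sdiff] at hp0 hp1 hp2 hp3 hp4
  obtain ⟨g, hg, e0, e1, e2, e3, e4⟩ := exists_map_five n01 n02 n03 n04 n12 n13 n14 n23 n24 n34
  obtain ⟨m1, hm1, h8, hgo⟩ := octad_exists_mask (smul_octad_mem hg ho)
  obtain ⟨m2, hm2, h8', hgo'⟩ := octad_exists_mask (smul_octad_mem hg ho')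
  have hm1' : m1 = O5m := eq_O5m hm1 h8 (bit_true hgo (by norm_num) e0 hp0.1)
    (bit_true hgo (by norm_num) e1 hp1.1) (bit_true hgo (by norm_num) e2 hp2.1)
    (bit_true hgo (by norm_num) e3 hp3.1) (bit_true hgo (by norm_num) e4 hp4.1)
  subst hm1'
  have hint : popc (m2 &&& O5m) = 2 := by
    rw [popc_inter hgo' hgo, Finset.inter_comm, h2]
  have h := (allP_iff _ gB 0).mp check2 m2 hm2
  rw [Nat.zero_xor] at h
  have hc : cond2 m2 = true := by
    unfold cond2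
    rw [bit_false hgo' (by norm_num) e0 hp0.2, bit_false hgo' (by norm_num) e1 hp1.2,
      bit_false hgo' (by norm_num) e2 hp2.2, bit_false hgo' (by norm_num) e3 hp3.2,
      bit_false hgo' (by norm_num) e4 hp4.2, h8', hint]
    rfl
  have h' := of_imp_bool h hc
  rw [List.any_eq_true] at h'
  obtain ⟨T, hT, hTc⟩ := h'
  rw [Bool.and_eq_true, beq_iff_eq, beq_iff_eq] at hTc
  obtain ⟨s, hs, hsT⟩ := enum5.sound T hT
  refine ⟨s * g, M24.mul_mem hs.1 hg, ?_, ?_⟩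
  · rw [mul_smul, hgo]
    exact (smul_eq_iff_pull hsT O5m_lt).2 hTc.1
  · rw [mul_smul, hgo']
    exact smul_dec_of_pull hsT hTc.2

/-! ### Octads meeting in four points -/

/-- An octad meeting `O5m` in four points, among them `23, 0, 1` but not `2, 3`. -/
def c4 : ℕ := 8524371

theorem c4_lt : c4 < 2 ^ 24 := by decide

def w4_0 : List (List ℕ) :=
  [[2, 15, 6, 11, 21, 17, 20, 22, 24, 28]]

def t4_0 : List (List ℕ) :=
  [[1, 17, 2, 3, 4, 14, 6, 16, 7, 12, 20, 8, 9, 15, 5, 19, 11, 23, 13, 18, 22, 10, 21, 0]]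

def w4_1 : List (List ℕ) :=
  [[6, 14, 6, 9, 9, 18, 10, 17, 22, 22, 24]]

def t4_1 : List (List ℕ) :=
  [[1, 17, 2, 3, 4, 5, 12, 16, 18, 6, 20, 21, 9, 10, 14, 11, 19, 0, 22, 7, 13, 15, 8, 23]]

def w4_2 : List (List ℕ) :=
  [[8, 12, 19, 16, 21, 16, 22, 24]]

def t4_2 : List (List ℕ) :=
  [[0, 17, 2, 3, 9, 14, 6, 15, 21, 4, 18, 13, 12, 11, 5, 7, 16, 1, 10, 22, 20, 8, 19, 23]]

def w4_3 : List (List ℕ) :=
  [[11, 16, 21, 22, 22],
   [16, 22, 24, 28]]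

def t4_3 : List (List ℕ) :=
  [[0, 1, 5, 2, 12, 3, 4, 15, 22, 9, 13, 18, 6, 16, 14, 21, 10, 17, 20, 8, 11, 7, 19, 23],
   [0, 1, 2, 5, 4, 14, 12, 18, 10, 6, 19, 15, 9, 16, 3, 21, 22, 17, 20, 8, 7, 11, 13, 23]]

def w4_4 : List (List ℕ) :=
  [[16, 22, 24, 28]]

def t4_4 : List (List ℕ) :=
  [[0, 1, 2, 5, 4, 14, 12, 18, 10, 6, 19, 15, 9, 16, 3, 21, 22, 17, 20, 8, 7, 11, 13, 23]]


theorem card_J4 : Nat.card ↥(J O5m c4) = 1152 := by
  have hI : InvMask (J O5m c4) (O5m &&& c4) :=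
    (invA O5m c4 O5m_lt c4_lt).and (invB O5m c4 O5m_lt c4_lt)
  have hI' : InvMask (J O5m c4) (O5m &&& (16777215 ^^^ c4)) :=
    (invA O5m c4 O5m_lt c4_lt).and (invB O5m c4 O5m_lt c4_lt).compl
  have e0 := lvl O5m c4 O5m_lt c4_lt hI
    (ws := w4_0) (ts := t4_0) (by decide +kernel) (by decide +kernel) []
    (bp := 23) (by norm_num) (m := 8519683) (by decide +kernel) (by decide +kernel)
    (by decide +kernel) (by decide +kernel)
  have e1 := lvl O5m c4 O5m_lt c4_lt hI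
    (ws := w4_1) (ts := t4_1) (by decide +kernel) (by decide +kernel) [23]
    (bp := 0) (by norm_num) (m := 131075) (by decide +kernel) (by decide +kernel)
    (by decide +kernel) (by decide +kernel)
  have e2 := lvl O5m c4 O5m_lt c4_lt hI
    (ws := w4_2) (ts := t4_2) (by decide +kernel) (by decide +kernel) [0, 23]
    (bp := 1) (by norm_num) (m := 131074) (by decide +kernel) (by decide +kernel)
    (by decide +kernel) (by decide +kernel)
  have e3 := lvl O5m c4 O5m_lt c4_lt hI'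
    (ws := w4_3) (ts := t4_3) (by decide +kernel) (by decide +kernel) [1, 0, 23]
    (bp := 2) (by norm_num) (m := 16428) (by decide +kernel) (by decide +kernel)
    (by decide +kernel) (by decide +kernel)
  have e4 := lvl O5m c4 O5m_lt c4_lt hI'
    (ws := w4_4) (ts := t4_4) (by decide +kernel) (by decide +kernel) [2, 1, 0, 23]
    (bp := 3) (by norm_num) (m := 16424) (by decide +kernel) (by decide +kernel)
    (by decide +kernel) (by decide +kernel)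
  have e5 := (tdecJ O5m c4 O5m_lt c4_lt).card_fix enum5
    (List.Nodup.filter _ stab5T_nodup)
  have e6 : (stab5T.filter (PJ O5m c4)).length = 4 := by decide +kernel
  rw [← inf_fixing_nil (J O5m c4), e0, e1, e2, e3, e4, e5, e6]
  decide +kernel

def cond4 (m : ℕ) : Bool :=
  m.testBit 23 && m.testBit 0 && m.testBit 1 && !m.testBit 2 && !m.testBit 3 && popc m == 8 &&
    popc (m &&& O5m) == 4

theorem check4 : allP (fun m => !cond4 m ||
    stab5T.any (fun T => pull T O5m == O5m && pull T c4 == m)) gB 0 = true := by decide +kernel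

theorem red4 (o o' : Finset GolayPt) (ho : o ∈ octads) (ho' : o' ∈ octads)
    (h4 : (o ∩ o').card = 4) :
    ∃ g ∈ M24, g • o = support₂ (dec O5m) ∧ g • o' = support₂ (dec c4) := by
  have hcard : (o \ o').card = 4 := by
    have := Finset.card_sdiff_add_card_inter o o'
    rw [card_octad ho] at this
    omega
  obtain ⟨p0, hp0, p1, hp1, p2, hp2, n01, n02, n12⟩ :=
    Finset.two_lt_card.1 (by omega : 2 < (o ∩ o').card)
  obtain ⟨p3, hp3, p4, hp4, n34⟩ := Finset.one_lt_card.1 (by omega : 1 < (o \ o').card)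
  rw [Finset.mem_inter] at hp0 hp1 hp2
  rw [Finset.mem_sdiff] at hp3 hp4
  have ne : ∀ {p q : GolayPt}, p ∈ o' → q ∉ o' → p ≠ q := fun hp hq h => hq (h ▸ hp)
  obtain ⟨g, hg, e0, e1, e2, e3, e4⟩ := exists_map_five n01 n02 (ne hp0.2 hp3.2)
    (ne hp0.2 hp4.2) n12 (ne hp1.2 hp3.2) (ne hp1.2 hp4.2) (ne hp2.2 hp3.2) (ne hp2.2 hp4.2) n34
  obtain ⟨m1, hm1, h8, hgo⟩ := octad_exists_mask (smul_octad_mem hg ho)
  obtain ⟨m2, hm2, h8', hgo'⟩ := octad_exists_mask (smul_octad_mem hg ho')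
  have hm1' : m1 = O5m := eq_O5m hm1 h8 (bit_true hgo (by norm_num) e0 hp0.1)
    (bit_true hgo (by norm_num) e1 hp1.1) (bit_true hgo (by norm_num) e2 hp2.1)
    (bit_true hgo (by norm_num) e3 hp3.1) (bit_true hgo (by norm_num) e4 hp4.1)
  subst hm1'
  have hint : popc (m2 &&& O5m) = 4 := by
    rw [popc_inter hgo' hgo, Finset.inter_comm, h4]
  have h := (allP_iff _ gB 0).mp check4 m2 hm2
  rw [Nat.zero_xor] at h
  have hc : cond4 m2 = true := by
    unfold cond4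
    rw [bit_true hgo' (by norm_num) e0 hp0.2, bit_true hgo' (by norm_num) e1 hp1.2,
      bit_true hgo' (by norm_num) e2 hp2.2, bit_false hgo' (by norm_num) e3 hp3.2,
      bit_false hgo' (by norm_num) e4 hp4.2, h8', hint]
    rfl
  have h' := of_imp_bool h hc
  rw [List.any_eq_true] at h'
  obtain ⟨T, hT, hTc⟩ := h'
  rw [Bool.and_eq_true, beq_iff_eq, beq_iff_eq] at hTc
  obtain ⟨s, hs, hsT⟩ := enum5.sound T hT
  refine ⟨s * g, M24.mul_mem hs.1 hg, ?_, ?_⟩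
  · rw [mul_smul, hgo]
    exact (smul_eq_iff_pull hsT O5m_lt).2 hTc.1
  · rw [mul_smul, hgo']
    exact smul_dec_of_pull hsT hTc.2

/-! ### Disjoint octads -/

/-- An octad containing `23, 0, 1` but not `2`. -/
def a0 : ℕ := 8398155

theorem a0_lt : a0 < 2 ^ 24 := by decide

/-- An octad disjoint from `a0` containing `2`. -/
def b0 : ℕ := 6359604

theorem b0_lt : b0 < 2 ^ 24 := by decide

def w0_0 : List (List ℕ) :=
  [[2, 15, 12, 11, 11, 26],
   [2, 15, 6, 9, 10, 19, 19, 17, 21, 22, 22, 26, 28, 30]]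

def t0_0 : List (List ℕ) :=
  [[8, 23, 22, 6, 5, 2, 1, 19, 13, 4, 10, 21, 7, 3, 17, 20, 16, 15, 18, 14, 12, 9, 11, 0],
   [1, 3, 2, 8, 22, 16, 13, 20, 10, 5, 23, 4, 7, 6, 15, 14, 9, 19, 12, 18, 17, 21, 11, 0]]

def w0_1 : List (List ℕ) :=
  [[6, 14, 6, 8, 19, 11, 11, 21, 17, 20, 16, 22, 28, 30]]

def t0_1 : List (List ℕ) :=
  [[1, 3, 2, 8, 16, 22, 13, 19, 6, 5, 0, 4, 15, 10, 7, 17, 21, 20, 18, 12, 14, 9, 11, 23]]

def w0_2 : List (List ℕ) :=
  [[9, 19, 11, 17, 20],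
   [21, 17, 20, 16, 26, 28]]

def t0_2 : List (List ℕ) :=
  [[0, 6, 4, 8, 2, 16, 13, 20, 3, 9, 1, 22, 14, 10, 19, 12, 11, 18, 7, 15, 17, 21, 5, 23],
   [0, 1, 2, 6, 4, 21, 3, 14, 10, 11, 8, 9, 20, 13, 7, 18, 16, 19, 15, 17, 12, 5, 22, 23]]

def w0_3 : List (List ℕ) :=
  [[11, 20, 22],
   [21, 17, 20, 16, 26, 28]]

def t0_3 : List (List ℕ) :=
  [[0, 1, 5, 8, 11, 4, 10, 19, 3, 22, 6, 2, 17, 13, 15, 20, 9, 7, 14, 12, 18, 16, 21, 23],
   [0, 1, 2, 6, 4, 21, 3, 14, 10, 11, 8, 9, 20, 13, 7, 18, 16, 19, 15, 17, 12, 5, 22, 23]]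


/-- The elements of `J a0 b0` fixing `23, 0, 1, 2`. -/
def rest0 : List (List ℕ) :=
  [[0, 1, 2, 3, 4, 5, 6, 7, 8, 9, 10, 11, 12, 13, 14, 15, 16, 17, 18, 19, 20, 21, 22, 23],
   [0, 1, 2, 6, 4, 21, 3, 14, 10, 11, 8, 9, 20, 13, 7, 18, 16, 19, 15, 17, 12, 5, 22, 23],
   [0, 1, 2, 8, 4, 11, 10, 20, 3, 21, 6, 5, 14, 13, 12, 19, 16, 18, 17, 15, 7, 9, 22, 23],
   [0, 1, 2, 10, 4, 9, 8, 12, 6, 5, 3, 21, 7, 13, 20, 17, 16, 15, 19, 18, 14, 11, 22, 23]]

theorem rest0_eq : stab4T.filter (PJ a0 b0) = rest0 := by decide +kernel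

theorem card_J0 : Nat.card ↥(J a0 b0) = 10752 := by
  have hI : InvMask (J a0 b0) a0 := invA a0 b0 a0_lt b0_lt
  have hI' : InvMask (J a0 b0) b0 := invB a0 b0 a0_lt b0_lt
  have e0 := lvl a0 b0 a0_lt b0_lt hI
    (ws := w0_0) (ts := t0_0) (by decide +kernel) (by decide +kernel) []
    (bp := 23) (by norm_num) (m := 8398155) (by decide +kernel) (by decide +kernel)
    (by decide +kernel) (by decide +kernel)
  have e1 := lvl a0 b0 a0_lt b0_lt hI
    (ws := w0_1) (ts := t0_1) (by decide +kernel) (by decide +kernel) [23]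
    (bp := 0) (by norm_num) (m := 9547) (by decide +kernel) (by decide +kernel)
    (by decide +kernel) (by decide +kernel)
  have e2 := lvl a0 b0 a0_lt b0_lt hI
    (ws := w0_2) (ts := t0_2) (by decide +kernel) (by decide +kernel) [0, 23]
    (bp := 1) (by norm_num) (m := 9546) (by decide +kernel) (by decide +kernel)
    (by decide +kernel) (by decide +kernel)
  have e3 := lvl a0 b0 a0_lt b0_lt hI'
    (ws := w0_3) (ts := t0_3) (by decide +kernel) (by decide +kernel) [1, 0, 23]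
    (bp := 2) (by norm_num) (m := 6359604) (by decide +kernel) (by decide +kernel)
    (by decide +kernel) (by decide +kernel)
  have e4 := (tdecJ a0 b0 a0_lt b0_lt).card_fix enum4 (by
    rw [rest0_eq]
    decide +kernel)
  rw [rest0_eq] at e4
  rw [← inf_fixing_nil (J a0 b0), e0, e1, e2, e3, e4]
  decide +kernel

/-- Words of elements mapping `O5m` and an octad disjoint from it onto `a0` and `b0`. -/
def maps0W : List (List ℕ) :=
  [[2, 15, 6, 9, 18, 10, 10, 20, 17, 20, 16],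
   [2, 15, 6, 9, 18, 10, 10, 21, 17, 20, 22, 22],
   [2, 15, 6, 9, 18, 10, 10, 20, 17, 20, 24],
   [2, 15, 6, 9, 18, 10, 10, 21, 17, 20, 22, 26],
   [2, 15, 6, 9, 11, 18, 10, 16, 21, 16],
   [2, 15, 6, 9, 18, 10, 10, 21, 17, 20, 24],
   [2, 15, 6, 9, 18, 10, 10, 21, 17, 20, 16, 22, 24],
   [2, 15, 6, 9, 18, 10, 10, 20, 17, 20, 16, 22, 22, 30],
   [2, 15, 6, 9, 18, 10, 10, 20, 17, 20, 16, 22],
   [2, 15, 6, 9, 18, 10, 10, 21, 17, 20, 16, 24],
   [2, 15, 6, 9, 11, 18, 10, 16, 21, 16, 22, 24],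
   [2, 15, 6, 9, 18, 10, 10, 20, 17, 20, 22, 22, 26],
   [2, 15, 6, 9, 18, 10, 10, 21, 17, 20, 16, 22, 22, 26],
   [2, 15, 6, 9, 11, 18, 10, 16, 21, 16, 22, 22, 24],
   [2, 15, 6, 9, 18, 10, 10, 20, 17, 20, 22],
   [2, 15, 6, 9, 18, 10, 10, 20, 17, 20, 22, 24],
   [2, 15, 6, 9, 11, 18, 10, 16, 21, 16, 22, 22],
   [2, 15, 6, 9, 18, 10, 10, 21, 17, 20, 16, 22, 22],
   [2, 15, 6, 9, 18, 10, 10, 20, 17, 20, 22, 22],
   [2, 15, 6, 9, 11, 18, 10, 16, 21, 16, 22],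
   [2, 15, 6, 9, 18, 10, 10, 21, 17, 20, 16],
   [2, 15, 6, 9, 18, 10, 10, 20, 17, 20, 16, 22, 28],
   [2, 15, 6, 9, 18, 10, 10, 20, 17, 20, 16, 22, 22],
   [2, 15, 6, 9, 18, 10, 10, 21, 17, 20, 16, 22],
   [2, 15, 6, 9, 18, 10, 10, 21, 17, 20],
   [2, 15, 6, 9, 11, 18, 10, 16, 21, 16, 26],
   [2, 15, 6, 9, 18, 10, 10, 21, 17, 20, 22],
   [2, 15, 6, 9, 18, 10, 10, 20, 17, 20],
   [2, 15, 6, 9, 18, 10, 10, 21, 17, 20, 22, 22, 24],
   [2, 15, 6, 9, 18, 10, 10, 20, 17, 20, 16, 28]]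

/-- The tables of `maps0W`. -/
def maps0T : List (List ℕ) :=
  [[1, 3, 8, 13, 5, 10, 21, 11, 18, 16, 2, 22, 4, 20, 23, 15, 12, 6, 17, 7, 19, 14, 9, 0],
   [1, 3, 8, 10, 22, 6, 7, 11, 2, 5, 12, 16, 19, 4, 23, 9, 18, 13, 15, 14, 20, 21, 17, 0],
   [1, 3, 8, 6, 17, 13, 9, 12, 11, 19, 2, 7, 21, 22, 23, 16, 18, 10, 14, 20, 15, 5, 4, 0],
   [1, 3, 8, 10, 18, 13, 16, 2, 20, 7, 14, 5, 9, 22, 6, 21, 4, 23, 12, 15, 11, 19, 17, 0],
   [1, 3, 6, 8, 11, 23, 15, 20, 19, 5, 16, 14, 18, 2, 13, 4, 9, 10, 12, 7, 21, 17, 22, 0],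
   [1, 3, 8, 10, 4, 23, 5, 20, 11, 16, 15, 7, 21, 18, 13, 19, 22, 6, 14, 12, 2, 9, 17, 0],
   [1, 3, 8, 23, 12, 13, 19, 16, 11, 18, 4, 21, 14, 20, 10, 17, 9, 6, 7, 15, 22, 2, 5, 0],
   [1, 3, 8, 13, 2, 6, 14, 11, 9, 17, 4, 20, 5, 15, 10, 22, 16, 23, 12, 21, 18, 7, 19, 0],
   [1, 3, 8, 13, 17, 23, 21, 14, 2, 9, 20, 16, 19, 18, 6, 5, 4, 10, 15, 11, 12, 7, 22, 0],
   [1, 3, 8, 23, 15, 6, 18, 17, 7, 5, 9, 21, 11, 16, 13, 20, 2, 10, 14, 22, 12, 4, 19, 0],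
   [1, 3, 6, 8, 2, 13, 5, 21, 20, 14, 12, 15, 17, 9, 10, 18, 11, 23, 7, 16, 19, 4, 22, 0],
   [1, 3, 8, 6, 16, 10, 9, 20, 22, 7, 11, 4, 18, 2, 13, 14, 15, 23, 17, 5, 21, 12, 19, 0],
   [1, 3, 8, 23, 20, 10, 18, 22, 16, 21, 7, 19, 2, 9, 6, 14, 12, 13, 15, 4, 11, 17, 5, 0],
   [1, 3, 6, 8, 19, 10, 22, 9, 17, 5, 4, 15, 7, 18, 23, 21, 12, 13, 20, 2, 16, 11, 14, 0],
   [1, 3, 8, 6, 5, 23, 7, 14, 17, 19, 15, 4, 22, 20, 10, 2, 12, 13, 18, 21, 16, 11, 9, 0],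
   [1, 3, 8, 6, 15, 23, 4, 22, 21, 9, 5, 7, 14, 16, 10, 12, 2, 13, 11, 17, 20, 18, 19, 0],
   [1, 3, 6, 8, 4, 10, 15, 7, 2, 14, 19, 22, 9, 16, 23, 12, 21, 13, 11, 17, 18, 20, 5, 0],
   [1, 3, 8, 23, 2, 10, 21, 7, 12, 18, 22, 5, 20, 15, 6, 4, 16, 13, 9, 14, 17, 11, 19, 0],
   [1, 3, 8, 6, 18, 10, 7, 11, 15, 9, 20, 19, 16, 17, 13, 5, 22, 23, 2, 14, 12, 21, 4, 0],
   [1, 3, 6, 8, 12, 13, 15, 17, 16, 22, 2, 5, 21, 19, 10, 11, 18, 23, 4, 20, 9, 7, 14, 0],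
   [1, 3, 8, 23, 9, 6, 21, 11, 22, 19, 15, 18, 17, 12, 13, 2, 20, 10, 4, 7, 16, 14, 5, 0],
   [1, 3, 8, 13, 11, 23, 18, 4, 20, 15, 2, 12, 5, 21, 6, 19, 14, 10, 9, 17, 16, 22, 7, 0],
   [1, 3, 8, 13, 15, 6, 21, 7, 20, 22, 18, 9, 12, 2, 10, 17, 19, 23, 5, 14, 4, 11, 16, 0],
   [1, 3, 8, 23, 4, 13, 21, 14, 15, 5, 12, 19, 16, 22, 10, 9, 17, 6, 2, 11, 20, 7, 18, 0],
   [1, 3, 8, 10, 15, 23, 7, 21, 12, 17, 4, 5, 20, 2, 13, 22, 19, 6, 9, 11, 18, 14, 16, 0],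
   [1, 3, 6, 8, 18, 23, 5, 16, 9, 15, 20, 22, 11, 12, 13, 7, 19, 10, 2, 4, 17, 21, 14, 0],
   [1, 3, 8, 10, 9, 13, 7, 14, 4, 16, 2, 17, 18, 12, 6, 15, 20, 23, 22, 21, 19, 11, 5, 0],
   [1, 3, 8, 6, 2, 13, 7, 21, 20, 4, 17, 9, 12, 15, 23, 18, 16, 10, 5, 11, 22, 14, 19, 0],
   [1, 3, 8, 10, 12, 6, 16, 19, 14, 17, 22, 7, 11, 20, 23, 18, 9, 13, 21, 2, 4, 15, 5, 0],
   [1, 3, 8, 13, 7, 10, 20, 12, 2, 17, 18, 19, 15, 21, 23, 4, 11, 6, 16, 5, 22, 9, 14, 0]]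

theorem maps0_tab : maps0W.map (prodT sgsTabs) = maps0T := by decide +kernel

def cond0 (m : ℕ) : Bool := m &&& O5m == 0 && popc m == 8

theorem check0 : allP (fun m => !cond0 m ||
    maps0T.any (fun T => pull T a0 == O5m && pull T b0 == m)) gB 0 = true := by decide +kernel

theorem red0 (o o' : Finset GolayPt) (ho : o ∈ octads) (ho' : o' ∈ octads)
    (h0 : (o ∩ o').card = 0) :
    ∃ g ∈ M24, g • o = support₂ (dec a0) ∧ g • o' = support₂ (dec b0) := by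
  obtain ⟨p0, hp0, p1, hp1, p2, hp2, p3, hp3, p4, hp4, n01, n02, n03, n04, n12, n13, n14, n23,
    n24, n34⟩ := exists_five_of_card (by rw [card_octad ho]; norm_num : 5 ≤ o.card)
  obtain ⟨g, hg, e0, e1, e2, e3, e4⟩ := exists_map_five n01 n02 n03 n04 n12 n13 n14 n23 n24 n34
  obtain ⟨m1, hm1, h8, hgo⟩ := octad_exists_mask (smul_octad_mem hg ho)
  obtain ⟨m2, hm2, h8', hgo'⟩ := octad_exists_mask (smul_octad_mem hg ho')
  have hm1' : m1 = O5m := eq_O5m hm1 h8 (bit_true hgo (by norm_num) e0 hp0)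
    (bit_true hgo (by norm_num) e1 hp1) (bit_true hgo (by norm_num) e2 hp2)
    (bit_true hgo (by norm_num) e3 hp3) (bit_true hgo (by norm_num) e4 hp4)
  subst hm1'
  have hint : popc (m2 &&& O5m) = 0 := by
    rw [popc_inter hgo' hgo, Finset.inter_comm, h0]
  have hand : m2 &&& O5m = 0 :=
    eq_zero_of_popc_eq_zero (lt_of_le_of_lt Nat.and_le_right O5m_lt) hint
  have h := (allP_iff _ gB 0).mp check0 m2 hm2
  rw [Nat.zero_xor] at h
  have hc : cond0 m2 = true := by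
    unfold cond0
    rw [hand, h8']
    rfl
  have h' := of_imp_bool h hc
  rw [List.any_eq_true] at h'
  obtain ⟨T, hT, hTc⟩ := h'
  rw [Bool.and_eq_true, beq_iff_eq, beq_iff_eq] at hTc
  rw [← maps0_tab, List.mem_map] at hT
  obtain ⟨w, _, rfl⟩ := hT
  have hs := good_sgs_M24.prod w
  refine ⟨prodW sgsEnv w * g, M24.mul_mem hs.1 hg, ?_, ?_⟩
  · rw [mul_smul, hgo]
    exact smul_dec_of_pull hs.2 hTc.1
  · rw [mul_smul, hgo']
    exact smul_dec_of_pull hs.2 hTc.2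

/-- In the group of the length-24 code, the joint stabiliser of two octads has order 10752, 1152 or 720 according as the octads meet in 0, 4 or 2 points. -/
theorem result (o o' : Finset Cfsg.GolayPt) (ho : o ∈ Cfsg.octads) (ho' : o' ∈ Cfsg.octads) : ((o ∩ o').card = 0 → Nat.card ↥(MulAction.stabilizer Cfsg.M24 o ⊓ MulAction.stabilizer Cfsg.M24 o') = 10752) ∧ ((o ∩ o').card = 4 → Nat.card ↥(MulAction.stabilizer Cfsg.M24 o ⊓ MulAction.stabilizer Cfsg.M24 o') = 1152) ∧ ((o ∩ o').card = 2 → Nat.card ↥(MulAction.stabilizer Cfsg.M24 o ⊓ MulAction.stabilizer Cfsg.M24 o') = 720) := by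
  refine ⟨fun h => ?_, fun h => ?_, fun h => ?_⟩
  · obtain ⟨g, hg, e1, e2⟩ := red0 o o' ho ho' h
    rw [card_stab₂_M24, ← card_inf_stab₂_conj hg o o', e1, e2]
    exact card_J0
  · obtain ⟨g, hg, e1, e2⟩ := red4 o o' ho ho' h
    rw [card_stab₂_M24, ← card_inf_stab₂_conj hg o o', e1, e2]
    exact card_J4
  · obtain ⟨g, hg, e1, e2⟩ := red2 o o' ho ho' h
    rw [card_stab₂_M24, ← card_inf_stab₂_conj hg o o', e1, e2]
    exact card_J2

end Cfsg.Agent.S5613
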