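-- Statement S5600: the action of the group of the length-24 code on 6-element subsets.
import Cfsg.Statements.S5600
import Cfsg.Agent.S5613
import Cfsg.Agent.Lib.Helper94.M24Fix

set_option autoImplicit false
open Cfsg

namespace Cfsg.Agent.S5600

open Cfsg.Agent.Lib.Helper9 Cfsg.Agent.Lib.Helper94 Cfsg.Agent.S5613
open scoped Pointwise

/-! ### Elements fixing `23, 0, 1, 2` and swapping `3` with another point -/

def swW : List (List ℕ) :=
  [[17, 20, 16, 24, 26, 28],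
   [16, 22, 22],
   [21, 17, 20, 16, 26, 28],
   [20, 17, 20, 16, 24],
   [21, 30],
   [16, 21, 16, 26, 28],
   [16, 20, 16, 26, 28, 30],
   [20, 30],
   [21, 16, 24, 28, 30],
   [17, 21, 26],
   [20, 20, 16, 22, 22],
   [16, 21, 24, 26],
   [17, 21, 16, 22, 24],
   [17, 22],
   [20, 16, 26],
   [21, 17, 20, 24, 28],
   [16, 20, 28],
   [20, 17, 20, 24, 28],
   [17, 20, 22, 30]]

def swT : List (List ℕ) :=
  [[0, 1, 2, 4, 3, 13, 15, 10, 8, 21, 7, 11, 12, 5, 16, 6, 14, 22, 18, 20, 19, 9, 17, 23],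
   [0, 1, 2, 5, 13, 3, 7, 6, 8, 20, 15, 11, 12, 4, 17, 10, 22, 14, 18, 21, 9, 19, 16, 23],
   [0, 1, 2, 6, 4, 21, 3, 14, 10, 11, 8, 9, 20, 13, 7, 18, 16, 19, 15, 17, 12, 5, 22, 23],
   [0, 1, 2, 7, 4, 19, 14, 3, 20, 18, 12, 15, 10, 13, 6, 11, 16, 21, 9, 5, 8, 17, 22, 23],
   [0, 1, 2, 8, 21, 12, 13, 22, 3, 9, 10, 17, 5, 6, 18, 15, 19, 11, 14, 16, 20, 4, 7, 23],
   [0, 1, 2, 9, 21, 20, 22, 16, 8, 3, 14, 11, 12, 19, 10, 17, 7, 15, 18, 13, 5, 4, 6, 23],
   [0, 1, 2, 10, 7, 15, 13, 4, 8, 14, 3, 11, 12, 6, 9, 5, 21, 20, 18, 22, 17, 16, 19, 23],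
   [0, 1, 2, 11, 19, 18, 22, 13, 17, 9, 10, 3, 14, 7, 12, 15, 21, 8, 5, 4, 20, 16, 6, 23],
   [0, 1, 2, 12, 10, 11, 6, 7, 17, 13, 4, 5, 3, 9, 18, 22, 20, 8, 14, 19, 16, 21, 15, 23],
   [0, 1, 2, 13, 14, 16, 8, 11, 6, 9, 10, 7, 19, 3, 4, 15, 5, 22, 21, 12, 20, 18, 17, 23],
   [0, 1, 2, 14, 22, 17, 6, 7, 11, 20, 15, 8, 18, 16, 3, 10, 13, 5, 12, 19, 9, 21, 4, 23],
   [0, 1, 2, 15, 18, 9, 6, 7, 16, 5, 14, 13, 22, 11, 10, 3, 8, 20, 4, 19, 17, 21, 12, 23],
   [0, 1, 2, 16, 5, 4, 6, 7, 15, 18, 11, 10, 20, 14, 13, 8, 3, 22, 9, 19, 12, 21, 17, 23],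
   [0, 1, 2, 17, 4, 14, 19, 21, 18, 20, 15, 12, 11, 13, 5, 10, 16, 3, 8, 6, 9, 7, 22, 23],
   [0, 1, 2, 18, 15, 8, 6, 7, 5, 16, 22, 17, 14, 20, 12, 4, 9, 11, 3, 19, 13, 21, 10, 23],
   [0, 1, 2, 19, 11, 6, 5, 14, 16, 9, 10, 4, 13, 12, 7, 15, 8, 21, 22, 3, 20, 17, 18, 23],
   [0, 1, 2, 20, 11, 10, 6, 7, 22, 14, 5, 4, 16, 18, 9, 17, 12, 15, 13, 19, 3, 21, 8, 23],
   [0, 1, 2, 21, 8, 7, 14, 5, 4, 9, 10, 16, 22, 18, 6, 15, 11, 19, 13, 17, 20, 3, 12, 23],
   [0, 1, 2, 22, 17, 16, 9, 20, 8, 6, 19, 11, 12, 14, 13, 21, 5, 4, 18, 10, 7, 15, 3, 23]]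

theorem sw_tab : swW.map (prodT sgsTabs) = swT := by decide +kernel

theorem sw_check : ∀ q : GolayPt, q ≠ pt 23 → q ≠ pt 0 → q ≠ pt 1 → q ≠ pt 2 → q ≠ pt 3 →
    swT.any (fun T => T.getD 23 0 == 23 && T.getD 0 0 == 0 && T.getD 1 0 == 1 &&
      T.getD 2 0 == 2 && T.getD 3 0 == idx q && T.getD (idx q) 0 == 3) = true := by
  decide +kernel

theorem exists_swap (q : GolayPt) (h23 : q ≠ pt 23) (h0 : q ≠ pt 0) (h1 : q ≠ pt 1)
    (h2 : q ≠ pt 2) (h3 : q ≠ pt 3) :
    ∃ s ∈ M24, s (pt 23) = pt 23 ∧ s (pt 0) = pt 0 ∧ s (pt 1) = pt 1 ∧ s (pt 2) = pt 2 ∧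
      s (pt 3) = q ∧ s q = pt 3 := by
  have h := sw_check q h23 h0 h1 h2 h3
  rw [List.any_eq_true] at h
  obtain ⟨T, hT, hc⟩ := h
  simp only [Bool.and_eq_true, beq_iff_eq] at hc
  obtain ⟨⟨⟨⟨⟨c23, c0⟩, c1⟩, c2⟩, c3⟩, cq⟩ := hc
  rw [← sw_tab, List.mem_map] at hT
  obtain ⟨w, _, rfl⟩ := hT
  have hs := good_sgs_M24.prod w
  refine ⟨prodW sgsEnv w, hs.1, ?_, ?_, ?_, ?_, ?_, ?_⟩
  · rw [hs.2.apply_pt (by norm_num), c23]
  · rw [hs.2.apply_pt (by norm_num), c0]
  · rw [hs.2.apply_pt (by norm_num), c1]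
  · rw [hs.2.apply_pt (by norm_num), c2]
  · rw [hs.2.apply_pt (by norm_num), c3, pt_idx]
  · have := hs.2.apply_pt (idx_lt q)
    rw [pt_idx] at this
    rw [this, cq]

theorem exists_four_of_card {α : Type*} [DecidableEq α] {s : Finset α} (h : 4 ≤ s.card) :
    ∃ a ∈ s, ∃ b ∈ s, ∃ c ∈ s, ∃ d ∈ s, a ≠ b ∧ a ≠ c ∧ a ≠ d ∧ b ≠ c ∧ b ≠ d ∧ c ≠ d := by
  obtain ⟨a, ha⟩ := Finset.card_pos.1 (by omega : 0 < s.card)
  have h1 := Finset.card_erase_of_mem ha
  obtain ⟨b, hb⟩ := Finset.card_pos.1 (by omega : 0 < (s.erase a).card)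
  have h2 := Finset.card_erase_of_mem hb
  obtain ⟨c, hc⟩ := Finset.card_pos.1 (by omega : 0 < ((s.erase a).erase b).card)
  have h3 := Finset.card_erase_of_mem hc
  obtain ⟨d, hd⟩ := Finset.card_pos.1 (by omega : 0 < (((s.erase a).erase b).erase c).card)
  simp only [Finset.mem_erase] at hb hc hd
  exact ⟨a, ha, b, hb.2, c, hc.2.2, d, hd.2.2.2, hb.1.symm, hc.2.1.symm, hd.2.2.1.symm,
    hc.1.symm, hd.2.1.symm, hd.1.symm⟩

/-- Any transposition of two points of a 6-set is induced by an element of `M24` fixing the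
other four points. -/
theorem induce_swap (E : Finset GolayPt) (hE : E.card = 6) (x y : GolayPt) (hx : x ∈ E)
    (hy : y ∈ E) (hxy : x ≠ y) :
    ∃ g ∈ M24, g x = y ∧ g y = x ∧ ∀ p ∈ E, p ≠ x → p ≠ y → g p = p := by
  have hF : ((E.erase x).erase y).card = 4 := by
    rw [Finset.card_erase_of_mem (Finset.mem_erase.2 ⟨hxy.symm, hy⟩),
      Finset.card_erase_of_mem hx, hE]
  obtain ⟨z1, hz1, z2, hz2, z3, hz3, z4, hz4, n12, n13, n14, n23, n24, n34⟩ :=
    exists_four_of_card (le_of_eq hF.symm)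
  have hFeq : (E.erase x).erase y = {z1, z2, z3, z4} := by
    symm
    apply Finset.eq_of_subset_of_card_le
    · intro p hp
      simp only [Finset.mem_insert, Finset.mem_singleton] at hp
      rcases hp with rfl | rfl | rfl | rfl <;> assumption
    · rw [hF]
      rw [Finset.card_insert_of_notMem, Finset.card_insert_of_notMem,
        Finset.card_insert_of_notMem, Finset.card_singleton]
      · simp [n34]
      · simp [n23, n24]
      · simp [n12, n13, n14]
  simp only [Finset.mem_erase] at hz1 hz2 hz3 hz4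
  obtain ⟨h, hh, e1, e2, e3, e4, ex⟩ := exists_map_five n12 n13 n14 hz1.2.1 n23 n24 hz2.2.1
    n34 hz3.2.1 hz4.2.1
  have q23 : h y ≠ pt 23 := by rw [← e1]; exact fun hc => hz1.1 (h.injective hc).symm
  have q0 : h y ≠ pt 0 := by rw [← e2]; exact fun hc => hz2.1 (h.injective hc).symm
  have q1 : h y ≠ pt 1 := by rw [← e3]; exact fun hc => hz3.1 (h.injective hc).symm
  have q2 : h y ≠ pt 2 := by rw [← e4]; exact fun hc => hz4.1 (h.injective hc).symm
  have q3 : h y ≠ pt 3 := by rw [← ex]; exact fun hc => hxy (h.injective hc).symm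
  obtain ⟨s, hs, s23, s0, s1, s2, s3, sq⟩ := exists_swap (h y) q23 q0 q1 q2 q3
  refine ⟨h⁻¹ * s * h, M24.mul_mem (M24.mul_mem (M24.inv_mem hh) hs) hh, ?_, ?_, ?_⟩
  · rw [Equiv.Perm.mul_apply, Equiv.Perm.mul_apply, ex, s3, inv_app']
  · rw [Equiv.Perm.mul_apply, Equiv.Perm.mul_apply, sq, ← ex, inv_app']
  · intro p hp hpx hpy
    have hpF : p ∈ (E.erase x).erase y := Finset.mem_erase.2 ⟨hpy, Finset.mem_erase.2 ⟨hpx, hp⟩⟩
    rw [hFeq] at hpF
    simp only [Finset.mem_insert, Finset.mem_singleton] at hpF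
    rcases hpF with rfl | rfl | rfl | rfl
    · rw [Equiv.Perm.mul_apply, Equiv.Perm.mul_apply, e1, s23, ← e1, inv_app']
    · rw [Equiv.Perm.mul_apply, Equiv.Perm.mul_apply, e2, s0, ← e2, inv_app']
    · rw [Equiv.Perm.mul_apply, Equiv.Perm.mul_apply, e3, s1, ← e3, inv_app']
    · rw [Equiv.Perm.mul_apply, Equiv.Perm.mul_apply, e4, s2, ← e4, inv_app']

/-- Every permutation of a 6-set is induced by an element of `M24`. -/
theorem part1 (E : Finset GolayPt) (hE : E.card = 6) :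
    ∀ σ : Equiv.Perm ↥E, ∃ g ∈ M24, ∀ p : ↥E, g p = σ p := by
  let R : Subgroup (Equiv.Perm ↥E) :=
    { carrier := {τ | ∃ g ∈ M24, ∀ p : ↥E, g (p : GolayPt) = τ p}
      one_mem' := ⟨1, M24.one_mem, fun _ => rfl⟩
      mul_mem' := by
        rintro τ1 τ2 ⟨g1, h1, e1⟩ ⟨g2, h2, e2⟩
        refine ⟨g1 * g2, M24.mul_mem h1 h2, fun p => ?_⟩
        rw [Equiv.Perm.mul_apply, e2 p, e1 (τ2 p)]
        rfl
      inv_mem' := by
        rintro τ ⟨g, h, e⟩
        refine ⟨g⁻¹, M24.inv_mem h, fun p => ?_⟩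
        rw [Equiv.Perm.inv_eq_iff_eq, e (τ⁻¹ p)]
        simp }
  have hR : R = ⊤ := by
    rw [eq_top_iff, ← Equiv.Perm.closure_isSwap, Subgroup.closure_le]
    rintro τ ⟨x, y, hxy, rfl⟩
    obtain ⟨g, hg, gx, gy, gz⟩ := induce_swap E hE x y x.2 y.2 (fun h => hxy (Subtype.ext h))
    refine ⟨g, hg, fun p => ?_⟩
    by_cases hpx : p = x
    · subst hpx
      rw [Equiv.swap_apply_left]
      exact gx
    · by_cases hpy : p = y
      · subst hpy
        rw [Equiv.swap_apply_right]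
        exact gy
      · rw [Equiv.swap_apply_of_ne_of_ne hpx hpy]
        exact gz p p.2 (fun h => hpx (Subtype.ext h)) (fun h => hpy (Subtype.ext h))
  intro σ
  have : σ ∈ R := by rw [hR]; exact Subgroup.mem_top σ
  exact this

/-! ### Pointwise stabilisers -/

theorem count_check : ∀ q : GolayPt, q ≠ pt 23 → q ≠ pt 0 → q ≠ pt 1 → q ≠ pt 2 → q ≠ pt 3 →
    (stab5T.filter (fun T => true && T.getD (idx q) 0 == idx q)).length =
      if O5m.testBit (idx q) then 16 else 3 := by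
  decide +kernel

theorem O5m_bits : O5m.testBit 23 = true ∧ O5m.testBit 0 = true ∧ O5m.testBit 1 = true ∧
    O5m.testBit 2 = true ∧ O5m.testBit 3 = true := by decide +kernel

theorem O5m_mem : O5m ∈ sums gB := mem_sums_of_inCode (by decide +kernel)

theorem O5m_popc : popc O5m = 8 := by decide +kernel

theorem fix_card (E : Finset GolayPt) (hE : E.card = 6) :
    ∃ q : GolayPt, Nat.card {g : Equiv.Perm GolayPt // g ∈ M24 ∧ ∀ p ∈ E, g p = p} =
        (if O5m.testBit (idx q) then 16 else 3) ∧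
      ((∃ o ∈ octads, E ⊆ o) ↔ O5m.testBit (idx q) = true) := by
  obtain ⟨p0, hp0, p1, hp1, p2, hp2, p3, hp3, p4, hp4, n01, n02, n03, n04, n12, n13, n14, n23,
    n24, n34⟩ := exists_five_of_card (by rw [hE]; norm_num : 5 ≤ E.card)
  have hF : (((((E.erase p0).erase p1).erase p2).erase p3).erase p4).card = 1 := by
    rw [Finset.card_erase_of_mem, Finset.card_erase_of_mem, Finset.card_erase_of_mem,
      Finset.card_erase_of_mem, Finset.card_erase_of_mem hp0, hE]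
    · simp [hp1, n01.symm]
    · simp [hp2, n02.symm, n12.symm]
    · simp [hp3, n03.symm, n13.symm, n23.symm]
    · simp [hp4, n04.symm, n14.symm, n24.symm, n34.symm]
  obtain ⟨p5, hF5⟩ := Finset.card_eq_one.1 hF
  have hp5 : p5 ∈ ((((E.erase p0).erase p1).erase p2).erase p3).erase p4 := by
    rw [hF5]; exact Finset.mem_singleton_self p5
  simp only [Finset.mem_erase] at hp5
  obtain ⟨n54, n53, n52, n51, n50, hp5E⟩ := hp5
  have hall : ∀ p ∈ E, p = p0 ∨ p = p1 ∨ p = p2 ∨ p = p3 ∨ p = p4 ∨ p = p5 := by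
    intro p hp
    by_contra hcon
    push Not at hcon
    have : p ∈ ((((E.erase p0).erase p1).erase p2).erase p3).erase p4 := by
      simp only [Finset.mem_erase]
      exact ⟨hcon.2.2.2.2.1, hcon.2.2.2.1, hcon.2.2.1, hcon.2.1, hcon.1, hp⟩
    rw [hF5, Finset.mem_singleton] at this
    exact hcon.2.2.2.2.2 this
  obtain ⟨g, hg, e0, e1, e2, e3, e4⟩ := exists_map_five n01 n02 n03 n04 n12 n13 n14 n23 n24 n34
  have q23 : g p5 ≠ pt 23 := by rw [← e0]; exact fun hc => n50 (g.injective hc)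
  have q0 : g p5 ≠ pt 0 := by rw [← e1]; exact fun hc => n51 (g.injective hc)
  have q1 : g p5 ≠ pt 1 := by rw [← e2]; exact fun hc => n52 (g.injective hc)
  have q2 : g p5 ≠ pt 2 := by rw [← e3]; exact fun hc => n53 (g.injective hc)
  have q3 : g p5 ≠ pt 3 := by rw [← e4]; exact fun hc => n54 (g.injective hc)
  refine ⟨g p5, ?_, ?_⟩
  · rw [← count_check (g p5) q23 q0 q1 q2 q3,
      ← (tdec_M24.inf_fix (idx_lt (g p5))).card_fix enum5 (List.Nodup.filter _ stab5T_nodup)]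
    let f : {σ : Equiv.Perm GolayPt // σ ∈ M24 ∧ ∀ p ∈ E, σ p = p} →
        ↥((M24 ⊓ fixing [idx (g p5)]) ⊓ fixing [3, 2, 1, 0, 23]) := fun σ =>
      ⟨g * σ.1 * g⁻¹, by
        have hfix : ∀ p ∈ E, (g * σ.1 * g⁻¹) (g p) = g p := by
          intro p hp
          rw [Equiv.Perm.mul_apply, Equiv.Perm.mul_apply, inv_app', σ.2.2 p hp]
        refine ⟨⟨M24.mul_mem (M24.mul_mem hg σ.2.1) (M24.inv_mem hg), ?_⟩, ?_⟩
        · intro i hi
          rw [List.mem_singleton] at hi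
          subst hi
          rw [pt_idx]
          exact hfix p5 hp5E
        · intro i hi
          simp only [List.mem_cons, List.not_mem_nil, or_false] at hi
          rcases hi with rfl | rfl | rfl | rfl | rfl
          · rw [← e4]; exact hfix p4 hp4
          · rw [← e3]; exact hfix p3 hp3
          · rw [← e2]; exact hfix p2 hp2
          · rw [← e1]; exact hfix p1 hp1
          · rw [← e0]; exact hfix p0 hp0⟩
    have hf : Function.Bijective f := by
      constructor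
      · intro σ τ hστ
        have h1 : g * σ.1 * g⁻¹ = g * τ.1 * g⁻¹ := congrArg Subtype.val hστ
        apply Subtype.ext
        exact mul_left_cancel (mul_right_cancel h1)
      · rintro ⟨τ, ⟨⟨hτ, hτq⟩, hτ5⟩⟩
        have hq : τ (g p5) = g p5 := by
          have := hτq (idx (g p5)) List.mem_cons_self
          rwa [pt_idx] at this
        refine ⟨⟨g⁻¹ * τ * g, M24.mul_mem (M24.mul_mem (M24.inv_mem hg) hτ) hg, ?_⟩, ?_⟩
        · intro p hp
          rw [Equiv.Perm.mul_apply, Equiv.Perm.mul_apply]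
          rcases hall p hp with rfl | rfl | rfl | rfl | rfl | rfl
          · rw [e0, hτ5 23 (by simp), ← e0, inv_app']
          · rw [e1, hτ5 0 (by simp), ← e1, inv_app']
          · rw [e2, hτ5 1 (by simp), ← e2, inv_app']
          · rw [e3, hτ5 2 (by simp), ← e3, inv_app']
          · rw [e4, hτ5 3 (by simp), ← e4, inv_app']
          · rw [hq, inv_app']
        · apply Subtype.ext
          show g * (g⁻¹ * τ * g) * g⁻¹ = τ
          group
    exact Nat.card_congr (Equiv.ofBijective f hf)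
  · constructor
    · rintro ⟨o, ho, hEo⟩
      obtain ⟨m, hm, h8, hgo⟩ := octad_exists_mask (smul_octad_mem hg ho)
      have hm' : m = O5m := eq_O5m hm h8 (bit_true hgo (by norm_num) e0 (hEo hp0))
        (bit_true hgo (by norm_num) e1 (hEo hp1)) (bit_true hgo (by norm_num) e2 (hEo hp2))
        (bit_true hgo (by norm_num) e3 (hEo hp3)) (bit_true hgo (by norm_num) e4 (hEo hp4))
      subst hm'
      rw [← mem_dec_iff, ← hgo, ← Equiv.Perm.smul_def, Finset.smul_mem_smul_finset_iff]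
      exact hEo hp5E
    · intro hq
      have hoct : support₂ (dec O5m) ∈ octads :=
        (mem_octads_iff _).mpr ⟨O5m, O5m_mem, O5m_popc, rfl⟩
      refine ⟨g⁻¹ • support₂ (dec O5m), smul_octad_mem (M24.inv_mem hg) hoct, ?_⟩
      intro p hp
      rw [Finset.mem_inv_smul_finset_iff, Equiv.Perm.smul_def]
      obtain ⟨b23, b0, b1, b2, b3⟩ := O5m_bits
      rcases hall p hp with rfl | rfl | rfl | rfl | rfl | rfl
      · rw [e0, mem_dec_pt _ (by norm_num)]; exact b23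
      · rw [e1, mem_dec_pt _ (by norm_num)]; exact b0
      · rw [e2, mem_dec_pt _ (by norm_num)]; exact b1
      · rw [e3, mem_dec_pt _ (by norm_num)]; exact b2
      · rw [e4, mem_dec_pt _ (by norm_num)]; exact b3
      · rw [mem_dec_iff]; exact hq

/-! ### The setwise stabiliser -/

theorem card_setwise (E : Finset GolayPt) (hE : E.card = 6) :
    Nat.card ↥(MulAction.stabilizer M24 E) =
      720 * Nat.card {g : Equiv.Perm GolayPt // g ∈ M24 ∧ ∀ p ∈ E, g p = p} := by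
  have hstab : ∀ x : ↥(MulAction.stabilizer M24 E),
      ((x : ↥M24) : Equiv.Perm GolayPt) • E = E := fun x => MulAction.mem_stabilizer_iff.1 x.2
  let φ : ↥(MulAction.stabilizer M24 E) →* Equiv.Perm {p : GolayPt // p ∈ E} :=
    { toFun := fun x => Equiv.Perm.subtypePerm ((x : ↥M24) : Equiv.Perm GolayPt)
        (fun p => mem_iff_of_smul_eq (hstab x) p)
      map_one' := by
        ext p
        rfl
      map_mul' := by
        intro x y
        ext p
        rfl }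
  have hsurj : Function.Surjective φ := by
    intro τ
    obtain ⟨g, hg, hgτ⟩ := part1 E hE τ
    have hgE : g • E = E := smul_eq_of_maps (fun p hp => by
      rw [hgτ ⟨p, hp⟩]
      exact (τ ⟨p, hp⟩).2)
    refine ⟨⟨⟨g, hg⟩, MulAction.mem_stabilizer_iff.2 hgE⟩, ?_⟩
    apply Equiv.ext
    intro p
    apply Subtype.ext
    exact hgτ p
  have h1 := Subgroup.card_eq_card_quotient_mul_card_subgroup φ.ker
  rw [Nat.card_congr (QuotientGroup.quotientKerEquivOfSurjective φ hsurj).toEquiv,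
    Nat.card_perm] at h1
  have h6 : Nat.card {p : GolayPt // p ∈ E} = 6 := by
    rw [Nat.card_eq_fintype_card, Fintype.card_coe, hE]
  rw [h6] at h1
  rw [h1]
  congr 1
  let f : ↥φ.ker → {g : Equiv.Perm GolayPt // g ∈ M24 ∧ ∀ p ∈ E, g p = p} := fun k =>
    ⟨(((k : ↥(MulAction.stabilizer M24 E)) : ↥M24) : Equiv.Perm GolayPt),
      ((k : ↥(MulAction.stabilizer M24 E)) : ↥M24).2, fun p hp => by
        have hk : φ (k : ↥(MulAction.stabilizer M24 E)) = 1 := MonoidHom.mem_ker.1 k.2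
        have := congrArg (fun f : Equiv.Perm {p : GolayPt // p ∈ E} => (f ⟨p, hp⟩ : GolayPt)) hk
        exact this⟩
  have hf : Function.Bijective f := by
    constructor
    · intro k k' hkk
      apply Subtype.ext
      apply Subtype.ext
      apply Subtype.ext
      have h1 : (f k).1 = (f k').1 := congrArg Subtype.val hkk
      exact h1
    · rintro ⟨g, hg, hfix⟩
      refine ⟨⟨⟨⟨g, hg⟩, MulAction.mem_stabilizer_iff.2 (smul_eq_of_fix hfix)⟩, ?_⟩, rfl⟩
      rw [MonoidHom.mem_ker]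
      apply Equiv.ext
      intro p
      apply Subtype.ext
      exact hfix p p.2
  exact Nat.card_congr (Equiv.ofBijective f hf)

/-- Although the group of the length-24 code is only 5-transitive on the 24 points, it induces the full symmetric group on every 6-element subset: every permutation of a 6-set E is the restriction of an element of the group mapping E to itself. The pointwise stabiliser of E has order 16 when E lies in an octad and order 3 otherwise; in the latter case the setwise stabiliser of E has order 2160. -/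
theorem result (E : Finset Cfsg.GolayPt) (hE : E.card = 6) : (∀ σ : Equiv.Perm ↥E, ∃ g ∈ Cfsg.M24, ∀ p : ↥E, g p = σ p) ∧ ((∃ o ∈ Cfsg.octads, E ⊆ o) → Nat.card {g : Equiv.Perm Cfsg.GolayPt // g ∈ Cfsg.M24 ∧ ∀ p ∈ E, g p = p} = 16) ∧ ((¬ ∃ o ∈ Cfsg.octads, E ⊆ o) → Nat.card {g : Equiv.Perm Cfsg.GolayPt // g ∈ Cfsg.M24 ∧ ∀ p ∈ E, g p = p} = 3 ∧ Nat.card ↥(MulAction.stabilizer Cfsg.M24 E) = 2160) := by
  obtain ⟨q, hq, hiff⟩ := fix_card E hE
  refine ⟨part1 E hE, fun h => ?_, fun h => ?_⟩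
  · rw [hq, if_pos (hiff.1 h)]
  · have h3 : Nat.card {g : Equiv.Perm GolayPt // g ∈ M24 ∧ ∀ p ∈ E, g p = p} = 3 := by
      rw [hq, if_neg (fun hc => h (hiff.2 hc))]
    refine ⟨h3, ?_⟩
    rw [card_setwise E hE, h3]

end Cfsg.Agent.S5600
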