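import Cfsg.Statements.S3967
import Cfsg.Agent.Lib.Helper70.SchurPres
import Cfsg.Agent.Lib.Helper70.SchurSylow

set_option autoImplicit false
open Cfsg

namespace Cfsg.Agent.S3967

open Cfsg.Agent.Lib.Helper70

/-! ### Calculus in a group with central relator values -/

section Calc

variable {E : Type*} [Group E] (A B z₃ : E) (r : ℕ)

theorem conj_pow_eq (hz₃ : z₃ ∈ Subgroup.center E) (h : B * A * B⁻¹ = z₃ * A ^ r) (k : ℕ) :
    B * A ^ k * B⁻¹ = z₃ ^ k * A ^ (r * k) := by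
  have hc : ∀ x : E, x * z₃ = z₃ * x := fun x => Subgroup.mem_center_iff.mp hz₃ x
  induction k with
  | zero => simp
  | succ k ih =>
    calc B * A ^ (k + 1) * B⁻¹ = (B * A ^ k * B⁻¹) * (B * A * B⁻¹) := by rw [pow_succ]; group
      _ = z₃ ^ k * A ^ (r * k) * (z₃ * A ^ r) := by rw [ih, h]
      _ = z₃ ^ k * (A ^ (r * k) * z₃) * A ^ r := by group
      _ = z₃ ^ k * (z₃ * A ^ (r * k)) * A ^ r := by rw [hc]
      _ = z₃ ^ (k + 1) * A ^ (r * (k + 1)) := by
        rw [pow_succ, mul_add, mul_one, pow_add]; group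

theorem conj_iter_eq (hz₃ : z₃ ∈ Subgroup.center E) (h : B * A * B⁻¹ = z₃ * A ^ r) (k : ℕ) :
    B ^ k * A * (B ^ k)⁻¹ = z₃ ^ (∑ i ∈ Finset.range k, r ^ i) * A ^ (r ^ k) := by
  have hc : ∀ x : E, x * z₃ = z₃ * x := fun x => Subgroup.mem_center_iff.mp hz₃ x
  have hcp : ∀ (j : ℕ) (x : E), x * z₃ ^ j = z₃ ^ j * x := fun j x =>
    Subgroup.mem_center_iff.mp (Subgroup.pow_mem _ hz₃ j) x
  induction k with
  | zero => simp
  | succ k ih =>
    calc B ^ (k + 1) * A * (B ^ (k + 1))⁻¹ = B * (B ^ k * A * (B ^ k)⁻¹) * B⁻¹ := by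
          rw [pow_succ']; group
      _ = B * (z₃ ^ (∑ i ∈ Finset.range k, r ^ i) * A ^ (r ^ k)) * B⁻¹ := by rw [ih]
      _ = (B * z₃ ^ (∑ i ∈ Finset.range k, r ^ i)) * A ^ (r ^ k) * B⁻¹ := by group
      _ = z₃ ^ (∑ i ∈ Finset.range k, r ^ i) * (B * A ^ (r ^ k) * B⁻¹) := by rw [hcp]; group
      _ = z₃ ^ (∑ i ∈ Finset.range k, r ^ i) * (z₃ ^ (r ^ k) * A ^ (r * r ^ k)) := by
          rw [conj_pow_eq A B z₃ r hz₃ h]
      _ = z₃ ^ (∑ i ∈ Finset.range (k + 1), r ^ i) * A ^ (r ^ (k + 1)) := by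
          rw [Finset.sum_range_succ, pow_add z₃, pow_succ' r k]; group

theorem rel1 (m : ℕ) (hr : 0 < r) (h1 : A ^ m ∈ Subgroup.center E)
    (h3 : B * A * B⁻¹ * (A ^ r)⁻¹ ∈ Subgroup.center E) :
    (B * A * B⁻¹ * (A ^ r)⁻¹) ^ m * (A ^ m) ^ (r - 1) = 1 := by
  have h : B * A * B⁻¹ = (B * A * B⁻¹ * (A ^ r)⁻¹) * A ^ r := by group
  have h2 := conj_pow_eq A B _ r h3 h m
  have h4 : B * A ^ m * B⁻¹ = A ^ m := by
    rw [Subgroup.mem_center_iff.mp h1 B]; group
  rw [h4] at h2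
  have h5 : A ^ (r * m) = (A ^ m) ^ (r - 1) * A ^ m := by
    rw [← pow_mul, ← pow_add]
    congr 1
    obtain ⟨r', rfl⟩ : ∃ r', r = r' + 1 := ⟨r - 1, by omega⟩
    simp only [Nat.add_sub_cancel]
    ring
  rw [h5, ← mul_assoc] at h2
  exact (mul_eq_right.mp h2.symm)

theorem rel2 (n t : ℕ) (hr : 0 < r) (h2 : B ^ n * (A ^ t)⁻¹ ∈ Subgroup.center E)
    (h3 : B * A * B⁻¹ * (A ^ r)⁻¹ ∈ Subgroup.center E) :
    (B * A * B⁻¹ * (A ^ r)⁻¹) ^ t * A ^ (t * (r - 1)) = 1 := by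
  have h : B * A * B⁻¹ = (B * A * B⁻¹ * (A ^ r)⁻¹) * A ^ r := by group
  have h4 := conj_pow_eq A B _ r h3 h t
  have hB : B ^ n = (B ^ n * (A ^ t)⁻¹) * A ^ t := by group
  have h5 : B * B ^ n * B⁻¹ = B ^ n := by
    rw [← pow_succ', pow_succ]; group
  have h6 : B * ((B ^ n * (A ^ t)⁻¹) * A ^ t) * B⁻¹ =
      (B ^ n * (A ^ t)⁻¹) * (B * A ^ t * B⁻¹) := by
    rw [← mul_assoc, Subgroup.mem_center_iff.mp h2 B]; group
  rw [← hB, h5, h4] at h6
  have h7 : A ^ t = (B * A * B⁻¹ * (A ^ r)⁻¹) ^ t * A ^ (r * t) := by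
    have : (B ^ n * (A ^ t)⁻¹) * A ^ t = (B ^ n * (A ^ t)⁻¹) *
        ((B * A * B⁻¹ * (A ^ r)⁻¹) ^ t * A ^ (r * t)) := by
      rw [← hB]; exact h6
    exact mul_left_cancel this
  have h8 : A ^ (r * t) = A ^ (t * (r - 1)) * A ^ t := by
    rw [← pow_add]
    congr 1
    obtain ⟨r', rfl⟩ : ∃ r', r = r' + 1 := ⟨r - 1, by omega⟩
    simp only [Nat.add_sub_cancel]
    ring
  rw [h8, ← mul_assoc] at h7
  exact (mul_eq_right.mp h7.symm)

theorem rel3 (n t : ℕ) (hr : 0 < r) (h2 : B ^ n * (A ^ t)⁻¹ ∈ Subgroup.center E)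
    (h3 : B * A * B⁻¹ * (A ^ r)⁻¹ ∈ Subgroup.center E) :
    (B * A * B⁻¹ * (A ^ r)⁻¹) ^ (∑ i ∈ Finset.range n, r ^ i) * A ^ (r ^ n - 1) = 1 := by
  have h : B * A * B⁻¹ = (B * A * B⁻¹ * (A ^ r)⁻¹) * A ^ r := by group
  have h4 := conj_iter_eq A B _ r h3 h n
  have hB : B ^ n = (B ^ n * (A ^ t)⁻¹) * A ^ t := by group
  have h5 : B ^ n * A * (B ^ n)⁻¹ = A := by
    have hc : (B ^ n * (A ^ t)⁻¹) * A = A * (B ^ n * (A ^ t)⁻¹) :=
      (Subgroup.mem_center_iff.mp h2 A).symm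
    have hcomm : B ^ n * A = A * B ^ n := by
      calc B ^ n * A = (B ^ n * (A ^ t)⁻¹) * A * A ^ t := by
            rw [mul_assoc (B ^ n * (A ^ t)⁻¹), ← pow_succ', pow_succ]; group
        _ = A * (B ^ n * (A ^ t)⁻¹) * A ^ t := by rw [hc]
        _ = A * B ^ n := by group
    rw [hcomm]; group
  rw [h5] at h4
  have h8 : A ^ (r ^ n) = A ^ (r ^ n - 1) * A := by
    rw [← pow_succ]
    congr 1
    have : 0 < r ^ n := pow_pos hr n
    omega
  rw [h8, ← mul_assoc] at h4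
  exact (mul_eq_right.mp h4.symm)

end Calc

/-! ### Arithmetic -/

section Arith

variable (m n r l : ℕ)

theorem geom_mul (r n : ℕ) (hr : 0 < r) : (r - 1) * (∑ i ∈ Finset.range n, r ^ i) = r ^ n - 1 := by
  obtain ⟨r', rfl⟩ : ∃ r', r = r' + 1 := ⟨r - 1, by omega⟩
  simp only [Nat.add_sub_cancel]
  induction n with
  | zero => simp
  | succ k ih =>
    rw [Finset.sum_range_succ, mul_add, ih]
    have h1 : 1 ≤ (r' + 1) ^ k := Nat.one_le_pow _ _ (by omega)
    have h2 : (r' + 1) ^ (k + 1) = (r' + 1) ^ k * r' + (r' + 1) ^ k := by ring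
    rw [h2]
    have h3 : r' * (r' + 1) ^ k = (r' + 1) ^ k * r' := by ring
    omega

/-- The arithmetic data: `d = gcd(m, r-1)`, `m = d m'`, `r - 1 = d ρ`, `m' ∣ s`. -/
theorem arith (hm : 0 < m) (hr : 0 < r) (hrn : r ^ n ≡ 1 [MOD m]) :
    ∃ d m' ρ σ : ℕ, d = Nat.gcd m (r - 1) ∧ 0 < d ∧ 0 < m' ∧ m = d * m' ∧ r - 1 = d * ρ ∧
      Nat.Coprime m' ρ ∧ (∑ i ∈ Finset.range n, r ^ i) = m' * σ ∧ r ^ n - 1 = m * (ρ * σ) ∧
      m * l / Nat.gcd m (r - 1) = m' * l ∧
      Nat.gcd m (r - 1) * Nat.gcd m (∑ i ∈ Finset.range n, r ^ i) / m = Nat.gcd d σ := by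
  have hd0 : 0 < Nat.gcd m (r - 1) := Nat.gcd_pos_of_pos_left _ hm
  have hcop0 := Nat.coprime_div_gcd_div_gcd hd0 (m := m) (n := r - 1)
  obtain ⟨m', hm'⟩ := Nat.gcd_dvd_left m (r - 1)
  obtain ⟨ρ, hρ⟩ := Nat.gcd_dvd_right m (r - 1)
  obtain ⟨d, hd⟩ : ∃ d, d = Nat.gcd m (r - 1) := ⟨_, rfl⟩
  rw [← hd] at hd0 hcop0 hm' hρ ⊢
  have hm'pos : 0 < m' := by
    rcases Nat.eq_zero_or_pos m' with h | h
    · rw [h, mul_zero] at hm'; omega
    · exact h
  have hcop : Nat.Coprime m' ρ := by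
    have h2 : m / d = m' := by
      rw [hm']; exact Nat.mul_div_cancel_left _ hd0
    have h3 : (r - 1) / d = ρ := by
      rw [hρ]; exact Nat.mul_div_cancel_left _ hd0
    rwa [h2, h3] at hcop0
  have hdvd : m ∣ r ^ n - 1 := (Nat.modEq_iff_dvd' (Nat.one_le_pow _ _ hr)).mp hrn.symm
  have hgeo := geom_mul r n hr
  have hms : m' ∣ ∑ i ∈ Finset.range n, r ^ i := by
    rw [← hgeo, hm', hρ, mul_assoc] at hdvd
    have h1 : m' ∣ ρ * ∑ i ∈ Finset.range n, r ^ i := Nat.dvd_of_mul_dvd_mul_left hd0 hdvd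
    exact hcop.dvd_of_dvd_mul_left h1
  obtain ⟨σ, hσ⟩ := hms
  refine ⟨d, m', ρ, σ, rfl, hd0, hm'pos, hm', hρ, hcop, hσ, ?_, ?_, ?_⟩
  · rw [← hgeo, hσ, hρ, hm']
    ring
  · rw [hm', mul_assoc]
    exact Nat.mul_div_cancel_left _ hd0
  · rw [hσ]
    have h1 : Nat.gcd m (m' * σ) = m' * Nat.gcd d σ := by
      rw [hm', mul_comm d m', Nat.gcd_mul_left]
    rw [h1]
    have h2 : d * (m' * Nat.gcd d σ) = m * Nat.gcd d σ := by
      rw [hm']; ring
    rw [h2]
    exact Nat.mul_div_cancel_left _ hm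

end Arith

/-! ### The presentation -/

section Pres

/-- The relators of the metacyclic presentation. -/
abbrev rels (m n r t : ℕ) : Set (FreeGroup Bool) :=
  {FreeGroup.of true ^ m, (FreeGroup.of false) ^ n * (FreeGroup.of true ^ t)⁻¹,
    FreeGroup.of false * FreeGroup.of true * (FreeGroup.of false)⁻¹ * (FreeGroup.of true ^ r)⁻¹}

variable (m n r t : ℕ)

theorem pres_rel1 : (PresentedGroup.of true : PresentedGroup (rels m n r t)) ^ m = 1 := by
  have h := PresentedGroup.one_of_mem (rels := rels m n r t) (x := FreeGroup.of true ^ m)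
    (by simp [rels])
  rwa [map_pow] at h

theorem pres_rel2 : (PresentedGroup.of false : PresentedGroup (rels m n r t)) ^ n =
    (PresentedGroup.of true : PresentedGroup (rels m n r t)) ^ t := by
  have h := PresentedGroup.one_of_mem (rels := rels m n r t)
    (x := (FreeGroup.of false) ^ n * (FreeGroup.of true ^ t)⁻¹) (by simp [rels])
  rw [map_mul, map_inv, map_pow, map_pow] at h
  exact mul_inv_eq_one.mp h

theorem pres_rel3 : (PresentedGroup.of false : PresentedGroup (rels m n r t)) *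
    PresentedGroup.of true * (PresentedGroup.of false)⁻¹ =
    (PresentedGroup.of true : PresentedGroup (rels m n r t)) ^ r := by
  have h := PresentedGroup.one_of_mem (rels := rels m n r t)
    (x := FreeGroup.of false * FreeGroup.of true * (FreeGroup.of false)⁻¹ * (FreeGroup.of true ^ r)⁻¹)
    (by simp [rels])
  rw [map_mul, map_inv, map_pow, map_mul, map_mul, map_inv] at h
  exact mul_inv_eq_one.mp h

theorem finite_pres (hm : 0 < m) (hn : 0 < n) : Finite (PresentedGroup (rels m n r t)) := by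
  let α : PresentedGroup (rels m n r t) := PresentedGroup.of true
  let β : PresentedGroup (rels m n r t) := PresentedGroup.of false
  have h1 : α ^ m = 1 := pres_rel1 m n r t
  have h2 : β ^ n = α ^ t := pres_rel2 m n r t
  have h3 : β * α * β⁻¹ = α ^ r := pres_rel3 m n r t
  let H : Subgroup (PresentedGroup (rels m n r t)) := Subgroup.zpowers α
  have hfo : IsOfFinOrder α := isOfFinOrder_iff_pow_eq_one.mpr ⟨m, hm, h1⟩
  have hHfin : Finite H := by
    have := (finite_zpowers (a := α)).mpr hfo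
    exact this.to_subtype
  -- conjugation by β maps H into H
  have hβ : ∀ h ∈ H, β * h * β⁻¹ ∈ H := by
    rintro _ ⟨k, rfl⟩
    have : β * α ^ k * β⁻¹ = (β * α * β⁻¹) ^ k := by
      rw [← MulAut.conj_apply, map_zpow, MulAut.conj_apply]
    rw [this, h3]
    exact Subgroup.zpow_mem _ (Subgroup.pow_mem _ (Subgroup.mem_zpowers α) r) k
  have hβj : ∀ (j : ℕ), ∀ h ∈ H, β ^ j * h * (β ^ j)⁻¹ ∈ H := by
    intro j
    induction j with
    | zero => intro h hh; simpa using hh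
    | succ j ih =>
      intro h hh
      have : β ^ (j + 1) * h * (β ^ (j + 1))⁻¹ = β * (β ^ j * h * (β ^ j)⁻¹) * β⁻¹ := by
        rw [pow_succ']; group
      rw [this]
      exact hβ _ (ih h hh)
  have hβ' : ∀ h ∈ H, β⁻¹ * h * β ∈ H := by
    intro h hh
    obtain ⟨n', rfl⟩ : ∃ n', n = n' + 1 := ⟨n - 1, by omega⟩
    have hcomm : (α ^ t)⁻¹ * h * α ^ t = h := by
      obtain ⟨k, rfl⟩ := hh
      rw [← zpow_natCast α t, ← zpow_neg, ← zpow_add, ← zpow_add]
      congr 1; ring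
    have : β⁻¹ * h * β = β ^ n' * h * (β ^ n')⁻¹ := by
      have hb : β⁻¹ = β ^ n' * (α ^ t)⁻¹ := by
        rw [← h2, pow_succ]; group
      have hb2 : β = α ^ t * (β ^ n')⁻¹ := by
        rw [← h2, pow_succ']; group
      calc β⁻¹ * h * β = (β ^ n' * (α ^ t)⁻¹) * h * (α ^ t * (β ^ n')⁻¹) := by rw [← hb, ← hb2]
        _ = β ^ n' * ((α ^ t)⁻¹ * h * α ^ t) * (β ^ n')⁻¹ := by group
        _ = β ^ n' * h * (β ^ n')⁻¹ := by rw [hcomm]
    rw [this]
    exact hβj n' h hh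
  have hnorm : H.Normal := by
    constructor
    intro h hh g
    have key : g ∈ (Subgroup.normalizer (H : Set (PresentedGroup (rels m n r t)))) := by
      apply PresentedGroup.generated_by
      intro j
      rw [Subgroup.mem_normalizer_iff]
      cases j with
      | true =>
        intro x
        constructor
        · intro hx
          exact H.mul_mem (H.mul_mem (Subgroup.mem_zpowers α) hx) (H.inv_mem (Subgroup.mem_zpowers α))
        · intro hx
          have : x = α⁻¹ * (α * x * α⁻¹) * α := by group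
          rw [this]
          exact H.mul_mem (H.mul_mem (H.inv_mem (Subgroup.mem_zpowers α)) hx) (Subgroup.mem_zpowers α)
      | false =>
        intro x
        constructor
        · exact hβ x
        · intro hx
          have : x = β⁻¹ * (β * x * β⁻¹) * β := by group
          rw [this]
          exact hβ' _ hx
    exact (Subgroup.mem_normalizer_iff.mp key h).mp hh
  have hQfin : Finite (PresentedGroup (rels m n r t) ⧸ H) := by
    have htop : Subgroup.zpowers (QuotientGroup.mk' H β) = ⊤ := by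
      rw [eq_top_iff]
      rintro x -
      obtain ⟨g, rfl⟩ := QuotientGroup.mk'_surjective H x
      have : g ∈ (Subgroup.zpowers (QuotientGroup.mk' H β)).comap (QuotientGroup.mk' H) := by
        apply PresentedGroup.generated_by
        intro j
        cases j with
        | true =>
          rw [Subgroup.mem_comap]
          have : QuotientGroup.mk' H (PresentedGroup.of true) = 1 :=
            (QuotientGroup.eq_one_iff _).mpr (Subgroup.mem_zpowers α)
          rw [this]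
          exact Subgroup.one_mem _
        | false => exact Subgroup.mem_zpowers _
      exact this
    have hfo2 : IsOfFinOrder (QuotientGroup.mk' H β) := by
      refine isOfFinOrder_iff_pow_eq_one.mpr ⟨n, hn, ?_⟩
      rw [← map_pow, h2]
      exact (QuotientGroup.eq_one_iff _).mpr (Subgroup.pow_mem _ (Subgroup.mem_zpowers α) t)
    have hf : Finite (Subgroup.zpowers (QuotientGroup.mk' H β)) :=
      ((finite_zpowers (a := QuotientGroup.mk' H β)).mpr hfo2).to_subtype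
    rw [htop] at hf
    exact Finite.of_equiv _ Subgroup.topEquiv.toEquiv
  exact Finite.of_equiv _ (Subgroup.groupEquivQuotientProdSubgroup (s := H)).symm

end Pres

/-! ### The multiplier inside `F / [F, R]` -/

theorem mem_closure_triple_central {E : Type*} [Group E] (z₁ z₂ z₃ : E)
    (h₁ : z₁ ∈ Subgroup.center E) (h₂ : z₂ ∈ Subgroup.center E) (h₃ : z₃ ∈ Subgroup.center E)
    (e : E) (he : e ∈ Subgroup.closure ({z₁, z₂, z₃} : Set E)) :
    ∃ x₁ x₂ x₃ : ℤ, e = z₁ ^ x₁ * z₂ ^ x₂ * z₃ ^ x₃ := by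
  have c₁ : ∀ (k : ℤ) (x : E), x * z₁ ^ k = z₁ ^ k * x := fun k x =>
    Subgroup.mem_center_iff.mp (Subgroup.zpow_mem _ h₁ k) x
  have c₂ : ∀ (k : ℤ) (x : E), x * z₂ ^ k = z₂ ^ k * x := fun k x =>
    Subgroup.mem_center_iff.mp (Subgroup.zpow_mem _ h₂ k) x
  have c₃ : ∀ (k : ℤ) (x : E), x * z₃ ^ k = z₃ ^ k * x := fun k x =>
    Subgroup.mem_center_iff.mp (Subgroup.zpow_mem _ h₃ k) x
  induction he using Subgroup.closure_induction with
  | mem x hx =>
    rcases hx with rfl | rfl | rfl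
    · exact ⟨1, 0, 0, by simp⟩
    · exact ⟨0, 1, 0, by simp⟩
    · exact ⟨0, 0, 1, by simp⟩
  | one => exact ⟨0, 0, 0, by simp⟩
  | mul x y _ _ ihx ihy =>
    obtain ⟨x₁, x₂, x₃, rfl⟩ := ihx
    obtain ⟨y₁, y₂, y₃, rfl⟩ := ihy
    refine ⟨x₁ + y₁, x₂ + y₂, x₃ + y₃, ?_⟩
    rw [zpow_add, zpow_add, zpow_add]
    calc z₁ ^ x₁ * z₂ ^ x₂ * z₃ ^ x₃ * (z₁ ^ y₁ * z₂ ^ y₂ * z₃ ^ y₃)
        = z₁ ^ x₁ * (z₂ ^ x₂ * z₃ ^ x₃ * z₁ ^ y₁) * z₂ ^ y₂ * z₃ ^ y₃ := by group
      _ = z₁ ^ x₁ * (z₁ ^ y₁ * (z₂ ^ x₂ * z₃ ^ x₃)) * z₂ ^ y₂ * z₃ ^ y₃ := by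
          rw [c₁ y₁ (z₂ ^ x₂ * z₃ ^ x₃)]
      _ = z₁ ^ x₁ * z₁ ^ y₁ * z₂ ^ x₂ * (z₃ ^ x₃ * z₂ ^ y₂) * z₃ ^ y₃ := by group
      _ = z₁ ^ x₁ * z₁ ^ y₁ * z₂ ^ x₂ * (z₂ ^ y₂ * z₃ ^ x₃) * z₃ ^ y₃ := by
          rw [c₂ y₂ (z₃ ^ x₃)]
      _ = z₁ ^ x₁ * z₁ ^ y₁ * (z₂ ^ x₂ * z₂ ^ y₂) * (z₃ ^ x₃ * z₃ ^ y₃) := by group
  | inv x _ ih =>
    obtain ⟨x₁, x₂, x₃, rfl⟩ := ih
    refine ⟨-x₁, -x₂, -x₃, ?_⟩
    rw [zpow_neg, zpow_neg, zpow_neg]
    calc (z₁ ^ x₁ * z₂ ^ x₂ * z₃ ^ x₃)⁻¹ = (z₃ ^ x₃)⁻¹ * (z₂ ^ x₂)⁻¹ * (z₁ ^ x₁)⁻¹ := by group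
      _ = (z₃ ^ (-x₃)) * (z₂ ^ (-x₂)) * (z₁ ^ (-x₁)) := by rw [zpow_neg, zpow_neg, zpow_neg]
      _ = (z₂ ^ (-x₂)) * (z₃ ^ (-x₃)) * (z₁ ^ (-x₁)) := by rw [c₂]
      _ = z₁ ^ (-x₁) * ((z₂ ^ (-x₂)) * (z₃ ^ (-x₃))) := by rw [c₁]
      _ = (z₁ ^ x₁)⁻¹ * (z₂ ^ x₂)⁻¹ * (z₃ ^ x₃)⁻¹ := by rw [zpow_neg, zpow_neg, zpow_neg]; group

section Mult

variable (m n r t : ℕ)

/-- The presentation map. -/
abbrev pr : FreeGroup Bool →* PresentedGroup (rels m n r t) := PresentedGroup.mk (rels m n r t)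

theorem ker_pr : (pr m n r t).ker = Subgroup.normalClosure (rels m n r t) := by
  ext x
  rw [MonoidHom.mem_ker]
  exact QuotientGroup.eq_one_iff x

/-- The images of the generators in `F / [F, R]`. -/
abbrev EA : CE (pr m n r t) := CE.mk (pr m n r t) (FreeGroup.of true)

abbrev EB : CE (pr m n r t) := CE.mk (pr m n r t) (FreeGroup.of false)

theorem z1_mem : EA m n r t ^ m ∈ (CE.proj (pr m n r t)).ker := by
  have h : FreeGroup.of true ^ m ∈ (pr m n r t).ker := by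
    rw [ker_pr]; exact Subgroup.subset_normalClosure (by simp [rels])
  have h' : CE.mk (pr m n r t) (FreeGroup.of true ^ m) ∈ (CE.proj (pr m n r t)).ker := h
  rwa [map_pow] at h'

theorem z2_mem : EB m n r t ^ n * (EA m n r t ^ t)⁻¹ ∈ (CE.proj (pr m n r t)).ker := by
  have h : (FreeGroup.of false) ^ n * (FreeGroup.of true ^ t)⁻¹ ∈ (pr m n r t).ker := by
    rw [ker_pr]; exact Subgroup.subset_normalClosure (by simp [rels])
  have h' : CE.mk (pr m n r t) ((FreeGroup.of false) ^ n * (FreeGroup.of true ^ t)⁻¹) ∈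
      (CE.proj (pr m n r t)).ker := h
  rwa [map_mul, map_inv, map_pow, map_pow] at h'

theorem z3_mem : EB m n r t * EA m n r t * (EB m n r t)⁻¹ * (EA m n r t ^ r)⁻¹ ∈
    (CE.proj (pr m n r t)).ker := by
  have h : FreeGroup.of false * FreeGroup.of true * (FreeGroup.of false)⁻¹ *
      (FreeGroup.of true ^ r)⁻¹ ∈ (pr m n r t).ker := by
    rw [ker_pr]; exact Subgroup.subset_normalClosure (by simp [rels])
  have h' : CE.mk (pr m n r t) (FreeGroup.of false * FreeGroup.of true * (FreeGroup.of false)⁻¹ *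
      (FreeGroup.of true ^ r)⁻¹) ∈ (CE.proj (pr m n r t)).ker := h
  rwa [map_mul, map_inv, map_pow, map_mul, map_mul, map_inv] at h'

theorem ker_proj_eq : (CE.proj (pr m n r t)).ker = Subgroup.closure
    ({EA m n r t ^ m, EB m n r t ^ n * (EA m n r t ^ t)⁻¹,
      EB m n r t * EA m n r t * (EB m n r t)⁻¹ * (EA m n r t ^ r)⁻¹} : Set (CE (pr m n r t))) := by
  rw [CE.ker_proj_eq_closure (pr m n r t) (rels m n r t) (ker_pr m n r t)]
  congr 1
  simp only [rels, Set.image_insert_eq, Set.image_singleton, map_mul, map_inv, map_pow]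

/-- Exponent sum of the first generator. -/
def expA : CE (pr m n r t) →* Multiplicative ℤ :=
  QuotientGroup.lift (FR (pr m n r t))
    (FreeGroup.lift (fun x : Bool => if x then Multiplicative.ofAdd (1 : ℤ) else 1)) (by
      intro x hx
      exact Abelianization.commutator_subset_ker _ (FR_le_commutator _ hx))

/-- Exponent sum of the second generator. -/
def expB : CE (pr m n r t) →* Multiplicative ℤ :=
  QuotientGroup.lift (FR (pr m n r t))
    (FreeGroup.lift (fun x : Bool => if x then 1 else Multiplicative.ofAdd (1 : ℤ))) (by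
      intro x hx
      exact Abelianization.commutator_subset_ker _ (FR_le_commutator _ hx))

theorem expA_EA : expA m n r t (EA m n r t) = Multiplicative.ofAdd 1 := by
  have h : expA m n r t (EA m n r t) = FreeGroup.lift
      (fun x : Bool => if x then Multiplicative.ofAdd (1 : ℤ) else 1) (FreeGroup.of true) := rfl
  rw [h, FreeGroup.lift_apply_of]; rfl

theorem expA_EB : expA m n r t (EB m n r t) = 1 := by
  have h : expA m n r t (EB m n r t) = FreeGroup.lift
      (fun x : Bool => if x then Multiplicative.ofAdd (1 : ℤ) else 1) (FreeGroup.of false) := rfl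
  rw [h, FreeGroup.lift_apply_of]; rfl

theorem expB_EA : expB m n r t (EA m n r t) = 1 := by
  have h : expB m n r t (EA m n r t) = FreeGroup.lift
      (fun x : Bool => if x then 1 else Multiplicative.ofAdd (1 : ℤ)) (FreeGroup.of true) := rfl
  rw [h, FreeGroup.lift_apply_of]; rfl

theorem expB_EB : expB m n r t (EB m n r t) = Multiplicative.ofAdd 1 := by
  have h : expB m n r t (EB m n r t) = FreeGroup.lift
      (fun x : Bool => if x then 1 else Multiplicative.ofAdd (1 : ℤ)) (FreeGroup.of false) := rfl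
  rw [h, FreeGroup.lift_apply_of]; rfl

theorem expA_val (x₁ x₂ x₃ : ℤ) :
    Multiplicative.toAdd (expA m n r t ((EA m n r t ^ m) ^ x₁ *
      (EB m n r t ^ n * (EA m n r t ^ t)⁻¹) ^ x₂ *
      (EB m n r t * EA m n r t * (EB m n r t)⁻¹ * (EA m n r t ^ r)⁻¹) ^ x₃)) =
      x₁ * m - x₂ * t + x₃ * (1 - (r : ℤ)) := by
  simp only [map_mul, map_zpow, map_pow, map_inv, expA_EA, expA_EB, toAdd_mul, toAdd_zpow,
    toAdd_pow, toAdd_inv, toAdd_ofAdd, one_pow, one_mul, mul_one, inv_one]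
  simp only [nsmul_eq_mul, smul_eq_mul]
  ring

theorem expB_val (x₁ x₂ x₃ : ℤ) :
    Multiplicative.toAdd (expB m n r t ((EA m n r t ^ m) ^ x₁ *
      (EB m n r t ^ n * (EA m n r t ^ t)⁻¹) ^ x₂ *
      (EB m n r t * EA m n r t * (EB m n r t)⁻¹ * (EA m n r t ^ r)⁻¹) ^ x₃)) =
      x₂ * n := by
  simp only [map_mul, map_zpow, map_pow, map_inv, expB_EA, expB_EB, toAdd_mul, toAdd_zpow,
    toAdd_pow, toAdd_inv, toAdd_ofAdd, toAdd_one, one_pow, one_mul, mul_one, inv_one]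
  simp only [nsmul_eq_mul, smul_eq_mul]
  ring

theorem z1_central : EA m n r t ^ m ∈ Subgroup.center (CE (pr m n r t)) :=
  CE.ker_proj_le_center _ (z1_mem m n r t)

theorem z2_central : EB m n r t ^ n * (EA m n r t ^ t)⁻¹ ∈ Subgroup.center (CE (pr m n r t)) :=
  CE.ker_proj_le_center _ (z2_mem m n r t)

theorem z3_central : EB m n r t * EA m n r t * (EB m n r t)⁻¹ * (EA m n r t ^ r)⁻¹ ∈
    Subgroup.center (CE (pr m n r t)) :=
  CE.ker_proj_le_center _ (z3_mem m n r t)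

/-- The generator of the multiplier. -/
abbrev mu (ρ m' : ℕ) : CE (pr m n r t) :=
  (EA m n r t ^ m) ^ ρ * (EB m n r t * EA m n r t * (EB m n r t)⁻¹ * (EA m n r t ^ r)⁻¹) ^ m'

theorem mult_le_zpowers (hn : 0 < n) (hr : 0 < r) (d m' ρ : ℕ) (hm' : 0 < m') (hd : 0 < d)
    (hm : m = d * m') (hρ : r - 1 = d * ρ) (hcop : Nat.Coprime m' ρ) :
    CE.mult (pr m n r t) ≤ Subgroup.zpowers (mu m n r t ρ m') := by
  intro e he
  have he1 : e ∈ (CE.proj (pr m n r t)).ker := he.1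
  have he2 : e ∈ commutator (CE (pr m n r t)) := he.2
  rw [ker_proj_eq] at he1
  obtain ⟨x₁, x₂, x₃, rfl⟩ := mem_closure_triple_central _ _ _ (z1_central m n r t)
    (z2_central m n r t) (z3_central m n r t) e he1
  have hA := expA_val m n r t x₁ x₂ x₃
  have hB := expB_val m n r t x₁ x₂ x₃
  rw [show expA m n r t _ = 1 from Abelianization.commutator_subset_ker _ he2, toAdd_one] at hA
  rw [show expB m n r t _ = 1 from Abelianization.commutator_subset_ker _ he2, toAdd_one] at hB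
  have hx₂ : x₂ = 0 := by
    have hn' : (n : ℤ) ≠ 0 := by exact_mod_cast hn.ne'
    rcases mul_eq_zero.mp hB.symm with h | h
    · exact h
    · exact absurd h hn'
  subst hx₂
  have e1 : (m : ℤ) = d * m' := by exact_mod_cast hm
  have e2 : (r : ℤ) - 1 = d * ρ := by
    have : ((r - 1 : ℕ) : ℤ) = (r : ℤ) - 1 := by
      rw [Nat.cast_sub hr]; simp
    rw [← this]; exact_mod_cast hρ
  have hd' : (d : ℤ) ≠ 0 := by exact_mod_cast hd.ne'
  have hm'' : (m' : ℤ) ≠ 0 := by exact_mod_cast hm'.ne'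
  have h1 : (m' : ℤ) * x₁ = ρ * x₃ := by
    have : (d : ℤ) * (m' * x₁) = d * (ρ * x₃) := by
      have h0 : x₁ * (m : ℤ) - x₃ * ((r : ℤ) - 1) = 0 := by linarith
      rw [e1, e2] at h0
      linarith
    exact mul_left_cancel₀ hd' this
  have h2 : (m' : ℤ) ∣ x₃ := by
    have h3 : (m' : ℤ) ∣ ρ * x₃ := ⟨x₁, h1.symm⟩
    have h4 : IsCoprime (m' : ℤ) (ρ : ℤ) := Nat.isCoprime_iff_coprime.mpr hcop
    exact h4.dvd_of_dvd_mul_left h3
  obtain ⟨c, rfl⟩ := h2
  have h3 : x₁ = ρ * c := by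
    have : (m' : ℤ) * x₁ = m' * (ρ * c) := by rw [h1]; ring
    exact mul_left_cancel₀ hm'' this
  subst h3
  refine ⟨c, ?_⟩
  have hcomm : Commute ((EA m n r t ^ m) ^ ρ)
      ((EB m n r t * EA m n r t * (EB m n r t)⁻¹ * (EA m n r t ^ r)⁻¹) ^ m') :=
    (Subgroup.mem_center_iff.mp (Subgroup.pow_mem _ (z1_central m n r t) ρ) _).symm
  show mu m n r t ρ m' ^ c = _
  rw [mu, hcomm.mul_zpow, zpow_zero, mul_one, ← zpow_natCast _ ρ, ← zpow_natCast _ m', ← zpow_mul,
    ← zpow_mul]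

theorem mu_mem_mult (hr : 0 < r) (d m' ρ : ℕ) (hm : m = d * m') (hρ : r - 1 = d * ρ) :
    mu m n r t ρ m' ∈ CE.mult (pr m n r t) := by
  constructor
  · exact Subgroup.mul_mem _ (Subgroup.pow_mem _ (z1_mem m n r t) _)
      (Subgroup.pow_mem _ (z3_mem m n r t) _)
  · have hker : mu m n r t ρ m' ∈ (CE.abMap (pr m n r t)).ker := by
      rw [MonoidHom.mem_ker]
      simp only [mu, map_mul, map_pow, map_inv]
      generalize CE.abMap (pr m n r t) (EA m n r t) = a
      generalize CE.abMap (pr m n r t) (EB m n r t) = b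
      have h1 : b * a * b⁻¹ * (a ^ r)⁻¹ = (a ^ (r - 1))⁻¹ := by
        obtain ⟨r', rfl⟩ : ∃ r', r = r' + 1 := ⟨r - 1, by omega⟩
        simp only [Nat.add_sub_cancel]
        rw [mul_comm b a, mul_inv_cancel_right, pow_succ, mul_inv_rev, mul_inv_cancel_left]
      rw [h1, inv_pow, ← pow_mul, ← pow_mul, hm, hρ,
        show d * m' * ρ = d * ρ * m' by ring]
      exact mul_inv_cancel _
    rw [CE.ker_abMap] at hker
    exact hker

end Mult

/-! ### The order of the generator divides `gcd(l, d, σ)` -/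

theorem mu_pow_eq_one {E : Type*} [Group E] (A B : E) (m n r t d m' ρ σ l : ℕ) (hr : 0 < r)
    (h1 : A ^ m ∈ Subgroup.center E) (h2 : B ^ n * (A ^ t)⁻¹ ∈ Subgroup.center E)
    (h3 : B * A * B⁻¹ * (A ^ r)⁻¹ ∈ Subgroup.center E)
    (hm : m = d * m') (hρ : r - 1 = d * ρ) (hσ : (∑ i ∈ Finset.range n, r ^ i) = m' * σ)
    (hrn : r ^ n - 1 = m * (ρ * σ)) (ht : t = m' * l) :
    ((A ^ m) ^ ρ * (B * A * B⁻¹ * (A ^ r)⁻¹) ^ m') ^ d = 1 ∧
    ((A ^ m) ^ ρ * (B * A * B⁻¹ * (A ^ r)⁻¹) ^ m') ^ l = 1 ∧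
    ((A ^ m) ^ ρ * (B * A * B⁻¹ * (A ^ r)⁻¹) ^ m') ^ σ = 1 := by
  have hcomm : Commute ((A ^ m) ^ ρ) ((B * A * B⁻¹ * (A ^ r)⁻¹) ^ m') :=
    (Subgroup.mem_center_iff.mp (Subgroup.pow_mem _ h1 ρ) _).symm
  have hc : ∀ (i j : ℕ), (B * A * B⁻¹ * (A ^ r)⁻¹) ^ i * (A ^ m) ^ j =
      (A ^ m) ^ j * (B * A * B⁻¹ * (A ^ r)⁻¹) ^ i := fun i j =>
    Subgroup.mem_center_iff.mp (Subgroup.pow_mem _ h1 j) _
  have key : ∀ j : ℕ, ((A ^ m) ^ ρ * (B * A * B⁻¹ * (A ^ r)⁻¹) ^ m') ^ j =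
      (B * A * B⁻¹ * (A ^ r)⁻¹) ^ (m' * j) * (A ^ m) ^ (ρ * j) := by
    intro j
    rw [hcomm.mul_pow, ← pow_mul (A ^ m) ρ j, ← pow_mul (B * A * B⁻¹ * (A ^ r)⁻¹) m' j, hc]
  refine ⟨?_, ?_, ?_⟩
  · rw [key]
    have := rel1 A B r m hr h1 h3
    rw [hρ] at this
    rw [mul_comm m' d, ← hm, mul_comm ρ d]
    exact this
  · rw [key]
    have := rel2 A B r n t hr h2 h3
    rw [hρ, ht] at this
    rw [← this]
    congr 1
    rw [← pow_mul, hm]
    congr 1
    ring
  · rw [key]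
    have := rel3 A B r n t hr h2 h3
    rw [hσ, hrn] at this
    rw [← this, ← pow_mul]

/-! ### The model: affine permutations of `ZMod m × ZMod k` -/

section Model

variable (m k : ℕ) (hkm : k ∣ m) (u : (ZMod m)ˣ)

/-- The twisting automorphism `(x, y) ↦ (u x, y + x)` of `ZMod m × ZMod k`. -/
def βP : Equiv.Perm (ZMod m × ZMod k) where
  toFun v := ((u : ZMod m) * v.1, v.2 + ZMod.castHom hkm (ZMod k) v.1)
  invFun v := ((↑u⁻¹ : ZMod m) * v.1, v.2 - ZMod.castHom hkm (ZMod k) ((↑u⁻¹ : ZMod m) * v.1))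
  left_inv v := by
    ext
    · simp
    · simp
  right_inv v := by
    ext
    · simp
    · simp

theorem βP_apply (v : ZMod m × ZMod k) :
    βP m k hkm u v = ((u : ZMod m) * v.1, v.2 + ZMod.castHom hkm (ZMod k) v.1) := rfl

theorem βP_mul_T (v : ZMod m × ZMod k) :
    βP m k hkm u * Equiv.addLeft v = Equiv.addLeft (βP m k hkm u v) * βP m k hkm u := by
  ext w
  · show (u : ZMod m) * (v.1 + w.1) = (u : ZMod m) * v.1 + (u : ZMod m) * w.1
    ring
  · show (v.2 + w.2) + ZMod.castHom hkm (ZMod k) (v.1 + w.1) =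
      (v.2 + ZMod.castHom hkm (ZMod k) v.1) + (w.2 + ZMod.castHom hkm (ZMod k) w.1)
    rw [map_add]; abel

theorem βP_pow_mul_T (j : ℕ) (v : ZMod m × ZMod k) :
    βP m k hkm u ^ j * Equiv.addLeft v =
      Equiv.addLeft ((βP m k hkm u ^ j) v) * βP m k hkm u ^ j := by
  induction j with
  | zero => simp
  | succ j ih =>
    rw [pow_succ', mul_assoc, ih, ← mul_assoc, βP_mul_T, mul_assoc]
    rfl

theorem βP_pow_apply (r : ℕ) (hu : (u : ZMod m) = r) (j : ℕ) :
    (βP m k hkm u ^ j) (1, 0) =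
      ((r : ZMod m) ^ j, ((∑ i ∈ Finset.range j, r ^ i : ℕ) : ZMod k)) := by
  induction j with
  | zero => simp
  | succ j ih =>
    rw [pow_succ', Equiv.Perm.mul_apply, ih, βP_apply, Finset.sum_range_succ, hu]
    ext
    · show (r : ZMod m) * (r : ZMod m) ^ j = (r : ZMod m) ^ (j + 1)
      rw [pow_succ']
    · show ((∑ i ∈ Finset.range j, r ^ i : ℕ) : ZMod k) +
        ZMod.castHom hkm (ZMod k) ((r : ZMod m) ^ j) =
        ((∑ i ∈ Finset.range j, r ^ i + r ^ j : ℕ) : ZMod k)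
      rw [map_pow, map_natCast]; push_cast; rfl

/-- The model homomorphism. -/
def fM : FreeGroup Bool →* Equiv.Perm (ZMod m × ZMod k) :=
  FreeGroup.lift (fun x : Bool => if x then Equiv.addLeft ((1 : ZMod m), (0 : ZMod k))
    else βP m k hkm u)

theorem fM_true : fM m k hkm u (FreeGroup.of true) = Equiv.addLeft (1, 0) := by
  simp [fM]

theorem fM_false : fM m k hkm u (FreeGroup.of false) = βP m k hkm u := by
  simp [fM]

end Model

theorem commute_lift_of {H : Type*} [Group H] (f : FreeGroup Bool →* H) (c : H)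
    (h1 : Commute c (f (FreeGroup.of true))) (h2 : Commute c (f (FreeGroup.of false)))
    (x : FreeGroup Bool) : Commute c (f x) := by
  induction x using FreeGroup.induction_on with
  | C1 => rw [map_one]; exact Commute.one_right c
  | of b => cases b <;> assumption
  | inv_of b ih => rw [map_inv]; exact ih.inv_right
  | mul x y hx hy => rw [map_mul]; exact hx.mul_right hy

/-- A homomorphism from the free group sending the relators to elements commuting with the images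
of the generators factors through `F / [F, R]`. -/
theorem FR_le_ker_of_commute {H : Type*} [Group H] (rels : Set (FreeGroup Bool))
    (f : FreeGroup Bool →* H)
    (h : ∀ ρ ∈ rels, Commute (f ρ) (f (FreeGroup.of true)) ∧
      Commute (f ρ) (f (FreeGroup.of false))) :
    FR (PresentedGroup.mk rels) ≤ f.ker := by
  let C : Subgroup (FreeGroup Bool) :=
    { carrier := {y | ∀ x, Commute (f y) (f x)}
      mul_mem' := fun {a b} ha hb x => by rw [map_mul]; exact (ha x).mul_left (hb x)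
      one_mem' := fun x => by rw [map_one]; exact Commute.one_left _
      inv_mem' := fun {a} ha x => by rw [map_inv]; exact (ha x).inv_left }
  have hCn : C.Normal := by
    constructor
    intro y hy g x
    show Commute (f (g * y * g⁻¹)) (f x)
    have h1 : f (g * y * g⁻¹) = f y := by
      rw [map_mul, map_mul, map_inv, (hy g).symm.eq, mul_inv_cancel_right]
    rw [h1]; exact hy x
  have hker : (PresentedGroup.mk rels).ker ≤ C := by
    have : (PresentedGroup.mk rels).ker = Subgroup.normalClosure rels := by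
      ext x
      rw [MonoidHom.mem_ker]
      exact QuotientGroup.eq_one_iff x
    rw [this]
    apply Subgroup.normalClosure_le_normal
    intro ρ hρ x
    exact commute_lift_of f (f ρ) (h ρ hρ).1 (h ρ hρ).2 x
  rw [FR, Subgroup.commutator_le]
  intro g₁ _ g₂ hg₂
  rw [MonoidHom.mem_ker, map_commutatorElement]
  exact commutatorElement_eq_one_iff_commute.mpr (hker hg₂ g₁).symm

/-- In the model the generator of the multiplier has order divisible by `k / m'`. -/
theorem model_dvd (m n r t k m' ρ : ℕ) (hkm : k ∣ m) (u : (ZMod m)ˣ) (hu : (u : ZMod m) = r)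
    (h1 : (r : ZMod m) ^ n = 1) (h2 : ((∑ i ∈ Finset.range n, r ^ i : ℕ) : ZMod k) = 0)
    (h3 : (r : ZMod m) * (t : ZMod m) = t) (h4 : (t : ZMod k) = 0) (j : ℕ)
    (hj : mu m n r t ρ m' ^ j = 1) : k ∣ j * m' := by
  let f := fM m k hkm u
  have ha : f (FreeGroup.of true) = Equiv.addLeft (1, 0) := fM_true m k hkm u
  have hb : f (FreeGroup.of false) = βP m k hkm u := fM_false m k hkm u
  -- the relator values in the model
  have hr1 : (Equiv.addLeft ((1 : ZMod m), (0 : ZMod k))) ^ m = 1 := by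
    rw [Equiv.nsmul_addLeft]
    have : m • ((1 : ZMod m), (0 : ZMod k)) = 0 := by
      ext <;> simp
    rw [this, Equiv.addLeft_zero]
  have hr3 : βP m k hkm u * Equiv.addLeft ((1 : ZMod m), (0 : ZMod k)) * (βP m k hkm u)⁻¹ *
      ((Equiv.addLeft ((1 : ZMod m), (0 : ZMod k))) ^ r)⁻¹ = Equiv.addLeft (0, 1) := by
    rw [βP_mul_T, mul_inv_cancel_right, Equiv.nsmul_addLeft, Equiv.neg_addLeft, ← Equiv.addLeft_add]
    congr 1
    rw [βP_apply, hu]
    ext
    · simp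
    · show (0 : ZMod k) + ZMod.castHom hkm (ZMod k) 1 + (-(r • ((1 : ZMod m), (0 : ZMod k)))).2 = 1
      rw [map_one]; simp
  have hr2 : βP m k hkm u ^ n * ((Equiv.addLeft ((1 : ZMod m), (0 : ZMod k))) ^ t)⁻¹ =
      βP m k hkm u ^ n * Equiv.addLeft (-(t : ZMod m), 0) := by
    rw [Equiv.nsmul_addLeft, Equiv.neg_addLeft]
    congr 2
    ext <;> simp
  have hTT : ∀ v w : ZMod m × ZMod k, Commute (Equiv.addLeft v) (Equiv.addLeft w) := by
    intro v w
    show Equiv.addLeft _ * Equiv.addLeft _ = Equiv.addLeft _ * Equiv.addLeft _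
    rw [← Equiv.addLeft_add, ← Equiv.addLeft_add, add_comm]
  have hTβ : ∀ v : ZMod m × ZMod k, βP m k hkm u v = v →
      Commute (Equiv.addLeft v) (βP m k hkm u) := by
    intro v hv
    show Equiv.addLeft _ * βP m k hkm u = βP m k hkm u * Equiv.addLeft _
    rw [βP_mul_T, hv]
  have hFR : FR (pr m n r t) ≤ f.ker := by
    apply FR_le_ker_of_commute
    intro ρ' hρ'
    rcases hρ' with rfl | rfl | rfl
    · rw [map_pow, ha, hb, hr1]; exact ⟨Commute.one_left _, Commute.one_left _⟩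
    · rw [map_mul, map_inv, map_pow, map_pow, ha, hb, hr2]
      constructor
      · apply Commute.mul_left
        · show βP m k hkm u ^ n * Equiv.addLeft (1, 0) = Equiv.addLeft (1, 0) * βP m k hkm u ^ n
          rw [βP_pow_mul_T, βP_pow_apply m k hkm u r hu, h1, h2]
        · exact hTT _ _
      · apply Commute.mul_left
        · exact (Commute.refl _).pow_left n
        · apply hTβ
          rw [βP_apply]
          ext
          · show (u : ZMod m) * -(t : ZMod m) = -(t : ZMod m)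
            rw [hu, mul_neg, h3]
          · show (0 : ZMod k) + ZMod.castHom hkm (ZMod k) (-(t : ZMod m)) = 0
            rw [map_neg, map_natCast, h4]; simp
    · rw [map_mul, map_mul, map_mul, map_inv, map_inv, map_pow, ha, hb, hr3]
      constructor
      · exact hTT _ _
      · apply hTβ
        rw [βP_apply]
        ext
        · simp
        · show (1 : ZMod k) + ZMod.castHom hkm (ZMod k) 0 = 1
          rw [map_zero, add_zero]
  let φ : CE (pr m n r t) →* Equiv.Perm (ZMod m × ZMod k) :=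
    QuotientGroup.lift (FR (pr m n r t)) f hFR
  have hφA : φ (EA m n r t) = Equiv.addLeft (1, 0) := ha
  have hφB : φ (EB m n r t) = βP m k hkm u := hb
  have hφμ : φ (mu m n r t ρ m') = Equiv.addLeft (0, (m' : ZMod k)) := by
    rw [mu, map_mul, map_pow, map_pow, map_pow, map_mul, map_mul, map_mul, map_inv, map_inv,
      map_pow, hφA, hφB, hr1, hr3, one_pow, one_mul, Equiv.nsmul_addLeft]
    congr 1
    ext <;> simp
  have h5 : φ (mu m n r t ρ m') ^ j = 1 := by rw [← map_pow, hj, map_one]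
  rw [hφμ, Equiv.nsmul_addLeft] at h5
  have h6 : j • ((0 : ZMod m), (m' : ZMod k)) = 0 := by
    have := congrArg (fun e : Equiv.Perm (ZMod m × ZMod k) => e 0) h5
    simpa using this
  have h7 : ((j * m' : ℕ) : ZMod k) = 0 := by
    have := congrArg Prod.snd h6
    simpa using this
  exact (ZMod.natCast_eq_zero_iff _ _).mp h7

universe u v w

theorem hasSchurMultiplier_congr {G : Type u} [Group G] {A : Type v} {A' : Type w} [CommGroup A]
    [CommGroup A'] (e : A ≃* A') (h : Cfsg.HasSchurMultiplier G A) : Cfsg.HasSchurMultiplier G A' := by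
  obtain ⟨⟨Γ, i1, i2, σ, hσ, ⟨e₀⟩⟩, h2⟩ := h
  refine ⟨⟨Γ, i1, i2, σ, hσ, ⟨e₀.trans e⟩⟩, ?_⟩
  intro Δ _ _ τ hτ
  obtain ⟨π, hπ⟩ := h2 Δ τ hτ
  exact ⟨π.comp e.symm.toMonoidHom, hπ.comp e.symm.surjective⟩

theorem hasCyclic_of_card {G : Type u} [Group G] {A : Type v} [CommGroup A] [hA : IsCyclic A] (N : ℕ)
    (hN : Nat.card A = N) (h : Cfsg.HasSchurMultiplier G A) : Cfsg.HasCyclicSchurMultiplier G N := by
  subst hN
  exact hasSchurMultiplier_congr (zmodCyclicMulEquiv hA).symm h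

theorem main (m n r l d m' ρ σ : ℕ) (hm : 0 < m) (hn : 0 < n) (hr : 0 < r)
    (hrn : r ^ n ≡ 1 [MOD m]) (hd0 : 0 < d) (hm'0 : 0 < m') (hmd : m = d * m')
    (hρ : r - 1 = d * ρ) (hcop : Nat.Coprime m' ρ)
    (hσ : (∑ i ∈ Finset.range n, r ^ i) = m' * σ) (hrn' : r ^ n - 1 = m * (ρ * σ)) :
    Cfsg.HasCyclicSchurMultiplier (PresentedGroup (rels m n r (m' * l)))
      (Nat.gcd l (Nat.gcd d σ)) := by
  obtain ⟨t, ht⟩ : ∃ t, t = m' * l := ⟨_, rfl⟩
  obtain ⟨g, hg⟩ : ∃ g, g = Nat.gcd l (Nat.gcd d σ) := ⟨_, rfl⟩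
  rw [← ht, ← hg]
  have hgl : g ∣ l := hg ▸ Nat.gcd_dvd_left _ _
  have hgd : g ∣ d := hg ▸ (Nat.gcd_dvd_right _ _).trans (Nat.gcd_dvd_left _ _)
  have hgσ : g ∣ σ := hg ▸ (Nat.gcd_dvd_right _ _).trans (Nat.gcd_dvd_right _ _)
  have : Finite (PresentedGroup (rels m n r t)) := finite_pres m n r t hm hn
  have hp : Function.Surjective (pr m n r t) := QuotientGroup.mk'_surjective _
  have hS := CE.hasSchurMultiplier_mult (pr m n r t) hp
  have hmult : CE.mult (pr m n r t) = Subgroup.zpowers (mu m n r t ρ m') :=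
    le_antisymm (mult_le_zpowers m n r t hn hr d m' ρ hm'0 hd0 hmd hρ hcop)
      ((Subgroup.zpowers_le).mpr (mu_mem_mult m n r t hr d m' ρ hmd hρ))
  obtain ⟨hpd, hpl, hpσ⟩ := mu_pow_eq_one (EA m n r t) (EB m n r t) m n r t d m' ρ σ l hr
    (z1_central m n r t) (z2_central m n r t) (z3_central m n r t) hmd hρ hσ hrn' ht
  have hord1 : orderOf (mu m n r t ρ m') ∣ g := by
    rw [hg]
    exact Nat.dvd_gcd (orderOf_dvd_of_pow_eq_one hpl)
      (Nat.dvd_gcd (orderOf_dvd_of_pow_eq_one hpd) (orderOf_dvd_of_pow_eq_one hpσ))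
  have hord2 : g ∣ orderOf (mu m n r t ρ m') := by
    have hkm : m' * g ∣ m := by
      rw [hmd, mul_comm d m']; exact Nat.mul_dvd_mul_left _ hgd
    have h1 : (r : ZMod m) ^ n = 1 := by
      have := (ZMod.natCast_eq_natCast_iff _ _ _).mpr hrn
      push_cast at this; exact this
    have hu : (r : ZMod m) * (r : ZMod m) ^ (n - 1) = 1 := by
      rw [← pow_succ', (by omega : n - 1 + 1 = n)]; exact h1
    have h2 : ((∑ i ∈ Finset.range n, r ^ i : ℕ) : ZMod (m' * g)) = 0 := by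
      rw [ZMod.natCast_eq_zero_iff, hσ]; exact Nat.mul_dvd_mul_left _ hgσ
    have h3 : (r : ZMod m) * (t : ZMod m) = t := by
      have h : ((r * t : ℕ) : ZMod m) = ((t : ℕ) : ZMod m) := by
        rw [ZMod.natCast_eq_natCast_iff]
        have e : r * t = t + m * (ρ * l) := by
          obtain ⟨r', rfl⟩ : ∃ r', r = r' + 1 := ⟨r - 1, by omega⟩
          simp only [Nat.add_sub_cancel] at hρ
          rw [ht, hmd, hρ]; ring
        rw [e]
        have h0 : t ≡ t + m * (ρ * l) [MOD m] :=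
          (Nat.modEq_iff_dvd' (Nat.le_add_right _ _)).mpr (by simp)
        exact h0.symm
      push_cast at h; exact h
    have h4 : ((t : ℕ) : ZMod (m' * g)) = 0 := by
      rw [ZMod.natCast_eq_zero_iff, ht]; exact Nat.mul_dvd_mul_left _ hgl
    have h5 := model_dvd m n r t (m' * g) m' ρ hkm (Units.mkOfMulEqOne _ _ hu)
      (Units.val_mkOfMulEqOne hu) h1 h2 h3 h4 _ (pow_orderOf_eq_one _)
    rw [mul_comm (orderOf _) m'] at h5
    exact Nat.dvd_of_mul_dvd_mul_left hm'0 h5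
  have hord : orderOf (mu m n r t ρ m') = g := Nat.dvd_antisymm hord1 hord2
  have : IsCyclic (CE.mult (pr m n r t)) := by rw [hmult]; infer_instance
  have hcard : Nat.card (CE.mult (pr m n r t)) = g := by rw [hmult, Nat.card_zpowers, hord]
  exact hasCyclic_of_card g hcard hS

/-- Let `m, n ≥ 1`, `r ≥ 1` with `r ^ n ≡ 1 (mod m)`, and `l` a natural number; put `d = gcd(m, r - 1)`, `t = m l / d` and `h = d · gcd(m, 1 + r + ⋯ + r^(n-1)) / m`. The group presented by generators `a, b` and relations `a ^ m = 1`, `b ^ n = a ^ t`, `b a b⁻¹ = a ^ r` (a metacyclic group of order `m n`) has Schur multiplier cyclic of order `gcd(l, h)`. -/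
theorem result (m n r l : ℕ) (hm : 0 < m) (hn : 0 < n) (hr : 0 < r) (hrn : r ^ n ≡ 1 [MOD m]) : Cfsg.HasCyclicSchurMultiplier (PresentedGroup ({FreeGroup.of true ^ m, (FreeGroup.of false) ^ n * (FreeGroup.of true ^ (m * l / Nat.gcd m (r - 1)))⁻¹, FreeGroup.of false * FreeGroup.of true * (FreeGroup.of false)⁻¹ * (FreeGroup.of true ^ r)⁻¹} : Set (FreeGroup Bool))) (Nat.gcd l (Nat.gcd m (r - 1) * Nat.gcd m (∑ i ∈ Finset.range n, r ^ i) / m)) := by
  obtain ⟨d, m', ρ, σ, -, hd0, hm'0, hmd, hρ, hcop, hσ, hrn', ht, hh⟩ := arith m n r l hm hr hrn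
  have key := main m n r l d m' ρ σ hm hn hr hrn hd0 hm'0 hmd hρ hcop hσ hrn'
  rw [ht, hh]
  exact key

end Cfsg.Agent.S3967
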