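import Cfsg.Statements.S0836
import Mathlib

set_option autoImplicit false
open Cfsg

namespace Cfsg.Agent.S0836

open Matrix
open scoped commutatorElement

theorem comm_three {F : Type*} [Field F] {n : ℕ} (i j k : Fin n) (hij : i ≠ j) (hik : i ≠ k)
    (hkj : k ≠ j) (c : F) :
    ⁅SpecialLinearGroup.transvection hik c, SpecialLinearGroup.transvection hkj (1 : F)⁆ =
      SpecialLinearGroup.transvection hij c := by
  rw [commutatorElement_def, SpecialLinearGroup.transvection_inv, SpecialLinearGroup.transvection_inv]
  refine Subtype.ext ?_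
  simp [SpecialLinearGroup.transvection_coe, mul_add, add_mul,
    single_mul_single_of_ne _ _ _ _ hkj.symm, single_mul_single_of_ne _ _ _ _ hik.symm,
    single_mul_single_of_ne _ _ _ _ hij.symm]
  simp only [← single_neg]
  abel

/-- For i ≠ j and any scalar c, the elementary transvection 1 + c E_ij is a commutator ⁅g, h⁆ of two elements of SL_n(F) provided n ≥ 3, or n = 2 and F contains x ≠ 0 with x² ≠ 1. -/
theorem result {F : Type*} [Field F] (n : ℕ) (hn : 3 ≤ n ∨ (n = 2 ∧ ∃ x : F, x ≠ 0 ∧ x ^ 2 ≠ 1)) (i j : Fin n) (hij : i ≠ j) (c : F) (t : Matrix.SpecialLinearGroup (Fin n) F) (ht : (t : Matrix (Fin n) (Fin n) F) = Matrix.transvection i j c) : t ∈ commutatorSet (Matrix.SpecialLinearGroup (Fin n) F) := by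
  have ht' : t = SpecialLinearGroup.transvection hij c := Subtype.ext ht
  rcases hn with hn | ⟨rfl, x, hx0, hx1⟩
  · obtain ⟨k, hki, hkj⟩ : ∃ k : Fin n, k ≠ i ∧ k ≠ j := by
      by_contra hcon
      push Not at hcon
      have : (Finset.univ : Finset (Fin n)) ⊆ {i, j} := by
        intro k _
        by_cases hki : k = i
        · simp [hki]
        · simp [hcon k hki]
      have h1 := Finset.card_le_card this
      have h2 : ({i, j} : Finset (Fin n)).card ≤ 2 := Finset.card_le_two
      simp at h1
      omega
    exact ⟨_, _, (comm_three i j k hij hki.symm hkj c).trans ht'.symm⟩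
  · have hx2 : x ^ 2 - 1 ≠ 0 := sub_ne_zero_of_ne hx1
    fin_cases i <;> fin_cases j
    · exact absurd rfl hij
    · refine ⟨SpecialLinearGroup.diag2 x hx0,
        SpecialLinearGroup.transvection zero_ne_one (c / (x ^ 2 - 1)), ?_⟩
      rw [ht']
      exact commutator_diag2_transvection x hx0 _ c (div_mul_cancel₀ c hx2).symm
    · refine ⟨SpecialLinearGroup.diag2 x⁻¹ (inv_ne_zero hx0),
        SpecialLinearGroup.transvection one_ne_zero (c / (x ^ 2 - 1)), ?_⟩
      rw [ht', commutatorElement_def, SpecialLinearGroup.diag2_inv,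
        SpecialLinearGroup.transvection_inv]
      refine Subtype.ext <| Matrix.ext fun a b ↦ ?_
      fin_cases a <;> fin_cases b <;>
        simp [SpecialLinearGroup.transvection_coe, SpecialLinearGroup.diag2_coe, mul_add, add_mul,
          mul_inv_cancel₀ hx0, inv_mul_cancel₀ hx0]
      field_simp
      ring
    · exact absurd rfl hij

end Cfsg.Agent.S0836
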