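import Cfsg.Statements.S4717
import Mathlib
import Cfsg.Agent.Lib.Helper82.Major

set_option autoImplicit false
open Cfsg

namespace Cfsg.Agent.S4717

open Cfsg.Agent.Lib.Helper4 Cfsg.Agent.Lib.Helper21 Cfsg.Agent.Lib.Helper22
open Cfsg.Agent.Lib.Helper82

/-- first half: deficiency class passes to centralizers of `p`-elements -/
theorem part_a {G : Type*} [Group G] [Fintype G] (p : ℕ) [Fact p.Prime] (M : Ideal Cfsg.AlgInt)
    (hM : Cfsg.IsPModular p M) (r : ℕ)
    (hG : ∀ B' : Set (Cfsg.IrrCharacter G), Cfsg.IsPBlock M B' →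
      B' ≠ Cfsg.principalBlock M G → Cfsg.blockDefect p B' < r)
    (y : G) (hy : ∃ k : ℕ, orderOf y = p ^ k)
    (b : Set (Cfsg.IrrCharacter ↥(Subgroup.centralizer ({y} : Set G)))) (hb : Cfsg.IsPBlock M b)
    (hne : b ≠ Cfsg.principalBlock M ↥(Subgroup.centralizer ({y} : Set G))) :
    Cfsg.blockDefect p b < r := by
  obtain ⟨B, hB⟩ := exists_induced_centralizer hM y hy b hb
  have h1 := blockDefect_le_of_induced hM _ b B hB
  by_cases hBp : B = principalBlock M G
  · rw [hBp] at hB
    exact absurd (third_main_hard hM _ b hB) hne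
  · have h2 := hG B hB.2.1 hBp
    omega

/-- second half: deficiency class of the centralizers of the elements of order `p` passes to
the group -/
theorem part_b {G : Type*} [Group G] [Fintype G] (p : ℕ) [Fact p.Prime] (M : Ideal Cfsg.AlgInt)
    (hM : Cfsg.IsPModular p M) (r : ℕ) (hr : 0 < r)
    (hC : ∀ y : G, orderOf y = p →
      ∀ B' : Set (Cfsg.IrrCharacter ↥(Subgroup.centralizer ({y} : Set G))), Cfsg.IsPBlock M B' →
        B' ≠ Cfsg.principalBlock M ↥(Subgroup.centralizer ({y} : Set G)) →
        Cfsg.blockDefect p B' < r)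
    (B : Set (Cfsg.IrrCharacter G)) (hB : Cfsg.IsPBlock M B)
    (hne : B ≠ Cfsg.principalBlock M G) : Cfsg.blockDefect p B < r := by
  classical
  have hp : p.Prime := Fact.out
  by_contra hlt
  have hdr : r ≤ blockDefect p B := not_lt.mp hlt
  obtain ⟨x, hx⟩ := Cfsg.Agent.S0906.result p M hM B hB
  obtain ⟨Q⟩ : Nonempty (Sylow p (Subgroup.centralizer ({x} : Set G))) := inferInstance
  have hQcard : Nat.card Q = p ^ blockDefect p B := by
    rw [Q.card_eq_multiplicity, blockDefect_eq_of_defectClass hM B hB x hx]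
  -- a central element of order p of Q
  have hQnt : Nontrivial Q := by
    rw [← Finite.one_lt_card_iff_nontrivial, hQcard]
    exact Nat.one_lt_pow (by omega) hp.one_lt
  have hcnt : Nontrivial (Subgroup.center Q) := Q.isPGroup'.center_nontrivial
  have hcdvd : p ∣ Nat.card (Subgroup.center Q) := by
    obtain ⟨k, hk⟩ := IsPGroup.iff_card.mp (Q.isPGroup'.to_subgroup (Subgroup.center Q))
    have hk0 : k ≠ 0 := by
      rintro rfl
      rw [pow_zero] at hk
      have := Finite.one_lt_card_iff_nontrivial.mpr hcnt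
      omega
    rw [hk]
    exact dvd_pow_self p hk0
  obtain ⟨z, hz⟩ := exists_prime_orderOf_dvd_card' p hcdvd
  obtain ⟨y, hydef⟩ : ∃ y : G, y = (((z : Q) : Subgroup.centralizer ({x} : Set G)) : G) :=
    ⟨_, rfl⟩
  have hyord : orderOf y = p := by
    rw [hydef, Subgroup.orderOf_coe, Subgroup.orderOf_coe, Subgroup.orderOf_coe]
    exact hz
  have hyx : y * x = x * y := by
    have h1 := ((z : Q) : Subgroup.centralizer ({x} : Set G)).2
    have h2 := Subgroup.mem_centralizer_iff.mp h1 x rfl
    rw [hydef]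
    exact h2.symm
  have hxC : x ∈ Subgroup.centralizer ({y} : Set G) := by
    rw [Subgroup.mem_centralizer_iff]
    intro w hw
    rw [Set.mem_singleton_iff] at hw
    rw [hw]
    exact hyx
  -- D = Q as a subgroup of G, contained in C_G(y)
  obtain ⟨D, hDdef⟩ : ∃ D : Subgroup G, D = (Q : Subgroup (Subgroup.centralizer ({x} : Set G))).map
      (Subgroup.centralizer ({x} : Set G)).subtype := ⟨_, rfl⟩
  have hDcard : Nat.card D = p ^ blockDefect p B := by
    rw [hDdef, Subgroup.card_map_of_injective (Subgroup.subtype_injective _)]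
    exact hQcard
  have hDp : IsPGroup p D := by
    rw [hDdef]; exact Q.isPGroup'.map _
  have hDC : D ≤ Subgroup.centralizer ({y} : Set G) := by
    rw [hDdef]
    rintro _ ⟨d, hd, rfl⟩
    rw [Subgroup.mem_centralizer_iff]
    intro w hw
    rw [Set.mem_singleton_iff] at hw
    rw [hw]
    have h1 := Subgroup.mem_center_iff.mp z.2 ⟨d, hd⟩
    have h2 := congrArg (fun q : Q => ((q : Subgroup.centralizer ({x} : Set G)) : G)) h1
    simp only [Subgroup.coe_mul] at h2
    rw [hydef]
    exact h2.symm
  have hDx : D ≤ Subgroup.centralizer ({x} : Set G) := by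
    rw [hDdef]
    exact Subgroup.map_subtype_le _
  obtain ⟨R, hRdef⟩ : ∃ R : Subgroup (Subgroup.centralizer ({y} : Set G)),
      R = D.subgroupOf (Subgroup.centralizer ({y} : Set G)) := ⟨_, rfl⟩
  have hRp : IsPGroup p R := by
    rw [hRdef]
    exact hDp.comap_of_injective _ (Subgroup.subtype_injective _)
  have hRcard : Nat.card R = p ^ blockDefect p B := by
    rw [hRdef, ← hDcard]
    exact Nat.card_congr (Subgroup.subgroupOfEquivOfLe hDC).toEquiv
  have hRx : R ≤ Subgroup.centralizer
      ({(⟨x, hxC⟩ : Subgroup.centralizer ({y} : Set G))} : Set (Subgroup.centralizer ({y} : Set G))) := by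
    intro d hd
    rw [hRdef, Subgroup.mem_subgroupOf] at hd
    have h1 := Subgroup.mem_centralizer_iff.mp (hDx hd) x rfl
    rw [Subgroup.mem_centralizer_iff]
    intro w hw
    rw [Set.mem_singleton_iff] at hw
    rw [hw]
    exact Subtype.ext h1
  obtain ⟨b, hind, g, hRg, hg⟩ := exists_major_block hM B hB y ⟨1, by rw [hyord, pow_one]⟩
    ⟨x, hxC⟩ hx.2.1 R hRp hRx
  letI : Fintype (Subgroup.centralizer ({y} : Set G)) := Fintype.ofFinite _
  have h3 := card_le_of_coeff_unit hM b hind.1 g hg R hRp hRg
  rw [hRcard] at h3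
  have h4 : blockDefect p B ≤ blockDefect p b := (Nat.pow_le_pow_iff_right hp.one_lt).mp h3
  by_cases hbp : b = principalBlock M (Subgroup.centralizer ({y} : Set G))
  · rw [hbp] at hind
    exact hne (third_main_easy hM _ B hind)
  · have h5 := hC y hyord b hind.1 hbp
    omega

/-- Let p be a prime, M a maximal ideal of the algebraic integers containing p, and r a natural number; say that a finite group X has deficiency class r when X has no non-principal p-block of defect ≥ r. If G has deficiency class r then so does the centralizer of every p-element of G; conversely, if r > 0 and the centralizer of every element of order p has deficiency class r, then G has deficiency class r. -/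
theorem result {G : Type*} [Group G] [Finite G] (p : ℕ) [Fact p.Prime] (M : Ideal Cfsg.AlgInt) (hM : Cfsg.IsPModular p M) (r : ℕ) : ((∀ B' : Set (Cfsg.IrrCharacter G), Cfsg.IsPBlock M B' → B' ≠ Cfsg.principalBlock M G → Cfsg.blockDefect p B' < r) → ∀ y : G, (∃ k : ℕ, orderOf y = p ^ k) → (∀ B' : Set (Cfsg.IrrCharacter ↥(Subgroup.centralizer ({y} : Set G))), Cfsg.IsPBlock M B' → B' ≠ Cfsg.principalBlock M ↥(Subgroup.centralizer ({y} : Set G)) → Cfsg.blockDefect p B' < r)) ∧ (0 < r → (∀ y : G, orderOf y = p → (∀ B' : Set (Cfsg.IrrCharacter ↥(Subgroup.centralizer ({y} : Set G))), Cfsg.IsPBlock M B' → B' ≠ Cfsg.principalBlock M ↥(Subgroup.centralizer ({y} : Set G)) → Cfsg.blockDefect p B' < r)) → (∀ B' : Set (Cfsg.IrrCharacter G), Cfsg.IsPBlock M B' → B' ≠ Cfsg.principalBlock M G → Cfsg.blockDefect p B' < r)) := by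
  classical
  letI := Fintype.ofFinite G
  exact ⟨fun hG y hy b hb hne => part_a p M hM r hG y hy b hb hne,
    fun hr hC B hB hne => part_b p M hM r hr hC B hB hne⟩

end Cfsg.Agent.S4717
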