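import Cfsg.Statements.S4676
import Cfsg.Agent.S4710
import Cfsg.Agent.Lib.Helper82.Major

set_option autoImplicit false
open Cfsg

namespace Cfsg.Agent.S4676

/-- Fix a prime p and a maximal ideal M of the algebraic integers containing p. Let B be a p-block of the finite group G with defect group P. For χ in B, let the height of χ be the exponent of p in the degree of χ minus the least such exponent over the members of B. Then the sum over χ in B of p raised to twice the height of χ is at most the integer part of (order of P)²/4, plus 1; in particular B has at most that many irreducible characters. -/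
theorem result {G : Type*} [Group G] [Fintype G] (p : ℕ) [Fact p.Prime] (M : Ideal Cfsg.AlgInt) (hM : Cfsg.IsPModular p M) (B : Set (Cfsg.IrrCharacter G)) (hB : Cfsg.IsPBlock M B) (P : Subgroup G) (hP : Cfsg.IsDefectGroup p M B P) : ∑ᶠ χ ∈ B, p ^ (2 * Cfsg.blockHeight p B (χ : G → ℂ)) ≤ Nat.card P ^ 2 / 4 + 1 := by
  classical
  have := Cfsg.Agent.Lib.Helper4.irr_finite (G := G)
  let _ : Fintype (Cfsg.IrrCharacter G) := Fintype.ofFinite _
  have hp : p.Prime := Fact.out
  obtain ⟨χ₀, hχ₀B, hmin, hdef, hht⟩ := Cfsg.Agent.S4710.exists_min p M hM B hB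
  have hcard := Cfsg.Agent.Lib.Helper82.card_defectGroup hM B hB P hP
  have hea := Cfsg.Agent.Lib.Helper4.nu_le_card p χ₀
  rw [hcard, hdef]
  set e := (Cfsg.charDegree (χ₀ : G → ℂ)).factorization p with he
  set a := (Nat.card G).factorization p with ha
  rw [Cfsg.Agent.Lib.Helper79.finsum_mem_eq_sum_filter_univ]
  set Bf := Finset.univ.filter (fun θ : Cfsg.IrrCharacter G => θ ∈ B) with hBf
  have hBfB : ∀ θ ∈ Bf, θ ∈ B := by
    intro θ hθ
    rw [hBf, Finset.mem_filter] at hθ
    exact hθ.2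
  have hχ₀Bf : χ₀ ∈ Bf := by
    rw [hBf, Finset.mem_filter]; exact ⟨Finset.mem_univ _, hχ₀B⟩
  have hrow := Cfsg.Agent.S4710.row_bound p χ₀ (Bf.erase χ₀) (Finset.notMem_erase _ _)
    (fun θ => ((p ^ (2 * Cfsg.blockHeight p B (θ : G → ℂ)) : ℕ) : ℤ)) (by
      intro θ hθ
      have hθB : θ ∈ B := hBfB θ (Finset.mem_of_mem_erase hθ)
      have hnd := Cfsg.Agent.Lib.Helper4.min_ctr_not_dvd p M hM B hB χ₀ hχ₀B hmin θ hθB
      have hne : Cfsg.Agent.Lib.Helper4.nctr p χ₀ θ ≠ 0 := by
        apply Cfsg.Agent.Lib.Helper4.nctr_ne_zero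
        intro h0
        apply hnd
        rw [h0]
        exact dvd_zero _
      have h1 := Cfsg.Agent.Lib.Helper4.ctr_dvd_right p χ₀ θ
      rw [Cfsg.Agent.Lib.Helper4.nctr_spec p χ₀ θ, ← he] at h1
      have hsplit : (Cfsg.charDegree (θ : G → ℂ)).factorization p =
          e + Cfsg.blockHeight p B (θ : G → ℂ) := by
        have := hmin θ hθB
        have := hht θ
        omega
      rw [hsplit, pow_add] at h1
      push_cast at h1
      have hpe : ((p : ℤ) ^ e) ≠ 0 := pow_ne_zero _ (by exact_mod_cast hp.ne_zero)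
      have h3 : (p : ℤ) ^ Cfsg.blockHeight p B (θ : G → ℂ) ∣
          Cfsg.Agent.Lib.Helper4.nctr p χ₀ θ := (mul_dvd_mul_iff_left hpe).mp h1
      obtain ⟨t, ht⟩ := h3
      rw [ht]
      have ht0 : t ≠ 0 := by
        rintro rfl
        rw [mul_zero] at ht
        exact hne ht
      have h4 : 1 ≤ t ^ 2 := by
        have : 0 < t ^ 2 := by positivity
        omega
      have h5 : (0 : ℤ) ≤ ((p : ℤ) ^ Cfsg.blockHeight p B (θ : G → ℂ)) ^ 2 := by positivity
      push_cast
      rw [mul_comm 2, pow_mul]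
      nlinarith)
  rw [← he, ← ha] at hrow
  have h0 : Cfsg.blockHeight p B (χ₀ : G → ℂ) = 0 := by
    have := hht χ₀
    omega
  rw [← Finset.add_sum_erase _ _ hχ₀Bf, h0, mul_zero, pow_zero, add_comm]
  apply Nat.add_le_add_right
  rw [Nat.le_div_iff_mul_le (by norm_num)]
  have hrow' : ((4 * ∑ θ ∈ Bf.erase χ₀, p ^ (2 * Cfsg.blockHeight p B (θ : G → ℂ)) : ℕ) : ℤ) ≤
      (((p ^ (a - e)) ^ 2 : ℕ) : ℤ) := by
    push_cast
    push_cast at hrow
    exact hrow
  have := Int.ofNat_le.mp hrow'
  omega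

end Cfsg.Agent.S4676
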