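import Cfsg.Statements.S4718
import Cfsg.Agent.Lib.Helper82.Landau
import Cfsg.Agent.Lib.Helper82.Major
import Cfsg.Agent.Lib.Helper83.Count
import Cfsg.Agent.S0931
import Cfsg.Agent.S4676
import Cfsg.Agent.S4691

set_option autoImplicit false
open Cfsg

universe u

namespace Cfsg.Agent.S4718

open Cfsg.Agent.Lib.Helper82

/-- Let p be a prime and a a natural number. There is a bound N such that every finite group whose Sylow p-subgroups have order p^a and whose only p-block (relative to a maximal ideal of the algebraic integers containing p) is the principal block has order at most N. -/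
theorem result (p : ℕ) [Fact p.Prime] (a : ℕ) : ∃ N : ℕ, ∀ (G : Type u) [Group G] [Finite G] (M : Ideal Cfsg.AlgInt), Cfsg.IsPModular p M → (Nat.card G).factorization p = a → (∀ B : Set (Cfsg.IrrCharacter G), Cfsg.IsPBlock M B → B = Cfsg.principalBlock M G) → Nat.card G ≤ N := by
  obtain ⟨N, hN⟩ := landau.{u} ((p ^ a) ^ 2 / 4 + 1)
  refine ⟨N, fun G _ _ M hM ha hone => hN G ?_⟩
  classical
  cases nonempty_fintype G
  haveI := Cfsg.Agent.Lib.Helper4.irr_finite (G := G)
  letI := Fintype.ofFinite (IrrCharacter G)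
  have hp : p.Prime := Fact.out
  rw [← Cfsg.Agent.Lib.Helper83.card_irr_eq_card_conjClasses]
  have hall : ∀ χ : IrrCharacter G, χ ∈ principalBlock M G := by
    intro χ
    have h := hone (blockOf M (χ : G → ℂ)) ⟨χ, rfl⟩
    rw [← h]
    exact Cfsg.Agent.Lib.Helper79.mem_blockOf_self hM χ
  obtain ⟨D, hD⟩ := Cfsg.Agent.S0931.exists_defectGroup p M hM (principalBlock M G)
    (Cfsg.Agent.S4691.principal_isPBlock M)
  have h1 := Cfsg.Agent.S4676.result p M hM (principalBlock M G)
    (Cfsg.Agent.S4691.principal_isPBlock M) D hD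
  have hcard := card_defectGroup hM _ (Cfsg.Agent.S4691.principal_isPBlock M) D hD
  have hd : blockDefect p (principalBlock M G) ≤ a := by
    unfold blockDefect
    rw [ha]
    exact Nat.sub_le _ _
  have h2 : Nat.card D ^ 2 / 4 + 1 ≤ (p ^ a) ^ 2 / 4 + 1 := by
    rw [hcard]
    have h3 : p ^ blockDefect p (principalBlock M G) ≤ p ^ a :=
      Nat.pow_le_pow_right hp.pos hd
    have h4 := Nat.pow_le_pow_left h3 2
    have h5 := Nat.div_le_div_right (c := 4) h4
    omega
  have h3 : Nat.card (IrrCharacter G) ≤ ∑ᶠ χ ∈ principalBlock M G,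
      p ^ (2 * blockHeight p (principalBlock M G) (χ : G → ℂ)) := by
    rw [finsum_mem_def, finsum_eq_sum_of_fintype, Nat.card_eq_fintype_card, ← Finset.card_univ,
      Finset.card_eq_sum_ones]
    refine Finset.sum_le_sum fun χ _ => ?_
    rw [Set.indicator_of_mem (hall χ)]
    exact Nat.one_le_pow _ _ hp.pos
  exact le_trans h3 (le_trans h1 h2)

end Cfsg.Agent.S4718
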