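import Cfsg.Statements.S5038
import Cfsg.Agent.Lib.Helper86.RootSub8
open Cfsg.Agent.Lib.Helper86

set_option autoImplicit false
open Cfsg

namespace Cfsg.Agent.S5038

/-- Let S be a set of abstract root subgroups of G in which every member has a rank one partner, A ∈ S and B a line partner of A. Then the subgroup generated by the members of S normalizing AB permutes the members of S inside AB doubly transitively by conjugation. -/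
theorem result {G : Type*} [Group G] {S : Set (Subgroup G)} (hS : Cfsg.IsRootSubgroupSet S)
    (hF : ∀ A ∈ S, ¬ Cfsg.IsIsolatedIn (Cfsg.FAdj S) S A) {A B : Subgroup G} (hA : A ∈ S) (hB : B ∈ Cfsg.linePartners S A) :
    ∀ C₁ ∈ Cfsg.membersIn S (A ⊔ B), ∀ C₂ ∈ Cfsg.membersIn S (A ⊔ B), ∀ D₁ ∈ Cfsg.membersIn S (A ⊔ B),
      ∀ D₂ ∈ Cfsg.membersIn S (A ⊔ B), C₁ ≠ C₂ → D₁ ≠ D₂ →
        ∃ x ∈ ⨆ E ∈ Cfsg.normalizingMembers S (A ⊔ B), E, Cfsg.conjBy C₁ x = D₁ ∧ Cfsg.conjBy C₂ x = D₂ := by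
  obtain ⟨⟨hBS, hBA, hAB0⟩, hpartn⟩ := hB
  have hpart : ∀ A ∈ S, ∃ C ∈ S, IsRankOnePair A C := fun A hA =>
    partner_of_not_isolated (hF A hA) hA
  have hab : ∀ x ∈ A ⊔ B, ∀ y ∈ A ⊔ B, x * y = y * x :=
    sup_commute_of_commute (fun x hx y hy => root_comm hS hA hx hy)
      (fun x hx y hy => root_comm hS hBS hx hy) (commutator_eq_bot_iff'.mp hAB0)
  have hAL : A ∈ membersIn S (A ⊔ B) := ⟨hA, le_sup_left⟩
  have hBL : B ∈ membersIn S (A ⊔ B) := ⟨hBS, le_sup_right⟩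
  -- first point stabilizer
  obtain ⟨C, hC, hAC⟩ := hpart A hA
  obtain ⟨D, hD, hDA, hADsup, ccCD, ccAE, hAE⟩ :=
    line_aux hS hpart hpartn hab hAL hBL (Ne.symm hBA) rfl hC hAC
  obtain ⟨hEn, hEfix, hEtr, hEreg⟩ := line_triple hS hA hC hAC ccCD.1 ccAE hAE hADsup
  -- second point stabilizer
  obtain ⟨C', hC', hDC'⟩ := hpart D hD.1
  obtain ⟨D₂, hD₂, hD₂D, hDD₂sup, ccC'D₂, ccDE₂, hDE₂⟩ :=
    line_aux hS hpart hpartn hab hD hAL hDA ((sup_comm D A).trans hADsup) hC' hDC'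
  obtain ⟨hE₂n, hE₂fix, hE₂tr, -⟩ := line_triple hS hD.1 hC' hDC' ccC'D₂.1 ccDE₂ hDE₂ hDD₂sup
  have hEle : ⁅C, D⁆ ≤ ⨆ E ∈ normalizingMembers S (A ⊔ B), E :=
    le_biSup (fun E : Subgroup G => E) hEn
  have hE₂le : ⁅C', D₂⁆ ≤ ⨆ E ∈ normalizingMembers S (A ⊔ B), E :=
    le_biSup (fun E : Subgroup G => E) hE₂n
  have hTnorm : ∀ x ∈ ⨆ E ∈ normalizingMembers S (A ⊔ B), E, conjBy (A ⊔ B) x = A ⊔ B := by
    intro x hx
    rw [conjBy_eq_self_iff]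
    have hle : (⨆ E ∈ normalizingMembers S (A ⊔ B), E) ≤
        Subgroup.normalizer ((A ⊔ B : Subgroup G) : Set G) :=
      iSup₂_le (fun E hE => hE.2)
    exact hle hx
  have hperm : ∀ x ∈ ⨆ E ∈ normalizingMembers S (A ⊔ B), E, ∀ F' ∈ membersIn S (A ⊔ B),
      conjBy F' x ∈ membersIn S (A ⊔ B) := by
    intro x hx F' hF'
    refine ⟨hS.conj_mem F' hF'.1 x, ?_⟩
    have := conjBy_mono hF'.2 x
    rwa [hTnorm x hx] at this
  -- transitivity of E on the points other than D, of E₂ on the points other than D₂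
  have hEtrans : ∀ F₁ ∈ membersIn S (A ⊔ B), ∀ F₂ ∈ membersIn S (A ⊔ B), F₁ ≠ D → F₂ ≠ D →
      ∃ e ∈ ⁅C, D⁆, conjBy F₁ e = F₂ := by
    intro F₁ hF₁ F₂ hF₂ h1 h2
    obtain ⟨e₁, he₁, rfl⟩ := hEtr F₁ hF₁ h1
    obtain ⟨e₂, he₂, rfl⟩ := hEtr F₂ hF₂ h2
    refine ⟨e₂ * e₁⁻¹, Subgroup.mul_mem _ he₂ (Subgroup.inv_mem _ he₁), ?_⟩
    rw [conjBy_conjBy, inv_mul_cancel_right]
  have hE₂trans : ∀ F₁ ∈ membersIn S (A ⊔ B), ∀ F₂ ∈ membersIn S (A ⊔ B), F₁ ≠ D₂ → F₂ ≠ D₂ →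
      ∃ e ∈ ⁅C', D₂⁆, conjBy F₁ e = F₂ := by
    intro F₁ hF₁ F₂ hF₂ h1 h2
    obtain ⟨e₁, he₁, rfl⟩ := hE₂tr F₁ hF₁ h1
    obtain ⟨e₂, he₂, rfl⟩ := hE₂tr F₂ hF₂ h2
    refine ⟨e₂ * e₁⁻¹, Subgroup.mul_mem _ he₂ (Subgroup.inv_mem _ he₁), ?_⟩
    rw [conjBy_conjBy, inv_mul_cancel_right]
  -- every point can be moved to D
  have hstepA : ∀ F' ∈ membersIn S (A ⊔ B),
      ∃ x ∈ ⨆ E ∈ normalizingMembers S (A ⊔ B), E, conjBy F' x = D := by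
    intro F' hF'
    by_cases h1 : F' = D
    · exact ⟨1, Subgroup.one_mem _, by rw [conjBy_one, h1]⟩
    by_cases h2 : F' = D₂
    · subst h2
      obtain ⟨e₀, he₀, he₀1⟩ := root_exists_ne_one hS ccCD.1
      have hF'' : conjBy F' e₀ ∈ membersIn S (A ⊔ B) := hperm e₀ (hEle he₀) F' hF'
      have hne1 : conjBy F' e₀ ≠ D := by
        intro h3
        rw [← hEfix e₀ he₀] at h3
        exact h1 (conjBy_injective e₀ h3)
      have hne2 : conjBy F' e₀ ≠ F' := by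
        intro h3
        obtain ⟨e₁, he₁, hFe⟩ := hEtr F' hF' h1
        rw [hFe, conjBy_conjBy] at h3
        have h4 : conjBy A (e₁⁻¹ * (e₀ * e₁)) = A := by
          rw [← conjBy_conjBy, h3, conjBy_inv_cancel]
        have h5 : e₁⁻¹ * (e₀ * e₁) = 1 := by
          by_contra h6
          exact hEreg _ (Subgroup.mul_mem _ (Subgroup.inv_mem _ he₁)
            (Subgroup.mul_mem _ he₀ he₁)) h6 h4
        apply he₀1
        calc e₀ = e₁ * (e₁⁻¹ * (e₀ * e₁)) * e₁⁻¹ := by group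
          _ = 1 := by rw [h5]; group
      obtain ⟨e₂, he₂, hmove⟩ := hE₂trans _ hF'' D hD hne2 (Ne.symm hD₂D)
      refine ⟨e₂ * e₀, Subgroup.mul_mem _ (hE₂le he₂) (hEle he₀), ?_⟩
      rw [← conjBy_conjBy, hmove]
    · obtain ⟨e₂, he₂, hmove⟩ := hE₂trans F' hF' D hD h2 (Ne.symm hD₂D)
      exact ⟨e₂, hE₂le he₂, hmove⟩
  intro C₁ hC₁ C₂ hC₂ D₁ hD₁ D₂' hD₂' hCne hDne
  obtain ⟨x₁, hx₁, hx₁e⟩ := hstepA C₁ hC₁
  obtain ⟨y₁, hy₁, hy₁e⟩ := hstepA D₁ hD₁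
  have hP : conjBy C₂ x₁ ≠ D := by
    intro h
    rw [← hx₁e] at h
    exact hCne (conjBy_injective x₁ h).symm
  have hQ : conjBy D₂' y₁ ≠ D := by
    intro h
    rw [← hy₁e] at h
    exact hDne (conjBy_injective y₁ h).symm
  obtain ⟨e, he, hee⟩ := hEtrans _ (hperm x₁ hx₁ C₂ hC₂) _ (hperm y₁ hy₁ D₂' hD₂') hP hQ
  refine ⟨y₁⁻¹ * e * x₁, Subgroup.mul_mem _ (Subgroup.mul_mem _ (Subgroup.inv_mem _ hy₁)
    (hEle he)) hx₁, ?_, ?_⟩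
  · rw [← conjBy_conjBy, ← conjBy_conjBy, hx₁e, hEfix e he, ← hy₁e, conjBy_inv_cancel]
  · rw [← conjBy_conjBy, ← conjBy_conjBy, hee, conjBy_inv_cancel]

end Cfsg.Agent.S5038
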