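import Cfsg.Statements.S5627
import Cfsg.Agent.Lib.Helper95.Plane4Arc

set_option autoImplicit false
open Cfsg

namespace Cfsg.Agent.S5627

/-- In a projective plane of order 4 (a Steiner system S(2, 5, 21)), call a set of points independent when no line meets it in more than two points. There are exactly 2520 independent 4-sets and exactly 168 independent 6-sets (hyperovals), and every independent 4-set lies in exactly one hyperoval. -/
theorem result {α : Type*} [Fintype α] [DecidableEq α] (hα : Fintype.card α = 21) (L : Set (Finset α)) (hL : Cfsg.IsSteinerSystem 2 5 L) : {S : Finset α | (S.card = 4 ∧ ∀ l ∈ L, (l ∩ S).card ≤ 2)}.ncard = 2520 ∧ {H : Finset α | (H.card = 6 ∧ ∀ l ∈ L, (l ∩ H).card ≤ 2)}.ncard = 168 ∧ ∀ S : Finset α, (S.card = 4 ∧ ∀ l ∈ L, (l ∩ S).card ≤ 2) → ∃! H : Finset α, (H.card = 6 ∧ ∀ l ∈ L, (l ∩ H).card ≤ 2) ∧ S ⊆ H := by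
  have h : Cfsg.Agent.Lib.Helper95.P4 L := ⟨hα, hL⟩
  have hset : ∀ k : ℕ, {S : Finset α | (S.card = k ∧ ∀ l ∈ L, (l ∩ S).card ≤ 2)}
      = ((h.arcsF k : Finset (Finset α)) : Set (Finset α)) := by
    intro k
    ext S
    rw [Finset.mem_coe, Cfsg.Agent.Lib.Helper95.P4.mem_arcsF]
    rfl
  refine ⟨?_, ?_, ?_⟩
  · rw [hset 4, Set.ncard_coe_finset, h.card_arcsF_four]
  · rw [hset 6, Set.ncard_coe_finset, h.card_arcsF_six]
  · intro S hS
    have hS' : S ∈ h.arcsF 4 := (Cfsg.Agent.Lib.Helper95.P4.mem_arcsF h).mpr hS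
    obtain ⟨H, ⟨hH, hSH⟩, huniq⟩ := h.exists_unique_hyperoval hS'
    refine ⟨H, ⟨(Cfsg.Agent.Lib.Helper95.P4.mem_arcsF h).mp hH, hSH⟩, ?_⟩
    rintro H' ⟨hH', hSH'⟩
    exact huniq H' ⟨(Cfsg.Agent.Lib.Helper95.P4.mem_arcsF h).mpr hH', hSH'⟩

end Cfsg.Agent.S5627
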