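import Cfsg.Statements.S1451
import Mathlib
import Cfsg.Agent.Lib.Helper34.Rank2f

set_option autoImplicit false
open Cfsg

namespace Cfsg.Agent.S1451

/-- Let G be a solvable group of odd order such that G, or its Fitting subgroup, has no elementary abelian subgroup of order q ^ 3 for any prime q. Then G' is nilpotent; for every Sylow subgroup S of G, every characteristic subgroup T of S with T ≤ [S, S] is normal in G; and for every prime p, G has a characteristic subgroup that is a Hall subgroup for the set of primes greater than p. -/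
theorem result {G : Type*} [Group G] [Finite G] [Group.IsSolvable G] (hodd : Odd (Nat.card G)) (hr : Cfsg.RankLE 2 G ∨ Cfsg.RankLE 2 (Cfsg.fittingSubgroup G)) :
    Group.IsNilpotent ↥(commutator G) ∧
      (∀ (q : ℕ) [Fact q.Prime] (S : Sylow q G) (T : Subgroup ↥(S : Subgroup G)), T.Characteristic → T.map (S : Subgroup G).subtype ≤ ⁅(S : Subgroup G), (S : Subgroup G)⁆ →
        (T.map (S : Subgroup G).subtype).Normal) ∧
      ∀ p : ℕ, ∃ N : Subgroup G, N.Characteristic ∧ Cfsg.IsPiHall {q | q.Prime ∧ p < q} N := by
  have hr' : ∀ q : ℕ, q.Prime → PRankLE q 2 ↥(pCore q G) := by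
    intro q hq
    haveI : Fact q.Prime := ⟨hq⟩
    rcases hr with h | h
    · exact Cfsg.Agent.Lib.Helper34.prankLE_subgroup q 2 (h q hq) _
    · have hle : pCore q G ≤ fittingSubgroup G :=
        le_sSup ⟨Cfsg.Agent.Lib.Helper30.pCore_normal q G,
          (Cfsg.Agent.Lib.Helper30.pCore_isPGroup q).isNilpotent⟩
      exact Cfsg.Agent.Lib.Helper34.prankLE_of_injective q 2 (Subgroup.inclusion hle)
        (Subgroup.inclusion_injective hle) (h q hq)
  have hDF : commutator G ≤ fittingSubgroup G :=
    Cfsg.Agent.Lib.Helper34.rank2_commutator_le_fitting hodd hr'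
  refine ⟨?_, ?_, ?_⟩
  · haveI : Group.IsNilpotent ↥(fittingSubgroup G) := Cfsg.Agent.Lib.Helper30.fitting_nilpotent
    haveI : Group.IsNilpotent ↥((commutator G).subgroupOf (fittingSubgroup G)) :=
      Subgroup.isNilpotent _
    exact Group.nilpotent_of_mulEquiv (Subgroup.subgroupOfEquivOfLe hDF)
  · intro q _ S T hT hTS
    exact Cfsg.Agent.Lib.Helper34.rank2_char_normal hodd hr' q S T hT hTS
  · intro p
    exact Cfsg.Agent.Lib.Helper34.rank2_hall_tower hodd hr' p

end Cfsg.Agent.S1451
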