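import Cfsg.Statements.S0391
import Cfsg.Agent.Lib.Helper10.LeechNorm
import Cfsg.Agent.Lib.Helper10.GolayW4

set_option autoImplicit false
open Cfsg

namespace Cfsg.Agent.S0391

/-- Nonzero lattice vectors have sum of squares ≥ 32 (no vectors of customary norm 2). -/
theorem result (x : Cfsg.GolayPt → ℤ) (hx : x ∈ Cfsg.leechLattice) (h0 : x ≠ 0) : 32 ≤ Cfsg.sqNorm x :=
  Cfsg.Agent.Lib.Helper10.min_norm_of (fun _ hS => Cfsg.Agent.Lib.Helper10.golay_doubly_even hS)
    (fun _ hS => Cfsg.Agent.Lib.Helper10.no_weight4 hS)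
    ((Cfsg.Agent.Lib.Helper10.mem_leechLattice_iff x).1 hx) h0

end Cfsg.Agent.S0391
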