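-- Statement S5592: short vectors of the Leech lattice congruent modulo twice the lattice.
import Cfsg.Statements.S5592
import Cfsg.Agent.Lib.Helper10.LeechNorm
import Cfsg.Agent.Lib.Helper10.GolayW4

set_option autoImplicit false
open Cfsg

namespace Cfsg.Agent.S5592

open Cfsg.Agent.Lib.Helper10

theorem min32 {x : GolayPt → ℤ} (hx : x ∈ leechLattice) (h0 : x ≠ 0) : 32 ≤ sqNorm x :=
  min_norm_of (fun _ hS => golay_doubly_even hS) (fun _ hS => no_weight4 hS)
    ((mem_leechLattice_iff x).1 hx) h0

theorem sqNorm_two_smul (z : GolayPt → ℤ) : sqNorm (2 • z) = 4 * sqNorm z := by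
  simp only [sqNorm, Pi.smul_apply, Finset.mul_sum]
  apply Finset.sum_congr rfl
  intro i _
  simp only [nsmul_eq_mul, Nat.cast_ofNat]
  ring

theorem sqNorm_sub' (a b : GolayPt → ℤ) :
    sqNorm (a - b) = sqNorm a - 2 * dotInt a b + sqNorm b := by
  simp only [sqNorm, dotInt, Pi.sub_apply, Finset.mul_sum, ← Finset.sum_add_distrib,
    ← Finset.sum_sub_distrib]
  apply Finset.sum_congr rfl
  intro i _
  ring

theorem sqNorm_add' (a b : GolayPt → ℤ) :
    sqNorm (a + b) = sqNorm a + 2 * dotInt a b + sqNorm b := by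
  simp only [sqNorm, dotInt, Pi.add_apply, Finset.mul_sum, ← Finset.sum_add_distrib]
  apply Finset.sum_congr rfl
  intro i _
  ring

/-- In the Leech lattice (integer coordinates, sum of squares equal to 8 times the customary norm, so the shortest non-zero vectors have sum of squares 32): if two distinct vectors of sum of squares at most 64 are congruent modulo twice the lattice, then either they are negatives of each other, or both have sum of squares 64 and they are orthogonal. -/
theorem result (x y : Cfsg.GolayPt → ℤ) (hx : x ∈ Cfsg.leechLattice) (hy : y ∈ Cfsg.leechLattice) (hxy : x ≠ y) (hxn : Cfsg.sqNorm x ≤ 64) (hyn : Cfsg.sqNorm y ≤ 64) (hc : (∃ z ∈ Cfsg.leechLattice, x - y = 2 • z)) :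
    x = -y ∨ (Cfsg.sqNorm x = 64 ∧ Cfsg.sqNorm y = 64 ∧ Cfsg.dotInt x y = 0) := by
  obtain ⟨z, hz, hxyz⟩ := hc
  have hz0 : z ≠ 0 := by
    rintro rfl
    apply hxy
    rw [smul_zero] at hxyz
    exact sub_eq_zero.1 hxyz
  have h1 := min32 hz hz0
  by_cases hneg : x = -y
  · left; exact hneg
  · right
    have hzy : z + y ∈ leechLattice := add_mem hz hy
    have hx' : x = y + 2 • z := by rw [← hxyz]; abel
    have hzy0 : z + y ≠ 0 := by
      intro h
      apply hneg
      have hz' : z = -y := eq_neg_of_add_eq_zero_left h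
      rw [hx', hz', two_smul]
      abel
    have h2 := min32 hzy hzy0
    have e1 : sqNorm (x - y) = 4 * sqNorm z := by rw [hxyz, sqNorm_two_smul]
    have e2 : sqNorm (x + y) = 4 * sqNorm (z + y) := by
      have : x + y = 2 • (z + y) := by rw [hx', two_smul, two_smul]; abel
      rw [this, sqNorm_two_smul]
    have e3 := sqNorm_sub' x y
    have e4 := sqNorm_add' x y
    omega

end Cfsg.Agent.S5592
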