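import Cfsg.Statements.S1567
import Cfsg.Agent.Lib.Helper10.LeechIndex

set_option autoImplicit false
open scoped Pointwise
open Cfsg

namespace Cfsg.Agent.S1567

open Cfsg.Agent.Lib.Helper9 Cfsg.Agent.Lib.Helper10

theorem rowN_norm : ∀ c < 24, c ≠ 0 → ∑ j : GolayPt, rowN c (idx j) ^ 2 = 32 := by
  decide +kernel

theorem rowN_norm_zero : ∑ j : GolayPt, (rowN 0 (idx j) - rowN 1 (idx j)) ^ 2 = 32 := by
  decide +kernel

theorem leechRow_mem_closure (i : GolayPt) :
    leechRow i ∈ AddSubgroup.closure
      {x : GolayPt → ℤ | x ∈ leechLattice ∧ sqNorm x = 32} := by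
  by_cases h0 : idx i = 0
  · have h1 : leechRow (pt 1) ∈ AddSubgroup.closure
        {x : GolayPt → ℤ | x ∈ leechLattice ∧ sqNorm x = 32} := by
      apply AddSubgroup.subset_closure
      refine ⟨leechRow_mem _, ?_⟩
      show ∑ j : GolayPt, rowN (idx (pt 1)) (idx j) ^ 2 = 32
      rw [idx_pt (by norm_num)]
      exact rowN_norm 1 (by norm_num) (by norm_num)
    have h2 : leechRow i - leechRow (pt 1) ∈ AddSubgroup.closure
        {x : GolayPt → ℤ | x ∈ leechLattice ∧ sqNorm x = 32} := by
      apply AddSubgroup.subset_closure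
      refine ⟨leechLattice.sub_mem (leechRow_mem _) (leechRow_mem _), ?_⟩
      show ∑ j : GolayPt, (rowN (idx i) (idx j) - rowN (idx (pt 1)) (idx j)) ^ 2 = 32
      rw [idx_pt (by norm_num), h0]
      exact rowN_norm_zero
    have h3 := AddSubgroup.add_mem _ h2 h1
    rwa [sub_add_cancel] at h3
  · apply AddSubgroup.subset_closure
    refine ⟨leechRow_mem _, ?_⟩
    show ∑ j : GolayPt, rowN (idx i) (idx j) ^ 2 = 32
    exact rowN_norm (idx i) (idx_lt i) h0

/-- The rank-24 lattice is the additive subgroup generated by its 196560 minimal vectors. -/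
theorem result : AddSubgroup.closure {x : Cfsg.GolayPt → ℤ | x ∈ Cfsg.leechLattice ∧ Cfsg.sqNorm x = 32} = Cfsg.leechLattice := by
  apply le_antisymm
  · rw [AddSubgroup.closure_le]
    intro x hx
    exact hx.1
  · intro x hx
    have h1 := tri_span revEnum leechRow leechLattice leechRow_tri leechRow_mem leechRow_dvd x hx
    have h2 : AddSubgroup.closure (Set.range leechRow) ≤ AddSubgroup.closure
        {x : GolayPt → ℤ | x ∈ leechLattice ∧ sqNorm x = 32} := by
      rw [AddSubgroup.closure_le]
      rintro _ ⟨i, rfl⟩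
      exact leechRow_mem_closure i
    exact h2 h1

end Cfsg.Agent.S1567
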