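-- Statement S5553: a totally singular subgroup of index 2^12 in the Leech lattice.
import Cfsg.Statements.S5553
import Cfsg.Agent.Lib.Helper10.GolayBasic
import Cfsg.Agent.Lib.Helper9.Golay

set_option autoImplicit false
open Cfsg

namespace Cfsg.Agent.S5553

open Cfsg.Agent.Lib.Helper10

theorem intCast_ne_zero_iff (a : ℤ) : ((a : ZMod 2) ≠ 0) ↔ a % 2 = 1 := by
  rw [Ne, ZMod.intCast_zmod_eq_zero_iff_dvd]
  push_cast
  omega

theorem intCast_eq_zero_iff (a : ℤ) : ((a : ZMod 2) = 0) ↔ a % 2 = 0 := by
  rw [ZMod.intCast_zmod_eq_zero_iff_dvd]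
  push_cast
  omega

/-- The binary word attached to a lattice vector: `i ↦ (v i + v ∞) / 2 mod 2`. -/
def wd (v : GolayPt → ℤ) : GolayPt → ZMod 2 := fun i => (((v i + v none) / 2 : ℤ) : ZMod 2)

theorem wd_apply (v : GolayPt → ℤ) (i : GolayPt) : wd v i = (((v i + v none) / 2 : ℤ) : ZMod 2) := rfl

theorem support_wd {v : GolayPt → ℤ} {m : ℤ} (h1 : ∀ i, v i % 2 = m % 2) :
    support₂ (wd v) = resSet v (2 - v none) := by
  ext i
  rw [Cfsg.Agent.Lib.Helper9.mem_support₂, mem_resSet, wd_apply, intCast_ne_zero_iff]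
  have := h1 i
  have := h1 none
  omega

theorem wd_mem {v : GolayPt → ℤ} (hv : v ∈ leechLattice) : wd v ∈ golayCode := by
  obtain ⟨m, h1, h2, h3⟩ := (mem_leechSet_iff v).1 ((mem_leechLattice_iff v).1 hv)
  obtain ⟨w, hw, hws⟩ := h3 (2 - v none)
  have : w = wd v := Cfsg.Agent.Lib.Helper9.support₂_injective (hws.trans (support_wd h1).symm)
  rw [← this]
  exact hw

theorem even_add_none {v : GolayPt → ℤ} (hv : v ∈ leechLattice) (i : GolayPt) :
    (v i + v none) % 2 = 0 := by
  obtain ⟨m, h1, h2, h3⟩ := (mem_leechSet_iff v).1 ((mem_leechLattice_iff v).1 hv)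
  have := h1 i
  have := h1 none
  omega

theorem wd_add {v w : GolayPt → ℤ} (hv : v ∈ leechLattice) (hw : w ∈ leechLattice) :
    wd (v + w) = wd v + wd w := by
  funext i
  rw [Pi.add_apply, wd_apply, wd_apply, wd_apply, ← Int.cast_add]
  congr 1
  have := even_add_none hv i
  have := even_add_none hw i
  simp only [Pi.add_apply]
  omega

theorem wd_zero : wd 0 = 0 := by
  funext i
  simp [wd_apply]

/-- The word map as a homomorphism from the lattice to the code. -/
def wdHom : ↥leechLattice →+ ↥golayCode where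
  toFun v := ⟨wd v.1, wd_mem v.2⟩
  map_zero' := Subtype.ext wd_zero
  map_add' v w := Subtype.ext (wd_add v.2 w.2)

/-- Vectors of the lattice all of whose coordinates are congruent modulo 4 to the same even number. -/
def Asub : AddSubgroup (GolayPt → ℤ) where
  carrier := {v | v ∈ leechLattice ∧ ∀ i, (v i + v none) % 4 = 0}
  zero_mem' := ⟨zero_mem _, fun i => by simp⟩
  add_mem' := by
    rintro v w ⟨hv, hv'⟩ ⟨hw, hw'⟩
    refine ⟨add_mem hv hw, fun i => ?_⟩
    have := hv' i
    have := hw' i
    simp only [Pi.add_apply]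
    omega
  neg_mem' := by
    rintro v ⟨hv, hv'⟩
    refine ⟨neg_mem hv, fun i => ?_⟩
    have := hv' i
    simp only [Pi.neg_apply]
    omega

theorem mem_Asub (v : GolayPt → ℤ) : v ∈ Asub ↔ v ∈ leechLattice ∧ ∀ i, (v i + v none) % 4 = 0 :=
  Iff.rfl

theorem ker_wdHom : wdHom.ker = Asub.addSubgroupOf leechLattice := by
  ext v
  rw [AddMonoidHom.mem_ker, AddSubgroup.mem_addSubgroupOf, mem_Asub]
  constructor
  · intro h
    refine ⟨v.2, fun i => ?_⟩
    have h1 : wd v.1 i = 0 := congrFun (congrArg Subtype.val h) i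
    rw [wd_apply, intCast_eq_zero_iff] at h1
    have := even_add_none v.2 i
    omega
  · rintro ⟨_, h⟩
    apply Subtype.ext
    funext i
    show wd v.1 i = 0
    rw [wd_apply, intCast_eq_zero_iff]
    have := h i
    omega

/-- Twice the indicator of the support of a binary word. -/
def dbl (c : GolayPt → ZMod 2) : GolayPt → ℤ := fun i => if c i = 0 then 0 else 2

theorem dbl_apply (c : GolayPt → ZMod 2) (i : GolayPt) : dbl c i = if c i = 0 then 0 else 2 := rfl

theorem sum_dbl (c : GolayPt → ZMod 2) : ∑ i, dbl c i = 2 * ((support₂ c).card : ℤ) := by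
  unfold support₂
  rw [Finset.card_filter]
  push_cast
  rw [Finset.mul_sum]
  apply Finset.sum_congr rfl
  intro i _
  rw [dbl_apply]
  split_ifs <;> simp_all

theorem dbl_mem {c : GolayPt → ZMod 2} (hc : c ∈ golayCode) : dbl c ∈ leechLattice := by
  rw [mem_leechLattice_iff, mem_leechSet_iff]
  have hS : support₂ c ∈ gsup := ⟨c, hc, rfl⟩
  refine ⟨0, fun i => ?_, ?_, fun k => ?_⟩
  · rw [dbl_apply]; split_ifs <;> rfl
  · rw [sum_dbl]
    obtain ⟨e, he⟩ := golay_doubly_even hS
    rw [he]
    push_cast
    omega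
  · have hk : k % 4 = 0 ∨ k % 4 = 2 ∨ k % 2 = 1 := by omega
    rcases hk with hk | hk | hk
    · have : resSet (dbl c) k = (support₂ c)ᶜ := by
        ext i
        rw [mem_resSet, Finset.mem_compl, Cfsg.Agent.Lib.Helper9.mem_support₂, dbl_apply]
        by_cases h : c i = 0
        · rw [if_pos h]
          constructor
          · intro _ hne; exact hne h
          · intro _; omega
        · rw [if_neg h]
          constructor
          · intro h2; omega
          · intro h2; exact absurd h h2
      rw [this]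
      exact compl_mem_gsup hS
    · have : resSet (dbl c) k = support₂ c := by
        ext i
        rw [mem_resSet, Cfsg.Agent.Lib.Helper9.mem_support₂, dbl_apply]
        by_cases h : c i = 0
        · rw [if_pos h]
          constructor
          · intro h2; omega
          · intro h2; exact absurd h h2
        · rw [if_neg h]
          constructor
          · intro _; exact h
          · intro _; omega
      rw [this]
      exact hS
    · have : resSet (dbl c) k = ∅ := by
        ext i
        rw [mem_resSet, dbl_apply]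
        simp only [Finset.notMem_empty, iff_false]
        split_ifs <;> omega
      rw [this]
      exact Spor.empty_mem_supports_golayCode

theorem zmod2_cases (a : ZMod 2) : a = 0 ∨ a = 1 := by
  revert a; decide

theorem wd_dbl {c : GolayPt → ZMod 2} (h0 : c none = 0) : wd (dbl c) = c := by
  funext i
  rw [wd_apply, dbl_apply, dbl_apply, if_pos h0]
  rcases zmod2_cases (c i) with h | h
  · rw [if_pos h, h]; simp
  · rw [if_neg (by rw [h]; decide), h]; simp

theorem wd_vecV : wd Spor.vecV = 1 := by
  funext i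
  rw [wd_apply]
  cases i with
  | none => decide
  | some x =>
    show (((-1 + -5) / 2 : ℤ) : ZMod 2) = 1
    decide

theorem wdHom_surjective : Function.Surjective wdHom := by
  rintro ⟨c, hc⟩
  rcases zmod2_cases (c none) with h0 | h1
  · exact ⟨⟨dbl c, dbl_mem hc⟩, Subtype.ext (wd_dbl h0)⟩
  · have hc' : c + 1 ∈ golayCode :=
      golayCode.add_mem hc (Submodule.subset_span (Set.mem_union_right _ rfl))
    have h0 : (c + 1) none = 0 := by
      rw [Pi.add_apply, h1]; decide
    have hV : Spor.vecV ∈ leechLattice := AddSubgroup.subset_closure Spor.vecV_mem_leechSet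
    refine ⟨⟨dbl (c + 1) + Spor.vecV, add_mem (dbl_mem hc') hV⟩, Subtype.ext ?_⟩
    show wd (dbl (c + 1) + Spor.vecV) = c
    rw [wd_add (dbl_mem hc') hV, wd_dbl h0, wd_vecV, add_assoc]
    have : (1 : GolayPt → ZMod 2) + 1 = 0 := by
      funext i
      show (1 : ZMod 2) + 1 = 0
      decide
    rw [this, add_zero]

theorem sq_case0 (a : ℤ) (h : a % 4 = 0) : (32 : ℤ) ∣ a ^ 2 - 4 * a := by
  obtain ⟨k, hk⟩ : ∃ k, a = 8 * k ∨ a = 8 * k + 4 := ⟨a / 8, by omega⟩
  rcases hk with rfl | rfl
  · exact ⟨k * (2 * k - 1), by ring⟩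
  · exact ⟨k * (2 * k + 1), by ring⟩

theorem sq_case2 (a : ℤ) (h : a % 4 = 2) : (32 : ℤ) ∣ a ^ 2 - 4 := by
  obtain ⟨k, hk⟩ : ∃ k, a = 8 * k + 2 ∨ a = 8 * k + 6 := ⟨a / 8, by omega⟩
  rcases hk with rfl | rfl
  · exact ⟨k * (2 * k + 1), by ring⟩
  · exact ⟨(2 * k + 1) * (k + 1), by ring⟩

theorem norm_Asub {v : GolayPt → ℤ} (hv : v ∈ Asub) : (32 : ℤ) ∣ sqNorm v := by
  obtain ⟨hL, hA⟩ := hv
  obtain ⟨m, h1, h2, h3⟩ := (mem_leechSet_iff v).1 ((mem_leechLattice_iff v).1 hL)
  have hn := hA none
  have hm := h1 none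
  have hcase : v none % 4 = 0 ∨ v none % 4 = 2 := by omega
  rcases hcase with hc | hc
  · have hd : (32 : ℤ) ∣ sqNorm v - 4 * ∑ i, v i := by
      unfold sqNorm
      rw [Finset.mul_sum, ← Finset.sum_sub_distrib]
      apply Finset.dvd_sum
      intro i _
      apply sq_case0
      have := hA i
      omega
    omega
  · have h24 : (96 : ℤ) = ∑ _i : GolayPt, (4 : ℤ) := by
      simp [Finset.card_univ]
    have hd : (32 : ℤ) ∣ sqNorm v - 96 := by
      unfold sqNorm
      rw [h24, ← Finset.sum_sub_distrib]
      apply Finset.dvd_sum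
      intro i _
      apply sq_case2
      have := hA i
      omega
    omega

/-- The Leech lattice of the definitions has an additive subgroup A containing twice the lattice, of index 2^12 in the lattice, all of whose vectors have squared length divisible by 32: the invariant quadratic form 'squared length over 16 modulo 2' on the lattice modulo twice the lattice (a 24-dimensional space over the field with two elements) vanishes on a 12-dimensional subspace, so it is of plus type. -/
theorem result : ∃ A : AddSubgroup (Cfsg.GolayPt → ℤ), A ≤ Cfsg.leechLattice ∧ (∀ v ∈ Cfsg.leechLattice, (2 : ℤ) • v ∈ A) ∧ (A.addSubgroupOf Cfsg.leechLattice).index = 2 ^ 12 ∧ ∀ v ∈ A, (32 : ℤ) ∣ Cfsg.sqNorm v := by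
  refine ⟨Asub, fun v hv => hv.1, fun v hv => ?_, ?_, fun v hv => norm_Asub hv⟩
  · refine ⟨leechLattice.zsmul_mem hv 2, fun i => ?_⟩
    have := even_add_none hv i
    simp only [Pi.smul_apply, smul_eq_mul]
    omega
  · rw [← ker_wdHom, AddSubgroup.index_eq_card,
      Nat.card_congr (QuotientAddGroup.quotientKerEquivOfSurjective wdHom wdHom_surjective).toEquiv]
    have h := Cfsg.Agent.Lib.Helper9.ncard_golay
    rw [← Nat.card_coe_set_eq] at h
    exact h

end Cfsg.Agent.S5553
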