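-- Statement S5408: in a group of Monster type the extraspecial subgroup Q = 2^{1+24} is of plus type.
import Cfsg.Statements.S5408
import Cfsg.Agent.Lib.Helper94.LargeExtra
import Cfsg.Agent.S0400
import Cfsg.Agent.S0401
import Cfsg.Agent.S5553

set_option autoImplicit false
open Cfsg
open scoped commutatorElement

namespace Cfsg.Agent.S5408

/-! ### Part A: squares and commutators of an extraspecial 2-group as `ZMod 2`-valued maps -/

section Abstract
variable {X : Type*} [Group X]

open Classical in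
/-- Indicator of "not the identity", with values in `ZMod 2`. -/
noncomputable def ind (c : X) : ZMod 2 := if c = 1 then 0 else 1

theorem ind_one : ind (1 : X) = 0 := if_pos rfl

theorem ind_of_ne {c : X} (h : c ≠ 1) : ind c = 1 := if_neg h

theorem ind_eq_zero_iff {c : X} : ind c = 0 ↔ c = 1 := by
  constructor
  · intro h
    by_contra hc
    rw [ind_of_ne hc] at h
    exact absurd h (by decide)
  · rintro rfl
    exact ind_one

theorem ind_congr {Y : Type*} [Group Y] {c : X} {d : Y} (h : c = 1 ↔ d = 1) : ind c = ind d := by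
  by_cases hc : c = 1
  · rw [hc, ind_one, h.mp hc, ind_one]
  · rw [ind_of_ne hc, ind_of_ne (fun hd => hc (h.mpr hd))]

/-- The concrete data of an extraspecial 2-group: `ζ` generates the centre, and all squares and
commutators lie in `{1, ζ}`. -/
structure XS (X : Type*) [Group X] (ζ : X) : Prop where
  ne : ζ ≠ 1
  sq : ζ * ζ = 1
  cen : ∀ x : X, x * ζ = ζ * x
  comm : ∀ x y : X, ⁅x, y⁆ = 1 ∨ ⁅x, y⁆ = ζ
  sqm : ∀ x : X, x * x = 1 ∨ x * x = ζ
  ctr : ∀ c ∈ Subgroup.center X, c = 1 ∨ c = ζ

theorem ind_mul {ζ : X} (h : XS X ζ) {c c' : X} (hc : c = 1 ∨ c = ζ) (hc' : c' = 1 ∨ c' = ζ) :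
    ind (c * c') = ind c + ind c' := by
  rcases hc with rfl | rfl <;> rcases hc' with rfl | rfl
  · rw [one_mul, ind_one, add_zero]
  · rw [one_mul, ind_one, zero_add]
  · rw [mul_one, ind_one, add_zero]
  · rw [h.sq, ind_one, ind_of_ne h.ne]; decide

theorem mul_mem_pair {ζ : X} (h : XS X ζ) {c c' : X} (hc : c = 1 ∨ c = ζ) (hc' : c' = 1 ∨ c' = ζ) :
    c * c' = 1 ∨ c * c' = ζ := by
  rcases hc with rfl | rfl <;> rcases hc' with rfl | rfl
  · left; rw [one_mul]
  · right; rw [one_mul]
  · right; rw [mul_one]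
  · left; exact h.sq

theorem pair_central {ζ : X} (h : XS X ζ) {c : X} (hc : c = 1 ∨ c = ζ) (u : X) : u * c = c * u := by
  rcases hc with rfl | rfl
  · rw [mul_one, one_mul]
  · exact h.cen u

/-- squaring, as a map to `ZMod 2` -/
noncomputable def sqv (x : X) : ZMod 2 := ind (x * x)

/-- commutator, as a map to `ZMod 2` -/
noncomputable def cmv (x y : X) : ZMod 2 := ind ⁅x, y⁆

theorem sq_mul_eq {ζ : X} (h : XS X ζ) (x y : X) :
    (x * y) * (x * y) = ⁅y, x⁆ * (x * x) * (y * y) := by
  have hc : ∀ u : X, u * ⁅y, x⁆ = ⁅y, x⁆ * u := pair_central h (h.comm y x)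
  have h2 : y * x = ⁅y, x⁆ * x * y := by rw [commutatorElement_def]; group
  calc x * y * (x * y) = x * (y * x) * y := by group
    _ = x * (⁅y, x⁆ * x * y) * y := by rw [h2]
    _ = (x * ⁅y, x⁆) * x * y * y := by group
    _ = ⁅y, x⁆ * (x * x) * (y * y) := by rw [hc x]; group

theorem cmv_symm (x y : X) : cmv x y = cmv y x := by
  unfold cmv
  apply ind_congr
  rw [← commutatorElement_inv y x, inv_eq_one]

theorem cmv_self (x : X) : cmv x x = 0 := by
  unfold cmv
  rw [commutatorElement_self, ind_one]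

theorem sqv_mul {ζ : X} (h : XS X ζ) (x y : X) : sqv (x * y) = sqv x + sqv y + cmv x y := by
  unfold sqv
  rw [sq_mul_eq h, ind_mul h (mul_mem_pair h (h.comm y x) (h.sqm x)) (h.sqm y),
    ind_mul h (h.comm y x) (h.sqm x)]
  have := cmv_symm y x
  unfold cmv at this ⊢
  rw [this]
  ring

theorem comm_mul_eq {ζ : X} (h : XS X ζ) (x y y' : X) : ⁅x, y * y'⁆ = ⁅x, y⁆ * ⁅x, y'⁆ := by
  have hc : ∀ u : X, u * ⁅x, y'⁆ = ⁅x, y'⁆ * u := pair_central h (h.comm x y')
  have h1 : ⁅x, y * y'⁆ = ⁅x, y⁆ * (y * ⁅x, y'⁆) * y⁻¹ := by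
    simp only [commutatorElement_def]; group
  rw [h1, hc y]; group

theorem cmv_mul {ζ : X} (h : XS X ζ) (x y y' : X) : cmv x (y * y') = cmv x y + cmv x y' := by
  unfold cmv
  rw [comm_mul_eq h, ind_mul h (h.comm x y) (h.comm x y')]

theorem cmv_central {ζ : X} (h : XS X ζ) (x : X) {c : X} (hc : c = 1 ∨ c = ζ) : cmv x c = 0 := by
  unfold cmv
  rw [ind_eq_zero_iff, commutatorElement_eq_one_iff_commute]
  exact pair_central h hc x

theorem sqv_central {ζ : X} (h : XS X ζ) {c : X} (hc : c = 1 ∨ c = ζ) : sqv c = 0 := by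
  unfold sqv
  rw [ind_eq_zero_iff]
  rcases hc with rfl | rfl
  · rw [one_mul]
  · exact h.sq

theorem sqv_mul_central {ζ : X} (h : XS X ζ) (x : X) {c : X} (hc : c = 1 ∨ c = ζ) :
    sqv (x * c) = sqv x := by
  rw [sqv_mul h, sqv_central h hc, cmv_central h x hc, add_zero, add_zero]

theorem cmv_mul_central {ζ : X} (h : XS X ζ) (x y : X) {c c' : X} (hc : c = 1 ∨ c = ζ)
    (hc' : c' = 1 ∨ c' = ζ) : cmv (x * c) (y * c') = cmv x y := by
  rw [cmv_mul h, cmv_central h _ hc', add_zero, cmv_symm, cmv_mul h, cmv_central h _ hc, add_zero,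
    cmv_symm]

theorem xs_of_isExtraspecial [Finite X] (hE : Cfsg.IsExtraspecial 2 X) : ∃ ζ : X, XS X ζ := by
  obtain ⟨⟨hP, hfr, hcm⟩, hcard⟩ := hE
  obtain ⟨y, hy1, hy2⟩ := (Nat.card_eq_two_iff' (1 : Subgroup.center X)).mp hcard
  have hctr : ∀ c ∈ Subgroup.center X, c = 1 ∨ c = (y : X) := by
    intro c hc
    by_cases h1 : c = 1
    · exact Or.inl h1
    · right
      have : (⟨c, hc⟩ : Subgroup.center X) = y := hy2 _ (fun h => h1 (congrArg Subtype.val h))
      rw [← this]
  have hne : (y : X) ≠ 1 := fun h => hy1 (Subtype.ext h)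
  refine ⟨y, hne, ?_, ?_, ?_, ?_, hctr⟩
  · rcases hctr _ (mul_mem y.2 y.2) with h | h
    · exact h
    · exact absurd (by simpa using h) hne
  · intro x
    exact Subgroup.mem_center_iff.mp y.2 x
  · intro x y'
    apply hctr
    rw [← hcm]
    exact Subgroup.commutator_mem_commutator (Subgroup.mem_top x) (Subgroup.mem_top y')
  · intro x
    apply hctr
    rw [← hfr]
    exact Cfsg.Agent.Lib.Helper94.sq_mem_frattini hP x

end Abstract

/-! ### Part B: the induced quadratic form on an additive group mapping onto `X / Z(X)` -/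

/-- A `ZMod 2`-valued quadratic form with its polar form (weak axioms). -/
structure QForm {L : Type*} [AddCommGroup L] (q : L → ZMod 2) (b : L → L → ZMod 2) : Prop where
  q_add : ∀ v w, q (v + w) = q v + q w + b v w
  b_add : ∀ v w w', b v (w + w') = b v w + b v w'
  b_symm : ∀ v w, b v w = b w v
  b_self : ∀ v, b v v = 0

namespace QForm
variable {L : Type*} [AddCommGroup L] {q : L → ZMod 2} {b : L → L → ZMod 2}

theorem b_zero (h : QForm q b) (v : L) : b v 0 = 0 := by
  have h1 := h.b_add v 0 0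
  rw [add_zero] at h1
  have key : ∀ x : ZMod 2, x = x + x → x = 0 := by decide
  exact key _ h1

theorem q_zero (h : QForm q b) : q 0 = 0 := by
  have h1 := h.q_add 0 0
  rw [add_zero, h.b_self] at h1
  have key : ∀ x : ZMod 2, x = x + x + 0 → x = 0 := by decide
  exact key _ h1

theorem b_add_left (h : QForm q b) (v v' w : L) : b (v + v') w = b v w + b v' w := by
  rw [h.b_symm, h.b_add, h.b_symm w v, h.b_symm w v']

theorem b_neg (h : QForm q b) (v w : L) : b v (-w) = b v w := by
  have h1 := h.b_add v w (-w)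
  rw [add_neg_cancel, h.b_zero] at h1
  have key : ∀ x y : ZMod 2, 0 = x + y → y = x := by decide
  exact key _ _ h1

theorem q_neg (h : QForm q b) (v : L) : q (-v) = q v := by
  have h1 := h.q_add v (-v)
  rw [add_neg_cancel, h.q_zero, h.b_neg, h.b_self] at h1
  have key : ∀ x y : ZMod 2, 0 = x + y + 0 → y = x := by decide
  exact key _ _ h1

theorem q_sub (h : QForm q b) (v w : L) : q (v - w) = q v + q w + b v w := by
  rw [sub_eq_add_neg, h.q_add, h.q_neg, h.b_neg]

theorem b_sub (h : QForm q b) (v w w' : L) : b v (w - w') = b v w + b v w' := by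
  rw [sub_eq_add_neg, h.b_add, h.b_neg]

theorem q_add_double (h : QForm q b) (v w : L) : q (v + (w + w)) = q v := by
  rw [h.q_add, h.q_add w w, h.b_add, h.b_self]
  have key : ∀ x y z : ZMod 2, x + (y + y + 0) + (z + z) = x := by decide
  exact key _ _ _

end QForm

section Lift
variable {X : Type*} [Group X] {L : Type*} [AddCommGroup L]

/-- a chosen lift of `ψ v` -/
noncomputable def lift (ψ : L → X ⧸ Subgroup.center X) (v : L) : X := (ψ v).out

omit [AddCommGroup L] in
theorem mk_lift (ψ : L → X ⧸ Subgroup.center X) (v : L) : (QuotientGroup.mk (lift ψ v) : X ⧸ Subgroup.center X) = ψ v :=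
  QuotientGroup.out_eq' _

/-- the quadratic form induced by squaring -/
noncomputable def qf (ψ : L → X ⧸ Subgroup.center X) (v : L) : ZMod 2 := sqv (lift ψ v)

/-- the bilinear form induced by the commutator -/
noncomputable def bf (ψ : L → X ⧸ Subgroup.center X) (v w : L) : ZMod 2 := cmv (lift ψ v) (lift ψ w)

omit [AddCommGroup L] in
theorem exists_central_of_mk {ζ : X} (h : XS X ζ) (ψ : L → X ⧸ Subgroup.center X) (v : L) (x : X)
    (hx : ψ v = QuotientGroup.mk x) : ∃ c : X, (c = 1 ∨ c = ζ) ∧ x = lift ψ v * c := by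
  have h1 : (QuotientGroup.mk (lift ψ v) : X ⧸ Subgroup.center X) = QuotientGroup.mk x := by
    rw [mk_lift, hx]
  rw [QuotientGroup.eq] at h1
  exact ⟨(lift ψ v)⁻¹ * x, h.ctr _ h1, by group⟩

omit [AddCommGroup L] in
theorem sqv_of_mk {ζ : X} (h : XS X ζ) (ψ : L → X ⧸ Subgroup.center X) (v : L) (x : X)
    (hx : ψ v = QuotientGroup.mk x) : sqv x = qf ψ v := by
  obtain ⟨c, hc, rfl⟩ := exists_central_of_mk h ψ v x hx
  exact sqv_mul_central h _ hc

omit [AddCommGroup L] in
theorem cmv_of_mk {ζ : X} (h : XS X ζ) (ψ : L → X ⧸ Subgroup.center X) (v w : L) (x y : X)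
    (hx : ψ v = QuotientGroup.mk x) (hy : ψ w = QuotientGroup.mk y) : cmv x y = bf ψ v w := by
  obtain ⟨c, hc, rfl⟩ := exists_central_of_mk h ψ v x hx
  obtain ⟨c', hc', rfl⟩ := exists_central_of_mk h ψ w y hy
  exact cmv_mul_central h _ _ hc hc'

theorem qform_of_xs {ζ : X} (h : XS X ζ) (ψ : L → X ⧸ Subgroup.center X)
    (hψ : ∀ v w : L, ψ (v + w) = ψ v * ψ w) : QForm (qf ψ) (bf ψ) := by
  have hmul : ∀ v w : L, ψ (v + w) = QuotientGroup.mk (lift ψ v * lift ψ w) := by
    intro v w
    rw [hψ, QuotientGroup.mk_mul, mk_lift, mk_lift]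
  refine ⟨fun v w => ?_, fun v w w' => ?_, fun v w => cmv_symm _ _, fun v => cmv_self _⟩
  · rw [← sqv_of_mk h ψ (v + w) _ (hmul v w), sqv_mul h]
    rfl
  · rw [← cmv_of_mk h ψ v (w + w') (lift ψ v) _ (mk_lift ψ v).symm (hmul w w'), cmv_mul h]
    rfl

end Lift


/-! ### Part C: an invariant quadratic form on the Leech lattice vanishes on a sublattice of index `2^12` -/

section Leech
open Cfsg.Agent.Lib.Helper10

/-- `4(e_∞ + e_i)` -/
def eS (i : ZMod 23) : GolayPt → ℤ := fun x => if x = none ∨ x = some i then 4 else 0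

/-- `4(e_∞ - e_i)` -/
def eS' (i : ZMod 23) : GolayPt → ℤ := fun x => if x = none then 4 else if x = some i then -4 else 0

/-- `4(e_0 + e_1)` -/
def eU : GolayPt → ℤ := fun x => if x = some 0 ∨ x = some 1 then 4 else 0

/-- `8 e_∞` -/
def eR : GolayPt → ℤ := fun x => if x = none then 8 else 0

theorem eS_mem (i : ZMod 23) : eS i ∈ leechLattice := by
  apply AddSubgroup.subset_closure
  have h4 : ∀ i : ZMod 23, ∀ x : GolayPt, eS i x ≡ 0 [ZMOD 4] := by decide
  have hs : ∀ i : ZMod 23, ∑ x, eS i x ≡ 4 * 0 [ZMOD 8] := by decide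
  exact Spor.mem_leechSet_of_const_mod_four _ 0 0 (by decide) (h4 i) (hs i)

theorem eS'_mem (i : ZMod 23) : eS' i ∈ leechLattice := by
  apply AddSubgroup.subset_closure
  have h4 : ∀ i : ZMod 23, ∀ x : GolayPt, eS' i x ≡ 0 [ZMOD 4] := by decide
  have hs : ∀ i : ZMod 23, ∑ x, eS' i x ≡ 4 * 0 [ZMOD 8] := by decide
  exact Spor.mem_leechSet_of_const_mod_four _ 0 0 (by decide) (h4 i) (hs i)

theorem eU_mem : eU ∈ leechLattice := by
  apply AddSubgroup.subset_closure
  exact Spor.mem_leechSet_of_const_mod_four _ 0 0 (by decide) (by decide) (by decide)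

theorem eR_mem : eR ∈ leechLattice := by
  apply AddSubgroup.subset_closure
  exact Spor.mem_leechSet_of_const_mod_four _ 0 0 (by decide) (by decide) (by decide)

/-- `4(e_∞ + e_i)` as a lattice vector -/
def S (i : ZMod 23) : leechLattice := ⟨eS i, eS_mem i⟩

/-- `4(e_∞ - e_i)` as a lattice vector -/
def S' (i : ZMod 23) : leechLattice := ⟨eS' i, eS'_mem i⟩

/-- `4(e_0 + e_1)` as a lattice vector -/
def U : leechLattice := ⟨eU, eU_mem⟩

/-- `8 e_∞` as a lattice vector -/
def R : leechLattice := ⟨eR, eR_mem⟩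

theorem nS : ∀ i : ZMod 23, sqNorm (eS i) = 32 := by decide +kernel

theorem nS' : ∀ i : ZMod 23, sqNorm (eS' i) = 32 := by decide +kernel

theorem nSS : ∀ i j : ZMod 23, i ≠ j → sqNorm (eS i - eS j) = 32 := by decide +kernel

theorem nSS' : ∀ i j : ZMod 23, i ≠ j → sqNorm (eS i - eS' j) = 32 := by decide +kernel

theorem nU : sqNorm eU = 32 := by decide +kernel

theorem nSU : sqNorm (eS 0 - eU) = 32 := by decide +kernel

theorem nNS : sqNorm (-eS 1) = 32 := by decide +kernel

theorem nW : sqNorm (Spor.vecV + eR) = 32 := by decide +kernel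

theorem nUS : sqNorm (eU + -eS 1) = 32 := by decide +kernel

theorem nUW : sqNorm (eU + (Spor.vecV + eR)) = 48 := by decide +kernel

theorem nSW : sqNorm (-eS 1 + (Spor.vecV + eR)) = 48 := by decide +kernel

theorem nUSW : sqNorm (eU + -eS 1 + (Spor.vecV + eR)) = 32 := by decide +kernel

theorem R_eq (j : ZMod 23) : R = S j + S' j := by
  apply Subtype.ext
  funext x
  have h : ∀ j : ZMod 23, ∀ x : GolayPt, eR x = eS j x + eS' j x := by decide
  exact h j x

theorem S'_eq : S' 0 = S 1 - U := by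
  apply Subtype.ext
  funext x
  have h : ∀ x : GolayPt, eS' 0 x = eS 1 x - eU x := by decide
  exact h x

theorem ne_succ : ∀ i : ZMod 23, i ≠ i + 1 := by decide

/-- Any quadratic form on the Leech lattice (values in `ZMod 2`, weak axioms) that is invariant
under `Co0` vanishes on the sublattice `Asub` of index `2^12`. -/
theorem qform_vanish (q : leechLattice → ZMod 2) (b : leechLattice → leechLattice → ZMod 2)
    (hQ : QForm q b) (hinv : ∀ (g : Co0) (v : leechLattice), q (g • v) = q v) :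
    ∀ v : leechLattice, (v : GolayPt → ℤ) ∈ Cfsg.Agent.S5553.Asub → q v = 0 := by
  have c32 : ∀ v w : leechLattice, sqNorm (v : GolayPt → ℤ) = 32 →
      sqNorm (w : GolayPt → ℤ) = 32 → q v = q w := by
    intro v w hv hw
    obtain ⟨g, rfl⟩ := trans_norm32 v w hv hw
    exact (hinv g v).symm
  have c48 : ∀ v w : leechLattice, sqNorm (v : GolayPt → ℤ) = 48 →
      sqNorm (w : GolayPt → ℤ) = 48 → q v = q w := by
    intro v w hv hw
    obtain ⟨g, rfl⟩ := trans_norm48 v w hv hw
    exact (hinv g v).symm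
  obtain ⟨W, hW⟩ : ∃ W : leechLattice, W = Spor.leechV + R := ⟨_, rfl⟩
  have h0 : q U = 0 := by
    have e1 : q (U + -S 1) = q U := c32 _ _ nUS nU
    have e2 : q W = q U := by rw [hW]; exact c32 _ _ nW nU
    have e3 : q (U + -S 1 + W) = q U := by rw [hW]; exact c32 _ _ nUSW nU
    have e4 : q (-S 1) = q U := c32 _ _ nNS nU
    have e5 : q (U + W) = q (-S 1 + W) := by rw [hW]; exact c48 _ _ nUW nSW
    have f1 := hQ.q_add (U + -S 1) W
    have f2 := hQ.b_add_left U (-S 1) W
    have f3 := hQ.q_add U W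
    have f4 := hQ.q_add (-S 1) W
    rw [e3, e1, e2, f2] at f1
    rw [e5, e2] at f3
    rw [e4, e2] at f4
    have key : ∀ α β x y : ZMod 2, α = α + α + (x + y) → β = α + α + x → β = α + α + y → α = 0 := by
      decide
    exact key _ _ _ _ f1 f3 f4
  have h32 : ∀ v : leechLattice, sqNorm (v : GolayPt → ℤ) = 32 → q v = 0 :=
    fun v hv => (c32 v U hv nU).trans h0
  have hT : ∀ v w : leechLattice, sqNorm (v : GolayPt → ℤ) = 32 → sqNorm (w : GolayPt → ℤ) = 32 →
      sqNorm ((v - w : leechLattice) : GolayPt → ℤ) = 32 → b v w = 0 := by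
    intro v w hv hw hvw
    have h1 := hQ.q_sub v w
    rw [h32 _ hvw, h32 _ hv, h32 _ hw, zero_add, zero_add] at h1
    exact h1.symm
  have bSS : ∀ i j : ZMod 23, b (S i) (S j) = 0 := by
    intro i j
    by_cases hij : i = j
    · rw [hij]; exact hQ.b_self _
    · exact hT _ _ (nS i) (nS j) (nSS i j hij)
  have bSR : ∀ i : ZMod 23, b (S i) R = 0 := by
    intro i
    rw [R_eq (i + 1), hQ.b_add, bSS, hT (S i) (S' (i + 1)) (nS i) (nS' _) (nSS' i (i + 1) (ne_succ i)),
      add_zero]
  have qR : q R = 0 := by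
    rw [R_eq 0, hQ.q_add, h32 (S 0) (nS 0), h32 (S' 0) (nS' 0), S'_eq, hQ.b_sub,
      hT (S 0) (S 1) (nS 0) (nS 1) (nSS 0 1 (by decide)), hT (S 0) U (nS 0) nU nSU]
    decide
  obtain ⟨Gens, hGens⟩ : ∃ Gens : Set leechLattice, Gens = Set.range S ∪ {R} := ⟨_, rfl⟩
  have hGq : ∀ g ∈ Gens, q g = 0 := by
    intro g hg
    rw [hGens] at hg
    rcases hg with ⟨i, rfl⟩ | hg
    · exact h32 _ (nS i)
    · rw [Set.mem_singleton_iff.mp hg]; exact qR
  have hGb : ∀ g ∈ Gens, ∀ g' ∈ Gens, b g g' = 0 := by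
    intro g hg g' hg'
    rw [hGens] at hg hg'
    rcases hg with ⟨i, rfl⟩ | hg <;> rcases hg' with ⟨j, rfl⟩ | hg'
    · exact bSS i j
    · rw [Set.mem_singleton_iff.mp hg']; exact bSR i
    · rw [Set.mem_singleton_iff.mp hg, hQ.b_symm]; exact bSR j
    · rw [Set.mem_singleton_iff.mp hg, Set.mem_singleton_iff.mp hg']; exact hQ.b_self _
  have stA : ∀ w ∈ AddSubgroup.closure Gens, ∀ g ∈ Gens, b w g = 0 := by
    intro w hw g hg
    induction hw using AddSubgroup.closure_induction with
    | mem x hx => exact hGb x hx g hg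
    | zero => rw [hQ.b_symm, hQ.b_zero]
    | add x y _ _ hx hy => rw [hQ.b_add_left, hx, hy, add_zero]
    | neg x _ hx => rw [hQ.b_symm, hQ.b_neg, hQ.b_symm, hx]
  have stB : ∀ v ∈ AddSubgroup.closure Gens, ∀ w ∈ AddSubgroup.closure Gens, b v w = 0 := by
    intro v hv w hw
    induction hw using AddSubgroup.closure_induction with
    | mem x hx => exact stA v hv x hx
    | zero => exact hQ.b_zero v
    | add x y _ _ hx hy => rw [hQ.b_add, hx, hy, add_zero]
    | neg x _ hx => rw [hQ.b_neg, hx]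
  have stC : ∀ v ∈ AddSubgroup.closure Gens, q v = 0 := by
    intro v hv
    induction hv using AddSubgroup.closure_induction with
    | mem x hx => exact hGq x hx
    | zero => exact hQ.q_zero
    | add x y hx hy ihx ihy => rw [hQ.q_add, ihx, ihy, stB x hx y hy]; decide
    | neg x _ hx => rw [hQ.q_neg, hx]
  have hgen : ∀ v : leechLattice, (∀ p, (v : GolayPt → ℤ) p % 4 = 0) →
      v ∈ AddSubgroup.closure Gens := by
    intro v hv
    have hsum : (∑ p, (v : GolayPt → ℤ) p) % 8 = 0 := by
      obtain ⟨m, h1, h2, -⟩ := (mem_leechSet_iff _).1 ((mem_leechLattice_iff _).1 v.2)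
      have := h1 none
      have := hv none
      omega
    rw [Fintype.sum_option] at hsum
    obtain ⟨c, hc⟩ : ∃ c : ZMod 23 → ℤ, ∀ i, (v : GolayPt → ℤ) (some i) = 4 * c i :=
      ⟨fun i => (v : GolayPt → ℤ) (some i) / 4, fun i => by
        have := hv (some i)
        show (v : GolayPt → ℤ) (some i) = 4 * ((v : GolayPt → ℤ) (some i) / 4)
        omega⟩
    obtain ⟨k, hk⟩ : ∃ k : ℤ, (v : GolayPt → ℤ) none - ∑ i, (v : GolayPt → ℤ) (some i) = 8 * k :=
      ⟨((v : GolayPt → ℤ) none - ∑ i, (v : GolayPt → ℤ) (some i)) / 8, by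
        have := hv none; omega⟩
    have hv_eq : v = ∑ i, c i • S i + k • R := by
      apply Subtype.ext
      funext p
      rw [AddSubgroup.coe_add, AddSubgroup.val_finsetSum, Pi.add_apply, Finset.sum_apply]
      simp only [AddSubgroup.coe_zsmul, Pi.smul_apply, smul_eq_mul]
      cases p with
      | none =>
        show (v : GolayPt → ℤ) none = ∑ i, c i * eS i none + k * eR none
        have h1 : ∀ i, c i * eS i none = (v : GolayPt → ℤ) (some i) := by
          intro i
          rw [hc i]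
          show c i * 4 = 4 * c i
          ring
        rw [Finset.sum_congr rfl (fun i _ => h1 i)]
        show (v : GolayPt → ℤ) none = ∑ i, (v : GolayPt → ℤ) (some i) + k * 8
        linarith
      | some j =>
        show (v : GolayPt → ℤ) (some j) = ∑ i, c i * eS i (some j) + k * eR (some j)
        have h1 : ∀ i, c i * eS i (some j) = if i = j then 4 * c i else 0 := by
          intro i
          unfold eS
          by_cases h : i = j
          · subst h
            rw [if_pos (Or.inr rfl), if_pos rfl]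
            ring
          · have h' : ¬ ((some j : GolayPt) = none ∨ (some j : GolayPt) = some i) := by
              rintro (h' | h')
              · exact absurd h' (by simp)
              · exact h (Option.some.inj h').symm
            rw [if_neg h', if_neg h, mul_zero]
        rw [Finset.sum_congr rfl (fun i _ => h1 i), Finset.sum_ite_eq' Finset.univ j,
          if_pos (Finset.mem_univ _), hc j]
        show 4 * c j = 4 * c j + k * 0
        ring
    rw [hv_eq]
    have hS : ∀ i, S i ∈ AddSubgroup.closure Gens := fun i =>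
      AddSubgroup.subset_closure (by rw [hGens]; exact Or.inl ⟨i, rfl⟩)
    have hR : R ∈ AddSubgroup.closure Gens :=
      AddSubgroup.subset_closure (by rw [hGens]; exact Or.inr rfl)
    exact add_mem (sum_mem (fun i _ => zsmul_mem (hS i) _)) (zsmul_mem hR _)
  intro v hv
  obtain ⟨-, hA⟩ := hv
  have h0' := hA none
  by_cases hc : (v : GolayPt → ℤ) none % 4 = 0
  · exact stC v (hgen v (fun p => by have := hA p; omega))
  · have hv' : v = (v - (Spor.leechV + Spor.leechV)) + (Spor.leechV + Spor.leechV) :=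
      (sub_add_cancel _ _).symm
    rw [hv', hQ.q_add_double]
    apply stC
    apply hgen
    intro p
    show ((v : GolayPt → ℤ) p - (Spor.vecV p + Spor.vecV p)) % 4 = 0
    have := hA p
    have hV : Spor.vecV p = -5 ∨ Spor.vecV p = -1 := by
      cases p with
      | none => left; rfl
      | some x => right; rfl
    omega

end Leech

/-! ### Part D: the statement -/

/-- Let G be a finite group of Monster type at the involution z with Q the extraspecial normal subgroup of order 2^25 of C = C_G(z) (so C/Q is identified with the first Conway group with Q modulo its centre the Leech lattice modulo 2, and z is not weakly closed in Q). Then Q is of plus type: it contains an elementary abelian subgroup of order 2^13. -/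
theorem result {G : Type*} [Group G] [Finite G] (z : G) (Q : Subgroup (Subgroup.centralizer ({z} : Set G))) [Q.Normal] (hM : Cfsg.IsOfMonsterType z Q) : ∃ E : Subgroup Q, Cfsg.IsElementaryAbelian 2 E ∧ Nat.card E = 2 ^ 13 := by
  obtain ⟨⟨hz, hF, hE, hcard, -⟩, e, ψ, hψ1, hψ2, hψ3, hψ4⟩ := hM
  obtain ⟨ζ, hX⟩ := xs_of_isExtraspecial hE
  have hQ : QForm (qf ψ) (bf ψ) := qform_of_xs hX ψ hψ1
  have hinv : ∀ (g : Co0) (v : leechLattice), qf ψ (g • v) = qf ψ v := by
    intro g v
    obtain ⟨hbar, hh⟩ := e.surjective (QuotientGroup.mk g)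
    obtain ⟨h, rfl⟩ := QuotientGroup.mk_surjective hbar
    have h1 := hψ4 h g hh.symm v (lift ψ v) (mk_lift ψ v).symm
    rw [← sqv_of_mk hX ψ (g • v) _ h1]
    unfold qf sqv
    apply ind_congr
    have h2 : ∀ a : Q, (⟨h * a * h⁻¹, (inferInstance : Q.Normal).conj_mem a a.2 h⟩ : Q) *
        ⟨h * a * h⁻¹, (inferInstance : Q.Normal).conj_mem a a.2 h⟩ = 1 ↔ a * a = 1 := by
      intro a
      constructor
      · intro h3
        have h4 : h * (a : Subgroup.centralizer ({z} : Set G)) * h⁻¹ *
            (h * (a : Subgroup.centralizer ({z} : Set G)) * h⁻¹) = 1 := congrArg Subtype.val h3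
        apply Subtype.ext
        have h5 : h * ((a : Subgroup.centralizer ({z} : Set G)) * a) * h⁻¹ = 1 := by
          rw [← h4]; group
        exact conj_eq_one_iff.mp h5
      · intro h3
        apply Subtype.ext
        have h4 : (a : Subgroup.centralizer ({z} : Set G)) * a = 1 := congrArg Subtype.val h3
        show h * (a : Subgroup.centralizer ({z} : Set G)) * h⁻¹ *
            (h * (a : Subgroup.centralizer ({z} : Set G)) * h⁻¹) = 1
        calc h * (a : Subgroup.centralizer ({z} : Set G)) * h⁻¹ *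
            (h * (a : Subgroup.centralizer ({z} : Set G)) * h⁻¹)
            = h * ((a : Subgroup.centralizer ({z} : Set G)) * a) * h⁻¹ := by group
          _ = 1 := by rw [h4]; group
    exact h2 _
  have hvan := qform_vanish (qf ψ) (bf ψ) hQ hinv
  obtain ⟨Ψ, hΨ⟩ : ∃ Ψ : Multiplicative leechLattice →* Q ⧸ Subgroup.center Q,
      ∀ v, Ψ v = ψ (Multiplicative.toAdd v) :=
    ⟨{ toFun := fun v => ψ (Multiplicative.toAdd v)
       map_one' := (hψ3 0).mpr ⟨0, (add_zero 0).symm⟩
       map_mul' := fun v w => hψ1 _ _ }, fun v => rfl⟩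
  have hΨsurj : Function.Surjective Ψ := by
    intro y
    obtain ⟨v, hv⟩ := hψ2 y
    exact ⟨Multiplicative.ofAdd v, by rw [hΨ]; exact hv⟩
  obtain ⟨A, hA⟩ : ∃ A : Subgroup (Multiplicative leechLattice),
      A = AddSubgroup.toSubgroup (Cfsg.Agent.S5553.Asub.addSubgroupOf leechLattice) := ⟨_, rfl⟩
  have hAmem : ∀ v : Multiplicative leechLattice, v ∈ A ↔
      ((Multiplicative.toAdd v : leechLattice) : GolayPt → ℤ) ∈ Cfsg.Agent.S5553.Asub := by
    intro v
    rw [hA]
    rfl
  have hker : Ψ.ker ≤ A := by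
    intro v hv
    rw [MonoidHom.mem_ker, hΨ] at hv
    obtain ⟨w, hw⟩ := (hψ3 _).mp hv
    rw [hAmem, hw]
    refine ⟨(w + w).2, fun i => ?_⟩
    have := Cfsg.Agent.S5553.even_add_none w.2 i
    show ((w : GolayPt → ℤ) i + (w : GolayPt → ℤ) i +
      ((w : GolayPt → ℤ) none + (w : GolayPt → ℤ) none)) % 4 = 0
    omega
  obtain ⟨E, hEdef⟩ : ∃ E : Subgroup Q,
      E = (A.map Ψ).comap (QuotientGroup.mk' (Subgroup.center Q)) := ⟨_, rfl⟩
  have hE2 : ∀ x ∈ E, x * x = 1 := by
    intro x hx
    rw [hEdef] at hx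
    obtain ⟨v, hv, hvx⟩ := hx
    rw [hΨ] at hvx
    have h2 := sqv_of_mk hX ψ _ x hvx
    rw [hvan _ ((hAmem v).mp hv)] at h2
    exact ind_eq_zero_iff.mp h2
  refine ⟨E, ⟨⟨⟨fun a b => ?_⟩⟩, fun a ha => ?_⟩, ?_⟩
  · apply Subtype.ext
    have ha := hE2 a.1 a.2
    have hb := hE2 b.1 b.2
    have hab := hE2 (a.1 * b.1) (mul_mem a.2 b.2)
    have h1 : (a.1)⁻¹ = a.1 := inv_eq_of_mul_eq_one_right ha
    have h2 : (b.1)⁻¹ = b.1 := inv_eq_of_mul_eq_one_right hb
    have h3 : (a.1 * b.1)⁻¹ = a.1 * b.1 := inv_eq_of_mul_eq_one_right hab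
    rw [mul_inv_rev, h1, h2] at h3
    exact h3.symm
  · rw [pow_two]
    exact hE2 a ha
  · have hidx : E.index = 2 ^ 12 := by
      rw [hEdef, Subgroup.index_comap_of_surjective _ (QuotientGroup.mk'_surjective _),
        Subgroup.index_map_eq _ hΨsurj hker, hA, AddSubgroup.index_toSubgroup,
        ← Cfsg.Agent.S5553.ker_wdHom, AddSubgroup.index_eq_card,
        Nat.card_congr (QuotientAddGroup.quotientKerEquivOfSurjective _
          Cfsg.Agent.S5553.wdHom_surjective).toEquiv]
      have h := Cfsg.Agent.Lib.Helper9.ncard_golay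
      rw [← Nat.card_coe_set_eq] at h
      exact h
    have h1 := Subgroup.card_mul_index E
    rw [hidx, hcard] at h1
    norm_num at h1 ⊢
    omega

end Cfsg.Agent.S5408
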