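-- Statement S5552: the only non-zero invariant quadratic form on the Leech lattice modulo 2.
import Cfsg.Statements.S5552
import Cfsg.Agent.S5408
import Cfsg.Agent.Lib.Helper10.LeechNorm

set_option autoImplicit false
open Cfsg

namespace Cfsg.Agent.S5552

open Cfsg.Agent.S5408 Cfsg.Agent.Lib.Helper10 Cfsg.Agent.S5553

/-! ### Generic facts on weak quadratic forms -/

theorem qform_vanish_gens {L : Type*} [AddCommGroup L] {q : L → ZMod 2} {b : L → L → ZMod 2}
    (hQ : QForm q b) (Gens : Set L) (hGq : ∀ g ∈ Gens, q g = 0)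
    (hGb : ∀ g ∈ Gens, ∀ g' ∈ Gens, b g g' = 0) : ∀ v ∈ AddSubgroup.closure Gens, q v = 0 := by
  have stA : ∀ w ∈ AddSubgroup.closure Gens, ∀ g ∈ Gens, b w g = 0 := by
    intro w hw g hg
    induction hw using AddSubgroup.closure_induction with
    | mem x hx => exact hGb x hx g hg
    | zero => rw [hQ.b_symm, hQ.b_zero]
    | add x y _ _ hx hy => rw [hQ.b_add_left, hx, hy, add_zero]
    | neg x _ hx => rw [hQ.b_symm, hQ.b_neg, hQ.b_symm, hx]
  have stB : ∀ v ∈ AddSubgroup.closure Gens, ∀ w ∈ AddSubgroup.closure Gens, b v w = 0 := by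
    intro v hv w hw
    induction hw using AddSubgroup.closure_induction with
    | mem x hx => exact stA v hv x hx
    | zero => exact hQ.b_zero v
    | add x y _ _ hx hy => rw [hQ.b_add, hx, hy, add_zero]
    | neg x _ hx => rw [hQ.b_neg, hx]
  intro v hv
  induction hv using AddSubgroup.closure_induction with
  | mem x hx => exact hGq x hx
  | zero => exact hQ.q_zero
  | add x y hx hy ihx ihy => rw [hQ.q_add, ihx, ihy, stB x hx y hy]; decide
  | neg x _ hx => rw [hQ.q_neg, hx]

theorem qform_add_mul {L : Type*} [AddCommGroup L] {q q' : L → ZMod 2} {b b' : L → L → ZMod 2}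
    (h : QForm q b) (h' : QForm q' b') (c : ZMod 2) :
    QForm (fun v => q v + c * q' v) (fun v w => b v w + c * b' v w) := by
  refine ⟨fun v w => ?_, fun v w w' => ?_, fun v w => ?_, fun v => ?_⟩
  · show q (v + w) + c * q' (v + w) = q v + c * q' v + (q w + c * q' w) + (b v w + c * b' v w)
    rw [h.q_add, h'.q_add]; ring
  · show b v (w + w') + c * b' v (w + w') = b v w + c * b' v w + (b v w' + c * b' v w')
    rw [h.b_add, h'.b_add]; ring
  · show b v w + c * b' v w = b w v + c * b' w v
    rw [h.b_symm, h'.b_symm v w]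
  · show b v v + c * b' v v = 0
    rw [h.b_self, h'.b_self]; ring

/-! ### The standard form -/

/-- the standard quadratic form: squared length over 16, modulo 2 -/
def q0 (v : leechLattice) : ZMod 2 := ((sqNorm (v : GolayPt → ℤ) / 16 : ℤ) : ZMod 2)

/-- the standard polar form: inner product over 8, modulo 2 -/
def b0 (v w : leechLattice) : ZMod 2 :=
  ((dotInt (v : GolayPt → ℤ) (w : GolayPt → ℤ) / 8 : ℤ) : ZMod 2)

theorem dvd_sqNorm (v : leechLattice) : (16 : ℤ) ∣ sqNorm (v : GolayPt → ℤ) :=
  sqNorm_dvd_of (fun _ hS => golay_doubly_even hS) ((mem_leechLattice_iff _).1 v.2)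

theorem dvd_dot (v w : leechLattice) :
    (8 : ℤ) ∣ dotInt (v : GolayPt → ℤ) (w : GolayPt → ℤ) := by
  have h1 := dvd_sqNorm (v + w)
  have h2 := dvd_sqNorm v
  have h3 := dvd_sqNorm w
  rw [AddSubgroup.coe_add, sqNorm_add] at h1
  omega

theorem dot_add_right (x y y' : GolayPt → ℤ) : dotInt x (y + y') = dotInt x y + dotInt x y' := by
  simp only [dotInt, Pi.add_apply, mul_add, Finset.sum_add_distrib]

theorem dot_comm (x y : GolayPt → ℤ) : dotInt x y = dotInt y x := by
  simp only [dotInt, mul_comm]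

theorem dot_self (x : GolayPt → ℤ) : dotInt x x = sqNorm x := by
  simp only [dotInt, sqNorm, pow_two]

theorem qform0 : QForm q0 b0 := by
  refine ⟨fun v w => ?_, fun v w w' => ?_, fun v w => ?_, fun v => ?_⟩
  · have key : sqNorm ((v + w : leechLattice) : GolayPt → ℤ) / 16 =
        sqNorm (v : GolayPt → ℤ) / 16 + sqNorm (w : GolayPt → ℤ) / 16 +
          dotInt (v : GolayPt → ℤ) (w : GolayPt → ℤ) / 8 := by
      rw [AddSubgroup.coe_add, sqNorm_add]
      have := dvd_sqNorm v
      have := dvd_sqNorm w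
      have := dvd_dot v w
      omega
    show ((sqNorm ((v + w : leechLattice) : GolayPt → ℤ) / 16 : ℤ) : ZMod 2) = _
    rw [key]
    push_cast
    rfl
  · have key : dotInt (v : GolayPt → ℤ) ((w + w' : leechLattice) : GolayPt → ℤ) / 8 =
        dotInt (v : GolayPt → ℤ) (w : GolayPt → ℤ) / 8 +
          dotInt (v : GolayPt → ℤ) (w' : GolayPt → ℤ) / 8 := by
      rw [AddSubgroup.coe_add, dot_add_right]
      have := dvd_dot v w
      have := dvd_dot v w'
      omega
    show ((dotInt (v : GolayPt → ℤ) ((w + w' : leechLattice) : GolayPt → ℤ) / 8 : ℤ) : ZMod 2) = _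
    rw [key]
    push_cast
    rfl
  · show ((dotInt (v : GolayPt → ℤ) (w : GolayPt → ℤ) / 8 : ℤ) : ZMod 2) = _
    rw [dot_comm]
    rfl
  · show ((dotInt (v : GolayPt → ℤ) (v : GolayPt → ℤ) / 8 : ℤ) : ZMod 2) = 0
    obtain ⟨k, hk⟩ := dvd_sqNorm v
    have key : dotInt (v : GolayPt → ℤ) (v : GolayPt → ℤ) / 8 = 2 * k := by
      rw [dot_self, hk]; omega
    rw [key]
    push_cast
    have h2 : (2 : ZMod 2) = 0 := by decide
    rw [h2, zero_mul]

/-! ### Norm computations -/

/-- `2` on the translate by `t` of the squares modulo 23, as a lattice vector -/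
def Dt (t : ZMod 23) : leechLattice :=
  ⟨dbl (qrWord t), dbl_mem (Submodule.subset_span (Or.inl ⟨t, rfl⟩))⟩

theorem nV : sqNorm Spor.vecV = 48 := by decide +kernel

theorem nSV : ∀ i : ZMod 23, sqNorm (eS i + Spor.vecV) = 32 := by decide +kernel

theorem nVS' : sqNorm (Spor.vecV + eS' 0) = 48 := by decide +kernel

theorem nD : ∀ t : ZMod 23, sqNorm (dbl (qrWord t)) = 48 := by decide +kernel

theorem nVD : ∀ t : ZMod 23, sqNorm (Spor.vecV + dbl (qrWord t)) = 48 := by decide +kernel

theorem nDD : ∀ t t' : ZMod 23, t ≠ t' → sqNorm (dbl (qrWord t) - dbl (qrWord t')) = 48 := by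
  decide +kernel

theorem nSVD : ∀ i t : ZMod 23, sqNorm (eS i + Spor.vecV + dbl (qrWord t)) = 32 ∨
    sqNorm (eS i + Spor.vecV + dbl (qrWord t)) = 48 := by decide +kernel

theorem nRVD : ∀ t : ZMod 23, sqNorm (Spor.vecV + eR + dbl (qrWord t)) = 32 := by decide +kernel

theorem c2 : ((32 / 16 : ℤ) : ZMod 2) = 0 := by decide

theorem c3 : ((48 / 16 : ℤ) : ZMod 2) = 1 := by decide

/-! ### Uniqueness -/

/-- Any quadratic form on the Leech lattice (weak axioms, values in `ZMod 2`) invariant under `Co0`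
is a multiple of the standard one. -/
theorem qform_unique (q : leechLattice → ZMod 2) (b : leechLattice → leechLattice → ZMod 2)
    (hQ : QForm q b) (hinv : ∀ (g : Co0) (v : leechLattice), q (g • v) = q v) (v : leechLattice) :
    q v = q Spor.leechV * q0 v := by
  obtain ⟨β, hβ⟩ : ∃ β, β = q Spor.leechV := ⟨_, rfl⟩
  rw [← hβ]
  have c32 : ∀ v w : leechLattice, sqNorm (v : GolayPt → ℤ) = 32 →
      sqNorm (w : GolayPt → ℤ) = 32 → q v = q w := by
    intro v w hv hw
    obtain ⟨g, rfl⟩ := trans_norm32 v w hv hw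
    exact (hinv g v).symm
  have c48 : ∀ v w : leechLattice, sqNorm (v : GolayPt → ℤ) = 48 →
      sqNorm (w : GolayPt → ℤ) = 48 → q v = q w := by
    intro v w hv hw
    obtain ⟨g, rfl⟩ := trans_norm48 v w hv hw
    exact (hinv g v).symm
  obtain ⟨W, hW⟩ : ∃ W : leechLattice, W = Spor.leechV + R := ⟨_, rfl⟩
  have h0 : q U = 0 := by
    have e1 : q (U + -S 1) = q U := c32 _ _ nUS nU
    have e2 : q W = q U := by rw [hW]; exact c32 _ _ nW nU
    have e3 : q (U + -S 1 + W) = q U := by rw [hW]; exact c32 _ _ nUSW nU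
    have e4 : q (-S 1) = q U := c32 _ _ nNS nU
    have e5 : q (U + W) = q (-S 1 + W) := by rw [hW]; exact c48 _ _ nUW nSW
    have f1 := hQ.q_add (U + -S 1) W
    have f2 := hQ.b_add_left U (-S 1) W
    have f3 := hQ.q_add U W
    have f4 := hQ.q_add (-S 1) W
    rw [e3, e1, e2, f2] at f1
    rw [e5, e2] at f3
    rw [e4, e2] at f4
    have key : ∀ α β x y : ZMod 2, α = α + α + (x + y) → β = α + α + x → β = α + α + y → α = 0 := by
      decide
    exact key _ _ _ _ f1 f3 f4
  have h32 : ∀ v : leechLattice, sqNorm (v : GolayPt → ℤ) = 32 → q v = 0 :=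
    fun v hv => (c32 v U hv nU).trans h0
  have h48 : ∀ v : leechLattice, sqNorm (v : GolayPt → ℤ) = 48 → q v = β :=
    fun v hv => (c48 v Spor.leechV hv nV).trans hβ.symm
  -- the difference form
  obtain ⟨D, hDdef⟩ : ∃ D : leechLattice → ZMod 2, D = fun v => q v + β * q0 v := ⟨_, rfl⟩
  obtain ⟨BD, hBDdef⟩ : ∃ BD : leechLattice → leechLattice → ZMod 2,
      BD = fun v w => b v w + β * b0 v w := ⟨_, rfl⟩
  have hD : QForm D BD := by
    rw [hDdef, hBDdef]
    exact qform_add_mul hQ qform0 β
  have good32 : ∀ v : leechLattice, sqNorm (v : GolayPt → ℤ) = 32 → D v = 0 := by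
    intro v hv
    rw [hDdef]
    show q v + β * ((sqNorm (v : GolayPt → ℤ) / 16 : ℤ) : ZMod 2) = 0
    rw [h32 v hv, hv, c2, mul_zero, add_zero]
  have good48 : ∀ v : leechLattice, sqNorm (v : GolayPt → ℤ) = 48 → D v = 0 := by
    intro v hv
    rw [hDdef]
    show q v + β * ((sqNorm (v : GolayPt → ℤ) / 16 : ℤ) : ZMod 2) = 0
    rw [h48 v hv, hv, c3, mul_one]
    exact CharTwo.add_self_eq_zero β
  have pm : ∀ v w : leechLattice, D v = 0 → D w = 0 → D (v - w) = 0 → BD v w = 0 := by
    intro v w hv hw hvw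
    have h1 := hD.q_sub v w
    rw [hvw, hv, hw, zero_add, zero_add] at h1
    exact h1.symm
  have pp : ∀ v w : leechLattice, D v = 0 → D w = 0 → D (v + w) = 0 → BD v w = 0 := by
    intro v w hv hw hvw
    have h1 := hD.q_add v w
    rw [hvw, hv, hw, zero_add, zero_add] at h1
    exact h1.symm
  have gS : ∀ i, D (S i) = 0 := fun i => good32 _ (nS i)
  have gS' : ∀ i, D (S' i) = 0 := fun i => good32 _ (nS' i)
  have gV : D Spor.leechV = 0 := good48 _ nV
  have gD : ∀ t, D (Dt t) = 0 := fun t => good48 _ (nD t)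
  have okSS : ∀ i j : ZMod 23, BD (S i) (S j) = 0 := by
    intro i j
    by_cases hij : i = j
    · rw [hij]; exact hD.b_self _
    · exact pm _ _ (gS i) (gS j) (good32 _ (nSS i j hij))
  have okSR : ∀ i : ZMod 23, BD (S i) R = 0 := by
    intro i
    rw [R_eq (i + 1), hD.b_add, okSS,
      pm (S i) (S' (i + 1)) (gS i) (gS' _) (good32 _ (nSS' i (i + 1) (ne_succ i))), add_zero]
  have gR : D R = 0 := by
    rw [R_eq 0, hD.q_add, gS 0, gS' 0, S'_eq, hD.b_sub, okSS 0 1,
      pm (S 0) U (gS 0) (good32 _ nU) (good32 _ nSU)]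
    decide
  have okSV : ∀ i : ZMod 23, BD (S i) Spor.leechV = 0 := fun i =>
    pp _ _ (gS i) gV (good32 _ (nSV i))
  have okRV : BD R Spor.leechV = 0 := by
    rw [hD.b_symm, R_eq 0, hD.b_add, hD.b_symm, okSV 0,
      pp Spor.leechV (S' 0) gV (gS' 0) (good48 _ nVS'), add_zero]
  have okVD : ∀ t : ZMod 23, BD Spor.leechV (Dt t) = 0 := fun t =>
    pp _ _ gV (gD t) (good48 _ (nVD t))
  have okDD : ∀ t t' : ZMod 23, BD (Dt t) (Dt t') = 0 := by
    intro t t'
    by_cases htt : t = t'
    · rw [htt]; exact hD.b_self _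
    · exact pm _ _ (gD t) (gD t') (good48 _ (nDD t t' htt))
  have okSD : ∀ i t : ZMod 23, BD (S i) (Dt t) = 0 := by
    intro i t
    have hX : D (S i + Spor.leechV + Dt t) = 0 := by
      rcases nSVD i t with h | h
      · exact good32 _ h
      · exact good48 _ h
    have h1 : BD (S i + Spor.leechV) (Dt t) = 0 := pp _ _ (good32 _ (nSV i)) (gD t) hX
    have h2 := hD.b_add_left (S i) Spor.leechV (Dt t)
    rw [h1, okVD t, add_zero] at h2
    exact h2.symm
  have okRD : ∀ t : ZMod 23, BD R (Dt t) = 0 := by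
    intro t
    have h1 : BD (Spor.leechV + R) (Dt t) = 0 :=
      pp _ _ (good32 _ nW) (gD t) (good32 _ (nRVD t))
    have h2 := hD.b_add_left Spor.leechV R (Dt t)
    rw [h1, okVD t, zero_add] at h2
    exact h2.symm
  obtain ⟨Gens, hGens⟩ : ∃ Gens : Set leechLattice,
      Gens = (Set.range S ∪ {R}) ∪ ({Spor.leechV} ∪ Set.range Dt) := ⟨_, rfl⟩
  have hcases : ∀ g ∈ Gens, (∃ i, g = S i) ∨ g = R ∨ g = Spor.leechV ∨ ∃ t, g = Dt t := by
    intro g hg
    rw [hGens] at hg
    rcases hg with (⟨i, rfl⟩ | hg) | (hg | ⟨t, rfl⟩)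
    · exact Or.inl ⟨i, rfl⟩
    · exact Or.inr (Or.inl hg)
    · exact Or.inr (Or.inr (Or.inl hg))
    · exact Or.inr (Or.inr (Or.inr ⟨t, rfl⟩))
  have hGq : ∀ g ∈ Gens, D g = 0 := by
    intro g hg
    rcases hcases g hg with ⟨i, rfl⟩ | rfl | rfl | ⟨t, rfl⟩
    · exact gS i
    · exact gR
    · exact gV
    · exact gD t
  have hGb : ∀ g ∈ Gens, ∀ g' ∈ Gens, BD g g' = 0 := by
    intro g hg g' hg'
    rcases hcases g hg with ⟨i, rfl⟩ | rfl | rfl | ⟨t, rfl⟩ <;>
      rcases hcases g' hg' with ⟨j, rfl⟩ | rfl | rfl | ⟨t', rfl⟩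
    · exact okSS i j
    · exact okSR i
    · exact okSV i
    · exact okSD i t'
    · rw [hD.b_symm]; exact okSR j
    · exact hD.b_self _
    · exact okRV
    · exact okRD t'
    · rw [hD.b_symm]; exact okSV j
    · rw [hD.b_symm]; exact okRV
    · exact hD.b_self _
    · exact okVD t'
    · rw [hD.b_symm]; exact okSD j t
    · rw [hD.b_symm]; exact okRD t
    · rw [hD.b_symm]; exact okVD t
    · exact okDD t t'
  have hvan := qform_vanish_gens hD Gens hGq hGb
  have hS : ∀ i, S i ∈ AddSubgroup.closure Gens := fun i =>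
    AddSubgroup.subset_closure (by rw [hGens]; exact Or.inl (Or.inl ⟨i, rfl⟩))
  have hR : R ∈ AddSubgroup.closure Gens :=
    AddSubgroup.subset_closure (by rw [hGens]; exact Or.inl (Or.inr rfl))
  have hVm : Spor.leechV ∈ AddSubgroup.closure Gens :=
    AddSubgroup.subset_closure (by rw [hGens]; exact Or.inr (Or.inl rfl))
  have hDm : ∀ t, Dt t ∈ AddSubgroup.closure Gens := fun t =>
    AddSubgroup.subset_closure (by rw [hGens]; exact Or.inr (Or.inr ⟨t, rfl⟩))
  have hgen0 : ∀ v : leechLattice, (∀ p, (v : GolayPt → ℤ) p % 4 = 0) →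
      v ∈ AddSubgroup.closure Gens := by
    intro v hv
    have hsum : (∑ p, (v : GolayPt → ℤ) p) % 8 = 0 := by
      obtain ⟨m, h1, h2, -⟩ := (mem_leechSet_iff _).1 ((mem_leechLattice_iff _).1 v.2)
      have := h1 none
      have := hv none
      omega
    rw [Fintype.sum_option] at hsum
    obtain ⟨c, hc⟩ : ∃ c : ZMod 23 → ℤ, ∀ i, (v : GolayPt → ℤ) (some i) = 4 * c i :=
      ⟨fun i => (v : GolayPt → ℤ) (some i) / 4, fun i => by
        have := hv (some i)
        show (v : GolayPt → ℤ) (some i) = 4 * ((v : GolayPt → ℤ) (some i) / 4)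
        omega⟩
    obtain ⟨k, hk⟩ : ∃ k : ℤ, (v : GolayPt → ℤ) none - ∑ i, (v : GolayPt → ℤ) (some i) = 8 * k :=
      ⟨((v : GolayPt → ℤ) none - ∑ i, (v : GolayPt → ℤ) (some i)) / 8, by
        have := hv none; omega⟩
    have hv_eq : v = ∑ i, c i • S i + k • R := by
      apply Subtype.ext
      funext p
      rw [AddSubgroup.coe_add, AddSubgroup.val_finsetSum, Pi.add_apply, Finset.sum_apply]
      simp only [AddSubgroup.coe_zsmul, Pi.smul_apply, smul_eq_mul]
      cases p with
      | none =>
        show (v : GolayPt → ℤ) none = ∑ i, c i * eS i none + k * eR none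
        have h1 : ∀ i, c i * eS i none = (v : GolayPt → ℤ) (some i) := by
          intro i
          rw [hc i]
          show c i * 4 = 4 * c i
          ring
        rw [Finset.sum_congr rfl (fun i _ => h1 i)]
        show (v : GolayPt → ℤ) none = ∑ i, (v : GolayPt → ℤ) (some i) + k * 8
        linarith
      | some j =>
        show (v : GolayPt → ℤ) (some j) = ∑ i, c i * eS i (some j) + k * eR (some j)
        have h1 : ∀ i, c i * eS i (some j) = if i = j then 4 * c i else 0 := by
          intro i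
          unfold eS
          by_cases h : i = j
          · subst h
            rw [if_pos (Or.inr rfl), if_pos rfl]
            ring
          · have h' : ¬ ((some j : GolayPt) = none ∨ (some j : GolayPt) = some i) := by
              rintro (h' | h')
              · exact absurd h' (by simp)
              · exact h (Option.some.inj h').symm
            rw [if_neg h', if_neg h, mul_zero]
        rw [Finset.sum_congr rfl (fun i _ => h1 i), Finset.sum_ite_eq' Finset.univ j,
          if_pos (Finset.mem_univ _), hc j]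
        show 4 * c j = 4 * c j + k * 0
        ring
    rw [hv_eq]
    exact add_mem (sum_mem (fun i _ => zsmul_mem (hS i) _)) (zsmul_mem hR _)
  have hAsub : ∀ v : leechLattice, (v : GolayPt → ℤ) ∈ Asub → v ∈ AddSubgroup.closure Gens := by
    intro v hv
    obtain ⟨-, hA⟩ := hv
    have h0' := hA none
    by_cases hc : (v : GolayPt → ℤ) none % 4 = 0
    · exact hgen0 v (fun p => by have := hA p; omega)
    · have hv' : v = (v - (Spor.leechV + Spor.leechV)) + (Spor.leechV + Spor.leechV) :=
        (sub_add_cancel _ _).symm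
      rw [hv']
      refine add_mem (hgen0 _ ?_) (add_mem hVm hVm)
      intro p
      show ((v : GolayPt → ℤ) p - (Spor.vecV p + Spor.vecV p)) % 4 = 0
      have := hA p
      have hV : Spor.vecV p = -5 ∨ Spor.vecV p = -1 := by
        cases p with
        | none => left; rfl
        | some x => right; rfl
      omega
  have hker : ∀ v : leechLattice, wd (v : GolayPt → ℤ) = 0 → v ∈ AddSubgroup.closure Gens := by
    intro v hv
    apply hAsub
    have h1 : v ∈ wdHom.ker := by
      rw [AddMonoidHom.mem_ker]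
      exact Subtype.ext hv
    rw [ker_wdHom] at h1
    exact h1
  have hstep : ∀ (v u : leechLattice), u ∈ AddSubgroup.closure Gens →
      wd (v : GolayPt → ℤ) = wd (u : GolayPt → ℤ) → v ∈ AddSubgroup.closure Gens := by
    intro v u hu hvu
    have h1 : wd ((v - u : leechLattice) : GolayPt → ℤ) = 0 := by
      have h2 := wd_add (v - u).2 u.2
      rw [← AddSubgroup.coe_add, sub_add_cancel, hvu] at h2
      exact (add_eq_right.mp h2.symm)
    have h3 := add_mem (hker _ h1) hu
    rwa [sub_add_cancel] at h3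
  have hall : ∀ c ∈ golayCode, ∀ v : leechLattice, wd (v : GolayPt → ℤ) = c →
      v ∈ AddSubgroup.closure Gens := by
    intro c hc
    unfold golayCode at hc
    induction hc using Submodule.span_induction with
    | mem x hx =>
      intro v hv
      rcases hx with ⟨t, rfl⟩ | hx
      · refine hstep v (Dt t) (hDm t) ?_
        rw [hv]
        exact (wd_dbl (c := qrWord t) rfl).symm
      · rw [Set.mem_singleton_iff.mp hx] at hv
        refine hstep v Spor.leechV hVm ?_
        rw [hv]
        exact wd_vecV.symm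
    | zero => exact fun v hv => hker v hv
    | add x y hx hy ihx ihy =>
      intro v hv
      obtain ⟨v1, hv1⟩ := wdHom_surjective ⟨x, hx⟩
      have hv1' : wd (v1 : GolayPt → ℤ) = x := congrArg Subtype.val hv1
      have h2 := wd_add (v - v1).2 v1.2
      rw [← AddSubgroup.coe_add, sub_add_cancel, hv, hv1', add_comm x y] at h2
      have h3 := add_mem (ihy (v - v1) (add_right_cancel h2).symm) (ihx v1 hv1')
      rwa [sub_add_cancel] at h3
    | smul a x hx ihx =>
      intro v hv
      rcases zmod2_cases a with ha | ha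
      · rw [ha, zero_smul] at hv
        exact hker v hv
      · rw [ha, one_smul] at hv
        exact ihx v hv
  have hfin : D v = 0 := hvan v (hall _ (wd_mem v.2) v rfl)
  rw [hDdef] at hfin
  exact CharTwo.add_eq_zero.mp hfin

/-- On the Leech lattice of the definitions, let Q be a function to the field with two elements that is constant on cosets of twice the lattice, is a quadratic form there (Q(u+v+w) + Q(u) + Q(v) + Q(w) = Q(u+v) + Q(u+w) + Q(v+w) for all u, v, w), is invariant under every lattice automorphism, and is not identically zero. Then Q(v) is the squared length of v divided by 16, reduced modulo 2, for every lattice vector v (squared lengths of lattice vectors are multiples of 16). -/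
theorem result (Q : ↥Cfsg.leechLattice → ZMod 2) (hcoset : ∀ v w : ↥Cfsg.leechLattice, Q (v + (w + w)) = Q v) (hquad : ∀ u v w : ↥Cfsg.leechLattice, Q (u + v + w) + Q u + Q v + Q w = Q (u + v) + Q (u + w) + Q (v + w)) (hinv : ∀ (g : ↥Cfsg.Co0) (v : ↥Cfsg.leechLattice), Q (g • v) = Q v) (hne : ∃ v : ↥Cfsg.leechLattice, Q v ≠ 0) (v : ↥Cfsg.leechLattice) : Q v = ((Cfsg.sqNorm (v : Cfsg.GolayPt → ℤ) / 16 : ℤ) : ZMod 2) := by
  have hQ0 : Q 0 = 0 := by
    have h := hquad 0 0 0
    simp only [add_zero] at h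
    have key : ∀ x : ZMod 2, x + x + x + x = x + x + x → x = 0 := by decide
    exact key _ h
  have hQ : QForm Q (fun u v => Q (u + v) + Q u + Q v) := by
    refine ⟨fun v w => ?_, fun v w w' => ?_, fun v w => ?_, fun v => ?_⟩
    · show Q (v + w) = Q v + Q w + (Q (v + w) + Q v + Q w)
      have key : ∀ x y z : ZMod 2, z = x + y + (z + x + y) := by decide
      exact key _ _ _
    · show Q (v + (w + w')) + Q v + Q (w + w') = Q (v + w) + Q v + Q w + (Q (v + w') + Q v + Q w')
      have h := hquad v w w'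
      rw [add_assoc v w w'] at h
      have key : ∀ X a b c P P' R : ZMod 2, X + a + b + c = P + P' + R →
          X + a + R = P + a + b + (P' + a + c) := by decide
      exact key _ _ _ _ _ _ _ h
    · show Q (v + w) + Q v + Q w = Q (w + v) + Q w + Q v
      rw [add_comm v w]; ring
    · show Q (v + v) + Q v + Q v = 0
      have h := hcoset 0 v
      rw [zero_add, hQ0] at h
      rw [h]
      have key : ∀ x : ZMod 2, 0 + x + x = 0 := by decide
      exact key _
  have hu := qform_unique Q _ hQ hinv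
  obtain ⟨v0, hv0⟩ := hne
  have hβ : Q Spor.leechV = 1 := by
    rcases zmod2_cases (Q Spor.leechV) with h | h
    · exfalso
      apply hv0
      rw [hu v0, h, zero_mul]
    · exact h
  rw [hu v, hβ, one_mul]
  rfl

end Cfsg.Agent.S5552
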