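-- Statement S5392: the Leech lattice modulo 2 is a faithful irreducible module for Co1.
import Cfsg.Statements.S5392
import Cfsg.Agent.S5552
import Cfsg.Agent.S5592
import Cfsg.Agent.S1567
import Cfsg.Agent.S0391
import Cfsg.Agent.Lib.Helper92.ShortRep
import Cfsg.Agent.Lib.Helper10.Lambda4d

set_option autoImplicit false
open Cfsg

namespace Cfsg.Agent.S5392

open Cfsg.Agent.S5408 Cfsg.Agent.S5552 Cfsg.Agent.Lib.Helper10 Cfsg.Agent.S5553

theorem co0_add (g : Co0) (v w : leechLattice) : g • (v + w) = g • v + g • w := g.2.1 v w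

theorem co0_norm (g : Co0) (v : leechLattice) :
    sqNorm ((g • v : leechLattice) : GolayPt → ℤ) = sqNorm (v : GolayPt → ℤ) := g.2.2 v

theorem co0_zero (g : Co0) : g • (0 : leechLattice) = 0 := by
  have h := co0_add g 0 0
  rw [add_zero] at h
  exact left_eq_add.mp h

theorem co0_neg (g : Co0) (v : leechLattice) : g • (-v) = -(g • v) := by
  have h := co0_add g v (-v)
  rw [add_neg_cancel, co0_zero] at h
  exact (neg_eq_of_add_eq_zero_right h.symm).symm

theorem co0_dot (g : Co0) (v w : leechLattice) :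
    dotInt ((g • v : leechLattice) : GolayPt → ℤ) ((g • w : leechLattice) : GolayPt → ℤ) =
      dotInt (v : GolayPt → ℤ) (w : GolayPt → ℤ) := by
  have h1 := co0_norm g (v + w)
  rw [co0_add, AddSubgroup.coe_add, AddSubgroup.coe_add, sqNorm_add, sqNorm_add, co0_norm,
    co0_norm] at h1
  omega

theorem dot_neg_right (x y : GolayPt → ℤ) : dotInt x (-y) = -dotInt x y := by
  simp only [dotInt, Pi.neg_apply, mul_neg, Finset.sum_neg_distrib]

theorem dot_eS (m : GolayPt → ℤ) (i : ZMod 23) : dotInt m (eS i) = 4 * m none + 4 * m (some i) := by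
  unfold dotInt
  rw [Fintype.sum_option]
  have h1 : ∀ j : ZMod 23, m (some j) * eS i (some j) = if j = i then 4 * m (some j) else 0 := by
    intro j
    unfold eS
    by_cases h : j = i
    · subst h
      rw [if_pos (Or.inr rfl), if_pos rfl]
      ring
    · have h' : ¬ ((some j : GolayPt) = none ∨ (some j : GolayPt) = some i) := by
        rintro (h' | h')
        · exact absurd h' (by simp)
        · exact h (Option.some.inj h')
      rw [if_neg h', if_neg h, mul_zero]
  rw [Finset.sum_congr rfl (fun j _ => h1 j), Finset.sum_ite_eq' Finset.univ i,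
    if_pos (Finset.mem_univ _)]
  show m none * 4 + 4 * m (some i) = 4 * m none + 4 * m (some i)
  ring

/-- a minimal vector is not orthogonal to all the `4(e_∞ + e_i)` -/
theorem exists_dot_ne (m : GolayPt → ℤ) (hm : sqNorm m = 32) : ∃ i : ZMod 23, dotInt m (eS i) ≠ 0 := by
  by_contra hcon
  push Not at hcon
  have h1 : ∀ i : ZMod 23, m (some i) = -m none := by
    intro i
    have := hcon i
    rw [dot_eS] at this
    omega
  unfold sqNorm at hm
  rw [Fintype.sum_option] at hm
  have h2 : ∀ i : ZMod 23, m (some i) ^ 2 = m none ^ 2 := by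
    intro i
    rw [h1 i]
    ring
  rw [Finset.sum_congr rfl (fun i _ => h2 i), Finset.sum_const, Finset.card_univ, ZMod.card,
    nsmul_eq_mul] at hm
  push_cast at hm
  have h3 : 24 * m none ^ 2 = 32 := by linarith
  omega

theorem dSS : ∀ i j : ZMod 23, dotInt (eS i) (eS j) ≠ 0 := by decide +kernel

/-- First half: the kernel on the lattice modulo 2 is central. -/
theorem partA (g : Co0)
    (hg : ∀ v : leechLattice, ∃ w : leechLattice,
      ((g • v : leechLattice) : GolayPt → ℤ) - (v : GolayPt → ℤ) = 2 • (w : GolayPt → ℤ)) :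
    g ∈ Subgroup.center Co0 := by
  have hpm : ∀ v : leechLattice, sqNorm (v : GolayPt → ℤ) = 32 → g • v = v ∨ g • v = -v := by
    intro v hv
    by_cases h : ((g • v : leechLattice) : GolayPt → ℤ) = (v : GolayPt → ℤ)
    · exact Or.inl (Subtype.ext h)
    · right
      obtain ⟨w, hw⟩ := hg v
      have hn : sqNorm ((g • v : leechLattice) : GolayPt → ℤ) = 32 := by rw [co0_norm, hv]
      rcases Cfsg.Agent.S5592.result _ _ (g • v).2 v.2 h (by rw [hn]; norm_num)
        (by rw [hv]; norm_num) ⟨w, w.2, hw⟩ with h1 | ⟨h1, -, -⟩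
      · exact Subtype.ext h1
      · rw [hn] at h1
        exact absurd h1 (by norm_num)
  have hv0 : ∀ v : leechLattice, sqNorm (v : GolayPt → ℤ) = 32 → v ≠ -v := by
    intro v hv h
    have h1 : (v : GolayPt → ℤ) = 0 := by
      have h2 : (v : GolayPt → ℤ) = -(v : GolayPt → ℤ) := congrArg Subtype.val h
      funext p
      have h3 := congrFun h2 p
      simp only [Pi.neg_apply, Pi.zero_apply] at h3 ⊢
      omega
    rw [h1] at hv
    simp [sqNorm] at hv
  -- propagation of the sign along non-orthogonal pairs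
  have hfix : ∀ a c : leechLattice, sqNorm (a : GolayPt → ℤ) = 32 → sqNorm (c : GolayPt → ℤ) = 32 →
      dotInt (a : GolayPt → ℤ) (c : GolayPt → ℤ) ≠ 0 → g • a = a → g • c = c := by
    intro a c ha hc hd hga
    rcases hpm c hc with h | h
    · exact h
    · exfalso
      have h1 := co0_dot g a c
      rw [hga, h, AddSubgroup.coe_neg, dot_neg_right] at h1
      omega
  have hneg : ∀ a c : leechLattice, sqNorm (a : GolayPt → ℤ) = 32 → sqNorm (c : GolayPt → ℤ) = 32 →
      dotInt (a : GolayPt → ℤ) (c : GolayPt → ℤ) ≠ 0 → g • a = -a → g • c = -c := by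
    intro a c ha hc hd hga
    rcases hpm c hc with h | h
    · exfalso
      have h1 := co0_dot g a c
      rw [hga, h, AddSubgroup.coe_neg, dot_comm, dot_neg_right, dot_comm] at h1
      omega
    · exact h
  rw [Subgroup.mem_center_iff]
  intro k
  rcases hpm (S 0) (nS 0) with h0 | h0
  · -- g fixes every minimal vector, hence everything
    have hS : ∀ i, g • S i = S i := fun i => hfix (S 0) (S i) (nS 0) (nS i) (dSS 0 i) h0
    have hmin : ∀ m : leechLattice, sqNorm (m : GolayPt → ℤ) = 32 → g • m = m := by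
      intro m hm
      obtain ⟨i, hi⟩ := exists_dot_ne _ hm
      exact hfix (S i) m (nS i) hm (by rw [dot_comm]; exact hi) (hS i)
    have hall : ∀ x : GolayPt → ℤ, x ∈ AddSubgroup.closure
        {x : GolayPt → ℤ | x ∈ leechLattice ∧ sqNorm x = 32} →
        ∀ hx : x ∈ leechLattice, g • (⟨x, hx⟩ : leechLattice) = ⟨x, hx⟩ := by
      intro x hx
      induction hx using AddSubgroup.closure_induction with
      | mem y hy => exact fun hx => hmin ⟨y, hx⟩ hy.2
      | zero => exact fun hx => co0_zero g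
      | add y y' hy hy' ihy ihy' =>
        intro hx
        rw [Cfsg.Agent.S1567.result] at hy hy'
        have h1 : (⟨y + y', hx⟩ : leechLattice) = ⟨y, hy⟩ + ⟨y', hy'⟩ := rfl
        rw [h1, co0_add, ihy hy, ihy' hy']
      | neg y hy ihy =>
        intro hx
        rw [Cfsg.Agent.S1567.result] at hy
        have h1 : (⟨-y, hx⟩ : leechLattice) = -⟨y, hy⟩ := rfl
        rw [h1, co0_neg, ihy hy]
    have hid : ∀ v : leechLattice, g • v = v := by
      intro v
      have h1 : (v : GolayPt → ℤ) ∈ AddSubgroup.closure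
          {x : GolayPt → ℤ | x ∈ leechLattice ∧ sqNorm x = 32} := by
        rw [Cfsg.Agent.S1567.result]; exact v.2
      exact hall v.1 h1 v.2
    apply Subtype.ext
    apply Equiv.ext
    intro v
    show k • (g • v) = g • (k • v)
    rw [hid, hid]
  · have hS : ∀ i, g • S i = -S i := fun i => hneg (S 0) (S i) (nS 0) (nS i) (dSS 0 i) h0
    have hmin : ∀ m : leechLattice, sqNorm (m : GolayPt → ℤ) = 32 → g • m = -m := by
      intro m hm
      obtain ⟨i, hi⟩ := exists_dot_ne _ hm
      exact hneg (S i) m (nS i) hm (by rw [dot_comm]; exact hi) (hS i)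
    have hall : ∀ x : GolayPt → ℤ, x ∈ AddSubgroup.closure
        {x : GolayPt → ℤ | x ∈ leechLattice ∧ sqNorm x = 32} →
        ∀ hx : x ∈ leechLattice, g • (⟨x, hx⟩ : leechLattice) = -⟨x, hx⟩ := by
      intro x hx
      induction hx using AddSubgroup.closure_induction with
      | mem y hy => exact fun hx => hmin ⟨y, hx⟩ hy.2
      | zero =>
        intro hx
        have h1 : (⟨0, hx⟩ : leechLattice) = 0 := rfl
        rw [h1, co0_zero, neg_zero]
      | add y y' hy hy' ihy ihy' =>
        intro hx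
        rw [Cfsg.Agent.S1567.result] at hy hy'
        have h1 : (⟨y + y', hx⟩ : leechLattice) = ⟨y, hy⟩ + ⟨y', hy'⟩ := rfl
        rw [h1, co0_add, ihy hy, ihy' hy', neg_add]
      | neg y hy ihy =>
        intro hx
        rw [Cfsg.Agent.S1567.result] at hy
        have h1 : (⟨-y, hx⟩ : leechLattice) = -⟨y, hy⟩ := rfl
        rw [h1, co0_neg, ihy hy]
    have hid : ∀ v : leechLattice, g • v = -v := by
      intro v
      have h1 : (v : GolayPt → ℤ) ∈ AddSubgroup.closure
          {x : GolayPt → ℤ | x ∈ leechLattice ∧ sqNorm x = 32} := by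
        rw [Cfsg.Agent.S1567.result]; exact v.2
      exact hall v.1 h1 v.2
    apply Subtype.ext
    apply Equiv.ext
    intro v
    show k • (g • v) = g • (k • v)
    rw [hid, hid, co0_neg]

theorem n64a : sqNorm (eS 0 + (eS 1 - eS' 2)) = 64 := by decide +kernel

theorem n64b : sqNorm (eS 0 + (eS 1 - eS' 2) - eS 3) = 64 := by decide +kernel

/-- Second half, with the two facts on the lattice modulo 2 as hypotheses. -/
theorem partB
    (h1570 : ∀ x : GolayPt → ℤ, x ∈ leechLattice →
      ∃ y ∈ leechLattice, sqNorm y ≤ 64 ∧ ∃ z ∈ leechLattice, x - y = 2 • z)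
    (h5593 : ∀ v w : leechLattice, sqNorm (v : GolayPt → ℤ) = 64 → sqNorm (w : GolayPt → ℤ) = 64 →
      ∃ g : Co0, ∃ z ∈ leechLattice,
        ((g • v : leechLattice) : GolayPt → ℤ) - (w : GolayPt → ℤ) = 2 • z)
    (M : AddSubgroup (GolayPt → ℤ)) (h2 : ∀ v ∈ leechLattice, (2 : ℤ) • v ∈ M)
    (hML : M ≤ leechLattice)
    (hinv : ∀ g : Co0, ∀ v : leechLattice, (v : GolayPt → ℤ) ∈ M →
      ((g • v : leechLattice) : GolayPt → ℤ) ∈ M) :
    (∀ x ∈ M, ∃ w ∈ leechLattice, x = (2 : ℤ) • w) ∨ M = leechLattice := by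
  by_cases hcase : ∀ x ∈ M, ∃ w ∈ leechLattice, x = (2 : ℤ) • w
  · exact Or.inl hcase
  right
  push Not at hcase
  obtain ⟨x, hxM, hx⟩ := hcase
  -- a minimal vector in M gives everything
  have hmin : ∀ m : leechLattice, sqNorm (m : GolayPt → ℤ) = 32 → (m : GolayPt → ℤ) ∈ M →
      M = leechLattice := by
    intro m hm hmM
    apply le_antisymm hML
    rw [← Cfsg.Agent.S1567.result, AddSubgroup.closure_le]
    rintro y ⟨hy, hyn⟩
    obtain ⟨g, hg⟩ := trans_norm32 m ⟨y, hy⟩ hm hyn
    have h1 := hinv g m hmM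
    rw [hg] at h1
    exact h1
  obtain ⟨y, hy, hn, w, hw, hxy⟩ := h1570 x (hML hxM)
  have hyM : y ∈ M := by
    have h1 : y = x - (2 : ℤ) • w := by
      rw [two_nsmul] at hxy
      rw [two_smul, ← hxy]
      abel
    rw [h1]
    exact M.sub_mem hxM (h2 w hw)
  have hy0 : y ≠ 0 := by
    intro h0
    apply hx w hw
    rw [h0, sub_zero] at hxy
    rw [hxy, two_nsmul, two_smul]
  have h32 := Cfsg.Agent.S0391.result y hy hy0
  have h16 := dvd_sqNorm ⟨y, hy⟩
  have hcases : sqNorm y = 32 ∨ sqNorm y = 48 ∨ sqNorm y = 64 := by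
    have : sqNorm ((⟨y, hy⟩ : leechLattice) : GolayPt → ℤ) = sqNorm y := rfl
    omega
  rcases hcases with h | h | h
  · exact hmin ⟨y, hy⟩ h hyM
  · -- all vectors of squared length 48 are in M
    have h48 : ∀ u : leechLattice, sqNorm (u : GolayPt → ℤ) = 48 → (u : GolayPt → ℤ) ∈ M := by
      intro u hu
      obtain ⟨g, hg⟩ := trans_norm48 ⟨y, hy⟩ u h hu
      have h1 := hinv g ⟨y, hy⟩ hyM
      rw [hg] at h1
      exact h1
    have h1 := h48 Spor.leechV nV
    have h2' := h48 (Spor.leechV + S' 0) nVS'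
    have h3 : ((S' 0 : leechLattice) : GolayPt → ℤ) ∈ M := by
      have h4 := M.sub_mem h2' h1
      have h5 : ((Spor.leechV + S' 0 : leechLattice) : GolayPt → ℤ) -
          ((Spor.leechV : leechLattice) : GolayPt → ℤ) = ((S' 0 : leechLattice) : GolayPt → ℤ) := by
        rw [AddSubgroup.coe_add]; abel
      rwa [h5] at h4
    exact hmin (S' 0) (nS' 0) h3
  · have h64 : ∀ u : leechLattice, sqNorm (u : GolayPt → ℤ) = 64 → (u : GolayPt → ℤ) ∈ M := by
      intro u hu
      obtain ⟨g, z, hz, hgz⟩ := h5593 ⟨y, hy⟩ u h hu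
      have h1 := hinv g ⟨y, hy⟩ hyM
      have h3 : (u : GolayPt → ℤ) = ((g • (⟨y, hy⟩ : leechLattice) : leechLattice) : GolayPt → ℤ) -
          (2 : ℤ) • z := by
        rw [two_nsmul] at hgz
        rw [two_smul, ← hgz]
        abel
      rw [h3]
      exact M.sub_mem h1 (h2 z hz)
    have h1 := h64 (S 0 + (S 1 - S' 2)) n64a
    have h2' := h64 (S 0 + (S 1 - S' 2) - S 3) n64b
    have h3 : ((S 3 : leechLattice) : GolayPt → ℤ) ∈ M := by
      have h4 := M.sub_mem h1 h2'
      have h5 : ((S 0 + (S 1 - S' 2) : leechLattice) : GolayPt → ℤ) -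
          ((S 0 + (S 1 - S' 2) - S 3 : leechLattice) : GolayPt → ℤ) =
          ((S 3 : leechLattice) : GolayPt → ℤ) := by
        rw [AddSubgroup.coe_sub]; abel
      rwa [h5] at h4
    exact hmin (S 3) (nS 3) h3

theorem h5593 (v w : leechLattice) (hv : sqNorm (v : GolayPt → ℤ) = 64)
    (hw : sqNorm (w : GolayPt → ℤ) = 64) :
    ∃ g : Co0, ∃ z ∈ leechLattice,
      ((g • v : leechLattice) : GolayPt → ℤ) - (w : GolayPt → ℤ) = 2 • z := by
  obtain ⟨g, hg⟩ := trans_norm64 v w hv hw
  exact ⟨g, 0, zero_mem _, by rw [hg]; simp⟩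

/-- The Leech lattice modulo twice itself is a faithful irreducible module for the first Conway group: an automorphism of the rank-24 lattice built from the length-24 code that moves every lattice vector only by twice a lattice vector lies in the centre of the automorphism group (the centre consists of ±1, which act trivially there, so the kernel is exactly the centre), and an additive subgroup lying between twice the lattice and the lattice that is invariant under all lattice automorphisms is one of the two. -/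
theorem result : (∀ g : ↥Cfsg.Co0, (∀ v : ↥Cfsg.leechLattice, ∃ w : ↥Cfsg.leechLattice, ((g • v : ↥Cfsg.leechLattice) : Cfsg.GolayPt → ℤ) - (v : Cfsg.GolayPt → ℤ) = 2 • (w : Cfsg.GolayPt → ℤ)) → g ∈ Subgroup.center ↥Cfsg.Co0) ∧ ∀ M : AddSubgroup (Cfsg.GolayPt → ℤ), (∀ v ∈ Cfsg.leechLattice, (2 : ℤ) • v ∈ M) → M ≤ Cfsg.leechLattice → (∀ g : ↥Cfsg.Co0, ∀ v : ↥Cfsg.leechLattice, (v : Cfsg.GolayPt → ℤ) ∈ M → ((g • v : ↥Cfsg.leechLattice) : Cfsg.GolayPt → ℤ) ∈ M) → (∀ x ∈ M, ∃ w ∈ Cfsg.leechLattice, x = (2 : ℤ) • w) ∨ M = Cfsg.leechLattice :=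
  ⟨partA, partB Cfsg.Agent.Lib.Helper92.short_rep h5593⟩

end Cfsg.Agent.S5392
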