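-- Statement S5411: in a group of Monster type, C(z) is transitive on the involutions of Q
-- that are not conjugate to z.
import Cfsg.Statements.S5411
import Cfsg.Agent.S5552
import Cfsg.Agent.S0391
import Cfsg.Agent.Lib.Helper30.Basic
import Cfsg.Agent.Lib.Helper92.ShortRep
import Cfsg.Agent.Lib.Helper10.Lambda4d

set_option autoImplicit false
open Cfsg
open scoped commutatorElement

namespace Cfsg.Agent.S5411

open Cfsg.Agent.S5408 Cfsg.Agent.S5552 Cfsg.Agent.Lib.Helper10 Cfsg.Agent.S5553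

/-- The core argument, with the two facts on the Leech lattice modulo 2 (every class has a
representative of squared length at most 64; the automorphism group is transitive on the classes of
vectors of squared length 64) as hypotheses. -/
theorem core
    (h1570 : ∀ x : GolayPt → ℤ, x ∈ leechLattice →
      ∃ y ∈ leechLattice, sqNorm y ≤ 64 ∧ ∃ z ∈ leechLattice, x - y = 2 • z)
    (h5593 : ∀ v w : leechLattice, sqNorm (v : GolayPt → ℤ) = 64 → sqNorm (w : GolayPt → ℤ) = 64 →
      ∃ g : Co0, ∃ z ∈ leechLattice,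
        ((g • v : leechLattice) : GolayPt → ℤ) - (w : GolayPt → ℤ) = 2 • z)
    {G : Type*} [Group G] [Finite G] (z : G) (Q : Subgroup (Subgroup.centralizer ({z} : Set G)))
    [Q.Normal] (hM : Cfsg.IsOfMonsterType z Q) (s t : G)
    (hsQ : ∃ hsc : s ∈ Subgroup.centralizer ({z} : Set G),
      (⟨s, hsc⟩ : Subgroup.centralizer ({z} : Set G)) ∈ Q)
    (htQ : ∃ htc : t ∈ Subgroup.centralizer ({z} : Set G),
      (⟨t, htc⟩ : Subgroup.centralizer ({z} : Set G)) ∈ Q)
    (hs2 : orderOf s = 2) (ht2 : orderOf t = 2) (hs : ¬ IsConj z s) (ht : ¬ IsConj z t) :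
    ∃ h ∈ Subgroup.centralizer ({z} : Set G), h * s * h⁻¹ = t := by
  obtain ⟨⟨hz, hF, hE, hcard, g0, ⟨hg0c, hg0Q⟩, hg0ne⟩, e, ψ, hψ1, hψ2, hψ3, hψ4⟩ := hM
  obtain ⟨ζ, hX⟩ := xs_of_isExtraspecial hE
  have hQ : QForm (qf ψ) (bf ψ) := qform_of_xs hX ψ hψ1
  have hinv : ∀ (g : Co0) (v : leechLattice), qf ψ (g • v) = qf ψ v := by
    intro g v
    obtain ⟨hbar, hh⟩ := e.surjective (QuotientGroup.mk g)
    obtain ⟨h, rfl⟩ := QuotientGroup.mk_surjective hbar
    have h1 := hψ4 h g hh.symm v (lift ψ v) (mk_lift ψ v).symm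
    rw [← sqv_of_mk hX ψ (g • v) _ h1]
    unfold qf sqv
    apply ind_congr
    have h2 : ∀ a : Q, (⟨h * a * h⁻¹, (inferInstance : Q.Normal).conj_mem a a.2 h⟩ : Q) *
        ⟨h * a * h⁻¹, (inferInstance : Q.Normal).conj_mem a a.2 h⟩ = 1 ↔ a * a = 1 := by
      intro a
      constructor
      · intro h3
        have h4 : h * (a : Subgroup.centralizer ({z} : Set G)) * h⁻¹ *
            (h * (a : Subgroup.centralizer ({z} : Set G)) * h⁻¹) = 1 := congrArg Subtype.val h3
        apply Subtype.ext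
        have h5 : h * ((a : Subgroup.centralizer ({z} : Set G)) * a) * h⁻¹ = 1 := by
          rw [← h4]; group
        exact conj_eq_one_iff.mp h5
      · intro h3
        apply Subtype.ext
        have h4 : (a : Subgroup.centralizer ({z} : Set G)) * a = 1 := congrArg Subtype.val h3
        show h * (a : Subgroup.centralizer ({z} : Set G)) * h⁻¹ *
            (h * (a : Subgroup.centralizer ({z} : Set G)) * h⁻¹) = 1
        calc h * (a : Subgroup.centralizer ({z} : Set G)) * h⁻¹ *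
            (h * (a : Subgroup.centralizer ({z} : Set G)) * h⁻¹)
            = h * ((a : Subgroup.centralizer ({z} : Set G)) * a) * h⁻¹ := by group
          _ = 1 := by rw [h4]; group
    exact h2 _
  have hu := qform_unique (qf ψ) (bf ψ) hQ hinv
  -- the form is the standard one
  have hβ : qf ψ Spor.leechV = 1 := by
    rcases zmod2_cases (qf ψ Spor.leechV) with h | h
    · exfalso
      have hsq : ∀ x : Q, x * x = 1 := by
        intro x
        obtain ⟨v, hv⟩ := hψ2 (QuotientGroup.mk x)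
        have h2 := sqv_of_mk hX ψ v x hv
        rw [hu v, h, zero_mul] at h2
        exact ind_eq_zero_iff.mp h2
      have hab : ∀ x y : Q, x * y = y * x := by
        intro x y
        have i1 : x⁻¹ = x := inv_eq_of_mul_eq_one_right (hsq x)
        have i2 : y⁻¹ = y := inv_eq_of_mul_eq_one_right (hsq y)
        have i3 : (x * y)⁻¹ = x * y := inv_eq_of_mul_eq_one_right (hsq (x * y))
        rw [mul_inv_rev, i1, i2] at i3
        exact i3.symm
      have hall : ∀ x : Q, x = 1 ∨ x = ζ := fun x =>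
        hX.ctr x (Subgroup.mem_center_iff.mpr (fun g => hab g x))
      have hle : Nat.card Q ≤ 2 := by
        have hsub : (Set.univ : Set Q) ⊆ {1, ζ} := fun x _ => hall x
        calc Nat.card Q = (Set.univ : Set Q).ncard := (Set.ncard_univ _).symm
          _ ≤ ({1, ζ} : Set Q).ncard := Set.ncard_le_ncard hsub (Set.toFinite _)
          _ ≤ ({ζ} : Set Q).ncard + 1 := Set.ncard_insert_le _ _
          _ = 2 := by rw [Set.ncard_singleton]
      rw [hcard] at hle
      norm_num at hle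
    · exact h
  have hq0 : ∀ v, qf ψ v = q0 v := fun v => by rw [hu v, hβ, one_mul]
  -- z is the central involution of Q
  have hzC : z ∈ Subgroup.centralizer ({z} : Set G) :=
    Subgroup.mem_centralizer_iff.mpr (fun y hy => by rw [Set.mem_singleton_iff.mp hy])
  obtain ⟨zC, hzCdef⟩ : ∃ zC : Subgroup.centralizer ({z} : Set G), zC = ⟨z, hzC⟩ := ⟨_, rfl⟩
  have hzcen : ∀ c : Subgroup.centralizer ({z} : Set G), c * zC = zC * c := by
    intro c
    apply Subtype.ext
    rw [hzCdef]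
    show (c : G) * z = z * c
    exact (Subgroup.mem_centralizer_iff.mp c.2 z rfl).symm
  have hzQ : zC ∈ Q := by
    rw [← hF]
    apply Cfsg.Agent.Lib.Helper30.centralizer_genFitting_le
    rw [Subgroup.mem_centralizer_iff]
    intro y _
    exact hzcen y
  have hz1 : z ≠ 1 := by
    intro h
    rw [h, orderOf_one] at hz
    exact absurd hz (by norm_num)
  have hζ : (ζ : Subgroup.centralizer ({z} : Set G)) = zC := by
    have h1 : (⟨zC, hzQ⟩ : Q) ∈ Subgroup.center Q :=
      Subgroup.mem_center_iff.mpr (fun g => Subtype.ext (hzcen g))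
    rcases hX.ctr _ h1 with h | h
    · exfalso
      have h2 : zC = 1 := congrArg Subtype.val h
      rw [hzCdef] at h2
      exact hz1 (congrArg Subtype.val h2)
    · rw [← h]
  -- short representatives
  have hψ0 : ψ 0 = 1 := (hψ3 0).mpr ⟨0, (add_zero 0).symm⟩
  have hshort : ∀ y : Q ⧸ Subgroup.center Q,
      ∃ v : leechLattice, sqNorm (v : GolayPt → ℤ) ≤ 64 ∧ ψ v = y := by
    intro y
    obtain ⟨v, hv⟩ := hψ2 y
    obtain ⟨y', hy', hn, w, hw, hvw⟩ := h1570 v.1 v.2
    refine ⟨⟨y', hy'⟩, hn, ?_⟩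
    have h1 : v = ⟨y', hy'⟩ + ((⟨w, hw⟩ : leechLattice) + ⟨w, hw⟩) := by
      apply Subtype.ext
      show (v : GolayPt → ℤ) = y' + (w + w)
      rw [two_nsmul] at hvw
      rw [← hvw]
      abel
    rw [← hv, h1, hψ1, (hψ3 _).mpr ⟨_, rfl⟩, mul_one]
  have htype : ∀ x : Q, x * x = 1 → x ∉ Subgroup.center Q →
      ∃ v : leechLattice, (sqNorm (v : GolayPt → ℤ) = 32 ∨ sqNorm (v : GolayPt → ℤ) = 64) ∧
        ψ v = QuotientGroup.mk x := by
    intro x hx hxc
    obtain ⟨v, hn, hv⟩ := hshort (QuotientGroup.mk x)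
    refine ⟨v, ?_, hv⟩
    have hv0 : (v : GolayPt → ℤ) ≠ 0 := by
      intro h0
      have h1 : v = 0 := Subtype.ext h0
      rw [h1, hψ0] at hv
      exact hxc ((QuotientGroup.eq_one_iff x).mp hv.symm)
    have h32 := Cfsg.Agent.S0391.result v.1 v.2 hv0
    have h16 := dvd_sqNorm v
    have hq : q0 v = 0 := by
      rw [← hq0, ← sqv_of_mk hX ψ v x hv]
      exact ind_eq_zero_iff.mpr hx
    have h48 : sqNorm (v : GolayPt → ℤ) ≠ 48 := by
      intro h
      unfold q0 at hq
      rw [h, c3] at hq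
      exact absurd hq (by decide)
    omega
  -- conjugating inside C
  have hconj : ∀ (x x' : Q) (v v' : leechLattice) (g : Co0), ψ v = QuotientGroup.mk x →
      ψ v' = QuotientGroup.mk x' → ψ (g • v) = ψ v' → x' ∉ Subgroup.center Q →
      ∃ h : Subgroup.centralizer ({z} : Set G),
        h * (x : Subgroup.centralizer ({z} : Set G)) * h⁻¹ = (x' : Subgroup.centralizer ({z} : Set G)) := by
    intro x x' v v' g hv hv' hg hx'
    obtain ⟨hbar, hh⟩ := e.surjective (QuotientGroup.mk g)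
    obtain ⟨h, rfl⟩ := QuotientGroup.mk_surjective hbar
    have h1 := hψ4 h g hh.symm v x hv
    rw [hg, hv', QuotientGroup.eq] at h1
    rcases hX.ctr _ h1 with h2 | h2
    · refine ⟨h, ?_⟩
      have h3 := congrArg Subtype.val (inv_mul_eq_one.mp h2)
      exact h3.symm
    · have hnc : ∃ y : Q, y * x' ≠ x' * y := by
        by_contra hcon
        push Not at hcon
        exact hx' (Subgroup.mem_center_iff.mpr hcon)
      obtain ⟨y, hy⟩ := hnc
      have hcm : ⁅y, x'⁆ = ζ := by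
        rcases hX.comm y x' with h4 | h4
        · exfalso
          exact hy (commutatorElement_eq_one_iff_mul_comm.mp h4)
        · exact h4
      have h5 : (⟨h * x * h⁻¹, (inferInstance : Q.Normal).conj_mem x x.2 h⟩ : Q) = x' * ζ := by
        rw [← h2]; group
      have h6 : y * x' * y⁻¹ = x' * ζ := by
        rw [hX.cen x', ← hcm, commutatorElement_def]; group
      have h7 : h * (x : Subgroup.centralizer ({z} : Set G)) * h⁻¹ =
          (x' : Subgroup.centralizer ({z} : Set G)) * ζ := congrArg Subtype.val h5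
      have h8 : (y : Subgroup.centralizer ({z} : Set G)) * x' * (y : Subgroup.centralizer ({z} : Set G))⁻¹ =
          (x' : Subgroup.centralizer ({z} : Set G)) * ζ := congrArg Subtype.val h6
      refine ⟨(y : Subgroup.centralizer ({z} : Set G))⁻¹ * h, ?_⟩
      calc (y : Subgroup.centralizer ({z} : Set G))⁻¹ * h * x *
            ((y : Subgroup.centralizer ({z} : Set G))⁻¹ * h)⁻¹
          = (y : Subgroup.centralizer ({z} : Set G))⁻¹ * (h * x * h⁻¹) * y := by group
        _ = (y : Subgroup.centralizer ({z} : Set G))⁻¹ *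
            ((y : Subgroup.centralizer ({z} : Set G)) * x' *
              (y : Subgroup.centralizer ({z} : Set G))⁻¹) * y := by rw [h7, h8]
        _ = x' := by group
  have hconj' : ∀ (x x' : Q) (v v' : leechLattice), ψ v = QuotientGroup.mk x →
      ψ v' = QuotientGroup.mk x' → x' ∉ Subgroup.center Q →
      (sqNorm (v : GolayPt → ℤ) = 32 ∧ sqNorm (v' : GolayPt → ℤ) = 32 ∨
        sqNorm (v : GolayPt → ℤ) = 64 ∧ sqNorm (v' : GolayPt → ℤ) = 64) →
      ∃ h : Subgroup.centralizer ({z} : Set G),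
        h * (x : Subgroup.centralizer ({z} : Set G)) * h⁻¹ = (x' : Subgroup.centralizer ({z} : Set G)) := by
    intro x x' v v' hv hv' hx' hn
    rcases hn with ⟨h1, h2⟩ | ⟨h1, h2⟩
    · obtain ⟨g, hg⟩ := trans_norm32 v v' h1 h2
      exact hconj x x' v v' g hv hv' (by rw [hg]) hx'
    · obtain ⟨g, w, hw, hgw⟩ := h5593 v v' h1 h2
      refine hconj x x' v v' g hv hv' ?_ hx'
      have h3 : g • v = v' + ((⟨w, hw⟩ : leechLattice) + ⟨w, hw⟩) := by
        apply Subtype.ext
        show ((g • v : leechLattice) : GolayPt → ℤ) = (v' : GolayPt → ℤ) + (w + w)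
        rw [two_nsmul] at hgw
        rw [← hgw]
        abel
      rw [h3, hψ1, (hψ3 _).mpr ⟨_, rfl⟩, mul_one]
  -- the three involutions
  have hzz : z * z = 1 := by
    have := pow_orderOf_eq_one z
    rwa [hz, pow_two] at this
  have hinvol : ∀ (r : G) (hrc : r ∈ Subgroup.centralizer ({z} : Set G))
      (hrQ : (⟨r, hrc⟩ : Subgroup.centralizer ({z} : Set G)) ∈ Q), r * r = 1 → r ≠ 1 → r ≠ z →
      (⟨⟨r, hrc⟩, hrQ⟩ : Q) * ⟨⟨r, hrc⟩, hrQ⟩ = 1 ∧ (⟨⟨r, hrc⟩, hrQ⟩ : Q) ∉ Subgroup.center Q := by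
    intro r hrc hrQ hrr hr1 hrz
    refine ⟨Subtype.ext (Subtype.ext hrr), fun hc => ?_⟩
    rcases hX.ctr _ hc with h | h
    · exact hr1 (congrArg Subtype.val (congrArg Subtype.val h))
    · have h2 : (⟨r, hrc⟩ : Subgroup.centralizer ({z} : Set G)) = zC := by
        rw [← hζ, ← h]
      rw [hzCdef] at h2
      exact hrz (congrArg Subtype.val h2)
  obtain ⟨hsc, hsQ'⟩ := hsQ
  obtain ⟨htc, htQ'⟩ := htQ
  have hss : s * s = 1 := by
    have := pow_orderOf_eq_one s
    rwa [hs2, pow_two] at this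
  have htt : t * t = 1 := by
    have := pow_orderOf_eq_one t
    rwa [ht2, pow_two] at this
  have hs1 : s ≠ 1 := by
    intro h
    rw [h, orderOf_one] at hs2
    exact absurd hs2 (by norm_num)
  have ht1 : t ≠ 1 := by
    intro h
    rw [h, orderOf_one] at ht2
    exact absurd ht2 (by norm_num)
  have hsz : s ≠ z := fun h => hs (h ▸ IsConj.refl z)
  have htz : t ≠ z := fun h => ht (h ▸ IsConj.refl z)
  obtain ⟨hxs1, hxs2⟩ := hinvol s hsc hsQ' hss hs1 hsz
  obtain ⟨hxt1, hxt2⟩ := hinvol t htc htQ' htt ht1 htz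
  have h00 : g0 * z * g0⁻¹ * (g0 * z * g0⁻¹) = 1 := by
    calc g0 * z * g0⁻¹ * (g0 * z * g0⁻¹) = g0 * (z * z) * g0⁻¹ := by group
      _ = 1 := by rw [hzz]; group
  have h01 : g0 * z * g0⁻¹ ≠ 1 := by
    intro h
    exact hz1 (conj_eq_one_iff.mp h)
  obtain ⟨hx01, hx02⟩ := hinvol (g0 * z * g0⁻¹) hg0c hg0Q h00 h01 hg0ne
  obtain ⟨vs, hns, hvs⟩ := htype _ hxs1 hxs2
  obtain ⟨vt, hnt, hvt⟩ := htype _ hxt1 hxt2
  obtain ⟨v0, hn0, hv0⟩ := htype _ hx01 hx02
  have hc0 : IsConj z (g0 * z * g0⁻¹) := isConj_iff.mpr ⟨g0, rfl⟩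
  -- s and t do not have the type of the conjugate
  have hdiff : ∀ (r : G) (hrc : r ∈ Subgroup.centralizer ({z} : Set G))
      (hrQ : (⟨r, hrc⟩ : Subgroup.centralizer ({z} : Set G)) ∈ Q) (vr : leechLattice),
      ψ vr = QuotientGroup.mk (⟨⟨r, hrc⟩, hrQ⟩ : Q) →
      (⟨⟨r, hrc⟩, hrQ⟩ : Q) ∉ Subgroup.center Q → ¬ IsConj z r →
      ¬ (sqNorm (v0 : GolayPt → ℤ) = 32 ∧ sqNorm (vr : GolayPt → ℤ) = 32 ∨
        sqNorm (v0 : GolayPt → ℤ) = 64 ∧ sqNorm (vr : GolayPt → ℤ) = 64) := by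
    intro r hrc hrQ vr hvr hrcen hr hn
    obtain ⟨h, hh⟩ := hconj' _ _ v0 vr hv0 hvr hrcen hn
    apply hr
    have h1 : (h : G) * (g0 * z * g0⁻¹) * (h : G)⁻¹ = r := congrArg Subtype.val hh
    exact hc0.trans (isConj_iff.mpr ⟨h, h1⟩)
  have hd1 := hdiff s hsc hsQ' vs hvs hxs2 hs
  have hd2 := hdiff t htc htQ' vt hvt hxt2 ht
  have hsame : sqNorm (vs : GolayPt → ℤ) = 32 ∧ sqNorm (vt : GolayPt → ℤ) = 32 ∨
      sqNorm (vs : GolayPt → ℤ) = 64 ∧ sqNorm (vt : GolayPt → ℤ) = 64 := by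
    rcases hns with h1 | h1 <;> rcases hnt with h2 | h2 <;> rcases hn0 with h3 | h3
    · exact Or.inl ⟨h1, h2⟩
    · exact Or.inl ⟨h1, h2⟩
    · exact absurd (Or.inl ⟨h3, h1⟩) hd1
    · exact absurd (Or.inr ⟨h3, h2⟩) hd2
    · exact absurd (Or.inl ⟨h3, h2⟩) hd2
    · exact absurd (Or.inr ⟨h3, h1⟩) hd1
    · exact Or.inr ⟨h1, h2⟩
    · exact Or.inr ⟨h1, h2⟩
  obtain ⟨h, hh⟩ := hconj' _ _ vs vt hvs hvt hxt2 hsame
  exact ⟨h, h.2, congrArg Subtype.val hh⟩

theorem h5593 (v w : leechLattice) (hv : sqNorm (v : GolayPt → ℤ) = 64)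
    (hw : sqNorm (w : GolayPt → ℤ) = 64) :
    ∃ g : Co0, ∃ z ∈ leechLattice,
      ((g • v : leechLattice) : GolayPt → ℤ) - (w : GolayPt → ℤ) = 2 • z := by
  obtain ⟨g, hg⟩ := trans_norm64 v w hv hw
  exact ⟨g, 0, zero_mem _, by rw [hg]; simp⟩

/-- Let G be a finite group of Monster type at the involution z with Q the extraspecial normal subgroup of order 2^25 of C = C_G(z). Then C is transitive on the involutions of Q that are not conjugate to z in G: if s and t are elements of order 2 of Q neither of which is conjugate to z, then t is the conjugate of s by an element of C. -/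
theorem result {G : Type*} [Group G] [Finite G] (z : G) (Q : Subgroup (Subgroup.centralizer ({z} : Set G))) [Q.Normal] (hM : Cfsg.IsOfMonsterType z Q) (s t : G) (hsQ : ∃ hsc : s ∈ Subgroup.centralizer ({z} : Set G), (⟨s, hsc⟩ : Subgroup.centralizer ({z} : Set G)) ∈ Q) (htQ : ∃ htc : t ∈ Subgroup.centralizer ({z} : Set G), (⟨t, htc⟩ : Subgroup.centralizer ({z} : Set G)) ∈ Q) (hs2 : orderOf s = 2) (ht2 : orderOf t = 2) (hs : ¬ IsConj z s) (ht : ¬ IsConj z t) : ∃ h ∈ Subgroup.centralizer ({z} : Set G), h * s * h⁻¹ = t :=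
  core Cfsg.Agent.Lib.Helper92.short_rep h5593 z Q hM s t hsQ htQ hs2 ht2 hs ht

end Cfsg.Agent.S5411
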