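-- Statement S5407: in a group of Monster type, the conjugates of z in Q other than z are the lifts of the lattice vectors of squared length 64.
import Cfsg.Statements.S5407
import Cfsg.Agent.Lib.Helper92.MonsterNC

set_option autoImplicit false
open Cfsg
open Cfsg.Agent.Lib.Helper92

namespace Cfsg.Agent.S5407

/-- Let G be a finite group of Monster type at the involution z with Q the extraspecial normal subgroup of order 2^25 of C = C_G(z) (so C/Q is identified with the first Conway group with Q modulo its centre the Leech lattice modulo 2, and z is not weakly closed in Q). Then under any such identification ψ of the Leech lattice modulo 2 with Q modulo its centre, an element x of Q is a conjugate of z other than z exactly when x modulo the centre is the image under ψ of a lattice vector of squared length 64 in the coordinates used here, that is, of norm 8 in the customary normalisation in which the minimal vectors have norm 4 (twice the minimal norm). -/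
theorem result {G : Type*} [Group G] [Finite G] (z : G) (Q : Subgroup (Subgroup.centralizer ({z} : Set G))) [Q.Normal] (hM : Cfsg.IsOfMonsterType z Q) (e : (Subgroup.centralizer ({z} : Set G)) ⧸ Q ≃* Cfsg.Spor.Co1) (ψ : Cfsg.leechLattice → Q ⧸ Subgroup.center Q) (hψ : Cfsg.IsLeechModTwoIso Q e ψ) (x : Q) : (IsConj z ((x : Subgroup.centralizer ({z} : Set G)) : G) ∧ ((x : Subgroup.centralizer ({z} : Set G)) : G) ≠ z) ↔ ∃ v : Cfsg.leechLattice, Cfsg.sqNorm (v : Cfsg.GolayPt → ℤ) = 64 ∧ ψ v = QuotientGroup.mk x := by
  obtain ⟨hS, -⟩ := hM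
  obtain ⟨ζ, hMS⟩ := ms_of_setting z Q hS e ψ hψ
  constructor
  · rintro ⟨hc, hne⟩
    exact type4_of_conj hMS x hc hne
  · rintro ⟨v, hn, hv⟩
    obtain ⟨-, -, -, -, g0, ⟨hg0c, hg0Q⟩, hg0ne⟩ := hS
    have hc0 : IsConj z (g0 * z * g0⁻¹) := isConj_iff.mpr ⟨g0, rfl⟩
    obtain ⟨v0, hn0, hv0⟩ := type4_of_conj hMS ⟨⟨g0 * z * g0⁻¹, hg0c⟩, hg0Q⟩ hc0 hg0ne
    have hxc := hMS.noncentral v x hv (Or.inr hn)
    obtain ⟨h, hh⟩ := hMS.conj' _ x v0 v hv0 hv hxc (Or.inr ⟨hn0, hn⟩)
    constructor
    · have h1 : (h : G) * (g0 * z * g0⁻¹) * (h : G)⁻¹ =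
          ((x : Subgroup.centralizer ({z} : Set G)) : G) := congrArg Subtype.val hh
      exact hc0.trans (isConj_iff.mpr ⟨h, h1⟩)
    · intro hxz
      apply hxc
      rw [hMS.center_iff]
      right
      apply Subtype.ext
      apply Subtype.ext
      rw [hxz, hMS.ζz]

end Cfsg.Agent.S5407
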