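import Cfsg.Statements.S0498
import Cfsg.Agent.Lib.Helper23.PSL2Main
import Cfsg.Agent.Lib.Helper23.PSL2Cert11
import Cfsg.Agent.Lib.Helper23.PSL2Cert13

set_option autoImplicit false
open Cfsg

namespace Cfsg.Agent.S0498

/-- A simple group of order 660, respectively 1092, is isomorphic to the projective special linear group of dimension 2
over the field with 11, respectively 13, elements. -/
theorem result {G : Type*} [Group G] [Finite G] [IsSimpleGroup G] (p : ℕ)
    (hp : p = 11 ∨ p = 13) (h : 2 * Nat.card G = p * (p ^ 2 - 1)) {F : Type*} [Field F] [Fintype F]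
    (hF : Fintype.card F = p) : Nonempty (G ≃* Matrix.ProjectiveSpecialLinearGroup (Fin 2) F) := by
  rcases hp with rfl | rfl
  · have : Fact (Nat.Prime 11) := ⟨by norm_num⟩
    have hc : Nat.card G = 660 := by norm_num at h; omega
    have h1 : Nat.card G = 11 ^ 1 * 60 := hc.trans (by norm_num)
    have hm : ¬ 11 ∣ 60 := by norm_num
    have hmem := Cfsg.Agent.Lib.Helper23.card_sylow_mem_filter h1 hm
    have hne := Cfsg.Agent.Lib.Helper23.simple_sylow_card_ne_one h1 hm (by norm_num) (by norm_num)
    rw [show (Nat.divisors 60).filter (fun d => d % 11 = 1) = {1, 12} from by decide +kernel]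
      at hmem
    simp only [Finset.mem_insert, Finset.mem_singleton] at hmem
    have hn : Nat.card (Sylow 11 G) = 11 + 1 := by
      rcases hmem with h2 | h2
      · exact absurd h2 hne
      · exact h2
    exact Cfsg.Agent.Lib.Helper23.psl2_recog 5 4 2 Cfsg.Agent.Lib.Helper23.psl2_arith_11
      (hc.trans (by norm_num)) hn (Or.inl Cfsg.Agent.Lib.Helper23.psl2_cert_11) hF
  · have : Fact (Nat.Prime 13) := ⟨by norm_num⟩
    have hc : Nat.card G = 1092 := by norm_num at h; omega
    have h1 : Nat.card G = 13 ^ 1 * 84 := hc.trans (by norm_num)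
    have hm : ¬ 13 ∣ 84 := by norm_num
    have hmem := Cfsg.Agent.Lib.Helper23.card_sylow_mem_filter h1 hm
    have hne := Cfsg.Agent.Lib.Helper23.simple_sylow_card_ne_one h1 hm (by norm_num) (by norm_num)
    rw [show (Nat.divisors 84).filter (fun d => d % 13 = 1) = {1, 14} from by decide +kernel]
      at hmem
    simp only [Finset.mem_insert, Finset.mem_singleton] at hmem
    have hn : Nat.card (Sylow 13 G) = 13 + 1 := by
      rcases hmem with h2 | h2
      · exact absurd h2 hne
      · exact h2
    exact Cfsg.Agent.Lib.Helper23.psl2_recog 6 4 2 Cfsg.Agent.Lib.Helper23.psl2_arith_13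
      (hc.trans (by norm_num)) hn (Or.inl Cfsg.Agent.Lib.Helper23.psl2_cert_13) hF

end Cfsg.Agent.S0498
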