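import Cfsg.Statements.S1600
import Cfsg.Agent.S0368
import Cfsg.Agent.S0384
import Cfsg.Agent.Lib.Helper10.Jordan
import Cfsg.Agent.Lib.Helper96.M24Cert2

set_option autoImplicit false
open scoped Pointwise
open Cfsg

namespace Cfsg.Agent.S1600

open Cfsg.Agent.Lib.Helper9 Cfsg.Agent.Lib.Helper96
open scoped Pointwise

/-- mask of the base dodecad (base points `pt 0`, `pt 2`, `pt 3` on it, `pt 1` off it) -/
def D0 : ℕ := 28637

/-- elements of the stabiliser of the base dodecad moving its points to `pt 0` -/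
def pc1 : List (ℕ × List ℕ) :=
  [(0, [0,1,2,3,4,5,6,7,8,9,10,11,12,13,14,15,16,17,18,19,20,21,22,23]),
  (2, [2,22,0,10,14,18,13,4,8,7,9,6,17,11,3,5,21,19,15,1,12,16,20,23]),
  (3, [8,21,4,0,7,5,9,6,13,3,10,2,17,14,11,1,19,18,22,12,15,16,23,20]),
  (4, [14,21,9,4,0,23,10,6,8,7,11,3,19,2,13,5,1,22,15,17,20,18,16,12]),
  (6, [6,16,14,8,4,19,0,7,13,3,11,9,5,2,10,22,23,1,15,20,12,18,17,21]),
  (7, [4,5,11,9,7,19,14,0,6,10,3,13,17,2,8,20,15,23,21,1,16,22,18,12]),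
  (8, [8,22,2,6,7,20,4,14,0,3,9,10,21,13,11,17,15,12,1,23,19,18,16,5]),
  (9, [2,1,6,8,7,19,14,11,3,0,10,4,15,9,13,17,12,22,23,21,16,5,20,18]),
  (10, [6,22,2,9,3,18,8,11,4,14,0,7,1,13,10,19,23,15,17,20,16,12,21,5]),
  (11, [2,20,3,7,4,16,14,6,13,9,11,0,21,8,10,5,12,15,1,17,23,22,19,18]),
  (13, [11,21,4,8,7,17,2,9,6,14,13,10,15,0,3,1,23,19,18,22,20,5,12,16]),
  (14, [9,17,14,13,6,5,3,7,8,11,4,2,20,10,0,15,18,19,23,22,16,1,21,12])]

/-- elements fixing the base dodecad and `pt 0`, moving its other points to `pt 2` -/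
def pc2 : List (ℕ × List ℕ) :=
  [(2, [0,1,2,3,4,5,6,7,8,9,10,11,12,13,14,15,16,17,18,19,20,21,22,23]),
  (3, [0,20,4,2,8,5,13,14,7,11,6,9,1,10,3,17,23,15,21,18,16,19,12,22]),
  (4, [0,18,13,6,2,12,4,14,10,7,9,11,23,3,8,5,21,17,16,19,15,22,1,20]),
  (6, [0,17,6,11,13,22,2,9,3,14,10,7,15,8,4,23,18,16,1,21,19,5,12,20]),
  (7, [0,23,7,11,13,21,9,2,10,8,3,6,15,14,4,17,1,16,18,22,19,5,20,12]),
  (8, [0,15,7,8,3,17,13,9,2,6,10,14,22,4,11,12,21,16,1,20,23,5,19,18]),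
  (9, [0,22,13,14,9,19,8,7,6,2,11,3,16,10,4,17,1,20,15,21,5,23,12,18]),
  (10, [0,12,9,4,13,17,7,11,3,14,2,8,20,10,6,16,22,23,5,19,21,15,18,1]),
  (11, [0,12,3,10,11,18,4,9,6,7,14,2,23,13,8,5,17,21,20,22,15,19,1,16]),
  (13, [0,20,14,13,10,23,11,8,4,6,9,3,21,2,7,22,18,1,17,19,15,16,5,12]),
  (14, [0,15,8,7,9,21,14,3,11,6,10,13,22,4,2,16,17,12,1,18,5,23,19,20])]

/-- elements fixing the base dodecad, `pt 0` and `pt 2`, moving its other points to `pt 3` -/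
def pc3 : List (ℕ × List ℕ) :=
  [(3, [0,1,2,3,4,5,6,7,8,9,10,11,12,13,14,15,16,17,18,19,20,21,22,23]),
  (4, [0,15,2,7,3,17,6,11,14,9,13,4,23,8,10,22,1,5,12,18,21,20,16,19]),
  (6, [0,21,2,4,14,12,3,7,10,9,13,8,5,11,6,19,20,18,1,16,15,17,23,22]),
  (7, [0,16,2,10,13,17,8,3,11,14,9,7,5,4,6,12,22,18,20,15,21,19,23,1]),
  (8, [0,22,2,7,11,5,6,8,3,13,4,10,19,14,9,16,21,12,18,17,1,15,20,23]),
  (9, [0,18,2,14,13,20,4,6,8,3,9,11,23,7,10,17,19,5,1,21,15,22,16,12]),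
  (10, [0,17,2,4,13,16,9,6,7,14,3,10,19,11,8,23,18,12,15,20,1,21,22,5]),
  (11, [0,20,2,10,13,23,11,6,4,8,7,3,22,14,9,21,16,1,5,19,12,18,17,15]),
  (13, [0,15,2,8,4,17,9,13,7,11,10,14,18,3,6,12,20,23,1,21,16,19,5,22]),
  (14, [0,17,2,7,11,16,8,14,10,9,6,13,12,4,3,5,15,22,23,19,20,18,1,21])]

/-- elements fixing the base dodecad, `pt 0`, `pt 2` and `pt 3`, moving the points off the dodecad
to `pt 1` -/
def pc4 : List (ℕ × List ℕ) :=
  [(1, [0,1,2,3,4,5,6,7,8,9,10,11,12,13,14,15,16,17,18,19,20,21,22,23]),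
  (5, [0,5,2,3,13,1,7,10,4,6,9,8,16,11,14,20,22,23,12,15,21,19,18,17]),
  (12, [0,22,2,3,6,16,13,9,10,14,11,8,1,4,7,23,18,17,5,19,20,15,12,21]),
  (15, [0,23,2,3,8,19,7,9,14,13,4,11,21,6,10,1,17,18,20,5,16,12,15,22]),
  (16, [0,16,2,3,11,12,13,14,8,10,4,9,18,7,6,19,1,23,22,15,21,17,5,20]),
  (17, [0,17,2,3,10,23,4,8,9,13,11,6,20,7,14,18,15,1,21,12,22,16,19,5]),
  (18, [0,16,2,3,9,12,4,10,7,14,13,11,5,8,6,17,22,23,1,21,15,19,18,20]),
  (19, [0,17,2,3,11,21,6,10,14,4,8,13,20,9,7,5,23,22,15,1,12,18,19,16]),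
  (20, [0,17,2,3,13,21,8,4,9,10,6,11,19,14,7,18,15,22,23,12,1,5,20,16]),
  (21, [0,15,2,3,6,20,7,14,9,11,10,13,21,8,4,12,17,5,19,18,16,1,23,22]),
  (22, [0,22,2,3,13,18,6,8,7,11,14,9,12,4,10,21,16,19,5,17,20,15,1,23]),
  (23, [0,21,2,3,4,20,14,9,7,10,8,6,23,11,13,22,17,18,19,16,5,12,15,1])]

theorem pc1_ok : pc1.all (ptEntryOK [] [D0] 0) = true := by decide +kernel
theorem pcov1 : ptCoverOK (fun j => D0.testBit j) pc1 = true := by decide +kernel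
theorem pc2_ok : pc2.all (ptEntryOK [0] [D0] 2) = true := by decide +kernel
theorem pcov2 : ptCoverOK (fun j => D0.testBit j && !(j == 0)) pc2 = true := by decide +kernel
theorem pc3_ok : pc3.all (ptEntryOK [0, 2] [D0] 3) = true := by decide +kernel
theorem pcov3 : ptCoverOK (fun j => D0.testBit j && !(j == 0) && !(j == 2)) pc3 = true := by
  decide +kernel
theorem pc4_ok : pc4.all (ptEntryOK [0, 2, 3] [D0] 1) = true := by decide +kernel
theorem pcov4 : ptCoverOK (fun j => !D0.testBit j) pc4 = true := by decide +kernel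

theorem D0_ok : inCode D0 = true ∧ popc D0 = 12 := by decide +kernel

theorem D0_mem : msk D0 ∈ Cfsg.dodecads := msk_mem_dodecads (mem_sums_of_inCode D0_ok.1) D0_ok.2

theorem idx_ne_of_ne {x : Cfsg.GolayPt} {i : ℕ} (h : x ≠ pt i) : idx x ≠ i := by
  intro hi
  apply h
  rw [← hi, pt_idx]

theorem frame (d : Finset Cfsg.GolayPt) (hd : d ∈ Cfsg.dodecads) (p q r : Cfsg.GolayPt)
    (hp : p ∈ d) (hq : q ∈ d) (hr : r ∈ d) (hpq : p ≠ q) (hpr : p ≠ r) (hqr : q ≠ r) :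
    ∃ h ∈ Cfsg.M24, h • d = msk D0 ∧ h p = pt 0 ∧ h q = pt 2 ∧ h r = pt 3 := by
  obtain ⟨g1, hg1⟩ := Cfsg.Agent.S0368.result d (msk D0) hd D0_mem
  have hg1' : (g1 : Equiv.Perm Cfsg.GolayPt) • d = msk D0 := hg1
  -- first point
  have hp1 : (g1 : Equiv.Perm Cfsg.GolayPt) p ∈ msk D0 := by
    rw [← hg1', apply_mem_smul_iff]; exact hp
  rw [mem_msk] at hp1
  obtain ⟨τ1, hτ1, hτ1p⟩ := ptCert_sound pc1_ok pcov1 _ hp1
  rw [mem_stabFM] at hτ1
  have hA1 : τ1 • msk D0 = msk D0 := hτ1.2.2 D0 (by simp)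
  let k1 : Equiv.Perm Cfsg.GolayPt := τ1 * g1
  have hk1 : k1 ∈ Cfsg.M24 := Cfsg.M24.mul_mem hτ1.1 g1.2
  have hk1d : k1 • d = msk D0 := by rw [mul_smul, hg1', hA1]
  have hk1p : k1 p = pt 0 := by rw [Equiv.Perm.mul_apply, hτ1p]
  -- second point
  have hq1 : k1 q ∈ msk D0 := by rw [← hk1d, apply_mem_smul_iff]; exact hq
  have hq1ne : k1 q ≠ pt 0 := by rw [← hk1p]; exact fun h => hpq (k1.injective h).symm
  rw [mem_msk] at hq1
  obtain ⟨τ2, hτ2, hτ2q⟩ := ptCert_sound pc2_ok pcov2 (k1 q)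
    (by simp [hq1, idx_ne_of_ne hq1ne])
  rw [mem_stabFM] at hτ2
  let k2 : Equiv.Perm Cfsg.GolayPt := τ2 * k1
  have hk2 : k2 ∈ Cfsg.M24 := Cfsg.M24.mul_mem hτ2.1 hk1
  have hk2d : k2 • d = msk D0 := by rw [mul_smul, hk1d, hτ2.2.2 D0 (by simp)]
  have hk2p : k2 p = pt 0 := by
    rw [Equiv.Perm.mul_apply, hk1p]; exact hτ2.2.1 0 (by simp)
  have hk2q : k2 q = pt 2 := by rw [Equiv.Perm.mul_apply, hτ2q]
  -- third point
  have hr1 : k2 r ∈ msk D0 := by rw [← hk2d, apply_mem_smul_iff]; exact hr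
  have hr1ne0 : k2 r ≠ pt 0 := by rw [← hk2p]; exact fun h => hpr (k2.injective h).symm
  have hr1ne2 : k2 r ≠ pt 2 := by rw [← hk2q]; exact fun h => hqr (k2.injective h).symm
  rw [mem_msk] at hr1
  obtain ⟨τ3, hτ3, hτ3r⟩ := ptCert_sound pc3_ok pcov3 (k2 r)
    (by simp [hr1, idx_ne_of_ne hr1ne0, idx_ne_of_ne hr1ne2])
  rw [mem_stabFM] at hτ3
  refine ⟨τ3 * k2, Cfsg.M24.mul_mem hτ3.1 hk2, ?_, ?_, ?_, ?_⟩
  · rw [mul_smul, hk2d, hτ3.2.2 D0 (by simp)]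
  · rw [Equiv.Perm.mul_apply, hk2p]; exact hτ3.2.1 0 (by simp)
  · rw [Equiv.Perm.mul_apply, hk2q]; exact hτ3.2.1 2 (by simp)
  · rw [Equiv.Perm.mul_apply, hτ3r]

/-- transitivity on the complement in the base frame -/
theorem base_trans (x y : Cfsg.GolayPt) (hx : x ∉ msk D0) (hy : y ∉ msk D0) :
    ∃ g ∈ Cfsg.M24, g • msk D0 = msk D0 ∧ g (pt 0) = pt 0 ∧ g (pt 2) = pt 2 ∧ g (pt 3) = pt 3 ∧
      g x = y := by
  rw [mem_msk] at hx hy
  obtain ⟨τx, hτx, hτxp⟩ := ptCert_sound pc4_ok pcov4 x (by simpa using hx)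
  obtain ⟨τy, hτy, hτyp⟩ := ptCert_sound pc4_ok pcov4 y (by simpa using hy)
  have hg := (stabFM [0, 2, 3] [D0]).mul_mem ((stabFM [0, 2, 3] [D0]).inv_mem hτy) hτx
  rw [mem_stabFM] at hg
  refine ⟨τy⁻¹ * τx, hg.1, hg.2.2 D0 (by simp), hg.2.1 0 (by simp), hg.2.1 2 (by simp),
    hg.2.1 3 (by simp), ?_⟩
  rw [Equiv.Perm.mul_apply, hτxp, ← hτyp]
  simp

/-- The pointwise stabiliser of three points of a dodecad inside the dodecad stabiliser (order 72) is transitive on the complementary dodecad. -/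
theorem result (d : Finset Cfsg.GolayPt) (hd : d ∈ Cfsg.dodecads) (p q r : Cfsg.GolayPt) (hp : p ∈ d) (hq : q ∈ d) (hr : r ∈ d) (hpq : p ≠ q) (hpr : p ≠ r) (hqr : q ≠ r) : Nat.card ↥(MulAction.stabilizer Cfsg.M24 d ⊓ MulAction.stabilizer Cfsg.M24 p ⊓ MulAction.stabilizer Cfsg.M24 q ⊓ MulAction.stabilizer Cfsg.M24 r) = 72 ∧ ∀ x ∉ d, ∀ y ∉ d, ∃ g ∈ (MulAction.stabilizer Cfsg.M24 d ⊓ MulAction.stabilizer Cfsg.M24 p ⊓ MulAction.stabilizer Cfsg.M24 q ⊓ MulAction.stabilizer Cfsg.M24 r), ((g : ↥Cfsg.M24) : Equiv.Perm Cfsg.GolayPt) x = y := by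
  classical
  have memK : ∀ g : ↥Cfsg.M24, g ∈ (MulAction.stabilizer Cfsg.M24 d ⊓ MulAction.stabilizer Cfsg.M24 p ⊓
      MulAction.stabilizer Cfsg.M24 q ⊓ MulAction.stabilizer Cfsg.M24 r) ↔
      (g : Equiv.Perm Cfsg.GolayPt) • d = d ∧ (g : Equiv.Perm Cfsg.GolayPt) p = p ∧
        (g : Equiv.Perm Cfsg.GolayPt) q = q ∧ (g : Equiv.Perm Cfsg.GolayPt) r = r := by
    intro g
    simp only [Subgroup.mem_inf, MulAction.mem_stabilizer_iff, and_assoc]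
    rfl
  refine ⟨?_, ?_⟩
  · -- the order, by sharp 5-transitivity
    set K := (MulAction.stabilizer Cfsg.M24 d ⊓ MulAction.stabilizer Cfsg.M24 p ⊓
      MulAction.stabilizer Cfsg.M24 q ⊓ MulAction.stabilizer Cfsg.M24 r) with hK
    set d' : Finset Cfsg.GolayPt := ((d.erase p).erase q).erase r with hd'
    have hdc : d.card = 12 := hd.2
    have hd'c : d'.card = 9 := by
      rw [hd', Finset.card_erase_of_mem, Finset.card_erase_of_mem, Finset.card_erase_of_mem hp, hdc]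
      · exact Finset.mem_erase.mpr ⟨hpq.symm, hq⟩
      · exact Finset.mem_erase.mpr ⟨hqr.symm, Finset.mem_erase.mpr ⟨hpr.symm, hr⟩⟩
    have memd' : ∀ z, z ∈ d' ↔ z ≠ r ∧ z ≠ q ∧ z ≠ p ∧ z ∈ d := by
      intro z; simp only [hd', Finset.mem_erase]
    obtain ⟨a, ha, b, hb, hab⟩ := Finset.one_lt_card.mp (by rw [hd'c]; norm_num : 1 < d'.card)
    obtain ⟨har, haq, hap, had⟩ := (memd' a).mp ha
    obtain ⟨hbr, hbq, hbp, hbd⟩ := (memd' b).mp hb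
    have hx : [p, q, r, a, b].Nodup := by
      simp only [List.nodup_cons, List.mem_cons, List.not_mem_nil, or_false, not_or,
        List.nodup_nil, and_true, not_false_eq_true]
      exact ⟨⟨hpq, hpr, hap.symm, hbp.symm⟩, ⟨hqr, haq.symm, hbq.symm⟩, ⟨har.symm, hbr.symm⟩, hab⟩
    -- images of points of d' under elements of K
    have img : ∀ g : ↥Cfsg.M24, g ∈ K → ∀ z ∈ d', (g : Equiv.Perm Cfsg.GolayPt) z ∈ d' := by
      intro g hg z hz
      obtain ⟨hgd, hgp, hgq, hgr⟩ := (memK g).mp hg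
      obtain ⟨hzr, hzq, hzp, hzd⟩ := (memd' z).mp hz
      refine (memd' _).mpr ⟨?_, ?_, ?_, ?_⟩
      · rw [← hgr]; exact fun h => hzr ((g : Equiv.Perm Cfsg.GolayPt).injective h)
      · rw [← hgq]; exact fun h => hzq ((g : Equiv.Perm Cfsg.GolayPt).injective h)
      · rw [← hgp]; exact fun h => hzp ((g : Equiv.Perm Cfsg.GolayPt).injective h)
      · rw [← hgd, apply_mem_smul_iff]; exact hzd
    let Φ : ↥K → ↥(d'.offDiag) := fun g =>
      ⟨(((g : ↥Cfsg.M24) : Equiv.Perm Cfsg.GolayPt) a, ((g : ↥Cfsg.M24) : Equiv.Perm Cfsg.GolayPt) b),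
        Finset.mem_offDiag.mpr ⟨img g.1 g.2 a ha, img g.1 g.2 b hb,
          fun h => hab (((g : ↥Cfsg.M24) : Equiv.Perm Cfsg.GolayPt).injective h)⟩⟩
    have hΦ : Function.Bijective Φ := by
      constructor
      · intro g g' hgg
        have h1 : ((g : ↥Cfsg.M24) : Equiv.Perm Cfsg.GolayPt) a =
            ((g' : ↥Cfsg.M24) : Equiv.Perm Cfsg.GolayPt) a := congrArg (fun z => z.1.1) hgg
        have h2 : ((g : ↥Cfsg.M24) : Equiv.Perm Cfsg.GolayPt) b =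
            ((g' : ↥Cfsg.M24) : Equiv.Perm Cfsg.GolayPt) b := congrArg (fun z => z.1.2) hgg
        obtain ⟨hgd, hgp, hgq, hgr⟩ := (memK g.1).mp g.2
        obtain ⟨hgd', hgp', hgq', hgr'⟩ := (memK g'.1).mp g'.2
        have hy : [p, q, r, ((g : ↥Cfsg.M24) : Equiv.Perm Cfsg.GolayPt) a,
            ((g : ↥Cfsg.M24) : Equiv.Perm Cfsg.GolayPt) b].Nodup := by
          have e : [p, q, r, ((g : ↥Cfsg.M24) : Equiv.Perm Cfsg.GolayPt) a,
              ((g : ↥Cfsg.M24) : Equiv.Perm Cfsg.GolayPt) b] =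
              [p, q, r, a, b].map ((g : ↥Cfsg.M24) : Equiv.Perm Cfsg.GolayPt) := by
            simp [hgp, hgq, hgr]
          rw [e]
          exact hx.map ((g : ↥Cfsg.M24) : Equiv.Perm Cfsg.GolayPt).injective
        have hEU := Cfsg.Agent.S0384.result d hd (Cfsg.Agent.Lib.Helper10.emb5 p q r a b hx)
          (Cfsg.Agent.Lib.Helper10.emb5 p q r _ _ hy)
          (by intro i; fin_cases i <;> simp [Cfsg.Agent.Lib.Helper10.emb5, hp, hq, hr, had, hbd])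
          (by
            intro i
            have ha' := ((memd' _).mp (img g.1 g.2 a ha)).2.2.2
            have hb' := ((memd' _).mp (img g.1 g.2 b hb)).2.2.2
            fin_cases i <;> simp [Cfsg.Agent.Lib.Helper10.emb5, hp, hq, hr, ha', hb'])
        have e1 : (⟨g.1, hgd⟩ : MulAction.stabilizer Cfsg.M24 d) = ⟨g'.1, hgd'⟩ := by
          apply hEU.unique
          · intro i; fin_cases i <;> simp [Cfsg.Agent.Lib.Helper10.emb5, hgp, hgq, hgr]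
          · intro i; fin_cases i <;> simp [Cfsg.Agent.Lib.Helper10.emb5, hgp', hgq', hgr', h1, h2]
        apply Subtype.ext
        exact Subtype.mk.inj e1
      · rintro ⟨⟨s, t⟩, hst⟩
        obtain ⟨hs, ht, hne⟩ := Finset.mem_offDiag.mp hst
        obtain ⟨hsr, hsq, hsp, hsd⟩ := (memd' s).mp hs
        obtain ⟨htr, htq, htp, htd⟩ := (memd' t).mp ht
        have hy : [p, q, r, s, t].Nodup := by
          simp only [List.nodup_cons, List.mem_cons, List.not_mem_nil, or_false, not_or,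
            List.nodup_nil, and_true, not_false_eq_true]
          exact ⟨⟨hpq, hpr, hsp.symm, htp.symm⟩, ⟨hqr, hsq.symm, htq.symm⟩, ⟨hsr.symm, htr.symm⟩, hne⟩
        obtain ⟨g, hg, -⟩ := Cfsg.Agent.S0384.result d hd (Cfsg.Agent.Lib.Helper10.emb5 p q r a b hx)
          (Cfsg.Agent.Lib.Helper10.emb5 p q r s t hy)
          (by intro i; fin_cases i <;> simp [Cfsg.Agent.Lib.Helper10.emb5, hp, hq, hr, had, hbd])
          (by intro i; fin_cases i <;> simp [Cfsg.Agent.Lib.Helper10.emb5, hp, hq, hr, hsd, htd])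
        have g0 := hg 0
        have g1 := hg 1
        have g2 := hg 2
        have g3 := hg 3
        have g4 := hg 4
        simp only [Cfsg.Agent.Lib.Helper10.emb5] at g0 g1 g2 g3 g4
        have hgK : g.1 ∈ K := (memK g.1).mpr ⟨g.2, g0, g1, g2⟩
        refine ⟨⟨g.1, hgK⟩, ?_⟩
        apply Subtype.ext
        exact Prod.ext g3 g4
    rw [Nat.card_congr (Equiv.ofBijective Φ hΦ), Nat.card_eq_fintype_card, Fintype.card_coe,
      Finset.offDiag_card, hd'c]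
  · intro x hx y hy
    obtain ⟨h, hh, hhd, hhp, hhq, hhr⟩ := frame d hd p q r hp hq hr hpq hpr hqr
    obtain ⟨g0, hg0, hg0d, hg0p, hg0q, hg0r, hg0x⟩ := base_trans (h x) (h y)
      (by rw [← hhd, apply_mem_smul_iff]; exact hx) (by rw [← hhd, apply_mem_smul_iff]; exact hy)
    have hgM : h⁻¹ * g0 * h ∈ Cfsg.M24 :=
      Cfsg.M24.mul_mem (Cfsg.M24.mul_mem (Cfsg.M24.inv_mem hh) hg0) hh
    refine ⟨⟨h⁻¹ * g0 * h, hgM⟩, (memK _).mpr ⟨?_, ?_, ?_, ?_⟩, ?_⟩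
    · show (h⁻¹ * g0 * h) • d = d
      rw [mul_smul, mul_smul, hhd, hg0d, ← hhd, inv_smul_smul]
    · show (h⁻¹ * g0 * h) p = p
      rw [Equiv.Perm.mul_apply, Equiv.Perm.mul_apply, hhp, hg0p, ← hhp]; simp
    · show (h⁻¹ * g0 * h) q = q
      rw [Equiv.Perm.mul_apply, Equiv.Perm.mul_apply, hhq, hg0q, ← hhq]; simp
    · show (h⁻¹ * g0 * h) r = r
      rw [Equiv.Perm.mul_apply, Equiv.Perm.mul_apply, hhr, hg0r, ← hhr]; simp
    · show (h⁻¹ * g0 * h) x = y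
      rw [Equiv.Perm.mul_apply, Equiv.Perm.mul_apply, hg0x]; simp

end Cfsg.Agent.S1600
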