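import Cfsg.Statements.S1601
import Cfsg.Agent.S1600
import Cfsg.Agent.S0498
import Cfsg.Agent.Lib.Helper10.M12
import Cfsg.Agent.Lib.Helper95.M12Gen
import Cfsg.Agent.Lib.Helper23.PrimeDeg

set_option autoImplicit false
open scoped Pointwise
open Cfsg

namespace Cfsg.Agent.S1601

/-- action of a group on an invariant set through a homomorphism to a symmetric group -/
@[reducible] def restrAct {G α : Type*} [Group G] (φ : G →* Equiv.Perm α) (T : Set α)
    (hT : ∀ g : G, ∀ x ∈ T, φ g x ∈ T) : MulAction G T where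
  smul g x := ⟨φ g x.1, hT g x.1 x.2⟩
  one_smul x := Subtype.ext (by show φ 1 x.1 = x.1; rw [map_one]; rfl)
  mul_smul g h x := Subtype.ext (by show φ (g * h) x.1 = φ g (φ h x.1); rw [map_mul]; rfl)

/-- If a normal cyclic subgroup is transitive in a faithful action, point stabilisers have
at most its order. -/
theorem card_stabilizer_le_of_normal_cyclic {G α : Type*} [Group G] [Finite G] [MulAction G α]
    [FaithfulSMul G α] (P : Subgroup G) [hn : P.Normal] [hcy : IsCyclic P]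
    [htr : MulAction.IsPretransitive P α] (x : α) :
    Nat.card (MulAction.stabilizer G x) ≤ Nat.card P := by
  obtain ⟨c, hc⟩ := IsCyclic.exists_generator (α := P)
  let f : MulAction.stabilizer G x → P := fun h =>
    ⟨(h : G) * c * (h : G)⁻¹, hn.conj_mem c c.2 h⟩
  apply Nat.card_le_card_of_injective f
  intro h1 h2 h12
  have e : (h1 : G) * c * (h1 : G)⁻¹ = (h2 : G) * c * (h2 : G)⁻¹ := congrArg Subtype.val h12
  have hkc : Commute ((h1 : G)⁻¹ * h2) (c : G) := by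
    show (h1 : G)⁻¹ * h2 * c = c * ((h1 : G)⁻¹ * h2)
    have e2 : (h2 : G) * c = (h1 : G) * c * (h1 : G)⁻¹ * h2 := by rw [e]; group
    rw [mul_assoc, e2]; group
  have hku : ∀ u : P, (h1 : G)⁻¹ * h2 * (u : G) = u * ((h1 : G)⁻¹ * h2) := by
    intro u
    obtain ⟨n, rfl⟩ := Subgroup.mem_zpowers_iff.mp (hc u)
    rw [Subgroup.coe_zpow]
    exact hkc.zpow_right n
  have hkx : ((h1 : G)⁻¹ * h2) • x = x := by
    rw [mul_smul]
    have e1 : (h2 : G) • x = x := h2.2
    have e2 : (h1 : G) • x = x := h1.2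
    rw [e1, inv_smul_eq_iff, e2]
  have hk1 : (h1 : G)⁻¹ * h2 = 1 := by
    apply FaithfulSMul.eq_of_smul_eq_smul (α := α)
    intro y
    obtain ⟨u, rfl⟩ := MulAction.exists_smul_eq P x y
    rw [one_smul]
    show ((h1 : G)⁻¹ * h2) • ((u : G) • x) = (u : G) • x
    rw [← mul_smul, hku u, mul_smul, hkx]
  apply Subtype.ext
  exact inv_mul_eq_one.mp hk1

open Cfsg.Agent.Lib.Helper9 Cfsg.Agent.Lib.Helper10 Cfsg.Agent.Lib.Helper95
  Cfsg.Agent.Lib.Helper23

/-- In the 3-transitive action of the smallest Mathieu group on the complementary dodecad, a point stabiliser is isomorphic to PSL(2, 11). -/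
theorem result (d : Finset Cfsg.GolayPt) (hd : d ∈ Cfsg.dodecads) (p q : Cfsg.GolayPt) (hp : p ∈ d) (hq : q ∉ d) : Nonempty (↥(MulAction.stabilizer Cfsg.M24 d ⊓ MulAction.stabilizer Cfsg.M24 p ⊓ MulAction.stabilizer Cfsg.M24 q) ≃* Matrix.ProjectiveSpecialLinearGroup (Fin 2) (ZMod 11)) := by
  classical
  set L := MulAction.stabilizer Cfsg.M24 d ⊓ MulAction.stabilizer Cfsg.M24 p ⊓
    MulAction.stabilizer Cfsg.M24 q with hL
  have memL : ∀ g : ↥Cfsg.M24, g ∈ L ↔ (g : Equiv.Perm Cfsg.GolayPt) • d = d ∧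
      (g : Equiv.Perm Cfsg.GolayPt) p = p ∧ (g : Equiv.Perm Cfsg.GolayPt) q = q := by
    intro g
    simp only [hL, Subgroup.mem_inf, MulAction.mem_stabilizer_iff, and_assoc]
    rfl
  have hdc : d.card = 12 := hd.2
  have third : ∀ x y : Cfsg.GolayPt, ∃ r ∈ d, r ≠ x ∧ r ≠ y := by
    intro x y
    have h1 : 0 < ((d.erase x).erase y).card := by
      have e1 := Finset.pred_card_le_card_erase (s := d.erase x) (a := y)
      have e2 := Finset.pred_card_le_card_erase (s := d) (a := x)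
      omega
    obtain ⟨r, hr⟩ := Finset.card_pos.mp h1
    rw [Finset.mem_erase, Finset.mem_erase] at hr
    exact ⟨r, hr.2.2, hr.2.1, hr.1⟩
  -- invariance of the complement
  have notmem : ∀ g : Equiv.Perm Cfsg.GolayPt, g • d = d → ∀ x, x ∉ d → g x ∉ d := by
    intro g hg x hx hgx
    apply hx
    rw [← hg] at hgx
    exact (Finset.smul_mem_smul_finset_iff g).mp hgx
  have mem' : ∀ g : Equiv.Perm Cfsg.GolayPt, g • d = d → ∀ x, x ∈ d → g x ∈ d := by
    intro g hg x hx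
    rw [← hg]
    exact Finset.smul_mem_smul_finset hx
  -- the order
  have hcard : Nat.card ↥L = 660 := by
    have hA := card_stabilizer_dodecad_point hd hp
    have h1 := card_eq_orbit_mul_stab' (G := Cfsg.M24)
      (MulAction.stabilizer Cfsg.M24 d ⊓ MulAction.stabilizer Cfsg.M24 p) q
    have horb : MulAction.orbit ↥(MulAction.stabilizer Cfsg.M24 d ⊓
        MulAction.stabilizer Cfsg.M24 p) q = ((dᶜ : Finset Cfsg.GolayPt) : Set Cfsg.GolayPt) := by
      ext x
      rw [Finset.mem_coe, Finset.mem_compl]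
      constructor
      · rintro ⟨g, rfl⟩
        have hg : ((g : ↥Cfsg.M24) : Equiv.Perm Cfsg.GolayPt) • d = d := g.2.1
        exact notmem _ hg q hq
      · intro hx
        obtain ⟨q', hq', hq'p, -⟩ := third p p
        obtain ⟨r', hr', hr'p, hr'q⟩ := third p q'
        obtain ⟨g, hg, hgx⟩ := (Cfsg.Agent.S1600.result d hd p q' r' hp hq' hr' hq'p.symm
          hr'p.symm hr'q.symm).2 q hq x hx
        exact ⟨⟨g, hg.1.1⟩, hgx⟩
    rw [horb, Set.ncard_coe_finset, Finset.card_compl, hdc, hA] at h1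
    have h24 : Fintype.card Cfsg.GolayPt = 24 := by
      rw [← Nat.card_eq_fintype_card]; exact card_golayPt
    rw [h24] at h1
    have h2 : Nat.card ↥L = Nat.card ↥(MulAction.stabilizer Cfsg.M24 d ⊓
        MulAction.stabilizer Cfsg.M24 p ⊓ MulAction.stabilizer Cfsg.M24 q) := rfl
    omega
  -- the action on the eleven other points of the dodecad
  let T : Set Cfsg.GolayPt := ((d.erase p : Finset Cfsg.GolayPt) : Set Cfsg.GolayPt)
  have memT : ∀ x, x ∈ T ↔ x ≠ p ∧ x ∈ d := fun x => by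
    show x ∈ ((d.erase p : Finset Cfsg.GolayPt) : Set Cfsg.GolayPt) ↔ _
    rw [Finset.mem_coe, Finset.mem_erase]
  let φ : ↥L →* Equiv.Perm Cfsg.GolayPt := (Subgroup.subtype Cfsg.M24).comp (Subgroup.subtype L)
  have hφ : ∀ g : ↥L, φ g = ((g : ↥Cfsg.M24) : Equiv.Perm Cfsg.GolayPt) := fun g => rfl
  have hT : ∀ g : ↥L, ∀ x ∈ T, φ g x ∈ T := by
    intro g x hx
    obtain ⟨hgd, hgp, hgq⟩ := (memL g.1).mp g.2
    rw [memT] at hx ⊢
    refine ⟨?_, mem' _ hgd x hx.2⟩
    intro h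
    apply hx.1
    apply (φ g).injective
    rw [h, hφ, hgp]
  let act : MulAction ↥L T := restrAct φ T hT
  have hact : ∀ (g : ↥L) (x : T), ((g • x : T) : Cfsg.GolayPt) =
      ((g : ↥Cfsg.M24) : Equiv.Perm Cfsg.GolayPt) x.1 := fun g x => rfl
  have hTc : Nat.card T = 11 := by
    rw [Nat.card_coe_set_eq]
    show ((d.erase p : Finset Cfsg.GolayPt) : Set Cfsg.GolayPt).ncard = 11
    rw [Set.ncard_coe_finset, Finset.card_erase_of_mem hp, hdc]
  have hfaith : FaithfulSMul ↥L T := by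
    refine ⟨fun {g h} hgh => ?_⟩
    obtain ⟨hgd, hgp, hgq⟩ := (memL g.1).mp g.2
    obtain ⟨hhd, hhp, hhq⟩ := (memL h.1).mp h.2
    have hc : Fintype.card (Fin 5) ≤ Fintype.card {z : Cfsg.GolayPt // z ∈ d} := by
      rw [Fintype.card_fin, Fintype.card_coe, hdc]
      norm_num
    obtain ⟨e⟩ := Function.Embedding.nonempty_of_card_le hc
    let x : Fin 5 ↪ Cfsg.GolayPt := e.trans (Function.Embedding.subtype _)
    have hx : ∀ i, x i ∈ d := fun i => (e i).2
    let y : Fin 5 ↪ Cfsg.GolayPt :=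
      x.trans (Equiv.toEmbedding ((g : ↥Cfsg.M24) : Equiv.Perm Cfsg.GolayPt))
    have hy : ∀ i, y i ∈ d := fun i => mem' _ hgd _ (hx i)
    have hu := sharp_five hd x y hx hy
    have eqd : ∀ z ∈ d, ((g : ↥Cfsg.M24) : Equiv.Perm Cfsg.GolayPt) z =
        ((h : ↥Cfsg.M24) : Equiv.Perm Cfsg.GolayPt) z := by
      intro z hz
      by_cases hzp : z = p
      · rw [hzp, hgp, hhp]
      · have := hgh ⟨z, (memT z).mpr ⟨hzp, hz⟩⟩
        exact congrArg Subtype.val this
    have h1 := hu.unique (y₁ := ⟨g.1, hgd⟩) (y₂ := ⟨h.1, hhd⟩) (fun i => rfl)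
      (fun i => (eqd _ (hx i)).symm)
    have h2 : (g : ↥Cfsg.M24) = h :=
      congrArg (fun k : ↥(MulAction.stabilizer Cfsg.M24 d) => (k : ↥Cfsg.M24)) h1
    exact Subtype.ext h2
  have htrans : MulAction.IsPretransitive ↥L T := by
    refine ⟨fun x y => ?_⟩
    obtain ⟨hxp, hxd⟩ := (memT x.1).mp x.2
    obtain ⟨hyp, hyd⟩ := (memT y.1).mp y.2
    obtain ⟨r₁, hr₁, hr₁p, hr₁x⟩ := third p x.1
    obtain ⟨r₂, hr₂, hr₂p, hr₂y⟩ := third p y.1
    obtain ⟨x₁, hx₁, hx₁d, hx₁p, hx₁x, -⟩ := exists_dodecad_three hd hp hxd hr₁ (Ne.symm hxp)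
      (Ne.symm hr₁p) (Ne.symm hr₁x)
    obtain ⟨x₂, hx₂, hx₂d, hx₂p, hx₂y, -⟩ := exists_dodecad_three hd hp hyd hr₂ (Ne.symm hyp)
      (Ne.symm hr₂p) (Ne.symm hr₂y)
    have hg1 : x₂ * x₁⁻¹ ∈ Cfsg.M24 := Cfsg.M24.mul_mem hx₂ (Cfsg.M24.inv_mem hx₁)
    have hg1d : (x₂ * x₁⁻¹) • d = d := by
      rw [mul_smul, inv_smul_eq_iff.mpr hx₁d.symm, hx₂d]
    have hg1p : (x₂ * x₁⁻¹) p = p := by
      rw [Equiv.Perm.mul_apply, Equiv.Perm.inv_eq_iff_eq.mpr hx₁p.symm, hx₂p]
    have hg1x : (x₂ * x₁⁻¹) x.1 = y.1 := by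
      rw [Equiv.Perm.mul_apply, Equiv.Perm.inv_eq_iff_eq.mpr hx₁x.symm, hx₂y]
    have hg1q : (x₂ * x₁⁻¹) q ∉ d := notmem _ hg1d q hq
    obtain ⟨h, hh, hhq⟩ := (Cfsg.Agent.S1600.result d hd p y.1 r₂ hp hyd hr₂ (Ne.symm hyp)
      (Ne.symm hr₂p) (Ne.symm hr₂y)).2 _ hg1q q hq
    have hhd : ((h : ↥Cfsg.M24) : Equiv.Perm Cfsg.GolayPt) • d = d := hh.1.1.1
    have hhp : ((h : ↥Cfsg.M24) : Equiv.Perm Cfsg.GolayPt) p = p := hh.1.1.2
    have hhy : ((h : ↥Cfsg.M24) : Equiv.Perm Cfsg.GolayPt) y.1 = y.1 := hh.1.2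
    have hgL : h * ⟨x₂ * x₁⁻¹, hg1⟩ ∈ L := by
      rw [memL]
      refine ⟨?_, ?_, ?_⟩
      · show (((h : ↥Cfsg.M24) : Equiv.Perm Cfsg.GolayPt) * (x₂ * x₁⁻¹)) • d = d
        rw [mul_smul, hg1d, hhd]
      · show (((h : ↥Cfsg.M24) : Equiv.Perm Cfsg.GolayPt) * (x₂ * x₁⁻¹)) p = p
        rw [Equiv.Perm.mul_apply, hg1p, hhp]
      · show (((h : ↥Cfsg.M24) : Equiv.Perm Cfsg.GolayPt) * (x₂ * x₁⁻¹)) q = q
        rw [Equiv.Perm.mul_apply, hhq]
    refine ⟨⟨_, hgL⟩, ?_⟩
    apply Subtype.ext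
    show (((h : ↥Cfsg.M24) : Equiv.Perm Cfsg.GolayPt) * (x₂ * x₁⁻¹)) x.1 = y.1
    rw [Equiv.Perm.mul_apply, hg1x, hhy]
  -- Sylow 11-subgroups
  have : Fact (Nat.Prime 11) := ⟨by norm_num⟩
  have hcard' : Nat.card ↥L = 11 ^ 1 * 60 := hcard.trans (by norm_num)
  have hm : ¬ 11 ∣ 60 := by norm_num
  have hmem := card_sylow_mem_filter hcard' hm
  rw [show (Nat.divisors 60).filter (fun d => d % 11 = 1) = {1, 12} from by decide +kernel]
    at hmem
  simp only [Finset.mem_insert, Finset.mem_singleton] at hmem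
  obtain ⟨P⟩ : Nonempty (Sylow 11 ↥L) := inferInstance
  have hPc : Nat.card (P : Subgroup ↥L) = 11 := by
    have := sylow_card_of_eq hcard' hm P
    simpa using this
  have hn : Nat.card (Sylow 11 ↥L) = 12 := by
    rcases hmem with h1 | h1
    · exfalso
      have : Subsingleton (Sylow 11 ↥L) := (Nat.card_eq_one_iff_unique.mp h1).1
      have hPn : (P : Subgroup ↥L).Normal := Sylow.normal_of_subsingleton P
      have hcyc : IsCyclic (P : Subgroup ↥L) := isCyclic_of_prime_card hPc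
      have hPne : (P : Subgroup ↥L) ≠ ⊥ := by
        intro hb
        rw [hb, Subgroup.card_bot] at hPc
        omega
      have htr : MulAction.IsPretransitive (P : Subgroup ↥L) T :=
        normal_pretransitive_of_prime_card (by rw [hTc]; norm_num) (P : Subgroup ↥L) hPne
      obtain ⟨x0⟩ : Nonempty T := by
        have : Nat.card T ≠ 0 := by rw [hTc]; norm_num
        exact (Nat.card_ne_zero.mp this).1
      have hle := card_stabilizer_le_of_normal_cyclic (P : Subgroup ↥L) x0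
      have hst := Subgroup.card_mul_index (MulAction.stabilizer ↥L x0)
      rw [MulAction.index_stabilizer_of_transitive ↥L x0, hTc, hcard] at hst
      rw [hPc] at hle
      omega
    · exact h1
  have hrel := relIndex_sylow_normalizer_mul hcard' hm P
  rw [hn] at hrel
  have hrel5 : (P : Subgroup ↥L).relIndex (Subgroup.normalizer ((P : Subgroup ↥L) : Set ↥L)) = 5 := by
    omega
  have hsimple : IsSimpleGroup ↥L :=
    simple_of_prime_degree (α := T) hTc P (by rw [hn]; norm_num) (by rw [hrel5]; exact Nat.prime_five)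
  exact Cfsg.Agent.S0498.result (G := ↥L) 11 (Or.inl rfl) (by rw [hcard]; norm_num) (F := ZMod 11)
    (ZMod.card 11)

end Cfsg.Agent.S1601
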