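import Cfsg.Statements.S1602
import Cfsg.Agent.Lib.Helper95.M12Gen
import Cfsg.Agent.Lib.Helper95.ResPerm

set_option autoImplicit false
open scoped Pointwise
open Cfsg

namespace Cfsg.Agent.S1602

open Cfsg.Agent.Lib.Helper9 Cfsg.Agent.Lib.Helper95

/-- The stabiliser of the dodecad of squares, of the point `0` and of the pair `{5, 7}`. -/
abbrev K0 : Subgroup (Equiv.Perm GolayPt) := M24 ⊓ setStab [340831, 1, 160]

/-- The stabiliser of the dodecad of squares and of the point `0`. -/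
abbrev H1 : Subgroup (Equiv.Perm GolayPt) := M24 ⊓ setStab [340831, 1]

/-- Strong generators of `H1` for the base `5, 7`. -/
def m11Gens : List (List ℕ) :=
  [[0, 4, 18, 13, 2, 22, 1, 10, 9, 6, 15, 7, 8, 3, 19, 17, 16, 20, 12, 21, 5, 23, 11, 14],
   [0, 12, 16, 13, 4, 5, 18, 14, 1, 2, 10, 7, 6, 9, 20, 11, 3, 21, 8, 17, 15, 23, 19, 22],
   [0, 9, 8, 2, 13, 5, 3, 7, 18, 4, 17, 21, 1, 12, 11, 20, 16, 14, 6, 22, 19, 10, 23, 15],
   [0, 1, 6, 8, 12, 5, 3, 7, 18, 13, 22, 10, 16, 4, 19, 21, 9, 11, 2, 15, 14, 20, 23, 17],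
   [0, 1, 2, 8, 13, 5, 18, 7, 3, 12, 17, 11, 9, 4, 21, 19, 16, 10, 6, 15, 20, 14, 23, 22]]

theorem m11Gens_ok : m11Gens.all (memOK [340831, 1]) = true := by decide +kernel

theorem good_m11 : Good H1 (m11Gens.map tperm) m11Gens := good_of_memOK m11Gens m11Gens_ok

theorem m11_reach0 : Reach (H1 ⊓ fixing []) (pt 5) 16436384 := by
  have := level_reach good_m11 [] [0, 1, 2, 3, 4] (b := 5) (by norm_num) (by decide +kernel) 12
  have e : orbIter (([0, 1, 2, 3, 4] : List ℕ).map (fun i => m11Gens.getD i idT)) 12 (2 ^ 5)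
      = 16436384 := by decide +kernel
  rwa [e] at this

theorem m11_reach1 : Reach (H1 ⊓ fixing [5]) (pt 7) 16436352 := by
  have := level_reach good_m11 [5] [1, 2, 3, 4] (b := 7) (by norm_num) (by decide +kernel) 12
  have e : orbIter (([1, 2, 3, 4] : List ℕ).map (fun i => m11Gens.getD i idT)) 12 (2 ^ 7)
      = 16436352 := by decide +kernel
  rwa [e] at this

theorem m11_tchain : TChain H1 (support₂ (dec 16436384)) [] [5, 7] :=
  tchain_cons m11_reach0 (by decide +kernel) (tchain_cons m11_reach1 (by decide +kernel) trivial)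

theorem h1_smul_D0 {τ : Equiv.Perm GolayPt} (hτ : τ ∈ H1) :
    τ • support₂ (dec 340831) = support₂ (dec 340831) := hτ.2 _ List.mem_cons_self

theorem compl_D0 : support₂ (dec 16436384) = Finset.univ \ support₂ (dec 340831) := by
  rw [compl_support₂_dec]
  rfl

theorem h1_smul_compl : ∀ τ ∈ H1, τ • support₂ (dec 16436384) = support₂ (dec 16436384) := by
  intro τ hτ
  rw [compl_D0, Finset.smul_finset_sdiff, Finset.smul_finset_univ, h1_smul_D0 hτ]

theorem support_one : support₂ (dec 1) = ({pt 0} : Finset GolayPt) :=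
  support₂_dec_pow (i := 0) (by norm_num)

theorem testBit_pair : ∀ i < 24, (Nat.testBit 160 i = true ↔ (i = 5 ∨ i = 7)) := by decide

theorem support_pair : support₂ (dec 160) = ({pt 5, pt 7} : Finset GolayPt) := by
  ext p
  rw [mem_support₂_dec, Finset.mem_insert, Finset.mem_singleton, testBit_pair _ (idx_lt p)]
  constructor
  · rintro (h | h)
    · left
      rw [← h, pt_idx]
    · right
      rw [← h, pt_idx]
  · rintro (h | h)
    · left
      rw [h, idx_pt (by norm_num)]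
    · right
      rw [h, idx_pt (by norm_num)]

theorem h1_fix0 {τ : Equiv.Perm GolayPt} (hτ : τ ∈ H1) : τ (pt 0) = pt 0 := by
  have h1 := hτ.2 1 (by simp)
  rw [support_one, Finset.smul_finset_singleton, Finset.singleton_inj] at h1
  exact h1

/-- Strong generators of `K0` for the base `2, 3, 6, 8`. -/
def kGens : List (List ℕ) :=
  [[0, 4, 8, 6, 13, 7, 18, 5, 2, 16, 22, 23, 9, 12, 10, 14, 1, 17, 3, 20, 15, 11, 19, 21],
   [0, 13, 2, 18, 12, 5, 3, 7, 8, 1, 19, 21, 16, 9, 22, 10, 4, 17, 6, 15, 14, 23, 20, 11],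
   [0, 12, 2, 3, 1, 5, 8, 7, 18, 13, 10, 22, 4, 16, 11, 17, 9, 19, 6, 15, 23, 20, 14, 21],
   [0, 9, 2, 3, 13, 7, 6, 5, 18, 1, 10, 22, 16, 4, 14, 15, 12, 19, 8, 17, 23, 21, 11, 20]]

theorem kGens_ok : kGens.all (memOK [340831, 1, 160]) = true := by decide +kernel

theorem good_k : Good K0 (kGens.map tperm) kGens := good_of_memOK kGens kGens_ok

theorem k_reach0 : Reach (K0 ⊓ fixing []) (pt 2) 262476 := by
  have := level_reach good_k [] [0, 1, 2, 3] (b := 2) (by norm_num) (by decide +kernel) 8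
  have e : orbIter (([0, 1, 2, 3] : List ℕ).map (fun i => kGens.getD i idT)) 8 (2 ^ 2)
      = 262476 := by decide +kernel
  rwa [e] at this

theorem k_reach1 : Reach (K0 ⊓ fixing [2]) (pt 3) 262472 := by
  have := level_reach good_k [2] [1, 2, 3] (b := 3) (by norm_num) (by decide +kernel) 8
  have e : orbIter (([1, 2, 3] : List ℕ).map (fun i => kGens.getD i idT)) 8 (2 ^ 3)
      = 262472 := by decide +kernel
  rwa [e] at this

theorem k_reach2 : Reach (K0 ⊓ fixing [3, 2]) (pt 6) 262464 := by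
  have := level_reach good_k [3, 2] [2, 3] (b := 6) (by norm_num) (by decide +kernel) 8
  have e : orbIter (([2, 3] : List ℕ).map (fun i => kGens.getD i idT)) 8 (2 ^ 6)
      = 262464 := by decide +kernel
  rwa [e] at this

theorem k_reach3 : Reach (K0 ⊓ fixing [6, 3, 2]) (pt 8) 262400 := by
  have := level_reach good_k [6, 3, 2] [3] (b := 8) (by norm_num) (by decide +kernel) 8
  have e : orbIter (([3] : List ℕ).map (fun i => kGens.getD i idT)) 8 (2 ^ 8)
      = 262400 := by decide +kernel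
  rwa [e] at this

theorem k_popc : popc 262476 = 5 ∧ popc 262472 = 4 ∧ popc 262464 = 3 ∧ popc 262400 = 2 := by
  decide +kernel

theorem card_K0_ge : Nat.factorial 5 ≤ Nat.card ↥K0 := by
  obtain ⟨p0, p1, p2, p3⟩ := k_popc
  have o0 := k_reach0.popc_le
  have o1 := k_reach1.popc_le
  have o2 := k_reach2.popc_le
  have o3 := k_reach3.popc_le
  rw [p0] at o0
  rw [p1] at o1
  rw [p2] at o2
  rw [p3] at o3
  have y4 : 1 ≤ Nat.card ↥(K0 ⊓ fixing [8, 6, 3, 2]) := Nat.card_pos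
  have y0 := card_fixing_ge o0 (card_fixing_ge o1 (card_fixing_ge o2 (card_fixing_ge o3 y4)))
  rw [inf_fixing_nil] at y0
  exact y0

/-- An invariance certificate producing the orbit `{2, 3, 6, 8, 18}`. -/
def invCert : List (ℕ × ℕ × ℕ × List (ℕ × ℕ)) :=
  [(1, 1000000, 0, []), (1, 0, 1, []), (1, 3, 2, []), (2, 78514, 0, [(5, 0), (1, 0)]), 
   (0, 4, 6, []), (1, 4, 6, [])]

theorem C_inv : ∀ σ ∈ K0, σ • support₂ (dec 262476) = support₂ (dec 262476) := by
  intro σ hσ
  have h1 := certRunI_sInv (H := (M24 ⊓ setStab [340831, 1, 160]) ⊓ fixing [])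
    (inf_le_left.trans inf_le_left) invCert _ (sInv_init M24 [340831, 1, 160] [] (by decide))
    262476 (by decide +kernel)
  exact h1 σ ⟨hσ, fun i hi => absurd hi List.not_mem_nil⟩

/-- A fixed-point certificate for the five points `2, 3, 6, 8, 18`. -/
def fixCert : List (ℕ × ℕ × ℕ × List (ℕ × ℕ)) :=
  [(1, 1000000, 0, []), (1, 0, 1, []), (1, 7, 2, []), (1, 8, 3, []), (1, 9, 4, []), (1, 10, 5, []), 
   (2, 78514, 0, [(11, 6)]), (0, 11, 12, []), (1, 11, 12, []), (0, 6, 12, []), (1, 6, 12, []), 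
   (2, 4213932, 0, [(13, 0), (15, 2), (4, 1), (5, 1), (1, 0)]), (0, 16, 17, []), (1, 16, 17, []), 
   (2, 18147, 0, [(19, 0), (15, 2), (3, 1), (1, 0), (2, 0)]), (0, 13, 20, []), (1, 13, 20, []), 
   (0, 18, 20, []), (1, 18, 20, []), (2, 15777, 0, [(19, 0), (15, 2), (2, 1), (1, 0), (3, 0)]), 
   (0, 22, 25, []), (1, 22, 25, []), (0, 23, 25, []), (1, 23, 25, []), (0, 24, 25, []), 
   (1, 24, 25, []), (2, 8391797, 0, [(19, 1), (3, 1), (14, 1), (30, 1), (26, 0), (4, 0)]), 
   (0, 27, 32, []), (1, 27, 32, []), (0, 15, 32, []), (1, 15, 32, []), (0, 19, 32, []), 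
   (1, 19, 32, []), (2, 535268, 0, [(3, 1), (5, 1), (35, 1), (36, 1), (30, 1)]), (0, 21, 39, []), 
   (1, 21, 39, []), (0, 26, 39, []), (1, 26, 39, []), (0, 38, 39, []), (1, 38, 39, []), 
   (2, 133817, 0, [(4, 1), (40, 1), (33, 1), (14, 1), (35, 1)]), (0, 45, 46, []), (1, 45, 46, []), 
   (2, 36294, 0, [(2, 1), (3, 1), (5, 1), (41, 1), (36, 1)]), (0, 48, 49, []), (1, 48, 49, []), 
   (2, 2101096, 0, [(2, 1), (3, 1), (4, 1), (40, 1), (35, 1)]), (0, 51, 52, []), (1, 51, 52, [])]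

theorem fix5 : (M24 ⊓ setStab [340831]) ⊓ fixing [18, 8, 6, 3, 2] = ⊥ :=
  stab_eq_bot le_rfl [340831] [18, 8, 6, 3, 2] fixCert (by decide) (by decide +kernel)

theorem pt_mem_C : ∀ i ∈ ([18, 8, 6, 3, 2] : List ℕ), pt i ∈ support₂ (dec 262476) := by
  intro i hi
  have h1 : ∀ i ∈ ([18, 8, 6, 3, 2] : List ℕ), i < 24 ∧ Nat.testBit 262476 i = true := by decide
  rw [mem_support₂_dec, idx_pt (h1 i hi).1]
  exact (h1 i hi).2

theorem faithful : ∀ σ ∈ K0, (∀ p ∈ support₂ (dec 262476), σ p = p) → σ = 1 := by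
  intro σ hσ h
  have h1 : σ ∈ (M24 ⊓ setStab [340831]) ⊓ fixing [18, 8, 6, 3, 2] :=
    ⟨⟨hσ.1, fun D hD => hσ.2 D (by
      rw [List.mem_singleton] at hD
      rw [hD]
      exact List.mem_cons_self)⟩, fun i hi => h _ (pt_mem_C i hi)⟩
  rw [fix5, Subgroup.mem_bot] at h1
  exact h1

theorem card_C : (support₂ (dec 262476)).card = 5 := by
  rw [card_support₂, hammingNorm_dec]
  decide +kernel

theorem iso0 : Nonempty (↥K0 ≃* Equiv.Perm (Fin 5)) :=
  iso_perm_of_faithful K0 _ C_inv faithful 5 card_C card_K0_ge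

/-- Transitivity on the configurations. -/
theorem exists_config {d : Finset GolayPt} (hd : d ∈ dodecads) {p q q' : GolayPt} (hp : p ∈ d)
    (hq : q ∉ d) (hq' : q' ∉ d) (hqq' : q ≠ q') :
    ∃ x ∈ M24, x • support₂ (dec 340831) = d ∧ x (pt 0) = p ∧
      x • ({pt 5, pt 7} : Finset GolayPt) = {q, q'} := by
  obtain ⟨y, hy, hyd⟩ := exists_smul_dodecad hd
  have hyp : y⁻¹ p ∈ support₂ (dec 340831) := by
    have h1 : y⁻¹ • p ∈ y⁻¹ • d := Finset.smul_mem_smul_finset hp
    rwa [← hyd, inv_smul_smul] at h1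
  obtain ⟨σ, hσ, hF⟩ := TChain.exists_perm m12_smul_D0 [0] []
    (tchain_cons m12_reach0 (by decide +kernel) trivial) [y⁻¹ p] rfl (List.nodup_singleton _)
    (fun c hc => by
      rw [List.mem_singleton] at hc
      rw [hc]
      exact ⟨hyp, fun i hi => absurd hi List.not_mem_nil⟩)
  rw [List.forall₂_cons] at hF
  have hσ0 := hF.1
  have hx1M : y * σ ∈ M24 := M24.mul_mem hy hσ.1.1
  have hx1d : (y * σ) • support₂ (dec 340831) = d := by
    rw [mul_smul, m12_smul_D0 σ hσ.1, hyd]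
  have hx1p : (y * σ) (pt 0) = p := by
    rw [Equiv.Perm.mul_apply, hσ0, ← Equiv.Perm.mul_apply, mul_inv_cancel, Equiv.Perm.one_apply]
  have hcompl : ∀ c, c ∉ d → (y * σ)⁻¹ c ∈ support₂ (dec 16436384) := by
    intro c hc
    rw [compl_D0, Finset.mem_sdiff]
    refine ⟨Finset.mem_univ _, fun hmem => hc ?_⟩
    have h1 : (y * σ) • ((y * σ)⁻¹ c) ∈ (y * σ) • support₂ (dec 340831) :=
      Finset.smul_mem_smul_finset hmem
    rw [hx1d, Equiv.Perm.smul_def, ← Equiv.Perm.mul_apply, mul_inv_cancel,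
      Equiv.Perm.one_apply] at h1
    exact h1
  obtain ⟨τ, hτ, hF2⟩ := TChain.exists_perm h1_smul_compl [5, 7] [] m11_tchain
    [(y * σ)⁻¹ q, (y * σ)⁻¹ q'] rfl (by
      simp only [List.nodup_cons, List.mem_singleton, List.not_mem_nil, not_false_eq_true,
        List.nodup_nil, and_true, EmbeddingLike.apply_eq_iff_eq]
      exact hqq') (fun c hc => by
      simp only [List.mem_cons, List.not_mem_nil, or_false] at hc
      rcases hc with rfl | rfl
      · exact ⟨hcompl q hq, fun i hi => absurd hi List.not_mem_nil⟩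
      · exact ⟨hcompl q' hq', fun i hi => absurd hi List.not_mem_nil⟩)
  rw [List.forall₂_cons, List.forall₂_cons] at hF2
  obtain ⟨h5, h7, -⟩ := hF2
  refine ⟨y * σ * τ, M24.mul_mem hx1M hτ.1.1, ?_, ?_, ?_⟩
  · rw [mul_smul, h1_smul_D0 hτ.1, hx1d]
  · rw [Equiv.Perm.mul_apply, h1_fix0 hτ.1, hx1p]
  · rw [Finset.smul_finset_insert, Finset.smul_finset_singleton]
    show {(y * σ * τ) (pt 5), (y * σ * τ) (pt 7)} = ({q, q'} : Finset GolayPt)
    have e5 : (y * σ * τ) (pt 5) = q := by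
      rw [Equiv.Perm.mul_apply, h5, ← Equiv.Perm.mul_apply, mul_inv_cancel, Equiv.Perm.one_apply]
    have e7 : (y * σ * τ) (pt 7) = q' := by
      rw [Equiv.Perm.mul_apply, h7, ← Equiv.Perm.mul_apply, mul_inv_cancel, Equiv.Perm.one_apply]
    rw [e5, e7]

theorem mem_iff {d : Finset GolayPt} {p q q' : GolayPt} {x : Equiv.Perm GolayPt}
    (hxd : x • support₂ (dec 340831) = d) (hxp : x (pt 0) = p)
    (hxq : x • ({pt 5, pt 7} : Finset GolayPt) = {q, q'}) (hx : x ∈ M24) (g : ↥M24) :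
    g ∈ MulAction.stabilizer ↥M24 d ⊓ MulAction.stabilizer ↥M24 p ⊓
      MulAction.stabilizer ↥M24 ({q, q'} : Finset GolayPt) ↔
      x⁻¹ * (g : Equiv.Perm GolayPt) * x ∈ K0 := by
  have hxs : x • support₂ (dec 1) = ({p} : Finset GolayPt) := by
    rw [support_one, Finset.smul_finset_singleton]
    exact congrArg _ hxp
  have hsing : (g : Equiv.Perm GolayPt) • ({p} : Finset GolayPt) = {p} ↔
      (g : Equiv.Perm GolayPt) p = p := by
    rw [Finset.smul_finset_singleton, Finset.singleton_inj]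
    rfl
  constructor
  · rintro ⟨⟨h1, h2⟩, h3⟩
    have h1' : (g : Equiv.Perm GolayPt) • d = d := h1
    have h2' : (g : Equiv.Perm GolayPt) p = p := h2
    have h3' : (g : Equiv.Perm GolayPt) • ({q, q'} : Finset GolayPt) = {q, q'} := h3
    refine ⟨(conj_mem_M24_iff hx _).mpr g.2, fun D hD => ?_⟩
    simp only [List.mem_cons, List.not_mem_nil, or_false] at hD
    rcases hD with rfl | rfl | rfl
    · rw [conj_smul_eq_iff, hxd]
      exact h1'
    · rw [conj_smul_eq_iff, hxs]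
      exact hsing.mpr h2'
    · rw [conj_smul_eq_iff, support_pair, hxq]
      exact h3'
  · rintro ⟨-, h1⟩
    have h1' := h1 340831 (by simp)
    have h2' := h1 1 (by simp)
    have h3' := h1 160 (by simp)
    rw [conj_smul_eq_iff, hxd] at h1'
    rw [conj_smul_eq_iff, hxs] at h2'
    rw [conj_smul_eq_iff, support_pair, hxq] at h3'
    exact ⟨⟨h1', hsing.mp h2'⟩, h3'⟩


/-- In the 12-point action of the smallest Mathieu group the setwise stabiliser of a pair is isomorphic to the symmetric group of degree 5. -/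
theorem result (d : Finset Cfsg.GolayPt) (hd : d ∈ Cfsg.dodecads) (p q q' : Cfsg.GolayPt) (hp : p ∈ d) (hq : q ∉ d) (hq' : q' ∉ d) (hqq' : q ≠ q') : Nonempty (↥(MulAction.stabilizer Cfsg.M24 d ⊓ MulAction.stabilizer Cfsg.M24 p ⊓ MulAction.stabilizer Cfsg.M24 ({q, q'} : Finset Cfsg.GolayPt)) ≃* Equiv.Perm (Fin 5)) := by
  obtain ⟨x, hx, hxd, hxp, hxq⟩ := exists_config hd hp hq hq' hqq'
  obtain ⟨e0⟩ := iso0
  exact ⟨(transportEquiv hx inf_le_left (mem_iff hxd hxp hxq hx)).trans e0⟩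

end Cfsg.Agent.S1602
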