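import Cfsg.Statements.S1551
import Cfsg.Agent.Lib.Helper95.SextetStab

set_option autoImplicit false
open scoped Pointwise
open Cfsg

namespace Cfsg.Agent.S1551

open Cfsg.Agent.Lib.Helper9 Cfsg.Agent.Lib.Helper95

/-- The base sextet. -/
abbrev S0 : Finset (Finset GolayPt) := sxSet sx0L

/-- Elements of the group of the code swapping two tetrads of the base sextet and fixing the
others. -/
def swTabs : List (List ℕ) :=
  [[3, 14, 17, 1, 22, 2, 19, 7, 11, 20, 9, 8, 12, 16, 0, 10, 4, 23, 18, 6, 15, 21, 13, 5],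
   [11, 8, 18, 17, 13, 3, 6, 21, 23, 9, 10, 2, 1, 16, 5, 20, 22, 14, 0, 19, 15, 7, 4, 12],
   [9, 10, 15, 14, 22, 3, 19, 21, 12, 0, 1, 18, 11, 4, 17, 2, 13, 5, 8, 7, 23, 6, 16, 20],
   [21, 7, 6, 14, 16, 5, 23, 0, 8, 10, 20, 11, 18, 4, 3, 9, 22, 17, 12, 2, 15, 1, 13, 19],
   [22, 4, 16, 5, 0, 17, 19, 7, 12, 20, 10, 8, 18, 2, 3, 15, 23, 14, 11, 6, 9, 21, 1, 13],
   [23, 2, 0, 8, 13, 12, 7, 19, 3, 10, 20, 14, 5, 22, 11, 9, 4, 18, 17, 21, 15, 6, 16, 1],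
   [1, 2, 23, 15, 22, 20, 6, 19, 12, 3, 5, 18, 11, 13, 10, 17, 16, 9, 8, 7, 14, 21, 4, 0],
   [23, 1, 2, 6, 16, 19, 17, 5, 12, 20, 9, 11, 8, 4, 7, 10, 22, 21, 18, 14, 15, 3, 13, 0],
   [1, 23, 0, 16, 3, 22, 6, 7, 8, 15, 9, 11, 18, 5, 13, 20, 17, 4, 12, 21, 10, 19, 14, 2],
   [1, 0, 2, 3, 22, 5, 19, 6, 20, 8, 11, 15, 9, 4, 17, 18, 13, 14, 10, 21, 12, 7, 16, 23],
   [1, 0, 2, 17, 22, 3, 8, 12, 21, 9, 20, 7, 19, 16, 5, 15, 4, 14, 6, 11, 10, 18, 13, 23],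
   [23, 1, 2, 3, 11, 5, 6, 21, 13, 15, 10, 4, 16, 8, 17, 9, 12, 14, 22, 19, 20, 7, 18, 0],
   [23, 2, 0, 3, 16, 14, 15, 20, 18, 7, 6, 11, 12, 4, 5, 19, 22, 17, 8, 10, 21, 9, 13, 1],
   [1, 2, 23, 17, 15, 14, 6, 7, 18, 13, 16, 11, 12, 10, 3, 22, 9, 5, 8, 21, 4, 19, 20, 0],
   [1, 23, 0, 5, 21, 14, 16, 13, 8, 10, 9, 12, 11, 6, 17, 15, 7, 3, 18, 4, 20, 22, 19, 2]]

theorem swTabs_ok : swTabs.all (fun T => permOK T && tableOK T) = true := by decide +kernel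

theorem swap_dec : sx0L.all (fun a => sx0L.all (fun b => a == b || swTabs.any (fun T =>
    push T a == b && push T b == a &&
      sx0L.all (fun m => m == a || m == b || push T m == m)))) = true := by decide +kernel

theorem base_swaps : ∀ a ∈ S0, ∀ b ∈ S0, a ≠ b → ∃ g : Equiv.Perm GolayPt, g ∈ M24 ∧
    g • S0 = S0 ∧ g • a = b ∧ g • b = a ∧ ∀ t ∈ S0, t ≠ a → t ≠ b → g • t = t := by
  intro a ha b hb hab
  obtain ⟨ma, hma, rfl⟩ := mem_sxSet.mp ha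
  obtain ⟨mb, hmb, rfl⟩ := mem_sxSet.mp hb
  have hne : ma ≠ mb := fun h => hab (by rw [h])
  have h1 := List.all_eq_true.mp (List.all_eq_true.mp swap_dec ma hma) mb hmb
  rw [Bool.or_eq_true, beq_iff_eq, List.any_eq_true] at h1
  rcases h1 with h1 | ⟨T, hT, hTc⟩
  · exact absurd h1 hne
  simp only [Bool.and_eq_true, beq_iff_eq, List.all_eq_true, Bool.or_eq_true] at hTc
  obtain ⟨⟨hab', hba'⟩, hrest⟩ := hTc
  have hok := List.all_eq_true.mp swTabs_ok T hT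
  rw [Bool.and_eq_true] at hok
  have hsm : ∀ m, tperm T • support₂ (dec m) = support₂ (dec (push T m)) :=
    fun m => smul_support₂_dec (hasTable_tperm hok.1) m
  have hperm : ∀ m ∈ sx0L, push T m ∈ sx0L := by
    intro m hm
    rcases hrest m hm with (h | h) | h
    · rw [h, hab']
      exact hmb
    · rw [h, hba']
      exact hma
    · rw [h]
      exact hm
  refine ⟨tperm T, tperm_mem_M24 hok.1 hok.2, ?_, ?_, ?_, ?_⟩
  · refine Finset.eq_of_subset_of_card_le ?_ (by rw [Finset.card_smul_finset])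
    intro t ht
    obtain ⟨t0, ht0, rfl⟩ := Finset.mem_smul_finset.mp ht
    obtain ⟨m, hm, rfl⟩ := mem_sxSet.mp ht0
    rw [hsm]
    exact mem_sxSet.mpr ⟨_, hperm m hm, rfl⟩
  · rw [hsm, hab']
  · rw [hsm, hba']
  · intro t ht hta htb
    obtain ⟨m, hm, rfl⟩ := mem_sxSet.mp ht
    rcases hrest m hm with (h | h) | h
    · exact absurd (by rw [h]) hta
    · exact absurd (by rw [h]) htb
    · rw [hsm, h]

theorem surj {S : Finset (Finset GolayPt)} (hS : S ∈ sextets) :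
    Function.Surjective (famHom S) := by
  obtain ⟨x, hx, hxS⟩ := exists_smul_sextet hS
  exact famHom_surjective (swaps_transport hx hxS base_swaps)

theorem card_ker {S : Finset (Finset GolayPt)} (hS : S ∈ sextets) :
    Nat.card ↥(famHom S).ker = 192 := by
  have h := card_ker_famHom (surj hS)
  rw [card_sextet_stab hS, hS.1] at h
  have h6 : Nat.factorial 6 = 720 := rfl
  rw [h6] at h
  omega

/-- The 64 elements of order at most two fixing every tetrad of the base sextet. -/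
def n64 : List (List ℕ) :=
  [[0, 1, 2, 3, 4, 5, 6, 7, 8, 9, 10, 11, 12, 13, 14, 15, 16, 17, 18, 19, 20, 21, 22, 23],
   [0, 1, 2, 3, 22, 5, 7, 6, 18, 10, 9, 12, 11, 16, 14, 20, 13, 17, 8, 21, 15, 19, 4, 23],
   [0, 1, 2, 3, 13, 5, 19, 21, 11, 15, 20, 8, 18, 4, 14, 9, 22, 17, 12, 6, 10, 7, 16, 23],
   [0, 1, 2, 3, 16, 5, 21, 19, 12, 20, 15, 18, 8, 22, 14, 10, 4, 17, 11, 7, 9, 6, 13, 23],
   [0, 1, 2, 14, 16, 17, 19, 21, 8, 10, 9, 11, 12, 22, 3, 20, 4, 5, 18, 6, 15, 7, 13, 23],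
   [0, 1, 2, 14, 13, 17, 21, 19, 18, 9, 10, 12, 11, 4, 3, 15, 22, 5, 8, 7, 20, 6, 16, 23],
   [0, 1, 2, 14, 22, 17, 6, 7, 11, 20, 15, 8, 18, 16, 3, 10, 13, 5, 12, 19, 9, 21, 4, 23],
   [0, 1, 2, 14, 4, 17, 7, 6, 12, 15, 20, 18, 8, 13, 3, 9, 16, 5, 11, 21, 10, 19, 22, 23],
   [0, 1, 2, 17, 22, 14, 21, 19, 8, 15, 20, 11, 12, 16, 5, 9, 13, 3, 18, 7, 10, 6, 4, 23],
   [0, 1, 2, 17, 4, 14, 19, 21, 18, 20, 15, 12, 11, 13, 5, 10, 16, 3, 8, 6, 9, 7, 22, 23],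
   [0, 1, 2, 17, 16, 14, 7, 6, 11, 9, 10, 8, 18, 22, 5, 15, 4, 3, 12, 21, 20, 19, 13, 23],
   [0, 1, 2, 17, 13, 14, 6, 7, 12, 10, 9, 18, 8, 4, 5, 20, 22, 3, 11, 19, 15, 21, 16, 23],
   [0, 1, 2, 5, 13, 3, 7, 6, 8, 20, 15, 11, 12, 4, 17, 10, 22, 14, 18, 21, 9, 19, 16, 23],
   [0, 1, 2, 5, 16, 3, 6, 7, 18, 15, 20, 12, 11, 22, 17, 9, 4, 14, 8, 19, 10, 21, 13, 23],
   [0, 1, 2, 5, 4, 3, 21, 19, 11, 10, 9, 8, 18, 13, 17, 20, 16, 14, 12, 7, 15, 6, 22, 23],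
   [0, 1, 2, 5, 22, 3, 19, 21, 12, 9, 10, 18, 8, 16, 17, 15, 13, 14, 11, 6, 20, 7, 4, 23],
   [1, 0, 23, 5, 13, 3, 19, 21, 18, 10, 9, 12, 11, 4, 17, 20, 22, 14, 8, 6, 15, 7, 16, 2],
   [1, 0, 23, 5, 16, 3, 21, 19, 8, 9, 10, 11, 12, 22, 17, 15, 4, 14, 18, 7, 20, 6, 13, 2],
   [1, 0, 23, 5, 4, 3, 6, 7, 12, 20, 15, 18, 8, 13, 17, 10, 16, 14, 11, 19, 9, 21, 22, 2],
   [1, 0, 23, 5, 22, 3, 7, 6, 11, 15, 20, 8, 18, 16, 17, 9, 13, 14, 12, 21, 10, 19, 4, 2],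
   [1, 0, 23, 17, 22, 14, 6, 7, 18, 9, 10, 12, 11, 16, 5, 15, 13, 3, 8, 19, 20, 21, 4, 2],
   [1, 0, 23, 17, 4, 14, 7, 6, 8, 10, 9, 11, 12, 13, 5, 20, 16, 3, 18, 21, 15, 19, 22, 2],
   [1, 0, 23, 17, 16, 14, 19, 21, 12, 15, 20, 18, 8, 22, 5, 9, 4, 3, 11, 6, 10, 7, 13, 2],
   [1, 0, 23, 17, 13, 14, 21, 19, 11, 20, 15, 8, 18, 4, 5, 10, 22, 3, 12, 7, 9, 6, 16, 2],
   [1, 0, 23, 14, 16, 17, 7, 6, 18, 20, 15, 12, 11, 22, 3, 10, 4, 5, 8, 21, 9, 19, 13, 2],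
   [1, 0, 23, 14, 13, 17, 6, 7, 8, 15, 20, 11, 12, 4, 3, 9, 22, 5, 18, 19, 10, 21, 16, 2],
   [1, 0, 23, 14, 22, 17, 21, 19, 12, 10, 9, 18, 8, 16, 3, 20, 13, 5, 11, 7, 15, 6, 4, 2],
   [1, 0, 23, 14, 4, 17, 19, 21, 11, 9, 10, 8, 18, 13, 3, 15, 16, 5, 12, 6, 20, 7, 22, 2],
   [1, 0, 23, 3, 4, 5, 21, 19, 18, 15, 20, 12, 11, 13, 14, 9, 16, 17, 8, 7, 10, 6, 22, 2],
   [1, 0, 23, 3, 22, 5, 19, 21, 8, 20, 15, 11, 12, 16, 14, 10, 13, 17, 18, 6, 9, 7, 4, 2],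
   [1, 0, 23, 3, 13, 5, 7, 6, 12, 9, 10, 18, 8, 4, 14, 15, 22, 17, 11, 21, 20, 19, 16, 2],
   [1, 0, 23, 3, 16, 5, 6, 7, 11, 10, 9, 8, 18, 22, 14, 20, 4, 17, 12, 19, 15, 21, 13, 2],
   [23, 2, 1, 14, 16, 17, 21, 19, 11, 15, 20, 8, 18, 22, 3, 9, 4, 5, 12, 7, 10, 6, 13, 0],
   [23, 2, 1, 14, 13, 17, 19, 21, 12, 20, 15, 18, 8, 4, 3, 10, 22, 5, 11, 6, 9, 7, 16, 0],
   [23, 2, 1, 14, 22, 17, 7, 6, 8, 9, 10, 11, 12, 16, 3, 15, 13, 5, 18, 21, 20, 19, 4, 0],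
   [23, 2, 1, 14, 4, 17, 6, 7, 18, 10, 9, 12, 11, 13, 3, 20, 16, 5, 8, 19, 15, 21, 22, 0],
   [23, 2, 1, 3, 4, 5, 7, 6, 11, 20, 15, 8, 18, 13, 14, 10, 16, 17, 12, 21, 9, 19, 22, 0],
   [23, 2, 1, 3, 22, 5, 6, 7, 12, 15, 20, 18, 8, 16, 14, 9, 13, 17, 11, 19, 10, 21, 4, 0],
   [23, 2, 1, 3, 13, 5, 21, 19, 8, 10, 9, 11, 12, 4, 14, 20, 22, 17, 18, 7, 15, 6, 16, 0],
   [23, 2, 1, 3, 16, 5, 19, 21, 18, 9, 10, 12, 11, 22, 14, 15, 4, 17, 8, 6, 20, 7, 13, 0],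
   [23, 2, 1, 5, 13, 3, 6, 7, 11, 9, 10, 8, 18, 4, 17, 15, 22, 14, 12, 19, 20, 21, 16, 0],
   [23, 2, 1, 5, 16, 3, 7, 6, 12, 10, 9, 18, 8, 22, 17, 20, 4, 14, 11, 21, 15, 19, 13, 0],
   [23, 2, 1, 5, 4, 3, 19, 21, 8, 15, 20, 11, 12, 13, 17, 9, 16, 14, 18, 6, 10, 7, 22, 0],
   [23, 2, 1, 5, 22, 3, 21, 19, 18, 20, 15, 12, 11, 16, 17, 10, 13, 14, 8, 7, 9, 6, 4, 0],
   [23, 2, 1, 17, 22, 14, 19, 21, 11, 10, 9, 8, 18, 16, 5, 20, 13, 3, 12, 6, 15, 7, 4, 0],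
   [23, 2, 1, 17, 4, 14, 21, 19, 12, 9, 10, 18, 8, 13, 5, 15, 16, 3, 11, 7, 20, 6, 22, 0],
   [23, 2, 1, 17, 16, 14, 6, 7, 8, 20, 15, 11, 12, 22, 5, 10, 4, 3, 18, 19, 9, 21, 13, 0],
   [23, 2, 1, 17, 13, 14, 7, 6, 18, 15, 20, 12, 11, 4, 5, 9, 22, 3, 8, 21, 10, 19, 16, 0],
   [2, 23, 0, 17, 22, 14, 7, 6, 12, 20, 15, 18, 8, 16, 5, 10, 13, 3, 11, 21, 9, 19, 4, 1],
   [2, 23, 0, 17, 4, 14, 6, 7, 11, 15, 20, 8, 18, 13, 5, 9, 16, 3, 12, 19, 10, 21, 22, 1],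
   [2, 23, 0, 17, 16, 14, 21, 19, 18, 10, 9, 12, 11, 22, 5, 20, 4, 3, 8, 7, 15, 6, 13, 1],
   [2, 23, 0, 17, 13, 14, 19, 21, 8, 9, 10, 11, 12, 4, 5, 15, 22, 3, 18, 6, 20, 7, 16, 1],
   [2, 23, 0, 5, 13, 3, 21, 19, 12, 15, 20, 18, 8, 4, 17, 9, 22, 14, 11, 7, 10, 6, 16, 1],
   [2, 23, 0, 5, 16, 3, 19, 21, 11, 20, 15, 8, 18, 22, 17, 10, 4, 14, 12, 6, 9, 7, 13, 1],
   [2, 23, 0, 5, 4, 3, 7, 6, 18, 9, 10, 12, 11, 13, 17, 15, 16, 14, 8, 21, 20, 19, 22, 1],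
   [2, 23, 0, 5, 22, 3, 6, 7, 8, 10, 9, 11, 12, 16, 17, 20, 13, 14, 18, 19, 15, 21, 4, 1],
   [2, 23, 0, 3, 4, 5, 19, 21, 12, 10, 9, 18, 8, 13, 14, 20, 16, 17, 11, 6, 15, 7, 22, 1],
   [2, 23, 0, 3, 22, 5, 21, 19, 11, 9, 10, 8, 18, 16, 14, 15, 13, 17, 12, 7, 20, 6, 4, 1],
   [2, 23, 0, 3, 13, 5, 6, 7, 18, 20, 15, 12, 11, 4, 14, 10, 22, 17, 8, 19, 9, 21, 16, 1],
   [2, 23, 0, 3, 16, 5, 7, 6, 8, 15, 20, 11, 12, 22, 14, 9, 4, 17, 18, 21, 10, 19, 13, 1],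
   [2, 23, 0, 14, 16, 17, 6, 7, 12, 9, 10, 18, 8, 22, 3, 15, 4, 5, 11, 19, 20, 21, 13, 1],
   [2, 23, 0, 14, 13, 17, 7, 6, 11, 10, 9, 8, 18, 4, 3, 20, 22, 5, 12, 21, 15, 19, 16, 1],
   [2, 23, 0, 14, 22, 17, 19, 21, 18, 15, 20, 12, 11, 16, 3, 9, 13, 5, 8, 6, 10, 7, 4, 1],
   [2, 23, 0, 14, 4, 17, 21, 19, 8, 20, 15, 11, 12, 13, 3, 10, 16, 5, 18, 7, 9, 6, 22, 1]]

/-- An element of order three fixing every tetrad of the base sextet. -/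
def zT : List ℕ := [0, 2, 23, 3, 22, 17, 7, 19, 12, 15, 10, 11, 18, 4, 5, 20, 16, 14, 8, 6, 9, 21, 13, 1]

/-- Its square. -/
def z2T : List ℕ := [0, 23, 1, 3, 13, 14, 19, 6, 18, 20, 10, 11, 8, 22, 17, 9, 16, 5, 12, 7, 15, 21, 4, 2]

/-- All 192 elements fixing every tetrad of the base sextet. -/
def k192 : List (List ℕ) := n64.flatMap (fun N => [N, compT N zT, compT N z2T])

theorem n64_ok : (zT :: z2T :: n64).all (memOK sx0L) = true := by decide +kernel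

theorem n64_group : tabGroupOK n64 = true := by decide +kernel

theorem n64_nodup : n64.Nodup := by decide +kernel

theorem n64_sq : n64.all (fun T => compT T T == idT) = true := by decide +kernel

theorem k192_nodup : k192.Nodup := by decide +kernel

theorem k192_length : k192.length = 192 := by decide +kernel

theorem k192_sq : k192.all (fun T => !(compT T T == idT) || n64.contains T) = true := by
  decide +kernel

/-- The subgroup fixing every tetrad of the base sextet. -/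
abbrev K0 : Subgroup (Equiv.Perm GolayPt) := M24 ⊓ setStab sx0L

theorem mem_K0_iff {σ : Equiv.Perm GolayPt} : σ ∈ K0 ↔ σ ∈ M24 ∧ ∀ t ∈ S0, σ • t = t := by
  constructor
  · rintro ⟨h1, h2⟩
    refine ⟨h1, fun t ht => ?_⟩
    obtain ⟨m, hm, rfl⟩ := mem_sxSet.mp ht
    exact h2 m hm
  · rintro ⟨h1, h2⟩
    exact ⟨h1, fun m hm => h2 _ (mem_sxSet.mpr ⟨m, hm, rfl⟩)⟩

theorem smul_S0_of_fix {σ : Equiv.Perm GolayPt} (h : ∀ t ∈ S0, σ • t = t) : σ • S0 = S0 := by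
  refine Finset.eq_of_subset_of_card_le ?_ (by rw [Finset.card_smul_finset])
  intro t ht
  obtain ⟨t0, ht0, rfl⟩ := Finset.mem_smul_finset.mp ht
  rw [h t0 ht0]
  exact ht0

theorem card_K0 : Nat.card ↥K0 ≤ 192 := by
  rw [← card_ker sx0_mem_sextets]
  apply Nat.card_le_card_of_injective (fun σ : ↥K0 =>
    (⟨⟨⟨σ.1, (mem_K0_iff.mp σ.2).1⟩, smul_S0_of_fix (mem_K0_iff.mp σ.2).2⟩,
      mem_ker_famHom.mpr (mem_K0_iff.mp σ.2).2⟩ : ↥(famHom S0).ker))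
  intro σ τ h
  apply Subtype.ext
  exact congrArg (fun g : ↥(famHom S0).ker =>
    (((g : ↥(MulAction.stabilizer ↥M24 S0)) : ↥M24) : Equiv.Perm GolayPt)) h

theorem n64_mem {T : List ℕ} (hT : T ∈ n64) : permOK T = true ∧ tperm T ∈ K0 :=
  tperm_mem_of_memOK (List.all_eq_true.mp n64_ok T
    (List.mem_cons_of_mem _ (List.mem_cons_of_mem _ hT)))

theorem z_mem : permOK zT = true ∧ tperm zT ∈ K0 :=
  tperm_mem_of_memOK (List.all_eq_true.mp n64_ok zT List.mem_cons_self)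

theorem z2_mem : permOK z2T = true ∧ tperm z2T ∈ K0 :=
  tperm_mem_of_memOK (List.all_eq_true.mp n64_ok z2T (List.mem_cons_of_mem _ List.mem_cons_self))

theorem k192_ok : ∀ U ∈ k192, permOK U = true ∧ tperm U ∈ K0 := by
  intro U hU
  simp only [k192, List.mem_flatMap, List.mem_cons, List.not_mem_nil, or_false] at hU
  obtain ⟨N, hN, rfl | rfl | rfl⟩ := hU
  · exact n64_mem hN
  · refine ⟨permOK_compT (n64_mem hN).1 z_mem.1, ?_⟩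
    rw [← tperm_mul (n64_mem hN).1 z_mem.1]
    exact K0.mul_mem (n64_mem hN).2 z_mem.2
  · refine ⟨permOK_compT (n64_mem hN).1 z2_mem.1, ?_⟩
    rw [← tperm_mul (n64_mem hN).1 z2_mem.1]
    exact K0.mul_mem (n64_mem hN).2 z2_mem.2

/-- The normal subgroup of order 64, as a group of permutations. -/
abbrev nSub : Subgroup (Equiv.Perm GolayPt) := tabSubgroup n64 n64_group

theorem mem_nSub_iff {σ : Equiv.Perm GolayPt} : σ ∈ nSub ↔ σ ∈ K0 ∧ σ * σ = 1 := by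
  constructor
  · rintro ⟨T, hT, rfl⟩
    have hp := (n64_mem hT).1
    refine ⟨(n64_mem hT).2, ?_⟩
    have h2 := List.all_eq_true.mp n64_sq T hT
    rw [beq_iff_eq] at h2
    rw [tperm_mul hp hp, h2, tperm_idT]
  · rintro ⟨hK, hsq⟩
    obtain ⟨T, hT, rfl⟩ := exists_table_of_card_le k192 k192_nodup k192_ok
      (by rw [k192_length]; exact card_K0) σ hK
    have hp := (k192_ok T hT).1
    rw [tperm_mul hp hp, ← tperm_idT] at hsq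
    have h3 := tperm_inj (permOK_compT hp hp) permOK_idT hsq
    have h4 := List.all_eq_true.mp k192_sq T hT
    rw [h3, beq_self_eq_true, Bool.not_true, Bool.false_or, List.contains_iff_mem] at h4
    exact ⟨T, h4, rfl⟩

/-- The normal subgroup of order 64 of the stabiliser of the base sextet. -/
def N0 : Subgroup ↥(MulAction.stabilizer ↥M24 S0) :=
  nSub.comap ((Subgroup.subtype M24).comp (Subgroup.subtype (MulAction.stabilizer ↥M24 S0)))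

theorem mem_N0 {g : ↥(MulAction.stabilizer ↥M24 S0)} :
    g ∈ N0 ↔ ((g : ↥M24) : Equiv.Perm GolayPt) ∈ nSub := Iff.rfl

theorem conj_sq (a b : Equiv.Perm GolayPt) (hb : b * b = 1) :
    (a * b * a⁻¹) * (a * b * a⁻¹) = 1 := by
  have e : a * b * a⁻¹ * (a * b * a⁻¹) = a * (b * b) * a⁻¹ := by group
  rw [e, hb]
  group

theorem N0_normal : N0.Normal := ⟨fun n hn g => by
  rw [mem_N0] at hn ⊢
  show ((g : ↥M24) : Equiv.Perm GolayPt) * ((n : ↥M24) : Equiv.Perm GolayPt) *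
    ((g : ↥M24) : Equiv.Perm GolayPt)⁻¹ ∈ nSub
  obtain ⟨hK, hsq⟩ := mem_nSub_iff.mp hn
  obtain ⟨hM, hfix⟩ := mem_K0_iff.mp hK
  have hgS : ((g : ↥M24) : Equiv.Perm GolayPt) • S0 = S0 := g.2
  rw [mem_nSub_iff, mem_K0_iff]
  refine ⟨⟨M24.mul_mem (M24.mul_mem (g : ↥M24).2 hM) (M24.inv_mem (g : ↥M24).2), ?_⟩,
    conj_sq _ _ hsq⟩
  intro t ht
  rw [mul_smul, mul_smul, hfix _ (inv_smul_mem_of_stab hgS ht), smul_inv_smul]⟩

theorem card_N0 : Nat.card ↥N0 = 64 := by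
  have hbij : Function.Bijective (fun g : ↥N0 =>
      (⟨(((g : ↥(MulAction.stabilizer ↥M24 S0)) : ↥M24) : Equiv.Perm GolayPt), g.2⟩ : ↥nSub)) := by
    constructor
    · intro g h hgh
      apply Subtype.ext
      apply Subtype.ext
      apply Subtype.ext
      exact congrArg (fun s : ↥nSub => (s : Equiv.Perm GolayPt)) hgh
    · intro σ
      obtain ⟨hK, -⟩ := mem_nSub_iff.mp σ.2
      obtain ⟨hM, hfix⟩ := mem_K0_iff.mp hK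
      exact ⟨⟨⟨⟨σ.1, hM⟩, smul_S0_of_fix hfix⟩, σ.2⟩, rfl⟩
  rw [Nat.card_congr (Equiv.ofBijective _ hbij), card_tabSubgroup n64 n64_group n64_nodup]
  rfl

theorem N0_sq : ∀ x ∈ N0, x * x = 1 := by
  intro x hx
  apply Subtype.ext
  apply Subtype.ext
  exact (mem_nSub_iff.mp (mem_N0.mp hx)).2


/-- Structure of a sextet stabiliser: it induces every permutation of the six tetrads, the subgroup fixing each tetrad setwise has order 192, and there is a normal subgroup of order 64 consisting of elements squaring to the identity. -/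
theorem result (S : Finset (Finset Cfsg.GolayPt)) (hS : S ∈ Cfsg.sextets) : (∀ e : Equiv.Perm ↥S, ∃ g ∈ MulAction.stabilizer Cfsg.M24 S, ∀ t : ↥S, (g : Equiv.Perm Cfsg.GolayPt) • (t : Finset Cfsg.GolayPt) = ((e t : ↥S) : Finset Cfsg.GolayPt)) ∧ Nat.card {g : ↥(MulAction.stabilizer Cfsg.M24 S) // ∀ t ∈ S, ((g : Cfsg.M24) : Equiv.Perm Cfsg.GolayPt) • t = t} = 192 ∧ ∃ N : Subgroup ↥(MulAction.stabilizer Cfsg.M24 S), N.Normal ∧ Nat.card N = 64 ∧ ∀ x ∈ N, x * x = 1 := by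
  obtain ⟨x, hx, hxS⟩ := exists_smul_sextet hS
  have hs := surj hS
  refine ⟨exists_of_famHom_surjective hs, ?_, ?_⟩
  · rw [← card_ker hS]
    exact Nat.card_congr (Equiv.subtypeEquivRight (fun g => mem_ker_famHom.symm))
  · have hxS' : S = (⟨x, hx⟩ : ↥M24) • S0 := hxS.symm
    exact exists_normal_sq_of_equiv (MulAction.stabilizerEquivStabilizer hxS').symm N0 N0_normal
      64 card_N0 N0_sq

end Cfsg.Agent.S1551
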