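import Cfsg.Statements.S5425
import Cfsg.Agent.Lib.Helper95.OctInvGrp
import Cfsg.Agent.Lib.Helper95.OctInvChk
import Cfsg.Agent.Lib.Helper95.GL32Core
import Cfsg.Agent.Lib.Helper95.TrioStab
import Cfsg.Agent.Lib.Helper96.M24Invol

set_option autoImplicit false
open Cfsg

namespace Cfsg.Agent.S5425

open scoped Pointwise
open Cfsg.Agent.Lib.Helper9 Cfsg.Agent.Lib.Helper95 Cfsg.Agent.Lib.Helper94

/-- The normal subgroup of order 128, as a group of permutations. -/
abbrev qSub : Subgroup (Equiv.Perm GolayPt) := spanSubgroup2 oqGens oqL oq_span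

/-- The centraliser of the base involution, as a group of permutations. -/
abbrev cz : Subgroup (Equiv.Perm GolayPt) := M24 ⊓ Subgroup.centralizer {tperm ozT}

theorem oz_perm : permOK ozT = true := oz_ok.1

theorem z0_mem : tperm ozT ∈ M24 := tperm_mem_M24 oz_ok.1 oz_ok.2.1

theorem z0_sq : tperm ozT * tperm ozT = 1 := by
  rw [tperm_mul oz_perm oz_perm, oz_ok.2.2.1, tperm_idT]

theorem z0_ne : tperm ozT ≠ 1 := fun h =>
  oz_ok.2.2.2.1 (tperm_inj oz_perm permOK_idT (h.trans tperm_idT.symm))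

theorem mem_cent {g : Equiv.Perm GolayPt} :
    g ∈ Subgroup.centralizer ({tperm ozT} : Set (Equiv.Perm GolayPt)) ↔
      g * tperm ozT = tperm ozT * g := by
  rw [Subgroup.mem_centralizer_iff]
  constructor
  · intro h
    exact (h _ rfl).symm
  · intro h y hy
    rw [Set.mem_singleton_iff.mp hy]
    exact h.symm

theorem q_perm {S : List ℕ} (hS : S ∈ oqL) : permOK S = true := spanOK2_perm oq_span hS

theorem gens_spec {g : List ℕ} (hg : g ∈ oqGens) :
    permOK g = true ∧ tableOK g = true ∧ compT g ozT = compT ozT g ∧ g ∈ oqL := by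
  have h := List.all_eq_true.mp oq_gens_ok g hg
  simp only [Bool.and_eq_true, beq_iff_eq, List.contains_iff_mem] at h
  exact ⟨q_perm h.2, h.1.1, h.1.2, h.2⟩

theorem q_mem_cz {S : List ℕ} (hS : S ∈ oqL) : tperm S ∈ cz :=
  spanOK2_induction oq_span (P := fun x => x ∈ cz) cz.one_mem (fun _ _ => cz.mul_mem)
    (fun g hg => by
      obtain ⟨hp, hok, hc, -⟩ := gens_spec hg
      refine ⟨tperm_mem_M24 hp hok, mem_cent.mpr ?_⟩
      rw [tperm_mul hp oz_perm, tperm_mul oz_perm hp, hc]) hS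

theorem qSub_le : qSub ≤ cz := by
  rintro _ ⟨S, hS, rfl⟩
  exact q_mem_cz hS

theorem card_qSub : Nat.card ↥qSub = 128 := by
  rw [card_spanSubgroup2 oqGens oqL oq_span oq_nodup]
  exact oq_length

theorem gl_table : GL3Table oGl :=
  ⟨fun k hk => List.all_eq_true.mp ogl_perm k hk, ogl_one, fun k hk => by
    have h := List.all_eq_true.mp ogl_mulgen k hk
    rw [Bool.and_eq_true, beq_iff_eq, beq_iff_eq] at h
    exact h⟩

theorem gen_mem : glGen1 ∈ glKeys ∧ glGen2 ∈ glKeys := ⟨glInv_ok.2.2.1, glInv_ok.2.2.2.1⟩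

theorem gl_perm' (M : GL (Fin 3) (ZMod 2)) : permOK (gl3Tab oGl (gl3Key M)) = true :=
  gl_table.ok _ (gl3Key_mem M)

theorem gen_cz {k : ℕ} (hk : k ∈ glKeys) (hk' : k ∈ [glGen1, glGen2]) :
    tperm (gl3Tab oGl k) ∈ cz := by
  have h := List.all_eq_true.mp ogl_gen_ok k hk'
  simp only [Bool.and_eq_true, beq_iff_eq] at h
  have hp := gl_table.ok _ hk
  refine ⟨tperm_mem_M24 hp h.1, mem_cent.mpr ?_⟩
  rw [tperm_mul hp oz_perm, tperm_mul oz_perm hp, h.2]

theorem gl_mem (M : GL (Fin 3) (ZMod 2)) : gl3Hom oGl gl_table M ∈ cz :=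
  gl3Hom_mem gl_table cz.toSubmonoid (gen_cz gen_mem.1 (by simp)) (gen_cz gen_mem.2 (by simp)) M

theorem gl_eq_one {M : GL (Fin 3) (ZMod 2)} (hm : gl3Hom oGl gl_table M ∈ qSub) : M = 1 := by
  rw [gl3Hom_apply] at hm
  obtain ⟨S, hS, he⟩ := hm
  have h2 := tperm_inj (gl_perm' M) (q_perm hS) he
  have h3 : oqL.contains (gl3Tab oGl (gl3Key M)) = true := by
    rw [List.contains_iff_mem, h2]
    exact hS
  have h4 := List.all_eq_true.mp ogl_inj _ (gl3Key_mem M)
  rw [h3] at h4
  simp only [Bool.not_true, Bool.or_false, beq_iff_eq] at h4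
  exact gl3_eq_one h4

theorem fix_z0 : (Finset.univ.filter fun p => tperm ozT p = p) = support₂ (dec 8536111) := by
  ext p
  rw [Finset.mem_filter, mem_support₂_dec,
    Cfsg.Agent.Lib.Helper96.apply_eq_iff_of_table (hasTable_tperm oz_perm),
    oz_fix _ (idx_lt p)]
  simp

theorem cz_le : cz ≤ octStab0 := by
  rintro g ⟨hg, hc⟩
  refine ⟨hg, ?_⟩
  show g • support₂ (dec 8536111) = support₂ (dec 8536111)
  have hcomm : ∀ p, tperm ozT (g p) = g (tperm ozT p) := by
    intro p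
    have h1 := congrArg (fun f : Equiv.Perm GolayPt => f p) (mem_cent.mp hc)
    simp only [Equiv.Perm.mul_apply] at h1
    exact h1.symm
  refine Finset.eq_of_subset_of_card_le ?_ (by rw [Finset.card_smul_finset])
  intro q hq
  obtain ⟨p, hp, rfl⟩ := Finset.mem_smul_finset.mp hq
  rw [← fix_z0, Finset.mem_filter] at hp ⊢
  refine ⟨Finset.mem_univ _, ?_⟩
  show tperm ozT (g p) = g p
  rw [hcomm, hp.2]

theorem tr_mem (i : Fin oTr.length) :
    permOK (oTr.get i) = true ∧ tperm (oTr.get i) ∈ octStab0 := by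
  have h := List.all_eq_true.mp otr_ok _ (List.get_mem oTr i)
  simp only [Bool.and_eq_true, beq_iff_eq] at h
  obtain ⟨⟨hp, hok⟩, hpush⟩ := h
  refine ⟨hp, tperm_mem_M24 hp hok, ?_⟩
  show tperm (oTr.get i) • support₂ (dec 8536111) = support₂ (dec 8536111)
  rw [smul_support₂_dec (hasTable_tperm hp), hpush]

theorem card_cz_le : Nat.card ↥cz ≤ 21504 := by
  let Φ : Fin oTr.length × ↥cz → ↥octStab0 := fun p =>
    ⟨tperm (oTr.get p.1) * p.2.1, octStab0.mul_mem (tr_mem p.1).2 (cz_le p.2.2)⟩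
  have hc : ∀ c : ↥cz, c.1 * tperm ozT * c.1⁻¹ = tperm ozT := by
    intro c
    rw [mem_cent.mp c.2.2, mul_inv_cancel_right]
  have hinj : Function.Injective Φ := by
    rintro ⟨i, c⟩ ⟨j, c'⟩ h
    have h1 : tperm (oTr.get i) * c.1 = tperm (oTr.get j) * c'.1 := congrArg Subtype.val h
    have h2 : tperm (oTr.get i) * tperm ozT * (tperm (oTr.get i))⁻¹ =
        tperm (oTr.get j) * tperm ozT * (tperm (oTr.get j))⁻¹ := by
      have e1 : tperm (oTr.get i) * tperm ozT * (tperm (oTr.get i))⁻¹ =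
          (tperm (oTr.get i) * c.1) * tperm ozT * (tperm (oTr.get i) * c.1)⁻¹ := by
        have e : (tperm (oTr.get i) * c.1) * tperm ozT * (tperm (oTr.get i) * c.1)⁻¹ =
            tperm (oTr.get i) * (c.1 * tperm ozT * c.1⁻¹) * (tperm (oTr.get i))⁻¹ := by group
        rw [e, hc c]
      have e2 : tperm (oTr.get j) * tperm ozT * (tperm (oTr.get j))⁻¹ =
          (tperm (oTr.get j) * c'.1) * tperm ozT * (tperm (oTr.get j) * c'.1)⁻¹ := by
        have e : (tperm (oTr.get j) * c'.1) * tperm ozT * (tperm (oTr.get j) * c'.1)⁻¹ =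
            tperm (oTr.get j) * (c'.1 * tperm ozT * c'.1⁻¹) * (tperm (oTr.get j))⁻¹ := by group
        rw [e, hc c']
      rw [e1, e2, h1]
    have hpi := (tr_mem i).1
    have hpj := (tr_mem j).1
    have h3 : compT (compT (oTr.get i) ozT) (invT (oTr.get i)) =
        compT (compT (oTr.get j) ozT) (invT (oTr.get j)) := by
      apply tperm_inj (permOK_compT (permOK_compT hpi oz_perm) (permOK_invT hpi))
        (permOK_compT (permOK_compT hpj oz_perm) (permOK_invT hpj))
      rw [← tperm_mul (permOK_compT hpi oz_perm) (permOK_invT hpi), ← tperm_mul hpi oz_perm,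
        ← tperm_inv hpi, ← tperm_mul (permOK_compT hpj oz_perm) (permOK_invT hpj),
        ← tperm_mul hpj oz_perm, ← tperm_inv hpj]
      exact h2
    have hij : i = j := by
      have hi' : i.1 < (oTr.map (fun T => compT (compT T ozT) (invT T))).length := by
        rw [List.length_map]
        exact i.2
      have hj' : j.1 < (oTr.map (fun T => compT (compT T ozT) (invT T))).length := by
        rw [List.length_map]
        exact j.2
      have e : (oTr.map (fun T => compT (compT T ozT) (invT T)))[i.1]'hi' =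
          (oTr.map (fun T => compT (compT T ozT) (invT T)))[j.1]'hj' := by
        rw [List.getElem_map, List.getElem_map]
        exact h3
      exact Fin.ext ((List.Nodup.getElem_inj_iff otr_nodup).mp e)
    subst hij
    have h5 : c.1 = c'.1 := mul_left_cancel h1
    rw [Subtype.ext h5]
  have h5 := Nat.card_le_card_of_injective Φ hinj
  rw [Nat.card_prod, Nat.card_fin, card_octStab0, otr_length] at h5
  omega

/-- Every element of the centraliser is a product of an element of the normal subgroup and an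
element of the complement. -/
theorem mu_bijective : Function.Bijective (fun p : ↥qSub × GL (Fin 3) (ZMod 2) =>
    ((⟨p.1.1 * gl3Hom oGl gl_table p.2, cz.mul_mem (qSub_le p.1.2) (gl_mem p.2)⟩ : ↥cz))) := by
  have hinj : Function.Injective (fun p : ↥qSub × GL (Fin 3) (ZMod 2) =>
      ((⟨p.1.1 * gl3Hom oGl gl_table p.2, cz.mul_mem (qSub_le p.1.2) (gl_mem p.2)⟩ : ↥cz))) := by
    rintro ⟨n, M⟩ ⟨n', M'⟩ heq
    have h1 : n.1 * gl3Hom oGl gl_table M = n'.1 * gl3Hom oGl gl_table M' :=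
      congrArg Subtype.val heq
    have h2 : gl3Hom oGl gl_table (M * M'⁻¹) ∈ qSub := by
      have e : gl3Hom oGl gl_table (M * M'⁻¹) = n.1⁻¹ * n'.1 := by
        rw [map_mul, map_inv, eq_inv_mul_iff_mul_eq, ← mul_assoc, h1, mul_assoc, mul_inv_cancel,
          mul_one]
      rw [e]
      exact qSub.mul_mem (qSub.inv_mem n.2) n'.2
    have h3 := gl_eq_one h2
    have h4 : M = M' := by
      rw [mul_inv_eq_one] at h3
      exact h3
    subst h4
    have h5 : n.1 = n'.1 := mul_right_cancel h1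
    rw [Subtype.ext h5]
  refine hinj.bijective_of_nat_card_le ?_
  rw [Nat.card_prod, card_qSub, card_GL32]
  exact card_cz_le

theorem gl_conj (M : GL (Fin 3) (ZMod 2)) : gl3Hom oGl gl_table M ∈ conjSubmonoid qSub :=
  gl3Hom_mem gl_table (conjSubmonoid qSub)
    (conj_mem_of_gens2 (gl_table.ok _ gen_mem.1) ogl_conj.1)
    (conj_mem_of_gens2 (gl_table.ok _ gen_mem.2) ogl_conj.2) M

/-- The base involution, in the group of the code. -/
noncomputable def zG : ↥M24 := ⟨tperm ozT, z0_mem⟩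

/-- The normal subgroup of order 128, in the group of the code. -/
abbrev qG : Subgroup ↥M24 := qSub.subgroupOf M24

/-- The complement, in the group of the code. -/
noncomputable def psi : GL (Fin 3) (ZMod 2) →* ↥M24 :=
  (gl3Hom oGl gl_table).codRestrict M24 (fun M => (gl_mem M).1)

theorem psi_val (M : GL (Fin 3) (ZMod 2)) :
    ((psi M : ↥M24) : Equiv.Perm GolayPt) = gl3Hom oGl gl_table M := rfl

theorem q_mem_M24 {S : List ℕ} (hS : S ∈ oqL) : tperm S ∈ M24 := (q_mem_cz hS).1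

theorem hex : ExtraAt qG zG := by
  refine extraAt_of_sq (Subgroup.mem_subgroupOf.mpr ⟨ozT, oz_ok.2.2.2.2, rfl⟩)
    (fun h => z0_ne (congrArg Subtype.val h)) (Subtype.ext z0_sq) ?_ ?_ ?_
  · rintro ⟨u, hu⟩ hq
    apply Subtype.ext
    show u * tperm ozT = tperm ozT * u
    exact mem_cent.mp (qSub_le (Subgroup.mem_subgroupOf.mp hq)).2
  · rintro ⟨u, hu⟩ hq hcomm
    obtain ⟨S, hS, rfl⟩ := Subgroup.mem_subgroupOf.mp hq
    have h := List.all_eq_true.mp oq_center S hS
    simp only [Bool.or_eq_true, beq_iff_eq, List.any_eq_true, bne_iff_ne, ne_eq] at h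
    rcases h with (h | h) | ⟨g, hg, hne⟩
    · left
      apply Subtype.ext
      show tperm S = 1
      rw [h, tperm_idT]
    · right
      apply Subtype.ext
      show tperm S = tperm ozT
      rw [h]
    · exfalso
      obtain ⟨hp, -, -, hgL⟩ := gens_spec hg
      have h1 := hcomm ⟨tperm g, q_mem_M24 hgL⟩ (Subgroup.mem_subgroupOf.mpr ⟨g, hgL, rfl⟩)
      have h2 : tperm S * tperm g = tperm g * tperm S := congrArg Subtype.val h1
      rw [tperm_mul (q_perm hS) hp, tperm_mul hp (q_perm hS)] at h2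
      exact hne (tperm_inj (permOK_compT (q_perm hS) hp) (permOK_compT hp (q_perm hS)) h2)
  · rintro ⟨u, hu⟩ hq
    obtain ⟨S, hS, rfl⟩ := Subgroup.mem_subgroupOf.mp hq
    have h := List.all_eq_true.mp oq_sq S hS
    simp only [Bool.or_eq_true, beq_iff_eq] at h
    rcases h with h | h
    · left
      apply Subtype.ext
      show tperm S * tperm S = 1
      rw [tperm_mul (q_perm hS) (q_perm hS), h, tperm_idT]
    · right
      apply Subtype.ext
      show tperm S * tperm S = tperm ozT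
      rw [tperm_mul (q_perm hS) (q_perm hS), h]

theorem hna : ∃ a ∈ qG, ∃ b ∈ qG, a * b ≠ b * a := by
  have h := oq_na
  simp only [Bool.and_eq_true, List.contains_iff_mem, bne_iff_ne, ne_eq] at h
  obtain ⟨⟨⟨⟨h0, h1⟩, -⟩, -⟩, hne⟩ := h
  refine ⟨⟨_, q_mem_M24 h0⟩, Subgroup.mem_subgroupOf.mpr ⟨_, h0, rfl⟩,
    ⟨_, q_mem_M24 h1⟩, Subgroup.mem_subgroupOf.mpr ⟨_, h1, rfl⟩, ?_⟩
  intro e
  have e2 : tperm (oqGens.getD 0 idT) * tperm (oqGens.getD 1 idT) =
      tperm (oqGens.getD 1 idT) * tperm (oqGens.getD 0 idT) := congrArg Subtype.val e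
  rw [tperm_mul (q_perm h0) (q_perm h1), tperm_mul (q_perm h1) (q_perm h0)] at e2
  exact hne (tperm_inj (permOK_compT (q_perm h0) (q_perm h1))
    (permOK_compT (q_perm h1) (q_perm h0)) e2)

theorem hcard : Nat.card ↥qG = 2 ^ 7 := by
  rw [Nat.card_congr (Subgroup.subgroupOfEquivOfLe (qSub_le.trans inf_le_left)).toEquiv,
    card_qSub]
  norm_num

theorem hpsiz (l : GL (Fin 3) (ZMod 2)) : psi l * zG = zG * psi l := by
  apply Subtype.ext
  show gl3Hom oGl gl_table l * tperm ozT = tperm ozT * gl3Hom oGl gl_table l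
  exact mem_cent.mp (gl_mem l).2

theorem hsurj (c : ↥M24) (h : c * zG = zG * c) : ∃ q ∈ qG, ∃ l, c = q * psi l := by
  have hc : c.1 ∈ cz := ⟨c.2, mem_cent.mpr (congrArg Subtype.val h)⟩
  obtain ⟨⟨n, M⟩, hp⟩ := mu_bijective.2 ⟨c.1, hc⟩
  have e : n.1 * gl3Hom oGl gl_table M = c.1 := congrArg Subtype.val hp
  exact ⟨⟨n.1, (qSub_le n.2).1⟩, Subgroup.mem_subgroupOf.mpr n.2, M, Subtype.ext e.symm⟩

theorem hker (l : GL (Fin 3) (ZMod 2)) (h : psi l ∈ qG) : l = 1 :=
  gl_eq_one (Subgroup.mem_subgroupOf.mp h)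

theorem hnorm (l : GL (Fin 3) (ZMod 2)) (q : ↥M24) (hq : q ∈ qG) :
    psi l * q * (psi l)⁻¹ ∈ qG :=
  Subgroup.mem_subgroupOf.mpr (gl_conj l q.1 (Subgroup.mem_subgroupOf.mp hq))

theorem hfaith (l : GL (Fin 3) (ZMod 2))
    (h : ∀ v ∈ qG, psi l * v * (psi l)⁻¹ = v ∨ psi l * v * (psi l)⁻¹ = zG * v) : l = 1 := by
  by_contra hl
  have hk : gl3Key l ≠ 273 := fun e => hl (gl3_eq_one e)
  have h1 := List.all_eq_true.mp ogl_faith _ (gl3Key_mem l)
  simp only [Bool.or_eq_true, beq_iff_eq, List.any_eq_true, Bool.and_eq_true, bne_iff_ne,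
    ne_eq] at h1
  rcases h1 with h1 | ⟨g, hg, hne1, hne2⟩
  · exact hk h1
  obtain ⟨hp, -, -, hgL⟩ := gens_spec hg
  have hT := gl_perm' l
  have e : gl3Hom oGl gl_table l * tperm g * (gl3Hom oGl gl_table l)⁻¹ =
      tperm (compT (compT (gl3Tab oGl (gl3Key l)) g) (invT (gl3Tab oGl (gl3Key l)))) := by
    rw [gl3Hom_apply, tperm_inv hT, tperm_mul hT hp, tperm_mul (permOK_compT hT hp)
      (permOK_invT hT)]
  have hpc := permOK_compT (permOK_compT hT hp) (permOK_invT hT)
  rcases h ⟨tperm g, q_mem_M24 hgL⟩ (Subgroup.mem_subgroupOf.mpr ⟨g, hgL, rfl⟩) with h2 | h2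
  · have h3 : gl3Hom oGl gl_table l * tperm g * (gl3Hom oGl gl_table l)⁻¹ = tperm g :=
      congrArg Subtype.val h2
    rw [e] at h3
    exact hne1 (tperm_inj hpc hp h3)
  · have h3 : gl3Hom oGl gl_table l * tperm g * (gl3Hom oGl gl_table l)⁻¹ =
        tperm ozT * tperm g := congrArg Subtype.val h2
    rw [e, tperm_mul oz_perm hp] at h3
    exact hne2 (tperm_inj hpc (permOK_compT oz_perm hp) h3)

/-- The pointwise stabiliser of the base octad, as a group of permutations. -/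
abbrev eSub : Subgroup (Equiv.Perm GolayPt) := spanSubgroup oeGens oeL oe_span

theorem eSub_le : eSub ≤ qSub := by
  rintro _ ⟨S, hS, rfl⟩
  have h := List.all_eq_true.mp oe_sub S hS
  rw [List.contains_iff_mem] at h
  exact ⟨S, h, rfl⟩

/-- The pointwise stabiliser of the base octad, in the group of the code. -/
abbrev eG : Subgroup ↥M24 := eSub.subgroupOf M24

theorem eG_le : eG ≤ qG := fun _ hx =>
  Subgroup.mem_subgroupOf.mpr (eSub_le (Subgroup.mem_subgroupOf.mp hx))

theorem eG_sq (a : ↥M24) (ha : a ∈ eG) : a * a = 1 :=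
  Subtype.ext (spanSubgroup_sq (Subgroup.mem_subgroupOf.mp ha))

theorem eG_elem : IsElementaryAbelian 2 eG := by
  refine ⟨⟨⟨?_⟩⟩, fun a ha => by rw [pow_two]; exact eG_sq a ha⟩
  rintro ⟨a, ha⟩ ⟨b, hb⟩
  apply Subtype.ext
  show a * b = b * a
  calc a * b = (a * b)⁻¹ := (inv_eq_of_mul_eq_one_left (eG_sq _ (eG.mul_mem ha hb))).symm
    _ = b⁻¹ * a⁻¹ := mul_inv_rev a b
    _ = b * a := by
      rw [inv_eq_of_mul_eq_one_left (eG_sq b hb), inv_eq_of_mul_eq_one_left (eG_sq a ha)]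

theorem eG_card : Nat.card ↥eG = 2 ^ 4 := by
  rw [Nat.card_congr (Subgroup.subgroupOfEquivOfLe
    ((eSub_le.trans qSub_le).trans inf_le_left)).toEquiv,
    card_spanSubgroup oeGens oeL oe_span oe_nodup, oe_length]
  norm_num

theorem ob_spec : permOK ohT = true ∧ tableOK ohT = true ∧ permOK obT = true ∧
    tableOK obT = true ∧ obT ∈ oqL ∧ compT obT obT = idT ∧ obT ≠ idT ∧ obT ≠ ozT ∧
    compT (compT ohT ozT) (invT ohT) = obT ∧ compT (compT ohT obT) (invT ohT) = ozT := by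
  have h := ob_ok
  simp only [Bool.and_eq_true, beq_iff_eq, List.contains_iff_mem, bne_iff_ne, ne_eq] at h
  obtain ⟨⟨⟨⟨⟨⟨⟨⟨⟨h1, h2⟩, h3⟩, h4⟩, h5⟩, h6⟩, h7⟩, h8⟩, h9⟩, h10⟩ := h
  exact ⟨h1, h2, h3, h4, h5, h6, h7, h8, h9, h10⟩

/-- The conjugate of the base involution in the normal subgroup. -/
noncomputable def bG : ↥M24 := ⟨tperm obT, tperm_mem_M24 ob_spec.2.2.1 ob_spec.2.2.2.1⟩

/-- The element swapping the base involution with its conjugate. -/
noncomputable def hG : ↥M24 := ⟨tperm ohT, tperm_mem_M24 ob_spec.1 ob_spec.2.1⟩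

theorem conj_tab {T S U : List ℕ} (hT : permOK T = true) (hS : permOK S = true)
    (h : compT (compT T S) (invT T) = U) : tperm T * tperm S * (tperm T)⁻¹ = tperm U := by
  rw [tperm_inv hT, tperm_mul hT hS, tperm_mul (permOK_compT hT hS) (permOK_invT hT), h]

/-- The structure of the centraliser of the base involution. -/
theorem base : InvolConcl zG := by
  obtain ⟨h1, h2, h3, h4, h5, h6, h7, h8, h9, h10⟩ := ob_spec
  refine involConcl_of_data zG qG psi hex hna hcard hpsiz hsurj hker hnorm gl3_no_normal_two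
    hfaith eG eG_le eG_elem eG_card bG hG (Subgroup.mem_subgroupOf.mpr ⟨obT, h5, rfl⟩)
    ?_ ?_ ?_ ?_ ?_ sl3EquivGL3.symm
  · intro e
    exact h7 (tperm_inj h3 permOK_idT ((congrArg Subtype.val e).trans tperm_idT.symm))
  · intro e
    exact h8 (tperm_inj h3 oz_perm (congrArg Subtype.val e))
  · apply Subtype.ext
    show tperm obT * tperm obT = 1
    rw [tperm_mul h3 h3, h6, tperm_idT]
  · apply Subtype.ext
    exact conj_tab h1 oz_perm h9
  · apply Subtype.ext
    exact conj_tab h1 h3 h10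

theorem orderOf_z0 : orderOf (tperm ozT) = 2 :=
  haveI : Fact (Nat.Prime 2) := ⟨Nat.prime_two⟩
  orderOf_eq_prime (by rw [pow_two]; exact z0_sq) z0_ne

theorem exists_fixed {g : Equiv.Perm GolayPt}
    (h : (Finset.univ.filter fun p => g p = p) ∈ octads) : ∃ p, g p = p := by
  have hc := card_octad h
  have hne : (Finset.univ.filter fun p => g p = p).Nonempty := by
    rw [← Finset.card_pos, hc]
    norm_num
  obtain ⟨p, hp⟩ := hne
  exact ⟨p, (Finset.mem_filter.mp hp).2⟩

theorem conj_sA {g : Equiv.Perm GolayPt} (hg : g ∈ M24) (h2 : orderOf g = 2)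
    (h : (Finset.univ.filter fun p => g p = p) ∈ octads) :
    ∃ k ∈ M24, k * g * k⁻¹ = Cfsg.Agent.Lib.Helper96.sA := by
  rcases Cfsg.Agent.Lib.Helper96.invol_conj hg h2 with hk | ⟨k, -, hk⟩
  · exact hk
  · exfalso
    obtain ⟨p, hp⟩ := exists_fixed h
    exact Cfsg.Agent.Lib.Helper96.fpf_of_conj_sB hk p hp

theorem exists_conj (z : ↥M24) (hz : orderOf z = 2)
    (hfix : (Finset.univ.filter fun p : GolayPt => (z : Equiv.Perm GolayPt) p = p) ∈ octads) :
    ∃ g : ↥M24, z = g * zG * g⁻¹ := by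
  have h2 : orderOf (z : Equiv.Perm GolayPt) = 2 := by
    rw [Subgroup.orderOf_coe]
    exact hz
  obtain ⟨k, hk, e1⟩ := conj_sA z.2 h2 hfix
  obtain ⟨k0, hk0, e0⟩ := conj_sA z0_mem orderOf_z0 (by rw [fix_z0]; exact B1_mem_octads)
  refine ⟨⟨k⁻¹ * k0, M24.mul_mem (M24.inv_mem hk) hk0⟩, ?_⟩
  apply Subtype.ext
  show (z : Equiv.Perm GolayPt) = k⁻¹ * k0 * tperm ozT * (k⁻¹ * k0)⁻¹
  have e : k⁻¹ * k0 * tperm ozT * (k⁻¹ * k0)⁻¹ = k⁻¹ * (k0 * tperm ozT * k0⁻¹) * k := by group
  rw [e, e0, ← e1]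
  group

/-- In the Mathieu group of degree 24 (the automorphism group of the length-24 binary Golay code, acting on the 24 coordinates), let z be an involution whose fixed points form an octad (the support of a code word of weight 8), and let Q be the largest normal 2-subgroup of the centralizer C of z. Then Q is extraspecial of order 2^7 with an elementary abelian subgroup of order 16 (plus type), Q is a large extraspecial 2-subgroup, and C is the split extension of Q by the special linear group of degree 3 over the field with two elements. -/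
theorem result (z : ↥Cfsg.M24) (hz : orderOf z = 2) (hfix : (Finset.univ.filter fun p : Cfsg.GolayPt => (z : Equiv.Perm Cfsg.GolayPt) p = p) ∈ Cfsg.octads) (Q : Subgroup ↥Cfsg.M24) (hQ : Q = (Cfsg.pCore 2 ↥(Subgroup.centralizer ({z} : Set ↥Cfsg.M24))).map (Subgroup.centralizer ({z} : Set ↥Cfsg.M24)).subtype) : Cfsg.IsExtraspecial 2 ↥Q ∧ Nat.card ↥Q = 2 ^ 7 ∧ (∃ E : Subgroup ↥Cfsg.M24, E ≤ Q ∧ Cfsg.IsElementaryAbelian 2 E ∧ Nat.card ↥E = 2 ^ 4) ∧ Cfsg.IsLargeExtraspecial Q ∧ ∃ K : Subgroup ↥Cfsg.M24, K ≤ Subgroup.centralizer ({z} : Set ↥Cfsg.M24) ∧ Q ⊓ K = ⊥ ∧ Q ⊔ K = Subgroup.centralizer ({z} : Set ↥Cfsg.M24) ∧ Nonempty (↥K ≃* Matrix.SpecialLinearGroup (Fin 3) (ZMod 2)) := by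
  obtain ⟨g, rfl⟩ := exists_conj z hz hfix
  subst hQ
  exact involConcl_conj base g

end Cfsg.Agent.S5425
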