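import Cfsg.Statements.S0290
import Mathlib
import Cfsg.Agent.Lib.Helper7.QuadCount

set_option autoImplicit false
open Cfsg

namespace Cfsg.Agent.S0290

open Cfsg.Agent.Lib.Helper7

/-- The minus-type quadratic form on F^(2m), m at least 1, has q^(2m-1) + q^(m-1) - q^m zeros (that is, (q^m + 1)(q^(m-1) - 1) non-zero isotropic vectors). -/
theorem result {F : Type*} [Field F] [Fintype F] {q : ℕ} (hF : Fintype.card F = q) (m : ℕ) (hm : 1 ≤ m) (a b : F) (hab : ∀ z₁ z₂ : F, z₁ ^ 2 + a * z₁ * z₂ + b * z₂ ^ 2 = 0 → z₁ = 0 ∧ z₂ = 0) : Nat.card {v : (Fin (m - 1) ⊕ Fin (m - 1)) ⊕ Fin 2 → F // Cfsg.quadFormMinus (m - 1) F a b v = 0} = q ^ (2 * m - 1) + q ^ (m - 1) - q ^ m := by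
  classical
  obtain ⟨k, rfl⟩ : ∃ k, m = k + 1 := ⟨m - 1, by omega⟩
  show Nat.card {v : (Fin k ⊕ Fin k) ⊕ Fin 2 → F // Cfsg.quadFormMinus k F a b v = 0} =
    q ^ (2 * (k + 1) - 1) + q ^ k - q ^ (k + 1)
  let R : (Fin 2 → F) → F := fun w => w 0 ^ 2 + a * w 0 * w 1 + b * w 1 ^ 2
  let e : ((Fin k ⊕ Fin k) ⊕ Fin 2 → F) ≃ (Fin k → F) × (Fin 2 → F) × (Fin k → F) :=
    { toFun := fun v => (fun i => v (Sum.inl (Sum.inl i)), fun j => v (Sum.inr j),
        fun i => v (Sum.inl (Sum.inr i)))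
      invFun := fun p => Sum.elim (Sum.elim p.1 p.2.2) p.2.1
      left_inv := by intro v; ext ((i | i) | i) <;> rfl
      right_inv := by intro p; rfl }
  have hcongr : Nat.card {v : (Fin k ⊕ Fin k) ⊕ Fin 2 → F // Cfsg.quadFormMinus k F a b v = 0} =
      Nat.card {p : (Fin k → F) × (Fin 2 → F) × (Fin k → F) //
        ∑ i, p.1 i * p.2.2 i + R p.2.1 = 0} := by
    apply Nat.card_congr
    refine e.subtypeEquiv ?_
    intro v
    rfl
  rw [hcongr, card_hyperbolic_add k R, hF]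
  have hz : Nat.card {w : Fin 2 → F // R w = 0} = 1 := by
    rw [Nat.card_eq_one_iff_unique]
    refine ⟨⟨?_⟩, ⟨⟨0, by simp [R]⟩⟩⟩
    rintro ⟨w, hw⟩ ⟨w', hw'⟩
    obtain ⟨h0, h1⟩ := hab (w 0) (w 1) hw
    obtain ⟨h0', h1'⟩ := hab (w' 0) (w' 1) hw'
    apply Subtype.ext
    ext j
    fin_cases j
    · simp [h0, h0']
    · simp [h1, h1']
  rw [hz]
  have hq : 1 ≤ q := by rw [← hF]; exact Fintype.card_pos
  have h1 : 1 ≤ q ^ k := Nat.one_le_pow _ _ hq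
  have hW : Fintype.card (Fin 2 → F) = q ^ 2 := by
    rw [Fintype.card_fun, Fintype.card_fin, hF]
  rw [hW, mul_one]
  rcases Nat.eq_zero_or_pos k with rfl | hk
  · simp
  · have h2 : q ^ (k - 1) * q ^ 2 = q ^ (k + 1) := by
      rw [← pow_add]; congr 1; omega
    have h3 : q ^ k * q ^ (k + 1) = q ^ (2 * (k + 1) - 1) := by
      rw [← pow_add]; congr 1; omega
    rw [h2, Nat.sub_mul, one_mul, h3]
    have h4 : q ^ (k + 1) ≤ q ^ (2 * (k + 1) - 1) := Nat.pow_le_pow_right hq (by omega)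
    omega

end Cfsg.Agent.S0290
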