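import Cfsg.Statements.S2619
import Mathlib

set_option autoImplicit false
open Cfsg

namespace Cfsg.Agent.S2619

theorem result {F V ι : Type*} [Field F] [Finite F] [CharP F 2] [AddCommGroup V] [Module F V] [Fintype ι] (b : Module.Basis ι F V) (B : LinearMap.BilinForm F V) (hB : B.IsAlt) (c : ι → F) : ∃! Q : QuadraticForm F V, QuadraticMap.polarBilin Q = B ∧ ∀ i, Q (b i) = c i := by
  classical
  -- uniqueness
  have huniq : ∀ Q₁ Q₂ : QuadraticForm F V,
      (QuadraticMap.polarBilin Q₁ = B ∧ ∀ i, Q₁ (b i) = c i) →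
      (QuadraticMap.polarBilin Q₂ = B ∧ ∀ i, Q₂ (b i) = c i) → Q₁ = Q₂ := by
    rintro Q₁ Q₂ ⟨hp1, hv1⟩ ⟨hp2, hv2⟩
    let D : V →+ F :=
      { toFun := fun x => Q₁ x - Q₂ x
        map_zero' := by simp
        map_add' := by
          intro x y
          have e1 : QuadraticMap.polar Q₁ x y = QuadraticMap.polar Q₂ x y := by
            have := congrArg (fun f : LinearMap.BilinForm F V => f x y) (hp1.trans hp2.symm)
            simpa using this
          show Q₁ (x + y) - Q₂ (x + y) = (Q₁ x - Q₂ x) + (Q₁ y - Q₂ y)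
          rw [QuadraticMap.map_add (⇑Q₁) x y, QuadraticMap.map_add (⇑Q₂) x y, e1]; ring }
    ext x
    have hx : D x = 0 := by
      rw [← b.sum_repr x, map_sum]
      apply Finset.sum_eq_zero
      intro i _
      show Q₁ _ - Q₂ _ = 0
      rw [QuadraticMap.map_smul, QuadraticMap.map_smul, hv1, hv2, sub_self]
    exact sub_eq_zero.1 hx
  obtain ⟨_⟩ : Nonempty (LinearOrder ι) :=
    ⟨LinearOrder.lift' (Fintype.equivFin ι) (Fintype.equivFin ι).injective⟩
  let M : Matrix ι ι F :=
    Matrix.of fun i j => if i < j then B (b i) (b j) else if i = j then c i else 0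
  let B' : LinearMap.BilinForm F V := Matrix.toBilin b M
  have hB' : ∀ i j, B' (b i) (b j) = M i j := by
    intro i j
    rw [← LinearMap.BilinForm.toMatrix_apply b B' i j, LinearMap.BilinForm.toMatrix_toBilin]
  have hsymm : ∀ x y, B x y = B y x := by
    intro x y
    rw [← LinearMap.BilinForm.IsAlt.neg_eq hB x y, CharTwo.neg_eq]
  have hex : QuadraticMap.polarBilin (LinearMap.BilinMap.toQuadraticMap B') = B ∧
      ∀ i, (LinearMap.BilinMap.toQuadraticMap B') (b i) = c i := by
    constructor
    · rw [LinearMap.BilinMap.polarBilin_toQuadraticMap]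
      apply LinearMap.BilinForm.ext_basis b
      intro i j
      simp only [LinearMap.add_apply, LinearMap.flip_apply, hB', M, Matrix.of_apply]
      rcases lt_trichotomy i j with h | h | h
      · simp [h, not_lt.2 h.le, h.ne']
      · subst h
        simp [CharTwo.add_self_eq_zero, hB (b i)]
      · simp [h, not_lt.2 h.le, h.ne', hsymm (b i) (b j)]
    · intro i
      simp [LinearMap.BilinMap.toQuadraticMap_apply, hB', M]
  exact ⟨LinearMap.BilinMap.toQuadraticMap B', hex, fun Q hQ => huniq _ _ hQ hex⟩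

end Cfsg.Agent.S2619
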