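import Cfsg.Statements.S0288
import Mathlib
import Cfsg.Agent.Lib.Helper7.GOMinusOrder

set_option autoImplicit false
open Cfsg

namespace Cfsg.Agent.S0288

/-- |GO^-_{2m}(q)| = 2 q^(m(m-1)) (q^m + 1) prod_{i=1}^{m-1} (q^(2i) - 1), m at least 1, all q; the form is quadFormMinus (m-1) with an anisotropic binary part. -/
theorem result {F : Type*} [Field F] [Fintype F] {q : ℕ} (hF : Fintype.card F = q) (m : ℕ) (hm : 1 ≤ m) (a b : F) (hab : ∀ z₁ z₂ : F, z₁ ^ 2 + a * z₁ * z₂ + b * z₂ ^ 2 = 0 → z₁ = 0 ∧ z₂ = 0) : Nat.card (Cfsg.isometryGroup F (Cfsg.quadFormMinus (m - 1) F a b)) = 2 * q ^ (m * (m - 1)) * (q ^ m + 1) * ∏ i ∈ Finset.range (m - 1), (q ^ (2 * (i + 1)) - 1) := by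
  obtain ⟨n, rfl⟩ : ∃ n, m = n + 1 := ⟨m - 1, by omega⟩
  exact Cfsg.Agent.Lib.Helper7.card_GOMinus hF n a b hab

end Cfsg.Agent.S0288
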