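import Cfsg.Statements.S0775
import Mathlib
import Cfsg.Agent.Lib.Helper18.Adapted
import Cfsg.Agent.S0245

set_option autoImplicit false
open Cfsg

namespace Cfsg.Agent.S0775

open Matrix Cfsg.Agent.Lib.Helper18

theorem card_eq_mul_of_fibers {α β : Type*} [Finite α] [Finite β] (f : α → β) (c : ℕ)
    (h : ∀ b, Nat.card {a // f a = b} = c) : Nat.card α = Nat.card β * c := by
  classical
  have := Fintype.ofFinite β
  rw [← Nat.card_congr (Equiv.sigmaFiberEquiv f), Nat.card_sigma]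
  simp [h, Nat.card_eq_fintype_card]

section
variable {F : Type*} [Field F]

/-- isotropic frames -/
def IsoFr (m k : ℕ) (x : Fin k → (Fin m ⊕ Fin m → F)) : Prop :=
  LinearIndependent F x ∧ ∀ i j, sympB (F := F) m (x i) (x j) = 0

theorem act_mul (m : ℕ) (g h : Matrix.symplecticGroup (Fin m) F) (v : Fin m ⊕ Fin m → F) :
    (g * h).1 *ᵥ v = g.1 *ᵥ (h.1 *ᵥ v) := by
  rw [Submonoid.coe_mul, Matrix.mulVec_mulVec]

theorem act_inv_act (m : ℕ) (g : Matrix.symplecticGroup (Fin m) F) (v : Fin m ⊕ Fin m → F) :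
    (g⁻¹).1 *ᵥ (g.1 *ᵥ v) = v := by
  rw [← act_mul, inv_mul_cancel]
  simp

theorem act_act_inv (m : ℕ) (g : Matrix.symplecticGroup (Fin m) F) (v : Fin m ⊕ Fin m → F) :
    g.1 *ᵥ ((g⁻¹).1 *ᵥ v) = v := by
  rw [← act_mul, mul_inv_cancel]
  simp

theorem li_act (m k : ℕ) (g : Matrix.symplecticGroup (Fin m) F) (x : Fin k → (Fin m ⊕ Fin m → F))
    (hx : LinearIndependent F x) : LinearIndependent F (fun i => g.1 *ᵥ x i) := by
  have h := hx.map' (Matrix.toLin' g.1) (by
    rw [LinearMap.ker_eq_bot]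
    intro v w hvw
    simp only [Matrix.toLin'_apply] at hvw
    have := congrArg (fun u => (g⁻¹).1 *ᵥ u) hvw
    simp only [act_inv_act] at this
    exact this)
  exact h

theorem isoFr_act (m k : ℕ) (g : Matrix.symplecticGroup (Fin m) F)
    (x : Fin k → (Fin m ⊕ Fin m → F)) (hx : IsoFr m k x) : IsoFr m k (fun i => g.1 *ᵥ x i) := by
  refine ⟨li_act m k g x hx.1, fun i j => ?_⟩
  have := symplectic_isometry m g.1 g.2 (x i) (x j)
  rw [Matrix.toLin'_apply, Matrix.toLin'_apply] at this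
  rw [this]
  exact hx.2 i j

theorem card_fibre [Fintype F] {q : ℕ} (hF : Fintype.card F = q) (m k : ℕ)
    (y : Fin k → (Fin m ⊕ Fin m → F)) (hy : IsoFr m k y) :
    Nat.card {x : {x : Fin (k+1) → (Fin m ⊕ Fin m → F) // IsoFr m (k+1) x} // Fin.tail x.1 = y}
      = q ^ (2 * m - k) - q ^ k := by
  classical
  obtain ⟨B, hBdef⟩ : ∃ B : LinearMap.BilinForm F (Fin m ⊕ Fin m → F), B = sympB (F := F) m :=
    ⟨_, rfl⟩
  have hBalt : B.IsAlt := by rw [hBdef]; exact sympB_isAlt m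
  have hBnd : B.Nondegenerate := by rw [hBdef]; exact sympB_nondegenerate m
  have hBanti : ∀ x y, B x y = 0 → B y x = 0 := by
    intro x y h; rw [← hBalt.neg_eq, h, neg_zero]
  obtain ⟨S, hS⟩ : ∃ S : Submodule F (Fin m ⊕ Fin m → F), S = Submodule.span F (Set.range y) :=
    ⟨_, rfl⟩
  obtain ⟨T, hT⟩ : ∃ T : Submodule F (Fin m ⊕ Fin m → F), T = B.orthogonal S := ⟨_, rfl⟩
  have hTmem : ∀ v, v ∈ T ↔ ∀ j, B (y j) v = 0 := by
    intro v
    rw [hT, LinearMap.BilinForm.mem_orthogonal_iff]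
    constructor
    · intro h j
      exact h _ (by rw [hS]; exact Submodule.subset_span (Set.mem_range_self j))
    · intro h n hn
      rw [hS] at hn
      induction hn using Submodule.span_induction with
      | mem x hx => obtain ⟨j, rfl⟩ := hx; exact h j
      | zero => simp
      | add x y _ _ hx hy =>
        rw [map_add, LinearMap.add_apply, hx, hy, add_zero]
      | smul a x _ hx =>
        rw [map_smul, LinearMap.smul_apply, hx, smul_zero]
  have hST : S ≤ T := by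
    intro v hv
    rw [hTmem]
    intro j
    rw [hS] at hv
    induction hv using Submodule.span_induction with
    | mem x hx => obtain ⟨i, rfl⟩ := hx; rw [hBdef]; exact hy.2 j i
    | zero => simp
    | add x y _ _ hx hy => rw [map_add, hx, hy, add_zero]
    | smul a x _ hx => rw [map_smul, hx, smul_zero]
  have e : Nat.card {x : {x : Fin (k+1) → (Fin m ⊕ Fin m → F) // IsoFr m (k+1) x} //
        Fin.tail x.1 = y} =
      Nat.card ((T : Set (Fin m ⊕ Fin m → F)) \ (S : Set (Fin m ⊕ Fin m → F)) : Set _) := by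
    refine Nat.card_congr ?_
    refine
    { toFun := fun x => ⟨x.1.1 0, ?_⟩
      invFun := fun v => ⟨⟨Fin.cons v.1 y, ?_⟩, Fin.tail_cons _ _⟩
      left_inv := ?_
      right_inv := ?_ }
    · obtain ⟨⟨x, hx⟩, hxy⟩ := x
      simp only at hxy ⊢
      refine ⟨?_, ?_⟩
      · rw [SetLike.mem_coe, hTmem]
        intro j
        rw [← hxy, hBdef]
        exact hx.2 _ _
      · rw [SetLike.mem_coe, hS, ← hxy]
        have h1 := hx.1
        rw [← Fin.cons_self_tail x, linearIndependent_finCons] at h1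
        exact h1.2
    · obtain ⟨v, hvT, hvS⟩ := v
      rw [SetLike.mem_coe] at hvT hvS
      refine ⟨?_, ?_⟩
      · rw [linearIndependent_finCons]
        refine ⟨hy.1, ?_⟩
        rw [← hS]; exact hvS
      · rw [hTmem] at hvT
        intro i j
        rw [← hBdef]
        refine Fin.cases ?_ (fun i' => ?_) i <;> refine Fin.cases ?_ (fun j' => ?_) j
        · simp only [Fin.cons_zero]; exact hBalt v
        · simp only [Fin.cons_zero, Fin.cons_succ]; exact hBanti _ _ (hvT j')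
        · simp only [Fin.cons_zero, Fin.cons_succ]; exact hvT i'
        · simp only [Fin.cons_succ]; rw [hBdef]; exact hy.2 i' j'
    · intro x
      obtain ⟨⟨x, hx⟩, hxy⟩ := x
      simp only at hxy
      refine Subtype.ext (Subtype.ext ?_)
      simp only
      rw [← hxy]
      exact Fin.cons_self_tail x
    · intro v
      refine Subtype.ext ?_
      simp only [Fin.cons_zero]
  rw [e, Nat.card_coe_set_eq, Set.ncard_sdiff (by exact_mod_cast hST), ← Nat.card_coe_set_eq,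
    ← Nat.card_coe_set_eq]
  have h1 : Nat.card (T : Set (Fin m ⊕ Fin m → F)) = q ^ (2 * m - k) := by
    rw [SetLike.coe_sort_coe, Module.natCard_eq_pow_finrank (K := F), Nat.card_eq_fintype_card, hF]
    congr 1
    have h2 := LinearMap.BilinForm.finrank_orthogonal hBnd S
    rw [← hT, Module.finrank_fintype_fun_eq_card, Fintype.card_sum, Fintype.card_fin] at h2
    rw [h2, hS, finrank_span_eq_card hy.1, Fintype.card_fin]
    omega
  have h3 : Nat.card (S : Set (Fin m ⊕ Fin m → F)) = q ^ k := by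
    rw [SetLike.coe_sort_coe, Module.natCard_eq_pow_finrank (K := F), Nat.card_eq_fintype_card, hF]
    congr 1
    rw [hS, finrank_span_eq_card hy.1, Fintype.card_fin]
  rw [h1, h3]

theorem card_isoFr [Fintype F] {q : ℕ} (hF : Fintype.card F = q) (m k : ℕ) :
    Nat.card {x : Fin k → (Fin m ⊕ Fin m → F) // IsoFr m k x} =
      ∏ i ∈ Finset.range k, (q ^ (2 * m - i) - q ^ i) := by
  induction k with
  | zero =>
    rw [Finset.prod_range_zero]
    have : Unique {x : Fin 0 → (Fin m ⊕ Fin m → F) // IsoFr m 0 x} :=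
      { default := ⟨Fin.elim0, linearIndependent_empty_type, fun i => i.elim0⟩
        uniq := fun x => Subtype.ext (Subsingleton.elim _ _) }
    exact Nat.card_unique
  | succ k ih =>
    rw [Finset.prod_range_succ, ← ih]
    have htail : ∀ x : {x : Fin (k+1) → (Fin m ⊕ Fin m → F) // IsoFr m (k+1) x},
        IsoFr m k (Fin.tail x.1) := fun x =>
      ⟨x.2.1.comp Fin.succ (Fin.succ_injective _), fun i j => x.2.2 i.succ j.succ⟩
    refine card_eq_mul_of_fibers
      (fun x => (⟨Fin.tail x.1, htail x⟩ : {x : Fin k → (Fin m ⊕ Fin m → F) // IsoFr m k x})) _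
      (fun y => ?_)
    rw [← card_fibre hF m k y.1 y.2]
    exact Nat.card_congr (Equiv.subtypeEquivRight (fun x => Subtype.ext_iff))

end

theorem arith (q m k : ℕ) (hk : k ≤ m) :
    (∏ i ∈ Finset.range k, (q ^ (2 * m - i) - q ^ i)) *
      (q ^ (k * (k + 1) / 2 + 2 * k * (m - k)) *
        (q ^ ((m - k) ^ 2) * ∏ i ∈ Finset.range (m - k), (q ^ (2 * (i + 1)) - 1))) =
    q ^ (m ^ 2) * ∏ i ∈ Finset.range m, (q ^ (2 * (i + 1)) - 1) := by
  induction k with
  | zero => simp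
  | succ k ih =>
    have ih' := ih (by omega)
    obtain ⟨d, rfl⟩ : ∃ d, m = k + 1 + d := ⟨m - (k + 1), by omega⟩
    rw [← ih']
    have e1 : k + 1 + d - (k + 1) = d := by omega
    have e2 : k + 1 + d - k = d + 1 := by omega
    rw [e1, e2, Finset.prod_range_succ, Finset.prod_range_succ]
    have e3 : (k + 1) * (k + 1 + 1) / 2 = k * (k + 1) / 2 + (k + 1) := by
      rw [show (k + 1) * (k + 1 + 1) = k * (k + 1) + 2 * (k + 1) by ring,
        Nat.add_mul_div_left _ _ (by norm_num)]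
    have e4 : q ^ (2 * (k + 1 + d) - k) - q ^ k = q ^ k * (q ^ (2 * (d + 1)) - 1) := by
      rw [Nat.mul_sub, mul_one, ← pow_add]
      congr 2
      omega
    rw [e3, e4]
    obtain ⟨t, ht⟩ : ∃ t, t = k * (k + 1) / 2 := ⟨_, rfl⟩
    rw [← ht]
    ring

theorem stab_of_maps {F : Type*} [Field F] (m : ℕ) (W : Submodule F (Fin m ⊕ Fin m → F))
    (g : Matrix.symplecticGroup (Fin m) F) (hg : ∀ v ∈ W, g.1 *ᵥ v ∈ W) :
    g ∈ Cfsg.stabilizing (Cfsg.spToMat m F) (W : Set (Fin m ⊕ Fin m → F)) := by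
  intro v
  refine ⟨fun hv => hg v hv, fun hv => ?_⟩
  change g.1 *ᵥ v ∈ W at hv
  obtain ⟨φ, hφ⟩ : ∃ φ : W →ₗ[F] W, ∀ w : W, (φ w : Fin m ⊕ Fin m → F) = g.1 *ᵥ w.1 :=
    ⟨(Matrix.toLin' g.1).restrict (fun w hw => by rw [Matrix.toLin'_apply]; exact hg w hw),
      fun w => by rw [LinearMap.coe_restrict_apply, Matrix.toLin'_apply]⟩
  have hinj : Function.Injective φ := by
    intro a b hab
    have h1 : g.1 *ᵥ a.1 = g.1 *ᵥ b.1 := by rw [← hφ, ← hφ, hab]
    have h2 := congrArg (fun u => (g⁻¹).1 *ᵥ u) h1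
    simp only [act_inv_act] at h2
    exact Subtype.ext h2
  have hsurj : Function.Surjective φ := LinearMap.injective_iff_surjective.mp hinj
  obtain ⟨w, hw⟩ := hsurj ⟨_, hv⟩
  have h1 : g.1 *ᵥ w.1 = g.1 *ᵥ v := by rw [← hφ, hw]
  have h2 := congrArg (fun u => (g⁻¹).1 *ᵥ u) h1
  simp only [act_inv_act] at h2
  rw [SetLike.mem_coe, ← h2]
  exact w.2

/-- Maximal parabolics of the symplectic group: if W is a k-dimensional subspace of F^(2m) on which the symplectic form vanishes identically, its stabiliser in Sp_2m(q) has order q^(k(k+1)/2 + 2k(m−k)) · |Sp_(2m−2k)(q)| · |GL_k(q)|. -/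
theorem result {F : Type*} [Field F] [Fintype F] {q : ℕ} (hF : Fintype.card F = q) (m k : ℕ) (hk : k ≤ m) (W : Submodule F (Fin m ⊕ Fin m → F)) (hWk : Module.finrank F W = k) (hW : ∀ u ∈ W, ∀ v ∈ W, Cfsg.sympForm m F u v = 0) : Nat.card ↥(Cfsg.stabilizing (Cfsg.spToMat m F) (W : Set (Fin m ⊕ Fin m → F))) = q ^ (k * (k + 1) / 2 + 2 * k * (m - k)) * (q ^ ((m - k) ^ 2) * ∏ i ∈ Finset.range (m - k), (q ^ (2 * (i + 1)) - 1)) * ∏ i : Fin k, (q ^ k - q ^ (i : ℕ)) := by
  classical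
  obtain ⟨b⟩ : Nonempty (Module.Basis (Fin k) F W) := ⟨Module.finBasisOfFinrankEq F W hWk⟩
  obtain ⟨x₀, hx₀⟩ : ∃ x₀ : Fin k → (Fin m ⊕ Fin m → F),
      x₀ = fun i => (b i : Fin m ⊕ Fin m → F) := ⟨_, rfl⟩
  have hx₀W : ∀ i, x₀ i ∈ W := fun i => by rw [hx₀]; exact (b i).2
  have hx₀li : LinearIndependent F x₀ := by
    rw [hx₀]
    exact b.linearIndependent.map' W.subtype (Submodule.ker_subtype W)
  have hx₀span : Submodule.span F (Set.range x₀) = W := by
    have : Set.range x₀ = W.subtype '' (Set.range b) := by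
      rw [hx₀, ← Set.range_comp]; rfl
    rw [this, Submodule.span_image, b.span_eq, Submodule.map_subtype_top]
  have hWiso : ∀ u ∈ W, ∀ v ∈ W, sympB (F := F) m u v = 0 := fun u hu v hv => by
    rw [sympB_eq_sympForm]; exact hW u hu v hv
  have hx₀iso : IsoFr m k x₀ := ⟨hx₀li, fun i j => hWiso _ (hx₀W i) _ (hx₀W j)⟩
  obtain ⟨Gx, hGx⟩ : ∃ Gx : Set (Matrix.symplecticGroup (Fin m) F),
      Gx = {g | ∀ i, g.1 *ᵥ x₀ i = x₀ i} := ⟨_, rfl⟩
  have hGxmem : ∀ g, g ∈ Gx ↔ ∀ i, g.1 *ᵥ x₀ i = x₀ i := by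
    intro g; rw [hGx]; rfl
  -- step A
  have hA : Nat.card (Matrix.symplecticGroup (Fin m) F) =
      Nat.card {x : Fin k → (Fin m ⊕ Fin m → F) // IsoFr m k x} * Nat.card Gx := by
    obtain ⟨fA, hfA⟩ : ∃ fA : Matrix.symplecticGroup (Fin m) F →
        {x : Fin k → (Fin m ⊕ Fin m → F) // IsoFr m k x}, ∀ g i, (fA g).1 i = g.1 *ᵥ x₀ i :=
      ⟨fun g => ⟨fun i => g.1 *ᵥ x₀ i, isoFr_act m k g x₀ hx₀iso⟩, fun g i => rfl⟩
    refine card_eq_mul_of_fibers fA (Nat.card Gx) (fun y => ?_)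
    obtain ⟨g₀, hg₀⟩ := witt_frames m k x₀ y.1 hx₀li y.2.1 hx₀iso.2 y.2.2
    refine Nat.card_congr ?_
    refine
    { toFun := fun g => ⟨g₀⁻¹ * g.1, ?_⟩
      invFun := fun h => ⟨g₀ * h.1, ?_⟩
      left_inv := fun g => Subtype.ext (mul_inv_cancel_left _ _)
      right_inv := fun h => Subtype.ext (inv_mul_cancel_left _ _) }
    · rw [hGxmem]
      intro i
      have h1 : g.1.1 *ᵥ x₀ i = y.1 i := by rw [← hfA, g.2]
      rw [act_mul, h1, ← hg₀ i, act_inv_act]
    · refine Subtype.ext (funext fun i => ?_)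
      have h1 : h.1.1 *ᵥ x₀ i = x₀ i := (hGxmem h.1).mp h.2 i
      rw [hfA, act_mul, h1, hg₀ i]
  -- step B
  have hfix : ∀ h ∈ Gx, ∀ v ∈ W, h.1 *ᵥ v = v := by
    intro h hh v hv
    rw [hGxmem] at hh
    rw [← hx₀span] at hv
    induction hv using Submodule.span_induction with
    | mem x hx => obtain ⟨i, rfl⟩ := hx; exact hh i
    | zero => simp
    | add x y _ _ hx hy => rw [Matrix.mulVec_add, hx, hy]
    | smul a x _ hx => rw [Matrix.mulVec_smul, hx]
  have hB : Nat.card ↥(Cfsg.stabilizing (Cfsg.spToMat m F) (W : Set (Fin m ⊕ Fin m → F))) =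
      Nat.card {y : Fin k → W // LinearIndependent F y} * Nat.card Gx := by
    have hmem : ∀ g : ↥(Cfsg.stabilizing (Cfsg.spToMat m F) (W : Set (Fin m ⊕ Fin m → F))),
        ∀ i, g.1.1 *ᵥ x₀ i ∈ W := fun g i => (g.2 (x₀ i)).mp (hx₀W i)
    have hli : ∀ g : ↥(Cfsg.stabilizing (Cfsg.spToMat m F) (W : Set (Fin m ⊕ Fin m → F))),
        LinearIndependent F (fun i => (⟨g.1.1 *ᵥ x₀ i, hmem g i⟩ : W)) := fun g =>
      LinearIndependent.of_comp W.subtype (li_act m k g.1 x₀ hx₀li)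
    obtain ⟨fB, hfB⟩ : ∃ fB : ↥(Cfsg.stabilizing (Cfsg.spToMat m F)
        (W : Set (Fin m ⊕ Fin m → F))) → {y : Fin k → W // LinearIndependent F y},
        ∀ g i, ((fB g).1 i : Fin m ⊕ Fin m → F) = g.1.1 *ᵥ x₀ i :=
      ⟨fun g => ⟨fun i => ⟨g.1.1 *ᵥ x₀ i, hmem g i⟩, hli g⟩, fun g i => rfl⟩
    refine card_eq_mul_of_fibers fB (Nat.card Gx) (fun y => ?_)
    have hyli : LinearIndependent F (fun i => (y.1 i : Fin m ⊕ Fin m → F)) :=
      y.2.map' W.subtype (Submodule.ker_subtype W)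
    obtain ⟨g₀, hg₀⟩ := witt_frames m k x₀ (fun i => (y.1 i : Fin m ⊕ Fin m → F)) hx₀li hyli
      hx₀iso.2 (fun i j => hWiso _ (y.1 i).2 _ (y.1 j).2)
    have hg₀W : ∀ v ∈ W, g₀.1 *ᵥ v ∈ W := by
      intro v hv
      rw [← hx₀span] at hv
      induction hv using Submodule.span_induction with
      | mem x hx => obtain ⟨i, rfl⟩ := hx; rw [hg₀ i]; exact (y.1 i).2
      | zero => simp
      | add x y _ _ hx hy => rw [Matrix.mulVec_add]; exact W.add_mem hx hy
      | smul a x _ hx => rw [Matrix.mulVec_smul]; exact W.smul_mem a hx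
    have hg₀s := stab_of_maps m W g₀ hg₀W
    refine Nat.card_congr ?_
    refine
    { toFun := fun g => ⟨g₀⁻¹ * g.1.1, ?_⟩
      invFun := fun h => ⟨⟨g₀ * h.1, ?_⟩, ?_⟩
      left_inv := fun g => Subtype.ext (Subtype.ext (mul_inv_cancel_left _ _))
      right_inv := fun h => Subtype.ext (inv_mul_cancel_left _ _) }
    · rw [hGxmem]
      intro i
      have h1 : g.1.1.1 *ᵥ x₀ i = (y.1 i : Fin m ⊕ Fin m → F) := by rw [← hfB, g.2]
      rw [act_mul, h1, ← hg₀ i, act_inv_act]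
    · refine Subgroup.mul_mem _ hg₀s (stab_of_maps m W h.1 (fun v hv => ?_))
      rw [hfix h.1 h.2 v hv]; exact hv
    · refine Subtype.ext (funext fun i => Subtype.ext ?_)
      rw [hfB, act_mul, hfix h.1 h.2 _ (hx₀W i), hg₀ i]
  -- counts
  have hq : 1 < q := by rw [← hF]; exact Fintype.one_lt_card
  have hL : Nat.card {y : Fin k → W // LinearIndependent F y} =
      ∏ i : Fin k, (q ^ k - q ^ (i : ℕ)) := by
    have := card_linearIndependent (K := F) (V := W) (k := k) (le_of_eq hWk.symm)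
    rw [this, hWk, hF]
  have hX := card_isoFr hF m k
  have hSp := Cfsg.Agent.S0245.result hF m
  have hXpos : 0 < ∏ i ∈ Finset.range k, (q ^ (2 * m - i) - q ^ i) := by
    refine Finset.prod_pos (fun i hi => ?_)
    rw [Finset.mem_range] at hi
    exact Nat.sub_pos_of_lt (Nat.pow_lt_pow_right hq (by omega))
  have hcG : Nat.card Gx = q ^ (k * (k + 1) / 2 + 2 * k * (m - k)) *
      (q ^ ((m - k) ^ 2) * ∏ i ∈ Finset.range (m - k), (q ^ (2 * (i + 1)) - 1)) := by
    refine Nat.eq_of_mul_eq_mul_left hXpos ?_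
    rw [arith q m k hk, ← hSp, hA, hX]
  rw [hB, hcG, hL, mul_comm]

end Cfsg.Agent.S0775
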