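import Cfsg.Statements.S0002
import Mathlib

set_option autoImplicit false
open Pointwise
open Cfsg

namespace Cfsg.Agent.S0002


/-- the class of a complement in `QuotientDiff` -/
noncomputable def qdMk {G : Type*} [Group G] (A : Subgroup G) [IsMulCommutative A] [A.FiniteIndex]
    (L : Subgroup G) (hL : Subgroup.IsComplement' A L) : A.QuotientDiff :=
  Quotient.mk'' (⟨L, hL.symm⟩ : A.LeftTransversal)

theorem stabilizer_qdMk {G : Type*} [Group G] [Finite G] (A : Subgroup G) [A.Normal] [IsMulCommutative A]
    (hA : (Nat.card A).Coprime A.index) (L : Subgroup G) (hL : Subgroup.IsComplement' A L) :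
    MulAction.stabilizer G (qdMk A L hL) = L := by
  symm
  apply Subgroup.eq_of_le_of_card_ge
  · intro l hl
    rw [MulAction.mem_stabilizer_iff]
    change Quotient.mk'' (MulOpposite.op l⁻¹ • (⟨L, hL.symm⟩ : A.LeftTransversal)) = _
    unfold qdMk
    congr 1
    apply Subtype.ext
    change MulOpposite.op l⁻¹ • (L : Set G) = L
    ext x
    rw [Set.mem_smul_set_iff_inv_smul_mem]
    simp only [MulOpposite.op_inv, inv_inv, MulOpposite.smul_eq_mul_unop, MulOpposite.unop_op, SetLike.mem_coe]
    exact Subgroup.mul_mem_cancel_right L hl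
  · have h1 := (Subgroup.isComplement'_stabilizer_of_coprime hA (α := qdMk A L hL)).card_mul_card
    have h2 := hL.card_mul_card
    have h3 : 0 < Nat.card A := Nat.card_pos
    rw [← h2] at h1
    exact le_of_eq (Nat.eq_of_mul_eq_mul_left h3 h1)

theorem sz_conj_abelian {G : Type*} [Group G] [Finite G] (A : Subgroup G) [A.Normal] [IsMulCommutative A]
    (hA : (Nat.card A).Coprime A.index)
    (H K : Subgroup G) (hH : Subgroup.IsComplement' A H) (hK : Subgroup.IsComplement' A K) :
    ∃ a ∈ A, MulAut.conj a • H = K := by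
  obtain ⟨a, ha⟩ := Subgroup.exists_smul_eq hA (qdMk A H hH) (qdMk A K hK)
  refine ⟨a, a.2, ?_⟩
  have h4 := MulAction.stabilizer_smul_eq_stabilizer_map_conj (a : G) (qdMk A H hH)
  change MulAction.stabilizer G (a • qdMk A H hH) = _ at h4
  rw [ha, stabilizer_qdMk A hA K hK, stabilizer_qdMk A hA H hH] at h4
  rw [h4]
  rfl


theorem result {G : Type*} [Group G] [Finite G] (A : Subgroup G) [A.Normal] [IsMulCommutative A]
    (hA : (Nat.card A).Coprime A.index)
    (H K : Subgroup G) (hH : Subgroup.IsComplement' A H) (hK : Subgroup.IsComplement' A K) :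
    ∃ a ∈ A, MulAut.conj a • H = K :=
  sz_conj_abelian A hA H K hH hK

end Cfsg.Agent.S0002
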