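import Cfsg.Statements.S0008
import Cfsg.Agent.Lib.Helper30.Basic
import Mathlib

set_option autoImplicit false
open Cfsg

namespace Cfsg.Agent.S0008

theorem result {G : Type*} [Group G] [Finite G] :
    Group.IsNilpotent (Cfsg.fittingSubgroup G) :=
  Cfsg.Agent.Lib.Helper30.fitting_nilpotent

end Cfsg.Agent.S0008
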