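import Cfsg.Statements.S0011
import Mathlib

set_option autoImplicit false
open Cfsg

namespace Cfsg.Agent.S0011

/-- If the Frattini quotient of a finite group is nilpotent then the group is nilpotent. -/
theorem result {G : Type*} [Group G] [Finite G]
    (h : Group.IsNilpotent (G ⧸ frattini G)) : Group.IsNilpotent G := by
  have q := (Group.isNilpotent_of_finite_tfae (G := G)).out 0 2
  rw [q]
  intro M hM
  have q' := (Group.isNilpotent_of_finite_tfae (G := G ⧸ frattini G)).out 0 2
  have hn := q'.mp h
  let π := QuotientGroup.mk' (frattini G)
  have hsurj : Function.Surjective π := QuotientGroup.mk'_surjective _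
  have hker : π.ker ≤ M := by rw [QuotientGroup.ker_mk']; exact frattini_le_coatom hM
  have hcomap : (M.map π).comap π = M := Subgroup.comap_map_eq_self hker
  have hco : IsCoatom (M.map π) := by
    constructor
    · intro htop
      apply hM.1
      rw [← hcomap, htop, Subgroup.comap_top]
    · intro N hN
      have h1 : M < N.comap π := by
        rw [← hcomap]
        exact (Subgroup.comap_lt_comap_of_surjective hsurj).mpr hN
      have h2 := hM.2 _ h1
      rw [← Subgroup.map_comap_eq_self_of_surjective hsurj N, h2, Subgroup.map_top_of_surjective π hsurj]
  have hnorm : (M.map π).Normal := hn _ hco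
  rw [← hcomap]
  exact hnorm.comap π

end Cfsg.Agent.S0011
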