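import Cfsg.Statements.S0014
import Mathlib
import Cfsg.Agent.S0012

set_option autoImplicit false
open Cfsg
open scoped commutatorElement

namespace Cfsg.Agent.S0014

open Module in
theorem core {G : Type*} [Group G] [Finite G] (p n : ℕ) [Fact p.Prime]
    (V : Type*) [AddCommGroup V] [Module (ZMod p) V] [Finite V]
    (φ : G → V) (hφmul : ∀ a b, φ (a * b) = φ a + φ b) (hφsurj : Function.Surjective φ)
    (hker : ∀ g, φ g = 0 ↔ g ∈ frattini G)
    (hn : Nat.card V = p ^ n) :
    (∀ S : Finset G, Subgroup.closure (S : Set G) = ⊤ → ∃ T : Finset G, T ⊆ S ∧ T.card = n ∧ Subgroup.closure (T : Set G) = ⊤) ∧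
    (∀ T : Finset G, Subgroup.closure (T : Set G) = ⊤ → n ≤ T.card) := by
  classical
  have hfin : finrank (ZMod p) V = n := by
    have h := Module.natCard_eq_pow_finrank (K := ZMod p) (V := V)
    rw [Nat.card_zmod, hn] at h
    exact (Nat.pow_right_injective (Fact.out : p.Prime).two_le h).symm
  have h1 : φ 1 = 0 := by
    have := hφmul 1 1
    rw [mul_one] at this
    exact left_eq_add.mp this
  have hinv : ∀ a, φ a⁻¹ = - φ a := fun a => by
    have := hφmul a⁻¹ a
    rw [inv_mul_cancel, h1] at this
    exact eq_neg_of_add_eq_zero_left this.symm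
  have gen_span : ∀ S : Set G, Subgroup.closure S = ⊤ → Submodule.span (ZMod p) (φ '' S) = ⊤ := by
    intro S hS
    let H : Subgroup G :=
      { carrier := {g | φ g ∈ Submodule.span (ZMod p) (φ '' S)}
        one_mem' := by
          show φ 1 ∈ Submodule.span (ZMod p) (φ '' S)
          rw [h1]; exact Submodule.zero_mem _
        mul_mem' := by
          intro a b ha hb
          show φ (a*b) ∈ Submodule.span (ZMod p) (φ '' S)
          rw [hφmul]; exact Submodule.add_mem _ ha hb
        inv_mem' := by
          intro a ha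
          show φ a⁻¹ ∈ Submodule.span (ZMod p) (φ '' S)
          rw [hinv]; exact Submodule.neg_mem _ ha }
    have hH : H = ⊤ := by
      rw [eq_top_iff, ← hS, Subgroup.closure_le]
      intro s hs
      exact Submodule.subset_span (Set.mem_image_of_mem φ hs)
    rw [eq_top_iff]
    intro v _
    obtain ⟨g, rfl⟩ := hφsurj v
    have : g ∈ H := by rw [hH]; trivial
    exact this
  have span_gen : ∀ T : Set G, Submodule.span (ZMod p) (φ '' T) = ⊤ → Subgroup.closure T = ⊤ := by
    intro T hT
    apply frattini_nongenerating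
    let A : AddSubgroup V :=
      { carrier := φ '' (Subgroup.closure T : Set G)
        zero_mem' := ⟨1, Subgroup.one_mem _, h1⟩
        add_mem' := by
          rintro _ _ ⟨a, ha, rfl⟩ ⟨b, hb, rfl⟩
          exact ⟨a * b, Subgroup.mul_mem _ ha hb, hφmul a b⟩
        neg_mem' := by
          rintro _ ⟨a, ha, rfl⟩
          exact ⟨a⁻¹, Subgroup.inv_mem _ ha, hinv a⟩ }
    have hA : Submodule.span (ZMod p) (φ '' T) ≤ AddSubgroup.toZModSubmodule p A := by
      rw [Submodule.span_le]
      rintro _ ⟨t, ht, rfl⟩
      exact ⟨t, Subgroup.subset_closure ht, rfl⟩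
    rw [hT] at hA
    rw [eq_top_iff]
    intro g _
    obtain ⟨k, hk, hkg⟩ := hA (Submodule.mem_top : φ g ∈ ⊤)
    have : k⁻¹ * g ∈ frattini G := by
      rw [← hker, hφmul, hinv, hkg]; exact neg_add_cancel _
    have hg : g = k * (k⁻¹ * g) := by group
    rw [hg]
    exact Subgroup.mul_mem _ (Subgroup.mem_sup_left hk) (Subgroup.mem_sup_right this)
  refine ⟨?_, ?_⟩
  · intro S hS
    have hspan := gen_span S hS
    obtain ⟨b, hbS, hbspan, hbli⟩ := exists_linearIndependent (ZMod p) (φ '' (S : Set G))
    rw [hspan] at hbspan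
    have hbcard : Nat.card b = n := by
      let B : Basis b (ZMod p) V := Basis.mk hbli (by rw [Subtype.range_coe]; exact hbspan.ge)
      rw [← hfin]; exact (Module.finrank_eq_nat_card_basis B).symm
    obtain ⟨T, hTsub, hTbij⟩ := Set.exists_subset_bijOn ((S : Set G) ∩ φ ⁻¹' b) φ
    have himg : φ '' ((S : Set G) ∩ φ ⁻¹' b) = b := by
      ext v; constructor
      · rintro ⟨g, ⟨_, hg⟩, rfl⟩; exact hg
      · intro hv
        obtain ⟨g, hg, rfl⟩ := hbS hv
        exact ⟨g, ⟨hg, hv⟩, rfl⟩
    rw [himg] at hTbij
    have hTS : T ⊆ (S : Set G) := hTsub.trans Set.inter_subset_left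
    have hTfin : T.Finite := S.finite_toSet.subset hTS
    refine ⟨hTfin.toFinset, ?_, ?_, ?_⟩
    · intro x hx; exact_mod_cast hTS ((Set.Finite.mem_toFinset hTfin).mp hx)
    · rw [← Set.ncard_eq_toFinset_card T hTfin, ← hbcard, Nat.card_coe_set_eq b, ← hTbij.image_eq]
      exact (Set.ncard_image_of_injOn hTbij.injOn).symm
    · rw [Set.Finite.coe_toFinset]
      apply span_gen
      rw [hTbij.image_eq]; exact hbspan
  · intro T hT
    have hspan := gen_span T hT
    have h := finrank_span_finset_le_card (R := ZMod p) (T.image φ)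
    rw [Finset.coe_image] at h
    unfold Set.finrank at h
    rw [hspan, finrank_top, hfin] at h
    exact h.trans Finset.card_image_le

/-- Burnside's basis Theorem: in a finite p-group whose Frattini quotient has order p ^ n, every generating set contains n elements that already generate, and no set with fewer than n elements generates. -/
theorem result {G : Type*} [Group G] [Finite G] (p n : ℕ) [Fact p.Prime]
    (hG : IsPGroup p G) (hn : (frattini G).index = p ^ n) :
    (∀ S : Finset G, Subgroup.closure (S : Set G) = ⊤ → ∃ T : Finset G, T ⊆ S ∧ T.card = n ∧ Subgroup.closure (T : Set G) = ⊤) ∧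
    (∀ T : Finset G, Subgroup.closure (T : Set G) = ⊤ → n ≤ T.card) := by
  classical
  obtain ⟨hcomm, hpow⟩ := Cfsg.Agent.S0012.result p hG
  letI : CommGroup (G ⧸ frattini G) :=
    { (inferInstance : Group (G ⧸ frattini G)) with
      mul_comm := by
        intro a b
        induction a using QuotientGroup.induction_on with | _ a => ?_
        induction b using QuotientGroup.induction_on with | _ b => ?_
        rw [← QuotientGroup.mk_mul, ← QuotientGroup.mk_mul, QuotientGroup.eq]
        apply hcomm
        rw [commutator_def]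
        have : (a * b)⁻¹ * (b * a) = ⁅b⁻¹, a⁻¹⁆ := by rw [commutatorElement_def]; group
        rw [this]
        exact Subgroup.commutator_mem_commutator (Subgroup.mem_top _) (Subgroup.mem_top _) }
  letI : Module (ZMod p) (Additive (G ⧸ frattini G)) := AddCommGroup.zmodModule (by
    intro x
    obtain ⟨g, hg⟩ := QuotientGroup.mk_surjective (Additive.toMul x)
    have : x = Additive.ofMul (g : G ⧸ frattini G) := by rw [hg]; rfl
    rw [this, ← ofMul_pow, ← QuotientGroup.mk_pow, (QuotientGroup.eq_one_iff _).mpr (hpow g)]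
    rfl)
  refine core p n (Additive (G ⧸ frattini G)) (fun g => Additive.ofMul (g : G ⧸ frattini G))
    (fun a b => rfl) ?_ ?_ ?_
  · intro x
    obtain ⟨g, hg⟩ := QuotientGroup.mk_surjective (Additive.toMul x)
    exact ⟨g, by show Additive.ofMul (g : G ⧸ frattini G) = x; rw [hg]; rfl⟩
  · intro g
    rw [← QuotientGroup.eq_one_iff]
    exact Iff.rfl
  · rw [← hn, Subgroup.index_eq_card]
    exact Nat.card_congr Additive.toMul
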