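import Cfsg.Statements.S0017
import Mathlib

set_option autoImplicit false
open Cfsg

namespace Cfsg.Agent.S0017

/-- a normal subgroup `N` of `G`, nilpotent, all of whose Sylow `q`-subgroups for `q ≠ p`
are trivial as soon as normal `p'`-subgroups of `G` are trivial, is a `p`-group -/
theorem isPGroup_of_nilpotent_normal {G : Type*} [Group G] [Finite G] (p : ℕ) [Fact p.Prime]
    (h : ∀ K : Subgroup G, K.Normal → (Nat.card K).Coprime p → K = ⊥)
    (N : Subgroup G) [hN : N.Normal] (hnil : Group.IsNilpotent N) : IsPGroup p N := by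
  have hnc : NormalizerCondition N := Group.normalizerCondition_of_isNilpotent
  have key : ∀ q : ℕ, q.Prime → q ∣ Nat.card N → q = p := by
    intro q hq hqd
    by_contra hqp
    have hqf : Fact q.Prime := ⟨hq⟩
    obtain Q : Sylow q N := default
    have hQn : (Q : Subgroup N).Normal := Sylow.normal_of_normalizerCondition hnc Q
    have hQc : (Q : Subgroup N).Characteristic := Sylow.characteristic_of_normal Q hQn
    have hQG : ((Q : Subgroup N).map N.subtype).Normal := inferInstance
    have hcard : Nat.card ((Q : Subgroup N).map N.subtype) = Nat.card (Q : Subgroup N) :=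
      Subgroup.card_map_of_injective N.subtype_injective
    obtain ⟨e, he⟩ := IsPGroup.iff_card.1 Q.2
    have hcop : (Nat.card ((Q : Subgroup N).map N.subtype)).Coprime p := by
      rw [hcard, he]
      exact Nat.Coprime.pow_left e ((Nat.coprime_primes hq Fact.out).2 hqp)
    have hbot := h _ hQG hcop
    have hQbot : (Q : Subgroup N) = ⊥ :=
      (Subgroup.map_eq_bot_iff_of_injective _ N.subtype_injective).1 hbot
    exact Q.ne_bot_of_dvd_card hqd hQbot
  have hcardN : Nat.card N = p ^ (Nat.card N).primeFactorsList.length :=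
    Nat.eq_prime_pow_of_unique_prime_dvd Nat.card_pos.ne' (fun {d} hd hdd => key d hd hdd)
  exact IsPGroup.of_card hcardN

/-- In a finite solvable group whose largest normal subgroup of order prime to p is trivial, the centralizer of the p-core is contained in the p-core. -/
theorem result {G : Type*} [Group G] [Finite G] [Group.IsSolvable G] (p : ℕ) [Fact p.Prime]
    (h : Cfsg.pPrimeCore p G = ⊥) :
    Subgroup.centralizer (Cfsg.pCore p G : Set G) ≤ Cfsg.pCore p G := by
  by_contra hnot
  have hPn : (Cfsg.pCore p G).Normal := Subgroup.sSup_normal _ (fun _ h => h.1)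
  have hfin : {N : Subgroup G | N.Normal ∧ N ≤ Subgroup.centralizer (Cfsg.pCore p G : Set G) ∧
      ¬ N ≤ Cfsg.pCore p G}.Finite := Set.toFinite _
  obtain ⟨N, hN⟩ := hfin.exists_minimal
    ⟨Subgroup.centralizer (Cfsg.pCore p G : Set G), inferInstance, le_rfl, hnot⟩
  obtain ⟨⟨hNn, hNC, hNP⟩, hmin⟩ := hN
  have hNne : N ≠ ⊥ := fun h0 => hNP (h0 ▸ bot_le)
  have hder_ne : ⁅N, N⁆ ≠ N := by
    intro h1
    have : Nontrivial N := (Subgroup.nontrivial_iff_ne_bot N).2 hNne
    have hlt := Group.IsSolvable.commutator_lt_top_of_nontrivial (G := N)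
    have : (commutator N).map N.subtype = (⊤ : Subgroup N).map N.subtype := by
      rw [Subgroup.map_subtype_commutator, h1, ← MonoidHom.range_eq_map, Subgroup.range_subtype]
    exact hlt.ne (Subgroup.map_injective N.subtype_injective this)
  have hder_le : ⁅N, N⁆ ≤ N := Subgroup.commutator_le_self N
  have hderP : ⁅N, N⁆ ≤ Cfsg.pCore p G := by
    by_contra hnb
    have h1 : N ≤ ⁅N, N⁆ := hmin ⟨inferInstance, hder_le.trans hNC, hnb⟩ hder_le
    exact hder_ne (le_antisymm hder_le h1)
  have hnil : Group.IsNilpotent N := by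
    rw [Subgroup.isNilpotent_iff_lowerCentralSeries]
    refine ⟨2, ?_⟩
    show ⁅⁅N, N⁆, N⁆ = ⊥
    rw [Subgroup.commutator_eq_bot_iff_le_centralizer]
    intro z hz
    rw [Subgroup.mem_centralizer_iff]
    intro n hn
    exact (Subgroup.mem_centralizer_iff.1 (hNC hn) z (hderP hz)).symm
  have hpg : IsPGroup p N := by
    apply isPGroup_of_nilpotent_normal p _ N hnil
    intro K hK hKc
    have h1 : K ≤ Cfsg.pPrimeCore p G := le_sSup ⟨hK, hKc⟩
    rw [h] at h1
    exact le_bot_iff.1 h1
  exact hNP (le_sSup ⟨hNn, hpg⟩)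

end Cfsg.Agent.S0017
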