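import Cfsg.Statements.S0019
import Mathlib

set_option autoImplicit false
open Cfsg

namespace Cfsg.Agent.S0019

universe u

open scoped Pointwise commutatorElement

theorem exists_normal_pgroup (H : Type u) [Group H] [Finite H] [Nontrivial H] [hs : Group.IsSolvable H] :
    ∃ p : ℕ, p.Prime ∧ ∃ P : Subgroup H, P.Normal ∧ IsPGroup p P ∧ P ≠ ⊥ := by
  classical
  have hex : ∃ n, derivedSeries H n = ⊥ := hs.solvable
  have hspec := Nat.find_spec hex
  have hmin : ∀ m, m < Nat.find hex → ¬ (derivedSeries H m = ⊥) := fun m hm => Nat.find_min hex hm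
  have hn0 : Nat.find hex ≠ 0 := by
    intro h0
    rw [h0, derivedSeries_zero] at hspec
    exact top_ne_bot hspec
  obtain ⟨k, hk⟩ := Nat.exists_eq_succ_of_ne_zero hn0
  have hA : derivedSeries H k ≠ ⊥ := hmin k (by omega)
  have hAA : ⁅derivedSeries H k, derivedSeries H k⁆ = ⊥ := by
    rw [← derivedSeries_succ, ← Nat.succ_eq_add_one, ← hk]
    exact hspec
  set A := derivedSeries H k with hAdef
  have hAn : A.Normal := derivedSeries_normal H k
  have hcomm : ∀ a b : A, a * b = b * a := by
    intro a b
    have h1 : ⁅(a : H), (b : H)⁆ ∈ ⁅A, A⁆ := Subgroup.commutator_mem_commutator a.2 b.2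
    rw [hAA, Subgroup.mem_bot, commutatorElement_def] at h1
    apply Subtype.ext
    have h2 : (a : H) * b = b * a := by
      have := congrArg (fun y => y * (b : H) * (a : H)) h1
      simpa [mul_assoc] using this
    exact h2
  have hcard : Nat.card A ≠ 1 := fun h => hA (Subgroup.eq_bot_of_card_eq A h)
  obtain ⟨p, hp, hpdvd⟩ := Nat.exists_prime_and_dvd hcard
  have : Fact p.Prime := ⟨hp⟩
  obtain ⟨Q⟩ : Nonempty (Sylow p A) := inferInstance
  have hQn : (Q : Subgroup A).Normal := by
    refine ⟨fun n hn g => ?_⟩
    rw [hcomm g n, mul_inv_cancel_right]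
    exact hn
  have hQc : (Q : Subgroup A).Characteristic := Sylow.characteristic_of_normal Q hQn
  have hAc : A.Characteristic := derivedSeries_characteristic H k
  refine ⟨p, hp, (Q : Subgroup A).map A.subtype, inferInstance, Q.isPGroup'.map _, ?_⟩
  intro hbot
  have h1 : (Q : Subgroup A) = ⊥ := by
    rw [eq_bot_iff]
    intro x hx
    have : (A.subtype x) ∈ (Q : Subgroup A).map A.subtype := Subgroup.mem_map_of_mem _ hx
    rw [hbot, Subgroup.mem_bot] at this
    rw [Subgroup.mem_bot]
    exact Subtype.ext this
  exact Q.ne_bot_of_dvd_card hpdvd h1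

theorem aux : ∀ (n : ℕ) (G : Type u) [Group G] [Finite G], Nat.card G = n →
    ∀ (H₁ H₂ H₃ : Subgroup G), Group.IsSolvable H₁ → Group.IsSolvable H₂ → Group.IsSolvable H₃ →
    (∀ g : G, ∃ x ∈ H₁, ∃ y ∈ H₂, g = x * y) → (∀ g : G, ∃ x ∈ H₁, ∃ y ∈ H₃, g = x * y) →
    H₂.index.Coprime H₃.index → Group.IsSolvable G := by
  intro n
  induction n using Nat.strong_induction_on with
  | _ n ih =>
    intro G _ _ hcard H₁ H₂ H₃ h₁ h₂ h₃ h12 h13 hcop
    by_cases hH1 : H₁ = ⊥
    · -- G = H₂
      have htop : H₂ = ⊤ := by
        rw [eq_top_iff]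
        intro g _
        obtain ⟨x, hx, y, hy, rfl⟩ := h12 g
        rw [hH1, Subgroup.mem_bot] at hx
        rw [hx, one_mul]
        exact hy
      have hsurj : Function.Surjective H₂.subtype := by
        intro g
        exact ⟨⟨g, htop ▸ Subgroup.mem_top g⟩, rfl⟩
      exact Group.isSolvable_of_surjective hsurj
    · -- nontrivial normal p-subgroup of H₁
      have : Nontrivial H₁ := (Subgroup.nontrivial_iff_ne_bot H₁).2 hH1
      obtain ⟨p, hp, P₀, hP₀n, hP₀p, hP₀ne⟩ := exists_normal_pgroup H₁
      have : Fact p.Prime := ⟨hp⟩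
      set P : Subgroup G := P₀.map H₁.subtype with hPdef
      have hPp : IsPGroup p P := hP₀p.map _
      have hPne : P ≠ ⊥ := by
        intro hbot
        apply hP₀ne
        rw [eq_bot_iff]
        intro x hx
        have : (H₁.subtype x) ∈ P := Subgroup.mem_map_of_mem _ hx
        rw [hbot, Subgroup.mem_bot] at this
        rw [Subgroup.mem_bot]
        exact Subtype.ext this
      have hPconj : ∀ x ∈ H₁, ∀ a ∈ P, x * a * x⁻¹ ∈ P := by
        rintro x hx a ⟨a₀, ha₀, rfl⟩
        refine ⟨⟨x, hx⟩ * a₀ * ⟨x, hx⟩⁻¹, hP₀n.conj_mem a₀ ha₀ ⟨x, hx⟩, rfl⟩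
      -- key: for H with G = H₁ H and p ∤ index H, the normal closure of P is inside H
      have key : ∀ H : Subgroup G, (∀ g : G, ∃ x ∈ H₁, ∃ y ∈ H, g = x * y) → ¬ p ∣ H.index →
          Group.IsSolvable H → Group.IsSolvable G := by
        intro H hfac hidx hHs
        -- factorization in the other order
        have hfac' : ∀ g : G, ∃ y ∈ H, ∃ x ∈ H₁, g = y * x := by
          intro g
          obtain ⟨x, hx, y, hy, hg⟩ := hfac g⁻¹
          refine ⟨y⁻¹, H.inv_mem hy, x⁻¹, H₁.inv_mem hx, ?_⟩
          rw [← mul_inv_rev, ← hg, inv_inv]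
        -- a Sylow p-subgroup of H is Sylow in G
        obtain ⟨S⟩ : Nonempty (Sylow p H) := inferInstance
        have hSp : IsPGroup p ((S : Subgroup H).map H.subtype) := S.isPGroup'.map _
        have hSidx : ¬ p ∣ ((S : Subgroup H).map H.subtype).index := by
          have h1 : ((S : Subgroup H).map H.subtype).relIndex H = (S : Subgroup H).index := by
            unfold Subgroup.relIndex Subgroup.subgroupOf
            rw [Subgroup.comap_map_eq_self_of_injective H.subtype_injective]
          have h2 : ((S : Subgroup H).map H.subtype) ≤ H := Subgroup.map_subtype_le _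
          have h3 := Subgroup.relIndex_mul_index h2
          rw [← h3, h1]
          intro hdvd
          rcases (Nat.Prime.dvd_mul hp).1 hdvd with h | h
          · exact S.not_dvd_index h
          · exact hidx h
        let T : Sylow p G := hSp.toSylow hSidx
        have hTH : (T : Subgroup G) ≤ H := by
          rw [IsPGroup.toSylow_coe]
          exact Subgroup.map_subtype_le _
        obtain ⟨Q, hPQ⟩ := hPp.exists_le_sylow
        obtain ⟨g, hg⟩ := MulAction.exists_smul_eq G Q T
        have hgP : ∀ a ∈ P, g * a * g⁻¹ ∈ H := by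
          intro a ha
          apply hTH
          rw [← hg]
          have : a ∈ (Q : Subgroup G) := hPQ ha
          have h2 : MulAut.conj g • a ∈ MulAut.conj g • (Q : Subgroup G) :=
            Subgroup.smul_mem_pointwise_smul _ _ _ this
          exact h2
        have hPH : P ≤ H := by
          intro b hb
          obtain ⟨y, hy, x, hx, hgyx⟩ := hfac' g
          have h1 : x⁻¹ * b * x ∈ P := by
            have := hPconj x⁻¹ (H₁.inv_mem hx) b hb
            rwa [inv_inv] at this
          -- a := x⁻¹ b x, then g a g⁻¹ = y b y⁻¹ ... adjust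
          have h2 := hgP (x⁻¹ * b * x) h1
          rw [hgyx] at h2
          have h3 : y * x * (x⁻¹ * b * x) * (y * x)⁻¹ = y * b * y⁻¹ := by group
          rw [h3] at h2
          have h4 : b = y⁻¹ * (y * b * y⁻¹) * y := by group
          rw [h4]
          exact H.mul_mem (H.mul_mem (H.inv_mem hy) h2) hy
        set N := Subgroup.normalClosure (P : Set G) with hNdef
        have hNH : N ≤ H := by
          rw [hNdef, Subgroup.normalClosure, Subgroup.closure_le]
          intro a ha
          rw [Group.mem_conjugatesOfSet_iff] at ha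
          obtain ⟨b, hb, hconj⟩ := ha
          rw [isConj_iff] at hconj
          obtain ⟨c, hc⟩ := hconj
          obtain ⟨y, hy, x, hx, hcyx⟩ := hfac' c
          have h1 : x * b * x⁻¹ ∈ H := hPH (hPconj x hx b hb)
          have h2 : a = y * (x * b * x⁻¹) * y⁻¹ := by
            rw [← hc, hcyx]; group
          rw [SetLike.mem_coe, h2]
          exact H.mul_mem (H.mul_mem hy h1) (H.inv_mem hy)
        have hNn : N.Normal := Subgroup.normalClosure_normal
        have hNne : N ≠ ⊥ := by
          intro hbot
          apply hPne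
          rw [eq_bot_iff, ← hbot]
          exact Subgroup.le_normalClosure
        have hNs : Group.IsSolvable N :=
          Group.isSolvable_of_isSolvable_injective (Subgroup.inclusion_injective hNH)
        -- quotient
        have hlt : Nat.card (G ⧸ N) < n := by
          have h1 := Subgroup.card_eq_card_quotient_mul_card_subgroup N
          have h2 : 1 < Nat.card N := (Subgroup.one_lt_card_iff_ne_bot N).2 hNne
          have h3 : 0 < Nat.card (G ⧸ N) := Nat.card_pos
          rw [hcard] at h1
          nlinarith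
        set π := QuotientGroup.mk' N with hπdef
        have hπ : Function.Surjective π := QuotientGroup.mk'_surjective N
        have hQs : Group.IsSolvable (G ⧸ N) := by
          refine ih _ hlt (G ⧸ N) rfl (H₁.map π) (H₂.map π) (H₃.map π) ?_ ?_ ?_ ?_ ?_ ?_
          · exact Group.isSolvable_of_surjective (π.subgroupMap_surjective H₁)
          · exact Group.isSolvable_of_surjective (π.subgroupMap_surjective H₂)
          · exact Group.isSolvable_of_surjective (π.subgroupMap_surjective H₃)
          · intro gb
            obtain ⟨g, rfl⟩ := hπ gb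
            obtain ⟨x, hx, y, hy, rfl⟩ := h12 g
            exact ⟨π x, Subgroup.mem_map_of_mem _ hx, π y, Subgroup.mem_map_of_mem _ hy, map_mul _ _ _⟩
          · intro gb
            obtain ⟨g, rfl⟩ := hπ gb
            obtain ⟨x, hx, y, hy, rfl⟩ := h13 g
            exact ⟨π x, Subgroup.mem_map_of_mem _ hx, π y, Subgroup.mem_map_of_mem _ hy, map_mul _ _ _⟩
          · exact Nat.Coprime.coprime_dvd_left (Subgroup.index_map_dvd _ hπ)
              (Nat.Coprime.coprime_dvd_right (Subgroup.index_map_dvd _ hπ) hcop)
        exact Group.isSolvable_of_ker_le_range N.subtype π (by rw [hπdef, QuotientGroup.ker_mk', Subgroup.range_subtype])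
      by_cases hp2 : p ∣ H₂.index
      · have hp3 : ¬ p ∣ H₃.index := by
          intro h
          have := Nat.dvd_gcd hp2 h
          rw [hcop] at this
          exact hp.one_lt.ne' (Nat.dvd_one.1 this)
        exact key H₃ h13 hp3 h₃
      · exact key H₂ h12 hp2 h₂

theorem result {G : Type*} [Group G] [Finite G] (H₁ H₂ H₃ : Subgroup G)
    (h₁ : Group.IsSolvable H₁) (h₂ : Group.IsSolvable H₂) (h₃ : Group.IsSolvable H₃)
    (h12 : ∀ g : G, ∃ x ∈ H₁, ∃ y ∈ H₂, g = x * y) (h13 : ∀ g : G, ∃ x ∈ H₁, ∃ y ∈ H₃, g = x * y)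
    (hcop : H₂.index.Coprime H₃.index) : Group.IsSolvable G :=
  aux _ G rfl H₁ H₂ H₃ h₁ h₂ h₃ h12 h13 hcop

end Cfsg.Agent.S0019
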