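import Cfsg.Statements.S0022
import Cfsg.Agent.Lib.Helper1.Coprime

set_option autoImplicit false
open Cfsg
open Cfsg.Agent.Lib.Helper1

namespace Cfsg.Agent.S0022

theorem result {G : Type*} [Group G] [Finite G] (A K : Subgroup G) (hAK : A ≤ Subgroup.normalizer (K : Set G))
    (hcop : (Nat.card A).Coprime (Nat.card K)) (hsolv : Group.IsSolvable A ∨ Group.IsSolvable K)
    (N : Subgroup G) (hNK : N ≤ K) (hNnormal : K ≤ Subgroup.normalizer (N : Set G)) (hNA : A ≤ Subgroup.normalizer (N : Set G))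
    (k : G) (hk : k ∈ K) (hfix : ∀ a ∈ A, a * k * a⁻¹ * k⁻¹ ∈ N) :
    ∃ c ∈ K ⊓ Subgroup.centralizer (A : Set G), k⁻¹ * c ∈ N := by
  have hcop' : (Nat.card A).Coprime (Nat.card N) :=
    Nat.Coprime.coprime_dvd_right (Subgroup.card_dvd_of_le hNK) hcop
  have hsolv' : Group.IsSolvable A ∨ Group.IsSolvable N :=
    solvable_or_of_le hNK hsolv
  obtain ⟨d, hd, hc⟩ := coprime_coset_fixed hNA hcop' hsolv' k (fun a ha => by
    have h1 := hfix a ha
    have h2 := (Subgroup.mem_normalizer_iff''.mp (hNnormal hk) _).mp h1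
    have e : k⁻¹ * (a * k * a⁻¹ * k⁻¹) * k = k⁻¹ * (a * k * a⁻¹) := by group
    rw [e] at h2
    exact h2)
  exact ⟨k * d, ⟨K.mul_mem hk (hNK hd), hc⟩, by simpa using hd⟩

end Cfsg.Agent.S0022
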