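import Cfsg.Statements.S0024
import Cfsg.Agent.Lib.Helper1.Coprime2

set_option autoImplicit false
open Cfsg

namespace Cfsg.Agent.S0024

theorem result {G : Type*} [Group G] [Finite G] (A K : Subgroup G) (hAK : A ≤ Subgroup.normalizer (K : Set G))
    (hcop : (Nat.card A).Coprime (Nat.card K)) (hsolv : Group.IsSolvable A ∨ Group.IsSolvable K)
    (p : ℕ) [Fact p.Prime] (P Q : Sylow p K)
    (hP : A ≤ Subgroup.normalizer ((P : Subgroup K).map K.subtype : Set G))
    (hQ : A ≤ Subgroup.normalizer ((Q : Subgroup K).map K.subtype : Set G)) :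
    ∃ c : K, (c : G) ∈ Subgroup.centralizer (A : Set G) ∧ MulAut.conj c • P = Q :=
  Cfsg.Agent.Lib.Helper1.invariant_sylow_conj hAK hcop hsolv p P Q hP hQ

end Cfsg.Agent.S0024
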