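import Cfsg.Statements.S0030
import Cfsg.Agent.Lib.Helper1.Coprime

set_option autoImplicit false
open Cfsg
open Cfsg.Agent.Lib.Helper1

namespace Cfsg.Agent.S0030

theorem result {G : Type*} [Group G] [Finite G] (A K : Subgroup G) (hAK : A ≤ Subgroup.normalizer (K : Set G))
    (hcop : (Nat.card A).Coprime (Nat.card K)) (hsolv : Group.IsSolvable A ∨ Group.IsSolvable K)
    (X Y : Subgroup G) (hX : X ≤ K) (hY : Y ≤ K) (hXA : A ≤ Subgroup.normalizer (X : Set G)) (hYA : A ≤ Subgroup.normalizer (Y : Set G))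
    (hXY : ∀ k ∈ K, ∃ x ∈ X, ∃ y ∈ Y, k = x * y) (k : G) (hk : k ∈ K ⊓ Subgroup.centralizer (A : Set G)) :
    ∃ x ∈ X ⊓ Subgroup.centralizer (A : Set G), ∃ y ∈ Y ⊓ Subgroup.centralizer (A : Set G), k = x * y := by
  obtain ⟨x₀, hx₀, y₀, hy₀, hk0⟩ := hXY k hk.1
  have hkc := Subgroup.mem_centralizer_iff.mp hk.2
  have hDK : X ⊓ Y ≤ K := inf_le_left.trans hX
  have hAD : A ≤ Subgroup.normalizer ((X ⊓ Y : Subgroup G) : Set G) :=
    (le_inf hXA hYA).trans Subgroup.inf_normalizer_le_normalizer_inf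
  have hcop' : (Nat.card A).Coprime (Nat.card (X ⊓ Y : Subgroup G)) :=
    Nat.Coprime.coprime_dvd_right (Subgroup.card_dvd_of_le hDK) hcop
  obtain ⟨d, hd, hc⟩ := coprime_coset_fixed hAD hcop' (solvable_or_of_le hDK hsolv) x₀
    (fun a ha => by
      refine ⟨X.mul_mem (X.inv_mem hx₀) ((Subgroup.mem_normalizer_iff.mp (hXA ha) _).mp hx₀), ?_⟩
      have h1 : a * k = k * a := hkc a ha
      have h2 : x₀⁻¹ * (a * x₀ * a⁻¹) = y₀ * (a * y₀⁻¹ * a⁻¹) := by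
        have h3 : a * x₀ * a⁻¹ = (a * k * a⁻¹) * (a * y₀⁻¹ * a⁻¹) := by rw [hk0]; group
        rw [h3, h1, hk0]; group
      rw [h2]
      exact Y.mul_mem hy₀ ((Subgroup.mem_normalizer_iff.mp (hYA ha) _).mp (Y.inv_mem hy₀)))
  have hxc : x₀ * d ∈ X ⊓ Subgroup.centralizer (A : Set G) := ⟨X.mul_mem hx₀ hd.1, hc⟩
  refine ⟨x₀ * d, hxc, (x₀ * d)⁻¹ * k, ⟨?_, ?_⟩, by group⟩
  · have e : (x₀ * d)⁻¹ * k = d⁻¹ * y₀ := by rw [hk0]; group
    rw [e]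
    exact Y.mul_mem (Y.inv_mem hd.2) hy₀
  · exact Subgroup.mul_mem _ (Subgroup.inv_mem _ hc) hk.2

end Cfsg.Agent.S0030
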