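import Cfsg.Statements.S0036
import Mathlib

set_option autoImplicit false
open Cfsg

namespace Cfsg.Agent.S0036

universe u

open scoped Pointwise

theorem card_ne_one_subtype {α : Type u} [Finite α] (a : α) :
    Nat.card {b : α // b ≠ a} = Nat.card α - 1 := by
  classical
  have h1 := Nat.card_congr (Equiv.optionSubtypeNe a)
  rw [Finite.card_option] at h1
  omega

theorem card_U {G : Type u} [Group G] [Finite G] (M : Subgroup G)
    (hTI : ∀ g : G, g ∉ M → ∀ x ∈ M, g * x * g⁻¹ ∈ M → x = 1) :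
    Nat.card {x : G // x ≠ 1 ∧ ∃ g : G, g⁻¹ * x * g ∈ M} = M.index * (Nat.card M - 1) := by
  classical
  let f : (G ⧸ M) × {m : M // m ≠ 1} → {x : G // x ≠ 1 ∧ ∃ g : G, g⁻¹ * x * g ∈ M} :=
    fun qm => ⟨qm.1.out * (qm.2.1 : G) * qm.1.out⁻¹, by
      refine ⟨fun h1 => qm.2.2 ?_, qm.1.out, ?_⟩
      · have h2 : ((qm.2.1 : M) : G) = 1 := by
          have := congrArg (fun y => qm.1.out⁻¹ * y * qm.1.out) h1
          simpa [mul_assoc] using this
        exact Subtype.ext h2
      · have : (qm.1.out)⁻¹ * (qm.1.out * (qm.2.1 : G) * qm.1.out⁻¹) * qm.1.out = (qm.2.1 : G) := by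
          group
        rw [this]
        exact qm.2.1.2⟩
  have hinj : Function.Injective f := by
    rintro ⟨q, m⟩ ⟨q', m'⟩ hqm
    have h1 : q.out * (m.1 : G) * q.out⁻¹ = q'.out * (m'.1 : G) * q'.out⁻¹ :=
      congrArg Subtype.val hqm
    have h2 : (q'.out⁻¹ * q.out) * (m.1 : G) * (q'.out⁻¹ * q.out)⁻¹ = (m'.1 : G) := by
      have := congrArg (fun y => q'.out⁻¹ * y * q'.out) h1
      simp only [mul_assoc, inv_mul_cancel_left, inv_mul_cancel, mul_one] at this
      rw [← this]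
      group
    have h3 : q'.out⁻¹ * q.out ∈ M := by
      by_contra hnot
      have h4 := hTI _ hnot (m.1 : G) m.1.2 (by rw [h2]; exact m'.1.2)
      exact m.2 (Subtype.ext h4)
    have hq : q' = q := by
      rw [← QuotientGroup.out_eq' q', ← QuotientGroup.out_eq' q]
      exact QuotientGroup.eq.2 h3
    subst hq
    have h5 : (m.1 : G) = (m'.1 : G) := by
      have := congrArg (fun y => q'.out⁻¹ * y * q'.out) h1
      simpa [mul_assoc] using this
    have h6 : m = m' := Subtype.ext (Subtype.ext h5)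
    rw [h6]
  have hsurj : Function.Surjective f := by
    rintro ⟨x, hx1, g, hg⟩
    obtain ⟨m₀, hm₀⟩ := QuotientGroup.mk_out_eq_mul M g
    have hmem : ((g : G ⧸ M).out)⁻¹ * x * (g : G ⧸ M).out ∈ M := by
      rw [hm₀]
      have : (g * (m₀ : G))⁻¹ * x * (g * (m₀ : G)) = (m₀ : G)⁻¹ * (g⁻¹ * x * g) * (m₀ : G) := by group
      rw [this]
      exact M.mul_mem (M.mul_mem (M.inv_mem m₀.2) hg) m₀.2
    have hne : (⟨_, hmem⟩ : M) ≠ 1 := by
      intro h1
      have h2 : ((g : G ⧸ M).out)⁻¹ * x * (g : G ⧸ M).out = 1 := congrArg Subtype.val h1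
      apply hx1
      have := congrArg (fun y => (g : G ⧸ M).out * y * ((g : G ⧸ M).out)⁻¹) h2
      simpa [mul_assoc] using this
    refine ⟨⟨(g : G ⧸ M), ⟨⟨_, hmem⟩, hne⟩⟩, ?_⟩
    apply Subtype.ext
    show (g : G ⧸ M).out * (((g : G ⧸ M).out)⁻¹ * x * (g : G ⧸ M).out) * ((g : G ⧸ M).out)⁻¹ = x
    group
  rw [← Nat.card_eq_of_bijective f ⟨hinj, hsurj⟩, Nat.card_prod, card_ne_one_subtype]
  rfl



theorem inv_conj {G : Type u} [Group G] (a b : G) (ha : a * a = 1) (hb : b * b = 1) :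
    a * (a * b) * a⁻¹ = (a * b)⁻¹ := by
  have ha' : a⁻¹ = a := inv_eq_of_mul_eq_one_left ha
  have hb' : b⁻¹ = b := inv_eq_of_mul_eq_one_left hb
  rw [mul_inv_rev, ha', hb', ← mul_assoc a a b, ha, one_mul]

theorem result {G : Type*} [Group G] [Finite G] (H : Subgroup G) (hH : Cfsg.IsFrobeniusComplement H)
    (t : G) (ht : t ∈ H) (ht1 : t ≠ 1) (ht2 : t * t = 1) :
    ∀ x ∈ Cfsg.frobeniusKernel H, ∀ y ∈ Cfsg.frobeniusKernel H, x * y ∈ Cfsg.frobeniusKernel H := by
  classical
  obtain ⟨hbot, htop, hfrob⟩ := hH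
  have hmem : ∀ g x : G, x ∈ MulAut.conj g • H ↔ g⁻¹ * x * g ∈ H := by
    intro g x
    rw [Subgroup.mem_pointwise_smul_iff_inv_smul_mem]
    simp [MulAut.smul_def]
  have hTI : ∀ g : G, g ∉ H → ∀ x ∈ H, g * x * g⁻¹ ∈ H → x = 1 := by
    intro g hg x hx hgx
    have h1 : g * x * g⁻¹ ∈ H ⊓ MulAut.conj g • H := by
      refine ⟨hgx, (hmem g _).2 ?_⟩
      have : g⁻¹ * (g * x * g⁻¹) * g = x := by group
      rw [this]
      exact hx
    rw [hfrob g hg, Subgroup.mem_bot] at h1
    have := congrArg (fun y => g⁻¹ * y * g) h1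
    simpa [mul_assoc] using this
  have hK : ∀ x : G, x ∈ Cfsg.frobeniusKernel H ↔ ¬ (x ≠ 1 ∧ ∃ g : G, g⁻¹ * x * g ∈ H) := by
    intro x
    unfold Cfsg.frobeniusKernel
    simp only [Set.mem_ofPred_eq, hmem]
    constructor
    · rintro (h | h) ⟨h1, g, hg⟩
      · exact h1 h
      · exact h g hg
    · intro h
      by_cases hx : x = 1
      · exact Or.inl hx
      · exact Or.inr (fun g hg => h ⟨hx, g, hg⟩)
  have hcardU := card_U H hTI
  have hcardK : Nat.card {x : G // x ∈ Cfsg.frobeniusKernel H} = H.index := by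
    have h1 : Nat.card {x : G // x ∈ Cfsg.frobeniusKernel H} =
        Nat.card {x : G // ¬ (x ≠ 1 ∧ ∃ g : G, g⁻¹ * x * g ∈ H)} :=
      Nat.card_congr (Equiv.subtypeEquivRight hK)
    have h2 := Nat.card_congr (Equiv.sumCompl (fun x : G => x ≠ 1 ∧ ∃ g : G, g⁻¹ * x * g ∈ H))
    rw [Nat.card_sum, hcardU] at h2
    have h3 := H.card_mul_index
    have h4 : 1 ≤ Nat.card H := Nat.card_pos
    rw [h1]
    have h5 : H.index * (Nat.card H - 1) + H.index = Nat.card G := by
      rw [← h3]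
      have : Nat.card H = (Nat.card H - 1) + 1 := by omega
      nth_rewrite 2 [this]
      ring
    omega
  let s : G ⧸ H → G := fun q => q.out * t * q.out⁻¹
  have hs2 : ∀ q, s q * s q = 1 := by
    intro q
    show q.out * t * q.out⁻¹ * (q.out * t * q.out⁻¹) = 1
    have : q.out * t * q.out⁻¹ * (q.out * t * q.out⁻¹) = q.out * (t * t) * q.out⁻¹ := by group
    rw [this, ht2]; group
  have hsq : ∀ (q : G ⧸ H) (x : G), x⁻¹ * s q * x ∈ H → (x : G ⧸ H) = q := by
    intro q x hx
    have h1 : x⁻¹ * q.out ∈ H := by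
      by_contra hnot
      apply ht1
      apply hTI _ hnot t ht
      have : x⁻¹ * q.out * t * (x⁻¹ * q.out)⁻¹ = x⁻¹ * s q * x := by
        show _ = x⁻¹ * (q.out * t * q.out⁻¹) * x
        group
      rw [this]
      exact hx
    rw [← QuotientGroup.out_eq' q]
    exact QuotientGroup.eq.2 h1
  have hsinj : Function.Injective s := by
    intro q q' hqq
    have h1 : q.out⁻¹ * s q' * q.out ∈ H := by
      rw [← hqq]
      have : q.out⁻¹ * s q * q.out = t := by
        show q.out⁻¹ * (q.out * t * q.out⁻¹) * q.out = t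
        group
      rw [this]
      exact ht
    have h2 := hsq q' q.out h1
    rw [QuotientGroup.out_eq'] at h2
    exact h2
  have ha : ∀ q q', s q * s q' ∈ Cfsg.frobeniusKernel H := by
    intro q q'
    by_cases hqq : q = q'
    · subst hqq
      rw [hs2]
      exact Or.inl rfl
    · rw [hK]
      rintro ⟨hne, x, hx⟩
      have hab : (x⁻¹ * s q * x) * (x⁻¹ * s q' * x) ∈ H := by
        have : (x⁻¹ * s q * x) * (x⁻¹ * s q' * x) = x⁻¹ * (s q * s q') * x := by group
        rw [this]; exact hx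
      by_cases haH : x⁻¹ * s q * x ∈ H
      · have hbH : x⁻¹ * s q' * x ∈ H := by
          have := H.mul_mem (H.inv_mem haH) hab
          simpa [mul_assoc] using this
        exact hqq ((hsq q x haH).symm.trans (hsq q' x hbH))
      · have hconjsq : ∀ q₁ : G ⧸ H, (x⁻¹ * s q₁ * x) * (x⁻¹ * s q₁ * x) = 1 := by
          intro q₁
          have : x⁻¹ * s q₁ * x * (x⁻¹ * s q₁ * x) = x⁻¹ * (s q₁ * s q₁) * x := by group
          rw [this, hs2]; group
        have h1 := hTI _ haH _ hab (by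
          rw [inv_conj _ _ (hconjsq q) (hconjsq q')]
          exact H.inv_mem hab)
        apply hne
        have := congrArg (fun y => x * y * x⁻¹) h1
        simpa [mul_assoc] using this
  have hKinv : ∀ x : G, x ∈ Cfsg.frobeniusKernel H → x⁻¹ ∈ Cfsg.frobeniusKernel H := by
    intro x hx
    rw [hK] at hx ⊢
    rintro ⟨h1, g, hg⟩
    apply hx
    refine ⟨fun h => h1 (by rw [h, inv_one]), g, ?_⟩
    have := H.inv_mem hg
    simpa [mul_assoc] using this
  -- the bijection
  set q₀ : G ⧸ H := ((1 : G) : G ⧸ H) with hq₀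
  let f : G ⧸ H → {x : G // x ∈ Cfsg.frobeniusKernel H} := fun q' => ⟨s q₀ * s q', ha q₀ q'⟩
  have hf : Function.Injective f := by
    intro a b hab
    have h1 : s q₀ * s a = s q₀ * s b := congrArg Subtype.val hab
    exact hsinj (mul_left_cancel h1)
  have hfb : Function.Bijective f :=
    hf.bijective_of_nat_card_le (by rw [hcardK]; exact le_of_eq rfl)
  intro x hx y hy
  obtain ⟨j, hj⟩ := hfb.2 ⟨x⁻¹, hKinv x hx⟩
  obtain ⟨k, hk⟩ := hfb.2 ⟨y, hy⟩
  have hj' : x⁻¹ = s q₀ * s j := (congrArg Subtype.val hj).symm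
  have hk' : y = s q₀ * s k := (congrArg Subtype.val hk).symm
  have hinvs : ∀ q, (s q)⁻¹ = s q := by
    intro q
    rw [inv_eq_iff_mul_eq_one, hs2]
  have hx' : x = s j * s q₀ := by
    have := congrArg Inv.inv hj'
    rw [inv_inv, mul_inv_rev, hinvs, hinvs] at this
    exact this
  rw [hx', hk']
  have : s j * s q₀ * (s q₀ * s k) = s j * (s q₀ * s q₀) * s k := by group
  rw [this, hs2, mul_one]
  exact ha j k

end Cfsg.Agent.S0036
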