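import Cfsg.Statements.S0048
import Mathlib

set_option autoImplicit false
open Cfsg

namespace Cfsg.Agent.S0048

open scoped commutatorElement

theorem card_mul_relIndex' {G : Type*} [Group G] {H K : Subgroup G} (h : H ≤ K) :
    Nat.card H * H.relIndex K = Nat.card K := by
  have := Subgroup.card_mul_index (H.subgroupOf K)
  rw [Nat.card_congr (Subgroup.subgroupOfEquivOfLe h).toEquiv] at this
  exact this

theorem index_eq_relIndex_of_sup {G : Type*} [Group G] [Finite G] (M A : Subgroup G) [A.Normal]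
    (h : M ⊔ A = ⊤) : M.index = (A ⊓ M).relIndex A := by
  have h1 := Subgroup.card_mul_index M
  have h2 := Subgroup.card_mul_index A
  have h3 : A.index = (A ⊓ M).relIndex M := by
    rw [Subgroup.inf_relIndex_right, ← Subgroup.relIndex_sup_right (H := M) (K := A), h,
      Subgroup.relIndex_top_right]
  have h4 := card_mul_relIndex' (inf_le_right : A ⊓ M ≤ M)
  have h5 := card_mul_relIndex' (inf_le_left : A ⊓ M ≤ A)
  have hc : 0 < Nat.card ↥(A ⊓ M) := Nat.card_pos
  have hj : 0 < (A ⊓ M).relIndex M := by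
    rcases Nat.eq_zero_or_pos ((A ⊓ M).relIndex M) with h0 | h0
    · rw [h0, mul_zero] at h4
      have : 0 < Nat.card ↥M := Nat.card_pos
      omega
    · exact h0
  have key : Nat.card ↥(A ⊓ M) * (A ⊓ M).relIndex M * M.index =
      Nat.card ↥(A ⊓ M) * (A ⊓ M).relIndex A * (A ⊓ M).relIndex M := by
    rw [h4, h1, h5, ← h3]
    exact h2.symm
  have key' : Nat.card ↥(A ⊓ M) * (A ⊓ M).relIndex M * M.index =
      Nat.card ↥(A ⊓ M) * (A ⊓ M).relIndex M * (A ⊓ M).relIndex A := by
    rw [key]; ring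
  exact Nat.eq_of_mul_eq_mul_left (Nat.mul_pos hc hj) key'

theorem primePow_index_of_section {G : Type*} [Group G] [Finite G] (M : Subgroup G) (hM : IsCoatom M)
    (A : Subgroup G) [hAn : A.Normal] (hBM : ⁅A, A⁆ ≤ M) (hAM : ¬ A ≤ M) :
    IsPrimePow M.index := by
  have hMA : M ⊔ A = ⊤ := by
    apply hM.2
    apply lt_of_le_of_ne le_sup_left
    intro h
    apply hAM
    rw [h]; exact le_sup_right
  have hBA : ⁅A, A⁆ ≤ A := Subgroup.commutator_le_left A A
  set R := A ⊓ M with hR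
  have hBR : ⁅A, A⁆ ≤ R := le_inf hBA hBM
  have hRn : R.Normal := by
    constructor
    intro n hn g
    have hg : g ∈ M ⊔ A := by rw [hMA]; trivial
    rw [← SetLike.mem_coe, Subgroup.mul_normal] at hg
    obtain ⟨m, hm, a, ha, rfl⟩ := Set.mem_mul.mp hg
    have h1 : a * n * a⁻¹ ∈ R := by
      refine ⟨A.mul_mem (A.mul_mem ha hn.1) (A.inv_mem ha), ?_⟩
      have : a * n * a⁻¹ = ⁅a, n⁆ * n := by simp [commutatorElement_def]
      rw [this]
      exact M.mul_mem (hBM (Subgroup.commutator_mem_commutator ha hn.1)) hn.2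
    have h2 : m * a * n * (m * a)⁻¹ = m * (a * n * a⁻¹) * m⁻¹ := by group
    rw [h2]
    exact ⟨hAn.conj_mem _ h1.1 m, M.mul_mem (M.mul_mem hm h1.2) (M.inv_mem hm)⟩
  haveI := hRn
  have hidx : M.index = R.relIndex A := index_eq_relIndex_of_sup M A hMA
  have hMtop : M.index ≠ 1 := by rw [Ne, Subgroup.index_eq_one]; exact hM.1
  obtain ⟨p, hp, hpd⟩ := Nat.exists_prime_and_dvd hMtop
  haveI : Fact p.Prime := ⟨hp⟩
  have hcardQ : Nat.card (A ⧸ R.subgroupOf A) = R.relIndex A := (Subgroup.index_eq_card _).symm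
  obtain ⟨q, hq⟩ := exists_prime_orderOf_dvd_card' (G := A ⧸ R.subgroupOf A) p
    (by rw [hcardQ, ← hidx]; exact hpd)
  obtain ⟨x, rfl⟩ := QuotientGroup.mk_surjective q
  have hxp : (x : G) ^ p ∈ R := by
    have : ((x ^ p : A) : A ⧸ R.subgroupOf A) = 1 := by
      rw [QuotientGroup.mk_pow, ← hq]; exact pow_orderOf_eq_one _
    rw [QuotientGroup.eq_one_iff] at this
    exact this
  have hxR : (x : G) ∉ R := by
    intro h
    have : (x : A ⧸ R.subgroupOf A) = 1 := (QuotientGroup.eq_one_iff x).mpr h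
    rw [this, orderOf_one] at hq
    exact hp.one_lt.ne hq
  let π := QuotientGroup.mk' ⁅A, A⁆
  have hcomm : ∀ x ∈ A, ∀ y ∈ A, Commute (π x) (π y) := by
    intro x hx y hy
    show π x * π y = π y * π x
    rw [← map_mul, ← map_mul]
    apply QuotientGroup.eq.mpr
    have : (x * y)⁻¹ * (y * x) = ⁅y⁻¹, x⁻¹⁆ := by simp [commutatorElement_def, mul_assoc]
    rw [this]
    exact Subgroup.commutator_mem_commutator (A.inv_mem hy) (A.inv_mem hx)
  let L : Subgroup G :=
    { carrier := {x | x ∈ A ∧ x ^ p ∈ R}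
      mul_mem' := by
        rintro x y ⟨hx, hxp⟩ ⟨hy, hyp⟩
        refine ⟨A.mul_mem hx hy, ?_⟩
        have h1 : π ((x * y) ^ p) = π (x ^ p * y ^ p) := by
          rw [map_pow, map_mul, (hcomm x hx y hy).mul_pow, map_mul, map_pow, map_pow]
        have h2 : (x ^ p * y ^ p)⁻¹ * (x * y) ^ p ∈ ⁅A, A⁆ := QuotientGroup.eq.mp h1.symm
        have h3 : (x * y) ^ p = (x ^ p * y ^ p) * ((x ^ p * y ^ p)⁻¹ * (x * y) ^ p) := by group
        show (x * y) ^ p ∈ R
        rw [h3]
        exact R.mul_mem (R.mul_mem hxp hyp) (hBR h2)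
      one_mem' := ⟨A.one_mem, by show (1 : G) ^ p ∈ R; rw [one_pow]; exact R.one_mem⟩
      inv_mem' := by
        rintro x ⟨hx, hxp⟩
        exact ⟨A.inv_mem hx, by show x⁻¹ ^ p ∈ R; rw [inv_pow]; exact R.inv_mem hxp⟩ }
  have hLmem : ∀ x, x ∈ L ↔ x ∈ A ∧ x ^ p ∈ R := fun x => Iff.rfl
  have hLn : L.Normal := by
    constructor
    intro n hn g
    rw [hLmem] at hn ⊢
    refine ⟨hAn.conj_mem n hn.1 g, ?_⟩
    rw [conj_pow]
    exact hRn.conj_mem _ hn.2 g
  haveI := hLn
  have hLM : ¬ L ≤ M := by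
    intro h
    apply hxR
    exact ⟨x.2, h ((hLmem _).mpr ⟨x.2, hxp⟩)⟩
  have hML : M ⊔ L = ⊤ := by
    apply hM.2
    apply lt_of_le_of_ne le_sup_left
    intro h
    apply hLM
    rw [h]; exact le_sup_right
  have hLR : L ⊓ M = R := by
    apply le_antisymm
    · rintro x ⟨hxL, hxM⟩
      exact ⟨((hLmem x).mp hxL).1, hxM⟩
    · intro x hx
      exact ⟨(hLmem x).mpr ⟨hx.1, R.pow_mem hx p⟩, hx.2⟩
  have hidx2 : M.index = R.relIndex L := by
    rw [index_eq_relIndex_of_sup M L hML, hLR]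
  have hpg : IsPGroup p (L ⧸ R.subgroupOf L) := by
    intro g
    refine ⟨1, ?_⟩
    induction g using QuotientGroup.induction_on with
    | H y =>
      rw [pow_one, ← QuotientGroup.mk_pow, QuotientGroup.eq_one_iff]
      exact ((hLmem y).mp y.2).2
  obtain ⟨n, hn⟩ := hpg.exists_card_eq
  have hcardQ2 : Nat.card (L ⧸ R.subgroupOf L) = R.relIndex L := (Subgroup.index_eq_card _).symm
  rw [hcardQ2, ← hidx2] at hn
  rw [hn]
  have hn0 : n ≠ 0 := by
    intro h; rw [h, pow_zero] at hn; exact hMtop hn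
  exact hp.isPrimePow.pow hn0

/-- In a finite solvable group every maximal subgroup has index a prime power. -/
theorem result {G : Type*} [Group G] [Finite G] [Group.IsSolvable G]
    (M : Subgroup G) (hM : IsCoatom M) : IsPrimePow M.index := by
  obtain ⟨n, hn⟩ := (inferInstance : Group.IsSolvable G).solvable
  have hex : ∃ i, derivedSeries G i ≤ M := ⟨n, by rw [hn]; exact bot_le⟩
  classical
  have h0 : Nat.find hex ≠ 0 := by
    intro h
    have := Nat.find_spec hex
    rw [h, derivedSeries_zero] at this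
    exact hM.1 (top_le_iff.mp this)
  obtain ⟨j, hj⟩ := Nat.exists_eq_succ_of_ne_zero h0
  have hj1 : derivedSeries G (j + 1) ≤ M := by
    have := Nat.find_spec hex
    rw [hj] at this
    exact this
  have hj0 : ¬ derivedSeries G j ≤ M := Nat.find_min hex (by rw [hj]; exact Nat.lt_succ_self j)
  exact primePow_index_of_section M hM (derivedSeries G j) (by rw [derivedSeries_succ] at hj1; exact hj1) hj0

end Cfsg.Agent.S0048
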