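import Cfsg.Statements.S0049
import Mathlib

set_option autoImplicit false
open Cfsg

namespace Cfsg.Agent.S0049

/-- A prime divisor of the order of a finite group also divides the index of the Frattini subgroup. -/
theorem result {G : Type*} [Group G] [Finite G] (p : ℕ) (hp : p.Prime) (hdvd : p ∣ Nat.card G) :
    p ∣ (frattini G).index := by
  by_contra hnd
  haveI : Fact p.Prime := ⟨hp⟩
  obtain ⟨P⟩ : Nonempty (Sylow p (frattini G)) := inferInstance
  have fa := Sylow.normalizer_sup_eq_top P
  have nP := frattini_nongenerating fa
  set Q : Subgroup G := Subgroup.map (frattini G).subtype (P : Subgroup (frattini G)) with hQ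
  have hQn : Q.Normal := Subgroup.normalizer_eq_top_iff.mp nP
  have hQcard : Nat.card Q = Nat.card (P : Subgroup (frattini G)) :=
    Subgroup.card_map_of_injective (Subgroup.subtype_injective _)
  have hPcard : Nat.card (P : Subgroup (frattini G)) = p ^ (Nat.card (frattini G)).factorization p :=
    Sylow.card_eq_multiplicity P
  have hQidx : Q.index = (P : Subgroup (frattini G)).index * (frattini G).index :=
    Subgroup.index_map_subtype _
  have hPnd : ¬ p ∣ (P : Subgroup (frattini G)).index := Sylow.not_dvd_index P
  have hcop : Nat.Coprime (Nat.card Q) Q.index := by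
    rw [hQcard, hPcard, hQidx]
    apply Nat.Coprime.pow_left
    rw [Nat.Prime.coprime_iff_not_dvd hp]
    intro h
    rcases (Nat.Prime.dvd_mul hp).mp h with h | h
    · exact hPnd h
    · exact hnd h
  obtain ⟨H, hH⟩ := Subgroup.exists_right_complement'_of_coprime hcop
  have hsup : Q ⊔ H = ⊤ := hH.sup_eq_top
  have hQle : Q ≤ frattini G := Subgroup.map_subtype_le _
  have hHf : H ⊔ frattini G = ⊤ := by
    rw [eq_top_iff, ← hsup, sup_comm]
    exact sup_le_sup_left hQle H
  have hHtop : H = ⊤ := frattini_nongenerating hHf
  have hQbot : Q = ⊥ := by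
    have := hH.disjoint
    rw [hHtop] at this
    exact disjoint_top.mp this
  have hQ1 : Nat.card Q = 1 := by rw [hQbot]; exact Subgroup.card_bot
  rw [hQcard, hPcard] at hQ1
  have hk : (Nat.card (frattini G)).factorization p = 0 := by
    by_contra hk
    have := Nat.one_lt_pow hk hp.one_lt
    omega
  have hnd2 : ¬ p ∣ Nat.card (frattini G) := by
    intro h
    have := (hp.factorization_pos_of_dvd Nat.card_pos.ne' h)
    omega
  have hG : Nat.card (frattini G) * (frattini G).index = Nat.card G := Subgroup.card_mul_index _
  rw [← hG] at hdvd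
  rcases (Nat.Prime.dvd_mul hp).mp hdvd with h | h
  · exact hnd2 h
  · exact hnd h

end Cfsg.Agent.S0049
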