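import Cfsg.Statements.S0050
import Mathlib
import Cfsg.Agent.Lib.Helper1.Hall

set_option autoImplicit false
open Cfsg

namespace Cfsg.Agent.S0050

open scoped Pointwise

theorem mem_conj_smul {G : Type*} [Group G] (H : Subgroup G) (g x : G) :
    x ∈ MulAut.conj g • H ↔ g⁻¹ * x * g ∈ H := by
  rw [Subgroup.mem_pointwise_smul_iff_inv_smul_mem]
  simp [MulAut.smul_def]

theorem mem_normalizer_of_finite {G : Type*} [Group G] (R : Subgroup G) [Finite R] (g : G)
    (h : ∀ n ∈ R, g * n * g⁻¹ ∈ R) : g ∈ Subgroup.normalizer (R : Set G) := by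
  rw [Subgroup.mem_set_normalizer_iff]
  intro n
  constructor
  · exact h n
  · intro hn
    let f : R → R := fun m => ⟨g * m * g⁻¹, h m m.2⟩
    have hinj : Function.Injective f := by
      intro a b hab
      have := congrArg Subtype.val hab
      simp only [f, mul_left_inj, mul_right_inj] at this
      exact Subtype.ext this
    have hsurj := Finite.injective_iff_surjective.mp hinj
    obtain ⟨m, hm⟩ := hsurj ⟨g * n * g⁻¹, hn⟩
    have := congrArg Subtype.val hm
    simp only [f, mul_left_inj, mul_right_inj] at this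
    rw [← this]; exact m.2

/-- Frattini argument for Hall subgroups: if L is a solvable normal subgroup and H a subgroup of L of order coprime to its index in L, then L together with the normaliser of H generates the whole group. -/
theorem result {G : Type*} [Group G] [Finite G] (L : Subgroup G) [L.Normal] (hL : Group.IsSolvable L)
    (H : Subgroup G) (hHL : H ≤ L) (hHall : (Nat.card H).Coprime (H.relIndex L)) :
    L ⊔ Subgroup.normalizer (H : Set G) = ⊤ := by
  haveI := hL
  rw [eq_top_iff]
  intro g _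
  have hcL : MulAut.conj g • H ≤ L := by
    intro x hx
    rw [mem_conj_smul] at hx
    have h1 := hHL hx
    have h2 : x = g * (g⁻¹ * x * g) * g⁻¹ := by group
    rw [h2]
    exact (inferInstance : L.Normal).conj_mem _ h1 g
  have hcard1 : Nat.card ↥(H.subgroupOf L) = Nat.card H :=
    Nat.card_congr (Subgroup.subgroupOfEquivOfLe hHL).toEquiv
  have hcard2 : Nat.card ↥((MulAut.conj g • H).subgroupOf L) = Nat.card H := by
    rw [Nat.card_congr (Subgroup.subgroupOfEquivOfLe hcL).toEquiv]
    exact (Nat.card_congr (Subgroup.equivSMul (MulAut.conj g) H).toEquiv).symm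
  have hcardL : Nat.card L = Nat.card H * H.relIndex L := by
    rw [← hcard1]
    exact (Subgroup.card_mul_index (H.subgroupOf L)).symm
  obtain ⟨l, hl⟩ := Cfsg.Agent.Lib.Helper1.hall_conj (G := L) (Nat.card H) (H.relIndex L) hcardL hHall
    (H.subgroupOf L) ((MulAut.conj g • H).subgroupOf L) hcard1 hcard2
  have hkey : g⁻¹ * (l : G) ∈ Subgroup.normalizer (H : Set G) := by
    apply mem_normalizer_of_finite
    intro n hn
    have h1 : (⟨n, hHL hn⟩ : L) ∈ H.subgroupOf L := by
      rw [Subgroup.mem_subgroupOf]; exact hn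
    have h2 : l * (⟨n, hHL hn⟩ : L) * l⁻¹ ∈ MulAut.conj l • (H.subgroupOf L) := by
      rw [mem_conj_smul]
      have : l⁻¹ * (l * (⟨n, hHL hn⟩ : L) * l⁻¹) * l = ⟨n, hHL hn⟩ := by group
      rw [this]; exact h1
    rw [hl, Subgroup.mem_subgroupOf, mem_conj_smul] at h2
    have h3 : g⁻¹ * (l : G) * n * (g⁻¹ * (l : G))⁻¹ = g⁻¹ * ((l : G) * n * (l : G)⁻¹) * g := by group
    rw [h3]
    exact h2
  have hg : g = (l : G) * (g⁻¹ * (l : G))⁻¹ := by group
  rw [hg]
  exact Subgroup.mul_mem _ (Subgroup.mem_sup_left l.2) (Subgroup.mem_sup_right (Subgroup.inv_mem _ hkey))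

end Cfsg.Agent.S0050
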