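import Cfsg.Statements.S0053
import Mathlib

set_option autoImplicit false
open Cfsg

namespace Cfsg.Agent.S0053

theorem result {G : Type*} [Group G] [Finite G]
    (N : Subgroup G) [N.Normal] [IsMulCommutative N] (hN : N ≠ ⊥)
    (hmin : ∀ M : Subgroup G, M.Normal → M ≤ N → M = ⊥ ∨ M = N) :
    (∃ H : Subgroup G, Subgroup.IsComplement' N H) ↔ ¬ N ≤ frattini G := by
  constructor
  · rintro ⟨H, hH⟩ hle
    have h1 : H ⊔ frattini G = ⊤ := by
      have := hH.sup_eq_top
      apply le_antisymm le_top
      rw [← this, sup_comm]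
      exact sup_le_sup_left hle H
    have h2 : H = ⊤ := frattini_nongenerating h1
    have h3 := hH.disjoint
    rw [h2] at h3
    exact hN (disjoint_top.mp h3)
  · intro hle
    have : ∃ M : Subgroup G, IsCoatom M ∧ ¬ N ≤ M := by
      by_contra hcon
      push Not at hcon
      apply hle
      unfold frattini Order.radical
      exact le_iInf₂ fun M hM => hcon M hM
    obtain ⟨M, hM, hNM⟩ := this
    have hsup : N ⊔ M = ⊤ := by
      apply hM.2
      apply lt_of_le_of_ne le_sup_right
      intro h
      apply hNM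
      rw [h]
      exact le_sup_left
    have hmul : ∀ g : G, ∃ n ∈ N, ∃ m ∈ M, g = n * m := by
      intro g
      have hg : g ∈ N ⊔ M := by rw [hsup]; trivial
      rw [← SetLike.mem_coe, Subgroup.normal_mul] at hg
      obtain ⟨n, hn, m, hm, rfl⟩ := hg
      exact ⟨n, hn, m, hm, rfl⟩
    have hnorm : (N ⊓ M).Normal := by
      constructor
      intro x hx g
      obtain ⟨n, hn, m, hm, rfl⟩ := hmul g
      have hy : m * x * m⁻¹ ∈ N ⊓ M :=
        ⟨Subgroup.Normal.conj_mem inferInstance x hx.1 m, M.mul_mem (M.mul_mem hm hx.2) (M.inv_mem hm)⟩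
      have hc : n * (m * x * m⁻¹) = (m * x * m⁻¹) * n := setLike_mul_comm hn hy.1
      have : n * m * x * (n * m)⁻¹ = m * x * m⁻¹ := by
        calc n * m * x * (n * m)⁻¹ = (n * (m * x * m⁻¹)) * n⁻¹ := by group
          _ = m * x * m⁻¹ := by rw [hc]; group
      rw [this]
      exact hy
    rcases hmin (N ⊓ M) hnorm inf_le_left with h | h
    · refine ⟨M, Subgroup.isComplement'_of_disjoint_and_mul_eq_univ (disjoint_iff.mpr h) ?_⟩
      rw [← Subgroup.normal_mul, hsup, Subgroup.coe_top]
    · exact absurd (h ▸ inf_le_right) hNM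

end Cfsg.Agent.S0053
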