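import Cfsg.Statements.S0054
import Mathlib

set_option autoImplicit false
open Cfsg

namespace Cfsg.Agent.S0054


/-- A regular normal subgroup of a finite 2-transitive group is elementary abelian: it is commutative and all its elements have order dividing one prime. -/
theorem result {G : Type*} [Group G] [Finite G]
    {X : Type*} [Nonempty X] [MulAction G X] (h2 : MulAction.IsMultiplyPretransitive G X 2)
    (N : Subgroup G) [N.Normal] (htrans : MulAction.IsPretransitive N X) (hreg : ∀ x : X, MulAction.stabilizer N x = ⊥) :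
    IsMulCommutative N ∧ ∃ p : ℕ, p.Prime ∧ ∀ n ∈ N, n ^ p = 1 := by
  classical
  obtain ⟨x⟩ := ‹Nonempty X›
  have hfree : ∀ n : G, n ∈ N → n • x = x → n = 1 := by
    intro n hn hx
    have hmem : (⟨n, hn⟩ : N) ∈ MulAction.stabilizer N x := by
      rw [MulAction.mem_stabilizer_iff]; exact hx
    rw [hreg x] at hmem
    exact congrArg Subtype.val (Subgroup.mem_bot.mp hmem)
  have hconj : ∀ n m : G, n ∈ N → m ∈ N → n ≠ 1 → m ≠ 1 → ∃ g : G, g * n * g⁻¹ = m := by
    intro n m hn hm hn1 hm1
    have h1 : x ≠ n • x := fun h => hn1 (hfree n hn h.symm)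
    have h2' : x ≠ m • x := fun h => hm1 (hfree m hm h.symm)
    obtain ⟨g, hgx, hgn⟩ := MulAction.is_two_pretransitive_iff.mp h2 h1 h2'
    refine ⟨g, ?_⟩
    have hmem : g * n * g⁻¹ ∈ N := ‹N.Normal›.conj_mem n hn g
    have hfix : (m⁻¹ * (g * n * g⁻¹)) • x = x := by
      have hgi : g⁻¹ • x = x := by rw [inv_smul_eq_iff, hgx]
      rw [mul_smul, mul_smul, mul_smul, hgi, hgn, inv_smul_smul]
    have h3 := hfree _ (N.mul_mem (N.inv_mem hm) hmem) hfix
    exact (inv_mul_eq_one.mp h3).symm
  by_cases hN : N = ⊥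
  · subst hN
    refine ⟨⟨⟨fun a b => Subsingleton.elim _ _⟩⟩, 2, Nat.prime_two, ?_⟩
    intro n hn; rw [Subgroup.mem_bot.mp hn, one_pow]
  · have hcard : Nat.card N ≠ 1 := fun h => hN (Subgroup.card_eq_one.mp h)
    obtain ⟨p, hp, hpd⟩ := Nat.exists_prime_and_dvd hcard
    have := Fact.mk hp
    obtain ⟨z0, hz0⟩ := exists_prime_orderOf_dvd_card' (G := N) p hpd
    have hpow : ∀ n ∈ N, n ^ p = 1 := by
      intro n hn
      by_cases hn1 : n = 1
      · rw [hn1, one_pow]
      · have hz1 : (z0 : G) ≠ 1 := by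
          intro h
          have h' : z0 = 1 := Subtype.ext h
          rw [h', orderOf_one] at hz0
          exact hp.one_lt.ne hz0
        obtain ⟨g, hg⟩ := hconj z0 n z0.2 hn hz1 hn1
        have hzp : (z0 : G) ^ p = 1 := by
          have h' := pow_orderOf_eq_one z0
          rw [hz0] at h'
          exact_mod_cast congrArg Subtype.val h'
        rw [← hg, conj_pow, hzp]; group
    have hNp : IsPGroup p N := by
      intro n
      refine ⟨1, ?_⟩
      rw [pow_one]; exact Subtype.ext (by simpa using hpow n n.2)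
    have hNnt : Nontrivial N := (Subgroup.nontrivial_iff_ne_bot N).mpr hN
    have hcent : Nontrivial (Subgroup.center N) := hNp.center_nontrivial
    obtain ⟨z, hz1⟩ := exists_ne (1 : Subgroup.center N)
    have hzG1 : ((z : N) : G) ≠ 1 := by
      intro h
      apply hz1
      exact Subtype.ext (Subtype.ext h)
    have hzc : ∀ c ∈ N, c * ((z : N) : G) = ((z : N) : G) * c := by
      intro c hc
      have h' := Subgroup.mem_center_iff.mp z.2 ⟨c, hc⟩
      exact congrArg Subtype.val h'
    refine ⟨⟨⟨fun a b => ?_⟩⟩, p, hp, hpow⟩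
    by_cases ha : (a : G) = 1
    · have : a = 1 := Subtype.ext ha
      rw [this, one_mul, mul_one]
    · obtain ⟨g, hg⟩ := hconj ((z : N) : G) a (z : N).2 a.2 hzG1 ha
      have hb : g⁻¹ * (b : G) * g ∈ N := by
        have := ‹N.Normal›.conj_mem (b : G) b.2 g⁻¹
        simpa using this
      have h3 := hzc _ hb
      apply Subtype.ext
      change (a : G) * (b : G) = (b : G) * (a : G)
      rw [← hg]
      calc g * ((z : N) : G) * g⁻¹ * (b : G) = g * (((z : N) : G) * (g⁻¹ * (b : G) * g)) * g⁻¹ := by group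
        _ = g * ((g⁻¹ * (b : G) * g) * ((z : N) : G)) * g⁻¹ := by rw [h3]
        _ = (b : G) * (g * ((z : N) : G) * g⁻¹) := by group

end Cfsg.Agent.S0054
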