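import Cfsg.Statements.S0060
import Cfsg.Agent.Lib.Helper2.PNilp
import Mathlib

set_option autoImplicit false
open Pointwise
open Cfsg

namespace Cfsg.Agent.S0060

open Cfsg.Agent.Lib.Helper2

theorem result {G : Type*} [Group G] [Finite G] (p : ℕ) [Fact p.Prime]
    (S : Sylow p G) (hS : IsMulCommutative S) (hOp : Cfsg.pCore p G = ⊥) :
    ∃ g : G, (S : Subgroup G) ⊓ MulAut.conj g • (S : Subgroup G) = ⊥ := by
  obtain ⟨g, hg⟩ := Finite.exists_min
    (fun g : G => Nat.card ((S : Subgroup G) ⊓ MulAut.conj g • (S : Subgroup G) : Subgroup G))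
  refine ⟨g, ?_⟩
  set T : Sylow p G := g • S with hT
  have hTcoe : (T : Subgroup G) = MulAut.conj g • (S : Subgroup G) := Sylow.coe_subgroup_smul
  rw [← hTcoe]
  set D : Subgroup G := (S : Subgroup G) ⊓ (T : Subgroup G) with hD
  -- S and T centralize D
  have hSc : ∀ s ∈ (S : Subgroup G), ∀ d ∈ (S : Subgroup G), d * s = s * d := by
    intro s hs d hd
    exact setLike_mul_comm hd hs
  have hSN : (S : Subgroup G) ≤ Subgroup.normalizer (D : Set G) := by
    refine le_trans ?_ (Subgroup.centralizer_le_normalizer _)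
    intro s hs
    rw [Subgroup.mem_centralizer_iff]
    intro d hd
    exact hSc s hs d hd.1
  have hTN : (T : Subgroup G) ≤ Subgroup.normalizer (D : Set G) := by
    refine le_trans ?_ (Subgroup.centralizer_le_normalizer _)
    intro t ht
    rw [Subgroup.mem_centralizer_iff]
    intro d hd
    have h1 : g⁻¹ * t * g ∈ (S : Subgroup G) := (mem_smul_sylow g S t).mp ht
    have h2 : g⁻¹ * d * g ∈ (S : Subgroup G) := (mem_smul_sylow g S d).mp hd.2
    have h3 := hSc _ h1 _ h2
    calc d * t = g * ((g⁻¹ * d * g) * (g⁻¹ * t * g)) * g⁻¹ := by group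
      _ = g * ((g⁻¹ * t * g) * (g⁻¹ * d * g)) * g⁻¹ := by rw [h3]
      _ = t * d := by group
  -- D lies in every Sylow p-subgroup
  have hall : ∀ R : Sylow p G, D ≤ (R : Subgroup G) := by
    intro R
    have hRNp : IsPGroup p (((R : Subgroup G) ⊓ Subgroup.normalizer (D : Set G)).subgroupOf
        (Subgroup.normalizer (D : Set G))) :=
      (R.isPGroup'.to_le inf_le_left).comap_subtype
    obtain ⟨Q1, hQ1⟩ := hRNp.exists_le_sylow
    obtain ⟨x, hx⟩ := MulAction.exists_smul_eq (Subgroup.normalizer (D : Set G))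
      (S.subtype hSN) Q1
    -- R' = x⁻¹ • R
    have hsub : ∀ z ∈ (T : Subgroup G), (x : G) * z * (x : G)⁻¹ ∈ (R : Subgroup G) → z ∈ D := by
      intro z hzT hzR
      refine ⟨?_, hzT⟩
      have hzN : (x : G) * z * (x : G)⁻¹ ∈ Subgroup.normalizer (D : Set G) :=
        Subgroup.mul_mem _ (Subgroup.mul_mem _ x.2 (hTN hzT)) (Subgroup.inv_mem _ x.2)
      have h1 : (⟨(x : G) * z * (x : G)⁻¹, hzN⟩ : Subgroup.normalizer (D : Set G)) ∈
          (Q1 : Subgroup (Subgroup.normalizer (D : Set G))) :=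
        hQ1 (Subgroup.mem_subgroupOf.mpr ⟨hzR, hzN⟩)
      rw [← hx, mem_smul_sylow] at h1
      have h2 : (x : G)⁻¹ * ((x : G) * z * (x : G)⁻¹) * (x : G) ∈ (S : Subgroup G) :=
        Subgroup.mem_subgroupOf.mp h1
      have e : (x : G)⁻¹ * ((x : G) * z * (x : G)⁻¹) * (x : G) = z := by group
      rwa [e] at h2
    obtain ⟨a, ha⟩ := MulAction.exists_smul_eq G S ((x : G)⁻¹ • R)
    -- the intersection R' ⊓ T
    set E : Subgroup G := (((x : G)⁻¹ • R : Sylow p G) : Subgroup G) ⊓ (T : Subgroup G) with hE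
    have hED : E ≤ D := by
      intro z hz
      apply hsub z hz.2
      have := (mem_smul_sylow (x : G)⁻¹ R z).mp hz.1
      simpa using this
    have hcard : Nat.card D ≤ Nat.card E := by
      have h1 := hg (a⁻¹ * g)
      have h2 : E = MulAut.conj a • ((S : Subgroup G) ⊓ MulAut.conj (a⁻¹ * g) • (S : Subgroup G)) := by
        rw [Subgroup.smul_inf, ← mul_smul, ← map_mul, mul_inv_cancel_left, hE, ← ha, hTcoe,
          Sylow.coe_subgroup_smul]
      have h3 : Nat.card E = Nat.card ((S : Subgroup G) ⊓ MulAut.conj (a⁻¹ * g) • (S : Subgroup G) :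
          Subgroup G) := by
        rw [h2]
        exact (Nat.card_congr (Subgroup.equivSMul (MulAut.conj a) _).toEquiv).symm
      rw [h3]
      have h4 : Nat.card D = Nat.card ((S : Subgroup G) ⊓ MulAut.conj g • (S : Subgroup G) :
          Subgroup G) := by rw [hD, hTcoe]
      rw [h4]
      exact h1
    have hEeq : E = D := Subgroup.eq_of_le_of_card_ge hED hcard
    intro d hd
    have hxN := x.2
    rw [Subgroup.mem_normalizer_iff''] at hxN
    have hd' : (x : G)⁻¹ * d * (x : G) ∈ D := (hxN d).mp hd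
    have hd'' := hEeq.ge hd'
    have := (mem_smul_sylow (x : G)⁻¹ R _).mp hd''.1
    have e : (x : G)⁻¹⁻¹ * ((x : G)⁻¹ * d * (x : G)) * (x : G)⁻¹ = d := by group
    rwa [e] at this
  -- the intersection of all Sylow p-subgroups is a normal p-subgroup
  let K : Subgroup G := ⨅ R : Sylow p G, (R : Subgroup G)
  have hKn : K.Normal := by
    constructor
    intro k hk a
    rw [Subgroup.mem_iInf] at hk ⊢
    intro R
    have := (mem_smul_sylow a⁻¹ R k).mp (hk (a⁻¹ • R))
    simpa using this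
  have hKp : IsPGroup p K := S.isPGroup'.to_le (iInf_le _ S)
  have hK : K ≤ Cfsg.pCore p G := le_sSup ⟨hKn, hKp⟩
  have hDK : D ≤ K := le_iInf hall
  rw [hOp] at hK
  exact le_bot_iff.mp (hDK.trans hK)

end Cfsg.Agent.S0060
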