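import Cfsg.Statements.S0062
import Cfsg.Agent.S0061
import Mathlib

set_option autoImplicit false
open Cfsg

namespace Cfsg.Agent.S0062

universe u

theorem small_solvable (H : Type u) [Group H] [Finite H] (p q : ℕ) (hp : p.Prime) (hq : q.Prime)
    (hdvd : Nat.card H ∣ p ^ 2 * q ^ 2) (hne : Nat.card H ≠ p ^ 2 * q ^ 2) : Group.IsSolvable H := by
  obtain ⟨d₁, d₂, h1, h2, h3⟩ := (Nat.dvd_mul.1 hdvd)
  obtain ⟨a, ha, rfl⟩ := (Nat.dvd_prime_pow hp).1 h1
  obtain ⟨b, hb, rfl⟩ := (Nat.dvd_prime_pow hq).1 h2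
  interval_cases a <;> interval_cases b
  · have h4 : Nat.card H = 1 := by rw [← h3]; norm_num
    have : Subsingleton H := (Nat.card_eq_one_iff_unique.1 h4).1
    infer_instance
  · exact Cfsg.Agent.S0061.result p q 0 hp hq (by rw [← h3]; ring)
  · exact Cfsg.Agent.S0061.result q q 1 hq hq (by rw [← h3]; ring)
  · exact Cfsg.Agent.S0061.result p p 0 hp hp (by rw [← h3]; ring)
  · exact Cfsg.Agent.S0061.result p q 1 hp hq (by rw [← h3]; ring)
  · exact Cfsg.Agent.S0061.result q p 2 hq hp (by rw [← h3]; ring)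
  · exact Cfsg.Agent.S0061.result p p 1 hp hp (by rw [← h3]; ring)
  · exact Cfsg.Agent.S0061.result p q 2 hp hq (by rw [← h3]; ring)
  · exact absurd h3.symm hne

theorem exists_normal (G : Type u) [Group G] [Finite G] (p q : ℕ) (hp : p.Prime) (hq : q.Prime)
    (hqp : q < p) (hG : Nat.card G = p ^ 2 * q ^ 2) :
    ∃ N : Subgroup G, N.Normal ∧ N ≠ ⊥ ∧ N ≠ ⊤ := by
  have : Fact p.Prime := ⟨hp⟩
  obtain ⟨P⟩ : Nonempty (Sylow p G) := inferInstance
  have hq2 : 2 ≤ q := hq.two_le
  have hpq : ¬ p ∣ q ^ 2 := by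
    intro h
    have h1 := hp.dvd_of_dvd_pow h
    have h2 := Nat.le_of_dvd hq.pos h1
    omega
  have hPcard : Nat.card (P : Subgroup G) = p ^ 2 := by
    have hpq1 : ¬ p ∣ q := by
      intro h
      have h2 := Nat.le_of_dvd hq.pos h
      omega
    rw [Sylow.card_eq_multiplicity, hG, Nat.factorization_mul (pow_ne_zero _ hp.ne_zero)
      (pow_ne_zero _ hq.ne_zero)]
    simp [hp.factorization_pow, Nat.factorization_eq_zero_of_not_dvd hpq1]
  have hPidx : (P : Subgroup G).index = q ^ 2 := by
    have h1 := (P : Subgroup G).card_mul_index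
    rw [hPcard, hG] at h1
    exact Nat.eq_of_mul_eq_mul_left (pow_pos hp.pos 2) h1
  have hdvd : Nat.card (Sylow p G) ∣ q ^ 2 := hPidx ▸ Sylow.card_dvd_index P
  have hmod : Nat.card (Sylow p G) ≡ 1 [MOD p] := card_sylow_modEq_one p G
  obtain ⟨c, hc, hn⟩ := (Nat.dvd_prime_pow hq).1 hdvd
  have h1p : 1 % p = 1 := Nat.mod_eq_of_lt hp.one_lt
  interval_cases c
  · rw [pow_zero] at hn
    have hsub : Subsingleton (Sylow p G) := (Nat.card_eq_one_iff_unique.1 hn).1
    refine ⟨P, Sylow.normal_of_subsingleton P, ?_, ?_⟩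
    · intro hbot
      rw [hbot, Subgroup.card_bot] at hPcard
      have : 4 ≤ p ^ 2 := by nlinarith
      omega
    · intro htop
      rw [htop, Subgroup.index_top] at hPidx
      have : 4 ≤ q ^ 2 := by nlinarith
      omega
  · exfalso
    rw [hn, pow_one] at hmod
    unfold Nat.ModEq at hmod
    rw [h1p, Nat.mod_eq_of_lt hqp] at hmod
    omega
  · -- n_p = q^2
    rw [hn] at hmod
    have h2 : p ∣ q ^ 2 - 1 := (Nat.modEq_iff_dvd' (by nlinarith)).1 hmod.symm
    have h3 : q ^ 2 - 1 = (q - 1) * (q + 1) := by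
      obtain ⟨r, rfl⟩ : ∃ r, q = r + 1 := ⟨q - 1, by omega⟩
      simp only [Nat.add_sub_cancel]
      have : (r + 1) ^ 2 = r * (r + 1 + 1) + 1 := by ring
      rw [this, Nat.add_sub_cancel]
    rw [h3] at h2
    have h4 : p = q + 1 := by
      rcases (Nat.Prime.dvd_mul hp).1 h2 with h | h
      · have := Nat.le_of_dvd (by omega) h
        omega
      · have := Nat.le_of_dvd (by omega) h
        omega
    have hq_eq : q = 2 := by
      rcases Nat.Prime.eq_two_or_odd hq with h | h
      · exact h
      · exfalso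
        have h5 : 2 ∣ p := by omega
        have h6 := (Nat.prime_dvd_prime_iff_eq Nat.prime_two hp).1 h5
        omega
    have hp_eq : p = 3 := by omega
    subst hq_eq
    subst hp_eq
    have hn4 : Nat.card (Sylow 3 G) = 4 := by rw [hn]; norm_num
    set φ := MulAction.toPermHom G (Sylow 3 G) with hφ
    refine ⟨φ.ker, inferInstance, ?_, ?_⟩
    · intro hbot
      have hinj : Function.Injective φ := (MonoidHom.ker_eq_bot_iff φ).1 hbot
      have h5 := Nat.card_le_card_of_injective φ hinj
      rw [Nat.card_perm, hn4, hG] at h5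
      norm_num [Nat.factorial] at h5
    · intro htop
      have hfix : ∀ (g : G) (Q : Sylow 3 G), g • Q = Q := by
        intro g Q
        have h5 : g ∈ φ.ker := htop ▸ Subgroup.mem_top g
        rw [MonoidHom.mem_ker] at h5
        have h6 := congrArg (fun σ : Equiv.Perm (Sylow 3 G) => σ Q) h5
        simpa [hφ] using h6
      have hsub : Subsingleton (Sylow 3 G) := by
        refine ⟨fun Q₁ Q₂ => ?_⟩
        obtain ⟨g, hg⟩ := MulAction.exists_smul_eq G Q₁ Q₂
        rw [← hg, hfix]
      have := Finite.card_le_one_iff_subsingleton.2 hsub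
      omega

theorem result {G : Type*} [Group G] [Finite G] (p q : ℕ) (hp : p.Prime) (hq : q.Prime)
    (hG : Nat.card G = p ^ 2 * q ^ 2) : Group.IsSolvable G := by
  by_cases hpq : p = q
  · subst hpq
    have : Fact p.Prime := ⟨hp⟩
    have hP : IsPGroup p G := IsPGroup.of_card (n := 4) (by rw [hG]; ring)
    have : Group.IsNilpotent G := hP.isNilpotent
    infer_instance
  · have hex : ∃ N : Subgroup G, N.Normal ∧ N ≠ ⊥ ∧ N ≠ ⊤ := by
      rcases Nat.lt_or_gt_of_ne hpq with h | h
      · exact exists_normal G q p hq hp h (by rw [hG]; ring)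
      · exact exists_normal G p q hp hq h hG
    obtain ⟨N, hNn, hNbot, hNtop⟩ := hex
    have h1 := Subgroup.card_eq_card_quotient_mul_card_subgroup N
    have hNs : Group.IsSolvable N := by
      apply small_solvable N p q hp hq
      · rw [← hG]; exact Subgroup.card_subgroup_dvd_card N
      · intro h2
        exact hNtop (Subgroup.eq_top_of_card_eq N (by rw [h2, hG]))
    have hQs : Group.IsSolvable (G ⧸ N) := by
      apply small_solvable (G ⧸ N) p q hp hq
      · rw [← hG]; exact Subgroup.card_quotient_dvd_card N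
      · intro h2
        rw [hG, h2] at h1
        have h3 : Nat.card N = 1 := by
          have hpos : 0 < p ^ 2 * q ^ 2 := by
            have := hp.pos; have := hq.pos; positivity
          nlinarith
        exact hNbot (Subgroup.eq_bot_of_card_eq N h3)
    exact Group.isSolvable_of_ker_le_range N.subtype (QuotientGroup.mk' N)
      (by rw [QuotientGroup.ker_mk', Subgroup.range_subtype])

end Cfsg.Agent.S0062
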