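import Cfsg.Statements.S0063
import Mathlib

set_option autoImplicit false
open Cfsg

namespace Cfsg.Agent.S0063

universe u

theorem aux (p : ℕ) [Fact p.Prime] : ∀ (m : ℕ) (G : Type u) [Group G] [Finite G],
    Nat.card G = p ^ m → 1 < m → Group.nilpotencyClass G ≤ m - 1 := by
  intro m
  induction m using Nat.strong_induction_on with
  | _ m ih =>
    intro G _ _ hG hm
    have hP : IsPGroup p G := IsPGroup.of_card hG
    have : Group.IsNilpotent G := hP.isNilpotent
    obtain ⟨k, hk0, hk⟩ := IsPGroup.card_center_eq_prime_pow hG (by omega)
    have hcard := Subgroup.card_eq_card_quotient_mul_card_subgroup (Subgroup.center G)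
    rw [hG, hk] at hcard
    have hp : p.Prime := Fact.out
    have hkm : k ≤ m := by
      by_contra h
      push Not at h
      have h1 : p ^ k ∣ p ^ m := Dvd.intro_left _ hcard.symm
      have := (Nat.pow_dvd_pow_iff_le_right hp.one_lt).1 h1
      omega
    have hq : Nat.card (G ⧸ Subgroup.center G) = p ^ (m - k) := by
      have h2 : p ^ m = p ^ (m - k) * p ^ k := by
        rw [← pow_add]; congr 1; omega
      rw [h2] at hcard
      exact (Nat.eq_of_mul_eq_mul_right (pow_pos hp.pos k) hcard).symm
    by_cases hcase : 1 < m - k
    · have h3 := ih (m - k) (by omega) (G ⧸ Subgroup.center G) hq hcase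
      rw [Group.nilpotencyClass_quotient_center] at h3
      omega
    · have hcyc : IsCyclic (G ⧸ Subgroup.center G) := by
        have h4 : m - k = 0 ∨ m - k = 1 := by omega
        rcases h4 with h4 | h4
        · rw [h4, pow_zero] at hq
          have : Subsingleton (G ⧸ Subgroup.center G) := (Nat.card_eq_one_iff_unique.1 hq).1
          infer_instance
        · rw [h4, pow_one] at hq
          exact isCyclic_of_prime_card hq
      have hcomm : IsMulCommutative G :=
        (QuotientGroup.mk' (Subgroup.center G)).isMulCommutative_of_isCyclic_of_ker_le_center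
          (by rw [QuotientGroup.ker_mk'])
      have htop : Subgroup.upperCentralSeries G 1 = ⊤ := by
        rw [Subgroup.upperCentralSeries_one, eq_top_iff]
        intro x _
        rw [Subgroup.mem_center_iff]
        intro g
        exact hcomm.is_comm.comm g x
      have := Subgroup.upperCentralSeries_eq_top_iff_nilpotencyClass_le.1 htop
      omega

theorem result {G : Type*} [Group G] [Finite G] (p m : ℕ) [Fact p.Prime]
    (hG : Nat.card G = p ^ m) (hm : 1 < m) : Group.nilpotencyClass G ≤ m - 1 :=
  aux p m G hG hm

end Cfsg.Agent.S0063
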