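import Cfsg.Statements.S0065
import Mathlib

set_option autoImplicit false
open Cfsg

namespace Cfsg.Agent.S0065

theorem result {G : Type*} [Group G] [Finite G] [Group.IsNilpotent G]
    (N : Subgroup G) [N.Normal] (hN : N ≠ ⊥) : N ⊓ Subgroup.center G ≠ ⊥ := by
  classical
  obtain ⟨c, hc⟩ := (Group.IsNilpotent.nilpotent (G := G))
  have hex : ∃ i, N ⊓ Subgroup.upperCentralSeries G i ≠ ⊥ := ⟨c, by rw [hc, inf_top_eq]; exact hN⟩
  have hmin : ∀ m, m < Nat.find hex → ¬ (N ⊓ Subgroup.upperCentralSeries G m ≠ ⊥) := fun m hm => Nat.find_min hex hm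
  have hspec := Nat.find_spec hex
  set i := Nat.find hex with hi
  have hi0 : i ≠ 0 := by
    intro h0
    rw [h0] at hspec
    simp at hspec
  obtain ⟨j, hj⟩ := Nat.exists_eq_succ_of_ne_zero hi0
  have hjbot : N ⊓ Subgroup.upperCentralSeries G j = ⊥ := by
    by_contra h
    exact hmin j (by omega) h
  intro hbot
  apply hspec
  rw [eq_bot_iff]
  intro x hx
  have hxN : x ∈ N := hx.1
  have hxZ : x ∈ Subgroup.upperCentralSeries G (j + 1) := by
    have := hx.2
    rw [hj] at this
    exact this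
  rw [Subgroup.mem_upperCentralSeries_succ_iff] at hxZ
  have hcen : x ∈ Subgroup.center G := by
    rw [Subgroup.mem_center_iff]
    intro g
    have h1 : x * g * x⁻¹ * g⁻¹ ∈ N ⊓ Subgroup.upperCentralSeries G j := by
      refine ⟨?_, hxZ g⟩
      have h2 : g * x⁻¹ * g⁻¹ ∈ N := Subgroup.Normal.conj_mem inferInstance _ (N.inv_mem hxN) g
      have h3 : x * g * x⁻¹ * g⁻¹ = x * (g * x⁻¹ * g⁻¹) := by group
      rw [h3]
      exact N.mul_mem hxN h2
    rw [hjbot, Subgroup.mem_bot] at h1
    have h4 : x * g = g * x := by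
      have := congrArg (fun y => y * g * x) h1
      simpa [mul_assoc] using this
    exact h4.symm
  have : x ∈ N ⊓ Subgroup.center G := ⟨hxN, hcen⟩
  rw [hbot] at this
  exact this

end Cfsg.Agent.S0065
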