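import Cfsg.Statements.S0068
import Mathlib

set_option autoImplicit false
open Cfsg

namespace Cfsg.Agent.S0068

theorem inverts_of_involution {G : Type*} [Group G] [Finite G] (K H : Subgroup G) [K.Normal]
    (hfpf : ∀ h ∈ H, h ≠ 1 → K ⊓ Subgroup.centralizer {h} = ⊥) (t : G) (ht : t ∈ H) (ht2 : orderOf t = 2) :
    (∀ k ∈ K, t * k * t⁻¹ = k⁻¹) ∧ ∀ a b : K, a * b = b * a := by
  have ht1 : t ≠ 1 := by
    intro h
    rw [h, orderOf_one] at ht2
    omega
  have htt : t * t = 1 := by
    have := pow_orderOf_eq_one t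
    rw [ht2, pow_two] at this
    exact this
  have hbot := hfpf t ht ht1
  set φ : MulAut K := MulAut.conjNormal t with hφ
  have hφa : ∀ k : K, ((φ k : K) : G) = t * k * t⁻¹ := fun k => MulAut.conjNormal_apply t k
  have hfix : MonoidHom.FixedPointFree φ := by
    intro k hk
    have h1 : t * (k : G) * t⁻¹ = (k : G) := by rw [← hφa, hk]
    have h2 : (k : G) ∈ K ⊓ Subgroup.centralizer {t} := by
      refine ⟨k.2, ?_⟩
      show (k : G) ∈ Subgroup.centralizer {t}
      rw [Subgroup.mem_centralizer_iff]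
      intro h hh
      rw [Set.mem_singleton_iff] at hh
      rw [hh]
      calc t * (k : G) = t * (k : G) * t⁻¹ * t := by group
        _ = (k : G) * t := by rw [h1]
    rw [hbot] at h2
    exact Subtype.ext (Subgroup.mem_bot.mp h2)
  have hinv : Function.Involutive φ := by
    intro k
    apply Subtype.ext
    rw [hφa, hφa]
    calc t * (t * (k : G) * t⁻¹) * t⁻¹ = (t * t) * (k : G) * (t * t)⁻¹ := by group
      _ = (k : G) := by rw [htt]; group
  have hcoe := hfix.coe_eq_inv_of_involutive hinv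
  refine ⟨?_, ?_⟩
  · intro k hk
    have := congrFun hcoe ⟨k, hk⟩
    have h3 := congrArg Subtype.val this
    rw [hφa] at h3
    simpa using h3
  · intro a b
    exact hfix.commute_all_of_involutive hinv a b

/-- Frobenius complements of even order: if H complements a nontrivial normal subgroup K, each nonidentity element of H has trivial centraliser in K, and H has even order, then H contains a unique involution s, K is abelian, and s inverts every element of K. -/
theorem result {G : Type*} [Group G] [Finite G] (K H : Subgroup G) [K.Normal]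
    (hc : Subgroup.IsComplement' K H) (hK : K ≠ ⊥) (hfpf : ∀ h ∈ H, h ≠ 1 → K ⊓ Subgroup.centralizer {h} = ⊥)
    (heven : 2 ∣ Nat.card H) :
    (∃ s ∈ H, orderOf s = 2 ∧ (∀ t ∈ H, orderOf t = 2 → t = s) ∧ ∀ k ∈ K, s * k * s⁻¹ = k⁻¹) ∧ IsMulCommutative K := by
  obtain ⟨s', hs'⟩ := exists_prime_orderOf_dvd_card' (G := H) 2 heven
  have hs2 : orderOf (s' : G) = 2 := by rw [Subgroup.orderOf_coe]; exact hs'
  obtain ⟨hsinv, hcomm⟩ := inverts_of_involution K H hfpf (s' : G) s'.2 hs2
  have hss : (s' : G) * (s' : G) = 1 := by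
    have := pow_orderOf_eq_one (s' : G)
    rw [hs2, pow_two] at this
    exact this
  refine ⟨⟨(s' : G), s'.2, hs2, ?_, hsinv⟩, ⟨⟨fun a b => hcomm a b⟩⟩⟩
  intro t ht ht2
  obtain ⟨htinv, -⟩ := inverts_of_involution K H hfpf t ht ht2
  by_contra hne
  have hst : (s' : G) * t ≠ 1 := by
    intro h
    apply hne
    have : t = (s' : G)⁻¹ := by
      rw [eq_inv_iff_mul_eq_one]
      have h2 : t * (s' : G) = (s' : G)⁻¹ * ((s' : G) * t) * (s' : G) := by group
      rw [h2, h]; group
    rw [this, inv_eq_iff_mul_eq_one]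
    exact hss
  have hbot := hfpf ((s' : G) * t) (mul_mem s'.2 ht) hst
  apply hK
  rw [eq_bot_iff, ← hbot]
  intro k hk
  refine ⟨hk, ?_⟩
  show k ∈ Subgroup.centralizer {(s' : G) * t}
  rw [Subgroup.mem_centralizer_iff]
  intro h hh
  rw [Set.mem_singleton_iff] at hh
  rw [hh]
  have h1 : t * k * t⁻¹ = k⁻¹ := htinv k hk
  have h2 : (s' : G) * k⁻¹ * (s' : G)⁻¹ = k⁻¹⁻¹ := hsinv k⁻¹ (inv_mem hk)
  calc (s' : G) * t * k = (s' : G) * (t * k * t⁻¹) * (s' : G)⁻¹ * ((s' : G) * t) := by group
    _ = (s' : G) * k⁻¹ * (s' : G)⁻¹ * ((s' : G) * t) := by rw [h1]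
    _ = k * ((s' : G) * t) := by rw [h2, inv_inv]

end Cfsg.Agent.S0068
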