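import Cfsg.Statements.S0069
import Cfsg.Agent.Lib.Helper26.OddPCyclic
import Cfsg.Agent.S0031
import Cfsg.Agent.S0041
import Cfsg.Agent.S0056
import Cfsg.Agent.S0068
import Mathlib

set_option autoImplicit false
open Cfsg

namespace Cfsg.Agent.S0069

open Subgroup
open scoped Pointwise

section general
variable {G : Type*} [Group G]

lemma mem_normalizer_of_conj_mem [Finite G] (S : Subgroup G) (g : G)
    (h : ∀ y ∈ S, g * y * g⁻¹ ∈ S) : g ∈ Subgroup.normalizer (S : Set G) := by
  rw [Subgroup.mem_normalizer_iff]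
  intro z
  refine ⟨h z, fun hz => ?_⟩
  let F : S → S := fun y => ⟨g * y * g⁻¹, h y y.2⟩
  have hinj : Function.Injective F := by
    intro a b hab
    have := congrArg Subtype.val hab
    simp only [F] at this
    exact Subtype.ext (mul_left_cancel (mul_right_cancel this))
  obtain ⟨y, hy⟩ := Finite.surjective_of_injective hinj ⟨g * z * g⁻¹, hz⟩
  have := congrArg Subtype.val hy
  simp only [F] at this
  have hyz : (y : G) = z := mul_left_cancel (mul_right_cancel this)
  rw [← hyz]; exact y.2

lemma normalizer_le_normalizer_center (S : Subgroup G) :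
    Subgroup.normalizer (S : Set G) ≤
      Subgroup.normalizer ((S ⊓ Subgroup.centralizer (S : Set G) : Subgroup G) : Set G) := by
  have key : ∀ g ∈ Subgroup.normalizer (S : Set G),
      ∀ v ∈ S ⊓ Subgroup.centralizer (S : Set G),
        g * v * g⁻¹ ∈ S ⊓ Subgroup.centralizer (S : Set G) := by
    intro g hg v hv
    rw [Subgroup.mem_normalizer_iff] at hg
    refine Subgroup.mem_inf.mpr ⟨(hg v).mp hv.1, ?_⟩
    rw [Subgroup.mem_centralizer_iff]
    intro r hr
    have hr' : g⁻¹ * r * g ∈ S := by
      rw [hg (g⁻¹ * r * g)]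
      have : g * (g⁻¹ * r * g) * g⁻¹ = r := by group
      rw [this]; exact hr
    have hc := Subgroup.mem_centralizer_iff.mp hv.2 _ hr'
    calc r * (g * v * g⁻¹) = g * ((g⁻¹ * r * g) * v) * g⁻¹ := by group
      _ = g * (v * (g⁻¹ * r * g)) * g⁻¹ := by rw [hc]
      _ = g * v * g⁻¹ * r := by group
  intro g hg
  rw [Subgroup.mem_normalizer_iff]
  intro v
  refine ⟨key g hg v, fun hv => ?_⟩
  have := key g⁻¹ (inv_mem hg) _ hv
  have e : g⁻¹ * (g * v * g⁻¹) * g⁻¹⁻¹ = v := by group
  rwa [e] at this

lemma mem_zpowers_of_cyclic {C : Type*} [Group C] [Finite C] [IsCyclic C] {q : ℕ}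
    (hq : q.Prime) {v w : C} (hv : orderOf v = q) (hw : w ^ q = 1) :
    w ∈ Subgroup.zpowers v := by
  classical
  have : Fintype C := Fintype.ofFinite C
  have hle : (Finset.univ.filter (fun a : C => a ^ q = 1)).card ≤ q :=
    IsCyclic.card_pow_eq_one_le hq.pos
  have hsub : (Finset.univ.filter (fun a : C => a ∈ Subgroup.zpowers v)) ⊆
      Finset.univ.filter (fun a : C => a ^ q = 1) := by
    intro a ha
    rw [Finset.mem_filter] at ha ⊢
    obtain ⟨i, rfl⟩ := Subgroup.mem_zpowers_iff.mp ha.2
    refine ⟨Finset.mem_univ _, ?_⟩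
    rw [← zpow_natCast, ← zpow_mul, mul_comm, zpow_mul, zpow_natCast, ← hv,
      pow_orderOf_eq_one, one_zpow]
  have hcard : (Finset.univ.filter (fun a : C => a ∈ Subgroup.zpowers v)).card = q := by
    rw [← hv, ← Nat.card_zpowers, Nat.card_eq_fintype_card, Fintype.card_subtype]
  have heq := Finset.eq_of_subset_of_card_le hsub (by rw [hcard]; exact hle)
  have hwmem : w ∈ Finset.univ.filter (fun a : C => a ^ q = 1) := by simp [hw]
  rw [← heq, Finset.mem_filter] at hwmem
  exact hwmem.2

lemma conj_aut_apply {K : Type*} [Group K] (σ : MulAut K) (n : K) :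
    MulAut.conj (σ n) = σ * MulAut.conj n * σ⁻¹ := by
  ext y
  simp [MulAut.mul_apply, MulAut.conj_apply, map_mul]

/-- a fixed-point-free automorphism leaves invariant at most one Sylow subgroup -/
lemma sylow_unique {K : Type*} [Group K] [Finite K] {s : ℕ} [Fact s.Prime] (σ : MulAut K)
    (hfpf : ∀ k : K, σ k = k → k = 1) (P P' : Sylow s K) (hP : σ • P = P)
    (hP' : σ • P' = P') : P = P' := by
  obtain ⟨k, hk⟩ := MulAction.exists_smul_eq K P P'
  have hinvP : σ⁻¹ • P = P := by rw [inv_smul_eq_iff, hP]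
  have hstab : ∀ n : K, n • P = P → (σ n) • P = P := by
    intro n hn
    rw [Sylow.smul_def, conj_aut_apply, mul_smul, mul_smul, hinvP, ← Sylow.smul_def, hn, hP]
  have hn0 : (k⁻¹ * σ k) • P = P := by
    rw [mul_smul, Sylow.smul_def (g := σ k), conj_aut_apply, mul_smul, mul_smul, hinvP,
      ← Sylow.smul_def, hk, hP', ← hk, inv_smul_smul]
  let F : Subgroup.normalizer (P : Set K) → Subgroup.normalizer (P : Set K) := fun n =>
    ⟨(n : K)⁻¹ * σ n, by
      rw [← Sylow.smul_eq_iff_mem_normalizer, mul_smul,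
        hstab n (Sylow.smul_eq_iff_mem_normalizer.mpr n.2), inv_smul_eq_iff]
      exact (Sylow.smul_eq_iff_mem_normalizer.mpr n.2).symm⟩
  have hinj : Function.Injective F := by
    intro a b hab
    have h1 : (a : K)⁻¹ * σ a = (b : K)⁻¹ * σ b := congrArg Subtype.val hab
    have h2 : σ ((b : K) * (a : K)⁻¹) = (b : K) * (a : K)⁻¹ := by
      rw [map_mul, map_inv]
      have : σ (a : K) = (a : K) * ((b : K)⁻¹ * σ b) := by rw [← h1]; group
      rw [this]; group
    have h3 := hfpf _ h2
    exact Subtype.ext (mul_inv_eq_one.mp h3).symm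
  obtain ⟨n, hn⟩ := Finite.surjective_of_injective hinj
    ⟨k⁻¹ * σ k, Sylow.smul_eq_iff_mem_normalizer.mp hn0⟩
  have h1 : (n : K)⁻¹ * σ n = k⁻¹ * σ k := congrArg Subtype.val hn
  have h2 : σ (k * (n : K)⁻¹) = k * (n : K)⁻¹ := by
    rw [map_mul, map_inv]
    have : σ (n : K) = (n : K) * (k⁻¹ * σ k) := by rw [← h1]; group
    rw [this]; group
  have h3 := hfpf _ h2
  have h4 : k = n := mul_inv_eq_one.mp h3
  rw [← hk, h4]
  exact (Sylow.smul_eq_iff_mem_normalizer.mpr n.2).symm

end general

section abstract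
variable {H : Type*} [Group H]

lemma hab_subgroup (hab : ∀ A : Subgroup H, IsMulCommutative A → IsCyclic A) (Q : Subgroup H) :
    ∀ A' : Subgroup Q, IsMulCommutative A' → IsCyclic A' := by
  intro A' hA'
  have hc : IsMulCommutative (A'.map Q.subtype) := ⟨⟨fun x y => by
    obtain ⟨x, hx⟩ := x; obtain ⟨y, hy⟩ := y
    obtain ⟨x', hx', rfl⟩ := hx; obtain ⟨y', hy', rfl⟩ := hy
    have h := mul_comm' (⟨x', hx'⟩ : A') ⟨y', hy'⟩
    have h' : x' * y' = y' * x' := congrArg Subtype.val h
    exact Subtype.ext (congrArg (fun t : Q => (t : H)) h')⟩⟩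
  have := hab _ hc
  exact (A'.equivMapOfInjective Q.subtype Q.subtype_injective).isCyclic.mpr this

lemma cyclic_of_pgroup [Finite H] (hab : ∀ A : Subgroup H, IsMulCommutative A → IsCyclic A) {q : ℕ}
    [Fact q.Prime] (hq : Odd q) (Q : Subgroup H) (hQ : IsPGroup q Q) : IsCyclic Q :=
  Cfsg.Agent.Lib.Helper26.isCyclic_of_odd hq hQ (hab_subgroup hab Q)

lemma conj_mem_of_smul_eq {N : Subgroup H} [N.Normal] {q : ℕ} (Q : Sylow q N) (g : H)
    (hg : (MulAut.conjNormal g : MulAut N) • Q = Q) :
    ∀ y ∈ (Q : Subgroup N).map N.subtype, g * y * g⁻¹ ∈ (Q : Subgroup N).map N.subtype := by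
  rintro _ ⟨k, hk, rfl⟩
  refine ⟨(MulAut.conjNormal g : MulAut N) k, ?_, by simp [MulAut.conjNormal_apply]⟩
  have h1 : (MulAut.conjNormal g : MulAut N) • k ∈
      (MulAut.conjNormal g : MulAut N) • (Q : Subgroup N) :=
    Subgroup.smul_mem_pointwise_smul k _ _ hk
  rw [← Sylow.pointwise_smul_def, hg] at h1
  exact h1

theorem central_exists [Finite H] (hodd : Odd (Nat.card H)) (hnt : Nontrivial H)
    (hab : ∀ A : Subgroup H, IsMulCommutative A → IsCyclic A)
    (hpq : ∀ (x y : H) (p q : ℕ), p.Prime → q.Prime → p ≠ q → orderOf x = p → orderOf y = q →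
      x * y * x⁻¹ ∈ Subgroup.zpowers y → x * y = y * x) :
    ∃ z : H, z ≠ 1 ∧ ∀ g : H, g * z = z * g := by
  classical
  have hcard1 : Nat.card H ≠ 1 := by
    intro h
    have := (Nat.card_eq_one_iff_unique.mp h).1
    exact not_nontrivial H hnt
  obtain ⟨p, hp⟩ : ∃ p, (Nat.card H).minFac = p := ⟨_, rfl⟩
  have hpp : p.Prime := hp ▸ Nat.minFac_prime hcard1
  have : Fact p.Prime := ⟨hpp⟩
  have hpdvd : p ∣ Nat.card H := hp ▸ Nat.minFac_dvd _
  have hpodd : Odd p := hodd.of_dvd_nat hpdvd
  obtain ⟨P⟩ : Nonempty (Sylow p H) := inferInstance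
  have hPcyc : IsCyclic P := cyclic_of_pgroup hab hpodd P P.isPGroup'
  have hcompl := IsCyclic.isComplement' hp hPcyc
  have hpM : ¬ p ∣ Nat.card (MonoidHom.transferSylow P (hPcyc.normalizer_le_centralizer hp)).ker :=
    MonoidHom.not_dvd_card_ker_transferSylow P _
  have hMn : (MonoidHom.transferSylow P (hPcyc.normalizer_le_centralizer hp)).ker.Normal :=
    inferInstance
  generalize (MonoidHom.transferSylow P (hPcyc.normalizer_le_centralizer hp)).ker = M
    at hcompl hpM hMn
  have hPne : (P : Subgroup H) ≠ ⊥ := P.ne_bot_of_dvd_card hpdvd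
  obtain ⟨x, hxP, hxo⟩ : ∃ x ∈ (P : Subgroup H), orderOf x = p := by
    have hdvd : p ∣ Nat.card (P : Subgroup H) := by
      obtain ⟨k, hk⟩ := IsPGroup.iff_card.mp P.isPGroup'
      have hk0 : k ≠ 0 := by
        rintro rfl
        rw [pow_zero] at hk
        exact hPne ((Subgroup.card_eq_one).mp hk)
      rw [hk]; exact dvd_pow_self p hk0
    obtain ⟨⟨x, hx⟩, hxo⟩ := exists_prime_orderOf_dvd_card' p hdvd
    exact ⟨x, hx, by rw [← hxo, Subgroup.orderOf_mk]⟩
  have hx1 : x ≠ 1 := by
    rintro rfl
    rw [orderOf_one] at hxo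
    exact hpp.one_lt.ne hxo
  refine ⟨x, hx1, ?_⟩
  have hxP' : ∀ u ∈ (P : Subgroup H), u * x = x * u := by
    intro u hu
    have := (IsCyclic.commGroup (α := (P : Subgroup H))).mul_comm ⟨u, hu⟩ ⟨x, hxP⟩
    exact congrArg Subtype.val this
  have hxM : ∀ m ∈ M, m * x = x * m := by
    have hC : ((Subgroup.centralizer {x}).subgroupOf M).index = 1 := by
      rw [Nat.eq_one_iff_not_exists_prime_dvd]
      intro q hq hqdvd
      have : Fact q.Prime := ⟨hq⟩
      by_cases hqp : q = p
      · rw [hqp] at hqdvd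
        exact hpM (hqdvd.trans (Subgroup.index_dvd_card _))
      have hqodd : Odd q :=
        hodd.of_dvd_nat (hqdvd.trans ((Subgroup.index_dvd_card _).trans
          (Subgroup.card_subgroup_dvd_card _)))
      have hσp : (MulAut.conjNormal x : MulAut M) ^ p = 1 := by
        rw [← map_pow, ← hxo, pow_orderOf_eq_one, map_one]
      have hZp : IsPGroup p (Subgroup.zpowers (MulAut.conjNormal x : MulAut M)) := by
        rintro ⟨g, hg⟩
        obtain ⟨i, rfl⟩ := Subgroup.mem_zpowers_iff.mp hg
        refine ⟨1, Subtype.ext ?_⟩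
        show ((MulAut.conjNormal x : MulAut M) ^ i) ^ (p ^ 1) = 1
        rw [pow_one, ← zpow_natCast, ← zpow_mul, mul_comm, zpow_mul, zpow_natCast, hσp,
          one_zpow]
      have hfix : ¬ p ∣ Nat.card (Sylow q M) := by
        obtain ⟨Q0⟩ : Nonempty (Sylow q M) := inferInstance
        intro h
        exact hpM (h.trans ((Sylow.card_dvd_index Q0).trans (Subgroup.index_dvd_card _)))
      obtain ⟨Q, hQ⟩ := hZp.nonempty_fixed_point_of_prime_not_dvd_card (Sylow q M) hfix
      have hQx : (MulAut.conjNormal x : MulAut M) • Q = Q :=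
        hQ ⟨_, Subgroup.mem_zpowers _⟩
      have hQ'p : IsPGroup q ((Q : Subgroup M).map M.subtype) := Q.isPGroup'.map _
      have hQ'cyc : IsCyclic ((Q : Subgroup M).map M.subtype) :=
        cyclic_of_pgroup hab hqodd _ hQ'p
      have hxN := conj_mem_of_smul_eq Q x hQx
      have hxnorm : Subgroup.zpowers x ≤
          Subgroup.normalizer (((Q : Subgroup M).map M.subtype : Subgroup H) : Set H) := by
        rw [Subgroup.zpowers_le]
        exact mem_normalizer_of_conj_mem _ x hxN
      have hΩ : ∀ v ∈ (Q : Subgroup M).map M.subtype, (orderOf v).Prime →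
          ∀ a ∈ Subgroup.zpowers x, a * v = v * a := by
        intro v hv hvo a ha
        have hvq : orderOf v = q := by
          obtain ⟨k, hk⟩ := (IsPGroup.iff_orderOf.mp hQ'p) ⟨v, hv⟩
          rw [Subgroup.orderOf_mk] at hk
          rw [hk] at hvo ⊢
          have hk1 : k = 1 := by
            by_contra hne
            rcases Nat.lt_or_ge k 1 with h0 | h2
            · have : k = 0 := by omega
              rw [this, pow_zero] at hvo
              exact Nat.not_prime_one hvo
            · exact Nat.Prime.not_prime_pow (by omega) hvo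
          rw [hk1, pow_one]
        have hmem : x * v * x⁻¹ ∈ Subgroup.zpowers v := by
          have hw : (⟨x * v * x⁻¹, hxN v hv⟩ : (Q : Subgroup M).map M.subtype) ^ q = 1 := by
            ext
            simp only [Subgroup.coe_pow, Subgroup.coe_one]
            rw [conj_pow, ← hvq, pow_orderOf_eq_one]; group
          have hv' : orderOf (⟨v, hv⟩ : (Q : Subgroup M).map M.subtype) = q := by
            rw [Subgroup.orderOf_mk]; exact hvq
          have := mem_zpowers_of_cyclic hq hv' hw
          obtain ⟨i, hi⟩ := Subgroup.mem_zpowers_iff.mp this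
          have hi' := congrArg Subtype.val hi
          simp only [Subgroup.coe_zpow] at hi'
          exact Subgroup.mem_zpowers_iff.mpr ⟨i, hi'⟩
        have hcomm := hpq x v p q hpp hq (Ne.symm hqp) hxo hvq hmem
        obtain ⟨i, rfl⟩ := Subgroup.mem_zpowers_iff.mp ha
        exact (Commute.zpow_left (show Commute x v from hcomm) i).eq
      have hQ'comm : IsMulCommutative ((Q : Subgroup M).map M.subtype) :=
        ⟨⟨(IsCyclic.commGroup (α := (Q : Subgroup M).map M.subtype)).mul_comm⟩⟩
      have hcop : (Nat.card (Subgroup.zpowers x)).Coprime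
          (Nat.card ((Q : Subgroup M).map M.subtype)) := by
        rw [Nat.card_zpowers, hxo]
        obtain ⟨k, hk⟩ := IsPGroup.iff_card.mp hQ'p
        rw [hk]
        exact Nat.Coprime.pow_right k ((Nat.coprime_primes hpp hq).mpr (Ne.symm hqp))
      have hcent := Cfsg.Agent.S0056.result (Subgroup.zpowers x)
        ((Q : Subgroup M).map M.subtype) hxnorm hcop hΩ
      have hQC : (Q : Subgroup M) ≤ (Subgroup.centralizer {x}).subgroupOf M := by
        intro k hk
        rw [Subgroup.mem_subgroupOf, Subgroup.mem_centralizer_iff]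
        intro y hy
        rw [Set.mem_singleton_iff] at hy
        subst hy
        have h1 := hcent (Subgroup.mem_zpowers y)
        rw [Subgroup.mem_centralizer_iff] at h1
        exact (h1 (k : H) ⟨k, hk, rfl⟩).symm
      exact (Sylow.not_dvd_index Q) (dvd_trans hqdvd (Subgroup.index_dvd_of_le hQC))
    intro m hm
    have h1 : (⟨m, hm⟩ : M) ∈ (Subgroup.centralizer {x}).subgroupOf M := by
      rw [Subgroup.index_eq_one.mp hC]; exact Subgroup.mem_top _
    rw [Subgroup.mem_subgroupOf, Subgroup.mem_centralizer_iff] at h1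
    exact (h1 x rfl).symm
  intro g
  obtain ⟨⟨⟨m, hm⟩, ⟨u, hu⟩⟩, hmu, -⟩ := hcompl.existsUnique g
  simp only at hmu
  rw [← hmu]
  calc m * u * x = m * (u * x) := by group
    _ = m * (x * u) := by rw [hxP' u hu]
    _ = (m * x) * u := by group
    _ = (x * m) * u := by rw [hxM m hm]
    _ = x * (m * u) := by group

end abstract


section concrete
variable {G : Type*} [Group G] [Finite G]

lemma cyclic_of_normalizes (K H : Subgroup G) [K.Normal] (hK : K ≠ ⊥)
    (hfpf : ∀ h ∈ H, h ≠ 1 → K ⊓ Subgroup.centralizer {h} = ⊥)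
    (A : Subgroup G) (hAH : A ≤ H) (h : G) (hA : h ∈ A) (h1 : h ≠ 1)
    (hnorm : ∀ a ∈ A, a * h * a⁻¹ ∈ Subgroup.zpowers h)
    (hA' : IsMulCommutative A ∨ ∃ p q : ℕ, p.Prime ∧ q.Prime ∧ Nat.card A = p * q) :
    IsCyclic A := by
  classical
  have hKcard : Nat.card K ≠ 1 := fun h => hK (Subgroup.card_eq_one.mp h)
  obtain ⟨s, hs⟩ : ∃ s, (Nat.card K).minFac = s := ⟨_, rfl⟩
  have hsp : s.Prime := hs ▸ Nat.minFac_prime hKcard
  have : Fact s.Prime := ⟨hsp⟩
  have hsdvd : s ∣ Nat.card K := hs ▸ Nat.minFac_dvd _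
  have hfix : ∀ g ∈ H, g ≠ 1 → ∀ k : K, (MulAut.conjNormal g : MulAut K) k = k → k = 1 :=
    fun g hg hg1 k hk => Cfsg.Agent.S0041.fix_of_fpf K g (hfpf g hg hg1) k hk
  have hφ : MonoidHom.FixedPointFree (((MulAut.conjNormal h : MulAut K) : K ≃* K) : K →* K) := by
    intro k hk
    exact hfix h (hAH hA) h1 k hk
  obtain ⟨P, hP⟩ := Cfsg.Agent.S0031.result (MulAut.conjNormal h : MulAut K) hφ s
  have hPh : (MulAut.conjNormal h : MulAut K) • P = P := by
    apply Sylow.ext
    rw [Sylow.pointwise_smul_def, Subgroup.pointwise_smul_def]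
    exact hP
  have hPa : ∀ a ∈ A, (MulAut.conjNormal a : MulAut K) • P = P := by
    intro a ha
    obtain ⟨i, hi⟩ := Subgroup.mem_zpowers_iff.mp (hnorm a ha)
    have hne : a * h * a⁻¹ ≠ 1 := by
      intro h'
      apply h1
      have : h = a⁻¹ * (a * h * a⁻¹) * a := by group
      rw [this, h']; group
    have hmem : a * h * a⁻¹ ∈ H := H.mul_mem (H.mul_mem (hAH ha) (hAH hA)) (H.inv_mem (hAH ha))
    have e1 : (MulAut.conjNormal (a * h * a⁻¹) : MulAut K) • P = P := by
      rw [← hi, map_zpow]
      have hstab : (MulAut.conjNormal h : MulAut K) ∈ MulAction.stabilizer (MulAut K) P :=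
        MulAction.mem_stabilizer_iff.mpr hPh
      exact MulAction.mem_stabilizer_iff.mp (zpow_mem hstab i)
    have e2 : (MulAut.conjNormal (a * h * a⁻¹) : MulAut K) •
        ((MulAut.conjNormal a : MulAut K) • P) = (MulAut.conjNormal a : MulAut K) • P := by
      rw [map_mul, map_mul, map_inv, mul_smul, mul_smul, inv_smul_smul, hPh]
    exact (sylow_unique _ (hfix _ hmem hne) P _ e1 e2).symm
  have hAN : A ≤ Subgroup.normalizer
      (((P : Subgroup K).map K.subtype : Subgroup G) : Set G) := by
    intro a ha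
    exact mem_normalizer_of_conj_mem _ a (conj_mem_of_smul_eq P a (hPa a ha))
  have hRGK : (P : Subgroup K).map K.subtype ≤ K := by
    rintro _ ⟨k, -, rfl⟩
    exact k.2
  have hRGp : IsPGroup s ((P : Subgroup K).map K.subtype) := P.isPGroup'.map _
  have hRGne : (P : Subgroup K).map K.subtype ≠ ⊥ := by
    intro hbot
    have hPne : (P : Subgroup K) ≠ ⊥ := P.ne_bot_of_dvd_card hsdvd
    apply hPne
    rw [eq_bot_iff]
    intro k hk
    have : (K.subtype k) ∈ (P : Subgroup K).map K.subtype := ⟨k, hk, rfl⟩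
    rw [hbot, Subgroup.mem_bot] at this
    rw [Subgroup.mem_bot]
    exact Subtype.ext this
  have hnt : Nontrivial ((P : Subgroup K).map K.subtype) :=
    (Subgroup.nontrivial_iff_ne_bot _).mpr hRGne
  have hcnt := hRGp.center_nontrivial
  obtain ⟨z, hz⟩ := exists_ne (1 : Subgroup.center ((P : Subgroup K).map K.subtype))
  have hVne : (P : Subgroup K).map K.subtype ⊓
      Subgroup.centralizer (((P : Subgroup K).map K.subtype : Subgroup G) : Set G) ≠ ⊥ := by
    intro hbot
    have hzmem : ((z : (P : Subgroup K).map K.subtype) : G) ∈ (P : Subgroup K).map K.subtype ⊓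
        Subgroup.centralizer (((P : Subgroup K).map K.subtype : Subgroup G) : Set G) := by
      refine Subgroup.mem_inf.mpr ⟨(z : (P : Subgroup K).map K.subtype).2, ?_⟩
      rw [Subgroup.mem_centralizer_iff]
      intro r hr
      have := Subgroup.mem_center_iff.mp z.2 ⟨r, hr⟩
      exact congrArg Subtype.val this
    rw [hbot, Subgroup.mem_bot] at hzmem
    apply hz
    apply Subtype.ext
    apply Subtype.ext
    exact hzmem
  have hVc : IsMulCommutative ((P : Subgroup K).map K.subtype ⊓
      Subgroup.centralizer (((P : Subgroup K).map K.subtype : Subgroup G) : Set G) : Subgroup G) :=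
    ⟨⟨fun x y => by
      apply Subtype.ext
      have hx := (Subgroup.mem_inf.mp x.2).1
      have hy := (Subgroup.mem_inf.mp y.2).2
      exact Subgroup.mem_centralizer_iff.mp hy _ hx⟩⟩
  have hAV : A ≤ Subgroup.normalizer (((P : Subgroup K).map K.subtype ⊓
      Subgroup.centralizer (((P : Subgroup K).map K.subtype : Subgroup G) : Set G) :
        Subgroup G) : Set G) :=
    hAN.trans (normalizer_le_normalizer_center _)
  have hfpf' : ∀ a ∈ A, a ≠ 1 → ((P : Subgroup K).map K.subtype ⊓
      Subgroup.centralizer (((P : Subgroup K).map K.subtype : Subgroup G) : Set G)) ⊓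
        Subgroup.centralizer {a} = ⊥ := by
    intro a ha ha1
    rw [eq_bot_iff, ← hfpf a (hAH ha) ha1]
    exact inf_le_inf_right _ (inf_le_left.trans hRGK)
  exact Cfsg.Agent.S0041.result A _ hVne hAV hfpf' hA'

end concrete

/-- A Frobenius complement has nontrivial centre: if H ≠ 1 complements a nontrivial normal subgroup K and every nonidentity element of H has trivial centraliser in K, then the centre of H is nontrivial. -/
theorem result {G : Type*} [Group G] [Finite G] (K H : Subgroup G) [K.Normal]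
    (hc : Subgroup.IsComplement' K H) (hK : K ≠ ⊥) (hH : H ≠ ⊥) (hfpf : ∀ h ∈ H, h ≠ 1 → K ⊓ Subgroup.centralizer {h} = ⊥) :
    Subgroup.center H ≠ ⊥ := by
  classical
  by_cases heven : 2 ∣ Nat.card H
  · obtain ⟨⟨s, hsH, hs2, huniq, -⟩, -⟩ := Cfsg.Agent.S0068.result K H hc hK hfpf heven
    intro hbot
    have hsc : (⟨s, hsH⟩ : H) ∈ Subgroup.center H := by
      rw [Subgroup.mem_center_iff]
      intro g
      have h1 : orderOf ((g : G) * s * (g : G)⁻¹) = 2 := by
        rw [← hs2]
        exact (MulAut.conj (g : G)).orderOf_eq s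
      have h2 := huniq _ (H.mul_mem (H.mul_mem g.2 hsH) (H.inv_mem g.2)) h1
      apply Subtype.ext
      show (g : G) * s = s * g
      calc (g : G) * s = ((g : G) * s * (g : G)⁻¹) * g := by group
        _ = s * g := by rw [h2]
    rw [hbot, Subgroup.mem_bot] at hsc
    have hs1 : s = 1 := congrArg Subtype.val hsc
    rw [hs1, orderOf_one] at hs2
    omega
  · have hodd : Odd (Nat.card H) := Nat.not_even_iff_odd.mp (fun h => heven h.two_dvd)
    have hnt : Nontrivial H := (Subgroup.nontrivial_iff_ne_bot H).mpr hH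
    have hab : ∀ A : Subgroup H, IsMulCommutative A → IsCyclic A := by
      intro A hA
      by_cases hAbot : A = ⊥
      · subst hAbot
        infer_instance
      obtain ⟨⟨h, hhA⟩, hh1⟩ := (Subgroup.ne_bot_iff_exists_ne_one).mp hAbot
      have hc' : IsMulCommutative (A.map H.subtype) := ⟨⟨fun x y => by
        obtain ⟨x, hx⟩ := x; obtain ⟨y, hy⟩ := y
        obtain ⟨x', hx', rfl⟩ := hx; obtain ⟨y', hy', rfl⟩ := hy
        have h := mul_comm' (⟨x', hx'⟩ : A) ⟨y', hy'⟩
        have h' : x' * y' = y' * x' := congrArg Subtype.val h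
        exact Subtype.ext (congrArg (fun t : H => (t : G)) h')⟩⟩
      have hle : A.map H.subtype ≤ H := by
        rintro _ ⟨k, -, rfl⟩; exact k.2
      have hcyc := cyclic_of_normalizes K H hK hfpf (A.map H.subtype) hle (h : G) ⟨h, hhA, rfl⟩
        (fun e => hh1 (Subtype.ext (Subtype.ext e)))
        (fun a ha => by
          obtain ⟨a', ha', rfl⟩ := ha
          have h2 := mul_comm' (⟨a', ha'⟩ : A) ⟨h, hhA⟩
          have h3 : a' * h = h * a' := congrArg Subtype.val h2
          have h4 : (a' : G) * h = h * a' := congrArg Subtype.val h3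
          have h5 : H.subtype a' * (h : G) * (H.subtype a')⁻¹ = h := by
            show (a' : G) * h * (a' : G)⁻¹ = h
            rw [h4]; group
          rw [h5]
          exact Subgroup.mem_zpowers _) (Or.inl hc')
      exact (A.equivMapOfInjective H.subtype H.subtype_injective).isCyclic.mpr hcyc
    have hpq : ∀ (x y : H) (p q : ℕ), p.Prime → q.Prime → p ≠ q → orderOf x = p → orderOf y = q →
        x * y * x⁻¹ ∈ Subgroup.zpowers y → x * y = y * x := by
      intro x y p q hp hq hne hx hy hmem
      have hxG : orderOf (x : G) = p := by rw [Subgroup.orderOf_coe]; exact hx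
      have hyG : orderOf (y : G) = q := by rw [Subgroup.orderOf_coe]; exact hy
      obtain ⟨i, hi⟩ := Subgroup.mem_zpowers_iff.mp hmem
      have hiG : (y : G) ^ i = (x : G) * y * (x : G)⁻¹ := by
        have := congrArg Subtype.val hi
        simpa using this
      have hxN : (x : G) ∈
          Subgroup.normalizer ((Subgroup.zpowers (y : G) : Subgroup G) : Set G) := by
        apply mem_normalizer_of_conj_mem
        intro w hw
        obtain ⟨j, rfl⟩ := Subgroup.mem_zpowers_iff.mp hw
        have : (x : G) * (y : G) ^ j * (x : G)⁻¹ = ((y : G) ^ i) ^ j := by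
          rw [hiG, conj_zpow]
        rw [this]
        exact zpow_mem (zpow_mem (Subgroup.mem_zpowers _) i) j
      have hXN : Subgroup.zpowers (x : G) ≤
          Subgroup.normalizer ((Subgroup.zpowers (y : G) : Subgroup G) : Set G) := by
        rw [Subgroup.zpowers_le]; exact hxN
      obtain ⟨A, hAdef⟩ : ∃ A : Subgroup G,
          A = Subgroup.zpowers (x : G) ⊔ Subgroup.zpowers (y : G) := ⟨_, rfl⟩
      have hxA : (x : G) ∈ A := by
        rw [hAdef]; exact Subgroup.mem_sup_left (Subgroup.mem_zpowers _)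
      have hyA : (y : G) ∈ A := by
        rw [hAdef]; exact Subgroup.mem_sup_right (Subgroup.mem_zpowers _)
      have hAH : A ≤ H := by
        rw [hAdef]
        exact sup_le (by rw [Subgroup.zpowers_le]; exact x.2)
          (by rw [Subgroup.zpowers_le]; exact y.2)
      have hAN : A ≤ Subgroup.normalizer ((Subgroup.zpowers (y : G) : Subgroup G) : Set G) := by
        rw [hAdef]
        exact sup_le hXN Subgroup.le_normalizer
      have hcard : Nat.card A = p * q := by
        have h1 : p ∣ Nat.card A := by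
          rw [← hxG, ← Nat.card_zpowers]
          exact Subgroup.card_dvd_of_le (by rw [Subgroup.zpowers_le]; exact hxA)
        have h2 : q ∣ Nat.card A := by
          rw [← hyG, ← Nat.card_zpowers]
          exact Subgroup.card_dvd_of_le (by rw [Subgroup.zpowers_le]; exact hyA)
        have h3 : p * q ∣ Nat.card A :=
          Nat.Coprime.mul_dvd_of_dvd_of_dvd ((Nat.coprime_primes hp hq).mpr hne) h1 h2
        have h4 : Nat.card A ≤ p * q := by
          have hset := Subgroup.coe_mul_of_left_le_normalizer_right _ _ hXN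
          have h5 : Nat.card A = Nat.card ((Subgroup.zpowers (x : G) : Set G) *
              (Subgroup.zpowers (y : G) : Set G) : Set G) := by
            rw [← hset, hAdef]; rfl
          rw [h5]
          refine Set.natCard_mul_le.trans ?_
          have e1 : Nat.card ((Subgroup.zpowers (x : G) : Subgroup G) : Set G) = p := by
            rw [← hxG, ← Nat.card_zpowers]; rfl
          have e2 : Nat.card ((Subgroup.zpowers (y : G) : Subgroup G) : Set G) = q := by
            rw [← hyG, ← Nat.card_zpowers]; rfl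
          rw [e1, e2]
        exact Nat.le_antisymm h4 (Nat.le_of_dvd Nat.card_pos h3)
      have hy1 : (y : G) ≠ 1 := by
        intro e
        rw [e, orderOf_one] at hyG
        exact hq.one_lt.ne hyG
      have hcyc := cyclic_of_normalizes K H hK hfpf A hAH (y : G) hyA hy1
        (fun a ha => (Subgroup.mem_normalizer_iff.mp (hAN ha) (y : G)).mp
          (Subgroup.mem_zpowers _)) (Or.inr ⟨p, q, hp, hq, hcard⟩)
      have hcomm := (IsCyclic.commGroup (α := A)).mul_comm ⟨(x : G), hxA⟩ ⟨(y : G), hyA⟩
      have hcomm' : (x : G) * (y : G) = (y : G) * (x : G) := congrArg Subtype.val hcomm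
      exact Subtype.ext hcomm'
    obtain ⟨z, hz1, hz⟩ := central_exists hodd hnt hab hpq
    intro hbot
    have : z ∈ Subgroup.center H := Subgroup.mem_center_iff.mpr hz
    rw [hbot, Subgroup.mem_bot] at this
    exact hz1 this

end Cfsg.Agent.S0069
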