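import Cfsg.Statements.S0070
import Cfsg.Agent.Lib.Helper30.Basic
import Mathlib

set_option autoImplicit false
open Cfsg

namespace Cfsg.Agent.S0070

universe u

theorem gaschutz {G : Type u} [Group G] [Finite G] (Fb : Subgroup (G ⧸ frattini G)) [hFbn : Fb.Normal]
    (hnil : Group.IsNilpotent Fb) :
    Group.IsNilpotent (Fb.comap (QuotientGroup.mk' (frattini G))) := by
  set π := QuotientGroup.mk' (frattini G) with hπdef
  have hπ : Function.Surjective π := QuotientGroup.mk'_surjective _
  set N := Fb.comap π with hNdef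
  have q := (Group.isNilpotent_of_finite_tfae (G := N)).out 0 3
  rw [q]
  intro p hp P
  obtain ⟨Qb⟩ : Nonempty (Sylow p Fb) := inferInstance
  have q2 := (Group.isNilpotent_of_finite_tfae (G := Fb)).out 0 3
  have hQb_normal : (Qb : Subgroup Fb).Normal := (q2.1 hnil) p hp Qb
  have hQb_char : (Qb : Subgroup Fb).Characteristic := Sylow.characteristic_of_normal Qb hQb_normal
  have hQG : ((Qb : Subgroup Fb).map Fb.subtype).Normal := inferInstance
  set K := ((Qb : Subgroup Fb).map Fb.subtype).comap π with hKdef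
  have hKnormal : K.Normal := Subgroup.Normal.comap hQG π
  have hKN : K ≤ N := by
    intro x hx
    rw [hKdef, Subgroup.mem_comap] at hx
    obtain ⟨y, _, hy⟩ := hx
    rw [hNdef, Subgroup.mem_comap, ← hy]
    exact y.2
  set φ : N →* Fb := π.subgroupComap Fb with hφdef
  have hφ : Function.Surjective φ := π.subgroupComap_surjective_of_surjective Fb hπ
  have hφval : ∀ y : N, ((φ y : Fb) : G ⧸ frattini G) = π (y : G) := fun y => rfl
  -- the image of P in Fb is Qb
  have huniq := Sylow.unique_of_normal Qb hQb_normal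
  have hPφle : (P : Subgroup N).map φ ≤ (Qb : Subgroup Fb) := by
    have hpg : IsPGroup p ((P : Subgroup N).map φ) := P.isPGroup'.map φ
    obtain ⟨Q', hQ'⟩ := hpg.exists_le_sylow
    have : Q' = Qb := Subsingleton.elim _ _
    rw [← this]
    exact hQ'
  have hPφ : (P : Subgroup N).map φ = (Qb : Subgroup Fb) := by
    apply le_antisymm hPφle
    have h1 : ((P : Subgroup N).map φ).index ∣ (P : Subgroup N).index := Subgroup.index_map_dvd _ hφ
    have h2 : ¬ p ∣ ((P : Subgroup N).map φ).index := fun h => P.not_dvd_index (h.trans h1)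
    have h3 : ((P : Subgroup N).map φ).relIndex (Qb : Subgroup Fb) ∣ ((P : Subgroup N).map φ).index :=
      Subgroup.relIndex_dvd_index_of_le hPφle
    have h4 : ((P : Subgroup N).map φ).relIndex (Qb : Subgroup Fb) ∣ Nat.card (Qb : Subgroup Fb) :=
      Subgroup.relIndex_dvd_card _ _
    obtain ⟨k, hk⟩ := IsPGroup.iff_card.1 Qb.isPGroup'
    rw [hk] at h4
    obtain ⟨j, _, hj⟩ := (Nat.dvd_prime_pow hp.out).1 h4
    have hj0 : j = 0 := by
      by_contra hne
      apply h2
      refine Dvd.dvd.trans ?_ h3
      rw [hj]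
      exact dvd_pow_self p hne
    rw [hj0, pow_zero] at hj
    exact Subgroup.relIndex_eq_one.1 hj
  set PG := (P : Subgroup N).map N.subtype with hPGdef
  have hPGK : PG ≤ K := by
    rintro x ⟨y, hy, rfl⟩
    rw [hKdef, Subgroup.mem_comap]
    refine ⟨φ y, hPφle (Subgroup.mem_map_of_mem φ hy), ?_⟩
    exact hφval y
  have hKle : K ≤ PG ⊔ frattini G := by
    intro x hx
    rw [hKdef, Subgroup.mem_comap] at hx
    obtain ⟨z, hz, hzx⟩ := hx
    rw [SetLike.mem_coe, ← hPφ] at hz
    obtain ⟨y, hy, hyz⟩ := hz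
    have h1 : π (y : G) = π x := by
      rw [← hφval y, hyz]
      exact hzx
    have h2 : (y : G)⁻¹ * x ∈ frattini G := by
      rw [← QuotientGroup.ker_mk' (frattini G), MonoidHom.mem_ker, map_mul, map_inv, ← hπdef, h1,
        inv_mul_cancel]
    have h3 : x = (y : G) * ((y : G)⁻¹ * x) := by group
    rw [h3]
    exact Subgroup.mul_mem_sup (Subgroup.mem_map_of_mem N.subtype hy) h2
  have hPGp : IsPGroup p (PG.subgroupOf K) := by
    have h1 : IsPGroup p PG := P.isPGroup'.map N.subtype
    exact h1.comap_subtype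
  have hrel : PG.relIndex N = (P : Subgroup N).index := by
    unfold Subgroup.relIndex Subgroup.subgroupOf
    rw [hPGdef, Subgroup.comap_map_eq_self_of_injective N.subtype_injective]
  have hidx : ¬ p ∣ (PG.subgroupOf K).index := by
    intro h
    have h1 : PG.relIndex K * K.relIndex N = PG.relIndex N := Subgroup.relIndex_mul_relIndex PG K N hPGK hKN
    apply P.not_dvd_index
    rw [← hrel, ← h1]
    exact Dvd.dvd.mul_right h _
  let P' : Sylow p K := hPGp.toSylow hidx
  have frat := Sylow.normalizer_sup_eq_top P'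
  have hP'map : (P' : Subgroup K).map K.subtype = PG := by
    rw [IsPGroup.toSylow_coe, Subgroup.subgroupOf_map_subtype, inf_of_le_left hPGK]
  rw [hP'map] at frat
  have hsup : Subgroup.normalizer (PG : Set G) ⊔ frattini G = ⊤ := by
    rw [eq_top_iff, ← frat]
    apply sup_le le_sup_left
    calc K ≤ PG ⊔ frattini G := hKle
      _ ≤ Subgroup.normalizer (PG : Set G) ⊔ frattini G := sup_le_sup_right Subgroup.le_normalizer _
  have hnorm := frattini_nongenerating hsup
  have hPGn : PG.Normal := Subgroup.normalizer_eq_top_iff.mp hnorm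
  exact hPGn.of_map_subtype

theorem result {G : Type*} [Group G] [Finite G] :
    Cfsg.fittingSubgroup (G ⧸ frattini G) = (Cfsg.fittingSubgroup G).map (QuotientGroup.mk' (frattini G)) := by
  set π := QuotientGroup.mk' (frattini G) with hπdef
  have hπ : Function.Surjective π := QuotientGroup.mk'_surjective _
  apply le_antisymm
  · have hFbar_nil : Group.IsNilpotent (Cfsg.fittingSubgroup (G ⧸ frattini G)) :=
      Cfsg.Agent.Lib.Helper30.fitting_nilpotent
    have hFbar_normal : (Cfsg.fittingSubgroup (G ⧸ frattini G)).Normal :=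
      Cfsg.Agent.Lib.Helper30.fitting_normal
    have hNnormal : ((Cfsg.fittingSubgroup (G ⧸ frattini G)).comap π).Normal :=
      Subgroup.Normal.comap hFbar_normal π
    have hNnil : Group.IsNilpotent ((Cfsg.fittingSubgroup (G ⧸ frattini G)).comap π) :=
      gaschutz _ hFbar_nil
    have hNF : (Cfsg.fittingSubgroup (G ⧸ frattini G)).comap π ≤ Cfsg.fittingSubgroup G :=
      le_sSup ⟨hNnormal, hNnil⟩
    calc Cfsg.fittingSubgroup (G ⧸ frattini G)
        = ((Cfsg.fittingSubgroup (G ⧸ frattini G)).comap π).map π :=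
          (Subgroup.map_comap_eq_self_of_surjective hπ _).symm
      _ ≤ (Cfsg.fittingSubgroup G).map π := Subgroup.map_mono hNF
  · apply le_sSup
    have hFn : (Cfsg.fittingSubgroup G).Normal := Cfsg.Agent.Lib.Helper30.fitting_normal
    have hFnil : Group.IsNilpotent (Cfsg.fittingSubgroup G) := Cfsg.Agent.Lib.Helper30.fitting_nilpotent
    refine ⟨Subgroup.Normal.map hFn π hπ, ?_⟩
    exact Group.nilpotent_of_surjective (π.subgroupMap (Cfsg.fittingSubgroup G))
      (π.subgroupMap_surjective _)

end Cfsg.Agent.S0070
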