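import Cfsg.Statements.S0073
import Mathlib

set_option autoImplicit false
open Cfsg

namespace Cfsg.Agent.S0073


/-- An automorphism of prime order `q` of a group of order `p^2`, with `q > p`: then `p = 2` and `q = 3`. -/
theorem aut_order_aux {P : Type*} [Group P] [Finite P] (p q : ℕ) (hp : p.Prime) (hq : q.Prime)
    (hpq : p < q) (hcard : Nat.card P = p ^ 2) (ψ : MulAut P) (hψ : orderOf ψ = q) :
    p = 2 ∧ q = 3 := by
  classical
  have := Fact.mk hq
  -- the group generated by ψ is a q-group
  have hK : IsPGroup q (Subgroup.zpowers ψ) := by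
    apply IsPGroup.of_card (n := 1)
    rw [Nat.card_zpowers, hψ, pow_one]
  have hmod := hK.card_modEq_card_fixedPoints P
  -- the fixed points form a subgroup
  let Fix : Subgroup P :=
    { carrier := {g | ψ g = g}
      mul_mem' := by
        intro a b ha hb
        simp only [Set.mem_ofPred_eq] at ha hb ⊢
        rw [map_mul, ha, hb]
      one_mem' := by simp
      inv_mem' := by
        intro a ha
        simp only [Set.mem_ofPred_eq] at ha ⊢
        rw [map_inv, ha] }
  have hfix : (MulAction.fixedPoints (Subgroup.zpowers ψ) P) = (Fix : Set P) := by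
    ext g
    simp only [MulAction.mem_fixedPoints]
    constructor
    · intro h
      exact h ⟨ψ, Subgroup.mem_zpowers ψ⟩
    · intro h k
      obtain ⟨k, hk⟩ := k
      obtain ⟨n, rfl⟩ := Subgroup.mem_zpowers_iff.mp hk
      change (ψ ^ n) g = g
      have hmem : g ∈ Fix := h
      -- ψ fixes g so does any power
      have h1 : ∀ m : ℕ, (ψ ^ m) g = g := by
        intro m
        induction m with
        | zero => simp
        | succ m ih => rw [pow_succ, MulAut.mul_apply, show ψ g = g from h, ih]
      have h2 : ∀ m : ℕ, (ψ ^ m)⁻¹ g = g := by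
        intro m
        rw [MulAut.inv_apply, MulEquiv.symm_apply_eq]
        exact (h1 m).symm
      rcases Int.eq_nat_or_neg n with ⟨m, rfl | rfl⟩
      · rw [zpow_natCast]; exact h1 m
      · rw [zpow_neg, zpow_natCast]; exact h2 m
  have hcardfix : Nat.card (MulAction.fixedPoints (Subgroup.zpowers ψ) P) = Nat.card Fix := by
    rw [hfix]; rfl
  rw [hcardfix, hcard] at hmod
  have hdvd : Nat.card Fix ∣ p ^ 2 := hcard ▸ Subgroup.card_subgroup_dvd_card Fix
  obtain ⟨j, hj2, hj⟩ := (Nat.dvd_prime_pow hp).mp hdvd
  have hψ1 : ψ ≠ 1 := by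
    intro h
    rw [h, orderOf_one] at hψ
    exact hq.one_lt.ne hψ
  have hjne : j ≠ 2 := by
    intro h
    apply hψ1
    have htop : Fix = ⊤ := by
      apply Subgroup.eq_top_of_card_eq
      rw [hj, h, hcard]
    ext g
    have : g ∈ Fix := htop ▸ Subgroup.mem_top g
    exact this
  rw [hj] at hmod
  have hp2 := hp.two_le
  have hqndvd : ∀ m : ℕ, 0 < m → m < q → ¬ q ∣ m := fun m h0 hlt hd =>
    absurd (Nat.le_of_dvd h0 hd) (by omega)
  interval_cases j
  · -- q ∣ p^2 - 1
    have h1 : q ∣ p ^ 2 - 1 := by
      have := (Nat.modEq_iff_dvd' (by nlinarith : p ^ 0 ≤ p ^ 2)).mp hmod.symm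
      simpa using this
    have h2 : p ^ 2 - 1 = (p - 1) * (p + 1) := by
      zify
      rw [Nat.cast_sub (by nlinarith), Nat.cast_sub (by omega)]
      push_cast; ring
    rw [h2] at h1
    rcases (Nat.Prime.dvd_mul hq).mp h1 with h | h
    · exact absurd h (hqndvd _ (by omega) (by omega))
    · have hle := Nat.le_of_dvd (by omega) h
      have hqe : q = p + 1 := by omega
      rcases hp.eq_two_or_odd with h2' | hodd
      · exact ⟨h2', by omega⟩
      · exfalso
        have h2q : 2 ∣ q := by omega
        have := (Nat.prime_dvd_prime_iff_eq Nat.prime_two hq).mp h2q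
        omega
  · -- q ∣ p^2 - p
    have h1 : q ∣ p ^ 2 - p ^ 1 := 
      (Nat.modEq_iff_dvd' (Nat.pow_le_pow_right (by omega) (by omega))).mp hmod.symm
    have h2 : p ^ 2 - p ^ 1 = p * (p - 1) := by
      zify
      rw [Nat.cast_sub (by nlinarith), Nat.cast_sub (by omega)]
      push_cast; ring
    rw [h2] at h1
    rcases (Nat.Prime.dvd_mul hq).mp h1 with h | h
    · exact absurd h (hqndvd _ (by omega) (by omega))
    · exact absurd h (hqndvd _ (by omega) (by omega))
  · exact absurd rfl hjne

/-- For a finite non-abelian simple group, either the cube of the least prime divisor of the order divides the order, or 12 does. -/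
theorem result {G : Type*} [Group G] [Finite G] [IsSimpleGroup G] (hG : ∃ x y : G, x * y ≠ y * x) : (Nat.card G).minFac ^ 3 ∣ Nat.card G ∨ 12 ∣ Nat.card G := by
  classical
  by_contra hcon
  obtain ⟨h3, h12⟩ := not_or.mp hcon
  have hn1 : Nat.card G ≠ 1 := by
    intro h
    have := (Nat.card_eq_one_iff_unique.mp h).1
    obtain ⟨x, y, hxy⟩ := hG
    exact hxy (Subsingleton.elim _ _)
  obtain ⟨p, hp⟩ : ∃ p, (Nat.card G).minFac = p := ⟨_, rfl⟩
  rw [hp] at h3
  have hpp : p.Prime := hp ▸ Nat.minFac_prime hn1
  have := Fact.mk hpp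
  have hpdvd : p ∣ Nat.card G := hp ▸ Nat.minFac_dvd _
  obtain ⟨P⟩ : Nonempty (Sylow p G) := inferInstance
  obtain ⟨k, hk⟩ := P.2.exists_card_eq
  have hPdvd : Nat.card P ∣ Nat.card G := Subgroup.card_subgroup_dvd_card _
  have hk2 : k ≤ 2 := by
    by_contra hk3
    apply h3
    exact (pow_dvd_pow p (by omega)).trans (hk ▸ hPdvd)
  have hk1 : k ≠ 0 := by
    rintro rfl
    rw [pow_zero] at hk
    exact P.ne_bot_of_dvd_card hpdvd (Subgroup.card_eq_one.mp hk)
  have hcyc1 : k = 1 → IsCyclic P := by
    rintro rfl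
    exact isCyclic_of_prime_card (p := p) (by simpa using hk)
  have hPcomm : ∀ a b : P, a * b = b * a := by
    have hk' : k = 1 ∨ k = 2 := by omega
    rcases hk' with h1 | rfl
    · have := hcyc1 h1
      have hc : IsMulCommutative P := IsCyclic.isMulCommutative
      intro a b
      exact mul_comm' a b
    · have hc : IsMulCommutative P := IsPGroup.isMulCommutative_of_card_eq_prime_sq hk
      intro a b
      exact mul_comm' a b
  by_cases hNC : Subgroup.normalizer (P : Set G) ≤ Subgroup.centralizer (P : Set G)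
  · have hc := MonoidHom.ker_transferSylow_isComplement' P hNC
    have hnormal : (MonoidHom.transferSylow P hNC).ker.Normal := inferInstance
    have hmul := hc.card_mul_card
    rcases hnormal.eq_bot_or_eq_top with hb | ht
    · rw [hb, Subgroup.card_bot, one_mul] at hmul
      have hPtop : (P : Subgroup G) = ⊤ := Subgroup.eq_top_of_card_eq _ hmul
      obtain ⟨x, y, hxy⟩ := hG
      apply hxy
      have hx : x ∈ (P : Subgroup G) := hPtop ▸ Subgroup.mem_top x
      have hy : y ∈ (P : Subgroup G) := hPtop ▸ Subgroup.mem_top y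
      exact congrArg Subtype.val (hPcomm ⟨x, hx⟩ ⟨y, hy⟩)
    · rw [ht, Subgroup.card_top] at hmul
      have hpos : 0 < Nat.card G := Nat.card_pos
      have h1 : Nat.card P = 1 := by
        have : Nat.card G * Nat.card P = Nat.card G * 1 := by rw [hmul, mul_one]
        exact Nat.eq_of_mul_eq_mul_left hpos this
      exact P.ne_bot_of_dvd_card hpdvd (Subgroup.card_eq_one.mp h1)
  · have hncyc : ¬ IsCyclic P := fun hcyc => hNC (hcyc.normalizer_le_centralizer hp)
    have hk2' : k = 2 := by
      have : k ≠ 1 := fun h => hncyc (hcyc1 h)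
      omega
    subst hk2'
    have : IsMulCommutative (P : Subgroup G) := ⟨⟨hPcomm⟩⟩
    have key := Subgroup.card_dvd_of_injective _
      (QuotientGroup.kerLift_injective (P : Subgroup G).normalizerMonoidHom)
    rw [Subgroup.normalizerMonoidHom_ker, ← Subgroup.index, ← Subgroup.relIndex] at key
    set m := (Subgroup.centralizer (P : Set G)).relIndex (Subgroup.normalizer (P : Set G)) with hm
    have hm1 : m ≠ 1 := fun h => hNC (Subgroup.relIndex_eq_one.mp h)
    obtain ⟨q, hq, hqm⟩ := Nat.exists_prime_and_dvd hm1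
    have hmP : m ∣ (P : Subgroup G).index :=
      (Subgroup.relIndex_dvd_of_le_left _ (Subgroup.le_centralizer (P : Subgroup G))).trans
        (Subgroup.relIndex_dvd_index_of_le P.le_normalizer)
    have hqp : q ≠ p := by
      rintro rfl
      exact P.not_dvd_index (hqm.trans hmP)
    have hqG : q ∣ Nat.card G :=
      hqm.trans ((Subgroup.relIndex_dvd_card _ _).trans (Subgroup.card_subgroup_dvd_card _))
    have hpq : p < q := by
      have : p ≤ q := hp ▸ Nat.minFac_le_of_dvd hq.two_le hqG
      omega
    have := Fact.mk hq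
    obtain ⟨ψ, hψ⟩ := exists_prime_orderOf_dvd_card' (G := MulAut P) q (hqm.trans key)
    obtain ⟨rfl, rfl⟩ := aut_order_aux p q hpp hq hpq hk ψ hψ
    apply h12
    have h4 : 4 ∣ Nat.card G := by
      have := hPdvd
      rw [hk] at this
      simpa using this
    exact Nat.Coprime.mul_dvd_of_dvd_of_dvd (by norm_num : Nat.Coprime 4 3) h4 hqG

end Cfsg.Agent.S0073
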