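import Cfsg.Statements.S0074
import Mathlib

set_option autoImplicit false
open Cfsg
open scoped commutatorElement

namespace Cfsg.Agent.S0074

theorem result {G : Type*} [Group G] [Finite G] {p : ℕ} [Fact p.Prime] (P : Sylow p G) (hP : IsMulCommutative P) : commutator G ⊓ (P : Subgroup G) = ⁅Subgroup.normalizer (P : Set G), Subgroup.normalizer (P : Set G)⁆ ⊓ (P : Subgroup G) := by
  apply le_antisymm
  · rw [Subgroup.commutator_inf_eq_focalSubgroup P]
    apply le_inf _ (Subgroup.focalSubgroup_le _)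
    rw [Subgroup.focalSubgroup_def, Subgroup.closure_le]
    rintro g ⟨hgP, x, hxP, u, rfl⟩
    have hux : u⁻¹⁻¹ * x * u⁻¹ ∈ P := by
      have h1 : x⁻¹ * ⁅x, u⁆ ∈ (P : Subgroup G) := Subgroup.mul_mem _ (Subgroup.inv_mem _ hxP) hgP
      have h2 : (x⁻¹ * ⁅x, u⁆)⁻¹ ∈ (P : Subgroup G) := Subgroup.inv_mem _ h1
      have e : (x⁻¹ * ⁅x, u⁆)⁻¹ = u⁻¹⁻¹ * x * u⁻¹ := by
        rw [commutatorElement_def]; group
      rw [e] at h2
      exact h2
    obtain ⟨n, hn, hnx⟩ := P.conj_eq_normalizer_conj_of_mem x u⁻¹ hxP hux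
    have e2 : ⁅x, u⁆ = ⁅x, n⁻¹⁆ := by
      have : ⁅x, u⁆ = x * (u⁻¹⁻¹ * x * u⁻¹)⁻¹ := by rw [commutatorElement_def]; group
      rw [this, hnx, commutatorElement_def]; group
    rw [e2]
    exact Subgroup.commutator_mem_commutator (Subgroup.le_normalizer hxP) (Subgroup.inv_mem _ hn)
  · apply inf_le_inf_right
    rw [commutator_def]
    exact Subgroup.commutator_mono le_top le_top

end Cfsg.Agent.S0074
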