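import Cfsg.Statements.S0075
import Cfsg.Agent.Lib.Helper2.PNilp
import Mathlib

set_option autoImplicit false
open Cfsg
open scoped commutatorElement

namespace Cfsg.Agent.S0075

open Cfsg.Agent.Lib.Helper2

theorem result {G : Type*} [Group G] [Finite G] {p : ℕ} [Fact p.Prime] (T : Sylow p G) (hT : IsMulCommutative T) : (T : Subgroup G) ⊓ Cfsg.pResidual p G = ⁅(T : Subgroup G), Subgroup.normalizer (T : Set G)⁆ := by
  haveI : (Cfsg.pResidual p G).Normal := pResidual_normal p
  apply le_antisymm
  · -- T ⊓ O^p(G) ≤ T ⊓ G' = focal subgroup ≤ [T, N(T)]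
    have hgen : Subgroup.closure {g : Cfsg.pResidual p G | Nat.Coprime (orderOf g) p} = ⊤ := by
      have h := Subgroup.closure_closure_coe_preimage (k := {g : G | Nat.Coprime (orderOf g) p})
      have hset : {g : Cfsg.pResidual p G | Nat.Coprime (orderOf g) p} =
          ((↑) : Cfsg.pResidual p G → G) ⁻¹' {g : G | Nat.Coprime (orderOf g) p} := by
        ext g
        simp
      rw [hset]
      exact h
    have h1 : (T : Subgroup G) ⊓ Cfsg.pResidual p G ≤ commutator G ⊓ (T : Subgroup G) := by
      intro x hx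
      refine ⟨?_, hx.1⟩
      obtain ⟨k, hk⟩ := T.isPGroup' ⟨x, hx.1⟩
      have hk' : x ^ p ^ k = 1 := by
        have := congrArg Subtype.val hk
        simpa using this
      have hmem : (⟨x, hx.2⟩ : Cfsg.pResidual p G) ∈ commutator (Cfsg.pResidual p G) := by
        apply mem_commutator_of_closure_coprime_eq_top hgen _ k
        exact Subtype.ext (by simpa using hk')
      have h2 : x ∈ (commutator (Cfsg.pResidual p G)).map (Cfsg.pResidual p G).subtype :=
        ⟨_, hmem, rfl⟩
      rw [Subgroup.map_subtype_commutator] at h2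
      rw [commutator_def]
      exact Subgroup.commutator_mono le_top le_top h2
    refine h1.trans ?_
    rw [Subgroup.commutator_inf_eq_focalSubgroup T, Subgroup.focalSubgroup_def, Subgroup.closure_le]
    rintro g ⟨hgP, x, hxP, u, rfl⟩
    have hux : u⁻¹⁻¹ * x * u⁻¹ ∈ T := by
      have h1 : x⁻¹ * ⁅x, u⁆ ∈ (T : Subgroup G) := Subgroup.mul_mem _ (Subgroup.inv_mem _ hxP) hgP
      have h2 : (x⁻¹ * ⁅x, u⁆)⁻¹ ∈ (T : Subgroup G) := Subgroup.inv_mem _ h1
      have e : (x⁻¹ * ⁅x, u⁆)⁻¹ = u⁻¹⁻¹ * x * u⁻¹ := by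
        rw [commutatorElement_def]; group
      rw [e] at h2
      exact h2
    obtain ⟨n, hn, hnx⟩ := T.conj_eq_normalizer_conj_of_mem x u⁻¹ hxP hux
    have e2 : ⁅x, u⁆ = ⁅x, n⁻¹⁆ := by
      have : ⁅x, u⁆ = x * (u⁻¹⁻¹ * x * u⁻¹)⁻¹ := by rw [commutatorElement_def]; group
      rw [this, hnx, commutatorElement_def]; group
    rw [e2]
    exact Subgroup.commutator_mem_commutator hxP (Subgroup.inv_mem _ hn)
  · apply le_inf
    · exact Subgroup.le_normalizer_iff_commutator_le_left.mp le_rfl
    · have h1 : ⁅(T : Subgroup G), Subgroup.normalizer (T : Set G)⁆ ≤ commutator G := by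
        rw [commutator_def]
        exact Subgroup.commutator_mono le_top le_top
      refine h1.trans ?_
      apply Subgroup.Normal.commutator_le_of_self_sup_commutative_eq_top (H := (T : Subgroup G))
      · rw [sup_comm]; exact sylow_sup_pResidual T
      · exact hT

end Cfsg.Agent.S0075
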