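import Cfsg.Statements.S0076
import Mathlib

set_option autoImplicit false
open Cfsg

namespace Cfsg.Agent.S0076

theorem exists_mem_mul_mem_normalizer {G : Type*} [Group G] [Finite G] {p : ℕ} [Fact p.Prime]
    (P : Sylow p G) (N : Subgroup G) (g : G) (h1 : (P : Subgroup G) ≤ N)
    (h2 : ((g • P : Sylow p G) : Subgroup G) ≤ N) :
    ∃ h ∈ N, h * g ∈ Subgroup.normalizer ((P : Subgroup G) : Set G) := by
  obtain ⟨h, hh⟩ := MulAction.exists_smul_eq N ((g • P).subtype h2) (P.subtype h1)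
  simp_rw [Sylow.smul_subtype, Subgroup.smul_def, smul_smul] at hh
  exact ⟨h, h.2, Sylow.smul_eq_iff_mem_normalizer.mp (Sylow.subtype_injective hh)⟩

theorem mem_normalizer_of_image_eq {G : Type*} [Group G] {X : Set G} {a : G}
    (h : (fun y => a * y * a⁻¹) '' X = X) : a ∈ Subgroup.normalizer X := by
  rw [Subgroup.mem_set_normalizer_iff]
  intro n
  constructor
  · intro hn
    have : a * n * a⁻¹ ∈ (fun y => a * y * a⁻¹) '' X := ⟨n, hn, rfl⟩
    rwa [h] at this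
  · intro hn
    have : a * n * a⁻¹ ∈ (fun y => a * y * a⁻¹) '' X := by rwa [h]
    obtain ⟨y, hy, hyn⟩ := this
    have : y = n := by simpa using hyn
    exact this ▸ hy

theorem result {G : Type*} [Group G] [Finite G] {p : ℕ} [Fact p.Prime] (P : Sylow p G) (X Y : Set G) (hXP : X ⊆ P) (hYP : Y ⊆ P) (hX : ∀ x ∈ P, (fun y => x * y * x⁻¹) '' X = X) (hY : ∀ x ∈ P, (fun y => x * y * x⁻¹) '' Y = Y) (g : G) (hg : (fun y => g * y * g⁻¹) '' X = Y) : ∃ n ∈ Subgroup.normalizer (P : Set G), (fun y => n * y * n⁻¹) '' X = Y := by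
  have hXY : ∀ n, n ∈ X ↔ g * n * g⁻¹ ∈ Y := by
    intro n
    constructor
    · intro hn
      rw [← hg]; exact ⟨n, hn, rfl⟩
    · intro hn
      rw [← hg] at hn
      obtain ⟨y, hy, hyn⟩ := hn
      have : y = n := by simpa using hyn
      exact this ▸ hy
  have h1 : (P : Subgroup G) ≤ Subgroup.normalizer X := fun x hx => mem_normalizer_of_image_eq (hX x hx)
  have h2 : ((g⁻¹ • P : Sylow p G) : Subgroup G) ≤ Subgroup.normalizer X := by
    intro z hz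
    rw [Sylow.coe_subgroup_smul, Subgroup.mem_pointwise_smul_iff_inv_smul_mem] at hz
    have hu : g * z * g⁻¹ ∈ (P : Subgroup G) := by simpa [MulAut.smul_def] using hz
    have huY := mem_normalizer_of_image_eq (hY _ hu)
    rw [Subgroup.mem_set_normalizer_iff] at huY ⊢
    intro n
    rw [hXY n, hXY (z * n * z⁻¹), huY (g * n * g⁻¹)]
    have : g * z * g⁻¹ * (g * n * g⁻¹) * (g * z * g⁻¹)⁻¹ = g * (z * n * z⁻¹) * g⁻¹ := by group
    rw [this]
  obtain ⟨h, hhN, hnorm⟩ := exists_mem_mul_mem_normalizer P (Subgroup.normalizer X) g⁻¹ h1 h2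
  refine ⟨(h * g⁻¹)⁻¹, Subgroup.inv_mem _ hnorm, ?_⟩
  rw [Subgroup.mem_set_normalizer_iff] at hhN
  ext z
  constructor
  · rintro ⟨y, hy, rfl⟩
    have := (hXY y).mp hy
    have e : (h * g⁻¹)⁻¹ * y * (h * g⁻¹)⁻¹⁻¹ = g * (h⁻¹ * y * h) * g⁻¹ := by group
    show (h * g⁻¹)⁻¹ * y * (h * g⁻¹)⁻¹⁻¹ ∈ Y
    rw [e, ← hXY, hhN]
    have : h * (h⁻¹ * y * h) * h⁻¹ = y := by group
    rw [this]; exact hy
  · intro hz
    refine ⟨h * (g⁻¹ * z * g) * h⁻¹, ?_, ?_⟩
    · rw [← hhN, hXY]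
      have : g * (g⁻¹ * z * g) * g⁻¹ = z := by group
      rw [this]; exact hz
    · show (h * g⁻¹)⁻¹ * (h * (g⁻¹ * z * g) * h⁻¹) * (h * g⁻¹)⁻¹⁻¹ = z
      group

end Cfsg.Agent.S0076
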