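import Cfsg.Statements.S0077
import Mathlib

set_option autoImplicit false
open Cfsg
open scoped commutatorElement

namespace Cfsg.Agent.S0077

theorem mem_smul_sylow {G : Type*} [Group G] {p : ℕ} (g : G) (P : Sylow p G) (x : G) :
    x ∈ ((g • P : Sylow p G) : Subgroup G) ↔ g⁻¹ * x * g ∈ (P : Subgroup G) := by
  rw [Sylow.coe_subgroup_smul, Subgroup.mem_pointwise_smul_iff_inv_smul_mem]
  simp [MulAut.smul_def]

theorem mem_map_conj {G : Type*} [Group G] (g : G) (Z : Subgroup G) (x : G) :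
    x ∈ Z.map (MulAut.conj g).toMonoidHom ↔ g⁻¹ * x * g ∈ Z := by
  constructor
  · rintro ⟨z, hz, rfl⟩
    simpa [mul_assoc] using hz
  · intro h
    exact ⟨g⁻¹ * x * g, h, by simp [mul_assoc]⟩

/-- Two `p`-subgroups of a subgroup `C` can be moved into a common Sylow `p`-subgroup of `G`,
conjugating the second one by an element of `C`. -/
theorem exists_common_sylow {G : Type*} [Group G] [Finite G] {p : ℕ} [Fact p.Prime]
    (C Z Z' : Subgroup G) (hZ : IsPGroup p Z) (hZ' : IsPGroup p Z') (hZC : Z ≤ C) (hZ'C : Z' ≤ C)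
    (P : Sylow p G) :
    ∃ c ∈ C, ∃ v : G, (∀ z ∈ Z, v⁻¹ * z * v ∈ (P : Subgroup G)) ∧
      (∀ z ∈ Z', v⁻¹ * (c * z * c⁻¹) * v ∈ (P : Subgroup G)) := by
  obtain ⟨Q1, hQ1⟩ := (hZ.comap_subtype (K := C)).exists_le_sylow
  obtain ⟨Q2, hQ2⟩ := (hZ'.comap_subtype (K := C)).exists_le_sylow
  obtain ⟨c, hc⟩ := MulAction.exists_smul_eq C Q2 Q1
  have hR : IsPGroup p ((Q1 : Subgroup C).map C.subtype) := Q1.isPGroup'.map _
  obtain ⟨Q, hQ⟩ := hR.exists_le_sylow
  obtain ⟨v, hv⟩ := MulAction.exists_smul_eq G P Q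
  refine ⟨c, c.2, v, ?_, ?_⟩
  · intro z hz
    have h1 : (⟨z, hZC hz⟩ : C) ∈ (Q1 : Subgroup C) := hQ1 (Subgroup.mem_subgroupOf.mpr hz)
    have h2 : z ∈ (Q : Subgroup G) := hQ ⟨⟨z, hZC hz⟩, h1, rfl⟩
    rw [← hv, mem_smul_sylow] at h2
    exact h2
  · intro z hz
    have h1 : (⟨z, hZ'C hz⟩ : C) ∈ (Q2 : Subgroup C) := hQ2 (Subgroup.mem_subgroupOf.mpr hz)
    have h1' : c * (⟨z, hZ'C hz⟩ : C) * c⁻¹ ∈ ((c • Q2 : Sylow p C) : Subgroup C) := by
      rw [mem_smul_sylow]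
      have : c⁻¹ * (c * (⟨z, hZ'C hz⟩ : C) * c⁻¹) * c = ⟨z, hZ'C hz⟩ := by group
      rw [this]; exact h1
    rw [hc] at h1'
    have h2 : (c : G) * z * (c : G)⁻¹ ∈ (Q : Subgroup G) := hQ ⟨_, h1', rfl⟩
    rw [← hv, mem_smul_sylow] at h2
    exact h2

theorem result {G : Type*} [Group G] [Finite G] {p : ℕ} [Fact p.Prime] (P : Sylow p G) (Z : Subgroup G) (hZ : Z ≤ Subgroup.centralizer (P : Set G)) (hW : Cfsg.IsWeaklyClosed Z P) : commutator G ⊓ (P : Subgroup G) = ⁅Subgroup.normalizer (Z : Set G), Subgroup.normalizer (Z : Set G)⁆ ⊓ (P : Subgroup G) := by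
  have hPN : (P : Subgroup G) ≤ Subgroup.normalizer (Z : Set G) := by
    intro x hx
    rw [Subgroup.mem_normalizer_iff]
    intro z
    constructor
    · intro hz
      have := (Subgroup.mem_centralizer_iff.mp (hZ hz)) x hx
      have e : x * z * x⁻¹ = z := by rw [this]; group
      rw [e]; exact hz
    · intro hz
      have := (Subgroup.mem_centralizer_iff.mp (hZ hz)) x hx
      have e : z = x * z * x⁻¹ := by
        have : x * z * x⁻¹ = x⁻¹ * (x * (x * z * x⁻¹)) := by group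
        rw [this, ‹x * (x * z * x⁻¹) = x * z * x⁻¹ * x›]; group
      rw [e]; exact hz
  apply le_antisymm
  · rw [Subgroup.commutator_inf_eq_focalSubgroup P]
    apply le_inf _ (Subgroup.focalSubgroup_le _)
    rw [Subgroup.focalSubgroup_def, Subgroup.closure_le]
    rintro g ⟨hgP, x, hxP, u, rfl⟩
    have hy : u * x * u⁻¹ ∈ (P : Subgroup G) := by
      have h1 : x⁻¹ * ⁅x, u⁆ ∈ (P : Subgroup G) := Subgroup.mul_mem _ (Subgroup.inv_mem _ hxP) hgP
      have h2 : (x⁻¹ * ⁅x, u⁆)⁻¹ ∈ (P : Subgroup G) := Subgroup.inv_mem _ h1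
      have e : (x⁻¹ * ⁅x, u⁆)⁻¹ = u * x * u⁻¹ := by
        rw [commutatorElement_def]; group
      rw [e] at h2
      exact h2
    -- fusion: find n in the normalizer of Z with u x u⁻¹ = n x n⁻¹
    have hZp : IsPGroup p Z := P.isPGroup'.to_le hW.1
    set Z' := Z.map (MulAut.conj u).toMonoidHom with hZ'def
    have hZ'p : IsPGroup p Z' := hZp.map _
    have hZC : Z ≤ Subgroup.centralizer {u * x * u⁻¹} := by
      intro z hz
      rw [Subgroup.mem_centralizer_singleton_iff]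
      exact ((Subgroup.mem_centralizer_iff.mp (hZ hz)) _ hy).symm
    have hZ'C : Z' ≤ Subgroup.centralizer {u * x * u⁻¹} := by
      intro z hz
      rw [hZ'def, mem_map_conj] at hz
      rw [Subgroup.mem_centralizer_singleton_iff]
      have h1 := (Subgroup.mem_centralizer_iff.mp (hZ hz)) x hxP
      calc z * (u * x * u⁻¹) = u * ((u⁻¹ * z * u) * x) * u⁻¹ := by group
        _ = u * (x * (u⁻¹ * z * u)) * u⁻¹ := by rw [h1]
        _ = u * x * u⁻¹ * z := by group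
    obtain ⟨c, hc, v, hv1, hv2⟩ := exists_common_sylow _ Z Z' hZp hZ'p hZC hZ'C P
    have E1 : Z.map (MulAut.conj v⁻¹).toMonoidHom = Z := by
      apply hW.2
      rintro w hw
      rw [mem_map_conj] at hw
      have := hv1 _ hw
      have e : v⁻¹ * (v⁻¹⁻¹ * w * v⁻¹) * v = w := by group
      rwa [e] at this
    have E2 : Z.map (MulAut.conj (v⁻¹ * c * u)).toMonoidHom = Z := by
      apply hW.2
      rintro w hw
      rw [mem_map_conj] at hw
      have hw' : u * ((v⁻¹ * c * u)⁻¹ * w * (v⁻¹ * c * u)) * u⁻¹ ∈ Z' := by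
        rw [hZ'def, mem_map_conj]
        have e : u⁻¹ * (u * ((v⁻¹ * c * u)⁻¹ * w * (v⁻¹ * c * u)) * u⁻¹) * u =
            (v⁻¹ * c * u)⁻¹ * w * (v⁻¹ * c * u) := by group
        rw [e]; exact hw
      have := hv2 _ hw'
      have e : v⁻¹ * (c * (u * ((v⁻¹ * c * u)⁻¹ * w * (v⁻¹ * c * u)) * u⁻¹) * c⁻¹) * v = w := by
        group
      rwa [e] at this
    have F1 : ∀ w, w ∈ Z ↔ v * w * v⁻¹ ∈ Z := by
      intro w
      have h := mem_map_conj v⁻¹ Z w
      rw [E1] at h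
      rw [h]
      simp
    have F2 : ∀ w, w ∈ Z ↔ (v⁻¹ * c * u) * w * (v⁻¹ * c * u)⁻¹ ∈ Z := by
      intro w
      have h := mem_map_conj (v⁻¹ * c * u) Z ((v⁻¹ * c * u) * w * (v⁻¹ * c * u)⁻¹)
      rw [E2] at h
      rw [h]
      have e : (v⁻¹ * c * u)⁻¹ * (v⁻¹ * c * u * w * (v⁻¹ * c * u)⁻¹) * (v⁻¹ * c * u) = w := by group
      rw [e]
    have hn : c * u ∈ Subgroup.normalizer (Z : Set G) := by
      rw [Subgroup.mem_normalizer_iff]
      intro z
      rw [F2 z, F1 ((v⁻¹ * c * u) * z * (v⁻¹ * c * u)⁻¹)]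
      have e : v * (v⁻¹ * c * u * z * (v⁻¹ * c * u)⁻¹) * v⁻¹ = c * u * z * (c * u)⁻¹ := by group
      rw [e]
    have hcy : c * (u * x * u⁻¹) = (u * x * u⁻¹) * c := by
      rw [Subgroup.mem_centralizer_singleton_iff] at hc
      exact hc
    have e2 : ⁅x, u⁆ = ⁅x, c * u⁆ := by
      have h1 : ⁅x, u⁆ = x * (u * x * u⁻¹)⁻¹ := by rw [commutatorElement_def]; group
      have h2 : ⁅x, c * u⁆ = x * (c * (u * x * u⁻¹) * c⁻¹)⁻¹ := by rw [commutatorElement_def]; group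
      rw [h1, h2, hcy]; group
    rw [e2]
    exact Subgroup.commutator_mem_commutator (hPN hxP) hn
  · apply inf_le_inf_right
    rw [commutator_def]
    exact Subgroup.commutator_mono le_top le_top

end Cfsg.Agent.S0077
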