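import Cfsg.Statements.S0078
import Cfsg.Agent.S0077
import Cfsg.Agent.Lib.Helper2.Tate2

set_option autoImplicit false
open Cfsg

namespace Cfsg.Agent.S0078

open Cfsg.Agent.Lib.Helper2

/-- In a p-normal group, a Sylow p-subgroup P meets O^p(G) exactly where it meets O^p(V), for any subgroup V containing the normalizer of the centre of P. -/
theorem result {G : Type*} [Group G] [Finite G] {p : ℕ} [Fact p.Prime] (P : Sylow p G) (hn : ∀ Q : Sylow p G, (P : Subgroup G) ⊓ Subgroup.centralizer (P : Set G) ≤ (Q : Subgroup G) → (Q : Subgroup G) ⊓ Subgroup.centralizer (Q : Set G) = (P : Subgroup G) ⊓ Subgroup.centralizer (P : Set G)) (V : Subgroup G) (hV : Subgroup.normalizer (((P : Subgroup G) ⊓ Subgroup.centralizer (P : Set G) : Subgroup G) : Set G) ≤ V) : (P : Subgroup G) ⊓ Cfsg.pResidual p G = (P : Subgroup G) ⊓ (Cfsg.pResidual p V).map V.subtype := by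
  have hZc : (P : Subgroup G) ⊓ Subgroup.centralizer (P : Set G) ≤
      Subgroup.centralizer (P : Set G) := inf_le_right
  have hZP : (P : Subgroup G) ⊓ Subgroup.centralizer (P : Set G) ≤ (P : Subgroup G) := inf_le_left
  -- the centre of a conjugate Sylow subgroup
  have hconj : ∀ g x : G, x ∈ ((g⁻¹ • P : Sylow p G) : Subgroup G) ⊓
      Subgroup.centralizer ((g⁻¹ • P : Sylow p G) : Set G) ↔
      g * x * g⁻¹ ∈ (P : Subgroup G) ⊓ Subgroup.centralizer (P : Set G) := by
    intro g x
    rw [Subgroup.mem_inf, Subgroup.mem_inf, mem_smul_sylow, inv_inv]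
    apply and_congr Iff.rfl
    rw [Subgroup.mem_centralizer_iff, Subgroup.mem_centralizer_iff]
    constructor
    · intro h y hy
      have hq : g⁻¹ * y * g ∈ ((g⁻¹ • P : Sylow p G) : Subgroup G) := by
        rw [mem_smul_sylow, inv_inv]
        have : g * (g⁻¹ * y * g) * g⁻¹ = y := by group
        rw [this]
        exact hy
      have h1 := h _ hq
      calc y * (g * x * g⁻¹) = g * ((g⁻¹ * y * g) * x) * g⁻¹ := by group
        _ = g * (x * (g⁻¹ * y * g)) * g⁻¹ := by rw [h1]
        _ = _ := by group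
    · intro h q hq
      have hq' : q ∈ ((g⁻¹ • P : Sylow p G) : Subgroup G) := hq
      rw [mem_smul_sylow, inv_inv] at hq'
      have h1 := h _ hq'
      calc q * x = g⁻¹ * ((g * q * g⁻¹) * (g * x * g⁻¹)) * g := by group
        _ = g⁻¹ * ((g * x * g⁻¹) * (g * q * g⁻¹)) * g := by rw [h1]
        _ = _ := by group
  have hW : Cfsg.IsWeaklyClosed ((P : Subgroup G) ⊓ Subgroup.centralizer (P : Set G)) P := by
    refine ⟨hZP, fun g hg => ?_⟩
    have hZQ : (P : Subgroup G) ⊓ Subgroup.centralizer (P : Set G) ≤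
        ((g⁻¹ • P : Sylow p G) : Subgroup G) := by
      intro z hz
      rw [mem_smul_sylow, inv_inv]
      exact hg ⟨z, hz, rfl⟩
    have hQ := hn (g⁻¹ • P) hZQ
    have key : ∀ x, x ∈ (P : Subgroup G) ⊓ Subgroup.centralizer (P : Set G) ↔
        g * x * g⁻¹ ∈ (P : Subgroup G) ⊓ Subgroup.centralizer (P : Set G) := by
      intro x
      rw [← hconj g x, hQ]
    apply le_antisymm
    · rintro _ ⟨z, hz, rfl⟩
      exact (key z).1 hz
    · intro w hw
      refine ⟨g⁻¹ * w * g, ?_, ?_⟩
      · rw [SetLike.mem_coe, key]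
        have : g * (g⁻¹ * w * g) * g⁻¹ = w := by group
        rw [this]
        exact hw
      · show g * (g⁻¹ * w * g) * g⁻¹ = w
        group
  have hGrun := Cfsg.Agent.S0077.result P _ hZc hW
  have hPV : (P : Subgroup G) ≤ V := by
    refine le_trans ?_ hV
    intro x hx
    rw [Subgroup.mem_normalizer_iff]
    intro z
    constructor
    · intro hz
      have h1 := (Subgroup.mem_centralizer_iff.1 (hZc hz)) x hx
      have h2 : x * z * x⁻¹ = z := by rw [h1]; group
      rw [h2]
      exact hz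
    · intro hz
      have h1 := (Subgroup.mem_centralizer_iff.1 (hZc hz)) x⁻¹ (Subgroup.inv_mem _ hx)
      have h2 : z * x⁻¹ = x * z * x⁻¹ * x⁻¹ := by rw [← h1]; group
      have h3 : z = x * z * x⁻¹ := mul_right_cancel h2
      rw [h3]
      exact hz
  have hyp : (P : Subgroup G) ⊓ commutator G ≤ ⁅V, V⁆ := by
    intro x hx
    have h1 : x ∈ commutator G ⊓ (P : Subgroup G) := ⟨hx.2, hx.1⟩
    rw [hGrun] at h1
    exact Subgroup.commutator_mono hV hV h1.1
  have hT := tate_general P V hPV hyp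
  apply le_antisymm
  · rintro x ⟨hxP, hxK⟩
    refine ⟨hxP, ?_⟩
    have h1 : (⟨x, hPV hxP⟩ : V) ∈ (Cfsg.pResidual p G).subgroupOf V := hxK
    exact ⟨⟨x, hPV hxP⟩, hT h1, rfl⟩
  · rintro x ⟨hxP, ⟨y, hy, rfl⟩⟩
    exact ⟨hxP, pResidual_le_subgroupOf p V hy⟩

end Cfsg.Agent.S0078
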