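import Cfsg.Statements.S0079
import Cfsg.Agent.Lib.Helper2.PNilp
import Mathlib

set_option autoImplicit false
open Cfsg
open scoped commutatorElement

namespace Cfsg.Agent.S0079

open Cfsg.Agent.Lib.Helper2

/-- In a finite nilpotent group, conjugation of an element of the Sylow `p`-subgroup by any
element can be achieved inside the Sylow `p`-subgroup. -/
theorem nilpotent_conj_in_sylow {H : Type*} [Group H] [Finite H] [Group.IsNilpotent H] {p : ℕ}
    [hp : Fact p.Prime] (P : Sylow p H) (x : H) (hx : x ∈ (P : Subgroup H)) (h : H) :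
    ∃ u ∈ (P : Subgroup H), u * x * u⁻¹ = h * x * h⁻¹ := by
  haveI : (P : Subgroup H).Normal := inferInstance
  -- the centralizer of x has p-power index
  have hidx : ∃ k : ℕ, (Subgroup.centralizer {x}).index = p ^ k := by
    refine ⟨_, Nat.eq_prime_pow_of_unique_prime_dvd ?_ ?_⟩
    · exact Subgroup.index_ne_zero_of_finite
    · intro q hq hqd
      by_contra hne
      haveI : Fact q.Prime := ⟨hq⟩
      let S : Sylow q H := default
      haveI : (S : Subgroup H).Normal := inferInstance
      have hdisj : Disjoint (P : Subgroup H) (S : Subgroup H) :=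
        IsPGroup.disjoint_of_ne p q (Ne.symm hne) _ _ P.isPGroup' S.isPGroup'
      have hS : (S : Subgroup H) ≤ Subgroup.centralizer {x} := by
        intro b hb
        rw [Subgroup.mem_centralizer_singleton_iff]
        have hc : ⁅x, b⁆ ∈ (P : Subgroup H) ⊓ (S : Subgroup H) :=
          ⟨Subgroup.commutator_le_left _ _ (Subgroup.commutator_mem_commutator hx hb),
            Subgroup.commutator_le_right _ _ (Subgroup.commutator_mem_commutator hx hb)⟩
        rw [disjoint_iff.mp hdisj, Subgroup.mem_bot, commutatorElement_eq_one_iff_mul_comm] at hc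
        exact hc.symm
      exact S.not_dvd_index (hqd.trans (Subgroup.index_dvd_of_le hS))
  obtain ⟨k, hk⟩ := hidx
  have htop := sup_eq_top_of_index_pow P _ hk
  have hmem : h ∈ ((P : Subgroup H) ⊔ Subgroup.centralizer {x} : Subgroup H) := by
    rw [htop]; trivial
  rw [← SetLike.mem_coe, Subgroup.normal_mul] at hmem
  obtain ⟨u, hu, c, hc, rfl⟩ := hmem
  refine ⟨u, hu, ?_⟩
  rw [SetLike.mem_coe, Subgroup.mem_centralizer_singleton_iff] at hc
  calc u * x * u⁻¹ = u * (c * x) * c⁻¹ * u⁻¹ := by rw [hc]; group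
    _ = u * c * x * (u * c)⁻¹ := by group

theorem result {G : Type*} [Group G] [Finite G] (H : Subgroup G) (hH : Group.IsNilpotent H) (hHall : Nat.Coprime (Nat.card H) H.index) : (∃ N : Subgroup G, N.Normal ∧ N.IsComplement' H) ↔ ∀ x ∈ H, ∀ y ∈ H, (∃ g : G, g * x * g⁻¹ = y) → ∃ h ∈ H, h * x * h⁻¹ = y := by
  constructor
  · rintro ⟨N, hN, hc⟩ x hx y hy ⟨g, rfl⟩
    obtain ⟨⟨n, h⟩, hnh⟩ := hc.2 g
    simp only at hnh
    refine ⟨h, h.2, ?_⟩
    have hx' : (h : G) * x * (h : G)⁻¹ ∈ H := H.mul_mem (H.mul_mem h.2 hx) (H.inv_mem h.2)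
    have h1 : (n : G) * ((h : G) * x * (h : G)⁻¹) * (n : G)⁻¹ * ((h : G) * x * (h : G)⁻¹)⁻¹ ∈ N := by
      have : (n : G) * ((h : G) * x * (h : G)⁻¹) * (n : G)⁻¹ * ((h : G) * x * (h : G)⁻¹)⁻¹ =
          (n : G) * (((h : G) * x * (h : G)⁻¹) * (n : G)⁻¹ * ((h : G) * x * (h : G)⁻¹)⁻¹) := by group
      rw [this]
      exact N.mul_mem n.2 (hN.conj_mem _ (N.inv_mem n.2) _)
    have h2 : (n : G) * ((h : G) * x * (h : G)⁻¹) * (n : G)⁻¹ * ((h : G) * x * (h : G)⁻¹)⁻¹ ∈ H := by
      have : (n : G) * ((h : G) * x * (h : G)⁻¹) * (n : G)⁻¹ = g * x * g⁻¹ := by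
        rw [← hnh]; group
      rw [this]
      exact H.mul_mem hy (H.inv_mem hx')
    have h3 : (n : G) * ((h : G) * x * (h : G)⁻¹) * (n : G)⁻¹ * ((h : G) * x * (h : G)⁻¹)⁻¹ ∈ N ⊓ H :=
      ⟨h1, h2⟩
    rw [disjoint_iff.mp hc.disjoint, Subgroup.mem_bot] at h3
    have h4 : (n : G) * ((h : G) * x * (h : G)⁻¹) * (n : G)⁻¹ = (h : G) * x * (h : G)⁻¹ := by
      rw [mul_inv_eq_one] at h3; exact h3
    rw [← h4, ← hnh]; group
  · intro hfus
    -- for each prime p dividing |H|, O^p(G) is a normal complement of a Sylow p-subgroup inside H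
    have key : ∀ p : ℕ, ∀ hp : p.Prime, p ∣ Nat.card H →
        ∃ P : @Sylow p G _, (P : Subgroup G) ≤ H ∧
          Subgroup.IsComplement' (Cfsg.pResidual p G) (P : Subgroup G) := by
      intro p hp hpd
      haveI : Fact p.Prime := ⟨hp⟩
      let PH : Sylow p H := default
      have hPp : IsPGroup p ((PH : Subgroup H).map H.subtype) := PH.isPGroup'.map _
      have hidx : ¬ p ∣ ((PH : Subgroup H).map H.subtype).index := by
        rw [Subgroup.index_map_subtype]
        intro hd
        rcases (Nat.Prime.dvd_mul hp).mp hd with h1 | h1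
        · exact PH.not_dvd_index h1
        · exact (Nat.Prime.coprime_iff_not_dvd hp).mp
            (Nat.Coprime.coprime_dvd_left hpd hHall) h1
      let P : Sylow p G := hPp.toSylow hidx
      have hPcoe : (P : Subgroup G) = (PH : Subgroup H).map H.subtype := rfl
      have hPH : (P : Subgroup G) ≤ H := by
        rw [hPcoe]; exact Subgroup.map_subtype_le _
      refine ⟨P, hPH, ?_⟩
      apply isComplement'_pResidual_of_fusionControl
      intro x hx g hgx
      obtain ⟨h, hh, hhx⟩ := hfus x (hPH hx) _ (hPH hgx) ⟨g, rfl⟩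
      have hxP : (⟨x, hPH hx⟩ : H) ∈ (PH : Subgroup H) := by
        rw [hPcoe] at hx
        obtain ⟨y, hy, hyx⟩ := hx
        have : y = ⟨x, hPH (hPcoe ▸ ⟨y, hy, hyx⟩)⟩ := Subtype.ext hyx
        rw [← this]; exact hy
      obtain ⟨u, hu, hux⟩ := nilpotent_conj_in_sylow PH ⟨x, hPH hx⟩ hxP ⟨h, hh⟩
      refine ⟨(u : G), ?_, ?_⟩
      · rw [hPcoe]; exact ⟨u, hu, rfl⟩
      · have := congrArg (Subtype.val) hux
        simp only [Subgroup.coe_mul, Subgroup.coe_inv] at this
        rw [this, hhx]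
    -- the intersection of these residuals
    let N : Subgroup G := ⨅ p : {p : ℕ // p.Prime ∧ p ∣ Nat.card H}, Cfsg.pResidual (p : ℕ) G
    have hNn : N.Normal := Subgroup.normal_iInf_normal (fun p => pResidual_normal (p : ℕ))
    have hNle : ∀ p : ℕ, p.Prime → p ∣ Nat.card H → N ≤ Cfsg.pResidual p G := by
      intro p hp hpd
      exact iInf_le (fun p : {p : ℕ // p.Prime ∧ p ∣ Nat.card H} => Cfsg.pResidual (p : ℕ) G)
        ⟨p, hp, hpd⟩
    refine ⟨N, hNn, ?_⟩
    have hdisj : Disjoint N H := by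
      rw [disjoint_iff, eq_bot_iff]
      intro x hx
      rw [Subgroup.mem_bot]
      by_contra hx1
      have hord : orderOf x ≠ 1 := fun h => hx1 (orderOf_eq_one_iff.mp h)
      obtain ⟨q, hq, hqd⟩ := Nat.exists_prime_and_dvd hord
      have hqH : q ∣ Nat.card H := by
        have : orderOf (⟨x, hx.2⟩ : H) ∣ Nat.card H := orderOf_dvd_natCard _
        rw [Subgroup.orderOf_mk] at this
        exact hqd.trans this
      obtain ⟨P, hPH, hc⟩ := key q hq hqH
      haveI : Fact q.Prime := ⟨hq⟩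
      have hxN : x ∈ Cfsg.pResidual q G := hNle q hq hqH hx.1
      have h1 : orderOf x ∣ Nat.card (Cfsg.pResidual q G) := by
        have : orderOf (⟨x, hxN⟩ : Cfsg.pResidual q G) ∣ Nat.card (Cfsg.pResidual q G) :=
          orderOf_dvd_natCard _
        rw [Subgroup.orderOf_mk] at this
        exact this
      have h2 : q ∣ (P : Subgroup G).index := by
        rw [hc.index_eq_card]; exact hqd.trans h1
      exact P.not_dvd_index h2
    have hsup : N ⊔ H = ⊤ := by
      rw [← Subgroup.index_eq_one]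
      by_contra hne
      obtain ⟨q, hq, hqd⟩ := Nat.exists_prime_and_dvd hne
      haveI : Fact q.Prime := ⟨hq⟩
      have hq1 : q ∣ H.index := hqd.trans (Subgroup.index_dvd_of_le le_sup_right)
      have hq2 : q ∣ Nat.card (G ⧸ N) := by
        rw [← Subgroup.index_eq_card]
        exact hqd.trans (Subgroup.index_dvd_of_le le_sup_left)
      obtain ⟨t, ht⟩ := exists_prime_orderOf_dvd_card' (G := G ⧸ N) q hq2
      obtain ⟨g, rfl⟩ := QuotientGroup.mk_surjective t
      have hg : g ^ Nat.card H ∈ N := by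
        rw [Subgroup.mem_iInf]
        rintro ⟨p, hp, hpd⟩
        obtain ⟨P, hPH, hc⟩ := key p hp hpd
        haveI := pResidual_normal (G := G) p
        have h1 : g ^ (Cfsg.pResidual p G).index ∈ Cfsg.pResidual p G :=
          Subgroup.pow_index_mem _ g
        rw [hc.symm.index_eq_card] at h1
        obtain ⟨k, hk⟩ := Subgroup.card_dvd_of_le hPH
        show g ^ Nat.card H ∈ Cfsg.pResidual p G
        rw [hk, pow_mul]
        exact Subgroup.pow_mem _ h1 k
      have h3 : (QuotientGroup.mk g : G ⧸ N) ^ Nat.card H = 1 := by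
        rw [← QuotientGroup.mk_pow]; exact (QuotientGroup.eq_one_iff _).mpr hg
      have h4 : q ∣ Nat.card H := by
        rw [← ht]; exact orderOf_dvd_of_pow_eq_one h3
      have h5 := Nat.dvd_gcd h4 hq1
      rw [hHall.gcd_eq_one] at h5
      exact hq.one_lt.ne' (Nat.dvd_one.mp h5)
    apply Subgroup.isComplement'_of_disjoint_and_mul_eq_univ hdisj
    rw [← Subgroup.normal_mul, hsup, Subgroup.coe_top]

end Cfsg.Agent.S0079
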