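import Cfsg.Statements.S0080
import Mathlib

set_option autoImplicit false
open Cfsg
open scoped commutatorElement
open scoped IsMulCommutative

namespace Cfsg.Agent.S0080

theorem result {G : Type*} [Group G] [Finite G] (H : Subgroup G) (h : Nat.Coprime H.index (⁅H, H⁆.relIndex H)) : Subgroup.focalSubgroup H = commutator G ⊓ H ∧ ∃ N : Subgroup G, N.Normal ∧ N ⊓ H = commutator G ⊓ H ∧ N ⊔ H = ⊤ := by
  -- the order of `H / H*` is coprime to the index of `H`
  have hdvd : Nat.card (H ⧸ H.focalSubgroupOf) ∣ ⁅H, H⁆.relIndex H := by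
    rw [← Subgroup.index_eq_card]
    apply Subgroup.index_dvd_of_le
    exact Subgroup.comap_mono (Subgroup.commutator_le_focalSubgroup H)
  have hcop : (Nat.card (H ⧸ H.focalSubgroupOf)).Coprime H.index :=
    (Nat.Coprime.coprime_dvd_right hdvd h).symm
  -- the kernel of the restricted transfer is the focal subgroup
  have hker : (H.transferFocal.domRestrict H).ker = H.focalSubgroupOf := by
    ext g
    rw [MonoidHom.mem_ker, MonoidHom.domRestrict_apply, Subgroup.transferFocal_eq_pow]
    have := (powCoprime hcop).apply_eq_iff_eq (x := (g : H ⧸ H.focalSubgroupOf)) (y := 1)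
    simp only [powCoprime_apply, one_pow] at this
    rw [this]
    exact QuotientGroup.eq_one_iff g
  have hinf : H.transferFocal.ker ⊓ H = H.focalSubgroup := by
    rw [← Subgroup.subgroupOf_map_subtype, ← MonoidHom.ker_domRestrict, ← Subgroup.map_focalSubgroupOf]
    exact congr_arg _ hker
  have hfoc : Subgroup.focalSubgroup H = commutator G ⊓ H := by
    apply le_antisymm
    · exact le_inf H.focalSubgroup_le_commutator H.focalSubgroup_le
    · rw [← hinf]
      exact inf_le_inf_right _ (Abelianization.commutator_subset_ker H.transferFocal)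
  refine ⟨hfoc, H.transferFocal.ker, inferInstance, ?_, ?_⟩
  · rw [hinf, hfoc]
  · rw [eq_top_iff]
    intro g _
    obtain ⟨y, hy⟩ := (powCoprime hcop).surjective (H.transferFocal g)
    obtain ⟨x, rfl⟩ := QuotientGroup.mk'_surjective _ y
    have hx : H.transferFocal (x : G) = H.transferFocal g := by
      rw [Subgroup.transferFocal_eq_pow]
      simpa using hy
    have hmem : g * (x : G)⁻¹ ∈ H.transferFocal.ker := by
      rw [MonoidHom.mem_ker, map_mul, map_inv, hx, mul_inv_cancel]
    have : g = (g * (x : G)⁻¹) * (x : G) := by group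
    rw [this]
    exact Subgroup.mul_mem _ (Subgroup.mem_sup_left hmem) (Subgroup.mem_sup_right x.2)

end Cfsg.Agent.S0080
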