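import Cfsg.Statements.S0082
import Cfsg.Agent.S0055
import Cfsg.Agent.S0075
import Cfsg.Agent.Lib.Helper2.PNilp

set_option autoImplicit false
open Cfsg

namespace Cfsg.Agent.S0082

open Cfsg.Agent.Lib.Helper2

/-- in a finite cyclic `p`-group two subgroups that generate it cannot both be proper -/
theorem eq_top_or_eq_top_of_sup {C : Type*} [Group C] [Finite C] [IsCyclic C] {p : ℕ}
    [hp : Fact p.Prime] (hC : IsPGroup p C) (X Y : Subgroup C) (h : X ⊔ Y = ⊤) :
    X = ⊤ ∨ Y = ⊤ := by
  by_contra hcon
  push Not at hcon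
  obtain ⟨hX, hY⟩ := hcon
  obtain ⟨a, ha⟩ := IsPGroup.iff_card.mp hC
  obtain ⟨g, hg⟩ := IsCyclic.exists_ofOrder_eq_natCard (α := C)
  have hcomm : ∀ x y : C, Commute x y := fun x y => mul_comm' x y
  rcases a with _ | b
  · apply hX
    apply Subgroup.eq_top_of_card_eq
    rw [ha, pow_zero]
    have h1 : Nat.card X ∣ Nat.card C := Subgroup.card_subgroup_dvd_card X
    rw [ha, pow_zero] at h1
    exact Nat.dvd_one.1 h1
  · let M : Subgroup C :=
      { carrier := {x | x ^ p ^ b = 1}
        one_mem' := by simp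
        mul_mem' := by
          intro x y hx hy
          simp only [Set.mem_setOf_eq] at *
          rw [(hcomm x y).mul_pow, hx, hy, one_mul]
        inv_mem' := by
          intro x hx
          simp only [Set.mem_setOf_eq] at *
          rw [inv_pow, hx, inv_one] }
    have key : ∀ Z : Subgroup C, Z ≠ ⊤ → Z ≤ M := by
      intro Z hZ z hz
      have h1 : Nat.card Z ∣ p ^ (b + 1) := ha ▸ Subgroup.card_subgroup_dvd_card Z
      obtain ⟨c, hc, hc'⟩ := (Nat.dvd_prime_pow hp.out).1 h1
      have hcb : c ≤ b := by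
        by_contra hcb
        have : c = b + 1 := by omega
        apply hZ
        apply Subgroup.eq_top_of_card_eq
        rw [hc', this, ha]
      have h2 : z ^ p ^ c = 1 := by
        have h3 : (⟨z, hz⟩ : Z) ^ Nat.card Z = 1 := pow_card_eq_one'
        rw [hc'] at h3
        simpa using congrArg Subtype.val h3
      show z ^ p ^ b = 1
      obtain ⟨e, rfl⟩ := Nat.exists_eq_add_of_le hcb
      rw [pow_add, pow_mul, h2, one_pow]
    have hM : (⊤ : Subgroup C) ≤ M := h ▸ sup_le (key X hX) (key Y hY)
    have hgM : g ^ p ^ b = 1 := hM (Subgroup.mem_top g)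
    have hdvd := orderOf_dvd_of_pow_eq_one hgM
    rw [hg, ha] at hdvd
    have h1 := Nat.le_of_dvd (pow_pos hp.out.pos b) hdvd
    have h2 : p ^ b < p ^ (b + 1) := Nat.pow_lt_pow_right hp.out.one_lt (Nat.lt_succ_self b)
    omega

/-- With a cyclic Sylow p-subgroup, either there is a normal p-complement or the elements of order prime to p generate the whole group. -/
theorem result {G : Type*} [Group G] [Finite G] {p : ℕ} [Fact p.Prime] (P : Sylow p G) (hP : IsCyclic P) : Cfsg.HasNormalPComplement p G ∨ Cfsg.pResidual p G = ⊤ := by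
  by_cases hle : (P : Subgroup G) ≤ Cfsg.pResidual p G
  · right
    have := sylow_sup_pResidual P
    rwa [sup_eq_right.2 hle] at this
  · left
    have hcomm : IsMulCommutative P := inferInstance
    have hR := Cfsg.Agent.S0075.result P hcomm
    have hRP : ⁅(P : Subgroup G), Subgroup.normalizer ((P : Subgroup G) : Set G)⁆ ≤ P :=
      hR ▸ inf_le_left
    have hne : ¬ (P : Subgroup G) ≤ ⁅(P : Subgroup G), Subgroup.normalizer ((P : Subgroup G) : Set G)⁆ :=
      fun h => hle (h.trans (hR ▸ inf_le_right))
    have key : ∀ n ∈ Subgroup.normalizer ((P : Subgroup G) : Set G), Nat.Coprime (orderOf n) p →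
        n ∈ Subgroup.centralizer ((P : Subgroup G) : Set G) := by
      intro n hn hcop
      have hAN : Subgroup.zpowers n ≤ Subgroup.normalizer ((P : Subgroup G) : Set G) := by
        rw [Subgroup.zpowers_le]; exact hn
      obtain ⟨a, ha⟩ := IsPGroup.iff_card.mp P.isPGroup'
      have hcopA : (Nat.card (Subgroup.zpowers n)).Coprime (Nat.card (P : Subgroup G)) := by
        rw [Nat.card_zpowers, ha]; exact Nat.Coprime.pow_right a hcop
      obtain ⟨-, hsup⟩ := Cfsg.Agent.S0055.result (Subgroup.zpowers n) (P : Subgroup G) hAN hcopA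
      have hX : (P : Subgroup G) ⊓ Subgroup.centralizer (Subgroup.zpowers n : Set G) ≤ P :=
        inf_le_left
      have hY : ⁅(P : Subgroup G), Subgroup.zpowers n⁆ ≤ P :=
        (Subgroup.commutator_mono le_rfl hAN).trans hRP
      have hsup' : ((P : Subgroup G) ⊓ Subgroup.centralizer (Subgroup.zpowers n : Set G)).subgroupOf P ⊔
          (⁅(P : Subgroup G), Subgroup.zpowers n⁆).subgroupOf P = ⊤ := by
        rw [← Subgroup.subgroupOf_sup hX hY, hsup, Subgroup.subgroupOf_self]
      rcases eq_top_or_eq_top_of_sup P.isPGroup' _ _ hsup' with h | h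
      · rw [Subgroup.subgroupOf_eq_top] at h
        rw [Subgroup.mem_centralizer_iff]
        intro x hx
        have h1 : x ∈ Subgroup.centralizer (Subgroup.zpowers n : Set G) := (h hx).2
        rw [Subgroup.mem_centralizer_iff] at h1
        exact (h1 n (Subgroup.mem_zpowers n)).symm
      · rw [Subgroup.subgroupOf_eq_top] at h
        exact absurd (h.trans (Subgroup.commutator_mono le_rfl hAN)) hne
    have hNC : Subgroup.normalizer ((P : Subgroup G) : Set G) ≤
        Subgroup.centralizer ((P : Subgroup G) : Set G) := by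
      intro x hx
      obtain ⟨k, hk⟩ := exists_pow_prime_pow_coprime p x
      set m := orderOf (x ^ p ^ k) with hm
      have hcop' : Nat.gcd (p ^ k) m = 1 := (Nat.Coprime.pow_right k hk).symm
      have hbez := Nat.gcd_eq_gcd_ab (p ^ k) m
      rw [hcop'] at hbez
      have hx1 : x = (x ^ p ^ k) ^ (Nat.gcdA (p ^ k) m) * (x ^ m) ^ (Nat.gcdB (p ^ k) m) := by
        rw [← zpow_natCast x (p ^ k), ← zpow_natCast x m, ← zpow_mul, ← zpow_mul, ← zpow_add,
          ← hbez]
        simp
      have hxm1 : (x ^ m) ^ p ^ k = 1 := by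
        rw [← pow_mul, mul_comm, pow_mul, hm, pow_orderOf_eq_one]
      have hxm : x ^ m ∈ (P : Subgroup G) := by
        obtain ⟨j, -, hj⟩ := (Nat.dvd_prime_pow Fact.out).1 (orderOf_dvd_of_pow_eq_one hxm1)
        have hpg : IsPGroup p (Subgroup.zpowers (x ^ m)) :=
          IsPGroup.of_card (n := j) (by rw [Nat.card_zpowers]; exact hj)
        have h1 : x ^ m ∈ Subgroup.zpowers (x ^ m) ⊓
            Subgroup.normalizer ((P : Subgroup G) : Set G) :=
          ⟨Subgroup.mem_zpowers _, Subgroup.pow_mem _ hx m⟩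
        have h3 : x ^ m ∈ Subgroup.zpowers (x ^ m) ⊓ (P : Subgroup G) :=
          (hpg.inf_normalizer_sylow P).le h1
        exact h3.2
      rw [hx1]
      exact Subgroup.mul_mem _ (Subgroup.zpow_mem _ (key _ (Subgroup.pow_mem _ hx _) hk) _)
        (Subgroup.zpow_mem _ (Subgroup.le_centralizer (P : Subgroup G) hxm) _)
    exact ⟨P, _, inferInstance, MonoidHom.ker_transferSylow_isComplement' P hNC⟩

end Cfsg.Agent.S0082
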