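import Cfsg.Statements.S0083
import Mathlib

set_option autoImplicit false
open Cfsg

namespace Cfsg.Agent.S0083

/-- For an abelian Sylow p-subgroup P, a normal p-complement exists exactly when the normalizer of P is an internal direct product of P with some subgroup. -/
theorem result {G : Type*} [Group G] [Finite G] {p : ℕ} [Fact p.Prime] (P : Sylow p G) (hP : IsMulCommutative P) : Cfsg.HasNormalPComplement p G ↔ ∃ Q : Subgroup G, Q ≤ Subgroup.centralizer (P : Set G) ∧ Q ⊓ (P : Subgroup G) = ⊥ ∧ Q ⊔ (P : Subgroup G) = Subgroup.normalizer (P : Set G) := by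
  have hPc : (P : Subgroup G) ≤ Subgroup.centralizer (P : Set G) :=
    Subgroup.le_centralizer_iff_isMulCommutative.mpr hP
  constructor
  · rintro ⟨P', N, hNn, hN⟩
    have hcardP : Nat.card (P : Subgroup G) = Nat.card (P' : Subgroup G) := by
      rw [P.card_eq_multiplicity, P'.card_eq_multiplicity]
    have hNP : N.IsComplement' (P : Subgroup G) := by
      apply Subgroup.isComplement'_of_coprime
      · rw [hcardP]; exact hN.card_mul_card
      · have h1 : Nat.card N = (P' : Subgroup G).index := hN.index_eq_card.symm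
        rw [h1, hcardP]
        exact P'.card_coprime_index.symm
    have hdisj : N ⊓ (P : Subgroup G) = ⊥ := hNP.disjoint.eq_bot
    refine ⟨N ⊓ Subgroup.normalizer (P : Set G), ?_, ?_, ?_⟩
    · rintro n ⟨hnN, hnP⟩
      rw [Subgroup.mem_centralizer_iff]
      intro x hx
      have hx' : x ∈ (P : Subgroup G) := hx
      have h1 : n * x * n⁻¹ ∈ (P : Subgroup G) := (hnP x).mp hx'
      have h2 : n * x * n⁻¹ * x⁻¹ ∈ N ⊓ (P : Subgroup G) := by
        refine ⟨?_, Subgroup.mul_mem _ h1 (Subgroup.inv_mem _ hx')⟩
        have h3 : x * n⁻¹ * x⁻¹ ∈ N := hNn.conj_mem _ (Subgroup.inv_mem _ hnN) x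
        have h4 : n * x * n⁻¹ * x⁻¹ = n * (x * n⁻¹ * x⁻¹) := by group
        rw [h4]; exact Subgroup.mul_mem _ hnN h3
      rw [hdisj, Subgroup.mem_bot] at h2
      have h5 : n * x * n⁻¹ = x := by
        have := mul_eq_one_iff_eq_inv.mp h2
        simpa using this
      calc x * n = n * x * n⁻¹ * n := by rw [h5]
        _ = n * x := by group
    · rw [eq_bot_iff, ← hdisj]
      exact inf_le_inf_right _ inf_le_left
    · apply le_antisymm
      · exact sup_le inf_le_right Subgroup.le_normalizer
      · intro x hx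
        have htop : x ∈ N ⊔ (P : Subgroup G) := hNP.sup_eq_top ▸ Subgroup.mem_top x
        rw [← SetLike.mem_coe, Subgroup.normal_mul] at htop
        obtain ⟨n, hn, y, hy, rfl⟩ := htop
        have hy' : y ∈ (P : Subgroup G) := hy
        have hnn : n ∈ Subgroup.normalizer (P : Set G) := by
          have h6 : n = n * y * y⁻¹ := by group
          rw [h6]
          exact Subgroup.mul_mem _ hx (Subgroup.inv_mem _ (Subgroup.le_normalizer hy'))
        exact Subgroup.mul_mem _ (Subgroup.mem_sup_left ⟨hn, hnn⟩) (Subgroup.mem_sup_right hy')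
  · rintro ⟨Q, hQc, -, hQs⟩
    have hN : Subgroup.normalizer (P : Set G) ≤ Subgroup.centralizer (P : Set G) := by
      rw [← hQs]; exact sup_le hQc hPc
    exact ⟨P, _, inferInstance, MonoidHom.ker_transferSylow_isComplement' P hN⟩

end Cfsg.Agent.S0083
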