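import Cfsg.Statements.S0084
import Mathlib

set_option autoImplicit false
open Cfsg

namespace Cfsg.Agent.S0084

theorem fix_lemma {P : Type*} [Group P] [Finite P] (ψ : MulAut P) (q : ℕ) (hq : q.Prime)
    (hψ : orderOf ψ = q) :
    ∃ d, d ∣ Nat.card P ∧ d ≠ Nat.card P ∧ Nat.card P ≡ d [MOD q] := by
  have := Fact.mk hq
  let F : Subgroup P :=
    { carrier := {x | ψ x = x}
      mul_mem' := fun {a b} ha hb => by
        simp only [Set.mem_ofPred_eq] at ha hb ⊢
        rw [map_mul, ha, hb]
      one_mem' := by simp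
      inv_mem' := fun {a} ha => by
        simp only [Set.mem_ofPred_eq] at ha ⊢
        rw [map_inv, ha] }
  have hpg : IsPGroup q (Subgroup.zpowers ψ) :=
    IsPGroup.of_card (n := 1) (by rw [Nat.card_zpowers, hψ, pow_one])
  have hfix : (MulAction.fixedPoints (Subgroup.zpowers ψ) P) = (F : Set P) := by
    ext x
    simp only [MulAction.mem_fixedPoints]
    constructor
    · intro h; exact h ⟨ψ, Subgroup.mem_zpowers ψ⟩
    · intro hx g
      have hle : Subgroup.zpowers ψ ≤ MulAction.stabilizer (MulAut P) x :=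
        (Subgroup.zpowers_le).mpr hx
      exact hle g.2
  have hmod := hpg.card_modEq_card_fixedPoints P
  have hcard : Nat.card (MulAction.fixedPoints (Subgroup.zpowers ψ) P) = Nat.card F :=
    Nat.card_congr (Equiv.setCongr hfix)
  rw [hcard] at hmod
  refine ⟨Nat.card F, Subgroup.card_subgroup_dvd_card F, ?_, hmod⟩
  intro hF
  have hFtop : F = ⊤ := (Subgroup.card_eq_iff_eq_top F).mp hF
  have hψ1 : ψ = 1 := by
    ext x
    have : x ∈ F := hFtop ▸ Subgroup.mem_top x
    exact this
  rw [hψ1, orderOf_one] at hψ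
  exact hq.one_lt.ne hψ

theorem norm_le_cent {G : Type*} [Group G] [Finite G] {p : ℕ} [Fact p.Prime] (P : Sylow p G)
    (hP : IsMulCommutative P)
    (h : ∀ q : ℕ, q.Prime → q ∣ (P : Subgroup G).index → ∀ ψ : MulAut P, orderOf ψ ≠ q) :
    Subgroup.normalizer (P : Set G) ≤ Subgroup.centralizer (P : Set G) := by
  rw [← Subgroup.relIndex_eq_one]
  by_contra hne
  obtain ⟨q, hq, hqd⟩ := Nat.exists_prime_and_dvd hne
  have key : Nat.card ((P : Subgroup G).normalizerMonoidHom).range =
      (Subgroup.centralizer (P : Set G)).relIndex (Subgroup.normalizer (P : Set G)) := by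
    rw [← Subgroup.index_ker, Subgroup.normalizerMonoidHom_ker]; rfl
  have hdvd : (Subgroup.centralizer (P : Set G)).relIndex (Subgroup.normalizer (P : Set G)) ∣
      (P : Subgroup G).index :=
    (Subgroup.relIndex_dvd_of_le_left _ (Subgroup.le_centralizer_iff_isMulCommutative.mpr hP)).trans
      (Subgroup.relIndex_dvd_index_of_le Subgroup.le_normalizer)
  have := Fact.mk hq
  obtain ⟨ψ, hψ⟩ := exists_prime_orderOf_dvd_card'
    (G := (P : Subgroup G).normalizerMonoidHom.range) q (key ▸ hqd)
  exact h q hq (hqd.trans hdvd) ψ.1 (by rw [← hψ]; exact Subgroup.orderOf_coe ψ)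

/-- A group whose Sylow 2-subgroups are Klein four-groups and whose order is prime to 3 has a normal 2-complement. -/
theorem result {G : Type*} [Group G] [Finite G] (T : Sylow 2 G) (hT : IsKleinFour T) (h3 : ¬ 3 ∣ Nat.card G) : Cfsg.HasNormalPComplement 2 G := by
  have hc : IsMulCommutative T := IsKleinFour.isMulCommutative
  have hcard : Nat.card T = 4 := IsKleinFour.card_four
  have hN : Subgroup.normalizer (T : Set G) ≤ Subgroup.centralizer (T : Set G) := by
    apply norm_le_cent T hc
    intro q hq hqd ψ hψ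
    obtain ⟨d, hd1, hd2, hd3⟩ := fix_lemma ψ q hq hψ
    have hq2 : q ≠ 2 := by
      rintro rfl
      exact T.not_dvd_index hqd
    have hq3 : q ≠ 3 := by
      rintro rfl
      exact h3 (hqd.trans (Subgroup.index_dvd_card _))
    rw [hcard] at hd1 hd2 hd3
    have hd4 : d ≤ 4 := Nat.le_of_dvd (by norm_num) hd1
    have hd5 := (Nat.modEq_iff_dvd' hd4).mp hd3.symm
    interval_cases d
    · simp at hd1
    · exact hq3 ((Nat.prime_dvd_prime_iff_eq hq Nat.prime_three).mp hd5)
    · exact hq2 ((Nat.prime_dvd_prime_iff_eq hq Nat.prime_two).mp hd5)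
    · norm_num at hd1
    · exact hd2 rfl
  exact ⟨T, _, inferInstance, MonoidHom.ker_transferSylow_isComplement' T hN⟩

end Cfsg.Agent.S0084
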