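import Cfsg.Statements.S0086
import Mathlib

set_option autoImplicit false
open Cfsg

namespace Cfsg.Agent.S0086

/-- A normal complement to a Sylow p-subgroup is exactly the set of elements of order prime to p. -/
theorem result {G : Type*} [Group G] [Finite G] {p : ℕ} [Fact p.Prime] (P : Sylow p G) (N : Subgroup G) [N.Normal] (hN : N.IsComplement' (P : Subgroup G)) (x : G) : x ∈ N ↔ Nat.Coprime (orderOf x) p := by
  have hp : p.Prime := Fact.out
  have hcardN : Nat.card N = (P : Subgroup G).index := (hN.index_eq_card).symm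
  have hidxN : N.index = Nat.card (P : Subgroup G) := hN.symm.index_eq_card
  constructor
  · intro hx
    have h1 : orderOf x ∣ Nat.card N := by
      have := orderOf_dvd_natCard (⟨x, hx⟩ : N)
      rwa [Subgroup.orderOf_mk] at this
    rw [hcardN] at h1
    have h2 : Nat.Coprime ((P : Subgroup G).index) p :=
      (Nat.Prime.coprime_iff_not_dvd hp).mpr P.not_dvd_index |>.symm
    exact Nat.Coprime.coprime_dvd_left h1 h2
  · intro hx
    obtain ⟨k, hk⟩ := IsPGroup.iff_card.mp P.isPGroup'
    have h3 : orderOf (QuotientGroup.mk' N x) ∣ orderOf x := orderOf_map_dvd _ x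
    have h4 : orderOf (QuotientGroup.mk' N x) ∣ p ^ k := by
      have := orderOf_dvd_natCard (QuotientGroup.mk' N x)
      rwa [← Subgroup.index_eq_card, hidxN, hk] at this
    have h5 : orderOf (QuotientGroup.mk' N x) = 1 :=
      Nat.Coprime.eq_one_of_dvd (Nat.Coprime.coprime_dvd_left h3 (Nat.Coprime.pow_right k hx)) h4
    rw [orderOf_eq_one_iff] at h5
    exact (QuotientGroup.eq_one_iff x).mp h5

end Cfsg.Agent.S0086
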