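import Cfsg.Statements.S0087
import Mathlib

set_option autoImplicit false
open Cfsg

namespace Cfsg.Agent.S0087

universe u

theorem fac_eq {G : Type u} [Group G] [Finite G] (H : Subgroup G)
    (hHall : Nat.Coprime (Nat.card H) H.index) (p : ℕ) (hpp : p.Prime) (hp : p ∣ Nat.card H) :
    (Nat.card G).factorization p = (Nat.card H).factorization p := by
  have hnd : ¬ p ∣ H.index :=
    (Nat.Prime.coprime_iff_not_dvd hpp).mp (Nat.Coprime.coprime_dvd_left hp hHall)
  have hi0 : H.index ≠ 0 := Subgroup.index_ne_zero_of_finite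
  rw [← H.card_mul_index, Nat.factorization_mul Nat.card_pos.ne' hi0]
  simp [Nat.factorization_eq_zero_of_not_dvd hnd]

theorem exists_sylow_le {G : Type u} [Group G] [Finite G] (H : Subgroup G)
    (hHall : Nat.Coprime (Nat.card H) H.index) (p : ℕ) [Fact p.Prime] (hp : p ∣ Nat.card H) :
    ∃ P : Sylow p G, (P : Subgroup G) ≤ H := by
  have hpp : p.Prime := Fact.out
  let S : Sylow p H := default
  have hcardS : Nat.card (S : Subgroup H) = p ^ (Nat.card H).factorization p :=
    S.card_eq_multiplicity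
  have hcard : Nat.card ((S : Subgroup H).map H.subtype) = p ^ (Nat.card G).factorization p := by
    rw [fac_eq H hHall p hpp hp, ← hcardS]
    exact Subgroup.card_map_of_injective H.subtype_injective
  refine ⟨Sylow.ofCard _ hcard, ?_⟩
  rw [Sylow.coe_ofCard]
  exact Subgroup.map_subtype_le _

theorem normal_of_sylows_normal {G : Type u} [Group G] [Finite G] (H : Subgroup G)
    (hHall : Nat.Coprime (Nat.card H) H.index)
    (hall : ∀ (q : ℕ) (_ : Fact q.Prime) (Q : Sylow q G), (Q : Subgroup G) ≤ H →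
      (Q : Subgroup G).Normal) :
    H.Normal := by
  constructor
  intro h hh g
  let D : Subgroup G := H ⊓ H.comap (MulAut.conj g).toMonoidHom
  have hDH : D ≤ H := inf_le_left
  have hdvd : Nat.card H ∣ Nat.card D := by
    rw [← Nat.factorization_prime_le_iff_dvd Nat.card_pos.ne' Nat.card_pos.ne']
    intro q hq
    by_cases hqH : q ∣ Nat.card H
    · have := Fact.mk hq
      obtain ⟨Q, hQH⟩ := exists_sylow_le H hHall q hqH
      have hQn := hall q ⟨hq⟩ Q hQH
      have hQD : (Q : Subgroup G) ≤ D := by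
        intro x hx
        exact ⟨hQH hx, hQH (hQn.conj_mem x hx g)⟩
      have h1 : Nat.card (Q : Subgroup G) ∣ Nat.card D := Subgroup.card_dvd_of_le hQD
      rw [Q.card_eq_multiplicity, fac_eq H hHall q hq hqH] at h1
      exact (Nat.Prime.pow_dvd_iff_le_factorization hq Nat.card_pos.ne').mp h1
    · rw [Nat.factorization_eq_zero_of_not_dvd hqH]
      exact Nat.zero_le _
  have hDeq : D = H :=
    Subgroup.eq_of_le_of_card_ge hDH (Nat.le_of_dvd Nat.card_pos hdvd)
  have hhD : h ∈ D := hDeq ▸ hh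
  exact hhD.2

theorem main : ∀ (n : ℕ) (G : Type u) [Group G] [Finite G], Nat.card G = n →
    ∀ (H : Subgroup G), Nat.Coprime (Nat.card H) H.index →
      Subgroup.normalizer (H : Set G) ≤ Subgroup.centralizer (H : Set G) →
      ∃ N : Subgroup G, N.Normal ∧ N.IsComplement' H := by
  intro n
  induction n using Nat.strong_induction_on with
  | _ n ih =>
  intro G _ _ hn H hHall hNC
  have hHcomm : ∀ a ∈ H, ∀ b ∈ H, a * b = b * a := fun a ha b hb =>
    hNC (Subgroup.le_normalizer hb) a ha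
  have hnorm : ∀ X : Subgroup G, X ≤ H → H ≤ Subgroup.normalizer (X : Set G) := by
    intro X hXH h hh
    rw [Subgroup.mem_normalizer_iff]
    intro x
    constructor
    · intro hx
      have : h * x * h⁻¹ = x := by
        rw [hHcomm h hh x (hXH hx)]; group
      rw [this]; exact hx
    · intro hx
      have h4 : h⁻¹ * (h * x * h⁻¹) * h = h * x * h⁻¹ := by
        rw [hHcomm h⁻¹ (H.inv_mem hh) (h * x * h⁻¹) (hXH hx)]; group
      have h5 : h⁻¹ * (h * x * h⁻¹) * h = x := by group
      rw [← h5, h4]; exact hx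
  have L1 : ∀ S : Subgroup G, H ≤ S → S ≠ ⊤ → ∃ K : Subgroup G, K ≤ S ∧
      (∀ s ∈ S, ∀ k ∈ K, s * k * s⁻¹ ∈ K) ∧ K ⊓ H = ⊥ ∧ S ≤ K ⊔ H := by
    intro S hHS hS
    have hlt : Nat.card S < n := by
      rw [← hn]
      exact lt_of_le_of_ne (Subgroup.card_le_card_group S)
        (fun h => hS (Subgroup.eq_top_of_card_eq S h))
    have hcop' : Nat.Coprime (Nat.card (H.subgroupOf S)) (H.subgroupOf S).index := by
      have h1 : Nat.card (H.subgroupOf S) = Nat.card H :=
        Nat.card_congr (Subgroup.subgroupOfEquivOfLe hHS).toEquiv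
      rw [h1]
      exact Nat.Coprime.coprime_dvd_right (Subgroup.relIndex_dvd_index_of_le hHS) hHall
    have hnc' : Subgroup.normalizer ((H.subgroupOf S : Subgroup S) : Set S) ≤
        Subgroup.centralizer ((H.subgroupOf S : Subgroup S) : Set S) := by
      intro s hs
      rw [← Subgroup.subgroupOf_normalizer_eq hHS, Subgroup.mem_subgroupOf] at hs
      have hs' := hNC hs
      rw [Subgroup.mem_centralizer_iff] at hs' ⊢
      intro h hh
      exact Subtype.ext (hs' h (Subgroup.mem_subgroupOf.mp hh))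
    obtain ⟨N', hN'n, hN'c⟩ := ih (Nat.card S) hlt S rfl (H.subgroupOf S) hcop' hnc'
    refine ⟨N'.map S.subtype, Subgroup.map_subtype_le _, ?_, ?_, ?_⟩
    · rintro s hs _ ⟨k, hk, rfl⟩
      exact ⟨⟨s, hs⟩ * k * ⟨s, hs⟩⁻¹, hN'n.conj_mem k hk ⟨s, hs⟩, rfl⟩
    · rw [eq_bot_iff]
      rintro x ⟨⟨k, hk, rfl⟩, hxH⟩
      have hk2 : k ∈ N' ⊓ H.subgroupOf S := ⟨hk, Subgroup.mem_subgroupOf.mpr hxH⟩
      rw [hN'c.disjoint.eq_bot, Subgroup.mem_bot] at hk2
      rw [hk2]; simp
    · intro s hs
      have htop : (⟨s, hs⟩ : S) ∈ N' ⊔ H.subgroupOf S := hN'c.sup_eq_top ▸ Subgroup.mem_top _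
      rw [← SetLike.mem_coe, Subgroup.normal_mul] at htop
      obtain ⟨a, ha, b, hb, hab⟩ := htop
      have hs2 : s = (a : G) * (b : G) := by
        have := congrArg Subtype.val hab
        simpa using this.symm
      rw [hs2]
      exact Subgroup.mul_mem _ (Subgroup.mem_sup_left ⟨a, ha, rfl⟩)
        (Subgroup.mem_sup_right (Subgroup.mem_subgroupOf.mp hb))
  have L2 : ∀ (S P : Subgroup G), H ≤ S → S ≠ ⊤ → P ≤ H →
      S ≤ Subgroup.normalizer (P : Set G) → S ≤ Subgroup.centralizer (P : Set G) := by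
    intro S P hHS hS hPH hSN
    obtain ⟨K, hKS, hKn, hKH, hSK⟩ := L1 S hHS hS
    refine hSK.trans (sup_le ?_ ?_)
    · intro k hk
      rw [Subgroup.mem_centralizer_iff]
      intro x hx
      have hxP : x ∈ P := hx
      have hxS : x ∈ S := hHS (hPH hxP)
      have h1 : x * k * x⁻¹ ∈ K := hKn x hxS k hk
      have h2 : k * x⁻¹ * k⁻¹ ∈ P :=
        (Subgroup.mem_normalizer_iff.mp (hSN (hKS hk)) x⁻¹).mp (P.inv_mem hxP)
      have h3 : x * k * x⁻¹ * k⁻¹ ∈ K ⊓ H := by
        refine ⟨K.mul_mem h1 (K.inv_mem hk), ?_⟩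
        have h30 : x * k * x⁻¹ * k⁻¹ = x * (k * x⁻¹ * k⁻¹) := by group
        rw [h30]
        exact H.mul_mem (hPH hxP) (hPH h2)
      rw [hKH, Subgroup.mem_bot] at h3
      have h31 : x * k = (x * k * x⁻¹ * k⁻¹) * (k * x) := by group
      rw [h31, h3, one_mul]
    · intro h hh
      rw [Subgroup.mem_centralizer_iff]
      intro x hx
      exact hHcomm x (hPH hx) h hh
  have key : ∀ (p : ℕ) (_ : Fact p.Prime) (P : Sylow p G), (P : Subgroup G) ≤ H →
      Subgroup.normalizer ((P : Subgroup G) : Set G) ≤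
        Subgroup.centralizer ((P : Subgroup G) : Set G) := by
    intro p _ P hPH
    have hHNP := hnorm (P : Subgroup G) hPH
    have hHCP : H ≤ Subgroup.centralizer ((P : Subgroup G) : Set G) := by
      intro h hh
      rw [Subgroup.mem_centralizer_iff]
      intro x hx
      exact hHcomm x (hPH hx) h hh
    by_cases hNP : Subgroup.normalizer ((P : Subgroup G) : Set G) = ⊤
    · have hPn : (P : Subgroup G).Normal := Subgroup.normalizer_eq_top_iff.mp hNP
      by_cases hex : ∃ (q : ℕ) (_ : Fact q.Prime) (Q : Sylow q G), (Q : Subgroup G) ≤ H ∧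
          Subgroup.normalizer ((Q : Subgroup G) : Set G) ≠ ⊤
      · obtain ⟨q, hq, Q, hQH, hNQ⟩ := hex
        have h1 := L2 (Subgroup.normalizer ((Q : Subgroup G) : Set G)) P
          (hnorm (Q : Subgroup G) hQH) hNQ hPH (by rw [hNP]; exact le_top)
        have hQC : (Q : Subgroup G) ≤ Subgroup.centralizer ((P : Subgroup G) : Set G) :=
          hQH.trans hHCP
        have h2 := Sylow.normalizer_sup_eq_top' Q hQC
        rw [hNP, ← h2]
        exact sup_le h1 le_rfl
      · push Not at hex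
        have hHn : H.Normal := normal_of_sylows_normal H hHall
          (fun q hq Q hQ => Subgroup.normalizer_eq_top_iff.mp (hex q hq Q hQ))
        have h3 : Subgroup.normalizer (H : Set G) = ⊤ := Subgroup.normalizer_eq_top_iff.mpr hHn
        rw [hNP, ← h3]
        exact hNC.trans (Subgroup.centralizer_le hPH)
    · exact L2 _ P hHNP hNP hPH le_rfl
  have hex : ∀ p : (Nat.card H).primeFactors, ∃ N : Subgroup G, N.Normal ∧
      N.index = (p : ℕ) ^ (Nat.card H).factorization p ∧ ¬ (p : ℕ) ∣ Nat.card N := by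
    rintro ⟨p, hp⟩
    have hpp : p.Prime := Nat.prime_of_mem_primeFactors hp
    have hpd : p ∣ Nat.card H := Nat.dvd_of_mem_primeFactors hp
    have := Fact.mk hpp
    obtain ⟨P, hPH⟩ := exists_sylow_le H hHall p hpd
    have hc := MonoidHom.ker_transferSylow_isComplement' P (key p ⟨hpp⟩ P hPH)
    refine ⟨_, inferInstance, ?_,
      MonoidHom.not_dvd_card_ker_transferSylow P (key p ⟨hpp⟩ P hPH)⟩
    rw [hc.symm.index_eq_card, P.card_eq_multiplicity, fac_eq H hHall p hpp hpd]
  choose N hNn hNi hNc using hex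
  have hMn : (⨅ p, N p).Normal := Subgroup.normal_iInf_normal hNn
  have hdisj : (⨅ p, N p) ⊓ H = ⊥ := by
    rw [eq_bot_iff]
    rintro x ⟨hxN, hxH⟩
    rw [Subgroup.mem_bot]
    by_contra hx1
    have hord : orderOf x ≠ 1 := fun h => hx1 (orderOf_eq_one_iff.mp h)
    obtain ⟨q, hq, hqx⟩ := Nat.exists_prime_and_dvd hord
    have hoH : orderOf x ∣ Nat.card H := by
      have := orderOf_dvd_natCard (⟨x, hxH⟩ : H)
      rwa [Subgroup.orderOf_mk] at this
    have hqmem : q ∈ (Nat.card H).primeFactors :=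
      Nat.mem_primeFactors.mpr ⟨hq, hqx.trans hoH, Nat.card_pos.ne'⟩
    have hxNq : x ∈ N ⟨q, hqmem⟩ := (Subgroup.mem_iInf.mp hxN) ⟨q, hqmem⟩
    have hoN : orderOf x ∣ Nat.card (N ⟨q, hqmem⟩) := by
      have := orderOf_dvd_natCard (⟨x, hxNq⟩ : N ⟨q, hqmem⟩)
      rwa [Subgroup.orderOf_mk] at this
    exact hNc ⟨q, hqmem⟩ (hqx.trans hoN)
  have hidx : (⨅ p, N p).index ≤ Nat.card H := by
    calc (⨅ p, N p).index ≤ ∏ p, (N p).index := Subgroup.index_iInf_le N
      _ = ∏ p : (Nat.card H).primeFactors, (p : ℕ) ^ (Nat.card H).factorization p :=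
          Finset.prod_congr rfl (fun p _ => hNi p)
      _ = Nat.card H := by
          rw [Finset.prod_coe_sort (Nat.card H).primeFactors
            (fun p => p ^ (Nat.card H).factorization p)]
          exact Nat.factorization_prod_pow_eq_self Nat.card_pos.ne'
  have hcardge : Nat.card H ≤ (⨅ p, N p).index := by
    rw [Subgroup.index_eq_card]
    apply Nat.card_le_card_of_injective
      (fun h : H => (QuotientGroup.mk (h : G) : G ⧸ (⨅ p, N p)))
    intro a b hab
    have h0 := QuotientGroup.eq.mp hab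
    have h1 : (a : G)⁻¹ * b ∈ (⨅ p, N p) ⊓ H := ⟨h0, H.mul_mem (H.inv_mem a.2) b.2⟩
    rw [hdisj, Subgroup.mem_bot] at h1
    exact Subtype.ext (inv_mul_eq_one.mp h1)
  refine ⟨⨅ p, N p, hMn, ?_⟩
  apply Subgroup.isComplement'_of_card_mul_and_disjoint
  · rw [← (⨅ p, N p).card_mul_index, le_antisymm hidx hcardge]
  · exact disjoint_iff.mpr hdisj

/-- A Hall subgroup that is central in its normalizer has a normal complement. -/
theorem result {G : Type*} [Group G] [Finite G] (H : Subgroup G) (hHall : Nat.Coprime (Nat.card H) H.index) (h : Subgroup.normalizer (H : Set G) ≤ Subgroup.centralizer (H : Set G)) : ∃ N : Subgroup G, N.Normal ∧ N.IsComplement' H :=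
  main (Nat.card G) G rfl H hHall h

end Cfsg.Agent.S0087
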