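import Cfsg.Statements.S0088
import Mathlib

set_option autoImplicit false
open Cfsg

namespace Cfsg.Agent.S0088

open scoped IsMulCommutative in
/-- An abelian Hall subgroup meets G' ∩ Z(G) trivially. -/
theorem result {G : Type*} [Group G] [Finite G] (H : Subgroup G) (hc : IsMulCommutative H) (hHall : Nat.Coprime (Nat.card H) H.index) : H ⊓ commutator G ⊓ Subgroup.center G = ⊥ := by
  rw [eq_bot_iff]
  rintro z ⟨⟨hzH, hzc⟩, hzZ⟩
  rw [Subgroup.mem_bot]
  have key : ∀ (k : ℕ) (g₀ : G), g₀⁻¹ * z ^ k * g₀ ∈ H → g₀⁻¹ * z ^ k * g₀ = z ^ k := by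
    intro k g₀ _
    have hzk : z ^ k ∈ Subgroup.center G := Subgroup.pow_mem _ hzZ k
    rw [Subgroup.mem_center_iff] at hzk
    rw [mul_assoc, ← hzk g₀, inv_mul_cancel_left]
  have h1 := MonoidHom.transfer_eq_pow (MonoidHom.id H) z key
  have h2 : MonoidHom.transfer (MonoidHom.id H) z = 1 :=
    Abelianization.commutator_subset_ker (MonoidHom.transfer (MonoidHom.id H)) hzc
  rw [h2] at h1
  have h3 : z ^ H.index = 1 := by
    have := congrArg Subtype.val h1
    simpa using this.symm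
  have h4 : orderOf z ∣ H.index := orderOf_dvd_of_pow_eq_one h3
  have h5 : orderOf z ∣ Nat.card H := by
    have := orderOf_dvd_natCard (⟨z, hzH⟩ : H)
    rwa [Subgroup.orderOf_mk] at this
  have h6 : orderOf z = 1 := Nat.Coprime.eq_one_of_dvd (Nat.Coprime.coprime_dvd_left h5 hHall) h4
  exact orderOf_eq_one_iff.mp h6

end Cfsg.Agent.S0088
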