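import Cfsg.Statements.S0090
import Mathlib

set_option autoImplicit false
open Cfsg

namespace Cfsg.Agent.S0090

open scoped commutatorElement

section normmap
open scoped IsMulCommutative

/-- The norm map over a complement: for `A` abelian normal with complement `K`,
every `a ∈ A` satisfies `a ^ |K| = c * z` with `c ∈ ⁅A, ⊤⁆` and `z ∈ Z(G) ⊓ A`. -/
theorem norm_decomp {G : Type*} [Group G] [Finite G] (A K : Subgroup G) [hAn : A.Normal]
    (hc : IsMulCommutative A) (hAK : A.IsComplement' K) (a : G) (ha : a ∈ A) :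
    ∃ c ∈ ⁅A, (⊤ : Subgroup G)⁆, ∃ z ∈ Subgroup.center G ⊓ A, a ^ Nat.card K = c * z := by
  classical
  have : Fintype K := Fintype.ofFinite K
  let f : A → K → A := fun b k => ⟨(k : G) * b * (k : G)⁻¹, hAn.conj_mem b b.2 k⟩
  let θ : A → A := fun b => ∏ k : K, f b k
  have hθK : ∀ (b : A) (g : K), (g : G) * (θ b : G) * (g : G)⁻¹ = (θ b : G) := by
    intro b g
    let cg : A →* A :=
      { toFun := fun x => ⟨(g : G) * x * (g : G)⁻¹, hAn.conj_mem x x.2 g⟩
        map_one' := Subtype.ext (by simp)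
        map_mul' := fun x y => Subtype.ext (by simp [mul_assoc]) }
    have h1 : cg (θ b) = θ b := by
      show cg (∏ k : K, f b k) = ∏ k : K, f b k
      rw [map_prod]
      apply Fintype.prod_equiv (Equiv.mulLeft g)
      intro k
      apply Subtype.ext
      simp [cg, f, mul_assoc]
    exact congrArg Subtype.val h1
  have hθZ : ∀ b : A, (θ b : G) ∈ Subgroup.center G ⊓ A := by
    intro b
    refine ⟨?_, (θ b).2⟩
    show (θ b : G) ∈ Subgroup.center G
    rw [Subgroup.mem_center_iff]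
    intro g
    obtain ⟨⟨x, y⟩, hxy, -⟩ := hAK.existsUnique g
    have hxy' : (x : G) * (y : G) = g := hxy
    have h1 : (x : G) * (θ b : G) = (θ b : G) * (x : G) :=
      congrArg Subtype.val (mul_comm x (θ b))
    have h2 : (y : G) * (θ b : G) = (θ b : G) * (y : G) := by
      have h3 := hθK b y
      calc (y : G) * (θ b : G) = ((y : G) * (θ b : G) * (y : G)⁻¹) * (y : G) := by group
        _ = (θ b : G) * (y : G) := by rw [h3]
    rw [← hxy', mul_assoc, h2, ← mul_assoc, h1, mul_assoc]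
  have hcomm : ∀ b : A, b ^ Nat.card K * (θ b)⁻¹ ∈ (⁅A, (⊤ : Subgroup G)⁆).subgroupOf A := by
    intro b
    have h1 : b ^ Nat.card K * (θ b)⁻¹ = ∏ k : K, b * (f b k)⁻¹ := by
      rw [Finset.prod_mul_distrib, Finset.prod_inv_distrib, Finset.prod_const, Finset.card_univ,
        Nat.card_eq_fintype_card]
    rw [h1]
    apply Subgroup.prod_mem
    intro k _
    rw [Subgroup.mem_subgroupOf]
    have h2 : ((b * (f b k)⁻¹ : A) : G) = ⁅(b : G), (k : G)⁆ := by
      simp [f, commutatorElement_def, mul_assoc]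
    rw [h2]
    exact Subgroup.commutator_mem_commutator b.2 (Subgroup.mem_top _)
  refine ⟨((⟨a, ha⟩ : A) ^ Nat.card K * (θ ⟨a, ha⟩)⁻¹ : A), hcomm ⟨a, ha⟩, (θ ⟨a, ha⟩ : G),
    hθZ ⟨a, ha⟩, ?_⟩
  simp

end normmap

open scoped IsMulCommutative in
/-- An abelian Hall subgroup meets G' ∩ Z(G) trivially. -/
theorem hall_inf_comm_inf_center {G : Type*} [Group G] [Finite G] (H : Subgroup G) (hc : IsMulCommutative H) (hHall : Nat.Coprime (Nat.card H) H.index) : H ⊓ commutator G ⊓ Subgroup.center G = ⊥ := by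
  rw [eq_bot_iff]
  rintro z ⟨⟨hzH, hzc⟩, hzZ⟩
  rw [Subgroup.mem_bot]
  have key : ∀ (k : ℕ) (g₀ : G), g₀⁻¹ * z ^ k * g₀ ∈ H → g₀⁻¹ * z ^ k * g₀ = z ^ k := by
    intro k g₀ _
    have hzk : z ^ k ∈ Subgroup.center G := Subgroup.pow_mem _ hzZ k
    rw [Subgroup.mem_center_iff] at hzk
    rw [mul_assoc, ← hzk g₀, inv_mul_cancel_left]
  have h1 := MonoidHom.transfer_eq_pow (MonoidHom.id H) z key
  have h2 : MonoidHom.transfer (MonoidHom.id H) z = 1 :=
    Abelianization.commutator_subset_ker (MonoidHom.transfer (MonoidHom.id H)) hzc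
  rw [h2] at h1
  have h3 : z ^ H.index = 1 := by
    have := congrArg Subtype.val h1
    simpa using this.symm
  have h4 : orderOf z ∣ H.index := orderOf_dvd_of_pow_eq_one h3
  have h5 : orderOf z ∣ Nat.card H := by
    have := orderOf_dvd_natCard (⟨z, hzH⟩ : H)
    rwa [Subgroup.orderOf_mk] at this
  have h6 : orderOf z = 1 := Nat.Coprime.eq_one_of_dvd (Nat.Coprime.coprime_dvd_left h5 hHall) h4
  exact orderOf_eq_one_iff.mp h6


/-- An abelian normal Hall subgroup A splits as the internal direct product of G' ∩ A and Z(G) ∩ A, and [A, G] = G' ∩ A. -/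
theorem result {G : Type*} [Group G] [Finite G] (A : Subgroup G) [A.Normal] (hc : IsMulCommutative A) (hHall : Nat.Coprime (Nat.card A) A.index) : ⁅A, (⊤ : Subgroup G)⁆ = commutator G ⊓ A ∧ (commutator G ⊓ A) ⊓ (Subgroup.center G ⊓ A) = ⊥ ∧ (commutator G ⊓ A) ⊔ (Subgroup.center G ⊓ A) = A := by
  obtain ⟨K, hAK⟩ := Subgroup.exists_right_complement'_of_coprime hHall
  have hcardK : Nat.card K = A.index := hAK.symm.index_eq_card.symm
  have h88 : A ⊓ commutator G ⊓ Subgroup.center G = ⊥ := hall_inf_comm_inf_center A hc hHall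
  have hle1 : ⁅A, (⊤ : Subgroup G)⁆ ≤ commutator G ⊓ A :=
    le_inf (Subgroup.commutator_mono le_top le_rfl) (Subgroup.commutator_le_left A ⊤)
  have hAle : A ≤ ⁅A, (⊤ : Subgroup G)⁆ ⊔ (Subgroup.center G ⊓ A) := by
    intro a ha
    obtain ⟨c, hc', z, hz, hacz⟩ := norm_decomp A K hc hAK a ha
    have hmem : a ^ Nat.card K ∈ ⁅A, (⊤ : Subgroup G)⁆ ⊔ (Subgroup.center G ⊓ A) := by
      rw [hacz]
      exact Subgroup.mul_mem _ (Subgroup.mem_sup_left hc') (Subgroup.mem_sup_right hz)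
    have hoa : orderOf a ∣ Nat.card A := by
      have := orderOf_dvd_natCard (⟨a, ha⟩ : A)
      rwa [Subgroup.orderOf_mk] at this
    have hcop : (Nat.card K).Coprime (orderOf a) := by
      rw [hcardK]; exact (Nat.Coprime.coprime_dvd_left hoa hHall).symm
    obtain ⟨m, hm⟩ := exists_pow_eq_self_of_coprime hcop
    rw [← hm]; exact Subgroup.pow_mem _ hmem m
  refine ⟨le_antisymm hle1 ?_, ?_, ?_⟩
  · rintro x ⟨hxc, hxA⟩
    have hx := hAle hxA
    rw [Subgroup.mem_sup_of_normal_left] at hx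
    obtain ⟨c, hc', z, hz, rfl⟩ := hx
    have hzc : z ∈ commutator G := by
      have : z = c⁻¹ * (c * z) := by group
      rw [this]
      exact Subgroup.mul_mem _ (Subgroup.inv_mem _ (hle1 hc').1) hxc
    have hz1 : z ∈ A ⊓ commutator G ⊓ Subgroup.center G := ⟨⟨hz.2, hzc⟩, hz.1⟩
    rw [h88, Subgroup.mem_bot] at hz1
    rw [hz1, mul_one]; exact hc'
  · rw [eq_bot_iff, ← h88]
    rintro x ⟨⟨hx1, hx2⟩, hx3, -⟩
    exact ⟨⟨hx2, hx1⟩, hx3⟩
  · exact le_antisymm (sup_le inf_le_right inf_le_right) (hAle.trans (sup_le_sup_right hle1 _))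

end Cfsg.Agent.S0090
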