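import Cfsg.Statements.S0091
import Mathlib

set_option autoImplicit false
open Cfsg

namespace Cfsg.Agent.S0091

open scoped commutatorElement

/-- If a nontrivial Sylow p-subgroup controls its own fusion then it is not contained in the derived subgroup. -/
theorem result {G : Type*} [Group G] [Finite G] {p : ℕ} [Fact p.Prime] (P : Sylow p G) (hp : p ∣ Nat.card G) (h : ∀ x ∈ P, ∀ y ∈ P, (∃ g : G, g * x * g⁻¹ = y) → ∃ z ∈ P, z * x * z⁻¹ = y) : ¬ (P : Subgroup G) ≤ commutator G := by
  intro hle
  have hfoc : (P : Subgroup G).focalSubgroup = (P : Subgroup G) := by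
    rw [← Subgroup.commutator_inf_eq_focalSubgroup P]
    exact inf_eq_right.mpr hle
  have hle2 : (P : Subgroup G).focalSubgroup ≤ ⁅(P : Subgroup G), (P : Subgroup G)⁆ := by
    rw [Subgroup.focalSubgroup_def, Subgroup.closure_le]
    rintro g ⟨hgP, x, hxP, u, rfl⟩
    have hxinv : x⁻¹ ∈ (P : Subgroup G) := Subgroup.inv_mem _ hxP
    have hconj : u * x⁻¹ * u⁻¹ ∈ (P : Subgroup G) := by
      have : u * x⁻¹ * u⁻¹ = x⁻¹ * ⁅x, u⁆ := by
        rw [commutatorElement_def]; group
      rw [this]
      exact Subgroup.mul_mem _ hxinv hgP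
    obtain ⟨z, hzP, hz⟩ := h x⁻¹ hxinv (u * x⁻¹ * u⁻¹) hconj ⟨u, rfl⟩
    have : ⁅x, u⁆ = ⁅x, z⁆ := by
      rw [commutatorElement_def, commutatorElement_def, mul_assoc (x * u), mul_assoc x u, ← mul_assoc u, ← hz]
      group
    rw [this]
    exact Subgroup.commutator_mem_commutator hxP hzP
  have hPP : ⁅(P : Subgroup G), (P : Subgroup G)⁆ = (P : Subgroup G) :=
    le_antisymm (Subgroup.commutator_le_self _) (hfoc.symm.le.trans hle2)
  have hnil : Group.IsNilpotent (P : Subgroup G) := IsPGroup.isNilpotent (p := p) P.isPGroup'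
  have hnt : Nontrivial (P : Subgroup G) := by
    have hdvd : p ∣ Nat.card (P : Subgroup G) := by
      rw [P.card_eq_multiplicity]
      have hpp : p.Prime := Fact.out
      exact dvd_pow_self p (Nat.Prime.factorization_pos_of_dvd hpp Nat.card_pos.ne' hp).ne'
    have : 1 < Nat.card (P : Subgroup G) :=
      lt_of_lt_of_le (Nat.Prime.one_lt (Fact.out : p.Prime)) (Nat.le_of_dvd Nat.card_pos hdvd)
    exact Finite.one_lt_card_iff_nontrivial.mp this
  have hlt := Group.IsSolvable.commutator_lt_top_of_nontrivial (P : Subgroup G)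
  have hmap : (commutator (P : Subgroup G)).map (P : Subgroup G).subtype = (P : Subgroup G) := by
    rw [Subgroup.map_subtype_commutator]; exact hPP
  apply hlt.ne
  apply Subgroup.map_injective (P : Subgroup G).subtype_injective
  rw [hmap, ← MonoidHom.range_eq_map, Subgroup.range_subtype]

end Cfsg.Agent.S0091
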