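import Cfsg.Statements.S0092
import Mathlib

set_option autoImplicit false
open Cfsg

namespace Cfsg.Agent.S0092

open scoped IsMulCommutative in
/-- Transfer into an abelian Sylow subgroup: if `H` is generated by `p'`-elements, then
`C_P(N_H(P)) = 1`. -/
theorem lemT {H : Type*} [Group H] [Finite H] {p : ℕ} [Fact p.Prime] (P : Sylow p H)
    [hP : IsMulCommutative P]
    (hgen : Subgroup.closure {g : H | Nat.Coprime (orderOf g) p} = ⊤) (x : H) (hx : x ∈ P)
    (hcent : ∀ n ∈ Subgroup.normalizer ((P : Subgroup H) : Set H), n * x = x * n) : x = 1 := by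
  have hkey : ∀ (k : ℕ) (g₀ : H), g₀⁻¹ * x ^ k * g₀ ∈ (P : Subgroup H) →
      g₀⁻¹ * x ^ k * g₀ = x ^ k := by
    intro k g₀ hmem
    obtain ⟨n, hn, hne⟩ := P.conj_eq_normalizer_conj_of_mem (x ^ k) g₀ (pow_mem hx k) hmem
    rw [hne]
    have h1 : n * x ^ k = x ^ k * n := by
      have : Commute n x := hcent n hn
      exact (this.pow_right k).eq
    rw [mul_assoc, ← h1, inv_mul_cancel_left]
  have htr := MonoidHom.transfer_eq_pow (MonoidHom.id (P : Subgroup H)) x hkey
  have htriv : ∀ g : H, MonoidHom.transfer (MonoidHom.id (P : Subgroup H)) g = 1 := by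
    have hle : Subgroup.closure {g : H | Nat.Coprime (orderOf g) p} ≤
        (MonoidHom.transfer (MonoidHom.id (P : Subgroup H))).ker := by
      rw [Subgroup.closure_le]
      intro g hg
      rw [SetLike.mem_coe, MonoidHom.mem_ker]
      set y := MonoidHom.transfer (MonoidHom.id (P : Subgroup H)) g with hy
      have h1 : orderOf y ∣ orderOf g := orderOf_map_dvd _ g
      obtain ⟨k, hk⟩ := (IsPGroup.iff_orderOf.mp P.2) y
      have h2 : Nat.Coprime (orderOf y) p := Nat.Coprime.coprime_dvd_left h1 hg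
      rw [hk] at h2
      have h3 : p ^ k = 1 := by
        rcases Nat.eq_zero_or_pos k with h0 | h0
        · rw [h0, pow_zero]
        · exact absurd ((Nat.coprime_pow_left_iff h0 p p).mp h2)
            (by rw [Nat.coprime_self]; exact (Fact.out : p.Prime).ne_one)
      rw [h3] at hk
      exact orderOf_eq_one_iff.mp hk
    intro g
    have : g ∈ Subgroup.closure {g : H | Nat.Coprime (orderOf g) p} := by rw [hgen]; trivial
    exact MonoidHom.mem_ker.mp (hle this)
  rw [htriv x] at htr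
  have h4 : x ^ (P : Subgroup H).index = 1 := by
    have := congrArg (fun z : (P : Subgroup H) => (z : H)) htr
    simpa using this.symm
  have h5 : orderOf x ∣ (P : Subgroup H).index := orderOf_dvd_of_pow_eq_one h4
  have h6 : orderOf x ∣ Nat.card (P : Subgroup H) := by
    have := orderOf_dvd_natCard (⟨x, hx⟩ : (P : Subgroup H))
    rwa [Subgroup.orderOf_mk] at this
  have h7 := Nat.eq_one_of_dvd_coprimes P.card_coprime_index h6 h5
  exact orderOf_eq_one_iff.mp h7

open scoped Pointwise in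
/-- Conjugacy of complements of an abelian normal Hall subgroup. -/
theorem lemY {B : Type*} [Group B] [Finite B] (Q : Subgroup B) [Q.Normal] [IsMulCommutative Q]
    (hcop : Nat.Coprime (Nat.card Q) Q.index) (L₁ L₂ : Subgroup B)
    (h1 : Q.IsComplement' L₁) (h2 : Q.IsComplement' L₂) :
    ∃ h ∈ Q, L₂ = L₁.map (MulAut.conj h).toMonoidHom := by
  have key : ∀ L : Subgroup B, Q.IsComplement' L →
      ∃ α : Q.QuotientDiff, MulAction.stabilizer B α = L := by
    intro L hL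
    let T : Q.LeftTransversal := ⟨(L : Set B), hL.symm⟩
    obtain ⟨a, ha⟩ : ∃ a : Q.QuotientDiff, a = Quotient.mk'' T := ⟨_, rfl⟩
    refine ⟨a, ?_⟩
    symm
    apply Subgroup.eq_of_le_of_card_ge
    · intro l hl
      rw [MulAction.mem_stabilizer_iff, ha]
      show Quotient.mk'' (MulOpposite.op l⁻¹ • T) = Quotient.mk'' T
      congr 1
      apply Subtype.ext
      show MulOpposite.op l⁻¹ • (L : Set B) = L
      exact op_smul_coe_set (inv_mem hl)
    · have h3 := (Subgroup.isComplement'_stabilizer_of_coprime (α := a) hcop)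
      have h4 := h3.card_mul_card
      have h5 := hL.card_mul_card
      have : Nat.card (MulAction.stabilizer B a) = Nat.card L := by
        have hpos : 0 < Nat.card Q := Nat.card_pos
        exact Nat.eq_of_mul_eq_mul_left hpos (h4.trans h5.symm)
      exact this.le
  obtain ⟨α₁, hα₁⟩ := key L₁ h1
  obtain ⟨α₂, hα₂⟩ := key L₂ h2
  obtain ⟨h, hh⟩ := Subgroup.exists_smul_eq hcop α₁ α₂
  refine ⟨h, h.2, ?_⟩
  rw [← hα₂, ← hα₁, ← hh]
  exact MulAction.stabilizer_smul_eq_stabilizer_map_conj (h : B) α₁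

/-- Conjugacy of complements, relative version inside an ambient group. -/
theorem lemY' {M : Type*} [Group M] [Finite M] (Q B : Subgroup M) [Q.Normal] (hQB : Q ≤ B)
    (hab : ∀ a ∈ Q, ∀ b ∈ Q, a * b = b * a)
    (hcop : Nat.Coprime (Nat.card Q) (Q.relIndex B)) (L₁ L₂ : Subgroup M)
    (h1 : L₁ ≤ B) (h1' : L₁ ⊓ Q = ⊥) (h1'' : Nat.card Q * Nat.card L₁ = Nat.card B)
    (h2 : L₂ ≤ B) (h2' : L₂ ⊓ Q = ⊥) (h2'' : Nat.card Q * Nat.card L₂ = Nat.card B) :
    ∃ h ∈ Q, L₂ = L₁.map (MulAut.conj h).toMonoidHom := by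
  have hn : (Q.subgroupOf B).Normal := inferInstance
  have hc : IsMulCommutative (Q.subgroupOf B) :=
    ⟨⟨fun a b => Subtype.ext (Subtype.ext (hab _ a.2 _ b.2))⟩⟩
  have hcardQ : Nat.card (Q.subgroupOf B) = Nat.card Q :=
    Nat.card_congr (Subgroup.subgroupOfEquivOfLe hQB).toEquiv
  have hcop' : Nat.Coprime (Nat.card (Q.subgroupOf B)) (Q.subgroupOf B).index := by
    rw [hcardQ]; exact hcop
  have hcomp : ∀ L : Subgroup M, L ≤ B → L ⊓ Q = ⊥ → Nat.card Q * Nat.card L = Nat.card B →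
      (Q.subgroupOf B).IsComplement' (L.subgroupOf B) := by
    intro L hL hLQ hcard
    apply Subgroup.isComplement'_of_card_mul_and_disjoint
    · rw [hcardQ, Nat.card_congr (Subgroup.subgroupOfEquivOfLe hL).toEquiv, hcard]
    · rw [disjoint_iff, eq_bot_iff]
      rintro x ⟨hxQ, hxL⟩
      have : (x : M) ∈ L ⊓ Q := ⟨hxL, hxQ⟩
      rw [hLQ, Subgroup.mem_bot] at this
      rw [Subgroup.mem_bot]
      exact Subtype.ext this
  obtain ⟨h, hh, heq⟩ := lemY (Q.subgroupOf B) hcop' _ _ (hcomp L₁ h1 h1' h1'')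
    (hcomp L₂ h2 h2' h2'')
  refine ⟨(h : M), hh, ?_⟩
  have e2 : L₂ = (L₂.subgroupOf B).map B.subtype := (Subgroup.map_subgroupOf_eq_of_le h2).symm
  rw [e2, heq, Subgroup.map_map]
  conv_rhs => rw [← Subgroup.map_subgroupOf_eq_of_le h1, Subgroup.map_map]
  rfl

/-- An abelian normal subgroup `Q` of `M`, Hall in the normal subgroup `B`, with `C_Q(B) = 1`,
has a complement in `M`. -/
theorem lemX {M : Type*} [Group M] [Finite M] (Q B : Subgroup M) [hQn : Q.Normal] [hBn : B.Normal]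
    (hQB : Q ≤ B)
    (hab : ∀ a ∈ Q, ∀ b ∈ Q, a * b = b * a)
    (hcop : Nat.Coprime (Nat.card Q) (Q.relIndex B))
    (hC : ∀ x ∈ Q, (∀ b ∈ B, b * x = x * b) → x = 1) :
    ∃ R : Subgroup M, R ⊓ Q = ⊥ ∧ ∀ m : M, ∃ h ∈ Q, ∃ r ∈ R, m = h * r := by
  have hn : (Q.subgroupOf B).Normal := inferInstance
  have hcardQ : Nat.card (Q.subgroupOf B) = Nat.card Q :=
    Nat.card_congr (Subgroup.subgroupOfEquivOfLe hQB).toEquiv
  obtain ⟨L', hL'⟩ := Subgroup.exists_right_complement'_of_coprime (N := Q.subgroupOf B)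
    (by rw [hcardQ]; exact hcop)
  obtain ⟨L, hLdef⟩ : ∃ L : Subgroup M, L = L'.map B.subtype := ⟨_, rfl⟩
  have hLB : L ≤ B := by rw [hLdef]; exact Subgroup.map_subtype_le L'
  have hLQ : L ⊓ Q = ⊥ := by
    rw [eq_bot_iff]
    rintro x ⟨hxL, hxQ⟩
    rw [hLdef] at hxL
    obtain ⟨y, hy, rfl⟩ := hxL
    have h1 : y ∈ Q.subgroupOf B ⊓ L' := ⟨hxQ, hy⟩
    rw [hL'.disjoint.eq_bot, Subgroup.mem_bot] at h1
    rw [h1]; exact Subgroup.one_mem _
  have hLcard : Nat.card Q * Nat.card L = Nat.card B := by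
    have := hL'.card_mul_card
    rw [hcardQ] at this
    rw [hLdef, Subgroup.card_map_of_injective B.subtype_injective]
    exact this
  have hBdecomp : ∀ b ∈ B, ∃ q ∈ Q, ∃ l ∈ L, b = q * l := by
    intro b hb
    obtain ⟨⟨q', l'⟩, hql⟩ := hL'.2 ⟨b, hb⟩
    refine ⟨(q'.1 : M), q'.2, (l'.1 : M), ?_, ?_⟩
    · rw [hLdef]; exact Subgroup.mem_map_of_mem _ l'.2
    · have := congrArg (fun z : B => (z : M)) hql
      exact this.symm
  refine ⟨Subgroup.normalizer (L : Set M), ?_, ?_⟩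
  · rw [eq_bot_iff]
    rintro x ⟨hxR, hxQ⟩
    rw [Subgroup.mem_bot]
    apply hC x hxQ
    have hxL : ∀ l ∈ L, l * x = x * l := by
      intro l hl
      have h1 : x * l * x⁻¹ * l⁻¹ ∈ L :=
        L.mul_mem ((Subgroup.mem_normalizer_iff.mp hxR l).mp hl) (L.inv_mem hl)
      have h2 : x * l * x⁻¹ * l⁻¹ ∈ Q := by
        have h3 : l * x⁻¹ * l⁻¹ ∈ Q := hQn.conj_mem _ (Q.inv_mem hxQ) l
        have h4 := Q.mul_mem hxQ h3
        have h5 : x * (l * x⁻¹ * l⁻¹) = x * l * x⁻¹ * l⁻¹ := by group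
        rw [h5] at h4; exact h4
      have h3 : x * l * x⁻¹ * l⁻¹ ∈ L ⊓ Q := ⟨h1, h2⟩
      rw [hLQ, Subgroup.mem_bot] at h3
      have h4 := mul_inv_eq_one.mp h3
      exact (mul_inv_eq_iff_eq_mul.mp h4).symm
    intro b hb
    obtain ⟨q, hq, l, hl, rfl⟩ := hBdecomp b hb
    rw [mul_assoc, hxL l hl, ← mul_assoc, hab q hq x hxQ, mul_assoc]
  · intro m
    have c1 : L.map (MulAut.conj m).toMonoidHom ≤ B := by
      rintro _ ⟨x, hx, rfl⟩
      exact hBn.conj_mem x (hLB hx) m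
    have c2 : L.map (MulAut.conj m).toMonoidHom ⊓ Q = ⊥ := by
      rw [eq_bot_iff]
      rintro _ ⟨⟨x, hx, rfl⟩, hxQ⟩
      have h1 : x ∈ Q := by
        have := hQn.conj_mem _ hxQ m⁻¹
        simpa [mul_assoc] using this
      have h2 : x ∈ L ⊓ Q := ⟨hx, h1⟩
      rw [hLQ, Subgroup.mem_bot] at h2
      rw [h2, map_one]; exact Subgroup.one_mem _
    have c3 : Nat.card Q * Nat.card (L.map (MulAut.conj m).toMonoidHom) = Nat.card B := by
      rw [Subgroup.card_map_of_injective (MulAut.conj m).injective]; exact hLcard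
    obtain ⟨h, hh, heq⟩ := lemY' Q B hQB hab hcop L _ hLB hLQ hLcard c1 c2 c3
    refine ⟨h, hh, h⁻¹ * m, ?_, by group⟩
    rw [Subgroup.mem_normalizer_iff]
    intro x
    constructor
    · intro hx
      have h1 : m * x * m⁻¹ ∈ L.map (MulAut.conj m).toMonoidHom := ⟨x, hx, rfl⟩
      rw [heq] at h1
      obtain ⟨y, hy, hyx⟩ := h1
      have h2 : h * y * h⁻¹ = m * x * m⁻¹ := hyx
      have h3 : h⁻¹ * m * x * (h⁻¹ * m)⁻¹ = y := by
        have : h⁻¹ * m * x * (h⁻¹ * m)⁻¹ = h⁻¹ * (m * x * m⁻¹) * h := by group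
        rw [this, ← h2]; group
      rw [h3]; exact hy
    · intro hx
      have h1 : h * (h⁻¹ * m * x * (h⁻¹ * m)⁻¹) * h⁻¹ ∈ L.map (MulAut.conj h).toMonoidHom :=
        ⟨_, hx, rfl⟩
      rw [← heq] at h1
      obtain ⟨z, hz, hzx⟩ := h1
      have h2 : m * z * m⁻¹ = h * (h⁻¹ * m * x * (h⁻¹ * m)⁻¹) * h⁻¹ := hzx
      have h3 : z = x := by
        have : h * (h⁻¹ * m * x * (h⁻¹ * m)⁻¹) * h⁻¹ = m * x * m⁻¹ := by group
        rw [this] at h2
        exact mul_left_cancel (mul_right_cancel h2)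
      rw [← h3]; exact hz

/-- From a complement of `Q` in `M` to a `p`-subgroup complementing `B`. -/
theorem lemZ {M : Type*} [Group M] [Finite M] {p : ℕ} [Fact p.Prime] (Q B : Subgroup M)
    [hQn : Q.Normal] (hQB : Q ≤ B) (hnd : ¬ p ∣ Q.relIndex B) (a : ℕ) (hidx : B.index = p ^ a)
    (R : Subgroup M) (hRQ : R ⊓ Q = ⊥) (hR : ∀ m : M, ∃ h ∈ Q, ∃ r ∈ R, m = h * r) :
    ∃ K : Subgroup M, K ⊓ B = ⊥ ∧ Nat.card K = B.index := by
  have hcompl : Q.IsComplement' R := by
    apply Subgroup.isComplement'_of_disjoint_and_mul_eq_univ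
    · rw [disjoint_iff, inf_comm]; exact hRQ
    · rw [Set.eq_univ_iff_forall]
      intro m
      obtain ⟨h, hh, r, hr, rfl⟩ := hR m
      exact Set.mul_mem_mul hh hr
  have hcard : Nat.card Q * Nat.card R = Nat.card M := hcompl.card_mul_card
  have h1 : Nat.card Q * Q.index = Nat.card M := Subgroup.card_mul_index Q
  have h2 : Nat.card R = Q.index := Nat.eq_of_mul_eq_mul_left Nat.card_pos (hcard.trans h1.symm)
  have h3 : Q.relIndex B * B.index = Q.index := Subgroup.relIndex_mul_index hQB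
  have hdvd : p ^ a ∣ Nat.card R := by rw [h2, ← h3, hidx]; exact dvd_mul_left _ _
  obtain ⟨K₀, hK₀⟩ := Sylow.exists_subgroup_card_pow_prime p hdvd
  obtain ⟨K, hK⟩ : ∃ K : Subgroup M, K = K₀.map R.subtype := ⟨_, rfl⟩
  have hKR : K ≤ R := by rw [hK]; exact Subgroup.map_subtype_le K₀
  have hKcard : Nat.card K = p ^ a := by
    rw [hK, Subgroup.card_map_of_injective R.subtype_injective, hK₀]
  refine ⟨K, ?_, by rw [hKcard, hidx]⟩
  obtain ⟨X, hX⟩ : ∃ X : Subgroup M, X = K ⊓ B := ⟨_, rfl⟩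
  have hXQ : Q ⊓ X = ⊥ := by
    rw [eq_bot_iff]
    intro x hx
    have hxX : x ∈ K ⊓ B := by rw [← hX]; exact hx.2
    have : x ∈ R ⊓ Q := ⟨hKR hxX.1, hx.1⟩
    rwa [hRQ] at this
  have e1 : Nat.card X = Q.relIndex X := by
    rw [← Subgroup.inf_relIndex_right, hXQ, Subgroup.relIndex_bot_left]
  have e2 : Q.relIndex X = Q.relIndex (Q ⊔ X) := (Subgroup.relIndex_sup_left X Q).symm
  have hXB : X ≤ B := by rw [hX]; exact inf_le_right
  have e3 : Q.relIndex (Q ⊔ X) * (Q ⊔ X).relIndex B = Q.relIndex B :=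
    Subgroup.relIndex_mul_relIndex _ _ _ le_sup_left (sup_le hQB hXB)
  have d1 : Nat.card X ∣ Q.relIndex B := by rw [e1, e2]; exact Dvd.intro _ e3
  have d2 : Nat.card X ∣ p ^ a := by
    rw [← hKcard]; exact Subgroup.card_dvd_of_le (by rw [hX]; exact inf_le_left)
  have hcop : Nat.Coprime (p ^ a) (Q.relIndex B) :=
    Nat.Coprime.pow_left _ ((Nat.Prime.coprime_iff_not_dvd Fact.out).mpr hnd)
  have hX1 : Nat.card X = 1 := Nat.eq_one_of_dvd_coprimes hcop d2 d1
  rw [← hX]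
  exact Subgroup.eq_bot_of_card_eq _ hX1

/-- `O^p(G)` is a normal subgroup. -/
theorem pResidual_normal (p : ℕ) (G : Type*) [Group G] : (Cfsg.pResidual p G).Normal := by
  constructor
  intro n hn g
  have h1 : (MulAut.conj g).toMonoidHom n ∈ (Cfsg.pResidual p G).map (MulAut.conj g).toMonoidHom :=
    Subgroup.mem_map_of_mem _ hn
  unfold Cfsg.pResidual at h1 ⊢
  rw [MonoidHom.map_closure] at h1
  have h2 : (MulAut.conj g).toMonoidHom '' {g : G | Nat.Coprime (orderOf g) p} ⊆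
      {g : G | Nat.Coprime (orderOf g) p} := by
    rintro _ ⟨x, hx, rfl⟩
    have : orderOf ((MulAut.conj g).toMonoidHom x) = orderOf x := (MulAut.conj g).orderOf_eq x
    show Nat.Coprime (orderOf ((MulAut.conj g).toMonoidHom x)) p
    rw [this]
    exact hx
  have h3 := Subgroup.closure_mono h2 h1
  simpa using h3

/-- Every element of a finite group has a `p`-power power in `O^p(G)`. -/
theorem exists_pow_mem_pResidual {G : Type*} [Group G] [Finite G] (p : ℕ) [hp : Fact p.Prime]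
    (g : G) : ∃ k : ℕ, g ^ p ^ k ∈ Cfsg.pResidual p G := by
  obtain ⟨k, m, hm, hkm⟩ := Nat.exists_eq_pow_mul_and_not_dvd (orderOf_pos g).ne' p hp.out.ne_one
  refine ⟨k, Subgroup.subset_closure ?_⟩
  have hpk : p ^ k ≠ 0 := pow_ne_zero _ hp.out.ne_zero
  have h1 : orderOf (g ^ p ^ k) = m := by
    rw [orderOf_pow_of_dvd hpk ⟨m, hkm⟩, hkm, Nat.mul_div_cancel_left _ (Nat.pos_of_ne_zero hpk)]
  show Nat.Coprime (orderOf (g ^ p ^ k)) p
  rw [h1]
  exact ((Nat.Prime.coprime_iff_not_dvd hp.out).mpr hm).symm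

/-- `O^p(G)`, as a group, is generated by its `p'`-elements. -/
theorem gen_pResidual (p : ℕ) (G : Type*) [Group G] :
    Subgroup.closure {g : Cfsg.pResidual p G | Nat.Coprime (orderOf g) p} = ⊤ := by
  have h := Subgroup.closure_closure_coe_preimage (k := {g : G | Nat.Coprime (orderOf g) p})
  have e : {g : Cfsg.pResidual p G | Nat.Coprime (orderOf g) p} =
      ((↑) : Cfsg.pResidual p G → G) ⁻¹' {g : G | Nat.Coprime (orderOf g) p} := by
    ext g
    simp only [Set.mem_ofPred_eq, Set.mem_preimage, Subgroup.orderOf_coe]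
  rw [e]
  exact h

/-- If the Sylow p-subgroups of O^p(G) are abelian then G splits over O^p(G). -/
theorem result {G : Type*} [Group G] [Finite G] {p : ℕ} [Fact p.Prime] (h : ∀ Q : Sylow p (Cfsg.pResidual p G), IsMulCommutative Q) : ∃ K : Subgroup G, K.IsComplement' (Cfsg.pResidual p G) := by
  have hNn : (Cfsg.pResidual p G).Normal := pResidual_normal p G
  have hgen := gen_pResidual p G
  have hpq : IsPGroup p (G ⧸ Cfsg.pResidual p G) := by
    intro x
    obtain ⟨g, rfl⟩ := QuotientGroup.mk_surjective x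
    obtain ⟨k, hk⟩ := exists_pow_mem_pResidual p g
    refine ⟨k, ?_⟩
    rw [← QuotientGroup.mk_pow]
    exact (QuotientGroup.eq_one_iff _).mpr hk
  revert h hNn hgen hpq
  generalize Cfsg.pResidual p G = N
  intro h hNn hgen hpq
  obtain ⟨Q₀⟩ : Nonempty (Sylow p N) := inferInstance
  have hQ₀c := h Q₀
  have hfrat := Sylow.normalizer_sup_eq_top Q₀
  obtain ⟨Q, hQ⟩ : ∃ Q : Subgroup G, Q = (Q₀ : Subgroup N).map N.subtype := ⟨_, rfl⟩
  rw [← hQ] at hfrat
  obtain ⟨M, hM⟩ : ∃ M : Subgroup G, M = Subgroup.normalizer (Q : Set G) := ⟨_, rfl⟩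
  rw [← hM] at hfrat
  have hQN : Q ≤ N := by rw [hQ]; exact Subgroup.map_subtype_le _
  have hQM : Q ≤ M := by rw [hM]; exact Subgroup.le_normalizer
  have hQMn : (Q.subgroupOf M).Normal := by rw [hM]; exact Subgroup.normal_in_normalizer
  have hBMn : (N.subgroupOf M).Normal := inferInstance
  have hle : Q.subgroupOf M ≤ N.subgroupOf M := fun x hx => hQN hx
  have hab : ∀ a ∈ Q.subgroupOf M, ∀ b ∈ Q.subgroupOf M, a * b = b * a := by
    intro a ha b hb
    have ha' : (a : G) ∈ (Q₀ : Subgroup N).map N.subtype := by rw [← hQ]; exact ha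
    have hb' : (b : G) ∈ (Q₀ : Subgroup N).map N.subtype := by rw [← hQ]; exact hb
    obtain ⟨a', ha'', hae⟩ := ha'
    obtain ⟨b', hb'', hbe⟩ := hb'
    apply Subtype.ext
    show (a : G) * (b : G) = b * a
    rw [← hae, ← hbe]
    have h1 := hQ₀c.is_comm.comm ⟨a', ha''⟩ ⟨b', hb''⟩
    have h2 := congrArg (fun z : Q₀ => ((z : N) : G)) h1
    exact h2
  have hcardQ : Nat.card (Q.subgroupOf M) = Nat.card Q₀ := by
    rw [Nat.card_congr (Subgroup.subgroupOfEquivOfLe hQM).toEquiv, hQ,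
      Subgroup.card_map_of_injective N.subtype_injective]
  have hidxQ₀ : ¬ p ∣ (Q₀ : Subgroup N).index := Q₀.not_dvd_index
  have hrel : (Q.subgroupOf M).relIndex (N.subgroupOf M) ∣ (Q₀ : Subgroup N).index := by
    have e1 : (Q.subgroupOf M).relIndex (N.subgroupOf M) = Q.relIndex (N ⊓ M) := by
      rw [← Subgroup.inf_subgroupOf_right N M, Subgroup.relIndex_subgroupOf inf_le_right]
    have e2 : Q.relIndex (N ⊓ M) * (N ⊓ M).relIndex N = Q.relIndex N :=
      Subgroup.relIndex_mul_relIndex _ _ _ (le_inf hQN hQM) inf_le_left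
    have e3 : Q.relIndex N = (Q₀ : Subgroup N).index := by
      rw [hQ]
      show (((Q₀ : Subgroup N).map N.subtype).comap N.subtype).index = _
      rw [Subgroup.comap_map_eq_self_of_injective N.subtype_injective]
    rw [e1, ← e3]; exact Dvd.intro _ e2
  have hnd : ¬ p ∣ (Q.subgroupOf M).relIndex (N.subgroupOf M) := fun hd =>
    hidxQ₀ (hd.trans hrel)
  have hcop : Nat.Coprime (Nat.card (Q.subgroupOf M))
      ((Q.subgroupOf M).relIndex (N.subgroupOf M)) := by
    rw [hcardQ]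
    obtain ⟨k, hk⟩ := IsPGroup.iff_card.mp Q₀.2
    have hk' : Nat.card Q₀ = p ^ k := hk
    rw [hk']
    exact Nat.Coprime.pow_left _ ((Nat.Prime.coprime_iff_not_dvd Fact.out).mpr hnd)
  have hC : ∀ x ∈ Q.subgroupOf M, (∀ b ∈ N.subgroupOf M, b * x = x * b) → x = 1 := by
    intro x hx hcomm
    have hx' : (x : G) ∈ (Q₀ : Subgroup N).map N.subtype := by rw [← hQ]; exact hx
    obtain ⟨x₀, hx₀, hxe⟩ := hx'
    have h1 := lemT Q₀ hgen x₀ hx₀ (by
      intro n hn
      have hnM : (n : G) ∈ M := by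
        rw [hM, hQ]
        exact Subgroup.le_normalizer_map N.subtype ⟨n, hn, rfl⟩
      have h2 := hcomm ⟨(n : G), hnM⟩ n.2
      have h3 := congrArg (fun z : M => (z : G)) h2
      apply Subtype.ext
      show (n : G) * (x₀ : G) = x₀ * n
      rw [show (x₀ : G) = (x : G) from hxe]; exact h3)
    apply Subtype.ext
    rw [← hxe, h1]; rfl
  have e1 : (N.subgroupOf M).index = N.index := by
    show N.relIndex M = N.index
    rw [← Subgroup.relIndex_sup_right (K := N) (H := M), hfrat, Subgroup.relIndex_top_right]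
  obtain ⟨a, ha⟩ := IsPGroup.iff_card.mp hpq
  have hidx : (N.subgroupOf M).index = p ^ a := by
    rw [e1, Subgroup.index_eq_card, ha]
  obtain ⟨R, hRQ, hR⟩ := lemX (Q.subgroupOf M) (N.subgroupOf M) hle hab hcop hC
  obtain ⟨K, hKB, hKcard⟩ := lemZ (p := p) (Q.subgroupOf M) (N.subgroupOf M) hle hnd a hidx R hRQ hR
  refine ⟨K.map M.subtype, ?_⟩
  apply Subgroup.isComplement'_of_card_mul_and_disjoint
  · rw [Subgroup.card_map_of_injective M.subtype_injective, hKcard, e1, mul_comm,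
      Subgroup.card_mul_index]
  · rw [disjoint_iff, eq_bot_iff]
    rintro _ ⟨⟨k, hk, rfl⟩, hkN⟩
    have h1 : k ∈ K ⊓ N.subgroupOf M := ⟨hk, hkN⟩
    rw [hKB, Subgroup.mem_bot] at h1
    rw [h1]; exact Subgroup.one_mem _

end Cfsg.Agent.S0092
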