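import Cfsg.Statements.S0097
import Mathlib

set_option autoImplicit false
open Cfsg

namespace Cfsg.Agent.S0097

open scoped commutatorElement

section
variable {P : Type*} [Group P]

theorem comm_central (h2 : ⁅commutator P, (⊤ : Subgroup P)⁆ = ⊥) (x y g : P) :
    ⁅x, y⁆ * g = g * ⁅x, y⁆ := by
  have h1 : ⁅x, y⁆ ∈ commutator P :=
    Subgroup.commutator_mem_commutator (Subgroup.mem_top x) (Subgroup.mem_top y)
  have h3 : ⁅⁅x, y⁆, g⁆ ∈ ⁅commutator P, (⊤ : Subgroup P)⁆ :=
    Subgroup.commutator_mem_commutator h1 (Subgroup.mem_top g)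
  rw [h2, Subgroup.mem_bot] at h3
  exact (commutatorElement_eq_one_iff_commute.mp h3).eq

theorem pow_mul_comm2 (x y : P) (hc : ∀ g, ⁅y, x⁆ * g = g * ⁅y, x⁆) (n : ℕ) :
    y ^ n * x = ⁅y, x⁆ ^ n * x * y ^ n := by
  have hyx : y * x = ⁅y, x⁆ * x * y := by rw [commutatorElement_def]; group
  induction n with
  | zero => simp
  | succ n ih =>
    calc y ^ (n + 1) * x = y ^ n * (y * x) := by rw [pow_succ, mul_assoc]
      _ = y ^ n * (⁅y, x⁆ * x * y) := by rw [hyx]
      _ = ⁅y, x⁆ * (y ^ n * x) * y := by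
        rw [mul_assoc ⁅y, x⁆ x y, ← mul_assoc (y ^ n), ← hc (y ^ n)]; simp only [mul_assoc]
      _ = ⁅y, x⁆ * (⁅y, x⁆ ^ n * x * y ^ n) * y := by rw [ih]
      _ = ⁅y, x⁆ ^ (n + 1) * x * y ^ (n + 1) := by
        rw [pow_succ' ⁅y, x⁆, pow_succ y]; simp only [mul_assoc]

theorem comm_pow_left2 (x y : P) (hc : ∀ g, ⁅y, x⁆ * g = g * ⁅y, x⁆) (n : ℕ) :
    ⁅y ^ n, x⁆ = ⁅y, x⁆ ^ n := by
  rw [commutatorElement_def (y ^ n) x, pow_mul_comm2 x y hc n]
  simp only [mul_assoc, mul_inv_cancel, mul_one]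

theorem mul_pow_class2 (x y : P) (hc : ∀ g, ⁅y, x⁆ * g = g * ⁅y, x⁆) (n : ℕ) :
    (x * y) ^ n = x ^ n * y ^ n * ⁅y, x⁆ ^ (n.choose 2) := by
  induction n with
  | zero => simp
  | succ n ih =>
    have hcn : ∀ (k : ℕ) (g : P), ⁅y, x⁆ ^ k * g = g * ⁅y, x⁆ ^ k := fun k g =>
      ((show Commute ⁅y, x⁆ g from hc g).pow_left k).eq
    calc (x * y) ^ (n + 1) = x ^ n * y ^ n * ⁅y, x⁆ ^ (n.choose 2) * (x * y) := by
          rw [pow_succ, ih]
      _ = x ^ n * (y ^ n * x) * y * ⁅y, x⁆ ^ (n.choose 2) := by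
          rw [mul_assoc (x ^ n * y ^ n), hcn (n.choose 2) (x * y)]; simp only [mul_assoc]
      _ = x ^ n * (⁅y, x⁆ ^ n * x * y ^ n) * y * ⁅y, x⁆ ^ (n.choose 2) := by
          rw [pow_mul_comm2 x y hc n]
      _ = x ^ (n + 1) * y ^ (n + 1) * (⁅y, x⁆ ^ (n.choose 2) * ⁅y, x⁆ ^ n) := by
          rw [hcn n x, pow_succ x, pow_succ y]
          simp only [mul_assoc]
          rw [hcn n (y ^ n * (y * ⁅y, x⁆ ^ (n.choose 2)))]
          simp only [mul_assoc]
      _ = x ^ (n + 1) * y ^ (n + 1) * ⁅y, x⁆ ^ ((n + 1).choose 2) := by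
          have : (n + 1).choose 2 = n.choose 2 + n := by
            rw [Nat.choose_succ_succ' n 1, Nat.choose_one_right, add_comm]
          rw [← pow_add, this]

end

theorem coatom_normal_index {P : Type*} [Group P] [Finite P] {p : ℕ} [Fact p.Prime]
    (hP : IsPGroup p P) (M : Subgroup P) (hM : IsCoatom M) : M.Normal ∧ M.index = p := by
  have hpp : p.Prime := Fact.out
  have hnil : Group.IsNilpotent P := hP.isNilpotent
  have hn : M.Normal :=
    Subgroup.NormalizerCondition.normal_of_coatom M Group.normalizerCondition_of_isNilpotent hM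
  refine ⟨hn, ?_⟩
  obtain ⟨N, hN⟩ := IsPGroup.iff_card.mp hP
  obtain ⟨n, hn'⟩ := IsPGroup.iff_card.mp (hP.to_subgroup M)
  have hlt : n < N := by
    have h1 : Nat.card M < Nat.card P :=
      lt_of_le_of_ne (Subgroup.card_le_card_group M)
        (fun h => hM.1 ((Subgroup.card_eq_iff_eq_top M).mp h))
    rw [hn', hN] at h1
    exact (Nat.pow_lt_pow_iff_right hpp.one_lt).mp h1
  obtain ⟨K, hK, hMK⟩ := Sylow.exists_subgroup_card_pow_succ (p := p) (n := n)
    (by rw [hN]; exact pow_dvd_pow p hlt) hn'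
  have hKtop : K = ⊤ := by
    rcases hM.le_iff.mp hMK with h | h
    · exact h
    · exfalso
      rw [h, hn'] at hK
      have := Nat.pow_right_injective hpp.two_le hK
      omega
  have hcard : Nat.card P = p ^ (n + 1) := by rw [← hK, hKtop, Subgroup.card_top]
  have h2 := M.card_mul_index
  rw [hn', hcard, pow_succ] at h2
  exact Nat.eq_of_mul_eq_mul_left (pow_pos hpp.pos n) h2

theorem pow_mem_frattini {P : Type*} [Group P] [Finite P] {p : ℕ} [Fact p.Prime]
    (hP : IsPGroup p P) (x : P) : x ^ p ∈ frattini P := by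
  simp only [frattini, Order.radical, Subgroup.mem_iInf]
  intro M hM
  obtain ⟨hn, hi⟩ := coatom_normal_index hP M hM
  have h1 : (QuotientGroup.mk' M x) ^ p = 1 := by
    have h := pow_card_eq_one' (G := P ⧸ M) (x := QuotientGroup.mk' M x)
    rwa [← Subgroup.index_eq_card, hi] at h
  rw [← map_pow] at h1
  exact (QuotientGroup.eq_one_iff _).mp h1

/-- In a special p-group every central element has order dividing p. -/
theorem center_exponent {P : Type*} [Group P] [Finite P] {p : ℕ} [Fact p.Prime] (h : Cfsg.IsSpecial p P) (z : P) (hz : z ∈ Subgroup.center P) : z ^ p = 1 := by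
  obtain ⟨hP, hfr, hcomm⟩ := h
  have hpowfr : ∀ x : P, x ^ p ∈ Subgroup.center P := by
    rw [← hfr]; exact pow_mem_frattini hP
  have hzc : z ∈ commutator P := hcomm ▸ hz
  rw [commutator_eq_closure] at hzc
  clear hz
  have key : z ∈ Subgroup.center P ∧ z ^ p = 1 := by
    induction hzc using Subgroup.closure_induction with
    | mem x hx =>
      obtain ⟨a, b, rfl⟩ := hx
      have hab : ⁅a, b⁆ ∈ Subgroup.center P := by
        rw [← hcomm]
        exact Subgroup.commutator_mem_commutator (Subgroup.mem_top a) (Subgroup.mem_top b)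
      have hc : ∀ g, ⁅a, b⁆ * g = g * ⁅a, b⁆ := fun g =>
        ((Subgroup.mem_center_iff.mp hab) g).symm
      refine ⟨hab, ?_⟩
      rw [← comm_pow_left2 b a hc p]
      exact commutatorElement_eq_one_iff_commute.mpr
        (((Subgroup.mem_center_iff.mp (hpowfr a)) b).symm)
    | one => exact ⟨Subgroup.one_mem _, one_pow p⟩
    | mul x y _ _ hx hy =>
      refine ⟨Subgroup.mul_mem _ hx.1 hy.1, ?_⟩
      have hcm : Commute x y := ((Subgroup.mem_center_iff.mp hx.1) y).symm
      rw [hcm.mul_pow, hx.2, hy.2, one_mul]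
    | inv x _ hx => exact ⟨Subgroup.inv_mem _ hx.1, by rw [inv_pow, hx.2, inv_one]⟩
  exact key.2


/-- For odd p and E extraspecial, the subgroup generated by the elements of order dividing p has exponent dividing p and index at most p. -/
theorem result {E : Type*} [Group E] [Finite E] {p : ℕ} [Fact p.Prime] (hp : p ≠ 2) (h : Cfsg.IsExtraspecial p E) : (Subgroup.closure {x : E | x ^ p = 1}).index ≤ p ∧ ∀ g ∈ Subgroup.closure {x : E | x ^ p = 1}, g ^ p = 1 := by
  obtain ⟨hs, hcard⟩ := h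
  have hs' := hs
  obtain ⟨hP, hfr, hcomm⟩ := hs
  have hpp : p.Prime := Fact.out
  have hdvd : p ∣ p.choose 2 :=
    hpp.dvd_choose_self (by norm_num) (lt_of_le_of_ne hpp.two_le (Ne.symm hp))
  have hpowfr : ∀ x : E, x ^ p ∈ Subgroup.center E := by
    rw [← hfr]; exact pow_mem_frattini hP
  have hcen : ∀ x y : E, ⁅x, y⁆ ∈ Subgroup.center E := fun x y => by
    rw [← hcomm]
    exact Subgroup.commutator_mem_commutator (Subgroup.mem_top x) (Subgroup.mem_top y)
  have hmul : ∀ x y : E, (x * y) ^ p = x ^ p * y ^ p := by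
    intro x y
    have hc : ∀ g, ⁅y, x⁆ * g = g * ⁅y, x⁆ := fun g =>
      ((Subgroup.mem_center_iff.mp (hcen y x)) g).symm
    rw [mul_pow_class2 x y hc p]
    obtain ⟨k, hk⟩ := hdvd
    rw [hk, pow_mul, center_exponent hs' _ (hcen y x), one_pow, mul_one]
  let π : E →* Subgroup.center E :=
    { toFun := fun x => ⟨x ^ p, hpowfr x⟩
      map_one' := Subtype.ext (one_pow p)
      map_mul' := fun x y => Subtype.ext (hmul x y) }
  have hker : Subgroup.closure {x : E | x ^ p = 1} = π.ker := by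
    apply Subgroup.closure_eq_of_le
    · intro x hx
      exact Subtype.ext hx
    · intro x hx
      exact Subgroup.subset_closure (congrArg Subtype.val hx)
  rw [hker]
  constructor
  · rw [Subgroup.index_ker, ← hcard]
    exact Subgroup.card_le_card_group _
  · intro g hg
    exact congrArg Subtype.val hg

end Cfsg.Agent.S0097
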