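import Cfsg.Statements.S0098
import Cfsg.Agent.Lib.Helper3.Extra
import Mathlib

set_option autoImplicit false
open Cfsg

namespace Cfsg.Agent.S0098

open Cfsg.Agent.Lib.Helper3.Extra

universe u v

theorem main (p : ℕ) [Fact p.Prime] : ∀ (n : ℕ) (E₁ : Type u) (E₂ : Type v) [Group E₁] [Group E₂]
    [Finite E₁] [Finite E₂],
    Nat.card E₁ = n → Cfsg.IsExtraspecial p E₁ → Cfsg.IsExtraspecial p E₂ →
    (∀ x : E₁, x ^ p = 1) → (∀ x : E₂, x ^ p = 1) → Nat.card E₁ = Nat.card E₂ →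
    ∀ z₁ ∈ Subgroup.center E₁, z₁ ≠ 1 → ∀ z₂ ∈ Subgroup.center E₂, z₂ ≠ 1 →
    ∃ φ : E₁ ≃* E₂, φ z₁ = z₂ := by
  intro n
  induction n using Nat.strong_induction_on with
  | _ n ih =>
    intro E₁ E₂ _ _ _ _ hn h₁ h₂ he₁ he₂ hc z₁ hz₁ hz₁1 z₂ hz₂ hz₂1
    obtain ⟨x₁, y₁, hxy₁⟩ := es_exists_pair h₁ z₁ hz₁ hz₁1
    obtain ⟨x₂, y₂, hxy₂⟩ := es_exists_pair h₂ z₂ hz₂ hz₂1
    have hker : (esHom x₁ y₁ z₁ hxy₁ hz₁).ker = (esHom x₂ y₂ z₂ hxy₂ hz₂).ker := by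
      ext u
      rw [MonoidHom.mem_ker, MonoidHom.mem_ker,
        heis_ker_exp p x₁ y₁ z₁ hxy₁ hz₁ hz₁1 (he₁ _) (he₁ _) (he₁ _),
        heis_ker_exp p x₂ y₂ z₂ hxy₂ hz₂ hz₂1 (he₂ _) (he₂ _) (he₂ _)]
    have hcard₁ := es_card h₁ x₁ y₁ z₁ hxy₁ hz₁ hz₁1
    have hcard₂ := es_card h₂ x₂ y₂ z₂ hxy₂ hz₂ hz₂1
    have hp : p.Prime := Fact.out
    have hCC : Nat.card (Subgroup.centralizer ({x₁, y₁} : Set E₁)) =
        Nat.card (Subgroup.centralizer ({x₂, y₂} : Set E₂)) := by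
      have h3 : p ^ 2 * Nat.card (Subgroup.centralizer ({x₁, y₁} : Set E₁)) =
          p ^ 2 * Nat.card (Subgroup.centralizer ({x₂, y₂} : Set E₂)) := by
        rw [← hcard₁, ← hcard₂, hc]
      exact Nat.eq_of_mul_eq_mul_left (pow_pos hp.pos 2) h3
    by_cases hC₁ : Subgroup.centralizer ({x₁, y₁} : Set E₁) ≤ Subgroup.center E₁
    · have hC₂ : Subgroup.centralizer ({x₂, y₂} : Set E₂) ≤ Subgroup.center E₂ :=
        es_cent_le_of_card h₂ x₂ y₂ (by rw [← hCC]; exact es_cent_card_of_le h₁ x₁ y₁ hC₁)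
      obtain ⟨φ, hφ⟩ := surj_equiv _ _ (es_range_top h₁ x₁ y₁ z₁ hxy₁ hz₁ hz₁1 hC₁)
        (es_range_top h₂ x₂ y₂ z₂ hxy₂ hz₂ hz₂1 hC₂) hker
      refine ⟨φ, ?_⟩
      have h3 := hφ ⟨1, 0, 0⟩
      simpa [esHom_apply] using h3
    · have hC₂ : ¬ Subgroup.centralizer ({x₂, y₂} : Set E₂) ≤ Subgroup.center E₂ := by
        intro hC₂
        exact hC₁ (es_cent_le_of_card h₁ x₁ y₁
          (by rw [hCC]; exact es_cent_card_of_le h₂ x₂ y₂ hC₂))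
      obtain ⟨hes₁, hcen₁⟩ := cent_extraspecial h₁ x₁ y₁ z₁ hxy₁ hz₁ hz₁1 hC₁
      obtain ⟨hes₂, hcen₂⟩ := cent_extraspecial h₂ x₂ y₂ z₂ hxy₂ hz₂ hz₂1 hC₂
      have hz₁C : z₁ ∈ Subgroup.centralizer ({x₁, y₁} : Set E₁) := es_center_le_cent x₁ y₁ hz₁
      have hz₂C : z₂ ∈ Subgroup.centralizer ({x₂, y₂} : Set E₂) := es_center_le_cent x₂ y₂ hz₂
      have hlt : Nat.card (Subgroup.centralizer ({x₁, y₁} : Set E₁)) < n := by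
        rw [← hn, hcard₁]
        have hpos : 0 < Nat.card (Subgroup.centralizer ({x₁, y₁} : Set E₁)) := Nat.card_pos
        have h3 : 1 < p ^ 2 := Nat.one_lt_pow (by norm_num) hp.one_lt
        nlinarith
      obtain ⟨β, hβ⟩ := ih _ hlt (↥(Subgroup.centralizer ({x₁, y₁} : Set E₁)))
        (↥(Subgroup.centralizer ({x₂, y₂} : Set E₂))) rfl hes₁ hes₂
        (fun c => Subtype.ext (he₁ c)) (fun c => Subtype.ext (he₂ c)) hCC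
        ⟨z₁, hz₁C⟩ ((hcen₁ _).mpr hz₁) (fun h => hz₁1 (congrArg Subtype.val h))
        ⟨z₂, hz₂C⟩ ((hcen₂ _).mpr hz₂) (fun h => hz₂1 (congrArg Subtype.val h))
      obtain ⟨α, hα⟩ := range_equiv _ _ hker
      have hαβ : ∀ (w : E₁) (hD : w ∈ (esHom x₁ y₁ z₁ hxy₁ hz₁).range)
          (hC : w ∈ Subgroup.centralizer ({x₁, y₁} : Set E₁)),
          (α ⟨w, hD⟩ : E₂) = β ⟨w, hC⟩ := by
        intro w hD hC
        have hwc := es_inter_le h₁ x₁ y₁ z₁ hxy₁ hz₁ hz₁1 w hD hC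
        obtain ⟨i, rfl⟩ := es_center_gen h₁ z₁ hz₁ hz₁1 w hwc
        have e1 := hα ⟨i, 0, 0⟩ (z₁ ^ i) hD (by simp [esHom_apply])
        rw [e1]
        have e2 : (⟨z₁ ^ i, hC⟩ : Subgroup.centralizer ({x₁, y₁} : Set E₁)) =
            (⟨z₁, hz₁C⟩ : Subgroup.centralizer ({x₁, y₁} : Set E₁)) ^ i := Subtype.ext (by simp)
        rw [e2, map_zpow, hβ]
        simp [esHom_apply]
      obtain ⟨φ, hφD, hφC⟩ := glue hc (esHom x₁ y₁ z₁ hxy₁ hz₁).range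
        (Subgroup.centralizer ({x₁, y₁} : Set E₁)) (esHom x₂ y₂ z₂ hxy₂ hz₂).range
        (Subgroup.centralizer ({x₂, y₂} : Set E₂))
        (es_decomp h₁ x₁ y₁ z₁ hxy₁ hz₁ hz₁1) (es_decomp h₂ x₂ y₂ z₂ hxy₂ hz₂ hz₂1)
        (es_comm_DC x₁ y₁ z₁ hxy₁ hz₁) (es_comm_DC x₂ y₂ z₂ hxy₂ hz₂) α β hαβ
      refine ⟨φ, ?_⟩
      have h3 := hφC ⟨z₁, hz₁C⟩
      rw [hβ] at h3
      exact h3

/-- Two extraspecial p-groups of the same order and exponent p (p odd) are isomorphic. -/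
theorem result {E₁ : Type*} {E₂ : Type*} [Group E₁] [Group E₂] [Finite E₁] [Finite E₂] {p : ℕ} [Fact p.Prime] (hp : p ≠ 2) (h₁ : Cfsg.IsExtraspecial p E₁) (h₂ : Cfsg.IsExtraspecial p E₂) (he₁ : Monoid.exponent E₁ = p) (he₂ : Monoid.exponent E₂ = p) (hc : Nat.card E₁ = Nat.card E₂) : Nonempty (E₁ ≃* E₂) := by
  obtain ⟨z₁, hz₁, hz₁1⟩ := es_exists_central h₁
  obtain ⟨z₂, hz₂, hz₂1⟩ := es_exists_central h₂
  obtain ⟨φ, -⟩ := main p _ E₁ E₂ rfl h₁ h₂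
    (fun x => by rw [← he₁]; exact Monoid.pow_exponent_eq_one x)
    (fun x => by rw [← he₂]; exact Monoid.pow_exponent_eq_one x) hc z₁ hz₁ hz₁1 z₂ hz₂ hz₂1
  exact ⟨φ⟩

end Cfsg.Agent.S0098
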