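import Cfsg.Statements.S0101
import Mathlib

set_option autoImplicit false
open Cfsg

namespace Cfsg.Agent.S0101

theorem coatom_normal_index {P : Type*} [Group P] [Finite P] {p : ℕ} [Fact p.Prime]
    (hP : IsPGroup p P) (M : Subgroup P) (hM : IsCoatom M) : M.Normal ∧ M.index = p := by
  have hpp : p.Prime := Fact.out
  have hnil : Group.IsNilpotent P := hP.isNilpotent
  have hn : M.Normal :=
    Subgroup.NormalizerCondition.normal_of_coatom M Group.normalizerCondition_of_isNilpotent hM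
  refine ⟨hn, ?_⟩
  obtain ⟨N, hN⟩ := IsPGroup.iff_card.mp hP
  obtain ⟨n, hn'⟩ := IsPGroup.iff_card.mp (hP.to_subgroup M)
  have hlt : n < N := by
    have h1 : Nat.card M < Nat.card P :=
      lt_of_le_of_ne (Subgroup.card_le_card_group M)
        (fun h => hM.1 ((Subgroup.card_eq_iff_eq_top M).mp h))
    rw [hn', hN] at h1
    exact (Nat.pow_lt_pow_iff_right hpp.one_lt).mp h1
  obtain ⟨K, hK, hMK⟩ := Sylow.exists_subgroup_card_pow_succ (p := p) (n := n)
    (by rw [hN]; exact pow_dvd_pow p hlt) hn'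
  have hKtop : K = ⊤ := by
    rcases hM.le_iff.mp hMK with h | h
    · exact h
    · exfalso
      rw [h, hn'] at hK
      have := Nat.pow_right_injective hpp.two_le hK
      omega
  have hcard : Nat.card P = p ^ (n + 1) := by rw [← hK, hKtop, Subgroup.card_top]
  have h2 := M.card_mul_index
  rw [hn', hcard, pow_succ] at h2
  exact Nat.eq_of_mul_eq_mul_left (pow_pos hpp.pos n) h2

theorem pow_mem_frattini {P : Type*} [Group P] [Finite P] {p : ℕ} [Fact p.Prime]
    (hP : IsPGroup p P) (x : P) : x ^ p ∈ frattini P := by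
  simp only [frattini, Order.radical, Subgroup.mem_iInf]
  intro M hM
  obtain ⟨hn, hi⟩ := coatom_normal_index hP M hM
  have h1 : (QuotientGroup.mk' M x) ^ p = 1 := by
    have h := pow_card_eq_one' (G := P ⧸ M) (x := QuotientGroup.mk' M x)
    rwa [← Subgroup.index_eq_card, hi] at h
  rw [← map_pow] at h1
  exact (QuotientGroup.eq_one_iff _).mp h1


/-- In a perfect central extension, the kernel meets each Sylow p-subgroup P inside the Frattini subgroup of P. -/
theorem result {H : Type*} {G : Type*} [Group H] [Group G] [Finite H] (σ : H →* G) (hσ : Function.Surjective σ) (hc : σ.ker ≤ Subgroup.center H) (hH : commutator H = ⊤) {p : ℕ} [Fact p.Prime] (P : Sylow p H) : σ.ker ⊓ (P : Subgroup H) ≤ (frattini P).map (P : Subgroup H).subtype := by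
  have hpp : p.Prime := Fact.out
  rintro z ⟨hzk, hzP⟩
  have hzZ : z ∈ Subgroup.center H := hc hzk
  have key : ∀ (k : ℕ) (g₀ : H), g₀⁻¹ * z ^ k * g₀ ∈ (P : Subgroup H) →
      g₀⁻¹ * z ^ k * g₀ = z ^ k := by
    intro k g₀ _
    have hzk' : z ^ k ∈ Subgroup.center H := Subgroup.pow_mem _ hzZ k
    rw [Subgroup.mem_center_iff] at hzk'
    rw [mul_assoc, ← hzk' g₀, inv_mul_cancel_left]
  refine ⟨⟨z, hzP⟩, ?_, rfl⟩
  simp only [frattini, Order.radical, Subgroup.mem_iInf, SetLike.mem_coe]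
  intro M hM
  obtain ⟨hn, hi⟩ := coatom_normal_index P.isPGroup' M hM
  have hcardQ : Nat.card ((P : Subgroup H) ⧸ M) = p := by rw [← Subgroup.index_eq_card, hi]
  have hcyc : IsCyclic ((P : Subgroup H) ⧸ M) := isCyclic_of_prime_card hcardQ
  let _ : CommGroup ((P : Subgroup H) ⧸ M) := IsCyclic.commGroup
  let ϕ : (P : Subgroup H) →* (P : Subgroup H) ⧸ M := QuotientGroup.mk' M
  have h1 := MonoidHom.transfer_eq_pow ϕ z key
  have h2 : MonoidHom.transfer ϕ z = 1 :=
    Abelianization.commutator_subset_ker (MonoidHom.transfer ϕ) (hH ▸ Subgroup.mem_top z)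
  rw [h2] at h1
  have h3 : (ϕ ⟨z, hzP⟩) ^ (P : Subgroup H).index = 1 := by
    rw [← map_pow]; exact h1.symm
  have h4 : orderOf (ϕ ⟨z, hzP⟩) ∣ (P : Subgroup H).index := orderOf_dvd_of_pow_eq_one h3
  have h5 : orderOf (ϕ ⟨z, hzP⟩) ∣ p := by
    have h5' := orderOf_dvd_natCard (ϕ ⟨z, hzP⟩)
    rwa [hcardQ] at h5'
  have h6 : Nat.Coprime p (P : Subgroup H).index :=
    (Nat.Prime.coprime_iff_not_dvd hpp).mpr P.not_dvd_index
  have h7 : orderOf (ϕ ⟨z, hzP⟩) = 1 :=
    Nat.Coprime.eq_one_of_dvd (Nat.Coprime.coprime_dvd_left h5 h6) h4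
  rw [orderOf_eq_one_iff] at h7
  exact (QuotientGroup.eq_one_iff _).mp h7

end Cfsg.Agent.S0101
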