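import Cfsg.Statements.S0102
import Mathlib

set_option autoImplicit false
open Cfsg

namespace Cfsg.Agent.S0102

theorem coatom_normal_index {P : Type*} [Group P] [Finite P] {p : ℕ} [Fact p.Prime]
    (hP : IsPGroup p P) (M : Subgroup P) (hM : IsCoatom M) : M.Normal ∧ M.index = p := by
  have hpp : p.Prime := Fact.out
  have hnil : Group.IsNilpotent P := hP.isNilpotent
  have hn : M.Normal :=
    Subgroup.NormalizerCondition.normal_of_coatom M Group.normalizerCondition_of_isNilpotent hM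
  refine ⟨hn, ?_⟩
  obtain ⟨N, hN⟩ := IsPGroup.iff_card.mp hP
  obtain ⟨n, hn'⟩ := IsPGroup.iff_card.mp (hP.to_subgroup M)
  have hlt : n < N := by
    have h1 : Nat.card M < Nat.card P :=
      lt_of_le_of_ne (Subgroup.card_le_card_group M)
        (fun h => hM.1 ((Subgroup.card_eq_iff_eq_top M).mp h))
    rw [hn', hN] at h1
    exact (Nat.pow_lt_pow_iff_right hpp.one_lt).mp h1
  obtain ⟨K, hK, hMK⟩ := Sylow.exists_subgroup_card_pow_succ (p := p) (n := n)
    (by rw [hN]; exact pow_dvd_pow p hlt) hn'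
  have hKtop : K = ⊤ := by
    rcases hM.le_iff.mp hMK with h | h
    · exact h
    · exfalso
      rw [h, hn'] at hK
      have := Nat.pow_right_injective hpp.two_le hK
      omega
  have hcard : Nat.card P = p ^ (n + 1) := by rw [← hK, hKtop, Subgroup.card_top]
  have h2 := M.card_mul_index
  rw [hn', hcard, pow_succ] at h2
  exact Nat.eq_of_mul_eq_mul_left (pow_pos hpp.pos n) h2

theorem pow_mem_frattini {P : Type*} [Group P] [Finite P] {p : ℕ} [Fact p.Prime]
    (hP : IsPGroup p P) (x : P) : x ^ p ∈ frattini P := by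
  simp only [frattini, Order.radical, Subgroup.mem_iInf]
  intro M hM
  obtain ⟨hn, hi⟩ := coatom_normal_index hP M hM
  have h1 : (QuotientGroup.mk' M x) ^ p = 1 := by
    have h := pow_card_eq_one' (G := P ⧸ M) (x := QuotientGroup.mk' M x)
    rwa [← Subgroup.index_eq_card, hi] at h
  rw [← map_pow] at h1
  exact (QuotientGroup.eq_one_iff _).mp h1


/-- In a perfect central extension, the kernel meets each Sylow p-subgroup P inside the Frattini subgroup of P. -/
theorem ker_inf_le_frattini {H : Type*} {G : Type*} [Group H] [Group G] [Finite H] (σ : H →* G) (hσ : Function.Surjective σ) (hc : σ.ker ≤ Subgroup.center H) (hH : commutator H = ⊤) {p : ℕ} [Fact p.Prime] (P : Sylow p H) : σ.ker ⊓ (P : Subgroup H) ≤ (frattini P).map (P : Subgroup H).subtype := by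
  have hpp : p.Prime := Fact.out
  rintro z ⟨hzk, hzP⟩
  have hzZ : z ∈ Subgroup.center H := hc hzk
  have key : ∀ (k : ℕ) (g₀ : H), g₀⁻¹ * z ^ k * g₀ ∈ (P : Subgroup H) →
      g₀⁻¹ * z ^ k * g₀ = z ^ k := by
    intro k g₀ _
    have hzk' : z ^ k ∈ Subgroup.center H := Subgroup.pow_mem _ hzZ k
    rw [Subgroup.mem_center_iff] at hzk'
    rw [mul_assoc, ← hzk' g₀, inv_mul_cancel_left]
  refine ⟨⟨z, hzP⟩, ?_, rfl⟩
  simp only [frattini, Order.radical, Subgroup.mem_iInf, SetLike.mem_coe]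
  intro M hM
  obtain ⟨hn, hi⟩ := coatom_normal_index P.isPGroup' M hM
  have hcardQ : Nat.card ((P : Subgroup H) ⧸ M) = p := by rw [← Subgroup.index_eq_card, hi]
  have hcyc : IsCyclic ((P : Subgroup H) ⧸ M) := isCyclic_of_prime_card hcardQ
  let _ : CommGroup ((P : Subgroup H) ⧸ M) := IsCyclic.commGroup
  let ϕ : (P : Subgroup H) →* (P : Subgroup H) ⧸ M := QuotientGroup.mk' M
  have h1 := MonoidHom.transfer_eq_pow ϕ z key
  have h2 : MonoidHom.transfer ϕ z = 1 :=
    Abelianization.commutator_subset_ker (MonoidHom.transfer ϕ) (hH ▸ Subgroup.mem_top z)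
  rw [h2] at h1
  have h3 : (ϕ ⟨z, hzP⟩) ^ (P : Subgroup H).index = 1 := by
    rw [← map_pow]; exact h1.symm
  have h4 : orderOf (ϕ ⟨z, hzP⟩) ∣ (P : Subgroup H).index := orderOf_dvd_of_pow_eq_one h3
  have h5 : orderOf (ϕ ⟨z, hzP⟩) ∣ p := by
    have h5' := orderOf_dvd_natCard (ϕ ⟨z, hzP⟩)
    rwa [hcardQ] at h5'
  have h6 : Nat.Coprime p (P : Subgroup H).index :=
    (Nat.Prime.coprime_iff_not_dvd hpp).mpr P.not_dvd_index
  have h7 : orderOf (ϕ ⟨z, hzP⟩) = 1 :=
    Nat.Coprime.eq_one_of_dvd (Nat.Coprime.coprime_dvd_left h5 h6) h4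
  rw [orderOf_eq_one_iff] at h7
  exact (QuotientGroup.eq_one_iff _).mp h7


open scoped IsMulCommutative in
theorem central_inf_sylow_eq_one {H : Type*} [Group H] [Finite H] (hH : commutator H = ⊤)
    {p : ℕ} [Fact p.Prime] (P : Sylow p H) (hP : IsMulCommutative P) (z : H)
    (hzZ : z ∈ Subgroup.center H) (hzP : z ∈ (P : Subgroup H)) : z = 1 := by
  have hpp : p.Prime := Fact.out
  have key : ∀ (k : ℕ) (g₀ : H), g₀⁻¹ * z ^ k * g₀ ∈ (P : Subgroup H) →
      g₀⁻¹ * z ^ k * g₀ = z ^ k := by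
    intro k g₀ _
    have hzk' : z ^ k ∈ Subgroup.center H := Subgroup.pow_mem _ hzZ k
    rw [Subgroup.mem_center_iff] at hzk'
    rw [mul_assoc, ← hzk' g₀, inv_mul_cancel_left]
  have h1 := MonoidHom.transfer_eq_pow (MonoidHom.id (P : Subgroup H)) z key
  have h2 : MonoidHom.transfer (MonoidHom.id (P : Subgroup H)) z = 1 :=
    Abelianization.commutator_subset_ker (MonoidHom.transfer (MonoidHom.id (P : Subgroup H)))
      (hH ▸ Subgroup.mem_top z)
  rw [h2] at h1
  have h3 : z ^ (P : Subgroup H).index = 1 := by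
    have := congrArg Subtype.val h1
    simpa using this.symm
  have h4 : orderOf z ∣ (P : Subgroup H).index := orderOf_dvd_of_pow_eq_one h3
  have h5 : orderOf z ∣ Nat.card (P : Subgroup H) := by
    have := orderOf_dvd_natCard (⟨z, hzP⟩ : (P : Subgroup H))
    rwa [Subgroup.orderOf_mk] at this
  have h6 : orderOf z = 1 :=
    Nat.Coprime.eq_one_of_dvd (Nat.Coprime.coprime_dvd_left h5 P.card_coprime_index) h4
  exact orderOf_eq_one_iff.mp h6

/-- A finite perfect group with cyclic Sylow p-subgroups has no perfect central extension whose kernel has order divisible by p. -/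
theorem result {G : Type*} {H : Type*} [Group G] [Group H] [Finite G] [Finite H] (hG : commutator G = ⊤) {p : ℕ} [Fact p.Prime] (hcyc : ∀ P : Sylow p G, IsCyclic P) (σ : H →* G) (hσ : Function.Surjective σ) (hz : σ.ker ≤ Subgroup.center H) (hH : commutator H = ⊤) : ¬ p ∣ Nat.card σ.ker := by
  intro hdvd
  obtain ⟨x, hx⟩ := exists_prime_orderOf_dvd_card' (G := σ.ker) p hdvd
  have hxo : orderOf (x : H) = p := by rw [Subgroup.orderOf_coe]; exact hx
  have hpg : IsPGroup p (Subgroup.zpowers (x : H)) :=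
    IsPGroup.of_card (n := 1) (by rw [Nat.card_zpowers, hxo, pow_one])
  obtain ⟨P, hP⟩ := hpg.exists_le_sylow
  have hxP : (x : H) ∈ (P : Subgroup H) := hP (Subgroup.mem_zpowers _)
  have hfr := ker_inf_le_frattini σ hσ hz hH P
  -- P is cyclic
  obtain ⟨Q, hQ⟩ := (P.isPGroup'.map σ).exists_le_sylow
  have hQc : IsCyclic Q := hcyc Q
  let σ' : (P : Subgroup H) →* (Q : Subgroup G) :=
    { toFun := fun y => ⟨σ y, hQ (Subgroup.mem_map_of_mem σ y.2)⟩
      map_one' := Subtype.ext (by simp)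
      map_mul' := fun a b => Subtype.ext (by simp) }
  obtain ⟨⟨_, y, rfl⟩, hy⟩ := (inferInstance : IsCyclic σ'.range).exists_generator
  have hsup : Subgroup.zpowers y ⊔ frattini (P : Subgroup H) = ⊤ := by
    rw [eq_top_iff]
    intro w _
    have h1 := hy ⟨σ' w, w, rfl⟩
    obtain ⟨k, hk⟩ := Subgroup.mem_zpowers_iff.mp h1
    have hk' : σ' y ^ k = σ' w := by
      have := congrArg Subtype.val hk
      simpa using this
    have hk'' : σ ((y : H) ^ k) = σ (w : H) := by
      have := congrArg Subtype.val hk'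
      simpa [σ'] using this
    have hmem : (w : H) * ((y : H) ^ k)⁻¹ ∈ σ.ker ⊓ (P : Subgroup H) := by
      refine ⟨?_, Subgroup.mul_mem _ w.2 (Subgroup.inv_mem _ (Subgroup.zpow_mem _ y.2 k))⟩
      show (w : H) * ((y : H) ^ k)⁻¹ ∈ σ.ker
      rw [MonoidHom.mem_ker, map_mul, map_inv, hk'', mul_inv_cancel]
    obtain ⟨u, hu, hu'⟩ := hfr hmem
    have hw : w = u * y ^ k := by
      apply Subtype.ext
      have : (u : H) = (w : H) * ((y : H) ^ k)⁻¹ := hu'
      simp [this]
    rw [hw]
    exact Subgroup.mul_mem _ (Subgroup.mem_sup_right hu)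
      (Subgroup.mem_sup_left (Subgroup.zpow_mem _ (Subgroup.mem_zpowers y) k))
  have htop : Subgroup.zpowers y = ⊤ := frattini_nongenerating hsup
  have hPc : IsCyclic (P : Subgroup H) := ⟨⟨y, fun w => by
    have hw : w ∈ Subgroup.zpowers y := htop ▸ Subgroup.mem_top w
    exact hw⟩⟩
  have hcomm : IsMulCommutative (P : Subgroup H) :=
    ⟨⟨fun a b => (IsCyclic.commGroup : CommGroup (P : Subgroup H)).mul_comm a b⟩⟩
  have hx1 : (x : H) = 1 := central_inf_sylow_eq_one hH P hcomm x (hz x.2) hxP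
  rw [hx1, orderOf_one] at hxo
  exact (Fact.out : p.Prime).one_lt.ne hxo

end Cfsg.Agent.S0102
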