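import Cfsg.Statements.S0103
import Mathlib

set_option autoImplicit false
open Cfsg

namespace Cfsg.Agent.S0103

/-- If a Sylow p-subgroup P intersects every distinct conjugate trivially, then its normalizer controls fusion in P. -/
theorem result {G : Type*} [Group G] [Finite G] {p : ℕ} [Fact p.Prime] (P : Sylow p G) (hTI : ∀ g : G, (P : Subgroup G).map (MulAut.conj g).toMonoidHom ≠ (P : Subgroup G) → (P : Subgroup G) ⊓ (P : Subgroup G).map (MulAut.conj g).toMonoidHom = ⊥) (x y : G) (hx : x ∈ P) (hy : y ∈ P) (hc : ∃ g : G, g * x * g⁻¹ = y) : ∃ n ∈ Subgroup.normalizer (P : Set G), n * x * n⁻¹ = y := by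
  obtain ⟨g, rfl⟩ := hc
  by_cases hg : (P : Subgroup G).map (MulAut.conj g).toMonoidHom = (P : Subgroup G)
  · exact ⟨g, Subgroup.mem_normalizer_iff_map_conj_eq.mpr hg, rfl⟩
  · have h0 := hTI g hg
    have hmem : g * x * g⁻¹ ∈ (P : Subgroup G) ⊓ (P : Subgroup G).map (MulAut.conj g).toMonoidHom :=
      ⟨hy, ⟨x, hx, rfl⟩⟩
    rw [h0, Subgroup.mem_bot] at hmem
    have hx1 : x = 1 := by
      have : x = g⁻¹ * (g * x * g⁻¹) * g := by group
      rw [this, hmem]; group
    subst hx1
    exact ⟨1, Subgroup.one_mem _, by simp⟩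

end Cfsg.Agent.S0103
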