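import Cfsg.Statements.S0104
import Mathlib

set_option autoImplicit false
open Cfsg

namespace Cfsg.Agent.S0104

open scoped Pointwise

theorem mem_smul_iff {G : Type*} [Group G] {p : ℕ} (P : Sylow p G) (g x : G) :
    x ∈ ((g • P : Sylow p G) : Subgroup G) ↔ g⁻¹ * x * g ∈ (P : Subgroup G) := by
  rw [Sylow.coe_subgroup_smul, Subgroup.mem_pointwise_smul_iff_inv_smul_mem]
  simp [MulAut.smul_def]

theorem mem_map_conj_iff {G : Type*} [Group G] (Z : Subgroup G) (g x : G) :
    x ∈ Z.map (MulAut.conj g).toMonoidHom ↔ g⁻¹ * x * g ∈ Z := by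
  constructor
  · rintro ⟨z, hz, rfl⟩
    have : g⁻¹ * (MulAut.conj g).toMonoidHom z * g = z := by
      show g⁻¹ * (g * z * g⁻¹) * g = z
      group
    rw [this]; exact hz
  · intro h
    exact ⟨g⁻¹ * x * g, h, by simp [MulAut.conj_apply, mul_assoc]⟩

/-- A subgroup Z of a Sylow p-subgroup P that is normalized by N_G(P) is weakly closed in P exactly when it is normal in every Sylow p-subgroup containing it. -/
theorem result {G : Type*} [Group G] [Finite G] {p : ℕ} [Fact p.Prime] (P : Sylow p G) (Z : Subgroup G) (hZP : Z ≤ (P : Subgroup G)) (hZN : Subgroup.normalizer (P : Set G) ≤ Subgroup.normalizer (Z : Set G)) : Cfsg.IsWeaklyClosed Z P ↔ ∀ R : Sylow p G, Z ≤ (R : Subgroup G) → (R : Subgroup G) ≤ Subgroup.normalizer (Z : Set G) := by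
  constructor
  · rintro ⟨-, hw⟩ R hZR
    obtain ⟨g, rfl⟩ := MulAction.exists_smul_eq G P R
    have h1 : Z.map (MulAut.conj g⁻¹).toMonoidHom ≤ (P : Subgroup G) := by
      intro x hx
      rw [mem_map_conj_iff, inv_inv] at hx
      have h2 := hZR hx
      rw [mem_smul_iff] at h2
      have h3 : g⁻¹ * (g * x * g⁻¹) * g = x := by group
      rwa [h3] at h2
    have h4 := hw g⁻¹ h1
    have hginv : g⁻¹ ∈ Subgroup.normalizer (Z : Set G) :=
      Subgroup.mem_normalizer_iff_map_conj_eq.mpr h4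
    have hg : g ∈ Subgroup.normalizer (Z : Set G) := by
      simpa using Subgroup.inv_mem _ hginv
    intro r hr
    rw [mem_smul_iff] at hr
    have h5 : g⁻¹ * r * g ∈ Subgroup.normalizer (Z : Set G) := hZN (Subgroup.le_normalizer hr)
    have h6 : r = g * (g⁻¹ * r * g) * g⁻¹ := by group
    rw [h6]
    exact Subgroup.mul_mem _ (Subgroup.mul_mem _ hg h5) hginv
  · intro h
    refine ⟨hZP, fun g hg => ?_⟩
    have hP : (P : Subgroup G) ≤ Subgroup.normalizer (Z : Set G) := h P hZP
    have hZR : Z ≤ ((g⁻¹ • P : Sylow p G) : Subgroup G) := by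
      intro z hz
      rw [mem_smul_iff, inv_inv]
      apply hg
      rw [mem_map_conj_iff]
      have : g⁻¹ * (g * z * g⁻¹) * g = z := by group
      rwa [this]
    have hR := h _ hZR
    obtain ⟨k, hk⟩ := MulAction.exists_smul_eq (Subgroup.normalizer (Z : Set G))
      ((g⁻¹ • P).subtype hR) (P.subtype hP)
    simp_rw [Sylow.smul_subtype, Subgroup.smul_def, smul_smul] at hk
    have h7 : (k : G) * g⁻¹ ∈ Subgroup.normalizer (P : Set G) :=
      Sylow.smul_eq_iff_mem_normalizer.mp (Sylow.subtype_injective hk)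
    have h8 : (k : G) * g⁻¹ ∈ Subgroup.normalizer (Z : Set G) := hZN h7
    have h9 : g⁻¹ ∈ Subgroup.normalizer (Z : Set G) := by
      have : g⁻¹ = (k : G)⁻¹ * ((k : G) * g⁻¹) := by group
      rw [this]
      exact Subgroup.mul_mem _ (Subgroup.inv_mem _ k.2) h8
    have h10 : g ∈ Subgroup.normalizer (Z : Set G) := by
      simpa using Subgroup.inv_mem _ h9
    exact Subgroup.mem_normalizer_iff_map_conj_eq.mp h10

end Cfsg.Agent.S0104
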