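import Cfsg.Statements.S0105
import Mathlib

set_option autoImplicit false
open Cfsg

namespace Cfsg.Agent.S0105

section normmap
open scoped IsMulCommutative
variable {G : Type*} [Group G]

/-- The norm map `b ↦ ∏ k ∈ K, k b k⁻¹` on an abelian subgroup `A` normalized by a finite subgroup `K`. -/
noncomputable def normMap (A K : Subgroup G) [Finite K] [IsMulCommutative A]
    (hKN : K ≤ Subgroup.normalizer (A : Set G)) : A →* A :=
  letI : Fintype K := Fintype.ofFinite K
  { toFun := fun b => ∏ k : K,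
      (⟨(k : G) * b * (k : G)⁻¹, (Subgroup.mem_normalizer_iff.mp (hKN k.2) b).mp b.2⟩ : A)
    map_one' := by
      apply Finset.prod_eq_one
      intro k _
      exact Subtype.ext (by simp)
    map_mul' := fun x y => by
      rw [← Finset.prod_mul_distrib]
      apply Finset.prod_congr rfl
      intro k _
      exact Subtype.ext (by simp [mul_assoc]) }

theorem normMap_conj (A K : Subgroup G) [Finite K] [IsMulCommutative A]
    (hKN : K ≤ Subgroup.normalizer (A : Set G)) (b : A) (g : K) :
    (g : G) * (normMap A K hKN b : G) * (g : G)⁻¹ = (normMap A K hKN b : G) := by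
  let _ : Fintype K := Fintype.ofFinite K
  let cg : A →* A :=
    { toFun := fun x => ⟨(g : G) * x * (g : G)⁻¹,
        (Subgroup.mem_normalizer_iff.mp (hKN g.2) x).mp x.2⟩
      map_one' := Subtype.ext (by simp)
      map_mul' := fun x y => Subtype.ext (by simp [mul_assoc]) }
  have h1 : cg (normMap A K hKN b) = normMap A K hKN b := by
    show cg (∏ k : K, (⟨(k : G) * b * (k : G)⁻¹, _⟩ : A)) =
      ∏ k : K, (⟨(k : G) * b * (k : G)⁻¹, _⟩ : A)
    rw [map_prod]
    apply Fintype.prod_equiv (Equiv.mulLeft g)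
    intro k
    apply Subtype.ext
    simp [cg, mul_assoc]
  exact congrArg Subtype.val h1

theorem normMap_of_comm (A K : Subgroup G) [Finite K] [IsMulCommutative A]
    (hKN : K ≤ Subgroup.normalizer (A : Set G)) (b : A)
    (hb : ∀ k ∈ K, k * (b : G) * k⁻¹ = b) : normMap A K hKN b = b ^ Nat.card K := by
  let _ : Fintype K := Fintype.ofFinite K
  show ∏ k : K, (⟨(k : G) * b * (k : G)⁻¹, _⟩ : A) = b ^ Nat.card K
  rw [Nat.card_eq_fintype_card, ← Finset.card_univ, ← Finset.prod_const]
  apply Finset.prod_congr rfl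
  intro k _
  exact Subtype.ext (hb k k.2)

end normmap

open scoped IsMulCommutative in
/-- With an abelian Sylow p-subgroup P, some quotient of G is isomorphic to the part of P central in N_G(P). -/
theorem result {G : Type*} [Group G] [Finite G] {p : ℕ} [Fact p.Prime] (P : Sylow p G) (hP : IsMulCommutative P) : ∃ (N : Subgroup G) (hN : N.Normal), Nonempty (G ⧸ N ≃* ((P : Subgroup G) ⊓ Subgroup.centralizer (Subgroup.normalizer (P : Set G) : Set G) : Subgroup G)) := by
  classical
  have hpp : p.Prime := Fact.out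
  let NP : Subgroup G := Subgroup.normalizer ((P : Subgroup G) : Set G)
  have hPNP : (P : Subgroup G) ≤ NP := Subgroup.le_normalizer
  have hcop : Nat.Coprime (Nat.card ((P : Subgroup G).subgroupOf NP))
      ((P : Subgroup G).subgroupOf NP).index := by
    have h1 : Nat.card ((P : Subgroup G).subgroupOf NP) = Nat.card (P : Subgroup G) :=
      Nat.card_congr (Subgroup.subgroupOfEquivOfLe hPNP).toEquiv
    rw [h1]
    exact Nat.Coprime.coprime_dvd_right (Subgroup.relIndex_dvd_index_of_le hPNP)
      P.card_coprime_index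
  obtain ⟨K', hK'⟩ := Subgroup.exists_right_complement'_of_coprime hcop
  let K : Subgroup G := K'.map NP.subtype
  have hKN : K ≤ NP := Subgroup.map_subtype_le K'
  have hcardK : Nat.card K = (P : Subgroup G).relIndex NP := by
    rw [Subgroup.card_map_of_injective NP.subtype_injective]
    exact hK'.symm.index_eq_card.symm
  have hpK : ¬ p ∣ Nat.card K := fun h =>
    P.not_dvd_index (h.trans (hcardK ▸ Subgroup.relIndex_dvd_index_of_le hPNP))
  have hNPK : ∀ n ∈ NP, ∃ a ∈ (P : Subgroup G), ∃ k ∈ K, n = a * k := by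
    intro n hn
    have htop : (⟨n, hn⟩ : NP) ∈ (P : Subgroup G).subgroupOf NP ⊔ K' :=
      hK'.sup_eq_top ▸ Subgroup.mem_top _
    rw [← SetLike.mem_coe, Subgroup.normal_mul] at htop
    obtain ⟨a, ha, b, hb, hab⟩ := htop
    refine ⟨a, Subgroup.mem_subgroupOf.mp ha, b, ⟨b, hb, rfl⟩, ?_⟩
    have := congrArg Subtype.val hab
    simpa using this.symm
  let ν := normMap (P : Subgroup G) K hKN
  have hνZ : ∀ b, (ν b : G) ∈
      (P : Subgroup G) ⊓ Subgroup.centralizer (NP : Set G) := by
    intro b
    refine ⟨(ν b).2, ?_⟩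
    show (ν b : G) ∈ Subgroup.centralizer (NP : Set G)
    rw [Subgroup.mem_centralizer_iff]
    intro n hn
    obtain ⟨a, ha, k, hk, rfl⟩ := hNPK n hn
    have h1 : a * (ν b : G) = (ν b : G) * a :=
      congrArg Subtype.val (mul_comm (⟨a, ha⟩ : (P : Subgroup G)) (ν b))
    have h2 : k * (ν b : G) = (ν b : G) * k := by
      have h3 := normMap_conj (P : Subgroup G) K hKN b ⟨k, hk⟩
      calc k * (ν b : G) = (k * (ν b : G) * k⁻¹) * k := by group
        _ = (ν b : G) * k := by rw [h3]
    rw [mul_assoc, h2, ← mul_assoc, h1, mul_assoc]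
  have hZc : IsMulCommutative
      ((P : Subgroup G) ⊓ Subgroup.centralizer (NP : Set G) : Subgroup G) :=
    ⟨⟨fun a b => Subtype.ext
      (show (a : G) * (b : G) = (b : G) * (a : G) from
        congrArg Subtype.val (mul_comm (⟨a, a.2.1⟩ : (P : Subgroup G)) ⟨b, b.2.1⟩))⟩⟩
  let θ : (P : Subgroup G) →*
      ((P : Subgroup G) ⊓ Subgroup.centralizer (NP : Set G) : Subgroup G) :=
    { toFun := fun b => ⟨ν b, hνZ b⟩
      map_one' := Subtype.ext (by simp)
      map_mul' := fun x y => Subtype.ext (by simp) }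
  let W : G →* ((P : Subgroup G) ⊓ Subgroup.centralizer (NP : Set G) : Subgroup G) :=
    MonoidHom.transfer θ
  have hW : ∀ z : ((P : Subgroup G) ⊓ Subgroup.centralizer (NP : Set G) : Subgroup G),
      W z = z ^ ((P : Subgroup G).index * Nat.card K) := by
    intro z
    have hzc : ∀ (j : ℕ) (n : G), n ∈ NP → n * (z : G) ^ j * n⁻¹ = (z : G) ^ j := by
      intro j n hn
      have h1 : (z : G) ^ j ∈ Subgroup.centralizer (NP : Set G) := Subgroup.pow_mem _ z.2.2 j
      rw [Subgroup.mem_centralizer_iff] at h1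
      rw [h1 n hn]; group
    have key : ∀ (j : ℕ) (g₀ : G), g₀⁻¹ * (z : G) ^ j * g₀ ∈ (P : Subgroup G) →
        g₀⁻¹ * (z : G) ^ j * g₀ = (z : G) ^ j := by
      intro j g₀ hg
      obtain ⟨n, hn, h⟩ := P.conj_eq_normalizer_conj_of_mem ((z : G) ^ j) g₀
        (Subgroup.pow_mem _ z.2.1 j) hg
      rw [h]
      have := hzc j n⁻¹ (Subgroup.inv_mem _ hn)
      rwa [inv_inv] at this
    have h1 := MonoidHom.transfer_eq_pow θ (z : G) key
    show MonoidHom.transfer θ (z : G) = _
    rw [h1]
    apply Subtype.ext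
    show ((ν ⟨(z : G) ^ (P : Subgroup G).index, _⟩ : (P : Subgroup G)) : G) = _
    rw [normMap_of_comm (P : Subgroup G) K hKN _
      (fun k hk => hzc (P : Subgroup G).index k (hKN hk))]
    simp [pow_mul]
  have hZp : IsPGroup p ((P : Subgroup G) ⊓ Subgroup.centralizer (NP : Set G) : Subgroup G) :=
    P.isPGroup'.to_le inf_le_left
  have hnd : ¬ p ∣ (P : Subgroup G).index * Nat.card K :=
    Nat.Prime.not_dvd_mul hpp P.not_dvd_index hpK
  have hsurj : Function.Surjective W := by
    intro w
    refine ⟨(((hZp.powEquiv' hnd).symm w :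
      ((P : Subgroup G) ⊓ Subgroup.centralizer (NP : Set G) : Subgroup G)) : G), ?_⟩
    rw [hW]
    exact (hZp.powEquiv' hnd).apply_symm_apply w
  exact ⟨W.ker, inferInstance, ⟨QuotientGroup.quotientKerEquivOfSurjective W hsurj⟩⟩

end Cfsg.Agent.S0105
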