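import Cfsg.Statements.S0625
import Cfsg.Agent.Lib.Helper14.ActionStable
import Cfsg.Agent.Lib.Helper14.QuadGen

set_option autoImplicit false
open Cfsg

namespace Cfsg.Agent.S0625

open Cfsg.Agent.Lib.Helper14

universe u

theorem pSolv_quot (p : ℕ) [Fact p.Prime] : ClassQuot.{u} (fun Γ _ => IsPSolvable p Γ) := by
  intro Γ Γ' _ _ _ f hf h
  exact isPSolvable_map f hf h

theorem pSolv_sub (p : ℕ) [Fact p.Prime] : ClassSub.{u} (fun Γ _ => IsPSolvable p Γ) := by
  intro Γ _ _ h Γ₁
  exact isPSolvable_subgroup h Γ₁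

theorem pSolv_key {p : ℕ} [Fact p.Prime] (hp : 5 ≤ p) :
    ClassKey.{u} p (fun Γ _ => IsPSolvable p Γ) := by
  intro Γ _ _ A _ _ h hA θ hθ a ha
  exact quad_mem_pCore_pSolvable hp h hA θ hθ a ha

/-- A p-separable group with p at least 5 is p-stable in the action sense. -/
theorem result {G : Type*} [Group G] [Finite G] {p : ℕ} [Fact p.Prime] (hp : 5 ≤ p) (hsep : Cfsg.IsPSolvable p G) : Cfsg.IsActionPStable p G := by
  exact actionPStable_of_class (pSolv_sub p) (pSolv_quot p) (pSolv_key hp) hsep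

end Cfsg.Agent.S0625
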