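import Cfsg.Statements.S0109
import Cfsg.Agent.S0600
import Cfsg.Agent.S0601
import Cfsg.Agent.S0607
import Cfsg.Agent.S0608
import Cfsg.Agent.S0625
import Cfsg.Agent.S0626
import Cfsg.Agent.Lib.Helper40.HallHigman
import Cfsg.Agent.Lib.Helper26.SolvPSolv

set_option autoImplicit false
open Cfsg

namespace Cfsg.Agent.S0109

/-- The Thompson factorization Theorem for solvable groups states that, with p odd (and abelian Sylow 2-subgroups when p = 3) and no nontrivial normal subgroup of order prime to p, every element of G is a product of an element normalizing J(P) and an element centralizing the elements of order dividing p in the centre of P. -/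
theorem result {G : Type*} [Group G] [Finite G] {p : ℕ} [Fact p.Prime] (hp : p ≠ 2) (hs : Group.IsSolvable G) (h3 : p = 3 → ∀ T : Sylow 2 G, IsMulCommutative T) (hF : ∀ N : Subgroup G, N.Normal → Nat.Coprime (Nat.card N) p → N = ⊥) (P : Sylow p G) (g : G) : ∃ a ∈ Subgroup.normalizer (Cfsg.thompsonSubgroupOf p (P : Subgroup G) : Set G), ∃ c ∈ Subgroup.centralizer {x : G | x ∈ (P : Subgroup G) ∧ (∀ y ∈ (P : Subgroup G), x * y = y * x) ∧ x ^ p = 1}, g = a * c := by
  have hpp : p.Prime := Fact.out
  have hO : Cfsg.pPrimeCore p G = ⊥ := by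
    unfold Cfsg.pPrimeCore
    rw [sSup_eq_bot]
    rintro N ⟨hN1, hN2⟩
    exact hF N hN1 hN2
  have hsol : Cfsg.IsPSolvable p G :=
    Cfsg.Agent.Lib.Helper26.isPSolvable_of_isSolvable p _ G rfl hs
  have hc : Subgroup.centralizer (Cfsg.pCore p G : Set G) ≤ Cfsg.pCore p G :=
    Cfsg.Agent.Lib.Helper40.centralizer_pCore_le hsol hO
  have hst : Cfsg.IsActionPStable p G := by
    by_cases h : p = 3
    · exact Cfsg.Agent.S0626.result hp (h3 h)
    · have h5 : 5 ≤ p := by
        have h2 := hpp.two_le
        rcases Nat.lt_or_ge p 5 with h' | h'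
        · exfalso
          have h4 : p = 4 := by omega
          rw [h4] at hpp
          exact absurd hpp (by decide)
        · exact h'
      exact Cfsg.Agent.S0625.result h5 hsol
  obtain ⟨hVn, hVe, -⟩ := Cfsg.Agent.S0601.result hc
  have hgen : (⨆ S : Sylow p G, Cfsg.omegaOne p (((S : Subgroup G)) ⊓
        Subgroup.centralizer ((S : Subgroup G) : Set G))) =
      ⨆ S : Sylow p G, (⨆ S : Sylow p G, Cfsg.omegaOne p (((S : Subgroup G)) ⊓
        Subgroup.centralizer ((S : Subgroup G) : Set G))) ⊓
        Subgroup.centralizer ((S : Subgroup G) : Set G) := by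
    apply le_antisymm
    · apply iSup_le
      intro S
      refine le_trans ?_ (le_iSup _ S)
      apply le_inf
      · exact le_iSup (fun S : Sylow p G => Cfsg.omegaOne p (((S : Subgroup G)) ⊓
          Subgroup.centralizer ((S : Subgroup G) : Set G))) S
      · unfold Cfsg.omegaOne
        rw [Subgroup.closure_le]
        rintro x ⟨hx, -⟩
        exact hx.2
    · exact iSup_le fun S => inf_le_left
  have hcore := @Cfsg.Agent.S0600.result G _ _ p _ _ hVn hVe hgen
  have hst1 := hst.1
  have hstV := @hst1 _ hVn hVe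
  have hquad : ∀ a : G, ⁅⁅(⨆ S : Sylow p G, Cfsg.omegaOne p (((S : Subgroup G)) ⊓
        Subgroup.centralizer ((S : Subgroup G) : Set G))), Subgroup.zpowers a⁆, Subgroup.zpowers a⁆ = ⊥ →
      a ∈ Subgroup.centralizer ((⨆ S : Sylow p G, Cfsg.omegaOne p (((S : Subgroup G)) ⊓
        Subgroup.centralizer ((S : Subgroup G) : Set G)) : Subgroup G) : Set G) := by
    intro a ha
    have h1 := hstV a ha
    rw [hcore, Subgroup.mem_bot] at h1
    exact (QuotientGroup.eq_one_iff a).mp h1
  have hJ : Cfsg.thompsonSubgroup p G ≤ Subgroup.centralizer ((⨆ S : Sylow p G,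
      Cfsg.omegaOne p (((S : Subgroup G)) ⊓
        Subgroup.centralizer ((S : Subgroup G) : Set G)) : Subgroup G) : Set G) := by
    unfold Cfsg.thompsonSubgroup
    apply sSup_le
    intro A hA
    by_contra hAV
    obtain ⟨hA0, hq, hne⟩ := @Cfsg.Agent.S0607.result G _ _ p _ _ hVn hVe A hA
    have hVA : ⁅(⨆ S : Sylow p G, Cfsg.omegaOne p (((S : Subgroup G)) ⊓
        Subgroup.centralizer ((S : Subgroup G) : Set G))), A⁆ ≠ ⊥ := by
      intro h
      apply hAV
      rw [Subgroup.commutator_comm] at h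
      exact Subgroup.commutator_eq_bot_iff_le_centralizer.mp h
    apply hne hVA
    rw [Subgroup.commutator_comm, Subgroup.commutator_eq_bot_iff_le_centralizer]
    intro a ha
    apply hquad
    rw [eq_bot_iff, ← hq]
    have hz : Subgroup.zpowers a ≤ _ := (Subgroup.zpowers_le).mpr ha
    exact Subgroup.commutator_mono (Subgroup.commutator_mono le_rfl hz) hz
  have hTF : Cfsg.IsThompsonFactorizable p G := (Cfsg.Agent.S0608.result hO).mpr hJ
  obtain ⟨x, hx, c, hc', n, hn, hg⟩ := hTF P g⁻¹
  rw [hO, Subgroup.mem_bot] at hx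
  refine ⟨n⁻¹, inv_mem hn, c⁻¹, ?_, ?_⟩
  · apply inv_mem
    rw [Subgroup.mem_centralizer_iff] at hc' ⊢
    intro y hy
    apply hc'
    apply Subgroup.subset_closure
    exact ⟨⟨hy.1, fun z hz => (hy.2.1 z hz).symm⟩, hy.2.2⟩
  · have h1 : g = (g⁻¹)⁻¹ := (inv_inv g).symm
    rw [h1, hg, hx]
    group

end Cfsg.Agent.S0109
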