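import Cfsg.Statements.S0110
import Mathlib

set_option autoImplicit false
open Cfsg

namespace Cfsg.Agent.S0110

open scoped commutatorElement

universe u

theorem hom_card_le {C : Type*} [Group C] (p : ℕ) [Fact p.Prime] (hC : Nat.card C = p) :
    ∀ (n : ℕ) (Y : Type u) [Group Y] [Finite Y], Nat.card Y = n → IsPGroup p Y →
      Nat.card (Y →* C) ≤ Nat.card Y := by
  have hpp : p.Prime := Fact.out
  have hCfin : Finite C := Nat.finite_of_card_ne_zero (hC ▸ hpp.ne_zero)
  intro n
  induction n using Nat.strong_induction_on with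
  | _ n ih =>
  intro Y _ _ hn hY
  have hfin : Finite (Y →* C) := DFunLike.finite _
  obtain ⟨k, hk⟩ := IsPGroup.iff_card.mp hY
  rcases Nat.eq_zero_or_pos k with rfl | hkpos
  · rw [pow_zero] at hk
    have hsub : Subsingleton Y := (Nat.card_eq_one_iff_unique.mp hk).1
    have hsub2 : Subsingleton (Y →* C) :=
      ⟨fun f g => by ext y; rw [Subsingleton.elim y 1, map_one, map_one]⟩
    rw [hk]
    exact Finite.card_le_one_iff_subsingleton.mpr hsub2
  · obtain ⟨M, hM⟩ := Sylow.exists_subgroup_card_pow_prime p (G := Y) (n := k - 1)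
      (by rw [hk]; exact pow_dvd_pow p (Nat.sub_le k 1))
    have hMlt : Nat.card M < Nat.card Y := by
      rw [hM, hk]; exact Nat.pow_lt_pow_right hpp.one_lt (by omega)
    have hMne : M ≠ ⊤ := fun h => by
      rw [h, Subgroup.card_top] at hMlt; exact lt_irrefl _ hMlt
    obtain ⟨y₀, hy₀⟩ : ∃ y₀, y₀ ∉ M := by
      by_contra hcon
      push Not at hcon
      exact hMne (eq_top_iff.mpr (fun y _ => hcon y))
    have hgen : M ⊔ Subgroup.zpowers y₀ = ⊤ := by
      obtain ⟨j, hj⟩ := IsPGroup.iff_card.mp (hY.to_subgroup (M ⊔ Subgroup.zpowers y₀))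
      have h1 : Nat.card M ≤ Nat.card (M ⊔ Subgroup.zpowers y₀ : Subgroup Y) :=
        Subgroup.card_le_of_le le_sup_left
      have h2 : Nat.card M ≠ Nat.card (M ⊔ Subgroup.zpowers y₀ : Subgroup Y) := by
        intro heq
        have h3 : M = M ⊔ Subgroup.zpowers y₀ :=
          Subgroup.eq_of_le_of_card_ge le_sup_left heq.ge
        apply hy₀
        rw [h3]
        exact Subgroup.mem_sup_right (Subgroup.mem_zpowers y₀)
      have h4 : p ^ (k - 1) < p ^ j := by
        rw [← hM, ← hj]; exact lt_of_le_of_ne h1 h2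
      have h5 : k - 1 < j := (Nat.pow_lt_pow_iff_right hpp.one_lt).mp h4
      apply Subgroup.eq_top_of_le_card
      rw [hj, hk]
      exact Nat.pow_le_pow_right hpp.pos (by omega)
    have hfinM : Finite (M →* C) := DFunLike.finite _
    have hinj : Function.Injective
        (fun f : Y →* C => ((f.comp M.subtype, f y₀) : (M →* C) × C)) := by
      intro f g hfg
      have h1 : f.comp M.subtype = g.comp M.subtype := congrArg Prod.fst hfg
      have h2 : f y₀ = g y₀ := congrArg Prod.snd hfg
      have hle : M ⊔ Subgroup.zpowers y₀ ≤ MonoidHom.eqLocus f g := by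
        apply sup_le
        · intro m hm
          exact DFunLike.congr_fun h1 ⟨m, hm⟩
        · rw [Subgroup.zpowers_le]
          exact h2
      ext y
      exact hle (hgen ▸ Subgroup.mem_top y)
    calc Nat.card (Y →* C) ≤ Nat.card ((M →* C) × C) := Nat.card_le_card_of_injective _ hinj
      _ = Nat.card (M →* C) * p := by rw [Nat.card_prod, hC]
      _ ≤ Nat.card M * p :=
          Nat.mul_le_mul_right p (ih (Nat.card M) (hn ▸ hMlt) M rfl (hY.to_subgroup M))
      _ = Nat.card Y := by
          rw [hM, hk, ← pow_succ]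
          congr 1
          omega


open scoped IsMulCommutative in
/-- In a p-group G, an extraspecial subgroup E with [G, E] ≤ Z(E) satisfies G = E C_G(E). -/
theorem result {G : Type*} [Group G] [Finite G] {p : ℕ} [Fact p.Prime] (hG : IsPGroup p G) (E : Subgroup G) (hE : Cfsg.IsExtraspecial p E) (h : ⁅(⊤ : Subgroup G), E⁆ ≤ E ⊓ Subgroup.centralizer (E : Set G)) : E ⊔ Subgroup.centralizer (E : Set G) = ⊤ := by
  obtain ⟨⟨hEp, hfr, hcomm⟩, hcard⟩ := hE
  have hmem : ∀ (g : G) (e : E), ⁅g, (e : G)⁆ ∈ E ⊓ Subgroup.centralizer (E : Set G) :=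
    fun g e => h (Subgroup.commutator_mem_commutator (Subgroup.mem_top g) e.2)
  have hcc : ∀ (g : G) (e : E) (x : G), x ∈ E → x * ⁅g, (e : G)⁆ = ⁅g, (e : G)⁆ * x := by
    intro g e x hx
    have h1 : ⁅g, (e : G)⁆ ∈ Subgroup.centralizer (E : Set G) := (hmem g e).2
    rw [Subgroup.mem_centralizer_iff] at h1
    exact h1 x hx
  have hcen : ∀ (g : G) (e : E), (⟨⁅g, (e : G)⁆, (hmem g e).1⟩ : E) ∈ Subgroup.center E := by
    intro g e
    rw [Subgroup.mem_center_iff]
    intro x
    exact Subtype.ext (hcc g e x x.2)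
  have hmul1 : ∀ (g : G) (e₁ e₂ : E),
      ⁅g, (e₁ : G) * (e₂ : G)⁆ = ⁅g, (e₁ : G)⁆ * ⁅g, (e₂ : G)⁆ := by
    intro g e₁ e₂
    have hc2 := hcc g e₂ (e₁ : G)⁻¹ (E.inv_mem e₁.2)
    calc ⁅g, (e₁ : G) * (e₂ : G)⁆ = g * e₁ * g⁻¹ * (⁅g, (e₂ : G)⁆ * (e₁ : G)⁻¹) := by
          simp only [commutatorElement_def]; group
      _ = g * e₁ * g⁻¹ * ((e₁ : G)⁻¹ * ⁅g, (e₂ : G)⁆) := by rw [hc2]
      _ = ⁅g, (e₁ : G)⁆ * ⁅g, (e₂ : G)⁆ := by
          simp only [commutatorElement_def]; group
  have hmul2 : ∀ (a b : E) (e : E),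
      ⁅(a : G) * (b : G), (e : G)⁆ = ⁅(a : G), (e : G)⁆ * ⁅(b : G), (e : G)⁆ := by
    intro a b e
    have hc2 := hcc (b : G) e (a : G) a.2
    have hc3 := hcc (b : G) e ⁅(a : G), (e : G)⁆ (hmem (a : G) e).1
    calc ⁅(a : G) * (b : G), (e : G)⁆ = (a : G) * ⁅(b : G), (e : G)⁆ * e * (a : G)⁻¹ * (e : G)⁻¹ := by
          simp only [commutatorElement_def]; group
      _ = ⁅(b : G), (e : G)⁆ * (a : G) * e * (a : G)⁻¹ * (e : G)⁻¹ := by rw [hc2]
      _ = ⁅(b : G), (e : G)⁆ * ⁅(a : G), (e : G)⁆ := by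
          simp only [commutatorElement_def]; group
      _ = ⁅(a : G), (e : G)⁆ * ⁅(b : G), (e : G)⁆ := hc3.symm
  let f : G → (E →* Subgroup.center E) := fun g =>
    { toFun := fun e => ⟨⟨⁅g, (e : G)⁆, (hmem g e).1⟩, hcen g e⟩
      map_one' := by
        apply Subtype.ext; apply Subtype.ext
        simp
      map_mul' := fun e₁ e₂ => by
        apply Subtype.ext; apply Subtype.ext
        exact hmul1 g e₁ e₂ }
  let Φ : E →* (E →* Subgroup.center E) :=
    { toFun := fun e' => f (e' : G)
      map_one' := by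
        ext e
        simp [f]
      map_mul' := fun a b => by
        ext e
        exact hmul2 a b e }
  have hker : Φ.ker = Subgroup.center E := by
    ext a
    rw [MonoidHom.mem_ker, Subgroup.mem_center_iff]
    constructor
    · intro ha e
      have h1 : Φ a e = 1 := by rw [ha]; rfl
      have h2 : ⁅(a : G), (e : G)⁆ = 1 := congrArg (fun z : Subgroup.center E => ((z : E) : G)) h1
      have h3 := commutatorElement_eq_one_iff_commute.mp h2
      exact Subtype.ext h3.eq.symm
    · intro ha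
      ext e
      have h3 : (a : G) * (e : G) = (e : G) * (a : G) := (congrArg Subtype.val (ha e)).symm
      show ⁅(a : G), (e : G)⁆ = 1
      exact commutatorElement_eq_one_iff_commute.mpr h3
  have hfinH : Finite (E →* Subgroup.center E) := DFunLike.finite _
  have hbound : Nat.card (E →* Subgroup.center E) ≤ (Subgroup.center E).index := by
    have h1 : Nat.card (E →* Subgroup.center E) =
        Nat.card (Abelianization E →* Subgroup.center E) := Nat.card_congr Abelianization.lift
    have hpA : IsPGroup p (Abelianization E) := hEp.to_quotient (commutator E)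
    have h2 := hom_card_le (C := Subgroup.center E) p hcard (Nat.card (Abelianization E))
      (Abelianization E) rfl hpA
    have h3 : Nat.card (Abelianization E) = (commutator E).index :=
      (Subgroup.index_eq_card (commutator E)).symm
    rw [h1]
    rw [h3, hcomm] at h2
    exact h2
  have hrange : Φ.range = ⊤ := by
    apply Subgroup.eq_top_of_le_card
    rw [← Subgroup.index_ker, hker]
    exact hbound
  rw [eq_top_iff]
  intro g _
  have hg : f g ∈ Φ.range := hrange ▸ Subgroup.mem_top _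
  obtain ⟨e', he'⟩ := hg
  have hc : (e' : G)⁻¹ * g ∈ Subgroup.centralizer (E : Set G) := by
    rw [Subgroup.mem_centralizer_iff]
    intro x hx
    have h1 : Φ e' ⟨x, hx⟩ = f g ⟨x, hx⟩ := by rw [he']
    have h2 : ⁅(e' : G), x⁆ = ⁅g, x⁆ :=
      congrArg (fun z : Subgroup.center E => ((z : E) : G)) h1
    simp only [commutatorElement_def] at h2
    have h3 : (e' : G) * x * (e' : G)⁻¹ = g * x * g⁻¹ := by
      have := congrArg (· * x) h2
      simpa using this
    calc x * ((e' : G)⁻¹ * g) = (e' : G)⁻¹ * ((e' : G) * x * (e' : G)⁻¹) * g := by group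
      _ = (e' : G)⁻¹ * (g * x * g⁻¹) * g := by rw [h3]
      _ = (e' : G)⁻¹ * g * x := by group
  have hg2 : g = (e' : G) * ((e' : G)⁻¹ * g) := by group
  rw [hg2]
  exact Subgroup.mul_mem _ (Subgroup.mem_sup_left e'.2) (Subgroup.mem_sup_right hc)

end Cfsg.Agent.S0110
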