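import Cfsg.Statements.S0115
import Cfsg.Agent.Lib.Helper3.MaxClass
import Mathlib

set_option autoImplicit false
open Cfsg

namespace Cfsg.Agent.S0115

open Cfsg.Agent.Lib.Helper3

/-- A 2-group of order 2^n, n ≥ 3, is of maximal class exactly when its commutator quotient is a Klein four-group. -/
theorem result {X : Type*} [Group X] [Finite X] (n : ℕ) (hn : 3 ≤ n) (hX : Nat.card X = 2 ^ n) : Group.nilpotencyClass X = n - 1 ↔ IsKleinFour (X ⧸ commutator X) := by
  have hP : IsPGroup 2 X := IsPGroup.of_card hX
  have hnil : Group.IsNilpotent X := hP.isNilpotent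
  constructor
  · intro hc
    have hidx := index_commutator_of_class n hn hX hc
    have hcard : Nat.card (X ⧸ commutator X) = 4 := by rw [← Subgroup.index_eq_card, hidx]
    have hnc : ¬ ∀ a b : X, a * b = b * a := by
      intro hcomm
      have hcm : IsMulCommutative X := ⟨⟨hcomm⟩⟩
      have := Group.IsNilpotent.nilpotencyClass_le_one_iff.mpr hcm
      omega
    have hsq : ∀ q : X ⧸ commutator X, q ^ 2 = 1 := by
      intro q
      by_contra hq
      apply hnc
      have hdvd : orderOf q ∣ 2 ^ 2 := by
        have := orderOf_dvd_natCard q
        rw [hcard] at this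
        exact this
      obtain ⟨k, hk2, hk⟩ := (Nat.dvd_prime_pow Nat.prime_two).mp hdvd
      have hk2' : k = 2 := by
        interval_cases k
        · exfalso
          rw [pow_zero, orderOf_eq_one_iff] at hk
          rw [hk] at hq
          exact hq (one_pow 2)
        · exfalso
          apply hq
          rw [← pow_one 2, ← hk]
          exact pow_orderOf_eq_one q
        · rfl
      have hcyc : IsCyclic (X ⧸ commutator X) :=
        isCyclic_of_orderOf_eq_card q (by rw [hk, hk2', hcard]; norm_num)
      exact comm_of_cyclic_abelianization hP hcyc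
    refine ⟨hcard, ?_⟩
    have h1 : Monoid.exponent (X ⧸ commutator X) ∣ 2 :=
      Monoid.exponent_dvd_of_forall_pow_eq_one hsq
    rcases (Nat.dvd_prime Nat.prime_two).mp h1 with h2 | h2
    · exfalso
      have := Monoid.exp_eq_one_iff.mp h2
      have h3 : Nat.card (X ⧸ commutator X) = 1 := Nat.card_unique
      omega
    · exact h2
  · intro hK
    have hidx : (commutator X).index = 4 := by
      rw [Subgroup.index_eq_card]
      exact hK.card_four
    exact class_eq n (by omega) X hX hidx

end Cfsg.Agent.S0115
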