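import Cfsg.Statements.S0116
import Mathlib

set_option autoImplicit false
open Cfsg

namespace Cfsg.Agent.S0116

open scoped Pointwise

variable {G : Type*} [Group G]

lemma conj_smul_eq_of_mem_normalizer {H : Subgroup G} {z : G}
    (hz : z ∈ Subgroup.normalizer (H : Set G)) : MulAut.conj z • H = H := by
  ext y
  rw [Subgroup.mem_pointwise_smul_iff_inv_smul_mem]
  rw [Subgroup.mem_normalizer_iff''] at hz
  simpa [MulAut.smul_def] using (hz y).symm

lemma mem_normalizer_of_conj_smul_eq {H : Subgroup G} {z : G}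
    (hz : MulAut.conj z • H = H) : z ∈ Subgroup.normalizer (H : Set G) := by
  rw [Subgroup.mem_normalizer_iff'']
  intro y
  have := Subgroup.mem_pointwise_smul_iff_inv_smul_mem (a := MulAut.conj z) (S := H) (x := y)
  rw [hz] at this
  simpa [MulAut.smul_def] using this

lemma normalizer_conj_smul (H : Subgroup G) (x : G) :
    Subgroup.normalizer ((MulAut.conj x • H : Subgroup G) : Set G)
      = MulAut.conj x • Subgroup.normalizer (H : Set G) := by
  ext y
  rw [Subgroup.mem_pointwise_smul_iff_inv_smul_mem]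
  constructor
  · intro hy
    apply mem_normalizer_of_conj_smul_eq
    have h1 := conj_smul_eq_of_mem_normalizer hy
    have h2 : MulAut.conj ((MulAut.conj x)⁻¹ • y) = (MulAut.conj x)⁻¹ * MulAut.conj y * MulAut.conj x := by
      ext w; simp [MulAut.smul_def, mul_assoc]
    rw [h2, mul_smul, mul_smul, h1, inv_smul_smul]
  · intro hy
    apply mem_normalizer_of_conj_smul_eq
    have h1 := conj_smul_eq_of_mem_normalizer hy
    have h2 : MulAut.conj y = MulAut.conj x * MulAut.conj ((MulAut.conj x)⁻¹ • y) * (MulAut.conj x)⁻¹ := by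
      ext w; simp [MulAut.smul_def, mul_assoc]
    rw [h2, mul_smul, mul_smul, inv_smul_smul, h1]

lemma card_conj_smul [Finite G] (H : Subgroup G) (x : G) :
    Nat.card (MulAut.conj x • H : Subgroup G) = Nat.card H :=
  (Nat.card_congr (Subgroup.equivSMul (MulAut.conj x) H).toEquiv).symm

/-- `P ∩ Q` is a tame intersection. -/
def Tame (p : ℕ) (P Q : Subgroup G) : Prop :=
  ¬ p ∣ (P ⊓ Subgroup.normalizer ((P ⊓ Q : Subgroup G) : Set G)).relIndex
      (Subgroup.normalizer ((P ⊓ Q : Subgroup G) : Set G)) ∧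
  ¬ p ∣ (Q ⊓ Subgroup.normalizer ((P ⊓ Q : Subgroup G) : Set G)).relIndex
      (Subgroup.normalizer ((P ⊓ Q : Subgroup G) : Set G))

/-- `Chain p P B x`: `x` is a product of `p`-elements normalizing tame intersections which
successively contain the images of `B`. -/
inductive Chain (p : ℕ) [Fact p.Prime] (P : Sylow p G) : Subgroup G → G → Prop
  | nil (B : Subgroup G) (hB : B ≤ (P : Subgroup G)) : Chain p P B 1
  | cons (B : Subgroup G) (x z : G) (Q : Sylow p G) (hx : Chain p P B x)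
      (hQ : Tame p (P : Subgroup G) (Q : Subgroup G))
      (hz : z ∈ Subgroup.normalizer (((P : Subgroup G) ⊓ (Q : Subgroup G) : Subgroup G) : Set G))
      (hzp : ∃ k : ℕ, orderOf z = p ^ k)
      (hB : MulAut.conj x • B ≤ (P : Subgroup G) ⊓ (Q : Subgroup G)) : Chain p P B (z * x)

variable {p : ℕ} [Fact p.Prime] {P : Sylow p G}

lemma Chain.le {B : Subgroup G} {x : G} (h : Chain p P B x) : B ≤ (P : Subgroup G) := by
  induction h with
  | nil hB => exact hB
  | cons x z Q hx hQ hz hzp hB ih => exact ih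

lemma Chain.conj_le {B : Subgroup G} {x : G} (h : Chain p P B x) :
    MulAut.conj x • B ≤ (P : Subgroup G) := by
  induction h with
  | nil hB => simpa using hB
  | cons x z Q hx hQ hz hzp hB ih =>
    rw [map_mul, mul_smul]
    calc MulAut.conj z • MulAut.conj x • B ≤ MulAut.conj z • ((P : Subgroup G) ⊓ (Q : Subgroup G)) :=
          Subgroup.pointwise_smul_le_pointwise_smul_iff.mpr hB
      _ = (P : Subgroup G) ⊓ (Q : Subgroup G) := conj_smul_eq_of_mem_normalizer hz
      _ ≤ P := inf_le_left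

lemma Chain.mono {B C : Subgroup G} {x : G} (h : Chain p P B x) (hC : C ≤ B) : Chain p P C x := by
  induction h with
  | nil hB => exact Chain.nil C (hC.trans hB)
  | cons x z Q hx hQ hz hzp hB ih =>
    exact Chain.cons C x z Q ih hQ hz hzp
      ((Subgroup.pointwise_smul_le_pointwise_smul_iff.mpr hC).trans hB)

lemma Chain.trans {B : Subgroup G} {x y : G} (h1 : Chain p P B x)
    (h2 : Chain p P (MulAut.conj x • B) y) : Chain p P B (y * x) := by
  generalize hB' : MulAut.conj x • B = B' at h2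
  induction h2 with
  | nil hB => simpa using h1
  | cons y z Q hy hQ hz hzp hB ih =>
    subst hB'
    rw [mul_assoc]
    refine Chain.cons B (y * x) z Q ih hQ hz hzp ?_
    rw [map_mul, mul_smul]
    exact hB


omit [Fact p.Prime] in
lemma sylow_eq_of_le [Fact p.Prime] {P Q : Sylow p G} (h : (Q : Subgroup G) ≤ P) : Q = P :=
  Sylow.ext (Q.3 P.2 h).symm

omit [Fact p.Prime] in
lemma lt_inf_normalizer [Fact p.Prime] [Finite G] {S H : Subgroup G} (hS : IsPGroup p S) (hH : H < S) :
    H < S ⊓ Subgroup.normalizer (H : Set G) := by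
  have hnil : Group.IsNilpotent S := hS.isNilpotent
  have hnc : NormalizerCondition S := Group.normalizerCondition_of_isNilpotent
  have hlt : H.subgroupOf S < ⊤ := by
    rw [lt_top_iff_ne_top, Ne, Subgroup.subgroupOf_eq_top]
    exact not_le_of_gt hH
  have h1 := hnc _ hlt
  obtain ⟨n, hn1, hn2⟩ := SetLike.exists_of_lt h1
  rw [← Subgroup.subgroupOf_normalizer_eq hH.le, Subgroup.mem_subgroupOf] at hn1
  rw [Subgroup.mem_subgroupOf] at hn2
  refine lt_of_le_of_ne (le_inf hH.le Subgroup.le_normalizer) ?_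
  intro h
  apply hn2
  rw [h]
  exact ⟨n.2, hn1⟩

omit [Fact p.Prime] in
lemma exists_sylowOf [Fact p.Prime] [Finite G] {N A : Subgroup G} (hA : IsPGroup p A) (hAN : A ≤ N) :
    ∃ T : Subgroup G, IsPGroup p T ∧ A ≤ T ∧ T ≤ N ∧ ¬ p ∣ T.relIndex N := by
  obtain ⟨T', hT'⟩ := (hA.comap_subtype (K := N)).exists_le_sylow
  refine ⟨(T' : Subgroup N).map N.subtype, T'.2.map N.subtype, ?_, ?_, ?_⟩
  · intro a ha
    exact ⟨⟨a, hAN ha⟩, hT' (show (⟨a, hAN ha⟩ : N) ∈ A.subgroupOf N from ha), rfl⟩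
  · exact Subgroup.map_subtype_le _
  · have : ((T' : Subgroup N).map N.subtype).subgroupOf N = T' :=
      Subgroup.comap_map_eq_self_of_injective N.subtype_injective _
    rw [Subgroup.relIndex, this]
    exact T'.not_dvd_index

omit [Fact p.Prime] in
lemma exists_conj_eq_of_sylowOf [Fact p.Prime] [Finite G] {N T T' : Subgroup G}
    (hT : IsPGroup p T) (hT' : IsPGroup p T')
    (hTN : T ≤ N) (hT'N : T' ≤ N) (h1 : ¬ p ∣ T.relIndex N) (h2 : ¬ p ∣ T'.relIndex N) :
    ∃ z ∈ Subgroup.closure {z : G | z ∈ N ∧ ∃ k : ℕ, orderOf z = p ^ k}, MulAut.conj z • T = T' := by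
  set K : Subgroup G := Subgroup.closure {z : G | z ∈ N ∧ ∃ k : ℕ, orderOf z = p ^ k} with hK
  have hKN : K ≤ N := by
    rw [hK, Subgroup.closure_le]
    rintro z ⟨hz, -⟩
    exact hz
  have hsub : ∀ A : Subgroup G, IsPGroup p A → A ≤ N → A ≤ K := by
    intro A hA hAN a ha
    apply Subgroup.subset_closure
    refine ⟨hAN ha, ?_⟩
    obtain ⟨k, hk⟩ := (IsPGroup.iff_orderOf.mp hA) ⟨a, ha⟩
    exact ⟨k, by rw [← hk, Subgroup.orderOf_mk]⟩
  have hTK := hsub T hT hTN
  have hT'K := hsub T' hT' hT'N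
  have hidx : ∀ A : Subgroup G, A ≤ K → ¬ p ∣ A.relIndex N → ¬ p ∣ (A.subgroupOf K).index := by
    intro A hAK hA hdvd
    apply hA
    rw [← Subgroup.relIndex_mul_relIndex A K N hAK hKN]
    exact Dvd.dvd.mul_right hdvd _
  obtain ⟨S₁, hS₁⟩ : ∃ S : Sylow p K, (S : Subgroup K) = T.subgroupOf K :=
    ⟨(hT.comap_subtype (K := K)).toSylow (hidx T hTK h1), IsPGroup.toSylow_coe _ _⟩
  obtain ⟨S₂, hS₂⟩ : ∃ S : Sylow p K, (S : Subgroup K) = T'.subgroupOf K :=
    ⟨(hT'.comap_subtype (K := K)).toSylow (hidx T' hT'K h2), IsPGroup.toSylow_coe _ _⟩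
  obtain ⟨k, hk⟩ := MulAction.exists_smul_eq K S₁ S₂
  refine ⟨k, k.2, ?_⟩
  have hk' : MulAut.conj k • T.subgroupOf K = T'.subgroupOf K := by
    rw [← hS₁, ← hS₂, ← hk, Sylow.coe_subgroup_smul]
  have hmem : ∀ y : K, (y : G) ∈ T' ↔ (k : G)⁻¹ * y * k ∈ T := by
    intro y
    rw [← Subgroup.mem_subgroupOf, ← hk', Subgroup.mem_pointwise_smul_iff_inv_smul_mem,
      Subgroup.mem_subgroupOf]
    simp [MulAut.smul_def]
  ext y
  rw [Subgroup.mem_pointwise_smul_iff_inv_smul_mem]
  simp only [MulAut.smul_def, MulAut.inv_apply, MulAut.conj_symm_apply]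
  constructor
  · intro hy
    have hyK : y ∈ K := by
      have := K.mul_mem (K.mul_mem k.2 (hTK hy)) (K.inv_mem k.2)
      simpa [mul_assoc] using this
    exact (hmem ⟨y, hyK⟩).mpr hy
  · intro hy
    exact (hmem ⟨y, hT'K hy⟩).mp hy


lemma card_lt_of_lt [Finite G] {A B : Subgroup G} (h : A < B) : Nat.card A < Nat.card B := by
  by_contra hcon
  exact h.ne (Subgroup.eq_of_le_of_card_ge h.le (not_lt.mp hcon))

lemma chain_of_mem_closure [Finite G] (P U : Sylow p G) (H : Subgroup G)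
    (hPU : (P : Subgroup G) ⊓ (U : Subgroup G) = H)
    (htame : Tame p (P : Subgroup G) (U : Subgroup G)) (z : G)
    (hz : z ∈ Subgroup.closure {z : G | z ∈ Subgroup.normalizer (H : Set G) ∧ ∃ k : ℕ, orderOf z = p ^ k}) :
    z ∈ Subgroup.normalizer (H : Set G) ∧ Chain p P H z := by
  have hHP : H ≤ (P : Subgroup G) := hPU ▸ inf_le_left
  have hgen : ∀ x ∈ {z : G | z ∈ Subgroup.normalizer (H : Set G) ∧ ∃ k : ℕ, orderOf z = p ^ k},
      x ∈ Subgroup.normalizer (H : Set G) ∧ Chain p P H x := by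
    rintro x ⟨hx, hxp⟩
    refine ⟨hx, ?_⟩
    have := Chain.cons H 1 x U (Chain.nil H hHP) htame (by rw [hPU]; exact hx) hxp
      (by rw [hPU]; simp)
    simpa using this
  induction hz using Subgroup.closure_induction'' with
  | mem x hx => exact hgen x hx
  | inv_mem x hx =>
    apply hgen
    obtain ⟨hx1, k, hk⟩ := hx
    exact ⟨inv_mem hx1, k, by rw [orderOf_inv, hk]⟩
  | one => exact ⟨one_mem _, Chain.nil H hHP⟩
  | mul x y _ _ ihx ihy =>
    refine ⟨mul_mem ihx.1 ihy.1, ?_⟩
    apply Chain.trans ihy.2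
    rw [conj_smul_eq_of_mem_normalizer ihy.1]
    exact ihx.2

lemma step2 [Finite G] (P Q : Sylow p G) (hne : Q ≠ P)
    (hPN : ¬ p ∣ ((P : Subgroup G) ⊓ Subgroup.normalizer
        (((P : Subgroup G) ⊓ (Q : Subgroup G) : Subgroup G) : Set G)).relIndex
      (Subgroup.normalizer (((P : Subgroup G) ⊓ (Q : Subgroup G) : Subgroup G) : Set G)))
    (IH : ∀ R : Sylow p G, Nat.card ((P : Subgroup G) ⊓ (Q : Subgroup G) : Subgroup G) <
        Nat.card ((P : Subgroup G) ⊓ (R : Subgroup G) : Subgroup G) →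
      ∃ x, Chain p P ((P : Subgroup G) ⊓ (R : Subgroup G)) x ∧ x • R = P) :
    ∃ x, Chain p P ((P : Subgroup G) ⊓ (Q : Subgroup G)) x ∧ x • Q = P := by
  generalize hH : ((P : Subgroup G) ⊓ (Q : Subgroup G) : Subgroup G) = H at hPN IH ⊢
  generalize hN : Subgroup.normalizer (H : Set G) = N at hPN
  have hHP : H ≤ (P : Subgroup G) := hH ▸ inf_le_left
  have hHQ : H ≤ (Q : Subgroup G) := hH ▸ inf_le_right
  have hHltQ : H < (Q : Subgroup G) := by
    refine lt_of_le_of_ne hHQ (fun h => hne (sylow_eq_of_le ?_))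
    rw [← h]; exact hHP
  have hHltP : H < (P : Subgroup G) := by
    refine lt_of_le_of_ne hHP (fun h => hne (sylow_eq_of_le ?_).symm)
    rw [← h]; exact hHQ
  have hQN : H < (Q : Subgroup G) ⊓ N := hN ▸ lt_inf_normalizer Q.2 hHltQ
  have hPN' : H < (P : Subgroup G) ⊓ N := hN ▸ lt_inf_normalizer P.2 hHltP
  obtain ⟨T, hTp, hQNT, hTN, hTidx⟩ :=
    exists_sylowOf (N := N) (Q.2.to_le (inf_le_left : (Q : Subgroup G) ⊓ N ≤ Q)) inf_le_right
  obtain ⟨U, hTU⟩ := hTp.exists_le_sylow
  have hHU : H ≤ (U : Subgroup G) := hQN.le.trans (hQNT.trans hTU)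
  have hU1 : H < (U : Subgroup G) ⊓ (Q : Subgroup G) :=
    lt_of_lt_of_le hQN (le_inf (hQNT.trans hTU) inf_le_left)
  -- claim
  have claim : ∃ u, Chain p P ((P : Subgroup G) ⊓ (U : Subgroup G)) u ∧ u • U = P := by
    by_cases hPU : (P : Subgroup G) ⊓ (U : Subgroup G) = H
    · have htame : Tame p (P : Subgroup G) (U : Subgroup G) := by
        constructor
        · rw [hPU, hN]; exact hPN
        · rw [hPU, hN]
          intro hdvd
          exact hTidx (hdvd.trans (Subgroup.relIndex_dvd_of_le_left N (le_inf hTU hTN)))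
      have hPNp : IsPGroup p ((P : Subgroup G) ⊓ N : Subgroup G) := P.2.to_le inf_le_left
      obtain ⟨z, hz, hzT⟩ := exists_conj_eq_of_sylowOf hTp hPNp hTN inf_le_right hTidx hPN
      rw [← hN] at hz
      obtain ⟨hzN, hzc⟩ := chain_of_mem_closure P U H hPU htame z hz
      have hlt : Nat.card H < Nat.card ((P : Subgroup G) ⊓ ((z • U : Sylow p G) : Subgroup G) : Subgroup G) := by
        apply lt_of_lt_of_le (card_lt_of_lt hPN')
        apply Subgroup.card_le_of_le
        refine le_inf inf_le_left ?_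
        rw [Sylow.coe_subgroup_smul, ← hzT]
        exact Subgroup.pointwise_smul_le_pointwise_smul_iff.mpr hTU
      obtain ⟨w, hw, hwU⟩ := IH (z • U) hlt
      refine ⟨w * z, ?_, by rw [mul_smul, hwU]⟩
      rw [hPU]
      apply Chain.trans hzc
      apply hw.mono
      rw [conj_smul_eq_of_mem_normalizer hzN]
      refine le_inf hHP ?_
      rw [Sylow.coe_subgroup_smul, ← conj_smul_eq_of_mem_normalizer hzN]
      exact Subgroup.pointwise_smul_le_pointwise_smul_iff.mpr hHU
    · have hlt : H < (P : Subgroup G) ⊓ (U : Subgroup G) :=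
        lt_of_le_of_ne (le_inf hHP hHU) (Ne.symm hPU)
      exact IH U (card_lt_of_lt hlt)
  obtain ⟨u, hu, huU⟩ := claim
  have huH : Chain p P H u := hu.mono (le_inf hHP hHU)
  have hPu : (P : Subgroup G) = MulAut.conj u • (U : Subgroup G) := by
    rw [← Sylow.coe_subgroup_smul, huU]
  have hlt : Nat.card H < Nat.card ((P : Subgroup G) ⊓ ((u • Q : Sylow p G) : Subgroup G) : Subgroup G) := by
    rw [Sylow.coe_subgroup_smul, hPu, ← Subgroup.smul_inf, card_conj_smul]
    exact card_lt_of_lt hU1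
  obtain ⟨v, hv, hvQ⟩ := IH (u • Q) hlt
  refine ⟨v * u, ?_, by rw [mul_smul, hvQ]⟩
  apply Chain.trans huH
  apply hv.mono
  refine le_inf huH.conj_le ?_
  rw [Sylow.coe_subgroup_smul]
  exact Subgroup.pointwise_smul_le_pointwise_smul_iff.mpr hHQ


/-- **Alperin's fusion theorem** (chain form): every Sylow `p`-subgroup `Q` is carried to `P` by a
product of `p`-elements normalizing tame intersections which successively contain the images of
`P ⊓ Q`. -/
theorem alperin [Finite G] (P Q : Sylow p G) :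
    ∃ x, Chain p P ((P : Subgroup G) ⊓ (Q : Subgroup G)) x ∧ x • Q = P := by
  induction h : Nat.card (P : Subgroup G) -
      Nat.card ((P : Subgroup G) ⊓ (Q : Subgroup G) : Subgroup G) using Nat.strong_induction_on
      generalizing Q with
  | _ n ih =>
  have IH : ∀ R : Sylow p G, Nat.card ((P : Subgroup G) ⊓ (Q : Subgroup G) : Subgroup G) <
        Nat.card ((P : Subgroup G) ⊓ (R : Subgroup G) : Subgroup G) →
      ∃ x, Chain p P ((P : Subgroup G) ⊓ (R : Subgroup G)) x ∧ x • R = P := by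
    intro R hR
    refine ih (Nat.card (P : Subgroup G) -
      Nat.card ((P : Subgroup G) ⊓ (R : Subgroup G) : Subgroup G)) ?_ R rfl
    have h1 := Subgroup.card_le_of_le (inf_le_left : (P : Subgroup G) ⊓ (R : Subgroup G) ≤ P)
    omega
  by_cases hne : Q = P
  · subst hne
    exact ⟨1, Chain.nil _ inf_le_left, one_smul _ _⟩
  by_cases hPN : ¬ p ∣ ((P : Subgroup G) ⊓ Subgroup.normalizer
        (((P : Subgroup G) ⊓ (Q : Subgroup G) : Subgroup G) : Set G)).relIndex
      (Subgroup.normalizer (((P : Subgroup G) ⊓ (Q : Subgroup G) : Subgroup G) : Set G))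
  · exact step2 P Q hne hPN IH
  clear hPN h ih
  generalize hH : ((P : Subgroup G) ⊓ (Q : Subgroup G) : Subgroup G) = H at IH ⊢
  have hHP : H ≤ (P : Subgroup G) := hH ▸ inf_le_left
  have hHQ : H ≤ (Q : Subgroup G) := hH ▸ inf_le_right
  have hHltP : H < (P : Subgroup G) := by
    refine lt_of_le_of_ne hHP (fun h => hne (sylow_eq_of_le ?_).symm)
    rw [← h]; exact hHQ
  have hPN' : H < (P : Subgroup G) ⊓ Subgroup.normalizer (H : Set G) := lt_inf_normalizer P.2 hHltP
  obtain ⟨T₁, hT₁p, hPNT₁, hT₁N, hT₁idx⟩ :=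
    exists_sylowOf (N := Subgroup.normalizer (H : Set G))
      (P.2.to_le (inf_le_left : (P : Subgroup G) ⊓ Subgroup.normalizer (H : Set G) ≤ P)) inf_le_right
  obtain ⟨S, hT₁S⟩ := hT₁p.exists_le_sylow
  have hlt : Nat.card H < Nat.card ((P : Subgroup G) ⊓ (S : Subgroup G) : Subgroup G) :=
    lt_of_lt_of_le (card_lt_of_lt hPN')
      (Subgroup.card_le_of_le (le_inf inf_le_left (hPNT₁.trans hT₁S)))
  have hHS : H ≤ (S : Subgroup G) := hPN'.le.trans (hPNT₁.trans hT₁S)
  obtain ⟨x, hx, hxS⟩ := IH S hlt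
  have hxH : Chain p P H x := hx.mono (le_inf hHP hHS)
  have hPx : (P : Subgroup G) = MulAut.conj x • (S : Subgroup G) := by
    rw [← Sylow.coe_subgroup_smul, hxS]
  have hle : MulAut.conj x • H ≤ (P : Subgroup G) ⊓ ((x • Q : Sylow p G) : Subgroup G) := by
    refine le_inf hxH.conj_le ?_
    rw [Sylow.coe_subgroup_smul]
    exact Subgroup.pointwise_smul_le_pointwise_smul_iff.mpr hHQ
  by_cases hlt2 : Nat.card H < Nat.card ((P : Subgroup G) ⊓ ((x • Q : Sylow p G) : Subgroup G) : Subgroup G)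
  · obtain ⟨y, hy, hyQ⟩ := IH (x • Q) hlt2
    exact ⟨y * x, Chain.trans hxH (hy.mono hle), by rw [mul_smul, hyQ]⟩
  · have heq : MulAut.conj x • H = (P : Subgroup G) ⊓ ((x • Q : Sylow p G) : Subgroup G) := by
      apply Subgroup.eq_of_le_of_card_ge hle
      rw [card_conj_smul]
      exact not_lt.mp hlt2
    have hne1 : x • Q ≠ P := by
      intro h
      rw [h, inf_idem] at heq
      have h1 := card_conj_smul H x
      rw [heq] at h1
      have h2 := card_lt_of_lt hHltP
      omega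
    have hPN1 : ¬ p ∣ ((P : Subgroup G) ⊓ Subgroup.normalizer
        (((P : Subgroup G) ⊓ ((x • Q : Sylow p G) : Subgroup G) : Subgroup G) : Set G)).relIndex
        (Subgroup.normalizer (((P : Subgroup G) ⊓ ((x • Q : Sylow p G) : Subgroup G) : Subgroup G) : Set G)) := by
      rw [← heq, normalizer_conj_smul]
      intro hdvd
      apply hT₁idx
      have h1 : MulAut.conj x • T₁ ≤ (P : Subgroup G) ⊓ MulAut.conj x • Subgroup.normalizer (H : Set G) := by
        refine le_inf ?_ (Subgroup.pointwise_smul_le_pointwise_smul_iff.mpr hT₁N)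
        rw [hPx]
        exact Subgroup.pointwise_smul_le_pointwise_smul_iff.mpr hT₁S
      have h2 := Subgroup.relIndex_dvd_of_le_left (MulAut.conj x • Subgroup.normalizer (H : Set G)) h1
      rw [Subgroup.relIndex_pointwise_smul] at h2
      exact hdvd.trans h2
    have IH1 : ∀ R : Sylow p G, Nat.card ((P : Subgroup G) ⊓ ((x • Q : Sylow p G) : Subgroup G) : Subgroup G) <
        Nat.card ((P : Subgroup G) ⊓ (R : Subgroup G) : Subgroup G) →
        ∃ x, Chain p P ((P : Subgroup G) ⊓ (R : Subgroup G)) x ∧ x • R = P := by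
      intro R hR
      apply IH R
      rw [← heq, card_conj_smul] at hR
      exact hR
    obtain ⟨y, hy, hyQ⟩ := step2 P (x • Q) hne1 hPN1 IH1
    refine ⟨y * x, Chain.trans hxH ?_, by rw [mul_smul, hyQ]⟩
    rw [heq]; exact hy


/-- Fusion form of Alperin's theorem: if `B` and `g B g⁻¹` lie in `P` then `g = y * x` with
`y ∈ N_G(P)` and `x` a chain element for `B`. -/
theorem alperin_fusion [Finite G] (P : Sylow p G) (B : Subgroup G) (g : G)
    (hB : B ≤ (P : Subgroup G)) (hg : MulAut.conj g • B ≤ (P : Subgroup G)) :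
    ∃ x y, Chain p P B x ∧ y ∈ Subgroup.normalizer ((P : Subgroup G) : Set G) ∧ g = y * x := by
  obtain ⟨x, hx, hxQ⟩ := alperin P (g⁻¹ • P)
  refine ⟨x, g * x⁻¹, hx.mono (le_inf hB ?_), ?_, by group⟩
  · rw [Sylow.coe_subgroup_smul, map_inv, Subgroup.subset_pointwise_smul_iff, inv_inv]
    exact hg
  · apply mem_normalizer_of_conj_smul_eq
    have h1 : (g * x⁻¹) • P = P := by
      rw [mul_smul]
      have : x⁻¹ • P = g⁻¹ • P := (eq_inv_smul_iff.mpr hxQ).symm
      rw [this, smul_inv_smul]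
    rw [← Sylow.coe_subgroup_smul, h1]

/-- List form of a chain: the list holds the pairs `(Q_i, z_i⁻¹)` in the order they are applied. -/
def Good (p : ℕ) [Fact p.Prime] (P : Sylow p G) (B : Subgroup G) (x : G)
    (l : List (Sylow p G × G)) : Prop :=
  ((l.map Prod.snd).prod)⁻¹ = x ∧
  (∀ q ∈ l, q.2 ∈ Subgroup.normalizer
      ((((P : Subgroup G) ⊓ (q.1 : Subgroup G)) : Subgroup G) : Set G) ∧
    Tame p (P : Subgroup G) (q.1 : Subgroup G)) ∧
  ∀ (j : ℕ) (h : j < l.length), ∀ a ∈ B,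
    (((l.map Prod.snd).take j).prod)⁻¹ * a * ((l.map Prod.snd).take j).prod ∈
      (P : Subgroup G) ⊓ ((l[j]).1 : Subgroup G)

lemma Good.snoc {B : Subgroup G} {x : G} {l : List (Sylow p G × G)} (h : Good p P B x l)
    (Q : Sylow p G) (z : G)
    (hz : z ∈ Subgroup.normalizer ((((P : Subgroup G) ⊓ (Q : Subgroup G)) : Subgroup G) : Set G))
    (hQ : Tame p (P : Subgroup G) (Q : Subgroup G))
    (hB : MulAut.conj x • B ≤ (P : Subgroup G) ⊓ (Q : Subgroup G)) :
    Good p P B (z * x) (l ++ [(Q, z⁻¹)]) := by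
  obtain ⟨h1, h2, h3⟩ := h
  have h1' : (l.map Prod.snd).prod = x⁻¹ := by rw [← h1, inv_inv]
  refine ⟨?_, ?_, ?_⟩
  · rw [List.map_append, List.prod_append, List.map_singleton, List.prod_singleton, mul_inv_rev,
      inv_inv, h1]
  · intro q hq
    rcases List.mem_append.mp hq with hq | hq
    · exact h2 q hq
    · rw [List.mem_singleton] at hq
      subst hq
      exact ⟨Subgroup.inv_mem _ hz, hQ⟩
  · intro j hj a ha
    have hj2 : j < l.length + 1 := by
      rw [List.length_append, List.length_singleton] at hj; exact hj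
    rcases Nat.lt_succ_iff_lt_or_eq.mp hj2 with hj' | hj'
    · have e1 : ((l ++ [(Q, z⁻¹)]).map Prod.snd).take j = (l.map Prod.snd).take j := by
        rw [List.map_append, List.take_append_of_le_length (by rw [List.length_map]; exact hj'.le)]
      have e2 : (l ++ [(Q, z⁻¹)])[j] = l[j] := List.getElem_append_left hj'
      rw [e1, e2]
      exact h3 j hj' a ha
    · subst hj'
      have e1 : ((l ++ [(Q, z⁻¹)]).map Prod.snd).take l.length = l.map Prod.snd := by
        rw [List.map_append]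
        exact List.take_left' (by rw [List.length_map])
      have e2 : (l ++ [(Q, z⁻¹)])[l.length] = (Q, z⁻¹) := by simp
      rw [e1, e2, h1', inv_inv]
      exact hB (Subgroup.smul_mem_pointwise_smul a (MulAut.conj x) B ha)

lemma good_of_chain {B : Subgroup G} {x : G} (h : Chain p P B x) :
    ∃ l : List (Sylow p G × G), Good p P B x l := by
  induction h with
  | nil hB => exact ⟨[], by simp [Good]⟩
  | cons x z Q hx hQ hz hzp hB ih =>
    obtain ⟨l, hl⟩ := ih
    exact ⟨_, hl.snoc Q z hz hQ hB⟩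

lemma tame_self [Finite G] (P : Sylow p G) : Tame p (P : Subgroup G) (P : Subgroup G) := by
  have h1 : ¬ p ∣ ((P : Subgroup G) ⊓ Subgroup.normalizer
      ((((P : Subgroup G) ⊓ (P : Subgroup G)) : Subgroup G) : Set G)).relIndex
      (Subgroup.normalizer ((((P : Subgroup G) ⊓ (P : Subgroup G)) : Subgroup G) : Set G)) := by
    rw [inf_idem, inf_of_le_left Subgroup.le_normalizer]
    exact fun hdvd => P.not_dvd_index
      (hdvd.trans (Subgroup.relIndex_dvd_index_of_le Subgroup.le_normalizer))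
  exact ⟨h1, h1⟩

/-- The Alperin fusion Theorem states that conjugation between subsets of a Sylow p-subgroup P factors through normalizers of tame intersections P ∩ Q_i with other Sylow p-subgroups, carrying the subset along step by step. -/
theorem result {G : Type*} [Group G] [Finite G] {p : ℕ} [Fact p.Prime] (P : Sylow p G) (A : Set G) (g : G) (hA : A ⊆ (P : Set G)) (hAg : (fun a => g⁻¹ * a * g) '' A ⊆ (P : Set G)) : ∃ (n : ℕ) (Q : Fin n → Sylow p G) (x : Fin n → G), (List.ofFn x).prod = g ∧ (∀ i : Fin n, x i ∈ Subgroup.normalizer ((((P : Subgroup G) ⊓ (Q i : Subgroup G)) : Subgroup G) : Set G) ∧ ¬ p ∣ ((P : Subgroup G) ⊓ Subgroup.normalizer ((((P : Subgroup G) ⊓ (Q i : Subgroup G)) : Subgroup G) : Set G)).relIndex (Subgroup.normalizer ((((P : Subgroup G) ⊓ (Q i : Subgroup G)) : Subgroup G) : Set G)) ∧ ¬ p ∣ ((Q i : Subgroup G) ⊓ Subgroup.normalizer ((((P : Subgroup G) ⊓ (Q i : Subgroup G)) : Subgroup G) : Set G)).relIndex (Subgroup.normalizer ((((P : Subgroup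 G) ⊓ (Q i : Subgroup G)) : Subgroup G) : Set G))) ∧ (∀ h : 0 < n, A ⊆ (((P : Subgroup G) ⊓ (Q ⟨0, h⟩ : Subgroup G) : Subgroup G) : Set G)) ∧ ∀ i : Fin n, ∀ h : i.val + 1 < n, (fun a => (((List.ofFn x).take (i.val + 1)).prod)⁻¹ * a * ((List.ofFn x).take (i.val + 1)).prod) '' A ⊆ (((P : Subgroup G) ⊓ (Q ⟨i.val + 1, h⟩ : Subgroup G) : Subgroup G) : Set G) := by
  have hB : Subgroup.closure A ≤ (P : Subgroup G) := (Subgroup.closure_le _).mpr hA
  have hconj : ∀ b ∈ Subgroup.closure A, g⁻¹ * b * g ∈ (P : Subgroup G) := by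
    intro b hb
    induction hb using Subgroup.closure_induction with
    | mem a ha => exact hAg ⟨a, ha, rfl⟩
    | one => simp
    | mul a b _ _ ha hb =>
      have e : g⁻¹ * (a * b) * g = (g⁻¹ * a * g) * (g⁻¹ * b * g) := by group
      rw [e]; exact Subgroup.mul_mem _ ha hb
    | inv a _ ha =>
      have e : g⁻¹ * a⁻¹ * g = (g⁻¹ * a * g)⁻¹ := by group
      rw [e]; exact Subgroup.inv_mem _ ha
  have hg : MulAut.conj g⁻¹ • Subgroup.closure A ≤ (P : Subgroup G) := by
    intro y hy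
    rw [Subgroup.mem_smul_pointwise_iff_exists] at hy
    obtain ⟨b, hb, rfl⟩ := hy
    have := hconj b hb
    simpa [MulAut.smul_def] using this
  obtain ⟨x, y, hch, hy, hgxy⟩ := alperin_fusion P (Subgroup.closure A) g⁻¹ hB hg
  obtain ⟨l, hl⟩ := good_of_chain hch
  have hl' := hl.snoc P y (by rw [inf_idem]; exact hy) (tame_self P)
    (by rw [inf_idem]; exact hch.conj_le)
  obtain ⟨h1, h2, h3⟩ := hl'
  have e : List.ofFn (fun i : Fin (l ++ [(P, y⁻¹)]).length => ((l ++ [(P, y⁻¹)]).get i).2) =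
      (l ++ [(P, y⁻¹)]).map Prod.snd := by
    have e0 : (fun i : Fin (l ++ [(P, y⁻¹)]).length => ((l ++ [(P, y⁻¹)]).get i).2) =
        Prod.snd ∘ (l ++ [(P, y⁻¹)]).get := rfl
    rw [e0, ← List.map_ofFn, List.ofFn_get]
  refine ⟨(l ++ [(P, y⁻¹)]).length, fun i => ((l ++ [(P, y⁻¹)]).get i).1,
    fun i => ((l ++ [(P, y⁻¹)]).get i).2, ?_, ?_, ?_, ?_⟩
  · rw [e, ← inv_inj, h1, hgxy]
  · intro i
    have h4 := h2 _ (List.get_mem (l ++ [(P, y⁻¹)]) i)
    exact ⟨h4.1, h4.2.1, h4.2.2⟩
  · intro h a ha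
    have h5 := h3 0 h a (Subgroup.subset_closure ha)
    simp only [List.take_zero, List.map_nil, List.prod_nil, inv_one, one_mul, mul_one] at h5
    exact h5
  · rintro i h _ ⟨a, ha, rfl⟩
    have h5 := h3 (i.val + 1) h a (Subgroup.subset_closure ha)
    rw [e]
    exact h5

end Cfsg.Agent.S0116
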