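import Cfsg.Statements.S0119
import Mathlib

set_option autoImplicit false
open Cfsg

namespace Cfsg.Agent.S0119

open scoped commutatorElement

section
variable {P : Type*} [Group P]

theorem pow_mul_comm2 (x y : P) (hc : ∀ g, ⁅y, x⁆ * g = g * ⁅y, x⁆) (n : ℕ) :
    y ^ n * x = ⁅y, x⁆ ^ n * x * y ^ n := by
  have hyx : y * x = ⁅y, x⁆ * x * y := by rw [commutatorElement_def]; group
  induction n with
  | zero => simp
  | succ n ih =>
    calc y ^ (n + 1) * x = y ^ n * (y * x) := by rw [pow_succ, mul_assoc]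
      _ = y ^ n * (⁅y, x⁆ * x * y) := by rw [hyx]
      _ = ⁅y, x⁆ * (y ^ n * x) * y := by
        rw [mul_assoc ⁅y, x⁆ x y, ← mul_assoc (y ^ n), ← hc (y ^ n)]; simp only [mul_assoc]
      _ = ⁅y, x⁆ * (⁅y, x⁆ ^ n * x * y ^ n) * y := by rw [ih]
      _ = ⁅y, x⁆ ^ (n + 1) * x * y ^ (n + 1) := by
        rw [pow_succ' ⁅y, x⁆, pow_succ y]; simp only [mul_assoc]

theorem comm_pow_left2 (x y : P) (hc : ∀ g, ⁅y, x⁆ * g = g * ⁅y, x⁆) (n : ℕ) :
    ⁅y ^ n, x⁆ = ⁅y, x⁆ ^ n := by
  rw [commutatorElement_def (y ^ n) x, pow_mul_comm2 x y hc n]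
  simp only [mul_assoc, mul_inv_cancel, mul_one]

theorem mul_pow_class2 (x y : P) (hc : ∀ g, ⁅y, x⁆ * g = g * ⁅y, x⁆) (n : ℕ) :
    (x * y) ^ n = x ^ n * y ^ n * ⁅y, x⁆ ^ (n.choose 2) := by
  induction n with
  | zero => simp
  | succ n ih =>
    have hcn : ∀ (k : ℕ) (g : P), ⁅y, x⁆ ^ k * g = g * ⁅y, x⁆ ^ k := fun k g =>
      ((show Commute ⁅y, x⁆ g from hc g).pow_left k).eq
    calc (x * y) ^ (n + 1) = x ^ n * y ^ n * ⁅y, x⁆ ^ (n.choose 2) * (x * y) := by
          rw [pow_succ, ih]
      _ = x ^ n * (y ^ n * x) * y * ⁅y, x⁆ ^ (n.choose 2) := by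
          rw [mul_assoc (x ^ n * y ^ n), hcn (n.choose 2) (x * y)]; simp only [mul_assoc]
      _ = x ^ n * (⁅y, x⁆ ^ n * x * y ^ n) * y * ⁅y, x⁆ ^ (n.choose 2) := by
          rw [pow_mul_comm2 x y hc n]
      _ = x ^ (n + 1) * y ^ (n + 1) * (⁅y, x⁆ ^ (n.choose 2) * ⁅y, x⁆ ^ n) := by
          rw [hcn n x, pow_succ x, pow_succ y]
          simp only [mul_assoc]
          rw [hcn n (y ^ n * (y * ⁅y, x⁆ ^ (n.choose 2)))]
          simp only [mul_assoc]
      _ = x ^ (n + 1) * y ^ (n + 1) * ⁅y, x⁆ ^ ((n + 1).choose 2) := by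
          have : (n + 1).choose 2 = n.choose 2 + n := by
            rw [Nat.choose_succ_succ' n 1, Nat.choose_one_right, add_comm]
          rw [← pow_add, this]

end

theorem coatom_normal_index {P : Type*} [Group P] [Finite P] {p : ℕ} [Fact p.Prime]
    (hP : IsPGroup p P) (M : Subgroup P) (hM : IsCoatom M) : M.Normal ∧ M.index = p := by
  have hpp : p.Prime := Fact.out
  have hnil : Group.IsNilpotent P := hP.isNilpotent
  have hn : M.Normal :=
    Subgroup.NormalizerCondition.normal_of_coatom M Group.normalizerCondition_of_isNilpotent hM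
  refine ⟨hn, ?_⟩
  obtain ⟨N, hN⟩ := IsPGroup.iff_card.mp hP
  obtain ⟨n, hn'⟩ := IsPGroup.iff_card.mp (hP.to_subgroup M)
  have hlt : n < N := by
    have h1 : Nat.card M < Nat.card P :=
      lt_of_le_of_ne (Subgroup.card_le_card_group M)
        (fun h => hM.1 ((Subgroup.card_eq_iff_eq_top M).mp h))
    rw [hn', hN] at h1
    exact (Nat.pow_lt_pow_iff_right hpp.one_lt).mp h1
  obtain ⟨K, hK, hMK⟩ := Sylow.exists_subgroup_card_pow_succ (p := p) (n := n)
    (by rw [hN]; exact pow_dvd_pow p hlt) hn'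
  have hKtop : K = ⊤ := by
    rcases hM.le_iff.mp hMK with h | h
    · exact h
    · exfalso
      rw [h, hn'] at hK
      have := Nat.pow_right_injective hpp.two_le hK
      omega
  have hcard : Nat.card P = p ^ (n + 1) := by rw [← hK, hKtop, Subgroup.card_top]
  have h2 := M.card_mul_index
  rw [hn', hcard, pow_succ] at h2
  exact Nat.eq_of_mul_eq_mul_left (pow_pos hpp.pos n) h2

theorem pow_mem_frattini {P : Type*} [Group P] [Finite P] {p : ℕ} [Fact p.Prime]
    (hP : IsPGroup p P) (x : P) : x ^ p ∈ frattini P := by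
  simp only [frattini, Order.radical, Subgroup.mem_iInf]
  intro M hM
  obtain ⟨hn, hi⟩ := coatom_normal_index hP M hM
  have h1 : (QuotientGroup.mk' M x) ^ p = 1 := by
    have h := pow_card_eq_one' (G := P ⧸ M) (x := QuotientGroup.mk' M x)
    rwa [← Subgroup.index_eq_card, hi] at h
  rw [← map_pow] at h1
  exact (QuotientGroup.eq_one_iff _).mp h1

theorem comm_mem_frattini {P : Type*} [Group P] [Finite P] {p : ℕ} [Fact p.Prime]
    (hP : IsPGroup p P) (x y : P) : ⁅x, y⁆ ∈ frattini P := by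
  have hpp : p.Prime := Fact.out
  simp only [frattini, Order.radical, Subgroup.mem_iInf]
  intro M hM
  obtain ⟨hn, hi⟩ := coatom_normal_index hP M hM
  have hcard : Nat.card (P ⧸ M) = p := by rw [← Subgroup.index_eq_card, hi]
  have hcyc : IsCyclic (P ⧸ M) := isCyclic_of_prime_card hcard
  have hcomm : ∀ a b : P ⧸ M, a * b = b * a := fun a b => by
    obtain ⟨g, hg⟩ := hcyc.exists_generator
    obtain ⟨i, rfl⟩ := Subgroup.mem_zpowers_iff.mp (hg a)
    obtain ⟨j, rfl⟩ := Subgroup.mem_zpowers_iff.mp (hg b)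
    rw [← zpow_add, ← zpow_add, add_comm]
  have h1 : QuotientGroup.mk' M ⁅x, y⁆ = 1 := by
    rw [commutatorElement_def, map_mul, map_mul, map_mul, map_inv, map_inv,
      hcomm (QuotientGroup.mk' M x) (QuotientGroup.mk' M y)]
    group
  exact (QuotientGroup.eq_one_iff _).mp h1


theorem frattini_le_of_elementary {H : Type*} [Group H] [Finite H] {p : ℕ} [Fact p.Prime]
    (N : Subgroup H) (hcomm : commutator H ≤ N) (hpow : ∀ y : H, y ^ p ∈ N) :
    frattini H ≤ N := by
  have hpp : p.Prime := Fact.out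
  intro x hx
  by_contra hxN
  have hne : Nonempty {K : Subgroup H // N ≤ K ∧ x ∉ K} := ⟨⟨N, le_rfl, hxN⟩⟩
  obtain ⟨⟨K, hNK, hxK⟩, hmax⟩ :=
    Finite.exists_max (fun K : {K : Subgroup H // N ≤ K ∧ x ∉ K} => Nat.card K.1)
  have hmax' : ∀ L : Subgroup H, K < L → x ∈ L := by
    intro L hKL
    by_contra hxL
    have h1 := hmax ⟨L, hNK.trans hKL.le, hxL⟩
    have h2 : K = L := Subgroup.eq_of_le_of_card_ge hKL.le h1
    exact hKL.ne h2
  have hKn : K.Normal := Subgroup.Normal.of_commutator_le H (hcomm.trans hNK)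
  have hcoatom : IsCoatom K := by
    refine ⟨fun h => hxK (h ▸ Subgroup.mem_top x), fun L hKL => ?_⟩
    have hxL := hmax' L hKL
    rw [eq_top_iff]
    intro y _
    by_cases hyK : y ∈ K
    · exact hKL.le hyK
    · have hlt : K < K ⊔ Subgroup.zpowers y := by
        refine lt_of_le_of_ne le_sup_left (fun h => hyK ?_)
        rw [h]; exact Subgroup.mem_sup_right (Subgroup.mem_zpowers y)
      have hx' := hmax' _ hlt
      rw [Subgroup.mem_sup_of_normal_left] at hx'
      obtain ⟨k, hk, z, hz, hkz⟩ := hx'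
      obtain ⟨i, rfl⟩ := Subgroup.mem_zpowers_iff.mp hz
      have hyiL : y ^ i ∈ L := by
        have h3 : y ^ i = k⁻¹ * x := by rw [← hkz]; group
        rw [h3]; exact L.mul_mem (L.inv_mem (hKL.le hk)) hxL
      have hnd : ¬ (p : ℤ) ∣ i := by
        rintro ⟨j, rfl⟩
        apply hxK
        rw [← hkz]
        apply K.mul_mem hk
        rw [zpow_mul, zpow_natCast]
        exact K.zpow_mem (hNK (hpow y)) j
      have hcop : IsCoprime i (p : ℤ) := by
        rw [Int.isCoprime_iff_gcd_eq_one, Int.gcd_comm]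
        have h1 : ¬ p ∣ i.natAbs := fun h => hnd (Int.natCast_dvd.mpr h)
        have h2 : Nat.Coprime p i.natAbs := (Nat.Prime.coprime_iff_not_dvd hpp).mpr h1
        simpa [Int.gcd] using h2
      obtain ⟨u, v, huv⟩ := hcop
      have h4 : y = (y ^ i) ^ u * (y ^ p) ^ v := by
        rw [← zpow_mul, ← zpow_natCast y p, ← zpow_mul, ← zpow_add, mul_comm i u,
          mul_comm (p : ℤ) v, huv, zpow_one]
      rw [h4]
      exact L.mul_mem (L.zpow_mem hyiL u) (L.zpow_mem (hKL.le (hNK (hpow y))) v)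
  exact hxK (frattini_le_coatom hcoatom hx)

theorem exists_rel_central {G : Type*} [Group G] [hnil : Group.IsNilpotent G] (N V : Subgroup G)
    [N.Normal] (h : ¬ N ≤ V) : ∃ x ∈ N, x ∉ V ∧ ∀ g : G, ⁅x, g⁆ ∈ V := by
  let c : ℕ → Subgroup G := fun k => Nat.rec N (fun _ K => ⁅K, (⊤ : Subgroup G)⁆) k
  have hc0 : c 0 = N := rfl
  have hcs : ∀ k, c (k + 1) = ⁅c k, (⊤ : Subgroup G)⁆ := fun k => rfl
  have hcN : ∀ k, c k ≤ N := by
    intro k
    induction k with
    | zero => exact le_rfl
    | succ k ih =>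
      rw [hcs]
      exact (Subgroup.commutator_mono ih le_rfl).trans (Subgroup.commutator_le_left N ⊤)
  have hcl : ∀ k, c k ≤ Subgroup.lowerCentralSeries (⊤ : Subgroup G) k := by
    intro k
    induction k with
    | zero => exact le_top
    | succ k ih =>
      rw [hcs, Subgroup.lowerCentralSeries_succ]
      exact Subgroup.commutator_mono ih le_rfl
  obtain ⟨n, hn⟩ := Subgroup.nilpotent_iff_lowerCentralSeries.mp hnil
  have hex : ∃ k, c k ≤ V := ⟨n, by have := hcl n; rw [hn] at this; exact this.trans bot_le⟩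
  have hfind : ∀ n, c n ≤ V → ∃ j, ¬ c j ≤ V ∧ c (j + 1) ≤ V := by
    intro n
    induction n with
    | zero => intro h0; exact absurd h0 h
    | succ n ih =>
      intro hn1
      rcases Classical.em (c n ≤ V) with hn0 | hn0
      · exact ih hn0
      · exact ⟨n, hn0, hn1⟩
  obtain ⟨k0, hk0⟩ := hex
  obtain ⟨j, hjn, hk⟩ := hfind k0 hk0
  obtain ⟨x, hx, hxV⟩ := SetLike.not_le_iff_exists.mp hjn
  refine ⟨x, hcN j hx, hxV, fun g => ?_⟩
  apply hk
  rw [hcs]
  exact Subgroup.commutator_mem_commutator hx (Subgroup.mem_top g)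

theorem closure_comm {G : Type*} [Group G] (T : Set G)
    (h : ∀ x ∈ T, ∀ y ∈ T, x * y = y * x) :
    ∀ a ∈ Subgroup.closure T, ∀ b ∈ Subgroup.closure T, a * b = b * a := by
  have h1 : Subgroup.closure T ≤ Subgroup.centralizer T := by
    rw [Subgroup.closure_le]
    intro x hx
    rw [SetLike.mem_coe, Subgroup.mem_centralizer_iff]
    intro y hy
    exact h y hy x hx
  have h2 : Subgroup.closure T ≤ Subgroup.centralizer (Subgroup.closure T : Set G) := by
    rw [Subgroup.closure_le]
    intro x hx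
    rw [SetLike.mem_coe, Subgroup.mem_centralizer_iff]
    intro y hy
    have := h1 hy
    rw [Subgroup.mem_centralizer_iff] at this
    exact (this x hx).symm
  intro a ha b hb
  have := h2 hb
  rw [Subgroup.mem_centralizer_iff] at this
  exact this a ha

theorem fixed_le_commutator {G : Type*} [Group G] [Finite G] {p : ℕ} [Fact p.Prime]
    (hG : IsPGroup p G) (A : Subgroup (MulAut G)) (hA : Nat.Coprime (Nat.card A) p)
    (hGA : Subgroup.closure {x : G | ∃ g : G, ∃ a ∈ A, x = g⁻¹ * a g} = ⊤)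
    (g : G) (hg : ∀ a ∈ A, a g = g) : g ∈ commutator G := by
  classical
  have hfin : Finite (MulAut G) :=
    Finite.of_injective (fun a : MulAut G => (a : G → G)) DFunLike.coe_injective
  have : Fintype A := Fintype.ofFinite A
  let π : G →* Abelianization G := Abelianization.of
  let ν : G →* Abelianization G := ∏ a : A, π.comp (a : MulAut G).toMonoidHom
  have hν : ∀ x, ν x = ∏ a : A, π ((a : MulAut G) x) := fun x => by
    simp [ν]
  have hinv : ∀ (b : A) (x : G), ν ((b : MulAut G) x) = ν x := by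
    intro b x
    rw [hν, hν]
    exact Fintype.prod_equiv (Equiv.mulRight b) _ _ (fun a => by simp [MulAut.mul_apply])
  have hker : ∀ x, ν x = 1 := by
    have h1 : (⊤ : Subgroup G) ≤ ν.ker := by
      rw [← hGA, Subgroup.closure_le]
      rintro _ ⟨x, a, ha, rfl⟩
      rw [SetLike.mem_coe, MonoidHom.mem_ker, map_mul, map_inv, hinv ⟨a, ha⟩ x, inv_mul_cancel]
    intro x
    exact h1 (Subgroup.mem_top x)
  have h1 : π g ^ Nat.card A = 1 := by
    have h2 := hker g
    rw [hν] at h2
    rw [← h2, Nat.card_eq_fintype_card, ← Finset.card_univ, ← Finset.prod_const]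
    exact Finset.prod_congr rfl (fun a _ => by rw [hg a a.2])
  obtain ⟨k, hk⟩ := hG g
  have h2 : π g ^ (p ^ k) = 1 := by rw [← map_pow, hk, map_one]
  have h3 := pow_gcd_eq_one.mpr ⟨h1, h2⟩
  rw [Nat.Coprime.pow_right k hA, pow_one] at h3
  rw [← Abelianization.ker_of G]
  exact MonoidHom.mem_ker.mpr h3

open scoped IsMulCommutative in
theorem comm_le_center {G : Type*} [Group G] [hnil : Group.IsNilpotent G]
    (hcen : ∀ H : Subgroup G, H.Characteristic → IsMulCommutative H → H ≤ Subgroup.center G) :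
    commutator G ≤ Subgroup.center G := by
  by_contra hnot
  obtain ⟨x, hx, hxZ, hxc⟩ := exists_rel_central (commutator G) (Subgroup.center G) hnot
  have hxK : x ∈ commutator G ⊓ Subgroup.upperCentralSeries G 2 := by
    refine ⟨hx, ?_⟩
    show x ∈ Subgroup.upperCentralSeries G (1 + 1)
    rw [Subgroup.mem_upperCentralSeries_succ_iff, Subgroup.upperCentralSeries_one]
    exact hxc
  have hKc : IsMulCommutative ↥(commutator G ⊓ Subgroup.upperCentralSeries G 2) := by
    refine ⟨⟨fun a b => Subtype.ext ?_⟩⟩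
    obtain ⟨a, ha1, ha2⟩ := a
    obtain ⟨b, hb1, hb2⟩ := b
    show a * b = b * a
    replace ha2 : a ∈ Subgroup.upperCentralSeries G (1 + 1) := ha2
    rw [Subgroup.mem_upperCentralSeries_succ_iff, Subgroup.upperCentralSeries_one] at ha2
    let φ : G →* Subgroup.center G := MonoidHom.mk' (fun g => ⟨⁅a, g⁆, ha2 g⟩) (by
      intro g h
      apply Subtype.ext
      show ⁅a, g * h⁆ = ⁅a, g⁆ * ⁅a, h⁆
      have h1 : g * ⁅a, h⁆ = ⁅a, h⁆ * g := Subgroup.mem_center_iff.mp (ha2 h) g
      calc ⁅a, g * h⁆ = ⁅a, g⁆ * (g * ⁅a, h⁆) * g⁻¹ := by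
            simp only [commutatorElement_def]; group
        _ = ⁅a, g⁆ * (⁅a, h⁆ * g) * g⁻¹ := by rw [h1]
        _ = ⁅a, g⁆ * ⁅a, h⁆ := by simp only [mul_assoc, mul_inv_cancel, mul_one])
    have h2 := Abelianization.commutator_subset_ker (A := Subgroup.center G) φ hb1
    have h3 : ⁅a, b⁆ = 1 := congrArg Subtype.val (MonoidHom.mem_ker.mp h2)
    exact (commutatorElement_eq_one_iff_commute.mp h3).eq
  exact hxZ (hcen _ inferInstance hKc hxK)

theorem pow_p_central {G : Type*} [Group G] [Finite G] {p : ℕ} [Fact p.Prime] (hG : IsPGroup p G)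
    (hcl2 : commutator G ≤ Subgroup.center G)
    (hcen : ∀ H : Subgroup G, H.Characteristic → IsMulCommutative H → H ≤ Subgroup.center G) :
    ∀ x : G, x ^ p ∈ Subgroup.center G := by
  have hcc : ∀ x y g : G, ⁅x, y⁆ * g = g * ⁅x, y⁆ := fun x y g =>
    (Subgroup.mem_center_iff.mp (hcl2 (Subgroup.commutator_mem_commutator (Subgroup.mem_top x)
      (Subgroup.mem_top y))) g).symm
  have step : ∀ k : ℕ, 1 ≤ k → (∀ x : G, x ^ (p ^ (k + 1)) ∈ Subgroup.center G) →
      ∀ x : G, x ^ (p ^ k) ∈ Subgroup.center G := by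
    intro k hk hk1 x
    have hSc : (Subgroup.closure (Set.range (fun x : G => x ^ (p ^ k)))).Characteristic := by
      rw [Subgroup.characteristic_iff_map_le]
      intro φ
      rw [MonoidHom.map_closure, Subgroup.closure_le]
      rintro _ ⟨_, ⟨y, rfl⟩, rfl⟩
      apply Subgroup.subset_closure
      exact ⟨φ y, by simp⟩
    have hHa : IsMulCommutative
        ↥(Subgroup.center G ⊔ Subgroup.closure (Set.range (fun x : G => x ^ (p ^ k)))) := by
      have hH : Subgroup.center G ⊔ Subgroup.closure (Set.range (fun x : G => x ^ (p ^ k))) =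
          Subgroup.closure ((Subgroup.center G : Set G) ∪ Set.range (fun x : G => x ^ (p ^ k))) := by
        rw [Subgroup.closure_union, Subgroup.closure_eq]
      have hT : ∀ a ∈ ((Subgroup.center G : Set G) ∪ Set.range (fun x : G => x ^ (p ^ k))),
          ∀ b ∈ ((Subgroup.center G : Set G) ∪ Set.range (fun x : G => x ^ (p ^ k))),
          a * b = b * a := by
        rintro a (ha | ⟨a, rfl⟩) b hb
        · exact (Subgroup.mem_center_iff.mp ha b).symm
        · rcases hb with hb | ⟨b, rfl⟩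
          · exact Subgroup.mem_center_iff.mp hb _
          · show a ^ (p ^ k) * b ^ (p ^ k) = b ^ (p ^ k) * a ^ (p ^ k)
            have e1 : ⁅a ^ (p ^ k), b ^ (p ^ k)⁆ = ⁅a, b ^ (p ^ k)⁆ ^ (p ^ k) :=
              comm_pow_left2 (b ^ (p ^ k)) a (hcc _ _) (p ^ k)
            have e2 : ⁅b ^ (p ^ k), a⁆ = ⁅b, a⁆ ^ (p ^ k) := comm_pow_left2 a b (hcc _ _) (p ^ k)
            have e3 : ⁅b ^ (p ^ k * p ^ k), a⁆ = ⁅b, a⁆ ^ (p ^ k * p ^ k) :=
              comm_pow_left2 a b (hcc _ _) (p ^ k * p ^ k)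
            have e4 : b ^ (p ^ k * p ^ k) ∈ Subgroup.center G := by
              have : p ^ k * p ^ k = p ^ (k + 1) * p ^ (k - 1) := by
                rw [← pow_add, ← pow_add]; congr 1; omega
              rw [this, pow_mul]
              exact Subgroup.pow_mem _ (hk1 b) _
            have e5 : ⁅b ^ (p ^ k * p ^ k), a⁆ = 1 :=
              commutatorElement_eq_one_iff_commute.mpr
                (Subgroup.mem_center_iff.mp e4 a).symm
            have e6 : ⁅a ^ (p ^ k), b ^ (p ^ k)⁆ = 1 := by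
              rw [e1, ← commutatorElement_inv (b ^ (p ^ k)) a, e2, inv_pow, ← pow_mul, ← e3, e5,
                inv_one]
            exact (commutatorElement_eq_one_iff_commute.mp e6).eq
      refine ⟨⟨fun a b => Subtype.ext ?_⟩⟩
      exact closure_comm _ hT a (hH ▸ a.2) b (hH ▸ b.2)
    exact hcen _ inferInstance hHa (Subgroup.mem_sup_right (Subgroup.subset_closure ⟨x, rfl⟩))
  obtain ⟨N, hN⟩ := IsPGroup.iff_card.mp hG
  have hdesc : ∀ j : ℕ, (∀ x : G, x ^ (p ^ (1 + j)) ∈ Subgroup.center G) →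
      ∀ x : G, x ^ (p ^ 1) ∈ Subgroup.center G := by
    intro j
    induction j with
    | zero => exact fun h => h
    | succ j ih =>
      intro h
      exact ih (step (1 + j) (by omega) (by simpa [add_assoc] using h))
  intro x
  have := hdesc N (fun y => by
    rw [add_comm, pow_succ, pow_mul, ← hN, pow_card_eq_one', one_pow]
    exact Subgroup.one_mem _) x
  simpa using this

/-- If a p'-group A of automorphisms of a p-group G satisfies G = [G, A] and acts trivially on every characteristic abelian subgroup, then G is special with centre equal to the fixed points of A. -/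
theorem result {G : Type*} [Group G] [Finite G] {p : ℕ} [Fact p.Prime] (hG : IsPGroup p G) (A : Subgroup (MulAut G)) (hA : Nat.Coprime (Nat.card A) p) (hGA : Subgroup.closure {x : G | ∃ g : G, ∃ a ∈ A, x = g⁻¹ * a g} = ⊤) (hchar : ∀ H : Subgroup G, H.Characteristic → IsMulCommutative H → ∀ a ∈ A, ∀ h ∈ H, a h = h) : Cfsg.IsSpecial p G ∧ (∀ g : G, (g ∈ Subgroup.center G ↔ ∀ a ∈ A, a g = g)) := by
  have hpp : p.Prime := Fact.out
  have hnil : Group.IsNilpotent G := hG.isNilpotent
  have hcen : ∀ H : Subgroup G, H.Characteristic → IsMulCommutative H →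
      H ≤ Subgroup.center G := by
    intro H hHc hHa
    have hHn : H.Normal := inferInstance
    have hfixH := hchar H hHc hHa
    have htop : (⊤ : Subgroup G) ≤ Subgroup.centralizer (H : Set G) := by
      rw [← hGA, Subgroup.closure_le]
      rintro _ ⟨g, a, ha, rfl⟩
      rw [SetLike.mem_coe, Subgroup.mem_centralizer_iff]
      intro d hd
      have h1 : g * d * g⁻¹ ∈ H := hHn.conj_mem d hd g
      have h2 := hfixH a ha _ h1
      rw [map_mul, map_mul, map_inv, hfixH a ha d hd] at h2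
      calc d * (g⁻¹ * a g) = g⁻¹ * (g * d * g⁻¹) * a g := by group
        _ = g⁻¹ * (a g * d * (a g)⁻¹) * a g := by rw [h2]
        _ = g⁻¹ * a g * d := by group
    intro h hh
    rw [Subgroup.mem_center_iff]
    intro g
    have := htop (Subgroup.mem_top g)
    rw [Subgroup.mem_centralizer_iff] at this
    exact (this h hh).symm
  have hZfix : ∀ g ∈ Subgroup.center G, ∀ a ∈ A, a g = g := fun g hg a ha =>
    hchar (Subgroup.center G) inferInstance inferInstance a ha g hg
  have hcl2 : commutator G ≤ Subgroup.center G := comm_le_center hcen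
  have hfixcomm : ∀ g, (∀ a ∈ A, a g = g) → g ∈ commutator G :=
    fixed_le_commutator hG A hA hGA
  have hCZ : commutator G = Subgroup.center G :=
    le_antisymm hcl2 (fun g hg => hfixcomm g (hZfix g hg))
  have hpow : ∀ x : G, x ^ p ∈ Subgroup.center G := pow_p_central hG hcl2 hcen
  refine ⟨⟨hG, ?_, hCZ⟩, fun g => ⟨fun hg a ha => hZfix g hg a ha, fun h => hcl2 (hfixcomm g h)⟩⟩
  apply le_antisymm
  · exact frattini_le_of_elementary (p := p) (Subgroup.center G) hcl2 hpow
  · rw [← hCZ, commutator_eq_closure, Subgroup.closure_le]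
    rintro _ ⟨x, y, rfl⟩
    exact comm_mem_frattini hG x y

end Cfsg.Agent.S0119
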