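import Cfsg.Statements.S0123
import Mathlib

set_option autoImplicit false
open Cfsg

namespace Cfsg.Agent.S0123

open scoped commutatorElement

section formula
variable {R : Type*} [Group R]

theorem pow_swap (a b c : R) (hc : ∀ g, c * g = g * c) (hab : a * b = b * a * c) (m : ℕ) :
    a ^ m * b = b * a ^ m * c ^ m := by
  induction m with
  | zero => simp
  | succ m ih =>
    have hcm : ∀ g, c ^ m * g = g * c ^ m := fun g =>
      ((show Commute c g from hc g).pow_left m).eq
    calc a ^ (m + 1) * b = a ^ m * (a * b) := by rw [pow_succ, mul_assoc]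
      _ = a ^ m * (b * a * c) := by rw [hab]
      _ = (a ^ m * b) * a * c := by simp only [mul_assoc]
      _ = (b * a ^ m * c ^ m) * a * c := by rw [ih]
      _ = b * a ^ m * (c ^ m * a) * c := by simp only [mul_assoc]
      _ = b * a ^ m * (a * c ^ m) * c := by rw [hcm a]
      _ = b * a ^ (m + 1) * c ^ (m + 1) := by
          rw [pow_succ a, pow_succ c]; simp only [mul_assoc]

theorem pow_swap_right (a b c : R) (hc : ∀ g, c * g = g * c) (hab : a * b = b * a * c) (m : ℕ) :
    a * b ^ m = b ^ m * a * c ^ m := by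
  induction m with
  | zero => simp
  | succ m ih =>
    have hcm : ∀ g, c ^ m * g = g * c ^ m := fun g =>
      ((show Commute c g from hc g).pow_left m).eq
    calc a * b ^ (m + 1) = (a * b ^ m) * b := by rw [pow_succ, mul_assoc]
      _ = (b ^ m * a * c ^ m) * b := by rw [ih]
      _ = b ^ m * a * (c ^ m * b) := by simp only [mul_assoc]
      _ = b ^ m * a * (b * c ^ m) := by rw [hcm b]
      _ = b ^ m * (a * b) * c ^ m := by simp only [mul_assoc]
      _ = b ^ m * (b * a * c) * c ^ m := by rw [hab]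
      _ = b ^ m * b * a * (c * c ^ m) := by simp only [mul_assoc]
      _ = b ^ (m + 1) * a * c ^ (m + 1) := by rw [pow_succ b, pow_succ' c]

theorem pow_swap2 (x y k e : R) (he : ∀ g, e * g = g * e) (hyx : y * x = x * y * k)
    (hky : k * y = y * k * e) (m : ℕ) :
    y ^ m * x = x * y ^ m * k ^ m * e ^ (m.choose 2) := by
  induction m with
  | zero => simp
  | succ m ih =>
    have hem : ∀ (j : ℕ) (g : R), e ^ j * g = g * e ^ j := fun j g =>
      ((show Commute e g from he g).pow_left j).eq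
    have hk := pow_swap k y e he hky m
    have hch : (m + 1).choose 2 = m + m.choose 2 := by
      rw [Nat.choose_succ_succ' m 1, Nat.choose_one_right]
    calc y ^ (m + 1) * x = y ^ m * (y * x) := by rw [pow_succ, mul_assoc]
      _ = y ^ m * (x * y * k) := by rw [hyx]
      _ = (y ^ m * x) * y * k := by simp only [mul_assoc]
      _ = (x * y ^ m * k ^ m * e ^ (m.choose 2)) * y * k := by rw [ih]
      _ = x * y ^ m * k ^ m * (e ^ (m.choose 2) * (y * k)) := by simp only [mul_assoc]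
      _ = x * y ^ m * k ^ m * ((y * k) * e ^ (m.choose 2)) := by rw [hem]
      _ = x * y ^ m * (k ^ m * y) * k * e ^ (m.choose 2) := by simp only [mul_assoc]
      _ = x * y ^ m * (y * k ^ m * e ^ m) * k * e ^ (m.choose 2) := by rw [hk]
      _ = x * y ^ m * y * k ^ m * (e ^ m * k) * e ^ (m.choose 2) := by simp only [mul_assoc]
      _ = x * y ^ m * y * k ^ m * (k * e ^ m) * e ^ (m.choose 2) := by rw [hem m k]
      _ = x * y ^ (m + 1) * k ^ (m + 1) * e ^ ((m + 1).choose 2) := by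
          rw [hch, pow_add e, pow_succ y, pow_succ k]; simp only [mul_assoc]

theorem mul_pow_class3 (x y k d e : R) (hd : ∀ g, d * g = g * d) (he : ∀ g, e * g = g * e)
    (hyx : y * x = x * y * k) (hkx : k * x = x * k * d) (hky : k * y = y * k * e) (n : ℕ) :
    (x * y) ^ n = x ^ n * y ^ n * k ^ (n.choose 2) * d ^ (n.choose 3) *
      e ^ (n.choose 2 + 2 * n.choose 3) := by
  induction n with
  | zero => simp
  | succ n ih =>
    have hdm : ∀ (j : ℕ) (g : R), d ^ j * g = g * d ^ j := fun j g =>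
      ((show Commute d g from hd g).pow_left j).eq
    have hem : ∀ (j : ℕ) (g : R), e ^ j * g = g * e ^ j := fun j g =>
      ((show Commute e g from he g).pow_left j).eq
    have Ra := pow_swap k x d hd hkx (n.choose 2)
    have Rc := pow_swap k y e he hky (n.choose 2)
    have Rcn := pow_swap k y e he hky n
    have Rb := pow_swap2 x y k e he hyx hky n
    have h2 : (n + 1).choose 2 = n + n.choose 2 := by
      rw [Nat.choose_succ_succ' n 1, Nat.choose_one_right]
    have h3 : (n + 1).choose 3 = n.choose 2 + n.choose 3 := by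
      rw [Nat.choose_succ_succ' n 2]
    rw [h2, h3, pow_succ, ih]
    generalize n.choose 2 = A at *
    generalize n.choose 3 = B at *
    calc x ^ n * y ^ n * k ^ A * d ^ B * e ^ (A + 2 * B) * (x * y)
        = x ^ n * y ^ n * k ^ A * (d ^ B * (e ^ (A + 2 * B) * (x * y))) := by
          simp only [mul_assoc]
      _ = x ^ n * y ^ n * k ^ A * ((x * y) * (d ^ B * e ^ (A + 2 * B))) := by
          rw [hem (A + 2 * B) (x * y), ← mul_assoc (d ^ B) (x * y), hdm B (x * y)]
          simp only [mul_assoc]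
      _ = x ^ n * y ^ n * (k ^ A * x) * y * (d ^ B * e ^ (A + 2 * B)) := by
          simp only [mul_assoc]
      _ = x ^ n * y ^ n * (x * k ^ A * d ^ A) * y * (d ^ B * e ^ (A + 2 * B)) := by rw [Ra]
      _ = x ^ n * (y ^ n * x) * k ^ A * (d ^ A * y) * (d ^ B * e ^ (A + 2 * B)) := by
          simp only [mul_assoc]
      _ = x ^ n * (x * y ^ n * k ^ n * e ^ A) * k ^ A * (y * d ^ A) *
            (d ^ B * e ^ (A + 2 * B)) := by rw [Rb, hdm A y]
      _ = x ^ n * x * y ^ n * k ^ n * (e ^ A * (k ^ A * y)) *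
            (d ^ A * (d ^ B * e ^ (A + 2 * B))) := by simp only [mul_assoc]
      _ = x ^ n * x * y ^ n * k ^ n * ((k ^ A * y) * e ^ A) *
            (d ^ A * (d ^ B * e ^ (A + 2 * B))) := by rw [hem A (k ^ A * y)]
      _ = x ^ n * x * y ^ n * k ^ n * ((y * k ^ A * e ^ A) * e ^ A) *
            (d ^ A * (d ^ B * e ^ (A + 2 * B))) := by rw [Rc]
      _ = x ^ n * x * y ^ n * (k ^ n * y) * k ^ A * (e ^ A * e ^ A) *
            (d ^ A * (d ^ B * e ^ (A + 2 * B))) := by simp only [mul_assoc]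
      _ = x ^ n * x * y ^ n * (y * k ^ n * e ^ n) * k ^ A * (e ^ A * e ^ A) *
            (d ^ A * (d ^ B * e ^ (A + 2 * B))) := by rw [Rcn]
      _ = x ^ n * x * (y ^ n * y) * k ^ n * (e ^ n * k ^ A) * (e ^ A * e ^ A) *
            (d ^ A * (d ^ B * e ^ (A + 2 * B))) := by simp only [mul_assoc]
      _ = x ^ n * x * (y ^ n * y) * k ^ n * (k ^ A * e ^ n) * (e ^ A * e ^ A) *
            (d ^ A * (d ^ B * e ^ (A + 2 * B))) := by rw [hem n (k ^ A)]
      _ = x ^ (n + 1) * y ^ (n + 1) * k ^ (n + A) *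
            (e ^ n * (e ^ A * e ^ A) * (d ^ A * (d ^ B * e ^ (A + 2 * B)))) := by
          rw [pow_succ x, pow_succ y, pow_add k]; simp only [mul_assoc]
      _ = x ^ (n + 1) * y ^ (n + 1) * k ^ (n + A) * d ^ (A + B) *
            e ^ (n + A + 2 * (A + B)) := by
          have htail : e ^ n * (e ^ A * e ^ A) * (d ^ A * (d ^ B * e ^ (A + 2 * B))) =
              d ^ (A + B) * e ^ (n + A + 2 * (A + B)) := by
            rw [← pow_add, ← pow_add, ← mul_assoc (d ^ A), ← pow_add, ← mul_assoc,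
              hem (n + (A + A)) (d ^ (A + B)), mul_assoc, ← pow_add]
            congr 2
            omega
          rw [htail]; simp only [mul_assoc]

end formula

/-- For a p-group of small class relative to p (class ≤ 2 with p odd, or class ≤ 3 with p > 3) whose derived subgroup is generated by elements of order dividing p, the p-th power map is multiplicative. -/
theorem result {R : Type*} [Group R] [Finite R] {p : ℕ} [Fact p.Prime] (hR : IsPGroup p R) (hcl : (p ≠ 2 ∧ ⁅commutator R, (⊤ : Subgroup R)⁆ = ⊥) ∨ (3 < p ∧ ⁅⁅commutator R, (⊤ : Subgroup R)⁆, (⊤ : Subgroup R)⁆ = ⊥)) (hder : commutator R ≤ Subgroup.closure {x : R | x ^ p = 1}) (x y : R) : (x * y) ^ p = x ^ p * y ^ p := by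
  have hpp : p.Prime := Fact.out
  have hkmem : ∀ a b : R, a⁻¹ * b⁻¹ * a * b ∈ commutator R := by
    intro a b
    have h1 : ⁅a⁻¹, b⁻¹⁆ ∈ commutator R := by
      rw [commutator_def]
      exact Subgroup.commutator_mem_commutator (Subgroup.mem_top _) (Subgroup.mem_top _)
    have e : ⁅a⁻¹, b⁻¹⁆ = a⁻¹ * b⁻¹ * a * b := by
      simp only [commutatorElement_def]; group
    rw [← e]; exact h1
  have hdmem : ∀ k ∈ commutator R, ∀ b : R, k⁻¹ * b⁻¹ * k * b ∈ ⁅commutator R, (⊤ : Subgroup R)⁆ := by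
    intro k hk b
    have h1 : ⁅k⁻¹, b⁻¹⁆ ∈ ⁅commutator R, (⊤ : Subgroup R)⁆ :=
      Subgroup.commutator_mem_commutator (Subgroup.inv_mem _ hk) (Subgroup.mem_top _)
    have e : ⁅k⁻¹, b⁻¹⁆ = k⁻¹ * b⁻¹ * k * b := by
      simp only [commutatorElement_def]; group
    rw [← e]; exact h1
  have hp2 : p ≠ 2 := by
    rcases hcl with ⟨h, -⟩ | ⟨h, -⟩
    · exact h
    · omega
  have hc2 : p ∣ p.choose 2 := hpp.dvd_choose_self (by norm_num)
    (lt_of_le_of_ne hpp.two_le (Ne.symm hp2))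
  -- (I) centrality and (II) divisibility facts
  have hI : ∀ z ∈ ⁅commutator R, (⊤ : Subgroup R)⁆, ∀ g : R, z * g = g * z := by
    intro z hz g
    rcases hcl with ⟨-, h⟩ | ⟨-, h⟩
    · rw [h, Subgroup.mem_bot] at hz
      rw [hz, one_mul, mul_one]
    · have h1 : ⁅z, g⁆ ∈ ⁅⁅commutator R, (⊤ : Subgroup R)⁆, (⊤ : Subgroup R)⁆ :=
        Subgroup.commutator_mem_commutator hz (Subgroup.mem_top _)
      rw [h, Subgroup.mem_bot] at h1
      exact (commutatorElement_eq_one_iff_commute.mp h1).eq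
  have hII : ∀ z ∈ ⁅commutator R, (⊤ : Subgroup R)⁆, z ^ p = 1 →
      z ^ (p.choose 3) = 1 ∧ z ^ (p.choose 2 + 2 * p.choose 3) = 1 := by
    intro z hz hzp
    rcases hcl with ⟨-, h⟩ | ⟨h3, -⟩
    · rw [h, Subgroup.mem_bot] at hz
      rw [hz, one_pow, one_pow]
      exact ⟨rfl, rfl⟩
    · have hc3 : p ∣ p.choose 3 := hpp.dvd_choose_self (by norm_num) h3
      obtain ⟨a, ha⟩ := hc3
      obtain ⟨b, hb⟩ := dvd_add hc2 (Dvd.dvd.mul_left (hpp.dvd_choose_self (by norm_num) h3) 2)
      rw [hb, ha, pow_mul, pow_mul, hzp, one_pow, one_pow]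
      exact ⟨rfl, rfl⟩
  -- basic relations
  have hrel : ∀ a b : R, b * a = a * b * (b⁻¹ * a⁻¹ * b * a) := fun a b => by group
  -- formula for general pair
  have hform : ∀ a b : R, (a * b) ^ p = a ^ p * b ^ p * (b⁻¹ * a⁻¹ * b * a) ^ (p.choose 2) *
      ((b⁻¹ * a⁻¹ * b * a)⁻¹ * a⁻¹ * (b⁻¹ * a⁻¹ * b * a) * a) ^ (p.choose 3) *
      ((b⁻¹ * a⁻¹ * b * a)⁻¹ * b⁻¹ * (b⁻¹ * a⁻¹ * b * a) * b) ^ (p.choose 2 + 2 * p.choose 3) := by
    intro a b
    exact mul_pow_class3 a b _ _ _ (hI _ (hdmem _ (hkmem b a) a)) (hI _ (hdmem _ (hkmem b a) b))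
      (hrel a b) (hrel a _) (hrel b _) p
  -- Step 3
  have hstep3 : ∀ a b : R, a ^ p = 1 → b ^ p = 1 → (a * b) ^ p = 1 := by
    intro a b ha hb
    have hdc := hI _ (hdmem _ (hkmem b a) a)
    have hec := hI _ (hdmem _ (hkmem b a) b)
    have hd1 : ((b⁻¹ * a⁻¹ * b * a)⁻¹ * a⁻¹ * (b⁻¹ * a⁻¹ * b * a) * a) ^ p = 1 := by
      have := pow_swap_right (b⁻¹ * a⁻¹ * b * a) a _ hdc (hrel a _) p
      rw [ha, mul_one, one_mul] at this
      exact (mul_eq_left.mp this.symm)
    have he1 : ((b⁻¹ * a⁻¹ * b * a)⁻¹ * b⁻¹ * (b⁻¹ * a⁻¹ * b * a) * b) ^ p = 1 := by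
      have := pow_swap_right (b⁻¹ * a⁻¹ * b * a) b _ hec (hrel b _) p
      rw [hb, mul_one, one_mul] at this
      exact (mul_eq_left.mp this.symm)
    have hk1 : (b⁻¹ * a⁻¹ * b * a) ^ p = 1 := by
      have := pow_swap2 a b _ _ hec (hrel a b) (hrel b _) p
      obtain ⟨c, hc⟩ := hc2
      rw [hb, one_mul, mul_one, hc, pow_mul, he1, one_pow, mul_one] at this
      exact (mul_eq_left.mp this.symm)
    obtain ⟨c, hc⟩ := hc2
    obtain ⟨h1, -⟩ := hII _ (hdmem _ (hkmem b a) a) hd1
    obtain ⟨-, h2⟩ := hII _ (hdmem _ (hkmem b a) b) he1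
    rw [hform a b, ha, hb, h1, h2, hc, pow_mul, hk1, one_pow]
    simp
  -- Step 4
  have hS : ∀ g ∈ Subgroup.closure {x : R | x ^ p = 1}, g ^ p = 1 := by
    intro g hg
    induction hg using Subgroup.closure_induction with
    | mem x hx => exact hx
    | one => exact one_pow _
    | mul x y _ _ ihx ihy => exact hstep3 x y ihx ihy
    | inv x _ ih => rw [inv_pow, ih, inv_one]
  have hR' : ∀ g ∈ commutator R, g ^ p = 1 := fun g hg => hS g (hder hg)
  have hle : ⁅commutator R, (⊤ : Subgroup R)⁆ ≤ commutator R :=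
    Subgroup.commutator_le_left _ _
  -- Step 5
  have hk1 := hR' _ (hkmem y x)
  have hd1 := hR' _ (hle (hdmem _ (hkmem y x) x))
  have he1 := hR' _ (hle (hdmem _ (hkmem y x) y))
  obtain ⟨c, hc⟩ := hc2
  obtain ⟨h1, -⟩ := hII _ (hdmem _ (hkmem y x) x) hd1
  obtain ⟨-, h2⟩ := hII _ (hdmem _ (hkmem y x) y) he1
  rw [hform x y, h1, h2, hc, pow_mul, hk1, one_pow]
  simp

end Cfsg.Agent.S0123
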