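import Cfsg.Statements.S0125
import Cfsg.Agent.Lib.Helper4.GrpAux

set_option autoImplicit false
open Cfsg

namespace Cfsg.Agent.S0125

/-- The centralizer of a self-centralizing normal subgroup A of a Sylow p-subgroup is the direct product of A with a normal p'-subgroup. -/
theorem result {G : Type*} [Group G] [Finite G] {p : ℕ} [Fact p.Prime] (R : Sylow p G) (A : Subgroup G) (hAR : A ≤ (R : Subgroup G)) (hAn : (R : Subgroup G) ≤ Subgroup.normalizer (A : Set G)) (hC : (R : Subgroup G) ⊓ Subgroup.centralizer (A : Set G) = A) : ∃ H : Subgroup G, H ≤ Subgroup.centralizer (A : Set G) ∧ Nat.Coprime (Nat.card H) p ∧ Subgroup.centralizer (A : Set G) ≤ Subgroup.normalizer (H : Set G) ∧ H ⊓ A = ⊥ ∧ H ⊔ A = Subgroup.centralizer (A : Set G) := by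
  classical
  have hp : p.Prime := Fact.out
  set C := Subgroup.centralizer (A : Set G) with hCdef
  have hAC : A ≤ C := by rw [← hC]; exact inf_le_right
  have hcomm : ∀ a ∈ A, ∀ c ∈ C, a * c = c * a := fun a ha c hc =>
    (Subgroup.mem_centralizer_iff.mp hc) a ha
  -- R normalizes C
  have hRC : (R : Subgroup G) ≤ Subgroup.normalizer (C : Set G) := by
    intro r hr
    have hr' := Subgroup.mem_normalizer_iff.mp (hAn hr)
    have key : ∀ s : G, (∀ h, h ∈ A ↔ s * h * s⁻¹ ∈ A) → ∀ x ∈ C, s * x * s⁻¹ ∈ C := by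
      intro s hs x hx
      rw [hCdef, Subgroup.mem_centralizer_iff]
      intro a ha
      have ha' : s⁻¹ * a * s ∈ A := by
        rw [hs]; simpa [mul_assoc] using ha
      have := hcomm _ ha' x hx
      calc a * (s * x * s⁻¹) = s * ((s⁻¹ * a * s) * x) * s⁻¹ := by group
        _ = s * (x * (s⁻¹ * a * s)) * s⁻¹ := by rw [this]
        _ = s * x * s⁻¹ * a := by group
    rw [Subgroup.mem_normalizer_iff]
    intro x
    constructor
    · exact key r hr' x
    · intro hx
      have hs : ∀ h, h ∈ A ↔ r⁻¹ * h * r⁻¹⁻¹ ∈ A := by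
        intro h
        rw [hr' (r⁻¹ * h * r⁻¹⁻¹)]
        simp [mul_assoc]
      have := key r⁻¹ hs _ hx
      simpa [mul_assoc] using this
  obtain ⟨m, hm, hpm⟩ := Cfsg.Agent.Lib.Helper4.sylow_inf_index_coprime R C hRC
  rw [hC] at hm
  -- work in C
  have hAn' : (A.subgroupOf C).Normal := by
    constructor
    intro a ha c
    rw [Subgroup.mem_subgroupOf] at ha ⊢
    have : ((c * a * c⁻¹ : C) : G) = (a : G) := by
      push_cast
      rw [← hcomm _ ha _ c.2]
      group
    rw [this]; exact ha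
  have hcardA : Nat.card (A.subgroupOf C) = Nat.card A :=
    Nat.card_congr (Subgroup.subgroupOfEquivOfLe hAC).toEquiv
  have hidx : (A.subgroupOf C).index = m := by
    have h1 := (A.subgroupOf C).card_mul_index
    rw [hcardA, hm] at h1
    exact Nat.eq_of_mul_eq_mul_left Nat.card_pos h1
  obtain ⟨k, hk⟩ := IsPGroup.iff_card.mp (R.2.to_le hAR)
  have hcop : Nat.Coprime (Nat.card (A.subgroupOf C)) (A.subgroupOf C).index := by
    rw [hcardA, hidx, hk]
    exact Nat.Coprime.pow_left k ((Nat.Prime.coprime_iff_not_dvd hp).mpr hpm)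
  obtain ⟨H₀, hH₀⟩ := Subgroup.exists_right_complement'_of_coprime hcop
  have hdecomp : ∀ c : C, ∃ a ∈ A.subgroupOf C, ∃ h ∈ H₀, a * h = c := by
    intro c
    have : c ∈ A.subgroupOf C ⊔ H₀ := by rw [hH₀.sup_eq_top]; trivial
    rw [← SetLike.mem_coe, Subgroup.normal_mul, Set.mem_mul] at this
    exact this
  have hconj : ∀ c ∈ C, ∀ x ∈ H₀.map C.subtype, c * x * c⁻¹ ∈ H₀.map C.subtype := by
    intro c hc x hx
    obtain ⟨h', hh', rfl⟩ := Subgroup.mem_map.mp hx
    obtain ⟨a, ha, h, hh, hah⟩ := hdecomp ⟨c, hc⟩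
    refine Subgroup.mem_map.mpr ⟨h * h' * h⁻¹, mul_mem (mul_mem hh hh') (inv_mem hh), ?_⟩
    have hc' : c = (a : G) * (h : G) := by
      have := congrArg Subtype.val hah
      simpa using this.symm
    rw [Subgroup.mem_subgroupOf] at ha
    have h2 := hcomm _ ha _ (h * h' * h⁻¹).2
    rw [hc']
    simp only [Subgroup.coe_subtype, Subgroup.coe_mul, Subgroup.coe_inv] at h2 ⊢
    calc (h : G) * h' * (h : G)⁻¹ = ((a : G) * ((h : G) * h' * (h : G)⁻¹)) * (a : G)⁻¹ := by
          rw [h2]; group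
      _ = (a : G) * (h : G) * h' * ((a : G) * (h : G))⁻¹ := by group
  refine ⟨H₀.map C.subtype, ?_, ?_, ?_, ?_, ?_⟩
  · intro x hx
    obtain ⟨h', -, rfl⟩ := Subgroup.mem_map.mp hx
    exact h'.2
  · have h1 : Nat.card (H₀.map C.subtype) = Nat.card H₀ :=
      Subgroup.card_map_of_injective C.subtype_injective
    have h2 : Nat.card H₀ = m := by
      have := hH₀.card_mul_card
      rw [hcardA, ← Subgroup.card_mul_index (A.subgroupOf C), hcardA, hidx] at this
      exact Nat.eq_of_mul_eq_mul_left Nat.card_pos this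
    rw [h1, h2]
    exact ((Nat.Prime.coprime_iff_not_dvd hp).mpr hpm).symm
  · intro c hc
    rw [Subgroup.mem_normalizer_iff]
    intro x
    constructor
    · exact hconj c hc x
    · intro hx
      have := hconj c⁻¹ (inv_mem hc) _ hx
      simpa [mul_assoc] using this
  · rw [eq_bot_iff]
    rintro x ⟨hx1, hx2⟩
    obtain ⟨h', hh', rfl⟩ := Subgroup.mem_map.mp hx1
    have : h' ∈ A.subgroupOf C ⊓ H₀ := ⟨Subgroup.mem_subgroupOf.mpr hx2, hh'⟩
    rw [hH₀.disjoint.eq_bot, Subgroup.mem_bot] at this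
    rw [this]; simp
  · refine le_antisymm (sup_le ?_ hAC) ?_
    · intro x hx
      obtain ⟨h', -, rfl⟩ := Subgroup.mem_map.mp hx
      exact h'.2
    · intro c hc
      obtain ⟨a, ha, h, hh, hah⟩ := hdecomp ⟨c, hc⟩
      have hc' : c = (a : G) * (h : G) := by
        have := congrArg Subtype.val hah
        simpa using this.symm
      rw [hc']
      exact mul_mem (Subgroup.mem_sup_right (Subgroup.mem_subgroupOf.mp ha))
        (Subgroup.mem_sup_left (Subgroup.mem_map.mpr ⟨h, hh, rfl⟩))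

end Cfsg.Agent.S0125
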