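-- Statement S0129: |G| ≤ p^(a(a+1)/2) for a p-group with a maximal normal abelian subgroup of order p^a.
import Cfsg.Statements.S0129
import Cfsg.Agent.Lib.Helper31.PGrp
import Mathlib

set_option autoImplicit false
set_option maxHeartbeats 400000
open Cfsg

namespace Cfsg.Agent.S0129

lemma arith (a : ℕ) : (a + 1) * a / 2 = a + a * (a - 1) / 2 := by
  cases a with
  | zero => rfl
  | succ b =>
    have h1 : (b + 1 + 1) * (b + 1) = (b + 1) * b + 2 * (b + 1) := by ring
    rw [h1, Nat.add_mul_div_left _ _ (by norm_num : 0 < 2), Nat.add_sub_cancel]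
    exact Nat.add_comm _ _

lemma arith2 (a : ℕ) : a + a * (a - 1) / 2 = a * (a + 1) / 2 := by
  rw [← arith, Nat.mul_comm]

/-- In a finite `p`-group, a normal subgroup of order `p ^ a` has a centralizer of index at most
`p ^ (a (a - 1) / 2)`. -/
theorem index_centralizer_le {G : Type*} [Group G] [Finite G] {p : ℕ} [Fact p.Prime]
    (hG : IsPGroup p G) :
    ∀ (a : ℕ) (A : Subgroup G), A.Normal → Nat.card A = p ^ a →
      (Subgroup.centralizer (A : Set G)).index ≤ p ^ (a * (a - 1) / 2) := by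
  intro a
  induction a with
  | zero =>
    intro A hAn hA
    have hbot : A = ⊥ := Subgroup.card_eq_one.mp (by simpa using hA)
    rw [hbot]
    have htop : Subgroup.centralizer (((⊥ : Subgroup G) : Subgroup G) : Set G) = ⊤ := by
      rw [eq_top_iff]
      intro g _
      rw [Subgroup.mem_centralizer_iff]
      intro y hy
      have hy1 : y = 1 := Subgroup.mem_bot.mp hy
      rw [hy1, one_mul, mul_one]
    rw [htop, Subgroup.index_top]
    exact Nat.one_le_pow _ _ (Fact.out : p.Prime).pos
  | succ a ih =>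
    intro A hAn hA
    have hp : p.Prime := Fact.out
    haveI := hAn
    haveI : Group.IsNilpotent G := hG.isNilpotent
    obtain ⟨A₁, hA₁A, hA₁n, hA₁card⟩ := Lib.Helper31.exists_normal_le_card_eq hG (N := A) (k := a)
      (by rw [hA]; exact Nat.pow_le_pow_right hp.pos (Nat.le_succ a))
    haveI := hA₁n
    have hnle : ¬ A ≤ A₁ := by
      intro hle
      have h1 := Subgroup.card_le_of_le hle
      rw [hA, hA₁card] at h1
      exact absurd h1 (not_le.mpr (Nat.pow_lt_pow_right hp.one_lt (Nat.lt_succ_self a)))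
    obtain ⟨x₀, hx₀A, hx₀A₁, hx₀⟩ := Lib.Helper31.exists_central_mod hnle
    have hx₀' : ∀ g : G, g * x₀ * g⁻¹ * x₀⁻¹ ∈ A₁ := by
      intro g
      have h1 := A₁.inv_mem (hx₀ g)
      have e : (x₀ * g * x₀⁻¹ * g⁻¹)⁻¹ = g * x₀ * g⁻¹ * x₀⁻¹ := by group
      rwa [e] at h1
    -- A = A₁ ⊔ ⟨x₀⟩
    have hAgen : A₁ ⊔ Subgroup.zpowers x₀ = A := by
      have hle : A₁ ⊔ Subgroup.zpowers x₀ ≤ A :=
        sup_le hA₁A (by rw [Subgroup.zpowers_le]; exact hx₀A)
      apply Subgroup.eq_of_le_of_card_ge hle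
      have hdvd : Nat.card (A₁ ⊔ Subgroup.zpowers x₀ : Subgroup G) ∣ p ^ (a + 1) := by
        rw [← hA]; exact Subgroup.card_dvd_of_le hle
      obtain ⟨j, hj, hjcard⟩ := (Nat.dvd_prime_pow hp).mp hdvd
      have hlt : A₁ < A₁ ⊔ Subgroup.zpowers x₀ := by
        apply lt_of_le_of_ne le_sup_left
        intro heq
        apply hx₀A₁
        rw [heq]
        exact Subgroup.mem_sup_right (Subgroup.mem_zpowers x₀)
      have hcardlt : Nat.card A₁ < Nat.card (A₁ ⊔ Subgroup.zpowers x₀ : Subgroup G) :=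
        Lib.Helper31.card_lt_card_of_lt hlt
      rw [hA₁card, hjcard] at hcardlt
      have hja : a < j := (Nat.pow_lt_pow_iff_right hp.one_lt).mp hcardlt
      have hj' : j = a + 1 := by omega
      rw [hA, hjcard, hj']
    obtain ⟨C₁, hC₁⟩ : ∃ C₁ : Subgroup G, C₁ = Subgroup.centralizer (A₁ : Set G) := ⟨_, rfl⟩
    obtain ⟨C, hC⟩ : ∃ C : Subgroup G, C = Subgroup.centralizer (A : Set G) := ⟨_, rfl⟩
    have hCC₁ : C ≤ C₁ := by
      rw [hC, hC₁]
      exact Subgroup.centralizer_le (by exact_mod_cast hA₁A)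
    have hih := ih A₁ hA₁n hA₁card
    rw [← hC₁] at hih
    have hrel : C.relIndex C₁ ≤ Nat.card A₁ := by
      rw [Subgroup.relIndex, Subgroup.index]
      let f : (C₁ ⧸ C.subgroupOf C₁) → A₁ := fun q => Quotient.liftOn' q
        (fun g : C₁ => (⟨(g : G) * x₀ * (g : G)⁻¹ * x₀⁻¹, hx₀' g⟩ : A₁)) (by
          intro g h hgh
          rw [QuotientGroup.leftRel_apply, Subgroup.mem_subgroupOf] at hgh
          have hgh' : ((g : G)⁻¹ * (h : G)) ∈ C := by simpa using hgh
          rw [hC, Subgroup.mem_centralizer_iff] at hgh'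
          have h1 := hgh' x₀ hx₀A
          apply Subtype.ext
          show (g : G) * x₀ * (g : G)⁻¹ * x₀⁻¹ = (h : G) * x₀ * (h : G)⁻¹ * x₀⁻¹
          have h2 : (h : G) * x₀ * (h : G)⁻¹ = (g : G) * x₀ * (g : G)⁻¹ := by
            calc (h : G) * x₀ * (h : G)⁻¹
                = (g : G) * (((g : G)⁻¹ * (h : G)) * x₀) * ((g : G)⁻¹ * (h : G))⁻¹ * (g : G)⁻¹ := by
                  group
              _ = (g : G) * (x₀ * ((g : G)⁻¹ * (h : G))) * ((g : G)⁻¹ * (h : G))⁻¹ * (g : G)⁻¹ := by
                  rw [← h1]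
              _ = (g : G) * x₀ * (g : G)⁻¹ := by group
          rw [h2])
      apply Nat.card_le_card_of_injective f
      intro q₁ q₂
      induction q₁ using Quotient.inductionOn' with
      | h g =>
      induction q₂ using Quotient.inductionOn' with
      | h h =>
      intro hfq
      have hfq' : (g : G) * x₀ * (g : G)⁻¹ * x₀⁻¹ = (h : G) * x₀ * (h : G)⁻¹ * x₀⁻¹ :=
        congrArg Subtype.val hfq
      apply Quotient.sound'
      rw [QuotientGroup.leftRel_apply, Subgroup.mem_subgroupOf]
      show ((g⁻¹ * h : C₁) : G) ∈ C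
      rw [Subgroup.coe_mul, Subgroup.coe_inv, hC, ← hAgen]
      have hgC₁ : (g : G) ∈ Subgroup.centralizer (A₁ : Set G) := by rw [← hC₁]; exact g.2
      have hhC₁ : (h : G) ∈ Subgroup.centralizer (A₁ : Set G) := by rw [← hC₁]; exact h.2
      have hk : (g : G)⁻¹ * (h : G) ∈ Subgroup.centralizer (A₁ : Set G) :=
        Subgroup.mul_mem _ (Subgroup.inv_mem _ hgC₁) hhC₁
      have hcx : (g : G) * x₀ * (g : G)⁻¹ = (h : G) * x₀ * (h : G)⁻¹ := mul_right_cancel hfq'
      have hsup : A₁ ⊔ Subgroup.zpowers x₀ ≤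
          Subgroup.centralizer ({(g : G)⁻¹ * (h : G)} : Set G) := by
        apply sup_le
        · intro y hy
          rw [Subgroup.mem_centralizer_iff]
          intro k hk'
          rw [Set.mem_singleton_iff] at hk'
          rw [hk']
          exact ((Subgroup.mem_centralizer_iff.mp hk) y hy).symm
        · rw [Subgroup.zpowers_le, Subgroup.mem_centralizer_iff]
          intro k hk'
          rw [Set.mem_singleton_iff] at hk'
          rw [hk']
          calc (g : G)⁻¹ * (h : G) * x₀ = (g : G)⁻¹ * ((h : G) * x₀ * (h : G)⁻¹) * (h : G) := by group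
            _ = (g : G)⁻¹ * ((g : G) * x₀ * (g : G)⁻¹) * (h : G) := by rw [hcx]
            _ = x₀ * ((g : G)⁻¹ * (h : G)) := by group
      rw [Subgroup.mem_centralizer_iff]
      intro y hy
      have h3 := Subgroup.mem_centralizer_iff.mp (hsup hy) _ (Set.mem_singleton _)
      exact h3.symm
    have hidx : C.index = C.relIndex C₁ * C₁.index := (Subgroup.relIndex_mul_index hCC₁).symm
    rw [← hC, hidx]
    calc C.relIndex C₁ * C₁.index ≤ p ^ a * p ^ (a * (a - 1) / 2) :=
          Nat.mul_le_mul (hA₁card ▸ hrel) hih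
      _ = p ^ ((a + 1) * (a + 1 - 1) / 2) := by
          rw [← pow_add, Nat.add_sub_cancel, arith]

/-- The order of a p-group is bounded by p^(a(a+1)/2) when it has a maximal normal abelian subgroup of order p^a. -/
theorem result {G : Type*} [Group G] [Finite G] {p : ℕ} [Fact p.Prime] (hG : IsPGroup p G) (A : Subgroup G) [A.Normal] (hA : IsMulCommutative A) (hmax : ∀ B : Subgroup G, B.Normal → IsMulCommutative B → A ≤ B → B = A) (a : ℕ) (ha : Nat.card A = p ^ a) : Nat.card G ≤ p ^ (a * (a + 1) / 2) := by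
  haveI : Group.IsNilpotent G := hG.isNilpotent
  have hAn : A.Normal := inferInstance
  have hCA : Subgroup.centralizer (A : Set G) ≤ A :=
    Lib.Helper31.centralizer_le_of_max_normal_abelian hAn hA hmax
  have hAC : A ≤ Subgroup.centralizer (A : Set G) := by
    intro x hx
    rw [Subgroup.mem_centralizer_iff]
    intro y hy
    exact (Lib.Helper31.isMulComm_iff.mp hA) y hy x hx
  have hCeq : Subgroup.centralizer (A : Set G) = A := le_antisymm hCA hAC
  have hidx := index_centralizer_le hG a A hAn ha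
  rw [hCeq] at hidx
  have hcard : Nat.card G = Nat.card A * A.index := (Subgroup.card_mul_index A).symm
  rw [hcard, ha, ← arith2, pow_add]
  exact Nat.mul_le_mul_left _ hidx

end Cfsg.Agent.S0129
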