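import Cfsg.Statements.S0131
import Mathlib

set_option autoImplicit false
open Cfsg

namespace Cfsg.Agent.S0131

open scoped commutatorElement

/-- P/P' has a normal complement in G exactly when the focal subgroup G' ∩ P is as small as possible, namely P'. -/
theorem result {G : Type*} [Group G] [Finite G] {p : ℕ} [Fact p.Prime] (P : Sylow p G) : (∃ N : Subgroup G, N.Normal ∧ N ⊓ (P : Subgroup G) = ⁅(P : Subgroup G), (P : Subgroup G)⁆ ∧ N ⊔ (P : Subgroup G) = ⊤) ↔ commutator G ⊓ (P : Subgroup G) = ⁅(P : Subgroup G), (P : Subgroup G)⁆ := by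
  classical
  have hp : p.Prime := Fact.out
  have hPP : ⁅(P : Subgroup G), (P : Subgroup G)⁆ ≤ (P : Subgroup G) := by
    rw [Subgroup.commutator_le]
    intro a ha b hb
    rw [commutatorElement_def]
    exact mul_mem (mul_mem (mul_mem ha hb) (inv_mem ha)) (inv_mem hb)
  have hPG : ⁅(P : Subgroup G), (P : Subgroup G)⁆ ≤ commutator G ⊓ (P : Subgroup G) := by
    refine le_inf ?_ hPP
    rw [commutator_def]
    exact Subgroup.commutator_mono le_top le_top
  constructor
  · rintro ⟨N, hN, hN1, hN2⟩
    refine le_antisymm ?_ hPG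
    rw [← hN1]
    refine inf_le_inf_right _ ?_
    rw [commutator_def, Subgroup.commutator_le]
    intro g _ h _
    have hg : g ∈ N ⊔ (P : Subgroup G) := by rw [hN2]; trivial
    have hh : h ∈ N ⊔ (P : Subgroup G) := by rw [hN2]; trivial
    rw [← SetLike.mem_coe, Subgroup.normal_mul, Set.mem_mul] at hg hh
    obtain ⟨n₁, hn₁, x, hx, rfl⟩ := hg
    obtain ⟨n₂, hn₂, y, hy, rfl⟩ := hh
    have hq : ∀ z, QuotientGroup.mk' N z = 1 ↔ z ∈ N := fun z => QuotientGroup.eq_one_iff z
    have key : QuotientGroup.mk' N ⁅n₁ * x, n₂ * y⁆ = 1 := by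
      have e1 : QuotientGroup.mk' N (n₁ * x) = QuotientGroup.mk' N x := by
        rw [map_mul, (hq n₁).mpr hn₁, one_mul]
      have e2 : QuotientGroup.mk' N (n₂ * y) = QuotientGroup.mk' N y := by
        rw [map_mul, (hq n₂).mpr hn₂, one_mul]
      rw [map_commutatorElement, e1, e2, ← map_commutatorElement]
      have : ⁅x, y⁆ ∈ ⁅(P : Subgroup G), (P : Subgroup G)⁆ := Subgroup.commutator_mem_commutator hx hy
      rw [← hN1] at this
      exact (hq _).mpr this.1
    exact (hq _).mp key
  · intro hfoc
    cases nonempty_fintype G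
    obtain ⟨a, n, hn, hcard⟩ := Nat.exists_eq_pow_mul_and_not_dvd (Nat.card_pos (α := G)).ne' p hp.ne_one
    have hcop : Nat.Coprime p n := (Nat.Prime.coprime_iff_not_dvd hp).mpr hn
    let f : G →* Abelianization G := (powMonoidHom n).comp Abelianization.of
    have hf : ∀ g, f g = (Abelianization.of g) ^ n := fun g => rfl
    have hker : ∀ g, Abelianization.of g = 1 ↔ g ∈ commutator G := by
      intro g
      rw [← MonoidHom.mem_ker, Abelianization.ker_of]
    refine ⟨f.ker, inferInstance, ?_, ?_⟩
    · refine le_antisymm ?_ ?_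
      · rw [← hfoc]
        rintro g ⟨hg1, hg2⟩
        refine ⟨?_, hg2⟩
        replace hg1 : f g = 1 := MonoidHom.mem_ker.mp hg1
        rw [hf] at hg1
        replace hg2 : g ∈ (P : Subgroup G) := hg2
        obtain ⟨k, hk⟩ := (P.2 ⟨g, hg2⟩)
        have hk' : g ^ p ^ k = 1 := by
          have := congrArg Subtype.val hk
          simpa using this
        have h1 : orderOf (Abelianization.of g) ∣ p ^ k := by
          apply orderOf_dvd_of_pow_eq_one
          rw [← map_pow, hk', map_one]
        have h2 : orderOf (Abelianization.of g) ∣ n := orderOf_dvd_of_pow_eq_one hg1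
        have h3 : orderOf (Abelianization.of g) = 1 :=
          Nat.eq_one_of_dvd_coprimes (Nat.Coprime.pow_left k hcop) h1 h2
        exact (hker g).mp (orderOf_eq_one_iff.mp h3)
      · refine le_inf ?_ hPP
        intro g hg
        have hg' : g ∈ commutator G := hPG.trans inf_le_left hg
        rw [MonoidHom.mem_ker, hf, (hker g).mpr hg', one_pow]
    · rw [eq_top_iff]
      intro g _
      have hgn : (g ^ n) ^ p ^ a = 1 := by
        rw [← pow_mul, mul_comm, ← hcard]
        exact pow_card_eq_one'
      have hpg : IsPGroup p (Subgroup.zpowers (g ^ n)) := by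
        rw [IsPGroup.iff_card, Nat.card_zpowers]
        have := orderOf_dvd_of_pow_eq_one hgn
        obtain ⟨j, -, hj⟩ := (Nat.dvd_prime_pow hp).mp this
        exact ⟨j, hj⟩
      obtain ⟨Q, hQ⟩ := hpg.exists_le_sylow
      obtain ⟨c, hc⟩ := MulAction.exists_smul_eq G Q P
      have hy : c * g ^ n * c⁻¹ ∈ (P : Subgroup G) := by
        rw [← hc, Sylow.coe_subgroup_smul]
        exact Subgroup.smul_mem_pointwise_smul _ _ _ (hQ (Subgroup.mem_zpowers _))
      obtain ⟨k, hk⟩ := IsPGroup.iff_card.mp P.2
      have hcopP : (Nat.card (P : Subgroup G)).Coprime n := by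
        rw [hk]; exact Nat.Coprime.pow_left k hcop
      set x : (P : Subgroup G) := (powCoprime hcopP).symm ⟨c * g ^ n * c⁻¹, hy⟩ with hxdef
      have hx : x ^ n = ⟨c * g ^ n * c⁻¹, hy⟩ := by
        have := (powCoprime hcopP).apply_symm_apply ⟨c * g ^ n * c⁻¹, hy⟩
        rwa [powCoprime_apply] at this
      have hx' : (x : G) ^ n = c * g ^ n * c⁻¹ := by
        have := congrArg Subtype.val hx
        simpa using this
      have hmem : g * (x : G)⁻¹ ∈ f.ker := by
        rw [MonoidHom.mem_ker, hf, map_mul, map_inv, mul_pow, inv_pow, ← map_pow, ← map_pow, hx',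
          map_mul, map_mul, map_inv, mul_comm (Abelianization.of c), mul_assoc, mul_inv_cancel, mul_one,
          mul_inv_cancel]
      have : g = g * (x : G)⁻¹ * x := by group
      rw [this]
      exact mul_mem (Subgroup.mem_sup_left hmem) (Subgroup.mem_sup_right x.2)

end Cfsg.Agent.S0131
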