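import Cfsg.Statements.S0157
import Cfsg.Agent.Lib.Helper4.CharClosure

set_option autoImplicit false
open Cfsg

namespace Cfsg.Agent.S0157

open Cfsg.Agent.Lib.Helper4 MulAction

/-- number of fixed points -/
noncomputable def fix {G : Type*} [Group G] (X : Type*) [MulAction G X] [Fintype X] [DecidableEq X]
    (g : G) : ℕ := (Finset.univ.filter (fun x : X => g • x = x)).card

theorem card_fixedBy {G : Type*} [Group G] (X : Type*) [MulAction G X] [Fintype X] [DecidableEq X]
    (g : G) : Nat.card (MulAction.fixedBy X g) = fix X g := by
  rw [Nat.card_eq_fintype_card, fix, ← Fintype.card_subtype]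
  rfl

theorem burnside_count {G : Type*} [Group G] [Fintype G] (X : Type*) [MulAction G X] [Fintype X]
    [DecidableEq X] [Fintype (Quotient (orbitRel G X))] :
    ∑ g : G, fix X g = Fintype.card (Quotient (orbitRel G X)) * Fintype.card G := by
  classical
  rw [← MulAction.sum_card_fixedBy_eq_card_orbits_mul_card_group G X]
  refine Finset.sum_congr rfl fun g _ => ?_
  rw [fix, ← Fintype.card_subtype]
  rfl

theorem fix_prod {G : Type*} [Group G] (X : Type*) [MulAction G X] [Fintype X] [DecidableEq X]
    (g : G) : fix (X × X) g = fix X g * fix X g := by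
  rw [fix, fix, ← Finset.card_product, ← Finset.filter_product, Finset.univ_product_univ]
  congr 1
  apply Finset.filter_congr
  intro p _
  rw [Prod.smul_def, Prod.ext_iff]

theorem sum_fix_of_pretransitive {G : Type*} [Group G] [Fintype G] (X : Type*) [MulAction G X]
    [Fintype X] [DecidableEq X] [Nonempty X] [IsPretransitive G X] :
    ∑ g : G, fix X g = Fintype.card G := by
  classical
  letI : Fintype (Quotient (orbitRel G X)) := Fintype.ofFinite _
  rw [burnside_count]
  have hs : Subsingleton (orbitRel.Quotient G X) :=
    (MulAction.pretransitive_iff_subsingleton_quotient G X).mp inferInstance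
  have hne : Nonempty (Quotient (orbitRel G X)) := ⟨Quotient.mk'' (Classical.arbitrary X)⟩
  have : Fintype.card (Quotient (orbitRel G X)) = 1 := by
    apply le_antisymm
    · exact Fintype.card_le_one_iff_subsingleton.mpr hs
    · exact Fintype.card_pos
  rw [this, one_mul]

/-- the diagonal indicator on orbits of pairs -/
def diagQ {G : Type*} [Group G] (X : Type*) [MulAction G X] [DecidableEq X] :
    Quotient (orbitRel G (X × X)) → Bool :=
  Quotient.lift (fun p : X × X => decide (p.1 = p.2)) (by
    intro p q h
    have h' : p ∈ orbit G q := orbitRel_apply.mp h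
    obtain ⟨g, rfl⟩ := h'
    simp only [Prod.smul_fst, Prod.smul_snd, decide_eq_decide]
    exact smul_left_cancel_iff g)

theorem diagQ_surjective {G : Type*} [Group G] (X : Type*) [MulAction G X] [DecidableEq X]
    [Nontrivial X] : Function.Surjective (diagQ (G := G) X) := by
  intro b
  obtain ⟨x, y, hxy⟩ := exists_pair_ne X
  cases b
  · exact ⟨Quotient.mk'' (x, y), by simp [diagQ, hxy]⟩
  · exact ⟨Quotient.mk'' (x, x), by simp [diagQ]⟩

theorem two_transitive_iff_card {G : Type*} [Group G] (X : Type*) [MulAction G X] [DecidableEq X]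
    [Nontrivial X] [IsPretransitive G X] [Fintype (Quotient (orbitRel G (X × X)))] :
    IsMultiplyPretransitive G X 2 ↔ Fintype.card (Quotient (orbitRel G (X × X))) = 2 := by
  rw [MulAction.is_two_pretransitive_iff]
  constructor
  · intro h2
    rw [← Fintype.card_bool]
    apply Fintype.card_of_bijective (f := diagQ (G := G) X)
    refine ⟨?_, diagQ_surjective X⟩
    intro a b hab
    induction a using Quotient.inductionOn with
    | _ p =>
    induction b using Quotient.inductionOn with
    | _ q =>
    apply Quotient.sound
    show (orbitRel G (X × X)) p q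
    rw [orbitRel_apply]
    obtain ⟨a1, a2⟩ := p
    obtain ⟨b1, b2⟩ := q
    have hab' : decide (a1 = a2) = decide (b1 = b2) := hab
    by_cases ha : a1 = a2
    · have hb : b1 = b2 := by simpa [ha] using hab'
      subst ha; subst hb
      obtain ⟨g, hg⟩ := exists_smul_eq G b1 a1
      exact ⟨g, by simp [Prod.smul_def, hg]⟩
    · have hb : b1 ≠ b2 := by
        intro hb
        apply ha
        simpa [hb] using hab'
      obtain ⟨g, hg1, hg2⟩ := h2 hb ha
      exact ⟨g, by simp [Prod.smul_def, hg1, hg2]⟩
  · intro hcard a b c d hab hcd
    have hbij : Function.Bijective (diagQ (G := G) X) := by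
      rw [Fintype.bijective_iff_surjective_and_card]
      exact ⟨diagQ_surjective X, by rw [hcard, Fintype.card_bool]⟩
    have heq : (Quotient.mk'' (c, d) : Quotient (orbitRel G (X × X))) = Quotient.mk'' (a, b) := by
      apply hbij.1
      simp [diagQ, hab, hcd]
    have h' : (orbitRel G (X × X)) (c, d) (a, b) := Quotient.exact heq
    rw [orbitRel_apply] at h'
    obtain ⟨g, hg⟩ := h'
    refine ⟨g, ?_, ?_⟩
    · exact congrArg Prod.fst hg
    · exact congrArg Prod.snd hg

theorem main {G : Type*} [Group G] [Fintype G] (X : Type*) [MulAction G X] [Fintype X]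
    [DecidableEq X] [IsPretransitive G X] (hX : 2 ≤ Nat.card X) :
    IsIrrCharacter G (fun g => (fix X g : ℂ) - 1) ↔ IsMultiplyPretransitive G X 2 := by
  classical
  have hnt : Nontrivial X := Finite.one_lt_card_iff_nontrivial.mp (by omega)
  letI : Fintype (Quotient (orbitRel G (X × X))) := Fintype.ofFinite _
  have := irr_finite (G := G)
  letI : Fintype (IrrCharacter G) := Fintype.ofFinite _
  rw [two_transitive_iff_card]
  set r := Fintype.card (Quotient (orbitRel G (X × X))) with hr
  have hN : (Nat.card G : ℂ) ≠ 0 := card_ne_zero_complex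
  have hB1 : ∑ g : G, (fix X g : ℂ) = (Nat.card G : ℂ) := by
    rw [Nat.card_eq_fintype_card, ← sum_fix_of_pretransitive X]
    push_cast
    rfl
  have hB2 : ∑ g : G, (fix X g : ℂ) * (fix X g : ℂ) = (r : ℂ) * (Nat.card G : ℂ) := by
    have h := burnside_count (G := G) (X × X)
    simp only [fix_prod] at h
    rw [Nat.card_eq_fintype_card]
    exact_mod_cast h
  set π : G → ℂ := fun g => (fix X g : ℂ) with hπ
  have hπchar : IsCharacter G π := by
    have h := isCharacter_of_rep (Representation.ofMulAction ℂ G X)
    have h2 : (Representation.ofMulAction ℂ G X).character = π := by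
      funext g
      rw [char_ofMulAction]
      rfl
    rwa [h2] at h
  have hφ : (fun g => (fix X g : ℂ) - 1) = π - (trivIrr : IrrCharacter G).1 := by
    funext g
    simp [hπ, trivIrr_apply]
  have hπtriv : classInner π (trivIrr : IrrCharacter G).1 = 1 := by
    simp only [classInner, trivIrr_apply, map_one, mul_one, hπ]
    rw [hB1, inv_mul_cancel₀ hN]
  have hφcf : IsClassFunction G (π - (trivIrr : IrrCharacter G).1) := by
    intro g k
    simp only [Pi.sub_apply, trivIrr_apply]
    rw [isClassFunction_of_isCharacter π hπchar g k]
  have hφchar : IsCharacter G (π - (trivIrr : IrrCharacter G).1) := by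
    apply isCharacter_of_classInner_nat _ hφcf
    intro χ
    rw [← innerL_apply, map_sub, innerL_apply, innerL_apply]
    obtain ⟨k, hk⟩ := classInner_isCharacter_nat π hπchar χ
    by_cases hχ : χ = trivIrr
    · subst hχ
      refine ⟨0, ?_⟩
      rw [hπtriv, classInner_irr, if_pos rfl]
      simp
    · refine ⟨k, ?_⟩
      rw [hk, classInner_irr, if_neg (fun h => hχ h.symm), sub_zero]
  have hnorm : classInner (π - (trivIrr : IrrCharacter G).1) (π - (trivIrr : IrrCharacter G).1) =
      (r : ℂ) - 1 := by
    simp only [classInner, Pi.sub_apply, trivIrr_apply, hπ, map_sub, map_natCast, map_one]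
    have : ∑ g : G, ((fix X g : ℂ) - 1) * ((fix X g : ℂ) - 1) =
        ∑ g : G, (fix X g : ℂ) * (fix X g : ℂ) - 2 * ∑ g : G, (fix X g : ℂ) +
          (Nat.card G : ℂ) := by
      rw [Finset.mul_sum, ← Finset.sum_sub_distrib, Nat.card_eq_fintype_card,
        ← Finset.card_univ, Finset.card_eq_sum_ones]
      push_cast
      rw [← Finset.sum_add_distrib]
      refine Finset.sum_congr rfl fun g _ => ?_
      ring
    rw [this, hB1, hB2]
    field_simp
    ring
  rw [hφ]
  constructor
  · intro hirr
    have h1 := classInner_irr (⟨_, hirr⟩ : IrrCharacter G) ⟨_, hirr⟩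
    rw [if_pos rfl] at h1
    rw [hnorm] at h1
    have : (r : ℂ) = 2 := by linear_combination h1
    exact_mod_cast this
  · intro h2
    apply isIrrCharacter_of_norm_one _ hφchar
    rw [hnorm, h2]
    norm_num

/-- For a transitive action of a finite group on a finite set with at least two points: the action is 2-transitive if and only if the function sending g to (number of fixed points of g) − 1 is an irreducible character. -/
theorem result {G : Type*} [Group G] [Finite G] (X : Type*) [MulAction G X] [Finite X] [MulAction.IsPretransitive G X] (hX : 2 ≤ Nat.card X) : Cfsg.IsIrrCharacter G (fun g => (Nat.card (MulAction.fixedBy X g) : ℂ) - 1) ↔ MulAction.IsMultiplyPretransitive G X 2 := by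
  classical
  cases nonempty_fintype G
  cases nonempty_fintype X
  have h := main (G := G) X hX
  simp only [← card_fixedBy] at h
  exact h

end Cfsg.Agent.S0157
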