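import Cfsg.Statements.S0159
import Cfsg.Agent.Lib.Helper4.CharExp2

set_option autoImplicit false
open Cfsg

namespace Cfsg.Agent.S0159

/-- The number of solutions of s * s = 1 in a finite group equals the sum, over the irreducible characters χ, of (the average over s of χ (s * s)) times χ 1. -/
theorem result {G : Type*} [Group G] [Fintype G] : (Nat.card {s : G // s * s = 1} : ℂ) = ∑ᶠ χ : Cfsg.IrrCharacter G, ((Nat.card G : ℂ)⁻¹ * ∑ s : G, (χ : G → ℂ) (s * s)) * (χ : G → ℂ) 1 := by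
  classical
  have := Cfsg.Agent.Lib.Helper4.irr_finite (G := G)
  letI : Fintype (IrrCharacter G) := Fintype.ofFinite _
  rw [finsum_eq_sum_of_fintype]
  have h1 : ∀ χ : IrrCharacter G,
      ((Nat.card G : ℂ)⁻¹ * ∑ s : G, (χ : G → ℂ) (s * s)) * (χ : G → ℂ) 1 =
        (Nat.card G : ℂ)⁻¹ * ∑ s : G, (χ : G → ℂ) (s * s) * (χ : G → ℂ) 1 := by
    intro χ
    rw [mul_assoc, Finset.sum_mul]
  simp only [h1]
  rw [← Finset.mul_sum, Finset.sum_comm]
  simp only [Cfsg.Agent.Lib.Helper4.col_orth_one]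
  rw [← Finset.sum_filter, Finset.sum_const, nsmul_eq_mul]
  have hN : (Nat.card G : ℂ) ≠ 0 := Cfsg.Agent.Lib.Helper4.card_ne_zero_complex
  rw [mul_comm, mul_assoc, mul_inv_cancel₀ hN, mul_one]
  congr 1
  rw [Nat.card_eq_fintype_card, Fintype.card_subtype]

end Cfsg.Agent.S0159
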