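import Cfsg.Statements.S0160
import Cfsg.Agent.Lib.Helper4.CharDual

set_option autoImplicit false
open Cfsg

namespace Cfsg.Agent.S0160

open Cfsg.Agent.Lib.Helper4 in
theorem isConj_inv_of_isConj {G : Type*} [Group G] {g g' : G} (h : IsConj g g')
    (hg : IsConj g g⁻¹) : IsConj g' g'⁻¹ := by
  obtain ⟨c, rfl⟩ := isConj_iff.mp h
  obtain ⟨d, hd⟩ := isConj_iff.mp hg
  refine isConj_iff.mpr ⟨c * d * c⁻¹, ?_⟩
  have : (c * g * c⁻¹)⁻¹ = c * g⁻¹ * c⁻¹ := by group
  rw [this, ← hd]
  group

open Cfsg.Agent.Lib.Helper4 in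
theorem real_class_iff {G : Type*} [Group G] (g₀ : G) :
    (∀ g : G, ConjClasses.mk g = ConjClasses.mk g₀ → IsConj g g⁻¹) ↔ IsConj g₀ g₀⁻¹ := by
  constructor
  · intro h; exact h g₀ rfl
  · intro h g hg
    exact isConj_inv_of_isConj (ConjClasses.mk_eq_mk_iff_isConj.mp hg).symm h

open Cfsg.Agent.Lib.Helper4 in
theorem key {G : Type*} [Group G] [Fintype G] [DecidableEq G] [Fintype (IrrCharacter G)]
    [Fintype (ConjClasses G)]
    [DecidablePred (fun χ : IrrCharacter G => ∀ g : G, ((χ : G → ℂ) g).im = 0)]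
    [DecidablePred (fun C : ConjClasses G => ∀ g : G, ConjClasses.mk g = C → IsConj g g⁻¹)] :
    ((Finset.univ.filter (fun χ : IrrCharacter G => ∀ g : G, ((χ : G → ℂ) g).im = 0)).card : ℂ) =
      ((Finset.univ.filter
        (fun C : ConjClasses G => ∀ g : G, ConjClasses.mk g = C → IsConj g g⁻¹)).card : ℂ) := by
  classical
  have hN : (Nat.card G : ℂ) ≠ 0 := card_ne_zero_complex
  -- weights
  set w : G → ℂ := fun g => if IsConj g g⁻¹ then
    (((Finset.univ.filter (fun x : G => IsConj x g)).card : ℂ))⁻¹ else 0 with hw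
  have h1 : ((Finset.univ.filter (fun χ : IrrCharacter G =>
      ∀ g : G, ((χ : G → ℂ) g).im = 0)).card : ℂ) = ∑ g : G, w g := by
    rw [Finset.card_filter]
    push_cast
    have : ∀ χ : IrrCharacter G, (if ∀ g : G, ((χ : G → ℂ) g).im = 0 then (1 : ℂ) else 0) =
        (Nat.card G : ℂ)⁻¹ * ∑ g : G, (χ : G → ℂ) g * (χ : G → ℂ) g := by
      intro χ
      rw [sum_sq_irr_eq χ]
      congr
    simp only [this]
    rw [← Finset.mul_sum, Finset.sum_comm, Finset.mul_sum]
    refine Finset.sum_congr rfl fun g _ => ?_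
    have h2 := col_orth g g⁻¹
    simp only [irr_inv, Complex.conj_conj] at h2
    rw [h2, hw]
    simp only
    by_cases hc : IsConj g g⁻¹
    · rw [if_pos hc, if_pos hc]
      have hK := card_conj_class_mul g
      have hKne : ((Finset.univ.filter (fun x : G => IsConj x g)).card : ℂ) ≠ 0 := by
        intro h0
        rw [h0, zero_mul] at hK
        exact hN hK.symm
      rw [← hK]
      field_simp
    · rw [if_neg hc, if_neg hc, mul_zero]
  rw [h1, ← Finset.sum_fiberwise (Finset.univ) (ConjClasses.mk : G → ConjClasses G) w,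
    Finset.card_filter]
  push_cast
  refine Finset.sum_congr rfl fun C _ => ?_
  obtain ⟨g₀, rfl⟩ := ConjClasses.mk_surjective C
  have hF : ∀ g ∈ Finset.univ.filter (fun a : G => ConjClasses.mk a = ConjClasses.mk g₀),
      w g = if IsConj g₀ g₀⁻¹ then
        (((Finset.univ.filter (fun a : G => ConjClasses.mk a = ConjClasses.mk g₀)).card : ℂ))⁻¹
        else 0 := by
    intro g hg
    have hgg : IsConj g g₀ := ConjClasses.mk_eq_mk_iff_isConj.mp (Finset.mem_filter.mp hg).2
    have hiff : IsConj g g⁻¹ ↔ IsConj g₀ g₀⁻¹ :=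
      ⟨fun h => isConj_inv_of_isConj hgg h, fun h => isConj_inv_of_isConj hgg.symm h⟩
    have hset : Finset.univ.filter (fun x : G => IsConj x g) =
        Finset.univ.filter (fun a : G => ConjClasses.mk a = ConjClasses.mk g₀) := by
      ext x
      simp only [Finset.mem_filter, Finset.mem_univ, true_and]
      rw [ConjClasses.mk_eq_mk_iff_isConj]
      exact ⟨fun h => h.trans hgg, fun h => h.trans hgg.symm⟩
    simp only [hw, hiff, hset]
  rw [Finset.sum_congr rfl hF, Finset.sum_const, nsmul_eq_mul]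
  have hne : ((Finset.univ.filter (fun a : G => ConjClasses.mk a = ConjClasses.mk g₀)).card : ℂ)
      ≠ 0 := by
    have : g₀ ∈ Finset.univ.filter (fun a : G => ConjClasses.mk a = ConjClasses.mk g₀) := by simp
    exact Nat.cast_ne_zero.mpr (Finset.card_ne_zero_of_mem this)
  by_cases hr : IsConj g₀ g₀⁻¹
  · rw [if_pos hr, if_pos ((real_class_iff g₀).mpr hr), mul_inv_cancel₀ hne]
  · rw [if_neg hr, if_neg (fun h => hr ((real_class_iff g₀).mp h)), mul_zero]

/-- A finite group has as many real-valued irreducible complex characters as conjugacy classes closed under taking inverses. -/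
theorem result {G : Type*} [Group G] [Finite G] : Nat.card {χ : Cfsg.IrrCharacter G // ∀ g : G, ((χ : G → ℂ) g).im = 0} = Nat.card {C : ConjClasses G // ∀ g : G, ConjClasses.mk g = C → IsConj g g⁻¹} := by
  classical
  cases nonempty_fintype G
  have := Cfsg.Agent.Lib.Helper4.irr_finite (G := G)
  letI : Fintype (IrrCharacter G) := Fintype.ofFinite _
  letI : Fintype (ConjClasses G) := Fintype.ofFinite _
  rw [Nat.card_eq_fintype_card, Nat.card_eq_fintype_card, Fintype.card_subtype,
    Fintype.card_subtype]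
  exact_mod_cast key (G := G)

end Cfsg.Agent.S0160
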