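import Cfsg.Statements.S0163
import Cfsg.Agent.Lib.Helper4.BrMono5

set_option autoImplicit false
open Cfsg

namespace Cfsg.Agent.S0163

/-- Brauer's induction Theorem: every character of a finite group is a ℤ-linear combination of functions induced from linear characters (homomorphisms to ℂˣ) of elementary subgroups. -/
theorem result {G : Type*} [Group G] [Fintype G] (χ : G → ℂ) (hχ : Cfsg.IsCharacter G χ) : ∃ l : List ((E : Subgroup G) × ((E →* ℂˣ) × ℤ)), (∀ t ∈ l, ∃ p : ℕ, p.Prime ∧ Cfsg.IsElementary p t.1) ∧ χ = (l.map fun t => (t.2.2 : ℂ) • Cfsg.indFun t.1 (fun e => (t.2.1 e : ℂ))).sum := by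
  have h := Cfsg.Agent.Lib.Helper4.brauer_induction_span χ hχ
  have key : ∀ (z : ℤ) (l : List ((E : Subgroup G) × ((E →* ℂˣ) × ℤ))),
      z • (l.map fun t => (t.2.2 : ℂ) • Cfsg.indFun t.1 (fun e => (t.2.1 e : ℂ))).sum =
      ((l.map (fun t => (⟨t.1, (t.2.1, z * t.2.2)⟩ : (E : Subgroup G) × ((E →* ℂˣ) × ℤ)))).map
        fun t => (t.2.2 : ℂ) • Cfsg.indFun t.1 (fun e => (t.2.1 e : ℂ))).sum := by
    intro z l
    induction l with
    | nil => simp
    | cons a l ih =>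
      simp only [List.map_cons, List.sum_cons, smul_add, ih]
      congr 1
      rw [← smul_assoc]
      congr 1
      push_cast
      simp
  refine Submodule.span_induction (p := fun f _ => ∃ l : List ((E : Subgroup G) × ((E →* ℂˣ) × ℤ)), (∀ t ∈ l, ∃ p : ℕ, p.Prime ∧ Cfsg.IsElementary p t.1) ∧ f = (l.map fun t => (t.2.2 : ℂ) • Cfsg.indFun t.1 (fun e => (t.2.1 e : ℂ))).sum) ?_ ?_ ?_ ?_ h
  · rintro f ⟨E, l, hE, rfl⟩
    refine ⟨[⟨E, (l, 1)⟩], ?_, ?_⟩
    · intro t ht
      rw [List.mem_singleton] at ht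
      subst ht
      exact hE
    · simp
  · exact ⟨[], by simp, by simp⟩
  · rintro f g _ _ ⟨l1, h1, rfl⟩ ⟨l2, h2, rfl⟩
    refine ⟨l1 ++ l2, ?_, ?_⟩
    · intro t ht
      rcases List.mem_append.mp ht with ht | ht
      · exact h1 t ht
      · exact h2 t ht
    · simp
  · rintro z f _ ⟨l, h1, rfl⟩
    refine ⟨l.map (fun t => ⟨t.1, (t.2.1, z * t.2.2)⟩), ?_, ?_⟩
    · intro t ht
      rw [List.mem_map] at ht
      obtain ⟨s, hs, rfl⟩ := ht
      exact h1 s hs
    · exact key z l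

end Cfsg.Agent.S0163
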