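import Cfsg.Statements.S0166
import Mathlib
import Cfsg.Agent.Lib.Helper4.BrMono5
import Cfsg.Agent.Lib.Helper4.CharEquiv
import Cfsg.Agent.Lib.Helper4.CharClosure
-- import your own Cfsg.Agent.* helpers here

set_option autoImplicit false
open Cfsg

namespace Cfsg.Agent.S0166

open Cfsg.Agent.Lib.Helper4

section LinAlg

variable (K : Subfield ℂ)

theorem krat_mul {l m n : Type*} [Fintype m] (A : Matrix l m ℂ) (B : Matrix m n ℂ)
    (hA : ∀ i j, A i j ∈ K) (hB : ∀ i j, B i j ∈ K) : ∀ i j, (A * B) i j ∈ K := by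
  intro i j
  rw [Matrix.mul_apply]
  exact sum_mem (fun k _ => mul_mem (hA i k) (hB k j))

theorem krat_one {n : Type*} [DecidableEq n] : ∀ i j, (1 : Matrix n n ℂ) i j ∈ K := by
  intro i j
  rw [Matrix.one_apply]
  split_ifs
  · exact one_mem K
  · exact zero_mem K

theorem krat_sub {m n : Type*} (A B : Matrix m n ℂ)
    (hA : ∀ i j, A i j ∈ K) (hB : ∀ i j, B i j ∈ K) : ∀ i j, (A - B) i j ∈ K := by
  intro i j
  rw [Matrix.sub_apply]
  exact sub_mem (hA i j) (hB i j)

/-- Rank factorization of an idempotent matrix over a field. -/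
theorem idem_factor {k : Type*} [Field k] {ι : Type*} [Fintype ι] [DecidableEq ι]
    (F : Matrix ι ι k) (hF : F * F = F) :
    ∃ (r : ℕ) (B : Matrix ι (Fin r) k) (B' : Matrix (Fin r) ι k), B' * B = 1 ∧ B * B' = F := by
  classical
  let f : (ι → k) →ₗ[k] (ι → k) := Matrix.toLin' F
  have hf : ∀ v, f (f v) = f v := by
    intro v
    have : f ∘ₗ f = f := by
      show Matrix.toLin' F ∘ₗ Matrix.toLin' F = Matrix.toLin' F
      rw [← Matrix.toLin'_mul, hF]
    exact congrArg (fun g => g v) this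
  let W := LinearMap.range f
  let b := Module.finBasis k W
  let i : W →ₗ[k] (ι → k) := W.subtype
  let p : (ι → k) →ₗ[k] W := f.rangeRestrict
  have hip : i ∘ₗ p = f := by
    ext v : 1
    rfl
  have hpi : p ∘ₗ i = LinearMap.id := by
    apply LinearMap.ext
    rintro ⟨w, hw⟩
    obtain ⟨v, rfl⟩ := hw
    apply Subtype.ext
    show f (f v) = f v
    exact hf v
  refine ⟨Module.finrank k W, LinearMap.toMatrix b (Pi.basisFun k ι) i,
    LinearMap.toMatrix (Pi.basisFun k ι) b p, ?_, ?_⟩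
  · rw [← LinearMap.toMatrix_comp, hpi, LinearMap.toMatrix_id]
  · rw [← LinearMap.toMatrix_comp, hip, LinearMap.toMatrix_eq_toMatrix']
    exact LinearMap.toMatrix'_toLin' F

theorem krat_left_inv {κ : Type*} [Fintype κ] [DecidableEq κ] (N : Matrix κ κ ℂ)
    (hN : ∀ i j, N i j ∈ K) (hdet : N.det ≠ 0) :
    ∃ N' : Matrix κ κ ℂ, (∀ i j, N' i j ∈ K) ∧ N' * N = 1 := by
  let NK : Matrix κ κ K := fun i j => ⟨N i j, hN i j⟩
  have hmap : NK.map K.subtype = N := by
    ext i j
    rfl
  have hdetK : NK.det ≠ 0 := by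
    intro h0
    apply hdet
    rw [← hmap]
    have := RingHom.map_det K.subtype NK
    rw [RingHom.mapMatrix_apply] at this
    rw [← this, h0, map_zero]
  refine ⟨NK⁻¹.map K.subtype, fun i j => (NK⁻¹ i j).2, ?_⟩
  rw [← hmap, ← Matrix.map_mul, Matrix.nonsing_inv_mul _ (isUnit_iff_ne_zero.mpr hdetK),
    Matrix.map_one _ (map_zero _) (map_one _)]

theorem generic_aux {I κ : Type*} [Fintype I] [DecidableEq I] [Fintype κ] [DecidableEq κ]
    (T : (I → ℂ) → Matrix κ κ ℂ) (hadd : ∀ x y, T (x + y) = T x + T y)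
    (hsmul : ∀ (t : ℂ) x, T (t • x) = t • T x) (c : I → ℂ) (hc : (T c).det ≠ 0) :
    ∃ q : I → ℚ, (T (fun i => (q i : ℂ))).det ≠ 0 := by
  classical
  have key : ∀ S : Finset I, ∃ c' : I → ℂ, (∀ i ∈ S, ∃ q : ℚ, c' i = q) ∧ (T c').det ≠ 0 := by
    intro S
    induction S using Finset.induction_on with
    | empty => exact ⟨c, by simp, hc⟩
    | insert a S ha ih =>
      obtain ⟨c', hc'1, hc'2⟩ := ih
      have hT : ∀ t : ℂ, T (Function.update c' a t)
          = T (Function.update c' a 0) + t • T (Pi.single a 1) := by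
        intro t
        have : Function.update c' a t = Function.update c' a 0 + t • Pi.single a (1:ℂ) := by
          ext i
          by_cases h : i = a
          · subst h; simp
          · simp [h]
        rw [this, hadd, hsmul]
      let p : Polynomial ℂ := ((T (Function.update c' a 0)).map Polynomial.C
        + (Polynomial.X : Polynomial ℂ) • (T (Pi.single a 1)).map Polynomial.C).det
      have hp : ∀ t : ℂ, p.eval t = (T (Function.update c' a t)).det := by
        intro t
        rw [hT]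
        have := RingHom.map_det (Polynomial.evalRingHom t)
          ((T (Function.update c' a 0)).map Polynomial.C
            + (Polynomial.X : Polynomial ℂ) • (T (Pi.single a 1)).map Polynomial.C)
        rw [Polynomial.coe_evalRingHom] at this
        rw [this]
        congr 1
        ext i j
        simp [Matrix.add_apply, Matrix.smul_apply]
        exact mul_comm _ _
      have hp0 : p ≠ 0 := by
        intro h0
        apply hc'2
        have := hp (c' a)
        rw [Function.update_eq_self] at this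
        rw [← this, h0, Polynomial.eval_zero]
      have hfin : {t : ℂ | p.IsRoot t}.Finite := Polynomial.finite_setOfPred_isRoot hp0
      have hinf : (Set.range ((↑) : ℚ → ℂ)).Infinite :=
        Set.infinite_range_of_injective Rat.cast_injective
      obtain ⟨t, ⟨q, rfl⟩, ht⟩ := (hinf.sdiff hfin).nonempty
      refine ⟨Function.update c' a q, ?_, ?_⟩
      · intro i hi
        by_cases h : i = a
        · subst h; exact ⟨q, by simp⟩
        · rcases Finset.mem_insert.mp hi with h' | h'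
          · exact absurd h' h
          · obtain ⟨q', hq'⟩ := hc'1 i h'
            exact ⟨q', by simp [h, hq']⟩
      · rw [← hp]; exact ht
  obtain ⟨c', h1, h2⟩ := key Finset.univ
  choose q hq using fun i => h1 i (Finset.mem_univ i)
  refine ⟨q, ?_⟩
  have : c' = fun i => (q i : ℂ) := funext hq
  rw [← this]; exact h2

theorem generic_mat {m n κ : Type*} [Fintype m] [Fintype n] [DecidableEq m] [DecidableEq n]
    [Fintype κ] [DecidableEq κ]
    (T : Matrix m n ℂ → Matrix κ κ ℂ) (hadd : ∀ x y, T (x + y) = T x + T y)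
    (hsmul : ∀ (t : ℂ) x, T (t • x) = t • T x) (A₀ : Matrix m n ℂ) (h : (T A₀).det ≠ 0) :
    ∃ A : Matrix m n ℂ, (∀ i j, A i j ∈ K) ∧ (T A).det ≠ 0 := by
  obtain ⟨q, hq⟩ := generic_aux (I := m × n) (fun c => T (Matrix.of fun i j => c (i, j)))
    (by intro x y; rw [← hadd]; rfl) (by intro t x; rw [← hsmul]; rfl)
    (fun p => A₀ p.1 p.2) h
  exact ⟨Matrix.of fun i j => (q (i, j) : ℂ), fun i j => SubfieldClass.ratCast_mem K _, hq⟩

end LinAlg

section Reps

variable {G : Type*} [Group G] [Fintype G] (K : Subfield ℂ)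

/-- A class function realized as the trace of a `K`-rational matrix representation. -/
def RealFin (χ : G → ℂ) : Prop :=
  ∃ (r : ℕ) (σ : G →* Matrix (Fin r) (Fin r) ℂ), (∀ g i j, σ g i j ∈ K) ∧ ∀ g, (σ g).trace = χ g

/-- Cutting a `K`-rational matrix representation by a `K`-rational commuting idempotent. -/
theorem cut {ι : Type*} [Fintype ι] [DecidableEq ι] (M : G →* Matrix ι ι ℂ) (F : Matrix ι ι ℂ)
    (hM : ∀ g i j, M g i j ∈ K) (hF : ∀ i j, F i j ∈ K) (hFF : F * F = F)
    (hcomm : ∀ g, M g * F = F * M g) (χ : G → ℂ) (htr : ∀ g, (M g * F).trace = χ g) :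
    RealFin K χ := by
  classical
  let FK : Matrix ι ι K := fun i j => ⟨F i j, hF i j⟩
  have hmap : FK.map K.subtype = F := by
    ext i j
    rfl
  have hFK : FK * FK = FK := by
    apply Matrix.map_injective K.subtype_injective
    show (FK * FK).map K.subtype = FK.map K.subtype
    rw [Matrix.map_mul, hmap, hFF]
  obtain ⟨r, BK, BK', h1, h2⟩ := idem_factor FK hFK
  let B : Matrix ι (Fin r) ℂ := BK.map K.subtype
  let B' : Matrix (Fin r) ι ℂ := BK'.map K.subtype
  have hB : ∀ i j, B i j ∈ K := fun i j => (BK i j).2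
  have hB' : ∀ i j, B' i j ∈ K := fun i j => (BK' i j).2
  have hB'B : B' * B = 1 := by
    show BK'.map K.subtype * BK.map K.subtype = 1
    rw [← Matrix.map_mul, h1, Matrix.map_one _ (map_zero _) (map_one _)]
  have hBB' : B * B' = F := by
    show BK.map K.subtype * BK'.map K.subtype = F
    rw [← Matrix.map_mul, h2, hmap]
  have hFB : F * B = B := by
    rw [← hBB', Matrix.mul_assoc, hB'B, Matrix.mul_one]
  let σ : G →* Matrix (Fin r) (Fin r) ℂ :=
    { toFun := fun g => B' * M g * B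
      map_one' := by
        rw [map_one, Matrix.mul_one, hB'B]
      map_mul' := by
        intro g h
        calc B' * M (g * h) * B = B' * (M g * (M h * (F * B))) := by
              rw [hFB, map_mul]; simp only [Matrix.mul_assoc]
          _ = B' * (M g * (F * (M h * B))) := by
              rw [← Matrix.mul_assoc (M h) F B, hcomm h, Matrix.mul_assoc]
          _ = B' * M g * B * (B' * M h * B) := by
              rw [← hBB']; simp only [Matrix.mul_assoc] }
  refine ⟨r, σ, ?_, ?_⟩
  · intro g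
    exact krat_mul K _ _ (krat_mul K _ _ hB' (hM g)) hB
  · intro g
    show (B' * M g * B).trace = χ g
    rw [Matrix.trace_mul_comm, ← Matrix.mul_assoc, hBB', ← hcomm g, htr]

theorem real_zero : RealFin K (0 : G → ℂ) := by
  refine ⟨0, 1, ?_, ?_⟩
  · intro g i
    exact i.elim0
  · intro g
    simp [Matrix.trace]

theorem real_add {a b : G → ℂ} (ha : RealFin K a) (hb : RealFin K b) : RealFin K (a + b) := by
  classical
  obtain ⟨r₁, σ₁, h₁, t₁⟩ := ha
  obtain ⟨r₂, σ₂, h₂, t₂⟩ := hb
  let M : G →* Matrix (Fin r₁ ⊕ Fin r₂) (Fin r₁ ⊕ Fin r₂) ℂ :=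
    { toFun := fun g => Matrix.fromBlocks (σ₁ g) 0 0 (σ₂ g)
      map_one' := by
        rw [map_one, map_one, Matrix.fromBlocks_one]
      map_mul' := by
        intro g h
        rw [Matrix.fromBlocks_multiply]
        simp }
  refine cut K M 1 ?_ (krat_one K) (Matrix.mul_one _) (fun g => by rw [Matrix.mul_one, Matrix.one_mul])
    _ ?_
  · rintro g (i | i) (j | j)
    · exact h₁ g i j
    · exact zero_mem K
    · exact zero_mem K
    · exact h₂ g i j
  · intro g
    rw [Matrix.mul_one]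
    show (Matrix.fromBlocks (σ₁ g) 0 0 (σ₂ g)).trace = a g + b g
    have htb : (Matrix.fromBlocks (σ₁ g) 0 0 (σ₂ g)).trace = (σ₁ g).trace + (σ₂ g).trace := by
      simp [Matrix.trace, Fintype.sum_sum_type]
    rw [htb, t₁, t₂]

/-- Induced linear characters are realized over any field containing the values. -/
theorem real_gen (hroots : ∀ z : ℂ, z ^ Monoid.exponent G = 1 → z ∈ K) (H : Subgroup G)
    (l : H →* ℂˣ) : RealFin K (indFun H (fun e => (l e : ℂ))) := by
  classical
  let e : G → ℂ := extendByZero H (fun h => (l h : ℂ))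
  have he_mem : ∀ (x : G) (hx : x ∈ H), e x = (l ⟨x, hx⟩ : ℂ) := fun x hx =>
    extendByZero_apply_mem' H _ hx
  have he_not : ∀ x : G, x ∉ H → e x = 0 := fun x hx => extendByZero_apply_not_mem H _ hx
  have heK : ∀ x, e x ∈ K := by
    intro x
    by_cases hx : x ∈ H
    · rw [he_mem x hx]
      apply hroots
      rw [← Units.val_pow_eq_pow_val, ← map_pow]
      have : (⟨x, hx⟩ : H) ^ Monoid.exponent G = 1 :=
        Subtype.ext (by simpa using Monoid.pow_exponent_eq_one x)
      rw [this, map_one]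
      rfl
    · rw [he_not x hx]
      exact zero_mem K
  have hkey : ∀ (u w : G), u ∈ H → e u * e (u⁻¹ * w) = e w := by
    intro u w hu
    by_cases hw : w ∈ H
    · have huw : u⁻¹ * w ∈ H := H.mul_mem (H.inv_mem hu) hw
      rw [he_mem u hu, he_mem w hw, he_mem _ huw]
      have : (⟨u⁻¹ * w, huw⟩ : H) = (⟨u, hu⟩ : H)⁻¹ * ⟨w, hw⟩ := rfl
      rw [this, map_mul, map_inv, Units.val_mul, ← mul_assoc, Units.mul_inv, one_mul]
    · have huw : u⁻¹ * w ∉ H := fun h => hw (by simpa using H.mul_mem hu h)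
      rw [he_not w hw, he_not _ huw, mul_zero]
  let c : ℂ := (Nat.card H : ℂ)⁻¹
  have hcK : c ∈ K := inv_mem (natCast_mem K _)
  have hcard : (Nat.card H : ℂ) ≠ 0 := Nat.cast_ne_zero.mpr Nat.card_pos.ne'
  let Mf : G → Matrix G G ℂ := fun g => Matrix.of fun x y => if x = g * y then 1 else 0
  have hMl : ∀ (g : G) (A : Matrix G G ℂ) (x z : G), (Mf g * A) x z = A (g⁻¹ * x) z := by
    intro g A x z
    rw [Matrix.mul_apply, Finset.sum_eq_single (g⁻¹ * x)]
    · simp [Mf]
    · intro y _ hy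
      have : x ≠ g * y := fun h => hy (by rw [h]; group)
      simp [Mf, this]
    · intro h
      exact absurd (Finset.mem_univ _) h
  have hMr : ∀ (g : G) (A : Matrix G G ℂ) (x z : G), (A * Mf g) x z = A x (g * z) := by
    intro g A x z
    rw [Matrix.mul_apply, Finset.sum_eq_single (g * z)]
    · simp [Mf]
    · intro y _ hy
      simp [Mf, hy]
    · intro h
      exact absurd (Finset.mem_univ _) h
  let M : G →* Matrix G G ℂ :=
    { toFun := Mf
      map_one' := by
        ext x z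
        simp [Mf, Matrix.one_apply]
      map_mul' := by
        intro g h
        ext x z
        rw [hMl]
        show (if x = g * h * z then (1:ℂ) else 0) = if g⁻¹ * x = h * z then 1 else 0
        have hiff : (x = g * h * z) ↔ (g⁻¹ * x = h * z) := by
          constructor
          · intro h'; rw [h']; group
          · intro h'; rw [mul_assoc, ← h']; group
        simp only [hiff] }
  let F : Matrix G G ℂ := Matrix.of fun x y => c * e (x⁻¹ * y)
  refine cut K M F ?_ ?_ ?_ ?_ _ ?_
  · intro g x y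
    show (if x = g * y then (1 : ℂ) else 0) ∈ K
    split_ifs
    · exact one_mem K
    · exact zero_mem K
  · intro x y
    exact mul_mem hcK (heK _)
  · ext x z
    rw [Matrix.mul_apply]
    show ∑ y, c * e (x⁻¹ * y) * (c * e (y⁻¹ * z)) = c * e (x⁻¹ * z)
    rw [← Equiv.sum_comp (Equiv.mulLeft x)]
    have hterm : ∀ u : G, c * e (x⁻¹ * (Equiv.mulLeft x) u) * (c * e (((Equiv.mulLeft x) u)⁻¹ * z))
        = if u ∈ H then c * c * e (x⁻¹ * z) else 0 := by
      intro u
      have h1 : x⁻¹ * (Equiv.mulLeft x) u = u := by simp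
      have h2 : ((Equiv.mulLeft x) u)⁻¹ * z = u⁻¹ * (x⁻¹ * z) := by simp [mul_assoc]
      rw [h1, h2]
      split_ifs with hu
      · rw [← hkey u (x⁻¹ * z) hu]; ring
      · rw [he_not u hu]; ring
    rw [Finset.sum_congr rfl (fun u _ => hterm u), ← Finset.sum_filter, Finset.sum_const]
    have hcnt : (Finset.univ.filter (fun u : G => u ∈ H)).card = Nat.card H := by
      rw [Nat.card_eq_fintype_card, Fintype.card_subtype]
    rw [hcnt, nsmul_eq_mul]
    show (Nat.card H : ℂ) * ((Nat.card H : ℂ)⁻¹ * (Nat.card H : ℂ)⁻¹ * e (x⁻¹ * z))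
      = (Nat.card H : ℂ)⁻¹ * e (x⁻¹ * z)
    field_simp
  · intro g
    ext x z
    show (Mf g * F) x z = (F * Mf g) x z
    rw [hMl, hMr]
    show c * e ((g⁻¹ * x)⁻¹ * z) = c * e (x⁻¹ * (g * z))
    congr 2
    group
  · intro g
    show (Mf g * F).trace = _
    rw [Matrix.trace, indFun, Finset.mul_sum]
    refine Finset.sum_congr rfl fun x _ => ?_
    rw [Matrix.diag_apply, hMl]
    show c * e ((g⁻¹ * x)⁻¹ * x) = c * e (x⁻¹ * g * x)
    congr 2
    group

/-- Averaging operator producing intertwiners. -/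
noncomputable def avg {ι κ : Type*} [Fintype ι] [Fintype κ] [DecidableEq ι] [DecidableEq κ]
    (M₁ : G →* Matrix ι ι ℂ) (M₂ : G →* Matrix κ κ ℂ) (A : Matrix ι κ ℂ) : Matrix ι κ ℂ :=
  (Nat.card G : ℂ)⁻¹ • ∑ g : G, M₁ g * A * M₂ g⁻¹

section Avg

variable {ι κ : Type*} [Fintype ι] [Fintype κ] [DecidableEq ι] [DecidableEq κ]
  (M₁ : G →* Matrix ι ι ℂ) (M₂ : G →* Matrix κ κ ℂ)

theorem avg_add (A B : Matrix ι κ ℂ) : avg M₁ M₂ (A + B) = avg M₁ M₂ A + avg M₁ M₂ B := by
  simp [avg, Matrix.mul_add, Matrix.add_mul, Finset.sum_add_distrib, smul_add]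

theorem avg_smul (t : ℂ) (A : Matrix ι κ ℂ) : avg M₁ M₂ (t • A) = t • avg M₁ M₂ A := by
  rw [avg, avg]
  have : ∀ g : G, M₁ g * (t • A) * M₂ g⁻¹ = t • (M₁ g * A * M₂ g⁻¹) := fun g => by
    rw [Matrix.mul_smul, Matrix.smul_mul]
  rw [Finset.sum_congr rfl (fun g _ => this g), ← Finset.smul_sum, smul_comm]

theorem avg_inter (A : Matrix ι κ ℂ) (h : G) : M₁ h * avg M₁ M₂ A = avg M₁ M₂ A * M₂ h := by
  rw [avg, Matrix.mul_smul, Matrix.smul_mul, Matrix.mul_sum, Matrix.sum_mul]
  congr 1
  rw [← Equiv.sum_comp (Equiv.mulLeft h) (fun g => M₁ g * A * M₂ g⁻¹ * M₂ h)]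
  refine Finset.sum_congr rfl fun g _ => ?_
  simp only [Equiv.coe_mulLeft]
  rw [← Matrix.mul_assoc, ← Matrix.mul_assoc, ← map_mul, Matrix.mul_assoc _ (M₂ _) (M₂ _),
    ← map_mul]
  congr 2
  group

theorem avg_fix (A : Matrix ι κ ℂ) (hA : ∀ g, M₁ g * A = A * M₂ g) : avg M₁ M₂ A = A := by
  have hterm : ∀ g : G, M₁ g * A * M₂ g⁻¹ = A := by
    intro g
    rw [hA g, Matrix.mul_assoc, ← map_mul, mul_inv_cancel, map_one, Matrix.mul_one]
  rw [avg, Finset.sum_congr rfl (fun g _ => hterm g), Finset.sum_const, Finset.card_univ,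
    ← Nat.card_eq_fintype_card, ← Nat.cast_smul_eq_nsmul ℂ, inv_smul_smul₀]
  exact Nat.cast_ne_zero.mpr Nat.card_pos.ne'

theorem avg_krat (A : Matrix ι κ ℂ) (h₁ : ∀ g i j, M₁ g i j ∈ K) (h₂ : ∀ g i j, M₂ g i j ∈ K)
    (hA : ∀ i j, A i j ∈ K) : ∀ i j, avg M₁ M₂ A i j ∈ K := by
  intro i j
  rw [avg, Matrix.smul_apply, Matrix.sum_apply, smul_eq_mul]
  refine mul_mem (inv_mem (natCast_mem K _)) (sum_mem fun g _ => ?_)
  exact krat_mul K _ _ (krat_mul K _ _ (h₁ g) hA) (h₂ g⁻¹) i j

theorem avg_mul_right {μ : Type*} [Fintype μ] [DecidableEq μ] (M₃ : G →* Matrix μ μ ℂ)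
    (A : Matrix ι κ ℂ) (X : Matrix κ μ ℂ) (hX : ∀ g, M₂ g * X = X * M₃ g) :
    avg M₁ M₂ A * X = avg M₁ M₃ (A * X) := by
  rw [avg, avg, Matrix.smul_mul, Matrix.sum_mul]
  congr 1
  refine Finset.sum_congr rfl fun g _ => ?_
  rw [Matrix.mul_assoc, hX]
  simp only [Matrix.mul_assoc]

end Avg

/-- The representation on `ι → ℂ` given by a matrix representation. -/
noncomputable def repOf {ι : Type*} [Fintype ι] [DecidableEq ι] (M : G →* Matrix ι ι ℂ) :
    Representation ℂ G (ι → ℂ) where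
  toFun g := Matrix.toLin' (M g)
  map_one' := by
    rw [map_one, Matrix.toLin'_one]
    rfl
  map_mul' g h := by
    rw [map_mul, Matrix.toLin'_mul]
    rfl

theorem repOf_apply {ι : Type*} [Fintype ι] [DecidableEq ι] (M : G →* Matrix ι ι ℂ) (g : G) :
    repOf M g = Matrix.toLin' (M g) := rfl

theorem repOf_char {ι : Type*} [Fintype ι] [DecidableEq ι] (M : G →* Matrix ι ι ℂ) (g : G) :
    (repOf M).character g = (M g).trace := by
  show LinearMap.trace ℂ (ι → ℂ) (Matrix.toLin' (M g)) = (M g).trace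
  rw [LinearMap.trace_eq_matrix_trace ℂ (Pi.basisFun ℂ ι), LinearMap.toMatrix_eq_toMatrix',
    LinearMap.toMatrix'_toLin']

/-- If `a` and `b` are realized over `K` and `a - b` is a character, it is realized over `K`. -/
theorem diff {a b : G → ℂ} (ha : RealFin K a) (hb : RealFin K b) (n : ℕ)
    (ρ : Representation ℂ G (Fin n → ℂ)) (hab : ρ.character = a - b) :
    RealFin K ρ.character := by
  classical
  obtain ⟨r₁, P, hP, tP⟩ := ha
  obtain ⟨r₂, Q, hQ, tQ⟩ := hb
  have hchar : ((repOf Q).prod ρ).character = (repOf P).character := by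
    rw [char_prod, hab]
    funext g
    simp only [Pi.add_apply, Pi.sub_apply, repOf_char, tP, tQ]
    ring
  obtain ⟨φ⟩ := equiv_of_char_eq ((repOf Q).prod ρ) (repOf P) hchar
  let X₀l : (Fin r₂ → ℂ) →ₗ[ℂ] (Fin r₁ → ℂ) :=
    φ.toLinearMap ∘ₗ LinearMap.inl ℂ (Fin r₂ → ℂ) (Fin n → ℂ)
  let Y₀l : (Fin r₁ → ℂ) →ₗ[ℂ] (Fin r₂ → ℂ) :=
    LinearMap.fst ℂ (Fin r₂ → ℂ) (Fin n → ℂ) ∘ₗ φ.symm.toLinearMap
  let X₀ : Matrix (Fin r₁) (Fin r₂) ℂ := LinearMap.toMatrix' X₀l
  let Y₀ : Matrix (Fin r₂) (Fin r₁) ℂ := LinearMap.toMatrix' Y₀l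
  have hYX₀ : Y₀ * X₀ = 1 := by
    show LinearMap.toMatrix' Y₀l * LinearMap.toMatrix' X₀l = 1
    rw [← LinearMap.toMatrix'_comp]
    have : Y₀l ∘ₗ X₀l = LinearMap.id := by
      apply LinearMap.ext
      intro v
      show (φ.symm (φ (v, 0))).1 = v
      rw [φ.symm_apply_apply]
    rw [this, LinearMap.toMatrix'_id]
  have hX₀ : ∀ g, P g * X₀ = X₀ * Q g := by
    intro g
    have h1 : P g = LinearMap.toMatrix' (Matrix.toLin' (P g)) := (LinearMap.toMatrix'_toLin' _).symm
    have h2 : Q g = LinearMap.toMatrix' (Matrix.toLin' (Q g)) := (LinearMap.toMatrix'_toLin' _).symm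
    show P g * LinearMap.toMatrix' X₀l = LinearMap.toMatrix' X₀l * Q g
    rw [h1, h2, ← LinearMap.toMatrix'_comp, ← LinearMap.toMatrix'_comp]
    congr 1
    apply LinearMap.ext
    intro v
    show (repOf P g) (φ (v, 0)) = φ ((repOf Q g) v, 0)
    have h3 := congrArg (fun f => f (v, 0)) (φ.toIntertwiningMap.isIntertwining' g)
    have h4 : ((repOf Q).prod ρ) g (v, 0) = ((repOf Q g) v, 0) := by
      simp [Representation.prod]
    rw [← h4]
    exact h3.symm
  -- first genericity
  obtain ⟨A, hA, hAdet⟩ := generic_mat K (fun A => Y₀ * avg P Q A)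
    (by intro x y; simp only [avg_add, Matrix.mul_add])
    (by intro t x; simp only [avg_smul, Matrix.mul_smul]) X₀
    (by
      show (Y₀ * avg P Q X₀).det ≠ 0
      rw [avg_fix P Q X₀ hX₀, hYX₀, Matrix.det_one]
      exact one_ne_zero)
  let X : Matrix (Fin r₁) (Fin r₂) ℂ := avg P Q A
  have hXK : ∀ i j, X i j ∈ K := avg_krat K P Q A hP hQ hA
  have hX : ∀ g, P g * X = X * Q g := fun g => avg_inter P Q A g
  -- second genericity
  obtain ⟨A', hA', hA'det⟩ := generic_mat K (fun A' : Matrix (Fin r₂) (Fin r₁) ℂ => A' * X)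
    (by intro x y; simp only [Matrix.add_mul])
    (by intro t x; simp only [Matrix.smul_mul]) Y₀ hAdet
  obtain ⟨N', hN', hN'N⟩ := krat_left_inv K (A' * X) (krat_mul K _ _ hA' hXK) hA'det
  let Z : Matrix (Fin r₂) (Fin r₁) ℂ := N' * A'
  have hZK : ∀ i j, Z i j ∈ K := krat_mul K _ _ hN' hA'
  have hZX : Z * X = 1 := by
    show N' * A' * X = 1
    rw [Matrix.mul_assoc, hN'N]
  let Y : Matrix (Fin r₂) (Fin r₁) ℂ := avg Q P Z
  have hYK : ∀ i j, Y i j ∈ K := avg_krat K Q P Z hQ hP hZK
  have hY : ∀ g, Q g * Y = Y * P g := fun g => avg_inter Q P Z g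
  have hYX : Y * X = 1 := by
    show avg Q P Z * X = 1
    rw [avg_mul_right Q P Q Z X hX, hZX]
    exact avg_fix Q Q 1 (fun g => by rw [Matrix.mul_one, Matrix.one_mul])
  let E : Matrix (Fin r₁) (Fin r₁) ℂ := X * Y
  have hEE : E * E = E := by
    show X * Y * (X * Y) = X * Y
    rw [Matrix.mul_assoc, ← Matrix.mul_assoc Y X Y, hYX, Matrix.one_mul]
  have hEcomm : ∀ g, P g * E = E * P g := by
    intro g
    show P g * (X * Y) = X * Y * P g
    rw [← Matrix.mul_assoc, hX g, Matrix.mul_assoc, hY g, Matrix.mul_assoc]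
  have hEtr : ∀ g, (P g * E).trace = (Q g).trace := by
    intro g
    show (P g * (X * Y)).trace = (Q g).trace
    rw [← Matrix.mul_assoc, hX g, Matrix.mul_assoc, Matrix.trace_mul_comm, Matrix.mul_assoc, hYX,
      Matrix.mul_one]
  refine cut K P (1 - E) hP (krat_sub K _ _ (krat_one K) (krat_mul K _ _ hXK hYK)) ?_ ?_ _ ?_
  · rw [Matrix.mul_sub, Matrix.sub_mul, Matrix.sub_mul, Matrix.one_mul, Matrix.one_mul,
      Matrix.mul_one, hEE, sub_self, sub_zero]
  · intro g
    rw [Matrix.mul_sub, Matrix.sub_mul, Matrix.mul_one, Matrix.one_mul, hEcomm g]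
  · intro g
    rw [Matrix.mul_sub, Matrix.mul_one, Matrix.trace_sub, hEtr g, tP, tQ, hab]
    rfl

theorem main_real (hroots : ∀ z : ℂ, z ^ Monoid.exponent G = 1 → z ∈ K) (n : ℕ)
    (ρ : Representation ℂ G (Fin n → ℂ)) : RealFin K ρ.character := by
  have hχ : IsCharacter G ρ.character := ⟨n, ρ, rfl⟩
  have hspan := brauer_induction_span ρ.character hχ
  have hcl : ρ.character ∈ AddSubgroup.closure (linInd G) := by
    rw [← Submodule.span_int_eq_addSubgroupClosure]
    exact hspan
  have key : ∀ x ∈ AddSubgroup.closure (linInd G),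
      ∃ a b : G → ℂ, RealFin K a ∧ RealFin K b ∧ x = a - b := by
    intro x hx
    induction hx using AddSubgroup.closure_induction with
    | mem x hx =>
      obtain ⟨E, l, -, rfl⟩ := hx
      exact ⟨_, 0, real_gen K hroots E l, real_zero K, by simp⟩
    | zero => exact ⟨0, 0, real_zero K, real_zero K, by simp⟩
    | add x y _ _ hx hy =>
      obtain ⟨a, b, ha, hb, rfl⟩ := hx
      obtain ⟨a', b', ha', hb', rfl⟩ := hy
      exact ⟨a + a', b + b', real_add K ha ha', real_add K hb hb', by abel⟩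
    | neg x _ hx =>
      obtain ⟨a, b, ha, hb, rfl⟩ := hx
      exact ⟨b, a, hb, ha, by abel⟩
  obtain ⟨a, b, ha, hb, hab⟩ := key _ hcl
  exact diff K ha hb n ρ hab

end Reps

/-- Brauer's splitting field Theorem: a complex representation of a finite group of exponent m is equivalent to a representation by matrices with entries in ℚ adjoined exp(2πi/m). -/
theorem result {G : Type*} [Group G] [Finite G] (n : ℕ) (ρ : Representation ℂ G (Fin n → ℂ)) : ∃ σ : Representation ℂ G (Fin n → ℂ), Nonempty (ρ.Equiv σ) ∧ ∀ g : G, ∀ i j : Fin n, LinearMap.toMatrix' (σ g) i j ∈ Algebra.adjoin ℚ ({Complex.exp (2 * Real.pi * Complex.I / (Monoid.exponent G : ℂ))} : Set ℂ) := by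
  classical
  haveI : Fintype G := Fintype.ofFinite G
  have hm0 : Monoid.exponent G ≠ 0 := Monoid.exponent_ne_zero_of_finite
  have hprim : IsPrimitiveRoot (Complex.exp (2 * Real.pi * Complex.I / (Monoid.exponent G : ℂ)))
      (Monoid.exponent G) := Complex.isPrimitiveRoot_exp _ hm0
  generalize Complex.exp (2 * Real.pi * Complex.I / (Monoid.exponent G : ℂ)) = ζ at hprim ⊢
  let K : Subfield ℂ := (IntermediateField.adjoin ℚ {ζ}).toSubfield
  have hζalg : IsAlgebraic ℚ ζ := 
    (IsIntegral.of_pow (Nat.pos_of_ne_zero hm0)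
      (by rw [hprim.pow_eq_one]; exact isIntegral_one)).isAlgebraic
  have hK : ∀ z : ℂ, z ∈ K → z ∈ Algebra.adjoin ℚ ({ζ} : Set ℂ) := by
    intro z hz
    rw [← IntermediateField.adjoin_simple_toSubalgebra_of_isAlgebraic hζalg]
    exact hz
  have hroots : ∀ z : ℂ, z ^ Monoid.exponent G = 1 → z ∈ K := by
    intro z hz
    haveI : NeZero (Monoid.exponent G) := ⟨hm0⟩
    obtain ⟨i, -, rfl⟩ := hprim.eq_pow_of_pow_eq_one hz
    exact pow_mem (IntermediateField.mem_adjoin_simple_self ℚ ζ) i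
  obtain ⟨r, σ, hσK, hσtr⟩ := main_real K hroots n ρ
  have hr : r = n := by
    have h1 := hσtr 1
    rw [map_one, Matrix.trace_one, Fintype.card_fin, Representation.char_one] at h1
    simp only [Module.finrank_fin_fun] at h1
    exact_mod_cast h1
  subst hr
  refine ⟨repOf σ, equiv_of_char_eq ρ (repOf σ) ?_, ?_⟩
  · funext g
    rw [repOf_char, hσtr]
  · intro g i j
    apply hK
    have : LinearMap.toMatrix' (repOf σ g) = σ g := LinearMap.toMatrix'_toLin' _
    rw [this]
    exact hσK g i j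

end Cfsg.Agent.S0166
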