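import Cfsg.Statements.S0168
import Mathlib
import Cfsg.Agent.Lib.Helper4.CharExp2

set_option autoImplicit false
open Cfsg Cfsg.Agent.Lib.Helper4 Module
open scoped ComplexConjugate

namespace Cfsg.Agent.S0168

/-- The Burnside–Brauer Theorem. Let χ be the character of a faithful complex representation of a finite group, taking m distinct values. Then every irreducible character has nonzero inner product with χ ^ i for some i < m. -/
theorem result {G : Type*} [Group G] [Fintype G] {V : Type*} [AddCommGroup V] [Module ℂ V] [FiniteDimensional ℂ V] (ρ : Representation ℂ G V) (hfaithful : Function.Injective ρ) (ψ : G → ℂ) (hψ : Cfsg.IsIrrCharacter G ψ) : ∃ i : ℕ, i < Nat.card (Set.range ρ.character) ∧ Cfsg.classInner (fun g => ρ.character g ^ i) ψ ≠ 0 := by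
  classical
  set χ := ρ.character with hχ
  have hfin : Finite (Set.range χ) := (Set.finite_range χ).to_subtype
  set m := Nat.card (Set.range χ) with hm
  let e : Set.range χ ≃ Fin m := Finite.equivFin _
  let v : Fin m → ℂ := fun j => (e.symm j : ℂ)
  have hv : Function.Injective v := Subtype.val_injective.comp e.symm.injective
  let c : G → Fin m := fun g => e ⟨χ g, Set.mem_range_self g⟩
  have hc : ∀ g, v (c g) = χ g := fun g => by simp [v, c]
  by_contra hcon
  push Not at hcon
  let β : Fin m → ℂ := fun j => ∑ g ∈ Finset.univ.filter (fun g => c g = j), conj (ψ g)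
  have hsum : ∀ i : Fin m, ∑ j, β j * v j ^ (i : ℕ) = 0 := by
    intro i
    have h := hcon i i.2
    have h' : ∑ g : G, χ g ^ (i : ℕ) * conj (ψ g) = 0 := by
      have h2 : (Nat.card G : ℂ)⁻¹ * ∑ g : G, χ g ^ (i : ℕ) * conj (ψ g) = 0 := h
      rcases mul_eq_zero.mp h2 with h3 | h3
      · exact absurd h3 (inv_ne_zero card_ne_zero_complex)
      · exact h3
    rw [← h', ← Finset.sum_fiberwise Finset.univ c (fun g => χ g ^ (i : ℕ) * conj (ψ g))]
    apply Finset.sum_congr rfl
    intro j _
    simp only [β, Finset.sum_mul]
    apply Finset.sum_congr rfl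
    intro g hg
    rw [Finset.mem_filter] at hg
    rw [← hg.2, hc, mul_comm]
  have hβ : β = 0 := by
    apply Matrix.eq_zero_of_vecMul_eq_zero (Matrix.det_vandermonde_ne_zero_iff.mpr hv)
    funext i
    simp only [Matrix.vecMul, dotProduct, Matrix.vandermonde_apply, Pi.zero_apply]
    exact hsum i
  have h1 : β (c 1) = conj (ψ 1) := by
    have hfilter : Finset.univ.filter (fun g => c g = c 1) = {(1 : G)} := by
      ext g
      simp only [Finset.mem_filter, Finset.mem_univ, true_and, Finset.mem_singleton]
      constructor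
      · intro hg
        have h2 : χ g = χ 1 := by rw [← hc g, ← hc 1, hg]
        have h3 : χ g = (finrank ℂ V : ℂ) := by rw [h2, hχ, Representation.char_one]
        have h4 := (char_eq_finrank_iff ρ g).mp h3
        apply hfaithful
        rw [h4, map_one]; rfl
      · intro hg; rw [hg]
    show ∑ g ∈ Finset.univ.filter (fun g => c g = c 1), conj (ψ g) = conj (ψ 1)
    rw [hfilter, Finset.sum_singleton]
  rw [hβ] at h1
  have h2 : ψ 1 ≠ 0 := irr_one_ne_zero ⟨ψ, hψ⟩
  apply h2
  have h3 : conj (ψ 1) = 0 := h1.symm
  simpa using h3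

end Cfsg.Agent.S0168
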