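import Cfsg.Statements.S0198
import Mathlib
import Cfsg.Agent.Lib.Helper4.CharSimple
import Cfsg.Agent.Lib.Helper5.Isom

set_option autoImplicit false
open Cfsg Cfsg.Agent.Lib.Helper4 Cfsg.Agent.Lib.Helper5

namespace Cfsg.Agent.S0198

/-- The isometry lemma behind exceptional characters. Let τ be a family of generalized characters of a finite group G indexed by Fin n, with τ i₀ = 0, every τ i vanishing at the identity, and inner products ⟨τ i, τ j⟩ = 2 if i = j and 1 otherwise for i, j ≠ i₀. Then there are a sign ε and pairwise distinct irreducible characters μ i with τ i = ε (μ i − μ i₀) for all i. -/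
theorem result {G : Type*} [Group G] [Fintype G] (n : ℕ) (i₀ : Fin n) (τ : Fin n → (G → ℂ)) (h0 : τ i₀ = 0) (hgen : ∀ i, Cfsg.IsGeneralizedCharacter G (τ i)) (hone : ∀ i, τ i 1 = 0) (hgram : ∀ i j, i ≠ i₀ → j ≠ i₀ → Cfsg.classInner (τ i) (τ j) = if i = j then 2 else 1) : ∃ ε : ℂ, (ε = 1 ∨ ε = -1) ∧ ∃ μ : Fin n → (G → ℂ), (∀ i, Cfsg.IsIrrCharacter G (μ i)) ∧ Function.Injective μ ∧ ∀ i, τ i = ε • (μ i - μ i₀) := by
  classical
  have key : ∀ i, ∃ α β : IrrCharacter G, i ≠ i₀ →
      (α ≠ β ∧ τ i = (α : G → ℂ) - (β : G → ℂ)) := by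
    intro i
    by_cases hi : i = i₀
    · exact ⟨trivIrr, trivIrr, fun h => absurd hi h⟩
    · have h2 := hgram i i hi hi
      rw [if_pos rfl] at h2
      obtain ⟨α, β, hne, hτ⟩ := norm_two_decomp (τ i) (hgen i) h2 (hone i)
      exact ⟨α, β, fun _ => ⟨hne, hτ⟩⟩
  choose α β hαβ using key
  have hg1 : ∀ i j, i ≠ i₀ → j ≠ i₀ → i ≠ j →
      (α i = α j ∧ β i ≠ β j) ∨ (α i ≠ α j ∧ β i = β j) := by
    intro i j hi hj hij
    have h := hgram i j hi hj
    rw [if_neg hij, (hαβ i hi).2, (hαβ j hj).2] at h
    exact gram_one _ _ _ _ (hαβ i hi).1 h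
  by_cases hex : ∃ i₁, i₁ ≠ i₀
  · obtain ⟨i₁, hi₁⟩ := hex
    by_cases hB : ∀ j, j ≠ i₀ → β j = β i₁
    · refine ⟨1, Or.inl rfl, fun i => if i = i₀ then (β i₁ : G → ℂ) else (α i : G → ℂ),
        ?_, ?_, ?_⟩
      · intro i
        by_cases hi : i = i₀
        · simp only [hi, if_true]; exact (β i₁).2
        · simp only [hi, if_false]; exact (α i).2
      · intro i j hij
        by_contra hne
        by_cases hi : i = i₀
        · have hj : j ≠ i₀ := fun h => hne (hi.trans h.symm)
          simp only [hi, hj, if_true, if_false] at hij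
          have h3 : β i₁ = α j := Subtype.ext hij
          exact (hαβ j hj).1 (by rw [hB j hj, h3])
        · by_cases hj : j = i₀
          · simp only [hi, hj, if_true, if_false] at hij
            have h3 : α i = β i₁ := Subtype.ext hij
            exact (hαβ i hi).1 (by rw [hB i hi, h3])
          · simp only [hi, hj, if_false] at hij
            have h3 : α i = α j := Subtype.ext hij
            rcases hg1 i j hi hj hne with h | h
            · exact h.2 ((hB i hi).trans (hB j hj).symm)
            · exact h.1 h3
      · intro i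
        by_cases hi : i = i₀
        · simp [hi, h0]
        · simp only [hi, if_false, if_true, one_smul]
          rw [(hαβ i hi).2, hB i hi]
    · push Not at hB
      obtain ⟨j₂, hj₂, hβ₂⟩ := hB
      have hj₂ne : j₂ ≠ i₁ := fun h => hβ₂ (by rw [h])
      have hα₂ : α j₂ = α i₁ := by
        rcases hg1 i₁ j₂ hi₁ hj₂ hj₂ne.symm with h | h
        · exact h.1.symm
        · exact absurd h.2.symm hβ₂
      have hA : ∀ k, k ≠ i₀ → α k = α i₁ := by
        intro k hk
        by_cases hk1 : k = i₁
        · rw [hk1]
        · rcases hg1 i₁ k hi₁ hk (Ne.symm hk1) with h | h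
          · exact h.1.symm
          · exfalso
            have hk2 : k ≠ j₂ := fun h' => h.1 (by rw [h', hα₂])
            rcases hg1 j₂ k hj₂ hk (Ne.symm hk2) with h' | h'
            · exact h.1 (hα₂.symm.trans h'.1)
            · exact hβ₂ (h'.2.trans h.2.symm)
      refine ⟨-1, Or.inr rfl, fun i => if i = i₀ then (α i₁ : G → ℂ) else (β i : G → ℂ),
        ?_, ?_, ?_⟩
      · intro i
        by_cases hi : i = i₀
        · simp only [hi, if_true]; exact (α i₁).2
        · simp only [hi, if_false]; exact (β i).2
      · intro i j hij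
        by_contra hne
        by_cases hi : i = i₀
        · have hj : j ≠ i₀ := fun h => hne (hi.trans h.symm)
          simp only [hi, hj, if_true, if_false] at hij
          have h3 : α i₁ = β j := Subtype.ext hij
          exact (hαβ j hj).1 (by rw [hA j hj, h3])
        · by_cases hj : j = i₀
          · simp only [hi, hj, if_true, if_false] at hij
            have h3 : β i = α i₁ := Subtype.ext hij
            exact (hαβ i hi).1 (by rw [hA i hi, h3])
          · simp only [hi, hj, if_false] at hij
            have h3 : β i = β j := Subtype.ext hij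
            rcases hg1 i j hi hj hne with h | h
            · exact h.2 h3
            · exact h.1 ((hA i hi).trans (hA j hj).symm)
      · intro i
        by_cases hi : i = i₀
        · simp [hi, h0]
        · simp only [hi, if_false, if_true]
          rw [(hαβ i hi).2, hA i hi, neg_smul, one_smul, neg_sub]
  · push Not at hex
    refine ⟨1, Or.inl rfl, fun _ => ((trivIrr : IrrCharacter G) : G → ℂ), fun _ => trivIrr.2, ?_, ?_⟩
    · intro i j _; rw [hex i, hex j]
    · intro i; rw [hex i, h0]; simp

end Cfsg.Agent.S0198
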