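import Cfsg.Statements.S0170
import Mathlib
import Cfsg.Agent.Lib.Helper35.Ind
import Cfsg.Agent.Lib.Helper4.CharClosure
import Cfsg.Agent.Lib.Helper5.Isom
import Cfsg.Agent.S0198

set_option autoImplicit false
open Cfsg Cfsg.Agent.Lib.Helper4 Cfsg.Agent.Lib.Helper5

namespace Cfsg.Agent.S0170

/-- Exceptional characters. Let S be a subset of a finite group contained in its normalizer N and meeting its conjugates by elements outside N only in the identity. Given n ≥ 2 distinct irreducible characters of N of equal degree that vanish on N away from S, there exist a sign ε and n distinct irreducible characters θ_i of G such that inducing χ_i − χ_j to G gives ε (θ_i − θ_j) for all i, j. -/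
theorem result {G : Type*} [Group G] [Fintype G] (S : Set G) (hSN : S ⊆ Subgroup.normalizer S) (hTI : ∀ g : G, g ∉ Subgroup.normalizer S → ∀ s ∈ S, g * s * g⁻¹ ∈ S → s = 1) (n : ℕ) (hn : 2 ≤ n) (χ : Fin n → (Subgroup.normalizer S → ℂ)) (hirr : ∀ i, Cfsg.IsIrrCharacter (Subgroup.normalizer S) (χ i)) (hinj : Function.Injective χ) (hvan : ∀ i, ∀ x : Subgroup.normalizer S, (x : G) ∉ S → χ i x = 0) (hdeg : ∀ i j, χ i 1 = χ j 1) : ∃ ε : ℂ, (ε = 1 ∨ ε = -1) ∧ ∃ θ : Fin n → (G → ℂ), (∀ i, Cfsg.IsIrrCharacter G (θ i)) ∧ Function.Injective θ ∧ ∀ i j, Cfsg.indFun (Subgroup.normalizer S) (χ i) - Cfsg.indFun (Subgroup.normalizer S) (χ j) = ε • (θ i - θ j) := by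
  classical
  letI : Fintype (Subgroup.normalizer S) := Fintype.ofFinite _
  have hnpos : 0 < n := by omega
  let i₀ : Fin n := ⟨0, hnpos⟩
  let τ : Fin n → (G → ℂ) := fun i =>
    indFun (Subgroup.normalizer S) (χ i) - indFun (Subgroup.normalizer S) (χ i₀)
  have hchar : ∀ i, IsCharacter (Subgroup.normalizer S) (χ i) :=
    fun i => isCharacter_of_irr ⟨χ i, hirr i⟩
  have hcf : ∀ i, IsClassFunction (Subgroup.normalizer S) (χ i) :=
    fun i => isClassFunction_irr ⟨χ i, hirr i⟩
  have h0 : τ i₀ = 0 := sub_self _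
  have hgen : ∀ i, IsGeneralizedCharacter G (τ i) := fun i =>
    ⟨indFun (Subgroup.normalizer S) (χ i), indFun (Subgroup.normalizer S) (χ i₀),
      isCharacter_indFun _ _ (hchar i), isCharacter_indFun _ _ (hchar i₀), rfl⟩
  have hone : ∀ i, τ i 1 = 0 := by
    intro i
    show indFun (Subgroup.normalizer S) (χ i) 1 - indFun (Subgroup.normalizer S) (χ i₀) 1 = 0
    have h1 : ∀ j, indFun (Subgroup.normalizer S) (χ j) 1
        = (Nat.card (Subgroup.normalizer S) : ℂ)⁻¹ * ((Fintype.card G : ℂ) * χ j 1) := by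
      intro j
      rw [indFun_apply]
      congr 1
      have h2 : ∀ x : G, extendByZero (Subgroup.normalizer S) (χ j) (x⁻¹ * 1 * x) = χ j 1 := by
        intro x
        have h3 : x⁻¹ * 1 * x = ((1 : Subgroup.normalizer S) : G) := by simp
        rw [h3, extendByZero_apply_mem]
      simp only [h2, Finset.sum_const, Finset.card_univ, nsmul_eq_mul]
    rw [h1 i, h1 i₀, hdeg i i₀, sub_self]
  have hgram : ∀ i j, i ≠ i₀ → j ≠ i₀ → classInner (τ i) (τ j) = if i = j then 2 else 1 := by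
    intro i j hi hj
    have e : ∀ k, τ k = indFun (Subgroup.normalizer S) (χ k - χ i₀) :=
      fun k => (Cfsg.Agent.Lib.Helper35.indFun_sub _ _ _).symm
    have hv : ∀ k, ∀ x : Subgroup.normalizer S, (x : G) ∉ S → (χ k - χ i₀) x = 0 := by
      intro k x hx
      rw [Pi.sub_apply, hvan k x hx, hvan i₀ x hx, sub_self]
    have hcf' : IsClassFunction (Subgroup.normalizer S) (χ j - χ i₀) := by
      intro g h
      rw [Pi.sub_apply, Pi.sub_apply, hcf j g h, hcf i₀ g h]
    have hone' : (χ i - χ i₀) 1 = 0 := by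
      rw [Pi.sub_apply, hdeg i i₀, sub_self]
    rw [e i, e j, indFun_ti_isometry S hTI (χ i - χ i₀) (χ j - χ i₀) hcf' (hv i) (hv j) hone']
    have h3 := classInner_diff (⟨χ i, hirr i⟩ : IrrCharacter (Subgroup.normalizer S))
      ⟨χ i₀, hirr i₀⟩ ⟨χ j, hirr j⟩ ⟨χ i₀, hirr i₀⟩
    rw [h3]
    have h1 : (⟨χ i, hirr i⟩ : IrrCharacter (Subgroup.normalizer S)) ≠ ⟨χ i₀, hirr i₀⟩ :=
      fun h => hi (hinj (congrArg Subtype.val h))
    have h2 : (⟨χ i₀, hirr i₀⟩ : IrrCharacter (Subgroup.normalizer S)) ≠ ⟨χ j, hirr j⟩ :=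
      fun h => hj (hinj (congrArg Subtype.val h)).symm
    rw [if_neg h1, if_neg h2, if_pos rfl]
    by_cases hij : i = j
    · subst hij
      rw [if_pos rfl, if_pos rfl]; norm_num
    · rw [if_neg hij, if_neg (fun h => hij (hinj (congrArg Subtype.val h)))]; norm_num
  obtain ⟨ε, hε, μ, hμirr, hμinj, hμ⟩ := Cfsg.Agent.S0198.result n i₀ τ h0 hgen hone hgram
  refine ⟨ε, hε, μ, hμirr, hμinj, ?_⟩
  intro i j
  have hi := hμ i
  have hj := hμ j
  have h4 : indFun (Subgroup.normalizer S) (χ i) - indFun (Subgroup.normalizer S) (χ j)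
      = τ i - τ j := by
    show _ = (indFun (Subgroup.normalizer S) (χ i) - indFun (Subgroup.normalizer S) (χ i₀))
      - (indFun (Subgroup.normalizer S) (χ j) - indFun (Subgroup.normalizer S) (χ i₀))
    abel
  rw [h4, hi, hj, ← smul_sub]
  congr 1
  abel

end Cfsg.Agent.S0170
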