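import Cfsg.Statements.S0171
import Mathlib
import Cfsg.Agent.Lib.Helper4.CharClosure
import Cfsg.Agent.Lib.Helper5.BrauerPerm
import Cfsg.Agent.Lib.Helper5.Frob

set_option autoImplicit false
open Cfsg Cfsg.Agent.Lib.Helper4 Cfsg.Agent.Lib.Helper5

namespace Cfsg.Agent.S0171

/-- Let G = K H with K normal, K ⊓ H trivial, and no non-identity element of H commuting with a non-identity element of K (a Frobenius group with kernel K and complement H). Then every non-principal irreducible character of K induces to an irreducible character of G. -/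
theorem result {G : Type*} [Group G] [Fintype G] (K H : Subgroup G) [K.Normal] (hKH : K ⊓ H = ⊥) (hKH' : K ⊔ H = ⊤) (hfpf : ∀ h ∈ H, h ≠ 1 → ∀ k ∈ K, h * k = k * h → k = 1) (τ : K → ℂ) (hτ : Cfsg.IsIrrCharacter K τ) (hτ1 : τ ≠ fun _ => 1) : Cfsg.IsIrrCharacter G (Cfsg.indFun K τ) := by
  classical
  have : Fintype K := Fintype.ofFinite K
  have hfinG : Finite (IrrCharacter G) := irr_finite
  have : Fintype (IrrCharacter G) := Fintype.ofFinite _
  have hchar : IsCharacter G (indFun K τ) := by
    apply isCharacter_indFun K τ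
    obtain ⟨n, ρ, -, hρ⟩ := hτ
    exact ⟨n, ρ, hρ⟩
  apply isIrrCharacter_of_norm_one _ hchar
  have hcf : IsClassFunction K τ := isClassFunction_irr ⟨τ, hτ⟩
  have hstab : ∀ g : G, conjFun K τ g = τ ↔ g ∈ K := by
    intro g
    constructor
    · intro hg
      by_contra hgK
      have hg' : g ∈ ((K ⊔ H : Subgroup G) : Set G) := by
        rw [hKH']
        trivial
      rw [Subgroup.normal_mul] at hg'
      obtain ⟨c, hc, h, hh, rfl⟩ := Set.mem_mul.mp hg'
      have hh1 : h ≠ 1 := fun h1 => hgK (by rw [h1, mul_one]; exact hc)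
      have hτh : conjFun K τ h = τ := by
        rw [← conjFun_mul, conjFun_of_mem K τ hcf c hc] at hg
        exact hg
      have hbp := brauer_perm (MulAut.conjNormal h : K ≃* K)
      have key : ∀ D : ConjClasses K,
          ConjClasses.map (MulAut.conjNormal h : K ≃* K).toMonoidHom D = D →
            D = ConjClasses.mk 1 := by
        intro D hD
        obtain ⟨k, rfl⟩ := ConjClasses.mk_surjective D
        have h1 : ConjClasses.mk ((MulAut.conjNormal h : K ≃* K) k) = ConjClasses.mk k := hD
        rw [ConjClasses.mk_eq_mk_iff_isConj, isConj_iff] at h1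
        obtain ⟨d, hd⟩ := h1
        have hd' : (d : G) * (h * (k : G) * h⁻¹) * (d : G)⁻¹ = (k : G) := congrArg Subtype.val hd
        have hxK : (d : G) * h ∉ K := by
          intro hmem
          have h2 : h ∈ K := by
            have h3 := K.mul_mem (K.inv_mem d.2) hmem
            simpa using h3
          have h3 : h ∈ K ⊓ H := ⟨h2, hh⟩
          rw [hKH] at h3
          exact hh1 (Subgroup.mem_bot.mp h3)
        have hcomm : ((d : G) * h) * (k : G) = (k : G) * ((d : G) * h) := by
          calc (d : G) * h * (k : G)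
              = ((d : G) * (h * (k : G) * h⁻¹) * (d : G)⁻¹) * ((d : G) * h) := by group
            _ = (k : G) * ((d : G) * h) := by rw [hd']
        have hk1 := frob_not_commute K H hKH' hfpf _ hxK (k : G) k.2 hcomm
        have h4 : k = 1 := Subtype.ext hk1
        rw [h4]
      have hsub : Subsingleton {C : ConjClasses K //
          ConjClasses.map (MulAut.conjNormal h : K ≃* K).toMonoidHom C = C} := by
        constructor
        rintro ⟨C, hC⟩ ⟨C', hC'⟩
        apply Subtype.ext
        exact (key C hC).trans (key C' hC').symm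
      have hfin : Finite (IrrCharacter K) := irr_finite
      have hsub' : Subsingleton {χ : IrrCharacter K //
          (χ : K → ℂ) ∘ (MulAut.conjNormal h : K ≃* K) = (χ : K → ℂ)} := by
        have h1 : Nat.card {C : ConjClasses K //
            ConjClasses.map (MulAut.conjNormal h : K ≃* K).toMonoidHom C = C} ≤ 1 :=
          Finite.card_le_one_iff_subsingleton.mpr hsub
        rw [hbp] at h1
        exact Finite.card_le_one_iff_subsingleton.mp h1
      have hτα : τ ∘ (MulAut.conjNormal h : K ≃* K) = τ := by
        funext k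
        exact congrFun hτh k
      have e1 : (⟨⟨τ, hτ⟩, hτα⟩ : {χ : IrrCharacter K //
          (χ : K → ℂ) ∘ (MulAut.conjNormal h : K ≃* K) = (χ : K → ℂ)}) =
          ⟨⟨fun _ => 1, Cfsg.Agent.Lib.Helper5.isIrrCharacter_one K⟩, rfl⟩ := Subsingleton.elim _ _
      exact hτ1 (congrArg (fun x => (x.1 : K → ℂ)) e1)
    · intro hg
      exact conjFun_of_mem K τ hcf g hg
  have hcard : Nat.card {g : G // conjFun K τ g = τ} = Nat.card K :=
    Nat.card_congr (Equiv.subtypeEquivRight hstab)
  have h1 := card_mul_classInner_indFun_self K τ hτ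
  rw [hcard] at h1
  have hK0 : (Nat.card K : ℂ) ≠ 0 := by exact_mod_cast Nat.card_pos.ne'
  exact mul_left_cancel₀ hK0 (by rw [h1, mul_one])

end Cfsg.Agent.S0171
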