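import Cfsg.Statements.S0172
import Mathlib
import Cfsg.Agent.Lib.Helper5.Frob

set_option autoImplicit false
open Cfsg

namespace Cfsg.Agent.S0172

theorem comm_sum (M : Type*) [Group M] [Fintype M] [DecidableEq M] :
    ∑ x : M, (Finset.univ.filter (fun y : M => x * y = y * x)).card
      = Nat.card (ConjClasses M) * Nat.card M := by
  classical
  rw [← card_comm_eq_card_conjClasses_mul_card, Nat.card_eq_fintype_card,
    Fintype.card_of_subtype (Finset.univ.filter (fun p : M × M => p.1 * p.2 = p.2 * p.1))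
      (fun p => by simp [commute_iff_eq])]
  rw [Finset.card_filter, Fintype.sum_prod_type]
  apply Finset.sum_congr rfl
  intro x _
  rw [Finset.card_filter]

/-- Class number of a Frobenius group: if G = K H with K normal, K ⊓ H trivial and no non-identity element of H commuting with a non-identity element of K, then |H| * k(G) + 1 = |H| * k(H) + k(K), where k denotes the number of conjugacy classes. -/
theorem result {G : Type*} [Group G] [Finite G] (K H : Subgroup G) [K.Normal] (hKH : K ⊓ H = ⊥) (hKH' : K ⊔ H = ⊤) (hfpf : ∀ h ∈ H, h ≠ 1 → ∀ k ∈ K, h * k = k * h → k = 1) : Nat.card H * Nat.card (ConjClasses G) + 1 = Nat.card H * Nat.card (ConjClasses H) + Nat.card (ConjClasses K) := by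
  classical
  cases nonempty_fintype G
  have hKn : K.Normal := inferInstance
  set n := Nat.card K with hn
  set m := Nat.card H with hm
  have hnpos : 0 < n := Nat.card_pos
  have hdisj : ∀ g : G, g ∈ K → g ∈ H → g = 1 := fun g hgK hgH => by
    have : g ∈ K ⊓ H := ⟨hgK, hgH⟩
    rw [hKH] at this; exact Subgroup.mem_bot.mp this
  have hdecomp : ∀ g : G, ∃ c ∈ K, ∃ h ∈ H, g = c * h := by
    intro g
    have hg' : g ∈ ((K ⊔ H : Subgroup G) : Set G) := by rw [hKH']; trivial
    rw [Subgroup.normal_mul] at hg'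
    obtain ⟨c, hc, h, hh, rfl⟩ := Set.mem_mul.mp hg'
    exact ⟨c, hc, h, hh, rfl⟩
  have hcardG : Nat.card G = n * m := by
    have hc : Subgroup.IsComplement' K H := by
      apply Subgroup.isComplement'_of_disjoint_and_mul_eq_univ
      · rw [disjoint_iff]; exact hKH
      · rw [← Subgroup.normal_mul, hKH']; rfl
    exact hc.card_mul_card.symm
  -- centralizers of nonidentity elements of H lie in H
  have hcent : ∀ h ∈ H, h ≠ 1 → ∀ w : G, h * w = w * h → w ∈ H := by
    intro h hh hh1 w hw
    obtain ⟨c, hc, h', hh', rfl⟩ := hdecomp w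
    have hu : c⁻¹ * (h * c * h⁻¹) = 1 := by
      apply hdisj
      · exact K.mul_mem (K.inv_mem hc) (hKn.conj_mem c hc h)
      · have : c⁻¹ * (h * c * h⁻¹) = h' * h * h'⁻¹ * h⁻¹ := by
          have h1 : h * c = c * h' * h * h'⁻¹ := by
            calc h * c = h * (c * h') * h'⁻¹ := by group
              _ = c * h' * h * h'⁻¹ := by rw [hw]
          rw [h1]; group
        rw [this]
        exact H.mul_mem (H.mul_mem (H.mul_mem hh' hh) (H.inv_mem hh')) (H.inv_mem hh)
    have hcomm : h * c = c * h := by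
      calc h * c = c * (c⁻¹ * (h * c * h⁻¹)) * h := by group
        _ = c * h := by rw [hu, mul_one]
    have hc1 := hfpf h hh hh1 c hc hcomm
    rw [hc1, one_mul]; exact hh'
  set cG : G → ℕ := fun x => (Finset.univ.filter (fun y : G => x * y = y * x)).card with hcG
  set cK : K → ℕ := fun x => (Finset.univ.filter (fun y : K => x * y = y * x)).card with hcK
  set cH : H → ℕ := fun x => (Finset.univ.filter (fun y : H => x * y = y * x)).card with hcH
  have h1 : Nat.card (ConjClasses G) * (n * m) = ∑ x ∈ Finset.univ.filter (fun x : G => x ∈ K), cG x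
      + ∑ x ∈ Finset.univ.filter (fun x : G => x ∉ K), cG x := by
    rw [Finset.sum_filter_add_sum_filter_not, ← hcardG, ← comm_sum G]
  have h2 : ∑ x ∈ Finset.univ.filter (fun x : G => x ∈ K), cG x + n
      = Nat.card (ConjClasses K) * n + n * m := by
    rw [← comm_sum K, Finset.sum_subtype (Finset.univ.filter (fun x : G => x ∈ K)) (p := fun x => x ∈ K) (by simp) cG]
    rw [← Finset.add_sum_erase Finset.univ (fun x : K => cG x) (Finset.mem_univ 1),
      ← Finset.add_sum_erase Finset.univ (fun x : K => (Finset.univ.filter (fun y : K => x * y = y * x)).card) (Finset.mem_univ 1)]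
    have e1 : cG ((1 : K) : G) = n * m := by
      rw [← hcardG, Nat.card_eq_fintype_card, ← Finset.card_univ]
      simp [hcG]
    have e2 : (Finset.univ.filter (fun y : K => 1 * y = y * 1)).card = n := by
      rw [hn, Nat.card_eq_fintype_card, ← Finset.card_univ]
      simp
    have e3 : ∑ x ∈ Finset.univ.erase (1 : K), cG x = ∑ x ∈ Finset.univ.erase (1 : K), (Finset.univ.filter (fun y : K => x * y = y * x)).card := by
      apply Finset.sum_congr rfl
      intro x hx
      have hx1 : x ≠ 1 := Finset.ne_of_mem_erase hx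
      symm
      apply Finset.card_bij (fun (y : K) _ => (y : G))
      · intro y hy
        rw [Finset.mem_filter] at hy ⊢
        refine ⟨Finset.mem_univ _, ?_⟩
        have := congrArg Subtype.val hy.2
        simpa using this
      · intro y₁ _ y₂ _ h
        exact Subtype.ext h
      · intro b hb
        rw [Finset.mem_filter] at hb
        have hbK : b ∈ K := by
          by_contra hbK
          have := Cfsg.Agent.Lib.Helper5.frob_not_commute K H hKH' hfpf b hbK (x : G) x.2 hb.2.symm
          exact hx1 (Subtype.ext this)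
        refine ⟨⟨b, hbK⟩, ?_, rfl⟩
        rw [Finset.mem_filter]
        exact ⟨Finset.mem_univ _, Subtype.ext hb.2⟩
    rw [e1, e2, e3]
    ring
  have h3 : ∑ x ∈ Finset.univ.filter (fun x : G => x ∉ K), cG x
      = n * ∑ h ∈ Finset.univ.filter (fun h : H => h ≠ 1), cH h := by
    have e1 : n * ∑ h ∈ Finset.univ.filter (fun h : H => h ≠ 1), cH h
        = ∑ p ∈ (Finset.univ : Finset K) ×ˢ (Finset.univ.filter (fun h : H => h ≠ 1)), cH p.2 := by
      rw [Finset.sum_product]
      simp only [Finset.sum_const, Finset.card_univ, smul_eq_mul]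
      rw [hn, Nat.card_eq_fintype_card]
    rw [e1]
    symm
    apply Finset.sum_bij (fun (p : K × H) _ => (p.1 : G) * (p.2 : G) * (p.1 : G)⁻¹)
    · intro p hp
      rw [Finset.mem_product, Finset.mem_filter] at hp
      rw [Finset.mem_filter]
      refine ⟨Finset.mem_univ _, fun hmem => hp.2.2 ?_⟩
      have h5 : (p.2 : G) ∈ K := by
        have := hKn.conj_mem _ hmem (p.1 : G)⁻¹
        simpa [mul_assoc] using this
      exact Subtype.ext (hdisj _ h5 p.2.2)
    · rintro ⟨k₁, h₁⟩ hp₁ ⟨k₂, h₂⟩ hp₂ heq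
      rw [Finset.mem_product, Finset.mem_filter] at hp₁ hp₂
      simp only at heq hp₁ hp₂
      have hu : (h₂ : G) * (h₁ : G)⁻¹ = 1 := by
        apply hdisj
        · have : (h₂ : G) * (h₁ : G)⁻¹ = ((k₂ : G)⁻¹ * (k₁ : G)) * ((h₁ : G) * ((k₁ : G)⁻¹ * (k₂ : G)) * (h₁ : G)⁻¹) := by
            have h6 : (h₂ : G) = (k₂ : G)⁻¹ * ((k₁ : G) * (h₁ : G) * (k₁ : G)⁻¹) * (k₂ : G) := by
              rw [heq]; group
            rw [h6]; group
          rw [this]
          exact K.mul_mem (K.mul_mem (K.inv_mem k₂.2) k₁.2)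
            (hKn.conj_mem _ (K.mul_mem (K.inv_mem k₁.2) k₂.2) _)
        · exact H.mul_mem h₂.2 (H.inv_mem h₁.2)
      have hh : (h₂ : G) = (h₁ : G) := by
        calc (h₂ : G) = (h₂ : G) * (h₁ : G)⁻¹ * (h₁ : G) := by group
          _ = (h₁ : G) := by rw [hu, one_mul]
      rw [hh] at heq
      have hcomm : (h₁ : G) * ((k₂ : G)⁻¹ * (k₁ : G)) = ((k₂ : G)⁻¹ * (k₁ : G)) * (h₁ : G) := by
        calc (h₁ : G) * ((k₂ : G)⁻¹ * (k₁ : G))
            = (k₂ : G)⁻¹ * ((k₂ : G) * (h₁ : G) * (k₂ : G)⁻¹) * (k₁ : G) := by group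
          _ = (k₂ : G)⁻¹ * ((k₁ : G) * (h₁ : G) * (k₁ : G)⁻¹) * (k₁ : G) := by rw [heq]
          _ = ((k₂ : G)⁻¹ * (k₁ : G)) * (h₁ : G) := by group
      have hk := hfpf (h₁ : G) h₁.2 (fun h => hp₁.2.2 (Subtype.ext h)) _
        (K.mul_mem (K.inv_mem k₂.2) k₁.2) hcomm
      have hk' : (k₁ : G) = (k₂ : G) := by
        calc (k₁ : G) = (k₂ : G) * ((k₂ : G)⁻¹ * (k₁ : G)) := by group
          _ = (k₂ : G) := by rw [hk, mul_one]
      exact Prod.ext (Subtype.ext hk') (Subtype.ext hh.symm)
    · intro x hx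
      rw [Finset.mem_filter] at hx
      obtain ⟨c, hc, h, hh, rfl⟩ := hdecomp x
      have hh1 : h ≠ 1 := fun h1 => hx.2 (by rw [h1, mul_one]; exact hc)
      obtain ⟨k₁, hk₁, hconj⟩ := Cfsg.Agent.Lib.Helper5.frob_conj K H hfpf h hh hh1 c hc
      refine ⟨(⟨k₁, hk₁⟩, ⟨h, hh⟩), ?_, hconj.symm⟩
      rw [Finset.mem_product, Finset.mem_filter]
      exact ⟨Finset.mem_univ _, Finset.mem_univ _, fun h => hh1 (congrArg Subtype.val h)⟩
    · rintro ⟨k, h⟩ hp
      rw [Finset.mem_product, Finset.mem_filter] at hp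
      simp only at hp
      have hh1 : (h : G) ≠ 1 := fun h' => hp.2.2 (Subtype.ext h')
      show cH h = cG ((k : G) * (h : G) * (k : G)⁻¹)
      apply Finset.card_bij (fun (y : H) _ => (k : G) * (y : G) * (k : G)⁻¹)
      · intro y hy
        rw [Finset.mem_filter] at hy ⊢
        refine ⟨Finset.mem_univ _, ?_⟩
        have h7 : (h : G) * (y : G) = (y : G) * (h : G) := congrArg Subtype.val hy.2
        calc (k : G) * (h : G) * (k : G)⁻¹ * ((k : G) * (y : G) * (k : G)⁻¹)
            = (k : G) * ((h : G) * (y : G)) * (k : G)⁻¹ := by group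
          _ = (k : G) * ((y : G) * (h : G)) * (k : G)⁻¹ := by rw [h7]
          _ = (k : G) * (y : G) * (k : G)⁻¹ * ((k : G) * (h : G) * (k : G)⁻¹) := by group
      · intro y₁ _ y₂ _ heq
        apply Subtype.ext
        have := congrArg (fun t => (k : G)⁻¹ * t * (k : G)) heq
        simpa [mul_assoc] using this
      · intro z hz
        rw [Finset.mem_filter] at hz
        have hw : (h : G) * ((k : G)⁻¹ * z * (k : G)) = ((k : G)⁻¹ * z * (k : G)) * (h : G) := by
          calc (h : G) * ((k : G)⁻¹ * z * (k : G))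
              = (k : G)⁻¹ * ((k : G) * (h : G) * (k : G)⁻¹ * z) * (k : G) := by group
            _ = (k : G)⁻¹ * (z * ((k : G) * (h : G) * (k : G)⁻¹)) * (k : G) := by rw [hz.2]
            _ = ((k : G)⁻¹ * z * (k : G)) * (h : G) := by group
        have hmem := hcent (h : G) h.2 hh1 _ hw
        refine ⟨⟨_, hmem⟩, ?_, by group⟩
        rw [Finset.mem_filter]
        exact ⟨Finset.mem_univ _, Subtype.ext hw⟩
  have h4 : Nat.card (ConjClasses H) * m = m + ∑ h ∈ Finset.univ.filter (fun h : H => h ≠ 1), cH h := by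
    rw [← comm_sum H, ← Finset.add_sum_erase Finset.univ _ (Finset.mem_univ (1 : H))]
    congr 1
    · rw [hm, Nat.card_eq_fintype_card, ← Finset.card_univ]
      simp
    · apply Finset.sum_congr
      · ext h; simp
      · intro x _; rfl
  have h4' : n * (Nat.card (ConjClasses H) * m)
      = n * (m + ∑ h ∈ Finset.univ.filter (fun h : H => h ≠ 1), cH h) := by rw [h4]
  apply Nat.eq_of_mul_eq_mul_left hnpos
  nlinarith [h1, h2, h3, h4, h4']

end Cfsg.Agent.S0172
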