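import Cfsg.Statements.S0174
import Mathlib
import Cfsg.Agent.Lib.Helper20.Clifford

set_option autoImplicit false
open Cfsg

namespace Cfsg.Agent.S0174

/-- The Clifford Theorem for characters: if θ is an irreducible character of a finite group G, N is a normal subgroup and χ is an irreducible character of N occurring in the restriction of θ, then θ restricted to N equals e times the sum of the distinct G-conjugates of χ, where e is the inner product of the restriction with χ. -/
theorem result {G : Type*} [Group G] [Fintype G] (N : Subgroup G) [Fintype N] (hN : N.Normal) (θ : G → ℂ) (hθ : Cfsg.IsIrrCharacter G θ) (χ : N → ℂ) (hχ : Cfsg.IsIrrCharacter N χ) (hconst : Cfsg.classInner (fun n : N => θ n) χ ≠ 0) : (fun n : N => θ n) = Cfsg.classInner (fun n : N => θ n) χ • ∑ᶠ ψ ∈ {ψ : N → ℂ | ∃ g : G, ψ = fun n : N => χ ⟨g * n * g⁻¹, hN.conj_mem n n.2 g⟩}, ψ := by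
  classical
  haveI := hN
  have := Cfsg.Agent.Lib.Helper4.irr_finite (G := N)
  letI : Fintype (IrrCharacter N) := Fintype.ofFinite _
  have hcfθ : IsClassFunction G θ :=
    Cfsg.Agent.Lib.Helper35.isClassFunction_of_isCharacter (Cfsg.Agent.Lib.Helper35.isChar_of_irr hθ)
  have hcf1 : IsClassFunction N (fun n : N => θ n) := Cfsg.Agent.Lib.Helper35.isClassFunction_res N hcfθ
  set e := Cfsg.classInner (fun n : N => θ n) χ with he
  set S : Set (N → ℂ) := {ψ : N → ℂ | ∃ g : G, ψ = fun n : N => χ ⟨g * n * g⁻¹, hN.conj_mem n n.2 g⟩} with hS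
  have hSirr : ∀ ψ ∈ S, IsIrrCharacter N ψ := by
    rintro ψ ⟨g, rfl⟩
    exact Cfsg.Agent.Lib.Helper20.conjFun_irr N hχ g
  let T : Finset (IrrCharacter N) := Finset.univ.filter (fun μ => μ.1 ∈ S)
  have hST : S = Subtype.val '' (T : Set (IrrCharacter N)) := by
    ext ψ
    constructor
    · intro hψ
      exact ⟨⟨ψ, hSirr ψ hψ⟩, by simp [T, hψ], rfl⟩
    · rintro ⟨μ, hμ, rfl⟩
      simpa [T] using hμ
  have hsum : ∑ᶠ ψ ∈ S, ψ = ∑ μ ∈ T, (μ : N → ℂ) := by
    rw [hST, finsum_mem_image Subtype.val_injective.injOn, finsum_mem_coe_finset]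
  rw [hsum]
  have hexp := Cfsg.Agent.Lib.Helper4.classFunction_expansion _ hcf1
  rw [hexp, Finset.smul_sum, Finset.sum_filter]
  apply Finset.sum_congr rfl
  intro μ _
  by_cases hμ : μ.1 ∈ S
  · rw [if_pos hμ]
    obtain ⟨g, hg⟩ := hμ
    have h1 := Cfsg.Agent.Lib.Helper20.classInner_res_conjFun N hcfθ χ g
    have h2 : Cfsg.classInner (fun n : N => θ n) (μ : N → ℂ) = e := by
      rw [hg]; exact h1
    rw [h2]
  · rw [if_neg hμ]
    have h2 : Cfsg.classInner (fun n : N => θ n) (μ : N → ℂ) = 0 := by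
      by_contra hne
      exact hμ (Cfsg.Agent.Lib.Helper20.clifford_conj N hχ hθ hconst μ.2 hne)
    rw [h2, zero_smul]

end Cfsg.Agent.S0174
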