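import Cfsg.Statements.S0175
import Mathlib
import Cfsg.Agent.Lib.Helper20.PermChar
import Cfsg.Agent.Lib.Helper4.CharSimple
import Cfsg.Agent.Lib.Helper4.CharClosure
import Cfsg.Agent.Lib.Helper5.CharInd

set_option autoImplicit false
open Cfsg Cfsg.Agent.Lib.Helper4 Cfsg.Agent.Lib.Helper5
open scoped commutatorElement

namespace Cfsg.Agent.S0175

/-- Taketa's Theorem on M-groups: if every irreducible complex character of a finite group is induced from a linear character (a homomorphism to ℂˣ) of some subgroup, the group is solvable. -/
theorem result {G : Type*} [Group G] [Fintype G] (hM : ∀ χ : G → ℂ, Cfsg.IsIrrCharacter G χ → ∃ (H : Subgroup G) (lam : H →* ℂˣ), χ = Cfsg.indFun H (fun h => (lam h : ℂ))) : Group.IsSolvable G := by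
  classical
  have := irr_finite (G := G)
  letI : Fintype (IrrCharacter G) := Fintype.ofFinite _
  have hval : ∀ (H : Subgroup G) (θ : H → ℂ) (g : G),
      (∀ x : G, extendByZero H θ (x⁻¹ * g * x) = 1) →
        indFun H θ g = (Nat.card H : ℂ)⁻¹ * (Nat.card G : ℂ) := by
    intro H θ g h
    rw [indFun_apply]
    simp only [h, Finset.sum_const, Finset.card_univ, nsmul_eq_mul, mul_one,
      Nat.card_eq_fintype_card]
  have main : ∀ d : ℕ, ∀ χ : IrrCharacter G, (χ : G → ℂ) 1 = (d : ℂ) →
      ∀ g ∈ derivedSeries G d, (χ : G → ℂ) g = (χ : G → ℂ) 1 := by
    intro d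
    induction d using Nat.strong_induction_on with
    | _ d ih =>
      intro χ hχd g hg
      obtain ⟨H, lam, hχ⟩ := hM χ.1 χ.2
      have hcardH : (Nat.card H : ℂ) ≠ 0 := by
        exact_mod_cast (Nat.card_pos (α := H)).ne'
      have h1 : (χ : G → ℂ) 1 = (Nat.card H : ℂ)⁻¹ * (Nat.card G : ℂ) := by
        rw [hχ]
        apply hval
        intro x
        have h2 : x⁻¹ * 1 * x = ((1 : H) : G) := by simp
        rw [h2, extendByZero_apply_mem]
        simp
      have hd : d = H.index := by
        have h2 : (d : ℂ) * (Nat.card H : ℂ) = (Nat.card G : ℂ) := by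
          rw [← hχd, h1]
          field_simp
        have h3 : d * Nat.card H = Nat.card G := by exact_mod_cast h2
        have h4 := H.card_mul_index
        have hpos : 0 < Nat.card H := Nat.card_pos
        nlinarith
      have hdpos : 0 < d := by
        rw [hd]
        exact Nat.pos_of_ne_zero H.index_ne_zero_of_finite
      have hle : derivedSeries G (d - 1) ≤ H := by
        by_cases hd1 : d = 1
        · have h2 : H = ⊤ := Subgroup.index_eq_one.mp (hd ▸ hd1)
          rw [h2]
          exact le_top
        · have hd2 : 1 < d := by omega
          intro u hu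
          have hπchar : IsCharacter G (indFun H (fun _ : H => (1 : ℂ))) :=
            isCharacter_indFun H _ (isCharacter_of_irr (trivIrr (G := H)))
          obtain ⟨m, hm⟩ := exists_decomp_of_isCharacter _ hπchar
          choose n hnpos hn using (fun ξ : IrrCharacter G => irr_one_nat ξ)
          have hπ1 : indFun H (fun _ : H => (1 : ℂ)) 1 = (d : ℂ) := by
            rw [← hχd, h1]
            apply hval
            intro x
            have h2 : x⁻¹ * 1 * x = ((1 : H) : G) := by simp
            rw [h2, extendByZero_apply_mem]
          have hsum : ∑ ξ : IrrCharacter G, m ξ * n ξ = d := by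
            have h5 := congrFun hm 1
            rw [hπ1] at h5
            simp only [Finset.sum_apply, Pi.smul_apply, smul_eq_mul, hn] at h5
            exact_mod_cast h5.symm
          have hmtriv : m trivIrr = 1 := by
            have h6 : classInner (indFun H (fun _ : H => (1 : ℂ))) (trivIrr : IrrCharacter G).1
                = (m trivIrr : ℂ) := by
              conv_lhs => rw [hm]
              exact classInner_sum_irr _ _
            rw [frobenius_reciprocity H _ _ (isClassFunction_irr trivIrr)] at h6
            have h7 : classInner (fun _ : H => (1 : ℂ))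
                (fun h : H => (trivIrr : IrrCharacter G).1 h) = 1 := by
              rw [classInner_def]
              simp only [trivIrr_apply, map_one, mul_one, Finset.sum_const, Finset.card_univ,
                nsmul_eq_mul]
              rw [← Nat.card_eq_fintype_card, inv_mul_cancel₀ hcardH]
            rw [h7] at h6
            exact_mod_cast h6.symm
          have hntriv : n trivIrr = 1 := by
            have h8 := hn trivIrr
            rw [trivIrr_apply] at h8
            exact_mod_cast h8.symm
          have hlt : ∀ ξ : IrrCharacter G, m ξ ≠ 0 → n ξ < d := by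
            intro ξ hξ
            by_cases hξt : ξ = trivIrr
            · rw [hξt, hntriv]
              exact hd2
            · have h8 : m trivIrr * n trivIrr + m ξ * n ξ ≤ ∑ ξ : IrrCharacter G, m ξ * n ξ := by
                rw [← Finset.sum_pair (f := fun ξ => m ξ * n ξ) (Ne.symm hξt)]
                exact Finset.sum_le_sum_of_subset (Finset.subset_univ _)
              rw [hsum, hmtriv, hntriv] at h8
              have h9 : 1 ≤ m ξ := Nat.one_le_iff_ne_zero.mpr hξ
              nlinarith [hnpos ξ]
          have hπu : indFun H (fun _ : H => (1 : ℂ)) u = indFun H (fun _ : H => (1 : ℂ)) 1 := by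
            rw [hm]
            simp only [Finset.sum_apply, Pi.smul_apply, smul_eq_mul]
            apply Finset.sum_congr rfl
            intro ξ _
            by_cases hξ : m ξ = 0
            · rw [hξ]
              simp
            · congr 1
              have h9 := hlt ξ hξ
              exact ih (n ξ) h9 ξ (hn ξ) u (derivedSeries_antitone G (by omega) hu)
          rw [Cfsg.Agent.Lib.Helper20.indFun_one_apply, Cfsg.Agent.Lib.Helper20.indFun_one_apply]
            at hπu
          have h10 : Nat.card {t : G // t⁻¹ * u * t ∈ H} = Nat.card {t : G // t⁻¹ * 1 * t ∈ H} := by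
            have h11 := mul_left_cancel₀ (inv_ne_zero hcardH) hπu
            exact_mod_cast h11
          by_contra hu'
          have h11 : Fintype.card {t : G // t⁻¹ * u * t ∈ H} < Fintype.card G :=
            Fintype.card_subtype_lt (x := 1) (by simpa using hu')
          have h12 : Nat.card {t : G // t⁻¹ * 1 * t ∈ H} = Nat.card G := by
            apply Nat.card_congr
            exact Equiv.subtypeUnivEquiv (fun t => by simp)
          have h13 : Nat.card {t : G // t⁻¹ * u * t ∈ H} < Nat.card G := by
            rw [Nat.card_eq_fintype_card, Nat.card_eq_fintype_card]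
            exact h11
          omega
      have hL : derivedSeries G d ≤ (lam.ker).map H.subtype := by
        have hd' : d = (d - 1) + 1 := by omega
        rw [hd', derivedSeries_succ]
        refine (Subgroup.commutator_mono hle hle).trans ?_
        rw [Subgroup.commutator_le]
        intro a ha b hb
        refine ⟨⁅(⟨a, ha⟩ : H), ⟨b, hb⟩⁆, ?_, rfl⟩
        rw [SetLike.mem_coe, MonoidHom.mem_ker, map_commutatorElement]
        exact commutatorElement_eq_one_iff_commute.mpr (Commute.all _ _)
      rw [h1, hχ]
      apply hval
      intro x
      have hmem : x⁻¹ * g * x ∈ derivedSeries G d := by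
        have h2 := (inferInstance : (derivedSeries G d).Normal).conj_mem g hg x⁻¹
        simpa using h2
      obtain ⟨k, hk, hkx⟩ := hL hmem
      rw [← hkx]
      show extendByZero H _ ((k : G)) = 1
      rw [extendByZero_apply_mem]
      have h3 : lam k = 1 := hk
      simp [h3]
  rw [Group.isSolvable_def]
  choose n hnpos hn using (fun ξ : IrrCharacter G => irr_one_nat ξ)
  refine ⟨∑ ξ : IrrCharacter G, n ξ, ?_⟩
  rw [eq_bot_iff]
  intro g hg
  rw [Subgroup.mem_bot]
  have hconj : IsConj g 1 := by
    rw [isConj_iff_irr]
    intro χ
    exact main (n χ) χ (hn χ) g (derivedSeries_antitone G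
      (Finset.single_le_sum (fun _ _ => Nat.zero_le _) (Finset.mem_univ χ)) hg)
  exact isConj_one_left.mp hconj

end Cfsg.Agent.S0175
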