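import Cfsg.Statements.S0177
import Mathlib
import Cfsg.Agent.Lib.Helper80.Twisted
import Cfsg.Agent.Lib.Helper5.Artin

set_option autoImplicit false
open Cfsg Cfsg.Agent.Lib.Helper4 Cfsg.Agent.Lib.Helper5

namespace Cfsg.Agent.S0177

/-- The Artin induction Theorem: for a character χ of a finite group, |G| • χ is a ℤ-linear combination of functions induced from homomorphisms of cyclic subgroups into ℂˣ. -/
theorem result {G : Type*} [Group G] [Fintype G] (χ : G → ℂ) (hχ : Cfsg.IsCharacter G χ) : ∃ l : List ((A : Subgroup G) × ((A →* ℂˣ) × ℤ)), (∀ t ∈ l, IsCyclic t.1) ∧ (Nat.card G : ℂ) • χ = (l.map fun t => (t.2.2 : ℂ) • Cfsg.indFun t.1 (fun a => (t.2.1 a : ℂ))).sum := by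
  classical
  obtain ⟨c, hc⟩ := artin_exists χ hχ
  haveI : Fintype {A : Subgroup G // IsCyclic A} := Fintype.ofFinite _
  have hfin : ∀ A : Subgroup G, Finite (IrrCharacter A) := fun A => irr_finite
  letI inst2 : ∀ A : Subgroup G, Fintype (IrrCharacter A) := fun A => Fintype.ofFinite _
  have h := hc inferInstance inst2
  have hhom : ∀ (A : {A : Subgroup G // IsCyclic A}) (ψ : IrrCharacter A.1),
      ∃ lam : A.1 →* ℂˣ, (ψ : A.1 → ℂ) = fun a => (lam a : ℂ) := by
    rintro ⟨A, hA⟩ ψ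
    have h1 : (ψ : A → ℂ) 1 = 1 := Cfsg.Agent.Lib.Helper80.irr_one_of_comm
      (fun a b => (IsCyclic.commGroup (α := A)).mul_comm a b) ψ
    obtain ⟨lam, hlam⟩ := linToIrr_bijective.2 ⟨ψ, h1⟩
    refine ⟨lam, ?_⟩
    have h2 := congrArg (fun χ : {χ : IrrCharacter A // (χ : A → ℂ) 1 = 1} => (χ.1 : A → ℂ)) hlam
    exact h2.symm
  choose lam hlam using hhom
  let f : (Σ A : {A : Subgroup G // IsCyclic A}, IrrCharacter A.1) →
      ((A : Subgroup G) × ((A →* ℂˣ) × ℤ)) := fun s => ⟨s.1.1, (lam s.1 s.2, c s.1.1 s.2)⟩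
  refine ⟨(Finset.univ : Finset (Σ A : {A : Subgroup G // IsCyclic A},
    IrrCharacter A.1)).toList.map f, ?_, ?_⟩
  · intro t ht
    rw [List.mem_map] at ht
    obtain ⟨s, -, rfl⟩ := ht
    exact s.1.2
  · rw [List.map_map, Finset.sum_map_toList, Fintype.sum_sigma, h]
    apply Finset.sum_congr rfl
    intro A _
    apply Finset.sum_congr rfl
    intro ψ _
    show _ = ((c A.1 ψ : ℤ) : ℂ) • indFun A.1 (fun a => (lam A ψ a : ℂ))
    rw [← hlam A ψ]

end Cfsg.Agent.S0177
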