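import Cfsg.Statements.S0180
import Mathlib
import Cfsg.Agent.Lib.Helper4.CharExp2
import Cfsg.Agent.Lib.Helper80.EV

set_option autoImplicit false
open Cfsg Cfsg.Agent.Lib.Helper4

namespace Cfsg.Agent.S0180

/-- Every irreducible complex character of a finite group takes only rational values if and only if g is conjugate to g ^ m for every element g and every m coprime to the group order. -/
theorem result {G : Type*} [Group G] [Finite G] : (∀ χ : Cfsg.IrrCharacter G, ∀ g : G, ∃ q : ℚ, (χ : G → ℂ) g = (q : ℂ)) ↔ ∀ m : ℕ, m.Coprime (Nat.card G) → ∀ g : G, IsConj g (g ^ m) := by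
  classical
  cases nonempty_fintype G
  have := irr_finite (G := G)
  letI : Fintype (IrrCharacter G) := Fintype.ofFinite _
  obtain ⟨n, hn⟩ : ∃ n, n = Nat.card G := ⟨_, rfl⟩
  haveI : NeZero n := ⟨by rw [hn]; exact Nat.card_pos.ne'⟩
  haveI : IsCyclotomicExtension ({n} : Set ℕ) ℚ (CyclotomicField n ℚ) :=
    CyclotomicField.isCyclotomicExtension n ℚ
  haveI : IsGalois ℚ (CyclotomicField n ℚ) := IsCyclotomicExtension.isGalois ({n} : Set ℕ) ℚ _
  haveI : FiniteDimensional ℚ (CyclotomicField n ℚ) :=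
    IsCyclotomicExtension.finiteDimensional ({n} : Set ℕ) ℚ _
  let φ : CyclotomicField n ℚ →+* ℂ :=
    (IsAlgClosed.lift : CyclotomicField n ℚ →ₐ[ℚ] ℂ).toRingHom
  have hφinj : Function.Injective φ := φ.injective
  have hφq : ∀ q : ℚ, φ (algebraMap ℚ (CyclotomicField n ℚ) q) = (q : ℂ) := by
    intro q
    simp
  have hz : IsPrimitiveRoot (IsCyclotomicExtension.zeta n ℚ (CyclotomicField n ℚ)) n :=
    IsCyclotomicExtension.zeta_spec n ℚ (CyclotomicField n ℚ)
  obtain ⟨z, hzz⟩ : ∃ z : CyclotomicField n ℚ,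
      z = IsCyclotomicExtension.zeta n ℚ (CyclotomicField n ℚ) := ⟨_, rfl⟩
  rw [← hzz] at hz
  have hζ : IsPrimitiveRoot (φ z) (Nat.card G) := hn ▸ hz.map_of_injective hφinj
  have hpow : ∀ (χ : IrrCharacter G) (g : G), ∃ m : ℕ → ℕ, ∀ k : ℕ, (χ : G → ℂ) (g ^ k) =
      ∑ j ∈ Finset.range (Nat.card G), (m j : ℂ) * (φ z ^ j) ^ k := by
    intro χ g
    obtain ⟨d, ρ, hρ, hχ⟩ := χ.2
    obtain ⟨m, hm⟩ := Cfsg.Agent.Lib.Helper80.character_pow_eq ρ g (Nat.card G) Nat.card_pos
      pow_card_eq_one' (φ z) hζ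
    exact ⟨m, fun k => by rw [← hχ]; exact hm k⟩
  choose mm hmm using hpow
  let x : IrrCharacter G → G → CyclotomicField n ℚ := fun χ g =>
    ∑ j ∈ Finset.range (Nat.card G), (mm χ g j : CyclotomicField n ℚ) * z ^ j
  have hφx : ∀ χ g, φ (x χ g) = (χ : G → ℂ) g := by
    intro χ g
    have h1 := hmm χ g 1
    simp only [pow_one] at h1
    simp only [x, map_sum, map_mul, map_natCast, map_pow]
    exact h1.symm
  have hσx : ∀ (σ : CyclotomicField n ℚ ≃ₐ[ℚ] CyclotomicField n ℚ) (u : ℕ), σ z = z ^ u →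
      ∀ χ g, φ (σ (x χ g)) = (χ : G → ℂ) (g ^ u) := by
    intro σ u hu χ g
    have h1 := hmm χ g u
    simp only [x, map_sum, map_mul, map_natCast, map_pow, hu]
    rw [h1]
    apply Finset.sum_congr rfl
    intro j _
    ring
  constructor
  · intro hrat m hm g
    rw [isConj_iff_irr]
    intro χ
    obtain ⟨q, hq⟩ := hrat χ g
    have hμ : IsPrimitiveRoot (z ^ m) n := hz.pow_of_coprime m (by rw [hn]; exact hm)
    have hirr : Irreducible (Polynomial.cyclotomic n ℚ) :=
      Polynomial.cyclotomic.irreducible_rat (NeZero.pos n)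
    have hσ : (IsCyclotomicExtension.fromZetaAut hμ hirr) z = z ^ m := by
      have h3 := IsCyclotomicExtension.fromZetaAut_spec hμ hirr
      rw [← hzz] at h3
      exact h3
    have hxq : x χ g = algebraMap ℚ (CyclotomicField n ℚ) q := by
      apply hφinj
      rw [hφx, hq, hφq]
    have h2 := hσx _ m hσ χ g
    rw [hxq, AlgEquiv.commutes, ← hxq, hφx] at h2
    exact h2
  · intro hconj χ g
    have hfix : ∀ σ : CyclotomicField n ℚ ≃ₐ[ℚ] CyclotomicField n ℚ, σ (x χ g) = x χ g := by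
      intro σ
      have hσz : IsPrimitiveRoot (σ z) n := hz.map_of_injective σ.injective
      obtain ⟨u, -, hucop, hu⟩ := (hz.isPrimitiveRoot_iff).mp hσz
      apply hφinj
      rw [hσx σ u hu.symm χ g, hφx]
      exact (irr_eq_of_isConj χ (hconj u (by rw [← hn]; exact hucop) g)).symm
    obtain ⟨q, hq⟩ := (IsGalois.mem_range_algebraMap_iff_fixed (x χ g)).mpr hfix
    refine ⟨q, ?_⟩
    rw [← hφx, ← hq, hφq]

end Cfsg.Agent.S0180
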