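import Cfsg.Statements.S0181
import Mathlib

set_option autoImplicit false
open Cfsg

namespace Cfsg.Agent.S0181

/-- Let H be a normal subgroup of a finite group G and ρ an irreducible complex representation whose kernel does not contain H. If g commutes with no non-identity element of H, then the character of ρ vanishes at g. -/
theorem result {G : Type*} [Group G] [Finite G] {V : Type*} [AddCommGroup V] [Module ℂ V] [FiniteDimensional ℂ V] (ρ : Representation ℂ G V) [ρ.IsIrreducible] (H : Subgroup G) [H.Normal] (hker : ∃ h ∈ H, ρ h ≠ LinearMap.id) (g : G) (hg : ∀ h ∈ H, h * g = g * h → h = 1) : ρ.character g = 0 := by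
  classical
  have : Fintype H := Fintype.ofFinite H
  -- every element of the coset `g H` is conjugate to `g`
  have hconj : ∀ h : H, ∃ k : H, g * (h : G) = (k : G) * g * (k : G)⁻¹ := by
    let φ : H → H := fun k => ⟨g⁻¹ * (k : G) * g * (k : G)⁻¹, by
      have h1 : g⁻¹ * (k : G) * g ∈ H := by
        have := ‹H.Normal›.conj_mem (k : G) k.2 g⁻¹
        simpa using this
      exact H.mul_mem h1 (H.inv_mem k.2)⟩
    have hinj : Function.Injective φ := by
      intro k k' hkk
      have h1 : g⁻¹ * (k : G) * g * (k : G)⁻¹ = g⁻¹ * (k' : G) * g * (k' : G)⁻¹ :=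
        congrArg Subtype.val hkk
      have h2 : ((k' : G)⁻¹ * (k : G)) * g = g * ((k' : G)⁻¹ * (k : G)) := by
        have h3 : (k : G) * g * (k : G)⁻¹ = (k' : G) * g * (k' : G)⁻¹ := by
          have := congrArg (fun x => g * x) h1
          simpa [mul_assoc] using this
        calc ((k' : G)⁻¹ * (k : G)) * g = (k' : G)⁻¹ * ((k : G) * g * (k : G)⁻¹) * (k : G) := by group
          _ = (k' : G)⁻¹ * ((k' : G) * g * (k' : G)⁻¹) * (k : G) := by rw [h3]
          _ = g * ((k' : G)⁻¹ * (k : G)) := by group
      have h4 := hg _ (H.mul_mem (H.inv_mem k'.2) k.2) h2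
      apply Subtype.ext
      have h5 : (k : G) = (k' : G) * ((k' : G)⁻¹ * (k : G)) := by group
      rw [h5, h4, mul_one]
    have hsurj : Function.Surjective φ := Finite.surjective_of_injective hinj
    intro h
    obtain ⟨k, hk⟩ := hsurj h
    refine ⟨k, ?_⟩
    have h1 : g⁻¹ * (k : G) * g * (k : G)⁻¹ = (h : G) := congrArg Subtype.val hk
    rw [← h1]; group
  -- the sum over `H`
  let e : V →ₗ[ℂ] V := ∑ h : H, ρ (h : G)
  let W : Subrepresentation ρ :=
    ⟨Representation.invariants (ρ.comp H.subtype), fun x v hv => by
      rw [Representation.mem_invariants] at hv ⊢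
      intro h
      have h1 : x⁻¹ * (h : G) * x ∈ H := by
        have := ‹H.Normal›.conj_mem (h : G) h.2 x⁻¹
        simpa using this
      have h2 := hv ⟨x⁻¹ * (h : G) * x, h1⟩
      change ρ (x⁻¹ * (h : G) * x) v = v at h2
      change ρ (h : G) (ρ x v) = ρ x v
      conv_rhs => rw [← h2]
      rw [← Module.End.mul_apply, ← map_mul, ← Module.End.mul_apply, ← map_mul]
      congr 2
      group⟩
  have hW : W = ⊥ := by
    rcases eq_bot_or_eq_top W with h | h
    · exact h
    · exfalso
      obtain ⟨h0, hh0, hne⟩ := hker
      apply hne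
      apply LinearMap.ext
      intro v
      have hv : v ∈ W.toSubmodule := by rw [h]; trivial
      have hv' : v ∈ Representation.invariants (ρ.comp H.subtype) := hv
      rw [Representation.mem_invariants] at hv'
      exact hv' ⟨h0, hh0⟩
  have he : e = 0 := by
    apply LinearMap.ext
    intro v
    have hv : e v ∈ W.toSubmodule := by
      change e v ∈ Representation.invariants (ρ.comp H.subtype)
      rw [Representation.mem_invariants]
      intro k
      change ρ (k : G) (e v) = e v
      simp only [e, LinearMap.sum_apply, map_sum]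
      rw [← Equiv.sum_comp (Equiv.mulLeft k) (fun h : H => ρ (h : G) v)]
      apply Finset.sum_congr rfl
      intro h _
      simp [Module.End.mul_apply]
    rw [hW] at hv
    exact hv
  have htr : LinearMap.trace ℂ V (ρ g * e) = (Fintype.card H : ℂ) * ρ.character g := by
    simp only [e, Finset.mul_sum, map_sum]
    have : ∀ h : H, LinearMap.trace ℂ V (ρ g * ρ (h : G)) = ρ.character g := by
      intro h
      obtain ⟨k, hk⟩ := hconj h
      rw [← map_mul, hk]
      exact Representation.char_conj ρ g k
    simp only [this, Finset.sum_const, Finset.card_univ, nsmul_eq_mul]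
  rw [he, mul_zero, map_zero] at htr
  have hcard : (Fintype.card H : ℂ) ≠ 0 := by
    exact_mod_cast Fintype.card_pos.ne'
  rcases mul_eq_zero.mp htr.symm with h | h
  · exact absurd h hcard
  · exact h

end Cfsg.Agent.S0181
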