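import Cfsg.Statements.S0184
import Mathlib
import Cfsg.Agent.Lib.Helper5.CharRed

set_option autoImplicit false
open Cfsg

namespace Cfsg.Agent.S0184

theorem exists_central_of_normal {G : Type*} [Group G] [Finite G] (p : ℕ) [Fact p.Prime]
    (hG : IsPGroup p G) (N : Subgroup G) [N.Normal] (hN : N ≠ ⊥) :
    ∃ b ∈ N, b ∈ Subgroup.center G ∧ b ≠ 1 := by
  have hG' : IsPGroup p (ConjAct G) := hG.of_equiv ConjAct.toConjAct
  have hdvd : p ∣ Nat.card N := by
    have hNp : IsPGroup p N := hG.to_subgroup N
    have hnt : Nontrivial N := (Subgroup.nontrivial_iff_ne_bot N).mpr hN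
    obtain ⟨n, hn0, hn⟩ := hNp.nontrivial_iff_card.mp hnt
    exact hn.symm ▸ dvd_pow_self _ (ne_of_gt hn0)
  have h1 : (1 : N) ∈ MulAction.fixedPoints (ConjAct G) N := fun g => smul_one g
  obtain ⟨b, hb, hb1⟩ := hG'.exists_fixed_point_of_prime_dvd_card_of_fixed_point N hdvd h1
  refine ⟨b, b.2, ?_, fun h => hb1 (Subtype.ext h.symm)⟩
  rw [Subgroup.mem_center_iff]
  intro g
  have h2 : g * (b : G) * g⁻¹ = b := congrArg Subtype.val (hb (ConjAct.toConjAct g))
  calc g * (b : G) = g * (b : G) * g⁻¹ * g := by group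
    _ = (b : G) * g := by rw [h2]

theorem mem_zpowers_of_orderOf_eq_prime {C : Type*} [Group C] [Finite C] [IsCyclic C] (p : ℕ)
    (hp : p.Prime) (x y : C) (hx : orderOf x = p) (hy : orderOf y = p) :
    y ∈ Subgroup.zpowers x := by
  classical
  have : Fintype C := Fintype.ofFinite C
  have hle : (Finset.univ.filter (fun a : C => a ^ p = 1)).card ≤ p :=
    IsCyclic.card_pow_eq_one_le hp.pos
  have hsub : (Finset.univ.filter (fun a : C => a ∈ Subgroup.zpowers x)) ⊆
      Finset.univ.filter (fun a : C => a ^ p = 1) := by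
    intro a ha
    simp only [Finset.mem_filter, Finset.mem_univ, true_and] at ha ⊢
    obtain ⟨k, rfl⟩ := ha
    rw [← zpow_natCast, ← zpow_mul, mul_comm, zpow_mul, zpow_natCast, ← hx, pow_orderOf_eq_one,
      one_zpow]
  have hcard : (Finset.univ.filter (fun a : C => a ∈ Subgroup.zpowers x)).card = p := by
    rw [← hx, ← Nat.card_zpowers x, Nat.card_eq_fintype_card, Fintype.card_subtype]
  have heq := Finset.eq_of_subset_of_card_le hsub (by rw [hcard]; exact hle)
  have hy' : y ∈ Finset.univ.filter (fun a : C => a ^ p = 1) := by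
    simp [← hy, pow_orderOf_eq_one]
  rw [← heq] at hy'
  simpa using hy'

/-- A finite p-group admits a faithful irreducible complex representation if and only if its centre is cyclic. -/
theorem result {G : Type*} [Group G] [Finite G] (p : ℕ) [Fact p.Prime] (hG : IsPGroup p G) : (∃ (n : ℕ) (ρ : Representation ℂ G (Fin n → ℂ)), ρ.IsIrreducible ∧ Function.Injective ρ) ↔ IsCyclic (Subgroup.center G) := by
  classical
  have : Fintype G := Fintype.ofFinite G
  constructor
  · rintro ⟨n, ρ, hρ, hinj⟩
    have hnt : Nontrivial (Fin n → ℂ) := Cfsg.Agent.Lib.Helper5.irr_nontrivial ρ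
    have hsc : ∀ z : Subgroup.center G, ∃ c : ℂ, ρ (z : G) = c • LinearMap.id := by
      intro z
      apply Cfsg.Agent.Lib.Helper5.schur_scalar ρ
      intro g v
      rw [← Module.End.mul_apply, ← map_mul, ← Module.End.mul_apply, ← map_mul,
        Subgroup.mem_center_iff.mp z.2 g]
    choose c hc using hsc
    have hcinj : ∀ a b : ℂ, a • (LinearMap.id : (Fin n → ℂ) →ₗ[ℂ] (Fin n → ℂ)) =
        b • LinearMap.id → a = b := by
      intro a b hab
      obtain ⟨v, hv⟩ := exists_ne (0 : Fin n → ℂ)
      have h1 : a • v = b • v :=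
        congrArg (fun f : (Fin n → ℂ) →ₗ[ℂ] (Fin n → ℂ) => f v) hab
      exact smul_left_injective ℂ hv h1
    let f : Subgroup.center G →* ℂ :=
      { toFun := c
        map_one' := by
          apply hcinj
          rw [← hc, one_smul, Subgroup.coe_one, map_one]
          rfl
        map_mul' := fun x y => by
          apply hcinj
          rw [← hc, Subgroup.coe_mul, map_mul, hc, hc]
          apply LinearMap.ext
          intro v
          simp [mul_smul]
          exact smul_comm _ _ _ }
    have hf : Function.Injective f := by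
      intro x y hxy
      apply Subtype.ext
      apply hinj
      have hxy' : c x = c y := hxy
      rw [hc, hc, hxy']
    exact isCyclic_of_injective_ringHom f hf
  · intro hcyc
    rcases subsingleton_or_nontrivial G with hG1 | hG1
    · refine ⟨1, 1, Cfsg.Agent.Lib.Helper5.irr_of_finrank_one _ (by simp), ?_⟩
      intro a b _
      exact Subsingleton.elim a b
    · by_contra hno
      have hcnt : Nontrivial (Subgroup.center G) := hG.center_nontrivial
      have hcp : IsPGroup p (Subgroup.center G) := hG.to_subgroup _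
      obtain ⟨m, hm0, hm⟩ := hcp.nontrivial_iff_card.mp hcnt
      have hdvd : p ∣ Nat.card (Subgroup.center G) := hm.symm ▸ dvd_pow_self _ (ne_of_gt hm0)
      obtain ⟨z₀, hz₀⟩ := exists_prime_orderOf_dvd_card' p hdvd
      have hz1 : (z₀ : G) = 1 := by
        apply Cfsg.Agent.Lib.Helper5.eq_of_irr_eq
        intro n σ hσ
        have hninj : ¬ Function.Injective σ := fun h => hno ⟨n, σ, hσ, h⟩
        have hker : (MonoidHom.ker σ) ≠ ⊥ := fun h => hninj ((MonoidHom.ker_eq_bot_iff σ).mp h)
        obtain ⟨b, hbN, hbc, hb1⟩ := exists_central_of_normal p hG (MonoidHom.ker σ) hker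
        have hHp : IsPGroup p (MonoidHom.ker σ ⊓ Subgroup.center G : Subgroup G) := hG.to_subgroup _
        have hHnt : Nontrivial (MonoidHom.ker σ ⊓ Subgroup.center G : Subgroup G) :=
          ⟨⟨⟨b, hbN, hbc⟩, 1, fun h => hb1 (congrArg Subtype.val h)⟩⟩
        obtain ⟨k, hk0, hk⟩ := hHp.nontrivial_iff_card.mp hHnt
        have hdvd' : p ∣ Nat.card (MonoidHom.ker σ ⊓ Subgroup.center G : Subgroup G) :=
          hk.symm ▸ dvd_pow_self _ (ne_of_gt hk0)
        obtain ⟨y, hy⟩ := exists_prime_orderOf_dvd_card' p hdvd'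
        have hy' : orderOf (⟨(y : G), y.2.2⟩ : Subgroup.center G) = p := by
          rw [← hy, ← Subgroup.orderOf_coe y, ← Subgroup.orderOf_coe]
        obtain ⟨j, hj⟩ := mem_zpowers_of_orderOf_eq_prime p (Fact.out) _ z₀ hy' hz₀
        have hz₀N : (z₀ : G) ∈ MonoidHom.ker σ := by
          have h1 : ((⟨(y : G), y.2.2⟩ : Subgroup.center G) ^ j : Subgroup.center G) = z₀ := hj
          rw [← h1, Subgroup.coe_zpow]
          exact Subgroup.zpow_mem _ y.2.1 j
        rw [MonoidHom.mem_ker] at hz₀N
        rw [hz₀N, map_one]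
      have hz₀' : z₀ = 1 := Subtype.ext hz1
      rw [hz₀', orderOf_one] at hz₀
      exact (Fact.out : p.Prime).one_lt.ne hz₀

end Cfsg.Agent.S0184
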