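import Cfsg.Statements.S0186
import Mathlib
import Cfsg.Agent.Lib.Helper4.CharSimple
import Cfsg.Agent.Lib.Helper5.CharRed

set_option autoImplicit false
open Cfsg Cfsg.Agent.Lib.Helper4 Module Representation

namespace Cfsg.Agent.S0186

/-- Let G be a finite simple group of order n and p a prime dividing n. If G has more than n / p^2 conjugacy classes, then every Sylow p-subgroup of G is abelian. -/
theorem result {G : Type*} [Group G] [Finite G] [IsSimpleGroup G] (p : ℕ) [Fact p.Prime] (hp : p ∣ Nat.card G) (hmany : Nat.card G < p ^ 2 * Nat.card (ConjClasses G)) (P : Sylow p G) (a b : G) (ha : a ∈ P) (hb : b ∈ P) : a * b = b * a := by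
  classical
  cases nonempty_fintype G
  have hpp : p.Prime := Fact.out
  have := irr_finite (G := G)
  letI : Fintype (IrrCharacter G) := Fintype.ofFinite _
  by_cases hp2 : p ^ 2 ∣ Nat.card G
  · -- find a nonprincipal χ with χ(1) < p
    have hex : ∃ χ : IrrCharacter G, χ ≠ trivIrr ∧ ∃ n : ℕ, n < p ∧ (χ : G → ℂ) 1 = n := by
      by_contra hcon
      push Not at hcon
      choose n hnpos hn using (fun χ : IrrCharacter G => irr_one_nat χ)
      have h1 : ∑ χ : IrrCharacter G, (n χ)^2 = Nat.card G := by
        have := sum_sq_irr (G := G)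
        simp only [hn] at this
        exact_mod_cast this
      have h2 : ∀ χ : IrrCharacter G, χ ≠ trivIrr → p ≤ n χ := by
        intro χ hχ
        by_contra hlt
        push Not at hlt
        exact hcon χ hχ (n χ) hlt (hn χ)
      have h3 : n trivIrr = 1 := by
        have := hn trivIrr
        rw [trivIrr_apply] at this
        exact_mod_cast this.symm
      have h4 : 1 + (Fintype.card (IrrCharacter G) - 1) * p^2 ≤ ∑ χ : IrrCharacter G, (n χ)^2 := by
        rw [← Finset.add_sum_erase Finset.univ _ (Finset.mem_univ trivIrr), h3]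
        have : ∑ χ ∈ Finset.univ.erase (trivIrr : IrrCharacter G), p^2
            ≤ ∑ χ ∈ Finset.univ.erase (trivIrr : IrrCharacter G), (n χ)^2 :=
          Finset.sum_le_sum (fun χ hχ => Nat.pow_le_pow_left (h2 χ (Finset.ne_of_mem_erase hχ)) 2)
        rw [Finset.sum_const, Finset.card_erase_of_mem (Finset.mem_univ _), Finset.card_univ,
          smul_eq_mul] at this
        omega
      have hk : Fintype.card (IrrCharacter G) = Nat.card (ConjClasses G) := by
        rw [← Nat.card_eq_fintype_card]; exact card_irr
      rw [h1, hk] at h4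
      obtain ⟨m, hm⟩ := hp2
      rw [hm] at hmany h4
      have hmk : m < Nat.card (ConjClasses G) := lt_of_mul_lt_mul_left hmany (Nat.zero_le _)
      have hmk' : m ≤ Nat.card (ConjClasses G) - 1 := by omega
      have := Nat.mul_le_mul_right (p^2) hmk'
      have h5 : p ^ 2 * m = m * p ^ 2 := mul_comm _ _
      omega
    obtain ⟨χ, hχne, d, hdp, hχ1⟩ := hex
    obtain ⟨n, ρ, hρ, hχ⟩ := χ.2
    have hd : finrank ℂ (Fin n → ℂ) = n := by simp
    have hnd : n = d := by
      have : (χ : G → ℂ) 1 = (n : ℂ) := by rw [← hχ, Representation.char_one, hd]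
      rw [this] at hχ1
      exact_mod_cast hχ1
    -- restriction to P
    let ρP : Representation ℂ P (Fin n → ℂ) := ρ.comp (P : Subgroup G).subtype
    have hcomm : ∀ x y : P, ρP x * ρP y = ρP y * ρP x := by
      apply Cfsg.Agent.Lib.Helper5.comm_of_finrank_lt_primes d ρP (hd.trans hnd)
      intro q hq hqd
      obtain ⟨k, hk⟩ := IsPGroup.iff_card.mp P.2
      rw [hk] at hqd
      have := (Nat.prime_dvd_prime_iff_eq hq hpp).mp (hq.dvd_of_dvd_pow hqd)
      rw [this]; exact hdp
    have hab : ρ a * ρ b = ρ b * ρ a := hcomm ⟨a, ha⟩ ⟨b, hb⟩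
    rcases (MonoidHom.normal_ker ρ.asGroupHom).eq_bot_or_eq_top with hker | hker
    · have hinj := (MonoidHom.ker_eq_bot_iff _).mp hker
      apply hinj
      apply Units.ext
      simp only [map_mul, Units.val_mul, asGroupHom_apply]
      exact hab
    · exfalso
      apply hχne
      have htriv : ∀ x, ρ x = 1 := fun x => by
        have hx : x ∈ ρ.asGroupHom.ker := hker ▸ Subgroup.mem_top x
        have := MonoidHom.mem_ker.mp hx
        rw [← asGroupHom_apply, this]
        rfl
      have hχn : ∀ x, (χ : G → ℂ) x = (n : ℂ) := fun x => by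
        rw [← hχ, Representation.character, htriv]
        simp
      have h1 := classInner_irr χ χ
      rw [if_pos rfl, classInner] at h1
      simp only [hχn, map_natCast, Finset.sum_const, Finset.card_univ, nsmul_eq_mul] at h1
      have hN : (Nat.card G : ℂ) ≠ 0 := card_ne_zero_complex
      rw [← Nat.card_eq_fintype_card, ← mul_assoc, inv_mul_cancel₀ hN, one_mul] at h1
      have hn1 : n = 1 := by
        have : n * n = 1 := by exact_mod_cast h1
        exact Nat.eq_one_of_mul_eq_one_left this
      apply Subtype.ext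
      funext x
      rw [hχn, hn1]
      simp [trivIrr]
  · -- |P| = p, so P is cyclic
    obtain ⟨k, hk⟩ := IsPGroup.iff_card.mp P.2
    have h1 : p ∣ Nat.card P := P.dvd_card_of_dvd_card hp
    have h2 : Nat.card P ∣ Nat.card G := Subgroup.card_subgroup_dvd_card _
    have hk1 : k = 1 := by
      rcases Nat.lt_or_ge k 2 with h | h
      · interval_cases k
        · rw [hk, pow_zero] at h1
          exact absurd (Nat.dvd_one.mp h1) hpp.one_lt.ne'
        · rfl
      · exact absurd ((pow_dvd_pow p h).trans (hk ▸ h2)) hp2
    rw [hk1, pow_one] at hk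
    haveI : IsCyclic P := isCyclic_of_prime_card hk
    have h := (IsCyclic.commGroup (α := P)).mul_comm ⟨a, ha⟩ ⟨b, hb⟩
    exact congrArg Subtype.val h

end Cfsg.Agent.S0186
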