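import Cfsg.Statements.S0187
import Mathlib
import Cfsg.Agent.Lib.Helper5.CharRed

set_option autoImplicit false
open Cfsg

namespace Cfsg.Agent.S0187

/-- A finite group is commutative if and only if every irreducible complex character has degree 1. -/
theorem result {G : Type*} [Group G] [Finite G] : (∀ a b : G, a * b = b * a) ↔ ∀ χ : Cfsg.IrrCharacter G, (χ : G → ℂ) 1 = 1 := by
  have : Fintype G := Fintype.ofFinite G
  constructor
  · intro hcomm χ
    obtain ⟨n, ρ, hρ, hχ⟩ := χ.2
    have hc : IsMulCommutative G := ⟨⟨hcomm⟩⟩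
    have h1 := Representation.IsIrreducible.finrank_eq_one_of_isMulCommutative ρ
    rw [Module.finrank_fin_fun] at h1
    rw [← hχ, Representation.char_one, Module.finrank_fin_fun, h1]
    simp
  · intro h a b
    apply Cfsg.Agent.Lib.Helper5.eq_of_irr_eq
    intro n σ hσ
    have h1 := h ⟨σ.character, n, σ, hσ, rfl⟩
    change σ.character 1 = 1 at h1
    rw [Representation.char_one] at h1
    have h2 : Module.finrank ℂ (Fin n → ℂ) = 1 := by exact_mod_cast h1
    rw [map_mul, map_mul]
    exact Cfsg.Agent.Lib.Helper5.end_comm_of_finrank_one h2 (σ a) (σ b)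

end Cfsg.Agent.S0187
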