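import Cfsg.Statements.S0189
import Mathlib

set_option autoImplicit false
open Cfsg

namespace Cfsg.Agent.S0189

/-- If a complex character of a finite group vanishes at every non-identity element of a Sylow p-subgroup P, then |P| divides its degree. -/
theorem result {G : Type*} [Group G] [Finite G] (p : ℕ) [Fact p.Prime] (P : Sylow p G) (χ : G → ℂ) (hχ : Cfsg.IsCharacter G χ) (hvan : ∀ g : G, g ∈ P → g ≠ 1 → χ g = 0) : ∃ k : ℕ, χ 1 = (Nat.card P : ℂ) * k := by
  classical
  obtain ⟨n, ρ, rfl⟩ := hχ
  let σ : Representation ℂ (P : Subgroup G) (Fin n → ℂ) := ρ.comp (P : Subgroup G).subtype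
  haveI : Fintype (P : Subgroup G) := Fintype.ofFinite _
  have hcard : (Nat.card (P : Subgroup G) : ℂ) ≠ 0 := by
    exact_mod_cast Nat.card_pos.ne'
  haveI : Invertible (Nat.card (P : Subgroup G) : ℂ) := invertibleOfNonzero hcard
  have h1 := Representation.card_inv_mul_sum_char_eq_finrank σ
  have h2 : ∑ g : (P : Subgroup G), σ.character g = ρ.character 1 := by
    rw [Finset.sum_eq_single (1 : (P : Subgroup G))]
    · rfl
    · intro b _ hb
      have : ρ.character (b : G) = 0 := hvan b b.2 (by
        intro h
        apply hb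
        exact Subtype.ext h)
      exact this
    · intro h
      exact absurd (Finset.mem_univ _) h
  rw [h2] at h1
  refine ⟨Module.finrank ℂ (Representation.invariants σ), ?_⟩
  rw [← h1, ← mul_assoc, mul_inv_cancel₀ hcard, one_mul]

end Cfsg.Agent.S0189
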