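import Cfsg.Statements.S0190
import Mathlib
import Cfsg.Agent.Lib.Helper20.PermChar

set_option autoImplicit false
open Cfsg

namespace Cfsg.Agent.S0190

/-- For a transitive action of a finite group on X, the permutation character g ↦ (number of fixed points of g) is the function induced from the principal character of the stabilizer of any point. -/
theorem result {G : Type*} [Group G] [Fintype G] (X : Type*) [MulAction G X] [Finite X] [MulAction.IsPretransitive G X] (x : X) : (fun g : G => (Nat.card (MulAction.fixedBy X g) : ℂ)) = Cfsg.indFun (MulAction.stabilizer G x) (fun _ => 1) := by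
  funext g
  rw [← Cfsg.Agent.Lib.Helper20.card_fixed_in_orbit x g]
  congr 1
  apply Nat.card_congr
  refine Equiv.subtypeEquivRight (fun ω => ?_)
  rw [MulAction.mem_fixedBy]
  exact ⟨fun h => ⟨MulAction.IsPretransitive.exists_smul_eq _ _, h⟩, fun h => h.2⟩

end Cfsg.Agent.S0190
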