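import Cfsg.Statements.S0191
import Mathlib
import Cfsg.Agent.Lib.Helper4.CharCore
import Cfsg.Agent.Lib.Helper85.Burnside

set_option autoImplicit false
open Cfsg Cfsg.Agent.Lib.Helper4 Cfsg.Agent.Lib.Helper85

namespace Cfsg.Agent.S0191

/-- An irreducible complex representation of a finite group of degree greater than 1 has a character that vanishes somewhere. -/
theorem result {G : Type*} [Group G] [Finite G] {V : Type*} [AddCommGroup V] [Module ℂ V] [FiniteDimensional ℂ V] (ρ : Representation ℂ G V) [ρ.IsIrreducible] (hdeg : 1 < Module.finrank ℂ V) : ∃ g : G, ρ.character g = 0 := by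
  classical
  cases nonempty_fintype G
  by_contra hcon
  have hcon' : ∀ g : G, ρ.character g ≠ 0 := fun g hg => hcon ⟨g, hg⟩
  have htot : ∑ g : G, ‖ρ.character g‖ ^ 2 = (Nat.card G : ℝ) := by
    have h := classInner_char_irr ρ ρ
    rw [if_pos ⟨Representation.Equiv.refl ρ⟩] at h
    have h' : (Nat.card G : ℂ)⁻¹ * ∑ g : G, ρ.character g * (starRingEnd ℂ) (ρ.character g) = 1 := h
    have h2 : ∀ g : G, ρ.character g * (starRingEnd ℂ) (ρ.character g) =
        ((‖ρ.character g‖ ^ 2 : ℝ) : ℂ) := by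
      intro g
      rw [Complex.mul_conj, Complex.normSq_eq_norm_sq]
    rw [Finset.sum_congr rfl (fun g _ => h2 g), ← Complex.ofReal_sum] at h'
    have hG : (Nat.card G : ℂ) ≠ 0 := Nat.cast_ne_zero.mpr Nat.card_pos.ne'
    have h3 : ((∑ g : G, ‖ρ.character g‖ ^ 2 : ℝ) : ℂ) = (Nat.card G : ℂ) := by
      field_simp at h'
      exact h'
    exact_mod_cast h3
  have hD : ((Finset.univ.erase (1 : G)).card : ℝ) ≤
      ∑ g ∈ Finset.univ.erase (1 : G), ‖ρ.character g‖ ^ 2 := by
    apply card_le_sum_of_prod (Finset.univ.erase (1 : G)) (fun g => ‖ρ.character g‖ ^ 2)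
      (fun g => sq_nonneg _)
    · intro g hg k hk
      rw [Finset.mem_erase] at hg ⊢
      refine ⟨?_, Finset.mem_univ _⟩
      intro h1
      apply hg.1
      have hcop := (mem_expSet.1 hk).2
      have h2 : orderOf g ∣ k := orderOf_dvd_of_pow_eq_one h1
      have h3 : orderOf g ∣ Nat.card G := orderOf_dvd_natCard g
      have h4 : orderOf g ∣ 1 := by
        rw [← Nat.Coprime.gcd_eq_one hcop]
        exact Nat.dvd_gcd h3 h2
      exact orderOf_eq_one_iff.mp (Nat.dvd_one.mp h4)
    · intro g _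
      rw [Finset.prod_pow]
      exact one_le_pow₀ (prod_norm_char ρ g (hcon' g))
  have hsplit : ∑ g : G, ‖ρ.character g‖ ^ 2 = ‖ρ.character 1‖ ^ 2 +
      ∑ g ∈ Finset.univ.erase (1 : G), ‖ρ.character g‖ ^ 2 :=
    (Finset.add_sum_erase _ _ (Finset.mem_univ _)).symm
  have hcard : ((Finset.univ.erase (1 : G)).card : ℝ) = (Nat.card G : ℝ) - 1 := by
    rw [Finset.card_erase_of_mem (Finset.mem_univ _), Finset.card_univ, Nat.card_eq_fintype_card,
      Nat.cast_sub Fintype.card_pos]
    simp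
  have h1 : ‖ρ.character 1‖ ^ 2 ≤ 1 := by linarith
  rw [Representation.char_one] at h1
  have h2 : ‖((Module.finrank ℂ V : ℕ) : ℂ)‖ = (Module.finrank ℂ V : ℝ) := by simp
  rw [h2] at h1
  have h3 : (2 : ℝ) ≤ (Module.finrank ℂ V : ℝ) := by exact_mod_cast hdeg
  nlinarith

end Cfsg.Agent.S0191
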