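import Cfsg.Statements.S0192
import Mathlib

set_option autoImplicit false
open Cfsg

namespace Cfsg.Agent.S0192

theorem inner_one_eq_finrank {G : Type*} [Group G] {n : ℕ}
    (ρ : Representation ℂ G (Fin n → ℂ)) (H : Subgroup G) [Fintype H] :
    Cfsg.classInner (fun x : H => ρ.character x) (fun _ => 1) =
      (Module.finrank ℂ (Representation.invariants (ρ.comp H.subtype)) : ℂ) := by
  have hcard : (Nat.card H : ℂ) ≠ 0 := by exact_mod_cast Nat.card_pos.ne'
  have : Invertible (Nat.card H : ℂ) := invertibleOfNonzero hcard
  rw [← Representation.card_inv_mul_sum_char_eq_finrank]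
  unfold Cfsg.classInner
  congr 1
  apply Finset.sum_congr rfl
  intro g _
  simp [Representation.character]

theorem invariants_eq_bot {G : Type*} [Group G] [Fintype G] {n : ℕ}
    (ρ : Representation ℂ G (Fin n → ℂ)) (hirr : ρ.IsIrreducible)
    (h1 : ρ.character ≠ fun _ => 1) : Representation.invariants ρ = ⊥ := by
  classical
  let S : Subrepresentation ρ :=
    ⟨Representation.invariants ρ, fun g v hv => by
      rw [Representation.mem_invariants] at hv ⊢
      intro g'
      rw [hv g, hv g']⟩
  rcases eq_bot_or_eq_top S with h | h
  · exact congrArg Subrepresentation.toSubmodule h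
  · exfalso
    apply h1
    have htop : Representation.invariants ρ = ⊤ := congrArg Subrepresentation.toSubmodule h
    have hid : ∀ g : G, ρ g = LinearMap.id := by
      intro g
      apply LinearMap.ext
      intro v
      have hv : v ∈ Representation.invariants ρ := by rw [htop]; trivial
      rw [Representation.mem_invariants] at hv
      exact hv g
    have hch : ∀ g : G, ρ.character g = (n : ℂ) := by
      intro g
      simp [Representation.character, hid g]
    have hcard : (Nat.card G : ℂ) ≠ 0 := by exact_mod_cast Nat.card_pos.ne'
    have : Invertible (Nat.card G : ℂ) := invertibleOfNonzero hcard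
    have horth := Representation.char_orthonormal ρ ρ
    rw [if_pos ⟨Representation.Equiv.refl ρ⟩] at horth
    simp only [hch, Finset.sum_const, Finset.card_univ, nsmul_eq_mul] at horth
    rw [← Nat.card_eq_fintype_card, ← mul_assoc, inv_mul_cancel₀ hcard, one_mul] at horth
    have hn : n = 1 := by
      have h2 : (n * n : ℕ) = 1 := by exact_mod_cast horth
      exact Nat.eq_one_of_mul_eq_one_left h2
    funext g
    rw [hch g, hn]; simp

/-- Brauer's generation criterion. Let G be a finite simple group, H₁ and H₂ subgroups, and χ a non-principal irreducible character. If the multiplicity of the principal character in χ restricted to H₁ ⊓ H₂ is less than the sum of the corresponding multiplicities for H₁ and H₂, then H₁ and H₂ do not generate G. -/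
theorem result {G : Type*} [Group G] [Fintype G] [IsSimpleGroup G] (H₁ H₂ : Subgroup G) [Fintype H₁] [Fintype H₂] [Fintype ↥(H₁ ⊓ H₂)] (χ : G → ℂ) (hχ : Cfsg.IsIrrCharacter G χ) (hχ1 : χ ≠ fun _ => 1) (hlt : (Cfsg.classInner (fun x : ↥(H₁ ⊓ H₂) => χ x) (fun _ => 1)).re < (Cfsg.classInner (fun x : H₁ => χ x) (fun _ => 1)).re + (Cfsg.classInner (fun x : H₂ => χ x) (fun _ => 1)).re) : H₁ ⊔ H₂ ≠ ⊤ := by
  classical
  obtain ⟨n, ρ, hirr, rfl⟩ := hχ
  intro htop
  rw [inner_one_eq_finrank ρ H₁, inner_one_eq_finrank ρ H₂, inner_one_eq_finrank ρ (H₁ ⊓ H₂)] at hlt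
  simp only [Complex.natCast_re] at hlt
  have hlt' : Module.finrank ℂ (Representation.invariants (ρ.comp (H₁ ⊓ H₂).subtype)) <
      Module.finrank ℂ (Representation.invariants (ρ.comp H₁.subtype)) +
      Module.finrank ℂ (Representation.invariants (ρ.comp H₂.subtype)) := by exact_mod_cast hlt
  have h1 : Representation.invariants (ρ.comp H₁.subtype) ≤
      Representation.invariants (ρ.comp (H₁ ⊓ H₂).subtype) := by
    intro v hv
    rw [Representation.mem_invariants] at hv ⊢
    intro g
    exact hv ⟨g, g.2.1⟩
  have h2 : Representation.invariants (ρ.comp H₂.subtype) ≤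
      Representation.invariants (ρ.comp (H₁ ⊓ H₂).subtype) := by
    intro v hv
    rw [Representation.mem_invariants] at hv ⊢
    intro g
    exact hv ⟨g, g.2.2⟩
  have h3 : Representation.invariants (ρ.comp H₁.subtype) ⊓
      Representation.invariants (ρ.comp H₂.subtype) = ⊥ := by
    rw [eq_bot_iff]
    intro v hv
    obtain ⟨hv1, hv2⟩ := hv
    rw [SetLike.mem_coe, Representation.mem_invariants] at hv1 hv2
    let S : Subgroup G :=
      { carrier := {g | ρ g v = v}
        mul_mem' := fun {a b} ha hb => by
          change ρ a v = v at ha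
          change ρ b v = v at hb
          change ρ (a * b) v = v
          rw [map_mul, Module.End.mul_apply, hb, ha]
        one_mem' := by simp
        inv_mem' := fun {a} ha => by
          change ρ a v = v at ha
          change ρ a⁻¹ v = v
          conv_lhs => rw [← ha]
          rw [← Module.End.mul_apply, ← map_mul, inv_mul_cancel, map_one, Module.End.one_apply] }
    have hS1 : H₁ ≤ S := fun g hg => hv1 ⟨g, hg⟩
    have hS2 : H₂ ≤ S := fun g hg => hv2 ⟨g, hg⟩
    have hS : S = ⊤ := by
      rw [eq_top_iff, ← htop]
      exact sup_le hS1 hS2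
    have hv' : v ∈ Representation.invariants ρ := by
      rw [Representation.mem_invariants]
      intro g
      have : g ∈ S := by rw [hS]; trivial
      exact this
    rw [invariants_eq_bot ρ hirr hχ1] at hv'
    exact hv'
  have h4 := Submodule.finrank_sup_add_finrank_inf_eq (Representation.invariants (ρ.comp H₁.subtype))
    (Representation.invariants (ρ.comp H₂.subtype))
  rw [h3, finrank_bot, add_zero] at h4
  have h5 := Submodule.finrank_mono (sup_le h1 h2)
  omega

end Cfsg.Agent.S0192
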