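import Cfsg.Statements.S0194
import Mathlib
import Cfsg.Agent.Lib.Helper5.CharInd

set_option autoImplicit false
open scoped ComplexConjugate
open Cfsg

namespace Cfsg.Agent.S0194

/-- Let G have odd order, H be a normal subgroup and θ a non-principal irreducible character of H. Then the function induced from θ is orthogonal to its complex conjugate. -/
theorem result {G : Type*} [Group G] [Fintype G] (hodd : Odd (Nat.card G)) (H : Subgroup G) [H.Normal] (θ : H → ℂ) (hθ : Cfsg.IsIrrCharacter H θ) (hθ1 : θ ≠ fun _ => 1) : Cfsg.classInner (fun g => conj (Cfsg.indFun H θ g)) (Cfsg.indFun H θ) = 0 := by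
  classical
  have : Fintype H := Fintype.ofFinite H
  have h1 : (fun g => conj (Cfsg.indFun H θ g)) = Cfsg.indFun H (fun h => conj (θ h)) := by
    funext g
    exact Cfsg.Agent.Lib.Helper5.conj_indFun H θ g
  rw [h1]
  have hθc : Cfsg.IsIrrCharacter H (fun h => conj (θ h)) :=
    Cfsg.Agent.Lib.Helper4.irr_conj ⟨θ, hθ⟩
  apply Cfsg.Agent.Lib.Helper5.classInner_indFun_eq_zero H _ θ hθc hθ
  intro g hg
  have h2 : Cfsg.Agent.Lib.Helper5.conjFun H θ g = fun h => conj (θ h) := by
    funext h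
    have h3 := congrFun hg h
    rw [Cfsg.Agent.Lib.Helper5.conjFun_apply] at h3 ⊢
    rw [← h3, Complex.conj_conj]
  have h3 : Cfsg.Agent.Lib.Helper5.conjFun H θ (g * g) = θ := by
    rw [← Cfsg.Agent.Lib.Helper5.conjFun_mul, h2]
    exact hg
  have h4 : ∀ k : ℕ, Cfsg.Agent.Lib.Helper5.conjFun H θ ((g * g) ^ k) = θ := by
    intro k
    induction k with
    | zero => rw [pow_zero, Cfsg.Agent.Lib.Helper5.conjFun_one]
    | succ k ih => rw [pow_succ, ← Cfsg.Agent.Lib.Helper5.conjFun_mul, ih, h3]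
  have hordodd : Odd (orderOf g) := Odd.of_dvd_nat hodd (orderOf_dvd_natCard g)
  obtain ⟨j, hj⟩ := hordodd
  have h5 : (g * g) ^ (j + 1) = g := by
    rw [← pow_two, ← pow_mul]
    have h6 : 2 * (j + 1) = orderOf g + 1 := by omega
    rw [h6, pow_succ, pow_orderOf_eq_one, one_mul]
  have h6 : Cfsg.Agent.Lib.Helper5.conjFun H θ g = θ := by
    have h7 := h4 (j + 1)
    rwa [h5] at h7
  have hreal : ∀ h, conj (θ h) = θ h := by
    intro h
    have h7 := congrFun h2 h
    rw [h6] at h7
    exact h7.symm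
  have hHodd : Odd (Nat.card H) := Odd.of_dvd_nat hodd (Subgroup.card_subgroup_dvd_card H)
  exact hθ1 (Cfsg.Agent.Lib.Helper5.irr_real_of_odd hHodd ⟨θ, hθ⟩ hreal)

end Cfsg.Agent.S0194
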