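import Cfsg.Statements.S0196
import Mathlib

set_option autoImplicit false
open Cfsg

namespace Cfsg.Agent.S0196

/-- Let A be a subgroup of a finite group G that equals the centralizer of each of its non-identity elements, and let N be its normalizer. Then the index of A in N divides |A| − 1 (N/A permutes the non-identity elements of A in orbits of full length). -/
theorem result {G : Type*} [Group G] [Finite G] (A : Subgroup G) (hA : ∀ x ∈ A, x ≠ 1 → Subgroup.centralizer ({x} : Set G) = A) : (A.subgroupOf (Subgroup.normalizer (A : Set G))).index ∣ Nat.card A - 1 := by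
  classical
  let X := {x : A // x ≠ 1}
  letI : MulAction (Subgroup.normalizer (A : Set G)) X :=
    { smul := fun n x => ⟨⟨(n : G) * x.1 * (n : G)⁻¹,
          (Subgroup.mem_normalizer_iff.mp n.2 _).mp x.1.2⟩,
          fun h => x.2 (by
            have h1 : (n : G) * (x.1 : G) * (n : G)⁻¹ = 1 := congrArg Subtype.val h
            apply Subtype.ext
            have : (x.1 : G) = (n:G)⁻¹ * ((n : G) * (x.1 : G) * (n : G)⁻¹) * n := by group
            rw [this, h1]; simp)⟩
      one_smul := fun x => by
        apply Subtype.ext; apply Subtype.ext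
        show ((1 : Subgroup.normalizer (A : Set G)) : G) * (x.1 : G) * ((1 : Subgroup.normalizer (A : Set G)) : G)⁻¹ = x.1
        simp
      mul_smul := fun a b x => by
        apply Subtype.ext; apply Subtype.ext
        show ((a * b : Subgroup.normalizer (A : Set G)) : G) * (x.1 : G) * ((a * b : Subgroup.normalizer (A : Set G)) : G)⁻¹ = (a : G) * ((b : G) * (x.1 : G) * (b : G)⁻¹) * (a : G)⁻¹
        simp [mul_assoc] }
  have hsmul : ∀ (n : Subgroup.normalizer (A : Set G)) (x : X), ((n • x).1 : G) = (n : G) * (x.1 : G) * (n : G)⁻¹ := fun n x => rfl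
  have hstab : ∀ x : X, MulAction.stabilizer (Subgroup.normalizer (A : Set G)) x = A.subgroupOf (Subgroup.normalizer (A : Set G)) := by
    intro x
    ext n
    rw [MulAction.mem_stabilizer_iff, Subgroup.mem_subgroupOf]
    have hc := hA x.1.1 x.1.2 (fun h => x.2 (Subtype.ext h))
    have hmem : ∀ g : G, g ∈ A ↔ (x.1 : G) * g = g * (x.1 : G) := fun g => by
      have h0 : g ∈ Subgroup.centralizer ({(x.1 : G)} : Set G) ↔ (x.1 : G) * g = g * (x.1 : G) := by
        rw [Subgroup.mem_centralizer_iff]; simp
      exact (iff_of_eq (congrArg (fun B : Subgroup G => g ∈ B) hc.symm)).trans h0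
    rw [hmem]
    constructor
    · intro h
      have h1 : (n : G) * (x.1 : G) * (n : G)⁻¹ = x.1 := by rw [← hsmul, h]
      nth_rewrite 1 [← h1]
      group
    · intro h
      apply Subtype.ext; apply Subtype.ext
      rw [hsmul, ← h]; group
  have hcard : Nat.card X = Nat.card A - 1 := by
    have : Fintype A := Fintype.ofFinite _
    rw [Nat.card_eq_fintype_card, Nat.card_eq_fintype_card]
    show Fintype.card {x : A // ¬ (x = 1)} = _
    rw [Fintype.card_subtype_compl, Fintype.card_subtype_eq]
  rw [← hcard]
  have e := MulAction.selfEquivSigmaOrbitsQuotientStabilizer (Subgroup.normalizer (A : Set G)) X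
  have : Fintype (Quotient (MulAction.orbitRel (Subgroup.normalizer (A : Set G)) X)) := Fintype.ofFinite _
  rw [Nat.card_congr e, Nat.card_sigma]
  apply Finset.dvd_sum
  intro ω _
  rw [hstab]
  exact dvd_rfl

end Cfsg.Agent.S0196
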