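import Cfsg.Statements.S0203
import Mathlib
import Cfsg.Agent.Lib.Helper5.Klein

set_option autoImplicit false
open Cfsg

namespace Cfsg.Agent.S0203

/-- If a Sylow 2-subgroup P of a finite group G is a Klein four-group, then G has three classes of involutions if and only if P has a normal complement in G. -/
theorem result {G : Type*} [Group G] [Finite G] (P : Sylow 2 G) (hP : IsKleinFour (P : Subgroup G)) : Nat.card {C : ConjClasses G // ∃ t : G, orderOf t = 2 ∧ ConjClasses.mk t = C} = 3 ↔ ∃ N : Subgroup G, N.Normal ∧ Subgroup.IsComplement' N (P : Subgroup G) := by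
  obtain ⟨x, y, hx, hy, hx1, hy1, hxy⟩ := Cfsg.Agent.Lib.Helper5.klein_exists P hP
  constructor
  · intro h3
    rcases Cfsg.Agent.Lib.Helper5.klein_classes P hP x y hx hy hx1 hy1 hxy with h | h
    · have hle := Cfsg.Agent.Lib.Helper5.klein_normalizer_le_centralizer P hP x y hx hy hx1 hy1 hxy
        h.1 h.2.1 h.2.2.1
      exact ⟨(MonoidHom.transferSylow P hle).ker, MonoidHom.normal_ker _,
        MonoidHom.ker_transferSylow_isComplement' P hle⟩
    · rw [h.2] at h3; norm_num at h3
  · rintro ⟨N, hN, hc⟩
    rcases Cfsg.Agent.Lib.Helper5.klein_classes P hP x y hx hy hx1 hy1 hxy with h | h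
    · exact h.2.2.2
    · exact (Cfsg.Agent.Lib.Helper5.klein_not_conj_of_complement P hP N hN hc x y hx hy hxy h.1).elim

end Cfsg.Agent.S0203
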