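import Cfsg.Statements.S0212
import Cfsg.Agent.Lib.Helper6.Count

set_option autoImplicit false
open Cfsg

namespace Cfsg.Agent.S0212

open Cfsg.Agent.Lib.Helper6

theorem exists_large_centralizer {G : Type*} [Group G] [Finite G] (t : G) (ht : orderOf t = 2)
    (hnc : Subgroup.centralizer ({t} : Set G) ≠ ⊤) :
    ∃ g : G, g ≠ 1 ∧ Nat.card G ≤ 2 * (Nat.card (Subgroup.centralizer ({t} : Set G))) ^ 2 *
      Nat.card (Subgroup.centralizer ({g} : Set G)) := by
  classical
  have := Fintype.ofFinite G
  by_contra hcon
  push Not at hcon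
  have hcn : Nat.card (Subgroup.centralizer ({t} : Set G)) * (Subgroup.centralizer ({t} : Set G)).index
      = Nat.card G := Subgroup.card_mul_index _
  have hc2 : 2 ≤ (Subgroup.centralizer ({t} : Set G)).index := by
    have h1 : (Subgroup.centralizer ({t} : Set G)).index ≠ 1 := fun h => hnc (Subgroup.index_eq_one.mp h)
    have h0 : (Subgroup.centralizer ({t} : Set G)).index ≠ 0 := Subgroup.index_ne_zero_of_finite
    omega
  have hmc : (Subgroup.centralizer ({t} : Set G)).index ≤ numInv G := index_centralizer_le_numInv t ht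
  have hn1 : 1 ≤ Nat.card (Subgroup.centralizer ({t} : Set G)) := Nat.card_pos
  generalize Nat.card (Subgroup.centralizer ({t} : Set G)) = n at *
  generalize (Subgroup.centralizer ({t} : Set G)).index = c at *
  generalize hm : numInv G = m at *
  have hsum : ∑ g : G, (2 * n ^ 2) * beta g ≤
      ∑ g : G, (if g = 1 then 2 * n ^ 2 * m else Nat.card G - 1) := by
    apply Finset.sum_le_sum
    intro g _
    by_cases hg : g = 1
    · rw [if_pos hg, hg, beta_one, hm]
    · rw [if_neg hg]
      have h1 := hcon g hg
      have h2 := beta_le g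
      have h3 : 2 * n ^ 2 * beta g ≤ 2 * n ^ 2 * Nat.card (Subgroup.centralizer ({g} : Set G)) :=
        Nat.mul_le_mul_left _ h2
      omega
  rw [← Finset.mul_sum, sum_beta, hm] at hsum
  have heval : ∑ g : G, (if g = 1 then 2 * n ^ 2 * m else Nat.card G - 1) =
      2 * n ^ 2 * m + (Nat.card G - 1) * (Nat.card G - 1) := by
    rw [← Finset.add_sum_erase Finset.univ _ (Finset.mem_univ (1 : G)), if_pos rfl]
    congr 1
    rw [Finset.sum_congr rfl (fun g hg => if_neg (Finset.ne_of_mem_erase hg)), Finset.sum_const,
      Finset.card_erase_of_mem (Finset.mem_univ _), Finset.card_univ, smul_eq_mul,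
      Nat.card_eq_fintype_card]
  rw [heval, ← hcn] at hsum
  have hnc1 : 1 ≤ n * c := Nat.mul_pos hn1 (by omega)
  zify [hnc1] at hsum hc2 hmc hn1
  have P1 : (0 : ℤ) ≤ (n : ℤ) ^ 2 * (((m : ℤ) - c) * ((m : ℤ) + c - 1)) :=
    mul_nonneg (sq_nonneg _) (mul_nonneg (by linarith) (by linarith))
  have P2 : (0 : ℤ) ≤ (n : ℤ) * c * ((n : ℤ) * ((c : ℤ) - 2)) :=
    mul_nonneg (mul_nonneg (by linarith) (by linarith)) (mul_nonneg (by linarith) (by linarith))
  have P3 : (0 : ℤ) ≤ ((n : ℤ) - 1) * c := mul_nonneg (by linarith) (by linarith)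
  nlinarith [P1, P2, P3]

/-- The Brauer–Fowler bound: if G is a finite simple group and t an involution of G whose centralizer has order n, then |G| ≤ (2n^2)!. -/
theorem result {G : Type*} [Group G] [Finite G] [IsSimpleGroup G] (t : G) (ht : orderOf t = 2) : Nat.card G ≤ Nat.factorial (2 * (Nat.card (Subgroup.centralizer ({t} : Set G))) ^ 2) := by
  by_cases hnc : Subgroup.centralizer ({t} : Set G) = ⊤
  · rw [hnc, Subgroup.card_top]
    refine le_trans ?_ (Nat.self_le_factorial _)
    have : 1 ≤ Nat.card G := Nat.card_pos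
    nlinarith
  · obtain ⟨g, hg1, hle⟩ := exists_large_centralizer t ht hnc
    have hHtop : Subgroup.centralizer ({g} : Set G) ≠ ⊤ := by
      intro h
      have hgc : g ∈ Subgroup.center G := by
        rw [Subgroup.mem_center_iff]
        intro a
        have h1 : a ∈ Subgroup.centralizer ({g} : Set G) := h ▸ Subgroup.mem_top a
        rw [Subgroup.mem_centralizer_singleton_iff] at h1
        exact h1
      rcases (Subgroup.Normal.eq_bot_or_eq_top
        (inferInstance : (Subgroup.center G).Normal)) with hb | htop
      · rw [hb, Subgroup.mem_bot] at hgc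
        exact hg1 hgc
      · apply hnc
        rw [eq_top_iff]
        intro a _
        rw [Subgroup.mem_centralizer_singleton_iff]
        have ht' : t ∈ Subgroup.center G := htop ▸ Subgroup.mem_top t
        exact Subgroup.mem_center_iff.mp ht' a
    have hker : (MulAction.toPermHom G (G ⧸ Subgroup.centralizer ({g} : Set G))).ker = ⊥ := by
      rcases (Subgroup.Normal.eq_bot_or_eq_top (MonoidHom.normal_ker
        (MulAction.toPermHom G (G ⧸ Subgroup.centralizer ({g} : Set G))))) with hb | htop
      · exact hb
      · exfalso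
        apply hHtop
        rw [← Subgroup.normalCore_eq_ker] at htop
        exact top_le_iff.mp (htop ▸ Subgroup.normalCore_le _)
    have hinj : Function.Injective (MulAction.toPermHom G (G ⧸ Subgroup.centralizer ({g} : Set G))) :=
      (MonoidHom.ker_eq_bot_iff _).mp hker
    have h1 := Nat.card_le_card_of_injective _ hinj
    rw [Nat.card_perm, ← Subgroup.index_eq_card] at h1
    refine le_trans h1 (Nat.factorial_le ?_)
    have h2 := Subgroup.card_mul_index (Subgroup.centralizer ({g} : Set G))
    rw [← h2, mul_comm (2 * _ ^ 2)] at hle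
    exact Nat.le_of_mul_le_mul_left hle Nat.card_pos

end Cfsg.Agent.S0212
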