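import Cfsg.Statements.S0213
import Mathlib
import Cfsg.Agent.Lib.Helper6.Dih
import Cfsg.Agent.Lib.Helper6.Idx2

set_option autoImplicit false
open Cfsg

namespace Cfsg.Agent.S0213

open Cfsg.Agent.Lib.Helper6

section aux

variable {G : Type*} [Group G]

/-- pairs with `z` in the cyclic group generated by the product -/
abbrev NP (x₁ x₂ z : G) : Type _ :=
  {p : G × G // IsConj x₁ p.1 ∧ IsConj x₂ p.2 ∧ z ∈ Subgroup.zpowers (p.1 * p.2)}

theorem card_class [Finite G] (x : G) :
    Nat.card {h : G // IsConj x h} * Nat.card (Subgroup.centralizer ({x} : Set G)) =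
      Nat.card G := by
  have h1 := MulAction.index_stabilizer (ConjAct G) x
  rw [ConjAct.stabilizer_eq_centralizer] at h1
  have h2 : MulAction.orbit (ConjAct G) x = {h : G | IsConj x h} := by
    ext h
    rw [ConjAct.mem_orbit_conjAct, isConj_comm]
    rfl
  rw [h2] at h1
  rw [← Nat.card_coe_set_eq] at h1
  have h3 : Nat.card {h : G // IsConj x h} = (Subgroup.centralizer ({x} : Set G)).index :=
    h1.symm
  rw [h3]
  exact Subgroup.index_mul_card _

theorem isConj_conj_iff (x u g : G) : IsConj x (g * u * g⁻¹) ↔ IsConj x u := by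
  have h : IsConj u (g * u * g⁻¹) := isConj_iff.mpr ⟨g, rfl⟩
  exact ⟨fun h1 => h1.trans h.symm, fun h1 => h1.trans h⟩

theorem orderOf_of_isConj {x u : G} (hx : orderOf x = 2) (h : IsConj x u) : orderOf u = 2 := by
  obtain ⟨g, rfl⟩ := isConj_iff.mp h
  rw [orderOf_conj_eq, hx]

theorem mem_zpowers_conj_iff (z w g : G) :
    g * z * g⁻¹ ∈ Subgroup.zpowers (g * w * g⁻¹) ↔ z ∈ Subgroup.zpowers w := by
  have h1 : Subgroup.zpowers (g * w * g⁻¹) =
      (Subgroup.zpowers w).map (MulAut.conj g).toMonoidHom := by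
    rw [MonoidHom.map_zpowers]
    rfl
  rw [h1]
  exact Subgroup.mem_map_iff_mem (MulAut.conj g).injective

theorem card_NP_conj (x₁ x₂ z g : G) :
    Nat.card (NP x₁ x₂ (g * z * g⁻¹)) = Nat.card (NP x₁ x₂ z) := by
  symm
  refine Nat.card_congr (Equiv.subtypeEquiv
    ((MulAut.conj g).toEquiv.prodCongr (MulAut.conj g).toEquiv) ?_)
  rintro ⟨u, v⟩
  show (IsConj x₁ u ∧ IsConj x₂ v ∧ z ∈ Subgroup.zpowers (u * v)) ↔
    (IsConj x₁ (g * u * g⁻¹) ∧ IsConj x₂ (g * v * g⁻¹) ∧
      g * z * g⁻¹ ∈ Subgroup.zpowers (g * u * g⁻¹ * (g * v * g⁻¹)))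
  have e : g * u * g⁻¹ * (g * v * g⁻¹) = g * (u * v) * g⁻¹ := by group
  rw [e, isConj_conj_iff, isConj_conj_iff, mem_zpowers_conj_iff]

end aux

/-- Thompson Order Formula, two-class case: if every involution of the finite group G is conjugate to exactly one of the non-conjugate involutions x₁, x₂, and nᵢ is the number of pairs (u, v) with u conjugate to x₁, v conjugate to x₂ and xᵢ in the cyclic group generated by uv, then |G| = |C(x₂)| n₁ + |C(x₁)| n₂. -/
theorem result {G : Type*} [Group G] [Finite G] (x₁ x₂ : G) (h₁ : orderOf x₁ = 2) (h₂ : orderOf x₂ = 2) (hnc : ¬ IsConj x₁ x₂) (hall : ∀ t : G, orderOf t = 2 → IsConj x₁ t ∨ IsConj x₂ t) : Nat.card G = Nat.card (Subgroup.centralizer ({x₂} : Set G)) * Nat.card {p : G × G // IsConj x₁ p.1 ∧ IsConj x₂ p.2 ∧ x₁ ∈ Subgroup.zpowers (p.1 * p.2)} + Nat.card (Subgroup.centralizer ({x₁} : Set G)) * Nat.card {p : G × G // IsConj x₁ p.1 ∧ IsConj x₂ p.2 ∧ x₂ ∈ Subgroup.zpowers (p.1 * p.2)} := by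
  classical
  have hA := card_class x₁
  have hB := card_class x₂
  have hT : Nat.card {p : G × G // IsConj x₁ p.1 ∧ IsConj x₂ p.2} =
      Nat.card {u : G // IsConj x₁ u} * Nat.card {v : G // IsConj x₂ v} := by
    rw [← Nat.card_prod]
    exact Nat.card_congr Equiv.subtypeProdEquivProd
  have hex : ∀ p : {p : G × G // IsConj x₁ p.1 ∧ IsConj x₂ p.2},
      ∃ z : G, orderOf z = 2 ∧ z ∈ Subgroup.zpowers (p.1.1 * p.1.2) := by
    rintro ⟨⟨u, v⟩, hu, hv⟩
    have hou := orderOf_of_isConj h₁ hu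
    have hov := orderOf_of_isConj h₂ hv
    have hnc' : ¬ IsConj u v := fun h => hnc ((hu.trans h).trans hv.symm)
    have heven := even_orderOf_of_not_isConj hou hov hnc'
    have hpos : 0 < orderOf (u * v) := orderOf_pos _
    exact ⟨_, (central_involution hou hov hpos heven).1,
      Subgroup.pow_mem _ (Subgroup.mem_zpowers _) _⟩
  have huniq : ∀ (w z z' : G), orderOf z = 2 → orderOf z' = 2 → z ∈ Subgroup.zpowers w →
      z' ∈ Subgroup.zpowers w → z = z' := by
    intro w z z' hz hz' hm hm'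
    have := cyclic_involution_unique (A := Subgroup.zpowers w) ⟨z, hm⟩ ⟨z', hm'⟩
      (by rw [Subgroup.orderOf_mk]; exact hz) (by rw [Subgroup.orderOf_mk]; exact hz')
    exact congrArg Subtype.val this
  have hInvFin : Fintype {z : G // orderOf z = 2} := Fintype.ofFinite _
  have hAFin : Fintype {u : G // IsConj x₁ u} := Fintype.ofFinite _
  have hBFin : Fintype {v : G // IsConj x₂ v} := Fintype.ofFinite _
  have h1 : Nat.card {p : G × G // IsConj x₁ p.1 ∧ IsConj x₂ p.2} =
      ∑ z : {z : G // orderOf z = 2}, Nat.card (NP x₁ x₂ z.1) := by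
    rw [← Nat.card_sigma]
    symm
    refine Nat.card_congr (Equiv.ofBijective
      (fun s : (Σ z : {z : G // orderOf z = 2}, NP x₁ x₂ z.1) =>
        (⟨s.2.1, s.2.2.1, s.2.2.2.1⟩ : {p : G × G // IsConj x₁ p.1 ∧ IsConj x₂ p.2})) ⟨?_, ?_⟩)
    · rintro ⟨z, ⟨q, hq1, hq2, hq3⟩⟩ ⟨z', ⟨q', hq1', hq2', hq3'⟩⟩ h
      have hqq : q = q' := congrArg Subtype.val h
      subst hqq
      have hzz : z = z' := Subtype.ext (huniq _ _ _ z.2 z'.2 hq3 hq3')
      subst hzz
      rfl
    · intro p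
      obtain ⟨z, hz, hzm⟩ := hex p
      exact ⟨⟨⟨z, hz⟩, ⟨p.1, p.2.1, p.2.2, hzm⟩⟩, rfl⟩
  let e : {z : G // orderOf z = 2} ≃ {u : G // IsConj x₁ u} ⊕ {v : G // IsConj x₂ v} :=
    { toFun := fun z => if h : IsConj x₁ z.1 then Sum.inl ⟨z.1, h⟩
        else Sum.inr ⟨z.1, (hall z.1 z.2).resolve_left h⟩
      invFun := fun s => Sum.elim (fun a => ⟨a.1, orderOf_of_isConj h₁ a.2⟩)
        (fun b => ⟨b.1, orderOf_of_isConj h₂ b.2⟩) s
      left_inv := by
        intro z
        by_cases h : IsConj x₁ z.1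
        · dsimp only
          rw [dif_pos h]
          rfl
        · dsimp only
          rw [dif_neg h]
          rfl
      right_inv := by
        rintro (a | b)
        · dsimp only [Sum.elim_inl]
          rw [dif_pos a.2]
        · have hb : ¬ IsConj x₁ b.1 := fun h => hnc (h.trans b.2.symm)
          dsimp only [Sum.elim_inr]
          rw [dif_neg hb] }
  have h2 : ∑ z : {z : G // orderOf z = 2}, Nat.card (NP x₁ x₂ z.1) =
      ∑ a : {u : G // IsConj x₁ u}, Nat.card (NP x₁ x₂ a.1) +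
        ∑ b : {v : G // IsConj x₂ v}, Nat.card (NP x₁ x₂ b.1) := by
    have hs := Fintype.sum_sum_type (fun s : {u : G // IsConj x₁ u} ⊕ {v : G // IsConj x₂ v} =>
      Nat.card (NP x₁ x₂ (Sum.elim (fun a => a.1) (fun b => b.1) s)))
    simp only [Sum.elim_inl, Sum.elim_inr] at hs
    rw [← hs]
    refine Fintype.sum_equiv e _ _ ?_
    intro z
    have hz : Sum.elim (fun a : {u : G // IsConj x₁ u} => a.1)
        (fun b : {v : G // IsConj x₂ v} => b.1) (e z) = z.1 := by
      by_cases h : IsConj x₁ z.1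
      · show Sum.elim (fun a : {u : G // IsConj x₁ u} => a.1)
          (fun b : {v : G // IsConj x₂ v} => b.1)
          (if h : IsConj x₁ z.1 then Sum.inl ⟨z.1, h⟩
            else Sum.inr ⟨z.1, (hall z.1 z.2).resolve_left h⟩) = z.1
        rw [dif_pos h]
        rfl
      · show Sum.elim (fun a : {u : G // IsConj x₁ u} => a.1)
          (fun b : {v : G // IsConj x₂ v} => b.1)
          (if h : IsConj x₁ z.1 then Sum.inl ⟨z.1, h⟩
            else Sum.inr ⟨z.1, (hall z.1 z.2).resolve_left h⟩) = z.1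
        rw [dif_neg h]
        rfl
    rw [hz]
  have h3 : ∑ a : {u : G // IsConj x₁ u}, Nat.card (NP x₁ x₂ a.1) =
      Nat.card {u : G // IsConj x₁ u} * Nat.card (NP x₁ x₂ x₁) := by
    rw [Finset.sum_congr rfl (fun a _ => by
      obtain ⟨g, hg⟩ := isConj_iff.mp a.2
      rw [← hg, card_NP_conj]), Finset.sum_const, Finset.card_univ, smul_eq_mul,
      Nat.card_eq_fintype_card (α := {u : G // IsConj x₁ u})]
  have h4 : ∑ b : {v : G // IsConj x₂ v}, Nat.card (NP x₁ x₂ b.1) =
      Nat.card {v : G // IsConj x₂ v} * Nat.card (NP x₁ x₂ x₂) := by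
    rw [Finset.sum_congr rfl (fun b _ => by
      obtain ⟨g, hg⟩ := isConj_iff.mp b.2
      rw [← hg, card_NP_conj]), Finset.sum_const, Finset.card_univ, smul_eq_mul,
      Nat.card_eq_fintype_card (α := {v : G // IsConj x₂ v})]
  rw [hT, h2, h3, h4] at h1
  generalize Nat.card {u : G // IsConj x₁ u} = a at *
  generalize Nat.card {v : G // IsConj x₂ v} = b at *
  generalize Nat.card (Subgroup.centralizer ({x₁} : Set G)) = c₁ at *
  generalize Nat.card (Subgroup.centralizer ({x₂} : Set G)) = c₂ at *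
  generalize Nat.card (NP x₁ x₂ x₁) = n₁ at *
  generalize Nat.card (NP x₁ x₂ x₂) = n₂ at *
  have hgpos : 0 < Nat.card G := Nat.card_pos
  generalize Nat.card G = g at *
  have key : g * g = g * (c₂ * n₁ + c₁ * n₂) := by
    calc g * g = (a * c₁) * (b * c₂) := by rw [hA, hB]
      _ = (a * b) * (c₁ * c₂) := by ring
      _ = (a * n₁ + b * n₂) * (c₁ * c₂) := by rw [h1]
      _ = (a * c₁) * (c₂ * n₁) + (b * c₂) * (c₁ * n₂) := by ring
      _ = g * (c₂ * n₁ + c₁ * n₂) := by rw [hA, hB]; ring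
  exact Nat.eq_of_mul_eq_mul_left hgpos key

end Cfsg.Agent.S0213
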