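import Cfsg.Statements.S0220
import Mathlib
import Cfsg.Agent.Lib.Helper6.Idx2

set_option autoImplicit false
open Cfsg

namespace Cfsg.Agent.S0220

open Cfsg.Agent.Lib.Helper6

theorem aux {G : Type*} [Group G] [Finite G] (x : G) (hx : orderOf x = 2) (C : Subgroup G)
    (hmemC : ∀ g : G, g ∈ C ↔ g * x = x * g) (S : Sylow 2 C) (hS : IsCyclic (S : Subgroup C)) :
    ∃ H : Subgroup G, H.index = 2 := by
  classical
  have : Fact (Nat.Prime 2) := ⟨Nat.prime_two⟩
  have hxC : x ∈ C := (hmemC x).mpr rfl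
  let x' : C := ⟨x, hxC⟩
  have hx'ord : orderOf x' = 2 := by
    rw [← hx]
    exact Subgroup.orderOf_mk x hxC
  have hx'S : x' ∈ (S : Subgroup C) := by
    have hP : IsPGroup 2 (Subgroup.zpowers x') := by
      apply IsPGroup.of_card (n := 1)
      rw [Nat.card_zpowers, hx'ord]
      rfl
    have h1 := hP.inf_normalizer_sylow S
    have h2 : Subgroup.zpowers x' ≤ Subgroup.normalizer (S : Set C) := by
      rw [Subgroup.zpowers_le, Subgroup.mem_set_normalizer_iff]
      intro h
      have : x' * h * x'⁻¹ = h := by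
        have hc : h * x' = x' * h := Subtype.ext ((hmemC h.1).mp h.2)
        rw [← hc, mul_inv_cancel_right]
      rw [this]
    have h3 : Subgroup.zpowers x' ≤ (S : Subgroup C) := by
      have h4 : Subgroup.zpowers x' ⊓ Subgroup.normalizer (S : Set C) =
          Subgroup.zpowers x' := inf_eq_left.mpr h2
      rw [h1] at h4
      exact inf_eq_left.mp h4
    exact h3 (Subgroup.mem_zpowers x')
  let S' : Subgroup G := (S : Subgroup C).map C.subtype
  have hS'p : IsPGroup 2 S' := S.isPGroup'.map C.subtype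
  obtain ⟨P, hP⟩ := hS'p.exists_le_sylow
  have hxP : x ∈ (P : Subgroup G) := hP ⟨x', hx'S, rfl⟩
  have claim3 : ∀ g : G, g ∈ (P : Subgroup G) → g ∈ C → g ∈ S' := by
    intro g hgP hgC
    let Q : Subgroup C := ((P : Subgroup G) ⊓ C).subgroupOf C
    have hQ : IsPGroup 2 Q := (P.isPGroup'.to_le inf_le_left).comap_subtype
    have hSQ : (S : Subgroup C) ≤ Q := by
      intro s hs
      rw [Subgroup.mem_subgroupOf]
      exact ⟨hP ⟨s, hs, rfl⟩, s.2⟩
    have hQS : Q = S := S.is_maximal' hQ hSQ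
    have hgQ : (⟨g, hgC⟩ : C) ∈ Q := by
      rw [Subgroup.mem_subgroupOf]
      exact ⟨hgP, hgC⟩
    rw [hQS] at hgQ
    exact ⟨⟨g, hgC⟩, hgQ, rfl⟩
  have hx1 : x ≠ 1 := by
    intro h
    rw [h, orderOf_one] at hx
    norm_num at hx
  have hPnt : Nontrivial (P : Subgroup G) :=
    ⟨⟨⟨x, hxP⟩, 1, fun h => hx1 (congrArg Subtype.val h)⟩⟩
  obtain ⟨n, hn0, hn⟩ := (P.isPGroup'.nontrivial_iff_card).mp hPnt
  obtain ⟨k, hk0, hk⟩ := IsPGroup.card_center_eq_prime_pow hn hn0
  have h2dvd : 2 ∣ Nat.card (Subgroup.center (P : Subgroup G)) := by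
    rw [hk]
    exact dvd_pow_self 2 hk0.ne'
  obtain ⟨z, hz⟩ := exists_prime_orderOf_dvd_card' 2 h2dvd
  have hzord : orderOf (z.1.1 : G) = 2 := by
    rw [Subgroup.orderOf_coe, Subgroup.orderOf_coe, hz]
  have hzcomm : ∀ g ∈ (P : Subgroup G), g * z.1.1 = z.1.1 * g := by
    intro g hg
    have := Subgroup.mem_center_iff.mp z.2 ⟨g, hg⟩
    exact congrArg Subtype.val this
  have hzC : (z.1.1 : G) ∈ C := by
    rw [hmemC]
    exact (hzcomm x hxP).symm
  obtain ⟨s, hsS, hsz⟩ := claim3 z.1.1 z.1.2 hzC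
  have hsz' : (s : G) = z.1.1 := hsz
  have hsord : orderOf s = 2 := by
    rw [← hzord, ← hsz']
    exact (Subgroup.orderOf_coe s).symm
  have heq : (⟨s, hsS⟩ : (S : Subgroup C)) = ⟨x', hx'S⟩ := by
    have := hS
    apply cyclic_involution_unique
    · rw [Subgroup.orderOf_mk, hsord]
    · rw [Subgroup.orderOf_mk, hx'ord]
  have hzx : (z.1.1 : G) = x := by
    rw [← hsz']
    exact congrArg (fun t : (S : Subgroup C) => (t.1.1 : G)) heq
  have hPC : (P : Subgroup G) ≤ C := by
    intro g hg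
    rw [hmemC, ← hzx]
    exact hzcomm g hg
  have hPS' : ∀ g, g ∈ (P : Subgroup G) → g ∈ S' := fun g hg => claim3 g hg (hPC hg)
  have hPcyc : IsCyclic (P : Subgroup G) := by
    have := hS
    let f : (S : Subgroup C) →* (P : Subgroup G) :=
      { toFun := fun s => ⟨s.1.1, hP ⟨s.1, s.2, rfl⟩⟩
        map_one' := rfl
        map_mul' := fun a b => rfl }
    apply isCyclic_of_surjective f
    rintro ⟨g, hg⟩
    obtain ⟨s, hs, hsg⟩ := hPS' g hg
    exact ⟨⟨s, hs⟩, Subtype.ext hsg⟩
  have heven : Even (Nat.card G) := by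
    rw [even_iff_two_dvd, ← hx]
    exact orderOf_dvd_natCard x
  exact exists_index_two_of_cyclic_sylow heven P hPcyc

/-- If x is an involution of a finite group G and a Sylow 2-subgroup of the centralizer of x is cyclic, then G has a subgroup of index 2; in particular G is not simple unless it has order 2. -/
theorem result {G : Type*} [Group G] [Finite G] (x : G) (hx : orderOf x = 2) (S : Sylow 2 ↥(Subgroup.centralizer ({x} : Set G))) (hS : IsCyclic (S : Subgroup ↥(Subgroup.centralizer ({x} : Set G)))) : ∃ H : Subgroup G, H.index = 2 := by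
  refine aux x hx _ ?_ S hS
  intro g
  rw [Subgroup.mem_centralizer_iff]
  constructor
  · intro h
    exact (h x rfl).symm
  · intro h y hy
    rw [Set.mem_singleton_iff] at hy
    rw [hy]
    exact h.symm

end Cfsg.Agent.S0220
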