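import Cfsg.Statements.S0221
import Cfsg.Agent.S0111
import Cfsg.Agent.Lib.Helper6.NormFour

set_option autoImplicit false
open Cfsg

namespace Cfsg.Agent.S0221

open Cfsg.Agent.Lib.Helper6

/-- transport of the conclusion along conjugation -/
theorem conj_reduce {G : Type*} [Group G] (x c : G)
    (h : ∃ K : Subgroup G, K ≤ Subgroup.centralizer ({c * x * c⁻¹} : Set G) ∧ Nat.card K = 8 ∧
      ∀ e ∈ K, e ^ 2 = 1) :
    ∃ K : Subgroup G, K ≤ Subgroup.centralizer ({x} : Set G) ∧ Nat.card K = 8 ∧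
      ∀ e ∈ K, e ^ 2 = 1 := by
  obtain ⟨K, hK, hK8, hK2⟩ := h
  refine ⟨K.map (MulAut.conj c⁻¹).toMonoidHom, ?_, ?_, ?_⟩
  · rintro e ⟨k, hk, rfl⟩
    have h1 := Subgroup.mem_centralizer_singleton_iff.mp (hK hk)
    rw [Subgroup.mem_centralizer_singleton_iff]
    simp only [MulEquiv.coe_toMonoidHom, MulAut.conj_apply, inv_inv]
    calc c⁻¹ * k * c * x = c⁻¹ * (k * (c * x * c⁻¹)) * c := by group
      _ = c⁻¹ * ((c * x * c⁻¹) * k) * c := by rw [h1]
      _ = x * (c⁻¹ * k * c) := by group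
  · rw [Subgroup.card_map_of_injective (MulAut.conj c⁻¹).injective]; exact hK8
  · rintro e ⟨k, hk, rfl⟩
    rw [← map_pow, hK2 k hk, map_one]

theorem main_sylow {G : Type*} [Group G] [Finite G] (hno : ∀ H : Subgroup G, H.index ≠ 2)
    (P : Sylow 2 G) (E : Subgroup G) (hEP : E ≤ (P : Subgroup G)) (hE8 : Nat.card E = 8)
    (hE2 : ∀ e ∈ E, e ^ 2 = 1) (x : G) (hx : orderOf x = 2) (hxP : x ∈ (P : Subgroup G)) :
    ∃ K : Subgroup G, K ≤ Subgroup.centralizer ({x} : Set G) ∧ Nat.card K = 8 ∧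
      ∀ e ∈ K, e ^ 2 = 1 := by
  have hE0 : Nat.card (E.subgroupOf (P : Subgroup G)) = 8 := by
    rw [← hE8]; exact Nat.card_congr (Subgroup.subgroupOfEquivOfLe hEP).toEquiv
  obtain ⟨z₀, w₀, hz1', hw1', hwz', hz2', hw2', hzc', hconj'⟩ :=
    exists_normal_four P.isPGroup' (E.subgroupOf (P : Subgroup G)) hE0
      (fun e he => Subtype.ext (by
        rw [Subgroup.coe_pow, Subgroup.coe_one]; exact hE2 _ (Subgroup.mem_subgroupOf.mp he)))
  obtain ⟨z, hz_def⟩ : ∃ z : G, z = (z₀ : G) := ⟨_, rfl⟩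
  obtain ⟨w, hw_def⟩ : ∃ w : G, w = (w₀ : G) := ⟨_, rfl⟩
  have hzP : z ∈ (P : Subgroup G) := hz_def ▸ z₀.2
  have hwP : w ∈ (P : Subgroup G) := hw_def ▸ w₀.2
  have hz1 : z ≠ 1 := by
    rw [hz_def]; intro h; exact hz1' (Subtype.ext h)
  have hw1 : w ≠ 1 := by
    rw [hw_def]; intro h; exact hw1' (Subtype.ext h)
  have hwz : w ≠ z := by
    rw [hz_def, hw_def]; intro h; exact hwz' (Subtype.ext h)
  have hz2 : z ^ 2 = 1 := by
    rw [hz_def]; have h := congrArg Subtype.val hz2'; rwa [Subgroup.coe_pow] at h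
  have hw2 : w ^ 2 = 1 := by
    rw [hw_def]; have h := congrArg Subtype.val hw2'; rwa [Subgroup.coe_pow] at h
  have hzc : ∀ s ∈ (P : Subgroup G), s * z = z * s := by
    intro s hs
    rw [hz_def]
    exact congrArg Subtype.val (hzc' ⟨s, hs⟩)
  have hconj : ∀ s ∈ (P : Subgroup G), s * w * s⁻¹ = w ∨ s * w * s⁻¹ = w * z := by
    intro s hs
    rw [hz_def, hw_def]
    rcases hconj' ⟨s, hs⟩ with h | h
    · left; exact congrArg Subtype.val h
    · right; exact congrArg Subtype.val h
  clear hz1' hw1' hwz' hz2' hw2' hzc' hconj'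
  obtain ⟨Q, hQ_def⟩ : ∃ Q : Subgroup G,
      Q = (P : Subgroup G) ⊓ Subgroup.centralizer ({w} : Set G) := ⟨_, rfl⟩
  have hQP : Q ≤ (P : Subgroup G) := hQ_def ▸ inf_le_left
  have hQmem : ∀ s, s ∈ Q ↔ s ∈ (P : Subgroup G) ∧ s * w = w * s := by
    intro s
    rw [hQ_def, Subgroup.mem_inf, Subgroup.mem_centralizer_singleton_iff]
  have hzw : z * w = w * z := (hzc w hwP).symm
  have hQ_iff : ∀ s ∈ (P : Subgroup G), s ∈ Q ↔ s * w * s⁻¹ = w := by
    intro s hs
    rw [hQmem, mul_inv_eq_iff_eq_mul]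
    exact ⟨fun h => h.2, fun h => ⟨hs, h⟩⟩
  have hwz_ne : w * z ≠ w := by
    intro h; exact hz1 (mul_eq_left.mp h)
  have hrel : ∀ a ∈ (P : Subgroup G), a ∉ Q → Q.relIndex (P : Subgroup G) = 2 := by
    intro a haP haQ
    have ha : a * w * a⁻¹ = w * z := by
      rcases hconj a haP with h | h
      · exact absurd ((hQ_iff a haP).mpr h) haQ
      · exact h
    show (Q.subgroupOf (P : Subgroup G)).index = 2
    rw [Subgroup.index_eq_two_iff]
    refine ⟨⟨a, haP⟩, fun b => ?_⟩
    have hbP : (b : G) ∈ (P : Subgroup G) := b.2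
    have hba : (b : G) * a * w * ((b : G) * a)⁻¹ = (b : G) * w * (b : G)⁻¹ * z := by
      rw [mul_inv_rev]
      calc (b : G) * a * w * (a⁻¹ * (b : G)⁻¹) = (b : G) * (a * w * a⁻¹) * (b : G)⁻¹ := by group
        _ = (b : G) * (w * z) * (b : G)⁻¹ := by rw [ha]
        _ = (b : G) * w * (z * (b : G)⁻¹) := by group
        _ = (b : G) * w * ((b : G)⁻¹ * z) := by rw [hzc _ (inv_mem hbP)]
        _ = (b : G) * w * (b : G)⁻¹ * z := by group
    by_cases hb : (b : G) ∈ Q
    · right
      refine ⟨Subgroup.mem_subgroupOf.mpr hb, fun h => ?_⟩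
      have h1 := (hQ_iff _ (mul_mem hbP haP)).mp (Subgroup.mem_subgroupOf.mp h)
      rw [hba, (hQ_iff _ hbP).mp hb] at h1
      exact hwz_ne h1
    · left
      refine ⟨?_, fun h => hb (Subgroup.mem_subgroupOf.mp h)⟩
      rw [Subgroup.mem_subgroupOf]
      show (b : G) * a ∈ Q
      rw [hQ_iff _ (mul_mem hbP haP), hba]
      have hb' : (b : G) * w * (b : G)⁻¹ = w * z := by
        rcases hconj _ hbP with h | h
        · exact absurd ((hQ_iff _ hbP).mpr h) hb
        · exact h
      rw [hb', mul_assoc, ← sq, hz2, mul_one]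
  obtain ⟨c, hc⟩ : ∃ c : G, c * x * c⁻¹ ∈ Q := by
    by_cases hxQ : x ∈ Q
    · exact ⟨1, by simpa using hxQ⟩
    · have hQi := hrel x hxP hxQ
      rcases Cfsg.Agent.S0111.result P Q hQP hQi x hx hxP hxQ with ⟨M, -, hM, -⟩ | h
      · exact absurd hM (hno M)
      · exact h
  apply conj_reduce x c
  obtain ⟨y, hy_def⟩ : ∃ y : G, y = c * x * c⁻¹ := ⟨_, rfl⟩
  rw [← hy_def] at hc ⊢
  have hy2 : y ^ 2 = 1 := by
    rw [hy_def, conj_pow, ← hx, pow_orderOf_eq_one, mul_one, mul_inv_cancel]
  have hyP : y ∈ (P : Subgroup G) := hQP hc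
  have hyw : y * w = w * y := ((hQmem y).mp hc).2
  have hyz : y * z = z * y := hzc y hyP
  obtain ⟨U, hU_def⟩ : ∃ U : Subgroup G, U = Subgroup.closure ({z, w} : Set G) := ⟨_, rfl⟩
  have hzU : z ∈ U := hU_def ▸ Subgroup.subset_closure (by simp)
  have hwU : w ∈ U := hU_def ▸ Subgroup.subset_closure (by simp)
  have hU2 : ∀ u ∈ U, u ^ 2 = 1 := by
    rw [hU_def]
    apply sq_eq_one_of_mem_closure
    · intro a ha b hb
      rcases ha with ha | ha <;> rcases hb with hb | hb <;> rw [ha, hb]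
      · exact hzw
      · exact hzw.symm
    · intro a ha
      rcases ha with ha | ha <;> rw [ha]
      · exact hz2
      · exact hw2
  have hUQ : ∀ u ∈ U, ∀ q ∈ Q, q * u = u * q := by
    intro u hu q hq
    have h1 : U ≤ Subgroup.centralizer ({q} : Set G) := by
      rw [hU_def, Subgroup.closure_le]
      intro a ha
      rw [SetLike.mem_coe, Subgroup.mem_centralizer_singleton_iff]
      rcases ha with ha | ha <;> rw [ha]
      · exact (hzc q (hQP hq)).symm
      · exact (((hQmem q).mp hq).2).symm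
    exact (Subgroup.mem_centralizer_singleton_iff.mp (h1 hu)).symm
  have hU4 : 4 ≤ Nat.card U := by
    have h1 : Subgroup.zpowers z < U := by
      refine lt_of_le_of_ne ((Subgroup.zpowers_le).mpr hzU) fun h => ?_
      have hw' : w ∈ Subgroup.zpowers z := h ▸ hwU
      rcases mem_zpowers_of_sq hz2 hw' with h' | h'
      · exact hw1 h'
      · exact hwz h'
    have h2 := card_lt_of_lt' h1
    rw [Nat.card_zpowers, orderOf_eq_prime hz2 hz1] at h2
    have h3 := pow_succ_le_card_of_sq U hU2 1 (by rw [pow_one]; exact h2)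
    norm_num at h3
    exact h3
  by_cases hyU : y ∈ U
  · obtain ⟨B, hB_def⟩ : ∃ B : Subgroup G,
        B = Subgroup.closure (((E ⊓ Q : Subgroup G) : Set G) ∪ {z, w}) := ⟨_, rfl⟩
    have hB2 : ∀ b ∈ B, b ^ 2 = 1 := by
      rw [hB_def]
      apply sq_eq_one_of_mem_closure
      · intro a ha b hb
        rcases ha with ha | ha | ha <;> rcases hb with hb | hb | hb
        · exact comm_of_sq (hE2 a ha.1) (hE2 b hb.1) (hE2 _ (E.mul_mem ha.1 hb.1))
        · rw [hb]; exact hzc a (hQP ha.2)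
        · rw [hb]; exact ((hQmem a).mp ha.2).2
        · rw [ha]; exact (hzc b (hQP hb.2)).symm
        · rw [ha, hb]
        · rw [ha, hb]; exact hzw
        · rw [ha]; exact (((hQmem b).mp hb.2).2).symm
        · rw [ha, hb]; exact hzw.symm
        · rw [ha, hb]
      · intro a ha
        rcases ha with ha | ha | ha
        · exact hE2 a ha.1
        · rw [ha]; exact hz2
        · rw [ha]; exact hw2
    have hBy : B ≤ Subgroup.centralizer ({y} : Set G) := by
      rw [hB_def, Subgroup.closure_le]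
      intro a ha
      rw [SetLike.mem_coe, Subgroup.mem_centralizer_singleton_iff]
      rcases ha with ha | ha | ha
      · exact hUQ y hyU a ha.2
      · rw [ha]; exact hyz.symm
      · rw [ha]; exact hyw.symm
    have hEB : E ⊓ Q ≤ B := by
      rw [hB_def]; exact fun a ha => Subgroup.subset_closure (Or.inl ha)
    have hwB : w ∈ B := by
      rw [hB_def]; exact Subgroup.subset_closure (Or.inr (by simp))
    have hB4 : 4 < Nat.card B := by
      by_cases hEQ : E ≤ Q
      · have h1 : E ≤ B := fun e he => hEB ⟨he, hEQ he⟩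
        have h2 := Subgroup.card_le_of_le h1
        omega
      · obtain ⟨e₀, he₀, he₀Q⟩ := SetLike.not_le_iff_exists.mp hEQ
        have hQi := hrel e₀ (hEP he₀) he₀Q
        have hwE : w ∉ E := by
          intro hwE
          apply hEQ
          intro e he
          rw [hQmem]
          exact ⟨hEP he, comm_of_sq (hE2 e he) hw2 (hE2 _ (E.mul_mem he hwE))⟩
        have h1 : (⊥ : Subgroup G).relIndex (Q ⊓ E) * (Q ⊓ E).relIndex E =
            (⊥ : Subgroup G).relIndex E :=
          Subgroup.relIndex_mul_relIndex _ _ _ bot_le inf_le_right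
        rw [Subgroup.relIndex_bot_left, Subgroup.relIndex_bot_left, Subgroup.inf_relIndex_right,
          hE8] at h1
        have h2 : Q.relIndex E ≤ 2 := by
          rw [← hQi]
          exact Subgroup.relIndex_le_of_le_right hEP (by rw [hQi]; norm_num)
        have h3 : 4 ≤ Nat.card (Q ⊓ E : Subgroup G) := by nlinarith
        have h4 : E ⊓ Q < B := by
          refine lt_of_le_of_ne hEB fun h => ?_
          exact hwE ((h ▸ hwB : w ∈ E ⊓ Q).1)
        have h5 := card_lt_of_lt' h4
        rw [inf_comm] at h3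
        omega
    obtain ⟨K, hKB, hK8⟩ := exists_card_eight B hB2 hB4
    exact ⟨K, hKB.trans hBy, hK8, fun e he => hB2 e (hKB he)⟩
  · obtain ⟨B, hB_def⟩ : ∃ B : Subgroup G, B = Subgroup.closure ({z, w, y} : Set G) := ⟨_, rfl⟩
    have hB2 : ∀ b ∈ B, b ^ 2 = 1 := by
      rw [hB_def]
      apply sq_eq_one_of_mem_closure
      · intro a ha b hb
        rcases ha with ha | ha | ha <;> rcases hb with hb | hb | hb <;> rw [ha, hb]
        · exact hzw
        · exact hyz.symm
        · exact hzw.symm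
        · exact hyw.symm
        · exact hyz
        · exact hyw
      · intro a ha
        rcases ha with ha | ha | ha <;> rw [ha]
        · exact hz2
        · exact hw2
        · exact hy2
    have hBy : B ≤ Subgroup.centralizer ({y} : Set G) := by
      rw [hB_def, Subgroup.closure_le]
      intro a ha
      rw [SetLike.mem_coe, Subgroup.mem_centralizer_singleton_iff]
      rcases ha with ha | ha | ha <;> rw [ha]
      · exact hyz.symm
      · exact hyw.symm
    have hUB : U < B := by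
      have hle : U ≤ B := by
        rw [hU_def, hB_def]
        apply Subgroup.closure_mono
        intro a ha
        rcases ha with ha | ha <;> rw [ha] <;> simp
      refine lt_of_le_of_ne hle fun h => hyU ?_
      rw [h, hB_def]
      exact Subgroup.subset_closure (by simp)
    have hB4 : 4 < Nat.card B := lt_of_le_of_lt hU4 (card_lt_of_lt' hUB)
    obtain ⟨K, hKB, hK8⟩ := exists_card_eight B hB2 hB4
    exact ⟨K, hKB.trans hBy, hK8, fun e he => hB2 e (hKB he)⟩

/-- Let G be a finite group with no subgroup of index 2 whose 2-rank is at least 3 (it contains an elementary abelian subgroup of order 8). Then the centralizer of every involution of G also contains an elementary abelian subgroup of order 8. -/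
theorem result {G : Type*} [Group G] [Finite G] (hno : ∀ H : Subgroup G, H.index ≠ 2) (hrank : ∃ E : Subgroup G, Nat.card E = 8 ∧ ∀ e ∈ E, e ^ 2 = 1) (x : G) (hx : orderOf x = 2) : ∃ E : Subgroup G, E ≤ Subgroup.centralizer ({x} : Set G) ∧ Nat.card E = 8 ∧ ∀ e ∈ E, e ^ 2 = 1 := by
  obtain ⟨E, hE8, hE2⟩ := hrank
  have hEp : IsPGroup 2 E := isPGroup_two_of_sq E hE2
  obtain ⟨P, hEP⟩ := hEp.exists_le_sylow
  have hxp : IsPGroup 2 (Subgroup.zpowers x) := by
    apply IsPGroup.of_card (n := 1)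
    rw [Nat.card_zpowers, hx, pow_one]
  obtain ⟨P₁, hxP₁⟩ := hxp.exists_le_sylow
  obtain ⟨g, hg⟩ := MulAction.exists_smul_eq G P₁ P
  have hx1 : x ∈ (P₁ : Subgroup G) := hxP₁ (Subgroup.mem_zpowers x)
  have hgx : g * x * g⁻¹ ∈ (P : Subgroup G) := by
    rw [← hg, Sylow.coe_subgroup_smul, Subgroup.mem_smul_pointwise_iff_exists]
    exact ⟨x, hx1, by simp [MulAut.smul_def]⟩
  apply conj_reduce x g
  apply main_sylow hno P E hEP hE8 hE2 (g * x * g⁻¹) _ hgx
  rw [← hx]
  exact (MulAut.conj g).orderOf_eq x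

end Cfsg.Agent.S0221
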