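import Cfsg.Statements.S0226
import Mathlib

set_option autoImplicit false
open Cfsg

namespace Cfsg.Agent.S0226

/-- A finite group of even order has an odd number of involutions. -/
theorem result {G : Type*} [Group G] [Finite G] (heven : Even (Nat.card G)) : Odd (Nat.card {t : G // orderOf t = 2}) := by
  classical
  have := Fintype.ofFinite G
  let f : Function.End G := fun g => g⁻¹
  have hf : f ^ 2 ^ 1 = 1 := by
    rw [pow_one, pow_two]
    funext g
    exact inv_inv g
  have h := Equiv.Perm.card_fixedPoints_modEq (p := 2) (n := 1) hf
  have hfix : Function.fixedPoints f = insert 1 {t : G | orderOf t = 2} := by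
    ext g
    simp only [Function.mem_fixedPoints, Function.IsFixedPt, Set.mem_insert_iff, Set.mem_ofPred_eq, f]
    constructor
    · intro h
      by_cases h1 : g = 1
      · exact Or.inl h1
      · right
        refine orderOf_eq_prime ?_ h1
        rw [pow_two]
        nth_rewrite 1 [← h]
        exact inv_mul_cancel g
    · rintro (rfl | h)
      · simp
      · have h2 : g ^ 2 = 1 := h ▸ pow_orderOf_eq_one g
        rw [pow_two] at h2
        exact inv_eq_of_mul_eq_one_left h2
  have hcard : Fintype.card (Function.fixedPoints f) = Nat.card {t : G // orderOf t = 2} + 1 := by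
    rw [← Nat.card_eq_fintype_card, Nat.card_coe_set_eq, hfix, Set.ncard_insert_of_notMem, ← Nat.card_coe_set_eq]
    · rfl
    · simp
  rw [hcard, ← Nat.card_eq_fintype_card] at h
  rw [Nat.even_iff] at heven
  rw [Nat.odd_iff]
  unfold Nat.ModEq at h
  omega

end Cfsg.Agent.S0226
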