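import Cfsg.Statements.S0229
import Cfsg.Agent.Lib.Helper6.Dih

set_option autoImplicit false
open Cfsg

namespace Cfsg.Agent.S0229

open Cfsg.Agent.Lib.Helper6

/-- Let t be an involution of a Sylow 2-subgroup S of a finite group G, conjugate in G to no other element of S, and let s be an involution of G not conjugate to t. Then the order of st is twice an odd number. -/
theorem result {G : Type*} [Group G] [Finite G] (S : Sylow 2 G) (t : G) (ht : orderOf t = 2) (htS : t ∈ S) (hiso : ∀ g : G, g * t * g⁻¹ ∈ S → g * t * g⁻¹ = t) (s : G) (hs : orderOf s = 2) (hns : ¬ IsConj s t) : orderOf (s * t) % 4 = 2 := by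
  have hord : orderOf (s * t) = orderOf (t * s) := by
    have h := orderOf_conj_eq t (s * t)
    rw [← h]
    congr 1
    group
  rw [hord]
  have hns' : ¬ IsConj t s := fun h => hns h.symm
  have heven := even_orderOf_of_not_isConj ht hs hns'
  have hpos : 0 < orderOf (t * s) := orderOf_pos _
  obtain ⟨hzo, hzt, hzs⟩ := central_involution ht hs hpos heven
  by_contra hmod
  have h4 : 4 ∣ orderOf (t * s) := by
    have := even_iff_two_dvd.mp heven
    omega
  obtain ⟨d, hd, hdconj⟩ := (conj_central_iff ht hs heven).mpr h4
  set z := (t * s) ^ (orderOf (t * s) / 2) with hz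
  have hzz := mul_self_of_orderOf_two hzo
  have hzt' : z ≠ t := by
    intro h
    apply not_mem_zpowers ht hs
    have h0 : z ∈ Subgroup.zpowers (t * s) := Subgroup.npow_mem_zpowers _ _
    rwa [h] at h0
  have hwo : orderOf (t * z) = 2 := by
    refine orderOf_two_of_mul_self ?_ ?_
    · rw [mul_assoc, ← mul_assoc z, hzt.eq, mul_assoc, hzz, mul_one, mul_self_of_orderOf_two ht]
    · intro h
      apply hzt'
      have h1 := eq_inv_of_mul_eq_one_right h
      rw [h1, inv_of_orderOf_two ht]
  have htw : orderOf (t * (t * z)) = 2 ^ 1 := by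
    rw [← mul_assoc, mul_self_of_orderOf_two ht, one_mul, hzo, pow_one]
  have hR := isPGroup_closure_pair ht hwo 1 htw
  have hconj : IsConj t (t * z) := isConj_iff.mpr ⟨d, hdconj⟩
  have hweq := isolated_in_pgroup S t hiso _ hR
    (Subgroup.subset_closure (by simp)) _ (Subgroup.subset_closure (by simp)) hconj
  have h3 : t * z = t * 1 := by rw [mul_one]; exact hweq
  exact ne_one_of_orderOf_two hzo (mul_left_cancel h3)

end Cfsg.Agent.S0229
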