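import Cfsg.Statements.S0230
import Cfsg.Agent.Lib.Helper6.Count

set_option autoImplicit false
open Cfsg

namespace Cfsg.Agent.S0230

open Cfsg.Agent.Lib.Helper6

theorem index_centralizer_le_card_conj {G : Type*} [Group G] [Finite G] (t : G) :
    (Subgroup.centralizer ({t} : Set G)).index ≤ Nat.card {v : G // IsConj t v} := by
  rw [Subgroup.index_eq_card]
  let f : G ⧸ Subgroup.centralizer ({t} : Set G) → {v : G // IsConj t v} := fun q =>
    Quotient.liftOn' q (fun g => (⟨g * t * g⁻¹, isConj_iff.mpr ⟨g, rfl⟩⟩ :
      {v : G // IsConj t v})) (by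
        intro a b hab
        rw [QuotientGroup.leftRel_apply, Subgroup.mem_centralizer_singleton_iff] at hab
        apply Subtype.ext
        simp only
        have h2 : b * t * b⁻¹ = a * (a⁻¹ * b * t) * b⁻¹ := by group
        rw [h2, hab]
        group)
  refine Nat.card_le_card_of_injective f ?_
  intro q₁ q₂ h
  induction q₁ using QuotientGroup.induction_on with
  | H a =>
    induction q₂ using QuotientGroup.induction_on with
    | H b =>
      have h' : a * t * a⁻¹ = b * t * b⁻¹ := congrArg Subtype.val h
      rw [QuotientGroup.eq, Subgroup.mem_centralizer_singleton_iff]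
      have h2 : t = a⁻¹ * (b * t * b⁻¹) * a := by rw [← h']; group
      nth_rewrite 2 [h2]
      group

theorem card_commuting_involutions_lt {G : Type*} [Group G] [Finite G] (s : G) :
    Nat.card {z : G // orderOf z = 2 ∧ Commute z s} + 1 ≤
      Nat.card (Subgroup.centralizer ({s} : Set G)) := by
  classical
  rw [← Finite.card_option]
  let f : Option {z : G // orderOf z = 2 ∧ Commute z s} → Subgroup.centralizer ({s} : Set G) :=
    fun o => match o with
    | none => 1
    | some z => ⟨z.1, Subgroup.mem_centralizer_singleton_iff.mpr z.2.2.eq⟩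
  refine Nat.card_le_card_of_injective f ?_
  rintro (_ | a) (_ | b) h
  · rfl
  · exfalso
    have := congrArg Subtype.val h
    simp only [f] at this
    exact ne_one_of_orderOf_two b.2.1 this.symm
  · exfalso
    have := congrArg Subtype.val h
    simp only [f] at this
    exact ne_one_of_orderOf_two a.2.1 this
  · have := congrArg Subtype.val h
    simp only [f] at this
    rw [Subtype.ext this]

/-- Let G be a finite group with two non-conjugate involutions, and let t be an involution whose centralizer has maximal order among centralizers of involutions. Then |G| < |C_G(t)|^3. -/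
theorem result {G : Type*} [Group G] [Finite G] (s t : G) (hs : orderOf s = 2) (ht : orderOf t = 2) (hnc : ¬ IsConj s t) (hmax : ∀ u : G, orderOf u = 2 → Nat.card (Subgroup.centralizer ({u} : Set G)) ≤ Nat.card (Subgroup.centralizer ({t} : Set G))) : Nat.card G < Nat.card (Subgroup.centralizer ({t} : Set G)) ^ 3 := by
  classical
  have hφ : ∀ v : {v : G // IsConj t v}, ∃ z : {z : G // orderOf z = 2 ∧ Commute z s},
      v.1 ∈ Subgroup.centralizer ({z.1} : Set G) := by
    intro v
    have hv2 : orderOf v.1 = 2 := by
      obtain ⟨c, hc⟩ := isConj_iff.mp v.2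
      rw [← hc, orderOf_conj_eq]
      exact ht
    have hnc' : ¬ IsConj s v.1 := fun h => hnc (h.trans v.2.symm)
    have heven := even_orderOf_of_not_isConj hs hv2 hnc'
    obtain ⟨hzo, hzs, hzv⟩ := central_involution hs hv2 (orderOf_pos _) heven
    exact ⟨⟨_, hzo, hzs⟩, Subgroup.mem_centralizer_singleton_iff.mpr hzv.eq.symm⟩
  choose zf hzf using hφ
  let φ : {v : G // IsConj t v} →
      Σ z : {z : G // orderOf z = 2 ∧ Commute z s}, Subgroup.centralizer ({z.1} : Set G) :=
    fun v => ⟨zf v, ⟨v.1, hzf v⟩⟩
  have hφinj : Function.Injective φ := by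
    intro v w h
    have h1 := congrArg (fun x : (Σ z : {z : G // orderOf z = 2 ∧ Commute z s},
      Subgroup.centralizer ({z.1} : Set G)) => (x.2 : G)) h
    exact Subtype.ext h1
  have hI := Fintype.ofFinite {z : G // orderOf z = 2 ∧ Commute z s}
  have h1 : Nat.card {v : G // IsConj t v} ≤
      ∑ z : {z : G // orderOf z = 2 ∧ Commute z s},
        Nat.card (Subgroup.centralizer ({z.1} : Set G)) := by
    rw [← Nat.card_sigma]
    exact Nat.card_le_card_of_injective φ hφinj
  have h2 : ∑ z : {z : G // orderOf z = 2 ∧ Commute z s},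
      Nat.card (Subgroup.centralizer ({z.1} : Set G)) ≤
      ∑ _z : {z : G // orderOf z = 2 ∧ Commute z s},
        Nat.card (Subgroup.centralizer ({t} : Set G)) :=
    Finset.sum_le_sum (fun z _ => hmax z.1 z.2.1)
  rw [Finset.sum_const, Finset.card_univ, smul_eq_mul, ← Nat.card_eq_fintype_card] at h2
  have h3 := card_commuting_involutions_lt s
  have h4 := hmax s hs
  have h5 := index_centralizer_le_card_conj t
  have h6 := Subgroup.card_mul_index (Subgroup.centralizer ({t} : Set G))
  have hc : 0 < Nat.card (Subgroup.centralizer ({t} : Set G)) := Nat.card_pos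
  generalize Nat.card (Subgroup.centralizer ({t} : Set G)) = c at *
  generalize Nat.card {z : G // orderOf z = 2 ∧ Commute z s} = i at *
  generalize Nat.card {v : G // IsConj t v} = x at *
  generalize (Subgroup.centralizer ({t} : Set G)).index = j at *
  rw [← h6]
  have h7 : x ≤ i * c := le_trans h1 h2
  have h8 : i + 1 ≤ c := le_trans h3 h4
  have h9 : j < c * c := by
    calc j ≤ x := h5
      _ ≤ i * c := h7
      _ < c * c := Nat.mul_lt_mul_of_pos_right (by omega) hc
  calc c * j < c * (c * c) := Nat.mul_lt_mul_of_pos_left h9 hc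
    _ = c ^ 3 := by ring

end Cfsg.Agent.S0230
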