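import Cfsg.Statements.S0231
import Cfsg.Agent.Lib.Helper6.Dih

set_option autoImplicit false
open scoped Pointwise
open Cfsg

namespace Cfsg.Agent.S0231

open Cfsg.Agent.Lib.Helper6

section aux

variable {G : Type*} [Group G] [Finite G]

theorem mem_smul_sylow (Q : Sylow 2 G) (a x : G) : x ∈ a • Q ↔ a⁻¹ * x * a ∈ Q := by
  change x ∈ ((a • Q : Sylow 2 G) : Subgroup G) ↔ _
  rw [Sylow.coe_subgroup_smul, Subgroup.mem_pointwise_smul_iff_inv_smul_mem]
  simp only [MulAut.smul_def, MulAut.conj_inv_apply]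
  exact Iff.rfl

theorem mem_conj_smul (S : Subgroup G) (a x : G) : x ∈ MulAut.conj a • S ↔ a⁻¹ * x * a ∈ S := by
  rw [Subgroup.mem_pointwise_smul_iff_inv_smul_mem]
  simp [MulAut.smul_def]

theorem ti_general (T : Sylow 2 G)
    (hTI : ∀ g : G, MulAut.conj g • (T : Subgroup G) ≠ T → MulAut.conj g • (T : Subgroup G) ⊓ T = ⊥)
    (Q Q' : Sylow 2 G) (hne : Q ≠ Q') (x : G) (hx : x ∈ Q) (hx' : x ∈ Q') : x = 1 := by
  obtain ⟨a, rfl⟩ := MulAction.exists_smul_eq G T Q
  obtain ⟨b, rfl⟩ := MulAction.exists_smul_eq G T Q'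
  rw [mem_smul_sylow] at hx hx'
  have hne' : MulAut.conj (b⁻¹ * a) • (T : Subgroup G) ≠ T := by
    intro h
    apply hne
    have h1 : (b⁻¹ * a) • T = T := by
      apply Sylow.ext
      rw [Sylow.coe_subgroup_smul]
      exact h
    calc a • T = b • ((b⁻¹ * a) • T) := by rw [smul_smul, mul_inv_cancel_left]
      _ = b • T := by rw [h1]
  have h2 := hTI _ hne'
  have h3 : b⁻¹ * x * b ∈ MulAut.conj (b⁻¹ * a) • (T : Subgroup G) ⊓ T := by
    refine Subgroup.mem_inf.mpr ⟨?_, hx'⟩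
    rw [mem_conj_smul]
    have h4 : (b⁻¹ * a)⁻¹ * (b⁻¹ * x * b) * (b⁻¹ * a) = a⁻¹ * x * a := by group
    rw [h4]
    exact hx
  rw [h2, Subgroup.mem_bot] at h3
  have h5 : x = b * (b⁻¹ * x * b) * b⁻¹ := by group
  rw [h5, h3]
  group

theorem exists_sylow_mem (s : G) (hs : orderOf s = 2) : ∃ Q : Sylow 2 G, s ∈ Q := by
  have hp : IsPGroup 2 (Subgroup.zpowers s) := by
    apply IsPGroup.of_card (n := 1)
    rw [Nat.card_zpowers, hs, pow_one]
  obtain ⟨Q, hQ⟩ := hp.exists_le_sylow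
  exact ⟨Q, hQ (Subgroup.mem_zpowers s)⟩

theorem mem_of_commute (T : Sylow 2 G)
    (hTI : ∀ g : G, MulAut.conj g • (T : Subgroup G) ≠ T → MulAut.conj g • (T : Subgroup G) ⊓ T = ⊥)
    (s z : G) (hs : orderOf s = 2) (hz : orderOf z = 2) (hc : Commute z s) (Q : Sylow 2 G)
    (hsQ : s ∈ Q) : z ∈ Q := by
  have h1 : z • Q = Q := by
    by_contra h
    apply ne_one_of_orderOf_two hs
    refine ti_general T hTI (z • Q) Q h s ?_ hsQ
    rw [mem_smul_sylow]
    have h2 : z⁻¹ * s * z = s := by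
      rw [mul_assoc, ← hc.eq, ← mul_assoc, inv_mul_cancel, one_mul]
    rw [h2]
    exact hsQ
  rw [Sylow.smul_eq_iff_mem_normalizer] at h1
  have hp : IsPGroup 2 (Subgroup.zpowers z) := by
    apply IsPGroup.of_card (n := 1)
    rw [Nat.card_zpowers, hz, pow_one]
  have h3 : z ∈ Subgroup.zpowers z ⊓ Subgroup.normalizer (Q : Set G) :=
    Subgroup.mem_inf.mpr ⟨Subgroup.mem_zpowers z, h1⟩
  rw [hp.inf_normalizer_sylow Q] at h3
  exact (Subgroup.mem_inf.mp h3).2

theorem same_sylow (T : Sylow 2 G)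
    (hTI : ∀ g : G, MulAut.conj g • (T : Subgroup G) ≠ T → MulAut.conj g • (T : Subgroup G) ⊓ T = ⊥)
    (s t : G) (hs : orderOf s = 2) (ht : orderOf t = 2) (hnc : ¬ IsConj s t) (Q : Sylow 2 G)
    (hsQ : s ∈ Q) : t ∈ Q := by
  have heven := even_orderOf_of_not_isConj hs ht hnc
  obtain ⟨hzo, hzs, hzt⟩ := central_involution hs ht (orderOf_pos _) heven
  have hzQ := mem_of_commute T hTI s _ hs hzo hzs Q hsQ
  exact mem_of_commute T hTI _ t hzo ht hzt.symm Q hzQ

end aux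

/-- Let T be a Sylow 2-subgroup of the finite group G which is not normal and which intersects every other Sylow 2-subgroup trivially. Then G has a single conjugacy class of involutions. -/
theorem result {G : Type*} [Group G] [Finite G] (T : Sylow 2 G) (hnn : ¬ (T : Subgroup G).Normal) (hTI : ∀ g : G, MulAut.conj g • (T : Subgroup G) ≠ T → MulAut.conj g • (T : Subgroup G) ⊓ T = ⊥) (s t : G) (hs : orderOf s = 2) (ht : orderOf t = 2) : IsConj s t := by
  by_contra hnc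
  obtain ⟨Q, hsQ⟩ := exists_sylow_mem s hs
  have htQ := same_sylow T hTI s t hs ht hnc Q hsQ
  have hex : ∃ g : G, g • T ≠ T := by
    by_contra h
    push Not at h
    apply hnn
    constructor
    intro n hn g
    have h1 : g * n * g⁻¹ ∈ g • T := by
      rw [mem_smul_sylow]
      have h2 : g⁻¹ * (g * n * g⁻¹) * g = n := by group
      rw [h2]
      exact hn
    rw [h g] at h1
    exact h1
  have hex' : ∃ Q' : Sylow 2 G, Q' ≠ Q := by
    obtain ⟨g, hg⟩ := hex
    by_cases hQT : Q = T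
    · exact ⟨g • T, by rw [hQT]; exact hg⟩
    · exact ⟨T, fun h => hQT h.symm⟩
  obtain ⟨Q', hQ'⟩ := hex'
  obtain ⟨b, rfl⟩ := MulAction.exists_smul_eq G Q Q'
  have hr : b * s * b⁻¹ ∈ b • Q := by
    rw [mem_smul_sylow]
    have h2 : b⁻¹ * (b * s * b⁻¹) * b = s := by group
    rw [h2]
    exact hsQ
  have hro : orderOf (b * s * b⁻¹) = 2 := by rw [orderOf_conj_eq, hs]
  have hsr : IsConj s (b * s * b⁻¹) := isConj_iff.mpr ⟨b, rfl⟩
  have htr : IsConj t (b * s * b⁻¹) := by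
    by_contra h
    have h3 := same_sylow T hTI t _ ht hro h Q htQ
    exact ne_one_of_orderOf_two hro (ti_general T hTI (b • Q) Q hQ' _ hr h3)
  exact hnc (hsr.trans htr.symm)

end Cfsg.Agent.S0231
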