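import Cfsg.Statements.S0232
import Cfsg.Agent.Lib.Helper6.BF

set_option autoImplicit false
open Cfsg

namespace Cfsg.Agent.S0232

open Cfsg.Agent.Lib.Helper6

universe u

theorem exists_index_two_of_cyclic {G : Type*} [Group G] [Finite G] (heven : Even (Nat.card G))
    (T : Sylow 2 G) (hT : IsCyclic (T : Subgroup G)) : ∃ H : Subgroup G, H.index = 2 := by
  have hmin : (Nat.card G).minFac = 2 := (Nat.minFac_eq_two_iff _).mpr (even_iff_two_dvd.mp heven)
  have hcomp := IsCyclic.isComplement' hmin hT
  have hsurj : Function.Surjective (MonoidHom.transferSylow T (hT.normalizer_le_centralizer hmin)) := by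
    have h1 := hcomp.symm.index_eq_card
    rw [Subgroup.index_ker] at h1
    exact MonoidHom.range_eq_top.mp (Subgroup.eq_top_of_card_eq _ h1)
  have hTcard : 2 ∣ Nat.card (T : Subgroup G) := by
    rw [Sylow.card_eq_multiplicity]
    have : 0 < (Nat.card G).factorization 2 :=
      Nat.Prime.factorization_pos_of_dvd Nat.prime_two Nat.card_pos.ne' (even_iff_two_dvd.mp heven)
    exact dvd_pow_self 2 this.ne'
  obtain ⟨k, hk⟩ := (IsPGroup.iff_card.mp T.2 : ∃ n, Nat.card (T : Subgroup G) = 2 ^ n)
  have hk0 : k ≠ 0 := by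
    rintro rfl
    rw [hk] at hTcard
    simp at hTcard
  obtain ⟨j, rfl⟩ : ∃ j, k = j + 1 := ⟨k - 1, by omega⟩
  obtain ⟨K, hK⟩ := Sylow.exists_subgroup_card_pow_prime 2 (n := j) (G := (T : Subgroup G))
    (by rw [hk]; exact pow_dvd_pow 2 (Nat.le_succ j))
  refine ⟨K.comap (MonoidHom.transferSylow T (hT.normalizer_le_centralizer hmin)), ?_⟩
  rw [Subgroup.index_comap_of_surjective _ hsurj]
  have := K.card_mul_index
  rw [hK, hk, pow_succ] at this
  exact Nat.eq_of_mul_eq_mul_left (by positivity) this

theorem of_index_two {G : Type*} [Group G] [Finite G] (hgt : 2 < Nat.card G) (H : Subgroup G)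
    (hH : H.index = 2) : ∃ H : Subgroup G, H ≠ ⊤ ∧ Nat.card G < (Nat.card H) ^ 3 := by
  refine ⟨H, ?_, ?_⟩
  · intro h
    rw [h, Subgroup.index_top] at hH
    omega
  · have h1 := H.card_mul_index
    rw [hH] at h1
    have h2 : 2 ≤ Nat.card H := by omega
    have h3 : 4 ≤ Nat.card H ^ 2 := by nlinarith
    have h4 : Nat.card H ^ 3 = Nat.card H ^ 2 * Nat.card H := by ring
    rw [h4]
    nlinarith

theorem arith_aux (N m h k i : ℕ) (hm : 0 < m) (hi : 0 < i) (hN : h * i = N)
    (h1 : 2 * i * m ^ 2 < N * (N + m)) (h2 : N ≤ m * k) (h3 : h ^ 3 ≤ N) (h4 : k ^ 3 ≤ N)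
    (hk : 0 < k) (hh : 0 < h) : False := by
  have h5 : 2 * m ^ 2 < h * (N + m) := by
    have h6 : i * (2 * m ^ 2) < i * (h * (N + m)) := by
      calc i * (2 * m ^ 2) = 2 * i * m ^ 2 := by ring
        _ < N * (N + m) := h1
        _ = i * (h * (N + m)) := by rw [← hN]; ring
    exact Nat.lt_of_mul_lt_mul_left h6
  have h7 : 2 * m < h * (k + 1) := by
    have h8 : m * (2 * m) < m * (h * (k + 1)) := by
      calc m * (2 * m) = 2 * m ^ 2 := by ring
        _ < h * (N + m) := h5
        _ ≤ h * (m * k + m) := Nat.mul_le_mul_left h (by omega)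
        _ = m * (h * (k + 1)) := by ring
    exact Nat.lt_of_mul_lt_mul_left h8
  have h9 : 2 * N < h * k * (k + 1) := by
    calc 2 * N ≤ 2 * (m * k) := by omega
      _ = k * (2 * m) := by ring
      _ < k * (h * (k + 1)) := Nat.mul_lt_mul_of_pos_left h7 hk
      _ = h * k * (k + 1) := by ring
  rcases Nat.le_total h k with hle | hle
  · have h10 : h * k * (k + 1) ≤ k ^ 3 + k ^ 2 := by
      calc h * k * (k + 1) ≤ k * k * (k + 1) := by
            apply Nat.mul_le_mul_right
            exact Nat.mul_le_mul_right k hle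
        _ = k ^ 3 + k ^ 2 := by ring
    have h11 : k ^ 2 ≤ k ^ 3 := Nat.pow_le_pow_right hk (by norm_num)
    omega
  · have h10 : h * k * (k + 1) ≤ h ^ 3 + h ^ 2 := by
      calc h * k * (k + 1) ≤ h * h * (h + 1) := by
            apply Nat.mul_le_mul
            · exact Nat.mul_le_mul_left h hle
            · omega
        _ = h ^ 3 + h ^ 2 := by ring
    have h11 : h ^ 2 ≤ h ^ 3 := Nat.pow_le_pow_right hh (by norm_num)
    omega

theorem bf_cube : ∀ (n : ℕ) (G : Type u) [Group G] [Finite G], Nat.card G = n → Even n → 2 < n →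
    ∃ H : Subgroup G, H ≠ ⊤ ∧ Nat.card G < (Nat.card H) ^ 3 := by
  intro n
  induction n using Nat.strong_induction_on with
  | _ n ih =>
  intro G _ _ hn heven hgt
  by_cases hidx : ∃ H : Subgroup G, H.index = 2
  · obtain ⟨H, hH⟩ := hidx
    exact of_index_two (hn ▸ hgt) H hH
  push Not at hidx
  have hevenG : Even (Nat.card G) := hn ▸ heven
  by_cases hZ : Odd (Nat.card (Subgroup.center G))
  · obtain ⟨H, hH, h⟩ := brauer_fowler_index hevenG hZ
    have h1 := h.resolve_left (hidx H)
    obtain ⟨t, ht⟩ := exists_prime_orderOf_dvd_card' 2 (even_iff_two_dvd.mp hevenG)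
    have hC := centralizer_ne_top_of_involution hZ t ht
    by_contra hcon
    push Not at hcon
    have h3 := hcon H hH
    have h4 := hcon _ hC
    have hm : 0 < numInv G := numInv_pos hevenG
    have hi : 0 < H.index := Nat.pos_of_ne_zero Subgroup.index_ne_zero_of_finite
    have h2 : Nat.card G ≤ numInv G * Nat.card (Subgroup.centralizer ({t} : Set G)) := by
      have h5 := index_centralizer_le_numInv t ht
      have h6 := Subgroup.card_mul_index (Subgroup.centralizer ({t} : Set G))
      rw [← h6, mul_comm]
      exact Nat.mul_le_mul_right _ h5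
    exact arith_aux (Nat.card G) (numInv G) (Nat.card H) (Nat.card (Subgroup.centralizer ({t} : Set G)))
      H.index hm hi H.card_mul_index h1 h2 h3 h4 Nat.card_pos Nat.card_pos
  · rw [Nat.not_odd_iff_even] at hZ
    obtain ⟨z, hz⟩ := exists_prime_orderOf_dvd_card' 2 (even_iff_two_dvd.mp hZ)
    have hzo : orderOf (z : G) = 2 := by rw [Subgroup.orderOf_coe]; exact hz
    have hnormal : (Subgroup.zpowers (z : G)).Normal := by
      constructor
      intro a ha g
      obtain ⟨k, rfl⟩ := Subgroup.mem_zpowers_iff.mp ha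
      have hc : Commute g ((z : G) ^ k) := by
        have h0 : Commute g (z : G) := (Subgroup.mem_center_iff.mp z.2 g)
        exact h0.zpow_right k
      rw [hc.eq, mul_inv_cancel_right]
      exact Subgroup.zpow_mem_zpowers _ _
    have hcardZ : Nat.card (Subgroup.zpowers (z : G)) = 2 := by
      rw [Nat.card_zpowers, hzo]
    have hmul := Subgroup.card_mul_index (Subgroup.zpowers (z : G))
    rw [hcardZ] at hmul
    have hidxZ := hidx (Subgroup.zpowers (z : G))
    by_cases hodd : Odd (Subgroup.zpowers (z : G)).index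
    · exfalso
      obtain ⟨P⟩ : Nonempty (Sylow 2 G) := inferInstance
      obtain ⟨k, hk⟩ := (IsPGroup.iff_card.mp P.2 : ∃ n, Nat.card (P : Subgroup G) = 2 ^ n)
      have hPidx : ¬ 2 ∣ (P : Subgroup G).index := P.not_dvd_index
      have hPmul := Subgroup.card_mul_index (P : Subgroup G)
      rw [hk, ← hmul] at hPmul
      obtain ⟨j, hj⟩ := hodd
      have hk1 : k = 1 := by
        rcases k with _ | _ | k
        · exfalso
          apply hPidx
          simp only [pow_zero, one_mul] at hPmul
          omega
        · rfl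
        · exfalso
          have h5 : 2 ^ (k + 2) * (P : Subgroup G).index = 4 * (2 ^ k * (P : Subgroup G).index) := by
            ring
          rw [h5] at hPmul
          omega
      rw [hk1, pow_one] at hk
      have hcyc : IsCyclic (P : Subgroup G) := isCyclic_of_prime_card hk
      obtain ⟨H, hH⟩ := exists_index_two_of_cyclic hevenG P hcyc
      exact hidx H hH
    · rw [Nat.not_odd_iff_even] at hodd
      have hpos : 0 < (Subgroup.zpowers (z : G)).index :=
        Nat.pos_of_ne_zero Subgroup.index_ne_zero_of_finite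
      have hgt' : 2 < (Subgroup.zpowers (z : G)).index := by
        obtain ⟨j, hj⟩ := hodd
        omega
      have hlt : (Subgroup.zpowers (z : G)).index < n := by omega
      obtain ⟨Hbar, hHbar, hlt2⟩ := ih _ hlt (G ⧸ Subgroup.zpowers (z : G))
        (Subgroup.index_eq_card _).symm hodd hgt'
      refine ⟨Hbar.comap (QuotientGroup.mk' (Subgroup.zpowers (z : G))), ?_, ?_⟩
      · intro h
        apply hHbar
        have h5 := Subgroup.index_comap_of_surjective Hbar
          (QuotientGroup.mk'_surjective (Subgroup.zpowers (z : G)))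
        rw [h, Subgroup.index_top] at h5
        exact Subgroup.index_eq_one.mp h5.symm
      · have h5 := Subgroup.index_comap_of_surjective Hbar
          (QuotientGroup.mk'_surjective (Subgroup.zpowers (z : G)))
        have h6 := Subgroup.card_mul_index (Hbar.comap (QuotientGroup.mk' (Subgroup.zpowers (z : G))))
        have h7 := Subgroup.card_mul_index Hbar
        rw [← Subgroup.index_eq_card] at h7 hlt2
        rw [h5] at h6
        have hipos : 0 < Hbar.index := Nat.pos_of_ne_zero Subgroup.index_ne_zero_of_finite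
        have h8 : Nat.card (Hbar.comap (QuotientGroup.mk' (Subgroup.zpowers (z : G)))) =
            2 * Nat.card Hbar := by
          have h9 : Nat.card (Hbar.comap (QuotientGroup.mk' (Subgroup.zpowers (z : G)))) * Hbar.index =
              2 * Nat.card Hbar * Hbar.index := by
            rw [h6, ← hmul, ← h7]
            ring
          exact Nat.eq_of_mul_eq_mul_right hipos h9
        rw [h8]
        have h10 : (2 * Nat.card Hbar) ^ 3 = 8 * Nat.card Hbar ^ 3 := by ring
        rw [h10]
        omega

/-- A finite group G of even order greater than 2 has a proper subgroup H with |G| < |H|^3. -/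
theorem result {G : Type*} [Group G] [Finite G] (heven : Even (Nat.card G)) (hgt : 2 < Nat.card G) : ∃ H : Subgroup G, H ≠ ⊤ ∧ Nat.card G < (Nat.card H) ^ 3 := by
  exact bf_cube (Nat.card G) G rfl heven hgt

end Cfsg.Agent.S0232
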