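import Cfsg.Statements.S0234
import Mathlib
import Cfsg.Agent.Lib.Helper6.BF
import Cfsg.Agent.Lib.Helper6.Ord60
import Cfsg.Agent.Lib.Helper23.Syl2
import Cfsg.Agent.S0493

set_option autoImplicit false
open Cfsg

namespace Cfsg.Agent.S0234

open Cfsg.Agent.Lib.Helper6 Cfsg.Agent.Lib.Helper23

theorem a5_inv : Nat.card {t : alternatingGroup (Fin 5) // orderOf t = 2} = 15 := by
  have h : ∀ t : alternatingGroup (Fin 5), orderOf t = 2 ↔ (t ≠ 1 ∧ t * t = 1) := by
    intro t
    constructor
    · intro h
      refine ⟨fun h1 => by rw [h1, orderOf_one] at h; norm_num at h, ?_⟩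
      rw [← pow_two, ← h]
      exact pow_orderOf_eq_one t
    · rintro ⟨h1, h2⟩
      exact orderOf_eq_prime (by rw [pow_two]; exact h2) h1
  rw [Nat.card_congr (Equiv.subtypeEquivRight h), Nat.card_eq_fintype_card]
  decide +kernel

/-- In a finite simple group G of even order greater than 2, the number n of involutions satisfies 3n < |G|. -/
theorem result {G : Type*} [Group G] [Finite G] [IsSimpleGroup G] (heven : Even (Nat.card G)) (hgt : 2 < Nat.card G) : 3 * Nat.card {t : G // orderOf t = 2} < Nat.card G := by
  classical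
  by_contra hcon
  push Not at hcon
  have hG' : ¬ IsMulCommutative G := by
    intro hc
    let _ : CommGroup G := { ‹Group G› with mul_comm := hc.is_comm.comm }
    have hp : (Nat.card G).Prime := IsSimpleGroup.prime_card
    have h2 : Nat.card G = 2 := ((Nat.prime_dvd_prime_iff_eq Nat.prime_two hp).mp
      (even_iff_two_dvd.mp heven)).symm
    omega
  have hnc : ¬ IsCyclic G := by
    intro hc
    exact hG' isMulCommutative_of_isCyclic
  have hZ : Odd (Nat.card (Subgroup.center G)) := by
    rcases (Subgroup.normal_of_characteristic (Subgroup.center G)).eq_bot_or_eq_top with hz | hz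
    · rw [hz, Subgroup.card_bot]
      exact odd_one
    · exfalso
      apply hG'
      refine ⟨⟨fun a b => ?_⟩⟩
      have ha : a ∈ Subgroup.center G := by rw [hz]; trivial
      exact (Subgroup.mem_center_iff.mp ha b).symm
  obtain ⟨H, hH, h2 | hlt⟩ := brauer_fowler_index heven hZ
  · have hn : H.Normal := Subgroup.normal_of_index_eq_two h2
    rcases hn.eq_bot_or_eq_top with hb | ht
    · rw [hb, Subgroup.index_bot] at h2
      omega
    · exact hH ht
  · unfold numInv at hlt
    set g := Nat.card G with hg
    set m := Nat.card {t : G // orderOf t = 2} with hm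
    have hk : H.index ≤ 5 := by
      by_contra hk
      push Not at hk
      have h1 : g * (g + m) ≤ 3 * m * (3 * m + m) := Nat.mul_le_mul hcon (by omega)
      have h2 : 2 * 6 * m ^ 2 ≤ 2 * H.index * m ^ 2 :=
        Nat.mul_le_mul_right _ (Nat.mul_le_mul_left _ hk)
      have h3 : 3 * m * (3 * m + m) = 2 * 6 * m ^ 2 := by ring
      omega
    have hdvd := simple_two_mul_card_dvd_factorial hG' H hH
    have hfac : (H.index).factorial ≤ (5 : ℕ).factorial := Nat.factorial_le hk
    have hle : 2 * g ≤ 120 := by
      have := Nat.le_of_dvd (Nat.factorial_pos _) hdvd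
      have h5 : (5 : ℕ).factorial = 120 := rfl
      omega
    have h60 : g = 60 := Cfsg.Agent.S0493.result hnc (by omega)
    obtain ⟨e⟩ := simple_card_sixty h60
    have hm15 : m = 15 := by
      rw [hm, ← a5_inv]
      exact Nat.card_congr (e.toEquiv.subtypeEquiv (fun t => by
        show orderOf t = 2 ↔ orderOf (e t) = 2
        rw [MulEquiv.orderOf_eq]))
    omega

end Cfsg.Agent.S0234
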