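import Cfsg.Statements.S0235
import Mathlib

set_option autoImplicit false
open Cfsg

namespace Cfsg.Agent.S0235

theorem mul_self_of_orderOf_two {G : Type*} [Group G] {u : G} (hu : orderOf u = 2) : u * u = 1 := by
  have h : u ^ 2 = 1 := hu ▸ pow_orderOf_eq_one u
  rwa [pow_two] at h

theorem inv_of_orderOf_two {G : Type*} [Group G] {u : G} (hu : orderOf u = 2) : u⁻¹ = u :=
  inv_eq_of_mul_eq_one_left (mul_self_of_orderOf_two hu)

/-- If x² ≠ 1, the ordered pairs (u, v) of involutions with uv = x correspond bijectively to the involutions t with t x t⁻¹ = x⁻¹ (via (u, v) ↦ u), so the two counts agree. -/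
theorem result {G : Type*} [Group G] [Finite G] (x : G) (hx : x ^ 2 ≠ 1) : Nat.card {p : G × G // orderOf p.1 = 2 ∧ orderOf p.2 = 2 ∧ p.1 * p.2 = x} = Nat.card {t : G // orderOf t = 2 ∧ t * x * t⁻¹ = x⁻¹} := by
  refine Nat.card_congr ?_
  exact
  { toFun := fun p => ⟨p.1.1, p.2.1, by
      obtain ⟨⟨u, v⟩, hu, hv, huv⟩ := p
      simp only at hu hv huv ⊢
      rw [← huv, mul_inv_rev, inv_of_orderOf_two hu, inv_of_orderOf_two hv, ← mul_assoc,
        mul_self_of_orderOf_two hu, one_mul]⟩
    invFun := fun t => ⟨(t.1, t.1 * x), t.2.1, by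
      obtain ⟨t, ht, htx⟩ := t
      simp only
      have h1 : t * x * t = x⁻¹ := by rw [← htx, inv_of_orderOf_two ht]
      refine orderOf_eq_prime ?_ ?_
      · rw [pow_two, ← mul_assoc, h1, inv_mul_cancel]
      · intro h
        apply hx
        have h2 : x = t := by
          have h3 := eq_inv_of_mul_eq_one_right h
          rw [h3, inv_of_orderOf_two ht]
        rw [h2, pow_two, mul_self_of_orderOf_two ht], by
      simp [← mul_assoc, mul_self_of_orderOf_two t.2.1]⟩
    left_inv := by
      rintro ⟨⟨u, v⟩, hu, hv, huv⟩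
      simp only at hu hv huv ⊢
      subst huv
      simp [← mul_assoc, mul_self_of_orderOf_two hu]
    right_inv := by
      rintro ⟨t, ht, htx⟩
      rfl }

end Cfsg.Agent.S0235
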