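import Cfsg.Statements.S0236
import Mathlib

set_option autoImplicit false
open Cfsg

namespace Cfsg.Agent.S0236

theorem mul_self_of_orderOf_two {G : Type*} [Group G] {u : G} (hu : orderOf u = 2) : u * u = 1 := by
  have h : u ^ 2 = 1 := hu ▸ pow_orderOf_eq_one u
  rwa [pow_two] at h

theorem inv_of_orderOf_two {G : Type*} [Group G] {u : G} (hu : orderOf u = 2) : u⁻¹ = u :=
  inv_eq_of_mul_eq_one_left (mul_self_of_orderOf_two hu)

theorem commute_of_pair {G : Type*} [Group G] {u v : G} (hu : orderOf u = 2) (hv : orderOf v = 2)
    (huv : orderOf (u * v) = 2) : Commute u (u * v) := by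
  have h1 := mul_self_of_orderOf_two huv
  have h2 : u * v * u = v := by
    have h3 : u * v * u * v = 1 := by rw [← h1]; group
    have h4 := eq_inv_of_mul_eq_one_left h3
    rw [h4, inv_of_orderOf_two hv]
  unfold Commute SemiconjBy
  rw [h2, ← mul_assoc, mul_self_of_orderOf_two hu, one_mul]

theorem ne_of_pair {G : Type*} [Group G] {u v : G} (hv : orderOf v = 2) : u ≠ u * v := by
  intro h
  have h1 : v = 1 := by
    have := congrArg (fun z => u⁻¹ * z) h
    simpa using this.symm
  rw [h1, orderOf_one] at hv
  omega

theorem orderOf_mul_of_commute {G : Type*} [Group G] {t x : G} (ht : orderOf t = 2) (hx : orderOf x = 2)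
    (hc : Commute t x) (hne : t ≠ x) : orderOf (t * x) = 2 := by
  refine orderOf_eq_prime ?_ ?_
  · rw [hc.mul_pow, pow_two, pow_two, mul_self_of_orderOf_two ht, mul_self_of_orderOf_two hx, one_mul]
  · intro h
    apply hne
    have h3 := eq_inv_of_mul_eq_one_left h
    rw [h3, inv_of_orderOf_two hx]

/-- If x is an involution, the number of ordered pairs (u, v) of involutions with uv = x, plus one, equals the number of involutions in the centralizer of x. -/
theorem result {G : Type*} [Group G] [Finite G] (x : G) (hx : orderOf x = 2) : Nat.card {p : G × G // orderOf p.1 = 2 ∧ orderOf p.2 = 2 ∧ p.1 * p.2 = x} + 1 = Nat.card {t : G // orderOf t = 2 ∧ Commute t x} := by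
  classical
  rw [← Finite.card_option]
  refine Nat.card_congr ?_
  exact
  { toFun := fun o => match o with
      | none => ⟨x, hx, Commute.refl x⟩
      | some p => ⟨p.1.1, p.2.1, by
          have h := commute_of_pair p.2.1 p.2.2.1 (by rw [p.2.2.2]; exact hx)
          rwa [p.2.2.2] at h⟩
    invFun := fun t => if h : t.1 = x then none else
      some ⟨(t.1, t.1 * x), t.2.1, orderOf_mul_of_commute t.2.1 hx t.2.2 h, by
        simp [← mul_assoc, mul_self_of_orderOf_two t.2.1]⟩
    left_inv := by
      rintro (_ | ⟨⟨u, v⟩, hu, hv, huv⟩)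
      · simp
      · simp only at hu hv huv ⊢
        have hne : u ≠ x := by rw [← huv]; exact ne_of_pair hv
        rw [dif_neg hne]
        congr 1
        apply Subtype.ext
        simp only
        rw [← huv, ← mul_assoc, mul_self_of_orderOf_two hu, one_mul]
    right_inv := by
      rintro ⟨t, ht, htx⟩
      by_cases h : t = x
      · subst h
        simp
      · simp [h] }

end Cfsg.Agent.S0236
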