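import Cfsg.Statements.S0237
import Mathlib

set_option autoImplicit false
open Cfsg

namespace Cfsg.Agent.S0237

theorem sc {G : Type*} [Group G] {a x y : G} (h : a * x * a⁻¹ = y) : SemiconjBy a x y := by
  unfold SemiconjBy
  rw [← h]
  group

theorem sc' {G : Type*} [Group G] {a x y : G} (h : SemiconjBy a x y) : a * x * a⁻¹ = y := by
  rw [h.eq]
  group

/-- If x is real (conjugate to x⁻¹) in a finite group G, the number of g with g x g⁻¹ = x⁻¹ equals |C_G(x)|. -/
theorem result {G : Type*} [Group G] [Finite G] (x : G) (hreal : IsConj x x⁻¹) : Nat.card {g : G // g * x * g⁻¹ = x⁻¹} = Nat.card (Subgroup.centralizer ({x} : Set G)) := by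
  obtain ⟨c, hc⟩ := isConj_iff.mp hreal
  have hc' := sc hc
  refine Nat.card_congr ?_
  exact
  { toFun := fun g => ⟨c⁻¹ * g.1, by
      rw [Subgroup.mem_centralizer_singleton_iff]
      exact (hc'.inv_symm_left.mul_left (sc g.2)).eq⟩
    invFun := fun z => ⟨c * z.1, by
      have hz : SemiconjBy z.1 x x := Subgroup.mem_centralizer_singleton_iff.mp z.2
      exact sc' (hc'.mul_left hz)⟩
    left_inv := fun g => by simp
    right_inv := fun z => by simp }

end Cfsg.Agent.S0237
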