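import Cfsg.Statements.S0238
import Mathlib

set_option autoImplicit false
open Cfsg

namespace Cfsg.Agent.S0238

theorem mul_self_of_orderOf_two {G : Type*} [Group G] {u : G} (hu : orderOf u = 2) : u * u = 1 := by
  have h : u ^ 2 = 1 := hu ▸ pow_orderOf_eq_one u
  rwa [pow_two] at h

theorem inv_of_orderOf_two {G : Type*} [Group G] {u : G} (hu : orderOf u = 2) : u⁻¹ = u :=
  inv_eq_of_mul_eq_one_left (mul_self_of_orderOf_two hu)

theorem ne_one_of_orderOf_two {G : Type*} [Group G] {u : G} (hu : orderOf u = 2) : u ≠ 1 := by
  intro h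
  rw [h, orderOf_one] at hu
  omega

theorem semiconj_of_pair {G : Type*} [Group G] {u v : G} (hu : orderOf u = 2) (hv : orderOf v = 2) :
    SemiconjBy u (u * v) (u * v)⁻¹ := by
  unfold SemiconjBy
  rw [mul_inv_rev, inv_mul_cancel_right, inv_of_orderOf_two hv, ← mul_assoc,
    mul_self_of_orderOf_two hu, one_mul]

theorem commute_of_pair {G : Type*} [Group G] {u v : G} (hu : orderOf u = 2) (hv : orderOf v = 2)
    (huv : orderOf (u * v) = 2) : Commute u (u * v) := by
  have h := semiconj_of_pair hu hv
  rwa [inv_of_orderOf_two huv] at h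

theorem ne_of_pair {G : Type*} [Group G] {u v : G} (hv : orderOf v = 2) : u ≠ u * v := by
  intro h
  have h1 : v = 1 := by
    have := congrArg (fun z => u⁻¹ * z) h
    simpa using this.symm
  exact ne_one_of_orderOf_two hv h1

/-- For every x in a finite group G, the number c of ordered pairs (u, v) of involutions with uv = x is at most |C_G(x)|; c = 0 when x is not conjugate to x⁻¹; and c + 2 ≤ |C_G(x)| when x is an involution. -/
theorem result {G : Type*} [Group G] [Finite G] (x : G) : Nat.card {p : G × G // orderOf p.1 = 2 ∧ orderOf p.2 = 2 ∧ p.1 * p.2 = x} ≤ Nat.card (Subgroup.centralizer ({x} : Set G)) ∧ (¬ IsConj x x⁻¹ → Nat.card {p : G × G // orderOf p.1 = 2 ∧ orderOf p.2 = 2 ∧ p.1 * p.2 = x} = 0) ∧ (orderOf x = 2 → Nat.card {p : G × G // orderOf p.1 = 2 ∧ orderOf p.2 = 2 ∧ p.1 * p.2 = x} + 2 ≤ Nat.card (Subgroup.centralizer ({x} : Set G))) := by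
  classical
  have hsc : ∀ p : {p : G × G // orderOf p.1 = 2 ∧ orderOf p.2 = 2 ∧ p.1 * p.2 = x},
      SemiconjBy p.1.1 x x⁻¹ := by
    intro p
    have h := semiconj_of_pair p.2.1 p.2.2.1
    rwa [p.2.2.2] at h
  have hinj : ∀ p q : {p : G × G // orderOf p.1 = 2 ∧ orderOf p.2 = 2 ∧ p.1 * p.2 = x},
      p.1.1 = q.1.1 → p = q := by
    rintro ⟨⟨u, v⟩, hu, hv, huv⟩ ⟨⟨u', v'⟩, hu', hv', huv'⟩ h
    simp only at h hu hv huv hu' hv' huv'
    subst h
    have : v = v' := by
      rw [← huv'] at huv
      exact mul_left_cancel huv
    subst this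
    rfl
  refine ⟨?_, ?_, ?_⟩
  · by_cases hne : Nonempty {p : G × G // orderOf p.1 = 2 ∧ orderOf p.2 = 2 ∧ p.1 * p.2 = x}
    · obtain ⟨p₀⟩ := hne
      let f : {p : G × G // orderOf p.1 = 2 ∧ orderOf p.2 = 2 ∧ p.1 * p.2 = x} →
          Subgroup.centralizer ({x} : Set G) := fun p => ⟨p₀.1.1⁻¹ * p.1.1, by
        rw [Subgroup.mem_centralizer_singleton_iff]
        exact ((hsc p₀).inv_symm_left.mul_left (hsc p)).eq⟩
      refine Nat.card_le_card_of_injective f ?_
      intro p q hpq
      apply hinj
      have := congrArg Subtype.val hpq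
      simp only [f] at this
      exact mul_left_cancel this
    · rw [not_nonempty_iff] at hne
      simp
  · intro hnc
    rw [Nat.card_eq_zero]
    left
    refine ⟨fun p => hnc ?_⟩
    rw [isConj_iff]
    refine ⟨p.1.1, ?_⟩
    rw [(hsc p).eq]
    group
  · intro hx
    let f : Option (Option {p : G × G // orderOf p.1 = 2 ∧ orderOf p.2 = 2 ∧ p.1 * p.2 = x}) →
        Subgroup.centralizer ({x} : Set G) := fun o => match o with
      | none => 1
      | some none => ⟨x, Subgroup.mem_centralizer_singleton_iff.mpr rfl⟩
      | some (some p) => ⟨p.1.1, by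
          rw [Subgroup.mem_centralizer_singleton_iff]
          have h := hsc p
          rw [inv_of_orderOf_two hx] at h
          exact h.eq⟩
    have hf : Function.Injective f := by
      rintro (_ | _ | p) (_ | _ | q) h
      · rfl
      · exfalso
        have := congrArg Subtype.val h
        simp only [f] at this
        exact ne_one_of_orderOf_two hx this.symm
      · exfalso
        have := congrArg Subtype.val h
        simp only [f] at this
        exact ne_one_of_orderOf_two q.2.1 this.symm
      · exfalso
        have := congrArg Subtype.val h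
        simp only [f] at this
        exact ne_one_of_orderOf_two hx this
      · rfl
      · exfalso
        have := congrArg Subtype.val h
        simp only [f] at this
        have h2 : q.1.1 ≠ q.1.1 * q.1.2 := ne_of_pair q.2.2.1
        rw [q.2.2.2] at h2
        exact h2 this.symm
      · exfalso
        have := congrArg Subtype.val h
        simp only [f] at this
        exact ne_one_of_orderOf_two p.2.1 this
      · exfalso
        have := congrArg Subtype.val h
        simp only [f] at this
        have h2 : p.1.1 ≠ p.1.1 * p.1.2 := ne_of_pair p.2.2.1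
        rw [p.2.2.2] at h2
        exact h2 this
      · have := congrArg Subtype.val h
        simp only [f] at this
        rw [hinj p q this]
    have := Nat.card_le_card_of_injective f hf
    rwa [Finite.card_option, Finite.card_option] at this

end Cfsg.Agent.S0238
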