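import Cfsg.Statements.S0239
import Mathlib

set_option autoImplicit false
open Cfsg

namespace Cfsg.Agent.S0239

/-- If some nontrivial element x of a finite group G is conjugate to x⁻¹, then |G| is even. -/
theorem result {G : Type*} [Group G] [Finite G] (x : G) (hx : x ≠ 1) (hreal : IsConj x x⁻¹) : Even (Nat.card G) := by
  obtain ⟨c, hc⟩ := isConj_iff.mp hreal
  by_cases hxx : x⁻¹ = x
  · have h2 : orderOf x = 2 := by
      refine orderOf_eq_prime ?_ hx
      rw [pow_two]
      nth_rewrite 1 [← hxx]
      exact inv_mul_cancel x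
    exact even_iff_two_dvd.mpr (h2 ▸ orderOf_dvd_natCard x)
  · rw [even_iff_two_dvd]
    refine dvd_trans ?_ (orderOf_dvd_natCard c)
    by_contra hodd
    rw [← even_iff_two_dvd, Nat.not_even_iff_odd] at hodd
    obtain ⟨k, hk⟩ := hodd
    have h1 : SemiconjBy c x x⁻¹ := by
      unfold SemiconjBy
      rw [← hc]
      group
    have h2 : SemiconjBy c x⁻¹ x := by simpa using h1.inv_right
    have h3 : Commute (c * c) x := h2.mul_left h1
    have h4 : Commute ((c * c) ^ k) x := h3.pow_left k
    have h5 : (c * c) ^ k = c⁻¹ := by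
      have h6 : c ^ (2 * k + 1) = 1 := hk ▸ pow_orderOf_eq_one c
      rw [pow_succ, pow_mul, pow_two] at h6
      exact eq_inv_of_mul_eq_one_left h6
    rw [h5] at h4
    have h6 : Commute c x := by simpa using h4.inv_left
    apply hxx
    rw [← hc, h6.eq]
    group

end Cfsg.Agent.S0239
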