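import Cfsg.Statements.S0240
import Mathlib

set_option autoImplicit false
open Cfsg

namespace Cfsg.Agent.S0240

theorem mul_self_of_orderOf_two {G : Type*} [Group G] {u : G} (hu : orderOf u = 2) : u * u = 1 := by
  have h : u ^ 2 = 1 := hu ▸ pow_orderOf_eq_one u
  rwa [pow_two] at h

theorem inv_of_orderOf_two {G : Type*} [Group G] {u : G} (hu : orderOf u = 2) : u⁻¹ = u :=
  inv_eq_of_mul_eq_one_left (mul_self_of_orderOf_two hu)

theorem ne_one_of_orderOf_two {G : Type*} [Group G] {u : G} (hu : orderOf u = 2) : u ≠ 1 := by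
  intro h
  rw [h, orderOf_one] at hu
  omega

/-- Let G be a finite group with n involutions and H a subgroup with |H|·(n+1) > |G|. Then some nontrivial h ∈ H is strongly real in G: an involution t of G satisfies t h t⁻¹ = h⁻¹. -/
theorem result {G : Type*} [Group G] [Finite G] (H : Subgroup G) (hH : Nat.card G < Nat.card H * (Nat.card {t : G // orderOf t = 2} + 1)) : ∃ h : G, h ∈ H ∧ h ≠ 1 ∧ ∃ t : G, orderOf t = 2 ∧ t * h * t⁻¹ = h⁻¹ := by
  classical
  have hidx : Nat.card (G ⧸ H) < Nat.card (Option {t : G // orderOf t = 2}) := by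
    rw [Finite.card_option, ← Subgroup.index_eq_card]
    rw [← Subgroup.card_mul_index H] at hH
    exact lt_of_mul_lt_mul_left hH (Nat.zero_le _)
  let f : Option {t : G // orderOf t = 2} → G ⧸ H := fun o => match o with
    | none => ((1 : G) : G ⧸ H)
    | some t => ((t.1 : G) : G ⧸ H)
  have := Fintype.ofFinite (G ⧸ H)
  have := Fintype.ofFinite (Option {t : G // orderOf t = 2})
  rw [Nat.card_eq_fintype_card, Nat.card_eq_fintype_card] at hidx
  obtain ⟨a, b, hab, hfab⟩ := Fintype.exists_ne_map_eq_of_card_lt f hidx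
  have key : ∀ (s t : {t : G // orderOf t = 2}), s ≠ t → ((s.1 : G) : G ⧸ H) = ((t.1 : G) : G ⧸ H) →
      ∃ h : G, h ∈ H ∧ h ≠ 1 ∧ ∃ t : G, orderOf t = 2 ∧ t * h * t⁻¹ = h⁻¹ := by
    rintro ⟨s, hs⟩ ⟨t, ht⟩ hne heq
    rw [QuotientGroup.eq] at heq
    simp only at heq
    refine ⟨s⁻¹ * t, heq, ?_, s, hs, ?_⟩
    · intro h
      apply hne
      apply Subtype.ext
      simp only
      have := eq_of_inv_mul_eq_one h
      exact this
    · rw [mul_inv_rev, inv_inv, inv_of_orderOf_two hs, inv_of_orderOf_two ht, ← mul_assoc,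
        mul_self_of_orderOf_two hs, one_mul]
  have key1 : ∀ (t : {t : G // orderOf t = 2}), ((1 : G) : G ⧸ H) = ((t.1 : G) : G ⧸ H) →
      ∃ h : G, h ∈ H ∧ h ≠ 1 ∧ ∃ t : G, orderOf t = 2 ∧ t * h * t⁻¹ = h⁻¹ := by
    rintro ⟨t, ht⟩ heq
    rw [QuotientGroup.eq] at heq
    simp only [inv_one, one_mul] at heq
    refine ⟨t, heq, ne_one_of_orderOf_two ht, t, ht, ?_⟩
    rw [inv_of_orderOf_two ht, mul_self_of_orderOf_two ht, one_mul]
  rcases a with _ | s <;> rcases b with _ | t
  · exact absurd rfl hab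
  · exact key1 t hfab
  · exact key1 s hfab.symm
  · exact key s t (fun h => hab (by rw [h])) hfab

end Cfsg.Agent.S0240
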