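import Cfsg.Statements.S0241
import Mathlib

set_option autoImplicit false
open Cfsg

namespace Cfsg.Agent.S0241

/-- If x ≠ 1 is conjugate to x⁻¹ in a finite group G and |C_G(x)| is odd, then some involution t satisfies t x t⁻¹ = x⁻¹. -/
theorem result {G : Type*} [Group G] [Finite G] (x : G) (hx : x ≠ 1) (hreal : IsConj x x⁻¹) (hodd : Odd (Nat.card (Subgroup.centralizer ({x} : Set G)))) : ∃ t : G, orderOf t = 2 ∧ t * x * t⁻¹ = x⁻¹ := by
  obtain ⟨c, hc⟩ := isConj_iff.mp hreal
  have h1 : SemiconjBy c x x⁻¹ := by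
    unfold SemiconjBy
    rw [← hc]
    group
  have h2 : SemiconjBy c x⁻¹ x := by simpa using h1.inv_right
  have h3 : Commute (c * c) x := h2.mul_left h1
  have hmem : c * c ∈ Subgroup.centralizer ({x} : Set G) :=
    Subgroup.mem_centralizer_singleton_iff.mpr h3.eq
  have hord : Odd (orderOf (c * c)) := by
    have h4 : orderOf (⟨c * c, hmem⟩ : Subgroup.centralizer ({x} : Set G)) = orderOf (c * c) :=
      Subgroup.orderOf_mk _ _
    rw [← h4]
    exact Odd.of_dvd_nat hodd (orderOf_dvd_natCard _)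
  obtain ⟨k, hk⟩ := hord
  set n := orderOf (c * c) with hn
  have hxx : x⁻¹ ≠ x := by
    intro hxx
    have h2' : orderOf x = 2 := by
      refine orderOf_eq_prime ?_ hx
      rw [pow_two]
      nth_rewrite 1 [← hxx]
      exact inv_mul_cancel x
    have hxmem : x ∈ Subgroup.centralizer ({x} : Set G) :=
      Subgroup.mem_centralizer_singleton_iff.mpr rfl
    have h4 : orderOf (⟨x, hxmem⟩ : Subgroup.centralizer ({x} : Set G)) = orderOf x :=
      Subgroup.orderOf_mk _ _
    have h5 : 2 ∣ Nat.card (Subgroup.centralizer ({x} : Set G)) := by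
      rw [← h2', ← h4]
      exact orderOf_dvd_natCard _
    rw [← even_iff_two_dvd] at h5
    exact (Nat.not_even_iff_odd.mpr hodd) h5
  have hsc : SemiconjBy (c ^ n) x x⁻¹ := by
    rw [hk, pow_succ, pow_mul, pow_two]
    have h5 : SemiconjBy ((c * c) ^ k) x⁻¹ x⁻¹ := (h3.pow_left k).inv_right
    exact h5.mul_left h1
  refine ⟨c ^ n, ?_, ?_⟩
  · refine orderOf_eq_prime ?_ ?_
    · rw [← pow_mul, mul_comm, pow_mul, pow_two, hn, pow_orderOf_eq_one]
    · intro h
      rw [h] at hsc
      apply hxx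
      have := hsc.eq
      simpa using this.symm
  · rw [hsc.eq]
    group

end Cfsg.Agent.S0241
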