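import Cfsg.Statements.S0247
import Mathlib
import Cfsg.Agent.S0245
import Cfsg.Agent.Lib.Helper18.Symp

set_option autoImplicit false
open Cfsg

namespace Cfsg.Agent.S0247

open Matrix Cfsg.Agent.Lib.Helper18

/-- the space `F_2^4` -/
abbrev V2 : Type := Fin 2 ⊕ Fin 2 → ZMod 2

/-- `Sp_4(2)` -/
abbrev G2 : Type := Matrix.symplecticGroup (Fin 2) (ZMod 2)

/-- a vector with given coordinates -/
def mkv (a0 a1 b0 b1 : ZMod 2) : V2 := Sum.elim ![a0, a1] ![b0, b1]

/-- the six sets of five pairwise non-orthogonal vectors -/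
def L : Finset (Finset V2) :=
  { {mkv 0 0 0 1, mkv 0 1 0 0, mkv 0 1 1 1, mkv 1 1 0 1, mkv 1 1 1 1},
    {mkv 0 0 0 1, mkv 0 1 0 1, mkv 0 1 1 0, mkv 1 1 0 0, mkv 1 1 1 0},
    {mkv 0 0 1 0, mkv 1 0 0 0, mkv 1 0 1 1, mkv 1 1 1 0, mkv 1 1 1 1},
    {mkv 0 0 1 0, mkv 1 0 0 1, mkv 1 0 1 0, mkv 1 1 0 0, mkv 1 1 0 1},
    {mkv 0 0 1 1, mkv 0 1 0 0, mkv 0 1 0 1, mkv 1 0 0 1, mkv 1 0 1 1},
    {mkv 0 0 1 1, mkv 0 1 1 0, mkv 0 1 1 1, mkv 1 0 0 0, mkv 1 0 1 0} }

set_option maxRecDepth 100000 in
theorem L_card : L.card = 6 := by decide +kernel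

set_option maxRecDepth 100000 in
theorem inv_gen : ∀ w : V2, ∀ c : ZMod 2, ∀ s ∈ L,
    s.image (fun x => Cfsg.sympTransvection 2 w c *ᵥ x) ∈ L := by
  decide +kernel

set_option maxRecDepth 100000 in
theorem inter_prop : ∀ v : V2, v ≠ 0 → ∃ s ∈ L, ∃ t ∈ L, s ∩ t = {v} := by
  decide +kernel

/-- the action on sets of vectors -/
def act (g : G2) (s : Finset V2) : Finset V2 := s.image (fun x => g.1 *ᵥ x)

theorem act_one (s : Finset V2) : act 1 s = s := by
  simp [act]

theorem act_mul (g h : G2) (s : Finset V2) : act (g * h) s = act g (act h s) := by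
  simp only [act, Finset.image_image]
  congr 1
  funext x
  simp [Matrix.mulVec_mulVec]

theorem act_injective (g : G2) : Function.Injective (act g) := by
  intro s t h
  have := congrArg (act g⁻¹) h
  rwa [← act_mul, ← act_mul, inv_mul_cancel, act_one, act_one] at this

theorem inv_all (g : G2) : ∀ s ∈ L, act g s ∈ L := by
  have hmem : g ∈ Subgroup.closure {A : G2 | ∃ (w : V2) (c : ZMod 2),
      (A : Matrix (Fin 2 ⊕ Fin 2) (Fin 2 ⊕ Fin 2) (ZMod 2)) = Cfsg.sympTransvection 2 w c} := by
    rw [closure_sympTransvection_eq_top]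
    trivial
  induction hmem using Subgroup.closure_induction with
  | mem A hA =>
    obtain ⟨w, c, h⟩ := hA
    intro s hs
    have := inv_gen w c s hs
    unfold act
    rw [h]
    exact this
  | one =>
    intro s hs
    rwa [act_one]
  | mul a b _ _ ha hb =>
    intro s hs
    rw [act_mul]
    exact ha _ (hb s hs)
  | inv a _ ha =>
    intro s hs
    have himg : L.image (act a) = L := by
      apply Finset.eq_of_subset_of_card_le
      · intro t ht
        obtain ⟨s', hs', rfl⟩ := Finset.mem_image.mp ht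
        exact ha s' hs'
      · rw [Finset.card_image_of_injective _ (act_injective a)]
    have hs2 : s ∈ L.image (act a) := by
      rw [himg]
      exact hs
    obtain ⟨s', hs', rfl⟩ := Finset.mem_image.mp hs2
    rw [← act_mul, inv_mul_cancel, act_one]
    exact hs'

/-- the action on the six sets -/
def actL : MulAction G2 {s // s ∈ L} where
  smul g s := ⟨act g s.1, inv_all g s.1 s.2⟩
  one_smul s := Subtype.ext (act_one s.1)
  mul_smul g h s := Subtype.ext (act_mul g h s.1)

/-- the permutation representation on the six sets -/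
def phi : G2 →* Equiv.Perm {s // s ∈ L} := @MulAction.toPermHom G2 {s // s ∈ L} _ actL

theorem phi_apply (g : G2) (s : {s // s ∈ L}) : (phi g s).1 = act g s.1 := rfl

theorem phi_injective : Function.Injective phi := by
  rw [injective_iff_map_eq_one]
  intro g hg
  have hfix : ∀ s ∈ L, act g s = s := by
    intro s hs
    have := phi_apply g ⟨s, hs⟩
    rw [hg] at this
    exact this.symm
  have hv : ∀ v : V2, g.1 *ᵥ v = v := by
    intro v
    by_cases h0 : v = 0
    · rw [h0, Matrix.mulVec_zero]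
    · obtain ⟨s, hs, t, ht, hst⟩ := inter_prop v h0
      have hvst : v ∈ s ∩ t := by rw [hst]; exact Finset.mem_singleton_self v
      have h1 : g.1 *ᵥ v ∈ act g s := Finset.mem_image_of_mem _ (Finset.mem_inter.mp hvst).1
      have h2 : g.1 *ᵥ v ∈ act g t := Finset.mem_image_of_mem _ (Finset.mem_inter.mp hvst).2
      rw [hfix s hs] at h1
      rw [hfix t ht] at h2
      have h3 : g.1 *ᵥ v ∈ s ∩ t := Finset.mem_inter.mpr ⟨h1, h2⟩
      rw [hst] at h3
      exact Finset.mem_singleton.mp h3
  apply Subtype.ext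
  ext i j
  have := congrFun (hv (Pi.single j 1)) i
  rw [Matrix.mulVec_single_one] at this
  rw [Matrix.col_apply] at this
  show g.1 i j = (1 : Matrix (Fin 2 ⊕ Fin 2) (Fin 2 ⊕ Fin 2) (ZMod 2)) i j
  rw [this, Matrix.one_apply, Pi.single_apply]

theorem card_G2 : Nat.card G2 = 720 := by
  have h := Cfsg.Agent.S0245.result (F := ZMod 2) (q := 2) (ZMod.card 2) 2
  rw [h]
  decide

theorem card_L : Fintype.card {s // s ∈ L} = 6 := by
  rw [Fintype.card_coe, L_card]

theorem phi_bijective : Function.Bijective phi := by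
  apply phi_injective.bijective_of_nat_card_le
  rw [Nat.card_perm, Nat.card_eq_fintype_card, card_L, card_G2]
  decide

/-- base change along a ring isomorphism -/
def spCongr {R S : Type*} [CommRing R] [CommRing S] (e : R ≃+* S) (n : ℕ) :
    Matrix.symplecticGroup (Fin n) R ≃* Matrix.symplecticGroup (Fin n) S where
  toFun A := ⟨A.1.map e, SymplecticGroup.map_mem A.2 e⟩
  invFun B := ⟨B.1.map e.symm, SymplecticGroup.map_mem B.2 e.symm⟩
  left_inv A := Subtype.ext (by ext i j; simp)
  right_inv B := Subtype.ext (by ext i j; simp)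
  map_mul' A B := Subtype.ext (Matrix.map_mul)

/-- Sp_4(2) is isomorphic to the symmetric group S_6. -/
theorem result {F : Type*} [Field F] [Fintype F] (hF : Fintype.card F = 2) : Nonempty (Matrix.symplecticGroup (Fin 2) F ≃* Equiv.Perm (Fin 6)) := by
  have e : ZMod 2 ≃+* F := ZMod.ringEquivOfPrime F Nat.prime_two hF
  have e1 : Matrix.symplecticGroup (Fin 2) F ≃* G2 := spCongr e.symm 2
  have e2 : G2 ≃* Equiv.Perm {s // s ∈ L} := MulEquiv.ofBijective phi phi_bijective
  have e3 : Equiv.Perm {s // s ∈ L} ≃* Equiv.Perm (Fin 6) :=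
    (Fintype.equivFinOfCardEq card_L).permCongrHom
  exact ⟨(e1.trans e2).trans e3⟩

end Cfsg.Agent.S0247
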