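import Cfsg.Statements.S0253
import Mathlib
import Cfsg.Agent.Lib.Helper6.Ord60
import Cfsg.Agent.Lib.Helper6.PSLCard

set_option autoImplicit false
open Cfsg

namespace Cfsg.Agent.S0253

/-- PSL_2(5) is isomorphic to A_5. -/
theorem result {F : Type*} [Field F] [Fintype F] (hF : Fintype.card F = 5) : Nonempty (Matrix.ProjectiveSpecialLinearGroup (Fin 2) F ≃* alternatingGroup (Fin 5)) := by
  have hs : IsSimpleGroup (Matrix.ProjectiveSpecialLinearGroup (Fin 2) F) :=
    Matrix.ProjectiveSpecialLinearGroup.rank_two_simple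
      (by rw [Nat.card_eq_fintype_card, hF]; norm_num)
  have hc := Cfsg.Agent.Lib.Helper6.card_psl hF 2 (by norm_num)
  have h60 : Nat.card (Matrix.ProjectiveSpecialLinearGroup (Fin 2) F) = 60 := by
    rw [Fin.prod_univ_two] at hc
    norm_num [-Nat.card_eq_fintype_card] at hc
    omega
  exact Cfsg.Agent.Lib.Helper6.simple_card_sixty h60

end Cfsg.Agent.S0253
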