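import Cfsg.Statements.S0302
import Mathlib
import Cfsg.Agent.Lib.Helper99.IsoModel
import Cfsg.Agent.Lib.Helper99.HypExt
import Cfsg.Agent.Lib.Helper99.Klein
import Cfsg.Agent.Lib.Helper99.KleinSurj
import Cfsg.Agent.Lib.Helper99.KleinGen
import Cfsg.Agent.S0248
import Cfsg.Agent.S0249

set_option autoImplicit false
open Cfsg

namespace Cfsg.Agent.S0302

open Cfsg.Agent.Lib.Helper99 Cfsg.Agent.Lib.Helper99.Klein

/-- PΩ^+_6(q) is isomorphic to PSL_4(q). -/
theorem result {F : Type*} [Field F] [Fintype F] : Nonempty (Cfsg.POmega F (Cfsg.quadFormPlus 3 F) ≃* Matrix.ProjectiveSpecialLinearGroup (Fin 4) F) := by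
  have hperf : commutator (Matrix.SpecialLinearGroup (Fin 4) F) = ⊤ :=
    Cfsg.Agent.S0248.result 4 (by norm_num)
  have hsimple : IsSimpleGroup (Matrix.SpecialLinearGroup (Fin 4) F ⧸
      Subgroup.center (Matrix.SpecialLinearGroup (Fin 4) F)) :=
    Cfsg.Agent.S0249.result 4 (by norm_num)
  refine commutator_quotient_center_equiv
    (isoEquiv kpsi (quadFormPlus 3 F) (hypN kN₀) hypN_kpsi) kf (range_kf hperf)
    (QuotientGroup.mk' _) (QuotientGroup.mk'_surjective _) ?_ ?_ ?_
  · rw [QuotientGroup.ker_mk']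
    exact ker_le_center_of_simple hperf kf kf_ne_one
  · rw [QuotientGroup.ker_mk']
  · intro x hx
    exact center_quotient_trivial_of_simple hperf x hx

end Cfsg.Agent.S0302
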