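import Cfsg.Statements.S2565
import Mathlib
import Cfsg.Agent.S0825

set_option autoImplicit false
open Cfsg

namespace Cfsg.Agent.S2565

/-- A group isomorphism carries the commutator subgroup onto the commutator subgroup. -/
theorem map_commutator_equiv {G H : Type*} [Group G] [Group H] (e : G ≃* H) :
    (commutator G).map e.toMonoidHom = commutator H := by
  rw [commutator_def, commutator_def, Subgroup.map_commutator]
  have h : (⊤ : Subgroup G).map e.toMonoidHom = ⊤ := by
    rw [← MonoidHom.range_eq_map]
    exact MonoidHom.range_eq_top.2 e.surjective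
  rw [h]

/-- The commutator subgroup of the full orthogonal group of the plus-type form Σ xᵢyᵢ in dimension 6 over the field of two elements (the group Ω⁺₆(2), of index 2) is isomorphic to the alternating group of degree 8. -/
theorem result :
    (Cfsg.Omega (ZMod 2) (Cfsg.quadFormPlus 3 (ZMod 2))).index = 2 ∧
    Nonempty (↥(Cfsg.Omega (ZMod 2) (Cfsg.quadFormPlus 3 (ZMod 2))) ≃* alternatingGroup (Fin 8)) := by
  obtain ⟨e⟩ := Cfsg.Agent.S0825.result (F := ZMod 2) (ZMod.card 2)
  have h8 : 5 ≤ Nat.card (Fin 8) := by simp
  have hmap : (commutator ↥(Cfsg.isometryGroup (ZMod 2) (Cfsg.quadFormPlus 3 (ZMod 2)))).map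
      e.toMonoidHom = alternatingGroup (Fin 8) := by
    rw [map_commutator_equiv, alternatingGroup.commutator_perm_eq h8]
  constructor
  · show (commutator ↥(Cfsg.isometryGroup (ZMod 2) (Cfsg.quadFormPlus 3 (ZMod 2)))).index = 2
    rw [← Subgroup.index_map_equiv _ e]
    have h2 : (alternatingGroup (Fin 8)).index = 2 := alternatingGroup.index_eq_two
    exact (congrArg Subgroup.index hmap).trans h2
  · exact ⟨(e.subgroupMap _).trans (MulEquiv.subgroupCongr hmap)⟩

end Cfsg.Agent.S2565
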