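import Cfsg.Statements.S0256
import Mathlib
import Cfsg.Agent.S0302
import Cfsg.Agent.S2565

set_option autoImplicit false
open Cfsg

namespace Cfsg.Agent.S0256

/-- PSL_4(2) is isomorphic to A_8. -/
theorem result {F : Type*} [Field F] [Fintype F] (hF : Fintype.card F = 2) : Nonempty (Matrix.ProjectiveSpecialLinearGroup (Fin 4) F ≃* alternatingGroup (Fin 8)) := by
  classical
  have e : ZMod 2 ≃+* F := ZMod.ringEquivOfPrime F Nat.prime_two hF
  let eSL : Matrix.SpecialLinearGroup (Fin 4) F ≃* Matrix.SpecialLinearGroup (Fin 4) (ZMod 2) :=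
    { toFun := Matrix.SpecialLinearGroup.map (e.symm : F →+* ZMod 2)
      invFun := Matrix.SpecialLinearGroup.map (e : ZMod 2 →+* F)
      left_inv := fun g => by
        apply Subtype.ext
        ext i j
        show e (e.symm (g.1 i j)) = g.1 i j
        simp
      right_inv := fun g => by
        apply Subtype.ext
        ext i j
        show e.symm (e (g.1 i j)) = g.1 i j
        simp
      map_mul' := fun g h => map_mul _ g h }
  have hcen : (Subgroup.center (Matrix.SpecialLinearGroup (Fin 4) F)).map eSL.toMonoidHom =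
      Subgroup.center (Matrix.SpecialLinearGroup (Fin 4) (ZMod 2)) := by
    ext x
    rw [Subgroup.mem_map, Subgroup.mem_center_iff]
    constructor
    · rintro ⟨z, hz, rfl⟩ h
      rw [Subgroup.mem_center_iff] at hz
      have := congrArg eSL (hz (eSL.symm h))
      simpa using this
    · intro hx
      refine ⟨eSL.symm x, ?_, by simp⟩
      rw [Subgroup.mem_center_iff]
      intro g
      apply eSL.injective
      simpa using hx (eSL g)
  have ePSL : Matrix.ProjectiveSpecialLinearGroup (Fin 4) F ≃*
      Matrix.ProjectiveSpecialLinearGroup (Fin 4) (ZMod 2) :=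
    QuotientGroup.congr _ _ eSL hcen
  obtain ⟨e1⟩ := Cfsg.Agent.S0302.result (F := ZMod 2)
  obtain ⟨-, ⟨e2⟩⟩ := Cfsg.Agent.S2565.result
  have hc : Subgroup.center (Cfsg.Omega (ZMod 2) (Cfsg.quadFormPlus 3 (ZMod 2))) = ⊥ := by
    have h8 : Subgroup.center (alternatingGroup (Fin 8)) = ⊥ :=
      alternatingGroup.center_eq_bot (by simp)
    rw [eq_bot_iff]
    intro z hz
    rw [Subgroup.mem_bot]
    have hz' : e2 z ∈ Subgroup.center (alternatingGroup (Fin 8)) := by
      rw [Subgroup.mem_center_iff] at hz ⊢
      intro g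
      have := congrArg e2 (hz (e2.symm g))
      simpa using this
    rw [h8, Subgroup.mem_bot] at hz'
    exact e2.injective (by rw [hz', map_one])
  exact ⟨ePSL.trans (e1.symm.trans ((QuotientGroup.quotientMulEquivOfEq hc).trans
    (QuotientGroup.quotientBot.trans e2)))⟩

end Cfsg.Agent.S0256
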