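import Cfsg.Statements.S0257
import Mathlib
import Cfsg.Agent.Lib.Helper7.SL2Sylow
import Cfsg.Agent.S0261
import Cfsg.Agent.S0268
import Cfsg.Agent.S0276

set_option autoImplicit false
open Cfsg

namespace Cfsg.Agent.S0257

open Cfsg.Agent.Lib.Helper7 Matrix

section
variable {F : Type*} [Field F] [Fintype F]

lemma sq_ne_neg_one (hF : Fintype.card F = 3) (x : F) : x * x ≠ -1 := by
  intro h
  have h3 : x ^ 3 = x := by rw [← hF]; exact FiniteField.pow_card x
  have hchar : ringChar F ≠ 2 := by
    intro h2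
    have := FiniteField.even_card_of_char_two h2
    rw [hF] at this
    exact absurd this (by decide)
  have h2 : (2 : F) ≠ 0 := Ring.two_ne_zero hchar
  have hx : (2 : F) * x = 0 := by linear_combination x * h - h3
  rcases mul_eq_zero.mp hx with h' | h'
  · exact h2 h'
  · rw [h'] at h
    simp at h

/-- entries of an element with `g^4 = 1` in `SL₂(3)` -/
lemma pow_four_entries (hF : Fintype.card F = 3) (g : SpecialLinearGroup (Fin 2) F)
    (hg : g ^ 4 = 1) :
    ((g : Matrix (Fin 2) (Fin 2) F) 0 1 = 0 →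
      (g : Matrix (Fin 2) (Fin 2) F) 1 0 = 0 ∧
      (g : Matrix (Fin 2) (Fin 2) F) 1 1 = (g : Matrix (Fin 2) (Fin 2) F) 0 0) ∧
    ((g : Matrix (Fin 2) (Fin 2) F) 0 1 ≠ 0 →
      (g : Matrix (Fin 2) (Fin 2) F) 1 1 = -(g : Matrix (Fin 2) (Fin 2) F) 0 0) := by
  have hodd : Odd (Fintype.card F) := by rw [hF]; decide
  have hdet := sl2_det g
  by_cases h1 : g = 1
  · subst h1
    simp
  by_cases h2 : g * g = 1
  · have hm := Cfsg.Agent.S0268.result hodd g h1 h2
    rw [hm]
    simp
  · have h4 : (g * g) * (g * g) = 1 := by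
      rw [← hg, show (4 : ℕ) = 2 + 2 by norm_num, pow_add, pow_two]
    have hm := Cfsg.Agent.S0268.result hodd (g * g) h2 h4
    have hm' : (g : Matrix (Fin 2) (Fin 2) F) * (g : Matrix (Fin 2) (Fin 2) F) = -1 := hm
    have h00 := congrFun (congrFun hm' 0) 0
    have h01 := congrFun (congrFun hm' 0) 1
    have h10 := congrFun (congrFun hm' 1) 0
    have h11 := congrFun (congrFun hm' 1) 1
    simp only [Matrix.mul_apply, Fin.sum_univ_two, Matrix.neg_apply, Matrix.one_apply_eq,
      Matrix.one_apply_ne, ne_eq, zero_ne_one, one_ne_zero, not_false_eq_true, neg_zero,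
      Fin.isValue] at h00 h01 h10 h11
    set a := (g : Matrix (Fin 2) (Fin 2) F) 0 0
    set b := (g : Matrix (Fin 2) (Fin 2) F) 0 1
    set c := (g : Matrix (Fin 2) (Fin 2) F) 1 0
    set d := (g : Matrix (Fin 2) (Fin 2) F) 1 1
    have hb : b * (a + d) = 0 := by linear_combination h01
    have hc : c * (a + d) = 0 := by linear_combination h10
    have had : a + d = 0 := by
      by_contra hne
      have hb0 : b = 0 := by
        rcases mul_eq_zero.mp hb with h | h
        · exact h
        · exact absurd h hne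
      have : a * a = -1 := by rw [hb0] at h00; linear_combination h00
      exact sq_ne_neg_one hF a this
    constructor
    · intro hb0
      exfalso
      have : a * a = -1 := by rw [hb0] at h00; linear_combination h00
      exact sq_ne_neg_one hF a this
    · intro _
      linear_combination had

end


/-- SL_2(3) has a normal subgroup of index 3 isomorphic to the quaternion group of order 8, and its centre has order 2. -/
theorem result {F : Type*} [Field F] [Fintype F] (hF : Fintype.card F = 3) : (∃ Q : Subgroup (Matrix.SpecialLinearGroup (Fin 2) F), Q.Normal ∧ Q.index = 3 ∧ Nonempty (Q ≃* QuaternionGroup 2)) ∧ Nat.card (Subgroup.center (Matrix.SpecialLinearGroup (Fin 2) F)) = 2 := by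
  classical
  have hodd : Odd (Fintype.card F) := by rw [hF]; decide
  refine ⟨?_, Cfsg.Agent.S0276.card_center hodd⟩
  have hG : Nat.card (SpecialLinearGroup (Fin 2) F) = 24 := by
    rw [card_SL2, hF]
  let P : Sylow 2 (SpecialLinearGroup (Fin 2) F) := default
  have hPcard : Nat.card P = 8 := by
    rw [P.card_eq_multiplicity, hG]
    have h24 : (24 : ℕ) = 2 ^ 3 * 3 := by norm_num
    rw [h24, Nat.factorization_mul (by norm_num) (by norm_num), Finsupp.add_apply,
      Nat.Prime.factorization_pow Nat.prime_two,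
      Nat.factorization_eq_zero_of_not_dvd (by norm_num : ¬ 2 ∣ 3)]
    simp
  have hidx : (P : Subgroup (SpecialLinearGroup (Fin 2) F)).index = 3 := by
    have := Subgroup.card_mul_index (P : Subgroup (SpecialLinearGroup (Fin 2) F))
    rw [hG] at this
    have h8 : Nat.card (P : Subgroup (SpecialLinearGroup (Fin 2) F)) = 8 := hPcard
    rw [h8] at this
    omega
  obtain ⟨k, hk1, ⟨e⟩⟩ := Cfsg.Agent.S0261.result hodd P
  have hk : 2 ^ k = 2 := by
    have h1 := Nat.card_congr e.toEquiv
    have h8 : Nat.card (P : Subgroup (SpecialLinearGroup (Fin 2) F)) = 8 := hPcard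
    have : NeZero (2 ^ k) := ⟨by positivity⟩
    rw [h8, Nat.card_eq_fintype_card, QuaternionGroup.card] at h1
    omega
  rw [hk] at e
  have hexp : ∀ x : QuaternionGroup 2, x ^ 4 = 1 := by decide
  have hP4 : ∀ g ∈ (P : Subgroup (SpecialLinearGroup (Fin 2) F)), g ^ 4 = 1 := by
    intro g hg
    have h1 := hexp (e ⟨g, hg⟩)
    rw [← map_pow, ← map_one e] at h1
    have h2 := e.injective h1
    exact congrArg Subtype.val h2
  -- the set of elements with fourth power one
  let T : Set (SpecialLinearGroup (Fin 2) F) := {g | g ^ 4 = 1}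
  have hPT : ((P : Subgroup (SpecialLinearGroup (Fin 2) F)) : Set (SpecialLinearGroup (Fin 2) F)) ⊆ T :=
    fun g hg => hP4 g hg
  let ψ : SpecialLinearGroup (Fin 2) F → F × F := fun g =>
    ((g : Matrix (Fin 2) (Fin 2) F) 0 0, (g : Matrix (Fin 2) (Fin 2) F) 0 1)
  have hinj : Set.InjOn ψ T := by
    intro g hg g' hg' hgg
    have ha : (g : Matrix (Fin 2) (Fin 2) F) 0 0 = (g' : Matrix (Fin 2) (Fin 2) F) 0 0 :=
      congrArg Prod.fst hgg
    have hb : (g : Matrix (Fin 2) (Fin 2) F) 0 1 = (g' : Matrix (Fin 2) (Fin 2) F) 0 1 :=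
      congrArg Prod.snd hgg
    obtain ⟨h1, h2⟩ := pow_four_entries hF g hg
    obtain ⟨h1', h2'⟩ := pow_four_entries hF g' hg'
    have hdet := sl2_det g
    have hdet' := sl2_det g'
    have hd : (g : Matrix (Fin 2) (Fin 2) F) 1 1 = (g' : Matrix (Fin 2) (Fin 2) F) 1 1 := by
      by_cases hb0 : (g : Matrix (Fin 2) (Fin 2) F) 0 1 = 0
      · rw [(h1 hb0).2, (h1' (hb ▸ hb0)).2, ha]
      · rw [h2 hb0, h2' (hb ▸ hb0), ha]
    have hc : (g : Matrix (Fin 2) (Fin 2) F) 1 0 = (g' : Matrix (Fin 2) (Fin 2) F) 1 0 := by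
      by_cases hb0 : (g : Matrix (Fin 2) (Fin 2) F) 0 1 = 0
      · rw [(h1 hb0).1, (h1' (hb ▸ hb0)).1]
      · apply mul_left_cancel₀ hb0
        rw [hb] at hdet ⊢
        rw [ha, hd] at hdet
        linear_combination hdet' - hdet
    apply Subtype.ext
    ext i j
    fin_cases i <;> fin_cases j
    · exact ha
    · exact hb
    · exact hc
    · exact hd
  have himg : ψ '' T ⊆ (Set.univ : Set (F × F)) \ {((0 : F), (0 : F))} := by
    rintro _ ⟨g, hg, rfl⟩
    refine ⟨Set.mem_univ _, ?_⟩
    intro h0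
    have ha : (g : Matrix (Fin 2) (Fin 2) F) 0 0 = 0 := congrArg Prod.fst h0
    have hb : (g : Matrix (Fin 2) (Fin 2) F) 0 1 = 0 := congrArg Prod.snd h0
    obtain ⟨h1, _⟩ := pow_four_entries hF g hg
    have hdet := sl2_det g
    rw [ha, hb] at hdet
    simp at hdet
  have hTcard : T.ncard ≤ 8 := by
    rw [← Set.InjOn.ncard_image hinj]
    refine le_trans (Set.ncard_le_ncard himg (Set.toFinite _)) ?_
    rw [Set.ncard_sdiff_singleton_of_mem (Set.mem_univ _), Set.ncard_univ, Nat.card_prod,
      Nat.card_eq_fintype_card, hF]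
  have hTP : T = ((P : Subgroup (SpecialLinearGroup (Fin 2) F)) : Set (SpecialLinearGroup (Fin 2) F)) := by
    symm
    apply Set.eq_of_subset_of_ncard_le hPT _ (Set.toFinite _)
    have h8 : Nat.card (P : Subgroup (SpecialLinearGroup (Fin 2) F)) = 8 := hPcard
    have : ((P : Subgroup (SpecialLinearGroup (Fin 2) F)) : Set (SpecialLinearGroup (Fin 2) F)).ncard = 8 := by
      rw [← h8]; rfl
    rw [this]
    exact hTcard
  refine ⟨(P : Subgroup (SpecialLinearGroup (Fin 2) F)), ⟨?_⟩, hidx, ⟨e⟩⟩
  intro n hn g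
  have hnT : n ∈ T := hPT hn
  have : g * n * g⁻¹ ∈ T := by
    show (g * n * g⁻¹) ^ 4 = 1
    rw [conj_pow, show n ^ 4 = 1 from hnT]
    group
  rw [hTP] at this
  exact this

end Cfsg.Agent.S0257
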