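import Cfsg.Statements.S0259
import Mathlib
import Cfsg.Agent.Lib.Helper7.GL2Sylow

set_option autoImplicit false
open Cfsg

namespace Cfsg.Agent.S0259

/-- Distinct Sylow p-subgroups of GL_2(q), p the characteristic, intersect trivially. -/
theorem result {F : Type*} [Field F] [Fintype F] (p : ℕ) [Fact p.Prime] [CharP F p] (P Q : Sylow p (Matrix.GeneralLinearGroup (Fin 2) F)) (h : P ≠ Q) : (P : Subgroup (Matrix.GeneralLinearGroup (Fin 2) F)) ⊓ (Q : Subgroup (Matrix.GeneralLinearGroup (Fin 2) F)) = ⊥ := by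
  exact Cfsg.Agent.Lib.Helper7.gl2_sylow_inf p P Q h

end Cfsg.Agent.S0259
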