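import Cfsg.Statements.S0264
import Mathlib

set_option autoImplicit false
open Cfsg

namespace Cfsg.Agent.S0264

open Matrix
open scoped commutatorElement

variable {F : Type*} [Field F] {n : ℕ}

/-- diagonal element of `GL_n` with `c` in position `i` and ones elsewhere -/
def dgl (i : Fin n) (c : F) (hc : c ≠ 0) : GL (Fin n) F where
  val := diagonal (Function.update 1 i c)
  inv := diagonal (Function.update 1 i c⁻¹)
  val_inv := by
    rw [diagonal_mul_diagonal, ← diagonal_one]
    congr 1
    ext k
    by_cases hk : k = i <;> simp [hk, hc]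
  inv_val := by
    rw [diagonal_mul_diagonal, ← diagonal_one]
    congr 1
    ext k
    by_cases hk : k = i <;> simp [hk, hc]

lemma comm_eq_of_mul_eq {G : Type*} [Group G] (A B X : G) (h : A * B = X * B * A) :
    X = ⁅A, B⁆ := by
  rw [commutatorElement_def, h]; group

lemma mem_comm_of_mul_eq {G : Type*} [Group G] (A B X : G) (h : A * B = X * B * A) :
    X ∈ commutator G := by
  rw [comm_eq_of_mul_eq A B X h]
  exact Subgroup.commutator_mem_commutator (Subgroup.mem_top _) (Subgroup.mem_top _)

lemma mat_id1 {i j : Fin n} (hij : i ≠ j) (a t : F) :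
    diagonal (Function.update (1 : Fin n → F) i a) * (1 + single i j t) =
      (1 + single i j (a * t)) * diagonal (Function.update (1 : Fin n → F) i a) := by
  have hji := hij.symm
  ext k l
  simp only [Matrix.diagonal_mul, Matrix.mul_diagonal, Matrix.add_apply, Matrix.one_apply,
    Matrix.single_apply, Function.update_apply, Pi.one_apply]
  rcases eq_or_ne i k with rfl | hik <;> rcases eq_or_ne j l with rfl | hjl
  · simp [hij, hij.symm]
  · have := hjl.symm
    simp [hjl]
    split_ifs <;> simp_all
  · have := hik.symm
    simp [hik]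
    split_ifs <;> simp_all
  · have := hik.symm
    have := hjl.symm
    simp [hik, hjl]
    split_ifs <;> simp_all

lemma mat_id2 {i j k : Fin n} (hij : i ≠ j) (hjk : j ≠ k) (b : F) :
    (1 + single i k b) * (1 + single k j (1 : F)) =
      (1 + single i j b) * (1 + single k j (1 : F)) * (1 + single i k b) := by
  simp only [mul_add, add_mul, mul_one, one_mul, Matrix.single_mul_single_same,
    Matrix.single_mul_single_of_ne _ _ _ _ hjk, Matrix.single_mul_single_of_ne _ _ _ _ hij.symm,
    add_zero]
  abel

lemma mat_id3 {i j : Fin n} (hij : i ≠ j) (c : F) (hc : c ≠ 0) :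
    diagonal (Function.update (1 : Fin n → F) i c) * Matrix.swap F i j =
      diagonal (fun k ↦ if k = i then c else if k = j then c⁻¹ else 1) * Matrix.swap F i j *
        diagonal (Function.update (1 : Fin n → F) i c) := by
  have hji := hij.symm
  ext k l
  simp only [Matrix.diagonal_mul, Matrix.mul_diagonal, Matrix.swap, Equiv.Perm.permMatrix,
    PEquiv.toMatrix_apply, Equiv.toPEquiv_apply, Function.update_apply, Pi.one_apply]
  rcases eq_or_ne k i with rfl | hki
  · rcases eq_or_ne l j with rfl | hlj
    · simp [hji]
    · simp [Ne.symm hlj]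
  · rcases eq_or_ne k j with rfl | hkj
    · rcases eq_or_ne l i with rfl | hli
      · simp [hji, hc]
      · simp [hli, Ne.symm hli]
    · rcases eq_or_ne l k with rfl | hlk
      · simp [hki, hkj, Equiv.swap_apply_of_ne_of_ne hki hkj]
      · simp [hki, hkj, Equiv.swap_apply_of_ne_of_ne hki hkj, Ne.symm hlk]

lemma transvection_mem_of_scalar {i j : Fin n} (hij : i ≠ j) (b : F) (a : F) (ha0 : a ≠ 0)
    (ha1 : a ≠ 1) :
    SpecialLinearGroup.toGL (SpecialLinearGroup.transvection hij b) ∈
      commutator (GL (Fin n) F) := by
  have ha1' : a - 1 ≠ 0 := sub_ne_zero.mpr ha1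
  have hX : SpecialLinearGroup.toGL (SpecialLinearGroup.transvection hij b) *
      SpecialLinearGroup.toGL (SpecialLinearGroup.transvection hij (b / (a - 1))) =
      SpecialLinearGroup.toGL (SpecialLinearGroup.transvection hij (a * (b / (a - 1)))) := by
    rw [← map_mul, ← SpecialLinearGroup.transvection_add]
    congr 2
    field_simp
    ring
  apply mem_comm_of_mul_eq (dgl i a ha0)
    (SpecialLinearGroup.toGL (SpecialLinearGroup.transvection hij (b / (a - 1))))
  rw [hX]
  apply Units.ext
  simp only [Units.val_mul, SpecialLinearGroup.coe_GL_coe_matrix, dgl,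
    SpecialLinearGroup.transvection_coe]
  exact mat_id1 hij a _

lemma transvection_mem_of_three {i j k : Fin n} (hij : i ≠ j) (hik : i ≠ k) (hjk : j ≠ k)
    (b : F) :
    SpecialLinearGroup.toGL (SpecialLinearGroup.transvection hij b) ∈
      commutator (GL (Fin n) F) := by
  apply mem_comm_of_mul_eq
    (SpecialLinearGroup.toGL (SpecialLinearGroup.transvection hik b))
    (SpecialLinearGroup.toGL (SpecialLinearGroup.transvection hjk.symm (1 : F)))
  apply Units.ext
  simp only [Units.val_mul, SpecialLinearGroup.coe_GL_coe_matrix,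
    SpecialLinearGroup.transvection_coe]
  exact mat_id2 hij hjk b

lemma diag2n_mem {i j : Fin n} (hij : i ≠ j) (c : F) (hc : c ≠ 0) :
    SpecialLinearGroup.toGL (SpecialLinearGroup.diag2n hij c hc) ∈
      commutator (GL (Fin n) F) := by
  apply mem_comm_of_mul_eq (dgl i c hc) (Matrix.GeneralLinearGroup.swap F i j)
  apply Units.ext
  simp only [Units.val_mul, SpecialLinearGroup.coe_GL_coe_matrix, dgl,
    SpecialLinearGroup.diag2n_coe, Matrix.GeneralLinearGroup.val_swap]
  exact mat_id3 hij c hc

lemma toGL_mem (h : n = 2 → ∃ a : F, a ≠ 0 ∧ a ≠ 1) (s : SpecialLinearGroup (Fin n) F) :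
    SpecialLinearGroup.toGL s ∈ commutator (GL (Fin n) F) := by
  rcases Nat.lt_or_ge n 2 with hn | hn
  · have hs : SpecialLinearGroup.toGL s = 1 := by
      apply Units.ext
      ext i j
      interval_cases n
      · exact i.elim0
      · have hdet := s.2
        rw [Matrix.det_unique] at hdet
        have hi : i = default := Subsingleton.elim _ _
        have hj : j = default := Subsingleton.elim _ _
        subst hi; subst hj
        simpa using hdet
    rw [hs]
    exact Subgroup.one_mem _
  · have : Nontrivial (Fin n) := Fin.nontrivial_iff_two_le.mpr hn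
    refine SpecialLinearGroup.diagonal_transvection_induction'
      (P := fun s => SpecialLinearGroup.toGL s ∈ commutator (GL (Fin n) F)) s ?_ ?_ ?_
    · intro i j hij c hc
      exact diag2n_mem hij c hc
    · intro i j hij a
      by_cases hn2 : n = 2
      · obtain ⟨a0, h0, h1⟩ := h hn2
        exact transvection_mem_of_scalar hij a a0 h0 h1
      · obtain ⟨k, hki, hkj⟩ : ∃ k, k ≠ i ∧ k ≠ j :=
          Fin.exists_ne_and_ne_of_two_lt i j (by omega)
        exact transvection_mem_of_three hij hki.symm hkj.symm a
    · intro A B hA hB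
      rw [map_mul]
      exact Subgroup.mul_mem _ hA hB

/-- GL_n(F)' = SL_n(F) (as the kernel of det), for every field F and every n, except n = 2 over the field of two elements. -/
theorem result {F : Type*} [Field F] (n : ℕ) (h : n = 2 → ∃ a : F, a ≠ 0 ∧ a ≠ 1) : commutator (Matrix.GeneralLinearGroup (Fin n) F) = (Matrix.GeneralLinearGroup.det : Matrix.GeneralLinearGroup (Fin n) F →* Fˣ).ker := by
  apply le_antisymm
  · exact Abelianization.commutator_subset_ker _
  · intro g hg
    rw [MonoidHom.mem_ker] at hg
    have hd : (g : Matrix (Fin n) (Fin n) F).det = 1 := by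
      have := congrArg Units.val hg
      simpa using this
    have hg' : g = SpecialLinearGroup.toGL ⟨g.val, hd⟩ := Units.ext rfl
    rw [hg']
    exact toGL_mem h _

end Cfsg.Agent.S0264
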