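import Cfsg.Statements.S0267
import Mathlib
import Cfsg.Agent.S0266

set_option autoImplicit false
open Cfsg

namespace Cfsg.Agent.S0267

open Matrix
open Cfsg.Agent.S0266 (dd mk_eq_of_dd_eq_zero e0_ne e1_ne e2_ne)

section

variable {F : Type*} [Field F]

theorem dd_eq_zero_of_mk_eq {u v : Fin 2 → F} (hu : u ≠ 0) (hv : v ≠ 0)
    (h : Projectivization.mk F u hu = Projectivization.mk F v hv) : dd u v = 0 := by
  rw [Projectivization.mk_eq_mk_iff'] at h
  obtain ⟨a, rfl⟩ := h
  unfold dd
  simp only [Pi.smul_apply, smul_eq_mul]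
  ring

/-- An embedding of `Fin 3` from three distinct points. -/
def emb3 {α : Type*} (a b c : α) (hab : a ≠ b) (hac : a ≠ c) (hbc : b ≠ c) : Fin 3 ↪ α :=
  ⟨![a, b, c], by
    have key : ∀ i j : Fin 3, i ≠ j → ![a, b, c] i ≠ ![a, b, c] j := by
      intro i j
      fin_cases i <;> fin_cases j <;>
        simp [hab, hac, hbc, Ne.symm hab, Ne.symm hac, Ne.symm hbc]
    intro i j hij
    by_contra hne
    exact key i j hne hij⟩

/-- If every element is a square, `SL_2` maps the standard triple to any triple of distinct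
points. -/
theorem exists_sl_triple (hsq : ∀ c : F, IsSquare c) (a b c : Projectivization F (Fin 2 → F))
    (hab : a ≠ b) (hac : a ≠ c) (hbc : b ≠ c) :
    ∃ g : Matrix.SpecialLinearGroup (Fin 2) F,
      g • Projectivization.mk F (![1, 0] : Fin 2 → F) e0_ne = a ∧
      g • Projectivization.mk F (![0, 1] : Fin 2 → F) e1_ne = b ∧
      g • Projectivization.mk F (![1, 1] : Fin 2 → F) e2_ne = c := by
  induction a using Projectivization.ind with | _ u hu =>
  induction b using Projectivization.ind with | _ v hv =>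
  induction c using Projectivization.ind with | _ w hw =>
  have duv : dd u v ≠ 0 := fun h => hab (mk_eq_of_dd_eq_zero hu hv h)
  have duw : dd u w ≠ 0 := fun h => hac (mk_eq_of_dd_eq_zero hu hw h)
  have dwv : dd w v ≠ 0 := fun h => hbc (mk_eq_of_dd_eq_zero hw hv h).symm
  have hprod : dd w v * dd u w * dd u v ≠ 0 := mul_ne_zero (mul_ne_zero dwv duw) duv
  obtain ⟨s, hs⟩ := hsq (dd w v * dd u w * dd u v)⁻¹
  have hdet : (!![s * dd w v * u 0, s * dd u w * v 0; s * dd w v * u 1, s * dd u w * v 1] :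
      Matrix (Fin 2) (Fin 2) F).det = 1 := by
    rw [Matrix.det_fin_two_of]
    have h1 : s * dd w v * u 0 * (s * dd u w * v 1) - s * dd u w * v 0 * (s * dd w v * u 1)
        = (s * s) * (dd w v * dd u w * dd u v) := by
      unfold dd; ring
    rw [h1, ← hs, inv_mul_cancel₀ hprod]
  obtain ⟨g, hg⟩ : ∃ g : Matrix.SpecialLinearGroup (Fin 2) F, (g : Matrix (Fin 2) (Fin 2) F)
      = !![s * dd w v * u 0, s * dd u w * v 0; s * dd w v * u 1, s * dd u w * v 1] :=
    ⟨⟨_, hdet⟩, rfl⟩
  refine ⟨g, ?_, ?_, ?_⟩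
  · rw [Projectivization.smul_mk, Projectivization.mk_eq_mk_iff']
    refine ⟨s * dd w v, ?_⟩
    funext i
    fin_cases i
    · show s * dd w v * u 0 = ((g : Matrix (Fin 2) (Fin 2) F) *ᵥ ![1, 0]) 0
      rw [hg]
      simp [Matrix.mulVec, dotProduct, Fin.sum_univ_two]
    · show s * dd w v * u 1 = ((g : Matrix (Fin 2) (Fin 2) F) *ᵥ ![1, 0]) 1
      rw [hg]
      simp [Matrix.mulVec, dotProduct, Fin.sum_univ_two]
  · rw [Projectivization.smul_mk, Projectivization.mk_eq_mk_iff']
    refine ⟨s * dd u w, ?_⟩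
    funext i
    fin_cases i
    · show s * dd u w * v 0 = ((g : Matrix (Fin 2) (Fin 2) F) *ᵥ ![0, 1]) 0
      rw [hg]
      simp [Matrix.mulVec, dotProduct, Fin.sum_univ_two]
    · show s * dd u w * v 1 = ((g : Matrix (Fin 2) (Fin 2) F) *ᵥ ![0, 1]) 1
      rw [hg]
      simp [Matrix.mulVec, dotProduct, Fin.sum_univ_two]
  · rw [Projectivization.smul_mk, Projectivization.mk_eq_mk_iff']
    refine ⟨s * dd u v, ?_⟩
    funext i
    fin_cases i
    · show s * dd u v * w 0 = ((g : Matrix (Fin 2) (Fin 2) F) *ᵥ ![1, 1]) 0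
      rw [hg]
      simp [Matrix.mulVec, dotProduct, Fin.sum_univ_two]
      unfold dd; ring
    · show s * dd u v * w 1 = ((g : Matrix (Fin 2) (Fin 2) F) *ᵥ ![1, 1]) 1
      rw [hg]
      simp [Matrix.mulVec, dotProduct, Fin.sum_univ_two]
      unfold dd; ring

/-- If `SL_2` is 3-transitive on the projective line then every nonzero element is a square. -/
theorem isSquare_of_three_trans
    (h : MulAction.IsMultiplyPretransitive (Matrix.SpecialLinearGroup (Fin 2) F)
      (Projectivization F (Fin 2 → F)) 3) (c : F) (hc : c ≠ 0) : IsSquare c := by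
  rw [MulAction.isMultiplyPretransitive_iff] at h
  have hc1 : (![c, 1] : Fin 2 → F) ≠ 0 := by
    intro h
    have h1 := congrFun h 1
    simp at h1
  have n01 : Projectivization.mk F (![1, 0] : Fin 2 → F) e0_ne
      ≠ Projectivization.mk F (![0, 1] : Fin 2 → F) e1_ne := by
    intro h
    have h1 := dd_eq_zero_of_mk_eq _ _ h
    simp [dd] at h1
  have n02 : Projectivization.mk F (![1, 0] : Fin 2 → F) e0_ne
      ≠ Projectivization.mk F (![1, 1] : Fin 2 → F) e2_ne := by
    intro h
    have h1 := dd_eq_zero_of_mk_eq _ _ h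
    simp [dd] at h1
  have n12 : Projectivization.mk F (![0, 1] : Fin 2 → F) e1_ne
      ≠ Projectivization.mk F (![1, 1] : Fin 2 → F) e2_ne := by
    intro h
    have h1 := dd_eq_zero_of_mk_eq _ _ h
    simp [dd] at h1
  have n0c : Projectivization.mk F (![1, 0] : Fin 2 → F) e0_ne
      ≠ Projectivization.mk F (![c, 1] : Fin 2 → F) hc1 := by
    intro h
    have h1 := dd_eq_zero_of_mk_eq _ _ h
    simp [dd] at h1
  have n1c : Projectivization.mk F (![0, 1] : Fin 2 → F) e1_ne
      ≠ Projectivization.mk F (![c, 1] : Fin 2 → F) hc1 := by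
    intro h
    have h1 := dd_eq_zero_of_mk_eq _ _ h
    simp [dd] at h1
    exact hc h1
  obtain ⟨k, hk⟩ := h (emb3 _ _ _ n01 n02 n12) (emb3 _ _ _ n01 n0c n1c)
  have k0 : k • Projectivization.mk F (![1, 0] : Fin 2 → F) e0_ne
      = Projectivization.mk F (![1, 0] : Fin 2 → F) e0_ne := congrArg (fun e => e 0) hk
  have k1 : k • Projectivization.mk F (![0, 1] : Fin 2 → F) e1_ne
      = Projectivization.mk F (![0, 1] : Fin 2 → F) e1_ne := congrArg (fun e => e 1) hk
  have k2 : k • Projectivization.mk F (![1, 1] : Fin 2 → F) e2_ne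
      = Projectivization.mk F (![c, 1] : Fin 2 → F) hc1 := congrArg (fun e => e 2) hk
  rw [Projectivization.smul_mk, Projectivization.mk_eq_mk_iff'] at k0 k1 k2
  obtain ⟨l0, hl0⟩ := k0
  obtain ⟨l1, hl1⟩ := k1
  obtain ⟨l2, hl2⟩ := k2
  have a00 : (k : Matrix (Fin 2) (Fin 2) F) 0 0 = l0 := by
    have h := congrFun hl0 0
    have h' : l0 * 1 = ((k : Matrix (Fin 2) (Fin 2) F) *ᵥ ![1, 0]) 0 := h
    simp [Matrix.mulVec, dotProduct, Fin.sum_univ_two] at h'
    exact h'.symm
  have a10 : (k : Matrix (Fin 2) (Fin 2) F) 1 0 = 0 := by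
    have h := congrFun hl0 1
    have h' : l0 * 0 = ((k : Matrix (Fin 2) (Fin 2) F) *ᵥ ![1, 0]) 1 := h
    simp [Matrix.mulVec, dotProduct, Fin.sum_univ_two] at h'
    exact h'.symm
  have a01 : (k : Matrix (Fin 2) (Fin 2) F) 0 1 = 0 := by
    have h := congrFun hl1 0
    have h' : l1 * 0 = ((k : Matrix (Fin 2) (Fin 2) F) *ᵥ ![0, 1]) 0 := h
    simp [Matrix.mulVec, dotProduct, Fin.sum_univ_two] at h'
    exact h'.symm
  have a11 : (k : Matrix (Fin 2) (Fin 2) F) 1 1 = l1 := by
    have h := congrFun hl1 1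
    have h' : l1 * 1 = ((k : Matrix (Fin 2) (Fin 2) F) *ᵥ ![0, 1]) 1 := h
    simp [Matrix.mulVec, dotProduct, Fin.sum_univ_two] at h'
    exact h'.symm
  have b0 : l2 * c = l0 := by
    have h := congrFun hl2 0
    have h' : l2 * c = ((k : Matrix (Fin 2) (Fin 2) F) *ᵥ ![1, 1]) 0 := h
    simp [Matrix.mulVec, dotProduct, Fin.sum_univ_two, a00, a01] at h'
    exact h'
  have b1 : l2 = l1 := by
    have h := congrFun hl2 1
    have h' : l2 * 1 = ((k : Matrix (Fin 2) (Fin 2) F) *ᵥ ![1, 1]) 1 := h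
    simp [Matrix.mulVec, dotProduct, Fin.sum_univ_two, a10, a11] at h'
    exact h'
  have hdet : l0 * l1 = 1 := by
    have h := k.det_coe
    rw [Matrix.det_fin_two, a00, a10, a01, a11] at h
    simpa using h
  have hl1 : l1 ≠ 0 := by
    intro h0
    rw [h0, mul_zero] at hdet
    exact zero_ne_one hdet
  refine ⟨l1⁻¹, ?_⟩
  rw [← b0, b1] at hdet
  field_simp
  linear_combination hdet

end


/-- SL_2(q) is 3-transitive on the q+1 points of the projective line if and only if q is even. -/
theorem result {F : Type*} [Field F] [Fintype F] : MulAction.IsMultiplyPretransitive (Matrix.SpecialLinearGroup (Fin 2) F) (Projectivization F (Fin 2 → F)) 3 ↔ ringChar F = 2 := by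
  constructor
  · intro h
    have hsq : ∀ c : F, IsSquare c := by
      intro c
      by_cases hc : c = 0
      · exact ⟨0, by rw [hc, mul_zero]⟩
      · exact isSquare_of_three_trans h c hc
    have hsurj : Function.Surjective (fun r : F => r * r) := by
      intro c
      obtain ⟨r, hr⟩ := hsq c
      exact ⟨r, hr.symm⟩
    have hinj := Finite.injective_iff_surjective.mpr hsurj
    have h1 : (-1 : F) = 1 := hinj (by simp)
    apply CharP.ringChar_of_prime_eq_zero Nat.prime_two
    have h2 : (2 : F) = 0 := by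
      have h3 : (2 : F) = 1 - (-1) := by ring
      rw [h3, h1, sub_self]
    exact_mod_cast h2
  · intro h
    have hsq : ∀ c : F, IsSquare c := FiniteField.isSquare_of_char_two h
    rw [MulAction.isMultiplyPretransitive_iff]
    intro x y
    obtain ⟨g, hg0, hg1, hg2⟩ := exists_sl_triple hsq (x 0) (x 1) (x 2)
      (x.injective.ne (by decide)) (x.injective.ne (by decide)) (x.injective.ne (by decide))
    obtain ⟨k, hk0, hk1, hk2⟩ := exists_sl_triple hsq (y 0) (y 1) (y 2)
      (y.injective.ne (by decide)) (y.injective.ne (by decide)) (y.injective.ne (by decide))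
    refine ⟨k * g⁻¹, ?_⟩
    ext i
    rw [Function.Embedding.smul_apply, mul_smul]
    fin_cases i
    · show k • g⁻¹ • x 0 = y 0
      rw [← hg0, inv_smul_smul, hk0]
    · show k • g⁻¹ • x 1 = y 1
      rw [← hg1, inv_smul_smul, hk1]
    · show k • g⁻¹ • x 2 = y 2
      rw [← hg2, inv_smul_smul, hk2]

end Cfsg.Agent.S0267
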