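import Cfsg.Statements.S0272
import Mathlib
import Cfsg.Agent.Lib.Helper7.GL2Sylow

set_option autoImplicit false
open Cfsg

namespace Cfsg.Agent.S0272

/-- The normaliser in GL_2(q) of a Sylow p-subgroup, p the characteristic, has order q (q-1)^2. -/
theorem result {F : Type*} [Field F] [Fintype F] {q : ℕ} (hF : Fintype.card F = q) (p : ℕ) [Fact p.Prime] [CharP F p] (P : Sylow p (Matrix.GeneralLinearGroup (Fin 2) F)) : Nat.card (Subgroup.normalizer ((P : Subgroup (Matrix.GeneralLinearGroup (Fin 2) F)) : Set (Matrix.GeneralLinearGroup (Fin 2) F))) = q * (q - 1) ^ 2 := by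
  rw [← hF]
  exact Cfsg.Agent.Lib.Helper7.gl2_card_normalizer_sylow p P

end Cfsg.Agent.S0272
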