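import Cfsg.Statements.S0281
import Mathlib
import Cfsg.Agent.Lib.Helper7.SUCenter
import Cfsg.Agent.Lib.Helper7.SL2Sylow

set_option autoImplicit false
open Cfsg

namespace Cfsg.Agent.S0281

open Cfsg.Agent.Lib.Helper7 Matrix

section
variable {F : Type*} [Field F] [Fintype F] {q : ℕ}

lemma exists_ringHom {K F : Type*} [Field K] [Fintype K] [Field F] [Fintype F]
    (h : Fintype.card F = Fintype.card K ^ 2) : Nonempty (K →+* F) := by
  obtain ⟨p, hp⟩ := CharP.exists K
  haveI : Fact p.Prime := ⟨CharP.char_is_prime K p⟩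
  let F' := FiniteField.Extension K p 2
  letI : Fintype F' := Fintype.ofFinite F'
  have hc : Fintype.card F = Fintype.card F' := by
    rw [h, Fintype.card_eq_nat_card (α := F'), FiniteField.natCard_extension,
      Nat.card_eq_fintype_card]
  let e : F ≃+* F' := FiniteField.ringEquivOfCardEq hc
  exact ⟨(e.symm : F' →+* F).comp (algebraMap K F')⟩

/-- the matrix `[[0,1],[-1,0]]` -/
def wm (F : Type*) [Field F] : Matrix (Fin 2) (Fin 2) F := !![0, 1; -1, 0]

lemma wm_mul_neg : wm F * (-wm F) = 1 := by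
  ext i j
  fin_cases i <;> fin_cases j <;> simp [wm, Matrix.mul_apply, Fin.sum_univ_two]

lemma transpose_wm_mul (M : Matrix (Fin 2) (Fin 2) F) : Mᵀ * wm F * M = M.det • wm F := by
  ext i j
  fin_cases i <;> fin_cases j <;>
    simp [wm, Matrix.mul_apply, Fin.sum_univ_two, Matrix.det_fin_two] <;> ring

/-- the conjugating matrix -/
def cm (q : ℕ) (μ θ : F) : Matrix (Fin 2) (Fin 2) F := !![1, μ; θ, θ ^ q * μ]

lemma cm_bar (hF : Fintype.card F = q ^ 2) (μ θ : F) (hμ : μ ^ (q + 1) = -1) :
    (cm q μ θ).map (· ^ q) * wm F = (-μ ^ q) • cm q μ θ := by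
  have h1 : μ ^ q * μ = -1 := by rw [← pow_succ, hμ]
  have h2 : (θ ^ q) ^ q = θ := herm_pow_pow hF θ
  ext i j
  fin_cases i <;> fin_cases j <;>
    simp [wm, cm, Matrix.mul_apply, Fin.sum_univ_two, mul_pow, h2]
  · linear_combination h1
  · ring
  · linear_combination (θ ^ q) * h1

lemma cm_det (μ θ : F) : (cm q μ θ).det = μ * (θ ^ q - θ) := by
  simp [cm, Matrix.det_fin_two]
  ring

end


/-- SU_2(q) is isomorphic to SL_2(q). -/
theorem result {F K : Type*} [Field F] [Fintype F] [Field K] [Fintype K] {q : ℕ} (hF : Fintype.card F = q ^ 2) (hK : Fintype.card K = q) : Nonempty (Cfsg.SU 2 F q ≃* Matrix.SpecialLinearGroup (Fin 2) K) := by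
  classical
  have hq2 := herm_two_le hF
  obtain ⟨ι⟩ := exists_ringHom (K := K) (F := F) (by rw [hF, hK])
  have hι : ∀ x : K, (ι x) ^ q = ι x := by
    intro x
    rw [← map_pow, ← hK, FiniteField.pow_card]
  -- the elements μ, θ
  have hneg : (-1 : F) ^ q = -1 := by
    have h := herm_sub_pow hF (0 : F) 1
    rw [zero_sub, one_pow, zero_pow (herm_q_ne_zero hF), zero_sub] at h
    exact h
  obtain ⟨μ, hμ0, hμ⟩ := herm_norm_surj hF (-1 : F) (neg_ne_zero.mpr one_ne_zero) hneg
  obtain ⟨θ, hθ1, hθ2⟩ := exists_norm_one_sq_ne hF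
  have hθ : θ ^ q ≠ θ := by
    intro h
    apply hθ2
    rw [← hθ1, pow_succ, h]
  set C : Matrix (Fin 2) (Fin 2) F := cm q μ θ with hC
  have hdetC : C.det ≠ 0 := by
    rw [hC, cm_det]
    exact mul_ne_zero hμ0 (sub_ne_zero.mpr hθ)
  have hUC : IsUnit C.det := isUnit_iff_ne_zero.mpr hdetC
  set D : Matrix (Fin 2) (Fin 2) F := C⁻¹ with hD
  have hCD : C * D = 1 := Matrix.mul_nonsing_inv C hUC
  have hDC : D * C = 1 := Matrix.nonsing_inv_mul C hUC
  have hbar : C.map (· ^ q) * wm F = (-μ ^ q) • C := cm_bar hF μ θ hμ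
  have hlam : (-μ ^ q : F) ≠ 0 := neg_ne_zero.mpr (pow_ne_zero _ hμ0)
  -- the homomorphism
  let Ψ : Matrix.SpecialLinearGroup (Fin 2) K →* Matrix.SpecialLinearGroup (Fin 2) F :=
    { toFun := fun h => ⟨D * (h.1.map ι) * C, by
        have h1 : (h.1.map ι).det = 1 := by
          have := (RingHom.map_det ι h.1).symm
          rw [h.2, map_one] at this
          exact this
        rw [Matrix.det_mul, Matrix.det_mul, h1, mul_one, ← Matrix.det_mul, hDC, Matrix.det_one]⟩
      map_one' := by
        apply Subtype.ext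
        show D * ((1 : Matrix (Fin 2) (Fin 2) K).map ι) * C = 1
        rw [Matrix.map_one ι (map_zero ι) (map_one ι), Matrix.mul_one, hDC]
      map_mul' := fun a b => by
        apply Subtype.ext
        show D * ((a.1 * b.1).map ι) * C = (D * (a.1.map ι) * C) * (D * (b.1.map ι) * C)
        rw [Matrix.map_mul]
        calc D * (a.1.map ι * b.1.map ι) * C
            = D * (a.1.map ι) * 1 * (b.1.map ι) * C := by simp [Matrix.mul_assoc]
          _ = D * (a.1.map ι) * (C * D) * (b.1.map ι) * C := by rw [hCD]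
          _ = _ := by simp only [Matrix.mul_assoc] }
  have hΨ : ∀ h, ((Ψ h).1 : Matrix (Fin 2) (Fin 2) F) = D * (h.1.map ι) * C := fun h => rfl
  have hmem : ∀ h, Ψ h ∈ Cfsg.SU 2 F q := by
    intro h
    rw [mem_SU_iff_isFr hF, isFr_iff_mul]
    set H : Matrix (Fin 2) (Fin 2) F := h.1.map ι with hH
    set M : Matrix (Fin 2) (Fin 2) F := ((Ψ h).1 : Matrix (Fin 2) (Fin 2) F) with hM
    have hMdef : M = D * H * C := hΨ h
    have hHbar : H.map (· ^ q) = H := by
      ext i j
      simp only [Matrix.map_apply, hH]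
      exact hι _
    have hCM : C * M = H * C := by
      rw [hMdef, ← Matrix.mul_assoc, ← Matrix.mul_assoc, hCD, Matrix.one_mul]
    -- apply bar
    have hbarmul : ∀ A B : Matrix (Fin 2) (Fin 2) F,
        (A * B).map (· ^ q) = A.map (· ^ q) * B.map (· ^ q) := by
      intro A B
      exact Matrix.map_mul (f := frobq hF)
    have h1 : C.map (· ^ q) * M.map (· ^ q) = H * C.map (· ^ q) := by
      rw [← hbarmul, hCM, hbarmul, hHbar]
    have hCbar : C.map (· ^ q) = (-μ ^ q) • (C * (-wm F)) := by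
      calc C.map (· ^ q) = C.map (· ^ q) * (wm F * (-wm F)) := by rw [wm_mul_neg, Matrix.mul_one]
        _ = (C.map (· ^ q) * wm F) * (-wm F) := by rw [Matrix.mul_assoc]
        _ = _ := by rw [hbar, Matrix.smul_mul]
    rw [hCbar] at h1
    rw [Matrix.smul_mul, Matrix.mul_smul] at h1
    have h2 : C * (-wm F) * M.map (· ^ q) = H * (C * (-wm F)) := by
      have := congrArg (fun X => (-μ ^ q : F)⁻¹ • X) h1
      simp only [smul_smul, inv_mul_cancel₀ hlam, one_smul] at this
      exact this
    have h3 : (-wm F) * M.map (· ^ q) = M * (-wm F) := by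
      calc (-wm F) * M.map (· ^ q) = (D * C) * ((-wm F) * M.map (· ^ q)) := by
            rw [hDC, Matrix.one_mul]
        _ = D * (C * (-wm F) * M.map (· ^ q)) := by simp only [Matrix.mul_assoc]
        _ = D * (H * (C * (-wm F))) := by rw [h2]
        _ = (D * H * C) * (-wm F) := by simp only [Matrix.mul_assoc]
        _ = M * (-wm F) := by rw [hMdef]
    have h4 : M.map (· ^ q) = wm F * M * (-wm F) := by
      calc M.map (· ^ q) = (wm F * (-wm F)) * M.map (· ^ q) := by
            rw [wm_mul_neg, Matrix.one_mul]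
        _ = wm F * ((-wm F) * M.map (· ^ q)) := by rw [Matrix.mul_assoc]
        _ = wm F * (M * (-wm F)) := by rw [h3]
        _ = _ := by rw [Matrix.mul_assoc]
    have hMdet : M.det = 1 := (Ψ h).2
    rw [h4, ← Matrix.mul_assoc, ← Matrix.mul_assoc, transpose_wm_mul, hMdet, one_smul, wm_mul_neg]
  have hinj : Function.Injective Ψ := by
    intro a b hab
    have h1 : D * (a.1.map ι) * C = D * (b.1.map ι) * C := by
      rw [← hΨ, ← hΨ, hab]
    have h2 : a.1.map ι = b.1.map ι := by
      calc a.1.map ι = (C * D) * (a.1.map ι) * (C * D) := by rw [hCD, Matrix.one_mul, Matrix.mul_one]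
        _ = C * (D * (a.1.map ι) * C) * D := by simp only [Matrix.mul_assoc]
        _ = C * (D * (b.1.map ι) * C) * D := by rw [h1]
        _ = (C * D) * (b.1.map ι) * (C * D) := by simp only [Matrix.mul_assoc]
        _ = b.1.map ι := by rw [hCD, Matrix.one_mul, Matrix.mul_one]
    apply Subtype.ext
    ext i j
    have := congrFun (congrFun h2 i) j
    simp only [Matrix.map_apply] at this
    exact ι.injective this
  let Ψ' : Matrix.SpecialLinearGroup (Fin 2) K →* Cfsg.SU 2 F q := Ψ.codRestrict _ hmem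
  have hinj' : Function.Injective Ψ' := by
    intro a b hab
    apply hinj
    exact congrArg Subtype.val hab
  -- cardinalities
  have hcardSL : Nat.card (Matrix.SpecialLinearGroup (Fin 2) K) = (q - 1) * q * (q + 1) := by
    rw [card_SL2, hK]
  have hcardSU : Nat.card (Cfsg.SU 2 F q) = (q - 1) * q * (q + 1) := by
    have h1 := card_SU hF 2 (by norm_num)
    rw [card_GU hF 2] at h1
    have e : q ^ (2 * (2 - 1) / 2) * ∏ i ∈ Finset.range 2,
        (if Even i then q ^ (i + 1) + 1 else q ^ (i + 1) - 1) = q * ((q + 1) * (q ^ 2 - 1)) := by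
      simp [Finset.prod_range_succ]
    rw [e] at h1
    have h3 : q ^ 2 - 1 = (q - 1) * (q + 1) := by
      obtain ⟨r, rfl⟩ : ∃ r, q = r + 1 := ⟨q - 1, by omega⟩
      simp only [Nat.add_sub_cancel]
      have : (r + 1) ^ 2 = r * (r + 1 + 1) + 1 := by ring
      rw [this, Nat.add_sub_cancel]
    rw [h3] at h1
    apply Nat.eq_of_mul_eq_mul_left (show 0 < q + 1 by omega)
    rw [h1]; ring
  have hbij : Function.Bijective Ψ' :=
    (Nat.bijective_iff_injective_and_card Ψ').mpr ⟨hinj', by rw [hcardSL, hcardSU]⟩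
  exact ⟨(MulEquiv.ofBijective Ψ' hbij).symm⟩

end Cfsg.Agent.S0281
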