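import Cfsg.Statements.S0285
import Mathlib
import Cfsg.Agent.Lib.Helper7.HermCount

set_option autoImplicit false
open Cfsg

namespace Cfsg.Agent.S0285

open Cfsg.Agent.Lib.Helper7

/-- The standard Hermitian form on F^n, |F| = q^2, has exactly (q^n - (-1)^n)(q^(n-1) + (-1)^n) non-zero isotropic vectors; counting the zero vector too: -/
theorem result {F : Type*} [Field F] [Fintype F] {q : ℕ} (hF : Fintype.card F = q ^ 2) (n : ℕ) : Nat.card {v : Fin n → F // Cfsg.hermForm n F q v v = 0} = (if Even n then (q ^ n - 1) * (q ^ (n - 1) + 1) else (q ^ n + 1) * (q ^ (n - 1) - 1)) + 1 := by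
  rw [hcnt_eq_hermForm]
  obtain ⟨E1, E2⟩ := herm_counts hF n
  have hq := herm_two_le hF
  have hq0 : (q : ℤ) ≠ 0 := by exact_mod_cast (show q ≠ 0 by omega)
  rcases n with _ | m
  · simp [hcnt_zero_zero]
  · have h1le : 1 ≤ q ^ (m + 1) := Nat.one_le_pow _ _ (by omega)
    have h1le' : 1 ≤ q ^ m := Nat.one_le_pow _ _ (by omega)
    simp only [Nat.add_sub_cancel]
    split_ifs with h
    · rw [Even.neg_pow h] at E1
      have ha : (q : ℤ) * (hcnt F q (m + 1) 0 : ℤ) =
          (q : ℤ) * (((q : ℤ) ^ (m + 1) - 1) * ((q : ℤ) ^ m + 1) + 1) := by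
        linear_combination E2 + ((q : ℤ) - 1) * E1
      have ha' := mul_left_cancel₀ hq0 ha
      apply Nat.cast_injective (R := ℤ)
      push_cast [Nat.cast_sub h1le]
      exact ha'
    · rw [Odd.neg_pow (Nat.not_even_iff_odd.mp h)] at E1
      have ha : (q : ℤ) * (hcnt F q (m + 1) 0 : ℤ) =
          (q : ℤ) * (((q : ℤ) ^ (m + 1) + 1) * ((q : ℤ) ^ m - 1) + 1) := by
        linear_combination E2 + ((q : ℤ) - 1) * E1
      have ha' := mul_left_cancel₀ hq0 ha
      apply Nat.cast_injective (R := ℤ)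
      push_cast [Nat.cast_sub h1le']
      exact ha'

end Cfsg.Agent.S0285
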