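import Cfsg.Statements.S0295
import Cfsg.Agent.Lib.Helper52.SiegelSimple
import Cfsg.Agent.Lib.Helper7.GOOddOrder

set_option autoImplicit false
open Cfsg

namespace Cfsg.Agent.S0295

open Cfsg.Agent.Lib.Helper52 Cfsg.Agent.Lib.Helper51 Cfsg.Agent.Lib.Helper7 QuadraticMap

/-- PΩ_{2m+1}(q) is simple for q odd and m at least 3. -/
theorem result {F : Type*} [Field F] [Fintype F] (hodd : Odd (Fintype.card F)) (m : ℕ) (hm : 3 ≤ m) : IsSimpleGroup (Cfsg.POmega F (Cfsg.quadFormOdd m F)) := by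
  have h2 : (2 : F) ≠ 0 := two_ne_zero_of_odd_card hodd
  have hQ : (polarBilin (QOdd m F)).Nondegenerate :=
    polarBilin_nondegenerate_of _ (QOdd_nondeg h2 m)
  have hn : 7 ≤ Fintype.card (Unit ⊕ (Fin m ⊕ Fin m)) := by
    simp only [Fintype.card_sum, Fintype.card_unit, Fintype.card_fin]
    omega
  have h := isSimpleGroup_POmega (QOdd m F) hQ hn
  rw [coe_QOdd] at h
  exact h

end Cfsg.Agent.S0295
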