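import Cfsg.Statements.S0296
import Cfsg.Agent.Lib.Helper52.SiegelSimple
import Cfsg.Agent.Lib.Helper7.GOPlusOrder

set_option autoImplicit false
open Cfsg

namespace Cfsg.Agent.S0296

open Cfsg.Agent.Lib.Helper52 Cfsg.Agent.Lib.Helper51 Cfsg.Agent.Lib.Helper7 QuadraticMap

/-- PΩ^+_{2m}(q) is simple for m at least 4. -/
theorem result {F : Type*} [Field F] [Fintype F] (m : ℕ) (hm : 4 ≤ m) : IsSimpleGroup (Cfsg.POmega F (Cfsg.quadFormPlus m F)) := by
  have hQ : (polarBilin (QPlus m F)).Nondegenerate :=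
    polarBilin_nondegenerate_of _ (QPlus_nondeg m)
  have hn : 7 ≤ Fintype.card (Fin m ⊕ Fin m) := by
    simp only [Fintype.card_sum, Fintype.card_fin]
    omega
  have h := isSimpleGroup_POmega (QPlus m F) hQ hn
  rw [coe_QPlus] at h
  exact h

end Cfsg.Agent.S0296
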