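import Cfsg.Statements.S0300
import Mathlib
import Cfsg.Agent.Lib.Helper99.IsoModel
import Cfsg.Agent.Lib.Helper99.OM4Model
import Cfsg.Agent.Lib.Helper99.OM4Surj
import Cfsg.Agent.S0298

set_option autoImplicit false
open Cfsg

namespace Cfsg.Agent.S0300

open Cfsg.Agent.Lib.Helper99 Cfsg.Agent.Lib.Helper99.OM4

/-- the isomorphism of special linear groups induced by a ring isomorphism -/
theorem slMap_bijective {K L : Type*} [Field K] [Field L] (e : K ≃+* L) :
    Function.Bijective (Matrix.SpecialLinearGroup.map (n := Fin 2) (e : K →+* L)) := by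
  constructor
  · intro g h hgh
    apply Subtype.ext
    ext i j
    have h1 := congrFun (congrFun (congrArg Subtype.val hgh) i) j
    simp only [Matrix.SpecialLinearGroup.map_apply_coe, RingHom.mapMatrix_apply,
      Matrix.map_apply] at h1
    exact e.injective h1
  · intro g
    refine ⟨Matrix.SpecialLinearGroup.map (n := Fin 2) (e.symm : L →+* K) g, ?_⟩
    apply Subtype.ext
    ext i j
    simp

/-- PΩ^-_4(q) is isomorphic to PSL_2(q^2). -/
theorem result {F K : Type*} [Field F] [Fintype F] [Field K] [Fintype K] {q : ℕ} (hF : Fintype.card F = q) (hK : Fintype.card K = q ^ 2) (a b : F) (hab : ∀ z₁ z₂ : F, z₁ ^ 2 + a * z₁ * z₂ + b * z₂ ^ 2 = 0 → z₁ = 0 ∧ z₂ = 0) : Nonempty (Cfsg.POmega F (Cfsg.quadFormMinus 1 F a b) ≃* Matrix.ProjectiveSpecialLinearGroup (Fin 2) K) := by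
  classical
  have : Fact (∀ r : F, r ^ 2 ≠ -b + a * r) := ⟨fun r hr => by
    have h := hab (-r) 1 (by linear_combination hr)
    exact one_ne_zero h.2⟩
  have hne : ¬ (a = 0 ∧ b = -1) := by
    rintro ⟨rfl, rfl⟩
    have h := hab 1 1 (by ring)
    exact one_ne_zero h.1
  let _ : Fintype (LL F a b) := Fintype.ofEquiv (F × F) (QuadraticAlgebra.equivProd (-b) a).symm
  have hcard : Fintype.card K = Fintype.card (LL F a b) := by
    rw [hK, Fintype.card_congr (QuadraticAlgebra.equivProd (-b) a), Fintype.card_prod, hF, pow_two]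
  let e : K ≃+* LL F a b := FiniteField.ringEquivOfCardEq hcard
  obtain ⟨hinj, hsurj⟩ := slMap_bijective e
  refine commutator_quotient_center_equiv
    (isoEquiv psi (quadFormMinus 1 F a b) NN NN_psi)
    (ff.comp (Matrix.SpecialLinearGroup.map (n := Fin 2) (e : K →+* LL F a b))) ?_
    (QuotientGroup.mk' _) (QuotientGroup.mk'_surjective _) ?_ ?_ ?_
  · rw [MonoidHom.range_comp, MonoidHom.range_eq_top.mpr hsurj, ← MonoidHom.range_eq_map,
      range_ff hne]
  · intro g hg
    rw [MonoidHom.mem_ker] at hg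
    have h1 := ff_ker_le _ hg
    rw [MonoidHom.mem_ker, QuotientGroup.mk'_apply, QuotientGroup.eq_one_iff]
    rw [Subgroup.mem_center_iff] at h1 ⊢
    intro x
    apply hinj
    rw [map_mul, map_mul]
    exact h1 _
  · intro g hg
    rw [MonoidHom.mem_ker, QuotientGroup.mk'_apply, QuotientGroup.eq_one_iff] at hg
    exact hg
  · intro x hx
    exact Cfsg.Agent.S0298.psl2_center_trivial x hx

end Cfsg.Agent.S0300
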