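import Cfsg.Statements.S0301
import Mathlib
import Cfsg.Agent.Lib.Helper99.IsoModel
import Cfsg.Agent.Lib.Helper99.HypExt
import Cfsg.Agent.Lib.Helper99.Sp4Model
import Cfsg.Agent.Lib.Helper99.Sp4Surj
import Cfsg.Agent.S0269
import Cfsg.Agent.S0270

set_option autoImplicit false
open Cfsg

namespace Cfsg.Agent.S0301

open Cfsg.Agent.Lib.Helper99 Cfsg.Agent.Lib.Helper99.Sp4

/-- PΩ_5(q) is isomorphic to PSp_4(q) for q odd. -/
theorem result {F : Type*} [Field F] [Fintype F] (hodd : Odd (Fintype.card F)) : Nonempty (Cfsg.POmega F (Cfsg.quadFormOdd 2 F) ≃* Cfsg.PSp 2 F) := by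
  have h3 : 3 ≤ Fintype.card F := by
    have h1 : 1 < Fintype.card F := Fintype.one_lt_card
    rcases hodd with ⟨k, hk⟩
    omega
  have hperf : commutator (Matrix.symplecticGroup (Fin 2) F) = ⊤ :=
    Cfsg.Agent.S0269.result 2 (Or.inr (Or.inl ⟨rfl, h3⟩))
  have hsimple : IsSimpleGroup (Matrix.symplecticGroup (Fin 2) F ⧸
      Subgroup.center (Matrix.symplecticGroup (Fin 2) F)) :=
    Cfsg.Agent.S0270.result 2 (le_refl 2) (fun _ => h3)
  refine commutator_quotient_center_equiv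
    (isoEquiv psi5 (quadFormOdd 2 F) (hypN (quadFormOdd 1 F)) hypN_psi5) f5 (range_f5 hperf)
    (QuotientGroup.mk' _) (QuotientGroup.mk'_surjective _) ?_ ?_ ?_
  · rw [QuotientGroup.ker_mk']
    exact ker_le_center_of_simple hperf f5 f5_ne_one
  · rw [QuotientGroup.ker_mk']
  · intro x hx
    exact center_quotient_trivial_of_simple hperf x hx

end Cfsg.Agent.S0301
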