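import Cfsg.Statements.S0303
import Mathlib
import Cfsg.Agent.Lib.Helper99.IsoModel
import Cfsg.Agent.Lib.Helper99.OM4Model
import Cfsg.Agent.Lib.Helper99.U4Field
import Cfsg.Agent.Lib.Helper99.U4Model
import Cfsg.Agent.Lib.Helper99.U4Surj
import Cfsg.Agent.Lib.Helper99.U4Gen
import Cfsg.Agent.Lib.Helper99.U4Comp
import Cfsg.Agent.Lib.Helper99.U4Top
import Cfsg.Agent.Lib.Helper99.U4Count
import Cfsg.Agent.Lib.Helper99.U4Trans
import Cfsg.Agent.Lib.Helper99.U4Center

set_option autoImplicit false
open Cfsg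

namespace Cfsg.Agent.S0303

open Cfsg.Agent.Lib.Helper99 Cfsg.Agent.Lib.Helper99.OM4 Cfsg.Agent.Lib.Helper99.U4
  Cfsg.Agent.Lib.Helper7

/-- PΩ^-_6(q) is isomorphic to PSU_4(q). -/
theorem result {F K : Type*} [Field F] [Fintype F] [Field K] [Fintype K] {q : ℕ} (hF : Fintype.card F = q) (hK : Fintype.card K = q ^ 2) (a b : F) (hab : ∀ z₁ z₂ : F, z₁ ^ 2 + a * z₁ * z₂ + b * z₂ ^ 2 = 0 → z₁ = 0 ∧ z₂ = 0) : Nonempty (Cfsg.POmega F (Cfsg.quadFormMinus 2 F a b) ≃* Cfsg.PSU 4 K q) := by
  classical
  have : Fact (∀ r : F, r ^ 2 ≠ -b + a * r) := ⟨fun r hr => by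
    have h := hab (-r) 1 (by linear_combination hr)
    exact one_ne_zero h.2⟩
  have hD : Fact (dsc a b ≠ 0) := ⟨disc_ne_zero hab⟩
  let _ : Fintype (LL F a b) := Fintype.ofEquiv (F × F) (QuadraticAlgebra.equivProd (-b) a).symm
  have hcard : Fintype.card K = Fintype.card (LL F a b) := by
    rw [hK, Fintype.card_congr (QuadraticAlgebra.equivProd (-b) a), Fintype.card_prod, hF, pow_two]
  have hL : Fintype.card (LL F a b) = q ^ 2 := by rw [← hcard, hK]
  let e : K ≃+* LL F a b := FiniteField.ringEquivOfCardEq hcard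
  have hst : ∀ z : LL F a b, z ^ q = star z := fun z => by
    rw [← hF]
    exact pow_card_eq_star z
  obtain ⟨μ, hμ⟩ := exists_norm_neg_one hL hst
  obtain ⟨β, hβ⟩ := exists_trace_one (a := a) (b := b) hab
  have hP := Pm_mul_conj μ β hμ hβ
  let E := isoEquiv psi6 (quadFormMinus 2 F a b) (hypN (NN (a := a) (b := b))) hypN_psi6
  let T := tau hK e hst (Pm μ β) hP
  let f : SU 4 K q →* isometryGroup F (quadFormMinus 2 F a b) :=
    E.toMonoidHom.comp (f6.comp T)
  have hC : commutator (isometryGroup F (quadFormMinus 2 F a b)) ≤ f.range := by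
    have h1 : (f6.comp T).range = (f6 (a := a) (b := b)).range := by
      rw [MonoidHom.range_comp,
        MonoidHom.range_eq_top.mpr (tau_surjective hK e hst (Pm μ β) hP),
        ← MonoidHom.range_eq_map]
    have h2 : Subgroup.map E.toMonoidHom (commutator _) =
        commutator (isometryGroup F (quadFormMinus 2 F a b)) := by
      rw [commutator_def, commutator_def, Subgroup.map_commutator,
        Subgroup.map_top_of_surjective _ E.surjective]
    rw [MonoidHom.range_comp, h1, ← h2]
    exact Subgroup.map_mono commutator_le_range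
  obtain ⟨d, hcard', hd⟩ : ∃ d : ℕ, Nat.card (SU 4 K q) =
      d * Nat.card (commutator (isometryGroup F (quadFormMinus 2 F a b))) ∧
      d ≤ Nat.card ↥(f.ker ⊓ Subgroup.center (SU 4 K q)) := by
    have hc := card_su4_eq hF hK a b hab
    by_cases h2 : (2 : F) = 0
    · rw [if_pos h2] at hc
      exact ⟨1, hc, Nat.card_pos⟩
    · rw [if_neg h2] at hc
      refine ⟨2, hc, ?_⟩
      have h2K : (2 : K) ≠ 0 := by
        intro h
        have h3 : (2 : LL F a b) = 0 := by rw [← map_ofNat e 2, h, map_zero]
        have h4 : algebraMap F (LL F a b) 2 = algebraMap F (LL F a b) 0 := by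
          rw [map_ofNat, map_zero, h3]
        exact h2 ((algebraMap F (LL F a b)).injective h4)
      let z : SU 4 K q := suScalar hK 4 (-1) (by norm_num) (herm_neg_one_pow hK)
      have hzc : (z.1 : Matrix (Fin 4) (Fin 4) K) = Matrix.diagonal fun _ => (-1 : K) := rfl
      have hz1 : z ≠ 1 := by
        intro h
        have h3 := congrFun (congrFun (congrArg (fun s : SU 4 K q => s.1.1) h) 0) 0
        have h4 : (-1 : K) = 1 := by simpa [hzc] using h3
        exact h2K (by linear_combination -h4)
      have hmap : (Matrix.diagonal fun _ : Fin 4 => (-1 : K)).map e = -1 := by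
        refine Matrix.ext fun i j => ?_
        by_cases hij : i = j
        · subst hij
          simp
        · simp [hij]
      have hzk : z ∈ f.ker := by
        rw [MonoidHom.mem_ker]
        have h3 : f6 (T z) = 1 := by
          apply appHom_injective
          rw [appHom_f6, map_one]
          have h4 : (T z).1.1 = -1 := by
            have h5 : (T z).1.1 = Pm μ β * z.1.1.map e * ((Pm μ β).conjTranspose * Phi) := rfl
            rw [h5, hzc, hmap, Matrix.mul_neg, Matrix.mul_one, Matrix.neg_mul,
              P_mul_P' _ hP]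
          rw [h4]
          exact act6_neg_one
        show E (f6 (T z)) = 1
        rw [h3, map_one]
      have hzZ : z ∈ f.ker ⊓ Subgroup.center (SU 4 K q) :=
        ⟨hzk, suScalar_mem_center hK 4 (-1) _ _⟩
      have hne : f.ker ⊓ Subgroup.center (SU 4 K q) ≠ ⊥ := by
        intro hbot
        rw [hbot, Subgroup.mem_bot] at hzZ
        exact hz1 hzZ
      exact Nat.succ_le_of_lt ((Subgroup.one_lt_card_iff_ne_bot _).mpr hne)
  obtain ⟨hrange, hker⟩ := range_eq_of_card f _ hC d hcard'
    (f.ker ⊓ Subgroup.center (SU 4 K q)) inf_le_left hd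
  refine quotient_center_equiv f (commutator _) hrange (QuotientGroup.mk' _)
    (QuotientGroup.mk'_surjective _) ?_ ?_ ?_
  · rw [QuotientGroup.ker_mk', hker]
    exact inf_le_right
  · rw [QuotientGroup.ker_mk']
  · exact center_psu_trivial hK e hst (Pm μ β) hP

end Cfsg.Agent.S0303
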