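import Cfsg.Statements.S0304

set_option autoImplicit false
open Cfsg

namespace Cfsg.Agent.S0304

open Matrix

variable {F : Type*} [Field F] {m : ℕ}

/-- the hyperbolic part of the form -/
def q0 (m : ℕ) (F : Type*) [Field F] (w : Fin m ⊕ Fin m → F) : F :=
  ∑ i : Fin m, w (Sum.inl i) * w (Sum.inr i)

theorem qf_eq (v : Unit ⊕ (Fin m ⊕ Fin m) → F) :
    quadFormOdd m F v = v (Sum.inl ()) ^ 2 + q0 m F (fun j => v (Sum.inr j)) := rfl

/-- the polar form of `q0` (in characteristic 2) -/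
def bl (m : ℕ) (F : Type*) [Field F] (u w : Fin m ⊕ Fin m → F) : F :=
  u ⬝ᵥ (J (Fin m) F *ᵥ w)

theorem J_mulVec (w : Fin m ⊕ Fin m → F) :
    J (Fin m) F *ᵥ w = Sum.elim (fun i => - w (Sum.inr i)) (fun i => w (Sum.inl i)) := by
  funext i
  rcases i with i | i
  · simp [J, Matrix.mulVec, dotProduct, Fintype.sum_sum_type, Matrix.one_apply]
  · simp [J, Matrix.mulVec, dotProduct, Fintype.sum_sum_type, Matrix.one_apply]

theorem bl_eq [CharP F 2] (u w : Fin m ⊕ Fin m → F) :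
    bl m F u w = ∑ i : Fin m, (u (Sum.inl i) * w (Sum.inr i) + u (Sum.inr i) * w (Sum.inl i)) := by
  show u ⬝ᵥ (J (Fin m) F *ᵥ w) = _
  rw [J_mulVec]
  simp only [dotProduct, Fintype.sum_sum_type, Sum.elim_inl, Sum.elim_inr, CharTwo.neg_eq,
    Finset.sum_add_distrib]

theorem q0_add [CharP F 2] (u w : Fin m ⊕ Fin m → F) :
    q0 m F (u + w) = q0 m F u + q0 m F w + bl m F u w := by
  rw [bl_eq]
  show ∑ i : Fin m, (u + w) (Sum.inl i) * (u + w) (Sum.inr i) =
    ∑ i : Fin m, u (Sum.inl i) * u (Sum.inr i) + ∑ i : Fin m, w (Sum.inl i) * w (Sum.inr i) + _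
  rw [← Finset.sum_add_distrib, ← Finset.sum_add_distrib]
  apply Finset.sum_congr rfl
  intro i _
  simp only [Pi.add_apply]
  ring

theorem q0_smul (c : F) (u : Fin m ⊕ Fin m → F) :
    q0 m F (c • u) = c ^ 2 * q0 m F u := by
  show ∑ i : Fin m, (c • u) (Sum.inl i) * (c • u) (Sum.inr i) =
    c ^ 2 * ∑ i : Fin m, u (Sum.inl i) * u (Sum.inr i)
  rw [Finset.mul_sum]
  apply Finset.sum_congr rfl
  intro i _
  simp only [Pi.smul_apply, smul_eq_mul]
  ring

theorem q0_zero : q0 m F 0 = 0 := by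
  show ∑ i : Fin m, (0 : Fin m ⊕ Fin m → F) (Sum.inl i) * (0 : Fin m ⊕ Fin m → F) (Sum.inr i) = 0
  simp

theorem bl_mulVec (A : Matrix (Fin m ⊕ Fin m) (Fin m ⊕ Fin m) F) (u w : Fin m ⊕ Fin m → F) :
    bl m F (A *ᵥ u) (A *ᵥ w) = u ⬝ᵥ ((Aᵀ * J (Fin m) F * A) *ᵥ w) := by
  show (A *ᵥ u) ⬝ᵥ (J (Fin m) F *ᵥ (A *ᵥ w)) = _
  rw [Matrix.mulVec_mulVec, ← Matrix.vecMul_transpose, ← Matrix.dotProduct_mulVec,
    Matrix.mulVec_mulVec, Matrix.mul_assoc]

theorem eq_of_dot {n : Type*} [Fintype n] [DecidableEq n] (M N : Matrix n n F)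
    (h : ∀ u w : n → F, u ⬝ᵥ (M *ᵥ w) = u ⬝ᵥ (N *ᵥ w)) : M = N := by
  ext i j
  have := h (Pi.single i 1) (Pi.single j 1)
  simpa using this

/-- the index type -/
abbrev I (m : ℕ) : Type := Unit ⊕ (Fin m ⊕ Fin m)

theorem mulVec_inl (M : Matrix (I m) (I m) F) (v : I m → F) :
    (M *ᵥ v) (Sum.inl ()) = M (Sum.inl ()) (Sum.inl ()) * v (Sum.inl ()) +
      (fun j => M (Sum.inl ()) (Sum.inr j)) ⬝ᵥ (fun j => v (Sum.inr j)) := by
  simp [Matrix.mulVec, dotProduct, Fintype.sum_sum_type]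

theorem mulVec_inr (M : Matrix (I m) (I m) F) (v : I m → F) :
    (fun k => (M *ᵥ v) (Sum.inr k)) = v (Sum.inl ()) • (fun k => M (Sum.inr k) (Sum.inl ())) +
      M.toBlocks₂₂ *ᵥ (fun j => v (Sum.inr j)) := by
  funext k
  simp [Matrix.mulVec, dotProduct, Fintype.sum_sum_type, Matrix.toBlocks₂₂, mul_comm]

theorem mem_iso_iff (g : GL (I m) F) :
    g ∈ isometryGroup F (quadFormOdd m F) ↔
      ∀ (x : F) (w : Fin m ⊕ Fin m → F),
        ((g : Matrix (I m) (I m) F) (Sum.inl ()) (Sum.inl ()) * x +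
          (fun j => (g : Matrix (I m) (I m) F) (Sum.inl ()) (Sum.inr j)) ⬝ᵥ w) ^ 2 +
        q0 m F (x • (fun k => (g : Matrix (I m) (I m) F) (Sum.inr k) (Sum.inl ())) +
          (g : Matrix (I m) (I m) F).toBlocks₂₂ *ᵥ w) = x ^ 2 + q0 m F w := by
  constructor
  · intro h x w
    have h1 := h (Sum.elim (fun _ => x) w) (Sum.elim (fun _ => x) w)
    have h2 : quadFormOdd m F ((g : Matrix (I m) (I m) F) *ᵥ (Sum.elim (fun _ => x) w)) =
        quadFormOdd m F (Sum.elim (fun _ => x) w) := h1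
    rw [qf_eq, qf_eq, mulVec_inl, mulVec_inr] at h2
    exact h2
  · intro h u _
    show quadFormOdd m F ((g : Matrix (I m) (I m) F) *ᵥ u) = quadFormOdd m F u
    rw [qf_eq, qf_eq, mulVec_inl, mulVec_inr]
    exact h (u (Sum.inl ())) (fun j => u (Sum.inr j))

theorem sq_inj [CharP F 2] {x y : F} (h : x ^ 2 = y ^ 2) : x = y := by
  have h1 : (x + y) ^ 2 = 0 := by
    rw [CharTwo.add_sq, h, CharTwo.add_self_eq_zero]
  have h2 : x + y = 0 := by simpa using h1
  have h3 : x = -y := eq_neg_of_add_eq_zero_left h2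
  rw [h3, CharTwo.neg_eq]

/-- the structure of an isometry in characteristic 2 -/
theorem iso_struct [CharP F 2] (g : GL (I m) F) (hg : g ∈ isometryGroup F (quadFormOdd m F)) :
    (g : Matrix (I m) (I m) F).toBlocks₂₂ ∈ symplecticGroup (Fin m) F ∧
    (g : Matrix (I m) (I m) F) (Sum.inl ()) (Sum.inl ()) = 1 ∧
    (∀ k, (g : Matrix (I m) (I m) F) (Sum.inr k) (Sum.inl ()) = 0) ∧
    (∀ w : Fin m ⊕ Fin m → F,
      ((fun j => (g : Matrix (I m) (I m) F) (Sum.inl ()) (Sum.inr j)) ⬝ᵥ w) ^ 2 =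
        q0 m F w - q0 m F ((g : Matrix (I m) (I m) F).toBlocks₂₂ *ᵥ w)) := by
  rw [mem_iso_iff] at hg
  set a := (g : Matrix (I m) (I m) F) (Sum.inl ()) (Sum.inl ()) with ha
  set r : Fin m ⊕ Fin m → F := fun j => (g : Matrix (I m) (I m) F) (Sum.inl ()) (Sum.inr j) with hr
  set c : Fin m ⊕ Fin m → F := fun k => (g : Matrix (I m) (I m) F) (Sum.inr k) (Sum.inl ()) with hc
  set A := (g : Matrix (I m) (I m) F).toBlocks₂₂ with hA
  -- x = 0
  have h0 : ∀ w : Fin m ⊕ Fin m → F, (r ⬝ᵥ w) ^ 2 + q0 m F (A *ᵥ w) = q0 m F w := by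
    intro w
    have := hg 0 w
    simpa using this
  -- polarization
  have hpol : ∀ u w : Fin m ⊕ Fin m → F, bl m F (A *ᵥ u) (A *ᵥ w) = bl m F u w := by
    intro u w
    have h1 := h0 (u + w)
    have h2 := h0 u
    have h3 := h0 w
    rw [dotProduct_add, CharTwo.add_sq, Matrix.mulVec_add, q0_add, q0_add] at h1
    linear_combination h1 - h2 - h3
  have hsp : A ∈ symplecticGroup (Fin m) F := by
    rw [SymplecticGroup.mem_iff']
    apply eq_of_dot
    intro u w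
    rw [← bl_mulVec]
    exact hpol u w
  -- x = 1
  have h1 : ∀ w : Fin m ⊕ Fin m → F, a ^ 2 + q0 m F c + bl m F c (A *ᵥ w) = 1 := by
    intro w
    have h2 := hg 1 w
    have h3 := h0 w
    rw [one_smul, mul_one, CharTwo.add_sq, q0_add] at h2
    linear_combination h2 - h3
  have h4 : a ^ 2 + q0 m F c = 1 := by
    have := h1 0
    have h5 : bl m F c (A *ᵥ (0 : Fin m ⊕ Fin m → F)) = 0 := by
      show c ⬝ᵥ (J (Fin m) F *ᵥ (A *ᵥ (0 : Fin m ⊕ Fin m → F))) = 0
      simp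
    rw [h5, add_zero] at this
    exact this
  have h6 : ∀ w : Fin m ⊕ Fin m → F, bl m F c w = 0 := by
    intro w
    have h7 := h1 (A⁻¹ *ᵥ w)
    rw [Matrix.mulVec_mulVec, Matrix.mul_nonsing_inv A (SymplecticGroup.symplectic_det hsp),
      Matrix.one_mulVec] at h7
    linear_combination h7 - h4
  have hc0 : ∀ k, c k = 0 := by
    intro k
    rcases k with i | i
    · have := h6 (Pi.single (Sum.inr i) 1)
      rw [bl_eq] at this
      simpa [Pi.single_apply] using this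
    · have := h6 (Pi.single (Sum.inl i) 1)
      rw [bl_eq] at this
      simpa [Pi.single_apply] using this
  have hc0' : c = 0 := funext hc0
  have ha1 : a = 1 := by
    rw [hc0', q0_zero, add_zero] at h4
    apply sq_inj
    rw [h4, one_pow]
  refine ⟨hsp, ha1, hc0, ?_⟩
  intro w
  have := h0 w
  linear_combination this

/-- the map to the symplectic group -/
noncomputable def Psi [CharP F 2] (g : isometryGroup F (quadFormOdd m F)) :
    symplecticGroup (Fin m) F :=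
  ⟨((g : GL (I m) F) : Matrix (I m) (I m) F).toBlocks₂₂, (iso_struct g.1 g.2).1⟩

theorem Psi_val [CharP F 2] (g : isometryGroup F (quadFormOdd m F)) :
    ((Psi g : symplecticGroup (Fin m) F) : Matrix (Fin m ⊕ Fin m) (Fin m ⊕ Fin m) F) =
      ((g : GL (I m) F) : Matrix (I m) (I m) F).toBlocks₂₂ := rfl

theorem Psi_mul [CharP F 2] (g h : isometryGroup F (quadFormOdd m F)) :
    Psi (g * h) = Psi g * Psi h := by
  apply Subtype.ext
  rw [Psi_val]
  show (((g : GL (I m) F) : Matrix (I m) (I m) F) * ((h : GL (I m) F) : Matrix (I m) (I m) F)).toBlocks₂₂ =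
    ((g : GL (I m) F) : Matrix (I m) (I m) F).toBlocks₂₂ *
      ((h : GL (I m) F) : Matrix (I m) (I m) F).toBlocks₂₂
  ext k j
  have hc := (iso_struct g.1 g.2).2.2.1 k
  simp only [Matrix.toBlocks₂₂, Matrix.of_apply, Matrix.mul_apply, Fintype.sum_sum_type,
    Finset.univ_unique, Finset.sum_singleton]
  have hc' : ((g : GL (I m) F) : Matrix (I m) (I m) F) (Sum.inr k) (Sum.inl default) = 0 := hc
  rw [hc', zero_mul, zero_add]

theorem Psi_injective [CharP F 2] :
    Function.Injective (Psi : isometryGroup F (quadFormOdd m F) → symplecticGroup (Fin m) F) := by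
  intro g h hgh
  have hA : ((g : GL (I m) F) : Matrix (I m) (I m) F).toBlocks₂₂ =
      ((h : GL (I m) F) : Matrix (I m) (I m) F).toBlocks₂₂ := by
    rw [← Psi_val, ← Psi_val, hgh]
  obtain ⟨-, ga, gc, gr⟩ := iso_struct g.1 g.2
  obtain ⟨-, ha, hc, hr⟩ := iso_struct h.1 h.2
  apply Subtype.ext
  apply Units.ext
  ext i j
  rcases i with ⟨⟩ | k <;> rcases j with ⟨⟩ | j
  · rw [ga, ha]
  · have h1 := gr (Pi.single j 1)
    have h2 := hr (Pi.single j 1)
    rw [hA, ← h2] at h1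
    have h3 := sq_inj h1
    simpa using h3
  · rw [gc, hc]
  · have := congrFun (congrFun hA k) j
    exact this

theorem Psi_surjective [Fintype F] [CharP F 2] :
    Function.Surjective (Psi : isometryGroup F (quadFormOdd m F) → symplecticGroup (Fin m) F) := by
  rintro ⟨A, hA⟩
  have hA' := (SymplecticGroup.mem_iff').mp hA
  -- the defect
  have hadd : ∀ u w : Fin m ⊕ Fin m → F,
      q0 m F (u + w) - q0 m F (A *ᵥ (u + w)) =
        (q0 m F u - q0 m F (A *ᵥ u)) + (q0 m F w - q0 m F (A *ᵥ w)) := by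
    intro u w
    have h1 : bl m F (A *ᵥ u) (A *ᵥ w) = bl m F u w := by
      rw [bl_mulVec, hA']
      rfl
    rw [Matrix.mulVec_add, q0_add, q0_add, h1]
    ring
  have hsm : ∀ (c : F) (w : Fin m ⊕ Fin m → F),
      q0 m F (c • w) - q0 m F (A *ᵥ (c • w)) = c ^ 2 * (q0 m F w - q0 m F (A *ᵥ w)) := by
    intro c w
    rw [Matrix.mulVec_smul, q0_smul, q0_smul]
    ring
  let δ : (Fin m ⊕ Fin m → F) →+ F := AddMonoidHom.mk' (fun w => q0 m F w - q0 m F (A *ᵥ w)) hadd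
  have hδ : ∀ w, δ w = q0 m F w - q0 m F (A *ᵥ w) := fun w => rfl
  have hsq : ∀ j : Fin m ⊕ Fin m, ∃ s : F, s ^ 2 = δ (Pi.single j 1) := by
    intro j
    obtain ⟨s, hs⟩ := FiniteField.isSquare_of_char_two (ringChar.eq F 2) (δ (Pi.single j 1))
    exact ⟨s, by rw [hs, sq]⟩
  choose s hs using hsq
  have hkey : ∀ w : Fin m ⊕ Fin m → F, (s ⬝ᵥ w) ^ 2 = q0 m F w - q0 m F (A *ᵥ w) := by
    intro w
    rw [← hδ]
    conv_rhs => rw [pi_eq_sum_univ' w]
    rw [map_sum]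
    show (∑ j, s j * w j) ^ 2 = _
    rw [CharTwo.sum_sq]
    apply Finset.sum_congr rfl
    intro j _
    rw [hδ, hsm, ← hδ, ← hs]
    ring
  -- the matrix
  let M : Matrix (I m) (I m) F := Matrix.fromBlocks 1 (Matrix.of fun _ j => s j) 0 A
  have hdet : IsUnit M.det := by
    show IsUnit (Matrix.fromBlocks 1 (Matrix.of fun _ j => s j) 0 A).det
    rw [Matrix.det_fromBlocks_zero₂₁, Matrix.det_one, one_mul]
    exact SymplecticGroup.symplectic_det hA
  let g : GL (I m) F := ((Matrix.isUnit_iff_isUnit_det M).mpr hdet).unit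
  have hgM : (g : Matrix (I m) (I m) F) = M := rfl
  have hg : g ∈ isometryGroup F (quadFormOdd m F) := by
    rw [mem_iso_iff, hgM]
    intro x w
    have e1 : M (Sum.inl ()) (Sum.inl ()) = 1 := by
      show (1 : Matrix Unit Unit F) () () = 1
      simp
    have e2 : (fun j => M (Sum.inl ()) (Sum.inr j)) = s := rfl
    have e3 : (fun k => M (Sum.inr k) (Sum.inl ())) = 0 := rfl
    have e4 : M.toBlocks₂₂ = A := Matrix.toBlocks_fromBlocks₂₂ _ _ _ _
    rw [e1, e2, e3, e4, smul_zero, zero_add, one_mul, CharTwo.add_sq, hkey]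
    ring
  refine ⟨⟨g, hg⟩, ?_⟩
  apply Subtype.ext
  rw [Psi_val]
  show M.toBlocks₂₂ = A
  exact Matrix.toBlocks_fromBlocks₂₂ _ _ _ _

/-- In characteristic 2, O_{2m+1}(q) is isomorphic to Sp_{2m}(q). -/
theorem result {F : Type*} [Field F] [Fintype F] [CharP F 2] (m : ℕ) : Nonempty (Cfsg.isometryGroup F (Cfsg.quadFormOdd m F) ≃* Matrix.symplecticGroup (Fin m) F) := by
  exact ⟨MulEquiv.ofBijective (MonoidHom.mk' Psi Psi_mul) ⟨Psi_injective, Psi_surjective⟩⟩

end Cfsg.Agent.S0304
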