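import Cfsg.Statements.S0305

set_option autoImplicit false
open Cfsg

namespace Cfsg.Agent.S0305

open Matrix

/-- the index type -/
abbrev I2 : Type := Fin 1 ⊕ Fin 1

/-- a 2 × 2 matrix with the given entries -/
def mk2 {F : Type*} (a b c d : F) : Matrix I2 I2 F :=
  Matrix.of (fun i j => Sum.elim (fun _ => Sum.elim (fun _ => a) (fun _ => b) j)
    (fun _ => Sum.elim (fun _ => c) (fun _ => d) j) i)

theorem mk2_ll {F : Type*} (a b c d : F) (i j : Fin 1) : mk2 a b c d (Sum.inl i) (Sum.inl j) = a := rfl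
theorem mk2_lr {F : Type*} (a b c d : F) (i j : Fin 1) : mk2 a b c d (Sum.inl i) (Sum.inr j) = b := rfl
theorem mk2_rl {F : Type*} (a b c d : F) (i j : Fin 1) : mk2 a b c d (Sum.inr i) (Sum.inl j) = c := rfl
theorem mk2_rr {F : Type*} (a b c d : F) (i j : Fin 1) : mk2 a b c d (Sum.inr i) (Sum.inr j) = d := rfl

theorem eq_mk2 {F : Type*} (M : Matrix I2 I2 F) :
    M = mk2 (M (Sum.inl 0) (Sum.inl 0)) (M (Sum.inl 0) (Sum.inr 0)) (M (Sum.inr 0) (Sum.inl 0))
      (M (Sum.inr 0) (Sum.inr 0)) := by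
  ext (i | i) (j | j)
  · rw [mk2_ll, Subsingleton.elim i 0, Subsingleton.elim j 0]
  · rw [mk2_lr, Subsingleton.elim i 0, Subsingleton.elim j 0]
  · rw [mk2_rl, Subsingleton.elim i 0, Subsingleton.elim j 0]
  · rw [mk2_rr, Subsingleton.elim i 0, Subsingleton.elim j 0]

theorem mk2_mul {F : Type*} [Field F] (a b c d a' b' c' d' : F) :
    mk2 a b c d * mk2 a' b' c' d' =
      mk2 (a * a' + b * c') (a * b' + b * d') (c * a' + d * c') (c * b' + d * d') := by
  ext (i | i) (j | j) <;>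
    simp [Matrix.mul_apply, Fintype.sum_sum_type, mk2_ll, mk2_lr, mk2_rl, mk2_rr]

theorem mk2_one {F : Type*} [Field F] : (1 : Matrix I2 I2 F) = mk2 1 0 0 1 := by
  ext (i | i) (j | j)
  · rw [mk2_ll, Subsingleton.elim i j]; simp
  · rw [mk2_lr]; simp
  · rw [mk2_rl]; simp
  · rw [mk2_rr, Subsingleton.elim i j]; simp

theorem mk2_mulVec_l {F : Type*} [Field F] (a b c d : F) (v : I2 → F) :
    (mk2 a b c d *ᵥ v) (Sum.inl 0) = a * v (Sum.inl 0) + b * v (Sum.inr 0) := by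
  simp [Matrix.mulVec, dotProduct, Fintype.sum_sum_type, mk2_ll, mk2_lr]

theorem mk2_mulVec_r {F : Type*} [Field F] (a b c d : F) (v : I2 → F) :
    (mk2 a b c d *ᵥ v) (Sum.inr 0) = c * v (Sum.inl 0) + d * v (Sum.inr 0) := by
  simp [Matrix.mulVec, dotProduct, Fintype.sum_sum_type, mk2_rl, mk2_rr]

theorem qf_eq {F : Type*} [Field F] (v : I2 → F) :
    quadFormPlus 1 F v = v (Sum.inl 0) * v (Sum.inr 0) := by
  show ∑ i : Fin 1, v (Sum.inl i) * v (Sum.inr i) = _
  simp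

theorem mem_iso_iff {F : Type*} [Field F] (g : GL I2 F) :
    g ∈ isometryGroup F (quadFormPlus 1 F) ↔
      ∀ u : I2 → F, quadFormPlus 1 F ((g : Matrix I2 I2 F) *ᵥ u) = quadFormPlus 1 F u := by
  constructor
  · intro h u
    exact h u u
  · intro h u _
    exact h u

theorem mem_iso_mk2 {F : Type*} [Field F] (g : GL I2 F) (a b c d : F)
    (hg : (g : Matrix I2 I2 F) = mk2 a b c d) :
    g ∈ isometryGroup F (quadFormPlus 1 F) ↔ (a * c = 0 ∧ b * d = 0 ∧ a * d + b * c = 1) := by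
  rw [mem_iso_iff, hg]
  constructor
  · intro h
    have h10 := h (Sum.elim (fun _ => 1) (fun _ => 0))
    have h01 := h (Sum.elim (fun _ => 0) (fun _ => 1))
    have h11 := h (Sum.elim (fun _ => 1) (fun _ => 1))
    rw [qf_eq, qf_eq, mk2_mulVec_l, mk2_mulVec_r] at h10 h01 h11
    simp only [Sum.elim_inl, Sum.elim_inr, mul_one, mul_zero, add_zero, zero_add] at h10 h01 h11
    refine ⟨h10, h01, ?_⟩
    linear_combination h11 - h10 - h01
  · rintro ⟨h1, h2, h3⟩ u
    rw [qf_eq, qf_eq, mk2_mulVec_l, mk2_mulVec_r]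
    linear_combination (u (Sum.inl 0)) ^ 2 * h1 + (u (Sum.inr 0)) ^ 2 * h2 +
      u (Sum.inl 0) * u (Sum.inr 0) * h3

/-- diagonal element -/
def Dg {F : Type*} [Field F] (a : Fˣ) : GL I2 F where
  val := mk2 (a : F) 0 0 ((a⁻¹ : Fˣ) : F)
  inv := mk2 ((a⁻¹ : Fˣ) : F) 0 0 (a : F)
  val_inv := by rw [mk2_mul, mk2_one]; simp
  inv_val := by rw [mk2_mul, mk2_one]; simp

/-- antidiagonal element -/
def Ag {F : Type*} [Field F] (b : Fˣ) : GL I2 F where
  val := mk2 0 (b : F) ((b⁻¹ : Fˣ) : F) 0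
  inv := mk2 0 (b : F) ((b⁻¹ : Fˣ) : F) 0
  val_inv := by rw [mk2_mul, mk2_one]; simp
  inv_val := by rw [mk2_mul, mk2_one]; simp

theorem Dg_val {F : Type*} [Field F] (a : Fˣ) :
    ((Dg a : GL I2 F) : Matrix I2 I2 F) = mk2 (a : F) 0 0 ((a⁻¹ : Fˣ) : F) := rfl

theorem Ag_val {F : Type*} [Field F] (b : Fˣ) :
    ((Ag b : GL I2 F) : Matrix I2 I2 F) = mk2 0 (b : F) ((b⁻¹ : Fˣ) : F) 0 := rfl

theorem Dg_mem {F : Type*} [Field F] (a : Fˣ) : Dg a ∈ isometryGroup F (quadFormPlus 1 F) := by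
  rw [mem_iso_mk2 _ _ _ _ _ (Dg_val a)]
  simp

theorem Ag_mem {F : Type*} [Field F] (b : Fˣ) : Ag b ∈ isometryGroup F (quadFormPlus 1 F) := by
  rw [mem_iso_mk2 _ _ _ _ _ (Ag_val b)]
  simp

theorem Dg_mul_Dg {F : Type*} [Field F] (a a' : Fˣ) : Dg a * Dg a' = Dg (a * a') := by
  apply Units.ext
  rw [Units.val_mul, Dg_val, Dg_val, Dg_val, mk2_mul]
  simp [mul_comm]

theorem Dg_mul_Ag {F : Type*} [Field F] (a b : Fˣ) : Dg a * Ag b = Ag (a * b) := by
  apply Units.ext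
  rw [Units.val_mul, Dg_val, Ag_val, Ag_val, mk2_mul]
  simp [mul_comm]

theorem Ag_mul_Dg {F : Type*} [Field F] (b a : Fˣ) : Ag b * Dg a = Ag (b * a⁻¹) := by
  apply Units.ext
  rw [Units.val_mul, Dg_val, Ag_val, Ag_val, mk2_mul]
  simp [mul_comm]

theorem Ag_mul_Ag {F : Type*} [Field F] (b b' : Fˣ) : Ag b * Ag b' = Dg (b * b'⁻¹) := by
  apply Units.ext
  rw [Units.val_mul, Dg_val, Ag_val, Ag_val, mk2_mul]
  simp [mul_comm]

theorem Dg_inj {F : Type*} [Field F] {a a' : Fˣ} (h : Dg a = Dg a') : a = a' := by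
  have h1 := congrArg (fun g : GL I2 F => (g : Matrix I2 I2 F) (Sum.inl 0) (Sum.inl 0)) h
  simp only [Dg_val, mk2_ll] at h1
  exact Units.ext h1

theorem Ag_inj {F : Type*} [Field F] {a a' : Fˣ} (h : Ag a = Ag a') : a = a' := by
  have h1 := congrArg (fun g : GL I2 F => (g : Matrix I2 I2 F) (Sum.inl 0) (Sum.inr 0)) h
  simp only [Ag_val, mk2_lr] at h1
  exact Units.ext h1

theorem Dg_ne_Ag {F : Type*} [Field F] (a b : Fˣ) : Dg a ≠ Ag b := by
  intro h
  have h1 := congrArg (fun g : GL I2 F => (g : Matrix I2 I2 F) (Sum.inl 0) (Sum.inl 0)) h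
  simp only [Dg_val, Ag_val, mk2_ll] at h1
  exact a.ne_zero h1

theorem eq_Dg_or_Ag {F : Type*} [Field F] (g : GL I2 F)
    (hg : g ∈ isometryGroup F (quadFormPlus 1 F)) : (∃ a, g = Dg a) ∨ (∃ b, g = Ag b) := by
  have hmk := eq_mk2 (g : Matrix I2 I2 F)
  obtain ⟨h1, h2, h3⟩ := (mem_iso_mk2 g _ _ _ _ hmk).1 hg
  set a := (g : Matrix I2 I2 F) (Sum.inl 0) (Sum.inl 0) with ha
  set b := (g : Matrix I2 I2 F) (Sum.inl 0) (Sum.inr 0) with hb
  set c := (g : Matrix I2 I2 F) (Sum.inr 0) (Sum.inl 0) with hc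
  set d := (g : Matrix I2 I2 F) (Sum.inr 0) (Sum.inr 0) with hd
  by_cases ha0 : a = 0
  · right
    rw [ha0, zero_mul, zero_add] at h3
    have hb0 : b ≠ 0 := fun h => by rw [h, zero_mul] at h3; exact zero_ne_one h3
    have hd0 : d = 0 := by
      rcases mul_eq_zero.1 h2 with h | h
      · exact absurd h hb0
      · exact h
    refine ⟨Units.mk0 b hb0, Units.ext ?_⟩
    rw [Ag_val, hmk, ha0, hd0]
    congr 1
    simp only [Units.val_inv_eq_inv_val, Units.val_mk0]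
    exact eq_inv_of_mul_eq_one_right h3
  · left
    have hc0 : c = 0 := by
      rcases mul_eq_zero.1 h1 with h | h
      · exact absurd h ha0
      · exact h
    rw [hc0, mul_zero, add_zero] at h3
    have hd0 : d ≠ 0 := fun h => by rw [h, mul_zero] at h3; exact zero_ne_one h3
    have hb0 : b = 0 := by
      rcases mul_eq_zero.1 h2 with h | h
      · exact h
      · exact absurd h hd0
    refine ⟨Units.mk0 a ha0, Units.ext ?_⟩
    rw [Dg_val, hmk, hb0, hc0]
    congr 1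
    simp only [Units.val_inv_eq_inv_val, Units.val_mk0]
    exact eq_inv_of_mul_eq_one_right h3

/-- GO^+_2(q) is dihedral of order 2(q-1). -/
theorem result {F : Type*} [Field F] [Fintype F] {q : ℕ} (hF : Fintype.card F = q) : Nonempty (Cfsg.isometryGroup F (Cfsg.quadFormPlus 1 F) ≃* DihedralGroup (q - 1)) := by
  classical
  have hcardU : Nat.card Fˣ = q - 1 := by
    rw [Nat.card_eq_fintype_card, Fintype.card_units, hF]
  obtain ⟨ε⟩ : Nonempty (Multiplicative (ZMod (q - 1)) ≃* Fˣ) := by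
    have : ∀ k, Nat.card Fˣ = k → Nonempty (Multiplicative (ZMod k) ≃* Fˣ) := by
      rintro k rfl
      exact ⟨zmodCyclicMulEquiv inferInstance⟩
    exact this _ hcardU
  let u : ZMod (q - 1) → Fˣ := fun i => ε (Multiplicative.ofAdd i)
  have hu_add : ∀ i j, u (i + j) = u i * u j := fun i j => by
    show ε (Multiplicative.ofAdd (i + j)) = _
    rw [ofAdd_add, map_mul]
  have hu_neg : ∀ i, u (-i) = (u i)⁻¹ := fun i => by
    show ε (Multiplicative.ofAdd (-i)) = _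
    rw [ofAdd_neg, map_inv]
  have hu_inj : Function.Injective u := fun i j h => Multiplicative.ofAdd.injective (ε.injective h)
  have hu_surj : Function.Surjective u := fun a => by
    obtain ⟨x, rfl⟩ := ε.surjective a
    exact ⟨Multiplicative.toAdd x, rfl⟩
  let Φ : DihedralGroup (q - 1) → isometryGroup F (quadFormPlus 1 F) := fun x =>
    match x with
    | DihedralGroup.r i => ⟨Dg (u i), Dg_mem _⟩
    | DihedralGroup.sr i => ⟨Ag (u (-i)), Ag_mem _⟩
  have hΦr : ∀ i, Φ (DihedralGroup.r i) = ⟨Dg (u i), Dg_mem _⟩ := fun _ => rfl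
  have hΦsr : ∀ i, Φ (DihedralGroup.sr i) = ⟨Ag (u (-i)), Ag_mem _⟩ := fun _ => rfl
  have hmul : ∀ x y, Φ (x * y) = Φ x * Φ y := by
    intro x y
    rcases x with i | i <;> rcases y with j | j
    · rw [DihedralGroup.r_mul_r, hΦr, hΦr, hΦr]
      apply Subtype.ext
      show Dg (u (i + j)) = Dg (u i) * Dg (u j)
      rw [Dg_mul_Dg, hu_add]
    · rw [DihedralGroup.r_mul_sr, hΦr, hΦsr, hΦsr]
      apply Subtype.ext
      show Ag (u (-(j - i))) = Dg (u i) * Ag (u (-j))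
      rw [Dg_mul_Ag, ← hu_add]
      congr 2
      ring
    · rw [DihedralGroup.sr_mul_r, hΦr, hΦsr, hΦsr]
      apply Subtype.ext
      show Ag (u (-(i + j))) = Ag (u (-i)) * Dg (u j)
      rw [Ag_mul_Dg, ← hu_neg, ← hu_add]
      congr 2
      ring
    · rw [DihedralGroup.sr_mul_sr, hΦr, hΦsr, hΦsr]
      apply Subtype.ext
      show Dg (u (j - i)) = Ag (u (-i)) * Ag (u (-j))
      rw [Ag_mul_Ag, ← hu_neg, ← hu_add]
      congr 2
      ring
  have hinj : Function.Injective Φ := by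
    intro x y h
    rcases x with i | i <;> rcases y with j | j
    · rw [hΦr, hΦr] at h
      have := hu_inj (Dg_inj (congrArg Subtype.val h))
      rw [this]
    · rw [hΦr, hΦsr] at h
      exact absurd (congrArg Subtype.val h) (Dg_ne_Ag _ _)
    · rw [hΦr, hΦsr] at h
      exact absurd (congrArg Subtype.val h).symm (Dg_ne_Ag _ _)
    · rw [hΦsr, hΦsr] at h
      have := neg_injective (hu_inj (Ag_inj (congrArg Subtype.val h)))
      rw [this]
  have hsurj : Function.Surjective Φ := by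
    rintro ⟨g, hg⟩
    rcases eq_Dg_or_Ag g hg with ⟨a, rfl⟩ | ⟨b, rfl⟩
    · obtain ⟨i, rfl⟩ := hu_surj a
      exact ⟨DihedralGroup.r i, rfl⟩
    · obtain ⟨i, rfl⟩ := hu_surj b
      refine ⟨DihedralGroup.sr (-i), ?_⟩
      rw [hΦsr]
      apply Subtype.ext
      show Ag (u (- -i)) = Ag (u i)
      rw [neg_neg]
  exact ⟨(MulEquiv.ofBijective (MonoidHom.mk' Φ hmul) ⟨hinj, hsurj⟩).symm⟩

end Cfsg.Agent.S0305
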