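import Cfsg.Statements.S0306

set_option autoImplicit false
open Cfsg

namespace Cfsg.Agent.S0306

open Matrix

section field

variable {F : Type*} [Field F] {a b : F}

/-- the quadratic extension -/
abbrev LL (F : Type*) [Field F] (a b : F) : Type _ := QuadraticAlgebra F (-b) a

theorem norm_eq (z : LL F a b) :
    QuadraticAlgebra.norm z = z.re ^ 2 + a * z.re * z.im + b * z.im ^ 2 := by
  rw [QuadraticAlgebra.norm_def]
  ring

theorem fact_of_aniso
    (hab : ∀ z₁ z₂ : F, z₁ ^ 2 + a * z₁ * z₂ + b * z₂ ^ 2 = 0 → z₁ = 0 ∧ z₂ = 0) :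
    Fact (∀ r : F, r ^ 2 ≠ -b + a * r) := by
  refine ⟨fun r hr => ?_⟩
  have := hab r (-1) (by linear_combination hr)
  have h1 : (-1 : F) = 0 := this.2
  simp at h1

variable [Fintype F] [Fact (∀ r : F, r ^ 2 ≠ -b + a * r)]

instance : Finite (LL F a b) := Finite.of_equiv _ (QuadraticAlgebra.equivProd (-b) a).symm

omit [Fact (∀ r : F, r ^ 2 ≠ -b + a * r)] in
theorem card_LL : Nat.card (LL F a b) = Fintype.card F ^ 2 := by
  rw [Nat.card_congr (QuadraticAlgebra.equivProd (-b) a), Nat.card_prod, Nat.card_eq_fintype_card, sq]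

theorem frob_omega :
    (QuadraticAlgebra.omega : LL F a b) ^ Fintype.card F = star (QuadraticAlgebra.omega : LL F a b) ∧
      star (QuadraticAlgebra.omega : LL F a b) ≠ QuadraticAlgebra.omega := by
  set φ := FiniteField.frobeniusAlgHom F (LL F a b) with hφ
  set ω : LL F a b := QuadraticAlgebra.omega with hω
  have hφω : φ ω = ω ^ Fintype.card F := rfl
  have h1 : φ ω * φ ω = (-b) • 1 + a • φ ω := by
    rw [← map_mul, hω, QuadraticAlgebra.omega_mul_omega_eq_add, map_add, map_smul, map_smul, map_one]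
  have h2 : ω * ω = (-b) • 1 + a • ω := QuadraticAlgebra.omega_mul_omega_eq_add
  have h3 : (φ ω - ω) * (φ ω - star ω) = 0 := by
    have h4 : star ω = a • 1 - ω := by
      rw [hω]
      ext <;> simp [QuadraticAlgebra.re_one, QuadraticAlgebra.im_one]
    rw [h4]
    have : (φ ω - ω) * (φ ω - (a • 1 - ω)) = φ ω * φ ω - ω * ω - a • (φ ω - ω) := by
      rw [smul_sub]
      simp only [Algebra.smul_def]
      ring
    rw [this, h1, h2]
    simp only [Algebra.smul_def]
    ring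
  have h5 : φ ω ≠ ω := by
    intro h
    have h6 : φ = AlgHom.id F (LL F a b) := QuadraticAlgebra.algHom_ext h
    have h7 := FiniteField.orderOf_frobeniusAlgHom F (LL F a b)
    rw [QuadraticAlgebra.finrank_eq_two, ← hφ, h6] at h7
    have h8 : orderOf (AlgHom.id F (LL F a b)) = 1 := orderOf_one
    omega
  have h6 : φ ω = star ω := by
    rcases mul_eq_zero.1 h3 with h | h
    · exact absurd (sub_eq_zero.1 h) h5
    · exact sub_eq_zero.1 h
  refine ⟨by rw [← hφω, h6], ?_⟩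
  rw [← h6]
  exact h5

theorem frob_eq_star (z : LL F a b) : z ^ Fintype.card F = star z := by
  have hφ : ∀ w : LL F a b, FiniteField.frobeniusAlgHom F (LL F a b) w = w ^ Fintype.card F :=
    fun w => rfl
  have hz : z = algebraMap F (LL F a b) z.re + z.im • QuadraticAlgebra.omega := by
    rw [← QuadraticAlgebra.mk_eq_add_smul_omega]
  rw [← hφ]
  conv_lhs => rw [hz]
  rw [map_add, map_smul, AlgHom.commutes, hφ, frob_omega.1]
  ext <;> simp [mul_comm]

theorem norm_eq_pow (z : LL F a b) :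
    algebraMap F (LL F a b) (QuadraticAlgebra.norm z) = z ^ (Fintype.card F + 1) := by
  rw [QuadraticAlgebra.algebraMap_norm_eq_mul_star, ← frob_eq_star, pow_succ']

end field

/-- the index type -/
abbrev I2 : Type := (Fin 0 ⊕ Fin 0) ⊕ Fin 2

/-- a 2 × 2 matrix with the given entries -/
def mk2 {F : Type*} [Zero F] (p r s t : F) : Matrix I2 I2 F :=
  Matrix.of (fun i j => Sum.elim (fun _ => 0)
    (fun i' => Sum.elim (fun _ => 0) (fun j' => ![![p, r], ![s, t]] i' j') j) i)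

theorem mk2_00 {F : Type*} [Zero F] (p r s t : F) : mk2 p r s t (Sum.inr 0) (Sum.inr 0) = p := rfl
theorem mk2_01 {F : Type*} [Zero F] (p r s t : F) : mk2 p r s t (Sum.inr 0) (Sum.inr 1) = r := rfl
theorem mk2_10 {F : Type*} [Zero F] (p r s t : F) : mk2 p r s t (Sum.inr 1) (Sum.inr 0) = s := rfl
theorem mk2_11 {F : Type*} [Zero F] (p r s t : F) : mk2 p r s t (Sum.inr 1) (Sum.inr 1) = t := rfl

theorem eq_mk2 {F : Type*} [Zero F] (M : Matrix I2 I2 F) :
    M = mk2 (M (Sum.inr 0) (Sum.inr 0)) (M (Sum.inr 0) (Sum.inr 1)) (M (Sum.inr 1) (Sum.inr 0))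
      (M (Sum.inr 1) (Sum.inr 1)) := by
  ext (i | i) (j | j)
  · exact isEmptyElim i
  · exact isEmptyElim i
  · exact isEmptyElim j
  · fin_cases i <;> fin_cases j <;> rfl

theorem mk2_mul {F : Type*} [Field F] (a b c d a' b' c' d' : F) :
    mk2 a b c d * mk2 a' b' c' d' =
      mk2 (a * a' + b * c') (a * b' + b * d') (c * a' + d * c') (c * b' + d * d') := by
  ext (i | i) (j | j)
  · exact isEmptyElim i
  · exact isEmptyElim i
  · exact isEmptyElim j
  · fin_cases i <;> fin_cases j <;>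
      simp [Matrix.mul_apply, Fintype.sum_sum_type, Fin.sum_univ_two, mk2_00, mk2_01, mk2_10, mk2_11]

theorem mk2_one {F : Type*} [Field F] : (1 : Matrix I2 I2 F) = mk2 1 0 0 1 := by
  ext (i | i) (j | j)
  · exact isEmptyElim i
  · exact isEmptyElim i
  · exact isEmptyElim j
  · fin_cases i <;> fin_cases j <;> simp [mk2_00, mk2_01, mk2_10, mk2_11]

theorem mk2_mulVec_0 {F : Type*} [Field F] (a b c d : F) (v : I2 → F) :
    (mk2 a b c d *ᵥ v) (Sum.inr 0) = a * v (Sum.inr 0) + b * v (Sum.inr 1) := by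
  simp [Matrix.mulVec, dotProduct, Fintype.sum_sum_type, Fin.sum_univ_two, mk2_00, mk2_01]

theorem mk2_mulVec_1 {F : Type*} [Field F] (a b c d : F) (v : I2 → F) :
    (mk2 a b c d *ᵥ v) (Sum.inr 1) = c * v (Sum.inr 0) + d * v (Sum.inr 1) := by
  simp [Matrix.mulVec, dotProduct, Fintype.sum_sum_type, Fin.sum_univ_two, mk2_10, mk2_11]

theorem qf_eq {F : Type*} [Field F] (a b : F) (v : I2 → F) :
    quadFormMinus 0 F a b v =
      v (Sum.inr 0) ^ 2 + a * v (Sum.inr 0) * v (Sum.inr 1) + b * v (Sum.inr 1) ^ 2 := by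
  show (∑ i : Fin 0, v (Sum.inl (Sum.inl i)) * v (Sum.inl (Sum.inr i))) + _ = _
  simp

theorem mem_iso_iff {F : Type*} [Field F] (a b : F) (g : GL I2 F) :
    g ∈ isometryGroup F (quadFormMinus 0 F a b) ↔
      ∀ u : I2 → F, quadFormMinus 0 F a b ((g : Matrix I2 I2 F) *ᵥ u) = quadFormMinus 0 F a b u := by
  constructor
  · intro h u
    exact h u u
  · intro h u _
    exact h u

theorem mem_iso_mk2 {F : Type*} [Field F] (a b : F) (g : GL I2 F) (p r s t : F)
    (hg : (g : Matrix I2 I2 F) = mk2 p r s t) :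
    g ∈ isometryGroup F (quadFormMinus 0 F a b) ↔
      (p ^ 2 + a * p * s + b * s ^ 2 = 1 ∧ r ^ 2 + a * r * t + b * t ^ 2 = b ∧
        2 * p * r + a * (p * t + r * s) + 2 * b * s * t = a) := by
  rw [mem_iso_iff, hg]
  constructor
  · intro h
    have h10 := h (Sum.elim (fun _ => 0) ![1, 0])
    have h01 := h (Sum.elim (fun _ => 0) ![0, 1])
    have h11 := h (Sum.elim (fun _ => 0) ![1, 1])
    rw [qf_eq, qf_eq, mk2_mulVec_0, mk2_mulVec_1] at h10 h01 h11
    simp only [Sum.elim_inr, Matrix.cons_val_zero, Matrix.cons_val_one, mul_one, mul_zero,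
      add_zero, zero_add] at h10 h01 h11
    refine ⟨by linear_combination h10, by linear_combination h01, ?_⟩
    linear_combination h11 - h10 - h01
  · rintro ⟨h1, h2, h3⟩ u
    rw [qf_eq, qf_eq, mk2_mulVec_0, mk2_mulVec_1]
    linear_combination (u (Sum.inr 0)) ^ 2 * h1 + (u (Sum.inr 1)) ^ 2 * h2 +
      u (Sum.inr 0) * u (Sum.inr 1) * h3

section rot

variable {F : Type*} [Field F] {a b : F}

/-- matrix of multiplication by `z` -/
def Rm (z : LL F a b) : Matrix I2 I2 F := mk2 z.re (-b * z.im) z.im (z.re + a * z.im)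

/-- matrix of `w ↦ z * star w` -/
def Sm (z : LL F a b) : Matrix I2 I2 F := mk2 z.re (a * z.re + b * z.im) z.im (-z.re)

theorem Rm_mul_Rm (z w : LL F a b) : Rm z * Rm w = Rm (z * w) := by
  simp only [Rm, mk2_mul, QuadraticAlgebra.re_mul, QuadraticAlgebra.im_mul]
  congr 1 <;> ring

theorem Rm_mul_Sm (z w : LL F a b) : Rm z * Sm w = Sm (z * w) := by
  simp only [Rm, Sm, mk2_mul, QuadraticAlgebra.re_mul, QuadraticAlgebra.im_mul]
  congr 1 <;> ring

theorem Sm_mul_Rm (z w : LL F a b) : Sm z * Rm w = Sm (z * star w) := by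
  simp only [Rm, Sm, mk2_mul, QuadraticAlgebra.re_mul, QuadraticAlgebra.im_mul,
    QuadraticAlgebra.re_star, QuadraticAlgebra.im_star]
  congr 1 <;> ring

theorem Sm_mul_Sm (z w : LL F a b) : Sm z * Sm w = Rm (z * star w) := by
  simp only [Rm, Sm, mk2_mul, QuadraticAlgebra.re_mul, QuadraticAlgebra.im_mul,
    QuadraticAlgebra.re_star, QuadraticAlgebra.im_star]
  congr 1 <;> ring

theorem Rm_one : Rm (1 : LL F a b) = 1 := by
  rw [mk2_one]
  simp [Rm, QuadraticAlgebra.re_one, QuadraticAlgebra.im_one]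

/-- rotations -/
def Rg (u : (LL F a b)ˣ) : GL I2 F where
  val := Rm (u : LL F a b)
  inv := Rm ((u⁻¹ : (LL F a b)ˣ) : LL F a b)
  val_inv := by rw [Rm_mul_Rm, Units.mul_inv, Rm_one]
  inv_val := by rw [Rm_mul_Rm, Units.inv_mul, Rm_one]

/-- reflections -/
def Sg (u : (LL F a b)ˣ) : GL I2 F where
  val := Sm (u : LL F a b)
  inv := Sm (star ((u⁻¹ : (LL F a b)ˣ) : LL F a b))
  val_inv := by rw [Sm_mul_Sm, star_star, Units.mul_inv, Rm_one]
  inv_val := by rw [Sm_mul_Sm, ← star_mul, Units.mul_inv, star_one, Rm_one]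

theorem Rg_val (u : (LL F a b)ˣ) : ((Rg u : GL I2 F) : Matrix I2 I2 F) = Rm (u : LL F a b) := rfl
theorem Sg_val (u : (LL F a b)ˣ) : ((Sg u : GL I2 F) : Matrix I2 I2 F) = Sm (u : LL F a b) := rfl

theorem Rg_mem (u : (LL F a b)ˣ) (hu : QuadraticAlgebra.norm (u : LL F a b) = 1) :
    Rg u ∈ isometryGroup F (quadFormMinus 0 F a b) := by
  rw [mem_iso_mk2 a b _ _ _ _ _ (Rg_val u)]
  rw [norm_eq] at hu
  exact ⟨hu, by linear_combination b * hu, by linear_combination a * hu⟩

theorem Sg_mem (u : (LL F a b)ˣ) (hu : QuadraticAlgebra.norm (u : LL F a b) = 1) :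
    Sg u ∈ isometryGroup F (quadFormMinus 0 F a b) := by
  rw [mem_iso_mk2 a b _ _ _ _ _ (Sg_val u)]
  rw [norm_eq] at hu
  exact ⟨hu, by linear_combination b * hu, by linear_combination a * hu⟩

theorem star_eq_inv (u : (LL F a b)ˣ) (hu : QuadraticAlgebra.norm (u : LL F a b) = 1) :
    star (u : LL F a b) = ((u⁻¹ : (LL F a b)ˣ) : LL F a b) := by
  apply Units.eq_inv_of_mul_eq_one_right
  rw [mul_comm, ← QuadraticAlgebra.algebraMap_norm_eq_mul_star, hu, map_one]

theorem Rg_mul_Rg (u u' : (LL F a b)ˣ) : Rg u * Rg u' = Rg (u * u') := by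
  apply Units.ext
  rw [Units.val_mul, Rg_val, Rg_val, Rg_val, Rm_mul_Rm, Units.val_mul]

theorem Rg_mul_Sg (u u' : (LL F a b)ˣ) : Rg u * Sg u' = Sg (u * u') := by
  apply Units.ext
  rw [Units.val_mul, Rg_val, Sg_val, Sg_val, Rm_mul_Sm, Units.val_mul]

theorem Sg_mul_Rg (u u' : (LL F a b)ˣ) (hu' : QuadraticAlgebra.norm (u' : LL F a b) = 1) :
    Sg u * Rg u' = Sg (u * u'⁻¹) := by
  apply Units.ext
  rw [Units.val_mul, Rg_val, Sg_val, Sg_val, Sm_mul_Rm, Units.val_mul, star_eq_inv u' hu']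

theorem Sg_mul_Sg (u u' : (LL F a b)ˣ) (hu' : QuadraticAlgebra.norm (u' : LL F a b) = 1) :
    Sg u * Sg u' = Rg (u * u'⁻¹) := by
  apply Units.ext
  rw [Units.val_mul, Rg_val, Sg_val, Sg_val, Sm_mul_Sm, Units.val_mul, star_eq_inv u' hu']

theorem Rg_inj {u u' : (LL F a b)ˣ} (h : Rg u = Rg u') : u = u' := by
  have h1 := congrArg (fun g : GL I2 F => (g : Matrix I2 I2 F) (Sum.inr 0) (Sum.inr 0)) h
  have h2 := congrArg (fun g : GL I2 F => (g : Matrix I2 I2 F) (Sum.inr 1) (Sum.inr 0)) h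
  exact Units.ext (QuadraticAlgebra.ext h1 h2)

theorem Sg_inj {u u' : (LL F a b)ˣ} (h : Sg u = Sg u') : u = u' := by
  have h1 := congrArg (fun g : GL I2 F => (g : Matrix I2 I2 F) (Sum.inr 0) (Sum.inr 0)) h
  have h2 := congrArg (fun g : GL I2 F => (g : Matrix I2 I2 F) (Sum.inr 1) (Sum.inr 0)) h
  exact Units.ext (QuadraticAlgebra.ext h1 h2)

variable [Fintype F] [Fact (∀ r : F, r ^ 2 ≠ -b + a * r)]

theorem Rg_ne_Sg (u u' : (LL F a b)ˣ) : Rg u ≠ Sg u' := by
  intro h
  have h1 : (u : LL F a b).re = (u' : LL F a b).re :=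
    congrArg (fun g : GL I2 F => (g : Matrix I2 I2 F) (Sum.inr 0) (Sum.inr 0)) h
  have h2 : (u : LL F a b).im = (u' : LL F a b).im :=
    congrArg (fun g : GL I2 F => (g : Matrix I2 I2 F) (Sum.inr 1) (Sum.inr 0)) h
  have h3 : -b * (u : LL F a b).im = a * (u' : LL F a b).re + b * (u' : LL F a b).im :=
    congrArg (fun g : GL I2 F => (g : Matrix I2 I2 F) (Sum.inr 0) (Sum.inr 1)) h
  have h4 : (u : LL F a b).re + a * (u : LL F a b).im = -(u' : LL F a b).re :=
    congrArg (fun g : GL I2 F => (g : Matrix I2 I2 F) (Sum.inr 1) (Sum.inr 1)) h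
  have h5 : (u : LL F a b) * QuadraticAlgebra.omega = (u : LL F a b) * star QuadraticAlgebra.omega := by
    ext
    · simp only [QuadraticAlgebra.re_mul, QuadraticAlgebra.omega_re, QuadraticAlgebra.omega_im,
        QuadraticAlgebra.re_star, QuadraticAlgebra.im_star]
      linear_combination h3 - a * h1 - b * h2
    · simp only [QuadraticAlgebra.im_mul, QuadraticAlgebra.omega_re, QuadraticAlgebra.omega_im,
        QuadraticAlgebra.re_star, QuadraticAlgebra.im_star]
      linear_combination h4 + h1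
  exact (frob_omega (F := F) (a := a) (b := b)).2 (mul_left_cancel₀ u.ne_zero h5).symm

omit [Fintype F] in
theorem root_lemma (w : LL F a b) (hN : QuadraticAlgebra.norm w = b)
    (hT : 2 * w.re + a * w.im = a) :
    w = QuadraticAlgebra.omega ∨ w = star QuadraticAlgebra.omega := by
  rw [norm_eq] at hN
  have h : (w - QuadraticAlgebra.omega) * (w - star QuadraticAlgebra.omega) = 0 := by
    ext
    · simp only [QuadraticAlgebra.re_mul, QuadraticAlgebra.re_sub,
        QuadraticAlgebra.im_sub, QuadraticAlgebra.omega_re, QuadraticAlgebra.omega_im,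
        QuadraticAlgebra.re_star, QuadraticAlgebra.im_star, QuadraticAlgebra.re_zero]
      linear_combination w.re * hT - hN
    · simp only [QuadraticAlgebra.im_mul, QuadraticAlgebra.re_sub,
        QuadraticAlgebra.im_sub, QuadraticAlgebra.omega_re, QuadraticAlgebra.omega_im,
        QuadraticAlgebra.re_star, QuadraticAlgebra.im_star, QuadraticAlgebra.im_zero]
      linear_combination w.im * hT
  rcases mul_eq_zero.1 h with h | h
  · exact Or.inl (sub_eq_zero.1 h)
  · exact Or.inr (sub_eq_zero.1 h)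

omit [Fintype F] in
theorem eq_Rg_or_Sg (g : GL I2 F) (hg : g ∈ isometryGroup F (quadFormMinus 0 F a b)) :
    (∃ u : (LL F a b)ˣ, QuadraticAlgebra.norm (u : LL F a b) = 1 ∧ g = Rg u) ∨
      (∃ u : (LL F a b)ˣ, QuadraticAlgebra.norm (u : LL F a b) = 1 ∧ g = Sg u) := by
  have hmk := eq_mk2 (g : Matrix I2 I2 F)
  obtain ⟨h1, h2, h3⟩ := (mem_iso_mk2 a b g _ _ _ _ hmk).1 hg
  set p := (g : Matrix I2 I2 F) (Sum.inr 0) (Sum.inr 0) with hp
  set r := (g : Matrix I2 I2 F) (Sum.inr 0) (Sum.inr 1) with hr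
  set s := (g : Matrix I2 I2 F) (Sum.inr 1) (Sum.inr 0) with hs
  set t := (g : Matrix I2 I2 F) (Sum.inr 1) (Sum.inr 1) with ht
  have hn : QuadraticAlgebra.norm (⟨p, s⟩ : LL F a b) = 1 := by
    rw [norm_eq]
    exact h1
  have hunit : IsUnit (⟨p, s⟩ : LL F a b) :=
    QuadraticAlgebra.isUnit_iff_norm_isUnit.2 (by rw [hn]; exact isUnit_one)
  obtain ⟨u, hu⟩ := hunit
  have hnu : QuadraticAlgebra.norm (u : LL F a b) = 1 := by rw [hu]; exact hn
  have hw' : (⟨r, t⟩ : LL F a b) = ((⟨r, t⟩ : LL F a b) * star (u : LL F a b)) * (u : LL F a b) := by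
    rw [mul_assoc, mul_comm (star (u : LL F a b)), ← QuadraticAlgebra.algebraMap_norm_eq_mul_star,
      hnu, map_one, mul_one]
  have hN : QuadraticAlgebra.norm ((⟨r, t⟩ : LL F a b) * star (u : LL F a b)) = b := by
    rw [map_mul, QuadraticAlgebra.norm_star, hnu, mul_one, norm_eq]
    exact h2
  have hT : 2 * ((⟨r, t⟩ : LL F a b) * star (u : LL F a b)).re +
      a * ((⟨r, t⟩ : LL F a b) * star (u : LL F a b)).im = a := by
    rw [hu]
    simp only [QuadraticAlgebra.re_mul, QuadraticAlgebra.im_mul, QuadraticAlgebra.re_star,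
      QuadraticAlgebra.im_star]
    linear_combination h3
  rcases root_lemma _ hN hT with hw | hw
  · left
    refine ⟨u, hnu, Units.ext ?_⟩
    rw [hw, hu] at hw'
    have e1 := congrArg QuadraticAlgebra.re hw'
    have e2 := congrArg QuadraticAlgebra.im hw'
    simp only [QuadraticAlgebra.re_mul, QuadraticAlgebra.im_mul, QuadraticAlgebra.omega_re,
      QuadraticAlgebra.omega_im] at e1 e2
    rw [Rg_val, hmk, hu]
    show mk2 p r s t = mk2 p (-b * s) s (p + a * s)
    rw [e1, e2]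
    congr 1 <;> ring
  · right
    refine ⟨u, hnu, Units.ext ?_⟩
    rw [hw, hu] at hw'
    have e1 := congrArg QuadraticAlgebra.re hw'
    have e2 := congrArg QuadraticAlgebra.im hw'
    simp only [QuadraticAlgebra.re_mul, QuadraticAlgebra.im_mul, QuadraticAlgebra.omega_re,
      QuadraticAlgebra.omega_im, QuadraticAlgebra.re_star, QuadraticAlgebra.im_star] at e1 e2
    rw [Sg_val, hmk, hu]
    show mk2 p r s t = mk2 p (a * p + b * s) s (-p)
    rw [e1, e2]
    congr 1 <;> ring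

/-- the group of norm one elements -/
def UU (F : Type*) [Field F] [Fintype F] (a b : F) : Subgroup (LL F a b)ˣ :=
  (powMonoidHom (Fintype.card F + 1) : (LL F a b)ˣ →* (LL F a b)ˣ).ker

theorem mem_UU_iff (u : (LL F a b)ˣ) :
    u ∈ UU F a b ↔ QuadraticAlgebra.norm (u : LL F a b) = 1 := by
  show (powMonoidHom (Fintype.card F + 1) : (LL F a b)ˣ →* (LL F a b)ˣ) u = 1 ↔ _
  rw [powMonoidHom_apply, ← Units.val_inj, Units.val_pow_eq_pow_val, ← norm_eq_pow, Units.val_one,
    ← map_one (algebraMap F (LL F a b))]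
  exact QuadraticAlgebra.algebraMap_inj

theorem card_UU : Nat.card (UU F a b) = Fintype.card F + 1 := by
  have h1 : Nat.card (UU F a b) = (Nat.card (LL F a b)ˣ).gcd (Fintype.card F + 1) :=
    IsCyclic.card_powMonoidHom_ker (LL F a b)ˣ (Fintype.card F + 1)
  rw [h1, Nat.card_units, card_LL]
  apply Nat.gcd_eq_right
  have hq : 0 < Fintype.card F := Fintype.card_pos
  obtain ⟨k, hk⟩ : ∃ k, Fintype.card F = k + 1 := ⟨Fintype.card F - 1, by omega⟩
  rw [hk]
  refine ⟨k, ?_⟩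
  have : (k + 1) ^ 2 = (k + 1 + 1) * k + 1 := by ring
  omega

end rot

/-- GO^-_2(q) is dihedral of order 2(q+1). -/
theorem result {F : Type*} [Field F] [Fintype F] {q : ℕ} (hF : Fintype.card F = q) (a b : F) (hab : ∀ z₁ z₂ : F, z₁ ^ 2 + a * z₁ * z₂ + b * z₂ ^ 2 = 0 → z₁ = 0 ∧ z₂ = 0) : Nonempty (Cfsg.isometryGroup F (Cfsg.quadFormMinus 0 F a b) ≃* DihedralGroup (q + 1)) := by
  classical
  have : Fact (∀ r : F, r ^ 2 ≠ -b + a * r) := fact_of_aniso hab
  have hcardU : Nat.card (UU F a b) = q + 1 := by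
    rw [card_UU, hF]
  obtain ⟨ε⟩ : Nonempty (Multiplicative (ZMod (q + 1)) ≃* UU F a b) := by
    have : ∀ k, Nat.card (UU F a b) = k → Nonempty (Multiplicative (ZMod k) ≃* UU F a b) := by
      rintro k rfl
      exact ⟨zmodCyclicMulEquiv inferInstance⟩
    exact this _ hcardU
  let u : ZMod (q + 1) → (LL F a b)ˣ := fun i => (ε (Multiplicative.ofAdd i) : (LL F a b)ˣ)
  have hu_norm : ∀ i, QuadraticAlgebra.norm ((u i : (LL F a b)ˣ) : LL F a b) = 1 := fun i =>
    (mem_UU_iff _).1 (ε (Multiplicative.ofAdd i)).2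
  have hu_add : ∀ i j, u (i + j) = u i * u j := fun i j => by
    show ((ε (Multiplicative.ofAdd (i + j)) : UU F a b) : (LL F a b)ˣ) = _
    rw [ofAdd_add, map_mul]
    rfl
  have hu_neg : ∀ i, u (-i) = (u i)⁻¹ := fun i => by
    show ((ε (Multiplicative.ofAdd (-i)) : UU F a b) : (LL F a b)ˣ) = _
    rw [ofAdd_neg, map_inv]
    rfl
  have hu_inj : Function.Injective u := fun i j h =>
    Multiplicative.ofAdd.injective (ε.injective (Subtype.ext h))
  have hu_surj : ∀ x : (LL F a b)ˣ, QuadraticAlgebra.norm (x : LL F a b) = 1 → ∃ i, u i = x := by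
    intro x hx
    obtain ⟨y, hy⟩ := ε.surjective ⟨x, (mem_UU_iff x).2 hx⟩
    refine ⟨Multiplicative.toAdd y, ?_⟩
    show ((ε (Multiplicative.ofAdd (Multiplicative.toAdd y)) : UU F a b) : (LL F a b)ˣ) = x
    rw [ofAdd_toAdd, hy]
  let Φ : DihedralGroup (q + 1) → isometryGroup F (quadFormMinus 0 F a b) := fun x =>
    match x with
    | DihedralGroup.r i => ⟨Rg (u i), Rg_mem _ (hu_norm i)⟩
    | DihedralGroup.sr i => ⟨Sg (u (-i)), Sg_mem _ (hu_norm (-i))⟩
  have hΦr : ∀ i, Φ (DihedralGroup.r i) = ⟨Rg (u i), Rg_mem _ (hu_norm i)⟩ := fun _ => rfl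
  have hΦsr : ∀ i, Φ (DihedralGroup.sr i) = ⟨Sg (u (-i)), Sg_mem _ (hu_norm (-i))⟩ := fun _ => rfl
  have hmul : ∀ x y, Φ (x * y) = Φ x * Φ y := by
    intro x y
    rcases x with i | i <;> rcases y with j | j
    · rw [DihedralGroup.r_mul_r, hΦr, hΦr, hΦr]
      apply Subtype.ext
      show Rg (u (i + j)) = Rg (u i) * Rg (u j)
      rw [Rg_mul_Rg, hu_add]
    · rw [DihedralGroup.r_mul_sr, hΦr, hΦsr, hΦsr]
      apply Subtype.ext
      show Sg (u (-(j - i))) = Rg (u i) * Sg (u (-j))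
      rw [Rg_mul_Sg, ← hu_add]
      congr 2
      ring
    · rw [DihedralGroup.sr_mul_r, hΦr, hΦsr, hΦsr]
      apply Subtype.ext
      show Sg (u (-(i + j))) = Sg (u (-i)) * Rg (u j)
      rw [Sg_mul_Rg _ _ (hu_norm j), ← hu_neg, ← hu_add]
      congr 2
      ring
    · rw [DihedralGroup.sr_mul_sr, hΦr, hΦsr, hΦsr]
      apply Subtype.ext
      show Rg (u (j - i)) = Sg (u (-i)) * Sg (u (-j))
      rw [Sg_mul_Sg _ _ (hu_norm (-j)), ← hu_neg, ← hu_add]
      congr 2
      ring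
  have hinj : Function.Injective Φ := by
    intro x y h
    rcases x with i | i <;> rcases y with j | j
    · rw [hΦr, hΦr] at h
      have := hu_inj (Rg_inj (congrArg Subtype.val h))
      rw [this]
    · rw [hΦr, hΦsr] at h
      exact absurd (congrArg Subtype.val h) (Rg_ne_Sg _ _)
    · rw [hΦr, hΦsr] at h
      exact absurd (congrArg Subtype.val h).symm (Rg_ne_Sg _ _)
    · rw [hΦsr, hΦsr] at h
      have := neg_injective (hu_inj (Sg_inj (congrArg Subtype.val h)))
      rw [this]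
  have hsurj : Function.Surjective Φ := by
    rintro ⟨g, hg⟩
    rcases eq_Rg_or_Sg g hg with ⟨x, hx, rfl⟩ | ⟨x, hx, rfl⟩
    · obtain ⟨i, rfl⟩ := hu_surj x hx
      exact ⟨DihedralGroup.r i, rfl⟩
    · obtain ⟨i, rfl⟩ := hu_surj x hx
      refine ⟨DihedralGroup.sr (-i), ?_⟩
      rw [hΦsr]
      apply Subtype.ext
      show Sg (u (- -i)) = Sg (u i)
      rw [neg_neg]
  exact ⟨(MulEquiv.ofBijective (MonoidHom.mk' Φ hmul) ⟨hinj, hsurj⟩).symm⟩

end Cfsg.Agent.S0306
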