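import Cfsg.Statements.S0307

set_option autoImplicit false
open Cfsg

namespace Cfsg.Agent.S0307

open scoped MatrixGroups

set_option backward.isDefEq.respectTransparency.types false in
theorem mem_range_of_det {F : Type*} [Field F] {n : ℕ} (A : GL (Fin n) F) (k : Fˣ)
    (hk : k ^ n = Matrix.GeneralLinearGroup.det A) :
    Matrix.ProjGenLinGroup.mk A ∈ (Matrix.ProjectiveSpecialLinearGroup.toPGL :
      Matrix.ProjectiveSpecialLinearGroup (Fin n) F →* Matrix.ProjGenLinGroup (Fin n) F).range := by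
  obtain ⟨r, hr⟩ : ∃ r : Fˣ, r ^ Fintype.card (Fin n) * Matrix.GeneralLinearGroup.det A = 1 := by
    refine ⟨k⁻¹, ?_⟩
    rw [Fintype.card_fin, ← hk, inv_pow, inv_mul_cancel]
  simp only [Units.ext_iff, Units.val_mul, Units.val_pow_eq_pow_val,
    Matrix.GeneralLinearGroup.val_det_apply, ← Matrix.det_smul A.1 r.1, Units.val_one] at hr
  refine ⟨QuotientGroup.mk ⟨r.1 • A.1, hr⟩, ?_⟩
  simp only [Matrix.ProjectiveSpecialLinearGroup.toPGL_mk, Matrix.ProjGenLinGroup.mk_eq_mk_iff]
  refine ⟨r⁻¹, Units.ext ?_⟩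
  simp only [Units.val_mul, Matrix.SpecialLinearGroup.coe_GL_coe_matrix,
    Matrix.GeneralLinearGroup.coe_scalar]
  simp [← Matrix.mul_smul, ← Matrix.diagonal_smul, Pi.smul_def, smul_eq_mul]

/-- PSL_n(q) is normal in PGL_n(q) with cyclic quotient of order gcd(n, q-1): the image of the natural map PSL_n → PGL_n is the kernel of a surjective homomorphism onto the cyclic group of that order. -/
theorem result {F : Type*} [Field F] [Fintype F] {q : ℕ} (hF : Fintype.card F = q) (n : ℕ) (hn : 1 ≤ n) : ∃ g : Matrix.ProjGenLinGroup (Fin n) F →* Multiplicative (ZMod (Nat.gcd n (q - 1))), Function.Surjective g ∧ g.ker = (Matrix.ProjectiveSpecialLinearGroup.toPGL : Matrix.ProjectiveSpecialLinearGroup (Fin n) F →* Matrix.ProjGenLinGroup (Fin n) F).range := by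
  classical
  have : Nonempty (Fin n) := ⟨⟨0, hn⟩⟩
  let H : Subgroup Fˣ := (powMonoidHom n : Fˣ →* Fˣ).range
  have hcardU : Nat.card Fˣ = q - 1 := by
    rw [Nat.card_eq_fintype_card, Fintype.card_units, hF]
  have hidx : H.index = Nat.gcd n (q - 1) := by
    rw [IsCyclic.index_powMonoidHom_range, hcardU, Nat.gcd_comm]
  have hQcyc : IsCyclic (Fˣ ⧸ H) :=
    isCyclic_of_surjective (QuotientGroup.mk' H) (QuotientGroup.mk'_surjective H)
  have hQcard : Nat.card (Fˣ ⧸ H) = Nat.gcd n (q - 1) := by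
    rw [← hidx]; rfl
  obtain ⟨e⟩ : Nonempty (Fˣ ⧸ H ≃* Multiplicative (ZMod (Nat.gcd n (q - 1)))) := by
    have : ∀ k, Nat.card (Fˣ ⧸ H) = k → Nonempty (Fˣ ⧸ H ≃* Multiplicative (ZMod k)) := by
      rintro k rfl
      exact ⟨(zmodCyclicMulEquiv hQcyc).symm⟩
    exact this _ hQcard
  let f : GL (Fin n) F →* Multiplicative (ZMod (Nat.gcd n (q - 1))) :=
    (e.toMonoidHom.comp (QuotientGroup.mk' H)).comp Matrix.GeneralLinearGroup.det
  have hfA : ∀ A : GL (Fin n) F, f A = e (QuotientGroup.mk' H (Matrix.GeneralLinearGroup.det A)) :=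
    fun _ => rfl
  have hf : f.comp (Matrix.GeneralLinearGroup.scalar (Fin n)) = 1 := by
    ext u
    show f (Matrix.GeneralLinearGroup.scalar (Fin n) u) = 1
    rw [hfA, Matrix.GeneralLinearGroup.det_scalar, Fintype.card_fin]
    have : (QuotientGroup.mk' H (u ^ n)) = 1 := (QuotientGroup.eq_one_iff _).2 ⟨u, rfl⟩
    rw [this, map_one]
  refine ⟨Matrix.ProjGenLinGroup.lift f hf, ?_, ?_⟩
  · intro z
    obtain ⟨y, rfl⟩ := e.surjective z
    obtain ⟨u, rfl⟩ := QuotientGroup.mk'_surjective H y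
    obtain ⟨A, rfl⟩ := Matrix.GeneralLinearGroup.det_surjective (n := Fin n) u
    exact ⟨Matrix.ProjGenLinGroup.mk A, rfl⟩
  · ext x
    induction x using Matrix.ProjGenLinGroup.induction_on with | mk A => ?_
    rw [MonoidHom.mem_ker, Matrix.ProjGenLinGroup.lift_mk, hfA]
    constructor
    · intro h
      have h1 : QuotientGroup.mk' H (Matrix.GeneralLinearGroup.det A) = 1 := by
        apply e.injective
        rw [map_one]; exact h
      obtain ⟨k, hk⟩ := (QuotientGroup.eq_one_iff _).1 h1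
      exact mem_range_of_det A k hk
    · rintro ⟨y, hy⟩
      induction y using QuotientGroup.induction_on with | H B => ?_
      rw [Matrix.ProjectiveSpecialLinearGroup.toPGL_mk] at hy
      obtain ⟨u, hu⟩ := Matrix.ProjGenLinGroup.mk_eq_mk_iff.1 hy
      have hdet : Matrix.GeneralLinearGroup.det A = u ^ n := by
        rw [← hu, map_mul, Matrix.GeneralLinearGroup.det_scalar, Fintype.card_fin]
        have : Matrix.GeneralLinearGroup.det (Matrix.SpecialLinearGroup.toGL B) = 1 := by
          ext; simp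
        rw [this, one_mul]
      rw [hdet]
      have : (QuotientGroup.mk' H (u ^ n)) = 1 := (QuotientGroup.eq_one_iff _).2 ⟨u, rfl⟩
      rw [this, map_one]

end Cfsg.Agent.S0307
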