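import Cfsg.Statements.S0316
import Cfsg.Agent.Lib.Helper8.BN3

set_option autoImplicit false
open Cfsg

namespace Cfsg.Agent.S0316

open Cfsg.Agent.Lib.Helper8 in
/-- The map `J ↦ P_J` is a lattice isomorphism from the power set of the set of distinguished generators onto the
subgroups containing `B`. -/
theorem result {G : Type*} [Group G] (P : Cfsg.BNPair G) :
    ∃ e : Set P.S ≃o {M : Subgroup G // P.B ≤ M},
      ∀ J : Set P.S, ((e J : {M : Subgroup G // P.B ≤ M}) : Subgroup G) = P.parabolic (Subtype.val '' J) := by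
  let f : Set P.S → {M : Subgroup G // P.B ≤ M} :=
    fun J => ⟨P.parabolic (Subtype.val '' J), B_le_parabolic P _⟩
  have hsub : ∀ J : Set P.S, Subtype.val '' J ⊆ P.S := by
    rintro J _ ⟨x, _, rfl⟩
    exact x.2
  have hle : ∀ J K : Set P.S, f J ≤ f K ↔ J ≤ K := by
    intro J K
    constructor
    · intro h x hx
      have h' : P.parabolic (Subtype.val '' J) ≤ P.parabolic (Subtype.val '' K) := h
      obtain ⟨y, hy, hyx⟩ := subset_of_parabolic_le P (hsub J) (hsub K) h' ⟨x, hx, rfl⟩
      rwa [← Subtype.ext hyx]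
    · intro h
      exact parabolic_mono P (Set.image_mono h)
  have hsurj : Function.Surjective f := by
    rintro ⟨M, hM⟩
    refine ⟨{x : P.S | (x : G) ∈ M}, ?_⟩
    apply Subtype.ext
    show P.parabolic (Subtype.val '' {x : P.S | (x : G) ∈ M}) = M
    have hset : Subtype.val '' {x : P.S | (x : G) ∈ M} = {σ | σ ∈ P.S ∧ σ ∈ M} := by
      ext σ
      constructor
      · rintro ⟨x, hx, rfl⟩
        exact ⟨x.2, hx⟩
      · rintro ⟨h1, h2⟩
        exact ⟨⟨σ, h1⟩, h2, rfl⟩
    rw [hset]
    exact (eq_parabolic P M hM).symm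
  exact ⟨RelIso.ofSurjective (OrderEmbedding.ofMapLEIff f hle) hsurj, fun J => rfl⟩

end Cfsg.Agent.S0316
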