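import Cfsg.Statements.S0317
import Cfsg.Agent.Lib.Helper8.BN3

set_option autoImplicit false
open Cfsg

namespace Cfsg.Agent.S0317

/-- The distinguished generators of the Weyl group of a (B,N)-pair are a minimal generating set: none of the
representatives lies in the subgroup generated by the remaining ones together with `B ⊓ N`. -/
theorem result {G : Type*} [Group G] (P : Cfsg.BNPair G) {s : G}
    (hs : s ∈ P.S) : s ∉ Subgroup.closure (P.S \ {s}) ⊔ (P.B ⊓ P.N) := by
  exact Cfsg.Agent.Lib.Helper8.not_mem_closure_diff P hs

end Cfsg.Agent.S0317
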