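import Cfsg.Statements.S0322
import Cfsg.Agent.Lib.Helper8.BN3

set_option autoImplicit false
open Cfsg

namespace Cfsg.Agent.S0322

open Cfsg.Agent.Lib.Helper8 in
/-- A group with a (B,N)-pair of rank one acts doubly transitively on the left cosets of `B`. -/
theorem result {G : Type*} [Group G] (P : Cfsg.BNPair G) (h : P.rank = 1) : MulAction.IsMultiplyPretransitive G (G ⧸ P.B) 2 := by
  have h1 : Nat.card P.S = 1 := h
  obtain ⟨hsub, ⟨⟨s, hs⟩⟩⟩ := Nat.card_eq_one_iff_unique.1 h1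
  have hS : P.S = {s} := by
    ext x
    constructor
    · intro hx
      exact congrArg Subtype.val (Subsingleton.elim (⟨x, hx⟩ : P.S) ⟨s, hs⟩)
    · intro hx
      rw [Set.mem_singleton_iff.1 hx]; exact hs
  have hall : ∀ g : G, g ∈ P.B ∨ g ∈ dc P s := by
    intro g
    have hg : g ∈ (P.parabolic P.S : Set G) := by
      rw [parabolic_S]; trivial
    rw [hS, parabolic_singleton_coe P hs] at hg
    exact hg
  rw [MulAction.is_two_pretransitive_iff]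
  intro a b c d hab hcd
  obtain ⟨x, rfl⟩ := QuotientGroup.mk_surjective a
  obtain ⟨y, rfl⟩ := QuotientGroup.mk_surjective b
  obtain ⟨z, rfl⟩ := QuotientGroup.mk_surjective c
  obtain ⟨u, rfl⟩ := QuotientGroup.mk_surjective d
  have hxy : x⁻¹ * y ∈ dc P s := by
    rcases hall (x⁻¹ * y) with h | h
    · exact absurd (QuotientGroup.eq.2 h) hab
    · exact h
  have hzu : z⁻¹ * u ∈ dc P s := by
    rcases hall (z⁻¹ * u) with h | h
    · exact absurd (QuotientGroup.eq.2 h) hcd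
    · exact h
  obtain ⟨b₁, hb₁, b₂, hb₂, e1⟩ := mem_dc.1 hxy
  obtain ⟨b₃, hb₃, b₄, hb₄, e2⟩ := mem_dc.1 hzu
  have hy : y = x * (b₁ * s * b₂) := eq_mul_of_inv_mul_eq e1
  have hu : u = z * (b₃ * s * b₄) := eq_mul_of_inv_mul_eq e2
  subst hy hu
  refine ⟨z * b₃ * b₁⁻¹ * x⁻¹, ?_, ?_⟩
  · show ((z * b₃ * b₁⁻¹ * x⁻¹ * x : G) : G ⧸ P.B) = (z : G ⧸ P.B)
    rw [QuotientGroup.eq]
    have e : (z * b₃ * b₁⁻¹ * x⁻¹ * x)⁻¹ * z = b₁ * b₃⁻¹ := by group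
    rw [e]
    exact P.B.mul_mem hb₁ (P.B.inv_mem hb₃)
  · show ((z * b₃ * b₁⁻¹ * x⁻¹ * (x * (b₁ * s * b₂)) : G) : G ⧸ P.B) = ((z * (b₃ * s * b₄) : G) : G ⧸ P.B)
    rw [QuotientGroup.eq]
    have e : (z * b₃ * b₁⁻¹ * x⁻¹ * (x * (b₁ * s * b₂)))⁻¹ * (z * (b₃ * s * b₄)) = b₂⁻¹ * b₄ := by group
    rw [e]
    exact P.B.mul_mem (P.B.inv_mem hb₂) hb₄

end Cfsg.Agent.S0322
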