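import Cfsg.Statements.S0323

set_option autoImplicit false
open Cfsg

namespace Cfsg.Agent.S0323

open scoped Pointwise

theorem mem_stab_pair {G Ω : Type*} [Group G] [MulAction G Ω] {x y : Ω} (hxy : x ≠ y) (g : G) :
    g ∈ MulAction.stabilizer G ({x, y} : Set Ω) ↔
      (g • x = x ∧ g • y = y) ∨ (g • x = y ∧ g • y = x) := by
  rw [MulAction.mem_stabilizer_iff]
  constructor
  · intro h
    have hx : g • x ∈ ({x, y} : Set Ω) := by
      rw [← h]; exact Set.smul_mem_smul_set (by simp)
    have hy : g • y ∈ ({x, y} : Set Ω) := by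
      rw [← h]; exact Set.smul_mem_smul_set (by simp)
    have hne : g • x ≠ g • y := fun e => hxy (MulAction.injective g e)
    simp only [Set.mem_insert_iff, Set.mem_singleton_iff] at hx hy
    rcases hx with hx | hx <;> rcases hy with hy | hy
    · exact absurd (hx.trans hy.symm) hne
    · exact Or.inl ⟨hx, hy⟩
    · exact Or.inr ⟨hx, hy⟩
    · exact absurd (hx.trans hy.symm) hne
  · rintro (⟨h1, h2⟩ | ⟨h1, h2⟩)
    · rw [Set.smul_set_insert, Set.smul_set_singleton, h1, h2]
    · rw [Set.smul_set_insert, Set.smul_set_singleton, h1, h2, Set.pair_comm]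

theorem mem_dc_of_ne {G Ω : Type*} [Group G] [MulAction G Ω]
    (h2 : ∀ {a b c d : Ω}, a ≠ b → c ≠ d → ∃ g : G, g • a = c ∧ g • b = d) {x : Ω} {g m : G}
    (hm : m • x ≠ x) (hg : g • x ≠ x) :
    g ∈ DoubleCoset.doubleCoset m (MulAction.stabilizer G x : Set G) (MulAction.stabilizer G x) := by
  obtain ⟨b, hbx, hbm⟩ := h2 (Ne.symm hm) (Ne.symm hg)
  rw [DoubleCoset.mem_doubleCoset]
  refine ⟨b, hbx, (b * m)⁻¹ * g, ?_, by group⟩
  show ((b * m)⁻¹ * g) • x = x
  rw [mul_smul, inv_smul_eq_iff, mul_smul, hbm]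

theorem mem_dc_of_eq {G Ω : Type*} [Group G] [MulAction G Ω] {x : Ω} {g m : G}
    (hm : m • x = x) (hg : g • x = x) :
    g ∈ DoubleCoset.doubleCoset m (MulAction.stabilizer G x : Set G) (MulAction.stabilizer G x) := by
  rw [DoubleCoset.mem_doubleCoset]
  refine ⟨g * m⁻¹, ?_, 1, Subgroup.one_mem _, by group⟩
  show (g * m⁻¹) • x = x
  rw [mul_smul, inv_smul_eq_iff.2 hm.symm, hg]

/-- A doubly transitive action on a set with at least three points yields a (B,N)-pair of rank one:
`B` is the stabiliser of a point `x`, `N` the setwise stabiliser of a pair `{x, y}`. -/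
theorem result {G Ω : Type*} [Group G] [MulAction G Ω]
    (h2 : MulAction.IsMultiplyPretransitive G Ω 2) {x y z : Ω} (hxy : x ≠ y) (hyz : y ≠ z) (hxz : x ≠ z) :
    ∃ P : Cfsg.BNPair G, P.B = MulAction.stabilizer G x ∧
      P.N = MulAction.stabilizer G ({x, y} : Set Ω) ∧ P.rank = 1 := by
  rw [MulAction.is_two_pretransitive_iff] at h2
  obtain ⟨s, hsx, hsy⟩ := h2 hxy hxy.symm
  have hsN : s ∈ MulAction.stabilizer G ({x, y} : Set Ω) :=
    (mem_stab_pair hxy s).2 (Or.inr ⟨hsx, hsy⟩)
  have hsix : s⁻¹ • y = x := by rw [inv_smul_eq_iff, hsx]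
  have hsiy : s⁻¹ • x = y := by rw [inv_smul_eq_iff, hsy]
  refine ⟨{ B := MulAction.stabilizer G x
            N := MulAction.stabilizer G ({x, y} : Set Ω)
            S := {s}
            sup_eq_top := ?_
            conj_mem := ?_
            subset := ?_
            sq_mem := ?_
            inj := ?_
            closure_sup := ?_
            mul_mem_union := ?_
            conj_ne := ?_ }, rfl, rfl, ?_⟩
  · -- sup_eq_top
    rw [eq_top_iff]
    intro g _
    by_cases hg : g • x = x
    · exact (le_sup_left : MulAction.stabilizer G x ≤ _) hg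
    · obtain ⟨b, hbx, hbg⟩ := h2 (Ne.symm hg) hxy
      have h1 : (s⁻¹ * b * g) ∈ MulAction.stabilizer G x := by
        show (s⁻¹ * b * g) • x = x
        rw [mul_smul, mul_smul, hbg, hsix]
      have e : g = b⁻¹ * s * (s⁻¹ * b * g) := by group
      rw [e]
      refine Subgroup.mul_mem _ (Subgroup.mul_mem _ ?_ ?_) ?_
      · exact (le_sup_left : MulAction.stabilizer G x ≤ _) (Subgroup.inv_mem _ hbx)
      · exact (le_sup_right : MulAction.stabilizer G ({x, y} : Set Ω) ≤ _) hsN
      · exact (le_sup_left : MulAction.stabilizer G x ≤ _) h1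
  · -- conj_mem
    intro n hn t ht
    obtain ⟨htB, htN⟩ := Subgroup.mem_inf.1 ht
    have htx : t • x = x := htB
    have hty : t • y = y := by
      rcases (mem_stab_pair hxy t).1 htN with ⟨_, h⟩ | ⟨h, _⟩
      · exact h
      · exact absurd (htx.symm.trans h) hxy
    have hn' := (mem_stab_pair hxy n⁻¹).1 (Subgroup.inv_mem _ hn)
    show (n * t * n⁻¹) • x = x
    rw [mul_smul, mul_smul]
    rcases hn' with ⟨h, _⟩ | ⟨h, _⟩
    · rw [h, htx]
      exact (inv_smul_eq_iff.1 h).symm
    · rw [h, hty]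
      exact (inv_smul_eq_iff.1 h).symm
  · -- subset
    intro s' hs'
    rw [Set.mem_singleton_iff.1 hs']
    exact hsN
  · -- sq_mem
    intro s' hs'
    rw [Set.mem_singleton_iff.1 hs']
    show (s * s) • x = x
    rw [mul_smul, hsx, hsy]
  · -- inj
    intro s₁ hs₁ s₂ hs₂ _
    rw [Set.mem_singleton_iff.1 hs₁, Set.mem_singleton_iff.1 hs₂]
  · -- closure_sup
    apply le_antisymm
    · refine sup_le ?_ inf_le_right
      rw [Subgroup.closure_le]
      intro s' hs'
      rw [Set.mem_singleton_iff.1 hs']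
      exact hsN
    · intro n hn
      rcases (mem_stab_pair hxy n).1 hn with ⟨h1, _⟩ | ⟨h1, h1'⟩
      · exact (le_sup_right : MulAction.stabilizer G x ⊓ MulAction.stabilizer G ({x, y} : Set Ω) ≤ _)
          (Subgroup.mem_inf.2 ⟨h1, hn⟩)
      · have e : n = s * (s⁻¹ * n) := by group
        rw [e]
        refine Subgroup.mul_mem _ ?_ ?_
        · exact (le_sup_left : Subgroup.closure {s} ≤ _) (Subgroup.subset_closure rfl)
        · refine (le_sup_right : MulAction.stabilizer G x ⊓ MulAction.stabilizer G ({x, y} : Set Ω) ≤ _)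
            (Subgroup.mem_inf.2 ⟨?_, Subgroup.mul_mem _ (Subgroup.inv_mem _ hsN) hn⟩)
          show (s⁻¹ * n) • x = x
          rw [mul_smul, h1, hsix]
  · -- mul_mem_union
    intro s' hs' n hn b hb
    rw [Set.mem_singleton_iff.1 hs']
    have hbx : b • x = x := hb
    rcases (mem_stab_pair hxy n).1 hn with ⟨h1, _⟩ | ⟨h1, h1'⟩
    · left
      apply mem_dc_of_ne h2
      · rw [mul_smul, h1, hsx]; exact hxy.symm
      · rw [mul_smul, mul_smul, h1, hbx, hsx]; exact hxy.symm
    · by_cases hg : (s * b * n) • x = x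
      · left
        apply mem_dc_of_eq _ hg
        rw [mul_smul, h1, hsy]
      · right
        apply mem_dc_of_ne h2 _ hg
        rw [h1]; exact hxy.symm
  · -- conj_ne
    intro s' hs'
    rw [Set.mem_singleton_iff.1 hs']
    intro himg
    obtain ⟨b, hbx, hby⟩ := h2 hxy hxz
    have hmem : s * b * s ∈ (MulAction.stabilizer G x : Set G) := by
      rw [← himg]
      exact ⟨b, hbx, rfl⟩
    have h3 : (s * b * s) • x = x := hmem
    rw [mul_smul, mul_smul, hsx, hby] at h3
    have : s • z = s • y := h3.trans hsy.symm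
    exact hyz (MulAction.injective s this).symm
  · -- rank
    show Nat.card ({s} : Set G) = 1
    simp

end Cfsg.Agent.S0323
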