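import Cfsg.Statements.S0326

set_option autoImplicit false
open Cfsg

namespace Cfsg.Agent.S0326

/-- The Suzuki–Tits ovoid over a finite field with `q` elements has `q² + 1` points. -/
theorem result {F : Type*} [Field F] [Fintype F] (m : ℕ) :
    Nat.card (Cfsg.suzukiOvoid F m) = Fintype.card F ^ 2 + 1 := by
  classical
  let vec : F × F → Fin 4 → F := fun p =>
    ![p.1 * p.2 + p.1 ^ (2 ^ (m + 1) + 2) + p.2 ^ (2 ^ (m + 1)), p.2, p.1, 1]
  have hvec : ∀ p, vec p ≠ 0 := fun p h => by
    have := congrFun h 3
    simp [vec] at this
  have h0 : (![1, 0, 0, 0] : Fin 4 → F) ≠ 0 := fun h => by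
    have := congrFun h 0
    simp at this
  let f : Option (F × F) → Cfsg.suzukiOvoid F m := fun o =>
    match o with
    | none => ⟨Projectivization.mk F ![1, 0, 0, 0] h0, ⟨_, h0, rfl, Or.inl rfl⟩⟩
    | some p => ⟨Projectivization.mk F (vec p) (hvec p), ⟨_, hvec p, rfl, Or.inr ⟨p.1, p.2, rfl⟩⟩⟩
  have hbij : Function.Bijective f := by
    constructor
    · intro o o' h
      rcases o with _ | p <;> rcases o' with _ | p'
      · rfl
      · exfalso
        have h' := congrArg Subtype.val h
        simp only [f] at h'
        rw [Projectivization.mk_eq_mk_iff] at h'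
        obtain ⟨a, ha⟩ := h'
        have h3 := congrFun ha 3
        simp [vec, Units.smul_def] at h3
      · exfalso
        have h' := congrArg Subtype.val h
        simp only [f] at h'
        rw [Projectivization.mk_eq_mk_iff] at h'
        obtain ⟨a, ha⟩ := h'
        have h3 := congrFun ha 3
        simp [vec] at h3
      · have h' := congrArg Subtype.val h
        simp only [f] at h'
        rw [Projectivization.mk_eq_mk_iff] at h'
        obtain ⟨a, ha⟩ := h'
        have h3 := congrFun ha 3
        have h2 := congrFun ha 2
        have h1 := congrFun ha 1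
        simp [vec, Units.smul_def] at h3 h2 h1
        rw [h3] at h2 h1
        simp at h2 h1
        congr 1
        exact Prod.ext h2.symm h1.symm
    · rintro ⟨pt, v, hv, rfl, h⟩
      rcases h with rfl | ⟨x, y, rfl⟩
      · exact ⟨none, rfl⟩
      · exact ⟨some (x, y), rfl⟩
  rw [← Nat.card_congr (Equiv.ofBijective f hbij)]
  simp [Nat.card_eq_fintype_card, Fintype.card_option, Fintype.card_prod, sq]

end Cfsg.Agent.S0326
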