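import Cfsg.Statements.S0327
import Cfsg.Agent.Lib.Helper8.Sz7

set_option autoImplicit false
open Cfsg

namespace Cfsg.Agent.S0327

open Cfsg.Agent.Lib.Helper8.Sz

/-- The Suzuki group (`m ≥ 1`) is a Zassenhaus group on the `q² + 1` points of the Suzuki–Tits ovoid. -/
theorem result {F : Type*} [Field F] [Fintype F] {m : ℕ} (hm : 1 ≤ m)
    (hF : Fintype.card F = 2 ^ (2 * m + 1)) :
    Cfsg.IsZassenhausGroup (Cfsg.Sz F m) (Cfsg.suzukiOvoid F m) := by
  refine ⟨?_, ?_, ?_, ?_, ?_⟩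
  · -- faithful
    refine ⟨fun {g₁ g₂} h => ?_⟩
    have h1 : (g₂⁻¹ * g₁).1 = 1 := by
      apply eq_one_of_fix hm hF (g₂⁻¹ * g₁).2
      intro p hp
      have h2 := congrArg Subtype.val (h ⟨p, hp⟩)
      have h3 : g₁.1 • p = g₂.1 • p := h2
      show (g₂.1⁻¹ * g₁.1) • p = p
      rw [mul_smul, h3, inv_smul_smul]
    have h4 : g₂⁻¹ * g₁ = 1 := Subtype.ext h1
    exact (inv_mul_eq_one.1 h4).symm
  · -- doubly transitive
    rw [MulAction.is_two_pretransitive_iff]
    intro a b c d hab hcd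
    obtain ⟨g, hg, h1, h2⟩ := exists_smul_pair' hF a.2 b.2 (fun h => hab (Subtype.ext h)) c.2 d.2
      (fun h => hcd (Subtype.ext h))
    exact ⟨⟨g, hg⟩, Subtype.ext h1, Subtype.ext h2⟩
  · -- three fixed points
    intro g a b c hab hbc hac ha hb hc
    apply Subtype.ext
    exact eq_one_of_fix_three hm hF g.2 a.2 b.2 c.2 (fun h => hab (Subtype.ext h))
      (fun h => hbc (Subtype.ext h)) (fun h => hac (Subtype.ext h))
      (congrArg Subtype.val ha) (congrArg Subtype.val hb) (congrArg Subtype.val hc)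
  · -- a non-trivial element fixing two points
    obtain ⟨s, hs⟩ := exists_ne_one hF hm
    refine ⟨HS hF s, ?_, ⟨Pinf F, Pinf_mem⟩, ⟨Paff m 0 0, Paff_mem 0 0⟩, ?_, ?_, ?_⟩
    · intro h
      rw [← HS_one hF] at h
      exact hs (Hg_inj (congrArg Subtype.val h))
    · intro h
      exact Paff_ne_Pinf (m := m) (0 : F) 0 (congrArg Subtype.val h).symm
    · apply Subtype.ext
      exact Hg_smul_Pinf s
    · apply Subtype.ext
      exact Hg_smul_zero hF s
  · -- no regular normal subgroup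
    intro N hN htrans
    rcases (isSimpleGroup_Sz hF hm).eq_bot_or_eq_top_of_normal N hN with h | h
    · exfalso
      obtain ⟨n, hn⟩ := MulAction.exists_smul_eq N
        (⟨Pinf F, Pinf_mem⟩ : Cfsg.suzukiOvoid F m) ⟨Paff m 0 0, Paff_mem 0 0⟩
      have hn1 : n.1 = 1 := (Subgroup.eq_bot_iff_forall N).1 h n.1 n.2
      have h2 : n.1.1 • Pinf F = Paff m 0 0 := congrArg Subtype.val hn
      rw [hn1] at h2
      have h3 : (1 : Matrix.SpecialLinearGroup (Fin 4) F) • Pinf F = Paff m 0 0 := h2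
      rw [one_smul] at h3
      exact Paff_ne_Pinf (m := m) (0 : F) 0 h3.symm
    · refine ⟨⟨Pinf F, Pinf_mem⟩, ?_⟩
      intro hbot
      have hmem : (⟨TS hF 1 0, by rw [h]; trivial⟩ : N) ∈
          MulAction.stabilizer N (⟨Pinf F, Pinf_mem⟩ : Cfsg.suzukiOvoid F m) := by
        rw [MulAction.mem_stabilizer_iff]
        apply Subtype.ext
        exact Tg_smul_Pinf 1 0
      rw [hbot, Subgroup.mem_bot] at hmem
      exact TS_ne_one hF (congrArg Subtype.val hmem)

end Cfsg.Agent.S0327
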