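import Cfsg.Statements.S0328
import Cfsg.Agent.Lib.Helper8.Sz3

set_option autoImplicit false
open Cfsg

namespace Cfsg.Agent.S0328

open Cfsg.Agent.Lib.Helper8.Sz

/-- The stabiliser in the Suzuki group of the two ovoid points spanned by `(1,0,0,0)` and `(0,0,0,1)` is
isomorphic to the multiplicative group of the field (cyclic of order `q - 1`). -/
theorem result {F : Type*} [Field F] [Fintype F] {m : ℕ} (hm : 1 ≤ m)
    (hF : Fintype.card F = 2 ^ (2 * m + 1)) :
    Nonempty (↥(MulAction.stabilizer (Cfsg.Sz F m) (Cfsg.suzukiPointInfinity F) ⊓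
        MulAction.stabilizer (Cfsg.Sz F m) (Cfsg.suzukiPointZero F)) ≃* Fˣ) := by
  have hmem : ∀ s : Fˣ, (⟨Hg m s, Hg_mem hF s⟩ : Cfsg.Sz F m) ∈
      MulAction.stabilizer (Cfsg.Sz F m) (Cfsg.suzukiPointInfinity F) ⊓
        MulAction.stabilizer (Cfsg.Sz F m) (Cfsg.suzukiPointZero F) := by
    intro s
    refine ⟨?_, ?_⟩
    · show Hg m s • Cfsg.suzukiPointInfinity F = Cfsg.suzukiPointInfinity F
      exact Hg_smul_Pinf s
    · show Hg m s • Cfsg.suzukiPointZero F = Cfsg.suzukiPointZero F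
      rw [← Paff_zero (m := m), Hg_smul_Paff hF]
      simp
  let Ψ : Fˣ → ↥(MulAction.stabilizer (Cfsg.Sz F m) (Cfsg.suzukiPointInfinity F) ⊓
        MulAction.stabilizer (Cfsg.Sz F m) (Cfsg.suzukiPointZero F)) :=
    fun s => ⟨⟨Hg m s, Hg_mem hF s⟩, hmem s⟩
  have hmul : ∀ s s' : Fˣ, Ψ (s * s') = Ψ s * Ψ s' := by
    intro s s'
    apply Subtype.ext
    apply Subtype.ext
    exact Hg_mul s s'
  have hinj : Function.Injective Ψ := by
    intro s s' h
    have h1 : Hg m s = Hg m s' := congrArg (fun x => (x.1.1 : Matrix.SpecialLinearGroup (Fin 4) F)) h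
    exact Hg_inj h1
  have hsurj : Function.Surjective Ψ := by
    rintro ⟨⟨g, hg⟩, h1, h2⟩
    have hinf : g • Pinf F = Pinf F := h1
    have hzero : g • Paff m (0 : F) 0 = Paff m (0 : F) 0 := by
      rw [Paff_zero]
      exact h2
    obtain ⟨s, rfl⟩ := stab_two hm hF hg hinf hzero
    exact ⟨s, rfl⟩
  exact ⟨(MulEquiv.ofBijective (MonoidHom.mk' Ψ hmul) ⟨hinj, hsurj⟩).symm⟩

end Cfsg.Agent.S0328
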