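import Cfsg.Statements.S0335
import Mathlib

set_option autoImplicit false
open Cfsg

namespace Cfsg.Agent.S0335

variable {F : Type*} [Field F] {m : ℕ}

theorem two_eq_zero [Fintype F] (hF : Fintype.card F = 2 ^ (2 * m + 1)) : (2 : F) = 0 := by
  have h : ((Fintype.card F : ℕ) : F) = 0 := Nat.cast_card_eq_zero F
  rw [hF] at h
  have h' : (2 : F) ^ (2 * m + 1) = 0 := by exact_mod_cast h
  exact (pow_eq_zero_iff (by omega)).mp h'

/-- The field automorphism `x ↦ x ^ 2 ^ (m + 1)`. -/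
def sg (m : ℕ) (x : F) : F := x ^ 2 ^ (m + 1)

theorem sg_mul (x y : F) : sg m (x * y) = sg m x * sg m y := mul_pow _ _ _

theorem sg_pow (x : F) (n : ℕ) : sg m (x ^ n) = sg m x ^ n := by
  unfold sg
  rw [← pow_mul, ← pow_mul, mul_comm]

theorem sg_add (h2 : (2 : F) = 0) (x y : F) : sg m (x + y) = sg m x + sg m y := by
  have : CharP F 2 := CharTwo.of_one_ne_zero_of_two_eq_zero one_ne_zero h2
  exact add_pow_char_pow x y 2 (m + 1)

theorem sg_sg [Fintype F] (hF : Fintype.card F = 2 ^ (2 * m + 1)) (x : F) : sg m (sg m x) = x ^ 2 := by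
  unfold sg
  rw [← pow_mul]
  have h : 2 ^ (m + 1) * 2 ^ (m + 1) = Fintype.card F * 2 := by rw [hF]; ring
  rw [h, pow_mul, FiniteField.pow_card]

theorem sg_eq_zero {x : F} (h : sg m x = 0) : x = 0 :=
  (pow_eq_zero_iff (by positivity)).mp h

/-- The polynomial defining the ovoid. -/
def fo (m : ℕ) (x y : F) : F := x * y + x ^ 2 * sg m x + sg m y

theorem coord_eq (x y : F) :
    x * y + x ^ (2 ^ (m + 1) + 2) + y ^ (2 ^ (m + 1)) = fo m x y := by
  unfold fo sg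
  rw [pow_add]
  ring

theorem fo_eq_zero [Fintype F] (hF : Fintype.card F = 2 ^ (2 * m + 1)) {x y : F} (h : fo m x y = 0) :
    x = 0 ∧ y = 0 := by
  have h2 := two_eq_zero hF
  have e1 : sg m y = x * y + x ^ 2 * sg m x := by
    unfold fo at h
    linear_combination h - (x * y + x ^ 2 * sg m x) * h2
  have e2 : y ^ 2 = sg m x * sg m y + (sg m x) ^ 2 * x ^ 2 := by
    have h3 := congrArg (sg m) e1
    rw [sg_sg hF, sg_add h2, sg_mul, sg_mul, sg_pow, sg_sg hF] at h3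
    exact h3
  have e3 : y * (y + x * sg m x) = 0 := by
    linear_combination e2 + sg m x * e1 + (x * sg m x * y + x ^ 2 * (sg m x) ^ 2) * h2
  have hx : x ^ 2 * sg m x = 0 → x = 0 := by
    intro h0
    rcases mul_eq_zero.mp h0 with h1 | h1
    · exact pow_eq_zero_iff (two_ne_zero) |>.mp h1
    · exact sg_eq_zero h1
  rcases mul_eq_zero.mp e3 with hy | hy
  · subst hy
    have : x ^ 2 * sg m x = 0 := by
      unfold fo at h
      have h0 : sg m (0 : F) = 0 := by unfold sg; exact zero_pow (by positivity)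
      rw [h0] at h
      linear_combination h
    exact ⟨hx this, rfl⟩
  · have hy' : y = x * sg m x := by linear_combination hy - (x * sg m x) * h2
    have : x ^ 2 * sg m x = 0 := by
      unfold fo at h
      rw [hy', sg_mul, sg_sg hF] at h
      linear_combination h - (x ^ 2 * sg m x) * h2
    have hx0 := hx this
    exact ⟨hx0, by rw [hy', hx0, zero_mul]⟩

theorem fo_translate [Fintype F] (hF : Fintype.card F = 2 ^ (2 * m + 1)) (X Y a b : F) :
    fo m (X + a) (Y + b + sg m a * X) =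
      fo m X Y + a * Y + (b + a * sg m a) * X + fo m a b := by
  have h2 := two_eq_zero hF
  unfold fo
  rw [sg_add h2, sg_add h2, sg_add h2, sg_mul, sg_sg hF]
  linear_combination (X * a * sg m X + X * a * sg m a + X ^ 2 * sg m a + a ^ 2 * sg m X) * h2

theorem fo_inversion [Fintype F] (hF : Fintype.card F = 2 ^ (2 * m + 1)) (x y : F) :
    x * y * sg m (fo m x y) + y ^ 2 * sg m y + sg m x * (fo m x y) ^ 2 =
      fo m x y * sg m (fo m x y) := by
  have h2 := two_eq_zero hF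
  have hs : sg m (fo m x y) = sg m x * sg m y + (sg m x) ^ 2 * x ^ 2 + y ^ 2 := by
    unfold fo
    rw [sg_add h2, sg_add h2, sg_mul, sg_mul, sg_pow, sg_sg hF, sg_sg hF]
  rw [hs]
  unfold fo
  linear_combination (sg m x * sg m y * x * y + (sg m x) ^ 2 * x ^ 3 * y) * h2

theorem affine_indep [Fintype F] (hF : Fintype.card F = 2 ^ (2 * m + 1)) {x₁ y₁ x₂ y₂ x₃ y₃ a b c : F}
    (h12 : ¬(x₁ = x₂ ∧ y₁ = y₂)) (h13 : ¬(x₁ = x₃ ∧ y₁ = y₃)) (h23 : ¬(x₂ = x₃ ∧ y₂ = y₃))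
    (e3 : a + b + c = 0) (e2 : a * x₁ + b * x₂ + c * x₃ = 0)
    (e1 : a * y₁ + b * y₂ + c * y₃ = 0)
    (e0 : a * fo m x₁ y₁ + b * fo m x₂ y₂ + c * fo m x₃ y₃ = 0) : a = 0 ∧ b = 0 ∧ c = 0 := by
  have h2 := two_eq_zero hF
  have hc : c = a + b := by linear_combination e3 - (a + b) * h2
  -- translated coordinates
  obtain ⟨X₁, hX₁⟩ : ∃ X₁, X₁ = x₁ + x₃ := ⟨_, rfl⟩
  obtain ⟨X₂, hX₂⟩ : ∃ X₂, X₂ = x₂ + x₃ := ⟨_, rfl⟩
  obtain ⟨Y₁, hY₁⟩ : ∃ Y₁, Y₁ = y₁ + y₃ + sg m x₃ * X₁ := ⟨_, rfl⟩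
  obtain ⟨Y₂, hY₂⟩ : ∃ Y₂, Y₂ = y₂ + y₃ + sg m x₃ * X₂ := ⟨_, rfl⟩
  have hx₁ : x₁ = X₁ + x₃ := by rw [hX₁]; linear_combination (-x₃) * h2
  have hx₂ : x₂ = X₂ + x₃ := by rw [hX₂]; linear_combination (-x₃) * h2
  have hy₁ : y₁ = Y₁ + y₃ + sg m x₃ * X₁ := by
    rw [hY₁]; linear_combination (-y₃ - sg m x₃ * X₁) * h2
  have hy₂ : y₂ = Y₂ + y₃ + sg m x₃ * X₂ := by
    rw [hY₂]; linear_combination (-y₃ - sg m x₃ * X₂) * h2
  have hf₁ := fo_translate hF X₁ Y₁ x₃ y₃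
  have hf₂ := fo_translate hF X₂ Y₂ x₃ y₃
  rw [← hx₁, ← hy₁] at hf₁
  rw [← hx₂, ← hy₂] at hf₂
  have hX : a * X₁ = b * X₂ := by
    rw [hX₁, hX₂]
    linear_combination e2 + x₃ * e3 - (b * x₂ + b * x₃ + c * x₃) * h2
  have hY : a * Y₁ = b * Y₂ := by
    rw [hY₁, hY₂]
    linear_combination e1 + y₃ * e3 + sg m x₃ * hX - (b * y₂ + b * y₃ + c * y₃) * h2
  have hg : a * fo m X₁ Y₁ = b * fo m X₂ Y₂ := by
    rw [hf₁, hf₂] at e0
    linear_combination e0 + fo m x₃ y₃ * e3 - x₃ * hY - (y₃ + x₃ * sg m x₃) * hX -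
      (b * fo m X₂ Y₂ + b * x₃ * Y₂ + b * (y₃ + x₃ * sg m x₃) * X₂ + b * fo m x₃ y₃ +
        c * fo m x₃ y₃ + a * fo m x₃ y₃) * h2
  have hne₁ : ¬(X₁ = 0 ∧ Y₁ = 0) := by
    rintro ⟨h1, h1'⟩
    apply h13
    have e : x₁ = x₃ := by rw [hx₁, h1, zero_add]
    refine ⟨e, ?_⟩
    rw [hy₁, h1', h1, mul_zero, zero_add, add_zero]
  have hne₂ : ¬(X₂ = 0 ∧ Y₂ = 0) := by
    rintro ⟨h1, h1'⟩
    apply h23
    have e : x₂ = x₃ := by rw [hx₂, h1, zero_add]
    refine ⟨e, ?_⟩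
    rw [hy₂, h1', h1, mul_zero, zero_add, add_zero]
  have hg₁ : fo m X₁ Y₁ ≠ 0 := fun h => hne₁ (fo_eq_zero hF h)
  have hg₂ : fo m X₂ Y₂ ≠ 0 := fun h => hne₂ (fo_eq_zero hF h)
  have hfin : a = 0 → b = 0 → a = 0 ∧ b = 0 ∧ c = 0 := by
    intro ha hb
    exact ⟨ha, hb, by rw [hc, ha, hb, add_zero]⟩
  by_cases ha : a = 0
  · have hb : b = 0 := by
      rw [ha, zero_mul] at hg
      rcases mul_eq_zero.mp hg.symm with h | h
      · exact h
      · exact absurd h hg₂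
    exact hfin ha hb
  by_cases hb : b = 0
  · exfalso
    rw [hb, zero_mul] at hg
    rcases mul_eq_zero.mp hg with h | h
    · exact ha h
    · exact hg₁ h
  exfalso
  have E1 := fo_inversion hF X₁ Y₁
  have E2 := fo_inversion hF X₂ Y₂
  have hsg : sg m a * sg m (fo m X₁ Y₁) = sg m b * sg m (fo m X₂ Y₂) := by
    rw [← sg_mul, ← sg_mul, hg]
  have hsX : sg m a * sg m X₁ = sg m b * sg m X₂ := by rw [← sg_mul, ← sg_mul, hX]
  have hsY : sg m a * sg m Y₁ = sg m b * sg m Y₂ := by rw [← sg_mul, ← sg_mul, hY]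
  have k1 : b ^ 2 * sg m b * (fo m X₂ Y₂ * sg m (fo m X₂ Y₂)) =
      a ^ 2 * sg m a * (fo m X₁ Y₁ * sg m (fo m X₁ Y₁)) := by
    rw [← E1, ← E2]
    have l : b ^ 2 * sg m b * (X₂ * Y₂ * sg m (fo m X₂ Y₂) + Y₂ ^ 2 * sg m Y₂ +
        sg m X₂ * fo m X₂ Y₂ ^ 2) = (b * X₂) * (b * Y₂) * (sg m b * sg m (fo m X₂ Y₂)) +
        (b * Y₂) ^ 2 * (sg m b * sg m Y₂) + (sg m b * sg m X₂) * (b * fo m X₂ Y₂) ^ 2 := by
      ring
    rw [l, ← hX, ← hY, ← hg, ← hsg, ← hsX, ← hsY]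
    ring
  have k2 : b * sg m b * (fo m X₂ Y₂ * sg m (fo m X₂ Y₂)) =
      a * sg m a * (fo m X₁ Y₁ * sg m (fo m X₁ Y₁)) := by
    have l : b * sg m b * (fo m X₂ Y₂ * sg m (fo m X₂ Y₂)) =
        (b * fo m X₂ Y₂) * (sg m b * sg m (fo m X₂ Y₂)) := by ring
    rw [l, ← hg, ← hsg]
    ring
  have k3 : (a + b) * (a * sg m a * (fo m X₁ Y₁ * sg m (fo m X₁ Y₁))) = 0 := by
    linear_combination b * k2 - k1 + (a * b * sg m a * (fo m X₁ Y₁ * sg m (fo m X₁ Y₁))) * h2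
  have hsa : sg m a ≠ 0 := fun h => ha (sg_eq_zero h)
  have hsg₁ : sg m (fo m X₁ Y₁) ≠ 0 := fun h => hg₁ (sg_eq_zero h)
  have hab : a + b = 0 := by
    rcases mul_eq_zero.mp k3 with h | h
    · exact h
    · exact absurd h (mul_ne_zero (mul_ne_zero ha hsa) (mul_ne_zero hg₁ hsg₁))
  have hab' : a = b := by linear_combination hab - b * h2
  apply h12
  have eX : X₁ = X₂ := by
    rw [hab'] at hX
    exact mul_left_cancel₀ hb hX
  have eY : Y₁ = Y₂ := by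
    rw [hab'] at hY
    exact mul_left_cancel₀ hb hY
  exact ⟨by rw [hx₁, hx₂, eX], by rw [hy₁, hy₂, eX, eY]⟩

theorem inf_indep {x₁ y₁ x₂ y₂ a b c f₁ f₂ : F} (h12 : ¬(x₁ = x₂ ∧ y₁ = y₂))
    (e3 : b + c = 0) (e2 : b * x₁ + c * x₂ = 0) (e1 : b * y₁ + c * y₂ = 0)
    (e0 : a + b * f₁ + c * f₂ = 0) : a = 0 ∧ b = 0 ∧ c = 0 := by
  have hc : c = -b := by linear_combination e3
  subst hc
  by_cases hb : b = 0
  · subst hb
    refine ⟨?_, rfl, by simp⟩
    simpa using e0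
  · exfalso
    apply h12
    constructor
    · have : b * (x₁ - x₂) = 0 := by linear_combination e2
      rcases mul_eq_zero.mp this with h | h
      · exact absurd h hb
      · exact sub_eq_zero.mp h
    · have : b * (y₁ - y₂) = 0 := by linear_combination e1
      rcases mul_eq_zero.mp this with h | h
      · exact absurd h hb
      · exact sub_eq_zero.mp h

/-- The normalised vectors of the ovoid. -/
def IsOv (m : ℕ) (v : Fin 4 → F) : Prop :=
  v = ![1, 0, 0, 0] ∨ ∃ x y : F, v = ![fo m x y, y, x, 1]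

theorem ovoid_indep [Fintype F] (hF : Fintype.card F = 2 ^ (2 * m + 1)) (u v w : Fin 4 → F)
    (hu : IsOv m u) (hv : IsOv m v) (hw : IsOv m w) (huv : u ≠ v) (huw : u ≠ w) (hvw : v ≠ w)
    (a b c : F) (h : a • u + b • v + c • w = 0) : a = 0 ∧ b = 0 ∧ c = 0 := by
  have c0 := congrFun h 0
  have c1 := congrFun h 1
  have c2 := congrFun h 2
  have c3 := congrFun h 3
  rcases hu with rfl | ⟨x₁, y₁, rfl⟩ <;> rcases hv with rfl | ⟨x₂, y₂, rfl⟩ <;>
    rcases hw with rfl | ⟨x₃, y₃, rfl⟩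
  · exact absurd rfl huv
  · exact absurd rfl huv
  · exact absurd rfl huw
  · simp at c0 c1 c2 c3
    have h23 : ¬(x₂ = x₃ ∧ y₂ = y₃) := by
      rintro ⟨rfl, rfl⟩; exact hvw rfl
    exact inf_indep h23 c3 c2 c1 c0
  · exact absurd rfl hvw
  · simp at c0 c1 c2 c3
    have h13 : ¬(x₁ = x₃ ∧ y₁ = y₃) := by
      rintro ⟨rfl, rfl⟩; exact huw rfl
    obtain ⟨hb, ha, hc⟩ := inf_indep (a := b) (b := a) (c := c) (f₁ := fo m x₁ y₁)
      (f₂ := fo m x₃ y₃) h13 c3 c2 c1 (by linear_combination c0)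
    exact ⟨ha, hb, hc⟩
  · simp at c0 c1 c2 c3
    have h12 : ¬(x₁ = x₂ ∧ y₁ = y₂) := by
      rintro ⟨rfl, rfl⟩; exact huv rfl
    obtain ⟨hc, ha, hb⟩ := inf_indep (a := c) (b := a) (c := b) (f₁ := fo m x₁ y₁)
      (f₂ := fo m x₂ y₂) h12 c3 c2 c1 (by linear_combination c0)
    exact ⟨ha, hb, hc⟩
  · simp at c0 c1 c2 c3
    have h12 : ¬(x₁ = x₂ ∧ y₁ = y₂) := by
      rintro ⟨rfl, rfl⟩; exact huv rfl
    have h13 : ¬(x₁ = x₃ ∧ y₁ = y₃) := by
      rintro ⟨rfl, rfl⟩; exact huw rfl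
    have h23 : ¬(x₂ = x₃ ∧ y₂ = y₃) := by
      rintro ⟨rfl, rfl⟩; exact hvw rfl
    exact affine_indep hF h12 h13 h23 c3 c2 c1 c0

theorem isOv_of_mem {v : Fin 4 → F}
    (h : v = ![1, 0, 0, 0] ∨
      ∃ x y : F, v = ![x * y + x ^ (2 ^ (m + 1) + 2) + y ^ (2 ^ (m + 1)), y, x, 1]) :
    IsOv m v := by
  rcases h with h | ⟨x, y, h⟩
  · exact Or.inl h
  · exact Or.inr ⟨x, y, by rw [h, coord_eq]⟩

/-- The Suzuki–Tits point set is an ovoid: any three distinct points of it are projectively independent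
(no line of projective 3-space meets it in more than two points). -/
theorem result {F : Type*} [Field F] [Fintype F] {m : ℕ} (hm : 1 ≤ m)
    (hF : Fintype.card F = 2 ^ (2 * m + 1)) (p : Fin 3 ↪ Cfsg.suzukiOvoid F m) :
    Projectivization.Independent (fun i => (p i : Projectivization F (Fin 4 → F))) := by
  obtain ⟨v0, hv0, e0, o0⟩ := (p 0).2
  obtain ⟨v1, hv1, e1, o1⟩ := (p 1).2
  obtain ⟨v2, hv2, e2, o2⟩ := (p 2).2
  have hne : ∀ i j : Fin 3, i ≠ j →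
      (p i : Projectivization F (Fin 4 → F)) ≠ p j :=
    fun i j hij h => hij (p.injective (Subtype.ext h))
  have h01 : v0 ≠ v1 := by
    rintro rfl
    exact hne 0 1 (by decide) (by rw [e0, e1])
  have h02 : v0 ≠ v2 := by
    rintro rfl
    exact hne 0 2 (by decide) (by rw [e0, e2])
  have h12 : v1 ≠ v2 := by
    rintro rfl
    exact hne 1 2 (by decide) (by rw [e1, e2])
  have hli : LinearIndependent F ![v0, v1, v2] := by
    rw [Fintype.linearIndependent_iff]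
    intro g hg
    rw [Fin.sum_univ_three] at hg
    obtain ⟨ha, hb, hc⟩ := ovoid_indep hF v0 v1 v2 (isOv_of_mem o0) (isOv_of_mem o1)
      (isOv_of_mem o2) h01 h02 h12 (g 0) (g 1) (g 2) hg
    intro i
    fin_cases i
    · exact ha
    · exact hb
    · exact hc
  have hnz : ∀ i, ![v0, v1, v2] i ≠ 0 := by
    intro i
    fin_cases i
    · exact hv0
    · exact hv1
    · exact hv2
  have key := Projectivization.Independent.mk ![v0, v1, v2] hnz hli
  have hfun : (fun i => (p i : Projectivization F (Fin 4 → F))) =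
      fun i => Projectivization.mk F (![v0, v1, v2] i) (hnz i) := by
    funext i
    fin_cases i
    · exact e0
    · exact e1
    · exact e2
  rw [hfun]
  exact key

end Cfsg.Agent.S0335
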