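import Cfsg.Statements.S0334
import Mathlib
import Cfsg.Agent.S0335

set_option autoImplicit false
open Cfsg

namespace Cfsg.Agent.S0334

open Cfsg.Agent.S0335
open Matrix
open scoped Pointwise

variable {F : Type*} [Field F] {m : ℕ}

/-- The alternating form with antidiagonal matrix. -/
def Bf (u v : Fin 4 → F) : F := u 0 * v 3 + u 1 * v 2 + u 2 * v 1 + u 3 * v 0

theorem form_mulVec (u : Fin 4 → F) : suzukiForm F *ᵥ u = ![u 3, u 2, u 1, u 0] := by
  ext i
  fin_cases i <;> simp [suzukiForm, Matrix.mulVec, dotProduct, Fin.sum_univ_four]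

theorem dot_form (u v : Fin 4 → F) : (suzukiForm F *ᵥ u) ⬝ᵥ v = Bf u v := by
  rw [form_mulVec]
  simp [dotProduct, Fin.sum_univ_four, Bf]
  ring

theorem Bf_comm (u v : Fin 4 → F) : Bf u v = Bf v u := by
  unfold Bf; ring

theorem isOv_ne_zero {u : Fin 4 → F} (hu : IsOv m u) : u ≠ 0 := by
  rcases hu with rfl | ⟨x, y, rfl⟩
  · intro h
    have := congrFun h 0
    simp at this
  · intro h
    have := congrFun h 3
    simp at this

theorem isOv_eq_of_smul {u v : Fin 4 → F} (hu : IsOv m u) (hv : IsOv m v) {t : F} (ht : t ≠ 0)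
    (h : v = t • u) : v = u := by
  rcases hu with rfl | ⟨x, y, rfl⟩ <;> rcases hv with rfl | ⟨x', y', rfl⟩
  · rfl
  · have := congrFun h 3
    simp at this
  · have := congrFun h 3
    simp at this
    exact absurd this.symm ht
  · have h3 := congrFun h 3
    simp at h3
    rw [← h3, one_smul] at h
    exact h

theorem Bf_self [Fintype F] (hF : Fintype.card F = 2 ^ (2 * m + 1)) (u : Fin 4 → F) :
    Bf u u = 0 := by
  have h2 := two_eq_zero hF
  unfold Bf
  linear_combination (u 0 * u 3 + u 1 * u 2) * h2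

theorem Bf_affine [Fintype F] (hF : Fintype.card F = 2 ^ (2 * m + 1)) (a b x y : F) :
    Bf ![fo m a b, b, a, 1] ![fo m x y, y, x, 1] =
      fo m (x + a) (y + b + sg m a * (x + a)) := by
  have h2 := two_eq_zero hF
  have h := fo_translate hF (x + a) (y + b + sg m a * (x + a)) a b
  have e1 : x + a + a = x := by linear_combination a * h2
  have e2 : y + b + sg m a * (x + a) + b + sg m a * (x + a) = y := by
    linear_combination (b + sg m a * (x + a)) * h2
  rw [e1, e2] at h
  simp [Bf]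
  rw [h]
  linear_combination (fo m a b + a * b + a * sg m a * x + a ^ 2 * sg m a + b * x + a * y) * h2

theorem Bf_ne_zero [Fintype F] (hF : Fintype.card F = 2 ^ (2 * m + 1)) {u v : Fin 4 → F}
    (hu : IsOv m u) (hv : IsOv m v) (huv : u ≠ v) : Bf u v ≠ 0 := by
  have h2 := two_eq_zero hF
  rcases hu with rfl | ⟨a, b, rfl⟩ <;> rcases hv with rfl | ⟨x, y, rfl⟩
  · exact absurd rfl huv
  · simp [Bf]
  · simp [Bf]
  · rw [Bf_affine hF]
    intro h
    obtain ⟨h1, h3⟩ := fo_eq_zero hF h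
    apply huv
    have ex : x = a := by linear_combination h1 - a * h2
    have ey : y = b := by
      rw [h1, mul_zero, add_zero] at h3
      linear_combination h3 - b * h2
    rw [ex, ey]

/-- A plane meeting the ovoid in exactly one point is the tangent plane there. -/
theorem tangent [Fintype F] (hF : Fintype.card F = 2 ^ (2 * m + 1)) (u : Fin 4 → F)
    (hu : IsOv m u) (c : Fin 4 → F) (h0 : c ⬝ᵥ u = 0)
    (hne : ∀ v, IsOv m v → v ≠ u → c ⬝ᵥ v ≠ 0) : ∃ l : F, c = l • ![u 3, u 2, u 1, u 0] := by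
  have h2 := two_eq_zero hF
  rcases hu with rfl | ⟨a, b, rfl⟩
  · have hc0 : c 0 = 0 := by simpa [dotProduct, Fin.sum_univ_four] using h0
    have key : ∀ x y : F, c 1 * y + c 2 * x + c 3 ≠ 0 := by
      intro x y
      have := hne ![fo m x y, y, x, 1] (Or.inr ⟨x, y, rfl⟩) (by
        intro h
        have := congrFun h 3
        simp at this)
      simpa [dotProduct, Fin.sum_univ_four, hc0] using this
    have hc1 : c 1 = 0 := by
      by_contra h
      apply key 0 (-(c 3) / c 1)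
      field_simp
      ring
    have hc2 : c 2 = 0 := by
      by_contra h
      apply key (-(c 3) / c 2) 0
      field_simp
      ring
    refine ⟨c 3, ?_⟩
    ext i
    fin_cases i <;> simp [hc0, hc1, hc2]
  · have hl : c 0 ≠ 0 := by
      have := hne ![1, 0, 0, 0] (Or.inl rfl) (by
        intro h
        have := congrFun h 3
        simp at this)
      simpa [dotProduct, Fin.sum_univ_four] using this
    have h0' : c 0 * fo m a b + c 1 * b + c 2 * a + c 3 = 0 := by
      simpa [dotProduct, Fin.sum_univ_four] using h0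
    have key : ∀ x y : F, ¬(x = a ∧ y = b) → c 0 * fo m x y + c 1 * y + c 2 * x + c 3 ≠ 0 := by
      intro x y hxy
      have := hne ![fo m x y, y, x, 1] (Or.inr ⟨x, y, rfl⟩) (by
        intro h
        apply hxy
        have h2' := congrFun h 2
        have h1' := congrFun h 1
        simp at h2' h1'
        exact ⟨h2', h1'⟩)
      simpa [dotProduct, Fin.sum_univ_four] using this
    -- the two parameters
    obtain ⟨al, hal⟩ : ∃ al : F, c 1 = c 0 * (al + a) := by
      refine ⟨c 1 / c 0 + a, ?_⟩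
      field_simp
      linear_combination (-(c 0 * a)) * h2
    obtain ⟨be, hbe⟩ : ∃ be : F, c 2 = c 0 * (be + b) := by
      refine ⟨c 2 / c 0 + b, ?_⟩
      field_simp
      linear_combination (-(c 0 * b)) * h2
    have hc3 : c 3 = c 0 * (fo m a b + (al + a) * b + (be + b) * a) := by
      rw [hal, hbe] at h0'
      linear_combination h0' - (c 0 * (fo m a b + (al + a) * b + (be + b) * a)) * h2
    -- value at a translated point
    have val : ∀ X Y : F, c 0 * fo m (X + a) (Y + b + sg m a * X) +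
        c 1 * (Y + b + sg m a * X) + c 2 * (X + a) + c 3 =
        c 0 * (fo m X Y + al * Y + (be + al * sg m a) * X) := by
      intro X Y
      rw [fo_translate hF, hal, hbe, hc3]
      linear_combination (c 0 * (a * Y + a * sg m a * X + b * X + fo m a b + a * b +
        al * b + be * a)) * h2 + (c 0 * a * b) * h2
    have hal0 : al = 0 := by
      by_contra h
      have hne' : al * sg m al ≠ 0 := mul_ne_zero h (fun h' => h (sg_eq_zero h'))
      apply key (0 + a) (al * sg m al + b + sg m a * 0)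
      · rintro ⟨-, h'⟩
        apply hne'
        linear_combination h'
      · rw [val]
        have e : fo m 0 (al * sg m al) = sg m al * al ^ 2 := by
          unfold fo
          rw [sg_mul, sg_sg hF]
          ring
        rw [e]
        linear_combination (c 0 * al ^ 2 * sg m al) * h2
    have hbe0 : be = 0 := by
      by_contra h
      have hs : sg m be ≠ 0 := fun h' => h (sg_eq_zero h')
      have hX : sg m be / be ≠ 0 := div_ne_zero hs h
      apply key (sg m be / be + a) (0 + b + sg m a * (sg m be / be))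
      · rintro ⟨h', -⟩
        apply hX
        linear_combination h'
      · rw [val, hal0]
        have e0 : sg m (0 : F) = 0 := by unfold sg; exact zero_pow (by positivity)
        have e1 : sg m (sg m be / be) = be ^ 2 / sg m be := by
          unfold sg
          rw [div_pow]
          congr 1
          exact sg_sg hF be
        have e : fo m (sg m be / be) 0 = sg m be := by
          unfold fo
          rw [e0, e1]
          field_simp
          ring
        rw [e]
        field_simp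
        linear_combination (c 0 * sg m be * be) * h2
    refine ⟨c 0, ?_⟩
    ext i
    fin_cases i
    · simp
    · simp [hal, hal0]
    · simp [hbe, hbe0]
    · simp [hc3, hal0, hbe0]
      left
      linear_combination (a * b) * h2

/-- Elements of the Suzuki group map ovoid vectors to multiples of ovoid vectors. -/
theorem ov_map {h : Matrix.SpecialLinearGroup (Fin 4) F} (hh : h ∈ Cfsg.Sz F m)
    {u : Fin 4 → F} (hu : IsOv m u) :
    ∃ u', IsOv m u' ∧ ∃ a : F, a ≠ 0 ∧ (h : Matrix (Fin 4) (Fin 4) F) *ᵥ u = a • u' := by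
  have hu0 := isOv_ne_zero hu
  have hmem : Projectivization.mk F u hu0 ∈ suzukiOvoid F m := by
    refine ⟨u, hu0, rfl, ?_⟩
    rcases hu with h1 | ⟨x, y, h1⟩
    · exact Or.inl h1
    · exact Or.inr ⟨x, y, by rw [h1, coord_eq]⟩
  have hst : h • suzukiOvoid F m = suzukiOvoid F m := hh
  have h1 : h • Projectivization.mk F u hu0 ∈ suzukiOvoid F m := by
    have := Set.smul_mem_smul_set (a := h) hmem
    rwa [hst] at this
  rw [Projectivization.smul_mk] at h1
  obtain ⟨v', hv', e, form⟩ := h1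
  rw [Projectivization.mk_eq_mk_iff] at e
  obtain ⟨a, ha⟩ := e
  exact ⟨v', isOv_of_mem form, (a : F), a.ne_zero, ha.symm⟩

theorem form_sq : suzukiForm F * suzukiForm F = 1 := by
  ext i j
  fin_cases i <;> fin_cases j <;> simp [suzukiForm, Matrix.mul_apply, Fin.sum_univ_four]

theorem form_transpose : (suzukiForm F)ᵀ = suzukiForm F := by
  ext i j
  fin_cases i <;> fin_cases j <;> simp [suzukiForm]

/-- On ovoid vectors the transformed form is a multiple of the form. -/
theorem scaled [Fintype F] (hF : Fintype.card F = 2 ^ (2 * m + 1))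
    {g : Matrix.SpecialLinearGroup (Fin 4) F} (hg : g ∈ Cfsg.Sz F m) {u : Fin 4 → F}
    (hu : IsOv m u) :
    ∃ κ : F, ((g : Matrix (Fin 4) (Fin 4) F)ᵀ * suzukiForm F * (g : Matrix (Fin 4) (Fin 4) F)) *ᵥ u =
      κ • (suzukiForm F *ᵥ u) := by
  obtain ⟨A, hA⟩ : ∃ A : Matrix (Fin 4) (Fin 4) F, A = (g : Matrix (Fin 4) (Fin 4) F) := ⟨_, rfl⟩
  obtain ⟨A', hA'⟩ : ∃ A' : Matrix (Fin 4) (Fin 4) F,
      A' = ((g⁻¹ : Matrix.SpecialLinearGroup (Fin 4) F) : Matrix (Fin 4) (Fin 4) F) := ⟨_, rfl⟩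
  have hA'A : A' * A = 1 := by
    rw [hA, hA', ← Matrix.SpecialLinearGroup.coe_mul, inv_mul_cancel,
      Matrix.SpecialLinearGroup.coe_one]
  have hAA' : A * A' = 1 := by
    rw [hA, hA', ← Matrix.SpecialLinearGroup.coe_mul, mul_inv_cancel,
      Matrix.SpecialLinearGroup.coe_one]
  have hg' : g⁻¹ ∈ Cfsg.Sz F m := Subgroup.inv_mem _ hg
  obtain ⟨u', hu', a, ha, hAu⟩ := ov_map hg hu
  rw [← hA] at hAu ⊢
  have hc : ∀ w, (A'ᵀ *ᵥ (suzukiForm F *ᵥ u)) ⬝ᵥ w = Bf u (A' *ᵥ w) := by
    intro w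
    rw [← dot_form, Matrix.mulVec_transpose, ← Matrix.dotProduct_mulVec]
  have hA'u' : A' *ᵥ u' = a⁻¹ • u := by
    have h1 : A' *ᵥ (A *ᵥ u) = u := by rw [Matrix.mulVec_mulVec, hA'A, Matrix.one_mulVec]
    rw [hAu, Matrix.mulVec_smul] at h1
    rw [← h1, smul_smul, inv_mul_cancel₀ ha, one_smul]
  have h0 : (A'ᵀ *ᵥ (suzukiForm F *ᵥ u)) ⬝ᵥ u' = 0 := by
    rw [hc, hA'u']
    have h1 : Bf u (a⁻¹ • u) = a⁻¹ * Bf u u := by
      simp [Bf]
      ring
    rw [h1, Bf_self hF, mul_zero]
  have hne : ∀ v', IsOv m v' → v' ≠ u' → (A'ᵀ *ᵥ (suzukiForm F *ᵥ u)) ⬝ᵥ v' ≠ 0 := by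
    intro v' hv' hvu
    obtain ⟨v, hv, ν, hν, hA'v⟩ := ov_map hg' hv'
    rw [← hA'] at hA'v
    rw [hc, hA'v]
    have h1 : Bf u (ν • v) = ν * Bf u v := by
      simp [Bf]
      ring
    rw [h1]
    apply mul_ne_zero hν
    apply Bf_ne_zero hF hu hv
    rintro rfl
    apply hvu
    have h1 : A *ᵥ (A' *ᵥ v') = v' := by rw [Matrix.mulVec_mulVec, hAA', Matrix.one_mulVec]
    rw [hA'v, Matrix.mulVec_smul, hAu, smul_smul] at h1
    exact isOv_eq_of_smul hu' hv' (mul_ne_zero hν ha) h1.symm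
  obtain ⟨l, hl⟩ := tangent hF u' hu' _ h0 hne
  rw [← form_mulVec] at hl
  have h3 : suzukiForm F *ᵥ u = l • (Aᵀ *ᵥ (suzukiForm F *ᵥ u')) := by
    have h4 : Aᵀ *ᵥ (A'ᵀ *ᵥ (suzukiForm F *ᵥ u)) = Aᵀ *ᵥ (l • (suzukiForm F *ᵥ u')) :=
      congrArg (fun w => Aᵀ *ᵥ w) hl
    rw [Matrix.mulVec_mulVec, ← Matrix.transpose_mul, hA'A, Matrix.transpose_one,
      Matrix.one_mulVec, Matrix.mulVec_smul] at h4
    exact h4
  have hl0 : l ≠ 0 := by
    rintro rfl
    rw [zero_smul] at h3
    have h4 := congrArg (fun w => suzukiForm F *ᵥ w) h3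
    simp only [Matrix.mulVec_mulVec, form_sq, Matrix.one_mulVec, Matrix.mulVec_zero] at h4
    exact isOv_ne_zero hu h4
  refine ⟨a / l, ?_⟩
  rw [← Matrix.mulVec_mulVec, ← Matrix.mulVec_mulVec, hAu, Matrix.mulVec_smul,
    Matrix.mulVec_smul, h3, smul_smul]
  congr 1
  field_simp

theorem mat_eq_of_mulVec {N M : Matrix (Fin 4) (Fin 4) F}
    (h0 : N *ᵥ ![1, 0, 0, 0] = M *ᵥ ![1, 0, 0, 0])
    (h3 : N *ᵥ ![0, 0, 0, 1] = M *ᵥ ![0, 0, 0, 1])
    (h2 : N *ᵥ ![1, 0, 1, 1] = M *ᵥ ![1, 0, 1, 1])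
    (h1 : N *ᵥ ![1, 1, 0, 1] = M *ᵥ ![1, 1, 0, 1]) : N = M := by
  ext i j
  have a0 := congrFun h0 i
  have a3 := congrFun h3 i
  have a2 := congrFun h2 i
  have a1 := congrFun h1 i
  simp [Matrix.mulVec, dotProduct, Fin.sum_univ_four] at a0 a1 a2 a3
  fin_cases j
  · exact a0
  · show N i 1 = M i 1
    linear_combination a1 - a0 - a3
  · show N i 2 = M i 2
    linear_combination a2 - a0 - a3
  · exact a3

/-- Every element of the Suzuki group preserves the alternating form with antidiagonal matrix: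
`gᵀ J g = J`. Hence the Suzuki group is a subgroup of a 4-dimensional symplectic group. -/
theorem result {F : Type*} [Field F] [Fintype F] {m : ℕ} (hm : 1 ≤ m)
    (hF : Fintype.card F = 2 ^ (2 * m + 1)) {g : Matrix.SpecialLinearGroup (Fin 4) F}
    (hg : g ∈ Cfsg.Sz F m) :
    (g : Matrix (Fin 4) (Fin 4) F).transpose * Cfsg.suzukiForm F * (g : Matrix (Fin 4) (Fin 4) F) =
      Cfsg.suzukiForm F := by
  have h2 := two_eq_zero hF
  obtain ⟨N, hN⟩ : ∃ N : Matrix (Fin 4) (Fin 4) F, N = (g : Matrix (Fin 4) (Fin 4) F).transpose *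
      Cfsg.suzukiForm F * (g : Matrix (Fin 4) (Fin 4) F) := ⟨_, rfl⟩
  rw [← hN]
  have s0 : sg m (0 : F) = 0 := by unfold sg; exact zero_pow (by positivity)
  have s1 : sg m (1 : F) = 1 := by unfold sg; exact one_pow _
  have o0 : IsOv m (![1, 0, 0, 0] : Fin 4 → F) := Or.inl rfl
  have o3 : IsOv m (![0, 0, 0, 1] : Fin 4 → F) := Or.inr ⟨0, 0, by simp [fo, s0]⟩
  have o2 : IsOv m (![1, 0, 1, 1] : Fin 4 → F) := Or.inr ⟨1, 0, by simp [fo, s0, s1]⟩
  have o1 : IsOv m (![1, 1, 0, 1] : Fin 4 → F) := Or.inr ⟨0, 1, by simp [fo, s0, s1]⟩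
  obtain ⟨κ0, h0⟩ := scaled hF hg o0
  obtain ⟨κ3, h3⟩ := scaled hF hg o3
  obtain ⟨κ2, hk2⟩ := scaled hF hg o2
  obtain ⟨κ1, hk1⟩ := scaled hF hg o1
  rw [← hN] at h0 h3 hk2 hk1
  have hNs : Nᵀ = N := by
    rw [hN, Matrix.transpose_mul, Matrix.transpose_mul, Matrix.transpose_transpose,
      form_transpose, Matrix.mul_assoc]
  have sym : ∀ u v : Fin 4 → F, u ⬝ᵥ (N *ᵥ v) = v ⬝ᵥ (N *ᵥ u) := by
    intro u v
    rw [Matrix.dotProduct_mulVec, ← Matrix.mulVec_transpose, hNs, dotProduct_comm]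
  have eqκ : ∀ {u v : Fin 4 → F} {κu κv : F}, IsOv m u → IsOv m v → u ≠ v →
      N *ᵥ u = κu • (suzukiForm F *ᵥ u) → N *ᵥ v = κv • (suzukiForm F *ᵥ v) → κu = κv := by
    intro u v κu κv hu hv huv e1 e2
    have h := sym u v
    rw [e1, e2, dotProduct_smul, dotProduct_smul, dotProduct_comm u, dot_form,
      dotProduct_comm v, dot_form, Bf_comm v u, smul_eq_mul, smul_eq_mul] at h
    exact (mul_right_cancel₀ (Bf_ne_zero hF hu hv huv) h).symm
  have ne03 : (![1, 0, 0, 0] : Fin 4 → F) ≠ ![0, 0, 0, 1] := by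
    intro h
    have := congrFun h 0
    simp at this
  have ne02 : (![1, 0, 0, 0] : Fin 4 → F) ≠ ![1, 0, 1, 1] := by
    intro h
    have := congrFun h 3
    simp at this
  have ne01 : (![1, 0, 0, 0] : Fin 4 → F) ≠ ![1, 1, 0, 1] := by
    intro h
    have := congrFun h 3
    simp at this
  have e3 : κ0 = κ3 := eqκ o0 o3 ne03 h0 h3
  have e2 : κ0 = κ2 := eqκ o0 o2 ne02 h0 hk2
  have e1 : κ0 = κ1 := eqκ o0 o1 ne01 h0 hk1
  rw [← e3] at h3
  rw [← e2] at hk2
  rw [← e1] at hk1
  have hNJ : N = κ0 • suzukiForm F := by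
    apply mat_eq_of_mulVec
    · rw [h0, Matrix.smul_mulVec]
    · rw [h3, Matrix.smul_mulVec]
    · rw [hk2, Matrix.smul_mulVec]
    · rw [hk1, Matrix.smul_mulVec]
  have hdJ : (suzukiForm F).det * (suzukiForm F).det = 1 := by
    rw [← Matrix.det_mul, form_sq, Matrix.det_one]
  have hdJ0 : (suzukiForm F).det ≠ 0 := by
    intro h
    rw [h, mul_zero] at hdJ
    exact zero_ne_one hdJ
  have hdet : N.det = κ0 ^ 4 * (suzukiForm F).det := by
    rw [hNJ, Matrix.det_smul, Fintype.card_fin]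
  have hdet' : N.det = (suzukiForm F).det := by
    rw [hN, Matrix.det_mul, Matrix.det_mul, Matrix.det_transpose, g.det_coe, one_mul, mul_one]
  have hk4 : κ0 ^ 4 = 1 := by
    rw [hdet'] at hdet
    have h5 : κ0 ^ 4 * (suzukiForm F).det = 1 * (suzukiForm F).det := by
      rw [one_mul]
      exact hdet.symm
    exact mul_right_cancel₀ hdJ0 h5
  have hk : (κ0 - 1) ^ 4 = 0 := by
    linear_combination hk4 + (-2 * κ0 ^ 3 + 3 * κ0 ^ 2 - 2 * κ0 + 1) * h2
  have hk1' : κ0 = 1 := by
    have := pow_eq_zero_iff (n := 4) (by norm_num) |>.mp hk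
    linear_combination this
  rw [hNJ, hk1', one_smul]

end Cfsg.Agent.S0334
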