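import Mathlib
import Cfsg.Statements.S1160
import Cfsg.Agent.Lib.Helper15.CyclicIndexP

set_option autoImplicit false
open Cfsg

namespace Cfsg.Agent.S1160

variable {P E : Type*} [Group P] [AddCommGroup E] [DistribMulAction P E]

/-- the averaging operator of a cyclic group of order dividing `p` -/
def mu (p : ℕ) (x : P) (e : E) : E := ∑ k ∈ Finset.range p, x ^ k • e

theorem mu_add (p : ℕ) (x : P) (e₁ e₂ : E) : mu p x (e₁ + e₂) = mu p x e₁ + mu p x e₂ := by
  unfold mu
  rw [← Finset.sum_add_distrib]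
  exact Finset.sum_congr rfl (fun k _ => smul_add _ _ _)

theorem mu_sub (p : ℕ) (x : P) (e₁ e₂ : E) : mu p x (e₁ - e₂) = mu p x e₁ - mu p x e₂ := by
  unfold mu
  rw [← Finset.sum_sub_distrib]
  exact Finset.sum_congr rfl (fun k _ => smul_sub _ _ _)

theorem mu_fixed {p : ℕ} {x : P} (hx : x ^ p = 1) (e : E) : x • mu p x e = mu p x e := by
  unfold mu
  rw [Finset.smul_sum]
  have h1 : ∑ k ∈ Finset.range p, x • x ^ k • e = ∑ k ∈ Finset.range p, x ^ (k + 1) • e := by
    apply Finset.sum_congr rfl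
    intro k _
    rw [← mul_smul, ← pow_succ']
  rw [h1]
  have h2 := Finset.sum_range_succ (fun k => x ^ k • e) p
  have h3 := Finset.sum_range_succ' (fun k => x ^ k • e) p
  rw [h2] at h3
  simp only [hx, one_smul, pow_zero] at h3
  exact (add_right_cancel h3).symm

theorem mu_of_fixed {p : ℕ} {x : P} {e : E} (hx : x • e = e) : mu p x e = p • e := by
  unfold mu
  have h : ∀ k : ℕ, x ^ k • e = e := by
    intro k
    induction k with
    | zero => simp
    | succ n ih => rw [pow_succ, mul_smul, hx, ih]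
  rw [Finset.sum_congr rfl (fun k _ => h k), Finset.sum_const, Finset.card_range]

theorem mu_comm {p : ℕ} {x y : P} (hxy : Commute y x) (e : E) :
    y • mu p x e = mu p x (y • e) := by
  unfold mu
  rw [Finset.smul_sum]
  apply Finset.sum_congr rfl
  intro k _
  rw [← mul_smul, ← mul_smul, (hxy.pow_right k).eq]

theorem eq_zero_of_nsmul {p q : ℕ} (hpq : Nat.Coprime p q) (hE : ∀ e : E, q • e = 0) {v : E}
    (hv : p • v = 0) : v = 0 := by
  have h1 : addOrderOf v ∣ p := addOrderOf_dvd_of_nsmul_eq_zero hv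
  have h2 : addOrderOf v ∣ q := addOrderOf_dvd_of_nsmul_eq_zero (hE v)
  have h3 : addOrderOf v ∣ 1 := by
    have := Nat.dvd_gcd h1 h2
    rwa [Nat.Coprime.gcd_eq_one hpq] at this
  exact AddMonoid.addOrderOf_eq_one_iff.1 (Nat.dvd_one.1 h3)

theorem ident {p : ℕ} (hp : p.Prime) {t z : P} (htz : Commute t z) (hzp : z ^ p = 1)
    (hz : ∀ k, 0 < k → k < p → ∀ v : E, z ^ k • v = v → v = 0) (e : E) :
    ∑ i ∈ Finset.range p, mu p (t * z ^ i) e = p • e := by
  unfold mu
  rw [Finset.sum_comm]
  have h1 : ∀ k ∈ Finset.range p,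
      ∑ i ∈ Finset.range p, (t * z ^ i) ^ k • e = t ^ k • mu p (z ^ k) e := by
    intro k _
    unfold mu
    rw [Finset.smul_sum]
    apply Finset.sum_congr rfl
    intro i _
    rw [(htz.pow_right i).mul_pow, mul_smul, ← pow_mul, ← pow_mul, mul_comm i k]
  rw [Finset.sum_congr rfl h1, Finset.sum_eq_single 0]
  · rw [pow_zero, pow_zero, one_smul]
    exact mu_of_fixed (one_smul _ e)
  · intro k hk hk0
    have hfix : z ^ k • mu p (z ^ k) e = mu p (z ^ k) e :=
      mu_fixed (by rw [← pow_mul, mul_comm, pow_mul, hzp, one_pow]) e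
    rw [hz k (Nat.pos_of_ne_zero hk0) (Finset.mem_range.1 hk) _ hfix, smul_zero]
  · intro h0
    exact absurd (Finset.mem_range.2 hp.pos) h0

theorem central_fpf [Finite P] [FaithfulSMul P E] {p q : ℕ} (hpq : p.Coprime q)
    (hE : ∀ e : E, q • e = 0)
    (hconst : ∀ a b : E, a ≠ 0 → b ≠ 0 →
      Nat.card (MulAction.stabilizer P a) = Nat.card (MulAction.stabilizer P b))
    {w : P} (hwc : w ∈ Subgroup.center P) (hw1 : w ≠ 1) (hwp : w ^ p = 1) (a : E)
    (ha : w • a = a) : a = 0 := by
  by_contra ha0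
  have hex : ∃ e : E, w • e - e ≠ 0 := by
    by_contra hno
    push Not at hno
    apply hw1
    apply eq_of_smul_eq_smul (α := E)
    intro e
    rw [one_smul]
    exact sub_eq_zero.1 (hno e)
  obtain ⟨e, he⟩ := hex
  have hcomm : ∀ h : P, Commute h w := fun h => Subgroup.mem_center_iff.1 hwc h
  have hmub : mu p w (w • e - e) = 0 := by
    rw [mu_sub, ← mu_comm (Commute.refl w), mu_fixed hwp, sub_self]
  have hle : MulAction.stabilizer P (a + (w • e - e)) ≤
      MulAction.stabilizer P a ⊓ MulAction.stabilizer P (w • e - e) := by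
    intro h hh
    rw [MulAction.mem_stabilizer_iff, smul_add] at hh
    have h1 := congrArg (mu p w) hh
    rw [mu_add, mu_add, ← mu_comm (hcomm h), ← mu_comm (hcomm h), hmub, smul_zero, add_zero,
      add_zero, mu_of_fixed ha, smul_comm] at h1
    have h2 : p • (h • a - a) = 0 := by rw [smul_sub, h1, sub_self]
    have h3 : h • a = a := sub_eq_zero.1 (eq_zero_of_nsmul hpq hE h2)
    rw [h3] at hh
    exact Subgroup.mem_inf.2 ⟨h3, add_left_cancel hh⟩
  have hab : a + (w • e - e) ≠ 0 := by
    intro h0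
    have hb' : w • e - e = -a := (neg_eq_of_add_eq_zero_right h0).symm
    have hfix : w • (w • e - e) = w • e - e := by rw [hb', smul_neg, ha]
    have h2 := mu_of_fixed (p := p) hfix
    rw [hmub] at h2
    exact he (eq_zero_of_nsmul hpq hE h2.symm)
  have e1 : MulAction.stabilizer P (a + (w • e - e)) = MulAction.stabilizer P a :=
    Subgroup.eq_of_le_of_card_ge (hle.trans inf_le_left) (hconst _ _ ha0 hab).le
  have e2 : MulAction.stabilizer P (a + (w • e - e)) = MulAction.stabilizer P (w • e - e) :=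
    Subgroup.eq_of_le_of_card_ge (hle.trans inf_le_right) (hconst _ _ he hab).le
  have hwa : w ∈ MulAction.stabilizer P a := ha
  rw [← e1, e2] at hwa
  have h2 := mu_of_fixed (p := p) (MulAction.mem_stabilizer_iff.1 hwa)
  rw [hmub] at h2
  exact he (eq_zero_of_nsmul hpq hE h2.symm)

theorem gen_mem {p : ℕ} (hp : p.Prime) {x y : P} (hxo : orderOf x = p)
    (hy : y ∈ Subgroup.zpowers x) (hy1 : y ≠ 1) : x ∈ Subgroup.zpowers y := by
  have hfin : Finite (Subgroup.zpowers x) := by
    apply Nat.finite_of_card_ne_zero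
    rw [Nat.card_zpowers, hxo]
    exact hp.ne_zero
  have hcx : Nat.card (Subgroup.zpowers x) = p := by rw [Nat.card_zpowers, hxo]
  have hle : Subgroup.zpowers y ≤ Subgroup.zpowers x := Subgroup.zpowers_le.2 hy
  have hd : Nat.card (Subgroup.zpowers y) ∣ p := hcx ▸ Subgroup.card_dvd_of_le hle
  have hcy : Nat.card (Subgroup.zpowers y) = p := by
    rcases (Nat.dvd_prime hp).1 hd with h1 | h1
    · exfalso
      rw [Nat.card_zpowers, orderOf_eq_one_iff] at h1
      exact hy1 h1
    · exact h1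
  have heq : Subgroup.zpowers y = Subgroup.zpowers x :=
    Subgroup.eq_of_le_of_card_ge hle (by rw [hcy, hcx])
  exact heq ▸ Subgroup.mem_zpowers x

theorem no_normal_rank_two [Finite P] [Finite E] [FaithfulSMul P E] {p q : ℕ}
    [hpf : Fact p.Prime] (hp2 : p ≠ 2) (hP : IsPGroup p P) (hpq : p.Coprime q)
    (hE : ∀ e : E, q • e = 0)
    (hconst : ∀ a b : E, a ≠ 0 → b ≠ 0 →
      Nat.card (MulAction.stabilizer P a) = Nat.card (MulAction.stabilizer P b))
    (A : Subgroup P) [hAn : A.Normal] (hAc : ∀ a ∈ A, ∀ b ∈ A, a * b = b * a)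
    (hAp : ∀ a ∈ A, a ^ p = 1) (hAcard : Nat.card A = p ^ 2)
    (z : P) (hzA : z ∈ A) (hzo : orderOf z = p) (hzc : z ∈ Subgroup.center P) : False := by
  have hp : p.Prime := hpf.out
  have fpf : ∀ w : P, w ∈ Subgroup.center P → w ≠ 1 → w ^ p = 1 → ∀ a : E, w • a = a → a = 0 :=
    fun w hwc hw1 hwp a ha => central_fpf hpq hE hconst hwc hw1 hwp a ha
  have tf : ∀ v : E, p • v = 0 → v = 0 := fun v hv => eq_zero_of_nsmul hpq hE hv
  have hz1 : z ≠ 1 := by
    intro h
    rw [h, orderOf_one] at hzo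
    exact hp.ne_one hzo.symm
  have hzp : z ^ p = 1 := by
    rw [← hzo]
    exact pow_orderOf_eq_one z
  have hzk : ∀ k, 0 < k → k < p → ∀ v : E, z ^ k • v = v → v = 0 := by
    intro k hk0 hkp v hv
    refine fpf (z ^ k) (Subgroup.pow_mem _ hzc k) ?_
      (by rw [← pow_mul, mul_comm, pow_mul, hzp, one_pow]) v hv
    intro h1
    have := orderOf_dvd_of_pow_eq_one h1
    rw [hzo] at this
    exact absurd (Nat.le_of_dvd hk0 this) (not_le.2 hkp)
  have L : ∀ x ∈ A, orderOf x = p → ∀ y ∈ A, y ∉ Subgroup.zpowers x →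
      ∀ v : E, x • v = v → y • v = v → v = 0 := by
    intro x hxA hxo y hyA hy v hxv hyv
    have hxK : x ∈ A ⊓ MulAction.stabilizer P v := Subgroup.mem_inf.2 ⟨hxA, hxv⟩
    have hyK : y ∈ A ⊓ MulAction.stabilizer P v := Subgroup.mem_inf.2 ⟨hyA, hyv⟩
    have hle : Subgroup.zpowers x ≤ A ⊓ MulAction.stabilizer P v := Subgroup.zpowers_le.2 hxK
    have hcx : Nat.card (Subgroup.zpowers x) = p := by rw [Nat.card_zpowers, hxo]
    have hd1 : Nat.card ↥(A ⊓ MulAction.stabilizer P v) ∣ p ^ 2 :=
      hAcard ▸ Subgroup.card_dvd_of_le inf_le_left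
    have hd2 : p ∣ Nat.card ↥(A ⊓ MulAction.stabilizer P v) :=
      hcx ▸ Subgroup.card_dvd_of_le hle
    obtain ⟨j, hj, hKj⟩ := (Nat.dvd_prime_pow hp).1 hd1
    have hj2 : j = 2 := by
      interval_cases j
      · rw [hKj, pow_zero] at hd2
        exact absurd (Nat.le_of_dvd one_pos hd2) (not_le.2 hp.one_lt)
      · exfalso
        have : Subgroup.zpowers x = A ⊓ MulAction.stabilizer P v :=
          Subgroup.eq_of_le_of_card_ge hle (by rw [hKj, hcx, pow_one])
        exact hy (this ▸ hyK)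
      · rfl
    have hKA : A ⊓ MulAction.stabilizer P v = A :=
      Subgroup.eq_of_le_of_card_ge inf_le_left (by rw [hKj, hj2, hAcard])
    have hzK : z ∈ A ⊓ MulAction.stabilizer P v := by
      rw [hKA]
      exact hzA
    exact fpf z hzc hz1 hzp v (Subgroup.mem_inf.1 hzK).2
  have gen : ∀ x : P, orderOf x = p → ∀ y ∈ Subgroup.zpowers x, y ≠ 1 →
      ∀ v : E, y • v = v → x • v = v := by
    intro x hxo y hy hy1 v hyv
    have hx := gen_mem hp hxo hy hy1
    have hs : Subgroup.zpowers y ≤ MulAction.stabilizer P v := Subgroup.zpowers_le.2 hyv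
    exact hs hx
  obtain ⟨t, htA, htz⟩ : ∃ t ∈ A, t ∉ Subgroup.zpowers z := by
    by_contra hno
    push Not at hno
    have hle : A ≤ Subgroup.zpowers z := fun t ht => hno t ht
    have h1 := Subgroup.card_le_of_le hle
    rw [hAcard, Nat.card_zpowers, hzo] at h1
    have h2 : p < p ^ 2 := by nlinarith [hp.one_lt]
    omega
  have hcomm_tz : Commute t z := Subgroup.mem_center_iff.1 hzc t
  have hxA : ∀ i : ℕ, t * z ^ i ∈ A := fun i => A.mul_mem htA (A.pow_mem hzA i)
  have hx1 : ∀ i : ℕ, t * z ^ i ≠ 1 := by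
    intro i h1
    apply htz
    have : t = (z ^ i)⁻¹ := eq_inv_of_mul_eq_one_left h1
    rw [this]
    exact Subgroup.inv_mem _ (Subgroup.pow_mem _ (Subgroup.mem_zpowers z) i)
  have hxo : ∀ i : ℕ, orderOf (t * z ^ i) = p :=
    fun i => orderOf_eq_prime (hAp _ (hxA i)) (hx1 i)
  have hnot : ∀ i j : ℕ, i < p → j < p → i ≠ j →
      t * z ^ j ∉ Subgroup.zpowers (t * z ^ i) := by
    intro i j hi hj hij hmem
    have hw : (t * z ^ i)⁻¹ * (t * z ^ j) ∈ Subgroup.zpowers (t * z ^ i) :=
      Subgroup.mul_mem _ (Subgroup.inv_mem _ (Subgroup.mem_zpowers _)) hmem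
    have hweq : (t * z ^ i)⁻¹ * (t * z ^ j) = (z ^ i)⁻¹ * z ^ j := by group
    rw [hweq] at hw
    have hw1 : (z ^ i)⁻¹ * z ^ j ≠ 1 := by
      intro h1
      have h2 : z ^ j = z ^ i := by
        have : z ^ i * ((z ^ i)⁻¹ * z ^ j) = z ^ j := by group
        rw [← this, h1, mul_one]
      have hmod := pow_eq_pow_iff_modEq.1 h2
      rw [hzo] at hmod
      exact hij (hmod.eq_of_lt_of_lt hj hi).symm
    have hx := gen_mem hp (hxo i) hw hw1
    have hle : Subgroup.zpowers ((z ^ i)⁻¹ * z ^ j) ≤ Subgroup.zpowers z :=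
      Subgroup.zpowers_le.2 (Subgroup.mul_mem _
        (Subgroup.inv_mem _ (Subgroup.pow_mem _ (Subgroup.mem_zpowers z) i))
        (Subgroup.pow_mem _ (Subgroup.mem_zpowers z) j))
    have h2 := hle hx
    apply htz
    have : t = (t * z ^ i) * (z ^ i)⁻¹ := by group
    rw [this]
    exact Subgroup.mul_mem _ h2
      (Subgroup.inv_mem _ (Subgroup.pow_mem _ (Subgroup.mem_zpowers z) i))
  obtain ⟨e₀, he₀⟩ : ∃ e₀ : E, e₀ ≠ 0 := by
    by_contra hno
    push Not at hno
    apply hz1
    apply eq_of_smul_eq_smul (α := E)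
    intro e
    rw [hno e, smul_zero, smul_zero]
  have hid := fun e : E => ident hp hcomm_tz hzp hzk e
  obtain ⟨i, hi, hai⟩ : ∃ i ∈ Finset.range p, mu p (t * z ^ i) e₀ ≠ 0 := by
    by_contra hno
    push Not at hno
    have := hid e₀
    rw [Finset.sum_eq_zero hno] at this
    exact he₀ (tf e₀ this.symm)
  rw [Finset.mem_range] at hi
  obtain ⟨j, hj, hij, b, hb0, hbfix⟩ :
      ∃ j, j < p ∧ j ≠ i ∧ ∃ b : E, b ≠ 0 ∧ (t * z ^ j) • b = b := by
    by_contra hno
    push Not at hno
    apply hx1 i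
    apply eq_of_smul_eq_smul (α := E)
    intro e
    rw [one_smul]
    have hsum := hid e
    rw [Finset.sum_eq_single i] at hsum
    · have hfix := mu_fixed (hAp _ (hxA i)) e
      rw [hsum, smul_comm] at hfix
      have : p • ((t * z ^ i) • e - e) = 0 := by rw [smul_sub, hfix, sub_self]
      exact sub_eq_zero.1 (tf _ this)
    · intro j hj hji
      by_contra hne
      exact hno j (Finset.mem_range.1 hj) hji _ hne (mu_fixed (hAp _ (hxA j)) e)
    · intro h0
      exact absurd (Finset.mem_range.2 hi) h0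
  have hafix : (t * z ^ i) • mu p (t * z ^ i) e₀ = mu p (t * z ^ i) e₀ :=
    mu_fixed (hAp _ (hxA i)) e₀
  have hxx' : t * z ^ j ∉ Subgroup.zpowers (t * z ^ i) := hnot i j hi hj (Ne.symm hij)
  have hcxx' : Commute (t * z ^ j) (t * z ^ i) := hAc _ (hxA j) _ (hxA i)
  generalize ha : mu p (t * z ^ i) e₀ = a at hai hafix
  generalize hx : t * z ^ i = x at hafix hxx' hcxx'
  generalize hx' : t * z ^ j = x' at hbfix hxx' hcxx'
  have hxm : x ∈ A := hx ▸ hxA i
  have hx'm : x' ∈ A := hx' ▸ hxA j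
  have hxox : orderOf x = p := hx ▸ hxo i
  have hxox' : orderOf x' = p := hx' ▸ hxo j
  have hxne : x ≠ 1 := hx ▸ hx1 i
  have hx'ne : x' ≠ 1 := hx' ▸ hx1 j
  have both : ∀ v : E, x • v = v → x' • v = v → v = 0 :=
    fun v h1 h2 => L x hxm hxox x' hx'm hxx' v h1 h2
  have van : ∀ (u : P), u ∈ A → orderOf u = p → ∀ (y : P), y ∈ A → y ∉ Subgroup.zpowers u →
      ∀ v : E, y • v = v → mu p u v = 0 := by
    intro u huA huo y hyA hy v hyv
    exact L u huA huo y hyA hy _ (mu_fixed (hAp u huA) v)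
      (by rw [mu_comm (hAc y hyA u huA), hyv])
  have hx'x : x ∉ Subgroup.zpowers x' := by
    intro hmem
    have h1 : x • b = b := by
      have hs : Subgroup.zpowers x' ≤ MulAction.stabilizer P b := Subgroup.zpowers_le.2 hbfix
      exact hs hmem
    exact hb0 (both b h1 hbfix)
  have hpa : p • a ≠ 0 := fun h0 => hai (tf a h0)
  have hpb : p • b ≠ 0 := fun h0 => hb0 (tf b h0)
  have hle : MulAction.stabilizer P (a + b) ≤
      MulAction.stabilizer P a ⊓ MulAction.stabilizer P b := by
    intro h hh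
    rw [MulAction.mem_stabilizer_iff, smul_add] at hh
    have hxh : h * x * h⁻¹ ∈ A := hAn.conj_mem x hxm h
    have hx'h : h * x' * h⁻¹ ∈ A := hAn.conj_mem x' hx'm h
    have hfa : (h * x * h⁻¹) • (h • a) = h • a := by
      rw [← mul_smul, inv_mul_cancel_right, mul_smul, hafix]
    have hfb : (h * x' * h⁻¹) • (h • b) = h • b := by
      rw [← mul_smul, inv_mul_cancel_right, mul_smul, hbfix]
    have hxh1 : h * x * h⁻¹ ≠ 1 := fun h1 => hxne (conj_eq_one_iff.1 h1)
    have hx'h1 : h * x' * h⁻¹ ≠ 1 := fun h1 => hx'ne (conj_eq_one_iff.1 h1)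
    have hmu1 : mu p x (h • a) + mu p x (h • b) = p • a := by
      have h1 := congrArg (mu p x) hh
      rw [mu_add, mu_add, mu_of_fixed hafix] at h1
      have hb0' : mu p x b = 0 := van x hxm hxox x' hx'm hxx' b hbfix
      rw [hb0', add_zero] at h1
      exact h1
    have hmu2 : mu p x' (h • a) + mu p x' (h • b) = p • b := by
      have h1 := congrArg (mu p x') hh
      rw [mu_add, mu_add, mu_of_fixed hbfix] at h1
      have ha0' : mu p x' a = 0 := van x' hx'm hxox' x hxm hx'x a hafix
      rw [ha0', zero_add] at h1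
      exact h1
    have star1 : h * x * h⁻¹ ∈ Subgroup.zpowers x ∨ h * x' * h⁻¹ ∈ Subgroup.zpowers x := by
      by_contra hno
      push Not at hno
      apply hpa
      rw [← hmu1, van x hxm hxox _ hxh hno.1 _ hfa, van x hxm hxox _ hx'h hno.2 _ hfb, add_zero]
    have star2 : h * x * h⁻¹ ∈ Subgroup.zpowers x' ∨ h * x' * h⁻¹ ∈ Subgroup.zpowers x' := by
      by_contra hno
      push Not at hno
      apply hpb
      rw [← hmu2, van x' hx'm hxox' _ hxh hno.1 _ hfa, van x' hx'm hxox' _ hx'h hno.2 _ hfb,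
        add_zero]
    rcases star1 with s1 | s1
    · have h1 : x • (h • a) = h • a := gen x hxox _ s1 hxh1 _ hfa
      rcases star2 with s2 | s2
      · exfalso
        have h2 : x' • (h • a) = h • a := gen x' hxox' _ s2 hxh1 _ hfa
        have h3 := both _ h1 h2
        exact hai ((smul_eq_zero_iff_eq h).1 h3)
      · have h2 : x' • (h • b) = h • b := gen x' hxox' _ s2 hx'h1 _ hfb
        have h3 : a - h • a = h • b - b := by
          rw [sub_eq_sub_iff_add_eq_add, ← hh]
          abel
        have h4 : x • (a - h • a) = a - h • a := by rw [smul_sub, hafix, h1]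
        have h5 : x' • (a - h • a) = a - h • a := by rw [h3, smul_sub, h2, hbfix]
        have h6 := both _ h4 h5
        have h7 : h • a = a := (sub_eq_zero.1 h6).symm
        have h8 : h • b = b := by
          rw [h7] at hh
          exact add_left_cancel hh
        exact Subgroup.mem_inf.2 ⟨h7, h8⟩
    · have h1 : x • (h • b) = h • b := gen x hxox _ s1 hx'h1 _ hfb
      rcases star2 with s2 | s2
      · exfalso
        have h2 : x' • (h • a) = h • a := gen x' hxox' _ s2 hxh1 _ hfa
        have h3 : h • a - b = a - h • b := by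
          rw [sub_eq_sub_iff_add_eq_add, hh]
        have h4 : x' • (h • a - b) = h • a - b := by rw [smul_sub, h2, hbfix]
        have h5 : x • (h • a - b) = h • a - b := by rw [h3, smul_sub, hafix, h1]
        have h6 := both _ h5 h4
        have h7 : h • a = b := sub_eq_zero.1 h6
        have h8 : h • b = a := by
          rw [h7] at hh
          have : b + h • b = b + a := by rw [hh, add_comm]
          exact add_left_cancel this
        have h9 : (h * h) • a = a := by rw [mul_smul, h7, h8]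
        obtain ⟨n, hn⟩ := hP h
        have hodd : Odd (p ^ n) := (hp.odd_of_ne_two hp2).pow
        obtain ⟨m, hm⟩ := hodd
        have h10 : h = (h * h) ^ (m + 1) := by
          rw [← pow_two, ← pow_mul]
          have : 2 * (m + 1) = p ^ n + 1 := by omega
          rw [this, pow_succ, hn, one_mul]
        have h11 : h • a = a := by
          have hs : Subgroup.zpowers (h * h) ≤ MulAction.stabilizer P a :=
            Subgroup.zpowers_le.2 h9
          have hmem : (h * h) ^ (m + 1) ∈ Subgroup.zpowers (h * h) :=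
            Subgroup.pow_mem _ (Subgroup.mem_zpowers _) _
          rw [← h10] at hmem
          exact hs hmem
        rw [h7] at h11
        rw [h11] at hbfix
        exact hai (both a hafix hbfix)
      · exfalso
        have h2 : x' • (h • b) = h • b := gen x' hxox' _ s2 hx'h1 _ hfb
        have h3 := both _ h1 h2
        exact hb0 ((smul_eq_zero_iff_eq h).1 h3)
  have hab : a + b ≠ 0 := by
    intro h0
    have hb' : b = -a := (neg_eq_of_add_eq_zero_right h0).symm
    have h1 : x' • a = a := by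
      have h2 := hbfix
      rw [hb', smul_neg, neg_inj] at h2
      exact h2
    exact hai (both a hafix h1)
  have e1 : MulAction.stabilizer P (a + b) = MulAction.stabilizer P a :=
    Subgroup.eq_of_le_of_card_ge (hle.trans inf_le_left) (hconst _ _ hai hab).le
  have e2 : MulAction.stabilizer P (a + b) = MulAction.stabilizer P b :=
    Subgroup.eq_of_le_of_card_ge (hle.trans inf_le_right) (hconst _ _ hb0 hab).le
  have hxa : x ∈ MulAction.stabilizer P a := hafix
  rw [← e1, e2] at hxa
  exact hb0 (both b hxa hbfix)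

/-- Let `p ≠ 2` be prime and `P` a finite `p`-group acting faithfully by additive automorphisms on a finite elementary abelian `q`-group `E` (`q` prime), such that `|P_a|` is the same for all `a ≠ 0`. Then `P` is cyclic and every non-identity element of `P` fixes only `0`. -/
theorem result {P E : Type*} [Group P] [Finite P]
    [AddCommGroup E] [Finite E] [DistribMulAction P E] [FaithfulSMul P E]
    {p q : ℕ} [Fact p.Prime] (hp2 : p ≠ 2) (hP : IsPGroup p P) (hq : q.Prime) (hE : ∀ e : E, q • e = 0)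
    (hconst : ∀ a b : E, a ≠ 0 → b ≠ 0 →
      Nat.card (MulAction.stabilizer P a) = Nat.card (MulAction.stabilizer P b)) :
    IsCyclic P ∧ ∀ g : P, g ≠ 1 → ∀ a : E, g • a = a → a = 0 := by
  have hp : p.Prime := Fact.out
  by_cases htriv : ∀ g : P, g = 1
  · refine ⟨?_, fun g hg => absurd (htriv g) hg⟩
    have : Subsingleton P := ⟨fun a b => by rw [htriv a, htriv b]⟩
    infer_instance
  push Not at htriv
  obtain ⟨g₀, hg₀⟩ := htriv
  obtain ⟨e₀, he₀⟩ : ∃ e₀ : E, e₀ ≠ 0 := by
    by_contra hno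
    push Not at hno
    apply hg₀
    apply eq_of_smul_eq_smul (α := E)
    intro e
    rw [hno e, smul_zero, smul_zero]
  have hpq : p.Coprime q := by
    rw [Nat.coprime_primes hp hq]
    rintro rfl
    have hmod := hP.card_modEq_card_fixedPoints E
    have hdvdE : p ∣ Nat.card E := by
      have h1 : addOrderOf e₀ ∣ p := addOrderOf_dvd_of_nsmul_eq_zero (hE e₀)
      have h2 : addOrderOf e₀ = p := by
        rcases (Nat.dvd_prime hp).1 h1 with h | h
        · exact absurd (AddMonoid.addOrderOf_eq_one_iff.1 h) he₀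
        · exact h
      rw [← h2]
      exact addOrderOf_dvd_natCard e₀
    have hdvdF : p ∣ Nat.card (MulAction.fixedPoints P E) :=
      (Nat.modEq_zero_iff_dvd.1 ((hmod.symm).trans (Nat.modEq_zero_iff_dvd.2 hdvdE)))
    have hne : Nonempty (MulAction.fixedPoints P E) := ⟨⟨0, fun g => smul_zero g⟩⟩
    have hF1 : 1 < Nat.card (MulAction.fixedPoints P E) :=
      lt_of_lt_of_le hp.one_lt (Nat.le_of_dvd Nat.card_pos hdvdF)
    have hnt := (Finite.one_lt_card_iff_nontrivial).1 hF1
    obtain ⟨⟨a, ha⟩, ha0⟩ := exists_ne (⟨0, fun g => smul_zero g⟩ : MulAction.fixedPoints P E)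
    have ha0' : a ≠ 0 := fun h => ha0 (Subtype.ext h)
    have htop : MulAction.stabilizer P a = ⊤ := by
      rw [eq_top_iff]
      intro g _
      exact ha g
    apply hg₀
    apply eq_of_smul_eq_smul (α := E)
    intro b
    rw [one_smul]
    by_cases hb : b = 0
    · rw [hb, smul_zero]
    · have hc := hconst b a hb ha0'
      rw [htop, Subgroup.card_top] at hc
      have h1 : MulAction.stabilizer P b = ⊤ := Subgroup.eq_top_of_card_eq _ hc
      have hg : g₀ ∈ MulAction.stabilizer P b := h1 ▸ Subgroup.mem_top _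
      exact hg
  have fpf : ∀ w : P, w ∈ Subgroup.center P → w ≠ 1 → w ^ p = 1 → ∀ a : E, w • a = a → a = 0 :=
    fun w hwc hw1 hwp a ha => central_fpf hpq hE hconst hwc hw1 hwp a ha
  have hcyc : IsCyclic P := by
    by_contra hnc
    have hnc' : ¬ IsCyclic (⊤ : Subgroup P) := by
      intro h
      exact hnc (isCyclic_of_surjective (Subgroup.topEquiv : (⊤ : Subgroup P) ≃* P)
        Subgroup.topEquiv.surjective)
    obtain ⟨A, -, hAn, ⟨hAc, hAp⟩, hAcard⟩ :=
      Lib.Helper15.exists_normal_elementary_abelian_sq hp2 hP ⊤ hnc'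
    have hAbot : A ≠ ⊥ := by
      intro h
      rw [h, Subgroup.card_bot] at hAcard
      have := hp.one_lt
      nlinarith
    obtain ⟨z, hzA, hzo, hzc⟩ := Lib.Helper15.exists_central_order_p hP A hAbot
    exact no_normal_rank_two hp2 hP hpq hE hconst A
      (fun a ha b hb => congrArg Subtype.val (hAc.is_comm.comm ⟨a, ha⟩ ⟨b, hb⟩))
      hAp hAcard z hzA hzo hzc
  refine ⟨hcyc, ?_⟩
  intro g hg a hga
  obtain ⟨c, hc⟩ := hcyc.exists_generator
  have hcomm : ∀ u v : P, u * v = v * u := by
    intro u v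
    obtain ⟨m, rfl⟩ := Subgroup.mem_zpowers_iff.1 (hc u)
    obtain ⟨n, rfl⟩ := Subgroup.mem_zpowers_iff.1 (hc v)
    exact (Commute.zpow_zpow_self c m n).eq
  obtain ⟨n, hn⟩ := hP g
  obtain ⟨j, hj, hoj⟩ := (Nat.dvd_prime_pow hp).1 (orderOf_dvd_of_pow_eq_one hn)
  have hj0 : j ≠ 0 := by
    rintro rfl
    rw [pow_zero, orderOf_eq_one_iff] at hoj
    exact hg hoj
  have hw1 : g ^ (p ^ (j - 1)) ≠ 1 := by
    intro h1
    have h2 := orderOf_dvd_of_pow_eq_one h1
    rw [hoj] at h2
    have h3 := (Nat.pow_dvd_pow_iff_le_right hp.one_lt).1 h2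
    omega
  have hwp : (g ^ (p ^ (j - 1))) ^ p = 1 := by
    rw [← pow_mul, ← pow_succ, Nat.sub_add_cancel (Nat.pos_of_ne_zero hj0), ← hoj]
    exact pow_orderOf_eq_one g
  have hwa : g ^ (p ^ (j - 1)) • a = a := by
    have hs : g ∈ MulAction.stabilizer P a := hga
    exact Subgroup.pow_mem _ hs _
  exact fpf _ (Subgroup.mem_center_iff.2 (fun h => hcomm h _)) hw1 hwp a hwa

end Cfsg.Agent.S1160
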