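import Cfsg.Statements.S0341
import Cfsg.Agent.S0035
import Cfsg.Agent.S0042
import Cfsg.Agent.S1160
import Cfsg.Agent.Lib.Helper23.CitField

set_option autoImplicit false
open Cfsg
open scoped Pointwise

namespace Cfsg.Agent.S0341

/-- a finite nilpotent group all of whose Sylow subgroups are cyclic is commutative -/
theorem comm_of_nilpotent_of_sylow_cyclic {A : Type*} [Group A] [Finite A]
    (hnil : Group.IsNilpotent A)
    (hcyc : ∀ (p : ℕ) [Fact p.Prime] (P : Sylow p A), IsCyclic P) :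
    ∀ x y : A, x * y = y * x := by
  classical
  have h := (Group.isNilpotent_of_finite_tfae (G := A)).out 0 4
  obtain ⟨e⟩ := h.mp hnil
  intro x y
  obtain ⟨u, rfl⟩ := e.surjective x
  obtain ⟨v, rfl⟩ := e.surjective y
  rw [← map_mul, ← map_mul]
  congr 1
  funext p P
  have : Fact (p : ℕ).Prime := ⟨Nat.prime_of_mem_primeFactors p.2⟩
  have hc := hcyc p P
  show u p P * v p P = v p P * u p P
  exact (isMulCommutative_iff.mp hc.isMulCommutative) _ _

/-- a `p`-group (`p` odd) acting by conjugation semiregularly on the non-identity elements of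
an elementary abelian `2`-subgroup is cyclic -/
theorem cyclic_of_semiregular_conj {G : Type*} {P : Type*} [Group G] [Group P] [Finite P]
    (N : Subgroup G) [Finite N] (φ : P →* G) {p : ℕ} [Fact p.Prime] (hp2 : p ≠ 2)
    (hP : IsPGroup p P) (hN2 : ∀ n ∈ N, n ^ 2 = 1)
    (hNcomm : ∀ x ∈ N, ∀ y ∈ N, x * y = y * x)
    (hnorm : ∀ x : P, ∀ n ∈ N, φ x * n * (φ x)⁻¹ ∈ N)
    (hsemi : ∀ x : P, x ≠ 1 → ∀ n ∈ N, n ≠ 1 → φ x * n * (φ x)⁻¹ ≠ n)
    (hN1 : ∃ n ∈ N, n ≠ 1) : IsCyclic P := by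
  classical
  let instCG : CommGroup N :=
    { (inferInstance : Group N) with
      mul_comm := fun a b => Subtype.ext (hNcomm a a.2 b b.2) }
  let act : DistribMulAction P (Additive N) :=
    { smul := fun x w => Additive.ofMul (⟨φ x * ((Additive.toMul w : N) : G) * (φ x)⁻¹,
        hnorm x _ (Additive.toMul w).2⟩ : N)
      one_smul := by
        intro w
        apply Additive.toMul.injective
        apply Subtype.ext
        show φ 1 * ((Additive.toMul w : N) : G) * (φ 1)⁻¹ = ((Additive.toMul w : N) : G)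
        rw [map_one]; group
      mul_smul := by
        intro x y w
        apply Additive.toMul.injective
        apply Subtype.ext
        show φ (x * y) * ((Additive.toMul w : N) : G) * (φ (x * y))⁻¹ =
          φ x * (φ y * ((Additive.toMul w : N) : G) * (φ y)⁻¹) * (φ x)⁻¹
        rw [map_mul]; group
      smul_zero := by
        intro x
        apply Additive.toMul.injective
        apply Subtype.ext
        show φ x * (1 : G) * (φ x)⁻¹ = 1
        group
      smul_add := by
        intro x w w'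
        apply Additive.toMul.injective
        apply Subtype.ext
        show φ x * (((Additive.toMul w : N) : G) * ((Additive.toMul w' : N) : G)) * (φ x)⁻¹ =
          φ x * ((Additive.toMul w : N) : G) * (φ x)⁻¹ *
            (φ x * ((Additive.toMul w' : N) : G) * (φ x)⁻¹)
        group }
  have hact : ∀ (x : P) (w : Additive N), ((Additive.toMul (x • w) : N) : G) =
      φ x * ((Additive.toMul w : N) : G) * (φ x)⁻¹ := fun _ _ => rfl
  have hstab : ∀ (x : P) (w : Additive N), w ≠ 0 → x • w = w → x = 1 := by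
    intro x w hw hxw
    by_contra hx1
    apply hsemi x hx1 ((Additive.toMul w : N) : G) (Additive.toMul w).2
    · intro h
      apply hw
      apply Additive.toMul.injective
      exact Subtype.ext h
    · rw [← hact, hxw]
  obtain ⟨n₀, hn₀, hn₀1⟩ := hN1
  have hw₀ : (Additive.ofMul (⟨n₀, hn₀⟩ : N) : Additive N) ≠ 0 := by
    intro h
    apply hn₀1
    exact congrArg Subtype.val (Additive.ofMul.injective h)
  have hfaith : FaithfulSMul P (Additive N) := ⟨fun {x y} h => by
    have h1 : (y⁻¹ * x) • (Additive.ofMul (⟨n₀, hn₀⟩ : N) : Additive N) =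
        Additive.ofMul (⟨n₀, hn₀⟩ : N) := by
      rw [mul_smul, h, inv_smul_smul]
    have := hstab _ _ hw₀ h1
    exact (inv_mul_eq_one.mp this).symm⟩
  have hE : ∀ e : Additive N, 2 • e = 0 := by
    intro e
    apply Additive.toMul.injective
    apply Subtype.ext
    show (((Additive.toMul e : N) ^ 2 : N) : G) = 1
    rw [Subgroup.coe_pow]
    exact hN2 _ (Additive.toMul e).2
  have hconst : ∀ a b : Additive N, a ≠ 0 → b ≠ 0 →
      Nat.card (MulAction.stabilizer P a) = Nat.card (MulAction.stabilizer P b) := by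
    intro a b ha hb
    have h1 : MulAction.stabilizer P a = ⊥ := by
      rw [eq_bot_iff]
      intro x hx
      exact Subgroup.mem_bot.mpr (hstab x a ha hx)
    have h2 : MulAction.stabilizer P b = ⊥ := by
      rw [eq_bot_iff]
      intro x hx
      exact Subgroup.mem_bot.mpr (hstab x b hb hx)
    rw [h1, h2]
  exact (Cfsg.Agent.S1160.result (P := P) (E := Additive N) (p := p) (q := 2) hp2 hP
    Nat.prime_two hE hconst).1

theorem result {G Ω : Type*} [Group G]
    [MulAction G Ω] [Fintype Ω] [FaithfulSMul G Ω] (h2 : MulAction.IsMultiplyPretransitive G Ω 2)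
    (h3 : ∀ g : G, ∀ a b c : Ω, a ≠ b → b ≠ c → a ≠ c → g • a = a → g • b = b → g • c = c → g = 1)
    (hfix : ∃ g : G, g ≠ 1 ∧ ∃ a b : Ω, a ≠ b ∧ g • a = a ∧ g • b = b)
    (N : Subgroup G) [N.Normal] (hNt : MulAction.IsPretransitive N Ω)
    (hNr : ∀ a : Ω, MulAction.stabilizer N a = ⊥) :
    ∃ p : ℕ, p.Prime ∧ Fintype.card Ω = 2 ^ p := by
  classical
  obtain ⟨g₀, hg₀1, a, b, hab, hg₀a, hg₀b⟩ := hfix
  have hGfin : Finite G := Finite.of_injective _ (MulAction.toPerm_injective (α := G) (β := Ω))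
  -- regularity of N
  have hNuniq : ∀ n ∈ N, ∀ m ∈ N, n • a = m • a → n = m := by
    intro n hn m hm h
    have h1 : (⟨m⁻¹ * n, N.mul_mem (N.inv_mem hm) hn⟩ : N) ∈ MulAction.stabilizer N a := by
      rw [MulAction.mem_stabilizer_iff]
      show (m⁻¹ * n) • a = a
      rw [mul_smul, h, inv_smul_smul]
    rw [hNr a, Subgroup.mem_bot] at h1
    have h2 : m⁻¹ * n = 1 := congrArg Subtype.val h1
    exact (inv_mul_eq_one.mp h2).symm
  have hNex : ∀ ω : Ω, ∃ n ∈ N, n • a = ω := by
    intro ω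
    obtain ⟨n, hn⟩ := hNt.exists_smul_eq a ω
    exact ⟨n, n.2, hn⟩
  have hconj : ∀ h : G, h • a = a → ∀ n : G, (h * n * h⁻¹) • a = h • n • a := by
    intro h ha n
    rw [mul_smul, mul_smul, inv_smul_eq_iff.mpr ha.symm]
  have hNconj : ∀ h : G, ∀ n ∈ N, h * n * h⁻¹ ∈ N := fun h n hn =>
    (inferInstance : N.Normal).conj_mem n hn h
  obtain ⟨ε, hεN, hεb⟩ := hNex b
  have hε1 : ε ≠ 1 := by
    rintro rfl
    rw [one_smul] at hεb
    exact hab hεb
  have hfixcomm : ∀ h : G, h • a = a → ∀ n ∈ N, (h • n • a = n • a ↔ h * n * h⁻¹ = n) := by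
    intro h ha n hn
    constructor
    · intro hh
      apply hNuniq _ (hNconj h n hn) _ hn
      rw [hconj h ha, hh]
    · intro hh
      rw [← hconj h ha, hh]
  have h2' : ∀ c : Ω, c ≠ a → ∃ h : G, h • a = a ∧ h • b = c := by
    intro c hc
    exact (MulAction.is_two_pretransitive_iff.mp h2) hab hc.symm
  have hNtr : ∀ n ∈ N, n ≠ 1 → ∃ h : G, h • a = a ∧ h * ε * h⁻¹ = n := by
    intro n hn hn1
    have hna : n • a ≠ a := fun h => hn1 (hNuniq n hn 1 N.one_mem (by rw [h, one_smul]))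
    obtain ⟨h, hha, hhb⟩ := h2' (n • a) hna
    refine ⟨h, hha, hNuniq _ (hNconj h ε hεN) n hn ?_⟩
    rw [hconj h hha, hεb, hhb]
  -- the key property of fixed points: an element fixing a and commuting with two distinct
  -- non-identity elements of N is trivial
  have hkey : ∀ d : G, d • a = a → ∀ n ∈ N, ∀ m ∈ N, n ≠ 1 → m ≠ 1 → n ≠ m →
      d * n * d⁻¹ = n → d * m * d⁻¹ = m → d = 1 := by
    intro d hda n hn m hm hn1 hm1 hnm hdn hdm
    have hna : n • a ≠ a := fun h => hn1 (hNuniq n hn 1 N.one_mem (by rw [h, one_smul]))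
    have hma : m • a ≠ a := fun h => hm1 (hNuniq m hm 1 N.one_mem (by rw [h, one_smul]))
    have hnma : n • a ≠ m • a := fun h => hnm (hNuniq n hn m hm h)
    exact h3 d a (n • a) (m • a) hna.symm hnma hma.symm hda
      ((hfixcomm d hda n hn).mpr hdn) ((hfixcomm d hda m hm).mpr hdm)
  have hg₀ε : g₀ * ε * g₀⁻¹ = ε := (hfixcomm g₀ hg₀a ε hεN).mp (by rw [hεb, hg₀b])
  have hε2 : ε ^ 2 = 1 := by
    have hε2N : ε ^ 2 ∈ N := N.pow_mem hεN 2
    have hcomm2 : g₀ * ε ^ 2 * g₀⁻¹ = ε ^ 2 := by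
      rw [← conj_pow, hg₀ε]
    by_contra hne
    have hne2 : ε ≠ ε ^ 2 := by
      intro h
      apply hε1
      have : ε * 1 = ε * ε := by rw [mul_one, ← sq]; exact h
      exact (mul_left_cancel this).symm
    exact hg₀1 (hkey g₀ hg₀a ε hεN (ε ^ 2) hε2N hε1 hne hne2 hg₀ε hcomm2)
  have hN2 : ∀ n ∈ N, n ^ 2 = 1 := by
    intro n hn
    by_cases hn1 : n = 1
    · rw [hn1, one_pow]
    · obtain ⟨h, -, rfl⟩ := hNtr n hn hn1
      rw [conj_pow, hε2]
      group
  have hNinv : ∀ x ∈ N, x⁻¹ = x := fun x hx =>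
    inv_eq_of_mul_eq_one_left (by rw [← sq]; exact hN2 x hx)
  have hNcomm : ∀ x ∈ N, ∀ y ∈ N, x * y = y * x := by
    intro x hx y hy
    calc x * y = (x * y)⁻¹ := (hNinv _ (N.mul_mem hx hy)).symm
      _ = y⁻¹ * x⁻¹ := mul_inv_rev x y
      _ = y * x := by rw [hNinv x hx, hNinv y hy]
  -- the point stabilizer and the two-point stabilizer
  set H : Subgroup G := MulAction.stabilizer G a with hH
  set D : Subgroup G := H ⊓ MulAction.stabilizer G b with hD
  have hmemH : ∀ x : G, x ∈ H ↔ x • a = a := fun x => MulAction.mem_stabilizer_iff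
  have hmemD : ∀ x : G, x ∈ D ↔ x • a = a ∧ x • b = b := fun x => by
    rw [hD, Subgroup.mem_inf, hmemH, MulAction.mem_stabilizer_iff]
  have hconjinv : ∀ (k x : H), (((MulAut.conj k)⁻¹ • x : H) : G) = (k : G)⁻¹ * (x : G) * (k : G) := by
    intro k x
    rw [← map_inv, MulAut.smul_def, MulAut.conj_apply]
    simp
  have hFC : Cfsg.IsFrobeniusComplement (D.subgroupOf H) := by
    refine ⟨?_, ?_, ?_⟩
    · intro hbot
      have : (⟨g₀, (hmemH g₀).mpr hg₀a⟩ : H) ∈ D.subgroupOf H := by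
        rw [Subgroup.mem_subgroupOf]; exact (hmemD g₀).mpr ⟨hg₀a, hg₀b⟩
      rw [hbot, Subgroup.mem_bot] at this
      exact hg₀1 (congrArg Subtype.val this)
    · intro htop
      obtain ⟨c, hca, hcb⟩ : ∃ c : Ω, c ≠ a ∧ c ≠ b := by
        by_contra hcon
        push Not at hcon
        apply hg₀1
        apply FaithfulSMul.eq_of_smul_eq_smul (α := Ω)
        intro c
        rw [one_smul]
        by_cases hca : c = a
        · rw [hca, hg₀a]
        · rw [hcon c hca, hg₀b]
      obtain ⟨h, hha, hhb⟩ := h2' c hca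
      have : (⟨h, (hmemH h).mpr hha⟩ : H) ∈ D.subgroupOf H := by rw [htop]; exact Subgroup.mem_top _
      rw [Subgroup.mem_subgroupOf] at this
      have := ((hmemD h).mp this).2
      exact hcb (by rw [← hhb, this])
    · intro h hh
      rw [eq_bot_iff]
      intro x hx
      rw [Subgroup.mem_inf] at hx
      obtain ⟨hx1, hx2⟩ := hx
      rw [Subgroup.mem_pointwise_smul_iff_inv_smul_mem] at hx2
      rw [Subgroup.mem_subgroupOf] at hx1 hx2
      rw [hconjinv] at hx2
      rw [Subgroup.mem_bot]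
      apply Subtype.ext
      show (x : G) = 1
      have hha : (h : G) • a = a := (hmemH _).mp h.2
      have hhb : (h : G) • b ≠ b := by
        intro hb
        apply hh
        rw [Subgroup.mem_subgroupOf]
        exact (hmemD _).mpr ⟨hha, hb⟩
      have hhba : (h : G) • b ≠ a := by
        intro hb
        apply hab
        have : (h : G) • b = (h : G) • a := by rw [hb, hha]
        exact (smul_left_cancel _ this).symm
      obtain ⟨hxa, hxb⟩ := (hmemD _).mp hx1
      have hxc : (x : G) • ((h : G) • b) = (h : G) • b := by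
        have := ((hmemD _).mp hx2).2
        rw [mul_smul, mul_smul, inv_smul_eq_iff] at this
        exact this
      exact h3 (x : G) a b ((h : G) • b) hab hhb.symm hhba.symm hxa hxb hxc
  obtain ⟨A, hAset, hAnorm, hAcompl⟩ := Cfsg.Agent.S0035.result (D.subgroupOf H) hFC
  obtain ⟨A₂, hA₂set, -, hA₂nil⟩ := Cfsg.Agent.S0042.result (D.subgroupOf H) hFC
  have hAA : A₂ = A := SetLike.coe_injective (hA₂set.trans hAset.symm)
  subst hAA
  have hAker : ∀ x : H, x ∈ A₂ → x ≠ 1 → ∀ k : H, x ∉ MulAut.conj k • D.subgroupOf H := by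
    intro x hx hx1 k
    have : x ∈ (A₂ : Set H) := hx
    rw [hAset] at this
    rcases this with h | h
    · exact absurd h hx1
    · exact h k
  have hsemi : ∀ x : H, x ∈ A₂ → x ≠ 1 → ∀ n ∈ N, n ≠ 1 → (x : G) * n * (x : G)⁻¹ ≠ n := by
    intro x hx hx1 n hn hn1 hcomm
    obtain ⟨k, hka, hkn⟩ := hNtr n hn hn1
    apply hAker x hx hx1 ⟨k, (hmemH k).mpr hka⟩
    rw [Subgroup.mem_pointwise_smul_iff_inv_smul_mem, Subgroup.mem_subgroupOf, hconjinv, hmemD]
    have hxa : (x : G) • a = a := (hmemH _).mp x.2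
    have hkb : k • b = n • a := by rw [← hεb, ← hconj k hka, hkn]
    have hxn : (x : G) • n • a = n • a := (hfixcomm _ hxa n hn).mpr hcomm
    constructor
    · show (k⁻¹ * (x : G) * k) • a = a
      rw [mul_smul, mul_smul, hka, hxa, inv_smul_eq_iff, hka]
    · show (k⁻¹ * (x : G) * k) • b = b
      rw [mul_smul, mul_smul, hkb, hxn, inv_smul_eq_iff, hkb]
  have hDε : ∀ d ∈ D, d * ε * d⁻¹ = ε := by
    intro d hd
    obtain ⟨hda, hdb⟩ := (hmemD d).mp hd
    exact (hfixcomm d hda ε hεN).mp (by rw [hεb, hdb])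
  have hAtr : ∀ n ∈ N, n ≠ 1 → ∃ x : H, x ∈ A₂ ∧ (x : G) * ε * (x : G)⁻¹ = n := by
    intro n hn hn1
    obtain ⟨k, hka, hkn⟩ := hNtr n hn hn1
    have hk : (⟨k, (hmemH k).mpr hka⟩ : H) ∈ (A₂ : Set H) * (D.subgroupOf H : Set H) := by
      rw [hAcompl.mul_eq]
      exact Set.mem_univ _
    obtain ⟨x, hx, d, hd, hxd⟩ := Set.mem_mul.mp hk
    refine ⟨x, hx, ?_⟩
    have hkxd : k = (x : G) * (d : G) := (congrArg Subtype.val hxd).symm
    rw [← hkn, hkxd]
    have := hDε (d : G) (Subgroup.mem_subgroupOf.mp hd)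
    have e1 : (x : G) * (d : G) * ε * ((x : G) * (d : G))⁻¹ =
        (x : G) * ((d : G) * ε * (d : G)⁻¹) * (x : G)⁻¹ := by group
    rw [e1, this]
  -- A has odd order
  have hAinv : ∀ x : H, x ∈ A₂ → x ^ 2 = 1 → x = 1 := by
    intro x hx hx2
    by_contra hx1
    have hnN : (x : G) * ε * (x : G)⁻¹ ∈ N := hNconj _ ε hεN
    have hnε : (x : G) * ε * (x : G)⁻¹ ≠ ε := hsemi x hx hx1 ε hεN hε1
    have hx2' : (x : G) * (x : G) = 1 := by
      have := congrArg Subtype.val hx2
      rw [sq] at this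
      exact this
    have hxn : (x : G) * ((x : G) * ε * (x : G)⁻¹) * (x : G)⁻¹ = ε := by
      have : (x : G) * ((x : G) * ε * (x : G)⁻¹) * (x : G)⁻¹ =
          ((x : G) * (x : G)) * ε * ((x : G) * (x : G))⁻¹ := by group
      rw [this, hx2']
      group
    have hεn1 : ε * ((x : G) * ε * (x : G)⁻¹) ≠ 1 := by
      intro h
      apply hnε
      have h' := eq_inv_of_mul_eq_one_right h
      rw [hNinv ε hεN] at h'
      exact h'
    apply hsemi x hx hx1 (ε * ((x : G) * ε * (x : G)⁻¹)) (N.mul_mem hεN hnN) hεn1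
    have : (x : G) * (ε * ((x : G) * ε * (x : G)⁻¹)) * (x : G)⁻¹ =
        ((x : G) * ε * (x : G)⁻¹) * ((x : G) * ((x : G) * ε * (x : G)⁻¹) * (x : G)⁻¹) := by group
    rw [this, hxn]
    exact hNcomm _ hnN ε hεN
  have hAodd : ¬ 2 ∣ Nat.card A₂ := by
    intro h2dvd
    obtain ⟨x, hx⟩ := exists_prime_orderOf_dvd_card' 2 h2dvd
    have hx1 : x ≠ 1 := by
      rintro rfl
      rw [orderOf_one] at hx
      omega
    have hx2 : x ^ 2 = 1 := by rw [← hx]; exact pow_orderOf_eq_one x
    apply hx1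
    have := hAinv (x : H) x.2 (by rw [← Subgroup.coe_pow, hx2]; rfl)
    exact Subtype.ext this
  have hAcomm : ∀ x y : A₂, x * y = y * x := by
    apply comm_of_nilpotent_of_sylow_cyclic hA₂nil
    intro p hp P
    by_cases hp2 : p = 2
    · subst hp2
      have hc : Nat.card P = 1 := by
        rcases P.isPGroup'.card_eq_or_dvd with h | h
        · exact h
        · exact absurd (h.trans (Subgroup.card_subgroup_dvd_card _)) hAodd
      have : Subsingleton P := (Nat.card_eq_one_iff_unique.mp hc).1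
      exact isCyclic_of_subsingleton
    · exact cyclic_of_semiregular_conj N
        (H.subtype.comp (A₂.subtype.comp (P : Subgroup A₂).subtype)) hp2 P.isPGroup' hN2 hNcomm
        (fun x n hn => hNconj _ n hn)
        (fun x hx1 n hn hn1 => hsemi ((x : A₂) : H) (x : A₂).2
          (fun h => hx1 (Subtype.ext (Subtype.ext h))) n hn hn1) ⟨ε, hεN, hε1⟩
  -- the field
  obtain ⟨K, instF, instFin, τ, hchar, hcardK, hτN, hτinj, hτsurj, hτ0, hτ1, hτadd, hτmul⟩ :=
    Cfsg.Agent.Lib.Helper23.exists_field_of_group N (A₂.map H.subtype) hNcomm hN2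
      (fun h _ t ht => hNconj h t ht)
      (by
        rintro _ ⟨x, hx, rfl⟩ _ ⟨y, hy, rfl⟩
        exact congrArg (fun z : A₂ => ((z : H) : G)) (hAcomm ⟨x, hx⟩ ⟨y, hy⟩))
      ε hεN hε1
      (by
        intro t ht ht1
        obtain ⟨x, hx, hxt⟩ := hAtr t ht ht1
        exact ⟨x, ⟨x, hx, rfl⟩, hxt⟩)
  have hcardN : Nat.card N = Fintype.card Ω := by
    rw [← Nat.card_eq_fintype_card]
    apply Nat.card_congr
    exact Equiv.ofBijective (fun n : N => (n : G) • a)
      ⟨fun n m h => Subtype.ext (hNuniq n n.2 m m.2 h), fun ω => by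
        obtain ⟨n, hn, h⟩ := hNex ω
        exact ⟨⟨n, hn⟩, h⟩⟩
  -- conjugation transported to K
  have hαex : ∀ (d : G) (x : K), ∃ y : K, τ y = d * τ x * d⁻¹ := fun d x =>
    hτsurj _ (hNconj d _ (hτN x))
  choose αf hαf using hαex
  have hαadd : ∀ d x y, αf d (x + y) = αf d x + αf d y := by
    intro d x y
    apply hτinj
    rw [hαf, hτadd, hτadd, hαf, hαf]
    group
  have hα0 : ∀ d, αf d 0 = 0 := by
    intro d
    apply hτinj
    rw [hαf, hτ0]
    group
  have hαone : ∀ x, αf 1 x = x := by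
    intro x
    apply hτinj
    rw [hαf]
    group
  have hαcomp : ∀ d d' x, αf (d * d') x = αf d (αf d' x) := by
    intro d d' x
    apply hτinj
    rw [hαf, hαf, hαf]
    group
  have hα1 : ∀ d ∈ D, αf d 1 = 1 := by
    intro d hd
    apply hτinj
    rw [hαf, hτ1, hDε d hd]
  -- multiplication by a nonzero element is conjugation by an element of A
  have hmulA : ∀ x : K, x ≠ 0 → ∃ h ∈ A₂.map H.subtype, ∀ c, τ (x * c) = h * τ c * h⁻¹ := by
    intro x hx
    have hx1 : τ x ≠ 1 := fun h => hx (hτinj (h.trans hτ0.symm))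
    obtain ⟨y, hy, hyx⟩ := hAtr (τ x) (hτN x) hx1
    have hyA : (y : G) ∈ A₂.map H.subtype := ⟨y, hy, rfl⟩
    obtain ⟨k, hk⟩ := hτmul (y : G) hyA
    have hkx : k = x := by
      apply hτinj
      have := hk 1
      rw [mul_one, hτ1, hyx] at this
      exact this
    rw [hkx] at hk
    exact ⟨(y : G), hyA, hk⟩
  have hαmul : ∀ d ∈ D, ∀ x y, αf d (x * y) = αf d x * αf d y := by
    intro d hd x y
    by_cases hx : x = 0
    · rw [hx, zero_mul, hα0, zero_mul]
    obtain ⟨h, hhA, hh⟩ := hmulA x hx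
    have hdH : d ∈ H := (hmemH d).mpr ((hmemD d).mp hd).1
    have hconjA : d * h * d⁻¹ ∈ A₂.map H.subtype := by
      obtain ⟨y, hy, rfl⟩ := hhA
      exact ⟨(⟨d, hdH⟩ : H) * y * (⟨d, hdH⟩ : H)⁻¹, hAnorm.conj_mem y hy _, rfl⟩
    obtain ⟨k', hk'⟩ := hτmul _ hconjA
    have hk'x : k' = αf d x := by
      apply hτinj
      have := hk' 1
      rw [mul_one, hτ1] at this
      rw [this, hαf]
      have hx1 := hh 1
      rw [mul_one, hτ1] at hx1
      rw [hx1]
      have hε' := hDε d hd
      have hε'' : d⁻¹ * ε * d = ε := by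
        calc d⁻¹ * ε * d = d⁻¹ * (d * ε * d⁻¹) * d := by rw [hε']
          _ = ε := by group
      calc d * h * d⁻¹ * ε * (d * h * d⁻¹)⁻¹ = d * (h * (d⁻¹ * ε * d) * h⁻¹) * d⁻¹ := by group
        _ = d * (h * ε * h⁻¹) * d⁻¹ := by rw [hε'']
    rw [hk'x] at hk'
    apply hτinj
    rw [hk', hαf, hαf, hh]
    group
  -- an element of prime order in D
  obtain ⟨ℓ, hℓ, hℓdvd⟩ := Nat.exists_prime_and_dvd (n := orderOf g₀) (by
    rw [Ne, orderOf_eq_one_iff]; exact hg₀1)
  set g := g₀ ^ (orderOf g₀ / ℓ) with hg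
  have hgord : orderOf g = ℓ := orderOf_pow_orderOf_div (orderOf_pos g₀).ne' hℓdvd
  have hgD : g ∈ D := D.pow_mem ((hmemD g₀).mpr ⟨hg₀a, hg₀b⟩) _
  have hg1 : g ≠ 1 := by
    intro h
    rw [h, orderOf_one] at hgord
    exact hℓ.ne_one hgord.symm
  have hga : g • a = a := ((hmemD g).mp hgD).1
  let σh : K →+* K :=
    { toFun := αf g
      map_one' := hα1 g hgD
      map_mul' := hαmul g hgD
      map_zero' := hα0 g
      map_add' := hαadd g }
  let σ : K ≃+* K := RingEquiv.ofBijective σh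
    ⟨σh.injective, Finite.injective_iff_surjective.mp σh.injective⟩
  have hσ : ∀ x, σ x = αf g x := fun x => rfl
  have hσpow : ∀ (n : ℕ) (x : K), (σ ^ n) x = αf (g ^ n) x := by
    intro n
    induction n with
    | zero =>
      intro x
      rw [pow_zero, pow_zero, hαone]
      rfl
    | succ n ih =>
      intro x
      rw [pow_succ, pow_succ, hαcomp, ← hσ, ← ih]
      rfl
  have hσℓ : σ ^ ℓ = 1 := by
    ext x
    rw [hσpow, ← hgord, pow_orderOf_eq_one, hαone]
    rfl
  have hσ1 : σ ≠ 1 := by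
    intro h
    apply hg1
    apply FaithfulSMul.eq_of_smul_eq_smul (α := Ω)
    intro c
    rw [one_smul]
    obtain ⟨n, hn, rfl⟩ := hNex c
    obtain ⟨x, rfl⟩ := hτsurj n hn
    apply (hfixcomm g hga _ (hτN x)).mpr
    rw [← hαf, ← hσ, h]
    rfl
  have hℓfact : Fact ℓ.Prime := ⟨hℓ⟩
  have hσord : orderOf σ = ℓ := orderOf_eq_prime hσℓ hσ1
  have hfinAut : Finite (K ≃+* K) :=
    Finite.of_injective (fun e : K ≃+* K => (e : K → K)) DFunLike.coe_injective
  let Z : Subgroup (K ≃+* K) := Subgroup.zpowers σ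
  have hZfin : Fintype Z := Fintype.ofFinite Z
  have hrank := FixedPoints.finrank_eq_card Z K
  have hcardZ : Fintype.card Z = ℓ := by
    rw [← Nat.card_eq_fintype_card, Nat.card_zpowers, hσord]
  have hF : ∀ x : K, x ∈ FixedPoints.subfield Z K → x = 0 ∨ x = 1 := by
    intro x hx
    have hσx : σ x = x := hx ⟨σ, Subgroup.mem_zpowers σ⟩
    by_contra hcon
    push Not at hcon
    apply hg1
    have hcomm : g * τ x * g⁻¹ = τ x := by rw [← hαf, ← hσ, hσx]
    exact hkey g hga ε hεN (τ x) (hτN x) hε1 (fun h => hcon.1 (hτinj (h.trans hτ0.symm)))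
      (fun h => hcon.2 (hτinj (hτ1.trans h)).symm) (hDε g hgD) hcomm
  have hFfin : Fintype (FixedPoints.subfield Z K) := Fintype.ofFinite _
  have hcardF : Fintype.card (FixedPoints.subfield Z K) = 2 := by
    rw [← Nat.card_eq_fintype_card, Nat.card_eq_two_iff]
    refine ⟨0, 1, zero_ne_one, ?_⟩
    ext x
    simp only [Set.mem_insert_iff, Set.mem_singleton_iff, Set.mem_univ, iff_true]
    rcases hF (x : K) x.2 with h | h
    · left
      exact Subtype.ext h
    · right
      exact Subtype.ext h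
  refine ⟨ℓ, hℓ, ?_⟩
  rw [← hcardN, ← hcardK, Module.card_eq_pow_finrank (K := FixedPoints.subfield Z K) (V := K),
    hcardF, hrank, hcardZ]

end Cfsg.Agent.S0341
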