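import Cfsg.Statements.S0357
import Cfsg.Agent.Lib.Helper9.Steiner5824

set_option autoImplicit false
open Cfsg

namespace Cfsg.Agent.S0357

open Finset Cfsg.Agent.Lib.Helper9 in
/-- In a Steiner system S(5, 6, 12), the complement of every block is again a block. -/
theorem result {α : Type*} [Fintype α] [DecidableEq α] (hα : Fintype.card α = 12) {B : Set (Finset α)} (hB : Cfsg.IsSteinerSystem 5 6 B) {b : Finset α} (hb : b ∈ B) : bᶜ ∈ B := by
  classical
  have hbcard : b.card = 6 := hB.1 b hb
  have e := fun j (hj : j ≤ 5) =>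
    sum_choose_mul_card_inter hB ∅ b (disjoint_empty_left b) j (by simpa using hj)
  have e0 := e 0 (by norm_num)
  have e1 := e 1 (by norm_num)
  have e2 := e 2 (by norm_num)
  have e3 := e 3 (by norm_num)
  have e4 := e 4 (by norm_num)
  simp only [interNum_eq, hbcard, hα, card_empty, zero_add, sum_range_succ, sum_range_zero] at e0 e1 e2 e3 e4
  have h6 := interNum_self hB hb
  have h5 := interNum_eq_zero hB hb (i := 5) (by norm_num) (by norm_num)
  rw [h5, h6] at e0 e1 e2 e3 e4
  norm_num [Nat.choose] at e0 e1 e2 e3 e4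
  have h0 : interNum B b 0 = 1 := by omega
  rw [interNum, card_eq_one] at h0
  obtain ⟨c, hc⟩ := h0
  have hc' : c ∈ (blocksFin B).filter (fun c => (b ∩ c).card = 0) := by
    rw [hc]; exact mem_singleton_self c
  rw [mem_filter, mem_blocksFin, card_eq_zero, ← disjoint_iff_inter_eq_empty] at hc'
  have hsub : c ⊆ bᶜ := by
    intro x hx
    rw [mem_compl]
    exact fun hxb => (disjoint_left.mp hc'.2) hxb hx
  have : c = bᶜ := by
    apply eq_of_subset_of_card_le hsub
    rw [card_compl, hα, hbcard, hB.1 c hc'.1]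
  rw [← this]
  exact hc'.1

end Cfsg.Agent.S0357
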