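import Cfsg.Statements.S0358
import Cfsg.Agent.Lib.Helper9.Golay

set_option autoImplicit false
open Cfsg

namespace Cfsg.Agent.S0358

/-- The length-24 code built from the squares modulo 23 has dimension 12 over the field with two elements. -/
theorem result : Module.finrank (ZMod 2) Cfsg.golayCode = 12 := by
  have h1 : Nat.card Cfsg.golayCode = 4096 := Cfsg.Agent.Lib.Helper9.ncard_golay
  have h2 := Module.natCard_eq_pow_finrank (K := ZMod 2) (V := Cfsg.golayCode)
  rw [h1, Nat.card_zmod] at h2
  have h3 : (2 : ℕ) ^ 12 = 2 ^ Module.finrank (ZMod 2) Cfsg.golayCode := by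
    rw [← h2]; norm_num
  exact (Nat.pow_right_injective (le_refl 2) h3).symm

end Cfsg.Agent.S0358
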