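import Cfsg.Statements.S0362
import Cfsg.Agent.Lib.Helper9.Golay

set_option autoImplicit false
open Cfsg

namespace Cfsg.Agent.S0362

open Cfsg.Agent.Lib.Helper9 in
/-- The length-24 code is self-orthogonal: the dot product over ZMod 2 of any two of its words vanishes (with dimension 12 this makes it self-dual). -/
theorem result (v w : Cfsg.GolayPt → ZMod 2) (hv : v ∈ Cfsg.golayCode) (hw : w ∈ Cfsg.golayCode) : ∑ i, v i * w i = 0 := by
  obtain ⟨m, hm, rfl⟩ := (mem_golayCode_iff v).mp hv
  obtain ⟨m', hm', rfl⟩ := (mem_golayCode_iff w).mp hw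
  rw [Finset.sum_congr rfl (fun p _ => dec_mul_dec m m' p), sum_dec]
  have h := popc_and_even hm hm'
  rw [ZMod.natCast_eq_zero_iff]
  exact Nat.dvd_of_mod_eq_zero h

end Cfsg.Agent.S0362
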