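import Cfsg.Statements.S0365
import Cfsg.Agent.Lib.Helper9.M24Simple

set_option autoImplicit false
open Cfsg

namespace Cfsg.Agent.S0365

/-- The permutation group preserving the length-24 code is simple. -/
theorem result : IsSimpleGroup Cfsg.M24 :=
  Cfsg.Agent.Lib.Helper9.isSimpleGroup_M24

end Cfsg.Agent.S0365
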