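import Cfsg.Statements.S0371
import Cfsg.Agent.Lib.Helper9.M24

set_option autoImplicit false
open Cfsg

namespace Cfsg.Agent.S0371

open Cfsg.Agent.Lib.Helper9 in
/-- Multiplication by a nonzero square residue modulo 23, fixing the extra point, lies in the group of the length-24 code. -/
theorem result (u : (ZMod 23)ˣ) (hu : IsSquare u) : Equiv.optionCongr (Units.mulLeft u) ∈ Cfsg.M24 := by
  obtain ⟨s, rfl⟩ := hu
  apply mem_M24_of_span (Set.range qrWord ∪ {1}) rfl
  rintro w (⟨t, rfl⟩ | rfl)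
  · have : qrWord t ∘ ⇑(Equiv.optionCongr (Units.mulLeft (s * s))) =
        qrWord (((s * s)⁻¹ : (ZMod 23)ˣ) * t) := by
      funext p
      cases p with
      | none => rfl
      | some x =>
        show (if ∃ r : ZMod 23, ((s * s : (ZMod 23)ˣ) : ZMod 23) * x = r ^ 2 + t then (1 : ZMod 2) else 0) =
          if ∃ r : ZMod 23, x = r ^ 2 + (((s * s)⁻¹ : (ZMod 23)ˣ) : ZMod 23) * t then 1 else 0
        have hiff : (∃ r : ZMod 23, ((s * s : (ZMod 23)ˣ) : ZMod 23) * x = r ^ 2 + t) ↔
            ∃ r : ZMod 23, x = r ^ 2 + (((s * s)⁻¹ : (ZMod 23)ˣ) : ZMod 23) * t := by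
          have hs : (s : ZMod 23) * ((s⁻¹ : (ZMod 23)ˣ) : ZMod 23) = 1 := by
            rw [← Units.val_mul, mul_inv_cancel, Units.val_one]
          constructor
          · rintro ⟨r, hr⟩
            refine ⟨((s⁻¹ : (ZMod 23)ˣ) : ZMod 23) * r, ?_⟩
            have h1 : x = (((s * s)⁻¹ : (ZMod 23)ˣ) : ZMod 23) * (((s * s : (ZMod 23)ˣ) : ZMod 23) * x) := by
              rw [← mul_assoc, ← Units.val_mul, inv_mul_cancel, Units.val_one, one_mul]
            rw [h1, hr, mul_inv_rev, Units.val_mul]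
            ring
          · rintro ⟨r, hr⟩
            refine ⟨(s : ZMod 23) * r, ?_⟩
            rw [hr, mul_add, ← mul_assoc, ← Units.val_mul, mul_inv_cancel, Units.val_one, one_mul,
              Units.val_mul]
            ring
        simp only [hiff]
    rw [this]
    exact Submodule.subset_span (Or.inl ⟨_, rfl⟩)
  · have : (1 : GolayPt → ZMod 2) ∘ ⇑(Equiv.optionCongr (Units.mulLeft (s * s))) = 1 := rfl
    rw [this]
    exact Submodule.subset_span (Or.inr rfl)

end Cfsg.Agent.S0371
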