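-- S0399: the automorphism group of the rank-24 lattice modulo its centre is simple of the stated order.
import Cfsg.Statements.S0399
import Cfsg.Agent.Lib.Helper92.Co2Main

set_option autoImplicit false
open Cfsg

namespace Cfsg.Agent.S0399

/-- Automorphism group of the lattice modulo its centre is simple of order 4157776806543360000. -/
theorem result : Cfsg.IsCo1 (Cfsg.Co0 ⧸ Subgroup.center Cfsg.Co0) := by
  exact Cfsg.Agent.Lib.Helper92.co1_of_co2 Cfsg.Spor.leechU Cfsg.Agent.Lib.Helper10.leechU_norm
    (Cfsg.Agent.Lib.Helper92.co2_simple _ Cfsg.Agent.Lib.Helper10.leechU_norm)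

end Cfsg.Agent.S0399
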