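-- S0402: the stabiliser of a minimal vector of the rank-24 lattice is simple of the stated order.
import Cfsg.Statements.S0402
import Cfsg.Agent.Lib.Helper92.Co2Main

set_option autoImplicit false
open Cfsg

namespace Cfsg.Agent.S0402

/-- Stabiliser of a minimal vector is simple of order 42305421312000. -/
theorem result (v : Cfsg.leechLattice) (hv : Cfsg.sqNorm (v : Cfsg.GolayPt → ℤ) = 32) : Cfsg.IsCo2 (MulAction.stabilizer Cfsg.Co0 v) := by
  exact ⟨Cfsg.Agent.Lib.Helper92.co2_simple v hv, Cfsg.Agent.Lib.Helper92.card_stab_min v hv⟩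

end Cfsg.Agent.S0402
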