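import Cfsg.Statements.S0404
import Cfsg.Agent.Lib.Helper10.McLSimple2

set_option autoImplicit false
open Cfsg

namespace Cfsg.Agent.S0404

/-- Joint stabiliser of two minimal vectors with coordinate dot product −8 is simple of order 898128000. -/
theorem result (v w : Cfsg.leechLattice) (hv : Cfsg.sqNorm (v : Cfsg.GolayPt → ℤ) = 32) (hw : Cfsg.sqNorm (w : Cfsg.GolayPt → ℤ) = 32) (hvw : Cfsg.dotInt (v : Cfsg.GolayPt → ℤ) (w : Cfsg.GolayPt → ℤ) = -8) : Cfsg.IsMcL ↥(MulAction.stabilizer Cfsg.Co0 v ⊓ MulAction.stabilizer Cfsg.Co0 w) :=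
  Cfsg.Agent.Lib.Helper10.mcl_main v w hv hw hvw

end Cfsg.Agent.S0404
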