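import Cfsg.Statements.S0412
import Cfsg.Agent.Lib.Helper9.Steiner24Iso
import Cfsg.Agent.Lib.Helper9.AutTransfer
import Cfsg.Agent.Lib.Helper9.M24Simple
import Cfsg.Agent.S0369

set_option autoImplicit false
open Cfsg

namespace Cfsg.Agent.S0412

/-- Aut of an S(5, 8, 24) is simple of order 244823040 and 5-transitive on points. -/
theorem result {α : Type*} [Fintype α] [DecidableEq α] (hα : Fintype.card α = 24) {B : Set (Finset α)} (hB : Cfsg.IsSteinerSystem 5 8 B) : Cfsg.IsM24 (Cfsg.setSystemAut B) ∧ MulAction.IsMultiplyPretransitive (Cfsg.setSystemAut B) α 5 := by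
  obtain ⟨e, he⟩ := Cfsg.Agent.Lib.Helper9.exists_iso_octads hα hB
  have hM : Cfsg.M24 = Cfsg.setSystemAut Cfsg.octads := Cfsg.Agent.S0369.result
  have hsimple : IsSimpleGroup (Cfsg.setSystemAut Cfsg.octads) := by
    rw [← hM]
    exact Cfsg.Agent.Lib.Helper9.isSimpleGroup_M24
  have hcard : Nat.card (Cfsg.setSystemAut Cfsg.octads) = 244823040 := by
    rw [← hM]
    exact Cfsg.Agent.Lib.Helper9.card_M24
  have h5 : MulAction.IsMultiplyPretransitive (Cfsg.setSystemAut Cfsg.octads) Cfsg.GolayPt 5 := by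
    rw [← hM]
    exact Cfsg.Agent.Lib.Helper9.m24_five_transitive
  refine ⟨⟨?_, ?_⟩, ?_⟩
  · exact (Cfsg.Agent.Lib.Helper9.setSystemAutEquiv e he).isSimpleGroup
  · rw [Nat.card_congr (Cfsg.Agent.Lib.Helper9.setSystemAutEquiv e he).toEquiv]
    exact hcard
  · exact Cfsg.Agent.Lib.Helper9.multiplyPretransitive_of_iso e he 5 h5

end Cfsg.Agent.S0412
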