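import Cfsg.Statements.S0413
import Cfsg.Agent.Lib.Helper9.DerAut

set_option autoImplicit false
open Cfsg

namespace Cfsg.Agent.S0413

/-- Aut of an S(4, 7, 23) is simple of order 10200960 and 4-transitive. -/
theorem result {α : Type*} [Fintype α] [DecidableEq α] (hα : Fintype.card α = 23) {B : Set (Finset α)} (hB : Cfsg.IsSteinerSystem 4 7 B) : Cfsg.IsM23 (Cfsg.setSystemAut B) ∧ MulAction.IsMultiplyPretransitive (Cfsg.setSystemAut B) α 4 := by
  obtain ⟨e, he⟩ := Cfsg.Agent.Lib.Helper9.exists_iso_der23 hα hB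
  have hsimple := Cfsg.Agent.Lib.Helper9.isSimpleGroup_M23
  refine ⟨⟨?_, ?_⟩, ?_⟩
  · exact ((Cfsg.Agent.Lib.Helper9.setSystemAutEquiv e he).trans
      Cfsg.Agent.Lib.Helper9.autDer23Equiv).isSimpleGroup
  · rw [Nat.card_congr ((Cfsg.Agent.Lib.Helper9.setSystemAutEquiv e he).trans
      Cfsg.Agent.Lib.Helper9.autDer23Equiv).toEquiv]
    exact Cfsg.Agent.Lib.Helper9.card_M23
  · exact Cfsg.Agent.Lib.Helper9.multiplyPretransitive_of_iso e he 4
      Cfsg.Agent.Lib.Helper9.der23_four_transitive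

end Cfsg.Agent.S0413
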