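import Cfsg.Statements.S0417
import Mathlib
import Cfsg.Agent.Lib.Helper10.Jordan
import Cfsg.Agent.Lib.Helper11.Sharp

set_option autoImplicit false
open Cfsg

namespace Cfsg.Agent.S0417

open MulAction Cfsg.Agent.Lib.Helper10 Cfsg.Agent.Lib.Helper11

/-- There is no sharply 6-transitive action on 13 points. -/
theorem no13 {G α : Type*} [Group G] [MulAction G α] [Finite α] [IsMultiplyPretransitive G α 6]
    (hs : ∀ x : Fin 6 ↪ α, stabilizer G x = ⊥) (hα : Nat.card α = 13) : False := by
  have hfin : Finite G := finite_of_sharp hs (by omega)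
  have hcard : Nat.card G = 1235520 := by
    rw [card_of_sharp hs (by omega), hα]
    decide
  have hfact : Fact (Nat.Prime 13) := ⟨by norm_num⟩
  obtain ⟨P⟩ : Nonempty (Sylow 13 G) := inferInstance
  obtain ⟨d, hd, hN⟩ := card_normalizer_sylow_prime_degree hα
    (fun g hg => eq_one_of_forall_smul hs (by omega) g hg) (by rw [hcard]; norm_num)
    (by rw [hcard]; norm_num) P
  have h1 : Nat.card (Sylow 13 G) = (Subgroup.normalizer ((P : Subgroup G) : Set G)).index :=
    P.card_eq_index_normalizer
  have h2 := card_sylow_modEq_one 13 G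
  have h3 := Subgroup.card_mul_index (Subgroup.normalizer ((P : Subgroup G) : Set G))
  rw [hN, ← h1, hcard] at h3
  have hd12 : d ≤ 12 := Nat.le_of_dvd (by norm_num) hd
  obtain ⟨e, he⟩ := hd
  unfold Nat.ModEq at h2
  generalize Nat.card (Sylow 13 G) = n at h2 h3
  interval_cases d <;> omega

theorem jordan6 {G α : Type*} [Group G] [MulAction G α] [Finite α]
    [IsMultiplyPretransitive G α 6] (hs : ∀ x : Fin 6 ↪ α, stabilizer G x = ⊥)
    (h6 : 6 ≤ Nat.card α) : Nat.card α = 6 ∨ Nat.card α = 7 ∨ Nat.card α = 8 := by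
  classical
  have hne : Nonempty α := (Nat.card_pos_iff.mp (by omega)).1
  obtain ⟨a⟩ := hne
  have hcard := SubMulAction.nat_card_ofStabilizer_add_one_eq G a
  have hpre := pretransitive_ofStabilizer (G := G) (k := 5) (by omega) a
  have hs' := sharp_ofStabilizer hs a
  have hft : Fintype (SubMulAction.ofStabilizer G a) := Fintype.ofFinite _
  have key := jordan5 (G := stabilizer G a) (α := SubMulAction.ofStabilizer G a) hs'
    (by rw [← Nat.card_eq_fintype_card]; omega)
  rw [← Nat.card_eq_fintype_card] at key
  rcases key with h | h | h | h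
  · left; omega
  · right; left; omega
  · right; right; omega
  · exfalso; exact no13 hs (by omega)

universe u v

theorem jordan_ge6 : ∀ (k : ℕ), 6 ≤ k → ∀ {G : Type u} {α : Type v} [Group G] [MulAction G α]
    [Finite α] [IsMultiplyPretransitive G α k], (∀ x : Fin k ↪ α, stabilizer G x = ⊥) →
    k ≤ Nat.card α → Nat.card α = k ∨ Nat.card α = k + 1 ∨ Nat.card α = k + 2 := by
  intro k hk
  induction k, hk using Nat.le_induction with
  | base =>
    intro G α _ _ _ _ hs h
    exact jordan6 hs h
  | succ k hk ih =>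
    intro G α _ _ _ _ hs h
    have hne : Nonempty α := (Nat.card_pos_iff.mp (by omega)).1
    obtain ⟨a⟩ := hne
    have hcard := SubMulAction.nat_card_ofStabilizer_add_one_eq G a
    have hpre := pretransitive_ofStabilizer (G := G) (k := k) h a
    have := ih (G := stabilizer G a) (α := SubMulAction.ofStabilizer G a)
      (sharp_ofStabilizer hs a) (by omega)
    omega

/-- For k ≥ 6, sharply k-transitive groups have degree k, k+1 or k+2. -/
theorem result {α : Type*} [Fintype α] [DecidableEq α] (G : Subgroup (Equiv.Perm α)) (k : ℕ) (hk : 6 ≤ k) (hn : k ≤ Fintype.card α) [MulAction.IsMultiplyPretransitive G α k] (hsharp : ∀ x : Fin k ↪ α, MulAction.stabilizer G x = ⊥) : Fintype.card α = k ∨ Fintype.card α = k + 1 ∨ Fintype.card α = k + 2 := by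
  have := jordan_ge6 k hk (G := G) (α := α) hsharp (by rw [Nat.card_eq_fintype_card]; exact hn)
  rwa [Nat.card_eq_fintype_card] at this

end Cfsg.Agent.S0417
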