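import Cfsg.Statements.S0433
import Mathlib
import Cfsg.Agent.Lib.Helper10.LeechClosed

set_option autoImplicit false
open Cfsg

namespace Cfsg.Agent.S0433

open Cfsg.Agent.Lib.Helper10

/-- dot product over `ZMod 2`. -/
def dot (u v : GolayPt → ZMod 2) : ZMod 2 := ∑ i, u i * v i

set_option maxRecDepth 100000 in
theorem qr_wt : ∀ s : ZMod 23, (support₂ (qrWord s)).card = 12 := by decide

set_option maxRecDepth 100000 in
theorem qr_dot0 : ∀ t : ZMod 23, dot (qrWord 0) (qrWord t) = 0 := by decide

set_option maxRecDepth 100000 in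
theorem qr_dot_one : ∀ t : ZMod 23, dot (qrWord t) 1 = 0 := by decide

set_option maxRecDepth 100000 in
theorem one_dot_one : dot (1 : GolayPt → ZMod 2) 1 = 0 := by decide

set_option maxRecDepth 100000 in
theorem one_wt : (support₂ (1 : GolayPt → ZMod 2)).card = 24 := by decide

theorem qrWord_some (t x : ZMod 23) : qrWord t (some x) = qrWord 0 (some (x - t)) := by
  unfold qrWord
  have : (∃ r : ZMod 23, x = r ^ 2 + t) ↔ (∃ r : ZMod 23, x - t = r ^ 2 + 0) := by
    constructor
    · rintro ⟨r, hr⟩
      exact ⟨r, by rw [hr]; ring⟩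
    · rintro ⟨r, hr⟩
      refine ⟨r, ?_⟩
      rw [add_zero] at hr
      rw [← hr]; ring
  simp only [this]

theorem dot_comm (u v : GolayPt → ZMod 2) : dot u v = dot v u := by
  unfold dot
  apply Finset.sum_congr rfl
  intro i _
  exact mul_comm _ _

theorem dot_qr (s t : ZMod 23) : dot (qrWord s) (qrWord t) = 0 := by
  have h0 := qr_dot0 (t - s)
  unfold dot at h0 ⊢
  rw [Fintype.sum_option] at h0 ⊢
  have hn : ∀ u : ZMod 23, qrWord u none = 0 := fun u => rfl
  rw [hn, zero_mul, zero_add] at h0 ⊢
  rw [← h0]
  apply Fintype.sum_equiv (Equiv.subRight s)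
  intro x
  rw [qrWord_some s x, qrWord_some t x, qrWord_some (t - s) (Equiv.subRight s x)]
  simp only [Equiv.subRight_apply]
  have hring : x - s - (t - s) = x - t := by ring
  rw [hring]

theorem dot_add_left (u u' v : GolayPt → ZMod 2) : dot (u + u') v = dot u v + dot u' v := by
  unfold dot
  simp only [Pi.add_apply, add_mul, Finset.sum_add_distrib]

theorem dot_smul_left (a : ZMod 2) (u v : GolayPt → ZMod 2) : dot (a • u) v = a * dot u v := by
  unfold dot
  simp only [Pi.smul_apply, smul_eq_mul, Finset.mul_sum, mul_assoc]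

theorem dot_zero_left (v : GolayPt → ZMod 2) : dot 0 v = 0 := by
  unfold dot
  simp

theorem dot_gen {g : GolayPt → ZMod 2} (hg : g ∈ Set.range qrWord ∪ {1})
    {u : GolayPt → ZMod 2} (hu : u ∈ golayCode) : dot u g = 0 := by
  unfold golayCode at hu
  induction hu using Submodule.span_induction with
  | mem x hx =>
    rcases hx with ⟨s, rfl⟩ | hx1
    · rcases hg with ⟨t, rfl⟩ | hg1
      · exact dot_qr s t
      · rw [Set.mem_singleton_iff] at hg1
        rw [hg1]; exact qr_dot_one s
    · rw [Set.mem_singleton_iff] at hx1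
      rw [hx1]
      rcases hg with ⟨t, rfl⟩ | hg1
      · rw [dot_comm]; exact qr_dot_one t
      · rw [Set.mem_singleton_iff] at hg1
        rw [hg1]; exact one_dot_one
  | zero => exact dot_zero_left g
  | add x y _ _ hx hy => rw [dot_add_left, hx, hy, add_zero]
  | smul a x _ hx => rw [dot_smul_left, hx, mul_zero]

theorem dot_code {u v : GolayPt → ZMod 2} (hu : u ∈ golayCode) (hv : v ∈ golayCode) :
    dot u v = 0 := by
  unfold golayCode at hv
  induction hv using Submodule.span_induction with
  | mem x hx => exact dot_gen hx hu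
  | zero => rw [dot_comm]; exact dot_zero_left u
  | add x y _ _ hx hy => rw [dot_comm, dot_add_left, dot_comm x, dot_comm y, hx, hy, add_zero]
  | smul a x _ hx => rw [dot_comm, dot_smul_left, dot_comm x, hx, mul_zero]

theorem dot_eq_card (u v : GolayPt → ZMod 2) :
    dot u v = ((support₂ u ∩ support₂ v).card : ZMod 2) := by
  unfold dot
  have h : ∀ a b : ZMod 2, a * b = if (a ≠ 0 ∧ b ≠ 0) then 1 else 0 := by decide
  simp only [h]
  rw [Finset.sum_boole]
  congr 2
  ext i
  simp [support₂]

theorem even_inter {S T : Finset GolayPt} (hS : S ∈ gsup) (hT : T ∈ gsup) :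
    Even (S ∩ T).card := by
  obtain ⟨u, hu, rfl⟩ := hS
  obtain ⟨v, hv, rfl⟩ := hT
  rw [← ZMod.natCast_eq_zero_iff_even, ← dot_eq_card]
  exact dot_code hu hv

theorem support_add (u v : GolayPt → ZMod 2) :
    support₂ (u + v) = symmDiff (support₂ u) (support₂ v) := by
  ext i
  simp only [support₂, Finset.mem_filter, Finset.mem_univ, true_and, Finset.mem_symmDiff,
    Pi.add_apply]
  generalize u i = a
  generalize v i = b
  revert a b
  decide

theorem card_symmDiff_add (S T : Finset GolayPt) :
    (symmDiff S T).card + 2 * (S ∩ T).card = S.card + T.card := by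
  have h1 : (symmDiff S T).card = (S \ T).card + (T \ S).card := by
    rw [symmDiff_def, Finset.sup_eq_union]
    exact Finset.card_union_of_disjoint disjoint_sdiff_sdiff
  have h2 := Finset.card_sdiff_add_card_inter S T
  have h3 := Finset.card_sdiff_add_card_inter T S
  rw [Finset.inter_comm T S] at h3
  omega

theorem four_dvd_card {S : Finset GolayPt} (hS : S ∈ gsup) : 4 ∣ S.card := by
  obtain ⟨u, hu, rfl⟩ := hS
  have hu' : u ∈ golayCode := hu
  unfold golayCode at hu'
  induction hu' using Submodule.span_induction with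
  | mem x hx =>
    rcases hx with ⟨s, rfl⟩ | hx1
    · rw [qr_wt]; decide
    · rw [Set.mem_singleton_iff] at hx1
      rw [hx1, one_wt]; decide
  | zero =>
    have : support₂ (0 : GolayPt → ZMod 2) = ∅ := by
      ext i; simp [support₂]
    rw [this]; simp
  | add x y hx hy ihx ihy =>
    have hx' : x ∈ golayCode := hx
    have hy' : y ∈ golayCode := hy
    have h1 := ihx hx'
    have h2 := ihy hy'
    have h3 : Even (support₂ x ∩ support₂ y).card :=
      even_inter ⟨x, hx', rfl⟩ ⟨y, hy', rfl⟩
    have h4 := card_symmDiff_add (support₂ x) (support₂ y)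
    rw [support_add]
    obtain ⟨a, ha⟩ := h1
    obtain ⟨b, hb⟩ := h2
    obtain ⟨c, hc⟩ := h3
    omega
  | smul a x hx ihx =>
    have hx' : x ∈ golayCode := hx
    have h1 := ihx hx'
    have hall : ∀ b : ZMod 2, b = 0 ∨ b = 1 := by decide
    have ha : a = 0 ∨ a = 1 := hall a
    rcases ha with rfl | rfl
    · have : support₂ ((0 : ZMod 2) • x) = ∅ := by
        ext i; simp [support₂]
      rw [this]; simp
    · rw [one_smul]; exact h1

theorem leechSet_sign (c : Finset GolayPt) (hc : c ∈ gsup) (x : GolayPt → ℤ)
    (hx : x ∈ leechSet) : (fun i => if i ∈ c then -x i else x i) ∈ leechSet := by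
  rw [mem_leechSet_iff] at hx ⊢
  obtain ⟨m, h1, h2, h3⟩ := hx
  refine ⟨m, ?_, ?_, ?_⟩
  · intro i
    have := h1 i
    by_cases hi : i ∈ c
    · simp only [hi, if_true]; omega
    · simp only [hi, if_false]; omega
  · have hsum : ∑ i, (if i ∈ c then -x i else x i) = ∑ i, x i - 2 * ∑ i ∈ c, x i := by
      have h : ∀ i, (if i ∈ c then -x i else x i) = x i - 2 * (if i ∈ c then x i else 0) := by
        intro i
        split_ifs <;> ring
      simp only [h, Finset.sum_sub_distrib, ← Finset.mul_sum]
      rw [Finset.sum_ite_mem, Finset.univ_inter]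
    have hterm : ∀ i, x i % 4 =
        ((m % 2) + 2 * (if i ∈ resSet x (m % 2 + 2) then 1 else 0)) % 4 := by
      intro i
      have := h1 i
      by_cases hi : i ∈ resSet x (m % 2 + 2)
      · simp only [hi, if_true]
        rw [mem_resSet] at hi
        omega
      · simp only [hi, if_false]
        rw [mem_resSet] at hi
        omega
    have hc4 : (∑ i ∈ c, x i) % 4 = 0 := by
      rw [Finset.sum_int_mod]
      simp only [hterm]
      rw [← Finset.sum_int_mod]
      rw [Finset.sum_add_distrib, ← Finset.mul_sum, Finset.sum_boole, Finset.sum_const,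
        Finset.filter_mem_eq_inter, nsmul_eq_mul]
      obtain ⟨a, ha⟩ := four_dvd_card hc
      obtain ⟨b, hb⟩ := even_inter hc (h3 (m % 2 + 2))
      rw [ha, hb]
      push_cast
      rcases Int.emod_two_eq_zero_or_one m with hm | hm <;> rw [hm] <;> omega
    rw [hsum]
    omega
  · intro k
    by_cases hk : m % 2 = 1 ∧ k % 2 = 1
    · have : resSet (fun i => if i ∈ c then -x i else x i) k = symmDiff (resSet x k) c := by
        ext i
        rw [mem_resSet, Finset.mem_symmDiff, mem_resSet]
        have := h1 i
        by_cases hi : i ∈ c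
        · simp only [hi, if_true, not_true, and_false, true_and, false_or]
          omega
        · simp only [hi, if_false, not_false_eq_true, and_true, false_and, or_false]
      rw [this]
      exact symmDiff_mem_gsup (h3 k) hc
    · have : resSet (fun i => if i ∈ c then -x i else x i) k = resSet x k := by
        ext i
        rw [mem_resSet, mem_resSet]
        have := h1 i
        by_cases hi : i ∈ c
        · simp only [hi, if_true]
          omega
        · simp only [hi, if_false]
      rw [this]
      exact h3 k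

/-- Sign changes on the support of a codeword preserve the lattice. -/
theorem result (c : Finset Cfsg.GolayPt) (hc : c ∈ Cfsg.supports (Cfsg.golayCode : Set (Cfsg.GolayPt → ZMod 2))) (x : Cfsg.GolayPt → ℤ) (hx : x ∈ Cfsg.leechLattice) : (fun i => if i ∈ c then -x i else x i) ∈ Cfsg.leechLattice := by
  rw [mem_leechLattice_iff] at hx ⊢
  exact leechSet_sign c hc x hx

end Cfsg.Agent.S0433
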