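import Cfsg.Statements.S0439
import Mathlib

set_option autoImplicit false
open Cfsg

namespace Cfsg.Agent.S0439

open Equiv Equiv.Perm

theorem swap_mul_swap_same_pow {α : Type*} [DecidableEq α] [Fintype α] {a b c : α} (ab : a ≠ b)
    (ac : a ≠ c) : (swap a b * swap a c) ^ 2 = 1 ∨ (swap a b * swap a c) ^ 3 = 1 := by
  by_cases bc : b = c
  · subst bc
    left
    rw [swap_mul_self, one_pow]
  · right
    have h := (isThreeCycle_swap_mul_swap_same ab ac bc).orderOf
    rw [← h, pow_orderOf_eq_one]

theorem swap_mul_swap_pow {α : Type*} [DecidableEq α] [Fintype α] {x y z w : α} (hxy : x ≠ y)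
    (hzw : z ≠ w) : (swap x y * swap z w) ^ 2 = 1 ∨ (swap x y * swap z w) ^ 3 = 1 := by
  by_cases h1 : x = z
  · subst h1
    exact swap_mul_swap_same_pow hxy hzw
  by_cases h2 : x = w
  · subst h2
    rw [swap_comm z x]
    exact swap_mul_swap_same_pow hxy hzw.symm
  by_cases h3 : y = z
  · subst h3
    rw [swap_comm x y]
    exact swap_mul_swap_same_pow hxy.symm hzw
  by_cases h4 : y = w
  · subst h4
    rw [swap_comm x y, swap_comm z y]
    exact swap_mul_swap_same_pow hxy.symm hzw.symm
  left
  have hd : Disjoint (swap x y) (swap z w) := by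
    apply disjoint_swap_swap
    simp [hxy, hzw, h1, h2, h3, h4]
  rw [hd.commute.mul_pow, pow_two, pow_two, swap_mul_self, swap_mul_self, one_mul]

/-- In the symmetric group of degree n ≥ 2, the set of transpositions is a conjugacy class of 3-transpositions which generates the group. -/
theorem result (n : ℕ) (hn : 2 ≤ n) : Cfsg.IsThreeTranspositionClass {σ : Equiv.Perm (Fin n) | σ.IsSwap} := by
  refine ⟨⟨?_, ?_⟩, ?_, ?_⟩
  · intro d hd
    exact IsSwap.orderOf hd
  · rintro d ⟨x, y, hxy, rfl⟩ e ⟨z, w, hzw, rfl⟩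
    exact swap_mul_swap_pow hxy hzw
  · have h01 : (⟨0, by omega⟩ : Fin n) ≠ ⟨1, by omega⟩ := by
      intro h
      have := congrArg Fin.val h
      simp at this
    refine ⟨swap ⟨0, by omega⟩ ⟨1, by omega⟩, ⟨_, _, h01, rfl⟩, ?_⟩
    ext σ
    constructor
    · rintro ⟨z, w, hzw, rfl⟩
      exact isConj_swap h01 hzw
    · intro h
      have h : IsConj (swap (⟨0, by omega⟩ : Fin n) ⟨1, by omega⟩) σ := h
      show σ.IsSwap
      rw [isConj_iff] at h
      obtain ⟨c, rfl⟩ := h
      rw [← card_support_eq_two, card_support_conj, card_support_eq_two]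
      exact ⟨_, _, h01, rfl⟩
  · exact closure_isSwap

end Cfsg.Agent.S0439
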