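import Cfsg.Statements.S0442
import Mathlib

set_option autoImplicit false
open Cfsg

namespace Cfsg.Agent.S0442

theorem aux {G : Type*} [Group G] (a b : G) (ha : a * a = 1) (hb : b * b = 1) (k : ℕ) :
    (a * b) ^ k * a = a * ((a * b) ^ k)⁻¹ := by
  have hainv : a⁻¹ = a := inv_eq_of_mul_eq_one_left ha
  have hbinv : b⁻¹ = b := inv_eq_of_mul_eq_one_left hb
  have h : SemiconjBy a (a * b) (a * b)⁻¹ := by
    unfold SemiconjBy
    rw [mul_inv_rev, hainv, hbinv, ← mul_assoc, ha, one_mul, mul_assoc, ha, mul_one]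
  have h2 := (h.pow_right k).eq
  have h3 : (a * b) ^ k = a⁻¹ * ((a * b)⁻¹ ^ k * a) := by
    rw [← h2, inv_mul_cancel_left]
  calc (a * b) ^ k * a = a⁻¹ * ((a * b)⁻¹ ^ k * a) * a := by rw [← h3]
    _ = a * ((a * b) ^ k)⁻¹ := by
      rw [hainv, inv_pow]
      simp only [mul_assoc]
      rw [ha, mul_one]

/-- A standard trick for producing elements of an involution centraliser: for an involution a and an element g, let b be the conjugate g⁻¹ * a * g. If a * b has odd order 2m + 1 then g * (a * b) ^ m commutes with a; if a * b has even order 2m then (a * b) ^ m and (a * (g * a * g⁻¹)) ^ m commute with a. -/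
theorem result {G : Type*} [Group G] (a g : G) (ha : orderOf a = 2) : (∀ m : ℕ, orderOf (a * (g⁻¹ * a * g)) = 2 * m + 1 → Commute (g * (a * (g⁻¹ * a * g)) ^ m) a) ∧ (∀ m : ℕ, orderOf (a * (g⁻¹ * a * g)) = 2 * m → Commute ((a * (g⁻¹ * a * g)) ^ m) a ∧ Commute ((a * (g * a * g⁻¹)) ^ m) a) := by
  have ha2 : a * a = 1 := by
    rw [← pow_two, ← ha, pow_orderOf_eq_one]
  have hainv : a⁻¹ = a := inv_eq_of_mul_eq_one_left ha2
  have hb2 : (g⁻¹ * a * g) * (g⁻¹ * a * g) = 1 := by
    calc (g⁻¹ * a * g) * (g⁻¹ * a * g) = g⁻¹ * (a * a) * g := by group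
      _ = 1 := by rw [ha2]; group
  have hb2' : (g * a * g⁻¹) * (g * a * g⁻¹) = 1 := by
    calc (g * a * g⁻¹) * (g * a * g⁻¹) = g * (a * a) * g⁻¹ := by group
      _ = 1 := by rw [ha2]; group
  constructor
  · intro m hm
    have hpow : (a * (g⁻¹ * a * g)) ^ (2 * m + 1) = 1 := by
      rw [← hm, pow_orderOf_eq_one]
    have h1 := aux a (g⁻¹ * a * g) ha2 hb2 m
    have hinv : ((a * (g⁻¹ * a * g)) ^ m)⁻¹ = (a * (g⁻¹ * a * g)) ^ (m + 1) := by
      apply inv_eq_of_mul_eq_one_left
      rw [← pow_add, ← hpow]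
      congr 1
      omega
    unfold Commute SemiconjBy
    rw [mul_assoc, h1, hinv, pow_succ']
    have : a * (a * (g⁻¹ * a * g) * (a * (g⁻¹ * a * g)) ^ m)
        = (a * a) * (g⁻¹ * a * g) * (a * (g⁻¹ * a * g)) ^ m := by
      simp only [mul_assoc]
    rw [this, ha2, one_mul]
    simp only [mul_assoc, mul_inv_cancel_left]
  · intro m hm
    have hpow : (a * (g⁻¹ * a * g)) ^ (2 * m) = 1 := by
      rw [← hm, pow_orderOf_eq_one]
    constructor
    · have h1 := aux a (g⁻¹ * a * g) ha2 hb2 m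
      have hinv : ((a * (g⁻¹ * a * g)) ^ m)⁻¹ = (a * (g⁻¹ * a * g)) ^ m := by
        apply inv_eq_of_mul_eq_one_left
        rw [← pow_add, ← hpow]
        congr 1
        omega
      unfold Commute SemiconjBy
      rw [h1, hinv]
    · have h1 := aux a (g * a * g⁻¹) ha2 hb2' m
      have hconj : a * (g * a * g⁻¹) = g * (a * (g⁻¹ * a * g))⁻¹ * g⁻¹ := by
        rw [mul_inv_rev, mul_inv_rev, mul_inv_rev, inv_inv, hainv]
        simp only [mul_assoc, mul_inv_cancel_left]
      have hpow' : (a * (g * a * g⁻¹)) ^ (2 * m) = 1 := by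
        rw [hconj, conj_pow, inv_pow, hpow]
        simp
      have hinv : ((a * (g * a * g⁻¹)) ^ m)⁻¹ = (a * (g * a * g⁻¹)) ^ m := by
        apply inv_eq_of_mul_eq_one_left
        rw [← pow_add, ← hpow']
        congr 1
        omega
      unfold Commute SemiconjBy
      rw [h1, hinv]

end Cfsg.Agent.S0442
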