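import Cfsg.Statements.S0444
import Mathlib

set_option autoImplicit false
open Cfsg

namespace Cfsg.Agent.S0444

/-- Two members of a set of 3-transpositions which do not commute generate a subgroup isomorphic to the symmetric group on three letters. -/
theorem result {G : Type*} [Group G] {E : Set G} (hE : Cfsg.IsThreeTranspositionSet E) {d e : G} (hd : d ∈ E) (he : e ∈ E) (h : ¬ Commute d e) : Nonempty (Subgroup.closure ({d, e} : Set G) ≃* Equiv.Perm (Fin 3)) := by
  classical
  have hd2 : d * d = 1 := by rw [← pow_two, ← hE.1 d hd, pow_orderOf_eq_one]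
  have he2 : e * e = 1 := by rw [← pow_two, ← hE.1 e he, pow_orderOf_eq_one]
  have hdinv : d⁻¹ = d := inv_eq_of_mul_eq_one_left hd2
  have heinv : e⁻¹ = e := inv_eq_of_mul_eq_one_left he2
  have hd1 : d ≠ 1 := by
    rintro rfl
    have := hE.1 1 hd
    rw [orderOf_one] at this
    omega
  have h3 : (d * e) ^ 3 = 1 := by
    rcases hE.2 d hd e he with h2 | h3
    · exfalso
      apply h
      have h2' : d * e * (d * e) = 1 := by rw [← pow_two]; exact h2
      have : d * e = (d * e)⁻¹ := (inv_eq_of_mul_eq_one_left h2').symm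
      rw [mul_inv_rev, hdinv, heinv] at this
      exact this
    · exact h3
  have braid : d * e * d = e * d * e := by
    have h1 : d * e * d * (e * d * e) = 1 := by
      rw [← h3]
      simp only [pow_succ, pow_zero, one_mul, mul_assoc]
    have h2 := eq_inv_of_mul_eq_one_left h1
    rw [h2, mul_inv_rev, mul_inv_rev, hdinv, heinv, mul_assoc]
  have hde1 : d * e ≠ 1 := by
    intro h1
    apply h
    have : d = e := by rw [← heinv]; exact eq_inv_of_mul_eq_one_left h1
    rw [this]
  -- the six elements
  set S : Finset G := {1, d, e, d * e, e * d, d * e * d} with hSdef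
  have memS : ∀ x, x ∈ S ↔ (x = 1 ∨ x = d ∨ x = e ∨ x = d * e ∨ x = e * d ∨ x = d * e * d) := by
    intro x
    simp only [hSdef, Finset.mem_insert, Finset.mem_singleton]
  have i1 : d * (d * e) = e := by rw [← mul_assoc, hd2, one_mul]
  have i2 : d * (e * d) = d * e * d := (mul_assoc _ _ _).symm
  have i3 : d * (d * e * d) = e * d := by rw [← mul_assoc, ← mul_assoc, hd2, one_mul]
  have i4 : e * (d * e) = d * e * d := by rw [← mul_assoc, braid]
  have i5 : e * (e * d) = d := by rw [← mul_assoc, he2, one_mul]
  have i6 : e * (d * e * d) = d * e := by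
    rw [braid, ← mul_assoc, ← mul_assoc, he2, one_mul]
  have key : ∀ y ∈ S, d * y ∈ S ∧ e * y ∈ S := by
    intro y hy
    rw [memS] at hy
    rw [memS, memS]
    rcases hy with rfl | rfl | rfl | rfl | rfl | rfl
    · rw [mul_one, mul_one]; tauto
    · rw [hd2]; tauto
    · rw [he2]; tauto
    · rw [i1, i4]; tauto
    · rw [i2, i5]; tauto
    · rw [i3, i6]; tauto
  have hS : ∀ x ∈ Subgroup.closure ({d, e} : Set G), x ∈ S := by
    intro x hx
    induction hx using Subgroup.closure_induction_left with
    | one => rw [memS]; tauto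
    | mul_left x hx y hy ih =>
      rcases hx with rfl | rfl
      · exact (key y ih).1
      · exact (key y ih).2
    | inv_mul_cancel x hx y hy ih =>
      rcases hx with rfl | rfl
      · rw [hdinv]; exact (key y ih).1
      · rw [heinv]; exact (key y ih).2
  have hsub : ((Subgroup.closure ({d, e} : Set G) : Subgroup G) : Set G) ⊆ (S : Set G) :=
    fun x hx => hS x hx
  have hfin : ((Subgroup.closure ({d, e} : Set G) : Subgroup G) : Set G).Finite :=
    S.finite_toSet.subset hsub
  have hFin : Finite (Subgroup.closure ({d, e} : Set G)) := hfin.to_subtype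
  have hcard_le : Nat.card (Subgroup.closure ({d, e} : Set G)) ≤ 6 := by
    calc Nat.card (Subgroup.closure ({d, e} : Set G))
        = ((Subgroup.closure ({d, e} : Set G) : Subgroup G) : Set G).ncard := rfl
      _ ≤ (S : Set G).ncard := Set.ncard_le_ncard hsub S.finite_toSet
      _ = S.card := Set.ncard_coe_finset S
      _ ≤ 6 := Finset.card_le_six
  have hdH : d ∈ Subgroup.closure ({d, e} : Set G) := Subgroup.subset_closure (by simp)
  have heH : e ∈ Subgroup.closure ({d, e} : Set G) := Subgroup.subset_closure (by simp)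
  have hdeH : d * e ∈ Subgroup.closure ({d, e} : Set G) := mul_mem hdH heH
  have hfact3 : Fact (Nat.Prime 3) := ⟨Nat.prime_three⟩
  have ho2 : orderOf (⟨d, hdH⟩ : Subgroup.closure ({d, e} : Set G)) = 2 := by
    rw [← Subgroup.orderOf_coe]; exact hE.1 d hd
  have ho3 : orderOf (⟨d * e, hdeH⟩ : Subgroup.closure ({d, e} : Set G)) = 3 := by
    rw [← Subgroup.orderOf_coe]; exact orderOf_eq_prime h3 hde1
  have hdvd2 : 2 ∣ Nat.card (Subgroup.closure ({d, e} : Set G)) := by
    rw [← ho2]; exact orderOf_dvd_natCard _
  have hdvd3 : 3 ∣ Nat.card (Subgroup.closure ({d, e} : Set G)) := by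
    rw [← ho3]; exact orderOf_dvd_natCard _
  have hcard : Nat.card (Subgroup.closure ({d, e} : Set G)) = 6 := by
    have hpos : 0 < Nat.card (Subgroup.closure ({d, e} : Set G)) := Nat.card_pos
    have h6 : 2 * 3 ∣ Nat.card (Subgroup.closure ({d, e} : Set G)) :=
      Nat.Coprime.mul_dvd_of_dvd_of_dvd (by norm_num) hdvd2 hdvd3
    obtain ⟨k, hk⟩ := h6
    omega
  -- the subgroup generated by d
  set K : Subgroup (Subgroup.closure ({d, e} : Set G)) := Subgroup.zpowers ⟨d, hdH⟩ with hKdef
  have hKcard : Nat.card K = 2 := by rw [hKdef, Nat.card_zpowers, ho2]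
  have hKindex : K.index = 3 := by
    have := K.card_mul_index
    rw [hKcard, hcard] at this
    omega
  have hQcard : Nat.card (Subgroup.closure ({d, e} : Set G) ⧸ K) = 3 := by
    rw [← Subgroup.index_eq_card]; exact hKindex
  have hKmem : ∀ x : Subgroup.closure ({d, e} : Set G), x ∈ K → (x : G) = 1 ∨ (x : G) = d := by
    intro x hx
    obtain ⟨n, rfl⟩ := Subgroup.mem_zpowers_iff.mp hx
    have h2 : (⟨d, hdH⟩ : Subgroup.closure ({d, e} : Set G)) ^ (2 : ℤ) = 1 := by
      apply Subtype.ext
      simp only [Subgroup.coe_zpow, Subgroup.coe_one]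
      rw [zpow_two, hd2]
    rcases Int.even_or_odd' n with ⟨m, rfl | rfl⟩
    · left
      rw [zpow_mul, h2, one_zpow]; rfl
    · right
      rw [zpow_add, zpow_mul, h2, one_zpow, one_mul, zpow_one]
  have hcore : K.normalCore = ⊥ := by
    rw [eq_bot_iff]
    intro x hx
    rw [Subgroup.mem_bot]
    rcases hKmem x (Subgroup.normalCore_le K hx) with h1 | h1
    · exact Subtype.ext h1
    · exfalso
      have hconj := (Subgroup.normalCore_normal K).conj_mem x hx ⟨e, heH⟩
      rcases hKmem _ (Subgroup.normalCore_le K hconj) with h2 | h2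
      · simp only [Subgroup.coe_mul, Subgroup.coe_inv, h1] at h2
        apply hd1
        have : d = e⁻¹ * (e * d * e⁻¹) * e := by group
        rw [this, h2]; group
      · simp only [Subgroup.coe_mul, Subgroup.coe_inv, h1] at h2
        apply h
        have : e * d = d * e := by
          calc e * d = e * d * e⁻¹ * e := by group
            _ = d * e := by rw [h2]
        exact this.symm
  have hinj : Function.Injective (MulAction.toPermHom (Subgroup.closure ({d, e} : Set G))
      (Subgroup.closure ({d, e} : Set G) ⧸ K)) := by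
    rw [← MonoidHom.ker_eq_bot_iff, ← Subgroup.normalCore_eq_ker]
    exact hcore
  have hFinQ : Finite (Subgroup.closure ({d, e} : Set G) ⧸ K) :=
    Nat.finite_of_card_ne_zero (by rw [hQcard]; norm_num)
  let eqv : (Subgroup.closure ({d, e} : Set G) ⧸ K) ≃ Fin 3 := Finite.equivFinOfCardEq hQcard
  let φ : Subgroup.closure ({d, e} : Set G) →* Equiv.Perm (Fin 3) :=
    (Equiv.permCongrHom eqv).toMonoidHom.comp
      (MulAction.toPermHom (Subgroup.closure ({d, e} : Set G))
        (Subgroup.closure ({d, e} : Set G) ⧸ K))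
  have hφinj : Function.Injective φ := by
    intro x y hxy
    apply hinj
    exact (Equiv.permCongrHom eqv).injective hxy
  have hφbij : Function.Bijective φ := by
    apply hφinj.bijective_of_nat_card_le
    rw [hcard, Nat.card_perm, Nat.card_fin]
    decide
  exact ⟨MulEquiv.ofBijective φ hφbij⟩

end Cfsg.Agent.S0444
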