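import Cfsg.Statements.S0446
import Mathlib

set_option autoImplicit false
open Cfsg

namespace Cfsg.Agent.S0446

/-- Every finite group of even order contains a 2-central involution, i.e. an element of order 2 in the centre of some Sylow 2-subgroup. -/
theorem result {G : Type*} [Group G] [Finite G] (h : Even (Nat.card G)) : ∃ t : G, Cfsg.IsTwoCentralInvolution t := by
  haveI : Fact (Nat.Prime 2) := ⟨Nat.prime_two⟩
  obtain ⟨P⟩ : Nonempty (Sylow 2 G) := inferInstance
  have h2 : 2 ∣ Nat.card G := h.two_dvd
  have hP2 : 2 ∣ Nat.card P := by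
    rw [Sylow.card_eq_multiplicity]
    apply dvd_pow_self
    intro h0
    have := (Nat.Prime.factorization_pos_of_dvd Nat.prime_two Nat.card_pos.ne' h2)
    omega
  haveI : Nontrivial P := by
    rw [← Finite.one_lt_card_iff_nontrivial]
    have := Nat.le_of_dvd Nat.card_pos hP2
    omega
  have hPg : IsPGroup 2 P := P.isPGroup'
  haveI := hPg.center_nontrivial
  have hZ : IsPGroup 2 (Subgroup.center P) := hPg.to_subgroup _
  obtain ⟨n, hn⟩ := IsPGroup.iff_card.mp hZ
  have hn0 : n ≠ 0 := by
    rintro rfl
    have : 1 < Nat.card (Subgroup.center P) := Finite.one_lt_card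
    omega
  have hdvd : 2 ∣ Nat.card (Subgroup.center P) := by
    rw [hn]; exact dvd_pow_self 2 hn0
  obtain ⟨z, hz⟩ := exists_prime_orderOf_dvd_card' 2 hdvd
  refine ⟨((z : P) : G), ?_, P, ?_, ?_⟩
  · rw [Subgroup.orderOf_coe, Subgroup.orderOf_coe]; exact hz
  · exact (z : P).2
  · intro x hx
    have hzc := z.2
    rw [Subgroup.mem_center_iff] at hzc
    have := hzc ⟨x, hx⟩
    have h3 := congrArg (Subtype.val) this
    simpa using h3

end Cfsg.Agent.S0446
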