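import Cfsg.Statements.S0458
import Cfsg.Agent.Lib.Helper9.J3Main
-- import your own Cfsg.Agent.* helpers here

set_option autoImplicit false
open Cfsg

namespace Cfsg.Agent.S0458

/-- Janko's third group exists as a transitive permutation group of degree 6156 with point stabiliser of order 8160: a simple group of order 50232960. -/
theorem result : ∃ H : Subgroup (Equiv.Perm (Fin 6156)), Cfsg.IsJ3 H ∧ MulAction.IsPretransitive H (Fin 6156) ∧ Nat.card (MulAction.stabilizer H (0 : Fin 6156)) = 8160 := by
  exact Cfsg.Agent.Lib.Helper9.J3.exists_J3

end Cfsg.Agent.S0458
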