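import Cfsg.Statements.S0460
import Cfsg.Agent.Lib.Helper39.OJOrd
import Cfsg.Agent.Lib.Helper39.OMOrd

set_option autoImplicit false
open Cfsg

namespace Cfsg.Agent.S0460

/-- The O'Nan group exists as a transitive permutation group of degree 122760: simple of order 460815505920, point stabiliser of order 3753792, and containing simple subgroups of orders 175560 and 7920. -/
theorem result : ∃ H : Subgroup (Equiv.Perm (Fin 122760)), Cfsg.IsON H ∧ MulAction.IsPretransitive H (Fin 122760) ∧ Nat.card (MulAction.stabilizer H (0 : Fin 122760)) = 3753792 ∧ (∃ K : Subgroup H, Cfsg.IsJ1 K) ∧ (∃ K : Subgroup H, Cfsg.IsM11 K) := by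
  have hidx : Cfsg.Agent.Lib.Helper39.ONOrd.H.index = 122760 := by
    rw [Cfsg.Agent.Lib.Helper39.index_eqI Cfsg.Agent.Lib.Helper39.ONOrd.hP
      Cfsg.Agent.Lib.Helper39.ONOrd.hC, Cfsg.Agent.Lib.Helper39.ONSub.hnL]
  obtain ⟨ρ, hinj, htr, hstab⟩ := Cfsg.Agent.Lib.Helper39.Ord.perm_rep
    Cfsg.Agent.Lib.Helper39.ONOrd.H 122760 3753792 Cfsg.Agent.Lib.Helper39.ONOrd.on_simple hidx
    (by norm_num) (by rw [Cfsg.Agent.Lib.Helper39.ONOrd.on_card])
  have hinj' : Function.Injective ρ.rangeRestrict := by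
    intro a b hab
    apply hinj
    have h2 := congrArg Subtype.val hab
    exact h2
  refine ⟨ρ.range, ?_, htr, hstab 0, ?_, ?_⟩
  · have e : Cfsg.Agent.Lib.Helper39.ONOrd.G ≃* ρ.range := MonoidHom.ofInjective hinj
    have hs := Cfsg.Agent.Lib.Helper39.ONOrd.on_simple
    exact ⟨e.symm.isSimpleGroup, by
      rw [← Nat.card_congr e.toEquiv, Cfsg.Agent.Lib.Helper39.ONOrd.on_card]⟩
  · have h := Cfsg.Agent.Lib.Helper39.Ord.simple_card_map
      Cfsg.Agent.Lib.Helper39.OJOrd.φ.range ρ.rangeRestrict hinj'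
      Cfsg.Agent.Lib.Helper39.OJOrd.range_spec.1
    exact ⟨Cfsg.Agent.Lib.Helper39.OJOrd.φ.range.map ρ.rangeRestrict, h.1,
      h.2.trans Cfsg.Agent.Lib.Helper39.OJOrd.range_spec.2⟩
  · have h := Cfsg.Agent.Lib.Helper39.Ord.simple_card_map
      Cfsg.Agent.Lib.Helper39.OMOrd.φ.range ρ.rangeRestrict hinj'
      Cfsg.Agent.Lib.Helper39.OMOrd.range_spec.1
    exact ⟨Cfsg.Agent.Lib.Helper39.OMOrd.φ.range.map ρ.rangeRestrict, h.1,
      h.2.trans Cfsg.Agent.Lib.Helper39.OMOrd.range_spec.2⟩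

end Cfsg.Agent.S0460
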