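import Cfsg.Statements.S0471
import Cfsg.Agent.Lib.Helper38.Fi22U6

set_option autoImplicit false
open Cfsg

namespace Cfsg.Agent.S0471

open Cfsg.Agent.Lib.Helper38 Cfsg.Agent.Lib.Helper38.Fi22P Cfsg.Agent.Lib.Helper38.Fi22U6

set_option maxRecDepth 100000
set_option maxHeartbeats 0

/-- the word of a double coset representative -/
def rw0 : List ℕ := []

/-- the word of a double coset representative -/
def rw1 : List ℕ := [1, 2, 0, 1]

/-- the word of a double coset representative -/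
def rw2 : List ℕ := [1]

/-- the words of the double coset representatives -/
def rwd : ℕ → List ℕ
  | 0 => rw0
  | 1 => rw1
  | _ => rw2

/-- the 3-transposition -/
noncomputable abbrev z : G := (([0] : List ℕ).map γ).prod

theorem z_eq : z = γ 0 := mul_one _

theorem z_sq : z * z = 1 := by
  rw [z_eq]
  exact hγ 0

theorem z_ne : z ≠ 1 := by
  obtain ⟨φ, hφ, -, -⟩ := Cfsg.Agent.S1696.order_and_base
  intro h
  have h1 := Cert.phi_list Cfsg.Agent.S1696.B_hC φ hφ [0] 0 (by decide +kernel)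
  have h2 : (([0] : List ℕ).map γ).prod = 1 := h
  rw [h2, map_one, Equiv.Perm.one_apply] at h1
  exact absurd h1 (by decide +kernel)

theorem z_conj : ∀ s < 9, ∃ x : G, γ s = x * z * x⁻¹ := by
  intro s hs
  rw [z_eq]
  interval_cases s
  · exact ⟨1, by rw [one_mul, inv_one, mul_one]⟩
  · exact ⟨_, conj_of_word hγ [0, 1] 0 1 (word_one _ (by decide +kernel))⟩
  · exact ⟨_, conj_of_word hγ [1, 2, 0, 1] 0 2 (word_one _ (by decide +kernel))⟩
  · exact ⟨_, conj_of_word hγ [2, 3, 1, 2, 0, 1] 0 3 (word_one _ (by decide +kernel))⟩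
  · exact ⟨_, conj_of_word hγ [3, 4, 2, 3, 1, 2, 0, 1] 0 4 (word_one _ (by decide +kernel))⟩
  · exact ⟨_, conj_of_word hγ [4, 5, 3, 4, 2, 3, 1, 2, 0, 1] 0 5 (word_one _ (by decide +kernel))⟩
  · exact ⟨_, conj_of_word hγ [5, 6, 4, 5, 3, 4, 2, 3, 1, 2, 0, 1] 0 6
      (word_one _ (by decide +kernel))⟩
  · exact ⟨_, conj_of_word hγ [3, 7, 2, 3, 1, 2, 0, 1] 0 7 (word_one _ (by decide +kernel))⟩
  · exact ⟨_, conj_of_word hγ [7, 8, 3, 7, 2, 3, 1, 2, 0, 1] 0 8 (word_one _ (by decide +kernel))⟩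

theorem z_comm : ∀ h ∈ Kg, h * z = z * h := by
  intro h hh
  rw [z_eq]
  exact a_comm h hh

theorem cen_one : ∀ c : G, (∀ x, c * x = x * c) → c = 1 := by
  obtain ⟨φ, hφ, -, hbase⟩ := Cfsg.Agent.S1696.order_and_base
  intro c hc
  exact central_eq_one Cfsg.Agent.S1696.B_hP Cfsg.Agent.S1696.B_hC φ hφ [1, 2, 3, 4, 5, 6, 7, 8]
    (by decide +kernel) (allB_iff.mpr Fi22B.cenF_all) [0, 1, 2, 10677, 3] hbase (by decide) c hc

theorem main : Subgroup.centralizer ({z} : Set G) = Kg ∧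
    Cfsg.IsThreeTranspositionClass (conjugatesOf z) ∧
    Nat.card (conjugatesOf z) = Kg.index := by
  obtain ⟨φ, hφ⟩ := Cfsg.Agent.S1687.hP.hφ
  have hdc := Cert.double_coset Cfsg.Agent.S1687.hP Cfsg.Agent.S1687.hC Cfsg.Agent.S1687.hO φ hφ
    (fun k => ((rwd k).map γ).prod) (by
    intro k hk
    have hk' : k < 3 := hk
    interval_cases k
    · show φ ((rw0.map γ).prod) 0 = Fi22x3510.cert.root 0
      rw [Cert.phi_list Cfsg.Agent.S1687.hC φ hφ rw0 0 (by decide +kernel)]
      decide +kernel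
    · show φ ((rw1.map γ).prod) 0 = Fi22x3510.cert.root 1
      rw [Cert.phi_list Cfsg.Agent.S1687.hC φ hφ rw1 0 (by decide +kernel)]
      decide +kernel
    · show φ ((rw2.map γ).prod) 0 = Fi22x3510.cert.root 2
      rw [Cert.phi_list Cfsg.Agent.S1687.hC φ hφ rw2 0 (by decide +kernel)]
      decide +kernel)
  refine transp_class γ 9 Cfsg.Agent.S1696.B_hP.hgen z z_sq z_ne z_conj Kg z_comm
    Cfsg.Agent.S1696.M_max cen_one (fun k => ((rwd k).map γ).prod) 3 hdc ?_
  intro k hk
  interval_cases k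
  · exact Or.inl (transp_pair2 hγ [0] rw0 (word_one _ (by decide +kernel)))
  · exact Or.inl (transp_pair2 hγ [0] rw1 (word_one _ (by decide +kernel)))
  · exact Or.inr (transp_pair3 hγ [0] rw2 (word_one _ (by decide +kernel)))


/-- The Fischer group of order 64561751654400 exists as a 3-transposition group: a simple group of that order generated by a conjugacy class of 3510 3-transpositions, the centraliser of each being a non-split double cover of PSU(6, 2). -/
theorem result : ∃ (G : Type) (_ : Group G) (_ : Finite G), Cfsg.IsFi22 G ∧ ∃ D : Set G, Cfsg.IsThreeTranspositionClass D ∧ Nat.card D = 3510 ∧ ∀ d ∈ D, ∃ (F : Type) (_ : Field F) (_ : Fintype F), Fintype.card F = 4 ∧ Cfsg.IsNonsplitDoubleCover (Subgroup.centralizer ({d} : Set G)) (Cfsg.PSU 6 F 2) := by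
  obtain ⟨hc, hD, hcard⟩ := main
  refine ⟨G, inferInstance, Cfsg.Agent.S1696.fin0.1, Cfsg.Agent.S1696.result, conjugatesOf z, hD, ?_, ?_⟩
  · rw [hcard]
    exact Cert.index_eq Cfsg.Agent.S1687.hP Cfsg.Agent.S1687.hC
  · intro d hd
    obtain ⟨x, rfl⟩ := isConj_iff.mp hd
    refine ⟨F4, inferInstance, inferInstance, F4.card, ?_⟩
    obtain ⟨e⟩ := centralizer_conj_equiv x z
    have hcov : Cfsg.IsNonsplitDoubleCover ↥(Subgroup.centralizer ({z} : Set G))
        (Cfsg.PSU 6 F4 2) := by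
      rw [hc]
      exact Cfsg.Agent.Lib.Helper38.Fi22U6.main
    have hfin : Finite G := Cfsg.Agent.S1696.fin0.1
    exact nonsplit_of_equiv e hcov

end Cfsg.Agent.S0471
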