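import Cfsg.Statements.S0481
import Mathlib

set_option autoImplicit false
open Cfsg

namespace Cfsg.Agent.S0481

/-- Large extraspecial subgroups: let z be an involution of a finite group G whose centraliser C contains a normal 2-subgroup Q with centre of order 2 and all squares central, such that every element of G centralising Q lies in Q. Then C contains a Sylow 2-subgroup of G, and any involution of G whose centraliser contains a Sylow 2-subgroup of G is conjugate to z. -/
theorem result {G : Type*} [Group G] [Finite G] (z : G) (hz : orderOf z = 2) (Q : Subgroup G) (hQC : Q ≤ Subgroup.centralizer ({z} : Set G)) (hQn : ∀ g ∈ Subgroup.centralizer ({z} : Set G), ∀ q ∈ Q, g * q * g⁻¹ ∈ Q) (hQ2 : IsPGroup 2 Q) (hZ : Nat.card (Subgroup.center Q) = 2) (hsq : ∀ x : Q, x ^ 2 ∈ Subgroup.center Q) (hlarge : Subgroup.centralizer (Q : Set G) ≤ Q) : (∃ P : Sylow 2 G, (P : Subgroup G) ≤ Subgroup.centralizer ({z} : Set G)) ∧ ∀ u : G, orderOf u = 2 → (∃ P : Sylow 2 G, (P : Subgroup G) ≤ Subgroup.centralizer ({u} : Set G)) → IsConj z u := by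
  have hfact : Fact (Nat.Prime 2) := ⟨Nat.prime_two⟩
  have hz1 : z ≠ 1 := by
    rintro rfl
    rw [orderOf_one] at hz
    omega
  have hzcent : z ∈ Subgroup.centralizer (Q : Set G) := by
    rw [Subgroup.mem_centralizer_iff]
    intro q hq
    have := hQC hq
    rw [Subgroup.mem_centralizer_iff] at this
    exact (this z rfl).symm
  have hzQ : z ∈ Q := hlarge hzcent
  -- key: any nontrivial element centralizing Q equals z
  have key : ∀ w : G, w ≠ 1 → w ∈ Subgroup.centralizer (Q : Set G) → w = z := by
    intro w hw1 hwc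
    have hwQ : w ∈ Q := hlarge hwc
    have hzc : (⟨z, hzQ⟩ : Q) ∈ Subgroup.center Q := by
      rw [Subgroup.mem_center_iff]
      intro g
      apply Subtype.ext
      rw [Subgroup.mem_centralizer_iff] at hzcent
      exact hzcent g g.2
    have hwc' : (⟨w, hwQ⟩ : Q) ∈ Subgroup.center Q := by
      rw [Subgroup.mem_center_iff]
      intro g
      apply Subtype.ext
      rw [Subgroup.mem_centralizer_iff] at hwc
      exact hwc g g.2
    obtain ⟨y, -, hy⟩ := (Nat.card_eq_two_iff' (1 : Subgroup.center Q)).mp hZ
    have h1 : (⟨⟨z, hzQ⟩, hzc⟩ : Subgroup.center Q) = y := by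
      apply hy
      intro h
      apply hz1
      have := congrArg (fun a : Subgroup.center Q => ((a : Q) : G)) h
      simpa using this
    have h2 : (⟨⟨w, hwQ⟩, hwc'⟩ : Subgroup.center Q) = y := by
      apply hy
      intro h
      apply hw1
      have := congrArg (fun a : Subgroup.center Q => ((a : Q) : G)) h
      simpa using this
    have := congrArg (fun a : Subgroup.center Q => ((a : Q) : G)) (h2.trans h1.symm)
    simpa using this
  obtain ⟨P, hQP⟩ := hQ2.exists_le_sylow
  -- the centre of P is nontrivial
  have hzP : z ∈ (P : Subgroup G) := hQP hzQ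
  have hPnt : Nontrivial P := ⟨⟨⟨z, hzP⟩, 1, fun h => hz1 (congrArg Subtype.val h)⟩⟩
  have hcnt := P.isPGroup'.center_nontrivial
  obtain ⟨w, hw⟩ := exists_ne (1 : Subgroup.center P)
  have hwG1 : ((w : P) : G) ≠ 1 := by
    intro h
    apply hw
    apply Subtype.ext
    apply Subtype.ext
    simpa using h
  have hwP : ∀ x ∈ (P : Subgroup G), x * ((w : P) : G) = ((w : P) : G) * x := by
    intro x hx
    have := w.2
    rw [Subgroup.mem_center_iff] at this
    have h3 := congrArg Subtype.val (this ⟨x, hx⟩)
    simpa using h3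
  have hwz : ((w : P) : G) = z := by
    apply key _ hwG1
    rw [Subgroup.mem_centralizer_iff]
    intro q hq
    exact hwP q (hQP hq)
  have hPz : ∀ x ∈ (P : Subgroup G), x * z = z * x := by
    rw [← hwz]; exact hwP
  refine ⟨⟨P, fun x hx => ?_⟩, ?_⟩
  · rw [Subgroup.mem_centralizer_iff]
    intro y hy
    rw [Set.mem_singleton_iff] at hy
    subst hy
    exact (hPz x hx).symm
  · rintro u hu ⟨P', hP'⟩
    obtain ⟨g, hg⟩ := MulAction.exists_smul_eq G P' P
    have hu1 : u ≠ 1 := by
      rintro rfl
      rw [orderOf_one] at hu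
      omega
    have hconj1 : g * u * g⁻¹ ≠ 1 := by
      intro h
      apply hu1
      have : u = g⁻¹ * (g * u * g⁻¹) * g := by group
      rw [this, h]; group
    have hcent : g * u * g⁻¹ ∈ Subgroup.centralizer (Q : Set G) := by
      rw [Subgroup.mem_centralizer_iff]
      intro q hq
      have hqP : q ∈ (P : Subgroup G) := hQP hq
      rw [← hg, Sylow.coe_subgroup_smul, Subgroup.mem_pointwise_smul_iff_inv_smul_mem] at hqP
      have hqP' : g⁻¹ * q * g ∈ (P' : Subgroup G) := by
        simpa [MulAut.smul_def] using hqP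
      have := hP' hqP'
      rw [Subgroup.mem_centralizer_iff] at this
      have h4 := this u rfl
      calc q * (g * u * g⁻¹) = g * ((g⁻¹ * q * g) * u) * g⁻¹ := by group
        _ = g * (u * (g⁻¹ * q * g)) * g⁻¹ := by rw [h4]
        _ = g * u * g⁻¹ * q := by group
    have := key _ hconj1 hcent
    rw [isConj_comm, isConj_iff]
    exact ⟨g, this⟩

end Cfsg.Agent.S0481
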