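import Cfsg.Statements.S0502
import Cfsg.Agent.S0065

set_option autoImplicit false
open Cfsg

namespace Cfsg.Agent.S0502

theorem exists_kleinFour_le {P : Type*} [Group P] [Finite P] (A : Subgroup P)
    (hA2 : ∀ a ∈ A, a ^ 2 = 1) (hA : 2 < Nat.card A) :
    ∃ W : Subgroup P, W ≤ A ∧ IsKleinFour W := by
  classical
  have : Fact (Nat.Prime 2) := ⟨Nat.prime_two⟩
  have hp : IsPGroup 2 A := by
    intro g
    refine ⟨1, ?_⟩
    rw [pow_one]
    apply Subtype.ext
    rw [Subgroup.coe_pow]
    exact hA2 g.1 g.2
  obtain ⟨n, hn⟩ := IsPGroup.iff_card.mp hp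
  have hn2 : 2 ≤ n := by
    by_contra h
    push Not at h
    interval_cases n <;> omega
  obtain ⟨K, hK⟩ := Sylow.exists_subgroup_card_pow_prime 2 (G := A) (n := 2)
    (by rw [hn]; exact pow_dvd_pow 2 hn2)
  refine ⟨K.map A.subtype, ?_, ?_⟩
  · rintro x ⟨k, -, rfl⟩
    exact k.2
  · have hcard : Nat.card (K.map A.subtype) = 4 := by
      rw [Subgroup.card_map_of_injective (Subgroup.subtype_injective A)]
      exact hK
    have hsq : ∀ w : K.map A.subtype, w ^ 2 = 1 := by
      rintro ⟨w, k, -, rfl⟩
      apply Subtype.ext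
      rw [Subgroup.coe_pow]
      exact hA2 _ k.2
    have hdvd : Monoid.exponent (K.map A.subtype) ∣ 2 :=
      Monoid.exponent_dvd_of_forall_pow_eq_one hsq
    have hne : Monoid.exponent (K.map A.subtype) ≠ 1 := by
      intro h1
      rw [Monoid.exp_eq_one_iff] at h1
      have := Nat.card_unique (α := K.map A.subtype)
      omega
    refine ⟨hcard, ?_⟩
    rcases (Nat.dvd_prime Nat.prime_two).mp hdvd with h | h
    · exact absurd h hne
    · exact h

theorem two_lt_card_centralizer {P : Type*} [Group P] [Finite P] (E : Subgroup P) [E.Normal]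
    (hE : IsMulCommutative E) (hE2 : ∀ e ∈ E, e ^ 2 = 1) (hE8 : 8 ≤ Nat.card E)
    (a : P) (ha : a ^ 2 = 1) :
    2 < Nat.card (E ⊓ Subgroup.centralizer {a} : Subgroup P) := by
  classical
  have hcomm : ∀ x ∈ E, ∀ y ∈ E, x * y = y * x := by
    intro x hx y hy
    have := hE.is_comm.comm (⟨x, hx⟩ : E) ⟨y, hy⟩
    exact congrArg (fun z : E => (z : P)) this
  have ha2 : a * a = 1 := by rw [← sq]; exact ha
  have hconj : ∀ e ∈ E, a * e * a⁻¹ ∈ E :=
    fun e he => Subgroup.Normal.conj_mem inferInstance e he a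
  let φ : E →* E :=
    { toFun := fun e => ⟨e.1 * (a * e.1 * a⁻¹), E.mul_mem e.2 (hconj e.1 e.2)⟩
      map_one' := by
        apply Subtype.ext
        simp
      map_mul' := by
        intro x y
        apply Subtype.ext
        simp only [Subgroup.coe_mul]
        have h1 := hcomm (a * x.1 * a⁻¹) (hconj _ x.2) y.1 y.2
        have h2 : a * (x.1 * y.1) * a⁻¹ = (a * x.1 * a⁻¹) * (a * y.1 * a⁻¹) := by group
        rw [h2]
        calc x.1 * y.1 * ((a * x.1 * a⁻¹) * (a * y.1 * a⁻¹))
            = x.1 * (y.1 * (a * x.1 * a⁻¹)) * (a * y.1 * a⁻¹) := by group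
          _ = x.1 * ((a * x.1 * a⁻¹) * y.1) * (a * y.1 * a⁻¹) := by rw [h1]
          _ = _ := by group }
  have hφ : ∀ e : E, ((φ e : E) : P) = e.1 * (a * e.1 * a⁻¹) := fun e => rfl
  set C : Subgroup P := E ⊓ Subgroup.centralizer {a} with hC
  have hkmem : ∀ e : φ.ker, e.1.1 ∈ C := by
    intro e
    refine Subgroup.mem_inf.mpr ⟨e.1.2, ?_⟩
    rw [Subgroup.mem_centralizer_iff]
    intro h hh
    rw [Set.mem_singleton_iff] at hh
    subst hh
    have hk : φ e.1 = 1 := e.2
    have hk' : e.1.1 * (h * e.1.1 * h⁻¹) = 1 := by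
      rw [← hφ, hk]; rfl
    have he2 := hE2 e.1.1 e.1.2
    have h3 : (e.1.1)⁻¹ = h * e.1.1 * h⁻¹ := inv_eq_of_mul_eq_one_right hk'
    have h4 : (e.1.1)⁻¹ = e.1.1 := inv_eq_of_mul_eq_one_right (by rw [← sq]; exact he2)
    rw [h4] at h3
    calc h * e.1.1 = h * e.1.1 * h⁻¹ * h := by group
      _ = e.1.1 * h := by rw [← h3]
  have hrmem : ∀ r : φ.range, r.1.1 ∈ C := by
    intro r
    obtain ⟨e, he⟩ := r.2
    refine Subgroup.mem_inf.mpr ⟨r.1.2, ?_⟩
    rw [Subgroup.mem_centralizer_iff]
    intro h hh
    rw [Set.mem_singleton_iff] at hh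
    subst hh
    have hr : r.1.1 = e.1 * (h * e.1 * h⁻¹) := by
      rw [← hφ, he]
    rw [hr]
    have h1 := hcomm (h * e.1 * h⁻¹) (hconj _ e.2) e.1 e.2
    have hc2 : h * (h * e.1 * h⁻¹) * h⁻¹ = e.1 := by
      calc h * (h * e.1 * h⁻¹) * h⁻¹ = (h * h) * e.1 * (h * h)⁻¹ := by group
        _ = e.1 := by rw [ha2]; simp
    calc h * (e.1 * (h * e.1 * h⁻¹))
        = (h * e.1 * h⁻¹) * (h * (h * e.1 * h⁻¹) * h⁻¹) * h := by group
      _ = (h * e.1 * h⁻¹) * e.1 * h := by rw [hc2]
      _ = e.1 * (h * e.1 * h⁻¹) * h := by rw [h1]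
  have hker : Nat.card φ.ker ≤ Nat.card C :=
    Nat.card_le_card_of_injective (fun e : φ.ker => (⟨e.1.1, hkmem e⟩ : C)) (by
      intro x y hxy
      have := congrArg (fun z : C => (z : P)) hxy
      exact Subtype.ext (Subtype.ext this))
  have hrange : Nat.card φ.range ≤ Nat.card C :=
    Nat.card_le_card_of_injective (fun e : φ.range => (⟨e.1.1, hrmem e⟩ : C)) (by
      intro x y hxy
      have := congrArg (fun z : C => (z : P)) hxy
      exact Subtype.ext (Subtype.ext this))
  have hcard : Nat.card E = Nat.card φ.ker * Nat.card φ.range := by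
    have h1 := Subgroup.card_eq_card_quotient_mul_card_subgroup φ.ker
    have h2 : Nat.card (E ⧸ φ.ker) = Nat.card φ.range :=
      Nat.card_congr (QuotientGroup.quotientKerEquivRange φ).toEquiv
    rw [h1, h2, mul_comm]
  by_contra hlt
  push Not at hlt
  have : Nat.card φ.ker * Nat.card φ.range ≤ 2 * 2 :=
    Nat.mul_le_mul (hker.trans hlt) (hrange.trans hlt)
  omega


/-- If a finite 2-group has a normal elementary abelian subgroup of order at least 8, then any two of its Klein
four-subgroups are joined by a chain of Klein four-subgroups with consecutive members commuting elementwise. -/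
theorem result {P : Type*} [Group P] [Finite P] (hP : IsPGroup 2 P)
    (E : Subgroup P) [E.Normal] (hE : IsMulCommutative E) (hE2 : ∀ e ∈ E, e ^ 2 = 1) (hE8 : 8 ≤ Nat.card E) :
    Cfsg.IsFourConnected P := by
  classical
  have : Group.IsNilpotent P := hP.isNilpotent
  have hEbot : E ≠ ⊥ := by
    intro h
    rw [h] at hE8
    simp at hE8
  have hz := Cfsg.Agent.S0065.result E hEbot
  obtain ⟨z, hzmem, hz1⟩ : ∃ z ∈ E ⊓ Subgroup.center P, z ≠ 1 := by
    by_contra hcon
    push Not at hcon
    exact hz ((Subgroup.eq_bot_iff_forall _).mpr hcon)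
  have hzE : z ∈ E := hzmem.1
  have hzc : ∀ g : P, g * z = z * g := fun g => (Subgroup.mem_center_iff.mp hzmem.2 g)
  have hz2 : z ^ 2 = 1 := hE2 z hzE
  have hcommE : ∀ x ∈ E, ∀ y ∈ E, x * y = y * x := by
    intro x hx y hy
    have := hE.is_comm.comm (⟨x, hx⟩ : E) ⟨y, hy⟩
    exact congrArg (fun z : E => (z : P)) this
  set R : Subgroup P → Subgroup P → Prop :=
    fun A B : Subgroup P => IsKleinFour A ∧ IsKleinFour B ∧ ∀ a ∈ A, ∀ b ∈ B, a * b = b * a with hR
  have hRsymm : ∀ A B : Subgroup P, R A B → R B A := by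
    intro A B h
    exact ⟨h.2.1, h.1, fun b hb a ha => (h.2.2 a ha b hb).symm⟩
  have hrev : ∀ X Y : Subgroup P, Relation.ReflTransGen R X Y → Relation.ReflTransGen R Y X := by
    intro X Y h
    induction h with
    | refl => exact Relation.ReflTransGen.refl
    | tail _ hbc ih => exact Relation.ReflTransGen.head (hRsymm _ _ hbc) ih
  have key : ∀ U : Subgroup P, IsKleinFour U →
      ∃ F : Subgroup P, F ≤ E ∧ IsKleinFour F ∧ Relation.ReflTransGen R U F := by
    intro U hU
    have hU2 : ∀ u ∈ U, u ^ 2 = 1 := by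
      intro u hu
      have h := Monoid.pow_exponent_eq_one (⟨u, hu⟩ : U)
      rw [hU.exponent_two] at h
      exact congrArg (fun z : U => (z : P)) h
    have hUc : ∀ u ∈ U, ∀ v ∈ U, u * v = v * u := by
      intro u hu v hv
      have h := mul_comm_of_exponent_two hU.exponent_two (⟨u, hu⟩ : U) ⟨v, hv⟩
      exact congrArg (fun z : U => (z : P)) h
    have hb : ∃ b ∈ U, b ≠ 1 ∧ b ≠ z := by
      by_contra hcon
      push Not at hcon
      have hsub : (U : Set P) ⊆ {1, z} := by
        intro u hu
        by_cases h1 : u = 1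
        · left; exact h1
        · right; exact hcon u hu h1
      have h4 : (U : Set P).ncard = 4 := by
        rw [← Nat.card_coe_set_eq]
        exact hU.card_four
      have h5 := Set.ncard_le_ncard hsub (Set.toFinite _)
      have h6 : ({1, z} : Set P).ncard ≤ 2 := by
        have := Set.ncard_insert_le (1 : P) ({z} : Set P)
        rw [Set.ncard_singleton] at this
        exact this
      omega
    obtain ⟨b, hbU, hb1, hbz⟩ := hb
    set A : Subgroup P := Subgroup.closure {b, z} with hA
    have hbA : b ∈ A := Subgroup.subset_closure (by simp)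
    have hzA : z ∈ A := Subgroup.subset_closure (by simp)
    have hA1 : A ≤ Subgroup.centralizer ({b, z} : Set P) := by
      rw [hA, Subgroup.closure_le]
      intro x hx
      rw [SetLike.mem_coe, Subgroup.mem_centralizer_iff]
      intro y hy
      rcases hx with rfl | hx
      · rcases hy with rfl | hy
        · rfl
        · rw [Set.mem_singleton_iff] at hy
          subst hy
          exact (hzc x).symm
      · rw [Set.mem_singleton_iff] at hx
        subst hx
        exact hzc y
    have hA2 : ∀ x ∈ A, ∀ y ∈ A, x * y = y * x := by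
      have hle : A ≤ Subgroup.centralizer (A : Set P) := by
        rw [hA, Subgroup.closure_le, ← hA]
        intro x hx
        rw [SetLike.mem_coe, Subgroup.mem_centralizer_iff]
        intro y hy
        have hy' := Subgroup.mem_centralizer_iff.mp (hA1 hy)
        rcases hx with rfl | hx
        · exact (hy' x (by simp)).symm
        · rw [Set.mem_singleton_iff] at hx
          subst hx
          exact (hy' x (by simp)).symm
      intro x hx y hy
      exact (Subgroup.mem_centralizer_iff.mp (hle hy) x hx)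
    have hA3 : ∀ x ∈ A, x ^ 2 = 1 := by
      intro x hx
      rw [hA] at hx
      induction hx using Subgroup.closure_induction with
      | mem x hx =>
        rcases hx with rfl | hx
        · exact hU2 x hbU
        · rw [Set.mem_singleton_iff] at hx
          subst hx
          exact hz2
      | one => simp
      | mul x y hx hy ihx ihy =>
        have hc : Commute x y := hA2 x (by rw [hA]; exact hx) y (by rw [hA]; exact hy)
        rw [hc.mul_pow, ihx, ihy, one_mul]
      | inv x hx ihx =>
        rw [inv_pow, ihx, inv_one]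
    have hAU : A ≤ Subgroup.centralizer (U : Set P) := by
      rw [hA, Subgroup.closure_le]
      intro x hx
      rw [SetLike.mem_coe, Subgroup.mem_centralizer_iff]
      intro u hu
      rcases hx with rfl | hx
      · exact hUc u hu x hbU
      · rw [Set.mem_singleton_iff] at hx
        subst hx
        exact hzc u
    set C : Subgroup P := E ⊓ Subgroup.centralizer {b} with hC
    have hAC : A ≤ Subgroup.centralizer (C : Set P) := by
      rw [hA, Subgroup.closure_le]
      intro x hx
      rw [SetLike.mem_coe, Subgroup.mem_centralizer_iff]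
      intro c hc
      rcases hx with rfl | hx
      · exact (Subgroup.mem_centralizer_iff.mp hc.2 x (by simp)).symm
      · rw [Set.mem_singleton_iff] at hx
        subst hx
        exact hzc c
    have hAcard : 2 < Nat.card A := by
      have : Fintype A := Fintype.ofFinite A
      rw [Nat.card_eq_fintype_card, Fintype.two_lt_card_iff]
      refine ⟨⟨1, A.one_mem⟩, ⟨b, hbA⟩, ⟨z, hzA⟩, ?_, ?_, ?_⟩
      · intro h
        exact hb1 (congrArg (fun z : A => (z : P)) h).symm
      · intro h
        exact hz1 (congrArg (fun z : A => (z : P)) h).symm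
      · intro h
        exact hbz (congrArg (fun z : A => (z : P)) h)
    obtain ⟨W, hWA, hW⟩ := exists_kleinFour_le A hA3 hAcard
    have hCcard : 2 < Nat.card C := two_lt_card_centralizer E hE hE2 hE8 b (hU2 b hbU)
    obtain ⟨F, hFC, hF⟩ := exists_kleinFour_le C (fun c hc => hE2 c hc.1) hCcard
    refine ⟨F, hFC.trans inf_le_left, hF, ?_⟩
    have h1 : R U W := by
      refine ⟨hU, hW, ?_⟩
      intro u hu w hw
      exact Subgroup.mem_centralizer_iff.mp (hAU (hWA hw)) u hu
    have h2 : R W F := by
      refine ⟨hW, hF, ?_⟩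
      intro w hw f hf
      exact (Subgroup.mem_centralizer_iff.mp (hAC (hWA hw)) f (hFC hf)).symm
    exact (Relation.ReflTransGen.single h1).trans (Relation.ReflTransGen.single h2)
  intro U V hU hV
  obtain ⟨F, hFE, hF, hUF⟩ := key U hU
  obtain ⟨F', hFE', hF', hVF'⟩ := key V hV
  have h3 : R F F' := ⟨hF, hF', fun a ha b hb => hcommE a (hFE ha) b (hFE' hb)⟩
  have h4 : Relation.ReflTransGen R F' V := hrev _ _ hVF'
  exact (hUF.trans (Relation.ReflTransGen.single h3)).trans h4

end Cfsg.Agent.S0502
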