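import Cfsg.Statements.S0520
import Cfsg.Agent.Lib.Helper12.FourConn

set_option autoImplicit false
open Cfsg

namespace Cfsg.Agent.S0520

open Cfsg.Agent.Lib.Helper12


/-- Let G be a finite group of 2-rank at least 2 and S a Sylow 2-subgroup whose commuting graph of Klein four-subgroups is
connected. Then the commuting graph of Klein four-subgroups of G is disconnected if and only if the 2-generated core — the
subgroup generated by the normalizers N_G(Q) of the subgroups Q of S that contain a Klein four-group — is a proper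
subgroup of G. -/
theorem result {G : Type*} [Group G] [Finite G] (h2 : ¬ Cfsg.PRankLE 2 1 G)
    (S : Sylow 2 G) (hS : Cfsg.IsFourConnected (S : Subgroup G)) :
    ¬ Cfsg.IsFourConnected G ↔
      (⨆ Q : {Q : Subgroup G // Q ≤ (S : Subgroup G) ∧ ¬ Cfsg.PRankLE 2 1 Q},
          Subgroup.normalizer ((Q : Subgroup G) : Set G)) ≠ ⊤ := by
  classical
  have : Fact (Nat.Prime 2) := ⟨Nat.prime_two⟩
  set Γ : Subgroup G := ⨆ Q : {Q : Subgroup G // Q ≤ (S : Subgroup G) ∧ ¬ Cfsg.PRankLE 2 1 Q},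
      Subgroup.normalizer ((Q : Subgroup G) : Set G) with hΓdef
  let good : Subgroup G → Prop := fun Q => ∃ U : Subgroup G, U ≤ Q ∧ IsKleinFour U
  have hgood : ∀ Q : Subgroup G, ¬ PRankLE 2 1 Q ↔ good Q := fun Q => not_pRankLE_two_one_iff Q
  have hmono : ∀ Q Q' : Subgroup G, Q ≤ Q' → good Q → good Q' := by
    rintro Q Q' hQQ' ⟨U, hUQ, hU⟩
    exact ⟨U, hUQ.trans hQQ', hU⟩
  have hconj : ∀ (g : G) (Q : Subgroup G), good Q → good (cj g Q) := by
    rintro g Q ⟨U, hUQ, hU⟩
    exact ⟨cj g U, cj_mono hUQ, isKleinFour_cj hU⟩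
  have hΓ : ∀ Q : Subgroup G, Q ≤ S → good Q → Subgroup.normalizer (Q : Set G) ≤ Γ := by
    intro Q hQS hQ
    exact le_iSup (fun Q : {Q : Subgroup G // Q ≤ (S : Subgroup G) ∧ ¬ Cfsg.PRankLE 2 1 Q} =>
      Subgroup.normalizer ((Q : Subgroup G) : Set G)) ⟨Q, hQS, (hgood Q).mpr hQ⟩
  obtain ⟨U, hUS, hU⟩ : ∃ U : Subgroup G, U ≤ S ∧ IsKleinFour U := by
    obtain ⟨W, hW⟩ := exists_isKleinFour_of_not_pRankLE h2
    obtain ⟨a, ha⟩ := exists_cj_le_sylow S (isPGroup_of_isKleinFour hW)
    exact ⟨cj a W, ha, isKleinFour_cj hW⟩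
  have hJ : ∀ Q : Subgroup G, Q ≤ S → good Q → ∀ g : G, cj g Q ≤ S → g ∈ Γ :=
    fun Q hQS hQ g hg => mem_of_cj_le_of_good S Γ good hmono hconj hΓ _ Q hQS hQ rfl g hg
  rw [not_iff_comm, not_not]
  constructor
  · intro htop
    have hΓH : Γ ≤ fourStab U := by
      apply iSup_le
      rintro ⟨Q, hQS, hQ⟩
      intro g hg
      obtain ⟨U₀, hU₀Q, hU₀⟩ := (hgood Q).mp hQ
      rw [mem_fourStab]
      have h1 : Relation.ReflTransGen FourAdj U U₀ :=
        fourConn_of_le hS hUS (hU₀Q.trans hQS) hU hU₀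
      have hcj : cj g U₀ ≤ S := by
        refine (cj_mono hU₀Q).trans ?_
        rw [cj_eq_self_of_mem_normalizer hg]
        exact hQS
      have h2 : Relation.ReflTransGen FourAdj U₀ (cj g U₀) :=
        fourConn_of_le hS (hU₀Q.trans hQS) hcj hU₀ (isKleinFour_cj hU₀)
      have h3 : Relation.ReflTransGen FourAdj (cj g U₀) (cj g U) :=
        fourConn_cj g (fourConn_symm h1)
      exact (h1.trans h2).trans h3
    have hall : ∀ V : Subgroup G, IsKleinFour V → Relation.ReflTransGen FourAdj V U := by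
      intro V hV
      obtain ⟨a, ha⟩ := exists_cj_le_sylow S (isPGroup_of_isKleinFour hV)
      have h1 : Relation.ReflTransGen FourAdj (cj a V) U :=
        fourConn_of_le hS ha hUS (isKleinFour_cj hV) hU
      have h2 := fourConn_cj a⁻¹ h1
      rw [cj_inv_cj] at h2
      have h3 : a⁻¹ ∈ fourStab U := hΓH (by rw [htop]; trivial)
      exact h2.trans (fourConn_symm (mem_fourStab.mp h3))
    intro V V' hV hV'
    exact (hall V hV).trans (fourConn_symm (hall V' hV'))
  · intro hconn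
    rw [eq_top_iff]
    intro g _
    have hB : ∀ V : Subgroup G, Relation.ReflTransGen FourAdj U V → ∃ x ∈ Γ, cj x V ≤ S := by
      intro V h
      induction h with
      | refl => exact ⟨1, Γ.one_mem, by rw [cj_one]; exact hUS⟩
      | @tail b c _ hbc ih =>
        obtain ⟨x, hxΓ, hx⟩ := ih
        have hgoodV : good (cj x b) := ⟨cj x b, le_rfl, isKleinFour_cj hbc.1⟩
        have hadj := fourAdj_cj x hbc
        have hDN : cj x c ≤ Subgroup.normalizer ((cj x b : Subgroup G) : Set G) := by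
          intro d hd
          apply Subgroup.centralizer_le_normalizer
          rw [Subgroup.mem_centralizer_iff]
          intro v hv
          exact hadj.2.2 v hv d hd
        obtain ⟨y, hyΓ, hy⟩ := exists_cj_le_of_le_normalizer S Γ (cj x b) (hΓ _ hx hgoodV)
          (fun g' hg' => hJ _ inf_le_left (hmono _ _ (le_inf hx Subgroup.le_normalizer) hgoodV)
            g' hg')
          (cj x c) hDN (isPGroup_cj (isPGroup_of_isKleinFour hbc.2.1))
        exact ⟨y * x, Γ.mul_mem hyΓ hxΓ, by rw [cj_mul]; exact hy⟩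
    obtain ⟨x, hxΓ, hx⟩ := hB (cj g⁻¹ U) (hconn U (cj g⁻¹ U) hU (isKleinFour_cj hU))
    have h1 : x * g⁻¹ ∈ Γ := hJ U hUS ⟨U, le_rfl, hU⟩ (x * g⁻¹) (by rw [cj_mul]; exact hx)
    have h3 : g = (x * g⁻¹)⁻¹ * x := by group
    rw [h3]
    exact Γ.mul_mem (Γ.inv_mem h1) hxΓ

end Cfsg.Agent.S0520
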