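import Cfsg.Statements.S0521
import Mathlib
import Cfsg.Agent.Lib.Helper14.ActionStable
import Cfsg.Agent.Lib.Helper14.Coprime
import Cfsg.Agent.Lib.Helper40.HallHigman
import Cfsg.Agent.Lib.Helper75.FrattiniAct
import Cfsg.Agent.Lib.Helper75.PSolvOfSolv

set_option autoImplicit false
open Cfsg

namespace Cfsg.Agent.S0521

open scoped commutatorElement

universe u

/-- in a finite `p`-group with cyclic commutator subgroup, conjugation by any element acts on the
commutator subgroup as a power map `d ↦ d^(1+pj)`. -/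
theorem cyc_conj {P : Type*} [Group P] [Finite P] {p : ℕ} [Fact p.Prime] (hP : IsPGroup p P)
    (hC : IsCyclic (commutator P)) (y : P) :
    ∃ j : ℕ, ∀ d ∈ commutator P, y * d * y⁻¹ = d * (d ^ j) ^ p := by
  have hp : p.Prime := Fact.out
  obtain ⟨g, hg⟩ := hC.exists_generator
  have hpow : ∀ d ∈ commutator P, ∃ m : ℕ, d = (g : P) ^ m := by
    intro d hd
    have h1 := hg ⟨d, hd⟩
    rw [← mem_powers_iff_mem_zpowers] at h1
    obtain ⟨m, hm⟩ := h1
    refine ⟨m, ?_⟩
    have := congrArg Subtype.val hm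
    simpa using this.symm
  have hnorm : (commutator P).Normal := inferInstance
  obtain ⟨i, hi⟩ := hpow _ (hnorm.conj_mem _ g.2 y)
  by_cases hg1 : (g : P) = 1
  · refine ⟨0, fun d hd => ?_⟩
    obtain ⟨m, rfl⟩ := hpow d hd
    rw [hg1]; simp
  · obtain ⟨k, hk⟩ := hP y
    have hiter : ∀ n : ℕ, y ^ n * (g : P) * (y ^ n)⁻¹ = (g : P) ^ (i ^ n) := by
      intro n
      induction n with
      | zero => simp
      | succ n ih =>
        calc y ^ (n + 1) * (g : P) * (y ^ (n + 1))⁻¹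
            = y * (y ^ n * (g : P) * (y ^ n)⁻¹) * y⁻¹ := by rw [pow_succ']; group
          _ = y * (g : P) ^ (i ^ n) * y⁻¹ := by rw [ih]
          _ = (y * (g : P) * y⁻¹) ^ (i ^ n) := by rw [conj_pow]
          _ = (g : P) ^ (i ^ (n + 1)) := by rw [hi, ← pow_mul, pow_succ']
    have h1 := hiter (p ^ k)
    rw [hk] at h1
    simp only [one_mul, inv_one, mul_one] at h1
    have h2 : i ^ p ^ k ≡ 1 [MOD orderOf (g : P)] := by
      rw [← pow_eq_pow_iff_modEq, pow_one]; exact h1.symm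
    have hpd : p ∣ orderOf (g : P) := by
      obtain ⟨n, hn⟩ := (IsPGroup.iff_orderOf.mp hP) (g : P)
      rw [hn]
      have : n ≠ 0 := by
        rintro rfl
        rw [pow_zero, orderOf_eq_one_iff] at hn
        exact hg1 hn
      exact dvd_pow_self p this
    have h3 : i ^ p ^ k ≡ 1 [MOD p] := h2.of_dvd hpd
    have h4 : ((i : ℕ) : ZMod p) = 1 := by
      have := (ZMod.natCast_eq_natCast_iff _ _ _).mpr h3
      rw [Nat.cast_pow, ZMod.pow_card_pow, Nat.cast_one] at this
      exact this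
    have h5 : i ≡ 1 [MOD p] := by
      rw [← ZMod.natCast_eq_natCast_iff, Nat.cast_one]; exact h4
    have hi1 : 1 ≤ i := by
      by_contra h0
      have h00 : i = 0 := by omega
      rw [h00] at h5
      have := (Nat.modEq_zero_iff_dvd.mp h5.symm)
      exact hp.one_lt.ne' (Nat.dvd_one.mp this)
    obtain ⟨j, hj⟩ : ∃ j, i = 1 + p * j := by
      have := (Nat.modEq_iff_dvd' hi1).mp h5.symm
      obtain ⟨j, hj⟩ := this
      exact ⟨j, by omega⟩
    refine ⟨j, fun d hd => ?_⟩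
    obtain ⟨m, rfl⟩ := hpow d hd
    rw [← conj_pow, hi, hj, ← pow_mul, ← pow_mul, ← pow_mul, ← pow_add]
    congr 1
    ring

theorem odd_quot : Cfsg.Agent.Lib.Helper14.ClassQuot.{u} (fun Γ _ => Odd (Nat.card Γ)) := by
  intro Γ Γ' _ _ _ f hf h
  exact Odd.of_dvd_nat h (Subgroup.card_dvd_of_surjective f hf)

theorem sylow_two_bot {Γ : Type*} [Group Γ] [Finite Γ] (h : Odd (Nat.card Γ)) (T : Sylow 2 Γ) :
    (T : Subgroup Γ) = ⊥ := by
  have h1 : Nat.card (T : Subgroup Γ) ∣ Nat.card Γ := Subgroup.card_subgroup_dvd_card _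
  obtain ⟨n, hn⟩ := IsPGroup.iff_card.mp T.isPGroup'
  rw [hn] at h1
  have hn0 : n = 0 := by
    by_contra hn0
    have h2 : 2 ∣ Nat.card Γ := dvd_trans (dvd_pow_self 2 hn0) h1
    exact (Nat.not_even_iff_odd.mpr h) (even_iff_two_dvd.mpr h2)
  rw [hn0, pow_zero] at hn
  exact Subgroup.card_eq_one.mp hn

theorem odd_key {p : ℕ} [Fact p.Prime] (hp : p ≠ 2) :
    Cfsg.Agent.Lib.Helper14.ClassKey.{u} p (fun Γ _ => Odd (Nat.card Γ)) := by
  intro Γ _ _ A _ _ h hA θ hθ a ha
  obtain ⟨T⟩ : Nonempty (Sylow 2 Γ) := inferInstance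
  refine Cfsg.Agent.Lib.Helper14.quad_mem_pCore hp hA θ hθ a ha T ?_
  have hT := sylow_two_bot h T
  intro x hx y hy
  have hx' : x ∈ (T : Subgroup Γ) := hx
  have hy' : y ∈ (T : Subgroup Γ) := hy
  rw [hT, Subgroup.mem_bot] at hx' hy'
  rw [hx', hy']

/-- Let X be a finite solvable group of odd order, p a prime and S a Sylow p-subgroup of X whose commutator subgroup is
cyclic. Then the product of the largest normal subgroup of X of order prime to p with S is a normal subgroup of X. -/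
theorem result {X : Type*} [Group X] [Finite X] [Group.IsSolvable X]
    (hX : Odd (Nat.card X)) (p : ℕ) [Fact p.Prime] (S : Sylow p X) (hS : IsCyclic (commutator (S : Subgroup X))) :
    (Cfsg.pPrimeCore p X ⊔ (S : Subgroup X)).Normal := by
  have hp : p.Prime := Fact.out
  have hNn : (pPrimeCore p X).Normal := Cfsg.Agent.Lib.Helper81.pPrimeCore_normal p
  by_cases hp2 : p = 2
  · subst hp2
    have hT := sylow_two_bot hX S
    rw [hT, sup_bot_eq]; exact hNn
  set N := pPrimeCore p X with hN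
  set π := QuotientGroup.mk' N with hπ
  have hsurj : Function.Surjective π := QuotientGroup.mk'_surjective N
  have hQn : (pCore p (X ⧸ N)).Normal := Cfsg.Agent.Lib.Helper40.pCore_normal' p
  have hQp : IsPGroup p ↥(pCore p (X ⧸ N)) := Cfsg.Agent.Lib.Helper14.pCore_isPGroup
  have hQS : ∀ q ∈ (pCore p (X ⧸ N)), ∃ t ∈ (S : Subgroup X), π t = q := by
    intro q hq
    have h1 : (pCore p (X ⧸ N)) ≤ ((S.mapSurjective hsurj : Sylow p (X ⧸ N)) : Subgroup (X ⧸ N)) :=
      Cfsg.Agent.Lib.Helper14.pCore_le_sylow _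
    have h2 := h1 hq
    rw [Sylow.coe_mapSurjective] at h2
    obtain ⟨t, ht, htq⟩ := h2
    exact ⟨t, ht, htq⟩
  have key : ∀ s ∈ (S : Subgroup X), π s ∈ (pCore p (X ⧸ N)) := by
    intro s hs
    have hodd : Odd (Nat.card (X ⧸ N)) := odd_quot X (X ⧸ N) π hsurj hX
    have hsol : IsPSolvable p (X ⧸ N) :=
      Cfsg.Agent.Lib.Helper75.Fratt.isPSolvable_quotient N
        (Cfsg.Agent.Lib.Helper75.PSS.isPSolvable_of_isSolvable p hp X)
    have hred : pPrimeCore p (X ⧸ N) = ⊥ :=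
      Cfsg.Agent.Lib.Helper75.Fratt.pPrimeCore_quotient_eq_bot' p
    have hc : Subgroup.centralizer ((pCore p (X ⧸ N)) : Set (X ⧸ N)) ≤ (pCore p (X ⧸ N)) :=
      Cfsg.Agent.Lib.Helper40.centralizer_pCore_le hsol hred
    have hstab := Cfsg.Agent.Lib.Helper14.pStableOnSection_of_class odd_quot (odd_key hp2) hodd
    have hSp : IsPGroup p ↥(S : Subgroup X) := S.isPGroup'
    set C₀ : Subgroup (X ⧸ N) :=
      ((commutator ↥(S : Subgroup X)).map (S : Subgroup X).subtype).map π with hC₀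
    have h1 : ⁅(pCore p (X ⧸ N)), Subgroup.zpowers (π s)⁆ ≤ (pCore p (X ⧸ N)) ⊓ C₀ := by
      rw [Subgroup.commutator_le]
      intro q hq y hy
      refine ⟨?_, ?_⟩
      · rw [commutatorElement_def]
        have := hQn.conj_mem q⁻¹ ((pCore p (X ⧸ N)).inv_mem hq) y
        have e : q * y * q⁻¹ * y⁻¹ = q * (y * q⁻¹ * y⁻¹) := by group
        rw [e]; exact (pCore p (X ⧸ N)).mul_mem hq this
      · obtain ⟨t, ht, rfl⟩ := hQS q hq
        obtain ⟨n, rfl⟩ := Subgroup.mem_zpowers_iff.mp hy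
        rw [← map_zpow, ← map_commutatorElement]
        refine Subgroup.mem_map_of_mem π ?_
        refine ⟨⁅(⟨t, ht⟩ : ↥(S : Subgroup X)), (⟨s, hs⟩ : ↥(S : Subgroup X)) ^ n⁆, ?_, ?_⟩
        · exact Subgroup.commutator_mem_commutator (Subgroup.mem_top _) (Subgroup.mem_top _)
        · simp [commutatorElement_def]
    have hquad : ⁅⁅(pCore p (X ⧸ N)), Subgroup.zpowers (π s)⁆, Subgroup.zpowers (π s)⁆ ≤ ((frattini ↥(pCore p (X ⧸ N))).map (pCore p (X ⧸ N)).subtype) := by
      rw [Subgroup.commutator_le]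
      intro g₁ hg₁ g₂ hg₂
      obtain ⟨hg₁Q, hg₁C⟩ := h1 hg₁
      obtain ⟨d, hd, rfl⟩ := hg₁C
      obtain ⟨d', hd', rfl⟩ := hd
      obtain ⟨n, rfl⟩ := Subgroup.mem_zpowers_iff.mp hg₂
      obtain ⟨j, hj⟩ := cyc_conj hSp hS ((⟨s, hs⟩ : ↥(S : Subgroup X)) ^ n)
      have h2 := hj d'⁻¹ (Subgroup.inv_mem _ hd')
      have h4 := congrArg (fun z : ↥(S : Subgroup X) => π (z : X)) h2
      simp only [Subgroup.coe_mul, Subgroup.coe_inv, Subgroup.coe_zpow, Subgroup.coe_pow,
        map_mul, map_inv, map_zpow, map_pow] at h4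
      have h3 : ⁅π ((S : Subgroup X).subtype d'), (π s) ^ n⁆ =
          ((π ((S : Subgroup X).subtype d'))⁻¹ ^ j) ^ p := by
        rw [commutatorElement_def]
        have e : π ((S : Subgroup X).subtype d') * π s ^ n * (π ((S : Subgroup X).subtype d'))⁻¹ *
            (π s ^ n)⁻¹ = π ((S : Subgroup X).subtype d') *
              (π s ^ n * (π ((S : Subgroup X).subtype d'))⁻¹ * (π s ^ n)⁻¹) := by group
        rw [e]
        simp only [Subgroup.coe_subtype]
        rw [h4]
        group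
      rw [h3]
      have hmem : (π ((S : Subgroup X).subtype d'))⁻¹ ^ j ∈ (pCore p (X ⧸ N)) := (pCore p (X ⧸ N)).pow_mem ((pCore p (X ⧸ N)).inv_mem hg₁Q) j
      have h5 := Cfsg.Agent.Lib.Helper72.pow_mem_frattini hQp ⟨_, hmem⟩
      exact ⟨_, h5, rfl⟩
    obtain ⟨D, hDn, hKD, ⟨k, hk⟩, hsD⟩ := hstab (π s) hquad
    have hKp : IsPGroup p ↥(sectionKernel (pCore p (X ⧸ N)) ((frattini ↥(pCore p (X ⧸ N))).map (pCore p (X ⧸ N)).subtype)) :=
      Cfsg.Agent.Lib.Helper14.sectionKernel_isPGroup hc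
    have hDp : IsPGroup p ↥D := by
      obtain ⟨m, hm⟩ := IsPGroup.iff_card.mp hKp
      apply IsPGroup.of_card (n := m + k)
      have h6 := Subgroup.relIndex_mul_relIndex ⊥ (sectionKernel (pCore p (X ⧸ N)) ((frattini ↥(pCore p (X ⧸ N))).map (pCore p (X ⧸ N)).subtype)) D bot_le hKD
      rw [Subgroup.relIndex_bot_left, Subgroup.relIndex_bot_left, hm, hk] at h6
      rw [← h6, pow_add]
    exact (Cfsg.Agent.Lib.Helper14.le_pCore hDn hDp) hsD
  have hK : N ⊔ (S : Subgroup X) = (pCore p (X ⧸ N)).comap π := by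
    apply le_antisymm
    · refine sup_le ?_ ?_
      · intro n hn
        rw [Subgroup.mem_comap]
        have : π n = 1 := (QuotientGroup.eq_one_iff n).mpr hn
        rw [this]; exact (pCore p (X ⧸ N)).one_mem
      · intro s hs; exact key s hs
    · intro g hg
      rw [Subgroup.mem_comap] at hg
      obtain ⟨s, hs, hsg⟩ := hQS _ hg
      have h3 : g * s⁻¹ ∈ N := by
        rw [← QuotientGroup.eq_one_iff]
        have : π (g * s⁻¹) = 1 := by rw [map_mul, map_inv, hsg]; group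
        exact this
      have : g = (g * s⁻¹) * s := by group
      rw [this]
      exact Subgroup.mul_mem _ (Subgroup.mem_sup_left h3) (Subgroup.mem_sup_right hs)
  rw [hK]
  exact hQn.comap π

end Cfsg.Agent.S0521
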