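import Cfsg.Statements.S0522
import Cfsg.Agent.Lib.Helper32.ThTrans2

set_option autoImplicit false
open Cfsg

namespace Cfsg.Agent.S0522

/-- Transitivity Theorem (odd-order setting). Let X be a finite group of odd order in which the normalizer of every
nontrivial p-subgroup is solvable, P a Sylow p-subgroup, and B an abelian subgroup of P, normalized by P, with
C_P(B) = B and containing an elementary abelian subgroup of order p^3. Then for every prime q ≠ p, any two q-subgroups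
that are maximal among the q-subgroups normalized by B are conjugate by an element of the centralizer of B. -/
theorem result {X : Type*} [Group X] [Finite X] (hX : Odd (Nat.card X)) (p : ℕ)
    [Fact p.Prime] (hloc : ∀ T : Subgroup X, IsPGroup p T → T ≠ ⊥ → Group.IsSolvable (Subgroup.normalizer (T : Set X)))
    (P : Sylow p X) (B : Subgroup X) (hBP : B ≤ (P : Subgroup X))
    (hBn : ∀ x ∈ (P : Subgroup X), ∀ b ∈ B, x * b * x⁻¹ ∈ B) (hBa : IsMulCommutative B)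
    (hBc : (P : Subgroup X) ⊓ Subgroup.centralizer (B : Set X) = B)
    (hB3 : ∃ E : Subgroup X, E ≤ B ∧ (∀ e ∈ E, e ^ p = 1) ∧ p ^ 3 ≤ Nat.card E)
    (q : ℕ) [Fact q.Prime] (hqp : q ≠ p) (Q₁ Q₂ : Subgroup X)
    (h₁ : IsPGroup q Q₁ ∧ B ≤ Subgroup.normalizer (Q₁ : Set X) ∧
      ∀ R : Subgroup X, IsPGroup q R → B ≤ Subgroup.normalizer (R : Set X) → Q₁ ≤ R → R = Q₁)
    (h₂ : IsPGroup q Q₂ ∧ B ≤ Subgroup.normalizer (Q₂ : Set X) ∧
      ∀ R : Subgroup X, IsPGroup q R → B ≤ Subgroup.normalizer (R : Set X) → Q₂ ≤ R → R = Q₂) :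
    ∃ c ∈ Subgroup.centralizer (B : Set X), Q₂ = Q₁.map (MulAut.conj c).toMonoidHom := by
  classical
  have hp := (Fact.out : p.Prime)
  obtain ⟨E, hEB, hEp, hE3⟩ := hB3
  have hBa' : ∀ a ∈ B, ∀ b ∈ B, a * b = b * a := fun a ha b hb =>
    congrArg Subtype.val (hBa.is_comm.comm ⟨a, ha⟩ ⟨b, hb⟩)
  have hPB : (P : Subgroup X) ≤ Subgroup.normalizer (B : Set X) := by
    rw [Subgroup.le_normalizer_iff]
    exact hBn
  have hBp : IsPGroup p B := P.2.to_le hBP
  have hEel : Cfsg.IsElementaryAbelian p E :=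
    ⟨⟨⟨fun a b => Subtype.ext (hBa' a (hEB a.2) b (hEB b.2))⟩⟩, hEp⟩
  -- `p` is odd
  have hp2 : p ≠ 2 := by
    intro h2
    have hEpg : IsPGroup p E := hBp.to_le hEB
    obtain ⟨m, hm⟩ := IsPGroup.iff_card.mp hEpg
    have hm0 : m ≠ 0 := by
      intro h0
      rw [h0, pow_zero] at hm
      have : 1 < p ^ 3 := Nat.one_lt_pow (by norm_num) hp.one_lt
      omega
    have hdvd : p ∣ Nat.card X :=
      (dvd_pow_self p hm0).trans (hm ▸ Subgroup.card_subgroup_dvd_card E)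
    rw [h2] at hdvd
    exact (Nat.not_even_iff_odd.mpr hX) (even_iff_two_dvd.mpr hdvd)
  have hT : Cfsg.Agent.Lib.Helper32.TTHyp p B :=
    ⟨hBp, hBa', Cfsg.Agent.Lib.Helper32.scn_full P hBP hPB hBc,
      fun T hT hT1 => Cfsg.Agent.Lib.Helper32.isPConstrained_of_isSolvable (hloc T hT hT1) p,
      Or.inl hp2⟩
  have hmax : ∀ Q : Subgroup X, (IsPGroup q Q ∧ B ≤ Subgroup.normalizer (Q : Set X) ∧
      ∀ R : Subgroup X, IsPGroup q R → B ≤ Subgroup.normalizer (R : Set X) → Q ≤ R → R = Q) →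
      Q ∈ Cfsg.maxInvSubgroups ⊤ B {q} := by
    rintro Q ⟨hQq, hBQ, hQmax⟩
    refine ⟨⟨le_top, Cfsg.Agent.Lib.Helper32.primes_of_isPGroup hQq, hBQ⟩, ?_⟩
    intro R hR hQR
    exact hQmax R (Cfsg.Agent.Lib.Helper32.isPGroup_of_primes hR.2.1) hR.2.2 hQR
  obtain ⟨k, hk, hkQ⟩ := Cfsg.Agent.Lib.Helper32.thompson_trans hT hEB hEel hE3 hqp (hmax Q₁ h₁)
    (hmax Q₂ h₂)
  exact ⟨k, Cfsg.Agent.Lib.Helper32.piCoreOf_le _ _ hk, hkQ⟩

end Cfsg.Agent.S0522
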