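import Cfsg.Statements.S0535
import Cfsg.Agent.S0007
import Cfsg.Agent.S0019
import Cfsg.Agent.S0144

set_option autoImplicit false
open Cfsg

namespace Cfsg.Agent.S0535

theorem exists_two_prime_powers (n : ℕ) (hn : n ≠ 0)
    (h3 : ¬ ∃ p q r : ℕ, p.Prime ∧ q.Prime ∧ r.Prime ∧ p ≠ q ∧ p ≠ r ∧ q ≠ r ∧
      p ∣ n ∧ q ∣ n ∧ r ∣ n) :
    ∃ p q a b : ℕ, p.Prime ∧ q.Prime ∧ n = p ^ a * q ^ b := by
  by_cases h1 : n = 1
  · exact ⟨2, 3, 0, 0, Nat.prime_two, Nat.prime_three, by simp [h1]⟩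
  have hp : n.minFac.Prime := Nat.minFac_prime h1
  have hpn : n.minFac ∣ n := Nat.minFac_dvd n
  obtain ⟨p, hpdef⟩ : ∃ p, p = n.minFac := ⟨_, rfl⟩
  rw [← hpdef] at hp hpn
  obtain ⟨m, hmdef⟩ : ∃ m, m = n / p ^ n.factorization p := ⟨_, rfl⟩
  have hnm : p ^ n.factorization p * m = n := by
    rw [hmdef]
    exact Nat.ordProj_mul_ordCompl_eq_self n p
  have hpm : ¬ p ∣ m := by
    rw [hmdef]
    exact Nat.not_dvd_ordCompl hp hn
  have hm0 : m ≠ 0 := by
    intro h0
    rw [h0, mul_zero] at hnm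
    exact hn hnm.symm
  have hmn : m ∣ n := Dvd.intro_left _ hnm
  by_cases hm1 : m = 1
  · refine ⟨p, 2, n.factorization p, 0, hp, Nat.prime_two, ?_⟩
    rw [hm1, mul_one] at hnm
    rw [pow_zero, mul_one]
    exact hnm.symm
  have hq : m.minFac.Prime := Nat.minFac_prime hm1
  have hqm : m.minFac ∣ m := Nat.minFac_dvd m
  obtain ⟨q, hqdef⟩ : ∃ q, q = m.minFac := ⟨_, rfl⟩
  rw [← hqdef] at hq hqm
  have hqp : q ≠ p := fun h => hpm (h ▸ hqm)
  obtain ⟨m', hm'def⟩ : ∃ m', m' = m / q ^ m.factorization q := ⟨_, rfl⟩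
  have hmm' : q ^ m.factorization q * m' = m := by
    rw [hm'def]
    exact Nat.ordProj_mul_ordCompl_eq_self m q
  have hqm' : ¬ q ∣ m' := by
    rw [hm'def]
    exact Nat.not_dvd_ordCompl hq hm0
  have hm'm : m' ∣ m := Dvd.intro_left _ hmm'
  by_cases hm'1 : m' = 1
  · refine ⟨p, q, n.factorization p, m.factorization q, hp, hq, ?_⟩
    rw [hm'1, mul_one] at hmm'
    rw [hmm']
    exact hnm.symm
  exfalso
  apply h3
  refine ⟨p, q, m'.minFac, hp, hq, Nat.minFac_prime hm'1, hqp.symm, ?_, ?_, hpn,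
    hqm.trans hmn, ((Nat.minFac_dvd m').trans hm'm).trans hmn⟩
  · intro h
    exact hpm (h ▸ ((Nat.minFac_dvd m').trans hm'm))
  · intro h
    exact hqm' (h ▸ Nat.minFac_dvd m')


/-- Suppose that for every nontrivial subgroup H of a finite group and every prime p dividing the order of H there is a proper subgroup of H whose index in H is a power of p. Then the group is solvable. -/
theorem result {G : Type*} [Group G] [Finite G] (h : ∀ H : Subgroup G, H ≠ ⊥ → ∀ p : ℕ, p.Prime → p ∣ Nat.card H → ∃ K : Subgroup H, K ≠ ⊤ ∧ ∃ k : ℕ, K.index = p ^ k) : Group.IsSolvable G := by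
  have key : ∀ n : ℕ, ∀ H : Subgroup G, Nat.card H = n → Group.IsSolvable H := by
    intro n
    induction n using Nat.strong_induction_on with
    | _ n ih =>
      intro H hcard
      have hprop : ∀ K : Subgroup H, K ≠ ⊤ → Group.IsSolvable K := by
        intro K hK
        have hlt : Nat.card (K.map H.subtype) < n := by
          rw [Subgroup.card_map_of_injective H.subtype_injective, ← hcard]
          by_contra hle
          exact hK (Subgroup.eq_top_of_le_card K (not_lt.mp hle))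
        have hs := ih _ hlt (K.map H.subtype) rfl
        exact Group.isSolvable_of_isSolvable_injective
          (f := (K.equivMapOfInjective H.subtype H.subtype_injective).toMonoidHom)
          (MulEquiv.injective _)
      by_cases hbot : H = ⊥
      · rw [hbot]
        infer_instance
      by_cases h3 : ∃ p q r : ℕ, p.Prime ∧ q.Prime ∧ r.Prime ∧ p ≠ q ∧ p ≠ r ∧ q ≠ r ∧
          p ∣ Nat.card H ∧ q ∣ Nat.card H ∧ r ∣ Nat.card H
      · obtain ⟨p, q, r, hp, hq, hr, hpq, hpr, hqr, hpd, hqd, hrd⟩ := h3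
        obtain ⟨K₁, hK₁, k₁, hk₁⟩ := h H hbot p hp hpd
        obtain ⟨K₂, hK₂, k₂, hk₂⟩ := h H hbot q hq hqd
        obtain ⟨K₃, hK₃, k₃, hk₃⟩ := h H hbot r hr hrd
        have c12 : Nat.Coprime K₁.index K₂.index := by
          rw [hk₁, hk₂]
          exact Nat.Coprime.pow _ _ ((Nat.coprime_primes hp hq).mpr hpq)
        have c13 : Nat.Coprime K₁.index K₃.index := by
          rw [hk₁, hk₃]
          exact Nat.Coprime.pow _ _ ((Nat.coprime_primes hp hr).mpr hpr)
        have c23 : Nat.Coprime K₂.index K₃.index := by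
          rw [hk₂, hk₃]
          exact Nat.Coprime.pow _ _ ((Nat.coprime_primes hq hr).mpr hqr)
        exact Cfsg.Agent.S0019.result K₁ K₂ K₃ (hprop K₁ hK₁) (hprop K₂ hK₂) (hprop K₃ hK₃)
          (Cfsg.Agent.S0007.result K₁ K₂ c12).2 (Cfsg.Agent.S0007.result K₁ K₃ c13).2 c23
      · obtain ⟨p, q, a, b, hp, hq, hpq⟩ :=
          exists_two_prime_powers (Nat.card H) Nat.card_pos.ne' h3
        exact Cfsg.Agent.S0144.result p q a b hp hq hpq
  have htop := key _ ⊤ rfl
  exact Group.isSolvable_of_surjective (f := (Subgroup.topEquiv (G := G)).toMonoidHom)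
    (MulEquiv.surjective _)

end Cfsg.Agent.S0535
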