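-- Statement S0540 (row 540): a uniqueness lemma of zipper type.
import Cfsg.Statements.S0540
import Cfsg.Agent.Lib.Helper12.Subnormal2

set_option autoImplicit false
open Pointwise
open Cfsg

namespace Cfsg.Agent.S0540

open Subgroup Cfsg.Agent.Lib.Helper12

theorem le_normalizer_of_forall_conj_mem {G : Type*} [Group G] {M H : Subgroup G}
    (h : ∀ m ∈ M, ∀ x ∈ H, m * x * m⁻¹ ∈ H) : M ≤ normalizer (H : Set G) := by
  intro m hm
  rw [mem_normalizer_iff]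
  intro x
  constructor
  · exact h m hm x
  · intro hx
    have h1 := h m⁻¹ (inv_mem hm) _ hx
    simpa [mul_assoc] using h1

/-- A uniqueness lemma of zipper type. Let A be a subgroup of a finite group G and U a nonempty family of subgroups. For V in U write S(V) for the set of conjugates of A that lie in V and are subnormal in V. Assume: A belongs to S(V) for every V in U; a member of some S(W) that lies in V belongs to S(V); and for all V, W in U the normalizer of the join of S(V) ∩ S(W) lies in some member of U. Then U has a greatest element. -/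
theorem result {G : Type*} [Group G] [Finite G] (A : Subgroup G) (U : Set (Subgroup G)) (hU : U.Nonempty) (S : Subgroup G → Set (Subgroup G)) (hS : ∀ V B : Subgroup G, B ∈ S V ↔ (∃ g : G, B = MulAut.conj g • A) ∧ B ≤ V ∧ (B.subgroupOf V).IsSubnormal) (h1 : ∀ V ∈ U, A ∈ S V) (h2 : ∀ V ∈ U, ∀ W ∈ U, ∀ B ∈ S W, B ≤ V → B ∈ S V) (h3 : ∀ V ∈ U, ∀ W ∈ U, ∃ X ∈ U, Subgroup.normalizer ((sSup (S V ∩ S W) : Subgroup G) : Set G) ≤ X) : ∃ M ∈ U, ∀ V ∈ U, V ≤ M := by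
  classical
  have hle : ∀ V : Subgroup G, ∀ B ∈ S V, B ≤ V := fun V B hB => ((hS V B).1 hB).2.1
  have hsn : ∀ V : Subgroup G, ∀ B ∈ S V, (B.subgroupOf V).IsSubnormal :=
    fun V B hB => ((hS V B).1 hB).2.2
  have hconj : ∀ V : Subgroup G, ∀ B ∈ S V, ∀ g ∈ V, MulAut.conj g • B ∈ S V := by
    intro V B hB g hg
    obtain ⟨⟨a, rfl⟩, hBV, hBsn⟩ := (hS V B).1 hB
    refine (hS V _).2 ⟨⟨g * a, ?_⟩, conj_smul_le_of_le hBV ⟨g, hg⟩, ?_⟩
    · rw [map_mul, mul_smul]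
    · have h := conj_smul_subgroupOf hBV ⟨g, hg⟩
      rw [← h]
      exact hBsn.smul _
  have hnorm : ∀ V : Subgroup G, V ≤ normalizer ((sSup (S V) : Subgroup G) : Set G) := by
    intro V
    apply le_normalizer_of_forall_conj_mem
    intro g hg x hx
    have hle' : sSup (S V) ≤ (sSup (S V)).comap (MulAut.conj g).toMonoidHom := by
      apply sSup_le
      intro B hB y hy
      rw [mem_comap]
      have h1 : MulAut.conj g • y ∈ MulAut.conj g • B := smul_mem_pointwise_smul y _ B hy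
      exact (le_sSup (hconj V B hB g hg)) h1
    exact hle' hx
  have hmaxex : ∀ V ∈ U, ∃ M, V ≤ M ∧ Maximal (· ∈ U) M :=
    fun V hV => Finite.exists_le_maximal (p := (· ∈ U)) hV
  have huniq : ∀ M₁ M₂ : Subgroup G, Maximal (· ∈ U) M₁ → Maximal (· ∈ U) M₂ → M₁ = M₂ := by
    by_contra hcon
    push Not at hcon
    obtain ⟨N₁, N₂, hN₁, hN₂, hN⟩ := hcon
    haveI : Nonempty {q : Subgroup G × Subgroup G //
        Maximal (· ∈ U) q.1 ∧ Maximal (· ∈ U) q.2 ∧ q.1 ≠ q.2} := ⟨⟨(N₁, N₂), hN₁, hN₂, hN⟩⟩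
    obtain ⟨⟨⟨M₁, M₂⟩, hM₁, hM₂, hne⟩, hq₀⟩ := Finite.exists_max
      (fun q : {q : Subgroup G × Subgroup G //
        Maximal (· ∈ U) q.1 ∧ Maximal (· ∈ U) q.2 ∧ q.1 ≠ q.2} => (S q.1.1 ∩ S q.1.2).ncard)
    simp only at hM₁ hM₂ hne
    obtain ⟨X, hXU, hNX⟩ := h3 M₁ hM₁.1 M₂ hM₂.1
    obtain ⟨M₃, hXM₃, hM₃⟩ := hmaxex X hXU
    have hN3 : normalizer ((sSup (S M₁ ∩ S M₂) : Subgroup G) : Set G) ≤ M₃ := hNX.trans hXM₃
    -- Step A
    have hA : M₁ = M₃ := by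
      by_cases hEq : S M₁ ∩ S M₂ = S M₁
      · have h4 : M₁ ≤ M₃ := by
          have := hnorm M₁
          rw [← hEq] at this
          exact this.trans hN3
        exact hM₁.eq_of_le hM₃.1 h4
      · have hss : S M₁ ∩ S M₂ ⊂ S M₁ := Set.inter_subset_left.ssubset_of_ne hEq
        obtain ⟨X₁, hX₁, hX₁₀, hX₁N⟩ := exists_normalizing_of_ssubset_rel M₁ (S M₁)
          (S M₁ ∩ S M₂) (hle M₁) (hsn M₁) (hconj M₁) hss
        have hX₁3 : X₁ ∈ S M₃ := h2 M₃ hM₃.1 M₁ hM₁.1 X₁ hX₁ (hX₁N.trans hN3)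
        have hsub3 : S M₁ ∩ S M₂ ⊆ S M₁ ∩ S M₃ := by
          intro B hB
          refine ⟨hB.1, h2 M₃ hM₃.1 M₁ hM₁.1 B hB.1 ?_⟩
          exact (le_sSup hB).trans (le_normalizer.trans hN3)
        have hss3 : S M₁ ∩ S M₂ ⊂ S M₁ ∩ S M₃ :=
          ⟨hsub3, fun hsub => hX₁₀ (hsub ⟨hX₁, hX₁3⟩)⟩
        have hlt : (S M₁ ∩ S M₂).ncard < (S M₁ ∩ S M₃).ncard :=
          Set.ncard_lt_ncard hss3 (Set.toFinite _)
        by_contra hne3
        have := hq₀ ⟨(M₁, M₃), hM₁, hM₃, hne3⟩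
        simp only at this
        omega
    rw [← hA] at hN3
    -- Step B
    by_cases hEq2 : S M₁ ∩ S M₂ = S M₂
    · have h4 : M₂ ≤ M₁ := by
        have := hnorm M₂
        rw [← hEq2] at this
        exact this.trans hN3
      exact hne (hM₂.eq_of_le hM₁.1 h4).symm
    · have hss : S M₁ ∩ S M₂ ⊂ S M₂ := Set.inter_subset_right.ssubset_of_ne hEq2
      obtain ⟨X₂, hX₂, hX₂₀, hX₂N⟩ := exists_normalizing_of_ssubset_rel M₂ (S M₂)
        (S M₁ ∩ S M₂) (hle M₂) (hsn M₂) (hconj M₂) hss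
      have hX₂1 : X₂ ∈ S M₁ := h2 M₁ hM₁.1 M₂ hM₂.1 X₂ hX₂ (hX₂N.trans hN3)
      exact hX₂₀ ⟨hX₂1, hX₂⟩
  obtain ⟨V₀, hV₀⟩ := hU
  obtain ⟨M, -, hM⟩ := hmaxex V₀ hV₀
  refine ⟨M, hM.1, fun V hV => ?_⟩
  obtain ⟨M', hVM', hM'⟩ := hmaxex V hV
  rw [huniq M M' hM hM']
  exact hVM'

end Cfsg.Agent.S0540
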