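-- Statement S0541 (row 541): Matsuyama's weak closure lemma.
import Cfsg.Statements.S0541
import Cfsg.Agent.Lib.Helper12.Subnormal2

set_option autoImplicit false
open Pointwise
open Cfsg

namespace Cfsg.Agent.S0541

open Subgroup Cfsg.Agent.Lib.Helper12

variable {G : Type*} [Group G]

/-- The subgroup generated by the conjugates of `Z` contained in `T`. -/
def wcl (Z T : Subgroup G) : Subgroup G :=
  ⨆ g ∈ {g : G | MulAut.conj g • Z ≤ T}, MulAut.conj g • Z

theorem wcl_le (Z T : Subgroup G) : wcl Z T ≤ T :=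
  iSup₂_le (fun _ hg => hg)

theorem conj_le_wcl {Z T : Subgroup G} {g : G} (hg : MulAut.conj g • Z ≤ T) :
    MulAut.conj g • Z ≤ wcl Z T :=
  le_iSup₂ (f := fun (g : G) (_ : g ∈ {g : G | MulAut.conj g • Z ≤ T}) => MulAut.conj g • Z) g hg

theorem wcl_mono (Z : Subgroup G) {T T' : Subgroup G} (h : T ≤ T') : wcl Z T ≤ wcl Z T' :=
  iSup₂_le (fun _ hg => conj_le_wcl (le_trans hg h))

theorem le_normalizer_of_forall_conj_mem {M H : Subgroup G}
    (h : ∀ m ∈ M, ∀ x ∈ H, m * x * m⁻¹ ∈ H) : M ≤ normalizer (H : Set G) := by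
  intro m hm
  rw [mem_normalizer_iff]
  intro x
  constructor
  · exact h m hm x
  · intro hx
    have h1 := h m⁻¹ (inv_mem hm) _ hx
    simpa [mul_assoc] using h1

theorem conj_mul_smul (a b : G) (Z : Subgroup G) :
    MulAut.conj (a * b) • Z = MulAut.conj a • (MulAut.conj b • Z) := by
  rw [map_mul, mul_smul]

/-- Let Z and Y be subgroups of a finite group G and p a prime. Suppose that for every g in G the subgroup generated by the conjugates of g Z g⁻¹ under Y is a p-group. Then there is a Sylow p-subgroup P of G such that Y normalizes the subgroup generated by all conjugates of Z contained in P. -/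
theorem result {G : Type*} [Group G] [Finite G] (p : ℕ) [Fact p.Prime] (Z Y : Subgroup G) (h : ∀ g : G, IsPGroup p ↥(⨆ y ∈ Y, MulAut.conj (y * g) • Z)) : ∃ P : Sylow p G, Y ≤ Subgroup.normalizer ((⨆ g ∈ {g : G | MulAut.conj g • Z ≤ (P : Subgroup G)}, MulAut.conj g • Z : Subgroup G) : Set G) := by
  -- a maximal `Y`-invariant `p`-subgroup generated by conjugates of `Z`
  have hbot : IsPGroup p (⊥ : Subgroup G) ∧ Y ≤ normalizer ((⊥ : Subgroup G) : Set G) ∧
      wcl Z ⊥ = ⊥ := by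
    refine ⟨IsPGroup.of_bot, ?_, le_antisymm (wcl_le Z ⊥) bot_le⟩
    apply le_normalizer_of_forall_conj_mem
    intro m _ x hx
    rw [mem_bot] at hx ⊢
    rw [hx]
    group
  obtain ⟨T, -, hT⟩ := Finite.exists_le_maximal
    (p := fun T : Subgroup G => IsPGroup p T ∧ Y ≤ normalizer (T : Set G) ∧ wcl Z T = T) hbot
  obtain ⟨⟨hTp, hYT, hTw⟩, hTmax⟩ := hT
  obtain ⟨P, hTP⟩ := hTp.exists_le_sylow
  refine ⟨P, ?_⟩
  suffices hle : wcl Z (P : Subgroup G) ≤ T by
    have heq : wcl Z (P : Subgroup G) = T := le_antisymm hle (hTw ▸ wcl_mono Z hTP)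
    have : (⨆ g ∈ {g : G | MulAut.conj g • Z ≤ (P : Subgroup G)}, MulAut.conj g • Z : Subgroup G)
        = T := heq
    rw [this]
    exact hYT
  by_contra hnot
  have hex : ∃ g₀ : G, MulAut.conj g₀ • Z ≤ (P : Subgroup G) ∧ ¬ MulAut.conj g₀ • Z ≤ T := by
    by_contra hne
    push Not at hne
    exact hnot (iSup₂_le (fun g hg => hne g hg))
  obtain ⟨g₀, hg₀P, hg₀T⟩ := hex
  have hsub : {U : Subgroup G | (∃ g : G, U = MulAut.conj g • Z) ∧ U ≤ T} ⊂
      {U : Subgroup G | (∃ g : G, U = MulAut.conj g • Z) ∧ U ≤ (P : Subgroup G)} := by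
    refine ⟨fun U hU => ⟨hU.1, hU.2.trans hTP⟩, ?_⟩
    intro hsub
    exact hg₀T (hsub ⟨⟨g₀, rfl⟩, hg₀P⟩).2
  have hsSup : sSup {U : Subgroup G | (∃ g : G, U = MulAut.conj g • Z) ∧ U ≤ T} = T := by
    rw [← hTw]
    apply le_antisymm
    · apply sSup_le
      rintro U ⟨⟨g, rfl⟩, hU⟩
      rw [hTw] at hU ⊢
      rw [← hTw]
      exact conj_le_wcl hU
    · apply iSup₂_le
      intro g hg
      have hg' : MulAut.conj g • Z ≤ T := hg
      rw [hTw]
      exact le_sSup ⟨⟨g, rfl⟩, hg'⟩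
  obtain ⟨X, hX, hX₀, hXN⟩ := exists_normalizing_of_ssubset_rel (P : Subgroup G)
    {U : Subgroup G | (∃ g : G, U = MulAut.conj g • Z) ∧ U ≤ (P : Subgroup G)}
    {U : Subgroup G | (∃ g : G, U = MulAut.conj g • Z) ∧ U ≤ T}
    (fun U hU => hU.2)
    (fun U _ => isSubnormal_of_isPGroup P.isPGroup' _)
    (by
      rintro U ⟨⟨g, rfl⟩, hU⟩ x hx
      refine ⟨⟨x * g, (conj_mul_smul x g Z).symm⟩, ?_⟩
      exact conj_smul_le_of_le hU ⟨x, hx⟩)
    hsub
  rw [hsSup] at hXN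
  obtain ⟨⟨g₁, rfl⟩, hXP⟩ := hX
  have hXT : ¬ MulAut.conj g₁ • Z ≤ T := fun hle => hX₀ ⟨⟨g₁, rfl⟩, hle⟩
  -- the enlarged subgroup
  have hRp : IsPGroup p ↥(⨆ y ∈ Y, MulAut.conj (y * g₁) • Z) := h g₁
  have hRN : (⨆ y ∈ Y, MulAut.conj (y * g₁) • Z) ≤ normalizer (T : Set G) := by
    apply iSup₂_le
    intro y hy
    rw [conj_mul_smul]
    rintro _ ⟨x, hx, rfl⟩
    have h1 : y * x * y⁻¹ ∈ normalizer (T : Set G) :=
      mul_mem (mul_mem (hYT hy) (hXN hx)) (inv_mem (hYT hy))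
    exact h1
  have hT₁p : IsPGroup p ((⨆ y ∈ Y, MulAut.conj (y * g₁) • Z) ⊔ T : Subgroup G) :=
    hRp.to_sup_of_normal_right' hTp hRN
  have hYR : Y ≤ normalizer ((⨆ y ∈ Y, MulAut.conj (y * g₁) • Z : Subgroup G) : Set G) := by
    apply le_normalizer_of_forall_conj_mem
    intro y' hy' x hx
    have hle : (⨆ y ∈ Y, MulAut.conj (y * g₁) • Z) ≤
        (⨆ y ∈ Y, MulAut.conj (y * g₁) • Z).comap (MulAut.conj y').toMonoidHom := by
      apply iSup₂_le
      intro y hy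
      rintro _ ⟨z, hz, rfl⟩
      rw [mem_comap]
      have h1 : MulAut.conj (y' * y * g₁) • z ∈ MulAut.conj (y' * y * g₁) • Z :=
        smul_mem_pointwise_smul z _ Z hz
      have h2 : MulAut.conj (y' * y * g₁) • Z ≤ ⨆ y ∈ Y, MulAut.conj (y * g₁) • Z :=
        le_iSup₂ (f := fun (y : G) (_ : y ∈ Y) => MulAut.conj (y * g₁) • Z) (y' * y)
          (mul_mem hy' hy)
      have h3 := h2 h1
      have h4 : (MulAut.conj y').toMonoidHom
          ((MulDistribMulAction.toMonoidEnd (MulAut G) G) (MulAut.conj (y * g₁)) z) =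
          MulAut.conj (y' * y * g₁) • z := by
        show y' * ((y * g₁) * z * (y * g₁)⁻¹) * y'⁻¹ = (y' * y * g₁) * z * (y' * y * g₁)⁻¹
        group
      exact h4.symm ▸ h3
    exact hle hx
  have hYT₁ : Y ≤ normalizer (((⨆ y ∈ Y, MulAut.conj (y * g₁) • Z) ⊔ T : Subgroup G) : Set G) :=
    le_normalizer_sup hYR hYT
  have hX_le : MulAut.conj g₁ • Z ≤ ⨆ y ∈ Y, MulAut.conj (y * g₁) • Z := by
    have h1 := le_iSup₂ (f := fun (y : G) (_ : y ∈ Y) => MulAut.conj (y * g₁) • Z) 1 Y.one_mem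
    simpa using h1
  have hw : wcl Z ((⨆ y ∈ Y, MulAut.conj (y * g₁) • Z) ⊔ T) =
      (⨆ y ∈ Y, MulAut.conj (y * g₁) • Z) ⊔ T := by
    apply le_antisymm (wcl_le Z _)
    apply sup_le
    · apply iSup₂_le
      intro y hy
      apply conj_le_wcl
      exact le_trans (le_iSup₂ (f := fun (y : G) (_ : y ∈ Y) => MulAut.conj (y * g₁) • Z) y hy)
        le_sup_left
    · calc T = wcl Z T := hTw.symm
        _ ≤ wcl Z ((⨆ y ∈ Y, MulAut.conj (y * g₁) • Z) ⊔ T) := wcl_mono Z le_sup_right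
  have hmax := hTmax ⟨hT₁p, hYT₁, hw⟩ le_sup_right
  exact hXT (hX_le.trans (le_sup_left.trans hmax))

end Cfsg.Agent.S0541
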