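-- Statement S0542 (row 542): a Sylow p-subgroup meets a subnormal subgroup in a Sylow p-subgroup.
import Cfsg.Statements.S0542
import Cfsg.Agent.Lib.Helper12.Supersolvable2

set_option autoImplicit false
open Cfsg

namespace Cfsg.Agent.S0542

open Subgroup in
theorem relIndex_dvd_index_of_isSubnormal {G : Type*} [Group G] [Finite G] (T : Subgroup G)
    {H : Subgroup G} (hH : H.IsSubnormal) : T.relIndex H ∣ T.index := by
  induction hH with
  | top => rw [relIndex_top_right]
  | step H K hHK hK hN ih =>
    refine dvd_trans ?_ ih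
    have h1 : (T.subgroupOf K).relIndex (H.subgroupOf K) = T.relIndex H := relIndex_subgroupOf hHK
    have h2 : (T.subgroupOf K).relIndex (H.subgroupOf K) ∣ (T.subgroupOf K).index := by
      rw [← inf_relIndex_right,
        ← Cfsg.Agent.Lib.Helper12.relIndex_sup_eq_of_normal (T.subgroupOf K) (H.subgroupOf K)]
      exact relIndex_dvd_index_of_le le_sup_left
    rw [h1] at h2
    exact h2

/-- A Sylow p-subgroup of a finite group meets every subnormal subgroup H in a Sylow p-subgroup of H. -/
theorem result {G : Type*} [Group G] [Finite G] (p : ℕ) [Fact p.Prime] (H : Subgroup G) (hH : H.IsSubnormal) (S : Sylow p G) : ∃ Q : Sylow p H, (Q : Subgroup H) = (S : Subgroup G).subgroupOf H := by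
  have h1 : IsPGroup p ((S : Subgroup G).subgroupOf H) := S.isPGroup'.comap_subtype
  have h2 : ¬ p ∣ ((S : Subgroup G).subgroupOf H).index := fun h =>
    S.not_dvd_index (h.trans (relIndex_dvd_index_of_isSubnormal (S : Subgroup G) hH))
  exact ⟨h1.toSylow h2, rfl⟩

end Cfsg.Agent.S0542
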