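import Cfsg.Statements.S0545
import Cfsg.Agent.Lib.Helper12.HallSystem3

set_option autoImplicit false
open Cfsg

namespace Cfsg.Agent.S0545

/-- Let K be a Hall complement system of a finite solvable group G and N a normal subgroup. Then the images of the K p in G modulo N form a Hall complement system of the quotient, and its system normalizer is the image of the system normalizer of K. -/
theorem result {G : Type*} [Group G] [Finite G] [Group.IsSolvable G] (K : Nat.Primes → Subgroup G) (hK : Cfsg.IsComplementSystem K) (N : Subgroup G) [N.Normal] : Cfsg.IsComplementSystem (fun p => (K p).map (QuotientGroup.mk' N)) ∧ Cfsg.systemNormalizer (fun p => (K p).map (QuotientGroup.mk' N)) = (Cfsg.systemNormalizer K).map (QuotientGroup.mk' N) := by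
  exact ⟨Cfsg.Agent.Lib.Helper12.isComplementSystem_map_mk hK N,
    Cfsg.Agent.Lib.Helper12.systemNormalizer_map_mk hK N⟩

end Cfsg.Agent.S0545
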