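import Cfsg.Statements.S0547
import Mathlib
import Cfsg.Agent.Lib.Helper13.Basic

set_option autoImplicit false
open Cfsg

namespace Cfsg.Agent.S0547

/-- Let a finite solvable group G act faithfully and primitively on a set, and let M be a minimal normal subgroup of G. Then M is transitive with trivial point stabilizers, and the number of points equals the order of M, which is a prime power p ^ d with d ≥ 1. -/
theorem result {G : Type*} [Group G] [Finite G] [Group.IsSolvable G] {Ω : Type*} [Nonempty Ω] [MulAction G Ω] [FaithfulSMul G Ω] (hprim : MulAction.IsPreprimitive G Ω) (M : Subgroup G) [M.Normal] (hM : M ≠ ⊥) (hmin : ∀ K : Subgroup G, K.Normal → K ≤ M → K = ⊥ ∨ K = M) : MulAction.IsPretransitive M Ω ∧ (∀ ω : Ω, MulAction.stabilizer M ω = ⊥) ∧ ∃ p d : ℕ, p.Prime ∧ 0 < d ∧ Nat.card Ω = p ^ d ∧ Nat.card M = p ^ d := by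
  classical
  haveI := hprim
  have hfaith : ∀ g : G, (∀ ω : Ω, g • ω = ω) → g = 1 := by
    intro g hg
    apply FaithfulSMul.eq_of_smul_eq_smul (α := Ω)
    intro ω
    rw [hg ω, one_smul]
  have hnt : MulAction.fixedPoints M Ω ≠ Set.univ := by
    intro h
    apply hM
    rw [Subgroup.eq_bot_iff_forall]
    intro m hm
    apply hfaith
    intro ω
    have h1 : ω ∈ MulAction.fixedPoints M Ω := h ▸ Set.mem_univ ω
    exact h1 ⟨m, hm⟩
  have htrans : MulAction.IsPretransitive M Ω :=
    MulAction.IsQuasiPreprimitive.isPretransitive_of_normal hnt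
  obtain ⟨p, hp, hpdvd, hcomm, hexp, hMp⟩ :=
    Cfsg.Agent.Lib.Helper13.minimal_normal_solvable M inferInstance hM hmin
  have hstab : ∀ ω : Ω, MulAction.stabilizer M ω = ⊥ := by
    intro ω
    rw [Subgroup.eq_bot_iff_forall]
    intro m hm
    rw [MulAction.mem_stabilizer_iff] at hm
    have h1 : (m : G) = 1 := by
      apply hfaith
      intro ω'
      obtain ⟨n, rfl⟩ := MulAction.exists_smul_eq M ω ω'
      show (m : G) • ((n : G) • ω) = (n : G) • ω
      rw [smul_smul, hcomm m m.2 n n.2, ← smul_smul]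
      congr 1
    exact Subtype.ext h1
  refine ⟨htrans, hstab, ?_⟩
  obtain ⟨ω0⟩ := ‹Nonempty Ω›
  haveI : Fact p.Prime := ⟨hp⟩
  obtain ⟨d, hd⟩ := IsPGroup.iff_card.mp hMp
  refine ⟨p, d, hp, ?_, ?_, hd⟩
  · rcases Nat.eq_zero_or_pos d with h0 | h0
    · exfalso
      rw [h0, pow_zero] at hd
      exact hM (Subgroup.card_eq_one.mp hd)
    · exact h0
  · have h1 := MulAction.index_stabilizer_of_transitive M ω0
    rw [hstab ω0, Subgroup.index_bot] at h1
    rw [← h1, hd]

end Cfsg.Agent.S0547
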