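import Cfsg.Statements.S0548
import Mathlib
import Cfsg.Agent.Lib.Helper13.Basic
import Cfsg.Agent.S0547

set_option autoImplicit false
open Cfsg

namespace Cfsg.Agent.S0548

/-- Let a finite solvable group G act faithfully and primitively on a set, let M be a minimal normal subgroup and H the stabilizer of a point. Then H is a complement to M, no non-identity element of H centralizes M, and the only subgroups of M normalized by H are the trivial subgroup and M. -/
theorem result {G : Type*} [Group G] [Finite G] [Group.IsSolvable G] {Ω : Type*} [MulAction G Ω] [FaithfulSMul G Ω] (hprim : MulAction.IsPreprimitive G Ω) (M : Subgroup G) [M.Normal] (hM : M ≠ ⊥) (hmin : ∀ K : Subgroup G, K.Normal → K ≤ M → K = ⊥ ∨ K = M) (ω : Ω) : Subgroup.IsComplement' M (MulAction.stabilizer G ω) ∧ MulAction.stabilizer G ω ⊓ Subgroup.centralizer (M : Set G) = ⊥ ∧ ∀ K : Subgroup G, K ≤ M → MulAction.stabilizer G ω ≤ Subgroup.normalizer (K : Set G) → K = ⊥ ∨ K = M := by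
  classical
  haveI : Nonempty Ω := ⟨ω⟩
  obtain ⟨htrans, hstab, -⟩ := Cfsg.Agent.S0547.result hprim M hM hmin
  have hMn : M.Normal := inferInstance
  have hcomm := Cfsg.Agent.Lib.Helper13.minimal_normal_comm M hMn hmin
  have hfaith : ∀ g : G, (∀ ω : Ω, g • ω = ω) → g = 1 := by
    intro g hg
    apply FaithfulSMul.eq_of_smul_eq_smul (α := Ω)
    intro ω
    rw [hg ω, one_smul]
  have hinf : M ⊓ MulAction.stabilizer G ω = ⊥ := by
    rw [Subgroup.eq_bot_iff_forall]
    intro m hm
    obtain ⟨hmM, hmS⟩ := Subgroup.mem_inf.mp hm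
    have h1 : (⟨m, hmM⟩ : ↥M) ∈ MulAction.stabilizer M ω := by
      rw [MulAction.mem_stabilizer_iff]
      exact (MulAction.mem_stabilizer_iff.mp hmS)
    rw [hstab ω, Subgroup.mem_bot] at h1
    exact congrArg Subtype.val h1
  have hdec : ∀ g : G, ∃ m ∈ M, ∃ h ∈ MulAction.stabilizer G ω, m * h = g := by
    intro g
    obtain ⟨m, hm⟩ := MulAction.exists_smul_eq M ω (g • ω)
    refine ⟨m, m.2, (m : G)⁻¹ * g, ?_, by group⟩
    rw [MulAction.mem_stabilizer_iff, mul_smul, ← hm]
    show (m : G)⁻¹ • ((m : G) • ω) = ω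
    rw [inv_smul_smul]
  have hsup : M ⊔ MulAction.stabilizer G ω = ⊤ := by
    rw [eq_top_iff]
    intro g _
    obtain ⟨m, hm, h, hh, rfl⟩ := hdec g
    exact Subgroup.mul_mem _ (Subgroup.mem_sup_left hm) (Subgroup.mem_sup_right hh)
  refine ⟨?_, ?_, ?_⟩
  · apply Subgroup.isComplement'_of_disjoint_and_mul_eq_univ
    · exact disjoint_iff.mpr hinf
    · rw [← Subgroup.normal_mul, hsup]; rfl
  · rw [Subgroup.eq_bot_iff_forall]
    intro x hx
    obtain ⟨hxS, hxC⟩ := Subgroup.mem_inf.mp hx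
    apply hfaith
    intro ω'
    obtain ⟨n, rfl⟩ := MulAction.exists_smul_eq M ω ω'
    show x • ((n : G) • ω) = (n : G) • ω
    rw [Subgroup.mem_centralizer_iff] at hxC
    rw [smul_smul, ← hxC n n.2, ← smul_smul, MulAction.mem_stabilizer_iff.mp hxS]
  · intro K hKM hKN
    apply hmin K ?_ hKM
    constructor
    intro x hx g
    obtain ⟨m, hm, h, hh, rfl⟩ := hdec g
    have h1 : h * x * h⁻¹ ∈ K := by
      have := hKN hh
      rw [Subgroup.mem_normalizer_iff] at this
      exact (this x).mp hx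
    have h2 : m * h * x * (m * h)⁻¹ = h * x * h⁻¹ := by
      have h3 : m * (h * x * h⁻¹) = (h * x * h⁻¹) * m := hcomm m hm _ (hKM h1)
      calc m * h * x * (m * h)⁻¹ = m * (h * x * h⁻¹) * m⁻¹ := by group
        _ = (h * x * h⁻¹) * m * m⁻¹ := by rw [h3]
        _ = h * x * h⁻¹ := by group
    rw [h2]; exact h1

end Cfsg.Agent.S0548
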