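import Cfsg.Statements.S0549
import Mathlib

set_option autoImplicit false
open Cfsg

namespace Cfsg.Agent.S0549

/-- Let U be a maximal subgroup of a finite group G whose normal core is trivial, and N a nontrivial normal subgroup with centralizer C. Then C ∩ U = 1, and either C = 1 or C is a minimal normal subgroup of G. -/
theorem result {G : Type*} [Group G] [Finite G] (U : Subgroup G) (hU : IsCoatom U) (hcore : U.normalCore = ⊥) (N : Subgroup G) [N.Normal] (hN : N ≠ ⊥) : Subgroup.centralizer (N : Set G) ⊓ U = ⊥ ∧ (Subgroup.centralizer (N : Set G) = ⊥ ∨ (Subgroup.centralizer (N : Set G) ≠ ⊥ ∧ ∀ K : Subgroup G, K.Normal → K ≤ Subgroup.centralizer (N : Set G) → K = ⊥ ∨ K = Subgroup.centralizer (N : Set G))) := by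
  have hCn : (Subgroup.centralizer (N : Set G)).Normal := Subgroup.normal_centralizer
  -- U does not contain any nontrivial normal subgroup
  have hnotle : ∀ K : Subgroup G, K.Normal → K ≠ ⊥ → K ⊔ U = ⊤ := by
    intro K hK hKne
    apply hU.2
    apply lt_of_le_of_ne le_sup_right
    intro heq
    apply hKne
    have hKU : K ≤ U := by rw [heq]; exact le_sup_left
    have := (Subgroup.normal_le_normalCore (H := U) (N := K)).mpr hKU
    rw [hcore] at this
    exact le_bot_iff.mp this
  have hNU := hnotle N inferInstance hN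
  -- C ⊓ U is normal
  have hCU : Subgroup.centralizer (N : Set G) ⊓ U = ⊥ := by
    have hnorm : (Subgroup.centralizer (N : Set G) ⊓ U).Normal := by
      constructor
      intro x hx g
      have hg : g ∈ N ⊔ U := hNU ▸ Subgroup.mem_top g
      rw [Subgroup.mem_sup_of_normal_left] at hg
      obtain ⟨n, hn, u, hu, rfl⟩ := hg
      have hxC : x ∈ Subgroup.centralizer (N : Set G) := (Subgroup.mem_inf.mp hx).1
      have hxU : x ∈ U := (Subgroup.mem_inf.mp hx).2
      have hc : u * x * u⁻¹ ∈ Subgroup.centralizer (N : Set G) := hCn.conj_mem x hxC u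
      have h1 : u * x * u⁻¹ ∈ Subgroup.centralizer (N : Set G) ⊓ U :=
        Subgroup.mem_inf.mpr ⟨hc, U.mul_mem (U.mul_mem hu hxU) (U.inv_mem hu)⟩
      have h2 : n * u * x * (n * u)⁻¹ = u * x * u⁻¹ := by
        rw [Subgroup.mem_centralizer_iff] at hc
        have := hc n hn
        calc n * u * x * (n * u)⁻¹ = n * (u * x * u⁻¹) * n⁻¹ := by group
          _ = (u * x * u⁻¹) * n * n⁻¹ := by rw [this]
          _ = u * x * u⁻¹ := by group
      rw [h2]
      exact h1
    have hle : Subgroup.centralizer (N : Set G) ⊓ U ≤ U.normalCore :=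
      (Subgroup.normal_le_normalCore (H := U)).mpr inf_le_right
    rw [hcore] at hle
    exact le_bot_iff.mp hle
  refine ⟨hCU, ?_⟩
  by_cases hC : Subgroup.centralizer (N : Set G) = ⊥
  · exact Or.inl hC
  · refine Or.inr ⟨hC, ?_⟩
    intro K hK hKC
    by_cases hKb : K = ⊥
    · exact Or.inl hKb
    · right
      apply le_antisymm hKC
      intro c hc
      have hg : c ∈ K ⊔ U := hnotle K hK hKb ▸ Subgroup.mem_top c
      rw [Subgroup.mem_sup_of_normal_left] at hg
      obtain ⟨k, hk, u, hu, rfl⟩ := hg
      have hu' : u ∈ Subgroup.centralizer (N : Set G) ⊓ U := by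
        refine Subgroup.mem_inf.mpr ⟨?_, hu⟩
        have : u = k⁻¹ * (k * u) := by group
        rw [this]
        exact mul_mem (inv_mem (hKC hk)) hc
      rw [hCU] at hu'
      rw [Subgroup.mem_bot.mp hu', mul_one]
      exact hk

end Cfsg.Agent.S0549
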