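import Cfsg.Statements.S0550
import Mathlib
import Cfsg.Agent.S0549

set_option autoImplicit false
open Cfsg

namespace Cfsg.Agent.S0550

theorem iso_W {G : Type*} [Group G] (A B U : Subgroup G) [A.Normal] [B.Normal]
    (hAB : A ⊓ B = ⊥) (hBU : B ⊓ U = ⊥) (hBUtop : B ⊔ U = ⊤) :
    Nonempty (A ≃* ↥((A ⊔ B) ⊓ U)) := by
  have hsup : A ⊔ B = ((A ⊔ B) ⊓ U) ⊔ B := by
    apply le_antisymm
    · apply sup_le _ le_sup_right
      intro a ha
      have hg : a ∈ U ⊔ B := by rw [sup_comm, hBUtop]; exact Subgroup.mem_top a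
      rw [Subgroup.mem_sup_of_normal_right] at hg
      obtain ⟨u, hu, b, hb, hub⟩ := hg
      have hu' : u ∈ (A ⊔ B) ⊓ U := by
        refine Subgroup.mem_inf.mpr ⟨?_, hu⟩
        have : u = a * b⁻¹ := by rw [← hub]; group
        rw [this]
        exact Subgroup.mul_mem_sup ha (B.inv_mem hb)
      rw [← hub]
      exact Subgroup.mul_mem_sup hu' hb
    · exact sup_le inf_le_left le_sup_right
  have hσ : Function.Injective ((QuotientGroup.mk' B).comp A.subtype) := by
    rw [injective_iff_map_eq_one]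
    intro a ha
    have : (a : G) ∈ B := by
      rw [← QuotientGroup.eq_one_iff]; exact ha
    have h2 : (a : G) ∈ A ⊓ B := Subgroup.mem_inf.mpr ⟨a.2, this⟩
    rw [hAB, Subgroup.mem_bot] at h2
    exact Subtype.ext h2
  have hρ : Function.Injective ((QuotientGroup.mk' B).comp ((A ⊔ B) ⊓ U).subtype) := by
    rw [injective_iff_map_eq_one]
    intro a ha
    have : (a : G) ∈ B := by
      rw [← QuotientGroup.eq_one_iff]; exact ha
    have h2 : (a : G) ∈ B ⊓ U := Subgroup.mem_inf.mpr ⟨this, (Subgroup.mem_inf.mp a.2).2⟩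
    rw [hBU, Subgroup.mem_bot] at h2
    exact Subtype.ext h2
  have hrange : ((QuotientGroup.mk' B).comp A.subtype).range =
      ((QuotientGroup.mk' B).comp ((A ⊔ B) ⊓ U).subtype).range := by
    rw [MonoidHom.range_comp, MonoidHom.range_comp, Subgroup.range_subtype, Subgroup.range_subtype,
      Subgroup.map_eq_map_iff, QuotientGroup.ker_mk']
    exact hsup
  exact ⟨(MonoidHom.ofInjective hσ).trans ((MulEquiv.subgroupCongr hrange).trans
    (MonoidHom.ofInjective hρ).symm)⟩

/-- Let U be a maximal subgroup with trivial normal core in a finite group G, and A ≠ B two minimal normal subgroups. Then A is the centralizer of B and B that of A, U complements each of them, A and B are non-abelian, and A, B and (A ⊔ B) ∩ U are pairwise isomorphic. -/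
theorem result {G : Type*} [Group G] [Finite G] (U : Subgroup G) (hU : IsCoatom U) (hcore : U.normalCore = ⊥) (A B : Subgroup G) [A.Normal] [B.Normal] (hA : A ≠ ⊥) (hB : B ≠ ⊥) (hAmin : ∀ K : Subgroup G, K.Normal → K ≤ A → K = ⊥ ∨ K = A) (hBmin : ∀ K : Subgroup G, K.Normal → K ≤ B → K = ⊥ ∨ K = B) (hAB : A ≠ B) : Subgroup.centralizer (B : Set G) = A ∧ Subgroup.centralizer (A : Set G) = B ∧ Subgroup.IsComplement' A U ∧ Subgroup.IsComplement' B U ∧ ¬ IsMulCommutative A ∧ Nonempty (A ≃* B) ∧ Nonempty (A ≃* ↥((A ⊔ B) ⊓ U)) := by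
  have hnotle : ∀ K : Subgroup G, K.Normal → K ≠ ⊥ → K ⊔ U = ⊤ := by
    intro K hK hKne
    apply hU.2
    apply lt_of_le_of_ne le_sup_right
    intro heq
    apply hKne
    have hKU : K ≤ U := by rw [heq]; exact le_sup_left
    have := (Subgroup.normal_le_normalCore (H := U) (N := K)).mpr hKU
    rw [hcore] at this
    exact le_bot_iff.mp this
  have hABinf : A ⊓ B = ⊥ := by
    have hn : (A ⊓ B).Normal := inferInstance
    rcases hAmin (A ⊓ B) hn inf_le_left with h | h
    · exact h
    · exfalso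
      have hAB' : A ≤ B := by rw [← h]; exact inf_le_right
      rcases hBmin A inferInstance hAB' with h' | h'
      · exact hA h'
      · exact hAB h'
  have hcomm : ∀ a ∈ A, ∀ b ∈ B, Commute a b := fun a ha b hb =>
    Subgroup.commute_of_normal_of_disjoint A B inferInstance inferInstance
      (disjoint_iff.mpr hABinf) a b ha hb
  have hAleCB : A ≤ Subgroup.centralizer (B : Set G) := by
    intro a ha
    rw [Subgroup.mem_centralizer_iff]
    intro b hb
    exact (hcomm a ha b hb).eq.symm
  have hBleCA : B ≤ Subgroup.centralizer (A : Set G) := by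
    intro b hb
    rw [Subgroup.mem_centralizer_iff]
    intro a ha
    exact (hcomm a ha b hb).eq
  obtain ⟨hCBU, hCB⟩ := Cfsg.Agent.S0549.result U hU hcore B hB
  obtain ⟨hCAU, hCA⟩ := Cfsg.Agent.S0549.result U hU hcore A hA
  have hCBeq : Subgroup.centralizer (B : Set G) = A := by
    rcases hCB with h | ⟨-, h⟩
    · exfalso; apply hA; rw [eq_bot_iff, ← h]; exact hAleCB
    · rcases h A inferInstance hAleCB with h' | h'
      · exact absurd h' hA
      · exact h'.symm
  have hCAeq : Subgroup.centralizer (A : Set G) = B := by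
    rcases hCA with h | ⟨-, h⟩
    · exfalso; apply hB; rw [eq_bot_iff, ← h]; exact hBleCA
    · rcases h B inferInstance hBleCA with h' | h'
      · exact absurd h' hB
      · exact h'.symm
  have hAU : A ⊓ U = ⊥ := by rw [← hCBeq]; exact hCBU
  have hBU : B ⊓ U = ⊥ := by rw [← hCAeq]; exact hCAU
  have hAUtop := hnotle A inferInstance hA
  have hBUtop := hnotle B inferInstance hB
  refine ⟨hCBeq, hCAeq, ?_, ?_, ?_, ?_, ?_⟩
  · apply Subgroup.isComplement'_of_disjoint_and_mul_eq_univ (disjoint_iff.mpr hAU)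
    rw [← Subgroup.normal_mul, hAUtop, Subgroup.coe_top]
  · apply Subgroup.isComplement'_of_disjoint_and_mul_eq_univ (disjoint_iff.mpr hBU)
    rw [← Subgroup.normal_mul, hBUtop, Subgroup.coe_top]
  · intro hAc
    have h1 : A ≤ Subgroup.centralizer (A : Set G) := Subgroup.le_centralizer A
    rw [hCAeq] at h1
    apply hA
    rw [eq_bot_iff, ← hABinf]
    exact le_inf le_rfl h1
  · obtain ⟨e1⟩ := iso_W A B U hABinf hBU hBUtop
    obtain ⟨e2⟩ := iso_W B A U (by rw [inf_comm]; exact hABinf) hAU hAUtop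
    have hEq : (B ⊔ A) ⊓ U = (A ⊔ B) ⊓ U := by rw [sup_comm]
    exact ⟨e1.trans ((MulEquiv.subgroupCongr hEq).symm.trans e2.symm)⟩
  · exact iso_W A B U hABinf hBU hBUtop

end Cfsg.Agent.S0550
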