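import Cfsg.Statements.S0587
import Mathlib
import Cfsg.Agent.S0549

set_option autoImplicit false
open Cfsg

namespace Cfsg.Agent.S0587

/-- Let G be a finite group whose largest normal p-subgroup L is nontrivial, and M a maximal subgroup of G with trivial normal core. Then L is elementary abelian, M is a complement to L, L is a minimal normal subgroup of G, the centralizer of L is L, and for every prime q such that the largest normal q-subgroup of M is nontrivial, the order of L is congruent to 1 modulo q and q ≠ p. -/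
theorem result {G : Type*} [Group G] [Finite G] (p : ℕ) [Fact p.Prime] (hL : Cfsg.pCore p G ≠ ⊥) (M : Subgroup G) (hM : IsCoatom M) (hcore : M.normalCore = ⊥) : Cfsg.IsElementaryAbelian p (Cfsg.pCore p G) ∧ Subgroup.IsComplement' (Cfsg.pCore p G) M ∧ (∀ K : Subgroup G, K.Normal → K ≤ Cfsg.pCore p G → K = ⊥ ∨ K = Cfsg.pCore p G) ∧ Subgroup.centralizer ((Cfsg.pCore p G : Subgroup G) : Set G) = Cfsg.pCore p G ∧ ∀ (q : ℕ) [Fact q.Prime], Cfsg.pCore q ↥M ≠ ⊥ → Nat.card (Cfsg.pCore p G) % q = 1 % q ∧ q ≠ p := by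
  classical
  have hLn : (Cfsg.pCore p G).Normal := Subgroup.sSup_normal _ (fun H hH => hH.1)
  have hLp : IsPGroup p (Cfsg.pCore p G) :=
    Sylow.sSup_of_normal _ (fun H hH => hH.2) (fun H hH => hH.1)
  generalize Cfsg.pCore p G = L at *
  haveI : Nontrivial L := (Subgroup.nontrivial_iff_ne_bot L).mpr hL
  haveI := hLn
  obtain ⟨Z, hZdef⟩ : ∃ Z : Subgroup G, Z = (Subgroup.center ↥L).map L.subtype := ⟨_, rfl⟩
  have hZne : Z ≠ ⊥ := by
    rw [hZdef]
    intro h
    have hc : Nontrivial (Subgroup.center ↥L) := hLp.center_nontrivial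
    rw [Subgroup.map_eq_bot_iff_of_injective _ (Subgroup.subtype_injective L)] at h
    rw [Subgroup.nontrivial_iff_ne_bot] at hc
    exact hc h
  haveI hZn : Z.Normal := by
    rw [hZdef]; exact ConjAct.normal_of_characteristic_of_normal
  have hZL : Z ≤ L := by
    rw [hZdef]; exact Subgroup.map_subtype_le _
  have hLC : L ≤ Subgroup.centralizer (Z : Set G) := by
    intro x hx
    rw [Subgroup.mem_centralizer_iff]
    intro z hz
    rw [hZdef] at hz
    obtain ⟨z', hz', rfl⟩ := hz
    have := (Subgroup.mem_center_iff.mp hz') ⟨x, hx⟩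
    exact (congrArg Subtype.val this).symm
  obtain ⟨hCM, hC⟩ := Cfsg.Agent.S0549.result M hM hcore Z hZne
  have hCne : Subgroup.centralizer (Z : Set G) ≠ ⊥ := fun h => hL (le_bot_iff.mp (h ▸ hLC))
  rcases hC with hC | ⟨_, hCmin⟩
  · exact absurd hC hCne
  have hLeqC : L = Subgroup.centralizer (Z : Set G) := by
    rcases hCmin L hLn hLC with h | h
    · exact absurd h hL
    · exact h
  have hZeqL : Z = L := by
    rcases hCmin Z hZn (hZL.trans hLC) with h | h
    · exact absurd h hZne
    · exact h.trans hLeqC.symm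
  have hcomm : ∀ a ∈ L, ∀ b ∈ L, a * b = b * a := by
    intro a ha b hb
    have hb' : b ∈ Subgroup.centralizer (Z : Set G) := hLC hb
    rw [Subgroup.mem_centralizer_iff] at hb'
    exact hb' a (by rw [hZeqL]; exact ha)
  have hmin : ∀ K : Subgroup G, K.Normal → K ≤ L → K = ⊥ ∨ K = L := by
    intro K hK hKL
    rcases hCmin K hK (hKL.trans hLC) with h | h
    · exact Or.inl h
    · exact Or.inr (h.trans hLeqC.symm)
  have hCeq : Subgroup.centralizer (L : Set G) = L := by
    have h1 : Subgroup.centralizer (L : Set G) = Subgroup.centralizer (Z : Set G) := by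
      rw [hZeqL]
    exact h1.trans hLeqC.symm
  have hLMbot : L ⊓ M = ⊥ := by
    have h1 : L ⊓ M = Subgroup.centralizer (Z : Set G) ⊓ M := by
      rw [← hLeqC]
    exact h1.trans hCM
  have hLMtop : L ⊔ M = ⊤ := by
    apply hM.2
    apply lt_of_le_of_ne le_sup_right
    intro heq
    have hle : L ≤ M := by rw [heq]; exact le_sup_left
    have h2 : L ≤ L ⊓ M := le_inf le_rfl hle
    rw [hLMbot] at h2
    exact hL (le_bot_iff.mp h2)
  have hcompl : Subgroup.IsComplement' L M := by
    apply Subgroup.isComplement'_of_disjoint_and_mul_eq_univ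
    · exact disjoint_iff.mpr hLMbot
    · rw [← Subgroup.normal_mul, hLMtop]; rfl
  have hdvd : p ∣ Nat.card ↥L := by
    rcases hLp.card_eq_or_dvd with h | h
    · exfalso
      exact hL (Subgroup.card_eq_one.mp h)
    · exact h
  have hpow : ∀ a ∈ L, a ^ p = 1 := by
    let E : Subgroup G :=
      { carrier := {x | x ∈ L ∧ x ^ p = 1}
        mul_mem' := by
          rintro a b ⟨ha, ha'⟩ ⟨hb, hb'⟩
          refine ⟨L.mul_mem ha hb, ?_⟩
          have hc : Commute a b := hcomm a ha b hb
          rw [hc.mul_pow, ha', hb', one_mul]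
        one_mem' := ⟨L.one_mem, one_pow _⟩
        inv_mem' := by
          rintro a ⟨ha, ha'⟩
          exact ⟨L.inv_mem ha, by rw [inv_pow, ha', inv_one]⟩ }
    have hEn : E.Normal := by
      constructor
      rintro x ⟨hx, hx'⟩ g
      refine ⟨hLn.conj_mem x hx g, ?_⟩
      rw [conj_pow, hx']; group
    have hEL : E ≤ L := fun x hx => hx.1
    have hEne : E ≠ ⊥ := by
      obtain ⟨x, hx⟩ := exists_prime_orderOf_dvd_card' (G := ↥L) p hdvd
      intro h
      have hxp : x ^ p = 1 := by
        have := pow_orderOf_eq_one x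
        rwa [hx] at this
      have hxE : (x : G) ∈ E := ⟨x.2, by rw [← Subgroup.coe_pow, hxp, Subgroup.coe_one]⟩
      rw [h, Subgroup.mem_bot] at hxE
      have hx1 : x = 1 := Subtype.ext hxE
      rw [hx1, orderOf_one] at hx
      exact (Fact.out : p.Prime).one_lt.ne hx
    rcases hmin E hEn hEL with h | h
    · exact absurd h hEne
    · intro a ha
      have : a ∈ E := by rw [h]; exact ha
      exact this.2
  refine ⟨⟨⟨⟨fun a b => Subtype.ext (hcomm a.1 a.2 b.1 b.2)⟩⟩, hpow⟩, hcompl, hmin, hCeq, ?_⟩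
  intro q hq hQ
  have hQ0n : (Cfsg.pCore q ↥M).Normal := Subgroup.sSup_normal _ (fun H hH => hH.1)
  have hQ0p : IsPGroup q (Cfsg.pCore q ↥M) :=
    Sylow.sSup_of_normal _ (fun H hH => hH.2) (fun H hH => hH.1)
  obtain ⟨Q, hQdef⟩ : ∃ Q : Subgroup G, Q = (Cfsg.pCore q ↥M).map M.subtype := ⟨_, rfl⟩
  have hQM : Q ≤ M := by rw [hQdef]; exact Subgroup.map_subtype_le _
  have hQne : Q ≠ ⊥ := by
    rw [hQdef]; intro h
    rw [Subgroup.map_eq_bot_iff_of_injective _ (Subgroup.subtype_injective M)] at h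
    exact hQ h
  have hQp : IsPGroup q Q := by
    rw [hQdef]; exact hQ0p.map _
  have hQnorm : ∀ m ∈ M, ∀ x ∈ Q, m * x * m⁻¹ ∈ Q := by
    intro m hm x hx
    rw [hQdef] at hx ⊢
    obtain ⟨x', hx', rfl⟩ := hx
    exact ⟨⟨m, hm⟩ * x' * ⟨m, hm⟩⁻¹, hQ0n.conj_mem x' hx' ⟨m, hm⟩, rfl⟩
  have hDn : (L ⊓ Subgroup.centralizer (Q : Set G)).Normal := by
    constructor
    intro x hx g
    have hg : g ∈ L ⊔ M := hLMtop ▸ Subgroup.mem_top g
    rw [Subgroup.mem_sup_of_normal_left] at hg
    obtain ⟨l, hl, m, hm, rfl⟩ := hg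
    obtain ⟨hxL, hxC⟩ := Subgroup.mem_inf.mp hx
    have h1 : m * x * m⁻¹ ∈ L := hLn.conj_mem x hxL m
    have h2 : l * m * x * (l * m)⁻¹ = m * x * m⁻¹ := by
      have := hcomm l hl (m * x * m⁻¹) h1
      calc l * m * x * (l * m)⁻¹ = l * (m * x * m⁻¹) * l⁻¹ := by group
        _ = (m * x * m⁻¹) * l * l⁻¹ := by rw [this]
        _ = m * x * m⁻¹ := by group
    rw [h2]
    refine Subgroup.mem_inf.mpr ⟨h1, ?_⟩
    rw [Subgroup.mem_centralizer_iff] at hxC ⊢
    intro y hy
    have hy' : m⁻¹ * y * m ∈ Q := by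
      have := hQnorm m⁻¹ (M.inv_mem hm) y hy
      simpa using this
    have := hxC _ hy'
    calc y * (m * x * m⁻¹) = m * ((m⁻¹ * y * m) * x) * m⁻¹ := by group
      _ = m * (x * (m⁻¹ * y * m)) * m⁻¹ := by rw [this]
      _ = m * x * m⁻¹ * y := by group
  have hD : L ⊓ Subgroup.centralizer (Q : Set G) = ⊥ := by
    rcases hmin _ hDn inf_le_left with h | h
    · exact h
    · exfalso
      have hLQ : L ≤ Subgroup.centralizer (Q : Set G) := inf_eq_left.mp h
      have hQL : Q ≤ L := by
        intro y hy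
        have hyC : y ∈ Subgroup.centralizer (L : Set G) := by
          rw [Subgroup.mem_centralizer_iff]
          intro l hl
          have := hLQ hl
          rw [Subgroup.mem_centralizer_iff] at this
          exact (this y hy).symm
        rwa [hCeq] at hyC
      have : Q ≤ L ⊓ M := le_inf hQL hQM
      rw [hLMbot] at this
      exact hQne (le_bot_iff.mp this)
  let φ : ↥Q →* MulAut ↥L := (MulAut.conjNormal (H := L)).comp Q.subtype
  letI : MulAction ↥Q ↥L := MulAction.compHom ↥L φ
  have hfix := hQp.card_modEq_card_fixedPoints ↥L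
  have hfp : MulAction.fixedPoints ↥Q ↥L = {1} := by
    ext x
    simp only [MulAction.mem_fixedPoints, Set.mem_singleton_iff]
    constructor
    · intro hx
      have hxD : (x : G) ∈ L ⊓ Subgroup.centralizer (Q : Set G) := by
        refine Subgroup.mem_inf.mpr ⟨x.2, ?_⟩
        rw [Subgroup.mem_centralizer_iff]
        intro y hy
        have := hx ⟨y, hy⟩
        have h2 : y * (x : G) * y⁻¹ = x := congrArg Subtype.val this
        calc y * (x:G) = y * x * y⁻¹ * y := by group
          _ = x * y := by rw [h2]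
      rw [hD, Subgroup.mem_bot] at hxD
      exact Subtype.ext hxD
    · rintro rfl g
      exact map_one (φ g)
  have hcard1 : Nat.card (MulAction.fixedPoints ↥Q ↥L) = 1 := by
    rw [hfp]; simp
  rw [hcard1] at hfix
  refine ⟨hfix, ?_⟩
  intro hqp
  have hdvd' : q ∣ Nat.card ↥L := by rw [hqp]; exact hdvd
  have h0 : Nat.card ↥L % q = 0 := Nat.mod_eq_zero_of_dvd hdvd'
  have h1 : 1 % q = 1 := Nat.mod_eq_of_lt (Fact.out : q.Prime).one_lt
  unfold Nat.ModEq at hfix
  omega

end Cfsg.Agent.S0587
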