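import Cfsg.Statements.S0551
import Mathlib
import Cfsg.Agent.Lib.Helper13.Compl
import Cfsg.Agent.S0587

set_option autoImplicit false
open Pointwise
open Cfsg

namespace Cfsg.Agent.S0551

/-- In a finite solvable group all core-free maximal subgroups are conjugate. -/
theorem result {G : Type*} [Group G] [Finite G] [Group.IsSolvable G] (U V : Subgroup G) (hU : IsCoatom U) (hV : IsCoatom V) (hUc : U.normalCore = ⊥) (hVc : V.normalCore = ⊥) : ∃ g : G, MulAut.conj g • U = V := by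
  classical
  haveI : Nontrivial G := by
    by_contra hnt
    rw [not_nontrivial_iff_subsingleton] at hnt
    exact hU.1 (Subsingleton.elim _ _)
  obtain ⟨M, -, hMn, hMne, hMmin⟩ :=
    Cfsg.Agent.Lib.Helper13.exists_minimal_normal_le (⊤ : Subgroup G) inferInstance top_ne_bot
  obtain ⟨p, hp, hpdvd, hcomm, hexp, hMp⟩ :=
    Cfsg.Agent.Lib.Helper13.minimal_normal_solvable M hMn hMne hMmin
  haveI : Fact p.Prime := ⟨hp⟩
  haveI := hMn
  have hMU : ¬ M ≤ U := fun hle => by
    have h1 : M ≤ U.normalCore := Subgroup.normal_le_normalCore.mpr hle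
    rw [hUc] at h1
    exact hMne (le_bot_iff.mp h1)
  have hMV : ¬ M ≤ V := fun hle => by
    have h1 : M ≤ V.normalCore := Subgroup.normal_le_normalCore.mpr hle
    rw [hVc] at h1
    exact hMne (le_bot_iff.mp h1)
  have hcU := Cfsg.Agent.Lib.Helper13.isComplement'_of_minimal_normal_of_isCoatom M U hMn hcomm
    hMmin hU hMU
  have hcV := Cfsg.Agent.Lib.Helper13.isComplement'_of_minimal_normal_of_isCoatom M V hMn hcomm
    hMmin hV hMV
  by_cases hUb : U = ⊥
  · have h1 : Nat.card M * Nat.card U = Nat.card G := hcU.card_mul_card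
    have h2 : Nat.card M * Nat.card V = Nat.card G := hcV.card_mul_card
    have hVb : V = ⊥ := by
      rw [hUb, Subgroup.card_bot, mul_one] at h1
      rw [← h1] at h2
      have hpos : 0 < Nat.card M := Nat.card_pos
      have h3 : Nat.card V = 1 := by nlinarith
      exact Subgroup.card_eq_one.mp h3
    exact ⟨1, by rw [hUb, hVb]; simp⟩
  · haveI : Nontrivial ↥U := (Subgroup.nontrivial_iff_ne_bot U).mpr hUb
    obtain ⟨R, -, hRn, hRne, hRmin⟩ :=
      Cfsg.Agent.Lib.Helper13.exists_minimal_normal_le (⊤ : Subgroup ↥U) inferInstance top_ne_bot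
    obtain ⟨q, hq, hqdvd, -, -, hRq⟩ :=
      Cfsg.Agent.Lib.Helper13.minimal_normal_solvable R hRn hRne hRmin
    haveI : Fact q.Prime := ⟨hq⟩
    have hQ0ne : Cfsg.pCore q ↥U ≠ ⊥ := by
      intro h
      have h1 : R ≤ Cfsg.pCore q ↥U := le_sSup ⟨hRn, hRq⟩
      rw [h] at h1
      exact hRne (le_bot_iff.mp h1)
    have hLne : Cfsg.pCore p G ≠ ⊥ := by
      intro h
      have h1 : M ≤ Cfsg.pCore p G := le_sSup ⟨hMn, hMp⟩
      rw [h] at h1
      exact hMne (le_bot_iff.mp h1)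
    have hqp : q ≠ p := ((Cfsg.Agent.S0587.result p hLne U hU hUc).2.2.2.2 q hQ0ne).2
    have hQ0n : (Cfsg.pCore q ↥U).Normal := Subgroup.sSup_normal _ (fun H hH => hH.1)
    have hQ0p : IsPGroup q (Cfsg.pCore q ↥U) :=
      Sylow.sSup_of_normal _ (fun H hH => hH.2) (fun H hH => hH.1)
    obtain ⟨Q, hQdef⟩ : ∃ Q : Subgroup G, Q = (Cfsg.pCore q ↥U).map U.subtype := ⟨_, rfl⟩
    have hQU : Q ≤ U := by rw [hQdef]; exact Subgroup.map_subtype_le _
    have hQne : Q ≠ ⊥ := by
      rw [hQdef]; intro h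
      rw [Subgroup.map_eq_bot_iff_of_injective _ (Subgroup.subtype_injective U)] at h
      exact hQ0ne h
    have hQp : IsPGroup q Q := by
      rw [hQdef]; exact hQ0p.map _
    have hQnorm : ∀ u ∈ U, ∀ x ∈ Q, u * x * u⁻¹ ∈ Q := by
      intro u hu x hx
      rw [hQdef] at hx ⊢
      obtain ⟨x', hx', rfl⟩ := hx
      exact ⟨⟨u, hu⟩ * x' * ⟨u, hu⟩⁻¹, hQ0n.conj_mem x' hx' ⟨u, hu⟩, rfl⟩
    have hMQ : M ⊓ Q = ⊥ := by
      have h1 : M ⊓ Q ≤ M ⊓ U := inf_le_inf_left M hQU
      rw [hcU.disjoint.eq_bot] at h1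
      exact le_bot_iff.mp h1
    -- L = M ⊔ Q is normal
    haveI hLn : (M ⊔ Q).Normal := by
      constructor
      intro x hx g
      obtain ⟨m, hm, u, hu, rfl⟩ :=
        Cfsg.Agent.Lib.Helper13.exists_mul_of_sup_eq_top M U hcU.sup_eq_top g
      rw [Subgroup.mem_sup_of_normal_left] at hx
      obtain ⟨a, ha, b, hb, rfl⟩ := hx
      have h1 : u * (a * b) * u⁻¹ ∈ M ⊔ Q := by
        have : u * (a * b) * u⁻¹ = (u * a * u⁻¹) * (u * b * u⁻¹) := by group
        rw [this]
        exact Subgroup.mul_mem _ (Subgroup.mem_sup_left (hMn.conj_mem a ha u))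
          (Subgroup.mem_sup_right (hQnorm u hu b hb))
      have h2 : m * u * (a * b) * (m * u)⁻¹ = m * (u * (a * b) * u⁻¹) * m⁻¹ := by group
      rw [h2]
      have hmL : m ∈ M ⊔ Q := Subgroup.mem_sup_left hm
      exact Subgroup.mul_mem _ (Subgroup.mul_mem _ hmL h1) (Subgroup.inv_mem _ hmL)
    obtain ⟨X, hXdef⟩ : ∃ X : Subgroup G, X = (M ⊔ Q) ⊓ V := ⟨_, rfl⟩
    have hXV : X ≤ V := by rw [hXdef]; exact inf_le_right
    have hXL : X ≤ M ⊔ Q := by rw [hXdef]; exact inf_le_left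
    have hMX : M ⊓ X = ⊥ := by
      have h1 : M ⊓ X ≤ M ⊓ V := inf_le_inf_left M hXV
      rw [hcV.disjoint.eq_bot] at h1
      exact le_bot_iff.mp h1
    have hLX : M ⊔ Q = M ⊔ X := by
      rw [hXdef]
      exact Cfsg.Agent.Lib.Helper13.dedekind_eq M V (M ⊔ Q) le_sup_left hcV.sup_eq_top
    have hcardL1 := Cfsg.Agent.Lib.Helper13.card_sup_of_normal_of_disjoint M Q hMQ
    have hcardL2 := Cfsg.Agent.Lib.Helper13.card_sup_of_normal_of_disjoint M X hMX
    have hcardX : Nat.card X = Nat.card Q := by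
      rw [← hLX, hcardL1] at hcardL2
      exact (Nat.eq_of_mul_eq_mul_left Nat.card_pos hcardL2).symm
    have hXp : IsPGroup q X := by
      obtain ⟨k, hk⟩ := IsPGroup.iff_card.mp hQp
      exact IsPGroup.of_card (hcardX.trans hk)
    have hXne : X ≠ ⊥ := by
      intro h
      rw [h, Subgroup.card_bot] at hcardX
      exact hQne (Subgroup.card_eq_one.mp hcardX.symm)
    have hMcard : ∃ k, Nat.card M = p ^ k := IsPGroup.iff_card.mp hMp
    have hqM : ¬ q ∣ Nat.card M := by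
      obtain ⟨k, hk⟩ := hMcard
      rw [hk]
      intro hdvd
      exact hqp ((Nat.prime_dvd_prime_iff_eq hq hp).mp (hq.dvd_of_dvd_pow hdvd))
    have hi1 : ¬ q ∣ Q.relIndex (M ⊔ Q) := by
      rw [Cfsg.Agent.Lib.Helper13.relIndex_sup_of_normal_of_disjoint M Q hMQ]
      exact hqM
    have hi2 : ¬ q ∣ X.relIndex (M ⊔ Q) := by
      rw [hLX, Cfsg.Agent.Lib.Helper13.relIndex_sup_of_normal_of_disjoint M X hMX]
      exact hqM
    obtain ⟨t, -, ht⟩ := Cfsg.Agent.Lib.Helper13.conj_of_sylow_in (M ⊔ Q) Q X le_sup_right hXL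
      hQp hXp hi1 hi2
    have hNQ : Subgroup.normalizer (Q : Set G) = U := by
      apply Cfsg.Agent.Lib.Helper13.normalizer_eq_of_isCoatom U Q hU
      · intro u hu
        exact Subgroup.mem_normalizer_fintype (fun x hx => hQnorm u hu x hx)
      · intro hQn
        have h1 : Q ≤ U.normalCore := Subgroup.normal_le_normalCore.mpr hQU
        rw [hUc] at h1
        exact hQne (le_bot_iff.mp h1)
    have hNX : Subgroup.normalizer (X : Set G) = V := by
      apply Cfsg.Agent.Lib.Helper13.normalizer_eq_of_isCoatom V X hV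
      · intro v hv
        apply Subgroup.mem_normalizer_fintype
        intro x hx
        have hx' : x ∈ (M ⊔ Q) ⊓ V := by rw [← hXdef]; exact hx
        have h3 : v * x * v⁻¹ ∈ (M ⊔ Q) ⊓ V := Subgroup.mem_inf.mpr
          ⟨hLn.conj_mem x (Subgroup.mem_inf.mp hx').1 v,
            V.mul_mem (V.mul_mem hv (Subgroup.mem_inf.mp hx').2) (V.inv_mem hv)⟩
        rw [hXdef]; exact h3
      · intro hXn
        have h1 : X ≤ V.normalCore := Subgroup.normal_le_normalCore.mpr hXV
        rw [hVc] at h1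
        exact hXne (le_bot_iff.mp h1)
    refine ⟨t, ?_⟩
    rw [← hNQ, ← hNX, ← ht]
    exact Cfsg.Agent.Lib.Helper13.conj_smul_normalizer t Q

end Cfsg.Agent.S0551
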