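import Cfsg.Statements.S0552
import Mathlib

set_option autoImplicit false
open Cfsg

namespace Cfsg.Agent.S0552

theorem fit_normal (G : Type*) [Group G] : (Cfsg.fittingSubgroup G).Normal :=
  Subgroup.sSup_normal _ (fun _ hH => hH.1)

/-- iterated commutator series starting from a subgroup -/
def dser {G : Type*} [Group G] (C : Subgroup G) : ℕ → Subgroup G
  | 0 => C
  | n + 1 => ⁅dser C n, dser C n⁆

theorem dser_normal {G : Type*} [Group G] (C : Subgroup G) [hC : C.Normal] (n : ℕ) :
    (dser C n).Normal := by
  induction n with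
  | zero => exact hC
  | succ n ih => exact Subgroup.commutator_normal (dser C n) (dser C n)

theorem dser_le_derived {G : Type*} [Group G] (C : Subgroup G) (n : ℕ) :
    dser C n ≤ derivedSeries G n := by
  induction n with
  | zero => exact le_top
  | succ n ih => exact Subgroup.commutator_mono ih ih

theorem dser_le {G : Type*} [Group G] (C : Subgroup G) (n : ℕ) : dser C n ≤ C := by
  induction n with
  | zero => exact le_rfl
  | succ n ih => exact (Subgroup.commutator_mono ih ih).trans (Subgroup.commutator_le_self C)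

theorem cent_fit_le (G : Type*) [Group G] [Group.IsSolvable G] :
    Subgroup.centralizer (Cfsg.fittingSubgroup G : Set G) ≤ Cfsg.fittingSubgroup G := by
  have hFn := fit_normal G
  have hCn : (Subgroup.centralizer (Cfsg.fittingSubgroup G : Set G)).Normal :=
    Subgroup.normal_centralizer
  obtain ⟨n, hn⟩ := (Group.isSolvable_def G).mp inferInstance
  have hbot : dser (Subgroup.centralizer (Cfsg.fittingSubgroup G : Set G)) n ≤
      Cfsg.fittingSubgroup G := by
    have := dser_le_derived (Subgroup.centralizer (Cfsg.fittingSubgroup G : Set G)) n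
    rw [hn] at this
    exact this.trans bot_le
  have key : ∀ k : ℕ, dser (Subgroup.centralizer (Cfsg.fittingSubgroup G : Set G)) (k + 1) ≤
      Cfsg.fittingSubgroup G →
      dser (Subgroup.centralizer (Cfsg.fittingSubgroup G : Set G)) k ≤ Cfsg.fittingSubgroup G := by
    intro k hk
    have hDn := dser_normal (Subgroup.centralizer (Cfsg.fittingSubgroup G : Set G)) k
    have hDC := dser_le (Subgroup.centralizer (Cfsg.fittingSubgroup G : Set G)) k
    have hk' : ⁅dser (Subgroup.centralizer (Cfsg.fittingSubgroup G : Set G)) k,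
        dser (Subgroup.centralizer (Cfsg.fittingSubgroup G : Set G)) k⁆ ≤ Cfsg.fittingSubgroup G := hk
    clear hk
    generalize dser (Subgroup.centralizer (Cfsg.fittingSubgroup G : Set G)) k = D at hDn hDC hk' ⊢
    have hk := hk'
    have h2 : ⁅⁅D, D⁆, D⁆ = ⊥ := by
      rw [eq_bot_iff]
      calc ⁅⁅D, D⁆, D⁆ ≤ ⁅Cfsg.fittingSubgroup G, Subgroup.centralizer (Cfsg.fittingSubgroup G : Set G)⁆ :=
            Subgroup.commutator_mono hk hDC
        _ = ⊥ := by
            rw [Subgroup.commutator_comm, Subgroup.commutator_eq_bot_iff_le_centralizer]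
    have hnil : Group.IsNilpotent D := by
      rw [Subgroup.isNilpotent_iff_lowerCentralSeries]
      exact ⟨2, h2⟩
    exact le_sSup ⟨hDn, hnil⟩
  have all : ∀ k : ℕ, k ≤ n → dser (Subgroup.centralizer (Cfsg.fittingSubgroup G : Set G)) (n - k) ≤
      Cfsg.fittingSubgroup G := by
    intro k
    induction k with
    | zero => intro _; exact hbot
    | succ k ih =>
      intro hk
      apply key
      have : n - (k + 1) + 1 = n - k := by omega
      rw [this]
      exact ih (by omega)
  have := all n le_rfl
  rw [Nat.sub_self] at this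
  exact this

/-- Let σ be an automorphism of a finite solvable group G fixing every element of the Fitting subgroup. If σ is not the identity then the order of σ and the order of G have a common prime factor. -/
theorem result {G : Type*} [Group G] [Finite G] [Group.IsSolvable G] (σ : G ≃* G) (hσ : ∀ x ∈ Cfsg.fittingSubgroup G, σ x = x) (hne : σ ≠ MulEquiv.refl G) : ¬ (orderOf σ).Coprime (Nat.card G) := by
  intro hcop
  apply hne
  have hFn := fit_normal G
  have hCF := cent_fit_le G
  ext g
  rw [MulEquiv.refl_apply]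
  have hz : g⁻¹ * σ g ∈ Cfsg.fittingSubgroup G := by
    apply hCF
    rw [Subgroup.mem_centralizer_iff]
    intro x hx
    have h1 : g * x * g⁻¹ ∈ Cfsg.fittingSubgroup G := hFn.conj_mem x hx g
    have h2 := hσ _ h1
    rw [map_mul, map_mul, map_inv, hσ x hx] at h2
    calc x * (g⁻¹ * σ g) = g⁻¹ * (g * x * g⁻¹) * σ g := by group
      _ = g⁻¹ * (σ g * x * (σ g)⁻¹) * σ g := by rw [h2]
      _ = g⁻¹ * σ g * x := by group
  have hσz : σ (g⁻¹ * σ g) = g⁻¹ * σ g := hσ _ hz
  have hpow : ∀ k : ℕ, ((σ : MulAut G) ^ k) g = g * (g⁻¹ * σ g) ^ k := by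
    intro k
    induction k with
    | zero => simp
    | succ k ih =>
      rw [pow_succ', MulAut.mul_apply, ih, map_mul, map_pow, hσz, pow_succ', ← mul_assoc,
        mul_inv_cancel_left]
  have h1 : (g⁻¹ * σ g) ^ orderOf (σ : MulAut G) = 1 := by
    have := hpow (orderOf (σ : MulAut G))
    rw [pow_orderOf_eq_one, MulAut.one_apply] at this
    exact (mul_eq_left.mp this.symm)
  have h2 : (g⁻¹ * σ g) ^ Nat.card G = 1 := pow_card_eq_one'
  have h3 : (g⁻¹ * σ g) ^ (orderOf (σ : MulAut G)).gcd (Nat.card G) = 1 :=
    pow_gcd_eq_one.mpr ⟨h1, h2⟩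
  rw [Nat.Coprime] at hcop
  rw [hcop, pow_one] at h3
  calc σ g = g * (g⁻¹ * σ g) := by group
    _ = g := by rw [h3, mul_one]

end Cfsg.Agent.S0552
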