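import Cfsg.Statements.S0553
import Mathlib
import Cfsg.Agent.Lib.Helper13.Basic

set_option autoImplicit false
open Cfsg

namespace Cfsg.Agent.S0553

open Cfsg.Agent.Lib.Helper13 in
theorem aux.{u} (n : ℕ) : ∀ (G : Type u) [Group G] [Finite G] [Group.IsSolvable G] [Nontrivial G],
    Nat.card G = n → (∀ M : Subgroup G, IsCoatom M → (Nat.card M).Coprime M.index) →
    ∃ p : ℕ, p.Prime ∧ p ∣ Nat.card G ∧ ∀ P : Sylow p G, (P : Subgroup G).Normal := by
  induction n using Nat.strong_induction_on with
  | _ n ih =>
    intro G _ _ _ _ hn h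
    classical
    obtain ⟨N, -, hNn, hNne, hNmin⟩ :=
      exists_minimal_normal_le (⊤ : Subgroup G) inferInstance top_ne_bot
    haveI := hNn
    by_cases hall : ∀ M : Subgroup G, IsCoatom M → N ≤ M
    · have hNΦ : N ≤ frattini G := by
        unfold frattini Order.radical
        rw [le_iInf₂_iff]
        exact hall
      obtain ⟨M0, hM0⟩ : ∃ M : Subgroup G, IsCoatom M := by
        rcases eq_top_or_exists_le_coatom (⊥ : Subgroup G) with h | ⟨M, hM, -⟩
        · exact absurd h bot_ne_top
        · exact ⟨M, hM⟩
      have hNtop : N ≠ ⊤ := fun h => hM0.1 (top_le_iff.mp (h ▸ hall M0 hM0))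
      have hcardeq := Subgroup.card_eq_card_quotient_mul_card_subgroup N
      haveI : Nontrivial (G ⧸ N) := by
        rw [← Finite.one_lt_card_iff_nontrivial]
        have h1 : N.index ≠ 1 := fun h => hNtop (Subgroup.index_eq_one.mp h)
        have h2 : N.index ≠ 0 := Subgroup.index_ne_zero_of_finite
        rw [← Subgroup.index_eq_card]
        omega
      have hcardlt : Nat.card (G ⧸ N) < n := by
        have h1 : 1 < Nat.card N := (Subgroup.one_lt_card_iff_ne_bot N).mpr hNne
        have h2 : 0 < Nat.card (G ⧸ N) := Nat.card_pos
        rw [← hn, hcardeq]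
        nlinarith
      have hq : ∀ M' : Subgroup (G ⧸ N), IsCoatom M' → (Nat.card M').Coprime M'.index := by
        intro M' hM'
        have hc := isCoatom_comap_of_surjective (QuotientGroup.mk' N)
          (QuotientGroup.mk'_surjective N) M' hM'
        have h1 := h _ hc
        rw [Subgroup.index_comap_of_surjective _ (QuotientGroup.mk'_surjective N)] at h1
        have hdvd : Nat.card M' ∣ Nat.card (M'.comap (QuotientGroup.mk' N)) := by
          have h2 := Subgroup.card_map_dvd (H := M'.comap (QuotientGroup.mk' N))
            (QuotientGroup.mk' N)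
          rwa [Subgroup.map_comap_eq_self_of_surjective (QuotientGroup.mk'_surjective N)] at h2
        exact Nat.Coprime.coprime_dvd_left hdvd h1
      obtain ⟨q, hqp, hqdvd, hqn⟩ := ih _ hcardlt (G ⧸ N) rfl hq
      refine ⟨q, hqp, ?_, ?_⟩
      · rw [hcardeq]
        exact Dvd.dvd.mul_right hqdvd _
      · intro Q
        haveI : Fact q.Prime := ⟨hqp⟩
        have hQ'n := hqn (Q.mapSurjective (QuotientGroup.mk'_surjective N))
        rw [Sylow.coe_mapSurjective] at hQ'n
        haveI hKn : ((Q : Subgroup G) ⊔ N).Normal := by
          have := hQ'n.comap (QuotientGroup.mk' N)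
          rw [Subgroup.comap_map_eq, QuotientGroup.ker_mk'] at this
          exact this
        have h1 := Sylow.normalizer_sup_eq_top' Q
          (le_sup_left : (Q : Subgroup G) ≤ (Q : Subgroup G) ⊔ N)
        have h2 : Subgroup.normalizer ((Q : Subgroup G) : Set G) ⊔ frattini G = ⊤ := by
          apply top_le_iff.mp
          rw [← h1]
          apply sup_le le_sup_left
          exact sup_le (le_trans Subgroup.le_normalizer le_sup_left) (le_trans hNΦ le_sup_right)
        have h3 := frattini_nongenerating h2
        exact Subgroup.normalizer_eq_top_iff.mp h3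
    · push Not at hall
      obtain ⟨M, hM, hNM⟩ := hall
      obtain ⟨p, hp, hpdvd, hcomm, hexp, hNp⟩ := minimal_normal_solvable N hNn hNne hNmin
      have hcompl := isComplement'_of_minimal_normal_of_isCoatom N M hNn hcomm hNmin hM hNM
      refine ⟨p, hp, hpdvd.trans (Subgroup.card_subgroup_dvd_card N), ?_⟩
      intro P
      haveI : Fact p.Prime := ⟨hp⟩
      have hNP : N ≤ P := hNp.le_sylow_of_normal P
      have hidx : M.index = Nat.card N := hcompl.index_eq_card
      have hcop := h M hM
      rw [hidx] at hcop
      have hPdvd : Nat.card P ∣ Nat.card N := by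
        have h1 : Nat.card P ∣ Nat.card N * Nat.card M := by
          rw [hcompl.card_mul_card]; exact Subgroup.card_subgroup_dvd_card _
        have h2 : (Nat.card P).Coprime (Nat.card M) := by
          obtain ⟨k, hk⟩ := IsPGroup.iff_card.mp P.isPGroup'
          rw [hk]
          apply Nat.Coprime.pow_left
          exact (Nat.Coprime.coprime_dvd_right hpdvd hcop).symm
        exact h2.dvd_of_dvd_mul_right h1
      have hPN : N = (P : Subgroup G) :=
        Subgroup.eq_of_le_of_card_ge hNP (Nat.le_of_dvd Nat.card_pos hPdvd)
      rw [← hPN]; exact hNn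

/-- Let G be a nontrivial finite solvable group in which every maximal subgroup has order coprime to its index. Then for some prime p dividing the order of G the Sylow p-subgroups of G are normal. -/
theorem result {G : Type*} [Group G] [Finite G] [Group.IsSolvable G] [Nontrivial G] (h : ∀ M : Subgroup G, IsCoatom M → (Nat.card M).Coprime M.index) : ∃ p : ℕ, p.Prime ∧ p ∣ Nat.card G ∧ ∀ P : Sylow p G, (P : Subgroup G).Normal := by
  exact aux _ G rfl h

end Cfsg.Agent.S0553
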