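import Cfsg.Statements.S0554
import Mathlib
import Cfsg.Agent.Lib.Helper13.Basic

set_option autoImplicit false
open Cfsg

namespace Cfsg.Agent.S0554

theorem absorb {G : Type*} [Group G] (N : Subgroup G) [hN : N.Normal] {t : ℕ} (s : Fin t → G)
    (j : Fin t) (n : G) (hn : n ∈ N) :
    ∃ n' ∈ N, (List.ofFn s).prod * n = (List.ofFn (Function.update s j (s j * n'))).prod := by
  have hset : ∀ x : G, List.ofFn (Function.update s j x) = (List.ofFn s).set j x := by
    intro x
    apply List.ext_getElem
    · simp
    · intro i h1 h2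
      simp only [List.getElem_ofFn, List.getElem_set, Function.update_apply]
      by_cases hji : (j : ℕ) = i
      · simp [hji, Fin.ext_iff]
      · have : ¬ i = (j : ℕ) := fun h => hji h.symm
        simp [hji, this, Fin.ext_iff]
  have hlen : (j : ℕ) < (List.ofFn s).length := by simp
  refine ⟨(List.drop (j + 1) (List.ofFn s)).prod * n * ((List.drop (j + 1) (List.ofFn s)).prod)⁻¹,
    hN.conj_mem n hn _, ?_⟩
  rw [hset, List.prod_set, if_pos hlen]
  have hdecomp : (List.ofFn s).prod =
      ((List.ofFn s).take j).prod * s j * ((List.ofFn s).drop (j + 1)).prod := by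
    have h1 := List.prod_set (List.ofFn s) j (s j)
    rw [if_pos hlen] at h1
    rw [← h1, ← hset, Function.update_eq_self]
  rw [hdecomp]
  group

open Cfsg.Agent.Lib.Helper13 in
theorem aux.{u} (n : ℕ) : ∀ (G : Type u) [Group G] [Finite G] [Group.IsSolvable G], Nat.card G = n →
    ∀ (t : ℕ) (p : Fin t → ℕ) (hp : ∀ i, (p i).Prime)
    (hall : ∀ q : ℕ, q.Prime → q ∣ Nat.card G → ∃ i, p i = q) (S : (i : Fin t) → Sylow (p i) G),
    ∀ g : G, ∃ s : (i : Fin t) → G, (∀ i, s i ∈ (S i : Subgroup G)) ∧ g = (List.ofFn s).prod := by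
  induction n using Nat.strong_induction_on with
  | _ n ih =>
    intro G _ _ _ hn t p hp hall S g
    classical
    haveI : ∀ i, Fact (p i).Prime := fun i => ⟨hp i⟩
    by_cases htriv : Subsingleton G
    · refine ⟨fun _ => 1, fun i => Subgroup.one_mem _, Subsingleton.elim _ _⟩
    rw [not_subsingleton_iff_nontrivial] at htriv
    obtain ⟨N, -, hNn, hNne, hNmin⟩ :=
      exists_minimal_normal_le (⊤ : Subgroup G) inferInstance top_ne_bot
    haveI := hNn
    obtain ⟨q, hq, hqdvd, hcomm, hexp, hNq⟩ := minimal_normal_solvable N hNn hNne hNmin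
    obtain ⟨j, hj⟩ := hall q hq (hqdvd.trans (Subgroup.card_subgroup_dvd_card N))
    have hNS : N ≤ (S j : Subgroup G) := by
      have hNq' : IsPGroup (p j) N := by rw [hj]; exact hNq
      exact hNq'.le_sylow_of_normal (S j)
    have hcardeq := Subgroup.card_eq_card_quotient_mul_card_subgroup N
    have hcardlt : Nat.card (G ⧸ N) < n := by
      have h1 : 1 < Nat.card N := (Subgroup.one_lt_card_iff_ne_bot N).mpr hNne
      have h2 : 0 < Nat.card (G ⧸ N) := Nat.card_pos
      rw [← hn, hcardeq]
      nlinarith
    have hall' : ∀ r : ℕ, r.Prime → r ∣ Nat.card (G ⧸ N) → ∃ i, p i = r := by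
      intro r hr hrdvd
      apply hall r hr
      rw [hcardeq]
      exact Dvd.dvd.mul_right hrdvd _
    obtain ⟨s', hs', hgs'⟩ := ih _ hcardlt (G ⧸ N) rfl t p hp hall'
      (fun i => (S i).mapSurjective (QuotientGroup.mk'_surjective N)) (QuotientGroup.mk' N g)
    have hlift : ∀ i, ∃ x ∈ (S i : Subgroup G), QuotientGroup.mk' N x = s' i := by
      intro i
      have h1 := hs' i
      rw [Sylow.coe_mapSurjective] at h1
      exact h1
    choose s hsS hss' using hlift
    have hprod : QuotientGroup.mk' N (List.ofFn s).prod = QuotientGroup.mk' N g := by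
      have hfun : (⇑(QuotientGroup.mk' N) ∘ s) = s' := funext hss'
      rw [map_list_prod, List.map_ofFn, hgs', hfun]
    have hmem : ((List.ofFn s).prod)⁻¹ * g ∈ N := by
      have h1 : (((List.ofFn s).prod : G) : G ⧸ N) = ((g : G) : G ⧸ N) := hprod
      exact QuotientGroup.eq.mp h1
    obtain ⟨n', hn', hn'eq⟩ := absorb N s j _ hmem
    refine ⟨Function.update s j (s j * n'), ?_, ?_⟩
    · intro i
      by_cases hij : i = j
      · subst hij
        rw [Function.update_self]
        exact Subgroup.mul_mem _ (hsS i) (hNS hn')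
      · rw [Function.update_of_ne hij]
        exact hsS i
    · rw [← hn'eq]; group

/-- Let G be a finite solvable group and let S assign to each of t distinct primes, including every prime divisor of the order of G, a Sylow subgroup of G. Then every element of G is a product s_0 s_1 ⋯ s_(t-1) with s_i in S i, the factors taken in the given order. -/
theorem result {G : Type*} [Group G] [Finite G] [Group.IsSolvable G] (t : ℕ) (p : Fin t → ℕ) (hp : ∀ i, (p i).Prime) (hinj : Function.Injective p) (hall : ∀ q : ℕ, q.Prime → q ∣ Nat.card G → ∃ i, p i = q) (S : (i : Fin t) → Sylow (p i) G) : ∀ g : G, ∃ s : (i : Fin t) → G, (∀ i, s i ∈ (S i : Subgroup G)) ∧ g = (List.ofFn s).prod := by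
  exact aux _ G rfl t p hp hall S

end Cfsg.Agent.S0554
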