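import Cfsg.Statements.S0555
import Mathlib

set_option autoImplicit false
open Cfsg

namespace Cfsg.Agent.S0555

theorem cyc_gen {G : Type*} [Group G] (B A : Subgroup G) [A.Normal]
    (h : IsCyclic (↥B ⧸ A.subgroupOf B)) :
    ∃ b ∈ B, ∀ y ∈ B, ∃ m : ℤ, ∃ x ∈ A, y = b ^ m * x := by
  obtain ⟨g, hg⟩ := h.exists_generator
  obtain ⟨b', rfl⟩ := QuotientGroup.mk_surjective g
  refine ⟨b', b'.2, fun y hy => ?_⟩
  obtain ⟨m, hm⟩ := Subgroup.mem_zpowers_iff.mp (hg (QuotientGroup.mk ⟨y, hy⟩))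
  have h1 : ((b' ^ m : ↥B) : ↥B ⧸ A.subgroupOf B) = QuotientGroup.mk ⟨y, hy⟩ := by
    rw [QuotientGroup.mk_zpow]; exact hm
  rw [QuotientGroup.eq, Subgroup.mem_subgroupOf] at h1
  refine ⟨m, ((b' : G) ^ m)⁻¹ * y, ?_, by group⟩
  simpa using h1

/-- Let i ≥ 1. If in the derived series of a group the quotient of the i-th term by the (i+1)-st and the quotient of the (i+1)-st by the (i+2)-nd are both cyclic, then the (i+1)-st and (i+2)-nd terms coincide. -/
theorem result {G : Type*} [Group G] (i : ℕ) (hi : 1 ≤ i) (h₁ : IsCyclic (↥(derivedSeries G i) ⧸ (derivedSeries G (i + 1)).subgroupOf (derivedSeries G i))) (h₂ : IsCyclic (↥(derivedSeries G (i + 1)) ⧸ (derivedSeries G (i + 2)).subgroupOf (derivedSeries G (i + 1)))) : derivedSeries G (i + 1) = derivedSeries G (i + 2) := by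
  obtain ⟨a, haA, ha⟩ := cyc_gen (derivedSeries G (i + 1)) (derivedSeries G (i + 2)) h₂
  obtain ⟨b₀, hb₀B, hb₀⟩ := cyc_gen (derivedSeries G i) (derivedSeries G (i + 1)) h₁
  have hker : ∀ n ∈ derivedSeries G (i + 2), QuotientGroup.mk' (derivedSeries G (i + 2)) n = 1 :=
    fun n hn => (QuotientGroup.eq_one_iff n).mpr hn
  generalize hπ : QuotientGroup.mk' (derivedSeries G (i + 2)) = π at hker
  have hsurj : Function.Surjective π := by rw [← hπ]; exact QuotientGroup.mk'_surjective _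
  have hconj : ∀ q : G ⧸ derivedSeries G (i + 2), ∃ k : ℤ, q * π a * q⁻¹ = (π a) ^ k := by
    intro q
    obtain ⟨g, rfl⟩ := hsurj q
    have hgA : g * a * g⁻¹ ∈ derivedSeries G (i + 1) :=
      (derivedSeries_normal G (i + 1)).conj_mem a haA g
    obtain ⟨k, n, hn, hk⟩ := ha _ hgA
    refine ⟨k, ?_⟩
    rw [← map_inv, ← map_mul, ← map_mul, hk, map_mul, map_zpow, hker n hn, mul_one]
  have hcomm : ∀ x y : G ⧸ derivedSeries G (i + 2), Commute (x * y * x⁻¹ * y⁻¹) (π a) := by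
    have aux : ∀ x y : G ⧸ derivedSeries G (i + 2),
        (x * y) * π a * (x * y)⁻¹ = (y * x) * π a * (y * x)⁻¹ := by
      intro x y
      obtain ⟨k, hk⟩ := hconj x
      obtain ⟨l, hl⟩ := hconj y
      have e1 : (x * y) * π a * (x * y)⁻¹ = x * (y * π a * y⁻¹) * x⁻¹ := by group
      have e2 : (y * x) * π a * (y * x)⁻¹ = y * (x * π a * x⁻¹) * y⁻¹ := by group
      have e3 : x * (π a) ^ l * x⁻¹ = (x * π a * x⁻¹) ^ l := (conj_zpow).symm
      have e4 : y * (π a) ^ k * y⁻¹ = (y * π a * y⁻¹) ^ k := (conj_zpow).symm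
      rw [e1, e2, hl, hk, e3, e4, hk, hl, ← zpow_mul, ← zpow_mul, mul_comm]
    intro x y
    have h := aux x⁻¹ y⁻¹
    have e : x * y * x⁻¹ * y⁻¹ = (y⁻¹ * x⁻¹)⁻¹ * (x⁻¹ * y⁻¹) := by group
    rw [e]
    show (y⁻¹ * x⁻¹)⁻¹ * (x⁻¹ * y⁻¹) * π a = π a * ((y⁻¹ * x⁻¹)⁻¹ * (x⁻¹ * y⁻¹))
    calc (y⁻¹ * x⁻¹)⁻¹ * (x⁻¹ * y⁻¹) * π a
        = (y⁻¹ * x⁻¹)⁻¹ * ((x⁻¹ * y⁻¹) * π a * (x⁻¹ * y⁻¹)⁻¹) * (x⁻¹ * y⁻¹) := by group
      _ = (y⁻¹ * x⁻¹)⁻¹ * ((y⁻¹ * x⁻¹) * π a * (y⁻¹ * x⁻¹)⁻¹) * (x⁻¹ * y⁻¹) := by rw [h]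
      _ = π a * ((y⁻¹ * x⁻¹)⁻¹ * (x⁻¹ * y⁻¹)) := by group
  have hB : ∀ b ∈ derivedSeries G i, Commute (π b) (π a) := by
    have hle : derivedSeries G i ≤ commutator G := by
      rw [← derivedSeries_one]; exact derivedSeries_antitone G hi
    have hcle : commutator G ≤ (Subgroup.centralizer {π a}).comap π := by
      rw [commutator_eq_closure, Subgroup.closure_le]
      rintro _ ⟨g, h, rfl⟩
      simp only [SetLike.mem_coe, Subgroup.mem_comap, Subgroup.mem_centralizer_iff,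
        Set.mem_singleton_iff, forall_eq]
      have := hcomm (π g) (π h)
      have e : π (g * h * g⁻¹ * h⁻¹) = π g * π h * (π g)⁻¹ * (π h)⁻¹ := by
        simp only [map_mul, map_inv]
      exact (e ▸ this.eq).symm
    intro b hb
    have := hcle (hle hb)
    simp only [Subgroup.mem_comap, Subgroup.mem_centralizer_iff, Set.mem_singleton_iff,
      forall_eq] at this
    exact this.symm
  have hcb : Commute (π b₀) (π a) := hB b₀ hb₀B
  have hform : ∀ y ∈ derivedSeries G i, ∃ m k : ℤ, π y = (π b₀) ^ m * (π a) ^ k := by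
    intro y hy
    obtain ⟨m, x, hx, rfl⟩ := hb₀ y hy
    obtain ⟨k, n, hn, rfl⟩ := ha x hx
    refine ⟨m, k, ?_⟩
    rw [map_mul, map_mul, map_zpow, map_zpow, hker n hn, mul_one]
  apply le_antisymm _ (derivedSeries_antitone G (by omega))
  rw [derivedSeries_succ G i, Subgroup.commutator_le]
  intro y hy y' hy'
  obtain ⟨m, k, e⟩ := hform y hy
  obtain ⟨m', k', e'⟩ := hform y' hy'
  have h1 : π (y * y' * y⁻¹ * y'⁻¹) = 1 := by
    rw [map_mul, map_mul, map_mul, map_inv, map_inv, e, e']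
    have hc : Commute ((π b₀) ^ m * (π a) ^ k) ((π b₀) ^ m' * (π a) ^ k') := by
      apply Commute.mul_left
      · exact Commute.mul_right ((Commute.refl _).zpow_zpow m m') (hcb.zpow_zpow m k')
      · exact Commute.mul_right (hcb.symm.zpow_zpow k m') ((Commute.refl _).zpow_zpow k k')
    exact commutatorElement_eq_one_iff_commute.mpr hc
  rw [← hπ] at h1
  exact (QuotientGroup.eq_one_iff _).mp h1

end Cfsg.Agent.S0555
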