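import Cfsg.Statements.S0585
import Mathlib

set_option autoImplicit false
open Cfsg

namespace Cfsg.Agent.S0585

/-- If the Frattini subgroup of a finite group G is trivial, then every abelian normal subgroup of G has a complement in G. -/
theorem result {G : Type*} [Group G] [Finite G] (hΦ : frattini G = ⊥) (A : Subgroup G) [A.Normal] [IsMulCommutative A] : ∃ H : Subgroup G, Subgroup.IsComplement' A H := by
  obtain ⟨H, -, hHmin⟩ := Finite.exists_le_minimal (p := fun H : Subgroup G => A ⊔ H = ⊤) (a := ⊤)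
    (by simp)
  obtain ⟨hAH, hmin⟩ := hHmin
  refine ⟨H, ?_⟩
  have hdisj : A ⊓ H = ⊥ := by
    by_contra hne
    have hn : (A ⊓ H).Normal := by
      constructor
      intro x hx g
      have hg : g ∈ A ⊔ H := hAH ▸ Subgroup.mem_top g
      rw [Subgroup.mem_sup_of_normal_left] at hg
      obtain ⟨a, ha, h, hh, rfl⟩ := hg
      have hxA := (Subgroup.mem_inf.mp hx).1
      have hxH := (Subgroup.mem_inf.mp hx).2
      have h1 : h * x * h⁻¹ ∈ A ⊓ H :=
        Subgroup.mem_inf.mpr ⟨‹A.Normal›.conj_mem x hxA h,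
          H.mul_mem (H.mul_mem hh hxH) (H.inv_mem hh)⟩
      have h2 : a * h * x * (a * h)⁻¹ = h * x * h⁻¹ := by
        have hc : a * (h * x * h⁻¹) = (h * x * h⁻¹) * a :=
          setLike_mul_comm ha (Subgroup.mem_inf.mp h1).1
        calc a * h * x * (a * h)⁻¹ = a * (h * x * h⁻¹) * a⁻¹ := by group
          _ = (h * x * h⁻¹) * a * a⁻¹ := by rw [hc]
          _ = h * x * h⁻¹ := by group
      rw [h2]; exact h1
    have hex : ∃ M : Subgroup G, IsCoatom M ∧ ¬ (A ⊓ H ≤ M) := by
      by_contra hall
      push Not at hall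
      apply hne
      rw [eq_bot_iff, ← hΦ]
      unfold frattini Order.radical
      rw [le_iInf₂_iff]
      exact hall
    obtain ⟨M, hM, hnM⟩ := hex
    have hsup : (A ⊓ H) ⊔ M = ⊤ := by
      apply hM.2
      apply lt_of_le_of_ne le_sup_right
      intro heq; apply hnM; rw [heq]; exact le_sup_left
    have hK : A ⊔ (H ⊓ M) = ⊤ := by
      rw [eq_top_iff, ← hAH]
      apply sup_le le_sup_left
      intro h hh
      have hg : h ∈ (A ⊓ H) ⊔ M := hsup ▸ Subgroup.mem_top h
      rw [Subgroup.mem_sup_of_normal_left] at hg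
      obtain ⟨n, hn', m, hm, rfl⟩ := hg
      have hnH := (Subgroup.mem_inf.mp hn').2
      have hmH : m ∈ H := by
        have : m = n⁻¹ * (n * m) := by group
        rw [this]; exact H.mul_mem (H.inv_mem hnH) hh
      exact Subgroup.mul_mem_sup (Subgroup.mem_inf.mp hn').1 (Subgroup.mem_inf.mpr ⟨hmH, hm⟩)
    have hle := hmin hK inf_le_left
    exact hnM (inf_le_right.trans (hle.trans inf_le_right))
  apply Subgroup.isComplement'_of_disjoint_and_mul_eq_univ (disjoint_iff.mpr hdisj)
  rw [← Subgroup.normal_mul, hAH, Subgroup.coe_top]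

end Cfsg.Agent.S0585
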