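import Cfsg.Statements.S0586
import Mathlib
import Cfsg.Agent.S0575
import Cfsg.Agent.S0585

set_option autoImplicit false
open Cfsg

namespace Cfsg.Agent.S0586

open scoped commutatorElement in
theorem comm_le_of_normal_coatom {N : Type*} [Group N] (M : Subgroup N) (hMn : M.Normal)
    (hM : IsCoatom M) : commutator N ≤ M := by
  obtain ⟨x, hx⟩ : ∃ x, x ∉ M := by
    by_contra h
    push Not at h
    exact hM.1 (eq_top_iff.mpr (fun x _ => h x))
  have hsup : M ⊔ Subgroup.zpowers x = ⊤ := by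
    apply hM.2
    apply lt_of_le_of_ne le_sup_left
    intro heq
    apply hx
    rw [heq]
    exact Subgroup.mem_sup_right (Subgroup.mem_zpowers x)
  rw [commutator_def, Subgroup.commutator_le]
  intro a _ b _
  have ha : a ∈ M ⊔ Subgroup.zpowers x := hsup ▸ Subgroup.mem_top a
  have hb : b ∈ M ⊔ Subgroup.zpowers x := hsup ▸ Subgroup.mem_top b
  haveI := hMn
  rw [Subgroup.mem_sup_of_normal_left] at ha hb
  obtain ⟨m, hm, y, hy, rfl⟩ := ha
  obtain ⟨m', hm', y', hy', rfl⟩ := hb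
  obtain ⟨i, rfl⟩ := Subgroup.mem_zpowers_iff.mp hy
  obtain ⟨j, rfl⟩ := Subgroup.mem_zpowers_iff.mp hy'
  have key : ((⁅m * x ^ i, m' * x ^ j⁆ : N) : N ⧸ M) = 1 := by
    have h1 : ((m * x ^ i : N) : N ⧸ M) = (x : N ⧸ M) ^ i := by
      rw [QuotientGroup.mk_mul, (QuotientGroup.eq_one_iff m).mpr hm, one_mul, QuotientGroup.mk_zpow]
    have h2 : ((m' * x ^ j : N) : N ⧸ M) = (x : N ⧸ M) ^ j := by
      rw [QuotientGroup.mk_mul, (QuotientGroup.eq_one_iff m').mpr hm', one_mul,
        QuotientGroup.mk_zpow]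
    have h3 : ((⁅m * x ^ i, m' * x ^ j⁆ : N) : N ⧸ M)
        = ⁅((m * x ^ i : N) : N ⧸ M), ((m' * x ^ j : N) : N ⧸ M)⁆ :=
      map_commutatorElement (QuotientGroup.mk' M) _ _
    rw [h3, h1, h2, commutatorElement_eq_one_iff_commute]
    exact (Commute.refl _).zpow_zpow _ _
  exact (QuotientGroup.eq_one_iff _).mp key

open scoped commutatorElement in
theorem comm_of_nilpotent_frattini_bot {N : Type*} [Group N] [Finite N] [Group.IsNilpotent N]
    (h : frattini N = ⊥) : ∀ a b : N, a * b = b * a := by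
  have hcoat : ∀ H : Subgroup N, IsCoatom H → H.Normal := by
    have q := (Group.isNilpotent_of_finite_tfae (G := N)).out 0 2
    exact q.mp inferInstance
  have hle : commutator N ≤ frattini N := by
    unfold frattini Order.radical
    rw [le_iInf₂_iff]
    intro M hM
    exact comm_le_of_normal_coatom M (hcoat M hM) hM
  rw [h] at hle
  intro a b
  have h0 : ⁅a, b⁆ ∈ commutator N :=
    Subgroup.commutator_mem_commutator (Subgroup.mem_top a) (Subgroup.mem_top b)
  have h1 := hle h0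
  rw [Subgroup.mem_bot, commutatorElement_eq_one_iff_commute] at h1
  exact h1

/-- If the Frattini subgroup of a finite group G is trivial, then the Fitting subgroup of G equals the join of all abelian minimal normal subgroups of G. -/
theorem result {G : Type*} [Group G] [Finite G] (hΦ : frattini G = ⊥) : Cfsg.fittingSubgroup G = sSup {N : Subgroup G | N.Normal ∧ N ≠ ⊥ ∧ IsMulCommutative N ∧ ∀ K : Subgroup G, K.Normal → K ≤ N → K = ⊥ ∨ K = N} := by
  classical
  apply le_antisymm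
  · unfold Cfsg.fittingSubgroup
    apply sSup_le
    rintro N ⟨hNn, hNnil⟩
    haveI := hNn
    have hΦN : frattini ↥N = ⊥ := by
      have := Cfsg.Agent.S0575.result N
      rw [hΦ, le_bot_iff, Subgroup.map_eq_bot_iff_of_injective _ (Subgroup.subtype_injective N)]
        at this
      exact this
    have hNcomm : ∀ a b : ↥N, a * b = b * a := comm_of_nilpotent_frattini_bot hΦN
    have hNcomm' : ∀ a ∈ N, ∀ b ∈ N, a * b = b * a := by
      intro a ha b hb
      have h := congrArg Subtype.val (hNcomm ⟨a, ha⟩ ⟨b, hb⟩)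
      exact h
    obtain ⟨T, hTdef⟩ : ∃ T : Set (Subgroup G), T = {K : Subgroup G | K.Normal ∧ K ≠ ⊥ ∧ K ≤ N ∧
        ∀ K' : Subgroup G, K'.Normal → K' ≤ K → K' = ⊥ ∨ K' = K} := ⟨_, rfl⟩
    have hTN : sSup T ≤ N := sSup_le (fun K hK => by rw [hTdef] at hK; exact hK.2.2.1)
    haveI hTn : (sSup T).Normal := Subgroup.sSup_normal _ (fun K hK => by rw [hTdef] at hK; exact hK.1)
    haveI hTcomm : IsMulCommutative ↥(sSup T) := ⟨⟨fun a b => Subtype.ext
      (hNcomm' a.1 (hTN a.2) b.1 (hTN b.2))⟩⟩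
    obtain ⟨H, hH⟩ := Cfsg.Agent.S0585.result hΦ (sSup T)
    have hdisj : sSup T ⊓ H = ⊥ := hH.disjoint.eq_bot
    have htop : sSup T ⊔ H = ⊤ := hH.sup_eq_top
    have hNHn : (N ⊓ H).Normal := by
      constructor
      intro x hx g
      have hg : g ∈ sSup T ⊔ H := htop ▸ Subgroup.mem_top g
      rw [Subgroup.mem_sup_of_normal_left] at hg
      obtain ⟨s, hs, h, hh, rfl⟩ := hg
      obtain ⟨hxN, hxH⟩ := Subgroup.mem_inf.mp hx
      have h1 : h * x * h⁻¹ ∈ N ⊓ H := Subgroup.mem_inf.mpr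
        ⟨hNn.conj_mem x hxN h, H.mul_mem (H.mul_mem hh hxH) (H.inv_mem hh)⟩
      have h2 : s * h * x * (s * h)⁻¹ = h * x * h⁻¹ := by
        have h3 : s * (h * x * h⁻¹) = (h * x * h⁻¹) * s :=
          hNcomm' s (hTN hs) (h * x * h⁻¹) (Subgroup.mem_inf.mp h1).1
        calc s * h * x * (s * h)⁻¹ = s * (h * x * h⁻¹) * s⁻¹ := by group
          _ = (h * x * h⁻¹) * s * s⁻¹ := by rw [h3]
          _ = h * x * h⁻¹ := by group
      rw [h2]; exact h1
    have hNH : N ⊓ H = ⊥ := by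
      by_contra hne
      obtain ⟨K, hKle, hKmin⟩ := Finite.exists_le_minimal
        (p := fun K : Subgroup G => K.Normal ∧ K ≠ ⊥) (a := N ⊓ H) ⟨hNHn, hne⟩
      have hKT : K ∈ T := by
        rw [hTdef]
        refine ⟨hKmin.1.1, hKmin.1.2, hKle.trans inf_le_left, ?_⟩
        intro K' hK'n hK'le
        by_cases hK'b : K' = ⊥
        · exact Or.inl hK'b
        · exact Or.inr (le_antisymm hK'le (hKmin.2 ⟨hK'n, hK'b⟩ hK'le))
      have : K ≤ sSup T ⊓ H := le_inf (le_sSup hKT) (hKle.trans inf_le_right)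
      rw [hdisj] at this
      exact hKmin.1.2 (le_bot_iff.mp this)
    have hNT : N ≤ sSup T := by
      intro x hx
      have hg : x ∈ sSup T ⊔ H := htop ▸ Subgroup.mem_top x
      rw [Subgroup.mem_sup_of_normal_left] at hg
      obtain ⟨s, hs, h, hh, rfl⟩ := hg
      have hhN : h ∈ N := by
        have : h = s⁻¹ * (s * h) := by group
        rw [this]; exact N.mul_mem (N.inv_mem (hTN hs)) hx
      have : h ∈ N ⊓ H := Subgroup.mem_inf.mpr ⟨hhN, hh⟩
      rw [hNH, Subgroup.mem_bot] at this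
      rw [this, mul_one]; exact hs
    apply hNT.trans
    apply sSup_le_sSup
    intro K hK
    rw [hTdef] at hK
    obtain ⟨hKn, hKne, hKN, hKmin⟩ := hK
    refine ⟨hKn, hKne, ?_, hKmin⟩
    exact ⟨⟨fun a b => Subtype.ext (hNcomm' a.1 (hKN a.2) b.1 (hKN b.2))⟩⟩
  · apply sSup_le_sSup
    rintro N ⟨hNn, hNne, hNc, hNmin⟩
    exact ⟨hNn, ⟨⟨1, Subgroup.upperCentralSeries_one_eq_top_iff.mpr hNc⟩⟩⟩

end Cfsg.Agent.S0586
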