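import Cfsg.Statements.S0556
import Mathlib
import Cfsg.Agent.S0034
import Cfsg.Agent.S0035
import Cfsg.Agent.S0586
import Cfsg.Agent.Lib.Helper13.Basic
import Cfsg.Agent.Lib.Helper13.Compl
import Cfsg.Agent.Lib.Helper13.Prod
import Cfsg.Agent.Lib.Helper13.Perm

set_option autoImplicit false
open Cfsg

namespace Cfsg.Agent.S0556

open Cfsg.Agent.Lib.Helper13
open scoped Pointwise commutatorElement

theorem ds2_bot {G : Type*} [Group G] (N : Subgroup G) (hle : commutator G ≤ N)
    (hc : ∀ x ∈ N, ∀ y ∈ N, x * y = y * x) : derivedSeries G 2 = ⊥ := by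
  have h1 : derivedSeries G 1 ≤ N := by rw [derivedSeries_one]; exact hle
  show derivedSeries G (1 + 1) = ⊥
  rw [derivedSeries_succ, eq_bot_iff, Subgroup.commutator_le]
  intro a ha b hb
  rw [Subgroup.mem_bot, commutatorElement_eq_one_iff_commute]
  exact hc a (h1 ha) b (h1 hb)

theorem frob_ds2 {G : Type*} [Group G] [Finite G] (H : Subgroup G)
    (hH : Cfsg.IsFrobeniusComplement H) (hmax : IsCoatom H)
    (hc : ∀ x ∈ H, ∀ y ∈ H, x * y = y * x) : derivedSeries G 2 = ⊥ := by
  obtain ⟨N, hNset, hNn, hNc⟩ := Cfsg.Agent.S0035.result H hH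
  haveI := hNn
  have hdisj : N ⊓ H = ⊥ := disjoint_iff.mp hNc.disjoint
  have hsup : N ⊔ H = ⊤ := hNc.sup_eq_top
  have hcardG : Nat.card N * Nat.card H = Nat.card G := hNc.card_mul_card
  have hHcard : 1 < Nat.card H := (Subgroup.one_lt_card_iff_ne_bot H).mpr hH.1
  have hcop : (Nat.card N).Coprime (Nat.card H) := by
    have h1 := (Cfsg.Agent.S0034.result H hH).2
    have h2 : Nat.card N = H.index := by
      have h3 := Subgroup.card_mul_index H
      rw [← hcardG, mul_comm] at h3
      exact (Nat.eq_of_mul_eq_mul_right Nat.card_pos h3).symm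
    rw [h2]
    have h4 : H.index ≡ 1 [MOD Nat.card H] := h1
    have h5 := Nat.ModEq.gcd_eq h4
    rw [Nat.Coprime, h5]; simp
  have hcomN : commutator G ≤ N := by
    rw [commutator_def, Subgroup.commutator_le]
    intro x _ y _
    obtain ⟨n₁, hn₁, h₁, hh₁, rfl⟩ := exists_mul_of_sup_eq_top N H hsup x
    obtain ⟨n₂, hn₂, h₂, hh₂, rfl⟩ := exists_mul_of_sup_eq_top N H hsup y
    rw [← QuotientGroup.eq_one_iff]
    have e1 : ((n₁ * h₁ : G) : G ⧸ N) = (h₁ : G ⧸ N) := by
      rw [QuotientGroup.mk_mul, (QuotientGroup.eq_one_iff n₁).mpr hn₁, one_mul]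
    have e2 : ((n₂ * h₂ : G) : G ⧸ N) = (h₂ : G ⧸ N) := by
      rw [QuotientGroup.mk_mul, (QuotientGroup.eq_one_iff n₂).mpr hn₂, one_mul]
    have hmk : ((⁅n₁ * h₁, n₂ * h₂⁆ : G) : G ⧸ N) =
        ⁅((n₁ * h₁ : G) : G ⧸ N), ((n₂ * h₂ : G) : G ⧸ N)⁆ := by
      simp [commutatorElement_def]
    rw [hmk, e1, e2, commutatorElement_eq_one_iff_commute]
    show (h₁ : G ⧸ N) * h₂ = h₂ * h₁
    rw [← QuotientGroup.mk_mul, hc h₁ hh₁ h₂ hh₂, QuotientGroup.mk_mul]
  -- irreducibility of N under H
  have hirr : ∀ L : Subgroup G, L ≤ N → L ≠ ⊥ → H ≤ Subgroup.normalizer (L : Set G) →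
      L = N := by
    intro L hLN hLb hHL
    have hLH : L ⊓ H = ⊥ := by rw [eq_bot_iff, ← hdisj]; exact inf_le_inf_right H hLN
    have hperm : MulPerm L H := by
      intro x hx c hc'
      refine ⟨c * x * c⁻¹, ?_, c, hc', by group⟩
      exact (Subgroup.mem_normalizer_iff.mp (hHL hc') x).mp hx
    have hset := coe_sup_of_mulPerm hperm
    have htop : L ⊔ H = ⊤ := by
      have h1 : H < L ⊔ H := by
        refine lt_of_le_of_ne le_sup_right ?_
        intro h
        have h2 : L ≤ H := by rw [h]; exact le_sup_left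
        apply hLb
        rw [eq_bot_iff, ← hLH]; exact le_inf le_rfl h2
      exact hmax.2 _ h1
    have h1 := card_mul_set L H
    rw [← hset, htop, hLH] at h1
    have h2 : Nat.card ((⊤ : Subgroup G) : Set G) = Nat.card G := by
      rw [Subgroup.coe_top]; exact Nat.card_congr (Equiv.Set.univ G)
    rw [h2, Subgroup.card_bot, mul_one, ← hcardG] at h1
    have h3 : Nat.card N = Nat.card L := Nat.eq_of_mul_eq_mul_right Nat.card_pos h1
    exact Subgroup.eq_of_le_of_card_ge hLN (le_of_eq h3)
  -- N is a p-group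
  have hNb : N ≠ ⊥ := by
    intro h
    rw [h, bot_sup_eq] at hsup
    exact hH.2.1 hsup
  have hNcard : 1 < Nat.card N := (Subgroup.one_lt_card_iff_ne_bot N).mpr hNb
  obtain ⟨p, hp, hpd⟩ := Nat.exists_prime_and_dvd hNcard.ne'
  haveI : Fact p.Prime := ⟨hp⟩
  obtain ⟨P⟩ : Nonempty (Sylow p ↥N) := inferInstance
  obtain ⟨P', hP'def⟩ : ∃ P' : Subgroup G, P' = (P : Subgroup ↥N).map N.subtype := ⟨_, rfl⟩
  obtain ⟨M, hMdef⟩ : ∃ M : Subgroup G, M = Subgroup.normalizer (P' : Set G) := ⟨_, rfl⟩
  have hfrat : M ⊔ N = ⊤ := by rw [hMdef, hP'def]; exact Sylow.normalizer_sup_eq_top P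
  have hP'N : P' ≤ N := by rw [hP'def]; exact Subgroup.map_subtype_le _
  have hP'b : P' ≠ ⊥ := by
    rw [hP'def]
    intro h
    have h1 := (Subgroup.map_eq_bot_iff_of_injective _ N.subtype_injective).mp h
    exact P.ne_bot_of_dvd_card hpd h1
  have hP'card : ∃ k, Nat.card P' = p ^ k := by
    obtain ⟨k, hk⟩ := P.isPGroup'.exists_card_eq
    exact ⟨k, by rw [hP'def, Subgroup.card_map_of_injective N.subtype_injective]; exact hk⟩
  have hidxNM : (N.subgroupOf M).index = Nat.card H := by
    have h1 : (N.subgroupOf M).index = N.relIndex M := rfl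
    rw [h1, ← Subgroup.relIndex_sup_right M N, hfrat, Subgroup.relIndex_top_right]
    have h3 := Subgroup.card_mul_index N
    rw [← hcardG] at h3
    exact Nat.eq_of_mul_eq_mul_left Nat.card_pos h3
  have hcopM : (Nat.card (N.subgroupOf M)).Coprime (N.subgroupOf M).index := by
    rw [hidxNM]
    exact Nat.Coprime.coprime_dvd_left
      (Subgroup.card_comap_dvd_of_injective N M.subtype M.subtype_injective) hcop
  obtain ⟨C, hC⟩ := Subgroup.exists_right_complement'_of_coprime hcopM
  obtain ⟨H₁, hH₁def⟩ : ∃ H₁ : Subgroup G, H₁ = C.map M.subtype := ⟨_, rfl⟩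
  have hH₁card : Nat.card H₁ = Nat.card H := by
    rw [hH₁def, Subgroup.card_map_of_injective M.subtype_injective, ← hidxNM]
    have h1 := hC.card_mul_card
    have h2 := Subgroup.card_mul_index (N.subgroupOf M)
    rw [← h2] at h1
    exact Nat.eq_of_mul_eq_mul_left Nat.card_pos h1
  have hH₁M : H₁ ≤ M := by rw [hH₁def]; exact Subgroup.map_subtype_le _
  have hH₁N : ∀ x ∈ H₁, x ∈ N → x = 1 := by
    intro x hx hxN
    rw [hH₁def] at hx
    obtain ⟨c, hc', rfl⟩ := hx
    have h1 : c ∈ N.subgroupOf M ⊓ C := ⟨Subgroup.mem_subgroupOf.mpr hxN, hc'⟩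
    rw [disjoint_iff.mp hC.disjoint, Subgroup.mem_bot] at h1
    rw [h1]; rfl
  have hH₁c : ∀ x ∈ H₁, ∀ y ∈ H₁, x * y = y * x := by
    intro x hx y hy
    have h1 : ⁅x, y⁆ ∈ N := hcomN (by
      rw [commutator_def]
      exact Subgroup.commutator_mem_commutator (Subgroup.mem_top _) (Subgroup.mem_top _))
    have h2 : ⁅x, y⁆ ∈ H₁ := by
      rw [commutatorElement_def]
      exact H₁.mul_mem (H₁.mul_mem (H₁.mul_mem hx hy) (H₁.inv_mem hx)) (H₁.inv_mem hy)
    have h3 := hH₁N _ h2 h1
    rw [commutatorElement_eq_one_iff_commute] at h3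
    exact h3
  obtain ⟨x, hx, hx1⟩ : ∃ x ∈ H₁, x ≠ 1 := by
    by_contra h
    push_neg at h
    have h1 : H₁ = ⊥ := (Subgroup.eq_bot_iff_forall H₁).mpr h
    rw [h1, Subgroup.card_bot] at hH₁card
    omega
  have hxN : x ∉ N := fun h => hx1 (hH₁N x hx h)
  obtain ⟨g, hg⟩ : ∃ g : G, x ∈ MulAut.conj g • H := by
    by_contra h
    push_neg at h
    apply hxN
    have h1 : x ∈ (N : Set G) := by rw [hNset]; exact Or.inr h
    exact h1
  have hH₁g : H₁ ≤ MulAut.conj g • H := by
    intro y hy
    rw [mem_conj_smul_iff] at hg ⊢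
    by_contra hyH
    have h1 := hH.2.2 _ hyH
    have h2 : g⁻¹ * x * g ∈ H ⊓ MulAut.conj (g⁻¹ * y * g) • H := by
      refine Subgroup.mem_inf.mpr ⟨hg, ?_⟩
      rw [mem_conj_smul_iff]
      have h3 : (g⁻¹ * y * g)⁻¹ * (g⁻¹ * x * g) * (g⁻¹ * y * g) = g⁻¹ * (y⁻¹ * x * y) * g := by
        group
      have h4 : y⁻¹ * x * y = x := by
        have h5 := hH₁c x hx y hy
        rw [mul_assoc, h5, ← mul_assoc, inv_mul_cancel, one_mul]
      rw [h3, h4]; exact hg
    rw [h1, Subgroup.mem_bot] at h2
    apply hx1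
    have h5 : x = g * (g⁻¹ * x * g) * g⁻¹ := by group
    rw [h5, h2]; group
  have hH₁eq : H₁ = MulAut.conj g • H := by
    apply Subgroup.eq_of_le_of_card_ge hH₁g
    rw [hH₁card]
    exact le_of_eq (Nat.card_congr (Subgroup.equivSMul (MulAut.conj g) H).toEquiv.symm)
  obtain ⟨L, hLdef⟩ : ∃ L : Subgroup G, L = MulAut.conj g⁻¹ • P' := ⟨_, rfl⟩
  have hLN : L ≤ N := by
    rw [hLdef, ← Subgroup.Normal.conj_smul_eq_self g⁻¹ N]
    exact Subgroup.pointwise_smul_le_pointwise_smul_iff.mpr hP'N
  have hLcard : Nat.card L = Nat.card P' := by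
    rw [hLdef]; exact Nat.card_congr (Subgroup.equivSMul (MulAut.conj g⁻¹) P').toEquiv.symm
  have hLb : L ≠ ⊥ := by
    intro h
    rw [h, Subgroup.card_bot] at hLcard
    exact hP'b (Subgroup.card_eq_one.mp hLcard.symm)
  have hHL : H ≤ Subgroup.normalizer (L : Set G) := by
    rw [hLdef, ← conj_smul_normalizer, ← hMdef]
    have h1 : MulAut.conj g • H ≤ M := by rw [← hH₁eq]; exact hH₁M
    have h2 := (Subgroup.pointwise_smul_le_pointwise_smul_iff (a := MulAut.conj g⁻¹)).mpr h1
    rw [conj_smul_conj_smul, inv_mul_cancel, map_one, one_smul] at h2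
    exact h2
  have hLeq := hirr L hLN hLb hHL
  have hNp : IsPGroup p ↥N := by
    obtain ⟨k, hk⟩ := hP'card
    apply IsPGroup.of_card (n := k)
    rw [← hLeq, hLcard, hk]
  -- N is commutative
  have hNc' : ∀ x ∈ N, ∀ y ∈ N, x * y = y * x := by
    haveI : Nontrivial ↥N := (Subgroup.nontrivial_iff_ne_bot N).mpr hNb
    haveI := hNp.center_nontrivial
    obtain ⟨Zc, hZcdef⟩ : ∃ Zc : Subgroup G, Zc = (Subgroup.center ↥N).map N.subtype := ⟨_, rfl⟩
    have hZn : Zc.Normal := by rw [hZcdef]; exact ConjAct.normal_of_characteristic_of_normal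
    have hZN : Zc ≤ N := by rw [hZcdef]; exact Subgroup.map_subtype_le _
    have hZb : Zc ≠ ⊥ := by
      rw [hZcdef]
      intro h
      have h1 := (Subgroup.map_eq_bot_iff_of_injective _ N.subtype_injective).mp h
      exact (Subgroup.nontrivial_iff_ne_bot _).mp inferInstance h1
    have hZeq := hirr Zc hZN hZb (by rw [Subgroup.normalizer_eq_top_iff.mpr hZn]; exact le_top)
    intro x hx y hy
    rw [← hZeq, hZcdef] at hx
    obtain ⟨z, hz, rfl⟩ := hx
    have h1 := Subgroup.mem_center_iff.mp hz ⟨y, hy⟩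
    have h2 := congrArg Subtype.val h1
    exact h2.symm
  exact ds2_bot N hcomN hNc'

/-- If a finite group has a maximal subgroup that is abelian, then the third term of its derived series is trivial (so the group is solvable of derived length at most three). -/
theorem result {G : Type*} [Group G] [Finite G] (A : Subgroup G) (hA : IsCoatom A) [IsMulCommutative A] : derivedSeries G 3 = ⊥ := by
  by_cases hAn : A.Normal
  · have h1 := Cfsg.Agent.S0586.comm_le_of_normal_coatom A hAn hA
    have h2 := ds2_bot A h1 (fun x hx y hy => setLike_mul_comm hx hy)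
    show derivedSeries G (2 + 1) = ⊥
    rw [derivedSeries_succ, h2]
    exact Subgroup.commutator_bot_left _
  · have cA : ∀ x ∈ A, ∀ y ∈ A, x * y = y * x := fun x hx y hy => setLike_mul_comm hx hy
    have hZA : Subgroup.center G ≤ A := by
      by_contra h
      apply hAn
      have htop : A ⊔ Subgroup.center G = ⊤ :=
        hA.2 _ (lt_of_le_of_ne le_sup_left (fun h' => h (le_sup_right.trans h'.ge)))
      refine ⟨fun a ha g => ?_⟩
      have hg : g ∈ A ⊔ Subgroup.center G := htop ▸ Subgroup.mem_top g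
      rw [Subgroup.mem_sup_of_normal_right] at hg
      obtain ⟨y, hy, z, hz, rfl⟩ := hg
      have h1 : y * z * a * (y * z)⁻¹ = y * a * y⁻¹ := by
        have h2 := Subgroup.mem_center_iff.mp hz a
        calc y * z * a * (y * z)⁻¹ = y * (z * a) * z⁻¹ * y⁻¹ := by group
          _ = y * (a * z) * z⁻¹ * y⁻¹ := by rw [h2]
          _ = y * a * y⁻¹ := by group
      rw [h1]; exact A.mul_mem (A.mul_mem hy ha) (A.inv_mem hy)
    have hmal : ∀ g : G, g ∉ A → ∀ x ∈ A, g⁻¹ * x * g ∈ A → x ∈ Subgroup.center G := by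
      intro g hg x hx hxg
      have hne : ¬ (MulAut.conj g • A ≤ A) := by
        intro hle
        have heq : MulAut.conj g • A = A := Subgroup.eq_of_le_of_card_ge hle
          (le_of_eq (Nat.card_congr (Subgroup.equivSMul (MulAut.conj g) A).toEquiv))
        have hgN : g ∈ Subgroup.normalizer (A : Set G) := by
          rw [Subgroup.mem_normalizer_iff]
          intro h
          constructor
          · intro hh
            have h1 := Cfsg.Agent.Lib.Helper13.conj_mem_conj_smul g hh
            rw [heq] at h1; exact h1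
          · intro hh
            rw [← heq, Cfsg.Agent.Lib.Helper13.mem_conj_smul_iff] at hh
            have h1 : g⁻¹ * (g * h * g⁻¹) * g = h := by group
            rw [h1] at hh; exact hh
        have h2 : A < Subgroup.normalizer (A : Set G) :=
          lt_of_le_of_ne Subgroup.le_normalizer (fun h' => hg (h'.ge hgN))
        exact hAn (Subgroup.normalizer_eq_top_iff.mp (hA.2 _ h2))
      have htop : A ⊔ MulAut.conj g • A = ⊤ :=
        hA.2 _ (lt_of_le_of_ne le_sup_left (fun h' => hne (le_sup_right.trans h'.ge)))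
      have h1 : A ≤ Subgroup.centralizer ({x} : Set G) := by
        intro a ha
        rw [Subgroup.mem_centralizer_iff]
        intro y hy
        rw [Set.mem_singleton_iff] at hy
        rw [hy]; exact cA x hx a ha
      have h2 : MulAut.conj g • A ≤ Subgroup.centralizer ({x} : Set G) := by
        intro a ha
        rw [Cfsg.Agent.Lib.Helper13.mem_conj_smul_iff] at ha
        rw [Subgroup.mem_centralizer_iff]
        intro y hy
        rw [Set.mem_singleton_iff] at hy
        rw [hy]
        have h3 := cA _ hxg _ ha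
        calc x * a = g * ((g⁻¹ * x * g) * (g⁻¹ * a * g)) * g⁻¹ := by group
          _ = g * ((g⁻¹ * a * g) * (g⁻¹ * x * g)) * g⁻¹ := by rw [h3]
          _ = a * x := by group
      have h3 : (⊤ : Subgroup G) ≤ Subgroup.centralizer ({x} : Set G) := by
        rw [← htop]; exact sup_le h1 h2
      rw [Subgroup.mem_center_iff]
      intro y
      have h4 := h3 (Subgroup.mem_top y)
      rw [Subgroup.mem_centralizer_iff] at h4
      exact (h4 x rfl).symm
    obtain ⟨Aq, hAqdef⟩ : ∃ Aq : Subgroup (G ⧸ Subgroup.center G),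
        Aq = A.map (QuotientGroup.mk' (Subgroup.center G)) := ⟨_, rfl⟩
    have hmemAq : ∀ g : G, (QuotientGroup.mk g : G ⧸ Subgroup.center G) ∈ Aq ↔ g ∈ A := by
      intro g
      rw [hAqdef]
      constructor
      · rintro ⟨a, ha, hag⟩
        have h1 : a⁻¹ * g ∈ Subgroup.center G := QuotientGroup.eq.mp hag
        have h2 : g = a * (a⁻¹ * g) := by group
        rw [h2]; exact A.mul_mem ha (hZA h1)
      · intro hg; exact Subgroup.mem_map_of_mem _ hg
    have hfrob : Cfsg.IsFrobeniusComplement Aq := by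
      refine ⟨?_, ?_, ?_⟩
      · intro h
        apply hAn
        have h1 : A ≤ Subgroup.center G := by
          intro a ha
          have h2 : (QuotientGroup.mk a : G ⧸ Subgroup.center G) ∈ Aq := (hmemAq a).mpr ha
          rw [h, Subgroup.mem_bot] at h2
          exact (QuotientGroup.eq_one_iff a).mp h2
        have h3 : A = Subgroup.center G := le_antisymm h1 hZA
        rw [h3]; infer_instance
      · intro h
        apply hA.1
        rw [eq_top_iff]
        intro g _
        rw [← hmemAq, h]; exact Subgroup.mem_top _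
      · intro gq hgq
        obtain ⟨g, rfl⟩ := QuotientGroup.mk_surjective gq
        have hg : g ∉ A := fun h => hgq ((hmemAq g).mpr h)
        rw [eq_bot_iff]
        intro xq hxq
        obtain ⟨x, rfl⟩ := QuotientGroup.mk_surjective xq
        have h1 : x ∈ A := (hmemAq x).mp (Subgroup.mem_inf.mp hxq).1
        have h2 : g⁻¹ * x * g ∈ A := by
          have h3 := (Subgroup.mem_inf.mp hxq).2
          rw [Cfsg.Agent.Lib.Helper13.mem_conj_smul_iff] at h3
          exact (hmemAq _).mp h3
        rw [Subgroup.mem_bot, QuotientGroup.eq_one_iff]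
        exact hmal g hg x h1 h2
    have hcoat : IsCoatom Aq := by
      refine ⟨hfrob.2.1, ?_⟩
      intro Bq hBq
      obtain ⟨bq, hbqB, hbqA⟩ := SetLike.exists_of_lt hBq
      obtain ⟨b, rfl⟩ := QuotientGroup.mk_surjective bq
      have hbA : b ∉ A := fun h => hbqA ((hmemAq b).mpr h)
      have h1 : A < Bq.comap (QuotientGroup.mk' (Subgroup.center G)) := by
        refine lt_of_le_of_ne ?_ ?_
        · intro a ha
          exact hBq.le ((hmemAq a).mpr ha)
        · intro h
          apply hbA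
          rw [h]; exact hbqB
      have h2 := hA.2 _ h1
      rw [eq_top_iff]
      intro gq _
      obtain ⟨g, rfl⟩ := QuotientGroup.mk_surjective gq
      have h3 : g ∈ Bq.comap (QuotientGroup.mk' (Subgroup.center G)) := by
        rw [h2]; exact Subgroup.mem_top _
      exact h3
    have hcomm : ∀ x ∈ Aq, ∀ y ∈ Aq, x * y = y * x := by
      rw [hAqdef]
      rintro _ ⟨a, ha, rfl⟩ _ ⟨b, hb, rfl⟩
      rw [← map_mul, ← map_mul, cA a ha b hb]
    have hds := frob_ds2 Aq hfrob hcoat hcomm
    have h2 : derivedSeries G 2 ≤ Subgroup.center G := by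
      have h3 := map_derivedSeries_le_derivedSeries (QuotientGroup.mk' (Subgroup.center G)) 2
      rw [hds, le_bot_iff, Subgroup.map_eq_bot_iff, QuotientGroup.ker_mk'] at h3
      exact h3
    show derivedSeries G (2 + 1) = ⊥
    rw [derivedSeries_succ, eq_bot_iff, Subgroup.commutator_le]
    intro a ha b hb
    rw [Subgroup.mem_bot, commutatorElement_eq_one_iff_commute]
    exact (Subgroup.mem_center_iff.mp (h2 ha) b).symm

end Cfsg.Agent.S0556
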