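import Cfsg.Statements.S0563
import Mathlib
import Cfsg.Agent.Lib.Helper13.KW6

set_option autoImplicit false
open Pointwise
open Cfsg

namespace Cfsg.Agent.S0563

/-- If a finite group G is the product AB of two nilpotent subgroups of coprime orders, then G is solvable, and for every Sylow p-subgroup P of A and Sylow q-subgroup Q of B the product set PQ is a subgroup. -/
theorem result {G : Type*} [Group G] [Finite G] (A B : Subgroup G) (hA : Group.IsNilpotent A) (hB : Group.IsNilpotent B) (hcop : (Nat.card A).Coprime (Nat.card B)) (hAB : ∀ g : G, ∃ a ∈ A, ∃ b ∈ B, g = a * b) : Group.IsSolvable G ∧ ∀ (p q : ℕ) [Fact p.Prime] [Fact q.Prime] (P : Sylow p A) (Q : Sylow q B), ∃ S : Subgroup G, (S : Set G) = (((P : Subgroup A).map A.subtype : Subgroup G) : Set G) * (((Q : Subgroup B).map B.subtype : Subgroup G) : Set G) := by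
  have hsol : Group.IsSolvable G :=
    Cfsg.Agent.Lib.Helper13.kw_coprime_solvable A B hA hB hcop hAB
  refine ⟨hsol, ?_⟩
  intro p q _ _ P Q
  haveI := hsol
  have hcardG : Nat.card G = Nat.card A * Nat.card B := by
    have h1 := Cfsg.Agent.Lib.Helper13.card_mul_of_factorization A B hAB
    rw [(Subgroup.disjoint_of_coprime_natCard hcop).eq_bot, Subgroup.card_bot, mul_one] at h1
    exact h1
  have hAidx : A.index = Nat.card B := by
    have h1 := A.card_mul_index
    rw [hcardG] at h1
    exact Nat.eq_of_mul_eq_mul_left Nat.card_pos h1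
  have hBidx : B.index = Nat.card A := by
    have h1 := B.card_mul_index
    rw [hcardG, mul_comm] at h1
    exact Nat.eq_of_mul_eq_mul_right Nat.card_pos h1
  have hall : ∀ (H : Subgroup G) (_ : Group.IsNilpotent H) (m : ℕ), H.index = m →
      (Nat.card H).Coprime m → ∀ (t : ℕ) [Fact t.Prime] (T : Sylow t H),
      (((T : Subgroup H).map H.subtype).subgroupOf H).Normal ∧
      (Nat.card ((T : Subgroup H).map H.subtype)).Coprime
        ((T : Subgroup H).map H.subtype).index := by
    intro H hH m hidx hcopH t _ T
    have ht : t.Prime := Fact.out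
    constructor
    · have h1 : ((T : Subgroup H).map H.subtype).subgroupOf H = T := by
        unfold Subgroup.subgroupOf
        exact Subgroup.comap_map_eq_self_of_injective (Subgroup.subtype_injective H) _
      rw [h1]
      exact Sylow.normal_of_normalizerCondition Group.normalizerCondition_of_isNilpotent T
    · rw [Subgroup.card_map_of_injective (Subgroup.subtype_injective H),
        Subgroup.index_map_subtype, hidx, T.card_eq_multiplicity]
      by_cases htd : t ∣ Nat.card H
      · apply Nat.Coprime.pow_left
        rw [Nat.Prime.coprime_iff_not_dvd ht]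
        intro hd
        rcases (Nat.Prime.dvd_mul ht).mp hd with h2 | h2
        · exact T.not_dvd_index h2
        · exact ht.one_lt.ne' (Nat.eq_one_of_dvd_coprimes hcopH htd h2)
      · rw [Nat.factorization_eq_zero_of_not_dvd htd, pow_zero]
        exact Nat.coprime_one_left _
  obtain ⟨hPn, hPh⟩ := hall A hA (Nat.card B) hAidx hcop p P
  obtain ⟨hQn, hQh⟩ := hall B hB (Nat.card A) hBidx hcop.symm q Q
  obtain ⟨S, hS⟩ := Cfsg.Agent.S0561.result A B ((P : Subgroup A).map A.subtype)
    ((Q : Subgroup B).map B.subtype) hAB (Subgroup.map_subtype_le _) hPn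
    (Subgroup.map_subtype_le _) hQn hPh hQh 1 1
  rw [map_one, one_smul, one_smul] at hS
  exact ⟨S, hS⟩

end Cfsg.Agent.S0563
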