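import Cfsg.Statements.S0567
import Mathlib

set_option autoImplicit false
open Cfsg

namespace Cfsg.Agent.S0567

/-- A subgroup H of a group G is subnormal exactly when, for some m, the subgroup obtained from G by taking the commutator with H m times in succession is contained in H. -/
theorem result {G : Type*} [Group G] (H : Subgroup G) : H.IsSubnormal ↔ ∃ m : ℕ, (fun K : Subgroup G => ⁅K, H⁆)^[m] ⊤ ≤ H := by
  constructor
  · intro h
    induction h with
    | top => exact ⟨0, le_rfl⟩
    | step H K h_le hSubn hN ih =>
      obtain ⟨m, hm⟩ := ih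
      refine ⟨m + 1, ?_⟩
      have mono : ∀ j : ℕ, (fun L : Subgroup G => ⁅L, H⁆)^[j] ⊤ ≤ (fun L : Subgroup G => ⁅L, K⁆)^[j] ⊤ := by
        intro j
        induction j with
        | zero => exact le_rfl
        | succ j ihj =>
          rw [Function.iterate_succ_apply', Function.iterate_succ_apply']
          exact Subgroup.commutator_mono ihj h_le
      rw [Function.iterate_succ_apply']
      have hKH : ⁅K, H⁆ ≤ H :=
        Subgroup.le_normalizer_iff_commutator_le_right.mp
          ((Subgroup.normal_subgroupOf_iff_le_normalizer h_le).mp hN)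
      exact (Subgroup.commutator_mono ((mono m).trans hm) le_rfl).trans hKH
  · rintro ⟨m, hm⟩
    have key : ∀ i : ℕ, (H ⊔ (fun K : Subgroup G => ⁅K, H⁆)^[i] ⊤).IsSubnormal := by
      intro i
      induction i with
      | zero => simp
      | succ i ih =>
        have hsucc : (fun K : Subgroup G => ⁅K, H⁆)^[i+1] ⊤ =
            ⁅(fun K : Subgroup G => ⁅K, H⁆)^[i] ⊤, H⁆ := Function.iterate_succ_apply' _ _ _
        rw [hsucc]
        generalize (fun K : Subgroup G => ⁅K, H⁆)^[i] ⊤ = Ki at ih ⊢
        have hle : H ⊔ ⁅Ki, H⁆ ≤ H ⊔ Ki :=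
          sup_le le_sup_left ((Subgroup.commutator_le_sup Ki H).trans (by rw [sup_comm]))
        refine Subgroup.IsSubnormal.step _ _ hle ih ?_
        rw [Subgroup.normal_subgroupOf_iff_le_normalizer hle]
        apply sup_le
        · rw [Subgroup.le_normalizer_iff]
          intro h hh x hx
          have : H ⊔ ⁅Ki, H⁆ ≤ (H ⊔ ⁅Ki, H⁆).comap (MulAut.conj h).toMonoidHom := by
            apply sup_le
            · intro y hy
              rw [Subgroup.mem_comap]
              exact (le_sup_left : H ≤ H ⊔ ⁅Ki, H⁆) (H.mul_mem (H.mul_mem hh hy) (H.inv_mem hh))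
            · intro y hy
              rw [Subgroup.mem_comap]
              apply (le_sup_right : ⁅Ki, H⁆ ≤ H ⊔ ⁅Ki, H⁆)
              have := Subgroup.normalizer_commutator_ge_right Ki H hh
              exact (Subgroup.mem_normalizer_iff.mp this y).mp hy
          exact this hx
        · rw [Subgroup.le_normalizer_iff]
          intro k hk x hx
          have : H ⊔ ⁅Ki, H⁆ ≤ (H ⊔ ⁅Ki, H⁆).comap (MulAut.conj k).toMonoidHom := by
            apply sup_le
            · intro y hy
              rw [Subgroup.mem_comap]
              have hc : k * y * k⁻¹ * y⁻¹ ∈ ⁅Ki, H⁆ := Subgroup.commutator_mem_commutator hk hy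
              have e : (MulAut.conj k).toMonoidHom y = (k * y * k⁻¹ * y⁻¹) * y := by
                simp [MulAut.conj_apply]
              rw [e]
              exact mul_mem ((le_sup_right : ⁅Ki, H⁆ ≤ H ⊔ ⁅Ki, H⁆) hc)
                ((le_sup_left : H ≤ H ⊔ ⁅Ki, H⁆) hy)
            · intro y hy
              rw [Subgroup.mem_comap]
              apply (le_sup_right : ⁅Ki, H⁆ ≤ H ⊔ ⁅Ki, H⁆)
              have := Subgroup.normalizer_commutator_ge_left Ki H hk
              exact (Subgroup.mem_normalizer_iff.mp this y).mp hy
          exact this hx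
    have := key m
    rwa [sup_eq_left.mpr hm] at this

end Cfsg.Agent.S0567
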