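import Cfsg.Statements.S0568
import Mathlib
import Cfsg.Agent.Lib.Helper13.Avoid

set_option autoImplicit false
open Cfsg

namespace Cfsg.Agent.S0568

open scoped commutatorElement

/-- Let D be the system normalizer of a Hall complement system of a finite solvable group G, and let A < B be normal subgroups with no normal subgroup of G strictly between them (a chief factor). If G centralizes B modulo A then B ≤ A ⊔ D (D covers the factor); otherwise B ∩ D ≤ A (D avoids it). -/
theorem result {G : Type*} [Group G] [Finite G] [Group.IsSolvable G] (K : Nat.Primes → Subgroup G) (hK : Cfsg.IsComplementSystem K) (A B : Subgroup G) [A.Normal] [B.Normal] (hAB : A < B) (hchief : ∀ N : Subgroup G, N.Normal → A ≤ N → N ≤ B → N = A ∨ N = B) : (⁅B, (⊤ : Subgroup G)⁆ ≤ A → B ≤ A ⊔ Cfsg.systemNormalizer K) ∧ (¬ ⁅B, (⊤ : Subgroup G)⁆ ≤ A → B ⊓ Cfsg.systemNormalizer K ≤ A) := by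
  classical
  have hKb := Cfsg.Agent.Lib.Helper12.isComplementSystem_map_mk hK A
  have hDb := Cfsg.Agent.Lib.Helper12.systemNormalizer_map_mk hK A
  have hsurj := QuotientGroup.mk'_surjective A
  constructor
  · intro hcen b hb
    have hbc : (QuotientGroup.mk' A) b ∈ Subgroup.center (G ⧸ A) := by
      rw [Subgroup.mem_center_iff]
      intro y
      obtain ⟨g, rfl⟩ := hsurj y
      have h0 : ⁅b, g⁆ ∈ A := hcen (Subgroup.commutator_mem_commutator hb (Subgroup.mem_top g))
      have h1 : (QuotientGroup.mk' A) ⁅b, g⁆ = 1 := (QuotientGroup.eq_one_iff _).mpr h0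
      rw [commutatorElement_def, map_mul, map_mul, map_mul, map_inv, map_inv] at h1
      calc (QuotientGroup.mk' A) g * (QuotientGroup.mk' A) b
          = ((QuotientGroup.mk' A) b * (QuotientGroup.mk' A) g * ((QuotientGroup.mk' A) b)⁻¹ *
              ((QuotientGroup.mk' A) g)⁻¹)⁻¹ *
              ((QuotientGroup.mk' A) b * (QuotientGroup.mk' A) g) := by group
        _ = (QuotientGroup.mk' A) b * (QuotientGroup.mk' A) g := by rw [h1, inv_one, one_mul]
    have hbD := Cfsg.Agent.Lib.Helper13.center_le_systemNormalizer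
      (fun p => (K p).map (QuotientGroup.mk' A)) hbc
    rw [hDb] at hbD
    obtain ⟨d, hd, hdb⟩ := hbD
    have hda : d⁻¹ * b ∈ A := by
      rw [← QuotientGroup.eq_one_iff, ← QuotientGroup.mk'_apply, map_mul, map_inv, hdb,
        inv_mul_cancel]
    have hb' : b = d * (d⁻¹ * b) := by group
    rw [hb']
    exact Subgroup.mul_mem _ (Subgroup.mem_sup_right hd) (Subgroup.mem_sup_left hda)
  · intro hnc
    obtain ⟨Bb, hBb⟩ : ∃ Bb : Subgroup (G ⧸ A), Bb = B.map (QuotientGroup.mk' A) := ⟨_, rfl⟩
    haveI hBbn : Bb.Normal := by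
      rw [hBb]
      exact Subgroup.Normal.map inferInstance _ hsurj
    have hcomapBb : Bb.comap (QuotientGroup.mk' A) = B := by
      rw [hBb, Subgroup.comap_map_eq, QuotientGroup.ker_mk']
      exact sup_eq_left.mpr hAB.le
    have hBbne : Bb ≠ ⊥ := by
      intro h
      apply hAB.not_ge
      intro b hb
      have h1 : (QuotientGroup.mk' A) b ∈ Bb := by
        rw [hBb]
        exact Subgroup.mem_map_of_mem _ hb
      rw [h, Subgroup.mem_bot] at h1
      exact (QuotientGroup.eq_one_iff b).mp h1
    have hmin : ∀ N : Subgroup (G ⧸ A), N.Normal → N ≤ Bb → N = ⊥ ∨ N = Bb := by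
      intro N hNn hNle
      have h1 : A ≤ N.comap (QuotientGroup.mk' A) := by
        intro a ha
        rw [Subgroup.mem_comap]
        have : (QuotientGroup.mk' A) a = 1 := (QuotientGroup.eq_one_iff a).mpr ha
        rw [this]
        exact one_mem _
      have h2 : N.comap (QuotientGroup.mk' A) ≤ B := by
        rw [← hcomapBb]
        exact Subgroup.comap_mono hNle
      have h3 : (N.comap (QuotientGroup.mk' A)).map (QuotientGroup.mk' A) = N :=
        Subgroup.map_comap_eq_self_of_surjective hsurj N
      rcases hchief _ (hNn.comap _) h1 h2 with h | h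
      · left
        rw [← h3, h, Subgroup.map_eq_bot_iff, QuotientGroup.ker_mk']
      · right
        rw [← h3, h, hBb]
    have hncb : ¬ Bb ≤ Subgroup.center (G ⧸ A) := by
      intro h
      apply hnc
      rw [Subgroup.commutator_le]
      intro b hb g _
      have h1 : (QuotientGroup.mk' A) b ∈ Subgroup.center (G ⧸ A) := by
        apply h
        rw [hBb]
        exact Subgroup.mem_map_of_mem _ hb
      have h2 := Subgroup.mem_center_iff.mp h1 ((QuotientGroup.mk' A) g)
      rw [← QuotientGroup.eq_one_iff, ← QuotientGroup.mk'_apply, commutatorElement_def, map_mul,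
        map_mul, map_mul, map_inv, map_inv, ← h2]
      group
    have hav := Cfsg.Agent.Lib.Helper13.minimal_normal_inf_systemNormalizer Bb hBbne hmin hncb
      (fun p => (K p).map (QuotientGroup.mk' A)) hKb
    intro x hx
    obtain ⟨hx1, hx2⟩ := Subgroup.mem_inf.mp hx
    have h1 : (QuotientGroup.mk' A) x ∈ Bb ⊓ Cfsg.systemNormalizer
        (fun p => (K p).map (QuotientGroup.mk' A)) := by
      refine Subgroup.mem_inf.mpr ⟨?_, ?_⟩
      · rw [hBb]
        exact Subgroup.mem_map_of_mem _ hx1
      · rw [hDb]
        exact Subgroup.mem_map_of_mem _ hx2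
    rw [hav, Subgroup.mem_bot] at h1
    exact (QuotientGroup.eq_one_iff x).mp h1

end Cfsg.Agent.S0568
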