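import Cfsg.Statements.S0569
import Mathlib
import Cfsg.Agent.Lib.Helper13.CarterSys

set_option autoImplicit false
open Cfsg

namespace Cfsg.Agent.S0569

open scoped Pointwise

/-- In a finite solvable group: each nilpotent self-normalizing subgroup contains the system normalizer of some Hall complement system, and the system normalizer of any Hall complement system lies in some nilpotent self-normalizing subgroup. -/
theorem result {G : Type*} [Group G] [Finite G] [Group.IsSolvable G] : (∀ C : Subgroup G, Cfsg.IsCarterSubgroup C → ∃ K : Nat.Primes → Subgroup G, Cfsg.IsComplementSystem K ∧ Cfsg.systemNormalizer K ≤ C) ∧ ∀ K : Nat.Primes → Subgroup G, Cfsg.IsComplementSystem K → ∃ C : Subgroup G, Cfsg.IsCarterSubgroup C ∧ Cfsg.systemNormalizer K ≤ C := by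
  constructor
  · intro C hC
    exact Cfsg.Agent.Lib.Helper13.exists_system_le_carter (Nat.card G) C rfl hC
  · intro K hK
    obtain ⟨C0, hC0n, hC0s⟩ := (Cfsg.Agent.S0045.result (G := G)).1
    have hC0 : Cfsg.IsCarterSubgroup C0 := ⟨hC0n, hC0s⟩
    obtain ⟨K0, hK0, hD0⟩ :=
      Cfsg.Agent.Lib.Helper13.exists_system_le_carter (Nat.card G) C0 rfl hC0
    obtain ⟨g, hg⟩ := Cfsg.Agent.Lib.Helper12.exists_conj_complementSystem K0 K hK0 hK
    refine ⟨MulAut.conj g • C0, Cfsg.Agent.Lib.Helper13.isCarter_conj C0 g hC0, ?_⟩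
    have hKeq : K = fun p => MulAut.conj g • K0 p := funext (fun p => (hg p).symm)
    rw [hKeq, Cfsg.Agent.Lib.Helper13.systemNormalizer_conj]
    exact Subgroup.pointwise_smul_le_pointwise_smul_iff.mpr hD0

end Cfsg.Agent.S0569
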