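import Cfsg.Statements.S0570
import Mathlib
import Cfsg.Agent.Lib.Helper13.SysNorm
import Cfsg.Agent.S0045

set_option autoImplicit false
open Cfsg

namespace Cfsg.Agent.S0570

open scoped Pointwise

/-- Let G be a finite group with a nilpotent normal subgroup F such that G modulo F is nilpotent (nilpotent length at most two). Then a subgroup of G is a Carter subgroup if and only if it is the system normalizer of some Hall complement system. -/
theorem result {G : Type*} [Group G] [Finite G] (F : Subgroup G) [F.Normal] (hF : Group.IsNilpotent F) (hGF : Group.IsNilpotent (G ⧸ F)) (C : Subgroup G) : Cfsg.IsCarterSubgroup C ↔ ∃ K : Nat.Primes → Subgroup G, Cfsg.IsComplementSystem K ∧ C = Cfsg.systemNormalizer K := by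
  haveI : Group.IsNilpotent F := hF
  haveI : Group.IsNilpotent (G ⧸ F) := hGF
  haveI : Group.IsSolvable G := Group.isSolvable_of_ker_le_range F.subtype (QuotientGroup.mk' F)
    (by rw [QuotientGroup.ker_mk', Subgroup.range_subtype])
  constructor
  · intro hC
    obtain ⟨K0, hK0⟩ := Cfsg.Agent.Lib.Helper13.exists_complementSystem (G := G)
    have hcar := Cfsg.Agent.Lib.Helper13.normalizer_systemNormalizer_of_nilpotent_by_nilpotent
      F hF hGF K0 hK0
    have hnil := Cfsg.Agent.Lib.Helper12.isNilpotent_systemNormalizer K0 hK0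
    obtain ⟨g, hg⟩ := (Cfsg.Agent.S0045.result (G := G)).2 (Cfsg.systemNormalizer K0) C hnil hcar
      hC.1 hC.2
    refine ⟨fun p => MulAut.conj g • K0 p,
      Cfsg.Agent.Lib.Helper13.isComplementSystem_conj hK0 g, ?_⟩
    rw [Cfsg.Agent.Lib.Helper13.systemNormalizer_conj, hg]
  · rintro ⟨K, hK, rfl⟩
    exact ⟨Cfsg.Agent.Lib.Helper12.isNilpotent_systemNormalizer K hK,
      Cfsg.Agent.Lib.Helper13.normalizer_systemNormalizer_of_nilpotent_by_nilpotent F hF hGF K hK⟩

end Cfsg.Agent.S0570
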