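import Cfsg.Statements.S0573
import Mathlib
import Cfsg.Agent.S0047
import Cfsg.Agent.Lib.Helper13.Basic

set_option autoImplicit false
open Cfsg

namespace Cfsg.Agent.S0573

open scoped commutatorElement

theorem key {G : Type*} [Group G] [Finite G] [Nontrivial G] (A B : Subgroup G)
    [IsMulCommutative A] [IsMulCommutative B] (hAB : ∀ g : G, ∃ a ∈ A, ∃ b ∈ B, g = a * b)
    (hA : ∀ K : Subgroup G, K.Normal → K ≤ A → K = ⊥)
    (hB : ∀ K : Subgroup G, K.Normal → K ≤ B → K = ⊥) :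
    ∃ (C K : Subgroup G), K.Normal ∧ K ≠ ⊥ ∧ K ≠ ⊤ ∧ K ≤ C ∧
      (∀ x y : G, x * y * x⁻¹ * y⁻¹ ∈ C) ∧
      (∀ a ∈ A, a ∈ C → a ∈ K) ∧ (∀ b ∈ B, b ∈ C → b ∈ K) ∧
      (∀ g, g ∉ C → (∀ c ∈ C, g * c * g⁻¹ * c⁻¹ ∈ K) → False) := by
  have cA : ∀ x ∈ A, ∀ y ∈ A, x * y = y * x := fun x hx y hy => setLike_mul_comm hx hy
  have cB : ∀ x ∈ B, ∀ y ∈ B, x * y = y * x := fun x hx y hy => setLike_mul_comm hx hy
  -- Step 1: the center is trivial
  have hAc : A ⊓ Subgroup.center G = ⊥ := by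
    apply hA _ _ inf_le_left
    refine ⟨fun n hn g => ?_⟩
    have h1 := Subgroup.mem_center_iff.mp hn.2 g
    rw [h1, mul_inv_cancel_right]
    exact hn
  have hBc : B ⊓ Subgroup.center G = ⊥ := by
    apply hB _ _ inf_le_left
    refine ⟨fun n hn g => ?_⟩
    have h1 := Subgroup.mem_center_iff.mp hn.2 g
    rw [h1, mul_inv_cancel_right]
    exact hn
  have hZ : ∀ z : G, (∀ g, g * z = z * g) → z = 1 := by
    intro z hz
    obtain ⟨a, ha, b, hb, rfl⟩ := hAB z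
    have hac : a ∈ Subgroup.center G := by
      rw [Subgroup.mem_center_iff]
      intro g
      obtain ⟨a', ha', b', hb', rfl⟩ := hAB g
      have h1 : b' * a = a * b' := by
        have h2 := hz b'
        have h3 : b * b' = b' * b := cB b hb b' hb'
        calc b' * a = b' * (a * b) * b⁻¹ := by group
          _ = a * b * b' * b⁻¹ := by rw [h2]
          _ = a * (b * b') * b⁻¹ := by group
          _ = a * (b' * b) * b⁻¹ := by rw [h3]
          _ = a * b' := by group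
      calc a' * b' * a = a' * (b' * a) := by group
        _ = a' * (a * b') := by rw [h1]
        _ = (a' * a) * b' := by group
        _ = (a * a') * b' := by rw [cA a' ha' a ha]
        _ = a * (a' * b') := by group
    have ha1 : a = 1 := by
      have h : a ∈ A ⊓ Subgroup.center G := ⟨ha, hac⟩
      rw [hAc] at h
      exact Subgroup.mem_bot.mp h
    subst ha1
    have hbc : b ∈ Subgroup.center G := by
      rw [Subgroup.mem_center_iff]
      intro g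
      have h := hz g
      rw [one_mul] at h
      exact h
    have h : b ∈ B ⊓ Subgroup.center G := ⟨hb, hbc⟩
    rw [hBc] at h
    rw [one_mul]
    exact Subgroup.mem_bot.mp h
  have hint : ∀ x, x ∈ A → x ∈ B → x = 1 := by
    intro x hxA hxB
    apply hZ
    intro g
    obtain ⟨a', ha', b', hb', rfl⟩ := hAB g
    calc a' * b' * x = a' * (b' * x) := by group
      _ = a' * (x * b') := by rw [cB b' hb' x hxB]
      _ = (a' * x) * b' := by group
      _ = (x * a') * b' := by rw [cA a' ha' x hxA]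
      _ = x * (a' * b') := by group
  have hconj : ∀ a ∈ A, ∀ g : G, g * a * g⁻¹ ∈ B → a = 1 := by
    intro a ha g hg
    obtain ⟨a₃, ha₃, b₃, hb₃, h3⟩ := hAB g⁻¹
    have hg' : g = b₃⁻¹ * a₃⁻¹ := by
      have h : g = (g⁻¹)⁻¹ := by simp
      rw [h, h3]; group
    have h4 : g * a * g⁻¹ = b₃⁻¹ * a * b₃ := by
      rw [hg']
      calc b₃⁻¹ * a₃⁻¹ * a * (b₃⁻¹ * a₃⁻¹)⁻¹ = b₃⁻¹ * (a₃⁻¹ * a) * a₃ * b₃ := by group
        _ = b₃⁻¹ * (a * a₃⁻¹) * a₃ * b₃ := by rw [cA a₃⁻¹ (A.inv_mem ha₃) a ha]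
        _ = b₃⁻¹ * a * b₃ := by group
    rw [h4] at hg
    have h5 : a ∈ B := by
      have h : a = b₃ * (b₃⁻¹ * a * b₃) * b₃⁻¹ := by group
      rw [h]
      exact B.mul_mem (B.mul_mem hb₃ hg) (B.inv_mem hb₃)
    exact hint a ha h5
  -- Step 2: the derived subgroup is nontrivial and abelian
  have hG' : commutator G ≠ ⊥ := by
    intro h
    obtain ⟨x, hx⟩ := exists_ne (1 : G)
    apply hx
    apply hZ
    intro g
    have h1 : ⁅g, x⁆ ∈ commutator G := by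
      rw [commutator_def]
      exact Subgroup.commutator_mem_commutator (Subgroup.mem_top g) (Subgroup.mem_top x)
    rw [h, Subgroup.mem_bot, commutatorElement_eq_one_iff_commute] at h1
    exact h1
  obtain ⟨N, hNle, hNn, hNb, hNmin⟩ :=
    Cfsg.Agent.Lib.Helper13.exists_minimal_normal_le (commutator G) inferInstance hG'
  have hcomm : ∀ x ∈ commutator G, ∀ y ∈ commutator G, x * y = y * x := by
    intro x hx y hy
    have h1 := Cfsg.Agent.S0047.commutator_le_AB A B hAB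
    haveI := Cfsg.Agent.S0047.comm_AB A B hAB
    exact setLike_mul_comm (h1 hx) (h1 hy)
  have cN : ∀ x ∈ N, ∀ y ∈ N, x * y = y * x :=
    fun x hx y hy => hcomm x (hNle hx) y (hNle hy)
  haveI := hNn
  obtain ⟨C, hCdef⟩ : ∃ C : Subgroup G, C = Subgroup.centralizer (N : Set G) := ⟨_, rfl⟩
  have hCmem : ∀ g, g ∈ C ↔ ∀ n ∈ N, n * g = g * n := by
    intro g; rw [hCdef, Subgroup.mem_centralizer_iff]; rfl
  have hG'C : ∀ x y : G, x * y * x⁻¹ * y⁻¹ ∈ C := by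
    intro x y
    rw [hCmem]
    intro n hn
    have h1 : x * y * x⁻¹ * y⁻¹ ∈ commutator G := by
      have h : x * y * x⁻¹ * y⁻¹ = ⁅x, y⁆ := rfl
      rw [h, commutator_def]
      exact Subgroup.commutator_mem_commutator (Subgroup.mem_top x) (Subgroup.mem_top y)
    exact hcomm n (hNle hn) _ h1
  have hNC : N ≤ C := by
    intro n hn
    rw [hCmem]
    intro m hm
    exact cN m hm n hn
  -- Step 4: every element outside C acts fixed-point-freely on N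
  have hfpf : ∀ g, g ∉ C → ∀ n ∈ N, n * g = g * n → n = 1 := by
    intro g hg n hn hng
    have hSn : (N ⊓ Subgroup.centralizer ({g} : Set G)).Normal := by
      refine ⟨fun m hm h => ?_⟩
      refine Subgroup.mem_inf.mpr ⟨hNn.conj_mem m (Subgroup.mem_inf.mp hm).1 h, ?_⟩
      rw [Subgroup.mem_centralizer_iff]
      intro y hy
      rw [Set.mem_singleton_iff] at hy
      subst hy
      have hm2 : y * m = m * y := by
        have h2 := (Subgroup.mem_inf.mp hm).2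
        rw [Subgroup.mem_centralizer_iff] at h2
        exact h2 y rfl
      have hc0 : m * (y⁻¹ * h⁻¹ * y⁻¹⁻¹ * h⁻¹⁻¹) = (y⁻¹ * h⁻¹ * y⁻¹⁻¹ * h⁻¹⁻¹) * m :=
        (hCmem _).mp (hG'C y⁻¹ h⁻¹) m (Subgroup.mem_inf.mp hm).1
      have hm1 : m ∈ N := (Subgroup.mem_inf.mp hm).1
      calc y * (h * m * h⁻¹) = h * y * ((y⁻¹ * h⁻¹ * y⁻¹⁻¹ * h⁻¹⁻¹) * m) * h⁻¹ := by group
        _ = h * y * (m * (y⁻¹ * h⁻¹ * y⁻¹⁻¹ * h⁻¹⁻¹)) * h⁻¹ := by rw [hc0]
        _ = h * (y * m) * (y⁻¹ * h⁻¹ * y⁻¹⁻¹ * h⁻¹⁻¹) * h⁻¹ := by group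
        _ = h * (m * y) * (y⁻¹ * h⁻¹ * y⁻¹⁻¹ * h⁻¹⁻¹) * h⁻¹ := by rw [hm2]
        _ = h * m * h⁻¹ * y := by group
    rcases hNmin _ hSn inf_le_left with h | h
    · have h1 : n ∈ N ⊓ Subgroup.centralizer ({g} : Set G) := by
        refine Subgroup.mem_inf.mpr ⟨hn, ?_⟩
        rw [Subgroup.mem_centralizer_iff]
        intro y hy
        rw [Set.mem_singleton_iff] at hy
        subst hy
        exact hng.symm
      rw [h] at h1
      exact Subgroup.mem_bot.mp h1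
    · exfalso
      apply hg
      rw [hCmem]
      intro n' hn'
      have h1 : n' ∈ N ⊓ Subgroup.centralizer ({g} : Set G) := by rw [h]; exact hn'
      have h2 := (Subgroup.mem_inf.mp h1).2
      rw [Subgroup.mem_centralizer_iff] at h2
      exact (h2 g rfl).symm
  -- Step 5: neither A nor B centralizes N
  have hA' : ∃ a' ∈ A, a' ∉ C := by
    by_contra hcon
    push_neg at hcon
    apply hNb
    apply hA N hNn
    intro n hn
    obtain ⟨a, ha, b, hb, hnab⟩ := hAB n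
    have hb1 : b = 1 := by
      apply hZ
      intro g
      obtain ⟨a'', ha'', b'', hb'', rfl⟩ := hAB g
      have h1 : a'' * b = b * a'' := by
        have h2 : b = a⁻¹ * n := by rw [hnab]; group
        have h3 : n * a'' = a'' * n := (hCmem a'').mp (hcon a'' ha'') n hn
        rw [h2]
        calc a'' * (a⁻¹ * n) = (a'' * a⁻¹) * n := by group
          _ = (a⁻¹ * a'') * n := by rw [cA a'' ha'' a⁻¹ (A.inv_mem ha)]
          _ = a⁻¹ * (a'' * n) := by group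
          _ = a⁻¹ * (n * a'') := by rw [h3]
          _ = a⁻¹ * n * a'' := by group
      calc a'' * b'' * b = a'' * (b'' * b) := by group
        _ = a'' * (b * b'') := by rw [cB b'' hb'' b hb]
        _ = (a'' * b) * b'' := by group
        _ = (b * a'') * b'' := by rw [h1]
        _ = b * (a'' * b'') := by group
    rw [hnab, hb1, mul_one]; exact ha
  have hB' : ∃ b' ∈ B, b' ∉ C := by
    by_contra hcon
    push_neg at hcon
    apply hNb
    apply hB N hNn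
    intro n hn
    obtain ⟨a, ha, b, hb, hnab⟩ := hAB n
    have ha1 : a = 1 := by
      apply hZ
      intro g
      obtain ⟨a'', ha'', b'', hb'', rfl⟩ := hAB g
      have h1 : b'' * a = a * b'' := by
        have h2 : a = n * b⁻¹ := by rw [hnab]; group
        have h3 : n * b'' = b'' * n := (hCmem b'').mp (hcon b'' hb'') n hn
        rw [h2]
        calc b'' * (n * b⁻¹) = (b'' * n) * b⁻¹ := by group
          _ = (n * b'') * b⁻¹ := by rw [h3]
          _ = n * (b'' * b⁻¹) := by group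
          _ = n * (b⁻¹ * b'') := by rw [cB b'' hb'' b⁻¹ (B.inv_mem hb)]
          _ = n * b⁻¹ * b'' := by group
      calc a'' * b'' * a = a'' * (b'' * a) := by group
        _ = a'' * (a * b'') := by rw [h1]
        _ = (a'' * a) * b'' := by group
        _ = (a * a'') * b'' := by rw [cA a'' ha'' a ha]
        _ = a * (a'' * b'') := by group
    rw [hnab, ha1, one_mul]; exact hb
  -- Step 7: if a * b ∈ N then a centralizes N
  have h7 : ∀ a ∈ A, ∀ b ∈ B, a * b ∈ N → a ∈ C := by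
    intro a ha b hb hn
    by_contra haC
    have hwd : ∀ m : N, m.1 * a * m.1⁻¹ * a⁻¹ ∈ N := by
      intro m
      have h : m.1 * a * m.1⁻¹ * a⁻¹ = m.1 * (a * m.1⁻¹ * a⁻¹) := by group
      rw [h]
      exact N.mul_mem m.2 (hNn.conj_mem _ (N.inv_mem m.2) a)
    have hinj : Function.Injective (fun m : N => (⟨m.1 * a * m.1⁻¹ * a⁻¹, hwd m⟩ : N)) := by
      intro m m' h
      have h1 : m.1 * a * m.1⁻¹ * a⁻¹ = m'.1 * a * m'.1⁻¹ * a⁻¹ := congrArg Subtype.val h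
      have h3 : m.1 * a * m.1⁻¹ = m'.1 * a * m'.1⁻¹ := mul_right_cancel h1
      have h2 : (m'.1⁻¹ * m.1) * a = a * (m'.1⁻¹ * m.1) := by
        calc (m'.1⁻¹ * m.1) * a = m'.1⁻¹ * (m.1 * a * m.1⁻¹) * m.1 := by group
          _ = m'.1⁻¹ * (m'.1 * a * m'.1⁻¹) * m.1 := by rw [h3]
          _ = a * (m'.1⁻¹ * m.1) := by group
      have h4 := hfpf a haC _ (N.mul_mem (N.inv_mem m'.2) m.2) h2
      apply Subtype.ext
      have h5 : m.1 = m'.1 * (m'.1⁻¹ * m.1) := by group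
      rw [h5, h4, mul_one]
    have hsurj := Finite.injective_iff_surjective.mp hinj
    obtain ⟨m, hm⟩ := hsurj ⟨(a * b)⁻¹, N.inv_mem hn⟩
    have hm1 : m.1 * a * m.1⁻¹ * a⁻¹ = (a * b)⁻¹ := congrArg Subtype.val hm
    have hm2 : m.1 * a * m.1⁻¹ = b⁻¹ := by
      have h : m.1 * a * m.1⁻¹ = (m.1 * a * m.1⁻¹ * a⁻¹) * a := by group
      rw [h, hm1]; group
    have ha1 : a = 1 := hconj a ha m.1 (by rw [hm2]; exact B.inv_mem hb)
    apply haC
    rw [ha1]; exact C.one_mem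
  -- The factorizer X of N
  obtain ⟨X, hXdef⟩ : ∃ X : Subgroup G, X = (A ⊔ N) ⊓ (B ⊔ N) := ⟨_, rfl⟩
  have hXmem : ∀ x, x ∈ X ↔ (∃ a ∈ A, ∃ n ∈ N, a * n = x) ∧ (∃ b ∈ B, ∃ n ∈ N, b * n = x) := by
    intro x
    rw [hXdef, Subgroup.mem_inf, Subgroup.mem_sup_of_normal_right,
      Subgroup.mem_sup_of_normal_right]
  have hNX : N ≤ X := by rw [hXdef]; exact le_inf le_sup_right le_sup_right
  have hX3 : ∀ x ∈ X, ∀ g : G, g * x * g⁻¹ * x⁻¹ ∈ N := by
    intro x hx g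
    obtain ⟨⟨a, ha, n, hn, hx1⟩, ⟨b, hb, n', hn', hx2⟩⟩ := (hXmem x).mp hx
    have h1 : ∀ a' ∈ A, a' * x * a'⁻¹ * x⁻¹ ∈ N := by
      intro a' ha'
      have h : a' * x * a'⁻¹ * x⁻¹ = a * (a' * n * a'⁻¹ * n⁻¹) * a⁻¹ := by
        rw [← hx1]
        calc a' * (a * n) * a'⁻¹ * (a * n)⁻¹ = (a' * a) * n * a'⁻¹ * n⁻¹ * a⁻¹ := by group
          _ = (a * a') * n * a'⁻¹ * n⁻¹ * a⁻¹ := by rw [cA a' ha' a ha]
          _ = a * (a' * n * a'⁻¹ * n⁻¹) * a⁻¹ := by group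
      rw [h]
      exact hNn.conj_mem _ (N.mul_mem (hNn.conj_mem n hn a') (N.inv_mem hn)) a
    have h2 : ∀ b' ∈ B, b' * x * b'⁻¹ * x⁻¹ ∈ N := by
      intro b' hb'
      have h : b' * x * b'⁻¹ * x⁻¹ = b * (b' * n' * b'⁻¹ * n'⁻¹) * b⁻¹ := by
        rw [← hx2]
        calc b' * (b * n') * b'⁻¹ * (b * n')⁻¹ = (b' * b) * n' * b'⁻¹ * n'⁻¹ * b⁻¹ := by group
          _ = (b * b') * n' * b'⁻¹ * n'⁻¹ * b⁻¹ := by rw [cB b' hb' b hb]
          _ = b * (b' * n' * b'⁻¹ * n'⁻¹) * b⁻¹ := by group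
      rw [h]
      exact hNn.conj_mem _ (N.mul_mem (hNn.conj_mem n' hn' b') (N.inv_mem hn')) b
    obtain ⟨a', ha', b', hb', rfl⟩ := hAB g
    have h : a' * b' * x * (a' * b')⁻¹ * x⁻¹ =
        (a' * (b' * x * b'⁻¹ * x⁻¹) * a'⁻¹) * (a' * x * a'⁻¹ * x⁻¹) := by group
    rw [h]
    exact N.mul_mem (hNn.conj_mem _ (h2 b' hb') a') (h1 a' ha')
  have hXn : X.Normal := ⟨fun x hx g => by
    have h : g * x * g⁻¹ = (g * x * g⁻¹ * x⁻¹) * x := by group
    rw [h]; exact X.mul_mem (hNX (hX3 x hx g)) hx⟩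
  have hXC : X ≤ C := by
    intro x hx
    obtain ⟨⟨a, ha, n, hn, hx1⟩, ⟨b, hb, n', hn', hx2⟩⟩ := (hXmem x).mp hx
    have h1 : a⁻¹ * b ∈ N := by
      have h : a⁻¹ * b = n * n'⁻¹ := by
        have h2 : a * n = b * n' := by rw [hx1, hx2]
        calc a⁻¹ * b = a⁻¹ * (b * n') * n'⁻¹ := by group
          _ = a⁻¹ * (a * n) * n'⁻¹ := by rw [h2]
          _ = n * n'⁻¹ := by group
      rw [h]; exact N.mul_mem hn (N.inv_mem hn')
    have h3 : a⁻¹ ∈ C := h7 a⁻¹ (A.inv_mem ha) b hb h1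
    have h4 : a ∈ C := by
      have h := C.inv_mem h3
      rw [inv_inv] at h
      exact h
    rw [← hx1]; exact C.mul_mem h4 (hNC hn)
  haveI := hXn
  obtain ⟨K, hKdef⟩ : ∃ K : Subgroup G, K = Subgroup.centralizer (X : Set G) := ⟨_, rfl⟩
  have hKmem : ∀ g, g ∈ K ↔ ∀ x ∈ X, x * g = g * x := by
    intro g; rw [hKdef, Subgroup.mem_centralizer_iff]; rfl
  have hKn : K.Normal := by rw [hKdef]; infer_instance
  have hKC : K ≤ C := by
    intro k hk
    rw [hCmem]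
    intro n hn
    exact (hKmem k).mp hk n (hNX hn)
  have hNK : N ≤ K := by
    intro n hn
    rw [hKmem]
    intro x hx
    exact ((hCmem x).mp (hXC hx) n hn).symm
  have hKb : K ≠ ⊥ := by
    intro h
    apply hNb
    rw [eq_bot_iff, ← h]
    exact hNK
  have hAK : ∀ a ∈ A, a ∈ C → a ∈ K := by
    intro a ha haC
    rw [hKmem]
    intro x hx
    obtain ⟨⟨a₁, ha₁, n, hn, hx1⟩, _⟩ := (hXmem x).mp hx
    rw [← hx1]
    have h1 : n * a = a * n := (hCmem a).mp haC n hn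
    calc a₁ * n * a = a₁ * (n * a) := by group
      _ = a₁ * (a * n) := by rw [h1]
      _ = (a₁ * a) * n := by group
      _ = (a * a₁) * n := by rw [cA a₁ ha₁ a ha]
      _ = a * (a₁ * n) := by group
  have hBK : ∀ b ∈ B, b ∈ C → b ∈ K := by
    intro b hb hbC
    rw [hKmem]
    intro x hx
    obtain ⟨_, ⟨b₁, hb₁, n, hn, hx1⟩⟩ := (hXmem x).mp hx
    rw [← hx1]
    have h1 : n * b = b * n := (hCmem b).mp hbC n hn
    calc b₁ * n * b = b₁ * (n * b) := by group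
      _ = b₁ * (b * n) := by rw [h1]
      _ = (b₁ * b) * n := by group
      _ = (b * b₁) * n := by rw [cB b₁ hb₁ b hb]
      _ = b * (b₁ * n) := by group
  obtain ⟨a', ha', ha'C⟩ := hA'
  obtain ⟨b', hb', hb'C⟩ := hB'
  have hcK : a' * b' * a'⁻¹ * b'⁻¹ ∉ K := by
    intro hc
    obtain ⟨n, hn, hn1⟩ : ∃ n ∈ N, n ≠ 1 := by
      by_contra h
      push_neg at h
      exact hNb ((Subgroup.eq_bot_iff_forall N).mpr h)
    obtain ⟨a, ha, b, hb, hnab⟩ := hAB n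
    have hbX : b ∈ X := by
      rw [hXmem]
      refine ⟨⟨a⁻¹, A.inv_mem ha, n, hn, by rw [hnab]; group⟩, ⟨b, hb, 1, N.one_mem, mul_one b⟩⟩
    have hba' : a' * b ≠ b * a' := by
      intro hcomm'
      have h1 : n * a' = a' * n := by
        calc n * a' = a * (b * a') := by rw [hnab]; group
          _ = a * (a' * b) := by rw [hcomm']
          _ = (a * a') * b := by group
          _ = (a' * a) * b := by rw [cA a ha a' ha']
          _ = a' * n := by rw [hnab]; group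
      exact hn1 (hfpf a' ha'C n hn h1)
    have hcb : b * (a' * b' * a'⁻¹ * b'⁻¹) = (a' * b' * a'⁻¹ * b'⁻¹) * b :=
      (hKmem _).mp hc b hbX
    have hbb' : b' * b = b * b' := cB b' hb' b hb
    have hy : b' * (a'⁻¹ * b * a') = (a'⁻¹ * b * a') * b' := by
      calc b' * (a'⁻¹ * b * a') = a'⁻¹ * ((a' * b' * a'⁻¹ * b'⁻¹) * (b' * b)) * a' := by group
        _ = a'⁻¹ * ((a' * b' * a'⁻¹ * b'⁻¹) * (b * b')) * a' := by rw [hbb']
        _ = a'⁻¹ * (((a' * b' * a'⁻¹ * b'⁻¹) * b) * b') * a' := by group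
        _ = a'⁻¹ * ((b * (a' * b' * a'⁻¹ * b'⁻¹)) * b') * a' := by rw [hcb]
        _ = (a'⁻¹ * b * a') * b' := by group
    have hn1N : b⁻¹ * (a'⁻¹ * b * a') ∈ N := by
      have h := hX3 b hbX a'⁻¹
      have h2 := hNn.conj_mem _ h b⁻¹
      have h3 : b⁻¹ * (a'⁻¹ * b * a') = b⁻¹ * (a'⁻¹ * b * a'⁻¹⁻¹ * b⁻¹) * b⁻¹⁻¹ := by group
      rw [h3]; exact h2
    have hn1b' : (b⁻¹ * (a'⁻¹ * b * a')) * b' = b' * (b⁻¹ * (a'⁻¹ * b * a')) := by
      calc (b⁻¹ * (a'⁻¹ * b * a')) * b' = b⁻¹ * ((a'⁻¹ * b * a') * b') := by group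
        _ = b⁻¹ * (b' * (a'⁻¹ * b * a')) := by rw [hy]
        _ = (b⁻¹ * b') * (a'⁻¹ * b * a') := by group
        _ = (b' * b⁻¹) * (a'⁻¹ * b * a') := by rw [cB b⁻¹ (B.inv_mem hb) b' hb']
        _ = b' * (b⁻¹ * (a'⁻¹ * b * a')) := by group
    have h1 := hfpf b' hb'C _ hn1N hn1b'
    apply hba'
    have h2 : a'⁻¹ * b * a' = b := by
      calc a'⁻¹ * b * a' = b * (b⁻¹ * (a'⁻¹ * b * a')) := by group
        _ = b := by rw [h1, mul_one]
    calc a' * b = a' * (a'⁻¹ * b * a') := by rw [h2]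
      _ = b * a' := by group
  have hKt : K ≠ ⊤ := by
    intro h
    apply hcK
    rw [h]; exact Subgroup.mem_top _
  refine ⟨C, K, hKn, hKb, hKt, hKC, hG'C, hAK, hBK, ?_⟩
  intro g hgC hgK
  have hcC : a' * b' * a'⁻¹ * b'⁻¹ ∈ C := hG'C a' b'
  obtain ⟨c, hcdef⟩ : ∃ c : G, c = a' * b' * a'⁻¹ * b'⁻¹ := ⟨_, rfl⟩
  rw [← hcdef] at hcC hcK
  have hex : ∃ x ∈ X, x * c ≠ c * x := by
    by_contra hcon
    push_neg at hcon
    apply hcK
    rw [hKmem]; exact hcon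
  obtain ⟨x, hx, hxc⟩ := hex
  have hwN : c * x * c⁻¹ * x⁻¹ ∈ N := hX3 x hx c
  have hw1 : c * x * c⁻¹ * x⁻¹ ≠ 1 := by
    intro h
    apply hxc
    have h2 : c * x = (c * x * c⁻¹ * x⁻¹) * (x * c) := by group
    rw [h2, h, one_mul]
  have hk := hgK c hcC
  have hn' : g * x * g⁻¹ * x⁻¹ ∈ N := hX3 x hx g
  have hcn : (g * x * g⁻¹ * x⁻¹) * c = c * (g * x * g⁻¹ * x⁻¹) := (hCmem c).mp hcC _ hn'
  have hu : (g * x * g⁻¹ * x⁻¹) * (c * x * c⁻¹) ∈ X :=
    X.mul_mem (hNX hn') (hXn.conj_mem x hx c)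
  have hku := (hKmem _).mp hk _ hu
  have hgw : (c * x * c⁻¹ * x⁻¹) * g = g * (c * x * c⁻¹ * x⁻¹) := by
    have e1 : g * (c * x * c⁻¹ * x⁻¹) * g⁻¹ = (c * x * c⁻¹ * x⁻¹) := by
      calc g * (c * x * c⁻¹ * x⁻¹) * g⁻¹
          = (g * c * g⁻¹ * c⁻¹) * (c * (g * x * g⁻¹ * x⁻¹)) * x * c⁻¹ * (g * c * g⁻¹ * c⁻¹)⁻¹
              * x⁻¹ * (g * x * g⁻¹ * x⁻¹)⁻¹ := by group
        _ = (g * c * g⁻¹ * c⁻¹) * ((g * x * g⁻¹ * x⁻¹) * c) * x * c⁻¹ * (g * c * g⁻¹ * c⁻¹)⁻¹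
              * x⁻¹ * (g * x * g⁻¹ * x⁻¹)⁻¹ := by rw [hcn]
        _ = ((g * c * g⁻¹ * c⁻¹) * ((g * x * g⁻¹ * x⁻¹) * (c * x * c⁻¹))) * (g * c * g⁻¹ * c⁻¹)⁻¹
              * x⁻¹ * (g * x * g⁻¹ * x⁻¹)⁻¹ := by group
        _ = (((g * x * g⁻¹ * x⁻¹) * (c * x * c⁻¹)) * (g * c * g⁻¹ * c⁻¹)) * (g * c * g⁻¹ * c⁻¹)⁻¹
              * x⁻¹ * (g * x * g⁻¹ * x⁻¹)⁻¹ := by rw [hku]
        _ = ((g * x * g⁻¹ * x⁻¹) * (c * x * c⁻¹ * x⁻¹)) * (g * x * g⁻¹ * x⁻¹)⁻¹ := by group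
        _ = ((c * x * c⁻¹ * x⁻¹) * (g * x * g⁻¹ * x⁻¹)) * (g * x * g⁻¹ * x⁻¹)⁻¹ := by
            rw [cN _ hn' _ hwN]
        _ = c * x * c⁻¹ * x⁻¹ := by group
    calc (c * x * c⁻¹ * x⁻¹) * g = (g * (c * x * c⁻¹ * x⁻¹) * g⁻¹) * g := by rw [e1]
      _ = g * (c * x * c⁻¹ * x⁻¹) := by group
  exact hw1 (hfpf g hgC _ hwN hgw)

theorem aux.{u} (n : ℕ) : ∀ (G : Type u) [Group G] [Finite G] [Nontrivial G] (A B : Subgroup G)
    [IsMulCommutative A] [IsMulCommutative B], (∀ g : G, ∃ a ∈ A, ∃ b ∈ B, g = a * b) →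
    Nat.card G = n → ∃ N : Subgroup G, N.Normal ∧ N ≠ ⊥ ∧ (N ≤ A ∨ N ≤ B) := by
  induction n using Nat.strong_induction_on with
  | _ n ih =>
    intro G _ _ _ A B _ _ hAB hn
    by_contra hcon
    push_neg at hcon
    have hA : ∀ K : Subgroup G, K.Normal → K ≤ A → K = ⊥ := by
      intro K hK hKA
      by_contra hKb
      exact (hcon K hK hKb).1 hKA
    have hB : ∀ K : Subgroup G, K.Normal → K ≤ B → K = ⊥ := by
      intro K hK hKB
      by_contra hKb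
      exact (hcon K hK hKb).2 hKB
    obtain ⟨C, K, hKn, hKb, hKt, hKC, hG'C, hAK, hBK, hfin⟩ := key A B hAB hA hB
    haveI := hKn
    have hcard : Nat.card (G ⧸ K) < n := by
      rw [← hn]
      have h1 := Subgroup.card_eq_card_quotient_mul_card_subgroup K
      have h2 : 1 < Nat.card K := (Subgroup.one_lt_card_iff_ne_bot K).mpr hKb
      have h3 : 0 < Nat.card (G ⧸ K) := Nat.card_pos
      rw [h1]; nlinarith
    haveI : Nontrivial (G ⧸ K) := QuotientGroup.nontrivial_iff.mpr hKt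
    have hAB' : ∀ g : G ⧸ K, ∃ a ∈ A.map (QuotientGroup.mk' K),
        ∃ b ∈ B.map (QuotientGroup.mk' K), g = a * b := by
      intro g
      obtain ⟨g, rfl⟩ := QuotientGroup.mk_surjective g
      obtain ⟨a, ha, b, hb, rfl⟩ := hAB g
      exact ⟨_, Subgroup.mem_map_of_mem _ ha, _, Subgroup.mem_map_of_mem _ hb, rfl⟩
    obtain ⟨L, hLn, hLb, hL⟩ := ih _ hcard (G ⧸ K) (A.map (QuotientGroup.mk' K))
      (B.map (QuotientGroup.mk' K)) hAB' rfl
    obtain ⟨ℓ, hℓ, hℓ1⟩ : ∃ ℓ ∈ L, ℓ ≠ 1 := by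
      by_contra h
      push_neg at h
      exact hLb ((Subgroup.eq_bot_iff_forall L).mpr h)
    have fin : ∀ S : Subgroup G, (∀ s ∈ S, s ∈ C → s ∈ K) →
        L ≤ S.map (QuotientGroup.mk' K) → False := by
      intro S hS hLS
      obtain ⟨g, hgS, hgℓ⟩ := hLS hℓ
      have hgK : g ∉ K := by
        intro h
        apply hℓ1
        rw [← hgℓ]
        exact (QuotientGroup.eq_one_iff g).mpr h
      have hgC : g ∉ C := fun h => hgK (hS g hgS h)
      apply hfin g hgC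
      intro c hc
      have h1 : (QuotientGroup.mk' K) (g * c * g⁻¹ * c⁻¹) ∈ L := by
        have h2 : (QuotientGroup.mk' K) (g * c * g⁻¹ * c⁻¹) =
            ℓ * ((QuotientGroup.mk' K) c * ℓ⁻¹ * ((QuotientGroup.mk' K) c)⁻¹) := by
          rw [← hgℓ]
          simp only [map_mul, map_inv]
          group
        rw [h2]
        exact L.mul_mem hℓ (hLn.conj_mem _ (L.inv_mem hℓ) _)
      obtain ⟨s, hsS, hs⟩ := hLS h1
      have h3 : s⁻¹ * (g * c * g⁻¹ * c⁻¹) ∈ K := QuotientGroup.eq.mp hs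
      have h4 : s ∈ C := by
        have h5 : s = (g * c * g⁻¹ * c⁻¹) * (s⁻¹ * (g * c * g⁻¹ * c⁻¹))⁻¹ := by group
        rw [h5]
        exact C.mul_mem (hG'C g c) (C.inv_mem (hKC h3))
      have h6 : s ∈ K := hS s hsS h4
      have h7 : g * c * g⁻¹ * c⁻¹ = s * (s⁻¹ * (g * c * g⁻¹ * c⁻¹)) := by group
      rw [h7]
      exact K.mul_mem h6 h3
    rcases hL with hL | hL
    · exact fin A hAK hL
    · exact fin B hBK hL

/-- If a nontrivial finite group G is the product AB of abelian subgroups A and B, then some nontrivial normal subgroup of G is contained in A or in B. -/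
theorem result {G : Type*} [Group G] [Finite G] [Nontrivial G] (A B : Subgroup G) [IsMulCommutative A] [IsMulCommutative B] (hAB : ∀ g : G, ∃ a ∈ A, ∃ b ∈ B, g = a * b) : ∃ N : Subgroup G, N.Normal ∧ N ≠ ⊥ ∧ (N ≤ A ∨ N ≤ B) := by
  exact aux _ G A B hAB rfl

end Cfsg.Agent.S0573
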