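import Cfsg.Statements.S0571
import Mathlib
import Cfsg.Agent.S0573
import Cfsg.Agent.S0528

set_option autoImplicit false
open Cfsg

namespace Cfsg.Agent.S0571


theorem aux.{u} (n : ℕ) : ∀ (G : Type u) [Group G] [Finite G] (A B : Subgroup G)
    [IsCyclic A] [IsCyclic B], (∀ g : G, ∃ a ∈ A, ∃ b ∈ B, g = a * b) →
    Nat.card G = n → Cfsg.IsSupersolvable G := by
  induction n using Nat.strong_induction_on with
  | _ n ih =>
    intro G _ _ A B _ _ hAB hn
    rcases subsingleton_or_nontrivial G with hG | hG
    · exact ⟨0, fun _ => ⊥, rfl, Subsingleton.elim _ _, fun _ => inferInstance,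
        fun i => i.elim0⟩
    · obtain ⟨N, hNn, hNb, hN⟩ := Cfsg.Agent.S0573.result A B hAB
      haveI := hNn
      haveI : IsCyclic N := by
        rcases hN with h | h
        · exact Subgroup.isCyclic_of_le h
        · exact Subgroup.isCyclic_of_le h
      apply Cfsg.Agent.S0528.result N
      have hcard : Nat.card (G ⧸ N) < n := by
        rw [← hn]
        have h1 := Subgroup.card_eq_card_quotient_mul_card_subgroup N
        have h2 : 1 < Nat.card N := (Subgroup.one_lt_card_iff_ne_bot N).mpr hNb
        have h3 : 0 < Nat.card (G ⧸ N) := Nat.card_pos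
        rw [h1]; nlinarith
      haveI : IsCyclic (A.map (QuotientGroup.mk' N)) :=
        isCyclic_of_surjective ((QuotientGroup.mk' N).subgroupMap A)
          ((QuotientGroup.mk' N).subgroupMap_surjective A)
      haveI : IsCyclic (B.map (QuotientGroup.mk' N)) :=
        isCyclic_of_surjective ((QuotientGroup.mk' N).subgroupMap B)
          ((QuotientGroup.mk' N).subgroupMap_surjective B)
      have hAB' : ∀ g : G ⧸ N, ∃ a ∈ A.map (QuotientGroup.mk' N),
          ∃ b ∈ B.map (QuotientGroup.mk' N), g = a * b := by
        intro g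
        obtain ⟨g, rfl⟩ := QuotientGroup.mk_surjective g
        obtain ⟨a, ha, b, hb, rfl⟩ := hAB g
        exact ⟨_, Subgroup.mem_map_of_mem _ ha, _, Subgroup.mem_map_of_mem _ hb, rfl⟩
      exact ih _ hcard (G ⧸ N) (A.map (QuotientGroup.mk' N)) (B.map (QuotientGroup.mk' N))
        hAB' rfl

/-- If a finite group G is the product AB of two cyclic subgroups (every element is a product ab), then G is supersolvable. -/
theorem result {G : Type*} [Group G] [Finite G] (A B : Subgroup G) [IsCyclic A] [IsCyclic B] (hAB : ∀ g : G, ∃ a ∈ A, ∃ b ∈ B, g = a * b) : Cfsg.IsSupersolvable G := by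
  exact aux _ G A B hAB rfl

end Cfsg.Agent.S0571
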