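import Cfsg.Statements.S0572
import Mathlib

set_option autoImplicit false
open Cfsg

namespace Cfsg.Agent.S0572

open scoped commutatorElement

theorem comm_mul_left {G : Type*} [Group G] (x y z : G) (h : y * z = z * y) : ⁅x * y, z⁆ = ⁅x, z⁆ := by
  simp only [commutatorElement_def, mul_inv_rev]
  have : x * y * z * (y⁻¹ * x⁻¹) * z⁻¹ = x * (y * z) * y⁻¹ * x⁻¹ * z⁻¹ := by group
  rw [this, h]; group

theorem comm_mul_right {G : Type*} [Group G] (x y z : G) (h : x * z = z * x) : ⁅x, y * z⁆ = ⁅x, y⁆ := by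
  simp only [commutatorElement_def, mul_inv_rev]
  have h' : z * x⁻¹ = x⁻¹ * z := by
    have : z = x⁻¹ * (x * z) := by group
    rw [h] at this
    calc z * x⁻¹ = (x⁻¹ * (z * x)) * x⁻¹ := by rw [← this]
      _ = x⁻¹ * z := by group
  have : x * (y * z) * x⁻¹ * (z⁻¹ * y⁻¹) = x * y * (z * x⁻¹) * z⁻¹ * y⁻¹ := by group
  rw [this, h']; group

theorem conj_cancel {G : Type*} [Group G] (x y : G) (h : x * y = y * x) : x * y * x⁻¹ = y := by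
  rw [h]; group

theorem key {G : Type*} [Group G] (A B : Subgroup G) [IsMulCommutative A] [IsMulCommutative B]
    (hAB : ∀ g : G, ∃ a ∈ A, ∃ b ∈ B, g = a * b) (a a₁ b b₁ : G) (ha : a ∈ A) (ha₁ : a₁ ∈ A)
    (hb : b ∈ B) (hb₁ : b₁ ∈ B) :
    (a₁ * b₁) * ⁅a, b⁆ * (a₁ * b₁)⁻¹ = (b₁ * a₁) * ⁅a, b⁆ * (b₁ * a₁)⁻¹ := by
  have cA : ∀ {x y : G}, x ∈ A → y ∈ A → x * y = y * x := fun hx hy =>
    setLike_mul_comm hx hy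
  have cB : ∀ {x y : G}, x ∈ B → y ∈ B → x * y = y * x := fun hx hy =>
    setLike_mul_comm hx hy
  obtain ⟨a₃, ha₃, b₃, hb₃, h1⟩ := hAB (b₁ * a * b₁⁻¹)
  obtain ⟨a', ha', b', hb', h2'⟩ := hAB (a₁ * b * a₁⁻¹)⁻¹
  have h2 : a₁ * b * a₁⁻¹ = b'⁻¹ * a'⁻¹ := by
    have : a₁ * b * a₁⁻¹ = ((a₁ * b * a₁⁻¹)⁻¹)⁻¹ := by group
    rw [this, h2']; group
  have hb2 : b'⁻¹ ∈ B := B.inv_mem hb'
  have ha2 : a'⁻¹ ∈ A := A.inv_mem ha'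
  have lhs : (a₁ * b₁) * ⁅a, b⁆ * (a₁ * b₁)⁻¹ = ⁅a₃, b'⁻¹⁆ := by
    calc (a₁ * b₁) * ⁅a, b⁆ * (a₁ * b₁)⁻¹ = a₁ * (b₁ * ⁅a, b⁆ * b₁⁻¹) * a₁⁻¹ := by group
      _ = a₁ * ⁅b₁ * a * b₁⁻¹, b₁ * b * b₁⁻¹⁆ * a₁⁻¹ := by rw [conjugate_commutatorElement]
      _ = a₁ * ⁅a₃ * b₃, b⁆ * a₁⁻¹ := by rw [h1, conj_cancel b₁ b (cB hb₁ hb)]
      _ = a₁ * ⁅a₃, b⁆ * a₁⁻¹ := by rw [comm_mul_left a₃ b₃ b (cB hb₃ hb)]
      _ = ⁅a₁ * a₃ * a₁⁻¹, a₁ * b * a₁⁻¹⁆ := by rw [conjugate_commutatorElement]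
      _ = ⁅a₃, b'⁻¹ * a'⁻¹⁆ := by rw [h2, conj_cancel a₁ a₃ (cA ha₁ ha₃)]
      _ = ⁅a₃, b'⁻¹⁆ := by rw [comm_mul_right a₃ b'⁻¹ a'⁻¹ (cA ha₃ ha2)]
  have rhs : (b₁ * a₁) * ⁅a, b⁆ * (b₁ * a₁)⁻¹ = ⁅a₃, b'⁻¹⁆ := by
    calc (b₁ * a₁) * ⁅a, b⁆ * (b₁ * a₁)⁻¹ = b₁ * (a₁ * ⁅a, b⁆ * a₁⁻¹) * b₁⁻¹ := by group
      _ = b₁ * ⁅a₁ * a * a₁⁻¹, a₁ * b * a₁⁻¹⁆ * b₁⁻¹ := by rw [conjugate_commutatorElement]
      _ = b₁ * ⁅a, b'⁻¹ * a'⁻¹⁆ * b₁⁻¹ := by rw [h2, conj_cancel a₁ a (cA ha₁ ha)]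
      _ = b₁ * ⁅a, b'⁻¹⁆ * b₁⁻¹ := by rw [comm_mul_right a b'⁻¹ a'⁻¹ (cA ha ha2)]
      _ = ⁅b₁ * a * b₁⁻¹, b₁ * b'⁻¹ * b₁⁻¹⁆ := by rw [conjugate_commutatorElement]
      _ = ⁅a₃ * b₃, b'⁻¹⁆ := by rw [h1, conj_cancel b₁ b'⁻¹ (cB hb₁ hb2)]
      _ = ⁅a₃, b'⁻¹⁆ := by rw [comm_mul_left a₃ b₃ b'⁻¹ (cB hb₃ hb2)]
  rw [lhs, rhs]

theorem comm_comm {G : Type*} [Group G] (A B : Subgroup G) [IsMulCommutative A] [IsMulCommutative B]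
    (hAB : ∀ g : G, ∃ a ∈ A, ∃ b ∈ B, g = a * b) (a a₁ b b₁ : G) (ha : a ∈ A) (ha₁ : a₁ ∈ A)
    (hb : b ∈ B) (hb₁ : b₁ ∈ B) : ⁅a, b⁆ * ⁅a₁, b₁⁆ = ⁅a₁, b₁⁆ * ⁅a, b⁆ := by
  have h := key A B hAB a a₁⁻¹ b b₁⁻¹ ha (A.inv_mem ha₁) hb (B.inv_mem hb₁)
  have e : ⁅a₁, b₁⁆ = (b₁⁻¹ * a₁⁻¹)⁻¹ * (a₁⁻¹ * b₁⁻¹) := by
    simp only [commutatorElement_def]; group
  have h' : ((b₁⁻¹ * a₁⁻¹)⁻¹ * (a₁⁻¹ * b₁⁻¹)) * ⁅a, b⁆ = ⁅a, b⁆ * ((b₁⁻¹ * a₁⁻¹)⁻¹ * (a₁⁻¹ * b₁⁻¹)) := by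
    calc ((b₁⁻¹ * a₁⁻¹)⁻¹ * (a₁⁻¹ * b₁⁻¹)) * ⁅a, b⁆
        = (b₁⁻¹ * a₁⁻¹)⁻¹ * ((a₁⁻¹ * b₁⁻¹) * ⁅a, b⁆ * (a₁⁻¹ * b₁⁻¹)⁻¹) * (a₁⁻¹ * b₁⁻¹) := by group
      _ = (b₁⁻¹ * a₁⁻¹)⁻¹ * ((b₁⁻¹ * a₁⁻¹) * ⁅a, b⁆ * (b₁⁻¹ * a₁⁻¹)⁻¹) * (a₁⁻¹ * b₁⁻¹) := by rw [h]
      _ = ⁅a, b⁆ * ((b₁⁻¹ * a₁⁻¹)⁻¹ * (a₁⁻¹ * b₁⁻¹)) := by group
  rw [e]; exact h'.symm

/-- Itô's Theorem: if a group G is the product AB of two abelian subgroups, then the commutator subgroup of G is abelian, i.e. the second term of the derived series is trivial. -/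
theorem result {G : Type*} [Group G] (A B : Subgroup G) [IsMulCommutative A] [IsMulCommutative B] (hAB : ∀ g : G, ∃ a ∈ A, ∃ b ∈ B, g = a * b) : derivedSeries G 2 = ⊥ := by
  have cA : ∀ {x y : G}, x ∈ A → y ∈ A → x * y = y * x := fun hx hy =>
    setLike_mul_comm hx hy
  have cB : ∀ {x y : G}, x ∈ B → y ∈ B → x * y = y * x := fun hx hy =>
    setLike_mul_comm hx hy
  -- N = ⁅A, B⁆ is normal
  have hNn : (⁅A, B⁆ : Subgroup G).Normal := by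
    rw [← Subgroup.normalizer_eq_top_iff, eq_top_iff]
    intro g _
    obtain ⟨a, ha, b, hb, rfl⟩ := hAB g
    exact mul_mem (Subgroup.normalizer_commutator_ge_left A B ha) (Subgroup.normalizer_commutator_ge_right A B hb)
  -- N is abelian
  have hNab : ⁅(⁅A, B⁆ : Subgroup G), (⁅A, B⁆ : Subgroup G)⁆ = ⊥ := by
    rw [Subgroup.commutator_eq_bot_iff_le_centralizer]
    rw [Subgroup.commutator_def A B, Subgroup.centralizer_closure, Subgroup.closure_le]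
    rintro x ⟨a, ha, b, hb, rfl⟩
    simp only [SetLike.mem_coe, Subgroup.mem_iInf]
    rintro y ⟨a₁, ha₁, b₁, hb₁, rfl⟩
    exact comm_comm A B hAB a₁ a b₁ b ha₁ ha hb₁ hb
  -- commutator G ≤ N
  have hcomm : commutator G ≤ ⁅A, B⁆ := by
    rw [commutator_def, Subgroup.commutator_le]
    intro g _ h _
    obtain ⟨a, ha, b, hb, rfl⟩ := hAB g
    obtain ⟨a', ha', b', hb', rfl⟩ := hAB h
    rw [← QuotientGroup.eq_one_iff]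
    have hmap : ((⁅a * b, a' * b'⁆ : G) : G ⧸ (⁅A, B⁆ : Subgroup G)) =
        ⁅((a * b : G) : G ⧸ (⁅A, B⁆ : Subgroup G)), ((a' * b' : G) : G ⧸ (⁅A, B⁆ : Subgroup G))⁆ :=
      map_commutatorElement (QuotientGroup.mk' (⁅A, B⁆ : Subgroup G)) _ _
    rw [hmap, commutatorElement_eq_one_iff_commute]
    have hab : ∀ {x y : G}, x ∈ A → y ∈ B →
        Commute (QuotientGroup.mk x : G ⧸ (⁅A, B⁆ : Subgroup G)) (QuotientGroup.mk y) := by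
      intro x y hx hy
      rw [← commutatorElement_eq_one_iff_commute]
      have : (⁅(QuotientGroup.mk x : G ⧸ (⁅A, B⁆ : Subgroup G)), (QuotientGroup.mk y)⁆) =
          QuotientGroup.mk ⁅x, y⁆ :=
        (map_commutatorElement (QuotientGroup.mk' (⁅A, B⁆ : Subgroup G)) _ _).symm
      rw [this, QuotientGroup.eq_one_iff]
      exact Subgroup.commutator_mem_commutator hx hy
    have haa : Commute (QuotientGroup.mk a : G ⧸ (⁅A, B⁆ : Subgroup G)) (QuotientGroup.mk a') := by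
      show (QuotientGroup.mk a : G ⧸ (⁅A, B⁆ : Subgroup G)) * QuotientGroup.mk a' = QuotientGroup.mk a' * QuotientGroup.mk a
      rw [← QuotientGroup.mk_mul, ← QuotientGroup.mk_mul, cA ha ha']
    have hbb : Commute (QuotientGroup.mk b : G ⧸ (⁅A, B⁆ : Subgroup G)) (QuotientGroup.mk b') := by
      show (QuotientGroup.mk b : G ⧸ (⁅A, B⁆ : Subgroup G)) * QuotientGroup.mk b' = QuotientGroup.mk b' * QuotientGroup.mk b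
      rw [← QuotientGroup.mk_mul, ← QuotientGroup.mk_mul, cB hb hb']
    simp only [QuotientGroup.mk_mul]
    exact Commute.mul_left (Commute.mul_right haa (hab ha hb')) (Commute.mul_right (hab ha' hb).symm hbb)
  have h2 : derivedSeries G 2 = ⁅commutator G, commutator G⁆ := by
    rw [show (2 : ℕ) = 1 + 1 from rfl, derivedSeries_succ, derivedSeries_one]
  rw [h2, eq_bot_iff, ← hNab]
  exact Subgroup.commutator_mono hcomm hcomm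

end Cfsg.Agent.S0572
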