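import Cfsg.Statements.S0576
import Mathlib

set_option autoImplicit false
open Cfsg

namespace Cfsg.Agent.S0576

/-- Let H be a normal subgroup of a finite group G with H contained in the Frattini subgroup of G. Then the group of inner automorphisms of H is contained in the Frattini subgroup of the automorphism group of H. -/
theorem result {G : Type*} [Group G] [Finite G] (H : Subgroup G) [H.Normal] (hH : H ≤ frattini G) : (MulAut.conj : ↥H →* MulAut ↥H).range ≤ frattini (MulAut ↥H) := by
  have hInn : ((MulAut.conj : ↥H →* MulAut ↥H).range).Normal := by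
    constructor
    rintro _ ⟨h, rfl⟩ φ
    refine ⟨φ h, ?_⟩
    ext x
    simp [MulAut.conj_apply]
  unfold frattini Order.radical
  rw [le_iInf₂_iff]
  intro M hM
  change (MulAut.conj : ↥H →* MulAut ↥H).range ≤ M
  by_contra hnot
  have hsup : (MulAut.conj : ↥H →* MulAut ↥H).range ⊔ M = ⊤ := by
    apply hM.2
    apply lt_of_le_of_ne le_sup_right
    intro heq
    apply hnot
    rw [heq]
    exact le_sup_left
  have key : M.comap (MulAut.conjNormal : G →* MulAut ↥H) ⊔ frattini G = ⊤ := by
    rw [eq_top_iff]
    intro g _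
    have hg : (MulAut.conjNormal g : MulAut ↥H) ∈ (MulAut.conj : ↥H →* MulAut ↥H).range ⊔ M :=
      hsup ▸ Subgroup.mem_top _
    rw [Subgroup.mem_sup_of_normal_left] at hg
    obtain ⟨_, ⟨h, rfl⟩, m, hm, hnm⟩ := hg
    have h1 : (MulAut.conjNormal ((h : G)⁻¹ * g) : MulAut ↥H) = m := by
      rw [map_mul, map_inv, ← hnm, MulAut.conjNormal_val]
      simp
    have h2 : (h : G)⁻¹ * g ∈ M.comap (MulAut.conjNormal : G →* MulAut ↥H) := by
      rw [Subgroup.mem_comap, h1]; exact hm
    have h3 : g = (h : G) * ((h : G)⁻¹ * g) := by group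
    rw [h3, sup_comm]
    exact Subgroup.mul_mem_sup (hH h.2) h2
  have htop := frattini_nongenerating key
  apply hnot
  rintro _ ⟨h, rfl⟩
  have : (h : G) ∈ M.comap (MulAut.conjNormal : G →* MulAut ↥H) := htop ▸ Subgroup.mem_top _
  rw [Subgroup.mem_comap, MulAut.conjNormal_val] at this
  exact this

end Cfsg.Agent.S0576
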