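import Cfsg.Statements.S0577
import Mathlib
import Cfsg.Agent.S0536
import Cfsg.Agent.S0575
import Cfsg.Agent.S0586

set_option autoImplicit false
open Cfsg

namespace Cfsg.Agent.S0577

open scoped commutatorElement

theorem struct {G : Type*} [Group G] [Finite G] (hG : Cfsg.IsMinimalNonNilpotent G) (q : ℕ)
    [Fact q.Prime] (hq : q ∣ Nat.card G) (Q : Sylow q G) (hQ : (Q : Subgroup G).Normal) :
    ∃ p : ℕ, p.Prime ∧ p ≠ q ∧ (∃ P : Sylow p G, IsCyclic P) ∧
      ∀ r : ℕ, r.Prime → r ∣ Nat.card G → r = p ∨ r = q := by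
  obtain ⟨p, q₀, hp, hq₀, hpq₀, P, Q₀, hPc, hQ₀n, hPQ₀⟩ := Cfsg.Agent.S0536.result hG
  haveI : Fact p.Prime := ⟨hp⟩
  haveI : Fact q₀.Prime := ⟨hq₀⟩
  have hprime : ∀ r : ℕ, r.Prime → r ∣ Nat.card G → r = p ∨ r = q₀ := by
    intro r hr hrd
    rw [← Subgroup.card_mul_index (Q₀ : Subgroup G)] at hrd
    rcases (Nat.Prime.dvd_mul hr).mp hrd with h | h
    · right
      obtain ⟨b, hb⟩ := Q₀.isPGroup'.exists_card_eq
      rw [hb] at h
      exact (Nat.prime_dvd_prime_iff_eq hr hq₀).mp (hr.dvd_of_dvd_pow h)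
    · left
      haveI := hQ₀n
      have h1 : (Q₀ : Subgroup G).index = (Q₀ : Subgroup G).relIndex (P : Subgroup G) := by
        rw [← Subgroup.relIndex_top_right, ← hPQ₀, Subgroup.relIndex_sup_right]
      rw [h1] at h
      have h2 := h.trans (Subgroup.relIndex_dvd_card (Q₀ : Subgroup G) (P : Subgroup G))
      obtain ⟨a, ha⟩ := P.isPGroup'.exists_card_eq
      rw [ha] at h2
      exact (Nat.prime_dvd_prime_iff_eq hr hp).mp (hr.dvd_of_dvd_pow h2)
  rcases hprime q Fact.out hq with h | h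
  · exfalso
    subst h
    have hPQ : P = Q := by
      haveI := Sylow.unique_of_normal Q hQ
      exact Subsingleton.elim _ _
    subst hPQ
    apply hG.1
    have hdis : Disjoint (P : Subgroup G) (Q₀ : Subgroup G) :=
      IsPGroup.disjoint_of_ne q q₀ hpq₀ _ _ P.isPGroup' Q₀.isPGroup'
    have hcomm : ∀ (m : ↥(P : Subgroup G)) (n : ↥(Q₀ : Subgroup G)),
        Commute ((P : Subgroup G).subtype m) ((Q₀ : Subgroup G).subtype n) :=
      fun m n => Subgroup.commute_of_normal_of_disjoint _ _ hQ hQ₀n hdis m.1 n.1 m.2 n.2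
    haveI : Group.IsNilpotent ↥(P : Subgroup G) := P.isPGroup'.isNilpotent
    haveI : Group.IsNilpotent ↥(Q₀ : Subgroup G) := Q₀.isPGroup'.isNilpotent
    apply Group.nilpotent_of_surjective (MonoidHom.noncommCoprod _ _ hcomm)
    rw [← MonoidHom.range_eq_top, MonoidHom.noncommCoprod_range, Subgroup.range_subtype,
      Subgroup.range_subtype]
    exact hPQ₀
  · subst h
    exact ⟨p, hp, hpq₀, ⟨P, hPc⟩, hprime⟩

theorem not_comm {G : Type*} [Group G] [Finite G] (hG : Cfsg.IsMinimalNonNilpotent G) (q : ℕ)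
    [Fact q.Prime] (Q : Sylow q G) (hQ : (Q : Subgroup G).Normal) (D : Subgroup G) [D.Normal]
    (hD : D = (commutator ↥(Q : Subgroup G)).map (Q : Subgroup G).subtype) :
    ¬ IsMulCommutative (G ⧸ D) := by
  intro hc
  have h1 : commutator G ≤ D := Subgroup.Normal.quotient_commutative_iff_commutator_le.mp hc
  haveI := hQ
  haveI hQnil : Group.IsNilpotent ↥(Q : Subgroup G) := Q.isPGroup'.isNilpotent
  have h2 : commutator ↥(Q : Subgroup G) ≤ frattini ↥(Q : Subgroup G) := by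
    unfold frattini Order.radical
    rw [le_iInf₂_iff]
    intro M hM
    have hcoat := ((Group.isNilpotent_of_finite_tfae (G := ↥(Q : Subgroup G))).out 0 2).mp hQnil
    have hMn : M.Normal := hcoat M hM
    exact Cfsg.Agent.S0586.comm_le_of_normal_coatom M hMn hM
  have h3 : D ≤ frattini G := by
    rw [hD]
    exact (Subgroup.map_mono h2).trans (Cfsg.Agent.S0575.result (Q : Subgroup G))
  apply hG.1
  have hcoatG := ((Group.isNilpotent_of_finite_tfae (G := G)).out 0 2).mpr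
  apply hcoatG
  intro M hM
  have h4 : commutator G ≤ M := h1.trans (h3.trans (frattini_le_coatom hM))
  refine ⟨fun m hm g => ?_⟩
  have h5 : g * m * g⁻¹ = ⁅g, m⁆ * m := by
    rw [commutatorElement_def]; group
  rw [h5]
  refine M.mul_mem (h4 ?_) hm
  rw [commutator_def]
  exact Subgroup.commutator_mem_commutator (Subgroup.mem_top _) (Subgroup.mem_top _)

theorem proper_comm {G : Type*} [Group G] [Finite G] (hG : Cfsg.IsMinimalNonNilpotent G) (q : ℕ)
    [Fact q.Prime] (Q : Sylow q G) (hQ : (Q : Subgroup G).Normal) (D : Subgroup G) [D.Normal]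
    (hD : D = (commutator ↥(Q : Subgroup G)).map (Q : Subgroup G).subtype)
    (p : ℕ) (hp : p.Prime) (hpq : p ≠ q) (P : Sylow p G) (hPc : IsCyclic P)
    (hprime : ∀ r : ℕ, r.Prime → r ∣ Nat.card G → r = p ∨ r = q)
    (K : Subgroup (G ⧸ D)) (hK : K ≠ ⊤) : IsMulCommutative K := by
  haveI : Fact p.Prime := ⟨hp⟩
  obtain ⟨X, hXdef⟩ : ∃ X : Subgroup G, X = K.comap (QuotientGroup.mk' D) := ⟨_, rfl⟩
  have hXt : X ≠ ⊤ := by
    intro h
    apply hK
    have h1 := Subgroup.map_comap_eq_self_of_surjective (QuotientGroup.mk'_surjective D) K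
    rw [← hXdef, h, Subgroup.map_top_of_surjective _ (QuotientGroup.mk'_surjective D)] at h1
    exact h1.symm
  haveI hXnil : Group.IsNilpotent ↥X := hG.2 X hXt
  have hsyl := ((Group.isNilpotent_of_finite_tfae (G := ↥X)).out 0 3).mp hXnil
  obtain ⟨PX⟩ : Nonempty (Sylow p ↥X) := inferInstance
  obtain ⟨QX⟩ : Nonempty (Sylow q ↥X) := inferInstance
  have hPXn : (PX : Subgroup ↥X).Normal := hsyl p inferInstance PX
  have hQXn : (QX : Subgroup ↥X).Normal := hsyl q inferInstance QX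
  have hsup : (PX : Subgroup ↥X) ⊔ QX = ⊤ := by
    rw [← Subgroup.index_eq_one]
    by_contra h
    obtain ⟨r, hr, hrd⟩ := Nat.exists_prime_and_dvd h
    have h1 : r ∣ Nat.card G :=
      hrd.trans ((Subgroup.index_dvd_card _).trans (Subgroup.card_subgroup_dvd_card X))
    rcases hprime r hr h1 with rfl | rfl
    · exact PX.not_dvd_index (hrd.trans (Subgroup.index_dvd_of_le le_sup_left))
    · exact QX.not_dvd_index (hrd.trans (Subgroup.index_dvd_of_le le_sup_right))
  have hdis : Disjoint (PX : Subgroup ↥X) (QX : Subgroup ↥X) :=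
    IsPGroup.disjoint_of_ne p q hpq _ _ PX.isPGroup' QX.isPGroup'
  have hc1 : ∀ r ∈ (PX : Subgroup ↥X), ∀ u ∈ (QX : Subgroup ↥X), r * u = u * r :=
    fun r hr u hu => Subgroup.commute_of_normal_of_disjoint _ _ hPXn hQXn hdis r u hr hu
  have hc2 : ∀ r ∈ (PX : Subgroup ↥X), ∀ r' ∈ (PX : Subgroup ↥X), r * r' = r' * r := by
    have hpg : IsPGroup p ↥((PX : Subgroup ↥X).map X.subtype) := PX.isPGroup'.map X.subtype
    obtain ⟨P₁, hP₁⟩ := hpg.exists_le_sylow
    haveI : IsCyclic ↥(P₁ : Subgroup G) :=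
      isCyclic_of_surjective (Sylow.equiv P P₁).toMonoidHom (Sylow.equiv P P₁).surjective
    intro r hr r' hr'
    have h1 : (r : G) ∈ (P₁ : Subgroup G) := hP₁ (Subgroup.mem_map_of_mem _ hr)
    have h2 : (r' : G) ∈ (P₁ : Subgroup G) := hP₁ (Subgroup.mem_map_of_mem _ hr')
    apply Subtype.ext
    rw [Subgroup.coe_mul, Subgroup.coe_mul]
    exact setLike_mul_comm h1 h2
  have hQXQ : ∀ u ∈ (QX : Subgroup ↥X), (u : G) ∈ (Q : Subgroup G) := by
    have hqg : IsPGroup q ↥((QX : Subgroup ↥X).map X.subtype) := QX.isPGroup'.map X.subtype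
    obtain ⟨Q₁, hQ₁⟩ := hqg.exists_le_sylow
    have hQ₁Q : Q₁ = Q := by
      haveI := Sylow.unique_of_normal Q hQ
      exact Subsingleton.elim _ _
    intro u hu
    rw [← hQ₁Q]
    exact hQ₁ (Subgroup.mem_map_of_mem _ hu)
  haveI := hQXn
  refine ⟨⟨fun a b => ?_⟩⟩
  rcases a with ⟨a, ha⟩
  rcases b with ⟨b, hb⟩
  obtain ⟨x, rfl⟩ := QuotientGroup.mk_surjective a
  obtain ⟨y, rfl⟩ := QuotientGroup.mk_surjective b
  have hx : x ∈ X := by rw [hXdef]; exact ha
  have hy : y ∈ X := by rw [hXdef]; exact hb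
  obtain ⟨r, hr, u, hu, hxru⟩ : ∃ r ∈ (PX : Subgroup ↥X), ∃ u ∈ (QX : Subgroup ↥X),
      r * u = (⟨x, hx⟩ : ↥X) := by
    rw [← Subgroup.mem_sup_of_normal_right, hsup]; exact Subgroup.mem_top _
  obtain ⟨r', hr', u', hu', hyru⟩ : ∃ r ∈ (PX : Subgroup ↥X), ∃ u ∈ (QX : Subgroup ↥X),
      r * u = (⟨y, hy⟩ : ↥X) := by
    rw [← Subgroup.mem_sup_of_normal_right, hsup]; exact Subgroup.mem_top _
  apply Subtype.ext
  show (QuotientGroup.mk x : G ⧸ D) * QuotientGroup.mk y = QuotientGroup.mk y * QuotientGroup.mk x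
  rw [← QuotientGroup.mk_mul, ← QuotientGroup.mk_mul, QuotientGroup.eq]
  have e1 : (⟨x, hx⟩ : ↥X) * ⟨y, hy⟩ = (r * r') * (u * u') := by
    rw [← hxru, ← hyru]
    calc (r * u) * (r' * u') = r * (u * r') * u' := by group
      _ = r * (r' * u) * u' := by rw [hc1 r' hr' u hu]
      _ = (r * r') * (u * u') := by group
  have e2 : (⟨y, hy⟩ : ↥X) * ⟨x, hx⟩ = (r * r') * (u' * u) := by
    rw [← hxru, ← hyru]
    calc (r' * u') * (r * u) = r' * (u' * r) * u := by group
      _ = r' * (r * u') * u := by rw [hc1 r hr u' hu']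
      _ = (r' * r) * (u' * u) := by group
      _ = (r * r') * (u' * u) := by rw [hc2 r' hr' r hr]
  have e3 : (x * y)⁻¹ * (y * x) = ⁅(u' : G)⁻¹, (u : G)⁻¹⁆ := by
    have h1 : ((⟨x, hx⟩ : ↥X) * ⟨y, hy⟩)⁻¹ * ((⟨y, hy⟩ : ↥X) * ⟨x, hx⟩) = ⁅u'⁻¹, u⁻¹⁆ := by
      rw [e1, e2, commutatorElement_def]; group
    have h2 := congrArg Subtype.val h1
    exact h2
  rw [e3, hD, Subgroup.map_subtype_commutator]
  exact Subgroup.commutator_mem_commutator (Q.inv_mem (hQXQ u' hu')) (Q.inv_mem (hQXQ u hu))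

/-- Let G be a finite minimal non-nilpotent group and Q a normal Sylow q-subgroup of G, and let D be the commutator subgroup of Q regarded in G (a normal subgroup). Then G modulo D is non-abelian and all its proper subgroups are abelian. -/
theorem result {G : Type*} [Group G] [Finite G] (hG : Cfsg.IsMinimalNonNilpotent G) (q : ℕ) [Fact q.Prime] (hq : q ∣ Nat.card G) (Q : Sylow q G) (hQ : (Q : Subgroup G).Normal) (D : Subgroup G) [D.Normal] (hD : D = (commutator ↥(Q : Subgroup G)).map (Q : Subgroup G).subtype) : ¬ IsMulCommutative (G ⧸ D) ∧ ∀ K : Subgroup (G ⧸ D), K ≠ ⊤ → IsMulCommutative K := by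
  obtain ⟨p, hp, hpq, ⟨P, hPc⟩, hprime⟩ := struct hG q hq Q hQ
  exact ⟨not_comm hG q Q hQ D hD,
    fun K hK => proper_comm hG q Q hQ D hD p hp hpq P hPc hprime K hK⟩

end Cfsg.Agent.S0577
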