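import Cfsg.Statements.S0578
import Mathlib

set_option autoImplicit false
open Cfsg

namespace Cfsg.Agent.S0578

theorem sylow_comm {G : Type*} [Group G] [Finite G]
    (h : ∀ A : Subgroup G, IsMulCommutative A →
      Subgroup.normalizer (A : Set G) = Subgroup.centralizer (A : Set G))
    (p : ℕ) [Fact p.Prime] (P : Sylow p G) : IsMulCommutative (P : Subgroup G) := by
  obtain ⟨A, -, hAmax⟩ := Finite.exists_le_maximal
    (p := fun A : Subgroup G => A ≤ (P : Subgroup G) ∧ IsMulCommutative A) (a := ⊥)
    ⟨bot_le, Subgroup.le_centralizer_iff_isMulCommutative.mp bot_le⟩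
  obtain ⟨⟨hAP, hAc⟩, hmax⟩ := hAmax
  by_cases hAeq : A = P
  · exact hAeq ▸ hAc
  exfalso
  have hlt : A.subgroupOf P < ⊤ := by
    rw [lt_top_iff_ne_top, Ne, Subgroup.subgroupOf_eq_top]
    intro hle; exact hAeq (le_antisymm hAP hle)
  have hnil : Group.IsNilpotent (P : Subgroup G) := P.isPGroup'.isNilpotent
  have hnc := Group.normalizerCondition_of_isNilpotent (G := (P : Subgroup G)) _ hlt
  rw [← Subgroup.subgroupOf_normalizer_eq hAP, h A hAc] at hnc
  obtain ⟨x, hxC, hxA⟩ := SetLike.exists_of_lt hnc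
  rw [Subgroup.mem_subgroupOf] at hxC hxA
  have hcomm : IsMulCommutative (Subgroup.closure ((A : Set G) ∪ {(x : G)})) := by
    apply Subgroup.isMulCommutative_closure
    rintro u (hu | hu) v (hv | hv)
    · exact setLike_mul_comm hu hv
    · rw [Set.mem_singleton_iff] at hv; rw [hv]; exact hxC u hu
    · rw [Set.mem_singleton_iff] at hu; rw [hu]; exact (hxC v hv).symm
    · rw [Set.mem_singleton_iff] at hu hv; rw [hu, hv]
  have hle' : Subgroup.closure ((A : Set G) ∪ {(x : G)}) ≤ P := by
    rw [Subgroup.closure_le]; rintro u (hu | hu)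
    · exact hAP hu
    · rw [Set.mem_singleton_iff] at hu; rw [hu]; exact x.2
  have hA' : A ≤ Subgroup.closure ((A : Set G) ∪ {(x : G)}) := by
    intro u hu; exact Subgroup.subset_closure (Or.inl hu)
  have := hmax ⟨hle', hcomm⟩ hA'
  exact hxA (this (Subgroup.subset_closure (Or.inr rfl)))

/-- If in a finite group the normalizer of each abelian subgroup coincides with its centralizer, then the group is abelian. -/
theorem result {G : Type*} [Group G] [Finite G] (h : ∀ A : Subgroup G, IsMulCommutative A → Subgroup.normalizer (A : Set G) = Subgroup.centralizer (A : Set G)) : IsMulCommutative G := by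
  rw [← commutator_eq_bot_iff, eq_bot_iff]
  intro x hx
  rw [Subgroup.mem_bot]
  by_contra hx1
  have hord : orderOf x ≠ 1 := by rwa [Ne, orderOf_eq_one_iff]
  obtain ⟨p, hp, hpdvd⟩ := Nat.exists_prime_and_dvd hord
  haveI : Fact p.Prime := ⟨hp⟩
  obtain ⟨P⟩ : Nonempty (Sylow p G) := inferInstance
  have hPc : IsMulCommutative (P : Subgroup G) := sylow_comm h p P
  have hP : Subgroup.normalizer ((P : Subgroup G) : Set G) ≤ Subgroup.centralizer ((P : Subgroup G) : Set G) :=
    (h P hPc).le
  have hker : commutator G ≤ (MonoidHom.transferSylow P hP).ker := by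
    rw [commutator_eq_closure, Subgroup.closure_le]
    rintro _ ⟨g, k, rfl⟩
    rw [SetLike.mem_coe, MonoidHom.mem_ker]
    have e : (MonoidHom.transferSylow P hP) (g * k * g⁻¹ * k⁻¹) =
        (MonoidHom.transferSylow P hP) g * (MonoidHom.transferSylow P hP) k *
        ((MonoidHom.transferSylow P hP) g)⁻¹ * ((MonoidHom.transferSylow P hP) k)⁻¹ := by
      simp only [map_mul, map_inv]
    refine e.trans ?_
    rw [mul_comm' ((MonoidHom.transferSylow P hP) g) ((MonoidHom.transferSylow P hP) k)]
    group
  have hxk : x ∈ (MonoidHom.transferSylow P hP).ker := hker hx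
  have hnd := MonoidHom.not_dvd_card_ker_transferSylow P hP
  apply hnd
  have h1 : orderOf (⟨x, hxk⟩ : (MonoidHom.transferSylow P hP).ker) ∣ Nat.card (MonoidHom.transferSylow P hP).ker :=
    orderOf_dvd_natCard _
  have h2 : orderOf (⟨x, hxk⟩ : (MonoidHom.transferSylow P hP).ker) = orderOf x := by
    rw [← Subgroup.orderOf_coe]
  rw [h2] at h1
  exact hpdvd.trans h1

end Cfsg.Agent.S0578
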