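-- Statement S0579: Huppert's supersolvability criterion (all maximal subgroups of prime index).
import Cfsg.Statements.S0579
import Cfsg.Agent.Lib.Helper12.Supersolvable4
import Cfsg.Agent.Lib.Helper13.Basic
import Cfsg.Agent.S0057
import Mathlib

set_option autoImplicit false
set_option maxHeartbeats 400000
open Cfsg
open scoped Pointwise commutatorElement

namespace Cfsg.Agent.S0579

universe u

open Polynomial in
/-- An endomorphism `f` of a nonzero finite-dimensional `ZMod p`-space with `f ^ p = f` has an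
eigenvector. -/
lemma exists_eigenvector {p : ℕ} [Fact p.Prime] {V : Type*} [AddCommGroup V] [Module (ZMod p) V]
    [Module.Finite (ZMod p) V] [Nontrivial V] (f : Module.End (ZMod p) V)
    (hf' : ∀ x, (⇑f)^[p] x = f x) :
    ∃ (μ : ZMod p) (v : V), v ≠ 0 ∧ f v = μ • v := by
  have hp : p.Prime := Fact.out
  have hf : f ^ p = f := by
    apply LinearMap.ext
    intro x
    rw [Module.End.pow_apply]
    exact hf' x
  have hann : aeval f (X ^ p - X : (ZMod p)[X]) = 0 := by
    simp [hf]
  have hdvd : minpoly (ZMod p) f ∣ (X ^ p - X) := minpoly.dvd (ZMod p) f hann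
  have hsplit : (X ^ p - X : (ZMod p)[X]).Splits := by
    have := FiniteField.splits_X_pow_card_sub_X (p := p) (K := ZMod p)
    simpa [ZMod.card] using this
  have hne : (X ^ p - X : (ZMod p)[X]) ≠ 0 := FiniteField.X_pow_card_sub_X_ne_zero (ZMod p) hp.one_lt
  have hms : (minpoly (ZMod p) f).Splits := hsplit.of_dvd hne hdvd
  have hint : IsIntegral (ZMod p) f := Algebra.IsIntegral.isIntegral f
  have hdeg : (minpoly (ZMod p) f).degree ≠ 0 := (minpoly.degree_pos hint).ne'
  obtain ⟨μ, hμ⟩ := hms.exists_eval_eq_zero hdeg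
  have hev : f.HasEigenvalue μ := Module.End.hasEigenvalue_of_isRoot hμ
  obtain ⟨v, hv⟩ := hev.exists_hasEigenvector
  exact ⟨μ, v, hv.2, hv.apply_eq_smul⟩

/-- Group form: an endomorphism `ψ` of a nontrivial finite abelian group of exponent `p` with
`ψ^p = ψ` maps some nonidentity element to a power of itself. -/
lemma exists_eigen_group {p : ℕ} [Fact p.Prime] {W : Type*} [CommGroup W] [Finite W] [Nontrivial W]
    (hexp : ∀ w : W, w ^ p = 1) (ψ : W →* W) (hψ : ∀ w, ψ^[p] w = ψ w) :
    ∃ (k : ℕ) (v : W), v ≠ 1 ∧ ψ v = v ^ k := by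
  haveI : Module (ZMod p) (Additive W) := AddCommGroup.zmodModule (n := p) (fun x => by
    show Additive.ofMul (Additive.toMul x ^ p) = 0
    rw [hexp]; rfl)
  obtain ⟨μ, v, hv, hfv⟩ := exists_eigenvector (p := p) (V := Additive W)
    ((MonoidHom.toAdditive ψ).toZModLinearMap p) (fun x => hψ x)
  refine ⟨μ.val, Additive.toMul v, ?_, ?_⟩
  · intro h
    apply hv
    exact h
  · have h1 : μ • v = μ.val • v := by
      conv_lhs => rw [← ZMod.natCast_zmod_val μ]
      exact Nat.cast_smul_eq_nsmul _ _ _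
    rw [h1] at hfv
    exact hfv

/-- A subgroup `H` acting on an elementary abelian `p`-subgroup `N` with commutators and
`(p-1)`-th powers acting trivially normalizes a subgroup of order `p` of `N`. -/
lemma exists_invariant_zpowers {G : Type*} [Group G] [Finite G] {p : ℕ} [Fact p.Prime]
    (N H : Subgroup G) (hN : N ≠ ⊥) (hcomm : ∀ a ∈ N, ∀ b ∈ N, a * b = b * a)
    (hexp : ∀ a ∈ N, a ^ p = 1) (hHN : H ≤ Subgroup.normalizer (N : Set G))
    (hc : ∀ h₁ ∈ H, ∀ h₂ ∈ H, ∀ a ∈ N, ⁅h₁, h₂⁆ * a = a * ⁅h₁, h₂⁆)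
    (hpow : ∀ h ∈ H, ∀ a ∈ N, h ^ (p - 1) * a = a * h ^ (p - 1)) :
    ∃ v ∈ N, v ≠ 1 ∧ H ≤ Subgroup.normalizer ((Subgroup.zpowers v : Subgroup G) : Set G) := by
  classical
  have hp : p.Prime := Fact.out
  obtain ⟨S, hS⟩ : ∃ S : Set (Subgroup G), S = {W : Subgroup G | W ≤ N ∧ W ≠ ⊥ ∧
      H ≤ Subgroup.normalizer (W : Set G)} := ⟨_, rfl⟩
  have hSne : S.Nonempty := ⟨N, by rw [hS]; exact ⟨le_rfl, hN, hHN⟩⟩
  obtain ⟨W, hWmin⟩ := (Set.toFinite S).exists_minimal hSne
  have hWS : W ∈ S := hWmin.1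
  have hWmin' : ∀ W' : Subgroup G, W' ∈ S → W' ≤ W → W ≤ W' := fun W' h1 h2 => hWmin.2 h1 h2
  rw [hS] at hWS
  obtain ⟨hWN, hWne, hHW⟩ := hWS
  -- every h ∈ H acts on W as a power map
  have hscalar : ∀ h ∈ H, ∃ k : ℕ, ∀ w ∈ W, h * w * h⁻¹ = w ^ k := by
    intro h hh
    letI : CommGroup W :=
      { (inferInstance : Group W) with
        mul_comm := fun a b => Subtype.ext (hcomm a (hWN a.2) b (hWN b.2)) }
    haveI : Nontrivial W := (Subgroup.nontrivial_iff_ne_bot W).mpr hWne
    let ψ : W →* W :=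
      { toFun := fun w => ⟨h * w * h⁻¹, (Subgroup.mem_normalizer_iff.mp (hHW hh) w).mp w.2⟩
        map_one' := by apply Subtype.ext; simp
        map_mul' := by intro a b; apply Subtype.ext; simp }
    have hiter : ∀ j : ℕ, ∀ w : W, ((ψ^[j] w : W) : G) = h ^ j * w * (h ^ j)⁻¹ := by
      intro j
      induction j with
      | zero => intro w; simp
      | succ j ih =>
        intro w
        rw [Function.iterate_succ_apply']
        show h * ((ψ^[j] w : W) : G) * h⁻¹ = h ^ (j + 1) * w * (h ^ (j + 1))⁻¹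
        rw [ih, pow_succ']
        group
    have hψ : ∀ w : W, ψ^[p] w = ψ w := by
      intro w
      apply Subtype.ext
      rw [hiter]
      show h ^ p * (w : G) * (h ^ p)⁻¹ = h * w * h⁻¹
      have h1 : p = (p - 1) + 1 := by have := hp.one_lt; omega
      have h2 := hpow h hh w (hWN w.2)
      have h3 : h ^ p = h * h ^ (p - 1) := by rw [← pow_succ']; congr 1
      rw [h3, mul_inv_rev]
      calc h * h ^ (p - 1) * (w : G) * ((h ^ (p - 1))⁻¹ * h⁻¹)
          = h * (h ^ (p - 1) * (w : G)) * (h ^ (p - 1))⁻¹ * h⁻¹ := by group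
        _ = h * ((w : G) * h ^ (p - 1)) * (h ^ (p - 1))⁻¹ * h⁻¹ := by rw [h2]
        _ = h * w * h⁻¹ := by group
    have hexp' : ∀ w : W, w ^ p = 1 := fun w => Subtype.ext (hexp w (hWN w.2))
    obtain ⟨k, v, hv1, hψv⟩ := exists_eigen_group hexp' ψ hψ
    refine ⟨k, ?_⟩
    -- the eigen-subgroup
    let E : Subgroup G :=
      { carrier := {w | w ∈ W ∧ h * w * h⁻¹ = w ^ k}
        mul_mem' := by
          rintro a b ⟨ha, ha'⟩ ⟨hb, hb'⟩
          refine ⟨W.mul_mem ha hb, ?_⟩
          have hab : Commute a b := hcomm a (hWN ha) b (hWN hb)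
          rw [hab.mul_pow, ← ha', ← hb']; group
        one_mem' := ⟨W.one_mem, by simp⟩
        inv_mem' := by
          rintro a ⟨ha, ha'⟩
          refine ⟨W.inv_mem ha, ?_⟩
          rw [inv_pow, ← ha']; group }
    have hEW : E ≤ W := fun w hw => hw.1
    have hEmem : ∀ w, w ∈ E ↔ w ∈ W ∧ h * w * h⁻¹ = w ^ k := fun w => Iff.rfl
    have hES : E ∈ S := by
      rw [hS]
      refine ⟨hEW.trans hWN, ?_, ?_⟩
      · intro hbot
        have : (v : G) ∈ E := by
          rw [hEmem]
          refine ⟨v.2, ?_⟩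
          have := congrArg Subtype.val hψv
          exact this
        rw [hbot, Subgroup.mem_bot] at this
        exact hv1 (Subtype.ext this)
      · have key : ∀ g ∈ H, ∀ y ∈ E, g * y * g⁻¹ ∈ E := by
          intro g hg y hy
          rw [hEmem] at hy ⊢
          obtain ⟨hyW, hyk⟩ := hy
          refine ⟨(Subgroup.mem_normalizer_iff.mp (hHW hg) y).mp hyW, ?_⟩
          have hcy := hc h⁻¹ (H.inv_mem hh) g⁻¹ (H.inv_mem hg) y (hWN hyW)
          rw [commutatorElement_def, inv_inv, inv_inv] at hcy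
          -- h⁻¹ * g⁻¹ * h * g commutes with y
          rw [conj_pow, ← hyk]
          calc h * (g * y * g⁻¹) * h⁻¹
              = g * h * ((h⁻¹ * g⁻¹ * h * g) * y) * (h⁻¹ * g⁻¹ * h * g)⁻¹ * h⁻¹ * g⁻¹ := by group
            _ = g * h * (y * (h⁻¹ * g⁻¹ * h * g)) * (h⁻¹ * g⁻¹ * h * g)⁻¹ * h⁻¹ * g⁻¹ := by rw [hcy]
            _ = g * (h * y * h⁻¹) * g⁻¹ := by group
        intro g hg
        rw [Subgroup.mem_normalizer_iff]
        intro y
        constructor
        · exact key g hg y
        · intro hy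
          have := key g⁻¹ (H.inv_mem hg) _ hy
          have e : g⁻¹ * (g * y * g⁻¹) * g⁻¹⁻¹ = y := by group
          rwa [e] at this
    have hWE := hWmin' E hES hEW
    intro w hw
    exact (hWE hw).2
  -- pick a nonidentity element of W
  obtain ⟨v, hv1⟩ := (Subgroup.ne_bot_iff_exists_ne_one).mp hWne
  refine ⟨v, hWN v.2, fun h => hv1 (Subtype.ext h), ?_⟩
  have key : ∀ h ∈ H, ∀ y ∈ Subgroup.zpowers (v : G), h * y * h⁻¹ ∈ Subgroup.zpowers (v : G) := by
    intro h hh y hy
    obtain ⟨k, hk⟩ := hscalar h hh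
    obtain ⟨i, rfl⟩ := Subgroup.mem_zpowers_iff.mp hy
    rw [← conj_zpow, hk v v.2]
    exact Subgroup.zpow_mem _ (Subgroup.pow_mem _ (Subgroup.mem_zpowers _) k) i
  intro h hh
  rw [Subgroup.mem_normalizer_iff]
  intro y
  constructor
  · exact key h hh y
  · intro hy
    have := key h⁻¹ (H.inv_mem hh) _ hy
    have e : h⁻¹ * (h * y * h⁻¹) * h⁻¹⁻¹ = y := by group
    rwa [e] at this

/-- In a finite supersolvable group, a `p'`-element which is a commutator-subgroup element or a
`(p-1)`-th power centralizes every normal `p`-subgroup. -/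
theorem centralizes_aux (p : ℕ) [Fact p.Prime] : ∀ (n : ℕ) (X : Type u) [Group X] [Finite X],
    Nat.card X = n → IsSupersolvable X → ∀ (Q : Subgroup X), Q.Normal → IsPGroup p Q →
    ∀ k : X, (orderOf k).Coprime p → (k ∈ commutator X ∨ ∃ h : X, k = h ^ (p - 1)) →
    ∀ x ∈ Q, k * x = x * k := by
  intro n
  induction n using Nat.strong_induction_on with
  | _ n ih =>
    intro X _ _ hn hX Q hQn hQp k hkp hk x hx
    have hp : p.Prime := Fact.out
    by_cases hQ : Q = ⊥
    · rw [hQ, Subgroup.mem_bot] at hx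
      rw [hx]; simp
    haveI := hQn
    obtain ⟨N₁, hN₁Q, hN₁n, hN₁p⟩ := Lib.Helper12.exists_normal_card_prime_le hX Q hQ
    haveI := hN₁n
    have hN₁card : Nat.card N₁ = p := by
      rcases (hQp.to_le hN₁Q).card_eq_or_dvd with h1 | h1
      · rw [h1] at hN₁p; exact absurd hN₁p Nat.not_prime_one
      · exact ((Nat.prime_dvd_prime_iff_eq hp hN₁p).mp h1).symm
    haveI : IsCyclic N₁ := isCyclic_of_prime_card hN₁card
    -- k centralizes N₁
    have hkN : ∀ a ∈ N₁, k * a = a * k := by
      rcases hk with hk | ⟨h, rfl⟩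
      · intro a ha
        have := Lib.Helper12.commutator_le_centralizer_of_isCyclic N₁ hk
        rw [Subgroup.mem_centralizer_iff] at this
        exact (this a ha).symm
      · intro a ha
        have h1 : Nat.card (MulAut N₁) = p - 1 := by
          rw [IsCyclic.card_mulAut, hN₁card, Nat.totient_prime hp]
        have h2 : (MulAut.conjNormal (H := N₁) h) ^ (p - 1) = 1 := by
          rw [← h1]; exact pow_card_eq_one'
        have h3 : MulAut.conjNormal (H := N₁) (h ^ (p - 1)) = 1 := by
          rw [map_pow, h2]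
        have h4 := congrArg (fun e : MulAut N₁ => ((e ⟨a, ha⟩ : N₁) : X)) h3
        simp only [MulAut.conjNormal_apply, MulAut.one_apply] at h4
        calc h ^ (p - 1) * a = (h ^ (p - 1) * a * (h ^ (p - 1))⁻¹) * h ^ (p - 1) := by group
          _ = a * h ^ (p - 1) := by rw [h4]
    -- induction in the quotient
    have hlt : Nat.card (X ⧸ N₁) < n := by
      have hcardeq := Subgroup.card_eq_card_quotient_mul_card_subgroup N₁
      have h2 : 0 < Nat.card (X ⧸ N₁) := Nat.card_pos
      have := hp.one_lt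
      rw [← hn, hcardeq, hN₁card]
      nlinarith
    have hquot := Lib.Helper12.isSupersolvable_quotient hX N₁
    have hQ'n : (Q.map (QuotientGroup.mk' N₁)).Normal :=
      Subgroup.Normal.map hQn _ (QuotientGroup.mk'_surjective N₁)
    have hQ'p : IsPGroup p (Q.map (QuotientGroup.mk' N₁)) := hQp.map _
    have hk'p : (orderOf (QuotientGroup.mk' N₁ k)).Coprime p :=
      Nat.Coprime.coprime_dvd_left (orderOf_map_dvd _ k) hkp
    have hk' : QuotientGroup.mk' N₁ k ∈ commutator (X ⧸ N₁) ∨
        ∃ h' : X ⧸ N₁, QuotientGroup.mk' N₁ k = h' ^ (p - 1) := by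
      rcases hk with hk | ⟨h, rfl⟩
      · left
        have h1 : QuotientGroup.mk' N₁ k ∈ (commutator X).map (QuotientGroup.mk' N₁) :=
          Subgroup.mem_map_of_mem _ hk
        rw [commutator_def, Subgroup.map_commutator] at h1
        rw [commutator_def]
        exact Subgroup.commutator_mono le_top le_top h1
      · right
        exact ⟨QuotientGroup.mk' N₁ h, map_pow _ _ _⟩
    have hcomm' := ih _ hlt (X ⧸ N₁) rfl hquot _ hQ'n hQ'p _ hk'p hk' (QuotientGroup.mk' N₁ x)
      (Subgroup.mem_map_of_mem _ hx)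
    -- c := k x k⁻¹ x⁻¹ ∈ N₁
    have hc : k * x * k⁻¹ * x⁻¹ ∈ N₁ := by
      have h1 : (QuotientGroup.mk' N₁) (k * x * k⁻¹ * x⁻¹) = 1 := by
        rw [map_mul, map_mul, map_mul, hcomm', map_inv, map_inv]; group
      exact (QuotientGroup.eq_one_iff _).mp h1
    obtain ⟨c, hcdef⟩ : ∃ c, c = k * x * k⁻¹ * x⁻¹ := ⟨_, rfl⟩
    rw [← hcdef] at hc
    have hkc := hkN c hc
    have hconj : k * x * k⁻¹ = c * x := by rw [hcdef]; group
    have hiter : ∀ j : ℕ, k ^ j * x * (k ^ j)⁻¹ = c ^ j * x := by
      intro j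
      induction j with
      | zero => simp
      | succ j ihj =>
        have hkcj : k * c ^ j = c ^ j * k := Commute.pow_right hkc j
        calc k ^ (j + 1) * x * (k ^ (j + 1))⁻¹ = k * (k ^ j * x * (k ^ j)⁻¹) * k⁻¹ := by
              rw [pow_succ']; group
          _ = k * (c ^ j * x) * k⁻¹ := by rw [ihj]
          _ = (k * c ^ j) * x * k⁻¹ := by group
          _ = c ^ j * (k * x * k⁻¹) := by rw [hkcj]; group
          _ = c ^ (j + 1) * x := by rw [hconj, pow_succ]; group
    have hcm : c ^ orderOf k = 1 := by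
      have h1 := hiter (orderOf k)
      rw [pow_orderOf_eq_one, one_mul, inv_one, mul_one] at h1
      exact (mul_eq_right.mp h1.symm)
    have hcp : c ^ p = 1 := by
      have h1 : (⟨c, hc⟩ : N₁) ^ p = 1 := by rw [← hN₁card]; exact pow_card_eq_one'
      exact congrArg Subtype.val h1
    have hc1 : c = 1 := by
      have h1 := Nat.dvd_gcd (orderOf_dvd_of_pow_eq_one hcm) (orderOf_dvd_of_pow_eq_one hcp)
      rw [Nat.Coprime.gcd_eq_one hkp] at h1
      exact orderOf_eq_one_iff.mp (Nat.dvd_one.mp h1)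
    rw [hc1, one_mul] at hconj
    calc k * x = (k * x * k⁻¹) * k := by group
      _ = x * k := by rw [hconj]

/-- Huppert's theorem, by induction on the order. -/
theorem main : ∀ (n : ℕ) (G : Type u) [Group G] [Finite G], Nat.card G = n →
    (∀ M : Subgroup G, IsCoatom M → M.index.Prime) → IsSupersolvable G := by
  intro n
  induction n using Nat.strong_induction_on with
  | _ n ih =>
    intro G _ _ hn h
    classical
    by_cases htriv : Subsingleton G
    · exact Lib.Helper12.isSupersolvable_of_subsingleton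
    rw [not_subsingleton_iff_nontrivial] at htriv
    have hcard : 1 < Nat.card G := Finite.one_lt_card
    have hne : (Nat.card G).primeFactors.Nonempty := by
      rw [Nat.nonempty_primeFactors]; exact hcard
    obtain ⟨p, hpdef⟩ : ∃ p, p = (Nat.card G).primeFactors.max' hne := ⟨_, rfl⟩
    have hpmem : p ∈ (Nat.card G).primeFactors := by rw [hpdef]; exact Finset.max'_mem _ _
    have hp : p.Prime := Nat.prime_of_mem_primeFactors hpmem
    have hpdvd : p ∣ Nat.card G := Nat.dvd_of_mem_primeFactors hpmem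
    have hpmax : ∀ r : ℕ, r.Prime → r ∣ Nat.card G → r ≤ p := by
      intro r hr hrdvd
      rw [hpdef]
      apply Finset.le_max'
      exact Nat.mem_primeFactors.mpr ⟨hr, hrdvd, Nat.card_pos.ne'⟩
    haveI : Fact p.Prime := ⟨hp⟩
    obtain ⟨P⟩ : Nonempty (Sylow p G) := inferInstance
    have hPn : (P : Subgroup G).Normal := by
      by_contra hPn
      have hN : Subgroup.normalizer ((P : Subgroup G) : Set G) ≠ ⊤ :=
        fun h => hPn (Subgroup.normalizer_eq_top_iff.mp h)
      obtain ⟨M, hM, hNM⟩ := (eq_top_or_exists_le_coatom _).resolve_left hN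
      have hr := h M hM
      have hPM : (P : Subgroup G) ≤ M := le_trans Subgroup.le_normalizer hNM
      have h1 : Nat.card (Sylow p G) = (Subgroup.normalizer ((P : Subgroup G) : Set G)).index :=
        Sylow.card_eq_index_normalizer P
      have h2 : Nat.card (Sylow p M) =
          (Subgroup.normalizer (((P.subtype hPM : Sylow p M) : Subgroup M) : Set M)).index :=
        Sylow.card_eq_index_normalizer (P.subtype hPM)
      have h3 : (Subgroup.normalizer (((P.subtype hPM : Sylow p M) : Subgroup M) : Set M)).index =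
          (Subgroup.normalizer ((P : Subgroup G) : Set G)).relIndex M := by
        rw [Subgroup.relIndex, Sylow.coe_subtype, Subgroup.subgroupOf_normalizer_eq hPM]
      have h4 := Subgroup.relIndex_mul_index hNM
      have m1 : Nat.card (Sylow p G) ≡ 1 [MOD p] := card_sylow_modEq_one p G
      have m2 : Nat.card (Sylow p M) ≡ 1 [MOD p] := card_sylow_modEq_one p M
      have hr1 : M.index ≡ 1 [MOD p] := by
        have h6 : Nat.card (Sylow p M) * M.index ≡ 1 [MOD p] := by
          rw [h2, h3, h4, ← h1]; exact m1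
        have h5 : Nat.card (Sylow p M) * M.index ≡ 1 * M.index [MOD p] := Nat.ModEq.mul_right _ m2
        rw [one_mul] at h5
        exact h5.symm.trans h6
      have hrdvd : M.index ∣ Nat.card G := Subgroup.index_dvd_card M
      have hle := hpmax _ hr hrdvd
      have h7 : p ∣ M.index - 1 := (Nat.modEq_iff_dvd' hr.one_lt.le).mp hr1.symm
      have h8 := Nat.le_of_dvd (by have := hr.one_lt; omega) h7
      have := hr.one_lt
      omega
    haveI := hPn
    have hPne : (P : Subgroup G) ≠ ⊥ := P.ne_bot_of_dvd_card hpdvd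
    obtain ⟨N, hNP, hNn, hNne, hmin⟩ :=
      Lib.Helper13.exists_minimal_normal_le (P : Subgroup G) hPn hPne
    haveI := hNn
    have hpN : IsPGroup p N := P.isPGroup'.to_le hNP
    haveI hNsolv : Group.IsSolvable N := by
      haveI := hpN.isNilpotent
      infer_instance
    obtain ⟨q, hq, hqdvd, hcomm, hexpq, -⟩ :=
      Lib.Helper13.minimal_normal_solvable N hNn hNne hmin
    have hqp : q = p := by
      obtain ⟨m, hm⟩ := hpN.exists_card_eq
      rw [hm] at hqdvd
      exact (Nat.prime_dvd_prime_iff_eq hq hp).mp (hq.dvd_of_dvd_pow hqdvd)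
    have hexp : ∀ a ∈ N, a ^ p = 1 := by rw [← hqp]; exact hexpq
    have hcardeq := Subgroup.card_eq_card_quotient_mul_card_subgroup N
    have hlt : Nat.card (G ⧸ N) < n := by
      have h1 : 1 < Nat.card N := (Subgroup.one_lt_card_iff_ne_bot _).mpr hNne
      have h2 : 0 < Nat.card (G ⧸ N) := Nat.card_pos
      rw [← hn, hcardeq]
      nlinarith
    have hq' : ∀ M' : Subgroup (G ⧸ N), IsCoatom M' → M'.index.Prime := by
      intro M' hM'
      have hc := Lib.Helper13.isCoatom_comap_of_surjective (QuotientGroup.mk' N)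
        (QuotientGroup.mk'_surjective _) M' hM'
      have h1 := h _ hc
      rwa [Subgroup.index_comap_of_surjective _ (QuotientGroup.mk'_surjective _)] at h1
    have hquot : IsSupersolvable (G ⧸ N) := ih _ hlt _ rfl hq'
    suffices hcyc : IsCyclic N by
      haveI := hcyc
      exact Lib.Helper12.isSupersolvable_of_isCyclic_of_quotient N hquot
    by_cases hex : ∃ M : Subgroup G, IsCoatom M ∧ ¬ N ≤ M
    · obtain ⟨M, hM, hNM⟩ := hex
      have hcompl :=
        Lib.Helper13.isComplement'_of_minimal_normal_of_isCoatom N M hNn hcomm hmin hM hNM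
      have hcardN : Nat.card N = M.index := hcompl.index_eq_card.symm
      haveI : Fact (M.index).Prime := ⟨h M hM⟩
      exact isCyclic_of_prime_card hcardN
    push_neg at hex
    -- a complement of P
    obtain ⟨H, hH⟩ := Subgroup.exists_right_complement'_of_coprime (N := (P : Subgroup G))
      P.card_coprime_index
    have hPH : (P : Subgroup G) ⊓ H = ⊥ := disjoint_iff.mp hH.disjoint
    have hPHtop : (P : Subgroup G) ⊔ H = ⊤ := hH.sup_eq_top
    have hcardH : (P : Subgroup G).index = Nat.card H := hH.symm.index_eq_card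
    have hcopHP : (Nat.card H).Coprime (Nat.card (P : Subgroup G)) := by
      rw [← hcardH]; exact P.card_coprime_index.symm
    have hpH : ¬ p ∣ Nat.card H := by
      intro hd
      have h1 : p ∣ Nat.card (P : Subgroup G) := by
        rcases P.isPGroup'.card_eq_or_dvd with h1 | h1
        · exact absurd (Subgroup.card_eq_one.mp h1) hPne
        · exact h1
      have h2 := Nat.dvd_gcd hd h1
      rw [Nat.Coprime.gcd_eq_one hcopHP] at h2
      exact hp.one_lt.ne' (Nat.dvd_one.mp h2)
    -- the set S of commutators and (p-1)-th powers of H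
    obtain ⟨S, hSdef⟩ : ∃ S : Set G, S = {k : G | k ∈ H ∧
        ((∃ h₁ ∈ H, ∃ h₂ ∈ H, k = ⁅h₁, h₂⁆) ∨ ∃ h₀ ∈ H, k = h₀ ^ (p - 1))} := ⟨_, rfl⟩
    have hSH : S ⊆ H := by rw [hSdef]; exact fun k hk => hk.1
    have hS1 : ∀ k ∈ S, ∀ x ∈ (P : Subgroup G), k * x * k⁻¹ * x⁻¹ ∈ N := by
      intro k hk x hx
      rw [hSdef] at hk
      obtain ⟨hkH, hk2⟩ := hk
      have hkord : (orderOf (QuotientGroup.mk' N k)).Coprime p := by
        apply Nat.Coprime.symm
        rw [Nat.Prime.coprime_iff_not_dvd hp]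
        intro hd
        apply hpH
        have h1 : orderOf (QuotientGroup.mk' N k) ∣ orderOf k := orderOf_map_dvd _ k
        have h2 : orderOf k ∣ Nat.card H := by
          have h3 := orderOf_dvd_natCard (⟨k, hkH⟩ : H)
          rwa [Subgroup.orderOf_mk] at h3
        exact hd.trans (h1.trans h2)
      have hk' : QuotientGroup.mk' N k ∈ commutator (G ⧸ N) ∨
          ∃ h' : G ⧸ N, QuotientGroup.mk' N k = h' ^ (p - 1) := by
        rcases hk2 with ⟨h₁, -, h₂, -, rfl⟩ | ⟨h₀, -, rfl⟩
        · left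
          rw [map_commutatorElement, commutator_def]
          exact Subgroup.commutator_mem_commutator (Subgroup.mem_top _) (Subgroup.mem_top _)
        · right
          exact ⟨QuotientGroup.mk' N h₀, map_pow _ _ _⟩
      have hcomm' := centralizes_aux p _ (G ⧸ N) rfl hquot
        ((P : Subgroup G).map (QuotientGroup.mk' N))
        (Subgroup.Normal.map hPn _ (QuotientGroup.mk'_surjective N)) (P.isPGroup'.map _) _
        hkord hk' (QuotientGroup.mk' N x) (Subgroup.mem_map_of_mem _ hx)
      have h1 : (QuotientGroup.mk' N) (k * x * k⁻¹ * x⁻¹) = 1 := by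
        rw [map_mul, map_mul, map_mul, hcomm', map_inv, map_inv]; group
      exact (QuotientGroup.eq_one_iff _).mp h1
    -- the subgroup K generated by S
    obtain ⟨K, hKdef⟩ : ∃ K : Subgroup G, K = Subgroup.closure S := ⟨_, rfl⟩
    have hKH : K ≤ H := by rw [hKdef]; exact (Subgroup.closure_le H).mpr hSH
    have hSK : S ⊆ K := by rw [hKdef]; exact Subgroup.subset_closure
    have hK1 : ∀ k ∈ K, ∀ x ∈ (P : Subgroup G), k * x * k⁻¹ * x⁻¹ ∈ N := by
      have hle : K ≤ (Subgroup.centralizer
          ((((P : Subgroup G).map (QuotientGroup.mk' N) : Subgroup (G ⧸ N))) : Set (G ⧸ N))).comap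
          (QuotientGroup.mk' N) := by
        rw [hKdef, Subgroup.closure_le]
        intro k hk
        show QuotientGroup.mk' N k ∈ Subgroup.centralizer _
        rw [Subgroup.mem_centralizer_iff]
        rintro _ ⟨x, hx, rfl⟩
        have h1 := hS1 k hk x hx
        have h2 : (QuotientGroup.mk' N) (k * x * k⁻¹ * x⁻¹) = 1 :=
          (QuotientGroup.eq_one_iff _).mpr h1
        rw [map_mul, map_mul, map_mul, map_inv, map_inv] at h2
        have h3 := mul_inv_eq_one.mp h2
        have h4 := mul_inv_eq_iff_eq_mul.mp h3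
        exact h4.symm
      intro k hk x hx
      have h1 : QuotientGroup.mk' N k ∈ Subgroup.centralizer
          ((((P : Subgroup G).map (QuotientGroup.mk' N) : Subgroup (G ⧸ N))) : Set (G ⧸ N)) :=
        hle hk
      rw [Subgroup.mem_centralizer_iff] at h1
      have h3 := h1 _ (Subgroup.mem_map_of_mem (QuotientGroup.mk' N) hx)
      have h4 : (QuotientGroup.mk' N) (k * x * k⁻¹ * x⁻¹) = 1 := by
        rw [map_mul, map_mul, map_mul, ← h3, map_inv, map_inv]; group
      exact (QuotientGroup.eq_one_iff _).mp h4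
    -- H normalizes K
    have hHK : ∀ h₀ ∈ H, ∀ k ∈ K, h₀ * k * h₀⁻¹ ∈ K := by
      intro h₀ hh₀ k hk
      rw [hKdef] at hk ⊢
      induction hk using Subgroup.closure_induction with
      | mem k hk =>
        apply Subgroup.subset_closure
        rw [hSdef] at hk ⊢
        obtain ⟨hkH, hk2⟩ := hk
        refine ⟨H.mul_mem (H.mul_mem hh₀ hkH) (H.inv_mem hh₀), ?_⟩
        rcases hk2 with ⟨h₁, hh₁, h₂, hh₂, rfl⟩ | ⟨h₁, hh₁, rfl⟩
        · left
          refine ⟨h₀ * h₁ * h₀⁻¹, H.mul_mem (H.mul_mem hh₀ hh₁) (H.inv_mem hh₀),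
            h₀ * h₂ * h₀⁻¹, H.mul_mem (H.mul_mem hh₀ hh₂) (H.inv_mem hh₀), ?_⟩
          simp only [commutatorElement_def]; group
        · right
          refine ⟨h₀ * h₁ * h₀⁻¹, H.mul_mem (H.mul_mem hh₀ hh₁) (H.inv_mem hh₀), ?_⟩
          rw [conj_pow]
      | one => simp
      | mul a b _ _ iha ihb =>
        have e : h₀ * (a * b) * h₀⁻¹ = (h₀ * a * h₀⁻¹) * (h₀ * b * h₀⁻¹) := by group
        rw [e]; exact Subgroup.mul_mem _ iha ihb
      | inv a _ iha =>
        have e : h₀ * a⁻¹ * h₀⁻¹ = (h₀ * a * h₀⁻¹)⁻¹ := by group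
        rw [e]; exact Subgroup.inv_mem _ iha
    -- lifting centralizers
    have hKcop : (Nat.card K).Coprime (Nat.card N) :=
      Nat.Coprime.coprime_dvd_left (Subgroup.card_dvd_of_le hKH)
        (Nat.Coprime.coprime_dvd_right (Subgroup.card_dvd_of_le hNP) hcopHP)
    have hKnorm : K ≤ Subgroup.normalizer (N : Set G) := by
      rw [Subgroup.normalizer_eq_top_iff.mpr hNn]; exact le_top
    obtain ⟨C, hCdef⟩ : ∃ C : Subgroup G,
        C = (P : Subgroup G) ⊓ Subgroup.centralizer (K : Set G) := ⟨_, rfl⟩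
    have hdecomp : ∀ x ∈ (P : Subgroup G), ∃ a ∈ N, ∃ c ∈ C, x = a * c := by
      intro x hx
      obtain ⟨a, ha, hac⟩ := Cfsg.Agent.S0057.lift_fix hKnorm hKcop (Or.inr hNsolv) x
        (fun k hk => by
          have h1 := hK1 k hk x hx
          have h2 : x * k * x⁻¹ * k⁻¹ = (k * x * k⁻¹ * x⁻¹)⁻¹ := by group
          rw [h2]; exact N.inv_mem h1)
      refine ⟨a, ha, a⁻¹ * x, ?_, by group⟩
      rw [hCdef]
      exact ⟨(P : Subgroup G).mul_mem ((P : Subgroup G).inv_mem (hNP ha)) hx, hac⟩
    have hCHtop : C ⊔ H = ⊤ := by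
      by_contra hne'
      obtain ⟨M, hM, hCM⟩ := (eq_top_or_exists_le_coatom _).resolve_left hne'
      have hNM := hex M hM
      apply hM.1
      rw [eq_top_iff]
      intro g _
      obtain ⟨x, hx, h₀, hh₀, rfl⟩ :=
        Lib.Helper13.exists_mul_of_sup_eq_top (P : Subgroup G) H hPHtop g
      obtain ⟨a, ha, c, hc, rfl⟩ := hdecomp x hx
      exact M.mul_mem (M.mul_mem (hNM ha) (hCM (Subgroup.mem_sup_left hc)))
        (hCM (Subgroup.mem_sup_right hh₀))
    -- H normalizes C
    have hHC : H ≤ Subgroup.normalizer (C : Set G) := by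
      have key : ∀ h₀ ∈ H, ∀ c ∈ C, h₀ * c * h₀⁻¹ ∈ C := by
        intro h₀ hh₀ c hc
        rw [hCdef] at hc ⊢
        refine ⟨hPn.conj_mem c hc.1 h₀, ?_⟩
        show h₀ * c * h₀⁻¹ ∈ Subgroup.centralizer (K : Set G)
        rw [Subgroup.mem_centralizer_iff]
        intro k hk
        have h1 := hHK h₀⁻¹ (H.inv_mem hh₀) k hk
        rw [inv_inv] at h1
        have hc2 : c ∈ Subgroup.centralizer (K : Set G) := hc.2
        have h2 := (Subgroup.mem_centralizer_iff.mp hc2) _ h1
        calc k * (h₀ * c * h₀⁻¹) = h₀ * ((h₀⁻¹ * k * h₀) * c) * h₀⁻¹ := by group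
          _ = h₀ * (c * (h₀⁻¹ * k * h₀)) * h₀⁻¹ := by rw [h2]
          _ = h₀ * c * h₀⁻¹ * k := by group
      intro h₀ hh₀
      rw [Subgroup.mem_normalizer_iff]
      intro y
      constructor
      · exact key h₀ hh₀ y
      · intro hy
        have h1 := key h₀⁻¹ (H.inv_mem hh₀) _ hy
        have e : h₀⁻¹ * (h₀ * y * h₀⁻¹) * h₀⁻¹⁻¹ = y := by group
        rwa [e] at h1
    have hPC : (P : Subgroup G) ≤ C := by
      intro x hx
      have hx' : x ∈ ((C ⊔ H : Subgroup G) : Set G) := by
        rw [hCHtop]; exact Subgroup.mem_top x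
      rw [Subgroup.coe_mul_of_right_le_normalizer_left C H hHC] at hx'
      obtain ⟨c, hc, h₀, hh₀, hch⟩ := hx'
      have hch' : c * h₀ = x := hch
      have hcC : c ∈ C := hc
      have hcP : c ∈ (P : Subgroup G) := by rw [hCdef] at hcC; exact hcC.1
      have hh₀P : h₀ ∈ (P : Subgroup G) ⊓ H := by
        refine ⟨?_, hh₀⟩
        have e : h₀ = c⁻¹ * x := by rw [← hch']; group
        show h₀ ∈ (P : Subgroup G)
        rw [e]; exact (P : Subgroup G).mul_mem ((P : Subgroup G).inv_mem hcP) hx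
      rw [hPH, Subgroup.mem_bot] at hh₀P
      rw [← hch', hh₀P, mul_one]; exact hcC
    have hSP : ∀ k ∈ S, ∀ x ∈ (P : Subgroup G), k * x = x * k := by
      intro k hk x hx
      have h1 := hPC hx
      rw [hCdef] at h1
      have h2 : x ∈ Subgroup.centralizer (K : Set G) := h1.2
      exact Subgroup.mem_centralizer_iff.mp h2 k (hSK hk)
    -- N is central in P
    have hNZ : ∀ a ∈ N, ∀ x ∈ (P : Subgroup G), x * a = a * x := by
      obtain ⟨b, hbN, hb1, hb⟩ := Lib.Helper12.exists_ne_one_mem_centralized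
        (P := (P : Subgroup G)) (D := N) P.isPGroup' hNP hNne
      have hZn : (N ⊓ Subgroup.centralizer ((P : Subgroup G) : Set G)).Normal := inferInstance
      rcases hmin _ hZn inf_le_left with h1 | h1
      · exfalso
        have h2 : b ∈ N ⊓ Subgroup.centralizer ((P : Subgroup G) : Set G) :=
          ⟨hbN, Subgroup.mem_centralizer_iff.mpr (fun x hx => hb x hx)⟩
        rw [h1, Subgroup.mem_bot] at h2
        exact hb1 h2
      · intro a ha x hx
        have h2 : a ∈ N ⊓ Subgroup.centralizer ((P : Subgroup G) : Set G) := by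
          rw [h1]; exact ha
        have h3 : a ∈ Subgroup.centralizer ((P : Subgroup G) : Set G) := h2.2
        exact Subgroup.mem_centralizer_iff.mp h3 x hx
    -- an H-invariant subgroup of order p in N
    have hHN : H ≤ Subgroup.normalizer (N : Set G) := by
      rw [Subgroup.normalizer_eq_top_iff.mpr hNn]; exact le_top
    obtain ⟨v, hvN, hv1, hHv⟩ := exists_invariant_zpowers (p := p) N H hNne hcomm hexp hHN
      (fun h₁ hh₁ h₂ hh₂ a ha => hSP _ (by
        rw [hSdef]
        refine ⟨?_, Or.inl ⟨h₁, hh₁, h₂, hh₂, rfl⟩⟩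
        rw [commutatorElement_def]
        exact H.mul_mem (H.mul_mem (H.mul_mem hh₁ hh₂) (H.inv_mem hh₁)) (H.inv_mem hh₂))
        a (hNP ha))
      (fun h₀ hh₀ a ha => hSP _ (by
        rw [hSdef]
        exact ⟨H.pow_mem hh₀ _, Or.inr ⟨h₀, hh₀, rfl⟩⟩) a (hNP ha))
    have hzN : Subgroup.zpowers v ≤ N := by rw [Subgroup.zpowers_le]; exact hvN
    have hzn : (Subgroup.zpowers v).Normal := by
      constructor
      intro w hw g
      obtain ⟨x, hx, h₀, hh₀, rfl⟩ :=
        Lib.Helper13.exists_mul_of_sup_eq_top (P : Subgroup G) H hPHtop g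
      have h1 : h₀ * w * h₀⁻¹ ∈ Subgroup.zpowers v :=
        (Subgroup.mem_normalizer_iff.mp (hHv hh₀) w).mp hw
      have h2 := hNZ _ (hzN h1) x hx
      have h3 : x * h₀ * w * (x * h₀)⁻¹ = x * (h₀ * w * h₀⁻¹) * x⁻¹ := by group
      rw [h3, h2]
      have h4 : h₀ * w * h₀⁻¹ * x * x⁻¹ = h₀ * w * h₀⁻¹ := by group
      rw [h4]; exact h1
    rcases hmin _ hzn hzN with h1 | h1
    · exfalso
      have h2 : v ∈ Subgroup.zpowers v := Subgroup.mem_zpowers v
      rw [h1, Subgroup.mem_bot] at h2
      exact hv1 h2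
    · exact h1 ▸ (inferInstance : IsCyclic (Subgroup.zpowers v))

/-- Huppert's supersolvability criterion: if every maximal subgroup of a finite group has prime index, then the group is supersolvable. -/
theorem result {G : Type*} [Group G] [Finite G] (h : ∀ M : Subgroup G, IsCoatom M → M.index.Prime) : Cfsg.IsSupersolvable G := by
  exact main _ G rfl h

end Cfsg.Agent.S0579
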