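import Cfsg.Statements.S0580
import Mathlib
import Cfsg.Agent.Lib.Helper13.Basic

set_option autoImplicit false
open Cfsg

namespace Cfsg.Agent.S0580

open Cfsg.Agent.Lib.Helper13 in
theorem aux.{u} (n : ℕ) : ∀ (G : Type u) [Group G] [Finite G], Nat.card G = n →
    (∀ M : Subgroup G, IsCoatom M → M.index.Prime) → Group.IsSolvable G := by
  induction n using Nat.strong_induction_on with
  | _ n ih =>
    intro G _ _ hn h
    classical
    by_cases htriv : Subsingleton G
    · infer_instance
    rw [not_subsingleton_iff_nontrivial] at htriv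
    have hcard : 1 < Nat.card G := Finite.one_lt_card
    have hne : (Nat.card G).primeFactors.Nonempty := by
      rw [Nat.nonempty_primeFactors]; exact hcard
    obtain ⟨p, hpdef⟩ : ∃ p, p = (Nat.card G).primeFactors.max' hne := ⟨_, rfl⟩
    have hpmem : p ∈ (Nat.card G).primeFactors := by rw [hpdef]; exact Finset.max'_mem _ _
    have hp : p.Prime := Nat.prime_of_mem_primeFactors hpmem
    have hpdvd : p ∣ Nat.card G := Nat.dvd_of_mem_primeFactors hpmem
    have hpmax : ∀ r : ℕ, r.Prime → r ∣ Nat.card G → r ≤ p := by
      intro r hr hrdvd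
      rw [hpdef]
      apply Finset.le_max'
      exact Nat.mem_primeFactors.mpr ⟨hr, hrdvd, Nat.card_pos.ne'⟩
    haveI : Fact p.Prime := ⟨hp⟩
    obtain ⟨P⟩ : Nonempty (Sylow p G) := inferInstance
    have hPn : (P : Subgroup G).Normal := by
      by_contra hPn
      have hN : Subgroup.normalizer ((P : Subgroup G) : Set G) ≠ ⊤ :=
        fun h => hPn (Subgroup.normalizer_eq_top_iff.mp h)
      obtain ⟨M, hM, hNM⟩ := (eq_top_or_exists_le_coatom _).resolve_left hN
      have hr := h M hM
      have hPM : (P : Subgroup G) ≤ M := le_trans Subgroup.le_normalizer hNM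
      have h1 : Nat.card (Sylow p G) = (Subgroup.normalizer ((P : Subgroup G) : Set G)).index :=
        Sylow.card_eq_index_normalizer P
      have h2 : Nat.card (Sylow p M) =
          (Subgroup.normalizer (((P.subtype hPM : Sylow p M) : Subgroup M) : Set M)).index :=
        Sylow.card_eq_index_normalizer (P.subtype hPM)
      have h3 : (Subgroup.normalizer (((P.subtype hPM : Sylow p M) : Subgroup M) : Set M)).index =
          (Subgroup.normalizer ((P : Subgroup G) : Set G)).relIndex M := by
        rw [Subgroup.relIndex, Sylow.coe_subtype, Subgroup.subgroupOf_normalizer_eq hPM]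
      have h4 := Subgroup.relIndex_mul_index hNM
      have m1 : Nat.card (Sylow p G) ≡ 1 [MOD p] := card_sylow_modEq_one p G
      have m2 : Nat.card (Sylow p M) ≡ 1 [MOD p] := card_sylow_modEq_one p M
      have hr1 : M.index ≡ 1 [MOD p] := by
        have h6 : Nat.card (Sylow p M) * M.index ≡ 1 [MOD p] := by
          rw [h2, h3, h4, ← h1]; exact m1
        have h5 : Nat.card (Sylow p M) * M.index ≡ 1 * M.index [MOD p] := Nat.ModEq.mul_right _ m2
        rw [one_mul] at h5
        exact h5.symm.trans h6
      have hrdvd : M.index ∣ Nat.card G := Subgroup.index_dvd_card M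
      have hle := hpmax _ hr hrdvd
      have h7 : p ∣ M.index - 1 := (Nat.modEq_iff_dvd' hr.one_lt.le).mp hr1.symm
      have h8 := Nat.le_of_dvd (by have := hr.one_lt; omega) h7
      have := hr.one_lt
      omega
    haveI := hPn
    have hPne : (P : Subgroup G) ≠ ⊥ := P.ne_bot_of_dvd_card hpdvd
    have hcardeq := Subgroup.card_eq_card_quotient_mul_card_subgroup (P : Subgroup G)
    have hlt : Nat.card (G ⧸ (P : Subgroup G)) < n := by
      have h1 : 1 < Nat.card (P : Subgroup G) := (Subgroup.one_lt_card_iff_ne_bot _).mpr hPne
      have h2 : 0 < Nat.card (G ⧸ (P : Subgroup G)) := Nat.card_pos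
      rw [← hn, hcardeq]
      nlinarith
    have hq : ∀ M' : Subgroup (G ⧸ (P : Subgroup G)), IsCoatom M' → M'.index.Prime := by
      intro M' hM'
      have hc := isCoatom_comap_of_surjective (QuotientGroup.mk' (P : Subgroup G))
        (QuotientGroup.mk'_surjective _) M' hM'
      have h1 := h _ hc
      rwa [Subgroup.index_comap_of_surjective _ (QuotientGroup.mk'_surjective _)] at h1
    haveI : Group.IsSolvable (G ⧸ (P : Subgroup G)) := ih _ hlt _ rfl hq
    haveI : Group.IsSolvable (P : Subgroup G) := by
      haveI := P.isPGroup'.isNilpotent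
      infer_instance
    exact (Group.isSolvable_iff_subgroup_quotient (P : Subgroup G)).mpr ⟨inferInstance, inferInstance⟩

/-- If every maximal subgroup of a finite group has prime index, then the group is solvable. -/
theorem result {G : Type*} [Group G] [Finite G] (h : ∀ M : Subgroup G, IsCoatom M → M.index.Prime) : Group.IsSolvable G := by
  exact aux _ G rfl h

end Cfsg.Agent.S0580
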