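import Cfsg.Statements.S0581
import Mathlib
import Cfsg.Agent.Lib.Helper13.Nilp
import Cfsg.Agent.Lib.Helper13.Perm
import Cfsg.Agent.S0536

set_option autoImplicit false
open Pointwise
open Cfsg

namespace Cfsg.Agent.S0581

open Cfsg.Agent.Lib.Helper13 in
theorem key {G : Type*} [Group G] [Finite G] (H K : Subgroup G) [hH : Group.IsNilpotent H]
    (p : ℕ) [Fact p.Prime] (hpH : ¬ p ∣ H.index) (hT : coprimeClosure p K ≤ H) :
    ∃ d : G, K ≤ MulAut.conj d • H := by
  classical
  obtain ⟨HP⟩ : Nonempty (Sylow p ↥H) := inferInstance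
  obtain ⟨Hp, hHpdef⟩ : ∃ Hp : Subgroup G, Hp = (HP : Subgroup ↥H).map H.subtype := ⟨_, rfl⟩
  have hHpH : Hp ≤ H := by rw [hHpdef]; exact Subgroup.map_subtype_le _
  have hHpp : IsPGroup p Hp := by rw [hHpdef]; exact HP.isPGroup'.map _
  have hHpidx : ¬ p ∣ Hp.index := by rw [hHpdef]; exact not_dvd_index_map_sylow p H hpH HP
  have hcent : ∀ t ∈ coprimeClosure p K, ∀ y ∈ Hp, y * t = t * y := by
    have hle : coprimeClosure p K ≤ Subgroup.centralizer (Hp : Set G) := by
      unfold coprimeClosure
      rw [Subgroup.closure_le]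
      rintro x ⟨hxK, hxo⟩
      have hxH : x ∈ H := hT (Subgroup.subset_closure ⟨hxK, hxo⟩)
      rw [SetLike.mem_coe, Subgroup.mem_centralizer_iff]
      intro y hy
      rw [hHpdef] at hy
      obtain ⟨y', hy', rfl⟩ := hy
      have ho : orderOf (⟨x, hxH⟩ : ↥H) = orderOf x := Subgroup.orderOf_mk x hxH
      have h1 := commute_of_coprime_of_nilpotent HP ⟨x, hxH⟩ (by rw [ho]; exact hxo) y' hy'
      have h2 := congrArg Subtype.val h1
      exact h2.symm
    intro t ht y hy
    have h1 := hle ht
    rw [Subgroup.mem_centralizer_iff] at h1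
    exact h1 y hy
  obtain ⟨D, hDdef⟩ : ∃ D : Subgroup G,
      D = Subgroup.normalizer ((coprimeClosure p K : Subgroup G) : Set G) := ⟨_, rfl⟩
  have hKD : K ≤ D := by rw [hDdef]; exact le_normalizer_coprimeClosure p K
  have hHpD : Hp ≤ D := by
    rw [hDdef]
    intro y hy
    apply Subgroup.mem_normalizer_fintype
    intro t ht
    have h1 := hcent t ht y hy
    have h2 : y * t * y⁻¹ = t := by rw [h1]; group
    rw [h2]; exact ht
  obtain ⟨P⟩ : Nonempty (Sylow p ↥K) := inferInstance
  obtain ⟨Pg, hPgdef⟩ : ∃ Pg : Subgroup G, Pg = (P : Subgroup ↥K).map K.subtype := ⟨_, rfl⟩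
  have hPgK : Pg ≤ K := by rw [hPgdef]; exact Subgroup.map_subtype_le _
  have hPgp : IsPGroup p Pg := by rw [hPgdef]; exact P.isPGroup'.map _
  have hS0 : IsPGroup p (Hp.subgroupOf D) :=
    hHpp.comap_of_injective D.subtype D.subtype_injective
  have hi0 : ¬ p ∣ (Hp.subgroupOf D).index := by
    intro h
    exact hHpidx (h.trans (Subgroup.relIndex_dvd_index_of_le hHpD))
  have hS1 : IsPGroup p (Pg.subgroupOf D) :=
    hPgp.comap_of_injective D.subtype D.subtype_injective
  obtain ⟨S, hS⟩ := hS1.exists_le_sylow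
  obtain ⟨d, hd⟩ := MulAction.exists_smul_eq ↥D (hS0.toSylow hi0) S
  have hd' : MulAut.conj d • Hp.subgroupOf D = (S : Subgroup ↥D) :=
    congrArg (fun P : Sylow p ↥D => (P : Subgroup ↥D)) hd
  refine ⟨(d : G), ?_⟩
  intro k hk
  obtain ⟨t, ht, y, hy, rfl⟩ := exists_mul_coprimeClosure_sylow p K P k hk
  rw [← hPgdef] at hy
  have hyD : y ∈ D := hKD (hPgK hy)
  have h1 : (⟨y, hyD⟩ : ↥D) ∈ (S : Subgroup ↥D) :=
    hS (by rw [Subgroup.mem_subgroupOf]; exact hy)
  rw [← hd', Subgroup.mem_smul_pointwise_iff_exists] at h1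
  obtain ⟨z, hz, hzy⟩ := h1
  rw [Subgroup.mem_subgroupOf] at hz
  have hzy' : (d : G) * (z : G) * (d : G)⁻¹ = y := congrArg Subtype.val hzy
  rw [mem_conj_smul_iff]
  have hdn : (d : G)⁻¹ ∈ D := D.inv_mem d.2
  have ht' : (d : G)⁻¹ * t * (d : G) ∈ coprimeClosure p K := by
    have hmem : (d : G)⁻¹ ∈ Subgroup.normalizer ((coprimeClosure p K : Subgroup G) : Set G) := by
      rw [← hDdef]; exact hdn
    rw [Subgroup.mem_normalizer_iff] at hmem
    have h3 := (hmem t).mp ht
    simpa using h3
  have h4 : (d : G)⁻¹ * (t * y) * (d : G) = ((d : G)⁻¹ * t * (d : G)) * (z : G) := by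
    rw [← hzy']; group
  rw [h4]
  exact H.mul_mem (hT ht') (hHpH hz)

open Cfsg.Agent.Lib.Helper13 in
theorem aux {G : Type*} [Group G] [Finite G] (H : Subgroup G) (hH : Group.IsNilpotent H)
    (hHall : (Nat.card H).Coprime H.index) (n : ℕ) :
    ∀ K : Subgroup G, Nat.card K = n →
      (∀ p : ℕ, p.Prime → p ∣ Nat.card K → p ∣ Nat.card H) →
      ∃ x : G, K ≤ MulAut.conj x • H := by
  induction n using Nat.strong_induction_on with
  | _ n ih =>
    intro K hKn hK
    classical
    by_cases hKb : K = ⊥
    · exact ⟨1, by rw [hKb]; exact bot_le⟩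
    have hprop : ∀ L : Subgroup G, L ≤ K → L ≠ K → ∃ x : G, L ≤ MulAut.conj x • H := by
      intro L hLK hne
      have hlt : Nat.card L < n := by
        by_contra hge
        push Not at hge
        rw [← hKn] at hge
        exact hne (Subgroup.eq_of_le_of_card_ge hLK hge)
      apply ih _ hlt L rfl
      intro p hp hpd
      exact hK p hp (hpd.trans (Subgroup.card_dvd_of_le hLK))
    have hex : ∃ p : ℕ, p.Prime ∧ ∃ M : Subgroup ↥K, M.Normal ∧ M ≠ ⊤ ∧
        ∃ k : ℕ, M.index = p ^ k := by
      by_cases hnil : Group.IsNilpotent ↥K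
      · haveI : Nontrivial ↥K := (Subgroup.nontrivial_iff_ne_bot K).mpr hKb
        obtain ⟨M, hM, -⟩ :=
          (eq_top_or_exists_le_coatom (⊥ : Subgroup ↥K)).resolve_left bot_ne_top
        have hMn : M.Normal := by
          have q := (Group.isNilpotent_of_finite_tfae (G := ↥K)).out 0 2
          exact (q.mp hnil) M hM
        haveI := hMn
        have hpr := index_prime_of_normal_isCoatom M hM
        exact ⟨M.index, hpr, M, hMn, hM.1, 1, (pow_one _).symm⟩
      · have hmin : Cfsg.IsMinimalNonNilpotent ↥K := by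
          refine ⟨hnil, ?_⟩
          intro L hL
          have hLK : L.map K.subtype ≤ K := Subgroup.map_subtype_le _
          have hLne : L.map K.subtype ≠ K := by
            intro h
            apply hL
            rw [eq_top_iff]
            intro y _
            have h1 : (y : G) ∈ L.map K.subtype := by rw [h]; exact y.2
            obtain ⟨z, hz, hzy⟩ := h1
            have h2 : z = y := Subtype.ext hzy
            rw [← h2]; exact hz
          obtain ⟨x, hx⟩ := hprop _ hLK hLne
          haveI : Group.IsNilpotent ↥(MulAut.conj x • H) := by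
            haveI := hH
            exact Group.nilpotent_of_mulEquiv (Subgroup.equivSMul (MulAut.conj x) H)
          haveI : Group.IsNilpotent ↥(L.map K.subtype) :=
            Group.nilpotent_of_mulEquiv (Subgroup.subgroupOfEquivOfLe hx)
          exact Group.nilpotent_of_mulEquiv
            (Subgroup.equivMapOfInjective L K.subtype K.subtype_injective).symm
        obtain ⟨p, q, hp, hq, hpq, P, Q, hPc, hQn, hPQ⟩ := Cfsg.Agent.S0536.result hmin
        refine ⟨p, hp, (Q : Subgroup ↥K), hQn, ?_, ?_⟩
        · intro hQtop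
          apply hnil
          haveI : Fact q.Prime := ⟨hq⟩
          have hKq : IsPGroup q ↥K := by
            intro g
            obtain ⟨k, hk⟩ := Q.isPGroup' ⟨g, by rw [hQtop]; exact Subgroup.mem_top g⟩
            exact ⟨k, congrArg Subtype.val hk⟩
          exact hKq.isNilpotent
        · haveI : Fact p.Prime := ⟨hp⟩
          haveI := hQn
          have h1 : (Q : Subgroup ↥K).index = (Q : Subgroup ↥K).relIndex (P : Subgroup ↥K) := by
            rw [← Subgroup.relIndex_top_right, ← hPQ, Subgroup.relIndex_sup_right]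
          have h2 : (Q : Subgroup ↥K).relIndex (P : Subgroup ↥K) ∣ Nat.card (P : Subgroup ↥K) :=
            Subgroup.relIndex_dvd_card _ _
          obtain ⟨j, hj⟩ := IsPGroup.iff_card.mp P.isPGroup'
          rw [hj] at h2
          obtain ⟨k, -, hk⟩ := (Nat.dvd_prime_pow hp).mp h2
          exact ⟨k, h1.trans hk⟩
    obtain ⟨p, hp, M, hMn, hMtop, k, hMk⟩ := hex
    haveI : Fact p.Prime := ⟨hp⟩
    haveI := hMn
    have hTM := coprimeClosure_le_of_index p K M k hMk
    have hTK : coprimeClosure p K ≤ K := coprimeClosure_le p K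
    have hTne : coprimeClosure p K ≠ K := by
      intro h
      apply hMtop
      rw [eq_top_iff]
      intro y _
      have h1 : (y : G) ∈ M.map K.subtype := hTM (by rw [h]; exact y.2)
      obtain ⟨z, hz, hzy⟩ := h1
      have h2 : z = y := Subtype.ext hzy
      rw [← h2]; exact hz
    obtain ⟨x, hx⟩ := hprop _ hTK hTne
    have hp_dvd_K : p ∣ Nat.card K := by
      have hk0 : k ≠ 0 := by
        intro h0
        rw [h0, pow_zero] at hMk
        exact hMtop (Subgroup.index_eq_one.mp hMk)
      have h1 : p ∣ M.index := by rw [hMk]; exact dvd_pow_self p hk0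
      exact h1.trans (Subgroup.index_dvd_card M)
    have hpH : p ∣ Nat.card H := hK p hp hp_dvd_K
    haveI hH'nil : Group.IsNilpotent ↥(MulAut.conj x • H) := by
      haveI := hH
      exact Group.nilpotent_of_mulEquiv (Subgroup.equivSMul (MulAut.conj x) H)
    have hH'idx : ¬ p ∣ (MulAut.conj x • H).index := by
      have hcard : Nat.card ↥(MulAut.conj x • H) = Nat.card H :=
        (Nat.card_congr (Subgroup.equivSMul (MulAut.conj x) H).toEquiv).symm
      have hidx : (MulAut.conj x • H).index = H.index := by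
        have h1 := Subgroup.card_mul_index (MulAut.conj x • H)
        have h2 := Subgroup.card_mul_index H
        rw [hcard, ← h2] at h1
        exact Nat.eq_of_mul_eq_mul_left Nat.card_pos h1
      rw [hidx]
      intro hdvd
      have h3 := Nat.eq_one_of_dvd_coprimes hHall hpH hdvd
      exact hp.one_lt.ne' h3
    obtain ⟨d, hd⟩ := key (MulAut.conj x • H) K p hH'idx hx
    refine ⟨d * x, ?_⟩
    rw [← conj_smul_conj_smul]
    exact hd

/-- Let H be a nilpotent subgroup of a finite group G whose order is coprime to its index, and K a subgroup every prime divisor of whose order divides the order of H. Then K lies in some conjugate of H. -/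
theorem result {G : Type*} [Group G] [Finite G] (H K : Subgroup G) (hH : Group.IsNilpotent H) (hHall : (Nat.card H).Coprime H.index) (hK : ∀ p : ℕ, p.Prime → p ∣ Nat.card K → p ∣ Nat.card H) : ∃ x : G, K ≤ MulAut.conj x • H := by
  exact aux H hH hHall _ K rfl hK

end Cfsg.Agent.S0581
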