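import Cfsg.Statements.S0582
import Mathlib
import Cfsg.Agent.S0524
import Cfsg.Agent.S0531
import Cfsg.Agent.S0532
import Cfsg.Agent.Lib.Helper12.Supersolvable
import Cfsg.Agent.Lib.Helper13.Perm
import Cfsg.Agent.Lib.Helper13.Compl

set_option autoImplicit false
open Pointwise
open Cfsg

namespace Cfsg.Agent.S0582

open Cfsg.Agent.Lib.Helper13

/-- In a supersolvable finite group, a Sylow subgroup for the largest prime is normal. -/
theorem sylow_normal_of_supersolvable {H : Type*} [Group H] [Finite H]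
    (hH : Cfsg.IsSupersolvable H) (p : ℕ) [Fact p.Prime] (hdvd : p ∣ Nat.card H)
    (hmax : ∀ q : ℕ, q.Prime → q ∣ Nat.card H → q ≤ p) (P : Sylow p H) :
    (P : Subgroup H).Normal := by
  apply Cfsg.Agent.S0532.result _ p hdvd hmax P
  intro L
  exact Cfsg.Agent.S0531.result (Cfsg.Agent.S0524.result hH L ⊥).1

theorem le_normalizer_map_subtype {G : Type*} [Group G] (H : Subgroup G) (P : Subgroup ↥H)
    (hP : P.Normal) : H ≤ Subgroup.normalizer ((P.map H.subtype : Subgroup G) : Set G) := by
  have h1 := Subgroup.le_normalizer_map (H := P) H.subtype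
  haveI := hP
  rw [Subgroup.normalizer_eq_top, ← MonoidHom.range_eq_map, Subgroup.range_subtype] at h1
  exact h1

theorem quot_step.{u} {G : Type u} [Group G] [Finite G] (H K P : Subgroup G)
    (hPH : P ≤ H) (hPK : P ≤ K) (hHN : H ≤ Subgroup.normalizer (P : Set G))
    (hKN : K ≤ Subgroup.normalizer (P : Set G))
    (hH : Cfsg.IsSupersolvable H) (hK : Cfsg.IsSupersolvable K) (hcard : Nat.card H = Nat.card K)
    (hHall : (Nat.card H).Coprime H.index) (hP : 1 < Nat.card P)
    (ih : ∀ (G' : Type u) [Group G'] [Finite G'] (H' K' : Subgroup G'),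
      Cfsg.IsSupersolvable H' → Cfsg.IsSupersolvable K' → Nat.card H' < Nat.card H →
      Nat.card H' = Nat.card K' → (Nat.card H').Coprime H'.index →
      ∃ x : G', MulAut.conj x • H' = K') :
    ∃ x : G, MulAut.conj x • H = K := by
  obtain ⟨N, hNdef⟩ : ∃ N : Subgroup G, N = Subgroup.normalizer (P : Set G) := ⟨_, rfl⟩
  rw [← hNdef] at hHN hKN
  have hPN : P ≤ N := hPH.trans hHN
  haveI hPNn : (P.subgroupOf N).Normal := by rw [hNdef]; exact Subgroup.normal_in_normalizer
  obtain ⟨π, hπdef⟩ : ∃ π : ↥N →* ↥N ⧸ P.subgroupOf N, π = QuotientGroup.mk' (P.subgroupOf N) :=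
    ⟨_, rfl⟩
  have hπs : Function.Surjective π := by rw [hπdef]; exact QuotientGroup.mk'_surjective _
  have hkerπ : π.ker = P.subgroupOf N := by rw [hπdef]; exact QuotientGroup.ker_mk' _
  obtain ⟨H', hH'def⟩ : ∃ H' : Subgroup (↥N ⧸ P.subgroupOf N), H' = (H.subgroupOf N).map π :=
    ⟨_, rfl⟩
  obtain ⟨K', hK'def⟩ : ∃ K' : Subgroup (↥N ⧸ P.subgroupOf N), K' = (K.subgroupOf N).map π :=
    ⟨_, rfl⟩
  have hH's : Cfsg.IsSupersolvable H' := by
    rw [hH'def]
    have h1 := Cfsg.Agent.Lib.Helper12.isSupersolvable_of_mulEquiv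
      (Subgroup.subgroupOfEquivOfLe hHN).symm hH
    exact Cfsg.Agent.Lib.Helper12.isSupersolvable_of_surjective
      (π.subgroupMap (H.subgroupOf N)) (π.subgroupMap_surjective _) h1
  have hK's : Cfsg.IsSupersolvable K' := by
    rw [hK'def]
    have h1 := Cfsg.Agent.Lib.Helper12.isSupersolvable_of_mulEquiv
      (Subgroup.subgroupOfEquivOfLe hKN).symm hK
    exact Cfsg.Agent.Lib.Helper12.isSupersolvable_of_surjective
      (π.subgroupMap (K.subgroupOf N)) (π.subgroupMap_surjective _) h1
  have hidx : ∀ L : Subgroup G, P ≤ L → ((L.subgroupOf N).map π).index = L.relIndex N := by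
    intro L hPL
    rw [Subgroup.index_map, hkerπ, MonoidHom.range_eq_top.mpr hπs, Subgroup.index_top, mul_one]
    have h1 : L.subgroupOf N ⊔ P.subgroupOf N = L.subgroupOf N :=
      sup_eq_left.mpr (fun x hx => Subgroup.mem_subgroupOf.mpr (hPL (Subgroup.mem_subgroupOf.mp hx)))
    rw [h1]; rfl
  have hcN : ∀ L : Subgroup G, L ≤ N → Nat.card L * L.relIndex N = Nat.card N := by
    intro L hLN
    have h1 := Subgroup.relIndex_mul_relIndex (H := (⊥ : Subgroup G)) (K := L) (L := N) bot_le hLN
    rw [Subgroup.relIndex_bot_left, Subgroup.relIndex_bot_left] at h1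
    exact h1
  have hrelpos : 0 < H.relIndex N := by
    have h1 := hcN H hHN
    have h2 : 0 < Nat.card N := Nat.card_pos
    rw [← h1] at h2
    exact Nat.pos_of_mul_pos_left h2 |> fun h => by
      rcases Nat.eq_zero_or_pos (H.relIndex N) with h0 | h0
      · rw [h0, mul_zero] at h2; exact absurd h2 (lt_irrefl 0)
      · exact h0
  have hrel : H.relIndex N = K.relIndex N := by
    have h1 := hcN H hHN
    have h2 := hcN K hKN
    rw [hcard, ← h2] at h1
    exact Nat.eq_of_mul_eq_mul_left Nat.card_pos h1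
  have hc1 : Nat.card H' * H.relIndex N = Nat.card (↥N ⧸ P.subgroupOf N) := by
    rw [← hidx H hPH, ← hH'def]; exact Subgroup.card_mul_index H'
  have hc2 : Nat.card K' * K.relIndex N = Nat.card (↥N ⧸ P.subgroupOf N) := by
    rw [← hidx K hPK, ← hK'def]; exact Subgroup.card_mul_index K'
  have hcard' : Nat.card H' = Nat.card K' := by
    rw [← hrel, ← hc1] at hc2
    exact (Nat.eq_of_mul_eq_mul_right hrelpos hc2).symm
  have hc3 : Nat.card H' * Nat.card P = Nat.card H := by
    have h1 := Subgroup.card_eq_card_quotient_mul_card_subgroup (P.subgroupOf N)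
    have h2 : Nat.card (P.subgroupOf N) = Nat.card P :=
      Nat.card_congr (Subgroup.subgroupOfEquivOfLe hPN).toEquiv
    have h3 := hcN H hHN
    have h4 : (Nat.card H' * Nat.card P) * H.relIndex N = Nat.card H * H.relIndex N := by
      rw [h3, h1, ← hc1, h2]; ring
    exact Nat.eq_of_mul_eq_mul_right hrelpos h4
  have hlt : Nat.card H' < Nat.card H := by
    rw [← hc3]
    have h1 : 0 < Nat.card H' := Nat.card_pos
    nlinarith
  have hHall' : (Nat.card H').Coprime H'.index := by
    have h1 : Nat.card H' ∣ Nat.card H := Dvd.intro _ hc3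
    have h2 : H'.index ∣ H.index := by
      rw [hH'def, hidx H hPH]; exact Dvd.intro _ (Subgroup.relIndex_mul_index hHN)
    exact Nat.Coprime.coprime_dvd_left h1 (Nat.Coprime.coprime_dvd_right h2 hHall)
  obtain ⟨x, hx⟩ := ih _ H' K' hH's hK's hlt hcard' hHall'
  obtain ⟨n, hn⟩ := hπs x
  refine ⟨(n : G), ?_⟩
  apply Subgroup.eq_of_le_of_card_ge
  · intro z hz
    rw [mem_conj_smul_iff] at hz
    have hzN : z ∈ N := by
      have h1 : z = (n : G) * ((n : G)⁻¹ * z * n) * (n : G)⁻¹ := by group
      rw [h1]; exact N.mul_mem (N.mul_mem n.2 (hHN hz)) (N.inv_mem n.2)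
    have h1 : π ⟨z, hzN⟩ ∈ K' := by
      rw [← hx, mem_conj_smul_iff, hH'def, ← hn]
      refine ⟨n⁻¹ * ⟨z, hzN⟩ * n, ?_, ?_⟩
      · exact Subgroup.mem_subgroupOf.mpr hz
      · rw [map_mul, map_mul, map_inv]
    rw [hK'def] at h1
    obtain ⟨k, hk, hkz⟩ := h1
    have h2 : k⁻¹ * ⟨z, hzN⟩ ∈ P.subgroupOf N := by
      rw [hπdef] at hkz
      exact QuotientGroup.eq.mp hkz
    have h3 : (k : G)⁻¹ * z ∈ P := Subgroup.mem_subgroupOf.mp h2
    have h4 : (k : G) ∈ K := Subgroup.mem_subgroupOf.mp hk
    have h5 : z = (k : G) * ((k : G)⁻¹ * z) := by group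
    rw [h5]; exact K.mul_mem h4 (hPK h3)
  · rw [← hcard]
    exact le_of_eq (Nat.card_congr (Subgroup.equivSMul (MulAut.conj (n : G)) H).toEquiv)

theorem aux.{u} (m : ℕ) : ∀ (G : Type u) [Group G] [Finite G] (H K : Subgroup G),
    Cfsg.IsSupersolvable H → Cfsg.IsSupersolvable K → Nat.card H = m →
    Nat.card H = Nat.card K → (Nat.card H).Coprime H.index →
    ∃ x : G, MulAut.conj x • H = K := by
  induction m using Nat.strong_induction_on with
  | _ m ih =>
    intro G _ _ H K hH hK hm hcard hHall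
    by_cases h1 : Nat.card H = 1
    · have hHb : H = ⊥ := Subgroup.card_eq_one.mp h1
      have hKb : K = ⊥ := Subgroup.card_eq_one.mp (by rw [← hcard]; exact h1)
      refine ⟨1, ?_⟩
      rw [hHb, hKb]; simp
    · have hne : (Nat.card H).primeFactors.Nonempty := by
        rw [Nat.nonempty_primeFactors]
        have h2 : 0 < Nat.card H := Nat.card_pos
        omega
      obtain ⟨p, hpmem, hpmax⟩ := Finset.exists_max_image _ id hne
      have hp : p.Prime := Nat.prime_of_mem_primeFactors hpmem
      have hpd : p ∣ Nat.card H := Nat.dvd_of_mem_primeFactors hpmem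
      haveI : Fact p.Prime := ⟨hp⟩
      have hmaxH : ∀ q : ℕ, q.Prime → q ∣ Nat.card H → q ≤ p := by
        intro q hq hqd
        exact hpmax q (Nat.mem_primeFactors.mpr ⟨hq, hqd, Nat.card_pos.ne'⟩)
      have hmaxK : ∀ q : ℕ, q.Prime → q ∣ Nat.card K → q ≤ p := by rw [← hcard]; exact hmaxH
      have hpdK : p ∣ Nat.card K := by rw [← hcard]; exact hpd
      obtain ⟨PH⟩ : Nonempty (Sylow p ↥H) := inferInstance
      obtain ⟨PK⟩ : Nonempty (Sylow p ↥K) := inferInstance
      have hPHn : (PH : Subgroup ↥H).Normal := sylow_normal_of_supersolvable hH p hpd hmaxH PH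
      have hPKn : (PK : Subgroup ↥K).Normal := sylow_normal_of_supersolvable hK p hpdK hmaxK PK
      obtain ⟨P, hPdef⟩ : ∃ P : Subgroup G, P = (PH : Subgroup ↥H).map H.subtype := ⟨_, rfl⟩
      obtain ⟨Q, hQdef⟩ : ∃ Q : Subgroup G, Q = (PK : Subgroup ↥K).map K.subtype := ⟨_, rfl⟩
      have hindex : H.index = K.index := by
        have h2 := Subgroup.card_mul_index H
        have h3 := Subgroup.card_mul_index K
        rw [← h3, ← hcard] at h2
        exact Nat.eq_of_mul_eq_mul_left Nat.card_pos h2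
      have hpH : ¬ p ∣ H.index := by
        intro h
        exact hp.one_lt.ne' (Nat.eq_one_of_dvd_coprimes hHall hpd h)
      have hPp : IsPGroup p P := by rw [hPdef]; exact PH.isPGroup'.map H.subtype
      have hQp : IsPGroup p Q := by rw [hQdef]; exact PK.isPGroup'.map K.subtype
      have hPi : ¬ p ∣ P.index := by
        rw [hPdef, Subgroup.index_map_subtype]
        exact Nat.Prime.not_dvd_mul hp PH.not_dvd_index hpH
      have hQi : ¬ p ∣ Q.index := by
        rw [hQdef, Subgroup.index_map_subtype, ← hindex]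
        exact Nat.Prime.not_dvd_mul hp PK.not_dvd_index hpH
      obtain ⟨g, hg⟩ := MulAction.exists_smul_eq G (hPp.toSylow hPi) (hQp.toSylow hQi)
      have hg' : MulAut.conj g • P = Q := by
        have h2 := congrArg (fun S : Sylow p G => (S : Subgroup G)) hg
        simp only [Sylow.coe_subgroup_smul, IsPGroup.toSylow_coe] at h2
        exact h2
      have hg'' : MulAut.conj g⁻¹ • Q = P := by
        rw [← hg', conj_smul_conj_smul, inv_mul_cancel, map_one, one_smul]
      obtain ⟨K₁, hK₁def⟩ : ∃ K₁ : Subgroup G, K₁ = MulAut.conj g⁻¹ • K := ⟨_, rfl⟩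
      have hPH : P ≤ H := by rw [hPdef]; exact Subgroup.map_subtype_le _
      have hQK : Q ≤ K := by rw [hQdef]; exact Subgroup.map_subtype_le _
      have hPK₁ : P ≤ K₁ := by
        rw [← hg'', hK₁def]
        exact Subgroup.pointwise_smul_le_pointwise_smul_iff.mpr hQK
      have hHN : H ≤ Subgroup.normalizer (P : Set G) := by
        rw [hPdef]; exact le_normalizer_map_subtype H _ hPHn
      have hKNQ : K ≤ Subgroup.normalizer (Q : Set G) := by
        rw [hQdef]; exact le_normalizer_map_subtype K _ hPKn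
      have hK₁N : K₁ ≤ Subgroup.normalizer (P : Set G) := by
        rw [← hg'', ← conj_smul_normalizer, hK₁def]
        exact Subgroup.pointwise_smul_le_pointwise_smul_iff.mpr hKNQ
      have hK₁s : Cfsg.IsSupersolvable K₁ := by
        rw [hK₁def]
        exact Cfsg.Agent.Lib.Helper12.isSupersolvable_of_mulEquiv
          (Subgroup.equivSMul (MulAut.conj g⁻¹) K) hK
      have hcard₁ : Nat.card H = Nat.card K₁ := by
        rw [hcard, hK₁def]
        exact Nat.card_congr (Subgroup.equivSMul (MulAut.conj g⁻¹) K).toEquiv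
      have hP1 : 1 < Nat.card P := by
        rw [hPdef, Subgroup.card_map_of_injective H.subtype_injective]
        exact (Subgroup.one_lt_card_iff_ne_bot _).mpr (PH.ne_bot_of_dvd_card hpd)
      obtain ⟨x, hx⟩ := quot_step H K₁ P hPH hPK₁ hHN hK₁N hH hK₁s hcard₁ hHall hP1
        (fun G' _ _ H' K' hH' hK' hlt hc hh =>
          ih (Nat.card H') (hm ▸ hlt) G' H' K' hH' hK' rfl hc hh)
      refine ⟨g * x, ?_⟩
      rw [← conj_smul_conj_smul, hx, hK₁def, conj_smul_conj_smul, mul_inv_cancel, map_one,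
        one_smul]

/-- Let H and K be supersolvable subgroups of a finite group G of the same order, that order being coprime to their index. Then H and K are conjugate in G. -/
theorem result {G : Type*} [Group G] [Finite G] (H K : Subgroup G) (hH : Cfsg.IsSupersolvable H) (hK : Cfsg.IsSupersolvable K) (hcard : Nat.card H = Nat.card K) (hHall : (Nat.card H).Coprime H.index) : ∃ x : G, MulAut.conj x • H = K := by
  exact aux _ G H K hH hK rfl hcard hHall

end Cfsg.Agent.S0582
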