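import Cfsg.Statements.S0584
import Mathlib

set_option autoImplicit false
open Cfsg

namespace Cfsg.Agent.S0584

/-- Let B ≤ A be normal subgroups of a finite group G with B contained in the Frattini subgroup of G. If A modulo B is nilpotent then A is nilpotent. -/
theorem result {G : Type*} [Group G] [Finite G] (A B : Subgroup G) [A.Normal] [B.Normal] (hBA : B ≤ A) (hB : B ≤ frattini G) (h : Group.IsNilpotent (↥A ⧸ B.subgroupOf A)) : Group.IsNilpotent A := by
  have hq : Function.Surjective (QuotientGroup.mk' (B.subgroupOf A)) :=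
    QuotientGroup.mk'_surjective _
  have q := (Group.isNilpotent_of_finite_tfae (G := ↥A)).out 0 3
  rw [q]
  intro p hp P
  have hfr := Sylow.normalizer_sup_eq_top P
  have hA : A ≤ Subgroup.normalizer (((P : Subgroup A).map A.subtype : Subgroup G) : Set G) ⊔ B := by
    intro a ha
    have hsub : Subsingleton (Sylow p (↥A ⧸ B.subgroupOf A)) := by
      obtain ⟨S⟩ : Nonempty (Sylow p (↥A ⧸ B.subgroupOf A)) := inferInstance
      have hSn : (S : Subgroup (↥A ⧸ B.subgroupOf A)).Normal := inferInstance
      exact @Unique.instSubsingleton _ (Sylow.unique_of_normal S hSn)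
    have heq : ((⟨a, ha⟩ : A) • P).mapSurjective hq = P.mapSurjective hq := Subsingleton.elim _ _
    have heq' : (((⟨a, ha⟩ : A) • P : Sylow p A) : Subgroup A).map
        (QuotientGroup.mk' (B.subgroupOf A)) =
        (P : Subgroup A).map (QuotientGroup.mk' (B.subgroupOf A)) := by
      have := congrArg Sylow.toSubgroup heq
      simpa only [Sylow.coe_mapSurjective] using this
    have hPT : (P : Subgroup A) ≤ (P : Subgroup A) ⊔ B.subgroupOf A := le_sup_left
    have haPT : (((⟨a, ha⟩ : A) • P : Sylow p A) : Subgroup A) ≤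
        (P : Subgroup A) ⊔ B.subgroupOf A := by
      have h1 : (((⟨a, ha⟩ : A) • P : Sylow p A) : Subgroup A) ≤
          ((((⟨a, ha⟩ : A) • P : Sylow p A) : Subgroup A).map
            (QuotientGroup.mk' (B.subgroupOf A))).comap (QuotientGroup.mk' (B.subgroupOf A)) :=
        Subgroup.le_comap_map _ _
      rw [heq', Subgroup.comap_map_eq, QuotientGroup.ker_mk'] at h1
      exact h1
    obtain ⟨t, ht⟩ := MulAction.exists_smul_eq (↥((P : Subgroup A) ⊔ B.subgroupOf A))
      (P.subtype hPT) (((⟨a, ha⟩ : A) • P).subtype haPT)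
    rw [Sylow.smul_subtype] at ht
    have ht' : (t : A) • P = (⟨a, ha⟩ : A) • P := Sylow.subtype_injective ht
    have hn : (t : A)⁻¹ * ⟨a, ha⟩ ∈ Subgroup.normalizer ((P : Subgroup A) : Set A) :=
      (Sylow.smul_eq_iff_mem_normalizer (g := (t : A)⁻¹ * ⟨a, ha⟩) (P := P)).mp
        (by rw [mul_smul, ← ht', inv_smul_smul])
    have hmem : (⟨a, ha⟩ : A) ∈
        Subgroup.normalizer ((P : Subgroup A) : Set A) ⊔ B.subgroupOf A := by
      have e : (⟨a, ha⟩ : A) = (t : A) * ((t : A)⁻¹ * ⟨a, ha⟩) := by group
      rw [e]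
      apply mul_mem
      · have hle : (P : Subgroup A) ⊔ B.subgroupOf A ≤
            Subgroup.normalizer ((P : Subgroup A) : Set A) ⊔ B.subgroupOf A :=
          sup_le (Subgroup.le_normalizer.trans le_sup_left) le_sup_right
        exact hle t.2
      · exact (le_sup_left : _ ≤ _ ⊔ B.subgroupOf A) hn
    have hmap : (Subgroup.normalizer ((P : Subgroup A) : Set A) ⊔ B.subgroupOf A).map A.subtype ≤
        Subgroup.normalizer (((P : Subgroup A).map A.subtype : Subgroup G) : Set G) ⊔ B := by
      rw [Subgroup.map_sup]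
      apply sup_le_sup (Subgroup.le_normalizer_map _)
      rw [Subgroup.subgroupOf_map_subtype]; exact inf_le_left
    exact hmap ⟨⟨a, ha⟩, hmem, rfl⟩
  have htop : Subgroup.normalizer (((P : Subgroup A).map A.subtype : Subgroup G) : Set G) ⊔ B = ⊤ := by
    rw [eq_top_iff, ← hfr]
    exact sup_le le_sup_left hA
  have htop' : Subgroup.normalizer (((P : Subgroup A).map A.subtype : Subgroup G) : Set G) ⊔
      frattini G = ⊤ := by
    rw [eq_top_iff, ← htop]; exact sup_le_sup le_rfl hB
  have hN := frattini_nongenerating htop'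
  have hnorm : ((P : Subgroup A).map A.subtype).Normal := Subgroup.normalizer_eq_top_iff.mp hN
  exact hnorm.of_map_subtype

end Cfsg.Agent.S0584
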