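import Cfsg.Statements.S0588
import Mathlib

set_option autoImplicit false
open Cfsg

namespace Cfsg.Agent.S0588

/-- If a subgroup H of a finite group G contains the centralizer of every non-identity element of H, then the order of H is coprime to its index. -/
theorem result {G : Type*} [Group G] [Finite G] (H : Subgroup G) (h : ∀ x ∈ H, x ≠ 1 → Subgroup.centralizer ({x} : Set G) ≤ H) : (Nat.card H).Coprime H.index := by
  rw [Nat.coprime_iff_gcd_eq_one]
  by_contra hne
  obtain ⟨p, hp, hpdvd⟩ := Nat.exists_prime_and_dvd hne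
  haveI : Fact p.Prime := ⟨hp⟩
  have hpH : p ∣ Nat.card H := hpdvd.trans (Nat.gcd_dvd_left _ _)
  have hpI : p ∣ H.index := hpdvd.trans (Nat.gcd_dvd_right _ _)
  obtain ⟨x, hx⟩ := exists_prime_orderOf_dvd_card' p hpH
  have hx1 : (x : G) ≠ 1 := by
    intro h1
    have : x = 1 := Subtype.ext h1
    rw [this, orderOf_one] at hx
    exact hp.one_lt.ne hx
  have hxG : orderOf (x : G) = p := by rw [Subgroup.orderOf_coe]; exact hx
  have hpg : IsPGroup p (Subgroup.zpowers (x : G)) := by
    rw [IsPGroup.iff_card]  -- card = p^n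
    exact ⟨1, by rw [Nat.card_zpowers, hxG, pow_one]⟩
  obtain ⟨P, hP⟩ := hpg.exists_le_sylow
  have hxP : (x : G) ∈ (P : Subgroup G) := hP (Subgroup.mem_zpowers _)
  haveI : Nontrivial (P : Subgroup G) := ⟨⟨⟨(x : G), hxP⟩, 1, fun h => hx1 (congrArg Subtype.val h)⟩⟩
  have hcn := P.2.center_nontrivial
  obtain ⟨z, hz⟩ := exists_ne (1 : Subgroup.center (P : Subgroup G))
  have hz1 : ((z : (P : Subgroup G)) : G) ≠ 1 := by
    intro h1
    apply hz
    apply Subtype.ext
    apply Subtype.ext
    exact h1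
  have hzc : ∀ y ∈ (P : Subgroup G), y * ((z : (P : Subgroup G)) : G) = ((z : (P : Subgroup G)) : G) * y := by
    intro y hy
    have := Subgroup.mem_center_iff.mp z.2 ⟨y, hy⟩
    exact congrArg Subtype.val this
  have hzH : ((z : (P : Subgroup G)) : G) ∈ H := by
    apply h x x.2 hx1
    rw [Subgroup.mem_centralizer_iff]
    intro y hy
    rw [Set.mem_singleton_iff] at hy
    rw [hy]
    exact hzc x hxP
  have hPH : (P : Subgroup G) ≤ H := by
    intro y hy
    apply h _ hzH hz1
    rw [Subgroup.mem_centralizer_iff]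
    intro w hw
    rw [Set.mem_singleton_iff] at hw
    rw [hw]
    exact (hzc y hy).symm
  have hnd : ¬ p ∣ (P : Subgroup G).index := P.not_dvd_index
  exact hnd (hpI.trans (Subgroup.index_dvd_of_le hPH))

end Cfsg.Agent.S0588
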