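import Cfsg.Statements.S0589
import Cfsg.Agent.S0034
import Mathlib

set_option autoImplicit false
open Cfsg

namespace Cfsg.Agent.S0589
open scoped Pointwise

/-- the free part of an action has cardinality divisible by the group order -/
theorem card_dvd_free {L Ω : Type*} [Group L] [Finite L] [MulAction L Ω] [Finite Ω] :
    Nat.card L ∣ Nat.card {ω : Ω // MulAction.stabilizer L ω = ⊥} := by
  let p : SubMulAction L Ω :=
    { carrier := {ω | MulAction.stabilizer L ω = ⊥}
      smul_mem' := by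
        intro ℓ ω hω
        show MulAction.stabilizer L (ℓ • ω) = ⊥
        rw [MulAction.stabilizer_smul_eq_stabilizer_map_conj,
          show MulAction.stabilizer L ω = ⊥ from hω, Subgroup.map_bot] }
  have hfree : ∀ b : p, MulAction.stabilizer L b = ⊥ := by
    intro b
    rw [SubMulAction.stabilizer_of_subMul]
    exact b.2
  have e := MulAction.selfEquivOrbitsQuotientProd hfree
  have h1 : Nat.card p = Nat.card (Quotient (MulAction.orbitRel L p)) * Nat.card L := by
    rw [Nat.card_congr e, Nat.card_prod]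
  exact ⟨_, (h1.trans (mul_comm _ _))⟩

theorem card_split {α : Type*} [Finite α] (P : α → Prop) :
    Nat.card {a : α // P a} + Nat.card {a : α // ¬ P a} = Nat.card α := by
  classical
  rw [← Nat.card_sum]
  exact Nat.card_congr (Equiv.sumCompl P)

/-- Let H be a Frobenius complement in a finite group G and L a subgroup of G whose order divides the order of H. Then L is contained in some conjugate of H. -/
theorem result {G : Type*} [Group G] [Finite G] (H : Subgroup G) (hH : Cfsg.IsFrobeniusComplement H) (L : Subgroup G) (hL : Nat.card L ∣ Nat.card H) : ∃ x : G, L ≤ MulAut.conj x • H := by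
  classical
  have hstab : ∀ (S : Subgroup G) (x : G) (s : S),
      s ∈ MulAction.stabilizer S (x : G ⧸ H) ↔ x⁻¹ * (s : G) * x ∈ H := by
    intro S x s
    rw [MulAction.mem_stabilizer_iff]
    show (s : G) • (x : G ⧸ H) = x ↔ _
    rw [MulAction.Quotient.smul_mk,
      QuotientGroup.eq, smul_eq_mul, ← H.inv_mem_iff]
    have : ((s : G) * x)⁻¹ * x = (x⁻¹ * (s : G) * x)⁻¹ := by group
    rw [this, inv_inv]
  have huniq : ∀ (g : G), g ≠ 1 → ∀ x y : G, x⁻¹ * g * x ∈ H → y⁻¹ * g * y ∈ H →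
      (x : G ⧸ H) = (y : G ⧸ H) := by
    intro g hg x y hx hy
    rw [QuotientGroup.eq]
    by_contra hxy
    have h1 := Cfsg.Agent.S0034.ti_of_frob H hH (x⁻¹ * y) hxy (x⁻¹ * g * x) hx (by
      have : (x⁻¹ * y)⁻¹ * (x⁻¹ * g * x) * (x⁻¹ * y) = y⁻¹ * g * y := by group
      rw [this]; exact hy)
    apply hg
    have h2 : g = x * (x⁻¹ * g * x) * x⁻¹ := by group
    rw [h2, h1]; group
  -- |G/H| ≡ 1 mod |H|
  have hmodH : ∃ k, Nat.card (G ⧸ H) = Nat.card H * k + 1 := by
    obtain ⟨k, hk⟩ := card_dvd_free (L := H) (Ω := G ⧸ H)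
    refine ⟨k, ?_⟩
    rw [← hk, ← Cfsg.Agent.S0034.card_ne_one_add ((1 : G) : G ⧸ H)]
    congr 1
    apply Nat.card_congr
    apply Equiv.subtypeEquivRight
    intro ω
    obtain ⟨x, rfl⟩ := QuotientGroup.mk_surjective ω
    constructor
    · intro hne
      rw [Subgroup.eq_bot_iff_forall]
      intro s hs
      have hx : x ∉ H := by
        intro hx
        apply hne
        rw [QuotientGroup.eq]
        simpa using H.inv_mem hx
      have := Cfsg.Agent.S0034.ti_of_frob H hH x hx (s : G) s.2 ((hstab H x s).mp hs)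
      exact Subtype.ext this
    · intro hbot hx
      rw [QuotientGroup.eq] at hx
      have hxH : x ∈ H := by simpa using H.inv_mem hx
      obtain ⟨h, hh1⟩ := (Subgroup.ne_bot_iff_exists_ne_one.mp hH.1)
      have hmem : h ∈ MulAction.stabilizer H (x : G ⧸ H) :=
        (hstab H x h).mpr (H.mul_mem (H.mul_mem (H.inv_mem hxH) h.2) hxH)
      rw [hbot] at hmem
      exact hh1 (Subgroup.mem_bot.mp hmem)
  obtain ⟨k, hk⟩ := hmodH
  by_cases hL1 : Nat.card L = 1
  · refine ⟨1, ?_⟩
    rw [Subgroup.card_eq_one.mp hL1]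
    exact bot_le
  -- the points with nontrivial stabilizer in L
  have hsplit := card_split (fun ω : G ⧸ H => MulAction.stabilizer L ω = ⊥)
  obtain ⟨c, hc⟩ := card_dvd_free (L := L) (Ω := G ⧸ H)
  have hchoose : ∀ ω : {ω : G ⧸ H // ¬ MulAction.stabilizer L ω = ⊥},
      ∃ a : MulAction.stabilizer L (ω : G ⧸ H), a ≠ 1 :=
    fun ω => Subgroup.ne_bot_iff_exists_ne_one.mp ω.2
  choose f hf using hchoose
  have hinj : Function.Injective
      (fun ω : {ω : G ⧸ H // ¬ MulAction.stabilizer L ω = ⊥} =>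
        (⟨(f ω).1, fun h => hf ω (Subtype.ext h)⟩ : {ℓ : L // ℓ ≠ 1})) := by
    intro ω ω' hωω'
    have h1 : (f ω).1 = (f ω').1 := congrArg Subtype.val hωω'
    obtain ⟨⟨ω, hω⟩, rfl⟩ : ∃ z, z = ω := ⟨ω, rfl⟩
    obtain ⟨⟨ω', hω'⟩, rfl⟩ : ∃ z, z = ω' := ⟨ω', rfl⟩
    obtain ⟨x, rfl⟩ := QuotientGroup.mk_surjective ω
    obtain ⟨y, rfl⟩ := QuotientGroup.mk_surjective ω'
    apply Subtype.ext
    have hx := (hstab L x _).mp (f ⟨_, hω⟩).2
    have hy := (hstab L y _).mp (f ⟨_, hω'⟩).2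
    rw [← h1] at hy
    refine huniq _ ?_ x y hx hy
    intro h
    exact hf ⟨_, hω⟩ (Subtype.ext (Subtype.ext h))
  have hle := Nat.card_le_card_of_injective _ hinj
  have hL1' := Cfsg.Agent.S0034.card_ne_one_add (1 : L)
  obtain ⟨b, hb⟩ := hL
  have hLpos : 0 < Nat.card L := Nat.card_pos
  -- arithmetic
  have hone : Nat.card {ω : G ⧸ H // ¬ MulAction.stabilizer L ω = ⊥} = 1 := by
    have e1 : Nat.card L * c + Nat.card {ω : G ⧸ H // ¬ MulAction.stabilizer L ω = ⊥} =
        Nat.card L * (b * k) + 1 := by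
      rw [← hc, hsplit, hk, hb, mul_assoc]
    have e2 : Nat.card {ω : G ⧸ H // ¬ MulAction.stabilizer L ω = ⊥} < Nat.card L := by omega
    rcases Nat.lt_trichotomy c (b * k) with h | h | h
    · have : Nat.card L * (c + 1) ≤ Nat.card L * (b * k) := Nat.mul_le_mul_left _ h
      rw [mul_add, mul_one] at this
      omega
    · rw [h] at e1
      omega
    · have : Nat.card L * (b * k + 1) ≤ Nat.card L * c := Nat.mul_le_mul_left _ h
      rw [mul_add, mul_one] at this
      omega
  obtain ⟨hsub, ⟨ω₀, hω₀⟩⟩ := Nat.card_eq_one_iff_unique.mp hone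
  obtain ⟨x₀, rfl⟩ := QuotientGroup.mk_surjective ω₀
  refine ⟨x₀, ?_⟩
  intro ℓ hℓ
  rw [Cfsg.Agent.S0034.mem_conj_smul]
  have hfix : (⟨ℓ, hℓ⟩ : L) • (x₀ : G ⧸ H) = x₀ := by
    have hne : ¬ MulAction.stabilizer L ((⟨ℓ, hℓ⟩ : L) • (x₀ : G ⧸ H)) = ⊥ := by
      rw [MulAction.stabilizer_smul_eq_stabilizer_map_conj]
      intro h
      apply hω₀
      rw [Subgroup.map_eq_bot_iff_of_injective _ (MulEquiv.injective _)] at h
      exact h
    have := hsub.elim ⟨_, hne⟩ ⟨_, hω₀⟩
    exact congrArg Subtype.val this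
  exact (hstab L x₀ ⟨ℓ, hℓ⟩).mp hfix

end Cfsg.Agent.S0589
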