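import Cfsg.Statements.S0590

set_option autoImplicit false
open Cfsg
open scoped commutatorElement

namespace Cfsg.Agent.S0590

/-- Quadratic action on an elementary abelian p-group forces the acting group modulo the kernel of the action to be elementary abelian. -/
theorem result {G : Type*} [Group G] [Finite G] {p : ℕ} [Fact p.Prime] (V H : Subgroup G) (hV : Cfsg.IsElementaryAbelian p V) (hHV : H ≤ Subgroup.normalizer (V : Set G)) (hq : ⁅⁅V, H⁆, H⁆ = ⊥) : ⁅H, H⁆ ≤ Subgroup.centralizer (V : Set G) ∧ ∀ a ∈ H, a ^ p ∈ Subgroup.centralizer (V : Set G) := by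
  constructor
  · rw [← Subgroup.commutator_eq_bot_iff_le_centralizer]
    apply Subgroup.commutator_commutator_eq_bot_of_rotate
    · rw [Subgroup.commutator_comm H V]; exact hq
    · exact hq
  · intro a ha
    rw [Subgroup.mem_centralizer_iff]
    intro v hv
    have hv' : v ∈ V := hv
    set c := ⁅v, a⁆ with hc
    have hcV : c ∈ V := by
      have h1 : a * v⁻¹ * a⁻¹ ∈ V := by
        have := (Subgroup.mem_normalizer_iff.mp (hHV ha)) v⁻¹
        exact this.mp (V.inv_mem hv')
      have : c = v * (a * v⁻¹ * a⁻¹) := by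
        simp [hc, commutatorElement_def, mul_assoc]
      rw [this]
      exact V.mul_mem hv' h1
    have hca : Commute c a := by
      rw [← commutatorElement_eq_one_iff_commute]
      have : ⁅c, a⁆ ∈ ⁅⁅V, H⁆, H⁆ :=
        Subgroup.commutator_mem_commutator (Subgroup.commutator_mem_commutator hv' ha) ha
      rw [hq] at this
      exact Subgroup.mem_bot.mp this
    have key : ∀ n : ℕ, a ^ n * v = (c⁻¹) ^ n * v * a ^ n := by
      intro n
      induction n with
      | zero => simp
      | succ n ih =>
        have h2 : a * v = c⁻¹ * v * a := by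
          simp [hc, commutatorElement_def, mul_assoc]
        have h3 : Commute a ((c⁻¹) ^ n) := (hca.symm.inv_right).pow_right n
        calc a ^ (n + 1) * v = a * (a ^ n * v) := by rw [pow_succ', mul_assoc]
          _ = a * ((c⁻¹) ^ n * v * a ^ n) := by rw [ih]
          _ = (a * (c⁻¹) ^ n) * v * a ^ n := by simp [mul_assoc]
          _ = ((c⁻¹) ^ n * a) * v * a ^ n := by rw [h3.eq]
          _ = (c⁻¹) ^ n * (a * v) * a ^ n := by simp [mul_assoc]
          _ = (c⁻¹) ^ n * (c⁻¹ * v * a) * a ^ n := by rw [h2]
          _ = (c⁻¹) ^ (n + 1) * v * a ^ (n + 1) := by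
            rw [pow_succ, pow_succ']; simp [mul_assoc]
    have hcp : c ^ p = 1 := hV.2 c hcV
    have := key p
    rw [inv_pow, hcp, inv_one, one_mul] at this
    exact this.symm

end Cfsg.Agent.S0590
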