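import Cfsg.Statements.S0591
import Mathlib

set_option autoImplicit false
open Cfsg
open scoped commutatorElement

namespace Cfsg.Agent.S0591

/-- For a quadratically acting element a on an elementary abelian p-group V, the fixed points C_V(a) have order at least the square root of the order of V. -/
theorem result {G : Type*} [Group G] [Finite G] {p : ℕ} [Fact p.Prime] (V : Subgroup G) (hV : Cfsg.IsElementaryAbelian p V) (a : G) (ha : a ∈ Subgroup.normalizer (V : Set G)) (hq : ⁅⁅V, Subgroup.zpowers a⁆, Subgroup.zpowers a⁆ = ⊥) : Nat.card V ≤ Nat.card ↥(V ⊓ Subgroup.centralizer (Subgroup.zpowers a : Set G)) ^ 2 := by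
  have hcomm : ∀ x ∈ V, ∀ y ∈ V, x * y = y * x := by
    intro x hx y hy
    haveI := hV.1
    have h := mul_comm' (⟨x, hx⟩ : V) ⟨y, hy⟩
    exact congrArg Subtype.val h
  have hconj : ∀ v ∈ V, a * v * a⁻¹ ∈ V := fun v hv =>
    (Subgroup.mem_normalizer_iff.mp ha v).mp hv
  -- membership in the centralizer of zpowers a
  have hcent : ∀ c : G, Commute c a → c ∈ Subgroup.centralizer (Subgroup.zpowers a : Set G) := by
    intro c hc
    rw [Subgroup.mem_centralizer_iff]
    intro h hh
    obtain ⟨n, rfl⟩ := Subgroup.mem_zpowers_iff.mp hh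
    exact ((hc.zpow_right n).eq).symm
  have hcV : ∀ v ∈ V, ⁅v, a⁆ ∈ V ⊓ Subgroup.centralizer (Subgroup.zpowers a : Set G) := by
    intro v hv
    refine ⟨?_, ?_⟩
    · have : ⁅v, a⁆ = v * (a * v⁻¹ * a⁻¹) := by simp [commutatorElement_def, mul_assoc]
      rw [this]
      exact V.mul_mem hv (hconj _ (V.inv_mem hv))
    · apply hcent
      rw [← commutatorElement_eq_one_iff_commute]
      have : ⁅⁅v, a⁆, a⁆ ∈ ⁅⁅V, Subgroup.zpowers a⁆, Subgroup.zpowers a⁆ :=
        Subgroup.commutator_mem_commutator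
          (Subgroup.commutator_mem_commutator hv (Subgroup.mem_zpowers a)) (Subgroup.mem_zpowers a)
      rw [hq] at this
      exact Subgroup.mem_bot.mp this
  let φ : V →* ↥(V ⊓ Subgroup.centralizer (Subgroup.zpowers a : Set G)) :=
    { toFun := fun v => ⟨⁅(v : G), a⁆, hcV v v.2⟩
      map_one' := by ext; simp
      map_mul' := by
        intro v w
        ext
        simp only [Subgroup.coe_mul]
        have h1 : ⁅(v : G) * w, a⁆ = v * ⁅(w : G), a⁆ * (a * (v : G)⁻¹ * a⁻¹) := by
          simp [commutatorElement_def, mul_assoc]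
        have h2 : ⁅(v : G), a⁆ = v * (a * (v : G)⁻¹ * a⁻¹) := by
          simp [commutatorElement_def, mul_assoc]
        rw [h1, h2, hcomm _ v.2 _ (hcV w w.2).1, mul_assoc, hcomm _ (hcV w w.2).1 _
          (V.mul_mem v.2 (hconj _ (V.inv_mem v.2)))] }
  have hker : φ.ker ≤ (V ⊓ Subgroup.centralizer (Subgroup.zpowers a : Set G)).subgroupOf V := by
    intro v hv
    rw [MonoidHom.mem_ker] at hv
    have h1 : ⁅(v : G), a⁆ = 1 := congrArg Subtype.val hv
    rw [Subgroup.mem_subgroupOf]
    exact ⟨v.2, hcent _ (commutatorElement_eq_one_iff_commute.mp h1)⟩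
  have h3 : Nat.card φ.ker ≤ Nat.card ↥(V ⊓ Subgroup.centralizer (Subgroup.zpowers a : Set G)) := by
    calc Nat.card φ.ker ≤ Nat.card ((V ⊓ Subgroup.centralizer (Subgroup.zpowers a : Set G)).subgroupOf V) :=
          Subgroup.card_le_of_le hker
      _ = Nat.card ↥(V ⊓ Subgroup.centralizer (Subgroup.zpowers a : Set G)) :=
          Nat.card_congr (Subgroup.subgroupOfEquivOfLe inf_le_left).toEquiv
  have h4 : Nat.card φ.range ≤ Nat.card ↥(V ⊓ Subgroup.centralizer (Subgroup.zpowers a : Set G)) :=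
    Subgroup.card_le_card_group _
  calc Nat.card V = Nat.card φ.ker * φ.ker.index := (Subgroup.card_mul_index _).symm
    _ = Nat.card φ.ker * Nat.card φ.range := by rw [Subgroup.index_ker]
    _ ≤ Nat.card ↥(V ⊓ Subgroup.centralizer (Subgroup.zpowers a : Set G)) *
          Nat.card ↥(V ⊓ Subgroup.centralizer (Subgroup.zpowers a : Set G)) := Nat.mul_le_mul h3 h4
    _ = _ := by ring

end Cfsg.Agent.S0591
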