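import Cfsg.Statements.S0592
import Cfsg.Agent.Lib.Helper14.QuadPair

set_option autoImplicit false
open Cfsg

namespace Cfsg.Agent.S0592

open Cfsg.Agent.Lib.Helper14

/-- Two quadratically acting generators of a linear group that is not a p-group, with the p'-part of the order of their product dividing q - 1, give a homomorphism onto a subgroup of SL(2, q) that is not a p-group. -/
theorem result {K : Type*} [Field K] [Fintype K] {p : ℕ} [Fact p.Prime] [CharP K p] {W : Type*} [AddCommGroup W] [Module K W] [FiniteDimensional K W] [Finite W] [Nontrivial W] (H : Subgroup (W ≃ₗ[K] W)) (a b : W ≃ₗ[K] W) (hH : H = Subgroup.closure {a, b}) (ha : ∀ w : W, a (a w - w) = a w - w) (hb : ∀ w : W, b (b w - w) = b w - w) (hnp : ¬ IsPGroup p H) (hk : ∃ e k : ℕ, orderOf (a * b) = p ^ e * k ∧ k ∣ Fintype.card K - 1) : ∃ φ : H →* Matrix.SpecialLinearGroup (Fin 2) K, ¬ IsPGroup p φ.range := by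
  have haH : a ∈ H := by rw [hH]; exact Subgroup.subset_closure (Set.mem_insert a {b})
  have hbH : b ∈ H := by
    rw [hH]; exact Subgroup.subset_closure (Set.mem_insert_of_mem a (Set.mem_singleton b))
  let ρ : ↥H →* Module.End K W :=
    { toFun := fun g => ((g : W ≃ₗ[K] W) : W →ₗ[K] W)
      map_one' := rfl
      map_mul' := fun _ _ => rfl }
  have hρinj : ∀ g : ↥H, ρ g = 1 → g = 1 := by
    intro g hg
    apply Subtype.ext
    apply LinearEquiv.ext
    intro w
    exact congrArg (fun T : Module.End K W => T w) hg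
  have hgen : Subgroup.closure ({⟨a, haH⟩, ⟨b, hbH⟩} : Set ↥H) = ⊤ := by
    apply Subgroup.map_injective H.subtype_injective
    rw [MonoidHom.map_closure, ← MonoidHom.range_eq_map, Subgroup.range_subtype, Set.image_pair]
    exact hH.symm
  obtain ⟨e, k, hord, hkq⟩ := hk
  have hquad : ∀ g : W ≃ₗ[K] W, (∀ w : W, g (g w - w) = g w - w) → ∀ hg : g ∈ H,
      (ρ ⟨g, hg⟩ - 1) * (ρ ⟨g, hg⟩ - 1) = 0 := by
    intro g hg hgH
    ext w
    have := hg w
    simp only [Module.End.mul_apply, LinearMap.sub_apply, Module.End.one_apply,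
      LinearMap.zero_apply]
    show g (g w - w) - (g w - w) = 0
    rw [this, sub_self]
  have hpow : ρ (⟨a, haH⟩ * ⟨b, hbH⟩) ^ (p ^ e * (Fintype.card K - 1)) = 1 := by
    rw [← map_pow]
    have h1 : (a * b) ^ (p ^ e * (Fintype.card K - 1)) = 1 := by
      rw [← orderOf_dvd_iff_pow_eq_one, hord]
      exact Nat.mul_dvd_mul_left _ hkq
    have h2 : (⟨a, haH⟩ * ⟨b, hbH⟩ : ↥H) ^ (p ^ e * (Fintype.card K - 1)) = 1 := by
      apply Subtype.ext
      simpa using h1
    rw [h2, map_one]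
  have hnp' : ¬ IsPRep p ρ := by
    intro h
    apply hnp
    intro g
    obtain ⟨j, hj⟩ := h g
    exact ⟨j, hρinj _ hj⟩
  obtain ⟨φ, hφ⟩ := quad_pair_SL2 (K := K) (p := p) (⟨a, haH⟩ : ↥H) ⟨b, hbH⟩ hgen e
    (Module.finrank K W) W ρ rfl (hquad a ha haH) (hquad b hb hbH) hpow hnp'
  refine ⟨φ, fun hP => hφ ?_⟩
  intro g
  obtain ⟨j, hj⟩ := hP ⟨φ g, ⟨g, rfl⟩⟩
  refine ⟨j, ?_⟩
  have := congrArg Subtype.val hj
  simpa using this

end Cfsg.Agent.S0592
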