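import Cfsg.Statements.S0593
import Cfsg.Agent.Lib.Helper14.QuadSylow

set_option autoImplicit false
open Cfsg

namespace Cfsg.Agent.S0593

open Cfsg.Agent.Lib.Helper14

/-- the contrapositive form: abelian Sylow 2-subgroups force a `p`-group. -/
theorem isPGroup_of_quadratic_pair {G : Type*} [Group G] [Finite G] {p : ℕ} [Fact p.Prime]
    (hp : p ≠ 2) (V H : Subgroup G) (hV : Cfsg.IsElementaryAbelian p V)
    (hHV : H ≤ Subgroup.normalizer (V : Set G))
    (hf : H ⊓ Subgroup.centralizer (V : Set G) = ⊥) (a b : G) (hab : H = Subgroup.closure {a, b})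
    (ha : ⁅⁅V, Subgroup.zpowers a⁆, Subgroup.zpowers a⁆ = ⊥)
    (hb : ⁅⁅V, Subgroup.zpowers b⁆, Subgroup.zpowers b⁆ = ⊥) (T : Sylow 2 H)
    (hT : ∀ x ∈ T, ∀ y ∈ T, x * y = y * x) : IsPGroup p H := by
  have haH : a ∈ H := by rw [hab]; exact Subgroup.subset_closure (Set.mem_insert a {b})
  have hbH : b ∈ H := by
    rw [hab]; exact Subgroup.subset_closure (Set.mem_insert_of_mem a (Set.mem_singleton b))
  have hgen : Subgroup.closure ({⟨a, haH⟩, ⟨b, hbH⟩} : Set ↥H) = ⊤ := by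
    apply Subgroup.map_injective H.subtype_injective
    rw [MonoidHom.map_closure, ← MonoidHom.range_eq_map, Subgroup.range_subtype, Set.image_pair]
    exact hab.symm
  have hVc := hV.1
  let cg : CommGroup ↥V :=
    { (inferInstance : Group ↥V) with mul_comm := fun x y => mul_comm' x y }
  have hVp : ∀ x : ↥V, x ^ p = 1 := fun x => Subtype.ext (hV.2 x x.2)
  exact @quad_pair_sylow_two ↥H _ _ p _ ↥V cg _ hp hVp (conjHom V H hHV)
    (conjHom_eq_one V H hHV hf) ⟨a, haH⟩ ⟨b, hbH⟩ hgen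
    (conjHom_quadratic V H hHV ⟨a, haH⟩ ha) (conjHom_quadratic V H hHV ⟨b, hbH⟩ hb) T hT

/-- For odd p, a faithful group on an elementary abelian p-group generated by two quadratically acting elements is a p-group or has non-abelian Sylow 2-subgroups. -/
theorem result {G : Type*} [Group G] [Finite G] {p : ℕ} [Fact p.Prime] (hp : p ≠ 2) (V H : Subgroup G) (hV : Cfsg.IsElementaryAbelian p V) (hHV : H ≤ Subgroup.normalizer (V : Set G)) (hf : H ⊓ Subgroup.centralizer (V : Set G) = ⊥) (a b : G) (hab : H = Subgroup.closure {a, b}) (ha : ⁅⁅V, Subgroup.zpowers a⁆, Subgroup.zpowers a⁆ = ⊥) (hb : ⁅⁅V, Subgroup.zpowers b⁆, Subgroup.zpowers b⁆ = ⊥) (hnp : ¬ IsPGroup p H) (T : Sylow 2 H) : ¬ IsMulCommutative T := by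
  intro hT
  apply hnp
  refine isPGroup_of_quadratic_pair hp V H hV hHV hf a b hab ha hb T ?_
  intro x hx y hy
  exact congrArg Subtype.val (mul_comm' (⟨x, hx⟩ : T) ⟨y, hy⟩)

end Cfsg.Agent.S0593
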