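import Cfsg.Statements.S0594
import Cfsg.Agent.Lib.Helper14.SL2Three4

set_option autoImplicit false
open Cfsg

namespace Cfsg.Agent.S0594

open Cfsg.Agent.Lib.Helper14

/-- For odd p, two quadratic generators of a faithful group that is not a p-group, one of which acts nontrivially on a normal subgroup of order prime to p, force p = 3 and a section isomorphic to SL(2,3). -/
theorem result {G : Type*} [Group G] [Finite G] {p : ℕ} [Fact p.Prime] (hp : p ≠ 2) (V H : Subgroup G) (hV : Cfsg.IsElementaryAbelian p V) (hHV : H ≤ Subgroup.normalizer (V : Set G)) (hf : H ⊓ Subgroup.centralizer (V : Set G) = ⊥) (a b : G) (hab : H = Subgroup.closure {a, b}) (ha : ⁅⁅V, Subgroup.zpowers a⁆, Subgroup.zpowers a⁆ = ⊥) (hb : ⁅⁅V, Subgroup.zpowers b⁆, Subgroup.zpowers b⁆ = ⊥) (hnp : ¬ IsPGroup p H) (Q : Subgroup G) (hQH : Q ≤ H) (hQn : H ≤ Subgroup.normalizer (Q : Set G)) (hQ : (Nat.card Q).Coprime p) (hQa : ⁅Q, Subgroup.zpowers a⁆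 ≠ ⊥) : p = 3 ∧ ∃ (K L : Subgroup G) (hL : (L.subgroupOf K).Normal), K ≤ H ∧ Nonempty ((K ⧸ L.subgroupOf K) ≃* Matrix.SpecialLinearGroup (Fin 2) (ZMod 3)) := by
  have hpp : p.Prime := Fact.out
  have hVc := hV.1
  let cg : CommGroup ↥V :=
    { (inferInstance : Group ↥V) with mul_comm := fun x y => mul_comm' x y }
  have hVp : ∀ x : ↥V, x ^ p = 1 := fun x => Subtype.ext (hV.2 x x.2)
  have haH : a ∈ H := hab ▸ Subgroup.subset_closure (Set.mem_insert a _)
  set a' : ↥H := ⟨a, haH⟩ with ha'def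
  have ha' := conjHom_quadratic V H hHV a' ha
  have hap : a' ^ p = 1 := @quad_pow_p ↥H _ ↥V cg p hVp (conjHom V H hHV)
    (conjHom_eq_one V H hHV hf) a' ha'
  -- an element of `Q` not commuting with `a`
  obtain ⟨q, hqQ, hqa⟩ : ∃ q ∈ Q, q * a ≠ a * q := by
    by_contra hcon
    apply hQa
    rw [Subgroup.commutator_eq_bot_iff_le_centralizer]
    intro q hq
    rw [Subgroup.mem_centralizer_iff]
    intro y hy
    obtain ⟨i, rfl⟩ := Subgroup.mem_zpowers_iff.mp hy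
    have hc : Commute q a := by
      by_contra hc
      exact hcon ⟨q, hq, hc⟩
    exact (hc.zpow_right i).eq.symm
  set q' : ↥H := ⟨q, hQH hqQ⟩ with hq'def
  set b' : ↥H := q' * a' * q'⁻¹ with hb'def
  set Γ₁ := Subgroup.closure ({a', b'} : Set ↥H) with hΓ₁def
  have haΓ : a' ∈ Γ₁ := Subgroup.subset_closure (Set.mem_insert a' _)
  have hbΓ : b' ∈ Γ₁ := Subgroup.subset_closure (Set.mem_insert_of_mem a' (Set.mem_singleton _))
  have hgen : Subgroup.closure ({⟨a', haΓ⟩, ⟨b', hbΓ⟩} : Set ↥Γ₁) = ⊤ := by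
    apply Subgroup.map_injective Γ₁.subtype_injective
    rw [MonoidHom.map_closure, ← MonoidHom.range_eq_map, Subgroup.range_subtype, Set.image_pair]
    rfl
  haveI hQ'n : (Q.subgroupOf H).Normal := Subgroup.normal_subgroupOf_of_le_normalizer hQn
  set N : Subgroup ↥Γ₁ := (Q.subgroupOf H).subgroupOf Γ₁ with hNdef
  haveI hNn : N.Normal := hQ'n.subgroupOf Γ₁
  have hNcop : (Nat.card N).Coprime p := by
    have h1 : Nat.card N ∣ Nat.card (Q.subgroupOf H) :=
      Subgroup.card_comap_dvd_of_injective _ _ Γ₁.subtype_injective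
    have h2 : Nat.card (Q.subgroupOf H) ∣ Nat.card Q :=
      Subgroup.card_comap_dvd_of_injective _ _ H.subtype_injective
    exact Nat.Coprime.coprime_dvd_left (h1.trans h2) hQ
  -- the commutator
  set c : ↥Γ₁ := (⟨a', haΓ⟩ : ↥Γ₁)⁻¹ * ⟨b', hbΓ⟩ with hcdef
  have hcN : c ∈ N := by
    show (a⁻¹ * (q * a * q⁻¹) : G) ∈ Q
    have h1 : a⁻¹ * q * a ∈ Q := by
      have := (Subgroup.mem_normalizer_iff.mp (hQn (H.inv_mem haH)) q).mp hqQ
      simpa using this
    have h2 : a⁻¹ * (q * a * q⁻¹) = (a⁻¹ * q * a) * q⁻¹ := by group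
    rw [h2]
    exact Q.mul_mem h1 (Q.inv_mem hqQ)
  have hc1 : c ≠ 1 := by
    intro h
    apply hqa
    have h1 : (⟨b', hbΓ⟩ : ↥Γ₁) = ⟨a', haΓ⟩ := by
      have : (⟨a', haΓ⟩ : ↥Γ₁) * c = ⟨a', haΓ⟩ := by rw [h, mul_one]
      rw [hcdef, mul_inv_cancel_left] at this
      exact this
    have h2 : (q * a * q⁻¹ : G) = a := congrArg (fun x : ↥Γ₁ => ((x : ↥H) : G)) h1
    calc q * a = (q * a * q⁻¹) * q := by group
      _ = a * q := by rw [h2]
  have hnp₁ : ¬ IsPGroup p ↥Γ₁ := by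
    intro hpg
    obtain ⟨k, hk⟩ := hpg c
    have h1 : orderOf c ∣ p ^ k := orderOf_dvd_of_pow_eq_one hk
    have h2 : orderOf c ∣ Nat.card N := by
      have := orderOf_dvd_natCard (⟨c, hcN⟩ : N)
      rwa [Subgroup.orderOf_mk] at this
    exact hc1 (orderOf_eq_one_iff.mp
      (Nat.eq_one_of_dvd_coprimes (Nat.Coprime.pow_right k hNcop) h2 h1))
  have hquot : IsPGroup p (↥Γ₁ ⧸ N) := by
    have hπ : (QuotientGroup.mk' N) ⟨b', hbΓ⟩ = (QuotientGroup.mk' N) ⟨a', haΓ⟩ := by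
      symm
      exact QuotientGroup.eq.mpr hcN
    have hpow : ((QuotientGroup.mk' N) ⟨a', haΓ⟩) ^ p = 1 := by
      rw [← map_pow]
      have : (⟨a', haΓ⟩ : ↥Γ₁) ^ p = 1 := Subtype.ext hap
      rw [this, map_one]
    have hrange : ∀ x : ↥Γ₁ ⧸ N, x ∈ Subgroup.zpowers ((QuotientGroup.mk' N) ⟨a', haΓ⟩) := by
      intro x
      obtain ⟨g, rfl⟩ := QuotientGroup.mk'_surjective N x
      have hg : g ∈ Subgroup.closure ({⟨a', haΓ⟩, ⟨b', hbΓ⟩} : Set ↥Γ₁) := by
        rw [hgen]; exact Subgroup.mem_top g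
      have h1 : (QuotientGroup.mk' N) g ∈
          (Subgroup.closure ({⟨a', haΓ⟩, ⟨b', hbΓ⟩} : Set ↥Γ₁)).map (QuotientGroup.mk' N) :=
        ⟨g, hg, rfl⟩
      rw [MonoidHom.map_closure, Set.image_pair, hπ, Set.pair_eq_singleton,
        ← Subgroup.zpowers_eq_closure] at h1
      exact h1
    intro x
    obtain ⟨i, rfl⟩ := Subgroup.mem_zpowers_iff.mp (hrange x)
    refine ⟨1, ?_⟩
    rw [pow_one, ← zpow_natCast, ← zpow_mul, mul_comm, zpow_mul, zpow_natCast, hpow, one_zpow]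
  have hsol : IsPSolvable p ↥Γ₁ := isPSolvable_of_normal_pprime N hNcop hquot
  exact quad_pair_section hp V H hV hHV hf a' b' ha'
    (@quad_conj ↥H _ ↥V cg (conjHom V H hHV) a' q' ha') hsol hnp₁

end Cfsg.Agent.S0594
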