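import Cfsg.Statements.S0595
import Cfsg.Agent.Lib.Helper14.QuadCore

set_option autoImplicit false
open Cfsg

namespace Cfsg.Agent.S0595

open Cfsg.Agent.Lib.Helper14

/-- the positive form: with abelian Sylow 2-subgroups, quadratic elements lie in `O_p(H)`. -/
theorem mem_pCore_of_quadratic {G : Type*} [Group G] [Finite G] {p : ℕ} [Fact p.Prime]
    (hp : p ≠ 2) (V H : Subgroup G) (hV : Cfsg.IsElementaryAbelian p V)
    (hHV : H ≤ Subgroup.normalizer (V : Set G))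
    (hf : H ⊓ Subgroup.centralizer (V : Set G) = ⊥) (a : G) (haH : a ∈ H)
    (hq : ⁅⁅V, Subgroup.zpowers a⁆, Subgroup.zpowers a⁆ = ⊥) (T : Sylow 2 H)
    (hT : ∀ x ∈ T, ∀ y ∈ T, x * y = y * x) : a ∈ (Cfsg.pCore p H).map H.subtype := by
  have hVc := hV.1
  let cg : CommGroup ↥V :=
    { (inferInstance : Group ↥V) with mul_comm := fun x y => mul_comm' x y }
  have hVp : ∀ x : ↥V, x ^ p = 1 := fun x => Subtype.ext (hV.2 x x.2)
  have h1 := @quad_mem_pCore ↥H _ _ ↥V cg _ p _ hp hVp (conjHom V H hHV)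
    (conjHom_eq_one V H hHV hf) ⟨a, haH⟩ (conjHom_quadratic V H hHV ⟨a, haH⟩ hq) T hT
  exact ⟨⟨a, haH⟩, h1, rfl⟩

/-- For odd p, a faithful action on an elementary abelian p-group that is not p-stable forces non-abelian Sylow 2-subgroups. -/
theorem result {G : Type*} [Group G] [Finite G] {p : ℕ} [Fact p.Prime] (hp : p ≠ 2) (V H : Subgroup G) (hV : Cfsg.IsElementaryAbelian p V) (hHV : H ≤ Subgroup.normalizer (V : Set G)) (hf : H ⊓ Subgroup.centralizer (V : Set G) = ⊥) (a : G) (haH : a ∈ H) (hq : ⁅⁅V, Subgroup.zpowers a⁆, Subgroup.zpowers a⁆ = ⊥) (hna : a ∉ (Cfsg.pCore p H).map H.subtype) (T : Sylow 2 H) : ¬ IsMulCommutative T := by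
  intro hT
  apply hna
  refine mem_pCore_of_quadratic hp V H hV hHV hf a haH hq T ?_
  intro x hx y hy
  exact congrArg Subtype.val (mul_comm' (⟨x, hx⟩ : T) ⟨y, hy⟩)

end Cfsg.Agent.S0595
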