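import Cfsg.Statements.S0596
import Cfsg.Agent.Lib.Helper14.SL2Three4

set_option autoImplicit false
open Cfsg

namespace Cfsg.Agent.S0596

open Cfsg.Agent.Lib.Helper14

/-- For odd p, a p-separable group with a faithful action on an elementary abelian p-group that is not p-stable has p = 3 and involves SL(2,3). -/
theorem result {G : Type*} [Group G] [Finite G] {p : ℕ} [Fact p.Prime] (hp : p ≠ 2) (V H : Subgroup G) (hV : Cfsg.IsElementaryAbelian p V) (hHV : H ≤ Subgroup.normalizer (V : Set G)) (hf : H ⊓ Subgroup.centralizer (V : Set G) = ⊥) (hsep : Cfsg.IsPSolvable p H) (a : G) (haH : a ∈ H) (hq : ⁅⁅V, Subgroup.zpowers a⁆, Subgroup.zpowers a⁆ = ⊥) (hna : a ∉ (Cfsg.pCore p H).map H.subtype) : p = 3 ∧ ∃ (K L : Subgroup G) (hL : (L.subgroupOf K).Normal), K ≤ H ∧ Nonempty ((K ⧸ L.subgroupOf K) ≃* Matrix.SpecialLinearGroup (Fin 2) (ZMod 3)) := by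
  have hVc := hV.1
  let cg : CommGroup ↥V :=
    { (inferInstance : Group ↥V) with mul_comm := fun x y => mul_comm' x y }
  have hVp : ∀ x : ↥V, x ^ p = 1 := fun x => Subtype.ext (hV.2 x x.2)
  set a' : ↥H := ⟨a, haH⟩ with ha'def
  have ha' := conjHom_quadratic V H hHV a' hq
  have hna' : a' ∉ pCore p ↥H := fun h => hna ⟨a', h, rfl⟩
  have hex : ∃ g : ↥H, ¬ IsPGroup p ↥(Subgroup.closure ({a', g * a' * g⁻¹} : Set ↥H)) := by
    by_contra hcon
    have hcon' : ∀ g : ↥H, IsPGroup p ↥(Subgroup.closure ({a', g * a' * g⁻¹} : Set ↥H)) := by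
      intro g
      by_contra hg
      exact hcon ⟨g, hg⟩
    exact hna' (@quad_mem_pCore_of_pair ↥H _ _ ↥V cg _ p _ hVp (conjHom V H hHV)
      (conjHom_eq_one V H hHV hf) a' ha' hcon')
  obtain ⟨g, hg⟩ := hex
  exact quad_pair_section hp V H hV hHV hf a' (g * a' * g⁻¹) ha'
    (@quad_conj ↥H _ ↥V cg (conjHom V H hHV) a' g ha') (isPSolvable_subgroup hsep _) hg

end Cfsg.Agent.S0596
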