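import Cfsg.Statements.S0597
import Mathlib
import Cfsg.Agent.Lib.Helper32.Wielandt
import Cfsg.Agent.Lib.Helper66.Cores

set_option autoImplicit false
open Cfsg

namespace Cfsg.Agent.S0597

open Cfsg.Agent.Lib.Helper32
open scoped commutatorElement

/-- if every element of `E` conjugates `D` into itself then `E` normalizes `D`. -/
theorem le_normalizer_of_conj {G : Type*} [Group G] {E D : Subgroup G}
    (h : ∀ e ∈ E, ∀ d ∈ D, e * d * e⁻¹ ∈ D) : E ≤ Subgroup.normalizer (D : Set G) := by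
  intro e he
  rw [Subgroup.mem_normalizer_iff]
  intro d
  constructor
  · exact h e he d
  · intro hd
    have := h e⁻¹ (E.inv_mem he) _ hd
    simpa [mul_assoc] using this

/-- the commutator of two subgroups is normalized by both. -/
theorem comm_normalized {G : Type*} [Group G] (E₁ E₂ : Subgroup G) :
    E₁ ⊔ E₂ ≤ Subgroup.normalizer ((⁅E₁, E₂⁆ : Subgroup G) : Set G) := by
  apply sup_le
  · apply le_normalizer_of_conj
    intro e he d hd
    rw [Subgroup.commutator_def] at hd ⊢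
    induction hd using Subgroup.closure_induction with
    | mem x hx =>
      obtain ⟨a, ha, b, hb, rfl⟩ := hx
      have h1 : e * ⁅a, b⁆ * e⁻¹ = ⁅e * a, b⁆ * ⁅e, b⁆⁻¹ := by
        simp only [commutatorElement_def]; group
      rw [h1]
      exact Subgroup.mul_mem _ (Subgroup.subset_closure ⟨e * a, E₁.mul_mem he ha, b, hb, rfl⟩)
        (Subgroup.inv_mem _ (Subgroup.subset_closure ⟨e, he, b, hb, rfl⟩))
    | one => simp
    | mul x y _ _ hx hy =>
      have : e * (x * y) * e⁻¹ = (e * x * e⁻¹) * (e * y * e⁻¹) := by group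
      rw [this]; exact Subgroup.mul_mem _ hx hy
    | inv x _ hx =>
      have : e * x⁻¹ * e⁻¹ = (e * x * e⁻¹)⁻¹ := by group
      rw [this]; exact Subgroup.inv_mem _ hx
  · apply le_normalizer_of_conj
    intro e he d hd
    rw [Subgroup.commutator_def] at hd ⊢
    induction hd using Subgroup.closure_induction with
    | mem x hx =>
      obtain ⟨a, ha, b, hb, rfl⟩ := hx
      have h1 : e * ⁅a, b⁆ * e⁻¹ = ⁅a, e⁆⁻¹ * ⁅a, e * b⁆ := by
        simp only [commutatorElement_def]; group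
      rw [h1]
      exact Subgroup.mul_mem _ (Subgroup.inv_mem _ (Subgroup.subset_closure ⟨a, ha, e, he, rfl⟩))
        (Subgroup.subset_closure ⟨a, ha, e * b, E₂.mul_mem he hb, rfl⟩)
    | one => simp
    | mul x y _ _ hx hy =>
      have : e * (x * y) * e⁻¹ = (e * x * e⁻¹) * (e * y * e⁻¹) := by group
      rw [this]; exact Subgroup.mul_mem _ hx hy
    | inv x _ hx =>
      have : e * x⁻¹ * e⁻¹ = (e * x * e⁻¹)⁻¹ := by group
      rw [this]; exact Subgroup.inv_mem _ hx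


/-- If two subnormal subgroups of a faithful group on an elementary abelian p-group satisfy [V, E₁, E₂] = 1, then their commutator lies in the largest normal p-subgroup. -/
theorem result {G : Type*} [Group G] [Finite G] {p : ℕ} [Fact p.Prime] (V H : Subgroup G) (hV : Cfsg.IsElementaryAbelian p V) (hHV : H ≤ Subgroup.normalizer (V : Set G)) (hf : H ⊓ Subgroup.centralizer (V : Set G) = ⊥) (E₁ E₂ : Subgroup G) (h₁ : E₁ ≤ H) (h₂ : E₂ ≤ H) (hs₁ : (E₁.subgroupOf H).IsSubnormal) (hs₂ : (E₂.subgroupOf H).IsSubnormal) (hc : ⁅⁅V, E₁⁆, E₂⁆ = ⊥) : ⁅E₁, E₂⁆ ≤ (Cfsg.pCore p H).map H.subtype := by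
  classical
  obtain ⟨hVc, hVp⟩ := hV
  obtain ⟨W, hW⟩ : ∃ W : Subgroup G, W = ⁅V, E₁⁆ := ⟨_, rfl⟩
  rw [← hW] at hc
  have hnorm : ∀ h ∈ H, ∀ v ∈ V, h * v * h⁻¹ ∈ V := by
    intro h hh v hv
    exact (Subgroup.mem_normalizer_iff.1 (hHV hh) v).1 hv
  have hWV : W ≤ V := by
    rw [hW, Subgroup.commutator_le]
    intro v hv e he
    have : ⁅v, e⁆ = v * (e * v⁻¹ * e⁻¹) := by simp [commutatorElement_def, mul_assoc]
    rw [this]
    exact V.mul_mem hv (hnorm e (h₁ he) _ (V.inv_mem hv))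
  have hE2W : ∀ e ∈ E₂, ∀ w ∈ W, e * w * e⁻¹ = w := by
    intro e he w hw
    have h1 : W ≤ Subgroup.centralizer (E₂ : Set G) :=
      Subgroup.commutator_eq_bot_iff_le_centralizer.1 hc
    have h2 := h1 hw e he
    rw [h2]; group
  have hE1W : ∀ e ∈ E₁, ∀ w ∈ W, e * w * e⁻¹ ∈ W := by
    intro e he w hw
    have h1 : e ∈ Subgroup.normalizer ((⁅V, E₁⁆ : Subgroup G) : Set G) :=
      comm_normalized V E₁ ((le_sup_right : E₁ ≤ V ⊔ E₁) he)
    rw [← hW] at h1
    exact (Subgroup.mem_normalizer_iff.1 h1 w).1 hw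
  have hE1V : ∀ e ∈ E₁, ∀ v ∈ V, e * v * e⁻¹ * v⁻¹ ∈ W := by
    intro e he v hv
    have h1 : ⁅e, v⁆ ∈ ⁅E₁, V⁆ := Subgroup.commutator_mem_commutator he hv
    rw [Subgroup.commutator_comm, ← hW] at h1
    simpa [commutatorElement_def] using h1
  -- the chain-stabilizing property
  have hP : ∀ x ∈ ⁅E₁, E₂⁆, x ∈ H ∧ (∀ w ∈ W, x * w * x⁻¹ = w) ∧
      (∀ v ∈ V, x * v * x⁻¹ * v⁻¹ ∈ W) := by
    intro x hx
    rw [Subgroup.commutator_def] at hx
    induction hx using Subgroup.closure_induction with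
    | mem x hx =>
      obtain ⟨a, ha, b, hb, rfl⟩ := hx
      refine ⟨?_, ?_, ?_⟩
      · rw [commutatorElement_def]
        exact H.mul_mem (H.mul_mem (H.mul_mem (h₁ ha) (h₂ hb)) (H.inv_mem (h₁ ha)))
          (H.inv_mem (h₂ hb))
      · intro w hw
        have e1 : b⁻¹ * w * b = w := by
          simpa using hE2W b⁻¹ (E₂.inv_mem hb) w hw
        have hw' : a⁻¹ * w * a ∈ W := by
          simpa using hE1W a⁻¹ (E₁.inv_mem ha) w hw
        have e2 : b * (a⁻¹ * w * a) * b⁻¹ = a⁻¹ * w * a := hE2W b hb _ hw'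
        calc ⁅a, b⁆ * w * ⁅a, b⁆⁻¹ = a * (b * (a⁻¹ * (b⁻¹ * w * b) * a) * b⁻¹) * a⁻¹ := by
              simp only [commutatorElement_def]; group
          _ = a * (b * (a⁻¹ * w * a) * b⁻¹) * a⁻¹ := by rw [e1]
          _ = a * (a⁻¹ * w * a) * a⁻¹ := by rw [e2]
          _ = w := by group
      · intro v hv
        have hv1 : b⁻¹ * v * b ∈ V := by
          simpa using hnorm b⁻¹ (H.inv_mem (h₂ hb)) v hv
        have hw1 : a⁻¹ * (b⁻¹ * v * b) * a * (b⁻¹ * v * b)⁻¹ ∈ W := by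
          simpa using hE1V a⁻¹ (E₁.inv_mem ha) _ hv1
        have hw2 : a * v * a⁻¹ * v⁻¹ ∈ W := hE1V a ha v hv
        have e2 := hE2W b hb _ hw1
        have key : ⁅a, b⁆ * v * ⁅a, b⁆⁻¹ * v⁻¹ =
            (a * (b * (a⁻¹ * (b⁻¹ * v * b) * a * (b⁻¹ * v * b)⁻¹) * b⁻¹) * a⁻¹) *
              (a * v * a⁻¹ * v⁻¹) := by
          simp only [commutatorElement_def]; group
        rw [key, e2]
        exact W.mul_mem (hE1W a ha _ hw1) hw2
    | one =>
      refine ⟨H.one_mem, ?_, ?_⟩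
      · intro w _; simp
      · intro v _; simp
    | mul x y _ _ hx hy =>
      obtain ⟨hx1, hx2, hx3⟩ := hx
      obtain ⟨hy1, hy2, hy3⟩ := hy
      refine ⟨H.mul_mem hx1 hy1, ?_, ?_⟩
      · intro w hw
        calc x * y * w * (x * y)⁻¹ = x * (y * w * y⁻¹) * x⁻¹ := by group
          _ = w := by rw [hy2 w hw, hx2 w hw]
      · intro v hv
        have key : x * y * v * (x * y)⁻¹ * v⁻¹ =
            (x * (y * v * y⁻¹ * v⁻¹) * x⁻¹) * (x * v * x⁻¹ * v⁻¹) := by group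
        rw [key, hx2 _ (hy3 v hv)]
        exact W.mul_mem (hy3 v hv) (hx3 v hv)
    | inv x _ hx =>
      obtain ⟨hx1, hx2, hx3⟩ := hx
      refine ⟨H.inv_mem hx1, ?_, ?_⟩
      · intro w hw
        calc x⁻¹ * w * x⁻¹⁻¹ = x⁻¹ * (x * w * x⁻¹) * x := by rw [hx2 w hw]; group
          _ = w := by group
      · intro v hv
        have hu : x⁻¹ * v * x ∈ V := by
          simpa using hnorm x⁻¹ (H.inv_mem hx1) v hv
        have key : x⁻¹ * v * x⁻¹⁻¹ * v⁻¹ =
            (x * (x⁻¹ * v * x) * x⁻¹ * (x⁻¹ * v * x)⁻¹)⁻¹ := by group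
        rw [key]
        exact W.inv_mem (hx3 _ hu)
  -- elements of the commutator have order dividing p
  have hpow : ∀ x ∈ ⁅E₁, E₂⁆, x ^ p = 1 := by
    intro x hx
    obtain ⟨hx1, hx2, hx3⟩ := hP x hx
    have hstep : ∀ v ∈ V, ∀ k : ℕ, x ^ k * v * (x ^ k)⁻¹ = (x * v * x⁻¹ * v⁻¹) ^ k * v := by
      intro v hv k
      induction k with
      | zero => simp
      | succ k ih =>
        have hw := hx3 v hv
        have h1 : x ^ (k + 1) * v * (x ^ (k + 1))⁻¹ = x * (x ^ k * v * (x ^ k)⁻¹) * x⁻¹ := by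
          rw [pow_succ']; group
        have h2 : x * ((x * v * x⁻¹ * v⁻¹) ^ k * v) * x⁻¹ =
            (x * (x * v * x⁻¹ * v⁻¹) * x⁻¹) ^ k * (x * v * x⁻¹) := by
          rw [conj_pow]; group
        rw [h1, ih, h2, hx2 _ hw, pow_succ]
        group
    have hcent : x ^ p ∈ Subgroup.centralizer (V : Set G) := by
      rw [Subgroup.mem_centralizer_iff]
      intro v hv
      have h1 := hstep v hv p
      rw [hVp _ (hWV (hx3 v hv)), one_mul] at h1
      calc v * x ^ p = (x ^ p * v * (x ^ p)⁻¹) * x ^ p := by rw [h1]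
        _ = x ^ p * v := by group
    have hmem : x ^ p ∈ H ⊓ Subgroup.centralizer (V : Set G) := ⟨H.pow_mem hx1 p, hcent⟩
    rw [hf] at hmem
    exact (Subgroup.mem_bot).1 hmem
  have hDH : ⁅E₁, E₂⁆ ≤ H := by
    rw [Subgroup.commutator_le]
    intro a ha b hb
    rw [commutatorElement_def]
    exact H.mul_mem (H.mul_mem (H.mul_mem (h₁ ha) (h₂ hb)) (H.inv_mem (h₁ ha)))
      (H.inv_mem (h₂ hb))
  have hDp : IsPGroup p ↥(⁅E₁, E₂⁆ : Subgroup G) := by
    intro g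
    refine ⟨1, ?_⟩
    apply Subtype.ext
    rw [pow_one]
    exact hpow g.1 g.2
  have hDp' : IsPGroup p ↥((⁅E₁, E₂⁆ : Subgroup G).subgroupOf H) :=
    hDp.of_equiv (Subgroup.subgroupOfEquivOfLe hDH).symm
  -- subnormality
  have hr1 : RSN E₁ H := rsn_of_subgroupOf h₁ hs₁
  have hr2 : RSN E₂ H := rsn_of_subgroupOf h₂ hs₂
  have hr : RSN (E₁ ⊔ E₂) H := hr1.sup hr2
  have hDE : ⁅E₁, E₂⁆ ≤ E₁ ⊔ E₂ := by
    rw [Subgroup.commutator_le]
    intro a ha b hb
    have ha' : a ∈ E₁ ⊔ E₂ := (le_sup_left : E₁ ≤ E₁ ⊔ E₂) ha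
    have hb' : b ∈ E₁ ⊔ E₂ := (le_sup_right : E₂ ≤ E₁ ⊔ E₂) hb
    rw [commutatorElement_def]
    exact Subgroup.mul_mem _ (Subgroup.mul_mem _ (Subgroup.mul_mem _ ha' hb')
      (Subgroup.inv_mem _ ha')) (Subgroup.inv_mem _ hb')
  have hrD : RSN ⁅E₁, E₂⁆ H := RSN.step _ (E₁ ⊔ E₂) H hDE (comm_normalized E₁ E₂) hr
  have hsub : ((⁅E₁, E₂⁆ : Subgroup G).subgroupOf H).IsSubnormal := hrD.subgroupOf
  have hle : (⁅E₁, E₂⁆ : Subgroup G).subgroupOf H ≤ Cfsg.pCore p ↥H :=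
    Cfsg.Agent.Lib.Helper66.subnormal_le_pCore hsub hDp'
  have := Subgroup.map_mono (f := H.subtype) hle
  rwa [Subgroup.map_subgroupOf_eq_of_le hDH] at this

end Cfsg.Agent.S0597
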