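import Cfsg.Statements.S0605
import Cfsg.Agent.Lib.Helper14.Basic

set_option autoImplicit false
open Cfsg

namespace Cfsg.Agent.S0605

open Cfsg.Agent.Lib.Helper14

/-- Elements of order p in the centralizer of the Thompson subgroup belong to the Thompson subgroup (so to its centre). -/
theorem result {G : Type*} [Group G] [Finite G] {p : ℕ} [Fact p.Prime] (x : G) (hx : x ∈ Subgroup.centralizer (Cfsg.thompsonSubgroup p G : Set G)) (ho : orderOf x = p) : x ∈ Cfsg.thompsonSubgroup p G := by
  obtain ⟨A, hA⟩ := exists_maxEA (G := G) p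
  have h1 : IsElementaryAbelian p (Subgroup.zpowers x) :=
    ea_zpowers (by rw [← ho]; exact pow_orderOf_eq_one x)
  have h2 : IsElementaryAbelian p (A ⊔ Subgroup.zpowers x) := by
    refine ea_sup hA.1 h1 ?_
    intro a ha b hb
    obtain ⟨n, rfl⟩ := Subgroup.mem_zpowers_iff.mp hb
    have : Commute a x := (Subgroup.mem_centralizer_iff.mp hx a (maxEA_le_thompson hA ha))
    exact (this.zpow_right n).eq
  have h3 : A = A ⊔ Subgroup.zpowers x := subgroup_eq_of_le_of_card_le le_sup_left (hA.2 _ h2)
  have h4 : x ∈ A := by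
    rw [h3]
    exact Subgroup.mem_sup_right (Subgroup.mem_zpowers x)
  exact maxEA_le_thompson hA h4

end Cfsg.Agent.S0605
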