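import Cfsg.Statements.S0614
import Cfsg.Agent.Lib.Helper14.Tv9

set_option autoImplicit false
open Cfsg

namespace Cfsg.Agent.S0614

/-- The commutator of the p'-core with a minimal nontrivially-acting best offender is a 3-group (when p = 2) or a non-abelian 2-group (when p = 3). -/
theorem result {G : Type*} [Group G] [Finite G] {p : ℕ} [Fact p.Prime] (V H : Subgroup G) (hV : Cfsg.IsElementaryAbelian p V) (hHV : H ≤ Subgroup.normalizer (V : Set G)) (hf : H ⊓ Subgroup.centralizer (V : Set G) = ⊥) (hS1 : Subgroup.centralizer (Cfsg.pPrimeCore p ↥H : Set ↥H) ≤ Cfsg.pPrimeCore p ↥H) (hS3 : H = ⨆ A : {A : Subgroup G // A ≤ H ∧ Cfsg.IsBestOffenderOn p V A}, (A : Subgroup G)) (hH1 : H ≠ ⊥) (A : Subgroup G) (hAH : A ≤ H) (hA : Cfsg.IsBestOffenderOn p V A) (hAV : ⁅V, A⁆ ≠ ⊥) (hmin : ∀ B : Subgroup G, B ≤ A → Cfsg.IsBestOffenderOn p V B → ⁅V, B⁆ ≠ ⊥ → B = A) : (p = 2 ∧ IsPGroup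 3 ↥(⁅((Cfsg.pPrimeCore p ↥H).map H.subtype), A⁆)) ∨ (p = 3 ∧ IsPGroup 2 ↥(⁅((Cfsg.pPrimeCore p ↥H).map H.subtype), A⁆) ∧ ¬ IsMulCommutative ↥(⁅((Cfsg.pPrimeCore p ↥H).map H.subtype), A⁆)) := by
  have S := Cfsg.Agent.Lib.Helper14.FFSetup.of_hyp V H hV hHV hf hS1
  obtain ⟨a, haA, ha1, hap, hAz, hcard⟩ := S.bo_min_card' hAH hA hAV hmin
  obtain ⟨hp23, -⟩ := Cfsg.Agent.Lib.Helper14.ff_package V H hV hHV hf hS1 hS3 hAH hA hcard
  obtain ⟨hpow, hnc, -⟩ := Cfsg.Agent.Lib.Helper14.ff_package2 V H hV hHV hf hS1 hAH hA hcard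
  rcases hp23 with hp2 | hp3
  · left
    refine ⟨hp2, ?_⟩
    rintro ⟨g, hg⟩
    refine ⟨1, ?_⟩
    apply Subtype.ext
    have := (hpow g hg).1 hp2
    simpa using this
  · right
    refine ⟨hp3, ?_, ?_⟩
    · rintro ⟨g, hg⟩
      refine ⟨3, ?_⟩
      apply Subtype.ext
      have := (hpow g hg).2 hp3
      simpa using this
    · intro hcomm
      obtain ⟨g₁, hg₁, g₂, hg₂, hne⟩ := hnc hp3
      have h := mul_comm' (⟨g₁, hg₁⟩ : ↥(⁅((Cfsg.pPrimeCore p ↥H).map H.subtype), A⁆)) ⟨g₂, hg₂⟩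
      exact hne (congrArg Subtype.val h)


end Cfsg.Agent.S0614
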