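import Cfsg.Statements.S0617
import Cfsg.Agent.Lib.Helper14.FF3

set_option autoImplicit false
open Cfsg

namespace Cfsg.Agent.S0617

/-- Structure Theorem for failure of factorization: a faithful group generated by best offenders, with self-centralizing p'-core, is a direct product of copies of SL(2, p) (p = 2 or 3), each acting on its own plane in V, which is the direct product of these planes and C_V(H). -/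
theorem result {G : Type*} [Group G] [Finite G] {p : ℕ} [Fact p.Prime] (V H : Subgroup G) (hV : Cfsg.IsElementaryAbelian p V) (hHV : H ≤ Subgroup.normalizer (V : Set G)) (hf : H ⊓ Subgroup.centralizer (V : Set G) = ⊥) (hS1 : Subgroup.centralizer (Cfsg.pPrimeCore p ↥H : Set ↥H) ≤ Cfsg.pPrimeCore p ↥H) (hS3 : H = ⨆ A : {A : Subgroup G // A ≤ H ∧ Cfsg.IsBestOffenderOn p V A}, (A : Subgroup G)) (hH1 : H ≠ ⊥) : (p = 2 ∨ p = 3) ∧ (∀ E : {E : Subgroup G // ∃ A : Subgroup G, A ≤ H ∧ Cfsg.IsBestOffenderOn p V A ∧ ⁅V, A⁆ ≠ ⊥ ∧ (∀ B : Subgroup G, B ≤ A → Cfsg.IsBestOffenderOn p V B → ⁅V, B⁆ ≠ ⊥ → B = A) ∧ E = ⁅((Cfsg.pPrimeCore p ↥H).map H.subtype), A⁆ ⊔ A}, H ≤ Subgroup.normalizer ((E : Subgroup G) : Set G) ∧ Nonempty (↥(E : Subgroup G) ≃* Matrix.SpecialLinearGroup (Fin 2) (ZMod p)) ∧ Nat.card ↥(⁅V, (E : Subgroup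 G)⁆) = p ^ 2) ∧ iSupIndep (fun E : {E : Subgroup G // ∃ A : Subgroup G, A ≤ H ∧ Cfsg.IsBestOffenderOn p V A ∧ ⁅V, A⁆ ≠ ⊥ ∧ (∀ B : Subgroup G, B ≤ A → Cfsg.IsBestOffenderOn p V B → ⁅V, B⁆ ≠ ⊥ → B = A) ∧ E = ⁅((Cfsg.pPrimeCore p ↥H).map H.subtype), A⁆ ⊔ A} => (E : Subgroup G)) ∧ (⨆ E : {E : Subgroup G // ∃ A : Subgroup G, A ≤ H ∧ Cfsg.IsBestOffenderOn p V A ∧ ⁅V, A⁆ ≠ ⊥ ∧ (∀ B : Subgroup G, B ≤ A → Cfsg.IsBestOffenderOn p V B → ⁅V, B⁆ ≠ ⊥ → B = A) ∧ E = ⁅((Cfsg.pPrimeCore p ↥H).map H.subtype), A⁆ ⊔ A}, (E : Subgroup G)) = H ∧ iSupIndep (fun o : Option {E : Subgroup G // ∃ A : Subgroup G, A ≤ H ∧ Cfsg.IsBestOffenderOn p V A ∧ ⁅V, A⁆ ≠ ⊥ ∧ (∀ B : Subgroup G, B ≤ A → Cfsg.IsBestOffenderOn p V B → ⁅V, B⁆ ≠ ⊥ → B = A) ∧ E = ⁅((Cfsg.pPrimeCore p ↥H).map H.subtype), A⁆ ⊔ A} => o.elim (V ⊓ Subgroup.centralizer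 (H : Set G)) (fun E => ⁅V, (E : Subgroup G)⁆)) ∧ (V ⊓ Subgroup.centralizer (H : Set G)) ⊔ (⨆ E : {E : Subgroup G // ∃ A : Subgroup G, A ≤ H ∧ Cfsg.IsBestOffenderOn p V A ∧ ⁅V, A⁆ ≠ ⊥ ∧ (∀ B : Subgroup G, B ≤ A → Cfsg.IsBestOffenderOn p V B → ⁅V, B⁆ ≠ ⊥ → B = A) ∧ E = ⁅((Cfsg.pPrimeCore p ↥H).map H.subtype), A⁆ ⊔ A}, ⁅V, (E : Subgroup G)⁆) = V := by
  exact Cfsg.Agent.Lib.Helper14.ff_structure V H hV hHV hf hS1 hS3 hH1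


end Cfsg.Agent.S0617
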