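import Cfsg.Statements.S0619
import Cfsg.Agent.Lib.Helper14.Holo
import Cfsg.Agent.S0606

set_option autoImplicit false
open Cfsg

namespace Cfsg.Agent.S0619

open Cfsg.Agent.Lib.Helper14

/-- the elements of order `p` of `Z(J(C_G(V)))` lie in `(A ∩ C_G(V)) V` for every elementary
abelian `A` of maximal order. -/
theorem mem_sup_of_mem_center {G : Type*} [Group G] [Finite G] {p : ℕ} [Fact p.Prime]
    (hsep : Cfsg.IsPSolvable p G) (V : Subgroup G) [V.Normal]
    (hV : Cfsg.IsElementaryAbelian p V)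
    (hO : Cfsg.pCore p (G ⧸ Subgroup.centralizer (V : Set G)) = ⊥)
    (A : Subgroup G) (hA : A ∈ Cfsg.maxElementaryAbelianSubgroups p G) (w : G)
    (hw : w ∈ Cfsg.centerThompsonOf p (Subgroup.centralizer (V : Set G))) (hwp : w ^ p = 1) :
    w ∈ (A ⊓ Subgroup.centralizer (V : Set G)) ⊔ V := by
  set C := Subgroup.centralizer (V : Set G) with hC
  have hVc := ea_comm hV
  have hVC : V ≤ C := by
    intro v hv
    rw [hC, Subgroup.mem_centralizer_iff]
    intro u hu
    exact hVc u hu v hv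
  have hAbo := Cfsg.Agent.S0606.result V hV A hA
  have heq := holo_ff_eq V hsep hV hO A hAbo
  set B : Subgroup G := (A ⊓ C) ⊔ V with hB
  have hACea : Cfsg.IsElementaryAbelian p (A ⊓ C) := ea_of_le hA.1 inf_le_left
  have hBea : Cfsg.IsElementaryAbelian p B := by
    apply ea_sup hACea hV
    intro a ha v hv
    exact (Subgroup.mem_centralizer_iff.mp (Subgroup.mem_inf.mp ha).2 v hv).symm
  -- `A ∩ V = C_V(A)`
  have hcv : V ⊓ Subgroup.centralizer (A : Set G) ≤ A := by
    have hDea : Cfsg.IsElementaryAbelian p (A ⊔ (V ⊓ Subgroup.centralizer (A : Set G))) := by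
      apply ea_sup hA.1 (ea_of_le hV inf_le_left)
      intro a ha v hv
      exact Subgroup.mem_centralizer_iff.mp (Subgroup.mem_inf.mp hv).2 a ha
    have h1 : A = A ⊔ (V ⊓ Subgroup.centralizer (A : Set G)) :=
      subgroup_eq_of_le_of_card_le le_sup_left (hA.2 _ hDea)
    exact le_sup_right.trans h1.ge
  have hinf : (A ⊓ C) ⊓ V = V ⊓ Subgroup.centralizer (A : Set G) := by
    apply le_antisymm
    · refine le_inf inf_le_right ?_
      intro x hx
      rw [Subgroup.mem_centralizer_iff]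
      intro a ha
      exact ea_comm hA.1 a ha x (Subgroup.mem_inf.mp (Subgroup.mem_inf.mp hx).1).1
    · exact le_inf (le_inf hcv (inf_le_left.trans hVC)) inf_le_left
  have hcardB : Nat.card B = Nat.card A := by
    have h1 := card_sup_mul_card_inf (H := A ⊓ C) (K := V)
      (fun x _ => (Subgroup.normalizer_eq_top_iff.mpr (inferInstance : V.Normal)) ▸ Subgroup.mem_top x)
    rw [hinf] at h1
    have hpos : 0 < Nat.card ↥(V ⊓ Subgroup.centralizer (A : Set G)) := Nat.card_pos
    apply Nat.eq_of_mul_eq_mul_right hpos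
    rw [h1, heq, mul_comm]
  have hBmax : B ∈ Cfsg.maxElementaryAbelianSubgroups p G :=
    ⟨hBea, fun B' hB' => hcardB ▸ hA.2 B' hB'⟩
  have hBC : B ≤ C := sup_le inf_le_right hVC
  have hBJ : B ≤ Cfsg.thompsonSubgroupOf p C := maxEA_le_thompsonOf hBmax hBC
  have hwc : w ∈ Subgroup.centralizer (Cfsg.thompsonSubgroupOf p C : Set G) :=
    (Subgroup.mem_inf.mp hw).2
  set B' : Subgroup G := B ⊔ Subgroup.zpowers w with hB'
  have hB'ea : Cfsg.IsElementaryAbelian p B' := by
    apply ea_sup hBea (ea_zpowers hwp)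
    intro b hb z hz
    obtain ⟨i, rfl⟩ := Subgroup.mem_zpowers_iff.mp hz
    have hc : Commute w b := (Subgroup.mem_centralizer_iff.mp hwc b (hBJ hb)).symm
    exact ((hc.zpow_left i).eq).symm
  have h2 : B = B' := subgroup_eq_of_le_of_card_le le_sup_left (hBmax.2 B' hB'ea)
  exact h2.ge (Subgroup.mem_sup_right (Subgroup.mem_zpowers w))

/-- In a p-separable group with a normal elementary abelian p-subgroup V on which no normal p-subgroup of G/C_G(V) acts, the commutator of Ω₁(Z(J(C_G(V)))) with J(G) lies in V. -/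
theorem result {G : Type*} [Group G] [Finite G] {p : ℕ} [Fact p.Prime] (hsep : Cfsg.IsPSolvable p G) (V : Subgroup G) [V.Normal] (hV : Cfsg.IsElementaryAbelian p V) (hO : Cfsg.pCore p (G ⧸ Subgroup.centralizer (V : Set G)) = ⊥) : ⁅Cfsg.omegaOne p (Cfsg.centerThompsonOf p (Subgroup.centralizer (V : Set G))), Cfsg.thompsonSubgroup p G⁆ ≤ V := by
  have key : ∀ w, w ∈ Cfsg.centerThompsonOf p (Subgroup.centralizer (V : Set G)) → w ^ p = 1 →
      ∀ A ∈ Cfsg.maxElementaryAbelianSubgroups p G, ∀ a ∈ A, w * a * w⁻¹ * a⁻¹ ∈ V := by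
    intro w hw hwp A hA a ha
    have h1 := mem_sup_of_mem_center hsep V hV hO A hA w hw hwp
    obtain ⟨c, hc, v, hv, rfl⟩ := (Subgroup.mem_sup_of_normal_right).mp h1
    have hca : c * a = a * c := ea_comm hA.1 c (Subgroup.mem_inf.mp hc).1 a ha
    have h2 : c * v * a * (c * v)⁻¹ * a⁻¹ = c * (v * (a * v⁻¹ * a⁻¹)) * c⁻¹ := by
      have h3 : a * c⁻¹ * a⁻¹ = c⁻¹ := by
        calc a * c⁻¹ * a⁻¹ = c⁻¹ * (c * a) * c⁻¹ * a⁻¹ := by group
          _ = c⁻¹ * (a * c) * c⁻¹ * a⁻¹ := by rw [hca]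
          _ = c⁻¹ := by group
      calc c * v * a * (c * v)⁻¹ * a⁻¹ = c * (v * (a * v⁻¹ * a⁻¹)) * (a * c⁻¹ * a⁻¹) := by group
        _ = c * (v * (a * v⁻¹ * a⁻¹)) * c⁻¹ := by rw [h3]
    rw [h2]
    have hVn : V.Normal := inferInstance
    exact hVn.conj_mem _ (V.mul_mem hv (hVn.conj_mem _ (V.inv_mem hv) a)) c
  set π := QuotientGroup.mk' V with hπ
  have h1 : (Cfsg.omegaOne p (Cfsg.centerThompsonOf p (Subgroup.centralizer (V : Set G)))).map π ≤
      Subgroup.centralizer (((Cfsg.thompsonSubgroup p G).map π : Subgroup (G ⧸ V)) : Set (G ⧸ V)) := by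
    unfold Cfsg.omegaOne
    rw [MonoidHom.map_closure, Subgroup.closure_le]
    rintro _ ⟨w, ⟨hw, hwp⟩, rfl⟩
    rw [SetLike.mem_coe, ← Subgroup.zpowers_le, Subgroup.le_centralizer_iff,
      Subgroup.map_le_iff_le_comap]
    unfold Cfsg.thompsonSubgroup
    apply sSup_le
    intro A hA a ha
    rw [Subgroup.mem_comap, Subgroup.mem_centralizer_iff]
    intro z hz
    obtain ⟨i, rfl⟩ := Subgroup.mem_zpowers_iff.mp hz
    have h3 : π w * π a = π a * π w := by
      have h4 := key w hw hwp A hA a ha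
      have h5 : π (w * a * w⁻¹ * a⁻¹) = 1 := (QuotientGroup.eq_one_iff _).mpr h4
      rw [map_mul, map_mul, map_mul, map_inv, map_inv] at h5
      calc π w * π a = (π w * π a * (π w)⁻¹ * (π a)⁻¹) * (π a * π w) := by group
        _ = π a * π w := by rw [h5, one_mul]
    have hc : Commute (π w) (π a) := h3
    exact (hc.zpow_left i).eq
  intro z hz
  rw [← QuotientGroup.eq_one_iff]
  have h2 : π z ∈ (⁅Cfsg.omegaOne p (Cfsg.centerThompsonOf p (Subgroup.centralizer (V : Set G))),
      Cfsg.thompsonSubgroup p G⁆).map π := ⟨z, hz, rfl⟩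
  rw [Subgroup.map_commutator, Subgroup.commutator_eq_bot_iff_le_centralizer.mpr h1,
    Subgroup.mem_bot] at h2
  exact h2

end Cfsg.Agent.S0619
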