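import Cfsg.Statements.S0620
import Cfsg.Agent.Lib.Helper42.Sec35

set_option autoImplicit false
open Cfsg

namespace Cfsg.Agent.S0620

/-- Under coprime action of an elementary abelian q-group X on a p-separable group K with trivial p'-core, K is generated by the normalizer of J(S), the centralizer of Ω₁(Z(S)) and the fixed points of X. -/
theorem result {G : Type*} [Group G] [Finite G] {p : ℕ} [Fact p.Prime] {q : ℕ} [Fact q.Prime] (K X : Subgroup G) (hXK : X ≤ Subgroup.normalizer (K : Set G)) (hX : Cfsg.IsElementaryAbelian q X) (hq : ¬ q ∣ Nat.card K) (hsep : Cfsg.IsPSolvable p ↥K) (hO : Cfsg.pPrimeCore p ↥K = ⊥) (S : Sylow p ↥K) : (Subgroup.normalizer (Cfsg.thompsonSubgroupOf p (S : Subgroup ↥K) : Set ↥K) ⊔ Subgroup.centralizer (Cfsg.omegaOne p ((S : Subgroup ↥K) ⊓ Subgroup.centralizer ((S : Subgroup ↥K) : Set ↥K)) : Set ↥K) ⊔ (Subgroup.centralizer (X : Set G)).subgroupOf K) = ⊤ := by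
  by_cases hTF : Cfsg.IsThompsonFactorizable p ↥K
  · rw [eq_top_iff]
    intro g _
    obtain ⟨x, hx, c, hc, n, hn, rfl⟩ := hTF S g
    rw [hO, Subgroup.mem_bot] at hx
    subst hx
    rw [one_mul]
    exact Subgroup.mul_mem _ (Subgroup.mem_sup_left (Subgroup.mem_sup_right hc))
      (Subgroup.mem_sup_left (Subgroup.mem_sup_left hn))
  · have hXq : IsPGroup q X := Cfsg.Agent.Lib.Helper14.ea_isPGroup hX
    have hQq : IsPGroup q ((X.subgroupOf (Subgroup.normalizer (K : Set G))).map
        K.normalizerMonoidHom) :=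
      (hXq.comap_of_injective (Subgroup.normalizer (K : Set G)).subtype
        (Subgroup.subtype_injective _)).map _
    refine Cfsg.Agent.Lib.Helper42.thompson_operator hsep hO hTF
      ((X.subgroupOf (Subgroup.normalizer (K : Set G))).map K.normalizerMonoidHom) hQq hq S _ ?_
    intro k hk
    rw [Subgroup.mem_subgroupOf, Subgroup.mem_centralizer_iff]
    intro x hx
    have h1 := hk (K.normalizerMonoidHom ⟨x, hXK hx⟩)
      ⟨⟨x, hXK hx⟩, Subgroup.mem_subgroupOf.mpr hx, rfl⟩
    have h2 : x * (k : G) * x⁻¹ = k := congrArg Subtype.val h1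
    calc x * (k : G) = (x * k * x⁻¹) * x := by group
      _ = k * x := by rw [h2]

end Cfsg.Agent.S0620
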