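import Cfsg.Statements.S0621
import Cfsg.Agent.Lib.Helper42.Sec38

set_option autoImplicit false
open Cfsg

namespace Cfsg.Agent.S0621

/-- Let K be p-separable with O_p'(K) = 1, normalized by an elementary abelian q-group X for a prime q not dividing the order of K. If the Thompson factorization fails in K, then p is 2 or 3 and the fixed points of X contain a plane W of order p² and a subgroup inducing SL(2, p) on it. -/
theorem result {G : Type*} [Group G] [Finite G] {p : ℕ} [Fact p.Prime] {q : ℕ} [Fact q.Prime] (K X : Subgroup G) (hXK : X ≤ Subgroup.normalizer (K : Set G)) (hX : Cfsg.IsElementaryAbelian q X) (hq : ¬ q ∣ Nat.card K) (hsep : Cfsg.IsPSolvable p ↥K) (hO : Cfsg.pPrimeCore p ↥K = ⊥) (hnf : ¬ Cfsg.IsThompsonFactorizable p ↥K) : (p = 2 ∨ p = 3) ∧ ∃ W D : Subgroup G, W ≤ K ⊓ Subgroup.centralizer (X : Set G) ∧ D ≤ K ⊓ Subgroup.centralizer (X : Set G) ∧ Cfsg.IsElementaryAbelian p W ∧ Nat.card W = p ^ 2 ∧ D ≤ Subgroup.normalizer (W : Set G) ∧ ∃ hn : ((Subgroup.centralizer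 (W : Set G)).subgroupOf D).Normal, Nonempty ((↥D ⧸ (Subgroup.centralizer (W : Set G)).subgroupOf D) ≃* Matrix.SpecialLinearGroup (Fin 2) (ZMod p)) := by
  have hXq : IsPGroup q X := Cfsg.Agent.Lib.Helper14.ea_isPGroup hX
  have hQq : IsPGroup q ((X.subgroupOf (Subgroup.normalizer (K : Set G))).map
      K.normalizerMonoidHom) :=
    (hXq.comap_of_injective (Subgroup.normalizer (K : Set G)).subtype
      (Subgroup.subtype_injective _)).map _
  obtain ⟨hp23, W, D, hWfix, hDfix, hWea, hWcard, hDW, ψ, hψs, hψk⟩ :=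
    Cfsg.Agent.Lib.Helper42.thompson_operator_sl2 hsep hO hnf _ hQq hq
  have hfix : ∀ k : ↥K, (∀ φ ∈ ((X.subgroupOf (Subgroup.normalizer (K : Set G))).map
      K.normalizerMonoidHom), φ k = k) → (k : G) ∈ Subgroup.centralizer (X : Set G) := by
    intro k hk
    rw [Subgroup.mem_centralizer_iff]
    intro x hx
    have h1 := hk (K.normalizerMonoidHom ⟨x, hXK hx⟩)
      ⟨⟨x, hXK hx⟩, Subgroup.mem_subgroupOf.mpr hx, rfl⟩
    have h2 : x * (k : G) * x⁻¹ = k := congrArg Subtype.val h1
    calc x * (k : G) = (x * k * x⁻¹) * x := by group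
      _ = k * x := by rw [h2]
  refine ⟨hp23, W.map K.subtype, D.map K.subtype, ?_, ?_, ?_, ?_, ?_, ?_⟩
  · rintro _ ⟨w, hw, rfl⟩
    exact ⟨w.2, hfix w (hWfix w hw)⟩
  · rintro _ ⟨d, hd, rfl⟩
    exact ⟨d.2, hfix d (hDfix d hd)⟩
  · exact Cfsg.Agent.Lib.Helper14.ea_map K.subtype hWea
  · rw [Subgroup.card_map_of_injective K.subtype_injective]
    exact hWcard
  · apply Cfsg.Agent.Lib.Helper14.le_normalizer_of_conj_mem
    rintro _ ⟨d, hd, rfl⟩ _ ⟨w, hw, rfl⟩
    refine ⟨d * w * d⁻¹, (Subgroup.mem_normalizer_iff.mp (hDW hd) w).mp hw, ?_⟩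
    simp
  · let e₁ : ↥D ≃* ↥(D.map K.subtype) := D.equivMapOfInjective K.subtype K.subtype_injective
    let Ψ : ↥(D.map K.subtype) →* Matrix.SpecialLinearGroup (Fin 2) (ZMod p) :=
      ψ.comp e₁.symm.toMonoidHom
    have hΨs : Function.Surjective Ψ := hψs.comp e₁.symm.surjective
    have hcoe : ∀ y : ↥(D.map K.subtype), (((e₁.symm y : ↥D) : ↥K) : G) = (y : G) := by
      intro y
      have h1 := congrArg (fun z : ↥(D.map K.subtype) => (z : G)) (e₁.apply_symm_apply y)
      exact h1
    have hker : (Subgroup.centralizer ((W.map K.subtype : Subgroup G) : Set G)).subgroupOf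
        (D.map K.subtype) = Ψ.ker := by
      ext y
      rw [Subgroup.mem_subgroupOf, MonoidHom.mem_ker]
      show _ ↔ ψ (e₁.symm y) = 1
      rw [hψk (e₁.symm y), Subgroup.mem_centralizer_iff, Subgroup.mem_centralizer_iff]
      constructor
      · intro h w hw
        apply Subtype.ext
        have h1 := h (w : G) ⟨w, hw, rfl⟩
        rw [← hcoe y] at h1
        exact h1
      · rintro h _ ⟨w, hw, rfl⟩
        have h1 := congrArg Subtype.val (h w hw)
        rw [← hcoe y]
        exact h1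
    have hn : ((Subgroup.centralizer ((W.map K.subtype : Subgroup G) : Set G)).subgroupOf
        (D.map K.subtype)).Normal := by
      rw [hker]; infer_instance
    exact ⟨hn, ⟨(QuotientGroup.quotientMulEquivOfEq hker).trans
      (QuotientGroup.quotientKerEquivOfSurjective Ψ hΨs)⟩⟩

end Cfsg.Agent.S0621
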