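import Cfsg.Statements.S0623
import Cfsg.Agent.Lib.Helper14.PStable

set_option autoImplicit false
open Cfsg

namespace Cfsg.Agent.S0623

open Cfsg.Agent.Lib.Helper14

universe u

/-- elements acting quadratically on `W(S)` centralize it: the version with a centralizer. -/
theorem stable_le_centralizer_quadratic {S : Type u} [Group S] [Finite S] {p : ℕ} [Fact p.Prime] :
    stableNormalClosure p S ≤ Subgroup.centralizer
      {y : S | ⁅⁅stableNormalClosure p S, Subgroup.zpowers y⁆, Subgroup.zpowers y⁆ = ⊥} := by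
  set Ws := stableNormalClosure p S with hWs
  set Q : Set S := {y : S | ⁅⁅Ws, Subgroup.zpowers y⁆, Subgroup.zpowers y⁆ = ⊥} with hQ
  have hmem : Ws ⊓ Subgroup.centralizer Q ∈ stableFamily p S := by
    refine ⟨le_inf omegaOne_center_le_stable
      ((omegaOne_le _).trans (Subgroup.center_le_centralizer Q)), ?_⟩
    intro H _ τ hτ
    have hWn : (Ws.map τ).Normal := stable_map_normal τ hτ
    obtain ⟨hinj, hfin, ⟨P, hP⟩, _, _, hV⟩ := hτ
    have := hfin
    set V := Subgroup.normalClosure (((Ws ⊓ Subgroup.centralizer Q).map τ : Subgroup H) : Set H) with hVdef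
    have hVn : V.Normal := Subgroup.normalClosure_normal
    have hVW : V ≤ Ws.map τ :=
      Subgroup.normalClosure_le_normal (fun y hy => Subgroup.map_mono inf_le_left hy)
    have hst : IsPStableOn p V :=
      hV V (hVW.trans (Subgroup.map_mono stable_le_omegaCenterThompson))
    have hquad : ∀ y : S, y ∈ Q →
        ⁅⁅Ws.map τ, Subgroup.zpowers (τ y)⁆, Subgroup.zpowers (τ y)⁆ = ⊥ := by
      intro y hy
      have h1 : ⁅⁅Ws, Subgroup.zpowers y⁆, Subgroup.zpowers y⁆ = ⊥ := hy
      have h2 := congrArg (Subgroup.map τ) h1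
      rw [Subgroup.map_commutator, Subgroup.map_commutator, MonoidHom.map_zpowers,
        Subgroup.map_bot] at h2
      exact h2
    constructor
    rintro _ ⟨w, hw, rfl⟩ h
    have hwW : w ∈ Ws := (Subgroup.mem_inf.mp hw).1
    have hwQ : w ∈ Subgroup.centralizer Q := (Subgroup.mem_inf.mp hw).2
    obtain ⟨c, hc, n, rfl, hn⟩ := frattini_reduction P V hst h
    have hv1 : n * τ w * n⁻¹ ∈ Ws.map τ := hWn.conj_mem _ (Subgroup.mem_map_of_mem τ hwW) n
    have hv2 : n * τ w * n⁻¹ ∈ V :=
      hVn.conj_mem _ (Subgroup.subset_normalClosure (Subgroup.mem_map_of_mem τ hw)) n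
    obtain ⟨w', hw', hw'eq⟩ := hv1
    have hcv : (n * τ w * n⁻¹) * c = c * (n * τ w * n⁻¹) :=
      Subgroup.mem_centralizer_iff.mp hc _ hv2
    have heq : c * n * τ w * (c * n)⁻¹ = τ w' := by
      rw [hw'eq]
      calc c * n * τ w * (c * n)⁻¹ = c * (n * τ w * n⁻¹) * c⁻¹ := by group
        _ = (n * τ w * n⁻¹) * c * c⁻¹ := by rw [hcv]
        _ = n * τ w * n⁻¹ := by group
    rw [heq]
    refine Subgroup.mem_map_of_mem τ (Subgroup.mem_inf.mpr ⟨hw', ?_⟩)
    rw [Subgroup.mem_centralizer_iff]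
    intro y hy
    apply hinj
    rw [map_mul, map_mul, hw'eq]
    have hyP : τ y ∈ P := by
      show τ y ∈ (P : Subgroup H)
      rw [hP]; exact ⟨y, rfl⟩
    have hyV : ⁅⁅V, Subgroup.zpowers (τ y)⁆, Subgroup.zpowers (τ y)⁆ = ⊥ := by
      rw [eq_bot_iff, ← hquad y hy]
      exact Subgroup.commutator_mono (Subgroup.commutator_mono hVW le_rfl) le_rfl
    have h3 : n⁻¹ * τ y * n ∈ (P : Subgroup H) := hn (τ y) hyP hyV
    rw [hP] at h3
    obtain ⟨y', hy'⟩ := h3
    have hy'Q : y' ∈ Q := by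
      show ⁅⁅Ws, Subgroup.zpowers y'⁆, Subgroup.zpowers y'⁆ = ⊥
      have h4 := quadratic_conj (Ws.map τ) (hquad y hy) n⁻¹
      rw [inv_inv, ← hy', ← MonoidHom.map_zpowers, ← Subgroup.map_commutator,
        ← Subgroup.map_commutator] at h4
      exact (Subgroup.map_eq_bot_iff_of_injective _ hinj).mp h4
    have h5 : y' * w = w * y' := Subgroup.mem_centralizer_iff.mp hwQ y' hy'Q
    have h6 : τ y' * τ w = τ w * τ y' := by rw [← map_mul, ← map_mul, h5]
    rw [hy'] at h6
    calc τ y * (n * τ w * n⁻¹) = n * ((n⁻¹ * τ y * n) * τ w) * n⁻¹ := by group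
      _ = n * (τ w * (n⁻¹ * τ y * n)) * n⁻¹ := by rw [h6]
      _ = (n * τ w * n⁻¹) * τ y := by group
  exact (stable_le_of_mem hmem).trans inf_le_right

/-- No element of a finite p-group acts quadratically and nontrivially on the stable normal closure W(S). -/
theorem result {S : Type*} [Group S] [Finite S] {p : ℕ} [Fact p.Prime] (hS : IsPGroup p S) (x : S) (hq : ⁅⁅Cfsg.stableNormalClosure p S, Subgroup.zpowers x⁆, Subgroup.zpowers x⁆ = ⊥) : ⁅Cfsg.stableNormalClosure p S, Subgroup.zpowers x⁆ = ⊥ := by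
  rw [Subgroup.commutator_eq_bot_iff_le_centralizer]
  intro w hw
  have h1 := stable_le_centralizer_quadratic (S := S) (p := p) hw
  have h2 : x * w = w * x := Subgroup.mem_centralizer_iff.mp h1 x hq
  exact commute_zpowers_of_commute h2

end Cfsg.Agent.S0623
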