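import Cfsg.Statements.S0624
import Cfsg.Agent.Lib.Helper14.Coprime
import Cfsg.Agent.S0602
import Cfsg.Agent.S0607
import Cfsg.Agent.S0623

set_option autoImplicit false
open Cfsg
open scoped commutatorElement

namespace Cfsg.Agent.S0624

open Cfsg.Agent.Lib.Helper14

universe u

section aux
variable {G : Type u} [Group G]

/-- a normal subgroup of `U`, pushed to `G`, is normalized by `U`. -/
theorem le_normalizer_map_subtype (U : Subgroup G) (K : Subgroup ↥U) [hK : K.Normal] :
    U ≤ Subgroup.normalizer ((K.map U.subtype : Subgroup G) : Set G) := by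
  apply le_normalizer_of_conj_mem
  rintro u hu _ ⟨k, hk, rfl⟩
  exact ⟨⟨u, hu⟩ * k * ⟨u, hu⟩⁻¹, hK.conj_mem k hk ⟨u, hu⟩, rfl⟩

theorem map_inclusion_map_subtype {U N : Subgroup G} (h : U ≤ N) (K : Subgroup ↥U) :
    (K.map (Subgroup.inclusion h)).map N.subtype = K.map U.subtype := by
  rw [Subgroup.map_map]
  rfl

variable [Finite G] {p : ℕ} [Fact p.Prime]

theorem thompson_normal (U : Subgroup G) : (thompsonSubgroup p ↥U).Normal := by
  have := (Cfsg.Agent.S0602.result (G := ↥U) (p := p)).1
  infer_instance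

/-- the inclusion of a Sylow subgroup into `N_G(J(S))` is a stable embedding. -/
theorem inclusion_stable (hst : IsActionPStable p G)
    (hc : Subgroup.centralizer (pCore p G : Set G) ≤ pCore p G) (S : Sylow p G)
    (hSN : (S : Subgroup G) ≤ Subgroup.normalizer (thompsonSubgroupOf p (S : Subgroup G) : Set G)) :
    IsStableEmbedding p (Subgroup.inclusion hSN) := by
  set J := thompsonSubgroupOf p (S : Subgroup G) with hJ
  set N := Subgroup.normalizer (J : Set G) with hN
  refine ⟨Subgroup.inclusion_injective hSN, inferInstance, ⟨S.subtype hSN, ?_⟩, ?_, ?_, ?_⟩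
  · rw [Sylow.coe_subtype, Subgroup.inclusion_range]
  · -- C_N(O_p(N)) ≤ O_p(N)
    have hQS : pCore p G ≤ S := pCore_le_sylow S
    have hQN : pCore p G ≤ N := hQS.trans hSN
    have h1 : (pCore p G).subgroupOf N ≤ pCore p ↥N := by
      apply le_pCore
      · infer_instance
      · exact pCore_isPGroup.comap_of_injective N.subtype N.subtype_injective
    intro x hx
    apply h1
    rw [Subgroup.mem_subgroupOf]
    apply hc
    rw [Subgroup.mem_centralizer_iff]
    intro q hq
    have hq' : (⟨q, hQN hq⟩ : ↥N) ∈ pCore p ↥N := h1 (by rw [Subgroup.mem_subgroupOf]; exact hq)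
    have := Subgroup.mem_centralizer_iff.mp hx _ hq'
    exact congrArg Subtype.val this
  · -- J normal in N
    have h2 : (thompsonSubgroup p ↥(S : Subgroup G)).map (Subgroup.inclusion hSN) = J.subgroupOf N := by
      apply Subgroup.map_injective N.subtype_injective
      rw [map_inclusion_map_subtype, Subgroup.map_subgroupOf_eq_of_le (le_refl _ |>.trans Subgroup.le_normalizer)]
      rfl
    rw [h2]
    exact Subgroup.normal_in_normalizer
  · intro V _ hV
    apply hst.2.2 S V
    calc V.map N.subtype ≤ ((omegaCenterThompson p ↥(S : Subgroup G)).map (Subgroup.inclusion hSN)).map N.subtype :=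
          Subgroup.map_mono hV
      _ = (omegaCenterThompson p ↥(S : Subgroup G)).map (S : Subgroup G).subtype :=
          map_inclusion_map_subtype hSN _


omit [Finite G] [Fact p.Prime] in
/-- if `A` normalizes the abelian subgroup `B` then every element of `B` acts quadratically
on `A`. -/
theorem quadratic_of_abelian_normalized {A B : Subgroup G}
    (hB : ∀ x ∈ B, ∀ y ∈ B, x * y = y * x) (hAB : A ≤ Subgroup.normalizer (B : Set G)) {x : G}
    (hx : x ∈ B) : ⁅⁅A, Subgroup.zpowers x⁆, Subgroup.zpowers x⁆ = ⊥ := by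
  have hz : Subgroup.zpowers x ≤ B := (Subgroup.zpowers_le).mpr hx
  have h1 : ⁅A, Subgroup.zpowers x⁆ ≤ B := by
    rw [Subgroup.commutator_le]
    intro a ha y hy
    have h2 : a * y * a⁻¹ ∈ B := conj_mem_of_normalizer (hz hy) (hAB ha)
    rw [commutatorElement_def]
    exact B.mul_mem h2 (B.inv_mem (hz hy))
  rw [eq_bot_iff]
  refine (Subgroup.commutator_mono h1 hz).trans ?_
  rw [le_bot_iff, Subgroup.commutator_eq_bot_iff_le_centralizer]
  intro b hb
  rw [Subgroup.mem_centralizer_iff]
  intro y hy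
  exact hB y hy b hb

/-- an element of `S` acting quadratically on `W(S)` centralizes it (inside `G`). -/
theorem centralizes_of_quadratic (S : Sylow p G) {x : G} (hxS : x ∈ S)
    (hq : ⁅⁅(stableNormalClosure p ↥(S : Subgroup G)).map (S : Subgroup G).subtype,
      Subgroup.zpowers x⁆, Subgroup.zpowers x⁆ = ⊥) :
    x ∈ Subgroup.centralizer
      (((stableNormalClosure p ↥(S : Subgroup G)).map (S : Subgroup G).subtype : Subgroup G) : Set G) := by
  set Ws := stableNormalClosure p ↥(S : Subgroup G) with hWs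
  have hinj : Function.Injective (S : Subgroup G).subtype := Subgroup.subtype_injective _
  have hx' : x = (S : Subgroup G).subtype ⟨x, hxS⟩ := rfl
  have hq' : ⁅⁅Ws, Subgroup.zpowers (⟨x, hxS⟩ : ↥(S : Subgroup G))⁆,
      Subgroup.zpowers (⟨x, hxS⟩ : ↥(S : Subgroup G))⁆ = ⊥ := by
    rw [hx', ← MonoidHom.map_zpowers, ← Subgroup.map_commutator, ← Subgroup.map_commutator] at hq
    exact (Subgroup.map_eq_bot_iff_of_injective _ hinj).mp hq
  have h1 := Cfsg.Agent.S0623.result (S := ↥(S : Subgroup G)) (p := p) S.isPGroup' ⟨x, hxS⟩ hq'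
  rw [Subgroup.commutator_eq_bot_iff_le_centralizer] at h1
  rw [Subgroup.mem_centralizer_iff]
  rintro _ ⟨w, hw, rfl⟩
  have h2 := Subgroup.mem_centralizer_iff.mp (h1 hw) ⟨x, hxS⟩ (Subgroup.mem_zpowers _)
  have h3 := congrArg Subtype.val h2
  exact h3.symm

end aux

/-- The analogue of the ZJ-Theorem: in an action-p-stable group whose largest normal p-subgroup contains its centralizer, the characteristic subgroup W(S) of a Sylow p-subgroup S is normal. -/
theorem result {G : Type*} [Group G] [Finite G] {p : ℕ} [Fact p.Prime] (hst : Cfsg.IsActionPStable p G) (hc : Subgroup.centralizer (Cfsg.pCore p G : Set G) ≤ Cfsg.pCore p G) (S : Sylow p G) : (((Cfsg.stableNormalClosure p ↥(S : Subgroup G)).map (S : Subgroup G).subtype)).Normal := by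
  set Ws := stableNormalClosure p ↥(S : Subgroup G) with hWs
  set W := Ws.map (S : Subgroup G).subtype with hW
  set Q := pCore p G with hQ
  set J := thompsonSubgroupOf p (S : Subgroup G) with hJ
  have hSN : (S : Subgroup G) ≤ Subgroup.normalizer (J : Set G) := by
    have := thompson_normal (p := p) (S : Subgroup G)
    exact le_normalizer_map_subtype _ _
  have hemb := inclusion_stable hst hc S hSN
  have hWNn : (Ws.map (Subgroup.inclusion hSN)).Normal := stable_map_normal _ hemb
  -- `N` normalizes `W`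
  have hNW : Subgroup.normalizer (J : Set G) ≤ Subgroup.normalizer (W : Set G) := by
    apply le_normalizer_of_conj_mem
    rintro n hn _ ⟨w, hw, rfl⟩
    have h1 := hWNn.conj_mem _ (Subgroup.mem_map_of_mem (Subgroup.inclusion hSN) hw) ⟨n, hn⟩
    obtain ⟨w', hw', hw'eq⟩ := h1
    refine ⟨w', hw', ?_⟩
    have := congrArg Subtype.val hw'eq
    simpa using this
  have hWS : W ≤ S := Subgroup.map_subtype_le _
  have hWea : IsElementaryAbelian p W := by
    apply ea_map
    refine ea_of_le ?_ (stable_le_omegaCenterThompson (S := ↥(S : Subgroup G)) (p := p))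
    unfold omegaCenterThompson
    apply ea_omegaOne_of_comm
    intro x hx y hy
    exact (Subgroup.mem_centralizer_iff.mp (Subgroup.mem_inf.mp hy).2 x (Subgroup.mem_inf.mp hx).1)
  have hWc := ea_comm hWea
  have hQS : Q ≤ S := pCore_le_sylow S
  have hQn : Q.Normal := inferInstance
  -- `W ≤ Q`
  have hWQ : W ≤ Q := by
    intro a ha
    have hquad : ⁅⁅Q, Subgroup.zpowers a⁆, Subgroup.zpowers a⁆ ≤ (frattini ↥Q).map Q.subtype := by
      rw [quadratic_of_abelian_normalized hWc ((hQS.trans hSN).trans hNW) ha]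
      exact bot_le
    obtain ⟨D, hDn, hCD, ⟨k, hk⟩, haD⟩ := hst.2.1 a hquad
    have hDp : IsPGroup p D := by
      have h3 := sectionKernel_isPGroup hc
      obtain ⟨m, hm⟩ := IsPGroup.iff_card.mp h3
      apply IsPGroup.of_card (n := m + k)
      rw [← card_mul_relIndex hCD, hm, hk, pow_add]
    exact le_pCore hDn hDp haD
  -- the normal closure `V` of `W`
  set V := Subgroup.normalClosure (W : Set G) with hV
  have hVn : V.Normal := Subgroup.normalClosure_normal
  have hWV : W ≤ V := Subgroup.subset_normalClosure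
  have hVQ : V ≤ Q := Subgroup.normalClosure_le_normal hWQ
  have hVgen : ∀ K : Subgroup G, (∀ w ∈ W, ∀ g : G, g * w * g⁻¹ ∈ K) → V ≤ K := by
    intro K hK
    show Subgroup.closure (Group.conjugatesOfSet (W : Set G)) ≤ K
    rw [Subgroup.closure_le]
    intro z hz
    obtain ⟨w, hw, hconj⟩ := Group.mem_conjugatesOfSet_iff.mp hz
    obtain ⟨g, rfl⟩ := isConj_iff.mp hconj
    exact hK w hw g
  -- `V` centralizes `W`
  have hVW : V ≤ Subgroup.centralizer (W : Set G) := by
    apply hVgen
    intro w hw g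
    have hxV : g * w * g⁻¹ ∈ V := hVn.conj_mem w (hWV hw) g
    apply centralizes_of_quadratic S (hQS (hVQ hxV))
    set B := W.map (MulAut.conj g).toMonoidHom with hB
    have hBc : ∀ x ∈ B, ∀ y ∈ B, x * y = y * x := by
      rintro _ ⟨x, hx, rfl⟩ _ ⟨y, hy, rfl⟩
      rw [← map_mul, ← map_mul, hWc x hx y hy]
    have hQB : Q ≤ Subgroup.normalizer (B : Set G) := by
      apply le_normalizer_of_conj_mem
      rintro q hq _ ⟨x, hx, rfl⟩
      have hq' : g⁻¹ * q * g ∈ Q := by
        have := hQn.conj_mem q hq g⁻¹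
        rwa [inv_inv] at this
      have h5 : (g⁻¹ * q * g) * x * (g⁻¹ * q * g)⁻¹ ∈ W :=
        conj_mem_of_normalizer hx (hNW (hSN (hQS hq')))
      refine ⟨_, h5, ?_⟩
      simp only [MulEquiv.coe_toMonoidHom, MulAut.conj_apply]
      group
    exact quadratic_of_abelian_normalized hBc (hWQ.trans hQB) ⟨w, hw, rfl⟩
  have hVc : V ≤ Subgroup.centralizer (V : Set G) := by
    have : W ≤ Subgroup.centralizer (V : Set G) := Subgroup.le_centralizer_iff.mp hVW
    exact Subgroup.normalClosure_le_normal this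
  have hVea : IsElementaryAbelian p V := by
    have h1 : IsElementaryAbelian p (omegaOne p V) := by
      apply ea_omegaOne_of_comm
      intro x hx y hy
      exact Subgroup.mem_centralizer_iff.mp (hVc hy) x hx
    have h2 : (omegaOne p V).Normal := omegaOne_normal V
    have h3 : W ≤ omegaOne p V := fun w hw => mem_omegaOne_of_mem (hWV hw) (hWea.2 w hw)
    exact ea_of_le h1 (Subgroup.normalClosure_le_normal h3)
  have hstV : IsPStableOn p V := hst.1 V hVea
  -- elements of `S` quadratic on `V` centralize `V`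
  have hquadV : ∀ x ∈ S, ⁅⁅V, Subgroup.zpowers x⁆, Subgroup.zpowers x⁆ = ⊥ →
      x ∈ Subgroup.centralizer (V : Set G) := by
    intro x hxS hq
    have : V ≤ Subgroup.centralizer ({x} : Set G) := by
      apply hVgen
      intro w hw g
      obtain ⟨c, hc', n, rfl, hn⟩ := frattini_reduction S V hstV g
      have hy : n⁻¹ * x * n ∈ S := hn x hxS hq
      have hyq : ⁅⁅V, Subgroup.zpowers (n⁻¹ * x * n)⁆, Subgroup.zpowers (n⁻¹ * x * n)⁆ = ⊥ := by
        have := quadratic_conj V hq n⁻¹
        rwa [inv_inv] at this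
      have hyW : ⁅⁅W, Subgroup.zpowers (n⁻¹ * x * n)⁆, Subgroup.zpowers (n⁻¹ * x * n)⁆ = ⊥ := by
        rw [eq_bot_iff, ← hyq]
        exact Subgroup.commutator_mono (Subgroup.commutator_mono hWV le_rfl) le_rfl
      have hyc := centralizes_of_quadratic S hy hyW
      have h6 : w * (n⁻¹ * x * n) = (n⁻¹ * x * n) * w := Subgroup.mem_centralizer_iff.mp hyc w hw
      have hnw : n * w * n⁻¹ ∈ V := hVn.conj_mem w (hWV hw) n
      have hcn : (n * w * n⁻¹) * c = c * (n * w * n⁻¹) := Subgroup.mem_centralizer_iff.mp hc' _ hnw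
      have heq : c * n * w * (c * n)⁻¹ = n * w * n⁻¹ := by
        calc c * n * w * (c * n)⁻¹ = c * (n * w * n⁻¹) * c⁻¹ := by group
          _ = (n * w * n⁻¹) * c * c⁻¹ := by rw [hcn]
          _ = n * w * n⁻¹ := by group
      rw [heq, Subgroup.mem_centralizer_iff]
      intro z hz
      rw [Set.mem_singleton_iff] at hz
      subst hz
      calc z * (n * w * n⁻¹) = n * ((n⁻¹ * z * n) * w) * n⁻¹ := by group
        _ = n * (w * (n⁻¹ * z * n)) * n⁻¹ := by rw [h6]
        _ = n * w * n⁻¹ * z := by group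
    rw [Subgroup.mem_centralizer_iff]
    intro v hv
    exact (Subgroup.mem_centralizer_iff.mp (this hv) x (Set.mem_singleton x)).symm
  -- every `A ∈ 𝒜(G)` inside `S` centralizes `V`
  set C := Subgroup.centralizer (V : Set G) with hC
  have hAC : ∀ A : Subgroup G, A ∈ maxElementaryAbelianSubgroups p G → A ≤ (S : Subgroup G) → A ≤ C := by
    intro A hA hAS
    obtain ⟨h1, h2, h3⟩ := Cfsg.Agent.S0607.result V hVea A hA
    set A₀ := ⁅V, A⁆ ⊔ (A ⊓ Subgroup.centralizer ((⁅V, A⁆ : Subgroup G) : Set G)) with hA₀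
    have hA₀S : A₀ ≤ S :=
      sup_le (((Subgroup.commutator_le_left V A).trans hVQ).trans hQS) (inf_le_left.trans hAS)
    have hA₀C : A₀ ≤ C := by
      intro x hx
      apply hquadV x (hA₀S hx)
      rw [eq_bot_iff, ← h2]
      have hz : Subgroup.zpowers x ≤ A₀ := (Subgroup.zpowers_le).mpr hx
      exact Subgroup.commutator_mono (Subgroup.commutator_mono le_rfl hz) hz
    have h4 : ⁅V, A₀⁆ = ⊥ := by
      rw [Subgroup.commutator_eq_bot_iff_le_centralizer]
      exact Subgroup.le_centralizer_iff.mp hA₀C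
    have h5 : ⁅V, A⁆ = ⊥ := by
      by_contra hne
      exact h3 hne h4
    rw [Subgroup.commutator_eq_bot_iff_le_centralizer] at h5
    exact Subgroup.le_centralizer_iff.mp h5
  -- Frattini argument
  have hCn : C.Normal := inferInstance
  have hfr := normalizer_inf_sup_eq_top C S
  have hK : Subgroup.normalizer (((S : Subgroup G) ⊓ C : Subgroup G) : Set G) ≤
      Subgroup.normalizer (J : Set G) := by
    apply le_normalizer_of_conj_mem
    intro m hm x hx
    have hmap : J.map (MulAut.conj m).toMonoidHom ≤ J := by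
      rw [Subgroup.map_le_iff_le_comap]
      conv_lhs => rw [hJ, thompsonOf_sylow_eq_sSup S]
      apply sSup_le
      rintro A ⟨hA, hAS⟩
      rw [← Subgroup.map_le_iff_le_comap]
      apply maxEA_le_thompsonOf (maxEA_conj m hA)
      rintro _ ⟨a, ha, rfl⟩
      have haSC : a ∈ (S : Subgroup G) ⊓ C := Subgroup.mem_inf.mpr ⟨hAS ha, hAC A hA hAS ha⟩
      exact (Subgroup.mem_inf.mp (conj_mem_of_normalizer haSC hm)).1
    exact hmap (Subgroup.mem_map_of_mem (MulAut.conj m).toMonoidHom hx)
  constructor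
  intro w hw g
  obtain ⟨c, hc', n, hn, rfl⟩ := exists_mul_of_sup_normal_eq_top hfr g
  have hnw : n * w * n⁻¹ ∈ W := conj_mem_of_normalizer hw (hNW (hK hn))
  have hcn : (n * w * n⁻¹) * c = c * (n * w * n⁻¹) := Subgroup.mem_centralizer_iff.mp hc' _ (hWV hnw)
  have heq : c * n * w * (c * n)⁻¹ = n * w * n⁻¹ := by
    calc c * n * w * (c * n)⁻¹ = c * (n * w * n⁻¹) * c⁻¹ := by group
      _ = (n * w * n⁻¹) * c * c⁻¹ := by rw [hcn]
      _ = n * w * n⁻¹ := by group
  rw [heq]
  exact hnw

end Cfsg.Agent.S0624
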