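import Cfsg.Statements.S0627
import Cfsg.Agent.Lib.Helper14.WSub
import Cfsg.Agent.Lib.Helper14.QuadGen
import Cfsg.Agent.S0624
import Cfsg.Agent.S0625

set_option autoImplicit false
open Cfsg

namespace Cfsg.Agent.S0627

open Cfsg.Agent.Lib.Helper14

/-- In a p-separable group with p at least 5, the normalizer of W(S) supplements the largest normal subgroup of order prime to p. -/
theorem result {G : Type*} [Group G] [Finite G] {p : ℕ} [Fact p.Prime] (hp : 5 ≤ p) (hsep : Cfsg.IsPSolvable p G) (S : Sylow p G) : Cfsg.pPrimeCore p G ⊔ Subgroup.normalizer (((Cfsg.stableNormalClosure p ↥(S : Subgroup G)).map (S : Subgroup G).subtype) : Set G) = ⊤ := by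
  have hpp : p.Prime := Fact.out
  set R := pPrimeCore p G with hRdef
  have hRc : (Nat.card R).Coprime p := pPrimeCore_coprime
  set π := QuotientGroup.mk' R with hπdef
  have hπ : Function.Surjective π := QuotientGroup.mk'_surjective R
  have hsol' : IsPSolvable p (G ⧸ R) := isPSolvable_map π hπ hsep
  have hred : pPrimeCore p (G ⧸ R) = ⊥ := Cfsg.Agent.Lib.Helper40.pPrimeCore_quotient hpp
  have hHH := Cfsg.Agent.Lib.Helper40.centralizer_pCore_le hsol' hred
  have hst : IsActionPStable p (G ⧸ R) := Cfsg.Agent.S0625.result hp hsol'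
  set S' : Sylow p (G ⧸ R) := S.mapSurjective hπ with hS'def
  have hS' : (S' : Subgroup (G ⧸ R)) = (S : Subgroup G).map π := Sylow.coe_mapSurjective hπ S
  have hWn : (WG p (S' : Subgroup (G ⧸ R))).Normal := Cfsg.Agent.S0624.result hst hHH S'
  have hinj : Set.InjOn π (S : Subgroup G) := by
    intro x hx y hy hxy
    have h1 : x⁻¹ * y ∈ R := QuotientGroup.eq.mp hxy
    have h2 : x⁻¹ * y ∈ (S : Subgroup G) := Subgroup.mul_mem _ (Subgroup.inv_mem _ hx) hy
    have h3 : x⁻¹ * y = 1 := by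
      obtain ⟨j, hj⟩ := S.2 ⟨_, h2⟩
      have hj' : (x⁻¹ * y) ^ (p ^ j) = 1 := congrArg Subtype.val hj
      have h4 : orderOf (x⁻¹ * y) ∣ p ^ j := orderOf_dvd_of_pow_eq_one hj'
      have h5 : orderOf (x⁻¹ * y) ∣ Nat.card R := by
        have := orderOf_dvd_natCard (⟨_, h1⟩ : R)
        rwa [Subgroup.orderOf_mk] at this
      exact orderOf_eq_one_iff.mp (Nat.eq_one_of_dvd_coprimes (Nat.Coprime.pow_right j hRc) h5 h4)
    exact inv_mul_eq_one.mp h3
  rw [hS', WG_map π _ hinj] at hWn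
  set W := WG p (S : Subgroup G) with hW
  have hWp : IsPGroup p W := S.2.to_le (WG_le _)
  rw [eq_top_iff]
  intro g _
  have hg : ∀ x ∈ W, g * x * g⁻¹ ∈ W ⊔ R := by
    intro x hx
    have h1 : π (g * x * g⁻¹) ∈ W.map π := by
      rw [map_mul, map_mul, map_inv]
      exact hWn.conj_mem _ (Subgroup.mem_map_of_mem π hx) _
    have h2 : g * x * g⁻¹ ∈ (W.map π).comap π := h1
    rw [Subgroup.comap_map_eq, hπdef, QuotientGroup.ker_mk'] at h2
    exact h2
  obtain ⟨y, hyR, hyg⟩ := sylow_conj_mod_normal R hRc W hWp g hg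
  have e : g = y * (y⁻¹ * g) := by group
  rw [e]
  exact Subgroup.mul_mem _ (Subgroup.mem_sup_left hyR) (Subgroup.mem_sup_right hyg)

end Cfsg.Agent.S0627
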