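import Cfsg.Statements.S0628
import Cfsg.Agent.Lib.Helper14.NPC
import Cfsg.Agent.Lib.Helper14.WSub
import Cfsg.Agent.Lib.Helper40.HallHigman
import Cfsg.Agent.Lib.Helper40.PiCore
import Cfsg.Agent.Lib.Helper2.Frob
import Cfsg.Agent.S0624
import Cfsg.Agent.S0626

set_option autoImplicit false
open Cfsg

namespace Cfsg.Agent.S0628

open Cfsg.Agent.Lib.Helper14
open Cfsg.Agent.Lib.Helper75 (NPC)

universe u

section aux

variable {p : ℕ} [Fact p.Prime] {G : Type u} [Group G] [Finite G]

theorem card_lt_of_ne_top (M : Subgroup G) (hM : M ≠ ⊤) : Nat.card M < Nat.card G :=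
  lt_of_le_of_ne (Subgroup.card_le_card_group M) (fun h => hM (Subgroup.eq_top_of_card_eq M h))

theorem card_quot_lt (N : Subgroup G) [N.Normal] (hN : N ≠ ⊥) : Nat.card (G ⧸ N) < Nat.card G := by
  have h1 := Subgroup.card_eq_card_quotient_mul_card_subgroup N
  have h2 : 1 < Nat.card N := (Subgroup.one_lt_card_iff_ne_bot N).mpr hN
  have h3 : 0 < Nat.card (G ⧸ N) := Nat.card_pos
  nlinarith

theorem eq_one_of_mem_coprime {B N : Subgroup G} (hB : IsPGroup p B)
    (hN : (Nat.card N).Coprime p) {x : G} (hxB : x ∈ B) (hxN : x ∈ N) : x = 1 := by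
  obtain ⟨j, hj⟩ := hB ⟨x, hxB⟩
  have hj' : x ^ (p ^ j) = 1 := congrArg Subtype.val hj
  have h4 : orderOf x ∣ p ^ j := orderOf_dvd_of_pow_eq_one hj'
  have h5 : orderOf x ∣ Nat.card N := by
    have := orderOf_dvd_natCard (⟨x, hxN⟩ : N)
    rwa [Subgroup.orderOf_mk] at this
  have h6 : orderOf x = 1 := Nat.eq_one_of_dvd_coprimes (Nat.Coprime.pow_right j hN) h5 h4
  exact orderOf_eq_one_iff.mp h6

/-- the induction hypothesis applied to a proper subgroup containing the Sylow subgroup. -/
theorem ih_subgroup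
    (ih : ∀ m < Nat.card G, ∀ (G' : Type u) [Group G'] [Finite G'], Nat.card G' = m →
      ∀ S' : Sylow p G', NPC p ↥(Subgroup.normalizer
        ((WG p (S' : Subgroup G') : Subgroup G') : Set G')) → NPC p G')
    (S : Sylow p G)
    (hS : NPC p ↥(Subgroup.normalizer ((WG p (S : Subgroup G) : Subgroup G) : Set G)))
    (M : Subgroup G) (hSM : (S : Subgroup G) ≤ M) (hM : M ≠ ⊤) : NPC p ↥M := by
  apply ih (Nat.card M) (card_lt_of_ne_top M hM) ↥M rfl (S.subtype hSM)
  rw [Sylow.coe_subtype]
  apply npc_normalizer_of_injective M.subtype M.subtype_injective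
  rw [WG_subgroupOf M S hSM]
  exact hS

theorem hyp_all_sylow (S S' : Sylow p G)
    (hS : NPC p ↥(Subgroup.normalizer ((WG p (S : Subgroup G) : Subgroup G) : Set G))) :
    NPC p ↥(Subgroup.normalizer ((WG p (S' : Subgroup G) : Subgroup G) : Set G)) := by
  obtain ⟨g, rfl⟩ := MulAction.exists_smul_eq G S S'
  have h : ((g • S : Sylow p G) : Subgroup G) = (S : Subgroup G).map (MulAut.conj g).toMonoidHom := by
    rw [Sylow.coe_subgroup_smul]; rfl
  rw [h, WG_map _ _ (MulAut.conj g).injective.injOn]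
  exact npc_normalizer_conj _ g hS

/-- Step 1: a nontrivial normal `p`-subgroup. -/
theorem exists_normal_pgroup
    (ih : ∀ m < Nat.card G, ∀ (G' : Type u) [Group G'] [Finite G'], Nat.card G' = m →
      ∀ S' : Sylow p G', NPC p ↥(Subgroup.normalizer
        ((WG p (S' : Subgroup G') : Subgroup G') : Set G')) → NPC p G')
    (S : Sylow p G)
    (hS : NPC p ↥(Subgroup.normalizer ((WG p (S : Subgroup G) : Subgroup G) : Set G)))
    (hG : ¬ NPC p G) : ∃ B : Subgroup G, B.Normal ∧ IsPGroup p B ∧ B ≠ ⊥ := by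
  have hp : p.Prime := Fact.out
  let f : Subgroup G → ℕ :=
    fun B => (Nat.card ↥(Subgroup.normalizer (B : Set G))).factorization p
  let 𝒲 : Set (Subgroup G) :=
    {B | IsPGroup p B ∧ B ≠ ⊥ ∧ ¬ NPC p ↥(Subgroup.normalizer (B : Set G))}
  have hne : 𝒲.Nonempty := exists_of_not_npc hG
  obtain ⟨B, ⟨hBp, hB1, hBn⟩, hmax⟩ := Set.exists_max_image 𝒲 f (Set.toFinite _) hne
  refine ⟨B, ?_, hBp, hB1⟩
  by_contra hBnormal
  set M := Subgroup.normalizer (B : Set G) with hM
  have hMtop : M ≠ ⊤ := fun h => hBnormal (Subgroup.normalizer_eq_top_iff.mp h)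
  have hlt : Nat.card M < Nat.card G := card_lt_of_ne_top M hMtop
  obtain ⟨T₀⟩ : Nonempty (Sylow p ↥M) := inferInstance
  set T := (T₀ : Subgroup ↥M).map M.subtype with hT
  have hTp : IsPGroup p T := T₀.2.map _
  have h1 : ¬ NPC p ↥(Subgroup.normalizer
      ((WG p (T₀ : Subgroup ↥M) : Subgroup ↥M) : Set ↥M)) :=
    fun h => hBn (ih (Nat.card M) hlt ↥M rfl T₀ h)
  have h2 : ¬ NPC p ↥(Subgroup.normalizer ((WG p T : Subgroup G) : Set G)) := by
    intro h
    apply h1
    apply npc_normalizer_of_injective M.subtype M.subtype_injective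
    rw [← WG_map _ _ M.subtype_injective.injOn]
    exact h
  have hBM : B ≤ M := Subgroup.le_normalizer
  have hpM : p ∣ Nat.card M := by
    have h3 : p ∣ Nat.card B := by
      obtain ⟨k, hk⟩ := IsPGroup.iff_card.mp hBp
      have hk0 : k ≠ 0 := by
        rintro rfl
        rw [pow_zero] at hk
        exact hB1 (Subgroup.card_eq_one.mp hk)
      rw [hk]
      exact dvd_pow_self p hk0
    exact h3.trans (Subgroup.card_dvd_of_le hBM)
  have hTcard : Nat.card T = p ^ (Nat.card M).factorization p := by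
    rw [hT, Subgroup.card_map_of_injective M.subtype_injective]
    exact T₀.card_eq_multiplicity
  have hfpos : 0 < (Nat.card M).factorization p :=
    hp.factorization_pos_of_dvd Nat.card_pos.ne' hpM
  have hT1 : T ≠ ⊥ := by
    intro h
    rw [h, Subgroup.card_bot] at hTcard
    have : 1 < p ^ (Nat.card M).factorization p := Nat.one_lt_pow hfpos.ne' hp.one_lt
    omega
  have hW : WG p T ∈ 𝒲 := ⟨hTp.to_le (WG_le T), WG_ne_bot T hTp hT1, h2⟩
  have hle : f (WG p T) ≤ f B := hmax _ hW
  obtain ⟨S₁, hTS₁⟩ := hTp.exists_le_sylow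
  by_cases hTS : T = (S₁ : Subgroup G)
  · apply h2
    rw [hTS]
    exact hyp_all_sylow S S₁ hS
  · obtain ⟨y, hyS, hyT, hyN⟩ :=
      Cfsg.Agent.Lib.Helper2.exists_mem_normalizer_not_mem S₁ T hTS₁ hTS
    set Y := (S₁ : Subgroup G) ⊓ Subgroup.normalizer (T : Set G) with hY
    have hYp : IsPGroup p Y := S₁.2.to_le inf_le_left
    have hTY : T ≤ Y := le_inf hTS₁ Subgroup.le_normalizer
    have hyY : y ∈ Y := ⟨hyS, hyN⟩
    have hcard : Nat.card T < Nat.card Y :=
      Cfsg.Agent.Lib.Helper2.card_lt_of_lt_mem hTY hyY hyT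
    have hYN : Y ≤ Subgroup.normalizer ((WG p T : Subgroup G) : Set G) :=
      inf_le_right.trans (normalizer_le_normalizer_WG T)
    obtain ⟨j, hj⟩ := IsPGroup.iff_card.mp hYp
    have hdvd : p ^ j ∣ Nat.card ↥(Subgroup.normalizer ((WG p T : Subgroup G) : Set G)) := by
      rw [← hj]
      exact Subgroup.card_dvd_of_le hYN
    have hj2 : j ≤ f (WG p T) := (hp.pow_dvd_iff_le_factorization Nat.card_pos.ne').mp hdvd
    have hj3 : (Nat.card M).factorization p < j := by
      rw [hTcard, hj] at hcard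
      exact (Nat.pow_lt_pow_iff_right hp.one_lt).mp hcard
    have hfB : f B = (Nat.card M).factorization p := rfl
    omega

/-- Step 2: the quotient by `O_p(G)` has a normal `p`-complement. -/
theorem npc_quot_pCore
    (ih : ∀ m < Nat.card G, ∀ (G' : Type u) [Group G'] [Finite G'], Nat.card G' = m →
      ∀ S' : Sylow p G', NPC p ↥(Subgroup.normalizer
        ((WG p (S' : Subgroup G') : Subgroup G') : Set G')) → NPC p G')
    (S : Sylow p G)
    (hS : NPC p ↥(Subgroup.normalizer ((WG p (S : Subgroup G) : Subgroup G) : Set G)))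
    (hG : ¬ NPC p G) (hP : pCore p G ≠ ⊥) : NPC p (G ⧸ pCore p G) := by
  set P := pCore p G with hPdef
  have hPp : IsPGroup p P := pCore_isPGroup
  set π := QuotientGroup.mk' P with hπdef
  have hπ : Function.Surjective π := QuotientGroup.mk'_surjective P
  have hlt : Nat.card (G ⧸ P) < Nat.card G := card_quot_lt P hP
  set S' : Sylow p (G ⧸ P) := S.mapSurjective hπ with hS'def
  have hS' : (S' : Subgroup (G ⧸ P)) = (S : Subgroup G).map π := Sylow.coe_mapSurjective hπ S
  apply ih _ hlt (G ⧸ P) rfl S'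
  set W' := WG p (S' : Subgroup (G ⧸ P)) with hW'
  set M := (Subgroup.normalizer (W' : Set (G ⧸ P))).comap π with hM
  have hSM : (S : Subgroup G) ≤ M := by
    intro s hs
    show π s ∈ Subgroup.normalizer (W' : Set (G ⧸ P))
    apply normalizer_le_normalizer_WG
    apply Subgroup.le_normalizer
    rw [hS']; exact Subgroup.mem_map_of_mem π hs
  by_cases hMtop : M = ⊤
  · exfalso
    have hW'n : W'.Normal := by
      rw [← Subgroup.normalizer_eq_top_iff, eq_top_iff]
      intro x _
      obtain ⟨g, rfl⟩ := hπ x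
      have : g ∈ M := hMtop ▸ Subgroup.mem_top g
      exact this
    have hW'p : IsPGroup p W' := S'.2.to_le (WG_le _)
    have hU : W'.comap π ≤ P :=
      le_pCore (hW'n.comap π) (hW'p.comap_of_ker_isPGroup π
        (by rw [hπdef, QuotientGroup.ker_mk']; exact hPp))
    have hW'bot : W' = ⊥ := by
      rw [← Subgroup.map_comap_eq_self_of_surjective hπ W', eq_bot_iff]
      calc (W'.comap π).map π ≤ P.map π := Subgroup.map_mono hU
        _ = ⊥ := QuotientGroup.map_mk'_self P
    have hS'bot : (S' : Subgroup (G ⧸ P)) = ⊥ := by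
      by_contra h
      exact WG_ne_bot _ S'.2 h hW'bot
    have hSP : (S : Subgroup G) = P := by
      apply le_antisymm
      · intro s hs
        have : π s ∈ (S' : Subgroup (G ⧸ P)) := by rw [hS']; exact Subgroup.mem_map_of_mem π hs
        rw [hS'bot, Subgroup.mem_bot] at this
        exact (QuotientGroup.eq_one_iff s).mp this
      · exact pCore_le_sylow S
    have hSn : (S : Subgroup G).Normal := by rw [hSP]; infer_instance
    have hWtop : Subgroup.normalizer ((WG p (S : Subgroup G) : Subgroup G) : Set G) = ⊤ := by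
      rw [eq_top_iff]
      calc ⊤ = Subgroup.normalizer ((S : Subgroup G) : Set G) :=
            (Subgroup.normalizer_eq_top_iff.mpr hSn).symm
        _ ≤ _ := normalizer_le_normalizer_WG _
    apply hG
    exact npc_of_injective ((MonoidHom.id G).codRestrict _ (fun g => hWtop ▸ Subgroup.mem_top g))
      (fun x y h => congrArg Subtype.val h) hS
  · have hMnpc : NPC p ↥M := ih_subgroup ih S hS M hSM hMtop
    exact npc_of_surjective (π.subgroupComap (Subgroup.normalizer (W' : Set (G ⧸ P))))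
      (π.subgroupComap_surjective_of_surjective _ hπ) hMnpc

/-- Step 3: `O_{p'}(G) = 1`. -/
theorem pPrimeCore_eq_bot
    (ih : ∀ m < Nat.card G, ∀ (G' : Type u) [Group G'] [Finite G'], Nat.card G' = m →
      ∀ S' : Sylow p G', NPC p ↥(Subgroup.normalizer
        ((WG p (S' : Subgroup G') : Subgroup G') : Set G')) → NPC p G')
    (S : Sylow p G)
    (hS : NPC p ↥(Subgroup.normalizer ((WG p (S : Subgroup G) : Subgroup G) : Set G)))
    (hG : ¬ NPC p G) : pPrimeCore p G = ⊥ := by
  by_contra hR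
  haveI : (pPrimeCore p G).Normal := Cfsg.Agent.Lib.Helper81.pPrimeCore_normal p
  set R := pPrimeCore p G with hRdef
  have hRc : (Nat.card R).Coprime p := pPrimeCore_coprime
  set π := QuotientGroup.mk' R with hπdef
  have hπ : Function.Surjective π := QuotientGroup.mk'_surjective R
  have hlt : Nat.card (G ⧸ R) < Nat.card G := card_quot_lt R hR
  set S' : Sylow p (G ⧸ R) := S.mapSurjective hπ with hS'def
  have hS' : (S' : Subgroup (G ⧸ R)) = (S : Subgroup G).map π := Sylow.coe_mapSurjective hπ S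
  have hinj : Set.InjOn π (S : Subgroup G) := by
    intro x hx y hy hxy
    have h1 : x⁻¹ * y ∈ R := QuotientGroup.eq.mp hxy
    have h2 : x⁻¹ * y ∈ (S : Subgroup G) := Subgroup.mul_mem _ (Subgroup.inv_mem _ hx) hy
    have h3 := eq_one_of_mem_coprime S.2 hRc h2 h1
    exact inv_mul_eq_one.mp h3
  apply hG
  apply npc_of_quotient R hRc
  apply ih _ hlt (G ⧸ R) rfl S'
  rw [hS', WG_map π _ hinj]
  exact npc_normalizer_quot R hRc _ (S.2.to_le (WG_le _)) hS

/-- Step 4: `C_G(O_p(G)) ≤ O_p(G)`. -/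
theorem centralizer_pCore_le' (hnpc : NPC p (G ⧸ pCore p G)) (hR : pPrimeCore p G = ⊥) :
    Subgroup.centralizer (pCore p G : Set G) ≤ pCore p G := by
  apply Cfsg.Agent.Lib.Helper40.centralizer_pCore_le _ hR
  obtain ⟨N', hN', hc, k, hk⟩ := hnpc
  set P := pCore p G with hPdef
  have hPp : IsPGroup p P := pCore_isPGroup
  set π := QuotientGroup.mk' P with hπdef
  have hπ : Function.Surjective π := QuotientGroup.mk'_surjective P
  set K := N'.comap π with hK
  have hPK : P ≤ K := by
    intro x hx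
    show π x ∈ N'
    have : π x = 1 := (QuotientGroup.eq_one_iff x).mpr hx
    rw [this]; exact Subgroup.one_mem _
  have hKn : K.Normal := hN'.comap π
  refine ⟨3, ![⊥, P, K, ⊤], rfl, rfl, ?_, ?_, ?_⟩
  · apply Fin.monotone_iff_le_succ.mpr
    intro i
    fin_cases i
    · exact bot_le
    · exact hPK
    · exact le_top
  · intro i
    fin_cases i
    · show (⊥ : Subgroup G).Normal
      infer_instance
    · show P.Normal
      infer_instance
    · exact hKn
    · show (⊤ : Subgroup G).Normal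
      infer_instance
  · intro i
    fin_cases i
    · left
      show ∃ m : ℕ, (⊥ : Subgroup G).relIndex P = p ^ m
      rw [Subgroup.relIndex_bot_left]
      exact IsPGroup.iff_card.mp hPp
    · right
      show (P.relIndex K).Coprime p
      have h1 : P = (⊥ : Subgroup (G ⧸ P)).comap π := by
        have : (⊥ : Subgroup (G ⧸ P)).comap π = π.ker := rfl
        rw [this, hπdef, QuotientGroup.ker_mk']
      have h2 : P.relIndex K = Nat.card N' := by
        rw [h1, Subgroup.relIndex_comap, Subgroup.relIndex_bot_left, hK,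
          Subgroup.map_comap_eq_self_of_surjective hπ]
      rw [h2]; exact hc
    · left
      show ∃ m : ℕ, K.relIndex ⊤ = p ^ m
      refine ⟨k, ?_⟩
      rw [Subgroup.relIndex_top_right, hK, Subgroup.index_comap_of_surjective _ hπ, hk]

/-- Step 5a: the Sylow subgroup is a maximal subgroup. -/
theorem le_sylow_of_ne_top
    (ih : ∀ m < Nat.card G, ∀ (G' : Type u) [Group G'] [Finite G'], Nat.card G' = m →
      ∀ S' : Sylow p G', NPC p ↥(Subgroup.normalizer
        ((WG p (S' : Subgroup G') : Subgroup G') : Set G')) → NPC p G')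
    (S : Sylow p G)
    (hS : NPC p ↥(Subgroup.normalizer ((WG p (S : Subgroup G) : Subgroup G) : Set G)))
    (hc : Subgroup.centralizer (pCore p G : Set G) ≤ pCore p G)
    (M : Subgroup G) (hSM : (S : Subgroup G) ≤ M) (hM : M ≠ ⊤) : M ≤ (S : Subgroup G) := by
  obtain ⟨D, hDn, hDc, k, hk⟩ := ih_subgroup ih S hS M hSM hM
  set P := pCore p G with hPdef
  have hPp : IsPGroup p P := pCore_isPGroup
  have hPM : P ≤ M := (pCore_le_sylow S).trans hSM
  have hDc' : (Nat.card (D.map M.subtype)).Coprime p := by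
    rw [Subgroup.card_map_of_injective M.subtype_injective]; exact hDc
  have hD1 : ∀ d : ↥M, d ∈ D → d = 1 := by
    intro d hd
    have hdC : (d : G) ∈ Subgroup.centralizer (P : Set G) := by
      rw [Subgroup.mem_centralizer_iff]
      intro x hx
      have h1 : (⟨x, hPM hx⟩ : ↥M) * d * (⟨x, hPM hx⟩ : ↥M)⁻¹ * d⁻¹ ∈ D :=
        D.mul_mem (hDn.conj_mem d hd _) (D.inv_mem hd)
      have h2 : x * (d : G) * x⁻¹ * (d : G)⁻¹ ∈ D.map M.subtype := ⟨_, h1, rfl⟩
      have h3 : x * (d : G) * x⁻¹ * (d : G)⁻¹ ∈ P := by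
        have e : x * (d : G) * x⁻¹ * (d : G)⁻¹ = x * ((d : G) * x⁻¹ * (d : G)⁻¹) := by group
        rw [e]
        exact P.mul_mem hx ((inferInstance : P.Normal).conj_mem _ (P.inv_mem hx) _)
      have h4 := eq_one_of_mem_coprime hPp hDc' h3 h2
      calc x * (d : G) = (x * (d : G) * x⁻¹ * (d : G)⁻¹) * ((d : G) * x) := by group
        _ = (d : G) * x := by rw [h4, one_mul]
    have h5 : (d : G) ∈ P := hc hdC
    have h6 : (d : G) ∈ D.map M.subtype := ⟨d, hd, rfl⟩
    exact Subtype.ext (eq_one_of_mem_coprime hPp hDc' h5 h6)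
  have hDbot : D = ⊥ := by
    rw [eq_bot_iff]
    intro d hd
    exact Subgroup.mem_bot.mpr (hD1 d hd)
  have hMcard : Nat.card M = p ^ k := by
    rw [← hk, hDbot, Subgroup.index_bot]
  have hMp : IsPGroup p M := IsPGroup.of_card hMcard
  exact le_of_eq (S.is_maximal' hMp hSM)

/-- Step 5b: the Sylow `2`-subgroups are abelian. -/
theorem abSyl (hp2 : p ≠ 2) (S : Sylow p G)
    (hmax : ∀ M : Subgroup G, (S : Subgroup G) ≤ M → M ≠ ⊤ → M ≤ (S : Subgroup G))
    (hnpc : NPC p (G ⧸ pCore p G)) :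
    ∀ T : Sylow 2 G, ∀ x ∈ T, ∀ y ∈ T, x * y = y * x := by
  have hp : p.Prime := Fact.out
  haveI : Fact (Nat.Prime 2) := ⟨Nat.prime_two⟩
  set P := pCore p G with hPdef
  have hPp : IsPGroup p P := pCore_isPGroup
  set π := QuotientGroup.mk' P with hπdef
  have hπ : Function.Surjective π := QuotientGroup.mk'_surjective P
  obtain ⟨N', hN', hc, k, hk⟩ := hnpc
  set S' : Sylow p (G ⧸ P) := S.mapSurjective hπ with hS'def
  have hS' : (S' : Subgroup (G ⧸ P)) = (S : Subgroup G).map π := Sylow.coe_mapSurjective hπ S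
  -- an `S'`-invariant Sylow 2-subgroup of `N'`
  obtain ⟨R₀⟩ : Nonempty (Sylow 2 ↥N') := inferInstance
  set R₁ := (R₀ : Subgroup ↥N').map N'.subtype with hR₁
  set X := Subgroup.normalizer (R₁ : Set (G ⧸ P)) with hX
  have hXN : X ⊔ N' = ⊤ := Sylow.normalizer_sup_eq_top R₀
  have hXidx : ¬ p ∣ X.index := by
    rw [Cfsg.Agent.Lib.Helper81.index_eq_relIndex_of_sup_eq_top X N' hXN]
    intro h
    have h1 : p ∣ Nat.card N' := h.trans (Subgroup.relIndex_dvd_card X N')
    exact (Nat.Prime.coprime_iff_not_dvd hp).mp hc.symm h1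
  obtain ⟨S₂, hS₂⟩ := Cfsg.Agent.Lib.Helper81.exists_sylow_le_of_not_dvd_index p X hXidx
  obtain ⟨g, hg⟩ := MulAction.exists_smul_eq (G ⧸ P) S₂ S'
  have hS₂' : (S' : Subgroup (G ⧸ P)) =
      (S₂ : Subgroup (G ⧸ P)).map (MulAut.conj g).toMonoidHom := by
    rw [← hg, Sylow.coe_subgroup_smul]; rfl
  set R := R₁.map (MulAut.conj g).toMonoidHom with hR
  have hR2 : IsPGroup 2 R := (R₀.2.map _).map _
  have hSR : (S' : Subgroup (G ⧸ P)) ≤ Subgroup.normalizer (R : Set (G ⧸ P)) := by
    rw [hS₂']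
    exact (Subgroup.map_mono hS₂).trans (Subgroup.le_normalizer_map _)
  have hRcard : Nat.card R = 2 ^ (Nat.card N').factorization 2 := by
    rw [hR, Subgroup.card_map_of_injective (MulAut.conj g).injective, hR₁,
      Subgroup.card_map_of_injective N'.subtype_injective]
    exact R₀.card_eq_multiplicity
  -- the centre of `R`
  set Z := R ⊓ Subgroup.centralizer (R : Set (G ⧸ P)) with hZ
  have hZ2 : IsPGroup 2 Z := hR2.to_le inf_le_left
  have hZcomm : ∀ x ∈ Z, ∀ y ∈ Z, x * y = y * x := by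
    intro x hx y hy
    exact (Subgroup.mem_centralizer_iff.mp (Subgroup.mem_inf.mp hx).2 y (Subgroup.mem_inf.mp hy).1).symm
  have hSZ : ∀ s ∈ (S' : Subgroup (G ⧸ P)), ∀ z ∈ Z, s * z * s⁻¹ ∈ Z := by
    intro s hs z hz
    have hsN := hSR hs
    have hz1 := (Subgroup.mem_inf.mp hz).1
    have hz2 := (Subgroup.mem_inf.mp hz).2
    refine Subgroup.mem_inf.mpr ⟨(Subgroup.mem_normalizer_iff.mp hsN z).mp hz1, ?_⟩
    rw [Subgroup.mem_centralizer_iff]
    intro r hr
    have hr' : s⁻¹ * r * s ∈ R := by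
      have := (Subgroup.mem_normalizer_iff.mp hsN (s⁻¹ * r * s)).mpr
      apply this
      have e : s * (s⁻¹ * r * s) * s⁻¹ = r := by group
      rw [e]; exact hr
    have h1 := Subgroup.mem_centralizer_iff.mp hz2 _ hr'
    calc r * (s * z * s⁻¹) = s * ((s⁻¹ * r * s) * z) * s⁻¹ := by group
      _ = s * (z * (s⁻¹ * r * s)) * s⁻¹ := by rw [h1]
      _ = s * z * s⁻¹ * r := by group
  -- all Sylow 2-subgroups of the quotient are abelian
  have hquot : ∀ T' : Sylow 2 (G ⧸ P), ∀ x ∈ T', ∀ y ∈ T', x * y = y * x := by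
    set L := ((S' : Subgroup (G ⧸ P)) ⊔ Z).comap π with hL
    have hSL : (S : Subgroup G) ≤ L := by
      intro s hs
      show π s ∈ (S' : Subgroup (G ⧸ P)) ⊔ Z
      apply Subgroup.mem_sup_left
      rw [hS']; exact Subgroup.mem_map_of_mem π hs
    by_cases hLtop : L = ⊤
    · have hsup : (S' : Subgroup (G ⧸ P)) ⊔ Z = ⊤ := by
        rw [eq_top_iff]
        intro x _
        obtain ⟨g', rfl⟩ := hπ x
        have : g' ∈ L := hLtop ▸ Subgroup.mem_top g'
        exact this
      have hdvd : Nat.card (G ⧸ P) ∣ Nat.card (S' : Subgroup (G ⧸ P)) * Nat.card Z := by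
        have := Cfsg.Agent.Lib.Helper40.card_sup_dvd (S' : Subgroup (G ⧸ P)) Z hSZ
        rw [hsup, Subgroup.card_top] at this
        exact this
      obtain ⟨T₀, hZT₀⟩ := hZ2.exists_le_sylow
      have hT₀Z : Z = (T₀ : Subgroup (G ⧸ P)) := by
        apply Subgroup.eq_of_le_of_card_ge hZT₀
        obtain ⟨a, ha⟩ := IsPGroup.iff_card.mp T₀.2
        obtain ⟨b, hb⟩ := IsPGroup.iff_card.mp S'.2
        have h1 : Nat.card (T₀ : Subgroup (G ⧸ P)) ∣
            Nat.card (S' : Subgroup (G ⧸ P)) * Nat.card Z :=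
          (Subgroup.card_subgroup_dvd_card _).trans hdvd
        have h2 : (Nat.card (T₀ : Subgroup (G ⧸ P))).Coprime
            (Nat.card (S' : Subgroup (G ⧸ P))) := by
          rw [ha, hb]
          apply Nat.Coprime.pow
          exact (Nat.coprime_primes Nat.prime_two hp).mpr (Ne.symm hp2)
        exact Nat.le_of_dvd Nat.card_pos (h2.dvd_of_dvd_mul_left h1)
      intro T' x hx y hy
      obtain ⟨h, hh⟩ := MulAction.exists_smul_eq (G ⧸ P) T₀ T'
      have hx' : x ∈ (T' : Subgroup (G ⧸ P)) := hx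
      have hy' : y ∈ (T' : Subgroup (G ⧸ P)) := hy
      rw [← hh, Sylow.coe_subgroup_smul, Subgroup.mem_smul_pointwise_iff_exists] at hx' hy'
      obtain ⟨s, hs, rfl⟩ := hx'
      obtain ⟨s', hs', rfl⟩ := hy'
      rw [← hT₀Z] at hs hs'
      simp only [MulAut.smul_def, MulAut.conj_apply]
      calc h * s * h⁻¹ * (h * s' * h⁻¹) = h * (s * s') * h⁻¹ := by group
        _ = h * (s' * s) * h⁻¹ := by rw [hZcomm s hs s' hs']
        _ = h * s' * h⁻¹ * (h * s * h⁻¹) := by group
    · have hLS : L ≤ (S : Subgroup G) := hmax L hSL hLtop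
      have hZS : Z ≤ (S' : Subgroup (G ⧸ P)) := by
        intro z hz
        obtain ⟨g', rfl⟩ := hπ z
        have : g' ∈ L := by
          show π g' ∈ (S' : Subgroup (G ⧸ P)) ⊔ Z
          exact Subgroup.mem_sup_right hz
        rw [hS']; exact Subgroup.mem_map_of_mem π (hLS this)
      have hZbot : Z = ⊥ := by
        rw [eq_bot_iff]
        intro z hz
        have := (IsPGroup.disjoint_of_ne 2 p (Ne.symm hp2) Z (S' : Subgroup _) hZ2 S'.2)
        exact this.le_bot (Subgroup.mem_inf.mpr ⟨hz, hZS hz⟩)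
      have hRbot : R = ⊥ := by
        by_contra hRne
        haveI : Nontrivial ↥R := (Subgroup.nontrivial_iff_ne_bot R).mpr hRne
        have hcen := hR2.bot_lt_center
        obtain ⟨z, hz, hz1⟩ := SetLike.exists_of_lt hcen
        have hzZ : (z : G ⧸ P) ∈ Z := by
          refine Subgroup.mem_inf.mpr ⟨z.2, ?_⟩
          rw [Subgroup.mem_centralizer_iff]
          intro r hr
          have := Subgroup.mem_center_iff.mp hz ⟨r, hr⟩
          exact congrArg Subtype.val this
        rw [hZbot, Subgroup.mem_bot] at hzZ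
        exact hz1 (Subgroup.mem_bot.mpr (Subtype.ext hzZ))
      have h2N : ¬ 2 ∣ Nat.card N' := by
        intro h
        have hpos := Nat.prime_two.factorization_pos_of_dvd Nat.card_pos.ne' h
        rw [hRbot, Subgroup.card_bot] at hRcard
        have : 1 < 2 ^ (Nat.card N').factorization 2 := Nat.one_lt_pow hpos.ne' (by norm_num)
        omega
      have h2G : ¬ 2 ∣ Nat.card (G ⧸ P) := by
        rw [← Subgroup.card_mul_index N', hk]
        intro h
        rcases (Nat.Prime.dvd_mul Nat.prime_two).mp h with h | h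
        · exact h2N h
        · have := Nat.Prime.dvd_of_dvd_pow Nat.prime_two h
          exact hp2 ((Nat.prime_dvd_prime_iff_eq Nat.prime_two hp).mp this).symm
      intro T' x hx y hy
      have hT'bot : (T' : Subgroup (G ⧸ P)) = ⊥ := by
        have h1 := T'.card_eq_multiplicity
        rw [Nat.factorization_eq_zero_of_not_dvd h2G, pow_zero] at h1
        exact Subgroup.card_eq_one.mp h1
      have hx' : x ∈ (T' : Subgroup (G ⧸ P)) := hx
      have hy' : y ∈ (T' : Subgroup (G ⧸ P)) := hy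
      rw [hT'bot, Subgroup.mem_bot] at hx' hy'
      rw [hx', hy']
  -- transfer to `G`
  intro T x hx y hy
  have hTπ : IsPGroup 2 ((T : Subgroup G).map π) := T.2.map π
  obtain ⟨T', hT'⟩ := hTπ.exists_le_sylow
  have h1 := hquot T' (π x) (hT' (Subgroup.mem_map_of_mem π hx)) (π y)
    (hT' (Subgroup.mem_map_of_mem π hy))
  rw [← map_mul, ← map_mul] at h1
  have h2 : (x * y)⁻¹ * (y * x) ∈ P := QuotientGroup.eq.mp h1
  have h3 : (x * y)⁻¹ * (y * x) ∈ (T : Subgroup G) :=
    Subgroup.mul_mem _ (Subgroup.inv_mem _ (Subgroup.mul_mem _ hx hy)) (Subgroup.mul_mem _ hy hx)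
  have h4 : (x * y)⁻¹ * (y * x) = 1 := by
    have := (IsPGroup.disjoint_of_ne 2 p (Ne.symm hp2) (T : Subgroup G) P T.2 hPp)
    exact Subgroup.mem_bot.mp (this.le_bot (Subgroup.mem_inf.mpr ⟨h3, h2⟩))
  exact inv_mul_eq_one.mp h4

/-- Thompson's normal `p`-complement theorem, `W(S)` form, numerical version. -/
theorem main (p : ℕ) [Fact p.Prime] (hp2 : p ≠ 2) : ∀ n : ℕ, ∀ (G : Type u) [Group G] [Finite G],
    Nat.card G = n → ∀ S : Sylow p G,
      NPC p ↥(Subgroup.normalizer ((WG p (S : Subgroup G) : Subgroup G) : Set G)) → NPC p G := by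
  intro n
  induction n using Nat.strong_induction_on with
  | _ n ih =>
    intro G _ _ hn S hS
    subst hn
    by_contra hG
    obtain ⟨B, hBn, hBp, hB1⟩ := exists_normal_pgroup ih S hS hG
    have hP : pCore p G ≠ ⊥ := fun h => hB1 (le_bot_iff.mp (h ▸ le_pCore hBn hBp))
    have hq := npc_quot_pCore ih S hS hG hP
    have hR := pPrimeCore_eq_bot ih S hS hG
    have hc := centralizer_pCore_le' hq hR
    have hmax := le_sylow_of_ne_top ih S hS hc
    have hab := abSyl hp2 S hmax hq
    have hst : IsActionPStable p G :=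
      Cfsg.Agent.S0626.result hp2 (fun T => ⟨⟨fun a b => Subtype.ext (hab T a a.2 b b.2)⟩⟩)
    have hWn := Cfsg.Agent.S0624.result hst hc S
    apply hG
    have hWtop : Subgroup.normalizer ((WG p (S : Subgroup G) : Subgroup G) : Set G) = ⊤ :=
      Subgroup.normalizer_eq_top_iff.mpr hWn
    exact npc_of_injective ((MonoidHom.id G).codRestrict _ (fun g => hWtop ▸ Subgroup.mem_top g))
      (fun x y h => congrArg Subtype.val h) hS

end aux

/-- The normal p-complement Theorem of Thompson in the form with W(S): for odd p, G has a normal p-complement as soon as the normalizer of the characteristic subgroup W(S) of a Sylow p-subgroup S has one. -/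
theorem result {G : Type*} [Group G] [Finite G] {p : ℕ} [Fact p.Prime] (hp : p ≠ 2) (S : Sylow p G) (hN : Cfsg.HasNormalPComplement p ↥(Subgroup.normalizer (((Cfsg.stableNormalClosure p ↥(S : Subgroup G)).map (S : Subgroup G).subtype) : Set G))) : Cfsg.HasNormalPComplement p G := by
  rw [← npc_iff_hasNormalPComplement] at hN ⊢
  exact main p hp (Nat.card G) G rfl S hN

end Cfsg.Agent.S0628
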