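import Cfsg.Statements.S0630
import Cfsg.Agent.Lib.Helper30.PLayer

set_option autoImplicit false
open Cfsg
open Cfsg.Agent.Lib.Helper30

namespace Cfsg.Agent.S0630

/-- p-constraint passes to and from the quotient by the largest normal subgroup of order prime to p. -/
theorem result {G : Type*} [Group G] [Finite G] {p : ℕ} [Fact p.Prime] : Cfsg.IsPConstrained p G ↔ Cfsg.IsPConstrained p (G ⧸ Cfsg.pPrimeCore p G) := by
  have h1 : IsPConstrained p G ↔ layer (G ⧸ pPrimeCore p G) = ⊥ :=
    ⟨layer_quotient_of_isPConstrained p, isPConstrained_of_layer_quotient p⟩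
  have h2 : IsPConstrained p (G ⧸ pPrimeCore p G) ↔
      layer ((G ⧸ pPrimeCore p G) ⧸ pPrimeCore p (G ⧸ pPrimeCore p G)) = ⊥ :=
    ⟨layer_quotient_of_isPConstrained p, isPConstrained_of_layer_quotient p⟩
  rw [h1, h2]
  have hbot : pPrimeCore p (G ⧸ pPrimeCore p G) = ⊥ := pPrimeCore_quotient_eq_bot p
  have h3 := layer_map_equiv ((QuotientGroup.quotientMulEquivOfEq hbot).trans
    QuotientGroup.quotientBot)
  constructor
  · intro h
    rw [h, Subgroup.map_eq_bot_iff_of_injective _ (MulEquiv.injective _)] at h3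
    exact h3
  · intro h
    rw [h, Subgroup.map_bot] at h3
    exact h3.symm

end Cfsg.Agent.S0630
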