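import Cfsg.Statements.S0632
import Cfsg.Agent.S3800
import Cfsg.Agent.Lib.Helper32.PConstr
import Cfsg.Agent.Lib.Helper30.PLayer

set_option autoImplicit false
open Cfsg

namespace Cfsg.Agent.S0632

open Cfsg.Agent.Lib.Helper30

variable {G : Type*} [Group G]

/-- internal form of "the image of `A` in `N(P)/C(P)` lies in `O_p`" -/
def Good (p : ℕ) (A P M : Subgroup G) : Prop :=
  M ≤ Subgroup.normalizer (P : Set G) ∧
  Subgroup.normalizer (P : Set G) ≤ Subgroup.normalizer (M : Set G) ∧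
  Subgroup.centralizer (P : Set G) ≤ M ∧
  (∀ m ∈ M, ∃ k : ℕ, m ^ (p ^ k) ∈ Subgroup.centralizer (P : Set G)) ∧
  A ⊓ Subgroup.normalizer (P : Set G) ≤ M

theorem conj_mem_iff_of_mem {H : Subgroup G} {n : G} (hn : n ∈ H) (x : G) :
    x ∈ H ↔ n * x * n⁻¹ ∈ H := by
  constructor
  · intro hx; exact H.mul_mem (H.mul_mem hn hx) (H.inv_mem hn)
  · intro hx
    have : x = n⁻¹ * (n * x * n⁻¹) * n := by group
    rw [this]; exact H.mul_mem (H.mul_mem (H.inv_mem hn) hx) hn

theorem le_normalizer_map_subtype {H : Subgroup G} (K : Subgroup ↥H) [hK : K.Normal] :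
    H ≤ Subgroup.normalizer ((K.map H.subtype : Subgroup G) : Set G) := by
  intro n hn
  rw [Subgroup.mem_normalizer_iff]
  intro x
  constructor
  · rintro ⟨y, hy, rfl⟩
    exact ⟨⟨n, hn⟩ * y * ⟨n, hn⟩⁻¹, hK.conj_mem y hy ⟨n, hn⟩, rfl⟩
  · rintro ⟨y, hy, hyx⟩
    refine ⟨⟨n, hn⟩⁻¹ * y * ⟨n, hn⟩, ?_, ?_⟩
    · have := hK.conj_mem y hy ⟨n, hn⟩⁻¹
      simpa using this
    · have h1 : (y : G) = n * x * n⁻¹ := hyx
      simp only [Subgroup.coe_subtype, Subgroup.coe_mul, Subgroup.coe_inv, h1]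
      group

theorem stab_iff [Finite G] {p : ℕ} [Fact p.Prime] (A P : Subgroup G) :
    ((A.subgroupOf (Subgroup.normalizer (P : Set G))).map
          (QuotientGroup.mk' ((Subgroup.centralizer (P : Set G)).subgroupOf
            (Subgroup.normalizer (P : Set G))))
        ≤ Cfsg.pCore p _) ↔ ∃ M : Subgroup G, Good p A P M := by
  constructor
  · intro h
    have hnorm : ((Cfsg.pCore p (↥(Subgroup.normalizer (P : Set G)) ⧸
        (Subgroup.centralizer (P : Set G)).subgroupOf (Subgroup.normalizer (P : Set G)))).comap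
        (QuotientGroup.mk' ((Subgroup.centralizer (P : Set G)).subgroupOf
            (Subgroup.normalizer (P : Set G))))).Normal :=
      (pCore_normal p _).comap _
    refine ⟨((Cfsg.pCore p (↥(Subgroup.normalizer (P : Set G)) ⧸
        (Subgroup.centralizer (P : Set G)).subgroupOf (Subgroup.normalizer (P : Set G)))).comap
        (QuotientGroup.mk' ((Subgroup.centralizer (P : Set G)).subgroupOf
            (Subgroup.normalizer (P : Set G))))).map (Subgroup.normalizer (P : Set G)).subtype,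
      ?_, ?_, ?_, ?_, ?_⟩
    · rintro _ ⟨y, -, rfl⟩; exact y.2
    · exact le_normalizer_map_subtype _
    · intro c hc
      have hcN : c ∈ Subgroup.normalizer (P : Set G) := Subgroup.centralizer_le_normalizer _ hc
      refine ⟨⟨c, hcN⟩, ?_, rfl⟩
      rw [SetLike.mem_coe, Subgroup.mem_comap]
      have : (QuotientGroup.mk' ((Subgroup.centralizer (P : Set G)).subgroupOf
            (Subgroup.normalizer (P : Set G)))) ⟨c, hcN⟩ = 1 := by
        rw [QuotientGroup.mk'_apply, QuotientGroup.eq_one_iff, Subgroup.mem_subgroupOf]; exact hc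
      rw [this]; exact Subgroup.one_mem _
    · rintro _ ⟨y, hy, rfl⟩
      have hpg : IsPGroup p (Cfsg.pCore p (↥(Subgroup.normalizer (P : Set G)) ⧸
        (Subgroup.centralizer (P : Set G)).subgroupOf (Subgroup.normalizer (P : Set G)))) :=
        pCore_isPGroup p
      obtain ⟨k, hk⟩ := hpg ⟨_, hy⟩
      refine ⟨k, ?_⟩
      have h2 : (QuotientGroup.mk' ((Subgroup.centralizer (P : Set G)).subgroupOf
            (Subgroup.normalizer (P : Set G)))) (y ^ (p ^ k)) = 1 := by
        rw [map_pow]; exact congrArg Subtype.val hk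
      rw [QuotientGroup.mk'_apply, QuotientGroup.eq_one_iff, Subgroup.mem_subgroupOf] at h2
      simpa using h2
    · rintro a ⟨haA, haN⟩
      refine ⟨⟨a, haN⟩, ?_, rfl⟩
      apply h
      exact ⟨⟨a, haN⟩, (by rw [SetLike.mem_coe, Subgroup.mem_subgroupOf]; exact haA), rfl⟩
  · rintro ⟨M, hMN, hNM, hCM, hpow, hAM⟩
    have hM'n : (M.subgroupOf (Subgroup.normalizer (P : Set G))).Normal := by
      constructor
      intro y hy g
      rw [Subgroup.mem_subgroupOf] at hy ⊢
      have := (Subgroup.mem_normalizer_iff.mp (hNM g.2)) y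
      simpa using this.mp hy
    have hM''n : ((M.subgroupOf (Subgroup.normalizer (P : Set G))).map
        (QuotientGroup.mk' ((Subgroup.centralizer (P : Set G)).subgroupOf
            (Subgroup.normalizer (P : Set G))))).Normal :=
      hM'n.map _ (QuotientGroup.mk'_surjective _)
    have hM''p : IsPGroup p ↥((M.subgroupOf (Subgroup.normalizer (P : Set G))).map
        (QuotientGroup.mk' ((Subgroup.centralizer (P : Set G)).subgroupOf
            (Subgroup.normalizer (P : Set G))))) := by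
      rintro ⟨_, y, hy, rfl⟩
      obtain ⟨k, hk⟩ := hpow y.1 hy
      refine ⟨k, ?_⟩
      apply Subtype.ext
      simp only [Subgroup.coe_pow, Subgroup.coe_one]
      rw [← map_pow, QuotientGroup.mk'_apply, QuotientGroup.eq_one_iff, Subgroup.mem_subgroupOf]
      simpa using hk
    refine le_trans ?_ (le_pCore_of_normal hM''n hM''p)
    apply Subgroup.map_mono
    intro y hy
    rw [Subgroup.mem_subgroupOf] at hy ⊢
    exact hAM ⟨hy, y.2⟩

theorem good_comap [Finite G] {p : ℕ} [Fact p.Prime] (N : Subgroup G) [N.Normal]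
    (hN : (Nat.card N).Coprime p) {A P : Subgroup G} (hP : IsPGroup p P)
    {Mb : Subgroup (G ⧸ N)}
    (h : Good p (A.map (QuotientGroup.mk' N)) (P.map (QuotientGroup.mk' N)) Mb) :
    Good p A P (Mb.comap (QuotientGroup.mk' N) ⊓ Subgroup.normalizer (P : Set G)) := by
  obtain ⟨h1, h2, h3, h4, h5⟩ := h
  have hNmap : ∀ n ∈ Subgroup.normalizer (P : Set G), (QuotientGroup.mk' N) n ∈
      Subgroup.normalizer ((P.map (QuotientGroup.mk' N) : Subgroup (G ⧸ N)) : Set (G ⧸ N)) :=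
    fun n hn => Subgroup.le_normalizer_map _ (Subgroup.mem_map_of_mem _ hn)
  refine ⟨inf_le_right, ?_, ?_, ?_, ?_⟩
  · intro n hn
    have hn' := h2 (hNmap n hn)
    rw [Subgroup.mem_normalizer_iff] at hn' ⊢
    intro x
    have e1 := hn' ((QuotientGroup.mk' N) x)
    have e2 := conj_mem_iff_of_mem hn x
    simp only [Subgroup.mem_inf, Subgroup.mem_comap, map_mul, map_inv]
    rw [e1, e2]
  · intro c hc
    refine ⟨?_, Subgroup.centralizer_le_normalizer _ hc⟩
    apply h3
    rw [Subgroup.mem_centralizer_iff]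
    rintro _ ⟨u, hu, rfl⟩
    have := Subgroup.mem_centralizer_iff.mp hc u hu
    rw [← map_mul, ← map_mul, this]
  · rintro m ⟨hm1, hm2⟩
    obtain ⟨k, hk⟩ := h4 _ hm1
    refine ⟨k, ?_⟩
    have hg : m ^ (p ^ k) ∈ Subgroup.normalizer (P : Set G) := Subgroup.pow_mem _ hm2 _
    rw [Subgroup.mem_centralizer_iff]
    intro x hx
    have hc1 : m ^ (p ^ k) * x * (m ^ (p ^ k))⁻¹ ∈ P :=
      (Subgroup.mem_normalizer_iff.mp hg x).mp hx
    have hc2 : m ^ (p ^ k) * x * (m ^ (p ^ k))⁻¹ * x⁻¹ ∈ P := P.mul_mem hc1 (P.inv_mem hx)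
    have hc3 : m ^ (p ^ k) * x * (m ^ (p ^ k))⁻¹ * x⁻¹ ∈ N := by
      rw [← QuotientGroup.eq_one_iff]
      have h6 := Subgroup.mem_centralizer_iff.mp hk ((QuotientGroup.mk' N) x)
        (Subgroup.mem_map_of_mem _ hx)
      have h7 : (QuotientGroup.mk' N) (m ^ (p ^ k) * x * (m ^ (p ^ k))⁻¹ * x⁻¹) = 1 := by
        rw [map_mul, map_mul, map_mul, map_inv, map_inv, map_pow, ← h6]
        group
      exact h7
    have h8 := Cfsg.Agent.Lib.Helper32.eq_one_of_mem_of_mem hP hN hc2 hc3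
    have h9 : m ^ (p ^ k) * x = x * m ^ (p ^ k) := by
      have : m ^ (p ^ k) * x = (m ^ (p ^ k) * x * (m ^ (p ^ k))⁻¹ * x⁻¹) * (x * m ^ (p ^ k)) := by
        group
      rw [this, h8, one_mul]
    exact h9.symm
  · rintro a ⟨ha, haN⟩
    exact ⟨h5 ⟨Subgroup.mem_map_of_mem _ ha, hNmap a haN⟩, haN⟩

theorem good_map [Finite G] {p : ℕ} [Fact p.Prime] (N : Subgroup G) [N.Normal]
    (hN : (Nat.card N).Coprime p) {A P M : Subgroup G} (hP : IsPGroup p P)
    (hAP : A ≤ Subgroup.normalizer (P : Set G)) (h : Good p A P M) :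
    Good p (A.map (QuotientGroup.mk' N)) (P.map (QuotientGroup.mk' N))
      (M.map (QuotientGroup.mk' N)) := by
  obtain ⟨h1, h2, h3, h4, h5⟩ := h
  obtain ⟨hNeq, hCeq⟩ := Cfsg.Agent.S3800.result N hN P hP
  refine ⟨?_, ?_, ?_, ?_, ?_⟩
  · rw [hNeq]; exact Subgroup.map_mono h1
  · rw [hNeq]
    rintro _ ⟨n, hn, rfl⟩
    exact Subgroup.le_normalizer_map _ (Subgroup.mem_map_of_mem _ (h2 hn))
  · rw [hCeq]; exact Subgroup.map_mono h3
  · rintro _ ⟨m, hm, rfl⟩
    obtain ⟨k, hk⟩ := h4 m hm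
    refine ⟨k, ?_⟩
    rw [hCeq, ← map_pow]; exact Subgroup.mem_map_of_mem _ hk
  · refine le_trans inf_le_left (Subgroup.map_mono ?_)
    exact le_trans (le_inf le_rfl hAP) h5

/-- For a group with a nontrivial normal p-subgroup, p-stability passes to and from the quotient by the largest normal subgroup of order prime to p. -/
theorem result {G : Type*} [Group G] [Finite G] {p : ℕ} [Fact p.Prime] (hO : Cfsg.pCore p G ≠ ⊥) : Cfsg.IsPStable p G ↔ Cfsg.IsPStable p (G ⧸ Cfsg.pPrimeCore p G) := by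
  have hpr := (Fact.out : p.Prime)
  have hNc : (Nat.card (Cfsg.pPrimeCore p G)).Coprime p := pPrimeCore_coprime p
  have hbot : Cfsg.pPrimeCore p (G ⧸ Cfsg.pPrimeCore p G) = ⊥ := pPrimeCore_quotient_eq_bot p
  have hsurj := QuotientGroup.mk'_surjective (Cfsg.pPrimeCore p G)
  constructor
  · rintro ⟨hodd, -, hst⟩
    refine ⟨hodd, ?_, ?_⟩
    · intro hb
      apply hO
      rw [eq_bot_iff]
      intro x hx
      have h1 : (QuotientGroup.mk' (Cfsg.pPrimeCore p G)) x ∈ Cfsg.pCore p (G ⧸ Cfsg.pPrimeCore p G) :=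
        le_pCore_of_normal ((pCore_normal p G).map _ hsurj) ((pCore_isPGroup p).map _)
          (Subgroup.mem_map_of_mem _ hx)
      rw [hb, Subgroup.mem_bot, QuotientGroup.mk'_apply, QuotientGroup.eq_one_iff] at h1
      rw [Subgroup.mem_bot]
      exact Cfsg.Agent.Lib.Helper32.eq_one_of_mem_of_mem (pCore_isPGroup p) hNc hx h1
    · intro Ab Pb hAb hPb hnorm hPle hnormal hcomm
      rw [hbot, bot_sup_eq] at hnormal
      have hQb : IsPGroup p ↥(Ab ⊔ Pb) := IsPGroup.to_sup_of_normal_right hAb hPb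
      obtain ⟨S₀⟩ : Nonempty (Sylow p ↥((Ab ⊔ Pb).comap (QuotientGroup.mk' (Cfsg.pPrimeCore p G)))) :=
        inferInstance
      have hS := Cfsg.Agent.Lib.Helper32.map_sylow_comap (Cfsg.pPrimeCore p G) hNc hQb S₀
      obtain ⟨S, hSdef⟩ : ∃ S : Subgroup G, S = (S₀ : Subgroup ↥((Ab ⊔ Pb).comap
        (QuotientGroup.mk' (Cfsg.pPrimeCore p G)))).map ((Ab ⊔ Pb).comap
        (QuotientGroup.mk' (Cfsg.pPrimeCore p G))).subtype := ⟨_, rfl⟩
      rw [← hSdef] at hS
      have hSp : IsPGroup p ↥S := hSdef ▸ S₀.2.map _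
      have hAmap : (S ⊓ Ab.comap (QuotientGroup.mk' (Cfsg.pPrimeCore p G))).map
          (QuotientGroup.mk' (Cfsg.pPrimeCore p G)) = Ab := by
        apply le_antisymm
        · rw [Subgroup.map_le_iff_le_comap]; exact inf_le_right
        · intro a ha
          have : a ∈ S.map (QuotientGroup.mk' (Cfsg.pPrimeCore p G)) := by
            rw [hS]; exact Subgroup.mem_sup_left ha
          obtain ⟨s, hs, rfl⟩ := this
          exact ⟨s, ⟨hs, ha⟩, rfl⟩
      have hPmap : (S ⊓ Pb.comap (QuotientGroup.mk' (Cfsg.pPrimeCore p G))).map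
          (QuotientGroup.mk' (Cfsg.pPrimeCore p G)) = Pb := by
        apply le_antisymm
        · rw [Subgroup.map_le_iff_le_comap]; exact inf_le_right
        · intro a ha
          have : a ∈ S.map (QuotientGroup.mk' (Cfsg.pPrimeCore p G)) := by
            rw [hS]; exact Subgroup.mem_sup_right ha
          obtain ⟨s, hs, rfl⟩ := this
          exact ⟨s, ⟨hs, ha⟩, rfl⟩
      have hA : IsPGroup p ↥(S ⊓ Ab.comap (QuotientGroup.mk' (Cfsg.pPrimeCore p G))) :=
        hSp.to_le inf_le_left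
      have hP : IsPGroup p ↥(S ⊓ Pb.comap (QuotientGroup.mk' (Cfsg.pPrimeCore p G))) :=
        hSp.to_le inf_le_left
      have hnorm' : ∀ a ∈ S ⊓ Ab.comap (QuotientGroup.mk' (Cfsg.pPrimeCore p G)),
          ∀ x ∈ S ⊓ Pb.comap (QuotientGroup.mk' (Cfsg.pPrimeCore p G)),
          a * x * a⁻¹ ∈ S ⊓ Pb.comap (QuotientGroup.mk' (Cfsg.pPrimeCore p G)) := by
        rintro a ⟨haS, haA⟩ x ⟨hxS, hxP⟩
        refine ⟨S.mul_mem (S.mul_mem haS hxS) (S.inv_mem haS), ?_⟩
        have h0 := hnorm _ haA _ hxP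
        rw [← map_inv, ← map_mul, ← map_mul] at h0
        exact h0
      have hPle' : S ⊓ Pb.comap (QuotientGroup.mk' (Cfsg.pPrimeCore p G)) ≤ Cfsg.pPrimePCore p G := by
        rintro x ⟨-, hxP⟩
        exact le_pCore_of_normal hnormal hPb hxP
      have hnormal' : (Cfsg.pPrimeCore p G ⊔
          (S ⊓ Pb.comap (QuotientGroup.mk' (Cfsg.pPrimeCore p G)))).Normal := by
        have e : Cfsg.pPrimeCore p G ⊔ (S ⊓ Pb.comap (QuotientGroup.mk' (Cfsg.pPrimeCore p G))) =
            Pb.comap (QuotientGroup.mk' (Cfsg.pPrimeCore p G)) := by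
          conv_rhs => rw [← hPmap]
          rw [Subgroup.comap_map_eq, QuotientGroup.ker_mk', sup_comm]
        rw [e]
        exact hnormal.comap _
      have hcomm' : ⁅⁅S ⊓ Pb.comap (QuotientGroup.mk' (Cfsg.pPrimeCore p G)),
          S ⊓ Ab.comap (QuotientGroup.mk' (Cfsg.pPrimeCore p G))⁆,
          S ⊓ Ab.comap (QuotientGroup.mk' (Cfsg.pPrimeCore p G))⁆ = ⊥ := by
        rw [eq_bot_iff]
        intro x hx
        have hxS : x ∈ S := by
          have h1 : ⁅⁅S ⊓ Pb.comap (QuotientGroup.mk' (Cfsg.pPrimeCore p G)),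
            S ⊓ Ab.comap (QuotientGroup.mk' (Cfsg.pPrimeCore p G))⁆,
            S ⊓ Ab.comap (QuotientGroup.mk' (Cfsg.pPrimeCore p G))⁆ ≤ ⁅⁅S, S⁆, S⁆ :=
            Subgroup.commutator_mono (Subgroup.commutator_mono inf_le_left inf_le_left) inf_le_left
          have h2 : ⁅⁅S, S⁆, S⁆ ≤ S :=
            le_trans (Subgroup.commutator_mono (commutator_self_le S) le_rfl) (commutator_self_le S)
          exact h2 (h1 hx)
        have hxN : x ∈ Cfsg.pPrimeCore p G := by
          have h3 : (⁅⁅S ⊓ Pb.comap (QuotientGroup.mk' (Cfsg.pPrimeCore p G)),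
            S ⊓ Ab.comap (QuotientGroup.mk' (Cfsg.pPrimeCore p G))⁆,
            S ⊓ Ab.comap (QuotientGroup.mk' (Cfsg.pPrimeCore p G))⁆).map
            (QuotientGroup.mk' (Cfsg.pPrimeCore p G)) = ⊥ := by
            rw [Subgroup.map_commutator, Subgroup.map_commutator, hAmap, hPmap, hcomm]
          have h4 := (Subgroup.map_eq_bot_iff _).mp h3
          rw [QuotientGroup.ker_mk'] at h4
          exact h4 hx
        rw [Subgroup.mem_bot]
        exact Cfsg.Agent.Lib.Helper32.eq_one_of_mem_of_mem hSp hNc hxS hxN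
      have hAP : S ⊓ Ab.comap (QuotientGroup.mk' (Cfsg.pPrimeCore p G)) ≤
          Subgroup.normalizer ((S ⊓ Pb.comap (QuotientGroup.mk' (Cfsg.pPrimeCore p G)) : Subgroup G) : Set G) := by
        intro a ha
        rw [Subgroup.mem_normalizer_iff]
        intro x
        constructor
        · intro hx; exact hnorm' a ha x hx
        · intro hx
          have := hnorm' a⁻¹ (Subgroup.inv_mem _ ha) _ hx
          simpa [mul_assoc] using this
      obtain ⟨M, hM⟩ := (stab_iff _ _).mp (hst _ _ hA hP hnorm' hPle' hnormal' hcomm')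
      have hgood := good_map (Cfsg.pPrimeCore p G) hNc hP hAP hM
      rw [hAmap, hPmap] at hgood
      exact (stab_iff Ab Pb).mpr ⟨_, hgood⟩
  · rintro ⟨hodd, -, hst⟩
    refine ⟨hodd, hO, ?_⟩
    intro A P hA hP hnorm hPle hnormal hcomm
    have hAb : IsPGroup p ↥(A.map (QuotientGroup.mk' (Cfsg.pPrimeCore p G))) := hA.map _
    have hPb : IsPGroup p ↥(P.map (QuotientGroup.mk' (Cfsg.pPrimeCore p G))) := hP.map _
    have hnorm' : ∀ a ∈ A.map (QuotientGroup.mk' (Cfsg.pPrimeCore p G)),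
        ∀ x ∈ P.map (QuotientGroup.mk' (Cfsg.pPrimeCore p G)),
        a * x * a⁻¹ ∈ P.map (QuotientGroup.mk' (Cfsg.pPrimeCore p G)) := by
      rintro _ ⟨a, ha, rfl⟩ _ ⟨x, hx, rfl⟩
      exact ⟨a * x * a⁻¹, hnorm a ha x hx, by simp⟩
    have hPle' : P.map (QuotientGroup.mk' (Cfsg.pPrimeCore p G)) ≤
        Cfsg.pPrimePCore p (G ⧸ Cfsg.pPrimeCore p G) := by
      rintro _ ⟨x, hx, rfl⟩
      have h1 : (QuotientGroup.mk' (Cfsg.pPrimeCore p G)) x ∈ Cfsg.pCore p (G ⧸ Cfsg.pPrimeCore p G) :=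
        hPle hx
      exact le_pCore_of_normal ((pCore_normal p _).map _ (QuotientGroup.mk'_surjective _))
        ((pCore_isPGroup p).map _) (Subgroup.mem_map_of_mem _ h1)
    have hnormal' : (Cfsg.pPrimeCore p (G ⧸ Cfsg.pPrimeCore p G) ⊔
        P.map (QuotientGroup.mk' (Cfsg.pPrimeCore p G))).Normal := by
      rw [hbot, bot_sup_eq]
      have e : P.map (QuotientGroup.mk' (Cfsg.pPrimeCore p G)) =
          (Cfsg.pPrimeCore p G ⊔ P).map (QuotientGroup.mk' (Cfsg.pPrimeCore p G)) := by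
        rw [Subgroup.map_sup, QuotientGroup.map_mk'_self, bot_sup_eq]
      rw [e]
      exact hnormal.map _ hsurj
    have hcomm' : ⁅⁅P.map (QuotientGroup.mk' (Cfsg.pPrimeCore p G)),
        A.map (QuotientGroup.mk' (Cfsg.pPrimeCore p G))⁆,
        A.map (QuotientGroup.mk' (Cfsg.pPrimeCore p G))⁆ = ⊥ := by
      rw [← Subgroup.map_commutator, ← Subgroup.map_commutator, hcomm, Subgroup.map_bot]
    obtain ⟨Mb, hMb⟩ := (stab_iff _ _).mp (hst _ _ hAb hPb hnorm' hPle' hnormal' hcomm')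
    exact (stab_iff A P).mpr ⟨_, good_comap (Cfsg.pPrimeCore p G) hNc hP hMb⟩

end Cfsg.Agent.S0632
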