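import Cfsg.Statements.S0634
import Cfsg.Agent.S0629
import Cfsg.Agent.Lib.Helper31.PComp
import Cfsg.Agent.Lib.Helper34.PLen

set_option autoImplicit false
open Cfsg
open Cfsg.Agent.Lib.Helper30

namespace Cfsg.Agent.S0634

/-- If `V / N = O_{p'}(G / N)` then `O_{p'}(G / V) = 1`. -/
theorem pPrimeCore_quotient_eq_bot_of_eq {G : Type*} [Group G] [Finite G] (p : ℕ)
    (N : Subgroup G) [N.Normal] (V : Subgroup G) [V.Normal]
    (hV : V = (pPrimeCore p (G ⧸ N)).comap (QuotientGroup.mk' N)) :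
    pPrimeCore p (G ⧸ V) = ⊥ := by
  have hTc : (Nat.card (pPrimeCore p (G ⧸ V))).Coprime p := pPrimeCore_coprime p
  have hOc : (Nat.card (pPrimeCore p (G ⧸ N))).Coprime p := pPrimeCore_coprime p
  have hNV : N ≤ V := by
    rw [hV]
    intro x hx
    rw [Subgroup.mem_comap]
    have h : QuotientGroup.mk' N x = 1 := (QuotientGroup.eq_one_iff x).mpr hx
    rw [h]; exact one_mem _
  have hVT : V ≤ (pPrimeCore p (G ⧸ V)).comap (QuotientGroup.mk' V) := by
    intro x hx
    rw [Subgroup.mem_comap]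
    have h : QuotientGroup.mk' V x = 1 := (QuotientGroup.eq_one_iff x).mpr hx
    rw [h]; exact one_mem _
  have hcardT' := card_comap_mk' V (pPrimeCore p (G ⧸ V))
  have hcardV : Nat.card V = Nat.card N * Nat.card (pPrimeCore p (G ⧸ N)) := by
    rw [hV]; exact card_comap_mk' N _
  have hmapcard := Cfsg.Agent.Lib.Helper31.card_eq_card_ker_mul_card_map (QuotientGroup.mk' N)
    ((pPrimeCore p (G ⧸ V)).comap (QuotientGroup.mk' V))
    (by rw [QuotientGroup.ker_mk']; exact hNV.trans hVT)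
  rw [QuotientGroup.ker_mk', hcardT', hcardV, mul_assoc] at hmapcard
  have hNpos : 0 < Nat.card N := Nat.card_pos
  have hcard : Nat.card (((pPrimeCore p (G ⧸ V)).comap (QuotientGroup.mk' V)).map
      (QuotientGroup.mk' N)) = Nat.card (pPrimeCore p (G ⧸ N)) * Nat.card (pPrimeCore p (G ⧸ V)) :=
    (Nat.eq_of_mul_eq_mul_left hNpos hmapcard).symm
  have hcop : (Nat.card (((pPrimeCore p (G ⧸ V)).comap (QuotientGroup.mk' V)).map
      (QuotientGroup.mk' N))).Coprime p := by
    rw [hcard]; exact Nat.Coprime.mul_left hOc hTc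
  have hnorm : (((pPrimeCore p (G ⧸ V)).comap (QuotientGroup.mk' V)).map
      (QuotientGroup.mk' N)).Normal :=
    Subgroup.Normal.map inferInstance _ (QuotientGroup.mk'_surjective N)
  have hle : ((pPrimeCore p (G ⧸ V)).comap (QuotientGroup.mk' V)).map (QuotientGroup.mk' N)
      ≤ pPrimeCore p (G ⧸ N) := le_sSup ⟨hnorm, hcop⟩
  rw [Subgroup.map_le_iff_le_comap, ← hV] at hle
  have h3 := Subgroup.map_mono (f := QuotientGroup.mk' V) hle
  rw [Subgroup.map_comap_eq_self_of_surjective (QuotientGroup.mk'_surjective V),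
    QuotientGroup.map_mk'_self] at h3
  exact le_bot_iff.mp h3

/-- In a p-soluble group each p-factor of the upper p-series contains its own centralizer in the corresponding quotient. -/
theorem result {G : Type*} [Group G] [Finite G] {p : ℕ} [Fact p.Prime] (hsol : Cfsg.IsPSolvable p G) (k : ℕ) : Subgroup.centralizer ((((Cfsg.upperPSeries p G (2 * k + 2)).1.map (QuotientGroup.mk' (Cfsg.upperPSeries p G (2 * k + 1)).1)) : Subgroup (G ⧸ (Cfsg.upperPSeries p G (2 * k + 1)).1)) : Set (G ⧸ (Cfsg.upperPSeries p G (2 * k + 1)).1)) ≤ (Cfsg.upperPSeries p G (2 * k + 2)).1.map (QuotientGroup.mk' (Cfsg.upperPSeries p G (2 * k + 1)).1) := by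
  have hodd : ¬ Even (2 * k + 1) := by
    rw [Nat.not_even_iff_odd]; exact ⟨k, rfl⟩
  have heven : Even (2 * k) := ⟨k, by ring⟩
  have h1 : (upperPSeries p G (2 * k + 2)).1 =
      (pCore p (G ⧸ (upperPSeries p G (2 * k + 1)).1)).comap (QuotientGroup.mk' _) :=
    Cfsg.Agent.Lib.Helper34.upperPSeries_succ_odd p (2 * k + 1) hodd
  have h2 : (upperPSeries p G (2 * k + 1)).1 =
      (pPrimeCore p (G ⧸ (upperPSeries p G (2 * k)).1)).comap (QuotientGroup.mk' _) :=
    Cfsg.Agent.Lib.Helper34.upperPSeries_succ_even p (2 * k) heven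
  rw [h1, Subgroup.map_comap_eq_self_of_surjective (QuotientGroup.mk'_surjective _)]
  apply Cfsg.Agent.Lib.Helper40.centralizer_pCore_le
  · exact Cfsg.Agent.S0629.isPSolvable_of_surjective p (QuotientGroup.mk' _)
      (QuotientGroup.mk'_surjective _) hsol
  · exact pPrimeCore_quotient_eq_bot_of_eq p (upperPSeries p G (2 * k)).1
      (upperPSeries p G (2 * k + 1)).1 h2

end Cfsg.Agent.S0634
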