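import Cfsg.Statements.S0635
import Cfsg.Agent.S0634

set_option autoImplicit false
open Cfsg
open Cfsg.Agent.Lib.Helper30
open scoped commutatorElement

namespace Cfsg.Agent.S0635

/-- The p-length of a p-soluble group is at most the nilpotency class of its Sylow p-subgroups. -/
theorem result {G : Type*} [Group G] [Finite G] {p : ℕ} [Fact p.Prime] (hsol : Cfsg.IsPSolvable p G) (S : Sylow p G) : Cfsg.PLengthLE p (Group.nilpotencyClass ↥(S : Subgroup G)) G := by
  have hp : p.Prime := Fact.out
  have hnil : Group.IsNilpotent ↥(S : Subgroup G) := S.isPGroup'.isNilpotent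
  have key : ∀ k : ℕ, (Subgroup.upperCentralSeries ↥(S : Subgroup G) k).map (S : Subgroup G).subtype
      ≤ (upperPSeries p G (2 * k)).1 := by
    intro k
    induction k with
    | zero => simp
    | succ k ih =>
      have hodd : ¬ Even (2 * k + 1) := by
        rw [Nat.not_even_iff_odd]; exact ⟨k, rfl⟩
      have h1 : (upperPSeries p G (2 * k + 2)).1 =
          (pCore p (G ⧸ (upperPSeries p G (2 * k + 1)).1)).comap (QuotientGroup.mk' _) :=
        Cfsg.Agent.Lib.Helper34.upperPSeries_succ_odd p (2 * k + 1) hodd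
      have hS634 := Cfsg.Agent.S0634.result hsol k
      rw [h1, Subgroup.map_comap_eq_self_of_surjective (QuotientGroup.mk'_surjective _)] at hS634
      rintro _ ⟨z, hz, rfl⟩
      have e : 2 * (k + 1) = 2 * k + 2 := by ring
      rw [e, h1, Subgroup.mem_comap]
      apply hS634
      rw [Subgroup.mem_centralizer_iff]
      intro q hq
      have hqS : q ∈ (S : Subgroup G).map (QuotientGroup.mk' (upperPSeries p G (2 * k + 1)).1) := by
        have h := (pCore_isPGroup p (G := G ⧸ (upperPSeries p G (2 * k + 1)).1)).le_sylow_of_normal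
          (S.mapSurjective (QuotientGroup.mk'_surjective (upperPSeries p G (2 * k + 1)).1)) hq
        exact h
      obtain ⟨s, hs, rfl⟩ := hqS
      have hcomm : ⁅z, (⟨s, hs⟩ : ↥(S : Subgroup G))⁆ ∈ Subgroup.upperCentralSeries ↥(S : Subgroup G) k :=
        (Subgroup.mem_upperCentralSeries_succ_iff.mp hz) ⟨s, hs⟩
      have h2 : ((⁅z, (⟨s, hs⟩ : ↥(S : Subgroup G))⁆ : ↥(S : Subgroup G)) : G)
          ∈ (upperPSeries p G (2 * k)).1 := ih (Subgroup.mem_map_of_mem _ hcomm)
      have h3 : ((⁅z, (⟨s, hs⟩ : ↥(S : Subgroup G))⁆ : ↥(S : Subgroup G)) : G)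
          ∈ (upperPSeries p G (2 * k + 1)).1 :=
        Cfsg.Agent.Lib.Helper34.upperPSeries_le_succ p (2 * k) h2
      have h4 : (QuotientGroup.mk' (upperPSeries p G (2 * k + 1)).1)
          ((z : G) * s * (z : G)⁻¹ * s⁻¹) = 1 := by
        apply (QuotientGroup.eq_one_iff _).mpr
        have e2 : ((⁅z, (⟨s, hs⟩ : ↥(S : Subgroup G))⁆ : ↥(S : Subgroup G)) : G)
            = (z : G) * s * (z : G)⁻¹ * s⁻¹ := by
          rw [commutatorElement_def]; simp
        rw [← e2]; exact h3
      have h5 : (QuotientGroup.mk' (upperPSeries p G (2 * k + 1)).1) ((z : G) * s)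
          = (QuotientGroup.mk' (upperPSeries p G (2 * k + 1)).1) (s * (z : G)) := by
        have e3 : (z : G) * s = ((z : G) * s * (z : G)⁻¹ * s⁻¹) * (s * (z : G)) := by group
        rw [e3, map_mul, h4, one_mul]
      rw [map_mul, map_mul] at h5
      exact h5.symm
  have htop := key (Group.nilpotencyClass ↥(S : Subgroup G))
  rw [Subgroup.upperCentralSeries_nilpotencyClass, ← MonoidHom.range_eq_map,
    Subgroup.range_subtype] at htop
  unfold PLengthLE
  have heven : Even (2 * Group.nilpotencyClass ↥(S : Subgroup G)) := ⟨_, by ring⟩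
  rw [Cfsg.Agent.Lib.Helper34.upperPSeries_succ_even p _ heven]
  have hcop : (Nat.card (G ⧸ (upperPSeries p G (2 * Group.nilpotencyClass ↥(S : Subgroup G))).1)).Coprime p := by
    rw [← Subgroup.index_eq_card]
    have h1 := Subgroup.index_dvd_of_le htop
    have h2 : ¬ p ∣ (S : Subgroup G).index := S.not_dvd_index
    exact ((Nat.Prime.coprime_iff_not_dvd hp).2 (fun h => h2 (h.trans h1))).symm
  have htop2 : pPrimeCore p (G ⧸ (upperPSeries p G (2 * Group.nilpotencyClass ↥(S : Subgroup G))).1) = ⊤ := by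
    apply top_le_iff.mp
    apply le_sSup
    refine ⟨inferInstance, ?_⟩
    rw [Subgroup.card_top]; exact hcop
  rw [htop2, Subgroup.comap_top]

end Cfsg.Agent.S0635
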