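import Cfsg.Statements.S0638
import Cfsg.Agent.Lib.Helper15.CyclicIndexP

set_option autoImplicit false
open Cfsg

namespace Cfsg.Agent.S0638

open Cfsg.Agent.Lib.Helper15

/-- For odd p, in a non-cyclic metacyclic p-group the elements of order dividing p generate an elementary abelian subgroup of order p². -/
theorem result {R : Type*} [Group R] [Finite R] {p : ℕ} [Fact p.Prime] (hp : p ≠ 2) (hR : IsPGroup p R) (hm : Cfsg.IsMetacyclic R) (hnc : ¬ IsCyclic R) : Cfsg.IsElementaryAbelian p (Cfsg.omegaOne p (⊤ : Subgroup R)) ∧ Nat.card ↥(Cfsg.omegaOne p (⊤ : Subgroup R)) = p ^ 2 := by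
  classical
  have hpp : p.Prime := Fact.out
  obtain ⟨N, hNn, hNc, hQc⟩ := hm
  let K : Subgroup (R ⧸ N) :=
    { carrier := {y | y ^ p = 1}
      one_mem' := one_pow p
      mul_mem' := fun {a b} ha hb => by
        rw [Set.mem_ofPred_eq] at *
        rw [(show Commute a b from mul_comm' a b).mul_pow, ha, hb, one_mul]
      inv_mem' := fun {a} ha => by
        rw [Set.mem_ofPred_eq] at *
        rw [inv_pow, ha, inv_one] }
  have hKmem : ∀ y : R ⧸ N, y ∈ K ↔ y ^ p = 1 := fun y => Iff.rfl
  have hKcard : Nat.card K ≤ p := by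
    let _ : Fintype (R ⧸ N) := Fintype.ofFinite _
    have h1 := IsCyclic.card_pow_eq_one_le (α := R ⧸ N) (n := p) hpp.pos
    have h2 : Nat.card K = (Finset.univ.filter (fun a : R ⧸ N => a ^ p = 1)).card := by
      rw [Nat.card_eq_fintype_card, ← Fintype.card_subtype]
      exact Fintype.card_congr (Equiv.refl _)
    rw [h2]; exact h1
  obtain ⟨M, hM⟩ : ∃ M, M = K.comap (QuotientGroup.mk' N) := ⟨_, rfl⟩
  have hMmem : ∀ x : R, x ^ p = 1 → x ∈ M := by
    intro x hx
    rw [hM, Subgroup.mem_comap, hKmem]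
    change (QuotientGroup.mk x : R ⧸ N) ^ p = 1
    rw [← QuotientGroup.mk_pow, hx]; rfl
  have hNM : N ≤ M := by
    intro x hx
    rw [hM, Subgroup.mem_comap]
    have h1 : QuotientGroup.mk' N x = 1 := (QuotientGroup.eq_one_iff x).mpr hx
    rw [h1]; exact Subgroup.one_mem _
  have hrelK : N.relIndex M = Nat.card K := by
    have h1 : N = (⊥ : Subgroup (R ⧸ N)).comap (QuotientGroup.mk' N) := by
      rw [MonoidHom.comap_bot, QuotientGroup.ker_mk']
    conv_lhs => rw [h1]
    rw [hM, Subgroup.relIndex_comap,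
      Subgroup.map_comap_eq_self_of_surjective (QuotientGroup.mk'_surjective N),
      Subgroup.relIndex_bot_left]
  have htopnc : ¬ IsCyclic (⊤ : Subgroup R) := fun h =>
    hnc ((Subgroup.topEquiv (G := R)).isCyclic.mp h)
  obtain ⟨E, -, -, ⟨hEc, hEp⟩, hEcard⟩ := exists_normal_elementary_abelian_sq hp hR ⊤ htopnc
  have hEM : E ≤ M := fun x hx => hMmem x (hEp x hx)
  have hMnc : ¬ IsCyclic M := by
    intro hMc
    have hEcyc : IsCyclic E := Subgroup.isCyclic_of_le hEM
    obtain ⟨g, hg⟩ := hEcyc.exists_generator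
    have h1 : orderOf g = p ^ 2 := by
      rw [orderOf_eq_card_of_forall_mem_zpowers hg, hEcard]
    have h2 : g ^ p = 1 := Subtype.ext (by simpa using hEp g g.2)
    have h3 : p ^ 2 ∣ p := by rw [← h1]; exact orderOf_dvd_of_pow_eq_one h2
    have h4 := Nat.le_of_dvd hpp.pos h3
    have h5 : p < p ^ 2 := by
      calc p = p ^ 1 := (pow_one p).symm
        _ < p ^ 2 := Nat.pow_lt_pow_right hpp.one_lt (by norm_num)
    omega
  have hrel : N.relIndex M = p := by
    rw [hrelK]
    have hKp : IsPGroup p K := (hR.to_quotient N).to_subgroup K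
    obtain ⟨j, hj⟩ := IsPGroup.iff_card.mp hKp
    rcases j with _ | _ | j
    · exfalso
      apply hMnc
      have h1 : N.relIndex M = 1 := by rw [hrelK, hj, pow_zero]
      have h2 : M ≤ N := Subgroup.relIndex_eq_one.mp h1
      have h3 : M = N := le_antisymm h2 hNM
      rw [h3]; exact hNc
    · rw [hj]; simp
    · exfalso
      rw [hj] at hKcard
      have h5 : p ^ 1 < p ^ (j + 1 + 1) := Nat.pow_lt_pow_right hpp.one_lt (by omega)
      rw [pow_one] at h5
      omega
  have hCcyc : IsCyclic (N.subgroupOf M) := (Subgroup.subgroupOfEquivOfLe hNM).isCyclic.mpr hNc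
  obtain ⟨φ, hφ, hker⟩ := exists_pow_hom hp (hR.to_subgroup M) (N.subgroupOf M) hCcyc hrel
  have hcardker := hker hMnc
  have hΩ : Cfsg.omegaOne p (⊤ : Subgroup R) = φ.ker.map M.subtype := by
    apply le_antisymm
    · apply (Subgroup.closure_le _).mpr
      rintro x ⟨-, hx⟩
      refine ⟨⟨x, hMmem x hx⟩, ?_, rfl⟩
      apply MonoidHom.mem_ker.mpr
      rw [hφ]
      exact Subtype.ext (by simpa using hx)
    · rintro _ ⟨x, hx, rfl⟩
      apply Subgroup.subset_closure
      have hx1 : φ x = 1 := MonoidHom.mem_ker.mp hx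
      rw [hφ] at hx1
      exact ⟨Subgroup.mem_top _, by simpa using congrArg Subtype.val hx1⟩
  rw [hΩ]
  refine ⟨⟨?_, ?_⟩, ?_⟩
  · apply IsPGroup.isMulCommutative_of_card_eq_prime_sq (p := p)
    rw [Subgroup.card_map_of_injective M.subtype_injective, hcardker]
  · rintro _ ⟨x, hx, rfl⟩
    have hx1 : φ x = 1 := MonoidHom.mem_ker.mp hx
    rw [hφ] at hx1
    simpa using congrArg Subtype.val hx1
  · rw [Subgroup.card_map_of_injective M.subtype_injective, hcardker]

end Cfsg.Agent.S0638
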