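import Cfsg.Statements.S0642
import Mathlib

set_option autoImplicit false
open Cfsg
open scoped commutatorElement

namespace Cfsg.Agent.S0642

/-- Among finite 2-groups the regular ones are exactly the abelian ones. -/
theorem result {G : Type*} [Group G] [Finite G] (hG : IsPGroup 2 G) : Cfsg.IsRegularPGroup 2 G ↔ ∀ a b : G, a * b = b * a := by
  classical
  have : Fact (Nat.Prime 2) := ⟨Nat.prime_two⟩
  constructor
  · rintro ⟨-, h⟩
    have hDn : (commutator G).Normal := inferInstance
    -- the subgroup generated by squares of elements of the commutator subgroup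
    have hnorm : ∀ g n : G, n ∈ Subgroup.closure {z : G | ∃ w ∈ commutator G, z = w ^ 2} →
        g * n * g⁻¹ ∈ Subgroup.closure {z : G | ∃ w ∈ commutator G, z = w ^ 2} := by
      intro g n hn
      have hle : (Subgroup.closure {z : G | ∃ w ∈ commutator G, z = w ^ 2}).map
          (MulAut.conj g).toMonoidHom ≤
          Subgroup.closure {z : G | ∃ w ∈ commutator G, z = w ^ 2} := by
        rw [MonoidHom.map_closure]
        apply (Subgroup.closure_le _).mpr
        rintro _ ⟨z, ⟨w, hw, rfl⟩, rfl⟩
        apply Subgroup.subset_closure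
        refine ⟨g * w * g⁻¹, hDn.conj_mem w hw g, ?_⟩
        simp [conj_pow]
      exact hle ⟨n, hn, by simp⟩
    have key : ∀ x y : G, ⁅x, y⁆ ∈ Subgroup.closure {z : G | ∃ w ∈ commutator G, z = w ^ 2} := by
      intro x y
      obtain ⟨c, hc, hab⟩ := h y⁻¹ x⁻¹ 1
      have hc' : c ∈ Subgroup.closure {z : G | ∃ w ∈ commutator G, z = w ^ 2} := by
        have hmono : Cfsg.powerClosure 2 1 ⁅Subgroup.closure ({y⁻¹, x⁻¹} : Set G),
            Subgroup.closure ({y⁻¹, x⁻¹} : Set G)⁆ ≤
            Subgroup.closure {z : G | ∃ w ∈ commutator G, z = w ^ 2} := by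
          apply Subgroup.closure_mono
          rintro z ⟨w, hw, rfl⟩
          refine ⟨w, ?_, by norm_num⟩
          rw [commutator_def]
          exact Subgroup.commutator_mono le_top le_top hw
        exact hmono hc
      have hcx : ⁅x, y⁆ = x⁻¹ * c * x⁻¹⁻¹ := by
        have h1 : y⁻¹ * x⁻¹ * (y⁻¹ * x⁻¹) = y⁻¹ * y⁻¹ * (x⁻¹ * x⁻¹) * c := by
          simpa [pow_two] using hab
        have h2 : c = x * x * (y * y) * (y⁻¹ * x⁻¹ * (y⁻¹ * x⁻¹)) := by
          rw [h1]; group
        rw [h2, commutatorElement_def]
        group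
      rw [hcx]
      exact hnorm x⁻¹ c hc'
    have hDle : commutator G ≤ Subgroup.closure {z : G | ∃ w ∈ commutator G, z = w ^ 2} := by
      rw [commutator_def, Subgroup.commutator_le]
      intro x _ y _
      exact key x y
    have hD : commutator G = ⊥ := by
      by_contra hne
      obtain ⟨k, hk⟩ := IsPGroup.iff_card.mp (hG.to_subgroup (commutator G))
      have hk0 : k ≠ 0 := by
        rintro rfl
        apply hne
        rw [Subgroup.eq_bot_iff_card, hk, pow_zero]
      obtain ⟨M, hM⟩ := Sylow.exists_subgroup_card_pow_prime (G := ↥(commutator G)) 2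
        (n := k - 1) (by rw [hk]; exact pow_dvd_pow 2 (Nat.sub_le k 1))
      have hidx : M.index = 2 := by
        have h1 := Subgroup.card_mul_index M
        rw [hM, hk] at h1
        have h2 : 2 ^ k = 2 ^ (k - 1) * 2 := by
          rw [← pow_succ]; congr 1; omega
        rw [h2] at h1
        exact Nat.eq_of_mul_eq_mul_left (by positivity) h1
      have hsq : ∀ w : ↥(commutator G), w ^ 2 ∈ M := Subgroup.sq_mem_of_index_two hidx
      have hle : Subgroup.closure {z : G | ∃ w ∈ commutator G, z = w ^ 2} ≤
          M.map (commutator G).subtype := by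
        apply (Subgroup.closure_le _).mpr
        rintro _ ⟨w, hw, rfl⟩
        exact ⟨⟨w, hw⟩ ^ 2, hsq ⟨w, hw⟩, by simp⟩
      have htop : M = ⊤ := by
        rw [eq_top_iff]
        intro w _
        obtain ⟨m, hm, hmw⟩ := hle (hDle w.2)
        have : m = w := Subtype.ext hmw
        rw [← this]
        exact hm
      rw [htop, Subgroup.index_top] at hidx
      norm_num at hidx
    have hcomm := (commutator_eq_bot_iff G).mp hD
    intro a b
    exact mul_comm' a b
  · intro h
    refine ⟨hG, ?_⟩
    intro a b n
    refine ⟨1, Subgroup.one_mem _, ?_⟩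
    rw [mul_one]
    exact (show Commute a b from h a b).mul_pow _

end Cfsg.Agent.S0642
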