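import Cfsg.Statements.S0645
import Cfsg.Agent.Lib.Helper15.CyclicIndexP

set_option autoImplicit false
open Cfsg

namespace Cfsg.Agent.S0645

open Cfsg.Agent.Lib.Helper15

/-- Classification of p-groups with a cyclic maximal subgroup, odd p: a non-abelian one of order p^n has generators a of order p^(n-1) and b of order p, b outside the cyclic subgroup generated by a, with b a b⁻¹ = a^(1 + p^(n-2)). -/
theorem result {G : Type*} [Group G] [Finite G] {p : ℕ} [Fact p.Prime] (hp : p ≠ 2) (n : ℕ) (hn : 3 ≤ n) (hG : Nat.card G = p ^ n) (C : Subgroup G) (hC : IsCyclic C) (hCi : C.index = p) (hna : ∃ x y : G, x * y ≠ y * x) : ∃ a b : G, orderOf a = p ^ (n - 1) ∧ orderOf b = p ∧ b ∉ Subgroup.zpowers a ∧ b * a * b⁻¹ = a ^ (1 + p ^ (n - 2)) := by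
  classical
  have hpp : p.Prime := Fact.out
  have hGp : IsPGroup p G := IsPGroup.of_card hG
  obtain ⟨a, rfl⟩ := exists_zpowers_eq C hC
  have ha : orderOf a = p ^ (n - 1) := by
    have h1 := Subgroup.card_mul_index (Subgroup.zpowers a)
    rw [Nat.card_zpowers, hCi, hG] at h1
    have h2 : p ^ n = p ^ (n - 1) * p := by rw [← pow_succ]; congr 1; omega
    rw [h2] at h1
    exact Nat.eq_of_mul_eq_mul_right hpp.pos h1
  have hm1 : 1 ≤ n - 1 := by omega
  have hn2 : n - 1 - 1 = n - 2 := by omega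
  have hpn : (p : ℤ) ^ (n - 1) = (p : ℤ) ^ (n - 2) * p := by
    rw [← pow_succ]; congr 1; omega
  have hnorm : (Subgroup.zpowers a).Normal := by
    apply Subgroup.normal_of_index_eq_minFac_card
    rw [hCi, hG, Nat.Prime.pow_minFac hpp (by omega)]
  have hncyc : ¬ IsCyclic G := by
    intro h
    obtain ⟨x, y, hxy⟩ := hna
    exact hxy (mul_comm' x y)
  obtain ⟨φ, hφ, hker⟩ := exists_pow_hom hp hGp (Subgroup.zpowers a) hC hCi
  have hcardker := hker hncyc
  obtain ⟨hcen, -⟩ := commutator_mem_zpowers hp hm1 ha hnorm hCi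
  rw [hn2] at hcen
  have hex : ∃ b₀ : G, b₀ ^ p = 1 ∧ b₀ ∉ Subgroup.zpowers a := by
    by_contra hcon
    push Not at hcon
    have hle : φ.ker ≤ Subgroup.zpowers (a ^ (p ^ (n - 2))) := by
      intro x hx
      have hx1 : x ^ p = 1 := by rw [← hφ]; exact MonoidHom.mem_ker.mp hx
      obtain ⟨i, rfl⟩ := Subgroup.mem_zpowers_iff.mp (hcon x hx1)
      have h1 : a ^ (i * p) = 1 := by rw [zpow_mul, zpow_natCast]; exact hx1
      have h2 : ((orderOf a : ℕ) : ℤ) ∣ i * p := orderOf_dvd_iff_zpow_eq_one.mpr h1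
      rw [ha] at h2
      have h3 : (p : ℤ) ^ (n - 2) ∣ i := by
        have h4 : ((p ^ (n - 1) : ℕ) : ℤ) = (p : ℤ) ^ (n - 2) * p := by
          push_cast; exact hpn
        rw [h4] at h2
        exact Int.dvd_of_mul_dvd_mul_right (by exact_mod_cast hpp.ne_zero) h2
      obtain ⟨t, rfl⟩ := h3
      refine Subgroup.mem_zpowers_iff.mpr ⟨t, ?_⟩
      rw [← zpow_natCast, ← zpow_mul]; push_cast; rfl
    have hcard := Subgroup.card_le_of_le hle
    rw [hcardker, Nat.card_zpowers] at hcard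
    have ho : orderOf (a ^ (p ^ (n - 2))) = p := by
      rw [orderOf_pow, ha, Nat.gcd_eq_right (pow_dvd_pow p (by omega))]
      exact Nat.div_eq_of_eq_mul_left (pow_pos hpp.pos _) (by rw [← pow_succ']; congr 1; omega)
    rw [ho] at hcard
    nlinarith [hpp.two_le]
  obtain ⟨b₀, hb₀p, hb₀C⟩ := hex
  obtain ⟨k, hk, -, hk2⟩ := conj_exponent hp hm1 ha hnorm hCi b₀
  rw [hn2] at hk2
  obtain ⟨u, hu⟩ := hk2
  have hpu : ¬ (p : ℤ) ∣ u := by
    intro hdvd
    obtain ⟨w, rfl⟩ := hdvd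
    have hk1 : a ^ k = a := by
      have h1 : a ^ (k - 1) = 1 := by
        rw [hu]
        apply orderOf_dvd_iff_zpow_eq_one.mp
        rw [ha]
        refine ⟨w, ?_⟩
        push_cast
        rw [hpn]
        ring
      calc a ^ k = a ^ (k - 1) * a := by rw [← zpow_add_one]; congr 1; ring
        _ = a := by rw [h1, one_mul]
    have hcomm_ab : b₀ * a = a * b₀ := by
      have h1 : b₀ * a * b₀⁻¹ = a := by rw [hk, hk1]
      calc b₀ * a = b₀ * a * b₀⁻¹ * b₀ := by group
        _ = a * b₀ := by rw [h1]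
    have htop : Subgroup.closure ({a, b₀} : Set G) = ⊤ := by
      have h1 : Subgroup.zpowers a ≤ Subgroup.closure ({a, b₀} : Set G) := by
        rw [Subgroup.zpowers_le]; exact Subgroup.subset_closure (by simp)
      have h2 := Subgroup.relIndex_mul_index h1
      rw [hCi] at h2
      have h3 : (Subgroup.closure ({a, b₀} : Set G)).index ∣ p := Dvd.intro_left _ h2
      rcases (Nat.dvd_prime hpp).mp h3 with h4 | h4
      · exact Subgroup.index_eq_one.mp h4
      · exfalso
        rw [h4] at h2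
        have h5 : (Subgroup.zpowers a).relIndex (Subgroup.closure ({a, b₀} : Set G)) = 1 :=
          Nat.eq_of_mul_eq_mul_right hpp.pos (by rw [one_mul]; exact h2)
        have h6 := Subgroup.relIndex_eq_one.mp h5
        exact hb₀C (h6 (Subgroup.subset_closure (by simp)))
    have hcommG : IsMulCommutative (Subgroup.closure ({a, b₀} : Set G)) := by
      apply Subgroup.isMulCommutative_closure
      intro x hx y hy
      simp only [Set.mem_insert_iff, Set.mem_singleton_iff] at hx hy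
      rcases hx with rfl | rfl <;> rcases hy with rfl | rfl
      · rfl
      · exact hcomm_ab.symm
      · exact hcomm_ab
      · rfl
    obtain ⟨x, y, hxy⟩ := hna
    apply hxy
    have hx : x ∈ Subgroup.closure ({a, b₀} : Set G) := by rw [htop]; trivial
    have hy : y ∈ Subgroup.closure ({a, b₀} : Set G) := by rw [htop]; trivial
    exact setLike_mul_comm hx hy
  obtain ⟨j, hj⟩ : ∃ j : ℕ, (p : ℤ) ∣ (j : ℤ) * u - 1 := by
    have hu0 : (u : ZMod p) ≠ 0 := by
      rwa [Ne, ZMod.intCast_zmod_eq_zero_iff_dvd]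
    refine ⟨((u : ZMod p)⁻¹).val, ?_⟩
    rw [← ZMod.intCast_zmod_eq_zero_iff_dvd]
    push_cast
    rw [ZMod.natCast_zmod_val, inv_mul_cancel₀ hu0, sub_self]
  obtain ⟨w, hw⟩ := hj
  have hzz : a ^ ((p : ℤ) ^ (n - 2)) = a ^ (p ^ (n - 2)) := by
    rw [← zpow_natCast]; push_cast; rfl
  have hc_comm : b₀ * a ^ (k - 1) * b₀⁻¹ = a ^ (k - 1) := by
    rw [hu, zpow_mul, hzz, ← conj_zpow, hcen b₀]
  have hak : a ^ k = a * a ^ (k - 1) := by
    rw [← zpow_one_add]; congr 1; ring
  have hconj : ∀ i : ℕ, b₀ ^ i * a * (b₀ ^ i)⁻¹ = a * (a ^ (k - 1)) ^ i := by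
    intro i
    induction i with
    | zero => simp
    | succ i ih =>
      have h1 : b₀ ^ (i + 1) * a * (b₀ ^ (i + 1))⁻¹ = b₀ * (b₀ ^ i * a * (b₀ ^ i)⁻¹) * b₀⁻¹ := by
        rw [pow_succ']; group
      have h2 : b₀ * (a * (a ^ (k - 1)) ^ i) * b₀⁻¹ =
          (b₀ * a * b₀⁻¹) * (b₀ * (a ^ (k - 1)) ^ i * b₀⁻¹) := by group
      rw [h1, ih, h2, hk, ← conj_pow, hc_comm, hak, pow_succ', mul_assoc]
  have hbC : b₀ ^ j ∉ Subgroup.zpowers a := by
    intro hmem
    apply hb₀C
    have h1 : b₀ ^ ((j : ℤ) * u) = b₀ := by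
      have h2 : (j : ℤ) * u = 1 + p * w := by linarith
      rw [h2, zpow_add, zpow_one, zpow_mul, zpow_natCast, hb₀p, one_zpow, mul_one]
    rw [← h1, zpow_mul, zpow_natCast]
    exact Subgroup.zpow_mem _ hmem u
  refine ⟨a, b₀ ^ j, ha, ?_, hbC, ?_⟩
  · apply orderOf_eq_prime
    · rw [← pow_mul, mul_comm, pow_mul, hb₀p, one_pow]
    · intro h1
      apply hbC
      rw [h1]; exact Subgroup.one_mem _
  · rw [hconj j, ← zpow_natCast (a ^ (k - 1)), ← zpow_mul, ← zpow_one_add, ← zpow_natCast a,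
      zpow_eq_zpow_iff_modEq, ha, Int.modEq_iff_dvd]
    refine ⟨-w, ?_⟩
    push_cast
    rw [hpn, hu]
    have h2 : (j : ℤ) * u = 1 + p * w := by linarith
    linear_combination (-(p : ℤ) ^ (n - 2)) * h2

end Cfsg.Agent.S0645
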