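import Cfsg.Statements.S0656
import Cfsg.Agent.Lib.Helper15.QuadSL2

set_option autoImplicit false
open Cfsg

namespace Cfsg.Agent.S0656


open Cfsg.Agent.Lib.Helper14 Cfsg.Agent.Lib.Helper15 in
theorem quad_section_core {G : Type*} [Group G] [Finite G] {p : ℕ} [Fact p.Prime] (hp : p ≠ 2)
    (V H : Subgroup G) (hV : Cfsg.IsElementaryAbelian p V)
    (hHV : H ≤ Subgroup.normalizer (V : Set G))
    (hf : H ⊓ Subgroup.centralizer (V : Set G) = ⊥) (x : ↥H)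
    (hxO : x ∉ Cfsg.pCore p ↥H)
    (hq : ⁅⁅V, Subgroup.zpowers (x : G)⁆, Subgroup.zpowers (x : G)⁆ = ⊥) :
    ∃ (K L : Subgroup ↥H) (hL : (L.subgroupOf K).Normal),
      Nonempty ((K ⧸ L.subgroupOf K) ≃* Matrix.SpecialLinearGroup (Fin 2) (ZMod p)) := by
  have hVc := hV.1
  let cg : CommGroup ↥V :=
    { (inferInstance : Group ↥V) with mul_comm := fun x y => mul_comm' x y }
  have hVp : ∀ v : ↥V, v ^ p = 1 := fun v => Subtype.ext (hV.2 v v.2)
  exact @quad_SL2_section ↥H _ _ ↥V cg _ p _ hp hVp (conjHom V H hHV)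
    (conjHom_eq_one V H hHV hf) x (conjHom_quadratic V H hHV x hq) hxO

/-- For odd p, a faithful group on an elementary abelian p-group with no nontrivial normal p-subgroup in which some nontrivial p-element acts quadratically has a section isomorphic to SL(2, p). -/
theorem result {G : Type*} [Group G] [Finite G] {p : ℕ} [Fact p.Prime] (hp : p ≠ 2) (V H : Subgroup G) (hV : Cfsg.IsElementaryAbelian p V) (hHV : H ≤ Subgroup.normalizer (V : Set G)) (hf : H ⊓ Subgroup.centralizer (V : Set G) = ⊥) (hO : Cfsg.pCore p ↥H = ⊥) (x : G) (hxH : x ∈ H) (hx1 : x ≠ 1) (hxp : ∃ k : ℕ, orderOf x = p ^ k) (hq : ⁅⁅V, Subgroup.zpowers x⁆, Subgroup.zpowers x⁆ = ⊥) : ∃ (K L : Subgroup G) (hL : (L.subgroupOf K).Normal), K ≤ H ∧ Nonempty ((K ⧸ L.subgroupOf K) ≃* Matrix.SpecialLinearGroup (Fin 2) (ZMod p)) := by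
  have hxO : (⟨x, hxH⟩ : ↥H) ∉ Cfsg.pCore p ↥H := by
    rw [hO, Subgroup.mem_bot]
    intro h
    exact hx1 (congrArg Subtype.val h)
  obtain ⟨K, L, hL, ⟨e⟩⟩ := quad_section_core hp V H hV hHV hf ⟨x, hxH⟩ hxO hq
  obtain ⟨K', L', hL', hK', ⟨e'⟩⟩ := Cfsg.Agent.Lib.Helper15.section_lift H K L hL
  exact ⟨K', L', hL', hK', ⟨e'.trans e⟩⟩

end Cfsg.Agent.S0656
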