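import Cfsg.Statements.S0657
import Cfsg.Agent.Lib.Helper15.QuadSL2b

set_option autoImplicit false
open Cfsg

namespace Cfsg.Agent.S0657


/-- For odd p, a group that fails to be p-stable modulo its largest normal subgroup of order prime to p, and whose upper p-series does not stop there, has a section isomorphic to SL(2, p). -/
theorem result {G : Type*} [Group G] [Finite G] {p : ℕ} [Fact p.Prime] (hp : p ≠ 2) (hO : Cfsg.pPrimeCore p G < Cfsg.pPrimePCore p G) (hns : ¬ Cfsg.IsPStable p (G ⧸ Cfsg.pPrimeCore p G)) : ∃ (K L : Subgroup G) (hL : (L.subgroupOf K).Normal), K ≤ ⊤ ∧ Nonempty ((K ⧸ L.subgroupOf K) ≃* Matrix.SpecialLinearGroup (Fin 2) (ZMod p)) := by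
  classical
  have hpp : p.Prime := Fact.out
  have hodd : Odd p := hpp.odd_of_ne_two hp
  have hcore : Cfsg.pCore p (G ⧸ Cfsg.pPrimeCore p G) ≠ ⊥ := by
    intro h
    apply hO.ne
    unfold Cfsg.pPrimePCore
    rw [h, MonoidHom.comap_bot, QuotientGroup.ker_mk']
  by_contra hcon
  apply hns
  refine ⟨hodd, hcore, ?_⟩
  intro A P hA hP hAP hPle hnorm hquad
  by_contra hnot
  apply hcon
  obtain ⟨K, L, hL, ⟨e⟩⟩ :=
    Cfsg.Agent.Lib.Helper15.sl2_section_of_quad_normalizer hp A P hP hquad hnot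
  obtain ⟨K', L', hL', ⟨e'⟩⟩ := Cfsg.Agent.Lib.Helper15.section_comap
    (QuotientGroup.mk' (Cfsg.pPrimeCore p G)) K L hL (by
      rw [MonoidHom.range_eq_top.mpr (QuotientGroup.mk'_surjective _)]; exact le_top)
  exact ⟨K', L', hL', le_top, ⟨e'.trans e⟩⟩

end Cfsg.Agent.S0657
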