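import Cfsg.Statements.S0661
import Cfsg.Agent.S0028
import Cfsg.Agent.S3800
import Cfsg.Agent.Lib.Helper30.Cores

set_option autoImplicit false
open Cfsg

namespace Cfsg.Agent.S0661

/-- If, modulo the largest normal subgroup of order prime to p, the largest normal p-subgroup contains its centralizer, then for every p-subgroup P the p'-core of N_G(P) is just O_p'(G) ∩ N_G(P). -/
theorem result {G : Type*} [Group G] [Finite G] {p : ℕ} [Fact p.Prime] (hc : Subgroup.centralizer (Cfsg.pCore p (G ⧸ Cfsg.pPrimeCore p G) : Set (G ⧸ Cfsg.pPrimeCore p G)) ≤ Cfsg.pCore p (G ⧸ Cfsg.pPrimeCore p G)) (P : Subgroup G) (hP : IsPGroup p P) : (Cfsg.pPrimeCore p ↥(Subgroup.normalizer (P : Set G))).map (Subgroup.normalizer (P : Set G)).subtype = Cfsg.pPrimeCore p G ⊓ Subgroup.normalizer (P : Set G) := by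
  have hp : p.Prime := Fact.out
  have hOc : (Nat.card (pPrimeCore p G)).Coprime p := Cfsg.Agent.Lib.Helper30.pPrimeCore_coprime p
  have hXc : (Nat.card (pPrimeCore p ↥(Subgroup.normalizer (P : Set G)))).Coprime p :=
    Cfsg.Agent.Lib.Helper30.pPrimeCore_coprime p
  apply le_antisymm
  · refine le_inf ?_ (Subgroup.map_subtype_le _)
    obtain ⟨X, hX⟩ : ∃ X : Subgroup G, X = (pPrimeCore p ↥(Subgroup.normalizer (P : Set G))).map
      (Subgroup.normalizer (P : Set G)).subtype := ⟨_, rfl⟩
    rw [← hX]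
    have hXcard : (Nat.card X).Coprime p := by
      rw [hX, Subgroup.card_subtype]; exact hXc
    have hXN : X ≤ Subgroup.normalizer (P : Set G) := by
      rw [hX]; exact Subgroup.map_subtype_le _
    have hNX : ∀ n ∈ Subgroup.normalizer (P : Set G), ∀ x ∈ X, n * x * n⁻¹ ∈ X := by
      intro n hn x hx
      rw [hX] at hx ⊢
      obtain ⟨x₀, hx₀, rfl⟩ := hx
      have hnorm : (pPrimeCore p ↥(Subgroup.normalizer (P : Set G))).Normal := inferInstance
      refine ⟨⟨n, hn⟩ * x₀ * ⟨n, hn⟩⁻¹, hnorm.conj_mem x₀ hx₀ ⟨n, hn⟩, ?_⟩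
      simp
    have hPN : P ≤ Subgroup.normalizer (P : Set G) := Subgroup.le_normalizer
    have hXP : ∀ x ∈ X, ∀ y ∈ P, x * y = y * x := by
      intro x hx y hy
      have h1 : x * y * x⁻¹ * y⁻¹ ∈ X := by
        have h := hNX y (hPN hy) x⁻¹ (X.inv_mem hx)
        have e : x * y * x⁻¹ * y⁻¹ = x * (y * x⁻¹ * y⁻¹) := by group
        rw [e]; exact X.mul_mem hx h
      have h2 : x * y * x⁻¹ * y⁻¹ ∈ P := by
        have hxN := hXN hx
        have h := (Subgroup.mem_normalizer_iff.mp hxN y).1 hy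
        exact P.mul_mem h (P.inv_mem hy)
      have hdisj : X ⊓ P = ⊥ := by
        apply disjoint_iff.mp
        apply Subgroup.disjoint_of_coprime_natCard
        obtain ⟨k, hk⟩ := IsPGroup.iff_card.mp hP
        rw [hk]; exact Nat.Coprime.pow_right k hXcard
      have h3 : x * y * x⁻¹ * y⁻¹ ∈ X ⊓ P := Subgroup.mem_inf.2 ⟨h1, h2⟩
      rw [hdisj, Subgroup.mem_bot] at h3
      calc x * y = (x * y * x⁻¹ * y⁻¹) * (y * x) := by group
        _ = y * x := by rw [h3, one_mul]
    obtain ⟨hnorm, hcent⟩ := Cfsg.Agent.S3800.result (pPrimeCore p G) hOc P hP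
    have hQp : IsPGroup p (pCore p (G ⧸ pPrimeCore p G)) :=
      Cfsg.Agent.Lib.Helper30.pCore_isPGroup p
    have hQn : (pCore p (G ⧸ pPrimeCore p G)).Normal := inferInstance
    have hXbc : (Nat.card (X.map (QuotientGroup.mk' (pPrimeCore p G)))).Coprime p :=
      Nat.Coprime.coprime_dvd_left (Subgroup.card_map_dvd _ _) hXcard
    have hPb : IsPGroup p (P.map (QuotientGroup.mk' (pPrimeCore p G))) := hP.map _
    have hdisj2 : X.map (QuotientGroup.mk' (pPrimeCore p G)) ⊓ pCore p (G ⧸ pPrimeCore p G) = ⊥ := by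
      apply disjoint_iff.mp
      apply Subgroup.disjoint_of_coprime_natCard
      obtain ⟨k, hk⟩ := IsPGroup.iff_card.mp hQp
      rw [hk]; exact Nat.Coprime.pow_right k hXbc
    have key := Cfsg.Agent.S0028.result p (P.map (QuotientGroup.mk' (pPrimeCore p G)))
      (X.map (QuotientGroup.mk' (pPrimeCore p G))) (pCore p (G ⧸ pPrimeCore p G)) hPb hXbc hQp
      (by
        rintro _ ⟨y, hy, rfl⟩
        rw [Subgroup.mem_centralizer_iff]
        rintro _ ⟨x, hx, rfl⟩
        rw [← map_mul, ← map_mul, hXP x hx y hy])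
      (by rw [Subgroup.normalizer_eq_top]; exact le_top)
      (by rw [Subgroup.normalizer_eq_top]; exact le_top)
      (by
        intro y hy
        obtain ⟨hyQ, hyC⟩ := Subgroup.mem_inf.1 hy
        rw [hcent] at hyC
        obtain ⟨c, hc', rfl⟩ := hyC
        have hcN : c ∈ Subgroup.normalizer (P : Set G) := Subgroup.centralizer_le_normalizer _ hc'
        rw [Subgroup.mem_centralizer_iff]
        rintro _ ⟨x, hx, rfl⟩
        have h1 : (QuotientGroup.mk' (pPrimeCore p G)) (c * x * c⁻¹ * x⁻¹)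
            ∈ X.map (QuotientGroup.mk' (pPrimeCore p G)) :=
          Subgroup.mem_map_of_mem _ (X.mul_mem (hNX c hcN x hx) (X.inv_mem hx))
        have h2 : (QuotientGroup.mk' (pPrimeCore p G)) (c * x * c⁻¹ * x⁻¹)
            ∈ pCore p (G ⧸ pPrimeCore p G) := by
          have e : (QuotientGroup.mk' (pPrimeCore p G)) (c * x * c⁻¹ * x⁻¹)
              = (QuotientGroup.mk' (pPrimeCore p G)) c
                * ((QuotientGroup.mk' (pPrimeCore p G)) x
                  * ((QuotientGroup.mk' (pPrimeCore p G)) c)⁻¹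
                  * ((QuotientGroup.mk' (pPrimeCore p G)) x)⁻¹) := by
            simp only [map_mul, map_inv]; group
          rw [e]
          exact mul_mem hyQ (hQn.conj_mem _ (inv_mem hyQ) _)
        have h3 := Subgroup.mem_inf.2 ⟨h1, h2⟩
        rw [hdisj2, Subgroup.mem_bot] at h3
        have h6 : (QuotientGroup.mk' (pPrimeCore p G)) (c * x)
            = (QuotientGroup.mk' (pPrimeCore p G)) (x * c) := by
          have h5 : c * x = (c * x * c⁻¹ * x⁻¹) * (x * c) := by group
          rw [h5, map_mul, h3, one_mul]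
        rw [map_mul, map_mul] at h6
        exact h6.symm)
    have hle : X.map (QuotientGroup.mk' (pPrimeCore p G)) ≤ pCore p (G ⧸ pPrimeCore p G) :=
      key.trans hc
    have hbot : X.map (QuotientGroup.mk' (pPrimeCore p G)) = ⊥ := by
      rw [← hdisj2]; exact (inf_eq_left.mpr hle).symm
    rw [Subgroup.map_eq_bot_iff, QuotientGroup.ker_mk'] at hbot
    exact hbot
  · intro g hg
    obtain ⟨hgO, hgN⟩ := Subgroup.mem_inf.1 hg
    have hle : (pPrimeCore p G).subgroupOf (Subgroup.normalizer (P : Set G))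
        ≤ pPrimeCore p ↥(Subgroup.normalizer (P : Set G)) := by
      apply le_sSup
      refine ⟨inferInstance, ?_⟩
      exact Nat.Coprime.coprime_dvd_left
        (Subgroup.card_comap_dvd_of_injective _ _ Subtype.coe_injective) hOc
    exact ⟨⟨g, hgN⟩, hle (Subgroup.mem_subgroupOf.2 hgO), rfl⟩

end Cfsg.Agent.S0661
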