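import Cfsg.Statements.S0663
import Mathlib

set_option autoImplicit false
set_option linter.unusedSectionVars false
open Cfsg

namespace Cfsg.Agent.S0663

open scoped commutatorElement

theorem comm_ne_self {L : Type*} [Group L] [Finite L] {p : ℕ} [Fact p.Prime] (H K : Subgroup L)
    (hH : IsPGroup p H) (hK : IsPGroup p K) (hKH : K ≤ Subgroup.normalizer (H : Set L))
    (hne : H ≠ ⊥) : ⁅H, K⁆ ≠ H := by
  intro heq
  have hJ : IsPGroup p (H ⊔ K : Subgroup L) := IsPGroup.to_sup_of_normal_left' hH hK hKH
  have hnil : Group.IsNilpotent (H ⊔ K : Subgroup L) := hJ.isNilpotent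
  obtain ⟨c, hc⟩ := (Subgroup.isNilpotent_iff_lowerCentralSeries (H ⊔ K)).mp hnil
  have hle : ∀ k, H ≤ (H ⊔ K).lowerCentralSeries k := by
    intro k
    induction k with
    | zero => exact le_sup_left
    | succ k ih =>
      rw [Subgroup.lowerCentralSeries_succ]
      calc H = ⁅H, K⁆ := heq.symm
        _ ≤ ⁅(H ⊔ K).lowerCentralSeries k, H ⊔ K⁆ := Subgroup.commutator_mono ih le_sup_right
  have := hle c
  rw [hc] at this
  exact hne (le_bot_iff.mp this)

theorem card_mul_relIndex' {L : Type*} [Group L] (K H : Subgroup L) (hKH : K ≤ H) :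
    Nat.card K * K.relIndex H = Nat.card H := by
  have h2 := Subgroup.relIndex_mul_relIndex (⊥ : Subgroup L) K H bot_le hKH
  rwa [Subgroup.relIndex_bot_left, Subgroup.relIndex_bot_left] at h2

theorem iter_succ {L : Type*} [Group L] (N G : Subgroup L) (i : ℕ) :
    Cfsg.iterCommutator N G (i + 1) = ⁅Cfsg.iterCommutator N G i, G⁆ := rfl

theorem iter_zero {L : Type*} [Group L] (N G : Subgroup L) :
    Cfsg.iterCommutator N G 0 = N := rfl

theorem iter_inv {L : Type*} [Group L] (N G : Subgroup L)
    (hGN : G ≤ Subgroup.normalizer (N : Set L)) (i : ℕ) :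
    G ≤ Subgroup.normalizer (Cfsg.iterCommutator N G i : Set L) := by
  cases i with
  | zero => exact hGN
  | succ i => rw [iter_succ]; exact Subgroup.normalizer_commutator_ge_right _ _

theorem iter_anti {L : Type*} [Group L] (N G : Subgroup L)
    (hGN : G ≤ Subgroup.normalizer (N : Set L)) (i : ℕ) :
    Cfsg.iterCommutator N G (i + 1) ≤ Cfsg.iterCommutator N G i := by
  rw [iter_succ]
  exact Subgroup.le_normalizer_iff_commutator_le_left.mp (iter_inv N G hGN i)

theorem iter_le {L : Type*} [Group L] (N G : Subgroup L)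
    (hGN : G ≤ Subgroup.normalizer (N : Set L)) (i : ℕ) :
    Cfsg.iterCommutator N G i ≤ N := by
  induction i with
  | zero => exact le_rfl
  | succ i ih => exact (iter_anti N G hGN i).trans ih

theorem iter_mono_le {L : Type*} [Group L] (N G : Subgroup L)
    (hGN : G ≤ Subgroup.normalizer (N : Set L)) (i j : ℕ) (hij : i ≤ j) :
    Cfsg.iterCommutator N G j ≤ Cfsg.iterCommutator N G i := by
  induction j with
  | zero =>
    have : i = 0 := by omega
    rw [this]
  | succ j ih =>
    rcases Nat.lt_or_ge i (j + 1) with h | h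
    · exact (iter_anti N G hGN j).trans (ih (by omega))
    · have : i = j + 1 := by omega
      rw [this]

section core

variable {L : Type*} [Group L] [Finite L] {p : ℕ} [Fact p.Prime] (N G : Subgroup L)
  (hN : IsPGroup p N) (hG : IsPGroup p G) (hGN : G ≤ Subgroup.normalizer (N : Set L)) (n : ℕ)
  (hn : Nat.card N = p ^ n)

include hN hG hGN hn

/-- The chain condition: `|H_i| = p^(n-i)` for `i ≤ n`. -/
theorem chain_of_uniserial
    (hU : ∀ H : Subgroup L, H ≤ N → G ≤ Subgroup.normalizer (H : Set L) → H ≠ ⊥ →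
      (⁅H, G⁆).relIndex H = p) :
    ∀ i ≤ n, Nat.card (Cfsg.iterCommutator N G i) = p ^ (n - i) := by
  have hpp : p.Prime := Fact.out
  intro i
  induction i with
  | zero => intro _; exact hn
  | succ i ih =>
    intro hi
    have h1 := ih (by omega)
    have hne : Cfsg.iterCommutator N G i ≠ ⊥ := by
      intro h
      rw [h, Subgroup.card_bot] at h1
      have : 1 < p ^ (n - i) := Nat.one_lt_pow (by omega) hpp.one_lt
      omega
    have h2 := hU _ (iter_le N G hGN i) (iter_inv N G hGN i) hne
    have h3 := card_mul_relIndex' _ _ (iter_anti N G hGN i)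
    rw [← iter_succ] at h2
    rw [h2, h1] at h3
    have h4 : p ^ (n - i) = p ^ (n - (i + 1)) * p := by
      rw [← pow_succ]; congr 1; omega
    rw [h4] at h3
    exact Nat.eq_of_mul_eq_mul_right hpp.pos h3

theorem chain_of_last (h : Cfsg.iterCommutator N G (n - 1) ≠ ⊥ ∨ n = 0) :
    ∀ i ≤ n, Nat.card (Cfsg.iterCommutator N G i) = p ^ (n - i) := by
  have hpp : p.Prime := Fact.out
  rcases h with h | h
  · have hex : ∀ i, ∃ a, Nat.card (Cfsg.iterCommutator N G i) = p ^ a := fun i =>
      IsPGroup.iff_card.mp (hN.to_le (iter_le N G hGN i))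
    choose a ha using hex
    have ha0 : a 0 = n := by
      have := ha 0
      rw [iter_zero, hn] at this
      exact (Nat.pow_right_injective hpp.two_le this).symm
    have hne : ∀ i, i ≤ n - 1 → Cfsg.iterCommutator N G i ≠ ⊥ := by
      intro i hi h0
      have := iter_mono_le N G hGN i (n - 1) hi
      rw [h0] at this
      exact h (le_bot_iff.mp this)
    have hstrict : ∀ i, i ≤ n - 1 → a (i + 1) < a i := by
      intro i hi
      have h1 := comm_ne_self _ G (hN.to_le (iter_le N G hGN i)) hG (iter_inv N G hGN i)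
        (hne i hi)
      rw [← iter_succ] at h1
      have h2 : Nat.card (Cfsg.iterCommutator N G (i + 1)) <
          Nat.card (Cfsg.iterCommutator N G i) := by
        refine lt_of_le_of_ne (Subgroup.card_le_of_le (iter_anti N G hGN i)) (fun h3 => h1 ?_)
        exact Subgroup.eq_of_le_of_card_ge (iter_anti N G hGN i) h3.ge
      rw [ha, ha] at h2
      exact (Nat.pow_lt_pow_iff_right hpp.one_lt).mp h2
    have hlast : 1 ≤ a (n - 1) := by
      by_contra h0
      have h1 : a (n - 1) = 0 := by omega
      have h2 := ha (n - 1)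
      rw [h1, pow_zero] at h2
      exact h (Subgroup.card_eq_one.mp h2)
    have hupper : ∀ i, i ≤ n → a i ≤ n - i := by
      intro i
      induction i with
      | zero => intro _; omega
      | succ i ih =>
        intro hi
        have := hstrict i (by omega)
        have := ih (by omega)
        omega
    have hlower : ∀ k, k ≤ n - 1 → k + 1 ≤ a (n - 1 - k) := by
      intro k
      induction k with
      | zero => intro _; exact hlast
      | succ k ih =>
        intro hk
        have h1 := hstrict (n - 1 - (k + 1)) (by omega)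
        have h2 : n - 1 - (k + 1) + 1 = n - 1 - k := by omega
        rw [h2] at h1
        have := ih (by omega)
        omega
    have hn1 : 1 ≤ n := by
      by_contra h0
      have h1 : n = 0 := by omega
      have h2 := hupper 0 (by omega)
      have h3 : n - 1 = 0 := by omega
      rw [h3] at hlast
      omega
    intro i hi
    rw [ha]
    congr 1
    rcases Nat.lt_or_ge i n with h1 | h1
    · have h2 := hlower (n - 1 - i) (by omega)
      have h3 : n - 1 - (n - 1 - i) = i := by omega
      rw [h3] at h2
      have := hupper i hi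
      omega
    · have := hupper i hi
      omega
  · intro i hi
    have hi0 : i = 0 := by omega
    rw [hi0, iter_zero, hn, Nat.sub_zero]

theorem conseq_of_chain
    (hC : ∀ i ≤ n, Nat.card (Cfsg.iterCommutator N G i) = p ^ (n - i)) :
    (Cfsg.iterCommutator N G (n - 1) ≠ ⊥ ∨ n = 0) ∧
    (∀ H : Subgroup L, H ≤ N → G ≤ Subgroup.normalizer (H : Set L) →
      (∃ i ≤ n, H = Cfsg.iterCommutator N G i) ∧ N ≤ Subgroup.normalizer (H : Set L)) := by
  have hpp : p.Prime := Fact.out
  have hJ : IsPGroup p (N ⊔ G : Subgroup L) := IsPGroup.to_sup_of_normal_left' hN hG hGN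
  have hbot : Cfsg.iterCommutator N G n = ⊥ := by
    apply Subgroup.card_eq_one.mp
    rw [hC n le_rfl, Nat.sub_self, pow_zero]
  have hne : ∀ i, i < n → Cfsg.iterCommutator N G i ≠ ⊥ := by
    intro i hi h
    have h1 := hC i hi.le
    rw [h, Subgroup.card_bot] at h1
    have : 1 < p ^ (n - i) := Nat.one_lt_pow (by omega) hpp.one_lt
    omega
  have hcardsucc : ∀ i, i < n → Nat.card (Cfsg.iterCommutator N G i) =
      p * Nat.card (Cfsg.iterCommutator N G (i + 1)) := by
    intro i hi
    rw [hC i hi.le, hC (i + 1) (by omega), ← pow_succ']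
    congr 1; omega
  -- a subgroup strictly between is impossible
  have hbetween : ∀ i, i < n → ∀ T : Subgroup L, T ≤ Cfsg.iterCommutator N G i →
      Cfsg.iterCommutator N G (i + 1) ≤ T → T ≠ Cfsg.iterCommutator N G (i + 1) →
      T = Cfsg.iterCommutator N G i := by
    intro i hi T hT1 hT2 hT3
    apply Subgroup.eq_of_le_of_card_ge hT1
    obtain ⟨d, hd⟩ := Subgroup.card_dvd_of_le hT2
    have hd2 : 2 ≤ d := by
      by_contra hd1
      have hd' : d = 0 ∨ d = 1 := by omega
      rcases hd' with rfl | rfl
      · rw [mul_zero] at hd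
        have := Nat.card_pos (α := T)
        omega
      · rw [mul_one] at hd
        exact hT3 (Subgroup.eq_of_le_of_card_ge hT2 hd.le).symm
    have hTp : ∃ b, Nat.card T = p ^ b := IsPGroup.iff_card.mp (hN.to_le (hT1.trans (iter_le N G hGN i)))
    obtain ⟨b, hb⟩ := hTp
    have hlt : Nat.card (Cfsg.iterCommutator N G (i + 1)) < Nat.card T := by
      rw [hd]
      have := Nat.card_pos (α := Cfsg.iterCommutator N G (i + 1))
      nlinarith
    rw [hC (i + 1) (by omega), hb] at hlt
    have hb2 := (Nat.pow_lt_pow_iff_right hpp.one_lt).mp hlt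
    rw [hC i hi.le, hb]
    exact Nat.pow_le_pow_right hpp.pos (by omega)
  -- (δ1) N ⊔ G normalizes every term
  have hJinv : ∀ i ≤ n, N ⊔ G ≤ Subgroup.normalizer (Cfsg.iterCommutator N G i : Set L) := by
    intro i
    induction i with
    | zero => intro _; exact sup_le Subgroup.le_normalizer hGN
    | succ i ih =>
      intro hi
      have h1 := ih (by omega)
      have h2 : ⁅Cfsg.iterCommutator N G i, N ⊔ G⁆ ≤ Cfsg.iterCommutator N G i :=
        Subgroup.le_normalizer_iff_commutator_le_left.mp h1
      have h3 := comm_ne_self _ (N ⊔ G) (hN.to_le (iter_le N G hGN i)) hJ h1 (hne i (by omega))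
      have h4 : Cfsg.iterCommutator N G (i + 1) ≤ ⁅Cfsg.iterCommutator N G i, N ⊔ G⁆ := by
        rw [iter_succ]
        exact Subgroup.commutator_mono le_rfl le_sup_right
      have h5 : ⁅Cfsg.iterCommutator N G i, N ⊔ G⁆ = Cfsg.iterCommutator N G (i + 1) := by
        by_contra hcon
        exact h3 (hbetween i (by omega) _ h2 h4 hcon)
      rw [← h5]
      exact Subgroup.normalizer_commutator_ge_right _ _
  have hNinv : ∀ i ≤ n, N ≤ Subgroup.normalizer (Cfsg.iterCommutator N G i : Set L) :=
    fun i hi => le_sup_left.trans (hJinv i hi)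
  -- (δ2) Claim B
  have hB : ∀ k i, i + k + 1 = n → ∀ H : Subgroup L, H ≤ Cfsg.iterCommutator N G i →
      G ≤ Subgroup.normalizer (H : Set L) → ¬ H ≤ Cfsg.iterCommutator N G (i + 1) →
      H = Cfsg.iterCommutator N G i := by
    intro k
    induction k with
    | zero =>
      intro i hi H hH hHG hHn
      have hi1 : i + 1 = n := by omega
      have hc : Nat.card (Cfsg.iterCommutator N G i) = p := by
        rw [hC i (by omega)]
        have : n - i = 1 := by omega
        rw [this, pow_one]
      apply Subgroup.eq_of_le_of_card_ge hH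
      rw [hc]
      have hd := Subgroup.card_dvd_of_le hH
      rw [hc] at hd
      rcases (Nat.dvd_prime hpp).mp hd with h1 | h1
      · exfalso
        apply hHn
        rw [Subgroup.card_eq_one.mp h1]
        exact bot_le
      · exact h1.ge
    | succ k ih =>
      intro i hi H hH hHG hHn
      have hHG' : ⁅H, G⁆ ≤ H := Subgroup.le_normalizer_iff_commutator_le_left.mp hHG
      have hH'le : ⁅H, G⁆ ≤ Cfsg.iterCommutator N G (i + 1) := by
        rw [iter_succ]
        exact Subgroup.commutator_mono hH le_rfl
      by_cases hcase : ⁅H, G⁆ ≤ Cfsg.iterCommutator N G (i + 1 + 1)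
      · exfalso
        obtain ⟨x, hxH, hxn⟩ := SetLike.not_le_iff_exists.mp hHn
        have hN2 := hNinv (i + 1 + 1) (by omega)
        have hconj : ∀ y ∈ Cfsg.iterCommutator N G i, ∀ z ∈ Cfsg.iterCommutator N G (i + 1 + 1),
            y * z * y⁻¹ ∈ Cfsg.iterCommutator N G (i + 1 + 1) := by
          intro y hy z hz
          have hyN : y ∈ Subgroup.normalizer (Cfsg.iterCommutator N G (i + 1 + 1) : Set L) :=
            hN2 (iter_le N G hGN i hy)
          exact (Subgroup.mem_normalizer_iff.mp hyN z).mp hz
        let T : Subgroup L :=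
          { carrier := {y | y ∈ Cfsg.iterCommutator N G i ∧
              ∀ g ∈ G, ⁅y, g⁆ ∈ Cfsg.iterCommutator N G (i + 1 + 1)}
            mul_mem' := by
              rintro y y' ⟨hy, hyc⟩ ⟨hy', hyc'⟩
              refine ⟨Subgroup.mul_mem _ hy hy', fun g hg => ?_⟩
              have e : ⁅y * y', g⁆ = y * ⁅y', g⁆ * y⁻¹ * ⁅y, g⁆ := by
                simp only [commutatorElement_def]; group
              rw [e]
              exact Subgroup.mul_mem _ (hconj y hy _ (hyc' g hg)) (hyc g hg)
            one_mem' := ⟨Subgroup.one_mem _, fun g _ => by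
              rw [commutatorElement_one_left]; exact Subgroup.one_mem _⟩
            inv_mem' := by
              rintro y ⟨hy, hyc⟩
              refine ⟨Subgroup.inv_mem _ hy, fun g hg => ?_⟩
              have e : ⁅y⁻¹, g⁆ = y⁻¹ * ⁅y, g⁆⁻¹ * y⁻¹⁻¹ := by
                simp only [commutatorElement_def]; group
              rw [e]
              exact hconj y⁻¹ (Subgroup.inv_mem _ hy) _ (Subgroup.inv_mem _ (hyc g hg)) }
        have hTmem : ∀ y, y ∈ T ↔ (y ∈ Cfsg.iterCommutator N G i ∧
            ∀ g ∈ G, ⁅y, g⁆ ∈ Cfsg.iterCommutator N G (i + 1 + 1)) := fun y => Iff.rfl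
        have hT1 : T ≤ Cfsg.iterCommutator N G i := fun y hy => ((hTmem y).mp hy).1
        have hT2 : Cfsg.iterCommutator N G (i + 1) ≤ T := by
          intro y hy
          refine (hTmem y).mpr ⟨iter_anti N G hGN i hy, fun g hg => ?_⟩
          rw [iter_succ N G (i + 1)]
          exact Subgroup.commutator_mem_commutator hy hg
        have hxT : x ∈ T := (hTmem x).mpr ⟨hH hxH, fun g hg =>
          hcase (Subgroup.commutator_mem_commutator hxH hg)⟩
        have hT3 : T ≠ Cfsg.iterCommutator N G (i + 1) := fun h => hxn (h ▸ hxT)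
        have hTeq := hbetween i (by omega) T hT1 hT2 hT3
        have hle : Cfsg.iterCommutator N G (i + 1) ≤ Cfsg.iterCommutator N G (i + 1 + 1) := by
          rw [iter_succ N G i, Subgroup.commutator_le]
          intro y hy g hg
          have hyT : y ∈ T := hTeq ▸ hy
          exact ((hTmem y).mp hyT).2 g hg
        have h1 := Subgroup.card_le_of_le hle
        have h2 := hcardsucc (i + 1) (by omega)
        have h3 := Nat.card_pos (α := Cfsg.iterCommutator N G (i + 1 + 1))
        have h4 := hpp.two_le
        nlinarith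
      · have h1 := ih (i + 1) (by omega) ⁅H, G⁆ hH'le
          (Subgroup.normalizer_commutator_ge_right _ _) hcase
        have h2 : Cfsg.iterCommutator N G (i + 1) ≤ H := h1 ▸ hHG'
        have h3 : H ≠ Cfsg.iterCommutator N G (i + 1) := fun h => hHn (h ▸ le_rfl)
        exact hbetween i (by omega) H hH h2 h3
  -- (δ3)
  have hfind : ∀ k j, j + k = n → ∀ H : Subgroup L, H ≤ Cfsg.iterCommutator N G j →
      G ≤ Subgroup.normalizer (H : Set L) → ∃ i ≤ n, H = Cfsg.iterCommutator N G i := by
    intro k
    induction k with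
    | zero =>
      intro j hj H hH _
      have hjn : j = n := by omega
      rw [hjn, hbot] at hH
      exact ⟨n, le_rfl, by rw [hbot]; exact le_bot_iff.mp hH⟩
    | succ k ih =>
      intro j hj H hH hHG
      by_cases hcase : H ≤ Cfsg.iterCommutator N G (j + 1)
      · exact ih (j + 1) (by omega) H hcase hHG
      · exact ⟨j, by omega, hB k j (by omega) H hH hHG hcase⟩
  refine ⟨?_, ?_⟩
  · by_cases hn0 : n = 0
    · exact Or.inr hn0
    · exact Or.inl (hne (n - 1) (by omega))
  · intro H hH hHG
    obtain ⟨i, hi, rfl⟩ := hfind n 0 (by omega) H hH hHG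
    exact ⟨⟨i, hi, rfl⟩, hNinv i hi⟩

theorem uniserial_of_chain
    (hC : ∀ i ≤ n, Nat.card (Cfsg.iterCommutator N G i) = p ^ (n - i)) :
    ∀ H : Subgroup L, H ≤ N → G ≤ Subgroup.normalizer (H : Set L) → H ≠ ⊥ →
      (⁅H, G⁆).relIndex H = p := by
  have hpp : p.Prime := Fact.out
  intro H hH hHG hne
  obtain ⟨⟨i, hi, rfl⟩, -⟩ := (conseq_of_chain N G hN hG hGN n hn hC).2 H hH hHG
  have hin : i < n := by
    by_contra h
    have hi' : i = n := by omega
    apply hne
    apply Subgroup.card_eq_one.mp
    rw [hC i hi, hi', Nat.sub_self, pow_zero]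
  have h3 := card_mul_relIndex' _ _ (iter_anti N G hGN i)
  rw [← iter_succ]
  rw [hC i hi, hC (i + 1) (by omega)] at h3
  have h4 : p ^ (n - i) = p ^ (n - (i + 1)) * p := by
    rw [← pow_succ]; congr 1; omega
  rw [h4] at h3
  exact Nat.eq_of_mul_eq_mul_left (pow_pos hpp.pos _) h3

end core

/-- A p-group acts uniserially on a p-group N of order p^n exactly when the iterated commutator chain from N has length n; in that case the chain terms are all the invariant subgroups of N and they are normal in N. -/
theorem result {L : Type*} [Group L] [Finite L] {p : ℕ} [Fact p.Prime] (N G : Subgroup L) (hN : IsPGroup p N) (hG : IsPGroup p G) (hGN : G ≤ Subgroup.normalizer (N : Set L)) (n : ℕ) (hn : Nat.card N = p ^ n) : ((∀ H : Subgroup L, H ≤ N → G ≤ Subgroup.normalizer (H : Set L) → H ≠ ⊥ → (⁅H, G⁆).relIndex H = p) ↔ Cfsg.iterCommutator N G (n - 1) ≠ ⊥ ∨ n = 0) ∧ ((∀ H : Subgroup L, H ≤ N → G ≤ Subgroup.normalizer (H : Set L) → H ≠ ⊥ → (⁅H, G⁆).relIndex H = p) → ∀ H : Subgroup L, H ≤ N → G ≤ Subgroup.normalizer (H : Set L) →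 (∃ i ≤ n, H = Cfsg.iterCommutator N G i) ∧ N ≤ Subgroup.normalizer (H : Set L)) := by
  refine ⟨⟨fun hU => ?_, fun h => ?_⟩, fun hU => ?_⟩
  · exact (conseq_of_chain N G hN hG hGN n hn (chain_of_uniserial N G hN hG hGN n hn hU)).1
  · exact uniserial_of_chain N G hN hG hGN n hn (chain_of_last N G hN hG hGN n hn h)
  · exact (conseq_of_chain N G hN hG hGN n hn (chain_of_uniserial N G hN hG hGN n hn hU)).2

end Cfsg.Agent.S0663
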