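import Cfsg.Statements.S0666
import Cfsg.Agent.S0035
import Mathlib

set_option autoImplicit false
open Cfsg

namespace Cfsg.Agent.S0666

open scoped Pointwise

open scoped IsMulCommutative in
/-- Let a Frobenius group F with complement H and kernel K act on a nontrivial abelian group V (inside a common finite group) with gcd(card V, card K) = 1 and C_V(K) = 1. Then C_V(H) ≠ 1. -/
theorem result {G : Type*} [Group G] [Finite G] (V F : Subgroup G) (hVab : IsMulCommutative V) (hV1 : V ≠ ⊥) (hFV : F ≤ Subgroup.normalizer (V : Set G)) (H : Subgroup ↥F) (hH : Cfsg.IsFrobeniusComplement H) (hcop : (Nat.card V).Coprime (Nat.card (Cfsg.frobeniusKernel H))) (hCK : V ⊓ Subgroup.centralizer (Subtype.val '' Cfsg.frobeniusKernel H : Set G) = ⊥) : V ⊓ Subgroup.centralizer ((H.map F.subtype : Subgroup G) : Set G) ≠ ⊥ := by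
  classical
  obtain ⟨N, hNK, hNn, hNH⟩ := Cfsg.Agent.S0035.result H hH
  intro hCH
  have hNmem : ∀ x : F, x ∈ N ↔ x ∈ Cfsg.frobeniusKernel H := fun x => by
    rw [← hNK]; rfl
  let α : F →* MulAut V := (V.normalizerMonoidHom).comp (Subgroup.inclusion hFV)
  have hα : ∀ (f : F) (v : V), ((α f v : V) : G) = (f : G) * (v : G) * (f : G)⁻¹ :=
    fun f v => rfl
  have instF : Fintype F := Fintype.ofFinite F
  have instN : Fintype N := Fintype.ofFinite N
  have instH : Fintype H := Fintype.ofFinite H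
  -- (A) products over H vanish
  have hA : ∀ v : V, ∏ h : H, α (h : F) v = 1 := by
    intro v
    have hfix : ∀ h₀ : H, α (h₀ : F) (∏ h : H, α (h : F) v) = ∏ h : H, α (h : F) v := by
      intro h₀
      rw [map_prod]
      exact Fintype.prod_equiv (Equiv.mulLeft h₀) _ _
        (fun h => by simp [map_mul, MulAut.mul_apply])
    have hmem : ((∏ h : H, α (h : F) v : V) : G) ∈
        V ⊓ Subgroup.centralizer ((H.map F.subtype : Subgroup G) : Set G) := by
      refine Subgroup.mem_inf.mpr ⟨SetLike.coe_mem _, Subgroup.mem_centralizer_iff.mpr ?_⟩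
      rintro _ ⟨h₀, hh₀, rfl⟩
      have h1 := congrArg Subtype.val (hfix ⟨h₀, hh₀⟩)
      rw [hα] at h1
      exact mul_inv_eq_iff_eq_mul.mp h1
    rw [hCH, Subgroup.mem_bot] at hmem
    exact Subtype.ext hmem
  -- elements fixed by N are trivial
  have hfixN : ∀ w : V, (∀ k : N, α (k : F) w = w) → w = 1 := by
    intro w hw
    have hmem : (w : G) ∈ V ⊓ Subgroup.centralizer
        (Subtype.val '' Cfsg.frobeniusKernel H : Set G) := by
      refine Subgroup.mem_inf.mpr ⟨SetLike.coe_mem _, Subgroup.mem_centralizer_iff.mpr ?_⟩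
      rintro _ ⟨k, hk, rfl⟩
      have h1 := congrArg Subtype.val (hw ⟨k, (hNmem k).mpr hk⟩)
      rw [hα] at h1
      exact mul_inv_eq_iff_eq_mul.mp h1
    rw [hCK, Subgroup.mem_bot] at hmem
    exact Subtype.ext hmem
  -- (B) products over N vanish
  have hB : ∀ v : V, ∏ k : N, α (k : F) v = 1 := by
    intro v
    apply hfixN
    intro k₀
    rw [map_prod]
    exact Fintype.prod_equiv (Equiv.mulLeft k₀) _ _
      (fun k => by simp [map_mul, MulAut.mul_apply])
  -- (C) products over F vanish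
  have hC : ∀ v : V, ∏ f : F, α f v = 1 := by
    intro v
    apply hfixN
    intro k₀
    rw [map_prod]
    exact Fintype.prod_equiv (Equiv.mulLeft (k₀ : F)) _ _
      (fun k => by simp [map_mul, MulAut.mul_apply])
  -- the Frobenius partition
  have hdisj : ∀ x : F, x ∈ N → x ∈ H → x = 1 := by
    intro x hxN hxH
    have h1 : Disjoint N H := hNH.disjoint
    have h2 : x ∈ N ⊓ H := ⟨hxN, hxH⟩
    rw [h1.eq_bot, Subgroup.mem_bot] at h2
    exact h2
  let Φ : N ⊕ (N × {h : H // h ≠ 1}) → F :=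
    Sum.elim (fun k => (k : F)) (fun x => (x.1 : F) * ((x.2 : H) : F) * (x.1 : F)⁻¹)
  have hinj : Function.Injective Φ := by
    rintro (k | ⟨k, h, hh⟩) (k' | ⟨k', h', hh'⟩) hxy
    · have h1 : (k : F) = (k' : F) := hxy
      rw [Subtype.ext h1]
    · exfalso
      have h1 : (k : F) = (k' : F) * (h' : F) * (k' : F)⁻¹ := hxy
      have h2 : (h' : F) = (k' : F)⁻¹ * (k : F) * (k' : F) := by rw [h1]; group
      have h3 : (h' : F) ∈ N := by
        rw [h2]
        exact N.mul_mem (N.mul_mem (N.inv_mem k'.2) k.2) k'.2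
      exact hh' (Subtype.ext (hdisj _ h3 h'.2))
    · exfalso
      have h1 : (k : F) * (h : F) * (k : F)⁻¹ = (k' : F) := hxy
      have h2 : (h : F) = (k : F)⁻¹ * (k' : F) * (k : F) := by rw [← h1]; group
      have h3 : (h : F) ∈ N := by
        rw [h2]
        exact N.mul_mem (N.mul_mem (N.inv_mem k.2) k'.2) k.2
      exact hh (Subtype.ext (hdisj _ h3 h.2))
    · have h1 : (k : F) * (h : F) * (k : F)⁻¹ = (k' : F) * (h' : F) * (k' : F)⁻¹ := hxy
      have hg : (k' : F)⁻¹ * (k : F) ∈ H := by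
        by_contra hg
        have h2 := hH.2.2 _ hg
        have h3 : (h' : F) ∈ H ⊓ (MulAut.conj ((k' : F)⁻¹ * (k : F)) • H) := by
          refine Subgroup.mem_inf.mpr ⟨h'.2, ?_⟩
          rw [Subgroup.mem_smul_pointwise_iff_exists]
          refine ⟨(h : F), h.2, ?_⟩
          rw [MulAut.smul_def, MulAut.conj_apply]
          calc (k' : F)⁻¹ * (k : F) * (h : F) * ((k' : F)⁻¹ * (k : F))⁻¹
              = (k' : F)⁻¹ * ((k : F) * (h : F) * (k : F)⁻¹) * (k' : F) := by group
            _ = (h' : F) := by rw [h1]; group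
        rw [h2, Subgroup.mem_bot] at h3
        exact hh' (Subtype.ext h3)
      have hg1 : (k' : F)⁻¹ * (k : F) = 1 :=
        hdisj _ (N.mul_mem (N.inv_mem k'.2) k.2) hg
      have hkk : (k : F) = (k' : F) := (inv_mul_eq_one.mp hg1).symm
      have hk : k = k' := Subtype.ext hkk
      subst hk
      have h4 : (h : F) = (h' : F) := by
        exact mul_left_cancel (mul_right_cancel h1)
      have h5 : h = h' := Subtype.ext h4
      subst h5
      rfl
  have hsurj : Function.Surjective Φ := by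
    intro f
    by_cases hf : f ∈ N
    · exact ⟨Sum.inl ⟨f, hf⟩, rfl⟩
    · have hf' : ¬ (f = 1 ∨ ∀ g : F, f ∉ MulAut.conj g • H) := fun h => hf ((hNmem f).mpr h)
      push Not at hf'
      obtain ⟨hf1, g, hg⟩ := hf'
      rw [Subgroup.mem_smul_pointwise_iff_exists] at hg
      obtain ⟨h, hh, hgh⟩ := hg
      rw [MulAut.smul_def, MulAut.conj_apply] at hgh
      obtain ⟨⟨k, h₀⟩, hkh⟩ := (hNH.existsUnique g).exists
      have hg' : g = (k : F) * (h₀ : F) := hkh.symm
      have hne : (⟨(h₀ : F) * h * (h₀ : F)⁻¹, H.mul_mem (H.mul_mem h₀.2 hh) (H.inv_mem h₀.2)⟩ : H)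
          ≠ 1 := by
        intro h1
        have h2 : (h₀ : F) * h * (h₀ : F)⁻¹ = 1 := congrArg Subtype.val h1
        have h3 : h = 1 := by
          have : h = (h₀ : F)⁻¹ * ((h₀ : F) * h * (h₀ : F)⁻¹) * (h₀ : F) := by group
          rw [this, h2]; group
        apply hf1
        rw [← hgh, h3]; group
      refine ⟨Sum.inr ⟨k, ⟨_, hne⟩⟩, ?_⟩
      show (k : F) * ((h₀ : F) * h * (h₀ : F)⁻¹) * (k : F)⁻¹ = f
      rw [← hgh, hg']; group
  have hbij : Function.Bijective Φ := ⟨hinj, hsurj⟩
  -- evaluate the product over F via the partition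
  have hpow : ∀ v : V, v ^ Fintype.card N = 1 := by
    intro v
    have h1 := hC v
    rw [← Fintype.prod_equiv (Equiv.ofBijective Φ hbij) (fun x => α (Φ x) v) (fun f => α f v)
      (fun x => rfl), Fintype.prod_sum_type, Fintype.prod_prod_type] at h1
    have h2 : ∏ k : N, α (Φ (Sum.inl k)) v = 1 := hB v
    rw [h2, one_mul] at h1
    have h3 : ∀ k : N, ∏ y : {h : H // h ≠ 1}, α (Φ (Sum.inr (k, y))) v = v⁻¹ := by
      intro k
      have h4 := Fintype.prod_subtype_mul_prod_subtype (fun h : H => h = 1)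
        (fun h : H => α ((k : F) * (h : F) * (k : F)⁻¹) v)
      have h5 : ∏ h : H, α ((k : F) * (h : F) * (k : F)⁻¹) v = 1 := by
        have : ∀ h : H, α ((k : F) * (h : F) * (k : F)⁻¹) v =
            α (k : F) (α (h : F) (α (k : F)⁻¹ v)) := by
          intro h
          simp [map_mul, MulAut.mul_apply]
        rw [Fintype.prod_congr _ _ this, ← map_prod, hA, map_one]
      have h7 : ∀ (inst : Fintype {h : H // h = 1}), (@Finset.univ _ inst).prod
          (fun i : {h : H // h = 1} => α ((k : F) * ((i : H) : F) * (k : F)⁻¹) v) = v := by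
        intro inst
        rw [Fintype.prod_subsingleton _ (⟨1, rfl⟩ : {h : H // h = 1})]
        have : (((⟨1, rfl⟩ : {h : H // h = 1}) : H) : F) = 1 := rfl
        rw [this, mul_one, mul_inv_cancel, map_one, MulAut.one_apply]
      rw [h5, h7] at h4
      exact eq_inv_of_mul_eq_one_right h4
    rw [Fintype.prod_congr _ _ h3, Finset.prod_const, Finset.card_univ, inv_pow, inv_eq_one] at h1
    exact h1
  -- conclude V = ⊥
  apply hV1
  rw [Subgroup.eq_bot_iff_forall]
  intro x hx
  have h1 := hpow ⟨x, hx⟩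
  have h2 : orderOf (⟨x, hx⟩ : V) ∣ Fintype.card N := orderOf_dvd_of_pow_eq_one h1
  have h3 : orderOf (⟨x, hx⟩ : V) ∣ Nat.card V := orderOf_dvd_natCard _
  have h4 : Nat.card (Cfsg.frobeniusKernel H) = Fintype.card N := by
    rw [← Nat.card_eq_fintype_card, ← hNK]
    rfl
  rw [h4] at hcop
  have h5 : orderOf (⟨x, hx⟩ : V) = 1 := Nat.eq_one_of_dvd_coprimes hcop h3 h2
  have h6 : (⟨x, hx⟩ : V) = 1 := orderOf_eq_one_iff.mp h5
  exact congrArg Subtype.val h6

end Cfsg.Agent.S0666
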