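import Cfsg.Statements.S0668
import Mathlib

set_option autoImplicit false
open Cfsg

namespace Cfsg.Agent.S0668

/-- The equivariant linear maps between the permutation modules of two finite `G`-sets form a space whose dimension is the number of `G`-orbits on the product of the two sets. -/
theorem result {G : Type*} [Group G] {K : Type*} [Field K] {Ω₁ Ω₂ : Type*} [Fintype Ω₁] [Fintype Ω₂] [MulAction G Ω₁] [MulAction G Ω₂] : Module.finrank K ((Cfsg.permRep K G Ω₁).linHom (Cfsg.permRep K G Ω₂)).invariants = Nat.card (MulAction.orbitRel.Quotient G (Ω₁ × Ω₂)) := by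
  classical
  have hfin : Finite (MulAction.orbitRel.Quotient G (Ω₁ × Ω₂)) := Quotient.finite _
  let _ : Fintype (MulAction.orbitRel.Quotient G (Ω₁ × Ω₂)) := Fintype.ofFinite _
  let Φ₀ : (MulAction.orbitRel.Quotient G (Ω₁ × Ω₂) → K) →ₗ[K] Matrix Ω₂ Ω₁ K :=
    { toFun := fun ψ => Matrix.of fun (y : Ω₂) (x : Ω₁) => ψ (Quotient.mk'' (x, y))
      map_add' := fun ψ₁ ψ₂ => rfl
      map_smul' := fun c ψ => rfl }
  have hΦ₀ : ∀ ψ y x, Φ₀ ψ y x = ψ (Quotient.mk'' (x, y)) := fun ψ y x => rfl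
  let Φ₁ : (MulAction.orbitRel.Quotient G (Ω₁ × Ω₂) → K) →ₗ[K] ((Ω₁ → K) →ₗ[K] (Ω₂ → K)) :=
    (Matrix.toLin' : Matrix Ω₂ Ω₁ K ≃ₗ[K] _).toLinearMap ∘ₗ Φ₀
  have hΦ₁ : ∀ ψ, Φ₁ ψ = Matrix.toLin' (Φ₀ ψ) := fun ψ => rfl
  have hinv : ∀ ψ, Φ₁ ψ ∈ ((Cfsg.permRep K G Ω₁).linHom (Cfsg.permRep K G Ω₂)).invariants := by
    intro ψ g
    rw [Representation.linHom_apply, hΦ₁]
    apply LinearMap.ext; intro h; funext y
    change (Matrix.toLin' (Φ₀ ψ) ((Cfsg.permRep K G Ω₁) g⁻¹ h)) (g⁻¹ • y) = _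
    rw [Matrix.toLin'_apply, Matrix.toLin'_apply]
    simp only [Matrix.mulVec, dotProduct, hΦ₀]
    apply Fintype.sum_equiv (MulAction.toPerm g)
    intro x
    have h1 : ((Cfsg.permRep K G Ω₁) g⁻¹ h) x = h (g • x) := by
      change h (g⁻¹⁻¹ • x) = _; rw [inv_inv]
    have h2 : (Quotient.mk'' (x, g⁻¹ • y) : MulAction.orbitRel.Quotient G (Ω₁ × Ω₂)) =
        Quotient.mk'' (g • x, y) := by
      rw [Quotient.eq'', MulAction.orbitRel_apply]
      refine ⟨g⁻¹, ?_⟩
      change (g⁻¹ • g • x, g⁻¹ • y) = (x, g⁻¹ • y)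
      rw [inv_smul_smul]
    rw [h1, h2]; rfl
  let Φ : (MulAction.orbitRel.Quotient G (Ω₁ × Ω₂) → K) →ₗ[K]
      ((Cfsg.permRep K G Ω₁).linHom (Cfsg.permRep K G Ω₂)).invariants :=
    LinearMap.codRestrict _ Φ₁ hinv
  have hΦ : ∀ ψ, ((Φ ψ : ((Cfsg.permRep K G Ω₁).linHom (Cfsg.permRep K G Ω₂)).invariants) :
      (Ω₁ → K) →ₗ[K] (Ω₂ → K)) = Matrix.toLin' (Φ₀ ψ) := fun ψ => rfl
  have hinj : Function.Injective Φ := by
    intro ψ₁ ψ₂ h
    have h1 := congrArg Subtype.val h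
    rw [hΦ, hΦ] at h1
    have h2 : Φ₀ ψ₁ = Φ₀ ψ₂ := Matrix.toLin'.injective h1
    funext q
    induction q using Quotient.inductionOn' with
    | h p =>
      obtain ⟨x, y⟩ := p
      have h3 := congrFun (congrFun h2 y) x
      rwa [hΦ₀, hΦ₀] at h3
  have hsurj : Function.Surjective Φ := by
    rintro ⟨f, hf⟩
    have hf' : ∀ (g : G) (x : Ω₁) (y : Ω₂),
        f (Pi.single (g • x) 1) (g • y) = f (Pi.single x 1) y := by
      intro g x y
      have h1 := hf g⁻¹
      rw [Representation.linHom_apply] at h1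
      have h2 := congrFun (LinearMap.congr_fun h1 (Pi.single x 1)) y
      rw [← h2]
      change _ = f ((Cfsg.permRep K G Ω₁) g⁻¹⁻¹ (Pi.single x 1)) (g⁻¹⁻¹ • y)
      rw [inv_inv]
      have h4 : (Pi.single (g • x) 1 : Ω₁ → K) = (Cfsg.permRep K G Ω₁) g (Pi.single x 1) := by
        funext z
        change _ = (Pi.single x 1 : Ω₁ → K) (g⁻¹ • z)
        by_cases hz : z = g • x
        · subst hz; simp
        · have hz' : g⁻¹ • z ≠ x := by
            intro h3; apply hz; rw [← h3, smul_inv_smul]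
          simp [hz, hz']
      rw [h4]
    let ψ : MulAction.orbitRel.Quotient G (Ω₁ × Ω₂) → K :=
      Quotient.lift (fun p : Ω₁ × Ω₂ => f (Pi.single p.1 1) p.2) (by
        rintro ⟨x, y⟩ ⟨x', y'⟩ h
        have h' : (x, y) ∈ MulAction.orbit G (x', y') := MulAction.orbitRel_apply.mp h
        obtain ⟨g, hg⟩ := h'
        have hg' : (g • x', g • y') = (x, y) := hg
        have hx : g • x' = x := (Prod.ext_iff.mp hg').1
        have hy : g • y' = y := (Prod.ext_iff.mp hg').2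
        change f (Pi.single x 1) y = f (Pi.single x' 1) y'
        rw [← hx, ← hy, hf'])
    refine ⟨ψ, ?_⟩
    apply Subtype.ext
    rw [hΦ]
    have h3 : Φ₀ ψ = LinearMap.toMatrix' f := by
      ext y x
      rw [hΦ₀, LinearMap.toMatrix'_apply]
      change f (Pi.single x 1) y = _
      have h5 : (Pi.single x 1 : Ω₁ → K) = fun j' => if j' = x then 1 else 0 := by
        funext z; simp [Pi.single_apply]
      rw [h5]
    rw [h3, Matrix.toLin'_toMatrix']
  have e := LinearEquiv.ofBijective Φ ⟨hinj, hsurj⟩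
  rw [← e.finrank_eq, Module.finrank_fintype_fun_eq_card, Nat.card_eq_fintype_card]

end Cfsg.Agent.S0668
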