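import Cfsg.Statements.S0670
import Mathlib

set_option autoImplicit false
open Cfsg

namespace Cfsg.Agent.S0670

theorem sylow_transitive {G : Type*} [Group G] [Finite G] {p f : ℕ} [Fact p.Prime] {Ω : Type*}
    [Fintype Ω] [MulAction G Ω] [MulAction.IsPretransitive G Ω] (hcard : Fintype.card Ω = p ^ f)
    (P : Sylow p G) (a x : Ω) : ∃ g ∈ (P : Subgroup G), g • a = x := by
  classical
  have hp : p.Prime := Fact.out
  obtain ⟨H, hH⟩ : ∃ H, H = MulAction.stabilizer G a := ⟨_, rfl⟩
  have hHidx : H.index = p ^ f := by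
    rw [hH, MulAction.index_stabilizer_of_transitive, Nat.card_eq_fintype_card, hcard]
  have hHcard : Nat.card H * p ^ f = Nat.card G := by
    rw [← hHidx]; exact Subgroup.card_mul_index H
  have hstab : MulAction.stabilizer (↥(P : Subgroup G)) a = H.subgroupOf (P : Subgroup G) := by
    rw [hH]; ext g; rfl
  obtain ⟨j, hj⟩ := IsPGroup.iff_card.mp (P.isPGroup'.to_subgroup (H.subgroupOf (P : Subgroup G)))
  have hdvd : p ^ j ∣ Nat.card H := by
    rw [← hj, ← Subgroup.card_map_of_injective (P : Subgroup G).subtype_injective]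
    exact Subgroup.card_dvd_of_le (by rintro _ ⟨y, hy, rfl⟩; exact hy)
  have hje : j + f ≤ (Nat.card G).factorization p := by
    rw [← hp.pow_dvd_iff_le_factorization Nat.card_pos.ne', pow_add, ← hHcard]
    exact Nat.mul_dvd_mul_right hdvd _
  have hidx : (H.subgroupOf (P : Subgroup G)).index * p ^ j =
      p ^ (Nat.card G).factorization p := by
    rw [← hj, mul_comm, Subgroup.card_mul_index, P.card_eq_multiplicity]
  have horb : p ^ f ≤ (MulAction.orbit (↥(P : Subgroup G)) a).ncard := by
    rw [← MulAction.index_stabilizer, hstab]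
    have h1 : (H.subgroupOf (P : Subgroup G)).index =
        p ^ ((Nat.card G).factorization p - j) := by
      apply Nat.eq_of_mul_eq_mul_right (pow_pos hp.pos j)
      rw [hidx, ← pow_add]; congr 1; omega
    rw [h1]
    exact Nat.pow_le_pow_right hp.pos (by omega)
  have huniv : MulAction.orbit (↥(P : Subgroup G)) a = Set.univ :=
    Set.eq_of_subset_of_ncard_le (Set.subset_univ _)
      (by rw [Set.ncard_univ, Nat.card_eq_fintype_card, hcard]; exact horb) Set.finite_univ
  have hx : x ∈ MulAction.orbit (↥(P : Subgroup G)) a := by rw [huniv]; trivial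
  obtain ⟨g, hg⟩ := hx
  exact ⟨g, g.2, hg⟩

/-- In characteristic `p`, the permutation module of a transitive action of degree `p ^ f` has the line of constant functions as its only irreducible submodule: every non-zero subrepresentation contains it. -/
theorem result {G : Type*} [Group G] [Finite G] {K : Type*} [Field K] {p f : ℕ} [Fact p.Prime] [CharP K p] {Ω : Type*} [Fintype Ω] [MulAction G Ω] [MulAction.IsPretransitive G Ω] (hf : 1 ≤ f) (hcard : Fintype.card Ω = p ^ f) (W : Subrepresentation (Cfsg.permRep K G Ω)) (hW : W.toSubmodule ≠ ⊥) : (Cfsg.permConstants K G Ω).toSubmodule ≤ W.toSubmodule := by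
  classical
  have hp : p.Prime := Fact.out
  obtain ⟨w, hwW, hw0⟩ := (Submodule.ne_bot_iff _).mp hW
  obtain ⟨P⟩ : Nonempty (Sylow p G) := inferInstance
  let _ : Algebra (ZMod p) K := ZMod.algebra K p
  obtain ⟨M, hMdef⟩ : ∃ M : Submodule (ZMod p) (Ω → K), M = Submodule.span (ZMod p)
      (Set.range (fun g : (P : Subgroup G) => (Cfsg.permRep K G Ω) (g : G) w)) := ⟨_, rfl⟩
  have hMfin : Module.Finite (ZMod p) M := by
    rw [hMdef]; exact Module.Finite.span_of_finite _ (Set.finite_range _)
  have hMfinite : Finite M := Module.finite_of_finite (ZMod p)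
  have hMW : ∀ m ∈ M, m ∈ W.toSubmodule := by
    have h1 : M ≤ W.toSubmodule.restrictScalars (ZMod p) := by
      rw [hMdef]
      apply Submodule.span_le.mpr
      rintro _ ⟨g, rfl⟩
      exact W.apply_mem_toSubmodule (g : G) hwW
    exact fun m hm => h1 hm
  have hMinv : ∀ g ∈ (P : Subgroup G), ∀ m ∈ M, (Cfsg.permRep K G Ω) g m ∈ M := by
    intro g hg m hm
    rw [hMdef] at hm ⊢
    induction hm using Submodule.span_induction with
    | mem m hm =>
      obtain ⟨h, rfl⟩ := hm
      apply Submodule.subset_span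
      exact ⟨⟨g * h, mul_mem hg h.2⟩, by simp [map_mul]⟩
    | zero => simp
    | add m₁ m₂ _ _ ih₁ ih₂ => rw [map_add]; exact Submodule.add_mem _ ih₁ ih₂
    | smul c m _ ih =>
      have h1 : (Cfsg.permRep K G Ω) g (c • m) = c • (Cfsg.permRep K G Ω) g m := by
        rw [← algebraMap_smul K c m, map_smul, algebraMap_smul]
      rw [h1]; exact Submodule.smul_mem _ c ih
  let _ : MulAction ↥(P : Subgroup G) ↥M :=
    { smul := fun g m => ⟨(Cfsg.permRep K G Ω) (g : G) m, hMinv g g.2 m m.2⟩
      one_smul := fun m => Subtype.ext (by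
        change (Cfsg.permRep K G Ω) ((1 : ↥(P : Subgroup G)) : G) m = m
        simp)
      mul_smul := fun g h m => Subtype.ext (by
        change (Cfsg.permRep K G Ω) ((g * h : ↥(P : Subgroup G)) : G) m =
          (Cfsg.permRep K G Ω) (g : G) ((Cfsg.permRep K G Ω) (h : G) m)
        simp [map_mul]) }
  have hsmul : ∀ (g : ↥(P : Subgroup G)) (m : ↥M),
      ((g • m : ↥M) : Ω → K) = (Cfsg.permRep K G Ω) (g : G) m := fun g m => rfl
  have hwM : w ∈ M := by
    rw [hMdef]; exact Submodule.subset_span ⟨1, by simp⟩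
  have hpM : p ∣ Nat.card M := by
    have h1 : addOrderOf (⟨w, hwM⟩ : M) = p := by
      apply addOrderOf_eq_prime
      · apply Subtype.ext
        funext x
        simp
      · intro h; exact hw0 (congrArg Subtype.val h)
    have h3 := addOrderOf_dvd_natCard (⟨w, hwM⟩ : M)
    rwa [h1] at h3
  obtain ⟨b, hbfix, hb0⟩ := P.isPGroup'.exists_fixed_point_of_prime_dvd_card_of_fixed_point
    (α := ↥M) hpM (a := 0) (by
      intro g; apply Subtype.ext; rw [hsmul]; simp)
  have hbW : (b : Ω → K) ∈ W.toSubmodule := hMW b b.2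
  have hbfix' : ∀ g ∈ (P : Subgroup G), ∀ x : Ω, (b : Ω → K) (g • x) = (b : Ω → K) x := by
    intro g hg x
    have h1 := congrArg Subtype.val (hbfix ⟨g⁻¹, inv_mem hg⟩)
    rw [hsmul] at h1
    have h2 := congrFun h1 x
    change (b : Ω → K) ((g⁻¹)⁻¹ • x) = _ at h2
    rwa [inv_inv] at h2
  obtain ⟨a⟩ : Nonempty Ω := Fintype.card_pos_iff.mp (by rw [hcard]; exact pow_pos hp.pos f)
  have hconst : ∀ x : Ω, (b : Ω → K) x = (b : Ω → K) a := by
    intro x
    obtain ⟨g, hg, hgx⟩ := sylow_transitive hcard P a x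
    rw [← hgx, hbfix' g hg]
  have hba : (b : Ω → K) a ≠ 0 := by
    intro h
    apply hb0
    apply Subtype.ext
    funext x
    rw [hconst, h]; rfl
  change Submodule.span K {fun _ => (1 : K)} ≤ W.toSubmodule
  rw [Submodule.span_le, Set.singleton_subset_iff]
  have h1 : (fun _ : Ω => (1 : K)) = ((b : Ω → K) a)⁻¹ • (b : Ω → K) := by
    funext x; simp [hconst x, hba]
  rw [h1]
  exact W.toSubmodule.smul_mem _ hbW

end Cfsg.Agent.S0670
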