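import Cfsg.Statements.S0672
import Mathlib

set_option autoImplicit false
open Cfsg

namespace Cfsg.Agent.S0672

open MulAction
open scoped Pointwise

universe u v w

section

variable {G : Type u} [Group G] {K : Type v} [Field K] {Ω : Type w} [Fintype Ω] [DecidableEq Ω]
  [MulAction G Ω]

/-- the hypothesis on intertwining maps -/
def Hyp (G : Type u) [Group G] (K : Type v) [Field K] (Ω : Type w) [Fintype Ω] [DecidableEq Ω]
    [MulAction G Ω] : Prop :=
  ∀ f : Representation.IntertwiningMap (Cfsg.permSumZero K G Ω).toRepresentation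
    (Cfsg.permRep K G (Set.powersetCard Ω 2)),
    (∀ v : (Cfsg.permSumZero K G Ω).toSubmodule,
      (v : Ω → K) ∈ (Cfsg.permConstants K G Ω).toSubmodule → f v = 0) → f = 0

/-- the linear map with kernel `κ` -/
noncomputable def Lmap (κ : Ω → Set.powersetCard Ω 2 → K) :
    (Ω → K) →ₗ[K] (Set.powersetCard Ω 2 → K) where
  toFun f := fun B => ∑ x, κ x B * f x
  map_add' f₁ f₂ := by
    funext B
    simp only [Pi.add_apply, mul_add, Finset.sum_add_distrib]
  map_smul' c f := by
    funext B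
    simp only [Pi.smul_apply, smul_eq_mul, RingHom.id_apply, Finset.mul_sum]
    apply Finset.sum_congr rfl
    intro x _
    ring

theorem Lmap_apply (κ : Ω → Set.powersetCard Ω 2 → K) (f : Ω → K) (B : Set.powersetCard Ω 2) :
    Lmap κ f B = ∑ x, κ x B * f x := rfl

theorem Lmap_equiv (κ : Ω → Set.powersetCard Ω 2 → K)
    (hinv : ∀ (g : G) x B, κ (g • x) (g • B) = κ x B) (g : G) (f : Ω → K) :
    Lmap κ (Cfsg.permRep K G Ω g f) =
      Cfsg.permRep K G (Set.powersetCard Ω 2) g (Lmap κ f) := by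
  funext B
  show ∑ x, κ x B * f (g⁻¹ • x) = ∑ x, κ x (g⁻¹ • B) * f x
  apply Fintype.sum_equiv (MulAction.toPerm g⁻¹)
  intro x
  show κ x B * f (g⁻¹ • x) = κ (g⁻¹ • x) (g⁻¹ • B) * f (g⁻¹ • x)
  rw [hinv]

theorem sum_inv (κ : Ω → Set.powersetCard Ω 2 → K)
    (hinv : ∀ (g : G) x B, κ (g • x) (g • B) = κ x B) (g : G) (B : Set.powersetCard Ω 2) :
    ∑ x, κ x (g • B) = ∑ x, κ x B := by
  symm
  apply Fintype.sum_equiv (MulAction.toPerm g)
  intro x
  show κ x B = κ (g • x) (g • B)
  rw [hinv]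

theorem kernel_const (h : Hyp G K Ω) (κ : Ω → Set.powersetCard Ω 2 → K)
    (hinv : ∀ (g : G) x B, κ (g • x) (g • B) = κ x B)
    (hsum : ∀ B, ∑ x, κ x B = 0) (u y : Ω) (B : Set.powersetCard Ω 2) : κ u B = κ y B := by
  let Lr : (Cfsg.permSumZero K G Ω).toSubmodule →ₗ[K] (Set.powersetCard Ω 2 → K) :=
    (Lmap κ).comp (Cfsg.permSumZero K G Ω).toSubmodule.subtype
  let F := LinearMap.intertwiningMap_of_isIntertwiningMap
    (Cfsg.permSumZero K G Ω).toRepresentation (Cfsg.permRep K G (Set.powersetCard Ω 2)) Lr (by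
      intro g v
      exact Lmap_equiv κ hinv g (v : Ω → K))
  have hF : F = 0 := by
    apply h
    intro v hv
    obtain ⟨c, hc⟩ := Submodule.mem_span_singleton.mp hv
    show Lmap κ (v : Ω → K) = 0
    rw [← hc]
    funext B'
    rw [Lmap_apply]
    simp only [Pi.smul_apply, smul_eq_mul, mul_one, Pi.zero_apply]
    rw [← Finset.sum_mul, hsum, zero_mul]
  have hv : (Pi.single u (1 : K) - Pi.single y (1 : K) : Ω → K) ∈
      (Cfsg.permSumZero K G Ω).toSubmodule := by
    show ∑ x, (Pi.single u (1 : K) - Pi.single y (1 : K) : Ω → K) x = 0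
    simp [Finset.sum_sub_distrib]
  have h1 : F ⟨_, hv⟩ B = 0 := by
    rw [hF]
    rfl
  have h2 : F ⟨_, hv⟩ B = κ u B - κ y B := by
    show ∑ x, κ x B * (Pi.single u (1 : K) - Pi.single y (1 : K) : Ω → K) x = _
    simp [Pi.single_apply, mul_sub, Finset.sum_sub_distrib]
  rw [h2] at h1
  exact sub_eq_zero.mp h1

theorem mem_of_smul {g : G} {B : Set.powersetCard Ω 2} (hg : g • B = B) (x : Ω) :
    g • x ∈ (B : Finset Ω) ↔ x ∈ (B : Finset Ω) := by
  have h1 : (g • (B : Finset Ω)) = (B : Finset Ω) := by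
    rw [← Set.powersetCard.coe_smul, hg]
  conv_lhs => rw [← h1]
  exact Finset.smul_mem_smul_finset_iff g

open Classical in
/-- indicator of the orbit of the flag `(u, B)` -/
noncomputable def ind (G : Type u) [Group G] (K : Type v) [Field K] {Ω : Type w} [Fintype Ω]
    [DecidableEq Ω] [MulAction G Ω] (u : Ω) (B : Set.powersetCard Ω 2) :
    Ω → Set.powersetCard Ω 2 → K :=
  fun x B' => if ∃ g : G, g • u = x ∧ g • B = B' then 1 else 0

open Classical in
theorem ind_inv (u : Ω) (B : Set.powersetCard Ω 2) (g : G) (x : Ω)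
    (B' : Set.powersetCard Ω 2) : ind G K u B (g • x) (g • B') = ind G K u B x B' := by
  have hiff : (∃ g' : G, g' • u = g • x ∧ g' • B = g • B') ↔
      (∃ g' : G, g' • u = x ∧ g' • B = B') := by
    constructor
    · rintro ⟨g', h1, h2⟩
      refine ⟨g⁻¹ * g', ?_, ?_⟩
      · rw [mul_smul, h1, inv_smul_smul]
      · rw [mul_smul, h2, inv_smul_smul]
    · rintro ⟨g', h1, h2⟩
      exact ⟨g * g', by rw [mul_smul, h1], by rw [mul_smul, h2]⟩
  exact if_congr hiff rfl rfl

theorem setwise_trans (h2 : IsMultiplyPretransitive G Ω 2) (h : Hyp G K Ω)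
    (B : Set.powersetCard Ω 2) (u v : Ω)
    (hu : u ∉ (B : Finset Ω)) (hv : v ∉ (B : Finset Ω)) : ∃ g : G, g • B = B ∧ g • u = v := by
  by_contra hcon
  push Not at hcon
  have htr : IsPretransitive G (Set.powersetCard Ω 2) :=
    Set.powersetCard.isPretransitive_of_isMultiplyPretransitive G h2
  obtain ⟨y, hy⟩ : ∃ y, y ∈ (B : Finset Ω) := by
    apply Finset.card_pos.mp
    rw [Set.powersetCard.card_eq]
    norm_num
  have hI1u : ind G K u B u B = 1 := if_pos ⟨1, one_smul _ _, one_smul _ _⟩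
  have hI2v : ind G K v B v B = 1 := if_pos ⟨1, one_smul _ _, one_smul _ _⟩
  have hI1v : ind G K u B v B = 0 := if_neg (by
    rintro ⟨g, h1, h2⟩
    exact hcon g h2 h1)
  have hI1y : ind G K u B y B = 0 := if_neg (by
    rintro ⟨g, h1, h2⟩
    apply hu
    rw [← mem_of_smul h2 u, h1]
    exact hy)
  have hI2y : ind G K v B y B = 0 := if_neg (by
    rintro ⟨g, h1, h2⟩
    apply hv
    rw [← mem_of_smul h2 v, h1]
    exact hy)
  have hall : ∀ κ : Ω → Set.powersetCard Ω 2 → K,
      (∀ (g : G) x B, κ (g • x) (g • B) = κ x B) → ∑ x, κ x B = 0 → ∀ a b, κ a B = κ b B := by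
    intro κ hinv hs a b
    apply kernel_const h κ hinv _ a b B
    intro B'
    obtain ⟨g, hg⟩ := MulAction.exists_smul_eq G B B'
    rw [← hg, sum_inv κ hinv]
    exact hs
  by_cases hk : ∑ x, ind G K u B x B = 0
  · have := hall _ (ind_inv u B) hk u y
    rw [hI1u, hI1y] at this
    exact one_ne_zero this
  · have := hall (fun x B' => (∑ x, ind G K v B x B) * ind G K u B x B' -
        (∑ x, ind G K u B x B) * ind G K v B x B') (by
      intro g x B'
      simp only [ind_inv]) (by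
      rw [Finset.sum_sub_distrib, ← Finset.mul_sum, ← Finset.mul_sum, mul_comm, sub_self]) v y
    simp only [hI1v, hI2v, hI1y, hI2y, mul_zero, mul_one, zero_sub, sub_zero, neg_eq_zero] at this
    exact hk this

theorem pair_cases {g : G} {c d : Ω} (hcd : c ≠ d) (B : Set.powersetCard Ω 2)
    (hB : (B : Finset Ω) = {c, d}) (hg : g • B = B) :
    (g • c = c ∧ g • d = d) ∨ (g • c = d ∧ g • d = c) := by
  have hc : g • c ∈ (B : Finset Ω) := (mem_of_smul hg c).mpr (by rw [hB]; simp)
  have hd : g • d ∈ (B : Finset Ω) := (mem_of_smul hg d).mpr (by rw [hB]; simp)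
  rw [hB] at hc hd
  simp only [Finset.mem_insert, Finset.mem_singleton] at hc hd
  have hne : g • c ≠ g • d := fun h => hcd (MulAction.injective g h)
  rcases hc with hc | hc <;> rcases hd with hd | hd
  · exact absurd (hc.trans hd.symm) hne
  · exact Or.inl ⟨hc, hd⟩
  · exact Or.inr ⟨hc, hd⟩
  · exact absurd (hc.trans hd.symm) hne

theorem main [Finite G] [FaithfulSMul G Ω] (h2 : IsMultiplyPretransitive G Ω 2)
    (heven : ∀ a : Ω, Even (Nat.card (stabilizer G a))) (h : Hyp G K Ω) :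
    IsMultiplyPretransitive G Ω 3 := by
  rw [MulAction.isMultiplyPretransitive_iff]
  intro x y
  have h2' : ∀ {a b c d : Ω}, a ≠ b → c ≠ d → ∃ g : G, g • a = c ∧ g • b = d :=
    fun hab hcd => MulAction.is_two_pretransitive_iff.mp h2 hab hcd
  obtain ⟨t, ht⟩ := exists_prime_orderOf_dvd_card' (G := stabilizer G (x 0)) 2
    (even_iff_two_dvd.mp (heven (x 0)))
  have hτa : (t : G) • x 0 = x 0 := t.2
  have ht2 : (t : G) * (t : G) = 1 := by
    have := pow_orderOf_eq_one t
    rw [ht, pow_two] at this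
    exact congrArg Subtype.val this
  have ht1 : (t : G) ≠ 1 := by
    intro h1
    have : t = 1 := Subtype.ext h1
    rw [this, orderOf_one] at ht
    omega
  obtain ⟨c, hc⟩ : ∃ c : Ω, (t : G) • c ≠ c := by
    by_contra hcon
    push Not at hcon
    apply ht1
    apply FaithfulSMul.eq_of_smul_eq_smul (α := Ω)
    intro a
    rw [hcon a, one_smul]
  have hτd : (t : G) • ((t : G) • c) = c := by
    rw [← mul_smul, ht2, one_smul]
  have hac : x 0 ≠ c := by
    intro h0
    apply hc
    rw [← h0]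
    exact hτa
  have had : x 0 ≠ (t : G) • c := by
    intro h0
    apply hac
    apply MulAction.injective (t : G)
    show (t : G) • x 0 = (t : G) • c
    rw [hτa]
    exact h0
  have hcd_ne : c ≠ (t : G) • c := fun h0 => hc h0.symm
  let B : Set.powersetCard Ω 2 := ⟨{c, (t : G) • c}, by
    rw [Set.powersetCard.mem_iff]
    exact Finset.card_pair hcd_ne⟩
  have hB : (B : Finset Ω) = {c, (t : G) • c} := rfl
  have hnotB : ∀ z : Ω, z ≠ c → z ≠ (t : G) • c → z ∉ (B : Finset Ω) := by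
    intro z hz1 hz2 hz
    rw [hB] at hz
    simp only [Finset.mem_insert, Finset.mem_singleton] at hz
    rcases hz with hz | hz
    · exact hz1 hz
    · exact hz2 hz
  have hto : ∀ a' : Ω, a' ≠ c → a' ≠ (t : G) • c →
      ∃ g : G, g • c = c ∧ g • ((t : G) • c) = (t : G) • c ∧ g • a' = x 0 := by
    intro a' ha1 ha2
    obtain ⟨g₁, hg₁B, hg₁⟩ := setwise_trans h2 h B a' (x 0) (hnotB a' ha1 ha2)
      (hnotB (x 0) hac had)
    rcases pair_cases hcd_ne B hB hg₁B with ⟨h1, h2⟩ | ⟨h1, h2⟩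
    · exact ⟨g₁, h1, h2, hg₁⟩
    · refine ⟨(t : G) * g₁, ?_, ?_, ?_⟩
      · rw [mul_smul, h1, hτd]
      · rw [mul_smul, h2]
      · rw [mul_smul, hg₁, hτa]
  have hcd : ∀ a' b' : Ω, a' ≠ c → a' ≠ (t : G) • c → b' ≠ c → b' ≠ (t : G) • c →
      ∃ g : G, g • c = c ∧ g • ((t : G) • c) = (t : G) • c ∧ g • a' = b' := by
    intro a' b' ha1 ha2 hb1 hb2
    obtain ⟨g₁, h1, h2, h3⟩ := hto a' ha1 ha2
    obtain ⟨g₂, k1, k2, k3⟩ := hto b' hb1 hb2
    refine ⟨g₂⁻¹ * g₁, ?_, ?_, ?_⟩
    · rw [mul_smul, h1, inv_smul_eq_iff, k1]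
    · rw [mul_smul, h2, inv_smul_eq_iff, k2]
    · rw [mul_smul, h3, inv_smul_eq_iff, k3]
  have hall : ∀ y' z' : Ω, y' ≠ z' → ∀ a' b' : Ω, a' ≠ y' → a' ≠ z' → b' ≠ y' → b' ≠ z' →
      ∃ g : G, g • y' = y' ∧ g • z' = z' ∧ g • a' = b' := by
    intro y' z' hyz a' b' ha1 ha2 hb1 hb2
    obtain ⟨g₀, h1, h2⟩ := h2' hcd_ne hyz
    have e1 : g₀⁻¹ • y' = c := by rw [inv_smul_eq_iff, h1]
    have e2 : g₀⁻¹ • z' = (t : G) • c := by rw [inv_smul_eq_iff, h2]
    obtain ⟨g, hgc, hgd, hg⟩ := hcd (g₀⁻¹ • a') (g₀⁻¹ • b')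
      (by rw [← e1]; exact fun h0 => ha1 (MulAction.injective _ h0))
      (by rw [← e2]; exact fun h0 => ha2 (MulAction.injective _ h0))
      (by rw [← e1]; exact fun h0 => hb1 (MulAction.injective _ h0))
      (by rw [← e2]; exact fun h0 => hb2 (MulAction.injective _ h0))
    refine ⟨g₀ * g * g₀⁻¹, ?_, ?_, ?_⟩
    · rw [mul_smul, mul_smul, e1, hgc, h1]
    · rw [mul_smul, mul_smul, e2, hgd, h2]
    · rw [mul_smul, mul_smul, hg, smul_inv_smul]
  have hx01 : x 0 ≠ x 1 := fun h0 => by simpa using x.injective h0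
  have hx02 : x 0 ≠ x 2 := fun h0 => by simpa using x.injective h0
  have hx12 : x 1 ≠ x 2 := fun h0 => by simpa using x.injective h0
  have hy01 : y 0 ≠ y 1 := fun h0 => by simpa using y.injective h0
  have hy02 : y 0 ≠ y 2 := fun h0 => by simpa using y.injective h0
  have hy12 : y 1 ≠ y 2 := fun h0 => by simpa using y.injective h0
  obtain ⟨g₁, h1, h2⟩ := h2' hx01 hy01
  obtain ⟨g₂, k1, k2, k3⟩ := hall (y 0) (y 1) hy01 (g₁ • x 2) (y 2)
    (by rw [← h1]; exact fun h0 => hx02 (MulAction.injective _ h0).symm)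
    (by rw [← h2]; exact fun h0 => hx12 (MulAction.injective _ h0).symm)
    hy02.symm hy12.symm
  refine ⟨g₂ * g₁, ?_⟩
  ext i
  fin_cases i
  · show (g₂ * g₁) • x 0 = y 0
    rw [mul_smul, h1, k1]
  · show (g₂ * g₁) • x 1 = y 1
    rw [mul_smul, h2, k2]
  · show (g₂ * g₁) • x 2 = y 2
    rw [mul_smul, k3]

end

/-- Let a finite group act faithfully and doubly transitively with point stabilisers of even order, and let `K` have characteristic `p` dividing the degree. If the heart of the permutation module admits no non-zero equivariant map to the permutation module on unordered pairs (phrased: every intertwining map from the sum-zero functions vanishing on the constants is zero), the action is triply transitive. -/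
theorem result {G : Type*} [Group G] [Finite G] {K : Type*} [Field K] {p : ℕ} [Fact p.Prime] [CharP K p] {Ω : Type*} [Fintype Ω] [DecidableEq Ω] [MulAction G Ω] [FaithfulSMul G Ω] (h2 : MulAction.IsMultiplyPretransitive G Ω 2) (hp : p ∣ Fintype.card Ω) (heven : ∀ a : Ω, Even (Nat.card (MulAction.stabilizer G a))) (h : ∀ f : Representation.IntertwiningMap (Cfsg.permSumZero K G Ω).toRepresentation (Cfsg.permRep K G (Set.powersetCard Ω 2)), (∀ v : (Cfsg.permSumZero K G Ω).toSubmodule, (v : Ω → K) ∈ (Cfsg.permConstants K G Ω).toSubmodule → f v = 0) → f = 0) : MulAction.IsMultiplyPretransitive G Ω 3 := by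
  exact main h2 heven h

end Cfsg.Agent.S0672
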