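import Cfsg.Statements.S0676
import Mathlib
import Cfsg.Agent.S0672
import Cfsg.Agent.S0674
import Cfsg.Agent.S0675
import Cfsg.Agent.Lib.Helper23.PrimeDeg2

set_option autoImplicit false
open Cfsg

namespace Cfsg.Agent.S0676

open MulAction
open scoped Pointwise

universe u

section

variable {α : Type u} [Fintype α] [DecidableEq α] {p : ℕ} [Fact p.Prime]

/-- powers of the translation in coordinates -/
theorem sigma_pow (G : Subgroup (Equiv.Perm α)) (σ : G) (e : ZMod p ≃ α)
    (he : ∀ j : ZMod p, e (j + 1) = (σ : Equiv.Perm α) (e j)) (k : ℕ) (j : ZMod p) :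
    ((σ ^ k : G) : Equiv.Perm α) (e j) = e (j + k) := by
  induction k generalizing j with
  | zero => simp
  | succ k ih =>
    rw [pow_succ, Subgroup.coe_mul, Equiv.Perm.mul_apply, ← he, ih]
    congr 1
    push_cast
    ring

/-- the kernel of an intertwiner defined on the sum-zero functions, as a subrepresentation -/
noncomputable def kerSub (G : Subgroup (Equiv.Perm α)) (K : Type*) [Field K]
    (f : Representation.IntertwiningMap (Cfsg.permSumZero K G α).toRepresentation
      (Cfsg.permRep K G (Set.powersetCard α 2))) : Subrepresentation (Cfsg.permRep K G α) where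
  toSubmodule := (LinearMap.ker f.toLinearMap).map (Cfsg.permSumZero K G α).toSubmodule.subtype
  apply_mem_toSubmodule g v hv := by
    rw [Submodule.mem_map] at hv ⊢
    obtain ⟨w, hw, rfl⟩ := hv
    refine ⟨(Cfsg.permSumZero K G α).toRepresentation g w, ?_, rfl⟩
    rw [LinearMap.mem_ker] at hw ⊢
    rw [Representation.IntertwiningMap.toLinearMap_apply, f.isIntertwining,
      ← Representation.IntertwiningMap.toLinearMap_apply, hw, map_zero]

theorem mem_kerSub (G : Subgroup (Equiv.Perm α)) (K : Type*) [Field K]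
    (f : Representation.IntertwiningMap (Cfsg.permSumZero K G α).toRepresentation
      (Cfsg.permRep K G (Set.powersetCard α 2))) (v : α → K) :
    v ∈ (kerSub G K f).toSubmodule ↔
      ∃ hv : v ∈ (Cfsg.permSumZero K G α).toSubmodule, f ⟨v, hv⟩ = 0 := by
  constructor
  · intro h
    obtain ⟨w, hw, rfl⟩ := Submodule.mem_map.mp h
    exact ⟨w.2, hw⟩
  · rintro ⟨hv, h⟩
    exact Submodule.mem_map.mpr ⟨⟨v, hv⟩, h, rfl⟩

end

section

variable {α : Type u} [Fintype α] [DecidableEq α] {p : ℕ} [Fact p.Prime]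

/-- the key step: with a translation `σ` and a negation `t` in coordinates, every intertwiner
from the sum-zero functions to the functions on pairs that kills the constants is zero -/
theorem hyp_of_coord (hα : Fintype.card α = p) (G : Subgroup (Equiv.Perm α))
    [MulAction.IsPretransitive G α] (hG : ¬ Group.IsSolvable G) (hp2 : p ≠ 2) (σ t : G)
    (e : ZMod p ≃ α) (he : ∀ j : ZMod p, e (j + 1) = (σ : Equiv.Perm α) (e j))
    (ht : ∀ j : ZMod p, (t : Equiv.Perm α) (e j) = e (-j))
    (f : Representation.IntertwiningMap (Cfsg.permSumZero (ZMod p) G α).toRepresentation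
      (Cfsg.permRep (ZMod p) G (Set.powersetCard α 2)))
    (hf : ∀ v : (Cfsg.permSumZero (ZMod p) G α).toSubmodule,
      (v : α → ZMod p) ∈ (Cfsg.permConstants (ZMod p) G α).toSubmodule → f v = 0) : f = 0 := by
  classical
  have hpp : p.Prime := Fact.out
  have h2ne : (2 : ZMod p) ≠ 0 := by
    intro h
    have h' : ((2 : ℕ) : ZMod p) = 0 := by exact_mod_cast h
    rw [ZMod.natCast_eq_zero_iff] at h'
    exact hp2 ((Nat.prime_dvd_prime_iff_eq hpp Nat.prime_two).mp h')
  have h01 : (0 : ZMod p) ≠ 1 := by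
    have : Nontrivial (ZMod p) := ZMod.nontrivial_iff.mpr hpp.one_lt.ne'
    exact zero_ne_one
  -- the coordinate function
  set c : α → ZMod p := fun x => e.symm x with hc
  have hsum0 : ∑ j : ZMod p, j = 0 := by
    have h1 : ∑ j : ZMod p, j = ∑ j : ZMod p, -j := (Equiv.sum_comp (Equiv.neg (ZMod p)) _).symm
    rw [Finset.sum_neg_distrib] at h1
    have h3 : (2 : ZMod p) * ∑ j : ZMod p, j = 0 := by
      have : (∑ j : ZMod p, j) + (∑ j : ZMod p, j) = 0 := by
        nth_rewrite 2 [h1]
        exact add_neg_cancel _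
      rw [two_mul]
      exact this
    rcases mul_eq_zero.mp h3 with h | h
    · exact absurd h h2ne
    · exact h
  have hc_mem : c ∈ (Cfsg.permSumZero (ZMod p) G α).toSubmodule := by
    show ∑ x, c x = 0
    rw [← hsum0, ← Equiv.sum_comp e]
    apply Finset.sum_congr rfl
    intro j _
    simp [hc]
  have hone_mem : (fun _ : α => (1 : ZMod p)) ∈ (Cfsg.permSumZero (ZMod p) G α).toSubmodule := by
    show ∑ _x : α, (1 : ZMod p) = 0
    rw [Finset.sum_const, Finset.card_univ, hα]
    simp
  have hf1 : f ⟨_, hone_mem⟩ = 0 := by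
    apply hf
    exact Submodule.mem_span_singleton_self _
  set φ : Set.powersetCard α 2 → ZMod p := f ⟨c, hc_mem⟩ with hφ
  -- translation invariance
  have hσinv : ∀ j : ZMod p, ((σ⁻¹ : G) : Equiv.Perm α) (e j) = e (j - 1) := by
    intro j
    have h1 := he (j - 1)
    rw [sub_add_cancel] at h1
    rw [h1, Subgroup.coe_inv]
    simp
  have hσc : (Cfsg.permSumZero (ZMod p) G α).toRepresentation σ ⟨c, hc_mem⟩ =
      ⟨c, hc_mem⟩ - ⟨_, hone_mem⟩ := by
    apply Subtype.ext
    funext x
    obtain ⟨j, rfl⟩ := e.surjective x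
    show c ((σ⁻¹ : G) • e j) = c (e j) - 1
    have : (σ⁻¹ : G) • e j = e (j - 1) := hσinv j
    rw [this]
    simp [hc]
  have hσφ : ∀ B : Set.powersetCard α 2, φ (σ⁻¹ • B) = φ B := by
    intro B
    have h1 := Representation.IntertwiningMap.isIntertwining _ _ f σ ⟨c, hc_mem⟩
    rw [hσc, map_sub, hf1, sub_zero] at h1
    have h2 := congrFun h1 B
    exact h2.symm
  have hσφ' : ∀ (k : ℕ) (B : Set.powersetCard α 2), φ ((σ ^ k) • B) = φ B := by
    intro k
    induction k with
    | zero => intro B; simp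
    | succ k ih =>
      intro B
      have h1 := hσφ ((σ ^ (k + 1)) • B)
      rw [← h1, ← mul_smul, pow_succ', inv_mul_cancel_left]
      exact ih B
  -- the negation
  have htinv : ∀ j : ZMod p, ((t⁻¹ : G) : Equiv.Perm α) (e j) = e (-j) := by
    intro j
    have h1 := ht (-j)
    rw [neg_neg] at h1
    rw [← h1, Subgroup.coe_inv]
    simp
  have htc : (Cfsg.permSumZero (ZMod p) G α).toRepresentation t ⟨c, hc_mem⟩ = -⟨c, hc_mem⟩ := by
    apply Subtype.ext
    funext x
    obtain ⟨j, rfl⟩ := e.surjective x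
    show c ((t⁻¹ : G) • e j) = -c (e j)
    have : (t⁻¹ : G) • e j = e (-j) := htinv j
    rw [this]
    simp [hc]
  have htφ : ∀ B : Set.powersetCard α 2, φ (t⁻¹ • B) = -φ B := by
    intro B
    have h1 := Representation.IntertwiningMap.isIntertwining _ _ f t ⟨c, hc_mem⟩
    rw [htc, map_neg] at h1
    have h2 := congrFun h1 B
    exact h2.symm
  -- `φ` vanishes
  have hφ0 : ∀ B : Set.powersetCard α 2, φ B = 0 := by
    intro B
    obtain ⟨x, y, hxy, hB⟩ := Finset.card_eq_two.mp B.2
    obtain ⟨i, rfl⟩ := e.surjective x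
    obtain ⟨j, rfl⟩ := e.surjective y
    set k : ℕ := (i + j).val with hk
    have hpne : NeZero p := ⟨hpp.ne_zero⟩
    have hkc : ((k : ℕ) : ZMod p) = i + j := ZMod.natCast_zmod_val (i + j)
    have hg1 : ((σ ^ k * t⁻¹ : G)) • e i = e j := by
      show ((σ ^ k : G) : Equiv.Perm α) (((t⁻¹ : G) : Equiv.Perm α) (e i)) = e j
      rw [htinv, sigma_pow G σ e he, hkc]
      congr 1
      ring
    have hg2 : ((σ ^ k * t⁻¹ : G)) • e j = e i := by
      show ((σ ^ k : G) : Equiv.Perm α) (((t⁻¹ : G) : Equiv.Perm α) (e j)) = e i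
      rw [htinv, sigma_pow G σ e he, hkc]
      congr 1
      ring
    have hgB : (σ ^ k * t⁻¹ : G) • B = B := by
      apply Subtype.ext
      refine (Set.powersetCard.coe_smul (g := (σ ^ k * t⁻¹ : G)) (s := B)).trans ?_
      have hB' : (B : Finset α) = {e i, e j} := hB
      rw [hB', Finset.smul_finset_insert, Finset.smul_finset_singleton, hg1, hg2,
        Finset.pair_comm]
    have h1 : φ B = -φ B := by
      conv_lhs => rw [← hgB, mul_smul, hσφ' k, htφ]
    have h2 : (2 : ZMod p) * φ B = 0 := by
      rw [two_mul]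
      nth_rewrite 1 [h1]
      exact neg_add_cancel _
    rcases mul_eq_zero.mp h2 with h | h
    · exact absurd h h2ne
    · exact h
  have hcker : c ∈ (kerSub G (ZMod p) f).toSubmodule := by
    rw [mem_kerSub]
    exact ⟨hc_mem, funext hφ0⟩
  -- apply irreducibility of the heart
  have hCW : (Cfsg.permConstants (ZMod p) G α).toSubmodule ≤ (kerSub G (ZMod p) f).toSubmodule := by
    intro v hv
    rw [mem_kerSub]
    have hv' : v ∈ (Cfsg.permSumZero (ZMod p) G α).toSubmodule := by
      obtain ⟨a, rfl⟩ := Submodule.mem_span_singleton.mp hv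
      exact Submodule.smul_mem _ a hone_mem
    exact ⟨hv', hf ⟨v, hv'⟩ hv⟩
  have hWS : (kerSub G (ZMod p) f).toSubmodule ≤ (Cfsg.permSumZero (ZMod p) G α).toSubmodule := by
    intro v hv
    rw [mem_kerSub] at hv
    exact hv.1
  rcases Cfsg.Agent.S0674.result hα G hG (kerSub G (ZMod p) f) hCW hWS with h | h
  · exfalso
    rw [h] at hcker
    obtain ⟨a, ha⟩ := Submodule.mem_span_singleton.mp hcker
    have h0 := congrFun ha (e 0)
    have h1 := congrFun ha (e 1)
    simp only [hc, Pi.smul_apply, smul_eq_mul, mul_one, Equiv.symm_apply_apply] at h0 h1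
    exact h01 (h0.symm.trans h1)
  · apply Representation.IntertwiningMap.ext
    apply LinearMap.ext
    intro v
    have hv : (v : α → ZMod p) ∈ (kerSub G (ZMod p) f).toSubmodule := by
      rw [h]
      exact v.2
    rw [mem_kerSub] at hv
    obtain ⟨hv', hv0⟩ := hv
    exact hv0

end

section

variable {α : Type u} [Fintype α] [DecidableEq α] {p : ℕ} [Fact p.Prime]

/-- existence of the negation in the coordinates of a translation -/
theorem exists_neg (hα : Fintype.card α = p) (G : Subgroup (Equiv.Perm α))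
    [MulAction.IsPretransitive G α] (hp2 : p ≠ 2) (P : Sylow p G)
    (heven : Even (Nat.card (Subgroup.normalizer ((P : Subgroup G) : Set G))))
    (σ : G) (e : ZMod p ≃ α) (he : ∀ j : ZMod p, e (j + 1) = (σ : Equiv.Perm α) (e j)) :
    ∃ t : G, ∀ j : ZMod p, (t : Equiv.Perm α) (e j) = e (-j) := by
  classical
  have hpp : p.Prime := Fact.out
  have hpne : NeZero p := ⟨hpp.ne_zero⟩
  have h2ne : (2 : ZMod p) ≠ 0 := by
    intro h
    have h' : ((2 : ℕ) : ZMod p) = 0 := by exact_mod_cast h
    rw [ZMod.natCast_eq_zero_iff] at h'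
    exact hp2 ((Nat.prime_dvd_prime_iff_eq hpp Nat.prime_two).mp h')
  have h01 : (0 : ZMod p) ≠ 1 := by
    have : Nontrivial (ZMod p) := ZMod.nontrivial_iff.mpr hpp.one_lt.ne'
    exact zero_ne_one
  have hσk := sigma_pow G σ e he
  -- `σ` has order `p`
  have hσp : σ ^ p = 1 := by
    apply Subtype.ext
    apply Equiv.ext
    intro x
    obtain ⟨j, rfl⟩ := e.surjective x
    rw [hσk]
    simp
  have hσ1 : σ ≠ 1 := by
    intro h
    have h1 := he 0
    rw [h, zero_add] at h1
    exact h01 (e.injective h1).symm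
  have hσo : orderOf σ = p := orderOf_eq_prime hσp hσ1
  -- `p` divides `|G|` exactly once
  have hne : Nonempty α := ⟨e 0⟩
  have hdvd : p ∣ Nat.card G := by
    have := Cfsg.Agent.Lib.Helper23.card_dvd_of_pretransitive G α
    rwa [Nat.card_eq_fintype_card, hα] at this
  obtain ⟨m, hm⟩ := hdvd
  have hpm : ¬ p ∣ m := by
    intro hpm
    have h1 : Nat.card G ∣ Nat.card (Equiv.Perm α) := Subgroup.card_subgroup_dvd_card G
    rw [Nat.card_eq_fintype_card (α := Equiv.Perm α), Fintype.card_perm, hα, hm] at h1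
    obtain ⟨m', rfl⟩ := hpm
    have h2 : p * (p * m') ∣ p * (p - 1).factorial := by
      have : p.factorial = p * (p - 1).factorial := by
        exact (Nat.mul_factorial_pred hpp.ne_zero).symm
      rwa [this] at h1
    have h3 : p * m' ∣ (p - 1).factorial := Nat.dvd_of_mul_dvd_mul_left hpp.pos h2
    have h4 : p ∣ (p - 1).factorial := Dvd.dvd.trans (Dvd.intro _ rfl) h3
    have h5 := (Nat.Prime.dvd_factorial hpp).mp h4
    have h6 := hpp.two_le
    omega
  obtain ⟨Q, hQ⟩ := Cfsg.Agent.Lib.Helper23.exists_sylow_eq_zpowers hm hpm σ hσo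
  have hNQ : Nat.card (Subgroup.normalizer ((Q : Subgroup G) : Set G)) =
      Nat.card (Subgroup.normalizer ((P : Subgroup G) : Set G)) := by
    have h1 := Cfsg.Agent.Lib.Helper23.card_normalizer_sylow_mul Q
    have h2 := Cfsg.Agent.Lib.Helper23.card_normalizer_sylow_mul P
    have hpos : 0 < Nat.card (Sylow p G) := Nat.card_pos
    exact Nat.eq_of_mul_eq_mul_right hpos (h1.trans h2.symm)
  rw [← hNQ] at heven
  obtain ⟨t₀', ht₀'⟩ := exists_prime_orderOf_dvd_card' (G := Subgroup.normalizer
    ((Q : Subgroup G) : Set G)) 2 (even_iff_two_dvd.mp heven)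
  set t₀ : G := (t₀' : G) with ht₀def
  have ht₀o : orderOf t₀ = 2 := by rw [ht₀def, Subgroup.orderOf_coe, ht₀']
  have ht₀sq : t₀ * t₀ = 1 := by
    have := pow_orderOf_eq_one t₀
    rwa [ht₀o, pow_two] at this
  have hmem : t₀ * σ * t₀⁻¹ ∈ Subgroup.zpowers σ := by
    rw [← hQ]
    exact (Subgroup.mem_normalizer_iff.mp t₀'.2 σ).mp (by rw [hQ]; exact Subgroup.mem_zpowers σ)
  rw [← mem_powers_iff_mem_zpowers, Submonoid.mem_powers_iff] at hmem
  obtain ⟨n, hn⟩ := hmem
  have hrel : ∀ j : ZMod p, (t₀ : Equiv.Perm α) (e (j + 1)) =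
      e (e.symm ((t₀ : Equiv.Perm α) (e j)) + n) := by
    intro j
    have h1 : t₀ * σ = σ ^ n * t₀ := by
      rw [hn, inv_mul_cancel_right]
    have h2 := congrArg (fun g : G => (g : Equiv.Perm α) (e j)) h1
    simp only [Subgroup.coe_mul, Equiv.Perm.mul_apply] at h2
    rw [← he] at h2
    rw [h2]
    have h3 := hσk n (e.symm ((t₀ : Equiv.Perm α) (e j)))
    rw [Equiv.apply_symm_apply] at h3
    exact h3
  set b : ZMod p := e.symm ((t₀ : Equiv.Perm α) (e 0)) with hb
  have hform' : ∀ k : ℕ, (t₀ : Equiv.Perm α) (e (k : ZMod p)) = e (b + n * k) := by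
    intro k
    induction k with
    | zero => simp [hb]
    | succ k ih =>
      have h1 := hrel (k : ZMod p)
      rw [ih, Equiv.symm_apply_apply] at h1
      rw [Nat.cast_succ, h1]
      congr 1
      ring
  have hform : ∀ j : ZMod p, (t₀ : Equiv.Perm α) (e j) = e (b + n * j) := by
    intro j
    have := hform' j.val
    rwa [ZMod.natCast_zmod_val] at this
  have hinvol : ∀ j : ZMod p, b + n * (b + n * j) = j := by
    intro j
    have h1 := congrArg (fun g : G => (g : Equiv.Perm α) (e j)) ht₀sq
    simp only [Subgroup.coe_mul, Equiv.Perm.mul_apply, Subgroup.coe_one, Equiv.Perm.one_apply]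
      at h1
    rw [hform, hform] at h1
    exact e.injective h1
  have h0 := hinvol 0
  have h1 := hinvol 1
  have hn2 : ((n : ZMod p) - 1) * ((n : ZMod p) + 1) = 0 := by
    have : (n : ZMod p) * n = 1 := by
      have e1 : b + (n : ZMod p) * (b + n * 1) = (b + n * (b + n * 0)) + n * n := by ring
      rw [e1, h0, zero_add] at h1
      exact h1
    calc ((n : ZMod p) - 1) * ((n : ZMod p) + 1) = n * n - 1 := by ring
      _ = 0 := by rw [this, sub_self]
  have hnm : (n : ZMod p) = -1 := by
    rcases mul_eq_zero.mp hn2 with h | h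
    · exfalso
      have hn1 : (n : ZMod p) = 1 := sub_eq_zero.mp h
      rw [hn1] at h0
      have hb0 : b = 0 := by
        have : (2 : ZMod p) * b = 0 := by
          calc (2 : ZMod p) * b = b + 1 * (b + 1 * 0) := by ring
            _ = 0 := h0
        rcases mul_eq_zero.mp this with h' | h'
        · exact absurd h' h2ne
        · exact h'
      have ht1 : t₀ = 1 := by
        apply Subtype.ext
        apply Equiv.ext
        intro x
        obtain ⟨j, rfl⟩ := e.surjective x
        rw [hform, hn1, hb0]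
        simp
      rw [ht1, orderOf_one] at ht₀o
      omega
    · exact eq_neg_of_add_eq_zero_left h
  set k : ℕ := (-b).val with hk
  have hkc : ((k : ℕ) : ZMod p) = -b := ZMod.natCast_zmod_val (-b)
  refine ⟨σ ^ k * t₀, fun j => ?_⟩
  rw [Subgroup.coe_mul, Equiv.Perm.mul_apply, hform, hσk, hkc, hnm]
  congr 1
  ring

/-- the point stabilisers have even order -/
theorem even_stab (hα : Fintype.card α = p) (G : Subgroup (Equiv.Perm α))
    [MulAction.IsPretransitive G α] (hp2 : p ≠ 2) (t : G) (e : ZMod p ≃ α)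
    (ht : ∀ j : ZMod p, (t : Equiv.Perm α) (e j) = e (-j)) (a : α) :
    Even (Nat.card (MulAction.stabilizer G a)) := by
  classical
  have hpp : p.Prime := Fact.out
  have h2ne : (2 : ZMod p) ≠ 0 := by
    intro h
    have h' : ((2 : ℕ) : ZMod p) = 0 := by exact_mod_cast h
    rw [ZMod.natCast_eq_zero_iff] at h'
    exact hp2 ((Nat.prime_dvd_prime_iff_eq hpp Nat.prime_two).mp h')
  have ht2 : t ^ 2 = 1 := by
    apply Subtype.ext
    apply Equiv.ext
    intro x
    obtain ⟨j, rfl⟩ := e.surjective x
    rw [pow_two, Subgroup.coe_mul, Equiv.Perm.mul_apply, ht, ht, neg_neg]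
    rfl
  have ht1 : t ≠ 1 := by
    intro h
    have h1 := ht 1
    rw [h] at h1
    have h2 : (1 : ZMod p) = -1 := e.injective h1
    apply h2ne
    calc (2 : ZMod p) = 1 + 1 := by ring
      _ = -1 + 1 := by rw [← h2]
      _ = 0 := by ring
  have hto : orderOf t = 2 := orderOf_eq_prime ht2 ht1
  have hmem : t ∈ MulAction.stabilizer G (e 0) := by
    rw [MulAction.mem_stabilizer_iff]
    have := ht 0
    rw [neg_zero] at this
    exact this
  have h1 : 2 ∣ Nat.card (MulAction.stabilizer G (e 0)) := by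
    rw [← hto]
    exact Subgroup.orderOf_dvd_natCard _ hmem
  have hcard : ∀ x : α, Nat.card (MulAction.stabilizer G x) * p = Nat.card G := by
    intro x
    have h3 := Subgroup.card_mul_index (MulAction.stabilizer G x)
    rwa [MulAction.index_stabilizer_of_transitive G x, Nat.card_eq_fintype_card (α := α), hα]
      at h3
  have heq : Nat.card (MulAction.stabilizer G a) = Nat.card (MulAction.stabilizer G (e 0)) :=
    Nat.eq_of_mul_eq_mul_right hpp.pos ((hcard a).trans (hcard (e 0)).symm)
  rw [heq]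
  exact even_iff_two_dvd.mpr h1

end

/-- A non-solvable transitive permutation group of prime degree `p` whose Sylow `p`-normaliser has even order is triply transitive. -/
theorem result {α : Type*} [Fintype α] [DecidableEq α] {p : ℕ} [Fact p.Prime] (hα : Fintype.card α = p) (G : Subgroup (Equiv.Perm α)) [MulAction.IsPretransitive G α] (hG : ¬ Group.IsSolvable G) (P : Sylow p G) (heven : Even (Nat.card (Subgroup.normalizer ((P : Subgroup G) : Set G)))) : MulAction.IsMultiplyPretransitive G α 3 := by
  classical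
  have hpp : p.Prime := Fact.out
  by_cases hp2 : p = 2
  · have hemp : IsEmpty (Fin 3 ↪ α) := by
      apply Function.Embedding.isEmpty_of_card_lt
      rw [Fintype.card_fin, hα, hp2]
      norm_num
    exact ⟨fun x => isEmptyElim x⟩
  have hprime : (Fintype.card α).Prime := by rw [hα]; exact hpp
  have h2 : MulAction.IsMultiplyPretransitive G α 2 := by
    rcases Cfsg.Agent.S0675.result hprime G with h | h
    · exact absurd h hG
    · exact h
  obtain ⟨σ, e, he⟩ := Cfsg.Agent.S0674.exists_coord hα G
  obtain ⟨t, ht⟩ := exists_neg hα G hp2 P heven σ e he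
  exact Cfsg.Agent.S0672.result (K := ZMod p) (p := p) h2 (by rw [hα])
    (even_stab hα G hp2 t e ht)
    (fun f hf => hyp_of_coord hα G hG hp2 σ t e he ht f hf)

end Cfsg.Agent.S0676
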