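import Cfsg.Statements.S0677
import Mathlib
import Cfsg.Agent.S0675
import Cfsg.Agent.Lib.Helper1.Hall

set_option autoImplicit false
open Cfsg
open scoped Pointwise

namespace Cfsg.Agent.S0677

section coord

variable {α : Type*} [Fintype α] [DecidableEq α] {p : ℕ} [Fact p.Prime]

set_option maxHeartbeats 400000 in
/-- a cyclic coordinate with prescribed generator and base point -/
theorem coord_exists (hα : Fintype.card α = p) (σ : Equiv.Perm α) (hσ : orderOf σ = p) (a₀ : α) :
    ∃ e : ZMod p ≃ α, e 0 = a₀ ∧ ∀ (k : ℤ) (j : ZMod p), (σ ^ k) (e j) = e (j + k) := by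
  have hp : p.Prime := Fact.out
  have hcyc : σ.IsCycle :=
    Equiv.Perm.isCycle_of_prime_order'' (by rw [hα]; exact hp) (by rw [hσ, hα])
  have hsupp : σ.support = Finset.univ := by
    apply Finset.eq_univ_of_card
    rw [← hcyc.orderOf, hσ, hα]
  have hmove : ∀ x : α, σ x ≠ x := by
    intro x
    rw [← Equiv.Perm.mem_support, hsupp]
    exact Finset.mem_univ x
  haveI : NeZero p := ⟨hp.pos.ne'⟩
  let e₀ : ZMod p → α := fun j => (σ ^ j.val) a₀
  have hsurj : Function.Surjective e₀ := by
    intro y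
    obtain ⟨i, hi⟩ := hcyc.exists_pow_eq (hmove a₀) (hmove y)
    refine ⟨(i : ZMod p), ?_⟩
    show (σ ^ ((i : ZMod p)).val) a₀ = y
    rw [ZMod.val_natCast, ← hσ, pow_mod_orderOf]
    exact hi
  have hbij : Function.Bijective e₀ := by
    rw [Fintype.bijective_iff_surjective_and_card]
    exact ⟨hsurj, by rw [ZMod.card, hα]⟩
  refine ⟨Equiv.ofBijective e₀ hbij, ?_, ?_⟩
  · show (σ ^ (0 : ZMod p).val) a₀ = a₀
    rw [ZMod.val_zero, pow_zero]; rfl
  · intro k j
    show (σ ^ k) ((σ ^ j.val) a₀) = (σ ^ (j + k).val) a₀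
    rw [← Equiv.Perm.mul_apply, ← zpow_natCast σ j.val, ← zpow_add, ← zpow_natCast σ (j + k).val]
    congr 1
    rw [zpow_eq_zpow_iff_modEq, hσ]
    apply (ZMod.intCast_eq_intCast_iff _ _ p).mp
    push_cast
    rw [ZMod.natCast_zmod_val, ZMod.natCast_zmod_val]
    ring

end coord

section parity

variable {p : ℕ} [Fact p.Prime]

set_option maxHeartbeats 400000 in
/-- A subset of `ZMod p` (`p` odd) that is symmetric under a reflection and all of whose nonzero
differences occur equally often misses or contains all points other than the centre. -/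
theorem parity_lemma (hp2 : (2 : ZMod p) ≠ 0) (E : Finset (ZMod p)) (c : ZMod p)
    (hsym : ∀ j : ZMod p, -j ∈ E ↔ j - c ∈ E)
    (hconst : ∀ u u' : ZMod p, u ≠ 0 → u' ≠ 0 →
      (E.filter (fun d => d + u ∈ E)).card = (E.filter (fun d => d + u' ∈ E)).card) :
    ∀ d d' : ZMod p, 2 * d ≠ -c → 2 * d' ≠ -c → (d ∈ E ↔ d' ∈ E) := by
  have hρ : ∀ j : ZMod p, j ∈ E ↔ -j - c ∈ E := by
    intro j
    have := hsym (-j)
    rw [neg_neg] at this
    exact this
  have hpar : ∀ u d : ZMod p, 2 * d = -u - c →
      ((E.filter (fun x => x + u ∈ E)).card % 2 = 1 ↔ d ∈ E) := by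
    intro u d hd
    have hι_mem : ∀ x ∈ E.filter (fun x => x + u ∈ E),
        -x - u - c ∈ E.filter (fun x => x + u ∈ E) := by
      intro x hx
      rw [Finset.mem_filter] at hx ⊢
      constructor
      · have := (hρ (x + u)).mp hx.2
        convert this using 1; ring
      · have := (hρ x).mp hx.1
        convert this using 1; ring
    have heven : Even ((E.filter (fun x => x + u ∈ E)).filter
        (fun x => -x - u - c ≠ x)).card := by
      have hsum : ∑ x ∈ (E.filter (fun x => x + u ∈ E)).filter (fun x => -x - u - c ≠ x),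
          (1 : ZMod 2) = 0 := by
        apply Finset.sum_involution (fun x _ => -x - u - c)
        · intro a ha; decide
        · intro a ha _; exact (Finset.mem_filter.mp ha).2
        · intro a ha
          rw [Finset.mem_filter] at ha ⊢
          refine ⟨hι_mem a ha.1, ?_⟩
          intro h
          apply ha.2
          have h2 : -(-a - u - c) - u - c = a := by ring
          rw [h2] at h
          exact h.symm
        · intro a ha; ring
      rw [Finset.sum_const, nsmul_eq_mul, mul_one] at hsum
      exact ZMod.natCast_eq_zero_iff_even.mp hsum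
    have hfix : ((E.filter (fun x => x + u ∈ E)).filter (fun x => ¬ (-x - u - c ≠ x))).card
        = if d ∈ E then 1 else 0 := by
      have hxd : ∀ x : ZMod p, -x - u - c = x ↔ x = d := by
        intro x
        constructor
        · intro h
          have h2 : 2 * x = 2 * d := by rw [hd]; linear_combination -h
          exact mul_left_cancel₀ hp2 h2
        · rintro rfl
          linear_combination -hd
      have hdu : d + u = -d - c := by
        apply mul_left_cancel₀ hp2
        linear_combination 2 * hd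
      split_ifs with hdE
      · rw [Finset.card_eq_one]
        refine ⟨d, ?_⟩
        ext x
        simp only [Finset.mem_filter, Finset.mem_singleton, not_not]
        constructor
        · rintro ⟨_, h⟩; exact (hxd x).mp h
        · rintro rfl
          refine ⟨⟨hdE, ?_⟩, (hxd x).mpr rfl⟩
          rw [hdu]; exact (hρ x).mp hdE
      · rw [Finset.card_eq_zero]
        ext x
        simp only [Finset.mem_filter, not_not, Finset.notMem_empty, iff_false]
        rintro ⟨⟨hxE, _⟩, h⟩
        exact hdE ((hxd x).mp h ▸ hxE)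
    have hsplit := Finset.card_filter_add_card_filter_not (s := E.filter (fun x => x + u ∈ E))
      (fun x => -x - u - c ≠ x)
    rw [hfix] at hsplit
    obtain ⟨k, hk⟩ := heven
    split_ifs at hsplit with hdE
    · simp only [hdE, iff_true]; omega
    · simp only [hdE, iff_false]; omega
  intro d d' hd hd'
  have hu : -(2 * d) - c ≠ 0 := by
    intro h; apply hd; linear_combination -h
  have hu' : -(2 * d') - c ≠ 0 := by
    intro h; apply hd'; linear_combination -h
  have h1 := hpar (-(2 * d) - c) d (by ring)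
  have h2 := hpar (-(2 * d') - c) d' (by ring)
  rw [hconst _ _ hu hu'] at h1
  exact h1.symm.trans h2

end parity

section design

variable {α : Type*} [Fintype α] [DecidableEq α] {p : ℕ} [Fact p.Prime]

set_option maxHeartbeats 400000 in
/-- every element of `G` is uniquely a power of `σ` times an element of `H` -/
theorem decomp_bijective (G : Subgroup (Equiv.Perm α)) (σ : G) (hσ : orderOf σ = p)
    (H : Subgroup G) (hcard : Nat.card G = p * Nat.card H) (hpH : ¬ p ∣ Nat.card H) :
    Function.Bijective (fun ch : ZMod p × H => σ ^ ch.1.val * (ch.2 : G)) := by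
  have hp : p.Prime := Fact.out
  haveI : NeZero p := ⟨hp.pos.ne'⟩
  apply Function.Injective.bijective_of_nat_card_le
  · rintro ⟨a, h⟩ ⟨b, h'⟩ heq
    simp only at heq
    have hz : (σ ^ b.val)⁻¹ * σ ^ a.val = (h' : G) * (h : G)⁻¹ := by
      rw [inv_mul_eq_iff_eq_mul, ← mul_assoc, ← heq, mul_assoc, mul_inv_cancel, mul_one]
    have hzH : (σ ^ b.val)⁻¹ * σ ^ a.val ∈ H := by
      rw [hz]; exact H.mul_mem h'.2 (H.inv_mem h.2)
    have hz1 : (σ ^ b.val)⁻¹ * σ ^ a.val = 1 := by
      have ho1 : orderOf ((σ ^ b.val)⁻¹ * σ ^ a.val) ∣ p := by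
        have ho0 : orderOf ((σ ^ b.val)⁻¹ * σ ^ a.val) ∣ orderOf σ := by
          apply orderOf_dvd_of_pow_eq_one
          rw [← zpow_natCast σ b.val, ← zpow_natCast σ a.val, ← zpow_neg, ← zpow_add,
            ← zpow_natCast, ← zpow_mul, mul_comm, zpow_mul, zpow_natCast, pow_orderOf_eq_one,
            one_zpow]
        rw [hσ] at ho0
        exact ho0
      have ho2 : orderOf ((σ ^ b.val)⁻¹ * σ ^ a.val) ∣ Nat.card H := by
        have := orderOf_dvd_natCard (⟨_, hzH⟩ : H)
        rwa [Subgroup.orderOf_mk] at this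
      have : orderOf ((σ ^ b.val)⁻¹ * σ ^ a.val) = 1 := by
        rcases (Nat.dvd_prime hp).mp ho1 with h1 | h1
        · exact h1
        · exact absurd (h1 ▸ ho2) hpH
      exact orderOf_eq_one_iff.mp this
    have hab : σ ^ a.val = σ ^ b.val := by
      rw [inv_mul_eq_one] at hz1; exact hz1.symm
    have hab' : a = b := by
      rw [pow_eq_pow_iff_modEq, hσ] at hab
      have := (ZMod.natCast_eq_natCast_iff _ _ p).mpr hab
      rwa [ZMod.natCast_zmod_val, ZMod.natCast_zmod_val] at this
    subst hab'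
    have : (h : G) = h' := mul_left_cancel heq
    rw [Prod.mk.injEq]; exact ⟨rfl, Subtype.ext this⟩
  · rw [Nat.card_prod, Nat.card_zmod, hcard]

set_option maxHeartbeats 400000 in
/-- the translates of an `H`-invariant set form a design when `G` is doubly transitive -/
theorem design_const (G : Subgroup (Equiv.Perm α))
    (h2t : ∀ a b c d : α, a ≠ b → c ≠ d → ∃ g : G, g • a = c ∧ g • b = d)
    (σ : G) (hσ : orderOf σ = p) (H : Subgroup G)
    (hcard : Nat.card G = p * Nat.card H) (hpH : ¬ p ∣ Nat.card H)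
    (e : ZMod p ≃ α)
    (he : ∀ (k : ℤ) (j : ZMod p), ((σ : Equiv.Perm α) ^ k) (e j) = e (j + k))
    (D : Set α) (hD : ∀ h : G, h ∈ H → ∀ x ∈ D, h • x ∈ D) :
    (∀ g : G, ∃ c : ZMod p, ∀ j : ZMod p, (e j ∈ g • D ↔ e (j - c) ∈ D)) ∧
    (∀ u u' : ZMod p, u ≠ 0 → u' ≠ 0 →
      Nat.card {d : ZMod p // e d ∈ D ∧ e (d + u) ∈ D} =
        Nat.card {d : ZMod p // e d ∈ D ∧ e (d + u') ∈ D}) := by
  have hp : p.Prime := Fact.out
  haveI : NeZero p := ⟨hp.pos.ne'⟩
  have hbij := decomp_bijective G σ hσ H hcard hpH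
  have hHD : ∀ h : G, h ∈ H → h • D = D := by
    intro h hh
    apply Set.Subset.antisymm
    · rintro _ ⟨x, hx, rfl⟩
      exact hD h hh x hx
    · intro x hx
      refine ⟨h⁻¹ • x, hD h⁻¹ (H.inv_mem hh) x hx, ?_⟩
      simp
  have key : ∀ (c : ZMod p) (h : H) (j : ZMod p),
      e j ∈ (σ ^ c.val * (h : G)) • D ↔ e (j - c) ∈ D := by
    intro c h j
    rw [mul_smul, hHD h h.2, Set.mem_smul_set_iff_inv_smul_mem]
    have h1 : (σ ^ c.val)⁻¹ • e j = e (j - c) := by
      have h2 := he (-(c.val : ℤ)) j
      have h3 : ((-(c.val : ℤ) : ℤ) : ZMod p) = -c := by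
        push_cast
        rw [ZMod.natCast_zmod_val]
      rw [h3, ← sub_eq_add_neg] at h2
      rw [← h2]
      show (((σ ^ c.val)⁻¹ : G) : Equiv.Perm α) (e j) = _
      rw [Subgroup.coe_inv, Subgroup.coe_pow, zpow_neg, zpow_natCast]
    rw [h1]
  refine ⟨?_, ?_⟩
  · intro g
    obtain ⟨⟨c, h⟩, rfl⟩ := hbij.surjective g
    exact ⟨c, key c h⟩
  · have hLinv : ∀ (k : G) (x y : α),
        Nat.card {g : G // k • x ∈ g • D ∧ k • y ∈ g • D} =
          Nat.card {g : G // x ∈ g • D ∧ y ∈ g • D} := by
      intro k x y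
      apply Nat.card_congr
      refine (Equiv.subtypeEquiv (Equiv.mulLeft k) ?_).symm
      intro g
      show _ ↔ k • x ∈ (k * g) • D ∧ k • y ∈ (k * g) • D
      rw [mul_smul, Set.smul_mem_smul_set_iff, Set.smul_mem_smul_set_iff]
    have hLcoord : ∀ x y : ZMod p,
        Nat.card {g : G // e x ∈ g • D ∧ e y ∈ g • D} =
          Nat.card {c : ZMod p // e (x - c) ∈ D ∧ e (y - c) ∈ D} * Nat.card H := by
      intro x y
      rw [← Nat.card_prod]
      have e1 : {ch : ZMod p × H // e x ∈ (σ ^ ch.1.val * (ch.2 : G)) • D ∧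
          e y ∈ (σ ^ ch.1.val * (ch.2 : G)) • D} ≃ {g : G // e x ∈ g • D ∧ e y ∈ g • D} :=
        Equiv.subtypeEquiv (Equiv.ofBijective _ hbij) (fun ch => Iff.rfl)
      have e2 : {ch : ZMod p × H // e x ∈ (σ ^ ch.1.val * (ch.2 : G)) • D ∧
          e y ∈ (σ ^ ch.1.val * (ch.2 : G)) • D} ≃
          {ch : ZMod p × H // e (x - ch.1) ∈ D ∧ e (y - ch.1) ∈ D} :=
        Equiv.subtypeEquivRight (fun ch => by rw [key ch.1 ch.2 x, key ch.1 ch.2 y])
      have e3 : {ch : ZMod p × H // e (x - ch.1) ∈ D ∧ e (y - ch.1) ∈ D} ≃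
          {c : ZMod p // e (x - c) ∈ D ∧ e (y - c) ∈ D} × H :=
        Equiv.prodSubtypeFstEquivSubtypeProd (p := fun c : ZMod p =>
          e (x - c) ∈ D ∧ e (y - c) ∈ D)
      exact Nat.card_congr ((e1.symm.trans e2).trans e3)
    have hM : ∀ u : ZMod p,
        Nat.card {c : ZMod p // e (0 - c) ∈ D ∧ e (u - c) ∈ D} =
          Nat.card {d : ZMod p // e d ∈ D ∧ e (d + u) ∈ D} := by
      intro u
      apply Nat.card_congr
      refine Equiv.subtypeEquiv (Equiv.neg (ZMod p)) ?_
      intro c
      show _ ↔ e (-c) ∈ D ∧ e (-c + u) ∈ D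
      rw [zero_sub, sub_eq_neg_add]
    intro u u' hu hu'
    have hne : e 0 ≠ e u := fun h => hu (e.injective h).symm
    have hne' : e 0 ≠ e u' := fun h => hu' (e.injective h).symm
    obtain ⟨g, hg0, hgu⟩ := h2t (e 0) (e u) (e 0) (e u') hne hne'
    have h1 := hLinv g (e 0) (e u)
    rw [hg0, hgu, hLcoord, hLcoord, hM, hM] at h1
    have hHpos : 0 < Nat.card H := Nat.card_pos
    exact (Nat.eq_of_mul_eq_mul_right hHpos h1).symm

end design

set_option maxHeartbeats 400000 in
/-- In a transitive permutation group of prime degree `p` whose Sylow `p`-normaliser has even order, the point stabilisers are the only subgroups of index `p`. -/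
theorem result {α : Type*} [Fintype α] [DecidableEq α] {p : ℕ} [Fact p.Prime] (hα : Fintype.card α = p) (G : Subgroup (Equiv.Perm α)) [MulAction.IsPretransitive G α] (P : Sylow p G) (heven : Even (Nat.card (Subgroup.normalizer ((P : Subgroup G) : Set G)))) (H : Subgroup G) (hH : H.index = p) : ∃ a : α, H = MulAction.stabilizer G a := by
  classical
  have hp : p.Prime := Fact.out
  haveI : NeZero p := ⟨hp.pos.ne'⟩
  obtain ⟨a₀⟩ : Nonempty α := Fintype.card_pos_iff.mp (by rw [hα]; exact hp.pos)
  have hidx : ∀ a : α, (MulAction.stabilizer G a).index = p := fun a => by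
    rw [MulAction.index_stabilizer_of_transitive, Nat.card_eq_fintype_card, hα]
  -- it suffices to find a fixed point of `H`
  suffices hfix : ∃ a : α, ∀ h : G, h ∈ H → h • a = a by
    obtain ⟨a, ha⟩ := hfix
    refine ⟨a, ?_⟩
    have hle : H ≤ MulAction.stabilizer G a := fun h hh => ha h hh
    apply le_antisymm hle
    have h1 := Subgroup.relIndex_mul_index hle
    rw [hH, hidx a] at h1
    have h2 : H.relIndex (MulAction.stabilizer G a) = 1 :=
      Nat.eq_of_mul_eq_mul_right hp.pos (h1.trans (one_mul p).symm)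
    exact Subgroup.relIndex_eq_one.mp h2
  have hcardG : Nat.card G = p * Nat.card H := by
    rw [← hH, mul_comm]; exact (H.card_mul_index).symm
  have hcardGdvd : Nat.card G ∣ p.factorial := by
    have h2 : Nat.card G ∣ Nat.card (Equiv.Perm α) := Subgroup.card_subgroup_dvd_card G
    have hα' : Nat.card α = p := by rw [Nat.card_eq_fintype_card, hα]
    rw [Nat.card_perm, hα'] at h2
    exact h2
  have hpH : ¬ p ∣ Nat.card H := by
    intro hdvd
    have h1 : p * p ∣ Nat.card G := by rw [hcardG]; exact Nat.mul_dvd_mul_left p hdvd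
    have h3 : p * p ∣ p.factorial := h1.trans hcardGdvd
    obtain ⟨m, hm⟩ : ∃ m, p = m + 1 := ⟨p - 1, by have := hp.pos; omega⟩
    have hp' : (m + 1).Prime := hm ▸ hp
    rw [hm, Nat.factorial_succ] at h3
    have h4 : (m + 1) ∣ m.factorial := Nat.dvd_of_mul_dvd_mul_left (Nat.succ_pos m) h3
    have h5 := hp'.dvd_factorial.mp h4
    omega
  by_cases hp2 : p = 2
  · -- degree 2: `H` is trivial
    refine ⟨a₀, fun h hh => ?_⟩
    have hH1 : Nat.card H = 1 := by
      have h2 := hcardGdvd
      rw [hcardG, hp2] at h2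
      have h2' : 2 * Nat.card H ∣ 2 * 1 := by simpa using h2
      exact Nat.dvd_one.mp (Nat.dvd_of_mul_dvd_mul_left (by norm_num) h2')
    have : H = ⊥ := Subgroup.card_eq_one.mp hH1
    rw [this, Subgroup.mem_bot] at hh
    rw [hh, one_smul]
  have hp2' : (2 : ZMod p) ≠ 0 := by
    intro h
    have h' : ((2 : ℕ) : ZMod p) = 0 := by exact_mod_cast h
    rw [ZMod.natCast_eq_zero_iff] at h'
    exact hp2 ((Nat.prime_dvd_prime_iff_eq hp Nat.prime_two).mp h')
  rcases Cfsg.Agent.S0675.result (by rw [hα]; exact hp) G with hsolv | h2t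
  · -- solvable case: Hall subgroups are conjugate
    haveI := hsolv
    have hcardS : Nat.card (MulAction.stabilizer G a₀) = Nat.card H := by
      have h1 := (MulAction.stabilizer G a₀).card_mul_index
      rw [hidx a₀, hcardG] at h1
      exact Nat.eq_of_mul_eq_mul_right hp.pos (h1.trans (mul_comm _ _))
    obtain ⟨g, hg⟩ := Cfsg.Agent.Lib.Helper1.hall_conj (Nat.card H) p (by rw [hcardG, mul_comm])
      ((Nat.Prime.coprime_iff_not_dvd hp).mpr hpH).symm (MulAction.stabilizer G a₀) H hcardS rfl
    refine ⟨g • a₀, fun h hh => ?_⟩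
    rw [← hg, Subgroup.mem_pointwise_smul_iff_inv_smul_mem] at hh
    have hh' : g⁻¹ * h * g ∈ MulAction.stabilizer G a₀ := by
      have : (MulAut.conj g)⁻¹ • h = g⁻¹ * h * g := by
        rw [MulAut.smul_def, ← map_inv, MulAut.conj_apply, inv_inv]
      rwa [this] at hh
    rw [MulAction.mem_stabilizer_iff, mul_smul, mul_smul, inv_smul_eq_iff] at hh'
    exact hh'
  · -- doubly transitive case
    have h2t' : ∀ a b c d : α, a ≠ b → c ≠ d → ∃ g : G, g • a = c ∧ g • b = d :=
      fun a b c d hab hcd => MulAction.is_two_pretransitive_iff.mp h2t hab hcd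
    have hPcard : Nat.card (P : Subgroup G) = p := by
      have h1 := P.card_eq_multiplicity
      have h2 : (Nat.card G).factorization p = 1 := by
        rw [hcardG, Nat.factorization_mul hp.ne_zero Nat.card_pos.ne', Finsupp.add_apply,
          hp.factorization_self, Nat.factorization_eq_zero_of_not_dvd hpH]
      rw [h2, pow_one] at h1
      exact h1
    obtain ⟨σ', hσ'⟩ := exists_prime_orderOf_dvd_card' (G := (P : Subgroup G)) p
      (by rw [hPcard])
    have hσ : orderOf (σ' : G) = p := by rw [Subgroup.orderOf_coe]; exact hσ'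
    have hPz : Subgroup.zpowers (σ' : G) = (P : Subgroup G) := by
      apply Subgroup.eq_of_le_of_card_ge
      · rw [Subgroup.zpowers_le]; exact σ'.2
      · rw [Nat.card_zpowers, hσ, hPcard]
    obtain ⟨t', ht'⟩ := exists_prime_orderOf_dvd_card'
      (G := Subgroup.normalizer ((P : Subgroup G) : Set G)) 2 (even_iff_two_dvd.mp heven)
    have ht2 : orderOf (t' : G) = 2 := by rw [Subgroup.orderOf_coe]; exact ht'
    have hconj : (t' : G) * σ' * (t' : G)⁻¹ ∈ (P : Subgroup G) :=
      (Subgroup.mem_normalizer_iff.mp t'.2 σ').mp σ'.2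
    have hconj' : (t' : G) * σ' * (t' : G)⁻¹ ∈ Subgroup.zpowers (σ' : G) := by
      rw [hPz]; exact hconj
    obtain ⟨k, hk⟩ := Subgroup.mem_zpowers_iff.mp hconj'
    have htt : (t' : G) * (t' : G) = 1 := by
      rw [← pow_two, ← ht2, pow_orderOf_eq_one]
    -- a fixed point of the involution
    have htperm : (((t' : G) : Equiv.Perm α)) ^ 2 ^ 1 = 1 := by
      rw [pow_one, pow_two, ← Subgroup.coe_mul, htt]; rfl
    obtain ⟨a₁, ha₁⟩ := Equiv.Perm.exists_fixed_point_of_prime (p := 2) (n := 1)
      (by rw [hα]; intro h; exact hp2 ((Nat.prime_dvd_prime_iff_eq Nat.prime_two hp).mp h).symm)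
      htperm
    obtain ⟨e, he0, he⟩ := coord_exists hα ((σ' : G) : Equiv.Perm α)
      (by rw [Subgroup.orderOf_coe]; exact hσ) a₁
    -- the involution acts as multiplication by `k`
    have h1 : ∀ j : ZMod p, ((t' : G) : Equiv.Perm α) (e j) = e ((k : ZMod p) * j) := by
      intro j
      have hj : e j = (((σ' : G) : Equiv.Perm α) ^ (j.val : ℤ)) (e 0) := by
        rw [he, zero_add]
        congr 1
        push_cast
        rw [ZMod.natCast_zmod_val]
      have h3 : (t' : G) * (σ' : G) ^ (j.val : ℤ) = (σ' : G) ^ (k * (j.val : ℤ)) * (t' : G) := by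
        rw [zpow_mul, hk, conj_zpow, inv_mul_cancel_right]
      have h4 : ((t' : G) : Equiv.Perm α) * ((σ' : G) : Equiv.Perm α) ^ (j.val : ℤ) =
          ((σ' : G) : Equiv.Perm α) ^ (k * (j.val : ℤ)) * ((t' : G) : Equiv.Perm α) := by
        have := congrArg (Subtype.val) h3
        simpa using this
      rw [hj, ← Equiv.Perm.mul_apply, h4, Equiv.Perm.mul_apply, he0, ha₁, ← he0, he, zero_add]
      congr 1
      push_cast
      rw [ZMod.natCast_zmod_val]
    have hkk : (k : ZMod p) * (k : ZMod p) = 1 := by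
      have h5 := h1 ((k : ZMod p) * 1)
      rw [← h1 1, ← Equiv.Perm.mul_apply, ← Subgroup.coe_mul, htt] at h5
      have h6 : e 1 = e ((k : ZMod p) * ((k : ZMod p) * 1)) := h5
      have := e.injective h6
      rw [mul_one] at this
      exact this.symm
    have hk1 : (k : ZMod p) = -1 := by
      rcases mul_self_eq_one_iff.mp hkk with h | h
      · exfalso
        have h7 : ((t' : G) : Equiv.Perm α) = 1 := by
          ext x
          obtain ⟨j, rfl⟩ := e.surjective x
          rw [h1 j, h, one_mul]; rfl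
        have h8 : (t' : G) = 1 := Subtype.ext h7
        rw [h8, orderOf_one] at ht2
        omega
      · exact h
    have ht_act : ∀ j : ZMod p, (t' : G) • e j = e (-j) := by
      intro j
      have := h1 j
      rw [hk1, neg_one_mul] at this
      exact this
    -- the orbit of the fixed point under `H`
    let D : Set α := {x | ∃ h : G, h ∈ H ∧ h • a₁ = x}
    have hD : ∀ h : G, h ∈ H → ∀ x ∈ D, h • x ∈ D := by
      rintro h hh x ⟨h', hh', rfl⟩
      exact ⟨h * h', H.mul_mem hh hh', mul_smul _ _ _⟩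
    have ha₁D : e 0 ∈ D := ⟨1, H.one_mem, by rw [one_smul, he0]⟩
    obtain ⟨hdes1, hdes2⟩ := design_const G h2t' σ' hσ H hcardG hpH e he D hD
    have hDne : ¬ (∀ x : α, x ∈ D) := by
      intro hall
      apply hpH
      have horb : MulAction.orbit H a₁ = Set.univ := by
        apply Set.eq_univ_of_forall
        intro x
        obtain ⟨h, hh, hx⟩ := hall x
        exact ⟨⟨h, hh⟩, hx⟩
      have h9 := MulAction.index_stabilizer (G := H) (x := a₁)
      rw [horb, Set.ncard_univ, Nat.card_eq_fintype_card, hα] at h9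
      rw [← h9]
      exact Subgroup.index_dvd_card _
    set E : Finset (ZMod p) := Finset.univ.filter (fun j => e j ∈ D) with hE
    have hmemE : ∀ j, j ∈ E ↔ e j ∈ D := by
      intro j; simp [hE]
    obtain ⟨c, hc⟩ := hdes1 (t' : G)
    have hsym : ∀ j : ZMod p, -j ∈ E ↔ j - c ∈ E := by
      intro j
      rw [hmemE, hmemE, ← hc j, Set.mem_smul_set_iff_inv_smul_mem]
      have htinv : (t' : G)⁻¹ = (t' : G) := inv_eq_of_mul_eq_one_left htt
      rw [htinv, ht_act j]
    have hconst : ∀ u u' : ZMod p, u ≠ 0 → u' ≠ 0 →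
        (E.filter (fun d => d + u ∈ E)).card = (E.filter (fun d => d + u' ∈ E)).card := by
      intro u u' hu hu'
      have h10 := hdes2 u u' hu hu'
      have hconv : ∀ v : ZMod p, Nat.card {d : ZMod p // e d ∈ D ∧ e (d + v) ∈ D} =
          (E.filter (fun d => d + v ∈ E)).card := by
        intro v
        rw [Nat.card_eq_fintype_card, Fintype.card_subtype]
        congr 1
        ext d
        simp [hmemE]
      rw [hconv, hconv] at h10
      exact h10
    have hpar := parity_lemma hp2' E c hsym hconst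
    have hds2 : 2 * (-c * (2 : ZMod p)⁻¹) = -c := by
      field_simp
    have hds1 : 2 * (-c * (2 : ZMod p)⁻¹ + 1) ≠ -c := by
      rw [mul_add, hds2, mul_one]
      intro h
      exact hp2' (by linear_combination h)
    have hcenter : ∀ d : ZMod p, 2 * d = -c → d = -c * (2 : ZMod p)⁻¹ := by
      intro d hd
      apply mul_left_cancel₀ hp2'
      rw [hd, hds2]
    by_cases hcase : (-c * (2 : ZMod p)⁻¹ + 1) ∈ E
    · -- all points but the centre lie in `D`; the centre is fixed
      have hcE : (-c * (2 : ZMod p)⁻¹) ∉ E := by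
        intro hin
        apply hDne
        intro x
        obtain ⟨j, rfl⟩ := e.surjective x
        rw [← hmemE]
        by_cases hj : 2 * j = -c
        · rw [hcenter j hj]; exact hin
        · exact (hpar _ j hds1 hj).mp hcase
      refine ⟨e (-c * (2 : ZMod p)⁻¹), fun h hh => ?_⟩
      by_contra hne
      obtain ⟨j, hj⟩ := e.surjective (h • e (-c * (2 : ZMod p)⁻¹))
      have hj2 : 2 * j ≠ -c := by
        intro h2
        apply hne
        rw [← hj, hcenter j h2]
      have hjD : e j ∈ D := (hmemE j).mp ((hpar _ j hds1 hj2).mp hcase)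
      have := hD h⁻¹ (H.inv_mem hh) (e j) hjD
      rw [hj, inv_smul_smul] at this
      exact hcE ((hmemE _).mpr this)
    · -- only the centre can lie in `D`; the base point is fixed
      have hEsub : ∀ j : ZMod p, j ∈ E → j = -c * (2 : ZMod p)⁻¹ := by
        intro j hj
        by_contra hne
        have hj2 : 2 * j ≠ -c := fun h2 => hne (hcenter j h2)
        exact hcase ((hpar _ j hds1 hj2).mpr hj)
      have h0 : (0 : ZMod p) = -c * (2 : ZMod p)⁻¹ := hEsub 0 ((hmemE 0).mpr ha₁D)
      refine ⟨a₁, fun h hh => ?_⟩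
      have hmem : h • a₁ ∈ D := ⟨h, hh, rfl⟩
      obtain ⟨j, hj⟩ := e.surjective (h • a₁)
      have hjE : j ∈ E := (hmemE j).mpr (hj ▸ hmem)
      rw [← hj, hEsub j hjE, ← h0, he0]

end Cfsg.Agent.S0677
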