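import Cfsg.Statements.S0681
import Mathlib

set_option autoImplicit false
open Cfsg

namespace Cfsg.Agent.S0681

section
variable {F : Type*} [Cfsg.NearField F]

theorem nf_zero_mul (a : F) : (0 : F) * a = 0 := by
  have h := Cfsg.NearField.right_distrib (0 : F) 0 a
  rw [add_zero] at h
  have h2 : (0 : F) * a + 0 = 0 * a + 0 * a := by rw [add_zero]; exact h
  exact (add_left_cancel h2).symm

theorem nf_neg_mul (a b : F) : (-a) * b = -(a * b) := by
  have h := Cfsg.NearField.right_distrib a (-a) b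
  rw [add_neg_cancel, nf_zero_mul] at h
  exact (neg_eq_of_add_eq_zero_right h.symm).symm

theorem nf_sub_mul (a b c : F) : (a - b) * c = a * c - b * c := by
  rw [sub_eq_add_neg, Cfsg.NearField.right_distrib, nf_neg_mul, ← sub_eq_add_neg]

theorem nf_inv_ne_zero {a b : F} (h : a * b = 1) : b ≠ 0 := by
  rintro rfl
  rw [Cfsg.NearField.mul_zero] at h
  exact Cfsg.NearField.zero_ne_one h

theorem nf_mul_ne_zero {a b : F} (ha : a ≠ 0) (hb : b ≠ 0) : a * b ≠ 0 := by
  intro h
  obtain ⟨b', hb1, hb2⟩ := Cfsg.NearField.exists_inv b hb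
  apply ha
  have : a * b * b' = 0 * b' := by rw [h]
  rw [mul_assoc, hb1, mul_one, nf_zero_mul] at this
  exact this

/-- the affine permutation `x ↦ x * m + n` -/
def affPerm (m m' n : F) (h1 : m * m' = 1) (h2 : m' * m = 1) : Equiv.Perm F where
  toFun x := x * m + n
  invFun y := (y - n) * m'
  left_inv x := by
    change (x * m + n - n) * m' = x
    rw [add_sub_cancel_right, mul_assoc, h1, mul_one]
  right_inv y := by
    change (y - n) * m' * m + n = y
    rw [mul_assoc, h2, mul_one, sub_add_cancel]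

theorem affPerm_apply (m m' n : F) (h1 : m * m' = 1) (h2 : m' * m = 1) (x : F) :
    affPerm m m' n h1 h2 x = x * m + n := rfl

/-- the affine group of a near-field -/
def affSub : Subgroup (Equiv.Perm F) where
  carrier := {σ | ∃ a b : F, a ≠ 0 ∧ ∀ x : F, σ x = x * a + b}
  one_mem' := ⟨1, 0, fun h => Cfsg.NearField.zero_ne_one h.symm, fun x => by simp⟩
  mul_mem' := by
    rintro σ τ ⟨a, b, ha, hσ⟩ ⟨c, d, hc, hτ⟩
    refine ⟨c * a, d * a + b, nf_mul_ne_zero hc ha, fun x => ?_⟩
    rw [Equiv.Perm.mul_apply, hτ, hσ, Cfsg.NearField.right_distrib, mul_assoc, add_assoc]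
  inv_mem' := by
    rintro σ ⟨a, b, ha, hσ⟩
    obtain ⟨a', h1, h2⟩ := Cfsg.NearField.exists_inv a ha
    refine ⟨a', (-b) * a', nf_inv_ne_zero h1, fun y => ?_⟩
    rw [Equiv.Perm.inv_def, Equiv.symm_apply_eq, hσ, Cfsg.NearField.right_distrib, mul_assoc, h2,
      mul_one, mul_assoc, h2, mul_one, add_assoc, neg_add_cancel, add_zero]

theorem mem_affSub (σ : Equiv.Perm F) :
    σ ∈ (affSub : Subgroup (Equiv.Perm F)) ↔ ∃ a b : F, a ≠ 0 ∧ ∀ x : F, σ x = x * a + b :=
  Iff.rfl

end

/-- The affine maps `x ↦ x * a + b`, `a ≠ 0`, of a near-field form a sharply doubly transitive permutation group. -/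
theorem result {F : Type*} [Cfsg.NearField F] : ∃ H : Subgroup (Equiv.Perm F), (∀ σ : Equiv.Perm F, σ ∈ H ↔ ∃ a b : F, a ≠ 0 ∧ ∀ x : F, σ x = x * a + b) ∧ MulAction.IsMultiplyPretransitive H F 2 ∧ ∀ x : Fin 2 ↪ F, MulAction.stabilizer H x = ⊥ := by
  refine ⟨affSub, mem_affSub, ?_, ?_⟩
  · rw [MulAction.is_two_pretransitive_iff]
    intro a b c d hab hcd
    have hba : b - a ≠ 0 := sub_ne_zero.mpr (Ne.symm hab)
    have hdc : d - c ≠ 0 := sub_ne_zero.mpr (Ne.symm hcd)
    obtain ⟨u, hu1, hu2⟩ := Cfsg.NearField.exists_inv (b - a) hba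
    have hu : u ≠ 0 := nf_inv_ne_zero hu1
    have hm : u * (d - c) ≠ 0 := nf_mul_ne_zero hu hdc
    obtain ⟨m', hm1, hm2⟩ := Cfsg.NearField.exists_inv (u * (d - c)) hm
    let σ : Equiv.Perm F := affPerm (u * (d - c)) m' (-(a * (u * (d - c))) + c) hm1 hm2
    have hσ : σ ∈ (affSub : Subgroup (Equiv.Perm F)) :=
      ⟨u * (d - c), -(a * (u * (d - c))) + c, hm, fun x => rfl⟩
    refine ⟨⟨σ, hσ⟩, ?_, ?_⟩
    · change σ a = c
      change a * (u * (d - c)) + (-(a * (u * (d - c))) + c) = c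
      rw [← add_assoc, add_neg_cancel, zero_add]
    · change σ b = d
      change b * (u * (d - c)) + (-(a * (u * (d - c))) + c) = d
      rw [← add_assoc, ← sub_eq_add_neg, ← nf_sub_mul, ← mul_assoc, hu1, one_mul, sub_add_cancel]
  · intro x
    rw [eq_bot_iff]
    rintro ⟨σ, hσ⟩ hstab
    rw [Subgroup.mem_bot]
    apply Subtype.ext
    change σ = 1
    obtain ⟨m, n, hm, hmn⟩ := hσ
    have h0 : σ (x 0) = x 0 := by
      have := congrArg (fun e : Fin 2 ↪ F => e 0) (MulAction.mem_stabilizer_iff.mp hstab)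
      exact this
    have h1 : σ (x 1) = x 1 := by
      have := congrArg (fun e : Fin 2 ↪ F => e 1) (MulAction.mem_stabilizer_iff.mp hstab)
      exact this
    rw [hmn] at h0 h1
    have hne : x 0 - x 1 ≠ 0 := sub_ne_zero.mpr (fun h => by
      have := x.injective h
      exact absurd this (by decide))
    obtain ⟨u, hu1, hu2⟩ := Cfsg.NearField.exists_inv (x 0 - x 1) hne
    have hkey : (x 0 - x 1) * m = x 0 - x 1 := by
      rw [nf_sub_mul]
      calc x 0 * m - x 1 * m = (x 0 * m + n) - (x 1 * m + n) := by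
            rw [add_sub_add_right_eq_sub]
        _ = x 0 - x 1 := by rw [h0, h1]
    have hm1 : m = 1 := by
      have h3 : u * ((x 0 - x 1) * m) = u * (x 0 - x 1) := by rw [hkey]
      rw [← mul_assoc, hu2, one_mul] at h3
      exact h3
    have hn0 : n = 0 := by
      rw [hm1, mul_one] at h0
      exact add_eq_left.mp h0
    ext y
    rw [hmn, hm1, hn0, mul_one, add_zero]
    rfl

end Cfsg.Agent.S0681
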