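import Cfsg.Statements.S0682
import Mathlib

set_option autoImplicit false
open Cfsg

namespace Cfsg.Agent.S0682

section
variable {F : Type*} [Cfsg.NearField F]

theorem nf_zero_mul (a : F) : (0 : F) * a = 0 := by
  have h := Cfsg.NearField.right_distrib (0 : F) 0 a
  rw [add_zero] at h
  have h2 : (0 : F) * a + 0 = 0 * a + 0 * a := by rw [add_zero]; exact h
  exact (add_left_cancel h2).symm

theorem nf_inv_ne_zero {a b : F} (h : a * b = 1) : b ≠ 0 := by
  rintro rfl
  rw [Cfsg.NearField.mul_zero] at h
  exact Cfsg.NearField.zero_ne_one h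

/-- right multiplication as an additive hom -/
def rmul (a : F) : F →+ F :=
  AddMonoidHom.mk' (fun x => x * a) (fun x y => Cfsg.NearField.right_distrib x y a)

theorem rmul_apply (a x : F) : rmul a x = x * a := rfl

theorem rmul_injective {a a' : F} (h : a * a' = 1) : Function.Injective (rmul a) := by
  intro x y hxy
  have h2 : x * a * a' = y * a * a' := by
    have : x * a = y * a := hxy
    rw [this]
  rwa [mul_assoc, mul_assoc, h, mul_one, mul_one] at h2

theorem exists_mul_eq {x y : F} (hx : x ≠ 0) (hy : y ≠ 0) :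
    ∃ a a' : F, a * a' = 1 ∧ x * a = y := by
  obtain ⟨u, hu1, hu2⟩ := Cfsg.NearField.exists_inv x hx
  obtain ⟨v, hv1, hv2⟩ := Cfsg.NearField.exists_inv y hy
  refine ⟨u * y, v * x, ?_, ?_⟩
  · rw [mul_assoc, ← mul_assoc y, hv1, one_mul, hu2]
  · rw [← mul_assoc, hu1, one_mul]

end

/-- A finite near-field has prime-power order; its additive group is commutative of prime exponent. -/
theorem result {F : Type*} [Cfsg.NearField F] [Finite F] : ∃ p j : ℕ, p.Prime ∧ 1 ≤ j ∧ Nat.card F = p ^ j ∧ (∀ x y : F, x + y = y + x) ∧ ∀ x : F, p • x = 0 := by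
  have hone : (1 : F) ≠ 0 := fun h => Cfsg.NearField.zero_ne_one h.symm
  set p := addOrderOf (1 : F) with hp
  have hord : ∀ x : F, x ≠ 0 → addOrderOf x = p := by
    intro x hx
    obtain ⟨a, a', ha, hxa⟩ := exists_mul_eq hone hx
    have := addOrderOf_injective (rmul a) (rmul_injective ha) (1 : F)
    rw [rmul_apply, hxa] at this
    exact this
  have hppos : 0 < p := addOrderOf_pos (1 : F)
  have hp1 : p ≠ 1 := by
    intro h
    rw [hp, AddMonoid.addOrderOf_eq_one_iff] at h
    exact hone h
  have hprime : p.Prime := by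
    set q := p.minFac with hq
    have hqp : q.Prime := Nat.minFac_prime hp1
    have hqd : q ∣ p := Nat.minFac_dvd p
    obtain ⟨m, hm⟩ := hqd
    have hmpos : 0 < m := by
      rcases Nat.eq_zero_or_pos m with h | h
      · rw [h, mul_zero] at hm; omega
      · exact h
    have hmlt : m < p := by
      rw [hm]
      have := hqp.two_le
      nlinarith
    have hy : m • (1 : F) ≠ 0 := by
      intro h
      have := addOrderOf_dvd_of_nsmul_eq_zero h
      rw [← hp] at this
      exact absurd (Nat.le_of_dvd hmpos this) (not_le.mpr hmlt)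
    have hqy : q • (m • (1 : F)) = 0 := by
      rw [← mul_nsmul', ← hm, hp]
      exact addOrderOf_nsmul_eq_zero 1
    have hdvd := addOrderOf_dvd_of_nsmul_eq_zero hqy
    rw [hord _ hy] at hdvd
    have : p = q := Nat.dvd_antisymm hdvd ⟨m, hm⟩
    rw [this]
    exact hqp
  have hpx : ∀ x : F, p • x = 0 := by
    intro x
    by_cases hx : x = 0
    · rw [hx, nsmul_zero]
    · rw [← hord x hx]
      exact addOrderOf_nsmul_eq_zero x
  have : Fact p.Prime := ⟨hprime⟩
  have hpg : IsPGroup p (Multiplicative F) := by
    intro g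
    refine ⟨1, ?_⟩
    rw [pow_one]
    exact congrArg Multiplicative.ofAdd (hpx (Multiplicative.toAdd g))
  have : Nontrivial F := ⟨⟨1, 0, hone⟩⟩
  obtain ⟨j, hj⟩ := (IsPGroup.iff_card (p := p) (G := Multiplicative F)).mp hpg
  have hcard : Nat.card F = p ^ j := by
    rw [← hj]
    exact Nat.card_congr Multiplicative.ofAdd
  have hj1 : 1 ≤ j := by
    rcases Nat.eq_zero_or_pos j with h | h
    · rw [h, pow_zero] at hcard
      have := (Nat.card_eq_one_iff_unique.mp hcard).1
      exact absurd (Subsingleton.elim (1 : F) 0) hone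
    · exact h
  have hcenter : Nontrivial (Subgroup.center (Multiplicative F)) := hpg.center_nontrivial
  obtain ⟨⟨z, hz⟩, hz1⟩ := exists_ne (1 : Subgroup.center (Multiplicative F))
  have hz0 : Multiplicative.toAdd z ≠ 0 := by
    intro h
    apply hz1
    apply Subtype.ext
    exact congrArg Multiplicative.ofAdd h
  have hzc : ∀ x : F, Multiplicative.toAdd z + x = x + Multiplicative.toAdd z := by
    intro x
    have := (Subgroup.mem_center_iff.mp hz) (Multiplicative.ofAdd x)
    exact (congrArg Multiplicative.toAdd this).symm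
  have hcomm : ∀ x y : F, x + y = y + x := by
    intro x y
    by_cases hy : y = 0
    · rw [hy, add_zero, zero_add]
    · obtain ⟨a, a', ha, hza⟩ := exists_mul_eq hz0 hy
      have ha' : a' * a = 1 := by
        have hane : a' ≠ 0 := nf_inv_ne_zero ha
        obtain ⟨b, hb1, hb2⟩ := Cfsg.NearField.exists_inv a' hane
        have : a = b := by
          calc a = a * (a' * b) := by rw [hb1, mul_one]
            _ = b := by rw [← mul_assoc, ha, one_mul]
        rw [this]; exact hb1
      have hx : x = (x * a') * a := by rw [mul_assoc, ha', mul_one]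
      rw [← hza, hx, ← Cfsg.NearField.right_distrib, ← Cfsg.NearField.right_distrib, hzc]
  exact ⟨p, j, hprime, hj1, hcard, hcomm, hpx⟩

end Cfsg.Agent.S0682
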