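import Cfsg.Statements.S0683
import Mathlib
import Cfsg.Agent.S0680

set_option autoImplicit false
open Cfsg

namespace Cfsg.Agent.S0683

open MulAction

set_option maxHeartbeats 1600000 in
/-- A finite sharply doubly transitive permutation group is the affine group of a near-field: the permuted set carries a near-field structure for which the group consists exactly of the maps `x ↦ x * a + b` with `a ≠ 0`. -/
theorem result {α : Type*} [Fintype α] [DecidableEq α] (H : Subgroup (Equiv.Perm α)) [MulAction.IsMultiplyPretransitive H α 2] (hsharp : ∀ x : Fin 2 ↪ α, MulAction.stabilizer H x = ⊥) (h2 : 2 ≤ Fintype.card α) : ∃ _ : Cfsg.NearField α, ∀ σ : Equiv.Perm α, σ ∈ H ↔ ∃ a b : α, a ≠ 0 ∧ ∀ x : α, σ x = x * a + b := by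
  classical
  have hT : ∀ a b c d : α, a ≠ b → c ≠ d → ∃ g : H, g • a = c ∧ g • b = d := by
    intro a b c d hab hcd
    let x : Fin 2 ↪ α := ⟨![a, b], by
      intro i j h
      fin_cases i <;> fin_cases j <;> simp_all⟩
    let y : Fin 2 ↪ α := ⟨![c, d], by
      intro i j h
      fin_cases i <;> fin_cases j <;> simp_all⟩
    obtain ⟨g, hg⟩ := MulAction.exists_smul_eq H x y
    exact ⟨g, congrArg (fun t : Fin 2 ↪ α => t 0) hg, congrArg (fun t : Fin 2 ↪ α => t 1) hg⟩
  have hU : ∀ (g : H) (a b : α), a ≠ b → g • a = a → g • b = b → g = 1 := by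
    intro g a b hab ha hb
    let x : Fin 2 ↪ α := ⟨![a, b], by
      intro i j h
      fin_cases i <;> fin_cases j <;> simp_all⟩
    have hmem : g ∈ MulAction.stabilizer H x := by
      rw [MulAction.mem_stabilizer_iff]
      ext i
      fin_cases i
      · exact ha
      · exact hb
    rw [hsharp x, Subgroup.mem_bot] at hmem
    exact hmem
  obtain ⟨N, p, j, -, -, -, hNmem, hNnorm, hNcomm, -, hNtrans, -⟩ :=
    Cfsg.Agent.S0680.main hT hU h2
  have hne : Nonempty α := Fintype.card_pos_iff.mp (by omega)
  obtain ⟨o⟩ := hne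
  have hexe : ∃ e : α, e ≠ o := by
    by_contra hcon
    push Not at hcon
    have : Fintype.card α ≤ 1 := Fintype.card_le_one_iff.mpr (fun x y => by rw [hcon x, hcon y])
    omega
  obtain ⟨e, heo⟩ := hexe
  -- translations
  have hτex : ∀ b : α, ∃ y : H, y ∈ N ∧ y • o = b := fun b => by
    obtain ⟨y, hy, hyb⟩ := hNtrans o b
    exact ⟨y, hy, hyb⟩
  choose τ hτN hτo using hτex
  have hNuniq : ∀ y z : H, y ∈ N → z ∈ N → y • o = z • o → y = z := by
    intro y z hy hz hyz
    have h1 : (z⁻¹ * y) • o = o := by rw [mul_smul, hyz, inv_smul_smul]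
    have h2 : z⁻¹ * y ∈ N := N.mul_mem (N.inv_mem hz) hy
    rcases (hNmem _).mp h2 with h | h
    · have h5 : y = z * (z⁻¹ * y) := by group
      rw [h5, h, mul_one]
    · exact absurd h1 (h o)
  have hτmul : ∀ y z : α, τ (τ z • y) = τ z * τ y := by
    intro y z
    apply hNuniq _ _ (hτN _) (N.mul_mem (hτN z) (hτN y))
    rw [hτo, mul_smul, hτo]
  have hτo1 : τ o = 1 := by
    apply hNuniq _ _ (hτN o) N.one_mem
    rw [hτo, one_smul]
  -- dilations
  have hμex : ∀ a : α, ∃ g : H, a ≠ o → (g • o = o ∧ g • e = a) := by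
    intro a
    by_cases ha : a = o
    · exact ⟨1, fun h => absurd ha h⟩
    · obtain ⟨g, hg1, hg2⟩ := hT o e o a (Ne.symm heo) (Ne.symm ha)
      exact ⟨g, fun _ => ⟨hg1, hg2⟩⟩
  choose μ hμ using hμex
  have hSuniq : ∀ g g' : H, g • o = o → g' • o = o → g • e = g' • e → g = g' := by
    intro g g' hg hg' hgg
    have hg'i : g'⁻¹ • o = o := by rw [inv_smul_eq_iff, hg']
    have h1 : g'⁻¹ * g = 1 := by
      apply hU _ o e (Ne.symm heo)
      · rw [mul_smul, hg, hg'i]
      · rw [mul_smul, hgg, inv_smul_smul]
    have h5 : g = g' * (g'⁻¹ * g) := by group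
    rw [h5, h1, mul_one]
  have hμne : ∀ a b : α, a ≠ o → b ≠ o → μ b • a ≠ o := by
    intro a b ha hb h
    apply ha
    have : μ b • a = μ b • o := by rw [h, (hμ b hb).1]
    exact MulAction.injective (μ b) this
  have hμmul : ∀ a b : α, a ≠ o → b ≠ o → μ (μ b • a) = μ b * μ a := by
    intro a b ha hb
    have hne := hμne a b ha hb
    apply hSuniq
    · exact (hμ _ hne).1
    · rw [mul_smul, (hμ a ha).1, (hμ b hb).1]
    · rw [(hμ _ hne).2, mul_smul, (hμ a ha).2]
  have hμe : μ e = 1 := by
    apply hSuniq
    · exact (hμ e heo).1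
    · rw [one_smul]
    · rw [(hμ e heo).2, one_smul]
  have hdist : ∀ c y x : α, c ≠ o → μ c • (τ y • x) = τ (μ c • y) • (μ c • x) := by
    intro c y x hc
    have h1 : τ (μ c • y) = μ c * τ y * (μ c)⁻¹ := by
      apply hNuniq _ _ (hτN _) (hNnorm.conj_mem _ (hτN y) _)
      have hi : (μ c)⁻¹ • o = o := by rw [inv_smul_eq_iff, (hμ c hc).1]
      rw [hτo, mul_smul, mul_smul, hi, hτo]
    rw [h1, mul_smul, mul_smul, inv_smul_smul]
  have hμinv : ∀ a : α, a ≠ o → (μ a)⁻¹ • e ≠ o ∧ μ ((μ a)⁻¹ • e) = (μ a)⁻¹ := by
    intro a ha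
    have hi : (μ a)⁻¹ • o = o := by rw [inv_smul_eq_iff, (hμ a ha).1]
    have hb : (μ a)⁻¹ • e ≠ o := by
      intro h
      apply heo
      have : (μ a)⁻¹ • e = (μ a)⁻¹ • o := by rw [h, hi]
      exact MulAction.injective _ this
    refine ⟨hb, ?_⟩
    apply hSuniq
    · exact (hμ _ hb).1
    · exact hi
    · exact (hμ _ hb).2
  letI iAdd : Add α := ⟨fun x b => τ b • x⟩
  letI iZero : Zero α := ⟨o⟩
  letI iNeg : Neg α := ⟨fun b => (τ b)⁻¹ • o⟩
  let ag : AddGroup α := AddGroup.ofLeftAxioms
    (by
      intro x y z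
      show τ z • (τ y • x) = τ (τ z • y) • x
      rw [hτmul, mul_smul])
    (by
      intro b
      show τ b • o = b
      exact hτo b)
    (by
      intro b
      show τ b • ((τ b)⁻¹ • o) = o
      rw [smul_inv_smul])
  let mon : Monoid α :=
    { mul := fun x a => if a = o then o else μ a • x
      one := e
      mul_assoc := by
        intro x a b
        show (if b = o then o else μ b • (if a = o then o else μ a • x)) =
          (if (if b = o then o else μ b • a) = o then o else
            μ (if b = o then o else μ b • a) • x)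
        by_cases hb : b = o
        · simp only [hb, if_true]
        · simp only [hb, if_false]
          by_cases ha : a = o
          · simp only [ha, if_true, (hμ b hb).1]
          · simp only [ha, if_false, hμne a b ha hb]
            rw [hμmul a b ha hb, mul_smul]
      one_mul := by
        intro a
        show (if a = o then o else μ a • e) = a
        by_cases ha : a = o
        · simp only [ha, if_true]
        · simp only [ha, if_false]
          exact (hμ a ha).2
      mul_one := by
        intro x
        show (if e = o then o else μ e • x) = x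
        simp only [heo, if_false]
        rw [hμe, one_smul] }
  refine ⟨{ toAddGroup := ag
            toMonoid := mon
            right_distrib := ?_
            mul_zero := ?_
            zero_ne_one := ?_
            exists_inv := ?_ }, ?_⟩
  · -- right_distrib
    intro x y c
    show (if c = o then o else μ c • (τ y • x)) =
      τ (if c = o then o else μ c • y) • (if c = o then o else μ c • x)
    by_cases hc : c = o
    · simp only [hc, if_true]
      rw [hτo1, one_smul]
    · simp only [hc, if_false]
      exact hdist c y x hc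
  · -- mul_zero
    intro a
    show (if o = o then o else μ o • a) = o
    simp
  · -- zero_ne_one
    show o ≠ e
    exact Ne.symm heo
  · -- exists_inv
    intro a ha
    have ha : a ≠ o := ha
    obtain ⟨hb, hμb⟩ := hμinv a ha
    refine ⟨(μ a)⁻¹ • e, ?_, ?_⟩
    · show (if (μ a)⁻¹ • e = o then o else μ ((μ a)⁻¹ • e) • a) = e
      simp only [hb, if_false]
      rw [hμb, inv_smul_eq_iff, (hμ a ha).2]
    · show (if a = o then o else μ a • ((μ a)⁻¹ • e)) = e
      simp only [ha, if_false]
      rw [smul_inv_smul]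
  · -- the group
    intro σ
    show σ ∈ H ↔ ∃ a b : α, a ≠ o ∧ ∀ x : α, σ x = τ b • (if a = o then o else μ a • x)
    constructor
    · intro hσ
      set g : H := ⟨σ, hσ⟩ with hg
      have hb' : (τ (g • o))⁻¹ • (g • o) = o := by rw [inv_smul_eq_iff, hτo]
      have hg'o : ((τ (g • o))⁻¹ * g) • o = o := by rw [mul_smul, hb']
      have hane : ((τ (g • o))⁻¹ * g) • e ≠ o := by
        intro h
        apply heo
        have : ((τ (g • o))⁻¹ * g) • e = ((τ (g • o))⁻¹ * g) • o := by rw [h, hg'o]
        exact MulAction.injective _ this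
      have hμa : μ (((τ (g • o))⁻¹ * g) • e) = (τ (g • o))⁻¹ * g := by
        apply hSuniq
        · exact (hμ _ hane).1
        · exact hg'o
        · exact (hμ _ hane).2
      refine ⟨((τ (g • o))⁻¹ * g) • e, g • o, hane, ?_⟩
      intro x
      simp only [hane, if_false]
      rw [hμa, mul_smul, smul_inv_smul]
      rfl
    · rintro ⟨a, b, ha, hσ⟩
      have : σ = ((τ b * μ a : H) : Equiv.Perm α) := by
        ext x
        rw [hσ x]
        simp only [ha, if_false]
        rfl
      rw [this]
      exact (τ b * μ a).2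

end Cfsg.Agent.S0683
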