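import Cfsg.Statements.S0686
import Mathlib
import Cfsg.Agent.Lib.Helper63.Sharp2
import Cfsg.Agent.S0690
set_option autoImplicit false
open Cfsg

namespace Cfsg.Agent.S0686

/-- In a linear group over the prime field that is regular on non-zero vectors and has no irreducible cyclic normal subgroup, let `A` be a maximal normal abelian subgroup and `N` a normal subgroup centralising `A` that is minimal among non-abelian normal subgroups centralising `A`. Then `N` is quaternion of order 8 or isomorphic to `SL(2,5)`. -/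
theorem result {p : ℕ} [Fact p.Prime] {V : Type*} [AddCommGroup V] [Module (ZMod p) V] [Finite V] (H : Subgroup (V ≃ₗ[ZMod p] V)) (hreg : ∀ v w : V, v ≠ 0 → w ≠ 0 → ∃! h : H, (h : V ≃ₗ[ZMod p] V) v = w) (hI : ∀ A : Subgroup H, A.Normal → IsCyclic A → ∃ W : Submodule (ZMod p) V, W ≠ ⊥ ∧ W ≠ ⊤ ∧ ∀ a ∈ A, ∀ v ∈ W, ((a : H) : V ≃ₗ[ZMod p] V) v ∈ W) (A : Subgroup H) (hAn : A.Normal) (hAc : IsMulCommutative A) (hAmax : ∀ B : Subgroup H, B.Normal → IsMulCommutative B → A ≤ B → B = A) (N : Subgroup H) (hNn : N.Normal) (hNle : N ≤ Subgroup.centralizer (A : Set H)) (hNna : ¬ IsMulCommutative N) (hNmin : ∀ M : Subgroup H, M.Normal → M ≤ N → ¬ IsMulCommutative M → M = N) : Nonempty (N ≃* QuaternionGroup 2) ∨ Nonempty (N ≃* Matrix.SpecialLinearGroup (Fin 2) (ZMod 5)) := by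
  exact Cfsg.Agent.Lib.Helper63.Sharp2.s0686_main
    (fun K _ _ Γ h1 h2 h3 => Cfsg.Agent.S0690.result Γ h1 h2 h3) H hreg hI A hAn hAc hAmax N hNn hNle hNna hNmin

end Cfsg.Agent.S0686
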