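import Cfsg.Statements.S0693
import Mathlib
import Cfsg.Agent.Lib.Helper16.Mat2

set_option autoImplicit false
open Cfsg
open Cfsg.Agent.Lib.Helper16

namespace Cfsg.Agent.S0693

def S' : List M4 := [(0, 58, 1, 0), (9, 15, 49, 49), (58, 0, 0, 58), (10, 10, 9, 15), (15, 50, 49, 10), (49, 44, 10, 9),
  (0, 1, 58, 0), (50, 44, 10, 10), (10, 49, 15, 50), (49, 50, 49, 44), (48, 20, 46, 45), (44, 10, 9, 49),
  (49, 49, 50, 44), (44, 9, 10, 49), (10, 15, 49, 50), (13, 14, 48, 20), (50, 10, 44, 10), (20, 11, 45, 13),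
  (55, 48, 23, 4), (1, 29, 4, 58), (49, 10, 44, 9), (10, 9, 10, 15), (11, 39, 13, 14), (15, 49, 50, 10),
  (14, 46, 20, 11), (36, 55, 55, 48), (55, 1, 1, 29), (11, 13, 39, 14), (48, 4, 4, 36), (29, 58, 58, 55),
  (14, 20, 46, 11), (46, 45, 11, 39), (9, 49, 15, 49), (39, 48, 14, 46), (4, 11, 36, 55), (58, 30, 55, 1),
  (20, 45, 11, 13), (55, 23, 48, 4), (1, 4, 29, 58), (13, 48, 14, 20), (28, 35, 34, 32), (38, 31, 30, 54),
  (35, 32, 31, 25), (45, 13, 39, 48), (23, 4, 4, 11), (4, 58, 58, 30), (48, 46, 20, 45), (11, 55, 55, 23),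
  (30, 1, 1, 4), (45, 39, 13, 48), (25, 27, 28, 35), (29, 5, 38, 31), (28, 34, 35, 32), (35, 31, 32, 25),
  (31, 21, 54, 29), (32, 24, 25, 28), (54, 28, 29, 38), (39, 14, 48, 46), (4, 36, 11, 55), (58, 55, 30, 1),
  (46, 11, 45, 39), (31, 24, 25, 27), (21, 28, 29, 5), (24, 27, 28, 34), (27, 34, 35, 31), (5, 30, 31, 21),
  (34, 31, 32, 24), (30, 21, 54, 28), (5, 38, 38, 53), (10, 19, 19, 48), (28, 5, 38, 30), (34, 32, 31, 24),
  (30, 54, 21, 28), (31, 25, 24, 27), (24, 28, 27, 34), (28, 38, 5, 30), (27, 35, 34, 31), (5, 31, 30, 21),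
  (21, 6, 5, 38), (40, 11, 10, 19), (21, 29, 28, 5), (38, 54, 53, 21), (19, 49, 48, 40), (18, 19, 45, 41),
  (25, 16, 42, 34), (32, 25, 24, 28), (54, 29, 28, 38), (25, 28, 27, 35), (29, 38, 5, 31), (54, 21, 21, 6),
  (49, 40, 40, 11), (31, 54, 21, 29), (6, 38, 38, 54), (11, 19, 19, 49), (14, 18, 18, 19), (17, 25, 25, 16),
  (38, 30, 31, 54), (19, 41, 41, 14), (16, 34, 34, 17), (38, 53, 54, 21), (19, 48, 49, 40), (21, 5, 6, 38),
  (40, 10, 11, 19), (41, 40, 14, 18), (34, 43, 17, 25), (18, 45, 19, 41), (25, 42, 16, 34), (42, 34, 34, 43),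
  (56, 52, 52, 3), (40, 18, 18, 45), (53, 21, 21, 5), (48, 40, 40, 10), (45, 41, 41, 40), (43, 25, 25, 42),
  (7, 56, 56, 52), (41, 14, 40, 18), (34, 17, 43, 25), (52, 3, 3, 7), (3, 7, 7, 56)]

def Z' : List ℕ := [4, 16, 5, 20, 21, 25, 41, 46, 7, 28, 53, 35, 22, 29, 57, 51, 27, 49, 19, 17, 9, 36, 26, 45, 3, 12, 48, 15]

def gens : List M4 := [(0, 58, 1, 0), (9, 15, 49, 49)]

/-- An exceptional sharply doubly transitive group of degree 59^2: the listed matrices generate a subgroup of GL(2,59) of order 3480 acting regularly on the non-zero vectors. -/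
theorem result (A : Matrix.GeneralLinearGroup (Fin 2) (ZMod 59)) (B : Matrix.GeneralLinearGroup (Fin 2) (ZMod 59)) (C : Matrix.GeneralLinearGroup (Fin 2) (ZMod 59)) (hA : (A : Matrix (Fin 2) (Fin 2) (ZMod 59)) = !![0, -1; 1, 0]) (hB : (B : Matrix (Fin 2) (Fin 2) (ZMod 59)) = !![9, 15; -10, -10]) (hC : (C : Matrix (Fin 2) (Fin 2) (ZMod 59)) = !![4, 0; 0, 4]) : Nat.card (Subgroup.closure ({A, B, C} : Set (Matrix.GeneralLinearGroup (Fin 2) (ZMod 59)))) = 3480 ∧ ∀ v w : Fin 2 → ZMod 59, v ≠ 0 → w ≠ 0 → ∃! h : Subgroup.closure ({A, B, C} : Set (Matrix.GeneralLinearGroup (Fin 2) (ZMod 59))), Matrix.mulVec ((h : Matrix.GeneralLinearGroup (Fin 2) (ZMod 59)) : Matrix (Fin 2) (Fin 2) (ZMod 59)) v = w := by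
  have eA : (A : Matrix (Fin 2) (Fin 2) (ZMod 59)) = toMat 59 (0, 58, 1, 0) := by
    rw [hA]; decide
  have eB : (B : Matrix (Fin 2) (Fin 2) (ZMod 59)) = toMat 59 (9, 15, 49, 49) := by
    rw [hB]; decide
  have eC : (C : Matrix (Fin 2) (Fin 2) (ZMod 59)) =
      ((4 : ℕ) : ZMod 59) • (1 : Matrix (Fin 2) (Fin 2) (ZMod 59)) := by
    rw [hC]; decide
  have : Fact (Nat.Prime 59) := ⟨by norm_num⟩
  obtain ⟨h1, h2⟩ := regular_main 59 ({A, B, C} : Set (Matrix.GeneralLinearGroup (Fin 2) (ZMod 59)))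
    gens [4] S' Z'
    (by
      intro t ht
      rcases ht with rfl | rfl | rfl
      · exact Or.inl ⟨(0, 58, 1, 0), by simp [gens], eA⟩
      · exact Or.inl ⟨(9, 15, 49, 49), by simp [gens], eB⟩
      · exact Or.inr ⟨4, by simp, eC⟩)
    (by
      intro c hc
      simp only [gens, List.mem_cons, List.not_mem_nil, or_false] at hc
      rcases hc with rfl | rfl
      · exact ⟨A, by simp, eA⟩
      · exact ⟨B, by simp, eB⟩)
    (by
      intro u hu
      simp only [List.mem_cons, List.not_mem_nil, or_false] at hu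
      subst hu
      exact ⟨C, by simp, eC⟩)
    (by decide) (by decide) (by decide) (by decide) (by decide) (by decide) (by decide)
    (by decide) (by decide) (by decide) (by decide) (by decide)
  exact ⟨h1.trans (by decide), h2⟩

end Cfsg.Agent.S0693
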