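import Cfsg.Statements.S0694
import Mathlib

set_option autoImplicit false
open Cfsg

namespace Cfsg.Agent.S0694

theorem dvd_iff_val {N M : ℕ} (hN : N ≠ 0) (hM : M ≠ 0) :
    N ∣ M ↔ ∀ ℓ : ℕ, ℓ.Prime → padicValNat ℓ N ≤ padicValNat ℓ M := by
  constructor
  · intro h ℓ hℓ
    have := Fact.mk hℓ
    exact (padicValNat_dvd_iff_le hM).mp (dvd_trans pow_padicValNat_dvd h)
  · intro h
    rw [Nat.dvd_iff_prime_pow_dvd_dvd]
    intro ℓ k hℓ hk
    have := Fact.mk hℓ
    exact (padicValNat_dvd_iff_le hM).mpr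
      (le_trans ((padicValNat_dvd_iff_le hN).mp hk) (h ℓ hℓ))

theorem pow_gcd (x m : ℕ) (a b : ℕ) :
    x ^ a ≡ 1 [MOD m] → x ^ b ≡ 1 [MOD m] → x ^ Nat.gcd a b ≡ 1 [MOD m] := by
  induction a, b using Nat.gcd.induction with
  | H0 n =>
    intro _ h
    simpa using h
  | H1 a b ha ih =>
    intro h1 h2
    rw [Nat.gcd_rec]
    apply ih _ h1
    have h3 : x ^ b = (x ^ a) ^ (b / a) * x ^ (b % a) := by
      rw [← pow_mul, ← pow_add, Nat.div_add_mod]
    have h4 : x ^ b ≡ 1 * x ^ (b % a) [MOD m] := by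
      rw [h3]
      exact Nat.ModEq.mul_right _ (by simpa using h1.pow (b / a))
    rw [one_mul] at h4
    exact h4.symm.trans h2

theorem pow_sub_ne {q i : ℕ} (hq : 2 ≤ q) (hi : i ≠ 0) : q ^ i - 1 ≠ 0 := by
  have := Nat.one_lt_pow hi (by omega : 1 < q)
  omega

theorem val_base {ℓ q : ℕ} (hℓ : ℓ.Prime) (hq : 2 ≤ q) {i : ℕ} (hi : i ≠ 0) :
    padicValNat ℓ (q - 1) ≤ padicValNat ℓ (q ^ i - 1) := by
  have h1 : q - 1 ∣ q ^ i - 1 := by simpa only [one_pow] using Nat.sub_dvd_pow_sub_pow q 1 i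
  exact (dvd_iff_val (by omega) (pow_sub_ne hq hi)).mp h1 ℓ hℓ

theorem lte_odd {ℓ q : ℕ} (hℓ : ℓ.Prime) (hodd : Odd ℓ) (hq : 2 ≤ q) (hℓq : ℓ ∣ q - 1) {i : ℕ}
    (hi : i ≠ 0) :
    padicValNat ℓ (q ^ i - 1) = padicValNat ℓ (q - 1) + padicValNat ℓ i := by
  have := Fact.mk hℓ
  have hx : ¬ ℓ ∣ q := by
    intro h
    have h1 : ℓ ∣ q - (q - 1) := Nat.dvd_sub h hℓq
    have h2 : q - (q - 1) = 1 := by omega
    rw [h2] at h1
    exact hℓ.one_lt.ne' (Nat.dvd_one.mp h1)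
  have := padicValNat.pow_sub_pow hodd (by omega : 1 < q) hℓq hx hi
  rwa [one_pow] at this

theorem lte_two {q : ℕ} (hq : 2 ≤ q) (h2q : 2 ∣ q - 1) {i : ℕ} (hi : i ≠ 0) (hev : Even i) :
    padicValNat 2 (q ^ i - 1) + 1 =
      padicValNat 2 (q + 1) + padicValNat 2 (q - 1) + padicValNat 2 i :=
  padicValNat.pow_two_sub_one (by omega) (by omega) hi hev

theorem even_of_dvd {q n i : ℕ} (hq : 2 ≤ q) (h2q : 2 ∣ q - 1) (h2n : 2 ∣ n)
    (hD : n * (q - 1) ∣ q ^ i - 1) : Even i := by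
  by_contra hodd
  rw [Nat.not_even_iff_odd] at hodd
  obtain ⟨k, rfl⟩ := hodd
  obtain ⟨j, hj⟩ := h2q
  have hq' : q = 2 * j + 1 := by omega
  have hj0 : 0 < j := by omega
  subst hq'
  have h1 : (2 * j + 1) ^ 2 ≡ 1 [MOD 4 * j] := by
    have : (2 * j + 1) ^ 2 = 1 + 4 * j * (j + 1) := by ring
    rw [this]
    show (1 + 4 * j * (j + 1)) % (4 * j) = 1 % (4 * j)
    rw [Nat.add_mul_mod_self_left]
  have h2 : (2 * j + 1) ^ (2 * k + 1) ≡ 2 * j + 1 [MOD 4 * j] := by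
    rw [pow_succ, pow_mul]
    have := (h1.pow k).mul_right (2 * j + 1)
    simpa using this
  have h3 : 4 * j ∣ (2 * j + 1) ^ (2 * k + 1) - 1 := by
    apply dvd_trans _ hD
    obtain ⟨n', rfl⟩ := h2n
    have : 2 * j + 1 - 1 = 2 * j := by omega
    rw [this]
    exact ⟨n', by ring⟩
  have h4 : (2 * j + 1) ^ (2 * k + 1) ≡ 1 [MOD 4 * j] := by
    have hge : 1 ≤ (2 * j + 1) ^ (2 * k + 1) := Nat.one_le_pow _ _ (by omega)
    exact ((Nat.modEq_iff_dvd' hge).mpr h3).symm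
  have h5 : 2 * j + 1 ≡ 1 [MOD 4 * j] := h2.symm.trans h4
  have h6 : 4 * j ∣ 2 * j + 1 - 1 := (Nat.modEq_iff_dvd' (by omega)).mp h5.symm
  have h7 := Nat.le_of_dvd (by omega) h6
  omega

theorem val_two_ge_two {m : ℕ} (hm : m ≠ 0) (h : 4 ∣ m) : 2 ≤ padicValNat 2 m :=
  (padicValNat_dvd_iff_le hm).mp (by simpa using h)

theorem val_two_le_one {m : ℕ} (hm : m ≠ 0) (h : ¬ 4 ∣ m) : padicValNat 2 m ≤ 1 := by
  by_contra hcon
  push Not at hcon
  apply h
  have := (padicValNat_dvd_iff_le (p := 2) hm).mpr (by omega : 2 ≤ padicValNat 2 m)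
  simpa using this

theorem val_two_ge_one {m : ℕ} (hm : m ≠ 0) (h : 2 ∣ m) : 1 ≤ padicValNat 2 m :=
  one_le_padicValNat_of_dvd hm h

/-- forward direction -/
theorem fwd (q n : ℕ) (hq : 2 ≤ q) (hn : 1 < n)
    (hA1 : ∀ r : ℕ, r.Prime → r ∣ n → r ∣ q - 1) (hA2 : 4 ∣ n → 4 ∣ q - 1) :
    n * (q - 1) ∣ q ^ n - 1 ∧ ∀ i : ℕ, 0 < i → i < n → ¬ n * (q - 1) ∣ q ^ i - 1 := by
  have hn0 : n ≠ 0 := by omega
  have hq1 : q - 1 ≠ 0 := by omega
  have hN : n * (q - 1) ≠ 0 := Nat.mul_ne_zero hn0 hq1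
  constructor
  · rw [dvd_iff_val hN (pow_sub_ne hq hn0)]
    intro ℓ hℓ
    have := Fact.mk hℓ
    rw [padicValNat.mul hn0 hq1]
    by_cases hℓn : ℓ ∣ n
    · have hℓq := hA1 ℓ hℓ hℓn
      rcases hℓ.eq_two_or_odd' with rfl | hodd
      · have h1 := lte_two hq hℓq hn0 (even_iff_two_dvd.mpr hℓn)
        have h2 : 1 ≤ padicValNat 2 (q + 1) := val_two_ge_one (by omega) (by omega)
        omega
      · rw [lte_odd hℓ hodd hq hℓq hn0]
        omega
    · rw [padicValNat.eq_zero_of_not_dvd hℓn, zero_add]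
      exact val_base hℓ hq hn0
  · intro i hi hin hD
    have hi0 : i ≠ 0 := by omega
    have hni : n ∣ i := by
      rw [dvd_iff_val hn0 hi0]
      intro ℓ hℓ
      have := Fact.mk hℓ
      have hv := (dvd_iff_val hN (pow_sub_ne hq hi0)).mp hD ℓ hℓ
      rw [padicValNat.mul hn0 hq1] at hv
      by_cases hℓn : ℓ ∣ n
      · have hℓq := hA1 ℓ hℓ hℓn
        rcases hℓ.eq_two_or_odd' with rfl | hodd
        · have hev : Even i := even_of_dvd hq hℓq hℓn hD
          have h1 := lte_two hq hℓq hi0 hev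
          by_cases h4 : 4 ∣ q - 1
          · have h2 : padicValNat 2 (q + 1) ≤ 1 := val_two_le_one (by omega) (by omega)
            omega
          · have h2 : padicValNat 2 n ≤ 1 := val_two_le_one hn0 (fun h => h4 (hA2 h))
            have h3 : 1 ≤ padicValNat 2 i := val_two_ge_one hi0 (even_iff_two_dvd.mp hev)
            omega
        · rw [lte_odd hℓ hodd hq hℓq hi0] at hv
          omega
      · rw [padicValNat.eq_zero_of_not_dvd hℓn]
        exact Nat.zero_le _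
    have := Nat.le_of_dvd hi hni
    omega

/-- key step of the backward direction: the largest prime not dividing `q - 1` -/
theorem bwd1 (q n : ℕ) (hq : 2 ≤ q) (hn : 1 < n)
    (hB1 : n * (q - 1) ∣ q ^ n - 1) (r : ℕ) (hr : r.Prime) (hrn : r ∣ n) (hrq : ¬ r ∣ q - 1)
    (hmax : ∀ ℓ : ℕ, ℓ.Prime → ℓ ∣ n → ¬ ℓ ∣ q - 1 → ℓ ≤ r) :
    n * (q - 1) ∣ q ^ (n / r) - 1 := by
  have hn0 : n ≠ 0 := by omega
  have hq1 : q - 1 ≠ 0 := by omega
  have hN : n * (q - 1) ≠ 0 := Nat.mul_ne_zero hn0 hq1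
  have := Fact.mk hr
  have hm : r * (n / r) = n := Nat.mul_div_cancel' hrn
  have hm0 : n / r ≠ 0 := by
    intro h
    rw [h, mul_zero] at hm
    exact hn0 hm.symm
  rw [dvd_iff_val hN (pow_sub_ne hq hm0)]
  intro ℓ hℓ
  have := Fact.mk hℓ
  have hgiven := (dvd_iff_val hN (pow_sub_ne hq hn0)).mp hB1 ℓ hℓ
  rw [padicValNat.mul hn0 hq1] at hgiven ⊢
  by_cases hℓn : ℓ ∣ n
  · by_cases hℓq : ℓ ∣ q - 1
    · have hℓr : ℓ ≠ r := fun h => hrq (h ▸ hℓq)
      have hvn : padicValNat ℓ n = padicValNat ℓ (n / r) := by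
        conv_lhs => rw [← hm]
        rw [padicValNat.mul hr.ne_zero hm0, padicValNat_primes hℓr, zero_add]
      rcases hℓ.eq_two_or_odd' with rfl | hodd
      · have hev : Even (n / r) := by
          rw [even_iff_two_dvd]
          have : 2 ∣ r * (n / r) := by rw [hm]; exact hℓn
          rcases (Nat.Prime.dvd_mul Nat.prime_two).mp this with h | h
          · exact absurd ((Nat.prime_dvd_prime_iff_eq Nat.prime_two hr).mp h) hℓr
          · exact h
        have h1 := lte_two hq hℓq hn0 (even_iff_two_dvd.mpr hℓn)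
        have h2 := lte_two hq hℓq hm0 hev
        omega
      · rw [lte_odd hℓ hodd hq hℓq hm0]
        omega
    · rw [padicValNat.eq_zero_of_not_dvd hℓq, add_zero]
      have he : 1 ≤ padicValNat ℓ n := one_le_padicValNat_of_dvd hn0 hℓn
      have hℓle : ℓ ≤ r := hmax ℓ hℓ hℓn hℓq
      -- `ℓ ^ e ∣ q ^ n - 1`
      have hpow : ℓ ^ padicValNat ℓ n ∣ q ^ n - 1 :=
        dvd_trans (dvd_trans pow_padicValNat_dvd (dvd_mul_right n (q - 1))) hB1
      have hqn : 1 ≤ q ^ n := Nat.one_le_pow _ _ (by omega)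
      have h1 : q ^ n ≡ 1 [MOD ℓ ^ padicValNat ℓ n] :=
        ((Nat.modEq_iff_dvd' hqn).mpr hpow).symm
      have hℓq' : ¬ ℓ ∣ q := by
        intro h
        have h2 : ℓ ∣ q ^ n := dvd_pow h hn0
        have h3 : ℓ ∣ q ^ n - 1 := dvd_trans (dvd_pow_self ℓ (by omega)) hpow
        have h4 : ℓ ∣ q ^ n - (q ^ n - 1) := Nat.dvd_sub h2 h3
        have h5 : q ^ n - (q ^ n - 1) = 1 := by omega
        rw [h5] at h4
        exact hℓ.one_lt.ne' (Nat.dvd_one.mp h4)
      have hcop : Nat.Coprime q (ℓ ^ padicValNat ℓ n) :=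
        Nat.Coprime.pow_right _ ((Nat.Prime.coprime_iff_not_dvd hℓ).mpr hℓq').symm
      have h2 := Nat.ModEq.pow_totient hcop
      have h3 := pow_gcd q _ n _ h1 h2
      rw [Nat.totient_prime_pow hℓ (by omega)] at h3
      have hφ0 : ℓ ^ (padicValNat ℓ n - 1) * (ℓ - 1) ≠ 0 :=
        Nat.mul_ne_zero (pow_ne_zero _ hℓ.ne_zero) (by have := hℓ.two_le; omega)
      have hg0 : Nat.gcd n (ℓ ^ (padicValNat ℓ n - 1) * (ℓ - 1)) ≠ 0 :=
        Nat.gcd_ne_zero_left hn0
      have hg : Nat.gcd n (ℓ ^ (padicValNat ℓ n - 1) * (ℓ - 1)) ∣ n / r := by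
        rw [dvd_iff_val hg0 hm0]
        intro s hs
        have := Fact.mk hs
        by_cases hsr : s = r
        · subst hsr
          have k1 := (dvd_iff_val hg0 hφ0).mp (Nat.gcd_dvd_right n _) s hs
          rw [padicValNat.mul (pow_ne_zero _ hℓ.ne_zero) (by have := hℓ.two_le; omega),
            padicValNat.pow] at k1
          have k2 : padicValNat s (ℓ - 1) = 0 := by
            apply padicValNat.eq_zero_of_not_dvd
            apply Nat.not_dvd_of_pos_of_lt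
            · have := hℓ.two_le
              omega
            · have := hℓ.two_le
              omega
          have k3 : padicValNat s (n / s) = padicValNat s n - 1 := padicValNat.div hrn
          by_cases hℓs : ℓ = s
          · subst hℓs
            rw [padicValNat_self, mul_one, k2] at k1
            omega
          · rw [padicValNat_primes (fun h => hℓs h.symm), mul_zero, k2] at k1
            omega
        · have k1 := (dvd_iff_val hg0 hn0).mp (Nat.gcd_dvd_left n _) s hs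
          have k2 : padicValNat s n = padicValNat s (n / r) := by
            conv_lhs => rw [← hm]
            rw [padicValNat.mul hr.ne_zero hm0, padicValNat_primes hsr, zero_add]
          omega
      obtain ⟨k, hk⟩ := hg
      have h4 : q ^ (n / r) ≡ 1 [MOD ℓ ^ padicValNat ℓ n] := by
        rw [hk, pow_mul]
        simpa using h3.pow k
      have hqm : 1 ≤ q ^ (n / r) := Nat.one_le_pow _ _ (by omega)
      have h5 : ℓ ^ padicValNat ℓ n ∣ q ^ (n / r) - 1 := (Nat.modEq_iff_dvd' hqm).mp h4.symm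
      exact (padicValNat_dvd_iff_le (pow_sub_ne hq hm0)).mp h5
  · rw [padicValNat.eq_zero_of_not_dvd hℓn, zero_add]
    exact val_base hℓ hq hm0

theorem bwd2 (q n : ℕ) (hq : 2 ≤ q) (hn : 1 < n)
    (hA1 : ∀ r : ℕ, r.Prime → r ∣ n → r ∣ q - 1) (h4n : 4 ∣ n) (h4q : ¬ 4 ∣ q - 1) :
    n * (q - 1) ∣ q ^ (n / 2) - 1 := by
  have hn0 : n ≠ 0 := by omega
  have hq1 : q - 1 ≠ 0 := by omega
  have hN : n * (q - 1) ≠ 0 := Nat.mul_ne_zero hn0 hq1
  have h2n : 2 ∣ n := dvd_trans (by norm_num) h4n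
  have h2q : 2 ∣ q - 1 := hA1 2 Nat.prime_two h2n
  have hm0 : n / 2 ≠ 0 := by omega
  have hev : Even (n / 2) := by
    rw [even_iff_two_dvd]
    omega
  rw [dvd_iff_val hN (pow_sub_ne hq hm0)]
  intro ℓ hℓ
  have := Fact.mk hℓ
  rw [padicValNat.mul hn0 hq1]
  by_cases hℓn : ℓ ∣ n
  · have hℓq := hA1 ℓ hℓ hℓn
    rcases hℓ.eq_two_or_odd' with rfl | hodd
    · have h1 := lte_two hq hℓq hm0 hev
      have h2 : padicValNat 2 (n / 2) = padicValNat 2 n - 1 := padicValNat.div h2n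
      have h3 : 2 ≤ padicValNat 2 n := val_two_ge_two hn0 h4n
      have h4 : 2 ≤ padicValNat 2 (q + 1) := val_two_ge_two (by omega) (by omega)
      omega
    · rw [lte_odd hℓ hodd hq hℓq hm0]
      have h2 : padicValNat ℓ (n / 2) = padicValNat ℓ n - padicValNat ℓ 2 :=
        padicValNat.div_of_dvd h2n
      have h3 : padicValNat ℓ 2 = 0 := by
        apply padicValNat.eq_zero_of_not_dvd
        intro h
        have := (Nat.prime_dvd_prime_iff_eq hℓ Nat.prime_two).mp h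
        rw [this] at hodd
        exact absurd hodd (by decide)
      omega
  · rw [padicValNat.eq_zero_of_not_dvd hℓn, zero_add]
    exact val_base hℓ hq hm0

/-- The Dickson pair condition: for a prime power `q` and `n > 1`, (every prime factor of `n` divides `q - 1`, and `4 ∣ n → 4 ∣ q - 1`) holds exactly when `q ^ n ≡ 1` modulo `n * (q - 1)` but `q ^ i` is not, for `0 < i < n`. -/
theorem result (q n : ℕ) (hq : IsPrimePow q) (hn : 1 < n) : ((∀ r : ℕ, r.Prime → r ∣ n → r ∣ q - 1) ∧ (4 ∣ n → 4 ∣ q - 1)) ↔ (q ^ n ≡ 1 [MOD n * (q - 1)] ∧ ∀ i : ℕ, 0 < i → i < n → ¬ q ^ i ≡ 1 [MOD n * (q - 1)]) := by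
  have hq2 : 2 ≤ q := hq.two_le
  have hiff : ∀ i : ℕ, q ^ i ≡ 1 [MOD n * (q - 1)] ↔ n * (q - 1) ∣ q ^ i - 1 := by
    intro i
    have hge : 1 ≤ q ^ i := Nat.one_le_pow _ _ (by omega)
    rw [Nat.ModEq.comm]
    exact Nat.modEq_iff_dvd' hge
  simp only [hiff]
  constructor
  · rintro ⟨hA1, hA2⟩
    exact fwd q n hq2 hn hA1 hA2
  · rintro ⟨hB1, hB2⟩
    have hn0 : n ≠ 0 := by omega
    have hA1 : ∀ r : ℕ, r.Prime → r ∣ n → r ∣ q - 1 := by
      by_contra hcon
      push Not at hcon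
      obtain ⟨r0, hr0, hr0n, hr0q⟩ := hcon
      let S := (Finset.range (n + 1)).filter (fun r => r.Prime ∧ r ∣ n ∧ ¬ r ∣ q - 1)
      have hS : S.Nonempty := ⟨r0, by
        simp only [S, Finset.mem_filter, Finset.mem_range]
        exact ⟨Nat.lt_succ_of_le (Nat.le_of_dvd (by omega) hr0n), hr0, hr0n, hr0q⟩⟩
      obtain ⟨r, hrS, hrmax⟩ := Finset.exists_max_image S id hS
      simp only [S, Finset.mem_filter, Finset.mem_range] at hrS
      obtain ⟨-, hr, hrn, hrq⟩ := hrS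
      have hmax : ∀ ℓ : ℕ, ℓ.Prime → ℓ ∣ n → ¬ ℓ ∣ q - 1 → ℓ ≤ r := by
        intro ℓ hℓ hℓn hℓq
        apply hrmax ℓ
        simp only [S, Finset.mem_filter, Finset.mem_range]
        exact ⟨Nat.lt_succ_of_le (Nat.le_of_dvd (by omega) hℓn), hℓ, hℓn, hℓq⟩
      have hm : r * (n / r) = n := Nat.mul_div_cancel' hrn
      have hm0 : 0 < n / r := by
        rcases Nat.eq_zero_or_pos (n / r) with h | h
        · rw [h, mul_zero] at hm
          omega
        · exact h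
      have hlt : n / r < n := Nat.div_lt_self (by omega) hr.one_lt
      exact hB2 (n / r) hm0 hlt (bwd1 q n hq2 hn hB1 r hr hrn hrq hmax)
    refine ⟨hA1, ?_⟩
    intro h4n
    by_contra h4q
    exact hB2 (n / 2) (by omega) (by omega) (bwd2 q n hq2 hn hA1 h4n h4q)

end Cfsg.Agent.S0694
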