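import Cfsg.Statements.S0695
import Mathlib

set_option autoImplicit false
open Cfsg

namespace Cfsg.Agent.S0695

open MulAction SubMulAction

/-- A regular normal subgroup of a doubly primitive group of finite degree at least 2 is an elementary abelian 2-group (and the degree is a power of 2), unless the degree is 3. -/
theorem result {G : Type*} [Group G] {X : Type*} [Fintype X] [MulAction G X] (hX : 2 ≤ Fintype.card X) (h2 : MulAction.IsMultiplyPreprimitive G X 2) (N : Subgroup G) [N.Normal] (htrans : MulAction.IsPretransitive N X) (hreg : ∀ x : X, MulAction.stabilizer N x = ⊥) : Fintype.card X = 3 ∨ (IsMulCommutative N ∧ (∀ n ∈ N, n ^ 2 = 1) ∧ ∃ m : ℕ, Fintype.card X = 2 ^ m) := by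
  classical
  have hne : Nonempty X := Fintype.card_pos_iff.mp (by omega)
  obtain ⟨x0⟩ := hne
  have hprim : IsPreprimitive (fixingSubgroup G ({x0} : Set X))
      (SubMulAction.ofFixingSubgroup G ({x0} : Set X)) :=
    h2.isPreprimitive_ofFixingSubgroup (by rw [Set.encard_singleton]; rfl)
  have hinj : ∀ n ∈ N, ∀ n' ∈ N, n • x0 = n' • x0 → n = n' := by
    intro n hn n' hn' h
    have : (⟨n⁻¹ * n', N.mul_mem (N.inv_mem hn) hn'⟩ : N) ∈ MulAction.stabilizer N x0 := by
      rw [MulAction.mem_stabilizer_iff]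
      change (n⁻¹ * n') • x0 = x0
      rw [mul_smul, ← h, inv_smul_smul]
    rw [hreg x0, Subgroup.mem_bot] at this
    have h1 : n⁻¹ * n' = 1 := congrArg Subtype.val this
    exact inv_mul_eq_one.mp h1
  have hsurj : ∀ y : X, ∃ n ∈ N, n • x0 = y := by
    intro y
    obtain ⟨n, hn⟩ := htrans.exists_smul_eq x0 y
    exact ⟨n, n.2, hn⟩
  by_cases hexp : ∀ n ∈ N, n * n = 1
  · right
    refine ⟨⟨⟨fun a b => ?_⟩⟩, fun n hn => by rw [pow_two]; exact hexp n hn, ?_⟩
    · apply Subtype.ext
      have ha := hexp a a.2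
      have hb := hexp b b.2
      have hab := hexp (a * b) (N.mul_mem a.2 b.2)
      have ha' : (a : G)⁻¹ = a := inv_eq_of_mul_eq_one_right ha
      have hb' : (b : G)⁻¹ = b := inv_eq_of_mul_eq_one_right hb
      have hab' : ((a : G) * b)⁻¹ = a * b := inv_eq_of_mul_eq_one_right hab
      change (a : G) * b = b * a
      rw [← hab', mul_inv_rev, ha', hb']
    · have hbij : Function.Bijective (fun n : N => (n : G) • x0) := by
        refine ⟨fun n n' h => Subtype.ext (hinj n n.2 n' n'.2 h), fun y => ?_⟩
        obtain ⟨n, hn, hny⟩ := hsurj y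
        exact ⟨⟨n, hn⟩, hny⟩
      have hfin : Finite N := Finite.of_injective _ hbij.1
      have hpg : IsPGroup 2 N := by
        intro g
        refine ⟨1, ?_⟩
        rw [pow_one, pow_two]
        exact Subtype.ext (hexp g g.2)
      obtain ⟨m, hm⟩ := (IsPGroup.iff_card (p := 2) (G := N)).mp hpg
      refine ⟨m, ?_⟩
      rw [← hm, ← Nat.card_eq_fintype_card]
      exact (Nat.card_congr (Equiv.ofBijective _ hbij)).symm
  · left
    push Not at hexp
    obtain ⟨n, hnN, hn⟩ := hexp
    have hn1 : n ≠ 1 := by rintro rfl; exact hn (one_mul 1)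
    have hnn : n ≠ n⁻¹ := fun h => hn (by
      have : n * n = n * n⁻¹ := by rw [← h]
      rw [this, mul_inv_cancel])
    have hninv1 : n⁻¹ ≠ 1 := fun h => hn1 (inv_eq_one.mp h)
    have hy1 : n • x0 ≠ x0 := fun h => hn1 (hinj n hnN 1 N.one_mem (by rw [h, one_smul]))
    have hy2 : n⁻¹ • x0 ≠ x0 := fun h =>
      hninv1 (hinj n⁻¹ (N.inv_mem hnN) 1 N.one_mem (by rw [h, one_smul]))
    have hy12 : n • x0 ≠ n⁻¹ • x0 := fun h => hnn (hinj n hnN n⁻¹ (N.inv_mem hnN) h)
    let B : Set (SubMulAction.ofFixingSubgroup G ({x0} : Set X)) :=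
      {y | (y : X) = n • x0 ∨ (y : X) = n⁻¹ • x0}
    have hconj : ∀ (g : G), g • x0 = x0 → ∀ k : G, g • k • x0 = (g * k * g⁻¹) • x0 := by
      intro g hg k
      have : g⁻¹ • x0 = x0 := by rw [inv_smul_eq_iff, hg]
      rw [mul_smul, mul_smul, this]
    have hB : IsBlock (fixingSubgroup G ({x0} : Set X)) B := by
      rw [isBlock_iff_smul_eq_of_mem]
      intro g a ha hga
      have hg0 : (g : G) • x0 = x0 := (mem_fixingSubgroup_iff G).mp g.2 x0 (Set.mem_singleton x0)
      set m : G := (g : G) * n * (g : G)⁻¹ with hm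
      have hmN : m ∈ N := (inferInstance : N.Normal).conj_mem n hnN g
      have hminv : (g : G) * n⁻¹ * (g : G)⁻¹ = m⁻¹ := by rw [hm]; group
      have hga' : ((g • a : SubMulAction.ofFixingSubgroup G ({x0} : Set X)) : X) = (g : G) • (a : X) := rfl
      have hmcase : m = n ∨ m = n⁻¹ := by
        rcases ha with ha | ha
        · rcases hga with h | h
          · rw [hga', ha, hconj g hg0] at h
            exact Or.inl (hinj m hmN n hnN h)
          · rw [hga', ha, hconj g hg0] at h
            exact Or.inr (hinj m hmN n⁻¹ (N.inv_mem hnN) h)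
        · rcases hga with h | h
          · rw [hga', ha, hconj g hg0, hminv] at h
            right
            have := hinj m⁻¹ (N.inv_mem hmN) n hnN h
            rw [← this, inv_inv]
          · rw [hga', ha, hconj g hg0, hminv] at h
            left
            exact inv_injective (hinj m⁻¹ (N.inv_mem hmN) n⁻¹ (N.inv_mem hnN) h)
      ext y
      rw [Set.mem_smul_set_iff_inv_smul_mem]
      have hy' : ((g⁻¹ • y : SubMulAction.ofFixingSubgroup G ({x0} : Set X)) : X) = (g : G)⁻¹ • (y : X) := rfl
      change (((g⁻¹ • y : SubMulAction.ofFixingSubgroup G ({x0} : Set X)) : X) = n • x0 ∨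
        ((g⁻¹ • y : SubMulAction.ofFixingSubgroup G ({x0} : Set X)) : X) = n⁻¹ • x0) ↔
        ((y : X) = n • x0 ∨ (y : X) = n⁻¹ • x0)
      rw [hy', inv_smul_eq_iff, inv_smul_eq_iff, hconj g hg0, hconj g hg0, hminv, ← hm]
      rcases hmcase with h | h
      · rw [h]
      · rw [h, inv_inv]; exact Or.comm
    have huniv : B = Set.univ := by
      rcases (MulAction.IsPreprimitive.isTrivialBlock_of_isBlock hB) with hsub | huniv
      · exfalso
        have h1 : (⟨n • x0, by
            rw [SubMulAction.mem_ofFixingSubgroup_iff, Set.mem_singleton_iff]; exact hy1⟩ :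
            SubMulAction.ofFixingSubgroup G ({x0} : Set X)) ∈ B := Or.inl rfl
        have h2 : (⟨n⁻¹ • x0, by
            rw [SubMulAction.mem_ofFixingSubgroup_iff, Set.mem_singleton_iff]; exact hy2⟩ :
            SubMulAction.ofFixingSubgroup G ({x0} : Set X)) ∈ B := Or.inr rfl
        have := hsub h1 h2
        exact hy12 (congrArg Subtype.val this)
      · exact huniv
    have hall : ∀ y : X, y = x0 ∨ y = n • x0 ∨ y = n⁻¹ • x0 := by
      intro y
      by_cases hy : y = x0
      · exact Or.inl hy
      · right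
        have : (⟨y, by
            rw [SubMulAction.mem_ofFixingSubgroup_iff, Set.mem_singleton_iff]; exact hy⟩ :
            SubMulAction.ofFixingSubgroup G ({x0} : Set X)) ∈ B := by rw [huniv]; trivial
        exact this
    rw [← Finset.card_univ, Finset.card_eq_three]
    refine ⟨x0, n • x0, n⁻¹ • x0, Ne.symm hy1, Ne.symm hy2, hy12, ?_⟩
    ext y
    simp only [Finset.mem_univ, Finset.mem_insert, Finset.mem_singleton, true_iff]
    exact hall y

end Cfsg.Agent.S0695
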