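import Cfsg.Statements.S0696
import Mathlib
import Cfsg.Agent.S0695

set_option autoImplicit false
open Cfsg

namespace Cfsg.Agent.S0696

open MulAction SubMulAction

/-- A triply primitive group of degree at least 3 having a regular normal subgroup has degree 3 or 4. -/
theorem result {G : Type*} [Group G] {X : Type*} [Fintype X] [MulAction G X] (hX : 3 ≤ Fintype.card X) (h3 : MulAction.IsMultiplyPreprimitive G X 3) (N : Subgroup G) [N.Normal] (htrans : MulAction.IsPretransitive N X) (hreg : ∀ x : X, MulAction.stabilizer N x = ⊥) : Fintype.card X = 3 ∨ Fintype.card X = 4 := by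
  classical
  have hcardE : ((3 : ℕ) : ℕ∞) ≤ ENat.card X := by
    rw [ENat.card_eq_coe_fintype_card]
    exact_mod_cast hX
  have h2 : MulAction.IsMultiplyPreprimitive G X 2 :=
    isMultiplyPreprimitive_of_le G X h3 (by norm_num) hcardE
  rcases Cfsg.Agent.S0695.result (by omega) h2 N htrans hreg with h | ⟨-, hexp, -⟩
  · exact Or.inl h
  right
  have hne : Nonempty X := Fintype.card_pos_iff.mp (by omega)
  obtain ⟨x0⟩ := hne
  have hinj : ∀ n ∈ N, ∀ n' ∈ N, n • x0 = n' • x0 → n = n' := by
    intro n hn n' hn' h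
    have : (⟨n⁻¹ * n', N.mul_mem (N.inv_mem hn) hn'⟩ : N) ∈ MulAction.stabilizer N x0 := by
      rw [MulAction.mem_stabilizer_iff]
      change (n⁻¹ * n') • x0 = x0
      rw [mul_smul, ← h, inv_smul_smul]
    rw [hreg x0, Subgroup.mem_bot] at this
    have h1 : n⁻¹ * n' = 1 := congrArg Subtype.val this
    exact inv_mul_eq_one.mp h1
  have hsurj : ∀ y : X, ∃ n ∈ N, n • x0 = y := by
    intro y
    obtain ⟨n, hn⟩ := htrans.exists_smul_eq x0 y
    exact ⟨n, n.2, hn⟩
  -- a second point
  have hex1 : ∃ x1 : X, x1 ≠ x0 := by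
    by_contra hcon
    push Not at hcon
    have : Fintype.card X ≤ 1 := Fintype.card_le_one_iff.mpr (fun a b => by rw [hcon a, hcon b])
    omega
  obtain ⟨x1, hx1⟩ := hex1
  obtain ⟨n1, hn1N, hn1⟩ := hsurj x1
  have hn1ne : n1 ≠ 1 := by
    rintro rfl
    rw [one_smul] at hn1
    exact hx1 hn1.symm
  have hn1sq : n1 * n1 = 1 := by rw [← pow_two]; exact hexp n1 hn1N
  -- a third point
  have hex2 : ∃ x2 : X, x2 ≠ x0 ∧ x2 ≠ x1 := by
    by_contra hcon
    push Not at hcon
    have : Fintype.card X ≤ 2 := by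
      have hsub : (Finset.univ : Finset X) ⊆ {x0, x1} := by
        intro y _
        simp only [Finset.mem_insert, Finset.mem_singleton]
        by_cases hy : y = x0
        · exact Or.inl hy
        · exact Or.inr (hcon y hy)
      calc Fintype.card X = (Finset.univ : Finset X).card := Finset.card_univ.symm
        _ ≤ ({x0, x1} : Finset X).card := Finset.card_le_card hsub
        _ ≤ 2 := Finset.card_le_two
    omega
  obtain ⟨x2, hx20, hx21⟩ := hex2
  obtain ⟨m, hmN, hm⟩ := hsurj x2
  have hm1 : m ≠ 1 := by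
    rintro rfl
    rw [one_smul] at hm
    exact hx20 hm.symm
  have hmn1 : m ≠ n1 := by
    rintro rfl
    exact hx21 (hm.symm.trans hn1)
  have hmn1N : m * n1 ∈ N := N.mul_mem hmN hn1N
  have hx3 : (m * n1) • x0 ≠ x0 := by
    intro h
    have := hinj _ hmn1N 1 N.one_mem (by rw [h, one_smul])
    apply hmn1
    calc m = m * (n1 * n1) := by rw [hn1sq, mul_one]
      _ = n1 := by rw [← mul_assoc, this, one_mul]
  have hx31 : (m * n1) • x0 ≠ x1 := by
    intro h
    rw [← hn1] at h
    have := hinj _ hmn1N n1 hn1N h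
    exact hm1 (mul_eq_right.mp this)
  have hx32 : (m * n1) • x0 ≠ x2 := by
    intro h
    rw [← hm] at h
    have := hinj _ hmn1N m hmN h
    exact hn1ne (mul_eq_left.mp this)
  have hprim : IsPreprimitive (fixingSubgroup G ({x0, x1} : Set X))
      (SubMulAction.ofFixingSubgroup G ({x0, x1} : Set X)) :=
    h3.isPreprimitive_ofFixingSubgroup (by
      rw [Set.encard_pair (Ne.symm hx1)]; rfl)
  have hmemY : ∀ y : X, y ≠ x0 → y ≠ x1 → y ∈ SubMulAction.ofFixingSubgroup G ({x0, x1} : Set X) := by
    intro y h0 h1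
    rw [SubMulAction.mem_ofFixingSubgroup_iff]
    simp only [Set.mem_insert_iff, Set.mem_singleton_iff, not_or]
    exact ⟨h0, h1⟩
  let B : Set (SubMulAction.ofFixingSubgroup G ({x0, x1} : Set X)) :=
    {y | (y : X) = m • x0 ∨ (y : X) = (m * n1) • x0}
  have hconj : ∀ (g : G), g • x0 = x0 → ∀ k : G, g • k • x0 = (g * k * g⁻¹) • x0 := by
    intro g hg k
    have : g⁻¹ • x0 = x0 := by rw [inv_smul_eq_iff, hg]
    rw [mul_smul, mul_smul, this]
  have hB : IsBlock (fixingSubgroup G ({x0, x1} : Set X)) B := by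
    rw [isBlock_iff_smul_eq_of_mem]
    intro g a ha hga
    have hg0 : (g : G) • x0 = x0 :=
      (mem_fixingSubgroup_iff G).mp g.2 x0 (Set.mem_insert _ _)
    have hg1 : (g : G) • x1 = x1 :=
      (mem_fixingSubgroup_iff G).mp g.2 x1 (Set.mem_insert_of_mem _ rfl)
    have hgn1 : (g : G) * n1 * (g : G)⁻¹ = n1 := by
      apply hinj _ ((inferInstance : N.Normal).conj_mem n1 hn1N g) n1 hn1N
      rw [← hconj g hg0, hn1, hg1]
    set m' : G := (g : G) * m * (g : G)⁻¹ with hm'
    have hm'N : m' ∈ N := (inferInstance : N.Normal).conj_mem m hmN g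
    have hm'n1 : (g : G) * (m * n1) * (g : G)⁻¹ = m' * n1 := by
      rw [hm']
      conv_rhs => rw [← hgn1]
      group
    have hga' : ((g • a : SubMulAction.ofFixingSubgroup G ({x0, x1} : Set X)) : X)
        = (g : G) • (a : X) := rfl
    have hmcase : m' = m ∨ m' = m * n1 := by
      rcases ha with ha | ha
      · rcases hga with h | h
        · rw [hga', ha, hconj g hg0] at h
          exact Or.inl (hinj m' hm'N m hmN h)
        · rw [hga', ha, hconj g hg0] at h
          exact Or.inr (hinj m' hm'N _ hmn1N h)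
      · rcases hga with h | h
        · rw [hga', ha, hconj g hg0, hm'n1] at h
          right
          have := hinj _ (N.mul_mem hm'N hn1N) m hmN h
          rw [← this, mul_assoc, hn1sq, mul_one]
        · rw [hga', ha, hconj g hg0, hm'n1] at h
          left
          have := hinj _ (N.mul_mem hm'N hn1N) _ hmn1N h
          exact mul_right_cancel this
    ext y
    rw [Set.mem_smul_set_iff_inv_smul_mem]
    have hy' : ((g⁻¹ • y : SubMulAction.ofFixingSubgroup G ({x0, x1} : Set X)) : X)
        = (g : G)⁻¹ • (y : X) := rfl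
    change (((g⁻¹ • y : SubMulAction.ofFixingSubgroup G ({x0, x1} : Set X)) : X) = m • x0 ∨
      ((g⁻¹ • y : SubMulAction.ofFixingSubgroup G ({x0, x1} : Set X)) : X) = (m * n1) • x0) ↔
      ((y : X) = m • x0 ∨ (y : X) = (m * n1) • x0)
    rw [hy', inv_smul_eq_iff, inv_smul_eq_iff, hconj g hg0, hconj g hg0, hm'n1, ← hm']
    rcases hmcase with h | h
    · rw [h]
    · rw [h, mul_assoc, hn1sq, mul_one]; exact Or.comm
  have huniv : B = Set.univ := by
    rcases (MulAction.IsPreprimitive.isTrivialBlock_of_isBlock hB) with hsub | huniv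
    · exfalso
      have h1 : (⟨m • x0, hmemY _ (hm ▸ hx20) (hm ▸ hx21)⟩ :
          SubMulAction.ofFixingSubgroup G ({x0, x1} : Set X)) ∈ B := Or.inl rfl
      have h2 : (⟨(m * n1) • x0, hmemY _ hx3 hx31⟩ :
          SubMulAction.ofFixingSubgroup G ({x0, x1} : Set X)) ∈ B := Or.inr rfl
      have := hsub h1 h2
      have h3 : m • x0 = (m * n1) • x0 := congrArg Subtype.val this
      rw [hm] at h3
      exact hx32 h3.symm
    · exact huniv
  have hall : ∀ y : X, y = x0 ∨ y = x1 ∨ y = x2 ∨ y = (m * n1) • x0 := by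
    intro y
    by_cases hy : y = x0
    · exact Or.inl hy
    by_cases hy1 : y = x1
    · exact Or.inr (Or.inl hy1)
    right; right
    have : (⟨y, hmemY y hy hy1⟩ :
        SubMulAction.ofFixingSubgroup G ({x0, x1} : Set X)) ∈ B := by rw [huniv]; trivial
    rcases this with h | h
    · left; rw [← hm]; exact h
    · right; exact h
  have huniv4 : (Finset.univ : Finset X) = {x0, x1, x2, (m * n1) • x0} := by
    ext y
    simp only [Finset.mem_univ, Finset.mem_insert, Finset.mem_singleton, true_iff]
    exact hall y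
  rw [← Finset.card_univ, huniv4]
  rw [Finset.card_insert_of_notMem, Finset.card_insert_of_notMem, Finset.card_insert_of_notMem,
    Finset.card_singleton]
  · simp only [Finset.mem_singleton]; exact Ne.symm hx32
  · simp only [Finset.mem_insert, Finset.mem_singleton, not_or]
    exact ⟨Ne.symm hx21, Ne.symm hx31⟩
  · simp only [Finset.mem_insert, Finset.mem_singleton, not_or]
    exact ⟨Ne.symm hx1, Ne.symm hx20, Ne.symm hx3⟩

end Cfsg.Agent.S0696
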