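import Cfsg.Statements.S0698
import Mathlib
import Cfsg.Agent.S0695
import Cfsg.Agent.S0696

set_option autoImplicit false
open Cfsg

namespace Cfsg.Agent.S0698

open MulAction SubMulAction

universe u v

/-- transport: from multiple transitivity of `N ∩ G_a` on `X \ {a}` to `N` -/
theorem mt_of_stab {G : Type u} {X : Type v} [Group G] [MulAction G X] (N : Subgroup G) (a : X)
    (j : ℕ) (hN : IsPretransitive N X)
    (h : IsMultiplyPretransitive (N.subgroupOf (stabilizer G a)) (ofStabilizer G a) j) :
    IsMultiplyPretransitive N X (j + 1) := by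
  rw [ofStabilizer.isMultiplyPretransitive (G := N) (a := a)]
  let φ : N.subgroupOf (stabilizer G a) → stabilizer N a :=
    fun g => ⟨⟨((g : stabilizer G a) : G), g.2⟩, (g : stabilizer G a).2⟩
  let f : ofStabilizer G a →ₑ[φ] ofStabilizer N a :=
    { toFun := fun x => ⟨x.1, x.2⟩
      map_smul' := fun g x => rfl }
  have hφ : Function.Surjective φ := by
    rintro ⟨⟨n, hn⟩, hs⟩
    exact ⟨⟨⟨n, hs⟩, hn⟩, rfl⟩
  have hf : Function.Bijective f := by
    refine ⟨?_, ?_⟩
    · rintro ⟨x, hx⟩ ⟨y, hy⟩ hxy
      have : x = y := congrArg Subtype.val hxy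
      exact Subtype.ext this
    · rintro ⟨x, hx⟩
      exact ⟨⟨x, hx⟩, rfl⟩
  exact (IsPretransitive.of_embedding_congr hφ hf).mp h

theorem normal_trans {G : Type u} {X : Type v} [Group G] [MulAction G X] [FaithfulSMul G X]
    (hprim : IsPreprimitive G X) (N : Subgroup G) (hN : N.Normal) (hNbot : N ≠ ⊥) :
    IsPretransitive N X := by
  apply IsQuasiPreprimitive.isPretransitive_of_normal (G := G)
  intro huniv
  apply hNbot
  rw [eq_bot_iff]
  intro n hn
  rw [Subgroup.mem_bot]
  apply FaithfulSMul.eq_of_smul_eq_smul (α := X)
  intro x
  have hx : x ∈ fixedPoints N X := by rw [huniv]; trivial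
  rw [one_smul]
  exact hx ⟨n, hn⟩

theorem faithful_stab {G : Type u} {X : Type v} [Group G] [MulAction G X] [FaithfulSMul G X]
    (a : X) : FaithfulSMul (stabilizer G a) (ofStabilizer G a) := by
  constructor
  intro g1 g2 h
  apply Subtype.ext
  apply FaithfulSMul.eq_of_smul_eq_smul (α := X)
  intro x
  by_cases hx : x = a
  · rw [hx]
    have h1 : (g1 : G) • a = a := g1.2
    have h2 : (g2 : G) • a = a := g2.2
    rw [h1, h2]
  · exact congrArg Subtype.val (h ⟨x, hx⟩)

theorem three_trans {G : Type u} {X : Type v} [Group G] [MulAction G X]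
    (h3 : IsMultiplyPretransitive G X 3) (x1 x2 x3 y1 y2 y3 : X)
    (hx12 : x1 ≠ x2) (hx13 : x1 ≠ x3) (hx23 : x2 ≠ x3)
    (hy12 : y1 ≠ y2) (hy13 : y1 ≠ y3) (hy23 : y2 ≠ y3) :
    ∃ g : G, g • x1 = y1 ∧ g • x2 = y2 ∧ g • x3 = y3 := by
  let x : Fin 3 ↪ X := ⟨![x1, x2, x3], by
    intro i j h
    fin_cases i <;> fin_cases j <;> simp_all⟩
  let y : Fin 3 ↪ X := ⟨![y1, y2, y3], by
    intro i j h
    fin_cases i <;> fin_cases j <;> simp_all⟩
  obtain ⟨g, hg⟩ := h3.exists_smul_eq x y
  refine ⟨g, ?_, ?_, ?_⟩
  · exact congrArg (fun t : Fin 3 ↪ X => t 0) hg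
  · exact congrArg (fun t : Fin 3 ↪ X => t 1) hg
  · exact congrArg (fun t : Fin 3 ↪ X => t 2) hg

theorem jordan_normal (k : ℕ) (hk : 2 ≤ k) :
    ∀ {G : Type u} {X : Type v} [Group G] [MulAction G X] [Finite X] [FaithfulSMul G X],
    k < Nat.card X → IsMultiplyPretransitive G X k → ∀ (N : Subgroup G), N.Normal → N ≠ ⊥ →
    (IsMultiplyPretransitive N X (k - 1) ∨ (k = 3 ∧ IsMulCommutative N ∧ ∀ n ∈ N, n ^ 2 = 1)) := by
  induction k, hk using Nat.le_induction with
  | base =>
    intro G X _ _ _ _ hcard hG N hN hNbot
    left
    have hprim : IsPreprimitive G X := isPreprimitive_of_is_two_pretransitive hG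
    exact is_one_pretransitive_iff.mpr (normal_trans hprim N hN hNbot)
  | succ k hk ih =>
    intro G X _ _ _ _ hcard hG N hN hNbot
    classical
    have hG2 : IsMultiplyPretransitive G X 2 :=
      isMultiplyPretransitive_of_le (n := k + 1) (by omega) (by omega)
    have hG3 : IsMultiplyPretransitive G X 3 :=
      isMultiplyPretransitive_of_le (n := k + 1) (by omega) (by omega)
    have hprim : IsPreprimitive G X := isPreprimitive_of_is_two_pretransitive hG2
    have hGtrans : IsPretransitive G X := hprim.toIsPretransitive
    have hNtrans : IsPretransitive N X := normal_trans hprim N hN hNbot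
    have hne : Nonempty X := by
      have : 0 < Nat.card X := by omega
      exact (Nat.card_pos_iff.mp this).1
    obtain ⟨a⟩ := hne
    have hH : IsMultiplyPretransitive (stabilizer G a) (ofStabilizer G a) k :=
      ofStabilizer.isMultiplyPretransitive.mp hG
    have hYcard : k < Nat.card (ofStabilizer G a) := by
      have := nat_card_ofStabilizer_add_one_eq (G := G) a
      omega
    have hfaith : FaithfulSMul (stabilizer G a) (ofStabilizer G a) := faithful_stab a
    have hNa : (N.subgroupOf (stabilizer G a)).Normal := hN.subgroupOf _
    have hFin : Fintype X := Fintype.ofFinite X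
    have hcardF : Nat.card X = Fintype.card X := Nat.card_eq_fintype_card
    have hEcard : ENat.card X = (Fintype.card X : ℕ∞) := ENat.card_eq_coe_fintype_card
    by_cases hNabot : N.subgroupOf (stabilizer G a) = ⊥
    · -- `N` is regular
      have hrega : stabilizer N a = ⊥ := by
        rw [eq_bot_iff]
        intro n hn
        rw [Subgroup.mem_bot]
        have h1 : (⟨(n : G), hn⟩ : stabilizer G a) ∈ N.subgroupOf (stabilizer G a) := n.2
        rw [hNabot, Subgroup.mem_bot] at h1
        apply Subtype.ext
        exact congrArg (fun z : stabilizer G a => (z : G)) h1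
      have hreg : ∀ x : X, stabilizer N x = ⊥ := by
        intro x
        obtain ⟨m, rfl⟩ := hNtrans.exists_smul_eq a x
        rw [stabilizer_smul_eq_stabilizer_map_conj, hrega, Subgroup.map_bot]
      have h2prim : IsMultiplyPreprimitive G X 2 :=
        isMultiplyPreprimitive_of_isMultiplyPretransitive_succ G X (n := 2)
          (by rw [hEcard]; exact_mod_cast (by omega : 3 ≤ Fintype.card X))
      rcases Cfsg.Agent.S0695.result (by omega) h2prim N hNtrans hreg with h | ⟨hc, hsq, -⟩
      · omega
      · by_cases hk3 : k + 1 = 3
        · right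
          exact ⟨hk3, hc, hsq⟩
        · exfalso
          have hG4 : IsMultiplyPretransitive G X 4 :=
            isMultiplyPretransitive_of_le (n := k + 1) (by omega) (by omega)
          have h3prim : IsMultiplyPreprimitive G X 3 :=
            isMultiplyPreprimitive_of_isMultiplyPretransitive_succ G X (n := 3)
              (by rw [hEcard]; exact_mod_cast (by omega : 4 ≤ Fintype.card X))
          rcases Cfsg.Agent.S0696.result (by omega) h3prim N hNtrans hreg with h | h <;> omega
    · rcases ih (G := stabilizer G a) (X := ofStabilizer G a) hYcard hH _ hNa hNabot with h | ⟨hk3, hc, hsq⟩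
      · left
        have := mt_of_stab N a (k - 1) hNtrans h
        have e : k - 1 + 1 = k + 1 - 1 := by omega
        rwa [e] at this
      · exfalso
        subst hk3
        -- transitivity of `N ∩ G_a` on the complement
        have hH2 : IsMultiplyPretransitive (stabilizer G a) (ofStabilizer G a) 2 :=
          isMultiplyPretransitive_of_le (n := 3) (by omega) (by omega)
        have hprimH : IsPreprimitive (stabilizer G a) (ofStabilizer G a) :=
          isPreprimitive_of_is_two_pretransitive hH2
        have hNatrans : IsPretransitive (N.subgroupOf (stabilizer G a)) (ofStabilizer G a) :=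
          normal_trans hprimH _ hNa hNabot
        -- regularity at `a`
        have hRa : ∀ s ∈ N, s • a = a → ∀ x : X, x ≠ a → s • x = x → s = 1 := by
          intro s hs hsa x hx hsx
          apply FaithfulSMul.eq_of_smul_eq_smul (α := X)
          intro y
          rw [one_smul]
          by_cases hy : y = a
          · rw [hy, hsa]
          · obtain ⟨m, hm⟩ := hNatrans.exists_smul_eq (⟨x, hx⟩ : ofStabilizer G a) ⟨y, hy⟩
            have hm' : ((m : stabilizer G a) : G) • x = y := congrArg Subtype.val hm
            let s' : N.subgroupOf (stabilizer G a) := ⟨⟨s, hsa⟩, hs⟩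
            have hcomm : s' * m = m * s' := setLike_mul_comm (s := N.subgroupOf (stabilizer G a)) s'.2 m.2 |> fun h => Subtype.ext h
            have hcomm' : s * ((m : stabilizer G a) : G) = ((m : stabilizer G a) : G) * s :=
              congrArg (fun z : N.subgroupOf (stabilizer G a) => ((z : stabilizer G a) : G)) hcomm
            rw [← hm', ← mul_smul, hcomm', mul_smul, hsx]
        have hR : ∀ b : X, ∀ s ∈ N, s • b = b → ∀ x : X, x ≠ b → s • x = x → s = 1 := by
          intro b s hs hsb x hx hsx
          obtain ⟨g, rfl⟩ := hGtrans.exists_smul_eq a b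
          have hs' : g⁻¹ * s * g ∈ N := by
            have := hN.conj_mem s hs g⁻¹
            rwa [inv_inv] at this
          have h1 : (g⁻¹ * s * g) • a = a := by
            rw [mul_smul, mul_smul, hsb, inv_smul_smul]
          have h2 : (g⁻¹ * s * g) • (g⁻¹ • x) = g⁻¹ • x := by
            rw [mul_smul, mul_smul, smul_inv_smul, hsx]
          have h3 : g⁻¹ • x ≠ a := by
            intro h
            apply hx
            rw [← h, smul_inv_smul]
          have := hRa _ hs' h1 _ h3 h2
          have h4 : s = g * (g⁻¹ * s * g) * g⁻¹ := by group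
          rw [h4, this]; group
        -- an involution in `N ∩ G_a`
        have hex : ∃ t : N.subgroupOf (stabilizer G a), t ≠ 1 := by
          by_contra hcon
          push Not at hcon
          apply hNabot
          rw [eq_bot_iff]
          intro t ht
          rw [Subgroup.mem_bot]
          have := hcon ⟨t, ht⟩
          exact congrArg Subtype.val this
        obtain ⟨t, ht1⟩ := hex
        set t0 : G := ((t : stabilizer G a) : G) with ht0
        have ht0N : t0 ∈ N := t.2
        have ht0a : t0 • a = a := (t : stabilizer G a).2
        have ht0ne : t0 ≠ 1 := by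
          intro h
          apply ht1
          apply Subtype.ext
          apply Subtype.ext
          exact h
        have ht0sq : t0 * t0 = 1 := by
          have := hsq (t : stabilizer G a) t.2
          rw [pow_two] at this
          exact congrArg Subtype.val this
        have hfpf : ∀ x : X, x ≠ a → t0 • x ≠ x := by
          intro x hx h
          exact ht0ne (hRa t0 ht0N ht0a x hx h)
        have hcard5 : 4 < Fintype.card X := by omega
        -- points
        have hexb : ∃ b : X, b ≠ a := by
          by_contra hcon
          push Not at hcon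
          have : Fintype.card X ≤ 1 := Fintype.card_le_one_iff.mpr (fun x y => by rw [hcon x, hcon y])
          omega
        obtain ⟨b, hba⟩ := hexb
        set c : X := t0 • b with hc
        have hcb : c ≠ b := hfpf b hba
        have hca : c ≠ a := by
          intro h
          apply hba
          have : t0 • b = t0 • a := by rw [← hc, h, ht0a]
          exact MulAction.injective t0 this
        have htc : t0 • c = b := by
          rw [hc, ← mul_smul, ht0sq, one_smul]
        have hexd : ∃ d : X, d ≠ a ∧ d ≠ b ∧ d ≠ c := by
          by_contra hcon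
          push Not at hcon
          have hsub : (Finset.univ : Finset X) ⊆ {a, b, c} := by
            intro y _
            simp only [Finset.mem_insert, Finset.mem_singleton]
            by_cases h1 : y = a
            · exact Or.inl h1
            by_cases h2 : y = b
            · exact Or.inr (Or.inl h2)
            exact Or.inr (Or.inr (hcon y h1 h2))
          have := Finset.card_le_card hsub
          have h3 : ({a, b, c} : Finset X).card ≤ 3 := Finset.card_le_three
          rw [Finset.card_univ] at this
          omega
        obtain ⟨d, hda, hdb, hdc⟩ := hexd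
        obtain ⟨u, hub, huc, hua⟩ := three_trans hG3 b c a b c d (Ne.symm hcb) hba hca
          (Ne.symm hcb) (Ne.symm hdb) (Ne.symm hdc)
        have hub' : u⁻¹ • b = b := by rw [inv_smul_eq_iff, hub]
        have huc' : u⁻¹ • c = c := by rw [inv_smul_eq_iff, huc]
        have hud' : u⁻¹ • d = a := by rw [inv_smul_eq_iff, hua]
        have hsN : t0 * (u * t0 * u⁻¹) ∈ N := N.mul_mem ht0N (hN.conj_mem t0 ht0N u)
        have hsb : (t0 * (u * t0 * u⁻¹)) • b = b := by
          simp only [mul_smul]
          rw [hub', ← hc, huc, htc]
        have hsc : (t0 * (u * t0 * u⁻¹)) • c = c := by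
          simp only [mul_smul]
          rw [huc', htc, hub, ← hc]
        have hsd : (t0 * (u * t0 * u⁻¹)) • d = t0 • d := by
          simp only [mul_smul]
          rw [hud', ht0a, hua]
        have hs1 := hR b _ hsN hsb c hcb hsc
        rw [hs1, one_smul] at hsd
        exact hfpf d hda hsd.symm

/-- Jordan's Theorem on normal subgroups of multiply transitive groups: if `G` is `k`-transitive (`k > 1`) of degree greater than `k`, a non-trivial normal subgroup is `(k-1)`-transitive, except possibly for `k = 3` when it may be an elementary abelian 2-group. -/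
theorem result {α : Type*} [Fintype α] [DecidableEq α] (G : Subgroup (Equiv.Perm α)) {k : ℕ} (hk : 1 < k) (hdeg : k < Fintype.card α) (hG : MulAction.IsMultiplyPretransitive G α k) (N : Subgroup G) [N.Normal] (hN : N ≠ ⊥) : MulAction.IsMultiplyPretransitive N α (k - 1) ∨ (k = 3 ∧ IsMulCommutative N ∧ ∀ n ∈ N, n ^ 2 = 1) := by
  exact jordan_normal k hk (by rwa [Nat.card_eq_fintype_card]) hG N inferInstance hN

end Cfsg.Agent.S0698
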