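import Cfsg.Statements.S0697
import Mathlib
import Cfsg.Agent.S0695
import Cfsg.Agent.S0698

set_option autoImplicit false
open Cfsg

namespace Cfsg.Agent.S0697

open MulAction SubMulAction

universe u v

/-- an `(n-1)`-transitive action on `n` points induces every permutation -/
theorem surj_of_mt {G : Type u} {X : Type v} [Group G] [MulAction G X] [Finite X]
    (h : IsMultiplyPretransitive G X (Nat.card X - 1)) :
    ∀ σ : Equiv.Perm X, ∃ g : G, ∀ x, g • x = σ x := by
  have h' : IsMultiplyPretransitive (MulAction.toPermHom G X).range X (Nat.card X - 1) := by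
    rw [isMultiplyPretransitive_iff]
    intro x y
    obtain ⟨g, hg⟩ := h.exists_smul_eq x y
    refine ⟨⟨MulAction.toPermHom G X g, ⟨g, rfl⟩⟩, ?_⟩
    rw [← hg]
    rfl
  have htop := Equiv.Perm.eq_top_of_isMultiplyPretransitive h'
  intro σ
  have hσ : σ ∈ (MulAction.toPermHom G X).range := by rw [htop]; trivial
  obtain ⟨g, hg⟩ := hσ
  exact ⟨g, fun x => by rw [← hg]; rfl⟩

/-- if the point stabilizer induces the full symmetric group on the remaining points
and the group is transitive, then the group induces every permutation -/
theorem surj_of_stab {G : Type u} {X : Type v} [Group G] [MulAction G X]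
    (hG : IsPretransitive G X) (a : X)
    (h : ∀ τ : Equiv.Perm (ofStabilizer G a), ∃ g : stabilizer G a, ∀ y, g • y = τ y) :
    ∀ σ : Equiv.Perm X, ∃ g : G, ∀ x, g • x = σ x := by
  intro σ
  obtain ⟨g0, hg0⟩ := hG.exists_smul_eq a (σ a)
  have hfix : g0⁻¹ • σ a = a := by rw [inv_smul_eq_iff, hg0]
  let τ0 : Equiv.Perm X := (MulAction.toPerm g0)⁻¹ * σ
  have hτ0 : ∀ x, τ0 x = g0⁻¹ • σ x := fun x => rfl
  have hτ0a : τ0 a = a := by rw [hτ0, hfix]
  have hmem : ∀ x : X, x ∈ ofStabilizer G a ↔ τ0 x ∈ ofStabilizer G a := by
    intro x
    rw [mem_ofStabilizer_iff, mem_ofStabilizer_iff]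
    constructor
    · intro hx h1
      apply hx
      apply τ0.injective
      rw [h1, hτ0a]
    · intro hx h1
      apply hx
      rw [h1, hτ0a]
  let τ : Equiv.Perm (ofStabilizer G a) := τ0.subtypePerm (fun x => (hmem x).symm)
  obtain ⟨h1, hh1⟩ := h τ
  refine ⟨g0 * (h1 : G), ?_⟩
  intro x
  by_cases hx : x = a
  · rw [hx, mul_smul]
    have : (h1 : G) • a = a := h1.2
    rw [this, hg0]
  · have h2 := congrArg Subtype.val (hh1 ⟨x, hx⟩)
    have h3 : (h1 : G) • x = g0⁻¹ • σ x := h2
    rw [mul_smul, h3, smul_inv_smul]

theorem kprim_normal (k : ℕ) (hk : 1 ≤ k) :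
    ∀ {G : Type u} {X : Type v} [Group G] [MulAction G X] [Finite X] [FaithfulSMul G X],
    k ≤ Nat.card X → IsMultiplyPreprimitive G X k →
    (¬ ∀ σ : Equiv.Perm X, ∃ g : G, ∀ x, g • x = σ x) →
    ∀ (H : Subgroup G), H.Normal → H ≠ ⊥ → (∃ a : X, stabilizer H a ≠ ⊥) →
    IsMultiplyPretransitive H X k := by
  induction k, hk using Nat.le_induction with
  | base =>
    intro G X _ _ _ _ hcard hG hns H hN hHbot hnr
    have hprim : IsPreprimitive G X := (is_one_preprimitive_iff G X).mp hG
    exact is_one_pretransitive_iff.mpr (Cfsg.Agent.S0698.normal_trans hprim H hN hHbot)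
  | succ k hk ih =>
    intro G X _ _ _ _ hcard hG hns H hN hHbot hnr
    classical
    have hGmt : IsMultiplyPretransitive G X (k + 1) := hG.1
    have hG2 : IsMultiplyPretransitive G X 2 :=
      isMultiplyPretransitive_of_le (n := k + 1) (by omega) (by omega)
    have hprim : IsPreprimitive G X := isPreprimitive_of_is_two_pretransitive hG2
    have hGtrans : IsPretransitive G X := hprim.toIsPretransitive
    have hHtrans : IsPretransitive H X := Cfsg.Agent.S0698.normal_trans hprim H hN hHbot
    obtain ⟨a, ha⟩ := hnr
    have : IsMultiplyPreprimitive G X k.succ := hG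
    have hGa : IsMultiplyPreprimitive (stabilizer G a) (ofStabilizer G a) k :=
      isMultiplyPreprimitive_ofStabilizer G X
    have hGamt : IsMultiplyPretransitive (stabilizer G a) (ofStabilizer G a) k := hGa.1
    have hXY := nat_card_ofStabilizer_add_one_eq (G := G) a
    have hYcard : k ≤ Nat.card (ofStabilizer G a) := by omega
    have hfaith : FaithfulSMul (stabilizer G a) (ofStabilizer G a) := Cfsg.Agent.S0698.faithful_stab a
    have hHa : (H.subgroupOf (stabilizer G a)).Normal := hN.subgroupOf _
    have hHabot : H.subgroupOf (stabilizer G a) ≠ ⊥ := by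
      intro hbot
      apply ha
      rw [eq_bot_iff]
      intro n hn
      rw [Subgroup.mem_bot]
      have h1 : (⟨(n : G), hn⟩ : stabilizer G a) ∈ H.subgroupOf (stabilizer G a) := n.2
      rw [hbot, Subgroup.mem_bot] at h1
      apply Subtype.ext
      exact congrArg (fun z : stabilizer G a => (z : G)) h1
    have hnsY : ¬ ∀ τ : Equiv.Perm (ofStabilizer G a), ∃ g : stabilizer G a, ∀ y, g • y = τ y :=
      fun h => hns (surj_of_stab hGtrans a h)
    by_cases hk1 : k = 1
    · subst hk1
      have hprimGa : IsPreprimitive (stabilizer G a) (ofStabilizer G a) :=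
        (is_one_preprimitive_iff (stabilizer G a) (ofStabilizer G a)).mp hGa
      have hHatrans : IsPretransitive (H.subgroupOf (stabilizer G a)) (ofStabilizer G a) :=
        Cfsg.Agent.S0698.normal_trans hprimGa _ hHa hHabot
      exact Cfsg.Agent.S0698.mt_of_stab H a 1 hHtrans (is_one_pretransitive_iff.mpr hHatrans)
    have hk2 : 2 ≤ k := by omega
    by_cases hex : ∃ y : ofStabilizer G a, stabilizer (H.subgroupOf (stabilizer G a)) y ≠ ⊥
    · exact Cfsg.Agent.S0698.mt_of_stab H a k hHtrans (ih hYcard hGa hnsY _ hHa hHabot hex)
    · exfalso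
      push Not at hex
      have hG3 : IsMultiplyPretransitive G X 3 :=
        isMultiplyPretransitive_of_le (n := k + 1) (by omega) (by omega)
      have hFinY : Fintype (ofStabilizer G a) := Fintype.ofFinite _
      have hcardY : Nat.card (ofStabilizer G a) = Fintype.card (ofStabilizer G a) :=
        Nat.card_eq_fintype_card
      have hEcard : ENat.card (ofStabilizer G a) = (Fintype.card (ofStabilizer G a) : ℕ∞) :=
        ENat.card_eq_coe_fintype_card
      have hGa2 : IsMultiplyPreprimitive (stabilizer G a) (ofStabilizer G a) 2 :=
        isMultiplyPreprimitive_of_le (stabilizer G a) (ofStabilizer G a) hGa hk2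
          (by rw [hEcard]; exact_mod_cast (by omega : k ≤ Fintype.card (ofStabilizer G a)))
      have hGa2t : IsMultiplyPretransitive (stabilizer G a) (ofStabilizer G a) 2 := hGa2.1
      have hprimGa : IsPreprimitive (stabilizer G a) (ofStabilizer G a) :=
        isPreprimitive_of_is_two_pretransitive hGa2t
      have hHatrans : IsPretransitive (H.subgroupOf (stabilizer G a)) (ofStabilizer G a) :=
        Cfsg.Agent.S0698.normal_trans hprimGa _ hHa hHabot
      rcases Cfsg.Agent.S0695.result (by omega) hGa2 (H.subgroupOf (stabilizer G a)) hHatrans hex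
        with h3 | ⟨-, hsq, -⟩
      · -- degree 4, 3-transitive: the full symmetric group
        apply hns
        apply surj_of_mt
        have e : Nat.card X - 1 = 3 := by omega
        rw [e]
        exact hG3
      · by_cases hY2 : Nat.card (ofStabilizer G a) = 2
        · apply hns
          apply surj_of_mt
          have e : Nat.card X - 1 = 2 := by omega
          rw [e]
          exact hG2
        have hcard4 : 4 ≤ Nat.card X := by omega
        have hFin : Fintype X := Fintype.ofFinite X
        have hcardF : Nat.card X = Fintype.card X := Nat.card_eq_fintype_card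
        -- regularity at `a`
        have hRa : ∀ s ∈ H, s • a = a → ∀ x : X, x ≠ a → s • x = x → s = 1 := by
          intro s hs hsa x hx hsx
          let s' : H.subgroupOf (stabilizer G a) := ⟨⟨s, hsa⟩, hs⟩
          have hmem : s' ∈ stabilizer (H.subgroupOf (stabilizer G a)) (⟨x, hx⟩ : ofStabilizer G a) := by
            rw [mem_stabilizer_iff]
            exact Subtype.ext hsx
          rw [hex, Subgroup.mem_bot] at hmem
          exact congrArg (fun z : H.subgroupOf (stabilizer G a) => ((z : stabilizer G a) : G)) hmem
        have hR : ∀ b : X, ∀ s ∈ H, s • b = b → ∀ x : X, x ≠ b → s • x = x → s = 1 := by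
          intro b s hs hsb x hx hsx
          obtain ⟨g, rfl⟩ := hGtrans.exists_smul_eq a b
          have hs' : g⁻¹ * s * g ∈ H := by
            have := hN.conj_mem s hs g⁻¹
            rwa [inv_inv] at this
          have h1 : (g⁻¹ * s * g) • a = a := by
            rw [mul_smul, mul_smul, hsb, inv_smul_smul]
          have h2 : (g⁻¹ * s * g) • (g⁻¹ • x) = g⁻¹ • x := by
            rw [mul_smul, mul_smul, smul_inv_smul, hsx]
          have h3 : g⁻¹ • x ≠ a := by
            intro h
            apply hx
            rw [← h, smul_inv_smul]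
          have := hRa _ hs' h1 _ h3 h2
          have h4 : s = g * (g⁻¹ * s * g) * g⁻¹ := by group
          rw [h4, this]; group
        -- an involution in `H ∩ G_a`
        have hext : ∃ t : H.subgroupOf (stabilizer G a), t ≠ 1 := by
          by_contra hcon
          push Not at hcon
          apply hHabot
          rw [eq_bot_iff]
          intro t ht
          rw [Subgroup.mem_bot]
          have := hcon ⟨t, ht⟩
          exact congrArg Subtype.val this
        obtain ⟨t, ht1⟩ := hext
        set t0 : G := ((t : stabilizer G a) : G) with ht0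
        have ht0N : t0 ∈ H := t.2
        have ht0a : t0 • a = a := (t : stabilizer G a).2
        have ht0ne : t0 ≠ 1 := by
          intro h
          apply ht1
          apply Subtype.ext
          apply Subtype.ext
          exact h
        have ht0sq : t0 * t0 = 1 := by
          have := hsq (t : stabilizer G a) t.2
          rw [pow_two] at this
          exact congrArg Subtype.val this
        have hfpf : ∀ x : X, x ≠ a → t0 • x ≠ x := by
          intro x hx h
          exact ht0ne (hRa t0 ht0N ht0a x hx h)
        -- points
        have hexb : ∃ b : X, b ≠ a := by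
          by_contra hcon
          push Not at hcon
          have : Fintype.card X ≤ 1 := Fintype.card_le_one_iff.mpr (fun x y => by rw [hcon x, hcon y])
          omega
        obtain ⟨b, hba⟩ := hexb
        set c : X := t0 • b with hc
        have hcb : c ≠ b := hfpf b hba
        have hca : c ≠ a := by
          intro h
          apply hba
          have : t0 • b = t0 • a := by rw [← hc, h, ht0a]
          exact MulAction.injective t0 this
        have htc : t0 • c = b := by
          rw [hc, ← mul_smul, ht0sq, one_smul]
        have hexd : ∃ d : X, d ≠ a ∧ d ≠ b ∧ d ≠ c := by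
          by_contra hcon
          push Not at hcon
          have hsub : (Finset.univ : Finset X) ⊆ {a, b, c} := by
            intro y _
            simp only [Finset.mem_insert, Finset.mem_singleton]
            by_cases h1 : y = a
            · exact Or.inl h1
            by_cases h2 : y = b
            · exact Or.inr (Or.inl h2)
            exact Or.inr (Or.inr (hcon y h1 h2))
          have := Finset.card_le_card hsub
          have h3 : ({a, b, c} : Finset X).card ≤ 3 := Finset.card_le_three
          rw [Finset.card_univ] at this
          omega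
        obtain ⟨d, hda, hdb, hdc⟩ := hexd
        obtain ⟨u, hub, huc, hua⟩ := Cfsg.Agent.S0698.three_trans hG3 b c a b c d (Ne.symm hcb) hba hca
          (Ne.symm hcb) (Ne.symm hdb) (Ne.symm hdc)
        have hub' : u⁻¹ • b = b := by rw [inv_smul_eq_iff, hub]
        have huc' : u⁻¹ • c = c := by rw [inv_smul_eq_iff, huc]
        have hud' : u⁻¹ • d = a := by rw [inv_smul_eq_iff, hua]
        have hsN : t0 * (u * t0 * u⁻¹) ∈ H := H.mul_mem ht0N (hN.conj_mem t0 ht0N u)
        have hsb : (t0 * (u * t0 * u⁻¹)) • b = b := by
          simp only [mul_smul]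
          rw [hub', ← hc, huc, htc]
        have hsc : (t0 * (u * t0 * u⁻¹)) • c = c := by
          simp only [mul_smul]
          rw [huc', htc, hub, ← hc]
        have hsd : (t0 * (u * t0 * u⁻¹)) • d = t0 • d := by
          simp only [mul_smul]
          rw [hud', ht0a, hua]
        have hs1 := hR b _ hsN hsb c hcb hsc
        rw [hs1, one_smul] at hsd
        exact hfpf d hda hsd.symm

/-- In a `k`-primitive permutation group which is not the whole symmetric group, a non-trivial non-regular normal subgroup is `k`-transitive. -/
theorem result {α : Type*} [Fintype α] [DecidableEq α] (G : Subgroup (Equiv.Perm α)) {k : ℕ} (hk : 1 ≤ k) (hkn : k ≤ Fintype.card α) (hG : MulAction.IsMultiplyPreprimitive G α k) (htop : G ≠ ⊤) (H : Subgroup G) [H.Normal] (hH : H ≠ ⊥) (hnr : ∃ a : α, MulAction.stabilizer H a ≠ ⊥) : MulAction.IsMultiplyPretransitive H α k := by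
  refine kprim_normal k hk (by rwa [Nat.card_eq_fintype_card]) hG ?_ H inferInstance hH hnr
  intro hsurj
  apply htop
  rw [eq_top_iff]
  intro σ _
  obtain ⟨g, hg⟩ := hsurj σ
  have : (g : Equiv.Perm α) = σ := Equiv.ext hg
  rw [← this]
  exact g.2

end Cfsg.Agent.S0697
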