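import Cfsg.Statements.S0699
import Mathlib
import Cfsg.Agent.S0698

set_option autoImplicit false
open Cfsg

namespace Cfsg.Agent.S0699

open MulAction

universe u v

/-- a 2-group acting on a finite set of odd size has a fixed point -/
theorem two_fix {P : Type u} {Y : Type v} [Group P] [MulAction P Y] [Finite Y]
    (hP : IsPGroup 2 P) (hodd : Odd (Nat.card Y)) : ∃ y : Y, ∀ p : P, p • y = y := by
  have := Fact.mk Nat.prime_two
  have h := hP.card_modEq_card_fixedPoints Y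
  have h1 : Nat.card (fixedPoints P Y) ≠ 0 := by
    intro h0
    rw [h0] at h
    have h' : Nat.card Y % 2 = 0 := h
    rw [Nat.odd_iff] at hodd
    omega
  have h2 : Nonempty (fixedPoints P Y) := by
    by_contra hne
    rw [not_nonempty_iff] at hne
    exact h1 (Nat.card_eq_zero.mpr (Or.inl hne))
  obtain ⟨⟨y, hy⟩⟩ := h2
  exact ⟨y, fun p => hy p⟩

theorem two_fix_in {P : Type u} {X : Type v} [Group P] [MulAction P X] [Finite X]
    (hP : IsPGroup 2 P) (O : Set X) (hO : Odd (Nat.card O))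
    (hinv : ∀ p : P, ∀ y ∈ O, p • y ∈ O) :
    ∃ y ∈ O, ∀ p : P, p • y = y := by
  let Y : SubMulAction P X := ⟨O, fun p _ hy => hinv p _ hy⟩
  have hY : Odd (Nat.card Y) := hO
  obtain ⟨⟨y, hy⟩, h⟩ := two_fix (Y := Y) hP hY
  exact ⟨y, hy, fun p => congrArg Subtype.val (h p)⟩

theorem two_fix3 {G : Type u} {X : Type v} [Group G] [MulAction G X] [Finite X]
    (S : Subgroup G) (hS : IsPGroup 2 S) (hodd : Odd (Nat.card X)) (a b : X) (hab : a ≠ b)
    (ha : ∀ s ∈ S, s • a = a) (hb : ∀ s ∈ S, s • b = b) :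
    ∃ c, c ≠ a ∧ c ≠ b ∧ ∀ s ∈ S, s • c = c := by
  have := Fact.mk Nat.prime_two
  have h := hS.card_modEq_card_fixedPoints X
  by_contra hcon
  push Not at hcon
  have hfix : fixedPoints S X = {a, b} := by
    ext c
    constructor
    · intro hc
      by_contra hc'
      simp only [Set.mem_insert_iff, Set.mem_singleton_iff, not_or] at hc'
      obtain ⟨s, hs, hsc⟩ := hcon c hc'.1 hc'.2
      exact hsc (hc ⟨s, hs⟩)
    · intro hc
      simp only [Set.mem_insert_iff, Set.mem_singleton_iff] at hc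
      rcases hc with hc | hc
      · rw [hc]; exact fun s => ha s.1 s.2
      · rw [hc]; exact fun s => hb s.1 s.2
  rw [hfix, Nat.card_coe_set_eq, Set.ncard_pair hab] at h
  have h' : Nat.card X % 2 = 0 := h
  rw [Nat.odd_iff] at hodd
  omega

theorem exists_two_sub {G : Type u} [Group G] [Finite G] (H : Subgroup G) (k : ℕ)
    (h : 2 ^ k ∣ Nat.card H) : ∃ Q : Subgroup G, Q ≤ H ∧ Nat.card Q = 2 ^ k := by
  have := Fact.mk Nat.prime_two
  obtain ⟨K, hK⟩ := Sylow.exists_subgroup_card_pow_prime 2 h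
  refine ⟨K.map H.subtype, ?_, ?_⟩
  · rintro _ ⟨k, _, rfl⟩
    exact k.2
  · rw [Subgroup.card_map_of_injective H.subtype_injective, hK]

theorem conj_sub {G : Type u} [Group G] (Q H : Subgroup G) (g : G)
    (h : ∀ q ∈ Q, g * q * g⁻¹ ∈ H) :
    ∃ Q' : Subgroup G, Q' ≤ H ∧ Nat.card Q' = Nat.card Q ∧
      ∀ q' ∈ Q', ∃ q ∈ Q, q' = g * q * g⁻¹ := by
  refine ⟨Q.map (MulAut.conj g).toMonoidHom, ?_, ?_, ?_⟩
  · rintro _ ⟨q, hq, rfl⟩
    exact h q hq
  · exact Subgroup.card_map_of_injective (MulAut.conj g).injective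
  · rintro _ ⟨q, hq, rfl⟩
    exact ⟨q, hq, rfl⟩

theorem orbit_odd {G : Type u} {X : Type v} [Group G] [Finite G] [MulAction G X]
    (H S : Subgroup G) (hSH : S ≤ H) (x : X) (k : ℕ) (hk : ¬ 2 ^ (k + 1) ∣ Nat.card H)
    (hS : Nat.card S = 2 ^ k) (hSx : ∀ s ∈ S, s • x = x) :
    Odd (Nat.card (orbit H x)) := by
  have h1 : Nat.card (S.subgroupOf H) = 2 ^ k := by
    rw [Nat.card_congr (Subgroup.subgroupOfEquivOfLe hSH).toEquiv, hS]
  have h2 : S.subgroupOf H ≤ stabilizer H x := by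
    intro s hs
    rw [mem_stabilizer_iff]
    exact hSx s.1 (Subgroup.mem_subgroupOf.mp hs)
  have h3 := Subgroup.card_dvd_of_le h2
  have h4 := Subgroup.card_mul_index (stabilizer H x)
  have h5 : (stabilizer H x).index = (orbit H x).ncard := index_stabilizer H x
  rw [h1] at h3
  rw [Nat.card_coe_set_eq, ← h5]
  by_contra hodd
  rw [Nat.not_odd_iff_even] at hodd
  apply hk
  rw [← h4, pow_succ]
  exact Nat.mul_dvd_mul h3 hodd.two_dvd

theorem card_two_mul {G : Type u} [Group G] [Finite G] (A B : Subgroup G) (hAB : A ≤ B) (t : G)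
    (ht : t ∈ B) (htA : t ∉ A) (h2 : ∀ x ∈ B, x ∉ A → x * t ∈ A) :
    Nat.card B = 2 * Nat.card A := by
  have hidx : (A.subgroupOf B).index = 2 := by
    rw [Subgroup.index_eq_two_iff]
    refine ⟨⟨t, ht⟩, fun b => ?_⟩
    by_cases hb : (b : G) ∈ A
    · right
      refine ⟨Subgroup.mem_subgroupOf.mpr hb, fun hbt => htA ?_⟩
      have hbt' : (b : G) * t ∈ A := Subgroup.mem_subgroupOf.mp hbt
      have := A.mul_mem (A.inv_mem hb) hbt'
      simpa using this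
    · left
      exact ⟨Subgroup.mem_subgroupOf.mpr (h2 b b.2 hb),
        fun hb' => hb (Subgroup.mem_subgroupOf.mp hb')⟩
  have h := Subgroup.card_mul_index (A.subgroupOf B)
  rw [hidx, Nat.card_congr (Subgroup.subgroupOfEquivOfLe hAB).toEquiv] at h
  omega

/-- pointwise stabiliser of `a`, `b` in `N` -/
def Nab {G : Type u} {X : Type v} [Group G] [MulAction G X] (N : Subgroup G) (a b : X) :
    Subgroup G := N ⊓ stabilizer G a ⊓ stabilizer G b

theorem mem_Nab {G : Type u} {X : Type v} [Group G] [MulAction G X] (N : Subgroup G) (a b : X)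
    (m : G) : m ∈ Nab N a b ↔ m ∈ N ∧ m • a = a ∧ m • b = b := by
  unfold Nab
  simp only [Subgroup.mem_inf, mem_stabilizer_iff, and_assoc]

/-- setwise stabiliser of `{a, b}` in `N` -/
def Nset {G : Type u} {X : Type v} [Group G] [MulAction G X] (N : Subgroup G) (a b : X) :
    Subgroup G where
  carrier := {m | m ∈ N ∧ ((m • a = a ∧ m • b = b) ∨ (m • a = b ∧ m • b = a))}
  mul_mem' := by
    rintro m m' ⟨hm, h⟩ ⟨hm', h'⟩
    refine ⟨N.mul_mem hm hm', ?_⟩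
    rcases h with ⟨h1, h2⟩ | ⟨h1, h2⟩ <;> rcases h' with ⟨h1', h2'⟩ | ⟨h1', h2'⟩
    · left; exact ⟨by rw [mul_smul, h1', h1], by rw [mul_smul, h2', h2]⟩
    · right; exact ⟨by rw [mul_smul, h1', h2], by rw [mul_smul, h2', h1]⟩
    · right; exact ⟨by rw [mul_smul, h1', h1], by rw [mul_smul, h2', h2]⟩
    · left; exact ⟨by rw [mul_smul, h1', h2], by rw [mul_smul, h2', h1]⟩
  one_mem' := ⟨N.one_mem, Or.inl ⟨one_smul _ _, one_smul _ _⟩⟩
  inv_mem' := by
    rintro m ⟨hm, h⟩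
    refine ⟨N.inv_mem hm, ?_⟩
    rcases h with ⟨h1, h2⟩ | ⟨h1, h2⟩
    · left; exact ⟨by rw [inv_smul_eq_iff, h1], by rw [inv_smul_eq_iff, h2]⟩
    · right; exact ⟨by rw [inv_smul_eq_iff, h2], by rw [inv_smul_eq_iff, h1]⟩

theorem mem_Nset {G : Type u} {X : Type v} [Group G] [MulAction G X] (N : Subgroup G) (a b : X)
    (m : G) : m ∈ Nset N a b ↔
      m ∈ N ∧ ((m • a = a ∧ m • b = b) ∨ (m • a = b ∧ m • b = a)) := Iff.rfl

set_option maxHeartbeats 1000000 in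
theorem key {G : Type u} {X : Type v} [Group G] [Finite G] [MulAction G X] [Finite X]
    (hodd : Odd (Nat.card X))
    (h3 : ∀ x1 x2 x3 y1 y2 y3 : X, x1 ≠ x2 → x1 ≠ x3 → x2 ≠ x3 → y1 ≠ y2 → y1 ≠ y3 → y2 ≠ y3 →
      ∃ g : G, g • x1 = y1 ∧ g • x2 = y2 ∧ g • x3 = y3)
    (N : Subgroup G) [hNn : N.Normal]
    (hN2 : ∀ x y x' y' : X, x ≠ y → x' ≠ y' → ∃ n ∈ N, n • x = x' ∧ n • y = y')
    (a b : X) (hab : a ≠ b) (x y : X) (hxa : x ≠ a) (hxb : x ≠ b) (hya : y ≠ a) (hyb : y ≠ b) :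
    ∃ n ∈ N, n • a = a ∧ n • b = b ∧ n • x = y := by
  have hNab_le : Nab N a b ≤ Nset N a b := fun m hm => by
    rw [mem_Nab] at hm
    rw [mem_Nset]
    exact ⟨hm.1, Or.inl hm.2⟩
  obtain ⟨t0, ht0N, ht0a, ht0b⟩ := hN2 a b b a hab hab.symm
  have ht0 : t0 ∈ Nset N a b := (mem_Nset N a b t0).mpr ⟨ht0N, Or.inr ⟨ht0a, ht0b⟩⟩
  have ht0' : t0 ∉ Nab N a b := fun h => by
    rw [mem_Nab] at h
    exact hab (h.2.1.symm.trans ht0a)
  have hcard : Nat.card (Nset N a b) = 2 * Nat.card (Nab N a b) := by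
    apply card_two_mul _ _ hNab_le t0 ht0 ht0'
    intro m hm hm'
    rw [mem_Nset] at hm
    rw [mem_Nab] at hm' ⊢
    rcases hm with ⟨hmN, ⟨h1, h2⟩ | ⟨h1, h2⟩⟩
    · exact absurd ⟨hmN, h1, h2⟩ hm'
    · exact ⟨N.mul_mem hmN ht0N, by rw [mul_smul, ht0a, h2], by rw [mul_smul, ht0b, h1]⟩
  obtain ⟨v, hv⟩ : ∃ v, v = (Nat.card (Nab N a b)).factorization 2 := ⟨_, rfl⟩
  have hpos : Nat.card (Nab N a b) ≠ 0 := Nat.card_pos.ne'
  have hnd : ¬ 2 ^ (v + 1) ∣ Nat.card (Nab N a b) := by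
    rw [hv]
    exact Nat.pow_succ_factorization_not_dvd hpos Nat.prime_two
  have hd : 2 ^ v ∣ Nat.card (Nab N a b) := by
    rw [hv]
    exact Nat.ordProj_dvd _ _
  have hd' : 2 ^ (v + 1) ∣ Nat.card (Nset N a b) := by
    rw [hcard, pow_succ, mul_comm]
    exact Nat.mul_dvd_mul_left 2 hd
  obtain ⟨Q, hQle, hQcard⟩ := exists_two_sub (Nset N a b) (v + 1) hd'
  have hQ2 : IsPGroup 2 Q := IsPGroup.of_card hQcard
  have hP2 : ∃ t1 ∈ Q, t1 • a = b ∧ t1 • b = a := by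
    by_contra hcon
    push Not at hcon
    apply hnd
    rw [← hQcard]
    apply Subgroup.card_dvd_of_le
    intro q hq
    have hq' := hQle hq
    rw [mem_Nset] at hq'
    rw [mem_Nab]
    rcases hq' with ⟨hqN, ⟨h1, h2⟩ | ⟨h1, h2⟩⟩
    · exact ⟨hqN, h1, h2⟩
    · exact absurd h2 (hcon q hq h1)
  obtain ⟨t1, ht1Q, ht1a, ht1b⟩ := hP2
  have ht1N : t1 ∈ N := ((mem_Nset N a b t1).mp (hQle ht1Q)).1
  obtain ⟨c, hc⟩ := two_fix (P := Q) (Y := X) hQ2 hodd
  have hc' : ∀ q ∈ Q, q • c = c := fun q hq => hc ⟨q, hq⟩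
  have hca : c ≠ a := fun h => by
    have h1 := hc' t1 ht1Q
    rw [h, ht1a] at h1
    exact hab h1.symm
  have hcb : c ≠ b := fun h => by
    have h1 := hc' t1 ht1Q
    rw [h, ht1b] at h1
    exact hab h1
  have hP4 : ∀ c' : X, (∀ q ∈ Q, q • c' = c') → c' = c := by
    intro c' hc'fix
    by_contra hne
    obtain ⟨m, hmN, hma, hmb⟩ := hN2 a b c c' hab (Ne.symm hne)
    obtain ⟨Q', hQ'le, hQ'card, -⟩ := conj_sub Q (Nab N a b) m⁻¹ (by
      intro q hq
      have hqN : q ∈ N := ((mem_Nset N a b q).mp (hQle hq)).1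
      rw [mem_Nab]
      refine ⟨N.mul_mem (N.mul_mem (N.inv_mem hmN) hqN) (N.inv_mem (N.inv_mem hmN)), ?_, ?_⟩
      · rw [inv_inv, mul_smul, mul_smul, hma, hc' q hq, inv_smul_eq_iff, hma]
      · rw [inv_inv, mul_smul, mul_smul, hmb, hc'fix q hq, inv_smul_eq_iff, hmb])
    apply hnd
    rw [← hQcard, ← hQ'card]
    exact Subgroup.card_dvd_of_le hQ'le
  have hstar : ∀ z : X, z ≠ a → z ≠ b → ∃ m0 ∈ N, m0 • a = b ∧ m0 • b = a ∧ m0 • z = z := by
    intro z hza hzb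
    obtain ⟨g, hga, hgb, hgc⟩ := h3 a b c a b z hab hca.symm hcb.symm hab hza.symm hzb.symm
    refine ⟨g * t1 * g⁻¹, hNn.conj_mem t1 ht1N g, ?_, ?_, ?_⟩
    · rw [mul_smul, mul_smul, inv_smul_eq_iff.mpr hga.symm, ht1a, hgb]
    · rw [mul_smul, mul_smul, inv_smul_eq_iff.mpr hgb.symm, ht1b, hga]
    · rw [mul_smul, mul_smul, inv_smul_eq_iff.mpr hgc.symm, hc' t1 ht1Q, hgc]
  obtain ⟨S, hSle, hScard⟩ := exists_two_sub (Nab N a b) v hd
  have hS2 : IsPGroup 2 S := IsPGroup.of_card hScard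
  obtain ⟨c2, hc2a, hc2b, hc2⟩ := two_fix3 S hS2 hodd a b hab
    (fun s hs => ((mem_Nab N a b s).mp (hSle hs)).2.1)
    (fun s hs => ((mem_Nab N a b s).mp (hSle hs)).2.2)
  have horb : ∀ z : X, z ≠ a → z ≠ b → Odd (Nat.card (orbit (Nab N a b) z)) := by
    intro z hza hzb
    obtain ⟨g, hga, hgb, hgc⟩ := h3 a b c2 a b z hab hc2a.symm hc2b.symm hab hza.symm hzb.symm
    obtain ⟨S', hS'le, hS'card, hS'⟩ := conj_sub S (Nab N a b) g (by
      intro s hs
      have hs' := (mem_Nab N a b s).mp (hSle hs)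
      rw [mem_Nab]
      refine ⟨hNn.conj_mem s hs'.1 g, ?_, ?_⟩
      · rw [mul_smul, mul_smul, inv_smul_eq_iff.mpr hga.symm, hs'.2.1, hga]
      · rw [mul_smul, mul_smul, inv_smul_eq_iff.mpr hgb.symm, hs'.2.2, hgb])
    apply orbit_odd (Nab N a b) S' hS'le z v hnd (hS'card.trans hScard)
    intro s' hs'
    obtain ⟨s, hs, rfl⟩ := hS' s' hs'
    rw [mul_smul, mul_smul, inv_smul_eq_iff.mpr hgc.symm, hc2 s hs, hgc]
  have hreach : ∀ z : X, z ≠ a → z ≠ b → ∃ n ∈ Nab N a b, n • z = c := by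
    intro z hza hzb
    have hinv : ∀ q : Q, ∀ w ∈ orbit (Nab N a b) z, q • w ∈ orbit (Nab N a b) z := by
      rintro ⟨q, hq⟩ w ⟨⟨n, hn⟩, rfl⟩
      have hn' := (mem_Nab N a b n).mp hn
      have hwa : n • z ≠ a := fun h => hza (by
        rw [← hn'.2.1] at h
        exact smul_left_cancel n h)
      have hwb : n • z ≠ b := fun h => hzb (by
        rw [← hn'.2.2] at h
        exact smul_left_cancel n h)
      have hq' := (mem_Nset N a b q).mp (hQle hq)
      rcases hq' with ⟨hqN, ⟨h1, h2⟩ | ⟨h1, h2⟩⟩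
      · refine ⟨⟨q * n, (mem_Nab N a b _).mpr ⟨N.mul_mem hqN hn'.1,
          by rw [mul_smul, hn'.2.1, h1], by rw [mul_smul, hn'.2.2, h2]⟩⟩, ?_⟩
        exact mul_smul q n z
      · obtain ⟨m0, hm0N, hm0a, hm0b, hm0w⟩ := hstar (n • z) hwa hwb
        have hm0a' : m0⁻¹ • a = b := inv_smul_eq_iff.mpr hm0b.symm
        have hm0b' : m0⁻¹ • b = a := inv_smul_eq_iff.mpr hm0a.symm
        have hm0w' : m0⁻¹ • (n • z) = n • z := inv_smul_eq_iff.mpr hm0w.symm
        refine ⟨⟨q * m0⁻¹ * n, (mem_Nab N a b _).mpr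
          ⟨N.mul_mem (N.mul_mem hqN (N.inv_mem hm0N)) hn'.1,
          by rw [mul_smul, mul_smul, hn'.2.1, hm0a', h2],
          by rw [mul_smul, mul_smul, hn'.2.2, hm0b', h1]⟩⟩, ?_⟩
        show (q * m0⁻¹ * n) • z = q • (n • z)
        rw [mul_smul, mul_smul, hm0w']
    obtain ⟨y0, hy0, hy0fix⟩ :=
      two_fix_in (P := Q) hQ2 (orbit (Nab N a b) z) (horb z hza hzb) hinv
    have hy0c : y0 = c := hP4 y0 (fun q hq => hy0fix ⟨q, hq⟩)
    rw [hy0c] at hy0
    obtain ⟨⟨n, hn⟩, hnz⟩ := hy0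
    exact ⟨n, hn, hnz⟩
  obtain ⟨n1, hn1, hn1x⟩ := hreach x hxa hxb
  obtain ⟨n2, hn2, hn2y⟩ := hreach y hya hyb
  have hn1' := (mem_Nab N a b n1).mp hn1
  have hn2' := (mem_Nab N a b n2).mp hn2
  refine ⟨n2⁻¹ * n1, N.mul_mem (N.inv_mem hn2'.1) hn1'.1, ?_, ?_, ?_⟩
  · rw [mul_smul, hn1'.2.1, inv_smul_eq_iff, hn2'.2.1]
  · rw [mul_smul, hn1'.2.2, inv_smul_eq_iff, hn2'.2.2]
  · rw [mul_smul, hn1x, inv_smul_eq_iff, hn2y]

theorem wagner {G : Type u} {X : Type v} [Group G] [Finite G] [MulAction G X] [Finite X]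
    [FaithfulSMul G X] (hodd : Odd (Nat.card X)) (h5 : 5 ≤ Nat.card X)
    (hG : IsMultiplyPretransitive G X 3) (N : Subgroup G) [hNn : N.Normal] (hN : N ≠ ⊥) :
    IsMultiplyPretransitive N X 3 := by
  have h3 := S0698.three_trans hG
  have hN2 : ∀ x y x' y' : X, x ≠ y → x' ≠ y' → ∃ n ∈ N, n • x = x' ∧ n • y = y' := by
    rcases S0698.jordan_normal 3 (by norm_num) (by omega) hG N hNn hN with h | ⟨-, hcomm, hexp⟩
    · intro x y x' y' hxy hxy'
      obtain ⟨⟨n, hn⟩, h1, h2⟩ := is_two_pretransitive_iff.mp h hxy hxy'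
      exact ⟨n, hn, h1, h2⟩
    · exfalso
      have hG2 : IsMultiplyPretransitive G X 2 :=
        isMultiplyPretransitive_of_le (n := 3) (by omega) (by omega)
      have hprim : IsPreprimitive G X := isPreprimitive_of_is_two_pretransitive hG2
      have hNtrans : IsPretransitive N X := S0698.normal_trans hprim N hNn hN
      obtain ⟨⟨n0, hn0N⟩, hn0⟩ := (Subgroup.ne_bot_iff_exists_ne_one).mp hN
      have hn0' : n0 ≠ 1 := fun h => hn0 (Subtype.ext h)
      have hsq : n0 ^ 2 = 1 := hexp n0 hn0N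
      have hZ : IsPGroup 2 (Subgroup.zpowers n0) := by
        apply IsPGroup.of_card (n := 1)
        rw [Nat.card_zpowers, pow_one]
        exact orderOf_eq_prime hsq hn0'
      obtain ⟨x0, hx0⟩ := two_fix (P := Subgroup.zpowers n0) (Y := X) hZ hodd
      have hx0' : n0 • x0 = x0 := hx0 ⟨n0, Subgroup.mem_zpowers n0⟩
      apply hn0'
      apply FaithfulSMul.eq_of_smul_eq_smul (α := X)
      intro y
      obtain ⟨⟨m, hm⟩, rfl⟩ := hNtrans.exists_smul_eq x0 y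
      have hcm : n0 * m = m * n0 := by
        have := hcomm.is_comm.comm (⟨n0, hn0N⟩ : N) ⟨m, hm⟩
        exact congrArg Subtype.val this
      show n0 • (m • x0) = (1 : G) • (m • x0)
      rw [one_smul, ← mul_smul, hcm, mul_smul, hx0']
  rw [isMultiplyPretransitive_iff]
  intro x y
  have hx01 : x 0 ≠ x 1 := fun h => by simpa using x.injective h
  have hx02 : x 0 ≠ x 2 := fun h => by simpa using x.injective h
  have hx12 : x 1 ≠ x 2 := fun h => by simpa using x.injective h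
  have hy01 : y 0 ≠ y 1 := fun h => by simpa using y.injective h
  have hy02 : y 0 ≠ y 2 := fun h => by simpa using y.injective h
  have hy12 : y 1 ≠ y 2 := fun h => by simpa using y.injective h
  obtain ⟨n1, hn1, h1a, h1b⟩ := hN2 (x 0) (x 1) (y 0) (y 1) hx01 hy01
  have hz0 : n1 • x 2 ≠ y 0 := by
    rw [← h1a]
    exact fun h => hx02 (smul_left_cancel n1 h).symm
  have hz1 : n1 • x 2 ≠ y 1 := by
    rw [← h1b]
    exact fun h => hx12 (smul_left_cancel n1 h).symm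
  obtain ⟨n2, hn2, h2a, h2b, h2c⟩ :=
    key hodd h3 N hN2 (y 0) (y 1) hy01 (n1 • x 2) (y 2) hz0 hz1 hy02.symm hy12.symm
  refine ⟨⟨n2 * n1, N.mul_mem hn2 hn1⟩, ?_⟩
  ext i
  fin_cases i
  · show (n2 * n1) • x 0 = y 0
    rw [mul_smul, h1a, h2a]
  · show (n2 * n1) • x 1 = y 1
    rw [mul_smul, h1b, h2b]
  · show (n2 * n1) • x 2 = y 2
    rw [mul_smul, h2c]

/-- Wagner's Theorem: a non-trivial normal subgroup of a triply transitive permutation group of odd degree at least 5 is triply transitive. -/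
theorem result {α : Type*} [Fintype α] [DecidableEq α] (G : Subgroup (Equiv.Perm α)) (hodd : Odd (Fintype.card α)) (h5 : 5 ≤ Fintype.card α) (hG : MulAction.IsMultiplyPretransitive G α 3) (N : Subgroup G) [N.Normal] (hN : N ≠ ⊥) : MulAction.IsMultiplyPretransitive N α 3 := by
  exact wagner (by rwa [Nat.card_eq_fintype_card]) (by rwa [Nat.card_eq_fintype_card]) hG N hN

end Cfsg.Agent.S0699
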