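import Cfsg.Statements.S0700
import Cfsg.Agent.S0035
import Cfsg.Agent.S0698
import Mathlib

set_option autoImplicit false
open Cfsg

namespace Cfsg.Agent.S0700

open MulAction
open scoped Pointwise

universe u v

section

variable {G : Type u} [Group G] [Finite G] {α : Type v} [MulAction G α] [FaithfulSMul G α]
  [Finite α]

/-- the regular case: a regular minimal normal subgroup of a doubly transitive group is
abelian of prime exponent -/
theorem regular_case (h2 : ∀ a b c d : α, a ≠ b → c ≠ d → ∃ g : G, g • a = c ∧ g • b = d)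
    (N : Subgroup G) (hNn : N.Normal) (hN : N ≠ ⊥)
    (hmin : ∀ M : Subgroup G, M.Normal → M ≤ N → M = ⊥ ∨ M = N)
    (hreg : ∀ a : α, ∀ n ∈ N, n • a = a → n = 1) :
    IsMulCommutative N ∧ ∃ p : ℕ, p.Prime ∧ ∀ n ∈ N, n ^ p = 1 := by
  obtain ⟨n₀, hn₀N, hn₀⟩ : ∃ n₀ ∈ N, n₀ ≠ 1 := by
    by_contra hcon
    push Not at hcon
    exact hN (eq_bot_iff.mpr fun x hx => Subgroup.mem_bot.mpr (hcon x hx))
  obtain ⟨a, ha⟩ : ∃ a : α, n₀ • a ≠ a := by
    by_contra hcon
    push Not at hcon
    apply hn₀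
    apply FaithfulSMul.eq_of_smul_eq_smul (α := α)
    intro b
    rw [hcon b, one_smul]
  have hconj : ∀ n₁ ∈ N, n₁ ≠ 1 → ∀ n₂ ∈ N, n₂ ≠ 1 → ∃ g : G, g * n₁ * g⁻¹ = n₂ := by
    intro n₁ h1N h1 n₂ h2N h2'
    have e1 : n₁ • a ≠ a := fun h => h1 (hreg a n₁ h1N h)
    have e2 : n₂ • a ≠ a := fun h => h2' (hreg a n₂ h2N h)
    obtain ⟨g, hga, hg⟩ := h2 a (n₁ • a) a (n₂ • a) (Ne.symm e1) (Ne.symm e2)
    refine ⟨g, ?_⟩
    have hga' : g⁻¹ • a = a := by rw [inv_smul_eq_iff, hga]
    have h3 : n₂⁻¹ * (g * n₁ * g⁻¹) = 1 := by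
      apply hreg a _ (N.mul_mem (N.inv_mem h2N) (hNn.conj_mem n₁ h1N g))
      rw [mul_smul, mul_smul, mul_smul, hga', hg, inv_smul_smul]
    have h4 : g * n₁ * g⁻¹ = n₂ * (n₂⁻¹ * (g * n₁ * g⁻¹)) := by group
    rw [h4, h3, mul_one]
  -- an element of prime order
  have hm1 : orderOf n₀ ≠ 1 := fun h => hn₀ (orderOf_eq_one_iff.mp h)
  have hmpos : 0 < orderOf n₀ := orderOf_pos n₀
  have hp : (orderOf n₀).minFac.Prime := Nat.minFac_prime hm1
  have hpd : (orderOf n₀).minFac ∣ orderOf n₀ := Nat.minFac_dvd _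
  obtain ⟨p, hpdef⟩ : ∃ p, p = (orderOf n₀).minFac := ⟨_, rfl⟩
  rw [← hpdef] at hp hpd
  have hy1 : (n₀ ^ (orderOf n₀ / p)) ^ p = 1 := by
    rw [← pow_mul, Nat.div_mul_cancel hpd, pow_orderOf_eq_one]
  have hy0 : n₀ ^ (orderOf n₀ / p) ≠ 1 := by
    intro h
    have h1 := orderOf_dvd_of_pow_eq_one h
    have h2' : 0 < orderOf n₀ / p := Nat.div_pos (Nat.le_of_dvd hmpos hpd) hp.pos
    have h3 := Nat.le_of_dvd h2' h1
    have h4 := Nat.div_lt_self hmpos hp.one_lt
    omega
  have hyN : n₀ ^ (orderOf n₀ / p) ∈ N := N.pow_mem hn₀N _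
  have hexp : ∀ n ∈ N, n ^ p = 1 := by
    intro n hn
    by_cases hn1 : n = 1
    · rw [hn1, one_pow]
    · obtain ⟨g, hg⟩ := hconj _ hyN hy0 n hn hn1
      rw [← hg, conj_pow, hy1, mul_one, mul_inv_cancel]
  refine ⟨?_, p, hp, hexp⟩
  -- commutativity
  have := Fact.mk hp
  have hPG : IsPGroup p N := by
    intro g
    refine ⟨1, ?_⟩
    apply Subtype.ext
    rw [pow_one]
    exact hexp g g.2
  have hnt : Nontrivial N := ⟨⟨⟨n₀, hn₀N⟩, 1, fun h => hn₀ (congrArg Subtype.val h)⟩⟩
  have hcnt := hPG.center_nontrivial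
  obtain ⟨z, hz⟩ := exists_ne (1 : Subgroup.center N)
  have hZn : ((Subgroup.center N).map N.subtype).Normal :=
    ConjAct.normal_of_characteristic_of_normal
  rcases hmin _ hZn (Subgroup.map_subtype_le _) with h | h
  · exfalso
    apply hz
    have h1 : ((z : N) : G) ∈ (Subgroup.center N).map N.subtype := ⟨(z : N), z.2, rfl⟩
    rw [h, Subgroup.mem_bot] at h1
    apply Subtype.ext
    apply Subtype.ext
    exact h1
  · refine ⟨⟨fun x y => ?_⟩⟩
    have h1 : (x : G) ∈ (Subgroup.center N).map N.subtype := by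
      rw [h]
      exact x.2
    obtain ⟨x', hx', hxx'⟩ := h1
    have h2' : x' = x := Subtype.ext hxx'
    rw [h2'] at hx'
    exact ((Subgroup.mem_center_iff.mp hx') y).symm

/-! ### Primitivity in the non-regular case -/

theorem block_iff (N : Subgroup G) (B : Set α) :
    IsBlock N B ↔ ∀ n : G, n ∈ N → n • B = B ∨ Disjoint (n • B) B := by
  rw [isBlock_iff_smul_eq_or_disjoint]
  exact ⟨fun h n hn => h ⟨n, hn⟩, fun h n => h n n.2⟩

theorem block_translate (N : Subgroup G) (hNn : N.Normal) {B : Set α} (hB : IsBlock N B)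
    (g : G) : IsBlock N (g • B) := by
  rw [block_iff] at hB ⊢
  intro n hn
  have hmem : g⁻¹ * n * g ∈ N := by simpa using hNn.conj_mem n hn g⁻¹
  have e : n • (g • B) = g • ((g⁻¹ * n * g) • B) := by
    rw [smul_smul, smul_smul]
    congr 1
    group
  rw [e]
  rcases hB _ hmem with h | h
  · left
    rw [h]
  · right
    exact Set.disjoint_smul_set.mpr h

theorem block_fix (N : Subgroup G) {L : Set α} (hL : IsBlock N L) (m : G) (hm : m ∈ N) (u : α)
    (hu : u ∈ L) (hmu : m • u = u) : m • L = L := by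
  rcases (block_iff N L).mp hL m hm with h | h
  · exact h
  · exfalso
    have h1 : u ∈ m • L := by
      rw [← hmu]
      exact Set.smul_mem_smul_set hu
    exact Set.disjoint_left.mp h h1 hu

/-- in the linear space of translates of a minimal block, an element of `N` fixing two points
is trivial -/
theorem two_point_stab (h2 : ∀ a b c d : α, a ≠ b → c ≠ d → ∃ g : G, g • a = c ∧ g • b = d)
    (N : Subgroup G) (hNn : N.Normal) (B : Set α) (hB : IsBlock N B) (hBns : ¬ B.Subsingleton)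
    (hBne : B ≠ Set.univ)
    (hBmin : ∀ B' : Set α, IsBlock N B' → ¬ B'.Subsingleton → B.ncard ≤ B'.ncard)
    (n : G) (hn : n ∈ N) (a x : α) (hax : a ≠ x) (hna : n • a = a) (hnx : n • x = x) : n = 1 := by
  have hline : ∀ x y : α, x ≠ y → ∃ g : G, x ∈ g • B ∧ y ∈ g • B := by
    intro x y hxy
    obtain ⟨b₁, hb₁, b₂, hb₂, hne⟩ := Set.not_subsingleton_iff.mp hBns
    obtain ⟨g, h1, h2'⟩ := h2 b₁ b₂ x y hne hxy
    exact ⟨g, ⟨b₁, hb₁, h1⟩, ⟨b₂, hb₂, h2'⟩⟩
  have hsub : ∀ g₁ g₂ : G, ∀ x y : α, x ≠ y → x ∈ g₁ • B → y ∈ g₁ • B → x ∈ g₂ • B →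
      y ∈ g₂ • B → g₁ • B ⊆ g₂ • B := by
    intro g₁ g₂ x y hxy hx1 hy1 hx2 hy2
    have hI : IsBlock N (g₁ • B ∩ g₂ • B) :=
      (block_translate N hNn hB g₁).inter (block_translate N hNn hB g₂)
    have hIns : ¬ (g₁ • B ∩ g₂ • B).Subsingleton := by
      intro hs
      exact hxy (hs ⟨hx1, hx2⟩ ⟨hy1, hy2⟩)
    have hc := hBmin _ hI hIns
    have hc' : (g₁ • B).ncard ≤ (g₁ • B ∩ g₂ • B).ncard := by
      rw [Set.ncard_smul_set]
      exact hc
    have heq := Set.eq_of_subset_of_ncard_le Set.inter_subset_left hc' (Set.toFinite _)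
    rw [← heq]
    exact Set.inter_subset_right
  have huniq : ∀ g₁ g₂ : G, ∀ x y : α, x ≠ y → x ∈ g₁ • B → y ∈ g₁ • B → x ∈ g₂ • B →
      y ∈ g₂ • B → g₁ • B = g₂ • B := by
    intro g₁ g₂ x y hxy hx1 hy1 hx2 hy2
    exact Set.Subset.antisymm (hsub g₁ g₂ x y hxy hx1 hy1 hx2 hy2)
      (hsub g₂ g₁ x y hxy hx2 hy2 hx1 hy1)
  have hP : ∀ m ∈ N, ∀ u v : α, u ≠ v → m • u = u → m • v = v → ∀ g₀ : G, u ∈ g₀ • B →
      v ∈ g₀ • B → ∀ y : α, y ∉ g₀ • B → m • y = y := by
    intro m hm u v huv hmu hmv g₀ hu hv y hy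
    have huy : u ≠ y := fun h => hy (h ▸ hu)
    have hvy : v ≠ y := fun h => hy (h ▸ hv)
    obtain ⟨g₁, hu1, hy1⟩ := hline u y huy
    obtain ⟨g₂, hv2, hy2⟩ := hline v y hvy
    have f1 := block_fix N (block_translate N hNn hB g₁) m hm u hu1 hmu
    have f2 := block_fix N (block_translate N hNn hB g₂) m hm v hv2 hmv
    have hmy1 : m • y ∈ g₁ • B := by
      rw [← f1]
      exact Set.smul_mem_smul_set hy1
    have hmy2 : m • y ∈ g₂ • B := by
      rw [← f2]
      exact Set.smul_mem_smul_set hy2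
    by_contra hne
    have e12 := huniq g₁ g₂ y (m • y) (Ne.symm hne) hy1 hmy1 hy2 hmy2
    have hv1 : v ∈ g₁ • B := by
      rw [e12]
      exact hv2
    have e10 := huniq g₁ g₀ u v huv hu1 hv1 hu hv
    apply hy
    rw [← e10]
    exact hy1
  obtain ⟨g₀, ha0, hx0⟩ := hline a x hax
  obtain ⟨z, hz⟩ : ∃ z : α, z ∉ g₀ • B := by
    by_contra hcon
    push Not at hcon
    apply hBne
    have h1 : g₀ • B = Set.univ := Set.eq_univ_of_forall hcon
    have h2' : B = g₀⁻¹ • (g₀ • B) := by rw [inv_smul_smul]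
    rw [h2', h1, Set.smul_set_univ]
  have hnz : n • z = z := hP n hn a x hax hna hnx g₀ ha0 hx0 z hz
  have haz : a ≠ z := fun h => hz (h ▸ ha0)
  obtain ⟨g₁, ha1, hz1⟩ := hline a z haz
  apply FaithfulSMul.eq_of_smul_eq_smul (α := α)
  intro y
  rw [one_smul]
  by_cases hy0 : y ∈ g₀ • B
  · by_cases hya : y = a
    · rw [hya]
      exact hna
    · have hy1 : y ∉ g₁ • B := by
        intro hy1
        have e10 := huniq g₁ g₀ a y (Ne.symm hya) ha1 hy1 ha0 hy0
        apply hz
        rw [← e10]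
        exact hz1
      exact hP n hn a z haz hna hnz g₁ ha1 hz1 y hy1
  · exact hP n hn a x hax hna hnx g₀ ha0 hx0 y hy0

theorem mem_conj_stab (N : Subgroup G) (a : α) (g x : N) :
    x ∈ MulAut.conj g • stabilizer N a ↔ x • (g • a) = g • a := by
  rw [Subgroup.mem_pointwise_smul_iff_inv_smul_mem, mem_stabilizer_iff]
  have e : (MulAut.conj g)⁻¹ • x = g⁻¹ * x * g := by
    rw [MulAut.smul_def, MulAut.conj_inv_apply]
  rw [e, mul_smul, mul_smul, inv_smul_eq_iff]

theorem prim_of_nonregular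
    (h2 : ∀ a b c d : α, a ≠ b → c ≠ d → ∃ g : G, g • a = c ∧ g • b = d)
    (N : Subgroup G) (hNn : N.Normal)
    (hmin : ∀ M : Subgroup G, M.Normal → M ≤ N → M = ⊥ ∨ M = N)
    (htrans : IsPretransitive N α) (hnr : ∃ a : α, ∃ n ∈ N, n • a = a ∧ n ≠ 1) :
    IsPreprimitive N α := by
  by_contra hnp
  obtain ⟨B₀, hB₀, hB₀t⟩ : ∃ B : Set α, IsBlock N B ∧ ¬ IsTrivialBlock B := by
    by_contra hcon
    push Not at hcon
    exact hnp (IsPreprimitive.mk (fun {B} hB => hcon B hB))
  have hB₀' : ¬ B₀.Subsingleton ∧ B₀ ≠ Set.univ := by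
    unfold IsTrivialBlock at hB₀t
    push Not at hB₀t
    exact ⟨Set.not_subsingleton_iff.mpr hB₀t.1, hB₀t.2⟩
  obtain ⟨B, ⟨hB, hBns⟩, hBmin'⟩ := Set.exists_min_image
    {B : Set α | IsBlock N B ∧ ¬ B.Subsingleton} Set.ncard (Set.toFinite _) ⟨B₀, hB₀, hB₀'.1⟩
  have hBmin : ∀ B' : Set α, IsBlock N B' → ¬ B'.Subsingleton → B.ncard ≤ B'.ncard :=
    fun B' h1 h2' => hBmin' B' ⟨h1, h2'⟩
  have hBne : B ≠ Set.univ := by
    intro h
    have h1 := hBmin B₀ hB₀ hB₀'.1
    have h2' : B₀.ncard < (Set.univ : Set α).ncard :=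
      Set.ncard_lt_ncard (Set.ssubset_univ_iff.mpr hB₀'.2) (Set.toFinite _)
    rw [h] at h1
    omega
  have hTP := two_point_stab h2 N hNn B hB hBns hBne hBmin
  obtain ⟨a, n₁, hn₁N, hn₁a, hn₁⟩ := hnr
  have hFrob : Cfsg.IsFrobeniusComplement (stabilizer N a) := by
    refine ⟨?_, ?_, ?_⟩
    · intro h
      have h1 : (⟨n₁, hn₁N⟩ : N) ∈ stabilizer N a := hn₁a
      rw [h, Subgroup.mem_bot] at h1
      exact hn₁ (congrArg Subtype.val h1)
    · intro h
      obtain ⟨b₁, hb₁, b₂, hb₂, hne⟩ := Set.not_subsingleton_iff.mp hBns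
      obtain ⟨b, hb⟩ : ∃ b : α, b ≠ a := by
        by_cases h1 : b₁ = a
        · exact ⟨b₂, fun h2' => hne (h1.trans h2'.symm)⟩
        · exact ⟨b₁, h1⟩
      obtain ⟨m, hm⟩ := exists_smul_eq N a b
      have h1 : m ∈ stabilizer N a := by
        rw [h]
        exact Subgroup.mem_top m
      exact hb (hm.symm.trans h1)
    · intro g hg
      rw [eq_bot_iff]
      rintro x ⟨hx1, hx2⟩
      rw [Subgroup.mem_bot]
      have h1 : x • a = a := hx1
      have h2' : x • (g • a) = g • a := (mem_conj_stab N a g x).mp hx2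
      have h3 : g • a ≠ a := hg
      apply Subtype.ext
      exact hTP (x : G) x.2 a (g • a) (Ne.symm h3) h1 h2'
  obtain ⟨K, hKset, hKn, hKc⟩ := S0035.result (stabilizer N a) hFrob
  have hK'n : (K.map N.subtype).Normal := by
    constructor
    rintro _ ⟨k, hk, rfl⟩ g
    refine ⟨⟨g * k * g⁻¹, hNn.conj_mem k k.2 g⟩, ?_, rfl⟩
    have hk' : k ∈ Cfsg.frobeniusKernel (stabilizer N a) := by
      rw [← hKset]
      exact hk
    rw [hKset]
    rcases hk' with hk1 | hk'
    · left
      apply Subtype.ext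
      show g * (k : G) * g⁻¹ = 1
      rw [hk1]
      simp
    · right
      intro m hm
      rw [mem_conj_stab] at hm
      obtain ⟨m', hm'⟩ := exists_smul_eq N a (g⁻¹ • (m • a))
      apply hk' m'
      rw [mem_conj_stab, hm']
      have h1 : (g * (k : G) * g⁻¹) • (m • a) = m • a := hm
      show (k : G) • (g⁻¹ • (m • a)) = g⁻¹ • (m • a)
      have h3 := congrArg (fun t => g⁻¹ • t) h1
      simp only [mul_smul, inv_smul_smul] at h3
      exact h3
  rcases hmin _ hK'n (Subgroup.map_subtype_le _) with h | h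
  · have hK : K = ⊥ := (Subgroup.map_eq_bot_iff_of_injective K N.subtype_injective).mp h
    rw [hK] at hKc
    exact hFrob.2.1 (Subgroup.isComplement'_bot_left.mp hKc)
  · have hK : K = ⊤ := by
      rw [eq_top_iff]
      intro x _
      have h1 : (x : G) ∈ K.map N.subtype := by
        rw [h]
        exact x.2
      obtain ⟨k, hk, hkx⟩ := h1
      have : k = x := Subtype.ext hkx
      rwa [← this]
    rw [hK] at hKc
    exact hFrob.1 (Subgroup.isComplement'_top_left.mp hKc)

/-! ### Simplicity -/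

/-- minimal normal subgroups -/
def MinN {N : Type u} [Group N] (M : Subgroup N) : Prop :=
  M.Normal ∧ M ≠ ⊥ ∧ ∀ M' : Subgroup N, M'.Normal → M' ≤ M → M' = ⊥ ∨ M' = M

theorem minN_map {N : Type u} [Group N] (e : N ≃* N) {M : Subgroup N} (hM : MinN M) :
    MinN (M.map e.toMonoidHom) := by
  obtain ⟨hMn, hM0, hMmin⟩ := hM
  refine ⟨hMn.map _ e.surjective, ?_, ?_⟩
  · intro h
    exact hM0 ((Subgroup.map_eq_bot_iff_of_injective M e.injective).mp h)
  · intro M' hM'n hM'le
    rcases hMmin (M'.comap e.toMonoidHom) (hM'n.comap _) (by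
      intro x hx
      obtain ⟨y, hy, hyx⟩ := hM'le hx
      have : y = x := e.injective hyx
      rwa [← this]) with h | h
    · left
      rw [eq_bot_iff]
      intro z hz
      have h1 : e.symm z ∈ M'.comap e.toMonoidHom := by
        show e (e.symm z) ∈ M'
        rw [e.apply_symm_apply]
        exact hz
      rw [h, Subgroup.mem_bot] at h1
      rw [Subgroup.mem_bot]
      have := congrArg e h1
      rwa [e.apply_symm_apply, map_one] at this
    · right
      apply le_antisymm hM'le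
      rintro _ ⟨y, hy, rfl⟩
      rw [← h] at hy
      exact hy

theorem inf_of_ne {N : Type u} [Group N] {A B : Subgroup N} (hA : MinN A) (hB : MinN B)
    (hne : A ≠ B) : A ⊓ B = ⊥ := by
  have hn : (A ⊓ B).Normal := by
    have := hA.1
    have := hB.1
    infer_instance
  rcases hA.2.2 (A ⊓ B) hn inf_le_left with h | h
  · exact h
  · exfalso
    have hle : A ≤ B := inf_eq_left.mp h
    rcases hB.2.2 A hA.1 hle with h' | h'
    · exact hA.2.1 h'
    · exact hne h'

theorem comm_of_ne {N : Type u} [Group N] {A B : Subgroup N} (hA : MinN A) (hB : MinN B)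
    (hne : A ≠ B) : ∀ x ∈ A, ∀ y ∈ B, x * y = y * x := by
  intro x hx y hy
  exact (Subgroup.commute_of_normal_of_disjoint A B hA.1 hB.1
    (disjoint_iff.mpr (inf_of_ne hA hB hne)) x y hx hy).eq

theorem semireg_of_comm (N : Subgroup G) (A : Subgroup N)
    (hA : ∀ a b : α, ∃ x ∈ A, x • a = b)
    (c : N) (hc : ∀ x ∈ A, c * x = x * c) (a : α) (hca : c • a = a) : c = 1 := by
  apply Subtype.ext
  apply FaithfulSMul.eq_of_smul_eq_smul (α := α)
  intro b
  obtain ⟨x, hx, rfl⟩ := hA a b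
  show c • x • a = (1 : N) • x • a
  rw [one_smul, ← mul_smul, hc x hx, mul_smul, hca]

theorem cent_le (N : Subgroup G) {A B : Subgroup N} (hA : MinN A) (hB : MinN B) (hne : A ≠ B)
    (hAt : ∀ a b : α, ∃ x ∈ A, x • a = b) (hBt : ∀ a b : α, ∃ x ∈ B, x • a = b) (a : α)
    (c : N) (hc : ∀ x ∈ A, c * x = x * c) : c ∈ B := by
  obtain ⟨y, hy, hya⟩ := hBt a (c • a)
  have h1 : y⁻¹ * c = 1 := by
    apply semireg_of_comm N A hAt _ _ a
    · rw [mul_smul, inv_smul_eq_iff, hya]
    · intro x hx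
      have e1 := comm_of_ne hA hB hne x hx y hy
      calc y⁻¹ * c * x = y⁻¹ * (c * x) := by group
        _ = y⁻¹ * (x * c) := by rw [hc x hx]
        _ = y⁻¹ * (x * y) * y⁻¹ * c := by group
        _ = y⁻¹ * (y * x) * y⁻¹ * c := by rw [e1]
        _ = x * (y⁻¹ * c) := by group
  have : c = y := by
    calc c = y * (y⁻¹ * c) := by group
      _ = y := by rw [h1, mul_one]
  rw [this]
  exact hy

theorem third (N : Subgroup G) {A B A' : Subgroup N} (hA : MinN A) (hB : MinN B) (hne : A ≠ B)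
    (hAt : ∀ a b : α, ∃ x ∈ A, x • a = b) (hBt : ∀ a b : α, ∃ x ∈ B, x • a = b) (a : α)
    (hA' : MinN A') (hne' : A' ≠ A) : A' = B := by
  have hle : A' ≤ B := by
    intro c hc
    apply cent_le N hA hB hne hAt hBt a c
    intro x hx
    exact comm_of_ne hA' hA hne' c hc x hx
  rcases hB.2.2 A' hA'.1 hle with h | h
  · exact absurd h hA'.2.1
  · exact h

theorem trans_of_minN (N : Subgroup G) (hprim : IsPreprimitive N α) {A : Subgroup N}
    (hA : MinN A) : ∀ a b : α, ∃ x ∈ A, x • a = b := by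
  have := S0698.normal_trans hprim A hA.1 hA.2.1
  intro a b
  obtain ⟨x, hx⟩ := exists_smul_eq A a b
  exact ⟨x, x.2, hx⟩

theorem normal_map_of_conj (N : Subgroup G) [hNn : N.Normal] (K : Subgroup N)
    (h : ∀ g : G, K.map (MulAut.conjNormal g : N ≃* N).toMonoidHom ≤ K) :
    (K.map N.subtype).Normal := by
  constructor
  rintro _ ⟨k, hk, rfl⟩ g
  refine ⟨MulAut.conjNormal g k, h g ⟨k, hk, rfl⟩, ?_⟩
  exact MulAut.conjNormal_apply g k

theorem card_of_regular (N : Subgroup G) (A : Subgroup N)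
    (hAt : ∀ a b : α, ∃ x ∈ A, x • a = b)
    (hAs : ∀ x ∈ A, ∀ a : α, x • a = a → x = 1) (a : α) : Nat.card A = Nat.card α := by
  have htr : IsPretransitive A α := ⟨fun a b => by
    obtain ⟨x, hx, hxa⟩ := hAt a b
    exact ⟨⟨x, hx⟩, hxa⟩⟩
  have h1 := index_stabilizer_of_transitive A a
  have h2 : stabilizer A a = ⊥ := by
    rw [eq_bot_iff]
    intro x hx
    rw [Subgroup.mem_bot]
    exact Subtype.ext (hAs x x.2 a hx)
  rw [h2, Subgroup.index_bot] at h1
  exact h1

set_option maxHeartbeats 1000000 in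
theorem simple_of_prim
    (h2 : ∀ a b c d : α, a ≠ b → c ≠ d → ∃ g : G, g • a = c ∧ g • b = d)
    (N : Subgroup G) [hNn : N.Normal]
    (hmin : ∀ M : Subgroup G, M.Normal → M ≤ N → M = ⊥ ∨ M = N)
    (hprim : IsPreprimitive N α) (hnr : ∃ a : α, ∃ n ∈ N, n • a = a ∧ n ≠ 1) :
    IsSimpleGroup N := by
  have hnt : Nontrivial N := by
    obtain ⟨a, n, hn, -, hn1⟩ := hnr
    exact ⟨⟨⟨n, hn⟩, 1, fun h => hn1 (congrArg Subtype.val h)⟩⟩
  refine IsSimpleGroup.mk (fun L hL => ?_)
  by_cases hL0 : L = ⊥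
  · exact Or.inl hL0
  right
  obtain ⟨M, ⟨hMn, hM0, hML⟩, hMmin'⟩ := wellFounded_lt.has_min
    {M : Subgroup N | M.Normal ∧ M ≠ ⊥ ∧ M ≤ L} ⟨L, hL, hL0, le_rfl⟩
  have hM : MinN M := by
    refine ⟨hMn, hM0, fun M' hM'n hM'le => ?_⟩
    by_cases h : M' = ⊥
    · exact Or.inl h
    · right
      by_contra hne
      exact hMmin' M' ⟨hM'n, h, hM'le.trans hML⟩ (lt_of_le_of_ne hM'le hne)
  suffices hMtop : M = ⊤ by
    rw [eq_top_iff, ← hMtop]
    exact hML
  have htopof : ∀ K : Subgroup N, K ≠ ⊥ →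
      (∀ g : G, K.map (MulAut.conjNormal g : N ≃* N).toMonoidHom ≤ K) → K = ⊤ := by
    intro K hK0 hK
    rcases hmin _ (normal_map_of_conj N K hK) (Subgroup.map_subtype_le _) with h | h
    · exact absurd ((Subgroup.map_eq_bot_iff_of_injective K N.subtype_injective).mp h) hK0
    · rw [eq_top_iff]
      intro x _
      have h1 : (x : G) ∈ K.map N.subtype := by
        rw [h]
        exact x.2
      obtain ⟨k, hk, hkx⟩ := h1
      have : k = x := Subtype.ext hkx
      rwa [← this]
  by_cases hC1 : ∀ g : G, M.map (MulAut.conjNormal g : N ≃* N).toMonoidHom = M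
  · exact htopof M hM0 (fun g => (hC1 g).le)
  · exfalso
    push Not at hC1
    obtain ⟨g₀, hg₀⟩ := hC1
    obtain ⟨M₂, hM₂def⟩ : ∃ M₂ : Subgroup N,
        M₂ = M.map (MulAut.conjNormal g₀ : N ≃* N).toMonoidHom := ⟨_, rfl⟩
    have hM₂ : MinN M₂ := by
      rw [hM₂def]
      exact minN_map _ hM
    have hne : M ≠ M₂ := by
      rw [hM₂def]
      exact fun h => hg₀ h.symm
    obtain ⟨a, n₁, hn₁N, hn₁a, hn₁⟩ := hnr
    have hMt := trans_of_minN N hprim hM
    have hM₂t := trans_of_minN N hprim hM₂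
    have hc1 : ∀ h : G, M.map (MulAut.conjNormal h : N ≃* N).toMonoidHom ≤ M ⊔ M₂ := by
      intro h
      by_cases he : M.map (MulAut.conjNormal h : N ≃* N).toMonoidHom = M
      · rw [he]
        exact le_sup_left
      · rw [third N hM hM₂ hne hMt hM₂t a (minN_map _ hM) he]
        exact le_sup_right
    have hc2 : ∀ h : G, M₂.map (MulAut.conjNormal h : N ≃* N).toMonoidHom ≤ M ⊔ M₂ := by
      intro h
      by_cases he : M₂.map (MulAut.conjNormal h : N ≃* N).toMonoidHom = M₂
      · rw [he]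
        exact le_sup_right
      · rw [third N hM₂ hM hne.symm hM₂t hMt a (minN_map _ hM₂) he]
        exact le_sup_left
    have hsup : M ⊔ M₂ = ⊤ := by
      apply htopof
      · intro h
        apply hM0
        rw [eq_bot_iff, ← h]
        exact le_sup_left
      · intro h
        rw [Subgroup.map_sup]
        exact sup_le (hc1 h) (hc2 h)
    have hdis : Disjoint M M₂ := disjoint_iff.mpr (inf_of_ne hM hM₂ hne)
    have hcompl : Subgroup.IsComplement' M M₂ := by
      apply Subgroup.isComplement'_of_disjoint_and_mul_eq_univ hdis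
      have := hM.1
      rw [← Subgroup.normal_mul, hsup]
      rfl
    have hcardN : Nat.card M * Nat.card M₂ = Nat.card N := hcompl.card_mul_card
    have hcM : Nat.card M = Nat.card α := by
      apply card_of_regular N M hMt _ a
      intro x hx b hxb
      exact semireg_of_comm N M₂ hM₂t x (fun y hy => comm_of_ne hM hM₂ hne x hx y hy) b hxb
    have hcM₂ : Nat.card M₂ = Nat.card α := by
      apply card_of_regular N M₂ hM₂t _ a
      intro x hx b hxb
      exact semireg_of_comm N M hMt x (fun y hy => comm_of_ne hM₂ hM hne.symm x hx y hy) b hxb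
    have hNt : IsPretransitive N α := hprim.toIsPretransitive
    have hcardH : Nat.card (stabilizer N a) = Nat.card α := by
      have h1 := Subgroup.card_mul_index (stabilizer N a)
      rw [index_stabilizer_of_transitive N a, ← hcardN, hcM, hcM₂] at h1
      have hpos : 0 < Nat.card α := Nat.card_pos_iff.mpr ⟨⟨a⟩, inferInstance⟩
      exact Nat.eq_of_mul_eq_mul_right hpos h1
    have hfix : ∀ y : α, y ≠ a → ∀ m ∈ stabilizer N a, m • y = y := by
      intro y hya
      have hdvd : Nat.card (stabilizer N a) ∣ Nat.card ↥(stabilizer N a ⊓ stabilizer N y) := by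
        rw [Nat.dvd_iff_prime_pow_dvd_dvd]
        intro p k hp hpk
        by_cases hk0 : k = 0
        · rw [hk0, pow_zero]
          exact one_dvd _
        have := Fact.mk hp
        have hpn : p ∣ Nat.card α := by
          rw [← hcardH]
          exact dvd_trans (dvd_pow_self p hk0) hpk
        obtain ⟨P⟩ : Nonempty (Sylow p (stabilizer N a)) := inferInstance
        have hPk : p ^ k ∣ Nat.card (P : Subgroup (stabilizer N a)) :=
          P.pow_dvd_card_of_pow_dvd_card hpk
        have hmod := P.isPGroup'.card_modEq_card_fixedPoints α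
        have hpf : p ∣ Nat.card (fixedPoints (P : Subgroup (stabilizer N a)) α) :=
          Nat.modEq_zero_iff_dvd.mp (hmod.symm.trans (Nat.modEq_zero_iff_dvd.mpr hpn))
        have ha_fix : a ∈ fixedPoints (P : Subgroup (stabilizer N a)) α := by
          intro q
          exact (q : stabilizer N a).2
        obtain ⟨x, hx, hxa⟩ : ∃ x ∈ fixedPoints (P : Subgroup (stabilizer N a)) α, x ≠ a := by
          by_contra hcon
          push Not at hcon
          have hsub : Subsingleton (fixedPoints (P : Subgroup (stabilizer N a)) α) :=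
            ⟨fun u v => Subtype.ext ((hcon u u.2).trans (hcon v v.2).symm)⟩
          have hle : Nat.card (fixedPoints (P : Subgroup (stabilizer N a)) α) ≤ 1 :=
            Finite.card_le_one_iff_subsingleton.mpr hsub
          have hpos : 0 < Nat.card (fixedPoints (P : Subgroup (stabilizer N a)) α) :=
            Nat.card_pos_iff.mpr ⟨⟨⟨a, ha_fix⟩⟩, inferInstance⟩
          have h1 := Nat.le_of_dvd hpos hpf
          have h2' := hp.two_le
          omega
        let φ : (P : Subgroup (stabilizer N a)) →* ↥(stabilizer N a ⊓ stabilizer N x) :=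
          { toFun := fun q => ⟨((q : stabilizer N a) : N), ⟨(q : stabilizer N a).2, hx q⟩⟩
            map_one' := rfl
            map_mul' := fun _ _ => rfl }
        have hφ : Function.Injective φ := by
          intro q q' hqq'
          apply Subtype.ext
          apply Subtype.ext
          exact congrArg (fun t : ↥(stabilizer N a ⊓ stabilizer N x) => (t : N)) hqq'
        have h1 : Nat.card (P : Subgroup (stabilizer N a)) ∣
            Nat.card ↥(stabilizer N a ⊓ stabilizer N x) := Subgroup.card_dvd_of_injective φ hφ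
        obtain ⟨g, hga, hgx⟩ := h2 a x a y (Ne.symm hxa) (Ne.symm hya)
        have hle : (stabilizer N a ⊓ stabilizer N x).map
            (MulAut.conjNormal g : N ≃* N).toMonoidHom ≤ stabilizer N a ⊓ stabilizer N y := by
          rintro _ ⟨m, ⟨hm1, hm2⟩, rfl⟩
          have hm1' : (m : G) • a = a := hm1
          have hm2' : (m : G) • x = x := hm2
          have hga' : g⁻¹ • a = a := by rw [inv_smul_eq_iff, hga]
          have hgy' : g⁻¹ • y = x := by rw [inv_smul_eq_iff, hgx]
          constructor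
          · show ((MulAut.conjNormal g m : N) : G) • a = a
            rw [MulAut.conjNormal_apply, mul_smul, mul_smul, hga', hm1', hga]
          · show ((MulAut.conjNormal g m : N) : G) • y = y
            rw [MulAut.conjNormal_apply, mul_smul, mul_smul, hgy', hm2', hgx]
        have h2c : Nat.card ((stabilizer N a ⊓ stabilizer N x).map
            (MulAut.conjNormal g : N ≃* N).toMonoidHom) =
            Nat.card ↥(stabilizer N a ⊓ stabilizer N x) :=
          Subgroup.card_map_of_injective (MulEquiv.injective _)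
        have h3 := Subgroup.card_dvd_of_le hle
        rw [h2c] at h3
        exact dvd_trans hPk (dvd_trans h1 h3)
      have hTeq : stabilizer N a ⊓ stabilizer N y = stabilizer N a :=
        Subgroup.eq_of_le_of_card_ge inf_le_left (Nat.le_of_dvd Nat.card_pos hdvd)
      intro m hm
      rw [← hTeq] at hm
      exact hm.2
    apply hn₁
    apply FaithfulSMul.eq_of_smul_eq_smul (α := α)
    intro y
    rw [one_smul]
    by_cases hya : y = a
    · rw [hya]
      exact hn₁a
    · exact hfix y hya ⟨n₁, hn₁N⟩ hn₁a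

end

/-- Burnside's Theorem on doubly transitive groups: a minimal normal subgroup of a finite doubly transitive permutation group is elementary abelian and regular, or simple and primitive. -/
theorem result {α : Type*} [Fintype α] [DecidableEq α] (G : Subgroup (Equiv.Perm α)) (hG : MulAction.IsMultiplyPretransitive G α 2) (N : Subgroup G) [N.Normal] (hN : N ≠ ⊥) (hmin : ∀ M : Subgroup G, M.Normal → M ≤ N → M = ⊥ ∨ M = N) : (IsMulCommutative N ∧ (∃ p : ℕ, p.Prime ∧ ∀ n ∈ N, n ^ p = 1) ∧ ∀ a : α, MulAction.stabilizer N a = ⊥) ∨ (IsSimpleGroup N ∧ MulAction.IsPreprimitive N α) := by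
  have h2 : ∀ a b c d : α, a ≠ b → c ≠ d → ∃ g : G, g • a = c ∧ g • b = d :=
    fun a b c d hab hcd => MulAction.is_two_pretransitive_iff.mp hG hab hcd
  by_cases hreg : ∀ a : α, ∀ n ∈ N, n • a = a → n = 1
  · left
    obtain ⟨hc, hp⟩ := regular_case h2 N inferInstance hN hmin hreg
    refine ⟨hc, hp, fun a => ?_⟩
    rw [eq_bot_iff]
    intro n hn
    rw [Subgroup.mem_bot]
    exact Subtype.ext (hreg a n n.2 hn)
  · right
    push Not at hreg
    obtain ⟨a, n, hnN, hna, hn1⟩ := hreg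
    have hprimG : IsPreprimitive G α := isPreprimitive_of_is_two_pretransitive hG
    have htrans : IsPretransitive N α := S0698.normal_trans hprimG N inferInstance hN
    have hprim := prim_of_nonregular h2 N inferInstance hmin htrans ⟨a, n, hnN, hna, hn1⟩
    exact ⟨simple_of_prim h2 N hmin hprim ⟨a, n, hnN, hna, hn1⟩, hprim⟩

end Cfsg.Agent.S0700
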