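import Cfsg.Statements.S0701

set_option autoImplicit false
open Cfsg

namespace Cfsg.Agent.S0701

/-- The centraliser in the full symmetric group of a transitive permutation group `G` is semiregular, and it is transitive if and only if `G` is regular. -/
theorem result {α : Type*} (G : Subgroup (Equiv.Perm α)) [MulAction.IsPretransitive G α] : (∀ c ∈ Subgroup.centralizer (G : Set (Equiv.Perm α)), ∀ a : α, c a = a → c = 1) ∧ (MulAction.IsPretransitive (Subgroup.centralizer (G : Set (Equiv.Perm α))) α ↔ ∀ a : α, MulAction.stabilizer G a = ⊥) := by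
  have key : ∀ c ∈ Subgroup.centralizer (G : Set (Equiv.Perm α)), ∀ g ∈ G, ∀ x : α,
      c (g x) = g (c x) := by
    intro c hc g hg x
    have h := hc g hg
    have h2 := congrArg (fun σ : Equiv.Perm α => σ x) h
    simpa [Equiv.Perm.mul_apply] using h2.symm
  refine ⟨?_, ?_, ?_⟩
  · intro c hc a hca
    ext b
    obtain ⟨g, rfl⟩ := MulAction.exists_smul_eq G a b
    change c ((g : Equiv.Perm α) a) = (g : Equiv.Perm α) a
    rw [key c hc g g.2 a, hca]
  · intro htr a
    rw [eq_bot_iff]
    intro g hg
    rw [Subgroup.mem_bot]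
    have hga : (g : Equiv.Perm α) a = a := hg
    apply Subtype.ext
    ext b
    obtain ⟨c, rfl⟩ := MulAction.exists_smul_eq (Subgroup.centralizer (G : Set (Equiv.Perm α))) a b
    change (g : Equiv.Perm α) ((c : Equiv.Perm α) a) = (c : Equiv.Perm α) a
    rw [← key c c.2 g g.2 a, hga]
  · intro hreg
    -- the orbit map is a bijection
    have hbij : ∀ a : α, Function.Bijective (fun g : G => (g : Equiv.Perm α) a) := by
      intro a
      refine ⟨?_, ?_⟩
      · intro g h hgh
        have : g⁻¹ * h ∈ MulAction.stabilizer G a := by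
          rw [MulAction.mem_stabilizer_iff]
          change ((g⁻¹ * h : G) : Equiv.Perm α) a = a
          have hgh' : (g : Equiv.Perm α) a = (h : Equiv.Perm α) a := hgh
          simp [Equiv.Perm.mul_apply, ← hgh']
        rw [hreg a, Subgroup.mem_bot] at this
        exact (inv_mul_eq_one.mp this)
      · intro b
        obtain ⟨g, hg⟩ := MulAction.exists_smul_eq G a b
        exact ⟨g, hg⟩
    constructor
    intro a b
    let ea : G ≃ α := Equiv.ofBijective _ (hbij a)
    let eb : G ≃ α := Equiv.ofBijective _ (hbij b)
    let c : Equiv.Perm α := ea.symm.trans eb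
    have hc : ∀ g : G, c ((g : Equiv.Perm α) a) = (g : Equiv.Perm α) b := by
      intro g
      have : ea g = (g : Equiv.Perm α) a := rfl
      change eb (ea.symm ((g : Equiv.Perm α) a)) = _
      rw [← this, Equiv.symm_apply_apply]
      rfl
    have hcmem : c ∈ Subgroup.centralizer (G : Set (Equiv.Perm α)) := by
      intro h hh
      ext x
      obtain ⟨g, rfl⟩ := (hbij a).2 x
      change h (c ((g : Equiv.Perm α) a)) = c (h ((g : Equiv.Perm α) a))
      have e1 : h ((g : Equiv.Perm α) a) = ((⟨h, hh⟩ * g : G) : Equiv.Perm α) a := rfl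
      rw [e1, hc, hc]
      rfl
    refine ⟨⟨c, hcmem⟩, ?_⟩
    change c a = b
    have := hc 1
    simpa using this

end Cfsg.Agent.S0701
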