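import Cfsg.Statements.S0702
import Mathlib

set_option autoImplicit false
open Cfsg

namespace Cfsg.Agent.S0702

section
variable {α : Type*} (G : Subgroup (Equiv.Perm α)) [MulAction.IsPretransitive G α] (a : α)

/-- the underlying function of the centralising permutation attached to `n` -/
noncomputable def cfun (n : G) (x : α) : α :=
  (Classical.choose (MulAction.exists_smul_eq G a x)) • n⁻¹ • a

theorem cfun_spec (n : G)
    (hn : n ∈ Subgroup.normalizer ((MulAction.stabilizer G a : Subgroup G) : Set G)) (g : G) :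
    cfun G a n (g • a) = g • n⁻¹ • a := by
  unfold cfun
  set g' := Classical.choose (MulAction.exists_smul_eq G a (g • a)) with hg'
  have hspec : g' • a = g • a := Classical.choose_spec (MulAction.exists_smul_eq G a (g • a))
  have hs : g⁻¹ * g' ∈ MulAction.stabilizer G a := by
    rw [MulAction.mem_stabilizer_iff, mul_smul, hspec, inv_smul_smul]
  have hs' : n * (g⁻¹ * g') * n⁻¹ ∈ MulAction.stabilizer G a := (hn _).mp hs
  rw [MulAction.mem_stabilizer_iff] at hs'
  have : g' • n⁻¹ • a = g • (n⁻¹ • ((n * (g⁻¹ * g') * n⁻¹) • a)) := by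
    simp only [← mul_smul]
    congr 1
    group
  rw [this, hs']

theorem cfun_mul (n m : G)
    (hn : n ∈ Subgroup.normalizer ((MulAction.stabilizer G a : Subgroup G) : Set G))
    (hm : m ∈ Subgroup.normalizer ((MulAction.stabilizer G a : Subgroup G) : Set G)) (x : α) :
    cfun G a (n * m) x = cfun G a n (cfun G a m x) := by
  obtain ⟨g, rfl⟩ := MulAction.exists_smul_eq G a x
  rw [cfun_spec G a _ (Subgroup.mul_mem _ hn hm), cfun_spec G a _ hm,
    show g • m⁻¹ • a = (g * m⁻¹) • a from (mul_smul g m⁻¹ a).symm, cfun_spec G a _ hn]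
  simp only [mul_inv_rev, mul_smul]

theorem cfun_one (x : α) : cfun G a 1 x = x := by
  obtain ⟨g, rfl⟩ := MulAction.exists_smul_eq G a x
  rw [cfun_spec G a _ (Subgroup.one_mem _), inv_one, one_smul]

/-- the centralising permutation attached to `n` in the normaliser -/
noncomputable def cperm (n : Subgroup.normalizer ((MulAction.stabilizer G a : Subgroup G) : Set G)) :
    Equiv.Perm α where
  toFun := cfun G a n
  invFun := cfun G a (n⁻¹ : G)
  left_inv x := by
    rw [← cfun_mul G a _ _ (Subgroup.inv_mem _ n.2) n.2, inv_mul_cancel, cfun_one]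
  right_inv x := by
    rw [← cfun_mul G a _ _ n.2 (Subgroup.inv_mem _ n.2), mul_inv_cancel, cfun_one]

theorem cperm_apply (n : Subgroup.normalizer ((MulAction.stabilizer G a : Subgroup G) : Set G))
    (g : G) : cperm G a n (g • a) = g • (n : G)⁻¹ • a :=
  cfun_spec G a n n.2 g

theorem cperm_mem (n : Subgroup.normalizer ((MulAction.stabilizer G a : Subgroup G) : Set G)) :
    cperm G a n ∈ Subgroup.centralizer (G : Set (Equiv.Perm α)) := by
  intro h hh
  ext x
  obtain ⟨g, rfl⟩ := MulAction.exists_smul_eq G a x
  change h (cperm G a n (g • a)) = cperm G a n (h (g • a))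
  have e1 : h (g • a) = ((⟨h, hh⟩ : G) * g) • a := rfl
  rw [e1, cperm_apply, cperm_apply, mul_smul]
  rfl

/-- the homomorphism from the normaliser of the stabiliser to the centraliser -/
noncomputable def psi : Subgroup.normalizer ((MulAction.stabilizer G a : Subgroup G) : Set G) →*
    Subgroup.centralizer (G : Set (Equiv.Perm α)) :=
  MonoidHom.mk' (fun n => ⟨cperm G a n, cperm_mem G a n⟩) (by
    intro n m
    apply Subtype.ext
    ext x
    exact cfun_mul G a n m n.2 m.2 x)

theorem psi_apply (n : Subgroup.normalizer ((MulAction.stabilizer G a : Subgroup G) : Set G))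
    (g : G) : ((psi G a n : Subgroup.centralizer (G : Set (Equiv.Perm α))) : Equiv.Perm α) (g • a)
      = g • (n : G)⁻¹ • a :=
  cperm_apply G a n g

omit [MulAction.IsPretransitive G α] in
theorem cent_comm (c : Equiv.Perm α) (hc : c ∈ Subgroup.centralizer (G : Set (Equiv.Perm α)))
    (g : G) (x : α) : c (g • x) = g • c x := by
  have h := hc g g.2
  have h2 := congrArg (fun σ : Equiv.Perm α => σ x) h
  simp only [Equiv.Perm.mul_apply] at h2
  exact h2.symm

theorem psi_ker : (psi G a).ker = (MulAction.stabilizer G a).subgroupOf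
    (Subgroup.normalizer ((MulAction.stabilizer G a : Subgroup G) : Set G)) := by
  ext n
  rw [MonoidHom.mem_ker, Subgroup.mem_subgroupOf, MulAction.mem_stabilizer_iff]
  constructor
  · intro h
    have h1 := psi_apply G a n 1
    rw [h, one_smul, one_smul] at h1
    have h2 : (n : G)⁻¹ • a = a := h1.symm
    rw [inv_smul_eq_iff] at h2
    exact h2.symm
  · intro h
    apply Subtype.ext
    ext x
    obtain ⟨g, rfl⟩ := MulAction.exists_smul_eq G a x
    rw [psi_apply]
    have : (n : G)⁻¹ • a = a := by rw [inv_smul_eq_iff]; exact h.symm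
    rw [this]
    rfl

theorem psi_surj_aux (c : Equiv.Perm α) (hc : c ∈ Subgroup.centralizer (G : Set (Equiv.Perm α)))
    (h : G) (hh : c a = h • a) :
    ∃ n : Subgroup.normalizer ((MulAction.stabilizer G a : Subgroup G) : Set G),
      (n : G) = h⁻¹ ∧ psi G a n = ⟨c, hc⟩ := by
  have hmem : h⁻¹ ∈ Subgroup.normalizer ((MulAction.stabilizer G a : Subgroup G) : Set G) := by
    intro s
    change s ∈ MulAction.stabilizer G a ↔ h⁻¹ * s * h⁻¹⁻¹ ∈ MulAction.stabilizer G a
    rw [inv_inv, MulAction.mem_stabilizer_iff, MulAction.mem_stabilizer_iff, mul_smul, mul_smul,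
      ← hh, ← cent_comm G c hc, inv_smul_eq_iff, ← hh]
    constructor
    · intro hs; rw [hs]
    · intro hs; exact c.injective hs
  refine ⟨⟨h⁻¹, hmem⟩, rfl, ?_⟩
  apply Subtype.ext
  ext x
  obtain ⟨g, rfl⟩ := MulAction.exists_smul_eq G a x
  rw [psi_apply]
  change g • (h⁻¹)⁻¹ • a = c (g • a)
  rw [inv_inv, ← hh, cent_comm G c hc]

theorem psi_surj : Function.Surjective (psi G a) := by
  rintro ⟨c, hc⟩
  obtain ⟨h, hh⟩ := MulAction.exists_smul_eq G a (c a)
  obtain ⟨n, -, hn⟩ := psi_surj_aux G a c hc h hh.symm
  exact ⟨n, hn⟩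

end

/-- For a transitive permutation group `G` on a finite set, the centraliser of `G` in the symmetric group is isomorphic to `N_G(G_ω)/G_ω`, and its orbit of `ω` is the set of fixed points of `G_ω`. -/
theorem result {α : Type*} [Finite α] (G : Subgroup (Equiv.Perm α)) [MulAction.IsPretransitive G α] (a : α) : Nonempty (Subgroup.centralizer (G : Set (Equiv.Perm α)) ≃* Subgroup.normalizer ((MulAction.stabilizer G a : Subgroup G) : Set G) ⧸ (MulAction.stabilizer G a).subgroupOf (Subgroup.normalizer ((MulAction.stabilizer G a : Subgroup G) : Set G))) ∧ MulAction.orbit (Subgroup.centralizer (G : Set (Equiv.Perm α))) a = MulAction.fixedPoints (MulAction.stabilizer G a) α := by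
  classical
  refine ⟨⟨?_⟩, ?_⟩
  · exact ((QuotientGroup.quotientMulEquivOfEq (psi_ker G a).symm).trans
      (QuotientGroup.quotientKerEquivOfSurjective (psi G a) (psi_surj G a))).symm
  · ext x
    constructor
    · rintro ⟨c, rfl⟩ s
      change (s : G) • ((c : Equiv.Perm α) a) = (c : Equiv.Perm α) a
      rw [← cent_comm G c c.2]
      have : (s : G) • a = a := s.2
      rw [this]
    · intro hx
      obtain ⟨h, rfl⟩ := MulAction.exists_smul_eq G a x
      have hconj : ∀ s ∈ MulAction.stabilizer G a, h⁻¹ * s * h ∈ MulAction.stabilizer G a := by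
        intro s hs
        have := hx ⟨s, hs⟩
        change s • h • a = h • a at this
        rw [MulAction.mem_stabilizer_iff, mul_smul, mul_smul, this, inv_smul_smul]
      let f : MulAction.stabilizer G a → MulAction.stabilizer G a :=
        fun s => ⟨h⁻¹ * s * h, hconj s s.2⟩
      have hfinj : Function.Injective f := by
        intro s t hst
        have h1 : h⁻¹ * (s : G) * h = h⁻¹ * (t : G) * h := congrArg Subtype.val hst
        apply Subtype.ext
        simpa using h1
      have hfsurj : Function.Surjective f := Finite.injective_iff_surjective.mp hfinj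
      have hmem : h⁻¹ ∈ Subgroup.normalizer ((MulAction.stabilizer G a : Subgroup G) : Set G) := by
        intro s
        change s ∈ MulAction.stabilizer G a ↔ h⁻¹ * s * h⁻¹⁻¹ ∈ MulAction.stabilizer G a
        rw [inv_inv]
        constructor
        · exact hconj s
        · intro hs
          obtain ⟨t, ht⟩ := hfsurj ⟨_, hs⟩
          have h1 : h⁻¹ * (t : G) * h = h⁻¹ * s * h := congrArg Subtype.val ht
          have h2 : (t : G) = s := by simpa using h1
          rw [← h2]; exact t.2
      refine ⟨psi G a ⟨h⁻¹, hmem⟩, ?_⟩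
      change ((psi G a ⟨h⁻¹, hmem⟩ : Subgroup.centralizer (G : Set (Equiv.Perm α))) : Equiv.Perm α) a = h • a
      have := psi_apply G a ⟨h⁻¹, hmem⟩ 1
      rw [one_smul, one_smul] at this
      rw [this, inv_inv]

end Cfsg.Agent.S0702
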