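import Cfsg.Statements.S0703
import Mathlib

set_option autoImplicit false
open Cfsg

namespace Cfsg.Agent.S0703

theorem cent_fix {α : Type*} (T : Subgroup (Equiv.Perm α)) (htr : ∀ a b : α, ∃ t ∈ T, t a = b)
    (c : Equiv.Perm α) (hc : c ∈ Subgroup.centralizer (T : Set (Equiv.Perm α))) (a : α)
    (hca : c a = a) : c = 1 := by
  ext b
  obtain ⟨t, ht, rfl⟩ := htr a b
  have h := hc t ht
  have h2 := congrArg (fun σ : Equiv.Perm α => σ a) h
  simp only [Equiv.Perm.mul_apply] at h2
  rw [Equiv.Perm.one_apply, ← h2, hca]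

/-- An abelian transitive minimal normal subgroup `M` of a permutation group on a finite set is self-centralising in the symmetric group, regular, elementary abelian, and is the unique minimal normal subgroup. -/
theorem result {α : Type*} [Finite α] (G : Subgroup (Equiv.Perm α)) (M : Subgroup G) [M.Normal] (hM : M ≠ ⊥) (hmin : ∀ L : Subgroup G, L.Normal → L ≤ M → L = ⊥ ∨ L = M) (hab : IsMulCommutative M) (htrans : MulAction.IsPretransitive M α) : Subgroup.centralizer ((M.map G.subtype : Subgroup (Equiv.Perm α)) : Set (Equiv.Perm α)) = M.map G.subtype ∧ (∀ a : α, MulAction.stabilizer M a = ⊥) ∧ (∃ p : ℕ, p.Prime ∧ ∀ m ∈ M, m ^ p = 1) ∧ ∀ L : Subgroup G, L.Normal → L ≠ ⊥ → (∀ L' : Subgroup G, L'.Normal → L' ≤ L → L' = ⊥ ∨ L' = L) → L = M := by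
  classical
  set M' : Subgroup (Equiv.Perm α) := M.map G.subtype with hM'
  have htr : ∀ a b : α, ∃ t ∈ M', t a = b := by
    intro a b
    obtain ⟨m, hm⟩ := htrans.exists_smul_eq a b
    exact ⟨((m : G) : Equiv.Perm α), ⟨(m : G), m.2, rfl⟩, hm⟩
  have hcomm : ∀ x ∈ M', ∀ y ∈ M', x * y = y * x := by
    rintro x ⟨g, hg, rfl⟩ y ⟨g', hg', rfl⟩
    have := setLike_mul_comm (s := M) hg hg'
    exact congrArg (G.subtype) this
  have hle : M' ≤ Subgroup.centralizer (M' : Set (Equiv.Perm α)) := by
    intro x hx y hy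
    exact hcomm y hy x hx
  have hne : Nonempty α := by
    by_contra hemp
    rw [not_nonempty_iff] at hemp
    apply hM
    rw [eq_bot_iff]
    intro m hm
    rw [Subgroup.mem_bot]
    apply Subtype.ext
    ext x
    exact (hemp.false x).elim
  obtain ⟨a0⟩ := hne
  have hcent : Subgroup.centralizer (M' : Set (Equiv.Perm α)) = M' := by
    apply le_antisymm _ hle
    intro c hc
    obtain ⟨t, ht, hta⟩ := htr a0 (c a0)
    have h1 : t⁻¹ * c = 1 := by
      apply cent_fix M' htr (t⁻¹ * c) (Subgroup.mul_mem _ (Subgroup.inv_mem _ (hle ht)) hc) a0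
      rw [Equiv.Perm.mul_apply, ← hta]; exact t.symm_apply_apply a0
    have h2 : c = t := by rw [inv_mul_eq_one] at h1; exact h1.symm
    rw [h2]; exact ht
  refine ⟨hcent, ?_, ?_, ?_⟩
  · intro a
    rw [eq_bot_iff]
    intro m hm
    rw [Subgroup.mem_bot]
    have h1 : ((m : G) : Equiv.Perm α) = 1 :=
      cent_fix M' htr _ (hle ⟨(m : G), m.2, rfl⟩) a hm
    apply Subtype.ext; apply Subtype.ext; exact h1
  · have hnt : Nontrivial M := (Subgroup.nontrivial_iff_ne_bot M).mpr hM
    have hcard : Nat.card M ≠ 1 := by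
      intro h
      have := (Nat.card_eq_one_iff_unique.mp h).1
      exact not_subsingleton M this
    obtain ⟨p, hp, hpd⟩ := Nat.exists_prime_and_dvd hcard
    have : Fact p.Prime := Fact.mk hp
    obtain ⟨m0, hm0⟩ := exists_prime_orderOf_dvd_card' (G := M) p hpd
    let L : Subgroup G :=
      { carrier := {g | g ∈ M ∧ g ^ p = 1}
        one_mem' := ⟨M.one_mem, one_pow p⟩
        mul_mem' := by
          rintro x y ⟨hx, hxp⟩ ⟨hy, hyp⟩
          refine ⟨M.mul_mem hx hy, ?_⟩
          have hc : Commute x y := setLike_mul_comm (s := M) hx hy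
          rw [hc.mul_pow, hxp, hyp, one_mul]
        inv_mem' := by
          rintro x ⟨hx, hxp⟩
          exact ⟨M.inv_mem hx, by rw [inv_pow, hxp, inv_one]⟩ }
    have hLn : L.Normal := by
      constructor
      rintro x ⟨hx, hxp⟩ g
      refine ⟨(inferInstance : M.Normal).conj_mem x hx g, ?_⟩
      rw [conj_pow, hxp, mul_one, mul_inv_cancel]
    have hLM : L ≤ M := fun x hx => hx.1
    have hLne : L ≠ ⊥ := by
      intro h
      have hm0L : (m0 : G) ∈ L := by
        refine ⟨m0.2, ?_⟩
        have : m0 ^ p = 1 := by rw [← hm0]; exact pow_orderOf_eq_one m0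
        exact_mod_cast congrArg (Subtype.val) this
      rw [h, Subgroup.mem_bot] at hm0L
      have : m0 = 1 := Subtype.ext hm0L
      rw [this, orderOf_one] at hm0
      exact hp.one_lt.ne hm0
    have hLeq : L = M := (hmin L hLn hLM).resolve_left hLne
    refine ⟨p, hp, fun m hm => ?_⟩
    have : m ∈ L := by rw [hLeq]; exact hm
    exact this.2
  · intro L hLn hLne hLmin
    have hinf : (L ⊓ M).Normal := inferInstance
    rcases hmin (L ⊓ M) hinf inf_le_right with h | h
    · exfalso
      apply hLne
      rw [eq_bot_iff]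
      intro l hl
      have hlc : ((l : G) : Equiv.Perm α) ∈ Subgroup.centralizer (M' : Set (Equiv.Perm α)) := by
        rintro y ⟨g, hg, rfl⟩
        have hd : Disjoint L M := disjoint_iff.mpr h
        have := Subgroup.commute_of_normal_of_disjoint L M hLn inferInstance hd l g hl hg
        exact congrArg (G.subtype) this.eq.symm
      rw [hcent] at hlc
      obtain ⟨g, hg, hgl⟩ := hlc
      have hgl' : g = l := Subtype.ext hgl
      rw [hgl'] at hg
      have : l ∈ L ⊓ M := ⟨hl, hg⟩
      rw [h] at this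
      exact this
    · have hML : M ≤ L := by rw [← h]; exact inf_le_left
      rcases hLmin M inferInstance hML with h' | h'
      · exact absurd h' hM
      · exact h'.symm

end Cfsg.Agent.S0703
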