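import Cfsg.Statements.S0704
import Mathlib

set_option autoImplicit false
open Cfsg

namespace Cfsg.Agent.S0704

theorem cent_fix {α : Type*} (T : Subgroup (Equiv.Perm α)) (htr : ∀ a b : α, ∃ t ∈ T, t a = b)
    (c : Equiv.Perm α) (hc : c ∈ Subgroup.centralizer (T : Set (Equiv.Perm α))) (a : α)
    (hca : c a = a) : c = 1 := by
  ext b
  obtain ⟨t, ht, rfl⟩ := htr a b
  have h := hc t ht
  have h2 := congrArg (fun σ : Equiv.Perm α => σ a) h
  simp only [Equiv.Perm.mul_apply] at h2
  rw [Equiv.Perm.one_apply, ← h2, hca]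

/-- one half of the statement, symmetric in `M` and `N` -/
theorem half {α : Type*} (G : Subgroup (Equiv.Perm α)) (M N : Subgroup G) [M.Normal] [N.Normal]
    (hM : M ≠ ⊥) (hdis : M ⊓ N = ⊥)
    (hMt : MulAction.IsPretransitive M α) (hNt : MulAction.IsPretransitive N α) :
    (∀ a : α, MulAction.stabilizer M a = ⊥) ∧
    Subgroup.centralizer ((M.map G.subtype : Subgroup (Equiv.Perm α)) : Set (Equiv.Perm α))
      = N.map G.subtype := by
  set M' : Subgroup (Equiv.Perm α) := M.map G.subtype with hM'
  set N' : Subgroup (Equiv.Perm α) := N.map G.subtype with hN'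
  have htrM : ∀ a b : α, ∃ t ∈ M', t a = b := by
    intro a b
    obtain ⟨m, hm⟩ := hMt.exists_smul_eq a b
    exact ⟨((m : G) : Equiv.Perm α), ⟨(m : G), m.2, rfl⟩, hm⟩
  have htrN : ∀ a b : α, ∃ t ∈ N', t a = b := by
    intro a b
    obtain ⟨m, hm⟩ := hNt.exists_smul_eq a b
    exact ⟨((m : G) : Equiv.Perm α), ⟨(m : G), m.2, rfl⟩, hm⟩
  have hd : Disjoint M N := disjoint_iff.mpr hdis
  have hcomm : ∀ x ∈ M', ∀ y ∈ N', x * y = y * x := by
    rintro x ⟨g, hg, rfl⟩ y ⟨g', hg', rfl⟩
    have := Subgroup.commute_of_normal_of_disjoint M N inferInstance inferInstance hd g g' hg hg'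
    exact congrArg (G.subtype) this.eq
  have hNle : N' ≤ Subgroup.centralizer (M' : Set (Equiv.Perm α)) := by
    intro y hy x hx
    exact hcomm x hx y hy
  have hMle : M' ≤ Subgroup.centralizer (N' : Set (Equiv.Perm α)) := by
    intro x hx y hy
    exact (hcomm x hx y hy).symm
  have hne : Nonempty α := by
    by_contra hemp
    rw [not_nonempty_iff] at hemp
    apply hM
    rw [eq_bot_iff]
    intro m hm
    rw [Subgroup.mem_bot]
    apply Subtype.ext
    ext x
    exact (hemp.false x).elim
  obtain ⟨a0⟩ := hne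
  refine ⟨?_, ?_⟩
  · intro a
    rw [eq_bot_iff]
    intro m hm
    rw [Subgroup.mem_bot]
    have h1 : ((m : G) : Equiv.Perm α) = 1 :=
      cent_fix N' htrN _ (hMle ⟨(m : G), m.2, rfl⟩) a hm
    apply Subtype.ext; apply Subtype.ext; exact h1
  · apply le_antisymm _ hNle
    intro c hc
    obtain ⟨t, ht, hta⟩ := htrN a0 (c a0)
    have h1 : t⁻¹ * c = 1 := by
      apply cent_fix M' htrM (t⁻¹ * c) (Subgroup.mul_mem _ (Subgroup.inv_mem _ (hNle ht)) hc) a0
      rw [Equiv.Perm.mul_apply, ← hta]; exact t.symm_apply_apply a0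
    have h2 : c = t := by rw [inv_mul_eq_one] at h1; exact h1.symm
    rw [h2]; exact ht

theorem map_le_map_subtype {α : Type*} (G : Subgroup (Equiv.Perm α)) (L N : Subgroup G)
    (h : L.map G.subtype ≤ N.map G.subtype) : L ≤ N := by
  intro l hl
  obtain ⟨g, hg, hgl⟩ := h ⟨l, hl, rfl⟩
  have : g = l := Subtype.ext hgl
  rw [← this]; exact hg

/-- Two distinct transitive minimal normal subgroups `M`, `N` of a permutation group are regular, non-abelian, isomorphic, each other's centraliser in the symmetric group, and the only minimal normal subgroups. -/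
theorem result {α : Type*} (G : Subgroup (Equiv.Perm α)) (M N : Subgroup G) [M.Normal] [N.Normal] (hM : M ≠ ⊥) (hN : N ≠ ⊥) (hMmin : ∀ L : Subgroup G, L.Normal → L ≤ M → L = ⊥ ∨ L = M) (hNmin : ∀ L : Subgroup G, L.Normal → L ≤ N → L = ⊥ ∨ L = N) (hMN : M ≠ N) (hMt : MulAction.IsPretransitive M α) (hNt : MulAction.IsPretransitive N α) : (∀ a : α, MulAction.stabilizer M a = ⊥) ∧ (∀ a : α, MulAction.stabilizer N a = ⊥) ∧ ¬ IsMulCommutative M ∧ Nonempty (M ≃* N) ∧ Subgroup.centralizer ((M.map G.subtype : Subgroup (Equiv.Perm α)) : Set (Equiv.Perm α)) = N.map G.subtype ∧ Subgroup.centralizer ((N.map G.subtype : Subgroup (Equiv.Perm α)) : Set (Equiv.Perm α)) = M.map G.subtype ∧ ∀ L : Subgroup G, L.Normal → L ≠ ⊥ → (∀ L' : Subgroup G, L'.Normal → L' ≤ L → L' = ⊥ ∨ L' = L) → L = M ∨ L = N := by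
  classical
  have hdis : M ⊓ N = ⊥ := by
    rcases hMmin (M ⊓ N) inferInstance inf_le_left with h | h
    · exact h
    · exfalso
      have hMN' : M ≤ N := by rw [← h]; exact inf_le_right
      rcases hNmin M inferInstance hMN' with h' | h'
      · exact hM h'
      · exact hMN h'
  have hdis' : N ⊓ M = ⊥ := by rw [inf_comm]; exact hdis
  obtain ⟨hregM, hcentM⟩ := half G M N hM hdis hMt hNt
  obtain ⟨hregN, hcentN⟩ := half G N M hN hdis' hNt hMt
  have hne : Nonempty α := by
    by_contra hemp
    rw [not_nonempty_iff] at hemp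
    apply hM
    rw [eq_bot_iff]
    intro m hm
    rw [Subgroup.mem_bot]
    apply Subtype.ext
    ext x
    exact (hemp.false x).elim
  obtain ⟨a0⟩ := hne
  have hd : Disjoint M N := disjoint_iff.mpr hdis
  have hcomm : ∀ (m : M) (n : N) (a : α), m • (n • a) = n • (m • a) := by
    intro m n a
    have := Subgroup.commute_of_normal_of_disjoint M N inferInstance inferInstance hd m n m.2 n.2
    have h2 := congrArg (fun g : G => (g : Equiv.Perm α) a) this.eq
    exact h2
  have hinjM : ∀ m m' : M, m • a0 = m' • a0 → m = m' := by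
    intro m m' h
    have : m⁻¹ * m' ∈ MulAction.stabilizer M a0 := by
      rw [MulAction.mem_stabilizer_iff, mul_smul, ← h, inv_smul_smul]
    rw [hregM a0, Subgroup.mem_bot] at this
    exact inv_mul_eq_one.mp this
  have hinjN : ∀ n n' : N, n • a0 = n' • a0 → n = n' := by
    intro m m' h
    have : m⁻¹ * m' ∈ MulAction.stabilizer N a0 := by
      rw [MulAction.mem_stabilizer_iff, mul_smul, ← h, inv_smul_smul]
    rw [hregN a0, Subgroup.mem_bot] at this
    exact inv_mul_eq_one.mp this
  refine ⟨hregM, hregN, ?_, ?_, hcentM, hcentN, ?_⟩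
  · intro hab
    have hle : M.map G.subtype ≤ Subgroup.centralizer ((M.map G.subtype : Subgroup (Equiv.Perm α)) : Set (Equiv.Perm α)) := by
      rintro x ⟨g, hg, rfl⟩ y ⟨g', hg', rfl⟩
      have := setLike_mul_comm (s := M) hg' hg
      exact congrArg (G.subtype) this
    rw [hcentM] at hle
    have hMN' : M ≤ N := map_le_map_subtype G M N hle
    have : M ⊓ N = M := inf_eq_left.mpr hMN'
    rw [hdis] at this
    exact hM this.symm
  · have hex : ∀ m : M, ∃ n : N, n • a0 = m⁻¹ • a0 := fun m => hNt.exists_smul_eq a0 (m⁻¹ • a0)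
    choose φ hφ using hex
    have hmul : ∀ m1 m2 : M, φ (m1 * m2) = φ m1 * φ m2 := by
      intro m1 m2
      apply hinjN
      rw [hφ, mul_smul, hφ, mul_inv_rev, mul_smul, ← hcomm, hφ]
    let f : M →* N := MonoidHom.mk' φ hmul
    have hbij : Function.Bijective f := by
      refine ⟨?_, ?_⟩
      · intro m m' h
        have h' : φ m = φ m' := h
        have h2 : m⁻¹ • a0 = m'⁻¹ • a0 := by rw [← hφ m, ← hφ m', h']
        have := hinjM _ _ h2
        exact inv_injective this
      · intro n
        obtain ⟨m', hm'⟩ := hMt.exists_smul_eq a0 (n • a0)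
        refine ⟨m'⁻¹, ?_⟩
        apply hinjN
        change φ m'⁻¹ • a0 = n • a0
        rw [hφ, inv_inv, hm']
    exact ⟨MulEquiv.ofBijective f hbij⟩
  · intro L hLn hLne hLmin
    rcases hMmin (L ⊓ M) inferInstance inf_le_right with h | h
    · rcases hNmin (L ⊓ N) inferInstance inf_le_right with h' | h'
      · exfalso
        apply hLne
        have hLle : L.map G.subtype ≤ Subgroup.centralizer ((M.map G.subtype : Subgroup (Equiv.Perm α)) : Set (Equiv.Perm α)) := by
          rintro x ⟨l, hl, rfl⟩ y ⟨g, hg, rfl⟩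
          have hd' : Disjoint L M := disjoint_iff.mpr h
          have := Subgroup.commute_of_normal_of_disjoint L M hLn inferInstance hd' l g hl hg
          exact congrArg (G.subtype) this.eq.symm
        rw [hcentM] at hLle
        have hLN : L ≤ N := map_le_map_subtype G L N hLle
        have : L ⊓ N = L := inf_eq_left.mpr hLN
        rw [h'] at this
        exact this.symm
      · right
        have hNL : N ≤ L := by rw [← h']; exact inf_le_left
        rcases hLmin N inferInstance hNL with h'' | h''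
        · exact absurd h'' hN
        · exact h''.symm
    · left
      have hML : M ≤ L := by rw [← h]; exact inf_le_left
      rcases hLmin M inferInstance hML with h'' | h''
      · exact absurd h'' hM
      · exact h''.symm

end Cfsg.Agent.S0704
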