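import Cfsg.Statements.S0705
import Mathlib

set_option autoImplicit false
open scoped Pointwise
open Cfsg

namespace Cfsg.Agent.S0705

theorem swap_exists {α : Type*} [Fintype α] [DecidableEq α] (G : Subgroup (Equiv.Perm α)) {k : ℕ}
    (hk : k < Fintype.card α)
    (hgen : ∀ s : Finset α, s.card = k + 1 → ∀ σ : Equiv.Perm ↥s, ∃ g ∈ G, ∀ x : ↥s, g (x : α) = σ x)
    (t : Finset α) (ht : t.card ≤ k + 1) (u v : α) (hu : u ∈ t) (hv : v ∈ t) :
    ∃ g ∈ G, g u = v ∧ g v = u ∧ ∀ x ∈ t, x ≠ u → x ≠ v → g x = x := by
  obtain ⟨s, hts, hs⟩ := Finset.exists_superset_card_eq ht (Nat.succ_le_of_lt hk)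
  obtain ⟨g, hg, hgs⟩ := hgen s hs (Equiv.swap ⟨u, hts hu⟩ ⟨v, hts hv⟩)
  refine ⟨g, hg, ?_, ?_, ?_⟩
  · have := hgs ⟨u, hts hu⟩; rw [Equiv.swap_apply_left] at this; exact this
  · have := hgs ⟨v, hts hv⟩; rw [Equiv.swap_apply_right] at this; exact this
  · intro x hx hxu hxv
    have := hgs ⟨x, hts hx⟩
    rw [Equiv.swap_apply_of_ne_of_ne] at this
    · exact this
    · intro h; exact hxu (congrArg Subtype.val h)
    · intro h; exact hxv (congrArg Subtype.val h)

theorem trans_aux {α : Type*} [Fintype α] [DecidableEq α] (G : Subgroup (Equiv.Perm α)) {k : ℕ}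
    (hk : k < Fintype.card α)
    (hgen : ∀ s : Finset α, s.card = k + 1 → ∀ σ : Equiv.Perm ↥s, ∃ g ∈ G, ∀ x : ↥s, g (x : α) = σ x)
    (x y : Fin k ↪ α) (m : ℕ) (hm : m ≤ k) :
    ∃ g ∈ G, ∀ i : Fin k, i.val < m → g (x i) = y i := by
  induction m with
  | zero => exact ⟨1, G.one_mem, fun i hi => absurd hi (Nat.not_lt_zero _)⟩
  | succ m ih =>
    obtain ⟨g, hg, hgi⟩ := ih (Nat.le_of_succ_le hm)
    let j : Fin k := ⟨m, hm⟩
    by_cases hz : g (x j) = y j
    · refine ⟨g, hg, fun i hi => ?_⟩
      rcases Nat.lt_succ_iff_lt_or_eq.mp hi with h | h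
      · exact hgi i h
      · have : i = j := Fin.ext h
        rw [this]; exact hz
    · let t : Finset α := insert (g (x j)) ((Finset.univ.filter (fun i : Fin k => i.val ≤ m)).image y)
      have hcard : t.card ≤ k + 1 := by
        have h1 : ((Finset.univ.filter (fun i : Fin k => i.val ≤ m)).image y).card ≤ m + 1 := by
          refine le_trans Finset.card_image_le ?_
          have : (Finset.univ.filter (fun i : Fin k => i.val ≤ m)) ⊆
              (Finset.range (m + 1)).attachFin (fun n hn => by
                have := Finset.mem_range.mp hn; omega) := by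
            intro i hi
            rw [Finset.mem_attachFin, Finset.mem_range]
            have := (Finset.mem_filter.mp hi).2
            omega
          refine le_trans (Finset.card_le_card this) ?_
          rw [Finset.card_attachFin, Finset.card_range]
        refine le_trans (Finset.card_insert_le _ _) ?_
        omega
      have hu : g (x j) ∈ t := Finset.mem_insert_self _ _
      have hyt : ∀ i : Fin k, i.val ≤ m → y i ∈ t := by
        intro i hi
        apply Finset.mem_insert_of_mem
        exact Finset.mem_image_of_mem y (Finset.mem_filter.mpr ⟨Finset.mem_univ _, hi⟩)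
      have hv : y j ∈ t := hyt j (le_refl m)
      obtain ⟨h, hh, hh1, hh2, hh3⟩ := swap_exists G hk hgen t hcard (g (x j)) (y j) hu hv
      refine ⟨h * g, G.mul_mem hh hg, fun i hi => ?_⟩
      rw [Equiv.Perm.mul_apply]
      rcases Nat.lt_succ_iff_lt_or_eq.mp hi with hlt | heq
      · rw [hgi i hlt]
        have hij : i ≠ j := fun e => by
          have := congrArg Fin.val e
          simp only [j] at this
          omega
        apply hh3 _ (hyt i (le_of_lt hlt))
        · rw [← hgi i hlt]
          intro e
          exact hij (x.injective (g.injective e))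
        · intro e
          exact hij (y.injective e)
      · have : i = j := Fin.ext heq
        rw [this]; exact hh1

/-- A generously `k`-transitive permutation group (every `(k+1)`-subset has its full symmetric group induced by the setwise stabiliser) of degree greater than `k` is `k`-transitive, and for a `k`-subset the setwise and pointwise stabilisers have the same orbits outside it. -/
theorem result {α : Type*} [Fintype α] [DecidableEq α] (G : Subgroup (Equiv.Perm α)) {k : ℕ} (hk : k < Fintype.card α) (hgen : ∀ s : Finset α, s.card = k + 1 → ∀ σ : Equiv.Perm ↥s, ∃ g ∈ G, ∀ x : ↥s, g (x : α) = σ x) : MulAction.IsMultiplyPretransitive G α k ∧ ∀ s : Finset α, s.card = k → ∀ a b : α, a ∉ s → b ∉ s → (∃ g ∈ G, g • s = s ∧ g a = b) → ∃ g ∈ G, (∀ x ∈ s, g x = x) ∧ g a = b := by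
  refine ⟨?_, ?_⟩
  · constructor
    intro x y
    obtain ⟨g, hg, hgi⟩ := trans_aux G hk hgen x y k (le_refl k)
    refine ⟨⟨g, hg⟩, ?_⟩
    ext i
    exact hgi i i.2
  · rintro s hs a b ha hb ⟨g, hg, hgs, hgab⟩
    have hgmem : ∀ x ∈ s, g x ∈ s := by
      intro x hx
      have : g x ∈ g • s := Finset.smul_mem_smul_finset hx
      rwa [hgs] at this
    have hginv : ∀ x ∈ s, g⁻¹ x ∈ s := by
      intro x hx
      rw [← hgs] at hx
      obtain ⟨y, hy, rfl⟩ := Finset.mem_smul_finset.mp hx
      have : g⁻¹ (g • y) = y := by
        change g⁻¹ (g y) = y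
        exact g.symm_apply_apply y
      rw [this]; exact hy
    let f : Equiv.Perm α := Equiv.swap a b * g⁻¹
    have hfs : ∀ x ∈ s, f x = g⁻¹ x := by
      intro x hx
      change Equiv.swap a b (g⁻¹ x) = g⁻¹ x
      apply Equiv.swap_apply_of_ne_of_ne
      · intro e; exact ha (e ▸ hginv x hx)
      · intro e; exact hb (e ▸ hginv x hx)
    have hfb : f b = b := by
      change Equiv.swap a b (g⁻¹ b) = b
      have : g⁻¹ b = a := by
        rw [← hgab]; exact g.symm_apply_apply a
      rw [this, Equiv.swap_apply_left]
    have hf : ∀ x, f x ∈ insert b s ↔ x ∈ insert b s := by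
      intro x
      constructor
      · intro hx
        rcases Finset.mem_insert.mp hx with h | h
        · have : x = b := f.injective (h.trans hfb.symm)
          rw [this]; exact Finset.mem_insert_self _ _
        · have h1 : f (g (f x)) = f x := by
            rw [hfs _ (hgmem _ h)]
            exact g.symm_apply_apply _
          have : g (f x) = x := f.injective h1
          rw [← this]
          exact Finset.mem_insert_of_mem (hgmem _ h)
      · intro hx
        rcases Finset.mem_insert.mp hx with h | h
        · rw [h, hfb]; exact Finset.mem_insert_self _ _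
        · rw [hfs x h]; exact Finset.mem_insert_of_mem (hginv x h)
    have hcard : (insert b s).card = k + 1 := by
      rw [Finset.card_insert_of_notMem hb, hs]
    obtain ⟨g', hg', hg's⟩ := hgen (insert b s) hcard (Equiv.Perm.subtypePerm f hf)
    refine ⟨g' * g, G.mul_mem hg' hg, ?_, ?_⟩
    · intro x hx
      rw [Equiv.Perm.mul_apply]
      have := hg's ⟨g x, Finset.mem_insert_of_mem (hgmem x hx)⟩
      rw [Equiv.Perm.subtypePerm_apply] at this
      simp only at this
      rw [this, hfs _ (hgmem x hx)]
      exact g.symm_apply_apply x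
    · rw [Equiv.Perm.mul_apply, hgab]
      have := hg's ⟨b, Finset.mem_insert_self _ _⟩
      rw [Equiv.Perm.subtypePerm_apply] at this
      simp only at this
      rw [this, hfb]

end Cfsg.Agent.S0705
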