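import Cfsg.Statements.S0706
import Mathlib

set_option autoImplicit false
open Cfsg

namespace Cfsg.Agent.S0706

open MulAction
open scoped Pointwise

universe u v

/-- generosity hypothesis in abstract form -/
def Gen (G : Type u) (α : Type v) [Group G] [MulAction G α] (k : ℕ) : Prop :=
  ∀ s : Finset α, s.card = k + 1 → ∀ σ : Equiv.Perm ↥s, ∃ g : G, ∀ x : ↥s, g • (x : α) = σ x

section

variable {G : Type u} {α : Type v} [Group G] [MulAction G α] [DecidableEq α]

theorem gen' {k : ℕ} (hgen : Gen G α k) (s : Finset α) (hs : s.card = k + 1) (φ : α → α)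
    (hφs : ∀ x ∈ s, φ x ∈ s) (hφi : Set.InjOn φ (s : Set α)) :
    ∃ g : G, ∀ x ∈ s, g • x = φ x := by
  let ψ : ↥s → ↥s := fun x => ⟨φ x, hφs x x.2⟩
  have hψ : Function.Injective ψ := fun x y h =>
    Subtype.ext (hφi x.2 y.2 (congrArg Subtype.val h))
  obtain ⟨g, hg⟩ := hgen s hs (Equiv.ofBijective ψ (Finite.injective_iff_bijective.mp hψ))
  exact ⟨g, fun x hx => hg ⟨x, hx⟩⟩

theorem gen_swap {k : ℕ} (hgen : Gen G α k) (s : Finset α) (hs : s.card = k + 1) (x y : α)
    (hx : x ∈ s) (hy : y ∈ s) :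
    ∃ g : G, g • x = y ∧ g • y = x ∧ ∀ z ∈ s, z ≠ x → z ≠ y → g • z = z := by
  obtain ⟨g, hg⟩ := gen' hgen s hs (Equiv.swap x y) (by
      intro z hz
      rw [Equiv.swap_apply_def]
      split_ifs <;> assumption) ((Equiv.swap x y).injective.injOn)
  refine ⟨g, ?_, ?_, ?_⟩
  · rw [hg x hx, Equiv.swap_apply_left]
  · rw [hg y hy, Equiv.swap_apply_right]
  · intro z hz hzx hzy
    rw [hg z hz, Equiv.swap_apply_of_ne_of_ne hzx hzy]

theorem mem_iff_of_maps (Γ : Finset α) (g : G) (h : ∀ y ∈ Γ, g • y ∈ Γ) :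
    ∀ y, y ∈ Γ ↔ g • y ∈ Γ := by
  have himg : Γ.image (fun y => g • y) = Γ := by
    apply Finset.eq_of_subset_of_card_le
    · intro z hz
      obtain ⟨y, hy, rfl⟩ := Finset.mem_image.mp hz
      exact h y hy
    · rw [Finset.card_image_of_injective _ (MulAction.injective g)]
  intro y
  refine ⟨h y, fun hy => ?_⟩
  rw [← himg] at hy
  obtain ⟨z, hz, hzy⟩ := Finset.mem_image.mp hy
  rwa [← MulAction.injective g hzy]

theorem homog {k : ℕ} (hgen : Gen G α k) : ∀ (m : ℕ) (A B : Finset α), A.card = k → B.card = k →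
    (A \ B).card = m → ∃ g : G, A.image (fun x => g • x) = B := by
  intro m
  induction m with
  | zero =>
    intro A B hA hB hAB
    refine ⟨1, ?_⟩
    have hsub : A ⊆ B := by
      rw [Finset.card_eq_zero, Finset.sdiff_eq_empty_iff_subset] at hAB
      exact hAB
    have : A = B := Finset.eq_of_subset_of_card_le hsub (by omega)
    simp [this]
  | succ m ih =>
    intro A B hA hB hAB
    obtain ⟨x, hx⟩ : (A \ B).Nonempty := Finset.card_pos.mp (by omega)
    have hBA : (B \ A).card = m + 1 := by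
      have h1 := Finset.card_sdiff_add_card_inter A B
      have h2 := Finset.card_sdiff_add_card_inter B A
      rw [Finset.inter_comm] at h2
      omega
    obtain ⟨y, hy⟩ : (B \ A).Nonempty := Finset.card_pos.mp (by omega)
    rw [Finset.mem_sdiff] at hx hy
    have hxy : x ≠ y := by
      rintro rfl
      exact hx.2 hy.1
    have hs : (insert y A).card = k + 1 := by rw [Finset.card_insert_of_notMem hy.2, hA]
    obtain ⟨g, hgx, hgy, hgz⟩ := gen_swap hgen (insert y A) hs x y
      (Finset.mem_insert_of_mem hx.1) (Finset.mem_insert_self _ _)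
    have hA' : A.image (fun z => g • z) = insert y (A.erase x) := by
      ext z
      simp only [Finset.mem_image, Finset.mem_insert, Finset.mem_erase]
      constructor
      · rintro ⟨w, hw, rfl⟩
        by_cases hwx : w = x
        · left
          rw [hwx, hgx]
        · right
          have hwy : w ≠ y := by
            rintro rfl
            exact hy.2 hw
          rw [hgz w (Finset.mem_insert_of_mem hw) hwx hwy]
          exact ⟨hwx, hw⟩
      · rintro (rfl | ⟨hzx, hz⟩)
        · exact ⟨x, hx.1, hgx⟩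
        · have hzy : z ≠ y := by
            rintro rfl
            exact hy.2 hz
          exact ⟨z, hz, hgz z (Finset.mem_insert_of_mem hz) hzx hzy⟩
    have hA'card : (A.image (fun z => g • z)).card = k := by
      rw [Finset.card_image_of_injective _ (MulAction.injective g), hA]
    have hdiff : (A.image (fun z => g • z) \ B).card = m := by
      have : A.image (fun z => g • z) \ B = (A \ B).erase x := by
        rw [hA']
        ext z
        simp only [Finset.mem_sdiff, Finset.mem_insert, Finset.mem_erase]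
        constructor
        · rintro ⟨(rfl | ⟨hzx, hz⟩), hzB⟩
          · exact absurd hy.1 hzB
          · exact ⟨hzx, hz, hzB⟩
        · rintro ⟨hzx, hz, hzB⟩
          exact ⟨Or.inr ⟨hzx, hz⟩, hzB⟩
      rw [this, Finset.card_erase_of_mem (Finset.mem_sdiff.mpr hx), hAB]
      rfl
    obtain ⟨g', hg'⟩ := ih _ B hA'card hB hdiff
    refine ⟨g' * g, ?_⟩
    rw [← hg', Finset.image_image]
    congr 1
    ext z
    simp [mul_smul]

set_option maxHeartbeats 1000000 in
theorem main [Finite G] {k : ℕ} (hgen : Gen G α k)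
    {p : ℕ} (hp : p.Prime) (hpk : p ≤ k) (Γ : Finset α) (hΓ : Γ.card = k) (f : Fin p → α)
    (hf : ∀ i, f i ∉ Γ)
    (hdist : ∀ i j, i ≠ j → f j ∉ orbit (fixingSubgroup G (Γ : Set α)) (f i)) :
    ∃ i, p ∣ Nat.card (orbit (fixingSubgroup G (Γ : Set α)) (f i)) := by
  by_contra hcon
  push Not at hcon
  haveI : Fact p.Prime := ⟨hp⟩
  set K := fixingSubgroup G (Γ : Set α) with hK
  have hKmem : ∀ g : G, g ∈ K ↔ ∀ y ∈ Γ, g • y = y := fun g => by
    rw [hK, mem_fixingSubgroup_iff]
    rfl
  obtain ⟨Γ₁, hΓ₁sub, hΓ₁card⟩ := Finset.exists_subset_card_eq (hΓ ▸ hpk : p ≤ Γ.card)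
  let M : Subgroup G :=
    { carrier := {g | (∀ y ∈ Γ \ Γ₁, g • y = y) ∧ ∀ y, y ∈ Γ ↔ g • y ∈ Γ}
      mul_mem' := by
        rintro a b ⟨ha1, ha2⟩ ⟨hb1, hb2⟩
        refine ⟨fun y hy => by rw [mul_smul, hb1 y hy, ha1 y hy], fun y => ?_⟩
        rw [mul_smul, hb2 y, ha2 (b • y)]
      one_mem' := ⟨fun y _ => one_smul _ y, fun y => by rw [one_smul]⟩
      inv_mem' := by
        rintro a ⟨ha1, ha2⟩
        refine ⟨fun y hy => by rw [inv_smul_eq_iff, ha1 y hy], fun y => ?_⟩
        rw [ha2 (a⁻¹ • y), smul_inv_smul] }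
  have hMmem : ∀ g : G, g ∈ M ↔ ((∀ y ∈ Γ \ Γ₁, g • y = y) ∧ ∀ y, y ∈ Γ ↔ g • y ∈ Γ) :=
    fun g => Iff.rfl
  have hKM : K ≤ M := by
    intro g hg
    rw [hKmem] at hg
    rw [hMmem]
    refine ⟨fun y hy => hg y (Finset.mem_sdiff.mp hy).1, mem_iff_of_maps Γ g ?_⟩
    intro y hy
    rw [hg y hy]
    exact hy
  -- each orbit is `M`-invariant
  have hinv : ∀ m ∈ M, ∀ i : Fin p, ∀ y ∈ orbit K (f i), m • y ∈ orbit K (f i) := by
    rintro m hm i y ⟨⟨κ, hκ⟩, rfl⟩
    obtain ⟨hm1, hm2⟩ := (hMmem m).mp hm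
    have hs : (insert (f i) Γ).card = k + 1 := by
      rw [Finset.card_insert_of_notMem (hf i), hΓ]
    obtain ⟨g, hg⟩ := gen' hgen (insert (f i) Γ) hs (fun z => if z ∈ Γ then m • z else z) (by
        intro z hz
        by_cases hzΓ : z ∈ Γ
        · simp only [hzΓ, if_true]
          exact Finset.mem_insert_of_mem ((hm2 z).mp hzΓ)
        · simp only [hzΓ, if_false]
          exact hz) (by
        intro z hz w hw hzw
        simp only at hzw
        by_cases hzΓ : z ∈ Γ <;> by_cases hwΓ : w ∈ Γ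
        · simp only [hzΓ, hwΓ, if_true] at hzw
          exact MulAction.injective m hzw
        · simp only [hzΓ, hwΓ, if_true, if_false] at hzw
          exact absurd (hzw ▸ (hm2 z).mp hzΓ) hwΓ
        · simp only [hzΓ, hwΓ, if_true, if_false] at hzw
          exact absurd (hzw ▸ (hm2 w).mp hwΓ) hzΓ
        · simp only [hzΓ, hwΓ, if_false] at hzw
          exact hzw)
    have hgf : g • f i = f i := by
      have := hg (f i) (Finset.mem_insert_self _ _)
      simpa [hf i] using this
    have hgΓ : ∀ z ∈ Γ, g • z = m • z := by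
      intro z hz
      have := hg z (Finset.mem_insert_of_mem hz)
      simpa [hz] using this
    have hmem : m * κ * g⁻¹ ∈ K := by
      rw [hKmem]
      intro z hz
      have hz' : m⁻¹ • z ∈ Γ := by
        rw [hm2 (m⁻¹ • z), smul_inv_smul]
        exact hz
      have h1 : g⁻¹ • z = m⁻¹ • z := by
        rw [inv_smul_eq_iff, hgΓ _ hz', smul_inv_smul]
      rw [mul_smul, mul_smul, h1, (hKmem κ).mp hκ _ hz', smul_inv_smul]
    refine ⟨⟨m * κ * g⁻¹, hmem⟩, ?_⟩
    show (m * κ * g⁻¹) • f i = m • (κ • f i)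
    rw [mul_smul, mul_smul]
    congr 2
    rw [inv_smul_eq_iff, hgf]
  -- a Sylow subgroup of `M` and its fixed points
  obtain ⟨S⟩ : Nonempty (Sylow p M) := inferInstance
  have hfixpt : ∀ i : Fin p, ∃ y ∈ orbit K (f i), ∀ s : M, s ∈ S → (s : G) • y = y := by
    intro i
    let D : SubMulAction (↥(S : Subgroup M)) α :=
      { carrier := orbit K (f i)
        smul_mem' := fun s y hy => hinv ((s : M) : G) (s : M).2 i y hy }
    have hcard : ¬ p ∣ Nat.card D := hcon i
    obtain ⟨⟨y, hy⟩, hfix⟩ := S.isPGroup'.nonempty_fixed_point_of_prime_not_dvd_card D hcard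
    refine ⟨y, hy, fun s hs => ?_⟩
    have := hfix ⟨s, hs⟩
    exact congrArg Subtype.val this
  choose δ hδmem hδfix using hfixpt
  have hδnotΓ : ∀ i, δ i ∉ Γ := by
    intro i hi
    obtain ⟨⟨κ, hκ⟩, hκy⟩ := hδmem i
    have h1 : κ • f i = δ i := hκy
    have h2 : κ • δ i = δ i := (hKmem κ).mp hκ _ hi
    have : f i = δ i := MulAction.injective κ (h1.trans h2.symm)
    exact hf i (this ▸ hi)
  have hδinj : Function.Injective δ := by
    intro i j hij
    by_contra hne
    apply hdist i j hne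
    have h1 : orbit K (δ i) = orbit K (f i) := orbit_eq_iff.mpr (hδmem i)
    have h2 : orbit K (δ j) = orbit K (f j) := orbit_eq_iff.mpr (hδmem j)
    rw [← h1, hij, h2]
    exact mem_orbit_self _
  let Γ' : Finset α := (Γ \ Γ₁) ∪ Finset.univ.image δ
  have hΓ'card : Γ'.card = k := by
    have hdisj : Disjoint (Γ \ Γ₁) (Finset.univ.image δ) := by
      rw [Finset.disjoint_left]
      intro z hz hz'
      obtain ⟨i, -, rfl⟩ := Finset.mem_image.mp hz'
      exact hδnotΓ i (Finset.mem_sdiff.mp hz).1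
    rw [Finset.card_union_of_disjoint hdisj, Finset.card_sdiff_of_subset hΓ₁sub,
      Finset.card_image_of_injective _ hδinj, Finset.card_univ, Fintype.card_fin, hΓ, hΓ₁card]
    omega
  obtain ⟨g, hg⟩ := homog hgen _ Γ Γ' hΓ hΓ'card rfl
  have hcardK' : Nat.card (fixingSubgroup G (Γ' : Set α)) = Nat.card K := by
    have : (Γ' : Set α) = g • (Γ : Set α) := by
      rw [← hg, Finset.coe_image, Set.image_smul]
    rw [this, SubMulAction.fixingSubgroup_smul_eq_fixingSubgroup_map_conj,
      Subgroup.card_map_of_injective (MulAut.conj g).injective]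
  have hSle : ∀ s : M, s ∈ S → (s : G) ∈ fixingSubgroup G (Γ' : Set α) := by
    intro s hs
    rw [mem_fixingSubgroup_iff]
    intro y hy
    rcases Finset.mem_union.mp (Finset.mem_coe.mp hy) with h | h
    · exact ((hMmem (s : G)).mp s.2).1 y h
    · obtain ⟨i, -, rfl⟩ := Finset.mem_image.mp h
      exact hδfix i s hs
  have hSdvd : Nat.card S ∣ Nat.card K := by
    rw [← hcardK']
    let φ : ↥(S : Subgroup M) →* ↥(fixingSubgroup G (Γ' : Set α)) :=
      { toFun := fun s => ⟨((s : M) : G), hSle s s.2⟩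
        map_one' := rfl
        map_mul' := fun _ _ => rfl }
    apply Subgroup.card_dvd_of_injective φ
    intro a b hab
    apply Subtype.ext
    apply Subtype.ext
    exact congrArg (fun z : fixingSubgroup G (Γ' : Set α) => (z : G)) hab
  -- the index computation
  have hΓ₁ne : Γ₁.Nonempty := Finset.card_pos.mp (by rw [hΓ₁card]; exact hp.pos)
  obtain ⟨γ₁, hγ₁⟩ := hΓ₁ne
  have horb : orbit M γ₁ = (Γ₁ : Set α) := by
    ext y
    constructor
    · rintro ⟨m, rfl⟩
      obtain ⟨hm1, hm2⟩ := (hMmem (m : G)).mp m.2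
      have hmΓ : (m : G) • γ₁ ∈ Γ := (hm2 γ₁).mp (hΓ₁sub hγ₁)
      by_contra hnot
      have hmem : (m : G) • γ₁ ∈ Γ \ Γ₁ := Finset.mem_sdiff.mpr ⟨hmΓ, hnot⟩
      have h1 := hm1 _ hmem
      have h2 : (m : G) • γ₁ = γ₁ := MulAction.injective (m : G) h1
      apply hnot
      show (m : G) • γ₁ ∈ Γ₁
      rw [h2]
      exact hγ₁
    · intro hy
      have hy : y ∈ Γ₁ := hy
      by_cases hyγ : y = γ₁
      · rw [hyγ]
        exact mem_orbit_self _
      have i0 : Fin p := ⟨0, hp.pos⟩
      have hs : (insert (f i0) Γ).card = k + 1 := by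
        rw [Finset.card_insert_of_notMem (hf i0), hΓ]
      obtain ⟨g, hg1, hg2, hg3⟩ := gen_swap hgen (insert (f i0) Γ) hs γ₁ y
        (Finset.mem_insert_of_mem (hΓ₁sub hγ₁)) (Finset.mem_insert_of_mem (hΓ₁sub hy))
      have hgM : g ∈ M := by
        rw [hMmem]
        refine ⟨?_, mem_iff_of_maps Γ g ?_⟩
        · intro z hz
          rw [Finset.mem_sdiff] at hz
          exact hg3 z (Finset.mem_insert_of_mem hz.1) (by rintro rfl; exact hz.2 hγ₁)
            (by rintro rfl; exact hz.2 hy)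
        · intro z hz
          by_cases h1 : z = γ₁
          · rw [h1, hg1]
            exact hΓ₁sub hy
          by_cases h2 : z = y
          · rw [h2, hg2]
            exact hΓ₁sub hγ₁
          rw [hg3 z (Finset.mem_insert_of_mem hz) h1 h2]
          exact hz
      exact ⟨⟨g, hgM⟩, hg1⟩
  have hidx : (stabilizer M γ₁).index = p := by
    rw [index_stabilizer, horb, Set.ncard_coe_finset, hΓ₁card]
  have hdvd1 : Nat.card K ∣ Nat.card (stabilizer M γ₁) := by
    have hle : K.subgroupOf M ≤ stabilizer M γ₁ := by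
      intro m hm
      rw [mem_stabilizer_iff]
      exact (hKmem (m : G)).mp hm γ₁ (hΓ₁sub hγ₁)
    have := Subgroup.card_dvd_of_le hle
    rwa [Nat.card_congr (Subgroup.subgroupOfEquivOfLe hKM).toEquiv] at this
  have hM : Nat.card (stabilizer M γ₁) * p = Nat.card M := by
    rw [← hidx]
    exact Subgroup.card_mul_index _
  have hK0 : Nat.card K ≠ 0 := Nat.card_pos.ne'
  have h1 : p ^ ((Nat.card K).factorization p + 1) ∣ Nat.card M := by
    rw [← hM, pow_succ]
    exact Nat.mul_dvd_mul ((Nat.ordProj_dvd _ p).trans hdvd1) dvd_rfl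
  have h2 := S.pow_dvd_card_of_pow_dvd_card h1
  exact Nat.pow_succ_factorization_not_dvd hK0 hp (h2.trans hSdvd)

end

/-- In a generously `k`-transitive permutation group, for a prime `p ≤ k` and a `k`-set `Γ`, there are no `p` points outside `Γ` lying in distinct orbits of the pointwise stabiliser of `Γ` all of length prime to `p` (at most `p - 1` such orbits). -/
theorem result {α : Type*} [Fintype α] [DecidableEq α] (G : Subgroup (Equiv.Perm α)) {k : ℕ} (hk : k < Fintype.card α) (hgen : ∀ s : Finset α, s.card = k + 1 → ∀ σ : Equiv.Perm ↥s, ∃ g ∈ G, ∀ x : ↥s, g (x : α) = σ x) {p : ℕ} (hp : p.Prime) (hpk : p ≤ k) (Γ : Finset α) (hΓ : Γ.card = k) (f : Fin p → α) (hf : ∀ i, f i ∉ Γ) (hdist : ∀ i j, i ≠ j → f j ∉ MulAction.orbit (fixingSubgroup G (Γ : Set α)) (f i)) : ∃ i, p ∣ Nat.card (MulAction.orbit (fixingSubgroup G (Γ : Set α)) (f i)) := by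
  refine main (G := G) (k := k) ?_ hp hpk Γ hΓ f hf hdist
  intro s hs σ
  obtain ⟨g, hg, h⟩ := hgen s hs σ
  exact ⟨⟨g, hg⟩, h⟩

end Cfsg.Agent.S0706
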