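import Cfsg.Statements.S0707
import Mathlib

set_option autoImplicit false
open Cfsg

namespace Cfsg.Agent.S0707

open MulAction

theorem prime_card_of_isCoatom_bot {G : Type*} [Group G] (h : IsCoatom (⊥ : Subgroup G)) :
    (Nat.card G).Prime := by
  have hne : (⊥ : Subgroup G) ≠ ⊤ := h.1
  have hnt : Nontrivial G := by
    by_contra hnt
    rw [not_nontrivial_iff_subsingleton] at hnt
    exact hne (Subsingleton.elim _ _)
  have hall : ∀ H : Subgroup G, H = ⊥ ∨ H = ⊤ := by
    intro H
    by_cases hH : H = ⊥
    · exact Or.inl hH
    · exact Or.inr (h.2 H (bot_lt_iff_ne_bot.mpr hH))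
  obtain ⟨g, hg⟩ := exists_ne (1 : G)
  have hz : Subgroup.zpowers g = ⊤ :=
    (hall (Subgroup.zpowers g)).resolve_left (Subgroup.zpowers_ne_bot.2 hg)
  have hcyc : IsCyclic G := ⟨⟨g, (Subgroup.eq_top_iff' _).1 hz⟩⟩
  have hcomm : IsMulCommutative G := inferInstance
  have hsimple : IsSimpleGroup G := ⟨fun H _ => hall H⟩
  exact Group.is_simple_iff_prime_card.mp hsimple

/-- In a primitive permutation group, distinct points have distinct stabilisers unless the group is regular of prime degree. -/
theorem result {α : Type*} (G : Subgroup (Equiv.Perm α)) [MulAction.IsPreprimitive G α] (h : ¬ (Nat.card α).Prime ∨ ∃ a : α, MulAction.stabilizer G a ≠ ⊥) {a b : α} (hab : a ≠ b) : MulAction.stabilizer G a ≠ MulAction.stabilizer G b := by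
  intro heq
  have hnt : Nontrivial α := ⟨⟨a, b, hab⟩⟩
  set B : Set α := {x | MulAction.stabilizer G x = MulAction.stabilizer G a} with hB
  have hconj : ∀ (g : G) (x : α), MulAction.stabilizer G x = MulAction.stabilizer G a →
      MulAction.stabilizer G (g • x) = MulAction.stabilizer G (g • a) := by
    intro g x hx
    rw [MulAction.stabilizer_smul_eq_stabilizer_map_conj, MulAction.stabilizer_smul_eq_stabilizer_map_conj, hx]
  have hblock : MulAction.IsBlock G B := by
    rw [MulAction.isBlock_iff_smul_eq_of_mem]
    intro g x hx hgx
    have hx' : MulAction.stabilizer G x = MulAction.stabilizer G a := hx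
    have hgx' : MulAction.stabilizer G (g • x) = MulAction.stabilizer G a := hgx
    have hga : MulAction.stabilizer G (g • a) = MulAction.stabilizer G a := by
      rw [← hconj g x hx', hgx']
    have hga' : MulAction.stabilizer G (g⁻¹ • a) = MulAction.stabilizer G a := by
      have := hconj g⁻¹ (g • a) hga
      rw [inv_smul_smul] at this
      exact this.symm
    ext y
    constructor
    · rintro ⟨z, hz, rfl⟩
      change MulAction.stabilizer G (g • z) = MulAction.stabilizer G a
      rw [hconj g z hz, hga]
    · intro hy
      refine ⟨g⁻¹ • y, ?_, by simp⟩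
      change MulAction.stabilizer G (g⁻¹ • y) = MulAction.stabilizer G a
      rw [hconj g⁻¹ y hy, hga']
  have huniv : B = Set.univ := by
    rcases (MulAction.IsPreprimitive.isTrivialBlock_of_isBlock hblock) with hsub | huniv
    · exact absurd (hsub (show a ∈ B from rfl) (show b ∈ B from heq.symm)) hab
    · exact huniv
  have hall : ∀ x : α, MulAction.stabilizer G x = MulAction.stabilizer G a := by
    intro x
    have : x ∈ B := by rw [huniv]; trivial
    exact this
  have hbot : MulAction.stabilizer G a = ⊥ := by
    rw [eq_bot_iff]
    intro g hg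
    rw [Subgroup.mem_bot]
    apply Subtype.ext
    ext x
    have hgx : g ∈ MulAction.stabilizer G x := by rw [hall x]; exact hg
    exact hgx
  rcases h with h | ⟨c, hc⟩
  · apply h
    have hco : IsCoatom (MulAction.stabilizer G a) :=
      MulAction.IsPreprimitive.isCoatom_stabilizer_of_isPreprimitive (G := G) a
    rw [hbot] at hco
    have hp := prime_card_of_isCoatom_bot hco
    have hbij : Function.Bijective (fun g : G => g • a) := by
      refine ⟨?_, ?_⟩
      · intro g g' hgg
        have hgg' : g • a = g' • a := hgg
        have : g⁻¹ * g' ∈ MulAction.stabilizer G a := by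
          rw [MulAction.mem_stabilizer_iff, mul_smul, ← hgg', inv_smul_smul]
        rw [hbot, Subgroup.mem_bot] at this
        exact inv_mul_eq_one.mp this
      · intro x
        exact MulAction.exists_smul_eq G a x
    rw [← Nat.card_congr (Equiv.ofBijective _ hbij)]
    exact hp
  · exact hc ((hall c).trans hbot)

end Cfsg.Agent.S0707
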