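import Cfsg.Statements.S0708
import Mathlib

set_option autoImplicit false
open Cfsg

namespace Cfsg.Agent.S0708

open MulAction

universe u v

/-- four pairwise distinct points -/
def D4 {Ω : Type v} (a b c d : Ω) : Prop :=
  a ≠ b ∧ a ≠ c ∧ a ≠ d ∧ b ≠ c ∧ b ≠ d ∧ c ≠ d

theorem inj4 {Ω : Type v} {a b c d : Ω} (h : D4 a b c d) : Function.Injective ![a, b, c, d] := by
  obtain ⟨h1, h2, h3, h4, h5, h6⟩ := h
  intro i j hij
  fin_cases i <;> fin_cases j <;> simp_all

theorem trans4 {G : Type u} {Ω : Type v} [Group G] [MulAction G Ω]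
    (h4 : IsMultiplyPretransitive G Ω 4) {a b c d a' b' c' d' : Ω}
    (h : D4 a b c d) (h' : D4 a' b' c' d') :
    ∃ g : G, g • a = a' ∧ g • b = b' ∧ g • c = c' ∧ g • d = d' := by
  let x : Fin 4 ↪ Ω := ⟨![a, b, c, d], inj4 h⟩
  let y : Fin 4 ↪ Ω := ⟨![a', b', c', d'], inj4 h'⟩
  obtain ⟨g, hg⟩ := h4.exists_smul_eq x y
  refine ⟨g, ?_, ?_, ?_, ?_⟩
  · exact congrArg (fun t : Fin 4 ↪ Ω => t 0) hg
  · exact congrArg (fun t : Fin 4 ↪ Ω => t 1) hg
  · exact congrArg (fun t : Fin 4 ↪ Ω => t 2) hg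
  · exact congrArg (fun t : Fin 4 ↪ Ω => t 3) hg

theorem sharp4 {G : Type u} {Ω : Type v} [Group G] [MulAction G Ω]
    (hsharp : ∀ x : Fin 4 ↪ Ω, stabilizer G x = ⊥) {a b c d : Ω} (h : D4 a b c d) (g : G)
    (ha : g • a = a) (hb : g • b = b) (hc : g • c = c) (hd : g • d = d) : g = 1 := by
  let x : Fin 4 ↪ Ω := ⟨![a, b, c, d], inj4 h⟩
  have hmem : g ∈ stabilizer G x := by
    rw [mem_stabilizer_iff]
    ext i
    fin_cases i
    · exact ha
    · exact hb
    · exact hc
    · exact hd
  rw [hsharp x, Subgroup.mem_bot] at hmem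
  exact hmem

theorem sharp4' {G : Type u} {Ω : Type v} [Group G] [MulAction G Ω]
    (hsharp : ∀ x : Fin 4 ↪ Ω, stabilizer G x = ⊥) {a b c d : Ω} (h : D4 a b c d) (g g' : G)
    (ha : g • a = g' • a) (hb : g • b = g' • b) (hc : g • c = g' • c) (hd : g • d = g' • d) :
    g = g' := by
  have h1 : g'⁻¹ * g = 1 := by
    apply sharp4 hsharp h
    · rw [mul_smul, ha, inv_smul_smul]
    · rw [mul_smul, hb, inv_smul_smul]
    · rw [mul_smul, hc, inv_smul_smul]
    · rw [mul_smul, hd, inv_smul_smul]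
  have h2 : g = g' * (g'⁻¹ * g) := by group
  rw [h2, h1, mul_one]

/-- parity: an involution with exactly three fixed points acts on a set of odd size -/
theorem odd_card {Ω : Type v} [Fintype Ω] [DecidableEq Ω] (σ : Equiv.Perm Ω) (hσ : σ ^ 2 = 1)
    (u v w : Ω) (huv : u ≠ v) (huw : u ≠ w) (hvw : v ≠ w)
    (hfix : ∀ ω, σ ω = ω ↔ (ω = u ∨ ω = v ∨ ω = w)) : ¬ Even (Fintype.card Ω) := by
  have h1 := Equiv.Perm.two_dvd_card_support hσ
  have h2 := Finset.card_add_card_compl σ.support
  have h3 : σ.supportᶜ = {u, v, w} := by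
    ext ω
    simp only [Finset.mem_compl, Equiv.Perm.mem_support, not_not, Finset.mem_insert,
      Finset.mem_singleton]
    exact hfix ω
  have h4 : ({u, v, w} : Finset Ω).card = 3 := Finset.card_eq_three.mpr ⟨u, v, w, huv, huw, hvw, rfl⟩
  rw [h3, h4] at h2
  intro heven
  rw [← h2] at heven
  obtain ⟨m, hm⟩ := h1
  rw [hm] at heven
  rw [Nat.even_add] at heven
  have : Even (2 * m) := even_two_mul m
  have h5 : Even 3 := heven.mp this
  exact absurd h5 (by decide)

theorem mem_T {Ω : Type v} [DecidableEq Ω] (u v w a b : Ω) (ha : a = u ∨ a = v ∨ a = w)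
    (hb : b = u ∨ b = v ∨ b = w) (hab : a ≠ b) :
    (a, b) ∈ (({(u, v), (u, w), (v, u), (v, w), (w, u), (w, v)} : Finset (Ω × Ω)) :
      Set (Ω × Ω)) := by
  simp only [Finset.coe_insert, Finset.coe_singleton, Set.mem_insert_iff,
    Set.mem_singleton_iff, Prod.mk.injEq]
  rcases ha with ha | ha | ha <;> rcases hb with hb | hb | hb <;> subst ha <;> subst hb <;>
    first | exact absurd rfl hab | simp

theorem two_case {Ω : Type v} (u v a b a' b' : Ω) (ha : a = u ∨ a = v) (hb : b = u ∨ b = v)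
    (hab : a ≠ b) (ha' : a' = u ∨ a' = v) (hb' : b' = u ∨ b' = v) (hab' : a' ≠ b')
    (h : a = a') : b = b' := by
  grind

set_option maxHeartbeats 1000000 in
theorem main {G : Type u} {Ω : Type v} [Group G] [MulAction G Ω]
    (h4 : IsMultiplyPretransitive G Ω 4) (hsharp : ∀ x : Fin 4 ↪ Ω, stabilizer G x = ⊥)
    (hne : Nonempty (Fin 4 ↪ Ω)) :
    (Set.univ : Set Ω).encard ≤ 6 ∨ ((Set.univ : Set Ω).encard ≤ 11 ∧
      ∃ x : G, x * x = 1 ∧ ∃ u v w : Ω, u ≠ v ∧ u ≠ w ∧ v ≠ w ∧
        ∀ ω, x • ω = ω ↔ (ω = u ∨ ω = v ∨ ω = w)) := by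
  classical
  obtain ⟨e⟩ := hne
  obtain ⟨p1, p2, p3, p4, hD⟩ : ∃ p1 p2 p3 p4 : Ω, D4 p1 p2 p3 p4 := by
    refine ⟨e 0, e 1, e 2, e 3, ?_, ?_, ?_, ?_, ?_, ?_⟩ <;>
    · intro h
      have := e.injective h
      revert this
      decide
  obtain ⟨h12, h13, h14, h23, h24, h34⟩ := hD
  have hD : D4 p1 p2 p3 p4 := ⟨h12, h13, h14, h23, h24, h34⟩
  have hD' : D4 p2 p1 p4 p3 := ⟨h12.symm, h24, h23, h14, h13, h34.symm⟩
  obtain ⟨x, hx1, hx2, hx3, hx4⟩ := trans4 h4 hD hD'
  have hxx : x * x = 1 := by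
    apply sharp4 hsharp hD
    · rw [mul_smul, hx1, hx2]
    · rw [mul_smul, hx2, hx1]
    · rw [mul_smul, hx3, hx4]
    · rw [mul_smul, hx4, hx3]
  have hxinv : ∀ ω : Ω, x • x • ω = ω := fun ω => by rw [← mul_smul, hxx, one_smul]
  have hF4 : ∀ a b c d : Ω, D4 a b c d → x • a = a → x • b = b → x • c = c → x • d = d → False := by
    intro a b c d h ha hb hc hd
    have := sharp4 hsharp h x ha hb hc hd
    rw [this, one_smul] at hx1
    exact h12 hx1
  -- elements commuting with `x` and fixing `p1`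
  have key : ∀ c : Ω, ∃ g : G, (c ≠ p1 → c ≠ p2 → x • c ≠ c →
      g • p1 = p1 ∧ g • p2 = p2 ∧ g • p3 = c ∧ g * x = x * g) := by
    intro c
    by_cases hc : c ≠ p1 ∧ c ≠ p2 ∧ x • c ≠ c
    · obtain ⟨hc1, hc2, hc3⟩ := hc
      have h1x : p1 ≠ x • c := by
        intro h
        apply hc2
        have : x • p1 = c := by rw [h, hxinv]
        rw [← this, hx1]
      have h2x : p2 ≠ x • c := by
        intro h
        apply hc1
        have : x • p2 = c := by rw [h, hxinv]
        rw [← this, hx2]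
      have hDc : D4 p1 p2 c (x • c) := ⟨h12, hc1.symm, h1x, hc2.symm, h2x, hc3.symm⟩
      obtain ⟨g, hg1, hg2, hg3, hg4⟩ := trans4 h4 hD hDc
      refine ⟨g, fun _ _ _ => ⟨hg1, hg2, hg3, ?_⟩⟩
      apply sharp4' hsharp hD
      · rw [mul_smul, mul_smul, hx1, hg2, hg1, hx1]
      · rw [mul_smul, mul_smul, hx2, hg1, hg2, hx2]
      · rw [mul_smul, mul_smul, hx3, hg4, hg3]
      · rw [mul_smul, mul_smul, hx4, hg3, hg4, hxinv]
    · refine ⟨1, fun h1 h2 h3 => absurd ⟨h1, h2, h3⟩ hc⟩
  choose γ hγ using key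
  set S : Set Ω := {c | c ≠ p1 ∧ c ≠ p2 ∧ x • c ≠ c} with hS
  by_cases hF2 : ∃ u v : Ω, u ≠ v ∧ x • u = u ∧ x • v = v
  · obtain ⟨u, v, huv, hu, hv⟩ := hF2
    have hu1 : p1 ≠ u := by
      intro h
      rw [← h, hx1] at hu
      exact h12 hu.symm
    have hu2 : p2 ≠ u := by
      intro h
      rw [← h, hx2] at hu
      exact h12 hu
    have hv1 : p1 ≠ v := by
      intro h
      rw [← h, hx1] at hv
      exact h12 hv.symm
    have hv2 : p2 ≠ v := by
      intro h
      rw [← h, hx2] at hv
      exact h12 hv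
    have hDuv : D4 p1 p2 u v := ⟨h12, hu1, hv1, hu2, hv2, huv⟩
    -- facts about `γ c` for `c ∈ S`
    have hγfix : ∀ c ∈ S, ∀ ω : Ω, x • ω = ω → x • (γ c • ω) = γ c • ω := by
      intro c hc ω hω
      obtain ⟨-, -, -, hcomm⟩ := hγ c hc.1 hc.2.1 hc.2.2
      rw [← mul_smul, ← hcomm, mul_smul, hω]
    have hγinj : ∀ c ∈ S, ∀ c' ∈ S, γ c • u = γ c' • u → γ c • v = γ c' • v → c = c' := by
      intro c hc c' hc' h1 h2
      obtain ⟨hc1, hc2, hc3, -⟩ := hγ c hc.1 hc.2.1 hc.2.2
      obtain ⟨hc1', hc2', hc3', -⟩ := hγ c' hc'.1 hc'.2.1 hc'.2.2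
      have := sharp4' hsharp hDuv (γ c) (γ c') (by rw [hc1, hc1']) (by rw [hc2, hc2']) h1 h2
      rw [← hc3, ← hc3', this]
    have hcover : ∀ ω : Ω, ω = p1 ∨ ω = p2 ∨ x • ω = ω ∨ ω ∈ S := by
      intro ω
      by_cases h1 : ω = p1
      · exact Or.inl h1
      by_cases h2 : ω = p2
      · exact Or.inr (Or.inl h2)
      by_cases h3 : x • ω = ω
      · exact Or.inr (Or.inr (Or.inl h3))
      exact Or.inr (Or.inr (Or.inr ⟨h1, h2, h3⟩))
    by_cases hF3 : ∃ w : Ω, u ≠ w ∧ v ≠ w ∧ x • w = w
    · right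
      obtain ⟨w, huw, hvw, hw⟩ := hF3
      have hFeq : ∀ ω : Ω, x • ω = ω ↔ (ω = u ∨ ω = v ∨ ω = w) := by
        intro ω
        constructor
        · intro hω
          by_contra hcon
          push Not at hcon
          exact hF4 u v w ω ⟨huv, huw, hcon.1.symm, hvw, hcon.2.1.symm, hcon.2.2.symm⟩ hu hv hw hω
        · rintro (rfl | rfl | rfl)
          · exact hu
          · exact hv
          · exact hw
      refine ⟨?_, x, hxx, u, v, w, huv, huw, hvw, hFeq⟩
      -- the bound
      let T : Finset (Ω × Ω) := {(u, v), (u, w), (v, u), (v, w), (w, u), (w, v)}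
      have hT : (T : Set (Ω × Ω)).encard ≤ 6 := by
        rw [Set.encard_coe_eq_coe_finsetCard]
        exact_mod_cast Finset.card_le_six
      have hSle : S.encard ≤ 6 := by
        refine le_trans (Set.encard_le_encard_of_injOn (f := fun c => (γ c • u, γ c • v))
          (t := (T : Set (Ω × Ω))) ?_ ?_) hT
        · intro c hc
          have h1 := (hFeq _).mp (hγfix c hc u hu)
          have h2 := (hFeq _).mp (hγfix c hc v hv)
          have h3 : γ c • u ≠ γ c • v := fun h => huv (MulAction.injective (γ c) h)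
          exact mem_T u v w _ _ h1 h2 h3
        · intro c hc c' hc' h
          simp only [Prod.mk.injEq] at h
          exact hγinj c hc c' hc' h.1 h.2
      have hsub : (Set.univ : Set Ω) ⊆ ({p1, p2} ∪ {u, v, w}) ∪ S := by
        intro ω _
        rcases hcover ω with h | h | h | h
        · left; left; simp [h]
        · left; left; simp [h]
        · left; right
          rcases (hFeq ω).mp h with h | h | h <;> simp [h]
        · right; exact h
      have h2 : ({p1, p2} : Set Ω).encard ≤ 2 := by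
        have := Set.encard_insert_le ({p2} : Set Ω) p1
        rw [Set.encard_singleton] at this
        exact this
      have h3 : ({u, v, w} : Set Ω).encard ≤ 3 := by
        have h := Set.encard_insert_le ({v, w} : Set Ω) u
        have h' := Set.encard_insert_le ({w} : Set Ω) v
        rw [Set.encard_singleton] at h'
        calc ({u, v, w} : Set Ω).encard ≤ ({v, w} : Set Ω).encard + 1 := h
          _ ≤ (1 + 1) + 1 := by gcongr
          _ = 3 := by norm_num
      calc (Set.univ : Set Ω).encard ≤ (({p1, p2} ∪ {u, v, w}) ∪ S).encard := Set.encard_mono hsub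
        _ ≤ (({p1, p2} : Set Ω) ∪ {u, v, w}).encard + S.encard := Set.encard_union_le _ _
        _ ≤ (({p1, p2} : Set Ω).encard + ({u, v, w} : Set Ω).encard) + S.encard := by
          gcongr
          exact Set.encard_union_le _ _
        _ ≤ (2 + 3) + 6 := by gcongr
        _ = 11 := by norm_num
    · left
      push Not at hF3
      have hFeq : ∀ ω : Ω, x • ω = ω → (ω = u ∨ ω = v) := by
        intro ω hω
        by_contra hcon
        push Not at hcon
        exact hF3 ω (Ne.symm hcon.1) (Ne.symm hcon.2) hω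
      have huv2 : ({u, v} : Set Ω).encard ≤ 2 := by
        have := Set.encard_insert_le ({v} : Set Ω) u
        rw [Set.encard_singleton] at this
        exact this
      have hSle : S.encard ≤ 2 := by
        refine le_trans (Set.encard_le_encard_of_injOn (f := fun c => γ c • u)
          (t := ({u, v} : Set Ω)) ?_ ?_) huv2
        · intro c hc
          have h1 := hFeq _ (hγfix c hc u hu)
          simpa using h1
        · intro c hc c' hc' h
          have h : γ c • u = γ c' • u := h
          apply hγinj c hc c' hc' h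
          have h1 := hFeq _ (hγfix c hc u hu)
          have h2 := hFeq _ (hγfix c hc v hv)
          have h3 : γ c • u ≠ γ c • v := fun h => huv (MulAction.injective (γ c) h)
          have h1' := hFeq _ (hγfix c' hc' u hu)
          have h2' := hFeq _ (hγfix c' hc' v hv)
          have h3' : γ c' • u ≠ γ c' • v := fun h => huv (MulAction.injective (γ c') h)
          exact two_case u v _ _ _ _ h1 h2 h3 h1' h2' h3' h
      have hsub : (Set.univ : Set Ω) ⊆ ({p1, p2} ∪ {u, v}) ∪ S := by
        intro ω _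
        rcases hcover ω with h | h | h | h
        · left; left; simp [h]
        · left; left; simp [h]
        · left; right
          rcases hFeq ω h with h | h <;> simp [h]
        · right; exact h
      have h2 : ({p1, p2} : Set Ω).encard ≤ 2 := by
        have := Set.encard_insert_le ({p2} : Set Ω) p1
        rw [Set.encard_singleton] at this
        exact this
      calc (Set.univ : Set Ω).encard ≤ (({p1, p2} ∪ {u, v}) ∪ S).encard := Set.encard_mono hsub
        _ ≤ (({p1, p2} : Set Ω) ∪ {u, v}).encard + S.encard := Set.encard_union_le _ _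
        _ ≤ (({p1, p2} : Set Ω).encard + ({u, v} : Set Ω).encard) + S.encard := by
          gcongr
          exact Set.encard_union_le _ _
        _ ≤ (2 + 2) + 2 := by gcongr
        _ = 6 := by norm_num
  · left
    -- at most one fixed point: at most one point outside `p1, …, p4`
    have hD'' : D4 p1 p2 p4 p3 := ⟨h12, h14, h13, h24, h23, h34.symm⟩
    obtain ⟨t, ht1, ht2, ht3, ht4⟩ := trans4 h4 hD hD''
    have htt : t * t = 1 := by
      apply sharp4 hsharp hD
      · rw [mul_smul, ht1, ht1]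
      · rw [mul_smul, ht2, ht2]
      · rw [mul_smul, ht3, ht4]
      · rw [mul_smul, ht4, ht3]
    have htinv : ∀ ω : Ω, t • t • ω = ω := fun ω => by rw [← mul_smul, htt, one_smul]
    have hmoved : ∀ p5 : Ω, p5 ≠ p1 → p5 ≠ p2 → p5 ≠ p3 → p5 ≠ p4 → t • p5 = p5 := by
      intro p5 h51 h52 h53 h54
      by_contra h56
      have h61 : t • p5 ≠ p1 := by
        intro h
        apply h51
        have : t • t • p5 = p1 := by rw [h, ht1]
        rwa [htinv] at this
      have h62 : t • p5 ≠ p2 := by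
        intro h
        apply h52
        have : t • t • p5 = p2 := by rw [h, ht2]
        rwa [htinv] at this
      have h63 : t • p5 ≠ p3 := by
        intro h
        apply h54
        have : t • t • p5 = p4 := by rw [h, ht3]
        rwa [htinv] at this
      have h64 : t • p5 ≠ p4 := by
        intro h
        apply h53
        have : t • t • p5 = p3 := by rw [h, ht4]
        rwa [htinv] at this
      have hDs : D4 p3 p4 p5 (t • p5) := ⟨h34, h53.symm, h63.symm, h54.symm, h64.symm, Ne.symm h56⟩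
      obtain ⟨g, hg3, hg4, hg5, hg6⟩ := trans4 h4 hDs hD
      have hconj : g * t * g⁻¹ = x := by
        have hgi1 : g⁻¹ • p1 = p3 := inv_smul_eq_iff.mpr hg3.symm
        have hgi2 : g⁻¹ • p2 = p4 := inv_smul_eq_iff.mpr hg4.symm
        have hgi3 : g⁻¹ • p3 = p5 := inv_smul_eq_iff.mpr hg5.symm
        have hgi4 : g⁻¹ • p4 = t • p5 := inv_smul_eq_iff.mpr hg6.symm
        apply sharp4' hsharp hD
        · rw [mul_smul, mul_smul, hgi1, ht3, hg4, hx1]
        · rw [mul_smul, mul_smul, hgi2, ht4, hg3, hx2]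
        · rw [mul_smul, mul_smul, hgi3, hg6, hx3]
        · rw [mul_smul, mul_smul, hgi4, htinv, hg5, hx4]
      apply hF2
      refine ⟨g • p1, g • p2, fun h => h12 (MulAction.injective g h), ?_, ?_⟩
      · rw [← hconj, mul_smul, mul_smul, inv_smul_smul, ht1]
      · rw [← hconj, mul_smul, mul_smul, inv_smul_smul, ht2]
    have hone : ∀ a b : Ω, a ≠ p1 → a ≠ p2 → a ≠ p3 → a ≠ p4 → b ≠ p1 → b ≠ p2 → b ≠ p3 →
        b ≠ p4 → a = b := by
      intro a b ha1 ha2 ha3 ha4 hb1 hb2 hb3 hb4
      by_contra hab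
      have hta := hmoved a ha1 ha2 ha3 ha4
      have htb := hmoved b hb1 hb2 hb3 hb4
      have := sharp4 hsharp (⟨h12, ha1.symm, hb1.symm, ha2.symm, hb2.symm, hab⟩ : D4 p1 p2 a b) t
        ht1 ht2 hta htb
      rw [this, one_smul] at ht3
      exact h34 ht3
    have h4le : ({p1, p2, p3, p4} : Set Ω).encard ≤ 4 := by
      have ha := Set.encard_insert_le ({p2, p3, p4} : Set Ω) p1
      have hb := Set.encard_insert_le ({p3, p4} : Set Ω) p2
      have hc := Set.encard_insert_le ({p4} : Set Ω) p3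
      rw [Set.encard_singleton] at hc
      calc ({p1, p2, p3, p4} : Set Ω).encard ≤ ({p2, p3, p4} : Set Ω).encard + 1 := ha
        _ ≤ (({p3, p4} : Set Ω).encard + 1) + 1 := by gcongr
        _ ≤ ((1 + 1) + 1) + 1 := by gcongr
        _ = 4 := by norm_num
    by_cases hex : ∃ a : Ω, a ≠ p1 ∧ a ≠ p2 ∧ a ≠ p3 ∧ a ≠ p4
    · obtain ⟨a, ha1, ha2, ha3, ha4⟩ := hex
      have hsub : (Set.univ : Set Ω) ⊆ insert a ({p1, p2, p3, p4} : Set Ω) := by
        intro ω _
        by_cases h1 : ω = p1
        · right; simp [h1]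
        by_cases h2 : ω = p2
        · right; simp [h2]
        by_cases h3 : ω = p3
        · right; simp [h3]
        by_cases h4' : ω = p4
        · right; simp [h4']
        left
        exact hone ω a h1 h2 h3 h4' ha1 ha2 ha3 ha4
      calc (Set.univ : Set Ω).encard ≤ (insert a ({p1, p2, p3, p4} : Set Ω)).encard :=
            Set.encard_mono hsub
        _ ≤ ({p1, p2, p3, p4} : Set Ω).encard + 1 := Set.encard_insert_le _ _
        _ ≤ 4 + 1 := by gcongr
        _ ≤ 6 := by norm_num
    · push Not at hex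
      have hsub : (Set.univ : Set Ω) ⊆ ({p1, p2, p3, p4} : Set Ω) := by
        intro ω _
        by_cases h1 : ω = p1
        · simp [h1]
        by_cases h2 : ω = p2
        · simp [h2]
        by_cases h3 : ω = p3
        · simp [h3]
        have := hex ω h1 h2 h3
        simp [this]
      calc (Set.univ : Set Ω).encard ≤ ({p1, p2, p3, p4} : Set Ω).encard := Set.encard_mono hsub
        _ ≤ 4 := h4le
        _ ≤ 6 := by norm_num

/-- Tits' argument: a sharply 4-transitive group (no finiteness assumed) has finite degree at most 11, and at most 6 when the degree is even. -/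
theorem result {G : Type*} [Group G] {Ω : Type*} [MulAction G Ω] (h4 : MulAction.IsMultiplyPretransitive G Ω 4) (hsharp : ∀ x : Fin 4 ↪ Ω, MulAction.stabilizer G x = ⊥) (hne : Nonempty (Fin 4 ↪ Ω)) : Finite Ω ∧ Nat.card Ω ≤ 11 ∧ (Even (Nat.card Ω) → Nat.card Ω ≤ 6) := by
  classical
  rcases main h4 hsharp hne with h6 | ⟨h11, x, hxx, u, v, w, huv, huw, hvw, hfix⟩
  · have h6' := (Set.encard_le_coe_iff_finite_ncard_le (k := 6)).mp h6
    rw [Set.ncard_univ] at h6'
    exact ⟨Set.finite_univ_iff.mp h6'.1, by omega, fun _ => h6'.2⟩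
  · have h11' := (Set.encard_le_coe_iff_finite_ncard_le (k := 11)).mp h11
    rw [Set.ncard_univ] at h11'
    have hfin : Finite Ω := Set.finite_univ_iff.mp h11'.1
    refine ⟨hfin, h11'.2, ?_⟩
    intro heven
    exfalso
    have hFt : Fintype Ω := Fintype.ofFinite Ω
    rw [Nat.card_eq_fintype_card] at heven
    refine odd_card (MulAction.toPerm x) ?_ u v w huv huw hvw hfix heven
    ext ω
    simp only [pow_two, Equiv.Perm.coe_mul, Function.comp_apply, MulAction.toPerm_apply,
      Equiv.Perm.coe_one, id_eq]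
    rw [← mul_smul, hxx, one_smul]

end Cfsg.Agent.S0708
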