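import Cfsg.Statements.S0709
import Mathlib

set_option autoImplicit false
open Cfsg

namespace Cfsg.Agent.S0709

universe u

section

variable {α : Type u}

theorem inv_app (g : Equiv.Perm α) (x : α) : g⁻¹ (g x) = x := g.symm_apply_apply x

theorem app_inv (g : Equiv.Perm α) (x : α) : g (g⁻¹ x) = x := g.apply_symm_apply x

/-- multiple transitivity of a permutation group on a subset -/
def MT (K : Subgroup (Equiv.Perm α)) (Δ : Set α) (k : ℕ) : Prop :=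
  ∀ x y : Fin k → α, Function.Injective x → Function.Injective y → (∀ i, x i ∈ Δ) →
    (∀ i, y i ∈ Δ) → ∃ g ∈ K, ∀ i, g (x i) = y i

theorem MT_succ (K K' : Subgroup (Equiv.Perm α)) (Δ : Set α) (w : α) (k : ℕ) (hKK' : K ≤ K')
    (hKw : ∀ g ∈ K, g w = w)
    (hmove : ∀ u : α, (u ∈ Δ ∨ u = w) → ∃ g ∈ K', g u = w)
    (hpres : ∀ g ∈ K', ∀ u : α, (u ∈ Δ ∨ u = w) → (g u ∈ Δ ∨ g u = w))
    (hMT : MT K Δ k) : MT K' {u | u ∈ Δ ∨ u = w} (k + 1) := by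
  intro x y hx hy hxΔ hyΔ
  obtain ⟨g₁, hg₁, hg₁x⟩ := hmove (x 0) (hxΔ 0)
  obtain ⟨g₂, hg₂, hg₂y⟩ := hmove (y 0) (hyΔ 0)
  have hx' : ∀ i : Fin k, g₁ (x i.succ) ∈ Δ := by
    intro i
    rcases hpres g₁ hg₁ (x i.succ) (hxΔ i.succ) with h | h
    · exact h
    · exfalso
      have : x i.succ = x 0 := g₁.injective (h.trans hg₁x.symm)
      exact Fin.succ_ne_zero i (hx this)
  have hy' : ∀ i : Fin k, g₂ (y i.succ) ∈ Δ := by
    intro i
    rcases hpres g₂ hg₂ (y i.succ) (hyΔ i.succ) with h | h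
    · exact h
    · exfalso
      have : y i.succ = y 0 := g₂.injective (h.trans hg₂y.symm)
      exact Fin.succ_ne_zero i (hy this)
  obtain ⟨g, hg, hgxy⟩ := hMT (fun i => g₁ (x i.succ)) (fun i => g₂ (y i.succ))
    (fun i j h => Fin.succ_injective _ (hx (g₁.injective h)))
    (fun i j h => Fin.succ_injective _ (hy (g₂.injective h))) hx' hy'
  refine ⟨g₂⁻¹ * g * g₁, K'.mul_mem (K'.mul_mem (K'.inv_mem hg₂) (hKK' hg)) hg₁, ?_⟩
  intro i
  refine Fin.cases ?_ (fun j => ?_) i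
  · show g₂⁻¹ (g (g₁ (x 0))) = y 0
    rw [hg₁x, hKw g hg, Equiv.Perm.inv_eq_iff_eq]
    exact hg₂y.symm
  · show g₂⁻¹ (g (g₁ (x j.succ))) = y j.succ
    rw [hgxy j]
    exact inv_app g₂ _

/-- double coset decomposition with respect to a point stabiliser -/
theorem dcoset (K : Subgroup (Equiv.Perm α)) (Δ : Set α) (a : α) (g : Equiv.Perm α)
    (haΔ : a ∈ Δ) (hKΔ : ∀ x ∈ K, ∀ y ∈ Δ, x y ∈ Δ)
    (htr : ∀ u v : α, u ∈ Δ → v ∈ Δ → u ≠ a → v ≠ a → ∃ y ∈ K, y a = a ∧ y u = v)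
    (hg : g ∈ K) (hga : g a ≠ a) :
    ∀ x ∈ K, x a = a ∨ ∃ y₁ ∈ K, ∃ y₂ ∈ K, y₁ a = a ∧ y₂ a = a ∧ x = y₁ * g * y₂ := by
  intro x hx
  by_cases hxa : x a = a
  · exact Or.inl hxa
  · right
    obtain ⟨y, hy, hya, hyg⟩ := htr (g a) (x a) (hKΔ g hg a haΔ) (hKΔ x hx a haΔ) hga hxa
    refine ⟨y, hy, g⁻¹ * y⁻¹ * x, K.mul_mem (K.mul_mem (K.inv_mem hg) (K.inv_mem hy)) hx, hya,
      ?_, by group⟩
    show g⁻¹ (y⁻¹ (x a)) = a
    rw [← hyg, inv_app, inv_app]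

/-- the one-point extension lemma -/
theorem witt_step (K : Subgroup (Equiv.Perm α)) (Δ : Set α) (a w : α) (h g : Equiv.Perm α)
    (haΔ : a ∈ Δ) (hwΔ : w ∉ Δ)
    (hKw : ∀ x ∈ K, x w = w)
    (hKΔ : ∀ x ∈ K, ∀ y ∈ Δ, x y ∈ Δ)
    (htr : ∀ u v : α, u ∈ Δ → v ∈ Δ → u ≠ a → v ≠ a → ∃ y ∈ K, y a = a ∧ y u = v)
    (hg : g ∈ K) (hga : g a ≠ a)
    (hhw : h w = a)
    (hnorm : ∀ x ∈ K, x a = a → h * x * h⁻¹ ∈ K)
    (hh2 : h ^ 2 ∈ K) (hgh : (g * h) ^ 3 ∈ K) :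
    ∀ x ∈ Subgroup.closure ((K : Set (Equiv.Perm α)) ∪ {h}), x w = w → x ∈ K := by
  have hdc := dcoset K Δ a g haΔ hKΔ htr hg hga
  have hnorm' : ∀ x ∈ K, x a = a → h⁻¹ * x * h ∈ K := by
    intro x hx hxa
    have e : h⁻¹ * x * h = (h ^ 2)⁻¹ * (h * x * h⁻¹) * h ^ 2 := by group
    rw [e]
    exact K.mul_mem (K.mul_mem (K.inv_mem hh2) (hnorm x hx hxa)) hh2
  have h2 : ∀ x ∈ K, x a = a → h * x * h ∈ K := by
    intro x hx hxa
    have e : h * x * h = (h * x * h⁻¹) * h ^ 2 := by group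
    rw [e]
    exact K.mul_mem (hnorm x hx hxa) hh2
  have e3 : (g * h) ^ 3 = g * h * (g * h) * (g * h) := by rw [pow_succ, pow_succ, pow_one]
  have h3 : ∃ k₁ ∈ K, ∃ k₂ ∈ K, h * g * h = k₁ * h * k₂ :=
    ⟨g⁻¹ * (g * h) ^ 3 * (h ^ 2)⁻¹, K.mul_mem (K.mul_mem (K.inv_mem hg) hgh) (K.inv_mem hh2),
      g⁻¹, K.inv_mem hg, by rw [e3]; group⟩
  have h4 : ∀ x ∈ K, h * x * h ∈ K ∨ ∃ k₁ ∈ K, ∃ k₂ ∈ K, h * x * h = k₁ * h * k₂ := by
    intro x hx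
    rcases hdc x hx with hxa | ⟨y₁, hy₁, y₂, hy₂, hy₁a, hy₂a, rfl⟩
    · exact Or.inl (h2 x hx hxa)
    · right
      obtain ⟨k₁, hk₁, k₂, hk₂, hk⟩ := h3
      refine ⟨h * y₁ * h⁻¹ * k₁, K.mul_mem (hnorm y₁ hy₁ hy₁a) hk₁, k₂ * (h⁻¹ * y₂ * h),
        K.mul_mem hk₂ (hnorm' y₂ hy₂ hy₂a), ?_⟩
      calc h * (y₁ * g * y₂) * h = h * y₁ * h⁻¹ * (h * g * h) * (h⁻¹ * y₂ * h) := by group
        _ = h * y₁ * h⁻¹ * (k₁ * h * k₂) * (h⁻¹ * y₂ * h) := by rw [hk]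
        _ = h * y₁ * h⁻¹ * k₁ * h * (k₂ * (h⁻¹ * y₂ * h)) := by group
  have hcl : ∀ x ∈ Subgroup.closure ((K : Set (Equiv.Perm α)) ∪ {h}),
      x ∈ K ∨ ∃ k₁ ∈ K, ∃ k₂ ∈ K, x = k₁ * h * k₂ := by
    intro x hx
    induction hx using Subgroup.closure_induction with
    | mem x hx =>
      rcases hx with hx | hx
      · exact Or.inl hx
      · right
        rw [Set.mem_singleton_iff] at hx
        exact ⟨1, K.one_mem, 1, K.one_mem, by rw [hx]; group⟩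
    | one => exact Or.inl K.one_mem
    | mul x y hx hy ihx ihy =>
      rcases ihx with hxK | ⟨k₁, hk₁, k₂, hk₂, rfl⟩
      · rcases ihy with hyK | ⟨k₃, hk₃, k₄, hk₄, rfl⟩
        · exact Or.inl (K.mul_mem hxK hyK)
        · exact Or.inr ⟨x * k₃, K.mul_mem hxK hk₃, k₄, hk₄, by group⟩
      · rcases ihy with hyK | ⟨k₃, hk₃, k₄, hk₄, rfl⟩
        · exact Or.inr ⟨k₁, hk₁, k₂ * y, K.mul_mem hk₂ hyK, by group⟩
        · have e : k₁ * h * k₂ * (k₃ * h * k₄) = k₁ * (h * (k₂ * k₃) * h) * k₄ := by group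
          rcases h4 (k₂ * k₃) (K.mul_mem hk₂ hk₃) with hK | ⟨k₅, hk₅, k₆, hk₆, hk⟩
          · left
            rw [e]
            exact K.mul_mem (K.mul_mem hk₁ hK) hk₄
          · right
            refine ⟨k₁ * k₅, K.mul_mem hk₁ hk₅, k₆ * k₄, K.mul_mem hk₆ hk₄, ?_⟩
            rw [e, hk]
            group
    | inv x hx ih =>
      rcases ih with hxK | ⟨k₁, hk₁, k₂, hk₂, rfl⟩
      · exact Or.inl (K.inv_mem hxK)
      · exact Or.inr ⟨k₂⁻¹ * (h ^ 2)⁻¹, K.mul_mem (K.inv_mem hk₂) (K.inv_mem hh2), k₁⁻¹,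
          K.inv_mem hk₁, by group⟩
  intro x hx hxw
  rcases hcl x hx with hK | ⟨k₁, hk₁, k₂, hk₂, rfl⟩
  · exact hK
  · exfalso
    have h5 : k₁ (h (k₂ w)) = w := hxw
    rw [hKw k₂ hk₂, hhw] at h5
    have h6 : k₁ w = w := hKw k₁ hk₁
    have h7 : a = w := k₁.injective (h5.trans h6.symm)
    exact hwΔ (h7 ▸ haΔ)

end

section chain

variable {α : Type u}

/-- the hypotheses of Witt's lemma -/
structure Hyp (t : ℕ) (q : ℕ → α) (G : Subgroup (Equiv.Perm α)) (s : ℕ → Equiv.Perm α)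
    (H : Subgroup (Equiv.Perm α)) : Prop where
  ht : 2 ≤ t
  hq : ∀ i j : ℕ, 1 ≤ i → i ≤ t → 1 ≤ j → j ≤ t → q i = q j → i = j
  hfix : ∀ g ∈ G, ∀ i : ℕ, 3 ≤ i → i ≤ t → g (q i) = q i
  h2 : ∀ a b c d : α, (∀ i, 3 ≤ i → i ≤ t → a ≠ q i ∧ b ≠ q i ∧ c ≠ q i ∧ d ≠ q i) → a ≠ b →
    c ≠ d → ∃ g ∈ G, g a = c ∧ g b = d
  hs1 : s 1 ∈ G
  hs1q : s 1 (q 1) = q 2 ∧ s 1 (q 2) = q 1
  hsq : ∀ i : ℕ, 2 ≤ i → i + 1 ≤ t → s i (q i) = q (i + 1) ∧ s i (q (i + 1)) = q i ∧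
    ∀ j : ℕ, 1 ≤ j → j ≤ t → j ≠ i → j ≠ i + 1 → s i (q j) = q j
  hH : H = G ⊓ MulAction.stabilizer (Equiv.Perm α) (q 1) ⊓
    MulAction.stabilizer (Equiv.Perm α) (q 2)
  hsq2 : ∀ i : ℕ, 1 ≤ i → i + 1 ≤ t → s i ^ 2 ∈ H
  hbraid : ∀ i : ℕ, 1 ≤ i → i + 2 ≤ t → (s i * s (i + 1)) ^ 3 ∈ H
  hcomm : ∀ i j : ℕ, 1 ≤ i → i + 2 ≤ j → j + 1 ≤ t → (s i * s j) ^ 2 ∈ H ∧ (s j * s i) ^ 2 ∈ H
  hnorm : ∀ i : ℕ, 2 ≤ i → i + 1 ≤ t → ∀ g ∈ G ⊓ MulAction.stabilizer (Equiv.Perm α) (q 2),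
    s i * g * (s i)⁻¹ ∈ G ⊓ MulAction.stabilizer (Equiv.Perm α) (q 2)

/-- the chain of groups -/
def Gk (G : Subgroup (Equiv.Perm α)) (s : ℕ → Equiv.Perm α) (k : ℕ) :
    Subgroup (Equiv.Perm α) :=
  Subgroup.closure ((G : Set (Equiv.Perm α)) ∪ {x | ∃ i : ℕ, 2 ≤ i ∧ i ≤ k ∧ x = s i})

/-- the chain of point sets -/
def Dk (t : ℕ) (q : ℕ → α) (k : ℕ) : Set α := {x | ∀ j : ℕ, k + 2 ≤ j → j ≤ t → x ≠ q j}

theorem G_le_Gk (G : Subgroup (Equiv.Perm α)) (s : ℕ → Equiv.Perm α) (k : ℕ) : G ≤ Gk G s k :=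
  fun _ hx => Subgroup.subset_closure (Or.inl hx)

theorem s_mem_Gk (G : Subgroup (Equiv.Perm α)) (s : ℕ → Equiv.Perm α) {i k : ℕ} (h1 : 2 ≤ i)
    (h2 : i ≤ k) : s i ∈ Gk G s k :=
  Subgroup.subset_closure (Or.inr ⟨i, h1, h2, rfl⟩)

theorem Gk_mono (G : Subgroup (Equiv.Perm α)) (s : ℕ → Equiv.Perm α) {k k' : ℕ} (h : k ≤ k') :
    Gk G s k ≤ Gk G s k' := by
  apply Subgroup.closure_mono
  rintro x (hx | ⟨i, h1, h2, rfl⟩)
  · exact Or.inl hx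
  · exact Or.inr ⟨i, h1, h2.trans h, rfl⟩

theorem Gk_one (G : Subgroup (Equiv.Perm α)) (s : ℕ → Equiv.Perm α) : Gk G s 1 = G := by
  apply le_antisymm _ (G_le_Gk G s 1)
  apply (Subgroup.closure_le G).mpr
  rintro x (hx | ⟨i, h1, h2, rfl⟩)
  · exact hx
  · omega

theorem Gk_succ_le (G : Subgroup (Equiv.Perm α)) (s : ℕ → Equiv.Perm α) (k : ℕ) :
    Gk G s (k + 1) ≤ Subgroup.closure ((Gk G s k : Set (Equiv.Perm α)) ∪ {s (k + 1)}) := by
  apply (Subgroup.closure_le _).mpr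
  rintro x (hx | ⟨i, h1, h2, rfl⟩)
  · exact Subgroup.subset_closure (Or.inl (G_le_Gk G s k hx))
  · by_cases h : i ≤ k
    · exact Subgroup.subset_closure (Or.inl (s_mem_Gk G s h1 h))
    · have : i = k + 1 := by omega
      rw [this]
      exact Subgroup.subset_closure (Or.inr rfl)

variable {t : ℕ} {q : ℕ → α} {G : Subgroup (Equiv.Perm α)} {s : ℕ → Equiv.Perm α}
  {H : Subgroup (Equiv.Perm α)}

theorem fixq (hyp : Hyp t q G s H) (k : ℕ) (hk1 : 1 ≤ k) (hkt : k + 1 ≤ t) :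
    ∀ g ∈ Gk G s k, ∀ j : ℕ, k + 2 ≤ j → j ≤ t → g (q j) = q j := by
  intro g hg
  unfold Gk at hg
  induction hg using Subgroup.closure_induction with
  | mem x hx =>
    intro j hj1 hj2
    rcases hx with hx | ⟨i, h1, h2, rfl⟩
    · exact hyp.hfix x hx j (by omega) hj2
    · exact (hyp.hsq i h1 (by omega)).2.2 j (by omega) hj2 (by omega) (by omega)
  | one =>
    intro j _ _
    rfl
  | mul x y hx hy ihx ihy =>
    intro j hj1 hj2
    show x (y (q j)) = q j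
    rw [ihy j hj1 hj2, ihx j hj1 hj2]
  | inv x hx ih =>
    intro j hj1 hj2
    rw [Equiv.Perm.inv_eq_iff_eq]
    exact (ih j hj1 hj2).symm

theorem pres (hyp : Hyp t q G s H) (k : ℕ) (hk1 : 1 ≤ k) (hkt : k + 1 ≤ t) :
    ∀ g ∈ Gk G s k, ∀ y ∈ Dk t q k, g y ∈ Dk t q k := by
  intro g hg y hy j hj1 hj2 h
  apply hy j hj1 hj2
  apply g.injective
  rw [h, fixq hyp k hk1 hkt g hg j hj1 hj2]

theorem H_le (hyp : Hyp t q G s H) : H ≤ G := by
  rw [hyp.hH]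
  exact inf_le_left.trans inf_le_left

theorem conj_of_sq (x y : Equiv.Perm α) : x * y * x⁻¹ = (x * y) ^ 2 * y⁻¹ * (x ^ 2)⁻¹ := by
  rw [pow_two (x * y)]
  group

theorem norm_G (hyp : Hyp t q G s H) (j : ℕ) (hj : 3 ≤ j) (hjt : j + 1 ≤ t) :
    ∀ x ∈ G, s j * x * (s j)⁻¹ ∈ G := by
  have ht := hyp.ht
  have haΔ : q 2 ∈ Dk t q 1 := by
    intro j' hj1 hj2 h
    have := hyp.hq 2 j' (by omega) (by omega) (by omega) hj2 h
    omega
  have hKΔ : ∀ x ∈ G, ∀ y ∈ Dk t q 1, x y ∈ Dk t q 1 :=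
    fun x hx => pres hyp 1 le_rfl (by omega) x (G_le_Gk G s 1 hx)
  have htr : ∀ u v : α, u ∈ Dk t q 1 → v ∈ Dk t q 1 → u ≠ q 2 → v ≠ q 2 →
      ∃ y ∈ G, y (q 2) = q 2 ∧ y u = v := by
    intro u v hu hv hu2 hv2
    refine hyp.h2 (q 2) u (q 2) v (fun i hi1 hi2 => ?_) (Ne.symm hu2) (Ne.symm hv2)
    have hq2 : q 2 ≠ q i := by
      intro h
      have := hyp.hq 2 i (by omega) (by omega) (by omega) hi2 h
      omega
    exact ⟨hq2, hu i (by omega) hi2, hq2, hv i (by omega) hi2⟩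
  have hga : s 1 (q 2) ≠ q 2 := by
    rw [hyp.hs1q.2]
    intro h
    have := hyp.hq 1 2 le_rfl (by omega) (by omega) (by omega) h
    omega
  have hdc := dcoset G (Dk t q 1) (q 2) (s 1) haΔ hKΔ htr hyp.hs1 hga
  intro x hx
  rcases hdc x hx with hxa | ⟨y₁, hy₁, y₂, hy₂, h1, h2, rfl⟩
  · exact (hyp.hnorm j (by omega) hjt x ⟨hx, hxa⟩).1
  · have e : s j * (y₁ * s 1 * y₂) * (s j)⁻¹ =
        (s j * y₁ * (s j)⁻¹) * (s j * s 1 * (s j)⁻¹) * (s j * y₂ * (s j)⁻¹) := by group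
    rw [e]
    refine G.mul_mem (G.mul_mem (hyp.hnorm j (by omega) hjt y₁ ⟨hy₁, h1⟩).1 ?_)
      (hyp.hnorm j (by omega) hjt y₂ ⟨hy₂, h2⟩).1
    rw [conj_of_sq]
    exact G.mul_mem (G.mul_mem (H_le hyp (hyp.hcomm 1 j le_rfl (by omega) hjt).2)
      (G.inv_mem hyp.hs1)) (G.inv_mem (H_le hyp (hyp.hsq2 j (by omega) hjt)))

theorem norm_Gk (hyp : Hyp t q G s H) (k : ℕ) (hk : 3 ≤ k) (hkt : k + 1 ≤ t) :
    ∀ x ∈ Gk G s (k - 2), s k * x * (s k)⁻¹ ∈ Gk G s (k - 2) := by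
  intro x hx
  unfold Gk at hx
  induction hx using Subgroup.closure_induction with
  | mem x hx =>
    rcases hx with hx | ⟨i, h1, h2, rfl⟩
    · exact G_le_Gk G s _ (norm_G hyp k hk hkt x hx)
    · rw [conj_of_sq]
      exact Subgroup.mul_mem _ (Subgroup.mul_mem _
        (G_le_Gk G s _ (H_le hyp (hyp.hcomm i k (by omega) (by omega) hkt).2))
        (Subgroup.inv_mem _ (s_mem_Gk G s h1 h2)))
        (Subgroup.inv_mem _ (G_le_Gk G s _ (H_le hyp (hyp.hsq2 k (by omega) hkt))))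
  | one =>
    have e : s k * 1 * (s k)⁻¹ = 1 := by group
    rw [e]
    exact Subgroup.one_mem _
  | mul x y hx hy ihx ihy =>
    have e : s k * (x * y) * (s k)⁻¹ = (s k * x * (s k)⁻¹) * (s k * y * (s k)⁻¹) := by group
    rw [e]
    exact Subgroup.mul_mem _ ihx ihy
  | inv x hx ih =>
    have e : s k * x⁻¹ * (s k)⁻¹ = (s k * x * (s k)⁻¹)⁻¹ := by group
    rw [e]
    exact Subgroup.inv_mem _ ih

set_option maxHeartbeats 1000000 in
theorem main (hyp : Hyp t q G s H) : ∀ k : ℕ, 1 ≤ k → k + 1 ≤ t →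
    (∀ a b c d : α, a ∈ Dk t q k → b ∈ Dk t q k → c ∈ Dk t q k → d ∈ Dk t q k → a ≠ b → c ≠ d →
      ∃ g ∈ Gk G s k, g a = c ∧ g b = d) ∧
    MT (Gk G s k) (Dk t q k) (k + 1) ∧
    (2 ≤ k → ∀ g ∈ Gk G s k, g (q (k + 1)) = q (k + 1) → g ∈ Gk G s (k - 1)) := by
  intro k hk1
  induction k, hk1 using Nat.le_induction with
  | base =>
    intro hkt
    have hT2 : ∀ a b c d : α, a ∈ Dk t q 1 → b ∈ Dk t q 1 → c ∈ Dk t q 1 → d ∈ Dk t q 1 →
        a ≠ b → c ≠ d → ∃ g ∈ Gk G s 1, g a = c ∧ g b = d := by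
      intro a b c d ha hb hc hd hab hcd
      obtain ⟨g, hg, h1, h2⟩ := hyp.h2 a b c d (fun i hi1 hi2 =>
        ⟨ha i (by omega) hi2, hb i (by omega) hi2, hc i (by omega) hi2, hd i (by omega) hi2⟩)
        hab hcd
      exact ⟨g, G_le_Gk G s 1 hg, h1, h2⟩
    refine ⟨hT2, ?_, fun h => absurd h (by omega)⟩
    intro x y hx hy hxΔ hyΔ
    obtain ⟨g, hg, h1, h2⟩ := hT2 (x 0) (x 1) (y 0) (y 1) (hxΔ 0) (hxΔ 1) (hyΔ 0) (hyΔ 1)
      (fun h => by simpa using hx h) (fun h => by simpa using hy h)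
    refine ⟨g, hg, fun i => ?_⟩
    fin_cases i
    · exact h1
    · exact h2
  | succ k hk1 ih =>
    intro hkt
    obtain ⟨hT2, hMT, hST⟩ := ih (by omega)
    have hkt' : k + 1 ≤ t := by omega
    have hqk : q (k + 1) ∈ Dk t q k := by
      intro j hj1 hj2 h
      have := hyp.hq (k + 1) j (by omega) (by omega) (by omega) hj2 h
      omega
    have hqw : q (k + 2) ∉ Dk t q k := fun h => h (k + 2) le_rfl (by omega) rfl
    have hDsucc : Dk t q (k + 1) = {u | u ∈ Dk t q k ∨ u = q (k + 2)} := by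
      ext u
      constructor
      · intro hu
        by_cases h : u = q (k + 2)
        · exact Or.inr h
        · left
          intro j hj1 hj2
          by_cases hj : j = k + 2
          · rw [hj]
            exact h
          · exact hu j (by omega) hj2
      · rintro (hu | hu) j hj1 hj2
        · exact hu j (by omega) hj2
        · rw [hu]
          intro h
          have := hyp.hq (k + 2) j (by omega) (by omega) (by omega) hj2 h
          omega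
    have hKw : ∀ x ∈ Gk G s k, x (q (k + 2)) = q (k + 2) :=
      fun x hx => fixq hyp k hk1 hkt' x hx (k + 2) le_rfl (by omega)
    have hKΔ := pres hyp k hk1 hkt'
    have htr : ∀ u v : α, u ∈ Dk t q k → v ∈ Dk t q k → u ≠ q (k + 1) → v ≠ q (k + 1) →
        ∃ y ∈ Gk G s k, y (q (k + 1)) = q (k + 1) ∧ y u = v := by
      intro u v hu hv hua hva
      exact hT2 (q (k + 1)) u (q (k + 1)) v hqk hu hqk hv (Ne.symm hua) (Ne.symm hva)
    have hTR : ∀ u v : α, u ∈ Dk t q k → v ∈ Dk t q k → ∃ y ∈ Gk G s k, y u = v := by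
      intro u v hu hv
      by_cases huv : u = v
      · exact ⟨1, Subgroup.one_mem _, huv⟩
      · obtain ⟨g, hg, h1, -⟩ := hT2 u v v u hu hv hv hu huv (Ne.symm huv)
        exact ⟨g, hg, h1⟩
    have hg : s k ∈ Gk G s k := by
      by_cases h : k = 1
      · rw [h]
        exact G_le_Gk G s 1 hyp.hs1
      · exact s_mem_Gk G s (by omega) le_rfl
    have hga : s k (q (k + 1)) ≠ q (k + 1) := by
      by_cases h : k = 1
      · subst h
        rw [hyp.hs1q.2]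
        intro h'
        have := hyp.hq 1 2 le_rfl (by omega) (by omega) (by omega) h'
        omega
      · rw [(hyp.hsq k (by omega) hkt').2.1]
        intro h'
        have := hyp.hq k (k + 1) (by omega) (by omega) (by omega) (by omega) h'
        omega
    have hh := hyp.hsq (k + 1) (by omega) (by omega)
    have hnorm : ∀ x ∈ Gk G s k, x (q (k + 1)) = q (k + 1) →
        s (k + 1) * x * (s (k + 1))⁻¹ ∈ Gk G s k := by
      intro x hx hxa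
      by_cases h : k = 1
      · subst h
        rw [Gk_one] at hx ⊢
        exact (hyp.hnorm 2 le_rfl (by omega) x ⟨hx, hxa⟩).1
      · have hx' := hST (by omega) x hx hxa
        have e : k + 1 - 2 = k - 1 := by omega
        have h3 := norm_Gk hyp (k + 1) (by omega) (by omega) x (by
          rw [e]
          exact hx')
        rw [e] at h3
        exact Gk_mono G s (by omega) h3
    have hh2 : s (k + 1) ^ 2 ∈ Gk G s k :=
      G_le_Gk G s k (H_le hyp (hyp.hsq2 (k + 1) (by omega) (by omega)))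
    have hgh : (s k * s (k + 1)) ^ 3 ∈ Gk G s k :=
      G_le_Gk G s k (H_le hyp (hyp.hbraid k hk1 (by omega)))
    have hST' : ∀ g ∈ Gk G s (k + 1), g (q (k + 1 + 1)) = q (k + 1 + 1) → g ∈ Gk G s k := by
      intro x hx hxw
      exact witt_step (Gk G s k) (Dk t q k) (q (k + 1)) (q (k + 2)) (s (k + 1)) (s k) hqk hqw
        hKw hKΔ htr hg hga hh.2.1 hnorm hh2 hgh x (Gk_succ_le G s k hx) hxw
    have hmove : ∀ u : α, (u ∈ Dk t q k ∨ u = q (k + 2)) →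
        ∃ g ∈ Gk G s (k + 1), g u = q (k + 2) := by
      rintro u (hu | hu)
      · obtain ⟨y, hy, hyu⟩ := hTR u (q (k + 1)) hu hqk
        refine ⟨s (k + 1) * y, Subgroup.mul_mem _ (s_mem_Gk G s (by omega) le_rfl)
          (Gk_mono G s (by omega) hy), ?_⟩
        show s (k + 1) (y u) = q (k + 2)
        rw [hyu]
        exact hh.1
      · exact ⟨1, Subgroup.one_mem _, hu⟩
    have hpres : ∀ g ∈ Gk G s (k + 1), ∀ u : α, (u ∈ Dk t q k ∨ u = q (k + 2)) →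
        (g u ∈ Dk t q k ∨ g u = q (k + 2)) := by
      intro g hg u hu
      have h1 : u ∈ Dk t q (k + 1) := by
        rw [hDsucc]
        exact hu
      have h2 := pres hyp (k + 1) (by omega) (by omega) g hg u h1
      rw [hDsucc] at h2
      exact h2
    refine ⟨?_, ?_, fun _ => hST'⟩
    · intro a b c d ha hb hc hd hab hcd
      rw [hDsucc] at ha hb hc hd
      obtain ⟨g₁, hg₁, hg₁a⟩ := hmove a ha
      obtain ⟨g₂, hg₂, hg₂c⟩ := hmove c hc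
      have hb' : g₁ b ∈ Dk t q k := by
        rcases hpres g₁ hg₁ b hb with h | h
        · exact h
        · exact absurd (g₁.injective (hg₁a.trans h.symm)) hab
      have hd' : g₂ d ∈ Dk t q k := by
        rcases hpres g₂ hg₂ d hd with h | h
        · exact h
        · exact absurd (g₂.injective (hg₂c.trans h.symm)) hcd
      obtain ⟨y, hy, hyb⟩ := hTR (g₁ b) (g₂ d) hb' hd'
      refine ⟨g₂⁻¹ * y * g₁, Subgroup.mul_mem _ (Subgroup.mul_mem _ (Subgroup.inv_mem _ hg₂)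
        (Gk_mono G s (by omega) hy)) hg₁, ?_, ?_⟩
      · show g₂⁻¹ (y (g₁ a)) = c
        rw [hg₁a, hKw y hy, ← hg₂c, inv_app]
      · show g₂⁻¹ (y (g₁ b)) = d
        rw [hyb, inv_app]
    · rw [hDsucc]
      exact MT_succ (Gk G s k) (Gk G s (k + 1)) (Dk t q k) (q (k + 2)) (k + 1)
        (Gk_mono G s (by omega)) hKw hmove hpres hMT

end chain

/-- Witt's Lemma for constructing transitive extensions. Points `q 1, …, q t` (`t ≥ 2`) of a finite set are given; `G` fixes `q i` for `i ≥ 3` and is doubly transitive on the remaining points; `s 1 ∈ G` swaps `q 1, q 2`; for `2 ≤ i ≤ t-1`, `s i` swaps `q i, q (i+1)` and fixes the other `q j`; with `H` the stabiliser of `q 1, q 2` in `G`: `s i ^ 2 ∈ H`, `(s i * s (i+1)) ^ 3 ∈ H`, `(s i * s j) ^ 2 ∈ H` for `j ≥ i + 2`, and `s i` (`i ≥ 2`) normalises the stabiliser of `q 2` in `G`. Then `G` and the `s i` generate a `t`-transitive group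 whose pointwise stabiliser of the `q`'s is `H`. -/
theorem result {α : Type*} [Fintype α] [DecidableEq α] (t : ℕ) (ht : 2 ≤ t) (q : ℕ → α) (hq : ∀ i j : ℕ, 1 ≤ i → i ≤ t → 1 ≤ j → j ≤ t → q i = q j → i = j) (G : Subgroup (Equiv.Perm α)) (hfix : ∀ g ∈ G, ∀ i : ℕ, 3 ≤ i → i ≤ t → g (q i) = q i) (h2 : ∀ a b c d : α, (∀ i, 3 ≤ i → i ≤ t → a ≠ q i ∧ b ≠ q i ∧ c ≠ q i ∧ d ≠ q i) → a ≠ b → c ≠ d → ∃ g ∈ G, g a = c ∧ g b = d) (s : ℕ → Equiv.Perm α) (hs1 : s 1 ∈ G) (hs1q : s 1 (q 1) = q 2 ∧ s 1 (q 2) = q 1) (hsq : ∀ i : ℕ, 2 ≤ i → i + 1 ≤ t → s i (q i) = q (i + 1) ∧ s i (q (i + 1)) = q i ∧ ∀ j : ℕ, 1 ≤ j → j ≤ t → j ≠ i → j ≠ i + 1 → s i (q j) = q j) (H : Subgroup (Equiv.Perm α)) (hH : H = G ⊓ MulAction.stabilizer (Equiv.Perm α) (q 1) ⊓ MulAction.stabilizer (Equiv.Perm α) (q 2)) (hsq2 : ∀ i : ℕ, 1 ≤ i → i + 1 ≤ t → s i ^ 2 ∈ H) (hbraid : ∀ i : ℕ, 1 ≤ i → i + 2 ≤ t → (s i * s (i +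 1)) ^ 3 ∈ H) (hcomm : ∀ i j : ℕ, 1 ≤ i → i + 2 ≤ j → j + 1 ≤ t → (s i * s j) ^ 2 ∈ H ∧ (s j * s i) ^ 2 ∈ H) (hnorm : ∀ i : ℕ, 2 ≤ i → i + 1 ≤ t → ∀ g ∈ G ⊓ MulAction.stabilizer (Equiv.Perm α) (q 2), s i * g * (s i)⁻¹ ∈ G ⊓ MulAction.stabilizer (Equiv.Perm α) (q 2)) : MulAction.IsMultiplyPretransitive ↥(Subgroup.closure ((G : Set (Equiv.Perm α)) ∪ {x | ∃ i : ℕ, 2 ≤ i ∧ i + 1 ≤ t ∧ x = s i})) α t ∧ Subgroup.closure ((G : Set (Equiv.Perm α)) ∪ {x | ∃ i : ℕ, 2 ≤ i ∧ i + 1 ≤ t ∧ x = s i}) ⊓ fixingSubgroup (Equiv.Perm α) {x | ∃ i : ℕ, 1 ≤ i ∧ i ≤ t ∧ x = q i} = H := by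
  have hyp : Hyp t q G s H :=
    ⟨ht, hq, hfix, h2, hs1, hs1q, hsq, hH, hsq2, hbraid, hcomm, hnorm⟩
  have hset : {x | ∃ i : ℕ, 2 ≤ i ∧ i + 1 ≤ t ∧ x = s i} =
      {x | ∃ i : ℕ, 2 ≤ i ∧ i ≤ t - 1 ∧ x = s i} := by
    ext x
    constructor
    · rintro ⟨i, h1, h2, rfl⟩
      exact ⟨i, h1, by omega, rfl⟩
    · rintro ⟨i, h1, h2, rfl⟩
      exact ⟨i, h1, by omega, rfl⟩
  have hcl : Subgroup.closure ((G : Set (Equiv.Perm α)) ∪
      {x | ∃ i : ℕ, 2 ≤ i ∧ i + 1 ≤ t ∧ x = s i}) = Gk G s (t - 1) := by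
    rw [hset]
    rfl
  rw [hcl]
  obtain ⟨-, hMT, -⟩ := main hyp (t - 1) (by omega) (by omega)
  constructor
  · rw [MulAction.isMultiplyPretransitive_iff]
    intro x y
    have ht1 : t - 1 + 1 = t := by omega
    rw [ht1] at hMT
    obtain ⟨g, hg, hgxy⟩ := hMT x y x.injective y.injective
      (fun i j hj1 hj2 => by omega) (fun i j hj1 hj2 => by omega)
    refine ⟨⟨g, hg⟩, ?_⟩
    ext i
    exact hgxy i
  · have hdesc : ∀ k : ℕ, 1 ≤ k → k + 1 ≤ t → ∀ x ∈ Gk G s k,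
        (∀ i, 1 ≤ i → i ≤ t → x (q i) = q i) → x ∈ G := by
      intro k hk1
      induction k, hk1 using Nat.le_induction with
      | base =>
        intro _ x hx _
        rwa [Gk_one] at hx
      | succ k hk1 ih =>
        intro hkt x hx hfixall
        have h3 := (main hyp (k + 1) (by omega) hkt).2.2 (by omega) x hx
          (hfixall (k + 1 + 1) (by omega) (by omega))
        exact ih (by omega) x h3 hfixall
    apply le_antisymm
    · rintro x ⟨hx1, hx2⟩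
      have hx2' : ∀ i, 1 ≤ i → i ≤ t → x (q i) = q i := by
        intro i hi1 hi2
        exact (mem_fixingSubgroup_iff _).mp hx2 (q i) ⟨i, hi1, hi2, rfl⟩
      have hxG := hdesc (t - 1) (by omega) (by omega) x hx1 hx2'
      rw [hH]
      exact ⟨⟨hxG, hx2' 1 le_rfl (by omega)⟩, hx2' 2 (by omega) ht⟩
    · intro x hx
      have hxG : x ∈ G := H_le hyp hx
      refine ⟨G_le_Gk G s _ hxG, ?_⟩
      refine (mem_fixingSubgroup_iff _).mpr ?_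
      rintro _ ⟨i, hi1, hi2, rfl⟩
      show x (q i) = q i
      rw [hH] at hx
      by_cases h1 : i = 1
      · rw [h1]
        exact hx.1.2
      · by_cases h2' : i = 2
        · rw [h2']
          exact hx.2
        · exact hfix x hxG i (by omega) hi2

end Cfsg.Agent.S0709
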