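import Cfsg.Statements.S0710
import Mathlib

set_option autoImplicit false
open Cfsg

namespace Cfsg.Agent.S0710

/-- No transitive permutation group on 13 points has order `13 * 12 * 11 * 10 * 9 * 8`. -/
theorem result {α : Type*} [Fintype α] [DecidableEq α] (hα : Fintype.card α = 13) (G : Subgroup (Equiv.Perm α)) [MulAction.IsPretransitive G α] : Nat.card G ≠ 13 * 12 * 11 * 10 * 9 * 8 := by
  classical
  intro hcard
  have hprime : Nat.Prime 13 := by norm_num
  have hfact : Fact (Nat.Prime 13) := ⟨hprime⟩
  obtain ⟨P⟩ : Nonempty (Sylow 13 G) := inferInstance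
  obtain ⟨n, hn⟩ := P.2.exists_card_eq
  have h13 : 13 ∣ Nat.card (P : Subgroup G) :=
    P.dvd_card_of_dvd_card (by rw [hcard]; norm_num)
  have hdvd : Nat.card (P : Subgroup G) ∣ Nat.card G := Subgroup.card_subgroup_dvd_card _
  have hn1 : n = 1 := by
    rw [hn] at h13 hdvd
    rw [hcard] at hdvd
    have h0 : n ≠ 0 := by
      rintro rfl
      rw [pow_zero] at h13
      exact absurd h13 (by norm_num)
    have h2 : n < 2 := by
      by_contra hcon
      have h169 : 13 ^ 2 ∣ 13 ^ n := pow_dvd_pow 13 (not_lt.mp hcon)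
      have := h169.trans hdvd
      revert this
      norm_num
    omega
  have hP13 : Nat.card (P : Subgroup G) = 13 := by rw [hn, hn1, pow_one]
  have hcyc : IsCyclic (P : Subgroup G) := isCyclic_of_prime_card (p := 13) hP13
  have key := Subgroup.card_dvd_of_injective _
    (QuotientGroup.kerLift_injective (P : Subgroup G).normalizerMonoidHom)
  rw [Subgroup.normalizerMonoidHom_ker, ← Subgroup.index, ← Subgroup.relIndex] at key
  rw [IsCyclic.card_mulAut, hP13, Nat.totient_prime hprime] at key
  -- the centraliser has order 13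
  have hPnt : ∃ g : G, g ∈ (P : Subgroup G) ∧ g ≠ 1 := by
    by_contra hcon
    push Not at hcon
    have hbot : (P : Subgroup G) = ⊥ := by
      rw [eq_bot_iff]
      intro g hg
      exact Subgroup.mem_bot.mpr (hcon g hg)
    rw [hbot, Subgroup.card_bot] at hP13
    omega
  obtain ⟨g0, hg0P, hg01⟩ := hPnt
  have hmove : ∃ a : α, (g0 : Equiv.Perm α) a ≠ a := by
    by_contra hcon
    push Not at hcon
    apply hg01
    apply Subtype.ext
    ext x
    exact hcon x
  obtain ⟨a, ha⟩ := hmove
  have hPprime : Fact (Nat.card (P : Subgroup G)).Prime := ⟨by rw [hP13]; exact hprime⟩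
  have hstab : MulAction.stabilizer (P : Subgroup G) a = ⊥ := by
    rcases Subgroup.eq_bot_or_eq_top_of_prime_card (MulAction.stabilizer (P : Subgroup G) a)
      with h | h
    · exact h
    · exfalso
      have : (⟨g0, hg0P⟩ : (P : Subgroup G)) ∈ MulAction.stabilizer (P : Subgroup G) a := by
        rw [h]; trivial
      exact ha this
  have hinjP : Function.Injective (fun p : (P : Subgroup G) => ((p : G) : Equiv.Perm α) a) := by
    intro p q hpq
    have hpq' : p • a = q • a := hpq
    have : p⁻¹ * q ∈ MulAction.stabilizer (P : Subgroup G) a := by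
      rw [MulAction.mem_stabilizer_iff, mul_smul, ← hpq', inv_smul_smul]
    rw [hstab, Subgroup.mem_bot] at this
    exact inv_mul_eq_one.mp this
  have hbijP : Function.Bijective (fun p : (P : Subgroup G) => ((p : G) : Equiv.Perm α) a) := by
    apply hinjP.bijective_of_nat_card_le
    rw [hP13, Nat.card_eq_fintype_card, hα]
  have hfix : ∀ c : G, c ∈ Subgroup.centralizer ((P : Subgroup G) : Set G) →
      (c : Equiv.Perm α) a = a → c = 1 := by
    intro c hc hca
    apply Subtype.ext
    ext b
    obtain ⟨p, rfl⟩ := hbijP.2 b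
    have h1 := hc (p : G) p.2
    have h2 := congrArg (fun g : G => (g : Equiv.Perm α) a) h1
    change ((p : G) : Equiv.Perm α) ((c : Equiv.Perm α) a) = (c : Equiv.Perm α) (((p : G) : Equiv.Perm α) a) at h2
    change (c : Equiv.Perm α) (((p : G) : Equiv.Perm α) a) = ((p : G) : Equiv.Perm α) a
    rw [← h2, hca]
  have hinjC : Function.Injective
      (fun c : Subgroup.centralizer ((P : Subgroup G) : Set G) => ((c : G) : Equiv.Perm α) a) := by
    intro c c' h
    have h' : ((c : G) : Equiv.Perm α) a = ((c' : G) : Equiv.Perm α) a := h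
    have hmem : (c : G)⁻¹ * (c' : G) ∈ Subgroup.centralizer ((P : Subgroup G) : Set G) :=
      Subgroup.mul_mem _ (Subgroup.inv_mem _ c.2) c'.2
    have : (c : G)⁻¹ * (c' : G) = 1 := by
      apply hfix _ hmem
      change ((c : G) : Equiv.Perm α)⁻¹ (((c' : G) : Equiv.Perm α) a) = a
      rw [← h']
      exact ((c : G) : Equiv.Perm α).symm_apply_apply a
    exact Subtype.ext (inv_mul_eq_one.mp this)
  have hCle : Nat.card (Subgroup.centralizer ((P : Subgroup G) : Set G)) ≤ 13 := by
    have := Nat.card_le_card_of_injective _ hinjC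
    rwa [Nat.card_eq_fintype_card (α := α), hα] at this
  have hPC : (P : Subgroup G) ≤ Subgroup.centralizer ((P : Subgroup G) : Set G) :=
    Subgroup.le_centralizer _
  have hCdvd : 13 ∣ Nat.card (Subgroup.centralizer ((P : Subgroup G) : Set G)) := by
    have := Subgroup.card_dvd_of_le hPC
    rwa [hP13] at this
  have hCpos : 0 < Nat.card (Subgroup.centralizer ((P : Subgroup G) : Set G)) := Nat.card_pos
  have hC13 : Nat.card (Subgroup.centralizer ((P : Subgroup G) : Set G)) = 13 := by
    obtain ⟨k, hk⟩ := hCdvd
    rw [hk] at hCle hCpos ⊢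
    have : k = 1 := by omega
    rw [this]
  have h1 := Subgroup.relIndex_mul_index
    (Subgroup.centralizer_le_normalizer ((P : Subgroup G) : Set G))
  have h2 := Subgroup.card_mul_index (Subgroup.centralizer ((P : Subgroup G) : Set G))
  have h3 := card_sylow_modEq_one 13 G
  rw [P.card_eq_index_normalizer] at h3
  rw [hC13, hcard, ← h1] at h2
  generalize (Subgroup.centralizer ((P : Subgroup G) : Set G)).relIndex
    (Subgroup.normalizer ((P : Subgroup G) : Set G)) = d at key h2
  generalize (Subgroup.normalizer ((P : Subgroup G) : Set G)).index = m at h2 h3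
  have hd : d ≤ 12 := Nat.le_of_dvd (by norm_num) key
  have hd0 : 0 < d := Nat.pos_of_dvd_of_pos key (by norm_num)
  unfold Nat.ModEq at h3
  interval_cases d <;> omega

end Cfsg.Agent.S0710
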