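import Cfsg.Statements.S0714
import Mathlib

set_option autoImplicit false
open Cfsg

namespace Cfsg.Agent.S0714

variable {α : Type*} [Fintype α] [DecidableEq α] {K : Type*} [Field K]

theorem swap_mul_swap_mem {a b c d : α} (hab : a ≠ b) (hcd : c ≠ d) :
    Equiv.swap a b * Equiv.swap c d ∈ alternatingGroup α := by
  rw [Equiv.Perm.mem_alternatingGroup, Equiv.Perm.sign_mul, Equiv.Perm.sign_swap hab,
    Equiv.Perm.sign_swap hcd]
  rfl

/-- a non-constant vector in an invariant subspace yields a difference of two basis vectors -/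
theorem exists_single_sub_single (hα : 5 ≤ Fintype.card α) (W : Submodule K (α → K))
    (hinv : ∀ τ : Equiv.Perm α, τ ∈ alternatingGroup α → ∀ w ∈ W, (fun x => w (τ x)) ∈ W)
    (w : α → K) (hw : w ∈ W) (a b : α) (hwab : w a ≠ w b) :
    ∃ b d : α, b ≠ d ∧ (Pi.single b (1 : K) - Pi.single d (1 : K) : α → K) ∈ W := by
  have hab : a ≠ b := fun h => hwab (by rw [h])
  have hcard : 2 < ((Finset.univ : Finset α) \ {a, b}).card := by
    rw [Finset.card_univ_sdiff, Finset.card_pair hab]
    omega
  obtain ⟨c, hc, d, hd, e, he, hcd, hce, hde⟩ := Finset.two_lt_card.mp hcard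
  simp only [Finset.mem_sdiff, Finset.mem_univ, true_and, Finset.mem_insert,
    Finset.mem_singleton, not_or] at hc hd he
  obtain ⟨hca, hcb⟩ := hc
  obtain ⟨hda, hdb⟩ := hd
  obtain ⟨hea, heb⟩ := he
  -- first step
  set τ₁ : Equiv.Perm α := Equiv.swap b c * Equiv.swap a b with hτ₁
  have hτ₁mem : τ₁ ∈ alternatingGroup α := swap_mul_swap_mem (Ne.symm hcb) hab
  set u : α → K := fun x => w x - w (τ₁ x) with hu
  have huW : u ∈ W := W.sub_mem hw (hinv τ₁ hτ₁mem w hw)
  have hub : u b = w b - w a := by
    simp only [hu, hτ₁, Equiv.Perm.mul_apply, Equiv.swap_apply_right]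
    rw [Equiv.swap_apply_of_ne_of_ne hab (Ne.symm hca)]
  have hub0 : u b ≠ 0 := by
    rw [hub]
    exact sub_ne_zero.mpr (Ne.symm hwab)
  have hu0 : ∀ x : α, x ≠ a → x ≠ b → x ≠ c → u x = 0 := by
    intro x hxa hxb hxc
    simp only [hu, hτ₁, Equiv.Perm.mul_apply]
    rw [Equiv.swap_apply_of_ne_of_ne hxa hxb, Equiv.swap_apply_of_ne_of_ne hxb hxc, sub_self]
  -- second step
  set τ₂ : Equiv.Perm α := Equiv.swap d e * Equiv.swap b d with hτ₂
  have hτ₂mem : τ₂ ∈ alternatingGroup α := swap_mul_swap_mem hde (Ne.symm hdb)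
  set v : α → K := fun x => u x - u (τ₂ x) with hv
  have hvW : v ∈ W := W.sub_mem huW (hinv τ₂ hτ₂mem u huW)
  have hveq : v = u b • (Pi.single b (1 : K) - Pi.single d (1 : K) : α → K) := by
    funext x
    simp only [hv, hτ₂, Equiv.Perm.mul_apply, Pi.smul_apply, Pi.sub_apply, smul_eq_mul]
    by_cases hxb : x = b
    · subst hxb
      rw [Equiv.swap_apply_left, Equiv.swap_apply_left, hu0 e hea heb (Ne.symm hce)]
      simp [Ne.symm hdb]
    · by_cases hxd : x = d
      · subst hxd
        rw [Equiv.swap_apply_right, Equiv.swap_apply_of_ne_of_ne (Ne.symm hxb) (Ne.symm heb),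
          hu0 x hda hdb (Ne.symm hcd)]
        simp [hxb]
      · by_cases hxe : x = e
        · subst hxe
          rw [Equiv.swap_apply_of_ne_of_ne hxb hxd, Equiv.swap_apply_right,
            hu0 x hea heb (Ne.symm hce), hu0 d hda hdb (Ne.symm hcd)]
          simp [hxb, hxd]
        · rw [Equiv.swap_apply_of_ne_of_ne hxb hxd, Equiv.swap_apply_of_ne_of_ne hxd hxe]
          simp [hxb, hxd]
  refine ⟨b, d, Ne.symm hdb, ?_⟩
  have : (Pi.single b (1 : K) - Pi.single d (1 : K) : α → K) = (u b)⁻¹ • v := by
    rw [hveq, smul_smul, inv_mul_cancel₀ hub0, one_smul]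
  rw [this]
  exact W.smul_mem _ hvW

theorem two_trans (hα : 5 ≤ Fintype.card α) {b d x y : α} (hbd : b ≠ d) (hxy : x ≠ y) :
    ∃ g : Equiv.Perm α, g ∈ alternatingGroup α ∧ g b = x ∧ g d = y := by
  have h1 : MulAction.IsMultiplyPretransitive (alternatingGroup α) α (Nat.card α - 2) :=
    alternatingGroup.isMultiplyPretransitive α
  have h2 : MulAction.IsMultiplyPretransitive (alternatingGroup α) α 2 := by
    have hle : 2 ≤ Nat.card α - 2 := by
      rw [Nat.card_eq_fintype_card]; omega
    exact MulAction.isMultiplyPretransitive_of_le hle (by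
      rw [Nat.card_eq_fintype_card]
      simp)
  obtain ⟨g, hg1, hg2⟩ := MulAction.is_two_pretransitive_iff.mp h2 hbd hxy
  exact ⟨g.1, g.2, hg1, hg2⟩

/-- an invariant subspace containing a non-constant vector contains all sum-zero vectors -/
theorem sumZero_le (hα : 5 ≤ Fintype.card α) (W : Submodule K (α → K))
    (hinv : ∀ τ : Equiv.Perm α, τ ∈ alternatingGroup α → ∀ w ∈ W, (fun x => w (τ x)) ∈ W)
    (w : α → K) (hw : w ∈ W) (a b : α) (hwab : w a ≠ w b) (f : α → K) (hf : ∑ x, f x = 0) :
    f ∈ W := by
  obtain ⟨b, d, hbd, hbdW⟩ := exists_single_sub_single hα W hinv w hw a b hwab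
  have hall : ∀ x y : α, (Pi.single x (1 : K) - Pi.single y (1 : K) : α → K) ∈ W := by
    intro x y
    by_cases hxy : x = y
    · rw [hxy, sub_self]; exact W.zero_mem
    · obtain ⟨g, hg, hgb, hgd⟩ := two_trans hα hbd hxy
      have := hinv g⁻¹ (inv_mem hg) _ hbdW
      convert this using 1
      funext z
      simp only [Pi.sub_apply, Pi.single_apply]
      rw [← hgb, ← hgd]
      congr 1
      · refine if_congr ?_ rfl rfl
        rw [Equiv.Perm.inv_eq_iff_eq]
      · refine if_congr ?_ rfl rfl
        rw [Equiv.Perm.inv_eq_iff_eq]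
  have hfeq : f = ∑ x, f x • (Pi.single x (1 : K) - Pi.single a (1 : K) : α → K) := by
    funext z
    simp only [Finset.sum_apply, Pi.smul_apply, Pi.sub_apply, Pi.single_apply, smul_eq_mul,
      mul_sub, Finset.sum_sub_distrib, mul_ite, mul_one, mul_zero]
    rw [Finset.sum_ite_eq, if_pos (Finset.mem_univ _)]
    by_cases hza : z = a
    · simp [hza, hf]
    · simp [hza]
  rw [hfeq]
  exact W.sum_mem (fun x _ => W.smul_mem _ (hall x a))

/-- Over any field, the permutation module of the alternating group of degree at least 5 has exactly four invariant subspaces: zero, the constant functions, the functions with coordinate sum zero, and everything. -/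
theorem result {α : Type*} [Fintype α] [DecidableEq α] (hα : 5 ≤ Fintype.card α) {K : Type*} [Field K] (W : Subrepresentation (Cfsg.permRep K (alternatingGroup α) α)) : W.toSubmodule = ⊥ ∨ W = Cfsg.permConstants K (alternatingGroup α) α ∨ W = Cfsg.permSumZero K (alternatingGroup α) α ∨ W.toSubmodule = ⊤ := by
  have hinv : ∀ τ : Equiv.Perm α, τ ∈ alternatingGroup α → ∀ w ∈ W.toSubmodule,
      (fun x => w (τ x)) ∈ W.toSubmodule := by
    intro τ hτ w hw
    have := W.apply_mem_toSubmodule (⟨τ⁻¹, inv_mem hτ⟩ : alternatingGroup α) hw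
    convert this using 1
    funext x
    change w (τ x) = w ((⟨τ⁻¹, inv_mem hτ⟩ : alternatingGroup α)⁻¹ • x)
    congr 1
  by_cases hconst : ∀ w ∈ W.toSubmodule, ∀ a b : α, w a = w b
  · -- all vectors constant
    by_cases hbot : W.toSubmodule = ⊥
    · exact Or.inl hbot
    · right; left
      apply Subrepresentation.toSubmodule_injective
      change W.toSubmodule = Submodule.span K {fun _ => (1 : K)}
      obtain ⟨w, hw, hw0⟩ := (Submodule.ne_bot_iff _).mp hbot
      have hne : ∃ a : α, w a ≠ 0 := by
        by_contra hcon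
        push Not at hcon
        exact hw0 (funext hcon)
      obtain ⟨a, ha⟩ := hne
      have hweq : w = w a • (fun _ => (1 : K)) := by
        funext x
        simp [hconst w hw x a]
      apply le_antisymm
      · intro w' hw'
        rw [Submodule.mem_span_singleton]
        obtain ⟨a'⟩ : Nonempty α := ⟨a⟩
        refine ⟨w' a', ?_⟩
        funext x
        simp [hconst w' hw' x a']
      · rw [Submodule.span_singleton_le_iff_mem]
        have : (fun _ => (1 : K)) = (w a)⁻¹ • w := by
          funext x
          simp [hconst w hw x a, ha]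
        rw [this]
        exact W.toSubmodule.smul_mem _ hw
  · push Not at hconst
    obtain ⟨w, hw, a, b, hwab⟩ := hconst
    have hle : ∀ f : α → K, ∑ x, f x = 0 → f ∈ W.toSubmodule :=
      fun f hf => sumZero_le hα W.toSubmodule hinv w hw a b hwab f hf
    right; right
    by_cases hsum : ∀ w' ∈ W.toSubmodule, ∑ x, w' x = 0
    · left
      apply Subrepresentation.toSubmodule_injective
      ext f
      constructor
      · intro hf
        exact hsum f hf
      · intro hf
        exact hle f hf
    · right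
      push Not at hsum
      obtain ⟨w', hw', hc⟩ := hsum
      rw [eq_top_iff]
      intro f _
      have hdec : f = (f - ((∑ x, f x) / (∑ x, w' x)) • w') + ((∑ x, f x) / (∑ x, w' x)) • w' := by
        abel
      rw [hdec]
      apply W.toSubmodule.add_mem
      · apply hle
        simp only [Pi.sub_apply, Pi.smul_apply, smul_eq_mul, Finset.sum_sub_distrib,
          ← Finset.mul_sum]
        rw [div_mul_cancel₀ _ hc, sub_self]
      · exact W.toSubmodule.smul_mem _ hw'

end Cfsg.Agent.S0714
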