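import Cfsg.Statements.S0715
import Cfsg.Agent.Lib.Helper17.PermMod

set_option autoImplicit false
open Cfsg

namespace Cfsg.Agent.S0715

open Cfsg.Agent.Lib.Helper17 Cfsg.Agent.Lib.Helper4

/-- If a natural number `f` divides the degree of every non-principal irreducible constituent of the permutation character of a transitive group, then `f` divides every non-trivial subdegree. -/
theorem result {G : Type*} [Group G] [Fintype G] {Ω : Type*} [Fintype Ω] [MulAction G Ω] [MulAction.IsPretransitive G Ω] (f : ℕ) (hf : ∀ χ : G → ℂ, Cfsg.IsIrrCharacter G χ → χ ≠ (fun _ => 1) → Cfsg.classInner (fun g : G => (Nat.card (MulAction.fixedBy Ω g) : ℂ)) χ ≠ 0 → ∃ m : ℕ, χ 1 = (f : ℂ) * m) (a b : Ω) (hab : b ≠ a) : f ∣ Nat.card (MulAction.orbit (MulAction.stabilizer G a) b) := by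
  classical
  have := irr_finite (G := G)
  let _ : Fintype (IrrCharacter G) := Fintype.ofFinite _
  -- orbital matrix
  let B : Matrix Ω Ω ℤ := Matrix.of fun α β => if ∃ g : G, g • a = α ∧ g • b = β then 1 else 0
  have hAapp : ∀ α β, (B.map (Int.castRingHom ℂ)) α β =
      if ∃ g : G, g • a = α ∧ g • b = β then 1 else 0 := by
    intro α β
    simp only [B, Matrix.map_apply, Matrix.of_apply]
    split_ifs <;> simp
  have hA : InvMat G (B.map (Int.castRingHom ℂ)) := by
    intro g α β
    rw [hAapp, hAapp]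
    congr 1
    rw [eq_iff_iff]
    constructor
    · rintro ⟨h, h1, h2⟩
      exact ⟨g⁻¹ * h, by rw [mul_smul, h1, inv_smul_smul], by rw [mul_smul, h2, inv_smul_smul]⟩
    · rintro ⟨h, h1, h2⟩
      exact ⟨g * h, by rw [mul_smul, h1], by rw [mul_smul, h2]⟩
  have htr : Matrix.trace (B.map (Int.castRingHom ℂ)) = 0 := by
    rw [Matrix.trace]
    apply Finset.sum_eq_zero
    intro α _
    rw [Matrix.diag_apply, hAapp, if_neg]
    rintro ⟨g, h1, h2⟩
    exact hab (smul_left_cancel g (h2.trans h1.symm))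
  have hrow : ∑ β, (B.map (Int.castRingHom ℂ)) a β =
      (Nat.card (MulAction.orbit (MulAction.stabilizer G a) b) : ℂ) := by
    simp only [hAapp]
    rw [Finset.sum_boole]
    have : (MulAction.orbit (MulAction.stabilizer G a) b) =
        ((Finset.univ.filter fun β => ∃ g : G, g • a = a ∧ g • b = β : Finset Ω) : Set Ω) := by
      ext β
      simp only [MulAction.mem_orbit_iff, Finset.coe_filter, Finset.mem_univ, true_and,
        Set.mem_ofPred_eq]
      constructor
      · rintro ⟨s, hs⟩
        exact ⟨s.1, s.2, hs⟩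
      · rintro ⟨g, hg, hgb⟩
        exact ⟨⟨g, hg⟩, hgb⟩
    rw [this, Nat.card_coe_set_eq, Set.ncard_coe_finset]
  have hsum := sum_irr_theta (G := G) (B.map (Int.castRingHom ℂ))
  rw [htr] at hsum
  let t : IrrCharacter G := trivIrr
  rw [← Finset.add_sum_erase Finset.univ _ (Finset.mem_univ t)] at hsum
  have ht : (t : G → ℂ) 1 * theta (t : G → ℂ) (B.map (Int.castRingHom ℂ)) =
      (Nat.card (MulAction.orbit (MulAction.stabilizer G a) b) : ℂ) := by
    show (1 : ℂ) * theta (fun _ => 1) (B.map (Int.castRingHom ℂ)) = _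
    rw [one_mul, theta_one hA a, hrow]
  have hrest : ∃ z : ℂ, IsIntegral ℤ z ∧ ∑ χ ∈ Finset.univ.erase t,
      (χ : G → ℂ) 1 * theta (χ : G → ℂ) (B.map (Int.castRingHom ℂ)) = f * z := by
    have : ∀ χ ∈ Finset.univ.erase t, ∃ z : ℂ, IsIntegral ℤ z ∧
        (χ : G → ℂ) 1 * theta (χ : G → ℂ) (B.map (Int.castRingHom ℂ)) = f * z := by
      intro χ hχ
      have hne : χ ≠ t := (Finset.mem_erase.mp hχ).1
      by_cases h0 : classInner (fun g : G => (Nat.card (MulAction.fixedBy Ω g) : ℂ)) χ = 0
      · refine ⟨0, isIntegral_zero, ?_⟩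
        rw [theta_eq_zero χ.2 h0, mul_zero, mul_zero]
      · obtain ⟨m, hm⟩ := hf χ χ.2 (fun h => hne (Subtype.ext h)) h0
        have hm' : IsIntegral ℤ (m : ℂ) := by
          have := isIntegral_algebraMap (R := ℤ) (A := ℂ) (x := (m : ℤ))
          simpa using this
        refine ⟨m * theta (χ : G → ℂ) (B.map (Int.castRingHom ℂ)),
          hm'.mul (theta_isIntegral χ.2 B hA), ?_⟩
        rw [hm]; ring
    choose! z hz1 hz2 using this
    refine ⟨∑ χ ∈ Finset.univ.erase t, z χ, IsIntegral.sum _ (fun χ hχ => hz1 χ hχ), ?_⟩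
    rw [Finset.mul_sum]
    exact Finset.sum_congr rfl fun χ hχ => hz2 χ hχ
  obtain ⟨z, hz, hrest⟩ := hrest
  rw [ht, hrest] at hsum
  by_cases hf0 : f = 0
  · subst hf0
    simp only [Nat.cast_zero, zero_mul, add_zero] at hsum
    rw [show Nat.card (MulAction.orbit (MulAction.stabilizer G a) b) = 0 from by exact_mod_cast hsum]
  · apply dvd_of_isIntegral_div _ _ hf0
    have hfc : (f : ℂ) ≠ 0 := by exact_mod_cast hf0
    have : (Nat.card (MulAction.orbit (MulAction.stabilizer G a) b) : ℂ) / f = -z := by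
      field_simp
      linear_combination hsum
    rw [this]
    exact hz.neg

end Cfsg.Agent.S0715
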