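import Cfsg.Statements.S0716
import Cfsg.Agent.Lib.Helper17.PermMod3
import Cfsg.Agent.S0715

set_option autoImplicit false
open Cfsg

namespace Cfsg.Agent.S0716

open Cfsg.Agent.Lib.Helper17 Cfsg.Agent.Lib.Helper4

/-- Part (a) in terms of multiplicities and degrees as natural numbers. -/
theorem partA {G : Type*} [Group G] [Fintype G] {Ω : Type*} [Fintype Ω] [MulAction G Ω]
    [MulAction.IsPretransitive G Ω] [Fintype (IrrCharacter G)] (a : Ω) (f : ℕ)
    (hf : ∀ χ : IrrCharacter G, χ ≠ trivIrr → mult G Ω χ ≠ 0 → deg χ = f) :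
    (∀ χ : IrrCharacter G, mult G Ω χ ≤ 1) ∧
      ∀ b : Ω, b ≠ a → Nat.card (MulAction.orbit (MulAction.stabilizer G a) b) = f := by
  classical
  set t : IrrCharacter G := trivIrr with ht
  have hmt : mult G Ω t = 1 := mult_triv (G := G) a
  have hdt : deg t = 1 := by
    have h1 := deg_spec t
    have h2 : (t : G → ℂ) 1 = 1 := rfl
    rw [h2] at h1
    exact_mod_cast h1.symm
  have hN := card_eq_sum_mult_deg (G := G) (Ω := Ω)
  rw [← Finset.add_sum_erase Finset.univ _ (Finset.mem_univ t), hmt, hdt] at hN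
  have hN2 : ∑ χ ∈ Finset.univ.erase t, mult G Ω χ * deg χ =
      (∑ χ ∈ Finset.univ.erase t, mult G Ω χ) * f := by
    rw [Finset.sum_mul]
    refine Finset.sum_congr rfl fun χ hχ => ?_
    by_cases h0 : mult G Ω χ = 0
    · rw [h0, zero_mul, zero_mul]
    · rw [hf χ (Finset.mem_erase.mp hχ).1 h0]
  rw [hN2] at hN
  have hr := rank_eq_sum_sq (G := G) a
  rw [← Finset.add_sum_erase Finset.univ _ (Finset.mem_univ t), hmt] at hr
  -- S0715
  have hdvd : ∀ b : Ω, b ≠ a →
      f ≤ Nat.card (MulAction.orbit (MulAction.stabilizer G a) b) := by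
    intro b hb
    have h1 := Cfsg.Agent.S0715.result (G := G) (Ω := Ω) f (by
      intro χ hχ hne h0
      refine ⟨1, ?_⟩
      have hne' : (⟨χ, hχ⟩ : IrrCharacter G) ≠ t := fun h => hne (congrArg Subtype.val h)
      have hm : mult G Ω ⟨χ, hχ⟩ ≠ 0 := by
        intro hm0
        apply h0
        have := mult_spec (G := G) (Ω := Ω) ⟨χ, hχ⟩
        rw [hm0, Nat.cast_zero] at this
        exact this
      have h2 := hf ⟨χ, hχ⟩ hne' hm
      have h3 := deg_spec (⟨χ, hχ⟩ : IrrCharacter G)
      rw [h2] at h3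
      simpa using h3) a b hb
    have hpos : 0 < Nat.card (MulAction.orbit (MulAction.stabilizer G a) b) := by
      have : Nonempty (MulAction.orbit (MulAction.stabilizer G a) b) :=
        ⟨⟨b, MulAction.mem_orbit_self b⟩⟩
      exact Nat.card_pos
    exact Nat.le_of_dvd hpos h1
  obtain ⟨hb1, hb2⟩ := suborbit_bound (G := G) a f hdvd
  rw [hr] at hb1 hb2
  simp only [one_pow, add_tsub_cancel_left] at hb1 hb2
  rcases Nat.eq_zero_or_pos f with hf0 | hfpos
  · -- no non-principal constituents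
    have hz : ∀ χ : IrrCharacter G, χ ≠ t → mult G Ω χ = 0 := by
      intro χ hχ
      by_contra h0
      have := hf χ hχ h0
      have := deg_pos χ
      omega
    refine ⟨fun χ => ?_, fun b hb => ?_⟩
    · by_cases hχ : χ = t
      · rw [hχ, hmt]
      · rw [hz χ hχ]; exact Nat.zero_le 1
    · exfalso
      rw [hf0, mul_zero, add_zero] at hN
      have : Subsingleton Ω := Fintype.card_le_one_iff_subsingleton.mp hN.le
      exact hb (Subsingleton.elim b a)
  · have hle : ∑ χ ∈ Finset.univ.erase t, mult G Ω χ ^ 2 ≤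
        ∑ χ ∈ Finset.univ.erase t, mult G Ω χ := by
      apply Nat.le_of_mul_le_mul_right _ hfpos
      omega
    have hge : ∀ χ ∈ Finset.univ.erase t, mult G Ω χ ≤ mult G Ω χ ^ 2 :=
      fun χ _ => Nat.le_self_pow (by norm_num) _
    have heq := le_antisymm (Finset.sum_le_sum hge) hle
    have hterm := (Finset.sum_eq_sum_iff_of_le hge).mp heq
    refine ⟨fun χ => ?_, ?_⟩
    · by_cases hχ : χ = t
      · rw [hχ, hmt]
      · have h1 := hterm χ (Finset.mem_erase.mpr ⟨hχ, Finset.mem_univ _⟩)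
        by_contra h2
        push Not at h2
        nlinarith
    · apply hb2
      rw [← heq]
      omega

/-- (a) If all non-principal irreducible constituents of the permutation character of a transitive group have the same degree `f`, the character is multiplicity-free and all non-trivial subdegrees equal `f`. (b) A transitive group of rank at most 5 has multiplicity-free permutation character. -/
theorem result {G : Type*} [Group G] [Fintype G] {Ω : Type*} [Fintype Ω] [MulAction G Ω] [MulAction.IsPretransitive G Ω] (a : Ω) : ((f : ℕ) → (∀ χ : G → ℂ, Cfsg.IsIrrCharacter G χ → χ ≠ (fun _ => 1) → Cfsg.classInner (fun g : G => (Nat.card (MulAction.fixedBy Ω g) : ℂ)) χ ≠ 0 → χ 1 = f) → (∀ χ : G → ℂ, Cfsg.IsIrrCharacter G χ → Cfsg.classInner (fun g : G => (Nat.card (MulAction.fixedBy Ω g) : ℂ)) χ = 0 ∨ Cfsg.classInner (fun g : G => (Nat.card (MulAction.fixedBy Ω g) : ℂ)) χ = 1) ∧ ∀ b : Ω, b ≠ a → Nat.card (MulAction.orbit (MulAction.stabilizer G a) b) = f) ∧ (Nat.card (MulAction.orbitRel.Quotient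 (MulAction.stabilizer G a) Ω) ≤ 5 → ∀ χ : G → ℂ, Cfsg.IsIrrCharacter G χ → Cfsg.classInner (fun g : G => (Nat.card (MulAction.fixedBy Ω g) : ℂ)) χ = 0 ∨ Cfsg.classInner (fun g : G => (Nat.card (MulAction.fixedBy Ω g) : ℂ)) χ = 1) := by
  classical
  have := irr_finite (G := G)
  let _ : Fintype (IrrCharacter G) := Fintype.ofFinite _
  have conv : (∀ χ : IrrCharacter G, mult G Ω χ ≤ 1) → ∀ χ : G → ℂ, IsIrrCharacter G χ →
      classInner (fun g : G => (Nat.card (MulAction.fixedBy Ω g) : ℂ)) χ = 0 ∨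
      classInner (fun g : G => (Nat.card (MulAction.fixedBy Ω g) : ℂ)) χ = 1 := by
    intro h χ hχ
    have h1 : classInner (fun g : G => (Nat.card (MulAction.fixedBy Ω g) : ℂ)) χ =
        (mult G Ω ⟨χ, hχ⟩ : ℂ) := mult_spec (G := G) (Ω := Ω) ⟨χ, hχ⟩
    rcases Nat.le_one_iff_eq_zero_or_eq_one.mp (h ⟨χ, hχ⟩) with h3 | h3
    · left; rw [h1, h3]; simp
    · right; rw [h1, h3]; simp
  refine ⟨fun f hf => ?_, fun hr => ?_⟩
  · have hA := partA (G := G) (Ω := Ω) a f (by
      intro χ hne hm
      have h0 : classInner (fun g : G => (Nat.card (MulAction.fixedBy Ω g) : ℂ)) (χ : G → ℂ) ≠ 0 := by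
        rw [show classInner (fun g : G => (Nat.card (MulAction.fixedBy Ω g) : ℂ)) (χ : G → ℂ) =
          (mult G Ω χ : ℂ) from mult_spec χ]
        exact_mod_cast hm
      have h1 := hf χ χ.2 (fun h => hne (Subtype.ext h)) h0
      rw [deg_spec] at h1
      exact_mod_cast h1)
    exact ⟨conv hA.1, hA.2⟩
  · apply conv
    by_contra hcon
    push Not at hcon
    obtain ⟨χ₀, hχ₀⟩ := hcon
    have hrk := rank_eq_sum_sq (G := G) (Ω := Ω) a
    have hmt : mult G Ω (trivIrr : IrrCharacter G) = 1 := mult_triv (G := G) a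
    have hne : χ₀ ≠ trivIrr := by
      rintro rfl
      omega
    have hothers : ∀ χ : IrrCharacter G, χ ≠ trivIrr → χ ≠ χ₀ → mult G Ω χ = 0 := by
      intro χ h1 h2
      by_contra h3
      have hsub : ∑ ψ ∈ ({trivIrr, χ₀, χ} : Finset (IrrCharacter G)), mult G Ω ψ ^ 2 ≤
          ∑ ψ, mult G Ω ψ ^ 2 := Finset.sum_le_sum_of_subset (Finset.subset_univ _)
      rw [Finset.sum_insert (by
        simp only [Finset.mem_insert, Finset.mem_singleton, not_or]
        exact ⟨fun h => hne h.symm, fun h => h1 h.symm⟩),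
        Finset.sum_insert (by
          simp only [Finset.mem_singleton]
          exact fun h => h2 h.symm), Finset.sum_singleton, hmt] at hsub
      have h4 : 1 ≤ mult G Ω χ := Nat.one_le_iff_ne_zero.mpr h3
      nlinarith
    have hA := partA (G := G) (Ω := Ω) a (deg χ₀) (by
      intro χ h1 h2
      by_cases h3 : χ = χ₀
      · rw [h3]
      · exact absurd (hothers χ h1 h3) h2)
    have := hA.1 χ₀
    omega

end Cfsg.Agent.S0716
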