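import Cfsg.Statements.S0718
import Cfsg.Agent.Lib.Helper17.PermMod2

set_option autoImplicit false
open Cfsg

namespace Cfsg.Agent.S0718

open Cfsg.Agent.Lib.Helper17

/-- Multiplicity-freeness of the permutation character is equivalent to commutativity of the centraliser ring, i.e. of the algebra of `G`-equivariant endomorphisms of the complex permutation module. -/
theorem result {G : Type*} [Group G] [Fintype G] {Ω : Type*} [Fintype Ω] [MulAction G Ω] : (∀ χ : G → ℂ, Cfsg.IsIrrCharacter G χ → Cfsg.classInner (fun g : G => (Nat.card (MulAction.fixedBy Ω g) : ℂ)) χ = 0 ∨ Cfsg.classInner (fun g : G => (Nat.card (MulAction.fixedBy Ω g) : ℂ)) χ = 1) ↔ ∀ S T : (Ω → ℂ) →ₗ[ℂ] (Ω → ℂ), S ∈ ((Cfsg.permRep ℂ G Ω).linHom (Cfsg.permRep ℂ G Ω)).invariants → T ∈ ((Cfsg.permRep ℂ G Ω).linHom (Cfsg.permRep ℂ G Ω)).invariants → S ∘ₗ T = T ∘ₗ S := by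
  classical
  constructor
  · intro h S T hS hT
    have hS' := (mem_invariants_iff S).mp hS
    have hT' := (mem_invariants_iff T).mp hT
    have h1 := comm_of_multFree (G := G) (Ω := Ω) h hS' hT'
    apply LinearMap.toMatrix'.injective
    rw [LinearMap.toMatrix'_comp, LinearMap.toMatrix'_comp, h1]
  · intro h χ hχ
    refine multFree_of_comm (G := G) (Ω := Ω) ?_ hχ
    intro M N hM hN
    have h1 := h (Matrix.toLin' M) (Matrix.toLin' N)
      ((mem_invariants_iff _).mpr (by rwa [LinearMap.toMatrix'_toLin']))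
      ((mem_invariants_iff _).mpr (by rwa [LinearMap.toMatrix'_toLin']))
    have h2 := congrArg LinearMap.toMatrix' h1
    rwa [LinearMap.toMatrix'_comp, LinearMap.toMatrix'_comp, LinearMap.toMatrix'_toLin',
      LinearMap.toMatrix'_toLin'] at h2

end Cfsg.Agent.S0718
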