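import Cfsg.Statements.S0722
import Mathlib

set_option autoImplicit false
open Cfsg

namespace Cfsg.Agent.S0722

/-- In a primitive group `H`, with `N` a minimal normal subgroup and `K` a point stabiliser, `K ⊓ N` is maximal among proper `K`-invariant subgroups of `N`. -/
theorem result {α : Type*} [Finite α] (H : Subgroup (Equiv.Perm α)) [MulAction.IsPreprimitive H α] (N : Subgroup H) [N.Normal] (hN : N ≠ ⊥) (hmin : ∀ M : Subgroup H, M.Normal → M ≤ N → M = ⊥ ∨ M = N) (a : α) (X : Subgroup H) (hX : X ≤ N) (hKX : MulAction.stabilizer H a ⊓ N ≤ X) (hinv : MulAction.stabilizer H a ≤ Subgroup.normalizer (X : Set H)) : X = MulAction.stabilizer H a ⊓ N ∨ X = N := by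
  rcases subsingleton_or_nontrivial α with hs | hnt
  · exfalso
    apply hN
    have : Subsingleton H := inferInstance
    exact Subsingleton.elim _ _
  · have hco : IsCoatom (MulAction.stabilizer H a) :=
      MulAction.IsPreprimitive.isCoatom_stabilizer_of_isPreprimitive _ a
    have hle : MulAction.stabilizer H a ≤ MulAction.stabilizer H a ⊔ X := le_sup_left
    rcases hco.le_iff.mp hle with h | h
    · right
      have hnorm : Subgroup.normalizer (X : Set H) = ⊤ := by
        rw [eq_top_iff, ← h]
        exact sup_le hinv Subgroup.le_normalizer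
      have hXn : X.Normal := Subgroup.normalizer_eq_top_iff.mp hnorm
      rcases hmin X hXn hX with h0 | h0
      · exfalso
        apply hco.1
        rw [← h, h0, sup_bot_eq]
      · exact h0
    · left
      apply le_antisymm _ hKX
      apply le_inf _ hX
      rw [← h]
      exact le_sup_right

end Cfsg.Agent.S0722
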