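import Cfsg.Statements.S0723
import Cfsg.Agent.S0721
import Cfsg.Agent.S0722
import Mathlib

set_option autoImplicit false
open Cfsg
open scoped commutatorElement

namespace Cfsg.Agent.S0723

section ext
variable {T : Type*} [Group T] {m : ℕ}

/-- in a nonabelian simple group the centre is trivial -/
theorem center_triv [IsSimpleGroup T] (hna : ∃ a b : T, a * b ≠ b * a) (x : T)
    (hx : ∀ u : T, x * u = u * x) : x = 1 := by
  have hn : (Subgroup.center T).Normal := inferInstance
  rcases hn.eq_bot_or_eq_top with h | h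
  · have : x ∈ Subgroup.center T := by
      rw [Subgroup.mem_center_iff]; intro u; exact (hx u).symm
    rw [h] at this; exact Subgroup.mem_bot.mp this
  · exfalso
    obtain ⟨a, b, hab⟩ := hna
    apply hab
    have : a ∈ Subgroup.center T := by rw [h]; trivial
    rw [Subgroup.mem_center_iff] at this
    exact (this b).symm

/-- a normal subgroup of a simple group containing a nontrivial element is everything -/
theorem normal_top [IsSimpleGroup T] (Y : Subgroup T) (hY : Y.Normal) {t : T} (ht : t ∈ Y)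
    (ht1 : t ≠ 1) : Y = ⊤ := by
  rcases hY.eq_bot_or_eq_top with h | h
  · exfalso; rw [h] at ht; exact ht1 (Subgroup.mem_bot.mp ht)
  · exact h

/-- a subgroup of a nonabelian simple group containing all commutators is everything -/
theorem comm_top [IsSimpleGroup T] (hna : ∃ a b : T, a * b ≠ b * a) (Y : Subgroup T)
    (hY : ∀ a b : T, ⁅a, b⁆ ∈ Y) : Y = ⊤ := by
  have h1 : commutator T ≤ Y := by
    rw [commutator_def, Subgroup.commutator_le]
    intro a _ b _; exact hY a b
  have h2 : commutator T = ⊤ := by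
    obtain ⟨a, b, hab⟩ := hna
    apply normal_top (commutator T) inferInstance (t := ⁅a, b⁆)
    · rw [commutator_def]
      exact Subgroup.commutator_mem_commutator (Subgroup.mem_top a) (Subgroup.mem_top b)
    · intro h
      rw [commutatorElement_eq_one_iff_mul_comm] at h
      exact hab h
  rw [eq_top_iff, ← h2]; exact h1

/-- `φ` acts as a twisted permutation of the coordinates -/
def IsTwist (φ : (Fin m → T) ≃* (Fin m → T)) (s : Fin m → Fin m) (α : Fin m → T → T) : Prop :=
  Function.Bijective s ∧ (∀ i, Function.Bijective (α i)) ∧ (∀ i, α i 1 = 1) ∧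
    ∀ f i, φ f (s i) = α i (f i)

theorem IsTwist.eq_one_iff {φ : (Fin m → T) ≃* (Fin m → T)} {s : Fin m → Fin m}
    {α : Fin m → T → T} (h : IsTwist φ s α) (i : Fin m) (x : T) : α i x = 1 ↔ x = 1 := by
  constructor
  · intro hx
    apply (h.2.1 i).1
    rw [hx, h.2.2.1 i]
  · rintro rfl; exact h.2.2.1 i

theorem IsTwist.mulSingle {φ : (Fin m → T) ≃* (Fin m → T)} {s : Fin m → Fin m}
    {α : Fin m → T → T} (h : IsTwist φ s α) (i : Fin m) (t : T) :
    φ (Pi.mulSingle i t) = Pi.mulSingle (s i) (α i t) := by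
  funext l
  obtain ⟨l', rfl⟩ := h.1.2 l
  rw [h.2.2.2]
  by_cases hl : l' = i
  · subst hl; simp
  · have : s l' ≠ s i := fun hh => hl (h.1.1 hh)
    rw [Pi.mulSingle_eq_of_ne hl, Pi.mulSingle_eq_of_ne this, h.2.2.1]

theorem isTwist_one : IsTwist (MulEquiv.refl (Fin m → T)) id (fun _ => id) :=
  ⟨Function.bijective_id, fun _ => Function.bijective_id, fun _ => rfl, fun _ _ => rfl⟩

theorem IsTwist.comp {φ ψ : (Fin m → T) ≃* (Fin m → T)} {s s' : Fin m → Fin m}
    {α α' : Fin m → T → T} (h : IsTwist φ s α) (h' : IsTwist ψ s' α') :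
    IsTwist (φ.trans ψ) (s' ∘ s) (fun i => α' (s i) ∘ α i) := by
  refine ⟨h'.1.comp h.1, fun i => (h'.2.1 (s i)).comp (h.2.1 i), fun i => ?_, fun f i => ?_⟩
  · simp [h.2.2.1, h'.2.2.1]
  · simp [h.2.2.2, h'.2.2.2]

theorem twist [Finite T] [IsSimpleGroup T] (hna : ∃ a b : T, a * b ≠ b * a)
    (φ : (Fin m → T) ≃* (Fin m → T)) :
    ∃ (s : Fin m → Fin m) (α : Fin m → T → T), IsTwist φ s α := by
  classical
  obtain ⟨t0, ht0⟩ : ∃ t : T, t ≠ 1 := exists_ne 1
  have hA : ∀ i, ∃ j, ∀ t : T, ∀ l, l ≠ j → φ (Pi.mulSingle i t) l = 1 := by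
    intro i
    set x := φ (Pi.mulSingle i t0) with hx
    have hx1 : x ≠ 1 := by
      intro h
      have h' : (Pi.mulSingle i t0 : Fin m → T) = 1 := by
        apply φ.injective; rw [map_one]; exact h
      have h'' := congrFun h' i
      simp at h''
      exact ht0 h''
    obtain ⟨j, hj⟩ : ∃ j, x j ≠ 1 := by
      by_contra hcon
      push_neg at hcon
      exact hx1 (funext hcon)
    obtain ⟨u, hu⟩ : ∃ u, x j * u ≠ u * x j := by
      by_contra hcon
      push_neg at hcon
      exact hj (center_triv hna _ hcon)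
    refine ⟨j, ?_⟩
    let Y : Subgroup T :=
      { carrier := {t | ∀ l, l ≠ j → φ (Pi.mulSingle i t) l = 1}
        one_mem' := by intro l _; simp
        mul_mem' := by
          intro a b ha hb l hl
          rw [Pi.mulSingle_mul, map_mul, Pi.mul_apply, ha l hl, hb l hl, one_mul]
        inv_mem' := by
          intro a ha l hl
          rw [Pi.mulSingle_inv, map_inv, Pi.inv_apply, ha l hl, inv_one] }
    have hYn : Y.Normal := by
      refine ⟨fun a ha g l hl => ?_⟩
      rw [Pi.mulSingle_mul, Pi.mulSingle_mul, Pi.mulSingle_inv, map_mul, map_mul, map_inv,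
        Pi.mul_apply, Pi.mul_apply, Pi.inv_apply, ha l hl, mul_one, mul_inv_cancel]
    let y : Fin m → T := φ.symm (Pi.mulSingle j u)
    let z : Fin m → T := Pi.mulSingle i t0 * y * (Pi.mulSingle i t0)⁻¹ * y⁻¹
    have hz : z = Pi.mulSingle i (z i) := by
      funext l
      by_cases hl : l = i
      · subst hl; simp
      · simp [z, Pi.mulSingle_eq_of_ne hl]
    have hφz : φ z = x * Pi.mulSingle j u * x⁻¹ * (Pi.mulSingle j u)⁻¹ := by
      simp [z, y, hx]
    have hzY : z i ∈ Y := by
      intro l hl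
      rw [← hz, hφz]
      simp [Pi.mulSingle_eq_of_ne hl]
    have hz1 : z i ≠ 1 := by
      intro h
      have hz0 : z = 1 := by rw [hz, h]; simp
      have h2 : φ z j = 1 := by rw [hz0]; simp
      rw [hφz] at h2
      simp at h2
      apply hu
      calc x j * u = (x j * u * (x j)⁻¹ * u⁻¹) * (u * x j) := by group
        _ = u * x j := by rw [h2, one_mul]
    have hYtop := normal_top Y hYn hzY hz1
    intro t l hl
    have : t ∈ Y := by rw [hYtop]; trivial
    exact this l hl
  choose s hs using hA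
  let α : Fin m → T → T := fun i t => φ (Pi.mulSingle i t) (s i)
  have hform0 : ∀ i t, φ (Pi.mulSingle i t) = Pi.mulSingle (s i) (α i t) := by
    intro i t
    funext l
    by_cases hl : l = s i
    · subst hl; simp [α]
    · rw [Pi.mulSingle_eq_of_ne hl]; exact hs i t l hl
  have hα1 : ∀ i, α i 1 = 1 := by intro i; simp [α]
  have hαmul : ∀ i a b, α i (a * b) = α i a * α i b := by
    intro i a b; simp [α, Pi.mulSingle_mul]
  have hαinj : ∀ i, Function.Injective (α i) := by
    intro i a b hab
    have h1 : φ (Pi.mulSingle i a) = φ (Pi.mulSingle i b) := by rw [hform0, hform0, hab]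
    have h2 := congrFun (φ.injective h1) i
    simpa using h2
  have hαbij : ∀ i, Function.Bijective (α i) := fun i =>
    ⟨hαinj i, Finite.injective_iff_surjective.mp (hαinj i)⟩
  have hL : ∀ (g : Fin m → T) i, g i = 1 → φ g (s i) = 1 := by
    intro g i hg
    apply center_triv hna
    intro v
    obtain ⟨t, rfl⟩ := (hαbij i).2 v
    have hcomm : g * Pi.mulSingle i t = Pi.mulSingle i t * g := by
      funext l
      by_cases hl : l = i
      · subst hl; simp [hg]
      · simp [Pi.mulSingle_eq_of_ne hl]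
    have h1 := congrArg φ hcomm
    rw [map_mul, map_mul, hform0] at h1
    have h2 := congrFun h1 (s i)
    simpa using h2
  have hform : ∀ f i, φ f (s i) = α i (f i) := by
    intro f i
    have hf : f = (Pi.mulSingle i (f i) : Fin m → T) *
        ((Pi.mulSingle i (f i) : Fin m → T)⁻¹ * f) := by group
    have hg : ((Pi.mulSingle i (f i) : Fin m → T)⁻¹ * f) i = 1 := by simp
    rw [hf, map_mul, Pi.mul_apply, hL _ i hg, mul_one, hform0]
    simp
  have hsinj : Function.Injective s := by
    intro i i' hii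
    by_contra hne
    have h1 : φ (Pi.mulSingle i' t0) (s i) = 1 := by
      rw [hform, Pi.mulSingle_eq_of_ne hne, hα1]
    rw [hii, hform] at h1
    simp only [Pi.mulSingle_eq_same] at h1
    have := hαinj i' (h1.trans (hα1 i').symm)
    exact ht0 this
  exact ⟨s, α, ⟨hsinj, Finite.injective_iff_surjective.mp hsinj⟩, hαbij, hα1, hform⟩


/-- transitivity of `A` on the coordinates, from `A`-simplicity -/
theorem trans_coord [Finite T] [IsSimpleGroup T] (hna : ∃ a b : T, a * b ≠ b * a)
    (A : Subgroup (MulAut (Fin m → T)))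
    (h4 : ∀ X : Subgroup (Fin m → T), X.Normal → (∀ φ ∈ A, ∀ x ∈ X, φ x ∈ X) → X = ⊥ ∨ X = ⊤)
    (i0 j0 : Fin m) :
    ∃ φ ∈ A, ∃ (s : Fin m → Fin m) (α : Fin m → T → T), IsTwist φ s α ∧ s i0 = j0 := by
  classical
  obtain ⟨t0, ht0⟩ : ∃ t : T, t ≠ 1 := exists_ne 1
  let O : Set (Fin m) := {j | ∃ φ ∈ A, ∃ (s : Fin m → Fin m) (α : Fin m → T → T),
    IsTwist φ s α ∧ s i0 = j}
  let X : Subgroup (Fin m → T) :=
    { carrier := {f | ∀ j, j ∉ O → f j = 1}
      one_mem' := by intro j _; rfl
      mul_mem' := by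
        intro a b ha hb j hj
        rw [Pi.mul_apply, ha j hj, hb j hj, one_mul]
      inv_mem' := by
        intro a ha j hj
        rw [Pi.inv_apply, ha j hj, inv_one] }
  have hXn : X.Normal := by
    refine ⟨fun a ha g j hj => ?_⟩
    rw [Pi.mul_apply, Pi.mul_apply, Pi.inv_apply, ha j hj, mul_one, mul_inv_cancel]
  have hi0 : i0 ∈ O := ⟨1, A.one_mem, id, fun _ => id, isTwist_one, rfl⟩
  have hXA : ∀ ψ ∈ A, ∀ x ∈ X, ψ x ∈ X := by
    intro ψ hψ f hf k hk
    obtain ⟨s', α', htw'⟩ := twist hna ψ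
    obtain ⟨l, rfl⟩ := htw'.1.2 k
    have h1 : (ψ f) (s' l) = α' l (f l) := htw'.2.2.2 f l
    rw [h1]
    by_cases hl : l ∈ O
    · exfalso
      obtain ⟨φ, hφ, s, α, htw, hsl⟩ := hl
      apply hk
      refine ⟨ψ * φ, A.mul_mem hψ hφ, s' ∘ s, fun i => α' (s i) ∘ α i, htw.comp htw', ?_⟩
      simp [hsl]
    · rw [hf l hl, htw'.2.2.1]
  rcases h4 X hXn hXA with h | h
  · exfalso
    have hmem : (Pi.mulSingle i0 t0 : Fin m → T) ∈ X := by
      intro j hj
      have : j ≠ i0 := fun hh => hj (hh ▸ hi0)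
      rw [Pi.mulSingle_eq_of_ne this]
    rw [h, Subgroup.mem_bot] at hmem
    have := congrFun hmem i0
    simp at this
    exact ht0 this
  · by_contra hcon
    have hmem : (Pi.mulSingle j0 t0 : Fin m → T) ∈ X := by rw [h]; trivial
    have := hmem j0 hcon
    simp at this
    exact ht0 this

theorem core [Finite T] [IsSimpleGroup T] (hna : ∃ a b : T, a * b ≠ b * a)
    (A : Subgroup (MulAut (Fin m → T))) (D : Subgroup (Fin m → T))
    (h1 : D ≠ ⊤)
    (h2 : ∀ φ ∈ A, ∀ d ∈ D, φ d ∈ D)
    (h3 : ∀ X : Subgroup (Fin m → T), D ≤ X → (∀ φ ∈ A, ∀ x ∈ X, φ x ∈ X) → X = D ∨ X = ⊤)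
    (h4 : ∀ X : Subgroup (Fin m → T), X.Normal → (∀ φ ∈ A, ∀ x ∈ X, φ x ∈ X) → X = ⊥ ∨ X = ⊤) :
    ∃ β : Fin m → (T ≃* T),
      (∃ K : Fin m → Subgroup T, (∀ i, K i ≠ ⊤) ∧
        ∀ f : Fin m → T, f ∈ D ↔ ∀ i, β i (f i) ∈ K i) ∨
      (∃ (k : ℕ) (c : Fin m → Fin m), 2 ≤ k ∧
        (∀ j : Fin m, Nat.card {i : Fin m // c i = j} = k ∨
          Nat.card {i : Fin m // c i = j} = 0) ∧
        ∀ f : Fin m → T, f ∈ D ↔ ∀ i j : Fin m, c i = c j → β i (f i) = β j (f j)) := by
  classical
  obtain ⟨t0, ht0⟩ : ∃ t : T, t ≠ 1 := exists_ne 1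
  have htrans := trans_coord hna A h4
  haveI hne : Nonempty (Fin m) := by
    by_contra hcon
    rw [not_nonempty_iff] at hcon
    apply h1
    rw [eq_top_iff]
    intro f _
    have : f = 1 := Subsingleton.elim _ _
    rw [this]; exact D.one_mem
  by_cases hall : ∀ i t, ∃ d ∈ D, d i = t
  · -- Case 2 : subdirect
    let eqv : Fin m → Fin m → Prop := fun i j => ∀ d ∈ D, d i = 1 ↔ d j = 1
    have eqv_refl : ∀ i, eqv i i := fun i d _ => Iff.rfl
    have eqv_symm : ∀ {i j}, eqv i j → eqv j i := fun h d hd => (h d hd).symm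
    have eqv_trans : ∀ {i j k}, eqv i j → eqv j k → eqv i k :=
      fun h h' d hd => (h d hd).trans (h' d hd)
    have hE : ∀ φ ∈ A, ∀ (s : Fin m → Fin m) (α : Fin m → T → T), IsTwist φ s α →
        ∀ i j, eqv i j ↔ eqv (s i) (s j) := by
      intro φ hφ s α htw i j
      constructor
      · intro h d' hd'
        have hd : φ⁻¹ d' ∈ D := h2 φ⁻¹ (A.inv_mem hφ) d' hd'
        have e : φ (φ⁻¹ d') = d' := MulAut.apply_inv_self _ φ d'
        have ei : d' (s i) = α i ((φ⁻¹ d') i) := by
          rw [← htw.2.2.2 (φ⁻¹ d') i]; exact congrFun e.symm (s i)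
        have ej : d' (s j) = α j ((φ⁻¹ d') j) := by
          rw [← htw.2.2.2 (φ⁻¹ d') j]; exact congrFun e.symm (s j)
        rw [ei, ej, htw.eq_one_iff, htw.eq_one_iff]
        exact h _ hd
      · intro h d hd
        have h' := h (φ d) (h2 φ hφ d hd)
        have e1 : (φ d) (s i) = α i (d i) := htw.2.2.2 d i
        have e2 : (φ d) (s j) = α j (d j) := htw.2.2.2 d j
        rw [e1, e2, htw.eq_one_iff, htw.eq_one_iff] at h'
        exact h'
    have hsingle : ∀ i, (∃ t, t ≠ 1 ∧ (Pi.mulSingle i t : Fin m → T) ∈ D) → False := by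
      rintro i ⟨t, ht1, htD⟩
      let Y : Subgroup T :=
        { carrier := {t | (Pi.mulSingle i t : Fin m → T) ∈ D}
          one_mem' := by
            show (Pi.mulSingle i 1 : Fin m → T) ∈ D
            rw [Pi.mulSingle_one]; exact D.one_mem
          mul_mem' := by
            intro a b ha hb
            show (Pi.mulSingle i (a * b) : Fin m → T) ∈ D
            rw [Pi.mulSingle_mul]; exact D.mul_mem ha hb
          inv_mem' := by
            intro a ha
            show (Pi.mulSingle i a⁻¹ : Fin m → T) ∈ D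
            rw [Pi.mulSingle_inv]; exact D.inv_mem ha }
      have hYn : Y.Normal := by
        refine ⟨fun a ha g => ?_⟩
        obtain ⟨d, hd, hdg⟩ := hall i g
        show (Pi.mulSingle i (g * a * g⁻¹) : Fin m → T) ∈ D
        have hh : (Pi.mulSingle i (g * a * g⁻¹) : Fin m → T) = d * Pi.mulSingle i a * d⁻¹ := by
          funext l
          by_cases hl : l = i
          · subst hl; simp [hdg]
          · simp [Pi.mulSingle_eq_of_ne hl]
        rw [hh]
        exact D.mul_mem (D.mul_mem hd ha) (D.inv_mem hd)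
      have hYtop := normal_top Y hYn htD ht1
      apply h1
      rw [eq_top_iff]
      intro f _
      apply Subgroup.pi_mem_of_mulSingle_mem
      intro j
      obtain ⟨φ, hφ, s, α, htw, hs⟩ := htrans i j
      obtain ⟨t', ht'⟩ := (htw.2.1 i).2 (f j)
      have hmem : (Pi.mulSingle i t' : Fin m → T) ∈ D := by
        have : t' ∈ Y := by rw [hYtop]; trivial
        exact this
      have hmem2 := h2 φ hφ _ hmem
      have e := htw.mulSingle i t'
      rw [hs, ht'] at e
      have e' : φ (Pi.mulSingle i t') = Pi.mulSingle j (f j) := e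
      rw [← e']; exact hmem2
    have hTI : ∀ i, ∀ d ∈ D, (∀ l, l ≠ i → d l = 1) → d = 1 := by
      intro i d hd hsupp
      by_contra hd1
      apply hsingle i
      have hdeq : d = Pi.mulSingle i (d i) := by
        funext l
        by_cases hl : l = i
        · subst hl; simp
        · rw [Pi.mulSingle_eq_of_ne hl]; exact hsupp l hl
      refine ⟨d i, ?_, hdeq ▸ hd⟩
      intro h
      apply hd1
      rw [hdeq, h]; simp
    have hpair : ∃ i j, i ≠ j ∧ eqv i j := by
      by_contra hcon
      push_neg at hcon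
      obtain ⟨i0, -, hi0⟩ := Finset.exists_min_image Finset.univ
        (fun i => Set.ncard {d : Fin m → T | d ∈ D ∧ d i = 1}) Finset.univ_nonempty
      have hN : ∀ j, j ≠ i0 → ∃ d ∈ D, d j = 1 ∧ d i0 ≠ 1 := by
        intro j hj
        by_contra hc
        push_neg at hc
        have hsub : {d : Fin m → T | d ∈ D ∧ d j = 1} ⊆ {d : Fin m → T | d ∈ D ∧ d i0 = 1} :=
          fun d hd => ⟨hd.1, hc d hd.1 hd.2⟩
        have heq := Set.eq_of_subset_of_ncard_le hsub (hi0 j (Finset.mem_univ j))
          (Set.toFinite _)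
        apply hcon j i0 hj
        intro d hd
        constructor
        · intro h; exact hc d hd h
        · intro h
          have hm : d ∈ {d : Fin m → T | d ∈ D ∧ d i0 = 1} := ⟨hd, h⟩
          rw [← heq] at hm
          exact hm.2
      have hb1 : ∀ j, j ≠ i0 → ∀ t, ∃ y ∈ D, y j = 1 ∧ y i0 = t := by
        intro j hj
        let Y : Subgroup T :=
          { carrier := {t | ∃ y ∈ D, y j = 1 ∧ y i0 = t}
            one_mem' := ⟨1, D.one_mem, rfl, rfl⟩
            mul_mem' := by
              rintro a b ⟨y, hy, hy1, rfl⟩ ⟨y', hy', hy1', rfl⟩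
              exact ⟨y * y', D.mul_mem hy hy', by rw [Pi.mul_apply, hy1, hy1', one_mul], rfl⟩
            inv_mem' := by
              rintro a ⟨y, hy, hy1, rfl⟩
              exact ⟨y⁻¹, D.inv_mem hy, by rw [Pi.inv_apply, hy1, inv_one], rfl⟩ }
        have hYn : Y.Normal := by
          refine ⟨fun a ha g => ?_⟩
          obtain ⟨y, hy, hy1, rfl⟩ := ha
          obtain ⟨d, hd, hdg⟩ := hall i0 g
          refine ⟨d * y * d⁻¹, D.mul_mem (D.mul_mem hd hy) (D.inv_mem hd), ?_, ?_⟩
          · rw [Pi.mul_apply, Pi.mul_apply, Pi.inv_apply, hy1, mul_one, mul_inv_cancel]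
          · rw [Pi.mul_apply, Pi.mul_apply, Pi.inv_apply, hdg]
        obtain ⟨d, hd, hdj, hdi⟩ := hN j hj
        have hYtop := normal_top Y hYn (t := d i0) ⟨d, hd, hdj, rfl⟩ hdi
        intro t
        have : t ∈ Y := by rw [hYtop]; trivial
        exact this
      have hb2 : ∀ S : Finset (Fin m), i0 ∉ S →
          ∀ t, ∃ x ∈ D, x i0 = t ∧ ∀ l ∈ S, x l = 1 := by
        intro S
        induction S using Finset.induction_on with
        | empty =>
          intro _ t
          obtain ⟨d, hd, hdt⟩ := hall i0 t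
          exact ⟨d, hd, hdt, by simp⟩
        | insert j S hjS ih =>
          intro hi0S
          have hj : j ≠ i0 := by
            rintro rfl; exact hi0S (Finset.mem_insert_self _ _)
          have hi0S' : i0 ∉ S := fun h => hi0S (Finset.mem_insert_of_mem h)
          let Z : Subgroup T :=
            { carrier := {t | ∃ x ∈ D, x i0 = t ∧ ∀ l ∈ insert j S, x l = 1}
              one_mem' := ⟨1, D.one_mem, rfl, fun _ _ => rfl⟩
              mul_mem' := by
                rintro a b ⟨x, hx, rfl, hx1⟩ ⟨x', hx', rfl, hx1'⟩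
                exact ⟨x * x', D.mul_mem hx hx', rfl, fun l hl => by
                  rw [Pi.mul_apply, hx1 l hl, hx1' l hl, one_mul]⟩
              inv_mem' := by
                rintro a ⟨x, hx, rfl, hx1⟩
                exact ⟨x⁻¹, D.inv_mem hx, rfl, fun l hl => by
                  rw [Pi.inv_apply, hx1 l hl, inv_one]⟩ }
          have hZ : Z = ⊤ := by
            apply comm_top hna
            intro a b
            obtain ⟨x, hx, hxa, hx1⟩ := ih hi0S' a
            obtain ⟨y, hy, hyj, hyb⟩ := hb1 j hj b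
            refine ⟨⁅x, y⁆, ?_, ?_, ?_⟩
            · rw [commutatorElement_def]
              exact D.mul_mem (D.mul_mem (D.mul_mem hx hy) (D.inv_mem hx)) (D.inv_mem hy)
            · rw [commutatorElement_def, commutatorElement_def]; simp [hxa, hyb]
            · intro l hl
              rw [Finset.mem_insert] at hl
              rw [commutatorElement_def]
              rcases hl with rfl | hl
              · simp [hyj]
              · simp [hx1 l hl]
          intro t
          have : t ∈ Z := by rw [hZ]; trivial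
          exact this
      obtain ⟨x, hx, hxt, hx1⟩ := hb2 (Finset.univ.erase i0) (by simp) t0
      have hx0 := hTI i0 x hx
        (fun l hl => hx1 l (Finset.mem_erase.mpr ⟨hl, Finset.mem_univ l⟩))
      rw [hx0] at hxt
      exact ht0 hxt.symm
    let X : Subgroup (Fin m → T) :=
      { carrier := {f | ∀ i, ∃ d ∈ D, ∀ j, eqv i j → d j = f j}
        one_mem' := fun i => ⟨1, D.one_mem, fun _ _ => rfl⟩
        mul_mem' := by
          intro a b ha hb i
          obtain ⟨d, hd, hda⟩ := ha i
          obtain ⟨d', hd', hdb⟩ := hb i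
          exact ⟨d * d', D.mul_mem hd hd', fun j hj => by
            rw [Pi.mul_apply, Pi.mul_apply, hda j hj, hdb j hj]⟩
        inv_mem' := by
          intro a ha i
          obtain ⟨d, hd, hda⟩ := ha i
          exact ⟨d⁻¹, D.inv_mem hd, fun j hj => by
            rw [Pi.inv_apply, Pi.inv_apply, hda j hj]⟩ }
    have hDX : D ≤ X := fun d hd i => ⟨d, hd, fun _ _ => rfl⟩
    have hXA : ∀ φ ∈ A, ∀ x ∈ X, φ x ∈ X := by
      intro φ hφ f hf k
      obtain ⟨s, α, htw⟩ := twist hna φ
      obtain ⟨i, rfl⟩ := htw.1.2 k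
      obtain ⟨d, hd, hdf⟩ := hf i
      refine ⟨φ d, h2 φ hφ d hd, ?_⟩
      intro k' hk'
      obtain ⟨j, rfl⟩ := htw.1.2 k'
      have hij : eqv i j := (hE φ hφ s α htw i j).mpr hk'
      have e1 : (φ d) (s j) = α j (d j) := htw.2.2.2 d j
      have e2 : (φ f) (s j) = α j (f j) := htw.2.2.2 f j
      rw [e1, e2, hdf j hij]
    have hXD : X = D := by
      rcases h3 X hDX hXA with h | h
      · exact h
      · exfalso
        obtain ⟨i, j, hij, he⟩ := hpair
        have hmem : (Pi.mulSingle i t0 : Fin m → T) ∈ X := by rw [h]; trivial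
        obtain ⟨d, hd, hdf⟩ := hmem i
        have e1 := hdf i (eqv_refl i)
        have e2 := hdf j he
        rw [Pi.mulSingle_eq_same] at e1
        rw [Pi.mulSingle_eq_of_ne hij.symm] at e2
        have e3 := (he d hd).mpr e2
        rw [e3] at e1
        exact ht0 e1.symm
    let c : Fin m → Fin m := fun i =>
      Finset.min' (Finset.univ.filter (fun j => eqv i j)) ⟨i, by simp [eqv_refl i]⟩
    have hc1 : ∀ i, eqv i (c i) := by
      intro i
      have hm := Finset.min'_mem (Finset.univ.filter (fun j => eqv i j))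
        ⟨i, by simp [eqv_refl i]⟩
      rw [Finset.mem_filter] at hm
      exact hm.2
    have hc2 : ∀ i j, eqv i j → c i = c j := by
      intro i j h
      apply le_antisymm
      · apply Finset.min'_le
        rw [Finset.mem_filter]
        exact ⟨Finset.mem_univ _, eqv_trans h (hc1 j)⟩
      · apply Finset.min'_le
        rw [Finset.mem_filter]
        exact ⟨Finset.mem_univ _, eqv_trans (eqv_symm h) (hc1 i)⟩
    have hc3 : ∀ i j, c i = c j → eqv i j := by
      intro i j h
      have hj := hc1 j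
      rw [← h] at hj
      exact eqv_trans (hc1 i) (eqv_symm hj)
    have hcard : ∀ i j, Nat.card {l : Fin m // eqv i l} = Nat.card {l : Fin m // eqv j l} := by
      intro i j
      obtain ⟨φ, hφ, s, α, htw, hs⟩ := htrans i j
      apply Nat.card_congr
      refine Equiv.subtypeEquiv (Equiv.ofBijective s htw.1) (fun l => ?_)
      rw [Equiv.ofBijective_apply, ← hs]
      exact hE φ hφ s α htw i l
    obtain ⟨i2, j2, hij2, he2⟩ := hpair
    have hfib : ∀ j, Nat.card {i : Fin m // c i = j} = Nat.card {l : Fin m // eqv i2 l} ∨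
        Nat.card {i : Fin m // c i = j} = 0 := by
      intro j
      by_cases hj : ∃ i', c i' = j
      · left
        obtain ⟨i', hi'⟩ := hj
        rw [hcard i2 i']
        apply Nat.card_congr
        refine Equiv.subtypeEquivRight (fun i => ?_)
        constructor
        · intro h; exact eqv_symm (hc3 i i' (h.trans hi'.symm))
        · intro h; rw [← hi']; exact hc2 i i' (eqv_symm h)
      · right
        haveI : IsEmpty {i : Fin m // c i = j} := ⟨fun x => hj ⟨x.1, x.2⟩⟩
        exact Nat.card_of_isEmpty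
    have hk2 : 2 ≤ Nat.card {l : Fin m // eqv i2 l} := by
      have hnt : Nontrivial {l : Fin m // eqv i2 l} :=
        ⟨⟨i2, eqv_refl i2⟩, ⟨j2, he2⟩, fun h => hij2 (congrArg Subtype.val h)⟩
      exact Finite.one_lt_card_iff_nontrivial.mpr hnt
    have hsig : ∀ i j, eqv i j → ∃ σ : T ≃* T, ∀ d ∈ D, σ (d i) = d j := by
      intro i j hij
      choose g hgD hg using hall i
      have key : ∀ d ∈ D, (g (d i)) j = d j := by
        intro d hd
        have h1' : ((g (d i))⁻¹ * d) i = 1 := by
          rw [Pi.mul_apply, Pi.inv_apply, hg, inv_mul_cancel]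
        have h2' := (hij _ (D.mul_mem (D.inv_mem (hgD (d i))) hd)).mp h1'
        rw [Pi.mul_apply, Pi.inv_apply] at h2'
        exact inv_mul_eq_one.mp h2'
      let σ0 : T →* T := MonoidHom.mk' (fun t => g t j) (by
        intro a b
        have hk := key (g a * g b) (D.mul_mem (hgD a) (hgD b))
        rw [Pi.mul_apply, hg, hg] at hk
        rw [hk, Pi.mul_apply])
      have hinj : Function.Injective σ0 := by
        rw [injective_iff_map_eq_one]
        intro t ht
        have h1' : (g t) j = 1 := ht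
        have h2' := (hij _ (hgD t)).mpr h1'
        rw [hg] at h2'; exact h2'
      have hbij : Function.Bijective σ0 := ⟨hinj, Finite.injective_iff_surjective.mp hinj⟩
      refine ⟨MulEquiv.ofBijective σ0 hbij, ?_⟩
      intro d hd
      exact key d hd
    choose β hβ using fun i => hsig i (c i) (hc1 i)
    refine ⟨β, Or.inr ⟨Nat.card {l : Fin m // eqv i2 l}, c, hk2, hfib, ?_⟩⟩
    intro f
    constructor
    · intro hf i j hcij
      rw [hβ i f hf, hβ j f hf, hcij]
    · intro hf
      rw [← hXD]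
      intro i
      obtain ⟨d, hd, hdr⟩ := hall (c i) (β (c i) (f (c i)))
      refine ⟨d, hd, ?_⟩
      intro j hj
      have hcj : c j = c i := (hc2 i j hj).symm
      have hcc : c (c i) = c i := (hc2 i (c i) (hc1 i)).symm
      have e1 : β j (d j) = d (c j) := hβ j d hd
      have e2 : β j (f j) = β (c i) (f (c i)) := hf j (c i) (by rw [hcj, hcc])
      apply (β j).injective
      rw [e1, e2, hcj, hdr]
  · -- Case 1 : proper projections
    push_neg at hall
    obtain ⟨i1, t1, hi1⟩ := hall
    let R : Fin m → Subgroup T := fun i =>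
      { carrier := {t | ∃ d ∈ D, d i = t}
        one_mem' := ⟨1, D.one_mem, rfl⟩
        mul_mem' := by
          rintro a b ⟨d, hd, rfl⟩ ⟨d', hd', rfl⟩
          exact ⟨d * d', D.mul_mem hd hd', rfl⟩
        inv_mem' := by
          rintro a ⟨d, hd, rfl⟩
          exact ⟨d⁻¹, D.inv_mem hd, rfl⟩ }
    have hRtop : ∀ i, R i ≠ ⊤ := by
      intro i hi
      obtain ⟨φ, hφ, s, α, htw, hs⟩ := htrans i i1
      obtain ⟨t, ht⟩ := (htw.2.1 i).2 t1
      have : t ∈ R i := by rw [hi]; trivial
      obtain ⟨d, hd, hdt⟩ := this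
      apply hi1 (φ d) (h2 φ hφ d hd)
      rw [← hs, htw.2.2.2, hdt, ht]
    let X : Subgroup (Fin m → T) := Subgroup.pi Set.univ R
    have hDX : D ≤ X := by
      intro d hd
      rw [Subgroup.mem_pi]
      intro i _
      exact ⟨d, hd, rfl⟩
    have hXA : ∀ φ ∈ A, ∀ x ∈ X, φ x ∈ X := by
      intro φ hφ f hf
      rw [Subgroup.mem_pi] at hf ⊢
      intro k _
      obtain ⟨s, α, htw⟩ := twist hna φ
      obtain ⟨l, rfl⟩ := htw.1.2 k
      obtain ⟨d, hd, hdl⟩ := hf l (Set.mem_univ l)
      refine ⟨φ d, h2 φ hφ d hd, ?_⟩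
      have e1 : (φ d) (s l) = α l (d l) := htw.2.2.2 d l
      have e2 : (φ f) (s l) = α l (f l) := htw.2.2.2 f l
      rw [e1, e2, hdl]
    refine ⟨fun _ => MulEquiv.refl T, Or.inl ⟨R, hRtop, ?_⟩⟩
    rcases h3 X hDX hXA with h | h
    · intro f
      rw [← h, Subgroup.mem_pi]
      constructor
      · intro hf i; exact hf i (Set.mem_univ i)
      · intro hf i _; exact hf i
    · exfalso
      obtain ⟨i⟩ := hne
      apply hRtop i
      rw [eq_top_iff]
      intro t _
      have : (Pi.mulSingle i t : Fin m → T) ∈ X := by rw [h]; trivial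
      rw [Subgroup.mem_pi] at this
      have := this i (Set.mem_univ i)
      simpa using this

end ext

/-- The core of the O'Nan–Scott Theorem. Let `H` be a primitive permutation group on a finite set whose unique minimal normal subgroup `N` is non-abelian, and `K` a point stabiliser. Then there are a non-abelian simple group `T` and an isomorphism `N ≃* T^m` (`m ≥ 1`) under which `K ⊓ N` becomes either a product `∏ K_i` of proper subgroups `K_i < T`, or the set of functions constant on each block of a partition of the index set into blocks of one common size `k ≥ 2`. -/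
theorem result {α : Type*} [Finite α] (H : Subgroup (Equiv.Perm α)) [MulAction.IsPreprimitive H α] (N : Subgroup H) [N.Normal] (hN : N ≠ ⊥) (hmin : ∀ M : Subgroup H, M.Normal → M ≤ N → M = ⊥ ∨ M = N) (huniq : ∀ L : Subgroup H, L.Normal → L ≠ ⊥ → (∀ M : Subgroup H, M.Normal → M ≤ L → M = ⊥ ∨ M = L) → L = N) (hnab : ¬ IsMulCommutative N) (a : α) : ∃ (T : Type) (_ : Group T) (m : ℕ) (e : N ≃* (Fin m → T)), IsSimpleGroup T ∧ ¬ IsMulCommutative T ∧ 0 < m ∧ ((∃ K : Fin m → Subgroup T, (∀ i, K i ≠ ⊤) ∧ ∀ n : N, (n : H) ∈ MulAction.stabilizer H a ↔ ∀ i, e n i ∈ K i) ∨ (∃ (k : ℕ) (c : Fin m → Fin m), 2 ≤ k ∧ (∀ j : Fin m, Nat.card {i : Fin m // c i = j} = k ∨ Nat.card {i : Fin m // c i = j} = 0) ∧ ∀ n : N, (n : H) ∈ MulAction.stabilizer H a ↔ ∀ i j : Fin m, c i = c j → e n i = e n j)) := by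
  classical
  obtain ⟨T, instT, m, hsimple, hm, ⟨e0⟩⟩ := Cfsg.Agent.S0721.result N hN hmin
  letI := instT
  haveI : Finite (Fin m → T) := Finite.of_equiv N e0.toEquiv
  haveI : Finite T := Finite.of_injective
    (fun t : T => (Pi.mulSingle (⟨0, hm⟩ : Fin m) t : Fin m → T))
    (fun x y h => by simpa using congrFun h ⟨0, hm⟩)
  have hna : ∃ x y : T, x * y ≠ y * x := by
    by_contra hcon
    push_neg at hcon
    apply hnab
    refine ⟨⟨fun x y => ?_⟩⟩
    apply e0.injective
    rw [map_mul, map_mul]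
    funext i
    exact hcon _ _
  have hnaT : ¬ IsMulCommutative T := by
    intro h
    obtain ⟨x, y, hxy⟩ := hna
    exact hxy (h.is_comm.comm x y)
  set K : Subgroup H := MulAction.stabilizer H a with hKdef
  have hnt : Nontrivial α := by
    by_contra hcon
    rw [not_nontrivial_iff_subsingleton] at hcon
    apply hN
    have : Subsingleton H := inferInstance
    exact Subsingleton.elim _ _
  have hco : IsCoatom K := MulAction.IsPreprimitive.isCoatom_stabilizer_of_isPreprimitive _ a
  have hNK : ¬ N ≤ K := by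
    intro hle
    apply hN
    rw [eq_bot_iff]
    intro n hn
    rw [Subgroup.mem_bot]
    apply Subtype.ext
    apply Equiv.ext
    intro b
    obtain ⟨h, rfl⟩ := MulAction.exists_smul_eq H a b
    have h1 : h⁻¹ * n * h ∈ N := by
      have := ‹N.Normal›.conj_mem n hn h⁻¹
      simpa using this
    have h2 : (h⁻¹ * n * h) • a = a := hle h1
    have h3 : n • (h • a) = h • a := by
      have e : n * h = h * (h⁻¹ * n * h) := by group
      rw [← mul_smul, e, mul_smul, h2]
    exact h3
  have hKN : K ⊔ N = ⊤ := by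
    rcases hco.le_iff.mp (le_sup_left : K ≤ K ⊔ N) with h | h
    · exact h
    · exfalso; apply hNK; rw [← h]; exact le_sup_right
  let Θ : K →* MulAut (Fin m → T) :=
    (MulAut.congr e0).toMonoidHom.comp ((MulAut.conjNormal (H := N)).comp K.subtype)
  have hΘ : ∀ (k : K) (f : Fin m → T),
      Θ k f = e0 (MulAut.conjNormal (k : H) (e0.symm f)) := by
    intro k f; rfl
  let A : Subgroup (MulAut (Fin m → T)) := Θ.range
  let D : Subgroup (Fin m → T) := (K.subgroupOf N).comap e0.symm.toMonoidHom
  have hD : ∀ f : Fin m → T, f ∈ D ↔ ((e0.symm f : N) : H) ∈ K := by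
    intro f; exact Iff.rfl
  have h1 : D ≠ ⊤ := by
    intro h
    apply hNK
    intro n hn
    have hmem : e0 ⟨n, hn⟩ ∈ D := by rw [h]; trivial
    rw [hD, MulEquiv.symm_apply_apply] at hmem
    exact hmem
  have hconj : ∀ (k : K) (f : Fin m → T),
      ((e0.symm (Θ k f) : N) : H) = (k : H) * ((e0.symm f : N) : H) * (k : H)⁻¹ := by
    intro k f
    rw [hΘ, MulEquiv.symm_apply_apply, MulAut.conjNormal_apply]
  have h2 : ∀ φ ∈ A, ∀ d ∈ D, φ d ∈ D := by
    rintro φ ⟨k, rfl⟩ d hd
    rw [hD] at hd ⊢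
    rw [hconj]
    exact K.mul_mem (K.mul_mem k.2 hd) (K.inv_mem k.2)
  have hpull_mem : ∀ (X : Subgroup (Fin m → T)) (n : N),
      (n : H) ∈ (X.comap e0.toMonoidHom).map N.subtype ↔ e0 n ∈ X := by
    intro X n
    constructor
    · rintro ⟨n', hn', hnn⟩
      have hh : n' = n := Subtype.ext hnn
      rw [← hh]; exact hn'
    · intro h; exact ⟨n, h, rfl⟩
  have hpull_le : ∀ X : Subgroup (Fin m → T),
      (X.comap e0.toMonoidHom).map N.subtype ≤ N := by
    rintro X _ ⟨n, -, rfl⟩; exact n.2
  have hpull_norm : ∀ X : Subgroup (Fin m → T), (∀ φ ∈ A, ∀ x ∈ X, φ x ∈ X) →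
      K ≤ Subgroup.normalizer (((X.comap e0.toMonoidHom).map N.subtype : Subgroup H) : Set H) := by
    intro X hX k hk
    have hfw : ∀ k' ∈ K, ∀ y ∈ (X.comap e0.toMonoidHom).map N.subtype,
        k' * y * k'⁻¹ ∈ (X.comap e0.toMonoidHom).map N.subtype := by
      rintro k' hk' _ ⟨n, hn, rfl⟩
      have hmem := hX (Θ ⟨k', hk'⟩) ⟨⟨k', hk'⟩, rfl⟩ (e0 n) hn
      refine ⟨e0.symm (Θ ⟨k', hk'⟩ (e0 n)), ?_, ?_⟩
      · show e0 (e0.symm _) ∈ X
        rw [MulEquiv.apply_symm_apply]; exact hmem
      · rw [Subgroup.coe_subtype, hconj, MulEquiv.symm_apply_apply]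
    rw [Subgroup.mem_normalizer_iff]
    intro y
    constructor
    · intro hy; exact hfw k hk y hy
    · intro hy
      have hh := hfw k⁻¹ (K.inv_mem hk) _ hy
      have e : k⁻¹ * (k * y * k⁻¹) * k⁻¹⁻¹ = y := by group
      rw [e] at hh; exact hh
  have h3 : ∀ X : Subgroup (Fin m → T), D ≤ X → (∀ φ ∈ A, ∀ x ∈ X, φ x ∈ X) →
      X = D ∨ X = ⊤ := by
    intro X hDX hXA
    have hKX : K ⊓ N ≤ (X.comap e0.toMonoidHom).map N.subtype := by
      rintro h ⟨hhK, hhN⟩
      rw [show h = ((⟨h, hhN⟩ : N) : H) from rfl, hpull_mem]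
      apply hDX
      rw [hD, MulEquiv.symm_apply_apply]
      exact hhK
    rcases Cfsg.Agent.S0722.result H N hN hmin a _ (hpull_le X) hKX (hpull_norm X hXA)
      with h | h
    · left
      apply le_antisymm _ hDX
      intro x hx
      rw [hD]
      have hh : ((e0.symm x : N) : H) ∈ (X.comap e0.toMonoidHom).map N.subtype := by
        rw [hpull_mem, MulEquiv.apply_symm_apply]; exact hx
      rw [h] at hh
      exact hh.1
    · right
      rw [eq_top_iff]
      intro f _
      have hh : ((e0.symm f : N) : H) ∈ (X.comap e0.toMonoidHom).map N.subtype := by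
        rw [h]; exact (e0.symm f).2
      rw [hpull_mem, MulEquiv.apply_symm_apply] at hh
      exact hh
  have h4 : ∀ X : Subgroup (Fin m → T), X.Normal → (∀ φ ∈ A, ∀ x ∈ X, φ x ∈ X) →
      X = ⊥ ∨ X = ⊤ := by
    intro X hXn hXA
    have hnorm : Subgroup.normalizer
        (((X.comap e0.toMonoidHom).map N.subtype : Subgroup H) : Set H) = ⊤ := by
      rw [eq_top_iff, ← hKN]
      apply sup_le (hpull_norm X hXA)
      intro n hn
      rw [Subgroup.mem_normalizer_iff]
      have hfw : ∀ n' ∈ N, ∀ y ∈ (X.comap e0.toMonoidHom).map N.subtype,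
          n' * y * n'⁻¹ ∈ (X.comap e0.toMonoidHom).map N.subtype := by
        rintro n' hn' _ ⟨y, hy, rfl⟩
        refine ⟨⟨n', hn'⟩ * y * ⟨n', hn'⟩⁻¹, ?_, rfl⟩
        show e0 (⟨n', hn'⟩ * y * ⟨n', hn'⟩⁻¹) ∈ X
        rw [map_mul, map_mul, map_inv]
        exact hXn.conj_mem _ hy _
      intro y
      constructor
      · intro hy; exact hfw n hn y hy
      · intro hy
        have hh := hfw n⁻¹ (N.inv_mem hn) _ hy
        have e : n⁻¹ * (n * y * n⁻¹) * n⁻¹⁻¹ = y := by group
        rw [e] at hh; exact hh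
    have hXn' : ((X.comap e0.toMonoidHom).map N.subtype).Normal :=
      Subgroup.normalizer_eq_top_iff.mp hnorm
    rcases hmin _ hXn' (hpull_le X) with h | h
    · left
      rw [eq_bot_iff]
      intro x hx
      have hh : ((e0.symm x : N) : H) ∈ (X.comap e0.toMonoidHom).map N.subtype := by
        rw [hpull_mem, MulEquiv.apply_symm_apply]; exact hx
      rw [h, Subgroup.mem_bot] at hh
      have h' : e0.symm x = 1 := Subtype.ext hh
      rw [Subgroup.mem_bot]
      have h'' := congrArg e0 h'
      rwa [MulEquiv.apply_symm_apply, map_one] at h''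
    · right
      rw [eq_top_iff]
      intro f _
      have hh : ((e0.symm f : N) : H) ∈ (X.comap e0.toMonoidHom).map N.subtype := by
        rw [h]; exact (e0.symm f).2
      rw [hpull_mem, MulEquiv.apply_symm_apply] at hh
      exact hh
  obtain ⟨β, hβ⟩ := core hna A D h1 h2 h3 h4
  let e : N ≃* (Fin m → T) := e0.trans (MulEquiv.piCongrRight β)
  have hmemK : ∀ n : N, (n : H) ∈ MulAction.stabilizer H a ↔ e0 n ∈ D := by
    intro n
    rw [hD, MulEquiv.symm_apply_apply]
  refine ⟨T, instT, m, e, hsimple, hnaT, hm, ?_⟩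
  rcases hβ with ⟨Ks, hKs, hf⟩ | ⟨k, c, hk, hfib, hf⟩
  · left
    refine ⟨Ks, hKs, fun n => ?_⟩
    rw [hmemK, hf]
    exact Iff.rfl
  · right
    refine ⟨k, c, hk, hfib, fun n => ?_⟩
    rw [hmemK, hf]
    exact Iff.rfl

end Cfsg.Agent.S0723
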