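import Cfsg.Statements.S0724
import Mathlib

set_option autoImplicit false
open Cfsg

namespace Cfsg.Agent.S0724

open MulAction in
/-- Burnside for the action on `k`-tuples: `|G|` divides `∑ fix(g)^k`. -/
theorem burnside_pow {A X : Type*} [Group A] [Fintype A] [MulAction A X] [Fintype X]
    [DecidableEq X] (k : ℕ) :
    (Fintype.card A : ℤ) ∣ ∑ g : A, ((Fintype.card (fixedBy X g) : ℕ) : ℤ) ^ k := by
  classical
  have hB := sum_card_fixedBy_eq_card_orbits_mul_card_group A (Fin k → X)
  have hfix : ∀ g : A, Fintype.card (fixedBy (Fin k → X) g) = Fintype.card (fixedBy X g) ^ k := by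
    intro g
    rw [← Fintype.card_fin k, ← Fintype.card_fun, Fintype.card_fin]
    apply Fintype.card_congr
    exact
      { toFun := fun x i => ⟨x.1 i, congrFun x.2 i⟩
        invFun := fun y => ⟨fun i => (y i).1, funext fun i => (y i).2⟩
        left_inv := fun x => rfl
        right_inv := fun y => rfl }
  refine ⟨Fintype.card (Quotient (orbitRel A (Fin k → X))), ?_⟩
  have : (∑ g : A, ((Fintype.card (fixedBy X g) : ℕ) : ℤ) ^ k) =
      ((∑ g : A, Fintype.card (fixedBy (Fin k → X) g) : ℕ) : ℤ) := by
    push_cast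
    apply Finset.sum_congr rfl
    intro g _
    rw [hfix g]
    push_cast
    rfl
  rw [this, hB]
  push_cast
  ring

open MulAction in
theorem burnside_prod {A X : Type*} [Group A] [Fintype A] [MulAction A X] [Fintype X]
    [DecidableEq X] (L : Finset ℕ) : ∀ k : ℕ,
    (Fintype.card A : ℤ) ∣ ∑ g : A, ((Fintype.card (fixedBy X g) : ℕ) : ℤ) ^ k *
      ∏ l ∈ L, (((Fintype.card (fixedBy X g) : ℕ) : ℤ) - l) := by
  classical
  induction L using Finset.induction_on with
  | empty =>
    intro k
    simpa using burnside_pow (A := A) (X := X) k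
  | insert l L hl ih =>
    intro k
    have h1 := ih (k + 1)
    have h2 := ih k
    have : (∑ g : A, ((Fintype.card (fixedBy X g) : ℕ) : ℤ) ^ k *
        ∏ l' ∈ insert l L, (((Fintype.card (fixedBy X g) : ℕ) : ℤ) - l')) =
        (∑ g : A, ((Fintype.card (fixedBy X g) : ℕ) : ℤ) ^ (k + 1) *
          ∏ l' ∈ L, (((Fintype.card (fixedBy X g) : ℕ) : ℤ) - l')) -
        l * (∑ g : A, ((Fintype.card (fixedBy X g) : ℕ) : ℤ) ^ k *
          ∏ l' ∈ L, (((Fintype.card (fixedBy X g) : ℕ) : ℤ) - l')) := by
      rw [Finset.mul_sum, ← Finset.sum_sub_distrib]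
      apply Finset.sum_congr rfl
      intro g _
      rw [Finset.prod_insert hl]
      ring
    rw [this]
    exact dvd_sub h1 (Dvd.dvd.mul_left h2 _)

/-- Blichfeldt's Theorem: if a finite set `L` of natural numbers contains the number of fixed points of every non-identity element of a permutation group `G` of degree `n`, then the order of `G` divides `∏ (n - l)` over `l ∈ L`. -/
theorem result {α : Type*} [Fintype α] [DecidableEq α] (G : Subgroup (Equiv.Perm α)) (L : Finset ℕ) (hL : ∀ g ∈ G, g ≠ 1 → Nat.card (MulAction.fixedBy α g) ∈ L) : Nat.card G ∣ ∏ l ∈ L, (Fintype.card α - l) := by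
  classical
  by_cases hbig : ∃ l ∈ L, Fintype.card α ≤ l
  · obtain ⟨l, hl, hle⟩ := hbig
    have : ∏ l ∈ L, (Fintype.card α - l) = 0 :=
      Finset.prod_eq_zero hl (Nat.sub_eq_zero_of_le hle)
    rw [this]
    exact dvd_zero _
  · push Not at hbig
    have key := burnside_prod (A := G) (X := α) L 0
    simp only [pow_zero, one_mul] at key
    have hsum : (∑ g : G, ∏ l ∈ L, (((Fintype.card (MulAction.fixedBy α g) : ℕ) : ℤ) - l)) =
        ∏ l ∈ L, ((Fintype.card α : ℤ) - l) := by
      rw [Finset.sum_eq_single (1 : G)]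
      · apply Finset.prod_congr rfl
        intro l _
        congr 2
        exact Fintype.card_congr ⟨fun x => x.1, fun a => ⟨a, one_smul _ a⟩, fun x => rfl, fun a => rfl⟩
      · intro g _ hg
        have hg' : (g : Equiv.Perm α) ≠ 1 := fun h => hg (Subtype.ext h)
        have hmem := hL g g.2 hg'
        rw [Nat.card_eq_fintype_card] at hmem
        apply Finset.prod_eq_zero hmem
        have : Fintype.card (MulAction.fixedBy α g) = Fintype.card (MulAction.fixedBy α (g : Equiv.Perm α)) := rfl
        rw [this, sub_self]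
      · intro h
        exact absurd (Finset.mem_univ _) h
    rw [hsum] at key
    have hcast : ((∏ l ∈ L, (Fintype.card α - l) : ℕ) : ℤ) = ∏ l ∈ L, ((Fintype.card α : ℤ) - l) := by
      rw [Nat.cast_prod]
      apply Finset.prod_congr rfl
      intro l hl
      rw [Nat.cast_sub (le_of_lt (hbig l hl))]
    rw [Nat.card_eq_fintype_card, ← Int.natCast_dvd_natCast, hcast]
    exact key

end Cfsg.Agent.S0724
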