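import Cfsg.Statements.S0733
import Mathlib

set_option autoImplicit false
open Cfsg

namespace Cfsg.Agent.S0733

open scoped Pointwise

/-- A permutation group of affine type — generated by the translations of a finite vector space `V` over `ZMod p` together with a group `G₀` of linear automorphisms — is primitive on `V` if and only if `G₀` is irreducible on `V`. -/
theorem result {p : ℕ} [Fact p.Prime] {V : Type*} [AddCommGroup V] [Module (ZMod p) V] [Finite V] [Nontrivial V] (G₀ : Subgroup (V ≃ₗ[ZMod p] V)) (G : Subgroup (Equiv.Perm V)) (hG : ∀ σ : Equiv.Perm V, σ ∈ G ↔ ∃ g ∈ G₀, ∃ b : V, ∀ x : V, σ x = (g : V ≃ₗ[ZMod p] V) x + b) : MulAction.IsPreprimitive G V ↔ ∀ W : Submodule (ZMod p) V, (∀ g ∈ G₀, ∀ v ∈ W, (g : V ≃ₗ[ZMod p] V) v ∈ W) → W = ⊥ ∨ W = ⊤ := by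
  classical
  have hmk : ∀ g ∈ G₀, ∀ b : V, ∃ σ : G, ∀ x : V, σ • x = (g : V ≃ₗ[ZMod p] V) x + b := by
    intro g hg b
    exact ⟨⟨(g : V ≃ₗ[ZMod p] V).toEquiv.trans (Equiv.addRight b),
      (hG _).mpr ⟨g, hg, b, fun x => rfl⟩⟩, fun x => rfl⟩
  have hdest : ∀ σ : G, ∃ g ∈ G₀, ∃ b : V, ∀ x : V, σ • x = (g : V ≃ₗ[ZMod p] V) x + b := by
    intro σ
    obtain ⟨g, hg, b, h⟩ := (hG σ.1).mp σ.2
    exact ⟨g, hg, b, h⟩
  haveI : MulAction.IsPretransitive G V := by
    constructor
    intro x y
    obtain ⟨σ, hσ⟩ := hmk 1 G₀.one_mem (y - x)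
    exact ⟨σ, by rw [hσ]; simp⟩
  constructor
  · intro hprim W hW
    have hblock : MulAction.IsBlock G (W : Set V) := by
      rw [MulAction.isBlock_iff_smul_eq_or_disjoint]
      intro σ
      obtain ⟨g, hg, b, h⟩ := hdest σ
      by_cases hb : b ∈ W
      · left
        ext x
        constructor
        · rintro ⟨w, hw, rfl⟩
          change σ • w ∈ W
          rw [h]; exact W.add_mem (hW g hg w hw) hb
        · intro hx
          refine ⟨(g⁻¹ : V ≃ₗ[ZMod p] V) (x - b), ?_, ?_⟩
          · exact hW g⁻¹ (G₀.inv_mem hg) (x - b) (W.sub_mem hx hb)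
          · change σ • _ = x
            rw [h]
            have : (g : V ≃ₗ[ZMod p] V) ((g⁻¹ : V ≃ₗ[ZMod p] V) (x - b)) = x - b := by
              rw [← LinearEquiv.mul_apply, mul_inv_cancel]; rfl
            rw [this]; abel
      · right
        rw [Set.disjoint_left]
        rintro _ ⟨w, hw, rfl⟩ hmem
        change σ • w ∈ W at hmem
        rw [h] at hmem
        apply hb
        have := W.sub_mem hmem (hW g hg w hw)
        simpa using this
    rcases hprim.isTrivialBlock_of_isBlock hblock with h | h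
    · left
      rw [eq_bot_iff]
      intro w hw
      rw [Submodule.mem_bot]
      exact h hw W.zero_mem
    · right
      rw [eq_top_iff]
      intro w _
      have : w ∈ (W : Set V) := by rw [h]; trivial
      exact this
  · intro hirr
    apply MulAction.IsPreprimitive.of_isTrivialBlock_base (0 : V)
    intro B h0 hB
    rw [MulAction.isBlock_iff_smul_eq_of_mem] at hB
    have hadd : ∀ x ∈ B, ∀ b ∈ B, x + b ∈ B := by
      intro x hx b hb
      obtain ⟨σ, hσ⟩ := hmk 1 G₀.one_mem b
      have h1 : σ • B = B := by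
        apply hB h0
        rw [hσ]; simpa using hb
      rw [← h1]
      exact ⟨x, hx, by change σ • x = _; rw [hσ]; simp⟩
    have hlin : ∀ g ∈ G₀, ∀ x ∈ B, (g : V ≃ₗ[ZMod p] V) x ∈ B := by
      intro g hg x hx
      obtain ⟨σ, hσ⟩ := hmk g hg 0
      have h1 : σ • B = B := by
        apply hB h0
        rw [hσ]; simpa using h0
      rw [← h1]
      exact ⟨x, hx, by change σ • x = _; rw [hσ]; simp⟩
    let W₀ : AddSubmonoid V :=
      { carrier := B, add_mem' := fun hx hy => hadd _ hx _ hy, zero_mem' := h0 }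
    let W : Submodule (ZMod p) V :=
      { W₀ with
        smul_mem' := by
          intro c x hx
          have : c • x = c.val • x := by
            rw [← Nat.cast_smul_eq_nsmul (ZMod p), ZMod.natCast_zmod_val]
          rw [this]
          exact W₀.nsmul_mem hx _ }
    have hWB : ∀ x, x ∈ W ↔ x ∈ B := fun x => Iff.rfl
    rcases hirr W (fun g hg x hx => (hWB _).mpr (hlin g hg x ((hWB x).mp hx))) with h | h
    · left
      intro x hx y hy
      have hx' : x ∈ W := hx
      have hy' : y ∈ W := hy
      rw [h, Submodule.mem_bot] at hx' hy'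
      rw [hx', hy']
    · right
      ext x
      simp only [Set.mem_univ, iff_true]
      have : x ∈ W := by rw [h]; trivial
      exact this

end Cfsg.Agent.S0733
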