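import Cfsg.Statements.S0734
import Mathlib

set_option autoImplicit false
open Cfsg

namespace Cfsg.Agent.S0734

open scoped Pointwise

/-- Higman's criterion for primitivity: a transitive action on a finite set is primitive if and only if every non-trivial orbital graph (edges = images of a fixed pair of distinct points) is connected. -/
theorem result {G : Type*} [Group G] {Ω : Type*} [Finite Ω] [MulAction G Ω] [MulAction.IsPretransitive G Ω] [Nontrivial Ω] : MulAction.IsPreprimitive G Ω ↔ ∀ a b : Ω, a ≠ b → (SimpleGraph.fromRel fun x y : Ω => ∃ g : G, g • a = x ∧ g • b = y).Connected := by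
  classical
  constructor
  · intro hprim a b hab
    set Γ := SimpleGraph.fromRel fun x y : Ω => ∃ g : G, g • a = x ∧ g • b = y with hΓ
    have hinv : ∀ (h : G) x y, Γ.Adj x y → Γ.Adj (h • x) (h • y) := by
      intro h x y hxy
      rw [hΓ, SimpleGraph.fromRel_adj] at hxy ⊢
      obtain ⟨hne, hr⟩ := hxy
      refine ⟨fun e => hne (smul_left_cancel h e), ?_⟩
      rcases hr with ⟨g, rfl, rfl⟩ | ⟨g, rfl, rfl⟩
      · left; exact ⟨h * g, mul_smul _ _ _, mul_smul _ _ _⟩
      · right; exact ⟨h * g, mul_smul _ _ _, mul_smul _ _ _⟩
    have hreach : ∀ (h : G) x y, Γ.Reachable x y → Γ.Reachable (h • x) (h • y) := by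
      intro h x y hxy
      rw [SimpleGraph.reachable_iff_reflTransGen] at hxy ⊢
      induction hxy with
      | refl => exact Relation.ReflTransGen.refl
      | tail _ hyz ih => exact ih.tail (hinv h _ _ hyz)
    let C : Set Ω := {x | Γ.Reachable a x}
    have hC : MulAction.IsBlock G C := by
      rw [MulAction.isBlock_iff_smul_eq_of_mem]
      intro g x hx hgx
      have h1 : Γ.Reachable a (g • a) := hgx.trans (hreach g _ _ hx).symm
      ext y
      constructor
      · rintro ⟨z, hz, rfl⟩
        exact h1.trans (hreach g _ _ hz)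
      · intro hy
        refine ⟨g⁻¹ • y, ?_, by simp⟩
        have := hreach g⁻¹ _ _ (h1.symm.trans hy)
        rw [inv_smul_smul] at this
        exact this
    have hab' : Γ.Adj a b := by
      rw [hΓ, SimpleGraph.fromRel_adj]
      exact ⟨hab, Or.inl ⟨1, one_smul _ _, one_smul _ _⟩⟩
    rcases hprim.isTrivialBlock_of_isBlock hC with h | h
    · exact absurd (h (SimpleGraph.Reachable.refl a) hab'.reachable) hab
    · rw [SimpleGraph.connected_iff]
      refine ⟨?_, ⟨a⟩⟩
      intro x y
      have hx : x ∈ C := by rw [h]; trivial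
      have hy : y ∈ C := by rw [h]; trivial
      exact (SimpleGraph.Reachable.symm hx).trans hy
  · intro hconn
    obtain ⟨a, -⟩ := exists_pair_ne Ω
    apply MulAction.IsPreprimitive.of_isTrivialBlock_base a
    intro B haB hB
    by_cases hsub : B.Subsingleton
    · left; exact hsub
    · right
      rw [Set.not_subsingleton_iff] at hsub
      obtain ⟨b, hbB, hba⟩ : ∃ b ∈ B, b ≠ a := by
        obtain ⟨x, hx, y, hy, hxy⟩ := hsub
        by_cases hxa : x = a
        · exact ⟨y, hy, fun h => hxy (hxa.trans h.symm)⟩
        · exact ⟨x, hx, hxa⟩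
      have hc := hconn a b (Ne.symm hba)
      rw [MulAction.isBlock_iff_smul_eq_of_mem] at hB
      have hadj : ∀ x y, (SimpleGraph.fromRel fun x y : Ω => ∃ g : G, g • a = x ∧ g • b = y).Adj x y →
          x ∈ B → y ∈ B := by
        intro x y hxy hx
        rw [SimpleGraph.fromRel_adj] at hxy
        rcases hxy.2 with ⟨g, rfl, rfl⟩ | ⟨g, rfl, rfl⟩
        · have := hB haB hx
          rw [← this]; exact Set.smul_mem_smul_set hbB
        · have := hB hbB hx
          rw [← this]; exact Set.smul_mem_smul_set haB
      ext y
      simp only [Set.mem_univ, iff_true]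
      have hr := hc.preconnected a y
      rw [SimpleGraph.reachable_iff_reflTransGen] at hr
      induction hr with
      | refl => exact haB
      | tail _ hyz ih => exact hadj _ _ hyz ih

end Cfsg.Agent.S0734
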