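import Cfsg.Statements.S0735
import Mathlib

set_option autoImplicit false
open Cfsg

namespace Cfsg.Agent.S0735

open scoped Pointwise

theorem pair_hom {α : Type*} [Fintype α] [DecidableEq α] (G : Subgroup (Equiv.Perm α))
    (h2 : MulAction.IsPretransitive G (Set.powersetCard α 2)) (a b x y : α) (hab : a ≠ b)
    (hxy : x ≠ y) :
    ∃ g : G, (g • a = x ∧ g • b = y) ∨ (g • a = y ∧ g • b = x) := by
  obtain ⟨g, hg⟩ := MulAction.exists_smul_eq G
    (Set.powersetCard.ofCard (Finset.card_pair hab))
    (Set.powersetCard.ofCard (Finset.card_pair hxy))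
  have h : g • ({a, b} : Finset α) = {x, y} := by
    have h := congrArg Subtype.val hg
    exact (Set.powersetCard.coe_smul (g := g)
      (s := Set.powersetCard.ofCard (Finset.card_pair hab))).symm.trans h
  have ha : g • a ∈ ({x, y} : Finset α) := by
    rw [← h]
    exact Finset.smul_mem_smul_finset (by simp)
  have hb : g • b ∈ ({x, y} : Finset α) := by
    rw [← h]
    exact Finset.smul_mem_smul_finset (by simp)
  have hne : g • a ≠ g • b := fun e => hab (smul_left_cancel g e)
  simp only [Finset.mem_insert, Finset.mem_singleton] at ha hb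
  refine ⟨g, ?_⟩
  rcases ha with ha | ha <;> rcases hb with hb | hb
  · exact absurd (ha.trans hb.symm) hne
  · exact Or.inl ⟨ha, hb⟩
  · exact Or.inr ⟨ha, hb⟩
  · exact absurd (ha.trans hb.symm) hne

/-- A 2-homogeneous permutation group (transitive on 2-subsets) of even order is doubly transitive; a non-trivial 2-homogeneous group is primitive. -/
theorem result {α : Type*} [Fintype α] [DecidableEq α] (G : Subgroup (Equiv.Perm α)) (h2 : MulAction.IsPretransitive G (Set.powersetCard α 2)) (hα : 3 ≤ Fintype.card α) : (Even (Nat.card G) → MulAction.IsMultiplyPretransitive G α 2) ∧ (G ≠ ⊥ → MulAction.IsPreprimitive G α) := by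
  classical
  have hph := pair_hom G h2
  constructor
  · intro heven
    haveI : Fact (Nat.Prime 2) := ⟨Nat.prime_two⟩
    obtain ⟨t, ht⟩ := exists_prime_orderOf_dvd_card' (G := G) 2 heven.two_dvd
    have ht1 : t ≠ 1 := by
      intro h
      rw [h, orderOf_one] at ht
      omega
    have ht2 : t * t = 1 := by
      have := pow_orderOf_eq_one t
      rwa [ht, sq] at this
    obtain ⟨a, ha⟩ : ∃ a : α, t • a ≠ a := by
      by_contra hcon
      push Not at hcon
      apply ht1
      apply Subtype.ext
      apply Equiv.ext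
      intro x
      exact hcon x
    have hta : t • (t • a) = a := by
      rw [← mul_smul, ht2, one_smul]
    have hord : ∀ x y : α, x ≠ y → ∃ k : G, k • a = x ∧ k • (t • a) = y := by
      intro x y hxy
      obtain ⟨g, hg | hg⟩ := hph a (t • a) x y (Ne.symm ha) hxy
      · exact ⟨g, hg⟩
      · refine ⟨g * t, ?_, ?_⟩
        · rw [mul_smul]; exact hg.2
        · rw [mul_smul, hta]; exact hg.1
    rw [MulAction.is_two_pretransitive_iff]
    intro a' b' c d hab hcd
    obtain ⟨k₁, hk₁a, hk₁b⟩ := hord a' b' hab
    obtain ⟨k₂, hk₂a, hk₂b⟩ := hord c d hcd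
    refine ⟨k₂ * k₁⁻¹, ?_, ?_⟩
    · rw [mul_smul, ← hk₁a, inv_smul_smul, hk₂a]
    · rw [mul_smul, ← hk₁b, inv_smul_smul, hk₂b]
  · intro _
    haveI : MulAction.IsPretransitive G α := by
      constructor
      intro x y
      by_cases hxy : x = y
      · exact ⟨1, by rw [one_smul, hxy]⟩
      · obtain ⟨z, hz⟩ : ∃ z, z ∉ ({x, y} : Finset α) := by
          by_contra hcon
          push Not at hcon
          have h1 : ({x, y} : Finset α) = Finset.univ := Finset.eq_univ_iff_forall.mpr hcon
          have h2 := Finset.card_pair hxy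
          rw [h1, Finset.card_univ] at h2
          omega
        simp only [Finset.mem_insert, Finset.mem_singleton, not_or] at hz
        obtain ⟨g, hg | hg⟩ := hph x z y z (Ne.symm hz.1) (Ne.symm hz.2)
        · exact ⟨g, hg.1⟩
        · exact ⟨g * g, by rw [mul_smul, hg.1, hg.2]⟩
    obtain ⟨a⟩ : Nonempty α := by
      rw [← Fintype.card_pos_iff]; omega
    apply MulAction.IsPreprimitive.of_isTrivialBlock_base a
    intro B haB hB
    rw [MulAction.isBlock_iff_smul_eq_of_mem] at hB
    by_cases hsub : B.Subsingleton
    · left; exact hsub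
    · right
      rw [Set.not_subsingleton_iff] at hsub
      obtain ⟨b, hbB, hba⟩ : ∃ b ∈ B, b ≠ a := by
        obtain ⟨x, hx, y, hy, hxy⟩ := hsub
        by_cases hxa : x = a
        · exact ⟨y, hy, fun h => hxy (hxa.trans h.symm)⟩
        · exact ⟨x, hx, hxa⟩
      ext c
      simp only [Set.mem_univ, iff_true]
      by_contra hc
      have hca : a ≠ c := fun h => hc (h ▸ haB)
      obtain ⟨g, hg | hg⟩ := hph a b a c (Ne.symm hba) hca
      · have h1 : g • B = B := hB haB (by rw [hg.1]; exact haB)
        apply hc
        rw [← h1, ← hg.2]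
        exact Set.smul_mem_smul_set hbB
      · have h1 : g • B = B := hB hbB (by rw [hg.2]; exact haB)
        apply hc
        rw [← h1, ← hg.1]
        exact Set.smul_mem_smul_set haB

end Cfsg.Agent.S0735
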