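import Cfsg.Statements.S0736
import Mathlib

set_option autoImplicit false
open Cfsg

namespace Cfsg.Agent.S0736

open scoped Pointwise

/-- `C(m p^e + p^e - 1, p^e - 1) ≡ 1 mod p` (from Lucas' theorem) -/
theorem choose_pow_modEq (p : ℕ) [Fact p.Prime] :
    ∀ (e m : ℕ), Nat.choose (m * p ^ e + (p ^ e - 1)) (p ^ e - 1) ≡ 1 [MOD p]
  | 0, m => by simp [Nat.ModEq]
  | e + 1, m => by
    have hp : 0 < p := (Fact.out : p.Prime).pos
    have hp1 : 1 ≤ p := hp
    have hpe : 1 ≤ p ^ e := pow_pos hp e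
    have hpe1 : 1 ≤ p ^ (e + 1) := pow_pos hp (e + 1)
    have h1 : m * p ^ (e + 1) + (p ^ (e + 1) - 1) = (p - 1) + p * (m * p ^ e + (p ^ e - 1)) := by
      zify [hp1, hpe, hpe1]
      ring
    have h2 : p ^ (e + 1) - 1 = (p - 1) + p * (p ^ e - 1) := by
      zify [hp1, hpe, hpe1]
      ring
    have hlt : p - 1 < p := by omega
    have hmod1 : (m * p ^ (e + 1) + (p ^ (e + 1) - 1)) % p = p - 1 := by
      rw [h1, Nat.add_mul_mod_self_left, Nat.mod_eq_of_lt hlt]
    have hdiv1 : (m * p ^ (e + 1) + (p ^ (e + 1) - 1)) / p = m * p ^ e + (p ^ e - 1) := by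
      rw [h1, Nat.add_mul_div_left _ _ hp, Nat.div_eq_of_lt hlt, zero_add]
    have hmod2 : (p ^ (e + 1) - 1) % p = p - 1 := by
      rw [h2, Nat.add_mul_mod_self_left, Nat.mod_eq_of_lt hlt]
    have hdiv2 : (p ^ (e + 1) - 1) / p = p ^ e - 1 := by
      rw [h2, Nat.add_mul_div_left _ _ hp, Nat.div_eq_of_lt hlt, zero_add]
    have h3 := Choose.choose_modEq_choose_mod_mul_choose_div_nat
      (n := m * p ^ (e + 1) + (p ^ (e + 1) - 1)) (k := p ^ (e + 1) - 1) (p := p)
    rw [hmod1, hdiv1, hmod2, hdiv2, Nat.choose_self, one_mul] at h3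
    exact h3.trans (choose_pow_modEq p e m)

theorem coprime_choose (p e k : ℕ) (hp : p.Prime) (hk : p ^ e ∣ k) :
    Nat.Coprime (p ^ e) (Nat.choose (k + p ^ e - 1) k) := by
  haveI : Fact p.Prime := ⟨hp⟩
  obtain ⟨m, rfl⟩ := hk
  have hpe : 1 ≤ p ^ e := pow_pos hp.pos e
  have h1 : p ^ e * m + p ^ e - 1 = m * p ^ e + (p ^ e - 1) := by
    rw [mul_comm]; omega
  rw [h1]
  have h2 : Nat.choose (m * p ^ e + (p ^ e - 1)) (p ^ e * m) =
      Nat.choose (m * p ^ e + (p ^ e - 1)) (p ^ e - 1) := by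
    rw [mul_comm (p ^ e) m]
    exact Nat.choose_symm_add
  rw [h2]
  apply Nat.Coprime.pow_left
  rw [Nat.Prime.coprime_iff_not_dvd hp]
  intro hdvd
  have h3 := choose_pow_modEq p e m
  have h4 : Nat.choose (m * p ^ e + (p ^ e - 1)) (p ^ e - 1) % p = 0 := Nat.mod_eq_zero_of_dvd hdvd
  unfold Nat.ModEq at h3
  rw [h4, Nat.mod_eq_of_lt hp.one_lt] at h3
  exact absurd h3 (by norm_num)

/-- A `k`-homogeneous permutation group of degree `n`, `k ≥ 2`, with `k + q - 1 ≤ n` for every prime power `q` dividing `k`, is `(k-1)`-homogeneous. -/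
theorem result {α : Type*} [Fintype α] [DecidableEq α] (G : Subgroup (Equiv.Perm α)) {k : ℕ} (hk : 2 ≤ k) (hG : MulAction.IsPretransitive G (Set.powersetCard α k)) (hq : ∀ q : ℕ, IsPrimePow q → q ∣ k → k + q - 1 ≤ Fintype.card α) : MulAction.IsPretransitive G (Set.powersetCard α (k - 1)) := by
  classical
  have hkn : k < Fintype.card α := by
    obtain ⟨p, hp, hpk⟩ := Nat.exists_prime_and_dvd (by omega : k ≠ 1)
    have h1 := hq p hp.isPrimePow hpk
    have h2 := hp.two_le
    omega
  have hhom : ∀ S S' : Finset α, S.card = k → S'.card = k → ∃ g : G, g • S = S' := by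
    intro S S' hS hS'
    obtain ⟨g, hg⟩ := MulAction.exists_smul_eq G (Set.powersetCard.ofCard hS)
      (Set.powersetCard.ofCard hS')
    refine ⟨g, ?_⟩
    have h := congrArg Subtype.val hg
    exact (Set.powersetCard.coe_smul (g := g) (s := Set.powersetCard.ofCard hS)).symm.trans h
  constructor
  intro Δ₁ Δ₂
  let P : Finset α → Prop := fun Δ => ∃ g : G, g • (Δ₁ : Finset α) = Δ
  have hPinv : ∀ (h : G) (Δ : Finset α), P Δ ↔ P (h • Δ) := by
    intro h Δ
    constructor
    · rintro ⟨g, rfl⟩; exact ⟨h * g, mul_smul _ _ _⟩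
    · rintro ⟨g, hg⟩; exact ⟨h⁻¹ * g, by rw [mul_smul, hg, inv_smul_smul]⟩
  have herase : ∀ (g : G) (S : Finset α) (x : α), (g • S).erase (g • x) = g • (S.erase x) := by
    intro g S x
    ext y
    simp only [Finset.mem_erase, Finset.mem_smul_finset]
    constructor
    · rintro ⟨hne, z, hz, rfl⟩
      exact ⟨z, ⟨fun h => hne (by rw [h]), hz⟩, rfl⟩
    · rintro ⟨z, ⟨hne, hz⟩, rfl⟩
      exact ⟨fun h => hne (smul_left_cancel g h), z, hz, rfl⟩
  let a : Finset α → ℕ := fun S => (S.filter (fun x => P (S.erase x))).card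
  have ha_inv : ∀ (g : G) (S : Finset α), a (g • S) = a S := by
    intro g S
    symm
    apply Finset.card_bij (fun x _ => g • x)
    · intro x hx
      rw [Finset.mem_filter] at hx ⊢
      refine ⟨Finset.smul_mem_smul_finset hx.1, ?_⟩
      rw [herase]
      exact (hPinv g _).mp hx.2
    · intro x _ y _ hxy
      exact smul_left_cancel g hxy
    · intro y hy
      rw [Finset.mem_filter] at hy
      obtain ⟨x, hx, rfl⟩ := Finset.mem_smul_finset.mp hy.1
      refine ⟨x, ?_, rfl⟩
      rw [Finset.mem_filter]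
      refine ⟨hx, ?_⟩
      have h2 := hy.2
      rw [herase] at h2
      exact (hPinv g _).mpr h2
  have ha_const : ∀ S S' : Finset α, S.card = k → S'.card = k → a S = a S' := by
    intro S S' hS hS'
    obtain ⟨g, rfl⟩ := hhom S S' hS hS'
    exact (ha_inv g S).symm
  have hΔ₁card : (Δ₁ : Finset α).card = k - 1 := Δ₁.2
  have hΔ₂card : (Δ₂ : Finset α).card = k - 1 := Δ₂.2
  have hex : ∀ Δ : Finset α, Δ.card = k - 1 → ∃ x, x ∉ Δ := by
    intro Δ hΔ
    by_contra hcon
    push Not at hcon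
    have h1 : Δ = Finset.univ := Finset.eq_univ_iff_forall.mpr hcon
    rw [h1, Finset.card_univ] at hΔ
    omega
  obtain ⟨x₁, hx₁⟩ := hex _ hΔ₁card
  set S₁ := insert x₁ (Δ₁ : Finset α) with hS₁
  have hS₁card : S₁.card = k := by
    rw [hS₁, Finset.card_insert_of_notMem hx₁, hΔ₁card]; omega
  have ha1 : 1 ≤ a S₁ := by
    apply Finset.card_pos.mpr
    refine ⟨x₁, ?_⟩
    rw [Finset.mem_filter]
    refine ⟨Finset.mem_insert_self _ _, ?_⟩
    rw [hS₁, Finset.erase_insert hx₁]
    exact ⟨1, one_smul _ _⟩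
  have hA : ∀ q : ℕ, IsPrimePow q → q ∣ k → q ∣ a S₁ := by
    intro q hqpp hqk
    have hn := hq q hqpp hqk
    obtain ⟨p, e, hp, he, rfl⟩ := (isPrimePow_nat_iff q).mp hqpp
    have hqpos : 0 < p ^ e := pow_pos hp.pos e
    obtain ⟨W, -, hWc⟩ := Finset.exists_subset_card_eq (s := (Finset.univ : Finset α))
      (n := k + p ^ e - 1) (by rw [Finset.card_univ]; exact hn)
    let s := Finset.powersetCard k W
    let t := (Finset.powersetCard (k - 1) W).filter P
    have hdc := Finset.sum_card_bipartiteAbove_eq_sum_card_bipartiteBelow (s := s) (t := t)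
      (r := fun S Δ => Δ ⊆ S)
    have h1 : ∀ S ∈ s, (t.bipartiteAbove (fun S Δ => Δ ⊆ S) S).card = a S₁ := by
      intro S hS
      rw [Finset.mem_powersetCard] at hS
      rw [ha_const S₁ S hS₁card hS.2]
      symm
      apply Finset.card_bij (fun x _ => S.erase x)
      · intro x hx
        rw [Finset.mem_filter] at hx
        rw [Finset.mem_bipartiteAbove]
        refine ⟨?_, Finset.erase_subset _ _⟩
        rw [Finset.mem_filter, Finset.mem_powersetCard]
        refine ⟨⟨(Finset.erase_subset _ _).trans hS.1, ?_⟩, hx.2⟩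
        rw [Finset.card_erase_of_mem hx.1, hS.2]
      · intro x hx y hy hxy
        rw [Finset.mem_filter] at hx hy
        by_contra hne
        have h3 : y ∈ S.erase x := Finset.mem_erase.mpr ⟨fun h => hne h.symm, hy.1⟩
        rw [hxy] at h3
        exact (Finset.notMem_erase y S) h3
      · intro Δ hΔ
        rw [Finset.mem_bipartiteAbove, Finset.mem_filter, Finset.mem_powersetCard] at hΔ
        obtain ⟨⟨⟨hΔW, hΔc⟩, hΔP⟩, hΔS⟩ := hΔ
        have hc : (S \ Δ).card = 1 := by
          rw [Finset.card_sdiff_of_subset hΔS, hS.2, hΔc]; omega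
        obtain ⟨x, hx⟩ := Finset.card_eq_one.mp hc
        have hxS : x ∈ S := by
          have h3 : x ∈ S \ Δ := by rw [hx]; exact Finset.mem_singleton_self x
          exact (Finset.mem_sdiff.mp h3).1
        have hΔeq : S.erase x = Δ := by
          rw [← Finset.sdiff_singleton_eq_erase, ← hx, Finset.sdiff_sdiff_eq_self hΔS]
        refine ⟨x, ?_, hΔeq⟩
        rw [Finset.mem_filter]
        exact ⟨hxS, by rw [hΔeq]; exact hΔP⟩
    have h2 : ∀ Δ ∈ t, (s.bipartiteBelow (fun S Δ => Δ ⊆ S) Δ).card = p ^ e := by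
      intro Δ hΔ
      rw [Finset.mem_filter, Finset.mem_powersetCard] at hΔ
      obtain ⟨⟨hΔW, hΔc⟩, hΔP⟩ := hΔ
      have hc : (W \ Δ).card = p ^ e := by
        rw [Finset.card_sdiff_of_subset hΔW, hWc, hΔc]; omega
      rw [← hc]
      symm
      apply Finset.card_bij (fun x _ => insert x Δ)
      · intro x hx
        rw [Finset.mem_sdiff] at hx
        rw [Finset.mem_bipartiteBelow, Finset.mem_powersetCard]
        refine ⟨⟨Finset.insert_subset hx.1 hΔW, ?_⟩, Finset.subset_insert _ _⟩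
        rw [Finset.card_insert_of_notMem hx.2, hΔc]; omega
      · intro x hx y hy hxy
        rw [Finset.mem_sdiff] at hx hy
        have h3 : x ∈ insert y Δ := by rw [← hxy]; exact Finset.mem_insert_self _ _
        rcases Finset.mem_insert.mp h3 with h | h
        · exact h
        · exact absurd h hx.2
      · intro S hS
        rw [Finset.mem_bipartiteBelow, Finset.mem_powersetCard] at hS
        obtain ⟨⟨hSW, hSc⟩, hΔS⟩ := hS
        have hc' : (S \ Δ).card = 1 := by
          rw [Finset.card_sdiff_of_subset hΔS, hSc, hΔc]; omega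
        obtain ⟨x, hx⟩ := Finset.card_eq_one.mp hc'
        have hxm : x ∈ S \ Δ := by rw [hx]; exact Finset.mem_singleton_self x
        rw [Finset.mem_sdiff] at hxm
        refine ⟨x, Finset.mem_sdiff.mpr ⟨hSW hxm.1, hxm.2⟩, ?_⟩
        rw [Finset.insert_eq, ← hx, Finset.sdiff_union_of_subset hΔS]
    rw [Finset.sum_congr rfl h1, Finset.sum_congr rfl h2, Finset.sum_const, Finset.sum_const,
      smul_eq_mul, smul_eq_mul, Finset.card_powersetCard, hWc] at hdc
    have hcop := coprime_choose p e k hp hqk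
    have h5 : p ^ e ∣ Nat.choose (k + p ^ e - 1) k * a S₁ := ⟨t.card, by rw [hdc, mul_comm]⟩
    exact hcop.dvd_of_dvd_mul_left h5
  have hk_dvd : k ∣ a S₁ := by
    have hk0 : k ≠ 0 := by omega
    have ha0 : a S₁ ≠ 0 := by omega
    rw [← Nat.factorization_le_iff_dvd hk0 ha0]
    intro p
    by_cases hp : p.Prime
    · by_cases hpk : k.factorization p = 0
      · rw [hpk]; exact Nat.zero_le _
      · have hpp : IsPrimePow (p ^ k.factorization p) := (hp.isPrimePow).pow hpk
        have h3 := hA _ hpp (Nat.ordProj_dvd k p)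
        exact (hp.pow_dvd_iff_le_factorization ha0).mp h3
    · rw [Nat.factorization_eq_zero_of_not_prime k hp]; exact Nat.zero_le _
  have ha_le : a S₁ ≤ k := by
    rw [← hS₁card]; exact Finset.card_filter_le _ _
  have ha_eq : a S₁ = k := le_antisymm ha_le (Nat.le_of_dvd (by omega) hk_dvd)
  have hall : ∀ S : Finset α, S.card = k → ∀ x ∈ S, P (S.erase x) := by
    intro S hS x hx
    have h1 : a S = k := by rw [← ha_const S₁ S hS₁card hS]; exact ha_eq
    have h2 : S.filter (fun x => P (S.erase x)) = S :=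
      Finset.eq_of_subset_of_card_le (Finset.filter_subset _ _) (by rw [hS]; exact h1.ge)
    have h3 : x ∈ S.filter (fun x => P (S.erase x)) := by rw [h2]; exact hx
    exact (Finset.mem_filter.mp h3).2
  obtain ⟨x₂, hx₂⟩ := hex _ hΔ₂card
  have h4 := hall (insert x₂ (Δ₂ : Finset α))
    (by rw [Finset.card_insert_of_notMem hx₂, hΔ₂card]; omega) x₂ (Finset.mem_insert_self _ _)
  rw [Finset.erase_insert hx₂] at h4
  obtain ⟨g, hg⟩ := h4
  refine ⟨g, ?_⟩
  apply Subtype.ext
  exact (Set.powersetCard.coe_smul (g := g) (s := Δ₁)).trans hg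

end Cfsg.Agent.S0736
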