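import Cfsg.Statements.S0743
import Mathlib

set_option autoImplicit false
open Cfsg

namespace Cfsg.Agent.S0743

open scoped Pointwise

/-- the fixed point congruence for a `p`-group acting on an invariant subset -/
theorem pgroup_fixed {α : Type*} [Finite α] {M : Type*} [Group M] [MulAction M α] {p : ℕ}
    [Fact p.Prime] (hM : IsPGroup p M) (O : Set α) (hO : ∀ (m : M) (x : α), x ∈ O → m • x ∈ O) :
    O.ncard ≡ (O ∩ MulAction.fixedPoints M α).ncard [MOD p] := by
  let S : SubMulAction M α := ⟨O, fun m x hx => hO m x hx⟩
  have h1 := hM.card_modEq_card_fixedPoints S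
  have h2 : Nat.card S = O.ncard := Nat.card_coe_set_eq O
  have h3 : Nat.card (MulAction.fixedPoints M S) = (O ∩ MulAction.fixedPoints M α).ncard := by
    rw [Nat.card_coe_set_eq, ← Set.ncard_image_of_injective _ Subtype.val_injective]
    congr 1
    ext x
    constructor
    · rintro ⟨⟨y, hy⟩, hfix, rfl⟩
      exact ⟨hy, fun m => congrArg Subtype.val (hfix m)⟩
    · rintro ⟨hx, hfix⟩
      exact ⟨⟨x, hx⟩, fun m => Subtype.ext (hfix m), rfl⟩
  rw [h2, h3] at h1
  exact h1

/-- Gleason's Lemma: let `p` be a prime and `1 ≤ k < n`; if every `k`-subset of the `n` points is exactly the fixed-point set of some `p`-subgroup of `G`, then `G` is `k`-transitive. -/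
theorem result {α : Type*} [Fintype α] [DecidableEq α] (G : Subgroup (Equiv.Perm α)) {p k : ℕ} (hp : p.Prime) (hk : 1 ≤ k) (hkn : k < Fintype.card α) (h : ∀ s : Finset α, s.card = k → ∃ P : Subgroup G, IsPGroup p P ∧ MulAction.fixedPoints P α = (s : Set α)) : MulAction.IsMultiplyPretransitive G α k := by
  classical
  haveI : Fact p.Prime := ⟨hp⟩
  have L1 : ∀ t : Finset α, t.card = k - 1 → ∀ a b, a ∉ t → b ∉ t →
      ∃ g : G, (∀ c ∈ t, g • c = c) ∧ g • a = b := by
    intro t ht a b ha hb
    by_contra hcon
    let O : Set α := {x | ∃ g : G, (∀ c ∈ t, g • c = c) ∧ g • a = x}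
    have haO : a ∈ O := ⟨1, fun c _ => one_smul _ _, one_smul _ _⟩
    have hbO : b ∉ O := fun h => hcon h
    have hOt : ∀ x ∈ O, x ∉ t := by
      rintro x ⟨g, hg, rfl⟩ hx
      apply ha
      have h1 := hg _ hx
      rw [smul_left_cancel_iff] at h1
      rw [← h1]; exact hx
    have key : ∀ e, e ∉ t → O.ncard ≡ (O ∩ (↑(insert e t : Finset α) : Set α)).ncard [MOD p] := by
      intro e he
      obtain ⟨P, hP, hfix⟩ := h (insert e t) (by rw [Finset.card_insert_of_notMem he, ht]; omega)
      have h1 := pgroup_fixed hP O (by
        intro m x hx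
        obtain ⟨g, hg, rfl⟩ := hx
        refine ⟨(m : G) * g, ?_, mul_smul _ _ _⟩
        intro c hc
        rw [mul_smul, hg c hc]
        have hc' : c ∈ MulAction.fixedPoints P α := by
          rw [hfix]; simp [hc]
        exact hc' m)
      rw [hfix] at h1
      exact h1
    have h1 := key a ha
    have h2 := key b hb
    have e1 : O ∩ (↑(insert a t : Finset α) : Set α) = {a} := by
      ext x
      simp only [Set.mem_inter_iff, Finset.coe_insert, Set.mem_insert_iff, Finset.mem_coe,
        Set.mem_singleton_iff]
      constructor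
      · rintro ⟨hxO, rfl | hxt⟩
        · rfl
        · exact absurd hxt (hOt x hxO)
      · rintro rfl; exact ⟨haO, Or.inl rfl⟩
    have e2 : O ∩ (↑(insert b t : Finset α) : Set α) = ∅ := by
      ext x
      simp only [Set.mem_inter_iff, Finset.coe_insert, Set.mem_insert_iff, Finset.mem_coe,
        Set.mem_empty_iff_false, iff_false, not_and]
      rintro hxO (rfl | hxt)
      · exact hbO hxO
      · exact hOt x hxO hxt
    rw [e1, Set.ncard_singleton] at h1
    rw [e2, Set.ncard_empty] at h2
    have h3 : 1 ≡ 0 [MOD p] := h1.symm.trans h2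
    have h4 := (Nat.modEq_zero_iff_dvd.mp h3)
    exact hp.one_lt.ne' (Nat.dvd_one.mp h4)
  have L : ∀ t : Finset α, t.card < k → ∀ a b, a ∉ t → b ∉ t →
      ∃ g : G, (∀ c ∈ t, g • c = c) ∧ g • a = b := by
    intro t ht a b ha hb
    have hsub : t ⊆ ({a, b} : Finset α)ᶜ := by
      intro c hc
      simp only [Finset.mem_compl, Finset.mem_insert, Finset.mem_singleton, not_or]
      exact ⟨fun h => ha (h ▸ hc), fun h => hb (h ▸ hc)⟩
    have hcard : k - 1 ≤ (({a, b} : Finset α)ᶜ).card := by
      rw [Finset.card_compl]
      have : ({a, b} : Finset α).card ≤ 2 := Finset.card_le_two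
      omega
    obtain ⟨s', hts', hs'sub, hs'card⟩ := Finset.exists_subsuperset_card_eq hsub (by omega) hcard
    have ha' : a ∉ s' := fun h => by
      have := hs'sub h
      simp at this
    have hb' : b ∉ s' := fun h => by
      have := hs'sub h
      simp at this
    obtain ⟨g, hg, hga⟩ := L1 s' hs'card a b ha' hb'
    exact ⟨g, fun c hc => hg c (hts' hc), hga⟩
  rw [MulAction.isMultiplyPretransitive_iff]
  intro x y
  have step : ∀ j : ℕ, j ≤ k → ∃ g : G, ∀ i : Fin k, i.val < j → g • x i = y i := by
    intro j
    induction j with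
    | zero => intro _; exact ⟨1, fun i hi => absurd hi (Nat.not_lt_zero _)⟩
    | succ j ih =>
      intro hj
      obtain ⟨g, hg⟩ := ih (by omega)
      let t : Finset α := (Finset.univ.filter (fun i : Fin k => i.val < j)).image y
      have htcard : t.card < k := by
        have h1 : t.card ≤ (Finset.univ.filter (fun i : Fin k => i.val < j)).card :=
          Finset.card_image_le
        have h2 : (Finset.univ.filter (fun i : Fin k => i.val < j)).card ≤ (Finset.range j).card := by
          apply Finset.card_le_card_of_injOn (fun i => i.val)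
          · intro i hi
            simp only [Finset.coe_filter, Finset.mem_univ, true_and, Set.mem_ofPred_eq] at hi
            simpa using hi
          · intro i _ i' _ hii'
            exact Fin.ext hii'
        rw [Finset.card_range] at h2
        omega
      have hmem : ∀ c ∈ t, ∃ i : Fin k, i.val < j ∧ y i = c := by
        intro c hc
        simp only [t, Finset.mem_image, Finset.mem_filter, Finset.mem_univ, true_and] at hc
        exact hc
      have ha : g • x ⟨j, by omega⟩ ∉ t := by
        intro hc
        obtain ⟨i, hi, hyi⟩ := hmem _ hc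
        rw [← hg i hi] at hyi
        have h1 := congrArg Fin.val (x.injective (smul_left_cancel g hyi))
        simp only at h1
        omega
      have hb : y ⟨j, by omega⟩ ∉ t := by
        intro hc
        obtain ⟨i, hi, hyi⟩ := hmem _ hc
        have h1 := congrArg Fin.val (y.injective hyi)
        simp only at h1
        omega
      obtain ⟨h', hh', hh'a⟩ := L t htcard _ _ ha hb
      refine ⟨h' * g, ?_⟩
      intro i hi
      rw [mul_smul]
      by_cases hij : i.val < j
      · rw [hg i hij]
        apply hh'
        simp only [t, Finset.mem_image, Finset.mem_filter, Finset.mem_univ, true_and]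
        exact ⟨i, hij, rfl⟩
      · have hi' : i = ⟨j, by omega⟩ := Fin.ext (by simp only; omega)
        rw [hi']; exact hh'a
  obtain ⟨g, hg⟩ := step k le_rfl
  refine ⟨g, ?_⟩
  ext i
  rw [Function.Embedding.smul_apply]
  exact hg i i.2

end Cfsg.Agent.S0743
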