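import Cfsg.Statements.S0744
import Mathlib

set_option autoImplicit false
open Cfsg

namespace Cfsg.Agent.S0744

open scoped Pointwise

/-- divisibility from a partition into classes of equal size -/
theorem dvd_card_of_classes {α : Type*} [DecidableEq α] (X : Finset α) (orb : α → Finset α) (r : ℕ)
    (h1 : ∀ x ∈ X, orb x ⊆ X) (h2 : ∀ x ∈ X, x ∈ orb x)
    (h3 : ∀ x ∈ X, ∀ y ∈ orb x, orb y = orb x) (h4 : ∀ x ∈ X, (orb x).card = r) :
    r ∣ X.card := by
  have hc := Finset.card_eq_sum_card_fiberwise (s := X) (t := X.image orb) (f := orb)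
    (fun x hx => Finset.mem_image_of_mem orb hx)
  have hc' : ∀ c ∈ X.image orb, (X.filter (fun x => orb x = c)).card = r := by
    intro c hc
    obtain ⟨x₀, hx₀, rfl⟩ := Finset.mem_image.mp hc
    have : X.filter (fun x => orb x = orb x₀) = orb x₀ := by
      ext x
      simp only [Finset.mem_filter]
      constructor
      · rintro ⟨hx, hxe⟩
        rw [← hxe]; exact h2 x hx
      · intro hx
        exact ⟨h1 x₀ hx₀ hx, h3 x₀ hx₀ x hx⟩
    rw [this, h4 x₀ hx₀]
  rw [Finset.sum_const_nat hc'] at hc
  exact ⟨_, by rw [hc, mul_comm]⟩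

/-- multiple transitivity from transitivity of the pointwise stabilisers of small sets on
their complements -/
theorem multi_of_fix {α : Type*} [Fintype α] [DecidableEq α] (G : Subgroup (Equiv.Perm α)) (k : ℕ)
    (L : ∀ t : Finset α, t.card < k → ∀ a b, a ∉ t → b ∉ t →
      ∃ g : G, (∀ c ∈ t, g • c = c) ∧ g • a = b) :
    MulAction.IsMultiplyPretransitive G α k := by
  classical
  rw [MulAction.isMultiplyPretransitive_iff]
  intro x y
  have step : ∀ j : ℕ, j ≤ k → ∃ g : G, ∀ i : Fin k, i.val < j → g • x i = y i := by
    intro j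
    induction j with
    | zero => intro _; exact ⟨1, fun i hi => absurd hi (Nat.not_lt_zero _)⟩
    | succ j ih =>
      intro hj
      obtain ⟨g, hg⟩ := ih (by omega)
      let t : Finset α := (Finset.univ.filter (fun i : Fin k => i.val < j)).image y
      have htcard : t.card < k := by
        have h1 : t.card ≤ (Finset.univ.filter (fun i : Fin k => i.val < j)).card :=
          Finset.card_image_le
        have h2 : (Finset.univ.filter (fun i : Fin k => i.val < j)).card ≤ (Finset.range j).card := by
          apply Finset.card_le_card_of_injOn (fun i => i.val)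
          · intro i hi
            simp only [Finset.coe_filter, Finset.mem_univ, true_and, Set.mem_ofPred_eq] at hi
            simpa using hi
          · intro i _ i' _ hii'
            exact Fin.ext hii'
        rw [Finset.card_range] at h2
        omega
      have hmem : ∀ c ∈ t, ∃ i : Fin k, i.val < j ∧ y i = c := by
        intro c hc
        simp only [t, Finset.mem_image, Finset.mem_filter, Finset.mem_univ, true_and] at hc
        exact hc
      have ha : g • x ⟨j, by omega⟩ ∉ t := by
        intro hc
        obtain ⟨i, hi, hyi⟩ := hmem _ hc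
        rw [← hg i hi] at hyi
        have h1 := congrArg Fin.val (x.injective (smul_left_cancel g hyi))
        simp only at h1
        omega
      have hb : y ⟨j, by omega⟩ ∉ t := by
        intro hc
        obtain ⟨i, hi, hyi⟩ := hmem _ hc
        have h1 := congrArg Fin.val (y.injective hyi)
        simp only at h1
        omega
      obtain ⟨h', hh', hh'a⟩ := L t htcard _ _ ha hb
      refine ⟨h' * g, ?_⟩
      intro i hi
      rw [mul_smul]
      by_cases hij : i.val < j
      · rw [hg i hij]
        apply hh'
        simp only [t, Finset.mem_image, Finset.mem_filter, Finset.mem_univ, true_and]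
        exact ⟨i, hij, rfl⟩
      · have hi' : i = ⟨j, by omega⟩ := Fin.ext (by simp only; omega)
        rw [hi']; exact hh'a
  obtain ⟨g, hg⟩ := step k le_rfl
  refine ⟨g, ?_⟩
  ext i
  rw [Function.Embedding.smul_apply]
  exact hg i i.2

/-- If for some `k > 1` the pointwise stabilisers of all `(k-1)`-subsets have the same order `> 1` and those of all `k`-subsets have the same order, then the group is `(k-1)`-transitive. -/
theorem result {α : Type*} [Fintype α] [DecidableEq α] (G : Subgroup (Equiv.Perm α)) {k : ℕ} (hk : 1 < k) (hkn : k ≤ Fintype.card α) (l m : ℕ) (hl : 1 < l) (hkm1 : ∀ s : Finset α, s.card = k - 1 → Nat.card (fixingSubgroup G (s : Set α)) = l) (hkm : ∀ s : Finset α, s.card = k → Nat.card (fixingSubgroup G (s : Set α)) = m) : MulAction.IsMultiplyPretransitive G α (k - 1) := by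
  classical
  let orb : Finset α → α → Finset α := fun t a =>
    Finset.univ.filter (fun x => ∃ g : G, (∀ c ∈ t, g • c = c) ∧ g • a = x)
  have mem_orb : ∀ t a x, x ∈ orb t a ↔ ∃ g : G, (∀ c ∈ t, g • c = c) ∧ g • a = x := by
    intro t a x; simp [orb]
  have self_mem : ∀ t a, a ∈ orb t a := fun t a =>
    (mem_orb t a a).mpr ⟨1, fun c _ => one_smul _ _, one_smul _ _⟩
  have orb_symm : ∀ t a x, x ∈ orb t a → a ∈ orb t x := by
    intro t a x hx
    obtain ⟨g, hg, rfl⟩ := (mem_orb t a x).mp hx
    refine (mem_orb _ _ _).mpr ⟨g⁻¹, fun c hc => ?_, inv_smul_smul g a⟩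
    rw [inv_smul_eq_iff, hg c hc]
  have orb_trans : ∀ t a x y, x ∈ orb t a → y ∈ orb t x → y ∈ orb t a := by
    intro t a x y hx hy
    obtain ⟨g, hg, rfl⟩ := (mem_orb t a x).mp hx
    obtain ⟨g', hg', rfl⟩ := (mem_orb _ _ _).mp hy
    refine (mem_orb _ _ _).mpr ⟨g' * g, fun c hc => ?_, mul_smul _ _ _⟩
    rw [mul_smul, hg c hc, hg' c hc]
  have orb_eq : ∀ t a x, x ∈ orb t a → orb t x = orb t a := by
    intro t a x hx
    ext y
    exact ⟨fun hy => orb_trans t a x y hx hy, fun hy => orb_trans t x a y (orb_symm t a x hx) hy⟩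
  have orb_mono : ∀ t t' a x, t ⊆ t' → x ∈ orb t' a → x ∈ orb t a := by
    intro t t' a x htt hx
    obtain ⟨g, hg, rfl⟩ := (mem_orb _ _ _).mp hx
    exact (mem_orb _ _ _).mpr ⟨g, fun c hc => hg c (htt hc), rfl⟩
  have orb_notMem : ∀ t a x, a ∉ t → x ∈ orb t a → x ∉ t := by
    intro t a x ha hx hxt
    obtain ⟨g, hg, rfl⟩ := (mem_orb _ _ _).mp hx
    apply ha
    have h1 := hg _ hxt
    rw [smul_left_cancel_iff] at h1
    rw [← h1]; exact hxt
  -- orbit-stabiliser
  have F1 : ∀ (t : Finset α) (a : α),
      (orb t a).card * Nat.card (fixingSubgroup G (↑(insert a t : Finset α) : Set α)) =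
        Nat.card (fixingSubgroup G (↑t : Set α)) := by
    intro t a
    set K := fixingSubgroup G (↑t : Set α) with hK
    have h1 := Subgroup.card_mul_index (MulAction.stabilizer K a)
    rw [MulAction.index_stabilizer] at h1
    have h2 : (MulAction.orbit K a).ncard = (orb t a).card := by
      rw [← Set.ncard_coe_finset]
      congr 1
      ext x
      rw [MulAction.mem_orbit_iff, Finset.mem_coe, mem_orb]
      constructor
      · rintro ⟨k, rfl⟩
        exact ⟨k.1, fun c hc => (mem_fixingSubgroup_iff _).mp k.2 c (Finset.mem_coe.mpr hc), rfl⟩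
      · rintro ⟨g, hg, rfl⟩
        exact ⟨⟨g, (mem_fixingSubgroup_iff _).mpr (fun c hc => hg c (Finset.mem_coe.mp hc))⟩, rfl⟩
    have e : (MulAction.stabilizer K a).map K.subtype =
        fixingSubgroup G (↑(insert a t : Finset α) : Set α) := by
      ext g
      constructor
      · rintro ⟨k, hk, rfl⟩
        rw [mem_fixingSubgroup_iff]
        intro c hc
        rw [Finset.mem_coe, Finset.mem_insert] at hc
        rcases hc with rfl | hc
        · exact hk
        · exact (mem_fixingSubgroup_iff _).mp k.2 c (Finset.mem_coe.mpr hc)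
      · intro hg
        rw [mem_fixingSubgroup_iff] at hg
        refine ⟨⟨g, (mem_fixingSubgroup_iff _).mpr (fun c hc => hg c ?_)⟩, ?_, rfl⟩
        · rw [Finset.mem_coe] at hc ⊢
          exact Finset.mem_insert_of_mem hc
        · exact hg a (by simp)
    have h3 : Nat.card (MulAction.stabilizer K a) =
        Nat.card (fixingSubgroup G (↑(insert a t : Finset α) : Set α)) := by
      rw [← e, Subgroup.card_map_of_injective K.subtype_injective]
    rw [h2, h3] at h1
    rw [mul_comm]; exact h1
  have L1 : ∀ t : Finset α, t.card = k - 2 → ∀ a b, a ∉ t → b ∉ t →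
      ∃ g : G, (∀ c ∈ t, g • c = c) ∧ g • a = b := by
    intro t ht a b ha hb
    by_contra hcon
    have hba : b ∉ orb t a := fun h => hcon ((mem_orb _ _ _).mp h)
    have hab : a ∉ orb t b := fun h => hba (orb_symm _ _ _ h)
    have hla : (orb t a).card * l = Nat.card (fixingSubgroup G (↑t : Set α)) := by
      rw [← hkm1 (insert a t) (by rw [Finset.card_insert_of_notMem ha, ht]; omega)]
      exact F1 t a
    have hlb : (orb t b).card * l = Nat.card (fixingSubgroup G (↑t : Set α)) := by
      rw [← hkm1 (insert b t) (by rw [Finset.card_insert_of_notMem hb, ht]; omega)]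
      exact F1 t b
    have hN : (orb t a).card = (orb t b).card :=
      Nat.eq_of_mul_eq_mul_right (by omega) (hla.trans hlb.symm)
    set t' := insert a t with ht'
    have ht'card : t'.card = k - 1 := by
      rw [ht', Finset.card_insert_of_notMem ha, ht]; omega
    have hsub : t ⊆ t' := Finset.subset_insert a t
    have horb : ∀ c, c ∉ t' → (orb t' c).card * m = l := by
      intro c hc
      rw [← hkm (insert c t') (by rw [Finset.card_insert_of_notMem hc, ht'card]; omega),
        ← hkm1 t' ht'card]
      exact F1 t' c
    -- a nontrivial element of the stabiliser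
    have hne : fixingSubgroup G (↑t' : Set α) ≠ ⊥ := by
      rw [← Subgroup.one_lt_card_iff_ne_bot, hkm1 t' ht'card]
      exact hl
    obtain ⟨⟨g, hg⟩, hg1⟩ := (Subgroup.ne_bot_iff_exists_ne_one).mp hne
    have hg1' : g ≠ 1 := fun h => hg1 (Subtype.ext h)
    obtain ⟨c, hc⟩ : ∃ c : α, g • c ≠ c := by
      by_contra hcon'
      push Not at hcon'
      apply hg1'
      apply Subtype.ext
      apply Equiv.ext
      intro x
      exact hcon' x
    rw [mem_fixingSubgroup_iff] at hg
    have hct' : c ∉ t' := fun h => hc (hg c (Finset.mem_coe.mpr h))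
    have hr2 : 2 ≤ (orb t' c).card := by
      have : 1 < (orb t' c).card := by
        rw [Finset.one_lt_card]
        exact ⟨g • c, (mem_orb _ _ _).mpr ⟨g, fun c' hc' => hg c' (Finset.mem_coe.mpr hc'), rfl⟩,
          c, self_mem _ _, hc⟩
      omega
    have hrm := horb c hct'
    have hm0 : 0 < m := by
      rcases Nat.eq_zero_or_pos m with h0 | h0
      · rw [h0, mul_zero] at hrm; omega
      · exact h0
    have hr : ∀ c', c' ∉ t' → (orb t' c').card = (orb t' c).card := by
      intro c' hc'
      exact Nat.eq_of_mul_eq_mul_right hm0 ((horb c' hc').trans hrm.symm)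
    -- divisibility
    have hd1 : (orb t' c).card ∣ (orb t b).card := by
      apply dvd_card_of_classes (orb t b) (orb t') _
      · intro x hx y hy
        exact orb_trans t b x y hx (orb_mono t t' x y hsub hy)
      · intro x _
        exact self_mem _ _
      · intro x _ y hy
        exact orb_eq t' x y hy
      · intro x hx
        apply hr
        rw [ht', Finset.mem_insert, not_or]
        refine ⟨?_, orb_notMem t b x hb hx⟩
        rintro rfl
        exact hab hx
    have hd2 : (orb t' c).card ∣ ((orb t a).erase a).card := by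
      apply dvd_card_of_classes ((orb t a).erase a) (orb t') _
      · intro x hx y hy
        rw [Finset.mem_erase] at hx ⊢
        refine ⟨?_, orb_trans t a x y hx.2 (orb_mono t t' x y hsub hy)⟩
        intro hya
        obtain ⟨g', hg', hg'x⟩ := (mem_orb _ _ _).mp hy
        apply hx.1
        have h1 : g' • a = a := hg' a (by rw [ht']; exact Finset.mem_insert_self _ _)
        have h2 : g' • x = g' • a := by rw [hg'x, hya, h1]
        exact smul_left_cancel g' h2
      · intro x _
        exact self_mem _ _
      · intro x _ y hy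
        exact orb_eq t' x y hy
      · intro x hx
        rw [Finset.mem_erase] at hx
        apply hr
        rw [ht', Finset.mem_insert, not_or]
        exact ⟨hx.1, orb_notMem t a x ha hx.2⟩
    rw [Finset.card_erase_of_mem (self_mem t a), hN] at hd2
    have hpos : 0 < (orb t b).card := Finset.card_pos.mpr ⟨b, self_mem t b⟩
    have hd3 : (orb t' c).card ∣ 1 := by
      have := Nat.dvd_sub hd1 hd2
      have e1 : (orb t b).card - ((orb t b).card - 1) = 1 := by omega
      rwa [e1] at this
    have := Nat.le_of_dvd Nat.one_pos hd3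
    omega
  apply multi_of_fix
  intro t ht a b ha hb
  have hsub : t ⊆ ({a, b} : Finset α)ᶜ := by
    intro c hc
    simp only [Finset.mem_compl, Finset.mem_insert, Finset.mem_singleton, not_or]
    exact ⟨fun h => ha (h ▸ hc), fun h => hb (h ▸ hc)⟩
  have hcard : k - 2 ≤ (({a, b} : Finset α)ᶜ).card := by
    rw [Finset.card_compl]
    have : ({a, b} : Finset α).card ≤ 2 := Finset.card_le_two
    omega
  obtain ⟨s', hts', hs'sub, hs'card⟩ := Finset.exists_subsuperset_card_eq hsub (by omega) hcard
  have ha' : a ∉ s' := fun h => by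
    have := hs'sub h
    simp at this
  have hb' : b ∉ s' := fun h => by
    have := hs'sub h
    simp at this
  obtain ⟨g, hg, hga⟩ := L1 s' hs'card a b ha' hb'
  exact ⟨g, fun c hc => hg c (hts' hc), hga⟩

end Cfsg.Agent.S0744
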