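import Cfsg.Statements.S0749
import Mathlib

set_option autoImplicit false
open Cfsg

namespace Cfsg.Agent.S0749

variable {F V : Type*} [Field F] [AddCommGroup V] [Module F V]

/-- partial isometries defined on a subspace (as restrictions of endomorphisms) -/
def IsPI (B : LinearMap.BilinForm F V) (X : Submodule F V) (f : V →ₗ[F] V) : Prop :=
  (∀ x ∈ X, ∀ x' ∈ X, B (f x) (f x') = B x x') ∧ (∀ x ∈ X, f x = 0 → x = 0)

theorem finrank_map_of_injOn [FiniteDimensional F V] (S : Submodule F V) (f : V →ₗ[F] V)
    (hinj : ∀ x ∈ S, f x = 0 → x = 0) : Module.finrank F (S.map f) = Module.finrank F S := by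
  have h1 : Function.Injective (f.comp S.subtype) := by
    rw [← LinearMap.ker_eq_bot, LinearMap.ker_eq_bot']
    intro x hx
    exact Subtype.ext (hinj x.1 x.2 hx)
  have h2 := LinearMap.finrank_range_of_inj h1
  rw [LinearMap.range_comp, Submodule.range_subtype] at h2
  exact h2

theorem extend_one [FiniteDimensional F V] (B : LinearMap.BilinForm F V) (hB : B.Nondegenerate)
    (hA : B.IsAlt) (X : Submodule F V) (f : V →ₗ[F] V) (hf : IsPI B X f) (hX : X ≠ ⊤) :
    ∃ (X' : Submodule F V) (f' : V →ₗ[F] V), X < X' ∧ IsPI B X' f' ∧ ∀ x ∈ X, f' x = f x := by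
  obtain ⟨hf1, hf2⟩ := hf
  have hskew : ∀ x y, B x y = - B y x := fun x y => by rw [hA.neg_eq]
  obtain ⟨v, hv⟩ : ∃ v, v ∉ X := by
    by_contra hcon
    push Not at hcon
    exact hX ((Submodule.eq_top_iff').mpr hcon)
  -- step 1: a first solution w₀
  have hT : Function.Injective (f.comp X.subtype) := by
    rw [← LinearMap.ker_eq_bot, LinearMap.ker_eq_bot']
    intro x hx
    exact Subtype.ext (hf2 x.1 x.2 hx)
  obtain ⟨θ, hθ⟩ := LinearMap.dualMap_surjective_of_injective hT ((B.flip v).comp X.subtype)
  have hθ' : ∀ x ∈ X, θ (f x) = B x v := by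
    intro x hx
    have := congrArg (fun l : X →ₗ[F] F => l ⟨x, hx⟩) hθ
    simpa using this
  set w₀ : V := -((B.toDual hB).symm θ) with hw₀
  have hw₀eq : ∀ x ∈ X, B (f x) w₀ = B x v := by
    intro x hx
    rw [hw₀, map_neg, ← hskew, LinearMap.BilinForm.apply_toDual_symm_apply, hθ' x hx]
  -- step 2: a solution outside the image
  have hexw : ∃ w, (∀ x ∈ X, B (f x) w = B x v) ∧ w ∉ X.map f := by
    by_cases hw₀mem : w₀ ∈ X.map f
    · have hnle : ¬ B.orthogonal (X.map f) ≤ X.map f := by
        intro hle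
        apply hv
        obtain ⟨x₀, hx₀X, hx₀⟩ := hw₀mem
        have h1 : v - x₀ ∈ B.orthogonal X := by
          rw [LinearMap.BilinForm.mem_orthogonal_iff]
          intro x hx
          rw [map_sub, ← hf1 x hx x₀ hx₀X, hx₀, hw₀eq x hx, sub_self]
        have h2 : B.orthogonal X ≤ X := by
          have hrad : (X ⊓ B.orthogonal X).map f = B.orthogonal (X.map f) := by
            apply le_antisymm
            · rintro _ ⟨x, hx, rfl⟩
              rw [LinearMap.BilinForm.mem_orthogonal_iff]
              rintro _ ⟨x', hx', rfl⟩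
              rw [hf1 x' hx' x hx.1]
              exact (LinearMap.BilinForm.mem_orthogonal_iff.mp hx.2) x' hx'
            · intro y hy
              obtain ⟨x, hx, rfl⟩ := hle hy
              refine ⟨x, ⟨hx, ?_⟩, rfl⟩
              change x ∈ B.orthogonal X
              rw [LinearMap.BilinForm.mem_orthogonal_iff]
              intro x' hx'
              rw [← hf1 x' hx' x hx]
              exact (LinearMap.BilinForm.mem_orthogonal_iff.mp hy) (f x') ⟨x', hx', rfl⟩
          have hd1 : Module.finrank F ((X ⊓ B.orthogonal X).map f) =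
              Module.finrank F (X ⊓ B.orthogonal X : Submodule F V) :=
            finrank_map_of_injOn _ f (fun x hx => hf2 x hx.1)
          have hd2 : Module.finrank F (X.map f) = Module.finrank F X :=
            finrank_map_of_injOn X f hf2
          have hd3 : Module.finrank F (X ⊓ B.orthogonal X : Submodule F V) =
              Module.finrank F (B.orthogonal X) := by
            rw [← hd1, hrad, LinearMap.BilinForm.finrank_orthogonal hB,
              LinearMap.BilinForm.finrank_orthogonal hB, hd2]
          have heq : X ⊓ B.orthogonal X = B.orthogonal X :=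
            Submodule.eq_of_le_of_finrank_eq inf_le_right hd3
          rw [← heq]
          exact inf_le_left
        have h3 := X.add_mem (h2 h1) hx₀X
        simpa using h3
      obtain ⟨u, hu1, hu2⟩ := SetLike.not_le_iff_exists.mp hnle
      refine ⟨w₀ + u, ?_, ?_⟩
      · intro x hx
        rw [map_add, hw₀eq x hx]
        have := (LinearMap.BilinForm.mem_orthogonal_iff.mp hu1) (f x) ⟨x, hx, rfl⟩
        rw [this, add_zero]
      · intro h
        apply hu2
        have := (X.map f).sub_mem h hw₀mem
        simpa using this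
    · exact ⟨w₀, hw₀eq, hw₀mem⟩
  obtain ⟨w, hw1, hw2⟩ := hexw
  -- step 3: the extension
  obtain ⟨f', hf'X, hf'v⟩ := LinearMap.exists_extend_of_notMem (f.comp X.subtype) hv w
  have hf'eq : ∀ x ∈ X, f' x = f x := by
    intro x hx
    have := congrArg (fun l : X →ₗ[F] V => l ⟨x, hx⟩) hf'X
    simpa using this
  refine ⟨X ⊔ Submodule.span F {v}, f', ?_, ⟨?_, ?_⟩, hf'eq⟩
  · refine lt_of_le_of_ne le_sup_left ?_
    intro h
    apply hv
    rw [h]
    exact Submodule.mem_sup_right (Submodule.mem_span_singleton_self v)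
  · intro y hy y' hy'
    obtain ⟨x, hx, z, hz, rfl⟩ := Submodule.mem_sup.mp hy
    obtain ⟨x', hx', z', hz', rfl⟩ := Submodule.mem_sup.mp hy'
    obtain ⟨c, rfl⟩ := Submodule.mem_span_singleton.mp hz
    obtain ⟨c', rfl⟩ := Submodule.mem_span_singleton.mp hz'
    simp only [map_add, map_smul, hf'eq x hx, hf'eq x' hx', hf'v, LinearMap.add_apply,
      LinearMap.smul_apply, smul_eq_mul, hf1 x hx x' hx', hw1 x hx, hA.self_eq_zero]
    rw [hskew w (f x'), hw1 x' hx', hskew v x']
  · intro y hy hy0
    obtain ⟨x, hx, z, hz, rfl⟩ := Submodule.mem_sup.mp hy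
    obtain ⟨c, rfl⟩ := Submodule.mem_span_singleton.mp hz
    rw [map_add, map_smul, hf'eq x hx, hf'v] at hy0
    by_cases hc : c = 0
    · rw [hc, zero_smul, add_zero] at hy0
      rw [hc, zero_smul, add_zero]
      exact hf2 x hx hy0
    · exfalso
      apply hw2
      refine ⟨-(c⁻¹ • x), X.neg_mem (X.smul_mem _ hx), ?_⟩
      have : w = -(c⁻¹ • f x) := by
        have h1 : c • w = - f x := by
          rw [eq_neg_iff_add_eq_zero, add_comm]; exact hy0
        calc w = c⁻¹ • (c • w) := by rw [smul_smul, inv_mul_cancel₀ hc, one_smul]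
          _ = -(c⁻¹ • f x) := by rw [h1, smul_neg]
      rw [map_neg, map_smul, this]

theorem extend_all [FiniteDimensional F V] (B : LinearMap.BilinForm F V) (hB : B.Nondegenerate)
    (hA : B.IsAlt) (X : Submodule F V) :
    ∀ f : V →ₗ[F] V, IsPI B X f → ∃ f' : V →ₗ[F] V, IsPI B ⊤ f' ∧ ∀ x ∈ X, f' x = f x := by
  induction X using WellFoundedGT.induction with
  | ind X ih =>
    intro f hf
    by_cases hX : X = ⊤
    · subst hX
      exact ⟨f, hf, fun _ _ => rfl⟩
    · obtain ⟨X', f', hlt, hf', hagree⟩ := extend_one B hB hA X f hf hX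
      obtain ⟨f'', hf'', hagree'⟩ := ih X' hlt f' hf'
      exact ⟨f'', hf'', fun x hx => (hagree' x (hlt.le hx)).trans (hagree x hx)⟩

/-- Witt's Lemma for alternating forms. If B is a non-degenerate alternating bilinear form on a finite-dimensional vector space V (over any field) and φ is a linear equivalence between subspaces X and Y of V preserving B, then φ extends to a B-preserving linear automorphism of V. -/
theorem result {F V : Type*} [Field F] [AddCommGroup V] [Module F V] [FiniteDimensional F V] (B : LinearMap.BilinForm F V) (hB : B.Nondegenerate) (hA : B.IsAlt) (X Y : Submodule F V) (φ : X ≃ₗ[F] Y) (hφ : ∀ x x' : X, B (φ x : V) (φ x' : V) = B (x : V) (x' : V)) : ∃ g : V ≃ₗ[F] V, (∀ u v : V, B (g u) (g v) = B u v) ∧ ∀ x : X, g (x : V) = (φ x : V) := by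
  obtain ⟨f₀, hf₀⟩ := LinearMap.exists_extend (Y.subtype.comp φ.toLinearMap)
  have hf₀eq : ∀ x : X, f₀ (x : V) = (φ x : V) := by
    intro x
    have := congrArg (fun l : X →ₗ[F] V => l x) hf₀
    simpa using this
  have hPI : IsPI B X f₀ := by
    constructor
    · intro x hx x' hx'
      have h1 := hf₀eq ⟨x, hx⟩
      have h2 := hf₀eq ⟨x', hx'⟩
      simp only at h1 h2
      rw [h1, h2]
      exact hφ ⟨x, hx⟩ ⟨x', hx'⟩
    · intro x hx h0
      have h1 := hf₀eq ⟨x, hx⟩
      simp only at h1
      rw [h0] at h1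
      have h2 : φ ⟨x, hx⟩ = 0 := Subtype.ext h1.symm
      have h3 : (⟨x, hx⟩ : X) = 0 := by simpa using h2
      exact congrArg Subtype.val h3
  obtain ⟨f, ⟨hf1, hf2⟩, hagree⟩ := extend_all B hB hA X f₀ hPI
  have hinj : Function.Injective f := by
    rw [← LinearMap.ker_eq_bot, LinearMap.ker_eq_bot']
    intro x hx
    exact hf2 x trivial hx
  refine ⟨LinearEquiv.ofInjectiveEndo f hinj, ?_, ?_⟩
  · intro u v
    rw [LinearEquiv.coe_ofInjectiveEndo]
    exact hf1 u trivial v trivial
  · intro x
    rw [LinearEquiv.coe_ofInjectiveEndo, hagree x x.2, hf₀eq]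

end Cfsg.Agent.S0749
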