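import Cfsg.Statements.S0752
import Mathlib

set_option autoImplicit false
open Cfsg

namespace Cfsg.Agent.S0752


variable {F V : Type*} [Field F] [AddCommGroup V] [Module F V]

/-- a family with a dual family of functionals is linearly independent -/
theorem li_of_dual {ι : Type*} [DecidableEq ι] (v : ι → V) (φ : ι → V →ₗ[F] F)
    (h : ∀ i j, φ i (v j) = if i = j then 1 else 0) : LinearIndependent F v := by
  rw [linearIndependent_iff']
  intro s g hg i hi
  have := congrArg (φ i) hg
  rw [map_sum, map_zero] at this
  simp only [map_smul, h, smul_eq_mul, mul_ite, mul_one, mul_zero] at this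
  rw [Finset.sum_ite_eq, if_pos hi] at this
  exact this

/-- a hyperbolic family is linearly independent -/
theorem li_hyp (B : LinearMap.BilinForm F V) {ι : Type*} [DecidableEq ι]
    (e f : ι → V) (hef : ∀ i j, B (e i) (f j) = if i = j then 1 else 0)
    (hee : ∀ i j, B (e i) (e j) = 0) (hff : ∀ i j, B (f i) (f j) = 0) :
    LinearIndependent F (Sum.elim e f) := by
  apply li_of_dual (Sum.elim e f) (Sum.elim (fun i => B.flip (f i)) (fun j => B (e j)))
  rintro (i | i) (j | j)
  · change B (e j) (f i) = _
    rw [hef]
    simp only [Sum.inl.injEq, eq_comm]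
  · simp [hff]
  · simp [hee]
  · simp [hef]

theorem exists_max_family [FiniteDimensional F V] (B : LinearMap.BilinForm F V) (hA : B.IsAlt) :
    ∀ (d : ℕ) (ι : Type) [Fintype ι] [DecidableEq ι] (e f : ι → V),
      (∀ i j, B (e i) (f j) = if i = j then 1 else 0) → (∀ i j, B (e i) (e j) = 0) →
      (∀ i j, B (f i) (f j) = 0) → Module.finrank F V ≤ 2 * Fintype.card ι + d →
      ∃ (ι' : Type) (_ : Fintype ι') (_ : DecidableEq ι') (e' f' : ι' → V),
        (∀ i j, B (e' i) (f' j) = if i = j then 1 else 0) ∧ (∀ i j, B (e' i) (e' j) = 0) ∧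
        (∀ i j, B (f' i) (f' j) = 0) ∧
        (∀ u v, (∀ i, B (e' i) u = 0 ∧ B (f' i) u = 0) → (∀ i, B (e' i) v = 0 ∧ B (f' i) v = 0) →
          B u v = 0) := by
  intro d
  induction d using Nat.strong_induction_on with
  | _ d ih =>
    intro ι _ _ e f hef hee hff hd
    by_cases hvan : ∀ u v, (∀ i, B (e i) u = 0 ∧ B (f i) u = 0) →
        (∀ i, B (e i) v = 0 ∧ B (f i) v = 0) → B u v = 0
    · exact ⟨ι, inferInstance, inferInstance, e, f, hef, hee, hff, hvan⟩
    · push Not at hvan
      obtain ⟨u, v, hu, hv, huv⟩ := hvan
      have hskew : ∀ x y, B x y = - B y x := fun x y => by rw [hA.neg_eq]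
      set u' := (B u v)⁻¹ • u with hu'
      have hu'v : B u' v = 1 := by
        simp [hu', inv_mul_cancel₀ huv]
      have hu'R : ∀ i, B (e i) u' = 0 ∧ B (f i) u' = 0 := by
        intro i
        simp [hu', (hu i).1, (hu i).2]
      let e' : Option ι → V := fun o => o.elim u' e
      let f' : Option ι → V := fun o => o.elim v f
      have hef' : ∀ i j, B (e' i) (f' j) = if i = j then 1 else 0 := by
        rintro (_ | i) (_ | j)
        · simpa [e', f'] using hu'v
        · simp only [e', f', Option.elim_none, Option.elim_some]
          rw [hskew, (hu'R j).2]; simp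
        · simp only [e', f', Option.elim_none, Option.elim_some]
          rw [(hv i).1]; simp
        · simp [e', f', hef]
      have hee' : ∀ i j, B (e' i) (e' j) = 0 := by
        rintro (_ | i) (_ | j)
        · simp only [e', Option.elim_none]; exact hA.self_eq_zero _
        · simp only [e', Option.elim_none, Option.elim_some]
          rw [hskew, (hu'R j).1]; simp
        · simp only [e', Option.elim_none, Option.elim_some]
          exact (hu'R i).1
        · simp [e', hee]
      have hff' : ∀ i j, B (f' i) (f' j) = 0 := by
        rintro (_ | i) (_ | j)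
        · simp only [f', Option.elim_none]; exact hA.self_eq_zero _
        · simp only [f', Option.elim_none, Option.elim_some]
          rw [hskew, (hv j).2]; simp
        · simp only [f', Option.elim_none, Option.elim_some]
          exact (hv i).2
        · simp [f', hff]
      have hli := li_hyp B e' f' hef' hee' hff'
      have hcard := hli.fintype_card_le_finrank
      rw [Fintype.card_sum, Fintype.card_option] at hcard
      have hd2 : 2 ≤ d := by omega
      exact ih (d - 2) (by omega) (Option ι) e' f' hef' hee' hff' (by
        rw [Fintype.card_option]; omega)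


theorem exists_max_family_fin [FiniteDimensional F V] (B : LinearMap.BilinForm F V)
    (hA : B.IsAlt) :
    ∃ (m : ℕ) (e f : Fin m → V),
        (∀ i j, B (e i) (f j) = if i = j then 1 else 0) ∧ (∀ i j, B (e i) (e j) = 0) ∧
        (∀ i j, B (f i) (f j) = 0) ∧
        (∀ u v, (∀ i, B (e i) u = 0 ∧ B (f i) u = 0) → (∀ i, B (e i) v = 0 ∧ B (f i) v = 0) →
          B u v = 0) := by
  obtain ⟨ι, _, _, e, f, hef, hee, hff, hvan⟩ :=
    exists_max_family B hA (Module.finrank F V) PEmpty (fun i => i.elim) (fun i => i.elim)
      (fun i => i.elim) (fun i => i.elim) (fun i => i.elim) (by simp)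
  refine ⟨Fintype.card ι, e ∘ (Fintype.equivFin ι).symm, f ∘ (Fintype.equivFin ι).symm, ?_, ?_, ?_, ?_⟩
  · intro i j
    simp only [Function.comp_apply, hef, EmbeddingLike.apply_eq_iff_eq]
  · intro i j
    exact hee _ _
  · intro i j
    exact hff _ _
  · intro u v hu hv
    apply hvan u v
    · intro i
      have := hu (Fintype.equivFin ι i)
      simpa using this
    · intro i
      have := hv (Fintype.equivFin ι i)
      simpa using this

/-- Classification of alternating forms: for an alternating bilinear form B on a finite-dimensional space over any field there is a basis indexed by (Fin m ⊕ Fin m) ⊕ Fin k such that B (e_i, f_j) = δ_ij, the e's are pairwise orthogonal, the f's are pairwise orthogonal, and the last k basis vectors are orthogonal to everything (they span the radical). -/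
theorem result {F V : Type*} [Field F] [AddCommGroup V] [Module F V] [FiniteDimensional F V] (B : LinearMap.BilinForm F V) (hA : B.IsAlt) : ∃ (m k : ℕ) (b : Module.Basis ((Fin m ⊕ Fin m) ⊕ Fin k) F V), (∀ i j : Fin m, B (b (Sum.inl (Sum.inl i))) (b (Sum.inl (Sum.inr j))) = if i = j then 1 else 0) ∧ (∀ i j : Fin m, B (b (Sum.inl (Sum.inl i))) (b (Sum.inl (Sum.inl j))) = 0) ∧ (∀ i j : Fin m, B (b (Sum.inl (Sum.inr i))) (b (Sum.inl (Sum.inr j))) = 0) ∧ (∀ (j : Fin k) (v : V), B (b (Sum.inr j)) v = 0) := by
  obtain ⟨m, e, f, hef, hee, hff, hvan⟩ := exists_max_family_fin B hA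
  have hskew : ∀ x y, B x y = - B y x := fun x y => by rw [hA.neg_eq]
  -- the orthogonal complement of the family
  let R : Submodule F V := ⨅ i, (LinearMap.ker (B (e i)) ⊓ LinearMap.ker (B (f i)))
  have hR : ∀ w, w ∈ R ↔ ∀ i, B (e i) w = 0 ∧ B (f i) w = 0 := by
    intro w
    simp only [R, Submodule.mem_iInf, Submodule.mem_inf, LinearMap.mem_ker]
  let c := Module.finBasis F R
  -- the projection to R
  have hproj : ∀ v : V, v - ∑ i, B v (f i) • e i - ∑ i, B (e i) v • f i ∈ R := by
    intro v
    rw [hR]
    intro j
    constructor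
    · simp only [map_sub, map_sum, map_smul, smul_eq_mul, hee, hef, mul_zero,
        Finset.sum_const_zero, sub_zero, mul_ite, mul_one]
      rw [Finset.sum_ite_eq, if_pos (Finset.mem_univ _), sub_self]
    · simp only [map_sub, map_sum, map_smul, smul_eq_mul, hff, mul_zero,
        Finset.sum_const_zero, sub_zero]
      have : ∀ i, B v (f i) * B (f j) (e i) = if j = i then - B v (f j) else 0 := by
        intro i
        rw [hskew (f j) (e i), hef]
        split_ifs with h1 h2 h2
        · rw [h1]; ring
        · exact absurd h1.symm h2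
        · exact absurd h2.symm h1
        · ring
      simp only [this]
      rw [Finset.sum_ite_eq, if_pos (Finset.mem_univ _), hskew (f j) v]
      ring
  -- R is contained in the radical
  have hrad : ∀ r ∈ R, ∀ v : V, B r v = 0 := by
    intro r hr v
    have hr' := (hR r).mp hr
    have hdec : v = (v - ∑ i, B v (f i) • e i - ∑ i, B (e i) v • f i) + ∑ i, B v (f i) • e i +
        ∑ i, B (e i) v • f i := by abel
    rw [hdec]
    simp only [map_add, map_sum, map_smul, smul_eq_mul]
    have h1 : ∀ i, B r (e i) = 0 := fun i => by rw [hskew, (hr' i).1, neg_zero]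
    have h2 : ∀ i, B r (f i) = 0 := fun i => by rw [hskew, (hr' i).2, neg_zero]
    simp only [h1, h2, mul_zero, Finset.sum_const_zero, add_zero]
    exact hvan _ _ hr' ((hR _).mp (hproj v))
  -- the family
  let w : (Fin m ⊕ Fin m) ⊕ Fin (Module.finrank F R) → V :=
    Sum.elim (Sum.elim e f) (fun l => (c l : V))
  have hli1 : LinearIndependent F (Sum.elim e f) := li_hyp B e f hef hee hff
  have hli2 : LinearIndependent F (fun l => (c l : V)) :=
    c.linearIndependent.map' R.subtype (Submodule.ker_subtype R)
  have hspanR : Submodule.span F (Set.range (fun l => (c l : V))) ≤ R := by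
    rw [Submodule.span_le]
    rintro _ ⟨l, rfl⟩
    exact (c l).2
  have hdisj : Disjoint (Submodule.span F (Set.range (Sum.elim e f)))
      (Submodule.span F (Set.range (fun l => (c l : V)))) := by
    rw [Submodule.disjoint_def]
    intro x hx1 hx2
    have hxR := (hR x).mp (hspanR hx2)
    obtain ⟨a, rfl⟩ := (Submodule.mem_span_range_iff_exists_fun F).mp hx1
    have ha : ∀ s, a s = 0 := by
      rintro (j | j)
      · have := (hxR j).2
        simp only [map_add, map_sum, map_smul, smul_eq_mul, Fintype.sum_sum_type, Sum.elim_inl,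
          Sum.elim_inr, hff, mul_zero, Finset.sum_const_zero, add_zero] at this
        have h3 : ∀ i, a (Sum.inl i) * B (f j) (e i) = if j = i then - a (Sum.inl j) else 0 := by
          intro i
          rw [hskew (f j) (e i), hef]
          split_ifs with h1 h2 h2
          · rw [h1]; ring
          · exact absurd h1.symm h2
          · exact absurd h2.symm h1
          · ring
        simp only [h3] at this
        rw [Finset.sum_ite_eq, if_pos (Finset.mem_univ _)] at this
        exact neg_eq_zero.mp this
      · have := (hxR j).1
        simp only [map_add, map_sum, map_smul, smul_eq_mul, Fintype.sum_sum_type, Sum.elim_inl,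
          Sum.elim_inr, hee, hef, mul_zero, Finset.sum_const_zero, zero_add, mul_ite, mul_one]
          at this
        rw [Finset.sum_ite_eq, if_pos (Finset.mem_univ _)] at this
        exact this
    simp [ha]
  have hli : LinearIndependent F w := LinearIndependent.sum_type hli1 hli2 hdisj
  have hsp : ⊤ ≤ Submodule.span F (Set.range w) := by
    intro v _
    have he : ∀ i, e i ∈ Submodule.span F (Set.range w) :=
      fun i => Submodule.subset_span ⟨Sum.inl (Sum.inl i), rfl⟩
    have hf : ∀ i, f i ∈ Submodule.span F (Set.range w) :=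
      fun i => Submodule.subset_span ⟨Sum.inl (Sum.inr i), rfl⟩
    have hc : ∀ l, (c l : V) ∈ Submodule.span F (Set.range w) :=
      fun l => Submodule.subset_span ⟨Sum.inr l, rfl⟩
    have hRle : ∀ r : R, (r : V) ∈ Submodule.span F (Set.range w) := by
      intro r
      have := c.sum_repr r
      rw [← this]
      simp only [Submodule.coe_sum, Submodule.coe_smul]
      exact Submodule.sum_mem _ (fun l _ => Submodule.smul_mem _ _ (hc l))
    have hdec : v = (v - ∑ i, B v (f i) • e i - ∑ i, B (e i) v • f i) + ∑ i, B v (f i) • e i +
        ∑ i, B (e i) v • f i := by abel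
    rw [hdec]
    refine Submodule.add_mem _ (Submodule.add_mem _ (hRle ⟨_, hproj v⟩) ?_) ?_
    · exact Submodule.sum_mem _ (fun i _ => Submodule.smul_mem _ _ (he i))
    · exact Submodule.sum_mem _ (fun i _ => Submodule.smul_mem _ _ (hf i))
  refine ⟨m, Module.finrank F R, Module.Basis.mk hli hsp, ?_, ?_, ?_, ?_⟩
  · intro i j
    rw [Module.Basis.mk_apply, Module.Basis.mk_apply]
    exact hef i j
  · intro i j
    rw [Module.Basis.mk_apply, Module.Basis.mk_apply]
    exact hee i j
  · intro i j
    rw [Module.Basis.mk_apply, Module.Basis.mk_apply]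
    exact hff i j
  · intro j v
    rw [Module.Basis.mk_apply]
    exact hrad _ (c j).2 v

end Cfsg.Agent.S0752
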