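import Cfsg.Statements.S0753
import Mathlib

set_option autoImplicit false
open Cfsg

namespace Cfsg.Agent.S0753

/-- If σ is a ring endomorphism of the field F other than the identity and B is a σ-sesquilinear conjugate-symmetric form with B v v = 0 for every v, then B = 0. -/
theorem result {F V : Type*} [Field F] [AddCommGroup V] [Module F V] (σ : F →+* F) (hσ : σ ≠ RingHom.id F) (B : V →ₛₗ[σ] V →ₗ[F] F) (hS : B.IsSymm) (h0 : ∀ v : V, B v v = 0) : B = 0 := by
  obtain ⟨c, hc⟩ : ∃ c : F, σ c ≠ c := by
    by_contra h
    push Not at h
    exact hσ (RingHom.ext h)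
  have hanti : ∀ x y : V, B y x = - B x y := by
    intro x y
    have h := h0 (x + y)
    simp only [map_add, LinearMap.add_apply, h0, zero_add, add_zero] at h
    exact eq_neg_of_add_eq_zero_left h
  ext x y
  have h1 : σ (B x (c • y)) = B (c • y) x := hS.eq x (c • y)
  have h2 : B (c • y) x = - B x (c • y) := hanti x (c • y)
  have h3 : B (c • y) x = σ c * B y x := by simp
  have h4 : B x (c • y) = c * B x y := by simp
  have h5 : B y x = - B x y := hanti x y
  have h6 : (σ c - c) * B x y = 0 := by
    have : σ c * B y x = - (c * B x y) := by rw [← h3, h2, h4]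
    rw [h5] at this
    linear_combination -this
  rcases mul_eq_zero.mp h6 with h | h
  · exact absurd (sub_eq_zero.mp h) hc
  · simpa using h

end Cfsg.Agent.S0753
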