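import Cfsg.Statements.S0754
import Mathlib

set_option autoImplicit false
open Cfsg

namespace Cfsg.Agent.S0754

theorem units_aux {F : Type*} [Field F] [Fintype F] {q : ℕ} (hF : Fintype.card F = q ^ 2)
    (μ : Fˣ) (hμq : μ ^ (q - 1) = 1) :
    Nat.card {x : Fˣ // x ^ (q + 1) = μ} = q + 1 := by
  classical
  have hq2 : 2 ≤ q := by
    by_contra h
    have h1 : q = 0 ∨ q = 1 := by omega
    have hc : 1 < Fintype.card F := Fintype.one_lt_card
    rcases h1 with h1 | h1 <;> rw [h1] at hF <;> simp at hF <;> omega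
  have hcard : Nat.card Fˣ = q ^ 2 - 1 := by
    rw [Nat.card_eq_fintype_card, Fintype.card_units, hF]
  have hfac : q ^ 2 - 1 = (q - 1) * (q + 1) := by
    obtain ⟨r, rfl⟩ : ∃ r, q = r + 1 := ⟨q - 1, by omega⟩
    simp only [Nat.add_sub_cancel]
    have : (r + 1) ^ 2 = r * (r + 1 + 1) + 1 := by ring
    omega
  have hker : Nat.card (powMonoidHom (q + 1) : Fˣ →* Fˣ).ker = q + 1 := by
    rw [IsCyclic.card_powMonoidHom_ker, hcard, hfac]
    exact Nat.gcd_eq_right (Dvd.intro_left _ rfl)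
  have hrange : Nat.card (powMonoidHom (q + 1) : Fˣ →* Fˣ).range = q - 1 := by
    rw [IsCyclic.card_powMonoidHom_range, hcard, hfac,
      Nat.gcd_eq_right (Dvd.intro_left _ rfl)]
    exact Nat.mul_div_cancel _ (by omega)
  have hker' : Nat.card (powMonoidHom (q - 1) : Fˣ →* Fˣ).ker = q - 1 := by
    rw [IsCyclic.card_powMonoidHom_ker, hcard, hfac]
    exact Nat.gcd_eq_right (Dvd.intro _ rfl)
  have hle : (powMonoidHom (q + 1) : Fˣ →* Fˣ).range ≤ (powMonoidHom (q - 1) : Fˣ →* Fˣ).ker := by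
    rintro _ ⟨x, rfl⟩
    rw [MonoidHom.mem_ker, powMonoidHom_apply, powMonoidHom_apply, ← pow_mul, mul_comm, ← hfac,
      ← hcard]
    exact pow_card_eq_one'
  have heq : (powMonoidHom (q + 1) : Fˣ →* Fˣ).range = (powMonoidHom (q - 1) : Fˣ →* Fˣ).ker :=
    Subgroup.eq_of_le_of_card_ge hle (by rw [hrange, hker'])
  have hμ : μ ∈ (powMonoidHom (q + 1) : Fˣ →* Fˣ).range := by
    rw [heq, MonoidHom.mem_ker, powMonoidHom_apply]
    exact hμq
  obtain ⟨x₀, hx₀⟩ := hμ
  rw [powMonoidHom_apply] at hx₀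
  have h1 : ∀ x : {x : Fˣ // x ^ (q + 1) = μ},
      x.1 * x₀⁻¹ ∈ (powMonoidHom (q + 1) : Fˣ →* Fˣ).ker := by
    intro x
    rw [MonoidHom.mem_ker, powMonoidHom_apply, mul_pow, x.2, inv_pow, hx₀, mul_inv_cancel]
  have h2 : ∀ y : (powMonoidHom (q + 1) : Fˣ →* Fˣ).ker, (y.1 * x₀) ^ (q + 1) = μ := by
    intro y
    have := y.2
    rw [MonoidHom.mem_ker, powMonoidHom_apply] at this
    rw [mul_pow, this, one_mul, hx₀]
  let e : {x : Fˣ // x ^ (q + 1) = μ} ≃ (powMonoidHom (q + 1) : Fˣ →* Fˣ).ker :=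
    { toFun := fun x => ⟨x.1 * x₀⁻¹, h1 x⟩
      invFun := fun y => ⟨y.1 * x₀, h2 y⟩
      left_inv := fun x => by simp
      right_inv := fun y => by simp }
  exact (Nat.card_congr e).trans hker

/-- In a field F with q^2 elements, every non-zero μ with μ^q = μ (that is, μ in the subfield of order q) has exactly q + 1 solutions λ of λ^(q+1) = μ. -/
theorem result {F : Type*} [Field F] [Fintype F] {q : ℕ} (hF : Fintype.card F = q ^ 2) (μ : F) (hμ : μ ≠ 0) (hμq : μ ^ q = μ) : Nat.card {x : F // x ^ (q + 1) = μ} = q + 1 := by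
  have hq1 : 1 ≤ q := by
    by_contra h
    have h1 : q = 0 := by omega
    have hc : 1 < Fintype.card F := Fintype.one_lt_card
    rw [h1] at hF
    simp at hF
  have hμ' : (Units.mk0 μ hμ) ^ (q - 1) = 1 := by
    apply Units.ext
    simp only [Units.val_pow_eq_pow_val, Units.val_mk0, Units.val_one]
    have h : μ ^ (q - 1) * μ = 1 * μ := by
      rw [← pow_succ, Nat.sub_add_cancel hq1, one_mul, hμq]
    exact mul_right_cancel₀ hμ h
  have h1 : ∀ x : {x : F // x ^ (q + 1) = μ}, x.1 ≠ 0 := by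
    intro x h0
    have := x.2
    rw [h0, zero_pow (by omega)] at this
    exact hμ this.symm
  have h2 : ∀ x : {x : F // x ^ (q + 1) = μ}, (Units.mk0 x.1 (h1 x)) ^ (q + 1) = Units.mk0 μ hμ := by
    intro x
    apply Units.ext
    simp [x.2]
  have h3 : ∀ y : {x : Fˣ // x ^ (q + 1) = Units.mk0 μ hμ}, (y.1 : F) ^ (q + 1) = μ := by
    intro y
    have := congrArg Units.val y.2
    simpa using this
  let e : {x : F // x ^ (q + 1) = μ} ≃ {x : Fˣ // x ^ (q + 1) = Units.mk0 μ hμ} :=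
    { toFun := fun x => ⟨Units.mk0 x.1 (h1 x), h2 x⟩
      invFun := fun y => ⟨(y.1 : F), h3 y⟩
      left_inv := fun x => by simp
      right_inv := fun y => by simp }
  exact (Nat.card_congr e).trans (units_aux hF (Units.mk0 μ hμ) hμ')

end Cfsg.Agent.S0754
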