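import Cfsg.Statements.S0755
import Mathlib

set_option autoImplicit false
open Cfsg

namespace Cfsg.Agent.S0755


/-- surjectivity of the norm `c ↦ c * σ c` onto the non-zero fixed points, for an involution
`σ ≠ id` of a finite field -/
theorem norm_surj {F : Type*} [Field F] [Finite F] (σ : F →+* F) (hσ : σ ≠ RingHom.id F)
    (hσ2 : ∀ a : F, σ (σ a) = a) (μ : F) (hμ0 : μ ≠ 0) (hμ : σ μ = μ) :
    ∃ c : F, σ c * c = μ := by
  classical
  obtain ⟨x₀, hx₀⟩ : ∃ x : F, σ x ≠ x := by
    by_contra h
    push Not at h
    exact hσ (RingHom.ext h)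
  let s : Fˣ →* Fˣ := Units.map (σ : F →* F)
  have hs : ∀ u : Fˣ, ((s u : Fˣ) : F) = σ (u : F) := fun u => rfl
  have hs2 : ∀ u : Fˣ, s (s u) = u := fun u => Units.ext (by rw [hs, hs, hσ2])
  let N : Fˣ →* Fˣ := MonoidHom.id Fˣ * s
  let ψ : Fˣ →* Fˣ := MonoidHom.id Fˣ * s⁻¹
  have hN : ∀ u : Fˣ, N u = u * s u := fun u => rfl
  have hψ : ∀ u : Fˣ, ψ u = u * (s u)⁻¹ := fun u => rfl
  -- Hilbert 90
  have h90 : ψ.range = N.ker := by
    ext c
    constructor
    · rintro ⟨d, rfl⟩
      rw [MonoidHom.mem_ker, hN, hψ, map_mul, map_inv, hs2]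
      rw [mul_assoc, inv_mul_cancel_left, mul_inv_cancel]
    · intro hc
      rw [MonoidHom.mem_ker, hN] at hc
      have hc' : (c : F) * σ (c : F) = 1 := by
        have := congrArg Units.val hc
        simpa [hs] using this
      -- find x with x + c σ x ≠ 0
      obtain ⟨x, hx⟩ : ∃ x : F, x + (c : F) * σ x ≠ 0 := by
        by_cases h1 : (1 : F) + (c : F) * σ 1 = 0
        · refine ⟨x₀, ?_⟩
          rw [map_one, mul_one] at h1
          have hc1 : (c : F) = -1 := by linear_combination h1
          rw [hc1]
          intro h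
          apply hx₀
          linear_combination -h
        · exact ⟨1, h1⟩
      refine ⟨Units.mk0 _ hx, ?_⟩
      apply Units.ext
      rw [hψ, Units.val_mul, Units.val_inv_eq_inv_val, hs, Units.val_mk0]
      have hσd : σ (x + (c : F) * σ x) ≠ 0 := by
        intro h
        apply hx
        have := congrArg σ h
        rwa [hσ2, map_zero] at this
      rw [mul_inv_eq_iff_eq_mul₀ hσd, map_add, map_mul, hσ2, mul_add, ← mul_assoc, hc', one_mul,
        add_comm]
  have hkerψ : ∀ u : Fˣ, u ∈ ψ.ker ↔ σ (u : F) = u := by
    intro u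
    rw [MonoidHom.mem_ker, hψ, mul_inv_eq_one]
    constructor
    · intro h
      have := congrArg Units.val h
      rw [hs] at this
      exact this.symm
    · intro h
      apply Units.ext
      rw [hs, h]
  -- counting
  have hc1 : Nat.card N.ker * Nat.card N.range = Nat.card Fˣ := by
    rw [← Subgroup.index_ker]
    exact Subgroup.card_mul_index _
  have hc2 : Nat.card ψ.ker * Nat.card ψ.range = Nat.card Fˣ := by
    rw [← Subgroup.index_ker]
    exact Subgroup.card_mul_index _
  rw [h90] at hc2
  have hKpos : 0 < Nat.card N.ker := Nat.card_pos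
  have hcard : Nat.card N.range = Nat.card ψ.ker := by
    have : Nat.card N.ker * Nat.card N.range = Nat.card N.ker * Nat.card ψ.ker := by
      rw [hc1, ← hc2, mul_comm]
    exact Nat.eq_of_mul_eq_mul_left hKpos this
  have hle : N.range ≤ ψ.ker := by
    rintro _ ⟨d, rfl⟩
    rw [hkerψ, hN, Units.val_mul, hs, map_mul, hσ2, mul_comm]
  have heq : N.range = ψ.ker := Subgroup.eq_of_le_of_card_ge hle (by rw [hcard])
  have hμmem : Units.mk0 μ hμ0 ∈ N.range := by
    rw [heq, hkerψ]
    exact hμ
  obtain ⟨c, hc⟩ := hμmem
  refine ⟨(c : F), ?_⟩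
  have := congrArg Units.val hc
  rw [hN, Units.val_mul, hs, Units.val_mk0] at this
  rw [mul_comm]
  exact this


variable {F V : Type*} [Field F] [AddCommGroup V] [Module F V]

/-- a family with a dual family of functionals is linearly independent -/
theorem li_of_dual {ι : Type*} [DecidableEq ι] (v : ι → V) (φ : ι → V →ₗ[F] F)
    (h : ∀ i j, φ i (v j) = if i = j then 1 else 0) : LinearIndependent F v := by
  rw [linearIndependent_iff']
  intro s g hg i hi
  have := congrArg (φ i) hg
  rw [map_sum, map_zero] at this
  simp only [map_smul, h, smul_eq_mul, mul_ite, mul_one, mul_zero] at this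
  rw [Finset.sum_ite_eq, if_pos hi] at this
  exact this

/-- polarization on a subspace: a hermitian form vanishing on the diagonal of a subspace
vanishes on the subspace -/
theorem polar_sub (σ : F →+* F) (hσ : σ ≠ RingHom.id F) (B : V →ₛₗ[σ] V →ₗ[F] F)
    (hS : B.IsSymm) (R : Submodule F V) (h0 : ∀ v ∈ R, B v v = 0) :
    ∀ x ∈ R, ∀ y ∈ R, B x y = 0 := by
  obtain ⟨c, hc⟩ : ∃ c : F, σ c ≠ c := by
    by_contra h
    push Not at h
    exact hσ (RingHom.ext h)
  have hanti : ∀ x ∈ R, ∀ y ∈ R, B y x = - B x y := by
    intro x hx y hy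
    have h := h0 (x + y) (R.add_mem hx hy)
    simp only [map_add, LinearMap.add_apply, h0 x hx, h0 y hy, zero_add, add_zero] at h
    exact eq_neg_of_add_eq_zero_left h
  intro x hx y hy
  have h2 : B (c • y) x = - B x (c • y) := hanti x hx (c • y) (R.smul_mem c hy)
  have h3 : B (c • y) x = σ c * B y x := by simp
  have h4 : B x (c • y) = c * B x y := by simp
  have h5 : B y x = - B x y := hanti x hx y hy
  have h6 : (σ c - c) * B x y = 0 := by
    have : σ c * B y x = - (c * B x y) := by rw [← h3, h2, h4]
    rw [h5] at this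
    linear_combination -this
  rcases mul_eq_zero.mp h6 with h | h
  · exact absurd (sub_eq_zero.mp h) hc
  · exact h

theorem exists_max_family [Finite F] [FiniteDimensional F V] (σ : F →+* F)
    (hσ : σ ≠ RingHom.id F) (hσ2 : ∀ a : F, σ (σ a) = a) (B : V →ₛₗ[σ] V →ₗ[F] F)
    (hS : B.IsSymm) (hB : B.Nondegenerate) :
    ∀ (d : ℕ) (ι : Type) [Fintype ι] [DecidableEq ι] (e : ι → V),
      (∀ i j, B (e i) (e j) = if i = j then 1 else 0) → Module.finrank F V ≤ Fintype.card ι + d →
      ∃ (ι' : Type) (_ : Fintype ι') (_ : DecidableEq ι') (e' : ι' → V),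
        (∀ i j, B (e' i) (e' j) = if i = j then 1 else 0) ∧
        (∀ u, (∀ i, B (e' i) u = 0) → u = 0) := by
  intro d
  induction d using Nat.strong_induction_on with
  | _ d ih =>
    intro ι _ _ e he hd
    by_cases hvan : ∀ u, (∀ i, B (e i) u = 0) → u = 0
    · exact ⟨ι, inferInstance, inferInstance, e, he, hvan⟩
    · push Not at hvan
      obtain ⟨u, hu, hu0⟩ := hvan
      let R : Submodule F V := ⨅ i, LinearMap.ker (B (e i))
      have hR : ∀ w, w ∈ R ↔ ∀ i, B (e i) w = 0 := by
        intro w
        simp only [R, Submodule.mem_iInf, LinearMap.mem_ker]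
      have hflip : ∀ w ∈ R, ∀ i, B w (e i) = 0 := by
        intro w hw i
        rw [← hS.eq (e i) w, (hR w).mp hw i, map_zero]
      have hproj : ∀ v : V, v - ∑ i, B (e i) v • e i ∈ R := by
        intro v
        rw [hR]
        intro j
        simp only [map_sub, map_sum, map_smul, smul_eq_mul, he, mul_ite, mul_one, mul_zero]
        rw [Finset.sum_ite_eq, if_pos (Finset.mem_univ _), sub_self]
      -- some vector of R is non-isotropic
      have hex : ∃ u' ∈ R, B u' u' ≠ 0 := by
        by_contra hcon
        push Not at hcon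
        have hvanR := polar_sub σ hσ B hS R hcon
        apply hu0
        apply hB.1
        intro v
        have hdec : v = (v - ∑ i, B (e i) v • e i) + ∑ i, B (e i) v • e i := by abel
        rw [hdec, map_add, map_sum, hvanR u ((hR u).mpr hu) _ (hproj v), zero_add]
        apply Finset.sum_eq_zero
        intro i _
        rw [map_smul, hflip u ((hR u).mpr hu) i, smul_zero]
      obtain ⟨u', hu'R, hu'⟩ := hex
      have hfix : σ (B u' u') = B u' u' := hS.eq u' u'
      have hfix' : σ (B u' u')⁻¹ = (B u' u')⁻¹ := by rw [map_inv₀, hfix]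
      obtain ⟨c, hc⟩ := norm_surj σ hσ hσ2 (B u' u')⁻¹ (inv_ne_zero hu') hfix'
      set u'' := c • u' with hu''
      have hu''R : u'' ∈ R := R.smul_mem c hu'R
      have hu''1 : B u'' u'' = 1 := by
        have h1 : B (c • u') (c • u') = σ c * c * B u' u' := by
          simp only [map_smulₛₗ, LinearMap.smul_apply, map_smul, smul_eq_mul, RingHom.id_apply]
          ring
        rw [hu'', h1, hc, inv_mul_cancel₀ hu']
      let e' : Option ι → V := fun o => o.elim u'' e
      have he' : ∀ i j, B (e' i) (e' j) = if i = j then 1 else 0 := by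
        rintro (_ | i) (_ | j)
        · simpa [e'] using hu''1
        · simp only [e', Option.elim_none, Option.elim_some]
          rw [hflip u'' hu''R j]; simp
        · simp only [e', Option.elim_none, Option.elim_some]
          rw [(hR u'').mp hu''R i]; simp
        · simp [e', he]
      have hli : LinearIndependent F e' := li_of_dual e' (fun i => B (e' i)) he'
      have hcard := hli.fintype_card_le_finrank
      rw [Fintype.card_option] at hcard
      have hd1 : 1 ≤ d := by omega
      exact ih (d - 1) (by omega) (Option ι) e' he' (by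
        rw [Fintype.card_option]; omega)

/-- Classification of Hermitian forms over finite fields: if σ is a non-identity involutive automorphism of the finite field F and B is a non-degenerate conjugate-symmetric σ-sesquilinear form on the finite-dimensional space V, then V has a B-orthonormal basis. -/
theorem result {F V : Type*} [Field F] [Finite F] [AddCommGroup V] [Module F V] [FiniteDimensional F V] (σ : F →+* F) (hσ : σ ≠ RingHom.id F) (hσ2 : ∀ a : F, σ (σ a) = a) (B : V →ₛₗ[σ] V →ₗ[F] F) (hS : B.IsSymm) (hB : B.Nondegenerate) : ∃ b : Module.Basis (Fin (Module.finrank F V)) F V, ∀ i j, B (b i) (b j) = if i = j then 1 else 0 := by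
  obtain ⟨ι, _, _, e, he, hvan⟩ :=
    exists_max_family σ hσ hσ2 B hS hB (Module.finrank F V) PEmpty (fun i => i.elim)
      (fun i => i.elim) (by simp)
  have hli : LinearIndependent F e := li_of_dual e (fun i => B (e i)) he
  have hsp : ⊤ ≤ Submodule.span F (Set.range e) := by
    intro v _
    have h0 : v - ∑ i, B (e i) v • e i = 0 := by
      apply hvan
      intro j
      simp only [map_sub, map_sum, map_smul, smul_eq_mul, he, mul_ite, mul_one, mul_zero]
      rw [Finset.sum_ite_eq, if_pos (Finset.mem_univ _), sub_self]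
    rw [sub_eq_zero.mp h0]
    exact Submodule.sum_mem _ (fun i _ => Submodule.smul_mem _ _ (Submodule.subset_span ⟨i, rfl⟩))
  let b := Module.Basis.mk hli hsp
  have hcard : Fintype.card ι = Module.finrank F V := (Module.finrank_eq_card_basis b).symm
  refine ⟨b.reindex (Fintype.equivFinOfCardEq hcard), ?_⟩
  intro i j
  rw [Module.Basis.reindex_apply, Module.Basis.reindex_apply, Module.Basis.mk_apply,
    Module.Basis.mk_apply, he]
  simp only [EmbeddingLike.apply_eq_iff_eq]

end Cfsg.Agent.S0755
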