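import Cfsg.Statements.S0756
import Mathlib

set_option autoImplicit false
open Cfsg

namespace Cfsg.Agent.S0756

universe u v

open Polynomial in
theorem exists_repr_one {F : Type u} {V : Type v} [Field F] [Finite F] [AddCommGroup V] [Module F V]
    [FiniteDimensional F V] (h2 : (2 : F) ≠ 0) (B : LinearMap.BilinForm F V) (hS : B.IsSymm)
    (hB : B.Nondegenerate) (hdim : 2 ≤ Module.finrank F V) : ∃ v : V, B v v = 1 := by
  have : Invertible (2 : F) := invertibleOfNonzero h2
  have := Fintype.ofFinite F
  obtain ⟨e, he⟩ := LinearMap.BilinForm.exists_orthogonal_basis (LinearMap.BilinForm.isSymm_iff.mp hS)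
  let i0 : Fin (Module.finrank F V) := ⟨0, by omega⟩
  let i1 : Fin (Module.finrank F V) := ⟨1, by omega⟩
  have h01 : i0 ≠ i1 := by simp [i0, i1, Fin.ext_iff]
  have ha : B (e i0) (e i0) ≠ 0 := LinearMap.BilinForm.iIsOrtho.not_isOrtho_basis_self_of_nondegenerate he hB i0
  have hb : B (e i1) (e i1) ≠ 0 := LinearMap.BilinForm.iIsOrtho.not_isOrtho_basis_self_of_nondegenerate he hB i1
  have hab : B (e i0) (e i1) = 0 := he h01
  have hba : B (e i1) (e i0) = 0 := he h01.symm
  have hchar : ringChar F ≠ 2 := by
    intro h
    have : CharP F 2 := ringChar.of_eq h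
    exact h2 CharTwo.two_eq_zero
  have hodd : Fintype.card F % 2 = 1 := FiniteField.odd_card_of_char_ne_two hchar
  obtain ⟨x, y, hxy⟩ := FiniteField.exists_root_sum_quadratic
    (f := C (B (e i0) (e i0)) * X ^ 2 + C 0 * X + C (-1))
    (g := C (B (e i1) (e i1)) * X ^ 2 + C 0 * X + C 0)
    (degree_quadratic ha) (degree_quadratic hb) hodd
  simp only [eval_add, eval_mul, eval_C, eval_pow, eval_X] at hxy
  refine ⟨x • e i0 + y • e i1, ?_⟩
  simp only [map_add, map_smul, LinearMap.add_apply, LinearMap.smul_apply, smul_eq_mul, hab, hba]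
  linear_combination hxy

theorem main {F : Type u} [Field F] [Finite F] (h2 : (2 : F) ≠ 0) (α : F) (hα : ¬ IsSquare α) :
    ∀ (n : ℕ) {V : Type v} [AddCommGroup V] [Module F V] [FiniteDimensional F V]
      (B : LinearMap.BilinForm F V) (_ : B.IsSymm) (_ : B.Nondegenerate)
      (_ : Module.finrank F V = n + 1),
      ∃ b : Module.Basis (Fin (n + 1)) F V, (∀ i j, i ≠ j → B (b i) (b j) = 0) ∧
        (∀ i, i ≠ Fin.last n → B (b i) (b i) = 1) ∧
        (B (b (Fin.last n)) (b (Fin.last n)) = 1 ∨ B (b (Fin.last n)) (b (Fin.last n)) = α) := by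
  intro n
  induction n with
  | zero =>
    intro V _ _ _ B hS hB hn
    classical
    have : Invertible (2 : F) := invertibleOfNonzero h2
    have := Fintype.ofFinite F
    obtain ⟨e0, he0⟩ := LinearMap.BilinForm.exists_orthogonal_basis (LinearMap.BilinForm.isSymm_iff.mp hS)
    have hc := LinearMap.BilinForm.iIsOrtho.not_isOrtho_basis_self_of_nondegenerate he0 hB
    let e : Module.Basis (Fin (0 + 1)) F V := e0.reindex (finCongr hn)
    have hc' : B (e 0) (e 0) ≠ 0 := by
      simp only [e, Module.Basis.reindex_apply]
      exact hc _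
    set c := B (e 0) (e 0) with hcdef
    have hα0 : α ≠ 0 := by
      rintro rfl
      exact hα ⟨0, by simp⟩
    have hscale : ∃ s : F, s ≠ 0 ∧ (c = s * s ∨ c = α * (s * s)) := by
      by_cases hsq : IsSquare c
      · obtain ⟨s, hs⟩ := hsq
        refine ⟨s, ?_, Or.inl hs⟩
        rintro rfl
        exact hc' (by rw [hs, mul_zero])
      · have h1 : quadraticChar F (c * α) = 1 := by
          rw [map_mul, quadraticChar_neg_one_iff_not_isSquare.mpr hsq,
            quadraticChar_neg_one_iff_not_isSquare.mpr hα]
          norm_num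
        rw [quadraticChar_one_iff_isSquare (mul_ne_zero hc' hα0)] at h1
        obtain ⟨t, ht⟩ := h1
        have ht0 : t ≠ 0 := by
          rintro rfl
          exact mul_ne_zero hc' hα0 (by rw [ht, mul_zero])
        refine ⟨t / α, div_ne_zero ht0 hα0, Or.inr ?_⟩
        field_simp
        linear_combination ht
    obtain ⟨s, hs0, hs⟩ := hscale
    let b : Module.Basis (Fin (0 + 1)) F V := e.unitsSMul (fun _ => Units.mk0 s⁻¹ (inv_ne_zero hs0))
    have hb0 : b 0 = s⁻¹ • e 0 := by
      simp [b, Module.Basis.unitsSMul_apply, Units.smul_def]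
    refine ⟨b, ?_, ?_, ?_⟩
    · intro i j hij
      exact absurd (Fin.ext (by omega)) hij
    · intro i hi
      exact absurd (Fin.ext (by simp)) hi
    · have hlast : Fin.last 0 = (0 : Fin (0 + 1)) := rfl
      rw [hlast, hb0]
      simp only [map_smul, LinearMap.smul_apply, smul_eq_mul, ← hcdef]
      rcases hs with hs | hs
      · left
        rw [hs]
        field_simp
      · right
        rw [hs]
        field_simp
  | succ n ih =>
    intro V _ _ _ B hS hB hn
    obtain ⟨v, hv⟩ := exists_repr_one h2 B hS hB (by omega)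
    have hv0 : v ≠ 0 := by
      rintro rfl
      simp at hv
    have hvv : B v v ≠ 0 := by rw [hv]; exact one_ne_zero
    set W : Submodule F V := B.orthogonal (Submodule.span F {v}) with hWdef
    have hW : (B.restrict W).Nondegenerate :=
      LinearMap.BilinForm.restrict_nondegenerate_orthogonal_spanSingleton B hB hS.isRefl hvv
    have hmemW : ∀ x : V, x ∈ W ↔ B v x = 0 := by
      intro x
      rw [hWdef, LinearMap.BilinForm.mem_orthogonal_iff]
      constructor
      · intro h
        exact h v (Submodule.mem_span_singleton_self v)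
      · intro h m hm
        obtain ⟨k, rfl⟩ := Submodule.mem_span_singleton.mp hm
        rw [map_smul, LinearMap.smul_apply, h, smul_zero]
    have hfr : Module.finrank F W = n + 1 := by
      have h1 := LinearMap.BilinForm.finrank_orthogonal hB (Submodule.span F {v})
      have h3 := finrank_span_singleton (K := F) hv0
      rw [hWdef, h1, h3, hn]
      omega
    obtain ⟨b', h1, h2', h3⟩ := ih (B.restrict W) (hS.restrict W) hW hfr
    have hli : ∀ (c : F), ∀ x ∈ W, c • v + x = 0 → c = 0 := by
      intro c x hx h
      have h' := congrArg (B v) h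
      rw [map_add, map_smul, hv, (hmemW x).mp hx, map_zero] at h'
      simpa using h'
    have hsp : ∀ z : V, ∃ c : F, z + c • v ∈ W := by
      intro z
      refine ⟨-B v z, ?_⟩
      rw [hmemW, map_add, map_smul, hv]
      simp
    let b : Module.Basis (Fin (n + 1 + 1)) F V := Module.Basis.mkFinCons v b' hli hsp
    have hbcoe : (b : Fin (n + 1 + 1) → V) = Fin.cons v ((↑) ∘ b') := Module.Basis.coe_mkFinCons v b' hli hsp
    have hb0 : b 0 = v := by rw [hbcoe]; rfl
    have hbs : ∀ i : Fin (n + 1), b i.succ = (b' i : V) := by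
      intro i
      rw [hbcoe]
      rfl
    have hvb' : ∀ i : Fin (n + 1), B v (b' i : V) = 0 := fun i => (hmemW _).mp (b' i).2
    refine ⟨b, ?_, ?_, ?_⟩
    · intro i j hij
      induction i using Fin.cases with
      | zero =>
        induction j using Fin.cases with
        | zero => exact absurd rfl hij
        | succ j => rw [hb0, hbs, hvb']
      | succ i =>
        induction j using Fin.cases with
        | zero => rw [hb0, hbs, hS.eq, hvb']
        | succ j =>
          rw [hbs, hbs]
          exact h1 i j (fun h => hij (by rw [h]))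
    · intro i hi
      induction i using Fin.cases with
      | zero => rw [hb0, hv]
      | succ i =>
        rw [hbs]
        apply h2' i
        intro h
        apply hi
        rw [h]
        rfl
    · have hlast : Fin.last (n + 1) = (Fin.last n).succ := rfl
      rw [hlast, hbs]
      exact h3

/-- Classification of symmetric bilinear forms over finite fields of odd characteristic: if B is non-degenerate symmetric on V of dimension n + 1 and α is a fixed non-square of F, there is an orthogonal basis b_0, ..., b_n with B(b_i, b_i) = 1 for i < n and B(b_n, b_n) ∈ {1, α}. -/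
theorem result {F V : Type*} [Field F] [Finite F] [AddCommGroup V] [Module F V] [FiniteDimensional F V] (h2 : (2 : F) ≠ 0) (B : LinearMap.BilinForm F V) (hS : B.IsSymm) (hB : B.Nondegenerate) {n : ℕ} (hn : Module.finrank F V = n + 1) (α : F) (hα : ¬ IsSquare α) : ∃ b : Module.Basis (Fin (n + 1)) F V, (∀ i j, i ≠ j → B (b i) (b j) = 0) ∧ (∀ i, i ≠ Fin.last n → B (b i) (b i) = 1) ∧ (B (b (Fin.last n)) (b (Fin.last n)) = 1 ∨ B (b (Fin.last n)) (b (Fin.last n)) = α) :=
  main h2 α hα n B hS hB hn

end Cfsg.Agent.S0756
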