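import Cfsg.Statements.S0757
import Mathlib

set_option autoImplicit false
open Cfsg

namespace Cfsg.Agent.S0757

theorem toMatrix'_wss {F : Type*} [Field F] [Invertible (2 : F)] {ι : Type*} [Fintype ι] [DecidableEq ι]
    (w : ι → F) : QuadraticForm.toMatrix' (QuadraticMap.weightedSumSquares F w) = Matrix.diagonal w := by
  ext i j
  rw [QuadraticForm.toMatrix', LinearMap.toMatrix₂'_apply, QuadraticMap.associated_apply]
  simp only [QuadraticMap.weightedSumSquares_apply, smul_eq_mul, Pi.add_apply, Pi.single_apply]
  by_cases hij : i = j
  · subst hij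
    simp only [Matrix.diagonal_apply_eq]
    have e1 : ∀ x, w x * (((if x = i then (1:F) else 0) + if x = i then 1 else 0) *
        ((if x = i then 1 else 0) + if x = i then 1 else 0)) = if x = i then 4 * w i else 0 := by
      intro x
      split_ifs with h
      · subst h; ring
      · ring
    have e2 : ∀ x, w x * ((if x = i then (1:F) else 0) * if x = i then 1 else 0) =
        if x = i then w i else 0 := by
      intro x
      split_ifs with h
      · subst h; ring
      · ring
    simp only [e1, e2, Finset.sum_ite_eq', Finset.mem_univ, if_true]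
    have h2 : (⅟2 : F) * 2 = 1 := invOf_mul_self (2 : F)
    show (⅟2 : F) * (4 * w i - w i - w i) = w i
    linear_combination (w i) * h2
  · simp only [Matrix.diagonal_apply_ne _ hij]
    have e1 : ∀ x, w x * (((if x = i then (1:F) else 0) + if x = j then 1 else 0) *
        ((if x = i then 1 else 0) + if x = j then 1 else 0)) =
        (if x = i then w i else 0) + (if x = j then w j else 0) := by
      intro x
      by_cases h : x = i
      · subst h
        simp [hij]
      · by_cases h' : x = j
        · subst h'
          simp [h]
        · simp [h, h']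
    have e2 : ∀ (k : ι) x, w x * ((if x = k then (1:F) else 0) * if x = k then 1 else 0) =
        if x = k then w k else 0 := by
      intro k x
      split_ifs with h
      · subst h; ring
      · ring
    simp only [e1, e2, Finset.sum_add_distrib, Finset.sum_ite_eq', Finset.mem_univ, if_true]
    rw [add_sub_cancel_left, sub_self, smul_zero]

/-- The two diagonal forms Σ x_i^2 and Σ_(i<n) x_i^2 + α x_n^2 on F^(n+1), with α a non-square and 2 ≠ 0 in F, are inequivalent quadratic forms (so over a finite field of odd order there are exactly two classes of non-singular symmetric bilinear forms in each dimension). -/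
theorem result {F : Type*} [Field F] (h2 : (2 : F) ≠ 0) (n : ℕ) (α : F) (hα : ¬ IsSquare α) : ¬ (QuadraticMap.weightedSumSquares F (fun _ : Fin (n + 1) => (1 : F))).Equivalent (QuadraticMap.weightedSumSquares F (fun i : Fin (n + 1) => if i = Fin.last n then α else (1 : F))) := by
  rintro ⟨e⟩
  have : Invertible (2 : F) := invertibleOfNonzero h2
  have hcomp : QuadraticMap.weightedSumSquares F (fun _ : Fin (n + 1) => (1 : F)) =
      (QuadraticMap.weightedSumSquares F (fun i : Fin (n + 1) => if i = Fin.last n then α else (1 : F))).comp
        (e.toLinearEquiv : (Fin (n+1) → F) →ₗ[F] (Fin (n+1) → F)) := by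
    ext x
    simp
  have hd := congrArg QuadraticForm.discr' hcomp
  rw [QuadraticForm.discr'_comp, QuadraticForm.discr', QuadraticForm.discr', toMatrix'_wss, toMatrix'_wss,
    Matrix.det_diagonal, Matrix.det_diagonal] at hd
  simp only [Finset.prod_const_one, Finset.prod_ite_eq', Finset.mem_univ, if_true] at hd
  set d := (LinearMap.toMatrix' (e.toLinearEquiv : (Fin (n+1) → F) →ₗ[F] (Fin (n+1) → F))).det with hd'
  have hd0 : d ≠ 0 := by
    rintro h0
    rw [h0] at hd
    simp at hd
  apply hα
  refine ⟨d⁻¹, ?_⟩
  calc α = (d * d * α) * (d⁻¹ * d⁻¹) := by field_simp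
    _ = d⁻¹ * d⁻¹ := by rw [← hd, one_mul]

end Cfsg.Agent.S0757
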