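import Cfsg.Statements.S0758
import Mathlib

set_option autoImplicit false
open Cfsg

namespace Cfsg.Agent.S0758

/-- For a finite field F of odd order q and a non-square α: the form x² + y² is isotropic iff q ≡ 1 mod 4, and the form x² + α y² is isotropic iff q ≡ 3 mod 4. -/
theorem result {F : Type*} [Field F] [Fintype F] (h2 : (2 : F) ≠ 0) (α : F) (hα : ¬ IsSquare α) : ((∃ x y : F, (x ≠ 0 ∨ y ≠ 0) ∧ x ^ 2 + y ^ 2 = 0) ↔ Fintype.card F % 4 = 1) ∧ ((∃ x y : F, (x ≠ 0 ∨ y ≠ 0) ∧ x ^ 2 + α * y ^ 2 = 0) ↔ Fintype.card F % 4 = 3) := by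
  classical
  have hchar : ringChar F ≠ 2 := by
    intro h
    have : CharP F 2 := ringChar.of_eq h
    exact h2 CharTwo.two_eq_zero
  have hodd := FiniteField.odd_card_of_char_ne_two hchar
  have hm1 := FiniteField.isSquare_neg_one_iff (F := F)
  have hα0 : α ≠ 0 := by
    rintro rfl
    exact hα ⟨0, by simp⟩
  have key : ∀ β : F, β ≠ 0 → ((∃ x y : F, (x ≠ 0 ∨ y ≠ 0) ∧ x ^ 2 + β * y ^ 2 = 0) ↔ IsSquare (-β)) := by
    intro β hβ
    constructor
    · rintro ⟨x, y, hxy, h⟩
      have hy : y ≠ 0 := by
        rintro rfl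
        simp only [ne_eq, not_true_eq_false, or_false] at hxy
        apply hxy
        simpa using h
      refine ⟨x / y, ?_⟩
      field_simp
      linear_combination -h
    · rintro ⟨s, hs⟩
      refine ⟨s, 1, Or.inr one_ne_zero, ?_⟩
      linear_combination -hs
  constructor
  · have h1 := key 1 one_ne_zero
    simp only [one_mul] at h1
    rw [h1, hm1]
    omega
  · rw [key α hα0]
    have e : IsSquare (-α) ↔ ¬ IsSquare (-1 : F) := by
      rw [← quadraticChar_one_iff_isSquare (neg_ne_zero.mpr hα0), ← quadraticChar_neg_one_iff_not_isSquare,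
        ← neg_one_mul α, map_mul, quadraticChar_neg_one_iff_not_isSquare.mpr hα]
      constructor
      · intro h
        have : quadraticChar F (-1) = -1 := by linear_combination -h
        exact this
      · intro h
        rw [h]; norm_num
    rw [e, hm1]
    omega

end Cfsg.Agent.S0758
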