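import Cfsg.Statements.S0759
import Mathlib

set_option autoImplicit false
open Cfsg

namespace Cfsg.Agent.S0759

open Matrix

theorem exists_of_matrix {F : Type*} [Field F] {ι : Type*} [Fintype ι] [DecidableEq ι] (m : ℕ)
    (hι : Fintype.card ι = m) (M : Matrix ι ι F) (hM : Mᵀ * M = -1) :
    ∃ W : Submodule F (Fin (2 * m) → F), Module.finrank F W = m ∧ ∀ w ∈ W, ∑ i, w i ^ 2 = 0 := by
  have hcard : Fintype.card (ι ⊕ ι) = 2 * m := by rw [Fintype.card_sum, hι]; ring
  let e : ι ⊕ ι ≃ Fin (2 * m) := Fintype.equivFinOfCardEq hcard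
  let L : (ι → F) →ₗ[F] (Fin (2 * m) → F) :=
    { toFun := fun x k => Sum.elim x (M *ᵥ x) (e.symm k)
      map_add' := by
        intro x y
        funext k
        rw [Matrix.mulVec_add]
        simp only [Pi.add_apply]
        generalize e.symm k = s
        cases s <;> simp
      map_smul' := by
        intro c x
        funext k
        rw [Matrix.mulVec_smul]
        simp only [Pi.smul_apply, RingHom.id_apply]
        generalize e.symm k = s
        cases s <;> simp }
  have hL : ∀ x k, L x k = Sum.elim x (M *ᵥ x) (e.symm k) := fun x k => rfl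
  have hinj : Function.Injective L := by
    intro x y hxy
    funext j
    have h1 := congrFun hxy (e (Sum.inl j))
    simpa [hL] using h1
  refine ⟨LinearMap.range L, ?_, ?_⟩
  · rw [LinearMap.finrank_range_of_inj hinj, Module.finrank_fintype_fun_eq_card, hι]
  · rintro w ⟨x, rfl⟩
    have h0 : ∑ k, L x k ^ 2 = ∑ s : ι ⊕ ι, (Sum.elim x (M *ᵥ x) s) ^ 2 := by
      rw [← Equiv.sum_comp e]
      simp [hL]
    rw [h0, Fintype.sum_sum_type]
    simp only [Sum.elim_inl, Sum.elim_inr]
    have h1 : ∑ j, (M *ᵥ x) j ^ 2 = (M *ᵥ x) ⬝ᵥ (M *ᵥ x) := by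
      simp [dotProduct, sq]
    have h2 : (M *ᵥ x) ⬝ᵥ (M *ᵥ x) = x ⬝ᵥ ((Mᵀ * M) *ᵥ x) := by
      rw [← Matrix.mulVec_mulVec, Matrix.dotProduct_mulVec x Mᵀ, Matrix.vecMul_transpose]
    rw [h1, h2, hM, Matrix.neg_mulVec, Matrix.one_mulVec, dotProduct_neg]
    simp [dotProduct, sq]

theorem exists_W_of_mod4_one {F : Type*} [Field F] [Fintype F] (m : ℕ)
    (h : Fintype.card F % 4 ≠ 3) :
    ∃ W : Submodule F (Fin (2 * m) → F), Module.finrank F W = m ∧ ∀ w ∈ W, ∑ i, w i ^ 2 = 0 := by
  obtain ⟨i, hi⟩ := FiniteField.isSquare_neg_one_iff.mpr h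
  apply exists_of_matrix (ι := Fin m) m (Fintype.card_fin m) (i • (1 : Matrix (Fin m) (Fin m) F))
  rw [Matrix.transpose_smul, Matrix.transpose_one, Matrix.smul_mul, Matrix.mul_smul, Matrix.one_mul,
    smul_smul, ← hi]
  simp

theorem exists_W_of_even {F : Type*} [Field F] [Fintype F] (m : ℕ) (hm : Even m) :
    ∃ W : Submodule F (Fin (2 * m) → F), Module.finrank F W = m ∧ ∀ w ∈ W, ∑ i, w i ^ 2 = 0 := by
  obtain ⟨k, rfl⟩ := hm
  obtain ⟨p, hp⟩ := CharP.exists F
  have : NeZero p := ⟨(CharP.char_is_prime F p).ne_zero⟩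
  obtain ⟨a', b', hab'⟩ := CharP.sq_add_sq F p (-1 : ℤ)
  obtain ⟨a, b, hab⟩ : ∃ a b : F, a ^ 2 + b ^ 2 = -1 := ⟨a', b', by simpa using hab'⟩
  let N : Matrix (Fin 2) (Fin 2) F := !![a, b; b, -a]
  have hN : Nᵀ * N = -1 := by
    ext i j
    fin_cases i <;> fin_cases j <;> simp [N, Matrix.mul_apply, Fin.sum_univ_two] <;>
      first | (linear_combination hab) | ring
  apply exists_of_matrix (ι := Fin 2 × Fin k) (k + k) (by simp; ring)
    (Matrix.blockDiagonal (fun _ : Fin k => N))
  rw [Matrix.blockDiagonal_transpose, ← Matrix.blockDiagonal_mul]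
  simp only [hN]
  rw [← Matrix.blockDiagonal_one, ← Matrix.blockDiagonal_neg]
  rfl

theorem det_fromBlocks_zero_anti {F : Type*} [Field F] {m : ℕ} (A C D : Matrix (Fin m) (Fin m) F) :
    (Matrix.fromBlocks 0 A C D).det = (-1) ^ m * (A.det * C.det) := by
  have hJ : (Matrix.J (Fin m) F).det = 1 :=
    SymplecticGroup.det_eq_one (SymplecticGroup.J_mem (Fin m) F)
  have h : Matrix.fromBlocks 0 A C D * Matrix.J (Fin m) F = Matrix.fromBlocks A 0 D (-C) := by
    rw [Matrix.J, Matrix.fromBlocks_multiply]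
    simp
  have h2 := congrArg Matrix.det h
  rw [Matrix.det_mul, hJ, mul_one, Matrix.det_fromBlocks_zero₁₂, Matrix.det_neg, Fintype.card_fin] at h2
  rw [h2]
  ring

theorem isSquare_of_W {F : Type*} [Field F] (h2 : (2 : F) ≠ 0) (m : ℕ)
    (W : Submodule F (Fin m ⊕ Fin m → F)) (hW : Module.finrank F W = m)
    (hsing : ∀ w ∈ W, ∑ s, w s ^ 2 = 0) : IsSquare ((-1 : F) ^ m) := by
  have hdot : ∀ w ∈ W, ∀ w' ∈ W, w ⬝ᵥ w' = 0 := by
    intro w hw w' hw'
    have h1 := hsing _ (W.add_mem hw hw')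
    have h3 := hsing w hw
    have h4 := hsing w' hw'
    have h5 : ∑ s, (w + w') s ^ 2 = ∑ s, w s ^ 2 + 2 * (w ⬝ᵥ w') + ∑ s, w' s ^ 2 := by
      simp only [Pi.add_apply, dotProduct, Finset.mul_sum, ← Finset.sum_add_distrib]
      apply Finset.sum_congr rfl
      intro s _
      ring
    rw [h5, h3, h4, zero_add, add_zero] at h1
    exact (mul_eq_zero.mp h1).resolve_left h2
  obtain ⟨W', hcompl⟩ := Submodule.exists_isCompl W
  have hW' : Module.finrank F W' = m := by
    have h1 := Submodule.finrank_add_eq_of_isCompl hcompl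
    rw [hW, Module.finrank_fintype_fun_eq_card, Fintype.card_sum, Fintype.card_fin] at h1
    omega
  let bW := Module.finBasisOfFinrankEq F W hW
  let bW' := Module.finBasisOfFinrankEq F W' hW'
  let c : Module.Basis (Fin m ⊕ Fin m) F (Fin m ⊕ Fin m → F) :=
    (bW.prod bW').map (Submodule.prodEquivOfIsCompl W W' hcompl)
  have hc_inl : ∀ j, c (Sum.inl j) = (bW j : Fin m ⊕ Fin m → F) := by
    intro j
    simp [c, Submodule.coe_prodEquivOfIsCompl']
  let Bf : LinearMap.BilinForm F (Fin m ⊕ Fin m → F) := Matrix.toBilin' 1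
  have hBf : ∀ x y, Bf x y = x ⬝ᵥ y := fun x y => by
    simp [Bf, Matrix.toBilin'_apply']
  let e := Pi.basisFun F (Fin m ⊕ Fin m)
  let G := LinearMap.BilinForm.toMatrix c Bf
  let P := e.toMatrix c
  have hG : Pᵀ * P = G := by
    have h1 := LinearMap.BilinForm.toMatrix_mul_basis_toMatrix (b := e) c Bf
    have h3 : LinearMap.BilinForm.toMatrix e Bf = 1 := by
      rw [LinearMap.BilinForm.toMatrix_basisFun]
      simp [Bf]
    rw [h3, Matrix.mul_one] at h1
    exact h1
  have hPdet : P.det ≠ 0 := by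
    have h1 := Module.Basis.toMatrix_mul_toMatrix_flip e c
    intro h0
    have h3 := congrArg Matrix.det h1
    rw [Matrix.det_mul] at h3
    change P.det * _ = _ at h3
    rw [h0, zero_mul, Matrix.det_one] at h3
    exact zero_ne_one h3
  have hG11 : G.toBlocks₁₁ = 0 := by
    ext i j
    simp only [G, Matrix.toBlocks₁₁, Matrix.of_apply, LinearMap.BilinForm.toMatrix_apply, hc_inl, hBf,
      Matrix.zero_apply]
    exact hdot _ (bW i).2 _ (bW j).2
  have hG21 : G.toBlocks₂₁ = G.toBlocks₁₂ᵀ := by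
    ext i j
    simp only [G, Matrix.toBlocks₂₁, Matrix.toBlocks₁₂, Matrix.of_apply, Matrix.transpose_apply,
      LinearMap.BilinForm.toMatrix_apply, hBf]
    exact dotProduct_comm _ _
  have hGeq : G = Matrix.fromBlocks 0 G.toBlocks₁₂ G.toBlocks₁₂ᵀ G.toBlocks₂₂ := by
    rw [← hG11, ← hG21, Matrix.fromBlocks_toBlocks]
  have hdet := congrArg Matrix.det hG
  rw [Matrix.det_mul, Matrix.det_transpose, hGeq, det_fromBlocks_zero_anti, Matrix.det_transpose] at hdet
  set a := G.toBlocks₁₂.det with ha_def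
  have ha : a ≠ 0 := by
    rintro h0
    rw [h0] at hdet
    simp only [mul_zero] at hdet
    exact hPdet (mul_self_eq_zero.mp hdet)
  refine ⟨P.det / a, ?_⟩
  field_simp
  linear_combination -hdet

/-- Type of the orthonormal form: over a finite field of odd order q and for m ≥ 1, the quadratic form Σ_(i<2m) x_i² on F^(2m) admits an m-dimensional subspace on which it vanishes identically if and only if it is not the case that q ≡ 3 (mod 4) and m is odd. -/
theorem result {F : Type*} [Field F] [Fintype F] (h2 : (2 : F) ≠ 0) (m : ℕ) (hm : 1 ≤ m) : (∃ W : Submodule F (Fin (2 * m) → F), Module.finrank F W = m ∧ ∀ w ∈ W, ∑ i, w i ^ 2 = 0) ↔ ¬ (Fintype.card F % 4 = 3 ∧ Odd m) := by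
  constructor
  · rintro ⟨W, hW, hsing⟩ ⟨h3, hmodd⟩
    have hcard : Fintype.card (Fin m ⊕ Fin m) = 2 * m := by
      rw [Fintype.card_sum, Fintype.card_fin]
      ring
    let e : Fin m ⊕ Fin m ≃ Fin (2 * m) := Fintype.equivFinOfCardEq hcard
    let φ : (Fin (2 * m) → F) ≃ₗ[F] (Fin m ⊕ Fin m → F) := LinearEquiv.funCongrLeft F F e
    have hsq := isSquare_of_W h2 m (W.map φ.toLinearMap)
      (by rw [LinearEquiv.finrank_map_eq, hW]) (by
        rintro w ⟨x, hx, rfl⟩
        have h1 : ∑ s, (φ x) s ^ 2 = ∑ k, x k ^ 2 := by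
          simp only [φ, LinearEquiv.funCongrLeft_apply, LinearMap.funLeft_apply]
          exact Equiv.sum_comp e (fun k => x k ^ 2)
        exact h1.trans (hsing x hx))
    rw [hmodd.neg_one_pow] at hsq
    exact (FiniteField.isSquare_neg_one_iff.mp hsq) h3
  · intro h
    by_cases h3 : Fintype.card F % 4 = 3
    · have hme : Even m := by
        rw [← Nat.not_odd_iff_even]
        intro ho
        exact h ⟨h3, ho⟩
      exact exists_W_of_even m hme
    · exact exists_W_of_mod4_one m h3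

end Cfsg.Agent.S0759
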