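import Cfsg.Statements.S0760
import Mathlib

set_option autoImplicit false
open Cfsg

namespace Cfsg.Agent.S0760

theorem aux {F V : Type*} [Field F] [AddCommGroup V] [Module F V] [FiniteDimensional F V] (Q : QuadraticForm F V) (hQ : (QuadraticMap.polarBilin Q).Nondegenerate) (W₁ W₂ : Submodule F V) (h₁ : ∀ w ∈ W₁, Q w = 0) (h₂ : ∀ w ∈ W₂, Q w = 0) (hmax₁ : ∀ W : Submodule F V, W₁ ≤ W → (∀ w ∈ W, Q w = 0) → W = W₁) : Module.finrank F W₂ ≤ Module.finrank F W₁ ∧ 2 * Module.finrank F W₁ ≤ Module.finrank F V := by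
  set B : LinearMap.BilinForm F V := QuadraticMap.polarBilin Q with hB
  have hpol : ∀ (W : Submodule F V), (∀ w ∈ W, Q w = 0) → ∀ x ∈ W, ∀ y ∈ W, B x y = 0 := by
    intro W hW x hx y hy
    show QuadraticMap.polar Q x y = 0
    unfold QuadraticMap.polar
    rw [hW _ (W.add_mem hx hy), hW x hx, hW y hy]
    simp
  have hle1 : W₁ ≤ B.orthogonal W₁ := fun x hx n hn => hpol W₁ h₁ n hn x hx
  have hfr := LinearMap.BilinForm.finrank_orthogonal hQ W₁
  have hk1 : Module.finrank F W₁ ≤ Module.finrank F V := Submodule.finrank_le W₁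
  have hpart2 : 2 * Module.finrank F W₁ ≤ Module.finrank F V := by
    have := Submodule.finrank_mono hle1
    omega
  refine ⟨?_, hpart2⟩
  have hclaim : W₂ ⊓ B.orthogonal W₁ ≤ W₁ ⊓ W₂ := by
    intro x hx
    obtain ⟨hx2, hxo⟩ := hx
    refine ⟨?_, hx2⟩
    have hW : W₁ ⊔ Submodule.span F {x} = W₁ := by
      apply hmax₁ _ le_sup_left
      intro w hw
      rw [Submodule.mem_sup] at hw
      obtain ⟨a, ha, b, hb, rfl⟩ := hw
      rw [Submodule.mem_span_singleton] at hb
      obtain ⟨c, rfl⟩ := hb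
      have h0 : QuadraticMap.polar Q a x = 0 := hxo a ha
      rw [QuadraticMap.map_add (⇑Q), h₁ a ha, QuadraticMap.map_smul, h₂ x hx2,
        QuadraticMap.polar_smul_right, h0]
      simp
    rw [← hW]
    exact Submodule.mem_sup_right (Submodule.mem_span_singleton_self x)
  have hsup : W₂ ⊔ B.orthogonal W₁ ≤ B.orthogonal (W₁ ⊓ W₂) := by
    apply sup_le
    · intro x hx n hn
      exact hpol W₂ h₂ n hn.2 x hx
    · exact LinearMap.BilinForm.orthogonal_le inf_le_left
  have e1 := Submodule.finrank_sup_add_finrank_inf_eq W₂ (B.orthogonal W₁)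
  have e2 := Submodule.finrank_mono hclaim
  have e3 := Submodule.finrank_mono hsup
  have e4 := LinearMap.BilinForm.finrank_orthogonal hQ (W₁ ⊓ W₂)
  have e5 : Module.finrank F ↥(W₁ ⊓ W₂) ≤ Module.finrank F W₁ := Submodule.finrank_mono inf_le_left
  omega

/-- Witt index is well defined: if Q is a quadratic form on a finite-dimensional space V over a finite field with non-degenerate polar form, and W₁, W₂ are subspaces on which Q vanishes that are maximal with this property, then W₁ and W₂ have the same dimension, and twice this dimension is at most dim V. -/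
theorem result {F V : Type*} [Field F] [Finite F] [AddCommGroup V] [Module F V] [FiniteDimensional F V] (Q : QuadraticForm F V) (hQ : (QuadraticMap.polarBilin Q).Nondegenerate) (W₁ W₂ : Submodule F V) (h₁ : ∀ w ∈ W₁, Q w = 0) (h₂ : ∀ w ∈ W₂, Q w = 0) (hmax₁ : ∀ W : Submodule F V, W₁ ≤ W → (∀ w ∈ W, Q w = 0) → W = W₁) (hmax₂ : ∀ W : Submodule F V, W₂ ≤ W → (∀ w ∈ W, Q w = 0) → W = W₂) : Module.finrank F W₁ = Module.finrank F W₂ ∧ 2 * Module.finrank F W₁ ≤ Module.finrank F V := by
  have a1 := aux Q hQ W₁ W₂ h₁ h₂ hmax₁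
  have a2 := aux Q hQ W₂ W₁ h₂ h₁ hmax₂
  exact ⟨le_antisymm a2.1 a1.1, a1.2⟩

end Cfsg.Agent.S0760
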