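import Cfsg.Statements.S0763
import Mathlib

set_option autoImplicit false
open Cfsg

namespace Cfsg.Agent.S0763

/-- Binary quadratic forms in characteristic two over a finite field: if Q is a quadratic form on a 2-dimensional space whose polar form is non-degenerate, then either there are vectors v, w with Q v = Q w = 0 and polar value 1 (Q is xy in these coordinates), or there are v, w and μ with Q v = 1, Q w = μ, polar value 1 and x² + x + μ without roots in F (Q is x² + xy + μy²). -/
theorem result {F V : Type*} [Field F] [Finite F] [CharP F 2] [AddCommGroup V] [Module F V] (Q : QuadraticForm F V) (h2 : Module.finrank F V = 2) (hQ : (QuadraticMap.polarBilin Q).Nondegenerate) : (∃ v w : V, LinearIndependent F ![v, w] ∧ Q v = 0 ∧ Q w = 0 ∧ QuadraticMap.polar Q v w = 1) ∨ (∃ (v w : V) (μ : F), LinearIndependent F ![v, w] ∧ (∀ x : F, x ^ 2 + x + μ ≠ 0) ∧ Q v = 1 ∧ Q w = μ ∧ QuadraticMap.polar Q v w = 1) := by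
  have two0 : (2 : F) = 0 := CharTwo.two_eq_zero
  have hpol : ∀ x : V, QuadraticMap.polar Q x x = 0 := by
    intro x
    rw [QuadraticMap.polar_self, two_smul, ← two_mul, two0, zero_mul]
  have hsq : ∀ a : F, ∃ s : F, s * s = a := by
    intro a
    obtain ⟨s, hs⟩ := FiniteField.isSquare_of_char_two (F := F) (ringChar.eq F 2) a
    exact ⟨s, hs.symm⟩
  have hind : ∀ v w : V, QuadraticMap.polar Q v w = 1 → LinearIndependent F ![v, w] := by
    intro v w hvw
    rw [LinearIndependent.pair_iff]
    intro s t hst
    have h1 : QuadraticMap.polar Q v (s • v + t • w) = 0 := by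
      rw [hst, QuadraticMap.polar_zero_right]
    have h2 : QuadraticMap.polar Q (s • v + t • w) w = 0 := by
      rw [hst, QuadraticMap.polar_zero_left]
    rw [QuadraticMap.polar_add_right, QuadraticMap.polar_smul_right, QuadraticMap.polar_smul_right,
      hpol, hvw] at h1
    rw [QuadraticMap.polar_add_left, QuadraticMap.polar_smul_left, QuadraticMap.polar_smul_left,
      hpol, hvw] at h2
    simp only [smul_eq_mul, mul_zero, mul_one, zero_add, add_zero] at h1 h2
    exact ⟨h2, h1⟩
  have hpartner : ∀ v : V, v ≠ 0 → ∃ w : V, QuadraticMap.polar Q v w = 1 := by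
    intro v hv
    have : ∃ w', QuadraticMap.polar Q v w' ≠ 0 := by
      by_contra hcon
      push Not at hcon
      exact hv (hQ.1 v hcon)
    obtain ⟨w', hw'⟩ := this
    refine ⟨(QuadraticMap.polar Q v w')⁻¹ • w', ?_⟩
    rw [QuadraticMap.polar_smul_right, smul_eq_mul, inv_mul_cancel₀ hw']
  by_cases hex : ∃ v : V, v ≠ 0 ∧ Q v = 0
  · obtain ⟨v, hv0, hQv⟩ := hex
    obtain ⟨w1, hw1⟩ := hpartner v hv0
    left
    refine ⟨v, w1 + (Q w1) • v, ?_, hQv, ?_, ?_⟩
    · apply hind
      rw [QuadraticMap.polar_add_right, QuadraticMap.polar_smul_right, hpol, hw1]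
      simp
    · rw [QuadraticMap.map_add (⇑Q), QuadraticMap.map_smul, hQv, QuadraticMap.polar_smul_right,
        QuadraticMap.polar_comm, hw1]
      simp only [smul_eq_mul, mul_zero, add_zero, mul_one]
      rw [← two_mul, two0, zero_mul]
    · rw [QuadraticMap.polar_add_right, QuadraticMap.polar_smul_right, hpol, hw1]
      simp
  · push Not at hex
    right
    have : Nontrivial V := Module.nontrivial_of_finrank_pos (R := F) (by omega)
    obtain ⟨v', hv'⟩ := exists_ne (0 : V)
    have ha := hex v' hv'
    obtain ⟨s, hs⟩ := hsq (Q v')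
    have hs0 : s ≠ 0 := by
      rintro rfl
      exact ha (by rw [← hs, mul_zero])
    have hv0 : s⁻¹ • v' ≠ 0 := smul_ne_zero (inv_ne_zero hs0) hv'
    have hQv : Q (s⁻¹ • v') = 1 := by
      rw [QuadraticMap.map_smul, ← hs, smul_eq_mul]
      field_simp
    obtain ⟨w, hw⟩ := hpartner _ hv0
    refine ⟨s⁻¹ • v', w, Q w, hind _ _ hw, ?_, hQv, rfl, hw⟩
    intro x hx
    have hli := hind _ _ hw
    rw [LinearIndependent.pair_iff] at hli
    have hne : x • (s⁻¹ • v') + w ≠ 0 := by
      intro h0
      have := (hli x 1 (by rw [one_smul]; exact h0)).2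
      exact one_ne_zero this
    apply hex _ hne
    rw [QuadraticMap.map_add (⇑Q), QuadraticMap.map_smul, hQv, QuadraticMap.polar_smul_left, hw]
    simp only [smul_eq_mul, mul_one]
    linear_combination hx

end Cfsg.Agent.S0763
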