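import Cfsg.Statements.S0764
import Mathlib

set_option autoImplicit false
open Cfsg

namespace Cfsg.Agent.S0764

open Matrix in
theorem J_dot_self {F : Type*} [CommRing F] (m : ℕ) (v : Fin m ⊕ Fin m → F) :
    v ⬝ᵥ (Matrix.J (Fin m) F *ᵥ v) = 0 := by
  simp [Matrix.J, dotProduct, Matrix.mulVec, Fintype.sum_sum_type, Matrix.fromBlocks, Matrix.one_apply, Finset.sum_ite_eq, Matrix.neg_apply]
  rw [add_comm, ← sub_eq_add_neg, sub_eq_zero]
  exact Finset.sum_congr rfl (fun i _ => mul_comm _ _)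

open Matrix in
/-- Symplectic transvections are isometries: for every vector v and scalar c the matrix of x ↦ x + c f(x, v) v lies in the symplectic group. -/
theorem result {F : Type*} [Field F] (m : ℕ) (v : Fin m ⊕ Fin m → F) (c : F) : Cfsg.sympTransvection m v c ∈ Matrix.symplecticGroup (Fin m) F := by
  rw [SymplecticGroup.mem_iff]
  unfold Cfsg.sympTransvection
  have h1 : Matrix.vecMulVec v (J (Fin m) F *ᵥ v) * J (Fin m) F = Matrix.vecMulVec v v := by
    rw [Matrix.vecMulVec_mul, Matrix.vecMul_mulVec, Matrix.J_transpose, Matrix.neg_mul, Matrix.J_squared]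
    simp
  have h2 : J (Fin m) F * (Matrix.vecMulVec v (J (Fin m) F *ᵥ v))ᵀ = - Matrix.vecMulVec v v := by
    rw [Matrix.transpose_vecMulVec, Matrix.mul_vecMulVec, Matrix.mulVec_mulVec, Matrix.J_squared]
    rw [Matrix.neg_mulVec, Matrix.one_mulVec, Matrix.neg_vecMulVec]
  have h3 : Matrix.vecMulVec v v * (Matrix.vecMulVec v (J (Fin m) F *ᵥ v))ᵀ = 0 := by
    rw [Matrix.transpose_vecMulVec, Matrix.vecMulVec_mul_vecMulVec, J_dot_self]
    simp
  rw [Matrix.transpose_add, Matrix.transpose_smul, Matrix.transpose_one, Matrix.add_mul, Matrix.mul_add,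
    Matrix.add_mul, Matrix.smul_mul, Matrix.mul_smul, Matrix.smul_mul, h1, 
    Matrix.one_mul, Matrix.mul_one, Matrix.mul_one, Matrix.add_mul, Matrix.smul_mul, h2, h3]
  simp

end Cfsg.Agent.S0764
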