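import Cfsg.Statements.S0767
import Mathlib

set_option autoImplicit false
open Cfsg

namespace Cfsg.Agent.S0767

open Matrix in
theorem J_dot_self {F : Type*} [CommRing F] (m : ℕ) (v : Fin m ⊕ Fin m → F) :
    v ⬝ᵥ (Matrix.J (Fin m) F *ᵥ v) = 0 := by
  simp [Matrix.J, dotProduct, Matrix.mulVec, Fintype.sum_sum_type, Matrix.fromBlocks, Matrix.one_apply, Finset.sum_ite_eq, Matrix.neg_apply]
  rw [add_comm, ← sub_eq_add_neg, sub_eq_zero]
  exact Finset.sum_congr rfl (fun i _ => mul_comm _ _)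

open Matrix in
/-- The root group of a point: T_v(c) T_v(d) = T_v(c + d), and for A in the symplectic group with A v = a v, the conjugate A T_v(c) A⁻¹ is again some T_v(d). -/
theorem result {F : Type*} [Field F] (m : ℕ) (v : Fin m ⊕ Fin m → F) : (∀ c d : F, Cfsg.sympTransvection m v c * Cfsg.sympTransvection m v d = Cfsg.sympTransvection m v (c + d)) ∧ ∀ (A : Matrix (Fin m ⊕ Fin m) (Fin m ⊕ Fin m) F) (a : F), A ∈ Matrix.symplecticGroup (Fin m) F → A.mulVec v = a • v → ∀ c : F, ∃ d : F, A * Cfsg.sympTransvection m v c * A⁻¹ = Cfsg.sympTransvection m v d := by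
  refine ⟨?_, ?_⟩
  · intro c d
    unfold Cfsg.sympTransvection
    have h : Matrix.vecMulVec v (J (Fin m) F *ᵥ v) * Matrix.vecMulVec v (J (Fin m) F *ᵥ v) = 0 := by
      rw [Matrix.vecMulVec_mul_vecMulVec, dotProduct_comm, J_dot_self]
      simp
    generalize Matrix.vecMulVec v (J (Fin m) F *ᵥ v) = N at h
    simp only [add_mul, mul_add, smul_mul_assoc, mul_smul_comm, h, one_mul, mul_one, smul_zero, add_zero, add_smul]
    abel
  · intro A a hA hAv c
    refine ⟨c * a * a, ?_⟩
    have hinv : A * A⁻¹ = 1 := Matrix.mul_nonsing_inv A (SymplecticGroup.symplectic_det hA)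
    have key : (J (Fin m) F *ᵥ v) ᵥ* A⁻¹ = a • (J (Fin m) F *ᵥ v) := by
      rw [SymplecticGroup.inv_eq_symplectic_inv A hA, Matrix.vecMul_mulVec]
      simp only [Matrix.J_transpose, neg_neg, Matrix.neg_mul, Matrix.mul_neg]
      have e : J (Fin m) F * (J (Fin m) F * Aᵀ * J (Fin m) F) = -(Aᵀ * J (Fin m) F) := by
        rw [Matrix.mul_assoc, ← Matrix.mul_assoc (J (Fin m) F) (J (Fin m) F), Matrix.J_squared, Matrix.neg_mul, Matrix.one_mul]
      rw [e, Matrix.vecMul_neg,
        ← Matrix.vecMul_vecMul, Matrix.vecMul_transpose, hAv, Matrix.smul_vecMul,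
        ← Matrix.mulVec_transpose, Matrix.J_transpose, Matrix.neg_mulVec, smul_neg, neg_neg]
    unfold Cfsg.sympTransvection
    rw [Matrix.mul_add, Matrix.add_mul, Matrix.mul_one, hinv, Matrix.mul_smul, Matrix.smul_mul,
      Matrix.mul_vecMulVec, Matrix.vecMulVec_mul, key, hAv]
    rw [Matrix.smul_vecMulVec, Matrix.vecMulVec_smul, smul_smul, smul_smul, mul_assoc]

end Cfsg.Agent.S0767
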