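import Cfsg.Statements.S0768
import Cfsg.Agent.Lib.Helper18.Symp

set_option autoImplicit false
open Cfsg
open scoped LinearAlgebra.Projectivization

namespace Cfsg.Agent.S0768

open Matrix Cfsg.Agent.Lib.Helper18

/-- A product of transvections gives an element of `spGL`. -/
theorem exists_spGL_of_TP {F : Type*} [Field F] (m : ℕ)
    {g : (Fin m ⊕ Fin m → F) →ₗ[F] (Fin m ⊕ Fin m → F)} (hg : g ∈ TP (sympB (F := F) m)) :
    ∃ A : ↥(Cfsg.spGL m F), ∀ v : Fin m ⊕ Fin m → F,
      ((A : Matrix.GeneralLinearGroup (Fin m ⊕ Fin m) F) : Matrix (Fin m ⊕ Fin m) (Fin m ⊕ Fin m) F) *ᵥ v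
        = g v := by
  obtain ⟨g', hg', h1, h2⟩ := TP_inv (sympB_isAlt m) hg
  have e1 : LinearMap.toMatrix' g * LinearMap.toMatrix' g' = 1 := by
    rw [← LinearMap.toMatrix'_mul, h2, LinearMap.toMatrix'_one]
  have e2 : LinearMap.toMatrix' g' * LinearMap.toMatrix' g = 1 := by
    rw [← LinearMap.toMatrix'_mul, h1, LinearMap.toMatrix'_one]
  have hv : ∀ v : Fin m ⊕ Fin m → F, LinearMap.toMatrix' g *ᵥ v = g v := by
    intro v
    rw [← Matrix.toLin'_apply, Matrix.toLin'_toMatrix']
  refine ⟨⟨⟨LinearMap.toMatrix' g, LinearMap.toMatrix' g', e1, e2⟩, ?_⟩, hv⟩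
  intro u v
  show Cfsg.sympForm m F (LinearMap.toMatrix' g *ᵥ u) (LinearMap.toMatrix' g *ᵥ v) = Cfsg.sympForm m F u v
  rw [hv, hv, ← sympB_eq_sympForm, ← sympB_eq_sympForm]
  exact TP_isometry (sympB_isAlt m) hg u v

theorem smul_mk' {F : Type*} [Field F] (m : ℕ) (A : ↥(Cfsg.spGL m F)) (v : Fin m ⊕ Fin m → F)
    (hv : v ≠ 0) (w : Fin m ⊕ Fin m → F) (hw : w ≠ 0)
    (h : ((A : Matrix.GeneralLinearGroup (Fin m ⊕ Fin m) F) : Matrix (Fin m ⊕ Fin m) (Fin m ⊕ Fin m) F) *ᵥ v = w) :
    A • Projectivization.mk F v hv = Projectivization.mk F w hw := by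
  subst h
  rfl

theorem exists_partner {F : Type*} [Field F] (m : ℕ) (u : Fin m ⊕ Fin m → F) (hu : u ≠ 0) :
    ∃ v, sympB m u v = 1 := by
  have hex' : ∃ v', sympB m u v' ≠ 0 := by
    by_contra hcon
    push Not at hcon
    exact hu ((sympB_nondegenerate (F := F) m).1 u hcon)
  obtain ⟨v', hv'⟩ := hex'
  exact ⟨(sympB m u v')⁻¹ • v', by rw [map_smul, smul_eq_mul, inv_mul_cancel₀ hv']⟩

theorem exists_inter {F : Type*} [Field F] (m : ℕ) (u x : Fin m ⊕ Fin m → F) (hu : u ≠ 0) (hx : x ≠ 0) :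
    ∃ y, sympB m u y ≠ 0 ∧ sympB m x y ≠ 0 := by
  obtain ⟨a, ha⟩ := exists_partner m u hu
  obtain ⟨b, hb⟩ := exists_partner m x hx
  by_cases h1 : sympB m x a = 0
  · by_cases h2 : sympB m u b = 0
    · refine ⟨a + b, ?_, ?_⟩
      · rw [map_add, ha, h2, add_zero]; exact one_ne_zero
      · rw [map_add, h1, hb, zero_add]; exact one_ne_zero
    · exact ⟨b, h2, by rw [hb]; exact one_ne_zero⟩
  · exact ⟨a, by rw [ha]; exact one_ne_zero, h1⟩

theorem exists_perp {F : Type*} [Field F] (m : ℕ) (u w : Fin m ⊕ Fin m → F) (hu : u ≠ 0) (hw : w ≠ 0)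
    (hne : Projectivization.mk F u hu ≠ Projectivization.mk F w hw) :
    ∃ y, sympB m u y = 0 ∧ sympB m w y ≠ 0 := by
  by_contra hcon
  push Not at hcon
  obtain ⟨v, hv⟩ := exists_partner m u hu
  have h1 : w = (sympB m w v) • u := by
    rw [← sub_eq_zero]
    apply (sympB_nondegenerate (F := F) m).1
    intro z
    have h2 := hcon (z - (sympB m u z) • v) (by rw [map_sub, map_smul, hv, smul_eq_mul, mul_one, sub_self])
    rw [map_sub, map_smul, smul_eq_mul] at h2
    rw [map_sub, LinearMap.sub_apply, map_smul, LinearMap.smul_apply, smul_eq_mul]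
    linear_combination h2
  obtain ⟨c, hcw⟩ : ∃ c : F, w = c • u := ⟨_, h1⟩
  have hc : c ≠ 0 := by
    rintro rfl
    rw [zero_smul] at hcw
    exact hw hcw
  apply hne
  rw [Projectivization.mk_eq_mk_iff']
  exact ⟨c⁻¹, by rw [hcw, smul_smul, inv_mul_cancel₀ hc, one_smul]⟩

/-- Primitivity: for m ≥ 1 and F finite, the symplectic group of the form sympForm (as a subgroup of the general linear group) acts primitively on the projective space of F^(2m). -/
theorem result {F : Type*} [Field F] [Finite F] (m : ℕ) (hm : 1 ≤ m) : MulAction.IsPreprimitive ↥(Cfsg.spGL m F) (ℙ F (Fin m ⊕ Fin m → F)) := by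
  have halt := sympB_isAlt (F := F) m
  have hpre : MulAction.IsPretransitive ↥(Cfsg.spGL m F) (ℙ F (Fin m ⊕ Fin m → F)) := by
    constructor
    intro p q
    induction p using Projectivization.ind with
    | h u hu =>
    induction q using Projectivization.ind with
    | h u' hu' =>
    obtain ⟨v, hv⟩ := exists_partner m u hu
    obtain ⟨v', hv'⟩ := exists_partner m u' hu'
    obtain ⟨g, hg, hgu⟩ := exists_TP_move halt u v u' v' hv hv'
    obtain ⟨A, hA⟩ := exists_spGL_of_TP m hg
    exact ⟨A, smul_mk' m A u hu u' hu' (by rw [hA, hgu])⟩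
  refine { toIsPretransitive := hpre, isTrivialBlock_of_isBlock := ?_ }
  intro Bk hBk
  rw [MulAction.isBlock_iff_smul_eq_of_mem] at hBk
  have hmove : ∀ (A : ↥(Cfsg.spGL m F)) (p q : ℙ F (Fin m ⊕ Fin m → F)), p ∈ Bk → A • p ∈ Bk → q ∈ Bk →
      A • q ∈ Bk := by
    intro A p q hp hAp hq
    have h1 := hBk hp hAp
    rw [← h1]
    exact Set.smul_mem_smul_set hq
  -- L1
  have L1 : ∀ (u w : Fin m ⊕ Fin m → F) (hu : u ≠ 0) (hw : w ≠ 0),
      Projectivization.mk F u hu ∈ Bk → Projectivization.mk F w hw ∈ Bk → sympB m u w ≠ 0 →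
      ∀ (x : Fin m ⊕ Fin m → F) (hx : x ≠ 0), sympB m u x ≠ 0 → Projectivization.mk F x hx ∈ Bk := by
    intro u w hu hw hpu hpw huw x hx hux
    have h1 : sympB m u ((sympB m u w)⁻¹ • w) = 1 := by
      rw [map_smul, smul_eq_mul, inv_mul_cancel₀ huw]
    have h2 : sympB m u ((sympB m u x)⁻¹ • x) = 1 := by
      rw [map_smul, smul_eq_mul, inv_mul_cancel₀ hux]
    obtain ⟨g, hg, hgu, hgw⟩ := exists_TP_fix_move halt u _ _ h1 h2
    obtain ⟨A, hA⟩ := exists_spGL_of_TP m hg
    have e1 : A • Projectivization.mk F u hu = Projectivization.mk F u hu :=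
      smul_mk' m A u hu u hu (by rw [hA, hgu])
    have hw' : (sympB m u w)⁻¹ • w ≠ 0 := smul_ne_zero (inv_ne_zero huw) hw
    have hx' : (sympB m u x)⁻¹ • x ≠ 0 := smul_ne_zero (inv_ne_zero hux) hx
    have e2 : A • Projectivization.mk F _ hw' = Projectivization.mk F _ hx' :=
      smul_mk' m A _ hw' _ hx' (by rw [hA, hgw])
    have e3 : Projectivization.mk F _ hw' = Projectivization.mk F w hw := by
      rw [Projectivization.mk_eq_mk_iff']
      exact ⟨(sympB m u w)⁻¹, rfl⟩
    have e4 : Projectivization.mk F _ hx' = Projectivization.mk F x hx := by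
      rw [Projectivization.mk_eq_mk_iff']
      exact ⟨(sympB m u x)⁻¹, rfl⟩
    have h3 := hmove A _ _ hpu (by rw [e1]; exact hpu) hpw
    rw [← e3, e2, e4] at h3
    exact h3
  -- claim (a)
  have La : ∀ (u w : Fin m ⊕ Fin m → F) (hu : u ≠ 0) (hw : w ≠ 0),
      Projectivization.mk F u hu ∈ Bk → Projectivization.mk F w hw ∈ Bk → sympB m u w ≠ 0 →
      Bk = Set.univ := by
    intro u w hu hw hpu hpw huw
    rw [Set.eq_univ_iff_forall]
    intro r
    induction r using Projectivization.ind with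
    | h x hx =>
    by_cases hux : sympB m u x = 0
    · obtain ⟨y, hy1, hy2⟩ := exists_inter m u x hu hx
      have hy0 : y ≠ 0 := by
        rintro rfl
        simp at hy1
      have hpy := L1 u w hu hw hpu hpw huw y hy0 hy1
      have hyu : sympB m y u ≠ 0 := by
        rw [← halt.neg_eq u y]
        exact neg_ne_zero.mpr hy1
      have hyx : sympB m y x ≠ 0 := by
        rw [← halt.neg_eq x y]
        exact neg_ne_zero.mpr hy2
      exact L1 y u hy0 hu hpy hpu hyu x hx hyx
    · exact L1 u w hu hw hpu hpw huw x hx hux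
  by_cases hsub : Bk.Subsingleton
  · exact Or.inl hsub
  · right
    rw [Set.not_subsingleton_iff] at hsub
    obtain ⟨p, hp, q, hq, hpq⟩ := hsub
    induction p using Projectivization.ind with
    | h u hu =>
    induction q using Projectivization.ind with
    | h w hw =>
    by_cases huw : sympB m u w = 0
    · obtain ⟨y, hy1, hy2⟩ := exists_perp m u w hu hw hpq
      obtain ⟨A, hA⟩ := exists_spGL_of_TP m (transv_mem (sympB (F := F) m) y (1 : F))
      have e1 : A • Projectivization.mk F u hu = Projectivization.mk F u hu :=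
        smul_mk' m A u hu u hu (by rw [hA, transv_apply, hy1, mul_zero, zero_smul, add_zero])
      have hw2 : sympB m w (transv (sympB m) y 1 w) ≠ 0 := by
        rw [transv_apply, map_add, halt.self_eq_zero w, map_smul, smul_eq_mul, one_mul, zero_add]
        exact mul_ne_zero hy2 hy2
      have hTw : transv (sympB m) y 1 w ≠ 0 := by
        intro h0
        rw [h0] at hw2
        simp at hw2
      have e2 : A • Projectivization.mk F w hw = Projectivization.mk F _ hTw :=
        smul_mk' m A w hw _ hTw (by rw [hA])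
      have h3 := hmove A _ _ hp (by rw [e1]; exact hp) hq
      rw [e2] at h3
      exact La w _ hw hTw hq h3 hw2
    · exact La u w hu hw hp hq huw

end Cfsg.Agent.S0768
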