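import Cfsg.Statements.S0769
import Mathlib

set_option autoImplicit false
open Cfsg

namespace Cfsg.Agent.S0769

open Matrix

/-- Order of the Borel subgroup of GL_n(q): the invertible lower-triangular n × n matrices over a field with q elements number q^(n(n-1)/2) (q-1)^n (unitriangular part times the diagonal torus). -/
theorem result {F : Type*} [Field F] [Fintype F] {q : ℕ} (hF : Fintype.card F = q) (n : ℕ) : Nat.card {g : Matrix.GeneralLinearGroup (Fin n) F // ∀ i j : Fin n, i < j → (g : Matrix (Fin n) (Fin n) F) i j = 0} = q ^ (n * (n - 1) / 2) * (q - 1) ^ n := by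
  classical
  let P : Fin n → Fin n → F → Prop := fun i j x => (i < j → x = 0) ∧ (i = j → x ≠ 0)
  let R : Set (Matrix (Fin n) (Fin n) F) := {M | ∀ i j, P i j (M i j)}
  let ψ : {g : Matrix.GeneralLinearGroup (Fin n) F // ∀ i j : Fin n, i < j → (g : Matrix (Fin n) (Fin n) F) i j = 0} →
      Matrix (Fin n) (Fin n) F := fun g => (g.1 : Matrix (Fin n) (Fin n) F)
  have hψinj : Function.Injective ψ := fun g g' h => Subtype.ext (Units.ext h)
  have hrange : Set.range ψ = R := by
    ext M
    constructor
    · rintro ⟨⟨g, hg⟩, rfl⟩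
      intro i j
      refine ⟨hg i j, ?_⟩
      rintro rfl
      have hdet : (g : Matrix (Fin n) (Fin n) F).det ≠ 0 := (Matrix.GeneralLinearGroup.det g).ne_zero
      rw [Matrix.det_of_isLowerTriangular _ (fun a b hab => hg a b hab)] at hdet
      exact fun h0 => hdet (Finset.prod_eq_zero (Finset.mem_univ i) h0)
    · intro hM
      have hdet : M.det ≠ 0 := by
        rw [Matrix.det_of_isLowerTriangular _ (fun a b hab => (hM a b).1 hab)]
        exact Finset.prod_ne_zero_iff.mpr (fun i _ => (hM i i).2 rfl)
      exact ⟨⟨Matrix.GeneralLinearGroup.mkOfDetNeZero M hdet, fun i j hij => (hM i j).1 hij⟩, rfl⟩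
  have hcard1 : Nat.card R = ∏ i : Fin n, ∏ j : Fin n, Nat.card {x : F // P i j x} := by
    have e : R ≃ ∀ i : Fin n, ∀ j : Fin n, {x : F // P i j x} :=
      (Equiv.subtypePiEquivPi (β := fun _ : Fin n => Fin n → F)
        (p := fun i row => ∀ j, P i j (row j))).trans
        (Equiv.piCongrRight fun i => Equiv.subtypePiEquivPi (β := fun _ : Fin n => F)
          (p := fun j x => P i j x))
    rw [Nat.card_congr e, Nat.card_pi]
    simp only [Nat.card_pi]
  have hc : ∀ i j : Fin n, Nat.card {x : F // P i j x} =
      if j < i then q else if j = i then q - 1 else 1 := by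
    intro i j
    by_cases h1 : j < i
    · rw [if_pos h1]
      have hall : ∀ x : F, P i j x :=
        fun x => ⟨fun h => absurd h (not_lt.mpr h1.le), fun h => absurd h (ne_of_gt h1)⟩
      rw [Nat.card_congr (Equiv.subtypeUnivEquiv hall), Nat.card_eq_fintype_card, hF]
    · rw [if_neg h1]
      by_cases h2 : j = i
      · subst h2
        rw [if_pos rfl]
        have e : {x : F // P j j x} ≃ Fˣ :=
          (Equiv.subtypeEquivRight (fun x => ⟨fun h => h.2 rfl, fun h => ⟨fun h' => absurd h' (lt_irrefl j), fun _ => h⟩⟩)).trans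
            unitsEquivNeZero.symm
        rw [Nat.card_congr e, Nat.card_units, Nat.card_eq_fintype_card, hF]
      · rw [if_neg h2]
        have hij : i < j := lt_of_le_of_ne (not_lt.mp h1) (Ne.symm h2)
        have hu : ∀ x : {x : F // P i j x}, x = ⟨0, ⟨fun _ => rfl, fun h => absurd h (ne_of_lt hij)⟩⟩ := by
          rintro ⟨x, hx⟩
          exact Subtype.ext (hx.1 hij)
        have : Unique {x : F // P i j x} := ⟨⟨⟨0, ⟨fun _ => rfl, fun h => absurd h (ne_of_lt hij)⟩⟩⟩, hu⟩
        exact Nat.card_unique
  have hprod : ∀ i : Fin n, ∏ j : Fin n, (if j < i then q else if j = i then q - 1 else 1) =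
      q ^ (i : ℕ) * (q - 1) := by
    intro i
    rw [Finset.prod_ite, Finset.prod_const, Finset.prod_ite_eq', Finset.filter_gt_eq_Iio, Fin.card_Iio]
    simp
  calc Nat.card {g : Matrix.GeneralLinearGroup (Fin n) F // ∀ i j : Fin n, i < j → (g : Matrix (Fin n) (Fin n) F) i j = 0}
      = Nat.card (Set.range ψ) := (Nat.card_range_of_injective hψinj).symm
    _ = Nat.card R := by rw [hrange]
    _ = ∏ i : Fin n, (q ^ (i : ℕ) * (q - 1)) := by
        rw [hcard1]
        apply Finset.prod_congr rfl
        intro i _
        simp only [hc]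
        exact hprod i
    _ = q ^ (n * (n - 1) / 2) * (q - 1) ^ n := by
        rw [Finset.prod_mul_distrib, Finset.prod_const, Finset.prod_pow_eq_pow_sum, Finset.card_univ,
          Fintype.card_fin, Fin.sum_univ_eq_sum_range (fun i => i) n, Finset.sum_range_id]

end Cfsg.Agent.S0769
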