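import Cfsg.Statements.S0770
import Mathlib

set_option autoImplicit false
open Cfsg

namespace Cfsg.Agent.S0770

open Matrix

theorem mem_D_iff {F : Type*} [Field F] {n : ℕ} (h : Matrix.GeneralLinearGroup (Fin n) F) :
    h ∈ (Units.map (Matrix.diagonalRingHom (Fin n) F).toMonoidHom).range ↔
      ∀ i j, i ≠ j → (h : Matrix (Fin n) (Fin n) F) i j = 0 := by
  constructor
  · rintro ⟨d, rfl⟩ i j hij
    show Matrix.diagonal (d : Fin n → F) i j = 0
    exact Matrix.diagonal_apply_ne _ hij
  · intro hd
    have hval : (h : Matrix (Fin n) (Fin n) F) = Matrix.diagonal (fun i => (h : Matrix _ _ F) i i) := by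
      ext i j
      by_cases hij : i = j
      · subst hij; simp
      · simp [hij, hd i j hij]
    have h1 : ∀ i, (h : Matrix (Fin n) (Fin n) F) i i * ((h⁻¹ : Matrix.GeneralLinearGroup (Fin n) F) : Matrix (Fin n) (Fin n) F) i i = 1 := by
      intro i
      have e : (h : Matrix (Fin n) (Fin n) F) * ((h⁻¹ : Matrix.GeneralLinearGroup (Fin n) F) : Matrix (Fin n) (Fin n) F) = 1 := by
        rw [← Units.val_mul, mul_inv_cancel, Units.val_one]
      have e' := congrFun (congrFun e i) i
      rw [Matrix.mul_apply, Matrix.one_apply_eq, Finset.sum_eq_single i] at e'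
      · exact e'
      · intro b _ hb
        rw [hd i b (Ne.symm hb), zero_mul]
      · simp
    refine ⟨⟨fun i => (h : Matrix _ _ F) i i, fun i => ((h⁻¹ : Matrix.GeneralLinearGroup (Fin n) F) : Matrix (Fin n) (Fin n) F) i i, ?_, ?_⟩, ?_⟩
    · funext i
      exact h1 i
    · funext i
      rw [Pi.mul_apply, mul_comm]
      exact h1 i
    · apply Units.ext
      refine Eq.trans ?_ hval.symm
      rfl

/-- For a field with at least 3 elements, an invertible matrix normalises the subgroup of invertible diagonal matrices of GL_n if and only if it is monomial (exactly one non-zero entry in each row). -/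
theorem result {F : Type*} [Field F] (hF : ∃ a : F, a ≠ 0 ∧ a ≠ 1) (n : ℕ) (g : Matrix.GeneralLinearGroup (Fin n) F) : g ∈ Subgroup.normalizer ((Units.map (Matrix.diagonalRingHom (Fin n) F).toMonoidHom).range : Subgroup (Matrix.GeneralLinearGroup (Fin n) F)) ↔ ∀ i : Fin n, ∃! j : Fin n, (g : Matrix (Fin n) (Fin n) F) i j ≠ 0 := by
  obtain ⟨a, ha0, ha1⟩ := hF
  rw [Subgroup.mem_normalizer_iff]
  set G : Matrix (Fin n) (Fin n) F := (g : Matrix (Fin n) (Fin n) F) with hG
  set Gi : Matrix (Fin n) (Fin n) F := ((g⁻¹ : Matrix.GeneralLinearGroup (Fin n) F) : Matrix (Fin n) (Fin n) F) with hGi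
  have hGGi : G * Gi = 1 := by rw [hG, hGi, ← Units.val_mul, mul_inv_cancel, Units.val_one]
  have hGiG : Gi * G = 1 := by rw [hG, hGi, ← Units.val_mul, inv_mul_cancel, Units.val_one]
  have hrow : ∀ i, ∃ j, G i j ≠ 0 := by
    intro i
    by_contra hcon
    push Not at hcon
    have e := congrFun (congrFun hGGi i) i
    rw [Matrix.mul_apply, Matrix.one_apply_eq] at e
    simp [hcon] at e
  have hcol : ∀ j, ∃ i, G i j ≠ 0 := by
    intro j
    by_contra hcon
    push Not at hcon
    have e := congrFun (congrFun hGiG j) j
    rw [Matrix.mul_apply, Matrix.one_apply_eq] at e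
    simp [hcon] at e
  have hconj : ∀ h : Matrix.GeneralLinearGroup (Fin n) F,
      ((g * h * g⁻¹ : Matrix.GeneralLinearGroup (Fin n) F) : Matrix (Fin n) (Fin n) F) = G * (h : Matrix (Fin n) (Fin n) F) * Gi := by
    intro h
    rw [Units.val_mul, Units.val_mul]
  constructor
  · intro hnorm i
    obtain ⟨j, hj⟩ := hrow i
    refine ⟨j, hj, ?_⟩
    intro k hk
    by_contra hkj
    let dv : Fin n → F := Function.update 1 j a
    let du : (Fin n → F)ˣ := ⟨dv, Function.update 1 j a⁻¹, by
      funext l
      by_cases hl : l = j
      · subst hl; simp [dv, mul_inv_cancel₀ ha0]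
      · simp [dv, Function.update_of_ne hl], by
      funext l
      by_cases hl : l = j
      · subst hl; simp [dv, inv_mul_cancel₀ ha0]
      · simp [dv, Function.update_of_ne hl]⟩
    let h : Matrix.GeneralLinearGroup (Fin n) F := Units.map (Matrix.diagonalRingHom (Fin n) F).toMonoidHom du
    have hh : h ∈ (Units.map (Matrix.diagonalRingHom (Fin n) F).toMonoidHom).range := ⟨du, rfl⟩
    have hm := (hnorm h).1 hh
    rw [mem_D_iff, hconj] at hm
    have hhval : (h : Matrix (Fin n) (Fin n) F) = Matrix.diagonal dv := rfl
    rw [hhval] at hm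
    set M : Matrix (Fin n) (Fin n) F := G * Matrix.diagonal dv * Gi with hM
    have hMG : M * G = G * Matrix.diagonal dv := by
      rw [hM, Matrix.mul_assoc, hGiG, Matrix.mul_one]
    have e1 := congrFun (congrFun hMG i) j
    have e2 := congrFun (congrFun hMG i) k
    rw [Matrix.mul_diagonal, Matrix.mul_apply, Finset.sum_eq_single i] at e1 e2
    · have hdj : dv j = a := by simp [dv]
      have hdk : dv k = 1 := by simp [dv, Function.update_of_ne hkj]
      rw [hdj] at e1
      rw [hdk, mul_one] at e2
      have h1 : M i i = a := by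
        have : (M i i - a) * G i j = 0 := by linear_combination e1
        rcases mul_eq_zero.mp this with h | h
        · linear_combination h
        · exact absurd h hj
      have h2 : M i i = 1 := by
        have : (M i i - 1) * G i k = 0 := by linear_combination e2
        rcases mul_eq_zero.mp this with h | h
        · linear_combination h
        · exact absurd h hk
      exact ha1 (h1.symm.trans h2)
    · intro b _ hb
      rw [hm i b (Ne.symm hb), zero_mul]
    · simp
    · intro b _ hb
      rw [hm i b (Ne.symm hb), zero_mul]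
    · simp
  · intro hmono h
    rw [mem_D_iff, mem_D_iff, hconj]
    set H : Matrix (Fin n) (Fin n) F := (h : Matrix (Fin n) (Fin n) F) with hH
    constructor
    · intro hdiag i k hik
      choose σ hσ using hmono
      have hGH : G * H = Matrix.diagonal (fun i => H (σ i) (σ i)) * G := by
        ext i l
        rw [Matrix.diagonal_mul, Matrix.mul_apply]
        by_cases hl : l = σ i
        · subst hl
          rw [Finset.sum_eq_single (σ i)]
          · ring
          · intro b _ hb
            rw [hdiag b (σ i) hb, mul_zero]
          · simp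
        · have hGil : G i l = 0 := by
            by_contra hne
            exact hl ((hσ i).2 l hne)
          rw [hGil, mul_zero]
          apply Finset.sum_eq_zero
          intro x _
          by_cases hx : x = l
          · subst hx; rw [hGil, zero_mul]
          · rw [hdiag x l hx, mul_zero]
      rw [hGH, Matrix.mul_assoc, hGGi, Matrix.mul_one, Matrix.diagonal_apply_ne _ hik]
    · intro hdiag j k hjk
      obtain ⟨i, hi⟩ := hcol j
      have huniq : ∀ l, l ≠ j → G i l = 0 := by
        intro l hl
        by_contra hne
        obtain ⟨j', -, hj'⟩ := hmono i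
        exact hl ((hj' l hne).trans (hj' j hi).symm)
      set M : Matrix (Fin n) (Fin n) F := G * H * Gi with hM
      have hMG : M * G = G * H := by
        rw [hM, Matrix.mul_assoc, hGiG, Matrix.mul_one]
      have e := congrFun (congrFun hMG i) k
      rw [Matrix.mul_apply, Matrix.mul_apply, Finset.sum_eq_single i, Finset.sum_eq_single j] at e
      · rw [huniq k (Ne.symm hjk), mul_zero] at e
        exact (mul_eq_zero.mp e.symm).resolve_left hi
      · intro b _ hb
        rw [huniq b hb, zero_mul]
      · simp
      · intro b _ hb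
        rw [hdiag i b (Ne.symm hb), zero_mul]
      · simp

end Cfsg.Agent.S0770
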