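import Cfsg.Statements.S0771
import Cfsg.Agent.Lib.Helper18.Parabolic

set_option autoImplicit false
open Cfsg

namespace Cfsg.Agent.S0771

open Matrix Cfsg.Agent.Lib.Helper18

/-- Maximal parabolic of GL_n(q): the stabiliser of the coordinate subspace spanned by the first k basis vectors has order q^(k(n-k)) · |GL_k(q)| · |GL_(n-k)(q)| (unipotent radical of order q^(k(n-k)) and Levi complement GL_k × GL_(n-k)). -/
theorem result {F : Type*} [Field F] [Fintype F] {q : ℕ} (hF : Fintype.card F = q) (n k : ℕ) (hk : k ≤ n) : Nat.card ↥(Cfsg.stabilizing (Cfsg.glToMat (Fin n) F) {v : Fin n → F | ∀ i : Fin n, k ≤ (i : ℕ) → v i = 0}) = q ^ (k * (n - k)) * (∏ i : Fin k, (q ^ k - q ^ (i : ℕ))) * ∏ i : Fin (n - k), (q ^ (n - k) - q ^ (i : ℕ)) := by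
  classical
  set S := Cfsg.stabilizing (Cfsg.glToMat (Fin n) F) {v : Fin n → F | ∀ i : Fin n, k ≤ (i : ℕ) → v i = 0} with hS
  let e := blockEquiv n k hk
  let φ : GL (Fin k) F × GL (Fin (n - k)) F × Matrix (Fin k) (Fin (n - k)) F → Matrix (Fin n) (Fin n) F :=
    fun x => Matrix.reindex e e (Matrix.fromBlocks (x.1 : Matrix (Fin k) (Fin k) F) x.2.2 0 (x.2.1 : Matrix (Fin (n - k)) (Fin (n - k)) F))
  have hφinj : Function.Injective φ := by
    rintro ⟨a, d, b⟩ ⟨a', d', b'⟩ h
    have h1 := (Matrix.reindex e e).injective h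
    rw [Matrix.fromBlocks_inj] at h1
    obtain ⟨h2, h3, -, h4⟩ := h1
    simp only [Prod.mk.injEq]
    exact ⟨Units.ext h2, Units.ext h4, h3⟩
  let ψ : ↥S → Matrix (Fin n) (Fin n) F := fun g => ((g : GL (Fin n) F) : Matrix (Fin n) (Fin n) F)
  have hψinj : Function.Injective ψ := by
    intro g g' h
    exact Subtype.ext (Units.ext h)
  have hrange : Set.range ψ = Set.range φ := by
    ext M
    constructor
    · rintro ⟨⟨g, hg⟩, rfl⟩
      rw [hS, mem_stab_iff, but_iff_toBlocks n k hk] at hg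
      set M' := (g : Matrix (Fin n) (Fin n) F).submatrix e e with hM'
      have hM'eq : M' = Matrix.fromBlocks M'.toBlocks₁₁ M'.toBlocks₁₂ 0 M'.toBlocks₂₂ := by
        conv_lhs => rw [← Matrix.fromBlocks_toBlocks M']
        rw [hg]
      have hdet : M'.det ≠ 0 := by
        rw [hM', Matrix.det_submatrix_equiv_self]
        exact (Matrix.GeneralLinearGroup.det g).ne_zero
      rw [hM'eq, Matrix.det_fromBlocks_zero₂₁] at hdet
      have hdA : M'.toBlocks₁₁.det ≠ 0 := left_ne_zero_of_mul hdet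
      have hdD : M'.toBlocks₂₂.det ≠ 0 := right_ne_zero_of_mul hdet
      refine ⟨(GeneralLinearGroup.mkOfDetNeZero _ hdA, GeneralLinearGroup.mkOfDetNeZero _ hdD, M'.toBlocks₁₂), ?_⟩
      show Matrix.reindex e e (Matrix.fromBlocks M'.toBlocks₁₁ M'.toBlocks₁₂ 0 M'.toBlocks₂₂) = (g : Matrix (Fin n) (Fin n) F)
      rw [← hM'eq, hM']
      ext i j
      simp
    · rintro ⟨⟨a, d, b⟩, rfl⟩
      have hdet : (φ (a, d, b)).det ≠ 0 := by
        simp only [φ]
        rw [Matrix.det_reindex_self, Matrix.det_fromBlocks_zero₂₁]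
        exact mul_ne_zero (Matrix.GeneralLinearGroup.det a).ne_zero (Matrix.GeneralLinearGroup.det d).ne_zero
      refine ⟨⟨GeneralLinearGroup.mkOfDetNeZero _ hdet, ?_⟩, rfl⟩
      rw [hS, mem_stab_iff, but_iff_toBlocks n k hk]
      show ((φ (a, d, b)).submatrix e e).toBlocks₂₁ = 0
      ext i j
      simp [φ, Matrix.toBlocks₂₁]
  calc Nat.card ↥S = Nat.card (Set.range ψ) := (Nat.card_range_of_injective hψinj).symm
    _ = Nat.card (Set.range φ) := by rw [hrange]
    _ = Nat.card (GL (Fin k) F × GL (Fin (n - k)) F × Matrix (Fin k) (Fin (n - k)) F) :=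
        Nat.card_range_of_injective hφinj
    _ = _ := by
      have h1 : Nat.card (Matrix (Fin k) (Fin (n - k)) F) = q ^ (k * (n - k)) := by
        show Nat.card (Fin k → Fin (n - k) → F) = _
        rw [Nat.card_fun, Nat.card_fun, Nat.card_eq_fintype_card (α := F), hF, Nat.card_fin,
          Nat.card_fin, ← pow_mul, mul_comm]
      rw [Nat.card_prod, Nat.card_prod, Matrix.card_GL_field, Matrix.card_GL_field, hF, h1]
      ring

end Cfsg.Agent.S0771
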