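import Cfsg.Statements.S0772
import Mathlib
import Cfsg.Agent.Lib.Helper18.Parabolic

set_option autoImplicit false
open Cfsg

namespace Cfsg.Agent.S0772

open Matrix Cfsg.Agent.Lib.Helper18

variable {F : Type*} [Field F] {n : ℕ}

private def InH (H : Subgroup (GL (Fin n) F)) (M : Matrix (Fin n) (Fin n) F) : Prop :=
  ∃ g : GL (Fin n) F, g ∈ H ∧ (g : Matrix (Fin n) (Fin n) F) = M

private theorem InH.mul {H : Subgroup (GL (Fin n) F)} {M N : Matrix (Fin n) (Fin n) F}
    (hM : InH H M) (hN : InH H N) : InH H (M * N) := by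
  obtain ⟨g, hg, rfl⟩ := hM
  obtain ⟨g', hg', rfl⟩ := hN
  exact ⟨g * g', H.mul_mem hg hg', rfl⟩

private theorem InH.one (H : Subgroup (GL (Fin n) F)) : InH H 1 := ⟨1, H.one_mem, rfl⟩

private theorem InH.conj {H : Subgroup (GL (Fin n) F)} {M M' : Matrix (Fin n) (Fin n) F}
    (hM : InH H M) (p : GL (Fin n) F) (hp : p ∈ H)
    (h : (p : Matrix (Fin n) (Fin n) F) * M = M' * (p : Matrix (Fin n) (Fin n) F)) :
    InH H M' := by
  obtain ⟨g, hg, rfl⟩ := hM
  refine ⟨p * g * p⁻¹, H.mul_mem (H.mul_mem hp hg) (H.inv_mem hp), ?_⟩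
  rw [Units.val_mul, Units.val_mul, h, Matrix.mul_assoc, ← Units.val_mul, mul_inv_cancel,
    Units.val_one, Matrix.mul_one]

private theorem InH.conj_inv {H : Subgroup (GL (Fin n) F)} {M M' : Matrix (Fin n) (Fin n) F}
    (hM : InH H M) (p : GL (Fin n) F) (hp : p ∈ H)
    (h : M * (p : Matrix (Fin n) (Fin n) F) = (p : Matrix (Fin n) (Fin n) F) * M') :
    InH H M' := by
  obtain ⟨g, hg, rfl⟩ := hM
  refine ⟨p⁻¹ * g * p, H.mul_mem (H.mul_mem (H.inv_mem hp) hg) hp, ?_⟩
  rw [Units.val_mul, Units.val_mul, Matrix.mul_assoc, h, ← Matrix.mul_assoc, ← Units.val_mul,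
    inv_mul_cancel, Units.val_one, Matrix.one_mul]

private theorem InH.conj' {H : Subgroup (GL (Fin n) F)} {M M' P : Matrix (Fin n) (Fin n) F}
    (hM : InH H M) (hP : InH H P) (h : P * M = M' * P) : InH H M' := by
  obtain ⟨p, hp, rfl⟩ := hP
  exact hM.conj p hp h

private theorem InH.conj_inv' {H : Subgroup (GL (Fin n) F)} {M M' P : Matrix (Fin n) (Fin n) F}
    (hM : InH H M) (hP : InH H P) (h : M * P = P * M') : InH H M' := by
  obtain ⟨p, hp, rfl⟩ := hP
  exact hM.conj_inv p hp h

private abbrev Pk (F : Type*) [Field F] (n k : ℕ) : Subgroup (GL (Fin n) F) :=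
  Cfsg.stabilizing (Cfsg.glToMat (Fin n) F) {v : Fin n → F | ∀ i : Fin n, k ≤ (i : ℕ) → v i = 0}

private theorem InH.of_but {H : Subgroup (GL (Fin n) F)} {k : ℕ} (hPH : Pk F n k ≤ H)
    (M : Matrix (Fin n) (Fin n) F) (hdet : M.det ≠ 0)
    (hM : ∀ i j : Fin n, k ≤ (i : ℕ) → (j : ℕ) < k → M i j = 0) : InH H M :=
  ⟨Matrix.GeneralLinearGroup.mkOfDetNeZero M hdet, hPH ((mem_stab_iff n k _).mpr hM), rfl⟩

private theorem conj_eq (M : Matrix (Fin n) (Fin n) F) (u φ x φ' : Fin n → F)
    (h1 : M *ᵥ x = u) (h2 : φ ᵥ* M = φ') :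
    (1 + vecMulVec u φ) * M = M * (1 + vecMulVec x φ') := by
  rw [Matrix.add_mul, Matrix.mul_add, Matrix.one_mul, Matrix.mul_one, Matrix.vecMulVec_mul,
    Matrix.mul_vecMulVec, h1, h2]

private theorem stepA {H : Subgroup (GL (Fin n) F)} {k : ℕ} (hPH : Pk F n k ≤ H)
    (h : GL (Fin n) F) (hH : h ∈ H) (hP : h ∉ Pk F n k) :
    ∃ (a j : Fin n) (u φ : Fin n → F), k ≤ (a : ℕ) ∧ (j : ℕ) < k ∧ u a ≠ 0 ∧ φ j ≠ 0 ∧
      φ ⬝ᵥ u = 0 ∧ InH H (1 + vecMulVec u φ) := by
  classical
  rw [mem_stab_iff] at hP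
  push Not at hP
  obtain ⟨a, b, ha, hb, hab⟩ := hP
  set hm : Matrix (Fin n) (Fin n) F := (h : Matrix (Fin n) (Fin n) F) with hhm
  set hi : Matrix (Fin n) (Fin n) F := ((h⁻¹ : GL (Fin n) F) : Matrix (Fin n) (Fin n) F) with hhi
  have e1 : hm * hi = 1 := by rw [hhm, hhi, ← Units.val_mul, mul_inv_cancel]; rfl
  have e2 : hi * hm = 1 := by rw [hhm, hhi, ← Units.val_mul, inv_mul_cancel]; rfl
  have hne : a ≠ b := by intro h; rw [h] at ha; omega
  have hc : ∃ c, c ≠ b ∧ hi c b ≠ 0 := by
    by_contra hcon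
    push Not at hcon
    have h1 : (hm * hi) a b = hm a b * hi b b := by
      rw [Matrix.mul_apply, Finset.sum_eq_single b]
      · intro c _ hcb; rw [hcon c hcb, mul_zero]
      · intro h; exact absurd (Finset.mem_univ _) h
    rw [e1, Matrix.one_apply_ne hne] at h1
    have h2 : hi b b = 0 := by
      rcases mul_eq_zero.mp h1.symm with h3 | h3
      · exact absurd h3 hab
      · exact h3
    have h3 : (hm * hi) b b = 0 := by
      rw [Matrix.mul_apply]
      apply Finset.sum_eq_zero
      intro c _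
      by_cases hcb : c = b
      · rw [hcb, h2, mul_zero]
      · rw [hcon c hcb, mul_zero]
    rw [e1, Matrix.one_apply_eq] at h3
    exact one_ne_zero h3
  obtain ⟨c, hcb, hcne⟩ := hc
  refine ⟨a, b, fun r => hm r b, fun s => hi c s, ha, hb, hab, hcne, ?_, ?_⟩
  · have : (hi * hm) c b = 0 := by rw [e2, Matrix.one_apply_ne hcb]
    rw [Matrix.mul_apply] at this
    exact this
  · have hτ : InH H (Matrix.transvection b c (1 : F)) := by
      apply InH.of_but hPH
      · rw [Matrix.det_transvection_of_ne _ _ hcb.symm]; exact one_ne_zero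
      · intro i j hi' hj'
        have hib : b ≠ i := by intro h; rw [← h] at hi'; omega
        have hij : i ≠ j := by intro h; rw [h] at hi'; omega
        simp [Matrix.transvection, Matrix.one_apply_ne hij, Matrix.single_apply, hib]
    refine hτ.conj h hH ?_
    have hφ : (fun s => hi c s) ᵥ* hm = Pi.single c 1 := by
      funext s
      have : (hi * hm) c s = (1 : Matrix (Fin n) (Fin n) F) c s := by rw [e2]
      rw [Matrix.mul_apply] at this
      simp only [Matrix.vecMul, dotProduct]
      rw [this, Matrix.one_apply, Pi.single_apply]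
      simp [eq_comm]
    rw [Matrix.transvection, Matrix.mul_add, Matrix.add_mul, Matrix.mul_one, Matrix.one_mul,
      Matrix.vecMulVec_mul, hφ]
    congr 1
    ext r s
    rw [Matrix.vecMulVec_apply, Matrix.mul_apply]
    by_cases hcs : c = s
    · subst hcs
      simp [Matrix.single_apply, Pi.single_apply, hhm]
    · have hsc : s ≠ c := fun h => hcs h.symm
      simp [Matrix.single_apply, Pi.single_apply, hcs, hsc]

private theorem stepB {H : Subgroup (GL (Fin n) F)} {k : ℕ} (hPH : Pk F n k ≤ H)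
    (a j : Fin n) (u φ : Fin n → F) (ha : k ≤ (a : ℕ)) (hj : (j : ℕ) < k) (hua : u a ≠ 0)
    (hφj : φ j ≠ 0) (hφu : φ ⬝ᵥ u = 0) (hin : InH H (1 + vecMulVec u φ)) :
    ∃ φ' : Fin n → F, φ' a = 0 ∧ φ' j ≠ 0 ∧ InH H (1 + vecMulVec (Pi.single a 1) φ') := by
  classical
  set Mu : Matrix (Fin n) (Fin n) F := 1 + vecMulVec (u - Pi.single a 1) (Pi.single a 1) with hMu
  have hja : j ≠ a := by intro h; rw [h] at hj; omega
  have hdet : Mu.det = u a := by
    rw [hMu, Matrix.vecMulVec_eq Unit, Matrix.det_one_add_replicateCol_mul_replicateRow]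
    simp
  have hMuin : InH H Mu := by
    apply InH.of_but hPH
    · rw [hdet]; exact hua
    · intro r s hr hs
      have hrs : r ≠ s := by intro h; rw [h] at hr; omega
      have hsa : s ≠ a := by intro h; rw [h] at hs; omega
      simp [hMu, Matrix.one_apply_ne hrs, Matrix.vecMulVec_apply, Pi.single_apply, hsa]
  have hφ' : ∀ s, (φ ᵥ* Mu) s = φ s - φ a * (Pi.single a (1 : F) : Fin n → F) s := by
    intro s
    rw [hMu, Matrix.vecMul_add, Matrix.vecMul_one, Matrix.vecMul_vecMulVec, dotProduct_sub, hφu]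
    simp
    ring
  refine ⟨φ ᵥ* Mu, ?_, ?_, ?_⟩
  · rw [hφ']; simp
  · rw [hφ']; simp [Pi.single_apply, hja, hφj]
  · refine hin.conj_inv' hMuin ?_
    have hMua : Mu *ᵥ (Pi.single a 1) = u := by
      rw [hMu, Matrix.add_mulVec, Matrix.one_mulVec, Matrix.vecMulVec_mulVec]
      simp
    exact conj_eq Mu u φ (Pi.single a 1) (φ ᵥ* Mu) hMua rfl

private theorem stepC {H : Subgroup (GL (Fin n) F)} {k : ℕ} (hPH : Pk F n k ≤ H)
    (a j : Fin n) (φ' : Fin n → F) (ha : k ≤ (a : ℕ)) (hj : (j : ℕ) < k) (h0 : φ' a = 0)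
    (hj0 : φ' j ≠ 0) (hin : InH H (1 + vecMulVec (Pi.single a 1) φ')) (c : F) (hc : c ≠ 0) :
    InH H (1 + vecMulVec (Pi.single a 1) (c • Pi.single j 1)) := by
  classical
  set ρ : Fin n → F := c⁻¹ • φ' with hρ
  set R : Matrix (Fin n) (Fin n) F := 1 + vecMulVec (Pi.single j 1) (ρ - Pi.single j 1) with hR
  have hja : j ≠ a := by intro h; rw [h] at hj; omega
  have hdet : R.det = ρ j := by
    rw [hR, Matrix.vecMulVec_eq Unit, Matrix.det_one_add_replicateCol_mul_replicateRow]
    simp
  have hRin : InH H R := by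
    apply InH.of_but hPH
    · rw [hdet, hρ]
      simp [hc, hj0]
    · intro r s hr hs
      have hrs : r ≠ s := by intro h; rw [h] at hr; omega
      have hrj : r ≠ j := by intro h; rw [h] at hr; omega
      simp [hR, Matrix.one_apply_ne hrs, Matrix.vecMulVec_apply, Pi.single_apply, hrj]
  refine hin.conj' hRin ?_
  have hRa : R *ᵥ (Pi.single a 1) = Pi.single a 1 := by
    rw [hR, Matrix.add_mulVec, Matrix.one_mulVec, Matrix.vecMulVec_mulVec]
    simp [hρ, h0, Pi.single_apply, hja.symm, hja]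
  have hRj : (c • (Pi.single j 1 : Fin n → F)) ᵥ* R = φ' := by
    rw [hR, Matrix.vecMul_add, Matrix.vecMul_one, Matrix.vecMul_vecMulVec]
    funext s
    simp [hρ]
    field_simp
    ring
  exact (conj_eq R (Pi.single a 1) (c • Pi.single j 1) (Pi.single a 1) φ' hRa hRj).symm

private theorem perm_mul_inv (σ : Equiv.Perm (Fin n)) :
    (σ.toPEquiv.toMatrix : Matrix (Fin n) (Fin n) F) * σ.symm.toPEquiv.toMatrix = 1 := by
  rw [PEquiv.toMatrix_toPEquiv_mul]
  ext r s
  simp [PEquiv.toMatrix_apply, Matrix.one_apply]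

private theorem InH_perm {H : Subgroup (GL (Fin n) F)} {k : ℕ} (hPH : Pk F n k ≤ H)
    (σ : Equiv.Perm (Fin n)) (hσ : ∀ r : Fin n, k ≤ (r : ℕ) → k ≤ (σ r : ℕ)) :
    InH H (σ.toPEquiv.toMatrix : Matrix (Fin n) (Fin n) F) := by
  classical
  apply InH.of_but hPH
  · intro h0
    have := congrArg Matrix.det (perm_mul_inv (F := F) σ)
    rw [Matrix.det_mul, h0, zero_mul, Matrix.det_one] at this
    exact zero_ne_one this
  · intro r s hr hs
    have h1 := hσ r hr
    have hne : σ r ≠ s := by intro h; rw [h] at h1; omega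
    simp [PEquiv.toMatrix_apply, hne]

private theorem single_comp_perm (σ : Equiv.Perm (Fin n)) (z : Fin n) :
    (Pi.single z (1 : F) : Fin n → F) ∘ σ = Pi.single (σ.symm z) 1 := by
  funext r
  simp [Pi.single_apply, Equiv.eq_symm_apply]

private theorem stepD {H : Subgroup (GL (Fin n) F)} (σ : Equiv.Perm (Fin n))
    (hσ : InH H (σ.toPEquiv.toMatrix : Matrix (Fin n) (Fin n) F)) (x y : Fin n) (c : F)
    (hin : InH H (1 + vecMulVec (Pi.single x 1) (c • Pi.single y 1))) :
    InH H (1 + vecMulVec (Pi.single (σ.symm x) 1) (c • Pi.single (σ.symm y) 1)) := by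
  classical
  refine hin.conj' hσ ?_
  rw [Matrix.add_mul, Matrix.mul_add, Matrix.one_mul, Matrix.mul_one, Matrix.vecMulVec_mul,
    Matrix.mul_vecMulVec, PEquiv.toMatrix_toPEquiv_mulVec, Matrix.smul_vecMul,
    PEquiv.vecMul_toMatrix_toPEquiv, single_comp_perm, single_comp_perm]
  simp

theorem result {F : Type*} [Field F] [Finite F] (n k : ℕ) (hk0 : 0 < k) (hkn : k < n) : IsCoatom (Cfsg.stabilizing (Cfsg.glToMat (Fin n) F) {v : Fin n → F | ∀ i : Fin n, k ≤ (i : ℕ) → v i = 0}) := by
  classical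
  constructor
  · intro htop
    have hne : (⟨k, hkn⟩ : Fin n) ≠ ⟨0, by omega⟩ := by
      intro h
      have := congrArg Fin.val h
      simp at this
      omega
    have hmem : Matrix.GeneralLinearGroup.mkOfDetNeZero
        (Matrix.transvection (⟨k, hkn⟩ : Fin n) ⟨0, by omega⟩ (1 : F))
        (by rw [Matrix.det_transvection_of_ne _ _ hne]; exact one_ne_zero) ∈
        (⊤ : Subgroup (GL (Fin n) F)) := Subgroup.mem_top _
    rw [← htop, mem_stab_iff] at hmem
    have := hmem ⟨k, hkn⟩ ⟨0, by omega⟩ le_rfl hk0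
    simp [Matrix.transvection, Matrix.one_apply_ne hne] at this
  · intro H hPH
    have hle : Pk F n k ≤ H := hPH.le
    obtain ⟨h, hH, hP⟩ := SetLike.exists_of_lt hPH
    obtain ⟨a, j, u, φ, ha, hj, hua, hφj, hφu, hin⟩ := stepA hle h hH hP
    obtain ⟨φ', h0, hj0, hin'⟩ := stepB hle a j u φ ha hj hua hφj hφu hin
    have hC : ∀ c : F, InH H (1 + vecMulVec (Pi.single a 1) (c • Pi.single j 1)) := by
      intro c
      by_cases hc : c = 0
      · subst hc
        have : (1 : Matrix (Fin n) (Fin n) F) + vecMulVec (Pi.single a 1)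
            ((0 : F) • (Pi.single j 1 : Fin n → F)) = 1 := by
          ext r s; simp [Matrix.vecMulVec_apply]
        rw [this]
        exact InH.one H
      · exact stepC hle a j φ' ha hj h0 hj0 hin' c hc
    have hD : ∀ (i j' : Fin n) (c : F), k ≤ (i : ℕ) → (j' : ℕ) < k →
        InH H (Matrix.transvection i j' c) := by
      intro i j' c hi hj'
      have hja : j ≠ a := by intro h; rw [h] at hj; omega
      have hji : j ≠ i := by intro h; rw [h] at hj; omega
      have hij : i ≠ j := hji.symm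
      have hij' : i ≠ j' := by intro h; rw [h] at hi; omega
      have hσ1 : ∀ r : Fin n, k ≤ (r : ℕ) → k ≤ ((Equiv.swap a i) r : ℕ) := by
        intro r hr
        by_cases h1 : r = a
        · rw [h1, Equiv.swap_apply_left]; exact hi
        · by_cases h2 : r = i
          · rw [h2, Equiv.swap_apply_right]; exact ha
          · rw [Equiv.swap_apply_of_ne_of_ne h1 h2]; exact hr
      have hσ2 : ∀ r : Fin n, k ≤ (r : ℕ) → k ≤ ((Equiv.swap j j') r : ℕ) := by
        intro r hr
        have h1 : r ≠ j := by intro h; rw [h] at hr; omega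
        have h2 : r ≠ j' := by intro h; rw [h] at hr; omega
        rw [Equiv.swap_apply_of_ne_of_ne h1 h2]; exact hr
      have h1 := stepD (Equiv.swap a i) (InH_perm hle _ hσ1) a j c (hC c)
      rw [Equiv.symm_swap, Equiv.swap_apply_left, Equiv.swap_apply_of_ne_of_ne hja hji] at h1
      have h2 := stepD (Equiv.swap j j') (InH_perm hle _ hσ2) i j c h1
      rw [Equiv.symm_swap, Equiv.swap_apply_left, Equiv.swap_apply_of_ne_of_ne hij hij'] at h2
      have e : Matrix.transvection i j' c =
          1 + vecMulVec (Pi.single i 1) (c • (Pi.single j' 1 : Fin n → F)) := by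
        ext r s
        simp only [Matrix.transvection, Matrix.add_apply, Matrix.single_apply,
          Matrix.vecMulVec_apply, Pi.single_apply, Pi.smul_apply, smul_eq_mul]
        congr 1
        by_cases hr : r = i
        · by_cases hs : s = j'
          · simp [hr, hs]
          · have hs' : ¬ j' = s := fun h => hs h.symm
            simp [hr, hs, hs']
        · have hr' : ¬ i = r := fun h => hr h.symm
          simp [hr, hr']
      rw [e]; exact h2
    have hT : ∀ t : TransvectionStruct (Fin n) F, InH H t.toMatrix := by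
      intro t
      by_cases ht : k ≤ (t.i : ℕ) ∧ (t.j : ℕ) < k
      · exact hD t.i t.j t.c ht.1 ht.2
      · apply InH.of_but hle
        · rw [TransvectionStruct.det]; exact one_ne_zero
        · intro r s hr hs
          have hrs : r ≠ s := by intro h; rw [h] at hr; omega
          simp only [TransvectionStruct.toMatrix, Matrix.transvection, Matrix.add_apply,
            Matrix.one_apply_ne hrs, zero_add, Matrix.single_apply]
          rw [if_neg]
          rintro ⟨h1, h2⟩
          subst h1 h2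
          exact ht ⟨hr, hs⟩
    have hL : ∀ L : List (TransvectionStruct (Fin n) F),
        InH H (L.map TransvectionStruct.toMatrix).prod := by
      intro L
      induction L with
      | nil => simpa using InH.one H
      | cons t L ih => rw [List.map_cons, List.prod_cons]; exact (hT t).mul ih
    rw [eq_top_iff]
    intro g _
    obtain ⟨L, L', D, hg⟩ := Matrix.Pivot.exists_list_transvec_mul_diagonal_mul_list_transvec
      (g : Matrix (Fin n) (Fin n) F)
    have hdet : (Matrix.diagonal D).det ≠ 0 := by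
      have := congrArg Matrix.det hg
      rw [Matrix.det_mul, Matrix.det_mul, TransvectionStruct.det_toMatrix_prod,
        TransvectionStruct.det_toMatrix_prod, one_mul, mul_one] at this
      rw [← this]
      exact ((Matrix.isUnit_iff_isUnit_det _).mp (Units.isUnit g)).ne_zero
    have hDin : InH H (Matrix.diagonal D) := by
      apply InH.of_but hle _ hdet
      intro r s hr hs
      exact Matrix.diagonal_apply_ne _ (by intro h; rw [h] at hr; omega)
    obtain ⟨g', hg', hgg'⟩ := ((hL L).mul hDin).mul (hL L')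
    have : g = g' := Units.ext (by rw [hgg', ← hg])
    rw [this]; exact hg'

end Cfsg.Agent.S0772
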