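import Cfsg.Statements.S0773
import Cfsg.Agent.Lib.Helper18.Parabolic

set_option autoImplicit false
open Cfsg

namespace Cfsg.Agent.S0773

open Matrix Cfsg.Agent.Lib.Helper18

/-- Inverse transpose, reindexed by the reversal of `Fin n`. -/
def theta {F : Type*} [Field F] (n : ℕ) (g : GL (Fin n) F) : GL (Fin n) F where
  val := (((g⁻¹ : GL (Fin n) F) : Matrix (Fin n) (Fin n) F)ᵀ).submatrix Fin.revPerm Fin.revPerm
  inv := ((g : Matrix (Fin n) (Fin n) F)ᵀ).submatrix Fin.revPerm Fin.revPerm
  val_inv := by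
    rw [Matrix.submatrix_mul_equiv, ← Matrix.transpose_mul, ← Units.val_mul, mul_inv_cancel,
      Units.val_one, Matrix.transpose_one, Matrix.submatrix_one_equiv]
  inv_val := by
    rw [Matrix.submatrix_mul_equiv, ← Matrix.transpose_mul, ← Units.val_mul, inv_mul_cancel,
      Units.val_one, Matrix.transpose_one, Matrix.submatrix_one_equiv]

theorem theta_apply {F : Type*} [Field F] (n : ℕ) (g : GL (Fin n) F) (i j : Fin n) :
    (theta n g : Matrix (Fin n) (Fin n) F) i j =
      ((g⁻¹ : GL (Fin n) F) : Matrix (Fin n) (Fin n) F) (Fin.rev j) (Fin.rev i) := rfl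

theorem theta_mul {F : Type*} [Field F] (n : ℕ) (g h : GL (Fin n) F) :
    theta n (g * h) = theta n g * theta n h := by
  apply Units.ext
  show (((g * h)⁻¹ : GL (Fin n) F) : Matrix (Fin n) (Fin n) F)ᵀ.submatrix Fin.revPerm Fin.revPerm =
    (((g⁻¹ : GL (Fin n) F) : Matrix (Fin n) (Fin n) F)ᵀ).submatrix Fin.revPerm Fin.revPerm *
    (((h⁻¹ : GL (Fin n) F) : Matrix (Fin n) (Fin n) F)ᵀ).submatrix Fin.revPerm Fin.revPerm
  rw [Matrix.submatrix_mul_equiv, ← Matrix.transpose_mul, ← Units.val_mul, _root_.mul_inv_rev]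

theorem theta_theta {F : Type*} [Field F] (n : ℕ) (g : GL (Fin n) F) :
    theta n (theta n g) = g := by
  apply Units.ext
  ext i j
  rw [theta_apply]
  show (theta n g).inv (Fin.rev j) (Fin.rev i) = _
  show ((g : Matrix (Fin n) (Fin n) F)ᵀ).submatrix Fin.revPerm Fin.revPerm (Fin.rev j) (Fin.rev i) = _
  simp

theorem theta_mem {F : Type*} [Field F] (n k : ℕ) (hk : k ≤ n) (g : GL (Fin n) F)
    (hg : g ∈ Cfsg.stabilizing (Cfsg.glToMat (Fin n) F)
      {v : Fin n → F | ∀ i : Fin n, k ≤ (i : ℕ) → v i = 0}) :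
    theta n g ∈ Cfsg.stabilizing (Cfsg.glToMat (Fin n) F)
      {v : Fin n → F | ∀ i : Fin n, n - k ≤ (i : ℕ) → v i = 0} := by
  rw [mem_stab_iff]
  intro i j hi hj
  rw [theta_apply]
  apply (mem_stab_iff n k g⁻¹).mp (inv_mem hg)
  · rw [Fin.val_rev]
    omega
  · rw [Fin.val_rev]
    have := i.2
    omega

theorem iso_part {F : Type*} [Field F] (n k : ℕ) (hk : k ≤ n) :
    Nonempty (↥(Cfsg.stabilizing (Cfsg.glToMat (Fin n) F)
      {v : Fin n → F | ∀ i : Fin n, k ≤ (i : ℕ) → v i = 0}) ≃*
      ↥(Cfsg.stabilizing (Cfsg.glToMat (Fin n) F)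
      {v : Fin n → F | ∀ i : Fin n, n - k ≤ (i : ℕ) → v i = 0})) := by
  have e : n - (n - k) = k := Nat.sub_sub_self hk
  refine ⟨{ toFun := fun g => ⟨theta n g.1, theta_mem n k hk g.1 g.2⟩
            invFun := fun h => ⟨theta n h.1, by
              have h1 := theta_mem n (n - k) (Nat.sub_le n k) h.1 h.2
              rw [e] at h1
              exact h1⟩
            left_inv := fun g => Subtype.ext (theta_theta n g.1)
            right_inv := fun h => Subtype.ext (theta_theta n h.1)
            map_mul' := fun g h => Subtype.ext (theta_mul n g.1 h.1) }⟩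

theorem not_conj {F : Type*} [Field F] (n k : ℕ) (hk0 : 0 < k) (hkn : k < n) (h2 : 2 * k ≠ n)
    (g : GL (Fin n) F) :
    (Cfsg.stabilizing (Cfsg.glToMat (Fin n) F)
      {v : Fin n → F | ∀ i : Fin n, k ≤ (i : ℕ) → v i = 0}).map (MulAut.conj g).toMonoidHom ≠
    Cfsg.stabilizing (Cfsg.glToMat (Fin n) F)
      {v : Fin n → F | ∀ i : Fin n, n - k ≤ (i : ℕ) → v i = 0} := by
  intro heq
  obtain ⟨k', hk'⟩ : ∃ k', k' = n - k := ⟨_, rfl⟩
  rw [← hk'] at heq
  have hk'pos : 0 < k' := by omega
  have hk'n : k' < n := by omega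
  have hkk' : k ≠ k' := by omega
  set G : Matrix (Fin n) (Fin n) F := (g : Matrix (Fin n) (Fin n) F) with hG
  set Gi : Matrix (Fin n) (Fin n) F := ((g⁻¹ : GL (Fin n) F) : Matrix (Fin n) (Fin n) F) with hGi
  have hGiG : Gi * G = 1 := by rw [hG, hGi, ← Units.val_mul, inv_mul_cancel, Units.val_one]
  have hinj : Function.Injective (Matrix.toLin' G) := by
    intro x y hxy
    have h1 := congrArg (Matrix.toLin' Gi) hxy
    rw [← Matrix.toLin'_mul_apply, ← Matrix.toLin'_mul_apply, hGiG, Matrix.toLin'_one] at h1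
    exact h1
  set T : Submodule F (Fin n → F) := (coordSub F n k).map (Matrix.toLin' G) with hTdef
  have hT : ∀ t, t ∈ T ↔ ∃ v ∈ coordSub F n k, G *ᵥ v = t := by
    intro t
    rw [hTdef, Submodule.mem_map]
    simp only [Matrix.toLin'_apply]
  have hstab : ∀ h ∈ Cfsg.stabilizing (Cfsg.glToMat (Fin n) F)
      {v : Fin n → F | ∀ i : Fin n, k' ≤ (i : ℕ) → v i = 0}, ∀ t ∈ T,
      (h : Matrix (Fin n) (Fin n) F) *ᵥ t ∈ T := by
    intro h hh t ht
    rw [← heq] at hh
    obtain ⟨s, hs, rfl⟩ := hh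
    obtain ⟨v, hv, rfl⟩ := (hT t).mp ht
    rw [hT]
    refine ⟨(s : Matrix (Fin n) (Fin n) F) *ᵥ v, (hs v).mp hv, ?_⟩
    have h1 : (((MulAut.conj g).toMonoidHom s : GL (Fin n) F) : Matrix (Fin n) (Fin n) F) =
        G * (s : Matrix (Fin n) (Fin n) F) * Gi := by
      show ((g * s * g⁻¹ : GL (Fin n) F) : Matrix (Fin n) (Fin n) F) = _
      rw [Units.val_mul, Units.val_mul]
    rw [h1, Matrix.mulVec_mulVec, Matrix.mulVec_mulVec, Matrix.mul_assoc, Matrix.mul_assoc, hGiG,
      Matrix.mul_one]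
  -- elementary matrices
  have hE : ∀ t ∈ T, ∀ i j : Fin n, i ≠ j → ¬ (k' ≤ (i : ℕ) ∧ (j : ℕ) < k') → t j ≠ 0 →
      (Pi.single i 1 : Fin n → F) ∈ T := by
    intro t ht i j hij hblock htj
    have hdet : (Matrix.transvection i j (1 : F)).det ≠ 0 := by
      rw [Matrix.det_transvection_of_ne i j hij]
      exact one_ne_zero
    have hmem : Matrix.GeneralLinearGroup.mkOfDetNeZero _ hdet ∈
        Cfsg.stabilizing (Cfsg.glToMat (Fin n) F)
          {v : Fin n → F | ∀ i : Fin n, k' ≤ (i : ℕ) → v i = 0} := by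
      rw [mem_stab_iff]
      intro a b ha hb
      show Matrix.transvection i j (1 : F) a b = 0
      have hab : a ≠ b := by
        rintro rfl
        omega
      have hne : ¬ (i = a ∧ j = b) := by
        rintro ⟨rfl, rfl⟩
        exact hblock ⟨ha, hb⟩
      simp [Matrix.transvection, hab, hne]
    have h1 := hstab _ hmem t ht
    have h3 : ((Matrix.GeneralLinearGroup.mkOfDetNeZero _ hdet : GL (Fin n) F) :
        Matrix (Fin n) (Fin n) F) *ᵥ t = t + t j • (Pi.single i 1 : Fin n → F) := by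
      show Matrix.transvection i j (1 : F) *ᵥ t = _
      rw [Matrix.transvection, Matrix.add_mulVec, Matrix.one_mulVec, Matrix.single_mulVec_eq, one_mul]
    rw [h3] at h1
    have h4 : t j • (Pi.single i 1 : Fin n → F) ∈ T := by
      have h5 := T.sub_mem h1 ht
      rwa [add_sub_cancel_left] at h5
    have h6 := T.smul_mem (t j)⁻¹ h4
    rwa [smul_smul, inv_mul_cancel₀ htj, one_smul] at h6
  have hH : ∀ x : Fin n → F, (∀ i, x i ≠ 0 → (Pi.single i 1 : Fin n → F) ∈ T) → x ∈ T := by
    intro x hx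
    rw [pi_eq_sum_univ' x]
    apply T.sum_mem
    intro i _
    by_cases hxi : x i = 0
    · rw [hxi, zero_smul]
      exact T.zero_mem
    · exact T.smul_mem _ (hx i hxi)
  have hJ : ∀ t ∈ T, ∀ j : Fin n, t j ≠ 0 →
      (∀ i, i ≠ j → t i ≠ 0 → (Pi.single i 1 : Fin n → F) ∈ T) → (Pi.single j 1 : Fin n → F) ∈ T := by
    intro t ht j htj hothers
    have hy : t - t j • (Pi.single j 1 : Fin n → F) ∈ T := by
      apply hH
      intro i hi
      have hij : i ≠ j := by
        rintro rfl
        apply hi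
        simp
      apply hothers i hij
      intro h0
      apply hi
      simp [hij, h0]
    have h1 := T.sub_mem ht hy
    rw [sub_sub_cancel] at h1
    have h6 := T.smul_mem (t j)⁻¹ h1
    rwa [smul_smul, inv_mul_cancel₀ htj, one_smul] at h6
  -- a nonzero vector of T
  have he0 : (Pi.single (⟨0, by omega⟩ : Fin n) 1 : Fin n → F) ∈ coordSub F n k := by
    intro i hi
    have hne : i ≠ (⟨0, by omega⟩ : Fin n) := by
      intro h
      rw [h] at hi
      simp at hi
      omega
    simp [hne]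
  have hfr : Module.finrank F T = Module.finrank F (coordSub F n k) := by
    rw [hTdef]
    exact (LinearEquiv.finrank_eq (Submodule.equivMapOfInjective _ hinj _)).symm
  by_cases hcase : ∃ t ∈ T, ∃ j : Fin n, k' ≤ (j : ℕ) ∧ t j ≠ 0
  · obtain ⟨t, ht, j, hj, htj⟩ := hcase
    have hall : ∀ i : Fin n, (Pi.single i 1 : Fin n → F) ∈ T := by
      have hne : ∀ i : Fin n, i ≠ j → (Pi.single i 1 : Fin n → F) ∈ T := by
        intro i hij
        exact hE t ht i j hij (by omega) htj
      intro i
      by_cases hij : i = j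
      · rw [hij]
        exact hJ t ht j htj (fun i hi _ => hne i hi)
      · exact hne i hij
    have htop : ∀ x : Fin n → F, x ∈ T := fun x => hH x (fun i _ => hall i)
    -- then coordSub = ⊤
    have hx := htop (G *ᵥ (Pi.single (⟨n - 1, by omega⟩ : Fin n) (1 : F) : Fin n → F))
    obtain ⟨v, hv, hv2⟩ := (hT _).mp hx
    have hv3 : v = Pi.single (⟨n - 1, by omega⟩ : Fin n) 1 := by
      apply hinj
      rw [Matrix.toLin'_apply, Matrix.toLin'_apply]
      exact hv2
    rw [hv3] at hv
    have h1 := hv ⟨n - 1, by omega⟩ (by simp; omega)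
    simp at h1
  · push Not at hcase
    have hTle : T ≤ coordSub F n k' := by
      intro t ht i hi
      exact hcase t ht i hi
    -- nonzero vector
    have ht0 : G *ᵥ (Pi.single (⟨0, by omega⟩ : Fin n) (1 : F) : Fin n → F) ∈ T :=
      (hT _).mpr ⟨_, he0, rfl⟩
    have ht0ne : G *ᵥ (Pi.single (⟨0, by omega⟩ : Fin n) (1 : F) : Fin n → F) ≠ 0 := by
      intro h0
      have h1 : (Pi.single (⟨0, by omega⟩ : Fin n) (1 : F) : Fin n → F) = 0 := by
        apply hinj
        rw [Matrix.toLin'_apply, map_zero]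
        exact h0
      have h3 := congrFun h1 ⟨0, by omega⟩
      simp at h3
    obtain ⟨j, hj⟩ := Function.ne_iff.mp ht0ne
    have hj' : (G *ᵥ (Pi.single (⟨0, by omega⟩ : Fin n) (1 : F) : Fin n → F)) j ≠ 0 := hj
    have hjk : (j : ℕ) < k' := by
      by_contra hcon
      exact hj' (hcase _ ht0 j (by omega))
    have hall : ∀ i : Fin n, (i : ℕ) < k' → (Pi.single i 1 : Fin n → F) ∈ T := by
      have hne : ∀ i : Fin n, (i : ℕ) < k' → i ≠ j → (Pi.single i 1 : Fin n → F) ∈ T := by
        intro i hi hij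
        exact hE _ ht0 i j hij (by omega) hj'
      intro i hi
      by_cases hij : i = j
      · rw [hij]
        apply hJ _ ht0 j hj'
        intro i hi2 hti
        apply hne i _ hi2
        by_contra hcon
        exact hti (hcase _ ht0 i (by omega))
      · exact hne i hi hij
    have hle2 : coordSub F n k' ≤ T := by
      intro x hx
      apply hH
      intro i hi
      apply hall
      by_contra hcon
      exact hi (hx i (by omega))
    have hTeq : T = coordSub F n k' := le_antisymm hTle hle2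
    rcases Nat.lt_or_gt_of_ne hkk' with hlt | hgt
    · have hle : coordSub F n k ≤ T := by
        rw [hTeq]
        intro x hx i hi
        exact hx i (by omega)
      have heq2 : coordSub F n k = T := Submodule.eq_of_le_of_finrank_eq hle hfr.symm
      have hmem : (Pi.single (⟨k, by omega⟩ : Fin n) 1 : Fin n → F) ∈ T := by
        rw [hTeq]
        intro i hi
        have hne : i ≠ (⟨k, by omega⟩ : Fin n) := by
          intro h
          rw [h] at hi
          simp at hi
          omega
        simp [hne]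
      rw [← heq2] at hmem
      have h1 := hmem ⟨k, by omega⟩ (by simp)
      simp at h1
    · have hle : T ≤ coordSub F n k := by
        rw [hTeq]
        intro x hx i hi
        exact hx i (by omega)
      have heq2 : T = coordSub F n k := Submodule.eq_of_le_of_finrank_eq hle hfr
      have hmem : (Pi.single (⟨k', by omega⟩ : Fin n) 1 : Fin n → F) ∈ coordSub F n k := by
        intro i hi
        have hne : i ≠ (⟨k', by omega⟩ : Fin n) := by
          intro h
          rw [h] at hi
          simp at hi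
          omega
        simp [hne]
      rw [← heq2, hTeq] at hmem
      have h1 := hmem ⟨k', by omega⟩ (by simp)
      simp at h1

/-- The stabilisers in GL_n(F), F finite, of the coordinate subspaces of dimensions k and n − k are isomorphic groups, but when 2k ≠ n (and 0 < k < n) no element of GL_n conjugates one onto the other. -/
theorem result {F : Type*} [Field F] [Finite F] (n k : ℕ) (hk0 : 0 < k) (hkn : k < n) (h2 : 2 * k ≠ n) : Nonempty (↥(Cfsg.stabilizing (Cfsg.glToMat (Fin n) F) {v : Fin n → F | ∀ i : Fin n, k ≤ (i : ℕ) → v i = 0}) ≃* ↥(Cfsg.stabilizing (Cfsg.glToMat (Fin n) F) {v : Fin n → F | ∀ i : Fin n, n - k ≤ (i : ℕ) → v i = 0})) ∧ ∀ g : Matrix.GeneralLinearGroup (Fin n) F, (Cfsg.stabilizing (Cfsg.glToMat (Fin n) F) {v : Fin n → F | ∀ i : Fin n, k ≤ (i : ℕ) → v i = 0}).map (MulAut.conj g).toMonoidHom ≠ Cfsg.stabilizing (Cfsg.glToMat (Fin n) F) {v : Fin n → F | ∀ i : Fin n, n - k ≤ (i : ℕ) → v i = 0} :=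
  ⟨iso_part n k hkn.le, fun g => not_conj n k hk0 hkn h2 g⟩

end Cfsg.Agent.S0773
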