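import Cfsg.Statements.S0774
import Mathlib
import Cfsg.Agent.S0769

set_option autoImplicit false
open Cfsg

namespace Cfsg.Agent.S0774

open Matrix

variable {F : Type*} [Field F] {m : ℕ}

private theorem L1 (M : Matrix (Fin m ⊕ Fin m) (Fin m ⊕ Fin m) F)
    (h21 : ∀ i j : Fin m, M (Sum.inr i) (Sum.inl j) = 0)
    (h11 : ∀ i j : Fin m, j < i → M (Sum.inl i) (Sum.inl j) = 0) (k : Fin m)
    (v : Fin m ⊕ Fin m → F)
    (hv : (∀ i : Fin m, (k : ℕ) < (i : ℕ) → v (Sum.inl i) = 0) ∧ ∀ i : Fin m, v (Sum.inr i) = 0) :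
    (∀ i : Fin m, (k : ℕ) < (i : ℕ) → (M *ᵥ v) (Sum.inl i) = 0) ∧
      ∀ i : Fin m, (M *ᵥ v) (Sum.inr i) = 0 := by
  obtain ⟨hv1, hv2⟩ := hv
  constructor
  · intro i hi
    simp only [Matrix.mulVec, dotProduct, Fintype.sum_sum_type]
    rw [Finset.sum_eq_zero, Finset.sum_eq_zero, add_zero]
    · intro j _; rw [hv2 j, mul_zero]
    · intro j _
      by_cases hj : (k : ℕ) < (j : ℕ)
      · rw [hv1 j hj, mul_zero]
      · rw [h11 i j (by rw [Fin.lt_def]; omega), zero_mul]
  · intro i
    simp only [Matrix.mulVec, dotProduct, Fintype.sum_sum_type]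
    rw [Finset.sum_eq_zero, Finset.sum_eq_zero, add_zero]
    · intro j _; rw [hv2 j, mul_zero]
    · intro j _; rw [h21 i j, zero_mul]

private theorem inv_formula (X Y Z T : Matrix (Fin m) (Fin m) F) :
    -J (Fin m) F * (fromBlocks X Y Z T)ᵀ * J (Fin m) F = fromBlocks Tᵀ (-Yᵀ) (-Zᵀ) Xᵀ := by
  unfold Matrix.J
  rw [Matrix.fromBlocks_transpose, Matrix.fromBlocks_neg, Matrix.fromBlocks_multiply,
    Matrix.fromBlocks_multiply]
  simp

private theorem inv_blocks (A : Matrix.symplecticGroup (Fin m) F) :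
    ((A⁻¹ : Matrix.symplecticGroup (Fin m) F) : Matrix (Fin m ⊕ Fin m) (Fin m ⊕ Fin m) F) =
      fromBlocks (A.1.toBlocks₂₂)ᵀ (-(A.1.toBlocks₁₂)ᵀ) (-(A.1.toBlocks₂₁)ᵀ) (A.1.toBlocks₁₁)ᵀ := by
  rw [SymplecticGroup.coe_inv]
  have := inv_formula A.1.toBlocks₁₁ A.1.toBlocks₁₂ A.1.toBlocks₂₁ A.1.toBlocks₂₂
  rw [Matrix.fromBlocks_toBlocks] at this
  exact this

private theorem symp_iff (X Y T : Matrix (Fin m) (Fin m) F) :
    fromBlocks X Y 0 T ∈ symplecticGroup (Fin m) F ↔
      Y * Xᵀ = X * Yᵀ ∧ X * Tᵀ = 1 ∧ T * Xᵀ = 1 := by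
  rw [SymplecticGroup.mem_iff]
  unfold Matrix.J
  rw [Matrix.fromBlocks_transpose, Matrix.fromBlocks_multiply, Matrix.fromBlocks_multiply,
    Matrix.fromBlocks_inj]
  simp only [Matrix.mul_zero, Matrix.zero_mul, Matrix.mul_one, add_zero, zero_add,
    Matrix.mul_neg, Matrix.neg_mul, Matrix.transpose_zero, neg_zero, neg_inj, and_true]
  constructor
  · rintro ⟨h1, h2, h3⟩
    exact ⟨by rw [← sub_eq_zero, sub_eq_add_neg]; exact h1, h2, h3⟩
  · rintro ⟨h1, h2, h3⟩
    exact ⟨by rw [h1]; simp, h2, h3⟩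

private theorem lower_inv (T : GL (Fin m) F)
    (hT : ∀ i j : Fin m, i < j → (T : Matrix (Fin m) (Fin m) F) i j = 0) :
    ∀ i j : Fin m, i < j → ((T⁻¹ : GL (Fin m) F) : Matrix (Fin m) (Fin m) F) i j = 0 := by
  intro i j hij
  have hb : Matrix.BlockTriangular (T : Matrix (Fin m) (Fin m) F) (OrderDual.toDual) := by
    intro a b hab
    exact hT a b (OrderDual.toDual_lt_toDual.mp hab)
  let _ : Invertible (T : Matrix (Fin m) (Fin m) F) := T.invertible
  have h := Matrix.blockTriangular_inv_of_blockTriangular hb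
  rw [Matrix.coe_units_inv]
  exact h (OrderDual.toDual_lt_toDual.mpr hij)

private theorem card_sym [Fintype F] {q : ℕ} (hF : Fintype.card F = q) (m : ℕ) :
    Nat.card {S : Matrix (Fin m) (Fin m) F // Sᵀ = S} = q ^ (∑ i ∈ Finset.range m, i + m) := by
  classical
  let P : Fin m → Fin m → F → Prop := fun i j x => (i < j → x = 0)
  let e1 : {S : Matrix (Fin m) (Fin m) F // Sᵀ = S} ≃
      {L : Matrix (Fin m) (Fin m) F // ∀ i j, P i j (L i j)} :=
    { toFun := fun S => ⟨Matrix.of (fun i j => if j ≤ i then S.1 i j else 0), by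
        intro i j hij
        simp [not_le.mpr hij]⟩
      invFun := fun L => ⟨Matrix.of (fun i j => if j ≤ i then L.1 i j else L.1 j i), by
        ext i j
        simp only [Matrix.transpose_apply, Matrix.of_apply]
        by_cases h1 : i ≤ j
        · by_cases h2 : j ≤ i
          · have : i = j := le_antisymm h1 h2
            subst this
            simp
          · simp [h1, h2]
        · have h2 : j ≤ i := (not_le.mp h1).le
          simp [h1, h2]⟩
      left_inv := by
        intro S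
        apply Subtype.ext
        ext i j
        simp only [Matrix.of_apply]
        by_cases h1 : j ≤ i
        · simp [h1]
        · have h2 : i ≤ j := (not_le.mp h1).le
          have hs : S.1 j i = S.1 i j := by
            have := congrFun (congrFun S.2 i) j
            rw [Matrix.transpose_apply] at this
            exact this
          simp [h1, h2, hs]
      right_inv := by
        intro L
        apply Subtype.ext
        ext i j
        simp only [Matrix.of_apply]
        by_cases h1 : j ≤ i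
        · simp [h1]
        · simp only [h1, if_false]
          exact (L.2 i j (not_le.mp h1)).symm }
  have e : {L : Matrix (Fin m) (Fin m) F // ∀ i j, P i j (L i j)} ≃
      ∀ i : Fin m, ∀ j : Fin m, {x : F // P i j x} :=
    (Equiv.subtypePiEquivPi (β := fun _ : Fin m => Fin m → F)
      (p := fun i row => ∀ j, P i j (row j))).trans
      (Equiv.piCongrRight fun i => Equiv.subtypePiEquivPi (β := fun _ : Fin m => F)
        (p := fun j x => P i j x))
  have hc : ∀ i j : Fin m, Nat.card {x : F // P i j x} = if j ≤ i then q else 1 := by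
    intro i j
    by_cases h1 : j ≤ i
    · rw [if_pos h1]
      have hall : ∀ x : F, P i j x := fun x h => absurd h (not_lt.mpr h1)
      rw [Nat.card_congr (Equiv.subtypeUnivEquiv hall), Nat.card_eq_fintype_card, hF]
    · rw [if_neg h1]
      have hij : i < j := not_le.mp h1
      have hu : ∀ x : {x : F // P i j x}, x = ⟨0, fun _ => rfl⟩ := by
        rintro ⟨x, hx⟩
        exact Subtype.ext (hx hij)
      have : Unique {x : F // P i j x} := ⟨⟨⟨0, fun _ => rfl⟩⟩, hu⟩
      exact Nat.card_unique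
  have hprod : ∀ i : Fin m, ∏ j : Fin m, (if j ≤ i then q else 1) = q ^ ((i : ℕ) + 1) := by
    intro i
    rw [Finset.prod_ite, Finset.prod_const, Finset.prod_const_one, mul_one]
    congr 1
    have : Finset.filter (fun j : Fin m => j ≤ i) Finset.univ = Finset.Iic i := by
      ext j; simp
    rw [this, Fin.card_Iic]
  rw [Nat.card_congr e1, Nat.card_congr e, Nat.card_pi]
  simp only [Nat.card_pi, hc, hprod]
  rw [Finset.prod_pow_eq_pow_sum, Fin.sum_univ_eq_sum_range (fun i => i + 1) m,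
    Finset.sum_add_distrib]
  simp

theorem result {F : Type*} [Field F] [Fintype F] {q : ℕ} (hF : Fintype.card F = q) (m : ℕ) : Nat.card ↥(⨅ k : Fin m, Cfsg.stabilizing (Cfsg.spToMat m F) {v : Fin m ⊕ Fin m → F | (∀ i : Fin m, (k : ℕ) < (i : ℕ) → v (Sum.inl i) = 0) ∧ ∀ i : Fin m, v (Sum.inr i) = 0}) = q ^ (m ^ 2) * (q - 1) ^ m := by
  classical
  let Φ : {T : GL (Fin m) F // ∀ i j : Fin m, i < j → (T : Matrix (Fin m) (Fin m) F) i j = 0} ×
      {S : Matrix (Fin m) (Fin m) F // Sᵀ = S} → Matrix.symplecticGroup (Fin m) F := fun p =>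
    ⟨fromBlocks ((p.1.1⁻¹ : GL (Fin m) F) : Matrix (Fin m) (Fin m) F)ᵀ
      (p.2.1 * (p.1.1 : Matrix (Fin m) (Fin m) F)) 0 (p.1.1 : Matrix (Fin m) (Fin m) F), by
      rw [symp_iff]
      have h1 : (p.1.1 : Matrix (Fin m) (Fin m) F) *
          ((p.1.1⁻¹ : GL (Fin m) F) : Matrix (Fin m) (Fin m) F) = 1 := by
        rw [← Units.val_mul, mul_inv_cancel]; rfl
      have h2 : ((p.1.1⁻¹ : GL (Fin m) F) : Matrix (Fin m) (Fin m) F) *
          (p.1.1 : Matrix (Fin m) (Fin m) F) = 1 := by
        rw [← Units.val_mul, inv_mul_cancel]; rfl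
      refine ⟨?_, ?_, ?_⟩
      · rw [Matrix.transpose_transpose, Matrix.mul_assoc, h1, Matrix.mul_one, Matrix.transpose_mul,
          ← Matrix.mul_assoc, ← Matrix.transpose_mul, h1, Matrix.transpose_one, Matrix.one_mul,
          p.2.2]
      · rw [← Matrix.transpose_mul, h1, Matrix.transpose_one]
      · rw [Matrix.transpose_transpose, h1]⟩
  have hΦinj : Function.Injective Φ := by
    rintro ⟨⟨T, hT⟩, ⟨S, hS⟩⟩ ⟨⟨T', hT'⟩, ⟨S', hS'⟩⟩ h
    have h' := congrArg Subtype.val h
    simp only [Φ] at h'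
    rw [Matrix.fromBlocks_inj] at h'
    obtain ⟨-, h2, -, h4⟩ := h'
    have hTT : T = T' := Units.ext h4
    subst hTT
    have h1 : (T : Matrix (Fin m) (Fin m) F) *
        ((T⁻¹ : GL (Fin m) F) : Matrix (Fin m) (Fin m) F) = 1 := by
      rw [← Units.val_mul, mul_inv_cancel]; rfl
    have hSS : S = S' := by
      have := congrArg (fun M => M * ((T⁻¹ : GL (Fin m) F) : Matrix (Fin m) (Fin m) F)) h2
      simp only [Matrix.mul_assoc, h1, Matrix.mul_one] at this
      exact this
    subst hSS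
    rfl
  have hrange : Set.range Φ = ((⨅ k : Fin m, Cfsg.stabilizing (Cfsg.spToMat m F)
      {v : Fin m ⊕ Fin m → F | (∀ i : Fin m, (k : ℕ) < (i : ℕ) → v (Sum.inl i) = 0) ∧
        ∀ i : Fin m, v (Sum.inr i) = 0} : Subgroup (Matrix.symplecticGroup (Fin m) F)) :
      Set (Matrix.symplecticGroup (Fin m) F)) := by
    ext A
    constructor
    · rintro ⟨⟨⟨T, hT⟩, ⟨S, hS⟩⟩, rfl⟩
      rw [SetLike.mem_coe, Subgroup.mem_iInf]
      intro k v
      have hTinv := lower_inv T hT
      constructor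
      · intro hv
        apply L1 _ _ _ k v hv
        · intro i j
          simp [Φ]
        · intro i j hij
          simp only [Φ, Matrix.fromBlocks_apply₁₁, Matrix.transpose_apply]
          exact hTinv j i hij
      · intro hv
        have hback : ((Φ (⟨T, hT⟩, ⟨S, hS⟩))⁻¹ : Matrix.symplecticGroup (Fin m) F).1 *ᵥ
            ((Φ (⟨T, hT⟩, ⟨S, hS⟩)).1 *ᵥ v) = v := by
          rw [Matrix.mulVec_mulVec]
          have : ((Φ (⟨T, hT⟩, ⟨S, hS⟩))⁻¹ : Matrix.symplecticGroup (Fin m) F).1 *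
              (Φ (⟨T, hT⟩, ⟨S, hS⟩)).1 = 1 := by
            have h := inv_mul_cancel (Φ (⟨T, hT⟩, ⟨S, hS⟩))
            exact congrArg Subtype.val h
          rw [this, Matrix.one_mulVec]
        rw [← hback]
        apply L1 _ _ _ k _ hv
        · intro i j
          rw [inv_blocks]
          simp [Φ, Matrix.toBlocks₂₁]
        · intro i j hij
          rw [inv_blocks]
          simp only [Φ, Matrix.fromBlocks_apply₁₁, Matrix.transpose_apply, Matrix.toBlocks₂₂,
            Matrix.of_apply, Matrix.fromBlocks_apply₂₂]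
          exact hT j i hij
    · intro hA
      rw [SetLike.mem_coe] at hA
      have hAinv := Subgroup.inv_mem _ hA
      rw [Subgroup.mem_iInf] at hA hAinv
      have hcol : ∀ (B : Matrix.symplecticGroup (Fin m) F), (∀ k : Fin m,
          B ∈ Cfsg.stabilizing (Cfsg.spToMat m F) {v : Fin m ⊕ Fin m → F |
            (∀ i : Fin m, (k : ℕ) < (i : ℕ) → v (Sum.inl i) = 0) ∧
            ∀ i : Fin m, v (Sum.inr i) = 0}) →
          (∀ i j : Fin m, j < i → B.1 (Sum.inl i) (Sum.inl j) = 0) ∧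
          (∀ i j : Fin m, B.1 (Sum.inr i) (Sum.inl j) = 0) := by
        intro B hB
        have hsingle : ∀ j : Fin m, (Pi.single (Sum.inl j) 1 : Fin m ⊕ Fin m → F) ∈
            {v : Fin m ⊕ Fin m → F | (∀ i : Fin m, (j : ℕ) < (i : ℕ) → v (Sum.inl i) = 0) ∧
              ∀ i : Fin m, v (Sum.inr i) = 0} := by
          intro j
          constructor
          · intro i hi
            have : i ≠ j := by intro h; rw [h] at hi; omega
            simp [this]
          · intro i; simp
        constructor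
        · intro i j hij
          have h := ((hB j (Pi.single (Sum.inl j) 1)).mp (hsingle j)).1 i hij
          simpa using h
        · intro i j
          have h := ((hB j (Pi.single (Sum.inl j) 1)).mp (hsingle j)).2 i
          simpa using h
      obtain ⟨hX, hZ⟩ := hcol A hA
      obtain ⟨hT', -⟩ := hcol A⁻¹ hAinv
      have hT : ∀ i j : Fin m, i < j → A.1.toBlocks₂₂ i j = 0 := by
        intro i j hij
        have := hT' j i hij
        rw [inv_blocks] at this
        simpa using this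
      have hZ0 : A.1.toBlocks₂₁ = 0 := by
        ext i j
        exact hZ i j
      have hAeq : A.1 = fromBlocks A.1.toBlocks₁₁ A.1.toBlocks₁₂ 0 A.1.toBlocks₂₂ := by
        conv_lhs => rw [← Matrix.fromBlocks_toBlocks A.1]
        rw [hZ0]
      have hsymp : fromBlocks A.1.toBlocks₁₁ A.1.toBlocks₁₂ 0 A.1.toBlocks₂₂ ∈
          symplecticGroup (Fin m) F := by
        rw [← hAeq]; exact A.2
      rw [symp_iff] at hsymp
      obtain ⟨hs1, hs2, hs3⟩ := hsymp
      have hs4 : A.1.toBlocks₁₁ᵀ * A.1.toBlocks₂₂ = 1 := mul_eq_one_comm.mp hs3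
      let Tg : GL (Fin m) F := ⟨A.1.toBlocks₂₂, A.1.toBlocks₁₁ᵀ, hs3, hs4⟩
      refine ⟨(⟨Tg, hT⟩, ⟨A.1.toBlocks₁₂ * A.1.toBlocks₁₁ᵀ, ?_⟩), ?_⟩
      · rw [Matrix.transpose_mul, Matrix.transpose_transpose, hs1]
      · apply Subtype.ext
        show fromBlocks (A.1.toBlocks₁₁ᵀ)ᵀ (A.1.toBlocks₁₂ * A.1.toBlocks₁₁ᵀ * A.1.toBlocks₂₂) 0
          A.1.toBlocks₂₂ = A.1
        rw [Matrix.transpose_transpose, Matrix.mul_assoc, hs4, Matrix.mul_one, ← hAeq]
  have hcard : Nat.card ↥(⨅ k : Fin m, Cfsg.stabilizing (Cfsg.spToMat m F)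
      {v : Fin m ⊕ Fin m → F | (∀ i : Fin m, (k : ℕ) < (i : ℕ) → v (Sum.inl i) = 0) ∧
        ∀ i : Fin m, v (Sum.inr i) = 0}) = Nat.card (Set.range Φ) := by
    rw [hrange]; rfl
  rw [hcard, Nat.card_range_of_injective hΦinj, Nat.card_prod, Cfsg.Agent.S0769.result hF m,
    card_sym hF m]
  have h2 := Finset.sum_range_id_mul_two m
  have hs : ∑ i ∈ Finset.range m, i = m * (m - 1) / 2 := Finset.sum_range_id m
  rw [← hs, mul_comm (q ^ _) ((q - 1) ^ m), mul_assoc, ← pow_add, mul_comm]
  congr 2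
  have : m * (m - 1) + m = m ^ 2 := by
    cases m with
    | zero => rfl
    | succ k => simp; ring
  omega

end Cfsg.Agent.S0774
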