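import Cfsg.Statements.S0776
import Mathlib
import Cfsg.Agent.Lib.Helper18.Symp
import Cfsg.Agent.Lib.Helper18.Darboux

set_option autoImplicit false
open Cfsg

namespace Cfsg.Agent.S0776

open Matrix Cfsg.Agent.Lib.Helper18

private theorem darboux_gram {F : Type*} [Field F] {V : Type*} [AddCommGroup V] [Module F V]
    {B : LinearMap.BilinForm F V} (hB : B.IsAlt) {W : Submodule F V} {k : ℕ} {e f : Fin k → V}
    (h : IsDarboux B W k e f) (a a' : Fin k ⊕ Fin k) :
    B (Sum.elim e f a) (Sum.elim e f a') = Matrix.J (Fin k) F a a' := by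
  rcases a with i | i <;> rcases a' with j | j
  · simp [Matrix.J, h.ee]
  · simp only [Sum.elim_inl, Sum.elim_inr, h.ef, Matrix.J, Matrix.fromBlocks_apply₁₂,
      Matrix.neg_apply, Matrix.one_apply]
    split_ifs <;> simp
  · simp only [Sum.elim_inl, Sum.elim_inr, h.fe hB, Matrix.J, Matrix.fromBlocks_apply₂₁,
      Matrix.one_apply]
  · simp [Matrix.J, h.ff]

theorem result {F : Type*} [Field F] (m k : ℕ) (hk : k ≤ m) (W : Submodule F (Fin m ⊕ Fin m → F)) (hWk : Module.finrank F W = 2 * k) (hW : ∀ u ∈ W, (∀ v ∈ W, Cfsg.sympForm m F u v = 0) → u = 0) : Nonempty (↥(Cfsg.stabilizing (Cfsg.spToMat m F) (W : Set (Fin m ⊕ Fin m → F))) ≃* Matrix.symplecticGroup (Fin k) F × Matrix.symplecticGroup (Fin (m - k)) F) := by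
  classical
  obtain ⟨B, hBdef⟩ : ∃ B : LinearMap.BilinForm F (Fin m ⊕ Fin m → F), B = sympB (F := F) m :=
    ⟨_, rfl⟩
  have hBalt : B.IsAlt := by rw [hBdef]; exact sympB_isAlt m
  have hBnd : B.Nondegenerate := by rw [hBdef]; exact sympB_nondegenerate m
  have hBapply : ∀ x y, B x y = x ⬝ᵥ (Matrix.J (Fin m) F *ᵥ y) := by
    intro x y; rw [hBdef]; exact sympB_apply m x y
  have hBanti : ∀ x y, B x y = 0 → B y x = 0 := by
    intro x y h; rw [← hBalt.neg_eq, h, neg_zero]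
  have hWnd : ∀ u ∈ W, (∀ v ∈ W, B u v = 0) → u = 0 := fun u hu h =>
    hW u hu (fun v hv => by rw [← sympB_eq_sympForm, ← hBdef]; exact h v hv)
  obtain ⟨k1, e, f, hD1⟩ := exists_darboux B hBalt _ W rfl hWnd
  have hk1 : k = k1 := by
    have := hD1.finrank_eq hBalt
    omega
  subst hk1
  obtain ⟨Wp, hWp⟩ : ∃ Wp : Submodule F (Fin m ⊕ Fin m → F), Wp = B.orthogonal W := ⟨_, rfl⟩
  have hWpmem : ∀ u, u ∈ Wp ↔ ∀ w ∈ W, B w u = 0 := by
    intro u; rw [hWp]; exact LinearMap.BilinForm.mem_orthogonal_iff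
  have hWpnd : ∀ u ∈ Wp, (∀ v ∈ Wp, B u v = 0) → u = 0 := by
    intro u hu h
    have h1 : u ∈ B.orthogonal Wp := by
      rw [LinearMap.BilinForm.mem_orthogonal_iff]
      intro v hv
      exact hBanti _ _ (h v hv)
    rw [hWp, LinearMap.BilinForm.orthogonal_orthogonal hBnd hBalt.isRefl] at h1
    exact hWnd u h1 (fun v hv => hBanti _ _ ((hWpmem u).mp hu v hv))
  obtain ⟨k2, e', f', hD2⟩ := exists_darboux B hBalt _ Wp rfl hWpnd
  have hk2 : k2 = m - k := by
    have h1 := hD2.finrank_eq hBalt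
    have h2 := LinearMap.BilinForm.finrank_orthogonal hBnd W
    rw [← hWp, hWk, Module.finrank_fintype_fun_eq_card, Fintype.card_sum, Fintype.card_fin] at h2
    omega
  subst hk2
  -- the adapted basis
  obtain ⟨col, hcol⟩ : ∃ col : (Fin k ⊕ Fin k) ⊕ (Fin (m - k) ⊕ Fin (m - k)) →
      (Fin m ⊕ Fin m → F), col = Sum.elim (Sum.elim e f) (Sum.elim e' f') := ⟨_, rfl⟩
  have hcolW : ∀ a, col (Sum.inl a) ∈ W := by
    intro a; rw [hcol]
    rcases a with i | i
    · exact hD1.e_mem i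
    · exact hD1.f_mem i
  have hcolWp : ∀ a, col (Sum.inr a) ∈ Wp := by
    intro a; rw [hcol]
    rcases a with i | i
    · exact hD2.e_mem i
    · exact hD2.f_mem i
  obtain ⟨J', hJ'⟩ : ∃ J' : Matrix ((Fin k ⊕ Fin k) ⊕ (Fin (m - k) ⊕ Fin (m - k)))
      ((Fin k ⊕ Fin k) ⊕ (Fin (m - k) ⊕ Fin (m - k))) F,
      J' = Matrix.fromBlocks (Matrix.J (Fin k) F) 0 0 (Matrix.J (Fin (m - k)) F) := ⟨_, rfl⟩
  have hGram : ∀ c c', B (col c) (col c') = J' c c' := by
    intro c c'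
    rcases c with a | a <;> rcases c' with a' | a'
    · rw [hJ', hcol]; exact darboux_gram hBalt hD1 a a'
    · rw [hJ', Matrix.fromBlocks_apply₁₂, Matrix.zero_apply]
      exact (hWpmem _).mp (hcolWp a') _ (hcolW a)
    · rw [hJ', Matrix.fromBlocks_apply₂₁, Matrix.zero_apply]
      exact hBanti _ _ ((hWpmem _).mp (hcolWp a) _ (hcolW a'))
    · rw [hJ', hcol]; exact darboux_gram hBalt hD2 a a'
  obtain ⟨P, hP⟩ : ∃ P : Matrix (Fin m ⊕ Fin m) ((Fin k ⊕ Fin k) ⊕ (Fin (m - k) ⊕ Fin (m - k))) F,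
      P = Matrix.of (fun a c => col c a) := ⟨_, rfl⟩
  have hPmv : ∀ y, P *ᵥ y = ∑ c, y c • col c := by
    intro y
    funext a
    rw [hP]
    simp [Matrix.mulVec, dotProduct, mul_comm]
  have hPsingle : ∀ c, P *ᵥ (Pi.single c 1) = col c := by
    intro c
    rw [hPmv]
    simp [Pi.single_apply]
  have hPtJ : ∀ v c, (Pᵀ *ᵥ (Matrix.J (Fin m) F *ᵥ v)) c = B (col c) v := by
    intro v c
    rw [hBapply, hP]
    rfl
  have hGramM : Pᵀ * Matrix.J (Fin m) F * P = J' := by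
    ext c c'
    have h1 : (Pᵀ * Matrix.J (Fin m) F * P) c c' =
        (Pᵀ *ᵥ (Matrix.J (Fin m) F *ᵥ (P *ᵥ Pi.single c' 1))) c := by
      rw [Matrix.mulVec_mulVec, Matrix.mulVec_mulVec, Matrix.mulVec_single_one]
      rfl
    rw [h1, hPsingle, hPtJ, hGram]
  have hJ'sq : J' * J' = -1 := by
    rw [hJ', Matrix.fromBlocks_multiply]
    simp only [Matrix.J_squared, Matrix.mul_zero, Matrix.zero_mul, add_zero, zero_add]
    conv_rhs => rw [← Matrix.fromBlocks_one, Matrix.fromBlocks_neg]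
    simp
  obtain ⟨Q, hQ⟩ : ∃ Q : Matrix ((Fin k ⊕ Fin k) ⊕ (Fin (m - k) ⊕ Fin (m - k))) (Fin m ⊕ Fin m) F,
      Q = -J' * Pᵀ * Matrix.J (Fin m) F := ⟨_, rfl⟩
  have hQP : Q * P = 1 := by
    rw [hQ, Matrix.mul_assoc, Matrix.mul_assoc, ← Matrix.mul_assoc Pᵀ, hGramM, Matrix.neg_mul,
      hJ'sq, neg_neg]
  have hPQ : P * Q = 1 := by
    have eqv : (Fin m ⊕ Fin m) ≃ ((Fin k ⊕ Fin k) ⊕ (Fin (m - k) ⊕ Fin (m - k))) :=
      Fintype.equivOfCardEq (by simp only [Fintype.card_sum, Fintype.card_fin]; omega)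
    exact (Matrix.mul_eq_one_comm_of_equiv eqv).mpr hQP
  have hQJQ : Qᵀ * J' * Q = Matrix.J (Fin m) F := by
    calc Qᵀ * J' * Q = Qᵀ * (Pᵀ * Matrix.J (Fin m) F * P) * Q := by rw [hGramM]
      _ = (P * Q)ᵀ * Matrix.J (Fin m) F * (P * Q) := by
          rw [Matrix.transpose_mul]; simp only [Matrix.mul_assoc]
      _ = Matrix.J (Fin m) F := by rw [hPQ]; simp
  have hQv : ∀ v c, (Q *ᵥ v) c = -∑ c', J' c c' * B (col c') v := by
    intro v c
    rw [hQ, ← Matrix.mulVec_mulVec, ← Matrix.mulVec_mulVec, Matrix.neg_mulVec]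
    simp only [Pi.neg_apply, Matrix.mulVec, dotProduct]
    congr 1
    refine Finset.sum_congr rfl (fun c' _ => ?_)
    rw [← hPtJ]
    rfl
  have hQW : ∀ v ∈ W, ∀ a, (Q *ᵥ v) (Sum.inr a) = 0 := by
    intro v hv a
    rw [hQv, Fintype.sum_sum_type, neg_eq_zero]
    rw [Finset.sum_eq_zero, Finset.sum_eq_zero, add_zero]
    · intro a' _
      rw [hBanti _ _ ((hWpmem _).mp (hcolWp a') v hv), mul_zero]
    · intro a' _
      rw [hJ', Matrix.fromBlocks_apply₂₁, Matrix.zero_apply, zero_mul]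
  have hQWp : ∀ u ∈ Wp, ∀ a, (Q *ᵥ u) (Sum.inl a) = 0 := by
    intro u hu a
    rw [hQv, Fintype.sum_sum_type, neg_eq_zero]
    rw [Finset.sum_eq_zero, Finset.sum_eq_zero, add_zero]
    · intro a' _
      rw [hJ', Matrix.fromBlocks_apply₁₂, Matrix.zero_apply, zero_mul]
    · intro a' _
      rw [(hWpmem u).mp hu _ (hcolW a'), mul_zero]
  have hWQ : ∀ v, (∀ a, (Q *ᵥ v) (Sum.inr a) = 0) → v ∈ W := by
    intro v hv
    have h1 : v = P *ᵥ (Q *ᵥ v) := by rw [Matrix.mulVec_mulVec, hPQ, Matrix.one_mulVec]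
    rw [h1, hPmv, Fintype.sum_sum_type]
    refine W.add_mem (W.sum_mem (fun a _ => W.smul_mem _ (hcolW a))) ?_
    rw [Finset.sum_eq_zero]
    · exact W.zero_mem
    · intro a _
      rw [hv a, zero_smul]
  -- the homomorphism
  have hbd : ∀ (A : Matrix.symplecticGroup (Fin k) F) (D : Matrix.symplecticGroup (Fin (m - k)) F),
      (Matrix.fromBlocks A.1 0 0 D.1)ᵀ * J' * Matrix.fromBlocks A.1 0 0 D.1 = J' := by
    intro A D
    rw [hJ', Matrix.fromBlocks_transpose, Matrix.fromBlocks_multiply, Matrix.fromBlocks_multiply]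
    simp only [Matrix.mul_zero, Matrix.zero_mul, add_zero, zero_add, Matrix.transpose_zero]
    rw [SymplecticGroup.mem_iff'.mp A.2, SymplecticGroup.mem_iff'.mp D.2]
  have hmemΦ : ∀ (A : Matrix.symplecticGroup (Fin k) F)
      (D : Matrix.symplecticGroup (Fin (m - k)) F),
      P * Matrix.fromBlocks A.1 0 0 D.1 * Q ∈ Matrix.symplecticGroup (Fin m) F := by
    intro A D
    rw [SymplecticGroup.mem_iff']
    calc (P * Matrix.fromBlocks A.1 0 0 D.1 * Q)ᵀ * Matrix.J (Fin m) F *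
          (P * Matrix.fromBlocks A.1 0 0 D.1 * Q)
        = Qᵀ * ((Matrix.fromBlocks A.1 0 0 D.1)ᵀ * (Pᵀ * Matrix.J (Fin m) F * P) *
            Matrix.fromBlocks A.1 0 0 D.1) * Q := by
          simp only [Matrix.transpose_mul, Matrix.mul_assoc]
      _ = Matrix.J (Fin m) F := by rw [hGramM, hbd, hQJQ]
  let Φ : Matrix.symplecticGroup (Fin k) F × Matrix.symplecticGroup (Fin (m - k)) F →*
      Matrix.symplecticGroup (Fin m) F :=
    { toFun := fun p => ⟨P * Matrix.fromBlocks p.1.1 0 0 p.2.1 * Q, hmemΦ p.1 p.2⟩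
      map_one' := by
        apply Subtype.ext
        show P * Matrix.fromBlocks (1 : Matrix (Fin k ⊕ Fin k) (Fin k ⊕ Fin k) F) 0 0
          (1 : Matrix (Fin (m - k) ⊕ Fin (m - k)) (Fin (m - k) ⊕ Fin (m - k)) F) * Q = 1
        rw [Matrix.fromBlocks_one, Matrix.mul_one, hPQ]
      map_mul' := by
        intro p p'
        apply Subtype.ext
        show P * Matrix.fromBlocks (p.1.1 * p'.1.1) 0 0 (p.2.1 * p'.2.1) * Q =
          (P * Matrix.fromBlocks p.1.1 0 0 p.2.1 * Q) * (P * Matrix.fromBlocks p'.1.1 0 0 p'.2.1 * Q)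
        have h1 : Matrix.fromBlocks (p.1.1 * p'.1.1) 0 0 (p.2.1 * p'.2.1) =
            Matrix.fromBlocks p.1.1 0 0 p.2.1 * Matrix.fromBlocks p'.1.1 0 0 p'.2.1 := by
          rw [Matrix.fromBlocks_multiply]
          simp
        rw [h1]
        symm
        calc (P * Matrix.fromBlocks p.1.1 0 0 p.2.1 * Q) *
              (P * Matrix.fromBlocks p'.1.1 0 0 p'.2.1 * Q)
            = P * Matrix.fromBlocks p.1.1 0 0 p.2.1 * (Q * P) *
                Matrix.fromBlocks p'.1.1 0 0 p'.2.1 * Q := by simp only [Matrix.mul_assoc]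
          _ = P * (Matrix.fromBlocks p.1.1 0 0 p.2.1 * Matrix.fromBlocks p'.1.1 0 0 p'.2.1) * Q := by
              rw [hQP, Matrix.mul_one]; simp only [Matrix.mul_assoc] }
  have hΦval : ∀ p, (Φ p).1 = P * Matrix.fromBlocks p.1.1 0 0 p.2.1 * Q := fun p => rfl
  have hΦinj : Function.Injective Φ := by
    intro p p' h
    have h1 : P * Matrix.fromBlocks p.1.1 0 0 p.2.1 * Q = P * Matrix.fromBlocks p'.1.1 0 0 p'.2.1 * Q :=
      congrArg Subtype.val h
    have h2 : Matrix.fromBlocks p.1.1 0 0 p.2.1 = Matrix.fromBlocks p'.1.1 0 0 p'.2.1 := by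
      have h3 := congrArg (fun M => Q * M * P) h1
      have e : ∀ M : Matrix ((Fin k ⊕ Fin k) ⊕ (Fin (m - k) ⊕ Fin (m - k)))
          ((Fin k ⊕ Fin k) ⊕ (Fin (m - k) ⊕ Fin (m - k))) F, Q * (P * M * Q) * P = M := by
        intro M
        calc Q * (P * M * Q) * P = (Q * P) * M * (Q * P) := by simp only [Matrix.mul_assoc]
          _ = M := by rw [hQP, Matrix.one_mul, Matrix.mul_one]
      rw [e, e] at h3
      exact h3
    rw [Matrix.fromBlocks_inj] at h2
    exact Prod.ext (Subtype.ext h2.1) (Subtype.ext h2.2.2.2)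
  -- key invariance
  have hkey : ∀ p, ∀ v ∈ W, (Φ p).1 *ᵥ v ∈ W := by
    intro p v hv
    apply hWQ
    intro a
    rw [hΦval, Matrix.mulVec_mulVec, ← Matrix.mul_assoc, ← Matrix.mul_assoc, hQP, Matrix.one_mul,
      ← Matrix.mulVec_mulVec]
    simp only [Matrix.mulVec, dotProduct]
    rw [Fintype.sum_sum_type, Finset.sum_eq_zero, Finset.sum_eq_zero, add_zero]
    · intro a' _
      have := hQW v hv a'
      simp only [Matrix.mulVec, dotProduct] at this
      rw [this, mul_zero]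
    · intro a' _
      rw [Matrix.fromBlocks_apply₂₁, Matrix.zero_apply, zero_mul]
  have hrange : Φ.range = Cfsg.stabilizing (Cfsg.spToMat m F) (W : Set (Fin m ⊕ Fin m → F)) := by
    ext g
    constructor
    · rintro ⟨p, rfl⟩
      intro v
      constructor
      · intro hv
        exact hkey p v hv
      · intro hv
        have h1 := hkey p⁻¹ _ hv
        have h2 : (Φ p⁻¹).1 *ᵥ ((Φ p).1 *ᵥ v) = v := by
          rw [Matrix.mulVec_mulVec]
          have : (Φ p⁻¹).1 * (Φ p).1 = 1 := by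
            have h3 : Φ p⁻¹ * Φ p = 1 := by rw [← map_mul, inv_mul_cancel, map_one]
            exact congrArg Subtype.val h3
          rw [this, Matrix.one_mulVec]
        have h4 : (Φ p⁻¹).1 *ᵥ ((Φ p).1 *ᵥ v) ∈ W := h1
        rw [h2] at h4
        exact h4
    · intro hg
      have hgW : ∀ v ∈ W, g.1 *ᵥ v ∈ W := fun v hv => (hg v).mp hv
      have hginvW : ∀ w ∈ W, (g⁻¹).1 *ᵥ w ∈ W := by
        intro w hw
        apply (hg _).mpr
        show g.1 *ᵥ ((g⁻¹).1 *ᵥ w) ∈ W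
        rw [Matrix.mulVec_mulVec]
        have : g.1 * (g⁻¹).1 = 1 := congrArg Subtype.val (mul_inv_cancel g)
        rw [this, Matrix.one_mulVec]
        exact hw
      have hiso : ∀ x y, B (g.1 *ᵥ x) (g.1 *ᵥ y) = B x y := by
        intro x y
        have := symplectic_isometry m g.1 g.2 x y
        rw [Matrix.toLin'_apply, Matrix.toLin'_apply, ← hBdef] at this
        exact this
      have hgWp : ∀ u ∈ Wp, g.1 *ᵥ u ∈ Wp := by
        intro u hu
        rw [hWpmem]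
        intro w hw
        have h1 : w = g.1 *ᵥ ((g⁻¹).1 *ᵥ w) := by
          rw [Matrix.mulVec_mulVec]
          have : g.1 * (g⁻¹).1 = 1 := congrArg Subtype.val (mul_inv_cancel g)
          rw [this, Matrix.one_mulVec]
        rw [h1, hiso]
        exact (hWpmem u).mp hu _ (hginvW w hw)
      obtain ⟨M, hM⟩ : ∃ M : Matrix ((Fin k ⊕ Fin k) ⊕ (Fin (m - k) ⊕ Fin (m - k)))
          ((Fin k ⊕ Fin k) ⊕ (Fin (m - k) ⊕ Fin (m - k))) F, M = Q * g.1 * P := ⟨_, rfl⟩
      have hMentry : ∀ r c, M r c = (Q *ᵥ (g.1 *ᵥ col c)) r := by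
        intro r c
        rw [← hPsingle c, Matrix.mulVec_mulVec, Matrix.mulVec_mulVec, ← hM,
          Matrix.mulVec_single_one]
        rfl
      have hM21 : M.toBlocks₂₁ = 0 := by
        ext a a'
        show M (Sum.inr a) (Sum.inl a') = 0
        rw [hMentry]
        exact hQW _ (hgW _ (hcolW a')) a
      have hM12 : M.toBlocks₁₂ = 0 := by
        ext a a'
        show M (Sum.inl a) (Sum.inr a') = 0
        rw [hMentry]
        exact hQWp _ (hgWp _ (hcolWp a')) a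
      have hMeq : M = Matrix.fromBlocks M.toBlocks₁₁ 0 0 M.toBlocks₂₂ := by
        conv_lhs => rw [← Matrix.fromBlocks_toBlocks M]
        rw [hM21, hM12]
      have hMgram : Mᵀ * J' * M = J' := by
        calc Mᵀ * J' * M = Pᵀ * (g.1ᵀ * (Qᵀ * J' * Q) * g.1) * P := by
              rw [hM]; simp only [Matrix.transpose_mul, Matrix.mul_assoc]
          _ = J' := by rw [hQJQ, SymplecticGroup.mem_iff'.mp g.2, hGramM]
      rw [hMeq, hJ', Matrix.fromBlocks_transpose, Matrix.fromBlocks_multiply,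
        Matrix.fromBlocks_multiply, Matrix.fromBlocks_inj] at hMgram
      simp only [Matrix.mul_zero, Matrix.zero_mul, add_zero, zero_add, Matrix.transpose_zero]
        at hMgram
      obtain ⟨hA, -, -, hD⟩ := hMgram
      refine ⟨(⟨M.toBlocks₁₁, SymplecticGroup.mem_iff'.mpr hA⟩,
        ⟨M.toBlocks₂₂, SymplecticGroup.mem_iff'.mpr hD⟩), ?_⟩
      apply Subtype.ext
      show P * Matrix.fromBlocks M.toBlocks₁₁ 0 0 M.toBlocks₂₂ * Q = g.1
      rw [← hMeq, hM]
      calc P * (Q * g.1 * P) * Q = (P * Q) * g.1 * (P * Q) := by simp only [Matrix.mul_assoc]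
        _ = g.1 := by rw [hPQ, Matrix.one_mul, Matrix.mul_one]
  exact ⟨((MonoidHom.ofInjective hΦinj).trans (MulEquiv.subgroupCongr hrange)).symm⟩

end Cfsg.Agent.S0776
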