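import Cfsg.Statements.S0777
import Mathlib

set_option autoImplicit false
open Cfsg

namespace Cfsg.Agent.S0777

open Matrix

variable {F : Type*} [Field F] {m : ℕ}

/-- The sign function of `J`. -/
private def sg (F : Type*) [Field F] {m : ℕ} : Fin m ⊕ Fin m → F :=
  Sum.elim (fun _ => -1) (fun _ => 1)

private theorem sg_ne_zero (b : Fin m ⊕ Fin m) : sg F b ≠ 0 := by
  rcases b with i | i <;> simp [sg]

private theorem J_apply' (a b : Fin m ⊕ Fin m) :
    Matrix.J (Fin m) F a b = if b = Sum.swap a then sg F a else 0 := by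
  rcases a with i | i <;> rcases b with j | j <;>
    simp [Matrix.J, sg, Matrix.one_apply, eq_comm]
  all_goals (split_ifs <;> simp)

private theorem swap_ne (a : Fin m ⊕ Fin m) : Sum.swap a ≠ a := by
  rcases a with i | i <;> simp

/-- A monomial matrix. -/
private def mono (τ : Fin m ⊕ Fin m → Fin m ⊕ Fin m) (c : Fin m ⊕ Fin m → F) :
    Matrix (Fin m ⊕ Fin m) (Fin m ⊕ Fin m) F :=
  Matrix.of (fun a b => if a = τ b then c b else 0)

private theorem mono_gram (τ : Fin m ⊕ Fin m → Fin m ⊕ Fin m) (c : Fin m ⊕ Fin m → F) :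
    (mono τ c)ᵀ * Matrix.J (Fin m) F * mono τ c =
      Matrix.of (fun b b' => c b * c b' * Matrix.J (Fin m) F (τ b) (τ b')) := by
  ext b b'
  simp only [Matrix.mul_apply, Matrix.transpose_apply, mono, Matrix.of_apply]
  simp only [ite_mul, zero_mul, mul_ite, mul_zero, Finset.sum_ite_eq', Finset.mem_univ, if_true]
  ring

private theorem mono_mem (τ : Fin m ⊕ Fin m → Fin m ⊕ Fin m) (c : Fin m ⊕ Fin m → F)
    (hτp : ∀ b, τ (Sum.swap b) = Sum.swap (τ b)) (hτ : Function.Injective τ)
    (hc : ∀ b, c b * c (Sum.swap b) * sg F (τ b) = sg F b) :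
    mono τ c ∈ Matrix.symplecticGroup (Fin m) F := by
  rw [SymplecticGroup.mem_iff', mono_gram]
  ext b b'
  rw [Matrix.of_apply, J_apply', J_apply']
  by_cases h : b' = Sum.swap b
  · subst h
    rw [if_pos (hτp b), if_pos rfl]
    exact hc b
  · rw [if_neg h, if_neg, mul_zero]
    intro h'
    apply h
    apply hτ
    rw [h', hτp]

private theorem mono_mem_conv (τ : Fin m ⊕ Fin m → Fin m ⊕ Fin m) (c : Fin m ⊕ Fin m → F)
    (h : mono τ c ∈ Matrix.symplecticGroup (Fin m) F) (b : Fin m ⊕ Fin m) :
    τ (Sum.swap b) = Sum.swap (τ b) ∧ c b * c (Sum.swap b) * sg F (τ b) = sg F b := by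
  rw [SymplecticGroup.mem_iff', mono_gram] at h
  have h1 := congrFun (congrFun h b) (Sum.swap b)
  rw [Matrix.of_apply, J_apply', J_apply', if_pos rfl] at h1
  by_cases h2 : τ (Sum.swap b) = Sum.swap (τ b)
  · rw [if_pos h2] at h1; exact ⟨h2, h1⟩
  · rw [if_neg h2, mul_zero] at h1; exact absurd h1.symm (sg_ne_zero b)

private theorem diag_mul_apply (D M : Matrix (Fin m ⊕ Fin m) (Fin m ⊕ Fin m) F)
    (hD : ∀ a b, a ≠ b → D a b = 0) (a b : Fin m ⊕ Fin m) :
    (D * M) a b = D a a * M a b := by
  rw [Matrix.mul_apply, Finset.sum_eq_single a]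
  · intro c _ hc; rw [hD a c hc.symm, zero_mul]
  · intro h; exact absurd (Finset.mem_univ _) h

private theorem mul_diag_apply (M D : Matrix (Fin m ⊕ Fin m) (Fin m ⊕ Fin m) F)
    (hD : ∀ a b, a ≠ b → D a b = 0) (a b : Fin m ⊕ Fin m) :
    (M * D) a b = M a b * D b b := by
  rw [Matrix.mul_apply, Finset.sum_eq_single b]
  · intro c _ hc; rw [hD c b hc, mul_zero]
  · intro h; exact absurd (Finset.mem_univ _) h

private theorem span_single_iff (i : Fin m ⊕ Fin m) (v : Fin m ⊕ Fin m → F) :
    v ∈ (Submodule.span F {(Pi.single i (1 : F) : Fin m ⊕ Fin m → F)} :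
      Submodule F (Fin m ⊕ Fin m → F)) ↔ ∀ a, a ≠ i → v a = 0 := by
  rw [Submodule.mem_span_singleton]
  constructor
  · rintro ⟨c, rfl⟩ a ha
    simp [ha]
  · intro h
    refine ⟨v i, ?_⟩
    funext a
    by_cases ha : a = i
    · subst ha; simp
    · simp [ha, h a ha]

private abbrev Tor (F : Type*) [Field F] (m : ℕ) : Subgroup (Matrix.symplecticGroup (Fin m) F) :=
  ⨅ i : Fin m ⊕ Fin m, Cfsg.stabilizing (Cfsg.spToMat m F)
    ((Submodule.span F {(Pi.single i (1 : F) : Fin m ⊕ Fin m → F)} :
      Submodule F (Fin m ⊕ Fin m → F)) : Set (Fin m ⊕ Fin m → F))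

private theorem mem_Tor_iff (t : Matrix.symplecticGroup (Fin m) F) :
    t ∈ Tor F m ↔ ∀ a b, a ≠ b → t.1 a b = 0 := by
  rw [Subgroup.mem_iInf]
  constructor
  · intro h a b hab
    have h1 := (h b (Pi.single b 1)).mp (Submodule.subset_span rfl)
    have h2 : t.1 *ᵥ (Pi.single b 1) ∈ (Submodule.span F {(Pi.single b (1 : F) :
        Fin m ⊕ Fin m → F)} : Submodule F (Fin m ⊕ Fin m → F)) := h1
    rw [span_single_iff] at h2
    have := h2 a hab
    simpa using this
  · intro h i v
    have hne : ∀ a, t.1 a a ≠ 0 := by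
      intro a h0
      have h1 : ((t⁻¹ * t : Matrix.symplecticGroup (Fin m) F).1) a a = 1 := by
        rw [inv_mul_cancel]
        show (1 : Matrix (Fin m ⊕ Fin m) (Fin m ⊕ Fin m) F) a a = 1
        simp
      have h2 : (t⁻¹ * t : Matrix.symplecticGroup (Fin m) F).1 = (t⁻¹).1 * t.1 := rfl
      rw [h2, mul_diag_apply _ _ h, h0, mul_zero] at h1
      exact zero_ne_one h1
    have hmv : ∀ a, (t.1 *ᵥ v) a = t.1 a a * v a := by
      intro a
      simp only [Matrix.mulVec, dotProduct]
      rw [Finset.sum_eq_single a]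
      · intro c _ hc; rw [h a c hc.symm, zero_mul]
      · intro h'; exact absurd (Finset.mem_univ _) h'
    show v ∈ (Submodule.span F {(Pi.single i (1 : F) : Fin m ⊕ Fin m → F)} :
        Submodule F (Fin m ⊕ Fin m → F)) ↔
      t.1 *ᵥ v ∈ (Submodule.span F {(Pi.single i (1 : F) : Fin m ⊕ Fin m → F)} :
        Submodule F (Fin m ⊕ Fin m → F))
    rw [span_single_iff, span_single_iff]
    constructor
    · intro hv a ha; rw [hmv, hv a ha, mul_zero]
    · intro hv a ha
      have := hv a ha
      rw [hmv] at this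
      rcases mul_eq_zero.mp this with h3 | h3
      · exact absurd h3 (hne a)
      · exact h3

private def dvec (x : F) (b : Fin m ⊕ Fin m) : Fin m ⊕ Fin m → F :=
  fun c => if c = b then x else if c = Sum.swap b then x⁻¹ else 1

private theorem dmat_mem (x : F) (hx : x ≠ 0) (b : Fin m ⊕ Fin m) :
    mono id (dvec x b) ∈ Matrix.symplecticGroup (Fin m) F := by
  apply mono_mem
  · intro c; rfl
  · exact Function.injective_id
  · intro c
    have hss : ∀ a : Fin m ⊕ Fin m, Sum.swap (Sum.swap a) = a := Sum.swap_swap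
    have : dvec x b c * dvec x b (Sum.swap c) = 1 := by
      unfold dvec
      by_cases h1 : c = b
      · subst h1
        rw [if_pos rfl, if_neg (swap_ne c), if_pos rfl, mul_inv_cancel₀ hx]
      · by_cases h2 : c = Sum.swap b
        · subst h2
          rw [if_neg h1, if_pos rfl, hss, if_pos rfl, inv_mul_cancel₀ hx]
        · have h3 : Sum.swap c ≠ b := by intro h; apply h2; rw [← h, hss]
          have h4 : Sum.swap c ≠ Sum.swap b := by
            intro h; apply h1
            have := congrArg Sum.swap h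
            rwa [hss, hss] at this
          rw [if_neg h1, if_neg h2, if_neg h3, if_neg h4, mul_one]
    rw [this, one_mul]; rfl

private theorem exists_x [Fintype F] (hq : 4 ≤ Fintype.card F) :
    ∃ x : F, x ≠ 0 ∧ x ≠ 1 ∧ x ≠ x⁻¹ := by
  classical
  by_contra hcon
  push Not at hcon
  have hsub : (Finset.univ : Finset F) ⊆ {0, 1, -1} := by
    intro x _
    by_cases h0 : x = 0
    · simp [h0]
    by_cases h1 : x = 1
    · simp [h1]
    have h2 := hcon x h0 h1
    have h3 : x * x = 1 := by
      nth_rewrite 2 [h2]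
      exact mul_inv_cancel₀ h0
    have h4 : (x - 1) * (x + 1) = 0 := by linear_combination h3
    rcases mul_eq_zero.mp h4 with h5 | h5
    · exact absurd (sub_eq_zero.mp h5) h1
    · simp [eq_neg_of_add_eq_zero_left h5]
  have := Finset.card_le_card hsub
  have h3 : ({0, 1, -1} : Finset F).card ≤ 3 := Finset.card_le_three
  rw [Finset.card_univ] at this
  omega

private theorem normalizer_mono [Fintype F] (hq : 4 ≤ Fintype.card F)
    (g : Matrix.symplecticGroup (Fin m) F)
    (hg : g ∈ Subgroup.normalizer ((Tor F m : Subgroup (Matrix.symplecticGroup (Fin m) F)) :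
      Set (Matrix.symplecticGroup (Fin m) F))) :
    (∀ a b b', g.1 a b ≠ 0 → g.1 a b' ≠ 0 → b = b') ∧
      (∀ b a a', g.1 a b ≠ 0 → g.1 a' b ≠ 0 → a = a') := by
  obtain ⟨x, hx0, hx1, hxi⟩ := exists_x hq
  rw [Subgroup.mem_normalizer_iff] at hg
  have hd : ∀ b b' : Fin m ⊕ Fin m, b' ≠ b → dvec x b b' ≠ x := by
    intro b b' hne
    unfold dvec
    rw [if_neg hne]
    by_cases h : b' = Sum.swap b
    · rw [if_pos h]; exact fun h' => hxi h'.symm
    · rw [if_neg h]; exact fun h' => hx1 h'.symm
  have hdb : ∀ b : Fin m ⊕ Fin m, dvec x b b = x := fun b => by unfold dvec; rw [if_pos rfl]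
  let t : (Fin m ⊕ Fin m) → Matrix.symplecticGroup (Fin m) F :=
    fun b => ⟨mono id (dvec x b), dmat_mem x hx0 b⟩
  have htdiag : ∀ b a c, a ≠ c → (t b).1 a c = 0 := by
    intro b a c hac
    show mono id (dvec x b) a c = 0
    simp [mono, hac]
  have htT : ∀ b, t b ∈ Tor F m := fun b => (mem_Tor_iff _).mpr (htdiag b)
  have htval : ∀ b c, (t b).1 c c = dvec x b c := by
    intro b c
    show mono id (dvec x b) c c = _
    simp [mono]
  constructor
  · intro a b b' hab hab'
    by_contra hne
    have h1 := (hg (t b)).mp (htT b)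
    have hdiag := (mem_Tor_iff _).mp h1
    have heq : (g * t b * g⁻¹ : Matrix.symplecticGroup (Fin m) F).1 * g.1 = g.1 * (t b).1 := by
      have : g * t b * g⁻¹ * g = g * t b := by group
      exact congrArg Subtype.val this
    have e1 := congrFun (congrFun heq a) b
    have e2 := congrFun (congrFun heq a) b'
    rw [diag_mul_apply _ _ hdiag, mul_diag_apply _ _ (htdiag b), htval, hdb] at e1
    rw [diag_mul_apply _ _ hdiag, mul_diag_apply _ _ (htdiag b), htval] at e2
    have h3 : (g * t b * g⁻¹ : Matrix.symplecticGroup (Fin m) F).1 a a = x :=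
      mul_right_cancel₀ hab (e1.trans (mul_comm _ _))
    have h4 : (g * t b * g⁻¹ : Matrix.symplecticGroup (Fin m) F).1 a a = dvec x b b' :=
      mul_right_cancel₀ hab' (e2.trans (mul_comm _ _))
    exact hd b b' (fun h => hne h.symm) (h4.symm.trans h3)
  · intro b a a' hab hab'
    by_contra hne
    have h1 : g⁻¹ * t a * g ∈ Tor F m := by
      rw [hg]
      have : g * (g⁻¹ * t a * g) * g⁻¹ = t a := by group
      rw [this]; exact htT a
    have hdiag := (mem_Tor_iff _).mp h1
    have heq : (t a).1 * g.1 = g.1 * (g⁻¹ * t a * g : Matrix.symplecticGroup (Fin m) F).1 := by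
      have : t a * g = g * (g⁻¹ * t a * g) := by group
      exact congrArg Subtype.val this
    have e1 := congrFun (congrFun heq a) b
    have e2 := congrFun (congrFun heq a') b
    rw [diag_mul_apply _ _ (htdiag a), mul_diag_apply _ _ hdiag, htval, hdb] at e1
    rw [diag_mul_apply _ _ (htdiag a), mul_diag_apply _ _ hdiag, htval] at e2
    have h3 : x = (g⁻¹ * t a * g : Matrix.symplecticGroup (Fin m) F).1 b b :=
      mul_left_cancel₀ hab ((mul_comm _ _).trans e1)
    have h4 : dvec x a a' = (g⁻¹ * t a * g : Matrix.symplecticGroup (Fin m) F).1 b b :=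
      mul_left_cancel₀ hab' ((mul_comm _ _).trans e2)
    exact hd a a' (fun h => hne h.symm) (h4.trans h3.symm)

private def tau (σ : Equiv.Perm (Fin m)) (ε : Fin m → Bool) : Fin m ⊕ Fin m → Fin m ⊕ Fin m
  | Sum.inl i => if ε i then Sum.inr (σ i) else Sum.inl (σ i)
  | Sum.inr i => if ε i then Sum.inl (σ i) else Sum.inr (σ i)

private def cvec (ε : Fin m → Bool) (c : Fin m → Fˣ) : Fin m ⊕ Fin m → F
  | Sum.inl i => (c i : F)
  | Sum.inr i => if ε i then -((c i : F))⁻¹ else ((c i : F))⁻¹

private theorem tau_swap (σ : Equiv.Perm (Fin m)) (ε : Fin m → Bool) (b : Fin m ⊕ Fin m) :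
    tau σ ε (Sum.swap b) = Sum.swap (tau σ ε b) := by
  rcases b with i | i <;> cases hi : ε i <;> simp [tau, hi]

private theorem tau_inj (σ : Equiv.Perm (Fin m)) (ε : Fin m → Bool) :
    Function.Injective (tau σ ε) := by
  rintro (i | i) (j | j) h <;> simp only [tau] at h <;> cases hi : ε i <;> cases hj : ε j <;>
    simp [hi, hj] at h <;> subst h <;> simp_all

private theorem cvec_ne_zero (ε : Fin m → Bool) (c : Fin m → Fˣ) (b : Fin m ⊕ Fin m) :
    cvec (F := F) ε c b ≠ 0 := by
  rcases b with i | i
  · exact (c i).ne_zero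
  · cases hi : ε i <;> simp [cvec, hi]

private theorem cvec_rel (σ : Equiv.Perm (Fin m)) (ε : Fin m → Bool) (c : Fin m → Fˣ)
    (b : Fin m ⊕ Fin m) :
    cvec (F := F) ε c b * cvec ε c (Sum.swap b) * sg F (tau σ ε b) = sg F b := by
  rcases b with i | i <;> cases hi : ε i <;> simp [cvec, tau, sg, hi]

private def Psi (p : Equiv.Perm (Fin m) × (Fin m → Bool) × (Fin m → Fˣ)) :
    Matrix.symplecticGroup (Fin m) F :=
  ⟨mono (tau p.1 p.2.1) (cvec p.2.1 p.2.2),
    mono_mem _ _ (tau_swap _ _) (tau_inj _ _) (cvec_rel _ _ _)⟩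

private theorem Psi_injective : Function.Injective (Psi (F := F) (m := m)) := by
  rintro ⟨σ, ε, c⟩ ⟨σ', ε', c'⟩ h
  have h' : mono (tau σ ε) (cvec ε c) = mono (tau σ' ε') (cvec (F := F) ε' c') :=
    congrArg Subtype.val h
  have key : ∀ i, tau σ ε (Sum.inl i) = tau σ' ε' (Sum.inl i) ∧ c i = c' i := by
    intro i
    have h1 := congrFun (congrFun h' (tau σ ε (Sum.inl i))) (Sum.inl i)
    simp only [mono, Matrix.of_apply, if_pos rfl] at h1
    by_cases h2 : tau σ ε (Sum.inl i) = tau σ' ε' (Sum.inl i)
    · rw [if_pos h2] at h1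
      exact ⟨h2, Units.ext h1⟩
    · rw [if_neg h2] at h1
      exact absurd h1 (c i).ne_zero
  have hε : ε = ε' := by
    funext i
    have := (key i).1
    simp only [tau] at this
    cases hi : ε i <;> cases hj : ε' i <;> simp [hi, hj] at this ⊢
  have hσ : σ = σ' := by
    ext i
    have := (key i).1
    simp only [tau] at this
    subst hε
    cases hi : ε i <;> simp [hi] at this <;> rw [this]
  have hc : c = c' := funext fun i => (key i).2
  rw [hε, hσ, hc]

theorem result {F : Type*} [Field F] [Fintype F] {q : ℕ} (hF : Fintype.card F = q) (hq : 4 ≤ q) (m : ℕ) : Nat.card ↥(Subgroup.normalizer (⨅ i : Fin m ⊕ Fin m, Cfsg.stabilizing (Cfsg.spToMat m F) ((Submodule.span F {(Pi.single i (1 : F) : Fin m ⊕ Fin m → F)} : Submodule F (Fin m ⊕ Fin m → F)) : Set (Fin m ⊕ Fin m → F)) : Set (Matrix.symplecticGroup (Fin m) F))) = 2 ^ m * Nat.factorial m * (q - 1) ^ m := by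
  classical
  have hrange : Set.range (Psi (F := F) (m := m)) =
      (Subgroup.normalizer ((Tor F m : Subgroup (Matrix.symplecticGroup (Fin m) F)) :
        Set (Matrix.symplecticGroup (Fin m) F)) : Set (Matrix.symplecticGroup (Fin m) F)) := by
    ext g
    constructor
    · rintro ⟨⟨σ, ε, c⟩, rfl⟩
      rw [SetLike.mem_coe]
      apply Subgroup.mem_normalizer_fintype
      intro t ht
      have ht' : t ∈ Tor F m := ht
      have htd := (mem_Tor_iff t).mp ht'
      show Psi (σ, ε, c) * t * (Psi (σ, ε, c))⁻¹ ∈ Tor F m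
      rw [mem_Tor_iff]
      intro a b hab
      obtain ⟨b₀, hb₀⟩ := Finite.surjective_of_injective (tau_inj σ ε) b
      have heq : (Psi (σ, ε, c) * t * (Psi (σ, ε, c))⁻¹ : Matrix.symplecticGroup (Fin m) F).1 *
          (Psi (F := F) (σ, ε, c)).1 = (Psi (F := F) (σ, ε, c)).1 * t.1 := by
        have : Psi (σ, ε, c) * t * (Psi (σ, ε, c))⁻¹ * Psi (σ, ε, c) = Psi (σ, ε, c) * t := by
          group
        exact congrArg Subtype.val this
      have e1 := congrFun (congrFun heq a) b₀
      rw [mul_diag_apply _ _ htd, Matrix.mul_apply, Finset.sum_eq_single b] at e1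
      · have h2 : (Psi (F := F) (σ, ε, c)).1 b b₀ = cvec ε c b₀ := by
          show mono (tau σ ε) (cvec ε c) b b₀ = _
          simp [mono, hb₀]
        have h3 : (Psi (F := F) (σ, ε, c)).1 a b₀ = 0 := by
          show mono (tau σ ε) (cvec ε c) a b₀ = _
          simp [mono, hb₀, hab]
        rw [h2, h3, zero_mul] at e1
        rcases mul_eq_zero.mp e1 with h4 | h4
        · exact h4
        · exact absurd h4 (cvec_ne_zero ε c b₀)
      · intro x _ hx
        have : (Psi (F := F) (σ, ε, c)).1 x b₀ = 0 := by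
          show mono (tau σ ε) (cvec ε c) x b₀ = _
          simp [mono, hb₀, hx]
        rw [this, mul_zero]
      · intro h; exact absurd (Finset.mem_univ _) h
    · intro hg
      rw [SetLike.mem_coe] at hg
      obtain ⟨hrow, hcol⟩ := normalizer_mono (by rw [hF]; exact hq) g hg
      -- every column has a nonzero entry
      have hex : ∀ b, ∃ a, g.1 a b ≠ 0 := by
        intro b
        by_contra hcon
        push Not at hcon
        have h1 : ((g⁻¹ * g : Matrix.symplecticGroup (Fin m) F).1) b b = 1 := by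
          rw [inv_mul_cancel]
          show (1 : Matrix (Fin m ⊕ Fin m) (Fin m ⊕ Fin m) F) b b = 1
          simp
        have h2 : (g⁻¹ * g : Matrix.symplecticGroup (Fin m) F).1 = (g⁻¹).1 * g.1 := rfl
        rw [h2, Matrix.mul_apply] at h1
        rw [Finset.sum_eq_zero (fun a _ => by rw [hcon a, mul_zero])] at h1
        exact zero_ne_one h1
      choose τ hτ using hex
      let cv : Fin m ⊕ Fin m → F := fun b => g.1 (τ b) b
      have hgeq : g.1 = mono τ cv := by
        ext a b
        simp only [mono, Matrix.of_apply]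
        by_cases h : a = τ b
        · rw [if_pos h, h]
        · rw [if_neg h]
          by_contra h0
          exact h (hcol b a (τ b) h0 (hτ b))
      have hτinj : Function.Injective τ := by
        intro b b' hbb
        apply hrow (τ b) b b' (hτ b)
        rw [hbb]; exact hτ b'
      have hmem : mono τ cv ∈ Matrix.symplecticGroup (Fin m) F := by rw [← hgeq]; exact g.2
      have hrel := mono_mem_conv τ cv hmem
      -- extract the data
      let σf : Fin m → Fin m := fun i => Sum.elim id id (τ (Sum.inl i))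
      let ε : Fin m → Bool := fun i => (τ (Sum.inl i)).isRight
      have hσinj : Function.Injective σf := by
        intro i j hij
        have h1 : τ (Sum.inl j) = τ (Sum.inl i) ∨ τ (Sum.inl j) = Sum.swap (τ (Sum.inl i)) := by
          simp only [σf] at hij
          rcases hi : τ (Sum.inl i) with a | a <;> rcases hj : τ (Sum.inl j) with b | b <;>
            simp [hi, hj] at hij ⊢ <;> exact hij.symm
        rcases h1 with h1 | h1
        · exact (Sum.inl_injective (hτinj h1)).symm
        · rw [← (hrel (Sum.inl i)).1] at h1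
          have := hτinj h1
          simp at this
      let σ : Equiv.Perm (Fin m) := Equiv.ofBijective σf (Finite.injective_iff_bijective.mp hσinj)
      have hcv0 : ∀ b, cv b ≠ 0 := hτ
      let c : Fin m → Fˣ := fun i => Units.mk0 (cv (Sum.inl i)) (hcv0 _)
      refine ⟨(σ, ε, c), ?_⟩
      apply Subtype.ext
      show mono (tau σ ε) (cvec ε c) = g.1
      rw [hgeq]
      have htau : tau σ ε = τ := by
        funext b
        rcases b with i | i
        · show (if ε i then Sum.inr (σ i) else Sum.inl (σ i)) = τ (Sum.inl i)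
          show (if (τ (Sum.inl i)).isRight then Sum.inr (Sum.elim id id (τ (Sum.inl i)))
            else Sum.inl (Sum.elim id id (τ (Sum.inl i)))) = τ (Sum.inl i)
          rcases τ (Sum.inl i) with a | a <;> simp
        · show (if ε i then Sum.inl (σ i) else Sum.inr (σ i)) = τ (Sum.inr i)
          have h1 : τ (Sum.inr i) = Sum.swap (τ (Sum.inl i)) := (hrel (Sum.inl i)).1
          rw [h1]
          show (if (τ (Sum.inl i)).isRight then Sum.inl (Sum.elim id id (τ (Sum.inl i)))
            else Sum.inr (Sum.elim id id (τ (Sum.inl i)))) = Sum.swap (τ (Sum.inl i))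
          rcases τ (Sum.inl i) with a | a <;> simp
      have hcvec : cvec ε c = cv := by
        funext b
        rcases b with i | i
        · rfl
        · show (if ε i then -((c i : F))⁻¹ else ((c i : F))⁻¹) = cv (Sum.inr i)
          have h1 := (hrel (Sum.inl i)).2
          have h2 : Sum.swap (Sum.inl i : Fin m ⊕ Fin m) = Sum.inr i := rfl
          rw [h2] at h1
          have hci : ((c i : Fˣ) : F) = cv (Sum.inl i) := rfl
          rw [hci]
          have hne := hcv0 (Sum.inl i)
          show (if (τ (Sum.inl i)).isRight then -(cv (Sum.inl i))⁻¹ else (cv (Sum.inl i))⁻¹) =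
            cv (Sum.inr i)
          rcases hi : τ (Sum.inl i) with a | a
          · rw [hi] at h1
            simp only [sg, Sum.elim_inl] at h1
            simp only [Sum.isRight_inl, Bool.false_eq_true, if_false]
            field_simp
            linear_combination h1
          · rw [hi] at h1
            simp only [sg, Sum.elim_inl, Sum.elim_inr] at h1
            simp only [Sum.isRight_inr, if_true]
            field_simp
            linear_combination -h1
      rw [htau, hcvec]
  have hcard : Nat.card ↥(Subgroup.normalizer (⨅ i : Fin m ⊕ Fin m,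
      Cfsg.stabilizing (Cfsg.spToMat m F) ((Submodule.span F {(Pi.single i (1 : F) :
        Fin m ⊕ Fin m → F)} : Submodule F (Fin m ⊕ Fin m → F)) : Set (Fin m ⊕ Fin m → F)) :
      Set (Matrix.symplecticGroup (Fin m) F))) = Nat.card (Set.range (Psi (F := F) (m := m))) := by
    have hset : (⨅ i : Fin m ⊕ Fin m,
        (Cfsg.stabilizing (Cfsg.spToMat m F) ((Submodule.span F {(Pi.single i (1 : F) :
          Fin m ⊕ Fin m → F)} : Submodule F (Fin m ⊕ Fin m → F)) : Set (Fin m ⊕ Fin m → F)) :
        Set (Matrix.symplecticGroup (Fin m) F))) =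
        ((Tor F m : Subgroup (Matrix.symplecticGroup (Fin m) F)) :
          Set (Matrix.symplecticGroup (Fin m) F)) := by
      rw [Subgroup.coe_iInf]; rfl
    rw [hset, hrange]; rfl
  rw [hcard, Nat.card_range_of_injective Psi_injective, Nat.card_prod, Nat.card_prod,
    Nat.card_perm, Nat.card_fun, Nat.card_fun, Nat.card_units, Nat.card_eq_fintype_card,
    Nat.card_eq_fintype_card, Nat.card_eq_fintype_card, Fintype.card_fin, Fintype.card_bool, hF]
  ring

end Cfsg.Agent.S0777
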