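import Cfsg.Statements.S0778

set_option autoImplicit false
open Cfsg

namespace Cfsg.Agent.S0778

open Matrix

variable {F : Type*} [Field F] (m : ℕ)

private def blk (X : Matrix.GeneralLinearGroup (Fin m) F) :
    Matrix (Fin m ⊕ Fin m) (Fin m ⊕ Fin m) F :=
  Matrix.fromBlocks (X : Matrix (Fin m) (Fin m) F) 0 0
    ((X⁻¹ : Matrix.GeneralLinearGroup (Fin m) F) : Matrix (Fin m) (Fin m) F)ᵀ

private theorem blk_mem (X : Matrix.GeneralLinearGroup (Fin m) F) :
    blk m X ∈ Matrix.symplecticGroup (Fin m) F := by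
  rw [SymplecticGroup.mem_iff]
  unfold blk Matrix.J
  rw [Matrix.fromBlocks_transpose, Matrix.fromBlocks_multiply, Matrix.fromBlocks_multiply]
  have h1 : (X : Matrix (Fin m) (Fin m) F) *
      ((X⁻¹ : Matrix.GeneralLinearGroup (Fin m) F) : Matrix (Fin m) (Fin m) F) = 1 := by
    rw [← Units.val_mul, mul_inv_cancel]; rfl
  have h2 : ((X⁻¹ : Matrix.GeneralLinearGroup (Fin m) F) : Matrix (Fin m) (Fin m) F) *
      (X : Matrix (Fin m) (Fin m) F) = 1 := by
    rw [← Units.val_mul, inv_mul_cancel]; rfl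
  have h3 : ((X⁻¹ : Matrix.GeneralLinearGroup (Fin m) F) : Matrix (Fin m) (Fin m) F)ᵀ *
      (X : Matrix (Fin m) (Fin m) F)ᵀ = 1 := by
    rw [← Matrix.transpose_mul, h1, Matrix.transpose_one]
  simp only [Matrix.mul_zero, Matrix.zero_mul, Matrix.mul_one, add_zero, zero_add,
    Matrix.mul_neg, Matrix.neg_mul, h1, h3, Matrix.transpose_transpose, neg_zero,
    Matrix.transpose_zero]

private def blkHom : Matrix.GeneralLinearGroup (Fin m) F →* Matrix.symplecticGroup (Fin m) F where
  toFun X := ⟨blk m X, blk_mem m X⟩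
  map_one' := by
    apply Subtype.ext
    simp [blk, Matrix.fromBlocks_one]
  map_mul' X Y := by
    apply Subtype.ext
    simp [blk, Matrix.fromBlocks_multiply, _root_.mul_inv_rev, Matrix.transpose_mul]

private theorem blkHom_injective : Function.Injective (blkHom (F := F) m) := by
  intro X Y h
  have h' : blk m X = blk m Y := congrArg Subtype.val h
  unfold blk at h'
  rw [Matrix.fromBlocks_inj] at h'
  exact Units.ext h'.1

private theorem range_blkHom : (blkHom (F := F) m).range =
    Cfsg.stabilizing (Cfsg.spToMat m F) {v : Fin m ⊕ Fin m → F | ∀ i : Fin m, v (Sum.inr i) = 0} ⊓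
    Cfsg.stabilizing (Cfsg.spToMat m F) {v : Fin m ⊕ Fin m → F | ∀ i : Fin m, v (Sum.inl i) = 0} := by
  ext A
  constructor
  · rintro ⟨X, rfl⟩
    have h1 : (X : Matrix (Fin m) (Fin m) F) *
        ((X⁻¹ : Matrix.GeneralLinearGroup (Fin m) F) : Matrix (Fin m) (Fin m) F) = 1 := by
      rw [← Units.val_mul, mul_inv_cancel]; rfl
    have h2 : ((X⁻¹ : Matrix.GeneralLinearGroup (Fin m) F) : Matrix (Fin m) (Fin m) F) *
        (X : Matrix (Fin m) (Fin m) F) = 1 := by
      rw [← Units.val_mul, inv_mul_cancel]; rfl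
    constructor
    · intro v
      show (∀ i : Fin m, v (Sum.inr i) = 0) ↔ ∀ i : Fin m, (blk m X *ᵥ v) (Sum.inr i) = 0
      have key : ∀ i : Fin m, (blk m X *ᵥ v) (Sum.inr i) =
          (((X⁻¹ : Matrix.GeneralLinearGroup (Fin m) F) : Matrix (Fin m) (Fin m) F)ᵀ *ᵥ
            (fun j => v (Sum.inr j))) i := by
        intro i
        simp [blk, Matrix.mulVec, dotProduct, Fintype.sum_sum_type]
      constructor
      · intro h i
        rw [key]
        have : (fun j => v (Sum.inr j)) = 0 := funext h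
        rw [this, Matrix.mulVec_zero]; rfl
      · intro h
        have h0 : ((X⁻¹ : Matrix.GeneralLinearGroup (Fin m) F) : Matrix (Fin m) (Fin m) F)ᵀ *ᵥ
            (fun j => v (Sum.inr j)) = 0 := by
          funext i; rw [← key]; exact h i
        have h3 : (X : Matrix (Fin m) (Fin m) F)ᵀ *
            ((X⁻¹ : Matrix.GeneralLinearGroup (Fin m) F) : Matrix (Fin m) (Fin m) F)ᵀ = 1 := by
          rw [← Matrix.transpose_mul, h2, Matrix.transpose_one]
        have h4 := congrArg (fun w => (X : Matrix (Fin m) (Fin m) F)ᵀ *ᵥ w) h0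
        simp only [Matrix.mulVec_mulVec, h3, Matrix.one_mulVec, Matrix.mulVec_zero] at h4
        intro i
        exact congrFun h4 i
    · intro v
      show (∀ i : Fin m, v (Sum.inl i) = 0) ↔ ∀ i : Fin m, (blk m X *ᵥ v) (Sum.inl i) = 0
      have key : ∀ i : Fin m, (blk m X *ᵥ v) (Sum.inl i) =
          ((X : Matrix (Fin m) (Fin m) F) *ᵥ (fun j => v (Sum.inl j))) i := by
        intro i
        simp [blk, Matrix.mulVec, dotProduct, Fintype.sum_sum_type]
      constructor
      · intro h i
        rw [key]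
        have : (fun j => v (Sum.inl j)) = 0 := funext h
        rw [this, Matrix.mulVec_zero]; rfl
      · intro h
        have h0 : (X : Matrix (Fin m) (Fin m) F) *ᵥ (fun j => v (Sum.inl j)) = 0 := by
          funext i; rw [← key]; exact h i
        have h4 := congrArg (fun w =>
          ((X⁻¹ : Matrix.GeneralLinearGroup (Fin m) F) : Matrix (Fin m) (Fin m) F) *ᵥ w) h0
        simp only [Matrix.mulVec_mulVec, h2, Matrix.one_mulVec, Matrix.mulVec_zero] at h4
        intro i
        exact congrFun h4 i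
  · rintro ⟨hW, hU⟩
    obtain ⟨A, hA⟩ := A
    -- A maps e_{inl j} into W
    have h21 : A.toBlocks₂₁ = 0 := by
      ext i j
      have h := (hW (Pi.single (Sum.inl j) 1)).mp (by intro i; simp)
      have h' := h i
      show A (Sum.inr i) (Sum.inl j) = 0
      simpa [Matrix.mulVec_single] using h'
    have h12 : A.toBlocks₁₂ = 0 := by
      ext i j
      have h := (hU (Pi.single (Sum.inr j) 1)).mp (by intro i; simp)
      have h' := h i
      show A (Sum.inl i) (Sum.inr j) = 0
      simpa [Matrix.mulVec_single] using h'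
    have hAeq : A = Matrix.fromBlocks A.toBlocks₁₁ 0 0 A.toBlocks₂₂ := by
      conv_lhs => rw [← Matrix.fromBlocks_toBlocks A]
      rw [h21, h12]
    have hs := (SymplecticGroup.mem_iff).mp hA
    rw [hAeq] at hs
    unfold Matrix.J at hs
    rw [Matrix.fromBlocks_transpose, Matrix.fromBlocks_multiply, Matrix.fromBlocks_multiply,
      Matrix.fromBlocks_inj] at hs
    have e1 : A.toBlocks₁₁ * A.toBlocks₂₂ᵀ = 1 := by
      have := hs.2.1
      simpa using this
    have e2 : A.toBlocks₂₂ᵀ * A.toBlocks₁₁ = 1 := mul_eq_one_comm.mp e1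
    refine ⟨⟨A.toBlocks₁₁, A.toBlocks₂₂ᵀ, e1, e2⟩, ?_⟩
    apply Subtype.ext
    show blk m _ = A
    conv_rhs => rw [hAeq]
    unfold blk
    congr 1

theorem result {F : Type*} [Field F] (m : ℕ) : Nonempty (↥(Cfsg.stabilizing (Cfsg.spToMat m F) {v : Fin m ⊕ Fin m → F | ∀ i : Fin m, v (Sum.inr i) = 0} ⊓ Cfsg.stabilizing (Cfsg.spToMat m F) {v : Fin m ⊕ Fin m → F | ∀ i : Fin m, v (Sum.inl i) = 0}) ≃* Matrix.GeneralLinearGroup (Fin m) F) := by
  refine ⟨MulEquiv.symm ?_⟩
  exact (MonoidHom.ofInjective (f := blkHom (F := F) m) (blkHom_injective m)).trans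
    (MulEquiv.subgroupCongr (range_blkHom m))

end Cfsg.Agent.S0778
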