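import Cfsg.Statements.S0779
import Mathlib

set_option autoImplicit false
open Cfsg

namespace Cfsg.Agent.S0779

/-- Unitary transvections: let |F| = q², h the standard Hermitian form Σ x_i y_i^q and v ≠ 0 with h(v, v) = 0. The linear map x ↦ x + c h(x, v) v is an isometry of h if and only if c = 0 or c^(q−1) = −1. -/
theorem result {F : Type*} [Field F] [Fintype F] {q : ℕ} (hF : Fintype.card F = q ^ 2) (n : ℕ) (v : Fin n → F) (hv : v ≠ 0) (hv0 : Cfsg.hermForm n F q v v = 0) (c : F) : (∀ x y : Fin n → F, Cfsg.hermForm n F q ((Cfsg.unitaryTransvection n q v c).mulVec x) ((Cfsg.unitaryTransvection n q v c).mulVec y) = Cfsg.hermForm n F q x y) ↔ (c = 0 ∨ c ^ (q - 1) = -1) := by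
  classical
  obtain ⟨p, hp⟩ := CharP.exists F
  obtain ⟨m, hpprime, hm⟩ := FiniteField.card F p
  have hq : ∃ k, q = p ^ k := by
    have hdvd : q ∣ p ^ (m : ℕ) := by
      rw [← hm, hF]
      exact dvd_pow_self q two_ne_zero
    obtain ⟨k, -, hk⟩ := (Nat.dvd_prime_pow hpprime).1 hdvd
    exact ⟨k, hk⟩
  obtain ⟨k, rfl⟩ := hq
  have : Fact p.Prime := ⟨hpprime⟩
  have hq1 : 1 ≤ p ^ k := Nat.one_le_pow _ _ hpprime.pos
  let φ : F →+* F := iterateFrobenius F p k
  have hφ : ∀ x, φ x = x ^ p ^ k := fun x => iterateFrobenius_def p k x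
  have hφφ : ∀ x, φ (φ x) = x := by
    intro x
    rw [hφ, hφ, ← pow_mul, ← sq, ← hF, FiniteField.pow_card]
  have hherm : ∀ u w : Fin n → F, Cfsg.hermForm n F (p ^ k) u w = ∑ i, u i * φ (w i) := by
    intro u w
    unfold Cfsg.hermForm
    exact Finset.sum_congr rfl (fun i _ => by rw [hφ])
  have hT : ∀ x, (Cfsg.unitaryTransvection n (p ^ k) v c).mulVec x
      = x + (c * Cfsg.hermForm n F (p ^ k) x v) • v := by
    intro x
    unfold Cfsg.unitaryTransvection
    rw [Matrix.add_mulVec, Matrix.one_mulVec, Matrix.smul_mulVec, Matrix.vecMulVec_mulVec,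
      op_smul_eq_smul, smul_smul]
    congr 2
    unfold Cfsg.hermForm dotProduct
    congr 1
    exact Finset.sum_congr rfl (fun i _ => mul_comm _ _)
  have hvv : ∑ i, v i * φ (v i) = 0 := by rw [← hherm]; exact hv0
  have key : ∀ x y, Cfsg.hermForm n F (p ^ k) ((Cfsg.unitaryTransvection n (p ^ k) v c).mulVec x)
      ((Cfsg.unitaryTransvection n (p ^ k) v c).mulVec y) = Cfsg.hermForm n F (p ^ k) x y
        + (c + φ c) * Cfsg.hermForm n F (p ^ k) x v * Cfsg.hermForm n F (p ^ k) v y := by
    intro x y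
    rw [hT, hT]
    simp only [hherm]
    have hB : φ (∑ i, y i * φ (v i)) = ∑ i, v i * φ (y i) := by
      rw [map_sum]
      exact Finset.sum_congr rfl (fun i _ => by rw [map_mul, hφφ, mul_comm])
    set A := ∑ i, x i * φ (v i) with hA
    set B := ∑ i, v i * φ (y i) with hB'
    have e : ∀ i, (x + (c * A) • v) i * φ ((y + (c * ∑ i, y i * φ (v i)) • v) i)
        = x i * φ (y i) + (φ c * B) * (x i * φ (v i)) + (c * A) * (v i * φ (y i))
          + (c * A * φ c * B) * (v i * φ (v i)) := by
      intro i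
      simp only [Pi.add_apply, Pi.smul_apply, smul_eq_mul, map_add, map_mul, hB]
      ring
    simp only [e, Finset.sum_add_distrib, ← Finset.mul_sum, hvv, ← hA, ← hB']
    ring
  constructor
  · intro h
    obtain ⟨i, hi⟩ := Function.ne_iff.mp hv
    have hi' : v i ≠ 0 := hi
    have h1 := h (Pi.single i 1) (Pi.single i 1)
    rw [key] at h1
    have e1 : Cfsg.hermForm n F (p ^ k) (Pi.single i 1) v = φ (v i) := by
      rw [hherm]
      simp [Pi.single_apply]
    have e2 : Cfsg.hermForm n F (p ^ k) v (Pi.single i 1) = v i := by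
      rw [hherm]
      simp [Pi.single_apply, apply_ite φ]
    rw [e1, e2] at h1
    have hφv : φ (v i) ≠ 0 := by
      rw [hφ]
      exact pow_ne_zero _ hi'
    have h2 : (c + φ c) * φ (v i) * v i = 0 := by linear_combination h1
    have h3 : c + φ c = 0 := by
      rcases mul_eq_zero.mp h2 with h4 | h4
      · rcases mul_eq_zero.mp h4 with h5 | h5
        · exact h5
        · exact absurd h5 hφv
      · exact absurd h4 hi'
    rw [hφ] at h3
    by_cases hc : c = 0
    · exact Or.inl hc
    · right
      have e3 : c ^ p ^ k = c * c ^ (p ^ k - 1) := by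
        rw [← pow_succ', Nat.sub_add_cancel hq1]
      rw [e3] at h3
      have h4 : c * (1 + c ^ (p ^ k - 1)) = 0 := by linear_combination h3
      rcases mul_eq_zero.mp h4 with h5 | h5
      · exact absurd h5 hc
      · linear_combination h5
  · intro h x y
    rw [key]
    have h3 : c + φ c = 0 := by
      rw [hφ]
      have e3 : c ^ p ^ k = c * c ^ (p ^ k - 1) := by
        rw [← pow_succ', Nat.sub_add_cancel hq1]
      rw [e3]
      rcases h with h | h
      · rw [h]; ring
      · rw [h]; ring
    rw [h3]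
    ring

end Cfsg.Agent.S0779
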