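import Cfsg.Statements.S0785
import Cfsg.Agent.S0784
import Mathlib

set_option autoImplicit false
open Cfsg

namespace Cfsg.Agent.S0785

open Matrix

/-- det(I) = {±1}: for a quadratic form on F^n whose polar form is non-degenerate, every element of the isometry group has determinant 1 or −1, and as soon as Q takes a non-zero value some isometry has determinant −1. -/
theorem result {F : Type*} [Field F] {n : ℕ} (Q : QuadraticForm F (Fin n → F)) (hQ : (QuadraticMap.polarBilin Q).Nondegenerate) : (∀ g : ↥(Cfsg.isometryGroup F ⇑Q), ((g : Matrix.GeneralLinearGroup (Fin n) F) : Matrix (Fin n) (Fin n) F).det = 1 ∨ ((g : Matrix.GeneralLinearGroup (Fin n) F) : Matrix (Fin n) (Fin n) F).det = -1) ∧ ((∃ v, Q v ≠ 0) → ∃ g : ↥(Cfsg.isometryGroup F ⇑Q), ((g : Matrix.GeneralLinearGroup (Fin n) F) : Matrix (Fin n) (Fin n) F).det = -1) := by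
  constructor
  · rintro ⟨g, hg⟩
    set A : Matrix (Fin n) (Fin n) F := (g : Matrix (Fin n) (Fin n) F) with hA
    have hpres : ∀ u : Fin n → F, Q (A *ᵥ u) = Q u := fun u => hg u u
    set B : LinearMap.BilinForm F (Fin n → F) := QuadraticMap.polarBilin Q with hB
    have hcomp : B.comp (Matrix.toLin' A) (Matrix.toLin' A) = B := by
      refine LinearMap.ext (fun x => LinearMap.ext (fun y => ?_))
      rw [LinearMap.BilinForm.comp_apply, Matrix.toLin'_apply, Matrix.toLin'_apply]
      show QuadraticMap.polar (⇑Q) (A *ᵥ x) (A *ᵥ y) = QuadraticMap.polar (⇑Q) x y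
      unfold QuadraticMap.polar
      rw [← Matrix.mulVec_add, hpres, hpres, hpres]
    have hM := congrArg LinearMap.BilinForm.toMatrix' hcomp
    rw [LinearMap.BilinForm.toMatrix'_comp, LinearMap.toMatrix'_toLin'] at hM
    have hdet := congrArg Matrix.det hM
    rw [Matrix.det_mul, Matrix.det_mul, Matrix.det_transpose] at hdet
    have hne : (LinearMap.BilinForm.toMatrix' B).det ≠ 0 := by
      rw [← Matrix.nondegenerate_iff_det_ne_zero, LinearMap.BilinForm.nondegenerate_toMatrix'_iff]
      exact hQ
    have h1 : A.det * A.det = 1 := by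
      have : (A.det * A.det - 1) * (LinearMap.BilinForm.toMatrix' B).det = 0 := by
        linear_combination hdet
      rcases mul_eq_zero.mp this with h | h
      · linear_combination h
      · exact absurd h hne
    show A.det = 1 ∨ A.det = -1
    have h2 : (A.det - 1) * (A.det + 1) = 0 := by linear_combination h1
    rcases mul_eq_zero.mp h2 with h | h
    · left; linear_combination h
    · right; linear_combination h
  · rintro ⟨v, hv⟩
    obtain ⟨h1, -, -, h4⟩ := Cfsg.Agent.S0784.result Q v hv
    have hdet : (Cfsg.reflectionMatrix (⇑Q) v).det ≠ 0 := by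
      rw [h4]
      exact neg_ne_zero.mpr one_ne_zero
    refine ⟨⟨Matrix.GeneralLinearGroup.mkOfDetNeZero _ hdet, ?_⟩, ?_⟩
    · intro u _
      exact h1 u
    · exact h4

end Cfsg.Agent.S0785
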