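import Cfsg.Statements.S0787
import Cfsg.Agent.Lib.Helper51.SpinIndex
import Cfsg.Agent.Lib.Helper51.DicksonTwo
import Cfsg.Agent.S0784

set_option autoImplicit false
set_option linter.unusedSectionVars false
open Cfsg

namespace Cfsg.Agent.S0787

open Cfsg.Agent.Lib.Helper51

section aux

variable {F : Type*} [Field F] [Fintype F] {n : ℕ} (Q : QuadraticForm F (Fin n → F))

theorem mem_SO_iff (g : isometryGroup F ⇑Q) :
    g ∈ specialIsometryGroup F ⇑Q ↔
      ((g : Matrix.GeneralLinearGroup (Fin n) F) : Matrix (Fin n) (Fin n) F).det = 1 := by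
  unfold specialIsometryGroup
  rw [MonoidHom.mem_ker, MonoidHom.comp_apply, Units.ext_iff,
    Matrix.GeneralLinearGroup.val_det_apply]
  rfl

theorem det_refl (v : Fin n → F) (hv : Q v ≠ 0) :
    ((refl Q v hv : Matrix.GeneralLinearGroup (Fin n) F) : Matrix (Fin n) (Fin n) F).det = -1 :=
  (Cfsg.Agent.S0784.result Q v hv).2.2.2

theorem det_mul' (g h : isometryGroup F ⇑Q) :
    (((g * h : isometryGroup F ⇑Q) : Matrix.GeneralLinearGroup (Fin n) F) :
        Matrix (Fin n) (Fin n) F).det
      = ((g : Matrix.GeneralLinearGroup (Fin n) F) : Matrix (Fin n) (Fin n) F).det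
        * ((h : Matrix.GeneralLinearGroup (Fin n) F) : Matrix (Fin n) (Fin n) F).det := by
  rw [← Matrix.det_mul]
  rfl

theorem det_reflList (vs : List (Fin n → F)) (hvs : ∀ v ∈ vs, Q v ≠ 0) :
    ((reflList Q vs hvs : Matrix.GeneralLinearGroup (Fin n) F) :
      Matrix (Fin n) (Fin n) F).det = (-1) ^ vs.length := by
  induction vs with
  | nil =>
    rw [reflList_nil]
    simp
  | cons v vs ih =>
    rw [reflList_cons, det_mul', det_refl, ih, List.length_cons, pow_succ]
    ring

theorem SO_normal : (specialIsometryGroup F ⇑Q).Normal := by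
  unfold specialIsometryGroup
  infer_instance

theorem commutator_le_SO : commutator (isometryGroup F ⇑Q) ≤ specialIsometryGroup F ⇑Q := by
  unfold specialIsometryGroup
  exact Abelianization.commutator_subset_ker _

end aux

section grp

variable {G : Type*} [Group G] (N : Subgroup G) (H : Subgroup N)

theorem mem_map_iff (x : G) (hx : x ∈ N) : x ∈ H.map N.subtype ↔ (⟨x, hx⟩ : N) ∈ H := by
  constructor
  · rintro ⟨y, hy, rfl⟩
    exact hy
  · intro h
    exact ⟨⟨x, hx⟩, h, rfl⟩

theorem map_le : H.map N.subtype ≤ N := by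
  rintro _ ⟨y, _, rfl⟩
  exact y.2

theorem mul_mem_map_iff (hH : H.index = 2) (a b : G) (ha : a ∈ N) (hb : b ∈ N) :
    a * b ∈ H.map N.subtype ↔ (a ∈ H.map N.subtype ↔ b ∈ H.map N.subtype) := by
  rw [mem_map_iff N H a ha, mem_map_iff N H b hb, mem_map_iff N H (a * b) (N.mul_mem ha hb)]
  exact Subgroup.mul_mem_iff_of_index_two hH (a := ⟨a, ha⟩) (b := ⟨b, hb⟩)

/-- The elements of `N` whose conjugate by `r` lies in `H` exactly when they do. -/
def conjStable (hN : N.Normal) (hH : H.index = 2) (r : G) : Subgroup G where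
  carrier := {x | x ∈ N ∧ (r * x * r⁻¹ ∈ H.map N.subtype ↔ x ∈ H.map N.subtype)}
  mul_mem' := by
    rintro x y ⟨hx, hx'⟩ ⟨hy, hy'⟩
    refine ⟨N.mul_mem hx hy, ?_⟩
    have e : r * (x * y) * r⁻¹ = (r * x * r⁻¹) * (r * y * r⁻¹) := by group
    rw [e, mul_mem_map_iff N H hH _ _ (hN.conj_mem x hx r) (hN.conj_mem y hy r), hx', hy',
      mul_mem_map_iff N H hH _ _ hx hy]
  one_mem' := by
    refine ⟨N.one_mem, ?_⟩
    rw [mul_one, mul_inv_cancel]
  inv_mem' := by
    rintro x ⟨hx, hx'⟩
    refine ⟨N.inv_mem hx, ?_⟩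
    have e : r * x⁻¹ * r⁻¹ = (r * x * r⁻¹)⁻¹ := by group
    rw [e, inv_mem_iff, inv_mem_iff, hx']

theorem mem_conjStable (hN : N.Normal) (hH : H.index = 2) (r x : G) :
    x ∈ conjStable N H hN hH r ↔
      x ∈ N ∧ (r * x * r⁻¹ ∈ H.map N.subtype ↔ x ∈ H.map N.subtype) := Iff.rfl

end grp

section main

variable {F : Type*} [Field F] [Fintype F] {n : ℕ} (Q : QuadraticForm F (Fin n → F))
  (H : Subgroup ↥(specialIsometryGroup F ⇑Q))

theorem pair_mem_SO (u v : Fin n → F) (hu : Q u ≠ 0) (hv : Q v ≠ 0) :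
    refl Q u hu * refl Q v hv ∈ specialIsometryGroup F ⇑Q := by
  rw [mem_SO_iff, det_mul', det_refl, det_refl]
  ring

theorem conj_pair (hH : H.index = 2) (u v w : Fin n → F) (hu : Q u ≠ 0) (hv : Q v ≠ 0)
    (hw : Q w ≠ 0) :
    refl Q w hw * (refl Q u hu * refl Q v hv) * (refl Q w hw)⁻¹
        ∈ H.map (specialIsometryGroup F ⇑Q).subtype ↔
      refl Q u hu * refl Q v hv ∈ H.map (specialIsometryGroup F ⇑Q).subtype := by
  have e : refl Q w hw * (refl Q u hu * refl Q v hv) * (refl Q w hw)⁻¹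
      = (refl Q w hw * refl Q u hu)
        * ((refl Q v hv * refl Q u hu) * (refl Q u hu * refl Q w hw)) := by
    rw [refl_inv]
    have h1 := refl_mul_self Q u hu
    calc refl Q w hw * (refl Q u hu * refl Q v hv) * refl Q w hw
        = refl Q w hw * refl Q u hu * (refl Q v hv * (1 * refl Q w hw)) := by
          rw [one_mul]; simp only [mul_assoc]
      _ = _ := by rw [← h1]; simp only [mul_assoc]
  have e1 : refl Q u hu * refl Q w hw = (refl Q w hw * refl Q u hu)⁻¹ := by
    rw [mul_inv_rev, refl_inv, refl_inv]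
  have e2 : refl Q v hv * refl Q u hu = (refl Q u hu * refl Q v hv)⁻¹ := by
    rw [mul_inv_rev, refl_inv, refl_inv]
  rw [e, mul_mem_map_iff _ H hH _ _ (pair_mem_SO Q w u hw hu)
      (mul_mem (pair_mem_SO Q v u hv hu) (pair_mem_SO Q u w hu hw)),
    mul_mem_map_iff _ H hH _ _ (pair_mem_SO Q v u hv hu) (pair_mem_SO Q u w hu hw),
    e1, e2, inv_mem_iff, inv_mem_iff]
  tauto

theorem conj_refl (hH : H.index = 2)
    (hall : ∀ g : isometryGroup F ⇑Q, ∃ (vs : List (Fin n → F)) (h : ∀ v ∈ vs, Q v ≠ 0),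
      g = reflList Q vs h)
    (w : Fin n → F) (hw : Q w ≠ 0) (x : isometryGroup F ⇑Q)
    (hx : x ∈ specialIsometryGroup F ⇑Q) :
    refl Q w hw * x * (refl Q w hw)⁻¹ ∈ H.map (specialIsometryGroup F ⇑Q).subtype ↔
      x ∈ H.map (specialIsometryGroup F ⇑Q).subtype := by
  by_cases h2 : (2 : F) = 0
  · have hr : refl Q w hw ∈ specialIsometryGroup F ⇑Q := by
      rw [mem_SO_iff, det_refl]
      linear_combination (-1 : F) * h2
    rw [mul_mem_map_iff _ H hH _ _ (mul_mem hr hx) (inv_mem hr),
      mul_mem_map_iff _ H hH _ _ hr hx, inv_mem_iff]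
    tauto
  · have hK := reflList_mem_of_even Q (conjStable _ H (SO_normal Q) hH (refl Q w hw))
      (fun u v hu hv => ⟨pair_mem_SO Q u v hu hv, conj_pair Q H hH u v w hu hv hw⟩)
    obtain ⟨vs, hvs, rfl⟩ := hall x
    have hev : Even vs.length := by
      by_contra hodd
      rw [Nat.not_even_iff_odd] at hodd
      rw [mem_SO_iff, det_reflList, hodd.neg_one_pow] at hx
      apply h2
      linear_combination (-1 : F) * hx
    obtain ⟨k, hk⟩ := hev
    exact (hK k vs hvs (by omega)).2

theorem conj_all (hH : H.index = 2)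
    (hall : ∀ g : isometryGroup F ⇑Q, ∃ (vs : List (Fin n → F)) (h : ∀ v ∈ vs, Q v ≠ 0),
      g = reflList Q vs h)
    (g x : isometryGroup F ⇑Q) (hx : x ∈ specialIsometryGroup F ⇑Q) :
    g * x * g⁻¹ ∈ H.map (specialIsometryGroup F ⇑Q).subtype ↔
      x ∈ H.map (specialIsometryGroup F ⇑Q).subtype := by
  obtain ⟨vs, hvs, rfl⟩ := hall g
  induction vs generalizing x with
  | nil =>
    rw [reflList_nil]
    simp
  | cons v vs ih =>
    rw [reflList_cons]
    have hv : Q v ≠ 0 := hvs v List.mem_cons_self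
    have hvs' : ∀ w ∈ vs, Q w ≠ 0 := fun w hw => hvs w (List.mem_cons_of_mem _ hw)
    have e : refl Q v hv * reflList Q vs hvs' * x * (refl Q v hv * reflList Q vs hvs')⁻¹
        = refl Q v hv * (reflList Q vs hvs' * x * (reflList Q vs hvs')⁻¹) * (refl Q v hv)⁻¹ := by
      group
    rw [e, conj_refl Q H hH hall v hv _ ((SO_normal Q).conj_mem x hx _), ih x hx hvs']

theorem map_normal (hH : H.index = 2)
    (hall : ∀ g : isometryGroup F ⇑Q, ∃ (vs : List (Fin n → F)) (h : ∀ v ∈ vs, Q v ≠ 0),
      g = reflList Q vs h) : (H.map (specialIsometryGroup F ⇑Q).subtype).Normal := by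
  constructor
  intro y hy g
  exact (conj_all Q H hH hall g y (map_le _ _ hy)).mpr hy

theorem SO_index_dvd (hQ : (QuadraticMap.polarBilin Q).Nondegenerate)
    (hall : ∀ g : isometryGroup F ⇑Q, ∃ (vs : List (Fin n → F)) (h : ∀ v ∈ vs, Q v ≠ 0),
      g = reflList Q vs h) : (specialIsometryGroup F ⇑Q).index ∣ 2 := by
  have hle : (dicksonHom Q hQ hall).ker ≤ specialIsometryGroup F ⇑Q := by
    intro g hg
    obtain ⟨vs, hvs, rfl, hev⟩ :=
      exists_even_reflList_of_dicksonHom_eq_one Q hQ hall g (MonoidHom.mem_ker.mp hg)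
    rw [mem_SO_iff, det_reflList, hev.neg_one_pow]
  have h1 := Subgroup.index_dvd_of_le hle
  rw [Subgroup.index_ker] at h1
  have h2 : Nat.card (dicksonHom Q hQ hall).range ∣ Nat.card ℤˣ :=
    Subgroup.card_subgroup_dvd_card _
  have h3 : Nat.card ℤˣ = 2 := by
    rw [Nat.card_eq_fintype_card, Fintype.card_units_int]
  rw [h3] at h2
  exact h1.trans h2

theorem commutator_le_map (hQ : (QuadraticMap.polarBilin Q).Nondegenerate) (hH : H.index = 2)
    (hall : ∀ g : isometryGroup F ⇑Q, ∃ (vs : List (Fin n → F)) (h : ∀ v ∈ vs, Q v ≠ 0),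
      g = reflList Q vs h) :
    commutator (isometryGroup F ⇑Q) ≤ H.map (specialIsometryGroup F ⇑Q).subtype := by
  have := map_normal Q H hH hall
  have : Fact (Nat.Prime 2) := ⟨Nat.prime_two⟩
  have hidx : (H.map (specialIsometryGroup F ⇑Q).subtype).index
      = 2 * (specialIsometryGroup F ⇑Q).index := by
    rw [Subgroup.index_map_subtype, hH]
  have hcomm : ∀ a b : isometryGroup F ⇑Q ⧸ H.map (specialIsometryGroup F ⇑Q).subtype,
      a * b = b * a := by
    rcases (Nat.dvd_prime Nat.prime_two).mp (SO_index_dvd Q hQ hall) with h | h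
    · rw [h, Subgroup.index_eq_card] at hidx
      have := isCyclic_of_prime_card (p := 2) hidx
      exact (IsCyclic.isMulCommutative).is_comm.comm
    · rw [h, Subgroup.index_eq_card] at hidx
      exact (IsPGroup.isMulCommutative_of_card_eq_prime_sq (p := 2) hidx).is_comm.comm
  rw [commutator_def, Subgroup.commutator_le]
  intro a _ b _
  rw [← QuotientGroup.eq_one_iff, ← QuotientGroup.mk'_apply, map_commutatorElement,
    commutatorElement_eq_one_iff_mul_comm]
  exact hcomm _ _

end main

/-- Existence and uniqueness of Ω: if F is finite, n ≥ 2, Q is a quadratic form on F^n with non-degenerate polar form and (|F|, n) ≠ (2, 4), then the group of isometries of determinant one has a unique subgroup of index 2. -/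
theorem result {F : Type*} [Field F] [Fintype F] {n : ℕ} (hn : 2 ≤ n) (Q : QuadraticForm F (Fin n → F)) (hQ : (QuadraticMap.polarBilin Q).Nondegenerate) (h : Fintype.card F ≠ 2 ∨ n ≠ 4) : ∃! H : Subgroup ↥(Cfsg.specialIsometryGroup F ⇑Q), H.index = 2 := by
  have h' : Fintype.card F ≠ 2 ∨ Fintype.card (Fin n) ≠ 4 := by
    rw [Fintype.card_fin]
    exact h
  have hall := hall_of_finite Q hQ h'
  have : Nonempty (Fin n) := ⟨⟨0, by omega⟩⟩
  have hΩ := commutator_le_SO Q
  have hidx : ((commutator (isometryGroup F ⇑Q)).subgroupOf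
      (specialIsometryGroup F ⇑Q)).index = 2 := by
    have h1 := Subgroup.relIndex_mul_index hΩ
    show (commutator (isometryGroup F ⇑Q)).relIndex (specialIsometryGroup F ⇑Q) = 2
    by_cases h2 : (2 : F) = 0
    · have hso : (specialIsometryGroup F ⇑Q).index = 1 := by
        rw [Subgroup.index_eq_one, eq_top_iff]
        intro g _
        obtain ⟨vs, hvs, rfl⟩ := hall g
        rw [mem_SO_iff, det_reflList]
        have e : (-1 : F) = 1 := by linear_combination (-1 : F) * h2
        rw [e, one_pow]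
      rw [hso, index_commutator_two Q h2 hQ h'] at h1
      omega
    · have hso : (specialIsometryGroup F ⇑Q).index = 2 := by
        rcases (Nat.dvd_prime Nat.prime_two).mp (SO_index_dvd Q hQ hall) with h3 | h3
        · exfalso
          rw [Subgroup.index_eq_one] at h3
          obtain ⟨v, hv⟩ := exists_Q_ne_zero Q hQ
          have h4 := (mem_SO_iff Q (refl Q v hv)).mp (h3 ▸ Subgroup.mem_top _)
          rw [det_refl] at h4
          apply h2
          linear_combination (-1 : F) * h4
        · exact h3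
      rw [hso, index_commutator_eq_four Q h2 hQ (by rw [Fintype.card_fin]; exact hn) hall] at h1
      omega
  refine ⟨_, hidx, ?_⟩
  intro H hH
  have hle : (commutator (isometryGroup F ⇑Q)).subgroupOf (specialIsometryGroup F ⇑Q) ≤ H := by
    intro x hx
    rw [Subgroup.mem_subgroupOf] at hx
    have h5 := commutator_le_map Q H hQ hH hall hx
    rwa [mem_map_iff _ H _ x.2] at h5
  have h3 := Subgroup.relIndex_mul_index hle
  rw [hidx, hH] at h3
  have h4 : ((commutator (isometryGroup F ⇑Q)).subgroupOf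
      (specialIsometryGroup F ⇑Q)).relIndex H = 1 := by omega
  rw [Subgroup.relIndex_eq_one] at h4
  exact le_antisymm h4 hle

end Cfsg.Agent.S0787
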