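import Cfsg.Statements.S0792
import Mathlib
import Cfsg.Agent.Lib.Helper18.CartanDieudonne

set_option autoImplicit false
open Cfsg

namespace Cfsg.Agent.S0792

open Matrix Cfsg.Agent.Lib.Helper18

private theorem refl_sq {F : Type*} [Field F] {n : ℕ} (Q : QuadraticForm F (Fin n → F))
    (v : Fin n → F) (hv : Q v ≠ 0) :
    Cfsg.reflectionMatrix (⇑Q) v * Cfsg.reflectionMatrix (⇑Q) v = 1 := by
  apply cd_mat_ext
  intro x
  rw [← Matrix.mulVec_mulVec, Matrix.one_mulVec, Cfsg.Agent.S0784.refl_mulVec,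
    Cfsg.Agent.S0784.refl_mulVec, QuadraticMap.polar_sub_right, QuadraticMap.polar_smul_right,
    QuadraticMap.polar_self]
  have : (Q v)⁻¹ * (QuadraticMap.polar (⇑Q) v x -
      ((Q v)⁻¹ * QuadraticMap.polar (⇑Q) v x) • (2 • Q v)) =
      -((Q v)⁻¹ * QuadraticMap.polar (⇑Q) v x) := by
    simp only [smul_eq_mul, nsmul_eq_mul]
    field_simp
    ring
  rw [this, neg_smul]
  abel

theorem result {F : Type*} [Field F] [Fintype F] (h2 : (2 : F) ≠ 0) {n : ℕ} (Q : QuadraticForm F (Fin n → F)) (hQ : (QuadraticMap.polarBilin Q).Nondegenerate) : Cfsg.specialIsometryGroup F ⇑Q = Subgroup.closure {g : ↥(Cfsg.isometryGroup F ⇑Q) | ∃ u v : Fin n → F, Q u ≠ 0 ∧ Q v ≠ 0 ∧ ((g : Matrix.GeneralLinearGroup (Fin n) F) : Matrix (Fin n) (Fin n) F) = Cfsg.reflectionMatrix ⇑Q u * Cfsg.reflectionMatrix ⇑Q v} := by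
  classical
  set S := Subgroup.closure {g : ↥(Cfsg.isometryGroup F ⇑Q) | ∃ u v : Fin n → F, Q u ≠ 0 ∧
    Q v ≠ 0 ∧ ((g : Matrix.GeneralLinearGroup (Fin n) F) : Matrix (Fin n) (Fin n) F) =
      Cfsg.reflectionMatrix ⇑Q u * Cfsg.reflectionMatrix ⇑Q v} with hS
  have hdetR : ∀ r ∈ reflSet Q,
      ((r : Matrix.GeneralLinearGroup (Fin n) F) : Matrix (Fin n) (Fin n) F).det = -1 := by
    rintro r ⟨v, hv, hr⟩
    rw [hr]; exact (Cfsg.Agent.S0784.result Q v hv).2.2.2
  have hmemSO : ∀ g : ↥(Cfsg.isometryGroup F ⇑Q), g ∈ Cfsg.specialIsometryGroup F ⇑Q ↔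
      ((g : Matrix.GeneralLinearGroup (Fin n) F) : Matrix (Fin n) (Fin n) F).det = 1 := by
    intro g
    unfold Cfsg.specialIsometryGroup
    rw [MonoidHom.mem_ker]
    constructor
    · intro h; exact congrArg Units.val h
    · intro h; exact Units.ext h
  have hS_le : S ≤ Cfsg.specialIsometryGroup F ⇑Q := by
    rw [hS, Subgroup.closure_le]
    rintro g ⟨u, v, hu, hv, hguv⟩
    show g ∈ Cfsg.specialIsometryGroup F ⇑Q
    rw [hmemSO, hguv, Matrix.det_mul, (Cfsg.Agent.S0784.result Q u hu).2.2.2,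
      (Cfsg.Agent.S0784.result Q v hv).2.2.2]
    ring
  have hinv : ∀ x ∈ reflSet Q, x⁻¹ = x := by
    rintro x ⟨v, hv, hxv⟩
    apply inv_eq_of_mul_eq_one_left
    apply Subtype.ext
    apply Units.ext
    show ((x : Matrix.GeneralLinearGroup (Fin n) F) : Matrix (Fin n) (Fin n) F) *
      ((x : Matrix.GeneralLinearGroup (Fin n) F) : Matrix (Fin n) (Fin n) F) = 1
    rw [hxv]; exact refl_sq Q v hv
  have hstep : ∀ x ∈ reflSet Q, ∀ y : ↥(Cfsg.isometryGroup F ⇑Q),
      (y ∈ S ∨ ∀ r ∈ reflSet Q, r * y ∈ S) → (x * y ∈ S ∨ ∀ r ∈ reflSet Q, r * (x * y) ∈ S) := by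
    intro x hx y ih
    rcases ih with h | h
    · right
      intro r hr
      have hrx : r * x ∈ S := by
        obtain ⟨u, hu, hru⟩ := hr
        obtain ⟨v, hv, hxv⟩ := hx
        apply Subgroup.subset_closure
        refine ⟨u, v, hu, hv, ?_⟩
        show ((r : Matrix.GeneralLinearGroup (Fin n) F) : Matrix (Fin n) (Fin n) F) *
          ((x : Matrix.GeneralLinearGroup (Fin n) F) : Matrix (Fin n) (Fin n) F) = _
        rw [hru, hxv]
      rw [← mul_assoc]; exact S.mul_mem hrx h
    · left; exact h x hx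
  have key : ∀ g ∈ Subgroup.closure (reflSet Q), g ∈ S ∨ ∀ r ∈ reflSet Q, r * g ∈ S := by
    intro g hg
    induction hg using Subgroup.closure_induction_left with
    | one => left; exact one_mem _
    | mul_left x hx y hy ih => exact hstep x hx y ih
    | inv_mul_cancel x hx y hy ih => rw [hinv x hx]; exact hstep x hx y ih
  apply le_antisymm
  · intro g hg
    rw [hmemSO] at hg
    have hgcl : g ∈ Subgroup.closure (reflSet Q) := by
      rw [closure_reflSet_eq_top h2 Q hQ]; trivial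
    rcases key g hgcl with h | h
    · exact h
    · by_cases hne : (reflSet Q).Nonempty
      · obtain ⟨r, hr⟩ := hne
        have h1 := h r hr
        have h3 := (hmemSO _).mp (hS_le h1)
        have h4 : (((r * g : ↥(Cfsg.isometryGroup F ⇑Q)) : Matrix.GeneralLinearGroup (Fin n) F) :
            Matrix (Fin n) (Fin n) F).det = -1 := by
          show (((r : Matrix.GeneralLinearGroup (Fin n) F) : Matrix (Fin n) (Fin n) F) *
            ((g : Matrix.GeneralLinearGroup (Fin n) F) : Matrix (Fin n) (Fin n) F)).det = -1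
          rw [Matrix.det_mul, hdetR r hr, hg, mul_one]
        rw [h4] at h3
        exfalso
        apply h2
        linear_combination -h3
      · rw [Set.not_nonempty_iff_eq_empty] at hne
        rw [hne, Subgroup.closure_empty] at hgcl
        rw [Subgroup.mem_bot.mp hgcl]; exact one_mem _
  · exact hS_le

end Cfsg.Agent.S0792
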