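import Cfsg.Statements.S0793
import Cfsg.Agent.S0784
import Mathlib

set_option autoImplicit false
open Cfsg

namespace Cfsg.Agent.S0793

open Matrix

theorem siegel_mulVec {F : Type*} [Field F] {n : ℕ} (Q : QuadraticForm F (Fin n → F)) (u v x : Fin n → F) (c : F) :
    (Cfsg.siegelMatrix (⇑Q) u v c).mulVec x = x + (c * QuadraticMap.polar (⇑Q) u x) • v
      - (c * QuadraticMap.polar (⇑Q) v x) • u := by
  unfold Cfsg.siegelMatrix
  rw [Matrix.add_mulVec, Matrix.one_mulVec, Matrix.smul_mulVec, Matrix.sub_mulVec,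
    Matrix.vecMulVec_mulVec, Matrix.vecMulVec_mulVec,
    op_smul_eq_smul, op_smul_eq_smul, Cfsg.Agent.S0784.polarVec_dot, Cfsg.Agent.S0784.polarVec_dot,
    smul_sub, smul_smul, smul_smul, add_sub_assoc]

/-- Root elements: if Q(u) = Q(v) = 0 and f(u, v) = 0 (f the polar form), then for every c the Siegel matrix T_(u,v)(c) preserves Q, fixes u and v, and T(c) T(d) = T(c + d). -/
theorem result {F : Type*} [Field F] {n : ℕ} (Q : QuadraticForm F (Fin n → F)) (u v : Fin n → F) (hu : Q u = 0) (hv : Q v = 0) (huv : QuadraticMap.polar ⇑Q u v = 0) : (∀ c x, Q ((Cfsg.siegelMatrix ⇑Q u v c).mulVec x) = Q x) ∧ (∀ c, (Cfsg.siegelMatrix ⇑Q u v c).mulVec u = u ∧ (Cfsg.siegelMatrix ⇑Q u v c).mulVec v = v) ∧ ∀ c d, Cfsg.siegelMatrix ⇑Q u v c * Cfsg.siegelMatrix ⇑Q u v d = Cfsg.siegelMatrix ⇑Q u v (c + d) := by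
  have huu : QuadraticMap.polar (⇑Q) u u = 0 := by
    rw [QuadraticMap.polar_self, hu, smul_zero]
  have hvv : QuadraticMap.polar (⇑Q) v v = 0 := by
    rw [QuadraticMap.polar_self, hv, smul_zero]
  have hvu : QuadraticMap.polar (⇑Q) v u = 0 := by
    rw [QuadraticMap.polar_comm, huv]
  refine ⟨?_, ?_, ?_⟩
  · intro c x
    rw [siegel_mulVec, sub_eq_add_neg, ← neg_smul, QuadraticMap.map_add (⇑Q), QuadraticMap.map_add (⇑Q),
      QuadraticMap.map_smul, QuadraticMap.map_smul, hu, hv, QuadraticMap.polar_smul_right,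
      QuadraticMap.polar_smul_right, QuadraticMap.polar_add_left, QuadraticMap.polar_smul_left, hvu,
      QuadraticMap.polar_comm (⇑Q) x v, QuadraticMap.polar_comm (⇑Q) x u]
    simp only [smul_eq_mul]
    ring
  · intro c
    constructor
    · rw [siegel_mulVec, huu, hvu]
      simp
    · rw [siegel_mulVec, huv, hvv]
      simp
  · intro c d
    unfold Cfsg.siegelMatrix
    have h : (Matrix.vecMulVec v (Cfsg.polarVec (⇑Q) u) - Matrix.vecMulVec u (Cfsg.polarVec (⇑Q) v))
        * (Matrix.vecMulVec v (Cfsg.polarVec (⇑Q) u) - Matrix.vecMulVec u (Cfsg.polarVec (⇑Q) v)) = 0 := by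
      rw [Matrix.sub_mul, Matrix.mul_sub, Matrix.mul_sub, Matrix.vecMulVec_mul_vecMulVec,
        Matrix.vecMulVec_mul_vecMulVec, Matrix.vecMulVec_mul_vecMulVec, Matrix.vecMulVec_mul_vecMulVec,
        Cfsg.Agent.S0784.polarVec_dot, Cfsg.Agent.S0784.polarVec_dot, Cfsg.Agent.S0784.polarVec_dot,
        Cfsg.Agent.S0784.polarVec_dot, huu, hvv, huv, hvu]
      simp
    generalize Matrix.vecMulVec v (Cfsg.polarVec (⇑Q) u) - Matrix.vecMulVec u (Cfsg.polarVec (⇑Q) v) = N at h
    simp only [add_mul, mul_add, smul_mul_assoc, mul_smul_comm, h, one_mul, mul_one, smul_zero, add_zero, add_smul]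
    abel

end Cfsg.Agent.S0793
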