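import Cfsg.Statements.S0794
import Cfsg.Agent.S0793
import Cfsg.Agent.S0784
import Mathlib

set_option autoImplicit false
open Cfsg

namespace Cfsg.Agent.S0794

open Matrix

private theorem mat_ext {F : Type*} [Field F] {n : ℕ} (M N : Matrix (Fin n) (Fin n) F)
    (h : ∀ x, M *ᵥ x = N *ᵥ x) : M = N := by
  apply Matrix.toLin'.injective
  apply LinearMap.ext
  intro x
  rw [Matrix.toLin'_apply, Matrix.toLin'_apply]
  exact h x

theorem result {F : Type*} [Field F] [Fintype F] (h2 : (2 : F) ≠ 0) {n : ℕ} (hn : 5 ≤ n) (Q : QuadraticForm F (Fin n → F)) (hQ : (QuadraticMap.polarBilin Q).Nondegenerate) (u v : Fin n → F) (hu : Q u = 0) (hv : Q v = 0) (huv : QuadraticMap.polar ⇑Q u v = 0) (c : F) (g : ↥(Cfsg.isometryGroup F ⇑Q)) (hg : ((g : Matrix.GeneralLinearGroup (Fin n) F) : Matrix (Fin n) (Fin n) F) = Cfsg.siegelMatrix ⇑Q u v c) : g ∈ commutatorSet ↥(Cfsg.isometryGroup F ⇑Q) ∧ g ∈ Cfsg.Omega F ⇑Q := by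
  classical
  suffices h : g ∈ commutatorSet ↥(Cfsg.isometryGroup F ⇑Q) by
    refine ⟨h, ?_⟩
    show g ∈ commutator _
    rw [commutator_eq_closure]
    exact Subgroup.subset_closure h
  obtain ⟨hiso, -, hmul⟩ := Cfsg.Agent.S0793.result Q u v hu hv huv
  have hT0 : Cfsg.siegelMatrix (⇑Q) u v 0 = 1 := by
    unfold Cfsg.siegelMatrix
    rw [zero_smul, add_zero]
  have hvu : QuadraticMap.polar (⇑Q) v u = 0 := by rw [QuadraticMap.polar_comm]; exact huv
  have huu : QuadraticMap.polar (⇑Q) u u = 0 := by rw [QuadraticMap.polar_self, hu, smul_zero]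
  have hvv : QuadraticMap.polar (⇑Q) v v = 0 := by rw [QuadraticMap.polar_self, hv, smul_zero]
  by_cases hx : ∃ x, QuadraticMap.polar (⇑Q) u x ≠ 0 ∧ QuadraticMap.polar (⇑Q) v x = 0
  · obtain ⟨x0, hx0, hx0v⟩ := hx
    obtain ⟨x, hux, hvx⟩ : ∃ x, QuadraticMap.polar (⇑Q) u x = 1 ∧
        QuadraticMap.polar (⇑Q) v x = 0 := by
      refine ⟨(QuadraticMap.polar (⇑Q) u x0)⁻¹ • x0, ?_, ?_⟩
      · rw [QuadraticMap.polar_smul_right, smul_eq_mul, inv_mul_cancel₀ hx0]
      · rw [QuadraticMap.polar_smul_right, hx0v, smul_zero]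
    have hxu : QuadraticMap.polar (⇑Q) x u = 1 := by rw [QuadraticMap.polar_comm]; exact hux
    obtain ⟨u', huu', hQu', hvu'⟩ : ∃ u', QuadraticMap.polar (⇑Q) u u' = 1 ∧ Q u' = 0 ∧
        QuadraticMap.polar (⇑Q) v u' = 0 := by
      refine ⟨x + (-Q x) • u, ?_, ?_, ?_⟩
      · rw [QuadraticMap.polar_add_right, QuadraticMap.polar_smul_right, huu, hux, smul_zero,
          add_zero]
      · rw [QuadraticMap.map_add (⇑Q), QuadraticMap.map_smul, hu, QuadraticMap.polar_smul_right,
          hxu]
        simp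
      · rw [QuadraticMap.polar_add_right, QuadraticMap.polar_smul_right, hvu, hvx, smul_zero,
          add_zero]
    have hu'u : QuadraticMap.polar (⇑Q) u' u = 1 := by rw [QuadraticMap.polar_comm]; exact huu'
    have hu'u' : QuadraticMap.polar (⇑Q) u' u' = 0 := by
      rw [QuadraticMap.polar_self, hQu', smul_zero]
    have hu'v : QuadraticMap.polar (⇑Q) u' v = 0 := by rw [QuadraticMap.polar_comm]; exact hvu'
    have hQa : Q (u + u') = 1 := by
      rw [QuadraticMap.map_add (⇑Q), hu, hQu', huu']; simp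
    have hQb : Q (u + (-1 : F) • u') = -1 := by
      rw [QuadraticMap.map_add (⇑Q), QuadraticMap.map_smul, hu, hQu',
        QuadraticMap.polar_smul_right, huu']
      simp
    have hQa0 : Q (u + u') ≠ 0 := by rw [hQa]; exact one_ne_zero
    have hQb0 : Q (u + (-1 : F) • u') ≠ 0 := by rw [hQb]; exact neg_ne_zero.mpr one_ne_zero
    obtain ⟨isoA, -, fixA, detA⟩ := Cfsg.Agent.S0784.result Q (u + u') hQa0
    obtain ⟨isoB, -, fixB, detB⟩ := Cfsg.Agent.S0784.result Q (u + (-1 : F) • u') hQb0
    set Ra := Cfsg.reflectionMatrix (⇑Q) (u + u') with hRa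
    set Rb := Cfsg.reflectionMatrix (⇑Q) (u + (-1 : F) • u') with hRb
    obtain ⟨G, hG⟩ : ∃ G : Matrix (Fin n) (Fin n) F, G = Ra * Rb := ⟨_, rfl⟩
    have hGmv : ∀ y, G *ᵥ y = Ra *ᵥ (Rb *ᵥ y) := fun y => by rw [hG, Matrix.mulVec_mulVec]
    have hGiso : ∀ y, Q (G *ᵥ y) = Q y := fun y => by rw [hGmv, isoA, isoB]
    have hGu : G *ᵥ u = -u := by
      have e1 : Rb *ᵥ u = u' := by
        rw [hRb, Cfsg.Agent.S0784.refl_mulVec, hQb, QuadraticMap.polar_add_left,
          QuadraticMap.polar_smul_left, huu, hu'u]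
        simp
      have e2 : Ra *ᵥ u' = -u := by
        rw [hRa, Cfsg.Agent.S0784.refl_mulVec, hQa, QuadraticMap.polar_add_left, huu', hu'u']
        simp
      rw [hGmv, e1, e2]
    have hGv : G *ᵥ v = v := by
      have e1 : Rb *ᵥ v = v := by
        apply fixB
        rw [QuadraticMap.polar_add_left, QuadraticMap.polar_smul_left, huv, hu'v]
        simp
      have e2 : Ra *ᵥ v = v := by
        apply fixA
        rw [QuadraticMap.polar_add_left, huv, hu'v, add_zero]
      rw [hGmv, e1, e2]
    have hGpolar : ∀ y z, QuadraticMap.polar (⇑Q) (G *ᵥ y) (G *ᵥ z) =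
        QuadraticMap.polar (⇑Q) y z := by
      intro y z
      unfold QuadraticMap.polar
      rw [← Matrix.mulVec_add, hGiso, hGiso, hGiso]
    have hGux : ∀ z, QuadraticMap.polar (⇑Q) u (G *ᵥ z) = - QuadraticMap.polar (⇑Q) u z := by
      intro z
      have := hGpolar u z
      rw [hGu, QuadraticMap.polar_neg_left] at this
      rw [← this, neg_neg]
    have hGvx : ∀ z, QuadraticMap.polar (⇑Q) v (G *ᵥ z) = QuadraticMap.polar (⇑Q) v z := by
      intro z
      have := hGpolar v z
      rw [hGv] at this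
      exact this
    have key : ∀ c' : F, G * Cfsg.siegelMatrix (⇑Q) u v c' =
        Cfsg.siegelMatrix (⇑Q) u v (-c') * G := by
      intro c'
      apply mat_ext
      intro z
      rw [← Matrix.mulVec_mulVec, ← Matrix.mulVec_mulVec, Cfsg.Agent.S0793.siegel_mulVec,
        Cfsg.Agent.S0793.siegel_mulVec, Matrix.mulVec_sub, Matrix.mulVec_add, Matrix.mulVec_smul,
        Matrix.mulVec_smul, hGu, hGv, hGux, hGvx]
      simp only [smul_neg, neg_mul, mul_neg, neg_smul, neg_neg, sub_neg_eq_add]
    have hGdet : G.det ≠ 0 := by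
      rw [hG, Matrix.det_mul, detA, detB]
      simp
    let Gg : ↥(Cfsg.isometryGroup F ⇑Q) :=
      ⟨Matrix.GeneralLinearGroup.mkOfDetNeZero G hGdet, fun y _ => hGiso y⟩
    let c' : F := -c / 2
    let tu : Matrix.GeneralLinearGroup (Fin n) F :=
      ⟨Cfsg.siegelMatrix (⇑Q) u v c', Cfsg.siegelMatrix (⇑Q) u v (-c'),
        by rw [hmul, add_neg_cancel, hT0], by rw [hmul, neg_add_cancel, hT0]⟩
    let t : ↥(Cfsg.isometryGroup F ⇑Q) := ⟨tu, fun y _ => hiso c' y⟩
    have hcomm : g * t * Gg = Gg * t := by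
      apply Subtype.ext
      apply Units.ext
      show ((g : Matrix.GeneralLinearGroup (Fin n) F) : Matrix (Fin n) (Fin n) F) *
        Cfsg.siegelMatrix (⇑Q) u v c' * G = G * Cfsg.siegelMatrix (⇑Q) u v c'
      rw [hg, hmul, key]
      congr 2
      show c + -c / 2 = -(-c / 2)
      field_simp
      ring
    refine ⟨Gg, t, ?_⟩
    rw [commutatorElement_def, ← hcomm]
    group
  · push Not at hx
    have hT1 : Cfsg.siegelMatrix (⇑Q) u v c = 1 := by
      apply mat_ext
      intro z
      rw [Cfsg.Agent.S0793.siegel_mulVec, Matrix.one_mulVec]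
      by_cases hv0 : v = 0
      · subst hv0
        rw [QuadraticMap.polar_zero_left]
        simp
      · have hy : ∃ y0, QuadraticMap.polar (⇑Q) v y0 ≠ 0 := by
          by_contra hcon
          push Not at hcon
          exact hv0 (hQ.1 v hcon)
        obtain ⟨y0, hy0⟩ := hy
        obtain ⟨y, hvy⟩ : ∃ y, QuadraticMap.polar (⇑Q) v y = 1 := by
          refine ⟨(QuadraticMap.polar (⇑Q) v y0)⁻¹ • y0, ?_⟩
          rw [QuadraticMap.polar_smul_right, smul_eq_mul, inv_mul_cancel₀ hy0]
        obtain ⟨lam, hlamdef⟩ : ∃ lam : F, lam = QuadraticMap.polar (⇑Q) u y := ⟨_, rfl⟩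
        have hlam : ∀ w, QuadraticMap.polar (⇑Q) u w =
            QuadraticMap.polar (⇑Q) v w * lam := by
          intro w
          have h1 : QuadraticMap.polar (⇑Q) v (w + (-QuadraticMap.polar (⇑Q) v w) • y) = 0 := by
            rw [QuadraticMap.polar_add_right, QuadraticMap.polar_smul_right, hvy]
            simp
          have h3 : QuadraticMap.polar (⇑Q) u (w + (-QuadraticMap.polar (⇑Q) v w) • y) = 0 := by
            by_contra h4
            exact h4 (by
              have := hx _ h4
              exact absurd h1 this)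
          rw [QuadraticMap.polar_add_right, QuadraticMap.polar_smul_right, ← hlamdef] at h3
          simp only [smul_eq_mul] at h3
          linear_combination h3
        have huv' : u = lam • v := by
          have : u - lam • v = 0 := by
            apply hQ.1
            intro w
            show QuadraticMap.polar (⇑Q) (u - lam • v) w = 0
            rw [QuadraticMap.polar_sub_left, QuadraticMap.polar_smul_left, hlam w]
            simp only [smul_eq_mul]
            ring
          exact sub_eq_zero.mp this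
        rw [hlam z]
        have e : (c * QuadraticMap.polar (⇑Q) v z) • u =
            (c * (QuadraticMap.polar (⇑Q) v z * lam)) • v := by
          rw [huv', smul_smul, mul_assoc]
        rw [e, add_sub_cancel_right]
    have hg1 : g = 1 := by
      apply Subtype.ext
      apply Units.ext
      rw [hg, hT1]
      rfl
    rw [hg1]
    exact ⟨1, 1, commutatorElement_self 1⟩

end Cfsg.Agent.S0794
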