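import Cfsg.Statements.S0795
import Cfsg.Agent.Lib.Helper52.SiegelGen

set_option autoImplicit false
open Cfsg

namespace Cfsg.Agent.S0795

open Cfsg.Agent.Lib.Helper52 Cfsg.Agent.Lib.Helper51 QuadraticMap

/-- Generation of Ω by root elements: for q odd, n ≥ 5 and Q with non-degenerate polar form on F^n, the commutator subgroup of the isometry group equals the subgroup generated by the isometries whose matrices are Siegel transformations T_(u,v)(c) with u, v singular and orthogonal. -/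
theorem result {F : Type*} [Field F] [Fintype F] (h2 : (2 : F) ≠ 0) {n : ℕ} (hn : 5 ≤ n) (Q : QuadraticForm F (Fin n → F)) (hQ : (QuadraticMap.polarBilin Q).Nondegenerate) : Cfsg.Omega F ⇑Q = Subgroup.closure {g : ↥(Cfsg.isometryGroup F ⇑Q) | ∃ (u v : Fin n → F) (c : F), Q u = 0 ∧ Q v = 0 ∧ QuadraticMap.polar ⇑Q u v = 0 ∧ ((g : Matrix.GeneralLinearGroup (Fin n) F) : Matrix (Fin n) (Fin n) F) = Cfsg.siegelMatrix ⇑Q u v c} := by
  have hn' : 5 ≤ Fintype.card (Fin n) := by rw [Fintype.card_fin]; exact hn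
  show commutator ↥(Cfsg.isometryGroup F ⇑Q) = _
  rw [commutator_eq_longGrp Q hQ hn']
  congr 1
  ext g
  constructor
  · rintro ⟨u, s, hu, hs, hus, rfl⟩
    refine ⟨u, s, -1, hu, hs, hus, ?_⟩
    rw [coe_eich, siegelMatrix_eq_eichMat Q u s (-1) hs]
    simp
  · rintro ⟨u, v, c, hu, hv, huv, hg⟩
    have h1 : Q (-c • v) = 0 := by rw [QuadraticMap.map_smul, hv, smul_zero]
    have h3 : polar ⇑Q u (-c • v) = 0 := by rw [polar_smul_right, huv, smul_zero]
    refine ⟨u, -c • v, hu, h1, h3, ?_⟩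
    apply isometry_ext
    rw [hg, coe_eich, siegelMatrix_eq_eichMat Q u v c hv]

end Cfsg.Agent.S0795
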