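import Cfsg.Statements.S0796
import Mathlib

set_option autoImplicit false
open Cfsg

namespace Cfsg.Agent.S0796

open scoped Pointwise

/-- If G is finite and acts faithfully and primitively on X, H is the stabiliser of a point, A is a normal subgroup of H whose normal closure in G is G, then for every non-trivial normal subgroup K of G the quotient G ⧸ K is isomorphic to A ⧸ B for some normal subgroup B of A. -/
theorem result {G X : Type*} [Group G] [Finite G] [MulAction G X] [FaithfulSMul G X] (hprim : MulAction.IsPreprimitive G X) (x : X) (A : Subgroup G) (hA : A ≤ MulAction.stabilizer G x) (hAn : (A.subgroupOf (MulAction.stabilizer G x)).Normal) (hgen : Subgroup.normalClosure (A : Set G) = ⊤) (K : Subgroup G) [K.Normal] (hK : K ≠ ⊥) : ∃ (B : Subgroup A) (_ : B.Normal), Nonempty (G ⧸ K ≃* A ⧸ B) := by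
  have hfix : MulAction.fixedPoints K X ≠ Set.univ := by
    intro h
    apply hK
    rw [Subgroup.eq_bot_iff_forall]
    intro k hk
    apply FaithfulSMul.eq_of_smul_eq_smul (α := X)
    intro y
    have hy : y ∈ MulAction.fixedPoints K X := h ▸ Set.mem_univ y
    rw [one_smul]
    exact hy ⟨k, hk⟩
  have : MulAction.IsPretransitive K X :=
    MulAction.IsQuasiPreprimitive.isPretransitive_of_normal hfix
  have hKH : ∀ g : G, ∃ k ∈ K, ∃ h ∈ MulAction.stabilizer G x, g = k * h := by
    intro g
    obtain ⟨k, hk⟩ := MulAction.exists_smul_eq K x (g • x)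
    refine ⟨k, k.2, (k : G)⁻¹ * g, ?_, by group⟩
    rw [MulAction.mem_stabilizer_iff, mul_smul, ← hk]
    exact inv_smul_smul _ _
  have hconjA : ∀ h ∈ MulAction.stabilizer G x, ∀ a ∈ A, h * a * h⁻¹ ∈ A := by
    intro h hh a ha
    have := hAn.conj_mem ⟨a, hA ha⟩ (by simpa [Subgroup.mem_subgroupOf] using ha) ⟨h, hh⟩
    simpa [Subgroup.mem_subgroupOf] using this
  have hnorm : (K ⊔ A).Normal := by
    constructor
    intro n hn g
    obtain ⟨k, hk, h, hh, rfl⟩ := hKH g
    have hn' : n ∈ (K : Set G) * (A : Set G) := by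
      rw [← Subgroup.normal_mul]; exact hn
    obtain ⟨k', hk', a, ha, rfl⟩ := hn'
    have e : k * h * (k' * a) * (k * h)⁻¹ = k * (h * k' * h⁻¹) * (h * a * h⁻¹) * k⁻¹ := by group
    rw [e]
    refine (K ⊔ A).mul_mem ((K ⊔ A).mul_mem ((K ⊔ A).mul_mem ?_ ?_) ?_) ?_
    · exact Subgroup.mem_sup_left hk
    · exact Subgroup.mem_sup_left (Subgroup.Normal.conj_mem inferInstance k' hk' h)
    · exact Subgroup.mem_sup_right (hconjA h hh a ha)
    · exact Subgroup.mem_sup_left (K.inv_mem hk)
  have htop : K ⊔ A = ⊤ := by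
    apply top_unique
    rw [← hgen]
    exact Subgroup.normalClosure_le_normal (N := K ⊔ A) (fun a ha => Subgroup.mem_sup_right ha)
  let φ : A →* G ⧸ K := (QuotientGroup.mk' K).comp A.subtype
  have hφ : Function.Surjective φ := by
    intro y
    obtain ⟨g, rfl⟩ := QuotientGroup.mk'_surjective K y
    have hg : g ∈ (A : Set G) * (K : Set G) := by
      rw [← Subgroup.mul_normal, sup_comm, htop]; exact Subgroup.mem_top g
    obtain ⟨a, ha, k, hk, rfl⟩ := hg
    refine ⟨⟨a, ha⟩, ?_⟩
    simp only [φ, MonoidHom.comp_apply, Subgroup.subtype_apply, QuotientGroup.mk'_apply]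
    rw [QuotientGroup.eq]
    simpa using hk
  exact ⟨φ.ker, inferInstance, ⟨(QuotientGroup.quotientKerEquivOfSurjective φ hφ).symm⟩⟩

end Cfsg.Agent.S0796
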