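import Cfsg.Statements.S0797
import Cfsg.Agent.Lib.Helper51.SpinIndex
import Cfsg.Agent.Lib.Helper52.ReflGen

set_option autoImplicit false
open Cfsg

namespace Cfsg.Agent.S0797

open Cfsg.Agent.Lib.Helper51

theorem sq_V (a : ℤˣ × ℤˣ) : a * a = 1 := by
  obtain ⟨x, y⟩ := a
  rcases Int.units_eq_one_or x with rfl | rfl <;> rcases Int.units_eq_one_or y with rfl | rfl <;>
    rfl

/-- The subgroup `{1, a}` of the four-group. -/
def twoSub (a : ℤˣ × ℤˣ) : Subgroup (ℤˣ × ℤˣ) where
  carrier := {1, a}
  mul_mem' := by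
    rintro x y (rfl | rfl) (rfl | rfl)
    · left; exact mul_one _
    · right; exact one_mul _
    · right; exact mul_one _
    · left; exact sq_V _
  one_mem' := Or.inl rfl
  inv_mem' := by
    rintro x (rfl | rfl)
    · left; exact inv_one
    · right; exact inv_eq_of_mul_eq_one_left (sq_V _)

theorem card_twoSub (a : ℤˣ × ℤˣ) (ha : a ≠ 1) : Nat.card (twoSub a) = 2 := by
  show Nat.card ({1, a} : Set (ℤˣ × ℤˣ)) = 2
  rw [Nat.card_coe_set_eq, Set.ncard_pair (Ne.symm ha)]

theorem card_V : Nat.card (ℤˣ × ℤˣ) = 4 := by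
  rw [Nat.card_prod, Nat.card_eq_fintype_card, Fintype.card_units_int]

theorem index_twoSub (a : ℤˣ × ℤˣ) (ha : a ≠ 1) : (twoSub a).index = 2 := by
  have h := (twoSub a).card_mul_index
  rw [card_twoSub a ha, card_V] at h
  omega

theorem card_index_two_V : Nat.card {K : Subgroup (ℤˣ × ℤˣ) // K.index = 2} = 3 := by
  have hbij : Function.Bijective (fun a : {a : ℤˣ × ℤˣ // a ≠ 1} =>
      (⟨twoSub a.1, index_twoSub a.1 a.2⟩ : {K : Subgroup (ℤˣ × ℤˣ) // K.index = 2})) := by
    constructor
    · rintro ⟨a, ha⟩ ⟨b, hb⟩ hab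
      have h1 : twoSub a = twoSub b := congrArg Subtype.val hab
      have h2 : a ∈ twoSub b := h1 ▸ (Or.inr rfl : a ∈ twoSub a)
      rcases h2 with h2 | h2
      · exact absurd h2 ha
      · exact Subtype.ext h2
    · rintro ⟨K, hK⟩
      have hcard : Nat.card K = 2 := by
        have h := K.card_mul_index
        rw [hK, card_V] at h
        omega
      have hne : K ≠ ⊥ := by
        intro h
        rw [h, Subgroup.card_bot] at hcard
        omega
      obtain ⟨⟨a, haK⟩, ha⟩ := (Subgroup.ne_bot_iff_exists_ne_one).mp hne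
      have ha' : a ≠ 1 := fun h => ha (Subtype.ext h)
      refine ⟨⟨a, ha'⟩, Subtype.ext ?_⟩
      apply Subgroup.eq_of_le_of_card_ge
      · rintro x (rfl | rfl)
        · exact K.one_mem
        · exact haK
      · rw [hcard, card_twoSub a ha']
  rw [← Nat.card_eq_of_bijective _ hbij, Nat.card_eq_fintype_card]
  decide

theorem commutator_le_of_index_two {G : Type*} [Group G] (H : Subgroup G) (hH : H.index = 2) :
    commutator G ≤ H := by
  have := Subgroup.normal_of_index_eq_two hH
  have : Fact (Nat.Prime 2) := ⟨Nat.prime_two⟩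
  have hc := isCyclic_of_prime_card (α := G ⧸ H) (p := 2)
    (by rw [← Subgroup.index_eq_card]; exact hH)
  rw [commutator_def, Subgroup.commutator_le]
  intro a _ b _
  rw [← QuotientGroup.eq_one_iff, ← QuotientGroup.mk'_apply, map_commutatorElement,
    commutatorElement_eq_one_iff_mul_comm]
  exact (IsCyclic.isMulCommutative).is_comm.comm _ _

/-- O^ε_2m(q) ≅ Ω.2² for q odd: if F is finite of odd characteristic, n ≥ 2 is even and Q has non-degenerate polar form on F^n, the isometry group of Q has exactly three subgroups of index 2. -/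
theorem result {F : Type*} [Field F] [Fintype F] (h2 : (2 : F) ≠ 0) {n : ℕ} (hn : 2 ≤ n) (heven : Even n) (Q : QuadraticForm F (Fin n → F)) (hQ : (QuadraticMap.polarBilin Q).Nondegenerate) : Nat.card {H : Subgroup ↥(Cfsg.isometryGroup F ⇑Q) // H.index = 2} = 3 := by
  have hcardF : Fintype.card F ≠ 2 := by
    intro h
    apply h2
    have := FiniteField.cast_card_eq_zero F
    rw [h] at this
    exact_mod_cast this
  have hgen := Cfsg.Agent.Lib.Helper52.closure_reflSet_eq_top_of_finite Q hQ (Or.inl hcardF)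
  have hall := exists_reflList_of_closure Q _
    (fun g hg => Cfsg.Agent.Lib.Helper52.eq_refl_of_mem_reflSet Q hg) hgen
  have hchar : ringChar F ≠ 2 := by
    intro hc2
    apply h2
    have : ((ringChar F : ℕ) : F) = 0 := ringChar.Nat.cast_ringChar
    rw [hc2] at this
    exact_mod_cast this
  obtain ⟨δ, hδ⟩ := FiniteField.exists_nonsquare hchar
  have hδ0 : δ ≠ 0 := by
    rintro rfl
    exact hδ ⟨0, by simp⟩
  have hcard : 2 ≤ Fintype.card (Fin n) := by
    rw [Fintype.card_fin]
    exact hn
  obtain ⟨v, hv⟩ := exists_Q_eq Q h2 hQ hcard 1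
  obtain ⟨w, hw⟩ := exists_Q_eq Q h2 hQ hcard δ
  have hsurj := spinPair_surjective Q h2 δ hδ v w (by rw [hv]; exact one_ne_zero)
    (by rw [hv]; exact ⟨1, by ring⟩) (by rw [hw]; exact hδ0) (by rw [hw]; exact hδ)
  have hker := ker_spinPair Q h2 δ hδ hall
  rw [← card_index_two_V]
  symm
  apply Nat.card_eq_of_bijective (fun K : {K : Subgroup (ℤˣ × ℤˣ) // K.index = 2} =>
    (⟨K.1.comap (spinPair Q δ), by rw [Subgroup.index_comap_of_surjective _ hsurj]; exact K.2⟩ :
      {H : Subgroup (isometryGroup F ⇑Q) // H.index = 2}))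
  constructor
  · intro K K' h
    exact Subtype.ext (Subgroup.comap_injective hsurj (congrArg Subtype.val h))
  · rintro ⟨H, hH⟩
    have hle : (spinPair Q δ).ker ≤ H := by
      rw [hker]
      exact commutator_le_of_index_two H hH
    have hcm : (H.map (spinPair Q δ)).comap (spinPair Q δ) = H := by
      rw [Subgroup.comap_map_eq, sup_eq_left]
      exact hle
    refine ⟨⟨H.map (spinPair Q δ), ?_⟩, Subtype.ext hcm⟩
    rw [← Subgroup.index_comap_of_surjective _ hsurj, hcm]
    exact hH

end Cfsg.Agent.S0797
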