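import Cfsg.Statements.S0806
import Mathlib
import Cfsg.Agent.S0799
import Cfsg.Agent.Lib.Helper19.DkK

set_option autoImplicit false
open Cfsg

namespace Cfsg.Agent.S0806

open Cfsg.Agent.Lib.Helper19.Dk

theorem two_le (q : ℕ) (hq : 4 ≤ q) : 2 * (q + 1) ≤ q * (q - 1) := by
  obtain ⟨t, rfl⟩ := Nat.exists_eq_add_of_le hq
  have : 4 + t - 1 = t + 3 := by omega
  rw [this]
  nlinarith

theorem sq_sub (q : ℕ) (hq : 1 ≤ q) : q ^ 2 - 1 = (q - 1) * (q + 1) := by
  obtain ⟨t, rfl⟩ := Nat.exists_eq_add_of_le hq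
  have h1 : 1 + t - 1 = t := by omega
  have h2 : (1 + t) ^ 2 = t * (1 + t + 1) + 1 := by ring
  rw [h1, h2]
  omega

theorem key {F : Type*} [Field F] [Fintype F] {q : ℕ} (hF : Fintype.card F = q)
    (hq : q ∉ ({2, 3, 5, 7, 9, 11} : Finset ℕ)) (H : Subgroup (P2 F)) (hH : H ≠ ⊤) :
    Nat.gcd 2 (q - 1) * Nat.card H ≤ q * (q - 1) := by
  classical
  obtain ⟨p, hp⟩ := CharP.exists F
  haveI : Fact p.Prime := ⟨CharP.char_is_prime F p⟩
  have hq2 : 2 ≤ q := hF ▸ Fintype.one_lt_card
  have hpp : IsPrimePow q := hF ▸ Fintype.isPrimePow_card_of_field (α := F)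
  have hz := z_gcd (F := F) p
  rw [hF] at hz
  have hd12 : Nat.gcd 2 (q - 1) = 1 ∨ Nat.gcd 2 (q - 1) = 2 :=
    (Nat.dvd_prime Nat.prime_two).1 (Nat.gcd_dvd_left 2 (q - 1))
  have hN := card_P2 (F := F)
  rw [hF] at hN
  have hHN : Nat.card H < Nat.card (P2 F) := by
    have hle := Subgroup.card_le_card_group H
    rcases Nat.lt_or_ge (Nat.card H) (Nat.card (P2 F)) with h | h
    · exact h
    · exact absurd ((Subgroup.card_eq_iff_eq_top H).1 (le_antisymm hle h)) hH
  have hdvdN : Nat.card H ∣ Nat.card (P2 F) := Subgroup.card_subgroup_dvd_card H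
  have hqc : q = 4 ∨ q = 8 ∨ 13 ≤ q := by
    simp only [Finset.mem_insert, Finset.mem_singleton] at hq
    by_contra hcon
    have h3 : q = 6 ∨ q = 10 ∨ q = 12 := by omega
    rcases h3 with h | h | h <;> rw [h] at hpp <;> revert hpp <;> decide
  have hq4 : 4 ≤ q := by omega
  have h2le := two_le q hq4
  rcases Cfsg.Agent.S0799.result (F := F) (q := q) hF p H with
    ⟨k, hk, hcd⟩ | ⟨P, K, hK, ⟨e⟩⟩ | ⟨⟨e⟩⟩ | ⟨⟨e⟩⟩ | ⟨⟨e⟩⟩ | ⟨K, iK, fK, m, hm, hiso⟩
  · have hk_le : Nat.gcd 2 (q - 1) * k ≤ q + 1 := by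
      rcases hk with hk | hk
      · have hpos : 0 < (q + 1) / Nat.gcd 2 (q - 1) :=
          Nat.div_pos (by rcases hd12 with h | h <;> omega) (by rcases hd12 with h | h <;> omega)
        calc Nat.gcd 2 (q - 1) * k ≤ Nat.gcd 2 (q - 1) * ((q + 1) / Nat.gcd 2 (q - 1)) :=
              Nat.mul_le_mul_left _ (Nat.le_of_dvd hpos hk)
          _ ≤ q + 1 := Nat.mul_div_le _ _
      · have hpos : 0 < (q - 1) / Nat.gcd 2 (q - 1) :=
          Nat.div_pos (by rcases hd12 with h | h <;> omega) (by rcases hd12 with h | h <;> omega)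
        calc Nat.gcd 2 (q - 1) * k ≤ Nat.gcd 2 (q - 1) * ((q - 1) / Nat.gcd 2 (q - 1)) :=
              Nat.mul_le_mul_left _ (Nat.le_of_dvd hpos hk)
          _ ≤ q - 1 := Nat.mul_div_le _ _
          _ ≤ q + 1 := by omega
    have hcard : Nat.card H ≤ 2 * k := by
      rcases hcd with ⟨_, hc⟩ | ⟨⟨e⟩⟩
      · rw [hc]; omega
      · rw [Nat.card_congr e.toEquiv, DihedralGroup.nat_card]
    calc Nat.gcd 2 (q - 1) * Nat.card H ≤ Nat.gcd 2 (q - 1) * (2 * k) :=
          Nat.mul_le_mul_left _ hcard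
      _ = 2 * (Nat.gcd 2 (q - 1) * k) := by ring
      _ ≤ 2 * (q + 1) := Nat.mul_le_mul_left _ hk_le
      _ ≤ q * (q - 1) := h2le
  · have h1 := card_normalizer_sylow_le p P
    rw [hz, hF] at h1
    have h2 : Nat.card H ≤ Nat.card (Subgroup.normalizer ((P : Subgroup (P2 F)) : Set (P2 F))) := by
      rw [Nat.card_congr e.toEquiv]
      exact Subgroup.card_le_of_le hK
    exact le_trans (Nat.mul_le_mul_left _ h2) h1
  · have hc : Nat.card H = 12 := by
      rw [Nat.card_congr e.toEquiv, nat_card_alternatingGroup]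
      simp
      decide
    rw [hc]
    rcases hqc with rfl | rfl | h13
    · norm_num
    · norm_num
    · have : 13 * 12 ≤ q * (q - 1) := Nat.mul_le_mul h13 (by omega)
      rcases hd12 with h | h <;> rw [h] <;> omega
  · have hc : Nat.card H = 24 := by
      rw [Nat.card_congr e.toEquiv, Nat.card_perm, Nat.card_eq_fintype_card, Fintype.card_fin]
      decide
    rw [hc] at hdvdN ⊢
    rcases hqc with rfl | rfl | h13
    · exfalso
      have h4 : Nat.card (P2 F) = 60 := by
        have : Nat.gcd 2 (4 - 1) = 1 := by decide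
        rw [this] at hN
        omega
      rw [h4] at hdvdN
      omega
    · norm_num
    · have : 13 * 12 ≤ q * (q - 1) := Nat.mul_le_mul h13 (by omega)
      rcases hd12 with h | h <;> rw [h] <;> omega
  · have hc : Nat.card H = 60 := by
      rw [Nat.card_congr e.toEquiv, nat_card_alternatingGroup]
      simp
      decide
    rw [hc] at hdvdN hHN ⊢
    rcases hqc with rfl | rfl | h13
    · exfalso
      have h4 : Nat.card (P2 F) = 60 := by
        have : Nat.gcd 2 (4 - 1) = 1 := by decide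
        rw [this] at hN
        omega
      omega
    · exfalso
      have h4 : Nat.card (P2 F) = 504 := by
        have : Nat.gcd 2 (8 - 1) = 1 := by decide
        rw [this] at hN
        omega
      rw [h4] at hdvdN
      omega
    · have : 13 * 12 ≤ q * (q - 1) := Nat.mul_le_mul h13 (by omega)
      rcases hd12 with h | h <;> rw [h] <;> omega
  · letI := iK
    letI := fK
    have hr2 : 2 ≤ Fintype.card K := Fintype.one_lt_card
    have hsq := sq_sub q (by omega)
    have hsqr := sq_sub (Fintype.card K) (by omega)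
    rcases Nat.lt_or_ge m 2 with hm1 | hm2
    · exfalso
      have hm01 : m = 0 ∨ m = 1 := by omega
      rcases hm01 with rfl | rfl
      · simp at hm; omega
      · rw [pow_one] at hm
        rcases hiso with ⟨⟨e⟩⟩ | ⟨⟨e⟩⟩
        · have h5 := card_P2 (F := K)
          rw [hm, ← Nat.card_congr e.toEquiv, ← hN] at h5
          have h6 := Nat.eq_of_mul_eq_mul_left (by rcases hd12 with h | h <;> omega) h5
          exact absurd h6 (ne_of_lt hHN)
        · have h5 : Nat.card H = q * (q ^ 2 - 1) := by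
            rw [Nat.card_congr e.toEquiv, Cfsg.Agent.S0265.result 2, card_S2, hm]
          rw [← hN] at h5
          have h6 : Nat.card (P2 F) ≤ Nat.gcd 2 (q - 1) * Nat.card (P2 F) :=
            Nat.le_mul_of_pos_left _ (by rcases hd12 with h | h <;> omega)
          rw [← h5] at h6
          exact absurd hHN (not_lt.2 h6)
    · have hrq : Fintype.card K ^ 2 ≤ q := by
        rw [← hm]
        exact Nat.pow_le_pow_right (by omega) hm2
      have hle : Nat.card H ≤ Fintype.card K * (Fintype.card K ^ 2 - 1) := by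
        rcases hiso with ⟨⟨e⟩⟩ | ⟨⟨e⟩⟩
        · have h5 := card_P2 (F := K)
          rw [← Nat.card_congr e.toEquiv] at h5
          rw [← h5]
          exact Nat.le_mul_of_pos_left _ (Nat.gcd_pos_of_pos_left _ (by norm_num))
        · rw [Nat.card_congr e.toEquiv, Cfsg.Agent.S0265.result 2, card_S2]
      have h7 : 2 * Fintype.card K ≤ q := by nlinarith
      have h8 : Fintype.card K ^ 2 - 1 ≤ q - 1 := by omega
      calc Nat.gcd 2 (q - 1) * Nat.card H ≤ 2 * Nat.card H := by
            rcases hd12 with h | h <;> rw [h] <;> omega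
        _ ≤ 2 * (Fintype.card K * (Fintype.card K ^ 2 - 1)) := Nat.mul_le_mul_left _ hle
        _ = (2 * Fintype.card K) * (Fintype.card K ^ 2 - 1) := by ring
        _ ≤ q * (q - 1) := Nat.mul_le_mul h7 h8

/-- Minimal index (Galois): if q ∉ {2, 3, 5, 7, 9, 11} then every proper subgroup of PSL_2(q) has index ≥ q + 1, and some subgroup has index exactly q + 1. -/
theorem result {F : Type*} [Field F] [Fintype F] {q : ℕ} (hF : Fintype.card F = q) (hq : q ∉ ({2, 3, 5, 7, 9, 11} : Finset ℕ)) : (∀ H : Subgroup (Matrix.ProjectiveSpecialLinearGroup (Fin 2) F), H ≠ ⊤ → q + 1 ≤ H.index) ∧ ∃ H : Subgroup (Matrix.ProjectiveSpecialLinearGroup (Fin 2) F), H.index = q + 1 := by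
  classical
  obtain ⟨p, hp⟩ := CharP.exists F
  haveI : Fact p.Prime := ⟨CharP.char_is_prime F p⟩
  have hq2 : 2 ≤ q := hF ▸ Fintype.one_lt_card
  have hz := z_gcd (F := F) p
  rw [hF] at hz
  have hN := card_P2 (F := F)
  rw [hF] at hN
  have hsq := sq_sub q (by omega)
  have hpos : 0 < q * (q - 1) := Nat.mul_pos (by omega) (by omega)
  constructor
  · intro H hH
    have h1 := key hF hq H hH
    have h2 := Subgroup.card_mul_index H
    by_contra hcon
    push Not at hcon
    have h3 : Nat.gcd 2 (q - 1) * Nat.card H * H.index = q * (q - 1) * (q + 1) := by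
      calc Nat.gcd 2 (q - 1) * Nat.card H * H.index
          = Nat.gcd 2 (q - 1) * (Nat.card H * H.index) := by ring
        _ = Nat.gcd 2 (q - 1) * Nat.card (P2 F) := by rw [h2]
        _ = q * (q ^ 2 - 1) := hN
        _ = q * (q - 1) * (q + 1) := by rw [hsq]; ring
    have h4 : Nat.gcd 2 (q - 1) * Nat.card H * H.index ≤ q * (q - 1) * q :=
      Nat.mul_le_mul h1 (by omega)
    have h5 : q * (q - 1) * q < q * (q - 1) * (q + 1) := by
      apply Nat.mul_lt_mul_of_pos_left _ hpos
      omega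
    omega
  · refine ⟨(Bor F).map (prj F), ?_⟩
    have h1 := card_prjBor (F := F)
    rw [hz, hF] at h1
    have h2 := Subgroup.card_mul_index ((Bor F).map (prj F))
    have h3 : q * (q - 1) * ((Bor F).map (prj F)).index = q * (q - 1) * (q + 1) := by
      calc q * (q - 1) * ((Bor F).map (prj F)).index
          = (Nat.gcd 2 (q - 1) * Nat.card ((Bor F).map (prj F))) * ((Bor F).map (prj F)).index := by
            rw [h1]
        _ = Nat.gcd 2 (q - 1) * (Nat.card ((Bor F).map (prj F)) * ((Bor F).map (prj F)).index) := by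
            ring
        _ = Nat.gcd 2 (q - 1) * Nat.card (P2 F) := by rw [h2]
        _ = q * (q ^ 2 - 1) := hN
        _ = q * (q - 1) * (q + 1) := by rw [hsq]; ring
    exact Nat.eq_of_mul_eq_mul_left hpos h3

end Cfsg.Agent.S0806
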