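import Cfsg.Statements.S0811
import Mathlib
import Cfsg.Agent.Lib.Helper19.DkM

set_option autoImplicit false
open Cfsg

namespace Cfsg.Agent.S0811

open Cfsg.Agent.Lib.Helper19.Dk Cfsg.Agent.S0809

/-- For q ∉ {2, 7, 9}, PSL_2(q) has a maximal subgroup isomorphic to the dihedral group of order 2(q + 1)/d, d = gcd(2, q − 1). -/
theorem result {F : Type*} [Field F] [Fintype F] {q : ℕ} (hF : Fintype.card F = q) (hq : q ∉ ({2, 7, 9} : Finset ℕ)) : ∃ H : Subgroup (Matrix.ProjectiveSpecialLinearGroup (Fin 2) F), IsCoatom H ∧ Nonempty (H ≃* DihedralGroup ((q + 1) / Nat.gcd 2 (q - 1))) := by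
  classical
  subst hF
  obtain ⟨p, hp⟩ := CharP.exists F
  haveI : Fact p.Prime := ⟨CharP.char_is_prime F p⟩
  have hq2 : 2 ≤ Fintype.card F := Fintype.one_lt_card
  simp only [Finset.mem_insert, Finset.mem_singleton, not_or] at hq
  obtain ⟨hq_2, hq_7, hq_9⟩ := hq
  have hpq : p ∣ Fintype.card F := by
    obtain ⟨a, _, ha⟩ := FiniteField.card F p
    rw [ha]; exact dvd_pow_self p a.pos.ne'
  have hcopq : Nat.Coprime (Fintype.card F + 1) (Fintype.card F) := by simp
  have hcop : Nat.Coprime (Fintype.card F + 1) p := Nat.Coprime.coprime_dvd_right hpq hcopq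
  obtain ⟨t, ht⟩ := exists_order_add_one (F := F) p
  have htr : tr t ^ 2 ≠ 4 := tr_ne_of_order p t _ ht hcop (by omega)
  have heven : (2 : F) ≠ 0 → Even (Fintype.card F + 1) := fun h2 => by
    obtain ⟨k, hk⟩ := q_odd p h2
    exact ⟨k + 1, by omega⟩
  obtain ⟨H, ⟨e⟩⟩ := exists_dih p t _ ht htr heven (by omega)
  refine ⟨H, ?_, ⟨e⟩⟩
  have hd : (Nat.gcd 2 (Fintype.card F - 1) = 1 ∧ Even (Fintype.card F)) ∨
      (Nat.gcd 2 (Fintype.card F - 1) = 2 ∧ Odd (Fintype.card F)) := by
    by_cases h2 : (2 : F) = 0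
    · exact Or.inl ⟨gcd_of_two_eq p h2, q_even p h2⟩
    · exact Or.inr ⟨gcd_of_two_ne p h2, q_odd p h2⟩
  have hN := card_P2 (F := F)
  have hsq := sq_sub_one' (Fintype.card F) (by omega)
  obtain ⟨n, hn⟩ : ∃ n, n = (Fintype.card F + 1) / Nat.gcd 2 (Fintype.card F - 1) := ⟨_, rfl⟩
  rw [← hn] at e
  have hcH : Nat.card H = 2 * n := by rw [Nat.card_congr e.toEquiv, DihedralGroup.nat_card]
  obtain ⟨d, hdd⟩ : ∃ d, d = Nat.gcd 2 (Fintype.card F - 1) := ⟨_, rfl⟩
  obtain ⟨s, hs⟩ : ∃ s, Fintype.card F = s + 1 := ⟨Fintype.card F - 1, by omega⟩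
  rw [← hdd] at hd hN hn
  rw [hs] at hd hN hn hsq hq_2 hq_7 hq_9 hcopq
  have hs1 : s + 1 - 1 = s := by omega
  rw [hs1] at hsq
  rw [hsq] at hN
  have hs2 : 2 ≤ s := by omega
  have hdn : d * n = s + 2 := by
    rcases hd with ⟨h1, _⟩ | ⟨h1, hodd⟩
    · rw [h1] at hn ⊢; rw [hn]; simp
    · obtain ⟨k, hk⟩ := hodd
      rw [h1] at hn ⊢; rw [hn]; omega
  have hn0 : 0 < n := by
    rcases Nat.eq_zero_or_pos n with h | h
    · rw [h] at hdn; omega
    · exact h
  have hd12 : d = 1 ∨ d = 2 := by rcases hd with ⟨h1, _⟩ | ⟨h1, _⟩ <;> [left; right] <;> exact h1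
  have hcop2 : Nat.Coprime (s + 2) (s + 1) := hcopq
  constructor
  · intro htop
    have h1 : Nat.card (P2 F) = 2 * n := by
      rw [← hcH, htop, Subgroup.card_top]
    rw [h1] at hN
    have h2 : (s + 2) * 2 = (s + 2) * ((s + 1) * s) := by
      calc (s + 2) * 2 = d * n * 2 := by rw [hdn]
        _ = d * (2 * n) := by ring
        _ = (s + 1) * (s * (s + 1 + 1)) := hN
        _ = (s + 2) * ((s + 1) * s) := by ring
    have h3 := Nat.eq_of_mul_eq_mul_left (by omega) h2
    have h4 : 3 * 2 ≤ (s + 1) * s := Nat.mul_le_mul (by omega) hs2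
    omega
  · intro M hHM
    by_contra hMtop
    obtain ⟨⟨h4n, h2n, hMdvd, hMlt⟩, hcases⟩ := overgroup p H M n hn0 e hHM hMtop
    rw [← hdd] at hcases
    rw [hs] at hcases
    rw [hs1] at hcases
    rcases hcases with h | ⟨h, -⟩ | ⟨h, hc⟩ | ⟨h, hc⟩ | ⟨h, hc⟩ | ⟨r, m, hr2, hrm, hm2, hcM, -⟩
    · rw [← hn] at h
      omega
    · -- Borel
      have h1 : s + 2 ∣ (s + 1) * s := by
        have : d * (2 * n) = (s + 2) * 2 := by rw [← hdn]; ring
        rw [this] at h
        exact dvd_trans (Dvd.intro _ rfl) h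
      have h2 : s + 2 ∣ s := (Nat.Coprime.dvd_mul_left hcop2).1 h1
      have := Nat.le_of_dvd (by omega) h2
      omega
    · -- A4
      have hn2 : n ≤ 2 := Nat.le_of_dvd (by norm_num) h
      rcases hd with ⟨h1, hev⟩ | ⟨h1, hodd⟩
      · rw [h1] at hdn; omega
      · rw [h1] at hdn hN
        have hs3 : s = 2 := by omega
        subst hs3
        rw [hc] at hMlt
        omega
    · -- S4
      have hn4 : n ≤ 4 := by
        rcases h with h | h | h
        · exact le_trans (Nat.le_of_dvd (by norm_num) h) (by norm_num)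
        · exact le_trans (Nat.le_of_dvd (by norm_num) h) (by norm_num)
        · exact Nat.le_of_dvd (by norm_num) h
      rw [hc] at hMdvd hMlt
      rcases hd with ⟨h1, hev⟩ | ⟨h1, hodd⟩
      · rw [h1] at hdn
        obtain ⟨k, hk⟩ := hev
        omega
      · rw [h1] at hdn hN
        obtain ⟨k, hk⟩ := hodd
        have hs' : s = 2 ∨ s = 4 := by omega
        rcases hs' with rfl | rfl
        · omega
        · have hG : Nat.card (P2 F) = 60 := by omega
          rw [hG] at hMdvd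
          omega
    · -- A5
      have hn5 : n = 1 ∨ n = 2 ∨ n = 3 ∨ n = 5 := by
        rcases h with h | h | h
        · rcases (Nat.dvd_prime Nat.prime_two).1 h with h | h <;> omega
        · rcases (Nat.dvd_prime Nat.prime_three).1 h with h | h <;> omega
        · rcases (Nat.dvd_prime Nat.prime_five).1 h with h | h <;> omega
      rw [hc] at hMdvd hMlt
      rcases hd with ⟨h1, hev⟩ | ⟨h1, hodd⟩
      · rw [h1] at hdn hN
        obtain ⟨k, hk⟩ := hev
        have hs' : s = 3 := by omega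
        subst hs'
        omega
      · rw [h1] at hdn hN
        obtain ⟨k, hk⟩ := hodd
        have hs' : s = 2 ∨ s = 4 := by omega
        rcases hs' with rfl | rfl
        · omega
        · omega
    · -- subfield
      have hm0 : m ≠ 0 := by omega
      have hrq : r ∣ s + 1 := by rw [← hrm]; exact dvd_pow_self r hm0
      have hcopr : Nat.Coprime (s + 2) r := Nat.Coprime.coprime_dvd_right hrq hcop2
      have h1 : s + 2 ∣ 2 * n := by
        rcases hd12 with h | h
        · rw [h, one_mul] at hdn; rw [hdn]; exact Dvd.intro_left _ rfl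
        · rw [h] at hdn; rw [hdn]
      have h2 : s + 2 ∣ r * (r ^ 2 - 1) := dvd_trans h1 (dvd_trans h2n hcM)
      have h3 : s + 2 ∣ r ^ 2 - 1 := (Nat.Coprime.dvd_mul_left hcopr).1 h2
      have h4 : r ^ 2 ≤ s + 1 := by
        rw [← hrm]; exact Nat.pow_le_pow_right (by omega) hm2
      have h5 : 4 ≤ r ^ 2 := by nlinarith
      have := Nat.le_of_dvd (by omega) h3
      omega

end Cfsg.Agent.S0811
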