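import Cfsg.Statements.S0812
import Mathlib
import Cfsg.Agent.Lib.Helper19.DkM

set_option autoImplicit false
open Cfsg

namespace Cfsg.Agent.S0812

open Cfsg.Agent.Lib.Helper19.Dk Cfsg.Agent.S0809

/-- For q ∉ {2, 3, 5, 7, 9, 11}, PSL_2(q) has a maximal subgroup isomorphic to the dihedral group of order 2(q − 1)/d, d = gcd(2, q − 1). -/
theorem result {F : Type*} [Field F] [Fintype F] {q : ℕ} (hF : Fintype.card F = q) (hq : q ∉ ({2, 3, 5, 7, 9, 11} : Finset ℕ)) : ∃ H : Subgroup (Matrix.ProjectiveSpecialLinearGroup (Fin 2) F), IsCoatom H ∧ Nonempty (H ≃* DihedralGroup ((q - 1) / Nat.gcd 2 (q - 1))) := by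
  classical
  subst hF
  obtain ⟨p, hp⟩ := CharP.exists F
  haveI : Fact p.Prime := ⟨CharP.char_is_prime F p⟩
  have hq2 : 2 ≤ Fintype.card F := Fintype.one_lt_card
  have hpp : IsPrimePow (Fintype.card F) := Fintype.isPrimePow_card_of_field (α := F)
  have hqc : Fintype.card F = 4 ∨ Fintype.card F = 8 ∨ 13 ≤ Fintype.card F := by
    simp only [Finset.mem_insert, Finset.mem_singleton] at hq
    by_contra hcon
    have h3 : Fintype.card F = 6 ∨ Fintype.card F = 10 ∨ Fintype.card F = 12 := by omega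
    rcases h3 with h | h | h <;> rw [h] at hpp <;> revert hpp <;> decide
  have hq4 : 4 ≤ Fintype.card F := by omega
  have hpq : p ∣ Fintype.card F := by
    obtain ⟨a, _, ha⟩ := FiniteField.card F p
    rw [ha]; exact dvd_pow_self p a.pos.ne'
  obtain ⟨s, hs⟩ : ∃ s, Fintype.card F = s + 1 := ⟨Fintype.card F - 1, by omega⟩
  have hs1 : Fintype.card F - 1 = s := by omega
  have hcopq : Nat.Coprime s (s + 1) := by simp
  have hcop : Nat.Coprime (Fintype.card F - 1) p := by
    rw [hs1]
    exact Nat.Coprime.coprime_dvd_right (hs ▸ hpq) hcopq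
  obtain ⟨t, ht⟩ := exists_order_sub_one (F := F)
  have htr : tr t ^ 2 ≠ 4 := tr_ne_of_order p t _ ht hcop (by omega)
  have heven : (2 : F) ≠ 0 → Even (Fintype.card F - 1) := fun h2 => by
    obtain ⟨k, hk⟩ := q_odd p h2
    exact ⟨k, by omega⟩
  obtain ⟨H, ⟨e⟩⟩ := exists_dih p t _ ht htr heven (by omega)
  refine ⟨H, ?_, ⟨e⟩⟩
  have hd : (Nat.gcd 2 (Fintype.card F - 1) = 1 ∧ Even (Fintype.card F) ∧ p = 2) ∨
      (Nat.gcd 2 (Fintype.card F - 1) = 2 ∧ Odd (Fintype.card F)) := by
    by_cases h2 : (2 : F) = 0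
    · exact Or.inl ⟨gcd_of_two_eq p h2, q_even p h2, char_two_of p h2⟩
    · exact Or.inr ⟨gcd_of_two_ne p h2, q_odd p h2⟩
  have hN := card_P2 (F := F)
  have hsq := sq_sub_one' (Fintype.card F) (by omega)
  obtain ⟨n, hn⟩ : ∃ n, n = (Fintype.card F - 1) / Nat.gcd 2 (Fintype.card F - 1) := ⟨_, rfl⟩
  rw [← hn] at e
  have hcH : Nat.card H = 2 * n := by rw [Nat.card_congr e.toEquiv, DihedralGroup.nat_card]
  obtain ⟨d, hdd⟩ : ∃ d, d = Nat.gcd 2 (Fintype.card F - 1) := ⟨_, rfl⟩
  rw [← hdd] at hd hN hn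
  rw [hs1] at hn hsq
  rw [hsq] at hN
  rw [hs] at hd hN hqc
  have hs3 : 3 ≤ s := by omega
  have hdn : d * n = s := by
    rcases hd with ⟨h1, _⟩ | ⟨h1, hodd⟩
    · rw [h1] at hn ⊢; rw [hn]; simp
    · obtain ⟨k, hk⟩ := hodd
      rw [h1] at hn ⊢; rw [hn]; omega
  have hn0 : 0 < n := by
    rcases Nat.eq_zero_or_pos n with h | h
    · rw [h] at hdn; omega
    · exact h
  constructor
  · intro htop
    have h1 : Nat.card (P2 F) = 2 * n := by
      rw [← hcH, htop, Subgroup.card_top]
    rw [h1] at hN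
    have h2 : s * 2 = s * ((s + 1) * (s + 2)) := by
      calc s * 2 = d * n * 2 := by rw [hdn]
        _ = d * (2 * n) := by ring
        _ = (s + 1) * (s * (s + 1 + 1)) := hN
        _ = s * ((s + 1) * (s + 2)) := by ring
    have h3 := Nat.eq_of_mul_eq_mul_left (by omega) h2
    have h4 : 4 * 5 ≤ (s + 1) * (s + 2) := Nat.mul_le_mul (by omega) (by omega)
    omega
  · intro M hHM
    by_contra hMtop
    obtain ⟨⟨h4n, h2n, hMdvd, hMlt⟩, hcases⟩ := overgroup p H M n hn0 e hHM hMtop
    rw [← hdd] at hcases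
    rw [hs1] at hcases
    rw [hs] at hcases
    rcases hcases with h | ⟨h, hb⟩ | ⟨h, hc⟩ | ⟨h, hc⟩ | ⟨h, hc⟩ | ⟨r, m, hr2, hrm, hm2, hcM, hord⟩
    · -- cyclic / dihedral
      rcases hd with ⟨h1, _, _⟩ | ⟨h1, hodd⟩
      · rw [h1] at hdn h
        simp at h
        omega
      · rw [h1] at hdn h
        omega
    · -- Borel
      rcases hd with ⟨h1, hev, hp2⟩ | ⟨h1, hodd⟩
      · rw [h1, one_mul] at hdn
        have hodd : Odd n := by
          obtain ⟨k, hk⟩ := hev
          rw [hdn]
          exact ⟨k - 1, by omega⟩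
        have := hb hp2 hodd
        omega
      · have h2 : s * 2 ∣ s * (s + 1) := by
          have : d * (2 * n) = s * 2 := by rw [← hdn]; ring
          rw [this, mul_comm (s + 1) s] at h
          exact h
        have h3 : 2 ∣ s + 1 := (Nat.mul_dvd_mul_iff_left (by omega)).1 h2
        obtain ⟨k, hk⟩ := hodd
        omega
    · -- A4
      have hn2 : n ≤ 2 := Nat.le_of_dvd (by norm_num) h
      rcases hd with ⟨h1, _, _⟩ | ⟨h1, hodd⟩
      · rw [h1] at hdn; omega
      · rw [h1] at hdn
        obtain ⟨k, hk⟩ := hodd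
        omega
    · -- S4
      have hn4 : n ≤ 4 := by
        rcases h with h | h | h
        · exact le_trans (Nat.le_of_dvd (by norm_num) h) (by norm_num)
        · exact le_trans (Nat.le_of_dvd (by norm_num) h) (by norm_num)
        · exact Nat.le_of_dvd (by norm_num) h
      rw [hc] at hMdvd hMlt
      rcases hd with ⟨h1, hev, _⟩ | ⟨h1, hodd⟩
      · rw [h1] at hdn hN
        obtain ⟨k, hk⟩ := hev
        have hs' : s = 3 := by omega
        subst hs'
        have hG : Nat.card (P2 F) = 60 := by omega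
        rw [hG] at hMdvd
        omega
      · rw [h1] at hdn
        obtain ⟨k, hk⟩ := hodd
        omega
    · -- A5
      have hn5 : n = 1 ∨ n = 2 ∨ n = 3 ∨ n = 5 := by
        rcases h with h | h | h
        · rcases (Nat.dvd_prime Nat.prime_two).1 h with h | h <;> omega
        · rcases (Nat.dvd_prime Nat.prime_three).1 h with h | h <;> omega
        · rcases (Nat.dvd_prime Nat.prime_five).1 h with h | h <;> omega
      rw [hc] at hMdvd hMlt
      rcases hd with ⟨h1, hev, _⟩ | ⟨h1, hodd⟩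
      · rw [h1] at hdn hN
        obtain ⟨k, hk⟩ := hev
        have hs' : s = 3 := by omega
        subst hs'
        omega
      · rw [h1] at hdn
        obtain ⟨k, hk⟩ := hodd
        omega
    · -- subfield
      have hnq : Nat.Coprime n (s + 1) :=
        Nat.Coprime.coprime_dvd_left (Dvd.intro_left d hdn) hcopq
      have hle := hord hnq
      have h4 : r ^ 2 ≤ s + 1 := by
        rw [← hrm]; exact Nat.pow_le_pow_right (by omega) hm2
      rcases hd with ⟨h1, hev, _⟩ | ⟨h1, hodd⟩
      · rw [h1, one_mul] at hdn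
        rw [pow_two] at h4
        have hr : r = 2 := by
          by_contra hcon
          have h3 : 3 ≤ r := by omega
          have : r * 3 ≤ r * r := Nat.mul_le_mul_left r h3
          omega
        subst hr
        have hM6 : Nat.card M ≤ 2 * (2 ^ 2 - 1) := Nat.le_of_dvd (by norm_num) hcM
        have h46 : 4 * n ≤ 2 * (2 ^ 2 - 1) := le_trans h4n hM6
        have h6 : 2 * (2 ^ 2 - 1) = 6 := by norm_num
        omega
      · rw [h1] at hdn
        rw [pow_two] at h4
        obtain ⟨k, hk⟩ := hodd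
        have hr : r ≤ 3 := by
          by_contra hcon
          have h3 : 4 ≤ r := by omega
          have : r * 4 ≤ r * r := Nat.mul_le_mul_left r h3
          omega
        omega

end Cfsg.Agent.S0812
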