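import Cfsg.Statements.S0816
import Cfsg.Agent.Lib.Helper52.OutMain

set_option autoImplicit false
open Cfsg

namespace Cfsg.Agent.S0816

/-- |Aut(PΩ_(2m+1)(q))| = 2 f · |PΩ_(2m+1)(q)| for q = p^f odd and m ≥ 3 (for the form quadFormOdd). -/
theorem result {F : Type*} [Field F] [Fintype F] (p f : ℕ) [Fact p.Prime] (hf : 1 ≤ f) (hF : Fintype.card F = p ^ f) (hodd : Odd p) (m : ℕ) (hm : 3 ≤ m) : Nat.card (MulAut (Cfsg.POmega F (Cfsg.quadFormOdd m F))) = 2 * f * Nat.card (Cfsg.POmega F (Cfsg.quadFormOdd m F)) := by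
  have hp : p ≠ 2 := by
    rintro rfl
    exact absurd hodd (by decide)
  exact (Cfsg.Agent.Lib.Helper52.OUMain.odd_final hf hF hp hm).2

end Cfsg.Agent.S0816
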