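import Cfsg.Statements.S0819
import Mathlib

set_option autoImplicit false
set_option linter.unusedSimpArgs false
open Cfsg

namespace Cfsg.Agent.S0819

open Polynomial Matrix

theorem dvd_0_0 {F : Type*} [Field F] (w : F) (hw : w ^ 2 = w + 1) (h2 : (2 : F) = 0) :
    (X ^ 3 + C 0 * X ^ 2 + C 0 * X + 1 : F[X]) ∣ X ^ 12 - C 1 := by
  have hW : (C w : F[X]) ^ 2 = C w + 1 := by rw [← C_pow, hw, C_add, C_1]
  have h2' : (2 : F[X]) = 0 := by rw [← map_ofNat (C : F →+* F[X]) 2, h2, C_0]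
  refine ⟨1 + X ^ 3 + X ^ 6 + X ^ 9, ?_⟩
  try simp only [C_0, C_1, C_add]
  linear_combination (0) * hW + ((-1) + (-1) * X ^ 3 + (-1) * X ^ 6 + (-1) * X ^ 9) * h2'

theorem dvd_0_1 {F : Type*} [Field F] (w : F) (hw : w ^ 2 = w + 1) (h2 : (2 : F) = 0) :
    (X ^ 3 + C 0 * X ^ 2 + C 1 * X + 1 : F[X]) ∣ X ^ 21 - C 1 := by
  have hW : (C w : F[X]) ^ 2 = C w + 1 := by rw [← C_pow, hw, C_add, C_1]
  have h2' : (2 : F[X]) = 0 := by rw [← map_ofNat (C : F →+* F[X]) 2, h2, C_0]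
  refine ⟨1 + X + X ^ 2 + X ^ 4 + X ^ 7 + X ^ 8 + X ^ 9 + X ^ 11 + X ^ 14 + X ^ 15 + X ^ 16 + X ^ 18, ?_⟩
  try simp only [C_0, C_1, C_add]
  linear_combination (0) * hW + ((-1) + (-1) * X + (-1) * X ^ 2 + (-1) * X ^ 3 + (-1) * X ^ 4 + (-1) * X ^ 5 + (-1) * X ^ 7 + (-1) * X ^ 8 + (-1) * X ^ 9 + (-1) * X ^ 10 + (-1) * X ^ 11 + (-1) * X ^ 12 + (-1) * X ^ 14 + (-1) * X ^ 15 + (-1) * X ^ 16 + (-1) * X ^ 17 + (-1) * X ^ 18 + (-1) * X ^ 19) * h2'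

theorem dvd_0_2 {F : Type*} [Field F] (w : F) (hw : w ^ 2 = w + 1) (h2 : (2 : F) = 0) :
    (X ^ 3 + C 0 * X ^ 2 + C w * X + 1 : F[X]) ∣ X ^ 21 - C 1 := by
  have hW : (C w : F[X]) ^ 2 = C w + 1 := by rw [← C_pow, hw, C_add, C_1]
  have h2' : (2 : F[X]) = 0 := by rw [← map_ofNat (C : F →+* F[X]) 2, h2, C_0]
  refine ⟨1 + C w * X + (C w + 1) * X ^ 2 + C w * X ^ 4 + C w * X ^ 7 + (C w + 1) * X ^ 8 + X ^ 9 + (C w + 1) * X ^ 11 + (C w + 1) * X ^ 14 + X ^ 15 + C w * X ^ 16 + X ^ 18, ?_⟩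
  try simp only [C_0, C_1, C_add]
  linear_combination ((-1) * X ^ 2 + (-1) * X ^ 3 + (-1) * X ^ 5 + (-1) * X ^ 8 + (-1) * X ^ 9 + (-1) * X ^ 12 + (-1) * X ^ 15 + (-1) * X ^ 17) * hW + ((-1) + (-1) * X * C w + (-1) * X ^ 2 + (-1) * X ^ 2 * C w + (-1) * X ^ 3 + (-1) * X ^ 3 * C w + (-1) * X ^ 4 * C w + (-1) * X ^ 5 + (-1) * X ^ 5 * C w + (-1) * X ^ 7 * C w + (-1) * X ^ 8 + (-1) * X ^ 8 * C w + (-1) * X ^ 9 + (-1) * X ^ 9 * C w + (-1) * X ^ 10 * C w + (-1) * X ^ 11 + (-1) * X ^ 11 * C w + (-1) * X ^ 12 + (-1) * X ^ 12 * C w + (-1) * X ^ 14 + (-1) * X ^ 14 * C w + (-1) * X ^ 15 + (-1) * X ^ 15 * C w + (-1) * X ^ 16 * C w + (-1) * X ^ 17 + (-1) * X ^ 17 * C w + (-1) * X ^ 18 + (-1) * X ^ 19 * C w) * h2'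

theorem dvd_0_3 {F : Type*} [Field F] (w : F) (hw : w ^ 2 = w + 1) (h2 : (2 : F) = 0) :
    (X ^ 3 + C 0 * X ^ 2 + C (w + 1) * X + 1 : F[X]) ∣ X ^ 21 - C 1 := by
  have hW : (C w : F[X]) ^ 2 = C w + 1 := by rw [← C_pow, hw, C_add, C_1]
  have h2' : (2 : F[X]) = 0 := by rw [← map_ofNat (C : F →+* F[X]) 2, h2, C_0]
  refine ⟨1 + (C w + 1) * X + C w * X ^ 2 + (C w + 1) * X ^ 4 + (C w + 1) * X ^ 7 + C w * X ^ 8 + X ^ 9 + C w * X ^ 11 + C w * X ^ 14 + X ^ 15 + (C w + 1) * X ^ 16 + X ^ 18, ?_⟩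
  try simp only [C_0, C_1, C_add]
  linear_combination ((-1) * X ^ 2 + (-1) * X ^ 3 + (-1) * X ^ 5 + (-1) * X ^ 8 + (-1) * X ^ 9 + (-1) * X ^ 12 + (-1) * X ^ 15 + (-1) * X ^ 17) * hW + ((-1) + (-1) * X + (-1) * X * C w + (-1) * X ^ 2 + (-2) * X ^ 2 * C w + (-1) * X ^ 3 + (-1) * X ^ 3 * C w + (-1) * X ^ 4 + (-1) * X ^ 4 * C w + (-1) * X ^ 5 + (-2) * X ^ 5 * C w + (-1) * X ^ 7 + (-1) * X ^ 7 * C w + (-1) * X ^ 8 + (-2) * X ^ 8 * C w + (-1) * X ^ 9 + (-1) * X ^ 9 * C w + (-1) * X ^ 10 + (-1) * X ^ 10 * C w + (-1) * X ^ 11 * C w + (-1) * X ^ 12 + (-1) * X ^ 12 * C w + (-1) * X ^ 14 * C w + (-1) * X ^ 15 + (-1) * X ^ 15 * C w + (-1) * X ^ 16 + (-1) * X ^ 16 * C w + (-1) * X ^ 17 + (-2) * X ^ 17 * C w + (-1) * X ^ 18 + (-1) * X ^ 19 + (-1) * X ^ 19 * C w) * h2'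

theorem dvd_1_0 {F : Type*} [Field F] (w : F) (hw : w ^ 2 = w + 1) (h2 : (2 : F) = 0) :
    (X ^ 3 + C 1 * X ^ 2 + C 0 * X + 1 : F[X]) ∣ X ^ 21 - C 1 := by
  have hW : (C w : F[X]) ^ 2 = C w + 1 := by rw [← C_pow, hw, C_add, C_1]
  have h2' : (2 : F[X]) = 0 := by rw [← map_ofNat (C : F →+* F[X]) 2, h2, C_0]
  refine ⟨1 + X ^ 2 + X ^ 3 + X ^ 4 + X ^ 7 + X ^ 9 + X ^ 10 + X ^ 11 + X ^ 14 + X ^ 16 + X ^ 17 + X ^ 18, ?_⟩
  try simp only [C_0, C_1, C_add]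
  linear_combination (0) * hW + ((-1) + (-1) * X ^ 2 + (-1) * X ^ 3 + (-1) * X ^ 4 + (-1) * X ^ 5 + (-1) * X ^ 6 + (-1) * X ^ 7 + (-1) * X ^ 9 + (-1) * X ^ 10 + (-1) * X ^ 11 + (-1) * X ^ 12 + (-1) * X ^ 13 + (-1) * X ^ 14 + (-1) * X ^ 16 + (-1) * X ^ 17 + (-1) * X ^ 18 + (-1) * X ^ 19 + (-1) * X ^ 20) * h2'

theorem dvd_1_1 {F : Type*} [Field F] (w : F) (hw : w ^ 2 = w + 1) (h2 : (2 : F) = 0) :
    (X ^ 3 + C 1 * X ^ 2 + C 1 * X + 1 : F[X]) ∣ X ^ 12 - C 1 := by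
  have hW : (C w : F[X]) ^ 2 = C w + 1 := by rw [← C_pow, hw, C_add, C_1]
  have h2' : (2 : F[X]) = 0 := by rw [← map_ofNat (C : F →+* F[X]) 2, h2, C_0]
  refine ⟨1 + X + X ^ 4 + X ^ 5 + X ^ 8 + X ^ 9, ?_⟩
  try simp only [C_0, C_1, C_add]
  linear_combination (0) * hW + ((-1) + (-1) * X + (-1) * X ^ 2 + (-1) * X ^ 3 + (-1) * X ^ 4 + (-1) * X ^ 5 + (-1) * X ^ 6 + (-1) * X ^ 7 + (-1) * X ^ 8 + (-1) * X ^ 9 + (-1) * X ^ 10 + (-1) * X ^ 11) * h2'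

theorem dvd_1_2 {F : Type*} [Field F] (w : F) (hw : w ^ 2 = w + 1) (h2 : (2 : F) = 0) :
    (X ^ 3 + C 1 * X ^ 2 + C w * X + 1 : F[X]) ∣ X ^ 5 - C (w + 1) := by
  have hW : (C w : F[X]) ^ 2 = C w + 1 := by rw [← C_pow, hw, C_add, C_1]
  have h2' : (2 : F[X]) = 0 := by rw [← map_ofNat (C : F →+* F[X]) 2, h2, C_0]
  refine ⟨(C w + 1) + X + X ^ 2, ?_⟩
  try simp only [C_0, C_1, C_add]
  linear_combination ((-1) * X) * hW + ((-1) + (-1) * C w + (-1) * X + (-1) * X * C w + (-1) * X ^ 2 + (-1) * X ^ 2 * C w + (-1) * X ^ 3 + (-1) * X ^ 3 * C w + (-1) * X ^ 4) * h2'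

theorem dvd_1_3 {F : Type*} [Field F] (w : F) (hw : w ^ 2 = w + 1) (h2 : (2 : F) = 0) :
    (X ^ 3 + C 1 * X ^ 2 + C (w + 1) * X + 1 : F[X]) ∣ X ^ 5 - C w := by
  have hW : (C w : F[X]) ^ 2 = C w + 1 := by rw [← C_pow, hw, C_add, C_1]
  have h2' : (2 : F[X]) = 0 := by rw [← map_ofNat (C : F →+* F[X]) 2, h2, C_0]
  refine ⟨C w + X + X ^ 2, ?_⟩
  try simp only [C_0, C_1, C_add]
  linear_combination ((-1) * X) * hW + ((-1) * C w + (-1) * X + (-1) * X * C w + (-1) * X ^ 2 + (-1) * X ^ 2 * C w + (-1) * X ^ 3 + (-1) * X ^ 3 * C w + (-1) * X ^ 4) * h2'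

theorem dvd_2_0 {F : Type*} [Field F] (w : F) (hw : w ^ 2 = w + 1) (h2 : (2 : F) = 0) :
    (X ^ 3 + C w * X ^ 2 + C 0 * X + 1 : F[X]) ∣ X ^ 21 - C 1 := by
  have hW : (C w : F[X]) ^ 2 = C w + 1 := by rw [← C_pow, hw, C_add, C_1]
  have h2' : (2 : F[X]) = 0 := by rw [← map_ofNat (C : F →+* F[X]) 2, h2, C_0]
  refine ⟨1 + C w * X ^ 2 + X ^ 3 + (C w + 1) * X ^ 4 + (C w + 1) * X ^ 7 + X ^ 9 + (C w + 1) * X ^ 10 + C w * X ^ 11 + C w * X ^ 14 + (C w + 1) * X ^ 16 + C w * X ^ 17 + X ^ 18, ?_⟩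
  try simp only [C_0, C_1, C_add]
  linear_combination ((-1) * X ^ 4 + (-1) * X ^ 6 + (-1) * X ^ 9 + (-1) * X ^ 12 + (-1) * X ^ 13 + (-1) * X ^ 16 + (-1) * X ^ 18 + (-1) * X ^ 19) * hW + ((-1) + (-1) * X ^ 2 * C w + (-1) * X ^ 3 + (-1) * X ^ 4 + (-1) * X ^ 4 * C w + (-1) * X ^ 5 * C w + (-1) * X ^ 6 + (-1) * X ^ 6 * C w + (-1) * X ^ 7 + (-1) * X ^ 7 * C w + (-1) * X ^ 9 + (-1) * X ^ 9 * C w + (-1) * X ^ 10 + (-1) * X ^ 10 * C w + (-1) * X ^ 11 * C w + (-1) * X ^ 12 + (-1) * X ^ 12 * C w + (-1) * X ^ 13 + (-1) * X ^ 13 * C w + (-1) * X ^ 14 * C w + (-1) * X ^ 16 + (-1) * X ^ 16 * C w + (-1) * X ^ 17 * C w + (-1) * X ^ 18 + (-1) * X ^ 18 * C w + (-1) * X ^ 19 + (-1) * X ^ 19 * C w + (-1) * X ^ 20 * C w) * h2'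

theorem dvd_2_1 {F : Type*} [Field F] (w : F) (hw : w ^ 2 = w + 1) (h2 : (2 : F) = 0) :
    (X ^ 3 + C w * X ^ 2 + C 1 * X + 1 : F[X]) ∣ X ^ 5 - C w := by
  have hW : (C w : F[X]) ^ 2 = C w + 1 := by rw [← C_pow, hw, C_add, C_1]
  have h2' : (2 : F[X]) = 0 := by rw [← map_ofNat (C : F →+* F[X]) 2, h2, C_0]
  refine ⟨C w + C w * X + X ^ 2, ?_⟩
  try simp only [C_0, C_1, C_add]
  linear_combination ((-1) * X ^ 2 + (-1) * X ^ 3) * hW + ((-1) * C w + (-1) * X * C w + (-1) * X ^ 2 + (-1) * X ^ 2 * C w + (-1) * X ^ 3 + (-1) * X ^ 3 * C w + (-1) * X ^ 4 * C w) * h2'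

theorem dvd_2_2 {F : Type*} [Field F] (w : F) (hw : w ^ 2 = w + 1) (h2 : (2 : F) = 0) :
    (X ^ 3 + C w * X ^ 2 + C w * X + 1 : F[X]) ∣ X ^ 5 - C 1 := by
  have hW : (C w : F[X]) ^ 2 = C w + 1 := by rw [← C_pow, hw, C_add, C_1]
  have h2' : (2 : F[X]) = 0 := by rw [← map_ofNat (C : F →+* F[X]) 2, h2, C_0]
  refine ⟨1 + C w * X + X ^ 2, ?_⟩
  try simp only [C_0, C_1, C_add]
  linear_combination ((-1) * X ^ 2 + (-1) * X ^ 3) * hW + ((-1) + (-1) * X * C w + (-1) * X ^ 2 + (-1) * X ^ 2 * C w + (-1) * X ^ 3 + (-1) * X ^ 3 * C w + (-1) * X ^ 4 * C w) * h2'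

theorem dvd_2_3 {F : Type*} [Field F] (w : F) (hw : w ^ 2 = w + 1) (h2 : (2 : F) = 0) :
    (X ^ 3 + C w * X ^ 2 + C (w + 1) * X + 1 : F[X]) ∣ X ^ 12 - C 1 := by
  have hW : (C w : F[X]) ^ 2 = C w + 1 := by rw [← C_pow, hw, C_add, C_1]
  have h2' : (2 : F[X]) = 0 := by rw [← map_ofNat (C : F →+* F[X]) 2, h2, C_0]
  refine ⟨1 + (C w + 1) * X + (C w + 1) * X ^ 4 + C w * X ^ 5 + C w * X ^ 8 + X ^ 9, ?_⟩
  try simp only [C_0, C_1, C_add]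
  linear_combination ((-1) * X ^ 2 + (-1) * X ^ 3 + (-1) * X ^ 5 + (-2) * X ^ 6 + (-1) * X ^ 7 + (-1) * X ^ 9 + (-1) * X ^ 10) * hW + ((-1) + (-1) * X + (-1) * X * C w + (-1) * X ^ 2 + (-2) * X ^ 2 * C w + (-1) * X ^ 3 + (-1) * X ^ 3 * C w + (-1) * X ^ 4 + (-1) * X ^ 4 * C w + (-1) * X ^ 5 + (-2) * X ^ 5 * C w + (-1) * X ^ 6 + (-2) * X ^ 6 * C w + (-1) * X ^ 7 + (-1) * X ^ 7 * C w + (-1) * X ^ 8 * C w + (-1) * X ^ 9 + (-1) * X ^ 9 * C w + (-1) * X ^ 10 + (-1) * X ^ 10 * C w + (-1) * X ^ 11 * C w) * h2'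

theorem dvd_3_0 {F : Type*} [Field F] (w : F) (hw : w ^ 2 = w + 1) (h2 : (2 : F) = 0) :
    (X ^ 3 + C (w + 1) * X ^ 2 + C 0 * X + 1 : F[X]) ∣ X ^ 21 - C 1 := by
  have hW : (C w : F[X]) ^ 2 = C w + 1 := by rw [← C_pow, hw, C_add, C_1]
  have h2' : (2 : F[X]) = 0 := by rw [← map_ofNat (C : F →+* F[X]) 2, h2, C_0]
  refine ⟨1 + (C w + 1) * X ^ 2 + X ^ 3 + C w * X ^ 4 + C w * X ^ 7 + X ^ 9 + C w * X ^ 10 + (C w + 1) * X ^ 11 + (C w + 1) * X ^ 14 + C w * X ^ 16 + (C w + 1) * X ^ 17 + X ^ 18, ?_⟩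
  try simp only [C_0, C_1, C_add]
  linear_combination ((-1) * X ^ 4 + (-1) * X ^ 6 + (-1) * X ^ 9 + (-1) * X ^ 12 + (-1) * X ^ 13 + (-1) * X ^ 16 + (-1) * X ^ 18 + (-1) * X ^ 19) * hW + ((-1) + (-1) * X ^ 2 + (-1) * X ^ 2 * C w + (-1) * X ^ 3 + (-1) * X ^ 4 + (-2) * X ^ 4 * C w + (-1) * X ^ 5 + (-1) * X ^ 5 * C w + (-1) * X ^ 6 + (-1) * X ^ 6 * C w + (-1) * X ^ 7 * C w + (-1) * X ^ 9 + (-1) * X ^ 9 * C w + (-1) * X ^ 10 * C w + (-1) * X ^ 11 + (-1) * X ^ 11 * C w + (-1) * X ^ 12 + (-1) * X ^ 12 * C w + (-1) * X ^ 13 + (-2) * X ^ 13 * C w + (-1) * X ^ 14 + (-1) * X ^ 14 * C w + (-1) * X ^ 16 + (-2) * X ^ 16 * C w + (-1) * X ^ 17 + (-1) * X ^ 17 * C w + (-1) * X ^ 18 + (-1) * X ^ 18 * C w + (-1) * X ^ 19 + (-2) * X ^ 19 * C w + (-1) * X ^ 20 + (-1) * X ^ 20 * C w) * h2'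

theorem dvd_3_1 {F : Type*} [Field F] (w : F) (hw : w ^ 2 = w + 1) (h2 : (2 : F) = 0) :
    (X ^ 3 + C (w + 1) * X ^ 2 + C 1 * X + 1 : F[X]) ∣ X ^ 5 - C (w + 1) := by
  have hW : (C w : F[X]) ^ 2 = C w + 1 := by rw [← C_pow, hw, C_add, C_1]
  have h2' : (2 : F[X]) = 0 := by rw [← map_ofNat (C : F →+* F[X]) 2, h2, C_0]
  refine ⟨(C w + 1) + (C w + 1) * X + X ^ 2, ?_⟩
  try simp only [C_0, C_1, C_add]
  linear_combination ((-1) * X ^ 2 + (-1) * X ^ 3) * hW + ((-1) + (-1) * C w + (-1) * X + (-1) * X * C w + (-2) * X ^ 2 + (-2) * X ^ 2 * C w + (-2) * X ^ 3 + (-2) * X ^ 3 * C w + (-1) * X ^ 4 + (-1) * X ^ 4 * C w) * h2'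

theorem dvd_3_2 {F : Type*} [Field F] (w : F) (hw : w ^ 2 = w + 1) (h2 : (2 : F) = 0) :
    (X ^ 3 + C (w + 1) * X ^ 2 + C w * X + 1 : F[X]) ∣ X ^ 12 - C 1 := by
  have hW : (C w : F[X]) ^ 2 = C w + 1 := by rw [← C_pow, hw, C_add, C_1]
  have h2' : (2 : F[X]) = 0 := by rw [← map_ofNat (C : F →+* F[X]) 2, h2, C_0]
  refine ⟨1 + C w * X + C w * X ^ 4 + (C w + 1) * X ^ 5 + (C w + 1) * X ^ 8 + X ^ 9, ?_⟩
  try simp only [C_0, C_1, C_add]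
  linear_combination ((-1) * X ^ 2 + (-1) * X ^ 3 + (-1) * X ^ 5 + (-2) * X ^ 6 + (-1) * X ^ 7 + (-1) * X ^ 9 + (-1) * X ^ 10) * hW + ((-1) + (-1) * X * C w + (-1) * X ^ 2 + (-1) * X ^ 2 * C w + (-1) * X ^ 3 + (-1) * X ^ 3 * C w + (-1) * X ^ 4 * C w + (-1) * X ^ 5 + (-1) * X ^ 5 * C w + (-1) * X ^ 6 + (-2) * X ^ 6 * C w + (-1) * X ^ 7 + (-2) * X ^ 7 * C w + (-1) * X ^ 8 + (-1) * X ^ 8 * C w + (-1) * X ^ 9 + (-1) * X ^ 9 * C w + (-1) * X ^ 10 + (-2) * X ^ 10 * C w + (-1) * X ^ 11 + (-1) * X ^ 11 * C w) * h2'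

theorem dvd_3_3 {F : Type*} [Field F] (w : F) (hw : w ^ 2 = w + 1) (h2 : (2 : F) = 0) :
    (X ^ 3 + C (w + 1) * X ^ 2 + C (w + 1) * X + 1 : F[X]) ∣ X ^ 5 - C 1 := by
  have hW : (C w : F[X]) ^ 2 = C w + 1 := by rw [← C_pow, hw, C_add, C_1]
  have h2' : (2 : F[X]) = 0 := by rw [← map_ofNat (C : F →+* F[X]) 2, h2, C_0]
  refine ⟨1 + (C w + 1) * X + X ^ 2, ?_⟩
  try simp only [C_0, C_1, C_add]
  linear_combination ((-1) * X ^ 2 + (-1) * X ^ 3) * hW + ((-1) + (-1) * X + (-1) * X * C w + (-2) * X ^ 2 + (-2) * X ^ 2 * C w + (-2) * X ^ 3 + (-2) * X ^ 3 * C w + (-1) * X ^ 4 + (-1) * X ^ 4 * C w) * h2'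

theorem two_eq_zero_of_card {F : Type*} [Field F] [Fintype F] (hF : Fintype.card F = 4) :
    (2 : F) = 0 := by
  obtain ⟨p, hp⟩ := CharP.exists F
  obtain ⟨n, hprime, hcard⟩ := FiniteField.card F p
  rw [hF] at hcard
  have hp2 : p = 2 := by
    have hdvd : p ∣ 2 ^ 2 := by
      have : p ∣ 4 := by rw [hcard]; exact dvd_pow_self p n.ne_zero
      simpa using this
    exact (Nat.prime_dvd_prime_iff_eq hprime Nat.prime_two).1 (hprime.dvd_of_dvd_pow hdvd)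
  subst hp2
  exact_mod_cast CharP.cast_eq_zero F 2

theorem exists_w {F : Type*} [Field F] [Fintype F] (hF : Fintype.card F = 4) (h2 : (2 : F) = 0) :
    ∃ w : F, w ^ 2 = w + 1 ∧ ∀ x : F, x = 0 ∨ x = 1 ∨ x = w ∨ x = w + 1 := by
  classical
  have hex : ∃ w : F, w ≠ 0 ∧ w ≠ 1 := by
    by_contra hcon
    push Not at hcon
    have hsub : (Finset.univ : Finset F) ⊆ {0, 1} := fun x _ => by
      by_cases hx : x = 0
      · simp [hx]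
      · simp [hcon x hx]
    have h1 := Finset.card_le_card hsub
    have h2c : ({0, 1} : Finset F).card ≤ 2 := Finset.card_le_two
    rw [Finset.card_univ, hF] at h1
    omega
  obtain ⟨w, hw0, hw1⟩ := hex
  have hw4 : w ^ 4 = w := by rw [← hF]; exact FiniteField.pow_card w
  have hw2 : w ^ 2 = w + 1 := by
    have h3 : w * (w - 1) * (w ^ 2 + w + 1) = 0 := by linear_combination hw4
    rcases mul_eq_zero.1 h3 with h | h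
    · rcases mul_eq_zero.1 h with h | h
      · exact absurd h hw0
      · exact absurd (sub_eq_zero.1 h) hw1
    · linear_combination h - (w + 1) * h2
  refine ⟨w, hw2, ?_⟩
  have h10 : (1 : F) ≠ 0 := one_ne_zero
  have hw1' : w + 1 ≠ 0 := by
    intro h
    apply hw1
    linear_combination h - h2
  have hcard : ({0, 1, w, w + 1} : Finset F).card = 4 := by
    rw [Finset.card_insert_of_notMem, Finset.card_insert_of_notMem,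
      Finset.card_insert_of_notMem, Finset.card_singleton]
    · simp
    · simp only [Finset.mem_insert, Finset.mem_singleton, not_or]
      refine ⟨fun h => hw1 h.symm, fun h => hw0 ?_⟩
      linear_combination -h
    · simp only [Finset.mem_insert, Finset.mem_singleton, not_or]
      exact ⟨fun h => h10 h.symm, fun h => hw0 h.symm, fun h => hw1' h.symm⟩
  have huniv : ({0, 1, w, w + 1} : Finset F) = Finset.univ :=
    Finset.eq_univ_of_card _ (by rw [hcard, hF])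
  intro x
  have hx := Finset.mem_univ x
  rw [← huniv] at hx
  simpa using hx

theorem cayley3 {R : Type*} [CommRing R] (M : Matrix (Fin 3) (Fin 3) R) :
    M ^ 3 - (M 0 0 + M 1 1 + M 2 2) • M ^ 2 +
      (M 0 0 * M 1 1 - M 0 1 * M 1 0 + M 0 0 * M 2 2 - M 0 2 * M 2 0 + M 1 1 * M 2 2
        - M 1 2 * M 2 1) • M - M.det • (1 : Matrix (Fin 3) (Fin 3) R) = 0 := by
  ext i j
  fin_cases i <;> fin_cases j <;>
    simp [pow_succ, Matrix.mul_apply, Fin.sum_univ_three, Matrix.det_fin_three] <;> ring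

theorem exists_charpoly {F : Type*} [Field F] (h2 : (2 : F) = 0) (M : Matrix (Fin 3) (Fin 3) F)
    (hdet : M.det = 1) :
    ∃ a b : F, aeval M (X ^ 3 + C a * X ^ 2 + C b * X + 1 : F[X]) = 0 := by
  refine ⟨M 0 0 + M 1 1 + M 2 2, M 0 0 * M 1 1 - M 0 1 * M 1 0 + M 0 0 * M 2 2 - M 0 2 * M 2 0
    + M 1 1 * M 2 2 - M 1 2 * M 2 1, ?_⟩
  have h2' : (2 : F[X]) = 0 := by rw [← map_ofNat (C : F →+* F[X]) 2, h2, C_0]
  set a := M 0 0 + M 1 1 + M 2 2 with ha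
  set b := M 0 0 * M 1 1 - M 0 1 * M 1 0 + M 0 0 * M 2 2 - M 0 2 * M 2 0
    + M 1 1 * M 2 2 - M 1 2 * M 2 1 with hb
  have hχ : (X ^ 3 + C a * X ^ 2 + C b * X + 1 : F[X]) = X ^ 3 - C a * X ^ 2 + C b * X - 1 := by
    linear_combination (C a * X ^ 2 + 1) * h2'
  rw [hχ]
  have hc := cayley3 M
  rw [hdet, one_smul] at hc
  simpa [Algebra.algebraMap_eq_smul_one, smul_mul_assoc] using hc

theorem pow_eq_of_dvd {F : Type*} [Field F] (M : Matrix (Fin 3) (Fin 3) F) (χ : F[X])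
    (hχ : aeval M χ = 0) (N : ℕ) (c : F) (hd : χ ∣ X ^ N - C c) :
    M ^ N = c • (1 : Matrix (Fin 3) (Fin 3) F) := by
  obtain ⟨q, hq⟩ := hd
  have h0 : aeval M (X ^ N - C c) = 0 := by rw [hq, map_mul, hχ, zero_mul]
  have h1 : M ^ N - c • (1 : Matrix (Fin 3) (Fin 3) F) = 0 := by
    simpa [Algebra.algebraMap_eq_smul_one] using h0
  exact sub_eq_zero.1 h1

theorem case12 {F : Type*} [Field F] (M : Matrix (Fin 3) (Fin 3) F) (c : F)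
    (h15 : M ^ 15 = c • (1 : Matrix (Fin 3) (Fin 3) F))
    (h12 : M ^ 12 = (1 : F) • (1 : Matrix (Fin 3) (Fin 3) F)) :
    (∃ c' : F, M ^ 5 = c' • (1 : Matrix (Fin 3) (Fin 3) F)) ∨
      (∃ c' : F, M ^ 3 = c' • (1 : Matrix (Fin 3) (Fin 3) F)) := by
  refine Or.inr ⟨c, ?_⟩
  rw [← h15, show 15 = 12 + 3 from rfl, pow_add, h12, one_smul, one_mul]

theorem case21 {F : Type*} [Field F] (M : Matrix (Fin 3) (Fin 3) F) (c : F) (hc : c ^ 3 = 1)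
    (h15 : M ^ 15 = c • (1 : Matrix (Fin 3) (Fin 3) F))
    (h21 : M ^ 21 = (1 : F) • (1 : Matrix (Fin 3) (Fin 3) F)) :
    (∃ c' : F, M ^ 5 = c' • (1 : Matrix (Fin 3) (Fin 3) F)) ∨
      (∃ c' : F, M ^ 3 = c' • (1 : Matrix (Fin 3) (Fin 3) F)) := by
  refine Or.inr ⟨1, ?_⟩
  have h45 : M ^ 45 = 1 := by
    rw [show 45 = 15 * 3 from rfl, pow_mul, h15, _root_.smul_pow, hc, one_pow, one_smul]
  have h45' : M ^ 45 = M ^ 3 := by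
    rw [show 45 = 21 * 2 + 3 from rfl, pow_add, pow_mul, h21, one_smul, one_pow, one_mul]
  rw [← h45', h45, one_smul]

theorem key {F : Type*} [Field F] [Fintype F] (hF : Fintype.card F = 4)
    (M : Matrix (Fin 3) (Fin 3) F) (hdet : M.det = 1) (c : F) (hc : c ^ 3 = 1)
    (h15 : M ^ 15 = c • (1 : Matrix (Fin 3) (Fin 3) F)) :
    (∃ c' : F, M ^ 5 = c' • (1 : Matrix (Fin 3) (Fin 3) F)) ∨
      (∃ c' : F, M ^ 3 = c' • (1 : Matrix (Fin 3) (Fin 3) F)) := by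
  have h2 := two_eq_zero_of_card hF
  obtain ⟨w, hw, hall⟩ := exists_w hF h2
  obtain ⟨a, b, hχ⟩ := exists_charpoly h2 M hdet
  rcases hall a with ha | ha | ha | ha <;> rcases hall b with hb | hb | hb | hb <;>
    rw [ha, hb] at hχ
  · exact case12 M c h15 (pow_eq_of_dvd M _ hχ 12 1 (dvd_0_0 w hw h2))
  · exact case21 M c hc h15 (pow_eq_of_dvd M _ hχ 21 1 (dvd_0_1 w hw h2))
  · exact case21 M c hc h15 (pow_eq_of_dvd M _ hχ 21 1 (dvd_0_2 w hw h2))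
  · exact case21 M c hc h15 (pow_eq_of_dvd M _ hχ 21 1 (dvd_0_3 w hw h2))
  · exact case21 M c hc h15 (pow_eq_of_dvd M _ hχ 21 1 (dvd_1_0 w hw h2))
  · exact case12 M c h15 (pow_eq_of_dvd M _ hχ 12 1 (dvd_1_1 w hw h2))
  · exact Or.inl ⟨(w + 1), pow_eq_of_dvd M _ hχ 5 _ (dvd_1_2 w hw h2)⟩
  · exact Or.inl ⟨w, pow_eq_of_dvd M _ hχ 5 _ (dvd_1_3 w hw h2)⟩
  · exact case21 M c hc h15 (pow_eq_of_dvd M _ hχ 21 1 (dvd_2_0 w hw h2))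
  · exact Or.inl ⟨w, pow_eq_of_dvd M _ hχ 5 _ (dvd_2_1 w hw h2)⟩
  · exact Or.inl ⟨1, pow_eq_of_dvd M _ hχ 5 _ (dvd_2_2 w hw h2)⟩
  · exact case12 M c h15 (pow_eq_of_dvd M _ hχ 12 1 (dvd_2_3 w hw h2))
  · exact case21 M c hc h15 (pow_eq_of_dvd M _ hχ 21 1 (dvd_3_0 w hw h2))
  · exact Or.inl ⟨(w + 1), pow_eq_of_dvd M _ hχ 5 _ (dvd_3_1 w hw h2)⟩
  · exact case12 M c h15 (pow_eq_of_dvd M _ hχ 12 1 (dvd_3_2 w hw h2))
  · exact Or.inl ⟨1, pow_eq_of_dvd M _ hχ 5 _ (dvd_3_3 w hw h2)⟩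

/-- No element of PSL_3(4) has order 15. -/
theorem result {F : Type*} [Field F] [Fintype F] (hF : Fintype.card F = 4) (g : Matrix.ProjectiveSpecialLinearGroup (Fin 3) F) : orderOf g ≠ 15 := by
  intro h15
  obtain ⟨s, rfl⟩ := QuotientGroup.mk_surjective g
  have hg15 : (QuotientGroup.mk s : Matrix.ProjectiveSpecialLinearGroup (Fin 3) F) ^ 15 = 1 := by
    rw [← h15]; exact pow_orderOf_eq_one _
  have hs15 : s ^ 15 ∈ Subgroup.center (Matrix.SpecialLinearGroup (Fin 3) F) := by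
    rwa [← QuotientGroup.mk_pow, QuotientGroup.eq_one_iff] at hg15
  obtain ⟨c, hc, hcs⟩ := Matrix.SpecialLinearGroup.mem_center_iff.1 hs15
  have hc3 : c ^ 3 = 1 := by simpa using hc
  have hM15 : (s : Matrix (Fin 3) (Fin 3) F) ^ 15 = c • (1 : Matrix (Fin 3) (Fin 3) F) := by
    rw [← Matrix.SpecialLinearGroup.coe_pow, ← hcs]
    simp [Matrix.smul_one_eq_diagonal]
  have hcen : ∀ (k : ℕ) (c' : F), (s : Matrix (Fin 3) (Fin 3) F) ^ k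
      = c' • (1 : Matrix (Fin 3) (Fin 3) F) →
      (QuotientGroup.mk s : Matrix.ProjectiveSpecialLinearGroup (Fin 3) F) ^ k = 1 := by
    intro k c' hk
    rw [← QuotientGroup.mk_pow, QuotientGroup.eq_one_iff, Matrix.SpecialLinearGroup.mem_center_iff]
    refine ⟨c', ?_, ?_⟩
    · have hd : ((s : Matrix (Fin 3) (Fin 3) F) ^ k).det = 1 := by
        rw [Matrix.det_pow, s.det_coe, one_pow]
      rw [hk, Matrix.det_smul, Matrix.det_one, mul_one] at hd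
      simpa using hd
    · rw [Matrix.SpecialLinearGroup.coe_pow, hk]
      simp [Matrix.smul_one_eq_diagonal]
  rcases key hF (s : Matrix (Fin 3) (Fin 3) F) s.det_coe c hc3 hM15 with ⟨c', h⟩ | ⟨c', h⟩
  · have hd := orderOf_dvd_of_pow_eq_one (hcen 5 c' h)
    rw [h15] at hd
    omega
  · have hd := orderOf_dvd_of_pow_eq_one (hcen 3 c' h)
    rw [h15] at hd
    omega

end Cfsg.Agent.S0819
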