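import Cfsg.Statements.S0820
import Mathlib

set_option autoImplicit false
set_option linter.unusedSimpArgs false
set_option linter.unreachableTactic false
set_option linter.unnecessarySeqFocus false
set_option linter.unusedTactic false
open Cfsg

namespace Cfsg.Agent.S0820

open Matrix

theorem two_eq_zero_of_card {F : Type*} [Field F] [Fintype F] (hF : Fintype.card F = 4) :
    (2 : F) = 0 := by
  obtain ⟨p, hp⟩ := CharP.exists F
  obtain ⟨n, hprime, hcard⟩ := FiniteField.card F p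
  rw [hF] at hcard
  have hp2 : p = 2 := by
    have hdvd : p ∣ 2 ^ 2 := by
      have : p ∣ 4 := by rw [hcard]; exact dvd_pow_self p n.ne_zero
      simpa using this
    exact (Nat.prime_dvd_prime_iff_eq hprime Nat.prime_two).1 (hprime.dvd_of_dvd_pow hdvd)
  subst hp2
  exact_mod_cast CharP.cast_eq_zero F 2

theorem cayley3 {R : Type*} [CommRing R] (M : Matrix (Fin 3) (Fin 3) R) :
    M ^ 3 - (M 0 0 + M 1 1 + M 2 2) • M ^ 2 +
      (M 0 0 * M 1 1 - M 0 1 * M 1 0 + M 0 0 * M 2 2 - M 0 2 * M 2 0 + M 1 1 * M 2 2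
        - M 1 2 * M 2 1) • M - M.det • (1 : Matrix (Fin 3) (Fin 3) R) = 0 := by
  ext i j
  fin_cases i <;> fin_cases j <;>
    simp [pow_succ, Matrix.mul_apply, Fin.sum_univ_three, Matrix.det_fin_three] <;> ring

theorem sq_zero_entries {F : Type*} [Field F] (N : Matrix (Fin 3) (Fin 3) F) (hNN : N * N = 0) :
    ∀ k l : Fin 3, N k 0 * N 0 l + N k 1 * N 1 l + N k 2 * N 2 l = 0 := by
  intro k l
  have h := congrFun (congrFun hNN k) l
  simpa [Matrix.mul_apply, Fin.sum_univ_three] using h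

theorem tr_e2_zero {F : Type*} [Field F] (N : Matrix (Fin 3) (Fin 3) F) (hNN : N * N = 0)
    (hN : N ≠ 0) :
    N 0 0 + N 1 1 + N 2 2 = 0 ∧
    N 0 0 * N 1 1 - N 0 1 * N 1 0 + N 0 0 * N 2 2 - N 0 2 * N 2 0 + N 1 1 * N 2 2
        - N 1 2 * N 2 1 = 0 := by
  have hE := sq_zero_entries N hNN
  have hdet : N.det = 0 := by
    have h : N.det * N.det = 0 := by rw [← Matrix.det_mul, hNN, Matrix.det_zero]
    exact mul_self_eq_zero.1 h
  have hc := cayley3 N
  have h3 : N ^ 3 = 0 := by rw [pow_succ, pow_two, hNN, zero_mul]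
  have h2 : N ^ 2 = 0 := by rw [pow_two, hNN]
  rw [h3, h2, hdet] at hc
  simp only [smul_zero, sub_zero, zero_smul, zero_add] at hc
  have hb : N 0 0 * N 1 1 - N 0 1 * N 1 0 + N 0 0 * N 2 2 - N 0 2 * N 2 0 + N 1 1 * N 2 2
        - N 1 2 * N 2 1 = 0 := by
    rcases smul_eq_zero.1 hc with h | h
    · exact h
    · exact absurd h hN
  refine ⟨?_, hb⟩
  have hsq : (N 0 0 + N 1 1 + N 2 2) ^ 2 = 0 := by
    linear_combination hE 0 0 + hE 1 1 + hE 2 2 + 2 * hb
  exact pow_eq_zero_iff (two_ne_zero) |>.1 hsq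

theorem minors {F : Type*} [Field F] (N : Matrix (Fin 3) (Fin 3) F) (hNN : N * N = 0)
    (hN : N ≠ 0) : ∀ a b i j : Fin 3, N a b * N i j = N a j * N i b := by
  have hE := sq_zero_entries N hNN
  obtain ⟨ha, hb⟩ := tr_e2_zero N hNN hN
  intro a b i j
  fin_cases a <;> fin_cases b <;> fin_cases i <;> fin_cases j
  · (try simp only [Fin.zero_eta, Fin.mk_one, Fin.reduceFinMk, Fin.isValue]) <;> ring
  · (try simp only [Fin.zero_eta, Fin.mk_one, Fin.reduceFinMk, Fin.isValue]) <;> ring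
  · (try simp only [Fin.zero_eta, Fin.mk_one, Fin.reduceFinMk, Fin.isValue]) <;> ring
  · (try simp only [Fin.zero_eta, Fin.mk_one, Fin.reduceFinMk, Fin.isValue]) <;> ring
  · (try simp only [Fin.zero_eta, Fin.mk_one, Fin.reduceFinMk, Fin.isValue]) <;> linear_combination (1) * hE 2 2 - (1) * N 2 2 * ha + (1) * hb
  · (try simp only [Fin.zero_eta, Fin.mk_one, Fin.reduceFinMk, Fin.isValue]) <;> linear_combination (-1) * hE 1 2 - (-1) * N 1 2 * ha
  · (try simp only [Fin.zero_eta, Fin.mk_one, Fin.reduceFinMk, Fin.isValue]) <;> ring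
  · (try simp only [Fin.zero_eta, Fin.mk_one, Fin.reduceFinMk, Fin.isValue]) <;> linear_combination (-1) * hE 2 1 - (-1) * N 2 1 * ha
  · (try simp only [Fin.zero_eta, Fin.mk_one, Fin.reduceFinMk, Fin.isValue]) <;> linear_combination (1) * hE 1 1 - (1) * N 1 1 * ha + (1) * hb
  · (try simp only [Fin.zero_eta, Fin.mk_one, Fin.reduceFinMk, Fin.isValue]) <;> ring
  · (try simp only [Fin.zero_eta, Fin.mk_one, Fin.reduceFinMk, Fin.isValue]) <;> ring
  · (try simp only [Fin.zero_eta, Fin.mk_one, Fin.reduceFinMk, Fin.isValue]) <;> ring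
  · (try simp only [Fin.zero_eta, Fin.mk_one, Fin.reduceFinMk, Fin.isValue]) <;> linear_combination (-1) * hE 2 2 - (-1) * N 2 2 * ha + (-1) * hb
  · (try simp only [Fin.zero_eta, Fin.mk_one, Fin.reduceFinMk, Fin.isValue]) <;> ring
  · (try simp only [Fin.zero_eta, Fin.mk_one, Fin.reduceFinMk, Fin.isValue]) <;> linear_combination (1) * hE 0 2 - (1) * N 0 2 * ha
  · (try simp only [Fin.zero_eta, Fin.mk_one, Fin.reduceFinMk, Fin.isValue]) <;> linear_combination (1) * hE 2 1 - (1) * N 2 1 * ha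
  · (try simp only [Fin.zero_eta, Fin.mk_one, Fin.reduceFinMk, Fin.isValue]) <;> ring
  · (try simp only [Fin.zero_eta, Fin.mk_one, Fin.reduceFinMk, Fin.isValue]) <;> linear_combination (-1) * hE 0 1 - (-1) * N 0 1 * ha
  · (try simp only [Fin.zero_eta, Fin.mk_one, Fin.reduceFinMk, Fin.isValue]) <;> ring
  · (try simp only [Fin.zero_eta, Fin.mk_one, Fin.reduceFinMk, Fin.isValue]) <;> ring
  · (try simp only [Fin.zero_eta, Fin.mk_one, Fin.reduceFinMk, Fin.isValue]) <;> ring
  · (try simp only [Fin.zero_eta, Fin.mk_one, Fin.reduceFinMk, Fin.isValue]) <;> linear_combination (1) * hE 1 2 - (1) * N 1 2 * ha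
  · (try simp only [Fin.zero_eta, Fin.mk_one, Fin.reduceFinMk, Fin.isValue]) <;> linear_combination (-1) * hE 0 2 - (-1) * N 0 2 * ha
  · (try simp only [Fin.zero_eta, Fin.mk_one, Fin.reduceFinMk, Fin.isValue]) <;> ring
  · (try simp only [Fin.zero_eta, Fin.mk_one, Fin.reduceFinMk, Fin.isValue]) <;> linear_combination (-1) * hE 1 1 - (-1) * N 1 1 * ha + (-1) * hb
  · (try simp only [Fin.zero_eta, Fin.mk_one, Fin.reduceFinMk, Fin.isValue]) <;> linear_combination (1) * hE 0 1 - (1) * N 0 1 * ha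
  · (try simp only [Fin.zero_eta, Fin.mk_one, Fin.reduceFinMk, Fin.isValue]) <;> ring
  · (try simp only [Fin.zero_eta, Fin.mk_one, Fin.reduceFinMk, Fin.isValue]) <;> ring
  · (try simp only [Fin.zero_eta, Fin.mk_one, Fin.reduceFinMk, Fin.isValue]) <;> linear_combination (-1) * hE 2 2 - (-1) * N 2 2 * ha + (-1) * hb
  · (try simp only [Fin.zero_eta, Fin.mk_one, Fin.reduceFinMk, Fin.isValue]) <;> linear_combination (1) * hE 1 2 - (1) * N 1 2 * ha
  · (try simp only [Fin.zero_eta, Fin.mk_one, Fin.reduceFinMk, Fin.isValue]) <;> ring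
  · (try simp only [Fin.zero_eta, Fin.mk_one, Fin.reduceFinMk, Fin.isValue]) <;> ring
  · (try simp only [Fin.zero_eta, Fin.mk_one, Fin.reduceFinMk, Fin.isValue]) <;> ring
  · (try simp only [Fin.zero_eta, Fin.mk_one, Fin.reduceFinMk, Fin.isValue]) <;> ring
  · (try simp only [Fin.zero_eta, Fin.mk_one, Fin.reduceFinMk, Fin.isValue]) <;> linear_combination (1) * hE 2 0 - (1) * N 2 0 * ha
  · (try simp only [Fin.zero_eta, Fin.mk_one, Fin.reduceFinMk, Fin.isValue]) <;> linear_combination (-1) * hE 1 0 - (-1) * N 1 0 * ha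
  · (try simp only [Fin.zero_eta, Fin.mk_one, Fin.reduceFinMk, Fin.isValue]) <;> linear_combination (1) * hE 2 2 - (1) * N 2 2 * ha + (1) * hb
  · (try simp only [Fin.zero_eta, Fin.mk_one, Fin.reduceFinMk, Fin.isValue]) <;> ring
  · (try simp only [Fin.zero_eta, Fin.mk_one, Fin.reduceFinMk, Fin.isValue]) <;> linear_combination (-1) * hE 0 2 - (-1) * N 0 2 * ha
  · (try simp only [Fin.zero_eta, Fin.mk_one, Fin.reduceFinMk, Fin.isValue]) <;> ring
  · (try simp only [Fin.zero_eta, Fin.mk_one, Fin.reduceFinMk, Fin.isValue]) <;> ring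
  · (try simp only [Fin.zero_eta, Fin.mk_one, Fin.reduceFinMk, Fin.isValue]) <;> ring
  · (try simp only [Fin.zero_eta, Fin.mk_one, Fin.reduceFinMk, Fin.isValue]) <;> linear_combination (-1) * hE 2 0 - (-1) * N 2 0 * ha
  · (try simp only [Fin.zero_eta, Fin.mk_one, Fin.reduceFinMk, Fin.isValue]) <;> ring
  · (try simp only [Fin.zero_eta, Fin.mk_one, Fin.reduceFinMk, Fin.isValue]) <;> linear_combination (1) * hE 0 0 - (1) * N 0 0 * ha + (1) * hb
  · (try simp only [Fin.zero_eta, Fin.mk_one, Fin.reduceFinMk, Fin.isValue]) <;> linear_combination (-1) * hE 1 2 - (-1) * N 1 2 * ha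
  · (try simp only [Fin.zero_eta, Fin.mk_one, Fin.reduceFinMk, Fin.isValue]) <;> linear_combination (1) * hE 0 2 - (1) * N 0 2 * ha
  · (try simp only [Fin.zero_eta, Fin.mk_one, Fin.reduceFinMk, Fin.isValue]) <;> ring
  · (try simp only [Fin.zero_eta, Fin.mk_one, Fin.reduceFinMk, Fin.isValue]) <;> ring
  · (try simp only [Fin.zero_eta, Fin.mk_one, Fin.reduceFinMk, Fin.isValue]) <;> ring
  · (try simp only [Fin.zero_eta, Fin.mk_one, Fin.reduceFinMk, Fin.isValue]) <;> ring
  · (try simp only [Fin.zero_eta, Fin.mk_one, Fin.reduceFinMk, Fin.isValue]) <;> linear_combination (1) * hE 1 0 - (1) * N 1 0 * ha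
  · (try simp only [Fin.zero_eta, Fin.mk_one, Fin.reduceFinMk, Fin.isValue]) <;> linear_combination (-1) * hE 0 0 - (-1) * N 0 0 * ha + (-1) * hb
  · (try simp only [Fin.zero_eta, Fin.mk_one, Fin.reduceFinMk, Fin.isValue]) <;> ring
  · (try simp only [Fin.zero_eta, Fin.mk_one, Fin.reduceFinMk, Fin.isValue]) <;> ring
  · (try simp only [Fin.zero_eta, Fin.mk_one, Fin.reduceFinMk, Fin.isValue]) <;> linear_combination (1) * hE 2 1 - (1) * N 2 1 * ha
  · (try simp only [Fin.zero_eta, Fin.mk_one, Fin.reduceFinMk, Fin.isValue]) <;> linear_combination (-1) * hE 1 1 - (-1) * N 1 1 * ha + (-1) * hb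
  · (try simp only [Fin.zero_eta, Fin.mk_one, Fin.reduceFinMk, Fin.isValue]) <;> ring
  · (try simp only [Fin.zero_eta, Fin.mk_one, Fin.reduceFinMk, Fin.isValue]) <;> linear_combination (-1) * hE 2 0 - (-1) * N 2 0 * ha
  · (try simp only [Fin.zero_eta, Fin.mk_one, Fin.reduceFinMk, Fin.isValue]) <;> linear_combination (1) * hE 1 0 - (1) * N 1 0 * ha
  · (try simp only [Fin.zero_eta, Fin.mk_one, Fin.reduceFinMk, Fin.isValue]) <;> ring
  · (try simp only [Fin.zero_eta, Fin.mk_one, Fin.reduceFinMk, Fin.isValue]) <;> ring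
  · (try simp only [Fin.zero_eta, Fin.mk_one, Fin.reduceFinMk, Fin.isValue]) <;> ring
  · (try simp only [Fin.zero_eta, Fin.mk_one, Fin.reduceFinMk, Fin.isValue]) <;> linear_combination (-1) * hE 2 1 - (-1) * N 2 1 * ha
  · (try simp only [Fin.zero_eta, Fin.mk_one, Fin.reduceFinMk, Fin.isValue]) <;> ring
  · (try simp only [Fin.zero_eta, Fin.mk_one, Fin.reduceFinMk, Fin.isValue]) <;> linear_combination (1) * hE 0 1 - (1) * N 0 1 * ha
  · (try simp only [Fin.zero_eta, Fin.mk_one, Fin.reduceFinMk, Fin.isValue]) <;> linear_combination (1) * hE 2 0 - (1) * N 2 0 * ha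
  · (try simp only [Fin.zero_eta, Fin.mk_one, Fin.reduceFinMk, Fin.isValue]) <;> ring
  · (try simp only [Fin.zero_eta, Fin.mk_one, Fin.reduceFinMk, Fin.isValue]) <;> linear_combination (-1) * hE 0 0 - (-1) * N 0 0 * ha + (-1) * hb
  · (try simp only [Fin.zero_eta, Fin.mk_one, Fin.reduceFinMk, Fin.isValue]) <;> ring
  · (try simp only [Fin.zero_eta, Fin.mk_one, Fin.reduceFinMk, Fin.isValue]) <;> ring
  · (try simp only [Fin.zero_eta, Fin.mk_one, Fin.reduceFinMk, Fin.isValue]) <;> ring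
  · (try simp only [Fin.zero_eta, Fin.mk_one, Fin.reduceFinMk, Fin.isValue]) <;> linear_combination (1) * hE 1 1 - (1) * N 1 1 * ha + (1) * hb
  · (try simp only [Fin.zero_eta, Fin.mk_one, Fin.reduceFinMk, Fin.isValue]) <;> linear_combination (-1) * hE 0 1 - (-1) * N 0 1 * ha
  · (try simp only [Fin.zero_eta, Fin.mk_one, Fin.reduceFinMk, Fin.isValue]) <;> ring
  · (try simp only [Fin.zero_eta, Fin.mk_one, Fin.reduceFinMk, Fin.isValue]) <;> linear_combination (-1) * hE 1 0 - (-1) * N 1 0 * ha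
  · (try simp only [Fin.zero_eta, Fin.mk_one, Fin.reduceFinMk, Fin.isValue]) <;> linear_combination (1) * hE 0 0 - (1) * N 0 0 * ha + (1) * hb
  · (try simp only [Fin.zero_eta, Fin.mk_one, Fin.reduceFinMk, Fin.isValue]) <;> ring
  · (try simp only [Fin.zero_eta, Fin.mk_one, Fin.reduceFinMk, Fin.isValue]) <;> ring
  · (try simp only [Fin.zero_eta, Fin.mk_one, Fin.reduceFinMk, Fin.isValue]) <;> ring
  · (try simp only [Fin.zero_eta, Fin.mk_one, Fin.reduceFinMk, Fin.isValue]) <;> ring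

theorem exists_rank_one {F : Type*} [Field F] (N : Matrix (Fin 3) (Fin 3) F) (hNN : N * N = 0)
    (hN : N ≠ 0) :
    ∃ u v : Fin 3 → F, N = vecMulVec u v ∧ v ⬝ᵥ u = 0 ∧ (∃ r : Fin 3 → F, r ⬝ᵥ u = 1) ∧
      (∃ p : Fin 3 → F, p ⬝ᵥ v = 1) := by
  have hm := minors N hNN hN
  obtain ⟨i, j, hij⟩ : ∃ i j, N i j ≠ 0 := by
    by_contra h
    push Not at h
    exact hN (Matrix.ext h)
  refine ⟨fun a => N a j, fun b => N i b / N i j, ?_, ?_, ⟨Pi.single i (N i j)⁻¹, ?_⟩,
    ⟨Pi.single j 1, ?_⟩⟩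
  · ext a b
    rw [vecMulVec_apply]
    field_simp
    exact hm a b i j
  · have h := sq_zero_entries N hNN i j
    simp only [dotProduct, Fin.sum_univ_three]
    field_simp
    linear_combination h
  · simp [hij]
  · simp [hij]

theorem conj_matrix {F : Type*} [Field F] (u v r p : Fin 3 → F) (huv : v ⬝ᵥ u = 0)
    (hr : r ⬝ᵥ u = 1) (hp : p ⬝ᵥ v = 1) :
    ∃ P : Matrix (Fin 3) (Fin 3) F, P.det = 1 ∧
      P * (1 + vecMulVec u v) = (1 + Matrix.single 0 2 (1 : F)) * P := by
  refine ⟨Matrix.of ![r, p ⨯₃ u, v], ?_, ?_⟩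
  · have hd : (Matrix.of ![r, p ⨯₃ u, v]).det = Matrix.det ![r, p ⨯₃ u, v] := rfl
    rw [hd, ← triple_product_eq_det, cross_cross_eq_smul_sub_smul, dotProduct_sub, dotProduct_smul,
      dotProduct_smul, hp, hr, dotProduct_comm u v, huv]
    simp
  · have h1 : (Matrix.of ![r, p ⨯₃ u, v]) *ᵥ u = Pi.single 0 1 := by
      ext k
      fin_cases k
      · simpa [mulVec] using hr
      · simp [mulVec, dotProduct_comm _ u, dot_cross_self]
      · simpa [mulVec] using huv
    have h2 : (Pi.single 2 1 : Fin 3 → F) ᵥ* (Matrix.of ![r, p ⨯₃ u, v]) = v := by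
      ext k
      simp [vecMul, dotProduct, Fin.sum_univ_three, Pi.single_apply]
    rw [mul_add, add_mul, mul_one, one_mul, mul_vecMulVec, single_eq_single_vecMulVec_single,
      vecMulVec_mul, h1, h2]

theorem invol_conj {F : Type*} [Field F] (h2 : (2 : F) = 0)
    (t : Matrix.SpecialLinearGroup (Fin 3) F) (ht : t * t = 1) (ht1 : t ≠ 1) :
    IsConj t (Matrix.SpecialLinearGroup.transvection (show (0 : Fin 3) ≠ 2 by decide) (1 : F)) := by
  have htt : (t : Matrix (Fin 3) (Fin 3) F) * (t : Matrix (Fin 3) (Fin 3) F) = 1 := by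
    have h := congrArg Subtype.val ht
    simpa using h
  have hNN : ((t : Matrix (Fin 3) (Fin 3) F) - 1) * ((t : Matrix (Fin 3) (Fin 3) F) - 1) = 0 := by
    rw [sub_mul, mul_sub, mul_sub, mul_one, one_mul, one_mul, htt]
    have h : (1 : Matrix (Fin 3) (Fin 3) F) - t - (t - 1)
        = (2 : F) • (1 - (t : Matrix (Fin 3) (Fin 3) F)) := by
      rw [two_smul]; abel
    rw [h, h2, zero_smul]
  have hN0 : (t : Matrix (Fin 3) (Fin 3) F) - 1 ≠ 0 := by
    intro h
    apply ht1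
    apply Subtype.ext
    rw [sub_eq_zero] at h
    simpa using h
  obtain ⟨u, v, hNuv, huv, ⟨r, hr⟩, ⟨p, hp⟩⟩ := exists_rank_one _ hNN hN0
  obtain ⟨P, hPdet, hP⟩ := conj_matrix u v r p huv hr hp
  have htuv : (t : Matrix (Fin 3) (Fin 3) F) = 1 + vecMulVec u v := by
    rw [← hNuv]; abel
  rw [isConj_iff]
  let Pg : Matrix.SpecialLinearGroup (Fin 3) F := ⟨P, hPdet⟩
  refine ⟨Pg, mul_inv_eq_of_eq_mul ?_⟩
  apply Subtype.ext
  change P * (t : Matrix (Fin 3) (Fin 3) F) = (1 + Matrix.single 0 2 (1 : F)) * P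
  rw [htuv]
  exact hP

/-- Any two elements of order 2 of PSL_3(4) are conjugate. -/
theorem result {F : Type*} [Field F] [Fintype F] (hF : Fintype.card F = 4) (x y : Matrix.ProjectiveSpecialLinearGroup (Fin 3) F) (hx : orderOf x = 2) (hy : orderOf y = 2) : IsConj x y := by
  have h2 := two_eq_zero_of_card hF
  have key : ∀ x : Matrix.ProjectiveSpecialLinearGroup (Fin 3) F, orderOf x = 2 →
      IsConj x (QuotientGroup.mk
        (Matrix.SpecialLinearGroup.transvection (show (0 : Fin 3) ≠ 2 by decide) (1 : F))) := by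
    intro x hx
    obtain ⟨s, rfl⟩ := QuotientGroup.mk_surjective x
    have hx2 : (QuotientGroup.mk s : Matrix.ProjectiveSpecialLinearGroup (Fin 3) F) ^ 2 = 1 := by
      rw [← hx]; exact pow_orderOf_eq_one _
    have hs2 : s ^ 2 ∈ Subgroup.center (Matrix.SpecialLinearGroup (Fin 3) F) := by
      rwa [← QuotientGroup.mk_pow, QuotientGroup.eq_one_iff] at hx2
    obtain ⟨c, hc, hcs⟩ := Matrix.SpecialLinearGroup.mem_center_iff.1 hs2
    have hc3 : c ^ 3 = 1 := by simpa using hc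
    have hz3 : (s ^ 2) ^ 3 = 1 := by
      apply Subtype.ext
      rw [Matrix.SpecialLinearGroup.coe_pow, ← hcs, ← map_pow, hc3]
      simp
    have hmk : (QuotientGroup.mk (s ^ 3) : Matrix.ProjectiveSpecialLinearGroup (Fin 3) F)
        = QuotientGroup.mk s := by
      rw [show s ^ 3 = s * s ^ 2 by group, QuotientGroup.mk_mul,
        (QuotientGroup.eq_one_iff _).2 hs2, mul_one]
    have htt : s ^ 3 * s ^ 3 = 1 := by
      rw [← pow_add, show 3 + 3 = 2 * 3 from rfl, pow_mul]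
      exact hz3
    have ht1 : s ^ 3 ≠ 1 := by
      intro h
      have h1 : (QuotientGroup.mk s : Matrix.ProjectiveSpecialLinearGroup (Fin 3) F) = 1 := by
        rw [← hmk, h]; rfl
      rw [h1, orderOf_one] at hx
      omega
    rw [← hmk]
    exact MonoidHom.map_isConj
      (QuotientGroup.mk' (Subgroup.center (Matrix.SpecialLinearGroup (Fin 3) F)))
      (invol_conj h2 (s ^ 3) htt ht1)
  exact (key x hx).trans (key y hy).symm

end Cfsg.Agent.S0820
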