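import Cfsg.Statements.S0823
import Mathlib
import Cfsg.Agent.S0824

set_option autoImplicit false
open Cfsg

namespace Cfsg.Agent.S0823

open Matrix Cfsg.Agent.S0824

abbrev I3 : Type := Unit ⊕ (Fin 1 ⊕ Fin 1)

/-- coordinates `(x₀, x₁, y₁)` -/
def vec (a b c : ZMod 3) : I3 → ZMod 3
  | .inl _ => a
  | .inr (.inl _) => b
  | .inr (.inr _) => c

def e : Fin 4 → I3 → ZMod 3
  | 0 => vec 0 1 0
  | 1 => vec 0 0 1
  | 2 => vec 1 1 2
  | 3 => vec 1 2 1

def cidx : I3 → Fin 3
  | .inl _ => 0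
  | .inr (.inl _) => 1
  | .inr (.inr _) => 2

def tab : Fin 3 → Matrix (Fin 3) (Fin 3) (ZMod 3)
  | 0 => !![2, 0, 0; 0, 0, 1; 0, 1, 0]
  | 1 => !![1, 0, 1; 2, 2, 1; 0, 0, 2]
  | 2 => !![1, 0, 0; 0, 2, 0; 0, 0, 2]

def Gm (i : Fin 3) : Matrix I3 I3 (ZMod 3) := fun a b => tab i (cidx a) (cidx b)

abbrev Q3 : (I3 → ZMod 3) → ZMod 3 := quadFormOdd 1 (ZMod 3)

/-- the point of `e k` as a rank one matrix -/
def N (k : Fin 4) : Matrix I3 I3 (ZMod 3) := vecMulVec (e k) (e k)

theorem he_sing : ∀ i, e i ≠ 0 ∧ Q3 (e i) = 0 := by decide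

theorem hN_inj : Function.Injective N := by decide

theorem he_surj : ∀ v : I3 → ZMod 3, v ≠ 0 → Q3 v = 0 → ∃ i, vecMulVec v v = N i := by decide

theorem hsign : ∀ k, ∀ w : I3 → ZMod 3, vecMulVec w w = N k → w = e k ∨ w = - e k := by decide

theorem hGm_mul : ∀ i, Gm i * Gm i = 1 := by decide

theorem hGm_iso : ∀ i, ∀ u : I3 → ZMod 3, Q3 (Gm i *ᵥ u) = Q3 u := by decide

theorem hGm_det : ∀ i, (Gm i).det = 1 := by decide

theorem hGm_swap : ∀ i : Fin 3, ∀ k : Fin 4,
    Gm i *ᵥ e k = e (Equiv.swap i.castSucc i.succ k) ∨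
      Gm i *ᵥ e k = - e (Equiv.swap i.castSucc i.succ k) := by decide

theorem h_span : ∀ j : I3, ∃ c : Fin 4 → ZMod 3, Pi.single j 1 = ∑ i, c i • e i := by decide

theorem h_signs : ∀ s : Fin 4 → ZMod 3,
    (s 2 • e 2 = s 3 • e 3 - s 0 • e 0 + s 1 • e 1) → s 0 = s 2 ∧ s 1 = s 2 ∧ s 3 = s 2 := by
  decide

theorem h_rel : e 2 = e 3 - e 0 + e 1 := by decide

section transfer

variable {ι : Type} [Fintype ι] [DecidableEq ι] {F K : Type*} [Field F] [Field K]

theorem glMap_det_val (φ : F ≃+* K) (x : Matrix.GeneralLinearGroup ι F) :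
    ((glMap φ x : Matrix.GeneralLinearGroup ι K) : Matrix ι ι K).det =
      φ ((x : Matrix ι ι F).det) := by
  have h : ((glMap φ x : Matrix.GeneralLinearGroup ι K) : Matrix ι ι K) =
      φ.toRingHom.mapMatrix (x : Matrix ι ι F) := rfl
  rw [h, ← RingHom.map_det]
  rfl

theorem mem_special_iff (Q : (ι → F) → F) (g : isometryGroup F Q) :
    g ∈ specialIsometryGroup F Q ↔
      ((g.1 : Matrix.GeneralLinearGroup ι F) : Matrix ι ι F).det = 1 := by
  unfold specialIsometryGroup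
  rw [MonoidHom.mem_ker]
  constructor
  · intro h
    have := congrArg Units.val h
    simpa using this
  · intro h
    apply Units.ext
    simpa using h

/-- transfer of special isometry groups along a ring isomorphism -/
noncomputable def specialTransfer (φ : F ≃+* K) (Q : (ι → F) → F) (Q' : (ι → K) → K)
    (h : ∀ v : ι → F, Q' (fun i => φ (v i)) = φ (Q v)) :
    specialIsometryGroup F Q ≃* specialIsometryGroup K Q' where
  toFun g := ⟨isoTransfer φ Q Q' h g.1, by
    rw [mem_special_iff]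
    change ((glMap φ g.1.1 : Matrix.GeneralLinearGroup ι K) : Matrix ι ι K).det = 1
    rw [glMap_det_val, (mem_special_iff Q g.1).1 g.2, map_one]⟩
  invFun g' := ⟨(isoTransfer φ Q Q' h).symm g'.1, by
    rw [mem_special_iff]
    apply φ.injective
    rw [← glMap_det_val, map_one]
    have := (mem_special_iff Q' g'.1).1 g'.2
    rw [← this]
    congr 2
    exact MulEquiv.apply_symm_apply (glMap φ) g'.1.1⟩
  left_inv g := Subtype.ext (MulEquiv.symm_apply_apply _ _)
  right_inv g := Subtype.ext (MulEquiv.apply_symm_apply _ _)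
  map_mul' g g' := Subtype.ext (map_mul (isoTransfer φ Q Q' h) g.1 g'.1)

end transfer

abbrev SO : Type := specialIsometryGroup (ZMod 3) Q3

/-- underlying matrix -/
def mat (g : SO) : Matrix I3 I3 (ZMod 3) :=
  ((g.1.1 : Matrix.GeneralLinearGroup I3 (ZMod 3)) : Matrix I3 I3 (ZMod 3))

theorem mat_one : mat 1 = 1 := rfl

theorem mat_mul (g h : SO) : mat (g * h) = mat g * mat h := rfl

theorem mat_iso (g : SO) (u : I3 → ZMod 3) : Q3 (mat g *ᵥ u) = Q3 u := g.1.2 u u

theorem mat_det (g : SO) : (mat g).det = 1 := (mem_special_iff Q3 g.1).1 g.2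

theorem mat_ne (g : SO) (u : I3 → ZMod 3) (hu : u ≠ 0) : mat g *ᵥ u ≠ 0 := by
  intro h0
  apply hu
  have : mat g⁻¹ *ᵥ (mat g *ᵥ u) = u := by
    rw [Matrix.mulVec_mulVec, ← mat_mul, inv_mul_cancel, mat_one, Matrix.one_mulVec]
  rw [← this, h0, Matrix.mulVec_zero]

theorem conj_vecMulVec (M : Matrix I3 I3 (ZMod 3)) (v : I3 → ZMod 3) :
    M * vecMulVec v v * Mᵀ = vecMulVec (M *ᵥ v) (M *ᵥ v) := by
  rw [Matrix.mul_vecMulVec, Matrix.vecMulVec_mul, Matrix.vecMul_transpose]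

abbrev S4 : Type :=
  {M : Matrix I3 I3 (ZMod 3) // ∃ v : I3 → ZMod 3, v ≠ 0 ∧ Q3 v = 0 ∧ M = vecMulVec v v}

def act (g : SO) (s : S4) : S4 :=
  ⟨mat g * s.1 * (mat g)ᵀ, by
    obtain ⟨v, hv, hQ, hs⟩ := s.2
    exact ⟨mat g *ᵥ v, mat_ne g v hv, (mat_iso g v).trans hQ, by rw [hs, conj_vecMulVec]⟩⟩

instance : MulAction SO S4 where
  smul := act
  one_smul s := Subtype.ext (by
    change mat 1 * s.1 * (mat 1)ᵀ = s.1
    simp [mat_one])
  mul_smul g h s := Subtype.ext (by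
    change mat (g * h) * s.1 * (mat (g * h))ᵀ = mat g * (mat h * s.1 * (mat h)ᵀ) * (mat g)ᵀ
    rw [mat_mul, Matrix.transpose_mul]
    simp only [Matrix.mul_assoc])

theorem smul_val (g : SO) (s : S4) : (g • s).1 = mat g * s.1 * (mat g)ᵀ := rfl

noncomputable def E4 : Fin 4 ≃ S4 :=
  Equiv.ofBijective (fun i => ⟨N i, e i, (he_sing i).1, (he_sing i).2, rfl⟩)
    ⟨fun i j h => hN_inj (congrArg Subtype.val h),
     fun s => by
      obtain ⟨v, hv, hQ, hs⟩ := s.2
      obtain ⟨i, hi⟩ := he_surj v hv hQ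
      exact ⟨i, Subtype.ext (by rw [hs, hi])⟩⟩

theorem E4_val (i : Fin 4) : (E4 i).1 = N i := rfl

noncomputable def psi : SO →* Equiv.Perm (Fin 4) :=
  (E4.symm.permCongrHom : Equiv.Perm S4 ≃* Equiv.Perm (Fin 4)).toMonoidHom.comp
    (MulAction.toPermHom SO S4)

theorem psi_apply_eq (g : SO) (k j : Fin 4) :
    psi g k = j ↔ mat g * N k * (mat g)ᵀ = N j := by
  have h1 : psi g k = E4.symm (g • E4 k) := by
    simp [psi, Equiv.permCongrHom_coe, Equiv.permCongr_apply]
  rw [h1, Equiv.symm_apply_eq]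
  constructor
  · intro h
    have := congrArg Subtype.val h
    rwa [smul_val, E4_val, E4_val] at this
  · intro h
    apply Subtype.ext
    rwa [smul_val, E4_val, E4_val]

theorem psi_inj : Function.Injective psi := by
  rw [injective_iff_map_eq_one]
  intro g hg
  have hM : ∀ k, ∃ s : ZMod 3, (s = 1 ∨ s = -1) ∧ mat g *ᵥ e k = s • e k := by
    intro k
    have h1 : mat g * N k * (mat g)ᵀ = N k := by
      rw [← psi_apply_eq, hg]; rfl
    rw [N, conj_vecMulVec] at h1
    rcases hsign k _ h1 with h | h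
    · exact ⟨1, Or.inl rfl, by rw [h, one_smul]⟩
    · exact ⟨-1, Or.inr rfl, by rw [h, neg_smul, one_smul]⟩
  choose s hs1 hs using hM
  have hrel : s 2 • e 2 = s 3 • e 3 - s 0 • e 0 + s 1 • e 1 := by
    rw [← hs 2, ← hs 3, ← hs 0, ← hs 1, ← Matrix.mulVec_sub, ← Matrix.mulVec_add, ← h_rel]
  obtain ⟨h0, h1, h3⟩ := h_signs s hrel
  have hall : ∀ k, mat g *ᵥ e k = s 2 • e k := by
    intro k
    rw [hs k]
    fin_cases k
    · simp [h0]
    · simp [h1]
    · rfl
    · simp [h3]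
  have hmat : mat g = s 2 • (1 : Matrix I3 I3 (ZMod 3)) := by
    ext i j
    obtain ⟨c, hc⟩ := h_span j
    have h4 : mat g *ᵥ Pi.single j 1 = s 2 • Pi.single j 1 := by
      rw [hc, Matrix.mulVec_sum, Finset.smul_sum]
      refine Finset.sum_congr rfl (fun k _ => ?_)
      rw [Matrix.mulVec_smul, hall k, smul_comm]
    have h5 := congrFun h4 i
    rw [Matrix.mulVec_single_one] at h5
    simp only [Matrix.smul_apply, Matrix.one_apply, Pi.smul_apply, Pi.single_apply,
      smul_eq_mul] at h5 ⊢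
    simpa using h5
  have hdet := mat_det g
  rw [hmat, Matrix.det_smul, Matrix.det_one, mul_one] at hdet
  have hs2 : s 2 = 1 := by
    rcases hs1 2 with h | h
    · exact h
    · rw [h] at hdet
      simp at hdet
      exact absurd hdet (by decide)
  rw [hs2, one_smul] at hmat
  exact Subtype.ext (Subtype.ext (Units.ext hmat))

def G (i : Fin 3) : SO :=
  ⟨⟨⟨Gm i, Gm i, hGm_mul i, hGm_mul i⟩, fun u _ => hGm_iso i u⟩,
    (mem_special_iff Q3 _).2 (hGm_det i)⟩

theorem mat_G (i : Fin 3) : mat (G i) = Gm i := rfl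

theorem psi_G (i : Fin 3) : psi (G i) = Equiv.swap i.castSucc i.succ := by
  ext k
  congr 1
  rw [psi_apply_eq, mat_G, N, conj_vecMulVec]
  rcases hGm_swap i k with h | h
  · rw [h]; rfl
  · rw [h]; simp [N]

theorem psi_surj : Function.Surjective psi := by
  have : (⊤ : Submonoid (Equiv.Perm (Fin 4))) ≤ MonoidHom.mrange psi := by
    rw [← Equiv.Perm.mclosure_swap_castSucc_succ 3, Submonoid.closure_le]
    rintro _ ⟨i, rfl⟩
    exact ⟨G i, psi_G i⟩
  intro σ
  exact this (Submonoid.mem_top σ)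

/-- SO_3(3) ≅ S_4: the determinant-one isometries of the form x_0² + x_1y_1 over the field with 3 elements form a group isomorphic to the symmetric group on 4 letters. -/
theorem result {F : Type*} [Field F] [Fintype F] (hF : Fintype.card F = 3) : Nonempty (↥(Cfsg.specialIsometryGroup F (Cfsg.quadFormOdd 1 F)) ≃* Equiv.Perm (Fin 4)) := by
  let φ : F ≃+* ZMod 3 := (ZMod.ringEquivOfPrime F Nat.prime_three hF).symm
  have h : ∀ v : I3 → F, Q3 (fun i => φ (v i)) = φ (quadFormOdd 1 F v) := by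
    intro v
    simp [Q3, quadFormOdd, map_add, map_mul, map_pow]
  exact ⟨(specialTransfer φ _ _ h).trans (MulEquiv.ofBijective psi ⟨psi_inj, psi_surj⟩)⟩

end Cfsg.Agent.S0823
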