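import Cfsg.Statements.S0826
import Mathlib

set_option autoImplicit false
open Cfsg

namespace Cfsg.Agent.S0826

open scoped Matrix

abbrev XX (m : ℕ) : Type := (Fin m ⊕ Fin m) ⊕ Fin 2

/-- the symplectic basis: columns `p_i` (index `inl i`) and `q_j` (index `inr j`) -/
def Bm (m : ℕ) : Matrix (XX m) (Fin m ⊕ Fin m) (ZMod 2) := Matrix.of fun x s =>
  match x, s with
  | Sum.inl (Sum.inl k), Sum.inl i => if k = i then 1 else 0
  | Sum.inl (Sum.inr k), Sum.inl i => if k = i then 1 else 0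
  | Sum.inr _, Sum.inl _ => 0
  | Sum.inl (Sum.inl k), Sum.inr j => if k ≤ j then 1 else 0
  | Sum.inl (Sum.inr k), Sum.inr j => if k < j then 1 else 0
  | Sum.inr c, Sum.inr _ => if c = 1 then 1 else 0

def eps (m : ℕ) : XX m → ZMod 2 := fun x =>
  match x with
  | Sum.inl _ => 0
  | Sum.inr c => if c = 0 then 1 else 0

def Cm (m : ℕ) : Matrix (XX m) (Fin 2) (ZMod 2) := Matrix.of fun x c =>
  if c = 0 then 1 else eps m x

def G2 : Matrix (Fin 2) (Fin 2) (ZMod 2) := !![0, 1; 1, 1]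
def G2' : Matrix (Fin 2) (Fin 2) (ZMod 2) := !![1, 1; 1, 0]

variable (m : ℕ)

@[simp] theorem Bm_ll (k i : Fin m) : Bm m (Sum.inl (Sum.inl k)) (Sum.inl i) = if k = i then 1 else 0 := rfl
@[simp] theorem Bm_rl (k i : Fin m) : Bm m (Sum.inl (Sum.inr k)) (Sum.inl i) = if k = i then 1 else 0 := rfl
@[simp] theorem Bm_cl (c : Fin 2) (i : Fin m) : Bm m (Sum.inr c) (Sum.inl i) = 0 := rfl
@[simp] theorem Bm_lr (k j : Fin m) : Bm m (Sum.inl (Sum.inl k)) (Sum.inr j) = if k ≤ j then 1 else 0 := rfl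
@[simp] theorem Bm_rr (k j : Fin m) : Bm m (Sum.inl (Sum.inr k)) (Sum.inr j) = if k < j then 1 else 0 := rfl
@[simp] theorem Bm_cr (c : Fin 2) (j : Fin m) : Bm m (Sum.inr c) (Sum.inr j) = if c = 1 then 1 else 0 := rfl
@[simp] theorem eps_l (x : Fin m ⊕ Fin m) : eps m (Sum.inl x) = 0 := rfl
@[simp] theorem eps_r (c : Fin 2) : eps m (Sum.inr c) = if c = 0 then 1 else 0 := rfl
@[simp] theorem Cm_0 (x : XX m) : Cm m x 0 = 1 := rfl
@[simp] theorem Cm_1 (x : XX m) : Cm m x 1 = eps m x := rfl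

theorem add_self (a : ZMod 2) : a + a = 0 := CharTwo.add_self_eq_zero a

theorem sum_XX (f : XX m → ZMod 2) :
    ∑ x, f x = ∑ k, f (Sum.inl (Sum.inl k)) + ∑ k, f (Sum.inl (Sum.inr k)) +
      (f (Sum.inr 0) + f (Sum.inr 1)) := by
  rw [Fintype.sum_sum_type, Fintype.sum_sum_type, Fin.sum_univ_two]

theorem le_add_lt (k j : Fin m) :
    ((if k ≤ j then 1 else 0 : ZMod 2) + if k < j then 1 else 0) = if k = j then 1 else 0 := by
  rcases lt_trichotomy k j with h | h | h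
  · simp [h, h.le, h.ne, add_self]
  · subst h; simp
  · simp [h.not_ge, h.not_gt, h.ne']

theorem colsum (s : Fin m ⊕ Fin m) : ∑ x, Bm m x s = 0 := by
  rw [sum_XX]
  rcases s with i | j
  · simp [add_self]
  · simp only [Bm_lr, Bm_rr, Bm_cr]
    rw [← Finset.sum_add_distrib, Finset.sum_congr rfl (fun k _ => le_add_lt m k j)]
    simp [add_self]

theorem gramBB : (Bm m)ᵀ * Bm m = Matrix.J (Fin m) (ZMod 2) := by
  ext s t
  rw [Matrix.mul_apply, sum_XX]
  simp only [Matrix.transpose_apply]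
  rcases s with i | i <;> rcases t with j | j
  · simp [Matrix.J, add_self]
  · simp only [Bm_ll, Bm_lr, Bm_rl, Bm_rr, Bm_cl, Bm_cr, ite_mul, one_mul, zero_mul,
      Finset.sum_ite_eq', Finset.mem_univ, if_true, add_zero]
    rw [le_add_lt]
    simp [Matrix.J, Matrix.one_apply]
  · simp only [Bm_ll, Bm_lr, Bm_rl, Bm_rr, Bm_cl, Bm_cr, mul_ite, mul_one, mul_zero,
      Finset.sum_ite_eq', Finset.mem_univ, if_true, add_zero]
    rw [le_add_lt]
    simp [Matrix.J, Matrix.one_apply, eq_comm]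
  · simp only [Bm_lr, Bm_rr, Bm_cr]
    have key : ∑ k : Fin m, ((if k ≤ i then 1 else 0 : ZMod 2) * (if k ≤ j then 1 else 0)) +
        ∑ k : Fin m, ((if k < i then 1 else 0 : ZMod 2) * (if k < j then 1 else 0)) = 1 := by
      rw [← Finset.sum_add_distrib]
      rcases le_total i j with h | h
      · rw [Finset.sum_congr rfl (g := fun k => if k = i then (1 : ZMod 2) else 0)]
        · simp
        · intro k _
          rw [← le_add_lt m k i]
          by_cases h1 : k ≤ i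
          · have h2 : k ≤ j := h1.trans h
            by_cases h3 : k < i
            · have h4 : k < j := lt_of_lt_of_le h3 h
              simp [h1, h2, h3, h4]
            · simp [h1, h2, h3]
          · have h3 : ¬ k < i := fun h3 => h1 h3.le
            simp [h1, h3]
      · rw [Finset.sum_congr rfl (g := fun k => if k = j then (1 : ZMod 2) else 0)]
        · simp
        · intro k _
          rw [← le_add_lt m k j]
          by_cases h1 : k ≤ j
          · have h2 : k ≤ i := h1.trans h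
            by_cases h3 : k < j
            · have h4 : k < i := lt_of_lt_of_le h3 h
              simp [h1, h2, h3, h4]
            · simp [h1, h2, h3]
          · have h3 : ¬ k < j := fun h3 => h1 h3.le
            simp [h1, h3]
    rw [key]
    simp [Matrix.J, add_self]

theorem gramBC : (Bm m)ᵀ * Cm m = 0 := by
  ext s c
  rw [Matrix.mul_apply]
  simp only [Matrix.transpose_apply, Matrix.zero_apply]
  fin_cases c
  · simp only [Fin.zero_eta, Cm_0, mul_one]
    exact colsum m s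
  · simp only [Fin.mk_one, Cm_1]
    rw [sum_XX]
    rcases s with i | j <;> simp

theorem gramCB : (Cm m)ᵀ * Bm m = 0 := by
  have := congrArg Matrix.transpose (gramBC m)
  simpa [Matrix.transpose_mul] using this

theorem gramCC : (Cm m)ᵀ * Cm m = G2 := by
  ext c d
  rw [Matrix.mul_apply, sum_XX]
  simp only [Matrix.transpose_apply]
  fin_cases c <;> fin_cases d <;> simp [G2, add_self]

theorem G2_mul : G2' * G2 = 1 := by decide

theorem JJ : Matrix.J (Fin m) (ZMod 2) * Matrix.J (Fin m) (ZMod 2) = 1 := by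
  rw [Matrix.J_squared]
  ext i j
  simp [Matrix.one_apply]

theorem full : Bm m * Matrix.J (Fin m) (ZMod 2) * (Bm m)ᵀ + Cm m * G2' * (Cm m)ᵀ = 1 := by
  have h1 : (Matrix.fromBlocks (Matrix.J (Fin m) (ZMod 2)) 0 0 G2' *
      (Matrix.fromCols (Bm m) (Cm m))ᵀ) * Matrix.fromCols (Bm m) (Cm m) = 1 := by
    rw [Matrix.mul_assoc, Matrix.transpose_fromCols, Matrix.fromRows_mul_fromCols, gramBB, gramBC,
      gramCB, gramCC, Matrix.fromBlocks_multiply]
    simp only [Matrix.mul_zero, Matrix.zero_mul, add_zero, zero_add, JJ, G2_mul]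
    exact Matrix.fromBlocks_one
  have h2 := mul_eq_one_comm.1 h1
  rw [← Matrix.mul_assoc, Matrix.transpose_fromCols, Matrix.fromCols_mul_fromBlocks,
    Matrix.fromCols_mul_fromRows] at h2
  simpa using h2

/-- permutation matrices (a homomorphism) -/
def PP (σ : Equiv.Perm (XX m)) : Matrix (XX m) (XX m) (ZMod 2) :=
  (σ⁻¹).permMatrix (ZMod 2)

theorem PP_mul (σ τ : Equiv.Perm (XX m)) : PP m (σ * τ) = PP m σ * PP m τ := by
  rw [PP, PP, PP, mul_inv_rev, Matrix.permMatrix_mul]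

theorem PP_one : PP m 1 = 1 := by
  rw [PP, inv_one, Matrix.permMatrix_one]

theorem PP_transpose (σ : Equiv.Perm (XX m)) : (PP m σ)ᵀ = PP m σ⁻¹ := by
  rw [PP, PP, Matrix.transpose_permMatrix]

theorem PP_mul_transpose (σ : Equiv.Perm (XX m)) : PP m σ * (PP m σ)ᵀ = 1 := by
  rw [PP_transpose, ← PP_mul, mul_inv_cancel, PP_one]

theorem PP_mulVec (σ : Equiv.Perm (XX m)) (v : XX m → ZMod 2) :
    PP m σ *ᵥ v = v ∘ ⇑σ⁻¹ := by
  rw [PP, Matrix.permMatrix_mulVec]

theorem PP_mulVec_one (σ : Equiv.Perm (XX m)) : PP m σ *ᵥ (1 : XX m → ZMod 2) = 1 := by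
  rw [PP_mulVec]
  rfl

theorem one_vecMul_PP (σ : Equiv.Perm (XX m)) : (1 : XX m → ZMod 2) ᵥ* PP m σ = 1 := by
  rw [PP, Matrix.vecMul_permMatrix]
  rfl

theorem Bt_mulVec_one : (Bm m)ᵀ *ᵥ (1 : XX m → ZMod 2) = 0 := by
  ext s
  simp only [Matrix.mulVec, dotProduct, Matrix.transpose_apply, Pi.one_apply, mul_one,
    Pi.zero_apply]
  exact colsum m s

theorem one_vecMul_B : (1 : XX m → ZMod 2) ᵥ* Bm m = 0 := by
  ext s
  simp only [Matrix.vecMul, dotProduct, Pi.one_apply, one_mul, Pi.zero_apply]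
  exact colsum m s

theorem kill {a b : Type} [Fintype a] [Fintype b] (X : Matrix a (XX m) (ZMod 2))
    (Y : Matrix (XX m) b (ZMod 2)) (hX : X *ᵥ (1 : XX m → ZMod 2) = 0)
    (hY : (1 : XX m → ZMod 2) ᵥ* Y = 0) :
    X * (Bm m * Matrix.J (Fin m) (ZMod 2) * (Bm m)ᵀ) * Y = X * Y := by
  have hXC : ∀ s, (X * Cm m) s 0 = 0 := by
    intro s
    have := congrFun hX s
    simp only [Matrix.mulVec, dotProduct, Pi.one_apply, mul_one, Pi.zero_apply] at this
    rw [Matrix.mul_apply]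
    simpa using this
  have hCY : ∀ t, ((Cm m)ᵀ * Y) 0 t = 0 := by
    intro t
    have := congrFun hY t
    simp only [Matrix.vecMul, dotProduct, Pi.one_apply, one_mul, Pi.zero_apply] at this
    rw [Matrix.mul_apply]
    simpa using this
  have hD : X * (Cm m * G2' * (Cm m)ᵀ) * Y = 0 := by
    have e : X * (Cm m * G2' * (Cm m)ᵀ) * Y = (X * Cm m) * G2' * ((Cm m)ᵀ * Y) := by
      simp only [Matrix.mul_assoc]
    rw [e]
    ext s t
    have e1 : ((X * Cm m) * G2' * ((Cm m)ᵀ * Y)) s t =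
        ∑ c : Fin 2, ((X * Cm m) * G2') s c * ((Cm m)ᵀ * Y) c t := Matrix.mul_apply
    have e2 : ∀ c, ((X * Cm m) * G2') s c = ∑ d : Fin 2, (X * Cm m) s d * G2' d c :=
      fun c => Matrix.mul_apply
    rw [e1, Fin.sum_univ_two, e2, e2, Fin.sum_univ_two, Fin.sum_univ_two, hXC, hCY]
    simp [G2']
  have e : Bm m * Matrix.J (Fin m) (ZMod 2) * (Bm m)ᵀ = 1 - Cm m * G2' * (Cm m)ᵀ :=
    eq_sub_of_add_eq (full m)
  rw [e, Matrix.mul_sub, Matrix.sub_mul, hD, Matrix.mul_one, sub_zero]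

def Mσ (σ : Equiv.Perm (XX m)) : Matrix (Fin m ⊕ Fin m) (Fin m ⊕ Fin m) (ZMod 2) :=
  Matrix.J (Fin m) (ZMod 2) * (Bm m)ᵀ * PP m σ * Bm m

theorem hX (σ : Equiv.Perm (XX m)) :
    (Matrix.J (Fin m) (ZMod 2) * (Bm m)ᵀ * PP m σ) *ᵥ (1 : XX m → ZMod 2) = 0 := by
  rw [← Matrix.mulVec_mulVec, PP_mulVec_one, ← Matrix.mulVec_mulVec, Bt_mulVec_one,
    Matrix.mulVec_zero]

theorem M_mul (σ τ : Equiv.Perm (XX m)) : Mσ m (σ * τ) = Mσ m σ * Mσ m τ := by
  have hY : (1 : XX m → ZMod 2) ᵥ* (PP m τ * Bm m) = 0 := by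
    rw [← Matrix.vecMul_vecMul, one_vecMul_PP, one_vecMul_B]
  have key := kill m _ _ (hX m σ) hY
  symm
  calc Mσ m σ * Mσ m τ = (Matrix.J (Fin m) (ZMod 2) * (Bm m)ᵀ * PP m σ) *
        (Bm m * Matrix.J (Fin m) (ZMod 2) * (Bm m)ᵀ) * (PP m τ * Bm m) := by
        simp only [Mσ, Matrix.mul_assoc]
    _ = (Matrix.J (Fin m) (ZMod 2) * (Bm m)ᵀ * PP m σ) * (PP m τ * Bm m) := key
    _ = Mσ m (σ * τ) := by
        rw [Mσ, PP_mul]
        simp only [Matrix.mul_assoc]

theorem M_one : Mσ m 1 = 1 := by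
  rw [Mσ, PP_one, Matrix.mul_one, Matrix.mul_assoc, gramBB, JJ]

theorem neg_J : -Matrix.J (Fin m) (ZMod 2) = Matrix.J (Fin m) (ZMod 2) := by
  ext i j
  simp only [Matrix.neg_apply]
  exact CharTwo.neg_eq _

theorem M_symp (σ : Equiv.Perm (XX m)) :
    Mσ m σ ∈ Matrix.symplecticGroup (Fin m) (ZMod 2) := by
  rw [SymplecticGroup.mem_iff]
  have hY : (1 : XX m → ZMod 2) ᵥ* ((PP m σ)ᵀ * Bm m * Matrix.J (Fin m) (ZMod 2)) = 0 := by
    rw [← Matrix.vecMul_vecMul, ← Matrix.vecMul_vecMul, PP_transpose, one_vecMul_PP, one_vecMul_B,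
      Matrix.zero_vecMul]
  have key := kill m _ _ (hX m σ) hY
  have ht : (Mσ m σ)ᵀ = (Bm m)ᵀ * (PP m σ)ᵀ * Bm m * Matrix.J (Fin m) (ZMod 2) := by
    rw [Mσ]
    simp only [Matrix.transpose_mul, Matrix.transpose_transpose, Matrix.J_transpose, neg_J,
      Matrix.mul_assoc]
  calc Mσ m σ * Matrix.J (Fin m) (ZMod 2) * (Mσ m σ)ᵀ
      = (Matrix.J (Fin m) (ZMod 2) * (Bm m)ᵀ * PP m σ) *
        (Bm m * Matrix.J (Fin m) (ZMod 2) * (Bm m)ᵀ) *
        ((PP m σ)ᵀ * Bm m * Matrix.J (Fin m) (ZMod 2)) := by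
        rw [ht, Mσ]
        simp only [Matrix.mul_assoc]
    _ = (Matrix.J (Fin m) (ZMod 2) * (Bm m)ᵀ * PP m σ) *
        ((PP m σ)ᵀ * Bm m * Matrix.J (Fin m) (ZMod 2)) := key
    _ = Matrix.J (Fin m) (ZMod 2) * ((Bm m)ᵀ * (PP m σ * (PP m σ)ᵀ) * Bm m) *
        Matrix.J (Fin m) (ZMod 2) := by
        simp only [Matrix.mul_assoc]
    _ = Matrix.J (Fin m) (ZMod 2) := by
        rw [PP_mul_transpose, Matrix.mul_one, gramBB, JJ, Matrix.one_mul]

def hom : Equiv.Perm (XX m) →* Matrix.symplecticGroup (Fin m) (ZMod 2) where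
  toFun σ := ⟨Mσ m σ, M_symp m σ⟩
  map_one' := Subtype.ext (M_one m)
  map_mul' σ τ := Subtype.ext (M_mul m σ τ)

theorem even_decomp (v : XX m → ZMod 2) (hv : ∑ x, v x = 0) :
    ∃ e : ZMod 2, v = Bm m *ᵥ (Matrix.J (Fin m) (ZMod 2) *ᵥ ((Bm m)ᵀ *ᵥ v)) + fun _ => e := by
  refine ⟨∑ x, eps m x * v x, ?_⟩
  have h1 : v = (Bm m * Matrix.J (Fin m) (ZMod 2) * (Bm m)ᵀ + Cm m * G2' * (Cm m)ᵀ) *ᵥ v := by
    rw [full, Matrix.one_mulVec]
  have h2 : (Cm m * G2' * (Cm m)ᵀ) *ᵥ v = fun _ => ∑ x, eps m x * v x := by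
    rw [← Matrix.mulVec_mulVec, ← Matrix.mulVec_mulVec]
    have h3 : (Cm m)ᵀ *ᵥ v = ![0, ∑ x, eps m x * v x] := by
      ext c
      fin_cases c
      · simp [Matrix.mulVec, dotProduct, hv]
      · simp [Matrix.mulVec, dotProduct]
    rw [h3]
    ext x
    simp [Matrix.mulVec, dotProduct, Fin.sum_univ_two, G2']
  rw [Matrix.add_mulVec, h2, ← Matrix.mulVec_mulVec, ← Matrix.mulVec_mulVec] at h1
  exact h1

theorem fix_even (σ : Equiv.Perm (XX m)) (hσ : Mσ m σ = 1) (v : XX m → ZMod 2)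
    (hv : ∑ x, v x = 0) : ∃ t : ZMod 2, ∀ x, v (σ⁻¹ x) = v x + t := by
  obtain ⟨e, he⟩ := even_decomp m v hv
  have hv' : ∑ x, (PP m σ *ᵥ v) x = 0 := by
    rw [PP_mulVec]
    simp only [Function.comp_apply]
    rw [Equiv.sum_comp (σ⁻¹) v]
    exact hv
  obtain ⟨e', he'⟩ := even_decomp m _ hv'
  have h3 : Matrix.J (Fin m) (ZMod 2) *ᵥ ((Bm m)ᵀ *ᵥ (PP m σ *ᵥ v)) =
      Matrix.J (Fin m) (ZMod 2) *ᵥ ((Bm m)ᵀ *ᵥ v) := by
    have hconst : (fun _ : XX m => e) = e • (1 : XX m → ZMod 2) := by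
      ext x; simp
    conv_lhs => rw [he]
    rw [hconst, Matrix.mulVec_add, Matrix.mulVec_add, Matrix.mulVec_add, Matrix.mulVec_smul,
      Matrix.mulVec_smul, Matrix.mulVec_smul, PP_mulVec_one, Bt_mulVec_one, Matrix.mulVec_zero,
      smul_zero, add_zero, Matrix.mulVec_mulVec, Matrix.mulVec_mulVec, Matrix.mulVec_mulVec]
    have : Matrix.J (Fin m) (ZMod 2) * (Bm m)ᵀ * PP m σ * Bm m = 1 := hσ
    rw [this, Matrix.one_mulVec]
  rw [h3] at he'
  refine ⟨e' - e, fun x => ?_⟩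
  have h4 := congrFun he' x
  have h5 := congrFun he x
  rw [PP_mulVec] at h4
  simp only [Function.comp_apply, Pi.add_apply] at h4 h5
  rw [h4, h5]
  ring

theorem card_XX : Fintype.card (XX m) = 2 * m + 2 := by
  simp [Fintype.card_sum]
  ring

theorem hom_injective (hm : 2 ≤ m) : Function.Injective (hom m) := by
  classical
  rw [injective_iff_map_eq_one]
  intro σ hσ
  have hσ' : Mσ m σ = 1 := congrArg Subtype.val hσ
  have key : ∀ a b : XX m, a ≠ b → σ a = a ∨ σ a = b := by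
    intro a b hab
    have hv : ∑ x, (Pi.single a (1 : ZMod 2) + Pi.single b (1 : ZMod 2) : XX m → ZMod 2) x =
        0 := by
      simp only [Pi.add_apply]
      rw [Finset.sum_add_distrib, Finset.sum_pi_single', Finset.sum_pi_single']
      simp [add_self]
    obtain ⟨t, ht⟩ := fix_even m σ hσ' _ hv
    simp only [Pi.add_apply, Pi.single_apply] at ht
    have ht0 : t = 0 := by
      have hcard : ({a, b, σ a, σ b} : Finset (XX m)).card < Fintype.card (XX m) := by
        rw [card_XX]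
        have := Finset.card_le_four (a := a) (b := b) (c := σ a) (d := σ b)
        omega
      obtain ⟨x, -, hx⟩ := Finset.exists_mem_notMem_of_card_lt_card
        (s := ({a, b, σ a, σ b} : Finset (XX m))) (t := Finset.univ)
        (by rw [Finset.card_univ]; exact hcard)
      simp only [Finset.mem_insert, Finset.mem_singleton, not_or] at hx
      obtain ⟨hxa, hxb, hxσa, hxσb⟩ := hx
      have := ht x
      have h1 : σ.symm x ≠ a := fun h => hxσa (by rw [← h]; simp)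
      have h2 : σ.symm x ≠ b := fun h => hxσb (by rw [← h]; simp)
      simpa [h1, h2, hxa, hxb] using this.symm
    have := ht (σ a)
    have h6 : σ⁻¹ (σ a) = a := by simp
    rw [ht0, h6] at this
    simp only [if_true, add_zero] at this
    by_contra hcon
    push Not at hcon
    simp [hab, hcon.1, hcon.2] at this
  ext a
  simp only [Equiv.Perm.coe_one, id_eq]
  by_contra ha
  have hcard : ({a, σ a} : Finset (XX m)).card < Fintype.card (XX m) := by
    rw [card_XX]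
    have := Finset.card_le_two (a := a) (b := σ a)
    omega
  obtain ⟨c, -, hc⟩ := Finset.exists_mem_notMem_of_card_lt_card
    (s := ({a, σ a} : Finset (XX m))) (t := Finset.univ)
    (by rw [Finset.card_univ]; exact hcard)
  simp only [Finset.mem_insert, Finset.mem_singleton, not_or] at hc
  rcases key a c (fun h => hc.1 h.symm) with h | h
  · exact ha h
  · exact hc.2 h.symm

/-- S_2n ≤ Sp_(2n−2)(2) for n ≥ 3: there is an injective homomorphism from the symmetric group on 2n letters into the symplectic group of degree 2n − 2 over the field with two elements. -/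
theorem result (n : ℕ) (hn : 3 ≤ n) : ∃ f : Equiv.Perm (Fin (2 * n)) →* Matrix.symplecticGroup (Fin (n - 1)) (ZMod 2), Function.Injective f := by
  have hcard : Fintype.card (Fin (2 * n)) = Fintype.card (XX (n - 1)) := by
    rw [card_XX, Fintype.card_fin]
    omega
  let e : Fin (2 * n) ≃ XX (n - 1) := Fintype.equivOfCardEq hcard
  refine ⟨(hom (n - 1)).comp (e.permCongrHom : Equiv.Perm (Fin (2 * n)) ≃* Equiv.Perm (XX (n - 1))).toMonoidHom, ?_⟩
  exact (hom_injective (n - 1) (by omega)).comp (MulEquiv.injective _)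

end Cfsg.Agent.S0826
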