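import Cfsg.Statements.S0827
import Mathlib
import Cfsg.Agent.Lib.Helper7.PSU32
import Cfsg.Agent.Lib.Helper7.FrobNine
import Cfsg.Agent.Lib.Helper7.SUCenter

set_option autoImplicit false
open Cfsg

namespace Cfsg.Agent.S0827

/-- U_3(2) ≅ 3².Q_8: PSU_3(2) (form over the field with 4 elements) has a normal subgroup N which is elementary abelian of order 9 such that the quotient by N is isomorphic to the quaternion group of order 8. -/
theorem result {F : Type*} [Field F] [Fintype F] (hF : Fintype.card F = 4) : ∃ (N : Subgroup (Cfsg.PSU 3 F 2)) (_ : N.Normal), Nat.card N = 9 ∧ (∀ x ∈ N, x ^ 3 = 1) ∧ Nonempty (Cfsg.PSU 3 F 2 ⧸ N ≃* QuaternionGroup 2) := by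
  have hF' : Fintype.card F = 2 ^ 2 := by rw [hF]; norm_num
  obtain ⟨φ, p₀, p₁, h01, hfix, hfree⟩ := Cfsg.Agent.Lib.Helper7.exists_q8_psu32 hF'
  have hpt := Cfsg.Agent.Lib.Helper7.suPt_pretransitive hF' 3
  have hfin : Finite (Cfsg.Agent.Lib.Helper7.SUPt F 2 3) :=
    Cfsg.Agent.Lib.Helper7.finite_suPt 2 3
  have hZ : Nat.card (Subgroup.center (Cfsg.SU 3 F 2)) = 3 := by
    rw [Cfsg.Agent.Lib.Helper7.card_center_SU hF' 3 (by norm_num)]
    decide
  have hG : Nat.card (Cfsg.SU 3 F 2) = 216 := by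
    have h2 := Cfsg.Agent.Lib.Helper7.card_SU hF' 3 (by norm_num)
    rw [Cfsg.Agent.Lib.Helper7.card_GU hF' 3] at h2
    have e : 2 ^ (3 * (3 - 1) / 2) * ∏ i ∈ Finset.range 3,
        (if Even i then 2 ^ (i + 1) + 1 else 2 ^ (i + 1) - 1) = 648 := by
      decide
    rw [e] at h2
    omega
  exact Cfsg.Agent.Lib.Helper7.frob_nine hG hZ
    (fun z hz p => Cfsg.Agent.Lib.Helper7.center_smul_suPt z hz p) φ p₀ p₁ h01 hfix hfree

end Cfsg.Agent.S0827
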