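import Cfsg.Statements.S0828
import Mathlib

set_option autoImplicit false
open Cfsg

namespace Cfsg.Agent.S0828

open Matrix

noncomputable def B (F : Type*) [Field F] :
    (Fin 2 ⊕ Fin 2 → F) →ₗ[F] (Fin 2 ⊕ Fin 2 → F) →ₗ[F] F :=
  Matrix.toLinearMap₂' F (Matrix.J (Fin 2) F)

theorem B_apply {F : Type*} [Field F] (u v : Fin 2 ⊕ Fin 2 → F) :
    B F u v = Cfsg.sympForm 2 F u v := by
  simp [B, Cfsg.sympForm, Matrix.toLinearMap₂'_apply']

theorem B_formula {F : Type*} [Field F] (u v : Fin 2 ⊕ Fin 2 → F) :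
    B F u v = u (Sum.inr 0) * v (Sum.inl 0) + u (Sum.inr 1) * v (Sum.inl 1)
      - u (Sum.inl 0) * v (Sum.inr 0) - u (Sum.inl 1) * v (Sum.inr 1) := by
  simp [B, Matrix.toLinearMap₂'_apply', Matrix.J, dotProduct, Matrix.mulVec,
    Fintype.sum_sum_type, Fin.sum_univ_two]
  ring

theorem B_self {F : Type*} [Field F] (u : Fin 2 ⊕ Fin 2 → F) : B F u u = 0 := by
  rw [B_formula]; ring

theorem B_swap {F : Type*} [Field F] (u v : Fin 2 ⊕ Fin 2 → F) : B F u v = - B F v u := by
  rw [B_formula, B_formula]; ring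

theorem B_nondeg {F : Type*} [Field F] (v : Fin 2 ⊕ Fin 2 → F) (hv : v ≠ 0) : B F v ≠ 0 := by
  obtain ⟨i, hi⟩ := Function.ne_iff.1 hv
  intro h
  apply hi
  rcases i with j | j
  · have := congrArg (fun f => f (Pi.single (Sum.inr j) 1)) h
    fin_cases j <;> simpa [B_formula] using this
  · have := congrArg (fun f => f (Pi.single (Sum.inl j) 1)) h
    fin_cases j <;> simpa [B_formula] using this

theorem card_sub {F : Type*} [Field F] [Fintype F] (W : Submodule F (Fin 2 ⊕ Fin 2 → F)) :
    Nat.card W = Fintype.card F ^ Module.finrank F W := by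
  classical
  rw [Nat.card_eq_fintype_card]
  exact Module.card_eq_pow_finrank

theorem card_filter_mem {F : Type*} [Field F] [Fintype F] [DecidableEq F]
    (W : Submodule F (Fin 2 ⊕ Fin 2 → F)) [DecidablePred (· ∈ W)] :
    (Finset.univ.filter (fun w => w ∈ W)).card = Fintype.card F ^ Module.finrank F W := by
  rw [← card_sub, Nat.card_eq_fintype_card]
  exact (Fintype.card_of_subtype _ (by simp)).symm

theorem finrank_ker {F : Type*} [Field F] (v : Fin 2 ⊕ Fin 2 → F) (hv : v ≠ 0) :
    Module.finrank F (LinearMap.ker (B F v)) = 3 := by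
  have h1 := LinearMap.finrank_range_add_finrank_ker (B F v)
  have h2 : Module.finrank F (Fin 2 ⊕ Fin 2 → F) = 4 := by simp
  have h3 : Module.finrank F (LinearMap.range (B F v)) = 1 := by
    have hsurj : Function.Surjective (B F v) := by
      obtain ⟨w, hw⟩ : ∃ w, B F v w ≠ 0 := by
        by_contra h; simp only [not_exists, not_not] at h; exact B_nondeg v hv (LinearMap.ext h)
      intro c
      exact ⟨(c / B F v w) • w, by simp [hw]⟩
    rw [LinearMap.range_eq_top.2 hsurj]; simp
  omega

theorem finrank_pair {F : Type*} [Field F] (v w : Fin 2 ⊕ Fin 2 → F) (hv : v ≠ 0)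
    (hw : w ∉ Submodule.span F {v}) : Module.finrank F (Submodule.span F {v, w}) = 2 := by
  have hli : LinearIndependent F ![w, v] := by
    rw [linearIndependent_fin2]
    refine ⟨by simpa using hv, fun a ha => hw ?_⟩
    rw [Submodule.mem_span_singleton]
    exact ⟨a, by simpa using ha⟩
  have := finrank_span_eq_card hli
  have hr : Set.range ![w, v] = {v, w} := by
    ext x; simp [eq_comm]
  rw [hr] at this
  simpa using this

theorem part2 {F : Type*} [Field F] [Fintype F] (v : Fin 2 ⊕ Fin 2 → F) (hv : v ≠ 0) :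
    Nat.card {W : Submodule F (Fin 2 ⊕ Fin 2 → F) // Module.finrank F W = 2 ∧ v ∈ W ∧
      ∀ u ∈ W, ∀ w ∈ W, Cfsg.sympForm 2 F u w = 0} = Fintype.card F + 1 := by
  classical
  haveI : Fintype (Submodule F (Fin 2 ⊕ Fin 2 → F)) := Fintype.ofFinite _
  have hq2 : 2 ≤ Fintype.card F := Fintype.one_lt_card
  rw [Nat.card_eq_fintype_card, Fintype.card_subtype]
  set t := Finset.univ.filter (fun W : Submodule F (Fin 2 ⊕ Fin 2 → F) =>
    Module.finrank F W = 2 ∧ v ∈ W ∧ ∀ u ∈ W, ∀ w ∈ W, Cfsg.sympForm 2 F u w = 0) with ht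
  set s := Finset.univ.filter (fun w : Fin 2 ⊕ Fin 2 → F =>
    B F v w = 0 ∧ w ∉ Submodule.span F {v}) with hs
  have key := Finset.card_mul_eq_card_mul
    (fun (w : Fin 2 ⊕ Fin 2 → F) (W : Submodule F (Fin 2 ⊕ Fin 2 → F)) => w ∈ W)
    (s := s) (t := t) (m := 1) (n := Fintype.card F ^ 2 - Fintype.card F) ?_ ?_
  · have hsc : s.card = Fintype.card F ^ 3 - Fintype.card F := by
      have : s = (Finset.univ.filter (fun w => w ∈ LinearMap.ker (B F v))) \
          (Finset.univ.filter (fun w => w ∈ Submodule.span F {v})) := by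
        ext w; simp [hs]
      rw [this, Finset.card_sdiff_of_subset, card_filter_mem, card_filter_mem, finrank_ker v hv,
        finrank_span_singleton hv, pow_one]
      intro w
      simp only [Finset.mem_filter, Finset.mem_univ, true_and]
      intro hw
      obtain ⟨c, rfl⟩ := Submodule.mem_span_singleton.1 hw
      simp [B_self]
    rw [hsc, mul_one] at key
    obtain ⟨d, hd⟩ : ∃ d, Fintype.card F ^ 2 = d + Fintype.card F :=
      ⟨Fintype.card F ^ 2 - Fintype.card F, by
        have : Fintype.card F ≤ Fintype.card F ^ 2 := Nat.le_self_pow (by norm_num) _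
        omega⟩
    have hd1 : Fintype.card F ^ 2 - Fintype.card F = d := by omega
    have hd3 : Fintype.card F ^ 3 = (Fintype.card F + 1) * d + Fintype.card F := by
      calc Fintype.card F ^ 3 = Fintype.card F * Fintype.card F ^ 2 := by ring
        _ = Fintype.card F * (d + Fintype.card F) := by rw [hd]
        _ = Fintype.card F * d + Fintype.card F ^ 2 := by ring
        _ = (Fintype.card F + 1) * d + Fintype.card F := by rw [hd]; ring
    have hd2 : Fintype.card F ^ 3 - Fintype.card F = (Fintype.card F + 1) * d := by omega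
    rw [hd1, hd2] at key
    have hdpos : 0 < d := by nlinarith
    exact (Nat.eq_of_mul_eq_mul_right hdpos key).symm
  · intro w hw
    simp only [hs, Finset.mem_filter, Finset.mem_univ, true_and] at hw
    obtain ⟨hvw, hwv⟩ := hw
    rw [Finset.card_eq_one]
    refine ⟨Submodule.span F {v, w}, ?_⟩
    ext W
    simp only [Finset.bipartiteAbove, Finset.mem_filter, Finset.mem_singleton, ht,
      Finset.mem_univ, true_and]
    constructor
    · rintro ⟨⟨hfr, hvW, -⟩, hwW⟩
      symm
      apply Submodule.eq_of_le_of_finrank_eq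
      · rw [Submodule.span_le]
        rintro x (rfl | rfl) <;> assumption
      · rw [hfr]; exact finrank_pair v w hv hwv
    · rintro rfl
      refine ⟨⟨finrank_pair v w hv hwv, Submodule.subset_span (by simp), ?_⟩,
        Submodule.subset_span (by simp)⟩
      intro u hu x hx
      obtain ⟨a, b, rfl⟩ := Submodule.mem_span_pair.1 hu
      obtain ⟨c, d, rfl⟩ := Submodule.mem_span_pair.1 hx
      rw [← B_apply]
      simp [B_self, hvw, B_swap w v]
  · intro W hW
    simp only [ht, Finset.mem_filter, Finset.mem_univ, true_and] at hW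
    obtain ⟨hfr, hvW, hiso⟩ := hW
    have : s.bipartiteBelow (fun w W => w ∈ W) W = (Finset.univ.filter (fun w => w ∈ W)) \
        (Finset.univ.filter (fun w => w ∈ Submodule.span F {v})) := by
      ext w
      simp only [Finset.bipartiteBelow, hs, Finset.mem_filter, Finset.mem_univ, true_and,
        Finset.mem_sdiff]
      constructor
      · rintro ⟨⟨-, h2⟩, h3⟩; exact ⟨h3, h2⟩
      · rintro ⟨h3, h2⟩; exact ⟨⟨by rw [B_apply]; exact hiso v hvW w h3, h2⟩, h3⟩
    rw [this, Finset.card_sdiff_of_subset, card_filter_mem, card_filter_mem, hfr,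
      finrank_span_singleton hv, pow_one]
    intro w
    simp only [Finset.mem_filter, Finset.mem_univ, true_and]
    intro hw
    exact ((Submodule.span_singleton_le_iff_mem v W).2 hvW) hw

/-- The symplectic generalised quadrangle over a field with q elements: the number of 2-dimensional subspaces of F^4 on which the symplectic form vanishes is (q + 1)(q² + 1), and every non-zero vector lies in exactly q + 1 of them. -/
theorem result {F : Type*} [Field F] [Fintype F] {q : ℕ} (hF : Fintype.card F = q) : Nat.card {W : Submodule F (Fin 2 ⊕ Fin 2 → F) // Module.finrank F W = 2 ∧ ∀ u ∈ W, ∀ v ∈ W, Cfsg.sympForm 2 F u v = 0} = (q + 1) * (q ^ 2 + 1) ∧ ∀ v : Fin 2 ⊕ Fin 2 → F, v ≠ 0 → Nat.card {W : Submodule F (Fin 2 ⊕ Fin 2 → F) // Module.finrank F W = 2 ∧ v ∈ W ∧ ∀ u ∈ W, ∀ w ∈ W, Cfsg.sympForm 2 F u w = 0} = q + 1 := by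
  classical
  subst hF
  haveI : Fintype (Submodule F (Fin 2 ⊕ Fin 2 → F)) := Fintype.ofFinite _
  refine ⟨?_, fun v hv => part2 v hv⟩
  have hq2 : 2 ≤ Fintype.card F := Fintype.one_lt_card
  rw [Nat.card_eq_fintype_card, Fintype.card_subtype]
  set t := Finset.univ.filter (fun W : Submodule F (Fin 2 ⊕ Fin 2 → F) =>
    Module.finrank F W = 2 ∧ ∀ u ∈ W, ∀ w ∈ W, Cfsg.sympForm 2 F u w = 0) with ht
  set s := Finset.univ.filter (fun v : Fin 2 ⊕ Fin 2 → F => v ≠ 0) with hs
  have key := Finset.card_mul_eq_card_mul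
    (fun (w : Fin 2 ⊕ Fin 2 → F) (W : Submodule F (Fin 2 ⊕ Fin 2 → F)) => w ∈ W)
    (s := s) (t := t) (m := Fintype.card F + 1) (n := Fintype.card F ^ 2 - 1) ?_ ?_
  · have hsc : s.card = Fintype.card F ^ 4 - 1 := by
      rw [hs, Finset.filter_ne', Finset.card_erase_of_mem (Finset.mem_univ _), Finset.card_univ]
      simp
    rw [hsc] at key
    obtain ⟨r, hr⟩ : ∃ r, Fintype.card F ^ 2 = r + 1 :=
      ⟨Fintype.card F ^ 2 - 1, by
        have : 0 < Fintype.card F ^ 2 := by positivity
        omega⟩
    have h4 : Fintype.card F ^ 4 = r * (r + 2) + 1 := by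
      calc Fintype.card F ^ 4 = (Fintype.card F ^ 2) ^ 2 := by ring
        _ = (r + 1) ^ 2 := by rw [hr]
        _ = r * (r + 2) + 1 := by ring
    have h5 : Fintype.card F ^ 4 - 1 = r * (r + 2) := by omega
    have h6 : Fintype.card F ^ 2 - 1 = r := by omega
    rw [h5, h6] at key
    rw [hr]
    have hrpos : 0 < r := by nlinarith
    have : t.card * r = ((Fintype.card F + 1) * (r + 1 + 1)) * r := by rw [← key]; ring
    exact Nat.eq_of_mul_eq_mul_right hrpos this
  · intro v hv
    have hv0 : v ≠ 0 := by simpa [hs] using hv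
    have := part2 v hv0
    rw [Nat.card_eq_fintype_card, Fintype.card_subtype] at this
    rw [← this]
    congr 1
    ext W
    simp only [Finset.bipartiteAbove, Finset.mem_filter, ht, Finset.mem_univ, true_and]
    tauto
  · intro W hW
    simp only [ht, Finset.mem_filter, Finset.mem_univ, true_and] at hW
    obtain ⟨hfr, hiso⟩ := hW
    have : s.bipartiteBelow (fun w W => w ∈ W) W =
        (Finset.univ.filter (fun w => w ∈ W)).erase 0 := by
      ext w
      simp only [Finset.bipartiteBelow, hs, Finset.mem_filter, Finset.mem_univ, true_and,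
        Finset.mem_erase]
    rw [this, Finset.card_erase_of_mem (by simp), card_filter_mem, hfr]

end Cfsg.Agent.S0828
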