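import Cfsg.Statements.S0830
import Mathlib
import Cfsg.Agent.S0829

set_option autoImplicit false
open Cfsg

namespace Cfsg.Agent.S0830

open Cfsg.Agent.S0829

/-- The unitary quadrangle of PSU_5(q): with |F| = q², the number of 2-dimensional subspaces of F^5 on which the Hermitian form vanishes is (q³ + 1)(q⁵ + 1). -/
theorem result {F : Type*} [Field F] [Fintype F] {q : ℕ} (hF : Fintype.card F = q ^ 2) : Nat.card {W : Submodule F (Fin 5 → F) // Module.finrank F W = 2 ∧ ∀ u ∈ W, ∀ v ∈ W, Cfsg.hermForm 5 F q u v = 0} = (q ^ 3 + 1) * (q ^ 5 + 1) := by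
  have hq := two_le_q hF
  obtain ⟨hp1, hp2, hp3⟩ := q4_pos q hq
  have a0 := iso_zero (F := F) (q := q)
  have a1 := iso_succ hF 0
  have a2 := iso_succ hF 1
  have a3 := iso_succ hF 2
  have a4 := iso_succ hF 3
  have a5 := iso_succ hF 4
  rw [a0] at a1
  simp only [Nat.reduceAdd, Nat.reduceMul] at a1 a2 a3 a4 a5
  generalize Nat.card {x : Fin 1 → F // hermForm 1 F q x x = 0} = A1 at a1 a2
  generalize Nat.card {x : Fin 2 → F // hermForm 2 F q x x = 0} = A2 at a2 a3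
  generalize Nat.card {x : Fin 3 → F // hermForm 3 F q x x = 0} = A3 at a3 a4
  generalize Nat.card {x : Fin 4 → F // hermForm 4 F q x x = 0} = A4 at a4 a5
  have hl : ∀ v : Fin 5 → F, v ≠ 0 → hermForm 5 F q v v = 0 →
      Nat.card {W : Submodule F (Fin 5 → F) // Module.finrank F W = 2 ∧ v ∈ W ∧
        ∀ u ∈ W, ∀ x ∈ W, hermForm 5 F q u x = 0} = q ^ 3 + 1 := by
    intro v hv hv0
    have h1 := perp_count hF 4 v hv hv0
    have h2 := lines_through hF 5 v hv hv0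
    simp only [Nat.reduceAdd, Nat.reduceMul] at h1
    generalize Nat.card {W : Submodule F (Fin 5 → F) // Module.finrank F W = 2 ∧ v ∈ W ∧
        ∀ u ∈ W, ∀ x ∈ W, hermForm 5 F q u x = 0} = L at h2 ⊢
    generalize Nat.card {w : Fin 5 → F // hermForm 5 F q w w = 0 ∧
        hermForm 5 F q w v = 0} = S at h1 h2
    generalize Nat.card {x : Fin 5 → F // hermForm 5 F q x x = 0} = A5 at a5 h1
    have hle : q ^ 2 ≤ q ^ 4 := Nat.pow_le_pow_right (by omega) (by norm_num)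
    zify [hle] at h1 h2 a1 a2 a3 a4 a5 ⊢
    have hne : (q : ℤ) * ((q : ℤ) ^ 4 - (q : ℤ) ^ 2) ≠ 0 := by positivity
    apply mul_right_cancel₀ hne
    linear_combination (q : ℤ) * h2 + h1 + (q : ℤ) * a5 - (q : ℤ) ^ 2 * a4 + (q : ℤ) ^ 3 * a3
      - (q : ℤ) ^ 4 * a2 + (q : ℤ) ^ 5 * a1
  have h3 := total_lines hF 5 (q ^ 3 + 1) hl
  have hle4 : 1 ≤ q ^ 4 := Nat.one_le_pow _ _ (by omega)
  have hA : 1 ≤ Nat.card {v : Fin 5 → F // hermForm 5 F q v v = 0} := by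
    have : 0 < Nat.card {v : Fin 5 → F // hermForm 5 F q v v = 0} :=
      Nat.card_pos_iff.2 ⟨⟨⟨0, by simp [hermForm]⟩⟩, inferInstance⟩
    omega
  generalize Nat.card {W : Submodule F (Fin 5 → F) // Module.finrank F W = 2 ∧
      ∀ u ∈ W, ∀ x ∈ W, hermForm 5 F q u x = 0} = T at h3 ⊢
  generalize Nat.card {x : Fin 5 → F // hermForm 5 F q x x = 0} = A5 at a5 h3 hA
  zify [hle4, hA] at h3 a1 a2 a3 a4 a5 ⊢
  have hne : ((q : ℤ) ^ 4 - 1) ≠ 0 := ne_of_gt hp2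
  apply mul_right_cancel₀ hne
  linear_combination -h3 + ((q : ℤ) ^ 3 + 1) * a5 - ((q : ℤ) ^ 3 + 1) * (q : ℤ) * a4
    + ((q : ℤ) ^ 3 + 1) * (q : ℤ) ^ 2 * a3 - ((q : ℤ) ^ 3 + 1) * (q : ℤ) ^ 3 * a2
    + ((q : ℤ) ^ 3 + 1) * (q : ℤ) ^ 4 * a1

end Cfsg.Agent.S0830
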