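import Cfsg.Statements.S0833
import Mathlib

set_option autoImplicit false
open Cfsg

namespace Cfsg.Agent.S0833

open TensorProduct LinearMap

section

variable {F U W : Type*} [Field F] [AddCommGroup U] [Module F U] [FiniteDimensional F U]
  [AddCommGroup W] [Module F W] [FiniteDimensional F W]

omit [FiniteDimensional F U] [FiniteDimensional F W] in
attribute [local ext] TensorProduct.ext in
theorem symm_of_alt (B₁ : LinearMap.BilinForm F U) (B₂ : LinearMap.BilinForm F W)
    (hA₁ : B₁.IsAlt) (hA₂ : B₂.IsAlt) : (B₁.tmul B₂).IsSymm := by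
  rw [LinearMap.isSymm_iff_eq_flip]
  ext x₁ x₂ y₁ y₂
  have e1 : B₁ x₁ y₁ = - B₁ y₁ x₁ := (hA₁.neg_eq y₁ x₁).symm
  have e2 : B₂ x₂ y₂ = - B₂ y₂ x₂ := (hA₂.neg_eq y₂ x₂).symm
  simp [e1, e2]

theorem sepLeft (B₁ : LinearMap.BilinForm F U) (B₂ : LinearMap.BilinForm F W)
    (h₁ : B₁.Nondegenerate) (h₂ : B₂.Nondegenerate) : (B₁.tmul B₂).SeparatingLeft := by
  intro z hz
  let b := Module.finBasis F U
  let c := Module.finBasis F W
  let b' := B₁.dualBasis h₁ b
  let c' := B₂.dualBasis h₂ c
  have key : ∀ p, (b'.tensorProduct c').repr z p = (B₁.tmul B₂) z (b p.1 ⊗ₜ c p.2) := by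
    intro p
    conv_rhs => rw [← (b'.tensorProduct c').sum_repr z]
    simp only [map_sum, LinearMap.sum_apply, map_smul, LinearMap.smul_apply,
      Module.Basis.tensorProduct_apply', LinearMap.BilinForm.tensorDistrib_tmul, smul_eq_mul]
    rw [Finset.sum_eq_single p]
    · simp [b', c', LinearMap.BilinForm.apply_dualBasis_left]
    · intro q _ hq
      simp only [b', c', LinearMap.BilinForm.apply_dualBasis_left]
      by_cases h1 : p.1 = q.1
      · have h2 : p.2 ≠ q.2 := fun h2 => hq (Prod.ext h1.symm h2.symm)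
        simp [h2]
      · simp [h1]
    · intro hp
      exact absurd (Finset.mem_univ p) hp
  apply (b'.tensorProduct c').repr.injective
  ext p
  rw [key p, hz]
  simp

theorem exists_isotropic (B : LinearMap.BilinForm F U) (h : B.Nondegenerate) (hA : B.IsAlt)
    (k : ℕ) (hU : Module.finrank F U = 2 * k) (d : ℕ) (hd : d ≤ k) :
    ∃ L : Submodule F U, Module.finrank F L = d ∧ ∀ x ∈ L, ∀ y ∈ L, B x y = 0 := by
  induction d with
  | zero => exact ⟨⊥, by simp, by simp⟩
  | succ d ih =>
    obtain ⟨L, hL, hiso⟩ := ih (by omega)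
    have hle : L ≤ B.orthogonal L := fun x hx y hy => hiso y hy x hx
    have hfin : Module.finrank F (B.orthogonal L) = 2 * k - d := by
      rw [LinearMap.BilinForm.finrank_orthogonal h, hU, hL]
    have hlt : L < B.orthogonal L := by
      refine lt_of_le_of_ne hle ?_
      intro heq
      rw [← heq, hL] at hfin
      omega
    obtain ⟨v, hv, hvL⟩ := SetLike.exists_of_lt hlt
    refine ⟨L ⊔ Submodule.span F {v}, ?_, ?_⟩
    · rw [Submodule.finrank_sup_span_singleton hvL, hL]
    · intro x hx y hy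
      obtain ⟨a, ha, z, hz, rfl⟩ := Submodule.mem_sup.1 hx
      obtain ⟨s, rfl⟩ := Submodule.mem_span_singleton.1 hz
      obtain ⟨a', ha', z', hz', rfl⟩ := Submodule.mem_sup.1 hy
      obtain ⟨t, rfl⟩ := Submodule.mem_span_singleton.1 hz'
      have e1 : B a v = 0 := hv a ha
      have e2 : B a' v = 0 := hv a' ha'
      have e3 : B v a' = 0 := by rw [← hA.neg_eq a' v, e2]; simp
      simp [hiso a ha a' ha', e1, e3, hA v]

end

/-- If B₁, B₂ are non-degenerate alternating forms on U (dim 2k) and W (dim 2l), then B₁ ⊗ B₂ on U ⊗ W is symmetric, non-degenerate, and vanishes identically on some subspace of dimension 2kl (half of dim U ⊗ W). -/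
theorem result {F U W : Type*} [Field F] [Fintype F] [AddCommGroup U] [Module F U] [FiniteDimensional F U] [AddCommGroup W] [Module F W] [FiniteDimensional F W] (B₁ : LinearMap.BilinForm F U) (B₂ : LinearMap.BilinForm F W) (h₁ : B₁.Nondegenerate) (h₂ : B₂.Nondegenerate) (hA₁ : B₁.IsAlt) (hA₂ : B₂.IsAlt) (k l : ℕ) (hU : Module.finrank F U = 2 * k) (hW : Module.finrank F W = 2 * l) : (B₁.tmul B₂).IsSymm ∧ (B₁.tmul B₂).Nondegenerate ∧ (∃ X : Submodule F (TensorProduct F U W), Module.finrank F X = 2 * k * l ∧ ∀ x ∈ X, ∀ y ∈ X, (B₁.tmul B₂) x y = 0) := by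
  have hsymm := symm_of_alt B₁ B₂ hA₁ hA₂
  have hsl := sepLeft B₁ B₂ h₁ h₂
  refine ⟨hsymm, ⟨hsl, ?_⟩, ?_⟩
  · intro z hz
    exact hsl z (fun y => by rw [← hsymm.eq]; exact hz y)
  · obtain ⟨L, hL, hiso⟩ := exists_isotropic B₁ h₁ hA₁ k hU k le_rfl
    have hinj : Function.Injective (L.subtype.rTensor W) :=
      Module.Flat.rTensor_preserves_injective_linearMap _ L.subtype_injective
    refine ⟨LinearMap.range (L.subtype.rTensor W), ?_, ?_⟩
    · rw [LinearMap.finrank_range_of_inj hinj, Module.finrank_tensorProduct, hL, hW]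
      ring
    · rintro _ ⟨x, rfl⟩ _ ⟨y, rfl⟩
      induction x using TensorProduct.induction_on with
      | zero => simp
      | add x₁ x₂ hx₁ hx₂ => simp [hx₁, hx₂]
      | tmul a w =>
        induction y using TensorProduct.induction_on with
        | zero => simp
        | add y₁ y₂ hy₁ hy₂ => rw [map_add, map_add, hy₁, hy₂, add_zero]
        | tmul a' w' =>
          simp [hiso a a.2 a' a'.2]

end Cfsg.Agent.S0833
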