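import Cfsg.Statements.S0834
import Mathlib

set_option autoImplicit false
open Cfsg

namespace Cfsg.Agent.S0834

open TensorProduct LinearMap Module Polynomial

theorem exists_sq_sum {F : Type*} [Field F] [Fintype F] (h2 : (2 : F) ≠ 0) (a₀ a₁ c : F)
    (h₀ : a₀ ≠ 0) (h₁ : a₁ ≠ 0) : ∃ s t : F, a₀ * s ^ 2 + a₁ * t ^ 2 = c := by
  have hchar : ringChar F ≠ 2 := by
    intro h
    apply h2
    have := CharP.cast_eq_zero F (ringChar F)
    rw [h] at this
    exact_mod_cast this
  have hodd := FiniteField.odd_card_of_char_ne_two hchar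
  have hf : (C a₀ * X ^ 2 : F[X]).degree = 2 := by
    rw [degree_C_mul h₀, degree_X_pow]; rfl
  have hg : (C a₁ * X ^ 2 - C c : F[X]).degree = 2 := by
    rw [degree_sub_eq_left_of_degree_lt]
    · rw [degree_C_mul h₁, degree_X_pow]; rfl
    · rw [degree_C_mul h₁, degree_X_pow]
      exact lt_of_le_of_lt degree_C_le (by norm_num)
  obtain ⟨s, t, hst⟩ := FiniteField.exists_root_sum_quadratic hf hg hodd
  refine ⟨s, t, ?_⟩
  simp only [eval_mul, eval_C, eval_pow, eval_X, eval_sub] at hst
  linear_combination hst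

theorem exists_similitude {F V : Type*} [Field F] [Fintype F] [AddCommGroup V] [Module F V]
    [FiniteDimensional F V] (h2 : (2 : F) ≠ 0) (B : LinearMap.BilinForm F V)
    (hB : B.Nondegenerate) (hS : B.IsSymm) (k : ℕ) (hV : finrank F V = 2 * k) (μ : F) :
    ∃ φ : V →ₗ[F] V, ∀ x y, B (φ x) (φ y) = μ * B x y := by
  classical
  have : Invertible (2 : F) := invertibleOfNonzero h2
  obtain ⟨v, hv⟩ := LinearMap.BilinForm.exists_orthogonal_basis (LinearMap.BilinForm.isSymm_iff.1 hS)
  let e : Fin (finrank F V) ≃ Fin k × Fin 2 :=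
    (finCongr (by rw [hV, mul_comm])).trans finProdFinEquiv.symm
  let x : Basis (Fin k × Fin 2) F V := v.reindex e
  have hx : ∀ p q, p ≠ q → B (x p) (x q) = 0 := by
    intro p q hpq
    simp only [x, Basis.reindex_apply]
    exact hv (fun h => hpq (e.symm.injective h))
  have ha : ∀ p, B (x p) (x p) ≠ 0 := by
    intro p hp
    have h0 : x p = 0 := by
      apply hB.1
      intro y
      have : B (x p) = 0 := by
        apply x.ext
        intro q
        by_cases hpq : p = q
        · rw [← hpq, hp]; simp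
        · rw [hx p q hpq]; simp
      rw [this]; simp
    exact x.ne_zero p h0
  obtain ⟨a, ha_def⟩ : ∃ a : Fin k × Fin 2 → F, ∀ p, B (x p) (x p) = a p :=
    ⟨fun p => B (x p) (x p), fun p => rfl⟩
  have ha' : ∀ p, a p ≠ 0 := fun p => ha_def p ▸ ha p
  have hxx : ∀ p q, B (x p) (x q) = if p = q then a p else 0 := by
    intro p q
    split_ifs with h
    · rw [← h, ha_def]
    · exact hx p q h
  have hst : ∀ i : Fin k, ∃ s t : F, a (i, 0) * s ^ 2 + a (i, 1) * t ^ 2 = μ * a (i, 0) :=
    fun i => exists_sq_sum h2 _ _ _ (ha' _) (ha' _)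
  choose s t hst using hst
  let φ : V →ₗ[F] V := x.constr F (fun p : Fin k × Fin 2 =>
    if p.2 = 0 then s p.1 • x (p.1, 0) + t p.1 • x (p.1, 1)
    else (-(a (p.1, 1) * t p.1) / a (p.1, 0)) • x (p.1, 0) + s p.1 • x (p.1, 1))
  refine ⟨φ, ?_⟩
  have hφ0 : ∀ i, φ (x (i, 0)) = s i • x (i, 0) + t i • x (i, 1) := by
    intro i
    exact (x.constr_basis F _ (i, 0)).trans (by simp)
  have hφ1 : ∀ i, φ (x (i, 1)) = (-(a (i, 1) * t i) / a (i, 0)) • x (i, 0) + s i • x (i, 1) := by
    intro i
    exact (x.constr_basis F _ (i, 1)).trans (by simp)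
  have key : B.compl₁₂ φ φ = μ • B := by
    apply LinearMap.BilinForm.ext_basis x
    rintro ⟨i, ε⟩ ⟨i', ε'⟩
    have h01 : (0 : Fin 2) ≠ 1 := by decide
    have h10 : (1 : Fin 2) ≠ 0 := by decide
    by_cases hii : i = i'
    · subst hii
      have hi0 := ha' (i, 0)
      fin_cases ε <;> fin_cases ε' <;>
        simp [hφ0, hφ1, hxx, h01, h10]
      · linear_combination hst i
      · field_simp
        ring
      · field_simp
        ring
      · field_simp
        linear_combination (a (i, 1)) * hst i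
    · fin_cases ε <;> fin_cases ε' <;>
        simp [hφ0, hφ1, hxx, hii, h01, h10]
  intro a b
  have := congrArg (fun f => f a b) key
  simpa using this

/-- Over a finite field with 2 ≠ 0: if B₁ on U (dim 2k, k ≥ 1) and B₂ on W (dim 2l, l ≥ 1) are non-degenerate symmetric forms admitting no totally isotropic subspaces of dimensions k, resp. l (minus type), then B₁ ⊗ B₂ admits a totally isotropic subspace of dimension 2kl (plus type). -/
theorem result {F U W : Type*} [Field F] [Fintype F] [AddCommGroup U] [Module F U] [FiniteDimensional F U] [AddCommGroup W] [Module F W] [FiniteDimensional F W] (h2 : (2 : F) ≠ 0) (B₁ : LinearMap.BilinForm F U) (B₂ : LinearMap.BilinForm F W) (h₁ : B₁.Nondegenerate) (h₂ : B₂.Nondegenerate) (hS₁ : B₁.IsSymm) (hS₂ : B₂.IsSymm) (k l : ℕ) (hk : 1 ≤ k) (hl : 1 ≤ l) (hU : Module.finrank F U = 2 * k) (hW : Module.finrank F W = 2 * l) (hm₁ : ¬ (∃ X : Submodule F (U), Module.finrank F X = k ∧ ∀ x ∈ X, ∀ y ∈ X, (B₁) x y = 0)) (hm₂ : ¬ (∃ X : Submodule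 F (W), Module.finrank F X = l ∧ ∀ x ∈ X, ∀ y ∈ X, (B₂) x y = 0)) : (∃ X : Submodule F (TensorProduct F U W), Module.finrank F X = 2 * k * l ∧ ∀ x ∈ X, ∀ y ∈ X, (B₁.tmul B₂) x y = 0) := by
  classical
  have : Invertible (2 : F) := invertibleOfNonzero h2
  obtain ⟨v, hv⟩ := LinearMap.BilinForm.exists_orthogonal_basis
    (LinearMap.BilinForm.isSymm_iff.1 hS₂)
  let e : Fin (finrank F W) ≃ Fin l × Fin 2 :=
    (finCongr (by rw [hW, mul_comm])).trans finProdFinEquiv.symm
  let y : Basis (Fin l × Fin 2) F W := v.reindex e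
  have hy0 : ∀ p q, p ≠ q → B₂ (y p) (y q) = 0 := by
    intro p q hpq
    simp only [y, Basis.reindex_apply]
    exact hv (fun h => hpq (e.symm.injective h))
  have hb0 : ∀ p, B₂ (y p) (y p) ≠ 0 := by
    intro p hp
    have h0 : y p = 0 := by
      apply h₂.1
      intro z
      have : B₂ (y p) = 0 := by
        apply y.ext
        intro q
        by_cases hpq : p = q
        · rw [← hpq, hp]; simp
        · rw [hy0 p q hpq]; simp
      rw [this]; simp
    exact y.ne_zero p h0
  obtain ⟨b, hb_def⟩ : ∃ b : Fin l × Fin 2 → F, ∀ p, B₂ (y p) (y p) = b p :=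
    ⟨fun p => B₂ (y p) (y p), fun p => rfl⟩
  have hb : ∀ p, b p ≠ 0 := fun p => hb_def p ▸ hb0 p
  have hyy : ∀ p q, B₂ (y p) (y q) = if p = q then b p else 0 := by
    intro p q
    split_ifs with h
    · rw [← h, hb_def]
    · exact hy0 p q h
  have hφ : ∀ j : Fin l, ∃ φ : U →ₗ[F] U, ∀ u u', B₁ (φ u) (φ u')
      = (-(b (j, 0)) / b (j, 1)) * B₁ u u' :=
    fun j => exists_similitude h2 B₁ h₁ hS₁ k hU _
  choose φ hφ using hφ
  let Ψ : (Fin l → U) →ₗ[F] U ⊗[F] W :=
    ∑ j, ((TensorProduct.mk F U W).flip (y (j, 0))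
      + ((TensorProduct.mk F U W).flip (y (j, 1))).comp (φ j)).comp (LinearMap.proj j)
  have hΨ : ∀ u, Ψ u = ∑ j, (u j ⊗ₜ[F] y (j, 0) + φ j (u j) ⊗ₜ[F] y (j, 1)) := by
    intro u
    simp [Ψ]
  have h01 : (0 : Fin 2) ≠ 1 := by decide
  have h10 : (1 : Fin 2) ≠ 0 := by decide
  have hinj : Function.Injective Ψ := by
    rw [← LinearMap.ker_eq_bot, LinearMap.ker_eq_bot']
    intro u hu
    ext j
    have h := congrArg ((TensorProduct.rid F U).toLinearMap.comp
      (LinearMap.lTensor U (y.coord (j, 0)))) hu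
    rw [hΨ] at h
    simp only [map_sum, map_add, LinearMap.comp_apply, LinearMap.lTensor_tmul,
      LinearEquiv.coe_coe, TensorProduct.rid_tmul, Basis.coord_apply, Basis.repr_self,
      map_zero] at h
    simpa [Finsupp.single_apply, h01, h10, Finset.sum_ite_eq'] using h
  refine ⟨LinearMap.range Ψ, ?_, ?_⟩
  · rw [LinearMap.finrank_range_of_inj hinj, Module.finrank_pi_fintype]
    simp [hU]
    ring
  · rintro _ ⟨u, rfl⟩ _ ⟨u', rfl⟩
    rw [hΨ, hΨ]
    simp only [map_sum, LinearMap.sum_apply, map_add, LinearMap.add_apply,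
      LinearMap.BilinForm.tensorDistrib_tmul, hyy, Prod.mk.injEq, h01, h10, and_false, and_true,
      if_false, smul_eq_mul, ite_mul, zero_mul,
      Finset.sum_add_distrib, Finset.sum_ite_eq', Finset.mem_univ, if_true]
    simp only [Finset.sum_const_zero, add_zero, zero_add]
    rw [← Finset.sum_add_distrib]
    apply Finset.sum_eq_zero
    intro j _
    rw [hφ]
    have hb1 := hb (j, 1)
    field_simp
    ring

end Cfsg.Agent.S0834
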