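import Cfsg.Statements.S0835
import Mathlib

set_option autoImplicit false
open Cfsg

namespace Cfsg.Agent.S0835

open TensorProduct LinearMap Module Polynomial

theorem exists_sq_sum {F : Type*} [Field F] [Fintype F] (h2 : (2 : F) ≠ 0) (a₀ a₁ c : F)
    (h₀ : a₀ ≠ 0) (h₁ : a₁ ≠ 0) : ∃ s t : F, a₀ * s ^ 2 + a₁ * t ^ 2 = c := by
  have hchar : ringChar F ≠ 2 := by
    intro h
    apply h2
    have := CharP.cast_eq_zero F (ringChar F)
    rw [h] at this
    exact_mod_cast this
  have hodd := FiniteField.odd_card_of_char_ne_two hchar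
  have hf : (C a₀ * X ^ 2 : F[X]).degree = 2 := by
    rw [degree_C_mul h₀, degree_X_pow]; rfl
  have hg : (C a₁ * X ^ 2 - C c : F[X]).degree = 2 := by
    rw [degree_sub_eq_left_of_degree_lt]
    · rw [degree_C_mul h₁, degree_X_pow]; rfl
    · rw [degree_C_mul h₁, degree_X_pow]
      exact lt_of_le_of_lt degree_C_le (by norm_num)
  obtain ⟨s, t, hst⟩ := FiniteField.exists_root_sum_quadratic hf hg hodd
  refine ⟨s, t, ?_⟩
  simp only [eval_mul, eval_C, eval_pow, eval_X, eval_sub] at hst
  linear_combination hst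

theorem exists_similitude {F V : Type*} [Field F] [Fintype F] [AddCommGroup V] [Module F V]
    [FiniteDimensional F V] (h2 : (2 : F) ≠ 0) (B : LinearMap.BilinForm F V)
    (hB : B.Nondegenerate) (hS : B.IsSymm) (k : ℕ) (hV : finrank F V = 2 * k) (μ : F) :
    ∃ φ : V →ₗ[F] V, ∀ x y, B (φ x) (φ y) = μ * B x y := by
  classical
  have : Invertible (2 : F) := invertibleOfNonzero h2
  obtain ⟨v, hv⟩ := LinearMap.BilinForm.exists_orthogonal_basis (LinearMap.BilinForm.isSymm_iff.1 hS)
  let e : Fin (finrank F V) ≃ Fin k × Fin 2 :=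
    (finCongr (by rw [hV, mul_comm])).trans finProdFinEquiv.symm
  let x : Basis (Fin k × Fin 2) F V := v.reindex e
  have hx : ∀ p q, p ≠ q → B (x p) (x q) = 0 := by
    intro p q hpq
    simp only [x, Basis.reindex_apply]
    exact hv (fun h => hpq (e.symm.injective h))
  have ha : ∀ p, B (x p) (x p) ≠ 0 := by
    intro p hp
    have h0 : x p = 0 := by
      apply hB.1
      intro y
      have : B (x p) = 0 := by
        apply x.ext
        intro q
        by_cases hpq : p = q
        · rw [← hpq, hp]; simp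
        · rw [hx p q hpq]; simp
      rw [this]; simp
    exact x.ne_zero p h0
  obtain ⟨a, ha_def⟩ : ∃ a : Fin k × Fin 2 → F, ∀ p, B (x p) (x p) = a p :=
    ⟨fun p => B (x p) (x p), fun p => rfl⟩
  have ha' : ∀ p, a p ≠ 0 := fun p => ha_def p ▸ ha p
  have hxx : ∀ p q, B (x p) (x q) = if p = q then a p else 0 := by
    intro p q
    split_ifs with h
    · rw [← h, ha_def]
    · exact hx p q h
  have hst : ∀ i : Fin k, ∃ s t : F, a (i, 0) * s ^ 2 + a (i, 1) * t ^ 2 = μ * a (i, 0) :=
    fun i => exists_sq_sum h2 _ _ _ (ha' _) (ha' _)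
  choose s t hst using hst
  let φ : V →ₗ[F] V := x.constr F (fun p : Fin k × Fin 2 =>
    if p.2 = 0 then s p.1 • x (p.1, 0) + t p.1 • x (p.1, 1)
    else (-(a (p.1, 1) * t p.1) / a (p.1, 0)) • x (p.1, 0) + s p.1 • x (p.1, 1))
  refine ⟨φ, ?_⟩
  have hφ0 : ∀ i, φ (x (i, 0)) = s i • x (i, 0) + t i • x (i, 1) := by
    intro i
    exact (x.constr_basis F _ (i, 0)).trans (by simp)
  have hφ1 : ∀ i, φ (x (i, 1)) = (-(a (i, 1) * t i) / a (i, 0)) • x (i, 0) + s i • x (i, 1) := by
    intro i
    exact (x.constr_basis F _ (i, 1)).trans (by simp)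
  have key : B.compl₁₂ φ φ = μ • B := by
    apply LinearMap.BilinForm.ext_basis x
    rintro ⟨i, ε⟩ ⟨i', ε'⟩
    have h01 : (0 : Fin 2) ≠ 1 := by decide
    have h10 : (1 : Fin 2) ≠ 0 := by decide
    by_cases hii : i = i'
    · subst hii
      have hi0 := ha' (i, 0)
      fin_cases ε <;> fin_cases ε' <;>
        simp [hφ0, hφ1, hxx, h01, h10]
      · linear_combination hst i
      · field_simp
        ring
      · field_simp
        ring
      · field_simp
        linear_combination (a (i, 1)) * hst i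
    · fin_cases ε <;> fin_cases ε' <;>
        simp [hφ0, hφ1, hxx, hii, h01, h10]
  intro a b
  have := congrArg (fun f => f a b) key
  simpa using this


theorem sepLeft {F U W : Type*} [Field F] [AddCommGroup U] [Module F U] [FiniteDimensional F U]
    [AddCommGroup W] [Module F W] [FiniteDimensional F W]
    (B₁ : LinearMap.BilinForm F U) (B₂ : LinearMap.BilinForm F W)
    (h₁ : B₁.Nondegenerate) (h₂ : B₂.Nondegenerate) : (B₁.tmul B₂).SeparatingLeft := by
  intro z hz
  let b := Module.finBasis F U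
  let c := Module.finBasis F W
  let b' := B₁.dualBasis h₁ b
  let c' := B₂.dualBasis h₂ c
  have key : ∀ p, (b'.tensorProduct c').repr z p = (B₁.tmul B₂) z (b p.1 ⊗ₜ c p.2) := by
    intro p
    conv_rhs => rw [← (b'.tensorProduct c').sum_repr z]
    simp only [map_sum, LinearMap.sum_apply, map_smul, LinearMap.smul_apply,
      Module.Basis.tensorProduct_apply', LinearMap.BilinForm.tensorDistrib_tmul, smul_eq_mul]
    rw [Finset.sum_eq_single p]
    · simp [b', c', LinearMap.BilinForm.apply_dualBasis_left]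
    · intro q _ hq
      simp only [b', c', LinearMap.BilinForm.apply_dualBasis_left]
      by_cases h1 : p.1 = q.1
      · have h2 : p.2 ≠ q.2 := fun h2 => hq (Prod.ext h1.symm h2.symm)
        simp [h2]
      · simp [h1]
    · intro hp
      exact absurd (Finset.mem_univ p) hp
  apply (b'.tensorProduct c').repr.injective
  ext p
  rw [key p, hz]
  simp


theorem orth_sup {F V : Type*} [Field F] [AddCommGroup V] [Module F V]
    (B : LinearMap.BilinForm F V) (A C : Submodule F V) :
    B.orthogonal (A ⊔ C) = B.orthogonal A ⊓ B.orthogonal C := by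
  apply le_antisymm
  · exact le_inf (LinearMap.BilinForm.orthogonal_le le_sup_left)
      (LinearMap.BilinForm.orthogonal_le le_sup_right)
  · rintro z ⟨hzA, hzC⟩ n hn
    obtain ⟨a, ha, c, hc, rfl⟩ := Submodule.mem_sup.1 hn
    have h1 : B a z = 0 := hzA a ha
    have h2 : B c z = 0 := hzC c hc
    show B (a + c) z = 0
    rw [map_add, LinearMap.add_apply, h1, h2, add_zero]

theorem exists_sub_finrank {F V : Type*} [Field F] [AddCommGroup V] [Module F V]
    [FiniteDimensional F V] (S : Submodule F V) (k : ℕ) (hk : k ≤ finrank F S) :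
    ∃ S' : Submodule F V, S' ≤ S ∧ finrank F S' = k := by
  induction k with
  | zero => exact ⟨⊥, bot_le, by simp⟩
  | succ n ih =>
    obtain ⟨S', hle, hdim⟩ := ih (by omega)
    have hlt : S' < S := lt_of_le_of_ne hle (by rintro rfl; omega)
    obtain ⟨v, hvS, hv⟩ := SetLike.exists_of_lt hlt
    refine ⟨S' ⊔ Submodule.span F {v}, sup_le hle ?_, ?_⟩
    · rw [Submodule.span_singleton_le_iff_mem]; exact hvS
    · rw [Submodule.finrank_sup_span_singleton hv, hdim]

theorem finrank_map_add {F V V' : Type*} [Field F] [AddCommGroup V] [Module F V]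
    [FiniteDimensional F V] [AddCommGroup V'] [Module F V'] (f : V →ₗ[F] V')
    (S : Submodule F V) :
    finrank F (S.map f) + finrank F (S ⊓ LinearMap.ker f : Submodule F V) = finrank F S := by
  have h := LinearMap.finrank_range_add_finrank_ker (f.domRestrict S)
  rw [LinearMap.range_domRestrict, LinearMap.ker_domRestrict] at h
  rw [← h, ← Submodule.map_comap_subtype, Submodule.finrank_map_subtype_eq]

theorem finrank_ker_ge {F V V' : Type*} [Field F] [AddCommGroup V] [Module F V]
    [FiniteDimensional F V] [AddCommGroup V'] [Module F V'] [FiniteDimensional F V']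
    (f : V →ₗ[F] V') :
    finrank F V ≤ finrank F (LinearMap.ker f) + finrank F V' := by
  have h := LinearMap.finrank_range_add_finrank_ker f
  have h2 := Submodule.finrank_le (LinearMap.range f)
  omega

/-- Over a finite field with 2 ≠ 0: if B₁ on U (dim 2k, k ≥ 1) is non-degenerate symmetric of minus type (no totally isotropic k-subspace) and B₂ on W (dim 2l + 1) is non-degenerate symmetric, then B₁ ⊗ B₂ (dimension 2k(2l+1)) admits no totally isotropic subspace of dimension k(2l+1) (minus type). -/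
theorem result {F U W : Type*} [Field F] [Fintype F] [AddCommGroup U] [Module F U] [FiniteDimensional F U] [AddCommGroup W] [Module F W] [FiniteDimensional F W] (h2 : (2 : F) ≠ 0) (B₁ : LinearMap.BilinForm F U) (B₂ : LinearMap.BilinForm F W) (h₁ : B₁.Nondegenerate) (h₂ : B₂.Nondegenerate) (hS₁ : B₁.IsSymm) (hS₂ : B₂.IsSymm) (k l : ℕ) (hk : 1 ≤ k) (hU : Module.finrank F U = 2 * k) (hW : Module.finrank F W = 2 * l + 1) (hm₁ : ¬ (∃ X : Submodule F (U), Module.finrank F X = k ∧ ∀ x ∈ X, ∀ y ∈ X, (B₁) x y = 0)) : ¬ (∃ X : Submodule F (TensorProduct F U W), Module.finrank F X = k * (2 * l + 1) ∧ ∀ x ∈ X, ∀ y ∈ X, (B₁.tmul B₂) x y = 0) := by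
  classical
  rintro ⟨X, hXdim, hXiso⟩
  have : Invertible (2 : F) := invertibleOfNonzero h2
  obtain ⟨v, hv⟩ := LinearMap.BilinForm.exists_orthogonal_basis
    (LinearMap.BilinForm.isSymm_iff.1 hS₂)
  let e : Fin (finrank F W) ≃ Option (Fin l × Fin 2) :=
    Fintype.equivOfCardEq (by simp [hW]; ring)
  let y : Basis (Option (Fin l × Fin 2)) F W := v.reindex e
  have hy0 : ∀ p q, p ≠ q → B₂ (y p) (y q) = 0 := by
    intro p q hpq
    simp only [y, Basis.reindex_apply]
    exact hv (fun h => hpq (e.symm.injective h))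
  have hb0 : ∀ p, B₂ (y p) (y p) ≠ 0 := by
    intro p hp
    have h0 : y p = 0 := by
      apply h₂.1
      intro z
      have : B₂ (y p) = 0 := by
        apply y.ext
        intro q
        by_cases hpq : p = q
        · rw [← hpq, hp]; simp
        · rw [hy0 p q hpq]; simp
      rw [this]; simp
    exact y.ne_zero p h0
  obtain ⟨b, hb_def⟩ : ∃ b : Option (Fin l × Fin 2) → F, ∀ p, B₂ (y p) (y p) = b p :=
    ⟨fun p => B₂ (y p) (y p), fun p => rfl⟩
  have hb : ∀ p, b p ≠ 0 := fun p => hb_def p ▸ hb0 p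
  have hyy : ∀ p q, B₂ (y p) (y q) = if p = q then b p else 0 := by
    intro p q
    split_ifs with h
    · rw [← h, hb_def]
    · exact hy0 p q h
  have hφ : ∀ j : Fin l, ∃ φ : U →ₗ[F] U, ∀ u u', B₁ (φ u) (φ u')
      = (-(b (some (j, 0))) / b (some (j, 1))) * B₁ u u' :=
    fun j => exists_similitude h2 B₁ h₁ hS₁ k hU _
  choose φ hφ using hφ
  -- coordinate maps
  let c : Option (Fin l × Fin 2) → (U ⊗[F] W →ₗ[F] U) := fun p =>
    (TensorProduct.rid F U).toLinearMap ∘ₗ (LinearMap.lTensor U (y.coord p))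
  have hc : ∀ p u w, c p (u ⊗ₜ[F] w) = (y.repr w p) • u := by
    intro p u w
    simp [c]
  have hB₂ : ∀ w w', B₂ w w' = ∑ p, b p * (y.repr w p * y.repr w' p) := by
    intro w w'
    conv_lhs => rw [← y.sum_repr w, ← y.sum_repr w']
    simp only [map_sum, LinearMap.sum_apply, map_smul, LinearMap.smul_apply, hyy, smul_eq_mul,
      mul_ite, mul_zero]
    apply Finset.sum_congr rfl
    intro p _
    rw [Finset.sum_ite_eq', if_pos (Finset.mem_univ p)]
    ring
  have hE : ∀ z z', (B₁.tmul B₂) z z' = ∑ p, b p * B₁ (c p z) (c p z') := by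
    intro z z'
    induction z using TensorProduct.induction_on with
    | zero => simp
    | add z₁ z₂ h₁' h₂' =>
      rw [map_add, LinearMap.add_apply, h₁', h₂', ← Finset.sum_add_distrib]
      apply Finset.sum_congr rfl
      intro p _
      rw [map_add, map_add, LinearMap.add_apply]; ring
    | tmul u w =>
      induction z' using TensorProduct.induction_on with
      | zero => simp
      | add z₁ z₂ h₁' h₂' =>
        rw [map_add, h₁', h₂', ← Finset.sum_add_distrib]
        apply Finset.sum_congr rfl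
        intro p _
        rw [map_add, map_add]; ring
      | tmul u' w' =>
        rw [LinearMap.BilinForm.tensorDistrib_tmul, hB₂, smul_eq_mul, Finset.sum_mul]
        apply Finset.sum_congr rfl
        intro p _
        rw [hc, hc]
        simp only [map_smul, LinearMap.smul_apply, smul_eq_mul]
        ring
  let δ : U ⊗[F] W →ₗ[F] (Fin l → U) :=
    LinearMap.pi (fun i => c (some (i, 1)) - (φ i) ∘ₗ c (some (i, 0)))
  have hδ : ∀ z, z ∈ LinearMap.ker δ → ∀ i, c (some (i, 1)) z = φ i (c (some (i, 0)) z) := by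
    intro z hz i
    have h := congrFun (LinearMap.mem_ker.1 hz) i
    simpa [δ, sub_eq_zero] using h
  have hR1 : ∀ z ∈ LinearMap.ker δ, ∀ z' ∈ LinearMap.ker δ,
      (B₁.tmul B₂) z z' = b none * B₁ (c none z) (c none z') := by
    intro z hz z' hz'
    rw [hE, Fintype.sum_option, Fintype.sum_prod_type]
    simp only [Fin.sum_univ_two]
    rw [add_eq_left]
    apply Finset.sum_eq_zero
    intro i _
    rw [hδ z hz i, hδ z' hz' i, hφ]
    have hb1 := hb (some (i, 1))
    field_simp
    ring
  set P : Submodule F (U ⊗[F] W) := LinearMap.ker δ ⊓ LinearMap.ker (c none) with hP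
  have hfinT : finrank F (U ⊗[F] W) = 4 * (k * l) + 2 * k := by
    rw [Module.finrank_tensorProduct, hU, hW]; ring
  have hPdim : 2 * (k * l) ≤ finrank F P := by
    have hker : P = LinearMap.ker (δ.prod (c none)) := by rw [LinearMap.ker_prod]
    have h := finrank_ker_ge (δ.prod (c none))
    rw [← hker, Module.finrank_prod, Module.finrank_pi_fintype, hfinT] at h
    simp only [hU, Finset.sum_const, Finset.card_univ, Fintype.card_fin, smul_eq_mul] at h
    have e1 : l * (2 * k) = 2 * (k * l) := by ring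
    omega
  have hRdim : 2 * (k * l) + 2 * k ≤ finrank F (LinearMap.ker δ) := by
    have h := finrank_ker_ge δ
    rw [Module.finrank_pi_fintype, hfinT] at h
    simp only [hU, Finset.sum_const, Finset.card_univ, Fintype.card_fin, smul_eq_mul] at h
    have e1 : l * (2 * k) = 2 * (k * l) := by ring
    omega
  have hsymm : (B₁.tmul B₂).IsSymm :=
    LinearMap.IsSymm.tmul (LinearMap.BilinForm.isSymm_iff.1 hS₁)
      (LinearMap.BilinForm.isSymm_iff.1 hS₂)
  have hsl := sepLeft B₁ B₂ h₁ h₂
  have hnd : (B₁.tmul B₂).Nondegenerate :=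
    ⟨hsl, fun z hz => hsl z (fun w => by rw [← hsymm.eq]; exact hz w)⟩
  have hrefl : (B₁.tmul B₂).IsRefl := hsymm.isRefl
  set B : LinearMap.BilinForm F (U ⊗[F] W) := B₁.tmul B₂ with hBdef
  have hRle : LinearMap.ker δ ≤ B.orthogonal P := by
    intro z hz p hp
    show B p z = 0
    rw [hR1 p hp.1 z hz, LinearMap.mem_ker.1 hp.2]
    simp
  have hPorth := LinearMap.BilinForm.finrank_orthogonal hnd P
  have hPle : finrank F P ≤ finrank F (U ⊗[F] W) := Submodule.finrank_le P
  have hReq : LinearMap.ker δ = B.orthogonal P :=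
    Submodule.eq_of_le_of_finrank_le hRle (by rw [hPorth, hfinT]; omega)
  have hXle : X ≤ B.orthogonal X := fun x hx x' hx' => hXiso x' hx' x hx
  have horth : X ⊓ LinearMap.ker δ
      = B.orthogonal (B.orthogonal X ⊔ P) := by
    rw [orth_sup, LinearMap.BilinForm.orthogonal_orthogonal hnd hrefl, hReq]
  have hd1 := LinearMap.BilinForm.finrank_orthogonal hnd (B.orthogonal X ⊔ P)
  rw [← horth] at hd1
  have hd2 := Submodule.finrank_sup_add_finrank_inf_eq (B.orthogonal X) P
  have hd3 := LinearMap.BilinForm.finrank_orthogonal hnd X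
  have hd4 : finrank F (X ⊓ P : Submodule F (U ⊗[F] W))
      ≤ finrank F (B.orthogonal X ⊓ P : Submodule F (U ⊗[F] W)) :=
    Submodule.finrank_mono (inf_le_inf_right P hXle)
  have hd5 := finrank_map_add (c none) (X ⊓ LinearMap.ker δ)
  have hd6 : (X ⊓ LinearMap.ker δ) ⊓ LinearMap.ker (c none) = X ⊓ P := by
    rw [hP, inf_assoc]
  rw [hd6] at hd5
  have hd7 : finrank F (B.orthogonal X ⊔ P : Submodule F (U ⊗[F] W))
      ≤ finrank F (U ⊗[F] W) := Submodule.finrank_le _
  have hd8 : finrank F (LinearMap.ker δ) = finrank F (U ⊗[F] W) - finrank F P := by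
    rw [hReq, hPorth]
  have hXdim' : finrank F X = 2 * (k * l) + k := by rw [hXdim]; ring
  have hYdim : k ≤ finrank F ((X ⊓ LinearMap.ker δ).map (c none)) := by
    rw [hfinT] at hd1 hd3 hd7 hd8 hPle
    omega
  obtain ⟨Y', hY'le, hY'dim⟩ := exists_sub_finrank _ k hYdim
  apply hm₁
  refine ⟨Y', hY'dim, ?_⟩
  intro a ha a' ha'
  obtain ⟨z, hz, rfl⟩ := Submodule.mem_map.1 (hY'le ha)
  obtain ⟨z', hz', rfl⟩ := Submodule.mem_map.1 (hY'le ha')
  have h1 := hR1 z hz.2 z' hz'.2
  rw [hXiso z hz.1 z' hz'.1] at h1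
  have hbn := hb none
  rcases mul_eq_zero.1 h1.symm with h | h
  · exact absurd h hbn
  · exact h

end Cfsg.Agent.S0835
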