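import Cfsg.Statements.S0837
import Mathlib
import Cfsg.Agent.S0829

set_option autoImplicit false
open Cfsg

namespace Cfsg.Agent.S0837

open Cfsg.Agent.S0829
open scoped Matrix

section family
variable {F : Type*} [Field F] [Fintype F] {q : ℕ}

theorem exists_unit (hF : Fintype.card F = q ^ 2) (n : ℕ) (U : Submodule F (Fin n → F))
    (hnd : ∀ u ∈ U, (∀ v ∈ U, hermForm n F q u v = 0) → u = 0) (hU : U ≠ ⊥) :
    ∃ v ∈ U, hermForm n F q v v = 1 := by
  classical
  have hq := two_le_q hF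
  have h1 : ∃ u ∈ U, hermForm n F q u u ≠ 0 := by
    by_contra hcon
    push Not at hcon
    obtain ⟨u, huU, hu0⟩ := (Submodule.ne_bot_iff U).1 hU
    have : ∃ w ∈ U, hermForm n F q u w ≠ 0 := by
      by_contra h
      push Not at h
      exact hu0 (hnd u huU h)
    obtain ⟨w, hwU, hc⟩ := this
    have hμ : ∃ μ : F, μ ^ q + μ ≠ 0 := by
      by_contra h
      push Not at h
      have ht := trace_fiber hF (0 : F) (zero_pow (by omega))
      have : (Finset.univ.filter (fun μ : F => μ ^ q + μ = 0)) = Finset.univ := by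
        ext μ; simp [h μ]
      rw [this, Finset.card_univ, hF] at ht
      nlinarith
    obtain ⟨μ, hμ⟩ := hμ
    apply hμ
    have key := herm_norm_add_smul hF n u w (μ / (hermForm n F q u w) ^ q)
    rw [hcon _ (U.add_mem huU (U.smul_mem _ hwU)), hcon u huU, hcon w hwU] at key
    have hcq : (hermForm n F q u w) ^ q ≠ 0 := pow_ne_zero _ hc
    have e1 : (μ / (hermForm n F q u w) ^ q) ^ q * hermForm n F q u w = μ ^ q := by
      rw [div_pow, pow_qq hF]; field_simp
    have e2 : (μ / (hermForm n F q u w) ^ q) * (hermForm n F q u w) ^ q = μ := by field_simp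
    rw [e1, e2] at key
    linear_combination -key
  obtain ⟨u, huU, ha⟩ := h1
  have haq : (hermForm n F q u u) ^ q = hermForm n F q u u := (herm_conj hF n u u).symm
  have hinv : ((hermForm n F q u u)⁻¹) ^ q = (hermForm n F q u u)⁻¹ := by rw [inv_pow, haq]
  have hcard := norm_fiber hF (hermForm n F q u u)⁻¹ hinv (inv_ne_zero ha)
  have hne : (Finset.univ.filter (fun x : F => x ^ (q + 1) = (hermForm n F q u u)⁻¹)).Nonempty := by
    rw [← Finset.card_pos, hcard]; omega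
  obtain ⟨l, hl⟩ := hne
  simp only [Finset.mem_filter, Finset.mem_univ, true_and] at hl
  refine ⟨l • u, U.smul_mem _ huU, ?_⟩
  rw [herm_smul_left, herm_smul_right, ← mul_assoc, ← pow_succ', hl]
  exact inv_mul_cancel₀ ha

theorem exists_ON (hF : Fintype.card F = q ^ 2) (n : ℕ) :
    ∀ (d : ℕ) (U : Submodule F (Fin n → F)), Module.finrank F U = d →
      (∀ u ∈ U, (∀ v ∈ U, hermForm n F q u v = 0) → u = 0) →
      ∃ (e : ℕ) (b : Fin e → (Fin n → F)),
        (∀ i j, hermForm n F q (b i) (b j) = if i = j then 1 else 0) ∧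
        ∀ u, u ∈ U ↔ ∃ x : Fin e → F, u = ∑ i, x i • b i := by
  intro d
  induction d using Nat.strong_induction_on with
  | _ d ih =>
    intro U hd hnd
    by_cases hU : U = ⊥
    · subst hU
      refine ⟨0, fun i => i.elim0, fun i => i.elim0, fun u => ?_⟩
      simp
    · obtain ⟨v, hvU, hv1⟩ := exists_unit hF n U hnd hU
      have hlt : U ⊓ LinearMap.ker (hermL n q v) < U := by
        refine lt_of_le_of_ne inf_le_left (fun h => ?_)
        have : v ∈ U ⊓ LinearMap.ker (hermL n q v) := by rw [h]; exact hvU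
        have h0 := (Submodule.mem_inf.1 this).2
        rw [LinearMap.mem_ker, hermL_apply, hv1] at h0
        exact one_ne_zero h0
      have hlt' := Submodule.finrank_lt_finrank_of_lt hlt
      rw [hd] at hlt'
      have hnd₁ : ∀ u ∈ U ⊓ LinearMap.ker (hermL n q v),
          (∀ w ∈ U ⊓ LinearMap.ker (hermL n q v), hermForm n F q u w = 0) → u = 0 := by
        intro u hu hu'
        obtain ⟨huU, huv⟩ := Submodule.mem_inf.1 hu
        rw [LinearMap.mem_ker, hermL_apply] at huv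
        apply hnd u huU
        intro z hz
        have hz' : z + (-hermForm n F q z v) • v ∈ U ⊓ LinearMap.ker (hermL n q v) := by
          refine Submodule.mem_inf.2 ⟨U.add_mem hz (U.smul_mem _ hvU), ?_⟩
          rw [LinearMap.mem_ker, hermL_apply, herm_add_smul_left, hv1]
          ring
        have := hu' _ hz'
        rw [herm_add_smul_right hF, huv, mul_zero, add_zero] at this
        exact this
      obtain ⟨e, b, hb, hspan⟩ := ih _ hlt' _ rfl hnd₁
      have hbmem : ∀ j, b j ∈ U ⊓ LinearMap.ker (hermL n q v) := by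
        intro j
        classical
        refine (hspan _).2 ⟨Pi.single j 1, ?_⟩
        rw [Finset.sum_eq_single j]
        · simp
        · intro i _ hij
          simp [Pi.single_eq_of_ne hij]
        · simp
      have hbv : ∀ j, hermForm n F q (b j) v = 0 := by
        intro j
        have := (Submodule.mem_inf.1 (hbmem j)).2
        rwa [LinearMap.mem_ker, hermL_apply] at this
      refine ⟨e + 1, Fin.cons v b, ?_, ?_⟩
      · intro i j
        refine Fin.cases ?_ (fun i' => ?_) i <;> refine Fin.cases ?_ (fun j' => ?_) j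
        · simp [hv1]
        · simp only [Fin.cons_zero, Fin.cons_succ]
          rw [herm_conj hF n (b j') v, hbv, zero_pow (by have := two_le_q hF; omega)]
          simp [Fin.succ_ne_zero, eq_comm]
        · simp only [Fin.cons_zero, Fin.cons_succ]
          rw [hbv]
          simp [Fin.succ_ne_zero]
        · simp only [Fin.cons_succ]
          rw [hb]
          simp [Fin.succ_inj]
      · intro u
        constructor
        · intro hu
          have hu' : u + (-hermForm n F q u v) • v ∈ U ⊓ LinearMap.ker (hermL n q v) := by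
            refine Submodule.mem_inf.2 ⟨U.add_mem hu (U.smul_mem _ hvU), ?_⟩
            rw [LinearMap.mem_ker, hermL_apply, herm_add_smul_left, hv1]
            ring
          obtain ⟨x₁, hx₁⟩ := (hspan _).1 hu'
          refine ⟨Fin.cons (hermForm n F q u v) x₁, ?_⟩
          rw [Fin.sum_univ_succ]
          simp only [Fin.cons_zero, Fin.cons_succ]
          rw [← hx₁]
          module
        · rintro ⟨x, rfl⟩
          rw [Fin.sum_univ_succ]
          simp only [Fin.cons_zero, Fin.cons_succ]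
          apply U.add_mem (U.smul_mem _ hvU)
          exact (inf_le_left : U ⊓ LinearMap.ker (hermL n q v) ≤ U)
            ((hspan _).2 ⟨fun i => x i.succ, rfl⟩)

end family

section starring
variable {F : Type*} [Field F] [Fintype F] [StarRing F] {q : ℕ}

omit [Fintype F] in
theorem herm_eq (hs : ∀ x : F, star x = x ^ q) (n : ℕ) (u v : Fin n → F) :
    hermForm n F q u v = u ⬝ᵥ star v := by
  simp [hermForm, dotProduct, hs]

omit [Fintype F] in
theorem herm_mulVec_right (hs : ∀ x : F, star x = x ^ q) (n k : ℕ) (u : Fin n → F)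
    (M : Matrix (Fin n) (Fin k) F) (y : Fin k → F) :
    hermForm n F q u (M *ᵥ y) = hermForm k F q (Mᴴ *ᵥ u) y := by
  rw [herm_eq hs, herm_eq hs, Matrix.star_mulVec, dotProduct_comm, ← Matrix.dotProduct_mulVec,
    dotProduct_comm]

omit [Fintype F] in
theorem mat_eq_zero {a b : ℕ} (M : Matrix (Fin a) (Fin b) F) (h : ∀ x, M *ᵥ x = 0) : M = 0 := by
  have : Matrix.toLin' M = 0 := LinearMap.ext (fun x => by simpa using h x)
  simpa using this

omit [Fintype F] in
theorem mat_eq {a b : ℕ} (M N : Matrix (Fin a) (Fin b) F) (h : ∀ x, M *ᵥ x = N *ᵥ x) :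
    M = N := by
  apply Matrix.toLin'.injective
  exact LinearMap.ext (fun x => by simpa using h x)

omit [Fintype F] in
theorem mem_GU_iff (hs : ∀ x : F, star x = x ^ q) (n : ℕ)
    (g : Matrix.GeneralLinearGroup (Fin n) F) :
    g ∈ GU n F q ↔ (g.val)ᴴ * g.val = 1 := by
  constructor
  · intro hg
    ext i j
    have := hg (Pi.single j 1) (Pi.single i 1)
    simp only [Units.coeHom_apply] at this
    rw [herm_eq hs, herm_eq hs, Matrix.mulVec_single_one, Matrix.mulVec_single_one] at this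
    rw [Matrix.mul_apply, Matrix.one_apply]
    simp only [Matrix.conjTranspose_apply]
    have e1 : (g.val.col j) ⬝ᵥ star (g.val.col i) = ∑ a, star (g.val a i) * g.val a j := by
      simp [dotProduct, Matrix.col, mul_comm]
    have e2 : (Pi.single j (1 : F) : Fin n → F) ⬝ᵥ star (Pi.single i (1 : F) : Fin n → F) =
        if i = j then 1 else 0 := by
      simp only [dotProduct, Pi.single_apply, Pi.star_apply]
      rw [Finset.sum_eq_single j]
      · by_cases hij : i = j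
        · subst hij; simp
        · have hji : ¬ j = i := fun h => hij h.symm
          simp [hij, hji]
      · intro b _ hb
        simp [hb]
      · simp
    rw [← e1, this, e2]
  · intro hg u v
    simp only [Units.coeHom_apply]
    rw [herm_eq hs, herm_eq hs, Matrix.star_mulVec, dotProduct_comm, ← Matrix.dotProduct_mulVec,
      Matrix.mulVec_mulVec, hg, Matrix.one_mulVec, dotProduct_comm]

def uGL {k : ℕ} (A : Matrix (Fin k) (Fin k) F) (h : Aᴴ * A = 1) :
    Matrix.GeneralLinearGroup (Fin k) F :=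
  ⟨A, Aᴴ, mul_eq_one_comm.1 h, h⟩

@[simp] theorem uGL_val {k : ℕ} (A : Matrix (Fin k) (Fin k) F) (h : Aᴴ * A = 1) :
    (uGL A h).val = A := rfl

theorem uGL_mem (hs : ∀ x : F, star x = x ^ q) {k : ℕ} (A : Matrix (Fin k) (Fin k) F)
    (h : Aᴴ * A = 1) : uGL A h ∈ GU k F q := (mem_GU_iff hs k _).2 h

section frame
variable {n k m : ℕ} {P : Matrix (Fin n) (Fin k) F} {Q : Matrix (Fin n) (Fin m) F}

omit [Fintype F] in
theorem F1 (hPP : Pᴴ * P = 1) (hcomp : P * Pᴴ + Q * Qᴴ = 1) (g : Matrix (Fin n) (Fin n) F)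
    (hg : gᴴ * g = 1) (h1 : Qᴴ * g * P = 0) : (Pᴴ * g * P)ᴴ * (Pᴴ * g * P) = 1 := by
  have e : P * Pᴴ = 1 - Q * Qᴴ := eq_sub_of_add_eq hcomp
  calc (Pᴴ * g * P)ᴴ * (Pᴴ * g * P) = Pᴴ * gᴴ * (P * Pᴴ) * (g * P) := by
        simp only [Matrix.conjTranspose_mul, Matrix.conjTranspose_conjTranspose, Matrix.mul_assoc]
    _ = Pᴴ * (gᴴ * g) * P - Pᴴ * gᴴ * Q * (Qᴴ * g * P) := by
        rw [e]
        simp only [Matrix.mul_sub, Matrix.sub_mul, Matrix.mul_one, Matrix.mul_assoc]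
    _ = 1 := by rw [hg, h1, Matrix.mul_one, hPP, Matrix.mul_zero, sub_zero]

omit [Fintype F] in
theorem F2 (hcomp : P * Pᴴ + Q * Qᴴ = 1) (g g' : Matrix (Fin n) (Fin n) F)
    (h1 : Qᴴ * g' * P = 0) : Pᴴ * (g * g') * P = (Pᴴ * g * P) * (Pᴴ * g' * P) := by
  have e : P * Pᴴ = 1 - Q * Qᴴ := eq_sub_of_add_eq hcomp
  symm
  calc (Pᴴ * g * P) * (Pᴴ * g' * P) = Pᴴ * g * (P * Pᴴ) * (g' * P) := by
        simp only [Matrix.mul_assoc]
    _ = Pᴴ * (g * g') * P - Pᴴ * g * Q * (Qᴴ * g' * P) := by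
        rw [e]
        simp only [Matrix.mul_sub, Matrix.sub_mul, Matrix.mul_one, Matrix.mul_assoc]
    _ = Pᴴ * (g * g') * P := by rw [h1, Matrix.mul_zero, sub_zero]

omit [Fintype F] in
theorem F3 (hcomp : P * Pᴴ + Q * Qᴴ = 1) (g : Matrix (Fin n) (Fin n) F)
    (h1 : Qᴴ * g * P = 0) (h2 : Pᴴ * g * Q = 0) :
    P * (Pᴴ * g * P) * Pᴴ + Q * (Qᴴ * g * Q) * Qᴴ = g := by
  have h1' : Q * (Qᴴ * (g * (P * Pᴴ))) = 0 := by
    rw [← Matrix.mul_assoc g, ← Matrix.mul_assoc Qᴴ, ← Matrix.mul_assoc Qᴴ, h1]; simp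
  have h2' : P * (Pᴴ * (g * (Q * Qᴴ))) = 0 := by
    rw [← Matrix.mul_assoc g, ← Matrix.mul_assoc Pᴴ, ← Matrix.mul_assoc Pᴴ, h2]; simp
  symm
  calc g = (P * Pᴴ + Q * Qᴴ) * g * (P * Pᴴ + Q * Qᴴ) := by rw [hcomp, one_mul, mul_one]
    _ = P * (Pᴴ * g * P) * Pᴴ + Q * (Qᴴ * g * Q) * Qᴴ := by
        simp only [Matrix.add_mul, Matrix.mul_add, Matrix.mul_assoc]
        rw [h1', h2']
        simp

omit [Fintype F] in
theorem F4 (hPP : Pᴴ * P = 1) (hQQ : Qᴴ * Q = 1) (hPQ : Pᴴ * Q = 0) (hQP : Qᴴ * P = 0)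
    (hcomp : P * Pᴴ + Q * Qᴴ = 1) (A : Matrix (Fin k) (Fin k) F) (D : Matrix (Fin m) (Fin m) F)
    (hA : Aᴴ * A = 1) (hD : Dᴴ * D = 1) :
    (P * A * Pᴴ + Q * D * Qᴴ)ᴴ * (P * A * Pᴴ + Q * D * Qᴴ) = 1 := by
  have e1 : (P * Aᴴ * Pᴴ) * (P * A * Pᴴ) = P * Pᴴ := by
    calc (P * Aᴴ * Pᴴ) * (P * A * Pᴴ) = P * Aᴴ * (Pᴴ * P) * A * Pᴴ := by
          simp only [Matrix.mul_assoc]
      _ = P * (Aᴴ * A) * Pᴴ := by rw [hPP, Matrix.mul_one]; simp only [Matrix.mul_assoc]
      _ = P * Pᴴ := by rw [hA, Matrix.mul_one]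
  have e2 : (Q * Dᴴ * Qᴴ) * (Q * D * Qᴴ) = Q * Qᴴ := by
    calc (Q * Dᴴ * Qᴴ) * (Q * D * Qᴴ) = Q * Dᴴ * (Qᴴ * Q) * D * Qᴴ := by
          simp only [Matrix.mul_assoc]
      _ = Q * (Dᴴ * D) * Qᴴ := by rw [hQQ, Matrix.mul_one]; simp only [Matrix.mul_assoc]
      _ = Q * Qᴴ := by rw [hD, Matrix.mul_one]
  have e3 : (P * Aᴴ * Pᴴ) * (Q * D * Qᴴ) = 0 := by
    calc (P * Aᴴ * Pᴴ) * (Q * D * Qᴴ) = P * Aᴴ * (Pᴴ * Q) * D * Qᴴ := by
          simp only [Matrix.mul_assoc]
      _ = 0 := by rw [hPQ]; simp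
  have e4 : (Q * Dᴴ * Qᴴ) * (P * A * Pᴴ) = 0 := by
    calc (Q * Dᴴ * Qᴴ) * (P * A * Pᴴ) = Q * Dᴴ * (Qᴴ * P) * A * Pᴴ := by
          simp only [Matrix.mul_assoc]
      _ = 0 := by rw [hQP]; simp
  have e5 : (P * A * Pᴴ + Q * D * Qᴴ)ᴴ = P * Aᴴ * Pᴴ + Q * Dᴴ * Qᴴ := by
    simp only [Matrix.conjTranspose_add, Matrix.conjTranspose_mul,
      Matrix.conjTranspose_conjTranspose, Matrix.mul_assoc]
  rw [e5, Matrix.add_mul, Matrix.mul_add, Matrix.mul_add, e1, e2, e3, e4, add_zero, zero_add,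
    hcomp]

omit [Fintype F] in
theorem F5 (hQQ : Qᴴ * Q = 1) (hQP : Qᴴ * P = 0)
    (A : Matrix (Fin k) (Fin k) F) (D : Matrix (Fin m) (Fin m) F) :
    Qᴴ * (P * A * Pᴴ + Q * D * Qᴴ) * P = 0 := by
  calc Qᴴ * (P * A * Pᴴ + Q * D * Qᴴ) * P
      = (Qᴴ * P) * A * Pᴴ * P + Qᴴ * Q * D * (Qᴴ * P) := by
        simp only [Matrix.add_mul, Matrix.mul_add, Matrix.mul_assoc]
    _ = 0 := by rw [hQP]; simp

omit [Fintype F] in
theorem F6 (hPP : Pᴴ * P = 1) (hPQ : Pᴴ * Q = 0)
    (A : Matrix (Fin k) (Fin k) F) (D : Matrix (Fin m) (Fin m) F) :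
    Pᴴ * (P * A * Pᴴ + Q * D * Qᴴ) * P = A := by
  calc Pᴴ * (P * A * Pᴴ + Q * D * Qᴴ) * P
      = (Pᴴ * P) * A * (Pᴴ * P) + (Pᴴ * Q) * D * Qᴴ * P := by
        simp only [Matrix.add_mul, Matrix.mul_add, Matrix.mul_assoc]
    _ = A := by rw [hPP, hPQ]; simp

omit [Fintype F] in
theorem stab_char (hPP : Pᴴ * P = 1) (hQQ : Qᴴ * Q = 1) (hQP : Qᴴ * P = 0)
    (hcomp : P * Pᴴ + Q * Qᴴ = 1) (g : Matrix (Fin n) (Fin n) F) (hg : gᴴ * g = 1) :
    (∀ v : Fin n → F, Qᴴ *ᵥ v = 0 ↔ Qᴴ *ᵥ (g *ᵥ v) = 0) ↔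
      (Qᴴ * g * P = 0 ∧ Pᴴ * g * Q = 0) := by
  have hg' : g * gᴴ = 1 := mul_eq_one_comm.1 hg
  have hsplit : ∀ v : Fin n → F, v = P *ᵥ (Pᴴ *ᵥ v) + Q *ᵥ (Qᴴ *ᵥ v) := by
    intro v
    rw [Matrix.mulVec_mulVec, Matrix.mulVec_mulVec, ← Matrix.add_mulVec, hcomp,
      Matrix.one_mulVec]
  constructor
  · intro h
    have c1 : Qᴴ * g * P = 0 := by
      apply mat_eq_zero
      intro x
      rw [← Matrix.mulVec_mulVec, ← Matrix.mulVec_mulVec]
      apply (h _).1
      rw [Matrix.mulVec_mulVec, hQP, Matrix.zero_mulVec]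
    refine ⟨c1, ?_⟩
    have c2 : Qᴴ * gᴴ * P = 0 := by
      apply mat_eq_zero
      intro x
      rw [← Matrix.mulVec_mulVec, ← Matrix.mulVec_mulVec]
      apply (h _).2
      rw [Matrix.mulVec_mulVec _ g gᴴ, hg', Matrix.one_mulVec, Matrix.mulVec_mulVec, hQP,
        Matrix.zero_mulVec]
    have := congrArg Matrix.conjTranspose c2
    simpa only [Matrix.conjTranspose_mul, Matrix.conjTranspose_conjTranspose,
      Matrix.conjTranspose_zero, Matrix.mul_assoc] using this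
  · rintro ⟨c1, c2⟩ v
    have hD : (Qᴴ * g * Q)ᴴ * (Qᴴ * g * Q) = 1 :=
      F1 hQQ (by rw [add_comm]; exact hcomp) g hg c2
    have t : ∀ (c : ℕ) (R : Matrix (Fin n) (Fin c) F) (w : Fin c → F),
        Qᴴ *ᵥ (g *ᵥ (R *ᵥ w)) = (Qᴴ * g * R) *ᵥ w := by
      intro c R w
      rw [Matrix.mulVec_mulVec, Matrix.mulVec_mulVec]
    have key : Qᴴ *ᵥ (g *ᵥ v) = (Qᴴ * g * Q) *ᵥ (Qᴴ *ᵥ v) := by
      conv_lhs => rw [hsplit v]
      rw [Matrix.mulVec_add, Matrix.mulVec_add, t, t, c1, Matrix.zero_mulVec, zero_add]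
    constructor
    · intro hv
      rw [key, hv, Matrix.mulVec_zero]
    · intro hv
      rw [key] at hv
      have h3 : (Qᴴ * g * Q)ᴴ *ᵥ ((Qᴴ * g * Q) *ᵥ (Qᴴ *ᵥ v)) = (Qᴴ * g * Q)ᴴ *ᵥ 0 := by
        rw [hv]
      rw [Matrix.mulVec_mulVec _ (Qᴴ * g * Q)ᴴ (Qᴴ * g * Q), hD, Matrix.one_mulVec,
        Matrix.mulVec_zero] at h3
      exact h3

end frame

theorem stab_iso (hs : ∀ x : F, star x = x ^ q) (n k m : ℕ) (P : Matrix (Fin n) (Fin k) F)
    (Q : Matrix (Fin n) (Fin m) F) (hPP : Pᴴ * P = 1) (hQQ : Qᴴ * Q = 1) (hPQ : Pᴴ * Q = 0)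
    (hcomp : P * Pᴴ + Q * Qᴴ = 1) (W : Set (Fin n → F)) (hW : ∀ v, v ∈ W ↔ Qᴴ *ᵥ v = 0) :
    Nonempty (↥((stabilizing (glToMat (Fin n) F) W).subgroupOf (GU n F q)) ≃*
      ↥(GU k F q) × ↥(GU m F q)) := by
  have hQP : Qᴴ * P = 0 := by
    have := congrArg Matrix.conjTranspose hPQ
    simpa only [Matrix.conjTranspose_mul, Matrix.conjTranspose_conjTranspose,
      Matrix.conjTranspose_zero] using this
  have hcomp' : Q * Qᴴ + P * Pᴴ = 1 := by rw [add_comm]; exact hcomp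
  have hU : ∀ x : ↥((stabilizing (glToMat (Fin n) F) W).subgroupOf (GU n F q)),
      (x.1.1.val)ᴴ * x.1.1.val = 1 := fun x => (mem_GU_iff hs n _).1 x.1.2
  have hS : ∀ x : ↥((stabilizing (glToMat (Fin n) F) W).subgroupOf (GU n F q)),
      Qᴴ * x.1.1.val * P = 0 ∧ Pᴴ * x.1.1.val * Q = 0 := by
    intro x
    apply (stab_char hPP hQQ hQP hcomp _ (hU x)).1
    intro v
    have := Subgroup.mem_subgroupOf.1 x.2 v
    rw [hW, hW] at this
    exact this
  have hA : ∀ x : ↥((stabilizing (glToMat (Fin n) F) W).subgroupOf (GU n F q)),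
      (Pᴴ * x.1.1.val * P)ᴴ * (Pᴴ * x.1.1.val * P) = 1 :=
    fun x => F1 hPP hcomp _ (hU x) (hS x).1
  have hD : ∀ x : ↥((stabilizing (glToMat (Fin n) F) W).subgroupOf (GU n F q)),
      (Qᴴ * x.1.1.val * Q)ᴴ * (Qᴴ * x.1.1.val * Q) = 1 :=
    fun x => F1 hQQ hcomp' _ (hU x) (hS x).2
  have hG : ∀ y : ↥(GU k F q) × ↥(GU m F q),
      (P * y.1.1.val * Pᴴ + Q * y.2.1.val * Qᴴ)ᴴ * (P * y.1.1.val * Pᴴ + Q * y.2.1.val * Qᴴ) = 1 :=
    fun y => F4 hPP hQQ hPQ hQP hcomp _ _ ((mem_GU_iff hs k _).1 y.1.2)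
      ((mem_GU_iff hs m _).1 y.2.2)
  have hG' : ∀ y : ↥(GU k F q) × ↥(GU m F q),
      (⟨uGL _ (hG y), uGL_mem hs _ (hG y)⟩ : ↥(GU n F q)) ∈
        (stabilizing (glToMat (Fin n) F) W).subgroupOf (GU n F q) := by
    intro y
    rw [Subgroup.mem_subgroupOf]
    intro v
    rw [hW, hW]
    exact (stab_char hPP hQQ hQP hcomp _ (hG y)).2
      ⟨F5 hQQ hQP _ _, by
        have := F5 (P := Q) (Q := P) hPP hPQ y.2.1.val y.1.1.val
        rw [add_comm] at this
        exact this⟩ v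
  exact ⟨{
    toFun := fun x => (⟨uGL _ (hA x), uGL_mem hs _ (hA x)⟩, ⟨uGL _ (hD x), uGL_mem hs _ (hD x)⟩)
    invFun := fun y => ⟨⟨uGL _ (hG y), uGL_mem hs _ (hG y)⟩, hG' y⟩
    left_inv := by
      intro x
      apply Subtype.ext
      apply Subtype.ext
      apply Units.ext
      exact F3 hcomp _ (hS x).1 (hS x).2
    right_inv := by
      intro y
      apply Prod.ext
      · apply Subtype.ext
        apply Units.ext
        exact F6 hPP hPQ _ _
      · apply Subtype.ext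
        apply Units.ext
        have := F6 (P := Q) (Q := P) hQQ hQP y.2.1.val y.1.1.val
        rw [add_comm] at this
        exact this
    map_mul' := by
      intro x x'
      apply Prod.ext
      · apply Subtype.ext
        apply Units.ext
        exact F2 hcomp _ _ (hS x').1
      · apply Subtype.ext
        apply Units.ext
        exact F2 hcomp' _ _ (hS x').2 }⟩

theorem exists_ON_matrix (hF : Fintype.card F = q ^ 2) (hs : ∀ x : F, star x = x ^ q) (n : ℕ)
    (U : Submodule F (Fin n → F))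
    (hnd : ∀ u ∈ U, (∀ v ∈ U, hermForm n F q u v = 0) → u = 0) :
    ∃ (d : ℕ) (M : Matrix (Fin n) (Fin d) F), Mᴴ * M = 1 ∧ ∀ u, u ∈ U ↔ ∃ x, u = M *ᵥ x := by
  obtain ⟨d, b, hb, hspan⟩ := exists_ON hF n _ U rfl hnd
  refine ⟨d, Matrix.of (fun a j => b j a), ?_, ?_⟩
  · ext i j
    rw [Matrix.mul_apply, Matrix.one_apply]
    simp only [Matrix.conjTranspose_apply, Matrix.of_apply]
    have := hb j i
    rw [hermForm] at this
    rw [show (if i = j then (1 : F) else 0) = if j = i then 1 else 0 from by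
      simp only [eq_comm], ← this]
    refine Finset.sum_congr rfl (fun a _ => ?_)
    rw [hs, mul_comm]
  · intro u
    rw [hspan u]
    constructor
    · rintro ⟨x, rfl⟩
      refine ⟨x, ?_⟩
      ext a
      simp [Matrix.mulVec, dotProduct, mul_comm]
    · rintro ⟨x, rfl⟩
      refine ⟨x, ?_⟩
      ext a
      simp [Matrix.mulVec, dotProduct, mul_comm]

theorem main (hF : Fintype.card F = q ^ 2) (hs : ∀ x : F, star x = x ^ q) (n k : ℕ)
    (W : Submodule F (Fin n → F)) (hWk : Module.finrank F W = k)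
    (hW : ∀ u ∈ W, (∀ v ∈ W, hermForm n F q u v = 0) → u = 0) :
    Nonempty (↥((stabilizing (glToMat (Fin n) F) (W : Set (Fin n → F))).subgroupOf (GU n F q)) ≃*
      ↥(GU k F q) × ↥(GU (n - k) F q)) := by
  classical
  obtain ⟨d, P, hPP, hPW⟩ := exists_ON_matrix hF hs n W hW
  have hd : d = k := by
    rw [← hWk]
    have hinj : Function.Injective P.mulVecLin := by
      intro x y hxy
      have := congrArg (fun v => Pᴴ *ᵥ v) hxy
      simpa [Matrix.mulVec_mulVec, hPP] using this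
    have hrange : LinearMap.range P.mulVecLin = W := by
      ext u
      rw [hPW u, LinearMap.mem_range]
      constructor
      · rintro ⟨x, rfl⟩; exact ⟨x, rfl⟩
      · rintro ⟨x, rfl⟩; exact ⟨x, rfl⟩
    rw [← hrange, LinearMap.finrank_range_of_inj hinj, Module.finrank_fin_fun]
  subst hd
  have hnd' : ∀ u ∈ LinearMap.ker (Pᴴ).mulVecLin,
      (∀ v ∈ LinearMap.ker (Pᴴ).mulVecLin, hermForm n F q u v = 0) → u = 0 := by
    intro u hu hu'
    rw [LinearMap.mem_ker, Matrix.mulVecLin_apply] at hu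
    have hz : ∀ z : Fin n → F, hermForm n F q u z = 0 := by
      intro z
      have hz' : z + (-1 : F) • (P *ᵥ (Pᴴ *ᵥ z)) ∈ LinearMap.ker (Pᴴ).mulVecLin := by
        rw [LinearMap.mem_ker, Matrix.mulVecLin_apply, Matrix.mulVec_add, Matrix.mulVec_smul,
          Matrix.mulVec_mulVec, hPP, Matrix.one_mulVec]
        simp
      have := hu' _ hz'
      rw [herm_add_smul_right hF, herm_mulVec_right hs, hu] at this
      simpa [hermForm] using this
    funext i
    have := hz (Pi.single i 1)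
    rw [hermForm, Finset.sum_eq_single i] at this
    · simpa using this
    · intro j _ hj
      have hq := two_le_q hF
      simp [Pi.single_eq_of_ne hj]
      omega
    · simp
  obtain ⟨m, Q, hQQ, hQW⟩ := exists_ON_matrix hF hs n _ hnd'
  have hPQ : Pᴴ * Q = 0 := by
    apply mat_eq_zero
    intro x
    have := (hQW (Q *ᵥ x)).2 ⟨x, rfl⟩
    rw [LinearMap.mem_ker, Matrix.mulVecLin_apply, Matrix.mulVec_mulVec] at this
    exact this
  have hQP : Qᴴ * P = 0 := by
    have := congrArg Matrix.conjTranspose hPQ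
    simpa only [Matrix.conjTranspose_mul, Matrix.conjTranspose_conjTranspose,
      Matrix.conjTranspose_zero] using this
  have hcomp : P * Pᴴ + Q * Qᴴ = 1 := by
    apply mat_eq
    intro v
    have hv' : v + (-1 : F) • (P *ᵥ (Pᴴ *ᵥ v)) ∈ LinearMap.ker (Pᴴ).mulVecLin := by
      rw [LinearMap.mem_ker, Matrix.mulVecLin_apply, Matrix.mulVec_add, Matrix.mulVec_smul,
        Matrix.mulVec_mulVec, hPP, Matrix.one_mulVec]
      simp
    obtain ⟨y, hy⟩ := (hQW _).1 hv'
    have hy' : Qᴴ *ᵥ v = y := by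
      have h0 : Qᴴ * (P * Pᴴ) = 0 := by rw [← Matrix.mul_assoc, hQP, Matrix.zero_mul]
      have := congrArg (fun w => Qᴴ *ᵥ w) hy
      simp only [Matrix.mulVec_add, Matrix.mulVec_smul, Matrix.mulVec_mulVec, h0, hQQ,
        Matrix.zero_mulVec, Matrix.one_mulVec, smul_zero, add_zero] at this
      exact this
    rw [Matrix.add_mulVec, ← Matrix.mulVec_mulVec, ← Matrix.mulVec_mulVec, hy', ← hy,
      Matrix.one_mulVec]
    module
  have hm : m = n - d := by
    have h1 := LinearMap.finrank_range_add_finrank_ker (Pᴴ).mulVecLin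
    have hsurj : LinearMap.range (Pᴴ).mulVecLin = ⊤ := by
      rw [LinearMap.range_eq_top]
      intro x
      refine ⟨P *ᵥ x, ?_⟩
      rw [Matrix.mulVecLin_apply, Matrix.mulVec_mulVec, hPP, Matrix.one_mulVec]
    have hinj : Function.Injective Q.mulVecLin := by
      intro x y hxy
      have := congrArg (fun v => Qᴴ *ᵥ v) hxy
      simpa [Matrix.mulVec_mulVec, hQQ] using this
    have hrange : LinearMap.range Q.mulVecLin = LinearMap.ker (Pᴴ).mulVecLin := by
      ext u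
      rw [hQW u, LinearMap.mem_range]
      constructor
      · rintro ⟨x, rfl⟩; exact ⟨x, rfl⟩
      · rintro ⟨x, rfl⟩; exact ⟨x, rfl⟩
    rw [hsurj, finrank_top, ← hrange, LinearMap.finrank_range_of_inj hinj, Module.finrank_fin_fun,
      Module.finrank_fin_fun, Module.finrank_fin_fun] at h1
    omega
  subst hm
  refine stab_iso hs n d (n - d) P Q hPP hQQ hPQ hcomp (W : Set (Fin n → F)) (fun v => ?_)
  rw [SetLike.mem_coe, hPW]
  constructor
  · rintro ⟨x, rfl⟩
    rw [Matrix.mulVec_mulVec, hQP, Matrix.zero_mulVec]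
  · intro hv
    refine ⟨Pᴴ *ᵥ v, ?_⟩
    have : v = (P * Pᴴ + Q * Qᴴ) *ᵥ v := by rw [hcomp, Matrix.one_mulVec]
    rw [Matrix.add_mulVec, ← Matrix.mulVec_mulVec, ← Matrix.mulVec_mulVec, hv,
      Matrix.mulVec_zero, add_zero] at this
    exact this

end starring

/-- If W ≤ F^n (|F| = q²) is a k-dimensional subspace on which the Hermitian form Σ x_i y_i^q is non-degenerate, then the stabiliser of W in GU_n(q) is isomorphic to GU_k(q) × GU_(n−k)(q). -/
theorem result {F : Type*} [Field F] [Fintype F] {q : ℕ} (hF : Fintype.card F = q ^ 2) (n k : ℕ) (hk : k ≤ n) (W : Submodule F (Fin n → F)) (hWk : Module.finrank F W = k) (hW : ∀ u ∈ W, (∀ v ∈ W, Cfsg.hermForm n F q u v = 0) → u = 0) : Nonempty (↥((Cfsg.stabilizing (Cfsg.glToMat (Fin n) F) (W : Set (Fin n → F))).subgroupOf (Cfsg.GU n F q)) ≃* ↥(Cfsg.GU k F q) × ↥(Cfsg.GU (n - k) F q)) := by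
  obtain ⟨φ, hφ⟩ := exists_frob hF
  letI : StarRing F :=
    { star := fun x => x ^ q
      star_involutive := pow_qq hF
      star_mul := fun x y => by rw [mul_pow, mul_comm]
      star_add := fun x y => by rw [← hφ, map_add, hφ, hφ] }
  exact main hF (fun x => rfl) n k W hWk hW

end Cfsg.Agent.S0837
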