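import Cfsg.Statements.S0838
-- import your own Cfsg.Agent.* helpers here

set_option autoImplicit false
open Cfsg

namespace Cfsg.Agent.S0838

section diag

variable {F : Type*} [Field F] {ι : Type*} [Fintype ι] [DecidableEq ι]

/-- equivalence of diagonal quadratic forms on `ι → F` -/
def Eqv (w w' : ι → F) : Prop :=
  ∃ g : (ι → F) ≃ₗ[F] (ι → F), ∀ v : ι → F, ∑ k, w k * (g v k) ^ 2 = ∑ k, w' k * (v k) ^ 2

theorem Eqv.refl (w : ι → F) : Eqv w w := ⟨LinearEquiv.refl F _, fun _ => rfl⟩

theorem Eqv.trans {w w' w'' : ι → F} (h1 : Eqv w w') (h2 : Eqv w' w'') : Eqv w w'' := by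
  obtain ⟨g1, hg1⟩ := h1
  obtain ⟨g2, hg2⟩ := h2
  refine ⟨g2.trans g1, fun v => ?_⟩
  rw [← hg2 v, ← hg1 (g2 v)]
  rfl

/-- the binary step: `⟨a, b⟩ ≅ ⟨1, ab⟩` when `a x² + b y² = 1` -/
theorem eqv_bin (w : ι → F) {i j : ι} (hij : i ≠ j) {x y : F}
    (hxy : w i * x ^ 2 + w j * y ^ 2 = 1) :
    Eqv w (Function.update (Function.update w i 1) j (w i * w j)) := by
  have hji : j ≠ i := hij.symm
  let g : (ι → F) ≃ₗ[F] (ι → F) :=
    { toFun := fun v k => if k = i then x * v i - w j * y * v j
        else if k = j then y * v i + w i * x * v j else v k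
      invFun := fun v k => if k = i then w i * x * v i + w j * y * v j
        else if k = j then -y * v i + x * v j else v k
      map_add' := by
        intro u v
        funext k
        by_cases hki : k = i
        · simp only [hki, if_true, Pi.add_apply]; ring
        · by_cases hkj : k = j
          · simp only [hkj, hji, if_false, if_true, Pi.add_apply]; ring
          · simp only [hki, hkj, if_false, Pi.add_apply]
      map_smul' := by
        intro c v
        funext k
        by_cases hki : k = i
        · simp only [hki, if_true, Pi.smul_apply, smul_eq_mul, RingHom.id_apply]; ring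
        · by_cases hkj : k = j
          · simp only [hkj, hji, if_false, if_true, Pi.smul_apply, smul_eq_mul, RingHom.id_apply]
            ring
          · simp only [hki, hkj, if_false, Pi.smul_apply, smul_eq_mul, RingHom.id_apply]
      left_inv := by
        intro v
        funext k
        by_cases hki : k = i
        · simp only [hki, if_true, hji, if_false]
          linear_combination (v i) * hxy
        · by_cases hkj : k = j
          · simp only [hkj, hji, if_false, if_true]
            linear_combination (v j) * hxy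
          · simp only [hki, hkj, if_false]
      right_inv := by
        intro v
        funext k
        by_cases hki : k = i
        · simp only [hki, if_true, hji, if_false]
          linear_combination (v i) * hxy
        · by_cases hkj : k = j
          · simp only [hkj, hji, if_false, if_true]
            linear_combination (v j) * hxy
          · simp only [hki, hkj, if_false] }
  refine ⟨g, fun v => ?_⟩
  have hmem : j ∈ (Finset.univ : Finset ι).erase i := Finset.mem_erase.mpr ⟨hji, Finset.mem_univ j⟩
  rw [← Finset.add_sum_erase Finset.univ _ (Finset.mem_univ i),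
    ← Finset.add_sum_erase _ _ hmem,
    ← Finset.add_sum_erase Finset.univ (fun k =>
      Function.update (Function.update w i 1) j (w i * w j) k * v k ^ 2) (Finset.mem_univ i),
    ← Finset.add_sum_erase _ (fun k =>
      Function.update (Function.update w i 1) j (w i * w j) k * v k ^ 2) hmem]
  have hrest : ∑ k ∈ ((Finset.univ : Finset ι).erase i).erase j, w k * (g v k) ^ 2 =
      ∑ k ∈ ((Finset.univ : Finset ι).erase i).erase j,
        Function.update (Function.update w i 1) j (w i * w j) k * v k ^ 2 := by
    apply Finset.sum_congr rfl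
    intro k hk
    have hkj : k ≠ j := (Finset.mem_erase.mp hk).1
    have hki : k ≠ i := (Finset.mem_erase.mp (Finset.mem_erase.mp hk).2).1
    have h1 : g v k = v k := by
      show (if k = i then x * v i - w j * y * v j
        else if k = j then y * v i + w i * x * v j else v k) = v k
      simp only [hki, hkj, if_false]
    rw [h1, Function.update_of_ne hkj, Function.update_of_ne hki]
  rw [hrest]
  have hgi : g v i = x * v i - w j * y * v j := by
    show (if i = i then x * v i - w j * y * v j
        else if i = j then y * v i + w i * x * v j else v i) = _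
    simp only [if_true]
  have hgj : g v j = y * v i + w i * x * v j := by
    show (if j = i then x * v i - w j * y * v j
        else if j = j then y * v i + w i * x * v j else v j) = _
    simp only [hji, if_false, if_true]
  rw [hgi, hgj, Function.update_self, Function.update_of_ne hij, Function.update_self]
  linear_combination (v i ^ 2 + w i * w j * v j ^ 2) * hxy

theorem exists_rep [Fintype F] (h2 : (2 : F) ≠ 0) {a b : F} (ha : a ≠ 0) (hb : b ≠ 0) :
    ∃ x y : F, a * x ^ 2 + b * y ^ 2 = 1 := by
  have hchar : ringChar F ≠ 2 := by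
    intro h
    apply h2
    have h3 : ((ringChar F : ℕ) : F) = 0 := ringChar.Nat.cast_ringChar
    rw [h] at h3
    exact_mod_cast h3
  have hodd := FiniteField.odd_card_of_char_ne_two hchar
  have hf : (Polynomial.C a * Polynomial.X ^ 2 : Polynomial F).degree = 2 :=
    Polynomial.degree_C_mul_X_pow 2 ha
  have hg : (Polynomial.C b * Polynomial.X ^ 2 - 1 : Polynomial F).degree = 2 := by
    rw [Polynomial.degree_sub_eq_left_of_degree_lt]
    · exact Polynomial.degree_C_mul_X_pow 2 hb
    · rw [Polynomial.degree_C_mul_X_pow 2 hb, Polynomial.degree_one]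
      norm_num
  obtain ⟨x, y, hxy⟩ := FiniteField.exists_root_sum_quadratic hf hg hodd
  refine ⟨x, y, ?_⟩
  simp only [Polynomial.eval_mul, Polynomial.eval_C, Polynomial.eval_pow, Polynomial.eval_X,
    Polynomial.eval_sub, Polynomial.eval_one] at hxy
  linear_combination hxy

/-- normal form: every diagonal form with nonzero weights is `⟨1, …, 1, d⟩` -/
theorem eqv_normal [Fintype F] (h2 : (2 : F) ≠ 0) (w : ι → F) (hw : ∀ k, w k ≠ 0) (j : ι) :
    ∃ d : F, d ≠ 0 ∧ Eqv w (fun k => if k = j then d else 1) := by
  have key : ∀ s : Finset ι, j ∉ s → ∃ d : F, d ≠ 0 ∧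
      Eqv w (fun k => if k ∈ s then 1 else if k = j then d else w k) := by
    intro s
    induction s using Finset.induction_on with
    | empty =>
      intro _
      refine ⟨w j, hw j, ?_⟩
      have : (fun k => if k ∈ (∅ : Finset ι) then (1 : F) else if k = j then w j else w k) = w := by
        funext k
        by_cases hk : k = j
        · simp [hk]
        · simp [hk]
      rw [this]
      exact Eqv.refl w
    | insert i s hi ih =>
      intro hj
      have hji : j ≠ i := fun h => hj (h ▸ Finset.mem_insert_self i s)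
      have hjs : j ∉ s := fun h => hj (Finset.mem_insert_of_mem h)
      obtain ⟨d', hd', he⟩ := ih hjs
      set W : ι → F := fun k => if k ∈ s then 1 else if k = j then d' else w k with hW
      have hWi : W i = w i := by simp [hW, hi, hji.symm]
      have hWj : W j = d' := by simp [hW, hjs]
      obtain ⟨x, y, hxy⟩ := exists_rep h2 (hw i) hd'
      have hb := eqv_bin W hji.symm (x := x) (y := y) (by rw [hWi, hWj]; exact hxy)
      refine ⟨w i * d', mul_ne_zero (hw i) hd', ?_⟩
      have : (fun k => if k ∈ insert i s then (1 : F) else if k = j then w i * d' else w k) =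
          Function.update (Function.update W i 1) j (W i * W j) := by
        funext k
        by_cases hkj : k = j
        · subst hkj
          rw [Function.update_self, hWi, hWj]
          simp [hj]
        · rw [Function.update_of_ne hkj]
          by_cases hki : k = i
          · subst hki
            rw [Function.update_self]
            simp
          · rw [Function.update_of_ne hki]
            by_cases hks : k ∈ s
            · simp [hW, hks]
            · simp [hW, hks, hki, hkj]
      rw [this]
      exact he.trans hb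
  obtain ⟨d, hd, he⟩ := key (Finset.univ.erase j) (by simp)
  refine ⟨d, hd, ?_⟩
  have : (fun k => if k = j then d else (1 : F)) =
      (fun k => if k ∈ (Finset.univ : Finset ι).erase j then 1 else if k = j then d else w k) := by
    funext k
    by_cases hk : k = j
    · simp [hk]
    · simp [hk]
  rw [this]
  exact he

/-- rescaling the last weight by a square -/
theorem eqv_sq (j : ι) (d : F) {s : F} (hs : s ≠ 0) :
    Eqv (fun k => if k = j then d * s ^ 2 else 1) (fun k => if k = j then d else 1) := by
  have hc : ∀ k : ι, (if k = j then s⁻¹ else (1 : F)) ≠ 0 := by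
    intro k
    by_cases hk : k = j
    · simp [hk, hs]
    · simp [hk]
  refine ⟨LinearEquiv.piCongrRight (fun k => LinearEquiv.smulOfNeZero F F _ (hc k)), fun v => ?_⟩
  apply Finset.sum_congr rfl
  intro k _
  have h1 : (LinearEquiv.piCongrRight (fun k => LinearEquiv.smulOfNeZero F F _ (hc k))) v k =
      (if k = j then s⁻¹ else (1 : F)) * v k := rfl
  rw [h1]
  by_cases hk : k = j
  · simp only [hk, if_true]
    field_simp
  · simp only [hk, if_false, one_mul]

/-- the discriminant of a diagonal form -/
theorem discr_diag [Invertible (2 : F)] (Q : QuadraticForm F (ι → F)) (w : ι → F)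
    (hQ : ∀ v, Q v = ∑ k, w k * (v k) ^ 2) : Q.discr' = ∏ k, w k := by
  have hM : Q.toMatrix' = Matrix.diagonal w := by
    ext a b
    rw [QuadraticForm.toMatrix', LinearMap.toMatrix₂'_apply]
    have e2 : ∀ c k, w k * ((Pi.single c (1 : F) : ι → F) k) ^ 2 = if k = c then w c else 0 := by
      intro c k
      by_cases hk : k = c
      · subst hk; simp
      · simp [hk]
    by_cases hab : a = b
    · subst hab
      rw [Matrix.diagonal_apply_eq, QuadraticMap.associated_eq_self_apply, hQ]
      simp only [e2, Finset.sum_ite_eq', Finset.mem_univ, if_true]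
    · rw [Matrix.diagonal_apply_ne _ hab, QuadraticMap.associated_apply, hQ, hQ, hQ]
      have e1 : ∀ k, w k * ((Pi.single a (1 : F) + Pi.single b (1 : F) : ι → F) k) ^ 2 =
          (if k = a then w a else 0) + (if k = b then w b else 0) := by
        intro k
        by_cases hk : k = a
        · subst hk; simp [hab]
        · by_cases hk' : k = b
          · subst hk'; simp [hk]
          · simp [hk, hk']
      simp only [e1, e2, Finset.sum_add_distrib, Finset.sum_ite_eq', Finset.mem_univ, if_true]
      rw [show w a + w b - w a - w b = 0 by ring, smul_zero]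
  rw [QuadraticForm.discr', hM, Matrix.det_diagonal]

end diag

/-- diagonalisation of a nondegenerate quadratic form on `Fin n → F` -/
theorem exists_diag {F : Type*} [Field F] (h2 : (2 : F) ≠ 0) {n : ℕ}
    (Q : QuadraticForm F (Fin n → F)) (hQ : (QuadraticMap.polarBilin Q).Nondegenerate) :
    ∃ w : Fin n → F, (∀ i, w i ≠ 0) ∧ ∃ g : (Fin n → F) ≃ₗ[F] (Fin n → F),
      ∀ v, Q (g v) = ∑ k, w k * (v k) ^ 2 := by
  have : Invertible (2 : F) := invertibleOfNonzero h2
  have hsep : (QuadraticMap.associated (R := F) Q).SeparatingLeft := by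
    intro x hx
    apply hQ.1 x
    intro y
    have h := QuadraticMap.two_nsmul_associated F Q
    rw [← h, LinearMap.smul_apply, LinearMap.smul_apply]
    have hx' := hx y
    rw [show (QuadraticMap.associatedHom F) Q = QuadraticMap.associated (R := F) Q from rfl, hx',
      smul_zero]
  obtain ⟨w, ⟨e⟩⟩ := QuadraticForm.equivalent_weightedSumSquares_units_of_nondegenerate' Q hsep
  have hn : Module.finrank F (Fin n → F) = n := Module.finrank_fin_fun F
  let σ : Fin n ≃ Fin (Module.finrank F (Fin n → F)) := finCongr hn.symm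
  refine ⟨fun k => (w (σ k) : F), fun k => (w (σ k)).ne_zero, ?_⟩
  refine ⟨(LinearEquiv.funCongrLeft F F σ.symm).trans e.toLinearEquiv.symm, fun v => ?_⟩
  have h1 := e.map_app (e.toLinearEquiv.symm ((LinearEquiv.funCongrLeft F F σ.symm) v))
  have h3 : e (e.toLinearEquiv.symm ((LinearEquiv.funCongrLeft F F σ.symm) v)) =
      (LinearEquiv.funCongrLeft F F σ.symm) v :=
    e.toLinearEquiv.apply_symm_apply _
  rw [h3] at h1
  have h4 : ((LinearEquiv.funCongrLeft F F σ.symm).trans e.toLinearEquiv.symm) v =
      e.toLinearEquiv.symm ((LinearEquiv.funCongrLeft F F σ.symm) v) := rfl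
  rw [h4, ← h1, QuadraticMap.weightedSumSquares_apply]
  rw [← Equiv.sum_comp σ]
  apply Finset.sum_congr rfl
  intro k _
  have h5 : (LinearEquiv.funCongrLeft F F σ.symm) v (σ k) = v k := by
    show v (σ.symm (σ k)) = v k
    rw [Equiv.symm_apply_apply]
  rw [h5, Units.smul_def, smul_eq_mul, pow_two]

/-- Over a finite field with 2 ≠ 0 and n odd: two quadratic forms Q₁, Q₂ on F^n with non-degenerate polar forms are similar — there are an invertible linear map g and a scalar c ≠ 0 with Q₂ (g v) = c · Q₁ v for all v. -/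
theorem result {F : Type*} [Field F] [Fintype F] (h2 : (2 : F) ≠ 0) {n : ℕ} (hn : Odd n) (Q₁ Q₂ : QuadraticForm F (Fin n → F)) (h₁ : (QuadraticMap.polarBilin Q₁).Nondegenerate) (h₂ : (QuadraticMap.polarBilin Q₂).Nondegenerate) : ∃ (g : (Fin n → F) ≃ₗ[F] (Fin n → F)) (c : F), c ≠ 0 ∧ ∀ v, Q₂ (g v) = c * Q₁ v := by
  classical
  have : Invertible (2 : F) := invertibleOfNonzero h2
  obtain ⟨k, hk⟩ := hn
  have hnpos : 0 < n := by omega
  let j : Fin n := ⟨0, hnpos⟩
  obtain ⟨w₁, hw₁, g₁, hg₁⟩ := exists_diag h2 Q₁ h₁
  obtain ⟨w₂, hw₂, g₂, hg₂⟩ := exists_diag h2 Q₂ h₂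
  obtain ⟨d₁, hd₁, f₁, hf₁⟩ := eqv_normal h2 w₁ hw₁ j
  obtain ⟨d₂, hd₂, f₂, hf₂⟩ := eqv_normal h2 w₂ hw₂ j
  -- the diagonalised first form
  let D₁ : QuadraticForm F (Fin n → F) :=
    Q₁.comp ((f₁.trans g₁ : (Fin n → F) ≃ₗ[F] (Fin n → F)) : (Fin n → F) →ₗ[F] (Fin n → F))
  have hD₁ : ∀ v, D₁ v = ∑ i, (if i = j then d₁ else 1) * (v i) ^ 2 := by
    intro v
    show Q₁ (g₁ (f₁ v)) = _
    rw [hg₁, hf₁]
  have hdisc₁ : D₁.discr' = d₁ := by
    rw [discr_diag D₁ _ hD₁, Finset.prod_ite_eq' Finset.univ j]
    simp
  set c : F := d₂ / d₁ with hc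
  have hc0 : c ≠ 0 := div_ne_zero hd₂ hd₁
  have hcw : ∀ i, c * (if i = j then d₁ else 1) ≠ 0 := by
    intro i
    by_cases hi : i = j
    · simp [hi, hc0, hd₁]
    · simp [hi, hc0]
  obtain ⟨d₃, hd₃, f₃, hf₃⟩ := eqv_normal h2 (fun i => c * (if i = j then d₁ else 1)) hcw j
  let D₃ : QuadraticForm F (Fin n → F) :=
    (c • D₁).comp ((f₃ : (Fin n → F) ≃ₗ[F] (Fin n → F)) : (Fin n → F) →ₗ[F] (Fin n → F))
  have hD₃ : ∀ v, D₃ v = ∑ i, (if i = j then d₃ else 1) * (v i) ^ 2 := by
    intro v
    show c • D₁ (f₃ v) = _
    rw [hD₁, ← hf₃, smul_eq_mul, Finset.mul_sum]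
    apply Finset.sum_congr rfl
    intro i _
    ring
  have hdisc₃ : D₃.discr' = d₃ := by
    rw [discr_diag D₃ _ hD₃, Finset.prod_ite_eq' Finset.univ j]
    simp
  have hdisc₃' : D₃.discr' =
      (LinearMap.toMatrix' (f₃ : (Fin n → F) →ₗ[F] (Fin n → F))).det *
      (LinearMap.toMatrix' (f₃ : (Fin n → F) →ₗ[F] (Fin n → F))).det * (c ^ n * d₁) := by
    show QuadraticForm.discr' ((c • D₁).comp _) = _
    rw [QuadraticForm.discr'_comp, QuadraticForm.discr'_smul, hdisc₁, Fintype.card_fin]
  set δ := (LinearMap.toMatrix' (f₃ : (Fin n → F) →ₗ[F] (Fin n → F))).det with hδ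
  have hd₃eq : d₃ = d₂ * (δ * c ^ k) ^ 2 := by
    have hd₂' : d₂ = c * d₁ := by rw [hc, div_mul_cancel₀ _ hd₁]
    rw [← hdisc₃, hdisc₃', hk, hd₂']
    ring
  have hs : δ * c ^ k ≠ 0 := by
    intro h
    rw [h] at hd₃eq
    apply hd₃
    rw [hd₃eq]
    ring
  obtain ⟨f₄, hf₄⟩ := eqv_sq j d₂ hs
  -- assemble
  let G : (Fin n → F) ≃ₗ[F] (Fin n → F) := ((f₄.trans f₃).trans f₁).trans g₁
  have hG : ∀ v, c * Q₁ (G v) = Q₂ (g₂ (f₂ v)) := by
    intro v
    have e1 : c * Q₁ (G v) = D₃ (f₄ v) := rfl
    rw [e1, hD₃, hd₃eq, hf₄, hg₂, hf₂]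
  refine ⟨G.symm.trans (f₂.trans g₂), c, hc0, fun v => ?_⟩
  have h := hG (G.symm v)
  rw [LinearEquiv.apply_symm_apply] at h
  rw [h]
  rfl

end Cfsg.Agent.S0838
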