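import Cfsg.Statements.S0839
import Mathlib
import Cfsg.Agent.S0440

set_option autoImplicit false
open Cfsg

namespace Cfsg.Agent.S0839

open Matrix

/-- a matrix of determinant one whose row `0` is a prescribed vector with nonzero entry `0`,
normalised. -/
theorem exists_row_aux {F : Type*} [Field F] (n : ℕ) (c : Fin (n + 2) → F) (hc : c 0 ≠ 0) :
    ∃ h : Matrix.SpecialLinearGroup (Fin (n + 2)) F,
      Matrix.vecMul (Pi.single 0 1) (h : Matrix (Fin (n + 2)) (Fin (n + 2)) F) = (c 0)⁻¹ • c := by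
  refine ⟨⟨1 + vecMulVec (Pi.single 0 1) ((c 0)⁻¹ • c - Pi.single 0 1), ?_⟩, ?_⟩
  · rw [vecMulVec_eq (ι := Unit), det_one_add_replicateCol_mul_replicateRow]
    simp [hc]
  · show Matrix.vecMul (Pi.single 0 1) (1 + vecMulVec (Pi.single 0 1) ((c 0)⁻¹ • c - Pi.single 0 1)) = _
    rw [Matrix.vecMul_add, Matrix.vecMul_one, Matrix.vecMul_vecMulVec]
    simp

theorem exists_row {F : Type*} [Field F] (n : ℕ) (b : Fin (n + 2) → F) (hb : b ≠ 0) :
    ∃ (h : Matrix.SpecialLinearGroup (Fin (n + 2)) F) (μ : F), μ ≠ 0 ∧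
      Matrix.vecMul (Pi.single 0 1) (h : Matrix (Fin (n + 2)) (Fin (n + 2)) F) = μ • b := by
  by_cases h0 : b 0 = 0
  · obtain ⟨k, hk⟩ : ∃ k, b k ≠ 0 := by
      by_contra hcon
      push Not at hcon
      exact hb (funext hcon)
    have hk0 : k ≠ 0 := fun h => hk (h ▸ h0)
    let s : Matrix.SpecialLinearGroup (Fin (n + 2)) F := Matrix.SpecialLinearGroup.transvection hk0 1
    let c : Fin (n + 2) → F := Matrix.vecMul b (s : Matrix (Fin (n + 2)) (Fin (n + 2)) F)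
    have hc0 : c 0 = b k := by
      show Matrix.vecMul b ((1 : Matrix (Fin (n + 2)) (Fin (n + 2)) F) + Matrix.single k 0 1) 0 = b k
      rw [Matrix.vecMul_add, Matrix.vecMul_one]
      simp [Matrix.vecMul, dotProduct, Matrix.single_apply, h0]
    obtain ⟨h', hh'⟩ := exists_row_aux n c (by rw [hc0]; exact hk)
    refine ⟨h' * s⁻¹, (c 0)⁻¹, inv_ne_zero (by rw [hc0]; exact hk), ?_⟩
    rw [Matrix.SpecialLinearGroup.coe_mul, ← Matrix.vecMul_vecMul, hh', Matrix.smul_vecMul]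
    congr 1
    show Matrix.vecMul (Matrix.vecMul b (s : Matrix (Fin (n + 2)) (Fin (n + 2)) F))
      ((s⁻¹ : Matrix.SpecialLinearGroup (Fin (n + 2)) F) : Matrix (Fin (n + 2)) (Fin (n + 2)) F) = b
    rw [Matrix.vecMul_vecMul, ← Matrix.SpecialLinearGroup.coe_mul, mul_inv_cancel,
      Matrix.SpecialLinearGroup.coe_one, Matrix.vecMul_one]
  · obtain ⟨h, hh⟩ := exists_row_aux n b h0
    exact ⟨h, (b 0)⁻¹, inv_ne_zero h0, hh⟩


/-- Every transvection t ∈ SL_(n+2)(F) is conjugate in SL_(n+2)(F) to 1 + v·e_0ᵀ with v_0 = 0. -/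
theorem result {F : Type*} [Field F] (n : ℕ) (t : Matrix.SpecialLinearGroup (Fin (n + 2)) F) (ht : Cfsg.IsTransvection (t : Matrix (Fin (n + 2)) (Fin (n + 2)) F)) : ∃ (g : Matrix.SpecialLinearGroup (Fin (n + 2)) F) (v : Fin (n + 2) → F), v 0 = 0 ∧ ((g⁻¹ * t * g : Matrix.SpecialLinearGroup (Fin (n + 2)) F) : Matrix (Fin (n + 2)) (Fin (n + 2)) F) = 1 + Matrix.vecMulVec v (Pi.single 0 1) := by
  obtain ⟨hrank, hsq⟩ := ht
  obtain ⟨a, b, ha, hb, hab⟩ := Cfsg.Agent.S0440.exists_vecMulVec_of_rank_eq_one _ hrank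
  have ht' : (t : Matrix (Fin (n + 2)) (Fin (n + 2)) F) = 1 + vecMulVec a b := by
    rw [← hab]; abel
  have hba : b ⬝ᵥ a = 0 := by
    rw [hab] at hsq
    obtain ⟨i, hi⟩ : ∃ i, a i ≠ 0 := by
      by_contra hcon
      push Not at hcon
      exact ha (funext hcon)
    obtain ⟨j, hj⟩ : ∃ j, b j ≠ 0 := by
      by_contra hcon
      push Not at hcon
      exact hb (funext hcon)
    have h1 := congrFun (congrFun hsq i) j
    rw [Matrix.mul_apply] at h1
    simp only [vecMulVec_apply, Matrix.zero_apply] at h1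
    have h2 : ∑ x, a i * b x * (a x * b j) = (a i * b j) * (b ⬝ᵥ a) := by
      rw [dotProduct, Finset.mul_sum]
      apply Finset.sum_congr rfl
      intro x _
      ring
    rw [h2] at h1
    exact (mul_eq_zero.1 h1).resolve_left (mul_ne_zero hi hj)
  obtain ⟨h, μ, hμ, hrow⟩ := exists_row n b hb
  refine ⟨h⁻¹, μ⁻¹ • ((h : Matrix (Fin (n + 2)) (Fin (n + 2)) F) *ᵥ a), ?_, ?_⟩
  · have h1 : ((h : Matrix (Fin (n + 2)) (Fin (n + 2)) F) *ᵥ a) 0 =
        (Matrix.vecMul (Pi.single 0 1) (h : Matrix (Fin (n + 2)) (Fin (n + 2)) F)) ⬝ᵥ a := by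
      rw [← Matrix.dotProduct_mulVec, single_dotProduct, one_mul]
    rw [Pi.smul_apply, h1, hrow, smul_dotProduct, hba]
    simp
  · have hb' : Matrix.vecMul b ((h⁻¹ : Matrix.SpecialLinearGroup (Fin (n + 2)) F) :
        Matrix (Fin (n + 2)) (Fin (n + 2)) F) = μ⁻¹ • Pi.single 0 1 := by
      have h1 : b = μ⁻¹ • Matrix.vecMul (Pi.single 0 1) (h : Matrix (Fin (n + 2)) (Fin (n + 2)) F) := by
        rw [hrow, smul_smul, inv_mul_cancel₀ hμ, one_smul]
      conv_lhs => rw [h1]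
      rw [Matrix.smul_vecMul, Matrix.vecMul_vecMul, ← Matrix.SpecialLinearGroup.coe_mul,
        mul_inv_cancel, Matrix.SpecialLinearGroup.coe_one, Matrix.vecMul_one]
    rw [inv_inv, Matrix.SpecialLinearGroup.coe_mul, Matrix.SpecialLinearGroup.coe_mul, ht',
      Matrix.mul_add, Matrix.add_mul, Matrix.mul_one, ← Matrix.SpecialLinearGroup.coe_mul,
      mul_inv_cancel, Matrix.SpecialLinearGroup.coe_one, Matrix.mul_vecMulVec,
      Matrix.vecMulVec_mul, hb']
    congr 1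
    ext i j
    simp [vecMulVec_apply]
    ring

end Cfsg.Agent.S0839
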