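import Cfsg.Statements.S0845
import Cfsg.Agent.Lib.Helper20.BS
import Cfsg.Agent.Lib.Helper20.Homog

set_option autoImplicit false
open Cfsg

namespace Cfsg.Agent.S0845

/-- Suppose a Sylow 2-subgroup S of the finite group G is generalized quaternion of order at least 16. Then G has a normal subgroup M of even order such that G / M is non-abelian, that is, M does not contain the commutator subgroup of G. -/
theorem result {G : Type*} [Group G] [Finite G] (S : Sylow 2 G) (n : ℕ) (e : (S : Subgroup G) ≃* QuaternionGroup (2 ^ (n + 2))) : ∃ M : Subgroup G, M.Normal ∧ Even (Nat.card M) ∧ ¬ commutator G ≤ M := by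
  classical
  let _ : Fintype G := Fintype.ofFinite G
  obtain ⟨χ₁, χ₂, h₁, h₂, h₁1, h₂1, hdeg, hE, -, hinv⟩ :=
    Cfsg.Agent.Lib.Helper20.exists_exceptional S n e
  obtain ⟨a₁, -, -, -, -, hcardS, -⟩ := Cfsg.Agent.Lib.Helper31.Quat.setup S n e
  have h2 : 2 ∣ Nat.card G := by
    have h1 : Nat.card (S : Subgroup G) ∣ Nat.card G := Subgroup.card_subgroup_dvd_card _
    rw [hcardS] at h1
    exact dvd_trans (dvd_pow_self 2 (by omega)) h1
  haveI : Fact (Nat.Prime 2) := ⟨Nat.prime_two⟩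
  obtain ⟨t, ht⟩ := exists_prime_orderOf_dvd_card' (G := G) 2 h2
  have key : ∀ χ : G → ℂ, IsIrrCharacter G χ → χ 1 ≠ 1 → χ t = χ 1 →
      ∃ M : Subgroup G, M.Normal ∧ Even (Nat.card M) ∧ ¬ commutator G ≤ M := by
    intro χ hχ hdeg1 hχt
    obtain ⟨K, hKn, hK⟩ := Cfsg.Agent.Lib.Helper83.exists_ker hχ
    refine ⟨K, hKn, ?_, ?_⟩
    · have htK : t ∈ K := (hK t).mpr hχt
      have h3 : orderOf (⟨t, htK⟩ : K) = 2 := by
        rw [← Subgroup.orderOf_coe]
        exact ht
      have h4 := orderOf_dvd_natCard (⟨t, htK⟩ : K)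
      rw [h3] at h4
      exact even_iff_two_dvd.mpr h4
    · intro hle
      apply hdeg1
      obtain ⟨ψ, hψ, hψeq⟩ := Cfsg.Agent.Lib.Helper83.irr_deflate (commutator G) hχ
        (fun x hx => (hK x).mp (hle hx))
      rw [← hψeq 1]
      exact Cfsg.Agent.Lib.Helper83.irr_comm_degree (A := Abelianization G) hψ
  by_cases h : χ₂ 1 = 1
  · apply key χ₁ h₁ _ (hinv t ht).1
    rw [hdeg, h]
    norm_num
  · exact key χ₂ h₂ h (hinv t ht).2

end Cfsg.Agent.S0845
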