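import Cfsg.Statements.S0852
import Cfsg.Agent.Lib.Helper20.Tifn
import Cfsg.Agent.S0850

set_option autoImplicit false
open Cfsg

namespace Cfsg.Agent.S0852

/-- Let K be a subgroup of the finite group G that meets each conjugate by an element outside its normalizer N trivially, is properly contained in N, and contains the centralizer of each of its non-identity elements (a T.I. subgroup with Frobenius normalizer). Let S be the set of irreducible characters of N taking at some element of K a value different from their degree, suppose S has at least two members, and let star be a linear isometry on the integer span of S into the generalized characters of G that agrees with induction on the members vanishing at the identity (so S is coherent, with star as the extending isometry). Then an irreducible character ψ of G is of the form star χ or -star χ for some χ in S if and only if ψ is not constant on the non-identity elements of K. -/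
theorem result {G : Type*} [Group G] [Fintype G] (K : Subgroup G) (hTI : ∀ g : G, g ∉ Subgroup.normalizer (K : Set G) → ∀ k ∈ K, g * k * g⁻¹ ∈ K → k = 1) (hlt : K < Subgroup.normalizer (K : Set G)) (hC : ∀ k ∈ K, k ≠ 1 → Subgroup.centralizer ({k} : Set G) ≤ K) [Fintype ↥(Subgroup.normalizer (K : Set G))] (S : Set (↥(Subgroup.normalizer (K : Set G)) → ℂ)) (hS : S = {χ : ↥(Subgroup.normalizer (K : Set G)) → ℂ | Cfsg.IsIrrCharacter ↥(Subgroup.normalizer (K : Set G)) χ ∧ ∃ k : ↥(Subgroup.normalizer (K : Set G)), (k : G) ∈ K ∧ χ k ≠ χ 1}) (htwo : ∃ χ ∈ S, ∃ ξ ∈ S, χ ≠ ξ) (star : (↥(Subgroup.normalizer (K : Set G)) → ℂ) → (G → ℂ)) (hstar : Cfsg.IsLinearIsometryOn (Cfsg.zspan S) star) (hext : ∀ α ∈ Cfsg.zspanOn S ({1}ᶜ : Set ↥(Subgroup.normalizer (K : Set G))), star α = Cfsg.indFun (Subgroup.normalizer (K : Set G)) α) (ψ : G → ℂ) (hψ : Cfsg.IsIrrCharacter G ψ) : (∃ χ ∈ S, ψ = star χ ∨ ψ = -star χ) ↔ ∃ a ∈ K, ∃ b ∈ K, a ≠ 1 ∧ b ≠ 1 ∧ ψ a ≠ ψ b := by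
  classical
  have T : Cfsg.Agent.Lib.Helper20.Tifn K (Subgroup.normalizer (K : Set G)) S star :=
    { hMn := Subgroup.normal_in_normalizer
      hC := hC
      hind := (Cfsg.Agent.S0850.result K hTI hlt hC).2
      hS := hS
      hstar := hstar
      hext := hext }
  have hKN : K ≤ Subgroup.normalizer (K : Set G) := hlt.le
  constructor
  · rintro ⟨χ, hχ, hψχ⟩
    obtain ⟨ξ, hξ, hne⟩ : ∃ ξ ∈ S, χ ≠ ξ := by
      obtain ⟨χ₁, h₁, χ₂, h₂, h12⟩ := htwo
      by_cases h : χ = χ₁
      · exact ⟨χ₂, h₂, by rw [h]; exact h12⟩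
      · exact ⟨χ₁, h₁, h⟩
    obtain ⟨a, b, ha, ha1, hb, hb1, hab⟩ := T.nonconst χ ξ hχ hξ hne
    obtain ⟨v, hv⟩ := T.exists_value χ hχ a ha ha1
    have e1 := hv a ha ha1
    have e2 := hv b hb hb1
    have hne' : star χ (a : G) ≠ star χ (b : G) := by
      intro h
      apply hab
      linear_combination h - e1 + e2
    refine ⟨(a : G), ha, (b : G), hb, fun h => ha1 (Subtype.ext h), fun h => hb1 (Subtype.ext h),
      ?_⟩
    rcases hψχ with h | h
    · rw [h]
      exact hne'
    · rw [h]
      simp only [Pi.neg_apply]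
      exact fun h' => hne' (neg_injective h')
  · rintro ⟨a, ha, b, hb, ha1, hb1, hab⟩
    by_contra hcon
    push Not at hcon
    apply hab
    have horth : ∀ χ ∈ S, classInner ψ (star χ) = 0 := by
      intro χ hχ
      have hz := Cfsg.Agent.Lib.Helper36.subset_zspan S hχ
      have hnorm : classInner (star χ) (star χ) = 1 := by
        rw [T.hstar.2.2.1 χ hz χ hz]
        exact (Cfsg.Agent.Lib.Helper35.classInner_irr' (T.irr χ hχ) (T.irr χ hχ)).trans (if_pos rfl)
      obtain ⟨μ, hμ, hμ'⟩ := Cfsg.Agent.Lib.Helper36.gen_norm_one (T.hstar.2.2.2 χ hz) hnorm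
      have hψμ : ψ ≠ μ := by
        intro h
        rcases hμ' with h' | h'
        · exact (hcon χ hχ).1 (by rw [h', h])
        · exact (hcon χ hχ).2 (by rw [h', neg_neg, h])
      have h0 : classInner ψ μ = 0 := by
        rw [Cfsg.Agent.Lib.Helper35.classInner_irr' hψ hμ, if_neg hψμ]
      rcases hμ' with h' | h'
      · rw [h', h0]
      · rw [h', Cfsg.Agent.Lib.Helper35.classInner_neg_right, h0, neg_zero]
    exact T.const_of_orth ψ (Cfsg.Agent.Lib.Helper35.isChar_of_irr hψ) horth ⟨a, hKN ha⟩
      ⟨b, hKN hb⟩ ha (fun h => ha1 (congrArg Subtype.val h)) hb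
      (fun h => hb1 (congrArg Subtype.val h))

end Cfsg.Agent.S0852
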