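import Mathlib
import Cfsg.Statements.S0855
import Cfsg.Agent.Lib.Helper20.Ito
import Cfsg.Agent.Lib.Helper83.Ortho
import Cfsg.Agent.Lib.Helper83.LinearCount
import Cfsg.Agent.Lib.Helper83.Codeg
import Cfsg.Agent.Lib.Helper4.CharLinear

set_option autoImplicit false
open Cfsg

namespace Cfsg.Agent.S0855

open Cfsg.Agent.Lib Cfsg.Agent.Lib.Helper20
open scoped commutatorElement

universe u

/-- an irreducible character of a normal subgroup has degree dividing the degree of some
irreducible character of the whole group -/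
theorem exists_over {G : Type u} [Group G] [Fintype G] (M : Subgroup G) [M.Normal] (θ : M → ℂ)
    (hθ : IsIrrCharacter M θ) :
    ∃ χ : G → ℂ, IsIrrCharacter G χ ∧ charDegree θ ∣ charDegree χ := by
  classical
  let _ : Fintype M := Fintype.ofFinite _
  have := Helper4.irr_finite (G := G)
  let _ : Fintype (IrrCharacter G) := Fintype.ofFinite _
  have hchar := Helper35.isCharacter_indFun M (Helper35.isChar_of_irr hθ)
  obtain ⟨b, hb⟩ := Helper4.exists_decomp_of_isCharacter (indFun M θ) hchar
  have h1 : indFun M θ 1 ≠ 0 := by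
    rw [Helper35.indFun_one_eq]
    apply mul_ne_zero
    · exact_mod_cast (Subgroup.index_ne_zero_of_finite (H := M))
    · exact Helper83.irr_one_ne_zero hθ
  have h2 : ∃ χ : IrrCharacter G, b χ ≠ 0 := by
    by_contra hcon
    push Not at hcon
    apply h1
    have h3 := congrFun hb 1
    simp only [hcon, Nat.cast_zero, zero_smul, Finset.sum_const_zero, Pi.zero_apply] at h3
    exact h3
  obtain ⟨χ, hχ⟩ := h2
  refine ⟨(χ : G → ℂ), χ.2, ?_⟩
  have hcf : IsClassFunction G (χ : G → ℂ) :=
    Helper35.isClassFunction_of_isCharacter (Helper35.isChar_of_irr χ.2)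
  have h4 : classInner (indFun M θ) (χ : G → ℂ) = (b χ : ℂ) := by
    rw [hb]
    exact Helper4.classInner_sum_irr (fun ξ => (b ξ : ℂ)) χ
  have h5 : classInner (fun h : M => (χ : G → ℂ) h) θ ≠ 0 := by
    have h6 := Helper35.frobenius_reciprocity' M θ (χ : G → ℂ) hcf
    intro h0
    have h7 : classInner (χ : G → ℂ) (indFun M θ) = 0 := by rw [h6]; exact h0
    rw [Helper4.classInner_conj_symm, h4] at h7
    simp only [Complex.conj_natCast, Nat.cast_eq_zero] at h7
    exact hχ h7
  obtain ⟨e, he⟩ := Helper35.classInner_char_nat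
    (Helper35.isCharacter_res M (Helper35.isChar_of_irr χ.2)) (Helper35.isChar_of_irr hθ)
  have h8 := clifford_degree M hθ χ.2 h5 (inertia M θ) (mem_inertia M θ)
  have h9 : classInner (fun h : M => (χ : G → ℂ) h) θ = (e : ℂ) := he
  rw [h9, (Helper83.irr_degree χ.2).2, (Helper83.irr_degree hθ).2] at h8
  have h10 : charDegree (χ : G → ℂ) = e * (inertia M θ).index * charDegree θ := by
    exact_mod_cast h8
  rw [h10]
  exact dvd_mul_left _ _

theorem forward (p : ℕ) (hp : p.Prime) : ∀ (n : ℕ) (G : Type u) [Group G] [Finite G],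
    Nat.card G = n → (∀ χ : IrrCharacter G, ∃ k : ℕ, (χ : G → ℂ) 1 = (p : ℂ) ^ k) →
    ∃ A : Subgroup G, A.Normal ∧ (∀ a ∈ A, ∀ b ∈ A, a * b = b * a) ∧
      Nat.Coprime (Nat.card A) p ∧ ∃ k : ℕ, A.index = p ^ k := by
  intro n
  induction n using Nat.strong_induction_on with
  | _ n ih =>
  intro G _ _ hn hdeg
  classical
  have : Fact p.Prime := ⟨hp⟩
  let _ : Fintype G := Fintype.ofFinite G
  have := Helper4.irr_finite (G := G)
  let _ : Fintype (IrrCharacter G) := Fintype.ofFinite _
  have hdeg' : ∀ χ : IrrCharacter G, ∃ k : ℕ, charDegree (χ : G → ℂ) = p ^ k := by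
    intro χ
    obtain ⟨k, hk⟩ := hdeg χ
    refine ⟨k, ?_⟩
    have h1 := (Helper83.irr_degree χ.2).2
    rw [hk] at h1
    exact_mod_cast h1.symm
  have hsq := Helper83.sum_charDegree_sq (G := G)
  have hlin := Helper83.card_linear' (G := G)
  by_cases hpG : p ∣ Nat.card G
  · have hpc : p ∣ (commutator G).index := by
      rw [← hlin]
      have h1 : Nat.card {χ : IrrCharacter G // charDegree (χ : G → ℂ) = 1} =
          (Finset.univ.filter (fun χ : IrrCharacter G => charDegree (χ : G → ℂ) = 1)).card := by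
        rw [Nat.card_eq_fintype_card, Fintype.card_subtype]
      rw [h1]
      have h2 : ∑ χ : IrrCharacter G, charDegree (χ : G → ℂ) ^ 2 =
          (Finset.univ.filter (fun χ : IrrCharacter G => charDegree (χ : G → ℂ) = 1)).card +
          ∑ χ ∈ Finset.univ.filter (fun χ : IrrCharacter G => ¬ charDegree (χ : G → ℂ) = 1),
            charDegree (χ : G → ℂ) ^ 2 := by
        rw [← Finset.sum_filter_add_sum_filter_not Finset.univ
          (fun χ : IrrCharacter G => charDegree (χ : G → ℂ) = 1)]
        congr 1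
        rw [Finset.card_eq_sum_ones]
        apply Finset.sum_congr rfl
        intro χ hχ
        rw [(Finset.mem_filter.mp hχ).2, one_pow]
      have h3 : p ∣ ∑ χ ∈ Finset.univ.filter
          (fun χ : IrrCharacter G => ¬ charDegree (χ : G → ℂ) = 1),
            charDegree (χ : G → ℂ) ^ 2 := by
        apply Finset.dvd_sum
        intro χ hχ
        obtain ⟨k, hk⟩ := hdeg' χ
        have hk0 : k ≠ 0 := by
          rintro rfl
          exact (Finset.mem_filter.mp hχ).2 (by rw [hk, pow_zero])
        rw [hk]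
        exact dvd_pow (dvd_pow_self p hk0) two_ne_zero
      rw [hsq] at h2
      rw [h2] at hpG
      exact (Nat.dvd_add_left h3).mp hpG
    -- a linear character of order p
    have hcardL : Nat.card (G →* ℂˣ) = (commutator G).index := by
      rw [Nat.card_eq_of_bijective _ (Helper4.linToIrr_bijective (G := G)), Helper4.card_linear]
    have hfinL : Finite (G →* ℂˣ) := by
      apply Nat.finite_of_card_ne_zero
      rw [hcardL]
      exact Subgroup.index_ne_zero_of_finite
    obtain ⟨φ, hφ⟩ := exists_prime_orderOf_dvd_card' (G := G →* ℂˣ) p (by rw [hcardL]; exact hpc)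
    have hφp : ∀ g : G, φ g ^ p = 1 := by
      intro g
      have h1 := pow_orderOf_eq_one φ
      rw [hφ] at h1
      have h2 := congrArg (fun ψ : G →* ℂˣ => ψ g) h1
      simpa [MonoidHom.pow_apply] using h2
    have hφ1 : φ ≠ 1 := by
      intro h1
      rw [h1, orderOf_one] at hφ
      exact hp.one_lt.ne hφ
    set M : Subgroup G := φ.ker with hM
    have hMnorm : M.Normal := MonoidHom.normal_ker φ
    have hPG : IsPGroup p φ.range := by
      rintro ⟨y, g, rfl⟩
      refine ⟨1, ?_⟩
      apply Subtype.ext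
      rw [pow_one]
      simp only [Subgroup.coe_pow, Subgroup.coe_one]
      exact hφp g
    obtain ⟨j₀, hj₀⟩ := (IsPGroup.iff_card).mp hPG
    have hMidx : M.index = p ^ j₀ := by rw [hM, Subgroup.index_ker, hj₀]
    have hMne : M ≠ ⊤ := by
      intro htop
      apply hφ1
      ext g
      have hg : g ∈ φ.ker := by rw [← hM, htop]; exact Subgroup.mem_top g
      rw [MonoidHom.mem_ker.mp hg]
      rfl
    have hMlt : Nat.card M < n := by
      rw [← hn]
      have h1 := Subgroup.card_mul_index M
      have h2 : M.index ≠ 1 := fun h => hMne (Subgroup.index_eq_one.mp h)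
      have h3 : 0 < M.index := Nat.pos_of_ne_zero Subgroup.index_ne_zero_of_finite
      have h4 : 0 < Nat.card M := Nat.card_pos
      have h5 : 2 ≤ M.index := by omega
      calc Nat.card M < Nat.card M * 2 := by omega
        _ ≤ Nat.card M * M.index := Nat.mul_le_mul_left _ h5
        _ = Nat.card G := h1
    -- M inherits the hypothesis
    have hMdeg : ∀ θ : IrrCharacter M, ∃ k : ℕ, (θ : M → ℂ) 1 = (p : ℂ) ^ k := by
      intro θ
      obtain ⟨χ, hχ, hdvd⟩ := exists_over M (θ : M → ℂ) θ.2
      obtain ⟨k, hk⟩ := hdeg' ⟨χ, hχ⟩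
      rw [show charDegree ((⟨χ, hχ⟩ : IrrCharacter G) : G → ℂ) = charDegree χ from rfl] at hk
      rw [hk] at hdvd
      obtain ⟨j, -, hj⟩ := (Nat.dvd_prime_pow hp).mp hdvd
      refine ⟨j, ?_⟩
      rw [(Helper83.irr_degree θ.2).2, hj]
      push_cast; rfl
    obtain ⟨A', hA'norm, hA'ab, hA'cop, j, hA'idx⟩ := ih (Nat.card M) hMlt M rfl hMdeg
    -- elements of M of order prime to p lie in A'
    have hA'mem : ∀ x : M, Nat.Coprime (orderOf x) p → x ∈ A' := by
      intro x hx
      have h1 : orderOf (QuotientGroup.mk' A' x) ∣ orderOf x :=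
        orderOf_map_dvd (QuotientGroup.mk' A') x
      have h2 : orderOf (QuotientGroup.mk' A' x) ∣ Nat.card (M ⧸ A') := orderOf_dvd_natCard _
      have h3 : Nat.card (M ⧸ A') = p ^ j := by
        rw [← hA'idx]; rfl
      rw [h3] at h2
      have h4 : orderOf (QuotientGroup.mk' A' x) ∣ 1 := by
        rw [← Nat.Coprime.pow_right j hx]
        exact Nat.dvd_gcd h1 h2
      have h5 : QuotientGroup.mk' A' x = 1 := orderOf_eq_one_iff.mp (Nat.dvd_one.mp h4)
      exact (QuotientGroup.eq_one_iff x).mp h5
    refine ⟨A'.map M.subtype, ⟨?_⟩, ?_, ?_, ⟨j + j₀, ?_⟩⟩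
    · intro a ha g
      obtain ⟨a', ha', rfl⟩ := Subgroup.mem_map.mp ha
      have hy : (⟨g * (a' : G) * g⁻¹, hMnorm.conj_mem (a' : G) a'.2 g⟩ : M) ∈ A' := by
        apply hA'mem
        apply Nat.Coprime.coprime_dvd_left _ hA'cop
        apply orderOf_dvd_of_pow_eq_one
        apply Subtype.ext
        simp only [Subgroup.coe_pow, Subgroup.coe_one]
        rw [conj_pow]
        have h1 : (⟨a', ha'⟩ : A') ^ Nat.card A' = 1 := pow_card_eq_one'
        have h2 : (a' : G) ^ Nat.card A' = 1 := by
          have h3 : ((((⟨a', ha'⟩ : A') ^ Nat.card A' : A') : M) : G) = 1 := by rw [h1]; rfl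
          simpa only [Subgroup.coe_pow] using h3
        rw [h2, mul_one, mul_inv_cancel]
      exact Subgroup.mem_map.mpr ⟨_, hy, rfl⟩
    · intro a ha b hb
      obtain ⟨a', ha', rfl⟩ := Subgroup.mem_map.mp ha
      obtain ⟨b', hb', rfl⟩ := Subgroup.mem_map.mp hb
      have h1 := hA'ab a' ha' b' hb'
      exact congrArg Subtype.val h1
    · rw [Subgroup.card_subtype]
      exact hA'cop
    · rw [Subgroup.index_map_subtype, hA'idx, hMidx, pow_add]
  · have hall : ∀ χ : IrrCharacter G, charDegree (χ : G → ℂ) = 1 := by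
      intro χ
      obtain ⟨k, hk⟩ := hdeg' χ
      rcases Nat.eq_zero_or_pos k with h0 | hpos
      · rw [hk, h0, pow_zero]
      · exfalso
        apply hpG
        have h1 := Helper83.irr_degree_dvd_card χ
        rw [hk] at h1
        exact dvd_trans (dvd_pow_self p hpos.ne') h1
    simp only [hall, one_pow, Finset.sum_const, Finset.card_univ, smul_eq_mul, mul_one] at hsq
    have hall' : Nat.card {χ : IrrCharacter G // charDegree (χ : G → ℂ) = 1} =
        Nat.card (IrrCharacter G) := by
      apply Nat.card_congr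
      exact Equiv.subtypeUnivEquiv hall
    rw [hall', Nat.card_eq_fintype_card, hsq] at hlin
    have hbot : commutator G = ⊥ := by
      have h1 := Subgroup.card_mul_index (commutator G)
      rw [← hlin] at h1
      have h2 : Nat.card (commutator G) = 1 := by
        have hpos : 0 < Nat.card G := Nat.card_pos
        exact Nat.eq_of_mul_eq_mul_right hpos (by rw [h1, one_mul])
      exact Subgroup.card_eq_one.mp h2
    refine ⟨⊤, inferInstance, ?_, ?_, ⟨0, ?_⟩⟩
    · intro a _ b _
      have hmem : ⁅a, b⁆ ∈ commutator G := by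
        rw [commutator_def]
        exact Subgroup.commutator_mem_commutator (Subgroup.mem_top _) (Subgroup.mem_top _)
      rw [hbot, Subgroup.mem_bot] at hmem
      exact commutatorElement_eq_one_iff_mul_comm.mp hmem
    · rw [Subgroup.card_top]
      exact ((Nat.Prime.coprime_iff_not_dvd hp).mpr hpG).symm
    · rw [Subgroup.index_top, pow_zero]

/-- For a finite group G and a prime p: every irreducible character of G has degree a power of p if and only if G has an abelian normal subgroup whose order is prime to p and whose index is a power of p. -/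
theorem result {G : Type*} [Group G] [Finite G] (p : ℕ) (hp : p.Prime) : (∀ χ : Cfsg.IrrCharacter G, ∃ k : ℕ, (χ : G → ℂ) 1 = (p : ℂ) ^ k) ↔ ∃ A : Subgroup G, A.Normal ∧ (∀ a ∈ A, ∀ b ∈ A, a * b = b * a) ∧ Nat.Coprime (Nat.card A) p ∧ ∃ k : ℕ, A.index = p ^ k := by
  constructor
  · intro h
    exact forward p hp (Nat.card G) G rfl h
  · rintro ⟨A, hAn, hAab, -, k, hk⟩ χ
    classical
    let _ : Fintype G := Fintype.ofFinite G
    have h1 := ito A hAab χ.2
    rw [hk] at h1
    obtain ⟨j, -, hj⟩ := (Nat.dvd_prime_pow hp).mp h1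
    refine ⟨j, ?_⟩
    rw [(Helper83.irr_degree χ.2).2, hj]
    push_cast; rfl

end Cfsg.Agent.S0855
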