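import Mathlib
import Cfsg.Statements.S0858
import Cfsg.Agent.S0857
import Cfsg.Agent.S0854
import Cfsg.Agent.Lib.Helper20.ExtPrime
import Cfsg.Agent.Lib.Helper20.Ito
import Cfsg.Agent.Lib.Helper4.BrMono4

set_option autoImplicit false
open Cfsg

namespace Cfsg.Agent.S0858

open Cfsg.Agent.Lib Cfsg.Agent.Lib.Helper20

universe u

theorem exists_chief {G : Type*} [Group G] [Finite G] (N : Subgroup G) [hN : N.Normal]
    (χ : G → ℂ) (hχ : IsIrrCharacter G χ) (hχN : ¬ IsIrrCharacter N (fun n : N => χ n)) :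
    ∃ K L : Subgroup G, K.Normal ∧ L.Normal ∧ N ≤ L ∧ L < K ∧
      IsIrrCharacter K (fun k : K => χ k) ∧ ¬ IsIrrCharacter L (fun l : L => χ l) ∧
      ∀ M : Subgroup G, M.Normal → L ≤ M → M ≤ K → M = L ∨ M = K := by
  classical
  let S : Set (Subgroup G) := {K | K.Normal ∧ N ≤ K ∧ IsIrrCharacter K (fun k : K => χ k)}
  have hS : S.Nonempty := ⟨⊤, inferInstance, le_top,
    irr_comp_surjective (Subgroup.topEquiv : (⊤ : Subgroup G) ≃* G).toMonoidHom
      Subgroup.topEquiv.surjective hχ⟩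
  obtain ⟨K, ⟨hKn, hNK, hχK⟩, hKmin⟩ := wellFounded_lt.has_min S hS
  have hNK' : N < K := by
    refine lt_of_le_of_ne hNK (fun h => hχN ?_)
    subst h
    exact hχK
  let S' : Set (Subgroup G) := {L | L.Normal ∧ N ≤ L ∧ L < K}
  have hS' : S'.Nonempty := ⟨N, hN, le_rfl, hNK'⟩
  obtain ⟨L, ⟨hLn, hNL, hLK⟩, hLmax⟩ := wellFounded_gt.has_min S' hS'
  refine ⟨K, L, hKn, hLn, hNL, hLK, hχK, fun h => hKmin L ⟨hLn, hNL, h⟩ hLK,
    fun M hMn hLM hMK => ?_⟩
  by_cases hMK' : M = K
  · right; exact hMK'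
  · left
    have h1 : M ∈ S' := ⟨hMn, hNL.trans hLM, lt_of_le_of_ne hMK hMK'⟩
    have h2 := hLmax M h1
    exact (eq_of_le_of_not_lt hLM h2).symm

theorem comm_le_of_chief {G : Type*} [Group G] (N K L : Subgroup G) [N.Normal] [K.Normal]
    [hL : L.Normal] (hsolv : Group.IsSolvable (G ⧸ N)) (hNL : N ≤ L) (hLK : L < K)
    (hchief : ∀ M : Subgroup G, M.Normal → L ≤ M → M ≤ K → M = L ∨ M = K) : ⁅K, K⁆ ≤ L := by
  have hD : (⁅K, K⁆ ⊔ L).Normal := inferInstance
  rcases hchief (⁅K, K⁆ ⊔ L) hD le_sup_right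
    (sup_le (Subgroup.commutator_le_left K K) hLK.le) with h | h
  · rw [← h]; exact le_sup_left
  · exfalso
    have hsL : Group.IsSolvable (G ⧸ L) := by
      let f : G ⧸ N →* G ⧸ L := QuotientGroup.map N L (MonoidHom.id G) hNL
      have hf : Function.Surjective f := by
        intro q
        obtain ⟨g, rfl⟩ := QuotientGroup.mk_surjective q
        exact ⟨QuotientGroup.mk g, rfl⟩
      exact Group.isSolvable_of_surjective hf
    have hK : K.map (QuotientGroup.mk' L) ≠ ⊥ := by
      intro h0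
      rw [Subgroup.map_eq_bot_iff, QuotientGroup.ker_mk'] at h0
      exact (not_le_of_gt hLK) h0
    have h1 := Group.IsSolvable.commutator_lt_of_ne_bot hK
    have h2 : K.map (QuotientGroup.mk' L) =
        ⁅K.map (QuotientGroup.mk' L), K.map (QuotientGroup.mk' L)⁆ := by
      conv_lhs => rw [← h]
      rw [Subgroup.map_sup, Subgroup.map_commutator]
      have h3 : L.map (QuotientGroup.mk' L) = ⊥ := by
        rw [Subgroup.map_eq_bot_iff, QuotientGroup.ker_mk']
      rw [h3, sup_bot_eq]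
    exact (ne_of_lt h1) h2.symm

theorem hchief_sub {G : Type*} [Group G] (N T : Subgroup G) (hNT : N ≤ T)
    (hchief : ∀ (H K L : Subgroup G), N ≤ L → L < K → K ≤ H →
      (∀ h ∈ H, ∀ k ∈ K, h * k * h⁻¹ ∈ K) → (∀ h ∈ H, ∀ l ∈ L, h * l * h⁻¹ ∈ L) →
      (∀ M : Subgroup G, L ≤ M → M ≤ K → (∀ h ∈ H, ∀ m ∈ M, h * m * h⁻¹ ∈ M) →
        M = L ∨ M = K) → ¬ IsSquare (L.relIndex K)) :
    ∀ (H K L : Subgroup T), N.subgroupOf T ≤ L → L < K → K ≤ H →
      (∀ h ∈ H, ∀ k ∈ K, h * k * h⁻¹ ∈ K) → (∀ h ∈ H, ∀ l ∈ L, h * l * h⁻¹ ∈ L) →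
      (∀ M : Subgroup T, L ≤ M → M ≤ K → (∀ h ∈ H, ∀ m ∈ M, h * m * h⁻¹ ∈ M) →
        M = L ∨ M = K) → ¬ IsSquare (L.relIndex K) := by
  intro H K L hNL hLK hKH hK hL hmin
  have hinj := T.subtype_injective
  have h := hchief (H.map T.subtype) (K.map T.subtype) (L.map T.subtype) ?_ ?_ ?_ ?_ ?_ ?_
  · rwa [Subgroup.relIndex_map_map_of_injective L K hinj] at h
  · intro n hn
    exact ⟨⟨n, hNT hn⟩, hNL (Subgroup.mem_subgroupOf.mpr hn), rfl⟩
  · exact (Subgroup.map_lt_map_iff_of_injective hinj).mpr hLK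
  · exact Subgroup.map_mono hKH
  · rintro _ ⟨h, hh, rfl⟩ _ ⟨k, hk, rfl⟩
    exact ⟨h * k * h⁻¹, hK h hh k hk, rfl⟩
  · rintro _ ⟨h, hh, rfl⟩ _ ⟨k, hk, rfl⟩
    exact ⟨h * k * h⁻¹, hL h hh k hk, rfl⟩
  · intro M hLM hMK hM
    have h1 : L ≤ M.comap T.subtype := by
      intro x hx
      exact hLM ⟨x, hx, rfl⟩
    have h2 : M.comap T.subtype ≤ K := by
      intro x hx
      obtain ⟨k, hk, hkx⟩ := hMK hx
      have h3 : k = x := hinj hkx
      rwa [← h3]
    have h3 : ∀ h ∈ H, ∀ m ∈ M.comap T.subtype, h * m * h⁻¹ ∈ M.comap T.subtype := by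
      intro h hh m hm
      exact hM _ ⟨h, hh, rfl⟩ _ hm
    have hMT : M ≤ T.subtype.range := by
      intro m hm
      obtain ⟨k, -, rfl⟩ := hMK hm
      exact ⟨k, rfl⟩
    rcases hmin _ h1 h2 h3 with h4 | h4
    · left; rw [← h4, Subgroup.map_comap_eq_self hMT]
    · right; rw [← h4, Subgroup.map_comap_eq_self hMT]

theorem main : ∀ (n : ℕ) (G : Type u) [Group G] [Fintype G], Fintype.card G = n →
    ∀ (N : Subgroup G) [N.Normal], Group.IsSolvable (G ⧸ N) →
    (∀ (H K L : Subgroup G), N ≤ L → L < K → K ≤ H → (∀ h ∈ H, ∀ k ∈ K, h * k * h⁻¹ ∈ K) →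
      (∀ h ∈ H, ∀ l ∈ L, h * l * h⁻¹ ∈ L) →
      (∀ M : Subgroup G, L ≤ M → M ≤ K → (∀ h ∈ H, ∀ m ∈ M, h * m * h⁻¹ ∈ M) →
        M = L ∨ M = K) → ¬ IsSquare (L.relIndex K)) →
    ∀ χ : G → ℂ, IsIrrCharacter G χ →
    ∃ (H : Subgroup G) (hNH : N ≤ H) (ψ : H → ℂ), IsIrrCharacter H ψ ∧ indFun H ψ = χ ∧
      IsIrrCharacter N (fun n : N => ψ ⟨(n : G), hNH n.2⟩) := by
  intro n
  induction n using Nat.strong_induction_on with
  | _ n ih =>
  intro G _ _ hn N hNn hsolv hchief χ hχ
  classical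
  have hχc := Helper35.isChar_of_irr hχ
  have hcf := Helper35.isClassFunction_of_isCharacter hχc
  by_cases hχN : IsIrrCharacter N (fun n : N => χ n)
  · refine ⟨⊤, le_top, fun x => χ x, ?_, Helper4.indFun_top χ hcf, hχN⟩
    exact irr_comp_surjective (Subgroup.topEquiv : (⊤ : Subgroup G) ≃* G).toMonoidHom
      Subgroup.topEquiv.surjective hχ
  · obtain ⟨K, L, hKn, hLn, hNL, hLK, hχK, hχL, hmin⟩ := exists_chief N χ hχ hχN
    have hab := comm_le_of_chief N K L hsolv hNL hLK hmin
    let _ : Fintype K := Fintype.ofFinite _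
    let _ : Fintype L := Fintype.ofFinite _
    have h857 := Cfsg.Agent.S0857.result K L hLK hmin hab (fun k : K => χ k) hχK
      (fun g n => hcf n g)
    rcases h857 with h | ⟨φ, e, hφ, hres, he⟩ | ⟨F, hF, hFcard, hres⟩
    · exact absurd h hχL
    · exfalso
      refine hchief ⊤ K L hNL hLK le_top (fun h _ k hk => hKn.conj_mem k hk h)
        (fun h _ l hl => hLn.conj_mem l hl h)
        (fun M hLM hMK hM => hmin M ⟨fun m hm g => hM g (Subgroup.mem_top g) m hm⟩ hLM hMK)
        ⟨e, ?_⟩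
      rw [← he]; ring
    · have hcard2 : 2 ≤ F.card := by
        rw [hFcard]
        have h0 : L.relIndex K ≠ 0 := Subgroup.index_ne_zero_of_finite
        have h1 : L.relIndex K ≠ 1 := by
          intro h1
          rw [Subgroup.relIndex_eq_one] at h1
          exact (not_le_of_gt hLK) h1
        omega
      obtain ⟨φ, hφF⟩ : ∃ φ, φ ∈ F := Finset.card_pos.mp (by omega)
      have hφ := hF φ hφF
      have hresL : (fun x : L => χ x) = ∑ ξ ∈ F, ξ := hres
      have hcon : ∀ φ' ∈ F, classInner (fun x : L => χ x) φ' ≠ 0 := by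
        intro φ' hφ'
        rw [hresL, Helper83.classInner_sum_left, Finset.sum_eq_single φ']
        · rw [Helper35.classInner_irr' (hF φ' hφ') (hF φ' hφ'), if_pos rfl]
          exact one_ne_zero
        · intro ξ hξ hne
          rw [Helper35.classInner_irr' (hF ξ hξ) (hF φ' hφ'), if_neg hne]
        · intro h; exact absurd hφ' h
      have hLT : L ≤ inertia L φ :=
        le_inertia L (Helper35.isClassFunction_of_isCharacter (Helper35.isChar_of_irr hφ))
      have hTne : inertia L φ ≠ ⊤ := by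
        intro hT
        have hall : ∀ φ' ∈ F, φ' = φ := by
          intro φ' hφ'
          obtain ⟨x, hx⟩ := clifford_conj L hφ hχ (hcon φ hφF) (hF φ' hφ') (hcon φ' hφ')
          rw [hx]
          have hxT : x ∈ inertia L φ := by rw [hT]; exact Subgroup.mem_top x
          exact (mem_inertia L φ x).mp hxT
        have h1 : F.card ≤ 1 :=
          Finset.card_le_one.mpr (fun a ha b hb => by rw [hall a ha, hall b hb])
        omega
      let _ : Fintype (inertia L φ) := Fintype.ofFinite _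
      obtain ⟨ψ, hψ, hψind, -⟩ := Cfsg.Agent.S0854.result L φ hφ (inertia L φ)
        (fun g => (mem_inertia L φ g).trans funext_iff) hLT χ hχ (hcon φ hφF)
      have hcardT : Fintype.card (inertia L φ) < n := by
        rw [← hn, ← Nat.card_eq_fintype_card, ← Nat.card_eq_fintype_card]
        have h1 := Subgroup.card_le_card_group (inertia L φ)
        have h2 : Nat.card (inertia L φ) ≠ Nat.card G :=
          fun h => hTne (Subgroup.eq_top_of_card_eq _ h)
        omega
      have hNT : N ≤ inertia L φ := hNL.trans hLT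
      have hsolv' : Group.IsSolvable (inertia L φ ⧸ N.subgroupOf (inertia L φ)) := by
        have := hsolv
        exact solvable_quotient_subgroupOf N (inertia L φ)
      obtain ⟨H', hNH', ξ', hξ', hind', hξ'N⟩ := ih (Fintype.card (inertia L φ)) hcardT
        (inertia L φ) rfl (N.subgroupOf (inertia L φ)) hsolv'
        (hchief_sub N (inertia L φ) hNT hchief) ψ hψ
      have hNH : N ≤ H'.map (inertia L φ).subtype := by
        intro n hn
        exact ⟨⟨n, hNT hn⟩, hNH' (Subgroup.mem_subgroupOf.mpr hn), rfl⟩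
      refine ⟨H'.map (inertia L φ).subtype, hNH, fun h => ξ' ((H'.equivMapOfInjective
        (inertia L φ).subtype (inertia L φ).subtype_injective).symm h), ?_, ?_, ?_⟩
      · exact irr_comp_surjective (H'.equivMapOfInjective
          (inertia L φ).subtype (inertia L φ).subtype_injective).symm.toMonoidHom
          (H'.equivMapOfInjective
          (inertia L φ).subtype (inertia L φ).subtype_injective).symm.surjective hξ'
      · rw [← Helper4.indFun_indFun (inertia L φ) H' ξ', hind', hψind]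
      · have h1 := irr_comp_surjective (Subgroup.subgroupOfEquivOfLe hNT).symm.toMonoidHom
          (Subgroup.subgroupOfEquivOfLe hNT).symm.surjective hξ'N
        convert h1 using 1
        funext n
        show ξ' _ = ξ' _
        congr 1
        apply Subtype.ext
        apply Subtype.ext
        have h2 := Subgroup.coe_equivMapOfInjective_apply H' (inertia L φ).subtype
          (inertia L φ).subtype_injective ((H'.equivMapOfInjective
          (inertia L φ).subtype (inertia L φ).subtype_injective).symm ⟨(n : G), hNH n.2⟩)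
        rw [MulEquiv.apply_symm_apply] at h2
        exact h2.symm

/-- Let N be a normal subgroup of the finite group G with G / N solvable, and suppose that for every subgroup H containing N and all subgroups L < K between N and H that are normal in H with no subgroup normal in H strictly between them, the index of L in K is not a perfect square. Then every irreducible character χ of G is induced from an irreducible character ψ of some subgroup H containing N such that the restriction of ψ to N is irreducible. -/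
theorem result {G : Type*} [Group G] [Fintype G] (N : Subgroup G) [N.Normal] (hsolv : Group.IsSolvable (G ⧸ N)) (hchief : ∀ (H K L : Subgroup G), N ≤ L → L < K → K ≤ H → (∀ h ∈ H, ∀ k ∈ K, h * k * h⁻¹ ∈ K) → (∀ h ∈ H, ∀ l ∈ L, h * l * h⁻¹ ∈ L) → (∀ M : Subgroup G, L ≤ M → M ≤ K → (∀ h ∈ H, ∀ m ∈ M, h * m * h⁻¹ ∈ M) → M = L ∨ M = K) → ¬ IsSquare (L.relIndex K)) (χ : G → ℂ) (hχ : Cfsg.IsIrrCharacter G χ) : ∃ (H : Subgroup G) (hNH : N ≤ H) (ψ : H → ℂ), Cfsg.IsIrrCharacter H ψ ∧ Cfsg.indFun H ψ = χ ∧ Cfsg.IsIrrCharacter N (fun n : N => ψ ⟨(n : G), hNH n.2⟩) := by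
  exact main (Fintype.card G) G rfl N hsolv hchief χ hχ

end Cfsg.Agent.S0858
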