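import Mathlib
import Cfsg.Statements.S0859
import Cfsg.Agent.Lib.Helper20.Homog
import Cfsg.Agent.Lib.Helper4.BrMono4
import Cfsg.Agent.S0854

set_option autoImplicit false
open Cfsg

namespace Cfsg.Agent.S0859

open Cfsg.Agent.Lib Cfsg.Agent.Lib.Helper20

universe u

/-- the non-homogeneous case: `ψ` is induced from a proper subgroup `T`, from a character
restricting irreducibly to `N ⊓ T` -/
theorem exists_proper_inertia {H : Type*} [Group H] [Fintype H] (N : Subgroup H) [hN : N.Normal]
    (ψ : H → ℂ) (hψ : IsIrrCharacter H ψ) (hψN : IsIrrCharacter N (fun n : N => ψ n))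
    (M : Subgroup H) [hM : M.Normal] (hMN : M ≤ N)
    (hnh : ¬ ∃ (φ : M → ℂ) (e : ℂ), IsIrrCharacter M φ ∧ (fun m : M => ψ m) = e • φ) :
    ∃ (T : Subgroup H) (η : T → ℂ), T ≠ ⊤ ∧ IsIrrCharacter T η ∧ indFun T η = ψ ∧
      IsIrrCharacter (N.subgroupOf T) (fun x : N.subgroupOf T => η x) := by
  classical
  let _ : Fintype M := Fintype.ofFinite _
  let _ : Fintype N := Fintype.ofFinite _
  have hψc := Helper35.isChar_of_irr hψ
  have hcf := Helper35.isClassFunction_of_isCharacter hψc
  obtain ⟨φ, hφ, hcon⟩ := exists_constituent M hψ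
  have hMT : M ≤ inertia M φ :=
    le_inertia M (Helper35.isClassFunction_of_isCharacter (Helper35.isChar_of_irr hφ))
  have hTne : inertia M φ ≠ ⊤ := by
    intro hT
    apply hnh
    refine ⟨φ, classInner (fun h : M => ψ h) φ, hφ, funext fun m => ?_⟩
    have h1 := clifford_res M hφ hψ hcon (inertia M φ) (fun g => mem_inertia M φ g) m
    have h2 : ∀ x : H, Helper20.conjFun M φ x m = φ m := by
      intro x
      have hx : x ∈ inertia M φ := by rw [hT]; exact Subgroup.mem_top x
      rw [(mem_inertia M φ x).mp hx]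
    rw [Finset.sum_congr rfl (fun x _ => h2 x), Finset.sum_const, Finset.card_univ, nsmul_eq_mul,
      hT, Subgroup.card_top, Nat.card_eq_fintype_card] at h1
    have hH0 : (Fintype.card H : ℂ) ≠ 0 := by exact_mod_cast (Fintype.card_pos (α := H)).ne'
    show ψ m = classInner (fun h : M => ψ h) φ * φ m
    rw [h1]
    field_simp
  let _ : Fintype (inertia M φ) := Fintype.ofFinite _
  obtain ⟨η, hη, hηind, -⟩ := Cfsg.Agent.S0854.result M φ hφ (inertia M φ)
    (fun g => (mem_inertia M φ g).trans funext_iff) hMT ψ hψ hcon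
  have hηc := Helper35.isChar_of_irr hη
  have hNT : N ⊔ inertia M φ = ⊤ := by
    rw [eq_top_iff]
    intro h _
    have h1 : classInner (fun m : M => ψ m) (Helper20.conjFun M φ h) ≠ 0 := by
      rw [classInner_res_conjFun M hcf φ h]; exact hcon
    obtain ⟨k, hkN, hk⟩ := clifford_conj_rel M N hMN hφ hψN hcon (Helper20.conjFun_irr M hφ h) h1
    have h2 : h * k⁻¹ ∈ inertia M φ := by
      rw [mem_inertia, ← Helper20.conjFun_conjFun, hk, Helper20.conjFun_conjFun, mul_inv_cancel,
        Helper20.conjFun_one]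
    have h3 : h = (h * k⁻¹) * k := by group
    rw [h3]
    exact Subgroup.mul_mem _ (Subgroup.mem_sup_right h2) (Subgroup.mem_sup_left hkN)
  refine ⟨inertia M φ, η, hTne, hη, hηind, ?_⟩
  -- Mackey
  let f : (inertia M φ).subgroupOf N →* inertia M φ :=
    { toFun := fun x => ⟨((x : N) : H), Subgroup.mem_subgroupOf.mp x.2⟩
      map_one' := rfl
      map_mul' := fun _ _ => rfl }
  have hη'c : IsCharacter ((inertia M φ).subgroupOf N) (fun x => η (f x)) :=
    isCharacter_comp f hηc
  have hmack : (fun n : N => ψ n) = indFun ((inertia M φ).subgroupOf N) (fun x => η (f x)) := by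
    funext n
    rw [← hηind]
    exact indFun_res_of_sup N (inertia M φ) hNT η
      (Helper35.isClassFunction_of_isCharacter hηc) n
  rw [hmack] at hψN
  have hirr := irr_of_ind_irr ((inertia M φ).subgroupOf N) hη'c hψN
  let e : N.subgroupOf (inertia M φ) ≃* (inertia M φ).subgroupOf N :=
    { toFun := fun x => ⟨⟨((x : inertia M φ) : H), Subgroup.mem_subgroupOf.mp x.2⟩,
        Subgroup.mem_subgroupOf.mpr (x : inertia M φ).2⟩
      invFun := fun x => ⟨⟨((x : N) : H), Subgroup.mem_subgroupOf.mp x.2⟩,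
        Subgroup.mem_subgroupOf.mpr (x : N).2⟩
      left_inv := fun x => rfl
      right_inv := fun x => rfl
      map_mul' := fun _ _ => rfl }
  exact irr_comp_surjective e.toMonoidHom e.surjective hirr

theorem agroup_sub {H : Type*} [Group H] (N T : Subgroup H)
    (hA : ∀ (p : ℕ) [Fact p.Prime] (P : Subgroup H), P ≤ N → IsPGroup p P →
      ∀ a ∈ P, ∀ b ∈ P, a * b = b * a) :
    ∀ (p : ℕ) [Fact p.Prime] (P : Subgroup T), P ≤ N.subgroupOf T → IsPGroup p P →
      ∀ a ∈ P, ∀ b ∈ P, a * b = b * a := by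
  intro p _ P hP hPp a ha b hb
  apply Subtype.ext
  have h1 : IsPGroup p (P.map T.subtype) := hPp.map T.subtype
  have h2 : P.map T.subtype ≤ N := by
    rintro _ ⟨x, hx, rfl⟩
    exact Subgroup.mem_subgroupOf.mp (hP hx)
  exact hA p _ h2 h1 a ⟨a, ha, rfl⟩ b ⟨b, hb, rfl⟩

theorem solvable_sub {H : Type*} [Group H] (N T : Subgroup H) (hs : Group.IsSolvable N) :
    Group.IsSolvable (N.subgroupOf T) := by
  let f : N.subgroupOf T →* N :=
    { toFun := fun x => ⟨((x : T) : H), Subgroup.mem_subgroupOf.mp x.2⟩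
      map_one' := rfl
      map_mul' := fun _ _ => rfl }
  have hf : Function.Injective f := by
    intro x y hxy
    apply Subtype.ext
    apply Subtype.ext
    exact congrArg (fun z : N => (z : H)) hxy
  exact Group.isSolvable_of_isSolvable_injective hf

theorem claim : ∀ (n : ℕ) (H : Type u) [Group H] [Fintype H], Fintype.card H = n →
    ∀ (N : Subgroup H) [N.Normal], Group.IsSolvable N →
    (∀ (p : ℕ) [Fact p.Prime] (P : Subgroup H), P ≤ N → IsPGroup p P →
      ∀ a ∈ P, ∀ b ∈ P, a * b = b * a) →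
    ∀ ψ : H → ℂ, IsIrrCharacter H ψ → IsIrrCharacter N (fun n : N => ψ n) →
    ∃ (U : Subgroup H) (lam : U → ℂ), IsCharacter U lam ∧ lam 1 = 1 ∧ indFun U lam = ψ := by
  intro n
  induction n using Nat.strong_induction_on with
  | _ n ih =>
  intro H _ _ hn N hNn hsolv hA ψ hψ hψN
  classical
  have hψc := Helper35.isChar_of_irr hψ
  have hcf := Helper35.isClassFunction_of_isCharacter hψc
  by_cases hhom : ∀ M : Subgroup H, M.Normal → M ≤ N →
      ∃ (φ : M → ℂ) (e : ℂ), IsIrrCharacter M φ ∧ (fun m : M => ψ m) = e • φ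
  · have h1 := homog_degree_one N hsolv hA ψ hψ hψN hhom
    exact ⟨⊤, fun x => ψ x, Helper35.isCharacter_res ⊤ hψc, h1, Helper4.indFun_top ψ hcf⟩
  · push Not at hhom
    obtain ⟨M, hMn, hMN, hnh⟩ := hhom
    obtain ⟨T, η, hTne, hη, hηind, hηN⟩ := exists_proper_inertia N ψ hψ hψN M hMN
      (fun ⟨φ, e, hφ, he⟩ => hnh φ e hφ he)
    let _ : Fintype T := Fintype.ofFinite _
    have hcardT : Fintype.card T < n := by
      rw [← hn, ← Nat.card_eq_fintype_card, ← Nat.card_eq_fintype_card]
      have h1 := Subgroup.card_le_card_group T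
      have h2 : Nat.card T ≠ Nat.card H := fun h => hTne (Subgroup.eq_top_of_card_eq _ h)
      omega
    obtain ⟨U', lam', hlam', hlam'1, hind'⟩ := ih (Fintype.card T) hcardT T rfl (N.subgroupOf T)
      (solvable_sub N T hsolv) (agroup_sub N T hA) η hη hηN
    refine ⟨U'.map T.subtype, fun h => lam' ((U'.equivMapOfInjective T.subtype
      T.subtype_injective).symm h), ?_, ?_, ?_⟩
    · exact isCharacter_comp (U'.equivMapOfInjective T.subtype
        T.subtype_injective).symm.toMonoidHom hlam'
    · show lam' ((U'.equivMapOfInjective T.subtype T.subtype_injective).symm 1) = 1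
      rw [map_one]; exact hlam'1
    · rw [← Helper4.indFun_indFun T U' lam', hind', hηind]

/-- Let G be a finite solvable group and N a normal subgroup such that for every prime p every Sylow p-subgroup of N is abelian. Suppose every irreducible character of G is induced from an irreducible character of some subgroup containing N whose restriction to N is irreducible. Then every irreducible character of G is induced from a character of degree 1 of some subgroup. -/
theorem result {G : Type*} [Group G] [Fintype G] [Group.IsSolvable G] (N : Subgroup G) [N.Normal] (hab : ∀ (p : ℕ) [Fact p.Prime] (P : Sylow p N), ∀ a ∈ P, ∀ b ∈ P, a * b = b * a) (hrel : ∀ χ : G → ℂ, Cfsg.IsIrrCharacter G χ → ∃ (H : Subgroup G) (hNH : N ≤ H) (ψ : H → ℂ), Cfsg.IsIrrCharacter H ψ ∧ Cfsg.indFun H ψ = χ ∧ Cfsg.IsIrrCharacter N (fun n : N => ψ ⟨(n : G), hNH n.2⟩)) (χ : G → ℂ) (hχ : Cfsg.IsIrrCharacter G χ) : ∃ (U : Subgroup G) (lam : U → ℂ), Cfsg.IsCharacter U lam ∧ lam 1 = 1 ∧ Cfsg.indFun U lam = χ := by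
  classical
  obtain ⟨H, hNH, ψ, hψ, hind, hψN⟩ := hrel χ hχ
  let _ : Fintype H := Fintype.ofFinite _
  have hA : ∀ (p : ℕ) [Fact p.Prime] (P : Subgroup G), P ≤ N → IsPGroup p P →
      ∀ a ∈ P, ∀ b ∈ P, a * b = b * a := by
    intro p _ P hPN hP a ha b hb
    have h1 : IsPGroup p (P.subgroupOf N) := hP.comap_of_injective N.subtype N.subtype_injective
    obtain ⟨Q, hQ⟩ := h1.exists_le_sylow
    have h2 := hab p Q ⟨a, hPN ha⟩ (hQ (Subgroup.mem_subgroupOf.mpr ha)) ⟨b, hPN hb⟩
      (hQ (Subgroup.mem_subgroupOf.mpr hb))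
    exact congrArg (fun z : N => (z : G)) h2
  have hsolvN : Group.IsSolvable N := inferInstance
  have hψN' : IsIrrCharacter (N.subgroupOf H) (fun x : N.subgroupOf H => ψ x) :=
    irr_comp_surjective (Subgroup.subgroupOfEquivOfLe hNH).toMonoidHom
      (Subgroup.subgroupOfEquivOfLe hNH).surjective hψN
  obtain ⟨U', lam', hlam', hlam'1, hind'⟩ := claim (Fintype.card H) H rfl (N.subgroupOf H)
    (solvable_sub N H hsolvN) (agroup_sub N H hA) ψ hψ hψN'
  refine ⟨U'.map H.subtype, fun h => lam' ((U'.equivMapOfInjective H.subtype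
    H.subtype_injective).symm h), ?_, ?_, ?_⟩
  · exact isCharacter_comp (U'.equivMapOfInjective H.subtype
      H.subtype_injective).symm.toMonoidHom hlam'
  · show lam' ((U'.equivMapOfInjective H.subtype H.subtype_injective).symm 1) = 1
    rw [map_one]; exact hlam'1
  · rw [← Helper4.indFun_indFun H U' lam', hind', hind]

end Cfsg.Agent.S0859
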