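import Mathlib
import Cfsg.Statements.S0860
import Cfsg.Agent.Lib.Helper83.Schur
import Cfsg.Agent.Lib.Helper22.ClassSum

set_option autoImplicit false
open scoped ComplexConjugate
open Cfsg

namespace Cfsg.Agent.S0860

open Cfsg.Agent.Lib.Helper83 Cfsg.Agent.Lib.Helper22

/-- Let a group A act on the set of irreducible characters and on the set of conjugacy classes of a finite group G in such a way that (a • χ) evaluated on the class a • C equals χ evaluated on C, for all a, χ and C. Then every element of A fixes exactly as many irreducible characters as it fixes conjugacy classes. -/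
theorem result {G : Type*} [Group G] [Finite G] {A : Type*} [Group A] [MulAction A (Cfsg.IrrCharacter G)] [MulAction A (ConjClasses G)] (hcompat : ∀ (a : A) (χ : Cfsg.IrrCharacter G) (g g' : G), ConjClasses.mk g' = a • ConjClasses.mk g → ((a • χ : Cfsg.IrrCharacter G) : G → ℂ) g' = (χ : G → ℂ) g) (a : A) : Nat.card {χ : Cfsg.IrrCharacter G // a • χ = χ} = Nat.card {C : ConjClasses G // a • C = C} := by
  classical
  cases nonempty_fintype G
  have := Fintype.ofFinite (IrrCharacter G)
  have := Fintype.ofFinite (ConjClasses G)
  have hr : ∀ C : ConjClasses G, ConjClasses.mk (Quotient.out C) = C := by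
    intro C
    rw [← ConjClasses.quotient_mk_eq_mk]; exact Quotient.out_eq C
  have hG : (Nat.card G : ℂ) ≠ 0 := card_ne_zero G
  set X : IrrCharacter G → ConjClasses G → ℂ := fun χ C => (χ : G → ℂ) (Quotient.out C) with hX
  set Y : ConjClasses G → IrrCharacter G → ℂ := fun C χ =>
    ((Subgroup.centralizer ({Quotient.out C} : Set G)).index : ℂ) / (Nat.card G : ℂ) *
      conj ((χ : G → ℂ) (Quotient.out C)) with hY
  -- row orthogonality
  have RO : ∀ χ ψ : IrrCharacter G, ∑ C : ConjClasses G, X χ C * Y C ψ = if χ = ψ then 1 else 0 := by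
    intro χ ψ
    rw [← irr_orthonormal χ ψ]
    unfold classInner
    have hcf : IsClassFunction G (fun g => (χ : G → ℂ) g * conj ((ψ : G → ℂ) g)) := by
      intro g h
      simp only
      rw [irr_classFunction χ.2, irr_classFunction ψ.2]
    have h1 := sum_eq_sum_conjClasses hcf
    rw [h1, Finset.mul_sum]
    apply Finset.sum_congr
    · ext C; simp
    · intro C _
      simp only [hX, hY]
      field_simp
  -- column orthogonality
  have CO : ∀ C D : ConjClasses G, ∑ χ : IrrCharacter G, Y C χ * X χ D = if C = D then 1 else 0 := by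
    intro C D
    have h1 : ∑ χ : IrrCharacter G, Y C χ * X χ D =
        ((Subgroup.centralizer ({Quotient.out C} : Set G)).index : ℂ) / (Nat.card G : ℂ) *
          ∑ χ : IrrCharacter G, (χ : G → ℂ) (Quotient.out D) * conj ((χ : G → ℂ) (Quotient.out C)) := by
      rw [Finset.mul_sum]
      apply Finset.sum_congr rfl
      intro χ _
      simp only [hX, hY]
      ring
    rw [h1, column_orthogonality]
    have hiff : IsConj (Quotient.out C) (Quotient.out D) ↔ C = D := by
      rw [← ConjClasses.mk_eq_mk_iff_isConj, hr, hr]
    by_cases hCD : C = D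
    · rw [if_pos (hiff.mpr hCD), if_pos hCD]
      have := index_mul_card_centralizer (Quotient.out C)
      field_simp
      rw [this]
    · rw [if_neg (fun h => hCD (hiff.mp h)), if_neg hCD, mul_zero]
  -- compatibility
  have hcomp : ∀ (χ : IrrCharacter G) (C : ConjClasses G), X (a • χ) (a • C) = X χ C := by
    intro χ C
    simp only [hX]
    apply hcompat a χ
    rw [hr, hr]
  -- the count
  have h1 : (Nat.card {χ : IrrCharacter G // a • χ = χ} : ℂ) =
      ∑ χ : IrrCharacter G, if a • χ = χ then (1 : ℂ) else 0 := by
    rw [Finset.sum_boole, Nat.card_eq_fintype_card, Fintype.card_subtype]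
  have h2 : (Nat.card {C : ConjClasses G // a • C = C} : ℂ) =
      ∑ C : ConjClasses G, if a • C = C then (1 : ℂ) else 0 := by
    rw [Finset.sum_boole, Nat.card_eq_fintype_card, Fintype.card_subtype]
  apply Nat.cast_injective (R := ℂ)
  rw [h1, h2]
  calc ∑ χ : IrrCharacter G, (if a • χ = χ then (1 : ℂ) else 0)
      = ∑ χ : IrrCharacter G, ∑ C : ConjClasses G, X (a • χ) C * Y C χ := by
        apply Finset.sum_congr rfl
        intro χ _
        rw [RO]
    _ = ∑ χ : IrrCharacter G, ∑ D : ConjClasses G, X (a • χ) (a • D) * Y (a • D) χ := by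
        apply Finset.sum_congr rfl
        intro χ _
        exact (Equiv.sum_comp (MulAction.toPerm a) (fun C => X (a • χ) C * Y C χ)).symm
    _ = ∑ χ : IrrCharacter G, ∑ D : ConjClasses G, Y (a • D) χ * X χ D := by
        apply Finset.sum_congr rfl
        intro χ _
        apply Finset.sum_congr rfl
        intro D _
        rw [hcomp, mul_comm]
    _ = ∑ D : ConjClasses G, ∑ χ : IrrCharacter G, Y (a • D) χ * X χ D := Finset.sum_comm
    _ = ∑ D : ConjClasses G, if a • D = D then (1 : ℂ) else 0 := by
        apply Finset.sum_congr rfl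
        intro D _
        rw [CO]

end Cfsg.Agent.S0860
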