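import Mathlib
import Cfsg.Statements.S0861
import Cfsg.Agent.Lib.Helper20.Ito
import Cfsg.Agent.Lib.Helper83.Ortho
import Cfsg.Agent.Lib.Helper83.Quot

set_option autoImplicit false
open Cfsg

namespace Cfsg.Agent.S0861

open Cfsg.Agent.Lib Cfsg.Agent.Lib.Helper20
open scoped ComplexConjugate
open scoped commutatorElement

/-- A character of degree prime to `p` does not vanish on `p`-elements. -/
theorem char_ne_zero_of_prime_pow {G : Type*} [Group G] [Finite G] {V : Type*} [AddCommGroup V]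
    [Module ℂ V] [FiniteDimensional ℂ V] (ρ : Representation ℂ G V) (p : ℕ) [hp : Fact p.Prime]
    (g : G) (a : ℕ) (hg : orderOf g = p ^ a) (hpn : ¬ p ∣ Module.finrank ℂ V) :
    ρ.character g ≠ 0 := by
  intro h0
  obtain ⟨ι, hι, hd, v, μ, h1, h2, -, -⟩ := Helper4.exists_eigenbasis_rep ρ g
  rw [Representation.character, Helper4.trace_eq_sum_of_eigenbasis v (ρ g) μ h1] at h0
  rw [Module.finrank_eq_card_basis v] at hpn
  rcases a with _ | a
  · rw [pow_zero] at hg
    simp only [hg, pow_one] at h2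
    simp only [h2, Finset.sum_const, Finset.card_univ, nsmul_eq_mul, mul_one] at h0
    have h3 : Fintype.card ι = 0 := by exact_mod_cast h0
    exact hpn (h3 ▸ dvd_zero p)
  · have hopos : 0 < p ^ (a + 1) := pow_pos hp.out.pos _
    have hζ : IsPrimitiveRoot (Complex.exp (2 * Real.pi * Complex.I / (p ^ (a + 1) : ℕ)))
        (p ^ (a + 1)) := Complex.isPrimitiveRoot_exp _ hopos.ne'
    set ζ : ℂ := Complex.exp (2 * Real.pi * Complex.I / (p ^ (a + 1) : ℕ)) with hζdef
    have hm : ∀ i, ∃ m : ℕ, ζ ^ m = μ i := by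
      intro i
      obtain ⟨m, -, hm⟩ := hζ.eq_pow_of_pow_eq_one (by rw [← hg]; exact h2 i)
      exact ⟨m, hm⟩
    choose m hm using hm
    have hQ : Polynomial.aeval ζ (∑ i, (Polynomial.X : Polynomial ℤ) ^ m i) = 0 := by
      simp only [map_sum, map_pow, Polynomial.aeval_X, hm]
      exact h0
    have hmin : Polynomial.cyclotomic (p ^ (a + 1)) ℤ = minpoly ℤ ζ :=
      Polynomial.cyclotomic_eq_minpoly hζ hopos
    have hdvd : Polynomial.cyclotomic (p ^ (a + 1)) ℤ ∣ ∑ i, (Polynomial.X : Polynomial ℤ) ^ m i := by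
      rw [hmin]
      exact minpoly.isIntegrallyClosed_dvd (hζ.isIntegral hopos) hQ
    obtain ⟨R, hR⟩ := hdvd
    have h1' := congrArg (Polynomial.eval 1) hR
    rw [Polynomial.eval_mul, Polynomial.eval_one_cyclotomic_prime_pow] at h1'
    simp only [Polynomial.eval_finsetSum, Polynomial.eval_pow, Polynomial.eval_X, one_pow,
      Finset.sum_const, Finset.card_univ, nsmul_eq_mul, mul_one] at h1'
    apply hpn
    have h4 : (p : ℤ) ∣ (Fintype.card ι : ℤ) := ⟨_, h1'⟩
    exact_mod_cast h4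

section cyc

variable {Z : Type*} [Group Z] (p : ℕ) (ν : Z →* ℂˣ)

theorem geom_nu (hν : ∀ z, ν z ^ p = 1) (z : Z) :
    ∑ t ∈ Finset.range p, ((ν z : ℂˣ) : ℂ) ^ t = if ν z = 1 then (p : ℂ) else 0 := by
  split_ifs with h
  · rw [h]; simp
  · have hx : ((ν z : ℂˣ) : ℂ) ≠ 1 := by
      intro h1
      exact h (Units.ext h1)
    have hxp : ((ν z : ℂˣ) : ℂ) ^ p = 1 := by
      rw [← Units.val_pow_eq_pow_val, hν z]; rfl
    rw [geom_sum_eq hx, hxp, sub_self, zero_div]

theorem nu_pow_ne_one [hp : Fact p.Prime] (hν : ∀ z, ν z ^ p = 1) (g₀ : Z) (hg₀ : ν g₀ ≠ 1)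
    (t : ℕ) (ht0 : 0 < t) (htp : t < p) : ν g₀ ^ t ≠ 1 := by
  intro h
  have h1 : orderOf (ν g₀) ∣ p := orderOf_dvd_of_pow_eq_one (hν g₀)
  rcases (Nat.dvd_prime hp.out).mp h1 with h2 | h2
  · exact hg₀ (orderOf_eq_one_iff.mp h2)
  · have h3 : orderOf (ν g₀) ∣ t := orderOf_dvd_of_pow_eq_one h
    rw [h2] at h3
    exact absurd (Nat.le_of_dvd ht0 h3) (by omega)

variable [Fintype Z] [hp : Fact p.Prime]

open scoped Classical in
theorem count_nu (hν : ∀ z, ν z ^ p = 1) (g₀ : Z) (hg₀ : ν g₀ ≠ 1) :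
    ((Finset.univ.filter (fun z => ν z ≠ 1)).card : ℝ) * p = Fintype.card Z * ((p : ℝ) - 1) := by
  have h1 : ∑ z : Z, ∑ t ∈ Finset.range p, ((ν z : ℂˣ) : ℂ) ^ t = (Fintype.card Z : ℂ) := by
    rw [Finset.sum_comm]
    obtain ⟨p', rfl⟩ : ∃ p', p = p' + 1 := ⟨p - 1, by have := hp.out.pos; omega⟩
    rw [Finset.sum_range_succ']
    have h2 : ∀ t ∈ Finset.range p', ∑ z : Z, ((ν z : ℂˣ) : ℂ) ^ (t + 1) = 0 := by
      intro t ht
      have h3 := sum_hom_units_eq_zero ((Units.coeHom ℂ).comp (ν ^ (t + 1))) (by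
        intro h4
        have h5 := congrArg (fun φ : Z →* ℂ => φ g₀) h4
        simp only [MonoidHom.coe_comp, Function.comp_apply, MonoidHom.pow_apply,
          Units.coeHom_apply, MonoidHom.one_apply] at h5
        exact nu_pow_ne_one (p' + 1) ν hν g₀ hg₀ (t + 1) (by omega)
          (by have := Finset.mem_range.mp ht; omega) (Units.ext h5))
      simpa [MonoidHom.pow_apply] using h3
    rw [Finset.sum_eq_zero h2, zero_add]
    simp
  simp only [geom_nu p ν hν] at h1
  rw [← Finset.sum_filter, Finset.sum_const, nsmul_eq_mul] at h1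
  have h6 := Finset.card_filter_add_card_filter_not (s := (Finset.univ : Finset Z))
    (fun z => ν z = 1)
  rw [Finset.card_univ] at h6
  have h7 : ((Finset.univ.filter (fun z => ν z = 1)).card : ℝ) * p = Fintype.card Z := by
    exact_mod_cast h1
  have h8 : ((Finset.univ.filter (fun z => ν z = 1)).card : ℝ) +
      ((Finset.univ.filter (fun z => ¬ ν z = 1)).card : ℝ) = Fintype.card Z := by
    exact_mod_cast h6
  have h9 : ((Finset.univ.filter (fun z => ν z ≠ 1)).card : ℝ) =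
      Fintype.card Z - ((Finset.univ.filter (fun z => ν z = 1)).card : ℝ) := by
    rw [← h8]; simp
  rw [h9, sub_mul, h7]
  ring

open scoped Classical in
theorem bound_nu (hν : ∀ z, ν z ^ p = 1) (g₀ : Z) (hg₀ : ν g₀ ≠ 1) (f : Z → ℂ)
    (hf : IsCharacter Z f) (hfg : f g₀ ≠ 0) :
    ((Finset.univ.filter (fun z => ν z ≠ 1)).card : ℝ) ≤
      ∑ z ∈ Finset.univ.filter (fun z => ν z ≠ 1), ‖f z‖ ^ 2 := by
  have hZ : (Fintype.card Z : ℂ) ≠ 0 := by exact_mod_cast Fintype.card_ne_zero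
  have hchar : ∀ t : ℕ, IsCharacter Z ((fun z => ((ν z : ℂˣ) : ℂ) ^ t) * f) := by
    intro t
    apply Helper35.isCharacter_mul _ hf
    have h1 := Helper35.isChar_of_irr (Helper83.isIrr_of_hom (ν ^ t))
    have h2 : (fun g => (((ν ^ t) g : ℂˣ) : ℂ)) = fun z => ((ν z : ℂˣ) : ℂ) ^ t := by
      funext z
      rw [MonoidHom.pow_apply, Units.val_pow_eq_pow_val]
    rwa [h2] at h1
  have hn : ∀ t : ℕ, ∃ k : ℕ, classInner ((fun z => ((ν z : ℂˣ) : ℂ) ^ t) * f) f = k :=
    fun t => Helper35.classInner_char_nat (hchar t) hf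
  choose n hn using hn
  have hsum : ∀ t : ℕ, ∑ z : Z, ((ν z : ℂˣ) : ℂ) ^ t * (f z * conj (f z)) =
      (Fintype.card Z : ℂ) * n t := by
    intro t
    rw [← hn t]
    unfold classInner
    rw [Nat.card_eq_fintype_card, ← mul_assoc, mul_inv_cancel₀ hZ, one_mul]
    apply Finset.sum_congr rfl
    intro z _
    simp only [Pi.mul_apply]
    ring
  have hq : ∀ z : Z, f z * conj (f z) = ((‖f z‖ ^ 2 : ℝ) : ℂ) := by
    intro z
    rw [Complex.mul_conj']
    push_cast; rfl
  have hnorm : ∀ z : Z, ‖((ν z : ℂˣ) : ℂ)‖ = 1 := by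
    intro z
    apply Complex.norm_eq_one_of_pow_eq_one (n := p) _ hp.out.ne_zero
    rw [← Units.val_pow_eq_pow_val, hν z]; rfl
  have hdiff : ∀ t : ℕ, ∑ z : Z, (1 - ((ν z : ℂˣ) : ℂ) ^ t) * (f z * conj (f z)) =
      (Fintype.card Z : ℂ) * ((n 0 : ℂ) - n t) := by
    intro t
    have h2 := hsum 0
    have h3 := hsum t
    simp only [pow_zero, one_mul] at h2
    simp only [sub_mul, one_mul, Finset.sum_sub_distrib, h2, h3]
    ring
  have hlt : ∀ t : ℕ, 0 < t → t < p → n t < n 0 := by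
    intro t ht0 htp
    have h4 := congrArg Complex.re (hdiff t)
    simp only [hq] at h4
    rw [Complex.re_sum] at h4
    have h5 : ∀ z : Z, ((1 - ((ν z : ℂˣ) : ℂ) ^ t) * ((‖f z‖ ^ 2 : ℝ) : ℂ)).re =
        (1 - (((ν z : ℂˣ) : ℂ) ^ t).re) * ‖f z‖ ^ 2 := by
      intro z
      rw [Complex.re_mul_ofReal]; simp
    simp only [h5] at h4
    have h6 : ∀ z : Z, 0 ≤ (1 - (((ν z : ℂˣ) : ℂ) ^ t).re) * ‖f z‖ ^ 2 := by
      intro z
      apply mul_nonneg _ (sq_nonneg _)
      have := Complex.re_le_norm (((ν z : ℂˣ) : ℂ) ^ t)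
      rw [norm_pow, hnorm z, one_pow] at this
      linarith
    have h7 : 0 < (1 - (((ν g₀ : ℂˣ) : ℂ) ^ t).re) * ‖f g₀‖ ^ 2 := by
      apply mul_pos
      · have hw : ((ν g₀ : ℂˣ) : ℂ) ^ t ≠ 1 := by
          intro h
          apply nu_pow_ne_one p ν hν g₀ hg₀ t ht0 htp
          apply Units.ext
          rw [Units.val_pow_eq_pow_val, h]; rfl
        have hw1 : ‖((ν g₀ : ℂˣ) : ℂ) ^ t‖ = 1 := by rw [norm_pow, hnorm, one_pow]
        by_contra hcon
        push Not at hcon
        apply hw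
        have h8 := Complex.sq_norm (((ν g₀ : ℂˣ) : ℂ) ^ t)
        rw [hw1, Complex.normSq_apply] at h8
        apply Complex.ext
        · simp only [Complex.one_re]; nlinarith
        · simp only [Complex.one_im]; nlinarith
      · have : 0 < ‖f g₀‖ := norm_pos_iff.mpr hfg
        positivity
    have h9 : 0 < ∑ z : Z, (1 - (((ν z : ℂˣ) : ℂ) ^ t).re) * ‖f z‖ ^ 2 :=
      Finset.sum_pos' (fun z _ => h6 z) ⟨g₀, Finset.mem_univ _, h7⟩
    rw [h4] at h9
    have h10 : ((Fintype.card Z : ℂ) * ((n 0 : ℂ) - n t)).re =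
        (Fintype.card Z : ℝ) * ((n 0 : ℝ) - n t) := by
      simp
    rw [h10] at h9
    have h11 : (0 : ℝ) < (n 0 : ℝ) - n t := by
      by_contra hcon
      push Not at hcon
      have : (Fintype.card Z : ℝ) * ((n 0 : ℝ) - n t) ≤ 0 :=
        mul_nonpos_of_nonneg_of_nonpos (Nat.cast_nonneg _) hcon
      linarith
    have : (n t : ℝ) < n 0 := by linarith
    exact_mod_cast this
  have hI : (∑ z ∈ Finset.univ.filter (fun z => ν z ≠ 1), ((‖f z‖ ^ 2 : ℝ) : ℂ)) * p =
      ∑ t ∈ Finset.range p, (Fintype.card Z : ℂ) * ((n 0 : ℂ) - n t) := by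
    simp only [← hdiff]
    rw [Finset.sum_comm]
    rw [Finset.sum_filter, Finset.sum_mul]
    apply Finset.sum_congr rfl
    intro z _
    rw [← Finset.sum_mul, Finset.sum_sub_distrib, geom_nu p ν hν z]
    simp only [Finset.sum_const, Finset.card_range, nsmul_eq_mul, mul_one, hq]
    by_cases h : ν z = 1
    · rw [if_neg (not_not.mpr h), if_pos h]; ring
    · rw [if_pos h, if_neg h]; ring
  have hI' : (∑ z ∈ Finset.univ.filter (fun z => ν z ≠ 1), ‖f z‖ ^ 2) * p =
      ∑ t ∈ Finset.range p, (Fintype.card Z : ℝ) * ((n 0 : ℝ) - n t) := by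
    exact_mod_cast hI
  have hge : (Fintype.card Z : ℝ) * ((p : ℝ) - 1) ≤
      ∑ t ∈ Finset.range p, (Fintype.card Z : ℝ) * ((n 0 : ℝ) - n t) := by
    rw [← Finset.mul_sum]
    apply mul_le_mul_of_nonneg_left _ (Nat.cast_nonneg _)
    obtain ⟨p', hp'⟩ : ∃ p', p = p' + 1 := ⟨p - 1, by have := hp.out.pos; omega⟩
    rw [hp', Finset.sum_range_succ']
    have h1 : ∀ t ∈ Finset.range p', (1 : ℝ) ≤ (n 0 : ℝ) - n (t + 1) := by
      intro t ht
      have h2 := hlt (t + 1) (by omega) (by have := Finset.mem_range.mp ht; omega)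
      have h3 : (n (t + 1) : ℝ) + 1 ≤ n 0 := by exact_mod_cast h2
      linarith
    have h4 := Finset.sum_le_sum h1
    simp only [Finset.sum_const, Finset.card_range, nsmul_eq_mul, mul_one] at h4
    push_cast
    linarith
  have hc := count_nu p ν hν g₀ hg₀
  have hp0 : (0 : ℝ) < p := by exact_mod_cast hp.out.pos
  have : ((Finset.univ.filter (fun z => ν z ≠ 1)).card : ℝ) * p ≤
      (∑ z ∈ Finset.univ.filter (fun z => ν z ≠ 1), ‖f z‖ ^ 2) * p := by
    rw [hc, hI']; exact hge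
  exact le_of_mul_le_mul_right this hp0

end cyc

section key

variable {G : Type*} [Group G]

/-- for an element of order `p^(a+1)`, a linear character of `zpowers g` of order `p` -/
theorem exists_nu (p : ℕ) [hp : Fact p.Prime] (g : G) (a : ℕ) (hg : orderOf g = p ^ (a + 1)) :
    ∃ ν : Subgroup.zpowers g →* ℂˣ, (∀ z, ν z ^ p = 1) ∧ ν ⟨g, Subgroup.mem_zpowers g⟩ ≠ 1 ∧
      ∀ z : Subgroup.zpowers g, ν z ≠ 1 → g ∈ Subgroup.zpowers (z : G) := by
  set g₀ : Subgroup.zpowers g := ⟨g, Subgroup.mem_zpowers g⟩ with hg₀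
  have hgen : ∀ x : Subgroup.zpowers g, x ∈ Subgroup.zpowers g₀ := by
    intro x
    obtain ⟨k, hk⟩ := Subgroup.mem_zpowers_iff.mp x.2
    exact Subgroup.mem_zpowers_iff.mpr ⟨k, Subtype.ext (by rw [Subgroup.coe_zpow]; exact hk)⟩
  have hord : orderOf g₀ = p ^ (a + 1) := by
    rw [← hg, ← Subgroup.orderOf_coe g₀]
  have hω : IsPrimitiveRoot (Complex.exp (2 * Real.pi * Complex.I / p)) p :=
    Complex.isPrimitiveRoot_exp p hp.out.ne_zero
  obtain ⟨ω, hω'⟩ : ∃ ω : ℂˣ, (ω : ℂ) = Complex.exp (2 * Real.pi * Complex.I / p) :=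
    ⟨Units.mk0 _ (Complex.exp_ne_zero _), rfl⟩
  have hωu : IsPrimitiveRoot ω p := by
    rw [← IsPrimitiveRoot.coe_units_iff, hω']; exact hω
  have hωord : orderOf ω = p := hωu.eq_orderOf.symm
  have hdvd : orderOf ω ∣ orderOf g₀ := by
    rw [hωord, hord]; exact dvd_pow_self p (Nat.succ_ne_zero a)
  let ν : Subgroup.zpowers g →* ℂˣ := monoidHomOfForallMemZpowers hgen hdvd
  have hν₀ : ν g₀ = ω := monoidHomOfForallMemZpowers_apply_gen hgen hdvd
  have hωp : ω ^ p = 1 := by rw [← hωord]; exact pow_orderOf_eq_one ω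
  refine ⟨ν, ?_, ?_, ?_⟩
  · intro z
    obtain ⟨k, hk⟩ := Subgroup.mem_zpowers_iff.mp (hgen z)
    rw [← hk, map_zpow, hν₀, ← zpow_natCast, ← zpow_mul, mul_comm, zpow_mul, zpow_natCast, hωp,
      one_zpow]
  · rw [hν₀]
    intro h
    rw [h, orderOf_one] at hωord
    exact hp.out.one_lt.ne hωord
  · intro z hz
    obtain ⟨k, hk⟩ := Subgroup.mem_zpowers_iff.mp (hgen z)
    rw [← hk, map_zpow, hν₀] at hz
    have hpk : ¬ (p : ℤ) ∣ k := by
      intro hdiv
      apply hz
      obtain ⟨c, rfl⟩ := hdiv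
      rw [zpow_mul, zpow_natCast, hωp, one_zpow]
    have hcop : IsCoprime k ((p : ℤ) ^ (a + 1)) := by
      apply IsCoprime.pow_right
      rw [isCoprime_comm]
      exact (Nat.prime_iff_prime_int.mp hp.out).coprime_iff_not_dvd.mpr hpk
    obtain ⟨u, v, huv⟩ := hcop
    rw [Subgroup.mem_zpowers_iff]
    refine ⟨u, ?_⟩
    have hz' : (z : G) = g ^ k := by
      rw [← hk, Subgroup.coe_zpow]
    have hgo : g ^ ((p : ℤ) ^ (a + 1)) = 1 := by
      have : ((p : ℤ) ^ (a + 1)) = ((p ^ (a + 1) : ℕ) : ℤ) := by push_cast; rfl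
      rw [this, zpow_natCast, ← hg, pow_orderOf_eq_one]
    have h3 : k * u = 1 - v * (p : ℤ) ^ (a + 1) := by linarith
    rw [hz', ← zpow_mul, h3, zpow_sub, zpow_one, zpow_mul', hgo, one_zpow, inv_one, mul_one]

variable [Fintype G]

theorem key (p : ℕ) [hp : Fact p.Prime] (P : Sylow p G) [(P : Subgroup G).Normal]
    (hab : ∀ a ∈ P, ∀ b ∈ P, a * b = b * a) (g : G) (hg : g ∈ P)
    (hC : Subgroup.centralizer ({g} : Set G) = P) :
    ∃ S : Finset G, S.Nonempty ∧ (∀ z ∈ S, z ∈ P ∧ Subgroup.centralizer ({z} : Set G) = P) ∧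
      ∀ χ : G → ℂ, IsIrrCharacter G χ → (S.card : ℝ) ≤ ∑ z ∈ S, ‖χ z‖ ^ 2 := by
  classical
  obtain ⟨a, ha⟩ : ∃ a, orderOf g = p ^ a := by
    obtain ⟨k, hk⟩ := P.isPGroup' ⟨g, hg⟩
    have h1 : g ^ p ^ k = 1 := by simpa using congrArg Subtype.val hk
    obtain ⟨a, -, ha⟩ := (Nat.dvd_prime_pow hp.out).mp (orderOf_dvd_of_pow_eq_one h1)
    exact ⟨a, ha⟩
  rcases a with _ | a
  · have hg1 : g = 1 := by rwa [pow_zero, orderOf_eq_one_iff] at ha
    refine ⟨{1}, Finset.singleton_nonempty 1, ?_, ?_⟩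
    · intro z hz
      rw [Finset.mem_singleton] at hz
      rw [hz]
      exact ⟨one_mem _, by rw [← hg1]; exact hC⟩
    · intro χ hχ
      rw [Finset.card_singleton, Finset.sum_singleton]
      obtain ⟨hpos, h1⟩ := Helper83.irr_degree hχ
      rw [h1, Complex.norm_natCast]
      have h2 : (1 : ℝ) ≤ charDegree χ := by exact_mod_cast hpos
      push_cast; nlinarith
  · obtain ⟨ν, hν, hνg, hgen⟩ := exists_nu p g a ha
    have hZP : Subgroup.zpowers g ≤ P := (Subgroup.zpowers_le).mpr hg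
    refine ⟨(Finset.univ.filter (fun z => ν z ≠ 1)).map ⟨Subtype.val, Subtype.val_injective⟩,
      ?_, ?_, ?_⟩
    · exact ⟨g, Finset.mem_map.mpr ⟨⟨g, Subgroup.mem_zpowers g⟩,
        Finset.mem_filter.mpr ⟨Finset.mem_univ _, hνg⟩, rfl⟩⟩
    · intro z hz
      obtain ⟨z₀, hz₀, rfl⟩ := Finset.mem_map.mp hz
      have hz₁ := (Finset.mem_filter.mp hz₀).2
      refine ⟨hZP z₀.2, ?_⟩
      rw [← hC]
      ext x
      simp only [Subgroup.mem_centralizer_iff, Set.mem_singleton_iff, forall_eq,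
        Function.Embedding.coeFn_mk]
      constructor
      · intro h
        obtain ⟨j, hj⟩ := Subgroup.mem_zpowers_iff.mp (hgen z₀ hz₁)
        rw [← hj]
        exact (Commute.zpow_left (show Commute (z₀ : G) x from h) j).eq
      · intro h
        obtain ⟨j, hj⟩ := Subgroup.mem_zpowers_iff.mp z₀.2
        rw [← hj]
        exact (Commute.zpow_left (show Commute g x from h) j).eq
    · intro χ hχ
      rw [Finset.card_map, Finset.sum_map]
      have hcharχ := Helper35.isChar_of_irr hχ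
      apply bound_nu p ν hν ⟨g, Subgroup.mem_zpowers g⟩ hνg (fun z => χ z)
        (Helper35.isCharacter_res _ hcharχ)
      show χ g ≠ 0
      have hito := ito (P : Subgroup G) hab hχ
      obtain ⟨hpos, h1⟩ := Helper83.irr_degree hχ
      obtain ⟨n, ρ, hρ, rfl⟩ := hχ
      apply char_ne_zero_of_prime_pow ρ p g (a + 1) ha
      have hn : charDegree ρ.character = Module.finrank ℂ (Fin n → ℂ) := by
        rw [Representation.char_one] at h1
        exact_mod_cast h1.symm
      rw [← hn]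
      intro hdiv
      exact P.not_dvd_index (dvd_trans hdiv hito)

end key

/-- Let P be a normal abelian Sylow p-subgroup of the finite group G and suppose some element g of P has centralizer exactly P. Then the number of irreducible characters of G is at most the order of P, and if equality holds then G / P is abelian (the commutator subgroup lies in P). -/
theorem result {G : Type*} [Group G] [Finite G] (p : ℕ) [Fact p.Prime] (P : Sylow p G) [(P : Subgroup G).Normal] (hab : ∀ a ∈ P, ∀ b ∈ P, a * b = b * a) (g : G) (hg : g ∈ P) (hC : Subgroup.centralizer ({g} : Set G) = P) : Nat.card (Cfsg.IrrCharacter G) ≤ Nat.card P ∧ (Nat.card (Cfsg.IrrCharacter G) = Nat.card P → commutator G ≤ P) := by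
  classical
  let _ : Fintype G := Fintype.ofFinite G
  have := Helper4.irr_finite (G := G)
  let _ : Fintype (IrrCharacter G) := Fintype.ofFinite _
  obtain ⟨S, hSne, hS, hbound⟩ := key p P hab g hg hC
  have hcol : ∀ z ∈ S, ∑ χ : IrrCharacter G, ‖(χ : G → ℂ) z‖ ^ 2 = (Nat.card P : ℝ) := by
    intro z hz
    have h1 := Helper83.column_orthogonality_conj (G := G) (IsConj.refl z)
    rw [(hS z hz).2] at h1
    have h2 : ∑ χ : IrrCharacter G, (χ : G → ℂ) z * conj ((χ : G → ℂ) z) =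
        ((∑ χ : IrrCharacter G, ‖(χ : G → ℂ) z‖ ^ 2 : ℝ) : ℂ) := by
      push_cast
      apply Finset.sum_congr rfl
      intro χ _
      rw [Complex.mul_conj']
    rw [h2] at h1
    exact_mod_cast h1
  have htotal : ∑ χ : IrrCharacter G, ∑ z ∈ S, ‖(χ : G → ℂ) z‖ ^ 2 =
      (S.card : ℝ) * Nat.card P := by
    rw [Finset.sum_comm, Finset.sum_congr rfl hcol, Finset.sum_const, nsmul_eq_mul]
  have hSpos : (0 : ℝ) < S.card := by exact_mod_cast Finset.card_pos.mpr hSne
  have hK : Nat.card (IrrCharacter G) = Fintype.card (IrrCharacter G) := Nat.card_eq_fintype_card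
  have hle : (Fintype.card (IrrCharacter G) : ℝ) * S.card ≤ (S.card : ℝ) * Nat.card P := by
    rw [← htotal]
    calc (Fintype.card (IrrCharacter G) : ℝ) * S.card = ∑ χ : IrrCharacter G, (S.card : ℝ) := by
          rw [Finset.sum_const, Finset.card_univ, nsmul_eq_mul]
      _ ≤ _ := Finset.sum_le_sum (fun χ _ => hbound χ χ.2)
  constructor
  · rw [hK]
    have h1 : (Fintype.card (IrrCharacter G) : ℝ) ≤ Nat.card P := by
      by_contra hcon
      push Not at hcon
      nlinarith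
    exact_mod_cast h1
  · intro heq
    have heach : ∀ χ : IrrCharacter G, ∑ z ∈ S, ‖(χ : G → ℂ) z‖ ^ 2 = (S.card : ℝ) := by
      by_contra hcon
      push Not at hcon
      obtain ⟨χ₀, hχ₀⟩ := hcon
      have hlt : (S.card : ℝ) < ∑ z ∈ S, ‖(χ₀ : G → ℂ) z‖ ^ 2 :=
        lt_of_le_of_ne (hbound χ₀ χ₀.2) (Ne.symm hχ₀)
      have h1 : ∑ χ : IrrCharacter G, (S.card : ℝ) <
          ∑ χ : IrrCharacter G, ∑ z ∈ S, ‖(χ : G → ℂ) z‖ ^ 2 :=
        Finset.sum_lt_sum (fun χ _ => hbound χ χ.2) ⟨χ₀, Finset.mem_univ _, hlt⟩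
      rw [htotal, Finset.sum_const, Finset.card_univ, nsmul_eq_mul, ← hK, heq] at h1
      linarith
    have hQ : ∀ ψ : IrrCharacter (G ⧸ (P : Subgroup G)),
        charDegree (ψ : G ⧸ (P : Subgroup G) → ℂ) = 1 := by
      intro ψ
      have h1 := heach (Helper83.inflate (P : Subgroup G) ψ)
      have h2 : ∀ z ∈ S, ‖(Helper83.inflate (P : Subgroup G) ψ : G → ℂ) z‖ ^ 2 =
          ‖(ψ : G ⧸ (P : Subgroup G) → ℂ) 1‖ ^ 2 := by
        intro z hz
        rw [Helper83.inflate_apply, (QuotientGroup.eq_one_iff z).mpr (hS z hz).1]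
      rw [Finset.sum_congr rfl h2, Finset.sum_const, nsmul_eq_mul] at h1
      have h3 : ‖(ψ : G ⧸ (P : Subgroup G) → ℂ) 1‖ ^ 2 = 1 :=
        mul_left_cancel₀ hSpos.ne' (h1.trans (mul_one _).symm)
      obtain ⟨hpos, h4⟩ := Helper83.irr_degree ψ.2
      rw [h4, Complex.norm_natCast] at h3
      have h5 : (charDegree (ψ : G ⧸ (P : Subgroup G) → ℂ) : ℝ) = 1 := by
        have h6 : (0 : ℝ) < charDegree (ψ : G ⧸ (P : Subgroup G) → ℂ) := by exact_mod_cast hpos
        nlinarith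
      exact_mod_cast h5
    have := Helper4.irr_finite (G := G ⧸ (P : Subgroup G))
    let _ : Fintype (IrrCharacter (G ⧸ (P : Subgroup G))) := Fintype.ofFinite _
    have hsq := Helper83.sum_charDegree_sq (G := G ⧸ (P : Subgroup G))
    simp only [hQ, one_pow, Finset.sum_const, Finset.card_univ, smul_eq_mul, mul_one] at hsq
    have hlin := Helper83.card_linear' (G := G ⧸ (P : Subgroup G))
    have hall : Nat.card {χ : IrrCharacter (G ⧸ (P : Subgroup G)) //
        charDegree (χ : G ⧸ (P : Subgroup G) → ℂ) = 1} =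
        Nat.card (IrrCharacter (G ⧸ (P : Subgroup G))) := by
      apply Nat.card_congr
      exact Equiv.subtypeUnivEquiv hQ
    rw [hall, Nat.card_eq_fintype_card, hsq] at hlin
    have hbot : commutator (G ⧸ (P : Subgroup G)) = ⊥ := by
      have h1 := Subgroup.card_mul_index (commutator (G ⧸ (P : Subgroup G)))
      rw [← hlin] at h1
      have h2 : Nat.card (commutator (G ⧸ (P : Subgroup G))) = 1 := by
        have hpos : 0 < Nat.card (G ⧸ (P : Subgroup G)) := Nat.card_pos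
        exact Nat.eq_of_mul_eq_mul_right hpos (by rw [h1, one_mul])
      exact Subgroup.card_eq_one.mp h2
    rw [commutator_def, Subgroup.commutator_le]
    intro x _ y _
    rw [← QuotientGroup.eq_one_iff]
    have hmem : ⁅((x : G) : G ⧸ (P : Subgroup G)), (y : G ⧸ (P : Subgroup G))⁆ ∈
        commutator (G ⧸ (P : Subgroup G)) := by
      rw [commutator_def]
      exact Subgroup.commutator_mem_commutator (Subgroup.mem_top _) (Subgroup.mem_top _)
    rw [hbot, Subgroup.mem_bot] at hmem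
    exact hmem

end Cfsg.Agent.S0861
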