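import Mathlib
import Cfsg.Statements.S0869

set_option autoImplicit false
open Cfsg

namespace Cfsg.Agent.S0869

/-- Let S be a nonempty finite type and R an additive subgroup of the integer-valued functions on S that is closed under pointwise multiplication. If the constant function 1 is not in R, then there exist a point x of S and a prime p such that p divides f x for every f in R. -/
theorem result {S : Type*} [Finite S] [Nonempty S] (R : AddSubgroup (S → ℤ)) (hmul : ∀ f ∈ R, ∀ g ∈ R, f * g ∈ R) (h1 : (1 : S → ℤ) ∉ R) : ∃ (x : S) (p : ℕ), p.Prime ∧ ∀ f ∈ R, (p : ℤ) ∣ f x := by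
  classical
  by_contra hcon
  push Not at hcon
  -- for each x there is f ∈ R with f x = 1
  have key : ∀ x : S, ∃ f ∈ R, f x = 1 := by
    intro x
    let I : AddSubgroup ℤ := R.map (Pi.evalAddMonoidHom (fun _ : S => ℤ) x)
    obtain ⟨a, ha⟩ := Int.subgroup_cyclic I
    have hmem : ∀ f ∈ R, f x ∈ I := fun f hf => ⟨f, hf, rfl⟩
    by_cases h : a.natAbs = 1
    · have ha1 : (1 : ℤ) ∈ I := by
        rw [ha, AddSubgroup.mem_closure_singleton]
        rcases Int.natAbs_eq a with h' | h'
        · exact ⟨1, by rw [h', h]; simp⟩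
        · exact ⟨-1, by rw [h', h]; simp⟩
      obtain ⟨f, hf, hfx⟩ := ha1
      exact ⟨f, hf, hfx⟩
    · exfalso
      obtain ⟨p, hp, hpa⟩ := Nat.exists_prime_and_dvd h
      obtain ⟨f, hf, hfx⟩ := hcon x p hp
      apply hfx
      have : f x ∈ I := hmem f hf
      rw [ha, AddSubgroup.mem_closure_singleton] at this
      obtain ⟨n, hn⟩ := this
      rw [← hn]
      have hpa' : (p : ℤ) ∣ a := Int.natCast_dvd.mpr hpa
      simpa using Dvd.dvd.mul_left hpa' n
  have step : ∀ T : Finset S, ∃ r ∈ R, ∀ x ∈ T, r x = 1 := by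
    intro T
    induction T using Finset.induction_on with
    | empty => exact ⟨0, R.zero_mem, by simp⟩
    | insert x T hx ih =>
      obtain ⟨r, hr, hrT⟩ := ih
      obtain ⟨f, hf, hfx⟩ := key x
      refine ⟨r + f - r * f, R.sub_mem (R.add_mem hr hf) (hmul r hr f hf), ?_⟩
      intro y hy
      rcases Finset.mem_insert.mp hy with rfl | hy
      · simp [hfx]
      · simp [hrT y hy]
  have := Fintype.ofFinite S
  obtain ⟨r, hr, hrT⟩ := step Finset.univ
  apply h1
  have : r = 1 := by
    funext x
    simpa using hrT x (Finset.mem_univ x)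
  rwa [this] at hr

end Cfsg.Agent.S0869
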