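import Mathlib
import Cfsg.Statements.S0870
import Cfsg.Agent.Lib.Helper20.PermChar

set_option autoImplicit false
open Cfsg

namespace Cfsg.Agent.S0870

open MulAction Cfsg.Agent.Lib.Helper20

/-- For subgroups H and K of a finite group G, the pointwise product of the functions induced from the constant function 1 on H and on K is a sum, over subgroups U of H with natural-number coefficients, of the functions induced from the constant function 1 on U. -/
theorem result {G : Type*} [Group G] [Fintype G] (H K : Subgroup G) : ∃ a : Subgroup G → ℕ, (∀ U, a U ≠ 0 → U ≤ H) ∧ Cfsg.indFun H (fun _ => 1) * Cfsg.indFun K (fun _ => 1) = ∑ U : Subgroup G, (a U : ℂ) • Cfsg.indFun U (fun _ => 1) := by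
  classical
  have : Fintype (orbitRel.Quotient G ((G ⧸ H) × (G ⧸ K))) := Fintype.ofFinite _
  have hrep : ∀ o : orbitRel.Quotient G ((G ⧸ H) × (G ⧸ K)), ∃ p : (G ⧸ H) × (G ⧸ K),
      (Quotient.mk'' p : orbitRel.Quotient G ((G ⧸ H) × (G ⧸ K))) = o ∧
        p.1 = ((1 : G) : G ⧸ H) := by
    intro o
    induction o using Quotient.inductionOn' with
    | h p =>
      obtain ⟨g, hg⟩ := MulAction.exists_smul_eq G p.1 ((1 : G) : G ⧸ H)
      refine ⟨g • p, ?_, hg⟩
      exact Quotient.sound' (orbitRel_apply.mpr (mem_orbit p g))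
  choose r hr hr1 using hrep
  let S : orbitRel.Quotient G ((G ⧸ H) × (G ⧸ K)) → Subgroup G := fun o => stabilizer G (r o)
  refine ⟨fun U => (Finset.univ.filter (fun o => S o = U)).card, ?_, ?_⟩
  · intro U hU
    obtain ⟨o, ho⟩ := Finset.card_ne_zero.mp hU
    have ho' : S o = U := (Finset.mem_filter.mp ho).2
    rw [← ho']
    intro g hg
    have h1 : g • (r o) = r o := hg
    have h2 : g • (r o).1 = (r o).1 := congrArg Prod.fst h1
    rw [hr1] at h2
    have h3 : g ∈ stabilizer G ((1 : G) : G ⧸ H) := h2
    rwa [stabilizer_quotient] at h3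
  · funext x
    rw [Pi.mul_apply, indFun_one_eq_permChar, indFun_one_eq_permChar, Finset.sum_apply]
    simp only [Pi.smul_apply, smul_eq_mul]
    have h1 : ∑ U : Subgroup G, ((Finset.univ.filter (fun o => S o = U)).card : ℂ) *
        Cfsg.indFun U (fun _ => 1) x =
        ∑ o : orbitRel.Quotient G ((G ⧸ H) × (G ⧸ K)), Cfsg.indFun (S o) (fun _ => 1) x := by
      rw [← Finset.sum_fiberwise_of_maps_to (g := S) (t := Finset.univ)
        (fun o _ => Finset.mem_univ _) (fun o => Cfsg.indFun (S o) (fun _ => 1) x)]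
      apply Finset.sum_congr rfl
      intro U _
      rw [Finset.sum_congr rfl (fun o ho => by rw [(Finset.mem_filter.mp ho).2]),
        Finset.sum_const, nsmul_eq_mul]
    rw [h1, ← card_fixed_eq_sum_orbits r hr x]
    unfold permChar
    rw [← Nat.cast_mul, ← Nat.card_prod]
    congr 1
    apply Nat.card_congr
    exact
      { toFun := fun p => ⟨(p.1.1, p.2.1), Prod.ext p.1.2 p.2.2⟩
        invFun := fun q => (⟨q.1.1, congrArg Prod.fst q.2⟩, ⟨q.1.2, congrArg Prod.snd q.2⟩)
        left_inv := by intro p; rfl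
        right_inv := by intro q; rfl }

end Cfsg.Agent.S0870
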