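import Mathlib
import Cfsg.Statements.S0871
import Cfsg.Agent.Lib.Helper20.PermChar

set_option autoImplicit false
open Cfsg

namespace Cfsg.Agent.S0871

open MulAction Cfsg.Agent.Lib.Helper20

theorem conj_inv_pow {G : Type*} [Group G] (g b : G) (k : ℕ) :
    (g⁻¹ * b * g) ^ k = g⁻¹ * b ^ k * g := by
  have := conj_pow (a := g⁻¹) (b := b) (i := k)
  simpa using this

theorem conj_inv_zpow {G : Type*} [Group G] (g b : G) (k : ℤ) :
    (g⁻¹ * b * g) ^ k = g⁻¹ * b ^ k * g := by
  have := conj_zpow (a := g⁻¹) (b := b) (i := k)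
  simpa using this

/-- The quasi-elementary data attached to `x` and `p`, packaged as an existence statement inside
the normaliser `N` of the `p'`-part `C` of `⟨x⟩`. -/
theorem key {G : Type*} [Group G] [Finite G] (x : G) (p : ℕ) [hp : Fact p.Prime] :
    ∃ (c y : G) (i j : ℤ) (a m' : ℕ), x = c ^ i * y ^ j ∧ c = x ^ (p ^ a) ∧ y = x ^ m' ∧
      orderOf c = m' ∧ orderOf y = p ^ a ∧ Nat.Coprime m' p ∧
      x ∈ Subgroup.normalizer (Subgroup.zpowers c : Set G) ∧
      y ∈ Subgroup.normalizer (Subgroup.zpowers c : Set G) := by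
  have hm0 : orderOf x ≠ 0 := (orderOf_pos x).ne'
  obtain ⟨a, m', hpm', hm⟩ := Nat.exists_eq_pow_mul_and_not_dvd hm0 p hp.out.ne_one
  have hm'p : Nat.Coprime m' p := ((Nat.Prime.coprime_iff_not_dvd hp.out).mpr hpm').symm
  have hcop : Nat.Coprime (p ^ a) m' := Nat.Coprime.pow_left a hm'p.symm
  have hpa : 0 < p ^ a := pow_pos hp.out.pos a
  have hm'0 : 0 < m' := by
    rcases Nat.eq_zero_or_pos m' with h | h
    · rw [h, mul_zero] at hm; exact absurd hm hm0
    · exact h
  have hcord : orderOf (x ^ (p ^ a)) = m' := by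
    rw [orderOf_pow, hm, Nat.gcd_eq_right (dvd_mul_right _ _)]
    exact Nat.mul_div_cancel_left _ hpa
  have hyord : orderOf (x ^ m') = p ^ a := by
    rw [orderOf_pow, hm, Nat.gcd_eq_right (dvd_mul_left _ _)]
    exact Nat.mul_div_cancel _ hm'0
  obtain ⟨u, v, huv⟩ := Nat.isCoprime_iff_coprime.mpr hcop
  have hx : x = (x ^ (p ^ a)) ^ u * (x ^ m') ^ v := by
    rw [← zpow_natCast x (p ^ a), ← zpow_natCast x m', ← zpow_mul, ← zpow_mul, ← zpow_add,
      mul_comm _ u, mul_comm _ v, huv, zpow_one]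
  have hcent : ∀ k : ℕ, x ^ k ∈ Subgroup.centralizer (Subgroup.zpowers (x ^ (p ^ a)) : Set G) := by
    intro k
    rw [Subgroup.mem_centralizer_iff]
    intro h hh
    obtain ⟨l, rfl⟩ := Subgroup.mem_zpowers_iff.mp hh
    exact (((Commute.refl x).pow_left (p ^ a)).zpow_left l).pow_right k |>.eq
  refine ⟨x ^ (p ^ a), x ^ m', u, v, a, m', hx, rfl, rfl, hcord, hyord, hm'p, ?_, ?_⟩
  · have := hcent 1
    rw [pow_one] at this
    exact Subgroup.centralizer_le_normalizer _ this
  · exact Subgroup.centralizer_le_normalizer _ (hcent m')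

/-- Let x be an element of the finite group G and p a prime. Then there is a subgroup H having a cyclic normal subgroup C of order prime to p and p-power index in H, such that the value at x of the function induced from the constant function 1 on H is a natural number not divisible by p. -/
theorem result {G : Type*} [Group G] [Fintype G] (x : G) (p : ℕ) (hp : p.Prime) : ∃ H : Subgroup G, (∃ C : Subgroup G, C ≤ H ∧ H ≤ Subgroup.normalizer (C : Set G) ∧ IsCyclic C ∧ Nat.Coprime (Nat.card C) p ∧ ∃ k : ℕ, C.relIndex H = p ^ k) ∧ ∃ n : ℕ, Cfsg.indFun H (fun _ => 1) x = (n : ℂ) ∧ ¬ p ∣ n := by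
  classical
  have : Fact p.Prime := ⟨hp⟩
  obtain ⟨c, y, i, j, a, m', hxij, hc, hy, hcord, hyord, hm'p, hxN, hyN⟩ := key x p
  set C : Subgroup G := Subgroup.zpowers c with hC
  set N : Subgroup G := Subgroup.normalizer (C : Set G) with hN
  have hCN : C ≤ N := Subgroup.le_normalizer
  let y' : N := ⟨y, hyN⟩
  have hy'ord : orderOf y' = p ^ a := by
    rw [← hyord, ← Subgroup.orderOf_coe]
  have hPy : IsPGroup p (Subgroup.zpowers y') := by
    apply IsPGroup.of_card (n := a)
    rw [Nat.card_zpowers, hy'ord]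
  obtain ⟨Q, hQ⟩ := hPy.exists_le_sylow
  set C' : Subgroup N := C.subgroupOf N with hC'
  have hC'n : C'.Normal := Subgroup.normal_in_normalizer
  set H' : Subgroup N := C' ⊔ (Q : Subgroup N) with hH'
  set H : Subgroup G := H'.map N.subtype with hH
  have hCmap : C'.map N.subtype = C := Subgroup.map_subgroupOf_eq_of_le hCN
  have hCH : C ≤ H := by
    rw [← hCmap]
    exact Subgroup.map_mono le_sup_left
  have hHN : H ≤ N := Subgroup.map_subtype_le _
  have hmemH' : ∀ n : N, n ∈ H' ↔ (n : G) ∈ H := by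
    intro n
    rw [hH]
    exact (Subgroup.mem_map_iff_mem N.subtype_injective (x := n) (K := H')).symm
  have hcardC : Nat.card C = m' := by rw [hC, Nat.card_zpowers, hcord]
  -- relIndex
  have hrel : ∃ k : ℕ, C.relIndex H = p ^ k := by
    have h1 : C.relIndex H = C'.relIndex H' := by
      rw [← hCmap, hH]
      exact Subgroup.relIndex_map_map_of_injective C' H' N.subtype_injective
    have h2 : C'.relIndex H' = C'.relIndex (Q : Subgroup N) := Subgroup.relIndex_sup_left _ _
    have h3 : C'.relIndex (Q : Subgroup N) ∣ Nat.card (Q : Subgroup N) :=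
      Subgroup.relIndex_dvd_card _ _
    obtain ⟨n, hn⟩ := IsPGroup.iff_card.mp Q.isPGroup'
    rw [hn] at h3
    obtain ⟨k, _, hk⟩ := (Nat.dvd_prime_pow hp).mp h3
    exact ⟨k, by rw [h1, h2, hk]⟩
  -- elements of H' of order prime to p lie in C'
  have hpprime : ∀ d : N, d ∈ H' → d ^ m' = 1 → d ∈ C' := by
    intro d hd hdm
    have h1 : (QuotientGroup.mk' C') d ∈ H'.map (QuotientGroup.mk' C') :=
      Subgroup.mem_map_of_mem _ hd
    rw [hH', Subgroup.map_sup, QuotientGroup.map_mk'_self, bot_sup_eq] at h1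
    have hpg : IsPGroup p ((Q : Subgroup N).map (QuotientGroup.mk' C')) :=
      Q.isPGroup'.map _
    obtain ⟨k, hk⟩ := hpg ⟨_, h1⟩
    have hk' : ((QuotientGroup.mk' C') d) ^ (p ^ k) = 1 := by
      have := congrArg Subtype.val hk
      simpa using this
    have hm'' : ((QuotientGroup.mk' C') d) ^ m' = 1 := by
      rw [← map_pow, hdm, map_one]
    have ho1 := orderOf_dvd_of_pow_eq_one hk'
    have ho2 := orderOf_dvd_of_pow_eq_one hm''
    have hcop2 : Nat.Coprime (p ^ k) m' := Nat.Coprime.pow_left k hm'p.symm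
    have ho : orderOf ((QuotientGroup.mk' C') d) = 1 :=
      Nat.eq_one_of_dvd_coprimes hcop2 ho1 ho2
    have h5 : (QuotientGroup.mk' C') d = 1 := orderOf_eq_one_iff.mp ho
    exact (QuotientGroup.eq_one_iff d).mp h5
  -- e1
  have e1 : ∀ g : G, g⁻¹ * x * g ∈ H → g ∈ N := by
    intro g hg
    have hd : g⁻¹ * c * g ∈ H := by
      have := H.pow_mem hg (p ^ a)
      rwa [conj_inv_pow, ← hc] at this
    have hdN : g⁻¹ * c * g ∈ N := hHN hd
    have hd' : (⟨g⁻¹ * c * g, hdN⟩ : N) ∈ H' := (hmemH' _).mpr hd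
    have hdm : (⟨g⁻¹ * c * g, hdN⟩ : N) ^ m' = 1 := by
      apply Subtype.ext
      simp only [Subgroup.coe_pow, Subgroup.coe_one]
      rw [conj_inv_pow, ← hcord, pow_orderOf_eq_one]
      group
    have hdC : g⁻¹ * c * g ∈ C := by
      have := hpprime _ hd' hdm
      exact Subgroup.mem_subgroupOf.mp this
    have hginv : g⁻¹ ∈ N := by
      rw [hN]
      apply Subgroup.mem_normalizer_fintype
      intro n hn
      obtain ⟨k, rfl⟩ := Subgroup.mem_zpowers_iff.mp hn
      rw [inv_inv, ← conj_inv_zpow]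
      exact C.zpow_mem hdC k
    exact (Subgroup.inv_mem_iff N).mp hginv
  -- e2
  have e2 : ∀ g : G, g ∈ N → (g⁻¹ * x * g ∈ H ↔ g⁻¹ * y * g ∈ H) := by
    intro g hg
    constructor
    · intro h
      have := H.pow_mem h m'
      rwa [conj_inv_pow, ← hy] at this
    · intro h
      have hcg : g⁻¹ * c * g ∈ C := by
        have hginv : g⁻¹ ∈ N := N.inv_mem hg
        have := (Subgroup.mem_normalizer_iff.mp hginv c).mp (Subgroup.mem_zpowers c)
        simpa using this
      have : g⁻¹ * x * g = (g⁻¹ * c * g) ^ i * (g⁻¹ * y * g) ^ j := by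
        rw [conj_inv_zpow, conj_inv_zpow]
        nth_rewrite 1 [hxij]
        group
      rw [this]
      exact H.mul_mem (H.zpow_mem (hCH hcg) i) (H.zpow_mem h j)
  -- e3
  have e3 : {g : G // g⁻¹ * x * g ∈ H} ≃ {g : N // g⁻¹ * y' * g ∈ H'} :=
    { toFun := fun g => ⟨⟨g.1, e1 g.1 g.2⟩, by
        rw [hmemH']
        exact (e2 g.1 (e1 g.1 g.2)).mp g.2⟩
      invFun := fun n => ⟨n.1.1, by
        have := (hmemH' _).mp n.2
        exact (e2 n.1.1 n.1.2).mpr this⟩
      left_inv := by intro g; rfl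
      right_inv := by intro n; rfl }
  have hcardH : Nat.card H = Nat.card H' := by
    rw [hH]
    exact Subgroup.card_map_of_injective N.subtype_injective
  -- e4
  have e4 : Cfsg.indFun H (fun _ => 1) x = (permChar H' y' : ℂ) := by
    rw [indFun_one_apply, Nat.card_congr e3, hcardH, ← indFun_one_apply, indFun_one_eq_permChar]
  -- e5
  have e5 : ¬ p ∣ permChar H' y' := by
    have hidx : ¬ p ∣ H'.index := by
      intro h
      have h1 : H'.index ∣ (Q : Subgroup N).index := Subgroup.index_dvd_of_le le_sup_right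
      exact Q.not_dvd_index (dvd_trans h h1)
    have hmod := hPy.card_modEq_card_fixedPoints (N ⧸ H')
    have hfix : Nat.card (fixedPoints (Subgroup.zpowers y') (N ⧸ H')) = permChar H' y' := by
      unfold permChar
      apply Nat.card_congr
      refine Equiv.subtypeEquivRight ?_
      intro ω
      rw [mem_fixedPoints]
      constructor
      · intro h
        exact h ⟨y', Subgroup.mem_zpowers y'⟩
      · intro h m
        have h1 : y' ∈ stabilizer N ω := h
        have h2 : Subgroup.zpowers y' ≤ stabilizer N ω := Subgroup.zpowers_le.mpr h1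
        exact h2 m.2
    rw [hfix, ← Subgroup.index_eq_card] at hmod
    intro h
    exact hidx ((hmod.dvd_iff (dvd_refl p)).mpr h)
  refine ⟨H, ⟨C, hCH, hHN, Subgroup.isCyclic_zpowers c, ?_, hrel⟩, permChar H' y', e4, e5⟩
  rw [hcardC]
  exact hm'p

end Cfsg.Agent.S0871
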