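import Mathlib
import Cfsg.Statements.S0872
import Cfsg.Agent.Lib.Helper20.PermChar
import Cfsg.Agent.S0870
import Cfsg.Agent.S0871

set_option autoImplicit false
open Cfsg

namespace Cfsg.Agent.S0872

open MulAction Cfsg.Agent.Lib.Helper20

/-- `H` has a cyclic normal subgroup of order prime to `p` and `p`-power index. -/
def QE {G : Type*} [Group G] (p : ℕ) (H : Subgroup G) : Prop :=
  ∃ C : Subgroup G, C ≤ H ∧ H ≤ Subgroup.normalizer (C : Set G) ∧ IsCyclic C ∧
    Nat.Coprime (Nat.card C) p ∧ ∃ k : ℕ, C.relIndex H = p ^ k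

theorem QE_of_le {G : Type*} [Group G] {p : ℕ} (hp : p.Prime) {H U : Subgroup G} (hH : QE p H)
    (hU : U ≤ H) : QE p U := by
  obtain ⟨C, hCH, hHN, hcyc, hcop, k, hk⟩ := hH
  refine ⟨C ⊓ U, inf_le_right, ?_, ?_, ?_, ?_⟩
  · intro u hu
    have huN : u ∈ Subgroup.normalizer (C : Set G) := hHN (hU hu)
    rw [Subgroup.mem_normalizer_iff]
    intro h
    rw [Subgroup.mem_inf, Subgroup.mem_inf]
    have h1 := Subgroup.mem_normalizer_iff.mp huN h
    have h2 : h ∈ U ↔ u * h * u⁻¹ ∈ U := by
      constructor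
      · intro hh; exact U.mul_mem (U.mul_mem hu hh) (U.inv_mem hu)
      · intro hh
        have : h = u⁻¹ * (u * h * u⁻¹) * u := by group
        rw [this]
        exact U.mul_mem (U.mul_mem (U.inv_mem hu) hh) hu
    rw [h1, h2]
  · exact Subgroup.isCyclic_of_le (inf_le_left : C ⊓ U ≤ C)
  · exact Nat.Coprime.coprime_dvd_left (Subgroup.card_dvd_of_le inf_le_left) hcop
  · rw [Subgroup.inf_relIndex_right]
    have hn : (C.subgroupOf H).Normal := Subgroup.normal_subgroupOf_of_le_normalizer hHN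
    have h1 : (C.subgroupOf H).relIndex (U.subgroupOf H) ∣ (C.subgroupOf H).index :=
      Subgroup.relIndex_dvd_index_of_normal _ _
    rw [Subgroup.relIndex_subgroupOf hU] at h1
    have h2 : (C.subgroupOf H).index = C.relIndex H := rfl
    rw [h2, hk] at h1
    obtain ⟨k', _, hk'⟩ := (Nat.dvd_prime_pow hp).mp h1
    exact ⟨k', hk'⟩

/-- The integer span of the permutation characters on cosets of `p`-quasi-elementary subgroups. -/
def R {G : Type*} [Group G] [Fintype G] (p : ℕ) : AddSubgroup (G → ℤ) where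
  carrier := {f | ∃ a : Subgroup G → ℤ, (∀ H, a H ≠ 0 → QE p H) ∧
    ∀ x, f x = ∑ H : Subgroup G, a H * (permChar H x : ℤ)}
  add_mem' := by
    rintro f g ⟨a, ha, hf⟩ ⟨b, hb, hg⟩
    refine ⟨a + b, ?_, ?_⟩
    · intro H hH
      by_cases h : a H = 0
      · apply hb
        intro h'
        apply hH
        simp [h, h']
      · exact ha H h
    · intro x
      simp only [Pi.add_apply, hf x, hg x, add_mul, Finset.sum_add_distrib]
  zero_mem' := ⟨0, by simp, by simp⟩
  neg_mem' := by
    rintro f ⟨a, ha, hf⟩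
    refine ⟨-a, ?_, ?_⟩
    · intro H hH
      apply ha
      intro h
      apply hH
      simp [h]
    · intro x
      simp only [Pi.neg_apply, hf x, neg_mul, Finset.sum_neg_distrib]

theorem mem_R {G : Type*} [Group G] [Fintype G] (p : ℕ) (f : G → ℤ) :
    f ∈ R p ↔ ∃ a : Subgroup G → ℤ, (∀ H, a H ≠ 0 → QE p H) ∧
      ∀ x, f x = ∑ H : Subgroup G, a H * (permChar H x : ℤ) := Iff.rfl

theorem permChar_mul {G : Type*} [Group G] [Fintype G] (H K : Subgroup G) :
    ∃ c : Subgroup G → ℕ, (∀ U, c U ≠ 0 → U ≤ H) ∧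
      ∀ x, (permChar H x : ℤ) * (permChar K x : ℤ) = ∑ U : Subgroup G, (c U : ℤ) * (permChar U x : ℤ) := by
  obtain ⟨c, hc, hprod⟩ := Cfsg.Agent.S0870.result H K
  refine ⟨c, hc, ?_⟩
  intro x
  have h := congrFun hprod x
  rw [Pi.mul_apply, indFun_one_eq_permChar, indFun_one_eq_permChar, Finset.sum_apply] at h
  simp only [Pi.smul_apply, smul_eq_mul, indFun_one_eq_permChar] at h
  have h' : ((permChar H x * permChar K x : ℕ) : ℂ) = ((∑ U : Subgroup G, c U * permChar U x : ℕ) : ℂ) := by
    push_cast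
    exact h
  have h'' := Nat.cast_injective h'
  exact_mod_cast h''

theorem mul_mem_R {G : Type*} [Group G] [Fintype G] {p : ℕ} (hp : p.Prime) {f g : G → ℤ}
    (hf : f ∈ R p) (hg : g ∈ R p) : f * g ∈ R p := by
  classical
  obtain ⟨a, ha, hf⟩ := hf
  obtain ⟨b, hb, hg⟩ := hg
  choose c hc hprod using fun H K : Subgroup G => permChar_mul H K
  refine ⟨fun U => ∑ H : Subgroup G, ∑ K : Subgroup G, a H * b K * (c H K U : ℤ), ?_, ?_⟩
  · intro U hU
    obtain ⟨H, _, hH⟩ := Finset.exists_ne_zero_of_sum_ne_zero hU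
    obtain ⟨K, _, hK⟩ := Finset.exists_ne_zero_of_sum_ne_zero hH
    have h1 : a H ≠ 0 := by
      intro h; apply hK; simp [h]
    have h2 : c H K U ≠ 0 := by
      intro h; apply hK; simp [h]
    exact QE_of_le hp (ha H h1) (hc H K U h2)
  · intro x
    rw [Pi.mul_apply, hf x, hg x, Finset.sum_mul_sum]
    have h1 : ∀ H K : Subgroup G, a H * (permChar H x : ℤ) * (b K * (permChar K x : ℤ)) =
        ∑ U : Subgroup G, a H * b K * (c H K U : ℤ) * (permChar U x : ℤ) := by
      intro H K
      have : a H * (permChar H x : ℤ) * (b K * (permChar K x : ℤ)) =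
          a H * b K * ((permChar H x : ℤ) * (permChar K x : ℤ)) := by ring
      rw [this, hprod H K x, Finset.mul_sum]
      apply Finset.sum_congr rfl
      intro U _
      ring
    simp only [h1, Finset.sum_mul]
    conv_rhs => rw [Finset.sum_comm]
    apply Finset.sum_congr rfl
    intro H _
    rw [Finset.sum_comm]

theorem permChar_mem_R {G : Type*} [Group G] [Fintype G] {p : ℕ} {H : Subgroup G} (hH : QE p H) :
    (fun x => (permChar H x : ℤ)) ∈ R p := by
  classical
  refine ⟨fun K => if K = H then 1 else 0, ?_, ?_⟩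
  · intro K hK
    by_cases h : K = H
    · rw [h]; exact hH
    · simp [h] at hK
  · intro x
    simp

theorem pow_mem_R {G : Type*} [Group G] [Fintype G] {p : ℕ} (hp : p.Prime) {f : G → ℤ}
    (hf : f ∈ R p) (k : ℕ) : f ^ (k + 1) ∈ R p := by
  induction k with
  | zero => simpa using hf
  | succ k ih =>
    rw [pow_succ]
    exact mul_mem_R hp ih hf

theorem exists_nowhere_dvd {G : Type*} [Group G] [Fintype G] {p : ℕ} (hp : p.Prime) :
    ∃ r ∈ R (G := G) p, ∀ x, ¬ (p : ℤ) ∣ r x := by
  classical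
  have : Fact p.Prime := ⟨hp⟩
  have hpt : ∀ x : G, ∃ f ∈ R (G := G) p, ¬ (p : ℤ) ∣ f x := by
    intro x
    obtain ⟨H, hH, n, hn, hpn⟩ := Cfsg.Agent.S0871.result x p hp
    refine ⟨fun z => (permChar H z : ℤ), permChar_mem_R hH, ?_⟩
    rw [indFun_one_eq_permChar] at hn
    have : permChar H x = n := Nat.cast_injective hn
    show ¬ (p : ℤ) ∣ (permChar H x : ℤ)
    rw [this]
    exact_mod_cast hpn
  have step : ∀ T : Finset G, ∃ r ∈ R (G := G) p, ∀ x ∈ T, ¬ (p : ℤ) ∣ r x := by
    intro T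
    induction T using Finset.induction_on with
    | empty => exact ⟨0, (R p).zero_mem, by simp⟩
    | insert x T hx ih =>
      obtain ⟨r, hr, hrT⟩ := ih
      by_cases hrx : (p : ℤ) ∣ r x
      · obtain ⟨f, hf, hfx⟩ := hpt x
        have hp1 : p - 1 = (p - 2) + 1 := by have := hp.two_le; omega
        have hpow : r ^ (p - 1) ∈ R (G := G) p := by
          rw [hp1]; exact pow_mem_R hp hr _
        refine ⟨r + f - f * r ^ (p - 1),
          (R p).sub_mem ((R p).add_mem hr hf) (mul_mem_R hp hf hpow), ?_⟩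
        intro z hz
        rw [← ZMod.intCast_zmod_eq_zero_iff_dvd]
        simp only [Pi.sub_apply, Pi.add_apply, Pi.mul_apply, Pi.pow_apply]
        push_cast
        rcases Finset.mem_insert.mp hz with rfl | hz
        · have h0 : ((r z : ℤ) : ZMod p) = 0 := (ZMod.intCast_zmod_eq_zero_iff_dvd _ _).mpr hrx
          have hf0 : ((f z : ℤ) : ZMod p) ≠ 0 := by
            rw [Ne, ZMod.intCast_zmod_eq_zero_iff_dvd]; exact hfx
          rw [h0, zero_pow (by omega : p - 1 ≠ 0)]
          simpa using hf0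
        · have h0 : ((r z : ℤ) : ZMod p) ≠ 0 := by
            rw [Ne, ZMod.intCast_zmod_eq_zero_iff_dvd]; exact hrT z hz
          rw [ZMod.pow_card_sub_one_eq_one h0]
          simpa using h0
      · refine ⟨r, hr, ?_⟩
        intro z hz
        rcases Finset.mem_insert.mp hz with rfl | hz
        · exact hrx
        · exact hrT z hz
  obtain ⟨r, hr, hrT⟩ := step Finset.univ
  exact ⟨r, hr, fun x => hrT x (Finset.mem_univ x)⟩

theorem exists_const {G : Type*} [Group G] [Fintype G] {p : ℕ} (hp : p.Prime) :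
    ∃ m : ℤ, ¬ (p : ℤ) ∣ m ∧ (fun _ : G => m) ∈ R (G := G) p := by
  classical
  obtain ⟨r, hr, hrp⟩ := exists_nowhere_dvd (G := G) hp
  have hpi : Prime (p : ℤ) := Nat.prime_iff_prime_int.mp hp
  have step : ∀ T : Finset G, ∃ m : ℤ, ¬ (p : ℤ) ∣ m ∧ ∃ ρ ∈ R (G := G) p,
      ∀ z, ∏ y ∈ T, (r z - r y) = m + ρ z := by
    intro T
    induction T using Finset.induction_on with
    | empty => exact ⟨1, fun h => hpi.not_dvd_one h, 0, (R p).zero_mem, by simp⟩
    | insert y T hy ih =>
      obtain ⟨m, hm, ρ, hρ, hprod⟩ := ih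
      refine ⟨-(r y) * m, ?_, m • r + r * ρ - (r y) • ρ, ?_, ?_⟩
      · intro h
        rcases hpi.dvd_mul.mp h with h | h
        · exact hrp y ((dvd_neg).mp h)
        · exact hm h
      · exact (R p).sub_mem ((R p).add_mem ((R p).zsmul_mem hr m) (mul_mem_R hp hr hρ))
          ((R p).zsmul_mem hρ (r y))
      · intro z
        rw [Finset.prod_insert hy, hprod z]
        simp only [Pi.sub_apply, Pi.add_apply, Pi.mul_apply, Pi.smul_apply, smul_eq_mul]
        ring
  obtain ⟨m, hm, ρ, hρ, hprod⟩ := step Finset.univ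
  refine ⟨m, hm, ?_⟩
  have : (fun _ : G => m) = -ρ := by
    funext z
    have h := hprod z
    rw [Finset.prod_eq_zero (Finset.mem_univ z) (sub_self _)] at h
    simp only [Pi.neg_apply]
    linarith
  rw [this]
  exact (R p).neg_mem hρ

/-- For a finite group G and a prime p there are an integer m not divisible by p and a ℤ-linear combination of functions induced from the constant function 1 on subgroups H, each having a cyclic normal subgroup of order prime to p and p-power index in H, that equals the constant function m. -/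
theorem result {G : Type*} [Group G] [Fintype G] (p : ℕ) (hp : p.Prime) : ∃ (m : ℤ) (a : Subgroup G → ℤ), ¬ (p : ℤ) ∣ m ∧ (∀ H, a H ≠ 0 → (∃ C : Subgroup G, C ≤ H ∧ H ≤ Subgroup.normalizer (C : Set G) ∧ IsCyclic C ∧ Nat.Coprime (Nat.card C) p ∧ ∃ k : ℕ, C.relIndex H = p ^ k)) ∧ (fun _ : G => (m : ℂ)) = ∑ H : Subgroup G, (a H : ℂ) • Cfsg.indFun H (fun _ => 1) := by
  obtain ⟨m, hm, a, ha, hconst⟩ := exists_const (G := G) hp
  refine ⟨m, a, hm, ha, ?_⟩
  funext x
  rw [Finset.sum_apply]
  simp only [Pi.smul_apply, smul_eq_mul, indFun_one_eq_permChar]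
  have := hconst x
  simp only at this
  rw [this]
  push_cast
  rfl

end Cfsg.Agent.S0872
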