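import Cfsg.Statements.S0874
import Cfsg.Agent.Lib.Helper4.BrDescent

set_option autoImplicit false
open Cfsg

namespace Cfsg.Agent.S0874

/-- For a finite group G and a prime p there are an integer m not divisible by p and a list of triples (E, φ, c), with E a p-elementary subgroup, φ a character of E and c an integer, such that the constant function m on G equals the sum of the c • (function induced from φ). -/
theorem result {G : Type*} [Group G] [Fintype G] (p : ℕ) (hp : p.Prime) : ∃ (m : ℤ) (l : List ((E : Subgroup G) × ((E → ℂ) × ℤ))), ¬ (p : ℤ) ∣ m ∧ (∀ t ∈ l, Cfsg.IsElementary p t.1 ∧ Cfsg.IsCharacter t.1 t.2.1) ∧ (fun _ : G => (m : ℂ)) = (l.map fun t => (t.2.2 : ℂ) • Cfsg.indFun t.1 t.2.1).sum := by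
  have : Fact p.Prime := ⟨hp⟩
  have hn : Nat.card G ≠ 0 := (Nat.card_pos (α := G)).ne'
  have hfac : Nat.card G = p ^ (Nat.card G).factorization p * (Nat.card G / p ^ (Nat.card G).factorization p) :=
    (Nat.ordProj_mul_ordCompl_eq_self (Nat.card G) p).symm
  have hnd : ¬ p ∣ Nat.card G / p ^ (Nat.card G).factorization p := Nat.not_dvd_ordCompl hp hn
  have h := Cfsg.Agent.Lib.Helper4.const_mem_span_elemInd (G := G) (p := p) _ _ hfac
  have key : ∀ (z : ℤ) (l : List ((E : Subgroup G) × ((E → ℂ) × ℤ))),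
      z • (l.map fun t => (t.2.2 : ℂ) • Cfsg.indFun t.1 t.2.1).sum =
      ((l.map (fun t => (⟨t.1, (t.2.1, z * t.2.2)⟩ : (E : Subgroup G) × ((E → ℂ) × ℤ)))).map
        fun t => (t.2.2 : ℂ) • Cfsg.indFun t.1 t.2.1).sum := by
    intro z l
    induction l with
    | nil => simp
    | cons a l ih =>
      simp only [List.map_cons, List.sum_cons, smul_add, ih]
      congr 1
      rw [← smul_assoc]
      congr 1
      push_cast
      simp
  have h2 : ∃ l : List ((E : Subgroup G) × ((E → ℂ) × ℤ)), (∀ t ∈ l, Cfsg.IsElementary p t.1 ∧ Cfsg.IsCharacter t.1 t.2.1) ∧ (fun _ : G => ((Nat.card G / p ^ (Nat.card G).factorization p : ℕ) : ℂ)) = (l.map fun t => (t.2.2 : ℂ) • Cfsg.indFun t.1 t.2.1).sum := by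
    refine Submodule.span_induction (p := fun f _ => ∃ l : List ((E : Subgroup G) × ((E → ℂ) × ℤ)), (∀ t ∈ l, Cfsg.IsElementary p t.1 ∧ Cfsg.IsCharacter t.1 t.2.1) ∧ f = (l.map fun t => (t.2.2 : ℂ) • Cfsg.indFun t.1 t.2.1).sum) ?_ ?_ ?_ ?_ h
    · rintro f ⟨E, ψ, hE, hψ, rfl⟩
      refine ⟨[⟨E, (ψ, 1)⟩], ?_, ?_⟩
      · intro t ht
        rw [List.mem_singleton] at ht
        subst ht
        exact ⟨hE, hψ⟩
      · simp
    · exact ⟨[], by simp, by simp⟩
    · rintro f g _ _ ⟨l1, h1, rfl⟩ ⟨l2, h2, rfl⟩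
      refine ⟨l1 ++ l2, ?_, ?_⟩
      · intro t ht
        rcases List.mem_append.mp ht with ht | ht
        · exact h1 t ht
        · exact h2 t ht
      · simp
    · rintro z f _ ⟨l, h1, rfl⟩
      refine ⟨l.map (fun t => ⟨t.1, (t.2.1, z * t.2.2)⟩), ?_, ?_⟩
      · intro t ht
        rw [List.mem_map] at ht
        obtain ⟨s, hs, rfl⟩ := ht
        exact h1 s hs
      · exact key z l
  obtain ⟨l, hl1, hl2⟩ := h2
  refine ⟨((Nat.card G / p ^ (Nat.card G).factorization p : ℕ) : ℤ), l, ?_, hl1, ?_⟩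
  · intro hdvd
    exact hnd (by exact_mod_cast hdvd)
  · rw [← hl2]
    funext x
    push_cast
    rfl

end Cfsg.Agent.S0874
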