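import Cfsg.Statements.S0875
import Cfsg.Agent.Lib.Helper4.NilPow

set_option autoImplicit false
open Cfsg

namespace Cfsg.Agent.S0875

open scoped ComplexConjugate
open Cfsg.Agent.Lib.Helper4

theorem pi_part_iff {G : Type*} [Group G] [Finite G] {m n a : ℕ} (hmn : Nat.card G = m * n)
    (hcop : Nat.Coprime m n) (ham : a ≡ 0 [MOD m]) (han : a ≡ 1 [MOD n]) (x v : G) :
    (∃ u : G, x = u * v ∧ Commute u v ∧ Nat.Coprime (orderOf u) n ∧ Nat.Coprime (orderOf v) m) ↔
      v = x ^ a := by
  constructor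
  · rintro ⟨u, rfl, huv, hu, hv⟩
    have hu' : orderOf u ∣ m := by
      have := orderOf_dvd_natCard u
      rw [hmn] at this
      exact hu.dvd_of_dvd_mul_right this
    have hv' : orderOf v ∣ n := by
      have := orderOf_dvd_natCard v
      rw [hmn] at this
      exact hv.dvd_of_dvd_mul_left this
    rw [huv.mul_pow, pow_eq_one_of_modEq hu' ham, pow_eq_self_of_modEq hv' han, one_mul]
  · rintro rfl
    obtain ⟨b, hbm, hbn⟩ := Nat.chineseRemainder hcop 1 0
    refine ⟨x ^ b, ?_, (Commute.refl x).pow_pow b a, ?_, ?_⟩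
    · rw [← pow_add]
      have h1 : b + a ≡ 1 [MOD m * n] := by
        rw [← Nat.modEq_and_modEq_iff_modEq_mul hcop]
        exact ⟨by simpa using hbm.add ham, by simpa using hbn.add han⟩
      have h2 : b + a ≡ 1 [MOD orderOf x] := h1.of_dvd (hmn ▸ orderOf_dvd_natCard x)
      have h3 := (pow_eq_pow_iff_modEq (x := x)).mpr h2
      rw [h3, pow_one]
    · have hnm : Nat.card G = n * m := by rw [hmn, mul_comm]
      exact Nat.Coprime.coprime_dvd_left (orderOf_pow_dvd_of_modEq hnm hbn x) hcop
    · exact Nat.Coprime.coprime_dvd_left (orderOf_pow_dvd_of_modEq hmn ham x) hcop.symm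

theorem lin_conj_mem_algInt {E : Type*} [Group E] [Finite E] (l : E →* ℂˣ) (e : E) :
    conj (l e : ℂ) ∈ AlgInt := by
  have h1 : (conj (l e : ℂ)) ^ Nat.card E = 1 := by
    rw [← map_pow, ← Units.val_pow_eq_pow_val, ← map_pow, pow_card_eq_one', map_one]
    simp
  exact IsIntegral.of_pow (Nat.card_pos (α := E)) (by rw [h1]; exact isIntegral_one)

open Classical in
theorem key {G : Type*} [Group G] [Fintype G] {m n a : ℕ} (hmn : Nat.card G = m * n)
    (hcop : Nat.Coprime m n) (ham : a ≡ 0 [MOD m]) (han : a ≡ 1 [MOD n]) (g : G)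
    (E : Subgroup G) [Fintype E] [Group.IsNilpotent E] (l : E →* ℂˣ) :
    classInner (fun e : E => if IsConj ((e : G) ^ a) g then (n : ℂ) else 0)
      (fun e => (l e : ℂ)) ∈ AlgInt := by
  classical
  let τ : E →* E := powHom hmn hcop ham han E
  have hτ : ∀ e : E, ((τ e : E) : G) = (e : G) ^ a := fun e => rfl
  have hidem : ∀ e : E, τ (τ e) = τ e := by
    intro e
    apply Subtype.ext
    rw [hτ, hτ]
    exact pow_pow_self_of_modEq hmn ham han (e : G)
  have hfix : ∀ b : τ.range, τ (b : E) = (b : E) := by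
    rintro ⟨_, e, rfl⟩
    exact hidem e
  let Φ : τ.range × τ.ker → E := fun bk => (bk.1 : E) * (bk.2 : E)
  have hτΦ : ∀ bk : τ.range × τ.ker, τ (Φ bk) = (bk.1 : E) := by
    intro bk
    show τ ((bk.1 : E) * (bk.2 : E)) = _
    rw [map_mul, hfix, MonoidHom.mem_ker.mp bk.2.2, mul_one]
  have hΦ : Function.Bijective Φ := by
    constructor
    · rintro ⟨b, k⟩ ⟨b', k'⟩ h
      have h1 : (b : E) = (b' : E) := by
        have := congrArg τ h
        rwa [hτΦ, hτΦ] at this
      have h2 : (k : E) = (k' : E) := by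
        have h3 : (b : E) * (k : E) = (b' : E) * (k' : E) := h
        rw [h1] at h3
        exact mul_left_cancel h3
      exact Prod.ext (Subtype.ext h1) (Subtype.ext h2)
    · intro e
      refine ⟨(⟨τ e, e, rfl⟩, ⟨(τ e)⁻¹ * e, ?_⟩), ?_⟩
      · rw [MonoidHom.mem_ker, map_mul, map_inv, hidem, inv_mul_cancel]
      · show τ e * ((τ e)⁻¹ * e) = e
        rw [mul_inv_cancel_left]
  let F : E → ℂ := fun b => if IsConj (b : G) g then (n : ℂ) else 0
  have hsum : ∑ e : E, (if IsConj ((e : G) ^ a) g then (n : ℂ) else 0) * conj (l e : ℂ) =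
      (∑ b : τ.range, F b * conj (l b : ℂ)) * ∑ k : τ.ker, conj (l k : ℂ) := by
    rw [← (Equiv.ofBijective Φ hΦ).sum_comp, Fintype.sum_prod_type, Finset.sum_mul]
    refine Finset.sum_congr rfl fun b _ => ?_
    rw [Finset.mul_sum]
    refine Finset.sum_congr rfl fun k _ => ?_
    have h1 : ((Equiv.ofBijective Φ hΦ (b, k) : E) : G) ^ a = ((b : E) : G) := by
      rw [← hτ]
      exact congrArg Subtype.val (hτΦ (b, k))
    rw [h1]
    have h2 : (Equiv.ofBijective Φ hΦ (b, k) : E) = (b : E) * (k : E) := rfl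
    rw [h2, map_mul, Units.val_mul, map_mul]
    ring
  let f : τ.ker →* ℂ :=
    { toFun := fun k => conj (l k : ℂ)
      map_one' := by simp
      map_mul' := fun x y => by simp }
  have hf : ∑ k : τ.ker, conj (l k : ℂ) =
      ((if f = 1 then Fintype.card τ.ker else 0 : ℕ) : ℂ) :=
    sum_hom_units f
  show (Nat.card E : ℂ)⁻¹ * ∑ e : E, (if IsConj ((e : G) ^ a) g then (n : ℂ) else 0) *
    conj (l e : ℂ) ∈ AlgInt
  rw [hsum, hf]
  split_ifs with h1
  · obtain ⟨d, hd'⟩ := card_range_powHom_dvd hmn hcop ham han E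
    have hd : n = Nat.card τ.range * d := hd'
    have hcard : Nat.card E = Nat.card τ.ker * Nat.card τ.range := by
      rw [← Subgroup.index_ker, Subgroup.card_mul_index]
    have hE0 : (Nat.card τ.ker : ℂ) ≠ 0 := by exact_mod_cast (Nat.card_pos (α := τ.ker)).ne'
    have hB0 : (Nat.card τ.range : ℂ) ≠ 0 := by exact_mod_cast (Nat.card_pos (α := τ.range)).ne'
    have h2 : (Nat.card E : ℂ)⁻¹ * ((∑ b : τ.range, F b * conj (l b : ℂ)) *
        (Fintype.card τ.ker : ℂ)) =
        ∑ b : τ.range, (d : ℂ) * ((if IsConj ((b : E) : G) g then (1 : ℂ) else 0) *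
          conj (l b : ℂ)) := by
      rw [hcard, Finset.sum_mul, Finset.mul_sum]
      refine Finset.sum_congr rfl fun b _ => ?_
      show _ * ((if IsConj ((b : E) : G) g then (n : ℂ) else 0) * _ * _) = _
      rw [hd, ← Nat.card_eq_fintype_card]
      push_cast
      split_ifs
      · field_simp
      · simp
    rw [h2]
    refine AlgInt.sum_mem fun b _ => ?_
    refine AlgInt.mul_mem (natCast_mem _ d) (AlgInt.mul_mem ?_ (lin_conj_mem_algInt l _))
    split_ifs
    · exact AlgInt.one_mem
    · exact AlgInt.zero_mem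
  · rw [Nat.cast_zero, mul_zero, mul_zero]
    exact AlgInt.zero_mem

/-- Let G be a finite group of order m * n with m and n coprime, and g an element whose order is coprime to m. Every x in G factors uniquely as x = u * v with u, v commuting, the order of u coprime to n and the order of v coprime to m; let ϑ be the function on G equal to n at those x whose factor v is conjugate to g and equal to 0 elsewhere. Then ϑ is a linear combination of the irreducible characters of G with algebraic-integer coefficients. -/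
theorem result {G : Type*} [Group G] [Fintype G] (m n : ℕ) (hmn : Nat.card G = m * n) (hcop : Nat.Coprime m n) (g : G) (hg : Nat.Coprime (orderOf g) m) (ϑ : G → ℂ) (hϑ1 : ∀ x : G, (∃ v : G, IsConj v g ∧ (∃ u : G, x = u * v ∧ Commute u v ∧ Nat.Coprime (orderOf u) n ∧ Nat.Coprime (orderOf v) m)) → ϑ x = n) (hϑ0 : ∀ x : G, (¬ ∃ v : G, IsConj v g ∧ (∃ u : G, x = u * v ∧ Commute u v ∧ Nat.Coprime (orderOf u) n ∧ Nat.Coprime (orderOf v) m)) → ϑ x = 0) : ∃ c : Cfsg.IrrCharacter G → ℂ, (∀ χ, c χ ∈ Cfsg.AlgInt) ∧ ϑ = ∑ᶠ χ : Cfsg.IrrCharacter G, c χ • (χ : G → ℂ) := by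
  classical
  have hfin : Finite (IrrCharacter G) := irr_finite
  let _ : Fintype (IrrCharacter G) := Fintype.ofFinite _
  obtain ⟨a, ham, han⟩ := Nat.chineseRemainder hcop 0 1
  have hϑ : ϑ = fun x => if IsConj (x ^ a) g then (n : ℂ) else 0 := by
    funext x
    have hiff : (∃ v : G, IsConj v g ∧ (∃ u : G, x = u * v ∧ Commute u v ∧ Nat.Coprime (orderOf u) n ∧ Nat.Coprime (orderOf v) m)) ↔ IsConj (x ^ a) g := by
      constructor
      · rintro ⟨v, hv, hu⟩
        rw [← (pi_part_iff hmn hcop ham han x v).mp hu]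
        exact hv
      · intro h
        exact ⟨x ^ a, h, (pi_part_iff hmn hcop ham han x (x ^ a)).mpr rfl⟩
    by_cases h : IsConj (x ^ a) g
    · rw [if_pos h]
      exact hϑ1 x (hiff.mpr h)
    · rw [if_neg h]
      exact hϑ0 x (fun h' => h (hiff.mp h'))
  have hcf : IsClassFunction G ϑ := by
    intro x h
    rw [hϑ]
    show (if IsConj ((h * x * h⁻¹) ^ a) g then (n : ℂ) else 0) = if IsConj (x ^ a) g then (n : ℂ) else 0
    have h1 : (h * x * h⁻¹) ^ a = h * x ^ a * h⁻¹ := conj_pow
    have h2 : IsConj (h * x ^ a * h⁻¹) g ↔ IsConj (x ^ a) g := by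
      constructor
      · intro h3
        exact (isConj_iff.mpr ⟨h, rfl⟩ : IsConj (x ^ a) (h * x ^ a * h⁻¹)).trans h3
      · intro h3
        exact (isConj_iff.mpr ⟨h, rfl⟩ : IsConj (x ^ a) (h * x ^ a * h⁻¹)).symm.trans h3
    rw [h1]
    simp only [h2]
  refine ⟨fun χ => classInner ϑ (χ : G → ℂ), ?_, ?_⟩
  · intro χ
    have hspan := brauer_induction_span (χ : G → ℂ) (isCharacter_of_irr χ)
    refine Submodule.span_induction (p := fun f _ => classInner ϑ f ∈ AlgInt) ?_ ?_ ?_ ?_ hspan
    · rintro f ⟨E, l, ⟨p, hp, hE⟩, rfl⟩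
      have hnil : Group.IsNilpotent E := isNilpotent_of_isElementary hp hE
      have h1 : classInner ϑ (indFun E fun e => (l e : ℂ)) =
          classInner (fun e : E => ϑ e) (fun e => (l e : ℂ)) := by
        rw [classInner_conj_symm, frobenius_reciprocity E _ ϑ hcf, ← classInner_conj_symm]
      rw [h1, hϑ]
      exact key hmn hcop ham han g E l
    · show classInner ϑ 0 ∈ AlgInt
      have : classInner ϑ (0 : G → ℂ) = 0 := by simp [classInner]
      rw [this]
      exact AlgInt.zero_mem
    · intro f1 f2 _ _ h1 h2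
      have : classInner ϑ (f1 + f2) = classInner ϑ f1 + classInner ϑ f2 := by
        simp only [classInner, Pi.add_apply, map_add, mul_add, Finset.sum_add_distrib]
      rw [this]
      exact AlgInt.add_mem h1 h2
    · intro z f _ h1
      have : classInner ϑ (z • f) = (z : ℂ) * classInner ϑ f := by
        simp only [classInner, Pi.smul_apply, zsmul_eq_mul, map_mul, map_intCast,
          Finset.mul_sum]
        refine Finset.sum_congr rfl fun x _ => ?_
        ring
      rw [this]
      exact AlgInt.mul_mem (intCast_mem _ z) h1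
  · rw [finsum_eq_sum_of_fintype]
    exact classFunction_expansion ϑ hcf

end Cfsg.Agent.S0875
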