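import Cfsg.Statements.S0876
import Cfsg.Agent.Lib.Helper22.Defect2
import Cfsg.Agent.Lib.Helper83.IrrBasic
import Cfsg.Agent.Lib.Helper4.CharExp

set_option autoImplicit false
open Cfsg

namespace Cfsg.Agent.S0876

open Cfsg.Agent.Lib.Helper21 Cfsg.Agent.Lib.Helper4
open scoped ComplexConjugate

theorem trace_isIntegral_of_pow {V : Type*} [AddCommGroup V] [Module ℂ V]
    [FiniteDimensional ℂ V] (T : Module.End ℂ V) (m : ℕ) (hm : 0 < m) (hT : T ^ (m + 1) = T) :
    IsIntegral ℤ (LinearMap.trace ℂ V T) := by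
  rw [Module.End.trace_eq_sum_roots_charpoly_of_splits (IsAlgClosed.splits _)]
  apply IsIntegral.multiset_sum
  intro μ hμ
  have hroot : T.charpoly.IsRoot μ := (Polynomial.mem_roots'.mp hμ).2
  have hev := (Module.End.hasEigenvalue_iff_isRoot_charpoly T μ).mpr hroot
  obtain ⟨v, hv⟩ := hev.exists_hasEigenvector
  have h1 : (T ^ (m + 1)) v = μ ^ (m + 1) • v :=
    Cfsg.Agent.Lib.Helper22.pow_apply_eigen T v μ hv.apply_eq_smul (m + 1)
  rw [hT, hv.apply_eq_smul] at h1
  have h2 : μ = μ ^ (m + 1) := smul_left_injective ℂ hv.2 h1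
  by_cases h0 : μ = 0
  · rw [h0]
    exact isIntegral_zero
  · have h3 : μ ^ m = 1 := by
      have h4 : μ * 1 = μ * μ ^ m := by rw [mul_one, ← pow_succ']; exact h2
      exact (mul_left_cancel₀ h0 h4).symm
    exact IsIntegral.of_pow hm (by rw [h3]; exact isIntegral_one)

theorem avg_isIntegral {G : Type*} [Group G] [Finite G] (χ : IrrCharacter G) (g : G)
    (Q : Subgroup G) (hQ : Q ≤ Subgroup.centralizer ({g} : Set G)) [Fintype Q] :
    IsIntegral ℤ ((Nat.card Q : ℂ)⁻¹ * ∑ u : Q, (χ : G → ℂ) (g * u)) := by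
  classical
  obtain ⟨n, ρ, hρ, hχ⟩ := χ.2
  have hQ0 : (Nat.card Q : ℂ) ≠ 0 := by
    have : 0 < Nat.card Q := Nat.card_pos
    exact_mod_cast this.ne'
  set e : Module.End ℂ (Fin n → ℂ) := (Nat.card Q : ℂ)⁻¹ • ∑ u : Q, ρ (u : G) with he
  have hve : ∀ v : Q, ρ (v : G) * e = e := by
    intro v
    rw [he, mul_smul_comm, Finset.mul_sum]
    congr 1
    apply Fintype.sum_equiv (Equiv.mulLeft v)
    intro u
    rw [← map_mul]
    rfl
  have hee : e * e = e := by
    have h1 : e * e = (Nat.card Q : ℂ)⁻¹ • ∑ v : Q, ρ (v : G) * e := by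
      conv_lhs => rw [he]
      rw [smul_mul_assoc, Finset.sum_mul]
    rw [h1, Finset.sum_congr rfl (fun v _ => hve v), Finset.sum_const, Finset.card_univ,
      ← Nat.card_eq_fintype_card, ← Nat.cast_smul_eq_nsmul ℂ, smul_smul, inv_mul_cancel₀ hQ0,
      one_smul]
  have hcomm : Commute (ρ g) e := by
    show ρ g * e = e * ρ g
    rw [he, mul_smul_comm, smul_mul_assoc, Finset.mul_sum, Finset.sum_mul]
    congr 1
    apply Finset.sum_congr rfl
    intro u _
    rw [← map_mul, ← map_mul]
    congr 1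
    have := hQ u.2
    rw [Subgroup.mem_centralizer_iff] at this
    exact this g rfl
  have hepow : ∀ k : ℕ, e ^ (k + 1) = e := by
    intro k
    induction k with
    | zero => simp
    | succ k ih => rw [pow_succ, ih, hee]
  have hT : (ρ g * e) ^ (orderOf g + 1) = ρ g * e := by
    rw [hcomm.mul_pow, hepow, ← map_pow, pow_succ, pow_orderOf_eq_one, one_mul]
  have h := trace_isIntegral_of_pow (ρ g * e) (orderOf g) (orderOf_pos g) hT
  have h2 : LinearMap.trace ℂ _ (ρ g * e) = (Nat.card Q : ℂ)⁻¹ * ∑ u : Q, (χ : G → ℂ) (g * u) := by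
    rw [he, mul_smul_comm, map_smul, Finset.mul_sum, map_sum, smul_eq_mul]
    congr 1
    apply Finset.sum_congr rfl
    intro u _
    rw [← hχ, ← map_mul]
    rfl
  rw [h2] at h
  exact h

theorem eq_one_of_isConj {G : Type*} [Group G] [Finite G] {p : ℕ} (hp : p.Prime) (x' z u : G)
    (hx : ¬ p ∣ orderOf x') (hz : ¬ p ∣ orderOf z) (hcomm : Commute x' u)
    (k : ℕ) (hu : orderOf u = p ^ k) (hconj : IsConj z (x' * u)) : u = 1 := by
  obtain ⟨c, hc⟩ := isConj_iff.mp hconj
  have h1 : orderOf (x' * u) = orderOf z := by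
    rw [← hc]
    exact (MulAut.conj c).orderOf_eq z
  have hcop : (orderOf x').Coprime (orderOf u) := by
    rw [hu]
    exact Nat.Coprime.pow_right k (Nat.Coprime.symm ((Nat.Prime.coprime_iff_not_dvd hp).mpr hx))
  have h2 := hcomm.orderOf_mul_eq_mul_orderOf_of_coprime hcop
  rw [h1] at h2
  have h3 : ¬ p ∣ orderOf u := fun h => hz (h2 ▸ Dvd.dvd.mul_left h _)
  rw [hu] at h3
  have hk : k = 0 := by
    by_contra hk
    exact h3 (dvd_pow_self p hk)
  rw [hk, pow_zero] at hu
  exact orderOf_eq_one_iff.mp hu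


/-- Let G be a finite group, p a prime and M a maximal ideal of the ring of algebraic integers containing p. Let x, y be elements with p-parts a and b (so a⁻¹ * x and b⁻¹ * y are their p-regular parts). Then a⁻¹ * x and b⁻¹ * y are conjugate in G if and only if, for every irreducible character χ, the difference χ x - χ y lies in the local ideal at M. -/
theorem result {G : Type*} [Group G] [Finite G] (p : ℕ) (M : Ideal Cfsg.AlgInt) (hM : Cfsg.IsPModular p M) (x y a b : G) (ha : Cfsg.IsPPart p x a) (hb : Cfsg.IsPPart p y b) : IsConj (a⁻¹ * x) (b⁻¹ * y) ↔ ∀ χ : Cfsg.IrrCharacter G, Cfsg.MemLocalIdeal M ((χ : G → ℂ) x - (χ : G → ℂ) y) := by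
  classical
  letI := Fintype.ofFinite G
  haveI := irr_finite (G := G)
  letI := Fintype.ofFinite (IrrCharacter G)
  have hp := pmod_prime hM
  haveI : Fact p.Prime := ⟨hp⟩
  obtain ⟨x', hx1, hx2, ⟨kx, hkx⟩, hx4⟩ := ha
  obtain ⟨y', hy1, hy2, ⟨ky, hky⟩, hy4⟩ := hb
  have hax : a⁻¹ * x = x' := by rw [← hx1]; group
  have hby : b⁻¹ * y = y' := by rw [← hy1]; group
  rw [hax, hby]
  have hcx : ∀ χ : IrrCharacter G, MemLocalIdeal M ((χ : G → ℂ) x - (χ : G → ℂ) x') := by
    intro χ
    rw [← hx1]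
    exact Cfsg.Agent.Lib.Helper22.char_ppart_mul_congr hM χ a x' hx2 kx
      (by rw [← hkx]; exact pow_orderOf_eq_one a) hx4
  have hcy : ∀ χ : IrrCharacter G, MemLocalIdeal M ((χ : G → ℂ) y - (χ : G → ℂ) y') := by
    intro χ
    rw [← hy1]
    exact Cfsg.Agent.Lib.Helper22.char_ppart_mul_congr hM χ b y' hy2 ky
      (by rw [← hky]; exact pow_orderOf_eq_one b) hy4
  constructor
  · intro hconj χ
    have e : (χ : G → ℂ) x' = (χ : G → ℂ) y' := Cfsg.Agent.Lib.Helper83.irr_isConj χ.2 hconj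
    have h1 : (χ : G → ℂ) x - (χ : G → ℂ) y =
        ((χ : G → ℂ) x - (χ : G → ℂ) x') - ((χ : G → ℂ) y - (χ : G → ℂ) y') := by
      rw [e]; ring
    rw [h1]
    exact locIdeal_sub hM (hcx χ) (hcy χ)
  · intro hall
    by_contra hnc
    have hall' : ∀ χ : IrrCharacter G, MemLocalIdeal M ((χ : G → ℂ) x' - (χ : G → ℂ) y') := by
      intro χ
      have h1 : (χ : G → ℂ) x' - (χ : G → ℂ) y' =
          ((χ : G → ℂ) x - (χ : G → ℂ) y) - ((χ : G → ℂ) x - (χ : G → ℂ) x') +
            ((χ : G → ℂ) y - (χ : G → ℂ) y') := by ring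
      rw [h1]
      exact locIdeal_add hM (locIdeal_sub hM (hall χ) (hcx χ)) (hcy χ)
    set C := Subgroup.centralizer ({x'} : Set G) with hC
    obtain ⟨P⟩ : Nonempty (Sylow p C) := inferInstance
    set Q : Subgroup G := (P : Subgroup C).map C.subtype with hQdef
    have hQC : Q ≤ C := Subgroup.map_subtype_le _
    have hQp : IsPGroup p Q := P.isPGroup'.map _
    have hcardQ : Nat.card Q = Nat.card (P : Subgroup C) :=
      Subgroup.card_map_of_injective (Subgroup.subtype_injective C)
    have hcard : Nat.card C = Nat.card Q * (P : Subgroup C).index := by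
      rw [hcardQ]
      exact (Subgroup.card_mul_index _).symm
    have hidx : ¬ p ∣ (P : Subgroup C).index := P.not_dvd_index
    have hQ0 : (Nat.card Q : ℂ) ≠ 0 := by
      have : 0 < Nat.card Q := Nat.card_pos
      exact_mod_cast this.ne'
    let c : IrrCharacter G → ℂ := fun χ =>
      (Nat.card Q : ℂ)⁻¹ * ∑ u : Q, conj ((χ : G → ℂ) (x' * u))
    have hc : ∀ χ, MemLocalRing M (c χ) := by
      intro χ
      apply locRing_of_isIntegral hM
      have h1 : c χ = conj ((Nat.card Q : ℂ)⁻¹ * ∑ u : Q, (χ : G → ℂ) (x' * u)) := by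
        show (Nat.card Q : ℂ)⁻¹ * ∑ u : Q, conj ((χ : G → ℂ) (x' * u)) = _
        rw [map_mul, map_inv₀, map_natCast, map_sum]
      rw [h1]
      exact map_isIntegral_int _ (avg_isIntegral χ x' Q hQC)
    have hu1 : ∀ (z : G) (u : Q), ¬ p ∣ orderOf z → IsConj z (x' * u) → u = 1 := by
      intro z u hz hconj
      obtain ⟨k, hk⟩ := (IsPGroup.iff_orderOf.mp hQp) u
      have hcomm : Commute x' (u : G) := by
        have := hQC u.2
        rw [hC, Subgroup.mem_centralizer_iff] at this
        exact (this x' rfl)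
      have hk' : orderOf (u : G) = p ^ k := by rw [← hk, Subgroup.orderOf_coe]
      have := eq_one_of_isConj hp x' z (u : G) hx4 hz hcomm k hk' hconj
      exact Subtype.ext this
    have hΨ0 : ∀ z : G, ∑ χ : IrrCharacter G, c χ * (χ : G → ℂ) z =
        (Nat.card Q : ℂ)⁻¹ * ∑ u : Q, (if IsConj z (x' * u) then
          (Nat.card (Subgroup.centralizer ({z} : Set G)) : ℂ) else 0) := by
      intro z
      have h1 : ∀ χ : IrrCharacter G, c χ * (χ : G → ℂ) z =
          (Nat.card Q : ℂ)⁻¹ * ∑ u : Q, (χ : G → ℂ) z * conj ((χ : G → ℂ) (x' * u)) := by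
        intro χ
        show (Nat.card Q : ℂ)⁻¹ * (∑ u : Q, conj ((χ : G → ℂ) (x' * u))) * (χ : G → ℂ) z = _
        rw [mul_assoc, Finset.sum_mul]
        congr 1
        apply Finset.sum_congr rfl
        intro u _
        ring
      rw [Finset.sum_congr rfl (fun χ _ => h1 χ), ← Finset.mul_sum, Finset.sum_comm]
      congr 1
      apply Finset.sum_congr rfl
      intro u _
      rw [Cfsg.Agent.Lib.Helper4.col_orth]
    have h1 : MemLocalIdeal M (∑ χ : IrrCharacter G, c χ * (χ : G → ℂ) x' -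
        ∑ χ : IrrCharacter G, c χ * (χ : G → ℂ) y') := by
      rw [← Finset.sum_sub_distrib]
      apply locIdeal_sum hM
      intro χ _
      rw [← mul_sub]
      exact locIdeal_mul_left hM (hc χ) (hall' χ)
    have hA : ∑ χ : IrrCharacter G, c χ * (χ : G → ℂ) x' = ((P : Subgroup C).index : ℂ) := by
      rw [hΨ0]
      have h2 : ∀ u : Q, (if IsConj x' (x' * u) then
          (Nat.card (Subgroup.centralizer ({x'} : Set G)) : ℂ) else 0) =
          if u = 1 then (Nat.card C : ℂ) else 0 := by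
        intro u
        by_cases hu : u = 1
        · rw [if_pos hu, if_pos (by rw [hu, OneMemClass.coe_one, mul_one])]
        · rw [if_neg hu, if_neg (fun h => hu (hu1 x' u hx4 h))]
      rw [Finset.sum_congr rfl (fun u _ => h2 u), Finset.sum_ite_eq', if_pos (Finset.mem_univ _),
        hcard]
      push_cast
      field_simp
    have hB : ∑ χ : IrrCharacter G, c χ * (χ : G → ℂ) y' = 0 := by
      rw [hΨ0]
      have h2 : ∀ u : Q, (if IsConj y' (x' * u) then
          (Nat.card (Subgroup.centralizer ({y'} : Set G)) : ℂ) else 0) = 0 := by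
        intro u
        rw [if_neg]
        intro h
        have hu := hu1 y' u hy4 h
        rw [hu] at h
        apply hnc
        simpa using h.symm
      rw [Finset.sum_congr rfl (fun u _ => h2 u), Finset.sum_const_zero, mul_zero]
    rw [hA, hB, sub_zero] at h1
    exact hidx ((locIdeal_natCast_iff hM _).mp h1)

end Cfsg.Agent.S0876
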