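import Cfsg.Statements.S0879
import Cfsg.Agent.Lib.Helper21.Zass

set_option autoImplicit false
open Cfsg

namespace Cfsg.Agent.S0879

open Cfsg.Agent.Lib.Helper21

/-- Let G be a Zassenhaus group on the finite set Ω and E the stabilizer of two distinct points a, b. Then an element outside the normalizer of E conjugates no non-identity element of E into E, and E has index 2 in its normalizer. -/
theorem result {G Ω : Type*} [Group G] [Finite G] [MulAction G Ω] [Fintype Ω] (hZ : Cfsg.IsZassenhausGroup G Ω) {a b : Ω} (hab : a ≠ b) : (∀ g : G, g ∉ Subgroup.normalizer ((MulAction.stabilizer G a ⊓ MulAction.stabilizer G b : Subgroup G) : Set G) → ∀ x ∈ (MulAction.stabilizer G a ⊓ MulAction.stabilizer G b : Subgroup G), g * x * g⁻¹ ∈ (MulAction.stabilizer G a ⊓ MulAction.stabilizer G b : Subgroup G) → x = 1) ∧ ((MulAction.stabilizer G a ⊓ MulAction.stabilizer G b : Subgroup G).subgroupOf (Subgroup.normalizer ((MulAction.stabilizer G a ⊓ MulAction.stabilizer G b : Subgroup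 G) : Set G))).index = 2 := by
  classical
  set E := (MulAction.stabilizer G a ⊓ MulAction.stabilizer G b : Subgroup G) with hE
  have memE : ∀ x : G, x ∈ E ↔ x • a = a ∧ x • b = b := by
    intro x
    simp [hE, Subgroup.mem_inf]
  have fixE : ∀ x ∈ E, x ≠ 1 → ∀ c, x • c = c → c = a ∨ c = b := by
    intro x hx hx1 c hc
    by_contra hcon
    have hca : c ≠ a := fun h => hcon (Or.inl h)
    have hcb : c ≠ b := fun h => hcon (Or.inr h)
    exact hx1 (zass_three hZ hab (Ne.symm hcb) (Ne.symm hca) ((memE x).mp hx).1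
      ((memE x).mp hx).2 hc)
  have key : ∀ g x : G, x ∈ E → x ≠ 1 → g * x * g⁻¹ ∈ E →
      (g • a = a ∧ g • b = b) ∨ (g • a = b ∧ g • b = a) := by
    intro g x hx hx1 hgx
    have hgx1 : g * x * g⁻¹ ≠ 1 := conj_ne_one hx1
    have h1 : (g * x * g⁻¹) • (g • a) = g • a := by simp [mul_smul, ((memE x).mp hx).1]
    have h2 : (g * x * g⁻¹) • (g • b) = g • b := by simp [mul_smul, ((memE x).mp hx).2]
    have hne : g • a ≠ g • b := fun h => hab (MulAction.injective g h)
    rcases fixE _ hgx hgx1 _ h1 with ha | ha <;> rcases fixE _ hgx hgx1 _ h2 with hb | hb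
    · exact absurd (ha.trans hb.symm) hne
    · exact Or.inl ⟨ha, hb⟩
    · exact Or.inr ⟨ha, hb⟩
    · exact absurd (ha.trans hb.symm) hne
  have norm_of : ∀ g : G, ((g • a = a ∧ g • b = b) ∨ (g • a = b ∧ g • b = a)) →
      g ∈ Subgroup.normalizer (E : Set G) := by
    intro g hg
    rw [Subgroup.mem_set_normalizer_iff]
    intro h
    simp only [SetLike.mem_coe, memE]
    have e1 : ∀ c : Ω, (g * h * g⁻¹) • c = c ↔ h • (g⁻¹ • c) = g⁻¹ • c := by
      intro c
      rw [mul_smul, mul_smul, smul_eq_iff_eq_inv_smul]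
    rw [e1, e1]
    rcases hg with ⟨h1, h2⟩ | ⟨h1, h2⟩
    · have h1' : g⁻¹ • a = a := by rw [inv_smul_eq_iff, h1]
      have h2' : g⁻¹ • b = b := by rw [inv_smul_eq_iff, h2]
      rw [h1', h2']
    · have h1' : g⁻¹ • b = a := by rw [inv_smul_eq_iff, h1]
      have h2' : g⁻¹ • a = b := by rw [inv_smul_eq_iff, h2]
      rw [h1', h2']
      exact and_comm
  refine ⟨?_, ?_⟩
  · intro g hg x hx hgx
    by_contra hx1
    exact hg (norm_of g (key g x hx hx1 hgx))
  · rw [Subgroup.index_eq_two_iff_exists_notMem_and']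
    obtain ⟨t, hta, htb⟩ := zass_two_trans hZ hab (Ne.symm hab)
    have htN : t ∈ Subgroup.normalizer (E : Set G) := norm_of t (Or.inr ⟨hta, htb⟩)
    obtain ⟨x0, hx01, hx0a, hx0b⟩ := zass_exists_ne_one hZ hab
    have hx0E : x0 ∈ E := (memE x0).mpr ⟨hx0a, hx0b⟩
    refine ⟨⟨t, htN⟩, ?_, ?_⟩
    · rw [Subgroup.mem_subgroupOf]
      show t ∉ E
      intro h
      exact hab (((memE t).mp h).1.symm.trans hta)
    · rintro ⟨g, hg⟩
      rw [Subgroup.mem_subgroupOf, Subgroup.mem_subgroupOf]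
      show t * g ∈ E ∨ g ∈ E
      have h3 := key g x0 hx0E hx01 ((Subgroup.mem_set_normalizer_iff.mp hg x0).mp hx0E)
      rcases h3 with ⟨h1, h2⟩ | ⟨h1, h2⟩
      · right
        exact (memE g).mpr ⟨h1, h2⟩
      · left
        rw [memE, mul_smul, mul_smul, h1, h2]
        exact ⟨htb, hta⟩

end Cfsg.Agent.S0879
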