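import Cfsg.Statements.S0880
import Cfsg.Agent.Lib.Helper21.ZassCount

set_option autoImplicit false
open Cfsg

namespace Cfsg.Agent.S0880

open Cfsg.Agent.Lib.Helper21

/-- Let G be a finite simple Zassenhaus group on Ω with n points whose two-point stabilizer E has odd order less than n - 2. Then there are two elements of G, each fixing no point of Ω, that are not conjugate. -/
theorem result {G Ω : Type*} [Group G] [Finite G] [MulAction G Ω] [Fintype Ω] (hZ : Cfsg.IsZassenhausGroup G Ω) {a b : Ω} (hab : a ≠ b) [IsSimpleGroup G] (hodd : Odd (Nat.card ↥(MulAction.stabilizer G a ⊓ MulAction.stabilizer G b : Subgroup G))) (hlt : Nat.card ↥(MulAction.stabilizer G a ⊓ MulAction.stabilizer G b : Subgroup G) < Fintype.card Ω - 2) : ∃ x y : G, (∀ c : Ω, x • c ≠ c) ∧ (∀ c : Ω, y • c ≠ c) ∧ ¬ IsConj x y := by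
  classical
  obtain ⟨hcard, hcount⟩ := zass_count hZ hab
  have h3 : 3 ≤ Fintype.card Ω := zass_three_le_card hZ
  by_contra hcon
  have hall : ∀ x y : G, (∀ c : Ω, x • c ≠ c) → (∀ c : Ω, y • c ≠ c) → IsConj x y := by
    intro x y hx hy
    by_contra hxy
    exact hcon ⟨x, y, hx, hy, hxy⟩
  obtain ⟨k, hk⟩ := hodd
  obtain ⟨n', hn'⟩ : ∃ n', Fintype.card Ω = n' + 3 := ⟨Fintype.card Ω - 3, by omega⟩
  rw [hn', hk] at hcard
  rw [hcard, hn'] at hcount
  have hsub : n' + 3 - 1 = n' + 2 := rfl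
  rw [hsub] at hcard hcount
  have hN0 : Nat.card {g : G // ∀ c : Ω, g • c ≠ c} = (n' + 2) * ((n' + 3) * k + 1) := by
    have h1 : (2 * (Nat.card {g : G // ∀ c : Ω, g • c ≠ c} : ℤ)) =
        2 * (((n' + 2) * ((n' + 3) * k + 1) : ℕ) : ℤ) := by
      rw [hcount]
      push_cast
      ring
    have h2 := mul_left_cancel₀ (two_ne_zero) h1
    exact_mod_cast h2
  have hpos : 0 < Nat.card {g : G // ∀ c : Ω, g • c ≠ c} := by
    rw [hN0]
    positivity
  obtain ⟨⟨x0, hx0⟩⟩ := (Nat.card_pos_iff.mp hpos).1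
  have hdvd := card_class_dvd (G := G) (fun g => ∀ c : Ω, g • c ≠ c) x0 (by
    intro y
    constructor
    · intro hy
      exact hall x0 y hx0 hy
    · intro hy c hc
      obtain ⟨g, hg⟩ := isConj_iff.mp hy
      apply hx0 (g⁻¹ • c)
      rw [← hg, mul_smul, mul_smul, smul_eq_iff_eq_inv_smul] at hc
      exact hc)
  rw [hN0, hcard] at hdvd
  have hdvd2 : ((n' + 3) * k + 1) ∣ (n' + 3) * (2 * k + 1) := by
    have h1 : (n' + 3) * (n' + 2) * (2 * k + 1) = (n' + 2) * ((n' + 3) * (2 * k + 1)) := by ring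
    rw [h1] at hdvd
    exact (Nat.mul_dvd_mul_iff_left (by omega)).mp hdvd
  have hcop : Nat.Coprime ((n' + 3) * k + 1) (n' + 3) := by
    have : (n' + 3) * k + 1 = 1 + k * (n' + 3) := by ring
    rw [this, Nat.coprime_add_mul_right_left]
    exact Nat.coprime_one_left _
  have hdvd3 : ((n' + 3) * k + 1) ∣ (2 * k + 1) := hcop.dvd_of_dvd_mul_left hdvd2
  have hle := Nat.le_of_dvd (by omega) hdvd3
  have hk0 : k = 0 := by
    by_contra hk0
    have : 3 * k ≤ (n' + 3) * k := Nat.mul_le_mul_right k (by omega)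
    omega
  rw [hk0] at hk
  obtain ⟨x, hx1, hxa, hxb⟩ := zass_exists_ne_one hZ hab
  have hbot := Subgroup.eq_bot_of_card_eq _ hk
  have hxE : x ∈ (MulAction.stabilizer G a ⊓ MulAction.stabilizer G b : Subgroup G) := by
    rw [Subgroup.mem_inf]
    exact ⟨hxa, hxb⟩
  rw [hbot, Subgroup.mem_bot] at hxE
  exact hx1 hxE

end Cfsg.Agent.S0880
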