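import Cfsg.Statements.S0886
import Cfsg.Agent.Lib.Helper4.CharEquiv
import Cfsg.Agent.Lib.Helper5.CharInt

set_option autoImplicit false
open Cfsg

namespace Cfsg.Agent.S0886

section Aux

variable {G : Type*} [Group G] (N : Subgroup G) [hN : N.Normal]
  {V : Type*} [AddCommGroup V] [Module ℂ V]

/-- The conjugation relation propagates to powers. -/
theorem pow_conj (ρ : Representation ℂ N V) (g : G) (T : Module.End ℂ V)
    (hT : ∀ n₁ n₂ : N, (n₂ : G) = g * n₁ * g⁻¹ → T * ρ n₁ = ρ n₂ * T) :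
    ∀ (k : ℕ) (n₁ n₂ : N), (n₂ : G) = g ^ k * n₁ * (g ^ k)⁻¹ → T ^ k * ρ n₁ = ρ n₂ * T ^ k := by
  intro k
  induction k with
  | zero =>
    intro n₁ n₂ h
    have : n₂ = n₁ := Subtype.ext (by simpa using h)
    simp [this]
  | succ k ih =>
    intro n₁ n₂ h
    let n' : N := ⟨g ^ k * n₁ * (g ^ k)⁻¹, hN.conj_mem _ n₁.2 _⟩
    have h1 := ih n₁ n' rfl
    have h2 : T * ρ n' = ρ n₂ * T := hT n' n₂ (by
      rw [h]
      show g ^ (k + 1) * (n₁ : G) * (g ^ (k + 1))⁻¹ = g * (g ^ k * n₁ * (g ^ k)⁻¹) * g⁻¹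
      rw [pow_succ']
      group)
    calc T ^ (k+1) * ρ n₁ = T * (T ^ k * ρ n₁) := by rw [pow_succ', mul_assoc]
      _ = T * (ρ n' * T ^ k) := by rw [h1]
      _ = (T * ρ n') * T ^ k := by rw [mul_assoc]
      _ = ρ n₂ * T * T ^ k := by rw [h2]
      _ = ρ n₂ * T ^ (k+1) := by rw [pow_succ', mul_assoc]

theorem key_le (ρ : Representation ℂ N V) (g : G)
    (m : ℕ) (hm : ∀ k : ℕ, g ^ k ∈ N → m ∣ k) (z : N) (hz : (z : G) = g ^ m)
    (T : Module.End ℂ V) (hTm : T ^ m = ρ z)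
    (i d : ℕ) (n n' : N) (h : g ^ i * (n : G) = g ^ (i + d) * n') :
    T ^ i * ρ n = T ^ (i + d) * ρ n' := by
  have h1 : (n : G) = g ^ d * n' := by
    rw [pow_add, mul_assoc] at h
    exact mul_left_cancel h
  have h2 : g ^ d ∈ N := by
    have : g ^ d = n * (n' : G)⁻¹ := by rw [h1]; group
    rw [this]
    exact N.mul_mem n.2 (N.inv_mem n'.2)
  obtain ⟨k, rfl⟩ := hm d h2
  have h3 : n = z ^ k * n' := by
    apply Subtype.ext
    rw [h1]
    simp [hz, pow_mul]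
  rw [h3, map_mul, map_pow, ← hTm, ← pow_mul, ← mul_assoc, ← pow_add]

theorem key (ρ : Representation ℂ N V) (g : G)
    (m : ℕ) (hm : ∀ k : ℕ, g ^ k ∈ N → m ∣ k) (z : N) (hz : (z : G) = g ^ m)
    (T : Module.End ℂ V) (hTm : T ^ m = ρ z)
    (i j : ℕ) (n n' : N) (h : g ^ i * (n : G) = g ^ j * n') :
    T ^ i * ρ n = T ^ j * ρ n' := by
  rcases le_total i j with hij | hij
  · obtain ⟨d, rfl⟩ := Nat.exists_eq_add_of_le hij
    exact key_le N ρ g m hm z hz T hTm i d n n' h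
  · obtain ⟨d, rfl⟩ := Nat.exists_eq_add_of_le hij
    exact (key_le N ρ g m hm z hz T hTm j d n' n h.symm).symm

theorem exists_extension (ρ : Representation ℂ N V) (g : G)
    (hg : ∀ x : G, ∃ i : ℕ, ∃ n : N, x = g ^ i * n)
    (m : ℕ) (hm : ∀ k : ℕ, g ^ k ∈ N → m ∣ k) (z : N) (hz : (z : G) = g ^ m)
    (T : Module.End ℂ V)
    (hT : ∀ n₁ n₂ : N, (n₂ : G) = g * n₁ * g⁻¹ → T * ρ n₁ = ρ n₂ * T)
    (hTm : T ^ m = ρ z) :
    ∃ σ : Representation ℂ G V, ∀ n : N, σ n = ρ n := by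
  classical
  let F : G → Module.End ℂ V := fun x =>
    T ^ (Classical.choose (hg x)) * ρ (Classical.choose (Classical.choose_spec (hg x)))
  have hF : ∀ (i : ℕ) (n : N), F (g ^ i * n) = T ^ i * ρ n := by
    intro i n
    have hspec := Classical.choose_spec (Classical.choose_spec (hg (g ^ i * n)))
    exact (key N ρ g m hm z hz T hTm _ _ _ _ hspec).symm
  have hone : F 1 = 1 := by
    have := hF 0 1
    simpa using this
  have hmul : ∀ x y : G, F (x * y) = F x * F y := by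
    intro x y
    obtain ⟨i, n, rfl⟩ := hg x
    obtain ⟨j, n', rfl⟩ := hg y
    have hmem : (g ^ j)⁻¹ * (n : G) * g ^ j ∈ N := by
      have := hN.conj_mem n n.2 (g ^ j)⁻¹
      rwa [inv_inv] at this
    let n'' : N := ⟨(g ^ j)⁻¹ * n * g ^ j, hmem⟩
    have h1 : g ^ i * (n : G) * (g ^ j * n') = g ^ (i + j) * ((n'' * n' : N) : G) := by
      show _ = g ^ (i + j) * ((g ^ j)⁻¹ * n * g ^ j * n')
      rw [pow_add]
      group
    have h2 : T ^ j * ρ n'' = ρ n * T ^ j := by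
      apply pow_conj N ρ g T hT j n'' n
      show (n : G) = g ^ j * ((g ^ j)⁻¹ * n * g ^ j) * (g ^ j)⁻¹
      group
    rw [h1, hF, hF, hF, map_mul, pow_add]
    calc T ^ i * T ^ j * (ρ n'' * ρ n') = T ^ i * (T ^ j * ρ n'') * ρ n' := by
          simp only [mul_assoc]
      _ = T ^ i * (ρ n * T ^ j) * ρ n' := by rw [h2]
      _ = T ^ i * ρ n * (T ^ j * ρ n') := by simp only [mul_assoc]
  refine ⟨{ toFun := F, map_one' := hone, map_mul' := hmul }, ?_⟩
  intro n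
  have := hF 0 n
  simpa using this

end Aux

/-- Let N be a normal subgroup of the finite group G with G / N cyclic, and ϑ an irreducible character of N invariant under conjugation by G. Then ϑ is the restriction of some irreducible character of G. -/
theorem result {G : Type*} [Group G] [Finite G] (N : Subgroup G) [hN : N.Normal] (hcyc : IsCyclic (G ⧸ N)) (ϑ : N → ℂ) (hϑ : Cfsg.IsIrrCharacter N ϑ) (hinv : ∀ (g : G) (n : N), ϑ ⟨g * n * g⁻¹, hN.conj_mem (n : G) n.2 g⟩ = ϑ n) : ∃ χ : G → ℂ, Cfsg.IsIrrCharacter G χ ∧ ∀ n : N, χ n = ϑ n := by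
  classical
  letI := Fintype.ofFinite G
  obtain ⟨n, ρ, hirr, hchar⟩ := hϑ
  haveI := hirr
  obtain ⟨q, hq⟩ := hcyc.exists_generator
  obtain ⟨g, rfl⟩ := QuotientGroup.mk_surjective q
  have hg : ∀ x : G, ∃ i : ℕ, ∃ n : N, x = g ^ i * n := by
    intro x
    have h1 := hq (QuotientGroup.mk x)
    rw [← mem_powers_iff_mem_zpowers] at h1
    obtain ⟨i, hi⟩ := h1
    have h2 : (g ^ i)⁻¹ * x ∈ N := by
      rw [← QuotientGroup.eq]
      simpa using hi
    exact ⟨i, ⟨_, h2⟩, by simp⟩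
  set m := orderOf (QuotientGroup.mk g : G ⧸ N) with hm_def
  have hmpos : 0 < m := orderOf_pos _
  have hm : ∀ k : ℕ, g ^ k ∈ N → m ∣ k := by
    intro k hk
    rw [hm_def, orderOf_dvd_iff_pow_eq_one, ← QuotientGroup.mk_pow]
    exact (QuotientGroup.eq_one_iff _).mpr hk
  have hgm : g ^ m ∈ N := by
    rw [← QuotientGroup.eq_one_iff, QuotientGroup.mk_pow, hm_def, pow_orderOf_eq_one]
  let z : N := ⟨g ^ m, hgm⟩
  let ρg : Representation ℂ N (Fin n → ℂ) := ρ.comp (MulAut.conjNormal g : MulAut N).toMonoidHom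
  have hconj : ∀ x : N, MulAut.conjNormal g x = ⟨g * x * g⁻¹, hN.conj_mem (x : G) x.2 g⟩ := by
    intro x
    apply Subtype.ext
    simp
  have hcharg : ρ.character = ρg.character := by
    funext x
    have h1 := hinv g x
    rw [← hchar] at h1
    show _ = ρ.character (MulAut.conjNormal g x)
    rw [hconj x, h1]
  obtain ⟨e⟩ := Cfsg.Agent.Lib.Helper4.equiv_of_char_eq ρ ρg hcharg
  let T0 : Module.End ℂ (Fin n → ℂ) := e.toLinearEquiv.toLinearMap
  have hT0 : ∀ n₁ n₂ : N, (n₂ : G) = g * n₁ * g⁻¹ → T0 * ρ n₁ = ρ n₂ * T0 := by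
    intro n₁ n₂ h
    have h1 := e.toIntertwiningMap.isIntertwining' n₁
    have h2 : ρg n₁ = ρ n₂ := by
      show ρ (MulAut.conjNormal g n₁) = ρ n₂
      congr 1
      apply Subtype.ext
      simp [h]
    rw [h2] at h1
    exact h1
  have hnt : Nontrivial (Fin n → ℂ) := Cfsg.Agent.Lib.Helper5.irr_nontrivial ρ
  -- Schur
  have hcomm : ∀ (x : N) (v : Fin n → ℂ),
      (ρ z⁻¹ * T0 ^ m) (ρ x v) = ρ x ((ρ z⁻¹ * T0 ^ m) v) := by
    intro x v
    have h1 : T0 ^ m * ρ x = ρ (z * x * z⁻¹) * T0 ^ m :=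
      pow_conj N ρ g T0 hT0 m x (z * x * z⁻¹) (by simp [z])
    have h2 : ρ z⁻¹ * T0 ^ m * ρ x = ρ x * (ρ z⁻¹ * T0 ^ m) := by
      rw [mul_assoc, h1, ← mul_assoc, ← mul_assoc, ← map_mul, ← map_mul]
      congr 2
      group
    exact congrArg (fun f : Module.End ℂ (Fin n → ℂ) => f v) h2
  obtain ⟨c, hc⟩ := Cfsg.Agent.Lib.Helper5.schur_scalar ρ (ρ z⁻¹ * T0 ^ m) hcomm
  have hTm0 : T0 ^ m = c • ρ z := by
    have : T0 ^ m = ρ z * (ρ z⁻¹ * T0 ^ m) := by
      rw [← mul_assoc, ← map_mul, mul_inv_cancel, map_one, one_mul]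
    rw [this, hc]
    ext v
    simp
  have hc0 : c ≠ 0 := by
    intro h0
    rw [h0, zero_smul] at hTm0
    obtain ⟨v, hv⟩ := exists_ne (0 : Fin n → ℂ)
    have hinj : Function.Injective (T0 ^ m) := by
      rw [Module.End.coe_pow]
      exact Function.Injective.iterate e.toLinearEquiv.injective m
    apply hv
    apply hinj
    rw [hTm0]
    simp
  obtain ⟨d, hd⟩ := IsAlgClosed.exists_pow_nat_eq (c⁻¹ : ℂ) hmpos
  obtain ⟨σ, hσ⟩ := exists_extension N ρ g hg m hm z rfl (d • T0)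
    (by
      intro n₁ n₂ h
      rw [smul_mul_assoc, mul_smul_comm, hT0 n₁ n₂ h])
    (by
      rw [smul_pow, hd, hTm0, smul_smul, inv_mul_cancel₀ hc0, one_smul])
  have hσirr : σ.IsIrreducible := by
    refine @IsSimpleOrder.mk _ _ _ ⟨⊥, ⊤, ?_⟩ ?_
    · intro h
      have h1 : (⊥ : Submodule ℂ (Fin n → ℂ)) = ⊤ :=
        congrArg Subrepresentation.toSubmodule h
      obtain ⟨v, hv⟩ := exists_ne (0 : Fin n → ℂ)
      have : v ∈ (⊥ : Submodule ℂ (Fin n → ℂ)) := by rw [h1]; trivial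
      exact hv (by simpa using this)
    · intro W
      have hW : ∀ x : N, ∀ v ∈ W.toSubmodule, ρ x v ∈ W.toSubmodule := by
        intro x v hv
        rw [← hσ x]
        exact W.apply_mem_toSubmodule x hv
      rcases Cfsg.Agent.Lib.Helper5.irr_stable_eq_bot_or_top ρ W.toSubmodule hW with h | h
      · left
        exact Subrepresentation.toSubmodule_injective h
      · right
        exact Subrepresentation.toSubmodule_injective h
  refine ⟨σ.character, ⟨n, σ, hσirr, rfl⟩, ?_⟩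
  intro x
  rw [← hchar]
  show LinearMap.trace ℂ _ (σ x) = LinearMap.trace ℂ _ (ρ x)
  rw [hσ x]

end Cfsg.Agent.S0886
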