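import Cfsg.Statements.S0892
import Cfsg.Agent.Lib.Helper13.AMMain

set_option autoImplicit false
open Cfsg

namespace Cfsg.Agent.S0892

/-- Let n ≥ 4 with n ≠ 6 and n ≠ 7, and let Γ be a finite group with a subgroup Z contained in both the centre and the commutator subgroup of Γ such that Γ / Z is isomorphic to the alternating group on n letters. Then Z has order at most 2. -/
theorem result (n : ℕ) (hn : 4 ≤ n) (h6 : n ≠ 6) (h7 : n ≠ 7) {Γ : Type*} [Group Γ] [Finite Γ] (Z : Subgroup Γ) [Z.Normal] (hZc : Z ≤ Subgroup.center Γ) (hZd : Z ≤ commutator Γ) (e : Γ ⧸ Z ≃* alternatingGroup (Fin n)) : Nat.card Z ≤ 2 := by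
  classical
  let π : Γ →* Equiv.Perm (Fin n) :=
    (alternatingGroup (Fin n)).subtype.comp (e.toMonoidHom.comp (QuotientGroup.mk' Z))
  have hπ : ∀ g : Γ, π g = ((e (QuotientGroup.mk g) : alternatingGroup (Fin n)) :
      Equiv.Perm (Fin n)) := fun g => rfl
  have hker : π.ker = Z := by
    ext g
    rw [MonoidHom.mem_ker, hπ, ← Subgroup.coe_one (alternatingGroup (Fin n)),
      Subtype.coe_injective.eq_iff, MulEquiv.map_eq_one_iff, QuotientGroup.eq_one_iff]
  have hr : π.range = alternatingGroup (Fin n) := by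
    ext y
    constructor
    · rintro ⟨g, rfl⟩
      exact (e (QuotientGroup.mk g)).2
    · intro hy
      obtain ⟨q, hq⟩ := e.surjective ⟨y, hy⟩
      obtain ⟨g, rfl⟩ := QuotientGroup.mk_surjective q
      exact ⟨g, by rw [hπ, hq]⟩
  have h := Cfsg.Agent.Lib.Helper13.AM.card_ker_le_two n hn h6 h7 π hr (by rw [hker]; exact hZc)
    (by rw [hker]; exact hZd)
  rw [hker] at h
  exact h

end Cfsg.Agent.S0892
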