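import Cfsg.Statements.S0893
import Mathlib
import Cfsg.Agent.Lib.Helper21.Extra
import Cfsg.Agent.Lib.Helper35.Ind
import Cfsg.Agent.Lib.Helper4.CharLinear
import Cfsg.Agent.Lib.Helper4.CharDecomp

set_option autoImplicit false
open Cfsg

namespace Cfsg.Agent.S0893

open Cfsg.Agent.Lib.Helper4 Cfsg.Agent.Lib.Helper21 Cfsg.Agent.Lib.Helper35
open scoped ComplexConjugate

/-- Let P be an extraspecial p-group of order p ^ (2 * n + 1), A an abelian subgroup of order p ^ (n + 1), and λ a character of A of degree 1 that is not identically 1 on the elements of A lying in the centre of P. Then the function induced from λ to P is an irreducible character of P and vanishes at every element outside the centre. -/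
theorem result {P : Type*} [Group P] [Fintype P] (p n : ℕ) [Fact p.Prime] (hP : Cfsg.IsExtraspecial p P) (hcard : Nat.card P = p ^ (2 * n + 1)) (A : Subgroup P) (hab : ∀ a ∈ A, ∀ b ∈ A, a * b = b * a) (hA : Nat.card A = p ^ (n + 1)) (lam : A → ℂ) (hlam : Cfsg.IsCharacter A lam ∧ lam 1 = 1) (hZ : ∃ a : A, (a : P) ∈ Subgroup.center P ∧ lam a ≠ 1) : Cfsg.IsIrrCharacter P (Cfsg.indFun A lam) ∧ ∀ x : P, x ∉ Subgroup.center P → Cfsg.indFun A lam x = 0 := by
  classical
  letI : Fintype A := Fintype.ofFinite A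
  have hp : p.Prime := Fact.out
  have hp0 : (p : ℂ) ≠ 0 := by exact_mod_cast hp.ne_zero
  obtain ⟨hlamc, hlam1⟩ := hlam
  obtain ⟨a₀, ha₀Z, ha₀⟩ := hZ
  have hirr : IsIrrCharacter A lam := isIrr_of_char_one hlamc hlam1
  have hmul : ∀ a b : A, lam (a * b) = lam a * lam b :=
    irr_mul_of_one (⟨lam, hirr⟩ : IrrCharacter A) hlam1
  have hnorm : ∀ a : A, lam a * conj (lam a) = 1 := by
    intro a
    rw [← irr_inv (⟨lam, hirr⟩ : IrrCharacter A) a]
    show lam a * lam a⁻¹ = 1
    rw [← hmul, mul_inv_cancel, hlam1]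
  have ha₀1 : (a₀ : P) ≠ 1 := by
    intro h
    apply ha₀
    have h2 : a₀ = 1 := Subtype.ext h
    rw [h2, hlam1]
  have hZA : Subgroup.center P ≤ A := by
    intro z hz
    obtain ⟨k, hk⟩ := extra_center_zpow hP ha₀Z ha₀1 z hz
    rw [← hk]
    exact A.zpow_mem a₀.2 k
  have hconj : ∀ g x : P, x⁻¹ * g * x = g * (g⁻¹ * x⁻¹ * g * x) := by
    intro g x; group
  have hAn : ∀ g x : P, x⁻¹ * g * x ∈ A → g ∈ A := by
    intro g x h
    have h2 : g = (x⁻¹ * g * x) * (g⁻¹ * x⁻¹ * g * x)⁻¹ := by group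
    rw [h2]
    exact A.mul_mem h (A.inv_mem (hZA (extra_comm_mem hP g x)))
  have hval_out : ∀ g, g ∉ A → indFun A lam g = 0 := by
    intro g hg
    unfold indFun
    rw [Finset.sum_eq_zero, mul_zero]
    intro x _
    exact ext_not_mem A lam _ (fun h => hg (hAn g x h))
  have hval_Z : ∀ g (hg : g ∈ Subgroup.center P),
      indFun A lam g = (p : ℂ) ^ n * lam ⟨g, hZA hg⟩ := by
    intro g hg
    unfold indFun
    have h1 : ∀ x : P, extendByZero A lam (x⁻¹ * g * x) = lam ⟨g, hZA hg⟩ := by
      intro x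
      have hx : x⁻¹ * g * x = g := by
        have h2 := Subgroup.mem_center_iff.mp hg x
        rw [mul_assoc, ← h2, ← mul_assoc, inv_mul_cancel, one_mul]
      rw [hx, ext_mem A lam g (hZA hg)]
    rw [Finset.sum_congr rfl (fun x _ => h1 x), Finset.sum_const, Finset.card_univ, nsmul_eq_mul,
      ← Nat.card_eq_fintype_card, hcard, hA]
    push_cast
    field_simp
    ring
  have hval_A : ∀ g, g ∈ A → g ∉ Subgroup.center P → indFun A lam g = 0 := by
    intro g hgA hgZ
    have hcA : ∀ x : P, extraCommHom hP g x ∈ A := fun x => hZA (extra_comm_mem hP g x)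
    have h1 : ∀ x : P, extendByZero A lam (x⁻¹ * g * x) =
        lam ⟨g, hgA⟩ * extendByZero A lam (extraCommHom hP g x) := by
      intro x
      rw [hconj g x, ← extraCommHom_apply hP g x, ext_mem A lam _ (A.mul_mem hgA (hcA x)),
        ext_mem A lam _ (hcA x)]
      exact hmul ⟨g, hgA⟩ ⟨_, hcA x⟩
    obtain ⟨y, hy⟩ := exists_comm_ne_one g hgZ
    obtain ⟨k, hk⟩ := extra_center_zpow hP (extra_comm_mem hP g y) hy (a₀ : P) ha₀Z
    have hcy : extraCommHom hP g (y ^ k) = (a₀ : P) := by
      rw [map_zpow]; exact hk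
    have h2 : ∑ x : P, extendByZero A lam (extraCommHom hP g x) =
        lam a₀ * ∑ x : P, extendByZero A lam (extraCommHom hP g x) := by
      conv_lhs => rw [← Equiv.sum_comp (Equiv.mulRight (y ^ k))]
      rw [Finset.mul_sum]
      refine Finset.sum_congr rfl fun x _ => ?_
      simp only [Equiv.coe_mulRight, map_mul, hcy]
      rw [ext_mem A lam _ (A.mul_mem (hcA x) a₀.2), ext_mem A lam _ (hcA x), mul_comm (lam a₀)]
      exact hmul ⟨_, hcA x⟩ a₀
    have hS0 : ∑ x : P, extendByZero A lam (extraCommHom hP g x) = 0 := by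
      have h3 : (1 - lam a₀) * ∑ x : P, extendByZero A lam (extraCommHom hP g x) = 0 := by
        rw [sub_mul, one_mul, ← h2, sub_self]
      rcases mul_eq_zero.mp h3 with h | h
      · exact absurd (sub_eq_zero.mp h).symm ha₀
      · exact h
    unfold indFun
    rw [Finset.sum_congr rfl (fun x _ => h1 x), ← Finset.mul_sum, hS0, mul_zero, mul_zero]
  have hvanish : ∀ x : P, x ∉ Subgroup.center P → indFun A lam x = 0 := by
    intro x hx
    by_cases hxA : x ∈ A
    · exact hval_A x hxA hx
    · exact hval_out x hxA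
  refine ⟨?_, hvanish⟩
  haveI := irr_finite (G := P)
  letI := Fintype.ofFinite (IrrCharacter P)
  apply isIrrCharacter_of_norm_one _ (isCharacter_indFun A hlamc)
  unfold classInner
  have h3 : ∀ g : P, indFun A lam g * conj (indFun A lam g) =
      if g ∈ Subgroup.center P then ((p : ℂ) ^ n) ^ 2 else 0 := by
    intro g
    by_cases hg : g ∈ Subgroup.center P
    · rw [if_pos hg, hval_Z g hg, map_mul, map_pow, Complex.conj_natCast]
      have h4 := hnorm ⟨g, hZA hg⟩
      linear_combination ((p : ℂ) ^ n) ^ 2 * h4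
    · rw [if_neg hg, hvanish g hg, zero_mul]
  rw [Finset.sum_congr rfl (fun g _ => h3 g), Finset.sum_ite, Finset.sum_const_zero, add_zero,
    Finset.sum_const, nsmul_eq_mul]
  have h4 : (Finset.univ.filter (fun g : P => g ∈ Subgroup.center P)).card = p := by
    rw [← hP.2, Nat.card_eq_fintype_card, Fintype.card_subtype]
  rw [h4, hcard]
  push_cast
  field_simp
  ring

end Cfsg.Agent.S0893
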