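import Cfsg.Statements.S0894
import Mathlib
import Cfsg.Agent.Lib.Helper21.Extra2
import Cfsg.Agent.Lib.Helper4.CharLinear

set_option autoImplicit false
open Cfsg

namespace Cfsg.Agent.S0894

open Cfsg.Agent.Lib.Helper4 Cfsg.Agent.Lib.Helper21
open scoped ComplexConjugate

/-- Let P be an extraspecial p-group of order p ^ (2 * n + 1). Then every irreducible character of P has degree 1 or p ^ n, and exactly p - 1 of them have degree p ^ n. -/
theorem result {P : Type*} [Group P] [Finite P] (p n : ℕ) [Fact p.Prime] (hP : Cfsg.IsExtraspecial p P) (hcard : Nat.card P = p ^ (2 * n + 1)) : (∀ χ : Cfsg.IrrCharacter P, (χ : P → ℂ) 1 = 1 ∨ (χ : P → ℂ) 1 = (p : ℂ) ^ n) ∧ Nat.card {χ : Cfsg.IrrCharacter P // (χ : P → ℂ) 1 = (p : ℂ) ^ n} = p - 1 := by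
  classical
  letI := Fintype.ofFinite P
  haveI := irr_finite (G := P)
  letI := Fintype.ofFinite (IrrCharacter P)
  have hp : p.Prime := Fact.out
  have hdeg : ∀ χ : IrrCharacter P, (χ : P → ℂ) 1 ≠ 1 → (χ : P → ℂ) 1 = (p : ℂ) ^ n := by
    intro χ h1
    have h2 := (extra_nonlinear hP χ h1).2
    rw [hcard] at h2
    obtain ⟨d, hdpos, hd⟩ := irr_one_nat χ
    rw [hd] at h2 ⊢
    have h3 : p * d ^ 2 = p ^ (2 * n + 1) := by exact_mod_cast h2
    have h4 : d ^ 2 = (p ^ n) ^ 2 := by
      have h5 : p * d ^ 2 = p * (p ^ n) ^ 2 := by rw [h3]; ring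
      exact Nat.eq_of_mul_eq_mul_left hp.pos h5
    have h5 : d = p ^ n := Nat.pow_left_injective two_ne_zero h4
    rw [h5]
    push_cast
    rfl
  refine ⟨fun χ => ?_, ?_⟩
  · by_cases h : (χ : P → ℂ) 1 = 1
    · left; exact h
    · right; exact hdeg χ h
  · have hL : Nat.card {χ : IrrCharacter P // (χ : P → ℂ) 1 = 1} = p ^ (2 * n) := by
      rw [card_linear, hP.1.2.2]
      have h1 := Subgroup.index_mul_card (Subgroup.center P)
      rw [hP.2, hcard] at h1
      have h2 : (Subgroup.center P).index * p = p ^ (2 * n) * p := by rw [h1]; ring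
      exact Nat.eq_of_mul_eq_mul_right hp.pos h2
    have hsum := sum_sq_irr (G := P)
    have h6 : ∀ χ : IrrCharacter P, (χ : P → ℂ) 1 ^ 2 =
        if (χ : P → ℂ) 1 = 1 then 1 else ((p : ℂ) ^ n) ^ 2 := by
      intro χ
      by_cases h : (χ : P → ℂ) 1 = 1
      · rw [if_pos h, h, one_pow]
      · rw [if_neg h, hdeg χ h]
    rw [Finset.sum_congr rfl (fun χ _ => h6 χ), Finset.sum_ite, Finset.sum_const,
      Finset.sum_const, hcard] at hsum
    have ha' : (Finset.univ.filter (fun χ : IrrCharacter P => (χ : P → ℂ) 1 = 1)).card =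
        p ^ (2 * n) := by
      rw [← hL, Nat.card_eq_fintype_card, Fintype.card_subtype]
    rw [ha'] at hsum
    have h7 : p ^ (2 * n) + (Finset.univ.filter
        (fun χ : IrrCharacter P => ¬ (χ : P → ℂ) 1 = 1)).card * (p ^ n) ^ 2 =
        p ^ (2 * n + 1) := by
      have h8 : ((p ^ (2 * n) + (Finset.univ.filter
          (fun χ : IrrCharacter P => ¬ (χ : P → ℂ) 1 = 1)).card * (p ^ n) ^ 2 : ℕ) : ℂ) =
          ((p ^ (2 * n + 1) : ℕ) : ℂ) := by
        push_cast
        simpa [nsmul_eq_mul] using hsum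
      exact_mod_cast h8
    have h8 : (Finset.univ.filter (fun χ : IrrCharacter P => ¬ (χ : P → ℂ) 1 = 1)).card =
        p - 1 := by
      have h9 : p ^ (2 * n) * (1 + (Finset.univ.filter
          (fun χ : IrrCharacter P => ¬ (χ : P → ℂ) 1 = 1)).card) = p ^ (2 * n) * p := by
        have h10 : (p ^ n) ^ 2 = p ^ (2 * n) := by rw [← pow_mul, mul_comm]
        rw [h10] at h7
        rw [mul_add, mul_one, mul_comm (p ^ (2 * n)) (Finset.card _), h7, pow_succ]
      have h10 := Nat.eq_of_mul_eq_mul_left (pow_pos hp.pos _) h9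
      omega
    have hn : n ≠ 0 := by
      intro h0
      have h9 : (Finset.univ.filter (fun χ : IrrCharacter P => ¬ (χ : P → ℂ) 1 = 1)).card = 0 := by
        rw [Finset.card_eq_zero, Finset.filter_eq_empty_iff]
        intro χ _ h
        exact h (by rw [hdeg χ h, h0, pow_zero])
      have h10 := hp.two_le
      omega
    rw [Nat.card_eq_fintype_card, Fintype.card_subtype, ← h8]
    congr 1
    ext χ
    simp only [Finset.mem_filter, Finset.mem_univ, true_and]
    constructor
    · intro h h1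
      rw [h1] at h
      have h9 : (p ^ n : ℕ) = 1 := by exact_mod_cast h.symm
      rcases Nat.pow_eq_one.mp h9 with h10 | h10
      · exact hp.one_lt.ne' h10
      · exact hn h10
    · intro h
      exact hdeg χ h

end Cfsg.Agent.S0894
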