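import Cfsg.Statements.S0895
import Cfsg.Agent.Lib.Helper79.FSMain

set_option autoImplicit false
open Cfsg

namespace Cfsg.Agent.S0895

open Cfsg.Agent.Lib.Helper79 Matrix Module

/-- Let χ be a real-valued irreducible character of a finite group G whose degree is an odd natural number. Then the average over s in G of χ (s * s) equals 1. -/
theorem result {G : Type*} [Group G] [Fintype G] (χ : G → ℂ) (hχ : Cfsg.IsIrrCharacter G χ) (hreal : ∀ g : G, (χ g).im = 0) (d : ℕ) (hd : χ 1 = d) (hodd : Odd d) : (Nat.card G : ℂ)⁻¹ * ∑ s : G, χ (s * s) = 1 := by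
  obtain ⟨n, ρ, hρ, rfl⟩ := hχ
  haveI := hρ
  have hn : n = d := by
    have h1 : ρ.character 1 = (finrank ℂ (Fin n → ℂ) : ℂ) := Representation.char_one ρ
    rw [hd] at h1
    have h2 : finrank ℂ (Fin n → ℂ) = n := by simp
    rw [h2] at h1
    exact_mod_cast h1.symm
  obtain ⟨h1, h2⟩ := transpose_eq_fsInd_smul ρ hreal
  obtain ⟨M, hM0, hinv⟩ := exists_invariant_of_real ρ hreal
  have hu := isUnit_det_of_invariant ρ M hinv hM0
  rcases h1 with h | h
  · exact h
  · exfalso
    have hT := h2 M hinv
    rw [h] at hT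
    have h3 := congrArg Matrix.det hT
    have hoddn : Odd n := hn ▸ hodd
    rw [Matrix.det_transpose, Matrix.det_smul, Fintype.card_fin, hoddn.neg_one_pow] at h3
    have h4 : M.det = 0 := by linear_combination (1 / 2 : ℂ) * h3
    exact hu.ne_zero h4

end Cfsg.Agent.S0895
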