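import Cfsg.Statements.S0896
import Cfsg.Agent.Lib.Helper21.Dade

set_option autoImplicit false
open scoped ComplexConjugate
open Cfsg

namespace Cfsg.Agent.S0896

open Cfsg.Agent.Lib Cfsg.Agent.Lib.Helper21

/-- Let N be a normal subgroup of the finite group G with the index of N a power of the prime p, and ϑ an irreducible character of N invariant under conjugation by G. Then there are a p-elementary subgroup E of G with E ⊔ N = ⊤ and an irreducible character φ of the subgroup E ⊓ N, invariant under conjugation by E, such that the inner product of the restriction of ϑ to E ⊓ N with φ is an integer not divisible by p. -/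
theorem result {G : Type*} [Group G] [Fintype G] (p : ℕ) (hp : p.Prime) (N : Subgroup G) [hN : N.Normal] (hind : ∃ k : ℕ, N.index = p ^ k) (ϑ : N → ℂ) (hϑ : Cfsg.IsIrrCharacter N ϑ) (hinv : ∀ (g : G) (n : N), ϑ ⟨g * n * g⁻¹, hN.conj_mem (n : G) n.2 g⟩ = ϑ n) : ∃ (E : Subgroup G) (φ : ↥(E ⊓ N) → ℂ), Cfsg.IsElementary p E ∧ E ⊔ N = ⊤ ∧ Cfsg.IsIrrCharacter ↥(E ⊓ N) φ ∧ (∀ (g : G) (hg : g ∈ E) (x : ↥(E ⊓ N)), φ ⟨g * x * g⁻¹, ⟨(E.mul_mem (E.mul_mem hg x.2.1) (E.inv_mem hg)), hN.conj_mem (x : G) x.2.2 g⟩⟩ = φ x) ∧ ∃ m : ℕ, ¬ p ∣ m ∧ (Nat.card ↥(E ⊓ N) : ℂ)⁻¹ * ∑ᶠ x : ↥(E ⊓ N), ϑ ⟨(x : G), x.2.2⟩ * conj (φ x) = (m : ℂ) := by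
  classical
  haveI : Fact p.Prime := ⟨hp⟩
  letI : Fintype N := Fintype.ofFinite N
  obtain ⟨E, ψ, hE, hψ, hEN, hm⟩ := dade_exists_elementary p N hind ϑ hϑ hinv
  letI : Fintype ↥(E ⊓ N) := Fintype.ofFinite _
  obtain ⟨m, hm, hκ⟩ := hm
  obtain ⟨k, hk⟩ := hind
  have hk' : N.relIndex E = p ^ k := by
    rw [← Subgroup.relIndex_sup_right E N, hEN, Subgroup.relIndex_top_right, hk]
  have hϑc : IsCharacter N ϑ := Helper35.isChar_of_irr hϑ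
  have hβ : IsCharacter ↥(E ⊓ N) (fun x : ↥(E ⊓ N) => ϑ ⟨x, x.2.2⟩) :=
    Helper20.isCharacter_comp (Subgroup.inclusion (inf_le_right : E ⊓ N ≤ N)) hϑc
  have hα : IsCharacter ↥(E ⊓ N) (fun x : ↥(E ⊓ N) => ψ ⟨x, x.2.1⟩ * ϑ ⟨x, x.2.2⟩) :=
    Helper35.isCharacter_mul
      (Helper20.isCharacter_comp (Subgroup.inclusion (inf_le_left : E ⊓ N ≤ E)) hψ) hβ
  have hβinv : ∀ (r : ↥E) (x : ↥(E ⊓ N)),
      ϑ ⟨(dadeConj E N r x : ↥(E ⊓ N)), (dadeConj E N r x).2.2⟩ = ϑ ⟨x, x.2.2⟩ := by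
    intro r x
    have h1 := hinv (r : G)⁻¹ ⟨x, x.2.2⟩
    rw [← h1]
    exact congrArg ϑ (Subtype.ext (by simp [dadeConj_coe]))
  have hψinv : ∀ (r : ↥E) (x : ↥(E ⊓ N)),
      ψ ⟨(dadeConj E N r x : ↥(E ⊓ N)), (dadeConj E N r x).2.1⟩ = ψ ⟨x, x.2.1⟩ := by
    intro r x
    have h1 := Helper35.isClassFunction_of_isCharacter hψ ⟨x, x.2.1⟩ r⁻¹
    rw [← h1]
    exact congrArg ψ (Subtype.ext (by simp [dadeConj_coe]))
  obtain ⟨φ, hφ, hφinv, m', hm', hκ'⟩ := dade_invariant_constituent p E N k hk'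
    (fun x : ↥(E ⊓ N) => ψ ⟨x, x.2.1⟩ * ϑ ⟨x, x.2.2⟩) (fun x : ↥(E ⊓ N) => ϑ ⟨x, x.2.2⟩) hα hβ
    (fun r x => by
      show ψ ⟨(dadeConj E N r x : ↥(E ⊓ N)), (dadeConj E N r x).2.1⟩ *
        ϑ ⟨(dadeConj E N r x : ↥(E ⊓ N)), (dadeConj E N r x).2.2⟩ = ψ ⟨x, x.2.1⟩ * ϑ ⟨x, x.2.2⟩
      rw [hψinv, hβinv])
    hβinv m hm hκ
  refine ⟨E, φ, hE, hEN, hφ, ?_, m', hm', ?_⟩
  · intro g hg x
    have h1 := hφinv ⟨g⁻¹, E.inv_mem hg⟩ x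
    rw [← h1]
    exact congrArg φ (Subtype.ext (by simp [dadeConj_coe]))
  · rw [finsum_eq_sum_of_fintype]
    exact hκ'

end Cfsg.Agent.S0896
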