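import Cfsg.Statements.S0897
import Cfsg.Agent.S0896
import Cfsg.Agent.Lib.Helper21.DadeExt

set_option autoImplicit false
open Cfsg

namespace Cfsg.Agent.S0897

open Cfsg.Agent.Lib Cfsg.Agent.Lib.Helper21

/-- Let N be a normal subgroup of the finite group G with the index of N a power of the prime p, and P a Sylow p-subgroup of G such that P ⊓ N lies in the centre of P and every character of degree 1 of P ⊓ N is the restriction of a character of degree 1 of P. Then every irreducible character of N invariant under conjugation by G is the restriction of an irreducible character of G. -/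
theorem result {G : Type*} [Group G] [Fintype G] (p : ℕ) [Fact p.Prime] (N : Subgroup G) [hN : N.Normal] (hind : ∃ k : ℕ, N.index = p ^ k) (P : Sylow p G) (hcent : ∀ x ∈ (P : Subgroup G) ⊓ N, ∀ y ∈ (P : Subgroup G), x * y = y * x) (hlin : ∀ lam : ↥((P : Subgroup G) ⊓ N) → ℂ, Cfsg.IsCharacter ↥((P : Subgroup G) ⊓ N) lam → lam 1 = 1 → ∃ μ : ↥(P : Subgroup G) → ℂ, Cfsg.IsCharacter ↥(P : Subgroup G) μ ∧ μ 1 = 1 ∧ ∀ x : ↥((P : Subgroup G) ⊓ N), μ ⟨(x : G), x.2.1⟩ = lam x) (ϑ : N → ℂ) (hϑ : Cfsg.IsIrrCharacter N ϑ) (hinv : ∀ (g : G) (n : N), ϑ ⟨g * n * g⁻¹, hN.conj_mem (n : G) n.2 g⟩ = ϑ n) : ∃ χ : G → ℂ, Cfsg.IsIrrCharacter G χ ∧ ∀ n : N, χ n = ϑ n := by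
  classical
  have hp : p.Prime := Fact.out
  obtain ⟨d, ρ, hρ, rfl⟩ := hϑ
  haveI := hρ
  obtain ⟨E, φ, hE, hEN, hφ, -, m, hm, hmult⟩ :=
    Cfsg.Agent.S0896.result p hp N hind ρ.character ⟨d, ρ, hρ, rfl⟩ hinv
  have hdisj := dade_elem_disjoint P N (dade_sylow_disjoint (P : Subgroup G) N hcent hlin) E hE
  have hc := dade_central E N hdisj
  haveI : IsMulCommutative ↥(E ⊓ N) := ⟨⟨fun a b => Subtype.ext (hc a a.2 b b.2.1)⟩⟩
  have hφ1 := Helper83.irr_comm_degree hφ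
  obtain ⟨l, hl⟩ := Helper4.linToIrr_bijective.surjective ⟨⟨φ, hφ⟩, hφ1⟩
  have hlφ : ∀ x, φ x = (l x : ℂ) := fun x =>
    (congrFun (congrArg (fun χ : {χ : IrrCharacter ↥(E ⊓ N) // (χ : ↥(E ⊓ N) → ℂ) 1 = 1} =>
      (χ.1 : ↥(E ⊓ N) → ℂ)) hl) x).symm
  obtain ⟨L, hL⟩ := dade_lin_ext E N hdisj l
  letI : Fintype ↥(E ⊓ N) := Fintype.ofFinite _
  have hfin := finrank_eigSp N ρ E l
  rw [finsum_eq_sum_of_fintype] at hmult
  have hm' : Module.finrank ℂ (eigSp N ρ E l) = m := by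
    have : (Module.finrank ℂ (eigSp N ρ E l) : ℂ) = (m : ℂ) := by
      rw [hfin, ← hmult]
      congr 1
      refine Finset.sum_congr rfl fun x _ => ?_
      rw [hlφ]
    exact_mod_cast this
  obtain ⟨k, hk⟩ := hind
  have hinv' : ∀ (g : G) (n : N), ρ.character (MulAut.conjNormal g n) = ρ.character n := by
    intro g n
    rw [← hinv g n]
    exact congrArg ρ.character (Subtype.ext (by simp [MulAut.conjNormal_apply]))
  obtain ⟨σ, hσ⟩ := dade_ext_main N p ρ hinv' k hk E hEN hc l L hL (hm' ▸ hm)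
  obtain ⟨h1, h2⟩ := irr_of_res N σ ρ hσ
  exact ⟨σ.character, h1, h2⟩

end Cfsg.Agent.S0897
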