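import Cfsg.Statements.S0900
import Mathlib
import Cfsg.Agent.Lib.Helper20.Clifford

set_option autoImplicit false
open Cfsg

namespace Cfsg.Agent.S0900

open Cfsg.Agent.Lib.Helper4 Cfsg.Agent.Lib.Helper35 Cfsg.Agent.Lib.Helper20
open scoped ComplexConjugate

section

variable {G : Type*} [Group G] [Fintype G] (N : Subgroup G) [hN : N.Normal] [Fintype N]
  {χ : G → ℂ} (hχ : Cfsg.IsIrrCharacter G χ) {ϑ : N → ℂ} (hϑ : Cfsg.IsIrrCharacter N ϑ)

include hχ hϑ in
/-- If `ϑ` is invariant, the restriction of `χ` is a multiple of `ϑ`. -/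
theorem res_of_inv (hcon : Cfsg.classInner (fun n : N => χ n) ϑ ≠ 0)
    (hinv : ∀ (g : G) (n : N), ϑ ⟨g * n * g⁻¹, hN.conj_mem (n : G) n.2 g⟩ = ϑ n) :
    ∃ e : ℕ, e ≠ 0 ∧ (fun n : N => χ n) = (e : ℂ) • ϑ := by
  obtain ⟨e, he⟩ := classInner_char_nat (isCharacter_res N (isChar_of_irr hχ)) (isChar_of_irr hϑ)
  have he' : Cfsg.classInner (fun n : N => χ n) ϑ = (e : ℂ) := he
  refine ⟨e, ?_, ?_⟩
  · intro h0
    apply hcon
    rw [he', h0]
    simp
  · funext n
    have hT : ∀ g : G, g ∈ (⊤ : Subgroup G) ↔ conjFun N ϑ g = ϑ := by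
      intro g
      constructor
      · intro _
        funext m
        exact hinv g m
      · intro _
        exact Subgroup.mem_top g
    have h1 := clifford_res N hϑ hχ hcon ⊤ hT n
    have h2 : ∀ x : G, conjFun N ϑ x n = ϑ n := fun x => hinv x n
    rw [Finset.sum_congr rfl (fun x _ => h2 x), Finset.sum_const, Finset.card_univ, nsmul_eq_mul,
      Subgroup.card_top, ← Nat.card_eq_fintype_card, he'] at h1
    have hG : (Nat.card G : ℂ) ≠ 0 := by exact_mod_cast (Nat.card_pos (α := G)).ne'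
    rw [h1]
    show _ = (e : ℂ) * ϑ n
    field_simp

include hχ in
theorem inv_of_res (e : ℕ) (he : e ≠ 0) (h : (fun n : N => χ n) = (e : ℂ) • ϑ) :
    ∀ (g : G) (n : N), ϑ ⟨g * n * g⁻¹, hN.conj_mem (n : G) n.2 g⟩ = ϑ n := by
  intro g n
  have h1 := congrFun h ⟨g * n * g⁻¹, hN.conj_mem (n : G) n.2 g⟩
  have h2 := congrFun h n
  have h3 : χ (g * n * g⁻¹) = χ n := isClassFunction_of_isCharacter (isChar_of_irr hχ) n g
  simp only [Pi.smul_apply, smul_eq_mul] at h1 h2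
  rw [h3, h2] at h1
  have he' : (e : ℂ) ≠ 0 := by exact_mod_cast he
  exact (mul_left_cancel₀ he' h1).symm

include hϑ in
theorem norm_res (e : ℕ) (h : (fun n : N => χ n) = (e : ℂ) • ϑ) :
    ∑ n : N, χ n * conj (χ n) = (e : ℂ) ^ 2 * (Nat.card N : ℂ) := by
  have h1 := classInner_irr' hϑ hϑ
  rw [if_pos rfl] at h1
  unfold Cfsg.classInner at h1
  have hNc : (Nat.card N : ℂ) ≠ 0 := by exact_mod_cast (Nat.card_pos (α := N)).ne'
  have h2 : ∑ n : N, ϑ n * conj (ϑ n) = (Nat.card N : ℂ) := by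
    field_simp at h1
    exact h1
  have h3 : ∀ n : N, χ n * conj (χ n) = (e : ℂ) ^ 2 * (ϑ n * conj (ϑ n)) := by
    intro n
    have h4 := congrFun h n
    simp only [Pi.smul_apply, smul_eq_mul] at h4
    rw [h4, map_mul, Complex.conj_natCast]
    ring
  rw [Finset.sum_congr rfl (fun n _ => h3 n), ← Finset.mul_sum, h2]

include hχ in
theorem norm_total : ∑ g : G, χ g * conj (χ g) = (Nat.card G : ℂ) := by
  have h1 := classInner_irr' hχ hχ
  rw [if_pos rfl] at h1
  unfold Cfsg.classInner at h1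
  have hG : (Nat.card G : ℂ) ≠ 0 := by exact_mod_cast (Nat.card_pos (α := G)).ne'
  field_simp at h1
  exact h1

open scoped Classical in
theorem norm_split (χ : G → ℂ) :
    ∑ g : G, χ g * conj (χ g) = ∑ n : N, χ n * conj (χ n) +
      ∑ g : G, if g ∈ N then 0 else χ g * conj (χ g) := by
  rw [← sum_ext_mul N (fun n : N => χ n) (fun g => conj (χ g)), ← Finset.sum_add_distrib]
  refine Finset.sum_congr rfl fun g _ => ?_
  by_cases hg : g ∈ N
  · rw [if_pos hg, add_zero, ext_mem N _ g hg]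
  · rw [if_neg hg, ext_not_mem N _ g hg, zero_mul, zero_add]

open scoped Classical in
/-- expansion of the induced character at the identity -/
theorem ind_expansion [Fintype (Cfsg.IrrCharacter G)] (ϑ : N → ℂ) :
    (N.index : ℂ) * ϑ 1 = ∑ ψ : Cfsg.IrrCharacter G,
      Cfsg.classInner (Cfsg.indFun N ϑ) (ψ : G → ℂ) * (ψ : G → ℂ) 1 := by
  have h1 := classFunction_expansion (Cfsg.indFun N ϑ) (isClassFunction_indFun N ϑ)
  have h2 := congrFun h1 1
  rw [indFun_one_eq] at h2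
  rw [h2]
  simp only [Finset.sum_apply, Pi.smul_apply, smul_eq_mul]

include hχ hϑ in
theorem inner_ind_of_res (e : ℕ) (h : (fun n : N => χ n) = (e : ℂ) • ϑ) :
    Cfsg.classInner (Cfsg.indFun N ϑ) χ = (e : ℂ) := by
  rw [frobenius_reciprocity N ϑ χ (isClassFunction_of_isCharacter (isChar_of_irr hχ))]
  have h1 : res N χ = (e : ℂ) • ϑ := h
  rw [h1, classInner_smul_right, Complex.conj_natCast, classInner_irr' hϑ hϑ, if_pos rfl, mul_one]

end

/-- Let N be a normal subgroup of the finite group G, χ an irreducible character of G and ϑ an irreducible character of N having nonzero inner product with the restriction of χ. Consider: (a) the restriction of χ to N is e • ϑ for a natural number e with e ^ 2 equal to the index of N; (b) χ vanishes outside N and ϑ is invariant under conjugation by G; (c) ϑ is invariant and every irreducible character of G having nonzero inner product with the function induced from ϑ equals χ. Then (a)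 ↔ (b) and (a) ↔ (c). -/
theorem result {G : Type*} [Group G] [Fintype G] (N : Subgroup G) [hN : N.Normal] [Fintype N] (χ : G → ℂ) (hχ : Cfsg.IsIrrCharacter G χ) (ϑ : N → ℂ) (hϑ : Cfsg.IsIrrCharacter N ϑ) (hcon : Cfsg.classInner (fun n : N => χ n) ϑ ≠ 0) : ((∃ e : ℕ, (fun n : N => χ n) = (e : ℂ) • ϑ ∧ e ^ 2 = N.index) ↔ ((∀ g : G, g ∉ N → χ g = 0) ∧ ∀ (g : G) (n : N), ϑ ⟨g * n * g⁻¹, hN.conj_mem (n : G) n.2 g⟩ = ϑ n)) ∧ ((∃ e : ℕ, (fun n : N => χ n) = (e : ℂ) • ϑ ∧ e ^ 2 = N.index) ↔ (∀ (g : G) (n : N), ϑ ⟨g * n * g⁻¹, hN.conj_mem (n : G) n.2 g⟩ = ϑ n ∧ ∀ ψ : G → ℂ, Cfsg.IsIrrCharacter G ψ → Cfsg.classInner (Cfsg.indFun N ϑ) ψ ≠ 0 → ψ = χ)) := by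
  classical
  haveI := irr_finite (G := G)
  letI := Fintype.ofFinite (Cfsg.IrrCharacter G)
  have hGN : (Nat.card G : ℂ) = (N.index : ℂ) * (Nat.card N : ℂ) := by
    rw [← Nat.cast_mul, Subgroup.index_mul_card]
  have hNc : (Nat.card N : ℂ) ≠ 0 := by exact_mod_cast (Nat.card_pos (α := N)).ne'
  have hϑ1 : ϑ 1 ≠ 0 := irr_one_ne_zero (⟨ϑ, hϑ⟩ : Cfsg.IrrCharacter N)
  -- (a) → invariance
  have ha_inv : (∃ e : ℕ, (fun n : N => χ n) = (e : ℂ) • ϑ ∧ e ^ 2 = N.index) →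
      ∀ (g : G) (n : N), ϑ ⟨g * n * g⁻¹, hN.conj_mem (n : G) n.2 g⟩ = ϑ n := by
    rintro ⟨e, he, he2⟩
    have he0 : e ≠ 0 := by
      intro h0
      rw [h0] at he2
      exact Subgroup.index_ne_zero_of_finite (by simpa using he2.symm)
    exact inv_of_res N hχ e he0 he
  -- (a) → uniqueness in (c)
  have ha_c : (∃ e : ℕ, (fun n : N => χ n) = (e : ℂ) • ϑ ∧ e ^ 2 = N.index) →
      ∀ ψ : G → ℂ, Cfsg.IsIrrCharacter G ψ → Cfsg.classInner (Cfsg.indFun N ϑ) ψ ≠ 0 → ψ = χ := by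
    rintro ⟨e, he, he2⟩ ψ hψ hne
    by_contra hψχ
    have hexp := ind_expansion N ϑ
    rw [← Finset.add_sum_erase Finset.univ _ (Finset.mem_univ (⟨χ, hχ⟩ : Cfsg.IrrCharacter G))]
      at hexp
    have h1 : χ 1 = (e : ℂ) * ϑ 1 := by
      have := congrFun he 1
      simpa using this
    have h2 : Cfsg.classInner (Cfsg.indFun N ϑ) χ * χ 1 = (N.index : ℂ) * ϑ 1 := by
      rw [inner_ind_of_res N hχ hϑ e he, h1, ← he2]
      push_cast
      ring
    have h3 : ∑ φ ∈ Finset.univ.erase (⟨χ, hχ⟩ : Cfsg.IrrCharacter G),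
        Cfsg.classInner (Cfsg.indFun N ϑ) (φ : G → ℂ) * (φ : G → ℂ) 1 = 0 := by
      have h4 : Cfsg.classInner (Cfsg.indFun N ϑ)
          ((⟨χ, hχ⟩ : Cfsg.IrrCharacter G) : G → ℂ) *
          ((⟨χ, hχ⟩ : Cfsg.IrrCharacter G) : G → ℂ) 1 = (N.index : ℂ) * ϑ 1 := h2
      rw [h4] at hexp
      linear_combination -hexp
    -- natural number form
    have hk : ∀ φ : Cfsg.IrrCharacter G, ∃ k : ℕ,
        Cfsg.classInner (Cfsg.indFun N ϑ) (φ : G → ℂ) = k := fun φ =>
      classInner_char_nat (isCharacter_indFun N (isChar_of_irr hϑ)) (isChar_of_irr φ.2)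
    choose k hk using hk
    have hd : ∀ φ : Cfsg.IrrCharacter G, ∃ d : ℕ, 0 < d ∧ (φ : G → ℂ) 1 = d := irr_one_nat
    choose d hdpos hd using hd
    have h5 : ∑ φ ∈ Finset.univ.erase (⟨χ, hχ⟩ : Cfsg.IrrCharacter G), k φ * d φ = 0 := by
      have h6 : ((∑ φ ∈ Finset.univ.erase (⟨χ, hχ⟩ : Cfsg.IrrCharacter G), k φ * d φ : ℕ) : ℂ)
          = 0 := by
        rw [← h3]
        push_cast
        exact Finset.sum_congr rfl fun φ _ => by rw [hk φ, hd φ]
      exact_mod_cast h6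
    have h6 := (Finset.sum_eq_zero_iff.mp h5) ⟨ψ, hψ⟩
      (Finset.mem_erase.mpr ⟨fun h => hψχ (congrArg Subtype.val h), Finset.mem_univ _⟩)
    rcases Nat.mul_eq_zero.mp h6 with h7 | h7
    · apply hne
      have := hk ⟨ψ, hψ⟩
      rw [this, h7]
      simp
    · exact (hdpos ⟨ψ, hψ⟩).ne' h7
  refine ⟨⟨fun ha => ⟨?_, ha_inv ha⟩, ?_⟩, ⟨fun ha => fun g n => ⟨ha_inv ha g n, ha_c ha⟩, ?_⟩⟩
  · -- (a) → vanishing
    obtain ⟨e, he, he2⟩ := ha
    have h1 := norm_split N χ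
    rw [norm_total hχ, norm_res N hϑ e he, hGN, ← he2] at h1
    have h2 : ∑ g : G, (if g ∈ N then (0 : ℂ) else χ g * conj (χ g)) = 0 := by
      push_cast at h1
      linear_combination -h1
    have h3 : ∑ g : G, (if g ∈ N then (0 : ℝ) else Complex.normSq (χ g)) = 0 := by
      have h4 : ((∑ g : G, (if g ∈ N then (0 : ℝ) else Complex.normSq (χ g)) : ℝ) : ℂ) = 0 := by
        rw [← h2]
        push_cast
        refine Finset.sum_congr rfl fun g _ => ?_
        split_ifs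
        · rfl
        · rw [Complex.mul_conj]
      exact_mod_cast h4
    intro g hg
    have h4 := (Finset.sum_eq_zero_iff_of_nonneg (fun g _ => by
      split_ifs
      · exact le_rfl
      · exact Complex.normSq_nonneg _)).mp h3 g (Finset.mem_univ g)
    rw [if_neg hg] at h4
    exact Complex.normSq_eq_zero.mp h4
  · -- (b) → (a)
    rintro ⟨hvan, hinv⟩
    obtain ⟨e, he0, he⟩ := res_of_inv N hχ hϑ hcon hinv
    refine ⟨e, he, ?_⟩
    have h1 := norm_split N χ
    have h2 : ∑ g : G, (if g ∈ N then (0 : ℂ) else χ g * conj (χ g)) = 0 := by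
      apply Finset.sum_eq_zero
      intro g _
      split_ifs with hg
      · rfl
      · rw [hvan g hg, zero_mul]
    rw [norm_total hχ, norm_res N hϑ e he, h2, add_zero, hGN] at h1
    have h3 : (N.index : ℂ) = (e : ℂ) ^ 2 := mul_right_cancel₀ hNc h1
    exact_mod_cast h3.symm
  · -- (c) → (a)
    intro hc
    have hinv : ∀ (g : G) (n : N), ϑ ⟨g * n * g⁻¹, hN.conj_mem (n : G) n.2 g⟩ = ϑ n :=
      fun g n => (hc g n).1
    have huniq := (hc 1 1).2
    obtain ⟨e, he0, he⟩ := res_of_inv N hχ hϑ hcon hinv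
    refine ⟨e, he, ?_⟩
    have hexp := ind_expansion N ϑ
    rw [← Finset.add_sum_erase Finset.univ _ (Finset.mem_univ (⟨χ, hχ⟩ : Cfsg.IrrCharacter G))]
      at hexp
    have h1 : χ 1 = (e : ℂ) * ϑ 1 := by
      have := congrFun he 1
      simpa using this
    have h3 : ∑ φ ∈ Finset.univ.erase (⟨χ, hχ⟩ : Cfsg.IrrCharacter G),
        Cfsg.classInner (Cfsg.indFun N ϑ) (φ : G → ℂ) * (φ : G → ℂ) 1 = 0 := by
      apply Finset.sum_eq_zero
      intro φ hφ
      have h4 : Cfsg.classInner (Cfsg.indFun N ϑ) (φ : G → ℂ) = 0 := by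
        by_contra h5
        exact (Finset.ne_of_mem_erase hφ) (Subtype.ext (huniq φ φ.2 h5))
      rw [h4, zero_mul]
    have h4 : Cfsg.classInner (Cfsg.indFun N ϑ)
        ((⟨χ, hχ⟩ : Cfsg.IrrCharacter G) : G → ℂ) *
        ((⟨χ, hχ⟩ : Cfsg.IrrCharacter G) : G → ℂ) 1 = (e : ℂ) * ((e : ℂ) * ϑ 1) := by
      show Cfsg.classInner (Cfsg.indFun N ϑ) χ * χ 1 = _
      rw [inner_ind_of_res N hχ hϑ e he, h1]
    rw [h3, add_zero, h4] at hexp
    have h5 : (N.index : ℂ) = (e : ℂ) ^ 2 := by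
      have h6 : (N.index : ℂ) * ϑ 1 = (e : ℂ) ^ 2 * ϑ 1 := by rw [hexp]; ring
      exact mul_right_cancel₀ hϑ1 h6
    exact_mod_cast h5.symm

end Cfsg.Agent.S0900
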