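import Cfsg.Statements.S0901
import Cfsg.Agent.Lib.Helper21.Loc
-- import your own Cfsg.Agent.* helpers here

set_option autoImplicit false
open Cfsg

namespace Cfsg.Agent.S0901

open Cfsg.Agent.Lib.Helper21

/-- Let M be a maximal ideal of the ring of algebraic integers containing the prime p, and let U be the set of complex roots of unity of order prime to p. Then reduction modulo M is injective on U, and every algebraic integer not in M is congruent modulo M to an element of U (so U maps bijectively onto the nonzero residues). -/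
theorem result (p : ℕ) [Fact p.Prime] (M : Ideal Cfsg.AlgInt) (hM : Cfsg.IsPModular p M) : (∀ ε₁ ε₂ : Cfsg.AlgInt, (∃ m : ℕ, ¬ p ∣ m ∧ (ε₁ : ℂ) ^ m = 1) → (∃ m : ℕ, ¬ p ∣ m ∧ (ε₂ : ℂ) ^ m = 1) → ε₁ - ε₂ ∈ M → ε₁ = ε₂) ∧ (∀ a : Cfsg.AlgInt, a ∉ M → ∃ ε : Cfsg.AlgInt, (∃ m : ℕ, ¬ p ∣ m ∧ (ε : ℂ) ^ m = 1) ∧ a - ε ∈ M) := by
  constructor
  · rintro ε₁ ε₂ ⟨m₁, hm₁, h₁⟩ ⟨m₂, hm₂, h₂⟩ h
    have hp : p.Prime := hM.1
    have hm : ¬ p ∣ m₁ * m₂ := fun hd => (hp.dvd_mul.mp hd).elim hm₁ hm₂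
    have e1 : ε₁ ^ (m₁ * m₂) = 1 := by
      apply Subtype.ext
      push_cast
      rw [pow_mul, h₁, one_pow]
    have e2 : ε₂ ^ (m₁ * m₂) = 1 := by
      apply Subtype.ext
      push_cast
      rw [mul_comm, pow_mul, h₂, one_pow]
    exact pmod_root_inj hM ε₁ ε₂ (m₁ * m₂) hm e1 e2 h
  · intro a ha
    obtain ⟨ε, m, hm, hε, hmem⟩ := pmod_exists_root hM a ha
    refine ⟨ε, ⟨m, hm, ?_⟩, hmem⟩
    have := congrArg Subtype.val hε
    simpa using this

end Cfsg.Agent.S0901
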