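import Cfsg.Statements.S0903
import Mathlib
-- import your own Cfsg.Agent.* helpers here

set_option autoImplicit false
open Cfsg

namespace Cfsg.Agent.S0903

/-- Conjugation action of `P` on the set of pairs. -/
def pairAction {G : Type*} [Group G] (P : Subgroup G) (c : G)
    (hc : c ∈ Subgroup.centralizer (P : Set G)) (g h : G) :
    MulAction P {xy : G × G // IsConj g xy.1 ∧ IsConj h xy.2 ∧ xy.1 * xy.2 = c} where
  smul u xy := ⟨((u : G) * xy.1.1 * (u : G)⁻¹, (u : G) * xy.1.2 * (u : G)⁻¹),
    xy.2.1.trans (isConj_iff.mpr ⟨u, rfl⟩), xy.2.2.1.trans (isConj_iff.mpr ⟨u, rfl⟩), by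
      have h1 := xy.2.2.2
      have h2 := (Subgroup.mem_centralizer_iff.mp hc) (u : G) u.2
      calc (u : G) * xy.1.1 * (u : G)⁻¹ * ((u : G) * xy.1.2 * (u : G)⁻¹)
          = (u : G) * (xy.1.1 * xy.1.2) * (u : G)⁻¹ := by group
        _ = (u : G) * c * (u : G)⁻¹ := by rw [h1]
        _ = c := by rw [h2]; group⟩
  one_smul xy := by
    apply Subtype.ext
    apply Prod.ext <;> simp [HSMul.hSMul]
  mul_smul u v xy := by
    apply Subtype.ext
    apply Prod.ext <;> simp [HSMul.hSMul, mul_assoc]

/-- Let P be a p-subgroup of the finite group G, let c centralize P and let g, h ∈ G. The number of pairs (x, y) with x conjugate to g, y conjugate to h and x * y = c is congruent modulo p to the number of such pairs in which x and y both centralize P. (This is why the Brauer map on class sums is multiplicative.) -/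
theorem result {G : Type*} [Group G] [Finite G] (p : ℕ) [Fact p.Prime] (P : Subgroup G) (hP : IsPGroup p P) (c : G) (hc : c ∈ Subgroup.centralizer (P : Set G)) (g h : G) : Nat.card {xy : G × G // IsConj g xy.1 ∧ IsConj h xy.2 ∧ xy.1 * xy.2 = c} ≡ Nat.card {xy : G × G // IsConj g xy.1 ∧ IsConj h xy.2 ∧ xy.1 * xy.2 = c ∧ xy.1 ∈ Subgroup.centralizer (P : Set G) ∧ xy.2 ∈ Subgroup.centralizer (P : Set G)} [MOD p] := by
  letI := pairAction P c hc g h
  have key := hP.card_modEq_card_fixedPoints
    {xy : G × G // IsConj g xy.1 ∧ IsConj h xy.2 ∧ xy.1 * xy.2 = c}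
  have hsmul : ∀ (u : P) (xy : {xy : G × G // IsConj g xy.1 ∧ IsConj h xy.2 ∧ xy.1 * xy.2 = c}),
      (u • xy).1 = ((u : G) * xy.1.1 * (u : G)⁻¹, (u : G) * xy.1.2 * (u : G)⁻¹) := fun _ _ => rfl
  have e : (MulAction.fixedPoints P {xy : G × G // IsConj g xy.1 ∧ IsConj h xy.2 ∧ xy.1 * xy.2 = c})
      ≃ {xy : G × G // IsConj g xy.1 ∧ IsConj h xy.2 ∧ xy.1 * xy.2 = c ∧
        xy.1 ∈ Subgroup.centralizer (P : Set G) ∧ xy.2 ∈ Subgroup.centralizer (P : Set G)} :=
    { toFun := fun z => ⟨z.1.1, z.1.2.1, z.1.2.2.1, z.1.2.2.2, by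
        rw [Subgroup.mem_centralizer_iff]
        intro u hu
        have := congrArg Subtype.val (z.2 ⟨u, hu⟩)
        rw [hsmul] at this
        have h1 := congrArg Prod.fst this
        simp only at h1
        exact mul_inv_eq_iff_eq_mul.mp h1, by
        rw [Subgroup.mem_centralizer_iff]
        intro u hu
        have := congrArg Subtype.val (z.2 ⟨u, hu⟩)
        rw [hsmul] at this
        have h1 := congrArg Prod.snd this
        simp only at h1
        exact mul_inv_eq_iff_eq_mul.mp h1⟩
      invFun := fun z => ⟨⟨z.1, z.2.1, z.2.2.1, z.2.2.2.1⟩, by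
        intro u
        apply Subtype.ext
        rw [hsmul]
        have h1 := (Subgroup.mem_centralizer_iff.mp z.2.2.2.2.1) (u : G) u.2
        have h2 := (Subgroup.mem_centralizer_iff.mp z.2.2.2.2.2) (u : G) u.2
        apply Prod.ext
        · simp only; rw [h1]; simp
        · simp only; rw [h2]; simp⟩
      left_inv := fun z => rfl
      right_inv := fun z => rfl }
  rw [← Nat.card_congr e]
  exact key

end Cfsg.Agent.S0903
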