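import Cfsg.Statements.S0921
import Mathlib
import Cfsg.Agent.S0964
import Cfsg.Agent.S0914
import Cfsg.Agent.Lib.Helper81.PSolv2
import Cfsg.Agent.Lib.Helper22.Defect
import Cfsg.Agent.Lib.Helper4.CharInt

set_option autoImplicit false
open Cfsg
open scoped ComplexConjugate

namespace Cfsg.Agent.S0921

open Cfsg.Agent.Lib.Helper4 Cfsg.Agent.Lib.Helper21 Cfsg.Agent.Lib.Helper22
  Cfsg.Agent.Lib.Helper20

/-- The degree of an irreducible character divides the group order. -/
theorem charDegree_dvd_card {K : Type*} [Group K] [Fintype K] (θ : IrrCharacter K) :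
    charDegree (θ : K → ℂ) ∣ Nat.card K := by
  obtain ⟨n, ρ, hρ, hθ⟩ := θ.2
  have hirr := hρ
  have hfin : Module.finrank ℂ (Fin n → ℂ) = n := by simp
  have h1 : (θ : K → ℂ) 1 = (n : ℂ) := by
    rw [← hθ, Representation.char_one, hfin]
  rw [charDegree_eq_of_one_eq _ n h1]
  have := finrank_dvd_card ρ
  rwa [hfin] at this

/-- A block of a group of order prime to `p` is a singleton. -/
theorem blockOf_eq_singleton_of_coprime {K : Type*} [Group K] [Fintype K] {p : ℕ}
    [Fact p.Prime] {M : Ideal AlgInt} (hM : IsPModular p M) (hpK : ¬ p ∣ Nat.card K)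
    (θ : IrrCharacter K) : blockOf M (θ : K → ℂ) = {θ} := by
  refine (Cfsg.Agent.S0914.result p M hM θ).mp ?_
  intro hdvd
  exact hpK (dvd_trans hdvd (Nat.div_dvd_of_dvd (charDegree_dvd_card θ)))

/-- Every irreducible character has an irreducible constituent on restriction. -/
theorem exists_constituent {G : Type*} [Group G] (N : Subgroup G) [Fintype N]
    (ψ : IrrCharacter G) :
    ∃ ψ₁ : IrrCharacter N, classInner (fun n : N => (ψ : G → ℂ) n) (ψ₁ : N → ℂ) ≠ 0 := by
  classical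
  have := irr_finite (G := N)
  have := Fintype.ofFinite (IrrCharacter N)
  by_contra hnone
  push Not at hnone
  have hcf : IsClassFunction N (fun n : N => (ψ : G → ℂ) n) := by
    intro n k
    exact isClassFunction_irr ψ n k
  have h2 := congrFun (classFunction_expansion (fun n : N => (ψ : G → ℂ) n) hcf) 1
  simp only [Finset.sum_apply, Pi.smul_apply, smul_eq_mul, OneMemClass.coe_one, hnone, zero_mul,
    Finset.sum_const_zero] at h2
  exact irr_one_ne_zero ψ h2

/-- If `N` is a normal subgroup of order prime to `p` and `χ`, `ψ` lie in the same block, then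
every irreducible constituent of `χ_N` is a constituent of `ψ_N`. -/
theorem constituent_of_sameBlock {G : Type*} [Group G] [Fintype G] {p : ℕ} [Fact p.Prime]
    {M : Ideal AlgInt} (hM : IsPModular p M) (N : Subgroup G) [hN : N.Normal] [Fintype N]
    (hpN : ¬ p ∣ Nat.card N) (χ ψ : IrrCharacter G)
    (h : SameBlock M (χ : G → ℂ) (ψ : G → ℂ)) (θ : IrrCharacter N)
    (hcon : classInner (fun n : N => (χ : G → ℂ) n) (θ : N → ℂ) ≠ 0) :
    classInner (fun n : N => (ψ : G → ℂ) n) (θ : N → ℂ) ≠ 0 := by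
  classical
  have hb := blockOf_eq_singleton_of_coprime hM hpN θ
  obtain ⟨ψ₁, hψ₁⟩ := exists_constituent N ψ
  obtain ⟨g, θ', hθ', hconj⟩ := Cfsg.Agent.S0964.result p M hM N (blockOf M (χ : G → ℂ))
    ⟨χ, rfl⟩ (blockOf M (θ : N → ℂ)) ⟨θ, rfl⟩ χ (mem_blockOf_self hM χ) θ
    (mem_blockOf_self hM θ) hcon ψ h ψ₁ hψ₁
  rw [hb, Set.mem_singleton_iff] at hθ'
  subst hθ'
  have e : (ψ₁ : N → ℂ) = conjFun N (θ' : N → ℂ) g := funext hconj
  have h3 := classInner_res_conjFun N (isClassFunction_irr ψ) (θ' : N → ℂ) g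
  rw [← h3, ← e]
  exact hψ₁

theorem result {G : Type*} [Group G] [Finite G] (p : ℕ) [Fact p.Prime] (M : Ideal Cfsg.AlgInt) (hM : Cfsg.IsPModular p M) [Fintype G] (χ ψ : Cfsg.IrrCharacter G) (h : Cfsg.SameBlock M (χ : G → ℂ) (ψ : G → ℂ)) (θ : Cfsg.IrrCharacter (Cfsg.pPrimeCore p G)) [Fintype (Cfsg.pPrimeCore p G)] : Cfsg.classInner (fun n : Cfsg.pPrimeCore p G => (χ : G → ℂ) n) (θ : Cfsg.pPrimeCore p G → ℂ) ≠ 0 ↔ Cfsg.classInner (fun n : Cfsg.pPrimeCore p G => (ψ : G → ℂ) n) (θ : Cfsg.pPrimeCore p G → ℂ) ≠ 0 := by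
  have hp : p.Prime := Fact.out
  haveI : (Cfsg.pPrimeCore p G).Normal := Cfsg.Agent.Lib.Helper81.pPrimeCore_normal p
  have hcop := Cfsg.Agent.Lib.Helper81.pPrimeCore_coprime (G := G) p
  have hpN : ¬ p ∣ Nat.card (Cfsg.pPrimeCore p G) := by
    intro hd
    have := Nat.Coprime.eq_one_of_dvd hcop.symm hd
    exact hp.one_lt.ne' this
  exact ⟨constituent_of_sameBlock hM _ hpN χ ψ h θ,
    constituent_of_sameBlock hM _ hpN ψ χ (sameBlock_symm h) θ⟩

end Cfsg.Agent.S0921
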