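import Cfsg.Statements.S0926
import Mathlib
import Cfsg.Agent.S0924
import Cfsg.Agent.S0927

set_option autoImplicit false
open Cfsg
open scoped ComplexConjugate

namespace Cfsg.Agent.S0926

open Cfsg.Agent.Lib.Helper4 Cfsg.Agent.Lib.Helper21 Cfsg.Agent.Lib.Helper22

theorem result {G : Type*} [Group G] [Finite G] (p : ℕ) [Fact p.Prime] (M : Ideal Cfsg.AlgInt) (hM : Cfsg.IsPModular p M) (B : Set (Cfsg.IrrCharacter G)) (hB : Cfsg.IsPBlock M B) (D : Subgroup G) (hD : Cfsg.IsDefectGroup p M B D) (χ : Cfsg.IrrCharacter G) (hχ : χ ∈ B) (h0 : Cfsg.blockHeight p B (χ : G → ℂ) = 0) (x : G) (hx : ∃ k : ℕ, orderOf x = p ^ k) : (∃ g : G, g * x * g⁻¹ ∈ D) ↔ ∃ u : G, (∃ z : G, Cfsg.IsPPart p u z ∧ IsConj x z) ∧ (χ : G → ℂ) u ≠ 0 := by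
  classical
  letI := Fintype.ofFinite G
  have hp : p.Prime := Fact.out
  constructor
  · rintro ⟨g, hg⟩
    obtain ⟨y, hy, P, rfl⟩ := hD
    obtain ⟨x', hx'P, hx'⟩ := hg
    have hx'' : (x' : G) = g * x * g⁻¹ := hx'
    have hyreg : ¬ p ∣ orderOf y := by
      apply pRegular_of_blockCoeff_ne_zero hM B hB y
      intro h1
      apply hy.2.1
      rw [h1]
      exact locIdeal_zero hM
    have h1 := (Cfsg.Agent.S0927.result p M hM B hB y hy P x' hx'P).1 χ hχ h0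
    refine ⟨(x' : G) * y, ⟨(x' : G), ⟨y, rfl, ?_, ?_, hyreg⟩, ?_⟩, ?_⟩
    · exact ((mem_centralizer_singleton_iff' y (x' : G)).mp x'.2).symm
    · obtain ⟨k, hk⟩ := hx
      refine ⟨k, ?_⟩
      rw [hx'', orderOf_conj_eq, hk]
    · rw [hx'']
      exact isConj_iff.mpr ⟨g, rfl⟩
    · intro h2
      apply h1
      rw [h2]
      exact locIdeal_zero hM
  · rintro ⟨u, ⟨z, hz, hxz⟩, hu⟩
    have hex : ∃ D' : Subgroup G, IsDefectGroup p M (blockOf M (χ : G → ℂ)) D' ∧ z ∈ D' := by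
      by_contra hcon
      push Not at hcon
      exact hu (Cfsg.Agent.S0924.result p M hM χ u z hz hcon)
    obtain ⟨D', hD', hzD'⟩ := hex
    have hBeq : blockOf M (χ : G → ℂ) = B := by
      obtain ⟨χ₀, rfl⟩ := hB
      exact blockOf_eq_of_sameBlock hM hχ
    rw [hBeq] at hD'
    obtain ⟨g₂, hg₂, Q, rfl⟩ := hD'
    have hle : (Q : Subgroup (Subgroup.centralizer ({g₂} : Set G))).map
        (Subgroup.centralizer ({g₂} : Set G)).subtype ≤ Subgroup.centralizer ({g₂} : Set G) := by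
      rintro _ ⟨w, _, rfl⟩
      exact w.2
    obtain ⟨t, ht⟩ := subConj_defectGroup_of_coeff_unit hM B hB D hD g₂ hg₂.2.1 _
      (Q.isPGroup'.map _) hle
    have h1 := ht hzD'
    rw [mem_conj_map_iff] at h1
    obtain ⟨s, hs⟩ := isConj_iff.mp hxz
    refine ⟨t⁻¹ * s, ?_⟩
    have e : t⁻¹ * s * x * (t⁻¹ * s)⁻¹ = t⁻¹ * z * t := by
      rw [← hs]; group
    rw [e]
    exact h1

end Cfsg.Agent.S0926
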