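import Cfsg.Statements.S0928
-- import your own Cfsg.Agent.* helpers here
import Cfsg.Agent.S0923
import Cfsg.Agent.Lib.Helper80.GenDec
import Cfsg.Agent.Lib.Helper22.MultChar
import Cfsg.Agent.Lib.Helper4.Contrib
import Cfsg.Agent.Lib.Helper82.PQ

set_option autoImplicit false
open Cfsg

namespace Cfsg.Agent.S0928

open Cfsg.Agent.Lib
open scoped ComplexConjugate

/-- A finite set stable under left multiplication by a nontrivial element `z` with `z ^ p = 1`
has cardinality divisible by `p`. -/
theorem card_dvd_of_stable {H : Type*} [Group H] (p : ℕ) [hp : Fact p.Prime] (z : H)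
    (hz1 : z ≠ 1) (hzp : z ^ p = 1) (S : Finset H) (hS : ∀ s ∈ S, z * s ∈ S) : p ∣ S.card := by
  classical
  let f : Function.End ↥S := fun s => ⟨z * s.1, hS s.1 s.2⟩
  have hpow : ∀ (n : ℕ) (s : ↥S), ((f ^ n) s).1 = z ^ n * s.1 := by
    intro n
    induction n with
    | zero => intro s; rw [pow_zero, pow_zero, one_mul]; rfl
    | succ n ih =>
      intro s
      rw [pow_succ]
      show ((f ^ n) (f s)).1 = _
      rw [ih (f s)]
      show z ^ n * (z * s.1) = _
      rw [pow_succ, mul_assoc]
  have hf : f ^ p ^ 1 = 1 := by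
    funext s
    apply Subtype.ext
    rw [pow_one, hpow p s, hzp, one_mul]
    rfl
  have h1 := Equiv.Perm.card_fixedPoints_modEq (p := p) (n := 1) hf
  have h2 : Fintype.card (Function.fixedPoints f) = 0 := by
    rw [Fintype.card_eq_zero_iff]
    constructor
    rintro ⟨s, hs⟩
    have h3 : z * s.1 = s.1 := congrArg Subtype.val hs
    exact hz1 (mul_eq_right.mp h3)
  rw [h2, Fintype.card_coe] at h1
  exact (Nat.modEq_zero_iff_dvd).mp h1

/-- If no nontrivial `p`-element carries a subsection of the block of `χ`, then `χ` vanishes on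
the `p`-singular elements (Brauer's second main theorem). -/
theorem vanish_of_no_subsection {G : Type*} [Group G] [Finite G] (p : ℕ) [Fact p.Prime]
    (M : Ideal AlgInt) (hM : IsPModular p M) (χ : IrrCharacter G)
    (hno : ∀ x : G, x ≠ 1 → (∃ k : ℕ, orderOf x = p ^ k) →
      ∀ b : Set (IrrCharacter (Subgroup.centralizer ({x} : Set G))),
        ¬ IsInducedBlock M (Subgroup.centralizer ({x} : Set G)) b (blockOf M (χ : G → ℂ)))
    (g : G) (hg : p ∣ orderOf g) : (χ : G → ℂ) g = 0 := by
  classical
  have hp : p.Prime := Fact.out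
  obtain ⟨x, w, hxw, hcomm, hxk, hw⟩ := Helper22.exists_isPPart hp g
  have hx1 : x ≠ 1 := by
    rintro rfl
    rw [one_mul] at hxw
    rw [← hxw] at hg
    exact hw hg
  have hwmem : w ∈ Subgroup.centralizer ({x} : Set G) := by
    rw [Subgroup.mem_centralizer_iff]
    intro u hu
    rw [Set.mem_singleton_iff] at hu
    rw [hu]; exact hcomm.eq
  have hy : ¬ p ∣ orderOf (⟨w, hwmem⟩ : Subgroup.centralizer ({x} : Set G)) := by
    rw [← Subgroup.orderOf_coe]; exact hw
  let _ : Fintype (Subgroup.centralizer ({x} : Set G)) := Fintype.ofFinite _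
  let _ : Fintype (IrrCharacter (Subgroup.centralizer ({x} : Set G))) := Fintype.ofFinite _
  have hcf := Helper80.GenDec.shiftL_classFn x (Helper4.isClassFunction_irr χ)
  have hexp := Helper83.class_fun_expansion
    (fun c : Subgroup.centralizer ({x} : Set G) => (χ : G → ℂ) (x * (c : G)))
    (fun g t => hcf g t)
  have h1 : (χ : G → ℂ) (x * w) = ∑ ψ : IrrCharacter (Subgroup.centralizer ({x} : Set G)),
      classInner (fun c : Subgroup.centralizer ({x} : Set G) => (χ : G → ℂ) (x * (c : G))) ψ.1 *
        ψ.1 ⟨w, hwmem⟩ := by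
    have h0 := congrFun hexp ⟨w, hwmem⟩
    simp only [Finset.sum_apply, Pi.smul_apply, smul_eq_mul] at h0
    exact h0
  rw [← hxw, h1]
  let fb : IrrCharacter (Subgroup.centralizer ({x} : Set G)) →
      Set (IrrCharacter (Subgroup.centralizer ({x} : Set G))) := fun ψ => blockOf M ψ.1
  have hmaps : ∀ ψ ∈ (Finset.univ : Finset (IrrCharacter (Subgroup.centralizer ({x} : Set G)))),
      fb ψ ∈ Finset.univ.image fb :=
    fun ψ _ => Finset.mem_image_of_mem fb (Finset.mem_univ ψ)
  rw [← Finset.sum_fiberwise_of_maps_to hmaps]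
  apply Finset.sum_eq_zero
  intro b hb
  obtain ⟨ψ₀, -, rfl⟩ := Finset.mem_image.mp hb
  have hblk : IsPBlock M (blockOf M ψ₀.1) := ⟨ψ₀, rfl⟩
  have h2 := Cfsg.Agent.S0923.result p M hM x hxk (blockOf M (χ : G → ℂ)) ⟨χ, rfl⟩ χ
    (Helper79.mem_blockOf_self hM χ) (blockOf M ψ₀.1) hblk (hno x hx1 hxk _) ⟨w, hwmem⟩ hy
  rw [Helper80.GenDec.blockPart_eq] at h2
  rw [← h2, Finset.sum_filter]
  refine Finset.sum_congr rfl fun ψ _ => ?_
  have hiff : fb ψ = fb ψ₀ ↔ ψ ∈ blockOf M ψ₀.1 := by
    constructor
    · intro h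
      have h' : blockOf M ψ.1 = blockOf M ψ₀.1 := h
      rw [← h']
      exact Helper79.mem_blockOf_self hM ψ
    · intro h
      exact (Helper79.blockOf_eq_of_mem hM hblk h).symm
  by_cases hψ : ψ ∈ blockOf M ψ₀.1
  · rw [if_pos (hiff.mpr hψ), if_pos hψ]
  · rw [if_neg (fun h => hψ (hiff.mp h)), if_neg hψ]

/-- Let χ be an irreducible character of the finite group G and p a prime. If χ g = 0 for every element g of order p, then the exponent of p in the degree χ(1) equals the exponent of p in the order of G (χ has p-defect zero). -/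
theorem result {G : Type*} [Group G] [Finite G] (p : ℕ) [Fact p.Prime] (χ : Cfsg.IrrCharacter G) (hvan : ∀ g : G, orderOf g = p → (χ : G → ℂ) g = 0) : (Cfsg.charDegree (χ : G → ℂ)).factorization p = (Nat.card G).factorization p := by
  classical
  have hp : p.Prime := Fact.out
  obtain ⟨M, hM⟩ := Helper82.exists_isPModular p
  haveI : M.IsPrime := Helper22.isPrime_of_isPModular hM
  cases nonempty_fintype G
  by_contra hne
  -- Step 1: a subsection at a nontrivial `p`-element
  have hex : ∃ x : G, x ≠ 1 ∧ (∃ k : ℕ, orderOf x = p ^ k) ∧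
      ∃ b : Set (IrrCharacter (Subgroup.centralizer ({x} : Set G))),
        IsInducedBlock M (Subgroup.centralizer ({x} : Set G)) b (blockOf M (χ : G → ℂ)) := by
    by_contra hcon
    have hv := vanish_of_no_subsection p M hM χ
      (fun x hx1 hxk b hb => hcon ⟨x, hx1, hxk, b, hb⟩)
    have hdvd := Helper4.irr_vanish_dvd p χ hv
    have hdG := Helper83.irr_degree_dvd_card χ
    have hd0 : charDegree (χ : G → ℂ) ≠ 0 := (Helper83.irr_degree χ.2).1.ne'
    have hn0 : Nat.card G ≠ 0 := Nat.card_pos.ne'
    apply hne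
    exact le_antisymm ((Nat.factorization_le_iff_dvd hd0 hn0).mpr hdG p)
      ((hp.pow_dvd_iff_le_factorization hd0).mp hdvd)
  obtain ⟨x, hx1, ⟨k, hk⟩, b, hind⟩ := hex
  letI : Fintype (Subgroup.centralizer ({x} : Set G)) := Fintype.ofFinite _
  obtain ⟨hb, -, hcong⟩ := hind
  obtain ⟨ξ, rfl⟩ := hb
  have hξ : ξ ∈ blockOf M (ξ : Subgroup.centralizer ({x} : Set G) → ℂ) :=
    Helper79.mem_blockOf_self hM ξ
  have hχ : χ ∈ blockOf M (χ : G → ℂ) := Helper79.mem_blockOf_self hM χ
  have hξ1 : (ξ : Subgroup.centralizer ({x} : Set G) → ℂ) 1 ≠ 0 := Helper4.irr_one_ne_zero ξ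
  have hp0 : (p : ℂ) ≠ 0 := by exact_mod_cast hp.ne_zero
  -- (A) the induced central character vanishes mod `M` at the elements of order `p`
  have hA : ∀ g : G, orderOf g = p → MemLocalIdeal M
      (inducedCentralChar (Subgroup.centralizer ({x} : Set G))
        (ξ : Subgroup.centralizer ({x} : Set G) → ℂ) g) := by
    intro g hg
    have h := hcong ξ hξ χ hχ g
    have h0 : centralChar (χ : G → ℂ) g = 0 := by
      unfold centralChar; rw [hvan g hg]; simp
    rwa [h0, sub_zero] at h
  -- the central element `z` of order `p`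
  have hk0 : k ≠ 0 := by
    rintro rfl
    rw [pow_zero] at hk
    exact hx1 (orderOf_eq_one_iff.mp hk)
  have hxH : x ∈ Subgroup.centralizer ({x} : Set G) := by
    rw [Subgroup.mem_centralizer_iff]
    intro u hu; rw [Set.mem_singleton_iff] at hu; rw [hu]
  have hz0H : x ^ (p ^ (k - 1)) ∈ Subgroup.centralizer ({x} : Set G) :=
    Subgroup.pow_mem _ hxH _
  obtain ⟨z, hzdef⟩ : ∃ z : Subgroup.centralizer ({x} : Set G), (z : G) = x ^ (p ^ (k - 1)) :=
    ⟨⟨_, hz0H⟩, rfl⟩
  have hzp : z ^ p = 1 := by
    apply Subtype.ext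
    rw [Subgroup.coe_pow, hzdef, ← pow_mul, ← pow_succ]
    have : k - 1 + 1 = k := by omega
    rw [this, ← hk, pow_orderOf_eq_one]
    rfl
  have hz1 : z ≠ 1 := by
    intro h
    have h' : x ^ (p ^ (k - 1)) = 1 := by
      rw [← hzdef, h]; rfl
    have hlt : p ^ (k - 1) < orderOf x := by
      rw [hk]; exact Nat.pow_lt_pow_right hp.one_lt (by omega)
    exact pow_ne_one_of_lt_orderOf (pow_ne_zero _ hp.ne_zero) hlt h'
  have hzc : ∀ h : Subgroup.centralizer ({x} : Set G), Commute z h := by
    intro h
    have hxh : Commute x (h : G) := (Subgroup.mem_centralizer_iff.mp h.2 x rfl)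
    apply Subtype.ext
    rw [Subgroup.coe_mul, Subgroup.coe_mul, hzdef]
    exact (hxh.pow_left _).eq
  -- the indicator of the solutions of `h ^ p = 1`
  obtain ⟨a, hadef⟩ : ∃ a : Subgroup.centralizer ({x} : Set G) → ℂ,
      ∀ h, a h = if h ^ p = 1 then 1 else 0 := ⟨fun h => if h ^ p = 1 then 1 else 0, fun _ => rfl⟩
  have ha : IsClassFunction (Subgroup.centralizer ({x} : Set G)) a := by
    intro g h
    rw [hadef, hadef]
    simp only [conj_pow, conj_eq_one_iff]
  have hdiv : ∀ g : Subgroup.centralizer ({x} : Set G), ∃ n : ℕ,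
      Helper21.conv a a g = (p : ℂ) * n := by
    intro g
    have hS := card_dvd_of_stable p z hz1 hzp
      (Finset.univ.filter fun h : Subgroup.centralizer ({x} : Set G) =>
        h ^ p = 1 ∧ (h⁻¹ * g) ^ p = 1) ?_
    · obtain ⟨n, hn⟩ := hS
      refine ⟨n, ?_⟩
      rw [Helper21.conv_apply]
      have hterm : ∀ h : Subgroup.centralizer ({x} : Set G), a h * a (h⁻¹ * g) =
          if (h ^ p = 1 ∧ (h⁻¹ * g) ^ p = 1) then 1 else 0 := by
        intro h
        rw [hadef, hadef]
        by_cases h1 : h ^ p = 1 <;> by_cases h2 : (h⁻¹ * g) ^ p = 1 <;> simp [h1, h2]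
      simp only [hterm]
      rw [Finset.sum_boole, hn]
      push_cast
      ring
    · intro s hs
      rw [Finset.mem_filter] at hs ⊢
      refine ⟨Finset.mem_univ _, ?_, ?_⟩
      · rw [(hzc s).mul_pow, hzp, hs.2.1, one_mul]
      · have h1 : (z * s)⁻¹ * g = z⁻¹ * (s⁻¹ * g) := by
          rw [mul_inv_rev, ← ((hzc s⁻¹).inv_left).eq, mul_assoc]
        rw [h1, ((hzc (s⁻¹ * g)).inv_left).mul_pow, hs.2.2, mul_one, inv_pow, hzp, inv_one]
  obtain ⟨c, hcdef⟩ : ∃ c : Subgroup.centralizer ({x} : Set G) → ℂ,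
      ∀ g, c g = Helper21.conv a a g / p := ⟨fun g => Helper21.conv a a g / p, fun _ => rfl⟩
  have hc : Helper22.IsLocClass M c := by
    refine ⟨?_, ?_⟩
    · intro g h
      rw [hcdef, hcdef, Helper21.conv_isClassFunction ha ha g h]
    · intro g
      obtain ⟨n, hn⟩ := hdiv g
      rw [hcdef, hn, mul_div_cancel_left₀ _ hp0]
      exact Helper22.memLocalRing_natCast n
  have hconv : Helper21.conv a a = (p : ℂ) • c := by
    funext g
    rw [Pi.smul_apply, smul_eq_mul, hcdef, mul_div_cancel₀ _ hp0]
  have hsq : Helper21.omega (ξ : Subgroup.centralizer ({x} : Set G) → ℂ) a *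
      Helper21.omega (ξ : Subgroup.centralizer ({x} : Set G) → ℂ) a =
      p * Helper21.omega (ξ : Subgroup.centralizer ({x} : Set G) → ℂ) c := by
    rw [← Helper21.omega_conv ξ a a ha ha, hconv, Helper21.omega_smul]
  have hsqI : MemLocalIdeal M (Helper21.omega (ξ : Subgroup.centralizer ({x} : Set G) → ℂ) a *
      Helper21.omega (ξ : Subgroup.centralizer ({x} : Set G) → ℂ) a) := by
    rw [hsq]
    exact Helper22.memLocalIdeal_mul_right (Helper22.memLocalIdeal_prime hM)
      (Helper22.omega_locRing hM ξ hc)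
  -- (B) `ω_ξ(a) = 1 + m` with `m` in the local ideal
  have hB1 : Helper21.omega (ξ : Subgroup.centralizer ({x} : Set G) → ℂ) a =
      1 + ∑ h ∈ Finset.univ.filter (fun h : Subgroup.centralizer ({x} : Set G) => orderOf h = p),
        (ξ : Subgroup.centralizer ({x} : Set G) → ℂ) h /
          (ξ : Subgroup.centralizer ({x} : Set G) → ℂ) 1 := by
    rw [Helper21.omega_def]
    have h1 : ∑ g, a g * (ξ : Subgroup.centralizer ({x} : Set G) → ℂ) g =
        (ξ : Subgroup.centralizer ({x} : Set G) → ℂ) 1 +
          ∑ h ∈ Finset.univ.filter (fun h : Subgroup.centralizer ({x} : Set G) => orderOf h = p),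
            (ξ : Subgroup.centralizer ({x} : Set G) → ℂ) h := by
      have hterm : ∀ g : Subgroup.centralizer ({x} : Set G),
          a g * (ξ : Subgroup.centralizer ({x} : Set G) → ℂ) g =
            (if g = 1 then (ξ : Subgroup.centralizer ({x} : Set G) → ℂ) g else 0) +
              (if orderOf g = p then (ξ : Subgroup.centralizer ({x} : Set G) → ℂ) g else 0) := by
        intro g
        rw [hadef]
        by_cases hg1 : g = 1
        · subst hg1
          have h1p : (1 : ℕ) ≠ p := hp.one_lt.ne
          simp [orderOf_one, h1p]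
        · by_cases hgp : orderOf g = p
          · have hgpow : g ^ p = 1 := by rw [← hgp]; exact pow_orderOf_eq_one g
            simp [hg1, hgp, hgpow]
          · have hgpow : ¬ g ^ p = 1 := by
              intro e
              have hd := orderOf_dvd_of_pow_eq_one e
              rcases (Nat.dvd_prime hp).mp hd with h | h
              · exact hg1 (orderOf_eq_one_iff.mp h)
              · exact hgp h
            simp [hg1, hgp, hgpow]
      simp only [hterm]
      rw [Finset.sum_add_distrib, Finset.sum_ite_eq', if_pos (Finset.mem_univ _),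
        ← Finset.sum_filter]
    rw [h1, add_div, div_self hξ1, Finset.sum_div]
  have hm : MemLocalIdeal M
      (∑ h ∈ Finset.univ.filter (fun h : Subgroup.centralizer ({x} : Set G) => orderOf h = p),
        (ξ : Subgroup.centralizer ({x} : Set G) → ℂ) h /
          (ξ : Subgroup.centralizer ({x} : Set G) → ℂ) 1) := by
    rw [← Finset.sum_fiberwise
      (Finset.univ.filter (fun h : Subgroup.centralizer ({x} : Set G) => orderOf h = p))
      (fun h : Subgroup.centralizer ({x} : Set G) => ConjClasses.mk (h : G))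
      (fun h => (ξ : Subgroup.centralizer ({x} : Set G) → ℂ) h /
          (ξ : Subgroup.centralizer ({x} : Set G) → ℂ) 1)]
    apply Helper22.memLocalIdeal_sum
    intro cl _
    by_cases hex : ∃ h₀ : Subgroup.centralizer ({x} : Set G),
        orderOf h₀ = p ∧ ConjClasses.mk (h₀ : G) = cl
    · obtain ⟨h₀, hh₀, rfl⟩ := hex
      have hA' := hA (h₀ : G) (by rw [Subgroup.orderOf_coe]; exact hh₀)
      have heq : inducedCentralChar (Subgroup.centralizer ({x} : Set G))
          (ξ : Subgroup.centralizer ({x} : Set G) → ℂ) (h₀ : G) =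
          ∑ h ∈ (Finset.univ.filter
            (fun h : Subgroup.centralizer ({x} : Set G) => orderOf h = p)).filter
              (fun h : Subgroup.centralizer ({x} : Set G) =>
                ConjClasses.mk (h : G) = ConjClasses.mk (h₀ : G)),
            (ξ : Subgroup.centralizer ({x} : Set G) → ℂ) h /
              (ξ : Subgroup.centralizer ({x} : Set G) → ℂ) 1 := by
        unfold inducedCentralChar
        rw [Helper79.finsum_mem_eq_sum_filter_univ]
        apply Finset.sum_congr _ (fun _ _ => rfl)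
        ext h
        simp only [Finset.mem_filter, Finset.mem_univ, true_and, Set.mem_setOf_eq]
        constructor
        · intro hcj
          refine ⟨?_, (ConjClasses.mk_eq_mk_iff_isConj.mpr hcj).symm⟩
          obtain ⟨t, ht⟩ := isConj_iff.mp hcj
          rw [← Subgroup.orderOf_coe, ← ht, Helper22.orderOf_conj_eq, Subgroup.orderOf_coe]
          exact hh₀
        · rintro ⟨_, hcj⟩
          exact (ConjClasses.mk_eq_mk_iff_isConj.mp hcj).symm
      rw [← heq]; exact hA'
    · rw [Finset.sum_eq_zero]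
      · exact Helper22.memLocalIdeal_zero
      · intro h hh
        rw [Finset.mem_filter, Finset.mem_filter] at hh
        exact absurd ⟨h, hh.1.2, hh.2⟩ hex
  -- conclusion
  have hR : MemLocalRing M (Helper21.omega (ξ : Subgroup.centralizer ({x} : Set G) → ℂ) a) := by
    rw [hB1]; exact Helper22.memLocalRing_add Helper22.memLocalRing_one (Helper22.MemLocalIdeal.memLocalRing hm)
  have hfin : MemLocalIdeal M (Helper21.omega (ξ : Subgroup.centralizer ({x} : Set G) → ℂ) a) := by
    rcases (Helper22.memLocalIdeal_mul_iff hR hR).mp hsqI with h | h <;> exact h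
  apply Helper22.not_memLocalIdeal_one (M := M)
  have h1 : (1 : ℂ) = Helper21.omega (ξ : Subgroup.centralizer ({x} : Set G) → ℂ) a -
      ∑ h ∈ Finset.univ.filter (fun h : Subgroup.centralizer ({x} : Set G) => orderOf h = p),
        (ξ : Subgroup.centralizer ({x} : Set G) → ℂ) h /
          (ξ : Subgroup.centralizer ({x} : Set G) → ℂ) 1 := by
    rw [hB1]; ring
  rw [h1]; exact Helper22.memLocalIdeal_sub hfin hm

end Cfsg.Agent.S0928
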