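import Cfsg.Statements.S0935
import Mathlib
import Cfsg.Agent.Lib.Helper22.HeightZero
import Cfsg.Agent.Lib.Helper22.IndBlock

set_option autoImplicit false
open Cfsg

namespace Cfsg.Agent.S0935

open Cfsg.Agent.Lib.Helper4 Cfsg.Agent.Lib.Helper21 Cfsg.Agent.Lib.Helper22
open Cfsg.Agent.Lib.Helper79 (blockOf_eq_of_mem isPBlock_blockOf)

/-- Okuyama's Theorem. Let H be a subgroup of the finite group G and χ an irreducible character of G whose restriction ψ to H is irreducible. Let B be the block of χ and b the block of ψ (relative to a maximal ideal M of the algebraic integers containing the prime p), and suppose χ has height zero in B and ψ has height zero in b. If e is a block of H whose induced block in G is defined, then e induces B if and only if e = b. -/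
theorem result {G : Type*} [Group G] [Finite G] (p : ℕ) [Fact p.Prime] (M : Ideal Cfsg.AlgInt) (hM : Cfsg.IsPModular p M) (H : Subgroup G) (χ : Cfsg.IrrCharacter G) (hres : Cfsg.IsIrrCharacter H (fun h : H => (χ : G → ℂ) h)) (hχ0 : Cfsg.blockHeight p (Cfsg.blockOf M (χ : G → ℂ)) (χ : G → ℂ) = 0) (hψ0 : Cfsg.blockHeight p (Cfsg.blockOf M (fun h : H => (χ : G → ℂ) h)) (fun h : H => (χ : G → ℂ) h) = 0) (e : Set (Cfsg.IrrCharacter H)) (he : Cfsg.InducedBlockDefined M H e) : Cfsg.IsInducedBlock M H e (Cfsg.blockOf M (χ : G → ℂ)) ↔ e = Cfsg.blockOf M (fun h : H => (χ : G → ℂ) h) := by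
  classical
  letI : Fintype G := Fintype.ofFinite G
  letI : Fintype H := Fintype.ofFinite H
  set ψ : IrrCharacter H := ⟨fun h : H => (χ : G → ℂ) h, hres⟩ with hψ
  have haL : IsLocClass M (ureg p (χ : G → ℂ)) := isLocClass_ureg hM χ
  have hres' : (fun h : H => ureg p (χ : G → ℂ) (h : G)) = ureg p (ψ : H → ℂ) := by
    funext h
    simp only [ureg_apply, Subgroup.orderOf_coe, hψ]
  have key : ∀ (B : Set (IrrCharacter G)), IsInducedBlock M H e B → ∀ ξ : IrrCharacter H,
      ξ ∈ e → ∀ χ' : IrrCharacter G, χ' ∈ B →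
      MemLocalIdeal M (omega (ξ : H → ℂ) (ureg p (ψ : H → ℂ)) -
        omega (χ' : G → ℂ) (ureg p (χ : G → ℂ))) := by
    intro B hind ξ hξ χ' hχ'
    have h1 := omega_indFun_sub_locIdeal hM H e B hind ξ hξ χ' hχ' _ haL.1 haL.2
    rwa [omega_indFun_res H _ _ haL.1, hres'] at h1
  have kfG := omega_ureg_self_not_locIdeal hM χ hχ0
  have kfH := omega_ureg_self_not_locIdeal hM ψ hψ0
  have hχB : χ ∈ blockOf M (χ : G → ℂ) := Cfsg.Agent.Lib.Helper79.mem_blockOf_self hM χ
  have hψb : ψ ∈ blockOf M (ψ : H → ℂ) := Cfsg.Agent.Lib.Helper79.mem_blockOf_self hM ψ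
  constructor
  · intro hind
    obtain ⟨ξ₀, hb⟩ := hind.1
    have hξ₀ : ξ₀ ∈ e := by
      rw [hb]
      exact Cfsg.Agent.Lib.Helper79.mem_blockOf_self hM ξ₀
    have hk := key _ hind ξ₀ hξ₀ χ hχB
    by_contra hne
    have hnot : ξ₀ ∉ blockOf M (ψ : H → ℂ) := by
      intro hmem
      apply hne
      rw [hb]
      exact (blockOf_eq_of_mem hM (isPBlock_blockOf ψ) hmem).symm
    have h0 : omega (ξ₀ : H → ℂ) (ureg p (ψ : H → ℂ)) = 0 := omega_ureg_eq_zero hM ψ ξ₀ hnot
    rw [h0, zero_sub] at hk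
    have hk' := locIdeal_neg hk
    rw [neg_neg] at hk'
    exact kfG hk'
  · intro hb
    obtain ⟨B, hind⟩ := he
    obtain ⟨χ₀, hB⟩ := hind.2.1
    have hχ₀ : χ₀ ∈ B := by
      rw [hB]
      exact Cfsg.Agent.Lib.Helper79.mem_blockOf_self hM χ₀
    have htH : ψ ∈ e := by
      rw [hb]
      exact hψb
    have hk := key B hind ψ htH χ₀ hχ₀
    have hmem : χ₀ ∈ blockOf M (χ : G → ℂ) := by
      by_contra hnot
      have h0 : omega (χ₀ : G → ℂ) (ureg p (χ : G → ℂ)) = 0 := omega_ureg_eq_zero hM χ χ₀ hnot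
      rw [h0, sub_zero] at hk
      exact kfH hk
    have hBp : B = blockOf M (χ : G → ℂ) := by
      rw [hB]
      exact (blockOf_eq_of_mem hM (isPBlock_blockOf χ) hmem).symm
    rw [← hBp]
    exact hind

end Cfsg.Agent.S0935
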