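import Cfsg.Statements.S0938
import Mathlib
import Cfsg.Agent.Lib.Helper81.BlockNormal
import Cfsg.Agent.Lib.Helper22.Defect

set_option autoImplicit false
open Cfsg

namespace Cfsg.Agent.S0938

/-- Let B be a block of the finite group G relative to a maximal ideal M of the algebraic integers containing the prime p, and let χ ∈ B. Then the kernel of B (the set of g with ψ g = ψ 1 for all ψ ∈ B) is a normal subgroup of order prime to p contained in the kernel of χ, and it contains every normal subgroup of order prime to p on which χ takes the value χ(1); that is, it is O_p' of the kernel of χ. -/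
theorem result {G : Type*} [Group G] [Finite G] (p : ℕ) [Fact p.Prime] (M : Ideal Cfsg.AlgInt) (hM : Cfsg.IsPModular p M) (B : Set (Cfsg.IrrCharacter G)) (hB : Cfsg.IsPBlock M B) (χ : Cfsg.IrrCharacter G) (hχ : χ ∈ B) : ∃ K : Subgroup G, K.Normal ∧ (K : Set G) = Cfsg.blockKer B ∧ ¬ p ∣ Nat.card K ∧ (∀ g ∈ K, (χ : G → ℂ) g = (χ : G → ℂ) 1) ∧ ∀ N : Subgroup G, N.Normal → ¬ p ∣ Nat.card N → (∀ g ∈ N, (χ : G → ℂ) g = (χ : G → ℂ) 1) → N ≤ K := by
  classical
  cases nonempty_fintype G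
  have hp : p.Prime := Fact.out
  have := Cfsg.Agent.Lib.Helper4.irr_finite (G := G)
  let _ := Fintype.ofFinite (IrrCharacter G)
  let K : Subgroup G := ⨅ ψ : B, Cfsg.Agent.Lib.Helper83.irrKer (ψ : IrrCharacter G)
  have hKmem : ∀ g : G, g ∈ K ↔ ∀ ψ ∈ B, (ψ : G → ℂ) g = (ψ : G → ℂ) 1 := by
    intro g
    simp only [K, Subgroup.mem_iInf, Cfsg.Agent.Lib.Helper83.mem_irrKer, Subtype.forall]
  have hBeq : B = blockOf M (χ : G → ℂ) := Cfsg.Agent.Lib.Helper79.blockOf_eq_of_mem hM hB hχ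
  refine ⟨K, Subgroup.normal_iInf_normal fun ψ => inferInstance, ?_, ?_, ?_, ?_⟩
  · ext g
    exact hKmem g
  · intro hdvd
    obtain ⟨k, hk⟩ := exists_prime_orderOf_dvd_card' (G := K) p hdvd
    have hkK : ∀ ψ ∈ B, (ψ : G → ℂ) (k : G) = (ψ : G → ℂ) 1 := (hKmem k).mp k.2
    have hsing : p ∣ orderOf (k : G) := by
      rw [Subgroup.orderOf_coe, hk]
    have h1 : blockCoeff B (k : G) = blockCoeff B 1 := by
      unfold blockCoeff
      congr 1
      refine finsum_mem_congr rfl fun ψ hψ => ?_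
      rw [hkK ψ hψ]
    have h2 : blockCoeff B 1 ≠ 0 := by
      rw [Cfsg.Agent.Lib.Helper21.blockCoeff_eq_sum]
      choose n hn0 hn using fun ψ : IrrCharacter G => Cfsg.Agent.Lib.Helper4.irr_one_nat ψ
      have h3 : ∑ ψ : IrrCharacter G, (if ψ ∈ B then (1 : ℂ) else 0) *
          ((ψ : G → ℂ) 1 * (starRingEnd ℂ) ((ψ : G → ℂ) 1)) =
          ((∑ ψ : IrrCharacter G, (if ψ ∈ B then n ψ ^ 2 else 0) : ℕ) : ℂ) := by
        push_cast
        refine Finset.sum_congr rfl fun ψ _ => ?_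
        rw [hn ψ]
        split_ifs <;> simp [sq]
      rw [h3]
      have h4 : 0 < ∑ ψ : IrrCharacter G, (if ψ ∈ B then n ψ ^ 2 else 0) := by
        refine Finset.sum_pos' (fun ψ _ => Nat.zero_le _) ⟨χ, Finset.mem_univ χ, ?_⟩
        rw [if_pos hχ]
        exact pow_pos (hn0 χ) 2
      have hG : (Nat.card G : ℂ) ≠ 0 := Cfsg.Agent.Lib.Helper4.card_ne_zero_complex
      exact mul_ne_zero (inv_ne_zero hG) (by exact_mod_cast h4.ne')
    rw [← h1] at h2
    exact Cfsg.Agent.Lib.Helper22.pRegular_of_blockCoeff_ne_zero hM B hB (k : G) h2 hsing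
  · intro g hg
    exact (hKmem g).mp hg χ hχ
  · intro N hN hNp hNχ g hg
    rw [hKmem]
    intro ψ hψ
    have hsame : SameBlock M (ψ : G → ℂ) (χ : G → ℂ) := by
      rw [hBeq] at hψ
      exact Cfsg.Agent.Lib.Helper79.sameBlock_symm' hM hψ
    exact Cfsg.Agent.Lib.Helper81.ker_of_sameBlock hM N hNp ψ χ hsame hNχ g hg

end Cfsg.Agent.S0938
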