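import Cfsg.Statements.S0940
import Cfsg.Agent.Lib.Helper79.Kuls

set_option autoImplicit false
open Cfsg

namespace Cfsg.Agent.S0940

/-- Let G be a finite group and M a maximal ideal of the algebraic integers containing the prime p. For every p-regular g, the idempotent coefficient of the principal block at g (the inverse of the group order times the sum over χ in the principal block of χ 1 * conj (χ g)) is congruent modulo the local ideal at M to N / R, where N is the number of pairs (x, y) with x of p-power order, y of order prime to p and x * y = g, and R is the number of elements of G of order prime to p. -/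
theorem result {G : Type*} [Group G] [Finite G] (p : ℕ) [Fact p.Prime] (M : Ideal Cfsg.AlgInt) (hM : Cfsg.IsPModular p M) (g : G) (hg : ¬ p ∣ orderOf g) : Cfsg.MemLocalIdeal M (Cfsg.blockCoeff (Cfsg.principalBlock M G) g - (Nat.card {xy : G × G // (∃ k : ℕ, orderOf xy.1 = p ^ k) ∧ ¬ p ∣ orderOf xy.2 ∧ xy.1 * xy.2 = g} : ℂ) / (Nat.card {y : G // ¬ p ∣ orderOf y} : ℂ)) := by
  classical
  letI := Fintype.ofFinite G
  have hmain := Cfsg.Agent.Lib.Helper79.kuls_main hM g hg
  have hord : ∀ x y : G, x * y = g → orderOf (x * g⁻¹) = orderOf y := by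
    intro x y hxy
    have h1 : x * g⁻¹ = x * y⁻¹ * x⁻¹ := by
      rw [← hxy]
      group
    rw [h1, Cfsg.Agent.Lib.Helper79.orderOf_conj_eq, orderOf_inv]
  have hN : Nat.card {xy : G × G // (∃ k : ℕ, orderOf xy.1 = p ^ k) ∧ ¬ p ∣ orderOf xy.2 ∧
        xy.1 * xy.2 = g}
      = (Finset.univ.filter (fun h : G =>
        (∃ k : ℕ, orderOf h = p ^ k) ∧ ¬ p ∣ orderOf (h * g⁻¹))).card := by
    rw [← Fintype.card_subtype, ← Nat.card_eq_fintype_card]
    apply Nat.card_congr
    refine
      { toFun := fun xy => ⟨xy.1.1, xy.2.1, by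
          rw [hord xy.1.1 xy.1.2 xy.2.2.2]
          exact xy.2.2.1⟩
        invFun := fun h => ⟨(h.1, h.1⁻¹ * g), h.2.1, by
          rw [← hord h.1 (h.1⁻¹ * g) (mul_inv_cancel_left _ _)]
          exact h.2.2, mul_inv_cancel_left _ _⟩
        left_inv := ?_
        right_inv := ?_ }
    · rintro ⟨⟨x, y⟩, hx, hy, hxy⟩
      apply Subtype.ext
      apply Prod.ext
      · rfl
      · show x⁻¹ * g = y
        rw [← hxy, inv_mul_cancel_left]
    · rintro ⟨h, hh⟩
      rfl
  have hR : Nat.card {y : G // ¬ p ∣ orderOf y}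
      = (Finset.univ.filter (fun y : G => ¬ p ∣ orderOf y)).card := by
    rw [← Fintype.card_subtype, ← Nat.card_eq_fintype_card]
  rw [hN, hR]
  exact hmain

end Cfsg.Agent.S0940
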