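import Cfsg.Statements.S0944
import Mathlib

set_option autoImplicit false
open Cfsg

namespace Cfsg.Agent.S0944

theorem trace_involution {n : ℕ} (T : (Fin n → ℂ) →ₗ[ℂ] (Fin n → ℂ)) (hT : T * T = 1) :
    ∃ r : ℕ, LinearMap.trace ℂ (Fin n → ℂ) T = 2 * (r : ℂ) - (n : ℂ) := by
  set P : (Fin n → ℂ) →ₗ[ℂ] (Fin n → ℂ) := (2 : ℂ)⁻¹ • (1 + T) with hP
  have hidem : IsIdempotentElem P := by
    show P * P = P
    rw [hP, smul_mul_smul_comm]
    have : (1 + T) * (1 + T) = (2 : ℂ) • (1 + T) := by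
      rw [mul_add, add_mul, add_mul, hT, one_mul, mul_one, one_mul, two_smul]
      abel
    rw [this, smul_smul]
    congr 1
    norm_num
  have htr := (LinearMap.IsIdempotentElem.isProj_range P hidem).trace
  refine ⟨Module.finrank ℂ (LinearMap.range P), ?_⟩
  have h1 : LinearMap.trace ℂ (Fin n → ℂ) P
      = (2 : ℂ)⁻¹ * ((n : ℂ) + LinearMap.trace ℂ (Fin n → ℂ) T) := by
    rw [hP, map_smul, map_add, LinearMap.trace_one, smul_eq_mul]
    simp
  rw [h1] at htr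
  rw [← htr]
  ring

theorem result {G : Type*} [Group G] [Finite G] (χ : Cfsg.IrrCharacter G) (u : G) (hu : orderOf u = 2) : ∃ n : ℤ, (χ : G → ℂ) u = (n : ℂ) ∧ (2 : ℤ) ∣ (Cfsg.charDegree (χ : G → ℂ) : ℤ) - n := by
  obtain ⟨χ, n, ρ, _, rfl⟩ := χ
  have hT : ρ u * ρ u = 1 := by
    rw [← map_mul, ← pow_two, ← hu, pow_orderOf_eq_one, map_one]
  obtain ⟨r, hr⟩ := trace_involution (ρ u) hT
  have hdeg : Cfsg.charDegree ρ.character = n := by
    unfold Cfsg.charDegree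
    rw [Representation.char_one]
    simp
  refine ⟨2 * (r : ℤ) - (n : ℤ), ?_, ?_⟩
  · show ρ.character u = _
    unfold Representation.character
    rw [hr]
    push_cast
    ring
  · show (2 : ℤ) ∣ (Cfsg.charDegree ρ.character : ℤ) - (2 * (r : ℤ) - (n : ℤ))
    rw [hdeg]
    exact ⟨(n : ℤ) - r, by ring⟩

end Cfsg.Agent.S0944
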