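import Cfsg.Statements.S0946
import Cfsg.Agent.S0945
import Mathlib

set_option autoImplicit false
open Cfsg

namespace Cfsg.Agent.S0946

open Cfsg.Agent.Lib.Helper22 Cfsg.Agent.S0945

/-- Every involution is conjugate into a given Sylow 2-subgroup. -/
theorem exists_conj_mem_sylow {G : Type*} [Group G] [Finite G] (P : Sylow 2 G) (s : G)
    (hs : orderOf s = 2) : ∃ g : G, g * s * g⁻¹ ∈ (P : Subgroup G) := by
  have hp : IsPGroup 2 (Subgroup.zpowers s) := by
    apply IsPGroup.of_card (n := 1)
    rw [Nat.card_zpowers, hs, pow_one]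
  obtain ⟨Q, hQ⟩ := hp.exists_le_sylow
  obtain ⟨g, hg⟩ := MulAction.exists_smul_eq G Q P
  refine ⟨g, ?_⟩
  have hsQ : s ∈ (Q : Subgroup G) := hQ (Subgroup.mem_zpowers s)
  have : g * s * g⁻¹ ∈ ((g • Q : Sylow 2 G) : Subgroup G) := by
    rw [Sylow.coe_subgroup_smul, Subgroup.mem_pointwise_smul_iff_inv_smul_mem]
    have : (MulAut.conj g)⁻¹ • (g * s * g⁻¹) = s := by
      rw [MulAut.smul_def, MulAut.conj_inv_apply]; group
    rw [this]; exact hsQ
  rw [hg] at this
  exact this

theorem result {G : Type*} [Group G] [Finite G] (P : Sylow 2 G) (m : ℕ) (hm : 1 ≤ m) (e : (P : Subgroup G) ≃* Multiplicative (ZMod (2 ^ m) × ZMod (2 ^ m))) : (∃ N : Subgroup G, N.Normal ∧ Subgroup.IsComplement' N (P : Subgroup G)) ∨ ∀ s t : G, orderOf s = 2 → orderOf t = 2 → IsConj s t := by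
  classical
  obtain ⟨h13, hstab⟩ := key P m hm e
  set Pg : Subgroup G := (P : Subgroup G) with hPg
  set N := Subgroup.normalizer (Pg : Set G) with hN
  set C := Subgroup.centralizer (Pg : Set G) with hC
  rcases h13 with h1 | h3
  · left
    have hNC : N ≤ C := Subgroup.relIndex_eq_one.mp h1
    exact ⟨_, MonoidHom.normal_ker _, MonoidHom.ker_transferSylow_isComplement' P hNC⟩
  · right
    obtain ⟨s0, hs3, hs⟩ := inv_P Pg m hm e
    have hcardI : Nat.card (invSub Pg) ≤ 3 := by
      have hinj : Function.Injective (fun x : invSub Pg =>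
          (⟨((x : Pg) : G), hs _ (x : Pg).2 (by simpa using congrArg Subtype.val x.2.1)
            (fun h => x.2.2 (Subtype.ext h))⟩ : s0)) := by
        intro x y hxy
        have : ((x : Pg) : G) = ((y : Pg) : G) := by simpa using hxy
        exact Subtype.ext (Subtype.ext this)
      have := Nat.card_le_card_of_injective _ hinj
      rw [Nat.card_eq_finsetCard] at this
      exact this.trans hs3
    -- involutions inside P are conjugate under N
    have hconjP : ∀ s t : G, s ∈ Pg → t ∈ Pg → orderOf s = 2 → orderOf t = 2 → IsConj s t := by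
      intro s t hsP htP hs2 ht2
      have hsq : ∀ x : G, orderOf x = 2 → x ^ 2 = 1 ∧ x ≠ 1 := by
        intro x hx
        refine ⟨by rw [← hx]; exact pow_orderOf_eq_one x, ?_⟩
        rintro rfl
        rw [orderOf_one] at hx
        omega
      have hmem : ∀ x : G, ∀ hx : x ∈ Pg, orderOf x = 2 → (⟨x, hx⟩ : Pg) ∈ invSub Pg := by
        intro x hx hx2
        refine ⟨Subtype.ext (by simpa using (hsq x hx2).1), ?_⟩
        intro h; exact (hsq x hx2).2 (congrArg Subtype.val h)
      let xs : invSub Pg := ⟨⟨s, hsP⟩, hmem s hsP hs2⟩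
      let xt : invSub Pg := ⟨⟨t, htP⟩, hmem t htP ht2⟩
      have hsmul : ∀ (n : N) (x : invSub Pg), (((n • x : invSub Pg) : Pg) : G)
          = (n : G) * ((x : Pg) : G) * (n : G)⁻¹ := fun n x => rfl
      have hst : MulAction.stabilizer N xs = C.subgroupOf N := by
        ext n
        rw [MulAction.mem_stabilizer_iff, Subgroup.mem_subgroupOf]
        constructor
        · intro hn
          have h1 : (n : G) * s * (n : G)⁻¹ = s := by
            have := hsmul n xs
            rw [hn] at this
            exact this.symm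
          exact hstab n n.2 s hsP (hsq s hs2).1 (hsq s hs2).2 h1
        · intro hn
          apply Subtype.ext; apply Subtype.ext
          rw [hsmul]
          have := (Subgroup.mem_centralizer_iff.mp hn) s hsP
          show (n : G) * s * (n : G)⁻¹ = s
          rw [← this]; group
      have horb : (MulAction.orbit N xs).ncard = 3 := by
        rw [← MulAction.index_stabilizer, hst]
        exact h3
      have huniv : MulAction.orbit N xs = Set.univ := by
        apply Set.eq_of_subset_of_ncard_le (Set.subset_univ _)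
        rw [horb, Set.ncard_univ]
        exact hcardI
      have hxt : xt ∈ MulAction.orbit N xs := by rw [huniv]; exact Set.mem_univ _
      obtain ⟨n, hn⟩ := hxt
      have h1 : (n : G) * s * (n : G)⁻¹ = t := by
        have := hsmul n xs
        have h2 : (n • xs : invSub Pg) = xt := hn
        rw [h2] at this
        exact this.symm
      exact isConj_iff.mpr ⟨(n : G), h1⟩
    intro s t hs2 ht2
    obtain ⟨g₁, hg₁⟩ := exists_conj_mem_sylow P s hs2
    obtain ⟨g₂, hg₂⟩ := exists_conj_mem_sylow P t ht2
    have ho : ∀ (g x : G), orderOf (g * x * g⁻¹) = orderOf x := by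
      intro g x
      have := orderOf_injective (MulAut.conj g).toMonoidHom (MulAut.conj g).injective x
      simpa using this
    have h1 := hconjP _ _ hg₁ hg₂ ((ho g₁ s).trans hs2) ((ho g₂ t).trans ht2)
    have hs' : IsConj s (g₁ * s * g₁⁻¹) := isConj_iff.mpr ⟨g₁, rfl⟩
    have ht' : IsConj t (g₂ * t * g₂⁻¹) := isConj_iff.mpr ⟨g₂, rfl⟩
    exact (hs'.trans h1).trans ht'.symm

end Cfsg.Agent.S0946
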