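import Cfsg.Statements.S0949
import Mathlib
import Cfsg.Agent.Lib.Helper5.HcGlue

set_option autoImplicit false
open Cfsg

namespace Cfsg.Agent.S0949

/-- Let the finite group G have a Sylow 2-subgroup P isomorphic to Z/2^m × Z/2^m with m ≥ 2, and suppose G has no nontrivial normal subgroup of odd order. Then P is normal in G, C_G(P) = P, and the index of P is 1 or 3. -/
theorem result {G : Type*} [Group G] [Finite G] (P : Sylow 2 G) (m : ℕ) (hm : 2 ≤ m) (e : (P : Subgroup G) ≃* Multiplicative (ZMod (2 ^ m) × ZMod (2 ^ m))) (hO : ∀ N : Subgroup G, N.Normal → Odd (Nat.card N) → N = ⊥) : (P : Subgroup G).Normal ∧ Subgroup.centralizer (P : Set G) = (P : Subgroup G) ∧ ((P : Subgroup G).index = 1 ∨ (P : Subgroup G).index = 3) := by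
  have hcomm := Cfsg.Agent.Lib.Helper5.hc_comm_of_equiv (P : Subgroup G) e
  have hPn : (P : Subgroup G).Normal :=
    Cfsg.Agent.Lib.Helper5.hc_normal_ind (Nat.card G) G rfl P m hm ⟨e⟩ hO
  have hC : Subgroup.centralizer ((P : Subgroup G) : Set G) = (P : Subgroup G) :=
    Cfsg.Agent.Lib.Helper5.hc_cent_eq P hcomm hPn hO
  refine ⟨hPn, hC, ?_⟩
  have h13 : (Subgroup.centralizer ((P : Subgroup G) : Set G)).relIndex
        (Subgroup.normalizer ((P : Subgroup G) : Set G)) = 1 ∨
      (Subgroup.centralizer ((P : Subgroup G) : Set G)).relIndex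
        (Subgroup.normalizer ((P : Subgroup G) : Set G)) = 3 :=
    (Cfsg.Agent.S0945.result P m (by omega) e).1
  haveI := hPn
  rw [hC, Subgroup.normalizer_eq_top, Subgroup.relIndex_top_right] at h13
  exact h13

end Cfsg.Agent.S0949
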