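import Cfsg.Statements.S0953
import Mathlib
import Cfsg.Agent.Lib.Helper22.NormSyl

set_option autoImplicit false
open Cfsg

namespace Cfsg.Agent.S0953

/-- Let P be a Sylow p-subgroup of the finite group G with normalizer N, and fix a maximal ideal M of the algebraic integers containing p. The number of blocks of G having P as a defect group equals the number of conjugacy classes of N consisting of elements of order prime to p that centralize P. -/
theorem result {G : Type*} [Group G] [Finite G] (p : ℕ) [Fact p.Prime] (M : Ideal Cfsg.AlgInt) (hM : Cfsg.IsPModular p M) (P : Sylow p G) : Nat.card {B : Set (Cfsg.IrrCharacter G) // Cfsg.IsPBlock M B ∧ Cfsg.IsDefectGroup p M B (P : Subgroup G)} = Nat.card {C : ConjClasses (Subgroup.normalizer ((P : Subgroup G) : Set G)) // ∀ n : Subgroup.normalizer ((P : Subgroup G) : Set G), ConjClasses.mk n = C → ¬ p ∣ orderOf n ∧ (n : G) ∈ Subgroup.centralizer ((P : Subgroup G) : Set G)} := by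
  exact Cfsg.Agent.Lib.Helper22.card_dblock_sylow hM P

end Cfsg.Agent.S0953
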