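import Cfsg.Statements.S0957
import Mathlib

set_option autoImplicit false
open Cfsg

namespace Cfsg.Agent.S0957

/-- The set of pairs on which `P` acts by simultaneous conjugation. -/
abbrev PairSet {G : Type*} [Group G] (P : Subgroup G) (g h : G) : Type _ :=
  {yz : G × G // IsConj g yz.1 ∧ IsConj h yz.2 ∧ yz.2 * yz.1⁻¹ ∈ P}

/-- Conjugation action of `P` on the pair set. -/
@[reducible] def pairAction {G : Type*} [Group G] (P : Subgroup G) (g h : G) :
    MulAction P (PairSet P g h) where
  smul u x := ⟨((u : G) * x.1.1 * (u : G)⁻¹, (u : G) * x.1.2 * (u : G)⁻¹), by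
    obtain ⟨⟨y, z⟩, h1, h2, h3⟩ := x
    refine ⟨?_, ?_, ?_⟩
    · exact h1.trans (isConj_iff.mpr ⟨u, rfl⟩)
    · exact h2.trans (isConj_iff.mpr ⟨u, rfl⟩)
    · have : (u : G) * z * (u : G)⁻¹ * ((u : G) * y * (u : G)⁻¹)⁻¹
          = (u : G) * (z * y⁻¹) * (u : G)⁻¹ := by group
      simp only
      rw [this]
      exact P.mul_mem (P.mul_mem u.2 h3) (P.inv_mem u.2)⟩
  one_smul x := by
    apply Subtype.ext
    show (((1 : P) : G) * x.1.1 * ((1 : P) : G)⁻¹, ((1 : P) : G) * x.1.2 * ((1 : P) : G)⁻¹) = x.1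
    simp
  mul_smul u v x := by
    apply Subtype.ext
    show (((u * v : P) : G) * x.1.1 * ((u * v : P) : G)⁻¹,
        ((u * v : P) : G) * x.1.2 * ((u * v : P) : G)⁻¹)
      = ((u : G) * ((v : G) * x.1.1 * (v : G)⁻¹) * (u : G)⁻¹,
        (u : G) * ((v : G) * x.1.2 * (v : G)⁻¹) * (u : G)⁻¹)
    simp [mul_assoc]

theorem card_centralizer_conj {G : Type*} [Group G] (g y : G) (hy : IsConj g y) :
    Nat.card (Subgroup.centralizer ({y} : Set G)) = Nat.card (Subgroup.centralizer ({g} : Set G)) := by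
  obtain ⟨c, rfl⟩ := isConj_iff.mp hy
  refine Nat.card_congr ?_
  refine
    { toFun := fun z => ⟨c⁻¹ * (z : G) * c, ?_⟩
      invFun := fun z => ⟨c * (z : G) * c⁻¹, ?_⟩
      left_inv := ?_
      right_inv := ?_ }
  · have hz := z.2
    rw [Subgroup.mem_centralizer_iff] at hz ⊢
    intro w hw
    rw [Set.mem_singleton_iff] at hw
    subst hw
    have h1 : (c * w * c⁻¹) * (z : G) = (z : G) * (c * w * c⁻¹) := hz _ rfl
    have h2 : w * (c⁻¹ * (z : G) * c) = c⁻¹ * (c * w * c⁻¹ * (z : G)) * c := by group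
    have h3 : c⁻¹ * (z : G) * c * w = c⁻¹ * ((z : G) * (c * w * c⁻¹)) * c := by group
    rw [h2, h3, h1]
  · have hz := z.2
    rw [Subgroup.mem_centralizer_iff] at hz ⊢
    intro w hw
    rw [Set.mem_singleton_iff] at hw
    subst hw
    have h1 : g * (z : G) = (z : G) * g := hz g rfl
    have h2 : c * g * c⁻¹ * (c * (z : G) * c⁻¹) = c * (g * (z : G)) * c⁻¹ := by group
    have h3 : c * (z : G) * c⁻¹ * (c * g * c⁻¹) = c * ((z : G) * g) * c⁻¹ := by group
    rw [h2, h3, h1]
  · intro z; ext; simp [mul_assoc]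
  · intro z; ext; simp [mul_assoc]

theorem result {G : Type*} [Group G] [Finite G] (p : ℕ) [Fact p.Prime] (P : Sylow p G) (g h : G) (S : Sylow p (Subgroup.centralizer ({g} : Set G))) : Nat.card P / Nat.card S ∣ Nat.card {yz : G × G // IsConj g yz.1 ∧ IsConj h yz.2 ∧ yz.2 * yz.1⁻¹ ∈ (P : Subgroup G)} := by
  classical
  have hp : p.Prime := Fact.out
  let _ := pairAction (P : Subgroup G) g h
  set a := (Nat.card G).factorization p with ha
  set c := (Nat.card (Subgroup.centralizer ({g} : Set G))).factorization p with hc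
  have hPc : Nat.card P = p ^ a := P.card_eq_multiplicity
  have hSc : Nat.card S = p ^ c := S.card_eq_multiplicity
  have hca : c ≤ a := by
    have hdvd : Nat.card (Subgroup.centralizer ({g} : Set G)) ∣ Nat.card G :=
      Subgroup.card_subgroup_dvd_card _
    exact (Nat.factorization_le_iff_dvd Nat.card_pos.ne' Nat.card_pos.ne').mpr hdvd p
  rw [hPc, hSc, Nat.pow_div hca hp.pos]
  have e := MulAction.selfEquivSigmaOrbitsQuotientStabilizer (P : Subgroup G)
    (PairSet (P : Subgroup G) g h)
  have : Fintype (MulAction.orbitRel.Quotient (P : Subgroup G) (PairSet (P : Subgroup G) g h)) :=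
    Fintype.ofFinite _
  show p ^ (a - c) ∣ Nat.card (PairSet (P : Subgroup G) g h)
  rw [Nat.card_congr e, Nat.card_sigma]
  refine Finset.dvd_sum (fun ω _ => ?_)
  set x := Quotient.out ω with hx
  set St := MulAction.stabilizer (P : Subgroup G) x with hSt
  show p ^ (a - c) ∣ Nat.card ((P : Subgroup G) ⧸ St)
  have hidx : Nat.card St * St.index = p ^ a := by
    rw [St.card_mul_index]; exact hPc
  have hStp : IsPGroup p St := P.isPGroup'.to_subgroup St
  obtain ⟨e', he'⟩ := IsPGroup.iff_card.mp hStp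
  -- the stabilizer embeds into the centralizer of the first coordinate
  have hle : St.map (P : Subgroup G).subtype ≤ Subgroup.centralizer ({x.1.1} : Set G) := by
    rintro _ ⟨u, hu, rfl⟩
    rw [Subgroup.mem_centralizer_iff]
    intro w hw
    rw [Set.mem_singleton_iff] at hw
    subst hw
    have hu' : u • x = x := hu
    have h1 : (u • x).1.1 = x.1.1 := by rw [hu']
    have h2 : (u : G) * x.1.1 * (u : G)⁻¹ = x.1.1 := h1
    show x.1.1 * (u : G) = (u : G) * x.1.1
    conv_lhs => rw [← h2]
    group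
  have hcard : Nat.card (St.map (P : Subgroup G).subtype) = Nat.card St :=
    Subgroup.card_map_of_injective (Subgroup.subtype_injective _)
  have hdvd : p ^ e' ∣ Nat.card (Subgroup.centralizer ({g} : Set G)) := by
    rw [← he', ← hcard, ← card_centralizer_conj g x.1.1 x.2.1]
    exact Subgroup.card_dvd_of_le hle
  have hec : e' ≤ c := by
    rw [hc]
    exact (hp.pow_dvd_iff_le_factorization Nat.card_pos.ne').mp hdvd
  have hea : e' ≤ a := hec.trans hca
  rw [he'] at hidx
  have hidx' : St.index = p ^ (a - e') := by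
    have : p ^ e' * St.index = p ^ e' * p ^ (a - e') := by
      rw [hidx, ← pow_add]; congr 1; omega
    exact Nat.eq_of_mul_eq_mul_left (pow_pos hp.pos _) this
  show p ^ (a - c) ∣ St.index
  rw [hidx']
  exact pow_dvd_pow p (by omega)

end Cfsg.Agent.S0957
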