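import Cfsg.Statements.S0962
import Cfsg.Agent.Lib.Helper79.Blk5
import Cfsg.Agent.Lib.Helper79.Blk4

set_option autoImplicit false
open Cfsg

namespace Cfsg.Agent.S0962


/-- Summing a fibrewise inequality of cardinalities over all levels `σ ≥ d`. -/
theorem card_ge_le_aux {X Y : Type*} [Finite X] [Finite Y] (P : X → Prop) (f : X → ℕ)
    (Q : Y → ℕ → Prop) (hQ : ∀ y σ σ', Q y σ → Q y σ' → σ = σ')
    (h : ∀ σ, Nat.card {x : X // P x ∧ f x = σ} ≤ Nat.card {y : Y // Q y σ}) (d : ℕ) :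
    Nat.card {x : X // P x ∧ d ≤ f x} ≤ Nat.card {y : Y // ∃ σ, d ≤ σ ∧ Q y σ} := by
  classical
  have hemb : ∀ σ, Nonempty ({x : X // P x ∧ f x = σ} ↪ {y : Y // Q y σ}) := by
    intro σ
    letI : Fintype {x : X // P x ∧ f x = σ} := Fintype.ofFinite _
    letI : Fintype {y : Y // Q y σ} := Fintype.ofFinite _
    apply Function.Embedding.nonempty_of_card_le
    have := h σ
    rwa [Nat.card_eq_fintype_card, Nat.card_eq_fintype_card] at this
  have e : ∀ σ, ({x : X // P x ∧ f x = σ} ↪ {y : Y // Q y σ}) := fun σ => (hemb σ).some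
  let F : {x : X // P x ∧ d ≤ f x} → {y : Y // ∃ σ, d ≤ σ ∧ Q y σ} := fun x =>
    ⟨(e (f x.1) ⟨x.1, x.2.1, rfl⟩).1, f x.1, x.2.2, (e (f x.1) ⟨x.1, x.2.1, rfl⟩).2⟩
  apply Nat.card_le_card_of_injective F
  intro x x' hxx
  have h1 : (e (f x.1) ⟨x.1, x.2.1, rfl⟩).1 = (e (f x'.1) ⟨x'.1, x'.2.1, rfl⟩).1 :=
    congrArg Subtype.val hxx
  have hσ : f x.1 = f x'.1 := by
    apply hQ _ _ _ (e (f x.1) ⟨x.1, x.2.1, rfl⟩).2
    rw [h1]
    exact (e (f x'.1) ⟨x'.1, x'.2.1, rfl⟩).2
  have h2 : ∀ (σ : ℕ) (hx : f x.1 = σ) (hx' : f x'.1 = σ),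
      (e σ ⟨x.1, x.2.1, hx⟩).1 = (e σ ⟨x'.1, x'.2.1, hx'⟩).1 → x.1 = x'.1 := by
    intro σ hx hx' heq
    have := (e σ).injective (Subtype.ext heq)
    exact congrArg (fun z : {x : X // P x ∧ f x = σ} => z.1) this
  have h3 : ∀ (σ : ℕ) (hx : f x.1 = σ),
      (e σ ⟨x.1, x.2.1, hx⟩).1 = (e (f x.1) ⟨x.1, x.2.1, rfl⟩).1 := by
    intro σ hx
    subst hx
    rfl
  apply Subtype.ext
  apply h2 (f x'.1) hσ rfl
  rw [← h1]
  exact h3 _ hσ

/-- Fix a maximal ideal M of the algebraic integers containing the prime p and a natural number d. The number of blocks of the finite group G of defect at least d is at most the number of conjugacy classes of p-regular elements of G of defect at least d, where the defect of a class is the exponent of p in the order of the centralizer of any of its elements. -/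
theorem result {G : Type*} [Group G] [Finite G] (p : ℕ) [Fact p.Prime] (M : Ideal Cfsg.AlgInt) (hM : Cfsg.IsPModular p M) (d : ℕ) : Nat.card {B : Set (Cfsg.IrrCharacter G) // Cfsg.IsPBlock M B ∧ d ≤ Cfsg.blockDefect p B} ≤ Nat.card {C : ConjClasses G // ∃ g : G, ConjClasses.mk g = C ∧ Cfsg.IsPRegular p g ∧ d ≤ (Nat.card (Subgroup.centralizer ({g} : Set G))).factorization p} := by
  classical
  letI := Fintype.ofFinite G
  haveI := Cfsg.Agent.Lib.Helper4.irr_finite (G := G)
  have hmain := card_ge_le_aux (X := Set (Cfsg.IrrCharacter G)) (Y := ConjClasses G)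
    (fun B => Cfsg.IsPBlock M B) (fun B => Cfsg.blockDefect p B)
    (fun C σ => ∃ g : G, ConjClasses.mk g = C ∧ ¬ p ∣ orderOf g ∧
      (Nat.card (Subgroup.centralizer ({g} : Set G))).factorization p = σ)
    (by
      rintro C σ σ' ⟨g, hg, -, hσ⟩ ⟨g', hg', -, hσ'⟩
      have hconj : IsConj g g' := ConjClasses.mk_eq_mk_iff_isConj.1 (hg.trans hg'.symm)
      have hidx := Cfsg.Agent.Lib.Helper79.index_centralizer_eq_of_isConj hconj
      have hc : Nat.card (Subgroup.centralizer ({g} : Set G))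
          = Nat.card (Subgroup.centralizer ({g'} : Set G)) := by
        have h1 := Subgroup.index_mul_card (Subgroup.centralizer ({g} : Set G))
        have h2 := Subgroup.index_mul_card (Subgroup.centralizer ({g'} : Set G))
        rw [hidx] at h1
        have hpos : 0 < (Subgroup.centralizer ({g'} : Set G)).index :=
          Nat.pos_of_ne_zero Subgroup.index_ne_zero_of_finite
        exact Nat.eq_of_mul_eq_mul_left hpos (h1.trans h2.symm)
      rw [← hσ, ← hσ', hc])
    (fun σ => by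
      have h := Cfsg.Agent.Lib.Helper79.card_blocks_defect_le (G := G) hM σ
      convert h using 2)
    d
  refine hmain.trans (le_of_eq ?_)
  apply Nat.card_congr
  apply Equiv.subtypeEquivRight
  intro C
  constructor
  · rintro ⟨σ, hσ, g, hg, hreg, hν⟩
    exact ⟨g, hg, hreg, by rw [hν]; exact hσ⟩
  · rintro ⟨g, hg, hreg, hν⟩
    exact ⟨_, hν, g, hg, hreg, rfl⟩

end Cfsg.Agent.S0962
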