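import Cfsg.Statements.S0967
import Mathlib
import Cfsg.Agent.Lib.Helper81.BlockNormal

set_option autoImplicit false
open Cfsg

namespace Cfsg.Agent.S0967

open Cfsg Cfsg.Agent.Lib.Helper4 Cfsg.Agent.Lib.Helper21 Cfsg.Agent.Lib.Helper81 in
theorem sum_comp_mk {G : Type*} [Group G] [Fintype G] (N : Subgroup G) [N.Normal]
    [Fintype (G ⧸ N)] (F : G ⧸ N → ℂ) :
    ∑ x : G, F (x : G ⧸ N) = (Nat.card N : ℂ) * ∑ q : G ⧸ N, F q := by
  classical
  rw [← Finset.sum_fiberwise (s := Finset.univ) (g := fun x : G => (x : G ⧸ N)), Finset.mul_sum]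
  refine Finset.sum_congr rfl fun q _ => ?_
  rw [Finset.sum_congr rfl (g := fun _ => F q)
    (fun x hx => by rw [(Finset.mem_filter.mp hx).2]), Finset.sum_const, nsmul_eq_mul]
  congr 1
  have h1 := QuotientGroup.card_preimage_mk N ({q} : Set (G ⧸ N))
  have h2 : Nat.card ((QuotientGroup.mk : G → G ⧸ N) ⁻¹' ({q} : Set (G ⧸ N))) =
      (Finset.univ.filter (fun x : G => (x : G ⧸ N) = q)).card := by
    rw [Nat.card_eq_fintype_card, ← Set.toFinset_card]
    congr 1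
    ext x
    simp
  rw [← h2, h1]
  simp

open Cfsg Cfsg.Agent.Lib.Helper4 Cfsg.Agent.Lib.Helper21 Cfsg.Agent.Lib.Helper81 in
theorem sameBlock_deflate_coprime {G : Type*} [Group G] [Fintype G] {p : ℕ} [Fact p.Prime]
    {M : Ideal AlgInt} (hM : IsPModular p M) (N : Subgroup G) [N.Normal] [Fintype (G ⧸ N)]
    (hN : ¬ p ∣ Nat.card N) (χ ψ : IrrCharacter (G ⧸ N))
    (h : SameBlock M ((χ : G ⧸ N → ℂ) ∘ (QuotientGroup.mk : G → G ⧸ N))
      ((ψ : G ⧸ N → ℂ) ∘ (QuotientGroup.mk : G → G ⧸ N))) :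
    SameBlock M (χ : G ⧸ N → ℂ) (ψ : G ⧸ N → ℂ) := by
  classical
  intro q
  set a : G → ℂ := fun x => ((Nat.card N : ℕ) : ℂ)⁻¹ * classInd q (x : G ⧸ N) with ha
  have hacf : IsClassFunction G a := by
    intro g k
    simp only [ha]
    have := classInd_isClassFunction q (g : G ⧸ N) (k : G ⧸ N)
    rw [QuotientGroup.mk_mul, QuotientGroup.mk_mul, QuotientGroup.mk_inv, this]
  have haloc : ∀ g, MemLocalRing M (a g) := by
    intro g
    simp only [ha]
    refine locRing_mul hM (locRing_inv_natCast hM hN) ?_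
    rw [classInd_apply]
    split_ifs
    · exact locRing_one hM
    · exact locRing_zero hM
  have h1 := omega_sub_locIdeal hM a hacf haloc (Cfsg.Agent.Lib.Helper83.inflate N χ)
    (Cfsg.Agent.Lib.Helper83.inflate N ψ) h
  have hcard : ((Nat.card N : ℕ) : ℂ) ≠ 0 := by exact_mod_cast Nat.card_pos.ne'
  have key : ∀ θ : IrrCharacter (G ⧸ N),
      omega (Cfsg.Agent.Lib.Helper83.inflate N θ : G → ℂ) a = centralChar (θ : G ⧸ N → ℂ) q := by
    intro θ
    rw [← omega_classInd _ (isClassFunction_irr θ) q, omega_def, omega_def]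
    have h2 := sum_comp_mk N (fun r => classInd q r * (θ : G ⧸ N → ℂ) r)
    have h3 : ∑ g : G, a g * (Cfsg.Agent.Lib.Helper83.inflate N θ : G → ℂ) g =
        ((Nat.card N : ℕ) : ℂ)⁻¹ * ∑ x : G, classInd q (x : G ⧸ N) * (θ : G ⧸ N → ℂ) (x : G ⧸ N) := by
      rw [Finset.mul_sum]
      refine Finset.sum_congr rfl fun g _ => ?_
      simp only [ha, Cfsg.Agent.Lib.Helper83.inflate_apply, mul_assoc]
    rw [h3, h2, ← mul_assoc, inv_mul_cancel₀ hcard, one_mul,
      Cfsg.Agent.Lib.Helper83.inflate_one]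
  rw [key, key] at h1
  exact h1

/-- Let N be a normal subgroup of the finite group G of order prime to p and fix a maximal ideal M of the algebraic integers containing p. If χ is an irreducible character of G ⧸ N and ψ lies in the block of its inflation χ ∘ (quotient map), then ψ is itself inflated from an irreducible character ψ' of G ⧸ N lying in the block of χ. (Over a normal p'-subgroup, blocks of the quotient are whole blocks of G.) -/
theorem result {G : Type*} [Group G] [Finite G] (p : ℕ) [Fact p.Prime] (M : Ideal Cfsg.AlgInt) (hM : Cfsg.IsPModular p M) (N : Subgroup G) [N.Normal] (hN : ¬ p ∣ Nat.card N) (χ : Cfsg.IrrCharacter (G ⧸ N)) (ψ : Cfsg.IrrCharacter G) (hψ : ψ ∈ Cfsg.blockOf M ((χ : G ⧸ N → ℂ) ∘ QuotientGroup.mk)) : ∃ ψ' : Cfsg.IrrCharacter (G ⧸ N), (ψ : G → ℂ) = (ψ' : G ⧸ N → ℂ) ∘ QuotientGroup.mk ∧ Cfsg.SameBlock M (χ : G ⧸ N → ℂ) (ψ' : G ⧸ N → ℂ) := by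
  classical
  haveI : Fintype G := Fintype.ofFinite G
  haveI : Fintype (G ⧸ N) := Fintype.ofFinite _
  have h0 : Cfsg.SameBlock M (Cfsg.Agent.Lib.Helper83.inflate N χ : G → ℂ) (ψ : G → ℂ) := hψ
  have h1 : Cfsg.SameBlock M (ψ : G → ℂ) (Cfsg.Agent.Lib.Helper83.inflate N χ : G → ℂ) :=
    Cfsg.Agent.Lib.Helper79.sameBlock_symm' hM h0
  have h2 := Cfsg.Agent.Lib.Helper81.ker_of_sameBlock hM N hN ψ
    (Cfsg.Agent.Lib.Helper83.inflate N χ) h1 (Cfsg.Agent.Lib.Helper83.inflate_ker N χ)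
  obtain ⟨ψ', hψ'⟩ := Cfsg.Agent.Lib.Helper83.exists_inflate_eq N ψ h2
  refine ⟨ψ', ?_, ?_⟩
  · rw [← hψ']
    rfl
  · apply sameBlock_deflate_coprime hM N hN χ ψ'
    have h3 : Cfsg.SameBlock M (Cfsg.Agent.Lib.Helper83.inflate N χ : G → ℂ)
        (Cfsg.Agent.Lib.Helper83.inflate N ψ' : G → ℂ) := by
      rw [hψ']
      exact h0
    exact h3

end Cfsg.Agent.S0967
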