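import Cfsg.Statements.S0968
import Cfsg.Agent.Lib.Helper79.NormDef4
import Cfsg.Agent.Lib.Helper81.BlockReg

set_option autoImplicit false
open Cfsg

namespace Cfsg.Agent.S0968

/-- Let P be a p-subgroup of the finite group G with P ⊔ C_G(P) = G, and let B be a block with defect group P relative to a maximal ideal M of the algebraic integers containing p. Then there is exactly one θ ∈ B with θ x = θ 1 for all x ∈ P; for this θ the exponent of p in θ(1) equals the exponent of p in the index of P; and the number of members of B equals the number of conjugacy classes of P. -/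
theorem result {G : Type*} [Group G] [Finite G] (p : ℕ) [Fact p.Prime] (M : Ideal Cfsg.AlgInt) (hM : Cfsg.IsPModular p M) (P : Subgroup G) (hP : IsPGroup p P) (hG : P ⊔ Subgroup.centralizer (P : Set G) = ⊤) (B : Set (Cfsg.IrrCharacter G)) (hB : Cfsg.IsPBlock M B) (hD : Cfsg.IsDefectGroup p M B P) : (∃! θ : Cfsg.IrrCharacter G, θ ∈ B ∧ ∀ x ∈ P, (θ : G → ℂ) x = (θ : G → ℂ) 1) ∧ (∀ θ ∈ B, (∀ x ∈ P, (θ : G → ℂ) x = (θ : G → ℂ) 1) → (Cfsg.charDegree (θ : G → ℂ)).factorization p = P.index.factorization p) ∧ Nat.card B = Nat.card (ConjClasses P) := by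
  classical
  letI := Fintype.ofFinite G
  have hp : p.Prime := Fact.out
  haveI hPn : P.Normal := Cfsg.Agent.Lib.Helper79.normal_of_sup_centralizer P hG
  have hDC := Cfsg.Agent.Lib.Helper79.factor_of_sup_centralizer P hG
  have hC := Cfsg.Agent.Lib.Helper79.index_centralizer_of_factor P hP hDC
  obtain ⟨χ, hχ, hχP⟩ := Cfsg.Agent.Lib.Helper81.exists_mem_block_ker hM P hP B hB
  refine ⟨⟨χ, ⟨hχ, hχP⟩, fun θ hθ =>
    Cfsg.Agent.Lib.Helper79.canonical_unique hM P hP hC B hB hD θ χ hθ.1 hχ hθ.2 hχP⟩,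
    fun θ hθ hk => (Cfsg.Agent.Lib.Helper79.canonical_degree hM P hP hC B hB hD θ hθ hk).1, ?_⟩
  rw [← Cfsg.Agent.Lib.Helper4.card_irr (G := P)]
  have hχ1 : (χ : G → ℂ) 1 ≠ 0 := Cfsg.Agent.Lib.Helper4.irr_one_ne_zero χ
  have h1reg : ¬ p ∣ orderOf (1 : G) := by rw [orderOf_one]; exact hp.not_dvd_one
  have hdesc : ∀ θ : B, ∃ ζ : Cfsg.IrrCharacter P, ∀ (y : P) (x : G), ¬ p ∣ orderOf x →
      ((θ : Cfsg.IrrCharacter G) : G → ℂ) ((y : G) * x) = (ζ : P → ℂ) y * (χ : G → ℂ) x := by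
    intro θ
    obtain ⟨ζ, -, h⟩ := Cfsg.Agent.Lib.Helper79.block_description hM B hB P hP hD hDC hC χ hχ
      hχP θ.1 θ.2
    exact ⟨ζ, h⟩
  choose F hF using hdesc
  refine Nat.card_congr (Equiv.ofBijective F ⟨?_, ?_⟩)
  · intro θ θ' hFF
    apply Subtype.ext
    refine Cfsg.Agent.Lib.Helper79.block_desc_injective hM B hB P hP hD χ (F θ) θ.1 θ'.1 θ.2 θ'.2
      (fun y x hx _ => hF θ y x hx) (fun y x hx _ => ?_)
    rw [hFF]; exact hF θ' y x hx
  · intro ζ
    obtain ⟨θ, hθ, h⟩ := Cfsg.Agent.Lib.Helper79.block_desc_surjective hM B hB P hP hD hDC hC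
      χ hχ hχP ζ
    refine ⟨⟨θ, hθ⟩, ?_⟩
    apply Subtype.ext
    funext y
    have h1 := hF ⟨θ, hθ⟩ y 1 h1reg
    have h2 := h y 1 h1reg
    rw [h1] at h2
    exact mul_right_cancel₀ hχ1 h2

end Cfsg.Agent.S0968
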