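import Cfsg.Statements.S0971
import Mathlib
import Cfsg.Agent.S0965
import Cfsg.Agent.Lib.Helper81.NormalP

set_option autoImplicit false
open Cfsg

namespace Cfsg.Agent.S0971

open Cfsg.Agent.Lib.Helper4 Cfsg.Agent.Lib.Helper21 Cfsg.Agent.Lib.Helper22

/-- The induced central character vanishes outside a normal subgroup. -/
theorem inducedCentralChar_eq_zero_of_not_mem {G : Type*} [Group G] (H : Subgroup G) [H.Normal]
    (ξ : H → ℂ) (g : G) (hg : g ∉ H) : inducedCentralChar H ξ g = 0 := by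
  unfold inducedCentralChar
  have h0 : {h : H | IsConj g (h : G)} = ∅ := by
    ext h
    simp only [Set.mem_setOf_eq, Set.mem_empty_iff_false, iff_false]
    intro hc
    obtain ⟨c, hc⟩ := isConj_iff.mp hc
    apply hg
    have h1 := (inferInstance : H.Normal).conj_mem (h : G) h.2 c⁻¹
    rw [← hc] at h1
    have e : c⁻¹ * (c * g * c⁻¹) * c⁻¹⁻¹ = g := by group
    rwa [e] at h1
  rw [h0]
  simp

/-- Let Q be a normal p-subgroup of the finite group G, let N = Q ⊔ C_G(Q) (a normal subgroup) and let b be a block of N relative to a maximal ideal M of the algebraic integers containing p. Then b induces some block of G, and every block B of G containing a character whose restriction to N has a constituent in b is induced by b. -/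
theorem result {G : Type*} [Group G] [Fintype G] (p : ℕ) [Fact p.Prime] (M : Ideal Cfsg.AlgInt) (hM : Cfsg.IsPModular p M) (Q : Subgroup G) [Q.Normal] (hQ : IsPGroup p Q) [Fintype ↥(Q ⊔ Subgroup.centralizer (Q : Set G))] (b : Set (Cfsg.IrrCharacter ↥(Q ⊔ Subgroup.centralizer (Q : Set G)))) (hb : Cfsg.IsPBlock M b) : Cfsg.InducedBlockDefined M (Q ⊔ Subgroup.centralizer (Q : Set G)) b ∧ ∀ B : Set (Cfsg.IrrCharacter G), Cfsg.IsPBlock M B → (∃ χ ∈ B, ∃ θ ∈ b, Cfsg.classInner (fun n : ↥(Q ⊔ Subgroup.centralizer (Q : Set G)) => (χ : G → ℂ) n) (θ : ↥(Q ⊔ Subgroup.centralizer (Q : Set G)) → ℂ) ≠ 0) → Cfsg.IsInducedBlock M (Q ⊔ Subgroup.centralizer (Q : Set G)) b B := by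
  classical
  have key : ∀ B : Set (IrrCharacter G), IsPBlock M B →
      (∃ χ ∈ B, ∃ θ ∈ b, classInner (fun n : ↥(Q ⊔ Subgroup.centralizer (Q : Set G)) =>
        (χ : G → ℂ) n) (θ : ↥(Q ⊔ Subgroup.centralizer (Q : Set G)) → ℂ) ≠ 0) →
      IsInducedBlock M (Q ⊔ Subgroup.centralizer (Q : Set G)) b B := by
    intro B hB hcov
    refine ⟨hb, hB, ?_⟩
    intro ξ hξ χ hχ g
    by_cases hg : g ∈ Q ⊔ Subgroup.centralizer (Q : Set G)
    · have h1 := (Cfsg.Agent.S0965.result p M hM (Q ⊔ Subgroup.centralizer (Q : Set G)) B hB b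
        hb).mp hcov χ hχ ξ hξ ⟨g, hg⟩
      have h2 := locIdeal_neg h1
      rw [neg_sub] at h2
      exact h2
    · have h1 := inducedCentralChar_eq_zero_of_not_mem (Q ⊔ Subgroup.centralizer (Q : Set G))
        (ξ : ↥(Q ⊔ Subgroup.centralizer (Q : Set G)) → ℂ) g hg
      have hgC : g ∉ Subgroup.centralizer (Q : Set G) := fun h => hg (le_sup_right (a := Q) h)
      have h2 := Cfsg.Agent.Lib.Helper81.centralChar_locIdeal_of_not_mem_centralizer hM Q hQ g
        hgC χ
      rw [h1, zero_sub]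
      exact locIdeal_neg h2
  refine ⟨?_, key⟩
  obtain ⟨θ₁, hθ₁⟩ : ∃ θ₁, θ₁ ∈ b := by
    obtain ⟨θ₁, rfl⟩ := hb
    exact ⟨θ₁, mem_blockOf_self hM θ₁⟩
  obtain ⟨χ', hχ'⟩ := Cfsg.Agent.S0965.exists_irr_over (Q ⊔ Subgroup.centralizer (Q : Set G)) θ₁
  exact ⟨blockOf M (χ' : G → ℂ), key _ ⟨χ', rfl⟩ ⟨χ', mem_blockOf_self hM χ', θ₁, hθ₁, hχ'⟩⟩

end Cfsg.Agent.S0971
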