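import Cfsg.Statements.S0972
import Cfsg.Agent.Lib.Helper86.Blk2

set_option autoImplicit false
open Cfsg

namespace Cfsg.Agent.S0972

/-- Let B be a block of the finite group G (relative to a maximal ideal M of the algebraic integers containing the prime p) with a defect group P that is normal in G. Then P is commutative if and only if every member of B has height zero. -/
theorem result {G : Type*} [Group G] [Finite G] (p : ℕ) [Fact p.Prime] (M : Ideal Cfsg.AlgInt) (hM : Cfsg.IsPModular p M) (B : Set (Cfsg.IrrCharacter G)) (hB : Cfsg.IsPBlock M B) (P : Subgroup G) [P.Normal] (hP : Cfsg.IsDefectGroup p M B P) : (∀ a ∈ P, ∀ c ∈ P, a * c = c * a) ↔ ∀ χ ∈ B, Cfsg.blockHeight p B (χ : G → ℂ) = 0 := by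
  classical
  haveI := Fintype.ofFinite G
  obtain ⟨g, hg, Ps, hPs⟩ := hP
  constructor
  · intro hab χ hχ
    exact Lib.Helper86.height_zero_of_abelian_normal hM B hB g hg Ps P hPs hab χ hχ
  · intro hall
    exact Lib.Helper86.abelian_of_all_height_zero hM B hB g hg Ps P hPs hall

end Cfsg.Agent.S0972
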