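import Cfsg.Statements.S0986
import Cfsg.Agent.Lib.Helper23.SylMaxInter

set_option autoImplicit false
open Cfsg

namespace Cfsg.Agent.S0986

/-- Let P and Q be distinct Sylow p-subgroups of a finite group G chosen so that the order of P ∩ Q is as large as possible among intersections of two distinct Sylow p-subgroups, and let N be the normalizer of P ∩ Q. Then N has more than one Sylow p-subgroup, any two distinct Sylow p-subgroups of N intersect exactly in P ∩ Q, and each Sylow p-subgroup of N lies in exactly one Sylow p-subgroup of G. -/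
theorem result {G : Type*} [Group G] [Finite G] (p : ℕ) [Fact p.Prime] (P Q : Sylow p G) (hPQ : P ≠ Q) (hmax : ∀ P' Q' : Sylow p G, P' ≠ Q' → Nat.card ↥((P' : Subgroup G) ⊓ (Q' : Subgroup G)) ≤ Nat.card ↥((P : Subgroup G) ⊓ (Q : Subgroup G))) : 1 < Nat.card (Sylow p ↥(Subgroup.normalizer (((P : Subgroup G) ⊓ (Q : Subgroup G) : Subgroup G) : Set G))) ∧ (∀ S T : Sylow p ↥(Subgroup.normalizer (((P : Subgroup G) ⊓ (Q : Subgroup G) : Subgroup G) : Set G)), S ≠ T → (S : Subgroup _) ⊓ (T : Subgroup _) = ((P : Subgroup G) ⊓ (Q : Subgroup G)).subgroupOf (Subgroup.normalizer (((P : Subgroup G) ⊓ (Q : Subgroup G) : Subgroup G) : Set G))) ∧ ∀ S : Sylow p ↥(Subgroup.normalizer (((P : Subgroup G) ⊓ (Q : Subgroup G) : Subgroup G) : Set G)), ∃! T : Sylow p G, (S : Subgroup _).map (Subgroup.normalizer (((P : Subgroup G) ⊓ (Q : Subgroup G) : Subgroup G) : Set G)).subtype ≤ (T : Subgroup G) := by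
  exact Cfsg.Agent.Lib.Helper23.maximal_sylow_inter_normalizer p P Q hPQ hmax

end Cfsg.Agent.S0986
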