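import Cfsg.Statements.S0987
import Cfsg.Agent.Lib.Helper23.Pqr

set_option autoImplicit false
open Cfsg

namespace Cfsg.Agent.S0987

/-- If a finite group has order pqr for primes p < q < r, then its Sylow r-subgroups are normal. -/
theorem result {G : Type*} [Group G] [Finite G] (p q r : ℕ) (hp : p.Prime) (hq : q.Prime) [Fact r.Prime] (hpq : p < q) (hqr : q < r) (hG : Nat.card G = p * q * r) (R : Sylow r G) : (R : Subgroup G).Normal := by
  exact Cfsg.Agent.Lib.Helper23.sylow_normal_of_card_pqr p q r hp hq hpq hqr hG R

end Cfsg.Agent.S0987
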