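import Cfsg.Statements.S0989
import Mathlib

set_option autoImplicit false
open Cfsg

namespace Cfsg.Agent.S0989


open Equiv

theorem aux {α : Type*} [Fintype α] [DecidableEq α] (p : ℕ) (hp : p.Prime)
    (hα : Fintype.card α = p ∨ Fintype.card α = p + 1) (Q : Subgroup (Equiv.Perm α))
    (hk : Nat.card Q = p) :
    Nat.card ↥(Subgroup.normalizer (Q : Set (Equiv.Perm α))) = p * (p - 1) := by
  classical
  have hp2 := hp.two_le
  have hPnt : Nontrivial Q := Finite.one_lt_card_iff_nontrivial.mp (by rw [hk]; exact hp.one_lt)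
  obtain ⟨σP, hσP⟩ := exists_ne (1 : Q)
  have hord : ∀ τ : Q, τ ≠ 1 → orderOf (τ : Perm α) = p := by
    intro τ hτ
    have h1 : orderOf τ ∣ p := hk ▸ orderOf_dvd_natCard τ
    rw [Subgroup.orderOf_coe]
    rcases (Nat.dvd_prime hp).mp h1 with h | h
    · exact absurd (orderOf_eq_one_iff.mp h) hτ
    · exact h
  have hct : ∀ τ : Q, τ ≠ 1 → (τ : Perm α).cycleType = {p} := by
    intro τ hτ
    have ho := hord τ hτ
    have hcycle : (τ : Perm α).IsCycle :=
      Equiv.Perm.isCycle_of_prime_order' (by rw [ho]; exact hp)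
        (by rw [ho]; rcases hα with h | h <;> omega)
    rw [hcycle.cycleType, ← hcycle.orderOf, ho]
  have hconj : ∀ τ : Q, τ ≠ 1 → ∃ g : Perm α, g * (σP : Perm α) * g⁻¹ = τ := by
    intro τ hτ
    have h1 : IsConj (σP : Perm α) (τ : Perm α) :=
      Equiv.Perm.isConj_iff_cycleType_eq.mpr (by rw [hct σP hσP, hct τ hτ])
    exact isConj_iff.mp h1
  have hgen : ∀ τ : Q, τ ≠ 1 → ∀ h : Q, h ∈ Subgroup.zpowers τ := by
    intro τ hτ h
    have h1 : Subgroup.zpowers τ = ⊤ := by
      apply Subgroup.eq_top_of_card_eq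
      rw [Nat.card_zpowers, hk]
      have h2 := hord τ hτ
      rwa [Subgroup.orderOf_coe] at h2
    rw [h1]; trivial
  have hnorm : ∀ (g : Perm α) (τ : Q), τ ≠ 1 → g * (σP : Perm α) * g⁻¹ = τ →
      g ∈ Subgroup.normalizer (Q : Set (Perm α)) := by
    intro g τ hτ hg
    rw [Subgroup.mem_normalizer_iff]
    intro h
    constructor
    · intro hh
      obtain ⟨i, hi⟩ := Subgroup.mem_zpowers_iff.mp (hgen σP hσP ⟨h, hh⟩)
      have h1 : h = (σP : Perm α) ^ i := by
        have h2 := congrArg Subtype.val hi
        simpa using h2.symm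
      rw [h1, ← conj_zpow, hg]
      exact Q.zpow_mem τ.2 i
    · intro hh
      obtain ⟨i, hi⟩ := Subgroup.mem_zpowers_iff.mp (hgen τ hτ ⟨g * h * g⁻¹, hh⟩)
      have h1 : (τ : Perm α) ^ i = g * h * g⁻¹ := by simpa using congrArg Subtype.val hi
      rw [← hg, conj_zpow] at h1
      have h2 : (σP : Perm α) ^ i = h := by
        have h3 := congrArg (fun x => g⁻¹ * x * g) h1
        simpa [mul_assoc] using h3
      rw [← h2]; exact Q.zpow_mem σP.2 i
  -- orbit-stabilizer for the conjugation action of the normalizer on Q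
  have hos : Nat.card (Subgroup.normalizer (Q : Set (Perm α))) =
      (MulAction.orbit (Subgroup.normalizer (Q : Set (Perm α))) σP).ncard *
        Nat.card (MulAction.stabilizer (Subgroup.normalizer (Q : Set (Perm α))) σP) := by
    rw [← MulAction.index_stabilizer, Subgroup.index_mul_card]
  have hsmul : ∀ (n : Subgroup.normalizer (Q : Set (Perm α))) (τ : Q),
      ((n • τ : Q) : Perm α) = (n : Perm α) * (τ : Perm α) * (n : Perm α)⁻¹ := fun n τ => rfl
  have horb : MulAction.orbit (Subgroup.normalizer (Q : Set (Perm α))) σP =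
      ({1}ᶜ : Set Q) := by
    ext τ
    simp only [Set.mem_compl_iff, Set.mem_singleton_iff]
    constructor
    · rintro ⟨n, rfl⟩ h1
      apply hσP
      have h2 := congrArg Subtype.val h1
      change ((n • σP : Q) : Perm α) = 1 at h2
      rw [hsmul] at h2
      apply Subtype.ext
      have h3 : (σP : Perm α) = (n : Perm α)⁻¹ * 1 * (n : Perm α) := by
        rw [← h2]; group
      simpa using h3
    · intro hτ
      obtain ⟨g, hg⟩ := hconj τ hτ
      refine ⟨⟨g, hnorm g τ hτ hg⟩, ?_⟩
      apply Subtype.ext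
      change ((_ • σP : Q) : Perm α) = τ
      rw [hsmul]
      exact hg
  have hncard : (MulAction.orbit (Subgroup.normalizer (Q : Set (Perm α))) σP).ncard = p - 1 := by
    rw [horb, Set.ncard_compl, Set.ncard_singleton, hk]
  have hCN : ∀ c : Perm α, c ∈ Subgroup.centralizer ({(σP : Perm α)} : Set (Perm α)) →
      c ∈ Subgroup.normalizer (Q : Set (Perm α)) := by
    intro c hc
    apply hnorm c σP hσP
    have h1 := Subgroup.mem_centralizer_iff.mp hc (σP : Perm α) (Set.mem_singleton _)
    rw [← h1]; group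
  have hstab : Nat.card (MulAction.stabilizer (Subgroup.normalizer (Q : Set (Perm α))) σP) =
      Nat.card (Subgroup.centralizer ({(σP : Perm α)} : Set (Perm α))) := by
    apply Nat.card_congr
    refine
      { toFun := fun n => ⟨((n : Subgroup.normalizer (Q : Set (Perm α))) : Perm α), ?_⟩
        invFun := fun c => ⟨⟨(c : Perm α), hCN c c.2⟩, ?_⟩
        left_inv := fun n => rfl
        right_inv := fun c => rfl }
    · rw [Subgroup.mem_centralizer_iff]
      intro h hh
      rw [Set.mem_singleton_iff] at hh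
      subst hh
      have h1 := MulAction.mem_stabilizer_iff.mp n.2
      have h2 := congrArg Subtype.val h1
      rw [hsmul] at h2
      calc (σP : Perm α) * (n : Perm α) = ((n : Perm α) * (σP : Perm α) * (n : Perm α)⁻¹) * (n : Perm α) := by rw [h2]
        _ = (n : Perm α) * (σP : Perm α) := by group
    · rw [MulAction.mem_stabilizer_iff]
      apply Subtype.ext
      rw [hsmul]
      have h1 := Subgroup.mem_centralizer_iff.mp c.2 (σP : Perm α) (Set.mem_singleton _)
      change (c : Perm α) * (σP : Perm α) * (c : Perm α)⁻¹ = σP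
      rw [← h1]; group
  have hcent : Nat.card (Subgroup.centralizer ({(σP : Perm α)} : Set (Perm α))) = p := by
    rw [Equiv.Perm.nat_card_centralizer, hct σP hσP]
    have h1 : (Fintype.card α - p).factorial = 1 := by
      rcases hα with h | h
      · rw [h]; simp
      · rw [h]; simp
    simp [h1]
  rw [hos, hncard, hstab, hcent, mul_comm]

/-- In the symmetric group on p or p + 1 letters, p a prime, the normalizer of a Sylow p-subgroup has order p * (p - 1). -/
theorem result {α : Type*} [Fintype α] [DecidableEq α] (p : ℕ) [Fact p.Prime] (hα : Fintype.card α = p ∨ Fintype.card α = p + 1) (P : Sylow p (Equiv.Perm α)) : Nat.card ↥(Subgroup.normalizer ((P : Subgroup (Equiv.Perm α)) : Set (Equiv.Perm α))) = p * (p - 1) := by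
  classical
  have hp : p.Prime := Fact.out
  have hp2 := hp.two_le
  have hcardG : ∃ m, Nat.card (Perm α) = p * m ∧ ¬ p ∣ m := by
    rw [Nat.card_eq_fintype_card, Fintype.card_perm]
    have hfac : ¬ p ∣ (p - 1).factorial := by
      rw [hp.dvd_factorial]; omega
    rcases hα with h | h
    · refine ⟨(p - 1).factorial, ?_, hfac⟩
      rw [h]
      exact (Nat.mul_factorial_pred (by omega)).symm
    · refine ⟨(p + 1) * (p - 1).factorial, ?_, ?_⟩
      · rw [h, Nat.factorial_succ, ← Nat.mul_factorial_pred (by omega : p ≠ 0)]; ring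
      · rw [hp.dvd_mul]
        rintro (h1 | h1)
        · have h2 : p ∣ 1 := (Nat.dvd_add_right (dvd_refl p)).mp h1
          have h3 := Nat.le_of_dvd one_pos h2
          omega
        · exact hfac h1
  obtain ⟨m, hm, hpm⟩ := hcardG
  obtain ⟨k, hk⟩ := P.2.exists_card_eq
  have hidx := P.not_dvd_index
  have hmul : Nat.card (P : Subgroup (Perm α)) * (P : Subgroup (Perm α)).index = p * m := by
    rw [Subgroup.card_mul_index, hm]
  have hk' : Nat.card (P : Subgroup (Perm α)) = p ^ k := hk
  have hk1 : k = 1 := by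
    rw [hk'] at hmul
    rcases k with _ | _ | k
    · exfalso; apply hidx; rw [pow_zero, one_mul] at hmul; rw [hmul]; exact dvd_mul_right p m
    · rfl
    · exfalso
      apply hpm
      have h1 : p * (p ^ (k + 1) * (P : Subgroup (Perm α)).index) = p * m := by rw [← hmul]; ring
      have h2 := Nat.eq_of_mul_eq_mul_left hp.pos h1
      rw [← h2]; exact Dvd.dvd.mul_right (dvd_pow_self p (by omega)) _
  subst hk1
  rw [pow_one] at hk'
  exact aux p hp hα (P : Subgroup (Perm α)) hk'

end Cfsg.Agent.S0989
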