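import Cfsg.Statements.S0990
import Mathlib

set_option autoImplicit false
open Cfsg

namespace Cfsg.Agent.S0990

theorem card_subgroupOf_eq {G : Type*} [Group G] (H K : Subgroup G) :
    Nat.card (H.subgroupOf K) = Nat.card (H ⊓ K : Subgroup G) := by
  rw [← Subgroup.inf_subgroupOf_right H K]
  exact Nat.card_congr (Subgroup.subgroupOfEquivOfLe inf_le_right).toEquiv

theorem result {α : Type*} [Fintype α] [DecidableEq α] (hα : 2 ≤ Fintype.card α) (p : ℕ) [Fact p.Prime] (hp : p ≠ 2) (P : Sylow p (Equiv.Perm α)) : (P : Subgroup (Equiv.Perm α)) ≤ alternatingGroup α ∧ 2 * Nat.card ↥(Subgroup.normalizer ((((P : Subgroup (Equiv.Perm α)).subgroupOf (alternatingGroup α) : Subgroup ↥(alternatingGroup α)) : Set ↥(alternatingGroup α)))) = Nat.card ↥(Subgroup.normalizer ((P : Subgroup (Equiv.Perm α)) : Set (Equiv.Perm α))) := by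
  have hnt : Nontrivial α := Fintype.one_lt_card_iff_nontrivial.1 (by omega)
  have hpodd : Odd p := (Fact.out : p.Prime).odd_of_ne_two hp
  have hPA : (P : Subgroup (Equiv.Perm α)) ≤ alternatingGroup α := by
    intro σ hσ
    rw [Equiv.Perm.mem_alternatingGroup]
    obtain ⟨k, hk⟩ := P.isPGroup' ⟨σ, hσ⟩
    have hk' : σ ^ p ^ k = 1 := by
      have := congrArg Subtype.val hk
      simpa using this
    have h1 : (Equiv.Perm.sign σ) ^ (p ^ k) = 1 := by
      rw [← map_pow, hk', map_one]
    rcases Int.units_eq_one_or (Equiv.Perm.sign σ) with h | h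
    · exact h
    · rw [h, Odd.neg_one_pow (hpodd.pow)] at h1
      exact absurd h1 (by decide)
  refine ⟨hPA, ?_⟩
  set A := alternatingGroup α with hA
  set N := Subgroup.normalizer ((P : Subgroup (Equiv.Perm α)) : Set (Equiv.Perm α)) with hN
  have hfrat : N ⊔ A = ⊤ := Sylow.normalizer_sup_eq_top' P hPA
  have hrel : A.relIndex N = 2 := by
    rw [← Subgroup.relIndex_sup_right, hfrat, Subgroup.relIndex_top_right, hA,
      alternatingGroup.index_eq_two]
  rw [← Subgroup.subgroupOf_normalizer_eq hPA, card_subgroupOf_eq]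
  have h1 := (A.subgroupOf N).card_mul_index
  rw [card_subgroupOf_eq] at h1
  have h2 : (A.subgroupOf N).index = 2 := hrel
  rw [h2] at h1
  rw [inf_comm, ← h1, mul_comm]

end Cfsg.Agent.S0990
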