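import Cfsg.Statements.S1001
import Cfsg.Agent.S0904
import Cfsg.Agent.S0144

set_option autoImplicit false
open Cfsg

namespace Cfsg.Agent.S1001

/-- In a finite simple group whose order has the form p * 3^a * 2^b with p prime, the centralizer of any element of order p is the cyclic group it generates. -/
theorem result {G : Type*} [Group G] [Finite G] [IsSimpleGroup G] (p a b : ℕ) (hp : p.Prime) (hG : Nat.card G = p * 3 ^ a * 2 ^ b) (x : G) (hx : orderOf x = p) : Subgroup.centralizer ({x} : Set G) = Subgroup.zpowers x := by
  classical
  by_cases h23 : p = 2 ∨ p = 3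
  · -- `G` is a `{2,3}`-group: solvable by Burnside, hence abelian, hence generated by `x`
    have hsolv : Group.IsSolvable G := by
      rcases h23 with rfl | rfl
      · exact Cfsg.Agent.S0144.result 2 3 (b + 1) a Nat.prime_two Nat.prime_three
          (by rw [hG]; ring)
      · exact Cfsg.Agent.S0144.result 3 2 (a + 1) b Nat.prime_three Nat.prime_two
          (by rw [hG]; ring)
    have hcomm : ∀ g h : G, g * h = h * g := IsSimpleGroup.comm_iff_isSolvable.mpr hsolv
    have hx1 : x ≠ 1 := by
      rintro rfl
      rw [orderOf_one] at hx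
      exact hp.one_lt.ne hx
    have hnorm : (Subgroup.zpowers x).Normal :=
      ⟨fun n hn g => by rw [hcomm g n, mul_inv_cancel_right]; exact hn⟩
    have htop : Subgroup.zpowers x = ⊤ :=
      (hnorm.eq_bot_or_eq_top).resolve_left (by rw [Subgroup.zpowers_eq_bot]; exact hx1)
    rw [htop, eq_top_iff]
    intro g _
    rw [Subgroup.mem_centralizer_iff]
    intro h hh
    exact hcomm _ _
  · push Not at h23
    haveI : Fact p.Prime := ⟨hp⟩
    have hpg : IsPGroup p (Subgroup.zpowers x) :=
      IsPGroup.of_card (n := 1) (by rw [Nat.card_zpowers, hx, pow_one])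
    obtain ⟨S, hS⟩ := hpg.exists_le_sylow
    have hcard : Nat.card G = 3 ^ a * 2 ^ b * p := by rw [hG]; ring
    have hcent := Cfsg.Agent.S0904.result 3 2 p a b Nat.prime_three Nat.prime_two (by norm_num)
      (Ne.symm h23.2) (Ne.symm h23.1) hcard S
    have hndvd : ¬ p ∣ 3 ^ a * 2 ^ b := by
      intro h
      rcases (Nat.Prime.dvd_mul hp).mp h with h | h
      · exact h23.2 ((Nat.prime_dvd_prime_iff_eq hp Nat.prime_three).mp (hp.dvd_of_dvd_pow h))
      · exact h23.1 ((Nat.prime_dvd_prime_iff_eq hp Nat.prime_two).mp (hp.dvd_of_dvd_pow h))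
    have hScard : Nat.card S = p := by
      rw [S.card_eq_multiplicity, hcard,
        Nat.factorization_mul (by positivity) hp.ne_zero, Finsupp.add_apply,
        Nat.factorization_eq_zero_of_not_dvd hndvd, hp.factorization_self, zero_add, pow_one]
    have hSeq : Subgroup.zpowers x = (S : Subgroup G) := by
      apply Subgroup.eq_of_le_of_card_ge hS
      rw [Nat.card_zpowers, hx, hScard]
    have hce : Subgroup.centralizer ({x} : Set G)
        = Subgroup.centralizer ((Subgroup.zpowers x : Subgroup G) : Set G) := by
      apply le_antisymm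
      · intro g hg
        rw [Subgroup.mem_centralizer_iff] at hg ⊢
        intro h hh
        obtain ⟨k, rfl⟩ := Subgroup.mem_zpowers_iff.mp hh
        have hc : Commute x g := hg x (Set.mem_singleton x)
        exact hc.zpow_left k
      · apply Subgroup.centralizer_le
        intro y hy
        rw [Set.mem_singleton_iff] at hy
        subst hy
        exact Subgroup.mem_zpowers y
    rw [hce, hSeq]
    exact hcent

end Cfsg.Agent.S1001
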