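import Cfsg.Statements.S1002
import Cfsg.Agent.Lib.Helper23.FixBound
import Cfsg.Agent.Lib.Helper23.G168a

set_option autoImplicit false
open Cfsg

namespace Cfsg.Agent.S1002

open Cfsg.Agent.Lib.Helper23 in
theorem aux {G : Type*} [Group G] [Finite G] [IsSimpleGroup G] (h : Nat.card G = 1004913) :
    False := by
  have hG : ¬ IsMulCommutative G := not_comm_of_simple_of_not_prime (by rw [h]; norm_num)
  have : Fact (Nat.Prime 409) := ⟨by norm_num⟩
  have : Fact (Nat.Prime 7) := ⟨by norm_num⟩
  have : Fact (Nat.Prime 13) := ⟨by norm_num⟩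
  have : Fact (Nat.Prime 3) := ⟨by norm_num⟩
  have h409 : Nat.card G = 409 ^ 1 * 2457 := h.trans (by norm_num)
  have hm409 : ¬ 409 ∣ 2457 := by norm_num
  have n409 : Nat.card (Sylow 409 G) = 819 := by
    have hmem := card_sylow_mem_filter h409 hm409
    have hne := simple_sylow_card_ne_one h409 hm409 (by norm_num) (by norm_num)
    rw [show (Nat.divisors 2457).filter (fun d => d % 409 = 1) = {1, 819} from by
      decide +kernel] at hmem
    simp only [Finset.mem_insert, Finset.mem_singleton] at hmem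
    rcases hmem with h2 | h2
    · exact absurd h2 hne
    · exact h2
  have hNcard : ∀ Q : Sylow 409 G,
      Nat.card (Subgroup.normalizer ((Q : Subgroup G) : Set G)) = 1227 := by
    intro Q
    have := card_normalizer_sylow_mul Q
    rw [n409, h] at this
    omega
  have key : ∀ (H : Subgroup G) (j : ℕ), Nat.card H = 409 * j → 0 < j → j < 409 →
      409 * j ∣ 1227 := by
    intro H j hH hj0 hj
    have hidx : ¬ 409 ∣ H.index := by
      intro hd
      have h1 := H.card_mul_index
      rw [hH, h] at h1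
      obtain ⟨t, ht⟩ := hd
      rw [ht] at h1
      have h2 : 409 * 409 ∣ 1004913 := ⟨j * t, by rw [← h1]; ring⟩
      norm_num at h2
    have hHc : Nat.card H = 409 ^ 1 * j := by rw [hH]; ring
    have hj409 : ¬ 409 ∣ j := fun hd => by
      have := Nat.le_of_dvd hj0 hd
      omega
    have hn1 : Nat.card (Sylow 409 H) = 1 := by
      have h1 := card_sylow_dvd_of_eq hHc hj409
      have h2 := card_sylow_mod (G := H) 409
      have h3 := Nat.le_of_dvd hj0 h1
      omega
    obtain ⟨Q, hQH, hHQ⟩ := le_normalizer_of_card_sylow_subgroup_eq_one H hidx hn1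
    have := Subgroup.card_dvd_of_le hHQ
    rwa [hH, hNcard Q] at this
  have h7 : Nat.card G = 7 ^ 1 * 143559 := h.trans (by norm_num)
  have hm7 : ¬ 7 ∣ 143559 := by norm_num
  have n7 : Nat.card (Sylow 7 G) = 47853 := by
    have hdvd := card_sylow_dvd_of_eq h7 hm7
    have hmod := card_sylow_mod (G := G) 7
    have hne := simple_sylow_card_ne_one h7 hm7 (by norm_num) (by norm_num)
    rw [show (143559 : ℕ) = 27 * (13 * 409) from by norm_num] at hdvd
    obtain ⟨d1, d2, hd1, hd2, hd⟩ := (Nat.dvd_mul).mp hdvd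
    obtain ⟨d3, d4, hd3, hd4, hd'⟩ := (Nat.dvd_mul).mp hd2
    have e1 : d1 = 1 ∨ d1 = 3 ∨ d1 = 9 ∨ d1 = 27 := by
      have := Nat.le_of_dvd (by norm_num) hd1
      interval_cases d1 <;> omega
    have e3 : d3 = 1 ∨ d3 = 13 := (Nat.dvd_prime (by norm_num)).mp hd3
    have e4 : d4 = 1 ∨ d4 = 409 := (Nat.dvd_prime (by norm_num)).mp hd4
    have hcases : Nat.card (Sylow 7 G) = 1 ∨ Nat.card (Sylow 7 G) = 351 ∨
        Nat.card (Sylow 7 G) = 47853 := by
      rw [← hd, ← hd'] at hmod ⊢
      rcases e1 with rfl | rfl | rfl | rfl <;> rcases e3 with rfl | rfl <;>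
        rcases e4 with rfl | rfl <;> omega
    rcases hcases with h1 | h1 | h1
    · exact absurd h1 hne
    · exfalso
      obtain ⟨P⟩ : Nonempty (Sylow 7 G) := inferInstance
      have h2 := card_normalizer_sylow_mul P
      rw [h1, h] at h2
      have h3 := key (Subgroup.normalizer ((P : Subgroup G) : Set G)) 7 (by omega) (by norm_num)
        (by norm_num)
      norm_num at h3
    · exact h1
  have h13 : Nat.card G = 13 ^ 1 * 77301 := h.trans (by norm_num)
  have hm13 : ¬ 13 ∣ 77301 := by norm_num
  have n13 : Nat.card (Sylow 13 G) = 25767 := by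
    have hdvd := card_sylow_dvd_of_eq h13 hm13
    have hmod := card_sylow_mod (G := G) 13
    have hne := simple_sylow_card_ne_one h13 hm13 (by norm_num) (by norm_num)
    rw [show (77301 : ℕ) = 27 * (7 * 409) from by norm_num] at hdvd
    obtain ⟨d1, d2, hd1, hd2, hd⟩ := (Nat.dvd_mul).mp hdvd
    obtain ⟨d3, d4, hd3, hd4, hd'⟩ := (Nat.dvd_mul).mp hd2
    have e1 : d1 = 1 ∨ d1 = 3 ∨ d1 = 9 ∨ d1 = 27 := by
      have := Nat.le_of_dvd (by norm_num) hd1
      interval_cases d1 <;> omega
    have e3 : d3 = 1 ∨ d3 = 7 := (Nat.dvd_prime (by norm_num)).mp hd3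
    have e4 : d4 = 1 ∨ d4 = 409 := (Nat.dvd_prime (by norm_num)).mp hd4
    have hcases : Nat.card (Sylow 13 G) = 1 ∨ Nat.card (Sylow 13 G) = 27 ∨
        Nat.card (Sylow 13 G) = 25767 := by
      rw [← hd, ← hd'] at hmod ⊢
      rcases e1 with rfl | rfl | rfl | rfl <;> rcases e3 with rfl | rfl <;>
        rcases e4 with rfl | rfl <;> omega
    rcases hcases with h1 | h1 | h1
    · exact absurd h1 hne
    · exfalso
      obtain ⟨P⟩ : Nonempty (Sylow 13 G) := inferInstance
      have h2 := card_normalizer_sylow_mul P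
      rw [h1, h] at h2
      have h3 := key (Subgroup.normalizer ((P : Subgroup G) : Set G)) 91 (by omega) (by norm_num)
        (by norm_num)
      norm_num at h3
    · exact h1
  have c409 : Nat.card {g : G // orderOf g = 409} = 819 * 408 := by
    rw [card_orderOf_eq_prime (p := 409) (m := 2457) (h.trans (by norm_num)) hm409, n409]
  have c7 : Nat.card {g : G // orderOf g = 7} = 47853 * 6 := by
    rw [card_orderOf_eq_prime (p := 7) (m := 143559) (h.trans (by norm_num)) hm7, n7]
  have c13 : Nat.card {g : G // orderOf g = 13} = 25767 * 12 := by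
    rw [card_orderOf_eq_prime (p := 13) (m := 77301) (h.trans (by norm_num)) hm13, n13]
  have hsum := card_subtype_mem_eq_sum (fun g : G => orderOf g) ({3, 7, 13, 409} : Finset ℕ)
  simp only [Finset.mem_insert, Finset.mem_singleton, Finset.sum_insert, Finset.sum_singleton,
    not_false_eq_true, Nat.reduceEqDiff, or_self] at hsum
  have hle : Nat.card {g : G // orderOf g = 3 ∨ orderOf g = 7 ∨ orderOf g = 13 ∨ orderOf g = 409} ≤
      Nat.card G := Finite.card_subtype_le _
  rw [hsum, c409, c7, c13, h] at hle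
  obtain ⟨Q⟩ : Nonempty (Sylow 409 G) := inferInstance
  have hQc : Nat.card (Q : Subgroup G) = 409 := by
    simpa using sylow_card_of_eq h409 hm409 Q
  have hrel := relIndex_sylow_normalizer_mul h409 hm409 Q
  rw [n409] at hrel
  have hrel3 : (Q : Subgroup G).relIndex (Subgroup.normalizer ((Q : Subgroup G) : Set G)) = 3 := by
    omega
  have hCQ := simple_centralizer_sylow_eq hG Q hQc (by rw [hrel3]; norm_num)
  obtain ⟨x, hx⟩ := exists_prime_orderOf_dvd_card'
    (G := ↥(Subgroup.normalizer ((Q : Subgroup G) : Set G))) 3 (by rw [hNcard Q]; norm_num)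
  have hx3 : orderOf (x : G) = 3 := by rw [Subgroup.orderOf_coe]; exact hx
  have hxC : (x : G) ∉ Subgroup.centralizer ((Q : Subgroup G) : Set G) := by
    rw [hCQ]
    intro hxQ
    have := Subgroup.orderOf_dvd_natCard _ hxQ
    rw [hx3, hQc] at this
    norm_num at this
  obtain ⟨k, hk1, hk2⟩ := card_centralizer_eq_mul_of_normalizes_sylow Q hQc (x : G) x.2 hxC
  have hnd := not_dvd_card_centralizer_inf_normalizer Q hQc (x : G) hxC
  have hdvd : Nat.card ((Subgroup.centralizer ({(x : G)} : Set G) ⊓
      Subgroup.normalizer ((Q : Subgroup G) : Set G) : Subgroup G)) ∣ 1227 := by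
    rw [← hNcard Q]
    exact Subgroup.card_dvd_of_le inf_le_right
  have hc3 : Nat.card ((Subgroup.centralizer ({(x : G)} : Set G) ⊓
      Subgroup.normalizer ((Q : Subgroup G) : Set G) : Subgroup G)) ≤ 3 := by
    have h1227 : (1227 : ℕ) = 409 * 3 := by norm_num
    rw [h1227] at hdvd
    have h1 := Nat.Coprime.dvd_of_dvd_mul_left
      ((Nat.Prime.coprime_iff_not_dvd (by norm_num : Nat.Prime 409)).mpr hnd).symm hdvd
    exact Nat.le_of_dvd (by norm_num) h1
  rw [n409] at hk2
  have hk3 : k ≤ 3 := by omega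
  have hCle : Nat.card (Subgroup.centralizer ({(x : G)} : Set G)) ≤ 9 := by
    rw [hk1]
    nlinarith
  have hidx := index_centralizer_le_card_orderOf (x : G)
  rw [hx3] at hidx
  have hmul := (Subgroup.centralizer ({(x : G)} : Set G)).card_mul_index
  rw [h] at hmul
  nlinarith

/-- No finite simple group has order 1004913 = 3^3 * 7 * 13 * 409. -/
theorem result {G : Type*} [Group G] [Finite G] [IsSimpleGroup G] : Nat.card G ≠ 1004913 := by
  intro h
  exact aux h

end Cfsg.Agent.S1002
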