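import Cfsg.Statements.S1005
import Cfsg.Agent.Lib.Helper23.G168d

set_option autoImplicit false
open Cfsg

namespace Cfsg.Agent.S1005

/-- In a simple group of order 168 every element has order 1, 2, 3, 4 or 7; there are exactly 21 elements of order 2, and any two of them are conjugate. -/
theorem result {G : Type*} [Group G] [Finite G] [IsSimpleGroup G] (h : Nat.card G = 168) : (∀ g : G, orderOf g = 1 ∨ orderOf g = 2 ∨ orderOf g = 3 ∨ orderOf g = 4 ∨ orderOf g = 7) ∧ Nat.card {g : G // orderOf g = 2} = 21 ∧ ∀ s t : G, orderOf s = 2 → orderOf t = 2 → IsConj s t := by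
  refine ⟨?_, (Cfsg.Agent.Lib.Helper23.g168_card_orderOf_two_four h).1,
    fun s t hs ht => Cfsg.Agent.Lib.Helper23.g168_isConj_two h s t hs ht⟩
  intro g
  rcases Cfsg.Agent.Lib.Helper23.g168_orderOf h g with h7 | h3 | h8
  · exact Or.inr (Or.inr (Or.inr (Or.inr h7)))
  · exact Or.inr (Or.inr (Or.inl h3))
  · by_cases hg1 : g = 1
    · left
      rw [hg1, orderOf_one]
    · rcases Cfsg.Agent.Lib.Helper23.g168_orderOf_two_or_four h g h8 hg1 with h2 | h4
      · exact Or.inr (Or.inl h2)
      · exact Or.inr (Or.inr (Or.inr (Or.inl h4)))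

end Cfsg.Agent.S1005
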