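import Cfsg.Statements.S1008
import Mathlib
import Cfsg.Agent.Lib.Helper78.K168c

set_option autoImplicit false
open Cfsg
set_option linter.style.haveILetI false

namespace Cfsg.Agent.S1008

open Cfsg.Agent.Lib.Helper78.K168 in
/-- In a simple group of order 168 every maximal subgroup is either isomorphic to the symmetric group of degree 4 or non-abelian of order 21; the maximal subgroups of order 21 form one conjugacy class and those isomorphic to the symmetric group of degree 4 form exactly two conjugacy classes. -/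
theorem result {G : Type*} [Group G] [Finite G] [IsSimpleGroup G] (h : Nat.card G = 168) : (∀ M : Subgroup G, IsCoatom M → Nonempty (↥M ≃* Equiv.Perm (Fin 4)) ∨ (Nat.card ↥M = 21 ∧ ¬ IsMulCommutative ↥M)) ∧ (∀ M M' : Subgroup G, IsCoatom M → IsCoatom M' → Nat.card ↥M = 21 → Nat.card ↥M' = 21 → ∃ g : G, M' = M.map (MulAut.conj g).toMonoidHom) ∧ ∃ M₁ M₂ : Subgroup G, IsCoatom M₁ ∧ IsCoatom M₂ ∧ Nonempty (↥M₁ ≃* Equiv.Perm (Fin 4)) ∧ Nonempty (↥M₂ ≃* Equiv.Perm (Fin 4)) ∧ (∀ g : G, M₂ ≠ M₁.map (MulAut.conj g).toMonoidHom) ∧ ∀ M : Subgroup G, IsCoatom M → Nonempty (↥M ≃* Equiv.Perm (Fin 4)) → ∃ g : G, M = M₁.map (MulAut.conj g).toMonoidHom ∨ M = M₂.map (MulAut.conj g).toMonoidHom := by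
  have : Fact (Nat.Prime 2) := ⟨by norm_num⟩
  refine ⟨?_, ?_, ?_⟩
  · intro M hM
    rcases coatom_card h M hM with h21 | h24
    · right; exact ⟨h21, not_comm_of_card_twentyone h M h21⟩
    · left; exact iso_s4_of_card h M h24
  · intro M M' _ _ hc hc'
    exact conj_of_card_twentyone h M M' hc hc'
  · obtain ⟨T⟩ : Nonempty (Sylow 2 G) := inferInstance
    obtain ⟨U₁, U₂, h1, h2, k1, k2, hne, hall⟩ := exists_klein_pair h T
    refine ⟨Subgroup.normalizer (U₁ : Set G), Subgroup.normalizer (U₂ : Set G),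
      coatom_normalizer_klein h U₁, coatom_normalizer_klein h U₂,
      normalizer_klein_iso h U₁, normalizer_klein_iso h U₂, ?_, ?_⟩
    · intro g heq
      rw [map_conj_normalizer] at heq
      haveI := isKleinFour_map_conj U₁ g
      have e := klein_eq_of_normalizer_eq h U₂ (U₁.map (MulAut.conj g).toMonoidHom) heq
      exact hne (klein_not_conj h T U₁ U₂ h1 h2 g e.symm)
    · rintro M hM ⟨e⟩
      have hc : Nat.card M = 24 := by
        rw [Nat.card_congr e.toEquiv, Nat.card_perm, Nat.card_fin]; rfl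
      obtain ⟨K, hK, hMK⟩ := exists_klein_of_card h M hc
      have hKp : IsPGroup 2 K :=
        IsPGroup.of_card (n := 2) (by rw [IsKleinFour.card_four (G := K)]; norm_num)
      obtain ⟨T', hKT'⟩ := hKp.exists_le_sylow
      obtain ⟨g, hg⟩ := MulAction.exists_smul_eq G T T'
      have hK'T : K.map (MulAut.conj g⁻¹).toMonoidHom ≤ (T : Subgroup G) := by
        intro x hx
        rw [mem_map_conj] at hx
        have h3 := hKT' hx
        rw [← hg, Sylow.coe_subgroup_smul, Subgroup.mem_pointwise_smul_iff_inv_smul_mem] at h3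
        simpa [MulAut.smul_def, mul_assoc] using h3
      haveI := isKleinFour_map_conj K g⁻¹
      refine ⟨g, ?_⟩
      rcases hall _ hK'T inferInstance with e1 | e1
      · left
        rw [hMK, ← map_conj_inv_map K g, e1, map_conj_normalizer]
      · right
        rw [hMK, ← map_conj_inv_map K g, e1, map_conj_normalizer]

end Cfsg.Agent.S1008
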