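import Cfsg.Statements.S1009
import Cfsg.Agent.Lib.Helper23.Brodkey

set_option autoImplicit false
open Cfsg

namespace Cfsg.Agent.S1009

/-- Brodkey's Theorem: if a finite group has abelian Sylow p-subgroups, then there are two Sylow p-subgroups whose intersection equals the intersection of all Sylow p-subgroups. -/
theorem result {G : Type*} [Group G] [Finite G] (p : ℕ) [Fact p.Prime] (hab : ∀ P : Sylow p G, IsMulCommutative ↥(P : Subgroup G)) : ∃ P Q : Sylow p G, (P : Subgroup G) ⊓ (Q : Subgroup G) = ⨅ R : Sylow p G, (R : Subgroup G) := by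
  exact Cfsg.Agent.Lib.Helper23.brodkey p hab

end Cfsg.Agent.S1009
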