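import Cfsg.Statements.S1014
import Cfsg.Agent.Lib.Helper23.SignArg

set_option autoImplicit false
open Cfsg

namespace Cfsg.Agent.S1014

/-- No finite simple group has order 1104 = 2^4 * 3 * 23. -/
theorem result {G : Type*} [Group G] [Finite G] [IsSimpleGroup G] : Nat.card G ≠ 1104 := by
  intro h
  have hG : ¬ IsMulCommutative G :=
    Cfsg.Agent.Lib.Helper23.not_comm_of_simple_of_not_prime (by rw [h]; norm_num)
  have : Fact (Nat.Prime 23) := ⟨by norm_num⟩
  have h1 : Nat.card G = 23 ^ 1 * 48 := h.trans (by norm_num)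
  have hm : ¬ 23 ∣ 48 := by norm_num
  have hmem := Cfsg.Agent.Lib.Helper23.card_sylow_mem_filter h1 hm
  have hne := Cfsg.Agent.Lib.Helper23.simple_sylow_card_ne_one h1 hm (by norm_num) (by norm_num)
  rw [show (Nat.divisors 48).filter (fun d => d % 23 = 1) = {1, 24} from by decide +kernel] at hmem
  simp only [Finset.mem_insert, Finset.mem_singleton] at hmem
  rcases hmem with h2 | h2
  · exact hne h2
  · obtain ⟨P⟩ : Nonempty (Sylow 23 G) := inferInstance
    have hPc : Nat.card (P : Subgroup G) = 23 := by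
      have := Cfsg.Agent.Lib.Helper23.sylow_card_of_eq h1 hm P
      simpa using this
    have hrel := Cfsg.Agent.Lib.Helper23.relIndex_sylow_normalizer_mul h1 hm P
    rw [h2] at hrel
    have hrel2 : (P : Subgroup G).relIndex (Subgroup.normalizer ((P : Subgroup G) : Set G)) = 2 := by
      omega
    have hC := Cfsg.Agent.Lib.Helper23.simple_centralizer_sylow_eq hG P hPc
      (by rw [hrel2]; exact Nat.prime_two)
    have hNcard := Cfsg.Agent.Lib.Helper23.card_normalizer_sylow_mul P
    rw [h2, h] at hNcard
    have : Fact (Nat.Prime 2) := ⟨Nat.prime_two⟩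
    obtain ⟨t, ht⟩ := exists_prime_orderOf_dvd_card'
      (G := ↥(Subgroup.normalizer ((P : Subgroup G) : Set G))) 2 (by omega)
    have ht2 : orderOf (t : G) = 2 := by rw [Subgroup.orderOf_coe]; exact ht
    have htC := Cfsg.Agent.Lib.Helper23.simple_involution_normalizer_centralizes hG P hPc
      (by rw [h2]) (by norm_num) (t : G) t.2 ht2
    rw [hC] at htC
    have h3 : orderOf (⟨(t : G), htC⟩ : (P : Subgroup G)) = 2 := by
      rw [← Subgroup.orderOf_coe]
      exact ht2
    have h4 := orderOf_dvd_natCard (⟨(t : G), htC⟩ : (P : Subgroup G))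
    rw [h3, hPc] at h4
    omega

end Cfsg.Agent.S1014
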