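import Cfsg.Statements.S1015
import Cfsg.Agent.Lib.Helper23.Syl2
import Cfsg.Agent.Lib.Helper23.SylInter

set_option autoImplicit false
open Cfsg

namespace Cfsg.Agent.S1015

/-- No finite simple group has order 1200 = 2^4 * 3 * 5^2. -/
theorem result {G : Type*} [Group G] [Finite G] [IsSimpleGroup G] : Nat.card G ≠ 1200 := by
  intro h
  have hG : ¬ IsMulCommutative G :=
    Cfsg.Agent.Lib.Helper23.not_comm_of_simple_of_not_prime (by rw [h]; norm_num)
  have : Fact (Nat.Prime 5) := ⟨by norm_num⟩
  have h1 : Nat.card G = 5 ^ 2 * 48 := h.trans (by norm_num)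
  have hm : ¬ 5 ∣ 48 := by norm_num
  have hmem := Cfsg.Agent.Lib.Helper23.card_sylow_mem_filter h1 hm
  have hne := Cfsg.Agent.Lib.Helper23.simple_sylow_card_ne_one h1 hm (by norm_num) (by norm_num)
  rw [show (Nat.divisors 48).filter (fun d => d % 5 = 1) = {1, 6, 16} from by decide +kernel] at hmem
  simp only [Finset.mem_insert, Finset.mem_singleton] at hmem
  have hidx : ∀ H : Subgroup G, H ≠ ⊤ → 10 ≤ H.index := by
    intro H hH
    have h2 := Cfsg.Agent.Lib.Helper23.simple_two_mul_card_dvd_factorial hG H hH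
    rw [h] at h2
    by_contra hlt
    push Not at hlt
    interval_cases H.index <;> revert h2 <;> decide
  rcases hmem with h2 | h2 | h2
  · exact hne h2
  · obtain ⟨P⟩ : Nonempty (Sylow 5 G) := inferInstance
    have h3 : Nat.card (Sylow 5 G) = (Subgroup.normalizer ((P : Subgroup G) : Set G)).index :=
      Sylow.card_eq_index_normalizer P
    have h4 := hidx (Subgroup.normalizer ((P : Subgroup G) : Set G)) (by
      intro htop
      rw [htop, Subgroup.index_top] at h3
      omega)
    omega
  · have hmod : ¬ Nat.card (Sylow 5 G) ≡ 1 [MOD 5 ^ 2] := by rw [h2]; decide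
    obtain ⟨P⟩ : Nonempty (Sylow 5 G) := inferInstance
    obtain ⟨R, hPR, hle⟩ := Cfsg.Agent.Lib.Helper23.exists_sylow_pair_large_inter 5 2 hmod P
    have hPc : Nat.card (P : Subgroup G) = 5 ^ 2 := Cfsg.Agent.Lib.Helper23.sylow_card_of_eq h1 hm P
    have hRc : Nat.card (R : Subgroup G) = 5 ^ 2 := Cfsg.Agent.Lib.Helper23.sylow_card_of_eq h1 hm R
    have hD := Cfsg.Agent.Lib.Helper23.card_inf_mul_index_subgroupOf (P : Subgroup G) (R : Subgroup G)
    generalize hDdef : ((P : Subgroup G) ⊓ (R : Subgroup G) : Subgroup G) = D at hD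
    have hDP : D ≤ (P : Subgroup G) := hDdef ▸ inf_le_left
    have hDR : D ≤ (R : Subgroup G) := hDdef ▸ inf_le_right
    have hDcard : 5 ≤ Nat.card D := by
      rw [hPc] at hD
      norm_num at hle
      nlinarith
    have hDbot : D ≠ ⊥ := by
      intro hb
      rw [hb, Subgroup.card_bot] at hDcard
      omega
    have hDtop : D ≠ ⊤ := by
      intro ht
      have h3 : Nat.card D ≤ Nat.card (P : Subgroup G) := Subgroup.card_le_of_le hDP
      rw [ht, Subgroup.card_top, h, hPc] at h3
      omega
    have hNtop := Cfsg.Agent.Lib.Helper23.simple_normalizer_ne_top D hDbot hDtop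
    have : IsMulCommutative (P : Subgroup G) := IsPGroup.isMulCommutative_of_card_eq_prime_sq hPc
    have : IsMulCommutative (R : Subgroup G) := IsPGroup.isMulCommutative_of_card_eq_prime_sq hRc
    have hPN : (P : Subgroup G) ≤ Subgroup.normalizer (D : Set G) :=
      Cfsg.Agent.Lib.Helper23.le_normalizer_of_le_of_comm hDP
    have hRN : (R : Subgroup G) ≤ Subgroup.normalizer (D : Set G) :=
      Cfsg.Agent.Lib.Helper23.le_normalizer_of_le_of_comm hDR
    obtain ⟨j, hj1, hj2, hj3, hj4⟩ := Cfsg.Agent.Lib.Helper23.card_sylow_subgroup_facts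
      (Subgroup.normalizer (D : Set G)) P R hPN hRN hPR
    have h5 := hidx _ hNtop
    have h6 := Subgroup.card_mul_index (Subgroup.normalizer (D : Set G))
    rw [hj1, hPc, h] at h6
    have hjpos : 0 < j := by
      rcases Nat.eq_zero_or_pos j with h0 | h0
      · rw [h0] at h6
        omega
      · exact h0
    have h7 := Nat.le_of_dvd hjpos hj2
    have h8 : 6 ≤ Nat.card (Sylow 5 ↥(Subgroup.normalizer (D : Set G))) := by omega
    nlinarith

end Cfsg.Agent.S1015
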