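import Cfsg.Statements.S1018
import Mathlib

set_option autoImplicit false
open Cfsg

namespace Cfsg.Agent.S1018

theorem fixed_iff {G : Type*} [Group G] (N : Subgroup G) (x g : G) :
    ((g : G ⧸ N) ∈ MulAction.fixedBy (G ⧸ N) x) ↔ g⁻¹ * x * g ∈ N := by
  rw [MulAction.mem_fixedBy]
  show ((x * g : G) : G ⧸ N) = (g : G ⧸ N) ↔ _
  rw [eq_comm, QuotientGroup.eq, mul_assoc]

theorem gen_of_ne_one {G : Type*} [Group G] [Finite G] {p : ℕ} [hp : Fact p.Prime]
    {P : Subgroup G} (hP : Nat.card ↥P = p) {c : G} (hc : c ∈ P) (hc1 : c ≠ 1) :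
    P = Subgroup.zpowers c := by
  have hle : Subgroup.zpowers c ≤ P := Subgroup.zpowers_le.mpr hc
  have hdvd : Nat.card ↥(Subgroup.zpowers c) ∣ p := hP ▸ Subgroup.card_dvd_of_le hle
  rcases (Nat.dvd_prime hp.out).mp hdvd with h | h
  · exfalso
    apply hc1
    have := Subgroup.eq_bot_of_card_eq _ h
    exact Subgroup.zpowers_eq_bot.mp this
  · exact (Subgroup.eq_of_le_of_card_ge hle (by rw [h, hP])).symm

theorem conj_zpow' {G : Type*} [Group G] (n v : G) (k : ℤ) :
    n * v ^ k * n⁻¹ = (n * v * n⁻¹) ^ k := by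
  have := map_zpow (MulAut.conj n) v k
  simpa [MulAut.conj_apply] using this

/-- Let P be a Sylow p-subgroup of order p of a finite group G, and consider the action of G on the left cosets of the normalizer N of P. Then every element of order p fixes exactly one coset, and an element of N that does not centralize P fixes at most as many cosets as there are orbits of P. -/
theorem result {G : Type*} [Group G] [Finite G] (p : ℕ) [Fact p.Prime] (P : Sylow p G) (hP : Nat.card ↥(P : Subgroup G) = p) : (∀ y : G, orderOf y = p → Nat.card (MulAction.fixedBy (G ⧸ Subgroup.normalizer ((P : Subgroup G) : Set G)) y) = 1) ∧ ∀ x : G, x ∈ Subgroup.normalizer ((P : Subgroup G) : Set G) → x ∉ Subgroup.centralizer ((P : Subgroup G) : Set G) → Nat.card (MulAction.fixedBy (G ⧸ Subgroup.normalizer ((P : Subgroup G) : Set G)) x) ≤ Nat.card (MulAction.orbitRel.Quotient ↥(P : Subgroup G) (G ⧸ Subgroup.normalizer ((P : Subgroup G) : Set G))) := by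
  classical
  have hpp : p.Prime := Fact.out
  have hPN : (P : Subgroup G) ≤ Subgroup.normalizer ((P : Subgroup G) : Set G) :=
    Subgroup.le_normalizer
  refine ⟨?_, ?_⟩
  · intro y hy
    have hy1 : y ≠ 1 := by
      intro h
      rw [h, orderOf_one] at hy
      exact hpp.one_lt.ne hy
    -- y lies in a conjugate of P
    have hyP : IsPGroup p ↥(Subgroup.zpowers y) := by
      apply IsPGroup.of_card (n := 1)
      rw [Nat.card_zpowers, hy, pow_one]
    obtain ⟨Q, hQ⟩ := hyP.exists_le_sylow
    obtain ⟨g, hg⟩ := MulAction.exists_smul_eq G P Q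
    have hyg : g⁻¹ * y * g ∈ (P : Subgroup G) := by
      have h1 : y ∈ (Q : Subgroup G) := hQ (Subgroup.mem_zpowers y)
      rw [← hg, Sylow.coe_subgroup_smul, Subgroup.mem_pointwise_smul_iff_inv_smul_mem] at h1
      simpa [MulAut.smul_def, MulAut.conj_apply] using h1
    -- characterisation of fixed cosets
    have hkey : ∀ h : G, g⁻¹ * y * g ∈ (P : Subgroup G) → h⁻¹ * y * h ∈
        Subgroup.normalizer ((P : Subgroup G) : Set G) →
        (h : G ⧸ Subgroup.normalizer ((P : Subgroup G) : Set G)) = (g : G ⧸ _) := by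
      intro h _ hh
      -- w = h⁻¹ y h lies in P
      have hw : h⁻¹ * y * h ∈ (P : Subgroup G) := by
        have hwP : IsPGroup p ↥(Subgroup.zpowers (h⁻¹ * y * h)) := by
          apply IsPGroup.of_card (n := 1)
          rw [Nat.card_zpowers, pow_one]
          have : h⁻¹ * y * h = MulAut.conj h⁻¹ y := by simp [MulAut.conj_apply]
          rw [this, MulEquiv.orderOf_eq, hy]
        have hsup := IsPGroup.to_sup_of_normal_left' P.isPGroup' hwP
          (Subgroup.zpowers_le.mpr hh)
        have := P.is_maximal' hsup le_sup_left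
        rw [← this]
        exact Subgroup.mem_sup_right (Subgroup.mem_zpowers _)
      have hw1 : h⁻¹ * y * h ≠ 1 := by
        intro h1
        apply hy1
        calc y = h * (h⁻¹ * y * h) * h⁻¹ := by group
          _ = 1 := by rw [h1]; group
      have hv1 : g⁻¹ * y * g ≠ 1 := by
        intro h1
        apply hy1
        calc y = g * (g⁻¹ * y * g) * g⁻¹ := by group
          _ = 1 := by rw [h1]; group
      have hPv := gen_of_ne_one hP hyg hv1
      have hPw := gen_of_ne_one hP hw hw1
      rw [QuotientGroup.eq, Subgroup.mem_normalizer_iff]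
      have hconj : (h⁻¹ * g) * (g⁻¹ * y * g) * (h⁻¹ * g)⁻¹ = h⁻¹ * y * h := by group
      intro a
      constructor
      · intro ha
        rw [hPv] at ha
        obtain ⟨k, rfl⟩ := Subgroup.mem_zpowers_iff.mp ha
        rw [conj_zpow', hconj, hPw]
        exact Subgroup.zpow_mem_zpowers _ _
      · intro ha
        rw [hPw] at ha
        obtain ⟨k, hk⟩ := Subgroup.mem_zpowers_iff.mp ha
        rw [← hconj, ← conj_zpow'] at hk
        have : a = (g⁻¹ * y * g) ^ k := by
          have h2 : (h⁻¹ * g)⁻¹ * (h⁻¹ * g * (g⁻¹ * y * g) ^ k * (h⁻¹ * g)⁻¹) * (h⁻¹ * g) =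
              (h⁻¹ * g)⁻¹ * (h⁻¹ * g * a * (h⁻¹ * g)⁻¹) * (h⁻¹ * g) := by rw [hk]
          calc a = (h⁻¹ * g)⁻¹ * (h⁻¹ * g * a * (h⁻¹ * g)⁻¹) * (h⁻¹ * g) := by group
            _ = (h⁻¹ * g)⁻¹ * (h⁻¹ * g * (g⁻¹ * y * g) ^ k * (h⁻¹ * g)⁻¹) * (h⁻¹ * g) := h2.symm
            _ = (g⁻¹ * y * g) ^ k := by group
        rw [this, hPv]
        exact Subgroup.zpow_mem_zpowers _ _
    rw [Nat.card_eq_one_iff_unique]
    refine ⟨⟨?_⟩, ⟨⟨(g : G ⧸ _), (fixed_iff _ y g).mpr (hPN hyg)⟩⟩⟩
    rintro ⟨q1, hq1⟩ ⟨q2, hq2⟩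
    apply Subtype.ext
    show q1 = q2
    induction q1 using QuotientGroup.induction_on with
    | H h1 =>
      induction q2 using QuotientGroup.induction_on with
      | H h2 =>
        rw [hkey h1 hyg ((fixed_iff _ y h1).mp hq1), hkey h2 hyg ((fixed_iff _ y h2).mp hq2)]
  · intro x hxN hxC
    apply Nat.card_le_card_of_injective
      (fun q : MulAction.fixedBy (G ⧸ Subgroup.normalizer ((P : Subgroup G) : Set G)) x =>
        (Quotient.mk'' q.1 : MulAction.orbitRel.Quotient ↥(P : Subgroup G)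
          (G ⧸ Subgroup.normalizer ((P : Subgroup G) : Set G))))
    rintro ⟨q1, hq1⟩ ⟨q2, hq2⟩ hq
    apply Subtype.ext
    show q1 = q2
    have hrel : MulAction.orbitRel ↥(P : Subgroup G) _ q1 q2 := Quotient.eq''.mp hq
    rw [MulAction.orbitRel_apply] at hrel
    obtain ⟨⟨u, hu⟩, hu2⟩ := hrel
    induction q2 using QuotientGroup.induction_on with
    | H g =>
      have hq1' : q1 = ((u * g : G) : G ⧸ Subgroup.normalizer ((P : Subgroup G) : Set G)) :=
        hu2.symm
      subst hq1'
      have h1 := (fixed_iff _ x g).mp hq2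
      have h2 := (fixed_iff _ x (u * g)).mp hq1
      by_cases hu1 : u = 1
      · rw [hu1, one_mul]
      -- c = x⁻¹ u⁻¹ x u
      have hc : x⁻¹ * u⁻¹ * x * u ∈ (P : Subgroup G) := by
        have h3 : x⁻¹ * u⁻¹ * x ∈ (P : Subgroup G) := by
          have := (Subgroup.mem_normalizer_iff''.mp hxN u⁻¹).mp (inv_mem hu)
          exact this
        exact mul_mem h3 hu
      have hcN : g⁻¹ * (x⁻¹ * u⁻¹ * x * u) * g ∈
          Subgroup.normalizer ((P : Subgroup G) : Set G) := by
        have : g⁻¹ * (x⁻¹ * u⁻¹ * x * u) * g = (g⁻¹ * x * g)⁻¹ * ((u * g)⁻¹ * x * (u * g)) := by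
          group
        rw [this]
        exact mul_mem (inv_mem h1) h2
      have hc1 : x⁻¹ * u⁻¹ * x * u ≠ 1 := by
        intro hc1
        apply hxC
        have hPu := gen_of_ne_one hP hu hu1
        have hxu : x * u = u * x := by
          calc x * u = u * x * (x⁻¹ * u⁻¹ * x * u) := by group
            _ = u * x := by rw [hc1, mul_one]
        rw [Subgroup.mem_centralizer_iff]
        intro a ha
        have ha' : a ∈ (P : Subgroup G) := ha
        rw [hPu] at ha'
        obtain ⟨k, rfl⟩ := Subgroup.mem_zpowers_iff.mp ha'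
        exact ((Commute.zpow_left (show Commute u x from hxu.symm) k)).eq
      have hPc := gen_of_ne_one hP hc hc1
      have hu' : u ∈ (P : Subgroup G) := hu
      rw [hPc] at hu'
      obtain ⟨k, hk⟩ := Subgroup.mem_zpowers_iff.mp hu'
      have hguN : g⁻¹ * u * g ∈ Subgroup.normalizer ((P : Subgroup G) : Set G) := by
        rw [← hk]
        have := conj_zpow' g⁻¹ (x⁻¹ * u⁻¹ * x * u) k
        rw [inv_inv] at this
        rw [this]
        exact zpow_mem hcN k
      rw [QuotientGroup.eq]
      have : (u * g)⁻¹ * g = (g⁻¹ * u * g)⁻¹ := by group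
      rw [this]
      exact inv_mem hguN

end Cfsg.Agent.S1018
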