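import Cfsg.Statements.S1019
import Mathlib

set_option autoImplicit false
open Cfsg

namespace Cfsg.Agent.S1019

theorem card_preimage {α β : Type*} [Finite α] [Finite β] (f : α → β) (T : Set β) (k : ℕ)
    (h : ∀ t ∈ T, Nat.card {a // f a = t} = k) :
    Nat.card {a // f a ∈ T} = Nat.card T * k := by
  classical
  have e : {a // f a ∈ T} ≃ Σ t : T, {a // f a = (t : β)} :=
    { toFun := fun a => ⟨⟨f a.1, a.2⟩, ⟨a.1, rfl⟩⟩
      invFun := fun s => ⟨s.2.1, by rw [s.2.2]; exact s.1.2⟩
      left_inv := fun a => rfl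
      right_inv := by
        rintro ⟨⟨t, ht⟩, ⟨a, ha⟩⟩
        dsimp only at ha
        subst ha
        rfl }
  have : Fintype T := Fintype.ofFinite T
  rw [Nat.card_congr e, Nat.card_sigma]
  rw [Finset.sum_congr rfl (fun t _ => h t.1 t.2)]
  rw [Finset.sum_const, Finset.card_univ, smul_eq_mul, Nat.card_eq_fintype_card]

theorem fiber_card {G : Type*} [Group G] [Finite G] (x g₁ : G) :
    Nat.card {g : G // g⁻¹ * x * g = g₁⁻¹ * x * g₁} =
      Nat.card ↥(Subgroup.centralizer ({x} : Set G)) := by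
  apply Nat.card_congr
  refine
    { toFun := fun g => ⟨g.1 * g₁⁻¹, ?_⟩
      invFun := fun z => ⟨z.1 * g₁, ?_⟩
      left_inv := fun g => by apply Subtype.ext; simp
      right_inv := fun z => by apply Subtype.ext; simp }
  · rw [Subgroup.mem_centralizer_singleton_iff]
    have h := g.2
    calc g.1 * g₁⁻¹ * x = g.1 * (g₁⁻¹ * x * g₁) * g₁⁻¹ := by group
      _ = g.1 * (g.1⁻¹ * x * g.1) * g₁⁻¹ := by rw [h]
      _ = x * (g.1 * g₁⁻¹) := by group
  · have h := Subgroup.mem_centralizer_singleton_iff.mp z.2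
    calc (z.1 * g₁)⁻¹ * x * (z.1 * g₁) = g₁⁻¹ * z.1⁻¹ * (x * z.1) * g₁ := by group
      _ = g₁⁻¹ * z.1⁻¹ * (z.1 * x) * g₁ := by rw [h]
      _ = g₁⁻¹ * x * g₁ := by group

theorem fiber_card' {G : Type*} [Group G] [Finite G] (x c : G) (hc : IsConj x c) :
    Nat.card {g : G // g⁻¹ * x * g = c} =
      Nat.card ↥(Subgroup.centralizer ({x} : Set G)) := by
  obtain ⟨g₀, hg₀⟩ := isConj_iff.mp hc
  have : c = (g₀⁻¹)⁻¹ * x * g₀⁻¹ := by rw [inv_inv]; exact hg₀.symm
  rw [this]
  exact fiber_card x g₀⁻¹

/-- Let H be a subgroup of a finite group G and x an element of H. In the action of G on the left cosets of H, the number of cosets fixed by x, multiplied by the size of the conjugacy class of x, equals the index of H multiplied by the number of conjugates of x that lie in H. -/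
theorem result {G : Type*} [Group G] [Finite G] (H : Subgroup G) (x : G) (hx : x ∈ H) : Nat.card (MulAction.fixedBy (G ⧸ H) x) * Nat.card {g : G // IsConj x g} = H.index * Nat.card {g : G // IsConj x g ∧ g ∈ H} := by
  classical
  have hconj : ∀ g : G, IsConj x (g⁻¹ * x * g) := by
    intro g
    rw [isConj_iff]
    exact ⟨g⁻¹, by simp⟩
  -- class size times centralizer
  have h1 : Nat.card G = Nat.card {g : G // IsConj x g} *
      Nat.card ↥(Subgroup.centralizer ({x} : Set G)) := by
    have := card_preimage (fun g : G => g⁻¹ * x * g) {c | IsConj x c}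
      (Nat.card ↥(Subgroup.centralizer ({x} : Set G))) (fun t ht => fiber_card' x t ht)
    refine Eq.trans ?_ this
    exact (Nat.card_congr (Equiv.subtypeUnivEquiv (fun g => hconj g))).symm
  -- S
  have h2 : Nat.card {g : G // g⁻¹ * x * g ∈ H} = Nat.card {g : G // IsConj x g ∧ g ∈ H} *
      Nat.card ↥(Subgroup.centralizer ({x} : Set G)) := by
    have := card_preimage (fun g : G => g⁻¹ * x * g) {c | IsConj x c ∧ c ∈ H}
      (Nat.card ↥(Subgroup.centralizer ({x} : Set G))) (fun t ht => fiber_card' x t ht.1)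
    refine Eq.trans ?_ this
    apply Nat.card_congr
    exact Equiv.subtypeEquivRight (fun g => ⟨fun h => ⟨hconj g, h⟩, fun h => h.2⟩)
  have h3 : Nat.card {g : G // g⁻¹ * x * g ∈ H} =
      Nat.card ↥H * Nat.card (MulAction.fixedBy (G ⧸ H) x) := by
    have e := QuotientGroup.preimageMkEquivSubgroupProdSet H (MulAction.fixedBy (G ⧸ H) x)
    rw [← Nat.card_prod, ← Nat.card_congr e]
    apply Nat.card_congr
    apply Equiv.subtypeEquivRight
    intro g
    rw [Set.mem_preimage, MulAction.mem_fixedBy]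
    show _ ↔ ((x * g : G) : G ⧸ H) = (g : G ⧸ H)
    rw [eq_comm, QuotientGroup.eq, mul_assoc]
  have h4 : Nat.card G = H.index * Nat.card ↥H := by
    rw [mul_comm]; exact (Subgroup.card_mul_index H).symm
  have hHpos : 0 < Nat.card ↥H := Nat.card_pos
  have hCpos : 0 < Nat.card ↥(Subgroup.centralizer ({x} : Set G)) := Nat.card_pos
  have key : Nat.card (MulAction.fixedBy (G ⧸ H) x) * Nat.card {g : G // IsConj x g} *
      (Nat.card ↥H * Nat.card ↥(Subgroup.centralizer ({x} : Set G))) =
      H.index * Nat.card {g : G // IsConj x g ∧ g ∈ H} *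
      (Nat.card ↥H * Nat.card ↥(Subgroup.centralizer ({x} : Set G))) := by
    calc Nat.card (MulAction.fixedBy (G ⧸ H) x) * Nat.card {g : G // IsConj x g} *
        (Nat.card ↥H * Nat.card ↥(Subgroup.centralizer ({x} : Set G)))
        = (Nat.card ↥H * Nat.card (MulAction.fixedBy (G ⧸ H) x)) *
          (Nat.card {g : G // IsConj x g} *
            Nat.card ↥(Subgroup.centralizer ({x} : Set G))) := by ring
      _ = (Nat.card {g : G // IsConj x g ∧ g ∈ H} *
            Nat.card ↥(Subgroup.centralizer ({x} : Set G))) * (H.index * Nat.card ↥H) := by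
          rw [← h3, ← h1, h2, h4]
      _ = _ := by ring
  exact Nat.eq_of_mul_eq_mul_right (Nat.mul_pos hHpos hCpos) key

end Cfsg.Agent.S1019
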