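-- Statement S1022 (row 1022): the theorem Cfsg.not_simple_of_card_459648.
-- Proof: project NS19 of helper74 (Cfsg/Agent/Lib/Helper74/NS19*.lean), with pieces by
-- helper17, helper20, helper34, helper56, helper83.
import Cfsg.Statements.S1022
import Cfsg.Agent.Lib.Helper74.NS19Main

set_option autoImplicit false
open Cfsg

namespace Cfsg.Agent.S1022

/-- No finite simple group has order 459648 = 2^7 * 3^3 * 7 * 19. -/
theorem result {G : Type*} [Group G] [Finite G] [IsSimpleGroup G] : Nat.card G ≠ 459648 := by
  exact Cfsg.Agent.Lib.Helper74.NS19.main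

end Cfsg.Agent.S1022
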