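import Cfsg.Statements.S1033
import Cfsg.Agent.Lib.Helper24.HDiagAll
import Cfsg.Agent.Lib.Helper24.Simple

set_option autoImplicit false
open Cfsg

namespace Cfsg.Agent.S1033

open Cfsg.Agent.Lib.Helper24 in
/-- In a Chevalley group of type G₂, B₂, D₄, F₄, E₆, E₇ or E₈, h_p(c) for a fundamental root p and c ≠ 0 is the diagonal matrix fixing the coroot basis vectors and multiplying the root vector e_s by c^{A_{p,s}}. -/
theorem result {F : Type*} [Field F] (D : Cfsg.Lie.ChevalleyDatum) (hD : D ∈ [Cfsg.Lie.chevG2, Cfsg.Lie.chevB2, Cfsg.Lie.chevD4, Cfsg.Lie.chevF4, Cfsg.Lie.chevE6, Cfsg.Lie.chevE7, Cfsg.Lie.chevE8]) (i : ℕ) (hi : i < D.rank) (c : F) (hc : c ≠ 0) :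
    D.hMat F (D.simple i) c = Matrix.diagonal (Sum.elim (fun _ => (1 : F)) (fun s : Fin D.nroots => c ^ (D.cartan i s))) := by
  have h := hMat_eq_torus (F := F) D hD (D.simple i) (simple_lt D hD i hi) c hc
  rw [h]
  unfold torus
  congr 1
  funext j
  rcases j with v | s
  · rfl
  · show c ^ W D (D.simple i) s.val = c ^ D.cartan i s.val
    rw [W_simple D hD i hi]

end Cfsg.Agent.S1033
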