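import Cfsg.Statements.S1034
import Cfsg.Agent.Lib.Helper24.ChevTorus

set_option autoImplicit false
open Cfsg

namespace Cfsg.Agent.S1034

open Cfsg.Agent.Lib.Helper24 in
/-- Every element of `H` is a product `h_{p_1}(c_1) ⋯ h_{p_l}(c_l)` over the fundamental roots, with non-zero `c_i`. -/
theorem result {F : Type*} [Field F] (D : Cfsg.Lie.ChevalleyDatum) (hD : D ∈ [Cfsg.Lie.chevG2, Cfsg.Lie.chevB2, Cfsg.Lie.chevD4, Cfsg.Lie.chevF4, Cfsg.Lie.chevE6, Cfsg.Lie.chevE7, Cfsg.Lie.chevE8]) (g : GL D.Idx F) (hg : g ∈ D.diagonalSubgroup F) :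
    ∃ c : ℕ → F, (∀ i < D.rank, c i ≠ 0) ∧
      (g : Matrix D.Idx D.Idx F) = D.wordMat F ((List.range D.rank).flatMap fun i => D.hWord (D.simple i) (c i)) := by
  exact diagonal_eq_prod_simple D hD g hg

end Cfsg.Agent.S1034
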