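import Cfsg.Statements.S1043
import Cfsg.Agent.Lib.Helper24.ChevGL
import Cfsg.Agent.S1041
import Cfsg.Agent.S1053

set_option autoImplicit false
open Cfsg

namespace Cfsg.Agent.S1043

open Cfsg.Agent.Lib.Helper24 in
/-- `B ≤ G`, `N ≤ G` and `B ⊔ N = G` for the Chevalley group `G` generated by all root elements. -/
theorem result {F : Type*} [Field F] (D : Cfsg.Lie.ChevalleyDatum) (hD : D ∈ [Cfsg.Lie.chevG2, Cfsg.Lie.chevB2, Cfsg.Lie.chevD4, Cfsg.Lie.chevF4, Cfsg.Lie.chevE6, Cfsg.Lie.chevE7, Cfsg.Lie.chevE8]) :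
    D.borelSubgroup F ≤ D.group F ∧ D.monomialSubgroup F ≤ D.group F ∧ D.borelSubgroup F ⊔ D.monomialSubgroup F = D.group F := by
  have hB : D.borelSubgroup F ≤ D.group F := borelSubgroup_le_group D hD
  have hN : D.monomialSubgroup F ≤ D.group F := monomialSubgroup_le_group D hD
  refine ⟨hB, hN, le_antisymm (sup_le hB hN) ?_⟩
  rw [← Cfsg.Agent.S1041.result (F := F) D hD]
  obtain ⟨n, hn, hconj⟩ := Cfsg.Agent.S1053.result (F := F) D hD
  have hU : D.posUnipotent F ≤ D.borelSubgroup F ⊔ D.monomialSubgroup F :=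
    le_sup_of_le_left (by unfold Cfsg.Lie.ChevalleyDatum.borelSubgroup; exact le_sup_left)
  refine sup_le hU ?_
  rw [← hconj]
  rintro _ ⟨u, hu, rfl⟩
  have hn' : n ∈ D.borelSubgroup F ⊔ D.monomialSubgroup F :=
    (le_sup_right : D.monomialSubgroup F ≤ D.borelSubgroup F ⊔ D.monomialSubgroup F) hn
  simp only [MulEquiv.toMonoidHom_eq_coe, MonoidHom.coe_coe, MulAut.conj_apply]
  exact Subgroup.mul_mem _ (Subgroup.mul_mem _ hn' (hU hu)) (Subgroup.inv_mem _ hn')

end Cfsg.Agent.S1043
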