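import Cfsg.Statements.S1049
import Cfsg.Agent.Lib.Helper25.ChevLeviN
import Cfsg.Agent.S1025

set_option autoImplicit false
open Cfsg

namespace Cfsg.Agent.S1049

/-- `N_G(U_J) = P_J`: the normaliser of `U_J` inside the Chevalley group is the standard parabolic subgroup. -/
theorem result {F : Type*} [Field F] (D : Cfsg.Lie.ChevalleyDatum) (hD : D ∈ [Cfsg.Lie.chevG2, Cfsg.Lie.chevB2, Cfsg.Lie.chevD4, Cfsg.Lie.chevF4, Cfsg.Lie.chevE6, Cfsg.Lie.chevE7, Cfsg.Lie.chevE8]) (J : Set ℕ) (hJ : ∀ j ∈ J, j < D.rank) :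
    Subgroup.normalizer (D.unipotentRadical F J : Set (GL D.Idx F)) ⊓ D.group F = D.parabolicSubgroup F J := by
  have HC : Cfsg.Agent.Lib.Helper25.CommHyp F D := fun r s hr hs hrs hneg t u =>
    Cfsg.Agent.S1025.result D hD r s hr hs hrs hneg t u
  exact Cfsg.Agent.Lib.Helper25.normalizer_radical D hD HC J

end Cfsg.Agent.S1049
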