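import Cfsg.Statements.S1059
import Cfsg.Agent.Lib.Helper25.ChevOrderData
import Cfsg.Agent.S1035

set_option autoImplicit false
open Cfsg

namespace Cfsg.Agent.S1059

/-- `|G₂(q)| = q⁶ (q² - 1)(q⁶ - 1)`. -/
theorem result {F : Type*} [Field F] [Fintype F] {q : ℕ} (hq : Fintype.card F = q) : Nat.card ↥(Cfsg.Lie.chevG2.group F) = q ^ 6 * (q ^ 2 - 1) * (q ^ 6 - 1) := by
  subst hq
  have hH : 1 * Nat.card ↥(Cfsg.Lie.chevG2.diagonalSubgroup F) =
      (Nat.card F - 1) ^ Cfsg.Lie.chevG2.rank := by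
    rw [Nat.card_eq_fintype_card (α := F)]
    exact Cfsg.Agent.S1035.result rfl (Cfsg.Lie.chevG2, 1) (by simp)
  have h := Cfsg.Agent.Lib.Helper25.order_G2 (F := F) (1) hH
  rw [Nat.card_eq_fintype_card (α := F)] at h
  have h' : 1 * Nat.card ↥(Cfsg.Lie.chevG2.group F) =
      Fintype.card F ^ 6 * ((Fintype.card F ^ 2 - 1) * ((Fintype.card F ^ 6 - 1) * 1)) := h
  rw [one_mul] at h'
  rw [h']
  ring

end Cfsg.Agent.S1059
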