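import Cfsg.Statements.S1060
import Mathlib
import Cfsg.Agent.Lib.Helper99.B2Iso
import Cfsg.Agent.S0245
import Cfsg.Agent.S0246

set_option autoImplicit false
open Cfsg

namespace Cfsg.Agent.S1060

/-- `gcd(2, q-1) · |B₂(q)| = q⁴ (q² - 1)(q⁴ - 1)`. -/
theorem result {F : Type*} [Field F] [Fintype F] {q : ℕ} (hq : Fintype.card F = q) : Nat.gcd 2 (q - 1) * Nat.card ↥(Cfsg.Lie.chevB2.group F) = q ^ 4 * (q ^ 2 - 1) * (q ^ 4 - 1) := by
  obtain ⟨e⟩ := Cfsg.Agent.Lib.Helper99.B2.chevB2_equiv_psp (F := F)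
  have h1 : Nat.card ↥(Cfsg.Lie.chevB2.group F) = Nat.card (Cfsg.PSp 2 F) := Nat.card_congr e.toEquiv
  have h2 := Subgroup.card_eq_card_quotient_mul_card_subgroup
    (Subgroup.center (Matrix.symplecticGroup (Fin 2) F))
  have h3 := Cfsg.Agent.S0245.result hq 2
  have h4 := Cfsg.Agent.S0246.result hq 2 (by norm_num)
  have h5 : ∏ i ∈ Finset.range 2, (q ^ (2 * (i + 1)) - 1) = (q ^ 2 - 1) * (q ^ 4 - 1) := by
    simp [Finset.prod_range_succ]
  rw [h3, h4, h5] at h2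
  rw [h1, mul_comm]
  have h6 : Nat.card (Cfsg.PSp 2 F) = Nat.card (Matrix.symplecticGroup (Fin 2) F ⧸
      Subgroup.center (Matrix.symplecticGroup (Fin 2) F)) := rfl
  rw [h6, ← h2]
  ring

end Cfsg.Agent.S1060
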