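import Cfsg.Statements.S1061
import Mathlib
import Cfsg.Agent.S0293
import Cfsg.Agent.Lib.Helper99.D4Final

set_option autoImplicit false
open Cfsg

namespace Cfsg.Agent.S1061

/-- `gcd(2, q-1)² · |D₄(q)| = q¹² (q² - 1)(q⁴ - 1)(q⁴ - 1)(q⁶ - 1)`. -/
theorem result {F : Type*} [Field F] [Fintype F] {q : ℕ} (hq : Fintype.card F = q) : Nat.gcd 2 (q - 1) ^ 2 * Nat.card ↥(Cfsg.Lie.chevD4.group F) = q ^ 12 * (q ^ 2 - 1) * (q ^ 4 - 1) * (q ^ 4 - 1) * (q ^ 6 - 1) := by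
  obtain ⟨e⟩ := Cfsg.Agent.Lib.Helper99.D4.chevD4_equiv_pomega (F := F)
  have h1 := Cfsg.Agent.S0293.result hq 4 (le_refl 4)
  rw [Nat.card_congr e.toEquiv]
  have hq1 : 1 ≤ q := by
    rw [← hq]
    exact Fintype.card_pos
  have hq4 : 1 ≤ q ^ 4 := Nat.one_le_pow _ _ hq1
  have hmod : q ^ 4 % 4 = (q % 4) ^ 4 % 4 := Nat.pow_mod q 4 4
  have hlt : q % 4 < 4 := Nat.mod_lt _ (by norm_num)
  have hg : Nat.gcd 4 (q ^ 4 - 1) = Nat.gcd 2 (q - 1) ^ 2 := by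
    rw [Nat.gcd_rec 4 (q ^ 4 - 1), Nat.gcd_rec 2 (q - 1)]
    have h2 : (q % 4 = 0 ∨ q % 4 = 2) ∨ (q % 4 = 1 ∨ q % 4 = 3) := by omega
    rcases h2 with h2 | h2
    · have h3 : q ^ 4 % 4 = 0 := by
        rcases h2 with h2 | h2 <;> rw [hmod, h2] <;> norm_num
      have h4 : (q ^ 4 - 1) % 4 = 3 := by omega
      have h5 : (q - 1) % 2 = 1 := by omega
      rw [h4, h5]
      norm_num
    · have h3 : q ^ 4 % 4 = 1 := by
        rcases h2 with h2 | h2 <;> rw [hmod, h2] <;> norm_num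
      have h4 : (q ^ 4 - 1) % 4 = 0 := by omega
      have h5 : (q - 1) % 2 = 0 := by omega
      rw [h4, h5]
      norm_num
  rw [← hg, h1]
  simp only [Finset.prod_range_succ, Finset.prod_range_zero]
  norm_num
  ring

end Cfsg.Agent.S1061
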