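import Cfsg.Statements.S1064
import Cfsg.Agent.Lib.Helper25.ChevOrderData
import Cfsg.Agent.S1035

set_option autoImplicit false
open Cfsg

namespace Cfsg.Agent.S1064

/-- `gcd(2, q-1) · |E₇(q)| = q⁶³ ∏_{d ∈ {2,6,8,10,12,14,18}} (q^d - 1)`. -/
theorem result {F : Type*} [Field F] [Fintype F] {q : ℕ} (hq : Fintype.card F = q) : Nat.gcd 2 (q - 1) * Nat.card ↥(Cfsg.Lie.chevE7.group F) = q ^ 63 * (q ^ 2 - 1) * (q ^ 6 - 1) * (q ^ 8 - 1) * (q ^ 10 - 1) * (q ^ 12 - 1) * (q ^ 14 - 1) * (q ^ 18 - 1) := by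
  subst hq
  have hH : Nat.gcd 2 (Fintype.card F - 1) * Nat.card ↥(Cfsg.Lie.chevE7.diagonalSubgroup F) =
      (Nat.card F - 1) ^ Cfsg.Lie.chevE7.rank := by
    rw [Nat.card_eq_fintype_card (α := F)]
    exact Cfsg.Agent.S1035.result rfl (Cfsg.Lie.chevE7, Nat.gcd 2 (Fintype.card F - 1)) (by simp)
  have h := Cfsg.Agent.Lib.Helper25.order_E7 (F := F) (Nat.gcd 2 (Fintype.card F - 1)) hH
  rw [Nat.card_eq_fintype_card (α := F)] at h
  have h' : Nat.gcd 2 (Fintype.card F - 1) * Nat.card ↥(Cfsg.Lie.chevE7.group F) =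
      Fintype.card F ^ 63 * ((Fintype.card F ^ 2 - 1) * ((Fintype.card F ^ 6 - 1) * ((Fintype.card F ^ 8 - 1) * ((Fintype.card F ^ 10 - 1) * ((Fintype.card F ^ 12 - 1) * ((Fintype.card F ^ 14 - 1) * ((Fintype.card F ^ 18 - 1) * 1))))))) := h
  rw [h']
  ring

end Cfsg.Agent.S1064
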