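import Cfsg.Statements.S1066
import Cfsg.Agent.Lib.Helper24.TwE6Card

set_option autoImplicit false
open Cfsg

namespace Cfsg.Agent.S1066

open Cfsg.Agent.Lib.Helper24 in
/-- `gcd(3, q+1) · |²E₆(q)| = q³⁶ (q² - 1)(q⁵ + 1)(q⁶ - 1)(q⁸ - 1)(q⁹ + 1)(q¹² - 1)`, the group being realised inside E₆ over the field with `q²` elements. -/
theorem result {K : Type*} [Field K] [Fintype K] {q : ℕ} (hq : IsPrimePow q) (hK : Fintype.card K = q ^ 2) :
    Nat.gcd 3 (q + 1) * Nat.card ↥(Cfsg.Lie.twistedE6 K q) =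
      q ^ 36 * (q ^ 2 - 1) * (q ^ 5 + 1) * (q ^ 6 - 1) * (q ^ 8 - 1) * (q ^ 9 + 1) * (q ^ 12 - 1) := by
  exact twistedE6_card hq hK

end Cfsg.Agent.S1066
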