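import Cfsg.Statements.S1068
import Cfsg.Agent.Lib.Helper24.TwF4Ord

set_option autoImplicit false
open Cfsg

namespace Cfsg.Agent.S1068

open Cfsg.Agent.Lib.Helper24 in
/-- `|²F₄(q)| = q¹² (q - 1)(q³ + 1)(q⁴ - 1)(q⁶ + 1)` for `q = 2^(2m+1)` (θ = 2^m-th power map), every `m ≥ 0`. -/
theorem result {K : Type*} [Field K] [Fintype K] {m : ℕ} (hK : Fintype.card K = 2 ^ (2 * m + 1)) :
    Nat.card ↥(Cfsg.Lie.twistedF4 K (2 ^ m)) =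
      (2 ^ (2 * m + 1)) ^ 12 * (2 ^ (2 * m + 1) - 1) * ((2 ^ (2 * m + 1)) ^ 3 + 1) * ((2 ^ (2 * m + 1)) ^ 4 - 1) * ((2 ^ (2 * m + 1)) ^ 6 + 1) := by
  exact TwF4Ord.twistedF4_card hK

end Cfsg.Agent.S1068
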