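import Cfsg.Statements.S1070
import Cfsg.Agent.Lib.Helper24.TwE6Simple

set_option autoImplicit false
open Cfsg

namespace Cfsg.Agent.S1070

open Cfsg.Agent.Lib.Helper24 in
/-- ²E₆(q) is simple for every `q`. -/
theorem result {K : Type*} [Field K] [Fintype K] {q : ℕ} (hq : IsPrimePow q) (hK : Fintype.card K = q ^ 2) :
    IsSimpleGroup ↥(Cfsg.Lie.twistedE6 K q) ∧ ¬ IsMulCommutative ↥(Cfsg.Lie.twistedE6 K q) := by
  exact twistedE6_simple hq hK

end Cfsg.Agent.S1070
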