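import Cfsg.Statements.S1075
import Cfsg.Agent.Lib.Helper36.ReeThree

set_option autoImplicit false
open Cfsg

namespace Cfsg.Agent.S1075

/-- The derived subgroup of ²G₂(3) (θ = identity over the field with three elements) has order 504 = 1512/3 and is isomorphic to PSL₂ over the field with eight elements. -/
theorem result {L : Type*} [Field L] [Fintype L] (hL : Fintype.card L = 8) :
    Nat.card ↥(commutator ↥(Cfsg.Lie.twistedG2 (ZMod 3) 1)) = 504 ∧
      Nonempty (↥(commutator ↥(Cfsg.Lie.twistedG2 (ZMod 3) 1)) ≃* Matrix.ProjectiveSpecialLinearGroup (Fin 2) L) := by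
  exact Cfsg.Agent.Lib.Helper36.ree_three_derived hL

end Cfsg.Agent.S1075
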