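import Cfsg.Statements.S1091
import Cfsg.Agent.Lib.Helper24.ReeRk

set_option autoImplicit false
open Cfsg

namespace Cfsg.Agent.S1091

open Cfsg.Agent.Lib.Helper24 in
/-- ²G₂(3^(2m+1)) has a (B,N)-pair: B¹ = G¹ ∩ B and N¹ = G¹ ∩ N, intersections with the ambient Chevalley group's B = UH and N. -/
theorem result {K : Type*} [Field K] [Fintype K] {m : ℕ} (hK : Fintype.card K = 3 ^ (2 * m + 1)) :
    ∃ P : Cfsg.BNPair ↥(Cfsg.Lie.twistedG2 K (3 ^ m)),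
      P.B = (Cfsg.Lie.chevG2.borelSubgroup K ⊓ Cfsg.Lie.twistedG2 K (3 ^ m)).subgroupOf (Cfsg.Lie.twistedG2 K (3 ^ m)) ∧
      P.N = (Cfsg.Lie.chevG2.monomialSubgroup K ⊓ Cfsg.Lie.twistedG2 K (3 ^ m)).subgroupOf (Cfsg.Lie.twistedG2 K (3 ^ m)) := by
  have : CharP K 3 := Cfsg.Agent.Lib.Helper27.Ree.charP_three (by omega) hK
  obtain ⟨σ, hσ⟩ := Cfsg.Agent.Lib.Helper27.Ree.exists_sig m hK
  obtain ⟨hF, hadd, hsub, hodd⟩ := Cfsg.Agent.Lib.Helper27.Ree.field_facts m hK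
  refine (Cfsg.Agent.Lib.Helper24.ReeRk.reeRk hσ hF hadd hsub hodd).bnPair ?_
  have hcard := Cfsg.Agent.Lib.Helper27.Ree.U1_card hσ hF hadd hodd hsub
  have h1 : 1 < Nat.card ↥(Cfsg.Lie.chevG2.posUnipotent K ⊓ Cfsg.Lie.twistedG2 K (3 ^ m)) := by
    rw [hcard, hK]
    exact Nat.one_lt_pow (by norm_num) (Nat.one_lt_pow (by omega) (by norm_num))
  have hfin : Finite ↥(Cfsg.Lie.chevG2.posUnipotent K ⊓ Cfsg.Lie.twistedG2 K (3 ^ m)) :=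
    Nat.finite_of_card_ne_zero (by omega)
  haveI : Nontrivial ↥(Cfsg.Lie.chevG2.posUnipotent K ⊓ Cfsg.Lie.twistedG2 K (3 ^ m)) :=
    Finite.one_lt_card_iff_nontrivial.1 h1
  obtain ⟨u, hu⟩ := exists_ne (1 : ↥(Cfsg.Lie.chevG2.posUnipotent K ⊓ Cfsg.Lie.twistedG2 K (3 ^ m)))
  exact ⟨(u : GL Cfsg.Lie.chevG2.Idx K), u.2, fun h => hu (Subtype.ext h)⟩

end Cfsg.Agent.S1091
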