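import Cfsg.Statements.S1092
import Cfsg.Agent.Lib.Helper25.CoxSmallData

set_option autoImplicit false
open Cfsg

namespace Cfsg.Agent.S1092

open Cfsg.Agent.Lib.Helper25

theorem card_B2 : Nat.card (CoxeterMatrix.B 2).Group = 8 := by
  obtain ⟨φ, _, _, h, _⟩ := coxeter_main (CoxeterMatrix.B 2) b2ML b2Cart b2Levels
    (by decide) (by intro i j; fin_cases i <;> fin_cases j <;> rfl) (by decide +kernel)
    (by decide +kernel)
  rw [h]; decide

theorem card_G2 : Nat.card CoxeterMatrix.G₂.Group = 12 := by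
  obtain ⟨φ, _, _, h, _⟩ := coxeter_main CoxeterMatrix.G₂ g2ML g2Cart g2Levels
    (by decide) (by intro i j; fin_cases i <;> fin_cases j <;> rfl) (by decide +kernel)
    (by decide +kernel)
  rw [h]; decide

theorem card_D4 : Nat.card Cfsg.Lie.coxeterD4.Group = 192 := by
  obtain ⟨φ, _, _, h, _⟩ := coxeter_main Cfsg.Lie.coxeterD4 d4ML d4Cart d4Levels
    (by decide) (by intro i j; fin_cases i <;> fin_cases j <;> rfl) (by decide +kernel)
    (by decide +kernel)
  rw [h]; decide

theorem card_F4 : Nat.card CoxeterMatrix.F₄.Group = 1152 := by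
  obtain ⟨φ, _, _, h, _⟩ := coxeter_main CoxeterMatrix.F₄ f4ML f4Cart f4Levels
    (by decide) (by intro i j; fin_cases i <;> fin_cases j <;> rfl) (by decide +kernel)
    (by decide +kernel)
  rw [h]; decide

/-- `|W(B₂)| = 8`, `|W(G₂)| = 12`, `|W(D₄)| = 192`, `|W(F₄)| = 1152` for the groups presented by the Coxeter matrices (the product of the degrees of the basic invariants). -/
theorem result (p : (Σ n : ℕ, CoxeterMatrix (Fin n)) × ℕ)
    (hp : p ∈ [(⟨2, CoxeterMatrix.B 2⟩, 8), (⟨2, CoxeterMatrix.G₂⟩, 12), (⟨4, Cfsg.Lie.coxeterD4⟩, 192), (⟨4, CoxeterMatrix.F₄⟩, 1152)]) :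
    Nat.card p.1.2.Group = p.2 := by
  simp only [List.mem_cons, List.not_mem_nil, or_false] at hp
  rcases hp with rfl | rfl | rfl | rfl
  · exact card_B2
  · exact card_G2
  · exact card_D4
  · exact card_F4

end Cfsg.Agent.S1092
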