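import Cfsg.Statements.S1093
import Cfsg.Agent.Lib.Helper25.CoxE8Data

set_option autoImplicit false
open Cfsg

namespace Cfsg.Agent.S1093

open Cfsg.Agent.Lib.Helper25

theorem card_E6 : Nat.card CoxeterMatrix.E₆.Group = 51840 := by
  obtain ⟨φ, _, _, h, _⟩ := coxeter_main CoxeterMatrix.E₆ e8ML e8Cart
    [e8Level0, e8Level1, e8Level2, e8Level3, e8Level4, e8Level5]
    (by decide) (by intro i j; fin_cases i <;> fin_cases j <;> rfl) (by decide +kernel)
    (by decide +kernel)
  rw [h]; decide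

theorem card_E7 : Nat.card CoxeterMatrix.E₇.Group = 2903040 := by
  obtain ⟨φ, _, _, h, _⟩ := coxeter_main CoxeterMatrix.E₇ e8ML e8Cart
    [e8Level0, e8Level1, e8Level2, e8Level3, e8Level4, e8Level5, e8Level6]
    (by decide) (by intro i j; fin_cases i <;> fin_cases j <;> rfl) (by decide +kernel)
    (by decide +kernel)
  rw [h]; decide

theorem card_E8 : Nat.card CoxeterMatrix.E₈.Group = 696729600 := by
  obtain ⟨φ, _, _, h, _⟩ := coxeter_main CoxeterMatrix.E₈ e8ML e8Cart e8Levels
    (by decide) (by intro i j; fin_cases i <;> fin_cases j <;> rfl) (by decide +kernel)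
    (by decide +kernel)
  rw [h]; decide

/-- `|W(E₆)| = 51840`, `|W(E₇)| = 2903040`, `|W(E₈)| = 696729600` for Mathlib's presented Coxeter groups. -/
theorem result (p : (Σ n : ℕ, CoxeterMatrix (Fin n)) × ℕ)
    (hp : p ∈ [(⟨6, CoxeterMatrix.E₆⟩, 51840), (⟨7, CoxeterMatrix.E₇⟩, 2903040), (⟨8, CoxeterMatrix.E₈⟩, 696729600)]) :
    Nat.card p.1.2.Group = p.2 := by
  simp only [List.mem_cons, List.not_mem_nil, or_false] at hp
  rcases hp with rfl | rfl | rfl
  · exact card_E6
  · exact card_E7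
  · exact card_E8

end Cfsg.Agent.S1093
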