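import Cfsg.Statements.S1094
import Cfsg.Agent.Lib.Helper25.CoxOrder
import Cfsg.Agent.Lib.Helper25.CoxSmallData
import Cfsg.Agent.Lib.Helper25.CoxE8Data

set_option autoImplicit false
open Cfsg

namespace Cfsg.Agent.S1094

open Cfsg.Agent.Lib.Helper25

theorem order_B2 : orderOf ((List.finRange 2).map (CoxeterMatrix.B 2).simple).prod = 4 :=
  coxeter_order (CoxeterMatrix.B 2) b2ML b2Cart b2Levels
    (by decide) (by intro i j; fin_cases i <;> fin_cases j <;> rfl) (by decide +kernel)
    (by decide +kernel) 4 (by norm_num) (by decide +kernel) (by decide +kernel)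

theorem order_G2 : orderOf ((List.finRange 2).map CoxeterMatrix.G₂.simple).prod = 6 :=
  coxeter_order CoxeterMatrix.G₂ g2ML g2Cart g2Levels
    (by decide) (by intro i j; fin_cases i <;> fin_cases j <;> rfl) (by decide +kernel)
    (by decide +kernel) 6 (by norm_num) (by decide +kernel) (by decide +kernel)

theorem order_D4 : orderOf ((List.finRange 4).map Cfsg.Lie.coxeterD4.simple).prod = 6 :=
  coxeter_order Cfsg.Lie.coxeterD4 d4ML d4Cart d4Levels
    (by decide) (by intro i j; fin_cases i <;> fin_cases j <;> rfl) (by decide +kernel)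
    (by decide +kernel) 6 (by norm_num) (by decide +kernel) (by decide +kernel)

theorem order_F4 : orderOf ((List.finRange 4).map CoxeterMatrix.F₄.simple).prod = 12 :=
  coxeter_order CoxeterMatrix.F₄ f4ML f4Cart f4Levels
    (by decide) (by intro i j; fin_cases i <;> fin_cases j <;> rfl) (by decide +kernel)
    (by decide +kernel) 12 (by norm_num) (by decide +kernel) (by decide +kernel)

theorem order_E6 : orderOf ((List.finRange 6).map CoxeterMatrix.E₆.simple).prod = 12 :=
  coxeter_order CoxeterMatrix.E₆ e8ML e8Cart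
    [e8Level0, e8Level1, e8Level2, e8Level3, e8Level4, e8Level5]
    (by decide) (by intro i j; fin_cases i <;> fin_cases j <;> rfl) (by decide +kernel)
    (by decide +kernel) 12 (by norm_num) (by decide +kernel) (by decide +kernel)

theorem order_E7 : orderOf ((List.finRange 7).map CoxeterMatrix.E₇.simple).prod = 18 :=
  coxeter_order CoxeterMatrix.E₇ e8ML e8Cart
    [e8Level0, e8Level1, e8Level2, e8Level3, e8Level4, e8Level5, e8Level6]
    (by decide) (by intro i j; fin_cases i <;> fin_cases j <;> rfl) (by decide +kernel)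
    (by decide +kernel) 18 (by norm_num) (by decide +kernel) (by decide +kernel)

theorem order_E8 : orderOf ((List.finRange 8).map CoxeterMatrix.E₈.simple).prod = 30 :=
  coxeter_order CoxeterMatrix.E₈ e8ML e8Cart e8Levels
    (by decide) (by intro i j; fin_cases i <;> fin_cases j <;> rfl) (by decide +kernel)
    (by decide +kernel) 30 (by norm_num) (by decide +kernel) (by decide +kernel)

/-- The Coxeter element `s₁ s₂ ⋯ s_l` of the Coxeter group of type B₂, G₂, D₄, F₄, E₆, E₇, E₈ has order `h = 2N/l` = 4, 6, 6, 12, 12, 18, 30. -/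
theorem result (p : (Σ n : ℕ, CoxeterMatrix (Fin n)) × ℕ)
    (hp : p ∈ [(⟨2, CoxeterMatrix.B 2⟩, 4), (⟨2, CoxeterMatrix.G₂⟩, 6), (⟨4, Cfsg.Lie.coxeterD4⟩, 6), (⟨4, CoxeterMatrix.F₄⟩, 12),
      (⟨6, CoxeterMatrix.E₆⟩, 12), (⟨7, CoxeterMatrix.E₇⟩, 18), (⟨8, CoxeterMatrix.E₈⟩, 30)]) :
    orderOf ((List.finRange p.1.1).map p.1.2.simple).prod = p.2 := by
  simp only [List.mem_cons, List.not_mem_nil, or_false] at hp
  rcases hp with rfl | rfl | rfl | rfl | rfl | rfl | rfl
  · exact order_B2
  · exact order_G2
  · exact order_D4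
  · exact order_F4
  · exact order_E6
  · exact order_E7
  · exact order_E8

end Cfsg.Agent.S1094
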