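import Cfsg.Statements.S1099
import Cfsg.Agent.Lib.Helper24.GrG2

set_option autoImplicit false
open Cfsg

namespace Cfsg.Agent.S1099

open Cfsg.Agent.Lib.Helper24 in
/-- Graph automorphism of G₂ in characteristic 3 (K perfect): `x_a(t) ↦ x_b(t³)`, `x_b(t) ↦ x_a(t)`, `x_{-a}(t) ↦ x_{-b}(t³)`, `x_{-b}(t) ↦ x_{-a}(t)` extend to an automorphism of the group. -/
theorem result {K : Type*} [Field K] [CharP K 3] (hperf : ∀ x : K, ∃ y : K, y ^ 3 = x) :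
    ∃ α : ↥(Cfsg.Lie.chevG2.group K) ≃* ↥(Cfsg.Lie.chevG2.group K), ∀ (g : ↥(Cfsg.Lie.chevG2.group K)) (t : K),
      (((g : GL Cfsg.Lie.chevG2.Idx K) : Matrix _ _ K) = Cfsg.Lie.chevG2.x K Cfsg.Lie.g2a t →
        ((α g : GL Cfsg.Lie.chevG2.Idx K) : Matrix _ _ K) = Cfsg.Lie.chevG2.x K Cfsg.Lie.g2b (t ^ 3)) ∧
      (((g : GL Cfsg.Lie.chevG2.Idx K) : Matrix _ _ K) = Cfsg.Lie.chevG2.x K Cfsg.Lie.g2b t →
        ((α g : GL Cfsg.Lie.chevG2.Idx K) : Matrix _ _ K) = Cfsg.Lie.chevG2.x K Cfsg.Lie.g2a t) ∧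
      (((g : GL Cfsg.Lie.chevG2.Idx K) : Matrix _ _ K) = Cfsg.Lie.chevG2.x K Cfsg.Lie.g2ma t →
        ((α g : GL Cfsg.Lie.chevG2.Idx K) : Matrix _ _ K) = Cfsg.Lie.chevG2.x K Cfsg.Lie.g2mb (t ^ 3)) ∧
      (((g : GL Cfsg.Lie.chevG2.Idx K) : Matrix _ _ K) = Cfsg.Lie.chevG2.x K Cfsg.Lie.g2mb t →
        ((α g : GL Cfsg.Lie.chevG2.Idx K) : Matrix _ _ K) = Cfsg.Lie.chevG2.x K Cfsg.Lie.g2ma t) := by
  obtain ⟨α, hα⟩ := Cfsg.Agent.Lib.Helper24.Gr.graph_aut_G2 hperf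
  refine ⟨α, ?_⟩
  intro g t
  refine ⟨?_, ?_, ?_, ?_⟩
  · intro hg
    have := hα g Cfsg.Lie.g2a t (by decide) hg
    simpa [Cfsg.Lie.g2a, Cfsg.Lie.g2b] using this
  · intro hg
    have := hα g Cfsg.Lie.g2b t (by decide) hg
    simpa [Cfsg.Lie.g2a, Cfsg.Lie.g2b] using this
  · intro hg
    have := hα g Cfsg.Lie.g2ma t (by decide) hg
    simpa [Cfsg.Lie.g2ma, Cfsg.Lie.g2mb] using this
  · intro hg
    have := hα g Cfsg.Lie.g2mb t (by decide) hg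
    simpa [Cfsg.Lie.g2ma, Cfsg.Lie.g2mb] using this

end Cfsg.Agent.S1099
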