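import Cfsg.Statements.S1107
import Cfsg.Agent.Lib.Helper24.TwD4Weyl

set_option autoImplicit false
open Cfsg

namespace Cfsg.Agent.S1107

open Cfsg.Agent.Lib.Helper24 in
/-- `N¹/H¹ ≅ W¹`: a surjective homomorphism from `N¹ = G¹ ∩ N` onto the Coxeter group of type G₂ (dihedral of order 12) with kernel `H¹`. -/
theorem result {K : Type*} [Field K] [Fintype K] {q : ℕ} (hq : IsPrimePow q) (hK : Fintype.card K = q ^ 3) :
    ∃ φ : ↥(Cfsg.Lie.chevD4.monomialSubgroup K ⊓ Cfsg.Lie.twistedD4 K q) →* (CoxeterMatrix.G₂).Group, Function.Surjective φ ∧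
      φ.ker = (Cfsg.Lie.chevD4.diagonalSubgroup K ⊓ Cfsg.Lie.twistedD4 K q).subgroupOf (Cfsg.Lie.chevD4.monomialSubgroup K ⊓ Cfsg.Lie.twistedD4 K q) := by
  exact twistedD4_weyl hq hK

end Cfsg.Agent.S1107
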