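import Cfsg.Statements.S1117
import Cfsg.Agent.Lib.Helper27.ReeCore

set_option autoImplicit false
open Cfsg

namespace Cfsg.Agent.S1117

/-- The normal core of `B¹ = G¹ ∩ B` in ²G₂(3^(2m+1)) is trivial. -/
theorem result {K : Type*} [Field K] [Fintype K] {m : ℕ} (hK : Fintype.card K = 3 ^ (2 * m + 1)) :
    ((Cfsg.Lie.chevG2.borelSubgroup K ⊓ Cfsg.Lie.twistedG2 K (3 ^ m)).subgroupOf (Cfsg.Lie.twistedG2 K (3 ^ m))).normalCore = ⊥ := by
  exact Cfsg.Agent.Lib.Helper27.Ree.twistedG2_core (3 ^ m) (pow_ne_zero m (by norm_num))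

end Cfsg.Agent.S1117
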