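import Cfsg.Statements.S1129
import Cfsg.Agent.Lib.Helper26.RankOne3
import Cfsg.Agent.S0033

set_option autoImplicit false
open Cfsg
open Cfsg.Agent.Lib.Helper26

namespace Cfsg.Agent.S1129

universe u

/-- conjugation by a normalizing element, as an automorphism of the subgroup -/
def conjAut {G : Type u} [Group G] (Q : Subgroup G) (k : G) (h1 : ∀ x ∈ Q, k * x * k⁻¹ ∈ Q)
    (h2 : ∀ x ∈ Q, k⁻¹ * x * k ∈ Q) : Q ≃* Q where
  toFun x := ⟨k * x * k⁻¹, h1 x x.2⟩
  invFun x := ⟨k⁻¹ * x * k, h2 x x.2⟩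
  left_inv x := by
    apply Subtype.ext
    show k⁻¹ * (k * (x : G) * k⁻¹) * k = x
    group
  right_inv x := by
    apply Subtype.ext
    show k * (k⁻¹ * (x : G) * k) * k⁻¹ = x
    group
  map_mul' x y := by
    apply Subtype.ext
    show k * ((x : G) * (y : G)) * k⁻¹ = (k * (x : G) * k⁻¹) * (k * (y : G) * k⁻¹)
    group

theorem conjAut_iterate {G : Type u} [Group G] (Q : Subgroup G) (k : G)
    (h1 : ∀ x ∈ Q, k * x * k⁻¹ ∈ Q) (h2 : ∀ x ∈ Q, k⁻¹ * x * k ∈ Q) (n : ℕ) (x : Q) :
    (((conjAut Q k h1 h2)^[n] x : Q) : G) = k ^ n * x * (k ^ n)⁻¹ := by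
  induction n with
  | zero => simp
  | succ n ih =>
    rw [Function.iterate_succ_apply']
    show k * (((conjAut Q k h1 h2)^[n] x : Q) : G) * k⁻¹ = k ^ (n + 1) * x * (k ^ (n + 1))⁻¹
    rw [ih, pow_succ']
    group

/-- In the rank-one set-up (`G` finite and doubly transitive on `Ω`, `t` an involution moving `a`, `Q` normal in `G_a` with `G_a = Q D`, `Q ⊓ D = 1` for the two-point stabiliser `D = G_a ⊓ G_{t • a}`, `|Q|` even, `|D|` odd), with the action faithful and `G` containing two distinct commuting involutions: `Q` is nilpotent. -/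
theorem result {G Ω : Type*} [Group G] [Finite G] [MulAction G Ω] [FaithfulSMul G Ω] {a : Ω} {t : G} {Q : Subgroup G}
    (hS : Cfsg.IsRankOneSetup G Ω a t Q)
    (h2 : ∃ x y : G, x ≠ 1 ∧ y ≠ 1 ∧ x ≠ y ∧ x * x = 1 ∧ y * y = 1 ∧ x * y = y * x) :
    Group.IsNilpotent Q := by
  obtain ⟨x, y, hx1, hy1, hxy, hx2, hy2, hcomm⟩ := h2
  -- both involutions fix a common point
  obtain ⟨c, hc⟩ := invol_fix_exists hS hx2
  have hyc : y • c = c := by
    have h1 : x • (y • c) = y • c := by
      rw [← mul_smul, hcomm, mul_smul, hc]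
    exact invol_fix_unique hS hx1 hx2 h1 hc
  have := pretrans hS
  obtain ⟨g, rfl⟩ := MulAction.exists_smul_eq G a c
  -- two distinct involutions of `G_a`
  have hs : g⁻¹ * x * g ∈ Cfsg.involutionsIn (MulAction.stabilizer G a : Set G) := by
    refine ⟨?_, ?_, ?_⟩
    · show g⁻¹ * x * g ∈ MulAction.stabilizer G a
      rw [MulAction.mem_stabilizer_iff, mul_smul, mul_smul, hc, inv_smul_smul]
    · intro h
      apply hx1
      have : x = g * (g⁻¹ * x * g) * g⁻¹ := by group
      rw [this, h]; group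
    · have : g⁻¹ * x * g * (g⁻¹ * x * g) = g⁻¹ * (x * x) * g := by group
      rw [this, hx2]; group
  have hs' : g⁻¹ * y * g ∈ Cfsg.involutionsIn (MulAction.stabilizer G a : Set G) := by
    refine ⟨?_, ?_, ?_⟩
    · show g⁻¹ * y * g ∈ MulAction.stabilizer G a
      rw [MulAction.mem_stabilizer_iff, mul_smul, mul_smul, hyc, inv_smul_smul]
    · intro h
      apply hy1
      have : y = g * (g⁻¹ * y * g) * g⁻¹ := by group
      rw [this, h]; group
    · have : g⁻¹ * y * g * (g⁻¹ * y * g) = g⁻¹ * (y * y) * g := by group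
      rw [this, hy2]; group
  obtain ⟨k, hk, hks⟩ := K_trans hS hs hs'
  have hk1 : k ≠ 1 := by
    intro h
    rw [h, inv_one, one_mul, mul_one] at hks
    apply hxy
    have e1 : x = g * (g⁻¹ * x * g) * g⁻¹ := by group
    have e2 : y = g * (g⁻¹ * y * g) * g⁻¹ := by group
    rw [e1, e2, hks]
  -- a power of prime order
  have hord : orderOf k ≠ 1 := fun h => hk1 (orderOf_eq_one_iff.mp h)
  obtain ⟨r, hr, hrdvd⟩ := Nat.exists_prime_and_dvd hord
  have hpos : orderOf k ≠ 0 := (orderOf_pos k).ne'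
  have hk'ord : orderOf (k ^ (orderOf k / r)) = r := orderOf_pow_orderOf_div hpos hrdvd
  have hk' := invertedBy_pow hk (orderOf k / r)
  have hk'1 : k ^ (orderOf k / r) ≠ 1 := by
    intro h
    rw [h, orderOf_one] at hk'ord
    rw [← hk'ord] at hr
    exact Nat.not_prime_one hr
  have hfpf := K_fpf hS hk' hk'1
  have hkr : (k ^ (orderOf k / r)) ^ r = 1 := by
    have h := pow_orderOf_eq_one (k ^ (orderOf k / r))
    rw [hk'ord] at h
    exact h
  have hstab : k ^ (orderOf k / r) ∈ MulAction.stabilizer G a := hk'.1.1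
  have hn1 : ∀ z ∈ Q, k ^ (orderOf k / r) * z * (k ^ (orderOf k / r))⁻¹ ∈ Q :=
    fun z hz => hS.conj_mem _ hstab z hz
  have hn2 : ∀ z ∈ Q, (k ^ (orderOf k / r))⁻¹ * z * k ^ (orderOf k / r) ∈ Q := by
    intro z hz
    have := hS.conj_mem _ ((MulAction.stabilizer G a).inv_mem hstab) z hz
    rwa [inv_inv] at this
  apply Cfsg.Agent.S0033.fpf_nilpotent r hr (Nat.card Q) Q rfl
    (conjAut Q (k ^ (orderOf k / r)) hn1 hn2)
  · intro z hz
    have h1 : k ^ (orderOf k / r) * (z : G) * (k ^ (orderOf k / r))⁻¹ = z :=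
      congrArg Subtype.val hz
    have h2 : (z : G) ∈ Q ⊓ Subgroup.centralizer {k ^ (orderOf k / r)} := by
      refine Subgroup.mem_inf.mpr ⟨z.2, mem_centralizer_singleton.mpr ?_⟩
      calc k ^ (orderOf k / r) * (z : G)
          = (k ^ (orderOf k / r) * (z : G) * (k ^ (orderOf k / r))⁻¹) * k ^ (orderOf k / r) := by
            group
        _ = (z : G) * k ^ (orderOf k / r) := by rw [h1]
    rw [hfpf, Subgroup.mem_bot] at h2
    exact Subtype.ext h2
  · funext z
    apply Subtype.ext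
    rw [conjAut_iterate, hkr]
    simp

end Cfsg.Agent.S1129
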