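import Cfsg.Statements.S1134
import Cfsg.Agent.Lib.Helper26.RankOne5

set_option autoImplicit false
open Cfsg

namespace Cfsg.Agent.S1134

/-- In the rank-one set-up (`G` finite and doubly transitive on `Ω`, `t` an involution moving `a`, `Q` normal in `G_a` with `G_a = Q D`, `Q ⊓ D = 1` for the two-point stabiliser `D = G_a ⊓ G_{t • a}`, `|Q|` even, `|D|` odd), with the action faithful and `G` containing two distinct commuting involutions, with `V = C_D(t)`: subsets of `V` conjugate in `G` are conjugate in `V`. -/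
theorem result {G Ω : Type*} [Group G] [Finite G] [MulAction G Ω] [FaithfulSMul G Ω] {a : Ω} {t : G} {Q : Subgroup G}
    (hS : Cfsg.IsRankOneSetup G Ω a t Q)
    (h2 : ∃ x y : G, x ≠ 1 ∧ y ≠ 1 ∧ x ≠ y ∧ x * x = 1 ∧ y * y = 1 ∧ x * y = y * x)
    (X : Set G) (hX : X ⊆ (((MulAction.stabilizer G a ⊓ MulAction.stabilizer G (t • a)) ⊓ Subgroup.centralizer {t} : Subgroup G) : Set G)) (g : G)
    (hY : (fun x => g * x * g⁻¹) '' X ⊆ (((MulAction.stabilizer G a ⊓ MulAction.stabilizer G (t • a)) ⊓ Subgroup.centralizer {t} : Subgroup G) : Set G)) :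
    ∃ v ∈ (MulAction.stabilizer G a ⊓ MulAction.stabilizer G (t • a)) ⊓ Subgroup.centralizer {t}, (fun x => v * x * v⁻¹) '' X = (fun x => g * x * g⁻¹) '' X := by
  have hXD : ∀ x ∈ X, x ∈ MulAction.stabilizer G a ⊓ MulAction.stabilizer G (t • a) :=
    fun x hx => (hX hx).1
  have hXt : ∀ x ∈ X, t * x = x * t := fun x hx => Cfsg.Agent.Lib.Helper26.mem_centralizer_singleton.1 (hX hx).2
  have hYD : ∀ x ∈ X, g * x * g⁻¹ ∈ MulAction.stabilizer G a ⊓ MulAction.stabilizer G (t • a) :=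
    fun x hx => (hY ⟨x, hx, rfl⟩).1
  have hYt : ∀ x ∈ X, t * (g * x * g⁻¹) = (g * x * g⁻¹) * t :=
    fun x hx => Cfsg.Agent.Lib.Helper26.mem_centralizer_singleton.1 (hY ⟨x, hx, rfl⟩).2
  obtain ⟨v, hv, hvx⟩ := Cfsg.Agent.Lib.Helper26.fusion_V hS hXD hXt hYD hYt
  exact ⟨v, hv, Set.image_congr hvx⟩

end Cfsg.Agent.S1134
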