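import Cfsg.Statements.S1141
import Mathlib
import Cfsg.Agent.Lib.Helper60.U3Suz

set_option autoImplicit false
open Cfsg

namespace Cfsg.Agent.S1141

/-- Let `q = 2^n ≥ 4` and `|F| = q²`. A Sylow 2-subgroup `S` of `PSU₃(q)` has order `q³`, its centre has order `q`, and `S` is a Suzuki 2-group. -/
theorem result {F : Type*} [Field F] [Fintype F] {n : ℕ} (hn : 2 ≤ n)
    (hF : Fintype.card F = (2 ^ n) ^ 2) (S : Sylow 2 (Cfsg.PSU 3 F (2 ^ n))) :
    Nat.card S = (2 ^ n) ^ 3 ∧ Nat.card (Subgroup.center ↥(S : Subgroup (Cfsg.PSU 3 F (2 ^ n)))) = 2 ^ n ∧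
      Cfsg.IsSuzukiTwoGroup ↥(S : Subgroup (Cfsg.PSU 3 F (2 ^ n))) := by
  have h2 : (2 : F) = 0 :=
    Lib.Helper60.two_eq_zero_of_card (m := n * 2) (by rw [hF, ← pow_mul])
  obtain ⟨e⟩ := Lib.Helper60.sylow_PSU3_equiv (by omega) hF S
  have hq : 3 ≤ 2 ^ n := by
    have := Nat.pow_le_pow_right (show 0 < 2 by norm_num) hn
    omega
  exact ⟨Lib.Helper60.equivU3_card hF h2 e, Lib.Helper60.equivU3_card_center hF h2 e,
    Lib.Helper60.equivU3_isSuzuki hF h2 hq S.isPGroup' e⟩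

end Cfsg.Agent.S1141
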