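import Cfsg.Statements.S1163
import Cfsg.Agent.Lib.Helper27.SzBruhat

set_option autoImplicit false
open Cfsg

namespace Cfsg.Agent.S1163

open Cfsg.Agent.Lib.Helper8.Sz
open Cfsg.Agent.Lib.Helper27.BruhatTwo
open Cfsg.Agent.Lib.Helper27.SzBridge
open Cfsg.Agent.Lib.Helper27.SzBruhat

theorem odd_aux (t : ℕ) (ht : 1 ≤ t) : ¬ 2 ∣ (2 * t - 1) * ((2 * t) ^ 2 + 1) := by
  intro h
  rcases (Nat.Prime.dvd_mul Nat.prime_two).mp h with h | h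
  · omega
  · have e : (2 * t) ^ 2 + 1 = 2 * (2 * t * t) + 1 := by ring
    rw [e] at h
    omega

/-- For the Suzuki group Sz(q), q = 2^(2m+1) ≥ 8, realised as the elements g of Sp₄(F) with g* = g^θ (θ the 2^(m+1)-th power map, so that θ² is squaring): `|Sz(q)| = q² (q - 1) (q² + 1)`, and there is a Sylow 2-subgroup `S` whose normaliser `H` has order `q²(q-1)` and index `q² + 1`, the action of `Sz(q)` on the cosets of `H` is doubly transitive, and `S` acts regularly on the cosets other than `H` itself. -/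
theorem result {F : Type*} [Field F] [Fintype F] {m : ℕ} (hm : 1 ≤ m) (hF : Fintype.card F = 2 ^ (2 * m + 1)) :
    Nat.card ↥(Cfsg.Lie.Sz F (2 ^ (m + 1))) = (2 ^ (2 * m + 1)) ^ 2 * (2 ^ (2 * m + 1) - 1) * ((2 ^ (2 * m + 1)) ^ 2 + 1) ∧
    ∃ S : Sylow 2 ↥(Cfsg.Lie.Sz F (2 ^ (m + 1))),
      Nat.card (Subgroup.normalizer ((S : Subgroup ↥(Cfsg.Lie.Sz F (2 ^ (m + 1)))) : Set ↥(Cfsg.Lie.Sz F (2 ^ (m + 1))))) = (2 ^ (2 * m + 1)) ^ 2 * (2 ^ (2 * m + 1) - 1) ∧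
      (Subgroup.normalizer ((S : Subgroup ↥(Cfsg.Lie.Sz F (2 ^ (m + 1)))) : Set ↥(Cfsg.Lie.Sz F (2 ^ (m + 1))))).index = (2 ^ (2 * m + 1)) ^ 2 + 1 ∧
      MulAction.IsMultiplyPretransitive ↥(Cfsg.Lie.Sz F (2 ^ (m + 1))) (↥(Cfsg.Lie.Sz F (2 ^ (m + 1))) ⧸ Subgroup.normalizer ((S : Subgroup ↥(Cfsg.Lie.Sz F (2 ^ (m + 1)))) : Set ↥(Cfsg.Lie.Sz F (2 ^ (m + 1))))) 2 ∧
      ∀ x y : ↥(Cfsg.Lie.Sz F (2 ^ (m + 1))) ⧸ Subgroup.normalizer ((S : Subgroup ↥(Cfsg.Lie.Sz F (2 ^ (m + 1)))) : Set ↥(Cfsg.Lie.Sz F (2 ^ (m + 1)))),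
        x ≠ (QuotientGroup.mk 1) → y ≠ (QuotientGroup.mk 1) → ∃! s : ↥(S : Subgroup ↥(Cfsg.Lie.Sz F (2 ^ (m + 1)))), (s : ↥(Cfsg.Lie.Sz F (2 ^ (m + 1)))) • x = y := by
  classical
  have hcard : Nat.card ↥(Cfsg.Lie.Sz F (2 ^ (m + 1)))
      = (2 ^ (2 * m + 1)) ^ 2 * (2 ^ (2 * m + 1) - 1) * ((2 ^ (2 * m + 1)) ^ 2 + 1) := by
    rw [card_LieSz hF hm]
    ring
  let e := szEquiv hF hm
  let B : Subgroup ↥(Cfsg.Lie.Sz F (2 ^ (m + 1))) := (Bsub F m).map e.toMonoidHom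
  let Q : Subgroup ↥(Cfsg.Lie.Sz F (2 ^ (m + 1))) := (Q₀ hF).map e.toMonoidHom
  have hyp : Hyp B Q (e (wS hF)) := (hyp₀ hF hm).map e
  have hQcard : Nat.card Q = (2 ^ (2 * m + 1)) ^ 2 := by
    exact (Subgroup.card_map_of_injective (K := Q₀ hF) (f := e.toMonoidHom) e.injective).trans
      (card_Q₀ hF)
  have hBcard : Nat.card B = (2 ^ (2 * m + 1)) ^ 2 * (2 ^ (2 * m + 1) - 1) := by
    exact (Subgroup.card_map_of_injective (K := Bsub F m) (f := e.toMonoidHom) e.injective).trans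
      (card_stab_inf hm hF)
  have hqpos : 0 < (2 ^ (2 * m + 1)) ^ 2 := by positivity
  have hp : IsPGroup 2 Q := IsPGroup.of_card (n := (2 * m + 1) * 2) (by rw [hQcard, ← pow_mul])
  have hidx : ¬ 2 ∣ Q.index := by
    have h1 := Q.card_mul_index
    rw [hQcard, hcard, mul_assoc] at h1
    have h2 : Q.index = (2 ^ (2 * m + 1) - 1) * ((2 ^ (2 * m + 1)) ^ 2 + 1) :=
      Nat.eq_of_mul_eq_mul_left hqpos h1
    rw [h2]
    have e2 : 2 ^ (2 * m + 1) = 2 * 2 ^ (2 * m) := by ring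
    rw [e2]
    exact odd_aux _ Nat.one_le_two_pow
  have : Fact (Nat.Prime 2) := ⟨Nat.prime_two⟩
  let S : Sylow 2 ↥(Cfsg.Lie.Sz F (2 ^ (m + 1))) := hp.toSylow hidx
  have hN : Subgroup.normalizer ((S : Subgroup ↥(Cfsg.Lie.Sz F (2 ^ (m + 1)))) :
      Set ↥(Cfsg.Lie.Sz F (2 ^ (m + 1)))) = B := hyp.normalizer_eq
  refine ⟨hcard, S, ?_, ?_, ?_⟩
  · rw [hN, hBcard]
  · rw [hN]
    have h1 := B.card_mul_index
    rw [hBcard, hcard] at h1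
    have hpos : 0 < (2 ^ (2 * m + 1)) ^ 2 * (2 ^ (2 * m + 1) - 1) := by
      apply Nat.mul_pos hqpos
      have : 2 ≤ 2 ^ (2 * m + 1) := Nat.le_self_pow (by omega) 2
      omega
    exact Nat.eq_of_mul_eq_mul_left hpos h1
  · exact hyp.main _ hN

end Cfsg.Agent.S1163
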