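import Mathlib
import Cfsg.Statements.S1165
import Cfsg.Agent.Lib.Helper27.RankOne

set_option autoImplicit false
open Cfsg

namespace Cfsg.Agent.S1165

/-- In the rank-one set-up (`G` finite and doubly transitive on `Ω`, `t` an involution moving `a`, `Q` normal in `G_a` with `G_a = Q D`, `Q ⊓ D = 1` for the two-point stabiliser `D = G_a ⊓ G_{t • a}`, `|Q|` even, `|D|` odd): every `x ∈ Q`, `x ≠ 1`, determines unique `g, f ∈ Q`, `h ∈ D` with `t x t = g h t f` (a consequence of the canonical form). For these: (H1) the `f`-part of `x⁻¹` is `g⁻¹`; (H2) the `f`-part of `f` is `x`; (H3) for `a ∈ D` the `f`-part of `a⁻¹ x a` is `(t a t)⁻¹ f (t a t)`; (H4) the `h`-part of `a⁻¹ x a` is `(t a t)⁻¹ h a`, that of `x⁻¹` is `t h⁻¹ t`, and that of `f` is `h⁻¹`. -/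
theorem result {G Ω : Type*} [Group G] [Finite G] [MulAction G Ω] {a : Ω} {t : G} {Q : Subgroup G}
    (hS : Cfsg.IsRankOneSetup G Ω a t Q)
    (x g h f : G) (hx : x ∈ Q) (hx1 : x ≠ 1) (hg : g ∈ Q) (hh : h ∈ (MulAction.stabilizer G a ⊓ MulAction.stabilizer G (t • a))) (hf : f ∈ Q)
    (heq : t * x * t = g * h * t * f) :
    (∀ g₁ h₁ f₁ : G, g₁ ∈ Q → h₁ ∈ (MulAction.stabilizer G a ⊓ MulAction.stabilizer G (t • a)) → f₁ ∈ Q → t * x⁻¹ * t = g₁ * h₁ * t * f₁ →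
        f₁ = g⁻¹ ∧ h₁ = t * h⁻¹ * t) ∧
      (∀ g₂ h₂ f₂ : G, g₂ ∈ Q → h₂ ∈ (MulAction.stabilizer G a ⊓ MulAction.stabilizer G (t • a)) → f₂ ∈ Q → t * f * t = g₂ * h₂ * t * f₂ →
        f₂ = x ∧ h₂ = h⁻¹) ∧
      ∀ c ∈ (MulAction.stabilizer G a ⊓ MulAction.stabilizer G (t • a)), ∀ g₃ h₃ f₃ : G, g₃ ∈ Q → h₃ ∈ (MulAction.stabilizer G a ⊓ MulAction.stabilizer G (t • a)) → f₃ ∈ Q →
        t * (c⁻¹ * x * c) * t = g₃ * h₃ * t * f₃ →
          f₃ = (t * c * t)⁻¹ * f * (t * c * t) ∧ h₃ = (t * c * t)⁻¹ * h * c := by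
  have hti := Lib.Helper27.rankOne_t_inv hS
  have htt := hS.mul_self
  have hDa : ∀ {d : G}, d ∈ MulAction.stabilizer G a ⊓ MulAction.stabilizer G (t • a) →
      d ∈ MulAction.stabilizer G a := fun hd => Lib.Helper27.rankOne_D_le hS hd
  refine ⟨?_, ?_, ?_⟩
  · intro g₁ h₁ f₁ hg₁ hh₁ hf₁ e₁
    have e : t * x⁻¹ * t = f⁻¹ * (t * h⁻¹ * t) * t * g⁻¹ := by
      have e0 : t * x⁻¹ * t = (t * x * t)⁻¹ := by
        rw [mul_inv_rev, mul_inv_rev, hti]; group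
      rw [e0, heq, mul_inv_rev, mul_inv_rev, mul_inv_rev, hti]
      calc f⁻¹ * (t * (h⁻¹ * g⁻¹)) = f⁻¹ * (t * h⁻¹ * (1 : G) * g⁻¹) := by group
        _ = f⁻¹ * (t * h⁻¹ * (t * t) * g⁻¹) := by rw [htt]
        _ = f⁻¹ * (t * h⁻¹ * t) * t * g⁻¹ := by group
    have hD : t * h⁻¹ * t ∈ MulAction.stabilizer G a ⊓ MulAction.stabilizer G (t • a) :=
      Lib.Helper27.rankOne_conj_mem_D hS (inv_mem hh)
    have := Lib.Helper27.rankOne_unique hS hg₁ hh₁ hf₁ (Q.inv_mem hf) hD (Q.inv_mem hg)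
      (e₁.symm.trans e)
    exact this
  · intro g₂ h₂ f₂ hg₂ hh₂ hf₂ e₂
    have e : t * f * t = (h⁻¹ * g⁻¹ * h⁻¹⁻¹) * h⁻¹ * t * x := by
      have e0 : t * f = h⁻¹ * g⁻¹ * (t * x * t) := by rw [heq]; group
      calc t * f * t = h⁻¹ * g⁻¹ * (t * x * t) * t := by rw [e0]
        _ = h⁻¹ * g⁻¹ * t * x * (t * t) := by group
        _ = h⁻¹ * g⁻¹ * t * x := by rw [htt, mul_one]
        _ = (h⁻¹ * g⁻¹ * h⁻¹⁻¹) * h⁻¹ * t * x := by group
    have hQ : h⁻¹ * g⁻¹ * h⁻¹⁻¹ ∈ Q := hS.conj_mem _ (inv_mem (hDa hh)) _ (Q.inv_mem hg)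
    exact Lib.Helper27.rankOne_unique hS hg₂ hh₂ hf₂ hQ (inv_mem hh) hx (e₂.symm.trans e)
  · intro c hc g₃ h₃ f₃ hg₃ hh₃ hf₃ e₃
    have hc' : t * c * t ∈ MulAction.stabilizer G a ⊓ MulAction.stabilizer G (t • a) :=
      Lib.Helper27.rankOne_conj_mem_D hS hc
    have hci : (t * c * t)⁻¹ = t * c⁻¹ * t := by
      rw [mul_inv_rev, mul_inv_rev, hti]; group
    have e : t * (c⁻¹ * x * c) * t
        = ((t * c * t)⁻¹ * g * (t * c * t)⁻¹⁻¹) * ((t * c * t)⁻¹ * h * c) * t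
          * ((t * c * t)⁻¹ * f * (t * c * t)⁻¹⁻¹) := by
      have e0 : t * (c⁻¹ * x * c) * t = (t * c⁻¹ * t) * (t * x * t) * (t * c * t) := by
        calc t * (c⁻¹ * x * c) * t = t * c⁻¹ * (1 : G) * x * (1 : G) * c * t := by group
          _ = t * c⁻¹ * (t * t) * x * (t * t) * c * t := by rw [htt]
          _ = (t * c⁻¹ * t) * (t * x * t) * (t * c * t) := by group
      rw [e0, heq, inv_inv, hci]
      have e1 : c * t * (t * c⁻¹ * t) = t := by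
        calc c * t * (t * c⁻¹ * t) = c * (t * t) * c⁻¹ * t := by group
          _ = t := by rw [htt]; group
      calc t * c⁻¹ * t * (g * h * t * f) * (t * c * t)
          = t * c⁻¹ * t * g * h * t * f * (t * c * t) := by group
        _ = t * c⁻¹ * t * g * h * (c * t * (t * c⁻¹ * t)) * f * (t * c * t) := by rw [e1]
        _ = t * c⁻¹ * t * g * (t * c * t) * (t * c⁻¹ * t * h * c) * t * (t * c⁻¹ * t * f * (t * c * t)) := by
            have e2 : (t * c * t) * (t * c⁻¹ * t) = 1 := by rw [← hci]; exact mul_inv_cancel _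
            calc t * c⁻¹ * t * g * h * (c * t * (t * c⁻¹ * t)) * f * (t * c * t)
                = t * c⁻¹ * t * g * (1 : G) * h * c * t * (t * c⁻¹ * t * f * (t * c * t)) := by group
              _ = t * c⁻¹ * t * g * ((t * c * t) * (t * c⁻¹ * t)) * h * c * t * (t * c⁻¹ * t * f * (t * c * t)) := by rw [e2]
              _ = t * c⁻¹ * t * g * (t * c * t) * (t * c⁻¹ * t * h * c) * t * (t * c⁻¹ * t * f * (t * c * t)) := by group
    have hQ1 : (t * c * t)⁻¹ * g * (t * c * t)⁻¹⁻¹ ∈ Q := hS.conj_mem _ (inv_mem (hDa hc')) _ hg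
    have hQ2 : (t * c * t)⁻¹ * f * (t * c * t)⁻¹⁻¹ ∈ Q := hS.conj_mem _ (inv_mem (hDa hc')) _ hf
    have hD : (t * c * t)⁻¹ * h * c ∈ MulAction.stabilizer G a ⊓ MulAction.stabilizer G (t • a) :=
      mul_mem (mul_mem (inv_mem hc') hh) hc
    have := Lib.Helper27.rankOne_unique hS hg₃ hh₃ hf₃ hQ1 hD hQ2 (e₃.symm.trans e)
    rw [inv_inv] at this
    exact this

end Cfsg.Agent.S1165
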