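import Mathlib
import Cfsg.Statements.S1168
import Cfsg.Agent.S1140

set_option autoImplicit false
open Cfsg

namespace Cfsg.Agent.S1168

universe u

/-- Coordinates with respect to a basis over the prime field. -/
theorem exists_coords (F : Type u) [Field F] [Fintype F] [CharP F 2] :
    ∃ (n : ℕ) (a : Fin n → F →+ F) (v : Fin n → F),
      ∀ (f : F →+ F) (x : F), f x = ∑ k, a k x * f (v k) := by
  letI : Algebra (ZMod 2) F := ZMod.algebra F 2
  let v := Module.finBasis (ZMod 2) F
  refine ⟨_, fun k => (algebraMap (ZMod 2) F : ZMod 2 →+ F).comp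
    ((v.coord k : F →ₗ[ZMod 2] ZMod 2) : F →+ ZMod 2), fun k => v k, ?_⟩
  intro f x
  conv_lhs => rw [← v.sum_repr x]
  rw [map_sum]
  apply Finset.sum_congr rfl
  intro k _
  rw [ZMod.map_smul f, Algebra.smul_def]
  rfl

/-- The span of the products of two automorphisms. -/
noncomputable def W (F : Type u) [Field F] : Submodule F (F → F) :=
  Submodule.span F (Set.range (fun p : (F ≃+* F) × (F ≃+* F) => fun x : F => p.1 x * p.2 x))

theorem mul_mem_W (F : Type u) [Field F] [Fintype F] [CharP F 2] (f₁ f₂ : F →+ F) :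
    (fun x => f₁ x * f₂ x) ∈ W F := by
  obtain ⟨-, h2, -⟩ := Cfsg.Agent.S1140.result (F := F)
  obtain ⟨s₁, c₁, h₁⟩ := h2 f₁
  obtain ⟨s₂, c₂, h₂⟩ := h2 f₂
  have e : (fun x => f₁ x * f₂ x)
      = ∑ σ ∈ s₁, ∑ τ ∈ s₂, (c₁ σ * c₂ τ) • (fun x : F => σ x * τ x) := by
    funext x
    rw [h₁ x, h₂ x, Finset.sum_mul_sum, Finset.sum_apply]
    apply Finset.sum_congr rfl
    intro σ _
    rw [Finset.sum_apply]
    apply Finset.sum_congr rfl
    intro τ _
    simp only [Pi.smul_apply, smul_eq_mul]
    ring
  rw [e]
  refine Submodule.sum_mem _ (fun σ _ => Submodule.sum_mem _ (fun τ _ => ?_))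
  exact Submodule.smul_mem _ _ (Submodule.subset_span ⟨(σ, τ), rfl⟩)

theorem add_mem_W (F : Type u) [Field F] [Fintype F] [CharP F 2] (f : F →+ F) :
    (fun x => f x) ∈ W F := by
  obtain ⟨-, h2, -⟩ := Cfsg.Agent.S1140.result (F := F)
  obtain ⟨s, c, h⟩ := h2 f
  have e : (fun x => f x)
      = ∑ σ ∈ s, (c σ) • (fun x : F => (σ.trans (frobeniusEquiv F 2).symm) x
          * (σ.trans (frobeniusEquiv F 2).symm) x) := by
    funext x
    rw [h x, Finset.sum_apply]
    apply Finset.sum_congr rfl
    intro σ _
    simp only [Pi.smul_apply, smul_eq_mul, RingEquiv.coe_trans, Function.comp_apply]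
    rw [← pow_two, frobeniusEquiv_symm_pow_p]
  rw [e]
  refine Submodule.sum_mem _ (fun σ _ => ?_)
  exact Submodule.smul_mem _ _ (Submodule.subset_span ⟨(_, _), rfl⟩)


/-- For a finite field `F` of characteristic 2: if `q : F → F` is quadratic over the prime field, i.e. `(x, y) ↦ q (x + y) + q x + q y` is additive in each variable, then `q x = Σ c_{σ,τ} σ(x) τ(x)` for some coefficients indexed by pairs of field automorphisms. -/
theorem result {F : Type*} [Field F] [Fintype F] [CharP F 2]
    (q : F → F)
    (hq : ∀ x y z : F, q (x + y + z) + q (x + y) + q (x + z) + q (y + z) + q x + q y + q z = 0) :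
    ∃ (s : Finset ((F ≃+* F) × (F ≃+* F))) (c : (F ≃+* F) × (F ≃+* F) → F),
      ∀ x : F, q x = ∑ p ∈ s, c p * (p.1 x * p.2 x) := by
  have h2 : (2 : F) = 0 := CharTwo.two_eq_zero
  have hadd : ∀ x : F, x + x = 0 := fun x => CharTwo.add_self_eq_zero x
  have hq0 : q 0 = 0 := by
    have := hq 0 0 0
    simp only [add_zero] at this
    linear_combination this - 3 * q 0 * h2
  -- the polar form
  have hB2 : ∀ x x' y : F, q (x + x' + y) + q (x + x') + q y
      = (q (x + y) + q x + q y) + (q (x' + y) + q x' + q y) := by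
    intro x x' y
    linear_combination hq x x' y - (q (x + y) + q (x' + y) + q x + q x' + q y) * h2
  obtain ⟨n, a, v, hE⟩ := exists_coords F
  -- additive maps x ↦ B x y and y ↦ B x y
  let Bl : F → F →+ F := fun y => AddMonoidHom.mk' (fun x => q (x + y) + q x + q y) (by
    intro x x'
    exact hB2 x x' y)
  have hBl : ∀ x y, Bl y x = q (x + y) + q x + q y := fun x y => rfl
  have hBsymm : ∀ x y, Bl y x = Bl x y := by
    intro x y
    rw [hBl, hBl, add_comm x y]; ring
  have hBself : ∀ x, Bl x x = 0 := by
    intro x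
    rw [hBl, hadd x, hq0, zero_add, hadd]
  -- expansion of B
  have hBexp : ∀ x y, Bl y x = ∑ k, ∑ l, a k x * a l y * Bl (v l) (v k) := by
    intro x y
    rw [hE (Bl y) x]
    apply Finset.sum_congr rfl
    intro k _
    rw [hBsymm (v k) y, hE (Bl (v k)) y, Finset.mul_sum]
    apply Finset.sum_congr rfl
    intro l _
    rw [hBsymm (v l) (v k)]; ring
  -- the half form C
  set C : F → F → F := fun x y => ∑ k, ∑ l, if k < l then a k x * a l y * Bl (v l) (v k) else 0
    with hC
  have hCC : ∀ x y, C x y + C y x = Bl y x := by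
    intro x y
    rw [hBexp x y, hC]
    simp only
    have e : (∑ k, ∑ l, if k < l then a k y * a l x * Bl (v l) (v k) else 0)
        = ∑ k, ∑ l, if l < k then a l y * a k x * Bl (v k) (v l) else 0 := Finset.sum_comm
    rw [e, ← Finset.sum_add_distrib]
    apply Finset.sum_congr rfl
    intro k _
    rw [← Finset.sum_add_distrib]
    apply Finset.sum_congr rfl
    intro l _
    rcases lt_trichotomy k l with h | h | h
    · rw [if_pos h, if_neg (not_lt.mpr h.le), add_zero]
    · subst h
      simp only [lt_irrefl, if_false, add_zero]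
      rw [hBself, mul_zero]
    · rw [if_neg (not_lt.mpr h.le), if_pos h, zero_add, hBsymm (v k) (v l)]; ring
  have hCadd : ∀ x y, C (x + y) (x + y) = C x x + C x y + C y x + C y y := by
    intro x y
    rw [hC]
    simp only [← Finset.sum_add_distrib]
    apply Finset.sum_congr rfl
    intro k _
    apply Finset.sum_congr rfl
    intro l _
    split_ifs
    · rw [map_add, map_add]; ring
    · ring
  -- r = q + C(x,x) is additive
  let r : F →+ F := AddMonoidHom.mk' (fun x => q x + C x x) (by
    intro x y
    have h1 := hCC x y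
    have h3 := hBl x y
    have h4 := hCadd x y
    linear_combination h4 + h1 + h3 + q (x + y) * h2)
  have hr : ∀ x, r x = q x + C x x := fun x => rfl
  -- q = r + C(x,x) ∈ W
  have hqW : q ∈ W F := by
    have e : q = (fun x => r x) + (fun x => C x x) := by
      funext x
      simp only [Pi.add_apply]
      rw [hr]
      linear_combination (-(C x x)) * h2
    rw [e]
    refine Submodule.add_mem _ (add_mem_W F r) ?_
    have e2 : (fun x => C x x)
        = ∑ k, ∑ l, (if k < l then Bl (v l) (v k) else 0) • (fun x : F => a k x * a l x) := by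
      funext x
      rw [hC, Finset.sum_apply]
      apply Finset.sum_congr rfl
      intro k _
      rw [Finset.sum_apply]
      apply Finset.sum_congr rfl
      intro l _
      simp only [Pi.smul_apply, smul_eq_mul]
      split_ifs
      · ring
      · ring
    rw [e2]
    refine Submodule.sum_mem _ (fun k _ => Submodule.sum_mem _ (fun l _ => ?_))
    exact Submodule.smul_mem _ _ (mul_mem_W F (a k) (a l))
  obtain ⟨c, hc⟩ := Finsupp.mem_span_range_iff_exists_finsupp.mp hqW
  refine ⟨c.support, c, fun x => ?_⟩
  have := congrFun hc x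
  rw [← this, Finsupp.sum, Finset.sum_apply]
  apply Finset.sum_congr rfl
  intro p _
  simp only [Pi.smul_apply, smul_eq_mul]

end Cfsg.Agent.S1168
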