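import Mathlib
import Cfsg.Statements.S1176
import Cfsg.Agent.Lib.Helper27.Isolated

set_option autoImplicit false
open Cfsg

namespace Cfsg.Agent.S1176

/-- Let x₀ be an involution of the finite group G and D its conjugacy class. Assume (a) for each x ∈ D the subgroup W(x) generated by the members of D commuting with x is a 2-group of nilpotency class at most 2, and (b) the product of two distinct commuting members of D again lies in D. Then for all x, y ∈ D, if xy has even order greater than 2, its order is 4. -/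
theorem result {G : Type*} [Group G] [Finite G] (x₀ : G) (hx₀ : orderOf x₀ = 2) (ha : ∀ x : G, IsConj x₀ x → IsPGroup 2 ↥(Subgroup.closure {y : G | IsConj x₀ y ∧ Commute y x}) ∧ ⁅⁅Subgroup.closure {y : G | IsConj x₀ y ∧ Commute y x}, Subgroup.closure {y : G | IsConj x₀ y ∧ Commute y x}⁆, Subgroup.closure {y : G | IsConj x₀ y ∧ Commute y x}⁆ = ⊥) (hb : ∀ x y : G, IsConj x₀ x → IsConj x₀ y → x ≠ y → Commute x y → IsConj x₀ (x * y)) (x y : G) (hx : IsConj x₀ x) (hy : IsConj x₀ y) (heven : Even (orderOf (x * y))) (hgt : 2 < orderOf (x * y)) : orderOf (x * y) = 4 := by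
  have hord : ∀ w : G, IsConj x₀ w → orderOf w = 2 := by
    intro w hw
    obtain ⟨c, hc⟩ := isConj_iff.mp hw
    rw [← hc]
    exact Lib.Helper27.orderOf_conj_two hx₀ c
  have hxx : x * x = 1 := Lib.Helper27.inv_mul_self_of_orderOf_two (hord x hx)
  have hyy : y * y = 1 := Lib.Helper27.inv_mul_self_of_orderOf_two (hord y hy)
  have hxi : x⁻¹ = x := inv_eq_of_mul_eq_one_left hxx
  have hyi : y⁻¹ = y := inv_eq_of_mul_eq_one_left hyy
  have F1 : ∀ n : ℕ, x * (x * y) ^ n * x = ((x * y) ^ n)⁻¹ := fun n => by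
    rw [Lib.Helper27.conj_pow_mul_of_involutions hxx hyy n]
    exact eq_inv_of_mul_eq_one_right (Lib.Helper27.mul_pow_mul_pow_of_involutions hxx hyy n)
  have F2 : ∀ n : ℕ, y * (x * y) ^ n * y = ((x * y) ^ n)⁻¹ := fun n => by
    rw [Lib.Helper27.conj_pow_mul_of_involutions' hyy hxx n]
    exact eq_inv_of_mul_eq_one_right (Lib.Helper27.mul_pow_mul_pow_of_involutions hxx hyy n)
  have F3 : x * (x * y) = y := by rw [← mul_assoc, hxx, one_mul]
  obtain ⟨k, hk⟩ := heven
  generalize x * y = r at F1 F2 F3 hk hgt ⊢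
  have hk0 : 0 < k := by omega
  have hrk : r ^ k ≠ 1 := by
    intro h
    exact absurd (orderOf_le_of_pow_eq_one hk0 h) (by omega)
  have hr2k : r ^ k * r ^ k = 1 := by
    rw [← pow_add, ← hk, pow_orderOf_eq_one]
  have hrki : (r ^ k)⁻¹ = r ^ k := inv_eq_of_mul_eq_one_left hr2k
  have hxr : x * r ^ k * x = r ^ k := by rw [F1, hrki]
  have hyr : y * r ^ k * y = r ^ k := by rw [F2, hrki]
  have hxrc : x * r ^ k = r ^ k * x := by
    calc x * r ^ k = x * r ^ k * (x * x) := by rw [hxx, mul_one]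
      _ = (x * r ^ k * x) * x := by group
      _ = r ^ k * x := by rw [hxr]
  have hyrc : y * r ^ k = r ^ k * y := by
    calc y * r ^ k = y * r ^ k * (y * y) := by rw [hyy, mul_one]
      _ = (y * r ^ k * y) * y := by group
      _ = r ^ k * y := by rw [hyr]
  -- conjugating by (r^j)⁻¹
  have hcj : ∀ j : ℕ, (r ^ j)⁻¹ * x = x * r ^ j := by
    intro j
    have h := F1 j
    calc (r ^ j)⁻¹ * x = (x * r ^ j * x) * x := by rw [h]
      _ = x * r ^ j * (x * x) := by group
      _ = x * r ^ j := by rw [hxx, mul_one]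
  -- w = x * r^k is conjugate to x₀
  have hw : IsConj x₀ (x * r ^ k) := by
    rcases Nat.even_or_odd' k with ⟨j, hj | hj⟩
    · refine hx.trans (isConj_iff.mpr ⟨(r ^ j)⁻¹, ?_⟩)
      rw [inv_inv, hcj, hj, two_mul, pow_add, mul_assoc]
    · refine hy.trans (isConj_iff.mpr ⟨(r ^ j)⁻¹, ?_⟩)
      rw [inv_inv, ← F3, ← mul_assoc, hcj, hj]
      have e2 : r ^ (2 * j + 1) = r ^ j * r * r ^ j := by
        rw [← pow_succ, ← pow_add]; congr 1; omega
      rw [e2]
      simp only [mul_assoc]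
  have hcomm : Commute x (x * r ^ k) := by
    show x * (x * r ^ k) = x * r ^ k * x
    rw [hxr, ← mul_assoc, hxx, one_mul]
  have hne : x ≠ x * r ^ k := by
    intro h
    apply hrk
    have : x * 1 = x * r ^ k := by rw [mul_one]; exact h
    exact (mul_left_cancel this).symm
  have hz : IsConj x₀ (r ^ k) := by
    have h0 := hb x (x * r ^ k) hx hw hne hcomm
    rw [← mul_assoc, hxx, one_mul] at h0
    exact h0
  obtain ⟨-, hclass⟩ := ha (r ^ k) hz
  have hxW : x ∈ Subgroup.closure {y : G | IsConj x₀ y ∧ Commute y (r ^ k)} :=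
    Subgroup.subset_closure ⟨hx, hxrc⟩
  have hyW : y ∈ Subgroup.closure {y : G | IsConj x₀ y ∧ Commute y (r ^ k)} :=
    Subgroup.subset_closure ⟨hy, hyrc⟩
  have h1 := Subgroup.commutator_mem_commutator (Subgroup.commutator_mem_commutator hxW hyW) hxW
  rw [hclass, Subgroup.mem_bot] at h1
  have h1' : (x * y * x⁻¹ * y⁻¹) * x * (x * y * x⁻¹ * y⁻¹)⁻¹ * x⁻¹ = 1 := h1
  -- the commutator of x and y is r^2
  have h2 : x * y * x⁻¹ * y⁻¹ = r ^ 2 := by
    rw [hxi, hyi, ← F3, pow_two]
    have e : x * (x * r) * x * (x * r) = (x * x) * r * (x * x) * r := by simp only [mul_assoc]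
    rw [e, hxx, one_mul, mul_one]
  rw [h2, hxi] at h1'
  have h5 : r ^ 2 = x * r ^ 2 * x := by
    have e1 : r ^ 2 * x * (r ^ 2)⁻¹ = x := by
      have := eq_inv_of_mul_eq_one_left h1'
      rw [hxi] at this
      exact this
    have e2 : r ^ 2 * x = x * r ^ 2 := mul_inv_eq_iff_eq_mul.mp e1
    rw [← e2, mul_assoc, hxx, mul_one]
  have h6 : r ^ 4 = 1 := by
    have e : r ^ 2 = (r ^ 2)⁻¹ := by
      have := F1 2
      rw [← h5] at this
      exact this
    have e4 : r ^ 4 = r ^ 2 * r ^ 2 := by rw [← pow_add]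
    rw [e4]
    nth_rewrite 1 [e]
    rw [inv_mul_cancel]
  have hdvd : orderOf r ∣ 4 := orderOf_dvd_of_pow_eq_one h6
  have hle : orderOf r ≤ 4 := Nat.le_of_dvd (by norm_num) hdvd
  interval_cases h : orderOf r
  · omega
  · rfl

end Cfsg.Agent.S1176
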