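import Mathlib
import Cfsg.Statements.S1177

set_option autoImplicit false
open Cfsg

namespace Cfsg.Agent.S1177

/-- Let A be a nontrivial elementary abelian 2-subgroup of a finite group G which is a T.I. set (each conjugate of A meets A trivially or equals A) and which does not commute elementwise with any conjugate of A other than A itself. Then for every a ∈ A, a ≠ 1, every conjugate of A contained in C_G(a) is equal to A (A is weakly closed in C_G(a)). -/
theorem result {G : Type*} [Group G] [Finite G] (A : Subgroup G) (hA : Cfsg.IsElementaryAbelian 2 A) (hA1 : A ≠ ⊥) (hTI : ∀ g : G, A.map (MulAut.conj g).toMonoidHom ⊓ A = ⊥ ∨ A.map (MulAut.conj g).toMonoidHom = A) (hb : ∀ g : G, (∀ a ∈ A, ∀ b ∈ A.map (MulAut.conj g).toMonoidHom, a * b = b * a) → A.map (MulAut.conj g).toMonoidHom = A) (a : G) (ha : a ∈ A) (ha1 : a ≠ 1) (g : G) (hg : A.map (MulAut.conj g).toMonoidHom ≤ Subgroup.centralizer ({a} : Set G)) : A.map (MulAut.conj g).toMonoidHom = A := by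
  obtain ⟨hAcomm, hAsq⟩ := hA
  have hAc : ∀ u ∈ A, ∀ v ∈ A, u * v = v * u := by
    intro u hu v hv
    have := hAcomm.is_comm.comm ⟨u, hu⟩ ⟨v, hv⟩
    exact congrArg Subtype.val this
  have hmem : ∀ (h y : G), y ∈ A.map (MulAut.conj h).toMonoidHom ↔ h⁻¹ * y * h ∈ A := by
    intro h y
    constructor
    · rintro ⟨u, hu, rfl⟩
      have : h⁻¹ * (MulAut.conj h).toMonoidHom u * h = u := by simp [mul_assoc]
      rw [this]; exact hu
    · intro hy
      refine ⟨h⁻¹ * y * h, hy, ?_⟩
      simp [mul_assoc]
  -- either B = A or B ⊓ A = ⊥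
  rcases hTI g with hdisj | heq
  swap
  · exact heq
  apply hb g
  set B := A.map (MulAut.conj g).toMonoidHom with hB
  -- B normalizes A
  have hnorm : ∀ b ∈ B, ∀ y ∈ A, b * y * b⁻¹ ∈ A := by
    intro b hb' y hy
    have hba : b * a = a * b := by
      have := hg hb'
      rw [Subgroup.mem_centralizer_singleton_iff] at this
      exact this
    have h1 : A.map (MulAut.conj b).toMonoidHom = A := by
      rcases hTI b with h | h
      · exfalso
        have : a ∈ A.map (MulAut.conj b).toMonoidHom ⊓ A := by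
          refine Subgroup.mem_inf.mpr ⟨?_, ha⟩
          rw [hmem]
          have : b⁻¹ * a * b = a := by
            calc b⁻¹ * a * b = b⁻¹ * (a * b) := by group
              _ = b⁻¹ * (b * a) := by rw [hba]
              _ = a := by group
          rw [this]; exact ha
        rw [h, Subgroup.mem_bot] at this
        exact ha1 this
      · exact h
    rw [← h1]
    exact ⟨y, hy, by simp⟩
  -- squares in B are trivial
  have hBsq : ∀ b ∈ B, b * b = 1 := by
    rintro b ⟨u, hu, rfl⟩
    have := hAsq u hu
    rw [pow_two] at this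
    simp only [MulEquiv.coe_toMonoidHom, MulAut.conj_apply]
    calc g * u * g⁻¹ * (g * u * g⁻¹) = g * (u * u) * g⁻¹ := by group
      _ = 1 := by rw [this]; group
  have hAsq' : ∀ u ∈ A, u * u = 1 := by
    intro u hu
    have := hAsq u hu
    rwa [pow_two] at this
  -- the key claim
  have claim : ∀ b ∈ B, b ≠ 1 → ∀ y ∈ A, y * b = b * y → ∀ b' ∈ B, y * b' = b' * y := by
    intro b hb' hb1 y hy hyb b' hb''
    -- conj_y B = B
    have hyB : ∀ c ∈ B, y * c * y⁻¹ ∈ B := by
      have h1 : A.map (MulAut.conj (g⁻¹ * y * g)).toMonoidHom = A := by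
        rcases hTI (g⁻¹ * y * g) with h | h
        · exfalso
          have hb2 : g⁻¹ * b * g ∈ A := (hmem g b).mp hb'
          have : g⁻¹ * b * g ∈ A.map (MulAut.conj (g⁻¹ * y * g)).toMonoidHom ⊓ A := by
            refine Subgroup.mem_inf.mpr ⟨?_, hb2⟩
            rw [hmem]
            have e : (g⁻¹ * y * g)⁻¹ * (g⁻¹ * b * g) * (g⁻¹ * y * g) = g⁻¹ * (y⁻¹ * (b * y)) * g := by
              group
            rw [e, ← hyb]
            have e2 : g⁻¹ * (y⁻¹ * (y * b)) * g = g⁻¹ * b * g := by group
            rw [e2]; exact hb2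
          rw [h, Subgroup.mem_bot] at this
          apply hb1
          calc b = g * (g⁻¹ * b * g) * g⁻¹ := by group
            _ = 1 := by rw [this]; group
        · exact h
      intro c hc
      rw [hB, hmem]
      have hc2 : g⁻¹ * c * g ∈ A := (hmem g c).mp hc
      have : g⁻¹ * (y * c * y⁻¹) * g ∈ A.map (MulAut.conj (g⁻¹ * y * g)).toMonoidHom := by
        refine ⟨g⁻¹ * c * g, hc2, ?_⟩
        simp only [MulEquiv.coe_toMonoidHom, MulAut.conj_apply]
        group
      rw [h1] at this
      exact this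
    have h2 : y * b' * y⁻¹ * b'⁻¹ ∈ B := B.mul_mem (hyB b' hb'') (B.inv_mem hb'')
    have h3 : y * b' * y⁻¹ * b'⁻¹ ∈ A := by
      have : y * b' * y⁻¹ * b'⁻¹ = y * (b' * y⁻¹ * b'⁻¹) := by group
      rw [this]
      exact A.mul_mem hy (hnorm b' hb'' y⁻¹ (A.inv_mem hy))
    have h4 : y * b' * y⁻¹ * b'⁻¹ ∈ B ⊓ A := Subgroup.mem_inf.mpr ⟨h2, h3⟩
    rw [hdisj, Subgroup.mem_bot] at h4
    calc y * b' = (y * b' * y⁻¹ * b'⁻¹) * b' * y := by group
      _ = b' * y := by rw [h4, one_mul]
  intro x hx b₀ hb₀
  by_contra hne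
  -- the subgroup A₀ of elements of A commuting with B
  have hinj : Function.Injective (fun b : B =>
      (⟨x * ((b : G) * x * (b : G)⁻¹), by
        refine Subgroup.mem_inf.mpr ⟨A.mul_mem hx (hnorm b b.2 x hx), ?_⟩
        rw [Subgroup.mem_centralizer_iff]
        intro b' hb'
        by_cases hb1 : (b : G) = 1
        · rw [hb1]
          have : x * (1 * x * (1 : G)⁻¹) = 1 := by
            rw [one_mul, inv_one, mul_one]; exact hAsq' x hx
          rw [this, mul_one, one_mul]
        · have hcomm : x * ((b : G) * x * (b : G)⁻¹) * (b : G) = (b : G) * (x * ((b : G) * x * (b : G)⁻¹)) := by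
            have hbb := hBsq b b.2
            have hbi : (b : G)⁻¹ = b := inv_eq_of_mul_eq_one_left hbb
            have hc := hAc x hx _ (hnorm b b.2 x hx)
            rw [hbi] at hc ⊢
            calc x * ((b : G) * x * b) * b = x * (b * x * (b * b)) := by group
              _ = x * (b * x) := by rw [hbb, mul_one]
              _ = (b * b) * x * (b * x) := by rw [hbb, one_mul]
              _ = b * ((b * x * b) * x) := by group
              _ = b * (x * (b * x * b)) := by rw [hc]
          exact (claim b b.2 hb1 _ (A.mul_mem hx (hnorm b b.2 x hx)) hcomm b' hb').symm⟩ :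
        (A ⊓ Subgroup.centralizer (B : Set G) : Subgroup G))) := by
    intro b b' h
    have h' : x * ((b : G) * x * (b : G)⁻¹) = x * ((b' : G) * x * (b' : G)⁻¹) :=
      congrArg Subtype.val h
    have h2 : (b : G) * x * (b : G)⁻¹ = (b' : G) * x * (b' : G)⁻¹ := mul_left_cancel h'
    by_contra hbb
    have hb1 : (b' : G)⁻¹ * (b : G) ≠ 1 := by
      intro h3
      apply hbb
      apply Subtype.ext
      calc (b : G) = b' * ((b' : G)⁻¹ * b) := by group
        _ = b' := by rw [h3, mul_one]
    have hcomm : x * ((b' : G)⁻¹ * (b : G)) = ((b' : G)⁻¹ * (b : G)) * x := by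
      calc x * ((b' : G)⁻¹ * (b : G)) = (b' : G)⁻¹ * ((b' : G) * x * (b' : G)⁻¹) * b := by group
        _ = (b' : G)⁻¹ * ((b : G) * x * (b : G)⁻¹) * b := by rw [h2]
        _ = ((b' : G)⁻¹ * (b : G)) * x := by group
    exact hne (claim _ (B.mul_mem (B.inv_mem b'.2) b.2) hb1 x hx hcomm b₀ hb₀)
  have hcard1 : Nat.card B ≤ Nat.card (A ⊓ Subgroup.centralizer (B : Set G) : Subgroup G) :=
    Nat.card_le_card_of_injective _ hinj
  have hcard2 : Nat.card B = Nat.card A :=
    Subgroup.card_map_of_injective (MulAut.conj g).injective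
  have hcard3 : Nat.card (A ⊓ Subgroup.centralizer (B : Set G) : Subgroup G) < Nat.card A := by
    have hle : (A ⊓ Subgroup.centralizer (B : Set G) : Subgroup G) ≤ A := inf_le_left
    have h1 := Subgroup.card_le_of_le hle
    rcases Nat.lt_or_ge (Nat.card (A ⊓ Subgroup.centralizer (B : Set G) : Subgroup G)) (Nat.card A) with h | h
    · exact h
    · exfalso
      have heq := Subgroup.eq_of_le_of_card_ge hle h
      have hxmem : x ∈ (A ⊓ Subgroup.centralizer (B : Set G) : Subgroup G) := by rw [heq]; exact hx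
      have := (Subgroup.mem_inf.mp hxmem).2
      rw [Subgroup.mem_centralizer_iff] at this
      exact hne (this b₀ hb₀).symm
  omega

end Cfsg.Agent.S1177
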