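import Mathlib
import Cfsg.Statements.S1178

set_option autoImplicit false
open Cfsg

namespace Cfsg.Agent.S1178

/-- Let A be a subgroup of a Sylow 2-subgroup S of the finite group G which is weakly closed in S. If a conjugate g A g⁻¹ commutes elementwise with A, then g A g⁻¹ = A. -/
theorem result {G : Type*} [Group G] [Finite G] (S : Sylow 2 G) (A : Subgroup G) (hW : Cfsg.IsWeaklyClosed A (S : Subgroup G)) (g : G) (hc : ∀ a ∈ A, ∀ b ∈ A.map (MulAut.conj g).toMonoidHom, a * b = b * a) : A.map (MulAut.conj g).toMonoidHom = A := by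
  have : Fact (Nat.Prime 2) := ⟨Nat.prime_two⟩
  obtain ⟨hAS, hwc⟩ := hW
  set B := A.map (MulAut.conj g).toMonoidHom with hB
  have hA2 : IsPGroup 2 A := S.isPGroup'.to_le hAS
  have hB2 : IsPGroup 2 B := hA2.map (MulAut.conj g).toMonoidHom
  have hnorm : A ≤ Subgroup.normalizer (B : Set G) := by
    intro a ha
    rw [Subgroup.mem_normalizer_iff]
    intro b
    constructor
    · intro hb
      have : a * b * a⁻¹ = b := by rw [hc a ha b hb]; group
      rw [this]; exact hb
    · intro hb
      have h1 := hc a ha _ hb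
      have : b = a * b * a⁻¹ := by
        apply mul_left_cancel (a := a)
        rw [h1]; group
      rw [this]; exact hb
  have hsup : IsPGroup 2 (A ⊔ B : Subgroup G) := IsPGroup.to_sup_of_normal_right' hA2 hB2 hnorm
  obtain ⟨Q, hQ⟩ := hsup.exists_le_sylow
  obtain ⟨h, rfl⟩ := MulAction.exists_smul_eq G S Q
  -- A ≤ h • S, B ≤ h • S
  have hAQ : A ≤ ((h • S : Sylow 2 G) : Subgroup G) := le_trans le_sup_left hQ
  have hBQ : B ≤ ((h • S : Sylow 2 G) : Subgroup G) := le_trans le_sup_right hQ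
  have hmem : ∀ x : G, x ∈ ((h • S : Sylow 2 G) : Subgroup G) → h⁻¹ * x * h ∈ (S : Subgroup G) := by
    intro x hx
    rw [Sylow.coe_subgroup_smul, Subgroup.mem_pointwise_smul_iff_inv_smul_mem] at hx
    simpa [MulAut.smul_def] using hx
  -- conj by h⁻¹ of A lies in S
  have key1 : A.map (MulAut.conj h⁻¹).toMonoidHom ≤ S := by
    rintro _ ⟨a, ha, rfl⟩
    simpa using hmem a (hAQ ha)
  have key2 : A.map (MulAut.conj (h⁻¹ * g)).toMonoidHom ≤ S := by
    rintro _ ⟨a, ha, rfl⟩
    have hb : g * a * g⁻¹ ∈ B := ⟨a, ha, by simp⟩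
    simpa [mul_assoc] using hmem _ (hBQ hb)
  have e1 := hwc _ key1
  have e2 := hwc _ key2
  -- B = conj h (conj (h⁻¹ g) A) = conj h A = A
  have e3 : A.map (MulAut.conj h).toMonoidHom = A := by
    conv_lhs => rw [← e1]
    rw [Subgroup.map_map]
    convert Subgroup.map_id A using 2
    ext x; simp [mul_assoc]
  have e4 : B = (A.map (MulAut.conj (h⁻¹ * g)).toMonoidHom).map (MulAut.conj h).toMonoidHom := by
    rw [Subgroup.map_map, hB]
    congr 1
    ext x; simp [mul_assoc]
  rw [e4, e2, e3]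

end Cfsg.Agent.S1178
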