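import Mathlib
import Cfsg.Statements.S1181
import Cfsg.Agent.Lib.Helper27.Isolated

set_option autoImplicit false
open Cfsg

namespace Cfsg.Agent.S1181

/-- Let z be an isolated involution of the finite group G and N a normal subgroup with z ∉ N. Then the centralizer of zN in G/N is the image of C_G(z), and zN is an isolated involution of G/N. -/
theorem result {G : Type*} [Group G] [Finite G] (z : G) (hz : Cfsg.IsIsolatedInvolution z) (N : Subgroup G) [N.Normal] (hzN : z ∉ N) : Subgroup.centralizer ({(QuotientGroup.mk z : G ⧸ N)} : Set (G ⧸ N)) = (Subgroup.centralizer ({z} : Set G)).map (QuotientGroup.mk' N) ∧ Cfsg.IsIsolatedInvolution (QuotientGroup.mk z : G ⧸ N) := by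
  have hzz : z * z = 1 := Lib.Helper27.inv_mul_self_of_orderOf_two hz.1
  have hzi : z⁻¹ = z := Lib.Helper27.inv_eq_self_of_orderOf_two hz.1
  constructor
  · ext q
    obtain ⟨g, rfl⟩ := QuotientGroup.mk_surjective q
    rw [Subgroup.mem_centralizer_singleton_iff, Subgroup.mem_map]
    constructor
    · intro h
      -- t z ∈ N
      have h1 : (QuotientGroup.mk (g * z * g⁻¹ * z) : G ⧸ N) = 1 := by
        have e : (QuotientGroup.mk (g * z * g⁻¹ * z) : G ⧸ N)
            = (QuotientGroup.mk g * QuotientGroup.mk z) * (QuotientGroup.mk g)⁻¹ * QuotientGroup.mk z := by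
          simp
        rw [e, h]
        have : (QuotientGroup.mk z : G ⧸ N) * QuotientGroup.mk z = 1 := by
          rw [← QuotientGroup.mk_mul, hzz]; rfl
        calc (QuotientGroup.mk z : G ⧸ N) * QuotientGroup.mk g * (QuotientGroup.mk g)⁻¹ * QuotientGroup.mk z
            = QuotientGroup.mk z * QuotientGroup.mk z := by group
          _ = 1 := this
      have h2 : g * z * g⁻¹ * z ∈ N := (QuotientGroup.eq_one_iff _).mp h1
      obtain ⟨k, hk, -, -, hk2⟩ := Lib.Helper27.exists_inverted_conj hz g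
      have hkN : k ∈ N := by
        have hle : Subgroup.zpowers (g * z * g⁻¹ * z) ≤ N := by
          rw [Subgroup.zpowers_le]; exact h2
        exact hle hk
      refine ⟨k⁻¹ * g, ?_, ?_⟩
      · rw [Subgroup.mem_centralizer_singleton_iff]
        have e : k⁻¹ * g * z * (k⁻¹ * g)⁻¹ = z := by
          have e1 : k⁻¹ * g * z * (k⁻¹ * g)⁻¹ = k⁻¹ * (g * z * g⁻¹) * k := by group
          rw [e1, ← hk2]; group
        calc k⁻¹ * g * z = (k⁻¹ * g * z * (k⁻¹ * g)⁻¹) * (k⁻¹ * g) := by group
          _ = z * (k⁻¹ * g) := by rw [e]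
      · show (QuotientGroup.mk (k⁻¹ * g) : G ⧸ N) = QuotientGroup.mk g
        rw [QuotientGroup.mk_mul]
        have : (QuotientGroup.mk k⁻¹ : G ⧸ N) = 1 := (QuotientGroup.eq_one_iff _).mpr (N.inv_mem hkN)
        rw [this, one_mul]
    · rintro ⟨c, hc, hcq⟩
      rw [Subgroup.mem_centralizer_singleton_iff] at hc
      have hcq' : (QuotientGroup.mk c : G ⧸ N) = QuotientGroup.mk g := hcq
      rw [← hcq', ← QuotientGroup.mk_mul, ← QuotientGroup.mk_mul, hc]
  · have hne : (QuotientGroup.mk z : G ⧸ N) ≠ 1 := by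
      intro h
      exact hzN ((QuotientGroup.eq_one_iff _).mp h)
    have hsq : (QuotientGroup.mk z : G ⧸ N) ^ 2 = 1 := by
      rw [pow_two, ← QuotientGroup.mk_mul, hzz]; rfl
    have hord : orderOf (QuotientGroup.mk z : G ⧸ N) = 2 := orderOf_eq_prime hsq hne
    refine ⟨hord, ?_⟩
    intro q hq
    obtain ⟨g, rfl⟩ := QuotientGroup.mk_surjective q
    have hodd : Odd (orderOf (z * (g * z * g⁻¹))) := Lib.Helper27.odd_orderOf_mul_conj hz g
    have htt : (g * z * g⁻¹) * (g * z * g⁻¹) = 1 :=
      Lib.Helper27.inv_mul_self_of_orderOf_two (Lib.Helper27.orderOf_conj_two hz.1 g)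
    have h6 : (QuotientGroup.mk g : G ⧸ N) * QuotientGroup.mk z * (QuotientGroup.mk g)⁻¹
        = QuotientGroup.mk (g * z * g⁻¹) := by simp
    rw [h6] at hq ⊢
    generalize g * z * g⁻¹ = t at hq hodd htt ⊢
    have hq' : (QuotientGroup.mk z : G ⧸ N) * (QuotientGroup.mk t)
        = (QuotientGroup.mk t) * (QuotientGroup.mk z : G ⧸ N) := hq.eq
    -- (z t)^2 ∈ N
    have h1 : (z * t) * (z * t) ∈ N := by
      rw [← QuotientGroup.eq_one_iff]
      have e : (z * t) * (z * t) = (z * t) * (t * z)⁻¹ := by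
        rw [Lib.Helper27.mul_comm_eq_inv_of_involutions hzz htt, inv_inv]
      rw [e, QuotientGroup.mk_mul, QuotientGroup.mk_inv, QuotientGroup.mk_mul, QuotientGroup.mk_mul, hq']
      exact mul_inv_cancel _
    obtain ⟨j, hj⟩ := hodd
    have h2 : z * t ∈ N := by
      have e : z * t = ((z * t) * (z * t)) ^ (j + 1) := by
        rw [← pow_two, ← pow_mul]
        have : 2 * (j + 1) = orderOf (z * t) + 1 := by omega
        rw [this, pow_succ, pow_orderOf_eq_one, one_mul]
      rw [e]
      exact N.pow_mem h1 _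
    have h3 : (QuotientGroup.mk z : G ⧸ N) * QuotientGroup.mk t = 1 := by
      rw [← QuotientGroup.mk_mul]
      exact (QuotientGroup.eq_one_iff _).mpr h2
    have h4 : (QuotientGroup.mk z : G ⧸ N) * QuotientGroup.mk z = 1 := by
      rw [← QuotientGroup.mk_mul, hzz]; rfl
    have h5 : (QuotientGroup.mk t : G ⧸ N) = QuotientGroup.mk z := by
      have := h3.trans h4.symm
      exact mul_left_cancel this
    exact h5

end Cfsg.Agent.S1181
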