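import Mathlib
import Cfsg.Statements.S1182
import Cfsg.Agent.Lib.Helper27.Isolated

set_option autoImplicit false
open Cfsg

namespace Cfsg.Agent.S1182

/-- Let z be an isolated involution of the finite group G and H a subgroup normalized by z. If x, y ∈ H both commute with z and y = h x h⁻¹ for some h ∈ H, then y = c x c⁻¹ for some c ∈ H commuting with z. -/
theorem result {G : Type*} [Group G] [Finite G] (z : G) (hz : Cfsg.IsIsolatedInvolution z) (H : Subgroup G) (hzH : z ∈ Subgroup.normalizer (H : Set G)) (x y : G) (hx : x ∈ H) (hy : y ∈ H) (hxz : Commute x z) (hyz : Commute y z) (h : G) (hh : h ∈ H) (hconj : h * x * h⁻¹ = y) : ∃ c ∈ H, Commute c z ∧ c * x * c⁻¹ = y := by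
  obtain ⟨k, hk, -, -, hk2⟩ := Lib.Helper27.exists_inverted_conj hz h
  have hzi : z⁻¹ = z := Lib.Helper27.inv_eq_self_of_orderOf_two hz.1
  -- t * z ∈ H
  have htz : h * z * h⁻¹ * z ∈ H := by
    have h1 : z * h⁻¹ * z⁻¹ ∈ H := (Subgroup.mem_normalizer_iff.mp hzH h⁻¹).mp (H.inv_mem hh)
    have e : h * z * h⁻¹ * z = h * (z * h⁻¹ * z⁻¹) := by rw [hzi]; group
    rw [e]
    exact H.mul_mem hh h1
  have hkH : k ∈ H := by
    have hle : Subgroup.zpowers (h * z * h⁻¹ * z) ≤ H := by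
      rw [Subgroup.zpowers_le]; exact htz
    exact hle hk
  -- t * z commutes with y
  have hty : Commute (h * z * h⁻¹) y := by
    rw [← hconj]
    show h * z * h⁻¹ * (h * x * h⁻¹) = h * x * h⁻¹ * (h * z * h⁻¹)
    have e1 : h * z * h⁻¹ * (h * x * h⁻¹) = h * (z * x) * h⁻¹ := by group
    have e2 : h * x * h⁻¹ * (h * z * h⁻¹) = h * (x * z) * h⁻¹ := by group
    rw [e1, e2, hxz.eq]
  have htzy : Commute (h * z * h⁻¹ * z) y := hty.mul_left hyz.symm
  have hky : Commute k y := by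
    obtain ⟨n, rfl⟩ := Subgroup.mem_zpowers_iff.mp hk
    exact htzy.zpow_left n
  refine ⟨k⁻¹ * h, H.mul_mem (H.inv_mem hkH) hh, ?_, ?_⟩
  · -- c z c⁻¹ = z
    have e : k⁻¹ * h * z * (k⁻¹ * h)⁻¹ = z := by
      have e1 : k⁻¹ * h * z * (k⁻¹ * h)⁻¹ = k⁻¹ * (h * z * h⁻¹) * k := by group
      rw [e1, ← hk2]; group
    show k⁻¹ * h * z = z * (k⁻¹ * h)
    calc k⁻¹ * h * z = (k⁻¹ * h * z * (k⁻¹ * h)⁻¹) * (k⁻¹ * h) := by group
      _ = z * (k⁻¹ * h) := by rw [e]
  · have e1 : k⁻¹ * h * x * (k⁻¹ * h)⁻¹ = k⁻¹ * (h * x * h⁻¹) * k := by group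
    rw [e1, hconj]
    have : y * k = k * y := hky.eq.symm
    calc k⁻¹ * y * k = k⁻¹ * (y * k) := by group
      _ = k⁻¹ * (k * y) := by rw [this]
      _ = y := by group

end Cfsg.Agent.S1182
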