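import Mathlib
import Cfsg.Statements.S1183
import Cfsg.Agent.Lib.Helper27.Isolated
import Cfsg.Agent.S1182

set_option autoImplicit false
open Cfsg

namespace Cfsg.Agent.S1183

section aux

theorem pResidual_normal (p : ℕ) (H : Type*) [Group H] : (Cfsg.pResidual p H).Normal := by
  constructor
  intro n hn g
  unfold Cfsg.pResidual at hn ⊢
  induction hn using Subgroup.closure_induction with
  | mem x hx =>
    apply Subgroup.subset_closure
    show Nat.Coprime (orderOf (g * x * g⁻¹)) p
    have : orderOf (g * x * g⁻¹) = orderOf x :=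
      orderOf_injective (MulAut.conj g).toMonoidHom (MulAut.conj g).injective x
    rw [this]; exact hx
  | one => simp
  | mul a b _ _ iha ihb =>
    have : g * (a * b) * g⁻¹ = (g * a * g⁻¹) * (g * b * g⁻¹) := by group
    rw [this]; exact mul_mem iha ihb
  | inv a _ ih =>
    have : g * a⁻¹ * g⁻¹ = (g * a * g⁻¹)⁻¹ := by group
    rw [this]; exact inv_mem ih

/-- The quotient by the subgroup generated by the odd-order elements is a 2-group. -/
theorem isPGroup_quotient_pResidual (H : Type*) [Group H] [Finite H] [(Cfsg.pResidual 2 H).Normal] :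
    IsPGroup 2 (H ⧸ Cfsg.pResidual 2 H) := by
  intro q
  obtain ⟨c, rfl⟩ := QuotientGroup.mk_surjective q
  obtain ⟨a, m, hm, hcm⟩ := Nat.exists_eq_two_pow_mul_odd (orderOf_pos c).ne'
  refine ⟨a, ?_⟩
  rw [← QuotientGroup.mk_pow, QuotientGroup.eq_one_iff]
  apply Subgroup.subset_closure
  show Nat.Coprime (orderOf (c ^ 2 ^ a)) 2
  have hdvd : orderOf (c ^ 2 ^ a) ∣ m := by
    apply orderOf_dvd_of_pow_eq_one
    rw [← pow_mul, ← hcm, pow_orderOf_eq_one]
  exact Nat.coprime_two_right.mpr (Odd.of_dvd_nat hm hdvd)

open scoped commutatorElement in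
/-- For an isolated involution, the focal subgroup of the centraliser is its commutator subgroup. -/
theorem focal_le_commutator {G : Type*} [Group G] [Finite G] {z : G}
    (hz : Cfsg.IsIsolatedInvolution z) :
    (Subgroup.centralizer ({z} : Set G)).focalSubgroupOf
      ≤ commutator (Subgroup.centralizer ({z} : Set G)) := by
  rw [Subgroup.focalSubgroupOf_eq_closure, Subgroup.closure_le]
  rintro c ⟨x, hx, u, hcu⟩
  have hxz : Commute x z := Subgroup.mem_centralizer_singleton_iff.mp hx
  have hcz : Commute (c : G) z := Subgroup.mem_centralizer_singleton_iff.mp c.2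
  have hux : u * x⁻¹ * u⁻¹ = x⁻¹ * (c : G) := by
    rw [hcu, commutatorElement_def]; group
  have huxz : Commute (u * x⁻¹ * u⁻¹) z := by
    rw [hux]; exact hxz.inv_left.mul_left hcz
  obtain ⟨c₀, -, hc₀z, hc₀⟩ := Cfsg.Agent.S1182.result z hz ⊤
    (Subgroup.mem_normalizer_iff.mpr (fun h => by simp)) x⁻¹ (u * x⁻¹ * u⁻¹)
    (Subgroup.mem_top _) (Subgroup.mem_top _) hxz.inv_left huxz u (Subgroup.mem_top _) rfl
  have hc₀C : c₀ ∈ Subgroup.centralizer ({z} : Set G) :=
    Subgroup.mem_centralizer_singleton_iff.mpr hc₀z.eq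
  have hceq : c = ⁅(⟨x, hx⟩ : Subgroup.centralizer ({z} : Set G)), ⟨c₀, hc₀C⟩⁆ := by
    apply Subtype.ext
    rw [hcu]
    simp only [commutatorElement_def, Subgroup.coe_mul, Subgroup.coe_inv]
    calc x * u * x⁻¹ * u⁻¹ = x * (u * x⁻¹ * u⁻¹) := by group
      _ = x * (c₀ * x⁻¹ * c₀⁻¹) := by rw [hc₀]
      _ = x * c₀ * x⁻¹ * c₀⁻¹ := by group
  rw [hceq]
  exact Subgroup.commutator_mem_commutator (Subgroup.mem_top _) (Subgroup.mem_top _)

open scoped IsMulCommutative in
/-- If `G` is generated by its elements of odd order, every value of the transfer has odd order. -/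
theorem transferFocal_pow_eq_one {G : Type*} [Group G] [Finite G] (H : Subgroup G)
    (hG : Cfsg.pResidual 2 G = ⊤) :
    ∃ b : ℕ, Odd b ∧ ∀ g : G, (Subgroup.transferFocal H g) ^ b = 1 := by
  obtain ⟨a, m, hm, hcm⟩ := Nat.exists_eq_two_pow_mul_odd
    (Nat.card_pos (α := H ⧸ H.focalSubgroupOf)).ne'
  refine ⟨m, hm, ?_⟩
  have hle : Cfsg.pResidual 2 G ≤ ((powMonoidHom m).comp (Subgroup.transferFocal H)).ker := by
    unfold Cfsg.pResidual
    rw [Subgroup.closure_le]
    intro g hg
    have hg' : Nat.Coprime (orderOf g) 2 := hg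
    rw [SetLike.mem_coe, MonoidHom.mem_ker, MonoidHom.comp_apply, powMonoidHom_apply]
    apply orderOf_dvd_iff_pow_eq_one.mp
    have h1 : orderOf (Subgroup.transferFocal H g) ∣ orderOf g := orderOf_map_dvd _ g
    have h2 : orderOf (Subgroup.transferFocal H g) ∣ 2 ^ a * m := by
      rw [← hcm]; exact orderOf_dvd_natCard _
    have h3 : Nat.Coprime (orderOf (Subgroup.transferFocal H g)) (2 ^ a) :=
      Nat.Coprime.pow_right a (Nat.Coprime.coprime_dvd_left h1 hg')
    exact h3.dvd_of_dvd_mul_left h2
  intro g
  have hg : g ∈ Cfsg.pResidual 2 G := by rw [hG]; trivial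
  have := hle hg
  rw [MonoidHom.mem_ker, MonoidHom.comp_apply, powMonoidHom_apply] at this
  exact this

end aux

/-- Let z be an isolated involution of the finite group G and C = C_G(z). Then the subgroup of G generated by its elements of odd order is all of G if and only if the subgroup of C generated by its elements of odd order is all of C. -/
theorem result {G : Type*} [Group G] [Finite G] (z : G) (hz : Cfsg.IsIsolatedInvolution z) : Cfsg.pResidual 2 G = ⊤ ↔ Cfsg.pResidual 2 ↥(Subgroup.centralizer ({z} : Set G)) = ⊤ := by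
  have hzz : z * z = 1 := Lib.Helper27.inv_mul_self_of_orderOf_two hz.1
  have hzi : z⁻¹ = z := Lib.Helper27.inv_eq_self_of_orderOf_two hz.1
  haveI : Fact (Nat.Prime 2) := ⟨Nat.prime_two⟩
  constructor
  · intro hG
    -- the index of C is odd
    have hindex : Odd (Subgroup.centralizer ({z} : Set G)).index := by
      have hz2 : IsPGroup 2 (Subgroup.zpowers z) := by
        apply IsPGroup.of_card (n := 1)
        rw [Nat.card_zpowers, hz.1, pow_one]
      obtain ⟨S, hS⟩ := hz2.exists_le_sylow
      have hzS : z ∈ (S : Subgroup G) := hS (Subgroup.mem_zpowers z)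
      have hSC : (S : Subgroup G) ≤ Subgroup.centralizer ({z} : Set G) := by
        intro x hx
        rw [Subgroup.mem_centralizer_singleton_iff]
        have hmem : z * (x * z * x⁻¹) ∈ (S : Subgroup G) :=
          mul_mem hzS (mul_mem (mul_mem hx hzS) (inv_mem hx))
        have hodd := Lib.Helper27.odd_orderOf_mul_conj hz x
        obtain ⟨k, hk⟩ := S.isPGroup' ⟨z * (x * z * x⁻¹), hmem⟩
        have hk' : (z * (x * z * x⁻¹)) ^ 2 ^ k = 1 := by
          have := congrArg Subtype.val hk
          simpa using this
        have hdvd : orderOf (z * (x * z * x⁻¹)) ∣ 2 ^ k := orderOf_dvd_of_pow_eq_one hk'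
        have hone : orderOf (z * (x * z * x⁻¹)) = 1 := by
          have hcop : Nat.Coprime (orderOf (z * (x * z * x⁻¹))) (2 ^ k) :=
            Nat.Coprime.pow_right k (Nat.coprime_two_right.mpr hodd)
          exact Nat.Coprime.eq_one_of_dvd hcop hdvd
        have h1 : z * (x * z * x⁻¹) = 1 := orderOf_eq_one_iff.mp hone
        have h2 : x * z * x⁻¹ = z := by
          have : z * (x * z * x⁻¹) = z * z := by rw [h1, hzz]
          exact mul_left_cancel this
        calc x * z = (x * z * x⁻¹) * x := by group
          _ = z * x := by rw [h2]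
      have hdvd : (Subgroup.centralizer ({z} : Set G)).index ∣ (S : Subgroup G).index :=
        Subgroup.index_dvd_of_le hSC
      have hSodd : Odd (S : Subgroup G).index := by
        rw [← Nat.not_even_iff_odd, even_iff_two_dvd]
        exact S.not_dvd_index
      exact Odd.of_dvd_nat hSodd hdvd
    have hfocal := focal_le_commutator hz
    obtain ⟨b, hb, hV⟩ := transferFocal_pow_eq_one (Subgroup.centralizer ({z} : Set G)) hG
    -- so c ^ (index * b) lies in the commutator subgroup of C
    have hpow : ∀ c : Subgroup.centralizer ({z} : Set G),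
        c ^ ((Subgroup.centralizer ({z} : Set G)).index * b)
          ∈ commutator (Subgroup.centralizer ({z} : Set G)) := by
      intro c
      apply hfocal
      have := hV (c : G)
      rw [Subgroup.transferFocal_eq_pow, ← pow_mul] at this
      rw [← QuotientGroup.eq_one_iff]
      exact this
    -- the quotient Q = C / R
    haveI hRn : (Cfsg.pResidual 2 ↥(Subgroup.centralizer ({z} : Set G))).Normal :=
      pResidual_normal 2 _
    have hQ2 : IsPGroup 2 ((Subgroup.centralizer ({z} : Set G)) ⧸
        Cfsg.pResidual 2 ↥(Subgroup.centralizer ({z} : Set G))) :=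
      isPGroup_quotient_pResidual _
    have hodd_nb : Nat.Coprime 2 ((Subgroup.centralizer ({z} : Set G)).index * b) :=
      Nat.coprime_two_left.mpr (hindex.mul hb)
    have hperfect : commutator ((Subgroup.centralizer ({z} : Set G)) ⧸
        Cfsg.pResidual 2 ↥(Subgroup.centralizer ({z} : Set G))) = ⊤ := by
      rw [eq_top_iff]
      intro q _
      obtain ⟨c, rfl⟩ := QuotientGroup.mk_surjective q
      have h1 : (QuotientGroup.mk (c ^ ((Subgroup.centralizer ({z} : Set G)).index * b)) :
          (Subgroup.centralizer ({z} : Set G)) ⧸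
            Cfsg.pResidual 2 ↥(Subgroup.centralizer ({z} : Set G)))
          ∈ commutator ((Subgroup.centralizer ({z} : Set G)) ⧸
            Cfsg.pResidual 2 ↥(Subgroup.centralizer ({z} : Set G))) := by
        have hmap : (commutator (Subgroup.centralizer ({z} : Set G))).map
            (QuotientGroup.mk' (Cfsg.pResidual 2 ↥(Subgroup.centralizer ({z} : Set G))))
            ≤ commutator ((Subgroup.centralizer ({z} : Set G)) ⧸
              Cfsg.pResidual 2 ↥(Subgroup.centralizer ({z} : Set G))) := by
          rw [commutator_def, Subgroup.map_commutator, commutator_def]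
          exact Subgroup.commutator_mono le_top le_top
        exact hmap ⟨_, hpow c, rfl⟩
      -- pass to the abelianization
      have hA2 : IsPGroup 2 (Abelianization ((Subgroup.centralizer ({z} : Set G)) ⧸
          Cfsg.pResidual 2 ↥(Subgroup.centralizer ({z} : Set G)))) :=
        hQ2.to_quotient _
      have h2 : (Abelianization.of (QuotientGroup.mk c :
          (Subgroup.centralizer ({z} : Set G)) ⧸
            Cfsg.pResidual 2 ↥(Subgroup.centralizer ({z} : Set G))))
          ^ ((Subgroup.centralizer ({z} : Set G)).index * b) = 1 := by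
        rw [← map_pow, ← QuotientGroup.mk_pow]
        exact (QuotientGroup.eq_one_iff _).mpr h1
      have h3 : Abelianization.of (QuotientGroup.mk c :
          (Subgroup.centralizer ({z} : Set G)) ⧸
            Cfsg.pResidual 2 ↥(Subgroup.centralizer ({z} : Set G))) = 1 := by
        apply (hA2.powEquiv hodd_nb).injective
        rw [IsPGroup.powEquiv_apply, IsPGroup.powEquiv_apply, h2, one_pow]
      exact (QuotientGroup.eq_one_iff _).mp h3
    by_contra hne
    have hnontriv : Nontrivial ((Subgroup.centralizer ({z} : Set G)) ⧸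
        Cfsg.pResidual 2 ↥(Subgroup.centralizer ({z} : Set G))) := by
      by_contra hnot
      rw [not_nontrivial_iff_subsingleton] at hnot
      exact hne (QuotientGroup.subgroup_eq_top_of_subsingleton _ hnot)
    haveI : Group.IsNilpotent ((Subgroup.centralizer ({z} : Set G)) ⧸
        Cfsg.pResidual 2 ↥(Subgroup.centralizer ({z} : Set G))) := hQ2.isNilpotent
    have hlt := IsSolvable.commutator_lt_top_of_nontrivial ((Subgroup.centralizer ({z} : Set G)) ⧸
        Cfsg.pResidual 2 ↥(Subgroup.centralizer ({z} : Set G)))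
    exact (ne_of_lt hlt) hperfect
  · intro hCres
    rw [eq_top_iff]
    intro g _
    obtain ⟨k, -, hodd, -, hconj⟩ := Lib.Helper27.exists_inverted_conj hz g
    have hc : k⁻¹ * g ∈ Subgroup.centralizer ({z} : Set G) := by
      rw [Subgroup.mem_centralizer_singleton_iff]
      calc k⁻¹ * g * z = k⁻¹ * (g * z * g⁻¹) * g := by group
        _ = k⁻¹ * (k * z * k⁻¹) * g := by rw [hconj]
        _ = z * (k⁻¹ * g) := by group
    have hk : k ∈ Cfsg.pResidual 2 G :=
      Subgroup.subset_closure (Nat.coprime_two_right.mpr hodd)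
    have hle : (Cfsg.pResidual 2 ↥(Subgroup.centralizer ({z} : Set G))).map
        (Subgroup.centralizer ({z} : Set G)).subtype ≤ Cfsg.pResidual 2 G := by
      rw [Subgroup.map_le_iff_le_comap]
      unfold Cfsg.pResidual
      rw [Subgroup.closure_le]
      intro c hc
      apply Subgroup.subset_closure
      show Nat.Coprime (orderOf (c : G)) 2
      rw [Subgroup.orderOf_coe]
      exact hc
    have hcG : k⁻¹ * g ∈ Cfsg.pResidual 2 G := by
      apply hle
      refine ⟨⟨k⁻¹ * g, hc⟩, ?_, rfl⟩
      rw [hCres]; trivial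
    have : g = k * (k⁻¹ * g) := by group
    rw [this]; exact mul_mem hk hcG

end Cfsg.Agent.S1183
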