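import Mathlib
import Cfsg.Statements.S1184
import Cfsg.Agent.Lib.Helper27.Isolated

set_option autoImplicit false
open Cfsg

namespace Cfsg.Agent.S1184

/-- Let z be an isolated involution of the finite group G. If s and t are distinct conjugates of z, then st does not commute with z. -/
theorem result {G : Type*} [Group G] [Finite G] (z : G) (hz : Cfsg.IsIsolatedInvolution z) (g h : G) (hne : g * z * g⁻¹ ≠ h * z * h⁻¹) : ¬ Commute (g * z * g⁻¹ * (h * z * h⁻¹)) z := by
  intro hc
  set s := g * z * g⁻¹ with hs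
  set t := h * z * h⁻¹ with ht
  have hzz : z * z = 1 := Lib.Helper27.inv_mul_self_of_orderOf_two hz.1
  have hzi : z⁻¹ = z := Lib.Helper27.inv_eq_self_of_orderOf_two hz.1
  have hss : s * s = 1 := Lib.Helper27.inv_mul_self_of_orderOf_two (Lib.Helper27.orderOf_conj_two hz.1 g)
  have htt : t * t = 1 := Lib.Helper27.inv_mul_self_of_orderOf_two (Lib.Helper27.orderOf_conj_two hz.1 h)
  have hsiso : Cfsg.IsIsolatedInvolution s := Lib.Helper27.isolated_conj hz g
  -- t is a conjugate of s
  have hts : t = (h * g⁻¹) * s * (h * g⁻¹)⁻¹ := by rw [hs, ht]; group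
  have hodd_st : Odd (orderOf (s * t)) := by
    rw [hts]; exact Lib.Helper27.odd_orderOf_mul_conj hsiso (h * g⁻¹)
  have hodd_zs : Odd (orderOf (z * s)) := Lib.Helper27.odd_orderOf_mul_conj hz g
  set r := s * t with hr
  -- s inverts r
  have hsr : s * r * s⁻¹ = r⁻¹ := by
    have hsi : s⁻¹ = s := inv_eq_of_mul_eq_one_left hss
    rw [hsi, hr, Lib.Helper27.mul_comm_eq_inv_of_involutions hss htt |>.symm]
    calc s * (s * t) * s = (s * s) * t * s := by group
      _ = t * s := by rw [hss, one_mul]
  -- z centralizes r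
  have hzr : z * r * z⁻¹ = r := by
    have : r * z = z * r := hc.eq
    calc z * r * z⁻¹ = (z * r) * z⁻¹ := rfl
      _ = (r * z) * z⁻¹ := by rw [this]
      _ = r := by group
  -- q = z * s inverts r
  have hq : ∀ n : ℕ, (z * s) ^ n * r * ((z * s) ^ n)⁻¹ = if Even n then r else r⁻¹ := by
    intro n
    induction n with
    | zero => simp
    | succ n ih =>
      have e : (z * s) ^ (n + 1) * r * ((z * s) ^ (n + 1))⁻¹
          = z * (s * ((z * s) ^ n * r * ((z * s) ^ n)⁻¹) * s⁻¹) * z⁻¹ := by
        rw [pow_succ', mul_inv_rev, mul_inv_rev]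
        simp only [mul_assoc]
      rw [e, ih]
      by_cases hn : Even n
      · have hn1 : ¬ Even (n + 1) := by
          rw [Nat.not_even_iff_odd]; exact hn.add_one
        rw [if_pos hn, if_neg hn1, hsr]
        calc z * r⁻¹ * z⁻¹ = (z * r * z⁻¹)⁻¹ := by group
          _ = r⁻¹ := by rw [hzr]
      · have hn1 : Even (n + 1) := by
          rw [Nat.not_even_iff_odd] at hn; exact hn.add_one
        rw [if_neg hn, if_pos hn1]
        have : s * r⁻¹ * s⁻¹ = r := by
          calc s * r⁻¹ * s⁻¹ = (s * r * s⁻¹)⁻¹ := by group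
            _ = r := by rw [hsr, inv_inv]
        rw [this, hzr]
  have h1 := hq (orderOf (z * s))
  rw [pow_orderOf_eq_one, if_neg (Nat.not_even_iff_odd.mpr hodd_zs)] at h1
  have hr2 : r * r = 1 := by
    have : r = r⁻¹ := by simpa using h1
    calc r * r = r * r⁻¹ := by rw [← this]
      _ = 1 := mul_inv_cancel r
  have hr1 : r = 1 := by
    have hdvd : orderOf r ∣ 2 := orderOf_dvd_of_pow_eq_one (by rw [pow_two]; exact hr2)
    have hle : orderOf r ≤ 2 := Nat.le_of_dvd (by norm_num) hdvd
    obtain ⟨j, hj⟩ := hodd_st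
    have hor : orderOf r = 1 := by
      interval_cases hro : orderOf r
      · omega
      · rfl
      · omega
    exact orderOf_eq_one_iff.mp hor
  apply hne
  have : s = t := by
    have h2 : s * t = s * s := by rw [hss]; exact hr1
    exact (mul_left_cancel h2).symm
  exact this

end Cfsg.Agent.S1184
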