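import Mathlib
import Cfsg.Statements.S1185
import Cfsg.Agent.Lib.Helper27.Isolated

set_option autoImplicit false
open Cfsg

namespace Cfsg.Agent.S1185

/-- Let z be an isolated involution of the finite group G with centralizer C. Then for every g ∈ G there is exactly one element k in the coset gC that has odd order and is inverted by z. -/
theorem result {G : Type*} [Group G] [Finite G] (z : G) (hz : Cfsg.IsIsolatedInvolution z) (g : G) : ∃! k : G, (Odd (orderOf k) ∧ z * k * z⁻¹ = k⁻¹) ∧ g⁻¹ * k ∈ Subgroup.centralizer ({z} : Set G) := by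
  obtain ⟨k, -, hodd, hinv, hconj⟩ := Lib.Helper27.exists_inverted_conj hz g
  have key : ∀ k' : G, g⁻¹ * k' ∈ Subgroup.centralizer ({z} : Set G) ↔ k' * z * k'⁻¹ = g * z * g⁻¹ := by
    intro k'
    rw [Subgroup.mem_centralizer_singleton_iff]
    constructor
    · intro h
      have : k' * z * k'⁻¹ = g * ((g⁻¹ * k') * z) * (g⁻¹ * k')⁻¹ * g⁻¹ := by group
      rw [this, h]; group
    · intro h
      have : g⁻¹ * k' * z = g⁻¹ * (k' * z * k'⁻¹) * k' := by group
      rw [this, h]; group
  refine ⟨k, ⟨⟨hodd, hinv⟩, (key k).mpr hconj⟩, ?_⟩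
  rintro k' ⟨⟨hodd', hinv'⟩, hmem'⟩
  have h1 := (key k').mp hmem'
  rw [Lib.Helper27.conj_eq_sq_mul_of_inverted hz.1 hinv'] at h1
  rw [← hconj, Lib.Helper27.conj_eq_sq_mul_of_inverted hz.1 hinv] at h1
  have h2 : k' * k' = k * k := mul_right_cancel h1
  exact Lib.Helper27.eq_of_sq_eq_of_odd hodd' hodd h2

end Cfsg.Agent.S1185
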