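import Mathlib
import Cfsg.Statements.S1186
import Cfsg.Agent.Lib.Helper27.Isolated

set_option autoImplicit false
open Cfsg

namespace Cfsg.Agent.S1186

section aux

variable {G : Type*} [Group G]

/-- For an isolated involution `z` and any involution `s`, there is an odd `n` with `(z s)^(2n) = 1`. -/
theorem exists_odd_pow [Finite G] {z s : G} (hz : Cfsg.IsIsolatedInvolution z) (hs : orderOf s = 2) :
    ∃ n : ℕ, Odd n ∧ (z * s) ^ n * (z * s) ^ n = 1 := by
  have hzz : z * z = 1 := Lib.Helper27.inv_mul_self_of_orderOf_two hz.1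
  have hss : s * s = 1 := Lib.Helper27.inv_mul_self_of_orderOf_two hs
  set r := z * s with hr
  by_cases hm : Odd (orderOf r)
  · exact ⟨orderOf r, hm, by rw [pow_orderOf_eq_one, one_mul]⟩
  · rw [Nat.not_odd_iff_even] at hm
    obtain ⟨k, hk⟩ := hm
    have hpos : 0 < orderOf r := orderOf_pos r
    have hk0 : 0 < k := by omega
    have hrk : r ^ k ≠ 1 := by
      intro h
      exact absurd (orderOf_le_of_pow_eq_one hk0 h) (by omega)
    have hr2k : r ^ k * r ^ k = 1 := by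
      rw [← pow_add, ← hk, pow_orderOf_eq_one]
    refine ⟨k, ?_, hr2k⟩
    by_contra hkodd
    rw [Nat.not_odd_iff_even] at hkodd
    obtain ⟨j, hj⟩ := hkodd
    -- z * r^k is conjugate to z and commutes with z
    have h1 : z * r ^ j * z = (s * z) ^ j := Lib.Helper27.conj_pow_mul_of_involutions hzz hss j
    have h2 : ((s * z) ^ j)⁻¹ = r ^ j :=
      inv_eq_of_mul_eq_one_left (Lib.Helper27.mul_pow_mul_pow_of_involutions hzz hss j)
    have hconj : (s * z) ^ j * z * ((s * z) ^ j)⁻¹ = z * r ^ k := by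
      rw [h2, ← h1, hj, pow_add]
      calc z * r ^ j * z * z * r ^ j = z * r ^ j * (z * z) * r ^ j := by group
        _ = z * (r ^ j * r ^ j) := by rw [hzz]; group
    have hinv : z * r ^ k * z = (s * z) ^ k := Lib.Helper27.conj_pow_mul_of_involutions hzz hss k
    have hinv' : (s * z) ^ k = r ^ k := by
      have h3 : (s * z) ^ k = (r ^ k)⁻¹ :=
        eq_inv_of_mul_eq_one_right (Lib.Helper27.mul_pow_mul_pow_of_involutions hzz hss k)
      rw [h3]
      exact inv_eq_of_mul_eq_one_left hr2k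
    have hcomm : Commute z ((s * z) ^ j * z * ((s * z) ^ j)⁻¹) := by
      rw [hconj]
      show z * (z * r ^ k) = z * r ^ k * z
      rw [hinv, hinv']
      calc z * (z * r ^ k) = (z * z) * r ^ k := by group
        _ = r ^ k := by rw [hzz, one_mul]
    have := hz.2 _ hcomm
    rw [hconj] at this
    exact hrk (by simpa using this)

/-- Existence of the partner: a conjugate `u` of `z` commuting with `s` such that `s u` commutes with `z`. -/
theorem partner_exists [Finite G] {z s : G} (hz : Cfsg.IsIsolatedInvolution z) (hs : orderOf s = 2) :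
    ∃ u : G, (∃ g : G, g * z * g⁻¹ = u) ∧ Commute u s ∧ Commute z (s * u) := by
  have hzz : z * z = 1 := Lib.Helper27.inv_mul_self_of_orderOf_two hz.1
  have hss : s * s = 1 := Lib.Helper27.inv_mul_self_of_orderOf_two hs
  obtain ⟨n, hn, hc2⟩ := exists_odd_pow hz hs
  set r := z * s with hr
  set c := r ^ n with hc
  have hci : c⁻¹ = c := inv_eq_of_mul_eq_one_left hc2
  have hzc : z * c * z = c := by
    have h1 : z * c * z = (s * z) ^ n := Lib.Helper27.conj_pow_mul_of_involutions hzz hss n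
    have h2 : (s * z) ^ n = c⁻¹ :=
      eq_inv_of_mul_eq_one_right (Lib.Helper27.mul_pow_mul_pow_of_involutions hzz hss n)
    rw [h1, h2, hci]
  have hsc : s * c * s = c := by
    have h1 : s * c * s = (s * z) ^ n := Lib.Helper27.conj_pow_mul_of_involutions' hss hzz n
    have h2 : (s * z) ^ n = c⁻¹ :=
      eq_inv_of_mul_eq_one_right (Lib.Helper27.mul_pow_mul_pow_of_involutions hzz hss n)
    rw [h1, h2, hci]
  have hzc' : z * c = c * z := by
    calc z * c = z * c * (z * z) := by rw [hzz, mul_one]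
      _ = (z * c * z) * z := by group
      _ = c * z := by rw [hzc]
  have hsc' : s * c = c * s := by
    calc s * c = s * c * (s * s) := by rw [hss, mul_one]
      _ = (s * c * s) * s := by group
      _ = c * s := by rw [hsc]
  refine ⟨s * c, ?_, ?_, ?_⟩
  · obtain ⟨j, hj⟩ := hn
    refine ⟨(s * z) ^ (j + 1), ?_⟩
    have h1 : z * r ^ (j + 1) * z = (s * z) ^ (j + 1) :=
      Lib.Helper27.conj_pow_mul_of_involutions hzz hss (j + 1)
    have h2 : ((s * z) ^ (j + 1))⁻¹ = r ^ (j + 1) :=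
      inv_eq_of_mul_eq_one_left (Lib.Helper27.mul_pow_mul_pow_of_involutions hzz hss (j + 1))
    rw [h2, ← h1]
    have e1 : s = z * r := by
      rw [hr]
      calc s = (z * z) * s := by rw [hzz, one_mul]
        _ = z * (z * s) := by group
    have e2 : c = r ^ (2 * j + 1) := by rw [hc, hj]
    have e3 : r * r ^ (2 * j + 1) = r ^ (j + 1) * r ^ (j + 1) := by
      rw [← pow_succ', ← pow_add]; congr 1; omega
    calc z * r ^ (j + 1) * z * z * r ^ (j + 1) = z * r ^ (j + 1) * (z * z) * r ^ (j + 1) := by group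
      _ = z * (r ^ (j + 1) * r ^ (j + 1)) := by rw [hzz]; group
      _ = z * (r * r ^ (2 * j + 1)) := by rw [e3]
      _ = (z * r) * c := by rw [e2]; group
      _ = s * c := by rw [← e1]
  · show s * c * s = s * (s * c)
    rw [hsc, ← mul_assoc, hss, one_mul]
  · have : s * (s * c) = c := by rw [← mul_assoc, hss, one_mul]
    rw [this]
    exact hzc'

/-- Uniqueness of the partner. -/
theorem partner_unique [Finite G] {z s : G} (hz : Cfsg.IsIsolatedInvolution z) (hs : orderOf s = 2)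
    {u₁ u₂ : G} (h₁ : (∃ g : G, g * z * g⁻¹ = u₁) ∧ Commute u₁ s ∧ Commute z (s * u₁))
    (h₂ : (∃ g : G, g * z * g⁻¹ = u₂) ∧ Commute u₂ s ∧ Commute z (s * u₂)) : u₁ = u₂ := by
  have hzz : z * z = 1 := Lib.Helper27.inv_mul_self_of_orderOf_two hz.1
  have hss : s * s = 1 := Lib.Helper27.inv_mul_self_of_orderOf_two hs
  set r := z * s with hr
  -- general fact about a partner
  have key : ∀ u : G, (∃ g : G, g * z * g⁻¹ = u) → Commute u s → Commute z (s * u) →
      ∃ o : ℕ, Odd o ∧ s * u = (r ^ o)⁻¹ ∧ (s * u) * (s * u) = 1 := by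
    rintro u ⟨g, rfl⟩ hus hzsu
    have huu : (g * z * g⁻¹) * (g * z * g⁻¹) = 1 :=
      Lib.Helper27.inv_mul_self_of_orderOf_two (Lib.Helper27.orderOf_conj_two hz.1 g)
    have hodd := Lib.Helper27.odd_orderOf_mul_conj hz g
    generalize g * z * g⁻¹ = u at hus hzsu huu hodd
    set c := s * u with hc
    have hcc : c * c = 1 := by
      rw [hc]
      calc s * u * (s * u) = s * (u * s) * u := by group
        _ = s * (s * u) * u := by rw [hus.eq]
        _ = (s * s) * (u * u) := by group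
        _ = 1 := by rw [hss, huu, one_mul]
    have hcs : Commute c s := by
      show s * u * s = s * (s * u)
      rw [mul_assoc, hus.eq]
    have hcr : Commute r c := by
      rw [hr]
      exact hzsu.mul_left hcs.symm
    have hzu : z * u = r * c := by
      rw [hr, hc]
      calc z * u = z * (s * s) * u := by rw [hss, mul_one]
        _ = z * s * (s * u) := by group
    refine ⟨orderOf (z * u), hodd, ?_, hcc⟩
    have h1 : (r * c) ^ orderOf (z * u) = 1 := by rw [← hzu, pow_orderOf_eq_one]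
    rw [hcr.mul_pow] at h1
    have h2 : c ^ orderOf (z * u) = c := by
      obtain ⟨j, hj⟩ := hodd
      rw [hj, pow_succ, pow_mul, pow_two, hcc, one_pow, one_mul]
    rw [h2] at h1
    exact eq_inv_of_mul_eq_one_right h1
  obtain ⟨o₁, ho₁, e₁, hc₁⟩ := key u₁ h₁.1 h₁.2.1 h₁.2.2
  obtain ⟨o₂, ho₂, e₂, hc₂⟩ := key u₂ h₂.1 h₂.2.1 h₂.2.2
  -- r^(o₁) = r^(o₂)
  have hpow : ∀ o : ℕ, Odd o → (r ^ o)⁻¹ * (r ^ o)⁻¹ = 1 →
      r ^ o = if Odd (orderOf r) then 1 else r ^ (orderOf r / 2) := by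
    intro o ho h
    have h2 : r ^ (2 * o) = 1 := by
      have : (r ^ o * r ^ o)⁻¹ = 1 := by rw [mul_inv_rev]; exact h
      rw [inv_eq_one] at this
      rw [two_mul, pow_add]; exact this
    have hdvd : orderOf r ∣ 2 * o := orderOf_dvd_of_pow_eq_one h2
    by_cases hm : Odd (orderOf r)
    · rw [if_pos hm]
      have : orderOf r ∣ o := (Nat.Coprime.dvd_mul_left (Nat.coprime_two_right.mpr hm)).mp hdvd
      exact orderOf_dvd_iff_pow_eq_one.mp this
    · rw [if_neg hm]
      rw [Nat.not_odd_iff_even] at hm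
      obtain ⟨k, hk⟩ := hm
      have hk2 : orderOf r / 2 = k := by omega
      rw [hk2]
      have hpos : 0 < orderOf r := orderOf_pos r
      have hkdvd : k ∣ o := by
        have : 2 * k ∣ 2 * o := by rw [two_mul]; rw [hk] at hdvd; exact hdvd
        exact (Nat.mul_dvd_mul_iff_left (by norm_num)).mp this
      obtain ⟨a, ha⟩ := hkdvd
      have haodd : Odd a := by
        by_contra hcon
        rw [Nat.not_odd_iff_even] at hcon
        have : Even o := by rw [ha]; exact hcon.mul_left k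
        exact (Nat.not_even_iff_odd.mpr ho) this
      obtain ⟨b, hb⟩ := haodd
      have hrk2 : r ^ k * r ^ k = 1 := by rw [← pow_add, ← hk, pow_orderOf_eq_one]
      rw [ha, pow_mul, hb, pow_succ, pow_mul, pow_two, hrk2, one_pow, one_mul]
  have e : s * u₁ = s * u₂ := by
    rw [e₁, e₂]
    congr 1
    rw [hpow o₁ ho₁ (by rw [← e₁]; exact hc₁), hpow o₂ ho₂ (by rw [← e₂]; exact hc₂)]
  exact mul_left_cancel e

/-- Orbit-stabiliser for conjugation: `|G| = |z^G| * |C_G(z)|`. -/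
theorem card_eq_conj_mul_centralizer [Finite G] (z : G) :
    Nat.card G = Nat.card {t : G // ∃ g : G, g * z * g⁻¹ = t}
      * Nat.card (Subgroup.centralizer ({z} : Set G)) := by
  classical
  have hex : ∀ t : {t : G // ∃ g : G, g * z * g⁻¹ = t}, ∃ g : G, g * z * g⁻¹ = t.1 := fun t => t.2
  choose gf hgf using hex
  rw [← Nat.card_prod]
  symm
  apply Nat.card_congr
  refine Equiv.ofBijective
    (fun p : {t : G // ∃ g : G, g * z * g⁻¹ = t} × (Subgroup.centralizer ({z} : Set G)) =>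
      gf p.1 * (p.2 : G)) ⟨?_, ?_⟩
  · rintro ⟨t, c⟩ ⟨t', c'⟩ h
    have h' : gf t * (c : G) = gf t' * (c' : G) := h
    have hc : (c : G) * z = z * c := Subgroup.mem_centralizer_singleton_iff.mp c.2
    have hc' : (c' : G) * z = z * c' := Subgroup.mem_centralizer_singleton_iff.mp c'.2
    have e1 : (gf t * (c : G)) * z * (gf t * (c : G))⁻¹ = t.1 := by
      rw [← hgf t]
      calc (gf t * (c : G)) * z * (gf t * (c : G))⁻¹ = gf t * ((c : G) * z) * (c : G)⁻¹ * (gf t)⁻¹ := by group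
        _ = gf t * z * (gf t)⁻¹ := by rw [hc]; group
    have e2 : (gf t' * (c' : G)) * z * (gf t' * (c' : G))⁻¹ = t'.1 := by
      rw [← hgf t']
      calc (gf t' * (c' : G)) * z * (gf t' * (c' : G))⁻¹ = gf t' * ((c' : G) * z) * (c' : G)⁻¹ * (gf t')⁻¹ := by group
        _ = gf t' * z * (gf t')⁻¹ := by rw [hc']; group
    have htt : t = t' := by
      apply Subtype.ext
      rw [← e1, ← e2, h']
    subst htt
    have hcc : (c : G) = c' := mul_left_cancel h'
    rw [Prod.mk.injEq]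
    exact ⟨rfl, Subtype.ext hcc⟩
  · intro g
    have hmem : (gf ⟨g * z * g⁻¹, g, rfl⟩)⁻¹ * g ∈ Subgroup.centralizer ({z} : Set G) := by
      rw [Subgroup.mem_centralizer_singleton_iff]
      have h1 := hgf ⟨g * z * g⁻¹, g, rfl⟩
      have h2 : gf ⟨g * z * g⁻¹, g, rfl⟩ * z * (gf ⟨g * z * g⁻¹, g, rfl⟩)⁻¹ = g * z * g⁻¹ := h1
      generalize gf ⟨g * z * g⁻¹, g, rfl⟩ = a at h2
      calc a⁻¹ * g * z = a⁻¹ * (g * z * g⁻¹) * g := by group
        _ = a⁻¹ * (a * z * a⁻¹) * g := by rw [h2]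
        _ = z * (a⁻¹ * g) := by group
    refine ⟨(⟨g * z * g⁻¹, g, rfl⟩, ⟨_, hmem⟩), ?_⟩
    show gf ⟨g * z * g⁻¹, g, rfl⟩ * ((gf ⟨g * z * g⁻¹, g, rfl⟩)⁻¹ * g) = g
    group

/-- The odd-order elements inverted by `z` and commuting with `x` correspond to the conjugates of `z`
commuting with `x`, when `x` commutes with `z`. -/
theorem card_inverted_eq [Finite G] {z x : G} (hz : Cfsg.IsIsolatedInvolution z) (hx : Commute x z) :
    Nat.card {k : G // Odd (orderOf k) ∧ z * k * z⁻¹ = k⁻¹ ∧ Commute k x}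
      = Nat.card {t : G // (∃ g : G, g * z * g⁻¹ = t) ∧ Commute t x} := by
  apply Nat.card_congr
  refine Equiv.ofBijective
    (fun k : {k : G // Odd (orderOf k) ∧ z * k * z⁻¹ = k⁻¹ ∧ Commute k x} =>
      (⟨k.1 * z * k.1⁻¹, ⟨k.1, rfl⟩, ?_⟩ : {t : G // (∃ g : G, g * z * g⁻¹ = t) ∧ Commute t x}))
    ⟨?_, ?_⟩
  · exact (k.2.2.2.mul_left hx.symm).mul_left k.2.2.2.inv_left
  · rintro ⟨k, hk1, hk2, hk3⟩ ⟨k', hk1', hk2', hk3'⟩ h
    have h' : k * z * k⁻¹ = k' * z * k'⁻¹ := congrArg Subtype.val h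
    rw [Lib.Helper27.conj_eq_sq_mul_of_inverted hz.1 hk2,
      Lib.Helper27.conj_eq_sq_mul_of_inverted hz.1 hk2'] at h'
    have h2 : k * k = k' * k' := mul_right_cancel h'
    exact Subtype.ext (Lib.Helper27.eq_of_sq_eq_of_odd hk1 hk1' h2)
  · rintro ⟨t, ⟨g, rfl⟩, htx⟩
    obtain ⟨k, hk, hodd, hinv, hconj⟩ := Lib.Helper27.exists_inverted_conj hz g
    have hkx : Commute k x := by
      have h1 : Commute (g * z * g⁻¹ * z) x := htx.mul_left hx.symm
      obtain ⟨n, rfl⟩ := Subgroup.mem_zpowers_iff.mp hk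
      exact h1.zpow_left n
    exact ⟨⟨k, hodd, hinv, hkx⟩, Subtype.ext hconj⟩

/-- The class of `z` is the product of its parts centralising `s` and `s z`. -/
theorem card_conj_eq [Finite G] {z s : G} (hz : Cfsg.IsIsolatedInvolution z) (hs : orderOf s = 2)
    (hsz : Commute s z) :
    Nat.card {t : G // ∃ g : G, g * z * g⁻¹ = t}
      = Nat.card {t : G // (∃ g : G, g * z * g⁻¹ = t) ∧ Commute t s}
        * Nat.card {t : G // (∃ g : G, g * z * g⁻¹ = t) ∧ Commute t (s * z)} := by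
  classical
  have hex : ∀ u : {t : G // (∃ g : G, g * z * g⁻¹ = t) ∧ Commute t s},
      ∃ h : G, Commute h s ∧ h * z * h⁻¹ = u.1 := by
    rintro ⟨u, ⟨g, rfl⟩, hus⟩
    obtain ⟨k, hk, -, -, hconj⟩ := Lib.Helper27.exists_inverted_conj hz g
    refine ⟨k, ?_, hconj⟩
    have h1 : Commute (g * z * g⁻¹ * z) s := hus.mul_left hsz.symm
    obtain ⟨n, rfl⟩ := Subgroup.mem_zpowers_iff.mp hk
    exact h1.zpow_left n
  choose hf hf_comm hf_conj using hex
  -- conjugating s * z by hf u gives s * u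
  have hconj_sz : ∀ u : {t : G // (∃ g : G, g * z * g⁻¹ = t) ∧ Commute t s},
      hf u * (s * z) * (hf u)⁻¹ = s * u.1 := by
    intro u
    rw [← hf_conj u]
    have := (hf_comm u).eq
    calc hf u * (s * z) * (hf u)⁻¹ = (hf u * s) * z * (hf u)⁻¹ := by group
      _ = (s * hf u) * z * (hf u)⁻¹ := by rw [this]
      _ = s * (hf u * z * (hf u)⁻¹) := by group
  -- uniqueness of partner for a conjugate t of z
  have huniq : ∀ t : G, (∃ g : G, g * z * g⁻¹ = t) → ∀ u₁ u₂ : G,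
      ((∃ g : G, g * z * g⁻¹ = u₁) ∧ Commute u₁ s ∧ Commute t (s * u₁)) →
      ((∃ g : G, g * z * g⁻¹ = u₂) ∧ Commute u₂ s ∧ Commute t (s * u₂)) → u₁ = u₂ := by
    rintro t ⟨g, rfl⟩ u₁ u₂ ⟨⟨g₁, hg₁⟩, h₁, h₁'⟩ ⟨⟨g₂, hg₂⟩, h₂, h₂'⟩
    refine partner_unique (Lib.Helper27.isolated_conj hz g) hs ⟨⟨g₁ * g⁻¹, ?_⟩, h₁, h₁'⟩
      ⟨⟨g₂ * g⁻¹, ?_⟩, h₂, h₂'⟩
    · rw [← hg₁]; group
    · rw [← hg₂]; group
  have hexist : ∀ t : G, (∃ g : G, g * z * g⁻¹ = t) → ∃ u : G,
      (∃ g : G, g * z * g⁻¹ = u) ∧ Commute u s ∧ Commute t (s * u) := by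
    rintro t ⟨g, rfl⟩
    obtain ⟨u, ⟨g', hg'⟩, h1, h2⟩ := partner_exists (Lib.Helper27.isolated_conj hz g) hs
    refine ⟨u, ⟨g' * g, ?_⟩, h1, h2⟩
    rw [← hg']; group
  rw [← Nat.card_prod]
  symm
  apply Nat.card_congr
  refine Equiv.ofBijective
    (fun p : {t : G // (∃ g : G, g * z * g⁻¹ = t) ∧ Commute t s}
        × {t : G // (∃ g : G, g * z * g⁻¹ = t) ∧ Commute t (s * z)} =>
      (⟨hf p.1 * p.2.1 * (hf p.1)⁻¹, ?_⟩ : {t : G // ∃ g : G, g * z * g⁻¹ = t})) ⟨?_, ?_⟩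
  · obtain ⟨g, hg⟩ := p.2.2.1
    exact ⟨hf p.1 * g, by rw [← hg]; group⟩
  · rintro ⟨u, w⟩ ⟨u', w'⟩ h
    have h' : hf u * w.1 * (hf u)⁻¹ = hf u' * w'.1 * (hf u')⁻¹ := congrArg Subtype.val h
    have hc1 : Commute (hf u * w.1 * (hf u)⁻¹) (s * u.1) := by
      rw [← hconj_sz u]
      have := w.2.2.eq
      show hf u * w.1 * (hf u)⁻¹ * (hf u * (s * z) * (hf u)⁻¹)
        = hf u * (s * z) * (hf u)⁻¹ * (hf u * w.1 * (hf u)⁻¹)
      calc hf u * w.1 * (hf u)⁻¹ * (hf u * (s * z) * (hf u)⁻¹)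
          = hf u * (w.1 * (s * z)) * (hf u)⁻¹ := by group
        _ = hf u * ((s * z) * w.1) * (hf u)⁻¹ := by rw [this]
        _ = hf u * (s * z) * (hf u)⁻¹ * (hf u * w.1 * (hf u)⁻¹) := by group
    have hc2 : Commute (hf u' * w'.1 * (hf u')⁻¹) (s * u'.1) := by
      rw [← hconj_sz u']
      have := w'.2.2.eq
      show hf u' * w'.1 * (hf u')⁻¹ * (hf u' * (s * z) * (hf u')⁻¹)
        = hf u' * (s * z) * (hf u')⁻¹ * (hf u' * w'.1 * (hf u')⁻¹)
      calc hf u' * w'.1 * (hf u')⁻¹ * (hf u' * (s * z) * (hf u')⁻¹)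
          = hf u' * (w'.1 * (s * z)) * (hf u')⁻¹ := by group
        _ = hf u' * ((s * z) * w'.1) * (hf u')⁻¹ := by rw [this]
        _ = hf u' * (s * z) * (hf u')⁻¹ * (hf u' * w'.1 * (hf u')⁻¹) := by group
    rw [← h'] at hc2
    have hmem : ∃ g : G, g * z * g⁻¹ = hf u * w.1 * (hf u)⁻¹ := by
      obtain ⟨g, hg⟩ := w.2.1
      exact ⟨hf u * g, by rw [← hg]; group⟩
    have huu : u.1 = u'.1 := huniq _ hmem u.1 u'.1 ⟨u.2.1, u.2.2, hc1⟩ ⟨u'.2.1, u'.2.2, hc2⟩
    have huu' : u = u' := Subtype.ext huu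
    subst huu'
    have hww : w.1 = w'.1 := by
      have := mul_right_cancel h'
      exact mul_left_cancel this
    rw [Prod.mk.injEq]
    exact ⟨rfl, Subtype.ext hww⟩
  · rintro ⟨t, ht⟩
    obtain ⟨u, hu1, hu2, hu3⟩ := hexist t ht
    set U : {t : G // (∃ g : G, g * z * g⁻¹ = t) ∧ Commute t s} := ⟨u, hu1, hu2⟩ with hU
    have hw1 : ∃ g : G, g * z * g⁻¹ = (hf U)⁻¹ * t * hf U := by
      obtain ⟨g, hg⟩ := ht
      exact ⟨(hf U)⁻¹ * g, by rw [← hg]; group⟩
    have hw2 : Commute ((hf U)⁻¹ * t * hf U) (s * z) := by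
      have e : s * z = (hf U)⁻¹ * (s * u) * hf U := by
        have := hconj_sz U
        have hu : U.1 = u := rfl
        rw [hu] at this
        rw [← this]; group
      rw [e]
      have := hu3.eq
      show (hf U)⁻¹ * t * hf U * ((hf U)⁻¹ * (s * u) * hf U)
        = (hf U)⁻¹ * (s * u) * hf U * ((hf U)⁻¹ * t * hf U)
      calc (hf U)⁻¹ * t * hf U * ((hf U)⁻¹ * (s * u) * hf U)
          = (hf U)⁻¹ * (t * (s * u)) * hf U := by group
        _ = (hf U)⁻¹ * ((s * u) * t) * hf U := by rw [this]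
        _ = (hf U)⁻¹ * (s * u) * hf U * ((hf U)⁻¹ * t * hf U) := by group
    refine ⟨(U, ⟨(hf U)⁻¹ * t * hf U, hw1, hw2⟩), ?_⟩
    apply Subtype.ext
    show hf U * ((hf U)⁻¹ * t * hf U) * (hf U)⁻¹ = t
    group

end aux

/-- Let z be an isolated involution of the finite group G, C = C_G(z), K the set of elements of odd order inverted by z, and s an involution of C. Then |G| = |C| · |C_K(sz)| · |C_K(s)|. -/
theorem result {G : Type*} [Group G] [Finite G] (z : G) (hz : Cfsg.IsIsolatedInvolution z) (s : G) (hs : orderOf s = 2) (hsz : Commute s z) : Nat.card G = Nat.card (Subgroup.centralizer ({z} : Set G)) * Nat.card {k : G // Odd (orderOf k) ∧ z * k * z⁻¹ = k⁻¹ ∧ Commute k (s * z)} * Nat.card {k : G // Odd (orderOf k) ∧ z * k * z⁻¹ = k⁻¹ ∧ Commute k s} := by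
  have hszz : Commute (s * z) z := hsz.mul_left (Commute.refl z)
  rw [card_inverted_eq hz hszz, card_inverted_eq hz hsz, card_eq_conj_mul_centralizer z,
    card_conj_eq hz hs hsz]
  ring

end Cfsg.Agent.S1186
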