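import Cfsg.Statements.S1230
import Cfsg.Agent.Lib.Helper23.CitMain

set_option autoImplicit false
open Cfsg

namespace Cfsg.Agent.S1230

/-- Let G be a finite group with a Sylow 2-subgroup T that is neither cyclic nor normal, such that the centralizer of every involution is an elementary abelian 2-group. Then G ≅ PSL(2,F) for a finite field F with |F| = |T|. -/
theorem result {G : Type*} [Group G] [Finite G] (T : Sylow 2 G) (hnc : ¬ IsCyclic (T : Subgroup G)) (hnn : ¬ (T : Subgroup G).Normal) (hC : ∀ t : G, orderOf t = 2 → IsMulCommutative (Subgroup.centralizer ({t} : Set G)) ∧ ∀ c ∈ Subgroup.centralizer ({t} : Set G), c ^ 2 = 1) : ∃ (F : Type) (_ : Field F) (_ : Fintype F), Fintype.card F = Nat.card T ∧ Nonempty (G ≃* Matrix.ProjectiveSpecialLinearGroup (Fin 2) F) := by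
  classical
  have hC' : Cfsg.Agent.Lib.Helper23.InvCentElem G := by
    intro t c ht1 ht2 hct
    have hord : orderOf t = 2 := orderOf_eq_prime ht2 ht1
    refine (hC t hord).2 c ?_
    rw [Subgroup.mem_centralizer_iff]
    intro y hy
    have hy' : y = t := hy
    rw [hy']
    exact hct.symm
  have hm : Nat.card (T : Subgroup G) = 2 ^ (Nat.card G).factorization 2 :=
    Sylow.card_eq_multiplicity T
  have hq : 2 < Nat.card (T : Subgroup G) := by
    by_contra hcon
    apply hnc
    rcases Nat.lt_or_ge ((Nat.card G).factorization 2) 2 with h | h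
    · have h01 : (Nat.card G).factorization 2 = 0 ∨ (Nat.card G).factorization 2 = 1 := by omega
      rcases h01 with h0 | h1
      · rw [h0, pow_zero] at hm
        have : Subsingleton (T : Subgroup G) := (Nat.card_eq_one_iff_unique.mp hm).1
        exact isCyclic_of_subsingleton
      · rw [h1, pow_one] at hm
        exact isCyclic_of_prime_card (p := 2) hm
    · exfalso
      have : 2 ^ 2 ≤ 2 ^ (Nat.card G).factorization 2 := Nat.pow_le_pow_right (by norm_num) h
      omega
  have hn1 : 1 < Nat.card (Sylow 2 G) := by
    by_contra hcon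
    apply hnn
    have hpos : 0 < Nat.card (Sylow 2 G) := Nat.card_pos
    have h1 : Nat.card (Sylow 2 G) = 1 := by omega
    have : Subsingleton (Sylow 2 G) := (Nat.card_eq_one_iff_unique.mp h1).1
    exact Sylow.normal_of_subsingleton T
  exact Cfsg.Agent.Lib.Helper23.cit_psl2_galois hC' T hq hn1

end Cfsg.Agent.S1230
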