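-- Statement S1231 (row 1231). The statement below is byte-identical to the frozen
-- statement Cfsg.CfsgFrozen.S1231 (Cfsg/Statements/S1231.lean; the theorem Cfsg.k_generated_core_in_subgroup_iff_intersections_low_rank).
import Cfsg.Statements.S1231
import Mathlib

set_option autoImplicit false
open Cfsg

namespace Cfsg.Agent.S1231

variable {G : Type*} [Group G]

def HasEA (p n : ℕ) (X : Subgroup G) : Prop :=
  ∃ A : Subgroup G, A ≤ X ∧ IsMulCommutative A ∧ (∀ a ∈ A, a ^ p = 1) ∧ p ^ n < Nat.card A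

theorem hasEA_mono {p n : ℕ} {X Y : Subgroup G} (h : X ≤ Y) : HasEA p n X → HasEA p n Y := by
  rintro ⟨A, hA, h1, h2, h3⟩
  exact ⟨A, hA.trans h, h1, h2, h3⟩

theorem not_prankle_iff {p n : ℕ} (X : Subgroup G) : ¬ Cfsg.PRankLE p n ↥X ↔ HasEA p n X := by
  constructor
  · intro h
    unfold Cfsg.PRankLE at h
    push Not at h
    obtain ⟨A, hA1, hA2, hA3⟩ := h
    refine ⟨A.map X.subtype, Subgroup.map_subtype_le A, inferInstance, ?_, ?_⟩
    · rintro _ ⟨a, ha, rfl⟩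
      have := hA2 a ha
      rw [← map_pow, this, map_one]
    · rw [Subgroup.card_map_of_injective X.subtype_injective]
      exact hA3
  · rintro ⟨A, hA, h1, h2, h3⟩ h
    have := h (A.subgroupOf X) inferInstance (by
      intro a ha
      apply Subtype.ext
      have := h2 a.1 (Subgroup.mem_subgroupOf.1 ha)
      simpa using this)
    rw [Nat.card_congr (Subgroup.subgroupOfEquivOfLe hA).toEquiv] at this
    omega

theorem prankle_of_equiv {p n : ℕ} {K L : Type*} [Group K] [Group L] (e : K ≃* L)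
    (h : Cfsg.PRankLE p n K) : Cfsg.PRankLE p n L := by
  intro A hA1 hA2
  have := h (A.map e.symm.toMonoidHom) inferInstance (by
    rintro _ ⟨a, ha, rfl⟩
    rw [← map_pow, hA2 a ha, map_one])
  rwa [Subgroup.card_map_of_injective e.symm.injective] at this

theorem mem_conj_iff (H : Subgroup G) (g x : G) :
    x ∈ H.map (MulAut.conj g).toMonoidHom ↔ g⁻¹ * x * g ∈ H := by
  constructor
  · rintro ⟨y, hy, rfl⟩
    simpa [MulAut.conj_apply, mul_assoc] using hy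
  · intro h
    exact ⟨g⁻¹ * x * g, h, by simp [MulAut.conj_apply, mul_assoc]⟩

theorem hasEA_conj {p n : ℕ} {X : Subgroup G} (g : G) (h : HasEA p n X) :
    HasEA p n (X.map (MulAut.conj g).toMonoidHom) := by
  obtain ⟨A, hA, h1, h2, h3⟩ := h
  refine ⟨A.map (MulAut.conj g).toMonoidHom, Subgroup.map_mono hA, inferInstance, ?_, ?_⟩
  · rintro _ ⟨a, ha, rfl⟩
    rw [← map_pow, h2 a ha, map_one]
  · rw [Subgroup.card_map_of_injective (MulAut.conj g).injective]
    exact h3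

theorem hasEA_pgroup {p n : ℕ} {X : Subgroup G} (h : HasEA p n X) :
    ∃ A : Subgroup G, A ≤ X ∧ IsPGroup p A ∧ HasEA p n A := by
  obtain ⟨A, hA, h1, h2, h3⟩ := h
  refine ⟨A, hA, ?_, A, le_rfl, h1, h2, h3⟩
  intro a
  refine ⟨1, ?_⟩
  apply Subtype.ext
  simpa using h2 a.1 a.2

/-- A `p`-subgroup of `H` is conjugate in `H` into a given Sylow subgroup of `H`. -/
theorem psub_conj [Finite G] {p : ℕ} [Fact p.Prime] (H : Subgroup G) (P : Sylow p ↥H)
    (R : Subgroup G) (hR : IsPGroup p R) (hRH : R ≤ H) :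
    ∃ h ∈ H, ∀ r ∈ R, h * r * h⁻¹ ∈ (P : Subgroup ↥H).map H.subtype := by
  have hR' : IsPGroup p (R.subgroupOf H) := hR.comap_subtype
  obtain ⟨Q, hQ⟩ := hR'.exists_le_sylow
  obtain ⟨h, hh⟩ := MulAction.exists_smul_eq ↥H Q P
  refine ⟨h.1, h.2, ?_⟩
  intro r hr
  have h1 : (⟨r, hRH hr⟩ : ↥H) ∈ (Q : Subgroup ↥H) := hQ (Subgroup.mem_subgroupOf.2 hr)
  have h2 := Subgroup.smul_mem_pointwise_smul _ (MulAut.conj h) _ h1
  rw [← Sylow.coe_subgroup_smul, hh] at h2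
  refine ⟨_, h2, ?_⟩
  simp [MulAut.smul_def]

/-- Normalizers grow in `p`-groups. -/
theorem normalizer_grow [Finite G] {p : ℕ} [Fact p.Prime] (P₁ R : Subgroup G) (hP₁ : IsPGroup p P₁)
    (hR : R ≤ P₁) (hne : R ≠ P₁) : ∃ x ∈ P₁, x ∉ R ∧ x ∈ Subgroup.normalizer (R : Set G) := by
  have hnil : Group.IsNilpotent ↥P₁ := hP₁.isNilpotent
  have hnc : NormalizerCondition ↥P₁ := Group.normalizerCondition_of_isNilpotent
  have hlt : R.subgroupOf P₁ < ⊤ := by
    rw [lt_top_iff_ne_top, Ne, Subgroup.subgroupOf_eq_top]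
    exact fun h => hne (le_antisymm hR h)
  obtain ⟨x, hx1, hx2⟩ := SetLike.exists_of_lt (hnc _ hlt)
  refine ⟨x.1, x.2, fun h => hx2 (Subgroup.mem_subgroupOf.2 h), ?_⟩
  rw [Subgroup.mem_normalizer_iff] at hx1 ⊢
  intro y
  constructor
  · intro hy
    have := (hx1 ⟨y, hR hy⟩).1 (Subgroup.mem_subgroupOf.2 hy)
    exact Subgroup.mem_subgroupOf.1 this
  · intro hy
    have hyP : y ∈ P₁ := by
      have : y = x.1⁻¹ * (x.1 * y * x.1⁻¹) * x.1 := by group
      rw [this]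
      exact mul_mem (mul_mem (inv_mem x.2) (hR hy)) x.2
    have := (hx1 ⟨y, hyP⟩).2 (Subgroup.mem_subgroupOf.2 hy)
    exact Subgroup.mem_subgroupOf.1 this

/-- a maximal `p`-subgroup of `K` above a given `p`-subgroup. -/
theorem exists_max_psub [Finite G] {p : ℕ} [Fact p.Prime] (K A : Subgroup G) (hA : IsPGroup p A)
    (hAK : A ≤ K) : ∃ R : Subgroup G, A ≤ R ∧ R ≤ K ∧ IsPGroup p R ∧
      ∀ R' : Subgroup G, IsPGroup p R' → R ≤ R' → R' ≤ K → R' = R := by
  have hA' : IsPGroup p (A.subgroupOf K) := hA.comap_subtype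
  obtain ⟨Q, hQ⟩ := hA'.exists_le_sylow
  refine ⟨(Q : Subgroup ↥K).map K.subtype, ?_, Subgroup.map_subtype_le _, Q.isPGroup'.map _, ?_⟩
  · intro a ha
    exact ⟨⟨a, hAK ha⟩, hQ (Subgroup.mem_subgroupOf.2 ha), rfl⟩
  · intro R' hR' hle hR'K
    have h1 : IsPGroup p (R'.subgroupOf K) := hR'.comap_subtype
    have h2 : (Q : Subgroup ↥K) ≤ R'.subgroupOf K := by
      intro x hx
      exact Subgroup.mem_subgroupOf.2 (hle ⟨x, hx, rfl⟩)
    have h3 := Q.is_maximal' h1 h2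
    apply le_antisymm
    · intro r hr
      refine ⟨⟨r, hR'K hr⟩, ?_, rfl⟩
      rw [← h3]
      exact Subgroup.mem_subgroupOf.2 hr
    · exact hle

theorem key [Finite G] {p : ℕ} [Fact p.Prime] (n : ℕ) (H : Subgroup G) (P : Sylow p ↥H)
    (hN : ∀ X : Subgroup G, X ≤ (P : Subgroup ↥H).map H.subtype → HasEA p n X →
      Subgroup.normalizer (X : Set G) ≤ H)
    (R : Subgroup G) (c : G) (hR : IsPGroup p R) (hEA : HasEA p n R)
    (hc : ∀ r ∈ R, c * r * c⁻¹ ∈ H) :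
    ∃ h ∈ H, (∀ r ∈ R, (h * c) * r * (h * c)⁻¹ ∈ (P : Subgroup ↥H).map H.subtype) ∧
      ∀ m ∈ Subgroup.normalizer (R : Set G), c * m * c⁻¹ ∈ H := by
  have hR2 : IsPGroup p (R.map (MulAut.conj c).toMonoidHom) := hR.map _
  have hR2H : R.map (MulAut.conj c).toMonoidHom ≤ H := by
    rintro _ ⟨r, hr, rfl⟩
    simpa using hc r hr
  obtain ⟨h, hh, hconj⟩ := psub_conj H P _ hR2 hR2H
  have hconj' : ∀ r ∈ R, (h * c) * r * (h * c)⁻¹ ∈ (P : Subgroup ↥H).map H.subtype := by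
    intro r hr
    have := hconj (c * r * c⁻¹) ⟨r, hr, by simp⟩
    have e : h * c * r * (h * c)⁻¹ = h * (c * r * c⁻¹) * h⁻¹ := by group
    rw [e]; exact this
  refine ⟨h, hh, hconj', ?_⟩
  intro m hm
  have hX : R.map (MulAut.conj (h * c)).toMonoidHom ≤ (P : Subgroup ↥H).map H.subtype := by
    rintro _ ⟨r, hr, rfl⟩
    have e : (MulAut.conj (h * c)).toMonoidHom r = (h * c) * r * (h * c)⁻¹ := rfl
    rw [e]; exact hconj' r hr
  have hNX := hN _ hX (hasEA_conj (h * c) hEA)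
  have hmem : (h * c) * m * (h * c)⁻¹ ∈
      Subgroup.normalizer ((R.map (MulAut.conj (h * c)).toMonoidHom : Subgroup G) : Set G) := by
    rw [Subgroup.mem_normalizer_iff] at hm ⊢
    intro y
    rw [mem_conj_iff, mem_conj_iff, hm ((h * c)⁻¹ * y * (h * c))]
    have e : (h * c)⁻¹ * (h * c * m * (h * c)⁻¹ * y * (h * c * m * (h * c)⁻¹)⁻¹) * (h * c)
        = m * ((h * c)⁻¹ * y * (h * c)) * m⁻¹ := by group
    rw [e]
  have := hNX hmem
  have e : c * m * c⁻¹ = h⁻¹ * ((h * c) * m * (h * c)⁻¹) * h := by group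
  rw [e]
  exact mul_mem (mul_mem (inv_mem hh) this) hh

/-- Let H be a subgroup of the finite group G, p a prime, k ≥ 1, and P a Sylow p-subgroup of H whose p-rank is at least k. Then N_G(X) ≤ H for every subgroup X of P of p-rank at least k if and only if H ∩ gHg⁻¹ has p-rank less than k for every g ∉ H. -/
theorem result {G : Type*} [Group G] [Finite G] {p : ℕ} [Fact p.Prime] (k : ℕ) (hk : 1 ≤ k) (H : Subgroup G) (P : Sylow p ↥H) (hP : ¬ Cfsg.PRankLE p (k - 1) ↥(P : Subgroup ↥H)) : (∀ X : Subgroup G, X ≤ (P : Subgroup ↥H).map H.subtype → ¬ Cfsg.PRankLE p (k - 1) ↥X → Subgroup.normalizer (X : Set G) ≤ H) ↔ (∀ g : G, g ∉ H → Cfsg.PRankLE p (k - 1) ↥(H ⊓ H.map (MulAut.conj g).toMonoidHom)) := by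
  have hP' : HasEA p (k - 1) ((P : Subgroup ↥H).map H.subtype) := by
    rw [← not_prankle_iff]
    exact fun h => hP (prankle_of_equiv
      (Subgroup.equivMapOfInjective _ H.subtype H.subtype_injective).symm h)
  constructor
  · intro hN g hg
    by_contra hcon
    rw [not_prankle_iff] at hcon
    have hN' : ∀ X : Subgroup G, X ≤ (P : Subgroup ↥H).map H.subtype → HasEA p (k - 1) X →
        Subgroup.normalizer (X : Set G) ≤ H :=
      fun X hX hEA => hN X hX ((not_prankle_iff X).2 hEA)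
    obtain ⟨A, hAK, hAp, hAEA⟩ := hasEA_pgroup hcon
    obtain ⟨R, hAR, hRK, hRp, hRmax⟩ := exists_max_psub _ A hAp hAK
    have hREA : HasEA p (k - 1) R := hasEA_mono hAR hAEA
    obtain ⟨h₁, hh₁, hc₁, hn₁⟩ := key (k - 1) H P hN' R 1 hRp hREA (by
      intro r hr; simpa using (hRK hr).1)
    obtain ⟨h₂, hh₂, hc₂, hn₂⟩ := key (k - 1) H P hN' R g⁻¹ hRp hREA (by
      intro r hr
      have := (mem_conj_iff H g r).1 (hRK hr).2
      simpa using this)
    have hNK : Subgroup.normalizer (R : Set G) ≤ H ⊓ H.map (MulAut.conj g).toMonoidHom := by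
      intro m hm
      refine ⟨by simpa using hn₁ m hm, (mem_conj_iff H g m).2 ?_⟩
      simpa using hn₂ m hm
    have hPp : IsPGroup p ((P : Subgroup ↥H).map H.subtype) := P.isPGroup'.map _
    -- R equals both conjugates
    have hmaxeq : ∀ a : G, (∀ r ∈ R, a * r * a⁻¹ ∈ (P : Subgroup ↥H).map H.subtype) →
        ∀ x : G, a * x * a⁻¹ ∈ (P : Subgroup ↥H).map H.subtype → x ∈ R := by
      intro a ha
      have hP₁ : IsPGroup p (((P : Subgroup ↥H).map H.subtype).map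
          (MulAut.conj a⁻¹).toMonoidHom) := hPp.map _
      have hRP₁ : R ≤ ((P : Subgroup ↥H).map H.subtype).map (MulAut.conj a⁻¹).toMonoidHom := by
        intro r hr
        rw [mem_conj_iff]
        simpa using ha r hr
      have heq : R = ((P : Subgroup ↥H).map H.subtype).map (MulAut.conj a⁻¹).toMonoidHom := by
        by_contra hne
        obtain ⟨x, hx1, hx2, hx3⟩ := normalizer_grow _ R hP₁ hRP₁ hne
        have hR' := hRmax (((P : Subgroup ↥H).map H.subtype).map (MulAut.conj a⁻¹).toMonoidHom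
          ⊓ Subgroup.normalizer (R : Set G)) (hP₁.to_le inf_le_left)
          (le_inf hRP₁ Subgroup.le_normalizer) (inf_le_right.trans hNK)
        exact hx2 (hR' ▸ ⟨hx1, hx3⟩)
      intro x hx
      rw [heq, mem_conj_iff]
      simpa using hx
    have hnorm : (h₂ * g⁻¹) * (h₁ * 1)⁻¹ ∈
        Subgroup.normalizer (((P : Subgroup ↥H).map H.subtype : Subgroup G) : Set G) := by
      rw [Subgroup.mem_normalizer_iff]
      intro y
      constructor
      · intro hy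
        have h1 : (h₁ * 1)⁻¹ * y * (h₁ * 1) ∈ R := by
          apply hmaxeq _ hc₁
          have e : h₁ * 1 * ((h₁ * 1)⁻¹ * y * (h₁ * 1)) * (h₁ * 1)⁻¹ = y := by group
          rw [e]; exact hy
        have h2 := hc₂ _ h1
        have e : h₂ * g⁻¹ * ((h₁ * 1)⁻¹ * y * (h₁ * 1)) * (h₂ * g⁻¹)⁻¹
            = h₂ * g⁻¹ * (h₁ * 1)⁻¹ * y * (h₂ * g⁻¹ * (h₁ * 1)⁻¹)⁻¹ := by group
        rw [← e]; exact h2
      · intro hy
        have h1 : (h₂ * g⁻¹)⁻¹ * (h₂ * g⁻¹ * (h₁ * 1)⁻¹ * y * (h₂ * g⁻¹ * (h₁ * 1)⁻¹)⁻¹) * (h₂ * g⁻¹)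
            ∈ R := by
          apply hmaxeq _ hc₂
          have e : h₂ * g⁻¹ * ((h₂ * g⁻¹)⁻¹ * (h₂ * g⁻¹ * (h₁ * 1)⁻¹ * y *
              (h₂ * g⁻¹ * (h₁ * 1)⁻¹)⁻¹) * (h₂ * g⁻¹)) * (h₂ * g⁻¹)⁻¹
              = h₂ * g⁻¹ * (h₁ * 1)⁻¹ * y * (h₂ * g⁻¹ * (h₁ * 1)⁻¹)⁻¹ := by group
          rw [e]; exact hy
        have h2 := hc₁ _ h1
        have e : h₁ * 1 * ((h₂ * g⁻¹)⁻¹ * (h₂ * g⁻¹ * (h₁ * 1)⁻¹ * y *
            (h₂ * g⁻¹ * (h₁ * 1)⁻¹)⁻¹) * (h₂ * g⁻¹)) * (h₁ * 1)⁻¹ = y := by group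
        rw [e] at h2; exact h2
    have hin := hN' _ le_rfl hP' hnorm
    apply hg
    have e : g = ((h₂ * g⁻¹) * (h₁ * 1)⁻¹ * h₁)⁻¹ * h₂ := by group
    rw [e]
    exact mul_mem (inv_mem (mul_mem hin hh₁)) hh₂
  · intro hK X hX hEA m hm
    by_contra hmH
    apply hEA
    have hXK : X ≤ H ⊓ H.map (MulAut.conj m).toMonoidHom := by
      intro x hx
      refine ⟨Subgroup.map_subtype_le _ (hX hx), (mem_conj_iff H m x).2 ?_⟩
      apply Subgroup.map_subtype_le _ (hX _)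
      have := (Subgroup.mem_normalizer_iff.1 (inv_mem hm) x).1 hx
      simpa using this
    by_contra hcon
    rw [not_prankle_iff] at hcon
    exact (not_prankle_iff _).2 (hasEA_mono hXK hcon) (hK m hmH)

end Cfsg.Agent.S1231
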