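import Cfsg.Statements.S1235
import Cfsg.Agent.Lib.Helper78.HarDefs
import Cfsg.Agent.Lib.Helper90.HarBRIDGE
import Cfsg.Agent.Lib.Helper83.HarRED
import Cfsg.Agent.Lib.Helper20.HarCYC
import Cfsg.Agent.Lib.Helper34.HarDIHC
import Cfsg.Agent.Lib.Helper36.HarQDC
import Cfsg.Agent.Lib.Helper36.HarDIHZ
import Cfsg.Agent.Lib.Helper36.HarQDZ
import Cfsg.Agent.Lib.Helper29.HarPRODC
import Cfsg.Agent.Lib.Helper29.HarPRODZ
import Cfsg.Agent.Lib.Helper92.HarSYLA
import Cfsg.Agent.Lib.Helper34.HarSYLC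
import Cfsg.Agent.Lib.Helper83.HarELAB
import Cfsg.Agent.Lib.Helper36.HarTRANS
import Cfsg.Agent.Lib.Helper78.HarFIX
import Cfsg.Agent.Lib.Helper78.HarNORM
import Cfsg.Agent.Lib.Helper16.HarNRM
import Cfsg.Agent.Lib.Helper78.HarCONJ1
import Cfsg.Agent.Lib.Helper78.HarCONJ2
import Cfsg.Agent.Lib.Helper36.HarINV
import Cfsg.Agent.Lib.Helper88.HarN128A
import Cfsg.Agent.Lib.Helper88.HarN128B
import Cfsg.Agent.Lib.Helper87.HarB5I
import Cfsg.Agent.Lib.Helper16.HarB5II
import Cfsg.Agent.Lib.Helper78.HarB5III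

/-!
# S1235 (helper78, project HAR; pieces proved by helpers 16, 20, 29, 34, 36, 78, 83, 87, 88, 90, 92)
-/

set_option autoImplicit false
open Cfsg

namespace Cfsg.Agent.S1235

open Cfsg.Agent.Lib.Helper78.Har

/-- The case `T` elementary abelian of order 16, for a 2-group `X`. -/
theorem elemSec_of_E16 {X : Type*} [Group X] [Finite X] (hX : IsPGroup 2 X) (T B : Subgroup X)
    (h : E16Hyp X T B) : ElemSecLE X 16 := by
  apply Cfsg.Agent.Lib.Helper83.Har.elemSec_of_no32 hX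
  intro P M hMP hn hsq hcard
  have hfix := fun y hy => Cfsg.Agent.Lib.Helper78.Har.card_fix_le T B h y hy
  have hN64 := Cfsg.Agent.Lib.Helper78.Har.card_normalizer_le hX T B h
  by_cases hnn : Subgroup.normalizer (T : Set X) = ⊤
  · have hX64 : Nat.card X ≤ 64 := by
      have h1 : Nat.card ↥(Subgroup.normalizer (T : Set X)) = Nat.card X := by
        rw [hnn]; exact Subgroup.card_top
      omega
    exact Cfsg.Agent.Lib.Helper16.Har.no32_of_card_le hX T B h hX64 hfix P M hMP hn hsq hcard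
  · obtain ⟨g, T', B', hg, hT', h', hT'N, hNN⟩ := Cfsg.Agent.Lib.Helper78.Har.exists_conj hX T B h hnn
    have hfix' := fun y hy => Cfsg.Agent.Lib.Helper78.Har.card_fix_le T' B' h' y hy
    have hc := Cfsg.Agent.Lib.Helper78.Har.conf_of_conj hX T B T' B' g h h' hg hT' hT'N hNN hfix hfix' hN64
    have hE := fun E hEN hE2 => Cfsg.Agent.Lib.Helper36.Har.elem_le_or_le T T' _ g hc E hEN hE2
    obtain ⟨h128n, hswap⟩ := Cfsg.Agent.Lib.Helper88.Har.normalizer_swap T T' _ g hc hE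
    have htop := Cfsg.Agent.Lib.Helper88.Har.normalizer_eq_top hX T T' _ g hc hE h128n hswap
    have h128 : Nat.card X = 128 := by
      rw [htop] at h128n; rw [← h128n]; exact Subgroup.card_top.symm
    have hPdvd : Nat.card P ∣ 128 := h128 ▸ Subgroup.card_subgroup_dvd_card P
    have hMdvd : Nat.card M ∣ 4 := by
      rw [hcard, show (128 : ℕ) = 32 * 4 from rfl] at hPdvd
      exact (Nat.mul_dvd_mul_iff_left (by norm_num : 0 < 32)).mp hPdvd
    have hMle : Nat.card M ≤ 4 := Nat.le_of_dvd (by norm_num) hMdvd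
    have hMpos : 0 < Nat.card M := Nat.card_pos
    have hM124 : Nat.card M = 1 ∨ Nat.card M = 2 ∨ Nat.card M = 4 := by
      have h3 : Nat.card M ≠ 3 := by
        intro h3; rw [h3] at hMdvd; revert hMdvd; decide
      omega
    rcases hM124 with hM | hM | hM
    · have hMbot : M = ⊥ := Subgroup.card_eq_one.mp hM
      have hsq' : ∀ x ∈ P, x ^ 2 = 1 := fun x hx => by
        have h1 := hsq x hx
        rw [hMbot, Subgroup.mem_bot] at h1
        exact h1
      exact Cfsg.Agent.Lib.Helper87.Har.no_elem32 T T' _ g hc h128 hE P hsq' (by rw [hcard, hM])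
    · exact Cfsg.Agent.Lib.Helper16.Har.no_sec64 T T' _ g hc h128 P M hMP hn hsq (by rw [hcard, hM]) hM
    · have hPtop : P = ⊤ := by
        apply Subgroup.eq_top_of_card_eq
        rw [hcard, hM, h128]
      subst hPtop
      exact Cfsg.Agent.Lib.Helper78.Har.no_sec128 T T' _ g hc h128 M
        (fun x m hm => hn x (Subgroup.mem_top x) m hm) (fun x => hsq x (Subgroup.mem_top x)) hM

/-- The case `Z(D)` of order two: `T` is a Sylow 2-subgroup of `G`. -/
theorem caseA {G : Type*} [Group G] [Finite G] (S : Sylow 2 G) (T D B : Subgroup G)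
    (hT : IsPGroup 2 T) (hTS : T ≤ S) (hprod : Cfsg.IsInternalDirectProduct D B T)
    (hB : IsKleinFour B)
    (hmax : ∀ b ∈ B, b ≠ 1 → ∀ P : Subgroup G, IsPGroup 2 P → T ≤ P →
      P ≤ Subgroup.centralizer ({b} : Set G) → P = T)
    (z : ↥D) (hz1 : z ≠ 1) (hz2 : z ^ 2 = 1)
    (hzc : ∀ c : ↥D, (∀ d : ↥D, c * d = d * c) → c = 1 ∨ c = z)
    (C : Subgroup ↥D) (hCn : C.Normal) (hC : IsCyclic C) (hcard : Nat.card D = 2 * Nat.card C) :
    ElemSecLE ↥(S : Subgroup G) 16 := by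
  have hB4 : Nat.card B = 4 := hB.card_four
  obtain ⟨Z, hZ, hZ8, hZ2, hBZ⟩ := Cfsg.Agent.Lib.Helper29.Har.prod_center T D B hprod hB z hz1 hz2 hzc
  have hST : (S : Subgroup G) = T :=
    Cfsg.Agent.Lib.Helper92.Har.sylow_of_center T B Z hT hZ hZ8 hZ2 hBZ hB4 hmax S S.isPGroup' hTS
  obtain ⟨C', hC'n, hC', hC'card⟩ := Cfsg.Agent.Lib.Helper29.Har.prod_cyclic T D B hprod hB4 C hCn hC hcard
  rw [hST]
  exact Cfsg.Agent.Lib.Helper20.Har.elemSec_of_cyclic C' hC'n hC' hC'card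

/-- Let G be a finite group, x an involution and T ≤ G a Sylow 2-subgroup of C_G(x) (T ≤ C_G(x) with |C_G(x) : T| odd) which is the internal direct product of a subgroup D that is dihedral (of order ≥ 4) or quasi-dihedral and a Klein four-subgroup B. Suppose that for every involution b ∈ B, T ≤ C_G(b) with |C_G(b) : T| odd. Then every section of G has 2-rank at most 4. -/
theorem result {G : Type*} [Group G] [Finite G] (x : G) (hx : orderOf x = 2) (T D B : Subgroup G) (hT : IsPGroup 2 T) (hTx : T ≤ Subgroup.centralizer ({x} : Set G)) (hTxi : Odd (T.relIndex (Subgroup.centralizer ({x} : Set G)))) (hprod : Cfsg.IsInternalDirectProduct D B T) (hD : (∃ m : ℕ, 2 ≤ m ∧ Nonempty (D ≃* DihedralGroup m)) ∨ Cfsg.IsQuasiDihedral D) (hB : IsKleinFour B) (hTb : ∀ b ∈ B, orderOf b = 2 → T ≤ Subgroup.centralizer ({b} : Set G) ∧ Odd (T.relIndex (Subgroup.centralizer ({b} : Set G)))) : Cfsg.SectionalPRankLE 2 4 G := by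
  obtain ⟨S, hTS⟩ := hT.exists_le_sylow
  apply Cfsg.Agent.Lib.Helper90.Har.sectional_of_sylow S
  have hB4 : Nat.card B = 4 := hB.card_four
  have hord : ∀ b ∈ B, b ≠ 1 → orderOf b = 2 := by
    intro b hb hb1
    have h2 : (⟨b, hb⟩ : B) ^ 2 = 1 := by
      have h3 := Monoid.pow_exponent_eq_one (⟨b, hb⟩ : B)
      rwa [hB.exponent_two] at h3
    have h2' : b ^ 2 = 1 := by
      have h3 := congrArg Subtype.val h2
      simpa using h3
    exact orderOf_eq_prime h2' hb1
  have hmax : ∀ b ∈ B, b ≠ 1 → ∀ P : Subgroup G, IsPGroup 2 P → T ≤ P →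
      P ≤ Subgroup.centralizer ({b} : Set G) → P = T := by
    intro b hb hb1
    obtain ⟨h1, h2⟩ := hTb b hb (hord b hb hb1)
    exact Cfsg.Agent.Lib.Helper34.Har.eq_of_odd_relIndex T _ hT h1 h2
  rcases hD with ⟨m, hm, ⟨e⟩⟩ | hQD
  · by_cases hm2 : m = 2
    · subst hm2
      obtain ⟨hT16, hT2⟩ := Cfsg.Agent.Lib.Helper83.Har.e16_of_dihedral_two T D B hprod hB e
      have hcb : ∀ b ∈ B, b ≠ 1 →
          (S : Subgroup G) ⊓ Subgroup.centralizer ({b} : Set G) ≤ T := by
        intro b hb hb1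
        obtain ⟨h1, -⟩ := hTb b hb (hord b hb hb1)
        exact (hmax b hb hb1 _ (S.isPGroup'.to_le inf_le_left) (le_inf hTS h1) inf_le_right).le
      have hE := Cfsg.Agent.Lib.Helper36.Har.e16Hyp_subtype (S : Subgroup G) T B hTS hT16 hT2 hprod.2.1 hB4 hcb
      exact elemSec_of_E16 S.isPGroup' _ _ hE
    · have hD2 : IsPGroup 2 D := hT.to_le hprod.1
      obtain ⟨z, hz1, hz2, hzc⟩ := Cfsg.Agent.Lib.Helper36.Har.dihedral_center m (by omega) e hD2
      obtain ⟨C, hCn, hC, hcard⟩ := Cfsg.Agent.Lib.Helper34.Har.dihedral_cyclic m (by omega) e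
      exact caseA S T D B hT hTS hprod hB hmax z hz1 hz2 hzc C hCn hC hcard
  · obtain ⟨z, hz1, hz2, hzc⟩ := Cfsg.Agent.Lib.Helper36.Har.quasidihedral_center hQD
    obtain ⟨C, hCn, hC, hcard⟩ := Cfsg.Agent.Lib.Helper36.Har.quasidihedral_cyclic hQD
    exact caseA S T D B hT hTS hprod hB hmax z hz1 hz2 hzc C hCn hC hcard

end Cfsg.Agent.S1235
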