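import Cfsg.Statements.S1236
import Cfsg.Agent.Lib.Helper28.QD2
import Cfsg.Agent.Lib.Helper28.WrU

set_option autoImplicit false
open Cfsg

namespace Cfsg.Agent.S1236

open Cfsg.Agent.Lib.Helper28

/-- Solutions of `2k = 0` in `ZMod m`. -/
theorem two_mul_zmod {m : ℕ} (hm : 1 ≤ m) (k : ZMod m) (hk : k + k = 0) :
    k = 0 ∨ k = ((m / 2 : ℕ) : ZMod m) := by
  have : NeZero m := ⟨by omega⟩
  have h1 : ((k.val + k.val : ℕ) : ZMod m) = 0 := by
    rw [Nat.cast_add, ZMod.natCast_zmod_val]; exact hk
  rw [ZMod.natCast_eq_zero_iff] at h1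
  have h2 := ZMod.val_lt k
  obtain ⟨c, hc⟩ := h1
  have hc2 : c = 0 ∨ c = 1 := by
    rcases Nat.lt_or_ge c 2 with h | h
    · omega
    · exfalso
      have : m * 2 ≤ m * c := Nat.mul_le_mul_left m h
      omega
  rcases hc2 with rfl | rfl
  · left
    have : k.val = 0 := by omega
    exact (ZMod.val_eq_zero k).mp this
  · right
    have : k.val = m / 2 := by omega
    rw [← this, ZMod.natCast_zmod_val]

/-- A four-group of exponent 2 in a dihedral group is self-centralizing. -/
theorem dih_four {m : ℕ} (hm : 1 ≤ m) (B : Subgroup (DihedralGroup m)) (hB4 : Nat.card B = 4)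
    (hsq : ∀ b ∈ B, b * b = 1) (c : DihedralGroup m) (hc : ∀ b ∈ B, c * b = b * c) : c ∈ B := by
  have hfin : Finite B := Nat.finite_of_card_ne_zero (by rw [hB4]; norm_num)
  have hT4 : (B : Set (DihedralGroup m)).ncard = 4 := by
    rw [← Nat.card_coe_set_eq]; exact hB4
  have hex : ∀ p q : DihedralGroup m, ∃ t ∈ B, t ≠ p ∧ t ≠ q := by
    intro p q
    by_contra hcon
    push Not at hcon
    have hsub : (B : Set (DihedralGroup m)) ⊆ {p, q} := by
      intro t ht
      by_cases h1 : t = p
      · left; exact h1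
      · right; exact hcon t ht h1
    have h1 := Set.ncard_le_ncard hsub (Set.toFinite _)
    have h2 : ({p, q} : Set (DihedralGroup m)).ncard ≤ 2 := by
      have := Set.ncard_insert_le p ({q} : Set (DihedralGroup m))
      rw [Set.ncard_singleton] at this
      exact this
    omega
  -- a reflection in B
  have hrefl : ∃ i, DihedralGroup.sr i ∈ B := by
    obtain ⟨b, hbB, hb1, hb2⟩ := hex 1 (DihedralGroup.r ((m / 2 : ℕ) : ZMod m))
    cases b with
    | r k =>
      exfalso
      have h1 := hsq _ hbB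
      rw [DihedralGroup.r_mul_r, ← DihedralGroup.r_zero, DihedralGroup.r.injEq] at h1
      rcases two_mul_zmod hm k h1 with h2 | h2
      · apply hb1; rw [h2, DihedralGroup.r_zero]
      · apply hb2; rw [h2]
    | sr i => exact ⟨i, hbB⟩
  obtain ⟨i, hi⟩ := hrefl
  -- a nontrivial rotation in B
  have hrot : ∃ j, j ≠ 0 ∧ DihedralGroup.r j ∈ B := by
    obtain ⟨b, hbB, hb1, hb2⟩ := hex 1 (DihedralGroup.sr i)
    cases b with
    | r k =>
      refine ⟨k, ?_, hbB⟩
      rintro rfl
      exact hb1 DihedralGroup.r_zero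
    | sr i' =>
      refine ⟨i' - i, ?_, ?_⟩
      · intro h0
        apply hb2
        rw [sub_eq_zero.mp h0]
      · have := B.mul_mem hi hbB
        rw [DihedralGroup.sr_mul_sr] at this
        exact this
  obtain ⟨j, hj0, hj⟩ := hrot
  have hjj : j + j = 0 := by
    have h1 := hsq _ hj
    rw [DihedralGroup.r_mul_r, ← DihedralGroup.r_zero, DihedralGroup.r.injEq] at h1
    exact h1
  have hj' : j = ((m / 2 : ℕ) : ZMod m) := by
    rcases two_mul_zmod hm j hjj with h | h
    · exact absurd h hj0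
    · exact h
  have hci := hc _ hi
  cases c with
  | r k =>
    rw [DihedralGroup.r_mul_sr, DihedralGroup.sr_mul_r, DihedralGroup.sr.injEq] at hci
    have hkk : k + k = 0 := by linear_combination -hci
    rcases two_mul_zmod hm k hkk with h | h
    · rw [h, DihedralGroup.r_zero]; exact B.one_mem
    · rw [h, ← hj']; exact hj
  | sr k =>
    rw [DihedralGroup.sr_mul_sr, DihedralGroup.sr_mul_sr, DihedralGroup.r.injEq] at hci
    have hkk : (k - i) + (k - i) = 0 := by linear_combination -hci
    rcases two_mul_zmod hm (k - i) hkk with h | h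
    · have : k = i := sub_eq_zero.mp h
      rw [this]; exact hi
    · have : k = i + j := by rw [hj', ← h]; ring
      rw [this]
      have h2 := B.mul_mem hi hj
      rw [DihedralGroup.sr_mul_r] at h2
      exact h2

/-- A four-group of exponent 2 in a quasidihedral group is self-centralizing. -/
theorem qd_four {Q : Type*} [Group Q] (hQ : Cfsg.IsQuasiDihedral Q) (B : Subgroup Q)
    (hB4 : Nat.card B = 4) (hsq : ∀ b ∈ B, b * b = 1) (c : Q)
    (hc : ∀ b ∈ B, c * b = b * c) : c ∈ B := by
  obtain ⟨n, hn, hcard, x, y, hx, hy, hyx⟩ := hQ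
  have h8 : 8 * 2 ^ (n - 3) = 2 ^ n := by
    have : n = (n - 3) + 3 := by omega
    conv_rhs => rw [this, pow_add]
    ring
  have h4 : 4 * 2 ^ (n - 3) = 2 ^ (n - 1) := by
    have : n - 1 = (n - 3) + 2 := by omega
    rw [this, pow_add]
    ring
  have h : QDHyp (⊤ : Subgroup Q) x y (2 ^ (n - 3)) := by
    refine ⟨Nat.one_le_two_pow, ?_, hy, ?_, Subgroup.mem_top _, Subgroup.mem_top _, ?_⟩
    · rw [hx, h8]
    · rw [hyx, h4]
    · rw [Subgroup.card_top, hcard, pow_succ, ← h8]
      ring
  obtain ⟨a, ha, hmem⟩ := h.klein (T := B) le_top hB4 hsq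
  have h1 : qdE x y (2 ^ (n - 3)) a true ∈ B := (hmem _).mpr (Or.inr (Or.inr (Or.inl rfl)))
  have h2 := h.centralizer_true (a := a) (g := c) (Subgroup.mem_top _) (hc _ h1)
  exact (hmem c).mpr h2

theorem result {R : Type*} [Group R] [Finite R] (t : R) (ht : orderOf t = 2) (htz : t ∈ Subgroup.center R) [(Subgroup.zpowers t).Normal] (hq : (∃ m : ℕ, 2 ≤ m ∧ Nonempty (R ⧸ Subgroup.zpowers t ≃* DihedralGroup m)) ∨ Cfsg.IsQuasiDihedral (R ⧸ Subgroup.zpowers t)) (A : Subgroup R) (hA : Cfsg.IsElementaryAbelian 2 A) (hA8 : Nat.card A = 8) (htA : t ∈ A) : Subgroup.centralizer (A : Set R) = A := by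
  obtain ⟨hAc, hAe⟩ := hA
  have htle : Subgroup.zpowers t ≤ A := by
    rw [Subgroup.zpowers_le]; exact htA
  set π := QuotientGroup.mk' (Subgroup.zpowers t) with hπ
  have hker : π.ker = Subgroup.zpowers t := QuotientGroup.ker_mk' _
  -- the image of A
  have hB4 : Nat.card (A.map π) = 4 := by
    have h1 := card_mul_relIndex (C := π.ker) (N := A) (by rw [hker]; exact htle)
    rw [Subgroup.relIndex_ker, hker, Nat.card_zpowers, ht, hA8] at h1
    omega
  have hsq : ∀ b ∈ A.map π, b * b = 1 := by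
    rintro b ⟨a, ha, rfl⟩
    rw [← map_mul, ← pow_two, hAe a ha, map_one]
  have hcomm : ∀ a ∈ A, ∀ b ∈ A, a * b = b * a := by
    intro a ha b hb
    exact congrArg Subtype.val (hAc.is_comm.comm ⟨a, ha⟩ ⟨b, hb⟩)
  apply le_antisymm
  · intro c hc
    rw [Subgroup.mem_centralizer_iff] at hc
    have hc' : ∀ b ∈ A.map π, π c * b = b * π c := by
      rintro b ⟨a, ha, rfl⟩
      rw [← map_mul, ← map_mul, hc a ha]
    have hmem : π c ∈ A.map π := by
      rcases hq with ⟨m, hm, ⟨e⟩⟩ | hQD
      · -- dihedral case: transport along e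
        have hB4' : Nat.card ((A.map π).map e.toMonoidHom) = 4 := by
          rw [← hB4]
          exact Nat.card_congr ((A.map π).equivMapOfInjective e.toMonoidHom e.injective).symm.toEquiv
        have hsq' : ∀ b ∈ (A.map π).map e.toMonoidHom, b * b = 1 := by
          rintro b ⟨a, ha, rfl⟩
          rw [← map_mul, hsq a ha, map_one]
        have hc'' : ∀ b ∈ (A.map π).map e.toMonoidHom, e (π c) * b = b * e (π c) := by
          rintro b ⟨a, ha, rfl⟩
          change e (π c) * e a = e a * e (π c)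
          rw [← map_mul, ← map_mul, hc' a ha]
        have := dih_four (by omega) _ hB4' hsq' (e (π c)) hc''
        obtain ⟨a, ha, hae⟩ := this
        have : a = π c := e.injective hae
        rw [← this]; exact ha
      · exact qd_four hQD _ hB4 hsq (π c) hc'
    obtain ⟨a, ha, hac⟩ := hmem
    have h1 : a⁻¹ * c ∈ Subgroup.zpowers t := by
      rw [← hker, MonoidHom.mem_ker, map_mul, map_inv, hac, inv_mul_cancel]
    have h2 := A.mul_mem ha (htle h1)
    rw [mul_inv_cancel_left] at h2
    exact h2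
  · intro a ha
    rw [Subgroup.mem_centralizer_iff]
    intro b hb
    exact hcomm b hb a ha

end Cfsg.Agent.S1236
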