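import Cfsg.Statements.S1241
import Mathlib

set_option autoImplicit false
open Cfsg

namespace Cfsg.Agent.S1241

open scoped IsMulCommutative

theorem mem_of_pow_mem {G : Type*} [Group G] (K : Subgroup G) (g : G) (n m : ℕ)
    (hg : g ^ m = 1) (hcop : Nat.Coprime n m) (h : g ^ n ∈ K) : g ∈ K := by
  obtain ⟨u, v, huv⟩ := (Nat.isCoprime_iff_coprime.mpr hcop)
  have : g = (g ^ n) ^ u := by
    have h1 : g = g ^ (u * (n : ℤ) + v * (m : ℤ)) := by rw [huv, zpow_one]
    rw [zpow_add, zpow_mul' g v, zpow_natCast, hg, one_zpow, mul_one, mul_comm, zpow_mul,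
      zpow_natCast] at h1
    exact h1
  rw [this]
  exact K.zpow_mem h u

/-- Let G be a finite group, p a prime, H a subgroup of index prime to p, K a subgroup of H normal in H with H/K commutative, and g ∈ H ∖ K an element of p-power order such that for all integers m and all a ∈ G with a g^m a⁻¹ ∈ H one has a g^m a⁻¹ ∈ g^m K. Then g ∉ G'. -/
theorem result {G : Type*} [Group G] [Finite G] {p : ℕ} [Fact p.Prime] (H K : Subgroup G) (hHK : K ≤ H) (hKn : (K.subgroupOf H).Normal) (hab : ∀ x ∈ H, ∀ y ∈ H, x * y * x⁻¹ * y⁻¹ ∈ K) (hidx : Nat.Coprime p H.index) (g : G) (hgH : g ∈ H) (hgK : g ∉ K) (hgp : ∃ k : ℕ, orderOf g = p ^ k) (hctrl : ∀ (m : ℤ) (a : G), a * g ^ m * a⁻¹ ∈ H → (a * g ^ m * a⁻¹) * (g ^ m)⁻¹ ∈ K) : g ∉ commutator G := by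
  intro hgc
  haveI : (K.subgroupOf H).Normal := hKn
  haveI : IsMulCommutative (H ⧸ K.subgroupOf H) := by
    rw [Subgroup.Normal.quotient_commutative_iff_commutator_le]
    rw [commutator_eq_closure, Subgroup.closure_le]
    rintro _ ⟨x, y, rfl⟩
    rw [SetLike.mem_coe, Subgroup.mem_subgroupOf]
    simpa [commutatorElement_def] using hab x x.2 y y.2
  let ϕ : H →* H ⧸ K.subgroupOf H := QuotientGroup.mk' (K.subgroupOf H)
  have key : MonoidHom.transfer ϕ g = ϕ ⟨g, hgH⟩ ^ H.index := by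
    have : Fintype (Quotient (MulAction.orbitRel (Subgroup.zpowers g) (G ⧸ H))) :=
      Fintype.ofFinite _
    rw [Subgroup.index_eq_sum_minimalPeriod H g, ← Finset.prod_pow_eq_pow_sum,
      MonoidHom.transfer_eq_prod_quotient_orbitRel_zpowers_quot]
    apply Finset.prod_congr rfl
    intro q _
    rw [← map_pow]
    simp only [ϕ, QuotientGroup.mk'_apply]
    rw [QuotientGroup.eq_iff_div_mem, Subgroup.mem_subgroupOf]
    have h1 := QuotientGroup.out_conj_pow_minimalPeriod_mem H g q.out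
    have h2 := hctrl (Function.minimalPeriod (g • ·) q.out : ℕ) (q.out.out)⁻¹
    rw [inv_inv, zpow_natCast] at h2
    simpa [div_eq_mul_inv] using h2 h1
  have h1 : MonoidHom.transfer ϕ g = 1 :=
    Abelianization.commutator_subset_ker (MonoidHom.transfer ϕ) hgc
  rw [key, ← map_pow] at h1
  have h2 : (⟨g, hgH⟩ : H) ^ H.index ∈ K.subgroupOf H := by
    simpa [ϕ] using h1
  rw [Subgroup.mem_subgroupOf] at h2
  simp only [Subgroup.coe_pow] at h2
  obtain ⟨k, hk⟩ := hgp
  apply hgK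
  refine mem_of_pow_mem K g H.index (p ^ k) ?_ ?_ h2
  · rw [← hk]; exact pow_orderOf_eq_one g
  · exact (Nat.Coprime.pow_left k hidx).symm

end Cfsg.Agent.S1241
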