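import Cfsg.Statements.S1244
import Mathlib

set_option autoImplicit false
open Cfsg

namespace Cfsg.Agent.S1244

open Subgroup
open scoped IsMulCommutative

lemma hom_trivial {G : Type*} [Group G] (hG : ∀ H : Subgroup G, H.index ≠ 2) {A : Type*}
    [Group A] [Finite A] (hA : IsPGroup 2 A) (f : G →* A) (g : G) : f g = 1 := by
  by_contra hne
  have hr : IsPGroup 2 f.range := hA.to_subgroup _
  obtain ⟨k, hk⟩ := IsPGroup.iff_card.mp hr
  have hk0 : k ≠ 0 := by
    rintro rfl
    rw [pow_zero] at hk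
    have hsub : Subsingleton f.range := (Nat.card_eq_one_iff_unique.mp hk).1
    have := Subsingleton.elim (⟨f g, ⟨g, rfl⟩⟩ : f.range) 1
    exact hne (congrArg Subtype.val this)
  obtain ⟨J, hJ⟩ := Sylow.exists_subgroup_card_pow_prime (G := f.range) 2 (n := k - 1)
    (by rw [hk]; exact pow_dvd_pow 2 (by omega))
  have hJi : J.index = 2 := by
    have h1 := J.card_mul_index
    rw [hJ, hk] at h1
    have h2 : 2 ^ k = 2 ^ (k - 1) * 2 := by rw [← pow_succ]; congr 1; omega
    rw [h2] at h1
    exact Nat.eq_of_mul_eq_mul_left (by positivity) h1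
  apply hG (J.comap f.rangeRestrict)
  rw [Subgroup.index_comap_of_surjective _ f.rangeRestrict_surjective]; exact hJi

lemma prod_parity {A : Type*} [CommGroup A] (V U : Subgroup A)
    (hidx : (U.subgroupOf V).index = 2) {ι : Type*} [DecidableEq ι] (s : Finset ι) (f : ι → A)
    (hf : ∀ i ∈ s, f i ∈ V ∧ f i ∉ U) :
    (∏ i ∈ s, f i) ∈ V ∧ ((∏ i ∈ s, f i) ∈ U ↔ Even s.card) := by
  induction s using Finset.induction_on with
  | empty => simp
  | insert a s ha ih =>
    have ih' := ih (fun i hi => hf i (Finset.mem_insert_of_mem hi))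
    have hfa := hf a (Finset.mem_insert_self a s)
    rw [Finset.prod_insert ha, Finset.card_insert_of_notMem ha]
    refine ⟨mul_mem hfa.1 ih'.1, ?_⟩
    have key := Subgroup.mul_mem_iff_of_index_two hidx (a := ⟨f a, hfa.1⟩)
      (b := ⟨∏ i ∈ s, f i, ih'.1⟩)
    simp only [Subgroup.mem_subgroupOf, MulMemClass.mk_mul_mk] at key
    rw [key, ih'.2, Nat.even_add_one]
    constructor
    · intro h he; exact hfa.2 (h.mpr he)
    · intro h; exact ⟨fun h' => absurd h' hfa.2, fun h' => absurd h' h⟩

/-- conjugation by a normalizing element, as an endomorphism of the subgroup -/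
def conjS {G : Type*} [Group G] (S : Subgroup G) (m : G)
    (hm : m ∈ Subgroup.normalizer (S : Set G)) : ↥S →* ↥S where
  toFun x := ⟨m * x * m⁻¹, (Subgroup.mem_normalizer_iff.mp hm x).mp x.2⟩
  map_one' := by ext; simp
  map_mul' := by intro a b; ext; simp

/-- Let G be a finite group with no subgroup of index 2 whose Sylow 2-subgroup S is commutative, and let R ≤ S be a subgroup whose 2-rank is exactly one less than the 2-rank r of S. Then every involution of S is conjugate, by an element of N_G(S), to an element of R. -/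
theorem result {G : Type*} [Group G] [Finite G] (hG : ∀ H : Subgroup G, H.index ≠ 2) (S : Sylow 2 G) (hS : IsMulCommutative (S : Subgroup G)) (r : ℕ) (hr1 : 1 ≤ r) (hSr : Cfsg.PRankLE 2 r (S : Subgroup G) ∧ ¬ Cfsg.PRankLE 2 (r - 1) (S : Subgroup G)) (R : Subgroup G) (hRS : R ≤ S) (hRr : Cfsg.PRankLE 2 (r - 1) R ∧ (r = 1 ∨ ¬ Cfsg.PRankLE 2 (r - 2) R)) (t : G) (ht : orderOf t = 2) (htS : t ∈ S) : ∃ n ∈ Subgroup.normalizer ((S : Subgroup G) : Set G), n * t * n⁻¹ ∈ R := by
  classical
  by_contra hcon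
  have hcon' : ∀ n ∈ Subgroup.normalizer ((S : Subgroup G) : Set G), n * t * n⁻¹ ∉ R := by
    intro n hn h; exact hcon ⟨n, hn, h⟩
  have hpS : IsPGroup 2 (S : Subgroup G) := S.isPGroup'
  have ht2 : t * t = 1 := by rw [← pow_two, ← ht, pow_orderOf_eq_one]
  -- V
  let V : Subgroup (S : Subgroup G) := (powMonoidHom 2 : (S : Subgroup G) →* (S : Subgroup G)).ker
  have hV : ∀ x : (S : Subgroup G), x ∈ V ↔ x ^ 2 = 1 := fun x => by
    simp [V, MonoidHom.mem_ker]
  -- card V = 2 ^ r
  have hVle : Nat.card V ≤ 2 ^ r := hSr.1 V inferInstance (fun a ha => (hV a).mp ha)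
  obtain ⟨jV, hjV⟩ := IsPGroup.iff_card.mp (hpS.to_subgroup V)
  have hVcard : Nat.card V = 2 ^ r := by
    have h2 := hSr.2
    unfold Cfsg.PRankLE at h2
    simp only [not_forall] at h2
    obtain ⟨A, hAc, hA2, hAcard⟩ := h2
    have hAV : A ≤ V := fun a ha => (hV a).mpr (hA2 a ha)
    have h3 := Subgroup.card_le_of_le hAV
    rw [hjV] at h3 hVle ⊢
    have h4 : r - 1 < jV := by
      by_contra hlt
      have : 2 ^ jV ≤ 2 ^ (r - 1) := Nat.pow_le_pow_right (by norm_num) (by omega)
      omega
    have h5 : jV ≤ r := (Nat.pow_le_pow_iff_right (by norm_num)).mp hVle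
    congr 1; omega
  -- B : elements of R of square one
  let B : Subgroup R := V.comap (Subgroup.inclusion hRS)
  have hB : ∀ x : R, x ∈ B ↔ x ^ 2 = 1 := fun x => by
    rw [Subgroup.mem_comap, hV]
    constructor
    · intro h; ext; have := congrArg (fun y : (S : Subgroup G) => (y : G)) h; simpa using this
    · intro h; ext; have := congrArg (fun y : R => (y : G)) h; simpa using this
  have hRcomm : ∀ a b : R, a * b = b * a := by
    intro a b
    ext
    have := mul_comm' (⟨a, hRS a.2⟩ : (S : Subgroup G)) ⟨b, hRS b.2⟩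
    have h := congrArg (fun y : (S : Subgroup G) => (y : G)) this
    exact h
  have hBcomm : IsMulCommutative B := ⟨⟨fun a b => Subtype.ext (hRcomm a b)⟩⟩
  have hBle : Nat.card B ≤ 2 ^ (r - 1) := hRr.1 B hBcomm (fun a ha => (hB a).mp ha)
  have hpR : IsPGroup 2 R := hpS.to_le hRS
  obtain ⟨jB, hjB⟩ := IsPGroup.iff_card.mp (hpR.to_subgroup B)
  have hBcard : Nat.card B = 2 ^ (r - 1) := by
    rcases hRr.2 with h1 | h2
    · subst h1
      have hpos : 0 < Nat.card B := Nat.card_pos
      have h10 : 2 ^ (1 - 1) = 1 := by norm_num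
      rw [h10] at hBle ⊢; omega
    · unfold Cfsg.PRankLE at h2
      simp only [not_forall] at h2
      obtain ⟨A, hAc, hA2, hAcard⟩ := h2
      have hAB : A ≤ B := fun a ha => (hB a).mpr (hA2 a ha)
      have h3 := Subgroup.card_le_of_le hAB
      rw [hjB] at h3 hBle ⊢
      have h4 : r - 2 < jB := by
        by_contra hlt
        have : 2 ^ jB ≤ 2 ^ (r - 2) := Nat.pow_le_pow_right (by norm_num) (by omega)
        omega
      have h5 : jB ≤ r - 1 := (Nat.pow_le_pow_iff_right (by norm_num)).mp hBle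
      congr 1; omega
  -- U
  let U : Subgroup (S : Subgroup G) := B.map (Subgroup.inclusion hRS)
  have hU : ∀ x : (S : Subgroup G), x ∈ U ↔ x ^ 2 = 1 ∧ (x : G) ∈ R := by
    intro x
    constructor
    · rintro ⟨y, hy, rfl⟩
      refine ⟨?_, y.2⟩
      have := (hB y).mp hy
      ext; have := congrArg (fun y : R => (y : G)) this; simpa using this
    · rintro ⟨h1, h2⟩
      refine ⟨⟨x, h2⟩, (hB _).mpr ?_, rfl⟩
      ext; have := congrArg (fun y : (S : Subgroup G) => (y : G)) h1; simpa using this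
  have hUcard : Nat.card U = 2 ^ (r - 1) := by
    rw [← hBcard]
    exact Subgroup.card_map_of_injective (Subgroup.inclusion_injective hRS)
  have hUV : U ≤ V := fun x hx => (hV x).mpr ((hU x).mp hx).1
  have hidx : (U.subgroupOf V).index = 2 := by
    have h1 := (U.subgroupOf V).card_mul_index
    rw [Nat.card_congr (Subgroup.subgroupOfEquivOfLe hUV).toEquiv, hUcard, hVcard] at h1
    have h2 : 2 ^ r = 2 ^ (r - 1) * 2 := by rw [← pow_succ]; congr 1; omega
    rw [h2] at h1
    exact Nat.eq_of_mul_eq_mul_left (by positivity) h1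
  -- conjugates
  let N : Subgroup G := Subgroup.normalizer ((S : Subgroup G) : Set G)
  have hSN : (S : Subgroup G) ≤ N := Subgroup.le_normalizer
  let c : N → (S : Subgroup G) := fun n => conjS (S : Subgroup G) n n.2 ⟨t, htS⟩
  have hc_val : ∀ n : N, ((c n : (S : Subgroup G)) : G) = n * t * (n : G)⁻¹ := fun n => rfl
  have hcV : ∀ n : N, c n ∈ V ∧ c n ∉ U := by
    intro n
    constructor
    · rw [hV]; ext
      simp only [Subgroup.coe_pow, hc_val, Subgroup.coe_one]
      rw [pow_two]
      have : (n : G) * t * (n : G)⁻¹ * ((n : G) * t * (n : G)⁻¹) = n * (t * t) * (n : G)⁻¹ := by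
        group
      rw [this, ht2]; group
    · intro h
      exact hcon' n n.2 ((hU _).mp h).2
  have hc_mul : ∀ (n : N) (s : N), (s : G) ∈ (S : Subgroup G) → c (n * s) = c n := by
    intro n s hs
    ext
    rw [hc_val, hc_val]
    have h1 := mul_comm' (⟨s, hs⟩ : (S : Subgroup G)) ⟨t, htS⟩
    have h2 : (s : G) * t = t * s := congrArg Subtype.val h1
    simp only [Subgroup.coe_mul]
    calc (n : G) * s * t * ((n : G) * s)⁻¹ = n * (s * t) * (s : G)⁻¹ * (n : G)⁻¹ := by group
      _ = n * (t * s) * (s : G)⁻¹ * (n : G)⁻¹ := by rw [h2]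
      _ = n * t * (n : G)⁻¹ := by group
  -- the product
  let Q := N ⧸ (S : Subgroup G).subgroupOf N
  let _ : Fintype Q := Fintype.ofFinite Q
  let z : (S : Subgroup G) := ∏ q : Q, c q.out
  have hQodd : Odd (Fintype.card Q) := by
    have h1 : Fintype.card Q = (S : Subgroup G).relIndex N := by
      rw [← Nat.card_eq_fintype_card]; rfl
    rw [h1]
    have h2 : (S : Subgroup G).relIndex N ∣ (S : Subgroup G).index :=
      Subgroup.relIndex_dvd_index_of_le hSN
    have h3 : ¬ 2 ∣ (S : Subgroup G).index := S.not_dvd_index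
    rw [← Nat.not_even_iff_odd]
    intro he
    exact h3 (dvd_trans (even_iff_two_dvd.mp he) h2)
  have hz := prod_parity V U hidx (Finset.univ : Finset Q) (fun q => c q.out)
    (fun q _ => hcV q.out)
  have hzU : z ∉ U := by
    intro h
    have := hz.2.mp h
    rw [Finset.card_univ] at this
    exact (Nat.not_even_iff_odd.mpr hQodd) this
  have hz1 : z ≠ 1 := fun h => hzU (h ▸ one_mem U)
  have hz2 : z ^ 2 = 1 := (hV z).mp hz.1
  -- invariance
  have hinv : ∀ m : N, conjS (S : Subgroup G) m m.2 z = z := by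
    intro m
    show conjS (S : Subgroup G) m m.2 (∏ q : Q, c q.out) = ∏ q : Q, c q.out
    rw [map_prod]
    have h1 : ∀ q : Q, conjS (S : Subgroup G) m m.2 (c q.out) = c (m • q).out := by
      intro q
      have e1 : m • q = QuotientGroup.mk (m * q.out) := by
        conv_lhs => rw [← QuotientGroup.out_eq' q]
        rfl
      obtain ⟨h, hh⟩ := QuotientGroup.mk_out_eq_mul ((S : Subgroup G).subgroupOf N) (m * q.out)
      rw [e1, hh, hc_mul _ _ (Subgroup.mem_subgroupOf.mp h.2)]
      ext
      rw [hc_val]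
      show (m : G) * ((q.out : G) * t * (q.out : G)⁻¹) * (m : G)⁻¹ = _
      simp only [Subgroup.coe_mul]
      group
    simp_rw [h1]
    exact Equiv.prod_comp (MulAction.toPerm m) (fun q : Q => c q.out)
  -- transfer
  have key : ∀ (k : ℕ) (g₀ : G), g₀⁻¹ * (z : G) ^ k * g₀ ∈ (S : Subgroup G) →
      g₀⁻¹ * (z : G) ^ k * g₀ = (z : G) ^ k := by
    intro k g₀ h
    obtain ⟨n, hn, e⟩ := S.conj_eq_normalizer_conj_of_mem ((z : G) ^ k) g₀
      (pow_mem z.2 k) h
    rw [e]
    have hn' : n⁻¹ ∈ N := inv_mem hn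
    have h1 := congrArg (fun y : (S : Subgroup G) => (y : G)) (hinv ⟨n⁻¹, hn'⟩)
    have h2 : n⁻¹ * (z : G) * n = z := by
      have : n⁻¹ * (z : G) * (n⁻¹)⁻¹ = z := h1
      rwa [inv_inv] at this
    calc n⁻¹ * (z : G) ^ k * n = (n⁻¹ * (z : G) * n) ^ k := by
          have := conj_pow (a := n⁻¹) (b := (z : G)) (i := k)
          rw [inv_inv] at this; exact this.symm
      _ = (z : G) ^ k := by rw [h2]
  have htr := MonoidHom.transfer_eq_pow (MonoidHom.id (S : Subgroup G)) (z : G) key
  have htriv := hom_trivial hG hpS (MonoidHom.transfer (MonoidHom.id (S : Subgroup G))) (z : G)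
  rw [htriv] at htr
  have h3 := congrArg (fun y : (S : Subgroup G) => (y : G)) htr
  simp only [Subgroup.coe_one, MonoidHom.id_apply] at h3
  -- z ^ index = z
  have hodd : Odd (S : Subgroup G).index := by
    rw [← Nat.not_even_iff_odd]
    intro he
    exact S.not_dvd_index (even_iff_two_dvd.mp he)
  obtain ⟨j, hj⟩ := hodd
  have hz2' : (z : G) ^ 2 = 1 := by
    have := congrArg (fun y : (S : Subgroup G) => (y : G)) hz2
    simpa using this
  rw [hj, pow_succ, pow_mul, hz2', one_pow, one_mul] at h3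
  exact hz1 (Subtype.ext h3.symm)

end Cfsg.Agent.S1244
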