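import Cfsg.Statements.S1248
import Mathlib
import Cfsg.Agent.Lib.Helper60.U3Struct

set_option autoImplicit false
open Cfsg

namespace Cfsg.Agent.S1248

/-- Let F be a field with 16 elements and S a Sylow 2-subgroup of PSU(3) over F (the unitary group U₃(4)). Then |S| = 64; the centre Z(S) is a Klein four-group and coincides with the subgroup generated by the involutions of S and with the derived subgroup; and every element of S ⧸ Z(S) squares to the identity, S ⧸ Z(S) having order 16. -/
theorem result {F : Type*} [Field F] [Fintype F] (hF : Fintype.card F = 16) (S : Sylow 2 (Cfsg.PSU 3 F 4)) : Nat.card S = 64 ∧ IsKleinFour (Subgroup.center (S : Subgroup (Cfsg.PSU 3 F 4))) ∧ Subgroup.center (S : Subgroup (Cfsg.PSU 3 F 4)) = Subgroup.closure {x : (S : Subgroup (Cfsg.PSU 3 F 4)) | orderOf x = 2} ∧ Subgroup.center (S : Subgroup (Cfsg.PSU 3 F 4)) = commutator (S : Subgroup (Cfsg.PSU 3 F 4)) ∧ Nat.card ((S : Subgroup (Cfsg.PSU 3 F 4)) ⧸ Subgroup.center (S : Subgroup (Cfsg.PSU 3 F 4)))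 = 16 ∧ ∀ x : (S : Subgroup (Cfsg.PSU 3 F 4)) ⧸ Subgroup.center (S : Subgroup (Cfsg.PSU 3 F 4)), x ^ 2 = 1 := by
  have hF' : Fintype.card F = 4 ^ 2 := by rw [hF]; norm_num
  have h2 : (2 : F) = 0 := Lib.Helper60.two_eq_zero_of_card (m := 4) (by rw [hF]; norm_num)
  obtain ⟨e⟩ := Lib.Helper60.sylow_PSU3_equiv' (n := 2) (by norm_num) (by norm_num) hF' S
  refine ⟨?_, ?_, ?_, ?_, ?_, ?_⟩
  · have h := Lib.Helper60.equivU3_card hF' h2 e
    rw [h]; norm_num
  · exact { card_four := Lib.Helper60.equivU3_card_center hF' h2 e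
            exponent_two := Lib.Helper60.equivU3_center_exponent hF' h2 e }
  · exact Lib.Helper60.equivU3_center_eq_closure hF' h2 e
  · exact Lib.Helper60.equivU3_center_eq_commutator hF' h2 e
  · have h := Lib.Helper60.equivU3_card_quot hF' h2 e
    rw [h]; norm_num
  · exact Lib.Helper60.equivU3_quot_sq hF' h2 e

end Cfsg.Agent.S1248
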