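import Cfsg.Statements.S1253
import Mathlib

set_option autoImplicit false
open Cfsg

namespace Cfsg.Agent.S1253

section
variable {G : Type*} [Group G]

/-- product of an isolated involution with a conjugate has odd order -/
theorem odd_orderOf_mul_conj [Finite G] {z : G} (hz : Cfsg.IsIsolatedInvolution z) (h : G) :
    Odd (orderOf (z * (h * z * h⁻¹))) := by
  obtain ⟨hz2, hiso⟩ := hz
  have hzz : z * z = 1 := by rw [← sq, ← hz2]; exact pow_orderOf_eq_one z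
  have hzinv : z⁻¹ = z := inv_eq_of_mul_eq_one_left hzz
  set t := h * z * h⁻¹ with ht
  have htt : t * t = 1 := by
    rw [ht]
    calc h * z * h⁻¹ * (h * z * h⁻¹) = h * (z * z) * h⁻¹ := by group
      _ = 1 := by rw [hzz]; group
  have htinv : t⁻¹ = t := inv_eq_of_mul_eq_one_left htt
  set a := z * t with ha
  by_contra hodd
  rw [Nat.not_odd_iff_even] at hodd
  obtain ⟨m, hm⟩ := hodd
  have hpos : 0 < orderOf a := orderOf_pos a
  have hm0 : 0 < m := by omega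
  set c := a ^ m with hc
  have hc1 : c ≠ 1 := pow_ne_one_of_lt_orderOf hm0.ne' (by omega)
  have hcc : c * c = 1 := by rw [hc, ← pow_add, ← hm]; exact pow_orderOf_eq_one a
  have hza : z * a * z⁻¹ = a⁻¹ := by
    have e : (z * t)⁻¹ = t * z := by rw [mul_inv_rev, hzinv, htinv]
    rw [ha, hzinv, e, ← mul_assoc, hzz, one_mul]
  have hzak : ∀ k : ℕ, z * a ^ k * z⁻¹ = (a ^ k)⁻¹ := by
    intro k; rw [← conj_pow, hza, inv_pow]
  have hzc : z * c = c * z := by
    have h1 := hzak m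
    have h2 : c⁻¹ = c := inv_eq_of_mul_eq_one_left hcc
    rw [← hc, h2] at h1
    calc z * c = (z * c * z⁻¹) * z := by group
      _ = c * z := by rw [h1]
  have key : ∀ k : ℕ, (a ^ k)⁻¹ * z * a ^ k = z * a ^ (k + k) := by
    intro k
    have h1 := hzak k
    have h2 : z * a ^ k = (a ^ k)⁻¹ * z := by
      calc z * a ^ k = (z * a ^ k * z⁻¹) * z := by group
        _ = (a ^ k)⁻¹ * z := by rw [h1]
    rw [← h2, mul_assoc, ← pow_add]
  have fin : ∀ g : G, g * z * g⁻¹ = z * c → False := by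
    intro g hg
    have h2 : Commute z (g * z * g⁻¹) := by
      rw [hg]; show z * (z * c) = z * c * z; rw [mul_assoc, hzc]
    have h3 := hiso _ h2
    rw [hg] at h3
    exact hc1 (by simpa using h3)
  rcases Nat.even_or_odd' m with ⟨k, hk | hk⟩
  · apply fin (a ^ k)⁻¹
    rw [inv_inv, key k, hc, hk, two_mul]
  · apply fin ((a ^ k)⁻¹ * h)
    have e : ((a ^ k)⁻¹ * h) * z * ((a ^ k)⁻¹ * h)⁻¹ = (a ^ k)⁻¹ * t * a ^ k := by rw [ht]; group
    rw [e]
    have e2 : t = z * a := by rw [ha, ← mul_assoc, hzz, one_mul]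
    have e3 : (a ^ k)⁻¹ * (z * a) * a ^ k = ((a ^ k)⁻¹ * z * a ^ k) * a := by
      have : a * a ^ k = a ^ k * a := (pow_mul_comm' a k).symm
      calc (a ^ k)⁻¹ * (z * a) * a ^ k = (a ^ k)⁻¹ * z * (a * a ^ k) := by
            simp only [mul_assoc]
        _ = (a ^ k)⁻¹ * z * (a ^ k * a) := by rw [this]
        _ = _ := by simp only [mul_assoc]
    rw [e2, e3, key k, mul_assoc, ← pow_succ, hc, hk]
    congr 2; omega

/-- an element of odd order centralized by an isolated involution and inverted by a conjugate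
of it is trivial -/
theorem eq_one_of_centralized_of_inverted [Finite G] {z : G} (hz : Cfsg.IsIsolatedInvolution z)
    (h : G) (ρ : G) (N : ℕ) (hN : Odd N) (hρ : ρ ^ N = 1) (h1 : z * ρ * z⁻¹ = ρ)
    (h2 : (h * z * h⁻¹) * ρ * (h * z * h⁻¹)⁻¹ = ρ⁻¹) : ρ = 1 := by
  set u := z * (h * z * h⁻¹) with hu
  have hM : Odd (orderOf u) := odd_orderOf_mul_conj hz h
  have hu1 : u * ρ * u⁻¹ = ρ⁻¹ := by
    calc u * ρ * u⁻¹ = z * ((h * z * h⁻¹) * ρ * (h * z * h⁻¹)⁻¹) * z⁻¹ := by rw [hu]; group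
      _ = z * ρ⁻¹ * z⁻¹ := by rw [h2]
      _ = (z * ρ * z⁻¹)⁻¹ := by group
      _ = ρ⁻¹ := by rw [h1]
  have hu2 : u * ρ⁻¹ * u⁻¹ = ρ := by
    calc u * ρ⁻¹ * u⁻¹ = (u * ρ * u⁻¹)⁻¹ := by group
      _ = ρ := by rw [hu1, inv_inv]
  have hk : ∀ k : ℕ, u ^ (2 * k + 1) * ρ * (u ^ (2 * k + 1))⁻¹ = ρ⁻¹ := by
    intro k
    induction k with
    | zero => simpa using hu1
    | succ k ih =>
      have e : u ^ (2 * (k + 1) + 1) * ρ * (u ^ (2 * (k + 1) + 1))⁻¹
          = u * (u * (u ^ (2 * k + 1) * ρ * (u ^ (2 * k + 1))⁻¹) * u⁻¹) * u⁻¹ := by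
        have : 2 * (k + 1) + 1 = (2 * k + 1) + 1 + 1 := by ring
        rw [this, pow_succ', pow_succ']; group
      rw [e, ih, hu2, hu1]
  obtain ⟨k, hk'⟩ := hM
  have h3 := hk k
  rw [← hk', pow_orderOf_eq_one] at h3
  have h4 : ρ = ρ⁻¹ := by simpa using h3
  have h5 : ρ ^ 2 = 1 := by
    rw [sq]; nth_rewrite 2 [h4]; exact mul_inv_cancel ρ
  obtain ⟨r, hr⟩ := hN
  have h6 : ρ ^ N = ρ := by
    rw [hr, pow_succ, pow_mul, h5, one_pow, one_mul]
  rw [← h6, hρ]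

end

/-- Let z be an isolated involution of the finite group G with centralizer C, p an odd prime and P a Sylow p-subgroup of G normalized by z. Then P ∩ C has p-power-free index in C (it is a Sylow p-subgroup of C), and |P : C_P(z)| equals the number of elements x ∈ P with z x z⁻¹ = x⁻¹. -/
theorem result {G : Type*} [Group G] [Finite G] (z : G) (hz : Cfsg.IsIsolatedInvolution z) {p : ℕ} [Fact p.Prime] (hp : p ≠ 2) (P : Sylow p G) (hzP : z ∈ Subgroup.normalizer ((P : Subgroup G) : Set G)) : ¬ p ∣ ((P : Subgroup G) ⊓ Subgroup.centralizer ({z} : Set G)).relIndex (Subgroup.centralizer ({z} : Set G)) ∧ ((P : Subgroup G) ⊓ Subgroup.centralizer ({z} : Set G)).relIndex (P : Subgroup G) = Nat.card {x : G // x ∈ P ∧ z * x * z⁻¹ = x⁻¹} := by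
  have hz2 := hz.1
  have hzz : z * z = 1 := by rw [← sq, ← hz2]; exact pow_orderOf_eq_one z
  have hzinv : z⁻¹ = z := inv_eq_of_mul_eq_one_left hzz
  have hnorm : ∀ x ∈ (P : Subgroup G), z * x * z⁻¹ ∈ (P : Subgroup G) :=
    fun x hx => (Subgroup.mem_normalizer_iff.mp hzP x).mp hx
  set C : Subgroup G := Subgroup.centralizer ({z} : Set G) with hC
  have hmemC : ∀ y : G, y ∈ C ↔ z * y * z⁻¹ = y := by
    intro y
    rw [hC, Subgroup.mem_centralizer_iff]
    simp only [Set.mem_singleton_iff, forall_eq]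
    constructor
    · intro h; rw [h]; group
    · intro h
      calc z * y = (z * y * z⁻¹) * z := by group
        _ = y * z := by rw [h]
  set N := Nat.card (P : Subgroup G) with hN
  have hNodd : Odd N := by
    obtain ⟨k, hk⟩ := P.2.exists_card_eq
    rw [hN, hk]
    exact Odd.pow ((Fact.out : p.Prime).odd_of_ne_two hp)
  have hpowN : ∀ x ∈ (P : Subgroup G), x ^ N = 1 := by
    intro x hx
    have := pow_card_eq_one' (G := (P : Subgroup G)) (x := ⟨x, hx⟩)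
    have h2 : (((⟨x, hx⟩ : (P : Subgroup G)) ^ N : (P : Subgroup G)) : G) = 1 := by
      rw [hN, this]; rfl
    simpa only [Subgroup.coe_pow] using h2
  obtain ⟨r, hr⟩ := hNodd
  -- square roots
  have hsqrt : ∀ f ∈ (P : Subgroup G), f ^ (r + 1) * f ^ (r + 1) = f := by
    intro f hf
    rw [← pow_add]
    have : r + 1 + (r + 1) = N + 1 := by omega
    rw [this, pow_succ, hpowN f hf, one_mul]
  let fI : G → G := fun x => (x * (z * x * z⁻¹)⁻¹) ^ (r + 1)
  let fC : G → G := fun x => (fI x)⁻¹ * x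
  have hD : ∀ x ∈ (P : Subgroup G), fI x ∈ (P : Subgroup G) ∧ z * fI x * z⁻¹ = (fI x)⁻¹ ∧
      fC x ∈ (P : Subgroup G) ∧ z * fC x * z⁻¹ = fC x := by
    intro x hx
    have hf : x * (z * x * z⁻¹)⁻¹ ∈ (P : Subgroup G) := mul_mem hx (inv_mem (hnorm x hx))
    have hfz : z * (x * (z * x * z⁻¹)⁻¹) * z⁻¹ = (x * (z * x * z⁻¹)⁻¹)⁻¹ := by
      calc z * (x * (z * x * z⁻¹)⁻¹) * z⁻¹ = (z * x * z⁻¹) * ((z * z) * x⁻¹ * (z * z)⁻¹) := by group
        _ = (x * (z * x * z⁻¹)⁻¹)⁻¹ := by rw [hzz]; group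
    have hi : fI x ∈ (P : Subgroup G) := pow_mem hf _
    have hiz : z * fI x * z⁻¹ = (fI x)⁻¹ := by
      show z * (x * (z * x * z⁻¹)⁻¹) ^ (r + 1) * z⁻¹ = ((x * (z * x * z⁻¹)⁻¹) ^ (r + 1))⁻¹
      rw [← conj_pow, hfz, inv_pow]
    have hii : fI x * fI x = x * (z * x * z⁻¹)⁻¹ := hsqrt _ hf
    refine ⟨hi, hiz, mul_mem (inv_mem hi) hx, ?_⟩
    have e1 : z * x * z⁻¹ = (fI x * fI x)⁻¹ * x := by rw [hii]; group
    calc z * fC x * z⁻¹ = (z * fI x * z⁻¹)⁻¹ * (z * x * z⁻¹) := by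
          show z * ((fI x)⁻¹ * x) * z⁻¹ = _; group
      _ = fI x * ((fI x * fI x)⁻¹ * x) := by rw [hiz, inv_inv, e1]
      _ = fC x := by show _ = (fI x)⁻¹ * x; group
  have hU : ∀ i c : G, i ∈ (P : Subgroup G) → z * i * z⁻¹ = i⁻¹ → z * c * z⁻¹ = c →
      fI (i * c) = i := by
    intro i c hi hiz hcz
    have e : i * c * (z * (i * c) * z⁻¹)⁻¹ = i * i := by
      have : z * (i * c) * z⁻¹ = (z * i * z⁻¹) * (z * c * z⁻¹) := by group
      rw [this, hiz, hcz]; group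
    show (i * c * (z * (i * c) * z⁻¹)⁻¹) ^ (r + 1) = i
    rw [e, ← sq, ← pow_mul]
    have : 2 * (r + 1) = N + 1 := by omega
    rw [this, pow_succ, hpowN i hi, one_mul]
  constructor
  · -- first part
    have hle : ∀ R : Sylow p C, Nat.card (R : Subgroup C) ≤ Nat.card ((P : Subgroup G) ⊓ C : Subgroup G) := by
      intro R
      have hRp : IsPGroup p ((R : Subgroup C).map C.subtype) := R.2.map _
      obtain ⟨P', hP'⟩ := hRp.exists_le_sylow
      obtain ⟨g, hg⟩ := MulAction.exists_smul_eq G P P'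
      have hmemP : ∀ y, y ∈ (P' : Subgroup G) → g⁻¹ * y * g ∈ (P : Subgroup G) := by
        intro y hy
        rw [← hg, Sylow.coe_subgroup_smul, Subgroup.mem_pointwise_smul_iff_inv_smul_mem] at hy
        simpa [MulAut.smul_def] using hy
      have hx : ∀ ρ : ↥(R : Subgroup C), g⁻¹ * ((ρ : C) : G) * g ∈ (P : Subgroup G) :=
        fun ρ => hmemP _ (hP' ⟨(ρ : C), ρ.2, rfl⟩)
      let F : ↥(R : Subgroup C) → ↥((P : Subgroup G) ⊓ C : Subgroup G) := fun ρ =>
        ⟨fC (g⁻¹ * ((ρ : C) : G) * g), Subgroup.mem_inf.mpr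
          ⟨(hD _ (hx ρ)).2.2.1, (hmemC _).mpr (hD _ (hx ρ)).2.2.2⟩⟩
      have hF : Function.Injective F := by
        intro ρ₁ ρ₂ h12
        have h12' : fC (g⁻¹ * ((ρ₁ : C) : G) * g) = fC (g⁻¹ * ((ρ₂ : C) : G) * g) :=
          congrArg Subtype.val h12
        set x₁ := g⁻¹ * ((ρ₁ : C) : G) * g with hx₁
        set x₂ := g⁻¹ * ((ρ₂ : C) : G) * g with hx₂
        obtain ⟨hi1, hiz1, -, -⟩ := hD x₁ (hx ρ₁)
        obtain ⟨hi2, hiz2, -, -⟩ := hD x₂ (hx ρ₂)
        set i₁ := fI x₁ with hi₁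
        set i₂ := fI x₂ with hi₂
        have hx1 : x₁ = i₁ * fC x₁ := by show x₁ = fI x₁ * ((fI x₁)⁻¹ * x₁); group
        have hx2 : x₂ = i₂ * fC x₁ := by rw [h12']; show x₂ = fI x₂ * ((fI x₂)⁻¹ * x₂); group
        have hxx : x₁ * x₂⁻¹ = i₁ * i₂⁻¹ := by
          rw [hx2]; nth_rewrite 1 [hx1]; group
        set ρ : G := ((ρ₁ : C) : G) * ((ρ₂ : C) : G)⁻¹ with hρ
        have hρx : ρ = g * (x₁ * x₂⁻¹) * g⁻¹ := by rw [hρ, hx₁, hx₂]; group
        have hρC : z * ρ * z⁻¹ = ρ := (hmemC ρ).mp (mul_mem (ρ₁ : C).2 (inv_mem (ρ₂ : C).2))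
        have hρN : ρ ^ N = 1 := by
          rw [hρx, conj_pow, hpowN _ (mul_mem (hx ρ₁) (inv_mem (hx ρ₂)))]; group
        set j := i₁ ^ (r + 1) with hj
        have hjj : j * j = i₁ := hsqrt i₁ hi1
        have hjz : z * j * z⁻¹ = j⁻¹ := by rw [hj, ← conj_pow, hiz1, inv_pow]
        have hjzj : j * z * j⁻¹ = i₁ * z := by
          calc j * z * j⁻¹ = j * (z * j * z⁻¹)⁻¹ * z := by group
            _ = i₁ * z := by rw [hjz, inv_inv, hjj]
        have hinv : ((g * j) * z * (g * j)⁻¹) * ρ * ((g * j) * z * (g * j)⁻¹)⁻¹ = ρ⁻¹ := by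
          have e1 : (g * j) * z * (g * j)⁻¹ = g * (j * z * j⁻¹) * g⁻¹ := by group
          rw [e1, hjzj, hρx, hxx]
          calc g * (i₁ * z) * g⁻¹ * (g * (i₁ * i₂⁻¹) * g⁻¹) * (g * (i₁ * z) * g⁻¹)⁻¹
              = g * (i₁ * ((z * i₁ * z⁻¹) * (z * i₂ * z⁻¹)⁻¹) * i₁⁻¹) * g⁻¹ := by group
            _ = g * (i₁ * (i₁⁻¹ * (i₂⁻¹)⁻¹) * i₁⁻¹) * g⁻¹ := by rw [hiz1, hiz2]
            _ = (g * (i₁ * i₂⁻¹) * g⁻¹)⁻¹ := by group
        have hρ1 : ρ = 1 :=
          eq_one_of_centralized_of_inverted hz (g * j) ρ N ⟨r, hr⟩ hρN hρC hinv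
        have : ((ρ₁ : C) : G) = ((ρ₂ : C) : G) := by
          rw [hρ] at hρ1
          exact mul_inv_eq_one.mp hρ1
        exact Subtype.ext (Subtype.ext this)
      exact Nat.card_le_card_of_injective F hF
    have hP0p : IsPGroup p (((P : Subgroup G) ⊓ C).subgroupOf C) :=
      (P.2.to_le inf_le_left).comap_subtype
    obtain ⟨R, hR⟩ := hP0p.exists_le_sylow
    have hc1 : Nat.card (((P : Subgroup G) ⊓ C).subgroupOf C) = Nat.card ((P : Subgroup G) ⊓ C : Subgroup G) :=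
      Nat.card_congr (Subgroup.subgroupOfEquivOfLe (inf_le_right : (P : Subgroup G) ⊓ C ≤ C)).toEquiv
    have heq : ((P : Subgroup G) ⊓ C).subgroupOf C = (R : Subgroup C) := by
      apply Subgroup.eq_of_le_of_card_ge hR
      rw [hc1]; exact hle R
    show ¬ p ∣ (((P : Subgroup G) ⊓ C).subgroupOf C).index
    rw [heq]
    exact R.not_dvd_index
  · -- second part
    let I := {x : G // x ∈ P ∧ z * x * z⁻¹ = x⁻¹}
    let Φ : I × ↥((P : Subgroup G) ⊓ C : Subgroup G) → ↥(P : Subgroup G) := fun ic =>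
      ⟨ic.1.1 * ic.2.1, mul_mem ic.1.2.1 (Subgroup.mem_inf.mp ic.2.2).1⟩
    have hΦ : Function.Bijective Φ := by
      constructor
      · rintro ⟨i, c⟩ ⟨i', c'⟩ h
        have h' : i.1 * c.1 = i'.1 * c'.1 := congrArg Subtype.val h
        have e1 := hU i.1 c.1 i.2.1 i.2.2 ((hmemC _).mp (Subgroup.mem_inf.mp c.2).2)
        have e2 := hU i'.1 c'.1 i'.2.1 i'.2.2 ((hmemC _).mp (Subgroup.mem_inf.mp c'.2).2)
        have hi : i.1 = i'.1 := by rw [← e1, ← e2, h']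
        have hc : c.1 = c'.1 := by
          rw [hi] at h'; exact mul_left_cancel h'
        exact Prod.ext (Subtype.ext hi) (Subtype.ext hc)
      · rintro ⟨x, hx⟩
        obtain ⟨h1, h2, h3, h4⟩ := hD x hx
        refine ⟨(⟨fI x, h1, h2⟩, ⟨fC x, Subgroup.mem_inf.mpr ⟨h3, (hmemC _).mpr h4⟩⟩), ?_⟩
        apply Subtype.ext
        show fI x * ((fI x)⁻¹ * x) = x
        group
    have hcard : Nat.card I * Nat.card ((P : Subgroup G) ⊓ C : Subgroup G) = Nat.card (P : Subgroup G) := by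
      rw [← Nat.card_prod]
      exact Nat.card_congr (Equiv.ofBijective Φ hΦ)
    have h1 : Nat.card (((P : Subgroup G) ⊓ C).subgroupOf (P : Subgroup G)) *
        (((P : Subgroup G) ⊓ C).subgroupOf (P : Subgroup G)).index = Nat.card (P : Subgroup G) :=
      Subgroup.card_mul_index _
    have h2 : Nat.card (((P : Subgroup G) ⊓ C).subgroupOf (P : Subgroup G)) =
        Nat.card ((P : Subgroup G) ⊓ C : Subgroup G) :=
      Nat.card_congr (Subgroup.subgroupOfEquivOfLe (inf_le_left : (P : Subgroup G) ⊓ C ≤ (P : Subgroup G))).toEquiv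
    show (((P : Subgroup G) ⊓ C).subgroupOf (P : Subgroup G)).index = Nat.card I
    rw [h2, ← hcard, mul_comm] at h1
    exact Nat.eq_of_mul_eq_mul_right Nat.card_pos h1

end Cfsg.Agent.S1253
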