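import Cfsg.Statements.S1254
import Mathlib
import Cfsg.Agent.S0111
import Cfsg.Agent.Lib.Helper43.DihSyl

set_option autoImplicit false
open Cfsg

namespace Cfsg.Agent.S1254

open Cfsg.Agent.Lib.Helper42 Cfsg.Agent.Lib.Helper75 Cfsg.Agent.Lib.Helper14 Cfsg.Agent.Lib.Helper43

theorem forward {X : Type*} [Group X] [Finite X] (S : Sylow 2 X)
    (h : Cfsg.HasNormalPComplement 2 X) (U : Subgroup X) (hU : U ≤ S) :
    Subgroup.normalizer (U : Set X) = Subgroup.centralizer (U : Set X) ⊔
      ((S : Subgroup X) ⊓ Subgroup.normalizer (U : Set X)) := by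
  obtain ⟨P, N, hN, hNP⟩ := h
  have hcS : Nat.card (S : Subgroup X) = Nat.card (P : Subgroup X) := by
    rw [S.card_eq_multiplicity, ← P.card_eq_multiplicity]
  have hcop : Nat.Coprime (Nat.card N) (Nat.card (S : Subgroup X)) := by
    rw [hcS, ← hNP.index_eq_card]
    exact (P.card_coprime_index).symm
  have hNS : N.IsComplement' (S : Subgroup X) := by
    apply Subgroup.isComplement'_of_coprime _ hcop
    rw [hcS]; exact hNP.card_mul_card
  have hdisj : ∀ x : X, x ∈ N → x ∈ (S : Subgroup X) → x = 1 := by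
    intro x hxN hxS
    have := hNS.disjoint
    rw [Subgroup.disjoint_def] at this
    exact this hxN hxS
  apply le_antisymm
  · intro g hg
    obtain ⟨⟨⟨n, hn⟩, ⟨s, hs⟩⟩, rfl⟩ := hNS.2 g
    simp only at hg ⊢
    have hnC : n ∈ Subgroup.centralizer (U : Set X) := by
      rw [Subgroup.mem_centralizer_iff]
      intro u' hu'
      have hu'U : u' ∈ U := hu'
      have hu : (n * s)⁻¹ * u' * (n * s) ∈ U := (Subgroup.mem_normalizer_iff''.mp hg u').mp hu'U
      set w := s * ((n * s)⁻¹ * u' * (n * s)) * s⁻¹ with hw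
      have hwS : w ∈ (S : Subgroup X) :=
        (S : Subgroup X).mul_mem ((S : Subgroup X).mul_mem hs (hU hu)) ((S : Subgroup X).inv_mem hs)
      have hu'w : u' = n * w * n⁻¹ := by rw [hw]; group
      have h1 : u' * w⁻¹ ∈ N := by
        have : u' * w⁻¹ = n * (w * n⁻¹ * w⁻¹) := by rw [hu'w]; group
        rw [this]
        exact N.mul_mem hn (hN.conj_mem _ (N.inv_mem hn) w)
      have h2 : u' * w⁻¹ ∈ (S : Subgroup X) :=
        (S : Subgroup X).mul_mem (hU hu'U) ((S : Subgroup X).inv_mem hwS)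
      have h3 := hdisj _ h1 h2
      have h4 : u' = w := by rw [mul_inv_eq_one] at h3; exact h3
      rw [← h4] at hu'w
      calc u' * n = n * u' * n⁻¹ * n := by rw [← hu'w]
        _ = n * u' := by group
    have hsN : s ∈ Subgroup.normalizer (U : Set X) := by
      have : s = n⁻¹ * (n * s) := by group
      rw [this]
      exact Subgroup.mul_mem _ (Subgroup.inv_mem _ (Subgroup.centralizer_le_normalizer _ hnC)) hg
    exact Subgroup.mul_mem_sup hnC (Subgroup.mem_inf.mpr ⟨hs, hsN⟩)
  · exact sup_le (Subgroup.centralizer_le_normalizer _) inf_le_right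

theorem backward_two {X : Type*} [Group X] [Finite X] (S : Sylow 2 X)
    (eS : (S : Subgroup X) ≃* DihedralGroup 2)
    (H : ∀ U : Subgroup X, U ≤ S → IsKleinFour U → Subgroup.normalizer (U : Set X) =
      Subgroup.centralizer (U : Set X) ⊔ ((S : Subgroup X) ⊓ Subgroup.normalizer (U : Set X))) :
    Cfsg.HasNormalPComplement 2 X := by
  have hK : IsKleinFour (S : Subgroup X) :=
    isKleinFour_of_mulEquiv eS.symm (inferInstance : IsKleinFour (DihedralGroup 2))
  have h1 := H S le_rfl hK
  have hcomm : (S : Subgroup X) ≤ Subgroup.centralizer ((S : Subgroup X) : Set X) := by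
    intro x hx
    rw [Subgroup.mem_centralizer_iff]
    intro y hy
    exact kleinFour_comm (S : Subgroup X) hK y x hy hx
  have hP : Subgroup.normalizer ((S : Subgroup X) : Set X) ≤
      Subgroup.centralizer ((S : Subgroup X) : Set X) := by
    rw [h1]; exact sup_le le_rfl (inf_le_left.trans hcomm)
  exact ⟨S, _, inferInstance, MonoidHom.ker_transferSylow_isComplement' S hP⟩

theorem backward_core {X : Type*} [Group X] [Finite X] (S : Sylow 2 X) (n k : ℕ) (hk : 0 < k)
    (hn : n = 4 * k)
    (ι : DihedralGroup n →* X) (hinj : Function.Injective ι)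
    (hS : ∀ d, ι d ∈ (S : Subgroup X))
    (hsurj : ∀ x ∈ (S : Subgroup X), ∃ d, ι d = x)
    (H : ∀ U : Subgroup X, U ≤ S → IsKleinFour U → Subgroup.normalizer (U : Set X) =
      Subgroup.centralizer (U : Set X) ⊔ ((S : Subgroup X) ⊓ Subgroup.normalizer (U : Set X))) :
    Cfsg.HasNormalPComplement 2 X := by
  classical
  have hn0 : NeZero n := ⟨by omega⟩
  obtain ⟨κ, hκ⟩ : ∃ κ : ZMod n, κ = (k : ZMod n) := ⟨_, rfl⟩
  have h4 : κ + κ + κ + κ = 0 := by
    have : ((4 * k : ℕ) : ZMod n) = 0 := by rw [← hn]; exact ZMod.natCast_self n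
    push_cast at this
    rw [hκ]; linear_combination this
  have h2 : κ + κ ≠ 0 := by
    intro h
    have : ((2 * k : ℕ) : ZMod n) = 0 := by push_cast; rw [← hκ]; linear_combination h
    rw [ZMod.natCast_eq_zero_iff] at this
    have := Nat.le_of_dvd (by omega) this
    omega
  obtain ⟨z0, hz0⟩ : ∃ z0 : DihedralGroup n, z0 = DihedralGroup.r (κ + κ) := ⟨_, rfl⟩
  obtain ⟨s0, hs0⟩ : ∃ s0 : DihedralGroup n, s0 = DihedralGroup.r κ := ⟨_, rfl⟩
  have hz0ne : z0 ≠ 1 := by
    rw [hz0, DihedralGroup.one_def]; intro h; exact h2 (DihedralGroup.r.inj h)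
  have hz0sq : z0 * z0 = 1 := by
    rw [hz0, DihedralGroup.r_mul_r, DihedralGroup.one_def]; congr 1; linear_combination h4
  have hz0c : ∀ d, z0 * d = d * z0 := by
    rw [hz0]; exact dih_r_central _ (by linear_combination h4)
  have hs0c : ∀ i, s0 * DihedralGroup.sr i * s0⁻¹ = DihedralGroup.sr i * z0 := by
    intro i
    rw [hs0, dih_conj_sr, hz0]; congr 2; linear_combination (-1 : ZMod n) * h4
  -- the cyclic maximal subgroup
  obtain ⟨M, hMdef⟩ : ∃ M : Subgroup X, M = Subgroup.zpowers (ι (DihedralGroup.r 1)) := ⟨_, rfl⟩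
  have hMmem : ∀ x, x ∈ M ↔ ∃ j, x = ι (DihedralGroup.r j) := by
    intro x
    rw [hMdef, Subgroup.mem_zpowers_iff]
    constructor
    · rintro ⟨t, rfl⟩
      exact ⟨(t : ZMod n), by rw [← map_zpow, DihedralGroup.r_one_zpow]⟩
    · rintro ⟨j, rfl⟩
      refine ⟨(j.val : ℤ), ?_⟩
      rw [← map_zpow, zpow_natCast, DihedralGroup.r_one_pow, ZMod.natCast_zmod_val]
  have hMS : M ≤ (S : Subgroup X) := by
    rw [hMdef, Subgroup.zpowers_le]; exact hS _
  have hMc : IsCyclic M := by rw [hMdef]; infer_instance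
  have hcardS : Nat.card (S : Subgroup X) = 2 * n := by
    rw [← DihedralGroup.nat_card (n := n)]
    symm
    apply Nat.card_congr
    exact Equiv.ofBijective (fun d => (⟨ι d, hS d⟩ : (S : Subgroup X)))
      ⟨fun a b hab => hinj (congrArg Subtype.val hab),
        fun x => by obtain ⟨d, hd⟩ := hsurj x.1 x.2; exact ⟨d, Subtype.ext hd⟩⟩
  have hcardM : Nat.card M = n := by
    rw [hMdef, Nat.card_zpowers, orderOf_injective ι hinj, DihedralGroup.orderOf_r_one]
  have hMi : M.relIndex (S : Subgroup X) = 2 := by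
    have h1 := Subgroup.card_mul_index (M.subgroupOf (S : Subgroup X))
    rw [Nat.card_congr (Subgroup.subgroupOfEquivOfLe hMS).toEquiv, hcardM, hcardS] at h1
    have h3 : (M.subgroupOf (S : Subgroup X)).index = 2 := by
      have hnpos : 0 < n := by omega
      nlinarith
    exact h3
  have hrefl : ∀ u ∈ (S : Subgroup X), u ∉ M → ∃ i, u = ι (DihedralGroup.sr i) := by
    intro u huS huM
    obtain ⟨d, rfl⟩ := hsurj u huS
    cases d with
    | r j => exact absurd ((hMmem _).mpr ⟨j, rfl⟩) huM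
    | sr i => exact ⟨i, rfl⟩
  -- no reflection is fused into `M`
  have hfus : ∀ u ∈ (S : Subgroup X), u ∉ M → ∀ g : X, g * u * g⁻¹ ∉ M := by
    intro u huS huM g hgM
    obtain ⟨i, hui⟩ := hrefl u huS huM
    have hu2 : u * u = 1 := by
      rw [hui, ← map_mul, DihedralGroup.sr_mul_sr, sub_self, DihedralGroup.r_zero, map_one]
    have hu1 : u ≠ 1 := by
      rw [hui]; intro h; rw [← map_one ι] at h
      have := hinj h; rw [DihedralGroup.one_def] at this; cases this
    obtain ⟨j, hj⟩ := (hMmem _).mp hgM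
    obtain ⟨w1, hw1⟩ : ∃ w1, w1 = g * u * g⁻¹ := ⟨_, rfl⟩
    rw [← hw1] at hj
    have hw1sq : w1 * w1 = 1 := by
      rw [hw1]
      calc g * u * g⁻¹ * (g * u * g⁻¹) = g * (u * u) * g⁻¹ := by group
        _ = 1 := by rw [hu2]; group
    have hjj : j + j = 0 := by
      have h1 : ι (DihedralGroup.r j * DihedralGroup.r j) = ι 1 := by
        rw [map_mul, ← hj, hw1sq, map_one]
      have h2 := hinj h1
      rw [DihedralGroup.r_mul_r, DihedralGroup.one_def] at h2
      exact DihedralGroup.r.inj h2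
    have hw1c : ∀ x ∈ (S : Subgroup X), x * w1 = w1 * x := by
      intro x hx
      obtain ⟨d, rfl⟩ := hsurj x hx
      rw [hj, ← map_mul, ← map_mul, dih_r_central j hjj d]
    obtain ⟨z, hz⟩ : ∃ z, z = ι z0 := ⟨_, rfl⟩
    obtain ⟨s, hs⟩ : ∃ s, s = ι s0 := ⟨_, rfl⟩
    have hz1 : z ≠ 1 := fun h => hz0ne (hinj (by rw [← hz, h, map_one]))
    have hz2 : z * z = 1 := by rw [hz, ← map_mul, hz0sq, map_one]
    have hzu : z * u = u * z := by rw [hz, hui, ← map_mul, ← map_mul, hz0c]
    have hzneu : z ≠ u := by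
      intro h; rw [hz, hui] at h; have := hinj h; rw [hz0] at this; cases this
    obtain ⟨U, hUmem, hUK⟩ := exists_kleinFour z u hz1 hu1 hzneu hz2 hu2 hzu
    have hUS : U ≤ (S : Subgroup X) := by
      intro x hx
      rcases (hUmem x).mp hx with rfl | rfl | rfl | rfl
      · exact Subgroup.one_mem _
      · rw [hz]; exact hS _
      · exact huS
      · rw [hz]; exact Subgroup.mul_mem _ (hS _) huS
    have hsu : s * u * s⁻¹ = u * z := by
      rw [hs, hui, hz, ← map_inv, ← map_mul, ← map_mul, hs0c, map_mul]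
    have hsz : s * z * s⁻¹ = z := by
      rw [hs, hz, ← map_inv, ← map_mul, ← map_mul]; congr 1
      rw [← hz0c, mul_inv_cancel_right]
    have hsN : s ∈ Subgroup.normalizer (U : Set X) := by
      rw [← cj_eq_self_iff]
      apply Subgroup.eq_of_le_of_card_ge
      · rintro x ⟨y, hy, rfl⟩
        show s * y * s⁻¹ ∈ U
        rcases (hUmem y).mp hy with rfl | rfl | rfl | rfl
        · simp
        · rw [hsz]; exact (hUmem _).mpr (Or.inr (Or.inl rfl))
        · rw [hsu, ← hzu]; exact (hUmem _).mpr (Or.inr (Or.inr (Or.inr rfl)))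
        · have h1 : s * (z * u) * s⁻¹ = (s * z * s⁻¹) * (s * u * s⁻¹) := by group
          rw [h1, hsz, hsu, ← hzu, ← mul_assoc, hz2, one_mul]
          exact (hUmem _).mpr (Or.inr (Or.inr (Or.inl rfl)))
      · rw [card_cj]
    obtain ⟨C, hC⟩ : ∃ C : Subgroup X, C = Subgroup.centralizer {w1} := ⟨_, rfl⟩
    have hCmem : ∀ x, x ∈ C ↔ w1 * x = x * w1 := by
      intro x
      rw [hC, Subgroup.mem_centralizer_iff]
      constructor
      · intro h; exact h w1 (Set.mem_singleton w1)
      · intro h y hy; rw [Set.mem_singleton_iff] at hy; rw [hy]; exact h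
    have hSC : (S : Subgroup X) ≤ C := fun x hx => (hCmem x).mpr (hw1c x hx).symm
    have hSyl : IsSylIn 2 (S : Subgroup X) C :=
      ⟨hSC, S.2, fun h => S.not_dvd_index (h.trans (Subgroup.relIndex_dvd_index_of_le hSC))⟩
    have huU : u ∈ U := (hUmem u).mpr (Or.inr (Or.inr (Or.inl rfl)))
    have hQ : cj g U ≤ C := by
      intro x hx
      rw [mem_cj] at hx
      rw [hCmem, hw1]
      have hcomm : u * (g⁻¹ * x * g) = (g⁻¹ * x * g) * u := kleinFour_comm U hUK _ _ huU hx
      calc g * u * g⁻¹ * x = g * (u * (g⁻¹ * x * g)) * g⁻¹ := by group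
        _ = g * ((g⁻¹ * x * g) * u) * g⁻¹ := by rw [hcomm]
        _ = x * (g * u * g⁻¹) := by group
    obtain ⟨c, hcC, hcU⟩ := hSyl.exists_conj_le hQ (isPGroup_cj (S.2.to_le hUS))
    rw [cj_cj] at hcU
    obtain ⟨h, hh⟩ : ∃ h, h = c * g := ⟨_, rfl⟩
    rw [← hh] at hcU
    have hVK : IsKleinFour (cj h U) := isKleinFour_cj h U hUK
    have hHV := H (cj h U) hcU hVK
    have hw1h : w1 = h * u * h⁻¹ := by
      have h1 : c * w1 * c⁻¹ = w1 := by
        have h2 := (hCmem c).mp hcC
        rw [← h2]; group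
      rw [hh, ← h1, hw1]; group
    have hw1V : w1 ∈ cj h U := by rw [hw1h]; exact conj_mem_cj huU
    have hNV : Subgroup.normalizer ((cj h U : Subgroup X) : Set X) ≤ C := by
      rw [hHV]
      refine sup_le ?_ (inf_le_left.trans hSC)
      intro x hx
      exact (hCmem x).mpr (Subgroup.mem_centralizer_iff.mp hx w1 hw1V)
    have hs' : h * s * h⁻¹ ∈ Subgroup.normalizer ((cj h U : Subgroup X) : Set X) := by
      rw [normalizer_cj]; exact conj_mem_cj hsN
    have h5 := (hCmem _).mp (hNV hs')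
    rw [hw1h] at h5
    have h6 : u * s = s * u := by
      calc u * s = h⁻¹ * (h * u * h⁻¹ * (h * s * h⁻¹)) * h := by group
        _ = h⁻¹ * (h * s * h⁻¹ * (h * u * h⁻¹)) * h := by rw [h5]
        _ = s * u := by group
    have h7 : s * u * s⁻¹ = u := by rw [← h6]; group
    rw [hsu] at h7
    exact hz1 (mul_eq_left.mp h7)
  obtain ⟨X0, hX0n, ⟨i0, hi0⟩, hX0le⟩ := exists_normal_two_pow_index X
  have hSX0 : (S : Subgroup X) ⊓ X0 ≤ M := by
    intro u hu
    by_contra huM
    have huS := (Subgroup.mem_inf.mp hu).1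
    obtain ⟨i, hui⟩ := hrefl u huS huM
    have ho : orderOf u = 2 := by
      rw [hui, orderOf_injective ι hinj, DihedralGroup.orderOf_sr]
    rcases Cfsg.Agent.S0111.result S M hMS hMi u ho huS huM with ⟨N, hN, hNi, huN⟩ | ⟨g, hg⟩
    · exact huN (hX0le N hN hNi (Subgroup.mem_inf.mp hu).2)
    · exact hfus u huS huM g hg
  have := hX0n
  obtain ⟨T0, hT0⟩ := exists_sylow_map_eq_inf X0 S
  have hT0c : IsCyclic (T0 : Subgroup X0) := by
    have hle : ∀ x : (T0 : Subgroup X0), ((x : X0) : X) ∈ M := fun x =>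
      hSX0 (hT0 ▸ Subgroup.mem_map_of_mem _ x.2)
    let f : (T0 : Subgroup X0) →* M :=
      (X0.subtype.comp (T0 : Subgroup X0).subtype).codRestrict M hle
    have hf : Function.Injective f := by
      intro a b hab
      have := congrArg (fun y : M => (y : X)) hab
      exact Subtype.ext (Subtype.ext this)
    exact isCyclic_of_injective f hf
  have hnpc0 : NPC 2 X0 := npc_of_cyclic_sylow T0 hT0c
  have hnpc : NPC 2 X := npc_of_normal_index_pow X0 i0 hi0 hnpc0
  obtain ⟨N, hN, hNc⟩ := hnpc.exists_isComplement' S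
  exact ⟨S, N, hN, hNc⟩

/-- Let X be a finite group whose Sylow 2-subgroup S is dihedral (of order at least 4). Then X has a normal 2-complement if and only if, for every Klein four-subgroup U ≤ S, the normalizer N_X(U) is generated by C_X(U) and N_S(U). -/
theorem result {X : Type*} [Group X] [Finite X] (S : Sylow 2 X) (m : ℕ) (hm : 2 ≤ m) (eS : (S : Subgroup X) ≃* DihedralGroup m) : Cfsg.HasNormalPComplement 2 X ↔ ∀ U : Subgroup X, U ≤ S → IsKleinFour U → Subgroup.normalizer (U : Set X) = Subgroup.centralizer (U : Set X) ⊔ ((S : Subgroup X) ⊓ Subgroup.normalizer (U : Set X)) := by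
  constructor
  · intro h U hU _
    exact forward S h U hU
  · intro H
    rcases Nat.lt_or_ge m 3 with hm3 | hm3
    · have h2 : m = 2 := by omega
      subst h2
      exact backward_two S eS H
    · obtain ⟨a, ha⟩ := S.2.exists_card_eq
      have hc : Nat.card (S : Subgroup X) = 2 * m := by
        rw [Nat.card_congr eS.toEquiv, DihedralGroup.nat_card]
      have hk : ∃ k, 0 < k ∧ m = 4 * k := by
        rw [hc] at ha
        match a, ha with
        | 0, ha => omega
        | 1, ha => omega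
        | 2, ha => omega
        | (b + 3), ha =>
          refine ⟨2 ^ b, pow_pos (by norm_num) b, ?_⟩
          rw [pow_add] at ha; omega
      obtain ⟨k, hk0, hmk⟩ := hk
      refine backward_core S m k hk0 hmk ((S : Subgroup X).subtype.comp eS.symm.toMonoidHom)
        ?_ ?_ ?_ H
      · intro x y hxy
        have h1 : (eS.symm x : X) = (eS.symm y : X) := hxy
        exact eS.symm.injective (Subtype.ext h1)
      · intro d
        exact (eS.symm d).2
      · intro x hx
        exact ⟨eS ⟨x, hx⟩, by simp⟩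

end Cfsg.Agent.S1254
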