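import Cfsg.Statements.S1256
import Mathlib
import Cfsg.Agent.S0111
import Cfsg.Agent.Lib.Helper43.DihSyl3

set_option autoImplicit false
open Cfsg

namespace Cfsg.Agent.S1256

open Cfsg.Agent.Lib.Helper42 Cfsg.Agent.Lib.Helper75 Cfsg.Agent.Lib.Helper14 Cfsg.Agent.Lib.Helper43

theorem orderOf_conj_eq {X : Type*} [Group X] (g t : X) : orderOf (g * t * g⁻¹) = orderOf t :=
  (MulAut.conj g).orderOf_eq t

theorem mult_zmod2_ne : Multiplicative.ofAdd (1 : ZMod 2) ≠ 1 := by decide

/-- The four-subgroups of a dihedral group `ι (D_m)`, `m = 2k'`: they are `{1, z, u, zu}` with `z`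
the central involution and `u` a reflection. -/
theorem four_in_S {X : Type*} [Group X] [Finite X] (S : Subgroup X) (m k' : ℕ) (hk' : 0 < k')
    (hmk' : m = 2 * k') (ι : DihedralGroup m →* X) (hinj : Function.Injective ι)
    (hsurj : ∀ x ∈ S, ∃ d, ι d = x) (V : Subgroup X)
    (hV : IsKleinFour V) (hVS : V ≤ S) :
    ∃ i : ZMod m, ∀ x, x ∈ V ↔ x = 1 ∨ x = ι (DihedralGroup.r (k' : ZMod m)) ∨
      x = ι (DihedralGroup.sr i) ∨
      x = ι (DihedralGroup.r (k' : ZMod m)) * ι (DihedralGroup.sr i) := by
  classical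
  have hm0 : NeZero m := ⟨by omega⟩
  obtain ⟨z, hz⟩ : ∃ z, z = ι (DihedralGroup.r (k' : ZMod m)) := ⟨_, rfl⟩
  have hzo : orderOf z = 2 := by rw [hz, orderOf_injective ι hinj, dih_orderOf_r_half hk' hmk']
  have hz1 : z ≠ 1 := by intro h1; rw [h1, orderOf_one] at hzo; omega
  have hz2 : z * z = 1 := by rw [← pow_two, ← hzo]; exact pow_orderOf_eq_one z
  have hkk : (k' : ZMod m) + (k' : ZMod m) = 0 := zmod_half_add_half hmk'
  -- a reflection in `V`
  have hex : ∃ i, ι (DihedralGroup.sr i) ∈ V := by
    by_contra hno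
    push Not at hno
    have hle : V ≤ Subgroup.zpowers z := by
      intro x hx
      obtain ⟨d, rfl⟩ := hsurj x (hVS hx)
      cases d with
      | r j =>
        have h1 := kleinFour_mul_self V hV _ hx
        rw [← map_mul, DihedralGroup.r_mul_r, ← map_one ι] at h1
        have h2 := hinj h1
        rw [DihedralGroup.one_def] at h2
        have h3 : j + j = 0 := DihedralGroup.r.inj h2
        by_cases hj : j = 0
        · rw [hj, DihedralGroup.r_zero, map_one]; exact Subgroup.one_mem _
        · rw [zmod_two_torsion hk' hmk' j h3 hj, ← hz]; exact Subgroup.mem_zpowers z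
      | sr i => exact absurd hx (hno i)
    have h4 := Subgroup.card_le_of_le hle
    rw [hV.card_four, Nat.card_zpowers, hzo] at h4
    omega
  obtain ⟨i, hi⟩ := hex
  refine ⟨i, ?_⟩
  obtain ⟨u, hu⟩ : ∃ u, u = ι (DihedralGroup.sr i) := ⟨_, rfl⟩
  rw [← hz, ← hu]
  rw [← hu] at hi
  have hu2 : u * u = 1 := kleinFour_mul_self V hV u hi
  have hu1 : u ≠ 1 := by
    rw [hu]; intro h; rw [← map_one ι] at h
    have := hinj h; rw [DihedralGroup.one_def] at this; cases this
  have hzu : z * u = u * z := by
    rw [hz, hu, ← map_mul, ← map_mul, dih_r_central _ hkk]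
  have hzneu : z ≠ u := by
    intro h; rw [hz, hu] at h; have := hinj h; cases this
  obtain ⟨U, hUmem, hUK⟩ := exists_kleinFour z u hz1 hu1 hzneu hz2 hu2 hzu
  have hVU : V ≤ U := by
    intro x hx
    rw [hUmem]
    have hcomm : x * u = u * x := kleinFour_comm V hV x u hx hi
    obtain ⟨d, rfl⟩ := hsurj x (hVS hx)
    rw [hu, ← map_mul, ← map_mul] at hcomm
    have hc := hinj hcomm
    cases d with
    | r j =>
      rw [DihedralGroup.r_mul_sr, DihedralGroup.sr_mul_r] at hc
      have h3 : j + j = 0 := by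
        have := DihedralGroup.sr.inj hc
        linear_combination (-1 : ZMod m) * this
      by_cases hj : j = 0
      · left; rw [hj, DihedralGroup.r_zero, map_one]
      · right; left; rw [zmod_two_torsion hk' hmk' j h3 hj, ← hz]
    | sr j =>
      rw [DihedralGroup.sr_mul_sr, DihedralGroup.sr_mul_sr] at hc
      have h3 : (j - i) + (j - i) = 0 := by
        have := DihedralGroup.r.inj hc
        linear_combination (-1 : ZMod m) * this
      by_cases hj : j - i = 0
      · right; right; left
        have : j = i := sub_eq_zero.mp hj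
        rw [this, hu]
      · right; right; right
        have h5 := zmod_two_torsion hk' hmk' (j - i) h3 hj
        have h6 : j = i - (k' : ZMod m) := by
          have : j = i + (k' : ZMod m) := by rw [← h5]; ring
          rw [this]; linear_combination hkk
        rw [hz, hu, ← map_mul, DihedralGroup.r_mul_sr, h6]
  have hVeqU : V = U := by
    apply Subgroup.eq_of_le_of_card_ge hVU
    rw [hV.card_four, hUK.card_four]
  intro x
  rw [hVeqU]; exact hUmem x

/-- Let X be a finite group whose Sylow 2-subgroup S is dihedral of order 2m ≥ 4. If |S| = 4, any two Klein four-subgroups of X are conjugate; if |S| > 4, there are Klein four-subgroups U₁, U₂ of X that are not conjugate, and every Klein four-subgroup of X is conjugate to U₁ or to U₂. -/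
theorem result {X : Type*} [Group X] [Finite X] (S : Sylow 2 X) (m : ℕ) (hm : 2 ≤ m) (eS : (S : Subgroup X) ≃* DihedralGroup m) : (Nat.card S = 4 → ∀ U V : Subgroup X, IsKleinFour U → IsKleinFour V → (∃ x : X, U.map (MulAut.conj x).toMonoidHom = V)) ∧ (4 < Nat.card S → ∃ U₁ U₂ : Subgroup X, IsKleinFour U₁ ∧ IsKleinFour U₂ ∧ ¬ (∃ x : X, U₁.map (MulAut.conj x).toMonoidHom = U₂) ∧ ∀ V : Subgroup X, IsKleinFour V → (∃ x : X, V.map (MulAut.conj x).toMonoidHom = U₁) ∨ (∃ x : X, V.map (MulAut.conj x).toMonoidHom = U₂)) := by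
  classical
  constructor
  · intro h4 U V hU hV
    have key : ∀ W : Subgroup X, IsKleinFour W → ∃ g : X, cj g W = (S : Subgroup X) := by
      intro W hW
      have hWp : IsPGroup 2 W := IsPGroup.of_card (n := 2) (by rw [hW.card_four]; norm_num)
      obtain ⟨g, hg⟩ := exists_conj_le_sylow S hWp
      refine ⟨g, Subgroup.eq_of_le_of_card_ge hg ?_⟩
      rw [card_cj, hW.card_four]; exact le_of_eq h4
    obtain ⟨g, hg⟩ := key U hU
    obtain ⟨g', hg'⟩ := key V hV
    refine ⟨g'⁻¹ * g, ?_⟩
    show cj (g'⁻¹ * g) U = V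
    rw [← cj_cj, hg, ← hg', cj_inv_cj]
  · intro h4
    obtain ⟨k', hk', hmk', ι, hinj, hS, hsurj⟩ := exists_dih_emb S m hm eS
    have hm0 : NeZero m := ⟨by omega⟩
    have h2m : 2 ∣ m := ⟨k', hmk'⟩
    have hcardS : Nat.card (S : Subgroup X) = 2 * m := by
      rw [Nat.card_congr eS.toEquiv, DihedralGroup.nat_card]
    obtain ⟨k, hk, hk'k⟩ : ∃ k, 0 < k ∧ k' = 2 * k := by
      obtain ⟨a, ha⟩ := S.2.exists_card_eq
      have h4' : 4 < 2 * (2 * k') := by rw [← hmk', ← hcardS]; exact h4
      rw [hcardS, hmk'] at ha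
      match a, ha with
      | 0, ha => omega
      | 1, ha => omega
      | 2, ha => omega
      | (b + 3), ha =>
        exact ⟨2 ^ b, pow_pos (by norm_num) b, by rw [pow_add] at ha; omega⟩
    obtain ⟨M, hMmem, hMS, hMc, hMi⟩ := dih_cyclic_max S m ι hinj hS hsurj
    obtain ⟨z, hz⟩ : ∃ z, z = ι (DihedralGroup.r (k' : ZMod m)) := ⟨_, rfl⟩
    obtain ⟨a, ha⟩ : ∃ a, a = ι (DihedralGroup.sr 0) := ⟨_, rfl⟩
    obtain ⟨b, hb⟩ : ∃ b, b = ι (DihedralGroup.sr 1) := ⟨_, rfl⟩
    have hkk : (k' : ZMod m) + (k' : ZMod m) = 0 := zmod_half_add_half hmk'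
    have hzo : orderOf z = 2 := by rw [hz, orderOf_injective ι hinj, dih_orderOf_r_half hk' hmk']
    have hz1 : z ≠ 1 := by intro h1; rw [h1, orderOf_one] at hzo; omega
    have hz2 : z * z = 1 := by rw [← pow_two, ← hzo]; exact pow_orderOf_eq_one z
    have hzS : z ∈ (S : Subgroup X) := by rw [hz]; exact hS _
    have hro : ∀ i, orderOf (ι (DihedralGroup.sr i)) = 2 := by
      intro i; rw [orderOf_injective ι hinj, DihedralGroup.orderOf_sr]
    have hr1 : ∀ i, ι (DihedralGroup.sr i) ≠ 1 := by
      intro i h; have := hro i; rw [h, orderOf_one] at this; omega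
    have hr2 : ∀ i, ι (DihedralGroup.sr i) * ι (DihedralGroup.sr i) = 1 := by
      intro i; rw [← pow_two, ← hro i]; exact pow_orderOf_eq_one _
    have hzc : ∀ d, z * ι d = ι d * z := by
      intro d
      rw [hz, ← map_mul, ← map_mul, dih_r_central _ hkk]
    have hzne : ∀ i, z ≠ ι (DihedralGroup.sr i) := by
      intro i h; rw [hz] at h; have := hinj h; cases this
    have haS : a ∈ (S : Subgroup X) := by rw [ha]; exact hS _
    have hbS : b ∈ (S : Subgroup X) := by rw [hb]; exact hS _
    have hza : z * a = a * z := by rw [ha]; exact hzc _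
    have hzb : z * b = b * z := by rw [hb]; exact hzc _
    obtain ⟨U₁, hU₁mem, hU₁K⟩ := exists_kleinFour z a hz1 (by rw [ha]; exact hr1 0)
      (by rw [ha]; exact hzne 0) hz2 (by rw [ha]; exact hr2 0) hza
    obtain ⟨U₂, hU₂mem, hU₂K⟩ := exists_kleinFour z b hz1 (by rw [hb]; exact hr1 1)
      (by rw [hb]; exact hzne 1) hz2 (by rw [hb]; exact hr2 1) hzb
    have hU₂S : U₂ ≤ (S : Subgroup X) := by
      intro x hx
      rcases (hU₂mem x).mp hx with rfl | rfl | rfl | rfl
      · exact Subgroup.one_mem _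
      · exact hzS
      · exact hbS
      · exact Subgroup.mul_mem _ hzS hbS
    refine ⟨U₁, U₂, hU₁K, hU₂K, ?_, ?_⟩
    · rintro ⟨g, hg⟩
      have hg' : cj g U₁ = U₂ := hg
      have hzU₁ : z ∈ U₁ := (hU₁mem z).mpr (Or.inr (Or.inl rfl))
      have haU₁ : a ∈ U₁ := (hU₁mem a).mpr (Or.inr (Or.inr (Or.inl rfl)))
      have hzU₂ : z ∈ U₂ := (hU₂mem z).mpr (Or.inr (Or.inl rfl))
      obtain ⟨κ, hκ⟩ : ∃ κ : ZMod m, κ = (k : ZMod m) := ⟨_, rfl⟩
      have hκ2 : (k' : ZMod m) = κ + κ := by rw [hk'k, hκ]; push_cast; ring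
      obtain ⟨s, hs⟩ : ∃ s, s = ι (DihedralGroup.r κ) := ⟨_, rfl⟩
      have hsz : s * z * s⁻¹ = z := by rw [hs, ← hzc, mul_inv_cancel_right]
      have hsr : ∀ i, s * ι (DihedralGroup.sr i) * s⁻¹ = ι (DihedralGroup.sr i) * z := by
        intro i
        rw [hs, hz, ← map_inv, ← map_mul, ← map_mul, ← map_mul, dih_conj_sr, hκ2]
        congr 3
        rw [← hκ2]
        linear_combination (-1 : ZMod m) * hkk
      have hsa : s * a * s⁻¹ = a * z := by rw [ha]; exact hsr 0
      have hsb : s * b * s⁻¹ = b * z := by rw [hb]; exact hsr 1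
      have hsN : ∀ (u : X) (U : Subgroup X), (∀ x, x ∈ U ↔ x = 1 ∨ x = z ∨ x = u ∨ x = z * u) →
          z * u = u * z → s * u * s⁻¹ = u * z → s ∈ Subgroup.normalizer (U : Set X) := by
        intro u U hUmem hzu hsu
        rw [← cj_eq_self_iff]
        apply Subgroup.eq_of_le_of_card_ge
        · rintro x ⟨y, hy, rfl⟩
          show s * y * s⁻¹ ∈ U
          rcases (hUmem y).mp hy with rfl | rfl | rfl | rfl
          · simp
          · rw [hsz]; exact (hUmem _).mpr (Or.inr (Or.inl rfl))
          · rw [hsu, ← hzu]; exact (hUmem _).mpr (Or.inr (Or.inr (Or.inr rfl)))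
          · have h1 : s * (z * u) * s⁻¹ = (s * z * s⁻¹) * (s * u * s⁻¹) := by group
            rw [h1, hsz, hsu, ← hzu, ← mul_assoc, hz2, one_mul]
            exact (hUmem _).mpr (Or.inr (Or.inr (Or.inl rfl)))
        · rw [card_cj]
      have hsN1 := hsN a U₁ hU₁mem hza hsa
      have hsN2 := hsN b U₂ hU₂mem hzb hsb
      -- Step A: a conjugating element centralizing `z`
      have hA : ∃ h : X, h * z * h⁻¹ = z ∧ cj h U₁ = U₂ := by
        obtain ⟨z', hz'⟩ : ∃ z', z' = g * z * g⁻¹ := ⟨_, rfl⟩
        have hz'U : z' ∈ U₂ := by rw [hz', ← hg']; exact conj_mem_cj hzU₁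
        have hz'1 : z' ≠ 1 := by
          intro h; apply hz1
          have : z = g⁻¹ * z' * g := by rw [hz']; group
          rw [this, h]; group
        by_cases hzz : z' = z
        · exact ⟨g, by rw [← hz', hzz], hg'⟩
        · have hsz' : s * z' * s⁻¹ = z * z' := by
            rcases (hU₂mem z').mp hz'U with h | h | h | h
            · exact absurd h hz'1
            · exact absurd h hzz
            · rw [h, hsb, hzb]
            · rw [h]
              have h1 : s * (z * b) * s⁻¹ = (s * z * s⁻¹) * (s * b * s⁻¹) := by group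
              rw [h1, hsz, hsb, ← hzb]
          obtain ⟨w, hw⟩ : ∃ w, w = g * a * g⁻¹ := ⟨_, rfl⟩
          have hwU : w ∈ U₂ := by rw [hw, ← hg']; exact conj_mem_cj haU₁
          have hw1 : w ≠ 1 := by
            intro h
            have h2 : a = g⁻¹ * w * g := by rw [hw]; group
            rw [h] at h2
            have h3 : a = 1 := by rw [h2]; group
            rw [ha] at h3
            exact hr1 0 h3
          have hwz' : w ≠ z' := by
            intro h
            rw [hw, hz'] at h
            have h2 := mul_left_cancel (mul_right_cancel h)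
            rw [ha] at h2
            exact hzne 0 h2.symm
          obtain ⟨t', ht'⟩ : ∃ t', t' = g * s * g⁻¹ := ⟨_, rfl⟩
          have ht'N : t' ∈ Subgroup.normalizer (U₂ : Set X) := by
            rw [ht', ← hg', normalizer_cj]; exact conj_mem_cj hsN1
          have ht'z' : t' * z' * t'⁻¹ = z' := by
            rw [ht', hz']
            calc g * s * g⁻¹ * (g * z * g⁻¹) * (g * s * g⁻¹)⁻¹ = g * (s * z * s⁻¹) * g⁻¹ := by group
              _ = g * z * g⁻¹ := by rw [hsz]
          have ht'w : t' * w * t'⁻¹ = w * z' := by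
            rw [ht', hw, hz']
            calc g * s * g⁻¹ * (g * a * g⁻¹) * (g * s * g⁻¹)⁻¹ = g * (s * a * s⁻¹) * g⁻¹ := by group
              _ = g * (a * z) * g⁻¹ := by rw [hsa]
              _ = g * a * g⁻¹ * (g * z * g⁻¹) := by group
          have hz'2 : z' * z' = 1 := kleinFour_mul_self U₂ hU₂K z' hz'U
          have ht'z : t' * z * t'⁻¹ = z * z' := by
            rcases kleinFour_mem U₂ hU₂K z z' hzU₂ hz'U hz1 hz'1 (Ne.symm hzz) w hwU with
              h | h | h | h
            · exact absurd h hw1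
            · rw [← h]; exact ht'w
            · exact absurd h hwz'
            · have h1 : t' * z * t'⁻¹ = (t' * w * t'⁻¹) * (t' * z' * t'⁻¹) := by
                have : z = w * z' := by rw [h, mul_assoc, hz'2, mul_one]
                conv_lhs => rw [this]
                group
              rw [h1, ht'w, ht'z', h, mul_assoc, hz'2, mul_one]
          refine ⟨t'⁻¹ * s * g, ?_, ?_⟩
          · calc t'⁻¹ * s * g * z * (t'⁻¹ * s * g)⁻¹
                = t'⁻¹ * (s * (g * z * g⁻¹) * s⁻¹) * t' := by group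
              _ = t'⁻¹ * (z * z') * t' := by rw [← hz', hsz']
              _ = t'⁻¹ * (t' * z * t'⁻¹) * t' := by rw [ht'z]
              _ = z := by group
          · have hn : t'⁻¹ * s ∈ Subgroup.normalizer (U₂ : Set X) :=
              Subgroup.mul_mem _ (Subgroup.inv_mem _ ht'N) hsN2
            rw [← cj_cj, hg', cj_eq_of_mem_normalizer hn]
      obtain ⟨h, hhz, hhU⟩ := hA
      -- Step B: inside `C_X(z)` fusion in `S` is `S`-conjugacy
      obtain ⟨C, hC⟩ : ∃ C : Subgroup X, C = Subgroup.centralizer {z} := ⟨_, rfl⟩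
      have hCmem : ∀ x, x ∈ C ↔ z * x = x * z := by
        intro x
        rw [hC, Subgroup.mem_centralizer_iff]
        constructor
        · intro h; exact h z (Set.mem_singleton z)
        · intro h y hy; rw [Set.mem_singleton_iff] at hy; rw [hy]; exact h
      have hSC : (S : Subgroup X) ≤ C := fun x hx => by
        obtain ⟨d, rfl⟩ := hsurj x hx
        exact (hCmem _).mpr (hzc d)
      have hhC : h ∈ C := (hCmem h).mpr (by
        calc z * h = h * z * h⁻¹ * h := by rw [hhz]
          _ = h * z := by group)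
      have hTp : IsPGroup 2 ((S : Subgroup X).subgroupOf C) := S.2.comap_subtype
      have hTi : ¬ 2 ∣ ((S : Subgroup X).subgroupOf C).index := fun hd =>
        S.not_dvd_index (hd.trans (Subgroup.relIndex_dvd_index_of_le hSC))
      obtain ⟨T, hT⟩ : ∃ T : Sylow 2 C, (T : Subgroup C) = (S : Subgroup X).subgroupOf C :=
        ⟨hTp.toSylow hTi, IsPGroup.toSylow_coe hTp hTi⟩
      have hTmem : ∀ x : C, x ∈ (T : Subgroup C) ↔ (x : X) ∈ (S : Subgroup X) := by
        intro x; rw [hT, Subgroup.mem_subgroupOf]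
      obtain ⟨M', hM'⟩ : ∃ M' : Subgroup C, M' = M.subgroupOf C := ⟨_, rfl⟩
      have hM'mem : ∀ x : C, x ∈ M' ↔ (x : X) ∈ M := by
        intro x; rw [hM', Subgroup.mem_subgroupOf]
      have hM'c : IsCyclic M' := by
        rw [hM']
        have e := Subgroup.subgroupOfEquivOfLe (hMS.trans hSC)
        exact isCyclic_of_injective e.toMonoidHom e.injective
      have hM'T : M' ≤ (T : Subgroup C) := fun x hx => (hTmem x).mpr (hMS ((hM'mem x).mp hx))
      have hM'i : M'.relIndex (T : Subgroup C) = 2 := by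
        rw [hM', hT, Subgroup.relIndex_subgroupOf hSC]; exact hMi
      have hinvS : ∀ x ∈ (S : Subgroup X), orderOf x = 2 →
          x = z ∨ ∃ i, x = ι (DihedralGroup.sr i) := by
        intro x hx hxo
        obtain ⟨d, rfl⟩ := hsurj x hx
        rw [orderOf_injective ι hinj] at hxo
        rcases dih_involution hk' hmk' d hxo with rfl | ⟨i, rfl⟩
        · left; rw [hz]
        · right; exact ⟨i, rfl⟩
      have hreflM : ∀ i, ι (DihedralGroup.sr i) ∉ M := by
        intro i hi
        obtain ⟨j, hj⟩ := (hMmem _).mp hi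
        have := hinj hj
        cases this
      have hinv' : ∀ u ∈ (T : Subgroup C), u ∉ M' → orderOf u = 2 := by
        intro u huT huM
        rw [← Subgroup.orderOf_coe]
        obtain ⟨d, hd⟩ := hsurj (u : X) ((hTmem u).mp huT)
        cases d with
        | r j => exact absurd ((hM'mem u).mpr ((hMmem _).mpr ⟨j, hd.symm⟩)) huM
        | sr i => rw [← hd]; exact hro i
      have hfus' : ∀ u ∈ (T : Subgroup C), u ∉ M' → ∀ g : C, g * u * g⁻¹ ∉ M' := by
        intro u huT huM c hc
        have huo := hinv' u huT huM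
        have h1 : ((c * u * c⁻¹ : C) : X) ∈ M := (hM'mem _).mp hc
        have h2 : orderOf ((c * u * c⁻¹ : C) : X) = 2 := by
          rw [Subgroup.orderOf_coe, orderOf_conj_eq, huo]
        rcases hinvS _ (hMS h1) h2 with h | ⟨i, h⟩
        · apply huM
          rw [hM'mem]
          have h3 : (u : X) = z := by
            have hcz : z * (c : X) = (c : X) * z := (hCmem _).mp c.2
            have h4 : (c : X) * (u : X) * (c : X)⁻¹ = z := by rw [← h]; rfl
            calc (u : X) = (c : X)⁻¹ * ((c : X) * (u : X) * (c : X)⁻¹) * (c : X) := by group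
              _ = (c : X)⁻¹ * (z * (c : X)) := by rw [h4, mul_assoc]
              _ = z := by rw [hcz]; group
          rw [h3, hz]; exact (hMmem _).mpr ⟨_, rfl⟩
        · rw [h] at h1; exact hreflM i h1
      have hnpc : NPC 2 C := npc_of_no_fusion T M' hM'c hinv' hfus'
        (fun u hu huT huM => Cfsg.Agent.S0111.result T M' hM'T hM'i u hu huT huM)
      obtain ⟨N', hN', hN'c⟩ := hnpc.exists_isComplement' T
      obtain ⟨y, hy⟩ : ∃ y, y = h * a * h⁻¹ := ⟨_, rfl⟩
      have hyU : y ∈ U₂ := by rw [hy, ← hhU]; exact conj_mem_cj haU₁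
      have hyS : y ∈ (S : Subgroup X) := hU₂S hyU
      obtain ⟨s', hs'T, hs'⟩ := conj_in_sylow_of_complement (T : Subgroup C) N' hN'c
        ⟨a, hSC haS⟩ ⟨y, hSC hyS⟩ ((hTmem _).mpr haS) ((hTmem _).mpr hyS) ⟨h, hhC⟩
        (Subtype.ext hy.symm)
      have hs'X : (s' : X) * a * (s' : X)⁻¹ = y := congrArg Subtype.val hs'
      obtain ⟨d, hd⟩ := hsurj (s' : X) ((hTmem s').mp hs'T)
      rw [← hd, ha, ← map_inv, ← map_mul, ← map_mul] at hs'X
      have hχ : dihPar m h2m 0 (d * DihedralGroup.sr 0 * d⁻¹) = 1 := by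
        rw [map_mul, map_mul, map_inv, mul_comm, inv_mul_cancel_left, dihPar_sr, sub_self,
          map_zero]
        rfl
      have hpk : ZMod.castHom h2m (ZMod 2) (k' : ZMod m) = 0 := by
        rw [map_natCast, hk'k]; push_cast
        have : (2 : ZMod 2) = 0 := by decide
        rw [this, zero_mul]
      rcases (hU₂mem y).mp hyU with h1 | h1 | h1 | h1
      · rw [h1, ← map_one ι] at hs'X
        have h2 := hinj hs'X
        have h3 : (DihedralGroup.sr 0 : DihedralGroup m) = 1 := by
          have : (DihedralGroup.sr 0 : DihedralGroup m) =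
              d⁻¹ * (d * DihedralGroup.sr 0 * d⁻¹) * d := by group
          rw [this, h2]; group
        rw [DihedralGroup.one_def] at h3
        cases h3
      · rw [h1, hz] at hs'X
        have h2 := hinj hs'X
        have h3 : (DihedralGroup.sr 0 : DihedralGroup m) = DihedralGroup.r (k' : ZMod m) := by
          have : (DihedralGroup.sr 0 : DihedralGroup m) =
              d⁻¹ * (d * DihedralGroup.sr 0 * d⁻¹) * d := by group
          rw [this, h2, mul_assoc, dih_r_central _ hkk d, inv_mul_cancel_left]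
        cases h3
      · rw [h1, hb] at hs'X
        have h2 := hinj hs'X
        rw [h2, dihPar_sr, sub_zero, map_one] at hχ
        exact mult_zmod2_ne hχ
      · rw [h1, hz, hb, ← map_mul, DihedralGroup.r_mul_sr] at hs'X
        have h2 := hinj hs'X
        rw [h2, dihPar_sr, sub_zero, map_sub, map_one, hpk, sub_zero] at hχ
        exact mult_zmod2_ne hχ
    · intro V hV
      have hVp : IsPGroup 2 V := IsPGroup.of_card (n := 2) (by rw [hV.card_four]; norm_num)
      obtain ⟨g, hg⟩ := exists_conj_le_sylow S hVp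
      have hVK' : IsKleinFour (cj g V) := isKleinFour_cj g V hV
      obtain ⟨i, hi⟩ := four_in_S (S : Subgroup X) m k' hk' hmk' ι hinj hsurj (cj g V) hVK' hg
      rw [← hz] at hi
      have hgen : ∀ (c j : ZMod m) (U : Subgroup X), IsKleinFour U →
          (∀ x, x ∈ U ↔ x = 1 ∨ x = z ∨ x = ι (DihedralGroup.sr c) ∨
            x = z * ι (DihedralGroup.sr c)) → i = c + (j + j) →
          ∃ x : X, V.map (MulAut.conj x).toMonoidHom = U := by
        intro c j U hUK hUmem hij
        obtain ⟨h0, hh0⟩ : ∃ h0, h0 = ι (DihedralGroup.r (-j)) := ⟨_, rfl⟩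
        have hconj_u : h0 * ι (DihedralGroup.sr c) * h0⁻¹ = ι (DihedralGroup.sr i) := by
          rw [hh0, ← map_inv, ← map_mul, ← map_mul, dih_sr_conj, hij]
        have hconj_z : h0 * z * h0⁻¹ = z := by
          rw [hh0, ← hzc, mul_inv_cancel_right]
        have hle : cj h0 U ≤ cj g V := by
          rintro x ⟨y, hy, rfl⟩
          show h0 * y * h0⁻¹ ∈ cj g V
          rw [hi]
          rcases (hUmem y).mp hy with rfl | rfl | rfl | rfl
          · left; group
          · right; left; exact hconj_z
          · right; right; left; exact hconj_u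
          · right; right; right
            have : h0 * (z * ι (DihedralGroup.sr c)) * h0⁻¹ =
                (h0 * z * h0⁻¹) * (h0 * ι (DihedralGroup.sr c) * h0⁻¹) := by group
            rw [this, hconj_z, hconj_u]
        have heq : cj h0 U = cj g V :=
          Subgroup.eq_of_le_of_card_ge hle
            (by rw [card_cj, card_cj, hUK.card_four, hV.card_four])
        refine ⟨h0⁻¹ * g, ?_⟩
        show cj (h0⁻¹ * g) V = U
        rw [← cj_cj, ← heq, cj_inv_cj]
      rcases zpar_cases h2m i with ⟨j, hj⟩ | ⟨j, hj⟩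
      · left
        exact hgen 0 j U₁ hU₁K (by rw [← ha]; exact hU₁mem) (by rw [hj, zero_add])
      · right
        exact hgen 1 j U₂ hU₂K (by rw [← hb]; exact hU₂mem) hj

end Cfsg.Agent.S1256
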