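import Cfsg.Statements.S1258
import Cfsg.Agent.Lib.Helper30.Basic

set_option autoImplicit false
open Cfsg
open scoped commutatorElement

namespace Cfsg.Agent.S1258

/-- If the central quotient of a finite group X is non-abelian simple, then X = X' Z(X) and the commutator subgroup X' is quasisimple. -/
theorem result {X : Type*} [Group X] [Finite X] (hs : IsSimpleGroup (X ⧸ Subgroup.center X)) (hna : ¬ IsMulCommutative (X ⧸ Subgroup.center X)) : commutator X ⊔ Subgroup.center X = ⊤ ∧ Cfsg.IsQuasisimple ↥(commutator X) := by
  have hnc : ∃ a b : X ⧸ Subgroup.center X, a * b ≠ b * a := by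
    by_contra hcon
    push Not at hcon
    exact hna ⟨⟨hcon⟩⟩
  have hsurj : Function.Surjective (QuotientGroup.mk' (Subgroup.center X)) :=
    QuotientGroup.mk'_surjective _
  refine ⟨?_, Cfsg.Agent.Lib.Helper30.qs_commutator_of_central_ext
    (QuotientGroup.mk' (Subgroup.center X)) hsurj (by rw [QuotientGroup.ker_mk']) hs hnc⟩
  -- commutator of the quotient is everything
  have hcT : commutator (X ⧸ Subgroup.center X) = ⊤ := by
    have hn : (commutator (X ⧸ Subgroup.center X)).Normal := inferInstance
    rcases hn.eq_bot_or_eq_top with h | h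
    · exfalso
      obtain ⟨a, b, hab⟩ := hnc
      apply hab
      have h1 : ⁅a, b⁆ ∈ commutator (X ⧸ Subgroup.center X) :=
        Subgroup.commutator_mem_commutator (Subgroup.mem_top a) (Subgroup.mem_top b)
      rw [h, Subgroup.mem_bot, commutatorElement_def] at h1
      calc a * b = (a * b * a⁻¹ * b⁻¹) * b * a := by group
        _ = b * a := by rw [h1, one_mul]
    · exact h
  have hmap : (commutator X).map (QuotientGroup.mk' (Subgroup.center X)) = ⊤ := by
    rw [commutator_def, Subgroup.map_commutator, Subgroup.map_top_of_surjective _ hsurj,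
      ← commutator_def, hcT]
  rw [eq_top_iff]
  intro x _
  have hx : QuotientGroup.mk' (Subgroup.center X) x ∈
      (commutator X).map (QuotientGroup.mk' (Subgroup.center X)) := by rw [hmap]; trivial
  obtain ⟨d, hd, hdx⟩ := hx
  have hz : d⁻¹ * x ∈ Subgroup.center X := by
    have := QuotientGroup.eq.mp hdx
    simpa using this
  have : x = d * (d⁻¹ * x) := by group
  rw [this]
  exact mul_mem (Subgroup.mem_sup_left hd) (Subgroup.mem_sup_right hz)

end Cfsg.Agent.S1258
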