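import Cfsg.Statements.S1262
import Cfsg.Agent.Lib.Helper30.Basic

set_option autoImplicit false
open Cfsg

namespace Cfsg.Agent.S1262

/-- Let L be a component of the finite group G and H a solvable subgroup normalized by L. Then ⁅L, H⁆ = 1. -/
theorem result {G : Type*} [Group G] [Finite G] (L H : Subgroup G) (hL : Cfsg.IsComponent L) (hsolv : Group.IsSolvable ↥H) (hinv : L ≤ Subgroup.normalizer (H : Set G)) : ⁅L, H⁆ = ⊥ := by
  have hn : (H.subgroupOf (L ⊔ H)).Normal := Subgroup.normal_subgroupOf_sup_of_le_normalizer hinv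
  have hL' := Cfsg.Agent.Lib.Helper30.isComponent_subgroupOf hL (le_sup_left : L ≤ L ⊔ H)
  rcases Cfsg.Agent.Lib.Helper30.component_le_or_commutator_eq_bot hL' hn.isSubnormal with h | h
  · exfalso
    exact Cfsg.Agent.Lib.Helper30.comp_not_le_solvable hL hsolv
      (Cfsg.Agent.Lib.Helper30.le_of_subgroupOf_le le_sup_left h)
  · exact Cfsg.Agent.Lib.Helper30.commutator_eq_bot_of_subgroupOf le_sup_left le_sup_right h

end Cfsg.Agent.S1262
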