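import Cfsg.Statements.S1263
import Cfsg.Agent.Lib.Helper30.Cores

set_option autoImplicit false
open Cfsg
open Cfsg.Agent.Lib.Helper30

namespace Cfsg.Agent.S1263

theorem center_map_eq {G : Type*} [Group G] (K : Subgroup G) :
    (Subgroup.center ↥K).map K.subtype = K ⊓ Subgroup.centralizer (K : Set G) := by
  ext x
  simp only [Subgroup.mem_map, Subgroup.mem_inf, Subgroup.mem_center_iff,
    Subgroup.mem_centralizer_iff]
  constructor
  · rintro ⟨y, hy, rfl⟩
    refine ⟨y.2, fun k hk => ?_⟩
    have := hy ⟨k, hk⟩
    exact congrArg Subtype.val this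
  · rintro ⟨hx, h⟩
    exact ⟨⟨x, hx⟩, fun k => Subtype.ext (h k.1 k.2), rfl⟩

theorem aux {G : Type*} [Group G] [Finite G] (T : Finset (Subgroup G)) :
    (∀ K ∈ T, IsComponent K) → ∀ z, z ∈ T.sup id → (∀ e ∈ T.sup id, e * z = z * e) →
      z ∈ ⨆ L : {K : Subgroup G // IsComponent K},
        ((L : Subgroup G) ⊓ Subgroup.centralizer ((L : Subgroup G) : Set G)) := by
  classical
  induction T using Finset.induction_on with
  | empty =>
    intro _ z hz _
    rw [Finset.sup_empty, Subgroup.mem_bot] at hz
    rw [hz]; exact one_mem _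
  | insert L T hL ih =>
    intro hT z hz hzc
    have hLc : IsComponent L := hT L (Finset.mem_insert_self L T)
    have hTc : ∀ K ∈ T, IsComponent K := fun K hK => hT K (Finset.mem_insert_of_mem hK)
    rw [Finset.sup_insert, id] at hz hzc
    have hcomm : ∀ a ∈ L, ∀ b ∈ T.sup id, a * b = b * a := by
      intro a ha b hb
      have hle : T.sup id ≤ Subgroup.centralizer {a} := by
        apply Finset.sup_le
        intro K hK k hk
        have hne : L ≠ K := fun h => hL (h ▸ hK)
        have := commute_of_commutator_eq_bot (components_commute hLc (hTc K hK) hne) a ha k hk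
        rw [Subgroup.mem_centralizer_iff]
        intro h hh
        rw [Set.mem_singleton_iff] at hh
        subst hh
        exact this
      have := Subgroup.mem_centralizer_iff.mp (hle hb) a (Set.mem_singleton a)
      exact this
    obtain ⟨l, hl, e, he, rfl⟩ := mem_sup_of_commute hcomm hz
    -- l central in L
    have hlZ : l ∈ L ⊓ Subgroup.centralizer (L : Set G) := by
      refine Subgroup.mem_inf.mpr ⟨hl, ?_⟩
      rw [Subgroup.mem_centralizer_iff]
      intro x hx
      have h1 := hzc x (Subgroup.mem_sup_left hx)
      have h2 := hcomm x hx e he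
      calc x * l = (x * (l * e)) * e⁻¹ := by group
        _ = (l * e * x) * e⁻¹ := by rw [h1]
        _ = l * (e * x) * e⁻¹ := by group
        _ = l * (x * e) * e⁻¹ := by rw [h2]
        _ = l * x := by group
    have heZ : ∀ x ∈ T.sup id, x * e = e * x := by
      intro x hx
      have h1 := hzc x (Subgroup.mem_sup_right hx)
      have h2 := hcomm l hl x hx
      calc x * e = l⁻¹ * ((l * x) * e) := by group
        _ = l⁻¹ * ((x * l) * e) := by rw [h2]
        _ = l⁻¹ * (x * (l * e)) := by group
        _ = l⁻¹ * (l * e * x) := by rw [h1]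
        _ = e * x := by group
    have h3 := ih hTc e he heZ
    have h4 : l ∈ ⨆ L : {K : Subgroup G // IsComponent K},
        ((L : Subgroup G) ⊓ Subgroup.centralizer ((L : Subgroup G) : Set G)) :=
      (le_iSup (fun L : {K : Subgroup G // IsComponent K} =>
        ((L : Subgroup G) ⊓ Subgroup.centralizer ((L : Subgroup G) : Set G))) ⟨L, hLc⟩) hlZ
    exact mul_mem h4 h3

/-- For a finite group G, Z(E(G)) is the subgroup generated by the centres Z(L) of the components L of G (all viewed as subgroups of G). -/
theorem result {G : Type*} [Group G] [Finite G] : (Subgroup.center ↥(Cfsg.layer G)).map (Cfsg.layer G).subtype = ⨆ L : {K : Subgroup G // Cfsg.IsComponent K}, (Subgroup.center ↥(L : Subgroup G)).map (L : Subgroup G).subtype := by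
  simp only [center_map_eq]
  apply le_antisymm
  · intro z hz
    obtain ⟨hz1, hz2⟩ := Subgroup.mem_inf.mp hz
    have hfin : {K : Subgroup G | IsComponent K}.Finite := Set.toFinite _
    have hsup : layer G = hfin.toFinset.sup id := by
      rw [Finset.sup_id_eq_sSup, Set.Finite.coe_toFinset]; rfl
    rw [hsup] at hz1
    refine aux hfin.toFinset (fun K hK => (Set.Finite.mem_toFinset hfin).mp hK) z hz1 ?_
    intro e he
    rw [← hsup] at he
    exact Subgroup.mem_centralizer_iff.mp hz2 e he
  · apply iSup_le
    rintro ⟨L, hL⟩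
    intro z hz
    obtain ⟨hz1, hz2⟩ := Subgroup.mem_inf.mp hz
    refine Subgroup.mem_inf.mpr ⟨comp_le_layer hL hz1, ?_⟩
    rw [Subgroup.mem_centralizer_iff]
    have hle : layer G ≤ Subgroup.centralizer {z} := by
      apply sSup_le
      intro K hK k hk
      rw [Subgroup.mem_centralizer_iff]
      intro h hh
      rw [Set.mem_singleton_iff] at hh
      subst hh
      by_cases hKL : K = L
      · subst hKL
        exact (Subgroup.mem_centralizer_iff.mp hz2 k hk).symm
      · exact commute_of_commutator_eq_bot (components_commute hL hK (Ne.symm hKL)) h hz1 k hk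
    intro e he
    exact (Subgroup.mem_centralizer_iff.mp (hle he) z (Set.mem_singleton z)).symm

end Cfsg.Agent.S1263
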