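import Cfsg.Statements.S1264
import Cfsg.Agent.Lib.Helper30.Cores

set_option autoImplicit false
open Cfsg
open Cfsg.Agent.Lib.Helper30

namespace Cfsg.Agent.S1264

theorem center_map_eq {G : Type*} [Group G] (K : Subgroup G) :
    (Subgroup.center ↥K).map K.subtype = K ⊓ Subgroup.centralizer (K : Set G) := by
  ext x
  simp only [Subgroup.mem_map, Subgroup.mem_inf, Subgroup.mem_center_iff,
    Subgroup.mem_centralizer_iff]
  constructor
  · rintro ⟨y, hy, rfl⟩
    refine ⟨y.2, fun k hk => ?_⟩
    have := hy ⟨k, hk⟩
    exact congrArg Subtype.val this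
  · rintro ⟨hx, h⟩
    exact ⟨⟨x, hx⟩, fun k => Subtype.ext (h k.1 k.2), rfl⟩

/-- iterated commutators of a subgroup, inside the ambient group -/
def dser {G : Type*} [Group G] (N : Subgroup G) : ℕ → Subgroup G
  | 0 => N
  | (n + 1) => ⁅dser N n, dser N n⁆

theorem dser_le {G : Type*} [Group G] (N : Subgroup G) (n : ℕ) : dser N n ≤ N := by
  induction n with
  | zero => exact le_rfl
  | succ n ih =>
    show ⁅dser N n, dser N n⁆ ≤ N
    exact (Subgroup.commutator_le_self _).trans ih

theorem comm_normal {G : Type*} [Group G] (D : Subgroup G) : (⁅D, D⁆.subgroupOf D).Normal := by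
  have h : ⁅D, D⁆.subgroupOf D = commutator ↥D := by
    rw [← Subgroup.map_subtype_commutator]
    exact Subgroup.comap_map_eq_self_of_injective D.subtype_injective _
  rw [h]; infer_instance

theorem dser_subnormal {G : Type*} [Group G] (N : Subgroup G) (hN : N.IsSubnormal) (n : ℕ) :
    (dser N n).IsSubnormal := by
  induction n with
  | zero => exact hN
  | succ n ih =>
    exact Subgroup.IsSubnormal.step _ (dser N n) (Subgroup.commutator_le_self _) ih (comm_normal _)

theorem dser_eq_map {G : Type*} [Group G] (N : Subgroup G) (n : ℕ) :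
    (derivedSeries ↥N n).map N.subtype = dser N n := by
  induction n with
  | zero =>
    show (⊤ : Subgroup ↥N).map N.subtype = N
    rw [← MonoidHom.range_eq_map, Subgroup.range_subtype]
  | succ n ih =>
    show (⁅derivedSeries ↥N n, derivedSeries ↥N n⁆).map N.subtype = ⁅dser N n, dser N n⁆
    rw [Subgroup.map_commutator, ih]

theorem key {G : Type*} [Group G] [Finite G] (D : Subgroup G) (hD : D.IsSubnormal)
    (hDC : D ≤ Subgroup.centralizer (fittingSubgroup G : Set G))
    (h : ⁅D, D⁆ ≤ fittingSubgroup G) : D ≤ fittingSubgroup G := by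
  apply le_fitting_of_subnormal_nilpotent hD
  apply Subgroup.isNilpotent_of_ker_le_center (Abelianization.of (G := ↥D))
  rw [Abelianization.ker_of]
  intro x hx
  rw [Subgroup.mem_center_iff]
  intro d
  have hx' : (x : G) ∈ ⁅D, D⁆ := by
    rw [← Subgroup.map_subtype_commutator]
    exact ⟨x, hx, rfl⟩
  have h1 := Subgroup.mem_centralizer_iff.mp (hDC d.2) (x : G) (h hx')
  exact Subtype.ext h1.symm

/-- Let G be finite, C = C_G(F(G)) the centralizer of the Fitting subgroup, and N a solvable subgroup of C normalized by C. Then N ≤ Z(F(G)). -/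
theorem result {G : Type*} [Group G] [Finite G] (N : Subgroup G) (hN : N ≤ Subgroup.centralizer (Cfsg.fittingSubgroup G : Set G)) (hnorm : Subgroup.centralizer (Cfsg.fittingSubgroup G : Set G) ≤ Subgroup.normalizer (N : Set G)) (hsolv : Group.IsSolvable ↥N) : N ≤ (Subgroup.center ↥(Cfsg.fittingSubgroup G)).map (Cfsg.fittingSubgroup G).subtype := by
  have hCn : (Subgroup.centralizer (fittingSubgroup G : Set G)).Normal := by
    have := fitting_normal (G := G)
    infer_instance
  have hNsn : N.IsSubnormal :=
    Subgroup.IsSubnormal.step N _ hN hCn.isSubnormal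
      ((Subgroup.normal_subgroupOf_iff_le_normalizer hN).mpr hnorm)
  obtain ⟨n, hn⟩ := hsolv.solvable
  have hn' : dser N n = ⊥ := by rw [← dser_eq_map, hn, Subgroup.map_bot]
  have hall : ∀ j : ℕ, j ≤ n → dser N (n - j) ≤ fittingSubgroup G := by
    intro j
    induction j with
    | zero => intro _; rw [Nat.sub_zero, hn']; exact bot_le
    | succ j ih =>
      intro hj
      have h1 := ih (by omega)
      have e : n - j = (n - (j + 1)) + 1 := by omega
      rw [e] at h1
      exact key _ (dser_subnormal N hNsn _) ((dser_le N _).trans hN) h1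
  have hNF : N ≤ fittingSubgroup G := by
    have := hall n le_rfl
    rwa [Nat.sub_self] at this
  rw [center_map_eq]
  exact le_inf hNF hN

end Cfsg.Agent.S1264
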