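import Cfsg.Statements.S1266
import Cfsg.Agent.Lib.Helper30.Cores
import Cfsg.Agent.Lib.Helper29.NormP

set_option autoImplicit false
open Cfsg
open scoped commutatorElement
open Cfsg.Agent.Lib.Helper30 Cfsg.Agent.Lib.Helper29

namespace Cfsg.Agent.S1266

/-- Let P be a p-subgroup of the finite group G and N = N_G(P). Then the preimage in N of E(N / O_{p'}(N)) centralizes O_p(G). -/
theorem result {G : Type*} [Group G] [Finite G] (p : ℕ) [Fact p.Prime] (P : Subgroup G) (hP : IsPGroup p ↥P) : (((Cfsg.layer (↥(Subgroup.normalizer ((P : Subgroup G) : Set G)) ⧸ Cfsg.pPrimeCore p ↥(Subgroup.normalizer ((P : Subgroup G) : Set G)))).comap (QuotientGroup.mk' (Cfsg.pPrimeCore p ↥(Subgroup.normalizer ((P : Subgroup G) : Set G))))).map (Subgroup.normalizer ((P : Subgroup G) : Set G)).subtype) ≤ Subgroup.centralizer (Cfsg.pCore p G : Set G) := by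
  have hYc : (Nat.card (pPrimeCore p ↥(Subgroup.normalizer (P : Set G)))).Coprime p :=
    pPrimeCore_coprime p
  have hYn : (pPrimeCore p ↥(Subgroup.normalizer (P : Set G))).Normal := by
    have : (pPrimeCore p ↥(Subgroup.normalizer (P : Set G))).Characteristic :=
      pPrimeCore_characteristic p
    infer_instance
  -- the preimage `X₀` of the layer
  obtain ⟨X₀, hX₀⟩ : ∃ X₀ : Subgroup ↥(Subgroup.normalizer (P : Set G)), X₀ =
      (layer (↥(Subgroup.normalizer (P : Set G)) ⧸
        pPrimeCore p ↥(Subgroup.normalizer (P : Set G)))).comap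
        (QuotientGroup.mk' (pPrimeCore p ↥(Subgroup.normalizer (P : Set G)))) := ⟨_, rfl⟩
  rw [← hX₀]
  have hker : (QuotientGroup.mk' (pPrimeCore p ↥(Subgroup.normalizer (P : Set G)))).ker =
      pPrimeCore p ↥(Subgroup.normalizer (P : Set G)) := QuotientGroup.ker_mk' _
  have hsurj : Function.Surjective
      (QuotientGroup.mk' (pPrimeCore p ↥(Subgroup.normalizer (P : Set G)))) :=
    QuotientGroup.mk'_surjective _
  have hYX : pPrimeCore p ↥(Subgroup.normalizer (P : Set G)) ≤ X₀ := by
    rw [hX₀]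
    intro y hy
    rw [Subgroup.mem_comap]
    have : QuotientGroup.mk' (pPrimeCore p ↥(Subgroup.normalizer (P : Set G))) y = 1 := by
      rw [← MonoidHom.mem_ker, hker]; exact hy
    rw [this]; exact one_mem _
  have hXsplit : X₀ = ⁅X₀, X₀⁆ ⊔ pPrimeCore p ↥(Subgroup.normalizer (P : Set G)) := by
    have h1 : (⁅X₀, X₀⁆).map
        (QuotientGroup.mk' (pPrimeCore p ↥(Subgroup.normalizer (P : Set G)))) =
        layer (↥(Subgroup.normalizer (P : Set G)) ⧸
          pPrimeCore p ↥(Subgroup.normalizer (P : Set G))) := by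
      rw [Subgroup.map_commutator, hX₀, Subgroup.map_comap_eq_self_of_surjective hsurj,
        layer_perfect]
    have h2 := Subgroup.comap_map_eq
      (QuotientGroup.mk' (pPrimeCore p ↥(Subgroup.normalizer (P : Set G)))) ⁅X₀, X₀⁆
    rw [h1, ← hX₀, hker] at h2
    exact h2
  apply centralizes_pCore_of_le_normalizer p P hP
  · -- `X` centralizes the normal `p`-subgroups of `N`
    intro R hR hRN hNR
    have hRn : (R.subgroupOf (Subgroup.normalizer (P : Set G))).Normal :=
      (Subgroup.normal_subgroupOf_iff_le_normalizer hRN).mpr hNR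
    have hRp : IsPGroup p (R.subgroupOf (Subgroup.normalizer (P : Set G))) := hR.comap_subtype
    have hRf : (R.subgroupOf (Subgroup.normalizer (P : Set G))).map
        (QuotientGroup.mk' (pPrimeCore p ↥(Subgroup.normalizer (P : Set G)))) ≤
        fittingSubgroup (↥(Subgroup.normalizer (P : Set G)) ⧸
          pPrimeCore p ↥(Subgroup.normalizer (P : Set G))) :=
      le_sSup ⟨hRn.map _ hsurj, (hRp.map _).isNilpotent⟩
    have hdisj : pPrimeCore p ↥(Subgroup.normalizer (P : Set G)) ⊓
        R.subgroupOf (Subgroup.normalizer (P : Set G)) = ⊥ := by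
      apply (Subgroup.disjoint_of_coprime_natCard ?_).eq_bot
      obtain ⟨k, hk⟩ := hRp.exists_card_eq
      rw [hk]
      exact Nat.Coprime.pow_right k hYc
    rintro _ ⟨x, hx, rfl⟩
    rw [Subgroup.mem_centralizer_iff]
    intro r hr
    have hc1 : ⁅x, (⟨r, hRN hr⟩ : ↥(Subgroup.normalizer (P : Set G)))⁆ ∈
        pPrimeCore p ↥(Subgroup.normalizer (P : Set G)) := by
      rw [← hker, MonoidHom.mem_ker, map_commutatorElement, commutatorElement_eq_one_iff_mul_comm]
      apply commute_of_commutator_eq_bot layer_commutator_fitting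
      · rw [hX₀] at hx; exact hx
      · exact hRf (Subgroup.mem_map_of_mem _ (Subgroup.mem_subgroupOf.mpr hr))
    have hc2 : ⁅x, (⟨r, hRN hr⟩ : ↥(Subgroup.normalizer (P : Set G)))⁆ ∈
        R.subgroupOf (Subgroup.normalizer (P : Set G)) := by
      rw [Subgroup.mem_subgroupOf, commutatorElement_def]
      have h3 : (x : G) * r * (x : G)⁻¹ ∈ R :=
        (Subgroup.mem_normalizer_iff.mp (hNR x.2) r).mp hr
      exact mul_mem h3 (inv_mem hr)
    have hc3 : ⁅x, (⟨r, hRN hr⟩ : ↥(Subgroup.normalizer (P : Set G)))⁆ = 1 := by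
      have : ⁅x, (⟨r, hRN hr⟩ : ↥(Subgroup.normalizer (P : Set G)))⁆ ∈
          pPrimeCore p ↥(Subgroup.normalizer (P : Set G)) ⊓
          R.subgroupOf (Subgroup.normalizer (P : Set G)) := Subgroup.mem_inf.mpr ⟨hc1, hc2⟩
      rw [hdisj] at this
      exact Subgroup.mem_bot.mp this
    rw [commutatorElement_eq_one_iff_mul_comm] at hc3
    exact (congrArg Subtype.val hc3).symm
  · exact Subgroup.map_subtype_le _
  · -- the star property
    intro U hU hWU hh
    set X := X₀.map (Subgroup.normalizer (P : Set G)).subtype with hXdef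
    set Y := (pPrimeCore p ↥(Subgroup.normalizer (P : Set G))).map
      (Subgroup.normalizer (P : Set G)).subtype with hYdef
    have hYX' : Y ≤ X := Subgroup.map_mono hYX
    have hXs : X = ⁅X, X⁆ ⊔ Y := by
      rw [hXdef, hYdef, ← Subgroup.map_commutator, ← Subgroup.map_sup, ← hXsplit]
    have hYc' : (Nat.card Y).Coprime p := by
      rw [hYdef, Subgroup.card_map_of_injective (Subgroup.subtype_injective _)]
      exact hYc
    have hUY : ⁅U, Y⁆ = ⊥ := by
      apply star_of_coprime hU hYc' (hYX'.trans hWU)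
      exact le_bot_iff.mp ((Subgroup.commutator_mono
        (Subgroup.commutator_mono le_rfl hYX') hYX').trans hh.le)
    have hUX' : ⁅⁅X, X⁆, U⁆ = ⊥ := by
      have h1 : ⁅⁅X, U⁆, X⁆ = ⊥ := by rw [Subgroup.commutator_comm X U]; exact hh
      exact Subgroup.commutator_commutator_eq_bot_of_rotate h1 hh
    rw [Subgroup.commutator_comm, Subgroup.commutator_eq_bot_iff_le_centralizer]
    rw [hXs]
    apply sup_le
    · rw [← Subgroup.commutator_eq_bot_iff_le_centralizer]; exact hUX'
    · rw [← Subgroup.commutator_eq_bot_iff_le_centralizer, Subgroup.commutator_comm]; exact hUY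

end Cfsg.Agent.S1266
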