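import Cfsg.Statements.S1267
import Cfsg.Agent.Lib.Helper30.Cores
import Cfsg.Agent.Lib.Helper29.Chain

set_option autoImplicit false
open Cfsg
open Cfsg.Agent.Lib.Helper30 Cfsg.Agent.Lib.Helper29

namespace Cfsg.Agent.S1267

theorem pCore_le_fitting {G : Type*} [Group G] [Finite G] (p : ℕ) [Fact p.Prime] :
    pCore p G ≤ fittingSubgroup G :=
  le_sSup ⟨inferInstance, (pCore_isPGroup p).isNilpotent⟩

/-- a component of the normalizer of `P ≤ O_p(G)` centralizes `O_p(G)` -/
theorem comp_normalizer_centralizes {G : Type*} [Group G] [Finite G] (p : ℕ) [Fact p.Prime]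
    (P : Subgroup G) (hP : P ≤ pCore p G)
    (L : Subgroup ↥(Subgroup.normalizer (P : Set G))) (hL : IsComponent L) :
    L.map (Subgroup.normalizer (P : Set G)).subtype ≤
      Subgroup.centralizer (pCore p G : Set G) := by
  have hQp : IsPGroup p (pCore p G) := pCore_isPGroup p
  have hQN : (pCore p G).subgroupOf (Subgroup.normalizer (P : Set G)) ≤
      fittingSubgroup ↥(Subgroup.normalizer (P : Set G)) :=
    le_sSup ⟨inferInstance, (hQp.comap_subtype).isNilpotent⟩
  have hcomm : ∀ l ∈ L.map (Subgroup.normalizer (P : Set G)).subtype,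
      ∀ y ∈ pCore p G ⊓ Subgroup.normalizer (P : Set G), l * y = y * l := by
    rintro _ ⟨a, ha, rfl⟩ y hy
    obtain ⟨hy1, hy2⟩ := Subgroup.mem_inf.mp hy
    have hb : (⟨y, hy2⟩ : ↥(Subgroup.normalizer (P : Set G))) ∈
        fittingSubgroup ↥(Subgroup.normalizer (P : Set G)) :=
      hQN (Subgroup.mem_subgroupOf.mpr hy1)
    have := commute_of_commutator_eq_bot (comp_commutator_fitting hL) a ha _ hb
    exact congrArg Subtype.val this
  have hperf : ⁅L.map (Subgroup.normalizer (P : Set G)).subtype,
      L.map (Subgroup.normalizer (P : Set G)).subtype⁆ =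
      L.map (Subgroup.normalizer (P : Set G)).subtype := by
    rw [← Subgroup.map_commutator, comp_perfect hL]
  refine chain_centralize (pCore p G) P _ hQp hP ?_ ?_ ?_ ?_
  · exact Subgroup.le_normalizer_of_normal
  · intro l hl
    rw [Subgroup.mem_centralizer_iff]
    intro y hy
    exact (hcomm l hl y (Subgroup.mem_inf.mpr ⟨hP hy, Subgroup.le_normalizer hy⟩)).symm
  · intro l hl
    rw [Subgroup.mem_centralizer_iff]
    intro y hy
    obtain ⟨hy1, hy2⟩ := Subgroup.mem_inf.mp hy
    exact (hcomm l hl y (Subgroup.mem_inf.mpr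
      ⟨hy1, Subgroup.centralizer_le_normalizer _ hy2⟩)).symm
  · intro U _ _ h
    exact star_of_perfect hperf h

/-- Let G be finite and P ≤ O_p(G). Then E(N_G(P)) = E(G). -/
theorem result {G : Type*} [Group G] [Finite G] (p : ℕ) [Fact p.Prime] (P : Subgroup G) (hP : P ≤ Cfsg.pCore p G) : (Cfsg.layer ↥(Subgroup.normalizer ((P : Subgroup G) : Set G))).map (Subgroup.normalizer ((P : Subgroup G) : Set G)).subtype = Cfsg.layer G := by
  apply le_antisymm
  · rw [Subgroup.map_le_iff_le_comap]
    apply sSup_le
    intro L hL
    rw [← Subgroup.map_le_iff_le_comap]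
    apply comp_le_layer
    refine ⟨?_, isQuasisimple_of_mulEquiv
      (L.equivMapOfInjective _ (Subgroup.subtype_injective _)) hL.2⟩
    have hCn : (Subgroup.centralizer (pCore p G : Set G)).Normal := inferInstance
    have hCN : Subgroup.centralizer (pCore p G : Set G) ≤ Subgroup.normalizer (P : Set G) :=
      (Subgroup.centralizer_le (SetLike.coe_subset_coe.mpr hP)).trans
        (Subgroup.centralizer_le_normalizer _)
    have hL1C := comp_normalizer_centralizes p P hP L hL
    have hsub : ((L.map (Subgroup.normalizer (P : Set G)).subtype).subgroupOf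
        (Subgroup.centralizer (pCore p G : Set G))).IsSubnormal := by
      have h1 : (L.comap (Subgroup.inclusion hCN)).IsSubnormal := hL.1.comap _
      have e : (L.map (Subgroup.normalizer (P : Set G)).subtype).subgroupOf
          (Subgroup.centralizer (pCore p G : Set G)) = L.comap (Subgroup.inclusion hCN) := by
        ext c
        rw [Subgroup.mem_subgroupOf, Subgroup.mem_comap]
        constructor
        · rintro ⟨a, ha, hac⟩
          have : a = Subgroup.inclusion hCN c := Subtype.ext hac
          rw [← this]; exact ha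
        · intro h
          exact ⟨_, h, rfl⟩
      rw [e]; exact h1
    exact Subgroup.IsSubnormal.trans hL1C hsub hCn.isSubnormal
  · apply sSup_le
    intro K hK
    have hKN : K ≤ Subgroup.normalizer (P : Set G) := by
      have h1 : K ≤ Subgroup.centralizer (fittingSubgroup G : Set G) :=
        (Subgroup.commutator_eq_bot_iff_le_centralizer).mp (comp_commutator_fitting hK)
      exact (h1.trans (Subgroup.centralizer_le
        (SetLike.coe_subset_coe.mpr (hP.trans (pCore_le_fitting p))))).trans
        (Subgroup.centralizer_le_normalizer _)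
    have h1 := isComponent_subgroupOf hK hKN
    have h2 : K.subgroupOf (Subgroup.normalizer (P : Set G)) ≤
        layer ↥(Subgroup.normalizer (P : Set G)) := comp_le_layer h1
    have h3 := Subgroup.map_mono (f := (Subgroup.normalizer (P : Set G)).subtype) h2
    rwa [Subgroup.map_subgroupOf_eq_of_le hKN] at h3

end Cfsg.Agent.S1267
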