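import Cfsg.Statements.S1268
import Cfsg.Agent.Lib.Helper30.Cores
import Cfsg.Agent.Lib.Helper29.NormP
import Cfsg.Agent.Lib.Helper66.Cores

set_option autoImplicit false
open Cfsg
open Cfsg.Agent.Lib.Helper30 Cfsg.Agent.Lib.Helper29
open Cfsg.Agent.Lib

namespace Cfsg.Agent.S1268

theorem centralizer_pCore_le {G : Type*} [Group G] [Finite G] (p : ℕ) [Fact p.Prime]
    (h : generalizedFittingSubgroup G = pCore p G) :
    Subgroup.centralizer (pCore p G : Set G) ≤ pCore p G := by
  have := centralizer_genFitting_le (G := G)
  rwa [h] at this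

theorem pPrimeCore_normalizer_eq_bot {G : Type*} [Group G] [Finite G] (p : ℕ) [Fact p.Prime]
    (h : generalizedFittingSubgroup G = pCore p G) (P : Subgroup G) (hP : IsPGroup p ↥P) :
    pPrimeCore p ↥(Subgroup.normalizer (P : Set G)) = ⊥ := by
  set N := Subgroup.normalizer (P : Set G) with hN
  set W := (pPrimeCore p ↥N).map N.subtype with hWdef
  have hWN : W ≤ N := Subgroup.map_subtype_le _
  have hWc : (Nat.card W).Coprime p := by
    rw [hWdef, Subgroup.card_map_of_injective (Subgroup.subtype_injective _)]
    exact pPrimeCore_coprime p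
  have hWnorm : N ≤ Subgroup.normalizer (W : Set G) := by
    rw [← Subgroup.normal_subgroupOf_iff_le_normalizer hWN]
    have e : W.subgroupOf N = pPrimeCore p ↥N := by
      rw [hWdef, Subgroup.subgroupOf,
        Subgroup.comap_map_eq_self_of_injective (Subgroup.subtype_injective _)]
    rw [e]
    have : (pPrimeCore p ↥N).Characteristic := pPrimeCore_characteristic p
    infer_instance
  have key : W ≤ Subgroup.centralizer (pCore p G : Set G) := by
    apply centralizes_pCore_of_le_normalizer p P hP W
    · intro R hR hRN hNR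
      apply le_centralizer_of_coprime_of_normalize (hWN.trans hNR) (hRN.trans hWnorm)
      obtain ⟨k, hk⟩ := hR.exists_card_eq
      rw [hk]
      exact Nat.Coprime.pow_right k hWc
    · exact hWN
    · intro U hU hWU hh
      exact star_of_coprime hU hWc hWU hh
  have hWQ : W ≤ pCore p G := key.trans (centralizer_pCore_le p h)
  have hWp : IsPGroup p W := (pCore_isPGroup p).to_le hWQ
  obtain ⟨k, hk⟩ := hWp.exists_card_eq
  have hW1 : Nat.card W = 1 := by
    rw [hk] at hWc ⊢
    rcases Nat.eq_zero_or_pos k with h0 | h0
    · rw [h0, pow_zero]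
    · have := (Nat.coprime_pow_left_iff h0 p p).mp hWc
      rw [Nat.coprime_self] at this
      exact absurd this (Fact.out : p.Prime).one_lt.ne'
  have hWbot : W = ⊥ := Subgroup.card_eq_one.mp hW1
  rw [hWdef] at hWbot
  exact (Subgroup.map_eq_bot_iff_of_injective _ (Subgroup.subtype_injective _)).mp hWbot

theorem no_component_normalizer {G : Type*} [Group G] [Finite G] (p : ℕ) [Fact p.Prime]
    (h : generalizedFittingSubgroup G = pCore p G) (P : Subgroup G) (hP : IsPGroup p ↥P)
    (L : Subgroup ↥(Subgroup.normalizer (P : Set G))) (hL : IsComponent L) : False := by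
  set W := L.map (Subgroup.normalizer (P : Set G)).subtype with hWdef
  have hWN : W ≤ Subgroup.normalizer (P : Set G) := Subgroup.map_subtype_le _
  have hperf : ⁅W, W⁆ = W := by
    rw [hWdef, ← Subgroup.map_commutator, comp_perfect hL]
  have key : W ≤ Subgroup.centralizer (pCore p G : Set G) := by
    apply centralizes_pCore_of_le_normalizer p P hP W
    · intro R hR hRN hNR
      have hRn : (R.subgroupOf (Subgroup.normalizer (P : Set G))).Normal :=
        (Subgroup.normal_subgroupOf_iff_le_normalizer hRN).mpr hNR
      have hRf : R.subgroupOf (Subgroup.normalizer (P : Set G)) ≤ fittingSubgroup ↥(Subgroup.normalizer (P : Set G)) :=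
        le_sSup ⟨hRn, (hR.comap_subtype).isNilpotent⟩
      rintro _ ⟨a, ha, rfl⟩
      rw [Subgroup.mem_centralizer_iff]
      intro y hy
      have hb : (⟨y, hRN hy⟩ : ↥(Subgroup.normalizer (P : Set G))) ∈ fittingSubgroup ↥(Subgroup.normalizer (P : Set G)) :=
        hRf (Subgroup.mem_subgroupOf.mpr hy)
      have := commute_of_commutator_eq_bot (comp_commutator_fitting hL) a ha _ hb
      exact (congrArg Subtype.val this).symm
    · exact hWN
    · intro U _ _ hh
      exact star_of_perfect hperf hh
  have hWQ : W ≤ pCore p G := key.trans (centralizer_pCore_le p h)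
  have hWp : IsPGroup p W := (pCore_isPGroup p).to_le hWQ
  have hLp : IsPGroup p L :=
    hWp.of_equiv (L.equivMapOfInjective _ (Subgroup.subtype_injective _)).symm
  have : Group.IsNilpotent ↥L := hLp.isNilpotent
  exact comp_not_solvable hL inferInstance

/-- Let G be finite with F*(G) = O_p(G). Then F*(N) = O_p(N) for N the normalizer of any p-subgroup P of G. -/
theorem result {G : Type*} [Group G] [Finite G] (p : ℕ) [Fact p.Prime] (h : Cfsg.generalizedFittingSubgroup G = Cfsg.pCore p G) (P : Subgroup G) (hP : IsPGroup p ↥P) : Cfsg.generalizedFittingSubgroup ↥(Subgroup.normalizer ((P : Subgroup G) : Set G)) = Cfsg.pCore p ↥(Subgroup.normalizer ((P : Subgroup G) : Set G)) := by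
  have h1 := pPrimeCore_normalizer_eq_bot p h P hP
  have h2 := no_component_normalizer p h P hP
  have hl : layer ↥(Subgroup.normalizer (P : Set G)) = ⊥ := by
    unfold layer
    rw [sSup_eq_bot]
    intro K hK
    exact (h2 K hK).elim
  have hf : fittingSubgroup ↥(Subgroup.normalizer (P : Set G)) =
      pCore p ↥(Subgroup.normalizer (P : Set G)) := by
    apply le_antisymm
    · rw [Helper66.fitting_eq_iSup_pCore]
      apply iSup₂_le
      intro q hq
      by_cases hqp : q = p
      · rw [hqp]
      · have : Fact q.Prime := ⟨hq⟩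
        have hqg : IsPGroup q (pCore q ↥(Subgroup.normalizer (P : Set G))) := pCore_isPGroup q
        obtain ⟨k, hk⟩ := hqg.exists_card_eq
        have hc : (Nat.card (pCore q ↥(Subgroup.normalizer (P : Set G)))).Coprime p := by
          rw [hk]
          exact Nat.Coprime.pow_left k ((Nat.coprime_primes hq (Fact.out : p.Prime)).mpr hqp)
        have := le_pPrimeCore_of_normal (p := p) (inferInstance :
          (pCore q ↥(Subgroup.normalizer (P : Set G))).Normal) hc
        rw [h1] at this
        exact this.trans bot_le
    · exact le_sSup ⟨inferInstance, (pCore_isPGroup p).isNilpotent⟩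
  unfold generalizedFittingSubgroup
  rw [hl, hf, bot_sup_eq]

end Cfsg.Agent.S1268
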