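import Cfsg.Statements.S1273
import Cfsg.Agent.Lib.Helper31.PComp

set_option autoImplicit false
open Cfsg
open scoped commutatorElement
open Cfsg.Agent.Lib.Helper31

namespace Cfsg.Agent.S1273

/-- Let K be a p-component of the finite group X and N a normal subgroup of K whose index in K is prime to p. Then N = K. -/
theorem result {X : Type*} [Group X] [Finite X] (p : ℕ) [Fact p.Prime] (K : Subgroup X) (hK : Cfsg.IsPComponent p K) (N : Subgroup ↥K) [N.Normal] (hidx : (N.index).Coprime p) : N = ⊤ := by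
  have h1 := pcomp_closure_pElts hK
  have h2 : pElts p K ⊆ ((N.map K.subtype : Subgroup X) : Set X) := by
    rintro x ⟨hxK, k, hk⟩
    refine ⟨⟨x, hxK⟩, ?_, rfl⟩
    rw [SetLike.mem_coe, ← QuotientGroup.eq_one_iff]
    have ho1 : orderOf (((⟨x, hxK⟩ : ↥K) : ↥K ⧸ N)) ∣ p ^ k := by
      apply orderOf_dvd_of_pow_eq_one
      rw [← QuotientGroup.mk_pow]
      have : (⟨x, hxK⟩ : ↥K) ^ p ^ k = 1 := Subtype.ext (by simpa using hk)
      rw [this]; rfl
    have ho2 : orderOf (((⟨x, hxK⟩ : ↥K) : ↥K ⧸ N)) ∣ N.index := by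
      rw [Subgroup.index_eq_card]; exact orderOf_dvd_natCard _
    exact orderOf_eq_one_iff.mp
      (Nat.eq_one_of_dvd_coprimes (Nat.Coprime.pow_right k hidx) ho2 ho1)
  have h3 : K ≤ N.map K.subtype := by
    calc K = Subgroup.closure (pElts p K) := h1.symm
      _ ≤ N.map K.subtype := (Subgroup.closure_le _).mpr h2
  rw [eq_top_iff]
  intro y _
  obtain ⟨z, hz, hzy⟩ := h3 y.2
  have : z = y := Subtype.ext hzy
  rwa [← this]

end Cfsg.Agent.S1273
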