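import Cfsg.Statements.S1276
import Cfsg.Agent.Lib.Helper31.PComp
import Cfsg.Agent.Lib.Helper43.PComp3
import Cfsg.Agent.Lib.Helper30.PLayer

set_option autoImplicit false
open Cfsg
open scoped commutatorElement
open Cfsg.Agent.Lib

namespace Cfsg.Agent.S1276

/-- Let K be a 2-component of the finite group X. Then K is quasisimple if and only if ⁅K, O(K)⁆ = 1. -/
theorem result {X : Type*} [Group X] [Finite X] (K : Subgroup X) (hK : Cfsg.IsPComponent 2 K) : Cfsg.IsQuasisimple ↥K ↔ ⁅K, ((Cfsg.oddCore ↥K).map K.subtype)⁆ = ⊥ := by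
  have hperf : Group.IsPerfect ↥K := Subgroup.isPerfect_iff.mpr (Helper43.isPComponent_perfect hK)
  have hOn : (pPrimeCore 2 ↥K).Normal := Helper30.pPrimeCore_normal 2 ↥K
  constructor
  · intro hq
    rcases Helper43.normal_le_center_or_eq_top hq (pPrimeCore 2 ↥K) with h | h
    · rw [Subgroup.commutator_eq_bot_iff_le_centralizer]
      intro k hk
      rw [Subgroup.mem_centralizer_iff]
      rintro _ ⟨z, hz, rfl⟩
      have := Subgroup.mem_center_iff.mp (h hz) ⟨k, hk⟩
      exact (congrArg Subtype.val this).symm
    · exfalso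
      have hc : (Nat.card ↥K).Coprime 2 := by
        have := Helper30.pPrimeCore_coprime (G := ↥K) 2
        rw [h] at this
        rwa [Subgroup.card_top] at this
      exact Helper43.isPComponent_not_le_pPrimeCore hK
        (Helper31.subnormal_coprime_le_pPrimeCore hK.1 hc)
  · intro hc
    apply Helper43.isQuasisimple_of_surjective_central (QuotientGroup.mk' (pPrimeCore 2 ↥K))
      (QuotientGroup.mk'_surjective _) ?_ hperf (Helper43.isQuasisimple_quot_of_isPComponent hK)
    rw [QuotientGroup.ker_mk']
    intro z hz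
    rw [Subgroup.mem_center_iff]
    intro g
    have h1 := (Subgroup.commutator_eq_bot_iff_le_centralizer).mp hc
    have := Subgroup.mem_centralizer_iff.mp (h1 g.2) z ⟨z, hz, rfl⟩
    exact Subtype.ext this.symm

end Cfsg.Agent.S1276
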