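import Cfsg.Statements.S1277
import Cfsg.Agent.Lib.Helper31.PComp
import Cfsg.Agent.Lib.Helper43.PComp3
import Cfsg.Agent.Lib.Helper30.PLayer
import Cfsg.Agent.Lib.Helper29.QS
import Cfsg.Agent.S1272

set_option autoImplicit false
open Cfsg
open scoped commutatorElement
open Cfsg.Agent.Lib

namespace Cfsg.Agent.S1277

/-- For a finite group X with core O(X): the image of E(X) in X / O(X) is all of E(X / O(X)) if and only if every 2-component of X is a component, i.e. L_{2'}(X) ≤ E(X). -/
theorem result {X : Type*} [Group X] [Finite X] : (Cfsg.layer X).map (QuotientGroup.mk' (Cfsg.oddCore X)) = Cfsg.layer (X ⧸ Cfsg.oddCore X) ↔ Cfsg.pLayer 2 X ≤ Cfsg.layer X := by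
  have hp : Nat.Prime 2 := Nat.prime_two
  have : Fact (Nat.Prime 2) := ⟨hp⟩
  have hle : (layer X).map (QuotientGroup.mk' (pPrimeCore 2 X)) ≤
      layer (X ⧸ pPrimeCore 2 X) := by
    rw [Subgroup.map_le_iff_le_comap]
    apply sSup_le
    intro K hK
    rw [← Subgroup.map_le_iff_le_comap]
    by_cases hne : K.map (QuotientGroup.mk' (pPrimeCore 2 X)) = ⊥
    · rw [hne]; exact bot_le
    · exact Helper30.comp_le_layer (Helper29.isComponent_map_of_surjective _
        (QuotientGroup.mk'_surjective _) hK hne)
  constructor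
  · intro h
    apply sSup_le
    intro K hK
    have h1 : K.map (QuotientGroup.mk' (pPrimeCore 2 X)) ≤
        (layer X).map (QuotientGroup.mk' (pPrimeCore 2 X)) := by
      have h2 : K.map (QuotientGroup.mk' (pPrimeCore 2 X)) ≤ layer (X ⧸ pPrimeCore 2 X) :=
        Helper30.comp_le_layer hK.2.1
      exact h2.trans h.ge
    exact Helper43.pcomp_le_of_map_le hp hK (Helper30.layer_normal.isSubnormal) h1
  · intro h
    apply le_antisymm hle
    have h3 := (Cfsg.Agent.S1272.result (X := X) 2).2
    exact h3.ge.trans (Subgroup.map_mono h)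

end Cfsg.Agent.S1277
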