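import Cfsg.Statements.S1279
import Cfsg.Agent.Lib.Helper29.Balance

set_option autoImplicit false
open Cfsg
open scoped commutatorElement
open Cfsg.Agent.Lib

namespace Cfsg.Agent.S1279

theorem le_normalizer_of_conj_mem {G : Type*} [Group G] {C D : Subgroup G}
    (h : ∀ x ∈ C, ∀ d ∈ D, x * d * x⁻¹ ∈ D) : C ≤ Subgroup.normalizer (D : Set G) := by
  intro x hx
  rw [Subgroup.mem_normalizer_iff]
  intro d
  constructor
  · exact h x hx d
  · intro hd
    have := h x⁻¹ (inv_mem hx) _ hd
    have e : x⁻¹ * (x * d * x⁻¹) * x⁻¹⁻¹ = d := by group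
    rwa [e] at this

theorem conj_mem_theta {G : Type*} [Group G] (p : ℕ) (a c : G)
    (hc : c ∈ Subgroup.centralizer ({a} : Set G)) (t : G)
    (ht : t ∈ centralizerPPrimeCore p a) : c * t * c⁻¹ ∈ centralizerPPrimeCore p a := by
  obtain ⟨y, hy, rfl⟩ := ht
  have hn : (pPrimeCore p ↥(Subgroup.centralizer ({a} : Set G))).Normal :=
    Helper30.pPrimeCore_normal p _
  exact ⟨⟨c, hc⟩ * y * ⟨c, hc⟩⁻¹, hn.conj_mem y hy ⟨c, hc⟩, rfl⟩

/-- Let A be a noncyclic elementary abelian p-subgroup of the finite group G such that C_G(a) is solvable for every non-identity a ∈ A. Then a ↦ O_{p'}(C_G(a)) is a solvable A-signalizer functor on G. -/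
theorem result {G : Type*} [Group G] [Finite G] (p : ℕ) [Fact p.Prime] (A : Subgroup G) (hA : Cfsg.IsElementaryAbelian p A) (hA2 : p ^ 2 ≤ Nat.card ↥A) (hsolv : ∀ a ∈ A, a ≠ 1 → Group.IsSolvable ↥(Subgroup.centralizer ({a} : Set G))) : Cfsg.IsSolvableSignalizerFunctor p A (fun a => Cfsg.centralizerPPrimeCore p a) := by
  have hcomm : ∀ x ∈ A, ∀ y ∈ A, x * y = y * x := by
    intro x hx y hy
    have := hA.1
    exact congrArg Subtype.val (mul_comm' (⟨x, hx⟩ : ↥A) ⟨y, hy⟩)
  have hAC : ∀ a ∈ A, ∀ b ∈ A, b ∈ Subgroup.centralizer ({a} : Set G) := by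
    intro a ha b hb
    rw [Subgroup.mem_centralizer_iff]
    intro h hh
    rw [Set.mem_singleton_iff] at hh
    subst hh
    exact hcomm h ha b hb
  have hcard : ∀ a : G, (Nat.card (centralizerPPrimeCore p a)).Coprime p := by
    intro a
    unfold centralizerPPrimeCore
    rw [Subgroup.card_map_of_injective (Subgroup.subtype_injective _)]
    exact Helper30.pPrimeCore_coprime p
  refine ⟨⟨?_, ?_, ?_, ?_⟩, ?_⟩
  · intro a _ _
    exact Subgroup.map_subtype_le _
  · intro a _ _ hdvd
    have := hcard a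
    rw [Nat.coprime_comm, Nat.Prime.coprime_iff_not_dvd (Fact.out : p.Prime)] at this
    exact this hdvd
  · intro a ha _ b hb x hx
    exact conj_mem_theta p a b (hAC a ha b hb) x hx
  · intro a ha ha1 b hb hb1 g hg
    obtain ⟨hg1, hg2⟩ := Subgroup.mem_inf.mp hg
    have hs : Group.IsSolvable ↥(Subgroup.centralizer ({b} : Set G)) := hsolv b hb hb1
    have hab : a ∈ Subgroup.centralizer ({b} : Set G) := hAC b hb a ha
    have hB : IsPGroup p (Subgroup.zpowers (⟨a, hab⟩ : ↥(Subgroup.centralizer ({b} : Set G)))) := by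
      rintro ⟨x, hx⟩
      obtain ⟨k, rfl⟩ := Subgroup.mem_zpowers_iff.mp hx
      refine ⟨1, Subtype.ext ?_⟩
      have hap : (⟨a, hab⟩ : ↥(Subgroup.centralizer ({b} : Set G))) ^ p = 1 :=
        Subtype.ext (by simpa using hA.2 a ha)
      show ((⟨a, hab⟩ : ↥(Subgroup.centralizer ({b} : Set G))) ^ k) ^ p ^ 1 = 1
      rw [pow_one, ← zpow_natCast, ← zpow_mul, mul_comm, zpow_mul, zpow_natCast, hap, one_zpow]
    have hD := Helper29.le_pPrimeCore_of_solvable p hs
      (Subgroup.zpowers (⟨a, hab⟩ : ↥(Subgroup.centralizer ({b} : Set G)))) hB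
      ((centralizerPPrimeCore p a).subgroupOf (Subgroup.centralizer ({b} : Set G))) ?_ ?_ ?_
    · have hmem : (⟨g, hg2⟩ : ↥(Subgroup.centralizer ({b} : Set G))) ∈
          (centralizerPPrimeCore p a).subgroupOf (Subgroup.centralizer ({b} : Set G)) :=
        Subgroup.mem_subgroupOf.mpr hg1
      exact ⟨⟨g, hg2⟩, hD hmem, rfl⟩
    · intro d hd
      rw [Subgroup.mem_centralizer_iff]
      intro h hh
      obtain ⟨k, rfl⟩ := Subgroup.mem_zpowers_iff.mp hh
      have hd1 : (d : G) ∈ Subgroup.centralizer ({a} : Set G) :=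
        Subgroup.map_subtype_le _ (Subgroup.mem_subgroupOf.mp hd)
      have hc : Commute (⟨a, hab⟩ : ↥(Subgroup.centralizer ({b} : Set G))) d :=
        Subtype.ext (Subgroup.mem_centralizer_iff.mp hd1 a (Set.mem_singleton a))
      exact (hc.zpow_left k).eq
    · have hle : Nat.card ((centralizerPPrimeCore p a).subgroupOf
          (Subgroup.centralizer ({b} : Set G))) ∣ Nat.card (centralizerPPrimeCore p a) := by
        rw [← Subgroup.card_map_of_injective (Subgroup.subtype_injective
          (Subgroup.centralizer ({b} : Set G)))]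
        apply Subgroup.card_dvd_of_le
        rintro _ ⟨d, hd, rfl⟩
        exact Subgroup.mem_subgroupOf.mp hd
      exact Nat.Coprime.coprime_dvd_left hle (hcard a)
    · apply le_normalizer_of_conj_mem
      intro x hx d hd
      rw [Subgroup.mem_subgroupOf] at hd ⊢
      have hxa : (x : G) ∈ Subgroup.centralizer ({a} : Set G) := by
        rw [Subgroup.mem_centralizer_iff]
        intro h hh
        rw [Set.mem_singleton_iff] at hh
        subst hh
        have := Subgroup.mem_centralizer_iff.mp hx ⟨h, hab⟩ (Subgroup.mem_zpowers _)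
        exact congrArg Subtype.val this
      exact conj_mem_theta p a x hxa d hd
  · intro a ha ha1
    have hs : Group.IsSolvable ↥(Subgroup.centralizer ({a} : Set G)) := hsolv a ha ha1
    have h1 : Group.IsSolvable ↥(pPrimeCore p ↥(Subgroup.centralizer ({a} : Set G))) :=
      inferInstance
    exact Group.isSolvable_of_surjective
      (f := ((pPrimeCore p ↥(Subgroup.centralizer ({a} : Set G))).equivMapOfInjective
        (Subgroup.centralizer ({a} : Set G)).subtype (Subgroup.subtype_injective _)).toMonoidHom)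
      (MulEquiv.surjective _)

end Cfsg.Agent.S1279
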