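import Cfsg.Statements.S1280
import Mathlib

set_option autoImplicit false
open Cfsg

namespace Cfsg.Agent.S1280

theorem exists_fixed_conj {G : Type*} [Group G] {p : ℕ} [Fact p.Prime] (a : G) (ha : a ^ p = 1)
    (T : Set G) (hfin : T.Finite) (hT : ∀ t ∈ T, a * t * a⁻¹ ∈ T) (hcard : ¬ p ∣ Nat.card T) :
    ∃ t ∈ T, a * t * a⁻¹ = t := by
  classical
  have : Fintype T := hfin.fintype
  let f : T → T := fun t => ⟨a * t.1 * a⁻¹, hT t.1 t.2⟩
  have hinj : Function.Injective f := by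
    intro s t h
    have := congrArg Subtype.val h
    simp only [f] at this
    exact Subtype.ext (by simpa using this)
  have hbij : Function.Bijective f := ⟨hinj, Finite.injective_iff_surjective.mp hinj⟩
  let σ : Equiv.Perm T := Equiv.ofBijective f hbij
  have hpow : ∀ (k : ℕ) (t : T), ((σ ^ k) t).1 = a ^ k * t.1 * (a ^ k)⁻¹ := by
    intro k
    induction k with
    | zero => intro t; simp
    | succ k ih =>
      intro t
      rw [pow_succ', Equiv.Perm.mul_apply]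
      show a * ((σ ^ k) t).1 * a⁻¹ = _
      rw [ih, pow_succ']
      group
  have hσ : σ ^ p ^ 1 = 1 := by
    ext t
    rw [pow_one, hpow, ha]
    simp
  have hcard' : ¬ p ∣ Fintype.card T := by rwa [← Nat.card_eq_fintype_card]
  obtain ⟨t, ht⟩ := Equiv.Perm.exists_fixed_point_of_prime hcard' hσ
  exact ⟨t.1, t.2, congrArg Subtype.val ht⟩

theorem quot_surj {G : Type*} [Group G] (X Y : Subgroup G)
    (hn : Y ≤ Subgroup.normalizer (X : Set G)) [hN : (X.subgroupOf (Y ⊔ X)).Normal] :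
    Function.Surjective ((QuotientGroup.mk' (X.subgroupOf (Y ⊔ X))).comp
      (Subgroup.inclusion (le_sup_left : Y ≤ Y ⊔ X))) := by
  intro q
  induction q using QuotientGroup.induction_on with
  | H k =>
    have hk : (k : G) ∈ ((Y ⊔ X : Subgroup G) : Set G) := k.2
    rw [Subgroup.coe_mul_of_left_le_normalizer_right Y X hn] at hk
    obtain ⟨y, hy, x, hx, hyx⟩ := hk
    refine ⟨⟨y, hy⟩, ?_⟩
    simp only [MonoidHom.coe_comp, Function.comp_apply, QuotientGroup.mk'_apply]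
    rw [QuotientGroup.eq, Subgroup.mem_subgroupOf]
    have : ((((Subgroup.inclusion (le_sup_left : Y ≤ Y ⊔ X)) ⟨y, hy⟩)⁻¹ * k : ↥(Y ⊔ X)) : G) = x := by
      simp only [Subgroup.coe_mul, Subgroup.coe_inv, Subgroup.coe_inclusion]
      rw [← hyx]; group
    rw [this]; exact hx

theorem sup_solvable {G : Type*} [Group G] (X Y : Subgroup G)
    (hn : Y ≤ Subgroup.normalizer (X : Set G)) (hX : Group.IsSolvable X) (hY : Group.IsSolvable Y) :
    Group.IsSolvable ↥(Y ⊔ X) := by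
  have : (X.subgroupOf (Y ⊔ X)).Normal := Subgroup.normal_subgroupOf_sup_of_le_normalizer hn
  have : Group.IsSolvable ((Y ⊔ X : Subgroup G) ⧸ X.subgroupOf (Y ⊔ X)) :=
    Group.isSolvable_of_surjective (quot_surj X Y hn)
  refine Group.isSolvable_of_ker_le_range (Subgroup.inclusion (le_sup_right : X ≤ Y ⊔ X))
    (QuotientGroup.mk' (X.subgroupOf (Y ⊔ X))) ?_
  rw [QuotientGroup.ker_mk']
  intro k hk
  exact ⟨⟨k.1, hk⟩, rfl⟩

theorem sup_card_dvd {G : Type*} [Group G] [Finite G] (X Y : Subgroup G)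
    (hn : Y ≤ Subgroup.normalizer (X : Set G)) :
    Nat.card ↥(Y ⊔ X) ∣ Nat.card X * Nat.card Y := by
  have : (X.subgroupOf (Y ⊔ X)).Normal := Subgroup.normal_subgroupOf_sup_of_le_normalizer hn
  have h1 : Nat.card (X.subgroupOf (Y ⊔ X)) * (X.subgroupOf (Y ⊔ X)).index = Nat.card ↥(Y ⊔ X) :=
    Subgroup.card_mul_index _
  have h2 : Nat.card (X.subgroupOf (Y ⊔ X)) = Nat.card X :=
    Nat.card_congr (Subgroup.subgroupOfEquivOfLe (le_sup_right : X ≤ Y ⊔ X)).toEquiv
  have h3 : (X.subgroupOf (Y ⊔ X)).index ∣ Nat.card Y := by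
    rw [Subgroup.index]
    exact Subgroup.card_dvd_of_surjective _ (quot_surj X Y hn)
  rw [← h1, h2]
  exact Nat.mul_dvd_mul_left _ h3

/-- Let θ be a solvable A-signalizer functor (A a noncyclic elementary abelian p-subgroup of the finite group G), and X, Y members of its family with Y ≤ N_G(X). Then X ⊔ Y (= XY) is again in the family. -/
theorem result {G : Type*} [Group G] [Finite G] (p : ℕ) [Fact p.Prime] (A : Subgroup G) (hA : Cfsg.IsElementaryAbelian p A) (hA2 : p ^ 2 ≤ Nat.card ↥A) (θ : G → Subgroup G) (hθ : Cfsg.IsSolvableSignalizerFunctor p A θ) (X Y : Subgroup G) (hX : X ∈ Cfsg.signalizerFamily p A θ) (hY : Y ∈ Cfsg.signalizerFamily p A θ) (hn : Y ≤ Subgroup.normalizer (X : Set G)) : X ⊔ Y ∈ Cfsg.signalizerFamily p A θ := by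
  obtain ⟨sX, pX, iX, cX⟩ := hX
  obtain ⟨sY, pY, iY, cY⟩ := hY
  have hmul : ∀ g ∈ X ⊔ Y, ∃ x ∈ X, ∃ y ∈ Y, x * y = g := by
    intro g hg
    have hg' : g ∈ ((X ⊔ Y : Subgroup G) : Set G) := hg
    rw [Subgroup.coe_mul_of_right_le_normalizer_left X Y hn] at hg'
    obtain ⟨x, hx, y, hy, h⟩ := hg'
    exact ⟨x, hx, y, hy, h⟩
  refine ⟨?_, ?_, ?_, ?_⟩
  · rw [sup_comm]; exact sup_solvable X Y hn sX sY
  · rw [sup_comm]
    intro hdvd
    have h1 := hdvd.trans (sup_card_dvd X Y hn)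
    rcases (Nat.Prime.dvd_mul (Fact.out : p.Prime)).mp h1 with h | h
    · exact pX h
    · exact pY h
  · intro b hb u hu
    obtain ⟨x, hx, y, hy, rfl⟩ := hmul u hu
    have : b * (x * y) * b⁻¹ = (b * x * b⁻¹) * (b * y * b⁻¹) := by group
    rw [this]
    exact mul_mem (Subgroup.mem_sup_left (iX b hb x hx)) (Subgroup.mem_sup_right (iY b hb y hy))
  · intro a ha ha1 g hg
    obtain ⟨hg1, hg2⟩ := Subgroup.mem_inf.mp hg
    obtain ⟨x, hx, y, hy, rfl⟩ := hmul g hg1
    have hcomm : a * (x * y) * a⁻¹ = x * y := by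
      have := Subgroup.mem_centralizer_iff.mp hg2 a (Set.mem_singleton a)
      rw [this]; group
    -- m₀ = (a y a⁻¹) y⁻¹ ∈ X ⊓ Y
    have hm0 : (a * y * a⁻¹) * y⁻¹ ∈ X ⊓ Y := by
      refine Subgroup.mem_inf.mpr ⟨?_, mul_mem (iY a ha y hy) (inv_mem hy)⟩
      have : (a * y * a⁻¹) * y⁻¹ = (a * x * a⁻¹)⁻¹ * (a * (x * y) * a⁻¹) * y⁻¹ := by group
      rw [this, hcomm]
      have : (a * x * a⁻¹)⁻¹ * (x * y) * y⁻¹ = (a * x * a⁻¹)⁻¹ * x := by group
      rw [this]
      exact mul_mem (inv_mem (iX a ha x hx)) hx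
    let T : Set G := (fun u => u * y) '' ((X ⊓ Y : Subgroup G) : Set G)
    have hTfin : T.Finite := Set.toFinite T
    have hTcard : ¬ p ∣ Nat.card T := by
      have : Nat.card T = Nat.card (X ⊓ Y : Subgroup G) :=
        Nat.card_image_of_injective (mul_left_injective y) _
      rw [this]
      intro hdvd
      exact pX (hdvd.trans (Subgroup.card_dvd_of_le inf_le_left))
    have hTinv : ∀ t ∈ T, a * t * a⁻¹ ∈ T := by
      rintro _ ⟨u, hu, rfl⟩
      obtain ⟨hu1, hu2⟩ := Subgroup.mem_inf.mp hu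
      refine ⟨(a * u * a⁻¹) * ((a * y * a⁻¹) * y⁻¹), ?_, by group⟩
      exact mul_mem (Subgroup.mem_inf.mpr ⟨iX a ha u hu1, iY a ha u hu2⟩) hm0
    obtain ⟨t, ⟨u, hu, rfl⟩, ht⟩ := exists_fixed_conj a (hA.2 a ha) T hTfin hTinv hTcard
    obtain ⟨hu1, hu2⟩ := Subgroup.mem_inf.mp hu
    have hcent : ∀ w : G, a * w * a⁻¹ = w → w ∈ Subgroup.centralizer {a} := by
      intro w hw
      rw [Subgroup.mem_centralizer_iff]
      intro h hh
      rw [Set.mem_singleton_iff] at hh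
      subst hh
      calc h * w = (h * w * h⁻¹) * h := by group
        _ = w * h := by rw [hw]
    have h1 : u * y ∈ θ a := cY a ha ha1 (Subgroup.mem_inf.mpr ⟨mul_mem hu2 hy, hcent _ ht⟩)
    have h2 : x * u⁻¹ ∈ θ a := by
      apply cX a ha ha1
      refine Subgroup.mem_inf.mpr ⟨mul_mem hx (inv_mem hu1), hcent _ ?_⟩
      have e1 : x * u⁻¹ = (x * y) * (u * y)⁻¹ := by group
      have e2 : a * ((x * y) * (u * y)⁻¹) * a⁻¹ = (a * (x * y) * a⁻¹) * (a * (u * y) * a⁻¹)⁻¹ := by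
        group
      rw [e1, e2, hcomm, ht]
    have : x * y = (x * u⁻¹) * (u * y) := by group
    rw [this]
    exact mul_mem h2 h1

end Cfsg.Agent.S1280
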