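import Cfsg.Statements.S1281
import Mathlib

set_option autoImplicit false
open Cfsg

namespace Cfsg.Agent.S1281

theorem exists_fixed_conj {G : Type*} [Group G] {p : ℕ} [Fact p.Prime] (a : G) (ha : a ^ p = 1)
    (T : Set G) (hfin : T.Finite) (hT : ∀ t ∈ T, a * t * a⁻¹ ∈ T) (hcard : ¬ p ∣ Nat.card T) :
    ∃ t ∈ T, a * t * a⁻¹ = t := by
  classical
  have : Fintype T := hfin.fintype
  let f : T → T := fun t => ⟨a * t.1 * a⁻¹, hT t.1 t.2⟩
  have hinj : Function.Injective f := by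
    intro s t h
    have := congrArg Subtype.val h
    simp only [f] at this
    exact Subtype.ext (by simpa using this)
  have hbij : Function.Bijective f := ⟨hinj, Finite.injective_iff_surjective.mp hinj⟩
  let σ : Equiv.Perm T := Equiv.ofBijective f hbij
  have hpow : ∀ (k : ℕ) (t : T), ((σ ^ k) t).1 = a ^ k * t.1 * (a ^ k)⁻¹ := by
    intro k
    induction k with
    | zero => intro t; simp
    | succ k ih =>
      intro t
      rw [pow_succ', Equiv.Perm.mul_apply]
      show a * ((σ ^ k) t).1 * a⁻¹ = _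
      rw [ih, pow_succ']
      group
  have hσ : σ ^ p ^ 1 = 1 := by
    ext t
    rw [pow_one, hpow, ha]
    simp
  have hcard' : ¬ p ∣ Fintype.card T := by rwa [← Nat.card_eq_fintype_card]
  obtain ⟨t, ht⟩ := Equiv.Perm.exists_fixed_point_of_prime hcard' hσ
  exact ⟨t.1, t.2, congrArg Subtype.val ht⟩

/-- Let θ be a solvable A-signalizer functor on the finite group G (A a noncyclic elementary abelian p-subgroup) and N a normal subgroup of order prime to p. Then for all non-identity a, b ∈ A, the image of θ a in G / N meets the centralizer of the image of b inside the image of θ b. -/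
theorem result {G : Type*} [Group G] [Finite G] (p : ℕ) [Fact p.Prime] (A : Subgroup G) (hA : Cfsg.IsElementaryAbelian p A) (hA2 : p ^ 2 ≤ Nat.card ↥A) (θ : G → Subgroup G) (hθ : Cfsg.IsSolvableSignalizerFunctor p A θ) (N : Subgroup G) [N.Normal] (hN : ¬ p ∣ Nat.card ↥N) (a b : G) (ha : a ∈ A) (ha1 : a ≠ 1) (hb : b ∈ A) (hb1 : b ≠ 1) : (θ a).map (QuotientGroup.mk' N) ⊓ Subgroup.centralizer {QuotientGroup.mk' N b} ≤ (θ b).map (QuotientGroup.mk' N) := by
  obtain ⟨⟨h1, h2, h3, h4⟩, -⟩ := hθ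
  rintro _ ⟨⟨x, hx, rfl⟩, hx2⟩
  have hx2' : x⁻¹ * (b * x * b⁻¹) ∈ N := by
    have := Subgroup.mem_centralizer_iff.mp hx2 _ (Set.mem_singleton _)
    simp only [QuotientGroup.mk'_apply] at this
    rw [← QuotientGroup.mk_mul, ← QuotientGroup.mk_mul, QuotientGroup.eq] at this
    have h5 : x⁻¹ * (b * x * b⁻¹) = b * ((b * x)⁻¹ * (x * b))⁻¹ * b⁻¹ := by group
    rw [h5]
    exact (inferInstance : N.Normal).conj_mem _ (inv_mem this) b
  let T : Set G := (fun u => x * u) '' ((θ a ⊓ N : Subgroup G) : Set G)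
  have hTfin : T.Finite := Set.toFinite T
  have hTcard : ¬ p ∣ Nat.card T := by
    have : Nat.card T = Nat.card (θ a ⊓ N : Subgroup G) :=
      Nat.card_image_of_injective (mul_right_injective x) _
    rw [this]
    intro hdvd
    exact h2 a ha ha1 (hdvd.trans (Subgroup.card_dvd_of_le inf_le_left))
  have hTinv : ∀ t ∈ T, b * t * b⁻¹ ∈ T := by
    rintro _ ⟨u, hu, rfl⟩
    obtain ⟨hu1, hu2⟩ := Subgroup.mem_inf.mp hu
    refine ⟨x⁻¹ * (b * (x * u) * b⁻¹), Subgroup.mem_inf.mpr ⟨?_, ?_⟩, by group⟩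
    · exact mul_mem (inv_mem hx) (h3 a ha ha1 b hb _ (mul_mem hx hu1))
    · have h7 : x⁻¹ * (b * (x * u) * b⁻¹) = (x⁻¹ * (b * x * b⁻¹)) * (b * u * b⁻¹) := by group
      rw [h7]
      exact mul_mem hx2' ((inferInstance : N.Normal).conj_mem _ hu2 b)
  obtain ⟨t, ⟨u, hu, rfl⟩, ht⟩ := exists_fixed_conj b (hA.2 b hb) T hTfin hTinv hTcard
  obtain ⟨hu1, hu2⟩ := Subgroup.mem_inf.mp hu
  have hmem : x * u ∈ θ b := by
    apply h4 a ha ha1 b hb hb1
    refine Subgroup.mem_inf.mpr ⟨mul_mem hx hu1, ?_⟩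
    rw [Subgroup.mem_centralizer_iff]
    intro h hh
    rw [Set.mem_singleton_iff] at hh
    subst hh
    calc h * (x * u) = (h * (x * u) * h⁻¹) * h := by group
      _ = x * u * h := by rw [ht]
  refine ⟨x * u, hmem, ?_⟩
  simp only [QuotientGroup.mk'_apply]
  rw [QuotientGroup.eq]
  have : (x * u)⁻¹ * x = u⁻¹ := by group
  rw [this]
  exact inv_mem hu2

end Cfsg.Agent.S1281
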