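-- Statement S1284: consequences of the Transitivity Theorem (Sylow intersections).
import Cfsg.Statements.S1284
import Mathlib
import Cfsg.Agent.Lib.Helper30.Transitivity

set_option autoImplicit false
open Cfsg

namespace Cfsg.Agent.S1284

open Subgroup Cfsg.Agent.Lib.Helper30

theorem result {G : Type*} [Group G] [Finite G] (p : ℕ) [Fact p.Prime] (A : Subgroup G) (hA : Cfsg.IsElementaryAbelian p A) (hA3 : p ^ 3 ≤ Nat.card ↥A) (θ : G → Subgroup G) (hθ : Cfsg.IsSolvableSignalizerFunctor p A θ) (q : ℕ) [Fact q.Prime] (hq : ∃ a ∈ A, a ≠ 1 ∧ q ∣ Nat.card ↥(θ a)) (Q : Subgroup G) (hQW : Q ∈ Cfsg.signalizerFamily p A θ) (hQq : IsPGroup q ↥Q) (hQmax : ∀ R ∈ Cfsg.signalizerFamily p A θ, IsPGroup q ↥R → Q ≤ R → R = Q) : (∀ H : Subgroup G, H ∈ Cfsg.signalizerFamily p A θ → ∃ c ∈ Cfsg.signalizerInf A θ, ∃ S : Sylow q ↥H, (S : Subgroup ↥H).map H.subtype = Q.map (MulAut.conj c).toMonoidHom ⊓ H) ∧ (∀ B : Subgroup G, B ≤ A → B ≠ ⊥ → ∃ S : Sylow q ↥(Cfsg.signalizerInf B θ), (S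 : Subgroup ↥(Cfsg.signalizerInf B θ)).map (Cfsg.signalizerInf B θ).subtype = Q ⊓ Subgroup.centralizer (B : Set G)) := by
  obtain ⟨a₀, ha₀, ha₀1, hqa⟩ := hq
  have hqp : q ≠ p := by
    intro h
    rw [h] at hqa
    exact hθ.1.2.1 a₀ ha₀ ha₀1 hqa
  have hQ : IsMaxSig p A θ q Q := ⟨hQW, hQq, hQmax⟩
  have hsolvA : Group.IsSolvable A := isSolvable_of_elemAb hA
  have hAQ : A ≤ normalizer (Q : Set G) := le_normalizer_of_conj_mem hQW.2.2.1
  constructor
  · intro H hH
    have hAH : A ≤ normalizer (H : Set G) := le_normalizer_of_conj_mem hH.2.2.1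
    have hcop : (Nat.card A).Coprime (Nat.card H) := coprime_of_elemAb hA hH.2.1
    obtain ⟨P, hAP⟩ := Cfsg.Agent.Lib.Helper1.exists_invariant_sylow hAH hcop (Or.inl hsolvA) q
    have hSH : (P : Subgroup H).map H.subtype ≤ H := by
      rintro _ ⟨x, _, rfl⟩; exact x.2
    have hSfam := signalizerFamily_of_le hH hSH hAP
    have hSq : IsPGroup q ((P : Subgroup H).map H.subtype : Subgroup G) := P.2.map _
    obtain ⟨R, hR, hSR⟩ := exists_isMaxSig_ge hSfam hSq
    obtain ⟨c, hc, hcQ⟩ := transitivity hA hA3 hθ hqp hQ hR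
    refine ⟨c, hc, P, ?_⟩
    have hle : (P : Subgroup H) ≤ (R ⊓ H).subgroupOf H := by
      intro x hx
      rw [mem_subgroupOf]
      exact mem_inf.mpr ⟨hSR (mem_map_of_mem _ hx), x.2⟩
    have hq' : IsPGroup q ((R ⊓ H).subgroupOf H) := (hR.2.1.to_le inf_le_left).comap_subtype
    have h1 := P.is_maximal' hq' hle
    rw [hcQ, ← h1, Subgroup.map_subgroupOf_eq_of_le inf_le_right]
  · intro B hBA hB
    obtain ⟨⟨b₀, hb₀⟩, hb₀1'⟩ := Subgroup.ne_bot_iff_exists_ne_one.mp hB
    have hb₀1 : b₀ ≠ 1 := fun h => hb₀1' (Subtype.ext h)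
    have hTθ : ∀ b ∈ B, b ≠ 1 → signalizerInf B θ ≤ θ b := fun b hb hb1 => signalizerInf_le hb hb1
    have hAT : A ≤ normalizer ((signalizerInf B θ : Subgroup G) : Set G) := by
      apply le_normalizer_of_conj_mem
      intro a ha x hx
      unfold signalizerInf at hx ⊢
      rw [mem_iInf] at hx ⊢
      rintro ⟨b, hb, hb1⟩
      exact hθ.1.2.2.1 b (hBA hb) hb1 a ha x (hx ⟨b, hb, hb1⟩)
    have hTfam : signalizerInf B θ ∈ signalizerFamily p A θ := by
      refine signalizerFamily_of_le (theta_mem_signalizerFamily hθ (hBA hb₀) hb₀1)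
        (hTθ b₀ hb₀ hb₀1) hAT
    have hTB : signalizerInf B θ ≤ centralizer (B : Set G) := by
      intro x hx
      rw [mem_centralizer_iff]
      intro b hb
      by_cases hb1 : b = 1
      · rw [hb1, one_mul, mul_one]
      · exact mem_centralizer_iff.mp (hθ.1.1 b (hBA hb) hb1 (hTθ b hb hb1 hx)) b rfl
    have hcop : (Nat.card A).Coprime (Nat.card (signalizerInf B θ)) :=
      coprime_of_elemAb hA hTfam.2.1
    have hQBT : Q ⊓ centralizer (B : Set G) ≤ signalizerInf B θ := by
      intro x hx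
      unfold signalizerInf
      rw [mem_iInf]
      rintro ⟨b, hb, hb1⟩
      apply hQW.2.2.2 b (hBA hb) hb1
      refine mem_inf.mpr ⟨(mem_inf.mp hx).1, ?_⟩
      exact Subgroup.centralizer_le (Set.singleton_subset_iff.mpr hb) (mem_inf.mp hx).2
    have hAB : A ≤ normalizer ((centralizer (B : Set G) : Subgroup G) : Set G) := by
      intro a ha
      apply normalizer_le_normalizer_centralizer
      apply Subgroup.centralizer_le_normalizer
      rw [Subgroup.mem_centralizer_iff]
      intro h hh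
      exact congrArg Subtype.val (hA.1.is_comm.comm ⟨h, hBA hh⟩ ⟨a, ha⟩)
    have hAQB : A ≤ normalizer ((Q ⊓ centralizer (B : Set G) : Subgroup G) : Set G) :=
      fun a ha => normalizer_inf_le _ _ (mem_inf.mpr ⟨hAQ ha, hAB ha⟩)
    obtain ⟨P, hQP, hAP⟩ := Cfsg.Agent.Lib.Helper1.invariant_pgroup_le_invariant_sylow hAT hcop
      (Or.inl hsolvA) q _ hQBT (hQq.to_le inf_le_left) hAQB
    have hST : (P : Subgroup (signalizerInf B θ)).map (signalizerInf B θ).subtype
        ≤ signalizerInf B θ := by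
      rintro _ ⟨x, _, rfl⟩; exact x.2
    have hSfam := signalizerFamily_of_le hTfam hST hAP
    have hSq : IsPGroup q ((P : Subgroup (signalizerInf B θ)).map (signalizerInf B θ).subtype
        : Subgroup G) := P.2.map _
    obtain ⟨R, hR, hSR⟩ := exists_isMaxSig_ge hSfam hSq
    obtain ⟨c, hc, hcQ⟩ := transitivity hA hA3 hθ hqp hQ hR
    have hcA := mem_centralizer_iff.mp (signalizerInf_le_centralizer hθ.1 hc)
    have himg : (fun s => c * s * c⁻¹) '' (B : Set G) = (B : Set G) := by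
      have h1 : ∀ s ∈ (B : Set G), c * s * c⁻¹ = id s := by
        intro s hs
        rw [← hcA s (hBA hs), mul_inv_cancel_right]
        rfl
      rw [Set.image_congr h1, Set.image_id]
    have hmap : (Q ⊓ centralizer (B : Set G)).map (MulAut.conj c).toMonoidHom
        = R ⊓ centralizer (B : Set G) := by
      rw [Subgroup.map_inf _ _ _ (MulAut.conj c).injective, hcQ, map_conj_centralizer_set, himg]
    have hSle : (P : Subgroup (signalizerInf B θ)).map (signalizerInf B θ).subtype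
        ≤ R ⊓ centralizer (B : Set G) := le_inf hSR (le_trans hST hTB)
    have hcard : Nat.card ((P : Subgroup (signalizerInf B θ)).map (signalizerInf B θ).subtype
        : Subgroup G) ≤ Nat.card (Q ⊓ centralizer (B : Set G) : Subgroup G) := by
      have h1 := Subgroup.card_le_of_le hSle
      rw [← hmap, card_map_equiv] at h1
      exact h1
    exact ⟨P, (Subgroup.eq_of_le_of_card_ge hQP hcard).symm⟩

end Cfsg.Agent.S1284
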