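-- Statement S1285: a solvable signalizer functor with all θ(a) q-groups is complete (rank >= 3).
import Cfsg.Statements.S1285
import Mathlib
import Cfsg.Agent.Lib.Helper30.Transitivity

set_option autoImplicit false
open Cfsg

namespace Cfsg.Agent.S1285

open Subgroup Cfsg.Agent.Lib.Helper30

theorem result {G : Type*} [Group G] [Finite G] (p : ℕ) [Fact p.Prime] (A : Subgroup G) (hA : Cfsg.IsElementaryAbelian p A) (hA3 : p ^ 3 ≤ Nat.card ↥A) (θ : G → Subgroup G) (hθ : Cfsg.IsSolvableSignalizerFunctor p A θ) (q : ℕ) [Fact q.Prime] (hq : ∀ a ∈ A, a ≠ 1 → IsPGroup q ↥(θ a)) : Cfsg.IsCompleteSignalizerFunctor p A θ := by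
  have hp := (Fact.out : p.Prime)
  refine ⟨hθ.1, ?_⟩
  by_cases hqp : q = p
  · -- all θ a are trivial
    refine ⟨⊥, ?_, ?_, ?_⟩
    · intro b _ u hu
      rw [Subgroup.mem_bot] at hu ⊢
      rw [hu, mul_one, mul_inv_cancel]
    · rw [Subgroup.card_bot]
      exact hp.one_lt.ne' ∘ Nat.dvd_one.mp
    · intro a ha ha1
      rw [bot_inf_eq]
      symm
      have h1 := hq a ha ha1
      rw [hqp] at h1
      obtain ⟨n, hn⟩ := IsPGroup.iff_card.mp h1
      have h2 := hθ.1.2.1 a ha ha1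
      rw [hn] at h2
      have hn0 : n = 0 := by
        by_contra h
        exact h2 (dvd_pow_self p h)
      rw [hn0, pow_zero] at hn
      exact Subgroup.card_eq_one.mp hn
  · obtain ⟨Q, hQ, -⟩ := exists_isMaxSig_ge (p := p) (q := q) (A := A) (θ := θ)
      bot_mem_signalizerFamily (IsPGroup.of_bot)
    refine ⟨Q, hQ.1.2.2.1, hQ.1.2.1, ?_⟩
    intro a ha ha1
    apply le_antisymm (hQ.1.2.2.2 a ha ha1)
    refine le_inf ?_ (hθ.1.1 a ha ha1)
    obtain ⟨R, hR, hθR⟩ := exists_isMaxSig_ge (theta_mem_signalizerFamily hθ ha ha1) (hq a ha ha1)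
    obtain ⟨c, hc, hcQ⟩ := transitivity hA hA3 hθ hqp hQ hR
    have hca : c ∈ θ a := signalizerInf_le ha ha1 hc
    intro x hx
    have h1 : c * x * c⁻¹ ∈ Q.map (MulAut.conj c).toMonoidHom := by
      rw [hcQ]
      exact hθR ((θ a).mul_mem ((θ a).mul_mem hca hx) ((θ a).inv_mem hca))
    obtain ⟨y, hy, hyx⟩ := h1
    simp only [MulEquiv.coe_toMonoidHom, MulAut.conj_apply] at hyx
    have h2 : y = x := mul_left_cancel (mul_right_cancel hyx)
    rw [← h2]
    exact hy

end Cfsg.Agent.S1285
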