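import Cfsg.Statements.S1286

set_option autoImplicit false
open Cfsg

namespace Cfsg.Agent.S1286

/-- Local abbreviation for the symmetric group on five letters. -/
abbrev S5 := Equiv.Perm (Fin 5)

/-- The transposition `(0 1)`. -/
def ea : S5 := Equiv.swap 0 1
/-- The transposition `(2 3)`. -/
def eb : S5 := Equiv.swap 2 3
/-- The 3-cycle `(2 3 4)`. -/
def eg : S5 := Equiv.swap 2 3 * Equiv.swap 3 4
/-- The 3-cycle `(0 1 4)`. -/
def eh : S5 := Equiv.swap 0 1 * Equiv.swap 1 4

/-- The four-group `⟨(0 1), (2 3)⟩`. -/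
def subA : Subgroup S5 where
  carrier := {x | x = 1 ∨ x = ea ∨ x = eb ∨ x = ea * eb}
  mul_mem' := by
    rintro x y (rfl | rfl | rfl | rfl) (rfl | rfl | rfl | rfl) <;> decide
  one_mem' := Or.inl rfl
  inv_mem' := by
    rintro x (rfl | rfl | rfl | rfl) <;> decide

/-- The subgroup generated by `(2 3 4)`. -/
def subG : Subgroup S5 where
  carrier := {x | x = 1 ∨ x = eg ∨ x = eg⁻¹}
  mul_mem' := by
    rintro x y (rfl | rfl | rfl) (rfl | rfl | rfl) <;> decide
  one_mem' := Or.inl rfl
  inv_mem' := by
    rintro x (rfl | rfl | rfl) <;> decide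

/-- The subgroup generated by `(0 1 4)`. -/
def subH : Subgroup S5 where
  carrier := {x | x = 1 ∨ x = eh ∨ x = eh⁻¹}
  mul_mem' := by
    rintro x y (rfl | rfl | rfl) (rfl | rfl | rfl) <;> decide
  one_mem' := Or.inl rfl
  inv_mem' := by
    rintro x (rfl | rfl | rfl) <;> decide

theorem mem_subA {x : S5} : x ∈ subA ↔ x = 1 ∨ x = ea ∨ x = eb ∨ x = ea * eb := Iff.rfl
theorem mem_subG {x : S5} : x ∈ subG ↔ x = 1 ∨ x = eg ∨ x = eg⁻¹ := Iff.rfl
theorem mem_subH {x : S5} : x ∈ subH ↔ x = 1 ∨ x = eh ∨ x = eh⁻¹ := Iff.rfl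

/-- The signalizer functor of the example. -/
def theta (x : S5) : Subgroup S5 := if x = ea then subG else if x = eb then subH else ⊥

theorem theta_ea : theta ea = subG := if_pos rfl
theorem theta_eb : theta eb = subH := by
  unfold theta
  rw [if_neg (by decide), if_pos rfl]
theorem theta_eab : theta (ea * eb) = ⊥ := by
  unfold theta
  rw [if_neg (by decide), if_neg (by decide)]

theorem card_subA : Nat.card ↥subA = 4 := by
  have h : (subA : Set S5) = (({1, ea, eb, ea * eb} : Finset S5) : Set S5) := by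
    ext x
    simp only [SetLike.mem_coe, mem_subA, Finset.coe_insert, Finset.coe_singleton,
      Set.mem_insert_iff, Set.mem_singleton_iff]
  have h2 : Nat.card ↥subA = (subA : Set S5).ncard := Nat.card_coe_set_eq _
  rw [h2, h, Set.ncard_coe_finset]
  decide

theorem card_subG : Nat.card ↥subG = 3 := by
  have h : (subG : Set S5) = (({1, eg, eg⁻¹} : Finset S5) : Set S5) := by
    ext x
    simp only [SetLike.mem_coe, mem_subG, Finset.coe_insert, Finset.coe_singleton,
      Set.mem_insert_iff, Set.mem_singleton_iff]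
  have h2 : Nat.card ↥subG = (subG : Set S5).ncard := Nat.card_coe_set_eq _
  rw [h2, h, Set.ncard_coe_finset]
  decide

theorem card_subH : Nat.card ↥subH = 3 := by
  have h : (subH : Set S5) = (({1, eh, eh⁻¹} : Finset S5) : Set S5) := by
    ext x
    simp only [SetLike.mem_coe, mem_subH, Finset.coe_insert, Finset.coe_singleton,
      Set.mem_insert_iff, Set.mem_singleton_iff]
  have h2 : Nat.card ↥subH = (subH : Set S5).ncard := Nat.card_coe_set_eq _
  rw [h2, h, Set.ncard_coe_finset]
  decide

theorem elemAb : Cfsg.IsElementaryAbelian 2 subA := by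
  constructor
  · refine ⟨⟨?_⟩⟩
    rintro ⟨x, hx⟩ ⟨y, hy⟩
    apply Subtype.ext
    show x * y = y * x
    rcases hx with (rfl | rfl | rfl | rfl) <;> rcases hy with (rfl | rfl | rfl | rfl) <;> decide
  · rintro x (rfl | rfl | rfl | rfl) <;> decide

theorem mem_cent {x a : S5} : x ∈ Subgroup.centralizer ({a} : Set S5) ↔ a * x = x * a := by
  rw [Subgroup.mem_centralizer_iff]
  constructor
  · intro h
    exact h a rfl
  · intro h y hy
    rw [Set.mem_singleton_iff] at hy
    subst hy
    exact h

theorem sigFun : Cfsg.IsSignalizerFunctor 2 subA theta := by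
  refine ⟨?_, ?_, ?_, ?_⟩
  · rintro a (rfl | rfl | rfl | rfl) ha1
    · exact absurd rfl ha1
    · rw [theta_ea]
      rintro x (rfl | rfl | rfl) <;> rw [mem_cent] <;> decide
    · rw [theta_eb]
      rintro x (rfl | rfl | rfl) <;> rw [mem_cent] <;> decide
    · rw [theta_eab]
      exact bot_le
  · rintro a (rfl | rfl | rfl | rfl) ha1
    · exact absurd rfl ha1
    · rw [theta_ea, card_subG]; decide
    · rw [theta_eb, card_subH]; decide
    · rw [theta_eab, Subgroup.card_bot]; decide
  · rintro a (rfl | rfl | rfl | rfl) ha1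
    · exact absurd rfl ha1
    · rw [theta_ea]
      rintro b (rfl | rfl | rfl | rfl) x (rfl | rfl | rfl) <;> rw [mem_subG] <;> decide
    · rw [theta_eb]
      rintro b (rfl | rfl | rfl | rfl) x (rfl | rfl | rfl) <;> rw [mem_subH] <;> decide
    · rw [theta_eab]
      intro b _ x hx
      rw [Subgroup.mem_bot] at hx ⊢
      rw [hx]
      simp
  · rintro a (rfl | rfl | rfl | rfl) ha1
    · exact absurd rfl ha1
    · rintro b (rfl | rfl | rfl | rfl) hb1
      · exact absurd rfl hb1
      · exact inf_le_left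
      · rw [theta_ea]
        rintro x ⟨(rfl | rfl | rfl), hx2⟩
        · exact Subgroup.one_mem _
        · exact absurd (mem_cent.mp hx2) (by decide)
        · exact absurd (mem_cent.mp hx2) (by decide)
      · rw [theta_ea]
        rintro x ⟨(rfl | rfl | rfl), hx2⟩
        · exact Subgroup.one_mem _
        · exact absurd (mem_cent.mp hx2) (by decide)
        · exact absurd (mem_cent.mp hx2) (by decide)
    · rintro b (rfl | rfl | rfl | rfl) hb1
      · exact absurd rfl hb1
      · rw [theta_eb]
        rintro x ⟨(rfl | rfl | rfl), hx2⟩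
        · exact Subgroup.one_mem _
        · exact absurd (mem_cent.mp hx2) (by decide)
        · exact absurd (mem_cent.mp hx2) (by decide)
      · exact inf_le_left
      · rw [theta_eb]
        rintro x ⟨(rfl | rfl | rfl), hx2⟩
        · exact Subgroup.one_mem _
        · exact absurd (mem_cent.mp hx2) (by decide)
        · exact absurd (mem_cent.mp hx2) (by decide)
    · intro b _ _
      rw [theta_eab]
      exact le_trans inf_le_left bot_le

theorem comm_subG : ∀ x y : ↥subG, x * y = y * x := by
  rintro ⟨x, hx⟩ ⟨y, hy⟩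
  apply Subtype.ext
  show x * y = y * x
  rcases hx with (rfl | rfl | rfl) <;> rcases hy with (rfl | rfl | rfl) <;> decide

theorem comm_subH : ∀ x y : ↥subH, x * y = y * x := by
  rintro ⟨x, hx⟩ ⟨y, hy⟩
  apply Subtype.ext
  show x * y = y * x
  rcases hx with (rfl | rfl | rfl) <;> rcases hy with (rfl | rfl | rfl) <;> decide

theorem result : ∃ (X : Type) (_ : Group X) (_ : Finite X) (A : Subgroup X) (θ : X → Subgroup X), Cfsg.IsElementaryAbelian 2 A ∧ Nat.card ↥A = 4 ∧ Cfsg.IsSolvableSignalizerFunctor 2 A θ ∧ ¬ Cfsg.IsCompleteSignalizerFunctor 2 A θ := by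
  refine ⟨S5, inferInstance, inferInstance, subA, theta, elemAb, card_subA, ⟨sigFun, ?_⟩, ?_⟩
  · rintro a (rfl | rfl | rfl | rfl) ha1
    · exact absurd rfl ha1
    · rw [theta_ea]
      exact isSolvable_of_comm comm_subG
    · rw [theta_eb]
      exact isSolvable_of_comm comm_subH
    · rw [theta_eab]
      infer_instance
  · rintro ⟨_, X, _, hodd, hX⟩
    have h1 : eg ∈ X := by
      have h := hX ea (Or.inr (Or.inl rfl)) (by decide)
      rw [theta_ea] at h
      have : eg ∈ X ⊓ Subgroup.centralizer ({ea} : Set S5) := by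
        rw [h]
        exact Or.inr (Or.inl rfl)
      exact this.1
    have h2 : eh ∈ X := by
      have h := hX eb (Or.inr (Or.inr (Or.inl rfl))) (by decide)
      rw [theta_eb] at h
      have : eh ∈ X ⊓ Subgroup.centralizer ({eb} : Set S5) := by
        rw [h]
        exact Or.inr (Or.inl rfl)
      exact this.1
    have h3 : eg * eh * eg * eh⁻¹ ∈ X :=
      X.mul_mem (X.mul_mem (X.mul_mem h1 h2) h1) (X.inv_mem h2)
    have h4 : orderOf (eg * eh * eg * eh⁻¹) = 2 := orderOf_eq_prime (by decide) (by decide)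
    have h5 := Subgroup.orderOf_dvd_natCard X h3
    rw [h4] at h5
    exact hodd h5

end Cfsg.Agent.S1286
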