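-- Statement S1287
import Cfsg.Statements.S1287
import Mathlib
import Cfsg.Agent.Lib.Helper30.InvSylow

set_option autoImplicit false
open scoped Pointwise
open Cfsg

namespace Cfsg.Agent.S1287

open Subgroup Cfsg.Agent.Lib.Helper30

theorem val_ineq {H : Type*} [Group H] [Finite H] (p : ℕ) [Fact p.Prime] (A K X Y : Subgroup H)
    (hA : Cfsg.IsElementaryAbelian p A) (hA2 : p ^ 2 ≤ Nat.card ↥A) (hK : ¬ p ∣ Nat.card ↥K)
    (hAK : A ≤ Subgroup.normalizer (K : Set H)) (hX : X ≤ K) (hY : Y ≤ K)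
    (hAX : A ≤ Subgroup.normalizer (X : Set H)) (hAY : A ≤ Subgroup.normalizer (Y : Set H))
    (hCX : K ⊓ Subgroup.centralizer (A : Set H) ≤ Subgroup.normalizer (X : Set H))
    (hfac : ∀ a ∈ A, a ≠ 1 → ((K ⊓ Subgroup.centralizer {a} : Subgroup H) : Set H)
      = ((X ⊓ Subgroup.centralizer {a} : Subgroup H) : Set H)
        * ((Y ⊓ Subgroup.centralizer {a} : Subgroup H) : Set H))
    (q : ℕ) [Fact q.Prime] :
    (Nat.card K).factorization q + (Nat.card (X ⊓ Y : Subgroup H)).factorization q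
      = (Nat.card X).factorization q + (Nat.card Y).factorization q := by
  have hq := (Fact.out : q.Prime)
  have hAc : ∀ a ∈ A, ∀ b ∈ A, a * b = b * a := fun a ha b hb =>
    congrArg Subtype.val (hA.1.is_comm.comm ⟨a, ha⟩ ⟨b, hb⟩)
  have hsolv := isSolvable_of_elemAb hA
  have hcopK := coprime_of_elemAb hA hK
  have hcopX : (Nat.card A).Coprime (Nat.card X) :=
    Nat.Coprime.coprime_dvd_right (Subgroup.card_dvd_of_le hX) hcopK
  have hcopY : (Nat.card A).Coprime (Nat.card Y) :=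
    Nat.Coprime.coprime_dvd_right (Subgroup.card_dvd_of_le hY) hcopK
  obtain ⟨X₁, hX₁, hAX₁⟩ := exists_isSyl hAX hcopX hsolv q
  obtain ⟨Y₁, hY₁, hAY₁⟩ := exists_isSyl hAY hcopY hsolv q
  obtain ⟨Q, hQ, hY₁Q, hAQ⟩ := exists_isSyl_ge hAK hcopK hsolv q Y₁ (hY₁.1.trans hY)
    hY₁.isPGroup hAY₁
  obtain ⟨Q', hQ', hX₁Q', hAQ'⟩ := exists_isSyl_ge hAK hcopK hsolv q X₁ (hX₁.1.trans hX)
    hX₁.isPGroup hAX₁
  obtain ⟨c, hc, hcQ⟩ := isSyl_conj hAK hcopK hsolv q hQ' hQ hAQ' hAQ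
  obtain ⟨X₂, hX₂def⟩ : ∃ X₂ : Subgroup H, X₂ = X₁.map (MulAut.conj c).toMonoidHom := ⟨_, rfl⟩
  have hcX : X.map (MulAut.conj c).toMonoidHom = X := mem_normalizer_iff_map_conj.mp (hCX hc)
  have hX₂X : X₂ ≤ X := by rw [hX₂def, ← hcX]; exact Subgroup.map_mono hX₁.1
  have hX₂Q : X₂ ≤ Q := by rw [hX₂def, ← hcQ]; exact Subgroup.map_mono hX₁Q'
  have hX₂ : IsSyl q X₂ X := ⟨hX₂X, by
    rw [hX₂def, Subgroup.card_map_of_injective (MulAut.conj c).injective]; exact hX₁.2⟩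
  have hAX₂ : A ≤ normalizer (X₂ : Set H) := by
    intro b hb
    have hbc : b * c = c * b := mem_centralizer_iff.mp (mem_inf.mp hc).2 b hb
    have hcomp : (MulAut.conj b).toMonoidHom.comp (MulAut.conj c).toMonoidHom
        = (MulAut.conj c).toMonoidHom.comp (MulAut.conj b).toMonoidHom := by
      ext x
      simp only [MonoidHom.comp_apply, MulEquiv.coe_toMonoidHom, MulAut.conj_apply]
      exact commute_conj hbc
    rw [mem_normalizer_iff_map_conj, hX₂def, Subgroup.map_map, hcomp, ← Subgroup.map_map,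
      mem_normalizer_iff_map_conj.mp (hAX₁ hb)]
  have hEa : ∀ a ∈ A, a ≠ 1 →
      IsSyl q (X₂ ⊓ Y₁ ⊓ centralizer {a}) (X ⊓ Y ⊓ centralizer {a}) ∧
      ∀ g ∈ Q ⊓ centralizer {a}, ∃ x ∈ X₂, ∃ y ∈ Y₁, g = x * y := by
    intro a ha ha1
    have hT : ({a} : Set H) ⊆ A := Set.singleton_subset_iff.mpr ha
    have sQ := isSyl_inf_centralizer hAK hcopK hAc q hQ hAQ {a} hT
    have sX := isSyl_inf_centralizer hAX hcopX hAc q hX₂ hAX₂ {a} hT
    have sY := isSyl_inf_centralizer hAY hcopY hAc q hY₁ hAY₁ {a} hT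
    have hloc : Nat.card (K ⊓ centralizer {a} : Subgroup H)
        * Nat.card ((X ⊓ centralizer {a}) ⊓ (Y ⊓ centralizer {a}) : Subgroup H)
        = Nat.card (X ⊓ centralizer {a} : Subgroup H) * Nat.card (Y ⊓ centralizer {a} : Subgroup H) :=
      card_mul_card_inf_of_cover (inf_le_inf_right _ hX) (inf_le_inf_right _ hY) (fun u hu => by
        have hu' : u ∈ ((K ⊓ centralizer {a} : Subgroup H) : Set H) := hu
        rw [hfac a ha ha1] at hu'
        obtain ⟨s, hs, t, ht, e⟩ := Set.mem_mul.mp hu'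
        exact ⟨s, hs, t, ht, e.symm⟩)
    have hinf : (X ⊓ centralizer {a}) ⊓ (Y ⊓ centralizer {a}) = X ⊓ Y ⊓ centralizer ({a} : Set H) := by
      rw [inf_inf_inf_comm, inf_idem]
    have hinf' : (X₂ ⊓ centralizer {a}) ⊓ (Y₁ ⊓ centralizer {a})
        = X₂ ⊓ Y₁ ⊓ centralizer ({a} : Set H) := by
      rw [inf_inf_inf_comm, inf_idem]
    rw [hinf] at hloc
    have hval := congrArg (fun n => n.factorization q) hloc
    beta_reduce at hval
    rw [factorization_mul_apply Nat.card_pos.ne' Nat.card_pos.ne',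
      factorization_mul_apply Nat.card_pos.ne' Nat.card_pos.ne'] at hval
    have hle := card_mul_card_le (inf_le_inf_right (centralizer ({a} : Set H)) hX₂Q)
      (inf_le_inf_right (centralizer ({a} : Set H)) hY₁Q)
    rw [hinf', sX.2, sY.2, sQ.2, ← pow_add, ← hval, pow_add] at hle
    have hEle : q ^ (Nat.card (X ⊓ Y ⊓ centralizer {a} : Subgroup H)).factorization q
        ≤ Nat.card (X₂ ⊓ Y₁ ⊓ centralizer {a} : Subgroup H) :=
      Nat.le_of_mul_le_mul_left hle (pow_pos hq.pos _)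
    have hEsyl : IsSyl q (X₂ ⊓ Y₁ ⊓ centralizer {a}) (X ⊓ Y ⊓ centralizer {a}) :=
      isSyl_of_card_le (hY₁.isPGroup.to_le (inf_le_left.trans inf_le_right))
        (inf_le_inf_right _ (inf_le_inf hX₂X hY₁.1)) hEle
    refine ⟨hEsyl, ?_⟩
    have hcov := cover_of_card_le (inf_le_inf_right (centralizer ({a} : Set H)) hX₂Q)
      (inf_le_inf_right (centralizer ({a} : Set H)) hY₁Q) (by
        rw [hinf', sX.2, sY.2, sQ.2, hEsyl.2, ← pow_add, ← pow_add, hval])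
    intro g hg
    obtain ⟨s, hs, t, ht, e⟩ := hcov g hg
    exact ⟨s, (mem_inf.mp hs).1, t, (mem_inf.mp ht).1, e⟩
  have hcopQ : (Nat.card A).Coprime (Nat.card Q) :=
    Nat.Coprime.coprime_dvd_right (Subgroup.card_dvd_of_le hQ.1) hcopK
  have hfacQ := nilpotent_fact hA hA2 hQ.isPGroup.isNilpotent hcopQ hAQ hY₁Q
    (fun a ha ha1 => (hEa a ha ha1).2)
  have hcardQ := card_mul_card_inf_of_cover hX₂Q hY₁Q hfacQ
  have hAE : A ≤ normalizer ((X₂ ⊓ Y₁ : Subgroup H) : Set H) := fun b hb =>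
    normalizer_inf_le _ _ (mem_inf.mpr ⟨hAX₂ hb, hAY₁ hb⟩)
  have hAD : A ≤ normalizer ((X ⊓ Y : Subgroup H) : Set H) := fun b hb =>
    normalizer_inf_le _ _ (mem_inf.mpr ⟨hAX hb, hAY hb⟩)
  have hcopD : (Nat.card A).Coprime (Nat.card (X ⊓ Y : Subgroup H)) :=
    Nat.Coprime.coprime_dvd_right (Subgroup.card_dvd_of_le inf_le_left) hcopX
  obtain ⟨D₁, hD₁, hED₁, hAD₁⟩ := exists_isSyl_ge hAD hcopD hsolv q (X₂ ⊓ Y₁)
    (inf_le_inf hX₂X hY₁.1) (hY₁.isPGroup.to_le inf_le_right) hAE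
  have hD₁E : D₁ ≤ X₂ ⊓ Y₁ := by
    haveI := hA.1
    have hcopD₁ : (Nat.card A).Coprime (Nat.card D₁) :=
      Nat.Coprime.coprime_dvd_right (Subgroup.card_dvd_of_le hD₁.1) hcopD
    have hgen := Cfsg.Agent.S0058.result A D₁ (not_isCyclic_of_elemAb hA hA2) hAD₁ hcopD₁
    rw [← hgen]
    refine iSup₂_le (fun a ha => ?_)
    have h1 := (hEa a ha.1 ha.2).1
    have h2 : X₂ ⊓ Y₁ ⊓ centralizer {a} ≤ D₁ ⊓ centralizer {a} := inf_le_inf_right _ hED₁
    have h3 := card_dvd_of_isPGroup_le (hD₁.isPGroup.to_le (inf_le_left (b := centralizer {a})))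
      (inf_le_inf_right (centralizer ({a} : Set H)) hD₁.1)
    have h4 : X₂ ⊓ Y₁ ⊓ centralizer {a} = D₁ ⊓ centralizer {a} :=
      Subgroup.eq_of_le_of_card_ge h2 (by rw [h1.2]; exact Nat.le_of_dvd (pow_pos hq.pos _) h3)
    rw [← h4]; exact inf_le_left
  have hE : X₂ ⊓ Y₁ = D₁ := le_antisymm hED₁ hD₁E
  rw [hE, hQ.2, hD₁.2, hX₂.2, hY₁.2, ← pow_add, ← pow_add] at hcardQ
  exact Nat.pow_right_injective hq.two_le hcardQ

/-- Factorization of a coprime group from factorizations of the centralizers of the non-identity elements of a noncyclic elementary abelian acting group. -/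
theorem result {H : Type*} [Group H] [Finite H] (p : ℕ) [Fact p.Prime] (A K X Y : Subgroup H) (hA : Cfsg.IsElementaryAbelian p A) (hA2 : p ^ 2 ≤ Nat.card ↥A) (hK : ¬ p ∣ Nat.card ↥K) (hAK : A ≤ Subgroup.normalizer (K : Set H)) (hX : X ≤ K) (hY : Y ≤ K) (hAX : A ≤ Subgroup.normalizer (X : Set H)) (hAY : A ≤ Subgroup.normalizer (Y : Set H)) (hCX : K ⊓ Subgroup.centralizer (A : Set H) ≤ Subgroup.normalizer (X : Set H)) (hfac : ∀ a ∈ A, a ≠ 1 → ((K ⊓ Subgroup.centralizer {a} : Subgroup H) : Set H) = ((X ⊓ Subgroup.centralizer {a} : Subgroup H) : Set H) * ((Y ⊓ Subgroup.centralizer {a} : Subgroup H) : Set H)) : (K : Set H) = (X : Set H) * (Y : Set H) := by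
  have hdvd : Nat.card K * Nat.card (X ⊓ Y : Subgroup H) ∣ Nat.card X * Nat.card Y := by
    rw [← Nat.factorization_le_iff_dvd (mul_ne_zero Nat.card_pos.ne' Nat.card_pos.ne')
      (mul_ne_zero Nat.card_pos.ne' Nat.card_pos.ne')]
    intro q
    by_cases hq : q.Prime
    · haveI := Fact.mk hq
      rw [factorization_mul_apply Nat.card_pos.ne' Nat.card_pos.ne',
        factorization_mul_apply Nat.card_pos.ne' Nat.card_pos.ne']
      exact le_of_eq (val_ineq p A K X Y hA hA2 hK hAK hX hY hAX hAY hCX hfac q)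
    · simp [Nat.factorization_eq_zero_of_not_prime _ hq]
  have hle := Nat.le_of_dvd (Nat.mul_pos Nat.card_pos Nat.card_pos) hdvd
  have hcov := cover_of_card_le hX hY hle
  ext g
  constructor
  · intro hg
    obtain ⟨x, hx, y, hy, e⟩ := hcov g hg
    exact Set.mem_mul.mpr ⟨x, hx, y, hy, e.symm⟩
  · intro hg
    obtain ⟨x, hx, y, hy, e⟩ := Set.mem_mul.mp hg
    rw [← e]; exact K.mul_mem (hX hx) (hY hy)

end Cfsg.Agent.S1287
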