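-- Statement S1288
import Cfsg.Statements.S1288
import Mathlib
import Cfsg.Agent.S1324
import Cfsg.Agent.Lib.Helper30.Transitivity
import Cfsg.Agent.Lib.Helper30.PLayer
import Cfsg.Agent.Lib.Helper31.Basic

set_option autoImplicit false
open Cfsg

namespace Cfsg.Agent.S1288

open Subgroup Cfsg.Agent.Lib.Helper30
open scoped commutatorElement

/-- An elementary abelian `p`-group of order at least `p ^ 2` has a subgroup of index `p`. -/
theorem exists_hyperplane {H : Type*} [Group H] [Finite H] (p : ℕ) [Fact p.Prime] (A : Subgroup H)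
    (hA : Cfsg.IsElementaryAbelian p A) (hA2 : p ^ 2 ≤ Nat.card ↥A) :
    ∃ B' : Subgroup H, B' ≤ A ∧ B'.relIndex A = p := by
  have hp := (Fact.out : p.Prime)
  obtain ⟨n, hn⟩ := IsPGroup.iff_card.mp (isPGroup_of_elemAb hA)
  have hn2 : 2 ≤ n := by
    rw [hn] at hA2
    exact (Nat.pow_le_pow_iff_right hp.one_lt).mp hA2
  obtain ⟨B'', hB''⟩ := Sylow.exists_subgroup_card_pow_prime p (G := ↥A) (n := n - 1)
    (by rw [hn]; exact pow_dvd_pow p (Nat.sub_le n 1))
  refine ⟨B''.map A.subtype, by rintro _ ⟨x, _, rfl⟩; exact x.2, ?_⟩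
  have h1 : (B''.map A.subtype).relIndex A = B''.index := by
    rw [Subgroup.relIndex, Subgroup.subgroupOf,
      Subgroup.comap_map_eq_self_of_injective A.subtype_injective]
  rw [h1]
  have h2 := Subgroup.card_mul_index B''
  rw [hB'', hn] at h2
  have h3 : p ^ n = p ^ (n - 1) * p := by
    rw [← pow_succ]; congr 1; omega
  rw [h3] at h2
  exact Nat.eq_of_mul_eq_mul_left (pow_pos hp.pos _) h2

/-- Let A be a noncyclic elementary abelian p-subgroup of a finite group H normalizing a solvable subgroup K of order prime to p, q a prime dividing |K|, and U ≤ K a subgroup of order prime to q such that ⁅U, C_K(B)⁆ has order prime to q for every subgroup B of index p in A. Then U ≤ O_{q'}(K). -/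
theorem result {H : Type*} [Group H] [Finite H] (p : ℕ) [Fact p.Prime] (A K : Subgroup H) (hA : Cfsg.IsElementaryAbelian p A) (hA2 : p ^ 2 ≤ Nat.card ↥A) (hK : ¬ p ∣ Nat.card ↥K) (hKs : Group.IsSolvable ↥K) (hAK : A ≤ Subgroup.normalizer (K : Set H)) (q : ℕ) [Fact q.Prime] (hqK : q ∣ Nat.card ↥K) (U : Subgroup H) (hU : U ≤ K) (hUq : ¬ q ∣ Nat.card ↥U) (hcomm : ∀ B : Subgroup H, B ≤ A → B.relIndex A = p → ¬ q ∣ Nat.card ↥⁅U, K ⊓ Subgroup.centralizer (B : Set H)⁆) : U ≤ (Cfsg.pPrimeCore q ↥K).map K.subtype := by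
  have hp := (Fact.out : p.Prime)
  have hq := (Fact.out : q.Prime)
  obtain ⟨π, hπ⟩ : ∃ π : ↥K →* ↥K ⧸ pPrimeCore q ↥K, π = QuotientGroup.mk' (pPrimeCore q ↥K) :=
    ⟨_, rfl⟩
  obtain ⟨Qb, hQb⟩ : ∃ Qb : Subgroup (↥K ⧸ pPrimeCore q ↥K),
      Qb = pCore q (↥K ⧸ pPrimeCore q ↥K) := ⟨_, rfl⟩
  have hQbN : Qb.Normal := hQb ▸ Cfsg.Agent.Lib.Helper30.pCore_normal q _
  have hQbq : IsPGroup q Qb := hQb ▸ pCore_isPGroup q
  have hmemQs : ∀ x : ↥K, x ∈ pPrimePCore q ↥K ↔ π x ∈ Qb := by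
    intro x
    rw [hπ, hQb]
    exact Iff.rfl
  -- (1) `Qb` is self-centralizing
  have hcent : centralizer (Qb : Set (↥K ⧸ pPrimeCore q ↥K)) ≤ Qb := by
    rw [hQb, ← genFitting_eq_pCore_iff_centralizer]
    apply genFitting_eq_pCore_of_cores q (pPrimeCore_quotient_eq_bot q)
    rw [layer_eq_bot_iff]
    intro E hE
    exact comp_not_solvable hE
      (Group.isSolvable_of_isSolvable_injective (Subgroup.subtype_injective E))
  -- (2) an `A`-invariant Sylow `q`-subgroup of `K`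
  have hsolvA := isSolvable_of_elemAb hA
  have hcop : (Nat.card A).Coprime (Nat.card K) := coprime_of_elemAb hA hK
  obtain ⟨P, hAP⟩ := Cfsg.Agent.Lib.Helper1.exists_invariant_sylow hAK hcop (Or.inl hsolvA) q
  obtain ⟨R, hR⟩ : ∃ R : Subgroup H,
      R = ((P : Subgroup ↥K) ⊓ pPrimePCore q ↥K).map K.subtype := ⟨_, rfl⟩
  have hAQs : A ≤ normalizer (((pPrimePCore q ↥K).map K.subtype : Subgroup H) : Set H) := by
    intro a ha
    rw [mem_normalizer_iff_map_conj, map_subtype_map_conj K a (hAK ha),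
      Cfsg.Agent.Lib.Helper31.pPrimePCore_map]
  have hAR : A ≤ normalizer (R : Set H) := by
    intro a ha
    rw [hR, Subgroup.map_inf _ _ _ K.subtype_injective]
    exact normalizer_inf_le _ _ (mem_inf.mpr ⟨hAP ha, hAQs ha⟩)
  have hRK : R ≤ K := by
    rw [hR]; rintro _ ⟨x, _, rfl⟩; exact x.2
  have hRp : ¬ p ∣ Nat.card R := fun h => hK (dvd_trans h (Subgroup.card_dvd_of_le hRK))
  have hRgen := Cfsg.Agent.S1324.result p A R hA hA2 hRp hAR
  have hπsurj : Function.Surjective π := hπ ▸ QuotientGroup.mk'_surjective _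
  have hπR : ((P : Subgroup ↥K) ⊓ pPrimePCore q ↥K).map π = Qb := by
    apply le_antisymm
    · rintro _ ⟨x, hx, rfl⟩
      exact (hmemQs x).mp (mem_inf.mp hx).2
    · intro y hy
      have h1 : Qb ≤ (P : Subgroup ↥K).map π := by
        have h2 : IsPGroup q (Qb ⊔ (P : Subgroup ↥K).map π : Subgroup (↥K ⧸ pPrimeCore q ↥K)) :=
          IsPGroup.to_sup_of_normal_left hQbq (P.2.map π)
        have h3 := (P.mapSurjective hπsurj).is_maximal' h2
          (by rw [Sylow.coe_mapSurjective]; exact le_sup_right)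
        rw [Sylow.coe_mapSurjective] at h3
        rw [← h3]
        exact le_sup_left
      obtain ⟨x, hx, rfl⟩ := h1 hy
      exact ⟨x, mem_inf.mpr ⟨hx, (hmemQs x).mpr hy⟩, rfl⟩
  -- hyperplane hypothesis also for `B = A`
  have hW : ∀ B : Subgroup H, B ≤ A → B.relIndex A ≤ p →
      ¬ q ∣ Nat.card ↥⁅U, K ⊓ centralizer (B : Set H)⁆ := by
    intro B hBA hBi
    by_cases h : B.relIndex A = p
    · exact hcomm B hBA h
    · have h1 : B.relIndex A ∣ Nat.card A := Subgroup.relIndex_dvd_card B A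
      obtain ⟨n, hn⟩ := IsPGroup.iff_card.mp (isPGroup_of_elemAb hA)
      rw [hn] at h1
      obtain ⟨k, hk, hk'⟩ := (Nat.dvd_prime_pow hp).mp h1
      have hk0 : k = 0 := by
        by_contra hk0
        have : p ≤ p ^ k := Nat.le_self_pow hk0 p
        omega
      rw [hk0, pow_zero] at hk'
      have hAB : A ≤ B := Subgroup.relIndex_eq_one.mp hk'
      obtain ⟨B', hB'A, hB'⟩ := exists_hyperplane p A hA hA2
      intro hdvd
      apply hcomm B' hB'A hB'
      exact dvd_trans hdvd (Subgroup.card_dvd_of_le (Subgroup.commutator_mono le_rfl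
        (inf_le_inf_left _ (Subgroup.centralizer_le
          (SetLike.coe_subset_coe.mpr (le_trans hB'A hAB))))))
  intro u hu
  have hcomm' : ∀ r' : ↥K, r' ∈ (P : Subgroup ↥K) ⊓ pPrimePCore q ↥K →
      π r' * π ⟨u, hU hu⟩ = π ⟨u, hU hu⟩ * π r' := by
    have hZ : R ≤ ((centralizer {π ⟨u, hU hu⟩}).comap π).map K.subtype := by
      calc R = _ := hRgen
        _ ≤ _ := by
          apply iSup_le
          rintro ⟨B, hBA, hBi⟩ r hr
          obtain ⟨hrR, hrB⟩ := mem_inf.mp hr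
          rw [hR] at hrR
          obtain ⟨r', hr', rfl⟩ := hrR
          refine ⟨r', ?_, rfl⟩
          rw [SetLike.mem_coe, mem_comap, mem_centralizer_iff]
          intro y hy
          rw [Set.mem_singleton_iff] at hy
          subst hy
          have hw : ⁅u, (r' : H)⁆ ∈ ⁅U, K ⊓ centralizer (B : Set H)⁆ :=
            Subgroup.commutator_mem_commutator hu (mem_inf.mpr ⟨r'.2, hrB⟩)
          have hw1 : ⁅π ⟨u, hU hu⟩, π r'⁆ = 1 := by
            have h1 : ⁅π ⟨u, hU hu⟩, π r'⁆ ∈ Qb := by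
              rw [commutatorElement_def]
              have hr'Q : π r' ∈ Qb := (hmemQs r').mp (mem_inf.mp hr').2
              exact Qb.mul_mem (hQbN.conj_mem _ hr'Q _) (Qb.inv_mem hr'Q)
            obtain ⟨k, hk⟩ := hQbq ⟨_, h1⟩
            have hk' : ⁅π ⟨u, hU hu⟩, π r'⁆ ^ (q ^ k) = 1 := by
              simpa using congrArg Subtype.val hk
            have hm : ⁅π ⟨u, hU hu⟩, π r'⁆ ^ (Nat.card ↥⁅U, K ⊓ centralizer (B : Set H)⁆) = 1 := by
              have h2 : (⟨⁅u, (r' : H)⁆, hw⟩ : ↥⁅U, K ⊓ centralizer (B : Set H)⁆)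
                  ^ (Nat.card ↥⁅U, K ⊓ centralizer (B : Set H)⁆) = 1 := pow_card_eq_one'
              have h3 : ⁅u, (r' : H)⁆ ^ (Nat.card ↥⁅U, K ⊓ centralizer (B : Set H)⁆) = 1 := by
                have h := congrArg Subtype.val h2
                rw [Subgroup.coe_pow, Subgroup.coe_one] at h
                exact h
              have h4 : ⁅(⟨u, hU hu⟩ : ↥K), r'⁆ ^ (Nat.card ↥⁅U, K ⊓ centralizer (B : Set H)⁆)
                  = 1 := Subtype.ext (by simpa [commutatorElement_def] using h3)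
              rw [← map_commutatorElement, ← map_pow, h4, map_one]
            have hcop' : Nat.Coprime (q ^ k) (Nat.card ↥⁅U, K ⊓ centralizer (B : Set H)⁆) :=
              Nat.Coprime.pow_left _ ((Nat.Prime.coprime_iff_not_dvd hq).mpr (hW B hBA hBi))
            have h5 := pow_gcd_eq_one.mpr ⟨hk', hm⟩
            rwa [Nat.Coprime.gcd_eq_one hcop', pow_one] at h5
          exact (commutatorElement_eq_one_iff_mul_comm.mp hw1)
    intro r' hr'
    obtain ⟨x, hx, hxr⟩ := hZ (by rw [hR]; exact mem_map_of_mem K.subtype hr')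
    have hxr' : x = r' := K.subtype_injective hxr
    subst hxr'
    rw [SetLike.mem_coe, mem_comap, mem_centralizer_iff] at hx
    exact (hx _ rfl).symm
  have hπu : π ⟨u, hU hu⟩ ∈ Qb := by
    apply hcent
    rw [mem_centralizer_iff]
    intro y hy
    rw [SetLike.mem_coe, ← hπR] at hy
    obtain ⟨r', hr', rfl⟩ := hy
    exact hcomm' r' hr'
  obtain ⟨k, hk⟩ := hQbq ⟨_, hπu⟩
  have hk' : π ⟨u, hU hu⟩ ^ (q ^ k) = 1 := by simpa using congrArg Subtype.val hk
  have hm : π ⟨u, hU hu⟩ ^ (Nat.card U) = 1 := by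
    have h2 : (⟨u, hu⟩ : U) ^ (Nat.card U) = 1 := pow_card_eq_one'
    have h3 : u ^ (Nat.card U) = 1 := by
      have h := congrArg Subtype.val h2
      rw [Subgroup.coe_pow, Subgroup.coe_one] at h
      exact h
    have h4 : (⟨u, hU hu⟩ : ↥K) ^ (Nat.card U) = 1 := Subtype.ext (by simpa using h3)
    rw [← map_pow, h4, map_one]
  have hcop' : Nat.Coprime (q ^ k) (Nat.card U) :=
    Nat.Coprime.pow_left _ ((Nat.Prime.coprime_iff_not_dvd hq).mpr hUq)
  have h1 := pow_gcd_eq_one.mpr ⟨hk', hm⟩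
  rw [Nat.Coprime.gcd_eq_one hcop', pow_one] at h1
  have h2 : (⟨u, hU hu⟩ : ↥K) ∈ pPrimeCore q ↥K := by
    rw [hπ] at h1
    exact (QuotientGroup.eq_one_iff _).mp h1
  exact ⟨⟨u, hU hu⟩, h2, rfl⟩

end Cfsg.Agent.S1288
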