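import Cfsg.Statements.S1289
import Cfsg.Agent.Lib.Helper30.Cores

set_option autoImplicit false
open Cfsg

namespace Cfsg.Agent.S1289

open Cfsg.Agent.Lib.Helper30 in
/-- A p-component K of the finite group X is subnormal, perfect, of order divisible by p, and minimal among the subnormal perfect subgroups of X of order divisible by p. -/
theorem result {X : Type*} [Group X] [Finite X] (p : ℕ) [Fact p.Prime] (K : Subgroup X) (hK : Cfsg.IsPComponent p K) : K.IsSubnormal ∧ ⁅K, K⁆ = K ∧ p ∣ Nat.card ↥K ∧ ∀ H : Subgroup X, H ≤ K → H.IsSubnormal → ⁅H, H⁆ = H → p ∣ Nat.card ↥H → H = K := by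
  obtain ⟨hsn, hcomp, hmin⟩ := hK
  have hp : p.Prime := Fact.out
  refine ⟨hsn, ?_, ?_, ?_⟩
  · apply hmin
    · have h1 : (⁅K, K⁆.subgroupOf K).Normal := by
        rw [Subgroup.normal_subgroupOf_iff_le_normalizer (commutator_self_le K)]
        exact Subgroup.normalizer_commutator_ge_left (H₁ := K) (H₂ := K)
      exact Subgroup.IsSubnormal.trans (commutator_self_le K) h1.isSubnormal hsn
    · exact commutator_self_le K
    · rw [Subgroup.map_commutator]
      exact comp_perfect hcomp
  · by_contra hnd
    have hc : (Nat.card K).Coprime p := (Nat.Coprime.symm ((Nat.Prime.coprime_iff_not_dvd hp).mpr hnd))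
    have h1 : K ≤ pPrimeCore p X := le_pPrimeCore_of_subnormal hsn hc
    have h2 : K.map (QuotientGroup.mk' (pPrimeCore p X)) = ⊥ := by
      rw [Subgroup.map_eq_bot_iff, QuotientGroup.ker_mk']
      exact h1
    exact comp_ne_bot hcomp h2
  · intro H hHK hHsn hHperf hpH
    apply hmin H hHsn hHK
    have hle : H.map (QuotientGroup.mk' (pPrimeCore p X)) ≤ K.map (QuotientGroup.mk' (pPrimeCore p X)) :=
      Subgroup.map_mono hHK
    have hHbsn : (H.map (QuotientGroup.mk' (pPrimeCore p X))).IsSubnormal :=
      hHsn.map (QuotientGroup.mk'_surjective _)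
    have h1 : ((H.map (QuotientGroup.mk' (pPrimeCore p X))).subgroupOf
        (K.map (QuotientGroup.mk' (pPrimeCore p X)))).IsSubnormal := hHbsn.subgroupOf
    rcases qs_subnormal_eq_top_or_le_center hcomp.2 _ h1 with h2 | h2
    · rw [Subgroup.subgroupOf_eq_top] at h2
      exact le_antisymm hle h2
    · exfalso
      have h3 : ⁅H.map (QuotientGroup.mk' (pPrimeCore p X)),
          H.map (QuotientGroup.mk' (pPrimeCore p X))⁆ = ⊥ := by
        apply commutator_eq_bot_of_subgroupOf hle hle
        rw [Subgroup.commutator_eq_bot_iff_le_centralizer]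
        exact h2.trans (Subgroup.center_le_centralizer _)
      rw [← Subgroup.map_commutator, hHperf, Subgroup.map_eq_bot_iff, QuotientGroup.ker_mk'] at h3
      have h4 : Nat.card H ∣ Nat.card (pPrimeCore p X) := Subgroup.card_dvd_of_le h3
      have h5 : (Nat.card H).Coprime p :=
        Nat.Coprime.coprime_dvd_left h4 (pPrimeCore_coprime p)
      have h6 : p ∣ 1 := by
        have := Nat.dvd_gcd hpH (dvd_refl p)
        rwa [h5] at this
      exact hp.one_lt.ne' (Nat.dvd_one.mp h6)

end Cfsg.Agent.S1289
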