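import Cfsg.Statements.S1299
import Cfsg.Agent.Lib.Helper30.WSSFT
import Cfsg.Agent.Lib.Helper30.ElemAb

set_option autoImplicit false
open Cfsg

namespace Cfsg.Agent.S1299

open Subgroup Cfsg.Agent.Lib.Helper30

section Aux
variable {G : Type*} [Group G]

/-- `Θ(E)`: generated by the `Δ(D)`, `E ≤ D ≤ A`, `|D| = p^k`. -/
def Th (p k : ℕ) (A E : Subgroup G) : Subgroup G :=
  ⨆ D : {D : Subgroup G // E ≤ D ∧ D ≤ A ∧ Nat.card D = p ^ k}, signalizerDelta p (D : Subgroup G)

theorem delta_le_Th {p k : ℕ} {A E D : Subgroup G} (hED : E ≤ D) (hDA : D ≤ A)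
    (hDk : Nat.card D = p ^ k) : signalizerDelta p D ≤ Th p k A E :=
  le_iSup (fun D : {D : Subgroup G // E ≤ D ∧ D ≤ A ∧ Nat.card D = p ^ k} =>
    signalizerDelta p (D : Subgroup G)) ⟨D, hED, hDA, hDk⟩

theorem Th_anti {p k : ℕ} {A E E' : Subgroup G} (h : E ≤ E') : Th p k A E' ≤ Th p k A E := by
  apply iSup_le
  rintro ⟨D, hED, hDA, hDk⟩
  exact delta_le_Th (h.trans hED) hDA hDk

theorem delta_le_W {p : ℕ} {D : Subgroup G} {d : G} (hd : d ∈ D) (hd1 : d ≠ 1) :
    signalizerDelta p D ≤ centralizerPPrimeCore p d :=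
  iInf_le (fun a : {a : G // a ∈ D ∧ a ≠ 1} => centralizerPPrimeCore p (a : G)) ⟨d, hd, hd1⟩

theorem delta_le_cent {p : ℕ} (D : Subgroup G) :
    signalizerDelta p D ≤ centralizer (D : Set G) := by
  intro g hg
  rw [mem_centralizer_iff]
  intro d hd
  by_cases hd1 : d = 1
  · rw [hd1, one_mul, mul_one]
  · have hle : centralizerPPrimeCore p d ≤ centralizer ({d} : Set G) := by
      unfold centralizerPPrimeCore
      exact Subgroup.map_subtype_le _
    have h1 := hle (delta_le_W hd hd1 hg)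
    exact (Subgroup.mem_centralizer_singleton_iff.mp h1).symm

theorem Th_le_W {p k : ℕ} {A E : Subgroup G} {e : G} (he : e ∈ E) (he1 : e ≠ 1) :
    Th p k A E ≤ centralizerPPrimeCore p e := by
  apply iSup_le
  rintro ⟨D, hED, hDA, hDk⟩
  exact delta_le_W (hED he) he1

theorem Th_le_cent {p k : ℕ} {A E : Subgroup G} : Th p k A E ≤ centralizer (E : Set G) := by
  apply iSup_le
  rintro ⟨D, hED, hDA, hDk⟩
  exact (delta_le_cent D).trans (Subgroup.centralizer_le hED)

theorem le_normalizer_iSup {ι : Sort*} {A : Subgroup G} (f : ι → Subgroup G)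
    (h : ∀ i, A ≤ normalizer (f i : Set G)) :
    A ≤ normalizer ((⨆ i, f i : Subgroup G) : Set G) := by
  apply le_normalizer_of_conj_mem
  intro b hb u hu
  have h1 : (⨆ i, f i).map (MulAut.conj b).toMonoidHom ≤ ⨆ i, f i := by
    rw [Subgroup.map_iSup]
    apply iSup_le
    intro i
    refine le_trans ?_ (le_iSup f i)
    rintro _ ⟨x, hx, rfl⟩
    exact conj_mem_of_le_normalizer (h i) b hb x hx
  exact h1 ⟨u, hu, rfl⟩

theorem Th_normalized {p k : ℕ} {A : Subgroup G} (hA : IsElementaryAbelian p A) (E : Subgroup G) :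
    A ≤ normalizer (Th p k A E : Set G) := by
  apply le_normalizer_iSup
  rintro ⟨D, hED, hDA, hDk⟩
  exact Cfsg.Agent.Lib.Helper40.le_normalizer_signalizerDelta hA hDA

theorem mem_cent_sup {g : G} {E F : Subgroup G} (hE : g ∈ centralizer (E : Set G))
    (hF : g ∈ centralizer (F : Set G)) : g ∈ centralizer ((E ⊔ F : Subgroup G) : Set G) := by
  have h1 : E ⊔ F ≤ centralizer ({g} : Set G) := by
    apply sup_le
    · intro x hx
      exact Subgroup.mem_centralizer_singleton_iff.mpr (mem_centralizer_iff.mp hE x hx)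
    · intro x hx
      exact Subgroup.mem_centralizer_singleton_iff.mpr (mem_centralizer_iff.mp hF x hx)
  rw [mem_centralizer_iff]
  intro x hx
  exact Subgroup.mem_centralizer_singleton_iff.mp (h1 hx)

theorem cent_singleton_le_zpowers (a : G) :
    centralizer ({a} : Set G) ≤ centralizer ((zpowers a : Subgroup G) : Set G) := by
  intro g hg
  rw [mem_centralizer_iff]
  intro h hh
  obtain ⟨i, rfl⟩ := Subgroup.mem_zpowers_iff.mp hh
  have hc : Commute g a := Subgroup.mem_centralizer_singleton_iff.mp hg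
  exact (hc.zpow_right i).eq.symm

theorem cent_zpowers_le_singleton (a : G) :
    centralizer ((zpowers a : Subgroup G) : Set G) ≤ centralizer ({a} : Set G) :=
  Subgroup.centralizer_le (by simp)

end Aux

section Main
variable {G : Type*} [Group G] [Finite G]

omit [Finite G] in
theorem delta_base {p k : ℕ} [Fact p.Prime] (hbal : IsKBalanced p k G) {A D D' : Subgroup G}
    (hA : IsElementaryAbelian p A) (hD : D ≤ A) (hDk : Nat.card D = p ^ k) (hD' : D' ≤ A) :
    signalizerDelta p D ⊓ centralizer (D' : Set G) ≤ signalizerDelta p D' := by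
  apply le_iInf
  rintro ⟨d', hd', hd'1⟩
  have ho : orderOf d' = p := orderOf_eq_prime (hA.2 d' (hD' hd')) hd'1
  have h1 := hbal D (Cfsg.Agent.Lib.Helper40.elemAb_mono hA hD) hDk d' ho
    (fun a ha => Cfsg.Agent.Lib.Helper40.elemAb_comm hA (hD ha) (hD' hd'))
  exact le_trans (inf_le_inf_left _ (Subgroup.centralizer_le (by simpa using hd'))) h1

theorem delta_inf_cent_le_Th {p k : ℕ} [Fact p.Prime] (hbal : IsKBalanced p k G)
    {A D E₂ : Subgroup G} (hA : IsElementaryAbelian p A) (hD : D ≤ A)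
    (hDk : Nat.card D = p ^ k) (hE₂ : E₂ ≤ A) (hE₂k : Nat.card E₂ ≤ p ^ k) :
    signalizerDelta p D ⊓ centralizer (E₂ : Set G) ≤ Th p k A E₂ := by
  obtain ⟨D', hE₂D', hD'F, hD'k⟩ := exists_between_card (F := D ⊔ E₂)
    ((Cfsg.Agent.Lib.Helper40.elemAb_isPGroup hA).to_le (sup_le hD hE₂)) le_sup_right le_sup_left
    hDk hE₂k
  have hD'A : D' ≤ A := hD'F.trans (sup_le hD hE₂)
  intro g hg
  have h1 : g ∈ centralizer ((D ⊔ E₂ : Subgroup G) : Set G) :=
    mem_cent_sup (delta_le_cent D hg.1) hg.2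
  have h2 : g ∈ centralizer (D' : Set G) := Subgroup.centralizer_le hD'F h1
  exact delta_le_Th hE₂D' hD'A hD'k (delta_base hbal hA hD hDk hD'A ⟨hg.1, h2⟩)

theorem Th_le_delta {p k : ℕ} {A E : Subgroup G} (hEk : Nat.card E = p ^ k) :
    Th p k A E ≤ signalizerDelta p E := by
  apply iSup_le
  rintro ⟨D, hED, hDA, hDk⟩
  obtain rfl : D = E := (Subgroup.eq_of_le_of_card_ge hED (by rw [hEk, hDk])).symm
  exact le_rfl

/-- the main induction -/
theorem main {p k : ℕ} [Fact p.Prime] (hbal : IsKBalanced p k G) {A : Subgroup G}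
    (hA : IsElementaryAbelian p A) (hAk : p ^ (k + 2) ≤ Nat.card A)
    (hsolv : ∀ a ∈ A, a ≠ 1 → Group.IsSolvable (centralizerPPrimeCore p a)) :
    ∀ d j : ℕ, 1 ≤ j → j + d = k → ∀ E₁ : Subgroup G, E₁ ≤ A → Nat.card E₁ = p ^ j →
      ∀ E₂ : Subgroup G, E₂ ≤ A → Nat.card E₂ ≤ p ^ k →
        Th p k A E₁ ⊓ centralizer (E₂ : Set G) ≤ Th p k A E₂ := by
  have hp := (Fact.out : p.Prime)
  intro d
  induction d with
  | zero =>
    intro j hj hjk E₁ hE₁ hE₁j E₂ hE₂ hE₂k
    have hjk' : j = k := by omega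
    rw [hjk'] at hE₁j
    exact le_trans (inf_le_inf_right _ (Th_le_delta hE₁j))
      (delta_inf_cent_le_Th hbal hA hE₁ hE₁j hE₂ hE₂k)
  | succ d ih =>
    intro j hj hjk E₁ hE₁ hE₁j E₂ hE₂ hE₂k
    have ihP := ih (j + 1) (by omega) (by omega)
    -- a nontrivial element of `E₁`
    have hE₁ne : E₁ ≠ ⊥ := by
      intro h
      rw [h, Subgroup.card_bot] at hE₁j
      have : 1 < p ^ j := Nat.one_lt_pow (by omega) hp.one_lt
      omega
    obtain ⟨e₀, he₀⟩ := Subgroup.ne_bot_iff_exists_ne_one.mp hE₁ne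
    have he₀1 : (e₀ : G) ≠ 1 := fun h => he₀ (Subtype.ext h)
    have he₀A : (e₀ : G) ∈ A := hE₁ e₀.2
    -- the complement
    obtain ⟨A₁, hA₁, hint, hcov, hcard⟩ := exists_compl_elemAb hA hE₁
    have hA₁3 : p ^ 3 ≤ Nat.card A₁ := by
      rw [hcard, hE₁j] at hAk
      have h1 : p ^ j * p ^ (d + 3) ≤ p ^ j * Nat.card A₁ := by
        rw [← pow_add]
        have : j + (d + 3) = k + 2 := by omega
        rw [this]; exact hAk
      have h2 : p ^ (d + 3) ≤ Nat.card A₁ := Nat.le_of_mul_le_mul_left h1 (pow_pos hp.pos j)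
      exact le_trans (Nat.pow_le_pow_right hp.pos (by omega)) h2
    have hA₁el : IsElementaryAbelian p A₁ := Cfsg.Agent.Lib.Helper40.elemAb_mono hA hA₁
    -- facts about `E₁ ⊔ ⟨x⟩`
    have hxE : ∀ x ∈ A₁, x ≠ 1 → x ∉ E₁ := by
      intro x hx hx1 hxE
      have : x ∈ E₁ ⊓ A₁ := ⟨hxE, hx⟩
      rw [hint, mem_bot] at this
      exact hx1 this
    have hFA : ∀ x ∈ A₁, E₁ ⊔ zpowers x ≤ A := fun x hx =>
      sup_le hE₁ (Subgroup.zpowers_le_of_mem (hA₁ hx))
    have hFcard : ∀ x ∈ A₁, x ≠ 1 → Nat.card (E₁ ⊔ zpowers x : Subgroup G) = p ^ (j + 1) := by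
      intro x hx hx1
      rw [card_sup_zpowers hA hE₁ (hA₁ hx) (hxE x hx hx1), hE₁j, pow_succ]
    have hpW : ¬ p ∣ Nat.card (centralizerPPrimeCore p (e₀ : G)) := by
      have := Cfsg.Agent.Lib.Helper40.coprime_card_centralizerPPrimeCore hp (e₀ : G)
      exact fun h => hp.one_lt.ne' (Nat.Coprime.eq_one_of_dvd this.symm h)
    -- the functor
    have hψ : IsSolvableSignalizerFunctor p A₁ (fun x => Th p k A (E₁ ⊔ zpowers x)) := by
      refine ⟨⟨?_, ?_, ?_, ?_⟩, ?_⟩
      · intro x hx hx1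
        refine Th_le_cent.trans (Subgroup.centralizer_le ?_)
        intro y hy
        rw [Set.mem_singleton_iff] at hy
        rw [hy]
        exact mem_sup_right (Subgroup.mem_zpowers x)
      · intro x hx hx1 h
        exact hpW (dvd_trans h (Subgroup.card_dvd_of_le (Th_le_W (mem_sup_left e₀.2) he₀1)))
      · intro x hx hx1 b hb u hu
        exact conj_mem_of_le_normalizer (Th_normalized hA _) b (hA₁ hb) u hu
      · intro x hx hx1 y hy hy1 g hg
        have h1 : g ∈ centralizer ((E₁ ⊔ zpowers y : Subgroup G) : Set G) := by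
          apply mem_cent_sup
          · exact Subgroup.centralizer_le (SetLike.coe_subset_coe.mpr
              (le_sup_left : E₁ ≤ E₁ ⊔ zpowers x)) (Th_le_cent hg.1)
          · exact cent_singleton_le_zpowers y hg.2
        exact ihP (E₁ ⊔ zpowers x) (hFA x hx) (hFcard x hx hx1) (E₁ ⊔ zpowers y) (hFA y hy)
          (by rw [hFcard y hy hy1]; exact Nat.pow_le_pow_right hp.pos (by omega)) ⟨hg.1, h1⟩
      · intro x hx hx1
        exact Cfsg.Agent.Lib.Helper1.isSolvable_of_le' (Th_le_W (mem_sup_left e₀.2) he₀1)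
          (hsolv _ he₀A he₀1)
    have hcl_le : signalizerClosure A₁ (fun x => Th p k A (E₁ ⊔ zpowers x)) ≤ Th p k A E₁ :=
      iSup_le fun x => Th_anti le_sup_left
    have hcl_ge : Th p k A E₁ ≤ signalizerClosure A₁ (fun x => Th p k A (E₁ ⊔ zpowers x)) := by
      apply iSup_le
      rintro ⟨D, hE₁D, hDA, hDk⟩
      have hne : ¬ D ≤ E₁ := by
        intro hle
        have h1 := Subgroup.card_le_of_le hle
        rw [hDk, hE₁j] at h1
        have := (Nat.pow_le_pow_iff_right hp.one_lt).mp h1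
        omega
      obtain ⟨d', hd'D, hd'E⟩ := SetLike.not_le_iff_exists.mp hne
      obtain ⟨e', he', x, hx, hd'x⟩ := hcov d' (hDA hd'D)
      have hx1 : x ≠ 1 := by
        intro h
        rw [h, mul_one] at hd'x
        exact hd'E (hd'x ▸ he')
      have hxD : x ∈ D := by
        have : x = e'⁻¹ * d' := by rw [hd'x]; group
        rw [this]
        exact D.mul_mem (D.inv_mem (hE₁D he')) hd'D
      have hFD : E₁ ⊔ zpowers x ≤ D := sup_le hE₁D (Subgroup.zpowers_le_of_mem hxD)
      exact (delta_le_Th hFD hDA hDk).trans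
        (le_signalizerClosure (fun x => Th p k A (E₁ ⊔ zpowers x)) hx hx1)
    have hclW : signalizerClosure A₁ (fun x => Th p k A (E₁ ⊔ zpowers x)) ≤
        centralizerPPrimeCore p (e₀ : G) := hcl_le.trans (Th_le_W e₀.2 he₀1)
    have hw := wssft hA₁el hA₁3 (fun x => Th p k A (E₁ ⊔ zpowers x)) hψ
      (Cfsg.Agent.Lib.Helper1.isSolvable_of_le' hclW (hsolv _ he₀A he₀1))
      (fun h => hpW (dvd_trans h (Subgroup.card_dvd_of_le hclW)))
    have key : ∀ x ∈ A₁, x ≠ 1 →
        Th p k A E₁ ⊓ centralizer ({x} : Set G) ≤ Th p k A (E₁ ⊔ zpowers x) := by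
      intro x hx hx1 g hg
      have := (hw x hx hx1).le ⟨hcl_ge hg.1, hg.2⟩
      exact this
    -- the conclusion
    by_cases hE₂E₁ : E₂ ≤ E₁
    · exact inf_le_left.trans (Th_anti hE₂E₁)
    · obtain ⟨x', hx'E₂, hx'E₁⟩ := SetLike.not_le_iff_exists.mp hE₂E₁
      obtain ⟨e', he', x, hx, hx'x⟩ := hcov x' (hE₂ hx'E₂)
      have hx1 : x ≠ 1 := by
        intro h
        rw [h, mul_one] at hx'x
        exact hx'E₁ (hx'x ▸ he')
      intro g hg
      have hgx' : x' * g = g * x' := mem_centralizer_iff.mp hg.2 x' hx'E₂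
      have hge' : e' * g = g * e' := mem_centralizer_iff.mp (Th_le_cent hg.1) e' he'
      have hgx : x * g = g * x := by
        have hxe : x = e'⁻¹ * x' := by rw [hx'x]; group
        have c1 : Commute x' g := hgx'
        have c2 : Commute e' g := hge'
        rw [hxe]
        exact (c2.inv_left.mul_left c1).eq
      have h1 : g ∈ Th p k A (E₁ ⊔ zpowers x) :=
        key x hx hx1 ⟨hg.1, Subgroup.mem_centralizer_singleton_iff.mpr hgx.symm⟩
      exact ihP (E₁ ⊔ zpowers x) (hFA x hx) (hFcard x hx hx1) E₂ hE₂ hE₂k ⟨h1, hg.2⟩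

end Main

/-- Let G be finite and k-balanced for the prime p (k ≥ 1), A an elementary abelian p-subgroup of order at least p^(k+2) such that O_{p'}(C_G(a)) is solvable for every non-identity a ∈ A. For a ∈ A put θ a = the subgroup generated by the Δ_G(D) ∩ C_G(a) over the subgroups D ≤ A of order p^k. Then θ is an A-signalizer functor. -/
theorem result {G : Type*} [Group G] [Finite G] (p k : ℕ) [Fact p.Prime] (hk : 1 ≤ k) (hbal : Cfsg.IsKBalanced p k G) (A : Subgroup G) (hA : Cfsg.IsElementaryAbelian p A) (hAk : p ^ (k + 2) ≤ Nat.card ↥A) (hsolv : ∀ a ∈ A, a ≠ 1 → Group.IsSolvable ↥(Cfsg.centralizerPPrimeCore p a)) : Cfsg.IsSignalizerFunctor p A (fun a => ⨆ D : {D : Subgroup G // D ≤ A ∧ Nat.card ↥D = p ^ k}, Cfsg.signalizerDelta p (D : Subgroup G) ⊓ Subgroup.centralizer {a}) := by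
  have hp := (Fact.out : p.Prime)
  have hP1 := main hbal hA hAk hsolv (k - 1) 1 le_rfl (by omega)
  have hord : ∀ a ∈ A, a ≠ 1 → orderOf a = p := fun a ha ha1 => orderOf_eq_prime (hA.2 a ha) ha1
  have hzcard : ∀ a ∈ A, a ≠ 1 → Nat.card (zpowers a) = p := fun a ha ha1 => by
    rw [Nat.card_zpowers, hord a ha ha1]
  have hple : p ≤ p ^ k := by
    calc p = p ^ 1 := (pow_one p).symm
      _ ≤ p ^ k := Nat.pow_le_pow_right hp.pos hk
  have hW : ∀ a ∈ A, a ≠ 1 → (⨆ D : {D : Subgroup G // D ≤ A ∧ Nat.card ↥D = p ^ k},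
      Cfsg.signalizerDelta p (D : Subgroup G) ⊓ Subgroup.centralizer {a}) ≤
      centralizerPPrimeCore p a := by
    intro a ha ha1
    apply iSup_le
    rintro ⟨D, hDA, hDk⟩
    exact hbal D (Cfsg.Agent.Lib.Helper40.elemAb_mono hA hDA) hDk a (hord a ha ha1)
      (fun d hd => Cfsg.Agent.Lib.Helper40.elemAb_comm hA (hDA hd) ha)
  refine ⟨?_, ?_, ?_, ?_⟩
  · intro a ha ha1
    exact iSup_le fun D => inf_le_right
  · intro a ha ha1 h
    have := Cfsg.Agent.Lib.Helper40.coprime_card_centralizerPPrimeCore hp a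
    exact hp.one_lt.ne' (Nat.Coprime.eq_one_of_dvd this.symm
      (dvd_trans h (Subgroup.card_dvd_of_le (hW a ha ha1))))
  · intro a ha ha1 b hb x hx
    have hn : A ≤ normalizer ((⨆ D : {D : Subgroup G // D ≤ A ∧ Nat.card ↥D = p ^ k},
        Cfsg.signalizerDelta p (D : Subgroup G) ⊓ Subgroup.centralizer {a} : Subgroup G) : Set G) := by
      apply le_normalizer_iSup
      rintro ⟨D, hDA, hDk⟩
      apply le_normalizer_of_conj_mem
      intro c hc u hu
      refine ⟨conj_mem_of_le_normalizer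
        (Cfsg.Agent.Lib.Helper40.le_normalizer_signalizerDelta hA hDA) c hc u hu.1,
        Subgroup.mem_centralizer_singleton_iff.mpr ?_⟩
      have h1 : u * a = a * u := Subgroup.mem_centralizer_singleton_iff.mp hu.2
      have h2 : c * a = a * c := Cfsg.Agent.Lib.Helper40.elemAb_comm hA hc ha
      have c1 : Commute u a := h1
      have c2 : Commute c a := h2
      exact ((c2.mul_left c1).mul_left c2.inv_left).eq
    exact conj_mem_of_le_normalizer hn b hb x hx
  · intro a ha ha1 b hb hb1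
    have hza : zpowers a ≤ A := Subgroup.zpowers_le_of_mem ha
    have hzb : zpowers b ≤ A := Subgroup.zpowers_le_of_mem hb
    -- step 1
    have h1 : (⨆ D : {D : Subgroup G // D ≤ A ∧ Nat.card ↥D = p ^ k},
        Cfsg.signalizerDelta p (D : Subgroup G) ⊓ Subgroup.centralizer {a}) ≤
        Th p k A (zpowers a) := by
      apply iSup_le
      rintro ⟨D, hDA, hDk⟩
      exact le_trans (inf_le_inf_left _ (cent_singleton_le_zpowers a))
        (delta_inf_cent_le_Th hbal hA hDA hDk hza (by rw [hzcard a ha ha1]; exact hple))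
    -- step 2
    have h2 : Th p k A (zpowers a) ⊓ centralizer ((zpowers b : Subgroup G) : Set G) ≤
        Th p k A (zpowers b) :=
      hP1 (zpowers a) hza (by rw [hzcard a ha ha1, pow_one]) (zpowers b) hzb
        (by rw [hzcard b hb hb1]; exact hple)
    -- step 3
    have h3 : Th p k A (zpowers b) ≤ (⨆ D : {D : Subgroup G // D ≤ A ∧ Nat.card ↥D = p ^ k},
        Cfsg.signalizerDelta p (D : Subgroup G) ⊓ Subgroup.centralizer {b}) := by
      apply iSup_le
      rintro ⟨D, hbD, hDA, hDk⟩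
      refine le_trans ?_ (le_iSup (fun D : {D : Subgroup G // D ≤ A ∧ Nat.card ↥D = p ^ k} =>
        Cfsg.signalizerDelta p (D : Subgroup G) ⊓ Subgroup.centralizer {b}) ⟨D, hDA, hDk⟩)
      refine le_inf le_rfl ((delta_le_cent D).trans (Subgroup.centralizer_le ?_))
      intro y hy
      rw [Set.mem_singleton_iff] at hy
      rw [hy]
      exact hbD (Subgroup.mem_zpowers b)
    intro g hg
    exact h3 (h2 ⟨h1 hg.1, cent_singleton_le_zpowers b hg.2⟩)

end Cfsg.Agent.S1299
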