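import Cfsg.Statements.S1300
import Mathlib

set_option autoImplicit false
open Cfsg

namespace Cfsg.Agent.S1300

theorem delta_eq {G : Type*} [Group G] (A : Subgroup G) (hA : IsElementaryAbelian 2 A)
    (hcard : Nat.card A = 2 ^ 1) :
    ∃ x : G, orderOf x = 2 ∧ x ∈ A ∧ signalizerDelta 2 A = centralizerPPrimeCore 2 x := by
  classical
  have hfin : Finite A := Nat.finite_of_card_ne_zero (by rw [hcard]; norm_num)
  have hne : ∃ x : A, x ≠ 1 := by
    by_contra hcon
    push Not at hcon
    have : Subsingleton A := ⟨fun a b => by rw [hcon a, hcon b]⟩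
    have := Nat.card_of_subsingleton (1 : A)
    omega
  obtain ⟨⟨x, hxA⟩, hx1⟩ := hne
  have hx1' : x ≠ 1 := fun h => hx1 (Subtype.ext h)
  have hx2 : x ^ 2 = 1 := hA.2 x hxA
  have hox : orderOf x = 2 := orderOf_eq_prime hx2 hx1'
  refine ⟨x, hox, hxA, ?_⟩
  have hall : ∀ a : G, a ∈ A → a ≠ 1 → a = x := by
    intro a haA ha1
    by_contra hne
    have hcard3 : 2 < Nat.card A := by
      have h3 : Function.Injective (fun i : Fin 3 => (![(1 : A), ⟨x, hxA⟩, ⟨a, haA⟩] i)) := by
        intro i j hij
        fin_cases i <;> fin_cases j <;> simp_all [Subtype.ext_iff]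
      have := Nat.card_le_card_of_injective _ h3
      simp at this
      omega
    omega
  unfold signalizerDelta
  apply le_antisymm
  · exact iInf_le_of_le ⟨x, hxA, hx1'⟩ le_rfl
  · apply le_iInf
    rintro ⟨a, haA, ha1⟩
    have := hall a haA ha1
    subst this
    exact le_rfl

/-- For a finite group G, balance in the sense of commuting involutions is the same as 1-balance for the prime 2. -/
theorem result {G : Type*} [Group G] [Finite G] : Cfsg.IsBalanced G ↔ Cfsg.IsKBalanced 2 1 G := by
  constructor
  · intro hbal A hA hcard b hb hcomm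
    obtain ⟨x, hox, hxA, hdelta⟩ := delta_eq A hA hcard
    rw [hdelta, hbal x b hox hb (hcomm x hxA)]
    exact inf_le_left
  · intro hk
    have key : ∀ x y : G, orderOf x = 2 → orderOf y = 2 → x * y = y * x →
        centralizerPPrimeCore 2 x ⊓ Subgroup.centralizer {y} ≤
          centralizerPPrimeCore 2 y ⊓ Subgroup.centralizer {x} := by
      intro x y hx hy hxy
      have hA : IsElementaryAbelian 2 (Subgroup.zpowers x) := by
        refine ⟨inferInstance, ?_⟩
        intro a ha
        obtain ⟨k, rfl⟩ := Subgroup.mem_zpowers_iff.mp ha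
        rw [← zpow_natCast, ← zpow_mul, mul_comm, zpow_mul, zpow_natCast, ← hx, pow_orderOf_eq_one, one_zpow]
      have hcard : Nat.card (Subgroup.zpowers x) = 2 ^ 1 := by
        rw [Nat.card_zpowers, hx]; norm_num
      obtain ⟨x', hox', hx'A, hdelta⟩ := delta_eq _ hA hcard
      have hx'x : x' = x := by
        obtain ⟨k, rfl⟩ := Subgroup.mem_zpowers_iff.mp hx'A
        have h2 : x ^ 2 = 1 := by rw [← hx, pow_orderOf_eq_one]
        rcases Int.emod_two_eq_zero_or_one k with hk0 | hk1
        · exfalso
          have : x ^ k = 1 := by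
            rw [← Int.mul_ediv_add_emod k 2, hk0, add_zero, zpow_mul]
            rw [show x ^ (2 : ℤ) = 1 from by exact_mod_cast h2, one_zpow]
          rw [this] at hox'
          simp at hox'
        · rw [← Int.mul_ediv_add_emod k 2, hk1, zpow_add, zpow_mul]
          rw [show x ^ (2 : ℤ) = 1 from by exact_mod_cast h2, one_zpow, one_mul, zpow_one]
      rw [hx'x] at hdelta
      have hcomm : ∀ a ∈ Subgroup.zpowers x, a * y = y * a := by
        intro a ha
        obtain ⟨k, rfl⟩ := Subgroup.mem_zpowers_iff.mp ha
        exact ((Commute.zpow_left (show Commute x y from hxy) k)).eq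
      have h1 := hk _ hA hcard y hy hcomm
      rw [hdelta] at h1
      refine le_inf h1 ?_
      refine inf_le_left.trans ?_
      unfold centralizerPPrimeCore
      exact Subgroup.map_subtype_le _
    intro x y hx hy hxy
    exact le_antisymm (key x y hx hy hxy) (key y x hy hx hxy.symm)

end Cfsg.Agent.S1300
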