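import Cfsg.Statements.S1303
import Cfsg.Agent.Lib.Helper30.PLayer

set_option autoImplicit false
open Cfsg
open Cfsg.Agent.Lib.Helper30
open scoped commutatorElement

namespace Cfsg.Agent.S1303

/-- Local abbreviation for `SL(2, 3)`. -/
abbrev SL23 := Matrix.SpecialLinearGroup (Fin 2) (ZMod 3)

set_option maxRecDepth 100000 in
theorem card_SL23 : Fintype.card SL23 = 24 := by decide

set_option maxRecDepth 100000 in
theorem invol_central : ∀ t : SL23, t * t = 1 → t ≠ 1 → ∀ g : SL23, g * t = t * g := by decide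

set_option maxRecDepth 100000 in
theorem conj_prod : ∀ n : SL23, n ≠ 1 → n * n * n = 1 →
    ∃ g : SL23, (g * n * g⁻¹ * n) * (g * n * g⁻¹ * n) * (g * n * g⁻¹ * n) ≠ 1 := by decide

set_option maxRecDepth 100000 in
theorem q_mul : ∀ a b : SL23, a * a * a * a = 1 → b * b * b * b = 1 →
    (a * b) * (a * b) * (a * b) * (a * b) = 1 := by decide

set_option maxRecDepth 100000 in
theorem q_inv : ∀ a : SL23, a * a * a * a = 1 → a⁻¹ * a⁻¹ * a⁻¹ * a⁻¹ = 1 := by decide

set_option maxRecDepth 100000 in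
theorem z_mul : ∀ a b : SL23, a * a = 1 → b * b = 1 → (a * b) * (a * b) = 1 := by decide

set_option maxRecDepth 100000 in
theorem z_inv : ∀ a : SL23, a * a = 1 → a⁻¹ * a⁻¹ = 1 := by decide

set_option maxRecDepth 100000 in
theorem comm1 : ∀ a b : SL23, (a * b * a⁻¹ * b⁻¹) * (a * b * a⁻¹ * b⁻¹) * (a * b * a⁻¹ * b⁻¹) *
    (a * b * a⁻¹ * b⁻¹) = 1 := by decide

set_option maxRecDepth 100000 in
theorem comm2 : ∀ a b : SL23, a * a * a * a = 1 → b * b * b * b = 1 →
    (a * b * a⁻¹ * b⁻¹) * (a * b * a⁻¹ * b⁻¹) = 1 := by decide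

set_option maxRecDepth 100000 in
theorem comm3 : ∀ a b : SL23, a * a = 1 → b * b = 1 → a * b * a⁻¹ * b⁻¹ = 1 := by decide

/-- The quaternion subgroup of `SL(2, 3)`. -/
def subQ : Subgroup SL23 where
  carrier := {a | a * a * a * a = 1}
  mul_mem' := fun ha hb => q_mul _ _ ha hb
  one_mem' := by simp
  inv_mem' := fun ha => q_inv _ ha

/-- The subgroup `{±1}` of `SL(2, 3)`. -/
def subZ : Subgroup SL23 where
  carrier := {a | a * a = 1}
  mul_mem' := fun ha hb => z_mul _ _ ha hb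
  one_mem' := by simp
  inv_mem' := fun ha => z_inv _ ha

theorem solvable_SL23 : Group.IsSolvable SL23 := by
  rw [isSolvable_def]
  refine ⟨3, ?_⟩
  have h1 : derivedSeries SL23 1 ≤ subQ := by
    rw [derivedSeries_succ, derivedSeries_zero, Subgroup.commutator_le]
    intro a _ b _
    show ⁅a, b⁆ * ⁅a, b⁆ * ⁅a, b⁆ * ⁅a, b⁆ = 1
    rw [commutatorElement_def]
    exact comm1 a b
  have h2 : derivedSeries SL23 2 ≤ subZ := by
    rw [derivedSeries_succ]
    refine le_trans (Subgroup.commutator_mono h1 h1) ?_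
    rw [Subgroup.commutator_le]
    intro a ha b hb
    show ⁅a, b⁆ * ⁅a, b⁆ = 1
    rw [commutatorElement_def]
    exact comm2 a b ha hb
  rw [eq_bot_iff, derivedSeries_succ]
  refine le_trans (Subgroup.commutator_mono h2 h2) ?_
  rw [Subgroup.commutator_le]
  intro a ha b hb
  rw [Subgroup.mem_bot, commutatorElement_def]
  exact comm3 a b ha hb

/-- The element `[[1,1],[0,1]]` of order 3. -/
def elU : SL23 := ⟨!![1, 1; 0, 1], by decide⟩

theorem elU_pow : elU ^ 3 = 1 := by decide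

theorem elU_ne : elU ≠ 1 := by decide

theorem core_eq_bot : pPrimeCore 2 SL23 = ⊥ := by
  by_contra hne
  obtain ⟨n, hn1⟩ := (Subgroup.ne_bot_iff_exists_ne_one).mp hne
  have hcard : Nat.card SL23 = 24 := by rw [Nat.card_eq_fintype_card, card_SL23]
  have hdvd : Nat.card (pPrimeCore 2 SL23) ∣ 3 := by
    have h1 : Nat.card (pPrimeCore 2 SL23) ∣ 3 * 8 := by
      have := Subgroup.card_subgroup_dvd_card (pPrimeCore 2 SL23)
      rwa [hcard] at this
    have h2 : (Nat.card (pPrimeCore 2 SL23)).Coprime 8 :=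
      Nat.Coprime.pow_right 3 (pPrimeCore_coprime (G := SL23) 2)
    exact Nat.Coprime.dvd_of_dvd_mul_right h2 h1
  have hpow : ∀ m ∈ pPrimeCore 2 SL23, m * m * m = 1 := by
    intro m hm
    have h1 : orderOf m ∣ 3 := dvd_trans (Subgroup.orderOf_dvd_natCard _ hm) hdvd
    have h2 := orderOf_dvd_iff_pow_eq_one.mp h1
    rw [← h2, pow_succ, pow_succ, pow_one]
  obtain ⟨g, hg⟩ := conj_prod n.1 (fun h => hn1 (Subtype.ext h)) (hpow n.1 n.2)
  have hN := pPrimeCore_normal 2 SL23
  exact hg (hpow _ (Subgroup.mul_mem _ (hN.conj_mem _ n.2 g) n.2))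

theorem result : Cfsg.IsPConstrained 2 (Matrix.SpecialLinearGroup (Fin 2) (ZMod 3)) ∧ Cfsg.pPrimeCore 2 (Matrix.SpecialLinearGroup (Fin 2) (ZMod 3)) = ⊥ ∧ (∀ t : Matrix.SpecialLinearGroup (Fin 2) (ZMod 3), orderOf t = 2 → t ∈ Subgroup.center (Matrix.SpecialLinearGroup (Fin 2) (ZMod 3))) ∧ ∃ Q : Subgroup (Matrix.SpecialLinearGroup (Fin 2) (ZMod 3)), Nat.card ↥Q = 3 ∧ ¬ (Q ≤ Cfsg.pPrimeCore 2 (Matrix.SpecialLinearGroup (Fin 2) (ZMod 3))) := by
  refine ⟨?_, core_eq_bot, ?_, ?_⟩
  · apply isPConstrained_of_layer_quotient 2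
    rw [layer_eq_bot_iff]
    intro K hK
    have hs := solvable_SL23
    have hq : Group.IsSolvable (SL23 ⧸ pPrimeCore 2 SL23) := inferInstance
    exact comp_not_solvable hK inferInstance
  · intro t ht
    rw [Subgroup.mem_center_iff]
    intro g
    have h1 : t * t = 1 := by
      have := pow_orderOf_eq_one t
      rw [ht, pow_two] at this
      exact this
    have h2 : t ≠ 1 := by
      rintro rfl
      rw [orderOf_one] at ht
      omega
    exact invol_central t h1 h2 g
  · refine ⟨Subgroup.zpowers elU, ?_, ?_⟩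
    · rw [Nat.card_zpowers]
      exact orderOf_eq_prime elU_pow elU_ne
    · intro h
      have := h (Subgroup.mem_zpowers elU)
      rw [core_eq_bot, Subgroup.mem_bot] at this
      exact elU_ne this

end Cfsg.Agent.S1303
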