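import Cfsg.Statements.S1304
import Mathlib

set_option autoImplicit false
open Cfsg
open scoped commutatorElement

namespace Cfsg.Agent.S1304

/-- Let X be a perfect group and α an automorphism of X with α(x) x⁻¹ central for every x. Then α is the identity. -/
theorem result {X : Type*} [Group X] (hperf : commutator X = ⊤) (α : X ≃* X) (h : ∀ x : X, α x * x⁻¹ ∈ Subgroup.center X) : ∀ x : X, α x = x := by
  have key : ∀ a b : X, α ⁅a, b⁆ = ⁅a, b⁆ := by
    intro a b
    have ha := h a
    have hb := h b
    rw [Subgroup.mem_center_iff] at ha hb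
    have e1 : α a = (α a * a⁻¹) * a := by simp
    have e2 : α b = (α b * b⁻¹) * b := by simp
    generalize α a * a⁻¹ = z at ha e1
    generalize α b * b⁻¹ = w at hb e2
    simp only [commutatorElement_def, map_mul, map_inv]
    rw [e1, e2]
    have hz : ∀ g, z * g = g * z := fun g => (ha g).symm
    have hw : ∀ g, w * g = g * w := fun g => (hb g).symm
    have cz : ∀ g, z * g * z⁻¹ = g := fun g => by rw [hz g, mul_inv_cancel_right]
    have cw : ∀ g, w * g * w⁻¹ = g := fun g => by rw [hw g, mul_inv_cancel_right]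
    calc z * a * (w * b) * (z * a)⁻¹ * (w * b)⁻¹
        = z * (a * (w * b) * a⁻¹) * z⁻¹ * (w * b)⁻¹ := by group
      _ = a * (w * b) * a⁻¹ * (w * b)⁻¹ := by rw [cz]
      _ = (a * w) * b * a⁻¹ * (w * b)⁻¹ := by group
      _ = (w * a) * b * a⁻¹ * (w * b)⁻¹ := by rw [hw a]
      _ = w * (a * b * a⁻¹ * b⁻¹) * w⁻¹ := by group
      _ = a * b * a⁻¹ * b⁻¹ := cw _
  have hle : commutator X ≤ (α.toMonoidHom).eqLocus (MonoidHom.id X) := by
    rw [commutator_eq_closure, Subgroup.closure_le]
    rintro g ⟨a, b, rfl⟩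
    exact key a b
  intro x
  have hx : x ∈ commutator X := by rw [hperf]; trivial
  exact hle hx

end Cfsg.Agent.S1304
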