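import Cfsg.Statements.S1306
import Cfsg.Agent.Lib.Helper30.Conj

set_option autoImplicit false
open Cfsg

namespace Cfsg.Agent.S1306

open Cfsg.Agent.Lib.Helper30 in
/-- Let x be an involution of a finite group G and L a component of C_G(x). If L is a component of C_G(y) for every involution y centralizing L, and L commutes elementwise with no conjugate of L other than itself, then L is a standard subgroup of G. -/
theorem result {G : Type*} [Group G] [Finite G] (x : G) (hx : orderOf x = 2) (L : Subgroup G) (hLx : L ≤ Subgroup.centralizer ({x} : Set G)) (hL : Cfsg.IsComponent (L.subgroupOf (Subgroup.centralizer ({x} : Set G)))) (hne : ∀ y : G, orderOf y = 2 → y ∈ Subgroup.centralizer (L : Set G) → L ≤ Subgroup.centralizer ({y} : Set G) ∧ Cfsg.IsComponent (L.subgroupOf (Subgroup.centralizer ({y} : Set G)))) (hnc : ∀ g : G, L.map (MulAut.conj g).toMonoidHom ≠ L → ⁅L, L.map (MulAut.conj g).toMonoidHom⁆ ≠ ⊥) : Cfsg.IsStandardSubgroup L := by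
  have hxC : x ∈ Subgroup.centralizer (L : Set G) := by
    rw [Subgroup.mem_centralizer_iff]
    intro l hl
    have := hLx hl
    exact (Subgroup.mem_centralizer_iff.mp this x rfl).symm
  have key : ∀ g y : G, orderOf y = 2 → y ∈ Subgroup.centralizer (L : Set G) →
      y ∈ (Subgroup.centralizer (L : Set G)).map (MulAut.conj g).toMonoidHom →
      L.map (MulAut.conj g).toMonoidHom = L := by
    intro g y hy hyC hyCg
    by_contra hcon
    apply hnc g hcon
    obtain ⟨h1, h2⟩ := hne y hy hyC
    have hy' : g⁻¹ * y * g ∈ Subgroup.centralizer (L : Set G) := (mem_map_conj_iff g y _).mp hyCg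
    have hoy' : orderOf (g⁻¹ * y * g) = 2 := by
      have := orderOf_conj g⁻¹ y
      rw [inv_inv] at this
      rw [this, hy]
    obtain ⟨h3, h4⟩ := hne _ hoy' hy'
    obtain ⟨h5, h6⟩ := isComponent_centralizer_conj g (g⁻¹ * y * g) h3 h4
    have e : g * (g⁻¹ * y * g) * g⁻¹ = y := by group
    rw [e] at h5 h6
    have hne' : L.subgroupOf (Subgroup.centralizer ({y} : Set G)) ≠
        (L.map (MulAut.conj g).toMonoidHom).subgroupOf (Subgroup.centralizer ({y} : Set G)) := by
      intro heq
      apply hcon
      exact le_antisymm (le_of_subgroupOf_le h5 heq.ge) (le_of_subgroupOf_le h1 heq.le)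
    have := components_commute h2 h6 hne'
    exact commutator_eq_bot_of_subgroupOf h1 h5 this
  refine ⟨?_, ⟨?_, ?_⟩, hnc, ?_⟩
  · exact isQuasisimple_of_mulEquiv (Subgroup.subgroupOfEquivOfLe hLx) hL.2
  · have h1 : orderOf x ∣ Nat.card (Subgroup.centralizer (L : Set G)) := by
      have := orderOf_dvd_natCard (⟨x, hxC⟩ : Subgroup.centralizer (L : Set G))
      rwa [Subgroup.orderOf_mk] at this
    rw [hx] at h1
    exact even_iff_two_dvd.mpr h1
  · intro g hg
    by_contra hodd
    rw [Nat.not_odd_iff_even, even_iff_two_dvd] at hodd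
    have : Fact (Nat.Prime 2) := ⟨Nat.prime_two⟩
    obtain ⟨⟨y, hyK⟩, hy⟩ := exists_prime_orderOf_dvd_card' 2 hodd
    have hy2 : orderOf y = 2 := by rwa [Subgroup.orderOf_mk] at hy
    have h1 := key g y hy2 hyK.1 hyK.2
    apply hg
    rw [mem_normalizer_iff_map_conj, map_conj_centralizer, h1]
  · ext g
    rw [mem_normalizer_iff_map_conj, mem_normalizer_iff_map_conj]
    constructor
    · intro h
      rw [map_conj_centralizer, h]
    · intro h
      apply key g x hx hxC
      rw [h]
      exact hxC

end Cfsg.Agent.S1306
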