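import Cfsg.Statements.S1307
import Mathlib
import Cfsg.Agent.S0201
import Cfsg.Agent.Lib.Helper43.BSRed

set_option autoImplicit false
open Cfsg

namespace Cfsg.Agent.S1307

/-- Let G be finite, x an involution and L ≤ C_G(x) a component of C_G(x) of even order and 2-rank 1, such that L is a component of C_G(y) for every involution y ∈ C_G(L). Then some involution of L is a classical involution of G. -/
theorem result {G : Type*} [Group G] [Finite G] (x : G) (hx : orderOf x = 2) (L : Subgroup G) (hLx : L ≤ Subgroup.centralizer ({x} : Set G)) (hL : Cfsg.IsComponent (L.subgroupOf (Subgroup.centralizer ({x} : Set G)))) (heven : Even (Nat.card ↥L)) (hrk : Cfsg.PRankLE 2 1 ↥L) (hne : ∀ y : G, orderOf y = 2 → y ∈ Subgroup.centralizer (L : Set G) → L ≤ Subgroup.centralizer ({y} : Set G) ∧ Cfsg.IsComponent (L.subgroupOf (Subgroup.centralizer ({y} : Set G)))) : ∃ t ∈ L, Cfsg.IsClassicalInvolution t :=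
  Cfsg.Agent.Lib.Helper43.classical_of_BS
    (fun S n e hO => Cfsg.Agent.S0201.result S n e hO) x L hLx hL heven hrk hne

end Cfsg.Agent.S1307
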