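import Cfsg.Statements.S1314
import Mathlib

set_option autoImplicit false
open Cfsg
open scoped commutatorElement

namespace Cfsg.Agent.S1314

theorem comm_aux {G : Type*} [Group G] (n m z w : G) (h1 : z * m = m * z) (h3 : z * w = w * z)
    (h4 : w * n = n * w) : ⁅n * z, m * w⁆ = ⁅n, m⁆ := by
  have c1 : z * (m * w) * z⁻¹ = m * w := by
    rw [← mul_assoc, h1, mul_assoc m z w, h3, ← mul_assoc, mul_inv_cancel_right]
  have c2 : w * n⁻¹ * w⁻¹ = n⁻¹ := by
    have : w * n⁻¹ = n⁻¹ * w := by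
      calc w * n⁻¹ = n⁻¹ * (n * w) * n⁻¹ := by group
        _ = n⁻¹ * (w * n) * n⁻¹ := by rw [h4]
        _ = n⁻¹ * w := by group
    rw [this, mul_inv_cancel_right]
  rw [commutatorElement_def, commutatorElement_def]
  calc n * z * (m * w) * (n * z)⁻¹ * (m * w)⁻¹
      = n * (z * (m * w) * z⁻¹) * n⁻¹ * (m * w)⁻¹ := by group
    _ = n * (m * w) * n⁻¹ * (m * w)⁻¹ := by rw [c1]
    _ = n * m * (w * n⁻¹ * w⁻¹) * m⁻¹ := by group
    _ = n * m * n⁻¹ * m⁻¹ := by rw [c2]

/-- Let x be an involution of a group G and L a perfect subgroup with ⁅L, x L x⁻¹⁆ = 1. Then l ↦ l (x l x⁻¹) is a group homomorphism π from L to G whose kernel is central in L and whose image lies in C_G(x); and the commutator subgroup of C_{L ⊔ xLx⁻¹}(x) equals the image of π. -/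
theorem result {G : Type*} [Group G] [Finite G] (x : G) (hx : orderOf x = 2) (L : Subgroup G) (hperf : ⁅L, L⁆ = L) (hcomm : ⁅L, L.map (MulAut.conj x).toMonoidHom⁆ = ⊥) : ∃ π : ↥L →* G, (∀ l : ↥L, π l = (l : G) * (x * (l : G) * x⁻¹)) ∧ π.ker ≤ Subgroup.center ↥L ∧ π.range ≤ Subgroup.centralizer ({x} : Set G) ∧ ⁅(L ⊔ L.map (MulAut.conj x).toMonoidHom) ⊓ Subgroup.centralizer ({x} : Set G), (L ⊔ L.map (MulAut.conj x).toMonoidHom) ⊓ Subgroup.centralizer ({x} : Set G)⁆ = π.range := by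
  have hx2 : x * x = 1 := by
    have := pow_orderOf_eq_one x
    rw [hx, pow_two] at this
    exact this
  have hxinv : x⁻¹ = x := inv_eq_of_mul_eq_one_left hx2
  -- membership in the conjugate
  have hmemLx : ∀ g : G, g ∈ L.map (MulAut.conj x).toMonoidHom ↔ ∃ l ∈ L, g = x * l * x⁻¹ := by
    intro g
    constructor
    · rintro ⟨l, hl, rfl⟩
      exact ⟨l, hl, by simp [MulAut.conj_apply]⟩
    · rintro ⟨l, hl, rfl⟩
      exact ⟨l, hl, by simp [MulAut.conj_apply]⟩
  -- elementwise commutation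
  have hc : ∀ a ∈ L, ∀ b ∈ L.map (MulAut.conj x).toMonoidHom, a * b = b * a := by
    intro a ha b hb
    have h1 := Subgroup.commutator_eq_bot_iff_le_centralizer.mp hcomm ha
    exact (Subgroup.mem_centralizer_iff.mp h1 b hb).symm
  have hconjmem : ∀ l ∈ L, x * l * x⁻¹ ∈ L.map (MulAut.conj x).toMonoidHom :=
    fun l hl => (hmemLx _).mpr ⟨l, hl, rfl⟩
  -- conj of element of Lx lands in L
  have hconjback : ∀ b ∈ L.map (MulAut.conj x).toMonoidHom, x * b * x⁻¹ ∈ L := by
    intro b hb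
    obtain ⟨l, hl, rfl⟩ := (hmemLx b).mp hb
    have : x * (x * l * x⁻¹) * x⁻¹ = l := by
      rw [hxinv]
      calc x * (x * l * x) * x = (x * x) * l * (x * x) := by group
        _ = l := by rw [hx2, one_mul, mul_one]
    rw [this]
    exact hl
  let π : ↥L →* G := MonoidHom.mk' (fun l => (l : G) * (x * (l : G) * x⁻¹)) (by
    intro a b
    have h1 := hc b b.2 (x * (a : G) * x⁻¹) (hconjmem a a.2)
    simp only [Subgroup.coe_mul]
    calc (a : G) * b * (x * (a * b) * x⁻¹)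
        = a * (b * (x * a * x⁻¹)) * (x * b * x⁻¹) := by group
      _ = a * ((x * a * x⁻¹) * b) * (x * b * x⁻¹) := by rw [h1]
      _ = a * (x * a * x⁻¹) * (b * (x * b * x⁻¹)) := by group)
  have hπ : ∀ l : ↥L, π l = (l : G) * (x * (l : G) * x⁻¹) := fun l => rfl
  have hrange_cent : π.range ≤ Subgroup.centralizer ({x} : Set G) := by
    rintro g ⟨l, rfl⟩
    rw [Subgroup.mem_centralizer_iff]
    intro h hh
    rw [Set.mem_singleton_iff] at hh
    rw [hh]
    have h1 := hc l l.2 (x * (l : G) * x⁻¹) (hconjmem l l.2)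
    calc x * π l = x * ((x * l * x⁻¹) * l) := by rw [hπ, h1]
      _ = (x * x) * l * x⁻¹ * l := by group
      _ = l * x⁻¹ * l := by rw [hx2, one_mul]
      _ = l * x * l := by rw [hxinv]
      _ = l * (x * l * x⁻¹) * x := by group
      _ = π l * x := by rw [hπ]
  have hker : π.ker ≤ Subgroup.center ↥L := by
    intro l hl
    rw [MonoidHom.mem_ker, hπ] at hl
    have h1 : (l : G)⁻¹ = x * (l : G) * x⁻¹ := inv_eq_of_mul_eq_one_right hl
    have h2 : (l : G)⁻¹ ∈ L.map (MulAut.conj x).toMonoidHom := by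
      rw [h1]; exact hconjmem l l.2
    have h3 : (l : G) ∈ L.map (MulAut.conj x).toMonoidHom := by
      have := inv_mem h2
      rwa [inv_inv] at this
    rw [Subgroup.mem_center_iff]
    intro m
    apply Subtype.ext
    exact hc m m.2 l h3
  -- elements of L ⊔ Lx are products
  have hsup : ∀ g ∈ L ⊔ L.map (MulAut.conj x).toMonoidHom,
      ∃ a ∈ L, ∃ b ∈ L.map (MulAut.conj x).toMonoidHom, g = a * b := by
    let P : Subgroup G :=
      { carrier := {g | ∃ a ∈ L, ∃ b ∈ L.map (MulAut.conj x).toMonoidHom, g = a * b}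
        mul_mem' := by
          rintro _ _ ⟨a, ha, b, hb, rfl⟩ ⟨a', ha', b', hb', rfl⟩
          refine ⟨a * a', mul_mem ha ha', b * b', mul_mem hb hb', ?_⟩
          have := hc a' ha' b hb
          calc a * b * (a' * b') = a * (b * a') * b' := by group
            _ = a * (a' * b) * b' := by rw [this]
            _ = a * a' * (b * b') := by group
        one_mem' := ⟨1, one_mem _, 1, one_mem _, by simp⟩
        inv_mem' := by
          rintro _ ⟨a, ha, b, hb, rfl⟩
          refine ⟨a⁻¹, inv_mem ha, b⁻¹, inv_mem hb, ?_⟩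
          have := hc a⁻¹ (inv_mem ha) b⁻¹ (inv_mem hb)
          rw [mul_inv_rev, this] }
    have hle : L ⊔ L.map (MulAut.conj x).toMonoidHom ≤ P := by
      apply sup_le
      · intro a ha
        exact ⟨a, ha, 1, one_mem _, by simp⟩
      · intro b hb
        exact ⟨1, one_mem _, b, hb, by simp⟩
    intro g hg
    exact hle hg
  -- central elements
  have hcentral : ∀ w, w ∈ L → w ∈ L.map (MulAut.conj x).toMonoidHom →
      ∀ g ∈ L ⊔ L.map (MulAut.conj x).toMonoidHom, w * g = g * w := by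
    intro w hwL hwLx g hg
    obtain ⟨a, ha, b, hb, rfl⟩ := hsup g hg
    have h1 := hc a ha w hwLx
    have h2 := hc w hwL b hb
    calc w * (a * b) = (w * a) * b := by group
      _ = (a * w) * b := by rw [h1]
      _ = a * (w * b) := by group
      _ = a * (b * w) := by rw [h2]
      _ = a * b * w := by group
  -- structure of elements of M
  have hM : ∀ c ∈ (L ⊔ L.map (MulAut.conj x).toMonoidHom) ⊓ Subgroup.centralizer ({x} : Set G),
      ∃ a : ↥L, ∃ w, w ∈ L ∧ w ∈ L.map (MulAut.conj x).toMonoidHom ∧ c = π a * w := by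
    rintro c ⟨hc1, hc2⟩
    obtain ⟨a, ha, b, hb, rfl⟩ := hsup c hc1
    obtain ⟨b₀, hb₀, rfl⟩ := (hmemLx b).mp hb
    have hcx : x * (a * (x * b₀ * x⁻¹)) = (a * (x * b₀ * x⁻¹)) * x :=
      Subgroup.mem_centralizer_iff.mp hc2 x rfl
    -- z = a⁻¹ b₀
    have h1 := hc b₀ hb₀ (x * a * x⁻¹) (hconjmem a ha)
    have h2 : (x * a * x⁻¹) * b₀ = a * (x * b₀ * x⁻¹) := by
      calc (x * a * x⁻¹) * b₀ = x * a * x * b₀ := by rw [hxinv]
        _ = (x * (a * (x * b₀ * x⁻¹))) * x := by group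
        _ = (a * (x * b₀ * x⁻¹) * x) * x := by rw [hcx]
        _ = a * (x * b₀ * x⁻¹) * (x * x) := by group
        _ = a * (x * b₀ * x⁻¹) := by rw [hx2, mul_one]
    have h3 : a⁻¹ * b₀ = x * (b₀ * a⁻¹) * x⁻¹ := by
      calc a⁻¹ * b₀ = a⁻¹ * (b₀ * (x * a * x⁻¹)) * (x * a * x⁻¹)⁻¹ := by group
        _ = a⁻¹ * ((x * a * x⁻¹) * b₀) * (x * a * x⁻¹)⁻¹ := by rw [h1]
        _ = a⁻¹ * (a * (x * b₀ * x⁻¹)) * (x * a * x⁻¹)⁻¹ := by rw [h2]
        _ = x * (b₀ * a⁻¹) * x⁻¹ := by group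
    have hzL : a⁻¹ * b₀ ∈ L := mul_mem (inv_mem ha) hb₀
    have hzLx : a⁻¹ * b₀ ∈ L.map (MulAut.conj x).toMonoidHom := by
      rw [h3]
      exact hconjmem _ (mul_mem hb₀ (inv_mem ha))
    refine ⟨⟨a, ha⟩, x * (a⁻¹ * b₀) * x⁻¹, hconjback _ hzLx, hconjmem _ hzL, ?_⟩
    rw [hπ]
    simp only
    group
  refine ⟨π, hπ, hker, hrange_cent, ?_⟩
  apply le_antisymm
  · rw [Subgroup.commutator_le]
    intro c hc1 c' hc1'
    obtain ⟨a, w, hwL, hwLx, rfl⟩ := hM c hc1
    obtain ⟨a', w', hwL', hwLx', rfl⟩ := hM c' hc1'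
    have hπmem : ∀ a : ↥L, π a ∈ L ⊔ L.map (MulAut.conj x).toMonoidHom := by
      intro a
      rw [hπ]
      exact mul_mem (le_sup_left (a := L) a.2) (le_sup_right (a := L) (hconjmem a a.2))
    have e1 : w * π a' = π a' * w := hcentral w hwL hwLx _ (hπmem a')
    have e2 : w * w' = w' * w := hcentral w hwL hwLx _ (le_sup_left (a := L) hwL')
    have e3 : w' * π a = π a * w' := hcentral w' hwL' hwLx' _ (hπmem a)
    rw [comm_aux (π a) (π a') w w' e1 e2 e3, ← map_commutatorElement]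
    exact ⟨_, rfl⟩
  · have hrM : π.range ≤ (L ⊔ L.map (MulAut.conj x).toMonoidHom) ⊓
        Subgroup.centralizer ({x} : Set G) := by
      apply le_inf _ hrange_cent
      rintro g ⟨l, rfl⟩
      rw [hπ]
      exact mul_mem (le_sup_left (a := L) l.2) (le_sup_right (a := L) (hconjmem l l.2))
    have hLperf : Group.IsPerfect ↥L := Subgroup.isPerfect_iff.mpr hperf
    have h1 : π.range = ⁅π.range, π.range⁆ := by
      have h2 : (⊤ : Subgroup ↥L) = ⁅(⊤ : Subgroup ↥L), ⊤⁆ := by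
        rw [← commutator_def]
        exact hLperf.commutator_eq_top.symm
      conv_lhs => rw [MonoidHom.range_eq_map, h2, Subgroup.map_commutator, ← MonoidHom.range_eq_map]
    rw [h1]
    exact Subgroup.commutator_mono hrM hrM

end Cfsg.Agent.S1314
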