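import Cfsg.Statements.S1316
import Cfsg.Agent.Lib.Helper30.Basic

set_option autoImplicit false
open Cfsg

namespace Cfsg.Agent.S1316

open Cfsg.Agent.Lib.Helper30 in
/-- For a finite group X, the layer E(X) is the terminal member of the derived series of F*(X): the intersection of all terms of the derived series of F*(X) is E(X). -/
theorem result {X : Type*} [Group X] [Finite X] : (⨅ n : ℕ, (derivedSeries ↥(Cfsg.generalizedFittingSubgroup X) n).map (Cfsg.generalizedFittingSubgroup X).subtype) = Cfsg.layer X := by
  have hEn : (layer X).Normal := layer_normal
  have hEle : layer X ≤ generalizedFittingSubgroup X := layer_le_genFitting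
  have hE'n : ((layer X).subgroupOf (generalizedFittingSubgroup X)).Normal :=
    Subgroup.normal_subgroupOf
  have hE'perf : ⁅(layer X).subgroupOf (generalizedFittingSubgroup X),
      (layer X).subgroupOf (generalizedFittingSubgroup X)⁆
        = (layer X).subgroupOf (generalizedFittingSubgroup X) := by
    apply Subgroup.map_injective (generalizedFittingSubgroup X).subtype_injective
    rw [Subgroup.map_commutator, Subgroup.map_subgroupOf_eq_of_le hEle]
    exact layer_perfect
  have hge : ∀ n : ℕ, (layer X).subgroupOf (generalizedFittingSubgroup X)
      ≤ derivedSeries ↥(generalizedFittingSubgroup X) n := by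
    intro n
    induction n with
    | zero => exact le_top
    | succ n ih =>
      rw [derivedSeries_succ, ← hE'perf]
      exact Subgroup.commutator_mono ih ih
  apply le_antisymm
  · -- the quotient is solvable
    have hFsolv : Group.IsSolvable ↥(fittingSubgroup X) := fitting_solvable
    have hsurj : Function.Surjective
        ((QuotientGroup.mk' ((layer X).subgroupOf (generalizedFittingSubgroup X))).comp
          (Subgroup.inclusion (fitting_le_genFitting (G := X)))) := by
      intro q
      obtain ⟨⟨g, hg⟩, rfl⟩ := QuotientGroup.mk'_surjective _ q
      have hg' : g ∈ ((fittingSubgroup X ⊔ layer X : Subgroup X) : Set X) := by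
        rw [sup_comm]
        exact hg
      rw [Subgroup.mul_normal] at hg'
      obtain ⟨f, hf, e, he, rfl⟩ := hg'
      refine ⟨⟨f, hf⟩, ?_⟩
      simp only [MonoidHom.coe_comp, Function.comp_apply]
      rw [QuotientGroup.mk'_apply, QuotientGroup.mk'_apply, QuotientGroup.eq,
        Subgroup.mem_subgroupOf]
      simpa using he
    have hQsolv : Group.IsSolvable
        (↥(generalizedFittingSubgroup X) ⧸ (layer X).subgroupOf (generalizedFittingSubgroup X)) :=
      Group.isSolvable_of_surjective hsurj
    obtain ⟨n, hn⟩ := hQsolv.solvable
    have h1 := map_derivedSeries_le_derivedSeries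
      (QuotientGroup.mk' ((layer X).subgroupOf (generalizedFittingSubgroup X))) n
    rw [hn, le_bot_iff, Subgroup.map_eq_bot_iff, QuotientGroup.ker_mk'] at h1
    refine (iInf_le _ n).trans ?_
    have h2 := Subgroup.map_mono (f := (generalizedFittingSubgroup X).subtype) h1
    rw [Subgroup.map_subgroupOf_eq_of_le hEle] at h2
    exact h2
  · apply le_iInf
    intro n
    have h2 := Subgroup.map_mono (f := (generalizedFittingSubgroup X).subtype) (hge n)
    rw [Subgroup.map_subgroupOf_eq_of_le hEle] at h2
    exact h2

end Cfsg.Agent.S1316
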