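import Cfsg.Statements.S1317
import Cfsg.Agent.Lib.Helper30.Basic

set_option autoImplicit false
open Cfsg

namespace Cfsg.Agent.S1317

open Cfsg.Agent.Lib.Helper30 in
/-- For a finite group X, the centre of the layer E(X) is F(X) ∩ E(X). -/
theorem result {X : Type*} [Group X] [Finite X] : (Subgroup.center ↥(Cfsg.layer X)).map (Cfsg.layer X).subtype = Cfsg.fittingSubgroup X ⊓ Cfsg.layer X := by
  have hEn : (layer X).Normal := layer_normal
  apply le_antisymm
  · apply le_inf
    · apply le_sSup
      refine ⟨inferInstance, ?_⟩
      have h1 : Group.IsNilpotent ↥(Subgroup.center ↥(layer X)) := by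
        let _ : CommGroup ↥(Subgroup.center ↥(layer X)) :=
          { (inferInstance : Group ↥(Subgroup.center ↥(layer X))) with
            mul_comm := fun a b => Subtype.ext (Subgroup.mem_center_iff.mp b.2 a.1) }
        infer_instance
      exact (Group.isNilpotent_congr
        ((Subgroup.center ↥(layer X)).equivMapOfInjective (layer X).subtype
          (layer X).subtype_injective)).mp h1
    · exact Subgroup.map_subtype_le _
  · rintro x ⟨hxF, hxE⟩
    refine ⟨⟨x, hxE⟩, Subgroup.mem_center_iff.mpr ?_, rfl⟩
    intro y
    apply Subtype.ext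
    have h1 := layer_le_centralizer_fitting (G := X) y.2
    exact (Subgroup.mem_centralizer_iff.mp h1 x hxF).symm

end Cfsg.Agent.S1317
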