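import Cfsg.Statements.S1318
import Cfsg.Agent.Lib.Helper30.FStar

set_option autoImplicit false
open Cfsg

namespace Cfsg.Agent.S1318

open Cfsg.Agent.Lib.Helper30 in
/-- Let S be a subnormal subgroup of F*(X), X a finite group. Then F(S) = F(X) ∩ S and S = F(S)E(S). -/
theorem result {X : Type*} [Group X] [Finite X] (S : Subgroup X) (hS : S ≤ Cfsg.generalizedFittingSubgroup X) (hsn : (S.subgroupOf (Cfsg.generalizedFittingSubgroup X)).IsSubnormal) : (Cfsg.fittingSubgroup ↥S).map S.subtype = Cfsg.fittingSubgroup X ⊓ S ∧ Cfsg.fittingSubgroup ↥S ⊔ Cfsg.layer ↥S = ⊤ := by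
  have hFsn : (generalizedFittingSubgroup X).Normal := genFitting_normal
  have hSsn : S.IsSubnormal := Subgroup.IsSubnormal.trans hS hsn hFsn.isSubnormal
  have h1 := fitting_map_subtype_eq hSsn
  refine ⟨h1, ?_⟩
  have h2 := subnormal_genFitting_factor hSsn hS
  rw [← layer_map_subtype_eq hSsn, ← h1, ← Subgroup.map_sup] at h2
  apply top_le_iff.mp
  intro x _
  obtain ⟨y, hy, hyx⟩ := h2 x.2
  have hxy : y = x := Subtype.ext hyx
  rw [← hxy, sup_comm]
  exact hy

end Cfsg.Agent.S1318
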