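import Cfsg.Statements.S1319
import Cfsg.Agent.Lib.Helper30.Basic

set_option autoImplicit false
open Cfsg

namespace Cfsg.Agent.S1319

open Cfsg.Agent.Lib.Helper30 in
/-- Let A be a subnormal subgroup of a finite group X with A = E(A). Then A ≤ E(X) and A is normal in E(X). -/
theorem result {X : Type*} [Group X] [Finite X] (A : Subgroup X) (hsn : A.IsSubnormal) (hA : Cfsg.layer ↥A = ⊤) : A ≤ Cfsg.layer X ∧ (A.subgroupOf (Cfsg.layer X)).Normal := by
  have hAeq : (layer ↥A).map A.subtype = A := by
    rw [hA, ← MonoidHom.range_eq_map, Subgroup.range_subtype]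
  have h1 : A ≤ layer X := by
    have := layer_map_subtype_le hsn
    rwa [hAeq] at this
  refine ⟨h1, ?_⟩
  rw [Subgroup.normal_subgroupOf_iff_le_normalizer h1]
  apply sSup_le
  intro L hL
  by_cases hex : ∃ K : Subgroup ↥A, IsComponent K ∧ K.map A.subtype = L
  · obtain ⟨K, hK, rfl⟩ := hex
    exact (Subgroup.map_subtype_le K).trans Subgroup.le_normalizer
  · push Not at hex
    have h2 : A ≤ Subgroup.centralizer (L : Set X) := by
      rw [← hAeq, Subgroup.map_le_iff_le_comap]
      apply sSup_le
      intro K hK
      rw [← Subgroup.map_le_iff_le_comap, ← Subgroup.commutator_eq_bot_iff_le_centralizer]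
      exact components_commute (isComponent_map_subtype hsn hK) hL (hex K hK)
    have h3 : L ≤ Subgroup.centralizer (A : Set X) := by
      rw [← Subgroup.commutator_eq_bot_iff_le_centralizer, Subgroup.commutator_comm,
        Subgroup.commutator_eq_bot_iff_le_centralizer]
      exact h2
    exact h3.trans (Subgroup.centralizer_le_normalizer _)

end Cfsg.Agent.S1319
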