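import Cfsg.Statements.S1320
import Cfsg.Agent.Lib.Helper30.FStar

set_option autoImplicit false
open Cfsg

namespace Cfsg.Agent.S1320

open Cfsg.Agent.Lib.Helper30 in
/-- For a normal subgroup B of a finite group A, F*(A) ∩ B = F*(B). -/
theorem result {A : Type*} [Group A] [Finite A] (B : Subgroup A) [B.Normal] : Cfsg.generalizedFittingSubgroup A ⊓ B = (Cfsg.generalizedFittingSubgroup ↥B).map B.subtype := by
  have hBsn : B.IsSubnormal := (inferInstance : B.Normal).isSubnormal
  have hFsn : (generalizedFittingSubgroup A).Normal := genFitting_normal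
  apply le_antisymm
  · have hSn : (generalizedFittingSubgroup A ⊓ B).Normal := inferInstance
    have h2 := subnormal_genFitting_factor hSn.isSubnormal inf_le_left
    refine h2.trans ?_
    show _ ≤ (layer ↥B ⊔ fittingSubgroup ↥B).map B.subtype
    rw [Subgroup.map_sup, layer_map_subtype_eq hBsn, fitting_map_subtype_eq hBsn]
    apply sup_le_sup
    · apply sSup_le_sSup
      rintro K ⟨hK, hKS⟩
      exact ⟨hK, hKS.trans inf_le_right⟩
    · exact le_inf inf_le_left (inf_le_right.trans inf_le_right)
  · apply le_inf
    · show (layer ↥B ⊔ fittingSubgroup ↥B).map B.subtype ≤ layer A ⊔ fittingSubgroup A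
      rw [Subgroup.map_sup]
      exact sup_le_sup (layer_map_subtype_le hBsn) (fitting_map_subtype_le hBsn)
    · exact Subgroup.map_subtype_le _

end Cfsg.Agent.S1320
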