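import Cfsg.Statements.S1321
import Cfsg.Agent.Lib.Helper30.Basic

set_option autoImplicit false
open Cfsg

namespace Cfsg.Agent.S1321

open Cfsg.Agent.Lib.Helper30 in
/-- For any subgroup U of a finite group X, E(X) = C_{E(X)}(U) · [E(X), U], and [E(X), U] ≤ E(X). -/
theorem result {X : Type*} [Group X] [Finite X] (U : Subgroup X) : Cfsg.layer X = (Cfsg.layer X ⊓ Subgroup.centralizer (U : Set X)) ⊔ ⁅Cfsg.layer X, U⁆ ∧ ⁅Cfsg.layer X, U⁆ ≤ Cfsg.layer X := by
  have hEn : (layer X).Normal := layer_normal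
  have hcomm_le : ⁅layer X, U⁆ ≤ layer X := Subgroup.commutator_le_left _ _
  refine ⟨?_, hcomm_le⟩
  apply le_antisymm
  · apply sSup_le
    intro K hK
    have hKE : K ≤ layer X := comp_le_layer hK
    have hKM : K ≤ layer X ⊔ U := hKE.trans le_sup_left
    have hNM : ⁅layer X, U⁆ ≤ layer X ⊔ U := hcomm_le.trans le_sup_left
    have hNn : (⁅layer X, U⁆.subgroupOf (layer X ⊔ U)).Normal :=
      Subgroup.normal_subgroupOf_commutator_sup _ _
    rcases component_le_or_commutator_eq_bot (isComponent_subgroupOf hK hKM) hNn.isSubnormal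
      with h | h
    · exact (le_of_subgroupOf_le hKM h).trans le_sup_right
    · have h1 : ⁅K, ⁅layer X, U⁆⁆ = ⊥ := commutator_eq_bot_of_subgroupOf hKM hNM h
      have h2 : ⁅⁅K, U⁆, K⁆ = ⊥ := by
        rw [Subgroup.commutator_comm]
        exact le_bot_iff.mp
          ((Subgroup.commutator_mono le_rfl (Subgroup.commutator_mono hKE le_rfl)).trans h1.le)
      have h3 : ⁅⁅U, K⁆, K⁆ = ⊥ := by rw [Subgroup.commutator_comm U K]; exact h2
      have h4 : ⁅⁅K, K⁆, U⁆ = ⊥ := Subgroup.commutator_commutator_eq_bot_of_rotate h2 h3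
      rw [comp_perfect hK, Subgroup.commutator_eq_bot_iff_le_centralizer] at h4
      exact (le_inf hKE h4).trans le_sup_left
  · exact sup_le inf_le_left hcomm_le

end Cfsg.Agent.S1321
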