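import Cfsg.Statements.S1326
import Cfsg.Agent.Lib.Helper30.Basic

set_option autoImplicit false
open Cfsg

namespace Cfsg.Agent.S1326

open Cfsg.Agent.Lib.Helper30 in
/-- For a finite group X, C_X(F(X)) ≤ F(X) if and only if X has no component, i.e. the layer of X is trivial. -/
theorem result {X : Type*} [Group X] [Finite X] : Subgroup.centralizer (Cfsg.fittingSubgroup X : Set X) ≤ Cfsg.fittingSubgroup X ↔ Cfsg.layer X = ⊥ := by
  constructor
  · intro h
    rw [eq_bot_iff]
    apply sSup_le
    intro K hK
    exfalso
    have h1 : K ≤ Subgroup.centralizer (fittingSubgroup X : Set X) := by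
      rw [← Subgroup.commutator_eq_bot_iff_le_centralizer]
      exact comp_commutator_fitting hK
    have h2 : K ≤ fittingSubgroup X := h1.trans h
    have h3 : Group.IsNilpotent (fittingSubgroup X) := fitting_nilpotent
    have h4 : Group.IsSolvable (fittingSubgroup X) := inferInstance
    have h5 : Group.IsSolvable K :=
      Group.isSolvable_of_isSolvable_injective (f := Subgroup.inclusion h2)
        (Subgroup.inclusion_injective h2)
    exact comp_not_solvable hK h5
  · intro h
    have h1 := centralizer_genFitting_le (G := X)
    have h2 : generalizedFittingSubgroup X = fittingSubgroup X := by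
      unfold generalizedFittingSubgroup
      rw [h, bot_sup_eq]
    rw [h2] at h1
    exact h1

end Cfsg.Agent.S1326
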