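import Cfsg.Statements.S1327
import Cfsg.Agent.Lib.Helper30.PLayer

set_option autoImplicit false
open Cfsg
open Cfsg.Agent.Lib.Helper30

namespace Cfsg.Agent.S1327

theorem result {X : Type*} [Group X] [Finite X] (p : ℕ) [Fact p.Prime] : Cfsg.IsPConstrained p X ↔ Cfsg.pLayer p X = ⊥ := by
  rw [pLayer_eq_bot_iff_layer_quotient]
  exact ⟨layer_quotient_of_isPConstrained p, isPConstrained_of_layer_quotient p⟩

end Cfsg.Agent.S1327
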