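import Cfsg.Statements.S1328
import Cfsg.Agent.Lib.Helper30.Invol

set_option autoImplicit false
open Cfsg
open Cfsg.Agent.Lib.Helper30
open scoped commutatorElement

namespace Cfsg.Agent.S1328

universe u

section Aux

variable {G : Type u} [Group G] [Finite G]

/-- Step 1: `O(C_H(t))` centralizes `O_2(H)`. -/
theorem step1 (H C : Subgroup G) (t : G) (ht : orderOf t = 2)
    (htH : t ∈ Subgroup.normalizer (H : Set G)) (hCH : C ≤ H)
    (hCt : ∀ x ∈ C, t * x = x * t) (hC : ∀ x ∈ H, t * x = x * t → x ∈ C)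
    {y : G} (hy : y ∈ oddC C) :
    ∀ q ∈ (pCore 2 ↥H).map H.subtype, Commute y q := by
  have hyC : y ∈ C := oddC_le C hy
  have hyH : y ∈ H := hCH hyC
  have hyt : t * y = y * t := hCt y hyC
  have hQ : IsPGroup 2 ((pCore 2 ↥H).map H.subtype) := (pCore_isPGroup 2).map _
  have hB : IsPGroup 2 (Subgroup.zpowers t) := by
    apply IsPGroup.of_card (n := 1)
    rw [Nat.card_zpowers, ht, pow_one]
  have htQ : t ∈ Subgroup.normalizer (((pCore 2 ↥H).map H.subtype : Subgroup G) : Set G) :=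
    mem_normalizer_iff_map_conj.mpr (pCore_map_subtype_conj 2 htH)
  have hBQ : Subgroup.zpowers t ≤
      Subgroup.normalizer (((pCore 2 ↥H).map H.subtype : Subgroup G) : Set G) := by
    rw [Subgroup.zpowers_le]
    exact htQ
  have hn := Cfsg.Agent.Lib.Helper30.pCore_normal 2 ↥H
  have hHQ := le_normalizer_map_subtype (pCore 2 ↥H)
  have hyo : (orderOf y).Coprime 2 :=
    Nat.Coprime.coprime_dvd_left (Subgroup.orderOf_dvd_natCard _ hy) (oddC_card C)
  refine thompson_AxB 2 hQ hB hBQ (hHQ hyH) hyo ?_ ?_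
  · intro b hb
    obtain ⟨n, rfl⟩ := Subgroup.mem_zpowers_iff.mp hb
    exact Commute.zpow_right (show Commute y t from hyt.symm) n
  · rintro q ⟨hqQ, hqB⟩
    have hqH : q ∈ H := Subgroup.map_subtype_le _ hqQ
    have hqt : t * q = q * t := Subgroup.mem_centralizer_iff.mp hqB t (Subgroup.mem_zpowers t)
    have hqC : q ∈ C := hC q hqH hqt
    have hR : ((pCore 2 ↥H).map H.subtype ⊓ C).subgroupOf C ≤ pCore 2 ↥C := by
      apply le_pCore_of_normal
      · apply Subgroup.normal_subgroupOf_of_le_normalizer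
        refine le_trans (le_inf ?_ Subgroup.le_normalizer) (normalizer_inf_le _ _)
        exact le_trans hCH hHQ
      · exact IsPGroup.comap_subtype (hQ.to_le inf_le_left)
    obtain ⟨y', hy', rfl⟩ := hy
    have h := pPrimeCore_commute_pCore 2 y' hy' ⟨q, hqC⟩
      (hR (Subgroup.mem_subgroupOf.mpr ⟨hqQ, hqC⟩))
    exact congrArg Subtype.val h.eq

/-- Step 2: a nontrivial element of odd order centralizing `O_2(H)` fails to centralize some
component of `H`, when `O(H) = 1`. -/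
theorem step2 (H : Subgroup G) (hO : pPrimeCore 2 ↥H = ⊥) {y : G} (hyH : y ∈ H) (hy1 : y ≠ 1)
    (hyo : (orderOf y).Coprime 2)
    (hyQ : ∀ q ∈ (pCore 2 ↥H).map H.subtype, Commute y q) :
    ∃ E : Subgroup ↥H, IsComponent E ∧ ∃ k ∈ E.map H.subtype, y * k ≠ k * y := by
  by_contra hcon
  push Not at hcon
  have hlay : layer ↥H ≤ Subgroup.centralizer ({(⟨y, hyH⟩ : ↥H)} : Set ↥H) := by
    apply sSup_le
    intro E hE e he
    rw [Subgroup.mem_centralizer_iff]
    intro x hx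
    rw [Set.mem_singleton_iff] at hx
    subst hx
    exact Subtype.ext (hcon E hE e (Subgroup.mem_map_of_mem _ he))
  have hfit : fittingSubgroup ↥H ≤ Subgroup.centralizer ({(⟨y, hyH⟩ : ↥H)} : Set ↥H) := by
    rw [fitting_eq_pCore_of_pPrimeCore_eq_bot 2 hO]
    intro q hq
    rw [Subgroup.mem_centralizer_iff]
    intro x hx
    rw [Set.mem_singleton_iff] at hx
    subst hx
    exact Subtype.ext (hyQ q (Subgroup.mem_map_of_mem _ hq)).eq
  have hcent : (⟨y, hyH⟩ : ↥H) ∈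
      Subgroup.centralizer (generalizedFittingSubgroup ↥H : Set ↥H) := by
    rw [Subgroup.mem_centralizer_iff]
    intro g hg
    have := (sup_le hlay hfit) hg
    exact (Subgroup.mem_centralizer_iff.mp this _ rfl).symm
  have hmem : (⟨y, hyH⟩ : ↥H) ∈ layer ↥H ⊔ fittingSubgroup ↥H := centralizer_genFitting_le hcent
  obtain ⟨e, he, f, hf, hef⟩ :=
    mem_sup_of_commute (commute_of_commutator_eq_bot layer_commutator_fitting) hmem
  have he2 : e ∈ Subgroup.centralizer (layer ↥H : Set ↥H) := by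
    have : e = ⟨y, hyH⟩ * f⁻¹ := by rw [hef]; group
    rw [this]
    refine Subgroup.mul_mem _ ?_ (Subgroup.inv_mem _ (fitting_le_centralizer_layer hf))
    rw [Subgroup.mem_centralizer_iff]
    intro g hg
    exact (Subgroup.mem_centralizer_iff.mp (hlay hg) _ rfl).symm
  have he3 : e ∈ fittingSubgroup ↥H := layer_inf_centralizer_le_fitting ⟨he, he2⟩
  have hyF : (⟨y, hyH⟩ : ↥H) ∈ pCore 2 ↥H := by
    rw [← fitting_eq_pCore_of_pPrimeCore_eq_bot 2 hO, hef]
    exact Subgroup.mul_mem _ he3 hf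
  have h2 : IsPElt 2 y := by
    obtain ⟨k, hk⟩ := IsPElt.of_mem (pCore_isPGroup 2) hyF
    exact ⟨k, congrArg Subtype.val hk⟩
  exact hy1 (h2.eq_one_of_coprime hyo)

/-- Claim N: `O(C_H(t))` normalizes every component of `H`. -/
theorem claimN (H C : Subgroup G) (t : G) (ht : orderOf t = 2)
    (htH : t ∈ Subgroup.normalizer (H : Set G)) (hCH : C ≤ H)
    (hCt : ∀ x ∈ C, t * x = x * t) (hC : ∀ x ∈ H, t * x = x * t → x ∈ C)
    (hO : pPrimeCore 2 ↥H = ⊥) {y : G} (hy : y ∈ oddC C)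
    {E : Subgroup ↥H} (hE : IsComponent E) :
    y ∈ Subgroup.normalizer ((E.map H.subtype : Subgroup G) : Set G) := by
  by_contra hyK
  have hyQ := step1 H C t ht htH hCH hCt hC hy
  have hyC : y ∈ C := oddC_le C hy
  have hyH : y ∈ H := hCH hyC
  have hyt : t * y = y * t := hCt y hyC
  have hyo : (orderOf y).Coprime 2 :=
    Nat.Coprime.coprime_dvd_left (Subgroup.orderOf_dvd_natCard _ hy) (oddC_card C)
  have hKH : E.map H.subtype ≤ H := Subgroup.map_subtype_le _
  have hyNH : y ∈ Subgroup.normalizer (H : Set G) := Subgroup.le_normalizer hyH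
  have hyyNH : y * y ∈ Subgroup.normalizer (H : Set G) := Subgroup.mul_mem _ hyNH hyNH
  have hytNH : y * t ∈ Subgroup.normalizer (H : Set G) := Subgroup.mul_mem _ hyNH htH
  have h1NH : (1 : G) ∈ Subgroup.normalizer (H : Set G) := Subgroup.one_mem _
  have hyy : y * y ∉ Subgroup.normalizer ((E.map H.subtype : Subgroup G) : Set G) :=
    fun h => hyK (mem_of_sq_mem_of_odd hyo h)
  have hyinv : y⁻¹ ∉ Subgroup.normalizer ((E.map H.subtype : Subgroup G) : Set G) :=
    fun h => hyK (by simpa using Subgroup.inv_mem _ h)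
  have hyyinv : (y * y)⁻¹ ∉ Subgroup.normalizer ((E.map H.subtype : Subgroup G) : Set G) :=
    fun h => hyy (by simpa using Subgroup.inv_mem _ h)
  have hB : IsPGroup 2 (Subgroup.zpowers t) := by
    apply IsPGroup.of_card (n := 1)
    rw [Nat.card_zpowers, ht, pow_one]
  have htt : t * t = 1 := by
    have := pow_orderOf_eq_one t
    rwa [ht, pow_two] at this
  by_cases htK : t ∈ Subgroup.normalizer ((E.map H.subtype : Subgroup G) : Set G)
  · -- case (i): `t` normalizes `K`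
    obtain ⟨c, hcK, hc2, hcnc, hcz⟩ := exists_pElt_noncentral_invariant 2 (comp_map_perfect hE)
      (comp_map_card_even hO hE) hB (Subgroup.zpowers_le.mpr htK)
    have hz'K : c⁻¹ * (t * c * t⁻¹) ∈ E.map H.subtype :=
      Subgroup.mul_mem _ (Subgroup.inv_mem _ hcK) ((Subgroup.mem_normalizer_iff.mp htK c).mp hcK)
    have hz'c := hcz t (Subgroup.mem_zpowers t)
    have hz'Q := comp_map_center_le_pCore hO hE hz'K hz'c
    have hyz : y * (c⁻¹ * (t * c * t⁻¹)) * y⁻¹ = c⁻¹ * (t * c * t⁻¹) :=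
      conj_eq_iff_mul_comm.mpr (hyQ _ hz'Q).eq
    -- pairwise commutation of `c`, `c₁ = y c y⁻¹`, `c₂ = y² c y⁻²`
    have hk1 : ∀ k ∈ E.map H.subtype, Commute k (y * c * y⁻¹) := by
      intro k hk
      have := conj_comp_commute hE h1NH hyNH (by simpa using hyinv) hk hcK
      exact (show _ * _ = _ * _ by simpa using this)
    have hk2 : ∀ k ∈ E.map H.subtype, Commute k ((y * y) * c * (y * y)⁻¹) := by
      intro k hk
      have := conj_comp_commute hE h1NH hyyNH (by simpa using hyyinv) hk hcK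
      exact (show _ * _ = _ * _ by simpa using this)
    have h12 : Commute (y * c * y⁻¹) ((y * y) * c * (y * y)⁻¹) :=
      conj_comp_commute hE hyNH hyyNH (by simpa using hyinv) hcK hcK
    have h01 := hk1 c hcK
    have h02 := hk2 c hcK
    -- the element `e = c⁻¹ c₁` is centralized by `t`
    have hA : t * c * t⁻¹ = c * (c⁻¹ * (t * c * t⁻¹)) := by group
    have hBB : t * (y * c * y⁻¹) * t⁻¹ = (y * c * y⁻¹) * (c⁻¹ * (t * c * t⁻¹)) := by
      calc t * (y * c * y⁻¹) * t⁻¹ = (t * y) * c * (t * y)⁻¹ := by group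
        _ = (y * t) * c * (y * t)⁻¹ := by rw [hyt]
        _ = y * (t * c * t⁻¹) * y⁻¹ := by group
        _ = y * (c * (c⁻¹ * (t * c * t⁻¹))) * y⁻¹ := by rw [← hA]
        _ = (y * c * y⁻¹) * (y * (c⁻¹ * (t * c * t⁻¹)) * y⁻¹) := by group
        _ = (y * c * y⁻¹) * (c⁻¹ * (t * c * t⁻¹)) := by rw [hyz]
    have hCc : Commute (c⁻¹ * (t * c * t⁻¹)) c := hz'c c hcK
    have hD : Commute (c⁻¹ * (t * c * t⁻¹)) (y * c * y⁻¹) := by
      show (c⁻¹ * (t * c * t⁻¹)) * (y * c * y⁻¹) = (y * c * y⁻¹) * (c⁻¹ * (t * c * t⁻¹))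
      calc (c⁻¹ * (t * c * t⁻¹)) * (y * c * y⁻¹)
          = (y * (c⁻¹ * (t * c * t⁻¹)) * y⁻¹) * (y * c * y⁻¹) := by rw [hyz]
        _ = y * ((c⁻¹ * (t * c * t⁻¹)) * c) * y⁻¹ := by group
        _ = y * (c * (c⁻¹ * (t * c * t⁻¹))) * y⁻¹ := by rw [hCc.eq]
        _ = (y * c * y⁻¹) * (y * (c⁻¹ * (t * c * t⁻¹)) * y⁻¹) := by group
        _ = (y * c * y⁻¹) * (c⁻¹ * (t * c * t⁻¹)) := by rw [hyz]
    have hzz : Commute (c⁻¹ * (t * c * t⁻¹)) (c⁻¹ * (y * c * y⁻¹)) :=
      hCc.inv_right.mul_right hD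
    have het : t * (c⁻¹ * (y * c * y⁻¹)) * t⁻¹ = c⁻¹ * (y * c * y⁻¹) := by
      calc t * (c⁻¹ * (y * c * y⁻¹)) * t⁻¹ = (t * c * t⁻¹)⁻¹ * (t * (y * c * y⁻¹) * t⁻¹) := by
            group
        _ = (c * (c⁻¹ * (t * c * t⁻¹)))⁻¹ * ((y * c * y⁻¹) * (c⁻¹ * (t * c * t⁻¹))) := by
            rw [← hA, hBB]
        _ = (c⁻¹ * (t * c * t⁻¹))⁻¹ * ((c⁻¹ * (y * c * y⁻¹)) * (c⁻¹ * (t * c * t⁻¹))) := by
            group
        _ = (c⁻¹ * (t * c * t⁻¹))⁻¹ * ((c⁻¹ * (t * c * t⁻¹)) * (c⁻¹ * (y * c * y⁻¹))) := by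
            rw [hzz.eq]
        _ = c⁻¹ * (y * c * y⁻¹) := by group
    have heH : c⁻¹ * (y * c * y⁻¹) ∈ H :=
      H.mul_mem (H.inv_mem (hKH hcK)) (H.mul_mem (H.mul_mem hyH (hKH hcK)) (H.inv_mem hyH))
    have heC : c⁻¹ * (y * c * y⁻¹) ∈ C := hC _ heH (conj_eq_iff_mul_comm.mp het)
    have hu := oddC_conj heC hy
    have hueq : (c⁻¹ * (y * c * y⁻¹))⁻¹ * (y * (c⁻¹ * (y * c * y⁻¹)) * y⁻¹)
        = (y * c * y⁻¹)⁻¹ * c * (y * c * y⁻¹)⁻¹ * ((y * y) * c * (y * y)⁻¹) := by group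
    rw [hueq] at hu
    have hu2 : IsPElt 2 ((y * c * y⁻¹)⁻¹ * c * (y * c * y⁻¹)⁻¹ * ((y * y) * c * (y * y)⁻¹)) := by
      have e1 : IsPElt 2 (y * c * y⁻¹) := hc2.conj y
      have e2 : IsPElt 2 ((y * y) * c * (y * y)⁻¹) := hc2.conj (y * y)
      refine ((e1.inv.mul hc2 h01.symm.inv_left).mul e1.inv ?_).mul e2 ?_
      · exact (Commute.refl _).inv_left.inv_right.mul_left h01.inv_right
      · exact (h12.inv_left.mul_left h02).mul_left h12.inv_left
    have hu1 := hu2.eq_one_of_mem (oddC_card C) hu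
    have hceq : c = (y * c * y⁻¹) * ((y * y) * c * (y * y)⁻¹)⁻¹ * (y * c * y⁻¹) := by
      calc c = (y * c * y⁻¹) * ((y * c * y⁻¹)⁻¹ * c * (y * c * y⁻¹)⁻¹ *
            ((y * y) * c * (y * y)⁻¹)) * ((y * y) * c * (y * y)⁻¹)⁻¹ * (y * c * y⁻¹) := by group
        _ = _ := by rw [hu1, mul_one]
    apply hcnc
    intro k hk
    rw [hceq]
    exact ((((hk1 k hk).mul_right (hk2 k hk).inv_right).mul_right (hk1 k hk)).eq).symm
  · -- case (ii): `t` moves `K`
    obtain ⟨c, hcK, hc2, hcnc⟩ := exists_pElt_noncentral 2 (comp_map_perfect hE)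
      (comp_map_card_even hO hE)
    have htinv : t⁻¹ ∉ Subgroup.normalizer ((E.map H.subtype : Subgroup G) : Set G) :=
      fun h => htK (by simpa using Subgroup.inv_mem _ h)
    have hyt' : y * t = t * y := hyt.symm
    have hytsq : (y * t) * (y * t) = y * y := by
      calc (y * t) * (y * t) = y * (t * y) * t := by group
        _ = y * (y * t) * t := by rw [hyt]
        _ = y * y * (t * t) := by group
        _ = y * y := by rw [htt, mul_one]
    have hytinv : (y * t)⁻¹ ∉ Subgroup.normalizer ((E.map H.subtype : Subgroup G) : Set G) := by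
      intro h
      have h1 : y * t ∈ Subgroup.normalizer ((E.map H.subtype : Subgroup G) : Set G) := by
        simpa using Subgroup.inv_mem _ h
      have h2 := Subgroup.mul_mem _ h1 h1
      rw [hytsq] at h2
      exact hyy h2
    have hyit : y⁻¹ * t ∉ Subgroup.normalizer ((E.map H.subtype : Subgroup G) : Set G) := by
      intro h
      have h2 := Subgroup.mul_mem _ h h
      have h3 : (y⁻¹ * t) * (y⁻¹ * t) = (y * y)⁻¹ := by
        have : t * y⁻¹ = y⁻¹ * t := by
          calc t * y⁻¹ = y⁻¹ * (y * t) * y⁻¹ := by group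
            _ = y⁻¹ * (t * y) * y⁻¹ := by rw [hyt']
            _ = y⁻¹ * t := by group
        calc (y⁻¹ * t) * (y⁻¹ * t) = y⁻¹ * (t * y⁻¹) * t := by group
          _ = y⁻¹ * (y⁻¹ * t) * t := by rw [this]
          _ = y⁻¹ * y⁻¹ * (t * t) := by group
          _ = (y * y)⁻¹ := by rw [htt]; group
      rw [h3] at h2
      exact hyyinv h2
    -- `c₁ = t c t⁻¹`, `c₂ = y c y⁻¹`, `c₃ = (y t) c (y t)⁻¹`
    have hk1 : ∀ k ∈ E.map H.subtype, Commute k (t * c * t⁻¹) := by
      intro k hk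
      have := conj_comp_commute hE h1NH htH (by simpa using htinv) hk hcK
      exact (show _ * _ = _ * _ by simpa using this)
    have hk2 : ∀ k ∈ E.map H.subtype, Commute k (y * c * y⁻¹) := by
      intro k hk
      have := conj_comp_commute hE h1NH hyNH (by simpa using hyinv) hk hcK
      exact (show _ * _ = _ * _ by simpa using this)
    have hk3 : ∀ k ∈ E.map H.subtype, Commute k ((y * t) * c * (y * t)⁻¹) := by
      intro k hk
      have := conj_comp_commute hE h1NH hytNH (by simpa using hytinv) hk hcK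
      exact (show _ * _ = _ * _ by simpa using this)
    have h12 : Commute (t * c * t⁻¹) (y * c * y⁻¹) :=
      conj_comp_commute hE htH hyNH hyit hcK hcK
    have h13 : Commute (t * c * t⁻¹) ((y * t) * c * (y * t)⁻¹) := by
      refine conj_comp_commute hE htH hytNH ?_ hcK hcK
      have : (y * t)⁻¹ * t = y⁻¹ := by
        calc (y * t)⁻¹ * t = (t * y)⁻¹ * t := by rw [hyt']
          _ = y⁻¹ := by group
      rw [this]
      exact hyinv
    have h23 : Commute (y * c * y⁻¹) ((y * t) * c * (y * t)⁻¹) := by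
      refine conj_comp_commute hE hyNH hytNH ?_ hcK hcK
      have : (y * t)⁻¹ * y = t⁻¹ := by group
      rw [this]
      exact htinv
    have h01 := hk1 c hcK
    have h02 := hk2 c hcK
    have h03 := hk3 c hcK
    have hdt : t * (c * (t * c * t⁻¹)) * t⁻¹ = c * (t * c * t⁻¹) := by
      calc t * (c * (t * c * t⁻¹)) * t⁻¹ = (t * c * t⁻¹) * ((t * t) * c * (t * t)⁻¹) := by group
        _ = (t * c * t⁻¹) * c := by rw [htt]; group
        _ = c * (t * c * t⁻¹) := h01.eq.symm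
    have hdH : c * (t * c * t⁻¹) ∈ H :=
      H.mul_mem (hKH hcK) ((Subgroup.mem_normalizer_iff.mp htH c).mp (hKH hcK))
    have hdC : c * (t * c * t⁻¹) ∈ C := hC _ hdH (conj_eq_iff_mul_comm.mp hdt)
    have hu := oddC_conj hdC hy
    have hueq : (c * (t * c * t⁻¹))⁻¹ * (y * (c * (t * c * t⁻¹)) * y⁻¹)
        = (t * c * t⁻¹)⁻¹ * c⁻¹ * (y * c * y⁻¹) * ((y * t) * c * (y * t)⁻¹) := by group
    rw [hueq] at hu
    have hu2 : IsPElt 2 ((t * c * t⁻¹)⁻¹ * c⁻¹ * (y * c * y⁻¹) * ((y * t) * c * (y * t)⁻¹)) := by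
      have e1 : IsPElt 2 (t * c * t⁻¹) := hc2.conj t
      have e2 : IsPElt 2 (y * c * y⁻¹) := hc2.conj y
      have e3 : IsPElt 2 ((y * t) * c * (y * t)⁻¹) := hc2.conj (y * t)
      refine ((e1.inv.mul hc2.inv h01.symm.inv_left.inv_right).mul e2 ?_).mul e3 ?_
      · exact h12.inv_left.mul_left h02.inv_left
      · exact (h13.inv_left.mul_left h03.inv_left).mul_left h23
    have hu1 := hu2.eq_one_of_mem (oddC_card C) hu
    have hceq : c⁻¹ = (t * c * t⁻¹) * ((y * c * y⁻¹) * ((y * t) * c * (y * t)⁻¹))⁻¹ := by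
      calc c⁻¹ = (t * c * t⁻¹) * ((t * c * t⁻¹)⁻¹ * c⁻¹ * (y * c * y⁻¹) *
            ((y * t) * c * (y * t)⁻¹)) * ((y * c * y⁻¹) * ((y * t) * c * (y * t)⁻¹))⁻¹ := by group
        _ = _ := by rw [hu1, mul_one]
    apply hcnc
    intro k hk
    have h5 : Commute k c⁻¹ := by
      rw [hceq]
      exact (hk1 k hk).mul_right ((hk2 k hk).mul_right (hk3 k hk)).inv_right
    exact (Commute.inv_right_iff.mp h5).eq.symm

/-- Claim C: `t` does not centralize a component not centralized by `O(C_H(t))`. -/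
theorem claimC (H C : Subgroup G) (t : G) (hCH : C ≤ H)
    (hC : ∀ x ∈ H, t * x = x * t → x ∈ C) (hO : pPrimeCore 2 ↥H = ⊥)
    {E : Subgroup ↥H} (hE : IsComponent E) {y k₀ : G} (hy : y ∈ oddC C)
    (hk₀ : k₀ ∈ E.map H.subtype) (hyk : y * k₀ ≠ k₀ * y) :
    ¬ (t ∈ Subgroup.centralizer ((E.map H.subtype : Subgroup G) : Set G)) := by
  intro htc
  have hKH : E.map H.subtype ≤ H := Subgroup.map_subtype_le _
  have hKC : E.map H.subtype ≤ C := fun k hk =>
    hC k (hKH hk) (Subgroup.mem_centralizer_iff.mp htc k hk).symm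
  have hEq : (E.map H.subtype).subgroupOf H = E :=
    Subgroup.comap_map_eq_self_of_injective H.subtype_injective E
  have hcomp : IsComponent ((E.map H.subtype).subgroupOf C) :=
    isComponent_subgroupOf_of_le hKC hCH (by rw [hEq]; exact hE)
  rcases component_le_or_commutator_eq_bot hcomp
    (Cfsg.Agent.Lib.Helper30.pPrimeCore_normal 2 ↥C).isSubnormal with h | h
  · have h1 : (Nat.card ((E.map H.subtype).subgroupOf C)).Coprime 2 :=
      Nat.Coprime.coprime_dvd_left (Subgroup.card_dvd_of_le h) (pPrimeCore_coprime 2)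
    rw [Nat.card_congr (Subgroup.subgroupOfEquivOfLe hKC).toEquiv] at h1
    have h2 := comp_map_card_even hO hE
    have := Nat.Coprime.eq_one_of_dvd h1.symm h2
    omega
  · obtain ⟨y', hy', rfl⟩ := hy
    have := commute_of_commutator_eq_bot h ⟨k₀, hKC hk₀⟩ (Subgroup.mem_subgroupOf.mpr hk₀) y' hy'
    exact hyk (congrArg Subtype.val this).symm

/-- Claim A: `t` normalizes a component not centralized by `O(C_H(t))`. -/
theorem claimA (H C : Subgroup G) (t : G) (ht : orderOf t = 2)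
    (htH : t ∈ Subgroup.normalizer (H : Set G)) (hCH : C ≤ H)
    (hCt : ∀ x ∈ C, t * x = x * t) (hC : ∀ x ∈ H, t * x = x * t → x ∈ C)
    (hO : pPrimeCore 2 ↥H = ⊥) {E : Subgroup ↥H} (hE : IsComponent E) {y k₀ : G}
    (hy : y ∈ oddC C)
    (hyK : y ∈ Subgroup.normalizer ((E.map H.subtype : Subgroup G) : Set G))
    (hk₀ : k₀ ∈ E.map H.subtype) (hyk : y * k₀ ≠ k₀ * y) :
    t ∈ Subgroup.normalizer ((E.map H.subtype : Subgroup G) : Set G) := by
  by_contra htK
  have hyC : y ∈ C := oddC_le C hy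
  have hyt : t * y = y * t := hCt y hyC
  have hKH : E.map H.subtype ≤ H := Subgroup.map_subtype_le _
  have h1NH : (1 : G) ∈ Subgroup.normalizer (H : Set G) := Subgroup.one_mem _
  have htinv : t⁻¹ ∉ Subgroup.normalizer ((E.map H.subtype : Subgroup G) : Set G) :=
    fun h => htK (by simpa using Subgroup.inv_mem _ h)
  have htt : t * t = 1 := by
    have := pow_orderOf_eq_one t
    rwa [ht, pow_two] at this
  have hcomm : ∀ k ∈ E.map H.subtype, ∀ k' ∈ E.map H.subtype,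
      Commute k (t * k' * t⁻¹) := by
    intro k hk k' hk'
    have := conj_comp_commute hE h1NH htH (by simpa using htinv) hk hk'
    exact (show _ * _ = _ * _ by simpa using this)
  have hd_mem : ∀ k ∈ E.map H.subtype, k * (t * k * t⁻¹) ∈ C := by
    intro k hk
    apply hC
    · exact H.mul_mem (hKH hk) ((Subgroup.mem_normalizer_iff.mp htH k).mp (hKH hk))
    · apply conj_eq_iff_mul_comm.mp
      calc t * (k * (t * k * t⁻¹)) * t⁻¹ = (t * k * t⁻¹) * ((t * t) * k * (t * t)⁻¹) := by group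
        _ = (t * k * t⁻¹) * k := by rw [htt]; group
        _ = k * (t * k * t⁻¹) := (hcomm k hk k hk).eq.symm
  let d : ↥(E.map H.subtype) →* ↥C := MonoidHom.mk'
    (fun k => ⟨(k : G) * (t * k * t⁻¹), hd_mem k k.2⟩) (by
      intro a b
      apply Subtype.ext
      show (a : G) * b * (t * ((a : G) * b) * t⁻¹)
        = ((a : G) * (t * a * t⁻¹)) * ((b : G) * (t * b * t⁻¹))
      have h := (hcomm b b.2 a a.2).eq
      calc (a : G) * b * (t * ((a : G) * b) * t⁻¹)
          = a * ((b : G) * (t * a * t⁻¹)) * (t * b * t⁻¹) := by group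
        _ = a * ((t * a * t⁻¹) * (b : G)) * (t * b * t⁻¹) := by rw [h]
        _ = _ := by group)
  have hqs := comp_map_qs hE
  have hNn : ((pPrimeCore 2 ↥C).comap d).Normal := inferInstance
  rcases qs_normal_eq_top_or_le_center hqs ((pPrimeCore 2 ↥C).comap d) with hN | hN
  · obtain ⟨c, hcK, hc2, hcnc⟩ := exists_pElt_noncentral 2 (comp_map_perfect hE)
      (comp_map_card_even hO hE)
    have h1 : (⟨c, hcK⟩ : ↥(E.map H.subtype)) ∈ (pPrimeCore 2 ↥C).comap d := by
      rw [hN]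
      trivial
    have h2 : c * (t * c * t⁻¹) ∈ oddC C := ⟨d ⟨c, hcK⟩, h1, rfl⟩
    have h3 : IsPElt 2 (c * (t * c * t⁻¹)) := hc2.mul (hc2.conj t) (hcomm c hcK c hcK)
    have h4 := h3.eq_one_of_mem (oddC_card C) h2
    apply hcnc
    intro k hk
    have h5 : c = (t * c * t⁻¹)⁻¹ := eq_inv_of_mul_eq_one_left h4
    rw [h5]
    exact ((hcomm k hk c hcK).inv_right).eq.symm
  · have hcent : ∀ k ∈ E.map H.subtype, ∀ k' ∈ E.map H.subtype,
        (k⁻¹ * (y * k * y⁻¹)) * k' = k' * (k⁻¹ * (y * k * y⁻¹)) := by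
      intro k hk k' hk'
      have hyk' : y * k * y⁻¹ ∈ E.map H.subtype := (Subgroup.mem_normalizer_iff.mp hyK k).mp hk
      have ha : k⁻¹ * (y * k * y⁻¹) ∈ E.map H.subtype :=
        Subgroup.mul_mem _ (Subgroup.inv_mem _ hk) hyk'
      have hmem : (⟨k⁻¹ * (y * k * y⁻¹), ha⟩ : ↥(E.map H.subtype)) ∈
          (pPrimeCore 2 ↥C).comap d := by
        obtain ⟨w, hw, hweq⟩ := oddC_conj (hd_mem k hk) hy
        rw [Subgroup.mem_comap]
        have hdw : d ⟨k⁻¹ * (y * k * y⁻¹), ha⟩ = w := by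
          apply Subtype.ext
          rw [show ((w : ↥C) : G) = C.subtype w from rfl, hweq]
          show k⁻¹ * (y * k * y⁻¹) * (t * (k⁻¹ * (y * k * y⁻¹)) * t⁻¹)
            = (k * (t * k * t⁻¹))⁻¹ * (y * (k * (t * k * t⁻¹)) * y⁻¹)
          have e1 : t * (k⁻¹ * (y * k * y⁻¹)) * t⁻¹
              = (t * k * t⁻¹)⁻¹ * (y * (t * k * t⁻¹) * y⁻¹) := by
            calc t * (k⁻¹ * (y * k * y⁻¹)) * t⁻¹
                = (t * k * t⁻¹)⁻¹ * ((t * y) * k * (t * y)⁻¹) := by group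
              _ = (t * k * t⁻¹)⁻¹ * ((y * t) * k * (y * t)⁻¹) := by rw [hyt]
              _ = _ := by group
          rw [e1]
          have e2 : Commute (k⁻¹ * (y * k * y⁻¹)) (t * k * t⁻¹)⁻¹ := (hcomm _ ha k hk).inv_right
          calc k⁻¹ * (y * k * y⁻¹) * ((t * k * t⁻¹)⁻¹ * (y * (t * k * t⁻¹) * y⁻¹))
              = ((k⁻¹ * (y * k * y⁻¹)) * (t * k * t⁻¹)⁻¹) * (y * (t * k * t⁻¹) * y⁻¹) := by group
            _ = ((t * k * t⁻¹)⁻¹ * (k⁻¹ * (y * k * y⁻¹))) * (y * (t * k * t⁻¹) * y⁻¹) := by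
                rw [e2.eq]
            _ = _ := by group
        rw [hdw]
        exact hw
      have := hN hmem
      rw [Subgroup.mem_center_iff] at this
      exact (congrArg Subtype.val (this ⟨k', hk'⟩)).symm
    exact hyk (commute_of_central_twist (comp_map_perfect hE) hyK hcent k₀ hk₀)

end Aux

theorem result {G : Type*} [Group G] [Finite G] (H : Subgroup G) (hO : Cfsg.oddCore ↥H = ⊥) (t : G) (ht : orderOf t = 2) (htH : t ∈ Subgroup.normalizer (H : Set G)) (Y : Subgroup G) (hY1 : Y ≠ ⊥) (hY : Y ≤ (Cfsg.oddCore ↥(H ⊓ Subgroup.centralizer ({t} : Set G))).map (H ⊓ Subgroup.centralizer ({t} : Set G)).subtype) : ∃ E : Subgroup ↥H, Cfsg.IsComponent E ∧ (E.map H.subtype).map (MulAut.conj t).toMonoidHom = E.map H.subtype ∧ Y ≤ Subgroup.normalizer ((E.map H.subtype : Subgroup G) : Set G) ∧ ¬ (t ∈ Subgroup.centralizer ((E.map H.subtype : Subgroup G) : Set G)) ∧ ¬ (Y ≤ Subgroup.centralizer ((E.map H.subtype : Subgroup G) : Set G)) := by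
  have hCH : H ⊓ Subgroup.centralizer ({t} : Set G) ≤ H := inf_le_left
  have hCt : ∀ x ∈ H ⊓ Subgroup.centralizer ({t} : Set G), t * x = x * t := fun x hx =>
    Subgroup.mem_centralizer_iff.mp hx.2 t rfl
  have hC : ∀ x ∈ H, t * x = x * t → x ∈ H ⊓ Subgroup.centralizer ({t} : Set G) := by
    intro x hx hxt
    refine Subgroup.mem_inf.mpr ⟨hx, ?_⟩
    rw [Subgroup.mem_centralizer_iff]
    intro z hz
    rw [Set.mem_singleton_iff] at hz
    subst hz
    exact hxt
  have hY' : Y ≤ oddC (H ⊓ Subgroup.centralizer ({t} : Set G)) := hY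
  obtain ⟨y, hy1⟩ := (Subgroup.ne_bot_iff_exists_ne_one).mp hY1
  have hy1' : (y : G) ≠ 1 := fun h => hy1 (Subtype.ext h)
  have hyW := hY' y.2
  have hyH : (y : G) ∈ H := hCH (oddC_le _ hyW)
  have hyo : (orderOf (y : G)).Coprime 2 :=
    Nat.Coprime.coprime_dvd_left (Subgroup.orderOf_dvd_natCard _ hyW) (oddC_card _)
  obtain ⟨E, hE, k₀, hk₀, hyk⟩ := step2 H hO hyH hy1' hyo
    (step1 H _ t ht htH hCH hCt hC hyW)
  have hN : Y ≤ Subgroup.normalizer ((E.map H.subtype : Subgroup G) : Set G) := fun w hw =>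
    claimN H _ t ht htH hCH hCt hC hO (hY' hw) hE
  refine ⟨E, hE, ?_, hN, ?_, ?_⟩
  · exact mem_normalizer_iff_map_conj.mp
      (claimA H _ t ht htH hCH hCt hC hO hE hyW (hN y.2) hk₀ hyk)
  · exact claimC H _ t hCH hC hO hE hyW hk₀ hyk
  · intro h
    have := Subgroup.mem_centralizer_iff.mp (h y.2) k₀ hk₀
    exact hyk this.symm

end Cfsg.Agent.S1328
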