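import Cfsg.Statements.S1331
import Cfsg.Agent.S0058

set_option autoImplicit false
open Cfsg

namespace Cfsg.Agent.S1331

open Subgroup
open scoped Pointwise

theorem card_sup_le {G : Type*} [Group G] (H N : Subgroup G)
    (h : H ≤ normalizer (N : Set G)) :
    Nat.card ↥(H ⊔ N) ≤ Nat.card H * Nat.card N := by
  have h1 : Nat.card ↥(H ⊔ N) = Nat.card ((H : Set G) * (N : Set G) : Set G) := by
    rw [← Subgroup.coe_mul_of_left_le_normalizer_right H N h]; rfl
  rw [h1]
  exact Set.natCard_mul_le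

theorem mem_normalizer_inf_centralizer {G : Type*} [Group G] {X D : Subgroup G} {b : G}
    (hb : b ∈ normalizer (X : Set G)) (hbD : b ∈ centralizer (D : Set G)) :
    b ∈ normalizer ((X ⊓ centralizer (D : Set G) : Subgroup G) : Set G) := by
  rw [Subgroup.mem_normalizer_iff]
  intro g
  rw [Subgroup.mem_inf, Subgroup.mem_inf, ← (Subgroup.mem_normalizer_iff.mp hb) g]
  have : b * g * b⁻¹ ∈ centralizer (D : Set G) ↔ g ∈ centralizer (D : Set G) :=
    ((centralizer (D : Set G)).mul_mem_cancel_right ((centralizer (D : Set G)).inv_mem hbD)).trans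
      ((centralizer (D : Set G)).mul_mem_cancel_left hbD)
  rw [this]

theorem gen {G : Type*} [Group G] [Finite G] (p : ℕ) [Fact p.Prime] (X : Subgroup G)
    (hXs : Group.IsSolvable X) (hXp : ¬ p ∣ Nat.card X) :
    ∀ (n : ℕ) (B : Subgroup G), Nat.card B = p ^ (n + 1) → IsElementaryAbelian p B →
      B ≤ normalizer (X : Set G) →
      X ≤ ⨆ D : {D : Subgroup G // D ≤ B ∧ D.relIndex B = p}, X ⊓ centralizer ((D : Subgroup G) : Set G) := by
  have hp := (Fact.out : p.Prime)
  intro n
  induction n with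
  | zero =>
    intro B hB _ _
    refine le_iSup_of_le ⟨⊥, bot_le, by rw [Subgroup.relIndex_bot_left, hB, zero_add, pow_one]⟩ ?_
    intro g hg
    refine ⟨hg, ?_⟩
    intro h hh
    have : h = 1 := Subgroup.mem_bot.mp hh
    rw [this, one_mul, mul_one]
  | succ n ih =>
    intro B hB hBe hBX
    have hBcomm : ∀ a ∈ B, ∀ b ∈ B, a * b = b * a := by
      intro a ha b hb
      exact congrArg Subtype.val (hBe.1.is_comm.comm ⟨a, ha⟩ ⟨b, hb⟩)
    obtain ⟨K, hK⟩ := Sylow.exists_subgroup_card_pow_prime (G := ↥B) p (n := n + 1)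
      (by rw [hB]; exact pow_dvd_pow p (Nat.le_succ _))
    have hB₁B : K.map B.subtype ≤ B := by
      rintro x ⟨y, -, rfl⟩
      exact y.2
    have hB₁card : Nat.card ↥(K.map B.subtype) = p ^ (n + 1) := by
      rw [Subgroup.card_map_of_injective (Subgroup.subtype_injective _), hK]
    have hB₁e : IsElementaryAbelian p (K.map B.subtype) :=
      ⟨⟨⟨fun a b => Subtype.ext (hBcomm a.1 (hB₁B a.2) b.1 (hB₁B b.2))⟩⟩,
        fun a ha => hBe.2 a (hB₁B ha)⟩
    refine le_trans (ih (K.map B.subtype) hB₁card hB₁e (hB₁B.trans hBX)) (iSup_le ?_)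
    rintro ⟨D₁, hD₁B₁, hD₁idx⟩
    simp only
    generalize K.map B.subtype = B₁ at hB₁B hB₁card hB₁e hD₁B₁ hD₁idx
    -- cards
    have hc1 : Nat.card D₁ * p = p ^ (n + 1) := by
      have := Subgroup.relIndex_mul_relIndex ⊥ D₁ B₁ bot_le hD₁B₁
      rw [Subgroup.relIndex_bot_left, Subgroup.relIndex_bot_left, hD₁idx, hB₁card] at this
      exact this
    have hcD₁ : Nat.card D₁ = p ^ n := by
      rw [pow_succ] at hc1
      exact Nat.eq_of_mul_eq_mul_right hp.pos hc1
    obtain ⟨x, hxB₁, hxD₁⟩ : ∃ x ∈ B₁, x ∉ D₁ := by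
      by_contra hcon
      push Not at hcon
      have : B₁ = D₁ := le_antisymm hcon hD₁B₁
      rw [this, Subgroup.relIndex_self] at hD₁idx
      exact hp.one_lt.ne hD₁idx
    obtain ⟨y, hyB, hyB₁⟩ : ∃ y ∈ B, y ∉ B₁ := by
      by_contra hcon
      push Not at hcon
      have : B = B₁ := le_antisymm hcon hB₁B
      rw [this, hB₁card] at hB
      have := Nat.pow_right_injective hp.two_le hB
      omega
    have hxB : x ∈ B := hB₁B hxB₁
    have hcentD₁ : ∀ b ∈ B, b ∈ centralizer (D₁ : Set G) := by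
      intro b hb h hh
      exact hBcomm h (hB₁B (hD₁B₁ hh)) b hb
    have hYs : Group.IsSolvable ↥(X ⊓ centralizer (D₁ : Set G)) :=
      Group.isSolvable_of_isSolvable_injective
        (Subgroup.inclusion_injective (inf_le_left : X ⊓ centralizer (D₁ : Set G) ≤ X))
    have hcop : p.Coprime (Nat.card ↥(X ⊓ centralizer (D₁ : Set G))) := by
      rw [Nat.Prime.coprime_iff_not_dvd hp]
      intro h
      exact hXp (h.trans (Subgroup.card_dvd_of_le inf_le_left))
    have hgen := Cfsg.Agent.S0058.gen_sub p x y (hBcomm x hxB y hyB) (hBe.2 x hxB) (hBe.2 y hyB)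
      (X ⊓ centralizer (D₁ : Set G))
      (mem_normalizer_inf_centralizer (hBX hxB) (hcentD₁ x hxB))
      (mem_normalizer_inf_centralizer (hBX hyB) (hcentD₁ y hyB)) hcop
    have piece : ∀ d ∈ B, d ∉ D₁ →
        X ⊓ centralizer (D₁ : Set G) ⊓ centralizer {d} ≤
          ⨆ D : {D : Subgroup G // D ≤ B ∧ D.relIndex B = p},
            X ⊓ centralizer ((D : Subgroup G) : Set G) := by
      intro d hdB hdD₁
      have hd1 : d ≠ 1 := fun h => hdD₁ (h ▸ D₁.one_mem)
      have hdo : orderOf d = p := orderOf_eq_prime (hBe.2 d hdB) hd1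
      have hDB : D₁ ⊔ zpowers d ≤ B := sup_le (hD₁B₁.trans hB₁B) (zpowers_le.mpr hdB)
      have hle : Nat.card ↥(D₁ ⊔ zpowers d) ≤ p ^ (n + 1) := by
        have h1 : D₁ ≤ normalizer ((zpowers d : Subgroup G) : Set G) := by
          intro a ha
          apply Subgroup.centralizer_le_normalizer
          have : zpowers d ≤ centralizer ({a} : Set G) := by
            rw [zpowers_le]
            intro z hz
            rw [Set.mem_singleton_iff] at hz
            subst hz
            exact hBcomm z (hB₁B (hD₁B₁ ha)) d hdB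
          intro h hh
          exact (this hh a rfl).symm
        have h2 := card_sup_le D₁ (zpowers d) h1
        rw [Nat.card_zpowers, hdo, hcD₁] at h2
        rw [pow_succ]
        exact h2
      have hlt : p ^ n < Nat.card ↥(D₁ ⊔ zpowers d) := by
        rw [← hcD₁]
        have hlt' : D₁ < D₁ ⊔ zpowers d := by
          refine lt_of_le_of_ne le_sup_left (fun h => hdD₁ ?_)
          exact h ▸ Subgroup.mem_sup_right (mem_zpowers d)
        have h1 : Nat.card D₁ ≤ Nat.card ↥(D₁ ⊔ zpowers d) := Subgroup.card_le_of_le hlt'.le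
        have h2 : Nat.card D₁ ≠ Nat.card ↥(D₁ ⊔ zpowers d) := fun h3 =>
          hlt'.ne (Subgroup.eq_of_le_of_card_ge hlt'.le h3.ge)
        omega
      have hcD : Nat.card ↥(D₁ ⊔ zpowers d) = p ^ (n + 1) := by
        have hdvd : Nat.card ↥(D₁ ⊔ zpowers d) ∣ p ^ (n + 1 + 1) := by
          rw [← hB]; exact Subgroup.card_dvd_of_le hDB
        obtain ⟨j, -, hj⟩ := (Nat.dvd_prime_pow hp).mp hdvd
        rw [hj] at hlt hle ⊢
        have h1 := (Nat.pow_lt_pow_iff_right hp.one_lt).mp hlt
        have h2 := (Nat.pow_le_pow_iff_right hp.one_lt).mp hle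
        have : j = n + 1 := by omega
        rw [this]
      have hidx : (D₁ ⊔ zpowers d).relIndex B = p := by
        have := Subgroup.relIndex_mul_relIndex ⊥ (D₁ ⊔ zpowers d) B bot_le hDB
        rw [Subgroup.relIndex_bot_left, Subgroup.relIndex_bot_left, hcD, hB, pow_succ _ (n + 1)] at this
        exact Nat.eq_of_mul_eq_mul_left (pow_pos hp.pos _) this
      refine le_iSup_of_le ⟨D₁ ⊔ zpowers d, hDB, hidx⟩ ?_
      rintro g ⟨⟨hgX, hgD₁⟩, hgd⟩
      refine ⟨hgX, ?_⟩
      have : D₁ ⊔ zpowers d ≤ centralizer ({g} : Set G) := by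
        refine sup_le ?_ ?_
        · intro h hh z hz
          rw [Set.mem_singleton_iff] at hz
          subst hz
          exact (hgD₁ h hh).symm
        · rw [zpowers_le]
          intro z hz
          rw [Set.mem_singleton_iff] at hz
          subst hz
          exact (hgd d rfl).symm
      intro h hh
      exact (this hh g rfl).symm
    refine le_trans hgen (sup_le (piece x hxB hxD₁) (iSup_le fun i => piece _ ?_ ?_))
    · exact B.mul_mem (B.pow_mem hxB _) hyB
    · intro h
      apply hyB₁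
      have : y = (x ^ i.val)⁻¹ * (x ^ i.val * y) := by group
      rw [this]
      exact B₁.mul_mem (B₁.inv_mem (B₁.pow_mem hxB₁ _)) (hD₁B₁ h)

/-- Let θ be a solvable A-signalizer functor on the finite group G for the prime p, A elementary abelian of rank at least 3, X a member of the family of θ, and B ≤ A with |B| ≥ p². Then X is generated by the subgroups X ∩ ⋂_{d ∈ D, d ≠ 1} θ d, D ranging over the subgroups of index p in B. -/
theorem result {G : Type*} [Group G] [Finite G] (p : ℕ) [Fact p.Prime] (A : Subgroup G) (hA : Cfsg.IsElementaryAbelian p A) (hA3 : p ^ 3 ≤ Nat.card ↥A) (θ : G → Subgroup G) (hθ : Cfsg.IsSolvableSignalizerFunctor p A θ) (X : Subgroup G) (hX : X ∈ Cfsg.signalizerFamily p A θ) (B : Subgroup G) (hB : B ≤ A) (hB2 : p ^ 2 ≤ Nat.card ↥B) : X = ⨆ D : {D : Subgroup G // D ≤ B ∧ D.relIndex B = p}, X ⊓ Cfsg.signalizerInf (D : Subgroup G) θ := by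
  have hp := (Fact.out : p.Prime)
  obtain ⟨hXs, hXp, hXinv, hXθ⟩ := hX
  apply le_antisymm
  · have hBe : IsElementaryAbelian p B :=
      ⟨⟨⟨fun a b => Subtype.ext (show (a.1 * b.1 : G) = b.1 * a.1 from congrArg Subtype.val
        (hA.1.is_comm.comm ⟨a.1, hB a.2⟩ ⟨b.1, hB b.2⟩))⟩⟩, fun a ha => hA.2 a (hB ha)⟩
    have hBp : IsPGroup p B := by
      intro g
      refine ⟨1, ?_⟩
      apply Subtype.ext
      rw [pow_one]
      simpa using hBe.2 g.1 g.2
    obtain ⟨m, hm⟩ := IsPGroup.iff_card.mp hBp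
    have hm2 : 2 ≤ m := by
      rw [hm] at hB2
      exact (Nat.pow_le_pow_iff_right hp.one_lt).mp hB2
    obtain ⟨n, rfl⟩ : ∃ n, m = n + 1 := ⟨m - 1, by omega⟩
    have hBX : B ≤ normalizer (X : Set G) := by
      intro b hb
      rw [Subgroup.mem_normalizer_iff]
      intro g
      constructor
      · intro hg
        exact hXinv b (hB hb) g hg
      · intro hg
        have := hXinv b⁻¹ (A.inv_mem (hB hb)) _ hg
        have h2 : b⁻¹ * (b * g * b⁻¹) * b⁻¹⁻¹ = g := by group
        rwa [h2] at this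
    refine le_trans (gen p X hXs hXp n B hm hBe hBX) (iSup_mono fun D => ?_)
    rintro g ⟨hgX, hgD⟩
    refine ⟨hgX, ?_⟩
    refine Subgroup.mem_iInf.mpr ?_
    rintro ⟨a, haD, ha1⟩
    apply hXθ a (hB (D.2.1 haD)) ha1
    refine ⟨hgX, ?_⟩
    intro h hh
    rw [Set.mem_singleton_iff] at hh
    subst hh
    exact hgD h haD
  · exact iSup_le fun D => inf_le_left

end Cfsg.Agent.S1331
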