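import Cfsg.Statements.S1335
import Mathlib
-- import your own Cfsg.Agent.* helpers here

set_option autoImplicit false
open Cfsg

namespace Cfsg.Agent.S1335

theorem prank_transport {A B : Type*} [Group A] [Group B] (e : A ≃* B) (p k : ℕ)
    (h : Cfsg.PRankLE p k B) : Cfsg.PRankLE p k A := by
  intro X hX hXp
  have h1 : IsMulCommutative ↥(X.map e.toMonoidHom) := inferInstance
  have h2 : ∀ a ∈ X.map e.toMonoidHom, a ^ p = 1 := by
    rintro _ ⟨x, hx, rfl⟩
    simp [← map_pow, hXp x hx]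
  have h3 := h (X.map e.toMonoidHom) h1 h2
  have h4 : Nat.card ↥(X.map e.toMonoidHom) = Nat.card ↥X :=
    Subgroup.card_map_of_injective e.injective
  omega

/-- Let H be a subgroup of the finite group G, p a prime, k ≥ 1, P a Sylow p-subgroup of H of p-rank at least k, and suppose N_G(X) ≤ H for every subgroup X ≤ P of p-rank at least k. Then P is a Sylow p-subgroup of G. -/
theorem result {G : Type*} [Group G] [Finite G] {p : ℕ} [Fact p.Prime] (k : ℕ) (hk : 1 ≤ k) (H : Subgroup G) (P : Sylow p ↥H) (hP : ¬ Cfsg.PRankLE p (k - 1) ↥(P : Subgroup ↥H)) (hΓ : (∀ X : Subgroup G, X ≤ (P : Subgroup ↥H).map H.subtype → ¬ Cfsg.PRankLE p (k - 1) ↥X → Subgroup.normalizer (X : Set G) ≤ H)) : ∃ Q : Sylow p G, (Q : Subgroup G) = (P : Subgroup ↥H).map H.subtype := by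
  set P' : Subgroup G := (P : Subgroup ↥H).map H.subtype with hP'
  have hP'p : IsPGroup p P' := P.isPGroup'.map H.subtype
  have hP'H : P' ≤ H := by
    rintro _ ⟨x, _, rfl⟩; exact x.2
  have hrank : ¬ Cfsg.PRankLE p (k - 1) ↥P' := fun h =>
    hP (prank_transport
      ((P : Subgroup ↥H).equivMapOfInjective H.subtype H.subtype_injective) p (k - 1) h)
  have hN : Subgroup.normalizer (P' : Set G) ≤ H := hΓ P' le_rfl hrank
  obtain ⟨Q, hQ⟩ := hP'p.exists_le_sylow
  refine ⟨Q, ?_⟩
  by_contra hne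
  have hlt : P' < (Q : Subgroup G) := lt_of_le_of_ne hQ (Ne.symm hne)
  -- normalizer condition inside Q
  have : Group.IsNilpotent ↥(Q : Subgroup G) := Q.isPGroup'.isNilpotent
  have hnc := Group.normalizerCondition_of_isNilpotent (G := ↥(Q : Subgroup G))
  have hlt' : P'.subgroupOf (Q : Subgroup G) < ⊤ := by
    rw [lt_top_iff_ne_top, Ne, Subgroup.subgroupOf_eq_top]
    exact not_le_of_gt hlt
  have h1 := hnc _ hlt'
  rw [← Subgroup.subgroupOf_normalizer_eq hQ] at h1
  -- N := Q ⊓ N_G(P')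
  set N : Subgroup G := (Q : Subgroup G) ⊓ Subgroup.normalizer (P' : Set G) with hNdef
  have hNp : IsPGroup p N := Q.isPGroup'.to_le inf_le_left
  have hNH : N ≤ H := inf_le_right.trans hN
  have hP'N : P' ≤ N := le_inf hQ Subgroup.le_normalizer
  have hPN : (P : Subgroup ↥H) ≤ N.subgroupOf H := by
    intro x hx
    rw [Subgroup.mem_subgroupOf]
    exact hP'N ⟨x, hx, rfl⟩
  have hNp' : IsPGroup p ↥(N.subgroupOf H) :=
    hNp.comap_of_injective H.subtype H.subtype_injective
  have heq : N.subgroupOf H = (P : Subgroup ↥H) := P.is_maximal' hNp' hPN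
  have hNP' : N ≤ P' := by
    intro x hx
    have hxH : x ∈ H := hNH hx
    have : (⟨x, hxH⟩ : ↥H) ∈ N.subgroupOf H := by
      rw [Subgroup.mem_subgroupOf]; exact hx
    rw [heq] at this
    exact ⟨⟨x, hxH⟩, this, rfl⟩
  -- contradiction
  have h2 : (Subgroup.normalizer (P' : Set G)).subgroupOf (Q : Subgroup G) ≤ P'.subgroupOf (Q : Subgroup G) := by
    intro x hx
    rw [Subgroup.mem_subgroupOf] at hx ⊢
    exact hNP' ⟨x.2, hx⟩
  exact absurd h1 (not_lt_of_ge h2)

end Cfsg.Agent.S1335
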