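import Cfsg.Statements.S1336
import Mathlib
-- import your own Cfsg.Agent.* helpers here

set_option autoImplicit false
open Cfsg

namespace Cfsg.Agent.S1336

variable {G : Type*} [Group G]

/-- vertices of the graph -/
def V (p : ℕ) (A : Subgroup G) : Prop := Cfsg.IsElementaryAbelian p A ∧ p ^ 1 ≤ Nat.card ↥A

/-- edges of the graph -/
def R (p : ℕ) (A B : Subgroup G) : Prop :=
  Cfsg.IsElementaryAbelian p A ∧ p ^ 1 ≤ Nat.card ↥A ∧ Cfsg.IsElementaryAbelian p B ∧
    p ^ 1 ≤ Nat.card ↥B ∧ ∀ a ∈ A, ∀ b ∈ B, a * b = b * a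

theorem R_symm (p : ℕ) {A B : Subgroup G} (h : R p A B) : R p B A := by
  obtain ⟨h1, h2, h3, h4, h5⟩ := h
  exact ⟨h3, h4, h1, h2, fun b hb a ha => (h5 a ha b hb).symm⟩

theorem R_of_V {p : ℕ} {A B : Subgroup G} (hA : V p A) (hB : V p B)
    (h : ∀ a ∈ A, ∀ b ∈ B, a * b = b * a) : R p A B :=
  ⟨hA.1, hA.2, hB.1, hB.2, h⟩

theorem V_map {p : ℕ} {A : Subgroup G} (φ : G ≃* G) (hA : V p A) :
    V p (A.map φ.toMonoidHom) := by
  obtain ⟨⟨h1, h2⟩, h3⟩ := hA
  refine ⟨⟨inferInstance, ?_⟩, ?_⟩
  · rintro _ ⟨x, hx, rfl⟩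
    simp [← map_pow, h2 x hx]
  · rw [Subgroup.card_map_of_injective φ.injective]
    exact h3

theorem R_map {p : ℕ} {A B : Subgroup G} (φ : G ≃* G) (h : R p A B) :
    R p (A.map φ.toMonoidHom) (B.map φ.toMonoidHom) := by
  obtain ⟨h1, h2, h3, h4, h5⟩ := h
  refine R_of_V (V_map φ ⟨h1, h2⟩) (V_map φ ⟨h3, h4⟩) ?_
  rintro _ ⟨a, ha, rfl⟩ _ ⟨b, hb, rfl⟩
  simp only [MulEquiv.coe_toMonoidHom, ← map_mul, h5 a ha b hb]

theorem conn_map {p : ℕ} {A B : Subgroup G} (φ : G ≃* G)
    (h : Relation.ReflTransGen (R p) A B) :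
    Relation.ReflTransGen (R p) (A.map φ.toMonoidHom) (B.map φ.toMonoidHom) := by
  induction h with
  | refl => exact Relation.ReflTransGen.refl
  | tail _ hbc ih => exact ih.tail (R_map φ hbc)

theorem conn_symm {p : ℕ} {A B : Subgroup G}
    (h : Relation.ReflTransGen (R p) A B) : Relation.ReflTransGen (R p) B A := by
  induction h with
  | refl => exact Relation.ReflTransGen.refl
  | tail _ hbc ih => exact Relation.ReflTransGen.head (R_symm p hbc) ih

theorem V_isPGroup {p : ℕ} {A : Subgroup G} (hA : V p A) : IsPGroup p ↥A := by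
  intro a
  refine ⟨1, ?_⟩
  have := hA.1.2 a a.2
  ext
  simpa using this

theorem V_dvd_card {p : ℕ} [Fact p.Prime] {A : Subgroup G} (hA : V p A) : p ∣ Nat.card ↥A := by
  rcases (V_isPGroup hA).card_eq_or_dvd with h | h
  · have h2 := hA.2
    have := (Fact.out : p.Prime).two_le
    rw [h] at h2
    simp at h2
    omega
  · exact h

theorem V_zpowers {p : ℕ} [Fact p.Prime] {x : G} (hx : orderOf x = p) :
    V p (Subgroup.zpowers x) := by
  refine ⟨⟨inferInstance, ?_⟩, ?_⟩
  · intro a ha
    obtain ⟨k, rfl⟩ := Subgroup.mem_zpowers_iff.mp ha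
    rw [← zpow_natCast, ← zpow_mul, mul_comm, zpow_mul, zpow_natCast, ← hx, pow_orderOf_eq_one,
      one_zpow]
  · rw [Nat.card_zpowers, hx, pow_one]

theorem mem_map_conj {E : Subgroup G} {g x : G} :
    x ∈ E.map (MulAut.conj g).toMonoidHom ↔ g⁻¹ * x * g ∈ E := by
  constructor
  · rintro ⟨y, hy, rfl⟩
    simpa [mul_assoc] using hy
  · intro h
    exact ⟨g⁻¹ * x * g, h, by simp [mul_assoc]⟩

theorem map_conj_mul (E : Subgroup G) (g h : G) :
    (E.map (MulAut.conj h).toMonoidHom).map (MulAut.conj g).toMonoidHom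
      = E.map (MulAut.conj (g * h)).toMonoidHom := by
  ext x
  simp only [mem_map_conj, mul_inv_rev, mul_assoc]

theorem map_conj_one (E : Subgroup G) : E.map (MulAut.conj (1 : G)).toMonoidHom = E := by
  ext x
  simp

theorem map_conj_self {E : Subgroup G} {e : G} (he : e ∈ E) :
    E.map (MulAut.conj e).toMonoidHom = E := by
  ext x
  rw [mem_map_conj]
  constructor
  · intro h
    have : x = e * (e⁻¹ * x * e) * e⁻¹ := by group
    rw [this]
    exact E.mul_mem (E.mul_mem he h) (E.inv_mem he)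
  · intro h
    exact E.mul_mem (E.mul_mem (E.inv_mem he) h) he

theorem same_pgroup [Finite G] {p : ℕ} [Fact p.Prime] {A B P : Subgroup G} (hP : IsPGroup p ↥P)
    (hAP : A ≤ P) (hBP : B ≤ P) (hA : V p A) (hB : V p B) :
    Relation.ReflTransGen (R p) A B := by
  have hp := (Fact.out : p.Prime)
  have hPnt : Nontrivial ↥P := by
    have h1 : Nat.card ↥A ∣ Nat.card ↥P := Subgroup.card_dvd_of_le hAP
    have h2 := V_dvd_card hA
    have h3 : p ∣ Nat.card ↥P := h2.trans h1
    have h4 : 1 < Nat.card ↥P := by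
      have := Nat.le_of_dvd Nat.card_pos h3
      have := hp.two_le
      omega
    exact Finite.one_lt_card_iff_nontrivial.mp h4
  have hZnt : Nontrivial ↥(Subgroup.center ↥P) := hP.center_nontrivial
  have hZp : IsPGroup p ↥(Subgroup.center ↥P) := hP.to_subgroup _
  have hdvd : p ∣ Nat.card ↥(Subgroup.center ↥P) := by
    rcases hZp.card_eq_or_dvd with h | h
    · have := Finite.one_lt_card_iff_nontrivial.mpr hZnt
      omega
    · exact h
  obtain ⟨z, hz⟩ := exists_prime_orderOf_dvd_card' p hdvd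
  have hz' : orderOf ((z : ↥P) : G) = p := by
    rw [Subgroup.orderOf_coe, Subgroup.orderOf_coe, hz]
  have hZ := V_zpowers hz'
  have hcomm : ∀ x ∈ P, ∀ y ∈ Subgroup.zpowers ((z : ↥P) : G), x * y = y * x := by
    intro x hx y hy
    obtain ⟨k, rfl⟩ := Subgroup.mem_zpowers_iff.mp hy
    have h1 : (⟨x, hx⟩ : ↥P) * (z : ↥P) = (z : ↥P) * ⟨x, hx⟩ := by
      have := Subgroup.mem_center_iff.mp z.2 ⟨x, hx⟩
      exact this
    have h2 : x * ((z : ↥P) : G) = ((z : ↥P) : G) * x := by
      have := congrArg (Subtype.val) h1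
      simpa using this
    exact ((Commute.zpow_right h2 k : Commute x _)).eq
  have e1 : R p A (Subgroup.zpowers ((z : ↥P) : G)) :=
    R_of_V hA hZ (fun a ha y hy => hcomm a (hAP ha) y hy)
  have e2 : R p (Subgroup.zpowers ((z : ↥P) : G)) B :=
    R_of_V hZ hB (fun y hy b hb => (hcomm b (hBP hb) y hy).symm)
  exact Relation.ReflTransGen.head e1 (Relation.ReflTransGen.single e2)

/-- The stabilizer of the connected component of `E`. -/
def stab (p : ℕ) (E : Subgroup G) : Subgroup G where
  carrier := {g | Relation.ReflTransGen (R p) E (E.map (MulAut.conj g).toMonoidHom)}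
  one_mem' := by
    show Relation.ReflTransGen (R p) E (E.map (MulAut.conj (1 : G)).toMonoidHom)
    rw [map_conj_one]
  mul_mem' := by
    intro g h hg hh
    show Relation.ReflTransGen (R p) E (E.map (MulAut.conj (g * h)).toMonoidHom)
    have := conn_map (MulAut.conj g) hh
    rw [map_conj_mul] at this
    exact hg.trans this
  inv_mem' := by
    intro g hg
    show Relation.ReflTransGen (R p) E (E.map (MulAut.conj g⁻¹).toMonoidHom)
    have := conn_map (MulAut.conj g⁻¹) hg
    rw [map_conj_mul, inv_mul_cancel, map_conj_one] at this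
    exact conn_symm this

theorem mem_stab {p : ℕ} {E : Subgroup G} {g : G} :
    g ∈ stab p E ↔ Relation.ReflTransGen (R p) E (E.map (MulAut.conj g).toMonoidHom) := Iff.rfl

theorem le_stab {p : ℕ} (E : Subgroup G) : E ≤ stab p E := by
  intro e he
  rw [mem_stab, map_conj_self he]

theorem key [Finite G] {p : ℕ} [Fact p.Prime] {E A : Subgroup G} (hE : V p E) (hA : V p A)
    (hAH : A ≤ stab p E) : Relation.ReflTransGen (R p) E A := by
  set H := stab p E with hH
  have hEH : E ≤ H := le_stab E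
  have hEp : IsPGroup p ↥(E.subgroupOf H) :=
    (V_isPGroup hE).comap_of_injective H.subtype H.subtype_injective
  have hAp : IsPGroup p ↥(A.subgroupOf H) :=
    (V_isPGroup hA).comap_of_injective H.subtype H.subtype_injective
  obtain ⟨QE, hQE⟩ := hEp.exists_le_sylow
  obtain ⟨QA, hQA⟩ := hAp.exists_le_sylow
  obtain ⟨h, hh⟩ := MulAction.exists_smul_eq ↥H QE QA
  have hP : IsPGroup p ↥((QA : Subgroup ↥H).map H.subtype) := QA.isPGroup'.map _
  have hAP : A ≤ (QA : Subgroup ↥H).map H.subtype := by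
    intro a ha
    refine ⟨⟨a, hAH ha⟩, hQA ?_, rfl⟩
    rw [Subgroup.mem_subgroupOf]
    exact ha
  have hEP : E.map (MulAut.conj (h : G)).toMonoidHom ≤ (QA : Subgroup ↥H).map H.subtype := by
    rintro _ ⟨e, he, rfl⟩
    have h1 : (⟨e, hEH he⟩ : ↥H) ∈ (QE : Subgroup ↥H) := by
      apply hQE
      rw [Subgroup.mem_subgroupOf]
      exact he
    have h2 : h * ⟨e, hEH he⟩ * h⁻¹ ∈ (QA : Subgroup ↥H) := by
      rw [← hh, Sylow.smul_def, Sylow.pointwise_smul_def]
      exact Subgroup.smul_mem_pointwise_smul _ _ _ h1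
    exact ⟨_, h2, by simp⟩
  exact (mem_stab.mp h.2).trans (same_pgroup hP hEP hAP (V_map _ hE) hA)

/-- Let G be finite and p prime. Then G has a proper subgroup H with p ∣ |H| and p ∤ |H ∩ gHg⁻¹| for every g ∉ H (a strongly p-embedded subgroup) if and only if G is not 1-connected for p. -/
theorem result {G : Type*} [Group G] [Finite G] (p : ℕ) [Fact p.Prime] : (∃ H : Subgroup G, H ≠ ⊤ ∧ p ∣ Nat.card ↥H ∧ ∀ g : G, g ∉ H → ¬ p ∣ Nat.card ↥(H ⊓ H.map (MulAut.conj g).toMonoidHom)) ↔ ¬ Cfsg.IsKConnected p 1 G := by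
  have hp := (Fact.out : p.Prime)
  constructor
  · rintro ⟨H, hHtop, hpH, hstr⟩ hconn
    -- all vertices adjacent to a vertex in H are in H
    have step : ∀ A B : Subgroup G, R p A B → A ≤ H → B ≤ H := by
      intro A B hAB hAH b hb
      by_contra hbH
      apply hstr b hbH
      have hA : V p A := ⟨hAB.1, hAB.2.1⟩
      have hle : A ≤ H ⊓ H.map (MulAut.conj b).toMonoidHom := by
        intro a ha
        refine ⟨hAH ha, mem_map_conj.mpr ?_⟩
        have hc := hAB.2.2.2.2 a ha b hb
        have : b⁻¹ * a * b = a := by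
          rw [mul_assoc, hc, ← mul_assoc, inv_mul_cancel, one_mul]
        rw [this]
        exact hAH ha
      exact (V_dvd_card hA).trans (Subgroup.card_dvd_of_le hle)
    have step' : ∀ A B : Subgroup G, Relation.ReflTransGen (R p) A B → A ≤ H → B ≤ H := by
      intro A B hAB
      induction hAB with
      | refl => exact id
      | tail _ hbc ih => exact fun hA => step _ _ hbc (ih hA)
    obtain ⟨x, hx⟩ := exists_prime_orderOf_dvd_card' p hpH
    have hx' : orderOf (x : G) = p := by rw [Subgroup.orderOf_coe, hx]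
    obtain ⟨g, hg⟩ : ∃ g : G, g ∉ H := by
      by_contra h
      push Not at h
      exact hHtop (eq_top_iff.mpr fun g _ => h g)
    have hV0 := V_zpowers hx'
    have hV1 := V_map (MulAut.conj g) hV0
    have hc : Relation.ReflTransGen (R p) (Subgroup.zpowers (x : G))
        ((Subgroup.zpowers (x : G)).map (MulAut.conj g).toMonoidHom) :=
      hconn _ _ hV0.1 hV0.2 hV1.1 hV1.2
    have h0 : Subgroup.zpowers (x : G) ≤ H := by
      rw [Subgroup.zpowers_le]; exact x.2
    have h1 := step' _ _ hc h0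
    apply hstr g hg
    have hle : (Subgroup.zpowers (x : G)).map (MulAut.conj g).toMonoidHom
        ≤ H ⊓ H.map (MulAut.conj g).toMonoidHom :=
      le_inf h1 (Subgroup.map_mono h0)
    exact (V_dvd_card hV1).trans (Subgroup.card_dvd_of_le hle)
  · intro hnc
    have : ∃ E E' : Subgroup G, V p E ∧ V p E' ∧ ¬ Relation.ReflTransGen (R p) E E' := by
      by_contra h
      push Not at h
      exact hnc fun E E' h1 h2 h3 h4 => h E E' ⟨h1, h2⟩ ⟨h3, h4⟩
    obtain ⟨E, E', hE, hE', hnot⟩ := this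
    refine ⟨stab p E, ?_, ?_, ?_⟩
    · -- proper
      intro htop
      obtain ⟨P, hP⟩ := (V_isPGroup hE).exists_le_sylow
      obtain ⟨P', hP'⟩ := (V_isPGroup hE').exists_le_sylow
      obtain ⟨g, hg⟩ := MulAction.exists_smul_eq G P P'
      have hg1 : g ∈ stab p E := htop ▸ Subgroup.mem_top g
      have hEP' : E.map (MulAut.conj g).toMonoidHom ≤ (P' : Subgroup G) := by
        rintro _ ⟨e, he, rfl⟩
        rw [← hg, Sylow.smul_def, Sylow.pointwise_smul_def]
        exact Subgroup.smul_mem_pointwise_smul _ _ _ (hP he)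
      exact hnot ((mem_stab.mp hg1).trans
        (same_pgroup P'.isPGroup' hEP' hP' (V_map _ hE) hE'))
    · exact (V_dvd_card hE).trans (Subgroup.card_dvd_of_le (le_stab E))
    · intro g hg hdvd
      apply hg
      obtain ⟨x, hx⟩ := exists_prime_orderOf_dvd_card' p hdvd
      have hx' : orderOf (x : G) = p := by rw [Subgroup.orderOf_coe, hx]
      have hxH : (x : G) ∈ stab p E := x.2.1
      have hxg : g⁻¹ * (x : G) * g ∈ stab p E := mem_map_conj.mp x.2.2
      have hy' : orderOf (g⁻¹ * (x : G) * g) = p := by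
        have : g⁻¹ * (x : G) * g = MulAut.conj g⁻¹ (x : G) := by simp
        rw [this, MulEquiv.orderOf_eq, hx']
      have hVx := V_zpowers hx'
      have hVy := V_zpowers hy'
      have c1 : Relation.ReflTransGen (R p) E (Subgroup.zpowers (x : G)) :=
        key hE hVx (by rw [Subgroup.zpowers_le]; exact hxH)
      have c2 : Relation.ReflTransGen (R p) E (Subgroup.zpowers (g⁻¹ * (x : G) * g)) :=
        key hE hVy (by rw [Subgroup.zpowers_le]; exact hxg)
      have c3 := conn_map (MulAut.conj g) c2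
      have hmap : (Subgroup.zpowers (g⁻¹ * (x : G) * g)).map (MulAut.conj g).toMonoidHom
          = Subgroup.zpowers (x : G) := by
        rw [MonoidHom.map_zpowers]
        congr 1
        simp [mul_assoc]
      rw [hmap] at c3
      exact mem_stab.mpr (c1.trans (conn_symm c3))

end Cfsg.Agent.S1336
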