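import Cfsg.Statements.S1337
import Cfsg.Agent.Lib.Helper31.PGrp

set_option autoImplicit false
open Cfsg

namespace Cfsg.Agent.S1337

open Cfsg.Agent.Lib.Helper31

theorem card_inf_centralizer_ge {P : Type*} [Group P] [Finite P] (p : ℕ) [Fact p.Prime]
    (hP : IsPGroup p P) {U : Subgroup P} [U.Normal] (hU : Nat.card U = p ^ 2)
    {E : Subgroup P} (hEcard : p ^ 2 < Nat.card E) :
    p ^ 2 ≤ Nat.card ↥(E ⊓ Subgroup.centralizer (U : Set P)) := by
  have hp := (Fact.out : p.Prime)
  have h1 := card_le_mul_card_inf_centralizer hP hU E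
  obtain ⟨j, hj⟩ := card_pow_of_isPGroup hP (E ⊓ Subgroup.centralizer (U : Set P))
  rw [hj] at h1 ⊢
  have h2 : p ^ 2 < p ^ (j + 1) := by
    calc p ^ 2 < Nat.card E := hEcard
      _ ≤ p * p ^ j := h1
      _ = p ^ (j + 1) := by ring
  have h3 := (Nat.pow_lt_pow_iff_right hp.one_lt).mp h2
  exact Nat.pow_le_pow_right hp.pos (by omega)

theorem centralizer_rank {P : Type*} [Group P] [Finite P] (p : ℕ) [Fact p.Prime]
    (hP : IsPGroup p P) {U : Subgroup P} [U.Normal] (hUe : IsElementaryAbelian p U)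
    (hU : Nat.card U = p ^ 2)
    {E : Subgroup P} (hE : IsElementaryAbelian p E) (hEcard : p ^ 2 < Nat.card E) :
    ¬ PRankLE p 2 ↥(Subgroup.centralizer (U : Set P)) := by
  by_cases hUE : U ≤ E
  · refine not_pRankLE_of_le ?_ hE hEcard
    intro e he u hu
    exact isMulComm_iff.mp hE.1 u (hUE hu) e he
  · have h0 := card_inf_centralizer_ge p hP hU hEcard
    have hW : IsElementaryAbelian p (E ⊓ Subgroup.centralizer (U : Set P) ⊔ U) := by
      apply elemAb_sup (elemAb_of_le inf_le_left hE) hUe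
      intro a ha b hb
      exact (ha.2 b hb).symm
    have hWC : E ⊓ Subgroup.centralizer (U : Set P) ⊔ U ≤ Subgroup.centralizer (U : Set P) := by
      refine sup_le inf_le_right ?_
      intro a ha b hb
      exact isMulComm_iff.mp hUe.1 b hb a ha
    refine not_pRankLE_of_le hWC hW ?_
    have hlt : E ⊓ Subgroup.centralizer (U : Set P) <
        E ⊓ Subgroup.centralizer (U : Set P) ⊔ U := by
      refine lt_of_le_of_ne le_sup_left (fun h => hUE ?_)
      have : U ≤ E ⊓ Subgroup.centralizer (U : Set P) := h ▸ le_sup_right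
      exact this.trans inf_le_left
    have := card_lt_card_of_lt hlt
    omega

/-- Let P be a finite p-group of p-rank greater than 2. Then P has a normal elementary abelian subgroup U of order p², and for every elementary abelian X ≤ P with |X| ≥ p²: X is joined to U by a chain of pairwise commuting elementary abelian subgroups of order ≥ p² if and only if C_P(X) has p-rank greater than 2. -/
theorem result {P : Type*} [Group P] [Finite P] (p : ℕ) [Fact p.Prime] (hP : IsPGroup p P) (hrk : ¬ Cfsg.PRankLE p 2 P) : ∃ U : Subgroup P, U.Normal ∧ Cfsg.IsElementaryAbelian p U ∧ Nat.card ↥U = p ^ 2 ∧ ∀ X : Subgroup P, Cfsg.IsElementaryAbelian p X → p ^ 2 ≤ Nat.card ↥X → (Relation.ReflTransGen (fun A B : Subgroup P => Cfsg.IsElementaryAbelian p A ∧ p ^ 2 ≤ Nat.card ↥A ∧ Cfsg.IsElementaryAbelian p B ∧ p ^ 2 ≤ Nat.card ↥B ∧ ∀ a ∈ A, ∀ b ∈ B, a * b = b * a) X U ↔ ¬ Cfsg.PRankLE p 2 ↥(Subgroup.centralizer (X : Set P))) := by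
  obtain ⟨E, hE, hEcard⟩ := exists_of_not_pRankLE_top hrk
  obtain ⟨N, hNn, hNe, hNc⟩ := exists_normal_elemAb_sq hP hE hEcard
  obtain ⟨U, hUN, hUn, hUc⟩ := exists_normal_le_card_eq hP (k := 2) hNc
  have hUe : IsElementaryAbelian p U := elemAb_of_le hUN hNe
  have key : ∀ X : Subgroup P, Relation.ReflTransGen (fun A B : Subgroup P =>
      Cfsg.IsElementaryAbelian p A ∧ p ^ 2 ≤ Nat.card ↥A ∧ Cfsg.IsElementaryAbelian p B ∧
      p ^ 2 ≤ Nat.card ↥B ∧ ∀ a ∈ A, ∀ b ∈ B, a * b = b * a) X U →
      ¬ Cfsg.PRankLE p 2 ↥(Subgroup.centralizer (X : Set P)) := by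
    intro X hchain
    induction hchain using Relation.ReflTransGen.head_induction_on with
    | refl => exact centralizer_rank p hP hUe hUc hE hEcard
    | @head X Y hXY _ ih =>
      obtain ⟨hXe, hXc', hYe, hYc, hcomm⟩ := hXY
      by_cases hYX : Y ≤ X
      · by_cases hbig : p ^ 2 < Nat.card X
        · refine not_pRankLE_of_le ?_ hXe hbig
          intro a ha b hb
          exact isMulComm_iff.mp hXe.1 b hb a ha
        · have hXY : Y = X := Subgroup.eq_of_le_of_card_ge hYX (by omega)
          rw [← hXY]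
          exact ih
      · have hW : IsElementaryAbelian p (X ⊔ Y) := elemAb_sup hXe hYe hcomm
        have hWC : X ⊔ Y ≤ Subgroup.centralizer (X : Set P) := by
          refine sup_le ?_ ?_
          · intro a ha b hb
            exact isMulComm_iff.mp hXe.1 b hb a ha
          · intro a ha b hb
            exact hcomm b hb a ha
        refine not_pRankLE_of_le hWC hW ?_
        have hlt : X < X ⊔ Y := by
          refine lt_of_le_of_ne le_sup_left (fun h => hYX ?_)
          exact h ▸ le_sup_right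
        have := card_lt_card_of_lt hlt
        omega
  refine ⟨U, hUn, hUe, hUc, fun X hX hXc => ⟨key X, ?_⟩⟩
  · intro hrkX
    obtain ⟨E', hE'C, hE'e, hE'card⟩ := exists_of_not_pRankLE hrkX
    have h0 := card_inf_centralizer_ge p hP hUc hE'card
    have hE0 : IsElementaryAbelian p (E' ⊓ Subgroup.centralizer (U : Set P)) :=
      elemAb_of_le inf_le_left hE'e
    refine Relation.ReflTransGen.head (b := E') ⟨hX, hXc, hE'e, hE'card.le, ?_⟩ ?_
    · intro a ha b hb
      exact hE'C hb a ha
    refine Relation.ReflTransGen.head (b := E' ⊓ Subgroup.centralizer (U : Set P))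
      ⟨hE'e, hE'card.le, hE0, h0, ?_⟩ ?_
    · intro a ha b hb
      exact isMulComm_iff.mp hE'e.1 a ha b hb.1
    refine Relation.ReflTransGen.single ⟨hE0, h0, hUe, hUc.ge, ?_⟩
    intro a ha b hb
    exact (ha.2 b hb).symm

end Cfsg.Agent.S1337
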