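import Cfsg.Statements.S1347
import Mathlib
import Cfsg.Agent.S0215
import Cfsg.Agent.Lib.Helper30.Basic
import Cfsg.Agent.Lib.Helper31.Comp
import Cfsg.Agent.Lib.Helper31.PComp
import Cfsg.Agent.Lib.Helper31.SEFix
import Cfsg.Agent.Lib.Helper31.Std

set_option autoImplicit false
set_option linter.unusedSectionVars false
open Cfsg

namespace Cfsg.Agent.S1347

open Cfsg.Agent.Lib
open Cfsg.Agent.Lib.Helper31
open scoped commutatorElement

universe u

/-- The working hypotheses: `A` standard and not normal, `O(G) = 1`, `t` an involution of `C(A)`. -/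
structure Setup {G : Type u} [Group G] (A : Subgroup G) (t : G) : Prop where
  qs : IsQuasisimple ↥A
  odd : ∀ g : G, g ∉ Subgroup.normalizer (A : Set G) →
    Odd (Nat.card ↥(Subgroup.centralizer (A : Set G) ⊓ cjg g (Subgroup.centralizer (A : Set G))))
  comm : ∀ g : G, cjg g A ≠ A → ⁅A, cjg g A⁆ ≠ ⊥
  ht : orderOf t = 2
  htA : t ∈ Subgroup.centralizer (A : Set G)
  triv : ∀ H : Subgroup G, H.Normal → H ≤ Subgroup.centralizer (A : Set G) → H = ⊥
  hO : pPrimeCore 2 G = ⊥
  nn : ¬ A.Normal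

theorem setup_of {G : Type u} [Group G] [Finite G] {A : Subgroup G} (hA : IsStandardSubgroup A)
    (hO : oddCore G = ⊥) {t : G} (ht : orderOf t = 2)
    (htA : t ∈ Subgroup.centralizer (A : Set G)) (hAn : ¬ A.Normal) : Setup A t := by
  obtain ⟨hqs, ⟨_, hti⟩, hcomm, hN⟩ := hA
  have hodd : ∀ g : G, g ∉ Subgroup.normalizer (A : Set G) →
      Odd (Nat.card ↥(Subgroup.centralizer (A : Set G) ⊓
        cjg g (Subgroup.centralizer (A : Set G)))) := by
    intro g hg
    rw [hN] at hg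
    exact hti g hg
  refine ⟨hqs, hodd, hcomm, ht, htA, ?_, hO, hAn⟩
  intro H hH hHK
  obtain ⟨g₀, hg₀⟩ : ∃ g₀, g₀ ∉ Subgroup.normalizer (A : Set G) := by
    by_contra h
    push Not at h
    exact hAn (Subgroup.normalizer_eq_top_iff.1 (eq_top_iff.2 (fun g _ => h g)))
  have h1 := hodd g₀ hg₀
  have hle : H ≤ Subgroup.centralizer (A : Set G) ⊓ cjg g₀ (Subgroup.centralizer (A : Set G)) := by
    intro x hx
    have h2 := hH.conj_mem x hx g₀⁻¹
    rw [inv_inv] at h2
    exact ⟨hHK hx, mem_cjg.2 (hHK h2)⟩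
  have h2 : Odd (Nat.card ↥H) := h1.of_dvd_nat (Subgroup.card_dvd_of_le hle)
  have h3 := le_pPrimeCore hH (Nat.coprime_two_right.2 h2)
  have hO' : pPrimeCore 2 G = ⊥ := hO
  rw [hO'] at h3
  exact le_bot_iff.1 h3

section General

variable {G : Type u} [Group G] [Finite G]

theorem comp_comm {L L' : Subgroup G} (hL : IsComponent L) (hL' : IsComponent L') (hne : L ≠ L') :
    ∀ x ∈ L, ∀ y ∈ L', x * y = y * x := by
  have h := Helper30.components_commute hL hL' hne
  rw [Subgroup.commutator_eq_bot_iff_le_centralizer] at h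
  intro x hx y hy
  exact (Subgroup.mem_centralizer_iff.1 (h hx) y hy).symm

omit [Finite G] in
theorem comp_not_comm {L : Subgroup G} (hL : IsComponent L) : ¬ IsMulCommutative ↥L := by
  intro h
  exact Helper30.comp_not_solvable hL (Group.isSolvable_of_comm (fun a b => h.is_comm.comm a b))

theorem comp_cjg_eq {L L'' : Subgroup G} (hL : IsComponent L) (hL'' : IsComponent L'') {k : G}
    (hk : k ∈ L'') : cjg k L = L := by
  by_cases h : L'' = L
  · subst h; exact cjg_eq_self_iff.2 (Subgroup.le_normalizer hk)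
  · exact cjg_eq_of_commute (fun x hx => comp_comm hL'' hL h k hk x hx)

omit [Finite G] in
theorem cjg_one (H : Subgroup G) : cjg 1 H = H := by
  ext x
  rw [mem_cjg, inv_one, one_mul, mul_one]

theorem cjg_inv_cjg (g : G) (H : Subgroup G) : cjg g⁻¹ (cjg g H) = H := by
  rw [cjg_cjg, inv_mul_cancel, cjg_one]

theorem cjg_injective (g : G) {H K : Subgroup G} (h : cjg g H = cjg g K) : H = K := by
  rw [← cjg_inv_cjg g H, h, cjg_inv_cjg]

/-- the join of two components is subnormal -/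
theorem sup_comp_subnormal {L L' : Subgroup G} (hL : IsComponent L) (hL' : IsComponent L') :
    (L ⊔ L').IsSubnormal := by
  have hle : L ⊔ L' ≤ layer G := sup_le (Helper30.comp_le_layer hL) (Helper30.comp_le_layer hL')
  have hnorm : layer G ≤ Subgroup.normalizer ((L ⊔ L' : Subgroup G) : Set G) := by
    apply sSup_le
    intro L'' hL'' k hk
    rw [← cjg_eq_self_iff]
    show Subgroup.map (MulAut.conj k).toMonoidHom (L ⊔ L') = L ⊔ L'
    rw [Subgroup.map_sup]
    have h1 : Subgroup.map (MulAut.conj k).toMonoidHom L = L := comp_cjg_eq hL hL'' hk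
    have h2 : Subgroup.map (MulAut.conj k).toMonoidHom L' = L' := comp_cjg_eq hL' hL'' hk
    rw [h1, h2]
  have hn : ((L ⊔ L').subgroupOf (layer G)).Normal :=
    (Subgroup.normal_subgroupOf_iff hle).2
      (fun h k hh hk => (Subgroup.mem_normalizer_iff.1 (hnorm hk) h).1 hh)
  have h3 := (Subgroup.Normal.isSubnormal hn).trans'
    (Subgroup.Normal.isSubnormal (Helper30.layer_normal (G := G)))
  rw [Subgroup.map_subgroupOf_eq_of_le hle] at h3
  exact h3

end General

namespace Setup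

variable {G : Type u} [Group G] [Finite G] {A : Subgroup G} {t : G}

omit [Finite G] in
theorem perf (S : Setup A t) : ⁅A, A⁆ = A := by
  have := S.qs.1
  exact Subgroup.commutator_eq_self

omit [Finite G] in
theorem ne_bot (S : Setup A t) : A ≠ ⊥ := by
  intro h
  have h1 := quasisimple_nontrivial S.qs
  rw [h] at h1
  exact not_subsingleton (↥(⊥ : Subgroup G)) inferInstance

omit [Finite G] in
theorem ti (S : Setup A t) (g x : G) (hx : x ∈ Subgroup.centralizer (A : Set G))
    (hx2 : orderOf x = 2) (hgx : g⁻¹ * x * g ∈ Subgroup.centralizer (A : Set G)) :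
    g ∈ Subgroup.normalizer (A : Set G) := by
  by_contra hg
  have hodd := S.odd g hg
  have hmem : x ∈ Subgroup.centralizer (A : Set G) ⊓ cjg g (Subgroup.centralizer (A : Set G)) :=
    ⟨hx, mem_cjg.2 hgx⟩
  have hdvd := Subgroup.orderOf_dvd_natCard _ hmem
  rw [hx2] at hdvd
  exact (Nat.not_even_iff_odd.2 hodd) (even_iff_two_dvd.2 hdvd)

theorem cent_t (S : Setup A t) {g : G} (hg : g * t = t * g) :
    g ∈ Subgroup.normalizer (A : Set G) := by
  apply S.ti g t S.htA S.ht
  have h : g⁻¹ * t * g = t := by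
    calc g⁻¹ * t * g = g⁻¹ * (t * g) := by group
      _ = g⁻¹ * (g * t) := by rw [hg]
      _ = t := by group
  rw [h]; exact S.htA

theorem norm_cent (S : Setup A t) {R : Subgroup G} (hR : R.Normal) (hne : ¬ A ≤ R) {q : G}
    (hq : q ∈ R) (hqN : q ∈ Subgroup.normalizer (A : Set G)) :
    q ∈ Subgroup.centralizer (A : Set G) := by
  have hZ := qs_inf_central S.qs (B := R) (fun a _ b hb => hR.conj_mem b hb a) hne
  have key := perfect_centralizes S.perf (M := R ⊓ Subgroup.normalizer (A : Set G)) (Z := A ⊓ R)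
    (by
      intro m hm a ha
      refine ⟨?_, ?_⟩
      · have h1 : m * a * m⁻¹ ∈ A := (Subgroup.mem_normalizer_iff.1 hm.2 a).1 ha
        rw [commutatorElement_def]
        exact A.mul_mem h1 (A.inv_mem ha)
      · have h1 : a * m⁻¹ * a⁻¹ ∈ R := hR.conj_mem _ (R.inv_mem hm.1) a
        rw [commutatorElement_def]
        have h2 : m * a * m⁻¹ * a⁻¹ = m * (a * m⁻¹ * a⁻¹) := by group
        rw [h2]
        exact R.mul_mem hm.1 h1)
    hZ
  rw [Subgroup.mem_centralizer_iff]
  intro a ha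
  exact (key q ⟨hq, hqN⟩ a ha).symm

/-- `G` has no nontrivial abelian normal subgroup. -/
theorem no_abelian (S : Setup A t) {R : Subgroup G} (hR : R.Normal)
    (hab : ∀ x ∈ R, ∀ y ∈ R, x * y = y * x) : R = ⊥ := by
  by_contra hRne
  have : Fact (Nat.Prime 2) := ⟨Nat.prime_two⟩
  have htt : t * t = 1 := (Helper28.inv_iff.1 S.ht).2
  have hti : t⁻¹ = t := Helper28.inv_inv_eq htt
  have h2 : 2 ∣ Nat.card ↥R := by
    by_contra h
    have hc : (Nat.card ↥R).Coprime 2 :=
      ((Nat.Prime.coprime_iff_not_dvd Nat.prime_two).2 h).symm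
    have h3 := le_pPrimeCore hR hc
    rw [S.hO] at h3
    exact hRne (le_bot_iff.1 h3)
  obtain ⟨x, hx⟩ := exists_prime_orderOf_dvd_card' (G := R) 2 h2
  have hx2 : orderOf (x : G) = 2 := by rw [← hx]; exact Subgroup.orderOf_coe x
  have hxx : (x : G) * (x : G) = 1 := (Helper28.inv_iff.1 hx2).2
  let R' : Subgroup G :=
    { carrier := {r | r ∈ R ∧ r * r = 1}
      mul_mem' := by
        rintro a b ⟨ha, ha2⟩ ⟨hb, hb2⟩
        refine ⟨R.mul_mem ha hb, ?_⟩
        calc a * b * (a * b) = a * (b * a) * b := by simp only [mul_assoc]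
          _ = a * (a * b) * b := by rw [hab b hb a ha]
          _ = (a * a) * (b * b) := by simp only [mul_assoc]
          _ = 1 := by rw [ha2, hb2, one_mul]
      one_mem' := ⟨R.one_mem, one_mul 1⟩
      inv_mem' := by
        rintro a ⟨ha, ha2⟩
        refine ⟨R.inv_mem ha, ?_⟩
        rw [← mul_inv_rev, ha2, inv_one] }
  have hR'mem : ∀ r, r ∈ R' ↔ r ∈ R ∧ r * r = 1 := fun r => Iff.rfl
  have hR'n : R'.Normal := by
    refine ⟨fun n hn g => ?_⟩
    rw [hR'mem] at hn ⊢
    refine ⟨hR.conj_mem n hn.1 g, ?_⟩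
    calc g * n * g⁻¹ * (g * n * g⁻¹) = g * (n * n) * g⁻¹ := by group
      _ = 1 := by rw [hn.2]; group
  have hR'ab : ¬ A ≤ R' := by
    intro h
    have h1 : ⁅A, A⁆ = ⊥ := by
      rw [Subgroup.commutator_eq_bot_iff_le_centralizer]
      intro a ha
      rw [Subgroup.mem_centralizer_iff]
      intro b hb
      exact hab b (h hb).1 a (h ha).1
    rw [S.perf] at h1
    exact S.ne_bot h1
  have hxR' : (x : G) ∈ R' := ⟨x.2, hxx⟩
  have hex : ∃ x₁ ∈ R', x₁ ≠ 1 ∧ x₁ * t = t * x₁ := by
    have htx : t * (x : G) * t⁻¹ ∈ R' := hR'n.conj_mem _ hxR' t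
    by_cases hy1 : (x : G) * (t * (x : G) * t⁻¹) = 1
    · refine ⟨x, hxR', ?_, ?_⟩
      · intro h; rw [h, orderOf_one] at hx2; exact absurd hx2 (by norm_num)
      · have h1 : t * (x : G) * t⁻¹ = (x : G)⁻¹ := eq_inv_of_mul_eq_one_right hy1
        rw [Helper28.inv_inv_eq hxx] at h1
        calc (x : G) * t = t * (x : G) * t⁻¹ * t := by rw [h1]
          _ = t * (x : G) := by group
    · refine ⟨(x : G) * (t * (x : G) * t⁻¹), R'.mul_mem hxR' htx, hy1, ?_⟩
      have h1 : t * ((x : G) * (t * (x : G) * t⁻¹)) * t⁻¹ = (t * (x : G) * t⁻¹) * (x : G) := by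
        rw [hti]
        calc t * ((x : G) * (t * (x : G) * t)) * t
            = (t * (x : G) * t) * (x : G) * (t * t) := by simp only [mul_assoc]
          _ = (t * (x : G) * t) * (x : G) := by rw [htt, mul_one]
      have h2 : (t * (x : G) * t⁻¹) * (x : G) = (x : G) * (t * (x : G) * t⁻¹) :=
        hab _ htx.1 _ x.2
      calc (x : G) * (t * (x : G) * t⁻¹) * t
          = t * ((x : G) * (t * (x : G) * t⁻¹)) * t⁻¹ * t := by rw [h1, h2]
        _ = t * ((x : G) * (t * (x : G) * t⁻¹)) := by group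
  obtain ⟨x₁, hx₁R', hx₁ne, hx₁t⟩ := hex
  have hx₁2 : orderOf x₁ = 2 := Helper28.inv_iff.2 ⟨hx₁ne, hx₁R'.2⟩
  have hx₁K : x₁ ∈ Subgroup.centralizer (A : Set G) :=
    S.norm_cent hR'n hR'ab hx₁R' (S.cent_t hx₁t)
  have hR'N : ∀ g ∈ R', g ∈ Subgroup.normalizer (A : Set G) := by
    intro g hg
    apply S.ti g x₁ hx₁K hx₁2
    have h : g⁻¹ * x₁ * g = x₁ := by
      have h1 := hab g hg.1 x₁ hx₁R'.1
      calc g⁻¹ * x₁ * g = g⁻¹ * (x₁ * g) := by group
        _ = g⁻¹ * (g * x₁) := by rw [h1]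
        _ = x₁ := by group
    rw [h]; exact hx₁K
  have hR'K : R' ≤ Subgroup.centralizer (A : Set G) :=
    fun g hg => S.norm_cent hR'n hR'ab hg (hR'N g hg)
  have h5 := S.triv R' hR'n hR'K
  rw [h5] at hx₁R'
  exact hx₁ne (Subgroup.mem_bot.1 hx₁R')

theorem fitting_bot (S : Setup A t) : fittingSubgroup G = ⊥ := by
  by_contra hF
  have hFn : (fittingSubgroup G).Normal := Helper30.fitting_normal
  have hnil : Group.IsNilpotent ↥(fittingSubgroup G) := Helper30.fitting_nilpotent
  have hnt : Nontrivial ↥(fittingSubgroup G) := (Subgroup.nontrivial_iff_ne_bot _).2 hF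
  have hc := center_ne_bot_of_nilpotent (H := ↥(fittingSubgroup G))
  have hZn : ((Subgroup.center ↥(fittingSubgroup G)).map (fittingSubgroup G).subtype).Normal :=
    ConjAct.normal_of_characteristic_of_normal
  have hZ := S.no_abelian hZn (by
    rintro _ ⟨x, hx, rfl⟩ _ ⟨y, hy, rfl⟩
    have h1 := Subgroup.mem_center_iff.1 hx y
    exact (congrArg Subtype.val h1).symm)
  apply hc
  rw [eq_bot_iff]
  intro z hz
  have h1 : (z : G) ∈ (Subgroup.center ↥(fittingSubgroup G)).map (fittingSubgroup G).subtype :=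
    ⟨z, hz, rfl⟩
  rw [hZ, Subgroup.mem_bot] at h1
  exact Subgroup.mem_bot.2 (Subtype.ext h1)

theorem cent_layer (S : Setup A t) : Subgroup.centralizer (layer G : Set G) = ⊥ := by
  have hEn : (layer G).Normal := Helper30.layer_normal
  have h1 : generalizedFittingSubgroup G = layer G := by
    unfold generalizedFittingSubgroup
    rw [S.fitting_bot, sup_bot_eq]
  have h2 := Helper30.centralizer_genFitting_le (G := G)
  rw [h1] at h2
  have hCn : (Subgroup.centralizer (layer G : Set G)).Normal := Subgroup.normal_centralizer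
  apply S.no_abelian hCn
  intro x hx y hy
  exact (Subgroup.mem_centralizer_iff.1 hx y (h2 hy)).symm

theorem eq_one_of_comm_comps (S : Setup A t) {k : G}
    (h : ∀ L : Subgroup G, IsComponent L → ∀ y ∈ L, k * y = y * k) : k = 1 := by
  have h1 : k ∈ Subgroup.centralizer (layer G : Set G) := by
    have h2 : layer G ≤ Subgroup.centralizer ({k} : Set G) := by
      apply sSup_le
      intro L hL y hy
      rw [Subgroup.mem_centralizer_iff]
      intro z hz
      rw [Set.mem_singleton_iff] at hz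
      rw [hz]
      exact h L hL y hy
    rw [Subgroup.mem_centralizer_iff]
    intro y hy
    have h3 := Subgroup.mem_centralizer_iff.1 (h2 hy) k rfl
    exact h3.symm
  rw [S.cent_layer] at h1
  exact Subgroup.mem_bot.1 h1

theorem comp_center (S : Setup A t) {L : Subgroup G} (hL : IsComponent L) {z : G} (hz : z ∈ L)
    (hzc : ∀ y ∈ L, z * y = y * z) : z = 1 := by
  apply S.eq_one_of_comm_comps
  intro L' hL' y hy
  by_cases h : L' = L
  · subst h; exact hzc y hy
  · exact comp_comm hL hL' (Ne.symm h) z hz y hy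

theorem comp_inf (S : Setup A t) {L L' : Subgroup G} (hL : IsComponent L) (hL' : IsComponent L')
    (hne : L ≠ L') : L ⊓ L' = ⊥ := by
  rw [eq_bot_iff]
  intro z hz
  rw [Subgroup.mem_bot]
  exact S.comp_center hL hz.1 (fun y hy => (comp_comm hL hL' hne y hy z hz.2).symm)

theorem comp_simple (S : Setup A t) {L : Subgroup G} (hL : IsComponent L) : IsSimpleGroup ↥L := by
  have hc : Subgroup.center ↥L = ⊥ := by
    rw [eq_bot_iff]
    intro z hz
    rw [Subgroup.mem_bot]
    apply Subtype.ext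
    apply S.comp_center hL z.2
    intro y hy
    have h1 := Subgroup.mem_center_iff.1 hz ⟨y, hy⟩
    exact (congrArg Subtype.val h1).symm
  have hs : IsSimpleGroup (↥L ⧸ Subgroup.center ↥L) := hL.2.2
  exact ((QuotientGroup.quotientMulEquivOfEq hc).trans QuotientGroup.quotientBot).symm.isSimpleGroup

theorem comp_invol (S : Setup A t) {L : Subgroup G} (hL : IsComponent L) :
    ∃ x ∈ L, orderOf x = 2 := by
  have : Fact (Nat.Prime 2) := ⟨Nat.prime_two⟩
  have h2 : 2 ∣ Nat.card ↥L := by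
    by_contra h
    have hc : (Nat.card ↥L).Coprime 2 :=
      ((Nat.Prime.coprime_iff_not_dvd Nat.prime_two).2 h).symm
    have h3 := subnormal_coprime_le_pPrimeCore hL.1 hc
    rw [S.hO] at h3
    exact Helper30.comp_ne_bot hL (le_bot_iff.1 h3)
  obtain ⟨x, hx⟩ := exists_prime_orderOf_dvd_card' (G := L) 2 h2
  exact ⟨x, x.2, by rw [← hx]; exact Subgroup.orderOf_coe x⟩

theorem exists_comp (S : Setup A t) :
    ∃ L : Subgroup G, IsComponent L ∧ ¬ L ≤ Subgroup.centralizer (A : Set G) := by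
  by_contra h
  push Not at h
  have h1 : layer G ≤ Subgroup.centralizer (A : Set G) := sSup_le (fun L hL => h L hL)
  have h2 := S.triv (layer G) Helper30.layer_normal h1
  have h3 := S.cent_layer
  rw [h2] at h3
  have h4 : t ∈ Subgroup.centralizer ((⊥ : Subgroup G) : Set G) := by
    rw [Subgroup.mem_centralizer_iff]
    intro x hx
    rw [SetLike.mem_coe, Subgroup.mem_bot] at hx
    rw [hx, one_mul, mul_one]
  rw [h3, Subgroup.mem_bot] at h4
  have h5 := S.ht
  rw [h4, orderOf_one] at h5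
  exact absurd h5 (by norm_num)

/-- `A` is a component of `C_G(t)`: dichotomy against subnormal subgroups of `G`. -/
theorem dich (S : Setup A t) {H : Subgroup G} (hH : H.IsSubnormal) :
    A ≤ H ∨ ∀ a ∈ A, ∀ x ∈ H, x * t = t * x → a * x = x * a := by
  obtain ⟨C, hC⟩ : ∃ C : Subgroup G, C = Subgroup.centralizer ({t} : Set G) := ⟨_, rfl⟩
  have hCmem : ∀ g, g ∈ C ↔ g * t = t * g := by
    intro g
    rw [hC, Subgroup.mem_centralizer_iff]
    constructor
    · intro h; exact (h t rfl).symm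
    · intro h x hx
      rw [Set.mem_singleton_iff] at hx
      rw [hx]; exact h.symm
  have hAC : A ≤ C := by
    intro a ha
    rw [hCmem]
    exact Subgroup.mem_centralizer_iff.1 S.htA a ha
  have hcomp : IsComponent (A.subgroupOf C) := by
    refine ⟨Subgroup.Normal.isSubnormal ⟨fun n hn g => ?_⟩,
      Helper30.isQuasisimple_of_mulEquiv (Subgroup.subgroupOfEquivOfLe hAC).symm S.qs⟩
    rw [Subgroup.mem_subgroupOf] at hn ⊢
    have hg : (g : G) ∈ Subgroup.normalizer (A : Set G) := S.cent_t ((hCmem g).1 g.2)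
    exact (Subgroup.mem_normalizer_iff.1 hg _).1 hn
  rcases Helper30.component_le_or_commutator_eq_bot hcomp (hH.subgroupOf (K := C)) with h | h
  · left; exact Helper30.le_of_subgroupOf_le hAC h
  · right
    intro a ha x hx hxt
    rw [Subgroup.commutator_eq_bot_iff_le_centralizer] at h
    have hxC : x ∈ C := (hCmem x).2 hxt
    have h1 : (⟨a, hAC ha⟩ : ↥C) ∈ A.subgroupOf C := Subgroup.mem_subgroupOf.2 ha
    have h2 := Subgroup.mem_centralizer_iff.1 (h h1) ⟨x, hxC⟩ (Subgroup.mem_subgroupOf.2 hx)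
    exact (congrArg Subtype.val h2).symm

/-- The case of a `t`-invariant component not centralized by `A`: then `A ≤ L`. -/
theorem case_fix (S : Setup A t) {L : Subgroup G} (hL : IsComponent L)
    (hLK : ¬ L ≤ Subgroup.centralizer (A : Set G)) (hLt : cjg t L = L) : A ≤ L := by
  by_contra hAL
  have hdich := (S.dich hL.1).resolve_left hAL
  have hLsimple := S.comp_simple hL
  obtain ⟨x₀, hx₀L, hx₀2⟩ := S.comp_invol hL
  have hLtn : ∀ y ∈ L, t * y * t⁻¹ ∈ L := by
    intro y hy
    have h1 := conj_mem_cjg (g := t) hy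
    rwa [hLt] at h1
  obtain ⟨u, huL, hu2, hut⟩ := exists_invol_comm S.ht hLtn hx₀L hx₀2
  have huK : u ∈ Subgroup.centralizer (A : Set G) := by
    rw [Subgroup.mem_centralizer_iff]
    intro a ha
    exact hdich a ha u huL hut
  have hAL' : ∀ a ∈ A, cjg a L = L := by
    intro a ha
    by_contra hne
    have hinf := S.comp_inf (isComponent_cjg a hL) hL hne
    have h1 : u ∈ cjg a L := by
      rw [mem_cjg]
      have h2 : a⁻¹ * u * a = u := by
        have h3 := hdich a ha u huL hut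
        calc a⁻¹ * u * a = a⁻¹ * (u * a) := by group
          _ = a⁻¹ * (a * u) := by rw [h3]
          _ = u := by group
      rw [h2]; exact huL
    have h4 : u ∈ cjg a L ⊓ L := ⟨h1, huL⟩
    rw [hinf, Subgroup.mem_bot] at h4
    rw [h4, orderOf_one] at hu2
    exact absurd hu2 (by norm_num)
  have hALn : ∀ a ∈ A, ∀ y ∈ L, a * y * a⁻¹ ∈ L := by
    intro a ha y hy
    have h1 := conj_mem_cjg (g := a) hy
    rwa [hAL' a ha] at h1
  obtain ⟨N, hN⟩ : ∃ N : Subgroup G, N = Subgroup.normalizer (A : Set G) := ⟨_, rfl⟩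
  obtain ⟨K, hK⟩ : ∃ K : Subgroup G, K = Subgroup.centralizer (A : Set G) := ⟨_, rfl⟩
  have hZ := qs_inf_central S.qs (B := L) hALn hAL
  have hNLK : ∀ m ∈ L, m ∈ N → m ∈ K := by
    intro m hmL hmN
    have key := perfect_centralizes S.perf (M := L ⊓ N) (Z := A ⊓ L)
      (by
        intro m hm a ha
        refine ⟨?_, ?_⟩
        · have h1 : m * a * m⁻¹ ∈ A := by
            have hm2 := hm.2
            rw [hN] at hm2
            exact (Subgroup.mem_normalizer_iff.1 hm2 a).1 ha
          rw [commutatorElement_def]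
          exact A.mul_mem h1 (A.inv_mem ha)
        · have h1 : a * m⁻¹ * a⁻¹ ∈ L := hALn a ha _ (L.inv_mem hm.1)
          rw [commutatorElement_def]
          have h2 : m * a * m⁻¹ * a⁻¹ = m * (a * m⁻¹ * a⁻¹) := by group
          rw [h2]
          exact L.mul_mem hm.1 h1)
      hZ
    rw [hK, Subgroup.mem_centralizer_iff]
    intro a ha
    exact (key m ⟨hmL, hmN⟩ a ha).symm
  obtain ⟨M, hM⟩ : ∃ M : Subgroup ↥L, M = N.subgroupOf L := ⟨_, rfl⟩
  have hMN : ∀ m : ↥L, m ∈ M ↔ (m : G) ∈ N := by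
    intro m; rw [hM, Subgroup.mem_subgroupOf]
  have hMK : ∀ m : ↥L, m ∈ M → (m : G) ∈ K :=
    fun m hm => hNLK m.1 m.2 ((hMN m).1 hm)
  have huM : (⟨u, huL⟩ : ↥L) ∈ M := (hMN _).2 (by rw [hN]; exact S.cent_t hut)
  have hu2' : orderOf (⟨u, huL⟩ : ↥L) = 2 := by
    rw [← Subgroup.orderOf_coe]; exact hu2
  have hSE : IsStronglyEmbedded M := by
    refine ⟨?_, ?_, ?_⟩
    · intro h
      apply hLK
      intro x hx
      have h1 : (⟨x, hx⟩ : ↥L) ∈ M := by rw [h]; exact Subgroup.mem_top _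
      have h2 := hMK _ h1
      rw [hK] at h2
      exact h2
    · rw [even_iff_two_dvd, ← hu2']
      exact Subgroup.orderOf_dvd_natCard M huM
    · intro g hg
      have hgN : (g : G) ∉ Subgroup.normalizer (A : Set G) := by
        intro h
        apply hg
        rw [hMN, hN]; exact h
      have hodd := S.odd (g : G) hgN
      have hle : (M ⊓ M.map (MulAut.conj g).toMonoidHom).map L.subtype ≤
          Subgroup.centralizer (A : Set G) ⊓ cjg (g : G) (Subgroup.centralizer (A : Set G)) := by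
        rintro _ ⟨m, hm, rfl⟩
        have h1 := (Helper28.mem_conj_iff M g m).1 hm.2
        have h2 := hMK m hm.1
        have h3 := hMK _ h1
        rw [hK] at h2 h3
        exact ⟨h2, mem_cjg.2 h3⟩
      have hdvd := Subgroup.card_dvd_of_le hle
      rw [Subgroup.card_map_of_injective (Subgroup.subtype_injective _)] at hdvd
      exact hodd.of_dvd_nat hdvd
  by_cases hV : ∃ u v : ↥L, u ∈ M ∧ v ∈ M ∧ orderOf u = 2 ∧ orderOf v = 2 ∧ u ≠ v ∧ u * v = v * u
  · obtain ⟨g, hgM, hg⟩ := se_two_point' hSE hV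
    have hgN : (g : G) ∉ Subgroup.normalizer (A : Set G) := by
      intro h
      apply hgM
      rw [hMN, hN]; exact h
    have hMc : ∀ m : ↥L, m ∈ M → ∀ a ∈ A, a * (m : G) = (m : G) * a := by
      intro m hm a ha
      have h1 := hMK m hm
      rw [hK] at h1
      exact Subgroup.mem_centralizer_iff.1 h1 a ha
    have hAN : ∀ a ∈ A, a ∈ N := by
      intro a ha; rw [hN]; exact Subgroup.le_normalizer ha
    -- `g⁻¹ a g` normalizes `A`
    have h1 : ∀ a ∈ A, (g : G)⁻¹ * a * (g : G) ∈ N := by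
      intro a ha
      have hh : a * (g : G) * a⁻¹ ∈ L := hALn a ha g g.2
      have key := hg ⟨a * (g : G) * a⁻¹, hh⟩ (by
        intro d hd hgd
        have e1 : (⟨a * (g : G) * a⁻¹, hh⟩ : ↥L)⁻¹ * d * ⟨a * (g : G) * a⁻¹, hh⟩ = g⁻¹ * d * g := by
          apply Subtype.ext
          show (a * (g : G) * a⁻¹)⁻¹ * (d : G) * (a * (g : G) * a⁻¹) = (g : G)⁻¹ * (d : G) * (g : G)
          have c1 := hMc d hd a ha
          have c2 : a * ((g : G)⁻¹ * (d : G) * (g : G)) = ((g : G)⁻¹ * (d : G) * (g : G)) * a :=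
            hMc _ hgd a ha
          have c3 : a⁻¹ * (d : G) * a = (d : G) := by
            calc a⁻¹ * (d : G) * a = a⁻¹ * ((d : G) * a) := by group
              _ = a⁻¹ * (a * (d : G)) := by rw [c1]
              _ = (d : G) := by group
          calc (a * (g : G) * a⁻¹)⁻¹ * (d : G) * (a * (g : G) * a⁻¹)
              = a * (g : G)⁻¹ * (a⁻¹ * (d : G) * a) * (g : G) * a⁻¹ := by group
            _ = a * (g : G)⁻¹ * (d : G) * (g : G) * a⁻¹ := by rw [c3]
            _ = (a * ((g : G)⁻¹ * (d : G) * (g : G))) * a⁻¹ := by group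
            _ = (g : G)⁻¹ * (d : G) * (g : G) := by rw [c2]; group
        rw [e1]; exact hgd)
      rcases key with k1 | k1
      · exfalso
        apply hgM
        have c : a * (a * (g : G) * a⁻¹) = (a * (g : G) * a⁻¹) * a := hMc _ k1 a ha
        have e : (⟨a * (g : G) * a⁻¹, hh⟩ : ↥L) = g := by
          apply Subtype.ext
          show a * (g : G) * a⁻¹ = (g : G)
          calc a * (g : G) * a⁻¹ = a⁻¹ * (a * (a * (g : G) * a⁻¹)) := by group
            _ = a⁻¹ * ((a * (g : G) * a⁻¹) * a) := by rw [c]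
            _ = (g : G) := by group
        rw [e] at k1; exact k1
      · have k2 : (g : G)⁻¹ * (a * (g : G) * a⁻¹) ∈ N := (hMN _).1 k1
        have e : (g : G)⁻¹ * a * (g : G) = ((g : G)⁻¹ * (a * (g : G) * a⁻¹)) * a := by group
        rw [e]
        exact N.mul_mem k2 (hAN a ha)
    -- `g a g⁻¹` normalizes `A`
    have h2 : ∀ a ∈ A, (g : G) * a * (g : G)⁻¹ ∈ N := by
      intro a ha
      have hh0 : a * (g : G)⁻¹ * a⁻¹ ∈ L := hALn a ha _ (L.inv_mem g.2)
      have hh : (g : G) * (a * (g : G)⁻¹ * a⁻¹) ∈ L := L.mul_mem g.2 hh0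
      have key := hg ⟨(g : G) * (a * (g : G)⁻¹ * a⁻¹), hh⟩ (by
        intro d hd hgd
        have e1 : (⟨(g : G) * (a * (g : G)⁻¹ * a⁻¹), hh⟩ : ↥L)⁻¹ * d *
            ⟨(g : G) * (a * (g : G)⁻¹ * a⁻¹), hh⟩ = d := by
          apply Subtype.ext
          show ((g : G) * (a * (g : G)⁻¹ * a⁻¹))⁻¹ * (d : G) * ((g : G) * (a * (g : G)⁻¹ * a⁻¹))
            = (d : G)
          have c1 := hMc d hd a ha
          have c2 : a * ((g : G)⁻¹ * (d : G) * (g : G)) = ((g : G)⁻¹ * (d : G) * (g : G)) * a :=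
            hMc _ hgd a ha
          have c3 : a⁻¹ * ((g : G)⁻¹ * (d : G) * (g : G)) * a = (g : G)⁻¹ * (d : G) * (g : G) := by
            calc a⁻¹ * ((g : G)⁻¹ * (d : G) * (g : G)) * a
                = a⁻¹ * (((g : G)⁻¹ * (d : G) * (g : G)) * a) := by group
              _ = a⁻¹ * (a * ((g : G)⁻¹ * (d : G) * (g : G))) := by rw [c2]
              _ = (g : G)⁻¹ * (d : G) * (g : G) := by group
          calc ((g : G) * (a * (g : G)⁻¹ * a⁻¹))⁻¹ * (d : G) * ((g : G) * (a * (g : G)⁻¹ * a⁻¹))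
              = a * (g : G) * (a⁻¹ * ((g : G)⁻¹ * (d : G) * (g : G)) * a) * (g : G)⁻¹ * a⁻¹ := by
                group
            _ = a * (g : G) * ((g : G)⁻¹ * (d : G) * (g : G)) * (g : G)⁻¹ * a⁻¹ := by rw [c3]
            _ = (a * (d : G)) * a⁻¹ := by group
            _ = (d : G) := by rw [c1]; group
        rw [e1]; exact hd)
      rcases key with k1 | k1
      · have k2 : (g : G) * (a * (g : G)⁻¹ * a⁻¹) ∈ N := (hMN _).1 k1
        have e : (g : G) * a * (g : G)⁻¹ = ((g : G) * (a * (g : G)⁻¹ * a⁻¹)) * a := by group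
        rw [e]
        exact N.mul_mem k2 (hAN a ha)
      · exfalso
        apply hgM
        have e0 : g⁻¹ * (⟨(g : G) * (a * (g : G)⁻¹ * a⁻¹), hh⟩ : ↥L) = ⟨a * (g : G)⁻¹ * a⁻¹, hh0⟩ := by
          apply Subtype.ext
          show (g : G)⁻¹ * ((g : G) * (a * (g : G)⁻¹ * a⁻¹)) = a * (g : G)⁻¹ * a⁻¹
          group
        rw [e0] at k1
        have c : a * (a * (g : G)⁻¹ * a⁻¹) = (a * (g : G)⁻¹ * a⁻¹) * a := hMc _ k1 a ha
        have e : (⟨a * (g : G)⁻¹ * a⁻¹, hh0⟩ : ↥L) = g⁻¹ := by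
          apply Subtype.ext
          show a * (g : G)⁻¹ * a⁻¹ = (g : G)⁻¹
          calc a * (g : G)⁻¹ * a⁻¹ = a⁻¹ * (a * (a * (g : G)⁻¹ * a⁻¹)) := by group
            _ = a⁻¹ * ((a * (g : G)⁻¹ * a⁻¹) * a) := by rw [c]
            _ = (g : G)⁻¹ := by group
        rw [e] at k1
        simpa using M.inv_mem k1
    obtain ⟨A', hA'⟩ : ∃ A' : Subgroup G, A' = cjg (g : G) A := ⟨_, rfl⟩
    have hA'ne : A' ≠ A := by
      rw [hA']
      exact fun h => hgN (cjg_eq_self_iff.1 h)
    have hA'N : ∀ b ∈ A', b ∈ Subgroup.normalizer (A : Set G) := by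
      intro b hb
      rw [hA', mem_cjg] at hb
      have h3 := h2 _ hb
      have e : (g : G) * ((g : G)⁻¹ * b * (g : G)) * (g : G)⁻¹ = b := by group
      rw [e, hN] at h3
      exact h3
    have hAN' : ∀ a ∈ A, ∀ b ∈ A', a * b * a⁻¹ ∈ A' := by
      intro a ha b hb
      rw [hA', mem_cjg] at hb ⊢
      have hn := h1 a ha
      rw [hN] at hn
      have h3 := (Subgroup.mem_normalizer_iff.1 hn _).1 hb
      have e : (g : G)⁻¹ * (a * b * a⁻¹) * (g : G) =
          ((g : G)⁻¹ * a * (g : G)) * ((g : G)⁻¹ * b * (g : G)) * ((g : G)⁻¹ * a * (g : G))⁻¹ := by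
        group
      rw [e]; exact h3
    have hcomm := S.comm (g : G) (by rw [← hA']; exact hA'ne)
    apply hcomm
    rw [← hA']
    have hne' : ¬ A ≤ A' := by
      intro h
      apply hA'ne
      have hc : Nat.card ↥A' ≤ Nat.card ↥A := by rw [hA', card_cjg]
      exact (Subgroup.eq_of_le_of_card_ge h hc).symm
    have hZ' := qs_inf_central S.qs (B := A') hAN' hne'
    have key := perfect_centralizes S.perf (M := A') (Z := A ⊓ A')
      (by
        intro m hm a ha
        refine ⟨?_, ?_⟩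
        · have h1' : m * a * m⁻¹ ∈ A := (Subgroup.mem_normalizer_iff.1 (hA'N m hm) a).1 ha
          rw [commutatorElement_def]
          exact A.mul_mem h1' (A.inv_mem ha)
        · have h1' : a * m⁻¹ * a⁻¹ ∈ A' := hAN' a ha _ (A'.inv_mem hm)
          rw [commutatorElement_def]
          have h2' : m * a * m⁻¹ * a⁻¹ = m * (a * m⁻¹ * a⁻¹) := by group
          rw [h2']
          exact A'.mul_mem hm h1')
      hZ'
    rw [Subgroup.commutator_eq_bot_iff_le_centralizer]
    intro a ha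
    rw [Subgroup.mem_centralizer_iff]
    intro b hb
    exact key b hb a ha
  · -- no four-group: `Z*`
    have hiso : IsIsolatedInvolution (⟨u, huL⟩ : ↥L) := by
      refine ⟨hu2', ?_⟩
      intro g hcg
      by_contra hne
      apply hV
      exact ⟨⟨u, huL⟩, g * ⟨u, huL⟩ * g⁻¹, huM,
        Helper28.se_mem_of_commute hSE hu2' huM hcg.eq.symm, hu2', Helper28.inv_conj hu2' g,
        fun h => hne h.symm, hcg.eq⟩
    obtain ⟨N₀, hN₀n, hN₀odd, hN₀⟩ := Cfsg.Agent.S0215.zstar_isolated _ hiso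
    rcases hLsimple.eq_bot_or_eq_top_of_normal N₀ hN₀n with h | h
    · have hz : ∀ y ∈ L, u * y = y * u := by
        intro y hy
        have h1 := hN₀ ⟨y, hy⟩
        rw [h, Subgroup.mem_bot] at h1
        have h2 : u * y * u⁻¹ * y⁻¹ = 1 := congrArg Subtype.val h1
        calc u * y = (u * y * u⁻¹ * y⁻¹) * y * u := by group
          _ = y * u := by rw [h2, one_mul]
      have h3 := S.comp_center hL huL hz
      rw [h3, orderOf_one] at hu2
      exact absurd hu2 (by norm_num)
    · rw [h] at hN₀odd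
      have h2 : 2 ∣ Nat.card ↥(⊤ : Subgroup ↥L) := by
        rw [← hu2']
        exact Subgroup.orderOf_dvd_natCard _ (Subgroup.mem_top _)
      exact (Nat.not_even_iff_odd.2 hN₀odd) (even_iff_two_dvd.2 h2)

/-- The case of a component moved by `t` and not centralized by `A`: then `A ≤ L · Lᵗ`. -/
theorem case_swap (S : Setup A t) {L : Subgroup G} (hL : IsComponent L)
    (hLK : ¬ L ≤ Subgroup.centralizer (A : Set G)) (hLt : cjg t L ≠ L) : A ≤ L ⊔ cjg t L := by
  by_contra hAL
  obtain ⟨L', hL'⟩ : ∃ L' : Subgroup G, L' = cjg t L := ⟨_, rfl⟩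
  rw [← hL'] at hAL hLt
  have hL'c : IsComponent L' := by rw [hL']; exact isComponent_cjg t hL
  have hcomm := comp_comm hL hL'c (Ne.symm hLt)
  have hinf := S.comp_inf hL hL'c (Ne.symm hLt)
  have htt : t * t = 1 := (Helper28.inv_iff.1 S.ht).2
  have hti : t⁻¹ = t := Helper28.inv_inv_eq htt
  have hdich := (S.dich (sup_comp_subnormal hL hL'c)).resolve_left hAL
  have hφL' : ∀ x ∈ L, t * x * t⁻¹ ∈ L' := by
    intro x hx; rw [hL']; exact conj_mem_cjg hx
  have htL' : cjg t L' = L := by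
    rw [hL', cjg_cjg, htt, cjg_one]
  -- `A` centralizes `x * xᵗ`
  have hφc : ∀ a ∈ A, ∀ x ∈ L, a * (x * (t * x * t⁻¹)) = (x * (t * x * t⁻¹)) * a := by
    intro a ha x hx
    apply hdich a ha _ (Subgroup.mul_mem_sup hx (hφL' x hx))
    have h1 : t * (x * (t * x * t⁻¹)) * t⁻¹ = (t * x * t⁻¹) * x := by
      rw [hti]
      calc t * (x * (t * x * t)) * t = (t * x * t) * x * (t * t) := by simp only [mul_assoc]
        _ = (t * x * t) * x := by rw [htt, mul_one]
    have h2 : (t * x * t⁻¹) * x = x * (t * x * t⁻¹) := (hcomm x hx _ (hφL' x hx)).symm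
    calc x * (t * x * t⁻¹) * t = t * (x * (t * x * t⁻¹)) * t⁻¹ * t := by rw [h1, h2]
      _ = t * (x * (t * x * t⁻¹)) := by group
  have hat : ∀ a ∈ A, a * t = t * a := fun a ha => Subgroup.mem_centralizer_iff.1 S.htA a ha
  -- conjugation by `a ∈ A` commutes with conjugation by `t`
  have hcjat : ∀ a ∈ A, ∀ H : Subgroup G, cjg a (cjg t H) = cjg t (cjg a H) := by
    intro a ha H
    rw [cjg_cjg, cjg_cjg, hat a ha]
  -- every `a ∈ A` maps `L` to `L` or `L'`
  have hLa : ∀ a ∈ A, cjg a L = L ∨ cjg a L = L' := by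
    intro a ha
    by_contra hcon
    push Not at hcon
    obtain ⟨hne1, hne2⟩ := hcon
    have hLac : IsComponent (cjg a L) := isComponent_cjg a hL
    have hLac' : IsComponent (cjg a L') := isComponent_cjg a hL'c
    have hne3 : cjg a L' ≠ L := by
      intro h
      apply hne2
      have h1 : cjg t (cjg a L) = L := by rw [← hcjat a ha, ← hL', h]
      have h2 : cjg t (cjg t (cjg a L)) = cjg a L := by rw [cjg_cjg, htt, cjg_one]
      rw [← h2, h1, hL']
    apply comp_not_comm hL
    refine ⟨⟨fun x z => Subtype.ext ?_⟩⟩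
    show (x : G) * (z : G) = (z : G) * (x : G)
    have hp : a * (x : G) * a⁻¹ ∈ cjg a L := conj_mem_cjg x.2
    have hq : a * (t * (x : G) * t⁻¹) * a⁻¹ ∈ cjg a L' := conj_mem_cjg (hφL' x x.2)
    have c1 := comp_comm hLac hL hne1 _ hp z z.2
    have c2 := comp_comm hLac' hL hne3 _ hq z z.2
    have c3 := hcomm z z.2 _ (hφL' x x.2)
    have e1 : (x : G) * (t * (x : G) * t⁻¹) =
        (a * (x : G) * a⁻¹) * (a * (t * (x : G) * t⁻¹) * a⁻¹) := by
      have h1 := hφc a ha x x.2
      calc (x : G) * (t * (x : G) * t⁻¹)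
          = ((x : G) * (t * (x : G) * t⁻¹)) * a * a⁻¹ := by group
        _ = a * ((x : G) * (t * (x : G) * t⁻¹)) * a⁻¹ := by rw [h1]
        _ = (a * (x : G) * a⁻¹) * (a * (t * (x : G) * t⁻¹) * a⁻¹) := by group
    have e2 : ((x : G) * (t * (x : G) * t⁻¹)) * (z : G) = (z : G) * ((x : G) * (t * (x : G) * t⁻¹)) := by
      rw [e1, mul_assoc, c2, ← mul_assoc, c1, mul_assoc]
    have e3 : (x : G) * (z : G) * (t * (x : G) * t⁻¹) = (z : G) * (x : G) * (t * (x : G) * t⁻¹) := by
      calc (x : G) * (z : G) * (t * (x : G) * t⁻¹) = (x : G) * ((z : G) * (t * (x : G) * t⁻¹)) := by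
            simp only [mul_assoc]
        _ = (x : G) * ((t * (x : G) * t⁻¹) * (z : G)) := by rw [c3]
        _ = ((x : G) * (t * (x : G) * t⁻¹)) * (z : G) := by simp only [mul_assoc]
        _ = (z : G) * ((x : G) * (t * (x : G) * t⁻¹)) := e2
        _ = (z : G) * (x : G) * (t * (x : G) * t⁻¹) := by simp only [mul_assoc]
    exact mul_right_cancel e3
  -- types of elements of `A`
  have htype : ∀ a ∈ A, (cjg a L = L ∧ cjg a L' = L') ∨ (cjg a L = L' ∧ cjg a L' = L) := by
    intro a ha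
    rcases hLa a ha with h | h
    · left
      refine ⟨h, ?_⟩
      rw [hL', hcjat a ha, h]
    · right
      refine ⟨h, ?_⟩
      rw [hL', hcjat a ha, h, htL']
  have htypeinv : ∀ a ∈ A, ((cjg a L = L ∧ cjg a L' = L') → (cjg a⁻¹ L = L ∧ cjg a⁻¹ L' = L')) ∧
      ((cjg a L = L' ∧ cjg a L' = L) → (cjg a⁻¹ L = L' ∧ cjg a⁻¹ L' = L)) := by
    intro a ha
    refine ⟨fun h => ⟨?_, ?_⟩, fun h => ⟨?_, ?_⟩⟩
    · have h1 := cjg_inv_cjg a L
      rw [h.1] at h1; exact h1
    · have h1 := cjg_inv_cjg a L'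
      rw [h.2] at h1; exact h1
    · have h1 := cjg_inv_cjg a L'
      rw [h.2] at h1; exact h1
    · have h1 := cjg_inv_cjg a L
      rw [h.1] at h1; exact h1
  -- `A` normalizes `L`
  have hAL' : ∀ a ∈ A, cjg a L = L := by
    have hle : ⁅A, A⁆ ≤ Subgroup.normalizer (L : Set G) := by
      rw [Subgroup.commutator_le]
      intro a ha b hb
      rw [← cjg_eq_self_iff, commutatorElement_def, ← cjg_cjg, ← cjg_cjg, ← cjg_cjg]
      rcases htype a ha with h1 | h1 <;> rcases htype b hb with h2 | h2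
      · have i1 := (htypeinv a ha).1 h1
        have i2 := (htypeinv b hb).1 h2
        rw [i2.1, i1.1, h2.1, h1.1]
      · have i1 := (htypeinv a ha).1 h1
        have i2 := (htypeinv b hb).2 h2
        rw [i2.1, i1.2, h2.2, h1.1]
      · have i1 := (htypeinv a ha).2 h1
        have i2 := (htypeinv b hb).1 h2
        rw [i2.1, i1.1, h2.2, h1.2]
      · have i1 := (htypeinv a ha).2 h1
        have i2 := (htypeinv b hb).2 h2
        rw [i2.1, i1.2, h2.1, h1.2]
    rw [S.perf] at hle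
    intro a ha
    exact cjg_eq_self_iff.2 (hle ha)
  -- hence `A` centralizes `L`
  apply hLK
  intro x hx
  rw [Subgroup.mem_centralizer_iff]
  intro a ha
  have hxa : a * x * a⁻¹ ∈ L := by
    have h1 := conj_mem_cjg (g := a) hx
    rwa [hAL' a ha] at h1
  have e1 : x * (t * x * t⁻¹) = (a * x * a⁻¹) * (t * (a * x * a⁻¹) * t⁻¹) := by
    have h1 := hφc a ha x hx
    have h2 : a * t = t * a := hat a ha
    have h3 : a * (t * x * t⁻¹) * a⁻¹ = t * (a * x * a⁻¹) * t⁻¹ := by
      have h4 : a * t⁻¹ = t⁻¹ * a := by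
        rw [hti]; exact h2
      calc a * (t * x * t⁻¹) * a⁻¹ = (a * t) * x * (t⁻¹ * a⁻¹) := by group
        _ = (t * a) * x * (t⁻¹ * a⁻¹) := by rw [h2]
        _ = t * (a * x) * ((a * t)⁻¹) := by group
        _ = t * (a * x) * ((t * a)⁻¹) := by rw [h2]
        _ = t * (a * x * a⁻¹) * t⁻¹ := by group
    calc x * (t * x * t⁻¹) = (x * (t * x * t⁻¹)) * a * a⁻¹ := by group
      _ = a * (x * (t * x * t⁻¹)) * a⁻¹ := by rw [h1]
      _ = (a * x * a⁻¹) * (a * (t * x * t⁻¹) * a⁻¹) := by group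
      _ = (a * x * a⁻¹) * (t * (a * x * a⁻¹) * t⁻¹) := by rw [h3]
  obtain ⟨e2, -⟩ := prod_unique hinf hx hxa (hφL' x hx) (hφL' _ hxa) e1
  calc a * x = (a * x * a⁻¹) * a := by group
    _ = x * a := by rw [← e2]

/-- Conclusion (iii). -/
theorem concl_iii (S : Setup A t) {L : Subgroup G} (hL : IsComponent L)
    (hLK : ¬ L ≤ Subgroup.centralizer (A : Set G)) (hLt : cjg t L = L) :
    A ≤ layer G ∧ IsSimpleGroup ↥(layer G) ∧ ¬ IsMulCommutative ↥(layer G) := by
  have hAL := S.case_fix hL hLK hLt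
  have hlayer : layer G = L := by
    apply le_antisymm
    · apply sSup_le
      intro L'' hL''
      by_contra hne
      have hne' : L'' ≠ L := fun h => hne (h ▸ le_rfl)
      have hc := comp_comm hL'' hL hne'
      obtain ⟨x, hxL'', hx2⟩ := S.comp_invol hL''
      have hxK : x ∈ Subgroup.centralizer (A : Set G) := by
        rw [Subgroup.mem_centralizer_iff]
        intro a ha
        exact (hc x hxL'' a (hAL ha)).symm
      have hLN : ∀ g ∈ L, g ∈ Subgroup.normalizer (A : Set G) := by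
        intro g hg
        apply S.ti g x hxK hx2
        have h : g⁻¹ * x * g = x := by
          have h1 := hc x hxL'' g hg
          calc g⁻¹ * x * g = g⁻¹ * (x * g) := by group
            _ = g⁻¹ * (g * x) := by rw [h1]
            _ = x := by group
        rw [h]; exact hxK
      have hsimple := S.comp_simple hL
      have hAn : (A.subgroupOf L).Normal := by
        refine ⟨fun n hn g => ?_⟩
        rw [Subgroup.mem_subgroupOf] at hn ⊢
        exact (Subgroup.mem_normalizer_iff.1 (hLN g.1 g.2) _).1 hn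
      rcases hsimple.eq_bot_or_eq_top_of_normal _ hAn with h | h
      · apply S.ne_bot
        rw [eq_bot_iff]
        intro a ha
        have h1 : (⟨a, hAL ha⟩ : ↥L) ∈ A.subgroupOf L := Subgroup.mem_subgroupOf.2 ha
        rw [h, Subgroup.mem_bot] at h1
        exact Subgroup.mem_bot.2 (congrArg Subtype.val h1)
      · have hLA : L ≤ A := Subgroup.subgroupOf_eq_top.1 h
        have hAeq : A = L := le_antisymm hAL hLA
        apply S.nn
        rw [← Subgroup.normalizer_eq_top_iff, eq_top_iff]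
        intro g _
        rw [← cjg_eq_self_iff]
        by_contra hg
        apply S.comm g hg
        have hcA : IsComponent A := hAeq ▸ hL
        exact Helper30.components_commute hcA (isComponent_cjg g hcA) (Ne.symm hg)
    · exact Helper30.comp_le_layer hL
  have h1 : ∀ E : Subgroup G, E = L → IsSimpleGroup ↥E ∧ ¬ IsMulCommutative ↥E := by
    rintro E rfl
    exact ⟨S.comp_simple hL, comp_not_comm hL⟩
  exact ⟨hAL.trans (Helper30.comp_le_layer hL), h1 _ hlayer⟩

/-- Conclusion (ii). -/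
theorem concl_ii (S : Setup A t) {L : Subgroup G} (hL : IsComponent L)
    (hLK : ¬ L ≤ Subgroup.centralizer (A : Set G)) (hLt : cjg t L ≠ L) :
    ∃ X : Subgroup G, IsSimpleGroup ↥X ∧ ¬ IsMulCommutative ↥X ∧ Nonempty (↥X ≃* ↥A) ∧
      (∀ a ∈ X, ∀ b ∈ X.map (MulAut.conj t).toMonoidHom, a * b = b * a) ∧
      X ⊓ X.map (MulAut.conj t).toMonoidHom = ⊥ ∧
      X ⊔ X.map (MulAut.conj t).toMonoidHom = layer G ∧
      Subgroup.centralizer (A : Set G) = Subgroup.zpowers t := by
  have hAL := S.case_swap hL hLK hLt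
  obtain ⟨L', hL'⟩ : ∃ L' : Subgroup G, L' = cjg t L := ⟨_, rfl⟩
  refine ⟨L, S.comp_simple hL, comp_not_comm hL, ?_⟩
  show Nonempty (↥L ≃* ↥A) ∧ (∀ a ∈ L, ∀ b ∈ cjg t L, a * b = b * a) ∧ L ⊓ cjg t L = ⊥ ∧
    L ⊔ cjg t L = layer G ∧ Subgroup.centralizer (A : Set G) = Subgroup.zpowers t
  rw [← hL'] at hAL hLt ⊢
  have hL'c : IsComponent L' := by rw [hL']; exact isComponent_cjg t hL
  have hcomm := comp_comm hL hL'c (Ne.symm hLt)
  have hinf := S.comp_inf hL hL'c (Ne.symm hLt)
  have htt : t * t = 1 := (Helper28.inv_iff.1 S.ht).2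
  have hti : t⁻¹ = t := Helper28.inv_inv_eq htt
  have hφL' : ∀ x ∈ L, t * x * t⁻¹ ∈ L' := by
    intro x hx; rw [hL']; exact conj_mem_cjg hx
  have htL' : cjg t L' = L := by rw [hL', cjg_cjg, htt, cjg_one]
  have hφL : ∀ y ∈ L', t * y * t⁻¹ ∈ L := by
    intro y hy
    have h1 := conj_mem_cjg (g := t) hy
    rwa [htL'] at h1
  have htty : ∀ y : G, t * (t * y * t⁻¹) * t⁻¹ = y := by
    intro y
    rw [hti]
    calc t * (t * y * t) * t = (t * t) * y * (t * t) := by simp only [mul_assoc]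
      _ = y := by rw [htt, one_mul, mul_one]
  have hat : ∀ a ∈ A, a * t = t * a := fun a ha => Subgroup.mem_centralizer_iff.1 S.htA a ha
  -- the diagonal homomorphism
  obtain ⟨φ, hφ⟩ : ∃ φ : ↥L →* G, ∀ x : ↥L, φ x = (x : G) * (t * (x : G) * t⁻¹) := by
    refine ⟨{ toFun := fun x => (x : G) * (t * (x : G) * t⁻¹), map_one' := ?_, map_mul' := ?_ },
      fun x => rfl⟩
    · show ((1 : ↥L) : G) * (t * ((1 : ↥L) : G) * t⁻¹) = 1
      rw [Subgroup.coe_one]; group
    · intro x y
      show ((x * y : ↥L) : G) * (t * ((x * y : ↥L) : G) * t⁻¹) =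
        ((x : G) * (t * (x : G) * t⁻¹)) * ((y : G) * (t * (y : G) * t⁻¹))
      have h := hcomm y y.2 _ (hφL' x x.2)
      rw [Subgroup.coe_mul]
      calc (x : G) * (y : G) * (t * ((x : G) * (y : G)) * t⁻¹)
          = (x : G) * ((y : G) * (t * (x : G) * t⁻¹)) * (t * (y : G) * t⁻¹) := by group
        _ = (x : G) * ((t * (x : G) * t⁻¹) * (y : G)) * (t * (y : G) * t⁻¹) := by rw [h]
        _ = ((x : G) * (t * (x : G) * t⁻¹)) * ((y : G) * (t * (y : G) * t⁻¹)) := by group
  have hAform : ∀ a ∈ A, ∃ x : ↥L, φ x = a := by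
    intro a ha
    obtain ⟨x, hx, y, hy, hxy⟩ := mem_sup_of_commute hcomm (hAL ha)
    refine ⟨⟨x, hx⟩, ?_⟩
    rw [hφ]
    show x * (t * x * t⁻¹) = a
    have h1 : x * y = (t * y * t⁻¹) * (t * x * t⁻¹) := by
      have h2 := hat a ha
      rw [hxy] at h2
      calc x * y = (x * y) * t * t⁻¹ := by group
        _ = t * (x * y) * t⁻¹ := by rw [h2]
        _ = (t * x * t⁻¹) * (t * y * t⁻¹) := by group
        _ = (t * y * t⁻¹) * (t * x * t⁻¹) := (hcomm _ (hφL y hy) _ (hφL' x hx)).symm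
    obtain ⟨-, e2⟩ := prod_unique hinf hx (hφL y hy) hy (hφL' x hx) h1
    rw [hxy, e2]
  have hφinj : Function.Injective φ := by
    rw [injective_iff_map_eq_one]
    intro x hx
    rw [hφ] at hx
    have h1 : (x : G) * (t * (x : G) * t⁻¹) = 1 * 1 := by rw [hx, one_mul]
    obtain ⟨e1, -⟩ := prod_unique hinf x.2 L.one_mem (hφL' x x.2) L'.one_mem h1
    exact Subtype.ext e1
  have hφt : ∀ g : ↥L, φ g * t = t * φ g := by
    intro g
    rw [hφ]
    have h1 : t * ((g : G) * (t * (g : G) * t⁻¹)) * t⁻¹ = (t * (g : G) * t⁻¹) * (g : G) := by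
      calc t * ((g : G) * (t * (g : G) * t⁻¹)) * t⁻¹
          = (t * (g : G) * t⁻¹) * (t * (t * (g : G) * t⁻¹) * t⁻¹) := by group
        _ = (t * (g : G) * t⁻¹) * (g : G) := by rw [htty]
    have h2 : (t * (g : G) * t⁻¹) * (g : G) = (g : G) * (t * (g : G) * t⁻¹) :=
      (hcomm g g.2 _ (hφL' g g.2)).symm
    calc (g : G) * (t * (g : G) * t⁻¹) * t
        = t * ((g : G) * (t * (g : G) * t⁻¹)) * t⁻¹ * t := by rw [h1, h2]
      _ = t * ((g : G) * (t * (g : G) * t⁻¹)) := by group
  have hPn : (A.comap φ).Normal := by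
    refine ⟨fun n hn g => ?_⟩
    rw [Subgroup.mem_comap] at hn ⊢
    rw [map_mul, map_mul, map_inv]
    exact (Subgroup.mem_normalizer_iff.1 (S.cent_t (hφt g)) _).1 hn
  have hPtop : A.comap φ = ⊤ := by
    have hsimple := S.comp_simple hL
    rcases hsimple.eq_bot_or_eq_top_of_normal _ hPn with h | h
    · exfalso
      apply S.ne_bot
      rw [eq_bot_iff]
      intro a ha
      obtain ⟨x, hx⟩ := hAform a ha
      have h1 : x ∈ A.comap φ := by rw [Subgroup.mem_comap, hx]; exact ha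
      rw [h, Subgroup.mem_bot] at h1
      rw [Subgroup.mem_bot, ← hx, h1, map_one]
    · exact h
  have hφA : ∀ x : ↥L, φ x ∈ A := by
    intro x
    have h1 : x ∈ A.comap φ := by rw [hPtop]; exact Subgroup.mem_top x
    exact h1
  have hiso : Nonempty (↥L ≃* ↥A) := by
    refine ⟨MulEquiv.ofBijective (φ.codRestrict A hφA) ⟨?_, ?_⟩⟩
    · intro x y hxy
      apply hφinj
      exact congrArg Subtype.val hxy
    · intro a
      obtain ⟨x, hx⟩ := hAform a a.2
      exact ⟨x, Subtype.ext hx⟩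
  -- the only components are `L` and `L'`
  have hcomps : ∀ L'' : Subgroup G, IsComponent L'' → L'' = L ∨ L'' = L' := by
    intro L'' hL''
    by_contra hcon
    push Not at hcon
    obtain ⟨hne1, hne2⟩ := hcon
    have hc1 := comp_comm hL'' hL hne1
    have hc2 := comp_comm hL'' hL'c hne2
    obtain ⟨x, hxL'', hx2⟩ := S.comp_invol hL''
    have hxK : x ∈ Subgroup.centralizer (A : Set G) := by
      rw [Subgroup.mem_centralizer_iff]
      intro a ha
      obtain ⟨x₁, hx₁, y₁, hy₁, rfl⟩ := mem_sup_of_commute hcomm (hAL ha)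
      have e1 := hc1 x hxL'' x₁ hx₁
      have e2 := hc2 x hxL'' y₁ hy₁
      calc x₁ * y₁ * x = x₁ * (y₁ * x) := by rw [mul_assoc]
        _ = x₁ * (x * y₁) := by rw [e2]
        _ = (x₁ * x) * y₁ := by rw [mul_assoc]
        _ = (x * x₁) * y₁ := by rw [e1]
        _ = x * (x₁ * y₁) := by rw [mul_assoc]
    have hLN : ∀ g ∈ L, g ∈ Subgroup.normalizer (A : Set G) := by
      intro g hg
      apply S.ti g x hxK hx2
      have h : g⁻¹ * x * g = x := by
        have h1 := hc1 x hxL'' g hg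
        calc g⁻¹ * x * g = g⁻¹ * (x * g) := by group
          _ = g⁻¹ * (g * x) := by rw [h1]
          _ = x := by group
      rw [h]; exact hxK
    apply comp_not_comm hL
    refine ⟨⟨fun g x₀ => Subtype.ext ?_⟩⟩
    show (g : G) * (x₀ : G) = (x₀ : G) * (g : G)
    have h1 : (g : G) * φ x₀ * (g : G)⁻¹ ∈ A :=
      (Subgroup.mem_normalizer_iff.1 (hLN g g.2) _).1 (hφA x₀)
    obtain ⟨x', hx'⟩ := hAform _ h1
    rw [hφ, hφ] at hx'
    obtain ⟨y, hy⟩ : ∃ y : G, y = t * (x₀ : G) * t⁻¹ := ⟨_, rfl⟩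
    have hyL' : y ∈ L' := by rw [hy]; exact hφL' x₀ x₀.2
    rw [← hy] at hx'
    have h2 : (g : G) * ((x₀ : G) * y) * (g : G)⁻¹ = ((g : G) * (x₀ : G) * (g : G)⁻¹) * y := by
      have h3 := hcomm g g.2 y hyL'
      have h4 : (g : G) * y * (g : G)⁻¹ = y := by rw [h3]; group
      calc (g : G) * ((x₀ : G) * y) * (g : G)⁻¹
          = ((g : G) * (x₀ : G) * (g : G)⁻¹) * ((g : G) * y * (g : G)⁻¹) := by group
        _ = ((g : G) * (x₀ : G) * (g : G)⁻¹) * y := by rw [h4]
    have hgx : (g : G) * (x₀ : G) * (g : G)⁻¹ ∈ L := L.mul_mem (L.mul_mem g.2 x₀.2) (L.inv_mem g.2)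
    obtain ⟨e1, e2⟩ := prod_unique hinf x'.2 hgx (hφL' x' x'.2) hyL' (hx'.trans h2)
    have e3 : (x' : G) = (x₀ : G) := by
      rw [hy] at e2
      exact mul_left_cancel (mul_right_cancel e2)
    rw [e3] at e1
    calc (g : G) * (x₀ : G) = (g : G) * (x₀ : G) * (g : G)⁻¹ * (g : G) := by group
      _ = (x₀ : G) * (g : G) := by rw [← e1]
  have hlayer : L ⊔ L' = layer G := by
    apply le_antisymm
    · exact sup_le (Helper30.comp_le_layer hL) (Helper30.comp_le_layer hL'c)
    · apply sSup_le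
      intro L'' hL''
      rcases hcomps L'' hL'' with h | h
      · rw [h]; exact le_sup_left
      · rw [h]; exact le_sup_right
  -- an element of `C(A)` normalizing `L` is trivial
  have hK1 : ∀ k ∈ Subgroup.centralizer (A : Set G), cjg k L = L → k = 1 := by
    intro k hk hkL
    have hkL' : cjg k L' = L' := by
      rcases hcomps _ (isComponent_cjg k hL'c) with h | h
      · exfalso
        apply hLt
        exact cjg_injective k (h.trans hkL.symm)
      · exact h
    have hkx : ∀ x ∈ L, k * x * k⁻¹ = x ∧ k * (t * x * t⁻¹) * k⁻¹ = t * x * t⁻¹ := by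
      intro x hx
      have h1 : k * x * k⁻¹ ∈ L := by
        have h2 := conj_mem_cjg (g := k) hx
        rwa [hkL] at h2
      have h2 : k * (t * x * t⁻¹) * k⁻¹ ∈ L' := by
        have h3 := conj_mem_cjg (g := k) (hφL' x hx)
        rwa [hkL'] at h3
      have h3 : φ ⟨x, hx⟩ * k = k * φ ⟨x, hx⟩ := Subgroup.mem_centralizer_iff.1 hk _ (hφA _)
      rw [hφ] at h3
      have h3' : (x * (t * x * t⁻¹)) * k = k * (x * (t * x * t⁻¹)) := h3
      have h4 : (k * x * k⁻¹) * (k * (t * x * t⁻¹) * k⁻¹) = x * (t * x * t⁻¹) := by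
        calc (k * x * k⁻¹) * (k * (t * x * t⁻¹) * k⁻¹) = k * (x * (t * x * t⁻¹)) * k⁻¹ := by group
          _ = (x * (t * x * t⁻¹)) * k * k⁻¹ := by rw [← h3']
          _ = x * (t * x * t⁻¹) := by group
      exact prod_unique hinf h1 hx h2 (hφL' x hx) h4
    apply S.eq_one_of_comm_comps
    intro L'' hL'' y hy
    rcases hcomps L'' hL'' with h | h
    · rw [h] at hy
      have h1 := (hkx y hy).1
      calc k * y = k * y * k⁻¹ * k := by group
        _ = y * k := by rw [h1]
    · rw [h] at hy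
      have h1 := (hkx _ (hφL y hy)).2
      rw [htty] at h1
      calc k * y = k * y * k⁻¹ * k := by group
        _ = y * k := by rw [h1]
  have hcent : Subgroup.centralizer (A : Set G) = Subgroup.zpowers t := by
    apply le_antisymm
    · intro k hk
      rcases hcomps _ (isComponent_cjg k hL) with h | h
      · rw [hK1 k hk h]; exact Subgroup.one_mem _
      · have h1 : cjg (t * k) L = L := by rw [← cjg_cjg, h, htL']
        have h2 := hK1 (t * k) (Subgroup.mul_mem _ S.htA hk) h1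
        have h3 : k = t⁻¹ := eq_inv_of_mul_eq_one_right h2
        rw [h3]
        exact Subgroup.inv_mem _ (Subgroup.mem_zpowers t)
    · exact (Subgroup.zpowers_le).2 S.htA
  exact ⟨hiso, hcomm, hinf, hlayer, hcent⟩

end Setup

/-- Let A be a standard subgroup of the finite group G with O(G) = 1, and t an involution of C_G(A). Then (i) A is normal in G; or (ii) there is a non-abelian simple subgroup X ≅ A with X and tXt⁻¹ commuting, meeting trivially and generating E(G), and C_G(A) = ⟨t⟩; or (iii) A ≤ E(G) and E(G) is non-abelian simple. -/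
theorem result {G : Type*} [Group G] [Finite G] (A : Subgroup G) (hA : Cfsg.IsStandardSubgroup A) (hO : Cfsg.oddCore G = ⊥) (t : G) (ht : orderOf t = 2) (htA : t ∈ Subgroup.centralizer (A : Set G)) : A.Normal ∨ (∃ X : Subgroup G, IsSimpleGroup ↥X ∧ ¬ IsMulCommutative ↥X ∧ Nonempty (↥X ≃* ↥A) ∧ (∀ a ∈ X, ∀ b ∈ X.map (MulAut.conj t).toMonoidHom, a * b = b * a) ∧ X ⊓ X.map (MulAut.conj t).toMonoidHom = ⊥ ∧ X ⊔ X.map (MulAut.conj t).toMonoidHom = Cfsg.layer G ∧ Subgroup.centralizer (A : Set G) = Subgroup.zpowers t) ∨ (A ≤ Cfsg.layer G ∧ IsSimpleGroup ↥(Cfsg.layer G) ∧ ¬ IsMulCommutative ↥(Cfsg.layer G)) := by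
  by_cases hAn : A.Normal
  · exact Or.inl hAn
  · right
    have S := setup_of hA hO ht htA hAn
    obtain ⟨L, hL, hLK⟩ := S.exists_comp
    by_cases hLt : cjg t L = L
    · right
      exact S.concl_iii hL hLK hLt
    · left
      exact S.concl_ii hL hLK hLt

end Cfsg.Agent.S1347
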