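import Cfsg.Statements.S1386
import Mathlib
-- import your own Cfsg.Agent.* helpers here

set_option autoImplicit false
open Cfsg

namespace Cfsg.Agent.S1386

/-- Elementwise commuting subgroups: every element of the join is a product. -/
theorem sup_decomp {G : Type*} [Group G] (A B : Subgroup G)
    (hc : ∀ a ∈ A, ∀ b ∈ B, a * b = b * a) :
    ∀ x ∈ A ⊔ B, ∃ a ∈ A, ∃ b ∈ B, x = a * b := by
  intro x hx
  rw [Subgroup.sup_eq_closure_mul] at hx
  induction hx using Subgroup.closure_induction with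
  | mem y hy =>
    obtain ⟨a, ha, b, hb, rfl⟩ := Set.mem_mul.mp hy
    exact ⟨a, ha, b, hb, rfl⟩
  | one => exact ⟨1, A.one_mem, 1, B.one_mem, by simp⟩
  | mul y z _ _ hy hz =>
    obtain ⟨a, ha, b, hb, rfl⟩ := hy
    obtain ⟨a', ha', b', hb', rfl⟩ := hz
    refine ⟨a * a', A.mul_mem ha ha', b * b', B.mul_mem hb hb', ?_⟩
    have h := hc a' ha' b hb
    calc a * b * (a' * b') = a * (b * a') * b' := by group
      _ = a * (a' * b) * b' := by rw [h]
      _ = a * a' * (b * b') := by group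
  | inv y _ hy =>
    obtain ⟨a, ha, b, hb, rfl⟩ := hy
    refine ⟨a⁻¹, A.inv_mem ha, b⁻¹, B.inv_mem hb, ?_⟩
    have h := hc a ha b hb
    rw [h, mul_inv_rev]

/-- In a cyclic join with trivial intersection the orders of the two factors are coprime. -/
theorem coprime_card_of_cyclic_sup {G : Type*} [Group G] [Finite G] (A B : Subgroup G)
    (hd : A ⊓ B = ⊥) (hcyc : IsCyclic ↥(A ⊔ B)) :
    (Nat.card A).Coprime (Nat.card B) := by
  classical
  rw [Nat.coprime_iff_gcd_eq_one]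
  by_contra hne
  obtain ⟨p, hp, hpd⟩ := Nat.exists_prime_and_dvd hne
  have : Fact p.Prime := ⟨hp⟩
  have hpA : p ∣ Nat.card A := hpd.trans (Nat.gcd_dvd_left _ _)
  have hpB : p ∣ Nat.card B := hpd.trans (Nat.gcd_dvd_right _ _)
  obtain ⟨a, ha⟩ := exists_prime_orderOf_dvd_card' p hpA
  obtain ⟨b, hb⟩ := exists_prime_orderOf_dvd_card' p hpB
  -- work in the cyclic group W = A ⊔ B
  let W : Subgroup G := A ⊔ B
  let a' : W := ⟨(a : G), (le_sup_left : A ≤ A ⊔ B) a.2⟩
  let b' : W := ⟨(b : G), (le_sup_right : B ≤ A ⊔ B) b.2⟩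
  have hoa : orderOf a' = p := by
    rw [← Subgroup.orderOf_coe a', ← ha, ← Subgroup.orderOf_coe a]
  have hob : orderOf b' = p := by
    rw [← Subgroup.orderOf_coe b', ← hb, ← Subgroup.orderOf_coe b]
  let _ : Fintype W := Fintype.ofFinite W
  have hle : (Finset.univ.filter (fun x : W => x ^ p = 1)).card ≤ p :=
    IsCyclic.card_pow_eq_one_le hp.pos
  -- the powers of a' fill the whole set of solutions of x ^ p = 1
  have hsub : (Finset.image (fun i : Fin p => a' ^ (i : ℕ)) Finset.univ) ⊆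
      Finset.univ.filter (fun x : W => x ^ p = 1) := by
    intro x hx
    simp only [Finset.mem_image, Finset.mem_univ, true_and] at hx
    obtain ⟨i, rfl⟩ := hx
    simp only [Finset.mem_filter, Finset.mem_univ, true_and]
    have hap : a' ^ p = 1 := by
      have := pow_orderOf_eq_one a'
      rwa [hoa] at this
    rw [← pow_mul, mul_comm, pow_mul, hap, one_pow]
  have hcard : (Finset.image (fun i : Fin p => a' ^ (i : ℕ)) Finset.univ).card = p := by
    rw [Finset.card_image_of_injective]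
    · simp
    · intro i j hij
      have : (i : ℕ) = (j : ℕ) := by
        apply pow_injOn_Iio_orderOf (x := a')
        · simp [hoa]
        · simp [hoa]
        · exact hij
      exact Fin.ext this
  have heq : Finset.image (fun i : Fin p => a' ^ (i : ℕ)) Finset.univ =
      Finset.univ.filter (fun x : W => x ^ p = 1) :=
    Finset.eq_of_subset_of_card_le hsub (by rw [hcard]; exact hle)
  have hb_mem : b' ∈ Finset.univ.filter (fun x : W => x ^ p = 1) := by
    simp only [Finset.mem_filter, Finset.mem_univ, true_and]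
    have := pow_orderOf_eq_one b'
    rwa [hob] at this
  rw [← heq] at hb_mem
  simp only [Finset.mem_image, Finset.mem_univ, true_and] at hb_mem
  obtain ⟨i, hi⟩ := hb_mem
  have hbA : (b : G) ∈ A := by
    have : ((a' ^ (i : ℕ) : W) : G) = (b : G) := by rw [hi]
    rw [← this]
    simpa using A.pow_mem a.2 _
  have hbot : (b : G) ∈ A ⊓ B := ⟨hbA, b.2⟩
  rw [hd, Subgroup.mem_bot] at hbot
  have hb1 : b = 1 := Subtype.ext hbot
  rw [hb1, orderOf_one] at hb
  exact hp.one_lt.ne hb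

theorem pow_card_eq_one_of_mem {G : Type*} [Group G] (A : Subgroup G) {x : G} (hx : x ∈ A) :
    x ^ Nat.card A = 1 := by
  have h : orderOf (⟨x, hx⟩ : A) ∣ Nat.card A := orderOf_dvd_natCard _
  rw [← Subgroup.orderOf_coe] at h
  exact orderOf_dvd_iff_pow_eq_one.mp h

/-- Let G be a finite group, W₁, W₂ subgroups forming a self-normalizing cyclic pair, S a subgroup with W₂ ≤ S and W₁ a complement to S' in S, and (W₁, U, W₂') type-P data for S. Then W₂' = W₂ (that is, C_{S'}(W₁) = W₂). -/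
theorem result {G : Type*} [Group G] [Finite G] (W₁ W₂ S U W₂' : Subgroup G) (hW : Cfsg.IsSelfNormalizingCyclic W₁ W₂)
    (hSW : Cfsg.IsComplIn ⁅S, S⁆ W₁ S) (hW₂S : W₂ ≤ S) (hP : Cfsg.IsTypePWith S W₁ U W₂') :
    W₂' = W₂ := by
  obtain ⟨h1, h2, hd, hc, hcyc, hN⟩ := hW
  obtain ⟨-, h2', hd', hc', -, hN'⟩ := hP.selfNormalizing
  obtain ⟨hS'S, hW₁S, hSd, hSdec⟩ := hSW
  have hcent := hP.W₂_centralizer
  -- a non-identity element of W₁ and of W₂
  obtain ⟨⟨x, hxW⟩, hx1'⟩ := (Subgroup.ne_bot_iff_exists_ne_one).mp h1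
  obtain ⟨⟨w₂, hw₂W⟩, hw₂1'⟩ := (Subgroup.ne_bot_iff_exists_ne_one).mp h2
  have hx1 : x ≠ 1 := fun h => hx1' (Subtype.ext h)
  have hw₂1 : w₂ ≠ 1 := fun h => hw₂1' (Subtype.ext h)
  have hcop : (Nat.card W₁).Coprime (Nat.card W₂) := coprime_card_of_cyclic_sup W₁ W₂ hd hcyc
  -- Step A: W₂ ≤ S'
  have hA : W₂ ≤ ⁅S, S⁆ := by
    intro w hw
    obtain ⟨a, ha, b, hb, hwab⟩ := hSdec w (hW₂S hw)
    have hbw : b * w = w * b := hc b hb w hw
    have ha_eq : a = w * b⁻¹ := by rw [hwab]; group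
    have hab : Commute a b := by
      rw [ha_eq]
      show w * b⁻¹ * b = b * (w * b⁻¹)
      rw [← mul_assoc, hbw]; group
    have hpow : w ^ Nat.card W₂ = a ^ Nat.card W₂ * b ^ Nat.card W₂ := by
      rw [hwab, hab.mul_pow]
    rw [pow_card_eq_one_of_mem W₂ hw] at hpow
    have hb2 : b ^ Nat.card W₂ * a ^ Nat.card W₂ = 1 := by
      rw [← (hab.pow_pow _ _).eq]; exact hpow.symm
    have hb3 : b ^ Nat.card W₂ ∈ ⁅S, S⁆ ⊓ W₁ := by
      refine ⟨?_, W₁.pow_mem hb _⟩
      have : b ^ Nat.card W₂ = (a ^ Nat.card W₂)⁻¹ := eq_inv_of_mul_eq_one_left hb2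
      rw [this]; exact Subgroup.inv_mem _ (Subgroup.pow_mem _ ha _)
    rw [hSd, Subgroup.mem_bot] at hb3
    have hb4 : b ^ Nat.card W₁ = 1 := pow_card_eq_one_of_mem W₁ hb
    have hb1 : b = 1 := by
      have h1 : orderOf b ∣ Nat.card W₂ := orderOf_dvd_of_pow_eq_one hb3
      have h2 : orderOf b ∣ Nat.card W₁ := orderOf_dvd_of_pow_eq_one hb4
      have h3 : orderOf b ∣ 1 := by
        have := Nat.dvd_gcd h2 h1
        rwa [Nat.coprime_iff_gcd_eq_one.mp hcop] at this
      exact orderOf_eq_one_iff.mp (Nat.dvd_one.mp h3)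
    rw [hwab, hb1, mul_one]; exact ha
  -- Step B: W₂ ≤ W₂'
  have hB : W₂ ≤ W₂' := by
    intro w hw
    rw [← hcent x hxW hx1]
    refine ⟨hA hw, ?_⟩
    show w ∈ Subgroup.centralizer {x}
    rw [Subgroup.mem_centralizer_iff]
    intro y hy
    rw [Set.mem_singleton_iff] at hy
    subst hy
    exact hc y hxW w hw
  -- Step C: the two joins coincide
  have hxw₁ : x * w₂ ∉ W₁ := by
    intro h
    have h' : w₂ ∈ W₁ ⊓ W₂ := ⟨by simpa using W₁.mul_mem (W₁.inv_mem hxW) h, hw₂W⟩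
    rw [hd, Subgroup.mem_bot] at h'
    exact hw₂1 h'
  have hz : Subgroup.normalizer ({x * w₂} : Set G) = W₁ ⊔ W₂ := by
    apply hN
    · rw [Set.singleton_subset_iff]
      refine ⟨Subgroup.mul_mem _ (Subgroup.mem_sup_left hxW) (Subgroup.mem_sup_right hw₂W), ?_⟩
      rintro (h | h)
      · exact hxw₁ h
      · have h' : x ∈ W₁ ⊓ W₂ := ⟨hxW, by simpa using W₂.mul_mem h (W₂.inv_mem hw₂W)⟩
        rw [hd, Subgroup.mem_bot] at h'
        exact hx1 h'
    · exact Set.singleton_nonempty _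
  have hz' : Subgroup.normalizer ({x * w₂} : Set G) = W₁ ⊔ W₂' := by
    apply hN'
    · rw [Set.singleton_subset_iff]
      refine ⟨Subgroup.mul_mem _ (Subgroup.mem_sup_left hxW) (Subgroup.mem_sup_right (hB hw₂W)), ?_⟩
      rintro (h | h)
      · exact hxw₁ h
      · have h' : x ∈ W₁ ⊓ W₂' := ⟨hxW, by simpa using W₂'.mul_mem h (W₂'.inv_mem (hB hw₂W))⟩
        rw [hd', Subgroup.mem_bot] at h'
        exact hx1 h'
    · exact Set.singleton_nonempty _
  apply le_antisymm _ hB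
  intro w' hw'
  have hw'' : w' ∈ W₁ ⊔ W₂ := by
    rw [← hz, hz']; exact Subgroup.mem_sup_right hw'
  obtain ⟨a, ha, b, hb, rfl⟩ := sup_decomp W₁ W₂ hc w' hw''
  have ha' : a ∈ W₁ ⊓ W₂' :=
    ⟨ha, by simpa using W₂'.mul_mem hw' (W₂'.inv_mem (hB hb))⟩
  rw [hd', Subgroup.mem_bot] at ha'
  rw [ha', one_mul]; exact hb

end Cfsg.Agent.S1386
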