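import Cfsg.Statements.S1388
import Cfsg.Agent.Lib.Helper32.TypeP
-- import your own Cfsg.Agent.* helpers here

set_option autoImplicit false
open Cfsg
open Cfsg.Agent.Lib.Helper32
open scoped commutatorElement

namespace Cfsg.Agent.S1388

/-- Let M be a subgroup of a finite group G with type-P data (W₁, U, W₂) and H = M_F. Then the derived subgroup of U centralizes H, and if U ≠ 1 then U does not centralize H. -/
theorem result {G : Type*} [Group G] [Finite G] (M W₁ U W₂ : Subgroup G) (hP : Cfsg.IsTypePWith M W₁ U W₂) :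
    ⁅U, U⁆ ≤ Subgroup.centralizer (Cfsg.fittingHallOf M : Set G) ∧ (U ≠ ⊥ → ¬ U ≤ Subgroup.centralizer (Cfsg.fittingHallOf M : Set G)) := by
  obtain ⟨hHM', hUM', hHU, hdec⟩ := hP.U_compl
  have hM'M : ⁅M, M⁆ ≤ M := by
    rw [Subgroup.commutator_le]
    intro a ha b hb
    exact M.mul_mem (M.mul_mem (M.mul_mem ha hb) (M.inv_mem ha)) (M.inv_mem hb)
  have hUM : U ≤ M := hUM'.trans hM'M
  have hcop := coprime_card_of_disjoint_fittingHallOf M U hUM hHU
  constructor
  · intro x hx
    have hxU : x ∈ U := by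
      have hle : ⁅U, U⁆ ≤ U := by
        rw [Subgroup.commutator_le]
        intro a ha b hb
        exact U.mul_mem (U.mul_mem (U.mul_mem ha hb) (U.inv_mem ha)) (U.inv_mem hb)
      exact hle hx
    have hx2 : x ∈ fittingHallOf M ⊔ (U ⊓ Subgroup.centralizer (fittingHallOf M : Set G)) := by
      rw [← typeP_fitting_eq M W₁ U W₂ hP, ← hP.fitting_eq]
      exact hP.derived_two_le (Subgroup.commutator_mono hUM' hUM' hx)
    obtain ⟨h, hh, c, hc, rfl⟩ := sup_decomp (fittingHallOf M)
      (U ⊓ Subgroup.centralizer (fittingHallOf M : Set G))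
      (fun a ha b hb => (Subgroup.mem_centralizer_iff.mp hb.2) a ha) x hx2
    have h1 : h ∈ fittingHallOf M ⊓ U :=
      ⟨hh, by simpa using U.mul_mem hxU (U.inv_mem hc.1)⟩
    rw [hHU, Subgroup.mem_bot] at h1
    rw [h1, one_mul]; exact hc.2
  · intro hU1 hUC
    apply hU1
    -- cardinalities
    have hcM' : Nat.card ↥⁅M, M⁆ = Nat.card (fittingHallOf M) * Nat.card U :=
      card_of_isComplIn hP.U_compl
    have hcM : Nat.card M = Nat.card ↥⁅M, M⁆ * Nat.card W₁ := card_of_isComplIn hP.W₁_compl
    have hW₁M : W₁ ≤ M := hP.W₁_compl.2.1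
    have hUpos : 0 < Nat.card U := Nat.card_pos
    have hW₁pos : 0 < Nat.card W₁ := Nat.card_pos
    have hrelU : U.relIndex M = Nat.card (fittingHallOf M) * Nat.card W₁ := by
      have h1 := card_mul_relIndex_of_le hUM
      rw [hcM, hcM'] at h1
      apply Nat.eq_of_mul_eq_mul_left hUpos
      rw [h1]; ring
    have hrelW : W₁.relIndex M = Nat.card (fittingHallOf M) * Nat.card U := by
      have h1 := card_mul_relIndex_of_le hW₁M
      rw [hcM, hcM'] at h1
      apply Nat.eq_of_mul_eq_mul_left hW₁pos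
      rw [h1]; ring
    have hcopW : (Nat.card U).Coprime (Nat.card W₁) := by
      have := hP.W₁_hall
      rw [hrelW] at this
      exact (Nat.Coprime.coprime_dvd_right (Dvd.intro_left _ rfl) this).symm
    -- U is normal in M
    have hnorm : (U.subgroupOf M).Normal := by
      refine ⟨fun n hn g => ?_⟩
      rw [Subgroup.mem_subgroupOf] at hn ⊢
      have hg : (g : G) ∈ M := g.2
      have hy : (g : G) * n * (g : G)⁻¹ ∈ ⁅M, M⁆ := by
        have h1 : (g : G) * n * (g : G)⁻¹ = ⁅(g : G), (n : G)⁆ * n := by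
          rw [commutatorElement_def]; group
        rw [h1]
        exact Subgroup.mul_mem _ (Subgroup.commutator_mem_commutator hg n.2) (hUM' hn)
      obtain ⟨h, hh, u', hu', hyeq⟩ := hdec _ hy
      have hcomm : Commute h u' := (Subgroup.mem_centralizer_iff.mp (hUC hu')) h hh
      have hpow : ((g : G) * n * (g : G)⁻¹) ^ Nat.card U = 1 := by
        rw [conj_pow, pow_card_eq_one_of_mem U hn]; group
      rw [hyeq, hcomm.mul_pow, pow_card_eq_one_of_mem U hu', mul_one] at hpow
      have hh1 : h = 1 := by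
        have h1 : orderOf h ∣ Nat.card U := orderOf_dvd_of_pow_eq_one hpow
        have h2 : orderOf h ∣ Nat.card (fittingHallOf M) := orderOf_dvd_card_of_mem _ hh
        have h3 : orderOf h ∣ 1 := by
          have := Nat.dvd_gcd h1 h2
          rwa [Nat.coprime_iff_gcd_eq_one.mp hcop] at this
        exact orderOf_eq_one_iff.mp (Nat.dvd_one.mp h3)
      have : ((g * n * g⁻¹ : M) : G) = (g : G) * n * (g : G)⁻¹ := by simp
      rw [this, hyeq, hh1, one_mul]
      exact hu'
    have hnil : Group.IsNilpotent ↥(U.subgroupOf M) := by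
      have := hP.U_nilpotent
      exact Group.nilpotent_of_mulEquiv (Subgroup.subgroupOfEquivOfLe hUM).symm
    have hhall : (Nat.card ↥(U.subgroupOf M)).Coprime (U.subgroupOf M).index := by
      rw [Nat.card_congr (Subgroup.subgroupOfEquivOfLe hUM).toEquiv]
      show (Nat.card U).Coprime (U.relIndex M)
      rw [hrelU]
      exact Nat.Coprime.mul_right hcop hcopW
    have hle' : U.subgroupOf M ≤ fittingHall M := le_sSup ⟨hnorm, hnil, hhall⟩
    have hle : U ≤ fittingHallOf M := by
      intro u hu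
      exact ⟨⟨u, hUM hu⟩, hle' (Subgroup.mem_subgroupOf.mpr hu), rfl⟩
    rw [eq_bot_iff, ← hHU]
    exact le_inf hle le_rfl

end Cfsg.Agent.S1388
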