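import Cfsg.Statements.S1396
import Cfsg.Agent.Lib.Helper32.PConstr2

set_option autoImplicit false
open Cfsg

namespace Cfsg.Agent.S1396

/-- Let G be a minimal simple group of odd order, p a prime dividing the order of G and A an abelian p-subgroup. Suppose either (1) A consists exactly of the elements x of C_G(A) with x^p = 1, and every proper subgroup of G has p-length at most one, or (2) A is normal and self-centralizing in some Sylow p-subgroup of G and has rank at least 2. Then A satisfies the transitivity hypothesis. -/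
theorem result {G : Type*} [Group G] [Finite G] (hG : Cfsg.IsMinSimpleOddOrder G)
    (p : ℕ) [Fact p.Prime] (hp : p ∣ Nat.card G) (A : Subgroup G) (hAp : IsPGroup p A) (hAc : IsMulCommutative A)
    (h : (∀ x ∈ Subgroup.centralizer (A : Set G), x ^ p = 1 ↔ x ∈ A) ∧ (∀ H : Subgroup G, H ≠ ⊤ → Cfsg.PLengthLE p 1 H) ∨
      ∃ P : Sylow p G, Cfsg.IsSCN (P : Subgroup G) A ∧ ¬ Cfsg.PRankLE p 1 A) :
    Cfsg.TransitivityHypothesis A := by
  classical
  have hp' := (Fact.out : p.Prime)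
  obtain ⟨hodd, hsimple, hnc, hsolv⟩ := hG
  have hAc' : ∀ a ∈ A, ∀ b ∈ A, a * b = b * a := fun a ha b hb =>
    congrArg Subtype.val (hAc.is_comm.comm ⟨a, ha⟩ ⟨b, hb⟩)
  have hp2 : p ≠ 2 := by
    intro h2
    rw [h2] at hp
    exact (Nat.not_even_iff_odd.mpr hodd) (even_iff_two_dvd.mpr hp)
  have hAtop : A ≠ ⊤ := by
    intro hA
    apply hnc
    exact ⟨⟨fun a b => hAc' a (hA ▸ Subgroup.mem_top a) b (hA ▸ Subgroup.mem_top b)⟩⟩
  have hAbot : A ≠ ⊥ := by
    intro hA
    rcases h with ⟨h1, -⟩ | ⟨P, -, hrank⟩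
    · obtain ⟨x, hx⟩ := exists_prime_orderOf_dvd_card' p hp
      have hxA : x ∈ A := by
        apply (h1 x ?_).mp
        · rw [← hx]; exact pow_orderOf_eq_one x
        · rw [Subgroup.mem_centralizer_iff]
          intro a ha
          rw [SetLike.mem_coe, hA, Subgroup.mem_bot] at ha
          rw [ha, one_mul, mul_one]
      rw [hA, Subgroup.mem_bot] at hxA
      rw [hxA, orderOf_one] at hx
      exact hp'.one_lt.ne hx
    · apply hrank
      intro B _ _
      have hcA : Nat.card A = 1 := by rw [hA, Subgroup.card_bot]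
      have h2 : Nat.card B ≤ Nat.card A := Subgroup.card_le_card_group B
      rw [hcA] at h2
      exact h2.trans (Nat.one_le_pow _ _ hp'.pos)
  have hpA : p ∣ Nat.card A := by
    obtain ⟨n, hn⟩ := IsPGroup.iff_card.mp hAp
    rw [hn]
    apply dvd_pow_self
    rintro rfl
    rw [pow_zero] at hn
    exact hAbot ((Subgroup.card_eq_one).mp hn)
  have hπ : ∀ q : ℕ, q.Prime → q ≠ p → q ∈ Cfsg.primesNotDvd (Nat.card A) := by
    intro q hq hqp
    refine ⟨hq, fun hdvd => hqp ?_⟩
    obtain ⟨n, hn⟩ := IsPGroup.iff_card.mp hAp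
    rw [hn] at hdvd
    exact (Nat.prime_dvd_prime_iff_eq hq hp').mp (hq.dvd_of_dvd_pow hdvd)
  refine ⟨hAbot, hAtop, ?_⟩
  intro X hX hAX
  apply le_antisymm
  · apply sSup_le
    intro Y hY
    obtain ⟨hYX, hYπ, hAY⟩ := hY
    have hYp : (Nat.card Y).Coprime p := by
      rw [Nat.coprime_comm, Nat.Prime.coprime_iff_not_dvd hp']
      intro hdvd
      exact (hYπ p hp' hdvd).2 hpA
    have hc : Cfsg.IsPConstrained p ↥X :=
      Cfsg.Agent.Lib.Helper32.isPConstrained_of_isSolvable (hsolv X hX) p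
    refine le_trans ?_ (Cfsg.Agent.Lib.Helper32.pPrimeCoreOf_le_piCoreOf X hπ)
    rcases h with ⟨h1, h2⟩ | ⟨P, hscn, -⟩
    · exact Cfsg.Agent.Lib.Helper32.inv_le_pPrimeCoreOf_of_plength_one hp2 hc (h2 X hX) hAX hYX hAp
        (fun x hx hxp => (h1 x hx).mp hxp) hYp hAY
    · exact Cfsg.Agent.Lib.Helper32.inv_le_pPrimeCoreOf hc hAX hYX hAp
        (Cfsg.Agent.Lib.Helper32.scn_full P hscn.1 hscn.2.1 hscn.2.2) hYp hAY (Or.inl hp2)
  · apply le_sSup
    exact ⟨Cfsg.Agent.Lib.Helper32.piCoreOf_le _ _, Cfsg.Agent.Lib.Helper32.piCoreOf_primes _ _,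
      hAX.trans (Cfsg.Agent.Lib.Helper32.le_normalizer_piCoreOf _ _)⟩

end Cfsg.Agent.S1396
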