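import Cfsg.Statements.S1441
import Mathlib

set_option autoImplicit false
open Cfsg

namespace Cfsg.Agent.S1441

theorem comm_eq_one {G : Type*} [Group G] {h a : G} {k m : ℕ} (hk : a ^ k = 1)
    (hc : Commute (h * a * h⁻¹ * a⁻¹) a) (hm : (h * a * h⁻¹ * a⁻¹) ^ m = 1)
    (hkm : Nat.Coprime k m) : h * a * h⁻¹ * a⁻¹ = 1 := by
  set z := h * a * h⁻¹ * a⁻¹ with hz
  have h1 : h * a * h⁻¹ = z * a := by simp [hz]
  have h2 : (z * a) ^ k = z ^ k * a ^ k := hc.mul_pow k
  have h3 : (h * a * h⁻¹) ^ k = h * a ^ k * h⁻¹ := conj_pow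
  have h4 : z ^ k = 1 := by
    rw [h1, h2, hk] at h3
    simpa using h3
  have h5 := pow_gcd_eq_one.2 ⟨h4, hm⟩
  rw [Nat.Coprime] at hkm
  rw [hkm, pow_one] at h5
  exact h5

/-- Let G be a finite group, H a solvable subgroup and A a subgroup normalizing H. Suppose there is a chain H = H₀ ≥ H₁ ≥ ⋯ ≥ H_n = 1 of subgroups normal in H and normalized by A such that A acts trivially on each factor H_{i-1}/H_i (that is, [H_{i-1}, A] ≤ H_i). Then every prime dividing the index of C_A(H) in A divides the order of H. -/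
theorem result {G : Type*} [Group G] [Finite G] (H A : Subgroup G) (hH : Group.IsSolvable H) (hA : (A ≤ Subgroup.normalizer (H : Set G)))
    (n : ℕ) (c : Fin (n + 1) → Subgroup G) (hc0 : c 0 = H) (hcn : c (Fin.last n) = ⊥) (hanti : Antitone c)
    (hcN : ∀ i, H ≤ Subgroup.normalizer ((c i : Subgroup G) : Set G)) (hcA : ∀ i, A ≤ Subgroup.normalizer ((c i : Subgroup G) : Set G))
    (htriv : ∀ i : Fin n, ⁅c i.castSucc, A⁆ ≤ c i.succ) :
    ∀ p : ℕ, p.Prime → p ∣ (A ⊓ Subgroup.centralizer (H : Set G)).relIndex A → p ∣ Nat.card H := by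
  intro p hp hdvd
  by_contra hnd
  have : Fact p.Prime := ⟨hp⟩
  have hle : ∀ i, c i ≤ H := fun i => hc0 ▸ hanti (Fin.zero_le i)
  -- key: elements of A of order coprime to |H| centralize H
  have key : ∀ a ∈ A, ∀ k : ℕ, a ^ k = 1 → Nat.Coprime k (Nat.card H) →
      ∀ i, ∀ h ∈ c i, h * a * h⁻¹ * a⁻¹ = 1 := by
    intro a ha k hk hcop i
    induction i using Fin.reverseInduction with
    | last =>
      intro h hh
      rw [hcn, Subgroup.mem_bot] at hh
      subst hh
      simp
    | cast i ih =>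
      intro h hh
      have hz : h * a * h⁻¹ * a⁻¹ ∈ c i.succ := by
        apply htriv i
        have := Subgroup.commutator_mem_commutator hh ha
        rwa [commutatorElement_def] at this
      have hzc : Commute (h * a * h⁻¹ * a⁻¹) a := by
        have := ih _ hz
        rw [Commute, SemiconjBy]
        have h2 : (h * a * h⁻¹ * a⁻¹) * a * (h * a * h⁻¹ * a⁻¹)⁻¹ = a := by
          rw [mul_inv_eq_one] at this
          rw [this]
        calc (h * a * h⁻¹ * a⁻¹) * a = ((h * a * h⁻¹ * a⁻¹) * a * (h * a * h⁻¹ * a⁻¹)⁻¹) * (h * a * h⁻¹ * a⁻¹) := by group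
          _ = a * (h * a * h⁻¹ * a⁻¹) := by rw [h2]
      have hzH : h * a * h⁻¹ * a⁻¹ ∈ H := hle _ hz
      have hm : (h * a * h⁻¹ * a⁻¹) ^ Nat.card H = 1 := by
        have := pow_card_eq_one' (G := H) (x := ⟨_, hzH⟩)
        exact congrArg Subtype.val this
      exact comm_eq_one hk hzc hm hcop
  -- Sylow p-subgroup of A lies in the centralizer
  obtain P : Sylow p A := default
  have hP : (P : Subgroup A) ≤ (A ⊓ Subgroup.centralizer (H : Set G)).subgroupOf A := by
    intro x hx
    rw [Subgroup.mem_subgroupOf, Subgroup.mem_inf]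
    refine ⟨x.2, ?_⟩
    rw [Subgroup.mem_centralizer_iff]
    intro h hh
    obtain ⟨j, hj⟩ := (P.2 ⟨x, hx⟩)
    have hxj : (x : G) ^ (p ^ j) = 1 := by
      have := congrArg (fun y : (P : Subgroup A) => ((y : A) : G)) hj
      simpa using this
    have hcop : Nat.Coprime (p ^ j) (Nat.card H) :=
      Nat.Coprime.pow_left j ((Nat.Prime.coprime_iff_not_dvd hp).2 hnd)
    have := key x x.2 (p ^ j) hxj hcop 0 h (hc0 ▸ hh)
    rw [mul_inv_eq_one, mul_inv_eq_iff_eq_mul] at this
    exact this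
  have h1 : ((A ⊓ Subgroup.centralizer (H : Set G)).subgroupOf A).index ∣ (P : Subgroup A).index :=
    Subgroup.index_dvd_of_le hP
  exact P.not_dvd_index (hdvd.trans h1)

end Cfsg.Agent.S1441
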