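import Cfsg.Statements.S1442
import Mathlib

set_option autoImplicit false
open Cfsg

namespace Cfsg.Agent.S1442

theorem comm_eq_one {G : Type*} [Group G] {h a : G} {k m : ℕ} (hk : a ^ k = 1)
    (hc : Commute (h * a * h⁻¹ * a⁻¹) a) (hm : (h * a * h⁻¹ * a⁻¹) ^ m = 1)
    (hkm : Nat.Coprime k m) : h * a * h⁻¹ * a⁻¹ = 1 := by
  set z := h * a * h⁻¹ * a⁻¹ with hz
  have h1 : h * a * h⁻¹ = z * a := by simp [hz]
  have h2 : (z * a) ^ k = z ^ k * a ^ k := hc.mul_pow k
  have h3 : (h * a * h⁻¹) ^ k = h * a ^ k * h⁻¹ := conj_pow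
  have h4 : z ^ k = 1 := by
    rw [h1, h2, hk] at h3
    simpa using h3
  have h5 := pow_gcd_eq_one.2 ⟨h4, hm⟩
  rw [Nat.Coprime] at hkm
  rw [hkm, pow_one] at h5
  exact h5

/-- Let G be a finite group, H a nilpotent subgroup and A a subgroup normalizing H with the orders of A and H coprime. Put C = H ∩ C_G(A). If H ∩ C_G(C) ≤ C then A centralizes H. -/
theorem result {G : Type*} [Group G] [Finite G] (H A : Subgroup G) (hH : Group.IsNilpotent H) (hA : (A ≤ Subgroup.normalizer (H : Set G))) (hcop : (Nat.card A).Coprime (Nat.card H))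
    (hC : H ⊓ Subgroup.centralizer (((H ⊓ Subgroup.centralizer (A : Set G)) : Subgroup G) : Set G) ≤ (H ⊓ Subgroup.centralizer (A : Set G))) :
    A ≤ Subgroup.centralizer (H : Set G) := by
  set C : Subgroup G := H ⊓ Subgroup.centralizer (A : Set G) with hCdef
  have hnc : NormalizerCondition H := Group.normalizerCondition_of_isNilpotent
  rw [normalizerCondition_iff_only_full_group_self_normalizing] at hnc
  have htop : C.subgroupOf H = ⊤ := by
    apply hnc
    apply le_antisymm _ Subgroup.le_normalizer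
    intro x hx
    rw [Subgroup.mem_subgroupOf, hCdef, Subgroup.mem_inf]
    refine ⟨x.2, ?_⟩
    rw [Subgroup.mem_centralizer_iff]
    intro a ha
    -- z = x a x⁻¹ a⁻¹
    have hzH : (x : G) * a * (x : G)⁻¹ * a⁻¹ ∈ H := by
      have h1 : a * (x : G)⁻¹ * a⁻¹ ∈ H :=
        (Subgroup.le_normalizer_iff.1 hA) a ha _ (H.inv_mem x.2)
      have : (x : G) * a * (x : G)⁻¹ * a⁻¹ = (x : G) * (a * (x : G)⁻¹ * a⁻¹) := by group
      rw [this]
      exact H.mul_mem x.2 h1
    have hzC : (x : G) * a * (x : G)⁻¹ * a⁻¹ ∈ Subgroup.centralizer (C : Set G) := by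
      rw [Subgroup.mem_centralizer_iff]
      intro c hc
      have hc' : (x : G)⁻¹ * c * (x : G) ∈ C := by
        have := (Subgroup.mem_normalizer_iff''.1 hx ⟨c, hc.1⟩).1
          (by rw [Subgroup.mem_subgroupOf]; exact hc)
        rw [Subgroup.mem_subgroupOf] at this
        simpa using this
      have hc1 : a * c = c * a := (Subgroup.mem_centralizer_iff.1 hc.2 a ha)
      have hc2 : a * ((x : G)⁻¹ * c * (x : G)) = ((x : G)⁻¹ * c * (x : G)) * a :=
        (Subgroup.mem_centralizer_iff.1 hc'.2 a ha)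
      have hc3 : a⁻¹ * c = c * a⁻¹ := by
        rw [eq_mul_inv_iff_mul_eq, mul_assoc, ← hc1, ← mul_assoc, inv_mul_cancel, one_mul]
      calc c * ((x : G) * a * (x : G)⁻¹ * a⁻¹)
          = (x : G) * (((x : G)⁻¹ * c * (x : G)) * a) * (x : G)⁻¹ * a⁻¹ := by group
        _ = (x : G) * (a * ((x : G)⁻¹ * c * (x : G))) * (x : G)⁻¹ * a⁻¹ := by rw [hc2]
        _ = (x : G) * a * (x : G)⁻¹ * (c * a⁻¹) := by group
        _ = (x : G) * a * (x : G)⁻¹ * (a⁻¹ * c) := by rw [hc3]
        _ = (x : G) * a * (x : G)⁻¹ * a⁻¹ * c := by group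
    have hzmem : (x : G) * a * (x : G)⁻¹ * a⁻¹ ∈ C := hC ⟨hzH, hzC⟩
    have hcomm : Commute ((x : G) * a * (x : G)⁻¹ * a⁻¹) a :=
      ((Subgroup.mem_centralizer_iff.1 hzmem.2) a ha).symm
    have hm : ((x : G) * a * (x : G)⁻¹ * a⁻¹) ^ Nat.card H = 1 := by
      have := pow_card_eq_one' (G := H) (x := ⟨_, hzH⟩)
      exact congrArg Subtype.val this
    have hk : a ^ Nat.card A = 1 := by
      have := pow_card_eq_one' (G := A) (x := ⟨a, ha⟩)
      exact congrArg Subtype.val this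
    have h1 := comm_eq_one hk hcomm hm hcop
    rw [mul_inv_eq_one, mul_inv_eq_iff_eq_mul] at h1
    exact h1.symm
  rw [Subgroup.subgroupOf_eq_top] at htop
  intro a ha
  rw [Subgroup.mem_centralizer_iff]
  intro h hh
  exact ((Subgroup.mem_centralizer_iff.1 (htop hh).2) a ha).symm

end Cfsg.Agent.S1442
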