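import Cfsg.Statements.S1443
import Mathlib

set_option autoImplicit false
open Cfsg

namespace Cfsg.Agent.S1443

theorem comm_eq_one {G : Type*} [Group G] {h a : G} {k m : ℕ} (hk : a ^ k = 1)
    (hc : Commute (h * a * h⁻¹ * a⁻¹) a) (hm : (h * a * h⁻¹ * a⁻¹) ^ m = 1)
    (hkm : Nat.Coprime k m) : h * a * h⁻¹ * a⁻¹ = 1 := by
  set z := h * a * h⁻¹ * a⁻¹ with hz
  have h1 : h * a * h⁻¹ = z * a := by simp [hz]
  have h2 : (z * a) ^ k = z ^ k * a ^ k := hc.mul_pow k
  have h3 : (h * a * h⁻¹) ^ k = h * a ^ k * h⁻¹ := conj_pow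
  have h4 : z ^ k = 1 := by
    rw [h1, h2, hk] at h3
    simpa using h3
  have h5 := pow_gcd_eq_one.2 ⟨h4, hm⟩
  rw [Nat.Coprime] at hkm
  rw [hkm, pow_one] at h5
  exact h5

/-- class two: `y^n x = c^n x y^n` where `c = [y,x]` commutes with `x` and `y`. -/
theorem pow_mul_class2 {G : Type*} [Group G] (x y : G)
    (hx : Commute (y * x * y⁻¹ * x⁻¹) x) (hy : Commute (y * x * y⁻¹ * x⁻¹) y) (n : ℕ) :
    y ^ n * x = (y * x * y⁻¹ * x⁻¹) ^ n * x * y ^ n := by
  set c := y * x * y⁻¹ * x⁻¹ with hc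
  have hyx : y * x = c * x * y := by simp [hc]
  induction n with
  | zero => simp
  | succ n ih =>
    have h1 : Commute (y ^ n) c := (hy.symm.pow_left n)
    calc y ^ (n + 1) * x = y ^ n * (y * x) := by rw [pow_succ, mul_assoc]
      _ = y ^ n * (c * x * y) := by rw [hyx]
      _ = (y ^ n * c) * x * y := by simp only [mul_assoc]
      _ = (c * y ^ n) * x * y := by rw [h1.eq]
      _ = c * (y ^ n * x) * y := by simp only [mul_assoc]
      _ = c * (c ^ n * x * y ^ n) * y := by rw [ih]
      _ = (c * c ^ n) * x * (y ^ n * y) := by simp only [mul_assoc]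
      _ = c ^ (n + 1) * x * y ^ (n + 1) := by rw [← pow_succ', ← pow_succ]

/-- class two: `(x y)^n = x^n y^n c^(n choose 2)` where `c = [y,x]` commutes with `x`, `y`. -/
theorem mul_pow_class2 {G : Type*} [Group G] (x y : G)
    (hx : Commute (y * x * y⁻¹ * x⁻¹) x) (hy : Commute (y * x * y⁻¹ * x⁻¹) y) (n : ℕ) :
    (x * y) ^ n = x ^ n * y ^ n * (y * x * y⁻¹ * x⁻¹) ^ (n.choose 2) := by
  have key := pow_mul_class2 x y hx hy
  set c := y * x * y⁻¹ * x⁻¹ with hc
  induction n with
  | zero => simp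
  | succ n ih =>
    have h1 : Commute (c ^ (n.choose 2)) x := hx.pow_left _
    have h2 : Commute (c ^ (n.choose 2)) y := hy.pow_left _
    have h3 : Commute (c ^ n) x := hx.pow_left _
    have h4 : Commute (c ^ n) (y ^ (n + 1)) := (hy.pow_left _).pow_right _
    have hch : (n + 1).choose 2 = n + n.choose 2 := by
      rw [Nat.choose_succ_succ, Nat.choose_one_right]
    calc (x * y) ^ (n + 1) = (x * y) ^ n * (x * y) := pow_succ _ _
      _ = x ^ n * y ^ n * c ^ (n.choose 2) * (x * y) := by rw [ih]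
      _ = x ^ n * y ^ n * (c ^ (n.choose 2) * x) * y := by simp only [mul_assoc]
      _ = x ^ n * y ^ n * (x * c ^ (n.choose 2)) * y := by rw [h1.eq]
      _ = x ^ n * (y ^ n * x) * (c ^ (n.choose 2) * y) := by simp only [mul_assoc]
      _ = x ^ n * (c ^ n * x * y ^ n) * (y * c ^ (n.choose 2)) := by rw [key n, h2.eq]
      _ = x ^ n * (c ^ n * x) * (y ^ n * y) * c ^ (n.choose 2) := by simp only [mul_assoc]
      _ = x ^ n * (x * c ^ n) * y ^ (n + 1) * c ^ (n.choose 2) := by rw [h3.eq, ← pow_succ]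
      _ = (x ^ n * x) * (c ^ n * y ^ (n + 1)) * c ^ (n.choose 2) := by simp only [mul_assoc]
      _ = x ^ (n + 1) * (y ^ (n + 1) * c ^ n) * c ^ (n.choose 2) := by rw [h4.eq, ← pow_succ]
      _ = x ^ (n + 1) * y ^ (n + 1) * (c ^ n * c ^ (n.choose 2)) := by simp only [mul_assoc]
      _ = x ^ (n + 1) * y ^ (n + 1) * c ^ ((n + 1).choose 2) := by rw [← pow_add, hch]

theorem conj_mem_centralizer {G : Type*} [Group G] {a : G} {Q : Subgroup G}
    (hQ : a ∈ Subgroup.normalizer (Q : Set G)) {h : G}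
    (hh : h ∈ Subgroup.centralizer (Q : Set G)) :
    a * h * a⁻¹ ∈ Subgroup.centralizer (Q : Set G) := by
  rw [Subgroup.mem_centralizer_iff] at hh ⊢
  intro q hq
  have hq' : a⁻¹ * q * a ∈ Q := (Subgroup.mem_normalizer_iff''.1 hQ q).1 hq
  have := hh _ hq'
  calc q * (a * h * a⁻¹) = a * ((a⁻¹ * q * a) * h) * a⁻¹ := by group
    _ = a * (h * (a⁻¹ * q * a)) * a⁻¹ := by rw [this]
    _ = a * h * a⁻¹ * q := by group

theorem normalizer_inf_centralizer {G : Type*} [Group G] {a : G} {P Q : Subgroup G}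
    (hP : a ∈ Subgroup.normalizer (P : Set G)) (hQ : a ∈ Subgroup.normalizer (Q : Set G)) :
    a ∈ Subgroup.normalizer ((P ⊓ Subgroup.centralizer (Q : Set G) : Subgroup G) : Set G) := by
  rw [Subgroup.mem_normalizer_iff]
  intro h
  constructor
  · rintro ⟨h1, h2⟩
    exact ⟨(Subgroup.mem_normalizer_iff.1 hP h).1 h1, conj_mem_centralizer hQ h2⟩
  · rintro ⟨h1, h2⟩
    refine ⟨(Subgroup.mem_normalizer_iff.1 hP h).2 h1, ?_⟩
    have := conj_mem_centralizer (Subgroup.inv_mem _ hQ) h2
    simpa [mul_assoc] using this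

theorem comm_mem_centralizer {G : Type*} [Group G] {a x : G} {N : Subgroup G}
    (hx : x ∈ Subgroup.normalizer (N : Set G)) (ha : ∀ w ∈ N, a * w = w * a) :
    x * a * x⁻¹ * a⁻¹ ∈ Subgroup.centralizer (N : Set G) := by
  rw [Subgroup.mem_centralizer_iff]
  intro c hc
  have hc' : x⁻¹ * c * x ∈ N := (Subgroup.mem_normalizer_iff''.1 hx c).1 hc
  have hc1 : a * c = c * a := ha c hc
  have hc2 := ha _ hc'
  have hc3 : a⁻¹ * c = c * a⁻¹ := by
    rw [eq_mul_inv_iff_mul_eq, mul_assoc, ← hc1, ← mul_assoc, inv_mul_cancel, one_mul]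
  calc c * (x * a * x⁻¹ * a⁻¹)
      = x * ((x⁻¹ * c * x) * a) * x⁻¹ * a⁻¹ := by group
    _ = x * (a * (x⁻¹ * c * x)) * x⁻¹ * a⁻¹ := by rw [hc2]
    _ = x * a * x⁻¹ * (c * a⁻¹) := by group
    _ = x * a * x⁻¹ * (a⁻¹ * c) := by rw [hc3]
    _ = x * a * x⁻¹ * a⁻¹ * c := by group

theorem normalizer_le_normalizer_commutator {G : Type*} [Group G] (P : Subgroup G) :
    Subgroup.normalizer (P : Set G) ≤ Subgroup.normalizer ((⁅P, P⁆ : Subgroup G) : Set G) := by
  intro g hg
  rw [Subgroup.mem_normalizer_iff_map_conj_eq] at hg ⊢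
  rw [Subgroup.map_commutator, hg]

theorem L1 {G : Type*} [Group G] [Finite G] (p : ℕ) [Fact p.Prime] (hp : p ≠ 2) (a : G) (k : ℕ)
    (hk : a ^ k = 1) (hkp : Nat.Coprime k p) :
    ∀ (n : ℕ) (P : Subgroup G), Nat.card P = n → IsPGroup p P →
      a ∈ Subgroup.normalizer (P : Set G) →
      (∀ x ∈ P, x ^ p = 1 → a * x = x * a) → ∀ x ∈ P, a * x = x * a := by
  intro n
  induction n using Nat.strong_induction_on with
  | _ n ih =>
  intro P hn hP haN hfix
  have hconj : ∀ x ∈ P, a * x * a⁻¹ ∈ P := fun x hx => (Subgroup.mem_normalizer_iff.1 haN x).1 hx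
  obtain ⟨e, he⟩ := (IsPGroup.iff_card.1 hP)
  have hpow : ∀ x ∈ P, x ^ (p ^ e) = 1 := by
    intro x hx
    have := pow_card_eq_one' (G := P) (x := ⟨x, hx⟩)
    rw [he] at this
    exact congrArg Subtype.val this
  have hzP : ∀ x ∈ P, x * a * x⁻¹ * a⁻¹ ∈ P := by
    intro x hx
    have : x * a * x⁻¹ * a⁻¹ = x * (a * x⁻¹ * a⁻¹) := by group
    rw [this]; exact P.mul_mem hx (hconj _ (P.inv_mem hx))
  have star : ∀ x ∈ P, Commute (x * a * x⁻¹ * a⁻¹) a → a * x = x * a := by
    intro x hx hc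
    have := comm_eq_one hk hc (hpow _ (hzP x hx)) (Nat.Coprime.pow_right e hkp)
    rw [mul_inv_eq_one, mul_inv_eq_iff_eq_mul] at this
    exact this.symm
  have hsub : ∀ S : Subgroup G, S ≤ P → S ≠ P → a ∈ Subgroup.normalizer (S : Set G) →
      ∀ x ∈ S, a * x = x * a := by
    intro S hSP hne hSa
    have hlt : Nat.card S < n := by
      rw [← hn]
      exact lt_of_le_of_ne (Subgroup.card_le_of_le hSP)
        (fun heq => hne (Subgroup.eq_of_le_of_card_ge hSP heq.ge))
    exact ih _ hlt S rfl (hP.to_le hSP) hSa (fun x hx => hfix x (hSP hx))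
  -- z^p for z = [x,a] when a commutes with x^p
  have hzpow : ∀ x ∈ P, a * x ^ p = x ^ p * a →
      Commute ((a * x⁻¹ * a⁻¹) * x * (a * x⁻¹ * a⁻¹)⁻¹ * x⁻¹) x →
      Commute ((a * x⁻¹ * a⁻¹) * x * (a * x⁻¹ * a⁻¹)⁻¹ * x⁻¹) (a * x⁻¹ * a⁻¹) →
      (x * a * x⁻¹ * a⁻¹) ^ p =
        ((a * x⁻¹ * a⁻¹) * x * (a * x⁻¹ * a⁻¹)⁻¹ * x⁻¹) ^ (p.choose 2) := by
    intro x hx hxp h1 h2
    have e1 : x * a * x⁻¹ * a⁻¹ = x * (a * x⁻¹ * a⁻¹) := by group
    rw [e1, mul_pow_class2 x (a * x⁻¹ * a⁻¹) h1 h2 p, conj_pow, inv_pow]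
    have : a * (x ^ p)⁻¹ * a⁻¹ = (x ^ p)⁻¹ := by
      rw [mul_inv_eq_iff_eq_mul, eq_inv_mul_iff_mul_eq, ← mul_assoc, ← hxp, mul_assoc,
        mul_inv_cancel, mul_one]
    rw [this, mul_inv_cancel, one_mul]
  by_cases hab : ∀ x ∈ P, ∀ y ∈ P, x * y = y * x
  · -- abelian case
    have key : ∀ j, ∀ x ∈ P, x ^ (p ^ j) = 1 → a * x = x * a := by
      intro j
      induction j with
      | zero =>
        intro x hx h1
        simp only [pow_zero, pow_one] at h1
        subst h1; simp
      | succ j ihj =>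
        intro x hx h1
        have hxp : a * x ^ p = x ^ p * a :=
          ihj _ (P.pow_mem hx p) (by rw [← pow_mul, ← pow_succ']; exact h1)
        apply star x hx
        have hv : a * x⁻¹ * a⁻¹ ∈ P := hconj _ (P.inv_mem hx)
        have hc1 : (a * x⁻¹ * a⁻¹) * x * (a * x⁻¹ * a⁻¹)⁻¹ * x⁻¹ = 1 := by
          rw [hab _ hv _ hx]; group
        have hzp : (x * a * x⁻¹ * a⁻¹) ^ p = 1 := by
          rw [hzpow x hx hxp (by rw [hc1]; exact Commute.one_left _)
            (by rw [hc1]; exact Commute.one_left _), hc1, one_pow]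
        exact (hfix _ (hzP x hx) hzp).symm
    intro x hx
    exact key e x hx (hpow x hx)
  · -- nonabelian case
    by_contra hcon
    push Not at hcon hab
    have hZP : P ⊓ Subgroup.centralizer (P : Set G) ≤ P := inf_le_left
    have hZne : P ⊓ Subgroup.centralizer (P : Set G) ≠ P := by
      intro h
      obtain ⟨x, hx, y, hy, hxy⟩ := hab
      have hxZ : x ∈ P ⊓ Subgroup.centralizer (P : Set G) := by rw [h]; exact hx
      exact hxy ((Subgroup.mem_centralizer_iff.1 hxZ.2 y hy).symm)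
    have hZa : a ∈ Subgroup.normalizer
        ((P ⊓ Subgroup.centralizer (P : Set G) : Subgroup G) : Set G) :=
      normalizer_inf_centralizer haN haN
    have hZc := hsub _ hZP hZne hZa
    have central_of : ∀ N : Subgroup G, N ≤ P → N ≠ P → P ≤ Subgroup.normalizer (N : Set G) →
        a ∈ Subgroup.normalizer (N : Set G) → P ≤ Subgroup.centralizer (N : Set G) := by
      intro N hNP hNne hPN haNn
      by_contra hnot
      have hDne : P ⊓ Subgroup.centralizer (N : Set G) ≠ P := fun h => hnot (h ▸ inf_le_right)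
      have hDc := hsub _ inf_le_left hDne (normalizer_inf_centralizer haN haNn)
      have hNc := hsub N hNP hNne haNn
      obtain ⟨x, hx, hxa⟩ := hcon
      apply hxa
      apply star x hx
      exact (hDc _ ⟨hzP x hx, comm_mem_centralizer (hPN hx) hNc⟩).symm
    have hder_ne : ⁅P, P⁆ ≠ P := by
      intro h
      have : Nontrivial P := by
        obtain ⟨x, hx, y, hy, hxy⟩ := hab
        refine ⟨⟨⟨x, hx⟩, 1, ?_⟩⟩
        intro h1
        have : x = 1 := congrArg Subtype.val h1
        subst this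
        simp at hxy
      have : Group.IsNilpotent P := hP.isNilpotent
      have hlt := Group.IsSolvable.commutator_lt_top_of_nontrivial (G := P)
      have : (commutator P).map P.subtype = (⊤ : Subgroup P).map P.subtype := by
        rw [Subgroup.map_subtype_commutator, h, ← MonoidHom.range_eq_map, Subgroup.range_subtype]
      exact hlt.ne (Subgroup.map_injective P.subtype_injective this)
    have hcl := central_of ⁅P, P⁆ (Subgroup.commutator_le_self P) hder_ne
      (Subgroup.le_normalizer.trans (normalizer_le_normalizer_commutator P))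
      (normalizer_le_normalizer_commutator P haN)
    have hcZ : ∀ x ∈ P, ∀ y ∈ P,
        y * x * y⁻¹ * x⁻¹ ∈ P ⊓ Subgroup.centralizer (P : Set G) := by
      intro x hx y hy
      have h1 : y * x * y⁻¹ * x⁻¹ ∈ ⁅P, P⁆ := by
        have := Subgroup.commutator_mem_commutator hy hx
        rwa [commutatorElement_def] at this
      refine Subgroup.mem_inf.2 ⟨Subgroup.commutator_le_self P h1, ?_⟩
      rw [Subgroup.mem_centralizer_iff]
      intro z hz
      exact ((Subgroup.mem_centralizer_iff.1 (hcl hz)) _ h1).symm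
    have hcomm : ∀ x ∈ P, ∀ y ∈ P, ∀ z ∈ P, Commute (y * x * y⁻¹ * x⁻¹) z := by
      intro x hx y hy z hz
      exact ((Subgroup.mem_centralizer_iff.1 (hcZ x hx y hy).2) z hz).symm
    let T : Subgroup G :=
      { carrier := {x | x ∈ P ∧ x ^ p ∈ P ⊓ Subgroup.centralizer (P : Set G)}
        one_mem' := ⟨P.one_mem, by rw [one_pow]; exact Subgroup.one_mem _⟩
        mul_mem' := by
          rintro x y ⟨hx, hxp⟩ ⟨hy, hyp⟩
          refine ⟨P.mul_mem hx hy, ?_⟩
          rw [mul_pow_class2 x y (hcomm x hx y hy x hx) (hcomm x hx y hy y hy)]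
          exact Subgroup.mul_mem _ (Subgroup.mul_mem _ hxp hyp)
            (Subgroup.pow_mem _ (hcZ x hx y hy) _)
        inv_mem' := by
          rintro x ⟨hx, hxp⟩
          exact ⟨P.inv_mem hx, by rw [inv_pow]; exact Subgroup.inv_mem _ hxp⟩ }
    have hTP : T ≤ P := fun x hx => hx.1
    have hTa : a ∈ Subgroup.normalizer (T : Set G) := by
      rw [Subgroup.mem_normalizer_iff]
      intro x
      constructor
      · rintro ⟨h1, h2⟩
        refine ⟨hconj x h1, ?_⟩
        rw [conj_pow]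
        exact (Subgroup.mem_normalizer_iff.1 hZa _).1 h2
      · rintro ⟨h1, h2⟩
        refine ⟨(Subgroup.mem_normalizer_iff.1 haN x).2 h1, ?_⟩
        rw [conj_pow] at h2
        exact (Subgroup.mem_normalizer_iff.1 hZa _).2 h2
    by_cases hT : T = P
    · have hpc : ∀ x ∈ P, x ^ p ∈ P ⊓ Subgroup.centralizer (P : Set G) := by
        intro x hx
        have : x ∈ T := hT ▸ hx
        exact this.2
      have hcp : ∀ x ∈ P, ∀ y ∈ P, (y * x * y⁻¹ * x⁻¹) ^ p = 1 := by
        intro x hx y hy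
        have h1 := pow_mul_class2 x y (hcomm x hx y hy x hx) (hcomm x hx y hy y hy) p
        have h2 : y ^ p * x = x * y ^ p :=
          (Subgroup.mem_centralizer_iff.1 (hpc y hy).2 x hx).symm
        rw [h2, mul_assoc] at h1
        exact mul_eq_right.1 h1.symm
      have key : ∀ j, ∀ x ∈ P, x ^ (p ^ j) = 1 → a * x = x * a := by
        intro j
        induction j with
        | zero =>
          intro x hx h1
          simp only [pow_zero, pow_one] at h1
          subst h1; simp
        | succ j ihj =>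
          intro x hx h1
          have hxp : a * x ^ p = x ^ p * a :=
            ihj _ (P.pow_mem hx p) (by rw [← pow_mul, ← pow_succ']; exact h1)
          apply star x hx
          have hv : a * x⁻¹ * a⁻¹ ∈ P := hconj _ (P.inv_mem hx)
          have hzp : (x * a * x⁻¹ * a⁻¹) ^ p = 1 := by
            rw [hzpow x hx hxp (hcomm x hx _ hv x hx) (hcomm x hx _ hv _ hv)]
            obtain ⟨m, hm⟩ := (Fact.out : p.Prime).dvd_choose_self (k := 2) (by norm_num)
              (lt_of_le_of_ne (Fact.out : p.Prime).two_le (Ne.symm hp))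
            rw [hm, pow_mul, hcp x hx _ hv, one_pow]
          exact (hfix _ (hzP x hx) hzp).symm
      obtain ⟨x, hx, hxa⟩ := hcon
      exact hxa (key e x hx (hpow x hx))
    · have hTc := hsub T hTP hT hTa
      have key : ∀ j, ∀ x ∈ P, x ^ (p ^ j) ∈ P ⊓ Subgroup.centralizer (P : Set G) →
          a * x = x * a := by
        intro j
        induction j with
        | zero =>
          intro x hx h1
          simp only [pow_zero, pow_one] at h1
          exact hZc x h1
        | succ j ihj =>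
          intro x hx h1
          have hxp : a * x ^ p = x ^ p * a :=
            ihj _ (P.pow_mem hx p) (by rw [← pow_mul, ← pow_succ']; exact h1)
          apply star x hx
          have hv : a * x⁻¹ * a⁻¹ ∈ P := hconj _ (P.inv_mem hx)
          have hzT : x * a * x⁻¹ * a⁻¹ ∈ T := by
            refine ⟨hzP x hx, ?_⟩
            rw [hzpow x hx hxp (hcomm x hx _ hv x hx) (hcomm x hx _ hv _ hv)]
            exact Subgroup.pow_mem _ (hcZ x hx _ hv) _
          exact (hTc _ hzT).symm
      obtain ⟨x, hx, hxa⟩ := hcon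
      exact hxa (key e x hx (by rw [hpow x hx]; exact Subgroup.one_mem _))

/-- Let G be a finite group, p an odd prime, H a p-subgroup, E an elementary abelian subgroup of H, and A a subgroup of order coprime to p normalizing H. If A centralizes every element of order p in H ∩ C_G(E), then A centralizes H. -/
theorem result {G : Type*} [Group G] [Finite G] (p : ℕ) [Fact p.Prime] (hp : p ≠ 2) (H E A : Subgroup G) (hH : IsPGroup p H) (hE : E ≤ H) (hEe : Cfsg.IsElementaryAbelian p E)
    (hA : (A ≤ Subgroup.normalizer (H : Set G))) (hcop : (Nat.card A).Coprime p)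
    (hfix : ∀ x ∈ (H ⊓ Subgroup.centralizer (E : Set G)), orderOf x = p → A ≤ Subgroup.centralizer ({x} : Set G)) :
    A ≤ Subgroup.centralizer (H : Set G) := by
  intro a ha
  have hk : a ^ Nat.card A = 1 := by
    have := pow_card_eq_one' (G := A) (x := ⟨a, ha⟩)
    exact congrArg Subtype.val this
  have haN : a ∈ Subgroup.normalizer (H : Set G) := hA ha
  have hconj : ∀ x ∈ H, a * x * a⁻¹ ∈ H := fun x hx => (Subgroup.mem_normalizer_iff.1 haN x).1 hx
  have hfix' : ∀ x ∈ H ⊓ Subgroup.centralizer (E : Set G), x ^ p = 1 → a * x = x * a := by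
    intro x hx hxp
    have hdvd : orderOf x ∣ p := orderOf_dvd_of_pow_eq_one hxp
    rcases (Nat.dvd_prime Fact.out).1 hdvd with h1 | h1
    · rw [orderOf_eq_one_iff] at h1; subst h1; simp
    · have := hfix x hx h1 ha
      rw [Subgroup.mem_centralizer_iff] at this
      exact (this x rfl).symm
  have hEcomm : ∀ x ∈ E, ∀ y ∈ E, x * y = y * x := by
    intro x hx y hy
    have h := isMulCommutative_iff.1 hEe.1 ⟨x, hx⟩ ⟨y, hy⟩
    exact congrArg Subtype.val h
  have hEc : ∀ b ∈ E, a * b = b * a := by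
    intro b hb
    apply hfix' b (Subgroup.mem_inf.2 ⟨hE hb, ?_⟩) (hEe.2 b hb)
    rw [Subgroup.mem_centralizer_iff]
    intro y hy
    exact hEcomm y hy b hb
  have haE : a ∈ Subgroup.normalizer (E : Set G) := by
    rw [Subgroup.mem_normalizer_iff]
    intro h
    constructor
    · intro hh
      have : a * h * a⁻¹ = h := by rw [hEc h hh]; group
      rw [this]; exact hh
    · intro hh
      have h1 := hEc _ hh
      have : a * h * a⁻¹ = h := by
        have h2 : a * h * a⁻¹ = a⁻¹ * (a * (a * h * a⁻¹)) := by group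
        rw [h2, h1]; group
      rw [← this]; exact hh
  have hC := L1 p hp a (Nat.card A) hk hcop _ (H ⊓ Subgroup.centralizer (E : Set G)) rfl
    (hH.to_le inf_le_left) (normalizer_inf_centralizer haN haE) hfix'
  obtain ⟨e, he⟩ := (IsPGroup.iff_card.1 hH)
  have hpow : ∀ x ∈ H, x ^ (p ^ e) = 1 := by
    intro x hx
    have := pow_card_eq_one' (G := H) (x := ⟨x, hx⟩)
    rw [he] at this
    exact congrArg Subtype.val this
  have hnil : Group.IsNilpotent H := hH.isNilpotent
  have hnc : NormalizerCondition H := Group.normalizerCondition_of_isNilpotent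
  rw [normalizerCondition_iff_only_full_group_self_normalizing] at hnc
  have htop : (Subgroup.centralizer ({a} : Set G)).subgroupOf H = ⊤ := by
    apply hnc
    apply le_antisymm _ Subgroup.le_normalizer
    intro x hx
    rw [Subgroup.mem_subgroupOf, Subgroup.mem_centralizer_iff]
    intro a' ha'
    rw [Set.mem_singleton_iff] at ha'
    subst ha'
    have hwH : (x : G)⁻¹ * a' * (x : G)⁻¹⁻¹ * a'⁻¹ ∈ H := by
      have : (x : G)⁻¹ * a' * (x : G)⁻¹⁻¹ * a'⁻¹ = (x : G)⁻¹ * (a' * (x : G) * a'⁻¹) := by group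
      rw [this]
      exact H.mul_mem (H.inv_mem x.2) (hconj _ x.2)
    have hwE : (x : G)⁻¹ * a' * (x : G)⁻¹⁻¹ * a'⁻¹ ∈ Subgroup.centralizer (E : Set G) := by
      rw [Subgroup.mem_centralizer_iff]
      intro b hb
      have hbS : (⟨b, hE hb⟩ : H) ∈ (Subgroup.centralizer ({a'} : Set G)).subgroupOf H := by
        rw [Subgroup.mem_subgroupOf, Subgroup.mem_centralizer_iff]
        intro a'' ha''
        rw [Set.mem_singleton_iff] at ha''
        subst ha''
        exact hEc b hb
      have h1 := (Subgroup.mem_normalizer_iff.1 hx ⟨b, hE hb⟩).1 hbS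
      rw [Subgroup.mem_subgroupOf, Subgroup.mem_centralizer_iff] at h1
      have h2 : a' * ((x : G) * b * (x : G)⁻¹) = ((x : G) * b * (x : G)⁻¹) * a' := by
        have := h1 a' rfl
        simpa using this
      have h3 : a' * b = b * a' := hEc b hb
      have h4 : a'⁻¹ * b = b * a'⁻¹ := by
        rw [eq_mul_inv_iff_mul_eq, mul_assoc, ← h3, ← mul_assoc, inv_mul_cancel, one_mul]
      calc b * ((x : G)⁻¹ * a' * (x : G)⁻¹⁻¹ * a'⁻¹)
          = (x : G)⁻¹ * (((x : G) * b * (x : G)⁻¹) * a') * (x : G) * a'⁻¹ := by group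
        _ = (x : G)⁻¹ * (a' * ((x : G) * b * (x : G)⁻¹)) * (x : G) * a'⁻¹ := by rw [h2]
        _ = (x : G)⁻¹ * a' * (x : G) * (b * a'⁻¹) := by group
        _ = (x : G)⁻¹ * a' * (x : G) * (a'⁻¹ * b) := by rw [h4]
        _ = (x : G)⁻¹ * a' * (x : G)⁻¹⁻¹ * a'⁻¹ * b := by group
    have hcomm : Commute ((x : G)⁻¹ * a' * (x : G)⁻¹⁻¹ * a'⁻¹) a' :=
      (hC _ (Subgroup.mem_inf.2 ⟨hwH, hwE⟩)).symm
    have h1 := comm_eq_one hk hcomm (hpow _ hwH) (Nat.Coprime.pow_right e hcop)
    rw [mul_inv_eq_one, mul_inv_eq_iff_eq_mul] at h1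
    calc a' * (x : G) = (x : G) * ((x : G)⁻¹ * a') * (x : G) := by group
      _ = (x : G) * (a' * (x : G)⁻¹) * (x : G) := by rw [h1]
      _ = (x : G) * a' := by group
  rw [Subgroup.subgroupOf_eq_top] at htop
  rw [Subgroup.mem_centralizer_iff]
  intro h hh
  exact ((Subgroup.mem_centralizer_iff.1 (htop hh)) a rfl).symm

end Cfsg.Agent.S1443
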