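import Cfsg.Statements.S1446
import Cfsg.Agent.Lib.Helper26.FrobCyc4

set_option autoImplicit false
open Cfsg

namespace Cfsg.Agent.S1446

/-- Let X be a finite group with subgroups K, R, M such that: K and R are nontrivial, K ∩ R = 1, R normalizes K, no non-identity element of R centralizes a non-identity element of K, K ⊔ R is solvable of odd order; M is nilpotent and nontrivial, normalized by K and by R, with order coprime to that of K ⊔ R, M ∩ C(K) = 1, and M ∩ C(x) = M ∩ C(R) for all non-identity x ∈ R. Then R has prime order p, #M = #(M ∩ C(R)) ^ p, and if M ∩ C(R) is cyclic then [K, K] centralizes M. -/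
theorem result {X : Type*} [Group X] [Finite X] (K R M : Subgroup X) (hK1 : K ≠ ⊥) (hR1 : R ≠ ⊥) (hKR : K ⊓ R = ⊥)
    (hRK : R ≤ Subgroup.normalizer (K : Set X)) (hfrob : ∀ r ∈ R, r ≠ 1 → K ⊓ Subgroup.centralizer ({r} : Set X) = ⊥)
    (hsolv : Group.IsSolvable ↥(K ⊔ R)) (hodd : Odd (Nat.card ↥(K ⊔ R)))
    (hM1 : M ≠ ⊥) (hMn : Group.IsNilpotent M) (hKM : K ≤ Subgroup.normalizer (M : Set X)) (hRM : R ≤ Subgroup.normalizer (M : Set X))
    (hcop : (Nat.card ↥(K ⊔ R)).Coprime (Nat.card M)) (hCK : M ⊓ Subgroup.centralizer (K : Set X) = ⊥)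
    (hpr : ∀ x ∈ R, x ≠ 1 → M ⊓ Subgroup.centralizer ({x} : Set X) = M ⊓ Subgroup.centralizer (R : Set X)) :
    (Nat.card R).Prime ∧ Nat.card M = Nat.card ↥(M ⊓ Subgroup.centralizer (R : Set X)) ^ Nat.card R ∧
      (IsCyclic ↥(M ⊓ Subgroup.centralizer (R : Set X)) → ⁅K, K⁆ ≤ Subgroup.centralizer (M : Set X)) := by
  have hHyp : ∀ E' : Subgroup X, E' ≤ R → Cfsg.Agent.Lib.Helper26.FrobHyp K E' M := by
    intro E' hE'
    refine ⟨?_, ?_, ?_, ?_, ?_⟩
    · intro e he u hu
      exact (Subgroup.mem_normalizer_iff.mp (hRK (hE' he)) u).mp hu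
    · intro e he hne u hu hc
      have h1 : u ∈ K ⊓ Subgroup.centralizer ({e} : Set X) :=
        ⟨hu, Subgroup.mem_centralizer_iff.mpr (by
          intro h hh
          rw [Set.mem_singleton_iff.mp hh]
          exact hc)⟩
      rw [hfrob e (hE' he) hne] at h1
      exact Subgroup.mem_bot.mp h1
    · intro x hx h hh
      have hxN : x ∈ Subgroup.normalizer (M : Set X) := (sup_le hKM (hE'.trans hRM)) hx
      exact (Subgroup.mem_normalizer_iff.mp hxN h).mp hh
    · haveI := hMn
      infer_instance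
    · exact (Nat.Coprime.coprime_dvd_left
        (Subgroup.card_dvd_of_le (sup_le_sup_left hE' K)) hcop).symm
  have hform : ∀ E' : Subgroup X, E' ≤ R →
      Nat.card M = Nat.card ↥(M ⊓ Subgroup.centralizer (E' : Set X)) ^ Nat.card E' := by
    intro E' hE'
    have h1 := Cfsg.Agent.Lib.Helper26.frob_main _ X K E' M rfl (hHyp E' hE')
    unfold Cfsg.Agent.Lib.Helper26.FrobFormula at h1
    have h2 : M ⊓ Subgroup.centralizer ((K ⊔ E' : Subgroup X) : Set X) = ⊥ := by
      rw [eq_bot_iff, ← hCK]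
      exact inf_le_inf_left _ (Subgroup.centralizer_le
        (SetLike.coe_subset_coe.mpr (le_sup_left : K ≤ K ⊔ E')))
    rw [h2, hCK, Subgroup.card_bot, one_pow, one_mul, mul_one] at h1
    exact h1
  have hM2 : 2 ≤ Nat.card M := (Subgroup.one_lt_card_iff_ne_bot M).mpr hM1
  have hc2 : 2 ≤ Nat.card ↥(M ⊓ Subgroup.centralizer (R : Set X)) := by
    by_contra hlt
    have hpos : 0 < Nat.card ↥(M ⊓ Subgroup.centralizer (R : Set X)) := Nat.card_pos
    have h1 : Nat.card ↥(M ⊓ Subgroup.centralizer (R : Set X)) = 1 := by omega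
    have h2 := hform R le_rfl
    rw [h1, one_pow] at h2
    omega
  have hord : ∀ x ∈ R, x ≠ 1 → orderOf x = Nat.card R := by
    intro x hx hx1
    have h1 := hform (Subgroup.zpowers x) (Subgroup.zpowers_le.mpr hx)
    have h2 : M ⊓ Subgroup.centralizer ((Subgroup.zpowers x : Subgroup X) : Set X) =
        M ⊓ Subgroup.centralizer (R : Set X) := by
      rw [Subgroup.zpowers_eq_closure, Subgroup.centralizer_closure, hpr x hx hx1]
    rw [h2, Nat.card_zpowers, hform R le_rfl] at h1
    exact (Nat.pow_right_injective hc2 h1).symm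
  have hprime : (Nat.card R).Prime := by
    have hcard : Nat.card R ≠ 1 := fun h1 => hR1 (Subgroup.eq_bot_of_card_eq R h1)
    obtain ⟨p, hp, hpd⟩ := Nat.exists_prime_and_dvd hcard
    haveI : Fact p.Prime := ⟨hp⟩
    obtain ⟨x, hx⟩ := exists_prime_orderOf_dvd_card' p hpd
    have hx' : orderOf (x : X) = p := by rw [Subgroup.orderOf_coe, hx]
    have hx1 : (x : X) ≠ 1 := by
      intro h1
      rw [h1, orderOf_one] at hx'
      exact hp.one_lt.ne hx'
    rw [← hord x x.2 hx1, hx']
    exact hp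
  refine ⟨hprime, hform R le_rfl, fun hcyc => ?_⟩
  exact Cfsg.Agent.Lib.Helper26.frob_cyc_main _ X K R M rfl ⟨hHyp R le_rfl, hCK, hcyc, hprime⟩

end Cfsg.Agent.S1446
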