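import Cfsg.Statements.S1447
import Mathlib
import Cfsg.Agent.S0026
import Cfsg.Agent.S0027
import Cfsg.Agent.S0055
import Cfsg.Agent.Lib.Helper72.Frattini

set_option autoImplicit false
open Cfsg
open scoped commutatorElement

namespace Cfsg.Agent.S1447

/-- class-2 hypothesis package: commutators are central and have `p`-th power one. -/
structure Cl2 (p : ℕ) (Q : Type*) [Group Q] : Prop where
  cl : ∀ u v w : Q, ⁅u, v⁆ * w = w * ⁅u, v⁆
  ex : ∀ u v : Q, ⁅u, v⁆ ^ p = 1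

section Abstract
variable {Q : Type*} [Group Q] {p : ℕ}

namespace Cl2

theorem comm_mul_left (h : Cl2 p Q) (u u' v : Q) : ⁅u * u', v⁆ = ⁅u, v⁆ * ⁅u', v⁆ := by
  have h1 : ⁅u * u', v⁆ = u * ⁅u', v⁆ * (v * u⁻¹ * v⁻¹) := by
    simp only [commutatorElement_def]; group
  rw [h1, mul_assoc, h.cl u' v (v * u⁻¹ * v⁻¹)]
  simp only [commutatorElement_def]; group

/-- `w ↦ ⁅w, v⁆` as a homomorphism into the centre. -/
def kap (h : Cl2 p Q) (v : Q) : Q →* Subgroup.center Q where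
  toFun u := ⟨⁅u, v⁆, Subgroup.mem_center_iff.2 fun g => (h.cl u v g).symm⟩
  map_one' := by ext; simp
  map_mul' u u' := by ext; simp [h.comm_mul_left]

theorem kap_val (h : Cl2 p Q) (v u : Q) : ((h.kap v u : Subgroup.center Q) : Q) = ⁅u, v⁆ := rfl

theorem comm_zpow_left (h : Cl2 p Q) (u v : Q) (n : ℤ) : ⁅u ^ n, v⁆ = ⁅u, v⁆ ^ n := by
  have := congrArg Subtype.val (map_zpow (h.kap v) u n)
  simpa [kap] using this

theorem comm_pow_left (h : Cl2 p Q) (u v : Q) (n : ℕ) : ⁅u ^ n, v⁆ = ⁅u, v⁆ ^ n := by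
  have := congrArg Subtype.val (map_pow (h.kap v) u n)
  simpa [kap] using this

theorem comm_inv_left (h : Cl2 p Q) (u v : Q) : ⁅u⁻¹, v⁆ = ⁅u, v⁆⁻¹ := by
  have := congrArg Subtype.val (map_inv (h.kap v) u)
  simpa [kap] using this

theorem comm_mul_right (h : Cl2 p Q) (u v v' : Q) : ⁅u, v * v'⁆ = ⁅u, v⁆ * ⁅u, v'⁆ := by
  rw [← commutatorElement_inv (v * v') u, h.comm_mul_left, mul_inv_rev, commutatorElement_inv,
    commutatorElement_inv, h.cl]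

theorem comm_zpow_right (h : Cl2 p Q) (u v : Q) (n : ℤ) : ⁅u, v ^ n⁆ = ⁅u, v⁆ ^ n := by
  rw [← commutatorElement_inv (v ^ n) u, h.comm_zpow_left, ← inv_zpow, commutatorElement_inv]

theorem comm_inv_right (h : Cl2 p Q) (u v : Q) : ⁅u, v⁻¹⁆ = ⁅u, v⁆⁻¹ := by
  rw [← commutatorElement_inv (v⁻¹) u, h.comm_inv_left, commutatorElement_inv]

theorem comm_central_left (s v : Q) (hs : s ∈ Subgroup.center Q) : ⁅s, v⁆ = 1 := by
  rw [commutatorElement_eq_one_iff_commute]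
  exact (Subgroup.mem_center_iff.1 hs v).symm

theorem comm_central_right (s v : Q) (hs : s ∈ Subgroup.center Q) : ⁅v, s⁆ = 1 := by
  rw [commutatorElement_eq_one_iff_commute]
  exact (Subgroup.mem_center_iff.1 hs v)

/-- commutator of two normal forms -/
theorem comm_nf (h : Cl2 p Q) (g k : Q) (a b a' b' : ℤ) (s s' : Q)
    (hs : s ∈ Subgroup.center Q) (hs' : s' ∈ Subgroup.center Q) :
    ⁅g ^ a * k ^ b * s, g ^ a' * k ^ b' * s'⁆ = ⁅g, k⁆ ^ (a * b' - b * a') := by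
  have e1 : ∀ r : Q, ⁅g ^ a * k ^ b * s, r⁆ = ⁅g, r⁆ ^ a * ⁅k, r⁆ ^ b := by
    intro r
    rw [h.comm_mul_left, h.comm_mul_left, h.comm_zpow_left, h.comm_zpow_left,
      comm_central_left s r hs, mul_one]
  have e2 : ∀ r : Q, ⁅r, g ^ a' * k ^ b' * s'⁆ = ⁅r, g⁆ ^ a' * ⁅r, k⁆ ^ b' := by
    intro r
    rw [h.comm_mul_right, h.comm_mul_right, h.comm_zpow_right, h.comm_zpow_right,
      comm_central_right s' r hs', mul_one]
  rw [e1, e2, e2, commutatorElement_self, commutatorElement_self, one_zpow, one_zpow, one_mul,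
    mul_one, ← commutatorElement_inv g k, ← zpow_mul, ← zpow_mul, inv_zpow', ← zpow_add]
  congr 1; ring

theorem mul_comm_pow (h : Cl2 p Q) (u v : Q) (n : ℕ) : v ^ n * u = ⁅v, u⁆ ^ n * u * v ^ n := by
  have : v ^ n * u = ⁅v ^ n, u⁆ * u * v ^ n := by
    simp only [commutatorElement_def]; group
  rw [this, h.comm_pow_left]

theorem mul_pow_choose (h : Cl2 p Q) (u v : Q) (n : ℕ) :
    (u * v) ^ n = u ^ n * v ^ n * ⁅v, u⁆ ^ (n.choose 2) := by
  induction n with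
  | zero => simp
  | succ n ih =>
    have hc : ∀ (m : ℕ) (w : Q), ⁅v, u⁆ ^ m * w = w * ⁅v, u⁆ ^ m := by
      intro m w
      exact ((Commute.pow_left (h.cl v u w) m)).eq
    have e : Nat.choose (n + 1) 2 = n + Nat.choose n 2 := by
      rw [Nat.choose_succ_succ' n 1]; simp
    rw [pow_succ (u * v), ih, e]
    calc u ^ n * v ^ n * ⁅v, u⁆ ^ n.choose 2 * (u * v)
        = u ^ n * v ^ n * (⁅v, u⁆ ^ n.choose 2 * (u * v)) := by group
      _ = u ^ n * v ^ n * ((u * v) * ⁅v, u⁆ ^ n.choose 2) := by rw [hc]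
      _ = u ^ n * (v ^ n * u) * v * ⁅v, u⁆ ^ n.choose 2 := by group
      _ = u ^ n * (⁅v, u⁆ ^ n * u * v ^ n) * v * ⁅v, u⁆ ^ n.choose 2 := by
          rw [h.mul_comm_pow u v n]
      _ = u ^ n * (⁅v, u⁆ ^ n * (u * v ^ n * v)) * ⁅v, u⁆ ^ n.choose 2 := by group
      _ = u ^ n * ((u * v ^ n * v) * ⁅v, u⁆ ^ n) * ⁅v, u⁆ ^ n.choose 2 := by rw [hc]
      _ = u ^ (n + 1) * v ^ (n + 1) * ⁅v, u⁆ ^ (n + n.choose 2) := by
          rw [pow_add ⁅v, u⁆, pow_succ u, pow_succ v]; group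

theorem pow_p_mul (h : Cl2 p Q) [hpp : Fact p.Prime] (hp : p ≠ 2) (u v : Q) :
    (u * v) ^ p = u ^ p * v ^ p := by
  rw [h.mul_pow_choose]
  have h2 : p ∣ p.choose 2 := by
    apply Nat.Prime.dvd_choose_self hpp.out (by norm_num)
    have := hpp.out.two_le
    omega
  obtain ⟨m, hm⟩ := h2
  rw [hm, pow_mul, h.ex, one_pow, mul_one]

theorem pow_pi_mul (h : Cl2 p Q) [hpp : Fact p.Prime] (hp : p ≠ 2) (i : ℕ) (u v : Q) :
    (u * v) ^ (p ^ i) = u ^ (p ^ i) * v ^ (p ^ i) := by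
  induction i with
  | zero => simp
  | succ i ih => rw [pow_succ, pow_mul, ih, h.pow_p_mul hp, ← pow_mul, ← pow_mul]

/-- the `p^i`-th power endomorphism -/
def pwi (h : Cl2 p Q) [Fact p.Prime] (hp : p ≠ 2) (i : ℕ) : Q →* Q where
  toFun u := u ^ (p ^ i)
  map_one' := one_pow _
  map_mul' := h.pow_pi_mul hp i

theorem pwi_apply (h : Cl2 p Q) [Fact p.Prime] (hp : p ≠ 2) (i : ℕ) (u : Q) :
    h.pwi hp i u = u ^ (p ^ i) := rfl

theorem pow_p_central (h : Cl2 p Q) (u : Q) : u ^ p ∈ Subgroup.center Q := by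
  rw [Subgroup.mem_center_iff]
  intro g
  have : ⁅u ^ p, g⁆ = 1 := by rw [h.comm_pow_left, h.ex]
  exact ((commutatorElement_eq_one_iff_commute.1 this).eq).symm

theorem range_le_center (h : Cl2 p Q) [Fact p.Prime] (hp : p ≠ 2) :
    (h.pwi hp 1).range ≤ Subgroup.center Q := by
  rintro _ ⟨w, rfl⟩
  rw [pwi_apply, pow_one]
  exact h.pow_p_central w

theorem comm_mem (h : Cl2 p Q) {x y : Q} (hgen : Subgroup.closure {x, y} = ⊤) (u v : Q) :
    ⁅u, v⁆ ∈ Subgroup.zpowers ⁅x, y⁆ := by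
  have key : ∀ g ∈ ({x, y} : Set Q), ∀ v : Q, ⁅g, v⁆ ∈ Subgroup.zpowers ⁅x, y⁆ := by
    intro g hg' v
    have hv : v ∈ Subgroup.closure {x, y} := hgen ▸ Subgroup.mem_top v
    induction hv using Subgroup.closure_induction with
    | mem w hw =>
      rcases hg' with hgx | hgx <;> rcases hw with hwx | hwx
      · rw [hgx, hwx]; simp
      · rw [hgx, Set.mem_singleton_iff.1 hwx]; exact Subgroup.mem_zpowers _
      · rw [Set.mem_singleton_iff.1 hgx, hwx]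
        have := inv_mem (Subgroup.mem_zpowers ⁅x, y⁆)
        rwa [commutatorElement_inv] at this
      · rw [Set.mem_singleton_iff.1 hgx, Set.mem_singleton_iff.1 hwx]; simp
    | one => simp
    | mul a b _ _ ha hb => rw [h.comm_mul_right]; exact mul_mem ha hb
    | inv a _ ha => rw [h.comm_inv_right]; exact inv_mem ha
  have hu : u ∈ Subgroup.closure {x, y} := hgen ▸ Subgroup.mem_top u
  induction hu using Subgroup.closure_induction with
  | mem w hw => exact key w hw v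
  | one => simp
  | mul a b _ _ ha hb => rw [h.comm_mul_left]; exact mul_mem ha hb
  | inv a _ ha => rw [h.comm_inv_left]; exact inv_mem ha

/-- the subgroup of `p`-th powers -/
abbrev P1 (h : Cl2 p Q) [Fact p.Prime] (hp : p ≠ 2) : Subgroup Q := (h.pwi hp 1).range

theorem mem_P1 (h : Cl2 p Q) [Fact p.Prime] (hp : p ≠ 2) {s : Q} :
    s ∈ h.P1 hp ↔ ∃ w : Q, w ^ p = s := by
  rw [MonoidHom.mem_range]
  simp only [pwi_apply, pow_one]

theorem pow_mem_P1 (h : Cl2 p Q) [Fact p.Prime] (hp : p ≠ 2) (w : Q) : w ^ p ∈ h.P1 hp :=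
  (h.mem_P1 hp).2 ⟨w, rfl⟩

theorem P1_central (h : Cl2 p Q) [Fact p.Prime] (hp : p ≠ 2) {s : Q} (hs : s ∈ h.P1 hp) :
    s ∈ Subgroup.center Q := h.range_le_center hp hs

theorem zpow_mul_mem_P1 (h : Cl2 p Q) [Fact p.Prime] (hp : p ≠ 2) (w : Q) {a : ℤ}
    (ha : (p : ℤ) ∣ a) : w ^ a ∈ h.P1 hp := by
  obtain ⟨a', rfl⟩ := ha
  rw [zpow_mul, zpow_natCast]
  exact zpow_mem (h.pow_mem_P1 hp w) a'

end Cl2

/-- generator data for a class-2 group -/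
structure Gen (h : Cl2 p Q) [Fact p.Prime] (hp : p ≠ 2) (x y : Q) : Prop where
  gen : Subgroup.closure {x, y} = ⊤
  ne : ⁅x, y⁆ ≠ 1
  pw : ⁅x, y⁆ ∈ h.P1 hp

namespace Gen
variable {h : Cl2 p Q} [hpp : Fact p.Prime] {hp : p ≠ 2} {x y : Q}

theorem comm_mem (hg : Gen h hp x y) (u v : Q) : ⁅u, v⁆ ∈ Subgroup.zpowers ⁅x, y⁆ :=
  h.comm_mem hg.gen u v

theorem comm_mem_P1 (hg : Gen h hp x y) (u v : Q) : ⁅u, v⁆ ∈ h.P1 hp := by
  obtain ⟨n, hn⟩ := Subgroup.mem_zpowers_iff.1 (hg.comm_mem u v)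
  rw [← hn]
  exact zpow_mem hg.pw n

theorem orderOf_z (hg : Gen h hp x y) : orderOf ⁅x, y⁆ = p :=
  orderOf_eq_prime (h.ex x y) hg.ne

theorem zpow_eq_one_iff (hg : Gen h hp x y) (n : ℤ) : ⁅x, y⁆ ^ n = 1 ↔ (p : ℤ) ∣ n := by
  rw [← orderOf_dvd_iff_zpow_eq_one, hg.orderOf_z]

/-- the set of normal forms `g^a k^b s` with `s` a `p`-th power, as a subgroup -/
def nf (hg : Gen h hp x y) (g k : Q) : Subgroup Q where
  carrier := {w | ∃ a b : ℤ, ∃ s ∈ h.P1 hp, w = g ^ a * k ^ b * s}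
  one_mem' := ⟨0, 0, 1, one_mem _, by simp⟩
  mul_mem' := by
    rintro _ _ ⟨a, b, s, hs, rfl⟩ ⟨a', b', s', hs', rfl⟩
    refine ⟨a + a', b + b', ⁅k ^ b, g ^ a'⁆ * s * s',
      mul_mem (mul_mem (hg.comm_mem_P1 _ _) hs) hs', ?_⟩
    rw [zpow_add, zpow_add]
    have hsc : ∀ w : Q, s * w = w * s := fun w =>
      (Subgroup.mem_center_iff.1 (h.P1_central hp hs) w).symm
    generalize g ^ a = A
    generalize k ^ b = K
    generalize g ^ a' = A'
    generalize k ^ b' = K'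
    have hcc : ∀ w : Q, ⁅K, A'⁆ * w = w * ⁅K, A'⁆ := h.cl K A'
    have e1 : K * A' = ⁅K, A'⁆ * A' * K := by simp [commutatorElement_def]
    calc A * K * s * (A' * K' * s') = A * K * (s * (A' * K')) * s' := by group
      _ = A * K * ((A' * K') * s) * s' := by rw [hsc]
      _ = A * (K * A') * K' * s * s' := by group
      _ = A * (⁅K, A'⁆ * A' * K) * K' * s * s' := by rw [e1]
      _ = A * (⁅K, A'⁆ * (A' * K * K')) * s * s' := by group
      _ = A * ((A' * K * K') * ⁅K, A'⁆) * s * s' := by rw [hcc]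
      _ = A * A' * (K * K') * (⁅K, A'⁆ * s * s') := by group
  inv_mem' := by
    rintro _ ⟨a, b, s, hs, rfl⟩
    refine ⟨-a, -b, ⁅k ^ (-b), g ^ (-a)⁆ * s⁻¹,
      mul_mem (hg.comm_mem_P1 _ _) (inv_mem hs), ?_⟩
    rw [zpow_neg, zpow_neg]
    have hsc : ∀ w : Q, s⁻¹ * w = w * s⁻¹ := fun w =>
      (Subgroup.mem_center_iff.1 (inv_mem (h.P1_central hp hs)) w).symm
    generalize g ^ a = A
    generalize k ^ b = K
    have hcc : ∀ w : Q, ⁅K⁻¹, A⁻¹⁆ * w = w * ⁅K⁻¹, A⁻¹⁆ := h.cl K⁻¹ A⁻¹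
    have e1 : K⁻¹ * A⁻¹ = ⁅K⁻¹, A⁻¹⁆ * (A⁻¹ * K⁻¹) := by simp [commutatorElement_def]
    calc (A * K * s)⁻¹ = s⁻¹ * (K⁻¹ * A⁻¹) := by group
      _ = (K⁻¹ * A⁻¹) * s⁻¹ := by rw [hsc]
      _ = ⁅K⁻¹, A⁻¹⁆ * (A⁻¹ * K⁻¹) * s⁻¹ := by rw [e1]
      _ = (A⁻¹ * K⁻¹) * ⁅K⁻¹, A⁻¹⁆ * s⁻¹ := by rw [hcc]
      _ = A⁻¹ * K⁻¹ * (⁅K⁻¹, A⁻¹⁆ * s⁻¹) := by group

theorem mem_nf (hg : Gen h hp x y) {g k w : Q} :
    w ∈ hg.nf g k ↔ ∃ a b : ℤ, ∃ s ∈ h.P1 hp, w = g ^ a * k ^ b * s := Iff.rfl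

theorem left_mem_nf (hg : Gen h hp x y) (g k : Q) : g ∈ hg.nf g k :=
  ⟨1, 0, 1, one_mem _, by simp⟩

theorem right_mem_nf (hg : Gen h hp x y) (g k : Q) : k ∈ hg.nf g k :=
  ⟨0, 1, 1, one_mem _, by simp⟩

theorem P1_le_nf (hg : Gen h hp x y) (g k : Q) : h.P1 hp ≤ hg.nf g k :=
  fun s hs => ⟨0, 0, s, hs, by simp⟩

theorem nf_xy (hg : Gen h hp x y) : hg.nf x y = ⊤ := by
  rw [eq_top_iff, ← hg.gen, Subgroup.closure_le]
  rintro w (rfl | rfl)
  · exact hg.left_mem_nf _ _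
  · exact hg.right_mem_nf _ _

theorem cent_pair (hg : Gen h hp x y) {g k w : Q} (hgk : ⁅g, k⁆ ≠ 1) (h1 : ⁅w, g⁆ = 1)
    (h2 : ⁅w, k⁆ = 1) : w ∈ h.P1 hp := by
  have hpZ : Prime (p : ℤ) := Nat.prime_iff_prime_int.mp hpp.out
  obtain ⟨a, b, s, hs, rfl⟩ : w ∈ hg.nf x y := hg.nf_xy ▸ Subgroup.mem_top w
  obtain ⟨a₁, b₁, s₁, hs₁, rfl⟩ : g ∈ hg.nf x y := hg.nf_xy ▸ Subgroup.mem_top g
  obtain ⟨a₂, b₂, s₂, hs₂, rfl⟩ : k ∈ hg.nf x y := hg.nf_xy ▸ Subgroup.mem_top k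
  rw [h.comm_nf _ _ _ _ _ _ _ _ (h.P1_central hp hs) (h.P1_central hp hs₁),
    hg.zpow_eq_one_iff] at h1
  rw [h.comm_nf _ _ _ _ _ _ _ _ (h.P1_central hp hs) (h.P1_central hp hs₂),
    hg.zpow_eq_one_iff] at h2
  rw [Ne, h.comm_nf _ _ _ _ _ _ _ _ (h.P1_central hp hs₁) (h.P1_central hp hs₂),
    hg.zpow_eq_one_iff] at hgk
  have ha : (p : ℤ) ∣ a * (a₁ * b₂ - b₁ * a₂) := by
    have := dvd_sub (Dvd.dvd.mul_left h2 a₁) (Dvd.dvd.mul_left h1 a₂)
    have e : a * (a₁ * b₂ - b₁ * a₂) = a₁ * (a * b₂ - b * a₂) - a₂ * (a * b₁ - b * a₁) := by ring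
    rw [e]; exact this
  have hb : (p : ℤ) ∣ b * (a₁ * b₂ - b₁ * a₂) := by
    have := dvd_sub (Dvd.dvd.mul_left h2 b₁) (Dvd.dvd.mul_left h1 b₂)
    have e : b * (a₁ * b₂ - b₁ * a₂) = b₁ * (a * b₂ - b * a₂) - b₂ * (a * b₁ - b * a₁) := by ring
    rw [e]; exact this
  have ha' := (hpZ.dvd_or_dvd ha).resolve_right hgk
  have hb' := (hpZ.dvd_or_dvd hb).resolve_right hgk
  exact mul_mem (mul_mem (h.zpow_mul_mem_P1 hp x ha') (h.zpow_mul_mem_P1 hp y hb')) hs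

theorem nf_top (hg : Gen h hp x y) {g k : Q} (hgk : ⁅g, k⁆ ≠ 1) : hg.nf g k = ⊤ := by
  have hpZ : Prime (p : ℤ) := Nat.prime_iff_prime_int.mp hpp.out
  rw [eq_top_iff]
  intro w _
  obtain ⟨n, hn⟩ := Subgroup.mem_zpowers_iff.1 (hg.comm_mem g k)
  obtain ⟨a, ha⟩ := Subgroup.mem_zpowers_iff.1 (hg.comm_mem w k)
  obtain ⟨b, hb⟩ := Subgroup.mem_zpowers_iff.1 (hg.comm_mem w g)
  have hn' : ¬ (p : ℤ) ∣ n := by
    rw [← hg.zpow_eq_one_iff, hn]; exact hgk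
  have hw0 : w ^ n * g ^ (-a) * k ^ b ∈ h.P1 hp := by
    apply hg.cent_pair hgk
    · rw [h.comm_mul_left, h.comm_mul_left, h.comm_zpow_left, h.comm_zpow_left,
        h.comm_zpow_left, commutatorElement_self, one_zpow, mul_one, ← hb,
        ← commutatorElement_inv g k, ← hn, ← zpow_mul, ← zpow_neg, ← zpow_mul, ← zpow_add]
      rw [hg.zpow_eq_one_iff]
      exact ⟨0, by ring⟩
    · rw [h.comm_mul_left, h.comm_mul_left, h.comm_zpow_left, h.comm_zpow_left,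
        h.comm_zpow_left, commutatorElement_self, one_zpow, mul_one, ← ha, ← hn, ← zpow_mul,
        ← zpow_mul, ← zpow_add]
      rw [hg.zpow_eq_one_iff]
      exact ⟨0, by ring⟩
  have hwn : w ^ n ∈ hg.nf g k := by
    have : w ^ n = (w ^ n * g ^ (-a) * k ^ b) * (k ^ b)⁻¹ * (g ^ (-a))⁻¹ := by group
    rw [this]
    exact mul_mem (mul_mem (hg.P1_le_nf g k hw0) (inv_mem (zpow_mem (hg.right_mem_nf g k) b)))
      (inv_mem (zpow_mem (hg.left_mem_nf g k) (-a)))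
  obtain ⟨e, f, hef⟩ := (hpZ.coprime_iff_not_dvd).2 hn'
  have : w = (w ^ e) ^ p * (w ^ n) ^ f := by
    rw [← zpow_natCast, ← zpow_mul, ← zpow_mul', ← zpow_add, hef, zpow_one]
  rw [this]
  exact mul_mem (hg.P1_le_nf g k (h.pow_mem_P1 hp _)) (zpow_mem hwn f)

theorem cent_single (hg : Gen h hp x y) {g w : Q} (hgP : g ∉ h.P1 hp) (hw : ⁅w, g⁆ = 1) :
    ∃ b : ℤ, ∃ s ∈ h.P1 hp, w = g ^ b * s := by
  have hpZ : Prime (p : ℤ) := Nat.prime_iff_prime_int.mp hpp.out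
  have hv : ∃ v : Q, ⁅v, g⁆ ≠ 1 := by
    by_contra hcon
    push Not at hcon
    apply hgP
    apply hg.cent_pair hg.ne
    · rw [← commutatorElement_inv, hcon x, inv_one]
    · rw [← commutatorElement_inv, hcon y, inv_one]
  obtain ⟨v, hv⟩ := hv
  obtain ⟨a, b, s, hs, rfl⟩ : w ∈ hg.nf v g := hg.nf_top hv ▸ Subgroup.mem_top w
  have e := h.comm_nf v g a b 0 1 s 1 (h.P1_central hp hs) (one_mem _)
  simp only [zpow_zero, zpow_one, one_mul, mul_one, mul_zero, sub_zero] at e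
  rw [e] at hw
  obtain ⟨m, hm⟩ := Subgroup.mem_zpowers_iff.1 (hg.comm_mem v g)
  have hm' : ¬ (p : ℤ) ∣ m := by
    rw [← hg.zpow_eq_one_iff, hm]; exact hv
  rw [← hm, ← zpow_mul, hg.zpow_eq_one_iff] at hw
  have ha := (hpZ.dvd_or_dvd hw).resolve_left hm'
  have hva := h.zpow_mul_mem_P1 hp v ha
  refine ⟨b, v ^ a * s, mul_mem hva hs, ?_⟩
  have hc : v ^ a * g ^ b = g ^ b * v ^ a :=
    (Subgroup.mem_center_iff.1 (h.P1_central hp hva) (g ^ b)).symm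
  rw [hc, mul_assoc]

open scoped IsMulCommutative in
theorem exists_proper (hg : Gen h hp x y) [Finite Q] (hQ : IsPGroup p Q)
    {B : Type*} [Group B] [Finite B] (hB : (Nat.card B).Coprime p)
    (α : B → Q →* Q) (hα1 : ∀ w, α 1 w = w) (hαm : ∀ a b w, α (a * b) w = α a (α b w)) :
    ∃ U : Subgroup Q, U ≠ ⊤ ∧ h.P1 hp ≤ U ∧ ∀ a w, α a w * w⁻¹ ∈ U := by
  classical
  have hpZ : Prime (p : ℤ) := Nat.prime_iff_prime_int.mp hpp.out
  obtain ⟨N, hN⟩ := IsPGroup.iff_card.1 hQ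
  have hexpN : ∀ u : Q, u ^ (p ^ N) = 1 := fun u => by rw [← hN]; exact pow_card_eq_one'
  have hzN : ⁅x, y⁆ ∉ (h.pwi hp N).range := by
    rintro ⟨u, hu⟩
    rw [Cl2.pwi_apply, hexpN] at hu
    exact hg.ne hu.symm
  have hex : ∃ j, ⁅x, y⁆ ∉ (h.pwi hp j).range := ⟨N, hzN⟩
  have hz0 : ⁅x, y⁆ ∈ (h.pwi hp 0).range := ⟨⁅x, y⁆, by simp [Cl2.pwi_apply]⟩
  obtain ⟨i, hi⟩ : ∃ i, Nat.find hex = i + 1 := by
    refine Nat.exists_eq_succ_of_ne_zero (fun h0 => ?_)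
    exact (h0 ▸ Nat.find_spec hex) hz0
  have hzi : ⁅x, y⁆ ∈ (h.pwi hp i).range := by
    by_contra hcon
    exact Nat.find_min hex (by omega : i < Nat.find hex) hcon
  have hzi1 : ⁅x, y⁆ ∉ (h.pwi hp (i + 1)).range := hi ▸ Nat.find_spec hex
  obtain ⟨u, hu⟩ := hzi
  have hdvd : ∀ m : ℤ, ⁅x, y⁆ ^ m ∈ (h.pwi hp (i + 1)).range → (p : ℤ) ∣ m := by
    intro m hm
    by_contra hnd
    obtain ⟨e, f, hef⟩ := (hpZ.coprime_iff_not_dvd).2 hnd
    apply hzi1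
    have : ⁅x, y⁆ = (⁅x, y⁆ ^ m) ^ f := by
      calc ⁅x, y⁆ = ⁅x, y⁆ ^ (e * p + f * m) := by rw [hef, zpow_one]
        _ = (⁅x, y⁆ ^ m) ^ f := by
          rw [zpow_add, zpow_mul', zpow_natCast, h.ex, one_zpow, one_mul, zpow_mul']
    rw [this]; exact zpow_mem hm f
  have hP1i : ∀ s ∈ h.P1 hp, h.pwi hp i s ∈ (h.pwi hp (i + 1)).range := by
    intro s hs
    obtain ⟨w, rfl⟩ := (h.mem_P1 hp).1 hs
    exact ⟨w, by rw [Cl2.pwi_apply, Cl2.pwi_apply, ← pow_mul, ← pow_succ']⟩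
  have huP : u ∉ h.P1 hp := by
    intro hcon
    apply hzi1
    rw [← hu]; exact hP1i u hcon
  have hδ : ∀ a : B, ∃ δ : ℤ, ¬ (p : ℤ) ∣ δ ∧
      ∀ ζ ∈ Subgroup.zpowers ⁅x, y⁆, α a ζ = ζ ^ δ := by
    intro a
    have h1 : α a ⁅x, y⁆ ∈ Subgroup.zpowers ⁅x, y⁆ := by
      rw [map_commutatorElement]; exact hg.comm_mem _ _
    obtain ⟨δ, hδ⟩ := Subgroup.mem_zpowers_iff.1 h1
    refine ⟨δ, ?_, ?_⟩
    · intro hd
      have h3 : α a ⁅x, y⁆ = 1 := by rw [← hδ]; exact (hg.zpow_eq_one_iff δ).2 hd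
      have h2 : ⁅x, y⁆ = α a⁻¹ (α a ⁅x, y⁆) := by rw [← hαm, inv_mul_cancel, hα1]
      rw [h3, map_one] at h2
      exact hg.ne h2
    · intro ζ hζ
      obtain ⟨j, rfl⟩ := Subgroup.mem_zpowers_iff.1 hζ
      rw [map_zpow, ← hδ, ← zpow_mul, ← zpow_mul, mul_comm]
  have hpu : ∀ (a : B) (δ : ℤ), (∀ ζ ∈ Subgroup.zpowers ⁅x, y⁆, α a ζ = ζ ^ δ) →
      h.pwi hp i (α a u) = ⁅x, y⁆ ^ δ := by
    intro a δ hδ2
    rw [Cl2.pwi_apply, ← map_pow, ← Cl2.pwi_apply h hp, hu]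
    exact hδ2 _ (Subgroup.mem_zpowers _)
  have hmain : ∃ t : Q, ⁅t, u⁆ ≠ 1 ∧ ∀ a, ⁅α a t, u⁆ = ⁅t, u⁆ := by
    by_cases hK : ∀ κ : Q, κ ^ (p ^ i) = 1 → κ ∈ h.P1 hp
    · obtain ⟨v, hv⟩ : ∃ v : Q, ⁅v, u⁆ ≠ 1 := by
        by_contra hcon
        push Not at hcon
        exact huP (hg.cent_pair hg.ne (by rw [← commutatorElement_inv, hcon x, inv_one])
          (by rw [← commutatorElement_inv, hcon y, inv_one]))
      refine ⟨v, hv, fun a => ?_⟩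
      obtain ⟨δ, hδ1, hδ2⟩ := hδ a
      have hκ : u ^ (-δ) * α a u ∈ h.P1 hp := by
        apply hK
        show h.pwi hp i (u ^ (-δ) * α a u) = 1
        rw [map_mul, map_zpow, hu, hpu a δ hδ2, ← zpow_add]
        simp
      have e1 : ⁅α a v, α a u⁆ = ⁅v, u⁆ ^ δ := by
        rw [← map_commutatorElement]; exact hδ2 _ (hg.comm_mem v u)
      have e2 : ⁅α a v, α a u⁆ = ⁅α a v, u⁆ ^ δ := by
        have e0 : α a u = u ^ δ * (u ^ (-δ) * α a u) := by group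
        rw [e0, h.comm_mul_right, h.comm_zpow_right,
          Cl2.comm_central_right _ _ (h.P1_central hp hκ), mul_one]
      obtain ⟨m, hm⟩ := Subgroup.mem_zpowers_iff.1 (hg.comm_mem (α a v) u)
      obtain ⟨n, hn⟩ := Subgroup.mem_zpowers_iff.1 (hg.comm_mem v u)
      rw [e2, ← hm, ← hn, ← zpow_mul, ← zpow_mul] at e1
      have h5 : (p : ℤ) ∣ (m - n) * δ := by
        rw [← hg.zpow_eq_one_iff, sub_mul, zpow_sub, e1, mul_inv_cancel]
      have hmn := (hpZ.dvd_or_dvd h5).resolve_right hδ1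
      rw [← hm, ← hn]
      have h6 : ⁅x, y⁆ ^ (m - n) = 1 := (hg.zpow_eq_one_iff _).2 hmn
      rw [zpow_sub, mul_inv_eq_one] at h6
      exact h6
    · push Not at hK
      obtain ⟨t, ht1, htP⟩ := hK
      have ht1' : h.pwi hp i t = 1 := ht1
      have htu : ⁅t, u⁆ ≠ 1 := by
        intro h0
        obtain ⟨b, s, hs, hts⟩ := hg.cent_single huP h0
        have h1 : h.pwi hp i t = 1 := ht1
        rw [hts, map_mul, map_zpow, hu] at h1
        have h2 : ⁅x, y⁆ ^ b ∈ (h.pwi hp (i + 1)).range := by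
          have h3 : ⁅x, y⁆ ^ b = (h.pwi hp i s)⁻¹ := eq_inv_of_mul_eq_one_left h1
          rw [h3]; exact inv_mem (hP1i s hs)
        have hb := hdvd b h2
        apply htP
        rw [hts]
        exact mul_mem (h.zpow_mul_mem_P1 hp u hb) hs
      have hnf := hg.nf_top htu
      refine ⟨t, htu, fun a => ?_⟩
      obtain ⟨δ, hδ1, hδ2⟩ := hδ a
      obtain ⟨lam, mu, s, hs, hat⟩ : α a t ∈ hg.nf t u := hnf ▸ Subgroup.mem_top _
      obtain ⟨e, f, s', hs', hau⟩ : α a u ∈ hg.nf t u := hnf ▸ Subgroup.mem_top _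
      have hmu : (p : ℤ) ∣ mu := by
        apply hdvd
        have h1 : h.pwi hp i (α a t) = 1 := by
          rw [Cl2.pwi_apply, ← map_pow, ht1, map_one]
        rw [hat, map_mul, map_mul, map_zpow, map_zpow, hu, ht1', one_zpow, one_mul] at h1
        have h3 : ⁅x, y⁆ ^ mu = (h.pwi hp i s)⁻¹ := eq_inv_of_mul_eq_one_left h1
        rw [h3]; exact inv_mem (hP1i s hs)
      have hf : (p : ℤ) ∣ f - δ := by
        apply hdvd
        have h1 := hpu a δ hδ2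
        rw [hau, map_mul, map_mul, map_zpow, map_zpow, hu, ht1', one_zpow, one_mul] at h1
        have h3 : h.pwi hp i s' = ⁅x, y⁆ ^ (-f + δ) := by
          rw [zpow_add, zpow_neg, ← h1]; group
        have h4 : ⁅x, y⁆ ^ (f - δ) = (h.pwi hp i s')⁻¹ := by
          rw [h3, ← zpow_neg]; congr 1; ring
        rw [h4]; exact inv_mem (hP1i s' hs')
      obtain ⟨n, hn⟩ := Subgroup.mem_zpowers_iff.1 (hg.comm_mem t u)
      have hn' : ¬ (p : ℤ) ∣ n := by rw [← hg.zpow_eq_one_iff, hn]; exact htu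
      have e1 : ⁅α a t, α a u⁆ = ⁅t, u⁆ ^ δ := by
        rw [← map_commutatorElement]; exact hδ2 _ (hg.comm_mem t u)
      rw [hat, hau, h.comm_nf _ _ _ _ _ _ _ _ (h.P1_central hp hs) (h.P1_central hp hs'),
        ← hn, ← zpow_mul, ← zpow_mul] at e1
      have h3 : (p : ℤ) ∣ n * (lam * f - mu * e) - n * δ := by
        rw [← hg.zpow_eq_one_iff, zpow_sub, e1, mul_inv_cancel]
      have h4 : (p : ℤ) ∣ δ * (lam - 1) := by
        have h5 : (p : ℤ) ∣ (lam * f - mu * e) - δ := by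
          have h7 : n * (lam * f - mu * e) - n * δ = n * ((lam * f - mu * e) - δ) := by ring
          rw [h7] at h3
          exact (hpZ.dvd_or_dvd h3).resolve_left hn'
        have h6 : δ * (lam - 1) = ((lam * f - mu * e) - δ) - lam * (f - δ) + mu * e := by ring
        rw [h6]
        exact dvd_add (dvd_sub h5 (Dvd.dvd.mul_left hf lam)) (Dvd.dvd.mul_right hmu e)
      have hlam := (hpZ.dvd_or_dvd h4).resolve_left hδ1
      have e3 := h.comm_nf t u lam mu 0 1 s 1 (h.P1_central hp hs) (one_mem _)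
      simp only [zpow_zero, zpow_one, one_mul, mul_one, mul_zero, sub_zero] at e3
      rw [hat, e3]
      obtain ⟨c, hc⟩ := hlam
      have h8 : lam = 1 + p * c := by linarith
      rw [h8, zpow_add, zpow_one, zpow_mul, zpow_natCast, h.ex, one_zpow, mul_one]
  obtain ⟨t, htu, hinv⟩ := hmain
  have : Fintype B := Fintype.ofFinite B
  let ν : Q →* Subgroup.center Q := ∏ a : B, (h.kap u).comp (α a)
  have hν : ∀ w, ν w = ∏ a : B, h.kap u (α a w) := by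
    intro w; simp [ν, MonoidHom.finsetProd_apply]
  refine ⟨ν.ker, ?_, ?_, ?_⟩
  · intro htop
    have ht : t ∈ ν.ker := htop ▸ Subgroup.mem_top t
    rw [MonoidHom.mem_ker, hν] at ht
    have h1 : ∀ a : B, h.kap u (α a t) = h.kap u t := by
      intro a; ext; exact hinv a
    simp only [h1, Finset.prod_const, Finset.card_univ] at ht
    have h2 : ⁅t, u⁆ ^ (Fintype.card B) = 1 := by
      have := congrArg Subtype.val ht
      simpa [Cl2.kap] using this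
    have h3 : orderOf ⁅t, u⁆ = p := orderOf_eq_prime (h.ex t u) htu
    have h4 : p ∣ Fintype.card B := h3 ▸ orderOf_dvd_of_pow_eq_one h2
    rw [← Nat.card_eq_fintype_card] at h4
    exact (Nat.Prime.coprime_iff_not_dvd hpp.out).1 hB.symm h4
  · intro s hs
    obtain ⟨w, rfl⟩ := (h.mem_P1 hp).1 hs
    rw [MonoidHom.mem_ker, hν]
    apply Finset.prod_eq_one
    intro a _
    ext
    simp [Cl2.kap, map_pow, h.ex]
  · intro b w
    rw [MonoidHom.mem_ker, map_mul, map_inv, mul_inv_eq_one, hν, hν]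
    have h1 : ∀ a : B, h.kap u (α a (α b w)) = h.kap u (α (a * b) w) := by
      intro a; rw [hαm]
    simp only [h1]
    exact Fintype.prod_equiv (Equiv.mulRight b) _ _ (fun a => rfl)

end Gen

end Abstract

section Bridge

theorem pow_zpow_swap {G : Type*} [Group G] (w : G) (n : ℕ) (j : ℤ) :
    (w ^ n) ^ j = (w ^ j) ^ n := by
  rw [← zpow_natCast w n, ← zpow_natCast (w ^ j) n, ← zpow_mul, ← zpow_mul, mul_comm]

theorem comm_mem_comm {P : Type*} [Group P] (a b : P) : ⁅a, b⁆ ∈ commutator P := by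
  rw [commutator_def]
  exact Subgroup.commutator_mem_commutator (Subgroup.mem_top a) (Subgroup.mem_top b)

theorem p_dvd_orderOf {P : Type*} [Group P] {p : ℕ} [hpp : Fact p.Prime] (hP : IsPGroup p P)
    {w : P} (hw : w ≠ 1) : p ∣ orderOf w := by
  obtain ⟨j, hj⟩ := hP w
  obtain ⟨j', _, hj'⟩ := (Nat.dvd_prime_pow hpp.out).1 (orderOf_dvd_of_pow_eq_one hj)
  rw [hj']
  rcases j' with _ | j'
  · exfalso; rw [pow_zero, orderOf_eq_one_iff] at hj'; exact hw hj'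
  · exact dvd_pow_self p (Nat.succ_ne_zero j')

theorem conj_zpow_dvd {P : Type*} [Group P] {p : ℕ} [hpp : Fact p.Prime] (hP : IsPGroup p P)
    {w g : P} (hw : w ≠ 1) {e : ℤ} (he : g * w * g⁻¹ = w ^ e) : (p : ℤ) ∣ e - 1 := by
  have hit : ∀ n : ℕ, g ^ n * w * (g ^ n)⁻¹ = w ^ (e ^ n) := by
    intro n
    induction n with
    | zero => simp
    | succ n ih =>
      have h1 : g ^ (n + 1) * w * (g ^ (n + 1))⁻¹ = g * (g ^ n * w * (g ^ n)⁻¹) * g⁻¹ := by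
        rw [pow_succ']; group
      rw [h1, ih, ← conj_zpow, he, ← zpow_mul, pow_succ']
  obtain ⟨k, hk⟩ := hP g
  have h1 := hit (p ^ k)
  rw [hk, one_mul, inv_one, mul_one] at h1
  have h2 : w ^ (e ^ (p ^ k) - 1) = 1 := by
    rw [zpow_sub, zpow_one, ← h1, mul_inv_cancel]
  have h3 : (orderOf w : ℤ) ∣ e ^ (p ^ k) - 1 := orderOf_dvd_iff_zpow_eq_one.2 h2
  have h5 : (p : ℤ) ∣ e ^ (p ^ k) - 1 :=
    (Int.natCast_dvd_natCast.2 (p_dvd_orderOf hP hw)).trans h3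
  have h6 : ((e ^ (p ^ k) - 1 : ℤ) : ZMod p) = 0 :=
    (ZMod.intCast_zmod_eq_zero_iff_dvd _ p).2 h5
  push_cast at h6
  rw [ZMod.pow_card_pow] at h6
  apply (ZMod.intCast_zmod_eq_zero_iff_dvd _ p).1
  push_cast
  exact h6

theorem exists_M {P : Type*} [Group P] [Finite P] {p : ℕ} [hpp : Fact p.Prime]
    (hP : IsPGroup p P) (hm : Cfsg.IsMetacyclic P) (hnc : ∃ a b : P, a * b ≠ b * a) :
    ∃ (M : Subgroup P) (x₀ y₀ : P), M.Normal ∧
      (∀ φ : P →* P, ∀ m ∈ M, φ m ∈ M) ∧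
      (∀ u v g : P, ⁅⁅u, v⁆, g⁆ ∈ M) ∧ (∀ u v : P, ⁅u, v⁆ ^ p ∈ M) ∧
      Subgroup.closure {x₀, y₀} = ⊤ ∧ ¬ commutator P ≤ M ∧ (∃ j : ℤ, ⁅x₀, y₀⁆ = y₀ ^ j) ∧
      (∀ m ∈ M, ∃ m' ∈ commutator P, m = m' ^ p) := by
  obtain ⟨N₀, hN₀n, hN₀c, hQc⟩ := hm
  obtain ⟨y₀, hy₀⟩ := (N₀.isCyclic_iff_exists_zpowers_eq_top).1 hN₀c
  obtain ⟨gq, hgq⟩ := IsCyclic.exists_generator (α := P ⧸ N₀)
  obtain ⟨x₀, rfl⟩ := QuotientGroup.mk_surjective gq
  have hDN : commutator P ≤ N₀ := by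
    rw [commutator_def, Subgroup.commutator_le]
    intro a _ b _
    apply (QuotientGroup.eq_one_iff _).1
    show QuotientGroup.mk' N₀ ⁅a, b⁆ = 1
    rw [map_commutatorElement]
    obtain ⟨i, hi⟩ := Subgroup.mem_zpowers_iff.1 (hgq (QuotientGroup.mk' N₀ a))
    obtain ⟨j, hj⟩ := Subgroup.mem_zpowers_iff.1 (hgq (QuotientGroup.mk' N₀ b))
    rw [← hi, ← hj, commutatorElement_eq_one_iff_commute]
    exact Commute.zpow_zpow_self _ i j
  have hDc : IsCyclic (commutator P) := Subgroup.isCyclic_of_le hDN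
  obtain ⟨w₀, hw₀⟩ := ((commutator P).isCyclic_iff_exists_zpowers_eq_top).1 hDc
  have hw₀D : w₀ ∈ commutator P := hw₀ ▸ Subgroup.mem_zpowers w₀
  have hw₀1 : w₀ ≠ 1 := by
    rintro rfl
    obtain ⟨a, b, hab⟩ := hnc
    apply hab
    have h1 : ⁅a, b⁆ ∈ commutator P := comm_mem_comm a b
    rw [← hw₀, Subgroup.zpowers_one_eq_bot, Subgroup.mem_bot] at h1
    exact commutatorElement_eq_one_iff_mul_comm.1 h1
  have hDφ : ∀ φ : P →* P, ∀ d ∈ commutator P, φ d ∈ commutator P := by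
    intro φ d hd
    have h1 : (commutator P).map φ ≤ commutator P := by
      rw [commutator_def, Subgroup.map_commutator]
      exact Subgroup.commutator_mono le_top le_top
    exact h1 (Subgroup.mem_map_of_mem φ hd)
  have hφw : ∀ φ : P →* P, ∃ e : ℤ, φ w₀ = w₀ ^ e := by
    intro φ
    have h1 := hDφ φ w₀ hw₀D
    rw [← hw₀] at h1
    obtain ⟨e, he⟩ := Subgroup.mem_zpowers_iff.1 h1
    exact ⟨e, he.symm⟩
  have hMφ : ∀ φ : P →* P, ∀ m ∈ Subgroup.zpowers (w₀ ^ p),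
      φ m ∈ Subgroup.zpowers (w₀ ^ p) := by
    intro φ m hm
    obtain ⟨j, rfl⟩ := Subgroup.mem_zpowers_iff.1 hm
    obtain ⟨e, he⟩ := hφw φ
    rw [map_zpow, map_pow, he]
    apply zpow_mem
    rw [← pow_zpow_swap]
    exact Subgroup.zpow_mem_zpowers _ e
  have hMn : (Subgroup.zpowers (w₀ ^ p)).Normal := by
    refine ⟨fun m hm g => ?_⟩
    have h1 := hMφ (MulAut.conj g).toMonoidHom m hm
    simpa using h1
  have hDz : ∀ u v : P, ∃ j : ℤ, w₀ ^ j = ⁅u, v⁆ := by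
    intro u v
    have hd : ⁅u, v⁆ ∈ commutator P := comm_mem_comm u v
    rw [← hw₀] at hd
    exact Subgroup.mem_zpowers_iff.1 hd
  refine ⟨Subgroup.zpowers (w₀ ^ p), x₀, y₀, hMn, hMφ, ?_, ?_, ?_, ?_, ?_, ?_⟩
  · intro u v g
    obtain ⟨j, hj⟩ := hDz u v
    obtain ⟨e, he⟩ := hφw (MulAut.conj g).toMonoidHom
    have he' : g * w₀ * g⁻¹ = w₀ ^ e := by simpa using he
    obtain ⟨c, hc⟩ := conj_zpow_dvd hP hw₀1 he'
    have h1 : ⁅⁅u, v⁆, g⁆ = ⁅u, v⁆ * (g * ⁅u, v⁆ * g⁻¹)⁻¹ := by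
      simp only [commutatorElement_def]; group
    rw [h1, ← hj, ← conj_zpow, he', ← zpow_mul, ← zpow_neg, ← zpow_add]
    have h2 : j + -(e * j) = p * (-(c * j)) := by
      have h3 : e = 1 + p * c := by linarith
      rw [h3]; ring
    rw [h2, zpow_mul, zpow_natCast]
    exact Subgroup.zpow_mem_zpowers _ _
  · intro u v
    obtain ⟨j, hj⟩ := hDz u v
    rw [← hj, ← pow_zpow_swap]
    exact Subgroup.zpow_mem_zpowers _ _
  · rw [eq_top_iff]
    intro r _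
    obtain ⟨i, hi⟩ := Subgroup.mem_zpowers_iff.1 (hgq (r : P ⧸ N₀))
    have h1 : (x₀ ^ i)⁻¹ * r ∈ N₀ := by
      apply QuotientGroup.eq.1
      rw [QuotientGroup.mk_zpow]; exact hi
    rw [← hy₀] at h1
    obtain ⟨l, hl⟩ := Subgroup.mem_zpowers_iff.1 h1
    have h2 : r = x₀ ^ i * y₀ ^ l := by rw [hl]; group
    rw [h2]
    exact mul_mem (zpow_mem (Subgroup.subset_closure (by simp)) i)
      (zpow_mem (Subgroup.subset_closure (by simp)) l)
  · intro hle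
    obtain ⟨j, hj⟩ := Subgroup.mem_zpowers_iff.1 (hle hw₀D)
    have h1 : w₀ ^ ((p : ℤ) * j - 1) = 1 := by
      rw [zpow_sub, zpow_one, zpow_mul, zpow_natCast, hj, mul_inv_cancel]
    have h2 : (orderOf w₀ : ℤ) ∣ (p : ℤ) * j - 1 := orderOf_dvd_iff_zpow_eq_one.2 h1
    have h5 : (p : ℤ) ∣ (p : ℤ) * j - 1 :=
      (Int.natCast_dvd_natCast.2 (p_dvd_orderOf hP hw₀1)).trans h2
    have h6 : (p : ℤ) ∣ 1 := by
      have h7 := dvd_sub (dvd_mul_right (p : ℤ) j) h5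
      simpa using h7
    have h7 : (p : ℤ) = 1 := Int.eq_one_of_dvd_one (by positivity) h6
    have h8 : p = 1 := by exact_mod_cast h7
    exact hpp.out.one_lt.ne' h8
  · have h1 : ⁅x₀, y₀⁆ ∈ N₀ := hDN (comm_mem_comm x₀ y₀)
    rw [← hy₀] at h1
    obtain ⟨j, hj⟩ := Subgroup.mem_zpowers_iff.1 h1
    exact ⟨j, hj.symm⟩
  · intro m hm
    obtain ⟨j, rfl⟩ := Subgroup.mem_zpowers_iff.1 hm
    exact ⟨w₀ ^ j, zpow_mem hw₀D j, pow_zpow_swap w₀ p j⟩

theorem thmP {P : Type*} [Group P] [Finite P] {p : ℕ} [hpp : Fact p.Prime] (hp : p ≠ 2)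
    (hP : IsPGroup p P) (hm : Cfsg.IsMetacyclic P) (hnc : ∃ a b : P, a * b ≠ b * a)
    {B : Type*} [Group B] [Finite B] (hB : (Nat.card B).Coprime p)
    (α : B → P →* P) (hα1 : ∀ w, α 1 w = w) (hαm : ∀ a b w, α (a * b) w = α a (α b w)) :
    ∃ U Φ : Subgroup P, U ≠ ⊤ ∧ Φ ≤ U ∧ (∀ a w, α a w * w⁻¹ ∈ U) ∧
      (∀ H : Subgroup P, H ⊔ Φ = ⊤ → H = ⊤) ∧
      ∀ c k : P, c ∉ U → k ∈ U → k ∉ Φ → Subgroup.closure {c, k} = ⊤ ∧
        ∀ d ∈ commutator P, ∃ (i j : ℤ) (m : P), m ∈ commutator P ∧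
          d = c ^ ((p : ℤ) * i) * k ^ ((p : ℤ) * j) * m ^ p := by
  obtain ⟨M, x₀, y₀, hMn, hMφ, hM1, hM2, hgen, hDM, ⟨j₀, hj₀⟩, hM7⟩ := exists_M hP hm hnc
  have hpZ : Prime (p : ℤ) := Nat.prime_iff_prime_int.mp hpp.out
  have hPQ : IsPGroup p (P ⧸ M) := hP.to_quotient M
  obtain ⟨q, hq, hqker, ᾱ, hᾱ⟩ : ∃ (q : P →* P ⧸ M), Function.Surjective q ∧
      (∀ r, q r = 1 ↔ r ∈ M) ∧ ∃ ᾱ : B → (P ⧸ M) →* (P ⧸ M), ∀ a w, ᾱ a (q w) = q (α a w) :=
    ⟨QuotientGroup.mk' M, QuotientGroup.mk'_surjective M, fun r => QuotientGroup.eq_one_iff r,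
      fun a => QuotientGroup.map M M (α a) (fun m hm => hMφ (α a) m hm), fun a w => rfl⟩
  have hqeq : ∀ r r' : P, q r = q r' ↔ r⁻¹ * r' ∈ M := by
    intro r r'
    rw [← hqker, map_mul, map_inv, inv_mul_eq_one]
  have hcl2 : Cl2 p (P ⧸ M) := by
    refine ⟨fun u v w => ?_, fun u v => ?_⟩
    · obtain ⟨u, rfl⟩ := hq u
      obtain ⟨v, rfl⟩ := hq v
      obtain ⟨w, rfl⟩ := hq w
      have h1 : ⁅⁅q u, q v⁆, q w⁆ = 1 := by
        rw [← map_commutatorElement, ← map_commutatorElement]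
        exact (hqker _).2 (hM1 u v w)
      exact (commutatorElement_eq_one_iff_commute.1 h1).eq
    · obtain ⟨u, rfl⟩ := hq u
      obtain ⟨v, rfl⟩ := hq v
      rw [← map_commutatorElement, ← map_pow]
      exact (hqker _).2 (hM2 u v)
  have hgenQ : Subgroup.closure {q x₀, q y₀} = ⊤ := by
    have h1 := MonoidHom.map_closure q {x₀, y₀}
    rw [hgen, Subgroup.map_top_of_surjective q hq, Set.image_pair] at h1
    exact h1.symm
  have hz : ⁅q x₀, q y₀⁆ ≠ 1 := by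
    intro h0
    apply hDM
    rw [commutator_def, Subgroup.commutator_le]
    intro a _ b _
    rw [← hqker, map_commutatorElement]
    have h1 := hcl2.comm_mem hgenQ (q a) (q b)
    rw [h0, Subgroup.zpowers_one_eq_bot, Subgroup.mem_bot] at h1
    exact h1
  have hzP : ⁅q x₀, q y₀⁆ ∈ hcl2.P1 hp := by
    have hzy : ⁅q x₀, q y₀⁆ = q y₀ ^ j₀ := by rw [← map_commutatorElement, hj₀, map_zpow]
    have hj₀p : (p : ℤ) ∣ j₀ := by
      by_contra hnd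
      obtain ⟨n, hn⟩ := hPQ (q y₀)
      have hcop : IsCoprime ((p : ℤ) ^ n) j₀ :=
        IsCoprime.pow_left ((hpZ.coprime_iff_not_dvd).2 hnd)
      obtain ⟨e, f, hef⟩ := hcop
      have hy : q y₀ = ⁅q x₀, q y₀⁆ ^ f := by
        calc q y₀ = q y₀ ^ (e * (p : ℤ) ^ n + f * j₀) := by rw [hef, zpow_one]
          _ = ⁅q x₀, q y₀⁆ ^ f := by
            rw [zpow_add, zpow_mul', ← Nat.cast_pow, zpow_natCast, hn, one_zpow, one_mul,
              zpow_mul', ← hzy]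
      have hcen : ⁅q x₀, q y₀⁆ ^ f ∈ Subgroup.center (P ⧸ M) :=
        zpow_mem (Subgroup.mem_center_iff.2 fun g => (hcl2.cl _ _ g).symm) f
      apply hz
      have h1 : ⁅q x₀, ⁅q x₀, q y₀⁆ ^ f⁆ = 1 := Cl2.comm_central_right _ _ hcen
      rw [← hy] at h1
      exact h1
    rw [hzy]
    exact hcl2.zpow_mul_mem_P1 hp (q y₀) hj₀p
  have hg : Gen hcl2 hp (q x₀) (q y₀) := ⟨hgenQ, hz, hzP⟩
  have hᾱ1 : ∀ w, ᾱ 1 w = w := by
    intro w; obtain ⟨w, rfl⟩ := hq w; rw [hᾱ, hα1]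
  have hᾱm : ∀ a b w, ᾱ (a * b) w = ᾱ a (ᾱ b w) := by
    intro a b w; obtain ⟨w, rfl⟩ := hq w; rw [hᾱ, hᾱ, hᾱ, hαm]
  obtain ⟨U₀, hU₀, hPU₀, hαU₀⟩ := hg.exists_proper hPQ hB ᾱ hᾱ1 hᾱm
  have hMD : M ≤ commutator P := by
    intro m hm
    obtain ⟨m', hm', rfl⟩ := hM7 m hm
    exact pow_mem hm' p
  have hDfr : commutator P ≤ frattini P := by
    rw [commutator_def, Subgroup.commutator_le]
    intro a _ b _
    exact Cfsg.Agent.Lib.Helper72.comm_mem_frattini hP a b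
  have hΦfr : (hcl2.P1 hp).comap q ≤ frattini P := by
    intro r hr
    obtain ⟨wq, hwq⟩ := (hcl2.mem_P1 hp).1 hr
    obtain ⟨w, rfl⟩ := hq wq
    have h1 : (w ^ p)⁻¹ * r ∈ M := by rw [← hqeq, map_pow]; exact hwq
    have h2 : r = w ^ p * ((w ^ p)⁻¹ * r) := by group
    rw [h2]
    exact mul_mem (Cfsg.Agent.Lib.Helper72.pow_mem_frattini hP w) (hDfr (hMD h1))
  have hnongen : ∀ H : Subgroup P, H ⊔ (hcl2.P1 hp).comap q = ⊤ → H = ⊤ := by
    intro H hH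
    apply frattini_nongenerating
    rw [eq_top_iff, ← hH]
    exact sup_le_sup_left hΦfr H
  refine ⟨U₀.comap q, (hcl2.P1 hp).comap q, ?_, Subgroup.comap_mono hPU₀, ?_, hnongen, ?_⟩
  · intro h0
    apply hU₀
    apply Subgroup.comap_injective hq
    rw [h0, Subgroup.comap_top]
  · intro a w
    rw [Subgroup.mem_comap, map_mul, map_inv, ← hᾱ]
    exact hαU₀ a (q w)
  · intro c k hc hk hkΦ
    rw [Subgroup.mem_comap] at hc hk hkΦ
    have hck : ⁅q c, q k⁆ ≠ 1 := by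
      intro h0
      obtain ⟨b, s, hs, hcs⟩ := hg.cent_single hkΦ h0
      apply hc
      rw [hcs]
      exact mul_mem (zpow_mem hk b) (hPU₀ hs)
    have hnf := hg.nf_top hck
    have hclo : Subgroup.closure {c, k} = ⊤ := by
      apply hnongen
      rw [eq_top_iff]
      intro r _
      obtain ⟨a, b, s, hs, hr⟩ : q r ∈ hg.nf (q c) (q k) := hnf ▸ Subgroup.mem_top _
      have h1 : (c ^ a * k ^ b)⁻¹ * r ∈ (hcl2.P1 hp).comap q := by
        rw [Subgroup.mem_comap, map_mul, map_inv, map_mul, map_zpow, map_zpow, hr]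
        have h2 : ((q c) ^ a * (q k) ^ b)⁻¹ * ((q c) ^ a * (q k) ^ b * s) = s := by group
        rw [h2]; exact hs
      have h3 : r = (c ^ a * k ^ b) * ((c ^ a * k ^ b)⁻¹ * r) := by group
      rw [h3]
      exact Subgroup.mul_mem_sup (mul_mem (zpow_mem (Subgroup.subset_closure (by simp)) a)
        (zpow_mem (Subgroup.subset_closure (by simp)) b)) h1
    refine ⟨hclo, ?_⟩
    have hcloQ : Subgroup.closure {q c, q k} = ⊤ := by
      have h1 := MonoidHom.map_closure q {c, k}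
      rw [hclo, Subgroup.map_top_of_surjective q hq, Set.image_pair] at h1
      exact h1.symm
    have hcenp : ∀ (g : P ⧸ M) (n : ℤ), g ^ ((p : ℤ) * n) ∈ Subgroup.center (P ⧸ M) := by
      intro g n
      rw [zpow_mul', zpow_natCast]
      exact hcl2.pow_p_central _
    have key : ∀ w : P ⧸ M, ∃ i j : ℤ,
        w ^ p = (q c) ^ ((p : ℤ) * i) * (q k) ^ ((p : ℤ) * j) := by
      intro w
      have hw : w ∈ Subgroup.closure {q c, q k} := hcloQ ▸ Subgroup.mem_top w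
      induction hw using Subgroup.closure_induction with
      | mem g hg' =>
        rcases hg' with hgc | hgk
        · exact ⟨1, 0, by rw [hgc]; simp [zpow_natCast]⟩
        · exact ⟨0, 1, by rw [Set.mem_singleton_iff.1 hgk]; simp [zpow_natCast]⟩
      | one => exact ⟨0, 0, by simp⟩
      | mul a b _ _ ha hb =>
        obtain ⟨i, j, hij⟩ := ha
        obtain ⟨i', j', hij'⟩ := hb
        refine ⟨i + i', j + j', ?_⟩
        have hpm : (a * b) ^ p = a ^ p * b ^ p := hcl2.pow_p_mul hp a b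
        rw [hpm, hij, hij', mul_add, mul_add, zpow_add, zpow_add]
        exact Commute.mul_mul_mul_comm
          (Subgroup.mem_center_iff.1 (hcenp (q k) j) ((q c) ^ ((p : ℤ) * i'))).symm _ _
      | inv a _ ha =>
        obtain ⟨i, j, hij⟩ := ha
        refine ⟨-i, -j, ?_⟩
        rw [inv_pow, hij, mul_inv_rev, mul_neg, mul_neg, zpow_neg, zpow_neg]
        exact Subgroup.mem_center_iff.1 (inv_mem (hcenp (q c) i)) _
    intro d hd
    have hdz : q d ∈ Subgroup.zpowers ⁅q x₀, q y₀⁆ := by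
      have h1 : commutator P ≤ (Subgroup.zpowers ⁅q x₀, q y₀⁆).comap q := by
        rw [commutator_def, Subgroup.commutator_le]
        intro a _ b _
        rw [Subgroup.mem_comap, map_commutatorElement]
        exact hg.comm_mem _ _
      exact h1 hd
    obtain ⟨l, hl⟩ := Subgroup.mem_zpowers_iff.1 hdz
    obtain ⟨w, hw⟩ := (hcl2.mem_P1 hp).1 hzP
    obtain ⟨i, j, hij⟩ := key w
    have hqd : q d = q (c ^ ((p : ℤ) * (i * l)) * k ^ ((p : ℤ) * (j * l))) := by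
      rw [← hl, ← hw, hij, map_mul, map_zpow, map_zpow]
      have hcomm : Commute ((q c) ^ ((p : ℤ) * i)) ((q k) ^ ((p : ℤ) * j)) :=
        Subgroup.mem_center_iff.1 (hcenp (q k) j) _
      rw [hcomm.mul_zpow, ← zpow_mul, ← zpow_mul, mul_assoc, mul_assoc]
    have hm : (c ^ ((p : ℤ) * (i * l)) * k ^ ((p : ℤ) * (j * l)))⁻¹ * d ∈ M := by
      rw [← hqeq]; exact hqd.symm
    obtain ⟨m', hm', hmm'⟩ := hM7 _ hm
    refine ⟨i * l, j * l, m', hm', ?_⟩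
    rw [← hmm']; group

end Bridge

section GLevel
variable {G : Type*} [Group G]

/-- conjugation by a normalizing element as an endomorphism of the subgroup -/
def conjHom (R : Subgroup G) (a : G) (ha : a ∈ Subgroup.normalizer (R : Set G)) : R →* R where
  toFun r := ⟨a * r * a⁻¹, (Subgroup.mem_normalizer_iff.1 ha r).1 r.2⟩
  map_one' := by ext; simp
  map_mul' r s := by ext; simp

theorem thmE [Finite G] (p : ℕ) [hpp : Fact p.Prime] (hp : p ≠ 2) (R A : Subgroup G)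
    (hR : IsPGroup p R) (hRm : Cfsg.IsMetacyclic R)
    (hA : A ≤ Subgroup.normalizer (R : Set G)) (hcop : (Nat.card A).Coprime p)
    (hna : ¬ IsMulCommutative R) :
    ∃ U Φ : Subgroup G, U ≤ R ∧ U ≠ R ∧ Φ ≤ U ∧ ⁅R, A⁆ ≤ U ∧
      (∀ H : Subgroup G, H ≤ R → R ≤ H ⊔ Φ → R ≤ H) ∧
      ∀ c k : G, c ∈ R → c ∉ U → k ∈ U → k ∉ Φ → R ≤ Subgroup.closure {c, k} ∧
        ∀ d ∈ ⁅R, R⁆, ∃ (i j : ℤ) (m : G), m ∈ ⁅R, R⁆ ∧
          d = c ^ ((p : ℤ) * i) * k ^ ((p : ℤ) * j) * m ^ p := by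
  have hnc : ∃ a b : R, a * b ≠ b * a := by
    by_contra hcon
    push Not at hcon
    exact hna (isMulCommutative_iff.2 hcon)
  obtain ⟨U, Φ, hU, hΦU, hαU, hng, hck⟩ := thmP hp hR hRm hnc (B := A) hcop
    (fun a => conjHom R a (hA a.2))
    (fun w => by ext; simp [conjHom])
    (fun a b w => by ext; simp [conjHom, mul_assoc])
  refine ⟨U.map R.subtype, Φ.map R.subtype, Subgroup.map_subtype_le U, ?_,
    Subgroup.map_mono hΦU, ?_, ?_, ?_⟩
  · intro h0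
    apply hU
    rw [eq_top_iff]
    intro r _
    have h1 : (r : G) ∈ U.map R.subtype := by rw [h0]; exact r.2
    obtain ⟨r', hr', hrr'⟩ := h1
    have h2 : r' = r := Subtype.ext hrr'
    rw [← h2]; exact hr'
  · rw [Subgroup.commutator_le]
    intro r hr a ha
    have h1 := inv_mem (Subgroup.mem_map_of_mem R.subtype (hαU ⟨a, ha⟩ ⟨r, hr⟩))
    have h2 : ⁅r, a⁆ = (R.subtype (conjHom R a (hA ha) ⟨r, hr⟩ * (⟨r, hr⟩ : R)⁻¹))⁻¹ := by
      simp [conjHom, commutatorElement_def, mul_assoc]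
    rw [h2]
    exact h1
  · intro H hHR hRH
    have e : (H.subgroupOf R ⊔ Φ).map R.subtype = H ⊔ Φ.map R.subtype := by
      rw [Subgroup.map_sup, Subgroup.map_subgroupOf_eq_of_le hHR]
    have h1 : H.subgroupOf R ⊔ Φ = ⊤ := by
      rw [eq_top_iff]
      intro r _
      have h2 : (r : G) ∈ (H.subgroupOf R ⊔ Φ).map R.subtype := by rw [e]; exact hRH r.2
      obtain ⟨r', hr', hrr'⟩ := h2
      have h3 : r' = r := Subtype.ext hrr'
      rw [← h3]; exact hr'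
    exact Subgroup.subgroupOf_eq_top.1 (hng _ h1)
  · intro c k hc hcU hk hkΦ
    obtain ⟨k', hk', rfl⟩ := hk
    have hc' : (⟨c, hc⟩ : R) ∉ U := fun h => hcU (Subgroup.mem_map_of_mem R.subtype h)
    have hkΦ' : k' ∉ Φ := fun h => hkΦ (Subgroup.mem_map_of_mem R.subtype h)
    obtain ⟨hclo, hd⟩ := hck ⟨c, hc⟩ k' hc' hk' hkΦ'
    constructor
    · have h1 := MonoidHom.map_closure R.subtype {(⟨c, hc⟩ : R), k'}
      rw [hclo, Set.image_pair] at h1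
      intro r hr
      show r ∈ Subgroup.closure {R.subtype ⟨c, hc⟩, R.subtype k'}
      rw [← h1]
      exact Subgroup.mem_map_of_mem R.subtype (Subgroup.mem_top (⟨r, hr⟩ : R))
    · intro d hdR
      rw [← Subgroup.map_subtype_commutator] at hdR
      obtain ⟨d', hd', rfl⟩ := hdR
      obtain ⟨i, j, m, hm, hdm⟩ := hd d' hd'
      refine ⟨i, j, (m : G), ?_, ?_⟩
      · rw [← Subgroup.map_subtype_commutator]
        exact Subgroup.mem_map_of_mem R.subtype hm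
      · rw [hdm]; simp

theorem isMetacyclic_of_injective {H R : Type*} [Group H] [Group R] (f : H →* R)
    (hf : Function.Injective f) (hR : Cfsg.IsMetacyclic R) : Cfsg.IsMetacyclic H := by
  obtain ⟨N, hN, hNc, hQc⟩ := hR
  refine ⟨((QuotientGroup.mk' N).comp f).ker, inferInstance, ?_, ?_⟩
  · let φ : ((QuotientGroup.mk' N).comp f).ker →* N :=
      { toFun := fun x => ⟨f x.1, (QuotientGroup.eq_one_iff _).1 (MonoidHom.mem_ker.1 x.2)⟩
        map_one' := by ext; simp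
        map_mul' := fun a b => by ext; simp }
    exact isCyclic_of_injective φ
      (fun a b hab => Subtype.ext (hf (congrArg Subtype.val hab)))
  · exact isCyclic_of_injective (QuotientGroup.kerLift ((QuotientGroup.mk' N).comp f))
      (QuotientGroup.kerLift_injective _)

theorem conj_comm_mem {R A : Subgroup G} {r x : G} (hr : r ∈ R) (hx : x ∈ ⁅R, A⁆) :
    r * x * r⁻¹ ∈ ⁅R, A⁆ := by
  rw [Subgroup.commutator_def] at hx
  induction hx using Subgroup.closure_induction with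
  | mem y hy =>
    obtain ⟨g₁, hg₁, g₂, hg₂, rfl⟩ := hy
    have h1 : r * ⁅g₁, g₂⁆ * r⁻¹ = ⁅r * g₁, g₂⁆ * ⁅r, g₂⁆⁻¹ := by
      simp only [commutatorElement_def]; group
    rw [h1]
    exact mul_mem (Subgroup.commutator_mem_commutator (mul_mem hr hg₁) hg₂)
      (inv_mem (Subgroup.commutator_mem_commutator hr hg₂))
  | one => simp
  | mul a b _ _ ha hb =>
    have h1 : r * (a * b) * r⁻¹ = (r * a * r⁻¹) * (r * b * r⁻¹) := by group
    rw [h1]; exact mul_mem ha hb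
  | inv a _ ha =>
    have h1 : r * a⁻¹ * r⁻¹ = (r * a * r⁻¹)⁻¹ := by group
    rw [h1]; exact inv_mem ha

theorem closure_pair_nf {X : Subgroup G} {c k : G} (hk : k ∈ X)
    (hcX : ∀ x ∈ X, ∀ n : ℤ, c ^ n * x * (c ^ n)⁻¹ ∈ X) :
    ∀ r ∈ Subgroup.closure {c, k}, ∃ i : ℤ, ∃ x ∈ X, r = c ^ i * x := by
  intro r hr
  induction hr using Subgroup.closure_induction with
  | mem y hy =>
    rcases hy with hyc | hyk
    · exact ⟨1, 1, one_mem _, by rw [hyc]; simp⟩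
    · exact ⟨0, k, hk, by rw [Set.mem_singleton_iff.1 hyk]; simp⟩
  | one => exact ⟨0, 1, one_mem _, by simp⟩
  | mul a b _ _ ha hb =>
    obtain ⟨i, x, hx, rfl⟩ := ha
    obtain ⟨j, y, hy, rfl⟩ := hb
    refine ⟨i + j, c ^ (-j) * x * (c ^ (-j))⁻¹ * y, mul_mem (hcX x hx (-j)) hy, ?_⟩
    group
  | inv a _ ha =>
    obtain ⟨i, x, hx, rfl⟩ := ha
    refine ⟨-i, c ^ i * x⁻¹ * (c ^ i)⁻¹, hcX _ (inv_mem hx) i, ?_⟩
    group

end GLevel

/-- Let G be a finite group, p an odd prime, R a metacyclic p-subgroup and A a subgroup of order coprime to p normalizing R. Then [R, A] is abelian; R is generated by [R, A] and R ∩ C_G(A), which meet trivially; and if R is non-abelian and A does not centralize R, then [R, A] and R ∩ C_G(A) are nontrivial cyclic groups and [R, R] ≤ [R, A]. -/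
theorem result {G : Type*} [Group G] [Finite G] (p : ℕ) [Fact p.Prime] (hp : p ≠ 2) (R A : Subgroup G) (hR : IsPGroup p R) (hRm : Cfsg.IsMetacyclic R)
    (hA : (A ≤ Subgroup.normalizer (R : Set G))) (hcop : (Nat.card A).Coprime p) :
    IsMulCommutative ↥⁅R, A⁆ ∧ ⁅R, A⁆ ⊔ (R ⊓ Subgroup.centralizer (A : Set G)) = R ∧ ⁅R, A⁆ ⊓ (R ⊓ Subgroup.centralizer (A : Set G)) = ⊥ ∧
      (¬ IsMulCommutative R → ¬ A ≤ Subgroup.centralizer (R : Set G) →
        ⁅R, A⁆ ≠ ⊥ ∧ IsCyclic ↥⁅R, A⁆ ∧ (R ⊓ Subgroup.centralizer (A : Set G)) ≠ ⊥ ∧ IsCyclic ↥(R ⊓ Subgroup.centralizer (A : Set G)) ∧ ⁅R, R⁆ ≤ ⁅R, A⁆) := by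
  obtain ⟨n, hn⟩ := IsPGroup.iff_card.1 hR
  have hcopR : (Nat.card A).Coprime (Nat.card R) := by
    rw [hn]; exact Nat.Coprime.pow_right n hcop
  have hsolv : Group.IsSolvable A ∨ Group.IsSolvable R :=
    Or.inr (by have := hR.isNilpotent; infer_instance)
  have hKR : ⁅R, A⁆ ≤ R := Cfsg.Agent.Lib.Helper1.commutator_le_of_le_normalizer hA
  have hAK : A ≤ Subgroup.normalizer ((⁅R, A⁆ : Subgroup G) : Set G) :=
    Cfsg.Agent.Lib.Helper1.le_normalizer_commutator hA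
  have h26 : ⁅R, A⁆ ⊔ (R ⊓ Subgroup.centralizer (A : Set G)) = R :=
    Cfsg.Agent.S0026.result A R hA hcopR hsolv
  have h27 : ⁅⁅R, A⁆, A⁆ = ⁅R, A⁆ := Cfsg.Agent.S0027.result A R hA hcopR hsolv
  have hKp : IsPGroup p (⁅R, A⁆ : Subgroup G) := hR.to_le hKR
  have hKm : Cfsg.IsMetacyclic (⁅R, A⁆ : Subgroup G) :=
    isMetacyclic_of_injective (Subgroup.inclusion hKR) (Subgroup.inclusion_injective hKR) hRm
  have hKab : IsMulCommutative (⁅R, A⁆ : Subgroup G) := by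
    by_contra hna
    obtain ⟨U, Φ, hUK, hUne, _, hKU, _⟩ := thmE p hp ⁅R, A⁆ A hKp hKm hAK hcop hna
    rw [h27] at hKU
    exact hUne (le_antisymm hUK hKU)
  have hKcomm : ∀ a ∈ ⁅R, A⁆, ∀ b ∈ ⁅R, A⁆, a * b = b * a := by
    intro a ha b hb
    exact congrArg Subtype.val (mul_comm' (⟨a, ha⟩ : (⁅R, A⁆ : Subgroup G)) ⟨b, hb⟩)
  have hKC : ⁅R, A⁆ ⊓ (R ⊓ Subgroup.centralizer (A : Set G)) = ⊥ := by
    have hcopK : (Nat.card A).Coprime (Nat.card (⁅R, A⁆ : Subgroup G)) :=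
      Nat.Coprime.coprime_dvd_right (Subgroup.card_dvd_of_le hKR) hcopR
    have h55 := (Cfsg.Agent.S0055.result A ⁅R, A⁆ hAK hcopK).1
    rw [h27] at h55
    rw [eq_bot_iff] at h55 ⊢
    intro x hx
    exact h55 ⟨⟨hx.1, hx.2.2⟩, hx.1⟩
  have hKC1 : ∀ x ∈ ⁅R, A⁆, x ∈ R ⊓ Subgroup.centralizer (A : Set G) → x = 1 := by
    intro x hx hx'
    have h1 : x ∈ ⁅R, A⁆ ⊓ (R ⊓ Subgroup.centralizer (A : Set G)) := ⟨hx, hx'⟩
    rw [hKC] at h1
    exact Subgroup.mem_bot.1 h1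
  refine ⟨hKab, h26, hKC, ?_⟩
  intro hna hAC
  obtain ⟨U, Φ, hUR, hUne, hΦU, hKU, hng, hck⟩ := thmE p hp R A hR hRm hA hcop hna
  have hc : ∃ c ∈ R ⊓ Subgroup.centralizer (A : Set G), c ∉ U := by
    by_contra hcon
    push Not at hcon
    apply hUne
    apply le_antisymm hUR
    rw [← h26]
    exact sup_le hKU hcon
  obtain ⟨c, hcC, hcU⟩ := hc
  have hcR : c ∈ R := (Subgroup.mem_inf.1 hcC).1
  have hk : ∃ k ∈ ⁅R, A⁆, k ∉ Φ := by
    by_contra hcon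
    push Not at hcon
    have h1 : R ≤ (R ⊓ Subgroup.centralizer (A : Set G)) ⊔ Φ := by
      conv_lhs => rw [← h26]
      rw [sup_comm]
      exact sup_le_sup_left hcon _
    have h2 : R ≤ R ⊓ Subgroup.centralizer (A : Set G) := hng _ inf_le_left h1
    exact hAC (Subgroup.le_centralizer_iff.1 (h2.trans inf_le_right))
  obtain ⟨k, hkK, hkΦ⟩ := hk
  obtain ⟨hgen, hpow⟩ := hck c k hcR hcU (hKU hkK) hkΦ
  have hKne : ⁅R, A⁆ ≠ ⊥ := by
    intro h0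
    exact hAC (Subgroup.le_centralizer_iff.1 (Subgroup.commutator_eq_bot_iff_le_centralizer.1 h0))
  have hCne : R ⊓ Subgroup.centralizer (A : Set G) ≠ ⊥ := by
    intro h0
    rw [h0, sup_bot_eq] at h26
    exact hna (h26 ▸ hKab)
  have hcK : ∀ x ∈ ⁅R, A⁆, ∀ m : ℤ, c ^ m * x * (c ^ m)⁻¹ ∈ ⁅R, A⁆ :=
    fun x hx m => conj_comm_mem (zpow_mem hcR m) hx
  have hnfK : ∀ r ∈ R, ∃ i : ℤ, ∃ x ∈ ⁅R, A⁆, r = c ^ i * x :=
    fun r hr => closure_pair_nf hkK hcK r (hgen hr)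
  -- C is cyclic
  have hCeq : Subgroup.zpowers c = R ⊓ Subgroup.centralizer (A : Set G) := by
    apply le_antisymm (Subgroup.zpowers_le.2 hcC)
    intro u hu
    obtain ⟨i, x, hx, rfl⟩ := hnfK u (Subgroup.mem_inf.1 hu).1
    have h1 : x ∈ R ⊓ Subgroup.centralizer (A : Set G) := by
      have h2 : x = (c ^ i)⁻¹ * (c ^ i * x) := by group
      rw [h2]
      exact mul_mem (inv_mem (zpow_mem hcC i)) hu
    rw [hKC1 x hx h1, mul_one]
    exact Subgroup.zpow_mem_zpowers c i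
  -- R' ≤ K
  have hRK : ⁅R, R⁆ ≤ ⁅R, A⁆ := by
    rw [Subgroup.commutator_le]
    intro u hu v hv
    obtain ⟨i, x, hx, rfl⟩ := hnfK u hu
    obtain ⟨j, y, hy, rfl⟩ := hnfK v hv
    have h1 : ⁅c ^ i * x, c ^ j * y⁆ = (c ^ i * x * (c ^ i)⁻¹) *
        (c ^ (i + j) * (y * x⁻¹) * (c ^ (i + j))⁻¹) * (c ^ j * y⁻¹ * (c ^ j)⁻¹) := by
      simp only [commutatorElement_def]; group
    rw [h1]
    exact mul_mem (mul_mem (hcK x hx i) (hcK _ (mul_mem hy (inv_mem hx)) (i + j)))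
      (hcK _ (inv_mem hy) j)
  -- K ≤ ⟨k⟩ R'
  have hXK : Subgroup.zpowers k ⊔ ⁅R, R⁆ ≤ ⁅R, A⁆ := sup_le (Subgroup.zpowers_le.2 hkK) hRK
  have hcX : ∀ x ∈ Subgroup.zpowers k ⊔ ⁅R, R⁆, ∀ m : ℤ,
      c ^ m * x * (c ^ m)⁻¹ ∈ Subgroup.zpowers k ⊔ ⁅R, R⁆ := by
    intro x hx m
    have h1 : c ^ m * x * (c ^ m)⁻¹ = ⁅c ^ m, x⁆ * x := by
      simp only [commutatorElement_def]; group
    rw [h1]
    exact mul_mem (Subgroup.mem_sup_right (Subgroup.commutator_mem_commutator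
      (zpow_mem hcR m) (hKR (hXK hx)))) hx
  have hKX : ⁅R, A⁆ ≤ Subgroup.zpowers k ⊔ ⁅R, R⁆ := by
    intro κ hκ
    obtain ⟨i, x, hx, hκx⟩ := closure_pair_nf
      (Subgroup.mem_sup_left (Subgroup.mem_zpowers k)) hcX κ (hgen (hKR hκ))
    have h1 : c ^ i = κ * x⁻¹ := by rw [hκx]; group
    have h2 : c ^ i = 1 := by
      apply hKC1 _ _ (zpow_mem hcC i)
      rw [h1]
      exact mul_mem hκ (inv_mem (hXK hx))
    rw [hκx, h2, one_mul]
    exact hx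
  -- R' ≤ ⟨k⟩
  have hstep1 : ∀ z ∈ ⁅R, R⁆, ∃ j : ℤ, ∃ m ∈ ⁅R, R⁆, z = k ^ ((p : ℤ) * j) * m ^ p := by
    intro z hz
    obtain ⟨i, j, m, hm, hzm⟩ := hpow z hz
    refine ⟨j, m, hm, ?_⟩
    have h1 : c ^ ((p : ℤ) * i) = z * (m ^ p)⁻¹ * (k ^ ((p : ℤ) * j))⁻¹ := by
      rw [hzm]; group
    have h2 : c ^ ((p : ℤ) * i) = 1 := by
      apply hKC1 _ _ (zpow_mem hcC _)
      rw [h1]
      exact mul_mem (mul_mem (hRK hz) (inv_mem (pow_mem (hRK hm) p)))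
        (inv_mem (zpow_mem hkK _))
    rw [hzm, h2, one_mul]
  have hstep2 : ∀ N : ℕ, ∀ z ∈ ⁅R, R⁆, ∃ j : ℤ, ∃ m ∈ ⁅R, R⁆, z = k ^ j * m ^ (p ^ N) := by
    intro N
    induction N with
    | zero => intro z hz; exact ⟨0, z, hz, by simp⟩
    | succ N ih =>
      intro z hz
      obtain ⟨j, m, hm, hzm⟩ := ih z hz
      obtain ⟨j', m', hm', hmm'⟩ := hstep1 m hm
      refine ⟨j + (p : ℤ) * j' * (p ^ N : ℕ), m', hm', ?_⟩
      have hcomm : Commute (k ^ ((p : ℤ) * j')) (m' ^ p) :=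
        hKcomm _ (zpow_mem hkK _) _ (pow_mem (hRK hm') p)
      rw [hzm, hmm', hcomm.mul_pow, ← pow_mul, ← pow_succ', zpow_add, mul_assoc,
        zpow_mul k ((p : ℤ) * j') ((p ^ N : ℕ) : ℤ), zpow_natCast]
  have hRk : ⁅R, R⁆ ≤ Subgroup.zpowers k := by
    intro z hz
    obtain ⟨j, m, hm, hzm⟩ := hstep2 n z hz
    have hmR : m ∈ R := Subgroup.commutator_le_self R hm
    have h1 : m ^ (p ^ n) = 1 := by
      have h2 : (⟨m, hmR⟩ : R) ^ (Nat.card R) = 1 := pow_card_eq_one'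
      rw [hn] at h2
      exact congrArg Subtype.val h2
    rw [hzm, h1, mul_one]
    exact Subgroup.zpow_mem_zpowers k j
  have hKeq : Subgroup.zpowers k = ⁅R, A⁆ :=
    le_antisymm (Subgroup.zpowers_le.2 hkK) (hKX.trans (sup_le le_rfl hRk))
  exact ⟨hKne, (Subgroup.isCyclic_iff_exists_zpowers_eq_top _).2 ⟨k, hKeq⟩, hCne,
    (Subgroup.isCyclic_iff_exists_zpowers_eq_top _).2 ⟨c, hCeq⟩, hRK⟩

end Cfsg.Agent.S1447
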