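import Cfsg.Statements.S1449
import Mathlib
import Cfsg.Agent.Lib.Helper34.Rank2b

set_option autoImplicit false
open Cfsg

namespace Cfsg.Agent.S1449

/-- Let G be a finite group, p an odd prime, R a p-subgroup with no elementary abelian subgroup of order p ^ 3, and A a solvable subgroup of odd order normalizing R with A ∩ C_G(R) = 1. Then the derived subgroup [A, A] is a p-group. -/
theorem result {G : Type*} [Group G] [Finite G] (p : ℕ) [Fact p.Prime] (hp : p ≠ 2) (R A : Subgroup G) (hR : IsPGroup p R) (hr : Cfsg.PRankLE p 2 R)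
    (hA : (A ≤ Subgroup.normalizer (R : Set G))) (hAs : Group.IsSolvable A) (hAodd : Odd (Nat.card A)) (hfaith : A ⊓ Subgroup.centralizer (R : Set G) = ⊥) :
    IsPGroup p ↥⁅A, A⁆ := by
  have key := Cfsg.Agent.Lib.Helper34.commutator_isPGroup_of_rank2 p hp hR hr hAs hAodd
    (Cfsg.Agent.Lib.Helper34.conjAut R A hA) (by
      intro a ha
      refine ⟨0, ?_⟩
      rw [pow_zero, pow_one]
      have h1 : (a : G) ∈ A ⊓ Subgroup.centralizer (R : Set G) := by
        refine ⟨a.2, ?_⟩
        apply Subgroup.mem_centralizer_iff.mpr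
        intro x hx
        have h2 := Cfsg.Agent.Lib.Helper34.conjAut_apply R A hA a ⟨x, hx⟩
        rw [ha] at h2
        have h3 : x = (a : G) * x * (a : G)⁻¹ := h2
        calc x * (a : G) = ((a : G) * x * (a : G)⁻¹) * a := by rw [← h3]
          _ = a * x := by group
      rw [hfaith] at h1
      exact Subtype.ext (Subgroup.mem_bot.mp h1))
  have h4 : (⁅A, A⁆ : Subgroup G) = (commutator ↥A).map A.subtype := by
    rw [Subgroup.map_subtype_commutator]
  rw [h4]
  exact key.map _

end Cfsg.Agent.S1449
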