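import Cfsg.Statements.S1450
import Mathlib
import Cfsg.Agent.Lib.Helper34.Rank2c

set_option autoImplicit false
open Cfsg

namespace Cfsg.Agent.S1450

/-- Let G be a solvable group of odd order, p a prime dividing its order with G having no elementary abelian subgroup of order p ^ 3. Then every prime dividing the index of O_{p'}(G) is at most p; if p = 3 or p is the smallest prime divisor of #G then G has a normal p-complement; the derived subgroup G' has a normal p-complement; every subgroup of G' of order coprime to p lies in O_{p'}(G'); and G/O_{p',p}(G) is abelian of order coprime to p. -/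
theorem result {G : Type*} [Group G] [Finite G] [Group.IsSolvable G] (hodd : Odd (Nat.card G)) (p : ℕ) [Fact p.Prime] (hpG : p ∣ Nat.card G) (hr : Cfsg.PRankLE p 2 G) :
    (∀ q : ℕ, q.Prime → q ∣ (Cfsg.pPrimeCore p G).index → q ≤ p) ∧
      ((p = 3 ∨ ∀ q : ℕ, q.Prime → q ∣ Nat.card G → p ≤ q) → Cfsg.HasNormalPComplement p G) ∧
      Cfsg.HasNormalPComplement p ↥(commutator G) ∧
      (∀ L : Subgroup ↥(commutator G), (Nat.card L).Coprime p → L ≤ Cfsg.pPrimeCore p ↥(commutator G)) ∧
      commutator G ≤ Cfsg.pPrimePCore p G ∧ ((Cfsg.pPrimePCore p G).index).Coprime p := by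
  have hp : p ≠ 2 := by
    rintro rfl
    exact (Nat.not_even_iff_odd.mpr hodd) (even_iff_two_dvd.mpr hpG)
  obtain ⟨h1, h2⟩ := Cfsg.Agent.Lib.Helper34.rank2_quotient_core hodd p hr hp
  exact Cfsg.Agent.Lib.Helper34.npc_conclusions hodd p h1 h2

end Cfsg.Agent.S1450
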