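import Mathlib
import Cfsg.Statements.S1452
import Cfsg.Agent.S0130
import Cfsg.Agent.Lib.Helper3.MaxClass

set_option autoImplicit false
open Cfsg
open scoped commutatorElement

namespace Cfsg.Agent.S1452

variable {R : Type*} [Group R]

/-- adjoining to a normal abelian subgroup `A` an element `s ∈ C(A)` which is central
modulo `A` gives a normal abelian subgroup -/
theorem exists_larger {A : Subgroup R} [hAn : A.Normal] (hA : IsMulCommutative A) {s : R}
    (hsC : s ∈ Subgroup.centralizer (A : Set R)) (hs : ∀ g : R, ⁅g, s⁆ ∈ A) :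
    ∃ B : Subgroup R, B.Normal ∧ IsMulCommutative B ∧ A ≤ B ∧ s ∈ B := by
  have hcentA : ∀ a ∈ A, a * s = s * a := fun a ha => Subgroup.mem_centralizer_iff.mp hsC a ha
  set T : Set R := (A : Set R) ∪ {s} with hT
  set B := Subgroup.closure T with hB
  have hTcomm : ∀ u ∈ T, ∀ v ∈ T, u * v = v * u := by
    intro u hu v hv
    rcases hu with hu | hu <;> rcases hv with hv | hv
    · exact congrArg Subtype.val (hA.is_comm.comm ⟨u, hu⟩ ⟨v, hv⟩)
    · rw [Set.mem_singleton_iff] at hv
      subst hv
      exact hcentA u hu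
    · rw [Set.mem_singleton_iff] at hu
      subst hu
      exact (hcentA v hv).symm
    · rw [Set.mem_singleton_iff] at hu hv
      rw [hu, hv]
  have h1 : B ≤ Subgroup.centralizer T := by
    rw [hB, Subgroup.closure_le]
    intro u hu
    exact Subgroup.mem_centralizer_iff.mpr fun v hv => hTcomm v hv u hu
  have h2 : B ≤ Subgroup.centralizer (B : Set R) := by
    rw [hB, Subgroup.closure_le]
    intro u hu
    refine Subgroup.mem_centralizer_iff.mpr fun b hb => ?_
    exact (Subgroup.mem_centralizer_iff.mp (h1 hb) u hu).symm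
  have hBc : ∀ b₁ ∈ B, ∀ b₂ ∈ B, b₁ * b₂ = b₂ * b₁ := fun b₁ hb₁ b₂ hb₂ =>
    Subgroup.mem_centralizer_iff.mp (h2 hb₂) b₁ hb₁
  have hAB : A ≤ B := fun a ha => Subgroup.subset_closure (Or.inl ha)
  have hsB : s ∈ B := Subgroup.subset_closure (Or.inr rfl)
  have hBn : B.Normal := by
    refine ⟨fun b hb g => ?_⟩
    induction hb using Subgroup.closure_induction with
    | mem u hu =>
      rcases hu with hu | hu
      · exact hAB (hAn.conj_mem u hu g)
      · rw [Set.mem_singleton_iff] at hu
        subst hu
        have e : g * u * g⁻¹ = ⁅g, u⁆ * u := by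
          simp only [commutatorElement_def]; group
        rw [e]
        exact B.mul_mem (hAB (hs g)) hsB
    | one => simp
    | mul a b _ _ iha ihb =>
      have e : g * (a * b) * g⁻¹ = (g * a * g⁻¹) * (g * b * g⁻¹) := by group
      rw [e]
      exact B.mul_mem iha ihb
    | inv a _ iha =>
      have e : g * a⁻¹ * g⁻¹ = (g * a * g⁻¹)⁻¹ := by group
      rw [e]
      exact B.inv_mem iha
  exact ⟨B, hBn, ⟨⟨fun a b => Subtype.ext (hBc a a.2 b b.2)⟩⟩, hAB, hsB⟩

/-- in a nilpotent group, a normal subgroup `C` not contained in the subgroup `A` contains an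
element outside `A` all of whose commutators lie in `A` -/
theorem exists_central_mod [hnil : Group.IsNilpotent R] {A C : Subgroup R} [hCn : C.Normal]
    (hne : ¬ C ≤ A) : ∃ s ∈ C, s ∉ A ∧ ∀ g : R, ⁅g, s⁆ ∈ A := by
  classical
  let Cs : ℕ → Subgroup R := fun i => Nat.rec (motive := fun _ => Subgroup R) C (fun _ K => ⁅K, (⊤ : Subgroup R)⁆) i
  have hCs0 : Cs 0 = C := rfl
  have hCss : ∀ i, Cs (i + 1) = ⁅Cs i, (⊤ : Subgroup R)⁆ := fun i => rfl
  have hCsC : ∀ i, Cs i ≤ C := by
    intro i
    induction i with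
    | zero => exact le_rfl
    | succ i ih =>
      rw [hCss]
      exact (Subgroup.commutator_mono ih le_rfl).trans (Subgroup.commutator_le_left C ⊤)
  have hCsL : ∀ i, Cs i ≤ (⊤ : Subgroup R).lowerCentralSeries i := by
    intro i
    induction i with
    | zero => exact le_top
    | succ i ih =>
      rw [hCss, Subgroup.lowerCentralSeries_succ]
      exact Subgroup.commutator_mono ih le_rfl
  have hex : ∃ i, Cs i ≤ A := by
    refine ⟨Group.nilpotencyClass R, ?_⟩
    have := hCsL (Group.nilpotencyClass R)
    rw [Subgroup.lowerCentralSeries_nilpotencyClass] at this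
    exact this.trans bot_le
  have hstep : ∀ n, Cs n ≤ A → ∃ k, ¬ Cs k ≤ A ∧ Cs (k + 1) ≤ A := by
    intro n
    induction n with
    | zero => intro h; exact absurd h hne
    | succ n ih =>
      intro h
      rcases Classical.em (Cs n ≤ A) with hn | hn
      · exact ih hn
      · exact ⟨n, hn, h⟩
  obtain ⟨i, hi⟩ := hex
  obtain ⟨k, hkA, hk1A⟩ := hstep i hi
  obtain ⟨s, hsk, hsA⟩ := SetLike.not_le_iff_exists.mp hkA
  refine ⟨s, hCsC k hsk, hsA, fun g => ?_⟩
  have h1 : ⁅s, g⁆ ∈ A := hk1A (by
    rw [hCss]
    exact Subgroup.commutator_mem_commutator hsk (Subgroup.mem_top g))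
  rw [← commutatorElement_inv]
  exact A.inv_mem h1

/-- a normal abelian subgroup of a finite `p`-group lies in a self-centralizing normal subgroup -/
theorem exists_selfCentralizing [Finite R] {p : ℕ} [Fact p.Prime] (hR : IsPGroup p R)
    (B : Subgroup R) [hBn : B.Normal] (hB : IsMulCommutative B) :
    ∃ A : Subgroup R, B ≤ A ∧ A.Normal ∧ Subgroup.centralizer (A : Set R) = A := by
  classical
  have hnil : Group.IsNilpotent R := hR.isNilpotent
  let F := {A : Subgroup R // A.Normal ∧ IsMulCommutative A ∧ B ≤ A}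
  have hne : Nonempty F := ⟨⟨B, hBn, hB, le_rfl⟩⟩
  obtain ⟨⟨A, hAn, hAc, hBA⟩, hAmax⟩ := Finite.exists_max (fun A : F => Nat.card A.1)
  refine ⟨A, hBA, hAn, ?_⟩
  have hle : A ≤ Subgroup.centralizer (A : Set R) := by
    intro a ha
    exact Subgroup.mem_centralizer_iff.mpr fun h hh =>
      congrArg Subtype.val (hAc.is_comm.comm ⟨h, hh⟩ ⟨a, ha⟩)
  refine le_antisymm ?_ hle
  by_contra hcon
  have := hAn
  obtain ⟨s, hsC, hsA, hs⟩ := exists_central_mod (A := A)
    (C := Subgroup.centralizer (A : Set R)) hcon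
  obtain ⟨B', hB'n, hB'c, hAB', hsB'⟩ := exists_larger hAc hsC hs
  have hcard := hAmax ⟨B', hB'n, hB'c, hBA.trans hAB'⟩
  have heq := Subgroup.eq_of_le_of_card_ge hAB' hcard
  exact hsA (heq ▸ hsB')

/-- Let p be an odd prime and R a finite p-group containing an elementary abelian subgroup of order p ^ 3. If E is a normal elementary abelian subgroup of R of order p ^ 2, then E ≤ A for some normal subgroup A of R with C_R(A) = A that contains an elementary abelian subgroup of order p ^ 3. -/
theorem result {R : Type*} [Group R] [Finite R] (p : ℕ) [Fact p.Prime] (hp : p ≠ 2) (hR : IsPGroup p R) (hr : ¬ Cfsg.PRankLE p 2 R)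
    (E : Subgroup R) [E.Normal] (hE : Cfsg.IsElementaryAbelian p E) (hE2 : Nat.card E = p ^ 2) :
    ∃ A : Subgroup R, E ≤ A ∧ A.Normal ∧ Subgroup.centralizer (A : Set R) = A ∧ ¬ Cfsg.PRankLE p 2 A := by
  classical
  have hpp : p.Prime := Fact.out
  -- Step 1: `B` maximal among the normal elementary abelian subgroups containing `E`
  let F := {B : Subgroup R // B.Normal ∧ IsElementaryAbelian p B ∧ E ≤ B}
  have hneF : Nonempty F := ⟨⟨E, inferInstance, hE, le_rfl⟩⟩
  obtain ⟨⟨B, hBn, hBe, hEB⟩, hBmax⟩ := Finite.exists_max (fun B : F => Nat.card B.1)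
  have := hBn
  have halp : ∀ x ∈ Subgroup.centralizer (B : Set R), x ^ p = 1 → x ∈ B := by
    intro x hx hxp
    refine Cfsg.Agent.S0130.result hR 1 (by rw [pow_one]; exact hp) B hBe.1
      (fun a ha => by rw [pow_one]; exact hBe.2 a ha) ?_ x hx (by rw [pow_one]; exact hxp)
    intro B' hB'n hB'c hB'e hBB'
    have := hBmax ⟨B', hB'n, ⟨hB'c, fun b hb => by simpa using hB'e b hb⟩, hEB.trans hBB'⟩
    exact (Subgroup.eq_of_le_of_card_ge hBB' this).symm
  -- Step 2: `B` has order larger than `p^2`
  have hBcard : p ^ 2 < Nat.card B := by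
    by_contra hcon
    push Not at hcon
    have hBE : E = B := Subgroup.eq_of_le_of_card_ge hEB (by rw [hE2]; exact hcon)
    rw [← hBE] at halp
    unfold PRankLE at hr
    push Not at hr
    obtain ⟨V, hVc, hVe, hVcard⟩ := hr
    have hEne : E ≠ ⊥ := by
      intro h
      rw [h, Subgroup.card_bot] at hE2
      have : 1 < p ^ 2 := Nat.one_lt_pow (by norm_num) hpp.one_lt
      omega
    obtain ⟨z, hzE, hzc, hzo⟩ := Cfsg.Agent.Lib.Helper3.exists_central_order_p hR E hEne
    have hzcard : Nat.card (Subgroup.zpowers z) = p := by rw [Nat.card_zpowers, hzo]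
    have hzle : Subgroup.zpowers z ≤ E := by
      rw [Subgroup.zpowers_le]; exact hzE
    obtain ⟨e, heE, hez⟩ : ∃ e ∈ E, e ∉ Subgroup.zpowers z := by
      by_contra hall
      push Not at hall
      have h1 : E ≤ Subgroup.zpowers z := hall
      have h2 := Subgroup.card_le_of_le h1
      rw [hE2, hzcard] at h2
      have : p < p ^ 2 := by
        calc p = p ^ 1 := (pow_one p).symm
          _ < p ^ 2 := Nat.pow_lt_pow_right hpp.one_lt (by norm_num)
      omega
    have he1 : e ≠ 1 := fun h => hez (h ▸ Subgroup.one_mem _)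
    -- an element commuting with `e` centralizes `E`
    have hcent : ∀ g : R, g * e = e * g → g ∈ Subgroup.centralizer (E : Set R) := by
      intro g hg
      set K := Subgroup.centralizer ({g} : Set R) ⊓ E with hK
      have hzK : Subgroup.zpowers z ≤ K := by
        rw [Subgroup.zpowers_le]
        refine ⟨Subgroup.mem_centralizer_iff.mpr fun h hh => ?_, hzE⟩
        rw [Set.mem_singleton_iff] at hh
        subst hh
        exact (Subgroup.mem_center_iff.mp hzc h)
      have heK : e ∈ K := by
        refine ⟨Subgroup.mem_centralizer_iff.mpr fun h hh => ?_, heE⟩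
        rw [Set.mem_singleton_iff] at hh
        subst hh
        exact hg
      have hlt : Subgroup.zpowers z < K :=
        lt_of_le_of_ne hzK (fun h => hez (h ▸ heK))
      have hKE : K ≤ E := inf_le_right
      have hdvd : Nat.card K ∣ p ^ 2 := hE2 ▸ Subgroup.card_dvd_of_le hKE
      obtain ⟨j, hj2, hj⟩ := (Nat.dvd_prime_pow hpp).mp hdvd
      have hlt' : p < Nat.card K := by
        rcases Nat.lt_or_ge p (Nat.card K) with h | h
        · exact h
        · have := Subgroup.eq_of_le_of_card_ge hzK (by rw [hzcard]; exact h)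
          exact absurd this (ne_of_lt hlt)
      have hj' : j = 2 := by
        rw [hj] at hlt'
        have : 1 < j := by
          by_contra hj1
          push Not at hj1
          have : p ^ j ≤ p ^ 1 := Nat.pow_le_pow_right hpp.pos hj1
          rw [pow_one] at this
          omega
        omega
      have hKeq : K = E := Subgroup.eq_of_le_of_card_ge hKE (by rw [hj, hj', hE2])
      refine Subgroup.mem_centralizer_iff.mpr fun x hx => ?_
      have hxK : x ∈ K := hKeq ▸ hx
      have := Subgroup.mem_centralizer_iff.mp hxK.1 g rfl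
      exact this.symm
    -- the conjugation action of `V`
    have hVp : IsPGroup p V := hR.to_subgroup V
    let _inst : MulAction V R := MulAction.compHom R ((MulAut.conj : R →* MulAut R).comp V.subtype)
    have hsmul : ∀ (v : V) (x : R), v • x = (v : R) * x * (v : R)⁻¹ := fun v x => rfl
    have horb : MulAction.orbit V e ⊆ (E : Set R) \ {1} := by
      rintro _ ⟨v, rfl⟩
      refine ⟨?_, ?_⟩
      · show v • e ∈ E
        rw [hsmul]
        exact ‹E.Normal›.conj_mem e heE v
      · intro h1
        rw [Set.mem_singleton_iff] at h1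
        have h2 : (v : R) * e * (v : R)⁻¹ = 1 := h1
        apply he1
        have e3 : e = (v : R)⁻¹ * ((v : R) * e * (v : R)⁻¹) * (v : R) := by group
        rw [e3, h2]; group
    have horbcard : Nat.card (MulAction.orbit V e) ≤ p := by
      obtain ⟨j, hj⟩ := hVp.card_orbit (α := R) e
      have hle : Nat.card (MulAction.orbit V e) ≤ p ^ 2 - 1 := by
        rw [Nat.card_coe_set_eq]
        have h1 := Set.ncard_le_ncard horb (Set.toFinite _)
        have h2 : ((E : Set R) \ {1}).ncard = p ^ 2 - 1 := by
          rw [Set.ncard_sdiff_singleton_of_mem E.one_mem, ← hE2]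
          rfl
        rwa [h2] at h1
      rw [hj] at hle ⊢
      have hj1 : j ≤ 1 := by
        by_contra hj1
        push Not at hj1
        have : p ^ 2 ≤ p ^ j := Nat.pow_le_pow_right hpp.pos hj1
        have : 0 < p ^ 2 := pow_pos hpp.pos 2
        omega
      calc p ^ j ≤ p ^ 1 := Nat.pow_le_pow_right hpp.pos hj1
        _ = p := pow_one p
    set St := MulAction.stabilizer V e with hSt
    have hidx : St.index = Nat.card (MulAction.orbit V e) := by
      rw [hSt, MulAction.index_stabilizer, Nat.card_coe_set_eq]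
    set D := St.map V.subtype with hD
    have hDcard : Nat.card D = Nat.card St :=
      Subgroup.card_map_of_injective V.subtype_injective
    have hDV : D ≤ V := Subgroup.map_subtype_le St
    have hDE : D ≤ E := by
      rintro _ ⟨v, hv, rfl⟩
      have hv' : v • e = e := hv
      rw [hsmul] at hv'
      have hcomm : (v : R) * e = e * (v : R) := by
        calc (v : R) * e = ((v : R) * e * (v : R)⁻¹) * (v : R) := by group
          _ = e * (v : R) := by rw [hv']
      exact halp _ (hcent _ hcomm) (hVe _ v.2)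
    have hVcard2 : Nat.card V = Nat.card (MulAction.orbit V e) * Nat.card D := by
      rw [hDcard, ← hidx, mul_comm]
      exact (Subgroup.card_mul_index St).symm
    obtain ⟨k, hk⟩ := IsPGroup.iff_card.mp hVp
    have hk3 : 3 ≤ k := by
      by_contra hk3
      push Not at hk3
      have : p ^ k ≤ p ^ 2 := Nat.pow_le_pow_right hpp.pos (by omega)
      omega
    have hp3 : p ^ 3 ≤ Nat.card V := hk ▸ Nat.pow_le_pow_right hpp.pos hk3
    have hDge : p ^ 2 ≤ Nat.card D := by
      have h1 : Nat.card V ≤ p * Nat.card D := by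
        rw [hVcard2]
        exact Nat.mul_le_mul_right _ horbcard
      have h2 : p * p ^ 2 ≤ p * Nat.card D := by
        calc p * p ^ 2 = p ^ 3 := by ring
          _ ≤ Nat.card V := hp3
          _ ≤ p * Nat.card D := h1
      exact Nat.le_of_mul_le_mul_left h2 hpp.pos
    have hDeq : D = E := Subgroup.eq_of_le_of_card_ge hDE (by rw [hE2]; exact hDge)
    have hEV : E ≤ V := hDeq ▸ hDV
    have hVE : V ≤ E := by
      intro v hv
      refine halp v (Subgroup.mem_centralizer_iff.mpr fun x hx => ?_) (hVe v hv)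
      exact congrArg Subtype.val (hVc.is_comm.comm ⟨x, hEV hx⟩ ⟨v, hv⟩)
    have := Subgroup.card_le_of_le hVE
    omega
  -- Step 3
  obtain ⟨A, hBA, hAn, hAc⟩ := exists_selfCentralizing hR B hBe.1
  refine ⟨A, hEB.trans hBA, hAn, hAc, ?_⟩
  intro hrank
  have hc : IsMulCommutative (B.subgroupOf A) := by
    refine ⟨⟨fun x y => Subtype.ext (Subtype.ext ?_)⟩⟩
    have h0 : (x.1.1 : R) * y.1.1 = y.1.1 * x.1.1 := congrArg Subtype.val
      (hBe.1.is_comm.comm ⟨x.1.1, Subgroup.mem_subgroupOf.mp x.2⟩
        ⟨y.1.1, Subgroup.mem_subgroupOf.mp y.2⟩)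
    exact h0
  have he : ∀ a ∈ B.subgroupOf A, a ^ p = 1 := by
    intro a ha
    apply Subtype.ext
    rw [Subgroup.coe_pow]
    exact hBe.2 _ (Subgroup.mem_subgroupOf.mp ha)
  have h1 := hrank (B.subgroupOf A) hc he
  rw [Nat.card_congr (Subgroup.subgroupOfEquivOfLe hBA).toEquiv] at h1
  omega

end Cfsg.Agent.S1452
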