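import Mathlib
import Cfsg.Statements.S1453
import Cfsg.Agent.S1452

set_option autoImplicit false
open Cfsg
open scoped commutatorElement

namespace Cfsg.Agent.S1453

variable {R : Type*} [Group R]

/-- the closure of a set of pairwise commuting elements of order dividing `p` is elementary
abelian -/
theorem elemAb_closure {p : ℕ} {T : Set R} (hcomm : ∀ u ∈ T, ∀ v ∈ T, u * v = v * u)
    (hexp : ∀ u ∈ T, u ^ p = 1) : IsElementaryAbelian p (Subgroup.closure T) := by
  set B := Subgroup.closure T with hB
  have h1 : B ≤ Subgroup.centralizer T := by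
    rw [hB, Subgroup.closure_le]
    intro u hu
    exact Subgroup.mem_centralizer_iff.mpr fun v hv => hcomm v hv u hu
  have h2 : B ≤ Subgroup.centralizer (B : Set R) := by
    rw [hB, Subgroup.closure_le]
    intro u hu
    refine Subgroup.mem_centralizer_iff.mpr fun b hb => ?_
    exact (Subgroup.mem_centralizer_iff.mp (h1 hb) u hu).symm
  have hBc : ∀ b₁ ∈ B, ∀ b₂ ∈ B, b₁ * b₂ = b₂ * b₁ := fun b₁ hb₁ b₂ hb₂ =>
    Subgroup.mem_centralizer_iff.mp (h2 hb₂) b₁ hb₁
  refine ⟨⟨⟨fun a b => Subtype.ext (hBc a a.2 b b.2)⟩⟩, ?_⟩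
  intro b hb
  induction hb using Subgroup.closure_induction with
  | mem u hu => exact hexp u hu
  | one => simp
  | mul a b ha hb iha ihb =>
    have hc : Commute a b := hBc a ha b hb
    rw [hc.mul_pow, iha, ihb, mul_one]
  | inv a _ iha => rw [inv_pow, iha, inv_one]

/-- a commuting set of elements of order dividing `p` which commute with a maximal elementary
abelian subgroup `E` lies in `E` -/
theorem le_of_max {p : ℕ} {E : Subgroup R} (hE : IsElementaryAbelian p E)
    (hEmax : ∀ B : Subgroup R, IsElementaryAbelian p B → E ≤ B → B = E) {S : Set R}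
    (hSc : ∀ u ∈ S, ∀ v ∈ S, u * v = v * u) (hSE : ∀ u ∈ S, ∀ x ∈ E, u * x = x * u)
    (hSp : ∀ u ∈ S, u ^ p = 1) : S ⊆ (E : Set R) := by
  have h : IsElementaryAbelian p (Subgroup.closure ((E : Set R) ∪ S)) := by
    apply elemAb_closure
    · intro u hu v hv
      rcases hu with hu | hu <;> rcases hv with hv | hv
      · exact congrArg Subtype.val (hE.1.is_comm.comm ⟨u, hu⟩ ⟨v, hv⟩)
      · exact (hSE v hv u hu).symm
      · exact hSE u hu v hv
      · exact hSc u hu v hv
    · intro u hu
      rcases hu with hu | hu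
      · exact hE.2 u hu
      · exact hSp u hu
  have h2 := hEmax _ h (fun x hx => Subgroup.subset_closure (Or.inl hx))
  intro u hu
  have : u ∈ Subgroup.closure ((E : Set R) ∪ S) := Subgroup.subset_closure (Or.inr hu)
  rw [h2] at this
  exact this

/-- a subgroup between `Z` (of order `p`) and `M` (of order `p^2`) containing an element
outside `Z` equals `M` -/
theorem eq_of_mem_not_mem [Finite R] {p : ℕ} (hpp : p.Prime) {Z K M : Subgroup R} (hZK : Z ≤ K)
    (hKM : K ≤ M) (hZc : Nat.card Z = p) (hMc : Nat.card M = p ^ 2) {e : R} (heK : e ∈ K)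
    (heZ : e ∉ Z) : K = M := by
  have hdvd : Nat.card K ∣ p ^ 2 := hMc ▸ Subgroup.card_dvd_of_le hKM
  obtain ⟨j, hj2, hj⟩ := (Nat.dvd_prime_pow hpp).mp hdvd
  have hlt' : p < Nat.card K := by
    rcases Nat.lt_or_ge p (Nat.card K) with h | h
    · exact h
    · have := Subgroup.eq_of_le_of_card_ge hZK (by rw [hZc]; exact h)
      exact absurd (this ▸ heK) heZ
  have hj' : j = 2 := by
    rw [hj] at hlt'
    have : 1 < j := by
      by_contra hj1
      push Not at hj1
      have : p ^ j ≤ p ^ 1 := Nat.pow_le_pow_right hpp.pos hj1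
      rw [pow_one] at this
      omega
    omega
  exact Subgroup.eq_of_le_of_card_ge hKM (by rw [hj, hj', hMc])

/-- Let p be an odd prime and R a finite p-group with an elementary abelian subgroup of order p ^ 3 and an elementary abelian subgroup E of order p ^ 2 contained in no larger elementary abelian subgroup. Let Z₂ be the second centre of R, W the subgroup generated by the elements of Z₂ of order dividing p, and T = C_R(W). Then E is not contained in T; the elements of order dividing p of the centre of R generate a group of order p; W is elementary abelian of order p ^ 2; and T is characteristic in R of index p. -/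
theorem result {R : Type*} [Group R] [Finite R] (p : ℕ) [Fact p.Prime] (hp : p ≠ 2) (hR : IsPGroup p R) (hr : ¬ Cfsg.PRankLE p 2 R)
    (E : Subgroup R) (hE : Cfsg.IsElementaryAbelian p E) (hE2 : Nat.card E = p ^ 2)
    (hEmax : ∀ B : Subgroup R, Cfsg.IsElementaryAbelian p B → E ≤ B → B = E) :
    ¬ E ≤ Subgroup.centralizer ((Subgroup.closure {x : R | x ∈ Subgroup.upperCentralSeries R 2 ∧ x ^ p = 1} : Subgroup R) : Set R) ∧
      Nat.card ↥(Subgroup.closure {x : R | x ∈ Subgroup.center R ∧ x ^ p = 1}) = p ∧
      (Cfsg.IsElementaryAbelian p (Subgroup.closure {x : R | x ∈ Subgroup.upperCentralSeries R 2 ∧ x ^ p = 1}) ∧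
        Nat.card ↥(Subgroup.closure {x : R | x ∈ Subgroup.upperCentralSeries R 2 ∧ x ^ p = 1}) = p ^ 2) ∧
      (Subgroup.centralizer ((Subgroup.closure {x : R | x ∈ Subgroup.upperCentralSeries R 2 ∧ x ^ p = 1} : Subgroup R) : Set R)).Characteristic ∧
      (Subgroup.centralizer ((Subgroup.closure {x : R | x ∈ Subgroup.upperCentralSeries R 2 ∧ x ^ p = 1} : Subgroup R) : Set R)).index = p := by
  classical
  have hpp : p.Prime := Fact.out
  have hp3 : 3 ≤ p := by
    have := hpp.two_le
    omega
  have hplt : p < p ^ 2 := by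
    calc p = p ^ 1 := (pow_one p).symm
      _ < p ^ 2 := Nat.pow_lt_pow_right hpp.one_lt (by norm_num)
  have hnil : Group.IsNilpotent R := hR.isNilpotent
  have hr0 := hr
  unfold PRankLE at hr
  push Not at hr
  obtain ⟨V, hVc, hVe, hVcard⟩ := hr
  set Zs : Set R := {x : R | x ∈ Subgroup.center R ∧ x ^ p = 1} with hZs
  set Z := Subgroup.closure Zs with hZ
  set X : Set R := {x : R | x ∈ Subgroup.upperCentralSeries R 2 ∧ x ^ p = 1} with hX
  set W := Subgroup.closure X with hW
  -- Step A: `Z = Ω₁(Z(R))` has order `p`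
  have hZsE : Zs ⊆ (E : Set R) := by
    apply le_of_max hE hEmax
    · intro u _ v hv
      exact Subgroup.mem_center_iff.mp hv.1 u
    · intro u hu x _
      exact (Subgroup.mem_center_iff.mp hu.1 x).symm
    · intro u hu
      exact hu.2
  have hZE : Z ≤ E := by
    rw [hZ, Subgroup.closure_le]
    exact hZsE
  have hZcen : Z ≤ Subgroup.center R := by
    rw [hZ, Subgroup.closure_le]
    intro x hx
    exact hx.1
  have hZexp : ∀ x ∈ Z, x ^ p = 1 :=
    (elemAb_closure (p := p) (T := Zs) (fun u _ v hv => Subgroup.mem_center_iff.mp hv.1 u)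
      (fun u hu => hu.2)).2
  have hEcard1 : 1 < Nat.card E := by
    rw [hE2]
    exact Nat.one_lt_pow (by norm_num) hpp.one_lt
  have htop : (⊤ : Subgroup R) ≠ ⊥ := by
    intro h
    have h1 : E = ⊥ := by
      rw [eq_bot_iff, ← h]
      exact le_top
    rw [h1, Subgroup.card_bot] at hEcard1
    omega
  obtain ⟨z, -, hzc, hzo⟩ := Cfsg.Agent.Lib.Helper3.exists_central_order_p hR ⊤ htop
  have hz1 : z ≠ 1 := by
    intro h
    rw [h, orderOf_one] at hzo
    have := hpp.one_lt
    omega
  have hzZs : z ∈ Zs := ⟨hzc, by rw [← hzo]; exact pow_orderOf_eq_one z⟩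
  have hzZ : z ∈ Z := Subgroup.subset_closure hzZs
  have hZcard : Nat.card Z = p := by
    have hdvd : Nat.card Z ∣ p ^ 2 := hE2 ▸ Subgroup.card_dvd_of_le hZE
    obtain ⟨j, hj2, hj⟩ := (Nat.dvd_prime_pow hpp).mp hdvd
    have hj0 : j ≠ 0 := by
      rintro rfl
      rw [pow_zero] at hj
      have : Z = ⊥ := Subgroup.card_eq_one.mp hj
      rw [this, Subgroup.mem_bot] at hzZ
      exact hz1 hzZ
    have hj2' : j ≠ 2 := by
      rintro rfl
      have hZeq : Z = E := Subgroup.eq_of_le_of_card_ge hZE (by rw [hj, hE2])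
      have hEcen : E ≤ Subgroup.center R := hZeq ▸ hZcen
      have hVE : (V : Set R) ⊆ E := by
        apply le_of_max hE hEmax
        · intro u hu v hv
          exact congrArg Subtype.val (hVc.is_comm.comm ⟨u, hu⟩ ⟨v, hv⟩)
        · intro u _ x hx
          exact Subgroup.mem_center_iff.mp (hEcen hx) u
        · intro u hu
          exact hVe u hu
      have := Subgroup.card_le_of_le (show V ≤ E from hVE)
      omega
    have : j = 1 := by omega
    rw [hj, this, pow_one]
  -- Step B: `W = Ω₁(Z₂(R))`
  have hXcomm : ∀ x ∈ X, ∀ g : R, ⁅x, g⁆ ∈ Zs := by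
    intro x hx g
    have hc : ⁅x, g⁆ ∈ Subgroup.center R := by
      have := (Subgroup.mem_upperCentralSeries_succ_iff (n := 1)).mp hx.1 g
      rwa [Subgroup.upperCentralSeries_one] at this
    refine ⟨hc, ?_⟩
    have hct : Commute ⁅x, g⁆ x := (Subgroup.mem_center_iff.mp hc x).symm
    have hts : x * g = ⁅x, g⁆ * g * x := by
      rw [commutatorElement_def]; group
    have e1 := Cfsg.Agent.S0130.pow_mul_of_comm hct hts p
    rw [hx.2, one_mul, mul_one] at e1
    exact mul_eq_right.mp e1.symm
  have hWX : ∀ w ∈ W, w ∈ X := by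
    intro w hw
    induction hw using Subgroup.closure_induction with
    | mem u hu => exact hu
    | one => exact ⟨Subgroup.one_mem _, one_pow _⟩
    | mul a b _ _ iha ihb =>
      refine ⟨Subgroup.mul_mem _ iha.1 ihb.1, ?_⟩
      have hcZ := hXcomm b ihb a
      have hcs : Commute ⁅b, a⁆ a := (Subgroup.mem_center_iff.mp hcZ.1 a).symm
      have hct : Commute ⁅b, a⁆ b := (Subgroup.mem_center_iff.mp hcZ.1 b).symm
      have hts : b * a = ⁅b, a⁆ * a * b := by
        rw [commutatorElement_def]; group
      rw [Cfsg.Agent.S0130.mul_pow_of_comm hcs hct hts p, iha.2, ihb.2, one_mul, one_mul]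
      obtain ⟨k, hk⟩ := hpp.dvd_choose_self (k := 2) (by norm_num) (by omega)
      rw [hk, pow_mul, hcZ.2, one_pow]
    | inv a _ iha => exact ⟨Subgroup.inv_mem _ iha.1, by rw [inv_pow, iha.2, inv_one]⟩
  have hWZ : ∀ w ∈ W, ∀ g : R, ⁅w, g⁆ ∈ Z := fun w hw g =>
    Subgroup.subset_closure (hXcomm w (hWX w hw) g)
  have hWexp : ∀ w ∈ W, w ^ p = 1 := fun w hw => (hWX w hw).2
  have hZW : Z ≤ W := by
    rw [hZ, Subgroup.closure_le]
    intro x hx
    refine Subgroup.subset_closure ⟨?_, hx.2⟩
    rw [Subgroup.mem_upperCentralSeries_succ_iff (n := 1)]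
    intro y
    have : ⁅x, y⁆ = 1 := by
      rw [commutatorElement_def, ← Subgroup.mem_center_iff.mp hx.1 y]; group
    rw [this]
    exact Subgroup.one_mem _
  have hWn : W.Normal := by
    refine ⟨fun w hw g => ?_⟩
    have e : g * w * g⁻¹ = (⁅w, g⁆)⁻¹ * w := by
      simp only [commutatorElement_def]; group
    rw [e]
    exact W.mul_mem (W.inv_mem (hZW (hWZ w hw g))) hw
  -- an element `s ∈ W ∖ Z`
  let F := {B : Subgroup R // B.Normal ∧ IsElementaryAbelian p B}
  have hneF : Nonempty F := ⟨⟨⊥, inferInstance, ⟨⟨⟨fun a b => Subsingleton.elim _ _⟩⟩,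
    fun a ha => by rw [Subgroup.mem_bot.mp ha, one_pow]⟩⟩⟩
  obtain ⟨⟨B₀, hB₀n, hB₀e⟩, hB₀max⟩ := Finite.exists_max (fun B : F => Nat.card B.1)
  have := hB₀n
  have halp : ∀ x ∈ Subgroup.centralizer (B₀ : Set R), x ^ p = 1 → x ∈ B₀ := by
    intro x hx hxp
    refine Cfsg.Agent.S0130.result hR 1 (by rw [pow_one]; exact hp) B₀ hB₀e.1
      (fun a ha => by rw [pow_one]; exact hB₀e.2 a ha) ?_ x hx (by rw [pow_one]; exact hxp)
    intro B' hB'n hB'c hB'e hBB'
    have := hB₀max ⟨B', hB'n, ⟨hB'c, fun b hb => by simpa using hB'e b hb⟩⟩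
    exact (Subgroup.eq_of_le_of_card_ge hBB' this).symm
  have hB₀Z : ¬ B₀ ≤ Z := by
    intro hle
    have hEB : E ≤ B₀ := fun x hx => halp x
      (Subgroup.mem_centralizer_iff.mpr fun h hh =>
        (Subgroup.mem_center_iff.mp (hZcen (hle hh)) x).symm) (hE.2 x hx)
    have h1 := Subgroup.card_le_of_le (hEB.trans hle)
    rw [hE2, hZcard] at h1
    omega
  obtain ⟨s, hsB, hsZ, hs⟩ := Cfsg.Agent.S1452.exists_central_mod (A := Z) (C := B₀) hB₀Z
  have hsX : s ∈ X := by
    refine ⟨?_, hB₀e.2 s hsB⟩
    rw [Subgroup.mem_upperCentralSeries_succ_iff (n := 1)]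
    intro y
    rw [Subgroup.upperCentralSeries_one, ← commutatorElement_inv]
    exact Subgroup.inv_mem _ (hZcen (hs y))
  have hsW : s ∈ W := Subgroup.subset_closure hsX
  -- `e ∈ E ∖ Z`
  obtain ⟨e, heE, heZ⟩ : ∃ e ∈ E, e ∉ Z := by
    by_contra hall
    push Not at hall
    have h1 := Subgroup.card_le_of_le (show E ≤ Z from hall)
    rw [hE2, hZcard] at h1
    omega
  have hcentE : ∀ g : R, g * e = e * g → ∀ x ∈ E, g * x = x * g := by
    intro g hg
    have hZK : Z ≤ Subgroup.centralizer ({g} : Set R) ⊓ E := fun x hx =>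
      ⟨Subgroup.mem_centralizer_iff.mpr fun h hh => by
        rw [Set.mem_singleton_iff] at hh
        subst hh
        exact Subgroup.mem_center_iff.mp (hZcen hx) h, hZE hx⟩
    have heK : e ∈ Subgroup.centralizer ({g} : Set R) ⊓ E :=
      ⟨Subgroup.mem_centralizer_iff.mpr fun h hh => by
        rw [Set.mem_singleton_iff] at hh
        subst hh
        exact hg, heE⟩
    have hKeq := eq_of_mem_not_mem hpp hZK inf_le_right hZcard hE2 heK heZ
    intro x hx
    have hxK : x ∈ Subgroup.centralizer ({g} : Set R) ⊓ E := by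
      rw [hKeq]
      exact hx
    exact Subgroup.mem_centralizer_iff.mp hxK.1 g rfl
  -- the conjugation action of `W` on `e`
  have hWp : IsPGroup p W := hR.to_subgroup W
  let _inst : MulAction W R := MulAction.compHom R ((MulAut.conj : R →* MulAut R).comp W.subtype)
  have hsmul : ∀ (w : W) (x : R), w • x = (w : R) * x * (w : R)⁻¹ := fun w x => rfl
  have horb : MulAction.orbit W e ⊆ (fun ζ : R => ζ * e) '' (Z : Set R) := by
    rintro _ ⟨w, rfl⟩
    refine ⟨⁅(w : R), e⁆, hWZ w w.2 e, ?_⟩
    show ⁅(w : R), e⁆ * e = w • e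
    rw [hsmul, commutatorElement_def]; group
  have horbcard : Nat.card (MulAction.orbit W e) ≤ p := by
    rw [Nat.card_coe_set_eq]
    calc (MulAction.orbit W e).ncard ≤ ((fun ζ : R => ζ * e) '' (Z : Set R)).ncard :=
          Set.ncard_le_ncard horb (Set.toFinite _)
      _ ≤ (Z : Set R).ncard := Set.ncard_image_le (Set.toFinite _)
      _ = p := by rw [← hZcard]; rfl
  set St := MulAction.stabilizer W e with hSt
  have hidx : St.index = Nat.card (MulAction.orbit W e) := by
    rw [hSt, MulAction.index_stabilizer, Nat.card_coe_set_eq]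
  set D := St.map W.subtype with hD
  have hDcard : Nat.card D = Nat.card St :=
    Subgroup.card_map_of_injective W.subtype_injective
  have hDW : D ≤ W := Subgroup.map_subtype_le St
  have hDE : D ≤ E := by
    rintro _ ⟨w, hw, rfl⟩
    have hw' : w • e = e := hw
    rw [hsmul] at hw'
    have hcomm : (w : R) * e = e * (w : R) := by
      calc (w : R) * e = ((w : R) * e * (w : R)⁻¹) * (w : R) := by group
        _ = e * (w : R) := by rw [hw']
    have hsub : ({(w : R)} : Set R) ⊆ E := by
      apply le_of_max hE hEmax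
      · intro u hu v hv
        rw [Set.mem_singleton_iff] at hu hv
        rw [hu, hv]
      · intro u hu x hx
        rw [Set.mem_singleton_iff] at hu
        subst hu
        exact hcentE _ hcomm x hx
      · intro u hu
        rw [Set.mem_singleton_iff] at hu
        subst hu
        exact hWexp _ w.2
    exact hsub rfl
  have hWcard2 : Nat.card W = Nat.card (MulAction.orbit W e) * Nat.card D := by
    rw [hDcard, ← hidx, mul_comm]
    exact (Subgroup.card_mul_index St).symm
  -- `E` is not normal
  have hEnn : E.Normal → False := by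
    intro hEn
    obtain ⟨A, hEA, hAn, hAc, hAr⟩ := Cfsg.Agent.S1452.result p hp hR hr0 E hE hE2
    unfold PRankLE at hAr
    push Not at hAr
    obtain ⟨V', hV'c, hV'e, hV'card⟩ := hAr
    have hAab : ∀ a ∈ A, ∀ b ∈ A, a * b = b * a := by
      intro a ha b hb
      have : b ∈ Subgroup.centralizer (A : Set R) := by
        rw [hAc]
        exact hb
      exact Subgroup.mem_centralizer_iff.mp this a ha
    have hsub : ((V'.map A.subtype : Subgroup R) : Set R) ⊆ E := by
      apply le_of_max hE hEmax
      · rintro _ ⟨u, _, rfl⟩ _ ⟨v, _, rfl⟩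
        exact hAab _ u.2 _ v.2
      · rintro _ ⟨u, _, rfl⟩ x hx
        exact hAab _ u.2 _ (hEA hx)
      · rintro _ ⟨u, hu, rfl⟩
        have := congrArg Subtype.val (hV'e u hu)
        simpa using this
    have h1 := Subgroup.card_le_of_le (show V'.map A.subtype ≤ E from hsub)
    rw [Subgroup.card_map_of_injective A.subtype_injective, hE2] at h1
    omega
  -- the order of `W`
  obtain ⟨j, hj⟩ := IsPGroup.iff_card.mp hWp
  have hZltW : p < Nat.card W := by
    rcases Nat.lt_or_ge p (Nat.card W) with h | h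
    · exact h
    · have := Subgroup.eq_of_le_of_card_ge hZW (by rw [hZcard]; exact h)
      exact absurd (this ▸ hsW) hsZ
  have hWcard : Nat.card W = p ^ 2 := by
    by_contra hne
    have hj3 : 3 ≤ j := by
      by_contra h3
      push Not at h3
      have hj2 : 2 ≤ j := by
        by_contra h2
        push Not at h2
        have : p ^ j ≤ p ^ 1 := Nat.pow_le_pow_right hpp.pos (by omega)
        rw [pow_one] at this
        omega
      have : j = 2 := by omega
      exact hne (by rw [hj, this])
    have hp3' : p ^ 3 ≤ Nat.card W := hj ▸ Nat.pow_le_pow_right hpp.pos hj3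
    have hDge : p ^ 2 ≤ Nat.card D := by
      have h1 : Nat.card W ≤ p * Nat.card D := by
        rw [hWcard2]
        exact Nat.mul_le_mul_right _ horbcard
      have h2 : p * p ^ 2 ≤ p * Nat.card D := by
        calc p * p ^ 2 = p ^ 3 := by ring
          _ ≤ Nat.card W := hp3'
          _ ≤ p * Nat.card D := h1
      exact Nat.le_of_mul_le_mul_left h2 hpp.pos
    have hDeq : D = E := Subgroup.eq_of_le_of_card_ge hDE (by rw [hE2]; exact hDge)
    have hEW : E ≤ W := hDeq ▸ hDW
    apply hEnn
    refine ⟨fun x hx g => ?_⟩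
    have e1 : g * x * g⁻¹ = (⁅x, g⁆)⁻¹ * x := by
      simp only [commutatorElement_def]; group
    rw [e1]
    exact E.mul_mem (E.inv_mem (hZE (hWZ x (hEW hx) g))) hx
  have hWel : IsElementaryAbelian p W :=
    ⟨IsPGroup.isMulCommutative_of_card_eq_prime_sq hWcard, hWexp⟩
  -- (a)
  have ha : ¬ E ≤ Subgroup.centralizer (W : Set R) := by
    intro hle
    have hWE : (W : Set R) ⊆ E := by
      apply le_of_max hE hEmax
      · intro u hu v hv
        exact congrArg Subtype.val (hWel.1.is_comm.comm ⟨u, hu⟩ ⟨v, hv⟩)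
      · intro u hu x hx
        exact Subgroup.mem_centralizer_iff.mp (hle hx) u hu
      · intro u hu
        exact hWexp u hu
    have hWeqE : W = E := Subgroup.eq_of_le_of_card_ge hWE (by rw [hE2, hWcard])
    exact hEnn (hWeqE ▸ hWn)
  -- (d)
  have hXchar : ∀ φ : R ≃* R, ∀ x ∈ X, φ x ∈ X := by
    intro φ x hx
    refine ⟨?_, by rw [← map_pow, hx.2, map_one]⟩
    have hchar : (Subgroup.upperCentralSeries R 2).Characteristic := inferInstance
    exact Subgroup.characteristic_iff_map_le.mp hchar φ
      (Subgroup.mem_map_of_mem φ.toMonoidHom hx.1)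
  have hWchar : W.Characteristic := by
    rw [Subgroup.characteristic_iff_map_le]
    intro φ
    rw [hW, MonoidHom.map_closure, Subgroup.closure_le]
    rintro _ ⟨x, hx, rfl⟩
    exact Subgroup.subset_closure (hXchar φ x hx)
  have hTchar : (Subgroup.centralizer (W : Set R)).Characteristic := inferInstance
  have hTeq : Subgroup.centralizer (W : Set R) = Subgroup.centralizer ({s} : Set R) := by
    apply le_antisymm
    · exact Subgroup.centralizer_le (Set.singleton_subset_iff.mpr hsW)
    · intro g hg
      have hgs : s * g = g * s := Subgroup.mem_centralizer_iff.mp hg s rfl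
      have hZK : Z ≤ Subgroup.centralizer ({g} : Set R) ⊓ W := fun x hx =>
        ⟨Subgroup.mem_centralizer_iff.mpr fun h hh => by
          rw [Set.mem_singleton_iff] at hh
          subst hh
          exact Subgroup.mem_center_iff.mp (hZcen hx) h, hZW hx⟩
      have hsK : s ∈ Subgroup.centralizer ({g} : Set R) ⊓ W :=
        ⟨Subgroup.mem_centralizer_iff.mpr fun h hh => by
          rw [Set.mem_singleton_iff] at hh
          subst hh
          exact hgs.symm, hsW⟩
      have hKeq := eq_of_mem_not_mem hpp hZK inf_le_right hZcard hWcard hsK hsZ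
      refine Subgroup.mem_centralizer_iff.mpr fun x hx => ?_
      have hxK : x ∈ Subgroup.centralizer ({g} : Set R) ⊓ W := by
        rw [hKeq]
        exact hx
      exact (Subgroup.mem_centralizer_iff.mp hxK.1 g rfl).symm
  have hidxT : (Subgroup.centralizer ({s} : Set R)).index = p := by
    let f : R →* Z :=
      { toFun := fun g => ⟨⁅g, s⁆, hs g⟩
        map_one' := by
          apply Subtype.ext
          show ⁅(1 : R), s⁆ = 1
          rw [commutatorElement_one_left]
        map_mul' := by
          intro a b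
          apply Subtype.ext
          show ⁅a * b, s⁆ = ⁅a, s⁆ * ⁅b, s⁆
          have hb : ⁅b, s⁆ ∈ Subgroup.center R := hZcen (hs b)
          have e : ⁅a * b, s⁆ = a * ⁅b, s⁆ * a⁻¹ * ⁅a, s⁆ := by
            simp only [commutatorElement_def]; group
          rw [e, Subgroup.mem_center_iff.mp hb a, mul_inv_cancel_right]
          exact (Subgroup.mem_center_iff.mp hb _).symm }
    have hker : f.ker = Subgroup.centralizer ({s} : Set R) := by
      ext g
      rw [MonoidHom.mem_ker, Subgroup.mem_centralizer_iff]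
      constructor
      · intro h x hx
        rw [Set.mem_singleton_iff] at hx
        subst hx
        have h1 : ⁅g, x⁆ = 1 := congrArg Subtype.val h
        rw [commutatorElement_eq_one_iff_mul_comm] at h1
        exact h1.symm
      · intro h
        apply Subtype.ext
        show ⁅g, s⁆ = 1
        rw [commutatorElement_eq_one_iff_mul_comm]
        exact (h s rfl).symm
    rw [← hker, Subgroup.index_ker]
    have hdvd : Nat.card f.range ∣ p := hZcard ▸ Subgroup.card_subgroup_dvd_card f.range
    rcases (Nat.dvd_prime hpp).mp hdvd with h1 | h1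
    · exfalso
      have hbot : f.range = ⊥ := Subgroup.card_eq_one.mp h1
      have hscen : s ∈ Subgroup.center R := by
        rw [Subgroup.mem_center_iff]
        intro g
        have : f g ∈ f.range := ⟨g, rfl⟩
        rw [hbot, Subgroup.mem_bot] at this
        have h2 : ⁅g, s⁆ = 1 := congrArg Subtype.val this
        rwa [commutatorElement_eq_one_iff_mul_comm] at h2
      exact hsZ (Subgroup.subset_closure ⟨hscen, hB₀e.2 s hsB⟩)
    · exact h1
  exact ⟨ha, hZcard, ⟨hWel, hWcard⟩, hTchar, by rw [hTeq]; exact hidxT⟩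

end Cfsg.Agent.S1453
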