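import Cfsg.Statements.S1456
import Mathlib
import Cfsg.Agent.Lib.Helper34.Narrow5
import Cfsg.Agent.Lib.Helper34.CN3

set_option autoImplicit false
open Cfsg

namespace Cfsg.Agent.S1456

/-- Let G be a solvable group of odd order, p a prime, and E an elementary abelian p-subgroup of the Fitting subgroup F(G) such that F(G) ∩ C_G(E) has no elementary abelian subgroup of order q ^ 3 for any prime q. Then the derived subgroup of G is contained in F(G). -/
theorem result {G : Type*} [Group G] [Finite G] [Group.IsSolvable G] (hodd : Odd (Nat.card G)) (p : ℕ) [Fact p.Prime] (E : Subgroup G) (hE : E ≤ Cfsg.fittingSubgroup G) (hEe : Cfsg.IsElementaryAbelian p E)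
    (hr : Cfsg.RankLE 2 ↥(Cfsg.fittingSubgroup G ⊓ Subgroup.centralizer (E : Set G))) :
    commutator G ≤ Cfsg.fittingSubgroup G := by
  open Cfsg.Agent.Lib.Helper34 in
  open Cfsg.Agent.Lib in
  have hpp : p.Prime := Fact.out
  have hFnil : Group.IsNilpotent ↥(fittingSubgroup G) := Helper30.fitting_nilpotent
  have hEP : E ≤ pCore p G := by
    intro e he
    exact mem_pCore_of_mem_fitting p e (hE he) 1 (by rw [pow_one]; exact hEe.2 e he)
  have hcoreF : ∀ q : ℕ, q.Prime → pCore q G ≤ fittingSubgroup G := by
    intro q hq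
    haveI : Fact q.Prime := ⟨hq⟩
    exact le_sSup ⟨Helper30.pCore_normal q G, (Helper30.pCore_isPGroup q).isNilpotent⟩
  apply commutator_le_fitting_of_pow
  intro q hq g hg
  haveI : Fact q.Prime := ⟨hq⟩
  by_cases hrq : PRankLE q 2 ↥(pCore q G)
  · exact rank2_commutator_pow_mem_centralizer hodd q hrq g hg
  · have hqp : q = p := by
      by_contra hqp
      apply hrq
      have hle : pCore q G ≤ fittingSubgroup G ⊓ Subgroup.centralizer (E : Set G) := by
        refine le_inf (hcoreF q hq) ?_
        intro x hx
        rw [Subgroup.mem_centralizer_iff]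
        intro e he
        obtain ⟨k, hk⟩ := (Helper30.pCore_isPGroup (G := G) q) ⟨x, hx⟩
        have hk' : x ^ (q ^ k) = 1 := by simpa using congrArg Subtype.val hk
        exact commute_of_nilpotent_of_pow hFnil (hE he) (hcoreF q hq hx) p (q ^ k)
          (Nat.Coprime.pow_right k ((Nat.coprime_primes hpp hq).mpr (Ne.symm hqp)))
          (hEe.2 e he) hk'
      exact prankLE_of_injective q 2 (Subgroup.inclusion hle) (Subgroup.inclusion_injective hle)
        (hr q hq)
    subst hqp
    have hp2 : q ≠ 2 := by
      rintro rfl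
      apply hrq
      intro A _ _
      have h1 : Nat.card ↥(pCore 2 G) = 1 := by rw [pCore_two_eq_bot hodd, Subgroup.card_bot]
      have h2 : Nat.card A ≤ Nat.card ↥(pCore 2 G) := Subgroup.card_le_card_group A
      omega
    haveI hPn : (pCore q G).Normal := Helper30.pCore_normal q G
    have hPp : IsPGroup q ↥(pCore q G) := Helper30.pCore_isPGroup q
    have hE' : IsElementaryAbelian q (E.subgroupOf (pCore q G)) := by
      refine ⟨Helper31.isMulComm_iff.mpr ?_, ?_⟩
      · intro a ha b hb
        apply Subtype.ext
        exact Helper31.isMulComm_iff.mp hEe.1 a.1 ha b.1 hb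
      · intro a ha
        apply Subtype.ext
        exact hEe.2 a.1 ha
    have hrC : PRankLE q 2 ↥(Subgroup.centralizer
        ((E.subgroupOf (pCore q G) : Subgroup ↥(pCore q G)) : Set ↥(pCore q G))) := by
      have hmem : ∀ x : ↥(Subgroup.centralizer
          ((E.subgroupOf (pCore q G) : Subgroup ↥(pCore q G)) : Set ↥(pCore q G))),
          (((pCore q G).subtype).comp (Subgroup.subtype _)) x ∈
            fittingSubgroup G ⊓ Subgroup.centralizer (E : Set G) := by
        intro x
        refine ⟨hcoreF q hq x.1.2, ?_⟩
        show ((x : ↥(pCore q G)) : G) ∈ Subgroup.centralizer (E : Set G)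
        rw [Subgroup.mem_centralizer_iff]
        intro e he
        have h1 := Subgroup.mem_centralizer_iff.mp x.2 ⟨e, hEP he⟩ he
        exact congrArg Subtype.val h1
      have hf : Function.Injective
          ((((pCore q G).subtype).comp (Subgroup.subtype _)).codRestrict _ hmem) := by
        intro x y hxy
        have h0 := congrArg Subtype.val hxy
        have h1 : ((x : ↥(pCore q G)) : G) = ((y : ↥(pCore q G)) : G) := h0
        exact Subtype.ext (Subtype.ext h1)
      exact prankLE_of_injective q 2 _ hf (hr q hq)
    have hnar := narrow_of_centralizer_rank hp2 hPp hrq _ hE' hrC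
    obtain ⟨N, hNn, hNp, hNc, -⟩ := narrow_aut hp2 hPp hnar hrq
    let θ : G →* MulAut ↥(pCore q G) := MulAut.conjNormal
    have hle : commutator G ≤ N.comap θ := by
      rw [commutator_eq_closure, Subgroup.closure_le]
      rintro _ ⟨a, b, rfl⟩
      rw [commutatorElement_def]
      show θ (a * b * a⁻¹ * b⁻¹) ∈ N
      rw [map_mul, map_mul, map_mul, map_inv, map_inv]
      exact hNc _ _
    obtain ⟨k, hk⟩ := hNp ⟨θ g, hle hg⟩
    have hk' : (θ g) ^ (q ^ k) = 1 := by simpa using congrArg Subtype.val hk
    rw [← map_pow] at hk'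
    exact ⟨k, mem_centralizer_of_conjNormal_eq_one _ _ hk'⟩

end Cfsg.Agent.S1456
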