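import Cfsg.Statements.S1457
import Mathlib
import Cfsg.Agent.Lib.Helper34.Quad3

set_option autoImplicit false
open Cfsg

namespace Cfsg.Agent.S1457

/-- Let G be a solvable group of odd order, p a prime, S a Sylow p-subgroup of G and A an abelian subgroup of S normal in S. Then A ≤ O_{p',p}(G). -/
theorem result {G : Type*} [Group G] [Finite G] [Group.IsSolvable G] (hodd : Odd (Nat.card G)) (p : ℕ) [Fact p.Prime] (S : Sylow p G) (A : Subgroup G) (hA : A ≤ (S : Subgroup G)) (hAc : IsMulCommutative A)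
    (hAn : (S : Subgroup G) ≤ Subgroup.normalizer (A : Set G)) :
    A ≤ Cfsg.pPrimePCore p G := by
  by_cases hp : p = 2
  · subst hp
    have hS : (S : Subgroup G) = ⊥ := by
      obtain ⟨n, hn⟩ := IsPGroup.iff_card.mp S.isPGroup'
      have hd := Subgroup.card_subgroup_dvd_card (S : Subgroup G)
      rw [hn] at hd
      rcases Nat.eq_zero_or_pos n with h0 | h0
      · apply Subgroup.eq_bot_of_card_eq
        rw [hn, h0, pow_zero]
      · exfalso
        have h2 : 2 ∣ Nat.card G := dvd_trans (dvd_pow_self 2 h0.ne') hd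
        exact (Nat.not_even_iff_odd.mpr hodd) (even_iff_two_dvd.mpr h2)
    intro a ha
    have h1 := hA ha
    rw [hS, Subgroup.mem_bot] at h1
    rw [h1]
    exact one_mem _
  · set K := Cfsg.pPrimeCore p G with hK
    set π := QuotientGroup.mk' K with hπ
    have hπs : Function.Surjective π := QuotientGroup.mk'_surjective K
    have hoddq : Odd (Nat.card (G ⧸ K)) :=
      Odd.of_dvd_nat hodd (Subgroup.card_quotient_dvd_card K)
    have hbotq : Cfsg.pPrimeCore p (G ⧸ K) = ⊥ :=
      Cfsg.Agent.Lib.Helper30.pPrimeCore_quotient_eq_bot p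
    set Pb := Cfsg.pCore p (G ⧸ K) with hPb
    have hPbn : Pb.Normal := Cfsg.Agent.Lib.Helper30.pCore_normal p _
    have hPbp : IsPGroup p Pb := Cfsg.Agent.Lib.Helper30.pCore_isPGroup p
    -- Pb ≤ S.map π
    have hPbS : Pb ≤ (S : Subgroup G).map π := by
      have := (S.mapSurjective hπs).is_maximal' (Q := Pb ⊔ (S : Subgroup G).map π)
        (hPbp.to_sup_of_normal_left (S.isPGroup'.map π)) (by
          rw [Sylow.coe_mapSurjective]; exact le_sup_right)
      rw [Sylow.coe_mapSurjective] at this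
      rw [← this]
      exact le_sup_left
    intro a ha
    show π a ∈ Pb
    obtain ⟨k, hk⟩ := S.isPGroup' ⟨a, hA ha⟩
    have hak : a ^ (p ^ k) = 1 := by
      have := congrArg Subtype.val hk
      simpa using this
    have hquad : ∀ x ∈ Pb, π a * (π a * x * (π a)⁻¹ * x⁻¹) = (π a * x * (π a)⁻¹ * x⁻¹) * π a := by
      intro x hx
      obtain ⟨s, hs, rfl⟩ := hPbS hx
      have hsn := hAn hs
      have hc : a * s * a⁻¹ * s⁻¹ ∈ A := by
        have h1 : s * a⁻¹ * s⁻¹ ∈ A := by
          rw [Subgroup.mem_normalizer_iff] at hsn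
          exact (hsn a⁻¹).mp (A.inv_mem ha)
        have : a * s * a⁻¹ * s⁻¹ = a * (s * a⁻¹ * s⁻¹) := by group
        rw [this]
        exact A.mul_mem ha h1
      have h2 := congrArg Subtype.val (hAc.is_comm.comm ⟨a, ha⟩ ⟨_, hc⟩)
      have h3 : a * (a * s * a⁻¹ * s⁻¹) = (a * s * a⁻¹ * s⁻¹) * a := h2
      have h4 := congrArg π h3
      simpa only [map_mul, map_inv] using h4
    have hmem := Cfsg.Agent.Lib.Helper34.quad_mem_pCore hoddq p hp Pb hPbp (π a) k
      (by rw [← map_pow, hak, map_one]) hquad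
    have hCle : Subgroup.centralizer (Pb : Set (G ⧸ K)) ≤ Pb :=
      Cfsg.Agent.Lib.Helper34.solv_centralizer_pCore_le p hbotq
    have hCp : IsPGroup p (Subgroup.centralizer (Pb : Set (G ⧸ K))) := hPbp.to_le hCle
    exact Cfsg.Agent.Lib.Helper34.comap_pCore_le p _ hCp hmem

end Cfsg.Agent.S1457
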