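import Cfsg.Statements.S1459
import Cfsg.Agent.S0018
import Mathlib

set_option autoImplicit false
open Cfsg

namespace Cfsg.Agent.S1459

open scoped commutatorElement

theorem normal_of_conj_mem_of_sup_eq_top {G : Type*} [Group G] (H K N : Subgroup G)
    (hHK : H ⊔ K = ⊤) (hH : ∀ s ∈ H, ∀ n ∈ N, s * n * s⁻¹ ∈ N)
    (hK : ∀ s ∈ K, ∀ n ∈ N, s * n * s⁻¹ ∈ N) : N.Normal := by
  have key : ∀ S : Subgroup G, (∀ s ∈ S, ∀ n ∈ N, s * n * s⁻¹ ∈ N) →
      S ≤ Subgroup.normalizer (N : Set G) := by
    intro S hS s hs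
    rw [Subgroup.mem_normalizer_iff]
    intro n
    constructor
    · exact hS s hs n
    · intro h
      have := hS s⁻¹ (S.inv_mem hs) _ h
      simpa [mul_assoc] using this
  have : Subgroup.normalizer (N : Set G) = ⊤ := by
    rw [eq_top_iff, ← hHK]
    exact sup_le (key H hH) (key K hK)
  exact Subgroup.normalizer_eq_top_iff.1 this

theorem conj_mem_commutator_left {G : Type*} [Group G] (H K : Subgroup G) :
    ∀ s ∈ H, ∀ n ∈ ⁅H, K⁆, s * n * s⁻¹ ∈ ⁅H, K⁆ := by
  intro s hs n hn
  have h1 : ⁅H, K⁆ ≤ (⁅H, K⁆).comap (MulAut.conj s).toMonoidHom := by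
    rw [Subgroup.commutator_le]
    intro x hx k hk
    rw [Subgroup.mem_comap]
    show s * ⁅x, k⁆ * s⁻¹ ∈ _
    have h2 : s * ⁅x, k⁆ * s⁻¹ = ⁅s * x, k⁆ * ⁅s, k⁆⁻¹ := by
      simp only [commutatorElement_def]; group
    rw [h2]
    exact Subgroup.mul_mem _ (Subgroup.commutator_mem_commutator (H.mul_mem hs hx) hk)
      (Subgroup.inv_mem _ (Subgroup.commutator_mem_commutator hs hk))
  exact h1 hn

theorem conj_mem_commutator_right {G : Type*} [Group G] (H K : Subgroup G) [H.Normal] :
    ∀ s ∈ K, ∀ n ∈ ⁅H, K⁆, s * n * s⁻¹ ∈ ⁅H, K⁆ := by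
  intro s hs n hn
  have h1 : ⁅H, K⁆ ≤ (⁅H, K⁆).comap (MulAut.conj s).toMonoidHom := by
    rw [Subgroup.commutator_le]
    intro x hx k hk
    rw [Subgroup.mem_comap]
    show s * ⁅x, k⁆ * s⁻¹ ∈ _
    have h2 : s * ⁅x, k⁆ * s⁻¹ = ⁅s * x * s⁻¹, s * k * s⁻¹⁆ := by
      simp only [commutatorElement_def]; group
    rw [h2]
    exact Subgroup.commutator_mem_commutator (‹H.Normal›.conj_mem x hx s)
      (K.mul_mem (K.mul_mem hs hk) (K.inv_mem hs))
  exact h1 hn

theorem map_commutator_le {G G' : Type*} [Group G] [Group G'] (f : G →* G') :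
    (commutator G).map f ≤ commutator G' := by
  rw [commutator_def, commutator_def, Subgroup.map_commutator]
  exact Subgroup.commutator_mono le_top le_top

/-- part (a), first half -/
theorem part_a1 {G : Type*} [Group G] [Finite G] [Group.IsSolvable G] (H K : Subgroup G)
    [hHn : H.Normal] (hc : Subgroup.IsComplement' H K) (hH : H ≤ commutator G) :
    H = ⁅H, K⁆ := by
  have hsup := hc.sup_eq_top
  have hNn : (⁅H, K⁆).Normal := normal_of_conj_mem_of_sup_eq_top H K _ hsup
    (conj_mem_commutator_left H K) (conj_mem_commutator_right H K)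
  have hNH : ⁅H, K⁆ ≤ H := Subgroup.commutator_le_left H K
  have hmemL : ∀ x, x ∈ ⁅H, K⁆ ⊔ K ↔ ∃ n ∈ ⁅H, K⁆, ∃ k ∈ K, n * k = x := by
    intro x
    rw [← SetLike.mem_coe, Subgroup.normal_mul, Set.mem_mul]
    rfl
  have hLn : (⁅H, K⁆ ⊔ K).Normal := by
    apply normal_of_conj_mem_of_sup_eq_top H K _ hsup
    · intro s hs x hx
      obtain ⟨n, hn, k, hk, rfl⟩ := (hmemL x).1 hx
      have h2 : s * (n * k) * s⁻¹ = (s * n * s⁻¹) * ⁅s, k⁆ * k := by
        simp only [commutatorElement_def]; group
      rw [h2]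
      exact Subgroup.mul_mem _ (Subgroup.mul_mem _ (le_sup_left (a := ⁅H, K⁆) (b := K)
        (conj_mem_commutator_left H K s hs n hn))
        (le_sup_left (a := ⁅H, K⁆) (b := K) (Subgroup.commutator_mem_commutator hs hk)))
        (le_sup_right (a := ⁅H, K⁆) (b := K) hk)
    · intro s hs x hx
      obtain ⟨n, hn, k, hk, rfl⟩ := (hmemL x).1 hx
      have h2 : s * (n * k) * s⁻¹ = (s * n * s⁻¹) * (s * k * s⁻¹) := by group
      rw [h2]
      exact Subgroup.mul_mem _ (le_sup_left (a := ⁅H, K⁆) (b := K)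
        (conj_mem_commutator_right H K s hs n hn))
        (le_sup_right (a := ⁅H, K⁆) (b := K) (K.mul_mem (K.mul_mem hs hk) (K.inv_mem hs)))
  have hperf : commutator (G ⧸ (⁅H, K⁆ ⊔ K)) = ⊤ := by
    rw [eq_top_iff]
    intro x _
    obtain ⟨g, rfl⟩ := QuotientGroup.mk_surjective x
    have hg : g ∈ H ⊔ K := by rw [hsup]; trivial
    rw [← SetLike.mem_coe, Subgroup.normal_mul, Set.mem_mul] at hg
    obtain ⟨h, hh, k, hk, rfl⟩ := hg
    have h3 : (QuotientGroup.mk (h * k) : G ⧸ (⁅H, K⁆ ⊔ K)) = QuotientGroup.mk h := by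
      rw [QuotientGroup.mk_mul]
      have : (QuotientGroup.mk k : G ⧸ (⁅H, K⁆ ⊔ K)) = 1 :=
        (QuotientGroup.eq_one_iff k).2 (le_sup_right (a := ⁅H, K⁆) (b := K) hk)
      rw [this, mul_one]
    rw [h3]
    exact map_commutator_le (QuotientGroup.mk' (⁅H, K⁆ ⊔ K))
      (Subgroup.mem_map_of_mem _ (hH hh))
  have hsub : Subsingleton (G ⧸ (⁅H, K⁆ ⊔ K)) := by
    by_contra hns
    rw [not_subsingleton_iff_nontrivial] at hns
    have := Group.IsSolvable.commutator_lt_top_of_nontrivial (G ⧸ (⁅H, K⁆ ⊔ K))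
    rw [hperf] at this
    exact lt_irrefl _ this
  have hLtop : ⁅H, K⁆ ⊔ K = ⊤ := QuotientGroup.subgroup_eq_top_of_subsingleton _ hsub
  apply le_antisymm _ hNH
  intro x hx
  have hxL : x ∈ ⁅H, K⁆ ⊔ K := by rw [hLtop]; trivial
  obtain ⟨n, hn, k, hk, rfl⟩ := (hmemL x).1 hxL
  have hkH : k ∈ H := by
    have : k = n⁻¹ * (n * k) := by group
    rw [this]
    exact H.mul_mem (H.inv_mem (hNH hn)) hx
  have hk1 : k = 1 := by
    have := hc.disjoint
    rw [Subgroup.disjoint_def] at this
    exact this hkH hk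
  rw [hk1, mul_one]
  exact hn

/-- the trace map from `H` to its abelianization, over the conjugation action of `K` -/
noncomputable def tr {G : Type*} [Group G] [Finite G] (H K : Subgroup G) [H.Normal] :
    H →* Abelianization H :=
  letI : Fintype K := Fintype.ofFinite K
  ∏ k : K, (Abelianization.of).comp (MulAut.conjNormal (k : G) : MulAut H).toMonoidHom

theorem tr_apply {G : Type*} [Group G] [Finite G] (H K : Subgroup G) [H.Normal] (h : H) :
    letI : Fintype K := Fintype.ofFinite K
    tr H K h = ∏ k : K, Abelianization.of (MulAut.conjNormal (k : G) h) := by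
  simp [tr]

theorem tr_conj {G : Type*} [Group G] [Finite G] (H K : Subgroup G) [H.Normal] (b : K) (h : H) :
    tr H K (MulAut.conjNormal (b : G) h) = tr H K h := by
  let _ : Fintype K := Fintype.ofFinite K
  rw [tr_apply, tr_apply]
  have h1 : ∀ k : K, MulAut.conjNormal (k : G) (MulAut.conjNormal (b : G) h)
      = MulAut.conjNormal (((k * b : K)) : G) h := by
    intro k
    rw [Subgroup.coe_mul, map_mul MulAut.conjNormal (k : G) (b : G)]
    rfl
  simp_rw [h1]
  exact Fintype.prod_equiv (Equiv.mulRight b) _ _ (fun a => rfl)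

theorem commutator_le_ker {G : Type*} [Group G] [Finite G] (H K : Subgroup G) [H.Normal] :
    ⁅H, K⁆ ≤ (tr H K).ker.map H.subtype := by
  rw [Subgroup.commutator_le]
  intro h hh k hk
  refine ⟨(⟨h, hh⟩ : H) * (MulAut.conjNormal k ⟨h, hh⟩)⁻¹, ?_, ?_⟩
  · rw [SetLike.mem_coe, MonoidHom.mem_ker, map_mul, map_inv]
    have := tr_conj H K ⟨k, hk⟩ ⟨h, hh⟩
    rw [this, mul_inv_cancel]
  · simp only [Subgroup.coe_subtype, Subgroup.coe_mul, Subgroup.coe_inv, MulAut.conjNormal_apply,
      commutatorElement_def]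
    group

/-- part (a), second half -/
theorem part_a2 {G : Type*} [Group G] [Finite G] (H K : Subgroup G)
    [hHn : H.Normal] (hcop : (Nat.card H).Coprime H.index) (hc : Subgroup.IsComplement' H K)
    (hHK : H = ⁅H, K⁆) :
    H ⊓ Subgroup.centralizer (K : Set G) ≤ ⁅H, H⁆ := by
  let _ : Fintype K := Fintype.ofFinite K
  intro a ha
  obtain ⟨haH, haC⟩ := Subgroup.mem_inf.1 ha
  have h1 : tr H K ⟨a, haH⟩ = 1 := by
    have h2 : a ∈ ⁅H, K⁆ := by rw [← hHK]; exact haH
    obtain ⟨w, hw, hwa⟩ := commutator_le_ker H K h2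
    have : w = ⟨a, haH⟩ := Subtype.ext hwa
    rw [← this]
    exact hw
  have h3 : tr H K ⟨a, haH⟩ = (Abelianization.of (⟨a, haH⟩ : H)) ^ Nat.card K := by
    rw [tr_apply]
    have h4 : ∀ k : K, MulAut.conjNormal (k : G) (⟨a, haH⟩ : H) = ⟨a, haH⟩ := by
      intro k
      ext
      rw [MulAut.conjNormal_apply]
      rw [Subgroup.mem_centralizer_iff] at haC
      show (k : G) * a * (k : G)⁻¹ = a
      rw [haC k k.2]
      group
    simp_rw [h4]
    rw [Finset.prod_const, Finset.card_univ, Nat.card_eq_fintype_card]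
  rw [h1] at h3
  have h5 : (Abelianization.of (⟨a, haH⟩ : H)) ^ Nat.card H = 1 := by
    rw [← map_pow, pow_card_eq_one', map_one]
  have h6 : H.index = Nat.card K := hc.symm.index_eq_card
  rw [h6] at hcop
  have h7 := pow_gcd_eq_one.2 ⟨h5, h3.symm⟩
  rw [Nat.Coprime.gcd_eq_one hcop, pow_one] at h7
  have h8 : (⟨a, haH⟩ : H) ∈ commutator H := by
    rw [← Abelianization.ker_of]
    exact h7
  rw [← Subgroup.map_subtype_commutator]
  exact ⟨⟨a, haH⟩, h8, rfl⟩

/-- a nilpotent group generated by one element modulo its commutator subgroup is abelian -/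
theorem commutator_eq_bot_of_cyclic_mod {N : Type*} [Group N] [hN : Group.IsNilpotent N] (x : N)
    (hx : ∀ g : N, ∃ i : ℤ, ∃ u ∈ commutator N, g = x ^ i * u) : commutator N = ⊥ := by
  have hcentral : ∀ u ∈ commutator N, ∀ g : N,
      Commute (QuotientGroup.mk u : N ⧸ ⁅commutator N, (⊤ : Subgroup N)⁆) (QuotientGroup.mk g) := by
    intro u hu g
    rw [← commutatorElement_eq_one_iff_commute]
    have h1 : ⁅u, g⁆ ∈ ⁅commutator N, (⊤ : Subgroup N)⁆ :=
      Subgroup.commutator_mem_commutator hu (Subgroup.mem_top g)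
    have h2 := (QuotientGroup.eq_one_iff (N := ⁅commutator N, (⊤ : Subgroup N)⁆) ⁅u, g⁆).2 h1
    rw [← h2]
    exact (map_commutatorElement (QuotientGroup.mk' ⁅commutator N, (⊤ : Subgroup N)⁆) u g).symm
  have hL : commutator N ≤ ⁅commutator N, (⊤ : Subgroup N)⁆ := by
    have h0 : commutator N = ⁅(⊤ : Subgroup N), (⊤ : Subgroup N)⁆ := commutator_def N
    calc commutator N = ⁅(⊤ : Subgroup N), (⊤ : Subgroup N)⁆ := h0
      _ ≤ ⁅commutator N, (⊤ : Subgroup N)⁆ := by
        rw [Subgroup.commutator_le]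
        intro a _ b _
        obtain ⟨i, u, hu, rfl⟩ := hx a
        obtain ⟨j, v, hv, rfl⟩ := hx b
        rw [← QuotientGroup.eq_one_iff]
        have h3 := map_commutatorElement (QuotientGroup.mk' ⁅commutator N, (⊤ : Subgroup N)⁆)
          (x ^ i * u) (x ^ j * v)
        have h4 : Commute (QuotientGroup.mk' ⁅commutator N, (⊤ : Subgroup N)⁆ (x ^ i * u))
            (QuotientGroup.mk' ⁅commutator N, (⊤ : Subgroup N)⁆ (x ^ j * v)) := by
          rw [map_mul, map_mul, map_zpow, map_zpow]
          apply Commute.mul_left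
          · apply Commute.mul_right
            · exact Commute.zpow_zpow_self _ i j
            · exact (hcentral v hv _).symm.zpow_left i
          · exact hcentral u hu _
        rw [← commutatorElement_eq_one_iff_commute] at h4
        rw [← h4]
        exact h3
  have hall : ∀ n : ℕ, (⊤ : Subgroup N).lowerCentralSeries (n + 1) = commutator N := by
    intro n
    induction n with
    | zero => rfl
    | succ n ih =>
      rw [Subgroup.lowerCentralSeries_succ, ih]
      exact le_antisymm (by rw [commutator_def]; exact Subgroup.commutator_mono le_top le_rfl) hL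
  obtain ⟨n, hn⟩ := Subgroup.nilpotent_iff_lowerCentralSeries.1 hN
  rcases n with _ | n
  · rw [Subgroup.lowerCentralSeries_zero] at hn
    rw [eq_bot_iff, ← hn]; exact le_top
  · rw [← hall n, hn]

/-- part (b), first half -/
theorem part_b1 {G : Type*} [Group G] [Finite G]
    (hnil : Group.IsNilpotent ↥(commutator G)) (hq : (commutator G).index.Prime) :
    (Nat.card ↥(commutator G)).Coprime (commutator G).index := by
  have hqf : Fact (commutator G).index.Prime := ⟨hq⟩
  obtain ⟨hRn, hRc⟩ := Cfsg.Agent.S0018.pPrimeCore_spec (G := G) (commutator G).index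
  -- the index of R is a power of q
  have hidx : ∀ l : ℕ, l.Prime → l ∣ (Cfsg.pPrimeCore (commutator G).index G).index →
      l = (commutator G).index := by
    intro l hl hld
    by_contra hne
    have hlf : Fact l.Prime := ⟨hl⟩
    obtain S : Sylow l (commutator G) := default
    have hSn : (S : Subgroup (commutator G)).Normal := inferInstance
    have hSc : (S : Subgroup (commutator G)).Characteristic := Sylow.characteristic_of_normal S hSn
    have hSG : ((S : Subgroup (commutator G)).map (commutator G).subtype).Normal := inferInstance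
    have hcard : (Nat.card ((S : Subgroup (commutator G)).map (commutator G).subtype)).Coprime
        (commutator G).index := by
      rw [Subgroup.card_map_of_injective (Subgroup.subtype_injective _)]
      obtain ⟨n, hn⟩ := IsPGroup.iff_card.1 S.isPGroup'
      rw [hn]
      apply Nat.Coprime.pow_left
      exact (Nat.coprime_primes hl hq).2 hne
    have hle : (S : Subgroup (commutator G)).map (commutator G).subtype ≤
        Cfsg.pPrimeCore (commutator G).index G := le_sSup ⟨hSG, hcard⟩
    have h1 := Subgroup.index_dvd_of_le hle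
    rw [Subgroup.index_map_subtype] at h1
    have h2 : l ∣ (S : Subgroup (commutator G)).index * (commutator G).index := hld.trans h1
    rcases (Nat.Prime.dvd_mul hl).1 h2 with h3 | h3
    · exact S.not_dvd_index h3
    · exact hne ((Nat.prime_dvd_prime_iff_eq hl hq).1 h3)
  have hpow := Nat.eq_prime_pow_of_unique_prime_dvd
    (Subgroup.index_ne_zero_of_finite (H := Cfsg.pPrimeCore (commutator G).index G))
    (fun {d} hd hdd => hidx d hd hdd)
  have hPG : IsPGroup (commutator G).index (G ⧸ Cfsg.pPrimeCore (commutator G).index G) := by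
    apply IsPGroup.of_card
    rw [← Subgroup.index_eq_card]
    exact hpow
  have hQnil : Group.IsNilpotent (G ⧸ Cfsg.pPrimeCore (commutator G).index G) := hPG.isNilpotent
  -- an element outside the commutator subgroup
  have hex : ∃ x : G, x ∉ commutator G := by
    by_contra hcon
    push Not at hcon
    have : commutator G = ⊤ := eq_top_iff.2 (fun x _ => hcon x)
    rw [this, Subgroup.index_top] at hq
    exact Nat.not_prime_one hq
  obtain ⟨x, hx⟩ := hex
  have hgen : ∀ g : G, ∃ i : ℤ, ∃ u ∈ commutator G, g = x ^ i * u := by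
    intro g
    have hcard : Nat.card (G ⧸ commutator G) = (commutator G).index :=
      (Subgroup.index_eq_card _).symm
    have hx1 : (QuotientGroup.mk x : G ⧸ commutator G) ≠ 1 := by
      intro h
      exact hx ((QuotientGroup.eq_one_iff x).1 h)
    have h1 := zpowers_eq_top_of_prime_card hcard hx1
    have h2 : (QuotientGroup.mk g : G ⧸ commutator G) ∈ Subgroup.zpowers (QuotientGroup.mk x) := by
      rw [h1]; trivial
    obtain ⟨i, hi⟩ := Subgroup.mem_zpowers_iff.1 h2
    refine ⟨i, (x ^ i)⁻¹ * g, ?_, by group⟩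
    rw [← QuotientGroup.eq]
    rw [← hi]
    rfl
  have hab : commutator (G ⧸ Cfsg.pPrimeCore (commutator G).index G) = ⊥ := by
    apply commutator_eq_bot_of_cyclic_mod (QuotientGroup.mk x)
    intro g
    obtain ⟨g, rfl⟩ := QuotientGroup.mk_surjective g
    obtain ⟨i, u, hu, rfl⟩ := hgen g
    refine ⟨i, QuotientGroup.mk u, ?_, rfl⟩
    exact map_commutator_le (QuotientGroup.mk' _) (Subgroup.mem_map_of_mem _ hu)
  have hle : commutator G ≤ Cfsg.pPrimeCore (commutator G).index G := by
    intro g hg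
    have h1 := map_commutator_le (QuotientGroup.mk' (Cfsg.pPrimeCore (commutator G).index G))
      (Subgroup.mem_map_of_mem _ hg)
    rw [hab, Subgroup.mem_bot] at h1
    exact (QuotientGroup.eq_one_iff g).1 h1
  exact Nat.Coprime.coprime_dvd_left (Subgroup.card_dvd_of_le hle) hRc

theorem result {G : Type*} [Group G] [Finite G] [Group.IsSolvable G] :
    (∀ (H K : Subgroup G), H.Normal → (Nat.card H).Coprime H.index → Subgroup.IsComplement' H K → H ≤ commutator G →
        H = ⁅H, K⁆ ∧ H ⊓ Subgroup.centralizer (K : Set G) ≤ ⁅H, H⁆) ∧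
      (Group.IsNilpotent ↥(commutator G) → (commutator G).index.Prime →
        (Nat.card ↥(commutator G)).Coprime (commutator G).index ∧
        ∀ K : Subgroup G, Subgroup.IsComplement' (commutator G) K → commutator G = ⁅(⊤ : Subgroup G), K⁆) := by
  constructor
  · intro H K hHn hcop hc hH
    have h1 := part_a1 H K hc hH
    exact ⟨h1, part_a2 H K hcop hc h1⟩
  · intro hnil hq
    refine ⟨part_b1 hnil hq, ?_⟩
    intro K hc
    have h1 := part_a1 (commutator G) K hc le_rfl
    apply le_antisymm
    · calc commutator G = ⁅commutator G, K⁆ := h1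
        _ ≤ ⁅(⊤ : Subgroup G), K⁆ := Subgroup.commutator_mono le_top le_rfl
    · rw [commutator_def]
      exact Subgroup.commutator_mono le_rfl le_top

end Cfsg.Agent.S1459
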