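import Cfsg.Statements.S1460
import Mathlib
import Cfsg.Agent.Lib.Helper1.Coprime

set_option autoImplicit false
open Cfsg
open Pointwise
open scoped commutatorElement

namespace Cfsg.Agent.S1460

open Cfsg.Agent.Lib.Helper1 in
theorem partc {G : Type*} [Group G] [Finite G] [Group.IsSolvable G] (K U H : Subgroup G) [K.Normal]
    (hKU : K ⊔ U = ⊤) (hH : H ≤ U) (hcop : (Nat.card H).Coprime (Nat.card K)) :
    ∀ g : G, H.map (MulAut.conj g).toMonoidHom ≤ U →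
      ∃ u ∈ U, ∃ c ∈ K ⊓ Subgroup.centralizer (H : Set G), g = u * c := by
  intro g hg
  have hgt : g ∈ U ⊔ K := by rw [sup_comm, hKU]; trivial
  obtain ⟨u₀, hu₀, k₀, hk₀, rfl⟩ := Subgroup.mem_sup_of_normal_right.mp hgt
  have hHK : H ⊓ K = ⊥ := inf_eq_bot_of_coprime_card hcop
  -- H₁ = k₀ H k₀⁻¹
  have h1U : ∀ h ∈ H, k₀ * h * k₀⁻¹ ∈ U := by
    intro h hh
    have : (MulAut.conj (u₀ * k₀)).toMonoidHom h ∈ U := hg (Subgroup.mem_map_of_mem _ hh)
    have h2 : u₀⁻¹ * (MulAut.conj (u₀ * k₀)).toMonoidHom h * u₀ ∈ U :=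
      U.mul_mem (U.mul_mem (U.inv_mem hu₀) this) hu₀
    have h3 : u₀⁻¹ * (MulAut.conj (u₀ * k₀)).toMonoidHom h * u₀ = k₀ * h * k₀⁻¹ := by
      simp [MulAut.conj_apply]; group
    rwa [h3] at h2
  have h1le : MulAut.conj k₀ • H ≤ H ⊔ (U ⊓ K) := by
    intro x hx
    rw [mem_conj_smul_iff] at hx
    have hxe : x = k₀ * (k₀⁻¹ * x * k₀) * k₀⁻¹ := by group
    set h := k₀⁻¹ * x * k₀ with hh
    have hxU : x ∈ U := by rw [hxe]; exact h1U h hx
    have hxK : h⁻¹ * x ∈ K := by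
      have : h⁻¹ * x = (h⁻¹ * k₀ * h⁻¹⁻¹) * k₀⁻¹ := by rw [hxe]; group
      rw [this]
      exact K.mul_mem ((inferInstance : K.Normal).conj_mem _ hk₀ _) (K.inv_mem hk₀)
    have : x = h * (h⁻¹ * x) := by group
    rw [this]
    exact Subgroup.mul_mem_sup hx ⟨U.mul_mem (U.inv_mem (hH hx)) hxU, hxK⟩
  have hnorm : H ≤ Subgroup.normalizer ((U ⊓ K : Subgroup G) : Set G) := by
    intro h hh
    rw [Subgroup.mem_normalizer_iff]
    intro x
    constructor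
    · rintro ⟨hxU, hxK⟩
      exact ⟨U.mul_mem (U.mul_mem (hH hh) hxU) (U.inv_mem (hH hh)),
        (inferInstance : K.Normal).conj_mem _ hxK _⟩
    · rintro ⟨hxU, hxK⟩
      have e : x = h⁻¹ * (h * x * h⁻¹) * h := by group
      refine ⟨?_, ?_⟩
      · rw [e]; exact U.mul_mem (U.mul_mem (U.inv_mem (hH hh)) hxU) (hH hh)
      · rw [e]
        have := (inferInstance : K.Normal).conj_mem _ hxK h⁻¹
        simpa using this
  have hcop' : (Nat.card H).Coprime (Nat.card (U ⊓ K : Subgroup G)) :=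
    Nat.Coprime.coprime_dvd_right (Subgroup.card_dvd_of_le inf_le_right) hcop
  obtain ⟨n, hn, hn2⟩ := sz_conj_rel hnorm hcop' (Or.inl inferInstance) h1le (card_conj_smul k₀ H)
  -- c = n⁻¹ k₀
  have hcK : n⁻¹ * k₀ ∈ K := K.mul_mem (K.inv_mem hn.2) hk₀
  have hcN : ∀ h ∈ H, (n⁻¹ * k₀) * h * (n⁻¹ * k₀)⁻¹ ∈ H := by
    intro h hh
    have h1 : k₀ * h * k₀⁻¹ ∈ MulAut.conj k₀ • H := by
      rw [mem_conj_smul_iff]
      have : k₀⁻¹ * (k₀ * h * k₀⁻¹) * k₀ = h := by group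
      rwa [this]
    rw [← hn2, mem_conj_smul_iff] at h1
    have : (n⁻¹ * k₀) * h * (n⁻¹ * k₀)⁻¹ = n⁻¹ * (k₀ * h * k₀⁻¹) * n := by group
    rwa [this]
  have hcC : n⁻¹ * k₀ ∈ Subgroup.centralizer (H : Set G) := ?_
  · exact ⟨u₀ * n, U.mul_mem hu₀ hn.1, n⁻¹ * k₀, ⟨hcK, hcC⟩, by group⟩
  rw [Subgroup.mem_centralizer_iff]
  intro h hh
  have h1 : (n⁻¹ * k₀) * h * (n⁻¹ * k₀)⁻¹ * h⁻¹ ∈ H ⊓ K := by
    refine ⟨H.mul_mem (hcN h hh) (H.inv_mem hh), ?_⟩
    have : (n⁻¹ * k₀) * h * (n⁻¹ * k₀)⁻¹ * h⁻¹ = (n⁻¹ * k₀) * (h * (n⁻¹ * k₀)⁻¹ * h⁻¹) := by group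
    rw [this]
    exact K.mul_mem hcK ((inferInstance : K.Normal).conj_mem _ (K.inv_mem hcK) _)
  rw [hHK, Subgroup.mem_bot] at h1
  have h2 : (n⁻¹ * k₀) * h = h * (n⁻¹ * k₀) := by
    have : (n⁻¹ * k₀) * h = ((n⁻¹ * k₀) * h * (n⁻¹ * k₀)⁻¹ * h⁻¹) * (h * (n⁻¹ * k₀)) := by group
    rw [this, h1, one_mul]
  exact h2.symm

theorem parta {G : Type*} [Group G] [Finite G] (K U H : Subgroup G) [K.Normal]
    (hKU : K ⊔ U = ⊤) (hH : H ≤ U) (hcop : (Nat.card H).Coprime (Nat.card K)) :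
    H ⊓ commutator G = H ⊓ ⁅U, U⁆ := by
  apply le_antisymm
  swap
  · apply inf_le_inf_left
    rw [commutator_def]
    exact Subgroup.commutator_mono le_top le_top
  have hUU : ⁅U, U⁆ ≤ U := Subgroup.commutator_le_self U
  -- step 1
  have h1 : commutator G ≤ K ⊔ ⁅U, U⁆ := by
    rw [commutator_def, Subgroup.commutator_le]
    intro a _ b _
    have ha : a ∈ K ⊔ U := by rw [hKU]; trivial
    have hb : b ∈ K ⊔ U := by rw [hKU]; trivial
    obtain ⟨k₁, hk₁, u₁, hu₁, rfl⟩ := Subgroup.mem_sup_of_normal_left.mp ha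
    obtain ⟨k₂, hk₂, u₂, hu₂, rfl⟩ := Subgroup.mem_sup_of_normal_left.mp hb
    have hmem : ⁅k₁ * u₁, k₂ * u₂⁆ * ⁅u₁, u₂⁆⁻¹ ∈ K := by
      rw [← QuotientGroup.eq_one_iff]
      have e1 : ((k₁ : G) : G ⧸ K) = 1 := (QuotientGroup.eq_one_iff _).mpr hk₁
      have e2 : ((k₂ : G) : G ⧸ K) = 1 := (QuotientGroup.eq_one_iff _).mpr hk₂
      simp only [commutatorElement_def, QuotientGroup.mk_mul, QuotientGroup.mk_inv, e1, e2]
      group
    have : ⁅k₁ * u₁, k₂ * u₂⁆ = (⁅k₁ * u₁, k₂ * u₂⁆ * ⁅u₁, u₂⁆⁻¹) * ⁅u₁, u₂⁆ := by group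
    rw [this]
    exact Subgroup.mul_mem_sup hmem (Subgroup.commutator_mem_commutator hu₁ hu₂)
  rintro h ⟨hh, hhc⟩
  refine ⟨hh, ?_⟩
  obtain ⟨k, hk, w, hw, hkw⟩ := Subgroup.mem_sup_of_normal_left.mp (h1 hhc)
  have hkU : k ∈ U := by
    have : k = h * w⁻¹ := by rw [← hkw]; group
    rw [this]; exact U.mul_mem (hH hh) (U.inv_mem (hUU hw))
  -- abelianization of U
  let f : U →* Abelianization U := Abelianization.of
  have hker : ∀ x : U, f x = 1 ↔ (x : G) ∈ ⁅U, U⁆ := by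
    intro x
    rw [← MonoidHom.mem_ker, Abelianization.ker_of, ← Subgroup.map_subtype_commutator]
    constructor
    · intro hx; exact ⟨x, hx, rfl⟩
    · rintro ⟨y, hy, hyx⟩
      have : y = x := Subtype.ext hyx
      rwa [← this]
  have hfe : f ⟨h, hH hh⟩ = f ⟨k, hkU⟩ := by
    have : (⟨h, hH hh⟩ : U) = ⟨k, hkU⟩ * ⟨w, hUU hw⟩ := Subtype.ext hkw.symm
    rw [this, map_mul, (hker ⟨w, hUU hw⟩).mpr hw, mul_one]
  have hp1 : (f ⟨h, hH hh⟩) ^ Nat.card H = 1 := by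
    rw [← map_pow]
    have : (⟨h, hH hh⟩ : U) ^ Nat.card H = 1 := by
      apply Subtype.ext
      have h5 : (⟨h, hh⟩ : H) ^ Nat.card H = 1 := pow_card_eq_one'
      have h6 := congrArg (Subtype.val) h5
      rw [Subgroup.coe_pow] at h6
      simpa using h6
    rw [this, map_one]
  have hp2 : (f ⟨h, hH hh⟩) ^ Nat.card K = 1 := by
    rw [hfe, ← map_pow]
    have : (⟨k, hkU⟩ : U) ^ Nat.card K = 1 := by
      apply Subtype.ext
      have h5 : (⟨k, hk⟩ : K) ^ Nat.card K = 1 := pow_card_eq_one'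
      have h6 := congrArg (Subtype.val) h5
      rw [Subgroup.coe_pow] at h6
      simpa using h6
    rw [this, map_one]
  have h3 : orderOf (f ⟨h, hH hh⟩) ∣ 1 := by
    have := Nat.dvd_gcd (orderOf_dvd_of_pow_eq_one hp1) (orderOf_dvd_of_pow_eq_one hp2)
    rwa [Nat.Coprime.gcd_eq_one hcop] at this
  have h4 : f ⟨h, hH hh⟩ = 1 := orderOf_eq_one_iff.mp (Nat.dvd_one.mp h3)
  exact (hker _).mp h4

/-- Let G be a finite solvable group, K a normal subgroup and U a subgroup with G = KU, and H ≤ U a subgroup whose order is coprime to that of K. Then H ∩ G' = H ∩ U'; N_G(H) is generated by K ∩ C_G(H) and U ∩ N_G(H); and if gHg⁻¹ ≤ U for some g ∈ G then g = u c with u ∈ U and c ∈ K ∩ C_G(H). -/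
theorem result {G : Type*} [Group G] [Finite G] [Group.IsSolvable G] (K U H : Subgroup G) [K.Normal] (hKU : K ⊔ U = ⊤) (hH : H ≤ U) (hcop : (Nat.card H).Coprime (Nat.card K)) :
    H ⊓ commutator G = H ⊓ ⁅U, U⁆ ∧
      Subgroup.normalizer (H : Set G) = (K ⊓ Subgroup.centralizer (H : Set G)) ⊔ (U ⊓ Subgroup.normalizer (H : Set G)) ∧
      ∀ g : G, H.map (MulAut.conj g).toMonoidHom ≤ U → ∃ u ∈ U, ∃ c ∈ K ⊓ Subgroup.centralizer (H : Set G), g = u * c := by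
  have hc := partc K U H hKU hH hcop
  refine ⟨parta K U H hKU hH hcop, ?_, hc⟩
  apply le_antisymm
  · intro g hg
    have hgU : H.map (MulAut.conj g).toMonoidHom ≤ U := by
      rintro x ⟨h, hh, rfl⟩
      apply hH
      have := (Subgroup.mem_normalizer_iff.mp hg h).mp hh
      simpa [MulAut.conj_apply] using this
    obtain ⟨u, hu, c, hc, rfl⟩ := hc g hgU
    have hcn : c ∈ Subgroup.normalizer (H : Set G) := Subgroup.centralizer_le_normalizer _ hc.2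
    have hun : u ∈ Subgroup.normalizer (H : Set G) := by
      have : u = (u * c) * c⁻¹ := by group
      rw [this]
      exact Subgroup.mul_mem _ hg (Subgroup.inv_mem _ hcn)
    exact Subgroup.mul_mem _ (Subgroup.mem_sup_right ⟨hu, hun⟩) (Subgroup.mem_sup_left hc)
  · exact sup_le (inf_le_right.trans (Subgroup.centralizer_le_normalizer _)) inf_le_right

end Cfsg.Agent.S1460
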