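import Cfsg.Statements.S1461
import Mathlib
import Cfsg.Agent.S1460
import Cfsg.Agent.Lib.Helper34.PLen

set_option autoImplicit false
open Cfsg

namespace Cfsg.Agent.S1461

open Cfsg.Agent.Lib.Helper34 in
/-- Let G be a finite solvable group, p a prime with G = O_{p',p,p'}(G), and S a Sylow p-subgroup. Then: if S ≤ G' then S ≤ [N_G(S), N_G(S)]; if Y ⊆ S and xYx⁻¹ ⊆ S then x = g c for some g ∈ N_G(S) and c centralizing Y; and for every p-subgroup Q there is x ∈ C_G(Q ∩ S) with xQx⁻¹ ≤ S. -/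
theorem result {G : Type*} [Group G] [Finite G] [Group.IsSolvable G] (p : ℕ) [Fact p.Prime] (hpl : Cfsg.PLengthLE p 1 G) (S : Sylow p G) :
    ((S : Subgroup G) ≤ commutator G → (S : Subgroup G) ≤ ⁅Subgroup.normalizer ((S : Subgroup G) : Set G), Subgroup.normalizer ((S : Subgroup G) : Set G)⁆) ∧
      (∀ (Y : Set G) (x : G), Y ⊆ (S : Subgroup G) → (fun y => x * y * x⁻¹) '' Y ⊆ (S : Subgroup G) →
        ∃ g ∈ Subgroup.normalizer ((S : Subgroup G) : Set G), ∃ c ∈ Subgroup.centralizer Y, g * c = x) ∧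
      ∀ Q : Subgroup G, IsPGroup p Q → ∃ x ∈ Subgroup.centralizer ((Q ⊓ (S : Subgroup G) : Subgroup G) : Set G), Q.map (MulAut.conj x).toMonoidHom ≤ (S : Subgroup G) := by
  set K := (upperPSeries p G 1).1 with hK
  set U := Subgroup.normalizer ((S : Subgroup G) : Set G) with hU
  have hKU : K ⊔ U = ⊤ := plength_one_sup_normalizer p hpl S
  have hSU : (S : Subgroup G) ≤ U := Subgroup.le_normalizer
  have hcop : ∀ H : Subgroup G, H ≤ (S : Subgroup G) → (Nat.card H).Coprime (Nat.card K) := by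
    intro H hH
    obtain ⟨k, hk⟩ := IsPGroup.iff_card.mp (S.2.to_le hH)
    rw [hk]
    exact Nat.Coprime.pow_left k (card_upperPSeries_one_coprime p).symm
  have key := fun (H : Subgroup G) (hH : H ≤ (S : Subgroup G)) =>
    Cfsg.Agent.S1460.result K U H hKU (hH.trans hSU) (hcop H hH)
  refine ⟨?_, ?_, ?_⟩
  · intro hS
    have h1 := (key S le_rfl).1
    rw [inf_of_le_left hS] at h1
    rw [h1]
    exact inf_le_right
  · intro Y x hY hxY
    have hH : Subgroup.closure Y ≤ (S : Subgroup G) := (Subgroup.closure_le _).mpr hY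
    have hmap : (Subgroup.closure Y).map (MulAut.conj x).toMonoidHom ≤ U := by
      rw [MonoidHom.map_closure]
      refine le_trans ?_ hSU
      rw [Subgroup.closure_le]
      rintro _ ⟨y, hy, rfl⟩
      exact hxY ⟨y, hy, by simp [MulAut.conj_apply]⟩
    obtain ⟨u, hu, c, hc, hx⟩ := (key _ hH).2.2 x hmap
    exact ⟨u, hu, c, Subgroup.centralizer_le Subgroup.subset_closure hc.2, hx.symm⟩
  · intro Q hQ
    obtain ⟨P, hP⟩ := hQ.exists_le_sylow
    obtain ⟨g, hg⟩ := MulAction.exists_smul_eq G S P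
    have hxQ : ∀ q ∈ Q, g⁻¹ * q * g ∈ (S : Subgroup G) := by
      intro q hq
      have h1 : q ∈ ((g • S : Sylow p G) : Subgroup G) := by rw [hg]; exact hP hq
      rw [Sylow.coe_subgroup_smul, Subgroup.mem_pointwise_smul_iff_inv_smul_mem] at h1
      simpa [MulAut.smul_def, MulAut.conj_apply] using h1
    have hmap : (Q ⊓ (S : Subgroup G)).map (MulAut.conj g⁻¹).toMonoidHom ≤ U := by
      rintro _ ⟨y, hy, rfl⟩
      apply hSU
      have := hxQ y hy.1
      simpa [MulAut.conj_apply] using this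
    obtain ⟨u, hu, c, hc, hx⟩ := (key _ inf_le_right).2.2 g⁻¹ hmap
    refine ⟨c, hc.2, ?_⟩
    rintro _ ⟨q, hq, rfl⟩
    have h1 := hxQ q hq
    have h2 : (MulAut.conj c).toMonoidHom q = u⁻¹ * (g⁻¹ * q * g) * u := by
      have : c = u⁻¹ * g⁻¹ := by rw [hx]; group
      rw [this]
      simp [mul_assoc]
    rw [h2]
    have h3 := (Subgroup.mem_normalizer_iff.mp hu (u⁻¹ * (g⁻¹ * q * g) * u))
    apply h3.mpr
    have : u * (u⁻¹ * (g⁻¹ * q * g) * u) * u⁻¹ = g⁻¹ * q * g := by group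
    rw [this]; exact h1

end Cfsg.Agent.S1461
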