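import Cfsg.Statements.S1462
import Mathlib
import Cfsg.Agent.S0120
import Cfsg.Agent.Lib.Helper34.PLen2
import Cfsg.Agent.Lib.Helper34.Quad3
import Cfsg.Agent.Lib.Helper30.AxB

set_option autoImplicit false
open Cfsg

namespace Cfsg.Agent.S1462

open Cfsg.Agent.Lib

theorem core {G : Type*} [Group G] [Finite G] [Group.IsSolvable G] (p : ℕ) [Fact p.Prime]
    (hp : p ≠ 2) (K : Subgroup G) [K.Normal]
    (hmemP : ∀ (x : G) (k : ℕ), x ^ p ^ k ∈ K → QuotientGroup.mk' K x ∈ pCore p (G ⧸ K))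
    (hbot : pPrimeCore p (G ⧸ K) = ⊥)
    (E L : Subgroup G) (hE : Cfsg.IsElementaryAbelian p E)
    (hlift : ∀ q : G ⧸ K, q ^ p = 1 → (∀ e ∈ E, Commute q (QuotientGroup.mk' K e)) →
      q ∈ E.map (QuotientGroup.mk' K))
    (hL : (Nat.card L).Coprime p) (hEL : E ≤ Subgroup.normalizer (L : Set G)) : L ≤ K := by
  set π := QuotientGroup.mk' K with hπ
  set Pb := pCore p (G ⧸ K) with hPb
  haveI hPbn : Pb.Normal := Helper30.pCore_normal p _
  have hPbp : IsPGroup p Pb := Helper30.pCore_isPGroup p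
  have hCle : Subgroup.centralizer (Pb : Set (G ⧸ K)) ≤ Pb :=
    Helper34.solv_centralizer_pCore_le p hbot
  obtain ⟨hEc, hEp⟩ := hE
  have hEpg : IsPGroup p E := by
    rintro ⟨e, he⟩
    exact ⟨1, Subtype.ext (by simpa using hEp e he)⟩
  have hEP : ∀ e ∈ E, π e ∈ Pb := by
    intro e he
    apply hmemP e 1
    rw [pow_one, hEp e he]; exact one_mem _
  intro l hl
  rw [← QuotientGroup.eq_one_iff (N := K)]
  show π l = 1
  have hyord : (orderOf (π l)).Coprime p := by
    have h1 : orderOf (π l) ∣ orderOf l := orderOf_map_dvd π l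
    have h2 : orderOf l ∣ Nat.card L := by
      have := orderOf_dvd_natCard (⟨l, hl⟩ : ↥L)
      rwa [Subgroup.orderOf_mk] at this
    exact Nat.Coprime.coprime_dvd_left (h1.trans h2) hL
  generalize hy : π l = y at hyord ⊢
  -- y commutes with the image of E
  have hyE : ∀ e ∈ E, Commute y (π e) := by
    intro e he
    have hc : l * e * l⁻¹ * e⁻¹ ∈ L := by
      have h1 : e * l⁻¹ * e⁻¹ ∈ L :=
        (Subgroup.mem_normalizer_iff.mp (hEL he) l⁻¹).mp (L.inv_mem hl)
      have : l * e * l⁻¹ * e⁻¹ = l * (e * l⁻¹ * e⁻¹) := by group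
      rw [this]; exact L.mul_mem hl h1
    have hcP : π (l * e * l⁻¹ * e⁻¹) ∈ Pb := by
      rw [map_mul, map_mul, map_mul, map_inv, map_inv]
      exact Pb.mul_mem (hPbn.conj_mem _ (hEP e he) _) (Pb.inv_mem (hEP e he))
    have hc1 : π (l * e * l⁻¹ * e⁻¹) = 1 := by
      obtain ⟨k, hk⟩ := hPbp ⟨_, hcP⟩
      have hk' : (π (l * e * l⁻¹ * e⁻¹)) ^ (p ^ k) = 1 := by
        have h3 := congrArg Subtype.val hk
        rw [Subgroup.coe_pow, Subgroup.coe_one] at h3
        exact h3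
      have h1 : orderOf (π (l * e * l⁻¹ * e⁻¹)) ∣ p ^ k := orderOf_dvd_of_pow_eq_one hk'
      have h2 : orderOf (π (l * e * l⁻¹ * e⁻¹)) ∣ Nat.card L := by
        refine (orderOf_map_dvd π _).trans ?_
        have := orderOf_dvd_natCard (⟨_, hc⟩ : ↥L)
        rwa [Subgroup.orderOf_mk] at this
      have h3 : orderOf (π (l * e * l⁻¹ * e⁻¹)) ∣ 1 := by
        have := Nat.dvd_gcd h1 h2
        rwa [Nat.Coprime.gcd_eq_one (Nat.Coprime.pow_left k hL.symm)] at this
      exact orderOf_eq_one_iff.mp (Nat.dvd_one.mp h3)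
    rw [map_mul, map_mul, map_mul, map_inv, map_inv, hy] at hc1
    show y * π e = π e * y
    have : y * π e = (y * π e * y⁻¹ * (π e)⁻¹) * (π e * y) := by group
    rw [this, hc1, one_mul]
  set Eb := E.map π with hEb
  have hEbP : Eb ≤ Pb := by
    rintro _ ⟨e, he, rfl⟩
    exact hEP e he
  have hEbp : IsPGroup p Eb := hEpg.map π
  have hyEb : ∀ b ∈ Eb, Commute y b := by
    rintro _ ⟨e, he, rfl⟩
    exact hyE e he
  have hnormP : ∀ z : G ⧸ K, z ∈ Subgroup.normalizer (Pb : Set (G ⧸ K)) := by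
    intro z
    rw [Subgroup.normalizer_eq_top_iff.mpr hPbn]
    trivial
  -- y centralizes Q := C_Pb(Eb)
  have hyQ : ∀ q ∈ Pb ⊓ Subgroup.centralizer (Eb : Set (G ⧸ K)), Commute y q := by
    set Q := Pb ⊓ Subgroup.centralizer (Eb : Set (G ⧸ K)) with hQ
    have hconj : ∀ z : G ⧸ K, (∀ b ∈ Eb, Commute z b) → ∀ q ∈ Q, z * q * z⁻¹ ∈ Q := by
      intro z hz q hq
      obtain ⟨hq1, hq2⟩ := hq
      refine ⟨hPbn.conj_mem q hq1 z, ?_⟩
      apply Subgroup.mem_centralizer_iff.mpr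
      intro b hb
      have h1 : b * q = q * b := Subgroup.mem_centralizer_iff.mp hq2 b hb
      have h2 : z * b = b * z := (hz b hb).eq
      have h3 : z * b * z⁻¹ = b := by rw [h2]; group
      calc b * (z * q * z⁻¹) = (z * b * z⁻¹) * (z * q * z⁻¹) := by rw [h3]
        _ = z * (b * q) * z⁻¹ := by group
        _ = z * (q * b) * z⁻¹ := by rw [h1]
        _ = (z * q * z⁻¹) * (z * b * z⁻¹) := by group
        _ = (z * q * z⁻¹) * b := by rw [h3]
    have hyNQ : y ∈ Subgroup.normalizer (Q : Set (G ⧸ K)) := by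
      rw [Subgroup.mem_normalizer_iff]
      intro q
      constructor
      · exact hconj y hyEb q
      · intro hq
        have h1 := hconj y⁻¹ (fun b hb => (hyEb b hb).inv_left) _ hq
        have h2 : y⁻¹ * (y * q * y⁻¹) * y⁻¹⁻¹ = q := by group
        rwa [h2] at h1
    have hQp : IsPGroup p ↥(Q.subgroupOf (Subgroup.normalizer (Q : Set (G ⧸ K)))) :=
      (hPbp.to_le inf_le_left).comap_subtype
    set a : MulAut ↥(Q.subgroupOf (Subgroup.normalizer (Q : Set (G ⧸ K)))) :=
      MulAut.conjNormal (⟨y, hyNQ⟩ : ↥(Subgroup.normalizer (Q : Set (G ⧸ K)))) with ha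
    have haord : (orderOf a).Coprime p := by
      have h1 : orderOf a ∣ orderOf (⟨y, hyNQ⟩ : ↥(Subgroup.normalizer (Q : Set (G ⧸ K)))) :=
        orderOf_map_dvd _ _
      rw [Subgroup.orderOf_mk] at h1
      exact Nat.Coprime.coprime_dvd_left h1 hyord
    have hfix : ∀ x : ↥(Q.subgroupOf (Subgroup.normalizer (Q : Set (G ⧸ K)))),
        x ^ p = 1 → a x = x := by
      intro x hx
      have hxQ : ((x : ↥(Subgroup.normalizer (Q : Set (G ⧸ K)))) : G ⧸ K) ∈ Q :=
        Subgroup.mem_subgroupOf.mp x.2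
      have hxp : ((x : ↥(Subgroup.normalizer (Q : Set (G ⧸ K)))) : G ⧸ K) ^ p = 1 := by
        have h1 := congrArg (fun w : ↥(Q.subgroupOf (Subgroup.normalizer (Q : Set (G ⧸ K)))) =>
          ((w : ↥(Subgroup.normalizer (Q : Set (G ⧸ K)))) : G ⧸ K)) hx
        simpa using h1
      have hxE : ((x : ↥(Subgroup.normalizer (Q : Set (G ⧸ K)))) : G ⧸ K) ∈ Eb := by
        apply hlift _ hxp
        intro e he
        exact (Subgroup.mem_centralizer_iff.mp hxQ.2 (π e) ⟨e, he, rfl⟩).symm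
      apply Subtype.ext
      apply Subtype.ext
      rw [ha, MulAut.conjNormal_apply]
      show y * ((x : ↥(Subgroup.normalizer (Q : Set (G ⧸ K)))) : G ⧸ K) * y⁻¹ = _
      have h2 := (hyEb _ hxE).eq
      rw [h2]; group
    have ha1 : a = 1 := Cfsg.Agent.S0120.result hp hQp a haord hfix
    intro q hq
    have h1 : a ⟨⟨q, Subgroup.le_normalizer hq⟩, Subgroup.mem_subgroupOf.mpr hq⟩ =
        ⟨⟨q, Subgroup.le_normalizer hq⟩, Subgroup.mem_subgroupOf.mpr hq⟩ := by
      rw [ha1]; rfl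
    have h2 := congrArg (fun w : ↥(Q.subgroupOf (Subgroup.normalizer (Q : Set (G ⧸ K)))) =>
          ((w : ↥(Subgroup.normalizer (Q : Set (G ⧸ K)))) : G ⧸ K)) h1
    simp only [ha, MulAut.conjNormal_apply] at h2
    have h3 : y * q * y⁻¹ = q := h2
    show y * q = q * y
    calc y * q = (y * q * y⁻¹) * y := by group
      _ = q * y := by rw [h3]
  have hyP : ∀ q ∈ Pb, Commute y q :=
    Helper30.thompson_AxB p hPbp hEbp (fun b _ => hnormP b) (hnormP y) hyord hyEb hyQ
  have hyPb : y ∈ Pb := hCle (Helper30.mem_centralizer_of_commute hyP)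
  obtain ⟨k, hk⟩ := hPbp ⟨y, hyPb⟩
  have hk' : y ^ (p ^ k) = 1 := by
    have h3 := congrArg Subtype.val hk
    rw [Subgroup.coe_pow, Subgroup.coe_one] at h3
    exact h3
  have h3 : orderOf y ∣ 1 := by
    have := Nat.dvd_gcd (orderOf_dvd_of_pow_eq_one hk') (dvd_refl (orderOf y))
    rwa [Nat.Coprime.gcd_eq_one (Nat.Coprime.pow_left k hyord.symm)] at this
  exact orderOf_eq_one_iff.mp (Nat.dvd_one.mp h3)

/-- Let G be a finite solvable group, p an odd prime with G = O_{p',p,p'}(G), E an elementary abelian p-subgroup contained in no larger elementary abelian p-subgroup of G, and L a subgroup of order coprime to p normalized by E. Then L ≤ O_{p'}(G). -/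
theorem result {G : Type*} [Group G] [Finite G] [Group.IsSolvable G] (p : ℕ) [Fact p.Prime] (hp : p ≠ 2) (hpl : Cfsg.PLengthLE p 1 G) (E L : Subgroup G) (hE : Cfsg.IsElementaryAbelian p E)
    (hEmax : ∀ B : Subgroup G, Cfsg.IsElementaryAbelian p B → E ≤ B → B = E) (hL : (Nat.card L).Coprime p) (hEL : E ≤ Subgroup.normalizer (L : Set G)) :
    L ≤ Cfsg.pPrimeCore p G := by
  have hKeq : (upperPSeries p G 1).1 = pPrimeCore p G := Helper34.upperPSeries_one_eq p
  rw [← hKeq]
  have hKcop : (Nat.card (upperPSeries p G 1).1).Coprime p := Helper34.card_upperPSeries_one_coprime p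
  exact core p hp (upperPSeries p G 1).1 (Helper34.plength_one_mem_pCore p hpl)
    (Helper34.pPrimeCore_quotient_eq_bot' p _ hKeq) E L hE
    (Helper34.lift_mem_of_max_elementary p (upperPSeries p G 1).1 hKcop E hE.1 hE.2 hEmax) hL hEL

end Cfsg.Agent.S1462
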