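import Cfsg.Statements.S1464
import Mathlib
import Cfsg.Agent.S0199
import Cfsg.Agent.Lib.Helper34.Quad2

set_option autoImplicit false
open Cfsg
open scoped commutatorElement

namespace Cfsg.Agent.S1464

open Cfsg.Agent.Lib.Helper34

theorem isPGroup_zpowers_of_pow_eq_one {G : Type*} [Group G] {p : ℕ} {x : G} {k : ℕ}
    (h : x ^ (p ^ k) = 1) : IsPGroup p (Subgroup.zpowers x) := by
  rintro ⟨y, hy⟩
  obtain ⟨i, rfl⟩ := Subgroup.mem_zpowers_iff.mp hy
  refine ⟨k, Subtype.ext ?_⟩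
  show (x ^ i) ^ (p ^ k) = 1
  rw [← zpow_natCast, ← zpow_mul, mul_comm, zpow_mul, zpow_natCast, h, one_zpow]

/-- elementwise quadratic action from `[[P, A], A] = 1` -/
theorem quad_of_commutator {G : Type*} [Group G] (P A : Subgroup G) (hquad : ⁅⁅P, A⁆, A⁆ = ⊥) :
    ∀ a ∈ A, ∀ x ∈ P, a * (a * x * a⁻¹ * x⁻¹) = (a * x * a⁻¹ * x⁻¹) * a := by
  intro a ha x hx
  have h1 : ⁅x, a⁆ ∈ ⁅P, A⁆ := Subgroup.commutator_mem_commutator hx ha
  have h2 : a * x * a⁻¹ * x⁻¹ ∈ ⁅P, A⁆ := by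
    have : a * x * a⁻¹ * x⁻¹ = ⁅x, a⁆⁻¹ := by rw [commutatorElement_def]; group
    rw [this]; exact Subgroup.inv_mem _ h1
  have h3 : ⁅a * x * a⁻¹ * x⁻¹, a⁆ ∈ ⁅⁅P, A⁆, A⁆ := Subgroup.commutator_mem_commutator h2 ha
  rw [hquad, Subgroup.mem_bot, commutatorElement_eq_one_iff_mul_comm] at h3
  exact h3.symm

/-- conjugates of quadratic elements by the normalizer are quadratic -/
theorem quad_conj {G : Type*} [Group G] (P : Subgroup G) (a n : G)
    (ha : ∀ x ∈ P, a * (a * x * a⁻¹ * x⁻¹) = (a * x * a⁻¹ * x⁻¹) * a)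
    (hn : n ∈ Subgroup.normalizer (P : Set G)) :
    ∀ x ∈ P, (n * a * n⁻¹) * ((n * a * n⁻¹) * x * (n * a * n⁻¹)⁻¹ * x⁻¹) =
      ((n * a * n⁻¹) * x * (n * a * n⁻¹)⁻¹ * x⁻¹) * (n * a * n⁻¹) := by
  intro x hx
  have hx' : n⁻¹ * x * n ∈ P := by
    rw [Subgroup.mem_normalizer_iff] at hn
    rw [hn (n⁻¹ * x * n)]
    have : n * (n⁻¹ * x * n) * n⁻¹ = x := by group
    rwa [this]
  have h := ha _ hx'
  calc (n * a * n⁻¹) * ((n * a * n⁻¹) * x * (n * a * n⁻¹)⁻¹ * x⁻¹)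
      = n * (a * (a * (n⁻¹ * x * n) * a⁻¹ * (n⁻¹ * x * n)⁻¹)) * n⁻¹ := by group
    _ = n * ((a * (n⁻¹ * x * n) * a⁻¹ * (n⁻¹ * x * n)⁻¹) * a) * n⁻¹ := by rw [h]
    _ = ((n * a * n⁻¹) * x * (n * a * n⁻¹)⁻¹ * x⁻¹) * (n * a * n⁻¹) := by group

/-- Let p be an odd prime and G a solvable group of odd order, P a p-subgroup with O_{p'}(G)P normal in G, and A a p-subgroup of N_G(P) with [[P, A], A] = 1. Then the image of A in the quotient N_G(P)/C_G(P) is contained in the p-core of that quotient. -/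
theorem result {G : Type*} [Group G] [Finite G] [Group.IsSolvable G] (hodd : Odd (Nat.card G)) (p : ℕ) [Fact p.Prime] (hp : p ≠ 2) (P A : Subgroup G) (hP : IsPGroup p P) (hPn : (Cfsg.pPrimeCore p G ⊔ P).Normal)
    (hA : IsPGroup p A) (hAN : A ≤ Subgroup.normalizer (P : Set G)) (hquad : ⁅⁅P, A⁆, A⁆ = ⊥) :
    (A.subgroupOf (Subgroup.normalizer (P : Set G))).map
        (QuotientGroup.mk' ((Subgroup.centralizer (P : Set G)).subgroupOf (Subgroup.normalizer (P : Set G))))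
      ≤ Cfsg.pCore p _ := by
  set N := Subgroup.normalizer (P : Set G) with hN
  set C' := (Subgroup.centralizer (P : Set G)).subgroupOf N with hC'
  set π := QuotientGroup.mk' C' with hπ
  have hπs : Function.Surjective π := QuotientGroup.mk'_surjective C'
  have hq := quad_of_commutator P A hquad
  have hPN : P ≤ N := Subgroup.le_normalizer
  have hP' : IsPGroup p (P.subgroupOf N) := hP.comap_subtype
  rintro _ ⟨a', ha', rfl⟩
  have haA : (a' : G) ∈ A := Subgroup.mem_subgroupOf.mp ha'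
  -- the key: closure {a', b'} maps to a p-group
  have key : ∀ n' : N, ∀ h ∈ Subgroup.closure {a', n' * a' * n'⁻¹}, ∃ k : ℕ, (π h) ^ (p ^ k) = 1 := by
    intro n' h hh
    have hodd' : Odd (Nat.card (Subgroup.closure {a', n' * a' * n'⁻¹})) := by
      have d1 : Nat.card (Subgroup.closure {a', n' * a' * n'⁻¹}) ∣ Nat.card N :=
        Subgroup.card_subgroup_dvd_card _
      have d2 : Nat.card N ∣ Nat.card G := Subgroup.card_subgroup_dvd_card _
      exact Odd.of_dvd_nat hodd (d1.trans d2)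
    have hqa : ∀ x ∈ P.subgroupOf N, a' * (a' * x * a'⁻¹ * x⁻¹) = (a' * x * a'⁻¹ * x⁻¹) * a' := by
      intro x hx
      apply Subtype.ext
      simpa using hq a' haA x (Subgroup.mem_subgroupOf.mp hx)
    have hqb : ∀ x ∈ P.subgroupOf N, (n' * a' * n'⁻¹) * ((n' * a' * n'⁻¹) * x * (n' * a' * n'⁻¹)⁻¹ * x⁻¹) =
        ((n' * a' * n'⁻¹) * x * (n' * a' * n'⁻¹)⁻¹ * x⁻¹) * (n' * a' * n'⁻¹) := by
      intro x hx
      apply Subtype.ext
      simpa using quad_conj P a' n' (hq a' haA) n'.2 x (Subgroup.mem_subgroupOf.mp hx)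
    obtain ⟨k, hk⟩ := quad_pgroup p hp (P.subgroupOf N) hP' a' (n' * a' * n'⁻¹) hodd' hqa hqb h hh
    refine ⟨k, ?_⟩
    rw [← map_pow]
    apply (QuotientGroup.eq_one_iff _).mpr
    rw [hC', Subgroup.mem_subgroupOf, Subgroup.mem_centralizer_iff]
    intro x hx
    have h1 := hk ⟨x, hPN hx⟩ (Subgroup.mem_subgroupOf.mpr hx)
    have h2 := congrArg Subtype.val h1
    simpa using h2.symm
  -- Baer–Suzuki
  obtain ⟨k₀, hk₀⟩ := hA ⟨a', haA⟩
  have hak : a' ^ (p ^ k₀) = 1 := by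
    apply Subtype.ext
    have := congrArg Subtype.val hk₀
    simpa using this
  have hX : IsPGroup p (Subgroup.zpowers (π a')) :=
    isPGroup_zpowers_of_pow_eq_one (k := k₀) (by rw [← map_pow, hak, map_one])
  have hBS : ∀ g : N ⧸ C', IsPGroup p ↥(Subgroup.zpowers (π a') ⊔
      (Subgroup.zpowers (π a')).map (MulAut.conj g).toMonoidHom) := by
    intro g
    obtain ⟨n', rfl⟩ := hπs g
    have e1 : (Subgroup.zpowers (π a')).map (MulAut.conj (π n')).toMonoidHom =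
        Subgroup.zpowers (π (n' * a' * n'⁻¹)) := by
      rw [MonoidHom.map_zpowers]
      congr 1
    have e2 : Subgroup.zpowers (π a') ⊔ Subgroup.zpowers (π (n' * a' * n'⁻¹)) =
        (Subgroup.closure {a', n' * a' * n'⁻¹}).map π := by
      rw [MonoidHom.map_closure, Set.image_pair, Subgroup.zpowers_eq_closure,
        Subgroup.zpowers_eq_closure, ← Subgroup.closure_union, Set.singleton_union]
    rw [e1, e2]
    rintro ⟨_, ⟨h, hh, rfl⟩⟩
    obtain ⟨k, hk⟩ := key n' h hh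
    exact ⟨k, Subtype.ext hk⟩
  obtain ⟨Nn, hNn, hNp, hXN⟩ := Cfsg.Agent.S0199.result (Subgroup.zpowers (π a')) hX hBS
  exact le_sSup (show Nn ∈ {M : Subgroup (N ⧸ C') | M.Normal ∧ IsPGroup p M} from ⟨hNn, hNp⟩)
    (hXN (Subgroup.mem_zpowers _))

end Cfsg.Agent.S1464
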