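import Cfsg.Statements.S1470
import Mathlib

set_option autoImplicit false
open Cfsg

namespace Cfsg.Agent.S1470

/-- the norm of `y + t` is a polynomial of degree `finrank` in `t`. -/
theorem norm_add_algebraMap {K L : Type*} [Field K] [Field L] [Algebra K L] [FiniteDimensional K L]
    (y : L) : ∃ f : Polynomial K, f.Monic ∧ f.natDegree = Module.finrank K L ∧
      ∀ t : K, Algebra.norm K (y + algebraMap K L t) = f.eval t := by
  classical
  let b := Module.finBasis K L
  refine ⟨(Algebra.leftMulMatrix b (-y)).charpoly, Matrix.charpoly_monic _, ?_, ?_⟩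
  · rw [Matrix.charpoly_natDegree_eq_dim]; simp
  · intro t
    rw [Algebra.norm_eq_matrix_det b, Matrix.eval_charpoly]
    congr 1
    rw [map_add, map_neg, AlgHom.commutes]
    simp [sub_eq_add_neg, add_comm, Matrix.algebraMap_eq_diagonal, Matrix.scalar_apply]

/-- Let p and q be odd primes with (p^q − 1)/(p − 1) coprime to p − 1, and let E be the set of elements a of the field with p ^ q elements whose norm to the prime field is 1 and for which 2 − a also has norm 1. If a⁻¹ ∈ E for every a ∈ E and E has at least two elements, then p ≤ q. -/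
theorem result (p q : ℕ) [Fact p.Prime] [Fact q.Prime] (hp : p ≠ 2) (hq : q ≠ 2) (hA : Nat.Coprime ((p ^ q - 1) / (p - 1)) (p - 1))
    (hinv : ∀ a ∈ {a : GaloisField p q | Algebra.norm (ZMod p) a = 1 ∧ Algebra.norm (ZMod p) (2 - a) = 1}, a⁻¹ ∈ {a : GaloisField p q | Algebra.norm (ZMod p) a = 1 ∧ Algebra.norm (ZMod p) (2 - a) = 1})
    (h2 : 2 ≤ Set.ncard {a : GaloisField p q | Algebra.norm (ZMod p) a = 1 ∧ Algebra.norm (ZMod p) (2 - a) = 1}) :
    p ≤ q := by
  classical
  set E : Set (GaloisField p q) := {a | Algebra.norm (ZMod p) a = 1 ∧ Algebra.norm (ZMod p) (2 - a) = 1} with hE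
  have hq0 : q ≠ 0 := (Fact.out : q.Prime).ne_zero
  obtain ⟨a, ha, ha1⟩ : ∃ a ∈ E, a ≠ 1 := by
    have h1 : 1 < E.ncard := h2
    rw [Set.one_lt_ncard_iff (Set.toFinite E)] at h1
    obtain ⟨x, y, hx, hy, hxy⟩ := h1
    by_cases h : x = 1
    · exact ⟨y, hy, fun h' => hxy (h.trans h'.symm)⟩
    · exact ⟨x, hx, h⟩
  set y := (a - 1)⁻¹ with hy
  have hy0 : y ≠ 0 := inv_ne_zero (sub_ne_zero.mpr ha1)
  have key : ∀ k : ℕ, y + k ≠ 0 ∧ 1 + (y + k)⁻¹ ∈ E := by
    intro k
    induction k with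
    | zero =>
      refine ⟨by simpa using hy0, ?_⟩
      have : 1 + (y + ((0:ℕ) : GaloisField p q))⁻¹ = a := by simp [hy]
      rw [this]; exact ha
    | succ k ih =>
      obtain ⟨hx0, hb⟩ := ih
      set x := y + (k : GaloisField p q) with hx
      have hb' := hinv _ hb
      have hbN : Algebra.norm (ZMod p) (1 + x⁻¹) = 1 := hb.1
      have hb0 : 1 + x⁻¹ ≠ 0 := by
        intro h; rw [h, Algebra.norm_zero] at hbN
        exact zero_ne_one hbN
      have hx1 : x + 1 ≠ 0 := by
        intro h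
        apply hb0
        have : 1 + x⁻¹ = (x + 1) * x⁻¹ := by field_simp
        rw [this, h, zero_mul]
      have hc : 2 - (1 + x⁻¹)⁻¹ = 1 + (x + 1)⁻¹ := by
        have : (1 + x⁻¹)⁻¹ = x * (x + 1)⁻¹ := by
          rw [inv_eq_iff_eq_inv]; field_simp
        rw [this]; field_simp; ring
      have h3 : y + ((k + 1 : ℕ) : GaloisField p q) = x + 1 := by push_cast; ring
      rw [h3]
      refine ⟨hx1, ?_⟩
      rw [← hc]
      refine ⟨hb'.2, ?_⟩
      have h4 : 2 - (2 - (1 + x⁻¹)⁻¹) = (1 + x⁻¹)⁻¹ := by ring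
      show Algebra.norm (ZMod p) (2 - (2 - (1 + x⁻¹)⁻¹)) = 1
      rw [h4]; exact hb'.1
  have hN : ∀ k : ℕ, Algebra.norm (ZMod p) (y + (k : GaloisField p q)) = Algebra.norm (ZMod p) y := by
    intro k
    induction k with
    | zero => simp
    | succ k ih =>
      obtain ⟨hx0, hb⟩ := key k
      have h1 : (1 + (y + (k : GaloisField p q))⁻¹) * (y + k) = y + ((k + 1 : ℕ) : GaloisField p q) := by
        push_cast; field_simp; ring
      rw [← h1, map_mul, hb.1, one_mul, ih]
  obtain ⟨f, hfm, hfd, hf⟩ := norm_add_algebraMap (K := ZMod p) y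
  rw [GaloisField.finrank p hq0] at hfd
  have hNy : ∀ t : ZMod p, f.eval t = Algebra.norm (ZMod p) y := by
    intro t
    obtain ⟨k, rfl⟩ : ∃ k : ℕ, (k : ZMod p) = t := ⟨t.val, ZMod.natCast_zmod_val t⟩
    rw [← hf, map_natCast, hN]
  set g := f - Polynomial.C (Algebra.norm (ZMod p) y) with hg
  have hgd : g.natDegree = q := by
    rw [hg, Polynomial.natDegree_sub_C, hfd]
  have hg0 : g ≠ 0 := by
    intro h; rw [h] at hgd; simp at hgd; exact hq0 hgd.symm
  have h5 := Polynomial.card_le_degree_of_subset_roots (p := g) (Z := Finset.univ) (by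
    intro t _
    rw [Polynomial.mem_roots hg0]
    simp [hg, hNy])
  rw [hgd] at h5
  simpa [ZMod.card] using h5

end Cfsg.Agent.S1470
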