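import Cfsg.Statements.S1473
import Mathlib

set_option autoImplicit false
open Cfsg

namespace Cfsg.Agent.S1473

open scoped commutatorElement

/-- a subgroup contained in the image of a nilpotent subgroup is nilpotent -/
theorem nilp_of_le_map {G G' : Type*} [Group G] [Group G'] (f : G →* G') (D : Subgroup G)
    (hD : Group.IsNilpotent D) (K : Subgroup G') (h : K ≤ D.map f) : Group.IsNilpotent K := by
  have h1 : Group.IsNilpotent (D.map f) :=
    Group.nilpotent_of_surjective (f.subgroupMap D) (f.subgroupMap_surjective D)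
  have h2 : Group.IsNilpotent (K.subgroupOf (D.map f)) := inferInstance
  exact Group.nilpotent_of_mulEquiv (Subgroup.subgroupOfEquivOfLe h)

/-- being a CN-group is invariant under isomorphism -/
theorem isCN_of_mulEquiv {G G' : Type*} [Group G] [Group G'] (e : G ≃* G')
    (h : IsCNGroup G) : IsCNGroup G' := by
  intro g' hg'
  have hne : e.symm g' ≠ 1 := by
    intro h1
    apply hg'
    have := congrArg e h1
    simpa using this
  apply nilp_of_le_map e.toMonoidHom (Subgroup.centralizer {e.symm g'}) (h _ hne)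
  intro k hk
  refine ⟨e.symm k, ?_, by simp⟩
  rw [Subgroup.mem_centralizer_iff] at hk
  rw [SetLike.mem_coe, Subgroup.mem_centralizer_iff]
  intro x hx
  rw [Set.mem_singleton_iff] at hx
  subst hx
  have := hk g' rfl
  rw [← map_mul, ← map_mul, this]

theorem isPGroup_zpowers {G : Type*} [Group G] (p : ℕ) (t : G) (k : ℕ) (h : t ^ (p ^ k) = 1) :
    IsPGroup p (Subgroup.zpowers t) := by
  rintro ⟨g, hg⟩
  obtain ⟨i, rfl⟩ := Subgroup.mem_zpowers_iff.1 hg
  refine ⟨k, ?_⟩
  ext1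
  simp only [Subgroup.coe_pow, Subgroup.coe_one]
  rw [← zpow_natCast, ← zpow_mul, mul_comm, zpow_mul, zpow_natCast, h, one_zpow]

/-- twisted fixed point lemma -/
theorem twisted_fixed {G : Type*} [Group G] [Finite G] (V : Subgroup G) [hVn : V.Normal] (a b : G)
    (hab : a * b⁻¹ ∈ V) (r : ℕ) [Fact r.Prime] (k : ℕ) (ha : a ^ (r ^ k) = 1)
    (hb : b ^ (r ^ k) = 1) (hr : ¬ r ∣ Nat.card V) : ∃ v ∈ V, a * v * b⁻¹ = v := by
  have hmem : ∀ v : V, a * (v : G) * b⁻¹ ∈ V := by
    intro v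
    have : a * (v : G) * b⁻¹ = (a * v * a⁻¹) * (a * b⁻¹) := by group
    rw [this]
    exact V.mul_mem (hVn.conj_mem v v.2 a) hab
  have hmem' : ∀ v : V, a⁻¹ * (v : G) * b ∈ V := by
    intro v
    have : a⁻¹ * (v : G) * b = a⁻¹ * (v * (a * b⁻¹)⁻¹) * a⁻¹⁻¹ := by group
    rw [this]
    exact hVn.conj_mem _ (V.mul_mem v.2 (V.inv_mem hab)) a⁻¹
  let σ : Equiv.Perm V :=
    { toFun := fun v => ⟨a * v * b⁻¹, hmem v⟩
      invFun := fun v => ⟨a⁻¹ * v * b, hmem' v⟩
      left_inv := fun v => by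
        ext
        show a⁻¹ * (a * (v : G) * b⁻¹) * b = v
        group
      right_inv := fun v => by
        ext
        show a * (a⁻¹ * (v : G) * b) * b⁻¹ = v
        group }
  have hσpow : ∀ n : ℕ, ∀ v : V, (((σ ^ n) v : V) : G) = a ^ n * v * (b ^ n)⁻¹ := by
    intro n
    induction n with
    | zero => intro v; simp
    | succ n ih =>
      intro v
      rw [pow_succ', Equiv.Perm.mul_apply]
      show a * ((σ ^ n) v : G) * b⁻¹ = _
      rw [ih, pow_succ', pow_succ]
      group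
  have hσ : σ ^ (r ^ k) = 1 := by
    ext v
    rw [hσpow, ha, hb]
    simp
  have hpg : IsPGroup r (Subgroup.zpowers σ) := isPGroup_zpowers r σ k hσ
  obtain ⟨v, hv⟩ := hpg.nonempty_fixed_point_of_prime_not_dvd_card V hr
  refine ⟨v, v.2, ?_⟩
  have := hv ⟨σ, Subgroup.mem_zpowers σ⟩
  exact congrArg Subtype.val this

/-- a `p`-group normalising a nontrivial normal `p`-subgroup centralises a nontrivial element -/
theorem exists_fixed_in_V {G : Type*} [Group G] [Finite G] (p : ℕ) [Fact p.Prime]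
    (V : Subgroup G) [V.Normal] (hVp : IsPGroup p V) (hV : V ≠ ⊥) (T : Subgroup G)
    (hT : IsPGroup p T) : ∃ u ∈ V, u ≠ 1 ∧ ∀ t ∈ T, t * u = u * t := by
  let φ : T →* MulAut V := (MulAut.conjNormal).comp T.subtype
  let _inst : MulAction T V := MulAction.compHom V φ
  have hdvd : p ∣ Nat.card V := by
    obtain ⟨n, hn⟩ := IsPGroup.iff_card.1 hVp
    rw [hn]
    rcases n with _ | n
    · exfalso
      apply hV
      rw [pow_zero] at hn
      exact Subgroup.card_eq_one.1 hn
    · exact dvd_pow_self p (Nat.succ_ne_zero n)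
  have h1 : (1 : V) ∈ MulAction.fixedPoints T V := by
    intro t
    exact map_one (φ t)
  obtain ⟨b, hb, hne⟩ := hT.exists_fixed_point_of_prime_dvd_card_of_fixed_point V hdvd h1
  refine ⟨b, b.2, fun h => hne (Subtype.ext h.symm), ?_⟩
  intro t ht
  have := hb ⟨t, ht⟩
  have h2 : t * (b : G) * t⁻¹ = b := congrArg Subtype.val this
  calc t * (b : G) = (t * b * t⁻¹) * t := by group
    _ = b * t := by rw [h2]

/-- in a finite nilpotent group, elements of coprime prime power orders commute -/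
theorem commute_of_nilpotent {G : Type*} [Group G] [Finite G] (N : Subgroup G)
    (hN : Group.IsNilpotent N) (r p : ℕ) [Fact r.Prime] [Fact p.Prime] (hrp : r ≠ p) (a b : G)
    (ha : a ∈ N) (hb : b ∈ N) (i j : ℕ) (hai : a ^ (r ^ i) = 1) (hbj : b ^ (p ^ j) = 1) :
    a * b = b * a := by
  have hA : IsPGroup r (Subgroup.zpowers (⟨a, ha⟩ : N)) :=
    isPGroup_zpowers r _ i (Subtype.ext (by simpa using hai))
  have hB : IsPGroup p (Subgroup.zpowers (⟨b, hb⟩ : N)) :=
    isPGroup_zpowers p _ j (Subtype.ext (by simpa using hbj))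
  obtain ⟨R, hR⟩ := hA.exists_le_sylow
  obtain ⟨P, hP⟩ := hB.exists_le_sylow
  have hRn : (R : Subgroup N).Normal := inferInstance
  have hPn : (P : Subgroup N).Normal := inferInstance
  have hdis : Disjoint (R : Subgroup N) (P : Subgroup N) :=
    IsPGroup.disjoint_of_ne r p hrp _ _ R.isPGroup' P.isPGroup'
  have := Subgroup.commute_of_normal_of_disjoint _ _ hRn hPn hdis ⟨a, ha⟩ ⟨b, hb⟩
    (hR (Subgroup.mem_zpowers _)) (hP (Subgroup.mem_zpowers _))
  exact congrArg Subtype.val this.eq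

theorem eq_top_of_sylow_le {C : Type*} [Group C] [Finite C] (K : Subgroup C)
    (h : ∀ l : ℕ, ∀ _ : Fact l.Prime, ∃ L : Sylow l C, (L : Subgroup C) ≤ K) : K = ⊤ := by
  rw [← Subgroup.index_eq_one]
  by_contra hne
  obtain ⟨l, hl, hld⟩ := Nat.exists_prime_and_dvd hne
  have hlf : Fact l.Prime := ⟨hl⟩
  obtain ⟨L, hL⟩ := h l hlf
  exact L.not_dvd_index (hld.trans (Subgroup.index_dvd_of_le hL))

theorem mem_centralizer_singleton {G : Type*} [Group G] (g x : G) :
    g ∈ Subgroup.centralizer {x} ↔ x * g = g * x := by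
  rw [Subgroup.mem_centralizer_iff]
  constructor
  · intro h; exact h x rfl
  · intro h y hy
    rw [Set.mem_singleton_iff] at hy
    subst hy
    exact h

theorem centralizes_V {G : Type*} [Group G] [Finite G] (hCN : IsCNGroup G) (p : ℕ)
    [Fact p.Prime] (V : Subgroup G) [V.Normal] (hVp : IsPGroup p V)
    (hVab : ∀ v ∈ V, ∀ w ∈ V, v * w = w * v) (hV : V ≠ ⊥)
    (x : G) (hxV : x ∉ V) (a : ℕ) (hxa : x ^ (p ^ a) = 1)
    (r : ℕ) [Fact r.Prime] (hrp : r ≠ p) (y : G) (k : ℕ) (hy : y ^ (r ^ k) = 1)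
    (hyx : ⁅y, x⁆ ∈ V) : ∀ v ∈ V, y * v = v * y := by
  obtain ⟨b, hb⟩ := IsPGroup.iff_card.1 hVp
  have hr : ¬ r ∣ Nat.card V := by
    rw [hb]
    intro h
    exact hrp ((Nat.prime_dvd_prime_iff_eq Fact.out Fact.out).1
      (Nat.Prime.dvd_of_dvd_pow Fact.out h))
  have hab : y * (x * y * x⁻¹)⁻¹ ∈ V := by
    have : y * (x * y * x⁻¹)⁻¹ = ⁅y, x⁆ := by
      rw [commutatorElement_def]; group
    rw [this]; exact hyx
  obtain ⟨w, hw, hfix⟩ := twisted_fixed V y (x * y * x⁻¹) hab r k hy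
    (by rw [conj_pow, hy]; group) hr
  have hcomm : y * (w * x) = (w * x) * y := by
    calc y * (w * x) = (y * w * (x * y * x⁻¹)⁻¹) * x * y := by group
      _ = w * x * y := by rw [hfix]
  have hx1 : w * x ≠ 1 := by
    intro h
    apply hxV
    have : x = w⁻¹ * (w * x) := by group
    rw [this, h, mul_one]
    exact V.inv_mem hw
  have hx1V : (w * x) ^ (p ^ a) ∈ V := by
    rw [← QuotientGroup.eq_one_iff, QuotientGroup.mk_pow, QuotientGroup.mk_mul,
      (QuotientGroup.eq_one_iff w).2 hw, one_mul, ← QuotientGroup.mk_pow, hxa]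
    rfl
  have hpowV : ∀ v ∈ V, v ^ (p ^ b) = 1 := by
    intro v hv
    have := pow_card_eq_one' (G := V) (x := ⟨v, hv⟩)
    rw [hb] at this
    exact congrArg Subtype.val this
  have hx1p : (w * x) ^ (p ^ (a + b)) = 1 := by
    rw [pow_add, pow_mul]
    exact hpowV _ hx1V
  obtain ⟨u1, hu1V, hu1ne, hu1⟩ := exists_fixed_in_V p V hVp hV (Subgroup.zpowers (w * x))
    (isPGroup_zpowers p _ _ hx1p)
  have hu1x : (w * x) * u1 = u1 * (w * x) := hu1 _ (Subgroup.mem_zpowers _)
  have h1 : y * u1 = u1 * y := by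
    apply commute_of_nilpotent (Subgroup.centralizer {w * x}) (hCN _ hx1) r p hrp y u1 _ _ k b hy
      (hpowV u1 hu1V)
    · rw [mem_centralizer_singleton]; exact hcomm.symm
    · rw [mem_centralizer_singleton]; exact hu1x
  intro v hv
  apply commute_of_nilpotent (Subgroup.centralizer {u1}) (hCN _ hu1ne) r p hrp y v _ _ k b hy
    (hpowV v hv)
  · rw [mem_centralizer_singleton]; exact h1.symm
  · rw [mem_centralizer_singleton]; exact hVab u1 hu1V v hv

theorem caseB {G : Type*} [Group G] [Finite G] (hCN : IsCNGroup G) (p : ℕ) [Fact p.Prime]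
    (V : Subgroup G) [V.Normal] (hVp : IsPGroup p V)
    (hVab : ∀ v ∈ V, ∀ w ∈ V, v * w = w * v) (hV : V ≠ ⊥)
    (x : G) (hxV : x ∉ V) (a : ℕ) (hxa : x ^ (p ^ a) = 1) (C : Subgroup G)
    (hC : ∀ g ∈ C, ⁅g, x⁆ ∈ V) :
    ∃ u : G, u ≠ 1 ∧ C ≤ Subgroup.centralizer {u} := by
  obtain S : Sylow p C := default
  obtain ⟨u, huV, hune, hu⟩ := exists_fixed_in_V p V hVp hV ((S : Subgroup C).map C.subtype)
    (S.isPGroup'.map _)
  refine ⟨u, hune, ?_⟩
  rw [← Subgroup.subgroupOf_eq_top]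
  apply eq_top_of_sylow_le
  intro l hl
  by_cases hlp : l = p
  · subst hlp
    refine ⟨S, ?_⟩
    intro s hs
    rw [Subgroup.mem_subgroupOf, mem_centralizer_singleton]
    exact (hu (s : G) ⟨s, hs, rfl⟩).symm
  · obtain L : Sylow l C := default
    refine ⟨L, ?_⟩
    intro y hy
    rw [Subgroup.mem_subgroupOf, mem_centralizer_singleton]
    obtain ⟨k, hk⟩ := L.isPGroup' ⟨y, hy⟩
    have hk' : (y : G) ^ (l ^ k) = 1 := by
      have := congrArg Subtype.val (congrArg Subtype.val hk)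
      simpa using this
    exact (centralizes_V hCN p V hVp hVab hV x hxV a hxa l hlp (y : G) k hk' (hC _ y.2)
      u huV).symm

theorem caseA {G : Type*} [Group G] [Finite G] (p : ℕ) [Fact p.Prime]
    (V : Subgroup G) [V.Normal] (hVp : IsPGroup p V)
    (x' : G) (q : ℕ) [Fact q.Prime] (hqp : q ≠ p) (hx' : x' ^ q = 1) (g : G)
    (hg : ⁅g, x'⁆ ∈ V) :
    ∃ v ∈ V, ∃ d ∈ Subgroup.centralizer {x'}, g = v * d := by
  obtain ⟨b, hb⟩ := IsPGroup.iff_card.1 hVp
  have hr : ¬ q ∣ Nat.card V := by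
    rw [hb]
    intro h
    exact hqp ((Nat.prime_dvd_prime_iff_eq Fact.out Fact.out).1
      (Nat.Prime.dvd_of_dvd_pow Fact.out h))
  have hab : (g * x' * g⁻¹) * x'⁻¹ ∈ V := by
    have : (g * x' * g⁻¹) * x'⁻¹ = ⁅g, x'⁆ := by
      rw [commutatorElement_def]
    rw [this]; exact hg
  obtain ⟨v, hv, hfix⟩ := twisted_fixed V (g * x' * g⁻¹) x' hab q 1
    (by rw [pow_one, conj_pow, hx']; group) (by rw [pow_one]; exact hx') hr
  refine ⟨v, hv, v⁻¹ * g, ?_, by group⟩
  rw [mem_centralizer_singleton]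
  have h1 : g * x' * g⁻¹ = v * x' * v⁻¹ := by
    calc g * x' * g⁻¹ = (g * x' * g⁻¹ * v * x'⁻¹) * x' * v⁻¹ := by group
      _ = v * x' * v⁻¹ := by rw [hfix]
  calc x' * (v⁻¹ * g) = v⁻¹ * (v * x' * v⁻¹) * g := by group
    _ = v⁻¹ * (g * x' * g⁻¹) * g := by rw [h1]
    _ = v⁻¹ * g * x' := by group

/-- the quotient of a CN-group by a nontrivial normal abelian `p`-subgroup is a CN-group -/
theorem core {G : Type*} [Group G] [Finite G] (hCN : IsCNGroup G) (p : ℕ) [Fact p.Prime]
    (V : Subgroup G) [V.Normal] (hVp : IsPGroup p V)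
    (hVab : ∀ v ∈ V, ∀ w ∈ V, v * w = w * v) (hV : V ≠ ⊥) :
    IsCNGroup (G ⧸ V) := by
  intro xb hxb
  obtain ⟨x, rfl⟩ := QuotientGroup.mk_surjective xb
  have hxV : x ∉ V := fun h => hxb ((QuotientGroup.eq_one_iff x).2 h)
  have hcomm : ∀ g : G, (QuotientGroup.mk g : G ⧸ V) ∈
      Subgroup.centralizer {(QuotientGroup.mk x : G ⧸ V)} → ∀ n : ℕ, ⁅g, x ^ n⁆ ∈ V := by
    intro g hg n
    rw [mem_centralizer_singleton] at hg
    rw [← QuotientGroup.eq_one_iff]
    have h2 : ((⁅g, x ^ n⁆ : G) : G ⧸ V) = ⁅(g : G ⧸ V), (x : G ⧸ V) ^ n⁆ :=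
      map_commutatorElement (QuotientGroup.mk' V) g (x ^ n)
    rw [h2, commutatorElement_eq_one_iff_commute]
    exact Commute.pow_right hg.symm n
  by_cases hcase : ∃ q : ℕ, q.Prime ∧ q ≠ p ∧ q ∣ orderOf x
  · obtain ⟨q, hq, hqp, hqd⟩ := hcase
    have hqf : Fact q.Prime := ⟨hq⟩
    have hord : orderOf (x ^ (orderOf x / q)) = q :=
      orderOf_pow_orderOf_div (orderOf_pos x).ne' hqd
    have hx'q : (x ^ (orderOf x / q)) ^ q = 1 := by
      have := pow_orderOf_eq_one (x ^ (orderOf x / q))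
      rwa [hord] at this
    have hx'1 : x ^ (orderOf x / q) ≠ 1 := by
      intro h
      rw [h, orderOf_one] at hord
      exact hq.one_lt.ne hord
    apply nilp_of_le_map (QuotientGroup.mk' V) (Subgroup.centralizer {x ^ (orderOf x / q)})
      (hCN _ hx'1)
    intro gb hgb
    obtain ⟨g, rfl⟩ := QuotientGroup.mk_surjective gb
    obtain ⟨v, hv, d, hd, rfl⟩ := caseA p V hVp (x ^ (orderOf x / q)) q hqp hx'q g
      (hcomm g hgb _)
    refine ⟨d, hd, ?_⟩
    show (QuotientGroup.mk d : G ⧸ V) = QuotientGroup.mk (v * d)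
    rw [QuotientGroup.mk_mul, (QuotientGroup.eq_one_iff v).2 hv, one_mul]
  · push Not at hcase
    have hpow : ∃ a, orderOf x = p ^ a := by
      refine ⟨_, Nat.eq_prime_pow_of_unique_prime_dvd (orderOf_pos x).ne' ?_⟩
      intro d hd hdd
      by_contra hne
      exact hcase d hd hne hdd
    obtain ⟨a, ha⟩ := hpow
    have hxa : x ^ (p ^ a) = 1 := by rw [← ha]; exact pow_orderOf_eq_one x
    obtain ⟨u, hu1, hu⟩ := caseB hCN p V hVp hVab hV x hxV a hxa
      ((Subgroup.centralizer {(QuotientGroup.mk x : G ⧸ V)}).comap (QuotientGroup.mk' V)) (by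
        intro g hg
        have := hcomm g hg 1
        rwa [pow_one] at this)
    apply nilp_of_le_map (QuotientGroup.mk' V) (Subgroup.centralizer {u}) (hCN u hu1)
    intro gb hgb
    obtain ⟨g, rfl⟩ := QuotientGroup.mk_surjective gb
    exact ⟨g, hu hgb, rfl⟩

theorem exists_abelian_normal_p {G : Type*} [Group G] [Finite G] (H : Subgroup G) [H.Normal]
    (hH : Group.IsSolvable H) (hbot : H ≠ ⊥) :
    ∃ p : ℕ, Fact p.Prime ∧ ∃ V : Subgroup G, V.Normal ∧ IsPGroup p V ∧
      (∀ v ∈ V, ∀ w ∈ V, v * w = w * v) ∧ V ≠ ⊥ ∧ V ≤ H := by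
  classical
  have hex : ∃ n, derivedSeries H n = ⊥ := (Group.isSolvable_def H).1 hH
  have hm : derivedSeries H (Nat.find hex) = ⊥ := Nat.find_spec hex
  have hm0 : Nat.find hex ≠ 0 := by
    intro h0
    rw [h0, derivedSeries_zero] at hm
    apply hbot
    rw [Subgroup.eq_bot_iff_forall]
    intro x hx
    have : (⟨x, hx⟩ : H) ∈ (⊤ : Subgroup H) := trivial
    rw [hm] at this
    exact congrArg Subtype.val (Subgroup.mem_bot.1 this)
  obtain ⟨k, hk⟩ := Nat.exists_eq_succ_of_ne_zero hm0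
  have hk1 : derivedSeries H k ≠ ⊥ := Nat.find_min hex (by omega : k < Nat.find hex)
  have hk2 : ⁅derivedSeries H k, derivedSeries H k⁆ = ⊥ := by
    rw [hk] at hm
    exact hm
  have hAn : ((derivedSeries H k).map H.subtype).Normal := inferInstance
  have hAab : ∀ a ∈ (derivedSeries H k).map H.subtype, ∀ b ∈ (derivedSeries H k).map H.subtype,
      a * b = b * a := by
    rintro _ ⟨a, ha, rfl⟩ _ ⟨b, hb, rfl⟩
    have := Subgroup.commutator_eq_bot_iff_le_centralizer.1 hk2 ha
    rw [Subgroup.mem_centralizer_iff] at this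
    have h2 := this b hb
    exact congrArg Subtype.val h2.symm
  have hAne : (derivedSeries H k).map H.subtype ≠ ⊥ := by
    intro h
    apply hk1
    rwa [Subgroup.map_eq_bot_iff_of_injective _ H.subtype_injective] at h
  have hcard : Nat.card ((derivedSeries H k).map H.subtype) ≠ 1 :=
    fun h => hAne (Subgroup.card_eq_one.1 h)
  obtain ⟨p, hp, hpd⟩ := Nat.exists_prime_and_dvd hcard
  have : Fact p.Prime := ⟨hp⟩
  refine ⟨p, ⟨hp⟩, ?_⟩
  let V : Subgroup G :=
    { carrier := {g | g ∈ (derivedSeries H k).map H.subtype ∧ g ^ p = 1}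
      mul_mem' := by
        rintro a b ⟨ha, ha'⟩ ⟨hb, hb'⟩
        refine ⟨Subgroup.mul_mem _ ha hb, ?_⟩
        have hc : Commute a b := hAab a ha b hb
        rw [hc.mul_pow, ha', hb', one_mul]
      one_mem' := ⟨Subgroup.one_mem _, one_pow p⟩
      inv_mem' := by
        rintro a ⟨ha, ha'⟩
        exact ⟨Subgroup.inv_mem _ ha, by rw [inv_pow, ha', inv_one]⟩ }
  have hVmem : ∀ g, g ∈ V ↔ g ∈ (derivedSeries H k).map H.subtype ∧ g ^ p = 1 := fun g => Iff.rfl
  refine ⟨V, ?_, ?_, ?_, ?_, ?_⟩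
  · constructor
    intro n hn g
    rw [hVmem] at hn ⊢
    exact ⟨hAn.conj_mem n hn.1 g, by rw [conj_pow, hn.2]; group⟩
  · rintro ⟨g, hg⟩
    refine ⟨1, ?_⟩
    ext1
    rw [pow_one]
    exact ((hVmem g).1 hg).2
  · intro v hv w hw
    exact hAab v ((hVmem v).1 hv).1 w ((hVmem w).1 hw).1
  · obtain ⟨a, ha⟩ := exists_prime_orderOf_dvd_card' (G := ((derivedSeries H k).map H.subtype)) p hpd
    intro hVbot
    have h1 : (a : G) ∈ V := by
      rw [hVmem]
      refine ⟨a.2, ?_⟩
      have := pow_orderOf_eq_one a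
      rw [ha] at this
      exact congrArg Subtype.val this
    rw [hVbot, Subgroup.mem_bot] at h1
    have h2 : a = 1 := Subtype.ext h1
    rw [h2, orderOf_one] at ha
    exact hp.one_lt.ne ha
  · intro g hg
    obtain ⟨⟨a, _, rfl⟩, _⟩ := (hVmem g).1 hg
    exact a.2

theorem main.{u} (n : ℕ) : ∀ (G : Type u) [Group G] [Finite G], Nat.card G = n → IsCNGroup G →
    ∀ (H : Subgroup G) [H.Normal], Group.IsSolvable H → IsCNGroup (G ⧸ H) := by
  induction n using Nat.strong_induction_on with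
  | _ n ih =>
    intro G _ _ hn hCN H _ hH
    by_cases hbot : H = ⊥
    · subst hbot
      exact isCN_of_mulEquiv (QuotientGroup.quotientBot).symm hCN
    · obtain ⟨p, hp, V, hVn, hVp, hVab, hVne, hVH⟩ := exists_abelian_normal_p H hH hbot
      have h1 : IsCNGroup (G ⧸ V) := core hCN p V hVp hVab hVne
      have hcard : Nat.card (G ⧸ V) < n := by
        rw [← hn, ← Subgroup.index_eq_card]
        have h3 := V.card_mul_index
        have h2 : 1 < Nat.card V := (Subgroup.one_lt_card_iff_ne_bot V).2 hVne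
        have h4 : 0 < V.index := Nat.pos_of_ne_zero Subgroup.index_ne_zero_of_finite
        nlinarith
      have hsol : Group.IsSolvable (H.map (QuotientGroup.mk' V)) :=
        Group.isSolvable_of_surjective ((QuotientGroup.mk' V).subgroupMap_surjective H)
      have h2 := ih _ hcard (G ⧸ V) rfl h1 (H.map (QuotientGroup.mk' V)) hsol
      exact isCN_of_mulEquiv (QuotientGroup.quotientQuotientEquivQuotient V H hVH) h2

/-- Let G be a finite group in which the centralizer of every non-identity element is nilpotent, and H a solvable normal subgroup of G. Then in G/H the centralizer of every non-identity element is nilpotent. -/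
theorem result {G : Type*} [Group G] [Finite G] (hCN : Cfsg.IsCNGroup G) (H : Subgroup G) [H.Normal] (hH : Group.IsSolvable H) :
    Cfsg.IsCNGroup (G ⧸ H) :=
  main (Nat.card G) G rfl hCN H hH

end Cfsg.Agent.S1473
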