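import Cfsg.Statements.S1475
import Mathlib

set_option autoImplicit false
open Cfsg

namespace Cfsg.Agent.S1475

open scoped IsMulCommutative

theorem eppo_commute {G : Type*} [Group G] (h : ∀ g : G, IsPrimePow (orderOf g) ∨ g = 1)
    {u g : G} (hc : Commute u g) (hco : (orderOf u).Coprime (orderOf g)) : u = 1 ∨ g = 1 := by
  by_contra hne
  push Not at hne
  obtain ⟨hu, hg⟩ := hne
  have hord := hc.orderOf_mul_eq_mul_orderOf_of_coprime hco
  have hu1 : orderOf u ≠ 1 := fun h1 => hu (orderOf_eq_one_iff.1 h1)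
  have hg1 : orderOf g ≠ 1 := fun h1 => hg (orderOf_eq_one_iff.1 h1)
  rcases h (u * g) with hpp | h1
  · rw [hord] at hpp
    have hpos : 0 < orderOf u * orderOf g := hpp.pos
    have hupos : 0 < orderOf u := Nat.pos_of_mul_pos_right hpos
    have hgpos : 0 < orderOf g := Nat.pos_of_mul_pos_left hpos
    rcases (hco.isPrimePow_dvd_mul hpp).1 dvd_rfl with h2 | h2
    · have h3 : orderOf u * orderOf g ∣ orderOf u * 1 := by rwa [mul_one]
      exact hg1 (Nat.dvd_one.1 (Nat.dvd_of_mul_dvd_mul_left hupos h3))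
    · have h3 : orderOf u * orderOf g ∣ 1 * orderOf g := by rwa [one_mul]
      exact hu1 (Nat.dvd_one.1 (Nat.dvd_of_mul_dvd_mul_right hgpos h3))
  · rw [h1, orderOf_one] at hord
    have := Nat.eq_one_of_mul_eq_one_right hord.symm
    exact hu1 this

theorem pow_dvd_prime_pow_ne {p r k j : ℕ} (hp : p.Prime) (hr : r.Prime) (hpr : p ≠ r)
    (h : p ^ k ∣ r ^ j) : k = 0 := by
  by_contra hk
  have h1 : p ∣ r ^ j := (dvd_pow_self p hk).trans h
  have h2 : p ∣ r := hp.dvd_of_dvd_pow h1
  exact hpr ((Nat.prime_dvd_prime_iff_eq hp hr).1 h2)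

theorem core {G : Type*} [Group G] [Finite G] (h : ∀ g : G, IsPrimePow (orderOf g) ∨ g = 1)
    (p r s : ℕ) (hp : p.Prime) (hr : r.Prime) (hs : s.Prime) (hpr : p ≠ r) (hps : p ≠ s)
    (hrs : r ≠ s)
    (A : Subgroup G) [A.Normal] [IsMulCommutative A] (hA : ∀ a ∈ A, ∃ k, orderOf a = p ^ k)
    (M : Subgroup G) (hM1 : M ≠ ⊥) (hM : ∀ m ∈ M, ∃ k, orderOf m = r ^ k)
    (y : G) (hy : orderOf y = s) (hyM : y ∈ Subgroup.normalizer (M : Set G)) : A = ⊥ := by
  classical
  have := Fintype.ofFinite M
  have hys : y ^ s = 1 := by rw [← hy]; exact pow_orderOf_eq_one y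
  -- step 1
  have hφ : ∀ m ∈ M, ∀ i : ℕ, (m * y) ^ i * (y ^ i)⁻¹ ∈ M := by
    intro m hm i
    induction i with
    | zero => simp
    | succ i ih =>
      have h1 : (m * y) ^ (i + 1) * (y ^ (i + 1))⁻¹ =
          ((m * y) ^ i * (y ^ i)⁻¹) * (y ^ i * m * (y ^ i)⁻¹) := by
        rw [pow_succ, pow_succ]; group
      rw [h1]
      exact M.mul_mem ih
        ((Subgroup.mem_normalizer_iff.1 (Subgroup.pow_mem _ hyM i) m).1 hm)
  -- step 2
  have hg_ne : ∀ m ∈ M, m * y ≠ 1 := by
    intro m hm h1
    have hyM' : y ∈ M := by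
      have : y = m⁻¹ := eq_inv_of_mul_eq_one_right h1
      rw [this]; exact M.inv_mem hm
    obtain ⟨k, hk⟩ := hM y hyM'
    rw [hy] at hk
    have hk0 : k = 0 := pow_dvd_prime_pow_ne hr hs hrs (k := k) (j := 1) (by rw [pow_one, ← hk])
    rw [hk0, pow_zero] at hk
    exact hs.one_lt.ne' hk
  have hgs : ∀ m ∈ M, (m * y) ^ s = 1 := by
    intro m hm
    have hyn : y ^ orderOf (m * y) ∈ M := by
      have := hφ m hm (orderOf (m * y))
      rw [pow_orderOf_eq_one, one_mul] at this
      simpa using M.inv_mem this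
    obtain ⟨k, hk⟩ := hM _ hyn
    have hk0 : k = 0 := by
      apply pow_dvd_prime_pow_ne hr hs hrs (k := k) (j := 1)
      rw [pow_one, ← hk, ← hy]
      exact orderOf_pow_dvd _
    rw [hk0, pow_zero, orderOf_eq_one_iff] at hk
    have hsn : s ∣ orderOf (m * y) := by rw [← hy]; exact orderOf_dvd_of_pow_eq_one hk
    rcases h (m * y) with hpp | h1
    · obtain ⟨q, j, hq, hj, hqj⟩ := (isPrimePow_nat_iff _).1 hpp
      have hsq : s = q := by
        rw [← hqj] at hsn
        exact (Nat.prime_dvd_prime_iff_eq hs hq).1 (hs.dvd_of_dvd_pow hsn)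
      subst hsq
      have hgsM : (m * y) ^ s ∈ M := by
        have := hφ m hm s
        rw [hys, inv_one, mul_one] at this
        exact this
      obtain ⟨k', hk'⟩ := hM _ hgsM
      have hk'0 : k' = 0 := by
        apply pow_dvd_prime_pow_ne hr hs hrs (k := k') (j := j)
        rw [← hk', hqj]
        exact orderOf_pow_dvd _
      rw [hk'0, pow_zero, orderOf_eq_one_iff] at hk'
      exact hk'
    · exact absurd h1 (hg_ne m hm)
  have hgord : ∀ m ∈ M, orderOf (m * y) = s := by
    intro m hm
    rcases (Nat.dvd_prime hs).1 (orderOf_dvd_of_pow_eq_one (hgs m hm)) with h1 | h1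
    · exact absurd (orderOf_eq_one_iff.1 h1) (hg_ne m hm)
    · exact h1
  -- conjugation action on A
  have hfix : ∀ (g : G) (w : A), MulAut.conjNormal g w = w → (orderOf g).Coprime p →
      g ≠ 1 → w = 1 := by
    intro g w hw hco hg
    have h1 : g * (w : G) * g⁻¹ = (w : G) := by
      rw [← MulAut.conjNormal_apply, hw]
    have hc : Commute (w : G) g := by
      rw [Commute, SemiconjBy]
      calc (w : G) * g = (g * (w : G) * g⁻¹) * g := by rw [h1]
        _ = g * (w : G) := by group
    obtain ⟨k, hk⟩ := hA w w.2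
    have hco' : (orderOf (w : G)).Coprime (orderOf g) := by
      rw [hk]; exact Nat.Coprime.pow_left k hco.symm
    rcases eppo_commute h hc hco' with h2 | h2
    · exact Subtype.ext h2
    · exact absurd h2 hg
  -- T
  have hT : ∀ m ∈ M, ∀ v : A,
      ∏ i ∈ Finset.range s, MulAut.conjNormal ((m * y) ^ i) v = 1 := by
    intro m hm v
    apply hfix (m * y) _ _ _ (hg_ne m hm)
    · rw [map_prod]
      have h1 : ∀ i, MulAut.conjNormal (m * y) (MulAut.conjNormal ((m * y) ^ i) v) =
          MulAut.conjNormal ((m * y) ^ (i + 1)) v := by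
        intro i
        rw [pow_succ', map_mul MulAut.conjNormal (m * y) ((m * y) ^ i)]
        rfl
      simp_rw [h1]
      have h2 := Finset.prod_range_succ' (fun i => MulAut.conjNormal ((m * y) ^ i) v) s
      have h3 := Finset.prod_range_succ (fun i => MulAut.conjNormal ((m * y) ^ i) v) s
      rw [h3] at h2
      simp only [hgs m hm, pow_zero] at h2
      exact (mul_right_cancel h2).symm
    · rw [hgord m hm]
      exact (Nat.coprime_primes hs hp).2 (Ne.symm hps)
  -- P
  obtain ⟨m₀, hm₀1⟩ := (Subgroup.ne_bot_iff_exists_ne_one.1 hM1)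
  have hP : ∀ w : A, ∏ m : M, MulAut.conjNormal (m : G) w = 1 := by
    intro w
    apply hfix (m₀ : G) _ _ _ (fun h1 => hm₀1 (Subtype.ext h1))
    · rw [map_prod]
      have h1 : ∀ m : M, MulAut.conjNormal (m₀ : G) (MulAut.conjNormal (m : G) w) =
          MulAut.conjNormal (((m₀ * m : M)) : G) w := by
        intro m
        rw [Subgroup.coe_mul, map_mul MulAut.conjNormal (m₀ : G) (m : G)]
        rfl
      simp_rw [h1]
      exact Equiv.prod_comp (Equiv.mulLeft m₀) (fun m : M => MulAut.conjNormal (m : G) w)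
    · obtain ⟨k, hk⟩ := hM (m₀ : G) m₀.2
      rw [hk]
      exact Nat.Coprime.pow_left k ((Nat.coprime_primes hr hp).2 (Ne.symm hpr))
  -- main computation
  rw [Subgroup.eq_bot_iff_forall]
  intro a ha
  have hdouble : ∏ m : M, ∏ i ∈ Finset.range s,
      MulAut.conjNormal (((m : G) * y) ^ i) (⟨a, ha⟩ : A) = 1 := by
    apply Finset.prod_eq_one
    intro m _
    exact hT m m.2 _
  rw [Finset.prod_comm] at hdouble
  have hi : ∀ i ∈ Finset.range s, i ≠ 0 →
      ∏ m : M, MulAut.conjNormal (((m : G) * y) ^ i) (⟨a, ha⟩ : A) = 1 := by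
    intro i hi hi0
    rw [Finset.mem_range] at hi
    let φ : M → M := fun m => ⟨((m : G) * y) ^ i * (y ^ i)⁻¹, hφ m m.2 i⟩
    have hinj : Function.Injective φ := by
      intro m m' hmm
      have h1 : ((m : G) * y) ^ i = ((m' : G) * y) ^ i := by
        have := congrArg Subtype.val hmm
        simp only [φ] at this
        exact mul_right_cancel this
      have hcop : Nat.Coprime i s :=
        Nat.Coprime.symm ((Nat.Prime.coprime_iff_not_dvd hs).2
          (Nat.not_dvd_of_pos_of_lt (Nat.pos_of_ne_zero hi0) hi))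
      obtain ⟨j, -, hj⟩ := Nat.exists_mul_mod_eq_one_of_coprime hcop hs.one_lt
      have h2 : ∀ g : G, g ^ s = 1 → g = (g ^ i) ^ j := by
        intro g hg
        rw [← pow_mul, pow_eq_pow_mod (i * j) hg, hj, pow_one]
      have h3 : (m : G) * y = (m' : G) * y := by
        rw [h2 _ (hgs m m.2), h2 ((m' : G) * y) (hgs m' m'.2), h1]
      exact Subtype.ext (mul_right_cancel h3)
    have hbij : Function.Bijective φ := Finite.injective_iff_bijective.1 hinj
    have h4 : ∀ m : M, MulAut.conjNormal (((m : G) * y) ^ i) (⟨a, ha⟩ : A) =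
        MulAut.conjNormal ((Equiv.ofBijective φ hbij m : M) : G)
          (MulAut.conjNormal (y ^ i) (⟨a, ha⟩ : A)) := by
      intro m
      have : ((m : G) * y) ^ i = ((φ m : M) : G) * y ^ i := by simp [φ]
      rw [this, map_mul MulAut.conjNormal]
      rfl
    simp_rw [h4]
    rw [Equiv.prod_comp (Equiv.ofBijective φ hbij)
      (fun m : M => MulAut.conjNormal (m : G) (MulAut.conjNormal (y ^ i) (⟨a, ha⟩ : A)))]
    exact hP _
  rw [Finset.prod_eq_single 0 hi
    (by intro h0; exact absurd (Finset.mem_range.2 hs.pos) h0)] at hdouble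
  simp only [pow_zero, map_one, MulAut.one_apply, Finset.prod_const, Finset.card_univ] at hdouble
  have hMp : IsPGroup r M := by
    intro m
    obtain ⟨k, hk⟩ := hM (m : G) m.2
    refine ⟨k, ?_⟩
    rw [← hk, Subgroup.orderOf_coe]
    exact pow_orderOf_eq_one m
  have : Fact r.Prime := ⟨hr⟩
  obtain ⟨e, he⟩ := IsPGroup.iff_card.1 hMp
  rw [← Nat.card_eq_fintype_card, he] at hdouble
  obtain ⟨k, hk⟩ := hA a ha
  have hdv : orderOf a ∣ r ^ e := by
    have : a ^ (r ^ e) = 1 := by
      have := congrArg Subtype.val hdouble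
      simpa using this
    exact orderOf_dvd_of_pow_eq_one this
  rw [hk] at hdv
  have hk0 := pow_dvd_prime_pow_ne hp hr hpr hdv
  rw [hk0, pow_zero, orderOf_eq_one_iff] at hk
  exact hk

theorem exists_abelian_normal {G : Type*} [Group G] [Finite G] [Group.IsSolvable G] [Nontrivial G]
    (h : ∀ g : G, IsPrimePow (orderOf g) ∨ g = 1) :
    ∃ (A : Subgroup G) (p : ℕ), p.Prime ∧ A.Normal ∧ IsMulCommutative A ∧ A ≠ ⊥ ∧
      ∀ a ∈ A, ∃ k, orderOf a = p ^ k := by
  classical
  have hsol : ∃ n, derivedSeries G n = ⊥ := (Group.isSolvable_def G).1 inferInstance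
  have hn0 : Nat.find hsol ≠ 0 := by
    intro h0
    have := Nat.find_spec hsol
    rw [h0, derivedSeries_zero] at this
    exact top_ne_bot this
  obtain ⟨n, hn⟩ := Nat.exists_eq_succ_of_ne_zero hn0
  have hAne : derivedSeries G n ≠ ⊥ := Nat.find_min hsol (by omega)
  have hAcomm : ⁅derivedSeries G n, derivedSeries G n⁆ = ⊥ := by
    have := Nat.find_spec hsol
    rw [hn] at this
    exact this
  have hAc : IsMulCommutative (derivedSeries G n) := by
    rw [← Subgroup.le_centralizer_iff_isMulCommutative,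
      ← Subgroup.commutator_eq_bot_iff_le_centralizer]
    exact hAcomm
  obtain ⟨a, ha⟩ := Subgroup.ne_bot_iff_exists_ne_one.1 hAne
  have ha1 : (a : G) ≠ 1 := fun h1 => ha (Subtype.ext h1)
  rcases h (a : G) with hpp | h1
  swap
  · exact absurd h1 ha1
  obtain ⟨p, k, hp, hk, hpk⟩ := (isPrimePow_nat_iff _).1 hpp
  refine ⟨derivedSeries G n, p, hp, derivedSeries_normal G n, hAc, hAne, ?_⟩
  intro b hb
  by_cases hb1 : b = 1
  · exact ⟨0, by rw [hb1, orderOf_one, pow_zero]⟩
  rcases h b with hppb | h1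
  swap
  · exact absurd h1 hb1
  obtain ⟨q, l, hq, hl, hql⟩ := (isPrimePow_nat_iff _).1 hppb
  by_cases hqp : q = p
  · exact ⟨l, by rw [← hql, hqp]⟩
  · exfalso
    have hc : Commute (a : G) b := by
      have := isMulCommutative_iff.1 hAc a ⟨b, hb⟩
      exact congrArg Subtype.val this
    have hco : (orderOf (a : G)).Coprime (orderOf b) := by
      rw [← hpk, ← hql]
      exact Nat.Coprime.pow k l ((Nat.coprime_primes hp hq).2 (Ne.symm hqp))
    rcases eppo_commute h hc hco with h2 | h2
    · exact ha1 h2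
    · exact hb1 h2

theorem main.{u} : ∀ (n : ℕ) (G : Type u) [Group G] [Finite G] [Group.IsSolvable G],
    Nat.card G = n → (∀ g : G, IsPrimePow (orderOf g) ∨ g = 1) →
    (Nat.card G).primeFactors.card ≤ 2 := by
  intro n
  induction n using Nat.strong_induction_on with
  | _ n ih =>
  intro G _ _ _ hn h
  by_cases hG : Subsingleton G
  · have : Nat.card G = 1 := Nat.card_of_subsingleton 1
    rw [this]; simp
  · have hnt : Nontrivial G := not_subsingleton_iff_nontrivial.1 hG
    obtain ⟨A, p, hp, hAn, hAc, hAne, hAp⟩ := exists_abelian_normal h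
    have hcard : Nat.card G = Nat.card (G ⧸ A) * Nat.card A :=
      Subgroup.card_eq_card_quotient_mul_card_subgroup A
    have hApg : IsPGroup p A := fun a => by
      obtain ⟨k, hk⟩ := hAp a a.2
      exact ⟨k, by rw [← hk, Subgroup.orderOf_coe]; exact pow_orderOf_eq_one a⟩
    have hpf : Fact p.Prime := ⟨hp⟩
    obtain ⟨e, he⟩ := IsPGroup.iff_card.1 hApg
    have he0 : e ≠ 0 := by
      intro h0
      rw [h0, pow_zero] at he
      exact hAne (Subgroup.card_eq_one.1 he)
    have hQ : ∀ x : G ⧸ A, IsPrimePow (orderOf x) ∨ x = 1 := by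
      intro x
      obtain ⟨g, rfl⟩ := QuotientGroup.mk_surjective x
      rcases h g with hpp | h1
      · obtain ⟨q, l, hq, hl, hql⟩ := (isPrimePow_nat_iff _).1 hpp
        have hdvd : orderOf (g : G ⧸ A) ∣ q ^ l := by
          rw [hql]; exact orderOf_map_dvd (QuotientGroup.mk' A) g
        obtain ⟨j, hj, hjq⟩ := (Nat.dvd_prime_pow hq).1 hdvd
        by_cases hj0 : j = 0
        · right
          rw [hj0, pow_zero, orderOf_eq_one_iff] at hjq
          exact hjq
        · left
          rw [hjq]
          exact (isPrimePow_nat_iff _).2 ⟨q, j, hq, Nat.pos_of_ne_zero hj0, rfl⟩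
      · right
        rw [h1]; rfl
    have hlt : Nat.card (G ⧸ A) < n := by
      rw [← hn, hcard, he]
      have h1 : 1 < p ^ e := Nat.one_lt_pow he0 hp.one_lt
      have h2 : 0 < Nat.card (G ⧸ A) := Nat.card_pos
      nlinarith
    have hIH := ih _ hlt (G ⧸ A) rfl hQ
    have hpfs : (Nat.card G).primeFactors = insert p (Nat.card (G ⧸ A)).primeFactors := by
      rw [hcard, he, Nat.primeFactors_mul (Nat.card_pos.ne') (pow_ne_zero e hp.ne_zero),
        Nat.primeFactors_prime_pow he0 hp, Finset.union_comm]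
      rfl
    rw [hpfs]
    by_cases hpQ : p ∈ (Nat.card (G ⧸ A)).primeFactors
    · rw [Finset.insert_eq_of_mem hpQ]; exact hIH
    · rw [Finset.card_insert_of_notMem hpQ]
      by_contra hcon
      have hQ2 : (Nat.card (G ⧸ A)).primeFactors.card = 2 := by omega
      obtain ⟨r, s, hrs, hQeq⟩ := Finset.card_eq_two.1 hQ2
      have hr : r ∈ (Nat.card (G ⧸ A)).primeFactors := by rw [hQeq]; simp
      have hs : s ∈ (Nat.card (G ⧸ A)).primeFactors := by rw [hQeq]; simp
      have hrp := Nat.prime_of_mem_primeFactors hr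
      have hsp := Nat.prime_of_mem_primeFactors hs
      have hrd := Nat.dvd_of_mem_primeFactors hr
      have hsd := Nat.dvd_of_mem_primeFactors hs
      have hcop : (Nat.card A).Coprime A.index := by
        rw [he, Subgroup.index_eq_card]
        apply Nat.Coprime.pow_left
        rw [Nat.Prime.coprime_iff_not_dvd hp]
        intro hd
        exact hpQ (Nat.mem_primeFactors.2 ⟨hp, hd, Nat.card_pos.ne'⟩)
      obtain ⟨H, hH⟩ := Subgroup.exists_right_complement'_of_coprime hcop
      have hHcard : Nat.card H = Nat.card (G ⧸ A) := by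
        have h1 := hH.card_mul_card
        rw [hcard, mul_comm] at h1
        exact Nat.eq_of_mul_eq_mul_right Nat.card_pos h1
      have hHe : ∀ x : H, IsPrimePow (orderOf x) ∨ x = 1 := by
        intro x
        rcases h (x : G) with hpp | h1
        · left; rwa [Subgroup.orderOf_coe] at hpp
        · right; exact Subtype.ext h1
      have hHnt : Nontrivial H := by
        rw [← Finite.one_lt_card_iff_nontrivial, hHcard]
        exact lt_of_lt_of_le hrp.one_lt (Nat.le_of_dvd Nat.card_pos hrd)
      obtain ⟨M, t, ht, hMn, hMc, hMne, hMt⟩ := exists_abelian_normal hHe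
      have htQ : t ∈ (Nat.card (G ⧸ A)).primeFactors := by
        obtain ⟨m, hm⟩ := Subgroup.ne_bot_iff_exists_ne_one.1 hMne
        obtain ⟨k, hk⟩ := hMt m m.2
        have hk0 : k ≠ 0 := by
          intro h0
          rw [h0, pow_zero, orderOf_eq_one_iff] at hk
          exact hm (Subtype.ext hk)
        have h1 : t ∣ Nat.card H := (dvd_pow_self t hk0).trans (hk ▸ orderOf_dvd_natCard _)
        rw [hHcard] at h1
        exact Nat.mem_primeFactors.2 ⟨ht, h1, Nat.card_pos.ne'⟩
      obtain ⟨u, hu, hut, hud⟩ : ∃ u, u.Prime ∧ u ≠ t ∧ u ∣ Nat.card H := by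
        have htQ' := htQ
        rw [hQeq] at htQ'
        simp only [Finset.mem_insert, Finset.mem_singleton] at htQ'
        rcases htQ' with h1 | h1
        · exact ⟨s, hsp, by rw [h1]; exact Ne.symm hrs, hHcard ▸ hsd⟩
        · exact ⟨r, hrp, by rw [h1]; exact hrs, hHcard ▸ hrd⟩
      have hpt : p ≠ t := fun e => hpQ (e ▸ htQ)
      have hpu : p ≠ u := by
        intro e
        apply hpQ
        rw [e]
        exact Nat.mem_primeFactors.2 ⟨hu, hHcard ▸ hud, Nat.card_pos.ne'⟩
      have huf : Fact u.Prime := ⟨hu⟩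
      obtain ⟨y, hy⟩ := exists_prime_orderOf_dvd_card' u hud
      have hcore := core h p t u hp ht hu hpt hpu (Ne.symm hut) A hAp (M.map H.subtype) ?_ ?_
        (y : G) ?_ ?_
      · exact hAne hcore
      · intro hbot
        apply hMne
        exact (Subgroup.map_eq_bot_iff_of_injective M H.subtype_injective).1 hbot
      · rintro _ ⟨m, hm, rfl⟩
        obtain ⟨k, hk⟩ := hMt m hm
        exact ⟨k, by rw [← hk]; exact Subgroup.orderOf_coe m⟩
      · rw [← hy]; exact Subgroup.orderOf_coe y
      · rw [Subgroup.mem_normalizer_iff]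
        intro g
        constructor
        · rintro ⟨m, hm, rfl⟩
          exact ⟨y * m * y⁻¹, hMn.conj_mem m hm y, by simp⟩
        · rintro ⟨m, hm, hmg⟩
          refine ⟨y⁻¹ * m * y, ?_, ?_⟩
          · have := hMn.conj_mem m hm y⁻¹
            simpa using this
          · have h1 : (m : G) = (y : G) * g * (y : G)⁻¹ := hmg
            simp only [Subgroup.coe_subtype, Subgroup.coe_mul, Subgroup.coe_inv, h1]
            group

/-- Let G be a finite solvable group such that the order of every element is a prime power (1 included). Then at most two distinct primes divide the order of G. -/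
theorem result {G : Type*} [Group G] [Finite G] [Group.IsSolvable G] (h : ∀ g : G, IsPrimePow (orderOf g) ∨ g = 1) :
    (Nat.card G).primeFactors.card ≤ 2 := by
  exact main _ G rfl h

end Cfsg.Agent.S1475
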