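import Cfsg.Statements.S1480
import Cfsg.Agent.Lib.Helper32.ThTrans

set_option autoImplicit false
open Cfsg

namespace Cfsg.Agent.S1480

/-- Let G be a finite group and p a prime such that the normalizer of every nontrivial p-subgroup of G is p-constrained; if p = 2 assume also that the Sylow 2-subgroups of G have nilpotency class at most 2. Let E be an abelian p-subgroup containing an elementary abelian subgroup of order p ^ 3 and containing every element of p-power order of C_G(E). Then for every prime q ≠ p, any two maximal E-invariant q-subgroups of G are conjugate by an element of O_{p'}(C_G(E)). -/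
theorem result {G : Type*} [Group G] [Finite G] (p : ℕ) [Fact p.Prime]
    (hloc : ∀ T : Subgroup G, IsPGroup p T → T ≠ ⊥ → Cfsg.IsPConstrained p ↥(Subgroup.normalizer (T : Set G)))
    (h2 : p = 2 → ∀ S : Sylow p G, Group.IsNilpotent (S : Subgroup G) ∧ Group.nilpotencyClass (S : Subgroup G) ≤ 2)
    (E : Subgroup G) (hEp : IsPGroup p E) (hEc : IsMulCommutative E) (hE3 : ¬ Cfsg.PRankLE p 2 E)
    (hEfull : ∀ x ∈ Subgroup.centralizer (E : Set G), IsPGroup p (Subgroup.zpowers x) → x ∈ E)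
    (q : ℕ) [Fact q.Prime] (hqp : q ≠ p) :
    ∀ Q₁ ∈ Cfsg.maxInvSubgroups ⊤ E {q}, ∀ Q₂ ∈ Cfsg.maxInvSubgroups ⊤ E {q},
        ∃ k ∈ Cfsg.piCoreOf (Cfsg.primesNotDvd p) (Subgroup.centralizer (E : Set G)), Q₂ = Q₁.map (MulAut.conj k).toMonoidHom := by
  classical
  have hp := (Fact.out : p.Prime)
  have hEc' : ∀ a ∈ E, ∀ b ∈ E, a * b = b * a := fun a ha b hb =>
    congrArg Subtype.val (hEc.is_comm.comm ⟨a, ha⟩ ⟨b, hb⟩)
  have hpz : ∀ x : G, (∃ j : ℕ, x ^ p ^ j = 1) → IsPGroup p (Subgroup.zpowers x) := by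
    rintro x ⟨j, hj⟩ ⟨y, hy⟩
    obtain ⟨n, rfl⟩ := Subgroup.mem_zpowers_iff.mp hy
    refine ⟨j, Subtype.ext ?_⟩
    show (x ^ n) ^ p ^ j = 1
    rw [← zpow_natCast, ← zpow_mul, mul_comm, zpow_mul, zpow_natCast, hj, one_zpow]
  have hfull : ∀ x ∈ Subgroup.centralizer (E : Set G), (∃ j : ℕ, x ^ p ^ j = 1) → x ∈ E :=
    fun x hx hxp => hEfull x hx (hpz x hxp)
  have hcase : p ≠ 2 ∨ ∀ S : Subgroup G, IsPGroup p S → E ≤ S →
      S ≤ Subgroup.normalizer (E : Set G) := by
    by_cases hp2 : p = 2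
    · right
      intro S hS hES
      obtain ⟨P, hSP⟩ := hS.exists_le_sylow
      obtain ⟨hnil, hcl⟩ := h2 hp2 P
      have hucs : Subgroup.upperCentralSeries (↥(P : Subgroup G)) 2 = ⊤ :=
        Subgroup.upperCentralSeries_eq_top_iff_nilpotencyClass_le.mpr hcl
      have hcen : ∀ x y : ↥(P : Subgroup G),
          x * y * x⁻¹ * y⁻¹ ∈ Subgroup.center ↥(P : Subgroup G) := by
        intro x y
        have h1 : x ∈ Subgroup.upperCentralSeries (↥(P : Subgroup G)) (1 + 1) := by
          rw [show (1 + 1 : ℕ) = 2 from rfl, hucs]; exact Subgroup.mem_top x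
        have h3 := Subgroup.mem_upperCentralSeries_succ_iff.mp h1 y
        rwa [Subgroup.upperCentralSeries_one, commutatorElement_def] at h3
      rw [Subgroup.le_normalizer_iff]
      intro s hs e he
      have hsP : s ∈ (P : Subgroup G) := hSP hs
      have heP : e ∈ (P : Subgroup G) := hSP (hES he)
      have hc := hcen ⟨s, hsP⟩ ⟨e, heP⟩
      have hcE : s * e * s⁻¹ * e⁻¹ ∈ E := by
        apply hfull
        · rw [Subgroup.mem_centralizer_iff]
          intro y hy
          have h1 := (Subgroup.mem_center_iff.mp hc) ⟨y, hSP (hES hy)⟩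
          have h2' := congrArg Subtype.val h1
          simpa using h2'
        · obtain ⟨j, hj⟩ := P.2 ((⟨s, hsP⟩ : ↥(P : Subgroup G)) * ⟨e, heP⟩ * ⟨s, hsP⟩⁻¹ * ⟨e, heP⟩⁻¹)
          refine ⟨j, ?_⟩
          have h2' := congrArg Subtype.val hj
          simpa using h2'
      have : s * e * s⁻¹ = (s * e * s⁻¹ * e⁻¹) * e := by group
      rw [this]
      exact E.mul_mem hcE he
    · exact Or.inl hp2
  have hT : Cfsg.Agent.Lib.Helper32.TTHyp p E := ⟨hEp, hEc', hfull, hloc, hcase⟩
  -- an elementary abelian subgroup of order at least `p ^ 3`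
  unfold Cfsg.PRankLE at hE3
  push Not at hE3
  obtain ⟨A', hA'c, hA'p, hA'card⟩ := hE3
  have hpg : IsPGroup p A' := by
    intro g
    refine ⟨1, ?_⟩
    rw [pow_one]
    exact Subtype.ext (hA'p g.1 g.2)
  obtain ⟨m, hm⟩ := IsPGroup.iff_card.mp hpg
  have hm3 : 3 ≤ m := by
    rw [hm] at hA'card
    have := (Nat.pow_lt_pow_iff_right hp.one_lt).mp hA'card
    omega
  have hA₀E : A'.map E.subtype ≤ E := by
    rintro x ⟨y, -, rfl⟩
    exact y.2
  have hA₀ : Cfsg.IsElementaryAbelian p (A'.map E.subtype) := by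
    refine ⟨Subgroup.map_isMulCommutative _ _, ?_⟩
    rintro a ⟨a', ha', rfl⟩
    have h1 := hA'p a' ha'
    have h2' := congrArg Subtype.val h1
    simpa using h2'
  have hA₀3 : p ^ 3 ≤ Nat.card (A'.map E.subtype) := by
    rw [← Nat.card_congr (A'.equivMapOfInjective E.subtype E.subtype_injective).toEquiv, hm]
    exact Nat.pow_le_pow_right hp.pos hm3
  intro Q₁ h₁ Q₂ h₂
  exact Cfsg.Agent.Lib.Helper32.thompson_trans hT hA₀E hA₀ hA₀3 hqp h₁ h₂

end Cfsg.Agent.S1480
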