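import Mathlib
import Cfsg.Statements.S1483
import Cfsg.Agent.Lib.Helper34.CN2

set_option autoImplicit false
open Cfsg

namespace Cfsg.Agent.S1483

open Cfsg.Agent.Lib.Helper34

theorem result {G : Type*} [Group G] [Finite G] (hG : Cfsg.IsMinSimpleOddOrder G) (hCN : Cfsg.IsCNGroup G) :
    (∀ H₁ H₂ : Subgroup G, (Group.IsNilpotent ↥H₁ ∧ ∀ L : Subgroup G, Group.IsNilpotent L → H₁ ≤ L → L = H₁) → (Group.IsNilpotent ↥H₂ ∧ ∀ L : Subgroup G, Group.IsNilpotent L → H₂ ≤ L → L = H₂) → (∃ g : G, H₂ = H₁.map (MulAut.conj g).toMonoidHom) ∨ (Nat.card H₁).Coprime (Nat.card H₂)) ∧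
      ∀ (p q r : ℕ), p.Prime → q.Prime → r.Prime → ∀ (x y y' z : G), x ≠ 1 → y ≠ 1 → y' ≠ 1 → z ≠ 1 →
        IsPGroup p (Subgroup.zpowers x) → IsPGroup q (Subgroup.zpowers y) → IsPGroup q (Subgroup.zpowers y') → IsPGroup r (Subgroup.zpowers z) →
        x * y = y * x → y' * z = z * y' →
        ∃ x' z' : G, x' ≠ 1 ∧ z' ≠ 1 ∧ IsPGroup p (Subgroup.zpowers x') ∧ IsPGroup r (Subgroup.zpowers z') ∧ x' * z' = z' * x' := by
  constructor
  · rintro H₁ H₂ ⟨hH₁, hmax₁⟩ ⟨hH₂, hmax₂⟩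
    by_cases hcop : (Nat.card H₁).Coprime (Nat.card H₂)
    · right; exact hcop
    · left
      obtain ⟨s, hs, hd₁, hd₂⟩ := Nat.Prime.not_coprime_iff_dvd.mp hcop
      exact conj_of_common_prime hCN hH₁ hmax₁ hH₂ hmax₂ hs hd₁ hd₂
  · intro p q r hp hq hr x y y' z hx1 hy1 hy'1 hz1 hxp hyq hy'q hzr hxy hy'z
    by_cases hpr : p = r
    · subst hpr
      exact ⟨z, z, hz1, hz1, hzr, hzr, rfl⟩
    · haveI := Fact.mk hp
      haveI := Fact.mk hq
      haveI := Fact.mk hr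
      obtain ⟨H₁, hle₁, hH₁, hmax₁⟩ := exists_maxNilp_ge (hCN y hy1)
      obtain ⟨H₂, hle₂, hH₂, hmax₂⟩ := exists_maxNilp_ge (hCN y' hy'1)
      have hyH₁ : y ∈ H₁ := hle₁ (mem_centralizer_singleton.mpr rfl)
      have hxH₁ : x ∈ H₁ := hle₁ (mem_centralizer_singleton.mpr hxy.symm)
      have hy'H₂ : y' ∈ H₂ := hle₂ (mem_centralizer_singleton.mpr rfl)
      have hzH₂ : z ∈ H₂ := hle₂ (mem_centralizer_singleton.mpr hy'z)
      have hqdvd : ∀ (H : Subgroup G) (w : G), w ∈ H → w ≠ 1 → IsPGroup q (Subgroup.zpowers w) →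
          q ∣ Nat.card H := by
        intro H w hwH hw1 hwq
        obtain ⟨k, hk⟩ := orderOf_eq_prime_pow_of_mem hwq (Subgroup.mem_zpowers w)
        have hk0 : k ≠ 0 := by
          rintro rfl
          rw [pow_zero] at hk
          exact hw1 (orderOf_eq_one_iff.mp hk)
        have h1 : q ∣ orderOf w := by rw [hk]; exact dvd_pow_self q hk0
        have h2 := orderOf_dvd_natCard (⟨w, hwH⟩ : H)
        rw [← Subgroup.orderOf_coe] at h2
        exact dvd_trans h1 h2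
      obtain ⟨g, hg⟩ := conj_of_common_prime hCN hH₁ hmax₁ hH₂ hmax₂ hq
        (hqdvd H₁ y hyH₁ hy1 hyq) (hqdvd H₂ y' hy'H₂ hy'1 hy'q)
      have hx'H₂ : g * x * g⁻¹ ∈ H₂ := by
        rw [hg, mem_map_conj]
        have : g⁻¹ * (g * x * g⁻¹) * g = x := by group
        rw [this]; exact hxH₁
      have hox' : orderOf (g * x * g⁻¹) = orderOf x := by
        have := MulEquiv.orderOf_eq (MulAut.conj g) x
        rwa [MulAut.conj_apply] at this
      obtain ⟨j, hj⟩ := orderOf_eq_prime_pow_of_mem hxp (Subgroup.mem_zpowers x)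
      obtain ⟨i, hi⟩ := orderOf_eq_prime_pow_of_mem hzr (Subgroup.mem_zpowers z)
      refine ⟨g * x * g⁻¹, z, ?_, hz1, ?_, hzr, ?_⟩
      · intro h
        apply hx1
        have : x = g⁻¹ * (g * x * g⁻¹) * g := by group
        rw [this, h]; group
      · apply IsPGroup.of_card (n := j)
        rw [Nat.card_zpowers, hox', hj]
      · apply commute_of_mem_nilpotent hH₂ hx'H₂ hzH₂
        rw [hox', hj, hi]
        exact Nat.Coprime.pow j i ((Nat.coprime_primes hp hr).mpr hpr)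

end Cfsg.Agent.S1483
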