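import Mathlib
import Cfsg.Statements.S1485

set_option autoImplicit false
open Cfsg

namespace Cfsg.Agent.S1485

/-- Let H be a normal subgroup of the finite group G and θ an irreducible character of H. On H, the function induced from θ equals r times the sum of the distinct G-conjugates of θ, where r is the number of elements of G fixing θ under conjugation divided by the order of H (the index of H in the inertia group). -/
theorem result {G : Type*} [Group G] [Fintype G] (H : Subgroup G) [hN : H.Normal] (θ : H → ℂ) (hθ : Cfsg.IsIrrCharacter H θ) : (fun h : H => Cfsg.indFun H θ h) = ((Nat.card {g : G // ∀ h : H, θ ⟨g * h * g⁻¹, hN.conj_mem h h.2 g⟩ = θ h} : ℂ) / (Nat.card H : ℂ)) • ∑ᶠ ψ ∈ {ψ : H → ℂ | ∃ g : G, ψ = fun h : H => θ ⟨g * h * g⁻¹, hN.conj_mem h h.2 g⟩}, ψ := by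
  classical
  set c : G → (H → ℂ) := fun g => fun h : H => θ ⟨g * h * g⁻¹, hN.conj_mem h h.2 g⟩ with hc
  have hc1 : c 1 = θ := by
    funext h
    simp [hc]
  have hcmul : ∀ (g g0 : G) (h : H), c (g * g0) h = c g ⟨g0 * h * g0⁻¹, hN.conj_mem h h.2 g0⟩ := by
    intro g g0 h
    simp only [hc]
    congr 1
    apply Subtype.ext
    simp [mul_assoc]
  have hset : {ψ : H → ℂ | ∃ g : G, ψ = fun h : H => θ ⟨g * h * g⁻¹, hN.conj_mem h h.2 g⟩}
      = ((Finset.univ.image c : Finset (H → ℂ)) : Set (H → ℂ)) := by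
    ext ψ
    simp only [Set.mem_setOf_eq, Finset.coe_image, Finset.coe_univ, Set.image_univ, Set.mem_range]
    constructor
    · rintro ⟨g, rfl⟩; exact ⟨g, rfl⟩
    · rintro ⟨g, rfl⟩; exact ⟨g, rfl⟩
  rw [hset, finsum_mem_coe_finset]
  have hI : Nat.card {g : G // ∀ h : H, θ ⟨g * h * g⁻¹, hN.conj_mem h h.2 g⟩ = θ h}
      = (Finset.univ.filter (fun g : G => c g = θ)).card := by
    rw [Nat.card_eq_fintype_card, Fintype.card_subtype]
    congr 1
    ext g
    simp only [Finset.mem_filter, Finset.mem_univ, true_and, hc]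
    constructor
    · intro h; funext x; exact h x
    · intro h x; exact congrFun h x
  have hfib : ∀ ψ ∈ Finset.univ.image c,
      (Finset.univ.filter (fun g : G => c g = ψ)).card
        = (Finset.univ.filter (fun g : G => c g = θ)).card := by
    intro ψ hψ
    obtain ⟨g0, -, rfl⟩ := Finset.mem_image.mp hψ
    apply Finset.card_nbij' (fun g => g * g0⁻¹) (fun g => g * g0)
    · intro g hg
      simp only [Finset.coe_filter, Finset.mem_univ, true_and, Set.mem_setOf_eq] at hg ⊢
      funext h
      rw [hcmul]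
      have h1 := congrFun hg ⟨g0⁻¹ * h * g0⁻¹⁻¹, hN.conj_mem h h.2 g0⁻¹⟩
      rw [h1]
      simp only [hc]
      congr 1
      apply Subtype.ext
      simp [mul_assoc]
    · intro g hg
      simp only [Finset.coe_filter, Finset.mem_univ, true_and, Set.mem_setOf_eq] at hg ⊢
      funext h
      rw [hcmul, hg]
    · intro g _; simp
    · intro g _; simp
  have hsum : ∀ h : H, ∑ x : G, Cfsg.extendByZero H θ (x⁻¹ * (h : G) * x) = ∑ g : G, c g h := by
    intro h
    rw [← Equiv.sum_comp (Equiv.inv G)]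
    apply Finset.sum_congr rfl
    intro g _
    simp only [Equiv.inv_apply, inv_inv, hc]
    have hmem : g * (h : G) * g⁻¹ ∈ H := hN.conj_mem h h.2 g
    unfold Cfsg.extendByZero
    exact Subtype.val_injective.extend_apply θ 0 (⟨g * (h : G) * g⁻¹, hmem⟩ : H)
  have hsum2 : ∑ g : G, c g = ∑ ψ ∈ Finset.univ.image c,
      (Finset.univ.filter (fun g : G => c g = θ)).card • ψ := by
    rw [Finset.sum_comp (fun ψ : H → ℂ => ψ) c]
    apply Finset.sum_congr rfl
    intro ψ hψ
    rw [hfib ψ hψ]
  funext h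
  unfold Cfsg.indFun
  rw [hsum h]
  have h3 : ∑ g : G, c g h = (∑ g : G, c g) h := by
    rw [Finset.sum_apply]
  rw [h3, hsum2, hI, ← Finset.smul_sum]
  simp only [Pi.smul_apply, nsmul_eq_mul, smul_eq_mul]
  rw [div_eq_mul_inv]
  ring

end Cfsg.Agent.S1485
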