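import Mathlib
import Cfsg.Statements.S1486
import Cfsg.Agent.Lib.Helper36.CharBasic

set_option autoImplicit false
open Cfsg

namespace Cfsg.Agent.S1486

open scoped ComplexConjugate

/-- Conjugation by `g` as an endomorphism of the normal subgroup `H`. -/
def conjHom {G : Type*} [Group G] (H : Subgroup G) [hN : H.Normal] (g : G) : H →* H where
  toFun h := ⟨g * h * g⁻¹, hN.conj_mem h h.2 g⟩
  map_one' := by apply Subtype.ext; simp
  map_mul' a b := by apply Subtype.ext; simp [mul_assoc]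

theorem conjHom_surjective {G : Type*} [Group G] (H : Subgroup G) [hN : H.Normal] (g : G) :
    Function.Surjective (conjHom H g) := by
  intro h
  refine ⟨⟨g⁻¹ * h * g⁻¹⁻¹, hN.conj_mem h h.2 g⁻¹⟩, ?_⟩
  apply Subtype.ext
  simp [conjHom, mul_assoc]

theorem irreducible_comp {K V : Type*} [Group K] [AddCommGroup V] [Module ℂ V]
    (ρ : Representation ℂ K V) (α : K →* K) (hα : Function.Surjective α)
    (h : Representation.IsIrreducible ρ) : Representation.IsIrreducible (ρ.comp α) := by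
  let e : Subrepresentation (ρ.comp α) ≃o Subrepresentation ρ :=
    { toFun := fun S => ⟨S.toSubmodule, fun k v hv => by
        obtain ⟨k', rfl⟩ := hα k
        exact S.apply_mem_toSubmodule k' hv⟩
      invFun := fun S => ⟨S.toSubmodule, fun k v hv => S.apply_mem_toSubmodule (α k) hv⟩
      left_inv := fun S => rfl
      right_inv := fun S => rfl
      map_rel_iff' := Iff.rfl }
  exact (OrderIso.isSimpleOrder_iff e).mpr h

theorem irr_conj {G : Type*} [Group G] (H : Subgroup G) [hN : H.Normal] (θ : H → ℂ)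
    (hθ : Cfsg.IsIrrCharacter H θ) (g : G) :
    Cfsg.IsIrrCharacter H (fun h : H => θ ⟨g * h * g⁻¹, hN.conj_mem h h.2 g⟩) := by
  obtain ⟨n, ρ, hρ, rfl⟩ := hθ
  exact ⟨n, ρ.comp (conjHom H g), irreducible_comp ρ _ (conjHom_surjective H g) hρ, rfl⟩

theorem ext_apply_mem {G : Type*} [Group G] (H : Subgroup G) (θ : H → ℂ) (x : G) (hx : x ∈ H) :
    Cfsg.extendByZero H θ x = θ ⟨x, hx⟩ := by
  unfold Cfsg.extendByZero
  exact Subtype.val_injective.extend_apply θ 0 (⟨x, hx⟩ : H)

theorem ext_apply_not_mem {G : Type*} [Group G] (H : Subgroup G) (θ : H → ℂ) (x : G) (hx : x ∉ H) :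
    Cfsg.extendByZero H θ x = 0 := by
  unfold Cfsg.extendByZero
  rw [Function.extend_apply']
  · rfl
  · rintro ⟨h, rfl⟩
    exact hx h.2

theorem indFun_not_mem {G : Type*} [Group G] [Fintype G] (H : Subgroup G) [hN : H.Normal]
    (θ : H → ℂ) (x : G) (hx : x ∉ H) : Cfsg.indFun H θ x = 0 := by
  unfold Cfsg.indFun
  have : ∀ y : G, Cfsg.extendByZero H θ (y⁻¹ * x * y) = 0 := by
    intro y
    apply ext_apply_not_mem
    intro hmem
    apply hx
    have := hN.conj_mem _ hmem y
    simpa [mul_assoc] using this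
  simp [this]

theorem indFun_mem {G : Type*} [Group G] [Fintype G] (H : Subgroup G) [hN : H.Normal]
    (θ : H → ℂ) (h : H) :
    Cfsg.indFun H θ h = (Nat.card H : ℂ)⁻¹ *
      ∑ g : G, θ ⟨g * h * g⁻¹, hN.conj_mem h h.2 g⟩ := by
  unfold Cfsg.indFun
  congr 1
  rw [← Equiv.sum_comp (Equiv.inv G)]
  apply Finset.sum_congr rfl
  intro g _
  simp only [Equiv.inv_apply, inv_inv]
  exact ext_apply_mem H θ _ (hN.conj_mem h h.2 g)

/-- Let H be a normal subgroup of the finite group G and θ, φ irreducible characters of H. If φ is a G-conjugate of θ, then the functions induced from φ and θ are equal; if not, the functions induced from φ and θ are orthogonal. -/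
theorem result {G : Type*} [Group G] [Fintype G] (H : Subgroup G) [hN : H.Normal] (θ φ : H → ℂ) (hθ : Cfsg.IsIrrCharacter H θ) (hφ : Cfsg.IsIrrCharacter H φ) : ((∃ g : G, φ = fun h : H => θ ⟨g * h * g⁻¹, hN.conj_mem h h.2 g⟩) → Cfsg.indFun H φ = Cfsg.indFun H θ) ∧ ((¬ ∃ g : G, φ = fun h : H => θ ⟨g * h * g⁻¹, hN.conj_mem h h.2 g⟩) → Cfsg.classInner (Cfsg.indFun H φ) (Cfsg.indFun H θ) = 0) := by
  classical
  constructor
  · rintro ⟨g0, rfl⟩
    funext x
    by_cases hx : x ∈ H
    · have e1 := indFun_mem H (fun h : H => θ ⟨g0 * h * g0⁻¹, hN.conj_mem h h.2 g0⟩) ⟨x, hx⟩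
      have e2 := indFun_mem H θ ⟨x, hx⟩
      simp only at e1 e2
      rw [e1, e2]
      congr 1
      apply Fintype.sum_equiv (Equiv.mulLeft g0)
      intro g
      congr 1
      apply Subtype.ext
      simp [mul_assoc]
    · rw [indFun_not_mem H _ x hx, indFun_not_mem H _ x hx]
  · intro hne
    unfold Cfsg.classInner
    -- restrict the sum to H
    have hsum : ∑ x : G, Cfsg.indFun H φ x * conj (Cfsg.indFun H θ x)
        = ∑ h : H, Cfsg.indFun H φ h * conj (Cfsg.indFun H θ h) := by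
      rw [← Finset.sum_subtype (Finset.univ.filter (fun x : G => x ∈ H)) (by simp)
        (fun x => Cfsg.indFun H φ x * conj (Cfsg.indFun H θ x))]
      rw [Finset.sum_filter]
      apply Finset.sum_congr rfl
      intro x _
      by_cases hx : x ∈ H
      · simp [hx]
      · simp [hx, indFun_not_mem H φ x hx]
    rw [hsum]
    have horth : ∀ g g' : G, ∑ h : H, φ ⟨g * h * g⁻¹, hN.conj_mem h h.2 g⟩ *
        conj (θ ⟨g' * h * g'⁻¹, hN.conj_mem h h.2 g'⟩) = 0 := by
      intro g g'
      have h1 := irr_conj H φ hφ g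
      have h2 := irr_conj H θ hθ g'
      have hne' : (fun h : H => φ ⟨g * h * g⁻¹, hN.conj_mem h h.2 g⟩) ≠
          (fun h : H => θ ⟨g' * h * g'⁻¹, hN.conj_mem h h.2 g'⟩) := by
        intro heq
        apply hne
        refine ⟨g' * g⁻¹, ?_⟩
        funext h
        have := congrFun heq ⟨g⁻¹ * h * g⁻¹⁻¹, hN.conj_mem h h.2 g⁻¹⟩
        simp only at this
        have e1 : (⟨g * (g⁻¹ * (h : G) * g⁻¹⁻¹) * g⁻¹, hN.conj_mem _ (hN.conj_mem h h.2 g⁻¹) g⟩ : H) = h := by
          apply Subtype.ext; simp [mul_assoc]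
        have e2 : (⟨g' * (g⁻¹ * (h : G) * g⁻¹⁻¹) * g'⁻¹, hN.conj_mem _ (hN.conj_mem h h.2 g⁻¹) g'⟩ : H)
            = ⟨g' * g⁻¹ * h * (g' * g⁻¹)⁻¹, hN.conj_mem h h.2 (g' * g⁻¹)⟩ := by
          apply Subtype.ext; simp [mul_assoc]
        rw [e1, e2] at this
        exact this
      have h3 := Cfsg.Agent.Lib.Helper36.classInner_irr_ne h1 h2 hne'
      unfold Cfsg.classInner at h3
      have hcard : (Nat.card H : ℂ)⁻¹ ≠ 0 := by
        apply inv_ne_zero
        exact_mod_cast Nat.card_pos.ne'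
      exact (mul_eq_zero.mp h3).resolve_left hcard
    have hzero : ∑ h : H, Cfsg.indFun H φ h * conj (Cfsg.indFun H θ h) = 0 := by
      have : ∀ h : H, Cfsg.indFun H φ h * conj (Cfsg.indFun H θ h)
          = (Nat.card H : ℂ)⁻¹ * conj ((Nat.card H : ℂ)⁻¹) * ∑ g : G, ∑ g' : G,
            φ ⟨g * h * g⁻¹, hN.conj_mem h h.2 g⟩ *
              conj (θ ⟨g' * h * g'⁻¹, hN.conj_mem h h.2 g'⟩) := by
        intro h
        rw [indFun_mem H φ h, indFun_mem H θ h, map_mul, map_sum, mul_mul_mul_comm,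
          Finset.sum_mul_sum]
      simp_rw [this]
      rw [← Finset.mul_sum, Finset.sum_comm]
      have : ∀ g : G, ∑ h : H, ∑ g' : G, φ ⟨g * h * g⁻¹, hN.conj_mem h h.2 g⟩ *
              conj (θ ⟨g' * h * g'⁻¹, hN.conj_mem h h.2 g'⟩) = 0 := by
        intro g
        rw [Finset.sum_comm]
        simp [horth]
      simp [this]
    rw [hzero, mul_zero]

end Cfsg.Agent.S1486
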