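import Cfsg.Statements.S1488
import Mathlib

set_option autoImplicit false
open Cfsg

namespace Cfsg.Agent.S1488

noncomputable def prodEquiv {G : Type*} [Group G] (A : Subgroup G) : (G ⧸ A) × A ≃ G where
  toFun z := Quotient.out z.1 * (z.2 : G)
  invFun x := ((x : G ⧸ A), ⟨(Quotient.out (x : G ⧸ A))⁻¹ * x, by
    rw [← QuotientGroup.eq]
    exact QuotientGroup.out_eq' _⟩)
  left_inv := by
    rintro ⟨y, a⟩
    have h1 : ((Quotient.out y * (a : G) : G) : G ⧸ A) = y := by
      rw [QuotientGroup.mk_mul_of_mem _ a.2]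
      exact QuotientGroup.out_eq' _
    apply Prod.ext
    · exact h1
    · apply Subtype.ext
      simp only
      rw [h1]
      group
  right_inv := by
    intro x
    simp only
    group

theorem mk_prodEquiv {G : Type*} [Group G] (A : Subgroup G) (z : (G ⧸ A) × A) :
    ((prodEquiv A z : G) : G ⧸ A) = z.1 := by
  show ((Quotient.out z.1 * (z.2 : G) : G) : G ⧸ A) = z.1
  rw [QuotientGroup.mk_mul_of_mem _ z.2.2]
  exact QuotientGroup.out_eq' _

theorem card_map_mul {G : Type*} [Group G] [Finite G] (A H : Subgroup G) [A.Normal] (hAH : A ≤ H) :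
    Nat.card ↥(H.map (QuotientGroup.mk' A)) * Nat.card A = Nat.card H := by
  set f : H →* G ⧸ A := (QuotientGroup.mk' A).comp H.subtype with hf
  have hrange : f.range = H.map (QuotientGroup.mk' A) := by
    rw [hf, ← MonoidHom.map_range, Subgroup.range_subtype]
  have hker : f.ker = A.subgroupOf H := by
    ext x
    rw [MonoidHom.mem_ker, Subgroup.mem_subgroupOf, hf]
    simp
  have h1 := Subgroup.card_mul_index f.ker
  rw [Subgroup.index_ker, hrange, hker, Nat.card_congr (Subgroup.subgroupOfEquivOfLe hAH).toEquiv] at h1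
  rw [mul_comm]; exact h1

theorem ext_eq {G : Type*} [Group G] (A H : Subgroup G) [A.Normal] (hAH : A ≤ H)
    (θ : H → ℂ) (θ₁ : ↥(H.map (QuotientGroup.mk' A)) → ℂ)
    (hθ : ∀ x : H, θ₁ ⟨QuotientGroup.mk' A x, Subgroup.mem_map_of_mem _ x.2⟩ = θ x) (z : G) :
    Cfsg.extendByZero (H.map (QuotientGroup.mk' A)) θ₁ (QuotientGroup.mk' A z) = Cfsg.extendByZero H θ z := by
  unfold Cfsg.extendByZero
  by_cases hz : z ∈ H
  · have e1 : Function.extend (Subtype.val : H → G) θ 0 z = θ ⟨z, hz⟩ :=
      Subtype.val_injective.extend_apply θ 0 ⟨z, hz⟩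
    have e2 : Function.extend (Subtype.val : ↥(H.map (QuotientGroup.mk' A)) → G ⧸ A) θ₁ 0 (QuotientGroup.mk' A z) =
        θ₁ ⟨QuotientGroup.mk' A z, Subgroup.mem_map_of_mem _ hz⟩ :=
      Subtype.val_injective.extend_apply θ₁ 0 ⟨QuotientGroup.mk' A z, Subgroup.mem_map_of_mem _ hz⟩
    rw [e1, e2]
    exact hθ ⟨z, hz⟩
  · have e1 : Function.extend (Subtype.val : H → G) θ 0 z = 0 := by
      apply Function.extend_apply'
      rintro ⟨a, ha⟩
      exact hz (ha ▸ a.2)
    have e2 : Function.extend (Subtype.val : ↥(H.map (QuotientGroup.mk' A)) → G ⧸ A) θ₁ 0 (QuotientGroup.mk' A z) = 0 := by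
      apply Function.extend_apply'
      rintro ⟨a, ha⟩
      apply hz
      have ha2 := a.2
      rw [ha, Subgroup.mem_map] at ha2
      obtain ⟨h, hh, hhz⟩ := ha2
      have : h⁻¹ * z ∈ A := by
        rw [← QuotientGroup.eq]
        exact hhz
      have h3 : z = h * (h⁻¹ * z) := by group
      rw [h3]
      exact H.mul_mem hh (hAH this)
    rw [e1, e2]

/-- Let A be a normal subgroup of the finite group G contained in the subgroup H, let θ be a function on H and θ₁ a function on the image of H in G ⧸ A whose composite with the projection is θ. Then the function induced from θ₁ to G ⧸ A, composed with the projection G → G ⧸ A, equals the function induced from θ to G. -/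
theorem result {G : Type*} [Group G] [Fintype G] (A H : Subgroup G) [A.Normal] (hAH : A ≤ H) [Fintype (G ⧸ A)] [Fintype ↥(H.map (QuotientGroup.mk' A))] (θ : H → ℂ) (θ₁ : ↥(H.map (QuotientGroup.mk' A)) → ℂ) (hθ : ∀ x : H, θ₁ ⟨QuotientGroup.mk' A x, Subgroup.mem_map_of_mem _ x.2⟩ = θ x) (g : G) : Cfsg.indFun (H.map (QuotientGroup.mk' A)) θ₁ (QuotientGroup.mk' A g) = Cfsg.indFun H θ g := by
  classical
  haveI : Fintype A := Fintype.ofFinite A
  unfold Cfsg.indFun
  have hsum : ∑ x : G, Cfsg.extendByZero H θ (x⁻¹ * g * x) =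
      (Nat.card A : ℂ) * ∑ y : G ⧸ A, Cfsg.extendByZero (H.map (QuotientGroup.mk' A)) θ₁ (y⁻¹ * QuotientGroup.mk' A g * y) := by
    have h1 : ∀ x : G, Cfsg.extendByZero H θ (x⁻¹ * g * x) =
        Cfsg.extendByZero (H.map (QuotientGroup.mk' A)) θ₁
          ((QuotientGroup.mk' A x)⁻¹ * QuotientGroup.mk' A g * QuotientGroup.mk' A x) := by
      intro x
      rw [← ext_eq A H hAH θ θ₁ hθ, map_mul, map_mul, map_inv]
    simp_rw [h1]
    rw [← Equiv.sum_comp (prodEquiv A), Fintype.sum_prod_type]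
    have h2 : ∀ (y : G ⧸ A) (a : A), QuotientGroup.mk' A (prodEquiv A (y, a)) = y := fun y a => mk_prodEquiv A (y, a)
    simp_rw [h2]
    simp only [Finset.sum_const, Finset.card_univ, nsmul_eq_mul]
    rw [← Finset.mul_sum, Nat.card_eq_fintype_card]
  rw [hsum]
  have hc := card_map_mul A H hAH
  have hA0 : (Nat.card A : ℂ) ≠ 0 := by
    have : 0 < Nat.card A := Nat.card_pos
    exact_mod_cast this.ne'
  have hM0 : (Nat.card ↥(H.map (QuotientGroup.mk' A)) : ℂ) ≠ 0 := by
    have : 0 < Nat.card ↥(H.map (QuotientGroup.mk' A)) := Nat.card_pos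
    exact_mod_cast this.ne'
  have hc' : (Nat.card H : ℂ) = (Nat.card ↥(H.map (QuotientGroup.mk' A)) : ℂ) * (Nat.card A : ℂ) := by
    rw [← hc]; push_cast; ring
  rw [hc']
  field_simp

end Cfsg.Agent.S1488
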