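import Cfsg.Statements.S1489
import Cfsg.Agent.S0854

set_option autoImplicit false
open Cfsg

namespace Cfsg.Agent.S1489

open Cfsg.Agent.Lib Cfsg.Agent.Lib.Helper20

section

variable {G : Type*} [Group G] [Fintype G] (H T : Subgroup G) [hN : H.Normal] [Fintype T]
  [Fintype H]

/-- From the hypothesis phrased with `H.subgroupOf T` to the multiplicity on `H`. -/
theorem over_of_hc (θ : H → ℂ) (hHT : H ≤ T) (ψ : T → ℂ) (hψ : IsIrrCharacter T ψ)
    (hc : classInner (indFun (H.subgroupOf T)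
      (fun x => θ ⟨(x : T), Subgroup.mem_subgroupOf.mp x.2⟩)) ψ ≠ 0) :
    classInner (fun n : H => ψ ⟨(n : G), hHT n.2⟩) θ ≠ 0 := by
  classical
  let _ : Fintype (H.subgroupOf T) := Fintype.ofFinite _
  let e₀ : (H.subgroupOf T) ≃* H := Subgroup.subgroupOfEquivOfLe hHT
  have he₀ : ∀ h₀ : H.subgroupOf T, ((e₀ h₀ : H) : G) = ((h₀ : T) : G) :=
    fun h₀ => Subgroup.subgroupOfEquivOfLe_apply_coe hHT h₀
  have hcf : IsClassFunction T ψ :=
    Helper35.isClassFunction_of_isCharacter (Helper35.isChar_of_irr hψ)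
  rw [Helper35.frobenius_reciprocity (H.subgroupOf T) _ ψ hcf] at hc
  have h1 : (fun x : H.subgroupOf T => θ ⟨(x : T), Subgroup.mem_subgroupOf.mp x.2⟩) =
      fun x => θ (e₀ x) := by
    funext x
    congr 1
  have h2 : Helper35.res (H.subgroupOf T) ψ =
      fun x => (fun n : H => ψ ⟨(n : G), hHT n.2⟩) (e₀ x) := by
    funext x
    show ψ (x : T) = ψ ⟨((e₀ x : H) : G), _⟩
    congr 1
  rw [h1, h2, classInner_comp_equiv e₀ θ (fun n : H => ψ ⟨(n : G), hHT n.2⟩)] at hc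
  intro h0
  apply hc
  rw [Helper4.classInner_conj_symm, h0, map_zero]

/-- Multiplicity bookkeeping: `⟨χ_H, θ⟩ = Σ_ψ ⟨χ_T, ψ⟩ ⟨ψ_H, θ⟩`. -/
theorem mult_decomp [Fintype (IrrCharacter T)] (θ : H → ℂ) (hHT : H ≤ T) (χ : G → ℂ)
    (hχ : IsCharacter G χ) (k : IrrCharacter T → ℕ)
    (hk : ∀ ψ : IrrCharacter T,
      classInner (fun n : H => (ψ : T → ℂ) ⟨(n : G), hHT n.2⟩) θ = (k ψ : ℂ)) :
    ∃ b : IrrCharacter T → ℕ,
      (∀ ψ : IrrCharacter T, classInner (fun t : T => χ t) (ψ : T → ℂ) = (b ψ : ℂ)) ∧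
      classInner (fun n : H => χ n) θ = ((∑ ψ : IrrCharacter T, b ψ * k ψ : ℕ) : ℂ) := by
  classical
  obtain ⟨b, hb⟩ := Helper4.exists_decomp_of_isCharacter (fun t : T => χ t)
    (Helper35.isCharacter_res T hχ)
  refine ⟨b, fun ψ => ?_, ?_⟩
  · rw [hb]
    exact Helper4.classInner_sum_irr (fun ξ => (b ξ : ℂ)) ψ
  · have h1 : (fun n : H => χ n) =
        ∑ ψ : IrrCharacter T, (b ψ : ℂ) • (fun n : H => (ψ : T → ℂ) ⟨(n : G), hHT n.2⟩) := by
      funext n
      have := congrFun hb ⟨(n : G), hHT n.2⟩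
      simp only at this
      rw [this, Finset.sum_apply, Finset.sum_apply]
      rfl
    rw [h1, Helper35.classInner_sum_left]
    push_cast
    apply Finset.sum_congr rfl
    intro ψ _
    rw [Helper35.classInner_smul_left, hk]

theorem exists_k (θ : H → ℂ) (hθ : IsIrrCharacter H θ) (hHT : H ≤ T) :
    ∃ k : IrrCharacter T → ℕ, ∀ ψ : IrrCharacter T,
      classInner (fun n : H => (ψ : T → ℂ) ⟨(n : G), hHT n.2⟩) θ = (k ψ : ℂ) := by
  have hk : ∀ ψ : IrrCharacter T, ∃ k : ℕ,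
      classInner (fun n : H => (ψ : T → ℂ) ⟨(n : G), hHT n.2⟩) θ = (k : ℂ) := by
    intro ψ
    exact Helper35.classInner_char_nat
      (isCharacter_comp (Subgroup.inclusion hHT) (Helper35.isChar_of_irr ψ.2))
      (Helper35.isChar_of_irr hθ)
  choose k hk using hk
  exact ⟨k, hk⟩

/-- `⟨χ_T, ψ⟩ = 1` when `χ = Ind ψ` is irreducible. -/
theorem inner_res_of_ind (χ : G → ℂ) (hχ : IsIrrCharacter G χ) (ψ : T → ℂ)
    (hind : indFun T ψ = χ) : classInner (fun t : T => χ t) ψ = 1 := by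
  have hcf : IsClassFunction G χ :=
    Helper35.isClassFunction_of_isCharacter (Helper35.isChar_of_irr hχ)
  have h1 : classInner (indFun T ψ) χ = 1 := by
    rw [hind, Helper35.classInner_irr' hχ hχ, if_pos rfl]
  rw [Helper35.frobenius_reciprocity T ψ χ hcf] at h1
  have h3 : classInner (fun t : T => χ t) ψ =
      (starRingEnd ℂ) (classInner ψ (Helper35.res T χ)) :=
    Helper4.classInner_conj_symm _ _
  rw [h3, h1, map_one]

theorem main (θ : H → ℂ) (hθ : IsIrrCharacter H θ)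
    (hT : ∀ g : G, g ∈ T ↔ ∀ h : H, θ ⟨g * h * g⁻¹, hN.conj_mem h h.2 g⟩ = θ h)
    (hHT : H ≤ T) (ψ : T → ℂ) (hψ : IsIrrCharacter T ψ)
    (hcon : classInner (fun n : H => ψ ⟨(n : G), hHT n.2⟩) θ ≠ 0) :
    IsIrrCharacter G (indFun T ψ) ∧
      classInner (fun n : H => indFun T ψ n) θ =
        classInner (fun n : H => ψ ⟨(n : G), hHT n.2⟩) θ := by
  classical
  have := Helper4.irr_finite (G := G)
  let _ : Fintype (IrrCharacter G) := Fintype.ofFinite _
  have := Helper4.irr_finite (G := T)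
  let _ : Fintype (IrrCharacter T) := Fintype.ofFinite _
  obtain ⟨k, hk⟩ := exists_k H T θ hθ hHT
  set ψ₁ : IrrCharacter T := ⟨ψ, hψ⟩ with hψ₁
  have hkψ : k ψ₁ ≠ 0 := by
    intro h0
    apply hcon
    have := hk ψ₁
    rw [h0, Nat.cast_zero] at this
    exact this
  -- the induced character and one of its constituents
  have hΦ : IsCharacter G (indFun T ψ) := Helper35.isCharacter_indFun T (Helper35.isChar_of_irr hψ)
  obtain ⟨m, hm⟩ := Helper4.exists_decomp_of_isCharacter (indFun T ψ) hΦ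
  have hΦ1 : indFun T ψ 1 ≠ 0 := by
    rw [Helper35.indFun_one_eq T ψ]
    apply mul_ne_zero
    · exact_mod_cast (Subgroup.index_ne_zero_of_finite (H := T))
    · exact Helper4.irr_one_ne_zero ψ₁
  have hex : ∃ ξ : IrrCharacter G, m ξ ≠ 0 := by
    by_contra hall
    push Not at hall
    apply hΦ1
    rw [hm, Finset.sum_apply]
    apply Finset.sum_eq_zero
    intro ξ _
    rw [hall ξ, Nat.cast_zero, zero_smul]
    rfl
  obtain ⟨χ, hmχ⟩ := hex
  have hcfχ : IsClassFunction G (χ : G → ℂ) :=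
    Helper35.isClassFunction_of_isCharacter (Helper35.isChar_of_irr χ.2)
  obtain ⟨b, hb, hE⟩ := mult_decomp H T θ hHT (χ : G → ℂ) (Helper35.isChar_of_irr χ.2) k hk
  have hbψ : b ψ₁ = m χ := by
    have h1 : classInner (indFun T ψ) (χ : G → ℂ) = (m χ : ℂ) := by
      rw [hm]
      exact Helper4.classInner_sum_irr (fun ξ => (m ξ : ℂ)) χ
    rw [Helper35.frobenius_reciprocity T ψ (χ : G → ℂ) hcfχ] at h1
    have h3 : classInner ψ (Helper35.res T (χ : G → ℂ)) =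
        (starRingEnd ℂ) (classInner (fun t : T => (χ : G → ℂ) t) ψ) :=
      Helper4.classInner_conj_symm _ _
    have h2 := hb ψ₁
    rw [h3, h2, Complex.conj_natCast] at h1
    exact Nat.cast_injective h1
  have hbψ0 : b ψ₁ ≠ 0 := by rw [hbψ]; exact hmχ
  have hle1 : b ψ₁ * k ψ₁ ≤ ∑ ψ : IrrCharacter T, b ψ * k ψ :=
    Finset.single_le_sum (f := fun ψ => b ψ * k ψ) (fun _ _ => Nat.zero_le _)
      (Finset.mem_univ ψ₁)
  have hpos : 0 < b ψ₁ * k ψ₁ := Nat.mul_pos (Nat.pos_of_ne_zero hbψ0) (Nat.pos_of_ne_zero hkψ)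
  have hconχ : classInner (fun n : H => (χ : G → ℂ) n) θ ≠ 0 := by
    rw [hE]
    exact_mod_cast (by omega : (∑ ψ : IrrCharacter T, b ψ * k ψ) ≠ 0)
  obtain ⟨ψ₀, hψ₀, hind, hk0⟩ := Cfsg.Agent.S0854.result H θ hθ T hT hHT (χ : G → ℂ) χ.2 hconχ
  set ψ₂ : IrrCharacter T := ⟨ψ₀, hψ₀⟩ with hψ₂
  have hb0 : b ψ₂ = 1 := by
    have h1 := inner_res_of_ind T (χ : G → ℂ) χ.2 ψ₀ hind
    have h2 := hb ψ₂
    rw [h1] at h2
    exact_mod_cast h2.symm
  have hk2 : k ψ₂ = ∑ ψ : IrrCharacter T, b ψ * k ψ := by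
    have h1 := hk ψ₂
    rw [hk0, hE] at h1
    exact_mod_cast h1.symm
  have heq : ψ₂ = ψ₁ := by
    by_contra hne
    have hle2 : ∑ ψ ∈ ({ψ₂, ψ₁} : Finset (IrrCharacter T)), b ψ * k ψ ≤
        ∑ ψ : IrrCharacter T, b ψ * k ψ :=
      Finset.sum_le_sum_of_subset (Finset.subset_univ _)
    rw [Finset.sum_pair (f := fun ψ => b ψ * k ψ) hne, hb0, one_mul] at hle2
    omega
  have heq' : ψ₀ = ψ := congrArg Subtype.val heq
  rw [← heq', hind]
  exact ⟨χ.2, hk0.symm⟩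

end

/-- Let H be a normal subgroup of the finite group G, θ an irreducible character of H, and T the inertia group of θ (the elements g with θ(g h g⁻¹) = θ(h) for all h ∈ H). If ψ and ψ' are irreducible characters of T having nonzero inner product with the function induced from θ to T, then the function induced from ψ to G is an irreducible character of G, and it equals the one induced from ψ' only if ψ = ψ'. -/
theorem result {G : Type*} [Group G] [Fintype G] (H T : Subgroup G) [hN : H.Normal] [Fintype T] (θ : H → ℂ) (hθ : Cfsg.IsIrrCharacter H θ) (hT : ∀ g : G, g ∈ T ↔ ∀ h : H, θ ⟨g * h * g⁻¹, hN.conj_mem h h.2 g⟩ = θ h) (hHT : H ≤ T) (ψ ψ' : T → ℂ) (hψ : Cfsg.IsIrrCharacter T ψ) (hψ' : Cfsg.IsIrrCharacter T ψ') (hc : Cfsg.classInner (Cfsg.indFun (H.subgroupOf T) (fun x => θ ⟨(x : T), Subgroup.mem_subgroupOf.mp x.2⟩)) ψ ≠ 0) (hc' : Cfsg.classInner (Cfsg.indFun (H.subgroupOf T) (fun x => θ ⟨(x : T), Subgroup.mem_subgroupOf.mp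 x.2⟩)) ψ' ≠ 0) : Cfsg.IsIrrCharacter G (Cfsg.indFun T ψ) ∧ (Cfsg.indFun T ψ = Cfsg.indFun T ψ' → ψ = ψ') := by
  classical
  let _ : Fintype H := Fintype.ofFinite H
  have := Helper4.irr_finite (G := T)
  let _ : Fintype (IrrCharacter T) := Fintype.ofFinite _
  have h1 := over_of_hc H T θ hHT ψ hψ hc
  have h1' := over_of_hc H T θ hHT ψ' hψ' hc'
  obtain ⟨hirr, hE⟩ := main H T θ hθ hT hHT ψ hψ h1
  refine ⟨hirr, fun heq => ?_⟩
  by_contra hne
  obtain ⟨k, hk⟩ := exists_k H T θ hθ hHT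
  obtain ⟨b, hb, hE2⟩ := mult_decomp H T θ hHT (indFun T ψ) (Helper35.isChar_of_irr hirr) k hk
  set ψ₁ : IrrCharacter T := ⟨ψ, hψ⟩ with hψ₁
  set ψ₂ : IrrCharacter T := ⟨ψ', hψ'⟩ with hψ₂
  have hne' : ψ₁ ≠ ψ₂ := fun h => hne (congrArg Subtype.val h)
  have hb1 : b ψ₁ = 1 := by
    have e1 := inner_res_of_ind T (indFun T ψ) hirr ψ rfl
    have e2 := hb ψ₁
    rw [e1] at e2
    exact_mod_cast e2.symm
  have hb2 : b ψ₂ = 1 := by
    have e1 := inner_res_of_ind T (indFun T ψ) hirr ψ' heq.symm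
    have e2 := hb ψ₂
    rw [e1] at e2
    exact_mod_cast e2.symm
  have hk1 : k ψ₁ = ∑ ψ : IrrCharacter T, b ψ * k ψ := by
    have e1 := hk ψ₁
    rw [← hE, hE2] at e1
    exact_mod_cast e1.symm
  have hk2 : k ψ₂ ≠ 0 := by
    intro h0
    apply h1'
    have := hk ψ₂
    rw [h0, Nat.cast_zero] at this
    exact this
  have hle2 : ∑ ψ ∈ ({ψ₁, ψ₂} : Finset (IrrCharacter T)), b ψ * k ψ ≤
      ∑ ψ : IrrCharacter T, b ψ * k ψ :=
    Finset.sum_le_sum_of_subset (Finset.subset_univ _)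
  rw [Finset.sum_pair (f := fun ψ => b ψ * k ψ) hne', hb1, hb2, one_mul, one_mul] at hle2
  omega

end Cfsg.Agent.S1489
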