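import Cfsg.Statements.S1490
import Cfsg.Agent.S1489
import Cfsg.Agent.Lib.Helper35.Abel
import Cfsg.Agent.Lib.Helper20.NormalInd

set_option autoImplicit false
open Cfsg

namespace Cfsg.Agent.S1490

open Cfsg.Agent.Lib Cfsg.Agent.Lib.Helper20

section Quot

variable {T : Type*} [Group T] (K : Subgroup T) [K.Normal]

/-- lift of a function on the quotient -/
def lam (χ : T ⧸ K → ℂ) : T → ℂ := fun t => χ (QuotientGroup.mk t)

theorem lam_apply (χ : T ⧸ K → ℂ) (t : T) : lam K χ t = χ (QuotientGroup.mk t) := rfl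

theorem lam_isCharacter (χ : IrrCharacter (T ⧸ K)) : IsCharacter T (lam K (χ : T ⧸ K → ℂ)) :=
  isCharacter_comp (QuotientGroup.mk' K) (Helper35.isChar_of_irr χ.2)

theorem lam_mem [Finite T] (hcomm : ∀ a b : T ⧸ K, a * b = b * a) (χ : IrrCharacter (T ⧸ K))
    (t : T) (ht : t ∈ K) : lam K (χ : T ⧸ K → ℂ) t = 1 := by
  rw [lam_apply, (QuotientGroup.eq_one_iff t).mpr ht]
  exact Helper35.irr_one_of_comm hcomm χ

theorem lam_norm [Finite T] (hcomm : ∀ a b : T ⧸ K, a * b = b * a) (χ : IrrCharacter (T ⧸ K))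
    (t : T) : lam K (χ : T ⧸ K → ℂ) t * (starRingEnd ℂ) (lam K (χ : T ⧸ K → ℂ) t) = 1 := by
  rw [lam_apply]
  set q : T ⧸ K := QuotientGroup.mk t
  have h1 : (χ : T ⧸ K → ℂ) q ^ orderOf q = 1 :=
    Helper35.irr_pow_eq_one_of_comm hcomm χ q (orderOf q) (pow_orderOf_eq_one q)
  have h2 : ‖(χ : T ⧸ K → ℂ) q‖ = 1 :=
    Complex.norm_eq_one_of_pow_eq_one h1 (orderOf_pos q).ne'
  rw [Complex.mul_conj, Complex.normSq_eq_norm_sq, h2]
  norm_num

theorem lam_sum [Fintype T] [Fintype (T ⧸ K)] [Fintype (IrrCharacter (T ⧸ K))]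
    (hcomm : ∀ a b : T ⧸ K, a * b = b * a) (t : T) [Decidable (t ∈ K)] :
    ∑ χ : IrrCharacter (T ⧸ K), lam K (χ : T ⧸ K → ℂ) t =
      if t ∈ K then (K.index : ℂ) else 0 := by
  classical
  have h := Helper4.col_orth_one (G := T ⧸ K) (QuotientGroup.mk t)
  have h2 : ∀ χ : IrrCharacter (T ⧸ K),
      (χ : T ⧸ K → ℂ) (QuotientGroup.mk t) * (χ : T ⧸ K → ℂ) 1 = lam K (χ : T ⧸ K → ℂ) t := by
    intro χ
    rw [Helper35.irr_one_of_comm hcomm χ, mul_one, lam_apply]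
  simp only [h2] at h
  rw [h]
  by_cases ht : t ∈ K
  · rw [if_pos ht, if_pos ((QuotientGroup.eq_one_iff t).mpr ht)]
    rfl
  · rw [if_neg ht, if_neg (fun h' => ht ((QuotientGroup.eq_one_iff t).mp h'))]

/-- twisting an irreducible character by a linear character of the quotient -/
theorem twist_irr [Fintype T] (hcomm : ∀ a b : T ⧸ K, a * b = b * a)
    (χ : IrrCharacter (T ⧸ K)) {ψ : T → ℂ} (hψ : IsIrrCharacter T ψ) :
    IsIrrCharacter T (lam K (χ : T ⧸ K → ℂ) * ψ) := by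
  classical
  have := Helper4.irr_finite (G := T)
  let _ : Fintype (IrrCharacter T) := Fintype.ofFinite _
  apply Helper4.isIrrCharacter_of_norm_one _
    (Helper35.isCharacter_mul (lam_isCharacter K χ) (Helper35.isChar_of_irr hψ))
  have h1 : classInner ψ ψ = 1 := by rw [Helper35.classInner_irr' hψ hψ, if_pos rfl]
  rw [← h1]
  unfold classInner
  congr 1
  refine Finset.sum_congr rfl fun t _ => ?_
  simp only [Pi.mul_apply, map_mul]
  have := lam_norm K hcomm χ t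
  linear_combination (ψ t * (starRingEnd ℂ) (ψ t)) * this

end Quot

section Main

variable {G : Type*} [Group G] [Fintype G] (H T : Subgroup G) [hN : H.Normal] [Fintype T]
  [Fintype H]

/-- `H ≤ T`. -/
theorem le_inertia (θ : H → ℂ) (hθ : IsIrrCharacter H θ)
    (hT : ∀ g : G, g ∈ T ↔ ∀ h : H, θ ⟨g * h * g⁻¹, hN.conj_mem h h.2 g⟩ = θ h) : H ≤ T := by
  intro g hg
  rw [hT]
  intro h
  have hcf := Helper35.isClassFunction_of_isCharacter (Helper35.isChar_of_irr hθ)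
  have h1 : (⟨g * h * g⁻¹, hN.conj_mem h h.2 g⟩ : H) = ⟨g, hg⟩ * h * (⟨g, hg⟩ : H)⁻¹ :=
    Subtype.ext (by simp)
  rw [h1]
  exact hcf h ⟨g, hg⟩

theorem ind_inner_eq (θ : H → ℂ) (hHT : H ≤ T) (ψ : T → ℂ) (hcf : IsClassFunction T ψ) :
    classInner (indFun (H.subgroupOf T)
      (fun x => θ ⟨(x : T), Subgroup.mem_subgroupOf.mp x.2⟩)) ψ =
      (starRingEnd ℂ) (classInner (fun n : H => ψ ⟨(n : G), hHT n.2⟩) θ) := by
  classical
  let _ : Fintype (H.subgroupOf T) := Fintype.ofFinite _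
  let e₀ : (H.subgroupOf T) ≃* H := Subgroup.subgroupOfEquivOfLe hHT
  rw [Helper35.frobenius_reciprocity (H.subgroupOf T) _ ψ hcf]
  have h1 : (fun x : H.subgroupOf T => θ ⟨(x : T), Subgroup.mem_subgroupOf.mp x.2⟩) =
      fun x => θ (e₀ x) := by
    funext x
    congr 1
  have h2 : Helper35.res (H.subgroupOf T) ψ =
      fun x => (fun n : H => ψ ⟨(n : G), hHT n.2⟩) (e₀ x) := by
    funext x
    show ψ (x : T) = ψ ⟨((e₀ x : H) : G), _⟩
    congr 1
  rw [h1, h2, classInner_comp_equiv e₀ θ (fun n : H => ψ ⟨(n : G), hHT n.2⟩)]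
  exact Helper4.classInner_conj_symm _ _

theorem key_identity [Fintype (T ⧸ H.subgroupOf T)] [Fintype (IrrCharacter (T ⧸ H.subgroupOf T))]
    (θ : H → ℂ) (hθ : IsIrrCharacter H θ)
    (hT : ∀ g : G, g ∈ T ↔ ∀ h : H, θ ⟨g * h * g⁻¹, hN.conj_mem h h.2 g⟩ = θ h)
    (hHT : H ≤ T) (hcomm : ∀ a b : T ⧸ H.subgroupOf T, a * b = b * a)
    (ψ : T → ℂ) (hψ : IsIrrCharacter T ψ)
    (hcon : classInner (fun n : H => ψ ⟨(n : G), hHT n.2⟩) θ ≠ 0) (t : T) :
    classInner (fun n : H => ψ ⟨(n : G), hHT n.2⟩) θ *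
      indFun (H.subgroupOf T) (fun x => θ ⟨(x : T), Subgroup.mem_subgroupOf.mp x.2⟩) t =
    ∑ χ : IrrCharacter (T ⧸ H.subgroupOf T),
      (lam (H.subgroupOf T) (χ : T ⧸ H.subgroupOf T → ℂ) * ψ) t := by
  classical
  simp only [Pi.mul_apply]
  rw [← Finset.sum_mul, lam_sum (H.subgroupOf T) hcomm t]
  by_cases ht : t ∈ H.subgroupOf T
  · rw [if_pos ht]
    have hinv : ∀ (g : T) (n : H.subgroupOf T),
        (fun x : H.subgroupOf T => θ ⟨(x : T), Subgroup.mem_subgroupOf.mp x.2⟩)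
          ⟨g * n * g⁻¹, (inferInstance : (H.subgroupOf T).Normal).conj_mem (n : T) n.2 g⟩ =
        (fun x : H.subgroupOf T => θ ⟨(x : T), Subgroup.mem_subgroupOf.mp x.2⟩) n := by
      intro g n
      have := (hT (g : G)).mp g.2 ⟨((n : T) : G), Subgroup.mem_subgroupOf.mp n.2⟩
      simp only
      rw [← this]
      congr 1
    have h1 := indFun_normal_of_invariant (H.subgroupOf T)
      (fun x : H.subgroupOf T => θ ⟨(x : T), Subgroup.mem_subgroupOf.mp x.2⟩) hinv ⟨t, ht⟩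
    have h2 := Cfsg.Agent.S0854.inertia_res H θ hθ T (fun g hg => (hT g).mp hg) hHT ψ hψ hcon
      ⟨(t : G), Subgroup.mem_subgroupOf.mp ht⟩
    have h3 : ψ t = classInner (fun n : H => ψ ⟨(n : G), hHT n.2⟩) θ *
        θ ⟨(t : G), Subgroup.mem_subgroupOf.mp ht⟩ := h2
    simp only at h1
    rw [h1, h3]
    ring
  · rw [if_neg ht, indFun_normal_of_not_mem (H.subgroupOf T) _ t ht]
    ring

theorem mult_eq [Fintype (T ⧸ H.subgroupOf T)] [Fintype (IrrCharacter (T ⧸ H.subgroupOf T))]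
    (θ : H → ℂ) (hθ : IsIrrCharacter H θ)
    (hT : ∀ g : G, g ∈ T ↔ ∀ h : H, θ ⟨g * h * g⁻¹, hN.conj_mem h h.2 g⟩ = θ h)
    (hHT : H ≤ T) (hcomm : ∀ a b : T ⧸ H.subgroupOf T, a * b = b * a)
    (ψ ψ' : T → ℂ) (hψ : IsIrrCharacter T ψ) (hψ' : IsIrrCharacter T ψ')
    (hcon : classInner (fun n : H => ψ ⟨(n : G), hHT n.2⟩) θ ≠ 0)
    (hcon' : classInner (fun n : H => ψ' ⟨(n : G), hHT n.2⟩) θ ≠ 0) :
    classInner (fun n : H => ψ' ⟨(n : G), hHT n.2⟩) θ =
      classInner (fun n : H => ψ ⟨(n : G), hHT n.2⟩) θ := by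
  classical
  have hcf' : IsClassFunction T ψ' :=
    Helper35.isClassFunction_of_isCharacter (Helper35.isChar_of_irr hψ')
  have hfun : classInner (fun n : H => ψ ⟨(n : G), hHT n.2⟩) θ •
      indFun (H.subgroupOf T) (fun x => θ ⟨(x : T), Subgroup.mem_subgroupOf.mp x.2⟩) =
      ∑ χ : IrrCharacter (T ⧸ H.subgroupOf T),
        (lam (H.subgroupOf T) (χ : T ⧸ H.subgroupOf T → ℂ) * ψ) := by
    funext t
    rw [Pi.smul_apply, smul_eq_mul, Finset.sum_apply]
    exact key_identity H T θ hθ hT hHT hcomm ψ hψ hcon t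
  have hin := congrArg (fun F => classInner F ψ') hfun
  beta_reduce at hin
  rw [Helper35.classInner_smul_left, Helper35.classInner_sum_left,
    ind_inner_eq H T θ hHT ψ' hcf'] at hin
  have hne : ∑ χ : IrrCharacter (T ⧸ H.subgroupOf T),
      classInner (lam (H.subgroupOf T) (χ : T ⧸ H.subgroupOf T → ℂ) * ψ) ψ' ≠ 0 := by
    rw [← hin]
    exact mul_ne_zero hcon ((map_ne_zero _).mpr hcon')
  obtain ⟨χ, -, hχ⟩ := Finset.exists_ne_zero_of_sum_ne_zero hne
  rw [Helper35.classInner_irr' (twist_irr (H.subgroupOf T) hcomm χ hψ) hψ'] at hχ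
  have heq : lam (H.subgroupOf T) (χ : T ⧸ H.subgroupOf T → ℂ) * ψ = ψ' := by
    by_contra h
    exact hχ (if_neg h)
  have : (fun n : H => ψ' ⟨(n : G), hHT n.2⟩) = (fun n : H => ψ ⟨(n : G), hHT n.2⟩) := by
    funext n
    rw [← heq, Pi.mul_apply, lam_mem (H.subgroupOf T) hcomm χ _ (Subgroup.mem_subgroupOf.mpr n.2),
      one_mul]
  rw [this]

end Main

theorem quot_comm {G : Type*} [Group G] (H T : Subgroup G) [hN : H.Normal]
    (hab : ∀ x ∈ T, ∀ y ∈ T, x * y * x⁻¹ * y⁻¹ ∈ H) :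
    ∀ a b : T ⧸ H.subgroupOf T, a * b = b * a := by
  intro a b
  induction a using QuotientGroup.induction_on with
  | H x =>
    induction b using QuotientGroup.induction_on with
    | H y =>
      rw [← QuotientGroup.mk_mul, ← QuotientGroup.mk_mul, QuotientGroup.eq,
        Subgroup.mem_subgroupOf]
      convert hab ((y⁻¹ : T) : G) (y⁻¹).2 ((x⁻¹ : T) : G) (x⁻¹).2 using 1
      simp [mul_assoc]

/-- Let H be a normal subgroup of the finite group G, θ an irreducible character of H with inertia group T, and suppose the commutator of any two elements of T lies in H (T/H abelian). Then there are a positive integer e and a finite set C of irreducible characters of G with e ^ 2 * |C| * |H| = |T|, such that the function induced from θ is e times the sum of the members of C and every member of C has degree [G:T] * e * θ(1). -/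
theorem result {G : Type*} [Group G] [Fintype G] (H T : Subgroup G) [hN : H.Normal] (θ : H → ℂ) (hθ : Cfsg.IsIrrCharacter H θ) (hT : ∀ g : G, g ∈ T ↔ ∀ h : H, θ ⟨g * h * g⁻¹, hN.conj_mem h h.2 g⟩ = θ h) (hab : ∀ x ∈ T, ∀ y ∈ T, x * y * x⁻¹ * y⁻¹ ∈ H) : ∃ (e : ℕ) (C : Finset (G → ℂ)), 0 < e ∧ (∀ χ ∈ C, Cfsg.IsIrrCharacter G χ) ∧ e ^ 2 * C.card * Nat.card H = Nat.card T ∧ Cfsg.indFun H θ = (e : ℂ) • ∑ χ ∈ C, χ ∧ ∀ χ ∈ C, χ 1 = (T.index : ℂ) * e * θ 1 := by
  classical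
  let _ : Fintype H := Fintype.ofFinite H
  let _ : Fintype T := Fintype.ofFinite T
  have hHT : H ≤ T := le_inertia H T θ hθ hT
  have hcomm := quot_comm H T hab
  let _ : Fintype (T ⧸ H.subgroupOf T) := Fintype.ofFinite _
  have := Helper4.irr_finite (G := T ⧸ H.subgroupOf T)
  let _ : Fintype (IrrCharacter (T ⧸ H.subgroupOf T)) := Fintype.ofFinite _
  have := Helper4.irr_finite (G := T)
  let _ : Fintype (IrrCharacter T) := Fintype.ofFinite _
  obtain ⟨k, hk⟩ := Cfsg.Agent.S1489.exists_k H T θ hθ hHT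
  have hcoef : ∀ ψ : IrrCharacter T,
      classInner (indFun (H.subgroupOf T)
        (fun x => θ ⟨(x : T), Subgroup.mem_subgroupOf.mp x.2⟩)) (ψ : T → ℂ) = (k ψ : ℂ) := by
    intro ψ
    rw [ind_inner_eq H T θ hHT ψ (Helper4.isClassFunction_irr ψ), hk, Complex.conj_natCast]
  have hexp : indFun (H.subgroupOf T) (fun x => θ ⟨(x : T), Subgroup.mem_subgroupOf.mp x.2⟩) =
      ∑ ψ : IrrCharacter T, (k ψ : ℂ) • (ψ : T → ℂ) := by
    refine (Helper4.classFunction_expansion _ (Helper35.isClassFunction_indFun _ _)).trans ?_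
    refine Finset.sum_congr rfl fun ψ _ => ?_
    rw [hcoef]
  have hΘ1 : indFun (H.subgroupOf T) (fun x => θ ⟨(x : T), Subgroup.mem_subgroupOf.mp x.2⟩) 1 =
      ((H.subgroupOf T).index : ℂ) * θ 1 := by
    rw [Helper35.indFun_one_eq]
    rfl
  have hθ1 : θ 1 ≠ 0 := Helper4.irr_one_ne_zero ⟨θ, hθ⟩
  have hidx : ((H.subgroupOf T).index : ℂ) ≠ 0 := by
    exact_mod_cast (Subgroup.index_ne_zero_of_finite (H := H.subgroupOf T))
  have hex : ∃ ψ₁ : IrrCharacter T, k ψ₁ ≠ 0 := by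
    by_contra hall
    push Not at hall
    have h0 : indFun (H.subgroupOf T)
        (fun x => θ ⟨(x : T), Subgroup.mem_subgroupOf.mp x.2⟩) 1 = 0 := by
      rw [hexp, Finset.sum_apply]
      apply Finset.sum_eq_zero
      intro ψ _
      rw [hall ψ, Nat.cast_zero, zero_smul]
      rfl
    rw [hΘ1] at h0
    exact (mul_ne_zero hidx hθ1) h0
  obtain ⟨ψ₁, hψ₁⟩ := hex
  have hcon : ∀ ψ : IrrCharacter T, k ψ ≠ 0 →
      classInner (fun n : H => (ψ : T → ℂ) ⟨(n : G), hHT n.2⟩) θ ≠ 0 := by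
    intro ψ h
    rw [hk]
    exact_mod_cast h
  have hke : ∀ ψ : IrrCharacter T, k ψ ≠ 0 → k ψ = k ψ₁ := by
    intro ψ h
    have := mult_eq H T θ hθ hT hHT hcomm (ψ₁ : T → ℂ) (ψ : T → ℂ) ψ₁.2 ψ.2 (hcon ψ₁ hψ₁)
      (hcon ψ h)
    rw [hk, hk] at this
    exact_mod_cast this
  set S : Finset (IrrCharacter T) := Finset.univ.filter (fun ψ => k ψ ≠ 0) with hS
  have hexp2 : indFun (H.subgroupOf T) (fun x => θ ⟨(x : T), Subgroup.mem_subgroupOf.mp x.2⟩) =
      (k ψ₁ : ℂ) • ∑ ψ ∈ S, (ψ : T → ℂ) := by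
    rw [hexp, Finset.smul_sum, hS, Finset.sum_filter]
    refine Finset.sum_congr rfl fun ψ _ => ?_
    by_cases h : k ψ ≠ 0
    · rw [if_pos h, hke ψ h]
    · rw [if_neg h]
      push Not at h
      rw [h, Nat.cast_zero, zero_smul]
  have hS1489 : ∀ ψ ∈ S, ∀ ψ' ∈ S, IsIrrCharacter G (indFun T (ψ : T → ℂ)) ∧
      (indFun T (ψ : T → ℂ) = indFun T (ψ' : T → ℂ) → (ψ : T → ℂ) = ψ') := by
    intro ψ hψ ψ' hψ'
    have hc : ∀ φ : IrrCharacter T, φ ∈ S → classInner (indFun (H.subgroupOf T)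
        (fun x => θ ⟨(x : T), Subgroup.mem_subgroupOf.mp x.2⟩)) (φ : T → ℂ) ≠ 0 := by
      intro φ hφ
      rw [hcoef]
      exact_mod_cast (Finset.mem_filter.mp hφ).2
    exact Cfsg.Agent.S1489.result H T θ hθ hT hHT ψ ψ' ψ.2 ψ'.2 (hc ψ hψ) (hc ψ' hψ')
  have hinj : Set.InjOn (fun ψ : IrrCharacter T => indFun T (ψ : T → ℂ))
      (S : Set (IrrCharacter T)) := by
    intro ψ hψ ψ' hψ' heq
    exact Subtype.ext ((hS1489 ψ hψ ψ' hψ').2 heq)
  have hdeg : ∀ ψ ∈ S, (ψ : T → ℂ) 1 = (k ψ₁ : ℂ) * θ 1 := by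
    intro ψ hψ
    have hne := (Finset.mem_filter.mp hψ).2
    have h1 := Cfsg.Agent.S0854.inertia_res H θ hθ T (fun g hg => (hT g).mp hg) hHT
      (ψ : T → ℂ) ψ.2 (hcon ψ hne) 1
    rw [hk, hke ψ hne] at h1
    exact h1
  refine ⟨k ψ₁, S.image (fun ψ : IrrCharacter T => indFun T (ψ : T → ℂ)),
    Nat.pos_of_ne_zero hψ₁, ?_, ?_, ?_, ?_⟩
  · intro χ hχ
    obtain ⟨ψ, hψ, rfl⟩ := Finset.mem_image.mp hχ
    exact (hS1489 ψ hψ ψ hψ).1
  · rw [Finset.card_image_of_injOn hinj]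
    have h2 : ((H.subgroupOf T).index : ℂ) * θ 1 = ((k ψ₁ ^ 2 * S.card : ℕ) : ℂ) * θ 1 := by
      rw [← hΘ1, hexp2, Pi.smul_apply, Finset.sum_apply, Finset.sum_congr rfl hdeg,
        Finset.sum_const]
      simp
      ring
    have h3 : (H.subgroupOf T).index = k ψ₁ ^ 2 * S.card := by
      exact_mod_cast mul_right_cancel₀ hθ1 h2
    have h4 : Nat.card (H.subgroupOf T) = Nat.card H :=
      Nat.card_congr (Subgroup.subgroupOfEquivOfLe hHT).toEquiv
    rw [← h3, ← h4, mul_comm]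
    exact Subgroup.card_mul_index (H.subgroupOf T)
  · rw [Finset.sum_image hinj, ← Helper4.indFun_trans H T hHT θ, hexp2, Helper35.indFun_smul,
      Helper35.indFun_sum]
  · intro χ hχ
    obtain ⟨ψ, hψ, rfl⟩ := Finset.mem_image.mp hχ
    rw [Helper35.indFun_one_eq, hdeg ψ hψ]
    ring

end Cfsg.Agent.S1490
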