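import Cfsg.Statements.S1491
import Cfsg.Agent.S1490
import Cfsg.Agent.S0863
import Cfsg.Agent.S0865
import Cfsg.Agent.Lib.Helper83.Codeg

set_option autoImplicit false
open Cfsg

namespace Cfsg.Agent.S1491

open Cfsg.Agent.Lib

/-- extension of invariant irreducible characters of a normal Hall subgroup with solvable
quotient -/
theorem coprime_extension {T : Type*} [Group T] [Finite T] (N : Subgroup T) [hN : N.Normal]
    (hsolv : Group.IsSolvable (T ⧸ N)) (ϑ : N → ℂ) (hϑ : IsIrrCharacter N ϑ)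
    (hinv : ∀ (g : T) (n : N), ϑ ⟨g * n * g⁻¹, hN.conj_mem (n : T) n.2 g⟩ = ϑ n)
    (hcop : Nat.Coprime N.index (Nat.card N)) :
    ∃ χ : T → ℂ, IsIrrCharacter T χ ∧ ∀ n : N, χ n = ϑ n := by
  obtain ⟨hpos, h1⟩ := Helper83.irr_degree hϑ
  have hdvd := Helper83.irr_degree_dvd_card' hϑ
  rw [S0863.result N hsolv ϑ hϑ hinv (charDegree ϑ) h1
    (Nat.Coprime.coprime_dvd_right hdvd hcop)]
  have hlam := Helper20.detChar_isCharacter ϑ
  have hinv' : ∀ (g : T) (n : N),
      detChar ϑ ⟨g * n * g⁻¹, hN.conj_mem (n : T) n.2 g⟩ = detChar ϑ n := by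
    intro g n
    have h2 := Helper20.detChar_comp ((MulAut.conjNormal g : MulAut N)).toMonoidHom
      (Helper35.isChar_of_irr hϑ) n
    have h3 : (fun a : N => ϑ (((MulAut.conjNormal g : MulAut N)).toMonoidHom a)) = ϑ := by
      funext a
      exact hinv g a
    rw [h3] at h2
    exact h2.symm
  have hord : orderOf (detChar ϑ) ∣ Nat.card N := by
    apply orderOf_dvd_of_pow_eq_one
    obtain ⟨f, hf⟩ := Helper20.exists_detHom ϑ
    funext n
    rw [Pi.pow_apply, ← hf, ← Units.val_pow_eq_pow_val, ← map_pow, pow_card_eq_one', map_one]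
    rfl
  obtain ⟨μ, ⟨hμ1, hμ2, hμ3, -⟩, -⟩ := S0865.result N (detChar ϑ) hlam hinv'
    (Nat.Coprime.coprime_dvd_right hord hcop)
  exact ⟨μ, hμ1, hμ2, hμ3⟩

/-- Let H be a normal subgroup of the finite group G and θ an irreducible character of H with inertia group T, where T/H is abelian (commutators of T lie in H) and the index of H in T is coprime to the order of H. Then the function induced from θ is the sum of a set of exactly [T:H] irreducible characters of G, each of degree [G:T] * θ(1). -/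
theorem result {G : Type*} [Group G] [Fintype G] (H T : Subgroup G) [hN : H.Normal] (θ : H → ℂ) (hθ : Cfsg.IsIrrCharacter H θ) (hT : ∀ g : G, g ∈ T ↔ ∀ h : H, θ ⟨g * h * g⁻¹, hN.conj_mem h h.2 g⟩ = θ h) (hab : ∀ x ∈ T, ∀ y ∈ T, x * y * x⁻¹ * y⁻¹ ∈ H) (hcop : Nat.Coprime (Nat.card H) (H.relIndex T)) : ∃ C : Finset (G → ℂ), (∀ χ ∈ C, Cfsg.IsIrrCharacter G χ) ∧ C.card = H.relIndex T ∧ Cfsg.indFun H θ = ∑ χ ∈ C, χ ∧ ∀ χ ∈ C, χ 1 = (T.index : ℂ) * θ 1 := by
  classical
  let _ : Fintype H := Fintype.ofFinite H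
  let _ : Fintype T := Fintype.ofFinite T
  have hHT : H ≤ T := S1490.le_inertia H T θ hθ hT
  obtain ⟨e, C, hepos, hCirr, hcard, hind, hdeg⟩ := S1490.result H T θ hθ hT hab
  have hcomm := S1490.quot_comm H T hab
  have hsolv : Group.IsSolvable (T ⧸ H.subgroupOf T) := Group.isSolvable_of_comm hcomm
  have hϑ : IsIrrCharacter (H.subgroupOf T)
      (fun x => θ ⟨(x : T), Subgroup.mem_subgroupOf.mp x.2⟩) :=
    Helper20.irr_comp_surjective (Subgroup.subgroupOfEquivOfLe hHT).toMonoidHom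
      (Subgroup.subgroupOfEquivOfLe hHT).surjective hθ
  have hinv : ∀ (g : T) (n : H.subgroupOf T),
      (fun x : H.subgroupOf T => θ ⟨(x : T), Subgroup.mem_subgroupOf.mp x.2⟩)
        ⟨g * n * g⁻¹, (inferInstance : (H.subgroupOf T).Normal).conj_mem (n : T) n.2 g⟩ =
      (fun x : H.subgroupOf T => θ ⟨(x : T), Subgroup.mem_subgroupOf.mp x.2⟩) n := by
    intro g n
    exact (hT g).mp g.2 ⟨(n : T), Subgroup.mem_subgroupOf.mp n.2⟩
  have hcop' : Nat.Coprime (H.subgroupOf T).index (Nat.card (H.subgroupOf T)) := by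
    rw [Nat.card_congr (Subgroup.subgroupOfEquivOfLe hHT).toEquiv]
    exact hcop.symm
  obtain ⟨θt, hθt, hθtres⟩ := coprime_extension (H.subgroupOf T) hsolv _ hϑ hinv hcop'
  have hres : (fun n : H => θt ⟨(n : G), hHT n.2⟩) = θ := by
    funext n
    exact hθtres ⟨⟨(n : G), hHT n.2⟩, Subgroup.mem_subgroupOf.mpr n.2⟩
  have hcon : classInner (fun n : H => θt ⟨(n : G), hHT n.2⟩) θ ≠ 0 := by
    rw [hres, Helper35.classInner_irr' hθ hθ, if_pos rfl]
    exact one_ne_zero
  obtain ⟨hχ₀, hχ₀res⟩ := S1489.main H T θ hθ hT hHT θt hθt hcon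
  have h1 : classInner (indFun H θ) (indFun T θt) = 1 := by
    rw [Helper35.frobenius_reciprocity H θ _ (Helper35.isClassFunction_indFun _ _),
      Helper4.classInner_conj_symm]
    have h2 : classInner (Helper35.res H (indFun T θt)) θ = 1 := by
      have h3 := hχ₀res
      rw [hres, Helper35.classInner_irr' hθ hθ, if_pos rfl] at h3
      exact h3
    rw [h2, map_one]
  rw [hind, Helper35.classInner_smul_left, Helper35.classInner_sum_left] at h1
  have h2 : ∑ χ ∈ C, classInner χ (indFun T θt) = if indFun T θt ∈ C then 1 else 0 := by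
    rw [Finset.sum_congr rfl (fun χ hχ => Helper35.classInner_irr' (hCirr χ hχ) hχ₀)]
    rw [Finset.sum_ite_eq' C (indFun T θt)]
  rw [h2] at h1
  have he : e = 1 := by
    by_cases hmem : indFun T θt ∈ C
    · rw [if_pos hmem, mul_one] at h1
      exact_mod_cast h1
    · rw [if_neg hmem, mul_zero] at h1
      exact absurd h1 zero_ne_one
  subst he
  refine ⟨C, hCirr, ?_, ?_, ?_⟩
  · have h3 : H.relIndex T * Nat.card H = Nat.card T := by
      rw [← Nat.card_congr (Subgroup.subgroupOfEquivOfLe hHT).toEquiv]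
      exact Subgroup.index_mul_card (H.subgroupOf T)
    have h4 : 0 < Nat.card H := Nat.card_pos
    rw [one_pow, one_mul, ← h3] at hcard
    exact Nat.eq_of_mul_eq_mul_right h4 hcard
  · rw [hind]
    simp
  · intro χ hχ
    rw [hdeg χ hχ]
    simp

end Cfsg.Agent.S1491
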