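import Cfsg.Statements.S1493
import Cfsg.Agent.S0163
import Cfsg.Agent.Lib.Helper35.Bessel
import Cfsg.Agent.Lib.Helper36.CharBasic
import Cfsg.Agent.Lib.Helper4.CharLinear

set_option autoImplicit false
open Cfsg

namespace Cfsg.Agent.S1493

open Cfsg.Agent.Lib.Helper35 Cfsg.Agent.Lib.Helper4
open scoped ComplexConjugate

/-- composition of a function on a group with the `k`-th power map -/
def pw {G : Type*} [Group G] (k : ℕ) (f : G → ℂ) : G → ℂ := fun g => f (g ^ k)

theorem pw_apply {G : Type*} [Group G] (k : ℕ) (f : G → ℂ) (g : G) : pw k f g = f (g ^ k) := rfl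

theorem pw_add {G : Type*} [Group G] (k : ℕ) (f g : G → ℂ) : pw k (f + g) = pw k f + pw k g := rfl

theorem pw_smul {G : Type*} [Group G] (k : ℕ) (c : ℂ) (f : G → ℂ) :
    pw k (c • f) = c • pw k f := rfl

theorem pw_zero {G : Type*} [Group G] (k : ℕ) : pw k (0 : G → ℂ) = 0 := rfl

theorem pw_sum {G : Type*} [Group G] (k : ℕ) {ι : Type*} (s : Finset ι) (f : ι → G → ℂ) :
    pw k (∑ i ∈ s, f i) = ∑ i ∈ s, pw k (f i) := by
  funext g
  simp [pw]

theorem char_one_nat {H : Type*} [Group H] {θ : H → ℂ} (hθ : IsCharacter H θ) :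
    ∃ d : ℕ, θ 1 = d := by
  obtain ⟨n, ρ, rfl⟩ := hθ
  exact ⟨_, Representation.char_one ρ⟩

/-- the power map commutes with induction -/
theorem pw_indFun {G : Type*} [Group G] [Fintype G] (k : ℕ) (hk : (Nat.card G).Coprime k)
    (E : Subgroup G) (f : E → ℂ) : pw k (indFun E f) = indFun E (pw k f) := by
  funext g
  unfold pw indFun
  congr 1
  refine Finset.sum_congr rfl fun x _ => ?_
  have h1 : x⁻¹ * g ^ k * x = (x⁻¹ * g * x) ^ k := by
    have := conj_pow (i := k) (a := x⁻¹) (b := g)
    rw [inv_inv] at this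
    exact this.symm
  rw [h1]
  by_cases hy : x⁻¹ * g * x ∈ E
  · rw [ext_mem E _ _ hy, ext_mem E f _ (pow_mem hy k)]
    rfl
  · rw [ext_not_mem E _ _ hy]
    apply ext_not_mem
    intro h2
    apply hy
    have h3 := (powCoprime hk).left_inv (x⁻¹ * g * x)
    have h4 : ((x⁻¹ * g * x) ^ k) ^ ((Nat.card G).gcdB k) = x⁻¹ * g * x := h3
    rw [← h4]
    exact zpow_mem h2 _

/-- the power map preserves the norm -/
theorem pw_inner {G : Type*} [Group G] [Fintype G] (k : ℕ) (hk : (Nat.card G).Coprime k)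
    (f : G → ℂ) : classInner (pw k f) (pw k f) = classInner f f := by
  unfold classInner pw
  congr 1
  exact Equiv.sum_comp (powCoprime hk) (fun g => f g * conj (f g))

/-- the power map sends irreducible characters to irreducible characters -/
theorem pw_irr {G : Type*} [Group G] [Fintype G] (k : ℕ) (hk : (Nat.card G).Coprime k)
    (χ : G → ℂ) (hχ : IsIrrCharacter G χ) : IsIrrCharacter G (pw k χ) := by
  have hχc : IsCharacter G χ := isChar_of_irr hχ
  obtain ⟨l, -, hl⟩ := S0163.result χ hχc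
  have hgen : ∀ l : List ((E : Subgroup G) × ((E →* ℂˣ) × ℤ)),
      IsGeneralizedCharacter G (pw k
        (l.map fun t => (t.2.2 : ℂ) • Cfsg.indFun t.1 (fun e => (t.2.1 e : ℂ))).sum) := by
    intro l
    induction l with
    | nil =>
      simp only [List.map_nil, List.sum_nil]
      rw [pw_zero]
      exact isGenChar_zero
    | cons t l ih =>
      simp only [List.map_cons, List.sum_cons]
      rw [pw_add, pw_smul, pw_indFun k hk]
      refine isGenChar_add (isGenChar_int_smul _ (isGenChar_of_char (isCharacter_indFun _ ?_))) ih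
      have h1 : pw k (fun e : t.1 => ((t.2.1 e : ℂˣ) : ℂ)) =
          fun e : t.1 => ((((powMonoidHom k : ℂˣ →* ℂˣ).comp t.2.1) e : ℂˣ) : ℂ) := by
        funext e
        simp [pw]
      rw [h1]
      exact isChar_of_irr (isIrrCharacter_lin _)
  have h1 : IsGeneralizedCharacter G (pw k χ) := by
    have := hgen l
    rw [← hl] at this
    exact this
  have h2 : classInner (pw k χ) (pw k χ) = 1 := by
    rw [pw_inner k hk, classInner_irr' hχ hχ, if_pos rfl]
  obtain ⟨ψ, hψ, h3 | h3⟩ := Cfsg.Agent.Lib.Helper36.gen_norm_one h1 h2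
  · rw [h3]; exact hψ
  · exfalso
    obtain ⟨d, hd⟩ := char_one_nat hχc
    obtain ⟨e, he⟩ := char_one_nat (isChar_of_irr hψ)
    have h4 := congrFun h3 1
    rw [pw_apply, one_pow, Pi.neg_apply, hd, he] at h4
    have h5 : (d : ℂ) + (e : ℂ) = 0 := by rw [h4]; ring
    have h6 : d + e = 0 := by exact_mod_cast h5
    have h7 : e = 0 := by omega
    have h8 := irr_one_ne_zero (⟨ψ, hψ⟩ : IrrCharacter G)
    apply h8
    show ψ 1 = 0
    rw [he, h7]
    simp

/-- Let G be a finite group of order a * b with a and b coprime, let k be coprime to a, and let χ be a character of G. Then there is a character χ' of G such that χ'(g) = χ(g ^ k) whenever the order of g divides a and χ'(g) = χ(g) whenever the order of g is coprime to a; moreover χ' is irreducible if χ is. -/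
theorem result {G : Type*} [Group G] [Finite G] (a b k : ℕ) (hab : Nat.card G = a * b) (hcop : Nat.Coprime a b) (hk : Nat.Coprime k a) (χ : G → ℂ) (hχ : Cfsg.IsCharacter G χ) : ∃ χ' : G → ℂ, Cfsg.IsCharacter G χ' ∧ (Cfsg.IsIrrCharacter G χ → Cfsg.IsIrrCharacter G χ') ∧ (∀ g : G, orderOf g ∣ a → χ' g = χ (g ^ k)) ∧ (∀ g : G, Nat.Coprime (orderOf g) a → χ' g = χ g) := by
  classical
  let _ : Fintype G := Fintype.ofFinite G
  have := irr_finite (G := G)
  let _ : Fintype (IrrCharacter G) := Fintype.ofFinite _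
  obtain ⟨k', hk'a, hk'b⟩ := Nat.chineseRemainder hcop k 1
  have hca : Nat.Coprime k' a := by
    have h1 := Nat.ModEq.gcd_eq hk'a
    unfold Nat.Coprime
    rw [h1]
    exact hk
  have hcb : Nat.Coprime k' b := by
    have h1 := Nat.ModEq.gcd_eq hk'b
    unfold Nat.Coprime
    rw [h1]
    exact Nat.gcd_one_left b
  have hcG : (Nat.card G).Coprime k' := by
    rw [hab]
    exact (Nat.Coprime.mul_right hca hcb).symm
  refine ⟨pw k' χ, ?_, pw_irr k' hcG χ, ?_, ?_⟩
  · obtain ⟨m, hm⟩ := exists_decomp_of_isCharacter χ hχ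
    rw [hm, pw_sum]
    refine Cfsg.Agent.Lib.Helper35.isCharacter_sum _ _ fun ψ _ => ?_
    rw [pw_smul]
    exact isCharacter_natCast_smul _ (isChar_of_irr (pw_irr k' hcG ψ ψ.2))
  · intro g hg
    rw [pw_apply]
    congr 1
    rw [pow_eq_pow_iff_modEq]
    exact Nat.ModEq.of_dvd hg hk'a
  · intro g hg
    rw [pw_apply]
    congr 1
    have h1 : orderOf g ∣ b := by
      have h2 : orderOf g ∣ a * b := hab ▸ orderOf_dvd_natCard g
      exact Nat.Coprime.dvd_of_dvd_mul_left hg h2
    have h3 : k' ≡ 1 [MOD orderOf g] := Nat.ModEq.of_dvd h1 hk'b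
    have h4 := pow_eq_pow_iff_modEq.mpr h3
    rw [pow_one] at h4
    exact h4

end Cfsg.Agent.S1493
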