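import Cfsg.Statements.S1494
import Cfsg.Agent.Lib.Helper35.Abel

set_option autoImplicit false
open Cfsg

namespace Cfsg.Agent.S1494

open Cfsg.Agent.Lib.Helper35 Cfsg.Agent.Lib.Helper4

theorem root_sub_one (p : ℕ) (hp : p.Prime) (z : ℂ) (hz : z ^ p = 1) :
    ∃ c : ℂ, IsIntegral ℤ c ∧ z - 1 = (1 - Complex.exp (2 * Real.pi * Complex.I / p)) * c := by
  have hprim := Complex.isPrimitiveRoot_exp p hp.ne_zero
  haveI : NeZero p := ⟨hp.ne_zero⟩
  obtain ⟨k, -, hk⟩ := hprim.eq_pow_of_pow_eq_one hz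
  set ε := Complex.exp (2 * Real.pi * Complex.I / p) with hε
  have hεint : IsIntegral ℤ ε :=
    IsIntegral.of_pow hp.pos (by rw [hprim.pow_eq_one]; exact isIntegral_one)
  refine ⟨-∑ i ∈ Finset.range k, ε ^ i, ?_, ?_⟩
  · exact IsIntegral.neg (IsIntegral.sum _ fun i _ => IsIntegral.pow hεint i)
  · rw [← hk, ← mul_geom_sum]
    ring

theorem char_case {G : Type*} [Group G] [Finite G] (φ : G → ℂ) (hφ : IsCharacter G φ)
    (p : ℕ) (hp : p.Prime) (x y : G) (hx : orderOf x = p) (hxy : x * y = y * x) :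
    ∃ ω : ℂ, IsIntegral ℤ ω ∧
      φ (x * y) - φ y = (1 - Complex.exp (2 * Real.pi * Complex.I / p)) * ω := by
  classical
  set A : Subgroup G := Subgroup.closure ({x, y} : Set G) with hA
  have hcomm := closure_pair_comm hxy
  let _ : Fintype A := Fintype.ofFinite A
  have hfin := irr_finite (G := A)
  let _ : Fintype (IrrCharacter A) := Fintype.ofFinite _
  obtain ⟨m, hm⟩ := res_abelian_decomp A hφ
  have hxA : x ∈ A := Subgroup.subset_closure (by simp)
  have hyA : y ∈ A := Subgroup.subset_closure (by simp)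
  have hxp : (⟨x, hxA⟩ : A) ^ p = 1 := by
    apply Subtype.ext
    simp only [Subgroup.coe_pow, Subgroup.coe_one]
    rw [← hx, pow_orderOf_eq_one]
  have hc : ∀ χ : IrrCharacter A, ∃ c : ℂ, IsIntegral ℤ c ∧
      (χ : A → ℂ) ⟨x, hxA⟩ - 1 = (1 - Complex.exp (2 * Real.pi * Complex.I / p)) * c :=
    fun χ => root_sub_one p hp _ (irr_pow_eq_one_of_comm hcomm χ _ p hxp)
  choose c hcint hceq using hc
  refine ⟨∑ χ : IrrCharacter A, (m χ : ℂ) * (c χ * (χ : A → ℂ) ⟨y, hyA⟩), ?_, ?_⟩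
  · refine IsIntegral.sum _ fun χ _ => ?_
    exact IsIntegral.mul (isIntegral_natCast _)
      (IsIntegral.mul (hcint χ) (irr_isIntegral χ _))
  · have h1 := hm (⟨x, hxA⟩ * ⟨y, hyA⟩)
    have h2 := hm ⟨y, hyA⟩
    simp only [Subgroup.coe_mul] at h1
    rw [h1, h2, ← Finset.sum_sub_distrib, Finset.mul_sum]
    refine Finset.sum_congr rfl fun χ _ => ?_
    rw [irr_mul_of_comm hcomm]
    have := hceq χ
    linear_combination (m χ : ℂ) * (χ : A → ℂ) ⟨y, hyA⟩ * this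

theorem result {G : Type*} [Group G] [Finite G] (χ : G → ℂ) (hχ : Cfsg.IsGeneralizedCharacter G χ) (p : ℕ) (hp : p.Prime) (x y : G) (hx : orderOf x = p) (hxy : x * y = y * x) : ∃ ω : ℂ, IsIntegral ℤ ω ∧ χ (x * y) - χ y = (1 - Complex.exp (2 * Real.pi * Complex.I / p)) * ω := by
  obtain ⟨a, b, ha, hb, rfl⟩ := hχ
  obtain ⟨ωa, hia, hea⟩ := char_case a ha p hp x y hx hxy
  obtain ⟨ωb, hib, heb⟩ := char_case b hb p hp x y hx hxy
  refine ⟨ωa - ωb, IsIntegral.sub hia hib, ?_⟩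
  simp only [Pi.sub_apply]
  linear_combination hea - heb

end Cfsg.Agent.S1494
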