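import Cfsg.Statements.S1495
import Mathlib

set_option autoImplicit false
open Cfsg

namespace Cfsg.Agent.S1495

/-- Let p be a prime, ε = exp(2πi/p), and n an integer such that n = (1 − ε) * ω for some algebraic integer ω. Then p divides n. -/
theorem result (p : ℕ) (hp : p.Prime) (n : ℤ) (ω : ℂ) (hω : IsIntegral ℤ ω) (h : (n : ℂ) = (1 - Complex.exp (2 * Real.pi * Complex.I / p)) * ω) : (p : ℤ) ∣ n := by
  set ζ : ℂ := Complex.exp (2 * Real.pi * Complex.I / p) with hζdef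
  have hζ : IsPrimitiveRoot ζ p := Complex.isPrimitiveRoot_exp p hp.ne_zero
  have hζint : IsIntegral ℤ ζ := hζ.isIntegral hp.pos
  have hζp : ζ ^ p = 1 := hζ.pow_eq_one
  by_contra hnd
  have hcop : IsCoprime (p : ℤ) n := (Nat.prime_iff_prime_int.mp hp).coprime_iff_not_dvd.mpr hnd
  obtain ⟨a, b, hab⟩ := hcop
  obtain ⟨m, hm⟩ : ∃ m, p = m + 2 := ⟨p - 2, by have := hp.two_le; omega⟩
  have hprod : ∏ k ∈ Finset.range (m + 1), (1 - ζ ^ (k + 1)) = (p : ℂ) := by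
    have := IsPrimitiveRoot.prod_one_sub_pow_eq_order (n := m + 1) (μ := ζ) (by rw [← hm]; exact hζ)
    rw [this, hm]; push_cast; ring
  have hone : ∀ k : ℕ, IsIntegral ℤ (1 - ζ ^ k) := fun k => isIntegral_one.sub (hζint.pow k)
  set w : ℂ := ∏ k ∈ Finset.range m, (1 - ζ ^ (k + 1 + 1)) with hw
  have hwint : IsIntegral ℤ w := IsIntegral.prod _ (fun k _ => hone _)
  have hpw : (p : ℂ) = w * (1 - ζ) := by
    rw [← hprod, Finset.prod_range_succ']; simp [hw]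
  have hintcast : ∀ z : ℤ, IsIntegral ℤ (z : ℂ) := fun z => by
    have := isIntegral_algebraMap (R := ℤ) (A := ℂ) (x := z)
    simpa using this
  set u : ℂ := (a : ℂ) * w + (b : ℂ) * ω with hu
  have huint : IsIntegral ℤ u := ((hintcast a).mul hwint).add ((hintcast b).mul hω)
  have hu1 : (1 - ζ) * u = 1 := by
    have h1 : ((a * p + b * n : ℤ) : ℂ) = 1 := by rw [hab]; simp
    push_cast at h1
    calc (1 - ζ) * u = (a : ℂ) * (w * (1 - ζ)) + (b : ℂ) * ((1 - ζ) * ω) := by rw [hu]; ring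
      _ = (a : ℂ) * (p : ℂ) + (b : ℂ) * (n : ℂ) := by rw [← hpw, ← h]
      _ = 1 := h1
  have hv : ∀ k ∈ Finset.range (m + 1), ∃ v : ℂ, IsIntegral ℤ v ∧ (1 - ζ ^ (k + 1)) * v = 1 := by
    intro k hk
    have hk' : k + 1 < p := by rw [Finset.mem_range] at hk; omega
    have hcop' : (k + 1).Coprime p :=
      ((Nat.Prime.coprime_iff_not_dvd hp).mpr (Nat.not_dvd_of_pos_of_lt (Nat.succ_pos k) hk')).symm
    obtain ⟨j, -, hj⟩ := Nat.exists_mul_mod_eq_one_of_coprime hcop' hp.one_lt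
    have hpow : (ζ ^ (k + 1)) ^ j = ζ := by
      rw [← pow_mul, ← Nat.div_add_mod ((k + 1) * j) p, hj, pow_add, pow_mul, hζp, one_pow, one_mul, pow_one]
    refine ⟨(∑ i ∈ Finset.range j, (ζ ^ (k + 1)) ^ i) * u, ?_, ?_⟩
    · exact (IsIntegral.sum _ (fun i _ => (hζint.pow _).pow _)).mul huint
    · rw [← mul_assoc, mul_neg_geom_sum, hpow, hu1]
  choose! v hvint hv1 using hv
  have hV : (p : ℂ) * ∏ k ∈ Finset.range (m + 1), v k = 1 := by
    rw [← hprod, ← Finset.prod_mul_distrib]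
    exact Finset.prod_eq_one (fun k hk => hv1 k hk)
  have hVint : IsIntegral ℤ (∏ k ∈ Finset.range (m + 1), v k) := IsIntegral.prod _ (fun k hk => hvint k hk)
  have hp0 : (p : ℂ) ≠ 0 := Nat.cast_ne_zero.mpr hp.ne_zero
  have hVeq : ∏ k ∈ Finset.range (m + 1), v k = algebraMap ℚ ℂ (1 / (p : ℚ)) := by
    have : algebraMap ℚ ℂ (1 / (p : ℚ)) = 1 / (p : ℂ) := by simp
    rw [this, eq_div_iff hp0, mul_comm]
    exact hV
  rw [hVeq] at hVint
  have hq : IsIntegral ℤ (1 / (p : ℚ)) := (isIntegral_algebraMap_iff (algebraMap ℚ ℂ).injective).mp hVint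
  obtain ⟨y, hy⟩ := IsIntegrallyClosed.isIntegral_iff.mp hq
  have hp0' : (p : ℚ) ≠ 0 := Nat.cast_ne_zero.mpr hp.ne_zero
  have hyq : (y : ℚ) * p = 1 := by
    have : (y : ℚ) = 1 / (p : ℚ) := by rw [← hy]; simp
    rw [this]; field_simp
  have hyp : y * (p : ℤ) = 1 := by exact_mod_cast hyq
  have hdvd : (p : ℤ) ∣ 1 := ⟨y, by rw [mul_comm]; exact hyp.symm⟩
  have h1 := Int.le_of_dvd one_pos hdvd
  have h2 := hp.two_le
  omega

end Cfsg.Agent.S1495
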