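import Cfsg.Statements.S1497
import Mathlib

set_option autoImplicit false
open Cfsg

namespace Cfsg.Agent.S1497

theorem result {G : Type*} [Group G] [Finite G] (A : Set G) (hA : A.Nonempty) (h1 : (1 : G) ∉ A) (L : Subgroup G) : (Cfsg.IsTISubset A ∧ Subgroup.normalizer A = L) ↔ Cfsg.DadeHypothesis A L (fun _ => ⊥) := by
  constructor
  · rintro ⟨hTI, hN⟩
    have key : ∀ a ∈ A, ∀ g : G, g * a * g⁻¹ ∈ A → g ∈ L := by
      intro a ha g hg
      by_contra hgL
      rw [← hN] at hgL
      exact h1 (hTI g hgL a ha hg ▸ ha)
    have hcent : ∀ a ∈ A, Subgroup.centralizer ({a} : Set G) ≤ L := by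
      intro a ha c hc
      apply key a ha c
      have : c * a = a * c := by
        have := Subgroup.mem_centralizer_iff.mp hc a (Set.mem_singleton a)
        exact this.symm
      rw [this, mul_inv_cancel_right]
      exact ha
    refine ⟨h1, ?_, ?_, ?_, ?_, ?_, ?_, ?_, ?_⟩
    · intro a ha
      apply key a ha a
      simpa using ha
    · intro x hx a ha
      rw [← hN] at hx
      exact (hx a).mp ha
    · intro a ha g hg
      exact ⟨g, key a ha g hg, rfl⟩
    · intro a _
      exact bot_le
    · intro a _ c _ u hu
      rw [Subgroup.mem_bot] at hu ⊢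
      subst hu
      simp
    · intro a _
      exact bot_inf_eq _
    · intro a ha
      rw [bot_sup_eq]
      exact inf_eq_right.mpr (hcent a ha)
    · intro a _ b _
      simp
  · intro hD
    have hLN : L ≤ Subgroup.normalizer A := by
      intro x hx n
      constructor
      · intro hn
        exact hD.conj_mem x hx n hn
      · intro hn
        have := hD.conj_mem x⁻¹ (L.inv_mem hx) _ hn
        simpa [mul_assoc] using this
    have key : ∀ a ∈ A, ∀ g : G, g * a * g⁻¹ ∈ A → g ∈ L := by
      intro a ha g hg
      obtain ⟨x, hx, hxa⟩ := hD.fusion a ha g hg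
      have hc : x⁻¹ * g ∈ Subgroup.centralizer ({a} : Set G) := by
        rw [Subgroup.mem_centralizer_iff]
        intro b hb
        rw [Set.mem_singleton_iff] at hb
        subst hb
        have h2 : x⁻¹ * (g * b * g⁻¹) * x = b := by
          rw [← hxa]; group
        calc b * (x⁻¹ * g) = (x⁻¹ * (g * b * g⁻¹) * x) * (x⁻¹ * g) := by rw [h2]
          _ = x⁻¹ * g * b := by group
      have hsup := hD.sup_eq a ha
      rw [bot_sup_eq] at hsup
      rw [← hsup] at hc
      have : x⁻¹ * g ∈ L := hc.1
      have := L.mul_mem hx this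
      simpa using this
    refine ⟨?_, le_antisymm ?_ hLN⟩
    · intro g hg x hx hgx
      exact absurd (hLN (key x hx g hgx)) hg
    · intro g hg
      obtain ⟨a, ha⟩ := hA
      exact key a ha g ((hg a).mp ha)

end Cfsg.Agent.S1497
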