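import Cfsg.Statements.S1498
import Mathlib

set_option autoImplicit false
open Cfsg

namespace Cfsg.Agent.S1498

theorem sup_decomp {G : Type*} [Group G] (Hb Q : Subgroup G)
    (hnorm : ∀ q ∈ Q, ∀ h ∈ Hb, q * h * q⁻¹ ∈ Hb) (c : G) (hc : c ∈ Hb ⊔ Q) :
    ∃ h ∈ Hb, ∃ q ∈ Q, c = h * q := by
  rw [Subgroup.sup_eq_closure_mul] at hc
  induction hc using Subgroup.closure_induction with
  | mem x hx =>
    obtain ⟨h, hh, q, hq, rfl⟩ := Set.mem_mul.mp hx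
    exact ⟨h, hh, q, hq, rfl⟩
  | one => exact ⟨1, Hb.one_mem, 1, Q.one_mem, by simp⟩
  | mul x y _ _ hx hy =>
    obtain ⟨h₁, hh₁, q₁, hq₁, rfl⟩ := hx
    obtain ⟨h₂, hh₂, q₂, hq₂, rfl⟩ := hy
    refine ⟨h₁ * (q₁ * h₂ * q₁⁻¹), Hb.mul_mem hh₁ (hnorm q₁ hq₁ h₂ hh₂), q₁ * q₂, Q.mul_mem hq₁ hq₂, ?_⟩
    group
  | inv x _ hx =>
    obtain ⟨h, hh, q, hq, rfl⟩ := hx
    refine ⟨q⁻¹ * h⁻¹ * q⁻¹⁻¹, hnorm q⁻¹ (Q.inv_mem hq) h⁻¹ (Hb.inv_mem hh), q⁻¹, Q.inv_mem hq, ?_⟩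
    group

theorem mem_of_coprime {G : Type*} [Group G] [Finite G] (Hb Q : Subgroup G)
    (hnorm : ∀ q ∈ Q, ∀ h ∈ Hb, q * h * q⁻¹ ∈ Hb) (hinf : Hb ⊓ Q = ⊥) (c : G) (hc : c ∈ Hb ⊔ Q)
    (hcop : Nat.Coprime (orderOf c) (Nat.card Q)) : c ∈ Hb := by
  obtain ⟨h, hh, q, hq, rfl⟩ := sup_decomp Hb Q hnorm c hc
  have hpow : ∀ n : ℕ, ∃ h' ∈ Hb, (h * q) ^ n = h' * q ^ n := by
    intro n
    induction n with
    | zero => exact ⟨1, Hb.one_mem, by simp⟩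
    | succ n ih =>
      obtain ⟨h', hh', he⟩ := ih
      refine ⟨h' * (q ^ n * h * (q ^ n)⁻¹), Hb.mul_mem hh' (hnorm _ (Q.pow_mem hq n) h hh), ?_⟩
      rw [pow_succ, he, pow_succ]
      group
  obtain ⟨h', hh', he⟩ := hpow (orderOf (h * q))
  rw [pow_orderOf_eq_one] at he
  have hq1 : q ^ orderOf (h * q) ∈ Hb ⊓ Q := by
    refine Subgroup.mem_inf.mpr ⟨?_, Q.pow_mem hq _⟩
    have : q ^ orderOf (h * q) = h'⁻¹ := by
      rw [eq_inv_iff_mul_eq_one]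
      have h5 : h'⁻¹ * (h' * q ^ orderOf (h * q)) * h' = h'⁻¹ * 1 * h' := by rw [← he]
      simpa [mul_assoc] using h5
    rw [this]
    exact Hb.inv_mem hh'
  rw [hinf, Subgroup.mem_bot] at hq1
  have hd1 : orderOf q ∣ orderOf (h * q) := orderOf_dvd_of_pow_eq_one hq1
  have hd2 : orderOf q ∣ Nat.card Q := Subgroup.orderOf_dvd_natCard Q hq
  have : orderOf q = 1 := Nat.eq_one_of_dvd_coprimes hcop hd1 hd2
  rw [orderOf_eq_one_iff] at this
  rw [this, mul_one]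
  exact hh

theorem conj_le {G : Type*} [Group G] [Finite G] (A : Set G) (L : Subgroup G) (H : G → Subgroup G)
    (hD : Cfsg.DadeHypothesis A L H) (a : G) (ha : a ∈ A) (x : G) (hx : x ∈ L) :
    (H a).map (MulAut.conj x).toMonoidHom ≤ H (x * a * x⁻¹) := by
  have hb : x * a * x⁻¹ ∈ A := hD.conj_mem x hx a ha
  rintro w ⟨u, hu, rfl⟩
  simp only [MulEquiv.toMonoidHom_eq_coe, MonoidHom.coe_coe, MulAut.conj_apply]
  set b := x * a * x⁻¹ with hbdef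
  have hwC : x * u * x⁻¹ ∈ Subgroup.centralizer ({b} : Set G) := by
    have huC := hD.le_centralizer a ha hu
    rw [Subgroup.mem_centralizer_iff] at huC ⊢
    intro h hh
    rw [Set.mem_singleton_iff] at hh
    subst hh
    have := huC a (Set.mem_singleton a)
    calc x * a * x⁻¹ * (x * u * x⁻¹) = x * (a * u) * x⁻¹ := by group
      _ = x * (u * a) * x⁻¹ := by rw [this]
      _ = x * u * x⁻¹ * (x * a * x⁻¹) := by group
  apply mem_of_coprime (H b) (L ⊓ Subgroup.centralizer ({b} : Set G))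
  · intro q hq h hh
    exact hD.conj_mem_H b hb q (Subgroup.mem_inf.mp hq).2 h hh
  · exact hD.inf_eq_bot b hb
  · rw [hD.sup_eq b hb]
    exact hwC
  · have h1 : orderOf (x * u * x⁻¹) = orderOf u := by
      have := MulEquiv.orderOf_eq (MulAut.conj x) u
      simpa [MulAut.conj_apply] using this
    rw [h1]
    exact Nat.Coprime.coprime_dvd_left (Subgroup.orderOf_dvd_natCard (H a) hu) (hD.coprime a ha b hb)

theorem result {G : Type*} [Group G] [Finite G] (A : Set G) (L : Subgroup G) (H : G → Subgroup G) (hD : Cfsg.DadeHypothesis A L H) (a : G) (ha : a ∈ A) (x : G) (hx : x ∈ L) : H (x * a * x⁻¹) = (H a).map (MulAut.conj x).toMonoidHom := by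
  apply le_antisymm _ (conj_le A L H hD a ha x hx)
  have hb : x * a * x⁻¹ ∈ A := hD.conj_mem x hx a ha
  have h2 := conj_le A L H hD (x * a * x⁻¹) hb x⁻¹ (L.inv_mem hx)
  have h3 : x⁻¹ * (x * a * x⁻¹) * x⁻¹⁻¹ = a := by group
  rw [h3] at h2
  intro w hw
  refine ⟨x⁻¹ * w * x, ?_, ?_⟩
  · apply h2
    refine ⟨w, hw, ?_⟩
    simp
  · simp only [MulEquiv.toMonoidHom_eq_coe, MonoidHom.coe_coe, MulAut.conj_apply]
    group

end Cfsg.Agent.S1498
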