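import Cfsg.Statements.S1499
import Mathlib

set_option autoImplicit false
open Cfsg

namespace Cfsg.Agent.S1499

theorem pow_trick {G : Type*} [Group G] [Finite G] (A : Set G) (L : Subgroup G) (H : G → Subgroup G)
    (hD : Cfsg.DadeHypothesis A L H) (a b : G) (ha : a ∈ A) (hb : b ∈ A) (u v : G)
    (hu : u ∈ H a) (hv : v ∈ H b) :
    ∃ k : ℕ, (a * u) ^ k = a ∧ (b * v) ^ k = b ∧ a ^ k = a ∧ b ^ k = b := by
  have hordL : ∀ c ∈ A, orderOf c ∣ Nat.card ↥(L ⊓ Subgroup.centralizer ({c} : Set G)) := by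
    intro c hc
    have hmem : c ∈ L ⊓ Subgroup.centralizer ({c} : Set G) := by
      refine Subgroup.mem_inf.mpr ⟨hD.subset hc, ?_⟩
      rw [Subgroup.mem_centralizer_iff]
      intro h hh
      rw [Set.mem_singleton_iff] at hh
      rw [hh]
    have := Subgroup.orderOf_dvd_natCard (L ⊓ Subgroup.centralizer ({c} : Set G)) hmem
    exact this
  have hordH : ∀ c : G, ∀ w ∈ H c, orderOf w ∣ Nat.card ↥(H c) := by
    intro c w hw
    exact Subgroup.orderOf_dvd_natCard (H c) hw
  have hcomm : ∀ c ∈ A, ∀ w ∈ H c, Commute c w := by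
    intro c hc w hw
    have := hD.le_centralizer c hc hw
    rw [Subgroup.mem_centralizer_iff] at this
    exact this c (Set.mem_singleton c)
  set M := Nat.card ↥(H a) * Nat.card ↥(H b) with hM
  set N := Nat.card ↥(L ⊓ Subgroup.centralizer ({a} : Set G)) *
    Nat.card ↥(L ⊓ Subgroup.centralizer ({b} : Set G)) with hN
  have hcop : Nat.Coprime M N := by
    rw [hM, hN]
    apply Nat.Coprime.mul_left
    · exact Nat.Coprime.mul_right (hD.coprime a ha a ha) (hD.coprime a ha b hb)
    · exact Nat.Coprime.mul_right (hD.coprime b hb a ha) (hD.coprime b hb b hb)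
  obtain ⟨k, hk0, hk1⟩ := Nat.chineseRemainder hcop 0 1
  have hdvdM : M ∣ k := (Nat.modEq_zero_iff_dvd).mp hk0
  have hpow1 : ∀ c ∈ A, orderOf c ∣ N → c ^ k = c := by
    intro c hc hdvd
    have h1 : k ≡ 1 [MOD orderOf c] := hk1.of_dvd hdvd
    have := (pow_eq_pow_iff_modEq (x := c)).mpr h1
    simpa using this
  have hpow0 : ∀ w : G, orderOf w ∣ M → w ^ k = 1 := by
    intro w hw
    exact orderOf_dvd_iff_pow_eq_one.mp (hw.trans hdvdM)
  have hak : a ^ k = a := hpow1 a ha ((hordL a ha).trans (Dvd.intro _ rfl))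
  have hbk : b ^ k = b := hpow1 b hb ((hordL b hb).trans (Dvd.intro_left _ rfl))
  have huk : u ^ k = 1 := hpow0 u ((hordH a u hu).trans (Dvd.intro _ rfl))
  have hvk : v ^ k = 1 := hpow0 v ((hordH b v hv).trans (Dvd.intro_left _ rfl))
  refine ⟨k, ?_, ?_, hak, hbk⟩
  · rw [(hcomm a ha u hu).mul_pow, hak, huk, mul_one]
  · rw [(hcomm b hb v hv).mul_pow, hbk, hvk, mul_one]

theorem result {G : Type*} [Group G] [Finite G] (A : Set G) (L : Subgroup G) (H : G → Subgroup G) (hD : Cfsg.DadeHypothesis A L H) (a b : G) (ha : a ∈ A) (hb : b ∈ A) : ((∃ u ∈ H a, ∃ v ∈ H b, ∃ g : G, g * (a * u) * g⁻¹ = b * v) → ∃ x ∈ L, x * a * x⁻¹ = b) ∧ Subgroup.normalizer ((fun u : G => a * u) '' (H a : Set G)) = Subgroup.centralizer ({a} : Set G) := by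
  constructor
  · rintro ⟨u, hu, v, hv, g, hg⟩
    obtain ⟨k, hk1, hk2, -, -⟩ := pow_trick A L H hD a b ha hb u v hu hv
    have h3 : g * a * g⁻¹ = b := by
      have : (g * (a * u) * g⁻¹) ^ k = (b * v) ^ k := by rw [hg]
      rw [conj_pow, hk1, hk2] at this
      exact this
    obtain ⟨x, hx, hxa⟩ := hD.fusion a ha g (h3 ▸ hb)
    exact ⟨x, hx, hxa.trans h3⟩
  · ext g
    rw [Subgroup.mem_set_normalizer_iff, Subgroup.mem_centralizer_iff]
    constructor
    · intro hg
      have h1 : a ∈ (fun u : G => a * u) '' (H a : Set G) := ⟨1, (H a).one_mem, mul_one a⟩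
      obtain ⟨u, hu, hua⟩ := (hg a).mp h1
      simp only at hua
      obtain ⟨k, hk1, -, hk2, -⟩ := pow_trick A L H hD a a ha ha u u hu hu
      have h3 : g * a * g⁻¹ = a := by
        have : (g * a * g⁻¹) ^ k = (a * u) ^ k := by rw [hua]
        rw [conj_pow, hk1, hk2] at this
        exact this
      intro h hh
      rw [Set.mem_singleton_iff] at hh
      subst hh
      calc h * g = (g * h * g⁻¹) * g := by rw [h3]
        _ = g * h := by group
    · intro hg n
      have hga : a * g = g * a := hg a (Set.mem_singleton a)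
      have hgc : g ∈ Subgroup.centralizer ({a} : Set G) := by
        rw [Subgroup.mem_centralizer_iff]; exact hg
      constructor
      · rintro ⟨u, hu, rfl⟩
        refine ⟨g * u * g⁻¹, hD.conj_mem_H a ha g hgc u hu, ?_⟩
        simp only
        calc a * (g * u * g⁻¹) = (a * g) * u * g⁻¹ := by group
          _ = g * (a * u) * g⁻¹ := by rw [hga]; group
      · rintro ⟨u, hu, hua⟩
        simp only at hua
        have hgc' : g⁻¹ ∈ Subgroup.centralizer ({a} : Set G) := Subgroup.inv_mem _ hgc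
        refine ⟨g⁻¹ * u * g⁻¹⁻¹, hD.conj_mem_H a ha g⁻¹ hgc' u hu, ?_⟩
        simp only
        have hn : n = g⁻¹ * (a * u) * g := by rw [hua]; group
        rw [hn]
        have hga' : g⁻¹ * a = a * g⁻¹ := by
          calc g⁻¹ * a = g⁻¹ * (a * g) * g⁻¹ := by group
            _ = a * g⁻¹ := by rw [hga]; group
        calc a * (g⁻¹ * u * g⁻¹⁻¹) = (a * g⁻¹) * u * g := by group
          _ = g⁻¹ * (a * u) * g := by rw [← hga']; group

end Cfsg.Agent.S1499
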