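import Cfsg.Statements.S1500
import Cfsg.Agent.Lib.Helper35.Dade

set_option autoImplicit false
open Cfsg

namespace Cfsg.Agent.S1500

open Cfsg.Agent.Lib.Helper35
open scoped ComplexConjugate

theorem part2 {G : Type*} [Group G] [Fintype G] (A : Set G) (L : Subgroup G) [Fintype L]
    (H : G → Subgroup G) (hD : Cfsg.DadeHypothesis A L H) (α : L → ℂ)
    (hα : Cfsg.IsClassFunction L α) (hαA : ∀ x : L, (x : G) ∉ A → α x = 0)
    (χ : G → ℂ) (ψ : L → ℂ) (hχ : Cfsg.IsClassFunction G χ)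
    (hψ : ∀ a : L, (a : G) ∈ A →
      ψ a = (Nat.card (H a) : ℂ)⁻¹ * ∑ᶠ u ∈ (H a : Set G), χ (a * u)) :
    Cfsg.classInner (Cfsg.dadeIsometry A L H α) χ = Cfsg.classInner α ψ := by
  classical
  unfold Cfsg.classInner
  have hmain := dade_main_class A L H hD α hα (fun g => conj (χ g)) (by
    intro g x
    show conj (χ (x⁻¹ * g * x)) = conj (χ g)
    congr 1
    have := hχ g x⁻¹
    simpa using this)
  have hL : (Nat.card L : ℂ) ≠ 0 := by exact_mod_cast (Nat.card_pos (α := L)).ne'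
  have hG : (Nat.card G : ℂ) ≠ 0 := by exact_mod_cast (Nat.card_pos (α := G)).ne'
  have hsum : ∑ a : L, (if (a : G) ∈ A then α a * (Nat.card (H a) : ℂ)⁻¹ *
      ∑ u : G, (if u ∈ H a then conj (χ (a * u)) else 0) else 0) = ∑ a : L, α a * conj (ψ a) := by
    refine Finset.sum_congr rfl fun a _ => ?_
    by_cases ha : (a : G) ∈ A
    · rw [if_pos ha, hψ a ha, map_mul, map_inv₀, map_natCast, mul_assoc,
        finsum_mem_subgroup_eq_sum, map_sum]
      congr 2
      refine Finset.sum_congr rfl fun u _ => ?_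
      split_ifs <;> simp
    · rw [if_neg ha, hαA a ha, zero_mul]
  rw [hsum] at hmain
  rw [inv_mul_eq_div, inv_mul_eq_div, div_eq_div_iff hG hL]
  linear_combination hmain

theorem result {G : Type*} [Group G] [Fintype G] (A : Set G) (L : Subgroup G) [Fintype L] (H : G → Subgroup G) (hD : Cfsg.DadeHypothesis A L H) (α : L → ℂ) (hα : Cfsg.IsClassFunction L α) (hαA : ∀ x : L, (x : G) ∉ A → α x = 0) : (∀ β : L → ℂ, Cfsg.IsClassFunction L β → (∀ x : L, (x : G) ∉ A → β x = 0) → Cfsg.classInner (Cfsg.dadeIsometry A L H α) (Cfsg.dadeIsometry A L H β) = Cfsg.classInner α β) ∧ (∀ (χ : G → ℂ) (ψ : L → ℂ), Cfsg.IsClassFunction G χ → (∀ a : L, (a : G) ∈ A → ψ a = (Nat.card (H a) : ℂ)⁻¹ * ∑ᶠ u ∈ (H a : Set G), χ (a * u)) → Cfsg.classInner (Cfsg.dadeIsometry A L H α) χ = Cfsg.classInner α ψ) := by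
  classical
  refine ⟨?_, fun χ ψ hχ hψ => part2 A L H hD α hα hαA χ ψ hχ hψ⟩
  intro β hβ _
  apply part2 A L H hD α hα hαA _ β (dade_isClassFunction A L H hD β hβ)
  intro a ha
  rw [finsum_mem_subgroup_eq_sum]
  have h1 : ∀ u : G, (if u ∈ H (a : G) then Cfsg.dadeIsometry A L H β ((a : G) * u) else 0) =
      (if u ∈ H (a : G) then β a else 0) := by
    intro u
    split_ifs with hu
    · exact dade_apply_of_witness A L H hD β hβ ((a : G) * u) a ha 1 u hu (by simp)
    · rfl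
  simp_rw [h1]
  rw [sum_ite_mem_subgroup_const]
  have hc : (Nat.card (H (a : G)) : ℂ) ≠ 0 := by
    exact_mod_cast (Nat.card_pos (α := H (a : G))).ne'
  field_simp

end Cfsg.Agent.S1500
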