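import Cfsg.Statements.S1502
import Cfsg.Agent.Lib.Helper35.TIComb3
import Cfsg.Agent.Lib.Helper35.TIFam1

set_option autoImplicit false
open Cfsg

namespace Cfsg.Agent.S1502

open Cfsg.Agent.Lib.Helper35
open Cfsg.Agent.Lib
open scoped ComplexConjugate

section Comb

/-- the combinatorial structure theorem, with the two index sets treated symmetrically -/
theorem struct {ι : Type*} [Fintype ι] [DecidableEq ι] {I J : Type*} [Finite I] [Finite J]
    [DecidableEq I] [DecidableEq J] (c : I → J → ι → ℤ)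
    (hG : ∀ i j i' j', TIComb.dot (c i j) (c i' j') =
      (if i = i' then 1 else 0) + (if j = j' then 1 else 0) +
        (if i = i' ∧ j = j' then 1 else 0))
    (hI : 2 ≤ Nat.card I) (hJ : 2 ≤ Nat.card J) (hI3 : Nat.card I ≠ 3) (hJ3 : Nat.card J ≠ 3)
    (hIJ : ¬ (Nat.card I = 2 ∧ Nat.card J = 2)) :
    ∃ (x : I → ι) (y : J → ι) (z : I → J → ι),
      (∀ i j, c i j (x i) ≠ 0 ∧ c i j (y j) ≠ 0 ∧ c i j (z i j) ≠ 0) ∧
      (∀ i j j', c i j' (x i) = c i j (x i)) ∧ (∀ i i' j, c i' j (y j) = c i j (y j)) ∧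
      (∀ i j χ, χ ≠ x i → χ ≠ y j → χ ≠ z i j → c i j χ = 0) ∧
      Function.Injective x ∧ Function.Injective y ∧
      (∀ i j i' j', z i j = z i' j' → i = i' ∧ j = j') ∧
      (∀ i j, x i ≠ y j) ∧ (∀ i i' j, x i ≠ z i' j) ∧ (∀ i j j', y j ≠ z i j') := by
  by_cases h4 : 4 ≤ Nat.card J
  · refine TIComb.comb c hG (TIFam.two_of_card hJ) (TIFam.four_of_card h4) ?_
    by_cases h2 : Nat.card I = 2
    · exact Or.inl (TIFam.pair_of_card h2)
    · exact Or.inr ⟨TIFam.two_of_card hI, TIFam.four_of_card (by omega)⟩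
  · have hJ2 : Nat.card J = 2 := by omega
    have hI4 : 4 ≤ Nat.card I := by omega
    have hG' : ∀ (j : J) (i : I) (j' : J) (i' : I), TIComb.dot (c i j) (c i' j') =
        (if j = j' then 1 else 0) + (if i = i' then 1 else 0) +
          (if j = j' ∧ i = i' then 1 else 0) := by
      intro j i j' i'
      rw [hG]
      by_cases hi : i = i' <;> by_cases hj : j = j' <;> simp [hi, hj]
    obtain ⟨x', y', z', hnz, hrow, hcol, hzero, xinj, yinj, zinj, hxy, hxz, hyz⟩ :=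
      TIComb.comb (fun j i => c i j) hG' (TIFam.two_of_card hI) (TIFam.four_of_card hI4)
        (Or.inl (TIFam.pair_of_card hJ2))
    refine ⟨y', x', fun i j => z' j i, ?_, ?_, ?_, ?_, yinj, xinj, ?_, ?_, ?_, ?_⟩
    · intro i j
      exact ⟨(hnz j i).2.1, (hnz j i).1, (hnz j i).2.2⟩
    · intro i j j'
      exact hcol j j' i
    · intro i i' j
      exact hrow j i i'
    · intro i j χ h1 h2 h3
      exact hzero j i χ h2 h1 h3
    · intro i j i' j' h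
      exact ⟨(zinj j i j' i' h).2, (zinj j i j' i' h).1⟩
    · intro i j
      exact (hxy j i).symm
    · intro i i' j
      exact hyz j i i'
    · intro i j j'
      exact hxz j j' i

/-- the irreducible constituent attached to a code -/
def kap {I J ι : Type*} (t : ι) (x : I → ι) (y : J → ι) (z : I → J → ι) :
    Option I → Option J → ι
  | none, none => t
  | some i, none => x i
  | none, some j => y j
  | some i, some j => z i j

/-- the sign attached to a code -/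
def sgn {I J : Type*} (sx : I → ℤ) (sy : J → ℤ) (sz : I → J → ℤ) : Option I → Option J → ℤ
  | none, none => 1
  | some i, none => - sx i
  | none, some j => - sy j
  | some i, some j => sz i j

theorem kap_inj {I J ι : Type*} (t : ι) (x : I → ι) (y : J → ι) (z : I → J → ι)
    (xinj : Function.Injective x) (yinj : Function.Injective y)
    (zinj : ∀ i j i' j', z i j = z i' j' → i = i' ∧ j = j')
    (hxy : ∀ i j, x i ≠ y j) (hxz : ∀ i i' j, x i ≠ z i' j) (hyz : ∀ i j j', y j ≠ z i j')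
    (htx : ∀ i, x i ≠ t) (hty : ∀ j, y j ≠ t) (htz : ∀ i j, z i j ≠ t) :
    ∀ a b a' b', kap t x y z a b = kap t x y z a' b' → a = a' ∧ b = b' := by
  rintro (_ | i) (_ | j) (_ | i') (_ | j') h
  · exact ⟨rfl, rfl⟩
  · exact absurd h.symm (hty j')
  · exact absurd h.symm (htx i')
  · exact absurd h.symm (htz i' j')
  · exact absurd h (hty j)
  · exact ⟨rfl, congrArg some (yinj h)⟩
  · exact absurd h.symm (hxy i' j)
  · exact absurd h (hyz i' j j')
  · exact absurd h (htx i)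
  · exact absurd h (hxy i j')
  · exact ⟨congrArg some (xinj h), rfl⟩
  · exact absurd h (hxz i i' j')
  · exact absurd h (htz i j)
  · exact absurd h.symm (hyz i j' j)
  · exact absurd h.symm (hxz i' i j)
  · obtain ⟨h1, h2⟩ := zinj i j i' j' h
    exact ⟨congrArg some h1, congrArg some h2⟩

theorem sgn_pm {I J : Type*} (sx : I → ℤ) (sy : J → ℤ) (sz : I → J → ℤ)
    (hx : ∀ i, sx i = 1 ∨ sx i = -1) (hy : ∀ j, sy j = 1 ∨ sy j = -1)
    (hz : ∀ i j, sz i j = 1 ∨ sz i j = -1) :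
    ∀ a b, sgn sx sy sz a b = 1 ∨ sgn sx sy sz a b = -1 := by
  rintro (_ | i) (_ | j)
  · exact Or.inl rfl
  · show - sy j = 1 ∨ - sy j = -1
    rcases hy j with h | h <;> rw [h] <;> simp
  · show - sx i = 1 ∨ - sx i = -1
    rcases hx i with h | h <;> rw [h] <;> simp
  · exact hz i j

open Classical in
/-- the code of a factor: `none` for the trivial one -/
noncomputable def cod {A : Type*} [One A] (P : A → Prop) (f : A) (hf : P f) :
    Option {φ : A // φ ≠ 1 ∧ P φ} :=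
  if h : f = 1 then none else some ⟨f, h, hf⟩

theorem cod_one {A : Type*} [One A] (P : A → Prop) (f : A) (hf : P f) (h : f = 1) :
    cod P f hf = none := dif_pos h

theorem cod_some {A : Type*} [One A] (P : A → Prop) (f : A) (hf : P f)
    (i : {φ : A // φ ≠ 1 ∧ P φ}) (h : f = i.1) : cod P f hf = some i := by
  unfold cod
  rw [dif_neg (by rw [h]; exact i.2.1)]
  exact congrArg some (Subtype.ext h)

theorem cod_inj {A : Type*} [One A] (P : A → Prop) (f f' : A) (hf : P f) (hf' : P f')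
    (h : cod P f hf = cod P f' hf') : f = f' := by
  unfold cod at h
  by_cases h1 : f = 1
  · by_cases h2 : f' = 1
    · rw [h1, h2]
    · rw [dif_pos h1, dif_neg h2] at h
      exact absurd h (by simp)
  · by_cases h2 : f' = 1
    · rw [dif_neg h1, dif_pos h2] at h
      exact absurd h (by simp)
    · rw [dif_neg h1, dif_neg h2] at h
      exact congrArg Subtype.val (Option.some.inj h)

end Comb

section Chars

variable {G : Type*} [Group G] [Fintype G] (W₁ W₂ : Subgroup G)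

/-- triviality of a linear character of `W` on a subgroup -/
def TrivOn (N : Subgroup G) (φ : ↥(W₁ ⊔ W₂) →* ℂˣ) : Prop :=
  ∀ w : ↥(W₁ ⊔ W₂), (w : G) ∈ N → φ w = 1

/-- the nontrivial linear characters of `W` trivial on `N` -/
abbrev Ix (N : Subgroup G) : Type _ :=
  {φ : ↥(W₁ ⊔ W₂) →* ℂˣ // φ ≠ 1 ∧ TrivOn W₁ W₂ N φ}

open Classical in
/-- the integer coefficient vectors of the induced virtual characters -/
theorem coeffs [Fintype (IrrCharacter G)] (hW : Cfsg.IsSelfNormalizingCyclic W₁ W₂) :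
    ∃ c : Ix W₁ W₂ W₂ → Ix W₁ W₂ W₁ → IrrCharacter G → ℤ,
      (∀ i j, indFun (W₁ ⊔ W₂) (fun w => 1 - ((i.1 w : ℂˣ) : ℂ) - ((j.1 w : ℂˣ) : ℂ) +
          ((i.1 w : ℂˣ) : ℂ) * ((j.1 w : ℂˣ) : ℂ)) =
          (fun _ => (1 : ℂ)) + ∑ χ : IrrCharacter G, ((c i j χ : ℤ) : ℂ) • (χ : G → ℂ)) ∧
      (∀ i j i' j', TIComb.dot (c i j) (c i' j') =
        (if i = i' then 1 else 0) + (if j = j' then 1 else 0) +
          (if i = i' ∧ j = j' then 1 else 0)) ∧
      (∀ i j, c i j ⟨fun _ => 1, Helper83.isIrr_one⟩ = 0) := by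
  have hA : ∀ (i : Ix W₁ W₂ W₂) (j : Ix W₁ W₂ W₁), IsGeneralizedCharacter G
      (indFun (W₁ ⊔ W₂) (fun w => 1 - ((i.1 w : ℂˣ) : ℂ) - ((j.1 w : ℂˣ) : ℂ) +
          ((i.1 w : ℂˣ) : ℂ) * ((j.1 w : ℂˣ) : ℂ))) := by
    intro i j
    apply isGenChar_indFun
    have h1 : IsGeneralizedCharacter ↥(W₁ ⊔ W₂) (fun _ => (1 : ℂ)) :=
      isGenChar_of_char (isChar_of_irr Helper83.isIrr_one)
    have h2 := isGenChar_of_char (isChar_of_irr (Helper83.isIrr_of_hom i.1))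
    have h3 := isGenChar_of_char (isChar_of_irr (Helper83.isIrr_of_hom j.1))
    have h4 := isGenChar_of_char (isChar_of_irr (Helper83.isIrr_of_hom (i.1 * j.1)))
    have := isGenChar_add (isGenChar_sub (isGenChar_sub h1 h2) h3) h4
    convert this using 1
    funext w
    simp only [Pi.add_apply, Pi.sub_apply, MonoidHom.mul_apply, Units.val_mul]
  have h11 : IsGeneralizedCharacter G (fun _ => (1 : ℂ)) :=
    isGenChar_of_char (isChar_of_irr Helper83.isIrr_one)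
  have hB := fun (i : Ix W₁ W₂ W₂) (j : Ix W₁ W₂ W₁) => gen_decomp (isGenChar_sub (hA i j) h11)
  choose c hc using hB
  have e5 : classInner (fun _ : G => (1 : ℂ)) (fun _ => 1) = 1 := by
    rw [classInner_irr' Helper83.isIrr_one Helper83.isIrr_one, if_pos rfl]
  refine ⟨c, ?_, ?_, ?_⟩
  · intro i j
    rw [← hc i j]
    exact (add_sub_cancel _ _).symm
  · intro i j i' j'
    have h1 := classInner_int_decomp (c i j) (c i' j')
    rw [← hc i j, ← hc i' j'] at h1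
    obtain ⟨e1, e2⟩ := S1505.result W₁ W₂ hW i.1 i'.1 j.1 j'.1 i.2.1 i'.2.1 j.2.1 j'.2.1
      (fun w hw => ⟨i.2.2 w hw, i'.2.2 w hw⟩) (fun w hw => ⟨j.2.2 w hw, j'.2.2 w hw⟩)
    obtain ⟨e3, -⟩ := S1505.result W₁ W₂ hW i'.1 i.1 j'.1 j.1 i'.2.1 i.2.1 j'.2.1 j.2.1
      (fun w hw => ⟨i'.2.2 w hw, i.2.2 w hw⟩) (fun w hw => ⟨j'.2.2 w hw, j.2.2 w hw⟩)
    have e4 : classInner (fun _ : G => (1 : ℂ)) (indFun (W₁ ⊔ W₂) (fun w => 1 - ((i'.1 w : ℂˣ) : ℂ)
        - ((j'.1 w : ℂˣ) : ℂ) + ((i'.1 w : ℂˣ) : ℂ) * ((j'.1 w : ℂˣ) : ℂ))) = 1 := by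
      rw [Helper4.classInner_conj_symm, e3, map_one]
    have ei : (i.1 = i'.1) ↔ i = i' := Subtype.ext_iff.symm
    have ej : (j.1 = j'.1) ↔ j = j' := Subtype.ext_iff.symm
    simp only [ei, ej] at e2
    rw [classInner_sub_left, classInner_sub_right, classInner_sub_right, e1, e2, e4, e5] at h1
    apply Int.cast_injective (α := ℂ)
    unfold TIComb.dot
    rw [← h1]
    by_cases hi : i = i' <;> by_cases hj : j = j' <;> simp [hi, hj] <;> norm_num
  · intro i j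
    have h1 := Helper4.classInner_sum_irr (fun χ => ((c i j χ : ℤ) : ℂ))
      ⟨fun _ => 1, Helper83.isIrr_one⟩
    rw [← hc i j] at h1
    obtain ⟨e1, -⟩ := S1505.result W₁ W₂ hW i.1 i.1 j.1 j.1 i.2.1 i.2.1 j.2.1 j.2.1
      (fun w hw => ⟨i.2.2 w hw, i.2.2 w hw⟩) (fun w hw => ⟨j.2.2 w hw, j.2.2 w hw⟩)
    rw [classInner_sub_left, e1, e5, sub_self] at h1
    exact_mod_cast h1.symm

/-- Let W₁, W₂ be nontrivial subgroups of the finite group G generating a cyclic subgroup W = W₁ ⊔ W₂ of odd order that is the normaliser of every nonempty set of its elements outside W₁ ∪ W₂. Then there is a family attaching to each linear character ω of W an irreducible character of G up to sign, orthonormal, sending the trivial character to the principal character, with χ ω = ω on W outside W₁ ∪ W₂, and such that inducing (1 − φ)(1 − ψ) to G gives 1 − χ φ − χ ψ + χ (φψ) whenever φ ≠ 1 is trivial on W₂ and ψ ≠ 1 is trivial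 on W₁. -/
theorem result {G : Type*} [Group G] [Fintype G] (W₁ W₂ : Subgroup G) (hW : Cfsg.IsSelfNormalizingCyclic W₁ W₂) (hodd : Odd (Nat.card ↥(W₁ ⊔ W₂))) : ∃ χ : (↥(W₁ ⊔ W₂) →* ℂˣ) → (G → ℂ), Cfsg.IsCyclicTIFamily W₁ W₂ χ := by
  classical
  have hfin := Helper4.irr_finite (G := G)
  let _ : Fintype (IrrCharacter G) := Fintype.ofFinite _
  obtain ⟨hW₁, hW₂, hdisj, hcomm, hcyc, -⟩ := id hW
  have hc : ∀ a b : ↥(W₁ ⊔ W₂), a * b = b * a := by
    let _ := IsCyclic.commGroup (α := ↥(W₁ ⊔ W₂))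
    intro a b
    exact mul_comm a b
  obtain ⟨p, q, hp, hq, hpq⟩ := TIFam.exists_decomp W₁ W₂ hdisj hcomm hc
  obtain ⟨c, hc1, hc2, hc3⟩ := coeffs W₁ W₂ hW
  obtain ⟨⟨k1, hk1⟩, ⟨k2, hk2⟩, g1, g2, hn33⟩ := TIFam.card_data W₁ W₂ hW hodd
  have e3 := TIFam.card_sup W₁ W₂ hdisj hcomm
  have cI : Nat.card (Ix W₁ W₂ W₂) = Nat.card W₁ - 1 := by
    have h1 : Nat.card (Ix W₁ W₂ W₂) = _ := TIFam.card_nontriv W₁ W₂ W₂
    rw [h1]
    congr 1
    have := (TIFam.card_triv_on W₁ W₂ hc W₂ le_sup_right).trans e3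
    exact Nat.eq_of_mul_eq_mul_right Nat.card_pos this
  have cJ : Nat.card (Ix W₁ W₂ W₁) = Nat.card W₂ - 1 := by
    have h1 : Nat.card (Ix W₁ W₂ W₁) = _ := TIFam.card_nontriv W₁ W₂ W₁
    rw [h1]
    congr 1
    have := (TIFam.card_triv_on W₁ W₂ hc W₁ le_sup_left).trans (e3.trans (mul_comm _ _))
    exact Nat.eq_of_mul_eq_mul_right Nat.card_pos this
  obtain ⟨x, y, z, hnz, hrow, hcol, hzero, xinj, yinj, zinj, hxy, hxz, hyz⟩ :=
    struct c hc2 (by omega) (by omega) (by omega) (by omega) (by omega)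
  have hnI : Nonempty (Ix W₁ W₂ W₂) := (Nat.card_pos_iff.mp (by omega)).1
  have hnJ : Nonempty (Ix W₁ W₂ W₁) := (Nat.card_pos_iff.mp (by omega)).1
  obtain ⟨i₀⟩ := hnI
  obtain ⟨j₀⟩ := hnJ
  have hn3 : ∀ i j, TIComb.dot (c i j) (c i j) = 3 := by
    intro i j
    rw [hc2]
    simp
  obtain ⟨T, hT⟩ : ∃ T : IrrCharacter G, T = ⟨fun _ => 1, Helper83.isIrr_one⟩ := ⟨_, rfl⟩
  have hc3' : ∀ i j, c i j T = 0 := by
    rw [hT]
    exact hc3
  have htx : ∀ i, x i ≠ T := fun i h => (hnz i j₀).1 (by rw [h]; exact hc3' i j₀)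
  have hty : ∀ j, y j ≠ T := fun j h => (hnz i₀ j).2.1 (by rw [h]; exact hc3' i₀ j)
  have htz : ∀ i j, z i j ≠ T := fun i j h => (hnz i j).2.2 (by rw [h]; exact hc3' i j)
  have hsx : ∀ i, c i j₀ (x i) = 1 ∨ c i j₀ (x i) = -1 :=
    fun i => TIComb.entry_ne (hn3 i j₀) (hnz i j₀).1
  have hsy : ∀ j, c i₀ j (y j) = 1 ∨ c i₀ j (y j) = -1 :=
    fun j => TIComb.entry_ne (hn3 i₀ j) (hnz i₀ j).2.1
  have hsz : ∀ i j, c i j (z i j) = 1 ∨ c i j (z i j) = -1 :=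
    fun i j => TIComb.entry_ne (hn3 i j) (hnz i j).2.2
  have hK := kap_inj T x y z xinj yinj zinj hxy hxz hyz htx hty htz
  have hS := sgn_pm (fun i => c i j₀ (x i)) (fun j => c i₀ j (y j)) (fun i j => c i j (z i j))
    hsx hsy hsz
  obtain ⟨a, ha⟩ : ∃ a : (↥(W₁ ⊔ W₂) →* ℂˣ) → Option (Ix W₁ W₂ W₂),
      ∀ ω, a ω = cod (TrivOn W₁ W₂ W₂) (p ω) (hp ω) := ⟨_, fun _ => rfl⟩
  obtain ⟨b, hb⟩ : ∃ b : (↥(W₁ ⊔ W₂) →* ℂˣ) → Option (Ix W₁ W₂ W₁),
      ∀ ω, b ω = cod (TrivOn W₁ W₂ W₁) (q ω) (hq ω) := ⟨_, fun _ => rfl⟩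
  have a1 : ∀ ω, p ω = 1 → a ω = none := fun ω h => (ha ω).trans (cod_one _ _ _ h)
  have a2 : ∀ ω (i : Ix W₁ W₂ W₂), p ω = i.1 → a ω = some i :=
    fun ω i h => (ha ω).trans (cod_some _ _ _ i h)
  have a3 : ∀ ω ω', a ω = a ω' → p ω = p ω' :=
    fun ω ω' h => cod_inj _ _ _ (hp ω) (hp ω') (by rw [← ha, ← ha]; exact h)
  have b1 : ∀ ω, q ω = 1 → b ω = none := fun ω h => (hb ω).trans (cod_one _ _ _ h)
  have b2 : ∀ ω (j : Ix W₁ W₂ W₁), q ω = j.1 → b ω = some j :=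
    fun ω j h => (hb ω).trans (cod_some _ _ _ j h)
  have b3 : ∀ ω ω', b ω = b ω' → q ω = q ω' :=
    fun ω ω' h => cod_inj _ _ _ (hq ω) (hq ω') (by rw [← hb, ← hb]; exact h)
  have hpq' : ∀ (ω φ ψ : ↥(W₁ ⊔ W₂) →* ℂˣ), TrivOn W₁ W₂ W₂ φ → TrivOn W₁ W₂ W₁ ψ →
      (∀ w, ω w = φ w * ψ w) → p ω = φ ∧ q ω = ψ := by
    intro ω φ ψ hφ hψ h
    exact S1505.uniq W₁ W₂ (p ω) φ (q ω) ψ (hp ω) hφ (hq ω) hψ
      ((hpq ω).symm.trans (MonoidHom.ext h))
  have t1 : ∀ N : Subgroup G, TrivOn W₁ W₂ N 1 := fun N w _ => rfl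
  obtain ⟨χ, hχ⟩ : ∃ χ : (↥(W₁ ⊔ W₂) →* ℂˣ) → G → ℂ, ∀ ω, χ ω =
      ((sgn (fun i => c i j₀ (x i)) (fun j => c i₀ j (y j)) (fun i j => c i j (z i j))
        (a ω) (b ω) : ℤ) : ℂ) • ((kap T x y z (a ω) (b ω) : IrrCharacter G) : G → ℂ) :=
    ⟨_, fun _ => rfl⟩
  have hcf : ∀ ω, IsClassFunction G (χ ω) := by
    intro ω g h
    rw [hχ]
    simp only [Pi.smul_apply]
    rw [isClassFunction_of_isCharacter (isChar_of_irr (kap T x y z (a ω) (b ω)).2) g h]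
  have horth : ∀ ω ω', classInner (χ ω) (χ ω') =
      @ite ℂ (ω = ω') (Classical.propDecidable (ω = ω')) 1 0 := by
    intro ω ω'
    rw [hχ, hχ, classInner_smul_left, classInner_smul_right,
      classInner_irr' (kap T x y z (a ω) (b ω)).2 (kap T x y z (a ω') (b ω')).2]
    by_cases h : ω = ω'
    · subst h
      rw [if_pos rfl, if_pos rfl]
      rcases hS (a ω) (b ω) with h | h <;> rw [h] <;> simp
    · have hne : ¬ ((kap T x y z (a ω) (b ω) : IrrCharacter G) : G → ℂ) =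
          (kap T x y z (a ω') (b ω') : IrrCharacter G) := by
        intro hh
        obtain ⟨h1, h2⟩ := hK _ _ _ _ (Subtype.ext hh)
        apply h
        rw [hpq ω, hpq ω', a3 ω ω' h1, b3 ω ω' h2]
      rw [if_neg hne, if_neg h]
      simp
  have h1 : χ 1 = fun _ => 1 := by
    obtain ⟨e1, e2⟩ := hpq' 1 1 1 (t1 W₂) (t1 W₁) (fun w => by simp)
    rw [hχ, a1 1 e1, b1 1 e2, hT]
    funext g
    show ((1 : ℤ) : ℂ) • (1 : ℂ) = 1
    simp
  have hind : ∀ φ ψ : ↥(W₁ ⊔ W₂) →* ℂˣ, φ ≠ 1 → ψ ≠ 1 →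
      (∀ w : ↥(W₁ ⊔ W₂), (w : G) ∈ W₂ → φ w = 1) →
      (∀ w : ↥(W₁ ⊔ W₂), (w : G) ∈ W₁ → ψ w = 1) →
      indFun (W₁ ⊔ W₂) (fun w => 1 - (φ w : ℂ) - (ψ w : ℂ) + (φ w : ℂ) * (ψ w : ℂ)) =
        fun g => 1 - χ φ g - χ ψ g + χ (φ * ψ) g := by
    intro φ ψ hφ hψ hφ2 hψ1
    obtain ⟨i, hi⟩ : ∃ i : Ix W₁ W₂ W₂, i.1 = φ := ⟨⟨φ, hφ, hφ2⟩, rfl⟩
    obtain ⟨j, hj⟩ : ∃ j : Ix W₁ W₂ W₁, j.1 = ψ := ⟨⟨ψ, hψ, hψ1⟩, rfl⟩
    subst hi
    subst hj
    obtain ⟨e1, e2⟩ := hpq' i.1 i.1 1 i.2.2 (t1 W₁) (fun w => by simp)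
    obtain ⟨e3, e4⟩ := hpq' j.1 1 j.1 (t1 W₂) j.2.2 (fun w => by simp)
    obtain ⟨e5, e6⟩ := hpq' (i.1 * j.1) i.1 j.1 i.2.2 j.2.2 (fun w => rfl)
    rw [hχ, hχ, hχ, a2 _ i e1, b1 _ e2, a1 _ e3, b2 _ j e4, a2 _ i e5, b2 _ j e6, hc1 i j]
    have hsum : ∑ χ : IrrCharacter G, ((c i j χ : ℤ) : ℂ) • (χ : G → ℂ) =
        ((c i j (x i) : ℤ) : ℂ) • (x i : G → ℂ) + (((c i j (y j) : ℤ) : ℂ) • (y j : G → ℂ) +
          ((c i j (z i j) : ℤ) : ℂ) • (z i j : G → ℂ)) := by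
      rw [← Finset.sum_subset (Finset.subset_univ {x i, y j, z i j})]
      · rw [Finset.sum_insert, Finset.sum_pair (hyz i j j)]
        simp only [Finset.mem_insert, Finset.mem_singleton, not_or]
        exact ⟨hxy i j, hxz i i j⟩
      · intro χ' _ hχ'
        simp only [Finset.mem_insert, Finset.mem_singleton, not_or] at hχ'
        rw [hzero i j χ' hχ'.1 hχ'.2.1 hχ'.2.2]
        simp
    rw [hsum]
    funext g
    simp only [Pi.add_apply, Pi.smul_apply, smul_eq_mul, sgn, kap]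
    rw [hrow i j₀ j, hcol i₀ i j]
    push_cast
    ring
  refine ⟨χ, ⟨?_, horth, h1, fun ω w hw1 hw2 =>
    TIFam.eq_on_of W₁ W₂ hW χ hcf (fun ω ω' => by convert horth ω ω') h1 hind p q hp hq hpq
      ω w hw1 hw2, hind⟩⟩
  intro ω
  rw [hχ]
  rcases hS (a ω) (b ω) with h | h
  · left
    rw [h]
    simpa using (kap T x y z (a ω) (b ω)).2
  · right
    rw [h]
    simpa using (kap T x y z (a ω) (b ω)).2

end Chars

end Cfsg.Agent.S1502
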