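import Cfsg.Statements.S1504
import Mathlib

set_option autoImplicit false
open Cfsg

namespace Cfsg.Agent.S1504

theorem decomp {G : Type*} [Group G] (W₁ W₂ : Subgroup G) (hcomm : ∀ a ∈ W₁, ∀ b ∈ W₂, a * b = b * a)
    (w : G) (hw : w ∈ W₁ ⊔ W₂) : ∃ a ∈ W₁, ∃ b ∈ W₂, w = a * b := by
  have hcl : W₁ ⊔ W₂ = Subgroup.closure ((W₁ : Set G) ∪ W₂) := by
    rw [Subgroup.closure_union, Subgroup.closure_eq, Subgroup.closure_eq]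
  rw [hcl] at hw
  induction hw using Subgroup.closure_induction with
  | mem x hx =>
    rcases hx with hx | hx
    · exact ⟨x, hx, 1, W₂.one_mem, by simp⟩
    · exact ⟨1, W₁.one_mem, x, hx, by simp⟩
  | one => exact ⟨1, W₁.one_mem, 1, W₂.one_mem, by simp⟩
  | mul x y _ _ hx hy =>
    obtain ⟨a, ha, b, hb, rfl⟩ := hx
    obtain ⟨a', ha', b', hb', rfl⟩ := hy
    refine ⟨a * a', W₁.mul_mem ha ha', b * b', W₂.mul_mem hb hb', ?_⟩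
    calc a * b * (a' * b') = a * (b * a') * b' := by group
      _ = a * (a' * b) * b' := by rw [hcomm a' ha' b hb]
      _ = a * a' * (b * b') := by group
  | inv x _ hx =>
    obtain ⟨a, ha, b, hb, rfl⟩ := hx
    refine ⟨a⁻¹, W₁.inv_mem ha, b⁻¹, W₂.inv_mem hb, ?_⟩
    rw [mul_inv_rev, hcomm a⁻¹ (W₁.inv_mem ha) b⁻¹ (W₂.inv_mem hb)]

theorem decomp' {G : Type*} [Group G] (W₁ W₂ : Subgroup G) (hcomm : ∀ a ∈ W₁, ∀ b ∈ W₂, a * b = b * a)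
    (w : ↥(W₁ ⊔ W₂)) : ∃ a b : ↥(W₁ ⊔ W₂), (a : G) ∈ W₁ ∧ (b : G) ∈ W₂ ∧ w = a * b := by
  obtain ⟨a, ha, b, hb, hab⟩ := decomp W₁ W₂ hcomm w.1 w.2
  exact ⟨⟨a, Subgroup.mem_sup_left ha⟩, ⟨b, Subgroup.mem_sup_right hb⟩, ha, hb, Subtype.ext hab⟩

theorem char_orth {W : Type*} [Group W] [Fintype W] (χ χ' : W →* ℂˣ) :
    ∑ w : W, (χ' w : ℂ) * (((χ w)⁻¹ : ℂˣ) : ℂ) = if χ' = χ then (Fintype.card W : ℂ) else 0 := by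
  split_ifs with h
  · subst h
    simp
  · have hne : (Units.coeHom ℂ).comp (χ' * χ⁻¹) ≠ 1 := by
      intro h1
      apply h
      ext w
      have h2 := DFunLike.congr_fun h1 w
      simp only [MonoidHom.coe_comp, Function.comp_apply, MonoidHom.mul_apply, MonoidHom.inv_apply,
        Units.coeHom_apply, MonoidHom.one_apply] at h2
      have h3 : χ' w * (χ w)⁻¹ = 1 := Units.ext h2
      rw [mul_inv_eq_one] at h3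
      rw [h3]
    have := sum_hom_units_eq_zero ((Units.coeHom ℂ).comp (χ' * χ⁻¹)) hne
    simpa using this

section facts

variable {G : Type*} [Group G] (W₁ W₂ : Subgroup G) (hcomm : ∀ a ∈ W₁, ∀ b ∈ W₂, a * b = b * a)
  (φ ψ : ↥(W₁ ⊔ W₂) →* ℂˣ)
  (hφ : ∀ w : ↥(W₁ ⊔ W₂), (w : G) ∈ W₂ → φ w = 1) (hψ : ∀ w : ↥(W₁ ⊔ W₂), (w : G) ∈ W₁ → ψ w = 1)

include hcomm hφ in
theorem phi_eq_one_of (h : ∀ a : ↥(W₁ ⊔ W₂), (a : G) ∈ W₁ → φ a = 1) : φ = 1 := by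
  ext w
  obtain ⟨a, b, ha, hb, rfl⟩ := decomp' W₁ W₂ hcomm w
  rw [map_mul, h a ha, hφ b hb]; simp

include hcomm hψ in
theorem psi_eq_one_of (h : ∀ b : ↥(W₁ ⊔ W₂), (b : G) ∈ W₂ → ψ b = 1) : ψ = 1 := by
  ext w
  obtain ⟨a, b, ha, hb, rfl⟩ := decomp' W₁ W₂ hcomm w
  rw [map_mul, h b hb, hψ a ha]; simp

include hcomm hφ in
theorem phi_eq_of (φ' : ↥(W₁ ⊔ W₂) →* ℂˣ) (hφ' : ∀ w : ↥(W₁ ⊔ W₂), (w : G) ∈ W₂ → φ' w = 1)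
    (h : ∀ a : ↥(W₁ ⊔ W₂), (a : G) ∈ W₁ → φ a = φ' a) : φ = φ' := by
  ext w
  obtain ⟨a, b, ha, hb, rfl⟩ := decomp' W₁ W₂ hcomm w
  rw [map_mul, map_mul, h a ha, hφ b hb, hφ' b hb]

include hcomm hψ in
theorem psi_eq_of (ψ' : ↥(W₁ ⊔ W₂) →* ℂˣ) (hψ' : ∀ w : ↥(W₁ ⊔ W₂), (w : G) ∈ W₁ → ψ' w = 1)
    (h : ∀ b : ↥(W₁ ⊔ W₂), (b : G) ∈ W₂ → ψ b = ψ' b) : ψ = ψ' := by
  ext w
  obtain ⟨a, b, ha, hb, rfl⟩ := decomp' W₁ W₂ hcomm w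
  rw [map_mul, map_mul, h b hb, hψ a ha, hψ' a ha]

end facts

/-- Let W₁, W₂ be subgroups of a finite group with W₁ ⊓ W₂ = ⊥ whose elements commute, and W = W₁ ⊔ W₂. For linear characters φ, ψ of W with φ trivial on W₂ and ψ trivial on W₁, the function (1 − φ)(1 − ψ) vanishes on W₁ ∪ W₂; and the family of these functions, indexed by pairs (φ, ψ) with φ ≠ 1 ≠ ψ, is linearly independent over ℂ. -/
theorem result {G : Type*} [Group G] [Finite G] (W₁ W₂ : Subgroup G) (hdisj : W₁ ⊓ W₂ = ⊥) (hcomm : ∀ a ∈ W₁, ∀ b ∈ W₂, a * b = b * a) : (∀ φ ψ : ↥(W₁ ⊔ W₂) →* ℂˣ, (∀ w : ↥(W₁ ⊔ W₂), (w : G) ∈ W₂ → φ w = 1) → (∀ w : ↥(W₁ ⊔ W₂), (w : G) ∈ W₁ → ψ w = 1) → ∀ w : ↥(W₁ ⊔ W₂), ((w : G) ∈ W₁ ∨ (w : G) ∈ W₂) → (1 - (φ w : ℂ) - (ψ w : ℂ) + (φ w : ℂ) * (ψ w : ℂ)) = 0) ∧ LinearIndependent ℂ (fun p : {p : (↥(W₁ ⊔ W₂) →* ℂˣ) × (↥(W₁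 ⊔ W₂) →* ℂˣ) // p.1 ≠ 1 ∧ p.2 ≠ 1 ∧ (∀ w : ↥(W₁ ⊔ W₂), (w : G) ∈ W₂ → p.1 w = 1) ∧ (∀ w : ↥(W₁ ⊔ W₂), (w : G) ∈ W₁ → p.2 w = 1)} => fun w : ↥(W₁ ⊔ W₂) => 1 - (p.1.1 w : ℂ) - (p.1.2 w : ℂ) + (p.1.1 w : ℂ) * (p.1.2 w : ℂ)) := by
  classical
  refine ⟨?_, ?_⟩
  · intro φ ψ hφ hψ w hw
    rcases hw with hw | hw
    · rw [hψ w hw]; simp
    · rw [hφ w hw]; simp
  · haveI : Fintype ↥(W₁ ⊔ W₂) := Fintype.ofFinite _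
    rw [linearIndependent_iff']
    intro s c hsum p₀ hp₀
    obtain ⟨⟨φ₀, ψ₀⟩, hφ₀1, hψ₀1, hφ₀, hψ₀⟩ := p₀
    set χ₀ : ↥(W₁ ⊔ W₂) →* ℂˣ := φ₀ * ψ₀ with hχ₀
    have hχa : ∀ a : ↥(W₁ ⊔ W₂), (a : G) ∈ W₁ → χ₀ a = φ₀ a := by
      intro a ha
      rw [hχ₀, MonoidHom.mul_apply, hψ₀ a ha, mul_one]
    have hχb : ∀ b : ↥(W₁ ⊔ W₂), (b : G) ∈ W₂ → χ₀ b = ψ₀ b := by
      intro b hb
      rw [hχ₀, MonoidHom.mul_apply, hφ₀ b hb, one_mul]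
    have hL : ∀ p ∈ s, ∑ w : ↥(W₁ ⊔ W₂), (1 - (p.1.1 w : ℂ) - (p.1.2 w : ℂ) + (p.1.1 w : ℂ) * (p.1.2 w : ℂ)) *
        (((χ₀ w)⁻¹ : ℂˣ) : ℂ) =
        if p = ⟨(φ₀, ψ₀), hφ₀1, hψ₀1, hφ₀, hψ₀⟩ then (Fintype.card ↥(W₁ ⊔ W₂) : ℂ) else 0 := by
      intro p hp
      obtain ⟨⟨φ, ψ⟩, hφ1, hψ1, hφ, hψ⟩ := p
      simp only
      have e : ∀ w : ↥(W₁ ⊔ W₂), (1 - (φ w : ℂ) - (ψ w : ℂ) + (φ w : ℂ) * (ψ w : ℂ)) * (((χ₀ w)⁻¹ : ℂˣ) : ℂ)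
          = (((1 : ↥(W₁ ⊔ W₂) →* ℂˣ) w : ℂˣ) : ℂ) * (((χ₀ w)⁻¹ : ℂˣ) : ℂ) - (φ w : ℂ) * (((χ₀ w)⁻¹ : ℂˣ) : ℂ)
            - (ψ w : ℂ) * (((χ₀ w)⁻¹ : ℂˣ) : ℂ) + (((φ * ψ) w : ℂˣ) : ℂ) * (((χ₀ w)⁻¹ : ℂˣ) : ℂ) := by
        intro w
        simp only [MonoidHom.mul_apply, MonoidHom.one_apply, Units.val_one, Units.val_mul]
        ring
      simp_rw [e, Finset.sum_add_distrib, Finset.sum_sub_distrib, char_orth]
      have h1 : (1 : ↥(W₁ ⊔ W₂) →* ℂˣ) ≠ χ₀ := by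
        intro h
        apply hφ₀1
        apply phi_eq_one_of W₁ W₂ hcomm φ₀ hφ₀
        intro a ha
        rw [← hχa a ha, ← h]; rfl
      have h2 : φ ≠ χ₀ := by
        intro h
        apply hψ₀1
        apply psi_eq_one_of W₁ W₂ hcomm ψ₀ hψ₀
        intro b hb
        rw [← hχb b hb, ← h]; exact hφ b hb
      have h3 : ψ ≠ χ₀ := by
        intro h
        apply hφ₀1
        apply phi_eq_one_of W₁ W₂ hcomm φ₀ hφ₀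
        intro a ha
        rw [← hχa a ha, ← h]; exact hψ a ha
      rw [if_neg h1, if_neg h2, if_neg h3]
      by_cases hpp : φ * ψ = χ₀
      · rw [if_pos hpp]
        have e1 : φ = φ₀ := by
          apply phi_eq_of W₁ W₂ hcomm φ hφ φ₀ hφ₀
          intro a ha
          rw [← hχa a ha, ← hpp, MonoidHom.mul_apply, hψ a ha, mul_one]
        have e2 : ψ = ψ₀ := by
          apply psi_eq_of W₁ W₂ hcomm ψ hψ ψ₀ hψ₀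
          intro b hb
          rw [← hχb b hb, ← hpp, MonoidHom.mul_apply, hφ b hb, one_mul]
        subst e1 e2
        rw [if_pos rfl]
        simp
      · rw [if_neg hpp, if_neg]
        · simp
        · intro h
          apply hpp
          have h' := congrArg Subtype.val h
          simp only [Prod.mk.injEq] at h'
          rw [h'.1, h'.2]
    have h0 : ∑ w : ↥(W₁ ⊔ W₂), (∑ p ∈ s, c p • (fun w : ↥(W₁ ⊔ W₂) =>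
        1 - (p.1.1 w : ℂ) - (p.1.2 w : ℂ) + (p.1.1 w : ℂ) * (p.1.2 w : ℂ))) w * (((χ₀ w)⁻¹ : ℂˣ) : ℂ) = 0 := by
      rw [hsum]; simp
    simp only [Finset.sum_apply, Pi.smul_apply, smul_eq_mul, Finset.sum_mul] at h0
    rw [Finset.sum_comm] at h0
    have h1 : ∑ p ∈ s, c p * (if p = ⟨(φ₀, ψ₀), hφ₀1, hψ₀1, hφ₀, hψ₀⟩ then (Fintype.card ↥(W₁ ⊔ W₂) : ℂ) else 0) = 0 := by
      refine Eq.trans ?_ h0
      apply Finset.sum_congr rfl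
      intro p hp
      rw [← hL p hp, Finset.mul_sum]
      apply Finset.sum_congr rfl
      intro w _
      ring
    simp only [mul_ite, mul_zero, Finset.sum_ite_eq', hp₀, if_true] at h1
    rcases mul_eq_zero.mp h1 with h | h
    · exact h
    · exfalso
      have : (Fintype.card ↥(W₁ ⊔ W₂) : ℂ) ≠ 0 := by
        exact_mod_cast Fintype.card_ne_zero
      exact this h

end Cfsg.Agent.S1504
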