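import Cfsg.Statements.S1506
import Cfsg.Agent.Lib.Helper35.Ind

set_option autoImplicit false
open Cfsg

namespace Cfsg.Agent.S1506

open Cfsg.Agent.Lib.Helper35 Cfsg.Agent.Lib.Helper4
open scoped ComplexConjugate

theorem key {G : Type*} [Group G] [Fintype G] (W₁ W₂ : Subgroup G)
    (χ : (↥(W₁ ⊔ W₂) →* ℂˣ) → (G → ℂ)) (hχ : Cfsg.IsCyclicTIFamily W₁ W₂ χ) (θ : G → ℂ)
    (hθ : Cfsg.IsClassFunction G θ)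
    (hθV : ∀ w : ↥(W₁ ⊔ W₂), (w : G) ∉ W₁ → (w : G) ∉ W₂ → θ w = 0)
    (φ ψ : ↥(W₁ ⊔ W₂) →* ℂˣ) (hφ₂ : ∀ w : ↥(W₁ ⊔ W₂), (w : G) ∈ W₂ → φ w = 1)
    (hψ₁ : ∀ w : ↥(W₁ ⊔ W₂), (w : G) ∈ W₁ → ψ w = 1) :
    classInner θ (χ (φ * ψ)) =
      classInner θ (χ φ) + classInner θ (χ ψ) - classInner θ (χ 1) := by
  classical
  by_cases hφ : φ = 1
  · subst hφ
    have h1 : (1 : ↥(W₁ ⊔ W₂) →* ℂˣ) * ψ = ψ := one_mul ψ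
    rw [h1]
    ring
  by_cases hψ : ψ = 1
  · subst hψ
    have h1 : φ * (1 : ↥(W₁ ⊔ W₂) →* ℂˣ) = φ := mul_one φ
    rw [h1]
    ring
  let _ : Fintype ↥(W₁ ⊔ W₂) := Fintype.ofFinite _
  have hind := hχ.induced_eq φ ψ hφ hψ hφ₂ hψ₁
  have hfun : (fun g => 1 - χ φ g - χ ψ g + χ (φ * ψ) g) = χ 1 - χ φ - χ ψ + χ (φ * ψ) := by
    funext g
    simp [hχ.map_one]
  have h0 : classInner θ (indFun (W₁ ⊔ W₂)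
      (fun w => 1 - (φ w : ℂ) - (ψ w : ℂ) + (φ w : ℂ) * (ψ w : ℂ))) = 0 := by
    rw [frobenius_reciprocity' _ _ _ hθ]
    unfold classInner
    rw [Finset.sum_eq_zero, mul_zero]
    intro w _
    beta_reduce
    by_cases h1 : (w : G) ∈ W₁
    · have h3 := hψ₁ w h1
      have hz : (1 : ℂ) - (φ w : ℂ) - (ψ w : ℂ) + (φ w : ℂ) * (ψ w : ℂ) = 0 := by
        rw [h3]; simp
      rw [hz, map_zero, mul_zero]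
    · by_cases h2 : (w : G) ∈ W₂
      · have h3 := hφ₂ w h2
        have hz : (1 : ℂ) - (φ w : ℂ) - (ψ w : ℂ) + (φ w : ℂ) * (ψ w : ℂ) = 0 := by
          rw [h3]; simp
        rw [hz, map_zero, mul_zero]
      · rw [res_apply, hθV w h1 h2, zero_mul]
  rw [hind, hfun, classInner_add_right, classInner_sub_right, classInner_sub_right] at h0
  linear_combination h0

theorem result {G : Type*} [Group G] [Fintype G] (W₁ W₂ : Subgroup G) (hW : Cfsg.IsSelfNormalizingCyclic W₁ W₂) (χ : (↥(W₁ ⊔ W₂) →* ℂˣ) → (G → ℂ)) (hχ : Cfsg.IsCyclicTIFamily W₁ W₂ χ) (θ : G → ℂ) (hθ : Cfsg.IsClassFunction G θ) (hθV : ∀ w : ↥(W₁ ⊔ W₂), (w : G) ∉ W₁ → (w : G) ∉ W₂ → θ w = 0) (φ φ' ψ ψ' : ↥(W₁ ⊔ W₂) →* ℂˣ) (hφ₂ : ∀ w : ↥(W₁ ⊔ W₂), (w : G) ∈ W₂ → φ w = 1 ∧ φ' w = 1) (hψ₁ : ∀ w : ↥(W₁ ⊔ W₂), (w : G) ∈ W₁ → ψ w = 1 ∧ ψ'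 w = 1) : Cfsg.classInner θ (χ (φ * ψ)) + Cfsg.classInner θ (χ (φ' * ψ')) = Cfsg.classInner θ (χ (φ * ψ')) + Cfsg.classInner θ (χ (φ' * ψ)) := by
  rw [key W₁ W₂ χ hχ θ hθ hθV φ ψ (fun w hw => (hφ₂ w hw).1) (fun w hw => (hψ₁ w hw).1),
    key W₁ W₂ χ hχ θ hθ hθV φ' ψ' (fun w hw => (hφ₂ w hw).2) (fun w hw => (hψ₁ w hw).2),
    key W₁ W₂ χ hχ θ hθ hθV φ ψ' (fun w hw => (hφ₂ w hw).1) (fun w hw => (hψ₁ w hw).2),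
    key W₁ W₂ χ hχ θ hθ hθV φ' ψ (fun w hw => (hφ₂ w hw).2) (fun w hw => (hψ₁ w hw).1)]
  ring

end Cfsg.Agent.S1506
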