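import Cfsg.Statements.S1507
import Cfsg.Agent.S1505
import Cfsg.Agent.S1506

set_option autoImplicit false
open Cfsg

namespace Cfsg.Agent.S1507

open Cfsg.Agent.Lib.Helper35 Cfsg.Agent.Lib.Helper4
open scoped ComplexConjugate Pointwise

/-- the combinatorial lemma on additive matrices with few nonzero entries -/
theorem comb {P Q : Type*} [Fintype P] [Fintype Q] [DecidableEq P] [DecidableEq Q]
    (x : P → ℂ) (y : Q → ℂ) (hq : Fintype.card P + 2 ≤ Fintype.card Q)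
    (hN : (Finset.univ.filter (fun pq : P × Q => x pq.1 + y pq.2 ≠ 0)).card <
      2 * Fintype.card P) :
    (∀ p q, x p + y q = 0) ∨ (∃ q₀ a, ∀ p q, x p + y q = if q = q₀ then a else 0) ∨
    (∃ p₀ a, ∀ p q, x p + y q = if p = p₀ then a else 0) := by
  classical
  obtain ⟨r, hr⟩ : ∃ r : P → ℕ, r = fun p =>
      (Finset.univ.filter (fun q : Q => x p + y q ≠ 0)).card := ⟨_, rfl⟩
  have hNr : (Finset.univ.filter (fun pq : P × Q => x pq.1 + y pq.2 ≠ 0)).card = ∑ p, r p := by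
    rw [Finset.card_filter, Fintype.sum_prod_type]
    refine Finset.sum_congr rfl fun p _ => ?_
    rw [hr]
    beta_reduce
    rw [Finset.card_filter]
  rw [hNr] at hN
  -- a row with at most one nonzero entry
  obtain ⟨p₁, hp₁⟩ : ∃ p₁, r p₁ ≤ 1 := by
    by_contra hcon
    push Not at hcon
    have : ∑ _p : P, 2 ≤ ∑ p, r p := Finset.sum_le_sum fun p _ => hcon p
    rw [Finset.sum_const, Finset.card_univ, smul_eq_mul] at this
    omega
  obtain ⟨c, hc⟩ : ∃ c, c = x p₁ := ⟨_, rfl⟩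
  rcases (Finset.univ.filter (fun q : Q => x p₁ + y q ≠ 0)).eq_empty_or_nonempty with hZ | ⟨q₀, hq₀⟩
  · -- all `y q = -c`
    have hy : ∀ q, y q = -c := by
      intro q
      have h1 : q ∉ Finset.univ.filter (fun q : Q => x p₁ + y q ≠ 0) := by
        rw [hZ]; exact Finset.notMem_empty _
      rw [Finset.mem_filter] at h1
      push Not at h1
      have h2 := h1 (Finset.mem_univ _)
      rw [hc]
      linear_combination h2
    have hrow : ∀ p, x p ≠ c → r p = Fintype.card Q := by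
      intro p hp
      rw [hr]
      beta_reduce
      rw [Finset.filter_true_of_mem, Finset.card_univ]
      intro q _
      rw [hy q]
      intro h
      apply hp
      linear_combination h
    by_cases hR : ∃ p₀, x p₀ ≠ c
    · obtain ⟨p₀, hp₀⟩ := hR
      by_cases hR2 : ∃ p₂, p₂ ≠ p₀ ∧ x p₂ ≠ c
      · exfalso
        obtain ⟨p₂, hne, hp₂⟩ := hR2
        have h1 : r p₀ + r p₂ ≤ ∑ p, r p := by
          have h2 : ∑ p ∈ ({p₀, p₂} : Finset P), r p ≤ ∑ p, r p :=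
            Finset.sum_le_sum_of_subset (Finset.subset_univ _)
          rw [Finset.sum_pair (Ne.symm hne)] at h2
          exact h2
        rw [hrow p₀ hp₀, hrow p₂ hp₂] at h1
        omega
      · right; right
        push Not at hR2
        refine ⟨p₀, x p₀ - c, fun p q => ?_⟩
        by_cases hp : p = p₀
        · rw [if_pos hp, hp, hy q]
          ring
        · rw [if_neg hp, hR2 p hp, hy q]
          ring
    · left
      push Not at hR
      intro p q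
      rw [hR p, hy q]
      ring
  · -- exactly one `q₀` with `y q₀ ≠ -c`
    have hq₀' : x p₁ + y q₀ ≠ 0 := (Finset.mem_filter.mp hq₀).2
    have hy : ∀ q, q ≠ q₀ → y q = -c := by
      intro q hq
      have h1 : q ∉ Finset.univ.filter (fun q : Q => x p₁ + y q ≠ 0) := by
        intro hmem
        apply hq
        rw [hr] at hp₁
        exact Finset.card_le_one.mp hp₁ q hmem q₀ hq₀
      rw [Finset.mem_filter] at h1
      push Not at h1
      have h2 := h1 (Finset.mem_univ _)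
      rw [hc]
      linear_combination h2
    have hx : ∀ p, x p = c := by
      by_contra hcon
      push Not at hcon
      obtain ⟨p₂, hp₂⟩ := hcon
      have hrow2 : ∀ p, x p ≠ c → Fintype.card Q - 1 ≤ r p := by
        intro p hp
        rw [hr]
        beta_reduce
        have h1 : Finset.univ.erase q₀ ⊆ Finset.univ.filter (fun q : Q => x p + y q ≠ 0) := by
          intro q hq
          rw [Finset.mem_erase] at hq
          rw [Finset.mem_filter]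
          refine ⟨Finset.mem_univ _, ?_⟩
          rw [hy q hq.1]
          intro h
          apply hp
          linear_combination h
        have h2 := Finset.card_le_card h1
        rw [Finset.card_erase_of_mem (Finset.mem_univ _), Finset.card_univ] at h2
        exact h2
      have hrow1 : ∀ p, 1 ≤ r p := by
        intro p
        by_cases hp : x p = c
        · rw [hr]
          beta_reduce
          apply Finset.card_pos.mpr
          refine ⟨q₀, ?_⟩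
          rw [Finset.mem_filter]
          refine ⟨Finset.mem_univ _, ?_⟩
          rw [hp, hc]
          exact hq₀'
        · have := hrow2 p hp
          omega
      have h1 : r p₂ + ∑ p ∈ Finset.univ.erase p₂, r p = ∑ p, r p :=
        Finset.add_sum_erase _ _ (Finset.mem_univ _)
      have h2 : ∑ _p ∈ Finset.univ.erase p₂, 1 ≤ ∑ p ∈ Finset.univ.erase p₂, r p :=
        Finset.sum_le_sum fun p _ => hrow1 p
      rw [Finset.sum_const, Finset.card_erase_of_mem (Finset.mem_univ _), Finset.card_univ,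
        smul_eq_mul, mul_one] at h2
      have h3 := hrow2 p₂ hp₂
      have h4 : 0 < Fintype.card P := Fintype.card_pos_iff.mpr ⟨p₁⟩
      omega
    right; left
    refine ⟨q₀, c + y q₀, fun p q => ?_⟩
    by_cases hq : q = q₀
    · rw [if_pos hq, hq, hx p]
    · rw [if_neg hq, hx p, hy q hq]
      ring

/-- the cardinalities of the dual groups -/
theorem card_facts {G : Type*} [Group G] [Finite G] (W₁ W₂ : Subgroup G) (hint : W₁ ⊓ W₂ = ⊥)
    (hc : ∀ a b : ↥(W₁ ⊔ W₂), a * b = b * a) :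
    Nat.card W₁ * Nat.card W₂ = Nat.card ↥(W₁ ⊔ W₂) ∧
    Nat.card {φ : ↥(W₁ ⊔ W₂) →* ℂˣ // ∀ w : ↥(W₁ ⊔ W₂), (w : G) ∈ W₂ → φ w = 1} = Nat.card W₁ ∧
    Nat.card {ψ : ↥(W₁ ⊔ W₂) →* ℂˣ // ∀ w : ↥(W₁ ⊔ W₂), (w : G) ∈ W₁ → ψ w = 1} = Nat.card W₂ ∧
    Nat.card (↥(W₁ ⊔ W₂) →* ℂˣ) = Nat.card ↥(W₁ ⊔ W₂) := by
  let _ : CommGroup ↥(W₁ ⊔ W₂) := { (inferInstance : Group ↥(W₁ ⊔ W₂)) with mul_comm := hc }
  have hN₁ : Nat.card (W₁.subgroupOf (W₁ ⊔ W₂)) = Nat.card W₁ :=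
    Nat.card_congr (Subgroup.subgroupOfEquivOfLe le_sup_left).toEquiv
  have hN₂ : Nat.card (W₂.subgroupOf (W₁ ⊔ W₂)) = Nat.card W₂ :=
    Nat.card_congr (Subgroup.subgroupOfEquivOfLe le_sup_right).toEquiv
  have hdisj : Disjoint (W₁.subgroupOf (W₁ ⊔ W₂)) (W₂.subgroupOf (W₁ ⊔ W₂)) := by
    rw [Subgroup.disjoint_def]
    intro x h1 h2
    have : (x : G) ∈ W₁ ⊓ W₂ := ⟨h1, h2⟩
    rw [hint, Subgroup.mem_bot] at this
    exact Subtype.ext this
  have hcod := Subgroup.codisjoint_subgroupOf_sup W₁ W₂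
  have hmul : ((W₁.subgroupOf (W₁ ⊔ W₂) : Subgroup ↥(W₁ ⊔ W₂)) : Set ↥(W₁ ⊔ W₂)) *
      ((W₂.subgroupOf (W₁ ⊔ W₂) : Subgroup ↥(W₁ ⊔ W₂)) : Set ↥(W₁ ⊔ W₂)) = Set.univ := by
    rw [← Subgroup.mul_normal, codisjoint_iff.mp hcod, Subgroup.coe_top]
  have hcompl := Subgroup.isComplement'_of_disjoint_and_mul_eq_univ hdisj hmul
  have hprod := hcompl.card_mul_card
  rw [hN₁, hN₂] at hprod
  have hpos₁ : 0 < Nat.card W₁ := Nat.card_pos
  have hpos₂ : 0 < Nat.card W₂ := Nat.card_pos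
  have hΦ : Nat.card {φ : ↥(W₁ ⊔ W₂) →* ℂˣ // ∀ w : ↥(W₁ ⊔ W₂), (w : G) ∈ W₂ → φ w = 1} *
      Nat.card W₂ = Nat.card ↥(W₁ ⊔ W₂) := by
    have h1 := CommGroup.card_domRestrictHom_ker ℂ (W₂.subgroupOf (W₁ ⊔ W₂))
    have h2 := Subgroup.card_eq_card_quotient_mul_card_subgroup (W₂.subgroupOf (W₁ ⊔ W₂))
    rw [← h1, hN₂] at h2
    rw [h2]
    congr 1
    apply Nat.card_congr
    exact Equiv.subtypeEquivRight (fun φ => by
      rw [MonoidHom.mem_ker, MonoidHom.domRestrictHom_apply, MonoidHom.domRestrict_eq_one_iff]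
      exact Iff.rfl)
  have hΨ : Nat.card {ψ : ↥(W₁ ⊔ W₂) →* ℂˣ // ∀ w : ↥(W₁ ⊔ W₂), (w : G) ∈ W₁ → ψ w = 1} *
      Nat.card W₁ = Nat.card ↥(W₁ ⊔ W₂) := by
    have h1 := CommGroup.card_domRestrictHom_ker ℂ (W₁.subgroupOf (W₁ ⊔ W₂))
    have h2 := Subgroup.card_eq_card_quotient_mul_card_subgroup (W₁.subgroupOf (W₁ ⊔ W₂))
    rw [← h1, hN₁] at h2
    rw [h2]
    congr 1
    apply Nat.card_congr
    exact Equiv.subtypeEquivRight (fun φ => by
      rw [MonoidHom.mem_ker, MonoidHom.domRestrictHom_apply, MonoidHom.domRestrict_eq_one_iff]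
      exact Iff.rfl)
  refine ⟨hprod, ?_, ?_, CommGroup.card_monoidHom_of_hasEnoughRootsOfUnity _ ℂ⟩
  · rw [← hprod] at hΦ
    exact Nat.eq_of_mul_eq_mul_right hpos₂ hΦ
  · rw [← hprod, mul_comm (Nat.card W₁)] at hΨ
    exact Nat.eq_of_mul_eq_mul_right hpos₁ hΨ

theorem hom_eq_of_mul_inv {A : Type*} [Group A] (f g : A →* ℂˣ) (h : f * g⁻¹ = 1) : f = g := by
  ext w
  have h3 := congrArg (fun f : A →* ℂˣ => f w) h
  simp only [MonoidHom.mul_apply, MonoidHom.inv_apply, MonoidHom.one_apply] at h3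
  rw [mul_inv_eq_one.mp h3]

open Classical in
/-- Let W₁, W₂ ≤ G form a self-normalising cyclic subgroup W = W₁ ⊔ W₂ of odd order with Nat.card W₁ < Nat.card W₂, and χ an orthonormal family of irreducible characters of G up to sign, indexed by the linear characters ω of W, with χ_1 = 1, χ_ω = ω on W outside W₁ ∪ W₂, and the induction identity for (1 − φ)(1 − ψ). Let θ be a class function of G vanishing on W outside W₁ ∪ W₂, and suppose fewer than 2 · Nat.card W₁ linear characters ω of W have ⟨θ, χ ω⟩ ≠ 0. Then one of: all ⟨θ, χ ω⟩ vanish; or there are ψ₀ and a with ⟨θ, χ ω⟩ = a when ω ψ₀⁻¹ is trivial on W₂ and 0 otherwise; or there are φ₀ and a with ⟨θ, χ ω⟩ = a when ω φ₀⁻¹ is trivial on W₁ and 0 otherwise. -/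
theorem result {G : Type*} [Group G] [Fintype G] (W₁ W₂ : Subgroup G) (hW : Cfsg.IsSelfNormalizingCyclic W₁ W₂) (hodd : Odd (Nat.card ↥(W₁ ⊔ W₂))) (χ : (↥(W₁ ⊔ W₂) →* ℂˣ) → (G → ℂ)) (hχ : Cfsg.IsCyclicTIFamily W₁ W₂ χ) (hlt : Nat.card W₁ < Nat.card W₂) (θ : G → ℂ) (hθ : Cfsg.IsClassFunction G θ) (hθV : ∀ w : ↥(W₁ ⊔ W₂), (w : G) ∉ W₁ → (w : G) ∉ W₂ → θ w = 0) (hfew : Nat.card {ω : ↥(W₁ ⊔ W₂) →* ℂˣ // Cfsg.classInner θ (χ ω) ≠ 0} < 2 * Nat.card W₁) : (∀ ω, Cfsg.classInner θ (χ ω) = 0) ∨ (∃ (ψ₀ : ↥(W₁ ⊔ W₂) →* ℂˣ) (a : ℂ), ∀ ω, Cfsg.classInner θ (χ ω) = if (∀ w : ↥(W₁ ⊔ W₂), (w : G) ∈ W₂ → (ω * ψ₀⁻¹) w = 1) then a else 0) ∨ (∃ (φ₀ : ↥(W₁ ⊔ W₂) →* ℂˣ) (a : ℂ), ∀ ω, Cfsg.classInner θ (χ ω) = if (∀ w : ↥(W₁ ⊔ W₂), (w : G) ∈ W₁ → (ω * φ₀⁻¹) w = 1) then a else 0) := by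
  obtain ⟨hW₁, hW₂, hint, hcomm, hcyc, hnorm⟩ := id hW
  have hc : ∀ a b : ↥(W₁ ⊔ W₂), a * b = b * a := by
    let _ := IsCyclic.commGroup (α := ↥(W₁ ⊔ W₂))
    intro a b
    exact mul_comm a b
  obtain ⟨hprod, hcΦ, hcΨ, hcW⟩ := card_facts W₁ W₂ hint hc
  let _ : Fintype {φ : ↥(W₁ ⊔ W₂) →* ℂˣ // ∀ w : ↥(W₁ ⊔ W₂), (w : G) ∈ W₂ → φ w = 1} :=
    Fintype.ofFinite _
  let _ : Fintype {ψ : ↥(W₁ ⊔ W₂) →* ℂˣ // ∀ w : ↥(W₁ ⊔ W₂), (w : G) ∈ W₁ → ψ w = 1} :=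
    Fintype.ofFinite _
  obtain ⟨x, hx⟩ : ∃ x : {φ : ↥(W₁ ⊔ W₂) →* ℂˣ // ∀ w : ↥(W₁ ⊔ W₂), (w : G) ∈ W₂ → φ w = 1} → ℂ,
      x = fun p => classInner θ (χ p.1) := ⟨_, rfl⟩
  obtain ⟨y, hy⟩ : ∃ y : {ψ : ↥(W₁ ⊔ W₂) →* ℂˣ // ∀ w : ↥(W₁ ⊔ W₂), (w : G) ∈ W₁ → ψ w = 1} → ℂ,
      y = fun q => classInner θ (χ q.1) - classInner θ (χ 1) := ⟨_, rfl⟩
  have hkey : ∀ (p : {φ : ↥(W₁ ⊔ W₂) →* ℂˣ // ∀ w : ↥(W₁ ⊔ W₂), (w : G) ∈ W₂ → φ w = 1})
      (q : {ψ : ↥(W₁ ⊔ W₂) →* ℂˣ // ∀ w : ↥(W₁ ⊔ W₂), (w : G) ∈ W₁ → ψ w = 1}),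
      classInner θ (χ (p.1 * q.1)) = x p + y q := by
    intro p q
    rw [S1506.key W₁ W₂ χ hχ θ hθ hθV p.1 q.1 p.2 q.2, hx, hy]
    ring
  have hinj : Function.Injective
      (fun pq : {φ : ↥(W₁ ⊔ W₂) →* ℂˣ // ∀ w : ↥(W₁ ⊔ W₂), (w : G) ∈ W₂ → φ w = 1} ×
        {ψ : ↥(W₁ ⊔ W₂) →* ℂˣ // ∀ w : ↥(W₁ ⊔ W₂), (w : G) ∈ W₁ → ψ w = 1} =>
        pq.1.1 * pq.2.1) := by
    rintro ⟨p, q⟩ ⟨p', q'⟩ h
    obtain ⟨h1, h2⟩ := S1505.uniq W₁ W₂ p.1 p'.1 q.1 q'.1 p.2 p'.2 q.2 q'.2 h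
    exact Prod.ext (Subtype.ext h1) (Subtype.ext h2)
  have hbij : Function.Bijective
      (fun pq : {φ : ↥(W₁ ⊔ W₂) →* ℂˣ // ∀ w : ↥(W₁ ⊔ W₂), (w : G) ∈ W₂ → φ w = 1} ×
        {ψ : ↥(W₁ ⊔ W₂) →* ℂˣ // ∀ w : ↥(W₁ ⊔ W₂), (w : G) ∈ W₁ → ψ w = 1} =>
        pq.1.1 * pq.2.1) := by
    rw [Nat.bijective_iff_injective_and_card]
    refine ⟨hinj, ?_⟩
    rw [Nat.card_prod, hcΦ, hcΨ, hprod, hcW]
  have hodd2 : Nat.card W₁ + 2 ≤ Nat.card W₂ := by
    rw [← hprod] at hodd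
    obtain ⟨h1, h2⟩ := Nat.odd_mul.mp hodd
    obtain ⟨k, hk⟩ := h1
    obtain ⟨l, hl⟩ := h2
    omega
  have hcomb := comb x y (by
      rw [← Nat.card_eq_fintype_card, ← Nat.card_eq_fintype_card, hcΦ, hcΨ]; exact hodd2) (by
    rw [← Nat.card_eq_fintype_card, hcΦ]
    refine lt_of_le_of_lt ?_ hfew
    rw [← Fintype.card_subtype, ← Nat.card_eq_fintype_card]
    exact Nat.card_le_card_of_injective
      (fun pq : {pq : {φ : ↥(W₁ ⊔ W₂) →* ℂˣ // ∀ w : ↥(W₁ ⊔ W₂), (w : G) ∈ W₂ → φ w = 1} ×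
        {ψ : ↥(W₁ ⊔ W₂) →* ℂˣ // ∀ w : ↥(W₁ ⊔ W₂), (w : G) ∈ W₁ → ψ w = 1} //
          x pq.1 + y pq.2 ≠ 0} =>
        (⟨pq.1.1.1 * pq.1.2.1, by rw [hkey]; exact pq.2⟩ :
          {ω : ↥(W₁ ⊔ W₂) →* ℂˣ // Cfsg.classInner θ (χ ω) ≠ 0})) (by
        intro a b hab
        have := congrArg Subtype.val hab
        exact Subtype.ext (hinj this)))
  rcases hcomb with h | ⟨q₀, a, h⟩ | ⟨p₀, a, h⟩
  · left
    intro ω
    obtain ⟨⟨p, q⟩, rfl⟩ := hbij.2 ω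
    show classInner θ (χ (p.1 * q.1)) = 0
    rw [hkey]
    exact h p q
  · right; left
    refine ⟨q₀.1, a, fun ω => ?_⟩
    obtain ⟨⟨p, q⟩, rfl⟩ := hbij.2 ω
    show classInner θ (χ (p.1 * q.1)) = _
    rw [hkey, h p q]
    by_cases hq : q = q₀
    · rw [if_pos hq, if_pos]
      intro w hw
      rw [hq]
      simp [p.2 w hw]
    · rw [if_neg hq, if_neg]
      intro hall
      apply hq
      apply Subtype.ext
      apply hom_eq_of_mul_inv
      apply S1505.triv_of_triv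
      · intro w hw
        rw [MonoidHom.mul_apply, MonoidHom.inv_apply, q.2 w hw, q₀.2 w hw, inv_one, one_mul]
      · intro w hw
        have h1 := hall w hw
        simp only [MonoidHom.mul_apply, MonoidHom.inv_apply, p.2 w hw, one_mul] at h1
        rw [MonoidHom.mul_apply, MonoidHom.inv_apply]
        exact h1
  · right; right
    refine ⟨p₀.1, a, fun ω => ?_⟩
    obtain ⟨⟨p, q⟩, rfl⟩ := hbij.2 ω
    show classInner θ (χ (p.1 * q.1)) = _
    rw [hkey, h p q]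
    by_cases hp : p = p₀
    · rw [if_pos hp, if_pos]
      intro w hw
      rw [hp]
      simp [q.2 w hw]
    · rw [if_neg hp, if_neg]
      intro hall
      apply hp
      apply Subtype.ext
      apply hom_eq_of_mul_inv
      apply S1505.triv_of_triv
      · intro w hw
        have h1 := hall w hw
        simp only [MonoidHom.mul_apply, MonoidHom.inv_apply, q.2 w hw, mul_one] at h1
        rw [MonoidHom.mul_apply, MonoidHom.inv_apply]
        exact h1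
      · intro w hw
        rw [MonoidHom.mul_apply, MonoidHom.inv_apply, p.2 w hw, p₀.2 w hw, inv_one, one_mul]

end Cfsg.Agent.S1507
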