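import Cfsg.Statements.S1508
import Cfsg.Agent.S1493
import Cfsg.Agent.S1507

set_option autoImplicit false
open Cfsg

namespace Cfsg.Agent.S1508

open Cfsg.Agent.Lib
open scoped ComplexConjugate

/-- an irreducible character up to sign -/
def SIrr (G : Type*) [Group G] (A : G → ℂ) : Prop := IsIrrCharacter G A ∨ IsIrrCharacter G (-A)

theorem signed_inner {G : Type*} [Group G] [Fintype G] {A B : G → ℂ} (hA : SIrr G A)
    (hB : SIrr G B) :
    (classInner A B = 1 ∧ A = B) ∨ (classInner A B = -1 ∧ A = -B) ∨ classInner A B = 0 := by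
  rcases hA with hA | hA <;> rcases hB with hB | hB
  · rw [Helper35.classInner_irr' hA hB]
    by_cases h : A = B
    · left; exact ⟨by rw [if_pos h], h⟩
    · right; right; rw [if_neg h]
  · have h1 : classInner A B = -classInner A (-B) := by
      rw [Helper35.classInner_neg_right, neg_neg]
    rw [h1, Helper35.classInner_irr' hA hB]
    by_cases h : A = -B
    · right; left; exact ⟨by rw [if_pos h], h⟩
    · right; right; rw [if_neg h, neg_zero]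
  · have h1 : classInner A B = -classInner (-A) B := by
      rw [Helper35.classInner_neg_left, neg_neg]
    rw [h1, Helper35.classInner_irr' hA hB]
    by_cases h : -A = B
    · right; left; exact ⟨by rw [if_pos h], by rw [← h, neg_neg]⟩
    · right; right; rw [if_neg h, neg_zero]
  · have h1 : classInner A B = classInner (-A) (-B) := by
      rw [Helper35.classInner_neg_left, Helper35.classInner_neg_right, neg_neg]
    rw [h1, Helper35.classInner_irr' hA hB]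
    by_cases h : -A = -B
    · left; exact ⟨by rw [if_pos h], neg_injective h⟩
    · right; right; rw [if_neg h]

/-- a signed irreducible has nonzero inner product with at most one member of an orthonormal
family of signed irreducibles -/
theorem nz_unique {G : Type*} [Group G] [Fintype G] {I : Type*} (Y : I → G → ℂ)
    (hY : ∀ s, SIrr G (Y s))
    (hYo : ∀ s t, s ≠ t → classInner (Y s) (Y t) = 0) (A : G → ℂ) (hA : SIrr G A)
    (s t : I) (hs : classInner A (Y s) ≠ 0) (ht : classInner A (Y t) ≠ 0) : s = t := by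
  by_contra hne
  have h0 : classInner (Y s) (Y t) = 0 := hYo s t hne
  rcases signed_inner hA (hY s) with ⟨-, h⟩ | ⟨-, h⟩ | h
  · rw [h] at ht; exact ht h0
  · rw [h, Helper35.classInner_neg_left, h0, neg_zero] at ht; exact ht rfl
  · exact hs h

/-- the basic step: identify `X i` with `Y i` from two relations -/
theorem step {G : Type*} [Group G] [Fintype G] {I : Type*} (X Y : I → G → ℂ)
    (hX : ∀ s, SIrr G (X s)) (hY : ∀ s, SIrr G (Y s))
    (hXo1 : ∀ s, classInner (X s) (X s) = 1)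
    (hXo : ∀ s t, s ≠ t → classInner (X s) (X t) = 0)
    (hYo : ∀ s t, s ≠ t → classInner (Y s) (Y t) = 0)
    (i j₁ l₁ j₂ l₂ : I) (h1 : X i + X j₁ - X l₁ = Y i + Y j₁ - Y l₁)
    (h2 : X i + X j₂ - X l₂ = Y i + Y j₂ - Y l₂)
    (hij₁ : i ≠ j₁) (hil₁ : i ≠ l₁) (hij₂ : i ≠ j₂) (hil₂ : i ≠ l₂)
    (hjj : j₁ ≠ j₂) (hjl : j₁ ≠ l₂) (hlj : l₁ ≠ j₂) (hll : l₁ ≠ l₂) : X i = Y i := by
  have e1 : classInner (X i) (Y i) + classInner (X i) (Y j₁) - classInner (X i) (Y l₁) = 1 := by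
    rw [← Helper35.classInner_add_right, ← Helper35.classInner_sub_right, ← h1,
      Helper35.classInner_sub_right, Helper35.classInner_add_right, hXo1, hXo _ _ hij₁,
      hXo _ _ hil₁]
    ring
  have e2 : classInner (X i) (Y i) + classInner (X i) (Y j₂) - classInner (X i) (Y l₂) = 1 := by
    rw [← Helper35.classInner_add_right, ← Helper35.classInner_sub_right, ← h2,
      Helper35.classInner_sub_right, Helper35.classInner_add_right, hXo1, hXo _ _ hij₂,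
      hXo _ _ hil₂]
    ring
  have huniq := nz_unique Y hY hYo (X i) (hX i)
  by_cases ha : classInner (X i) (Y i) = 0
  · exfalso
    rw [ha, zero_add] at e1 e2
    have hs1 : classInner (X i) (Y j₁) ≠ 0 ∨ classInner (X i) (Y l₁) ≠ 0 := by
      by_contra hcon
      push Not at hcon
      rw [hcon.1, hcon.2] at e1
      norm_num at e1
    have hs2 : classInner (X i) (Y j₂) ≠ 0 ∨ classInner (X i) (Y l₂) ≠ 0 := by
      by_contra hcon
      push Not at hcon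
      rw [hcon.1, hcon.2] at e2
      norm_num at e2
    rcases hs1 with hs1 | hs1 <;> rcases hs2 with hs2 | hs2
    · exact hjj (huniq _ _ hs1 hs2)
    · exact hjl (huniq _ _ hs1 hs2)
    · exact hlj (huniq _ _ hs1 hs2)
    · exact hll (huniq _ _ hs1 hs2)
  · have hb : classInner (X i) (Y j₁) = 0 := by
      by_contra hb
      exact hij₁ (huniq _ _ ha hb)
    have hc : classInner (X i) (Y l₁) = 0 := by
      by_contra hc
      exact hil₁ (huniq _ _ ha hc)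
    rw [hb, hc] at e1
    have ha1 : classInner (X i) (Y i) = 1 := by linear_combination e1
    rcases signed_inner (hX i) (hY i) with ⟨-, h⟩ | ⟨h, -⟩ | h
    · exact h
    · rw [ha1] at h; norm_num at h
    · exact absurd h ha

theorem pw_inner2 {G : Type*} [Group G] [Fintype G] (k : ℕ) (hk : (Nat.card G).Coprime k)
    (f g : G → ℂ) : classInner (S1493.pw k f) (S1493.pw k g) = classInner f g := by
  unfold classInner S1493.pw
  congr 1
  exact Equiv.sum_comp (powCoprime hk) (fun x => f x * conj (g x))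

theorem pw_neg {G : Type*} [Group G] (k : ℕ) (f : G → ℂ) :
    S1493.pw k (-f) = -S1493.pw k f := rfl

theorem sirr_pw {G : Type*} [Group G] [Fintype G] (k : ℕ) (hk : (Nat.card G).Coprime k)
    {A : G → ℂ} (hA : SIrr G A) : SIrr G (S1493.pw k A) := by
  rcases hA with hA | hA
  · exact Or.inl (S1493.pw_irr k hk A hA)
  · right
    rw [← pw_neg]
    exact S1493.pw_irr k hk _ hA

theorem exists_two {α : Type*} [Finite α] (a₀ : α) (h : 3 ≤ Nat.card α) :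
    ∃ a b : α, a ≠ a₀ ∧ b ≠ a₀ ∧ a ≠ b := by
  classical
  let _ : Fintype α := Fintype.ofFinite α
  rw [Nat.card_eq_fintype_card] at h
  obtain ⟨a, b, c, hab, hac, hbc⟩ := Fintype.two_lt_card_iff.mp h
  by_cases ha : a = a₀
  · exact ⟨b, c, fun hb => hab (ha.trans hb.symm), fun hc => hac (ha.trans hc.symm), hbc⟩
  · by_cases hb : b = a₀
    · exact ⟨a, c, ha, fun hc => hbc (hb.trans hc.symm), hac⟩
    · exact ⟨a, b, ha, hb, hab⟩

/-- Galois equivariance of a cyclic TI family -/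
theorem galois_equiv {G : Type*} [Group G] [Fintype G] (W₁ W₂ : Subgroup G)
    (hW : Cfsg.IsSelfNormalizingCyclic W₁ W₂) (hodd : Odd (Nat.card ↥(W₁ ⊔ W₂)))
    (χ : (↥(W₁ ⊔ W₂) →* ℂˣ) → (G → ℂ)) (hχ : Cfsg.IsCyclicTIFamily W₁ W₂ χ) (k : ℕ)
    (hk : (Nat.card G).Coprime k) (ω : ↥(W₁ ⊔ W₂) →* ℂˣ) :
    S1493.pw k (χ ω) = χ (ω ^ k) := by
  classical
  obtain ⟨hW₁, hW₂, hint, hcomm, hcyc, hnorm⟩ := id hW
  have hc : ∀ a b : ↥(W₁ ⊔ W₂), a * b = b * a := by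
    let _ := IsCyclic.commGroup (α := ↥(W₁ ⊔ W₂))
    intro a b
    exact mul_comm a b
  obtain ⟨hprod, hcΦ, hcΨ, hcW⟩ := S1507.card_facts W₁ W₂ hint hc
  -- the two families
  obtain ⟨X, hXdef⟩ : ∃ X : (↥(W₁ ⊔ W₂) →* ℂˣ) → (G → ℂ), X = fun ω => S1493.pw k (χ ω) :=
    ⟨_, rfl⟩
  obtain ⟨Y, hYdef⟩ : ∃ Y : (↥(W₁ ⊔ W₂) →* ℂˣ) → (G → ℂ), Y = fun ω => χ (ω ^ k) := ⟨_, rfl⟩
  have hkW : (Nat.card (↥(W₁ ⊔ W₂) →* ℂˣ)).Coprime k := by
    rw [hcW]
    exact Nat.Coprime.coprime_dvd_left (Subgroup.card_subgroup_dvd_card _) hk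
  have hpinj : ∀ ω ω' : ↥(W₁ ⊔ W₂) →* ℂˣ, ω ^ k = ω' ^ k → ω = ω' :=
    fun ω ω' h => (powCoprime hkW).injective h
  have hX : ∀ s, SIrr G (X s) := by
    intro s
    rw [hXdef]
    exact sirr_pw k hk (hχ.irr_or_neg s)
  have hY : ∀ s, SIrr G (Y s) := by
    intro s
    rw [hYdef]
    exact hχ.irr_or_neg _
  have hXo1 : ∀ s, classInner (X s) (X s) = 1 := by
    intro s
    rw [hXdef]
    beta_reduce
    rw [pw_inner2 k hk, hχ.orthonormal]
    simp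
  have hXo : ∀ s t, s ≠ t → classInner (X s) (X t) = 0 := by
    intro s t hst
    rw [hXdef]
    beta_reduce
    rw [pw_inner2 k hk, hχ.orthonormal]
    simp [hst]
  have hYo : ∀ s t, s ≠ t → classInner (Y s) (Y t) = 0 := by
    intro s t hst
    rw [hYdef]
    beta_reduce
    rw [hχ.orthonormal]
    have hne' : s ^ k ≠ t ^ k := fun h' => hst (hpinj s t h')
    simp [hne']
  have hmul1 : ∀ φ : ↥(W₁ ⊔ W₂) →* ℂˣ, φ * 1 = φ := fun φ => MonoidHom.ext fun w => by simp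
  have h1mul : ∀ φ : ↥(W₁ ⊔ W₂) →* ℂˣ, 1 * φ = φ := fun φ => MonoidHom.ext fun w => by simp
  have h1pow : (1 : ↥(W₁ ⊔ W₂) →* ℂˣ) ^ k = 1 := MonoidHom.ext fun w => by simp
  -- the relation
  have hrel : ∀ φ ψ : ↥(W₁ ⊔ W₂) →* ℂˣ, φ ≠ 1 → ψ ≠ 1 →
      (∀ w : ↥(W₁ ⊔ W₂), (w : G) ∈ W₂ → φ w = 1) →
      (∀ w : ↥(W₁ ⊔ W₂), (w : G) ∈ W₁ → ψ w = 1) →
      X φ + X ψ - X (φ * ψ) = Y φ + Y ψ - Y (φ * ψ) := by
    intro φ ψ hφ hψ hφ₂ hψ₁
    have h1 := hχ.induced_eq φ ψ hφ hψ hφ₂ hψ₁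
    have hφk : φ ^ k ≠ 1 := fun h => hφ (hpinj φ 1 (h.trans h1pow.symm))
    have hψk : ψ ^ k ≠ 1 := fun h => hψ (hpinj ψ 1 (h.trans h1pow.symm))
    have hmp : (φ * ψ) ^ k = φ ^ k * ψ ^ k := MonoidHom.ext fun w => by simp [mul_pow]
    have h2 := hχ.induced_eq (φ ^ k) (ψ ^ k) hφk hψk
      (fun w hw => by simp [hφ₂ w hw])
      (fun w hw => by simp [hψ₁ w hw])
    have h3 := congrArg (S1493.pw k) h1
    rw [S1493.pw_indFun k hk] at h3
    have h4 : S1493.pw k (fun w : ↥(W₁ ⊔ W₂) =>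
        1 - (φ w : ℂ) - (ψ w : ℂ) + (φ w : ℂ) * (ψ w : ℂ)) =
        fun w : ↥(W₁ ⊔ W₂) => 1 - ((φ ^ k) w : ℂ) - ((ψ ^ k) w : ℂ) +
          ((φ ^ k) w : ℂ) * ((ψ ^ k) w : ℂ) := by
      funext w
      simp [S1493.pw, map_pow]
    rw [h4, h2] at h3
    rw [hXdef, hYdef]
    beta_reduce
    rw [hmp]
    funext g
    have h5 := congrFun h3 g
    simp only [S1493.pw] at h5
    simp only [Pi.add_apply, Pi.sub_apply, S1493.pw]
    linear_combination h5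
  -- trivial-on-factor characters
  have h1W₁ : ∀ w : ↥(W₁ ⊔ W₂), (w : G) ∈ W₁ → (1 : ↥(W₁ ⊔ W₂) →* ℂˣ) w = 1 := fun _ _ => rfl
  have h1W₂ : ∀ w : ↥(W₁ ⊔ W₂), (w : G) ∈ W₂ → (1 : ↥(W₁ ⊔ W₂) →* ℂˣ) w = 1 := fun _ _ => rfl
  have hne : ∀ φ ψ : ↥(W₁ ⊔ W₂) →* ℂˣ,
      (∀ w : ↥(W₁ ⊔ W₂), (w : G) ∈ W₂ → φ w = 1) →
      (∀ w : ↥(W₁ ⊔ W₂), (w : G) ∈ W₁ → ψ w = 1) → φ = ψ → φ = 1 := by
    intro φ ψ hφ₂ hψ₁ h
    have h2 : φ * 1 = 1 * ψ := by rw [hmul1, h1mul, h]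
    exact (S1505.uniq W₁ W₂ φ 1 1 ψ hφ₂ h1W₂ h1W₁ hψ₁ h2).1
  -- sizes
  have hodd' := hodd
  rw [← hprod] at hodd'
  obtain ⟨ho1, ho2⟩ := Nat.odd_mul.mp hodd'
  have h3W₁ : 3 ≤ Nat.card W₁ := by
    have h1 : 1 < Nat.card W₁ := (Subgroup.one_lt_card_iff_ne_bot W₁).mpr hW₁
    obtain ⟨r, hr⟩ := ho1
    omega
  have h3W₂ : 3 ≤ Nat.card W₂ := by
    have h1 : 1 < Nat.card W₂ := (Subgroup.one_lt_card_iff_ne_bot W₂).mpr hW₂
    obtain ⟨r, hr⟩ := ho2
    omega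
  obtain ⟨p₁, p₂, hp₁, hp₂, hp₁₂⟩ := exists_two
    (⟨1, h1W₂⟩ : {φ : ↥(W₁ ⊔ W₂) →* ℂˣ // ∀ w : ↥(W₁ ⊔ W₂), (w : G) ∈ W₂ → φ w = 1})
    (by rw [hcΦ]; exact h3W₁)
  obtain ⟨q₁, q₂, hq₁, hq₂, hq₁₂⟩ := exists_two
    (⟨1, h1W₁⟩ : {ψ : ↥(W₁ ⊔ W₂) →* ℂˣ // ∀ w : ↥(W₁ ⊔ W₂), (w : G) ∈ W₁ → ψ w = 1})
    (by rw [hcΨ]; exact h3W₂)
  have hp₁' : p₁.1 ≠ 1 := fun h => hp₁ (Subtype.ext h)
  have hp₂' : p₂.1 ≠ 1 := fun h => hp₂ (Subtype.ext h)
  have hq₁' : q₁.1 ≠ 1 := fun h => hq₁ (Subtype.ext h)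
  have hq₂' : q₂.1 ≠ 1 := fun h => hq₂ (Subtype.ext h)
  have hp₁₂' : p₁.1 ≠ p₂.1 := fun h => hp₁₂ (Subtype.ext h)
  have hq₁₂' : q₁.1 ≠ q₂.1 := fun h => hq₁₂ (Subtype.ext h)
  -- `X φ = Y φ` for nontrivial `φ` trivial on `W₂`
  have hXφ : ∀ φ : ↥(W₁ ⊔ W₂) →* ℂˣ, φ ≠ 1 →
      (∀ w : ↥(W₁ ⊔ W₂), (w : G) ∈ W₂ → φ w = 1) → X φ = Y φ := by
    intro φ hφ hφ₂
    refine step X Y hX hY hXo1 hXo hYo φ q₁.1 (φ * q₁.1) q₂.1 (φ * q₂.1)
      (hrel φ q₁.1 hφ hq₁' hφ₂ q₁.2) (hrel φ q₂.1 hφ hq₂' hφ₂ q₂.2) ?_ ?_ ?_ ?_ hq₁₂' ?_ ?_ ?_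
    · exact fun h => hφ (hne φ q₁.1 hφ₂ q₁.2 h)
    · intro h
      have h2 : φ * 1 = φ * q₁.1 := by rw [hmul1]; exact h
      exact hq₁' (S1505.uniq W₁ W₂ φ φ 1 q₁.1 hφ₂ hφ₂ h1W₁ q₁.2 h2).2.symm
    · exact fun h => hφ (hne φ q₂.1 hφ₂ q₂.2 h)
    · intro h
      have h2 : φ * 1 = φ * q₂.1 := by rw [hmul1]; exact h
      exact hq₂' (S1505.uniq W₁ W₂ φ φ 1 q₂.1 hφ₂ hφ₂ h1W₁ q₂.2 h2).2.symm
    · intro h
      have h2 : 1 * q₁.1 = φ * q₂.1 := by rw [h1mul]; exact h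
      exact hφ (S1505.uniq W₁ W₂ 1 φ q₁.1 q₂.1 h1W₂ hφ₂ q₁.2 q₂.2 h2).1.symm
    · intro h
      have h2 : φ * q₁.1 = 1 * q₂.1 := by rw [h1mul]; exact h
      exact hφ (S1505.uniq W₁ W₂ φ 1 q₁.1 q₂.1 hφ₂ h1W₂ q₁.2 q₂.2 h2).1
    · intro h
      exact hq₁₂' (S1505.uniq W₁ W₂ φ φ q₁.1 q₂.1 hφ₂ hφ₂ q₁.2 q₂.2 h).2
  have hXψ : ∀ ψ : ↥(W₁ ⊔ W₂) →* ℂˣ, ψ ≠ 1 →
      (∀ w : ↥(W₁ ⊔ W₂), (w : G) ∈ W₁ → ψ w = 1) → X ψ = Y ψ := by
    intro ψ hψ hψ₁
    have hr1 := hrel p₁.1 ψ hp₁' hψ p₁.2 hψ₁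
    have hr2 := hrel p₂.1 ψ hp₂' hψ p₂.2 hψ₁
    refine step X Y hX hY hXo1 hXo hYo ψ p₁.1 (p₁.1 * ψ) p₂.1 (p₂.1 * ψ)
      (by rw [add_comm (X ψ), add_comm (Y ψ)]; exact hr1)
      (by rw [add_comm (X ψ), add_comm (Y ψ)]; exact hr2) ?_ ?_ ?_ ?_ hp₁₂' ?_ ?_ ?_
    · exact fun h => hp₁' (hne p₁.1 ψ p₁.2 hψ₁ h.symm)
    · intro h
      have h2 : 1 * ψ = p₁.1 * ψ := by rw [h1mul]; exact h
      exact hp₁' (S1505.uniq W₁ W₂ 1 p₁.1 ψ ψ h1W₂ p₁.2 hψ₁ hψ₁ h2).1.symm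
    · exact fun h => hp₂' (hne p₂.1 ψ p₂.2 hψ₁ h.symm)
    · intro h
      have h2 : 1 * ψ = p₂.1 * ψ := by rw [h1mul]; exact h
      exact hp₂' (S1505.uniq W₁ W₂ 1 p₂.1 ψ ψ h1W₂ p₂.2 hψ₁ hψ₁ h2).1.symm
    · intro h
      have h2 : p₁.1 * 1 = p₂.1 * ψ := by rw [hmul1]; exact h
      exact hψ (S1505.uniq W₁ W₂ p₁.1 p₂.1 1 ψ p₁.2 p₂.2 h1W₁ hψ₁ h2).2.symm
    · intro h
      have h2 : p₁.1 * ψ = p₂.1 * 1 := by rw [hmul1]; exact h
      exact hψ (S1505.uniq W₁ W₂ p₁.1 p₂.1 ψ 1 p₁.2 p₂.2 hψ₁ h1W₁ h2).2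
    · intro h
      exact hp₁₂' (S1505.uniq W₁ W₂ p₁.1 p₂.1 ψ ψ p₁.2 p₂.2 hψ₁ hψ₁ h).1
  -- the trivial character
  have hX1 : X 1 = Y 1 := by
    rw [hXdef, hYdef]
    beta_reduce
    rw [h1pow, hχ.map_one]
    rfl
  -- decomposition of `ω`
  have hinj : Function.Injective
      (fun pq : {φ : ↥(W₁ ⊔ W₂) →* ℂˣ // ∀ w : ↥(W₁ ⊔ W₂), (w : G) ∈ W₂ → φ w = 1} ×
        {ψ : ↥(W₁ ⊔ W₂) →* ℂˣ // ∀ w : ↥(W₁ ⊔ W₂), (w : G) ∈ W₁ → ψ w = 1} =>
        pq.1.1 * pq.2.1) := by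
    rintro ⟨p, q⟩ ⟨p', q'⟩ h
    obtain ⟨h1, h2⟩ := S1505.uniq W₁ W₂ p.1 p'.1 q.1 q'.1 p.2 p'.2 q.2 q'.2 h
    exact Prod.ext (Subtype.ext h1) (Subtype.ext h2)
  have hbij : Function.Bijective
      (fun pq : {φ : ↥(W₁ ⊔ W₂) →* ℂˣ // ∀ w : ↥(W₁ ⊔ W₂), (w : G) ∈ W₂ → φ w = 1} ×
        {ψ : ↥(W₁ ⊔ W₂) →* ℂˣ // ∀ w : ↥(W₁ ⊔ W₂), (w : G) ∈ W₁ → ψ w = 1} =>
        pq.1.1 * pq.2.1) := by
    rw [Nat.bijective_iff_injective_and_card]
    refine ⟨hinj, ?_⟩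
    rw [Nat.card_prod, hcΦ, hcΨ, hprod, hcW]
  obtain ⟨⟨p, q⟩, rfl⟩ := hbij.2 ω
  show S1493.pw k (χ (p.1 * q.1)) = χ ((p.1 * q.1) ^ k)
  have hgoal : X (p.1 * q.1) = Y (p.1 * q.1) := by
    by_cases hp : p.1 = 1
    · rw [hp, h1mul]
      by_cases hq : q.1 = 1
      · rw [hq]; exact hX1
      · exact hXψ q.1 hq q.2
    · by_cases hq : q.1 = 1
      · rw [hq, hmul1]
        exact hXφ p.1 hp p.2
      · have h1 := hrel p.1 q.1 hp hq p.2 q.2
        rw [hXφ p.1 hp p.2, hXψ q.1 hq q.2] at h1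
        have h2 : X (p.1 * q.1) = Y p.1 + Y q.1 - (Y p.1 + Y q.1 - X (p.1 * q.1)) := by abel
        rw [h2, h1]
        abel
  rw [hXdef, hYdef] at hgoal
  exact hgoal

/-- lifting a residue coprime to `d` to a residue coprime to a multiple of `d` -/
theorem exists_coprime_lift (N d j : ℕ) (hN : N ≠ 0) (hd : d ∣ N) (hj : Nat.Coprime j d) :
    ∃ k, Nat.Coprime k N ∧ k ≡ j [MOD d] := by
  have : NeZero N := ⟨hN⟩
  obtain ⟨u, hu⟩ := ZMod.unitsMap_surjective hd (ZMod.unitOfCoprime j hj)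
  refine ⟨(u : ZMod N).val, ZMod.val_coe_unit_coprime u, ?_⟩
  rw [← ZMod.natCast_eq_natCast_iff]
  have h1 := congrArg (fun v : (ZMod d)ˣ => (v : ZMod d)) hu
  simp only [ZMod.unitsMap_val, ZMod.coe_unitOfCoprime] at h1
  rw [← h1, ZMod.natCast_val]

/-- Let W₁, W₂ ≤ G form a self-normalising cyclic subgroup W = W₁ ⊔ W₂ of odd order and χ an orthonormal family of irreducible characters of G up to sign, indexed by the linear characters ω of W, with χ_1 = 1, χ_ω = ω on W outside W₁ ∪ W₂, and the induction identity for (1 − φ)(1 − ψ). Let ω be a linear character of W and g an element of G whose order is coprime to the order of ω. Then χ ω g is an integer. -/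
theorem result {G : Type*} [Group G] [Fintype G] (W₁ W₂ : Subgroup G) (hW : Cfsg.IsSelfNormalizingCyclic W₁ W₂) (hodd : Odd (Nat.card ↥(W₁ ⊔ W₂))) (χ : (↥(W₁ ⊔ W₂) →* ℂˣ) → (G → ℂ)) (hχ : Cfsg.IsCyclicTIFamily W₁ W₂ χ) (ω : ↥(W₁ ⊔ W₂) →* ℂˣ) (g : G) (hg : Nat.Coprime (orderOf g) (orderOf ω)) : ∃ n : ℤ, χ ω g = n := by
  classical
  obtain ⟨hW₁, hW₂, hint, hcomm, hcyc, hnorm⟩ := id hW
  have hc : ∀ a b : ↥(W₁ ⊔ W₂), a * b = b * a := by
    let _ := IsCyclic.commGroup (α := ↥(W₁ ⊔ W₂))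
    intro a b
    exact mul_comm a b
  obtain ⟨hprod, hcΦ, hcΨ, hcW⟩ := S1507.card_facts W₁ W₂ hint hc
  have hN : Nat.card G ≠ 0 := (Nat.card_pos (α := G)).ne'
  have hωN : orderOf ω ∣ Nat.card G := by
    have h1 : orderOf ω ∣ Nat.card (↥(W₁ ⊔ W₂) →* ℂˣ) := orderOf_dvd_natCard ω
    rw [hcW] at h1
    exact h1.trans (Subgroup.card_subgroup_dvd_card _)
  -- invariance under powers
  have hB : ∀ (y : G) (j : ℕ), Nat.Coprime (orderOf y) (orderOf ω) →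
      Nat.Coprime j (orderOf y) → χ ω (y ^ j) = χ ω y := by
    intro y j hy hj
    obtain ⟨j₀, hj₀a, hj₀b⟩ := Nat.chineseRemainder hy j 1
    have hcj₀ : Nat.Coprime j₀ (orderOf y * orderOf ω) := by
      apply Nat.Coprime.mul_right
      · have h1 := Nat.ModEq.gcd_eq hj₀a
        unfold Nat.Coprime
        rw [h1]
        exact hj
      · have h1 := Nat.ModEq.gcd_eq hj₀b
        unfold Nat.Coprime
        rw [h1]
        exact Nat.gcd_one_left _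
    obtain ⟨k, hkN, hk⟩ := exists_coprime_lift (Nat.card G) (orderOf y * orderOf ω) j₀ hN
      (Nat.Coprime.mul_dvd_of_dvd_of_dvd hy (orderOf_dvd_natCard y) hωN) hcj₀
    have hk1 : k ≡ j [MOD orderOf y] := (Nat.ModEq.of_mul_right _ hk).trans hj₀a
    have hk2 : k ≡ 1 [MOD orderOf ω] := (Nat.ModEq.of_mul_left _ hk).trans hj₀b
    have h1 : y ^ j = y ^ k := pow_eq_pow_iff_modEq.mpr hk1.symm
    have h2' : ω ^ k = ω ^ 1 := (pow_eq_pow_iff_modEq (x := ω)).mpr hk2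
    have h2 : ω ^ k = ω := by
      refine MonoidHom.ext fun w => ?_
      have h := DFunLike.congr_fun h2' w
      simpa using h
    have h3 : S1493.pw k (χ ω) y = χ (ω ^ k) y :=
      congrFun (galois_equiv W₁ W₂ hW hodd χ hχ k hkN.symm ω) y
    have h4 : S1493.pw k (χ ω) y = χ ω (y ^ k) := rfl
    rw [h1, ← h4, h3, h2]
  have hsirr : SIrr G (χ ω) := hχ.irr_or_neg ω
  have hgen : IsGeneralizedCharacter G (χ ω) := by
    rcases hsirr with h | h
    · exact Helper35.isGenChar_of_char (Helper35.isChar_of_irr h)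
    · have := Helper35.isGenChar_neg (Helper35.isGenChar_of_char (Helper35.isChar_of_irr h))
      rwa [neg_neg] at this
  have hint' : ∀ y : G, IsIntegral ℤ (χ ω y) := by
    intro y
    rcases hsirr with h | h
    · exact Helper4.irr_isIntegral ⟨_, h⟩ y
    · have h1 := Helper4.irr_isIntegral ⟨_, h⟩ y
      have h2 : χ ω y = -((-χ ω) y) := by simp
      rw [h2]
      exact h1.neg
  -- induction on the order
  have main : ∀ (d : ℕ) (y : G), orderOf y = d → Nat.Coprime d (orderOf ω) →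
      ∃ z : ℤ, χ ω y = z := by
    intro d
    induction d using Nat.strong_induction_on with
    | _ d ih =>
      intro y hyd hcop
      let _ : Fintype (Subgroup.zpowers y) := Fintype.ofFinite _
      have hdpos : 0 < d := hyd ▸ orderOf_pos y
      -- the sum over the cyclic group is an integer
      obtain ⟨A, hA⟩ : ∃ A : ℤ, ∑ z : Subgroup.zpowers y, χ ω z = A := by
        obtain ⟨a, ha⟩ := Helper35.classInner_gen_int
          (Helper35.isGenChar_res (Subgroup.zpowers y) hgen)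
          (Helper35.isGenChar_of_char (Helper35.isCharacter_one (G := Subgroup.zpowers y)))
        unfold classInner at ha
        refine ⟨Nat.card (Subgroup.zpowers y) * a, ?_⟩
        have hcard : (Nat.card (Subgroup.zpowers y) : ℂ) ≠ 0 := by
          exact_mod_cast (Nat.card_pos (α := Subgroup.zpowers y)).ne'
        have h1 : ∑ z : Subgroup.zpowers y, χ ω z =
            ∑ z : Subgroup.zpowers y, Helper35.res (Subgroup.zpowers y) (χ ω) z *
              conj ((1 : Subgroup.zpowers y → ℂ) z) := by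
          refine Finset.sum_congr rfl fun z _ => ?_
          simp
        rw [h1]
        push_cast
        rw [← ha]
        field_simp
      rw [← Finset.sum_filter_add_sum_filter_not Finset.univ
        (fun z : Subgroup.zpowers y => orderOf (z : G) = d)] at hA
      have h1 : ∀ z ∈ Finset.univ.filter (fun z : Subgroup.zpowers y => orderOf (z : G) = d),
          χ ω z = χ ω y := by
        intro z hz
        rw [Finset.mem_filter] at hz
        obtain ⟨j, hj⟩ := (mem_powers_iff_mem_zpowers.mpr z.2)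
        have hj' : y ^ j = (z : G) := hj
        have h2 : orderOf (y ^ j) = d := by rw [hj']; exact hz.2
        rw [orderOf_pow, hyd] at h2
        have h3 : Nat.gcd d j = 1 := by
          rcases Nat.div_eq_self.mp h2 with h | h
          · omega
          · exact h
        rw [← hj']
        exact hB y j (hyd ▸ hcop) (by rw [hyd]; exact (Nat.coprime_comm.mp h3))
      obtain ⟨B, hB'⟩ : ∃ B : ℤ, ∑ z ∈ Finset.univ.filter
          (fun z : Subgroup.zpowers y => ¬ orderOf (z : G) = d), χ ω z = B := by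
        apply Finset.sum_induction _ (fun v : ℂ => ∃ B : ℤ, v = B)
        · rintro a b ⟨a', rfl⟩ ⟨b', rfl⟩
          exact ⟨a' + b', by push_cast; rfl⟩
        · exact ⟨0, by simp⟩
        · intro z hz
          rw [Finset.mem_filter] at hz
          have h2 : orderOf (z : G) ∣ d := hyd ▸ orderOf_dvd_of_mem_zpowers z.2
          have h3 : orderOf (z : G) < d := lt_of_le_of_ne (Nat.le_of_dvd hdpos h2) hz.2
          exact ih _ h3 z rfl (Nat.Coprime.coprime_dvd_left h2 hcop)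
      rw [Finset.sum_congr rfl h1, Finset.sum_const, hB', nsmul_eq_mul] at hA
      have hcpos : 0 < (Finset.univ.filter
          (fun z : Subgroup.zpowers y => orderOf (z : G) = d)).card := by
        apply Finset.card_pos.mpr
        refine ⟨⟨y, Subgroup.mem_zpowers y⟩, ?_⟩
        rw [Finset.mem_filter]
        exact ⟨Finset.mem_univ _, hyd⟩
      obtain ⟨c, hcdef⟩ : ∃ c : ℕ, c = (Finset.univ.filter
          (fun z : Subgroup.zpowers y => orderOf (z : G) = d)).card := ⟨_, rfl⟩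
      rw [← hcdef] at hA hcpos
      have hc0 : (c : ℂ) ≠ 0 := by exact_mod_cast hcpos.ne'
      have hq : χ ω y = (((A - B : ℤ) : ℚ) / (c : ℚ) : ℚ) := by
        push_cast
        field_simp
        linear_combination hA
      have hq2 : IsIntegral ℤ (((A - B : ℤ) : ℚ) / (c : ℚ) : ℚ) := by
        have h5 := hint' y
        rw [hq] at h5
        exact (isIntegral_algebraMap_iff (A := ℚ) (B := ℂ) (R := ℤ)
          (algebraMap ℚ ℂ).injective).mp h5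
      obtain ⟨z, hz⟩ := IsIntegrallyClosed.isIntegral_iff.mp hq2
      refine ⟨z, ?_⟩
      rw [hq, ← hz]
      simp
  exact main (orderOf g) g rfl hg

end Cfsg.Agent.S1508
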