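import Cfsg.Statements.S1509
import Cfsg.Agent.Lib.Helper35.Ind

set_option autoImplicit false
open Cfsg

namespace Cfsg.Agent.S1509

open Cfsg.Agent.Lib.Helper35 Cfsg.Agent.Lib.Helper4
open scoped ComplexConjugate

theorem signed_form {X : Type*} [Group X] {α : X → ℂ}
    (hα : IsIrrCharacter X α ∨ IsIrrCharacter X (-α)) :
    ∃ (ε : ℂ) (χ : X → ℂ), (ε = 1 ∨ ε = -1) ∧ IsIrrCharacter X χ ∧ α = ε • χ := by
  rcases hα with h | h
  · exact ⟨1, α, Or.inl rfl, h, by simp⟩
  · exact ⟨-1, -α, Or.inr rfl, h, by simp⟩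

theorem signed_norm {X : Type*} [Group X] [Fintype X] {α : X → ℂ}
    (hα : IsIrrCharacter X α ∨ IsIrrCharacter X (-α)) : classInner α α = 1 := by
  obtain ⟨ε, χ, hε, hχ, rfl⟩ := signed_form hα
  rw [classInner_smul_left, classInner_smul_right, classInner_irr' hχ hχ, if_pos rfl]
  rcases hε with rfl | rfl <;> simp

theorem signed_one_ne_zero {X : Type*} [Group X] {α : X → ℂ}
    (hα : IsIrrCharacter X α ∨ IsIrrCharacter X (-α)) : α 1 ≠ 0 := by
  obtain ⟨ε, χ, hε, hχ, rfl⟩ := signed_form hα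
  have h1 := irr_one_ne_zero (⟨χ, hχ⟩ : IrrCharacter X)
  simp only [Pi.smul_apply, smul_eq_mul]
  rcases hε with rfl | rfl <;> simpa using h1

theorem signed_inner {X : Type*} [Group X] [Fintype X] {α γ : X → ℂ}
    (hα : IsIrrCharacter X α ∨ IsIrrCharacter X (-α))
    (hγ : IsIrrCharacter X γ ∨ IsIrrCharacter X (-γ)) (hne : classInner α γ ≠ 0) :
    ∃ ε : ℂ, ε ^ 2 = 1 ∧ conj ε = ε ∧ α = ε • γ ∧ γ = ε • α := by
  obtain ⟨ε₁, χ₁, hε₁, hχ₁, rfl⟩ := signed_form hα
  obtain ⟨ε₂, χ₂, hε₂, hχ₂, rfl⟩ := signed_form hγ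
  rw [classInner_smul_left, classInner_smul_right, classInner_irr' hχ₁ hχ₂] at hne
  have heq : χ₁ = χ₂ := by
    by_contra h
    simp [h] at hne
  subst heq
  refine ⟨ε₁ * ε₂, ?_, ?_, ?_, ?_⟩
  · rcases hε₁ with rfl | rfl <;> rcases hε₂ with rfl | rfl <;> norm_num
  · rcases hε₁ with rfl | rfl <;> rcases hε₂ with rfl | rfl <;> simp
  · rw [smul_smul]
    rcases hε₁ with rfl | rfl <;> rcases hε₂ with rfl | rfl <;> norm_num
  · rw [smul_smul]
    rcases hε₁ with rfl | rfl <;> rcases hε₂ with rfl | rfl <;> norm_num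

theorem result {X : Type*} [Group X] [Fintype X] (α β γ δ : X → ℂ) (hα : Cfsg.IsIrrCharacter X α ∨ Cfsg.IsIrrCharacter X (-α)) (hβ : Cfsg.IsIrrCharacter X β ∨ Cfsg.IsIrrCharacter X (-β)) (hγ : Cfsg.IsIrrCharacter X γ ∨ Cfsg.IsIrrCharacter X (-γ)) (hδ : Cfsg.IsIrrCharacter X δ ∨ Cfsg.IsIrrCharacter X (-δ)) (u v : ℝ) (hu : u ≠ 0) (hv : v ≠ 0) (hab : Cfsg.classInner α β = 0) (hcd : Cfsg.classInner γ δ = 0) (hmix : Cfsg.classInner (α - β) ((u : ℂ) • γ - (v : ℂ) • δ) = 0) (h1 : α 1 = β 1) (h2 : (u : ℂ) * γ 1 = (v : ℂ) * δ 1) : Cfsg.classInner α γ = 0 ∧ Cfsg.classInner α δ = 0 ∧ Cfsg.classInner β γ = 0 ∧ Cfsg.classInner β δ = 0 := by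
  have hγ1 : γ 1 ≠ 0 := signed_one_ne_zero hγ
  have hδ1 : δ 1 ≠ 0 := signed_one_ne_zero hδ
  have huc : (u : ℂ) ≠ 0 := by exact_mod_cast hu
  have hvc : (v : ℂ) ≠ 0 := by exact_mod_cast hv
  have hmix' : (u : ℂ) * classInner α γ - v * classInner α δ - u * classInner β γ
      + v * classInner β δ = 0 := by
    have := hmix
    rw [classInner_sub_left, classInner_sub_right, classInner_sub_right, classInner_smul_right,
      classInner_smul_right, classInner_smul_right, classInner_smul_right] at this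
    simp only [Complex.conj_ofReal] at this
    linear_combination this
  have hp : classInner α γ = 0 := by
    by_contra hp
    obtain ⟨ε, hε2, hεc, hαγ, hγα⟩ := signed_inner hα hγ hp
    have hq : classInner α δ = 0 := by
      rw [hαγ, classInner_smul_left, hcd, mul_zero]
    have hr : classInner β γ = 0 := by
      rw [hγα, classInner_smul_right, classInner_conj_symm β α, hab]
      simp
    have hpv : classInner α γ = ε := by
      rw [hαγ, classInner_smul_left, signed_norm hγ, mul_one]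
    rw [hpv, hq, hr] at hmix'
    have hs : classInner β δ ≠ 0 := by
      intro hs
      rw [hs] at hmix'
      have h3 : (u : ℂ) * ε = 0 := by linear_combination hmix'
      rcases mul_eq_zero.mp h3 with h | h
      · exact huc h
      · rw [h] at hε2
        norm_num at hε2
    obtain ⟨ε₂, hε₂2, hε₂c, hβδ, hδβ⟩ := signed_inner hβ hδ hs
    have hsv : classInner β δ = ε₂ := by
      rw [hβδ, classInner_smul_left, signed_norm hδ, mul_one]
    rw [hsv] at hmix'
    have hdeg : ε * γ 1 = ε₂ * δ 1 := by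
      have e1 : α 1 = ε * γ 1 := by rw [hαγ]; rfl
      have e2 : β 1 = ε₂ * δ 1 := by rw [hβδ]; rfl
      rw [← e1, ← e2, h1]
    have hdiff : ((v : ℂ) * ε - u * ε₂) = 0 := by
      have h3 : ((v : ℂ) * ε - u * ε₂) * γ 1 = 0 := by
        linear_combination (v : ℂ) * hdeg - ε₂ * h2
      exact (mul_eq_zero.mp h3).resolve_right hγ1
    have h4 : (2 : ℂ) * u = 0 := by
      linear_combination ε * hmix' - ε₂ * hdiff - u * hε2 - u * hε₂2
    rcases mul_eq_zero.mp h4 with h | h
    · norm_num at h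
    · exact huc h
  have hq : classInner α δ = 0 := by
    by_contra hq
    obtain ⟨ε, hε2, hεc, hαδ, hδα⟩ := signed_inner hα hδ hq
    have hs : classInner β δ = 0 := by
      rw [hδα, classInner_smul_right, classInner_conj_symm β α, hab]
      simp
    have hqv : classInner α δ = ε := by
      rw [hαδ, classInner_smul_left, signed_norm hδ, mul_one]
    rw [hp, hqv, hs] at hmix'
    have hr : classInner β γ ≠ 0 := by
      intro hr
      rw [hr] at hmix'
      have h3 : (v : ℂ) * ε = 0 := by linear_combination -hmix'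
      rcases mul_eq_zero.mp h3 with h | h
      · exact hvc h
      · rw [h] at hε2
        norm_num at hε2
    obtain ⟨ε₂, hε₂2, hε₂c, hβγ, hγβ⟩ := signed_inner hβ hγ hr
    have hrv : classInner β γ = ε₂ := by
      rw [hβγ, classInner_smul_left, signed_norm hγ, mul_one]
    rw [hrv] at hmix'
    have hdeg : ε * δ 1 = ε₂ * γ 1 := by
      have e1 : α 1 = ε * δ 1 := by rw [hαδ]; rfl
      have e2 : β 1 = ε₂ * γ 1 := by rw [hβγ]; rfl
      rw [← e1, ← e2, h1]
    have hdiff : ((u : ℂ) * ε - v * ε₂) = 0 := by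
      have h3 : ((u : ℂ) * ε - v * ε₂) * δ 1 = 0 := by
        linear_combination (u : ℂ) * hdeg + ε₂ * h2
      exact (mul_eq_zero.mp h3).resolve_right hδ1
    have h4 : (2 : ℂ) * v = 0 := by
      linear_combination (-ε) * hmix' - ε₂ * hdiff - v * hε2 - v * hε₂2
    rcases mul_eq_zero.mp h4 with h | h
    · norm_num at h
    · exact hvc h
  rw [hp, hq] at hmix'
  have hr : classInner β γ = 0 := by
    by_contra hr
    obtain ⟨ε, hε2, hεc, hβγ, hγβ⟩ := signed_inner hβ hγ hr
    have hs : classInner β δ = 0 := by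
      rw [hβγ, classInner_smul_left, hcd, mul_zero]
    rw [hs] at hmix'
    have h3 : (u : ℂ) * classInner β γ = 0 := by linear_combination -hmix'
    rcases mul_eq_zero.mp h3 with h | h
    · exact huc h
    · exact hr h
  rw [hr] at hmix'
  have hs : classInner β δ = 0 := by
    have h3 : (v : ℂ) * classInner β δ = 0 := by linear_combination hmix'
    exact (mul_eq_zero.mp h3).resolve_left hvc
  exact ⟨hp, hq, hr, hs⟩

end Cfsg.Agent.S1509
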