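import Cfsg.Statements.S1510
import Mathlib

set_option autoImplicit false
open Cfsg

namespace Cfsg.Agent.S1510

open scoped Pointwise

theorem result {L : Type*} [Group L] [Fintype L] (K W₁ W₂ : Subgroup L) [hK : K.Normal] (hKW₁ : K ⊓ W₁ = ⊥) (hKW₁' : K ⊔ W₁ = ⊤) (hW₁ : W₁ ≠ ⊥) (hW₁c : IsCyclic W₁) (hHall : Nat.Coprime (Nat.card W₁) W₁.index) (hW₂ : W₂ ≠ ⊥) (hW₂c : IsCyclic W₂) (hW₂K : W₂ ≤ K) (hC : ∀ x ∈ W₁, x ≠ 1 → K ⊓ Subgroup.centralizer ({x} : Set L) = W₂) (hodd : Odd (Nat.card ↥(W₁ ⊔ W₂))) : Cfsg.IsSelfNormalizingCyclic W₁ W₂ := by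
  classical
  -- commuting
  have hcomm : ∀ a ∈ W₁, ∀ b ∈ W₂, a * b = b * a := by
    intro a ha b hb
    by_cases ha1 : a = 1
    · subst ha1; simp
    · have := hC a ha ha1
      have hb' : b ∈ K ⊓ Subgroup.centralizer ({a} : Set L) := by rw [this]; exact hb
      have := (Subgroup.mem_centralizer_iff.mp hb'.2) a (Set.mem_singleton a)
      exact this
  -- factorization
  have hmul : (K : Set L) * (W₁ : Set L) = Set.univ := by
    rw [← Subgroup.normal_mul K W₁, hKW₁']; rfl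
  have hcompl : Subgroup.IsComplement' K W₁ :=
    Subgroup.isComplement'_of_disjoint_and_mul_eq_univ (disjoint_iff.mpr hKW₁) hmul
  have hcardK : Nat.card K = W₁.index := hcompl.index_eq_card.symm
  have hcop : Nat.Coprime (Nat.card W₁) (Nat.card W₂) := by
    have hdvd : Nat.card W₂ ∣ Nat.card K := Subgroup.card_dvd_of_le hW₂K
    rw [hcardK] at hdvd
    exact Nat.Coprime.coprime_dvd_right hdvd hHall
  obtain ⟨m₁, hm₁a, hm₁b⟩ := Nat.chineseRemainder hcop 1 0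
  obtain ⟨m₂, hm₂a, hm₂b⟩ := Nat.chineseRemainder hcop 0 1
  have pow1 : ∀ x ∈ W₁, x ^ m₁ = x := by
    intro x hx
    have h1 : m₁ ≡ 1 [MOD orderOf x] := Nat.ModEq.of_dvd (Subgroup.orderOf_dvd_natCard W₁ hx) hm₁a
    have := pow_eq_pow_iff_modEq.mpr h1
    rw [this, pow_one]
  have pow1' : ∀ x ∈ W₂, x ^ m₁ = 1 := by
    intro x hx
    rw [← orderOf_dvd_iff_pow_eq_one]
    exact (Subgroup.orderOf_dvd_natCard W₂ hx).trans ((Nat.modEq_zero_iff_dvd).mp hm₁b)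
  have pow2 : ∀ x ∈ W₂, x ^ m₂ = x := by
    intro x hx
    have h1 : m₂ ≡ 1 [MOD orderOf x] := Nat.ModEq.of_dvd (Subgroup.orderOf_dvd_natCard W₂ hx) hm₂b
    have := pow_eq_pow_iff_modEq.mpr h1
    rw [this, pow_one]
  have pow2' : ∀ x ∈ W₁, x ^ m₂ = 1 := by
    intro x hx
    rw [← orderOf_dvd_iff_pow_eq_one]
    exact (Subgroup.orderOf_dvd_natCard W₁ hx).trans ((Nat.modEq_zero_iff_dvd).mp hm₂a)
  obtain ⟨⟨g₁, hg₁⟩, hgen₁⟩ := IsCyclic.exists_generator (α := W₁)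
  obtain ⟨⟨g₂, hg₂⟩, hgen₂⟩ := IsCyclic.exists_generator (α := W₂)
  have key1 : ∀ x ∈ W₁, ∃ n : ℤ, g₁ ^ n = x := by
    intro x hx
    obtain ⟨n, hn⟩ := Subgroup.mem_zpowers_iff.mp (hgen₁ ⟨x, hx⟩)
    exact ⟨n, by simpa using congrArg Subtype.val hn⟩
  have key2 : ∀ x ∈ W₂, ∃ n : ℤ, g₂ ^ n = x := by
    intro x hx
    obtain ⟨n, hn⟩ := Subgroup.mem_zpowers_iff.mp (hgen₂ ⟨x, hx⟩)
    exact ⟨n, by simpa using congrArg Subtype.val hn⟩
  have hc12 : Commute g₁ g₂ := hcomm g₁ hg₁ g₂ hg₂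
  have hg₁Z : g₁ ∈ Subgroup.zpowers (g₁ * g₂) := by
    refine Subgroup.mem_zpowers_iff.mpr ⟨(m₁ : ℤ), ?_⟩
    rw [zpow_natCast, hc12.mul_pow, pow1 g₁ hg₁, pow1' g₂ hg₂, mul_one]
  have hg₂Z : g₂ ∈ Subgroup.zpowers (g₁ * g₂) := by
    refine Subgroup.mem_zpowers_iff.mpr ⟨(m₂ : ℤ), ?_⟩
    rw [zpow_natCast, hc12.mul_pow, pow2 g₂ hg₂, pow2' g₁ hg₁, one_mul]
  have hW : W₁ ⊔ W₂ = Subgroup.zpowers (g₁ * g₂) := by
    apply le_antisymm
    · apply sup_le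
      · intro x hx
        obtain ⟨n, rfl⟩ := key1 x hx
        exact Subgroup.zpow_mem _ hg₁Z n
      · intro x hx
        obtain ⟨n, rfl⟩ := key2 x hx
        exact Subgroup.zpow_mem _ hg₂Z n
    · rw [Subgroup.zpowers_le]
      exact Subgroup.mul_mem _ (Subgroup.mem_sup_left hg₁) (Subgroup.mem_sup_right hg₂)
  have hdecomp : ∀ w ∈ W₁ ⊔ W₂, ∃ a ∈ W₁, ∃ b ∈ W₂, w = a * b := by
    intro w hw
    rw [hW] at hw
    obtain ⟨n, rfl⟩ := Subgroup.mem_zpowers_iff.mp hw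
    exact ⟨g₁ ^ n, Subgroup.zpow_mem _ hg₁ n, g₂ ^ n, Subgroup.zpow_mem _ hg₂ n, hc12.mul_zpow n⟩
  have hWcomm : ∀ u ∈ W₁ ⊔ W₂, ∀ v ∈ W₁ ⊔ W₂, u * v = v * u := by
    intro u hu v hv
    rw [hW] at hu hv
    obtain ⟨a, rfl⟩ := Subgroup.mem_zpowers_iff.mp hu
    obtain ⟨b, rfl⟩ := Subgroup.mem_zpowers_iff.mp hv
    rw [← zpow_add, ← zpow_add, add_comm]
  refine ⟨hW₁, hW₂, ?_, hcomm, ?_, ?_⟩
  · -- W₁ ⊓ W₂ = ⊥
    rw [eq_bot_iff, ← hKW₁]
    exact le_inf (inf_le_right.trans hW₂K) inf_le_left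
  · rw [hW]; infer_instance
  · intro X hX hXne
    apply le_antisymm
    · intro g hg
      rw [Subgroup.mem_set_normalizer_iff] at hg
      obtain ⟨w, hwX⟩ := hXne
      have hwW := (hX hwX).1
      have hwn := (hX hwX).2
      obtain ⟨w₁, hw₁, w₂, hw₂, rfl⟩ := hdecomp w hwW
      have hw₁ne : w₁ ≠ 1 := by
        rintro rfl
        apply hwn; right; simpa using hw₂
      have hgw := (hg (w₁ * w₂)).mp hwX
      have hgwW := (hX hgw).1
      obtain ⟨w₁', hw₁', w₂', hw₂', heq⟩ := hdecomp _ hgwW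
      -- g = k * y
      have hgmem : g ∈ (K : Set L) * (W₁ : Set L) := by rw [hmul]; trivial
      obtain ⟨k, hk, y, hy, rfl⟩ := Set.mem_mul.mp hgmem
      -- y commutes with w₁ * w₂
      have hyw : y * (w₁ * w₂) * y⁻¹ = w₁ * w₂ := by
        have := hWcomm y (Subgroup.mem_sup_left hy) (w₁ * w₂) hwW
        rw [this]; group
      have heq' : k * (w₁ * w₂) * k⁻¹ = w₁' * w₂' := by
        rw [← heq]
        calc k * (w₁ * w₂) * k⁻¹ = k * (y * (w₁ * w₂) * y⁻¹) * k⁻¹ := by rw [hyw]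
          _ = k * y * (w₁ * w₂) * (k * y)⁻¹ := by group
      -- w₁' = w₁
      have hw₁eq : w₁' = w₁ := by
        have hmemK : w₁⁻¹ * w₁' ∈ K := by
          have h1 : w₁⁻¹ * w₁' = (w₁⁻¹ * k * w₁⁻¹⁻¹) * (w₂ * k⁻¹ * w₂'⁻¹) := by
            have : w₁' = k * (w₁ * w₂) * k⁻¹ * w₂'⁻¹ := by rw [heq']; group
            rw [this]; group
          rw [h1]
          exact K.mul_mem (hK.conj_mem k hk w₁⁻¹)
            (K.mul_mem (K.mul_mem (hW₂K hw₂) (K.inv_mem hk)) (K.inv_mem (hW₂K hw₂')))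
        have hmemW : w₁⁻¹ * w₁' ∈ W₁ := W₁.mul_mem (W₁.inv_mem hw₁) hw₁'
        have : w₁⁻¹ * w₁' ∈ K ⊓ W₁ := ⟨hmemK, hmemW⟩
        rw [hKW₁, Subgroup.mem_bot] at this
        exact (inv_mul_eq_one.mp this).symm
      subst hw₁eq
      -- power
      have hpow : k * w₁' * k⁻¹ = w₁' := by
        have h1 : (k * (w₁' * w₂) * k⁻¹) ^ m₁ = (w₁' * w₂') ^ m₁ := by rw [heq']
        rw [conj_pow, (show Commute w₁' w₂ from hcomm w₁' hw₁ w₂ hw₂).mul_pow,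
          (show Commute w₁' w₂' from hcomm w₁' hw₁ w₂' hw₂').mul_pow,
          pow1 w₁' hw₁, pow1' w₂ hw₂, pow1' w₂' hw₂', mul_one] at h1
        exact h1
      have hkW₂ : k ∈ W₂ := by
        rw [← hC w₁' hw₁ hw₁ne]
        refine ⟨hk, ?_⟩
        show k ∈ Subgroup.centralizer ({w₁'} : Set L)
        rw [Subgroup.mem_centralizer_iff]
        intro h hh
        rw [Set.mem_singleton_iff] at hh
        subst hh
        calc h * k = (k * h * k⁻¹) * k := by rw [hpow]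
          _ = k * h := by group
      exact (W₁ ⊔ W₂).mul_mem (Subgroup.mem_sup_right hkW₂) (Subgroup.mem_sup_left hy)
    · intro g hg
      rw [Subgroup.mem_set_normalizer_iff]
      intro n
      constructor
      · intro hn
        have := hWcomm g hg n (hX hn).1
        have h2 : g * n * g⁻¹ = n := by rw [this]; group
        rw [h2]; exact hn
      · intro hn
        have := hWcomm g hg _ (hX hn).1
        have h2 : g * n * g⁻¹ = n := by
          apply mul_left_cancel (a := g)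
          rw [this]; group
        rw [h2] at hn; exact hn

end Cfsg.Agent.S1510
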