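import Cfsg.Statements.S1512
import Cfsg.Agent.S1496

set_option autoImplicit false
open Cfsg

namespace Cfsg.Agent.S1512

/-- every `x`-invariant class of `K` meets the centraliser of `x` -/
theorem exists_fixed {L : Type*} [Group L] [Finite L] (K : Subgroup L) [hK : K.Normal] (x : L)
    (hx : Nat.Coprime (orderOf x) (Nat.card K)) (C : ConjClasses K)
    (hC : ConjClasses.map (MulEquiv.toMonoidHom ((MulAut.conjNormal x : MulAut K))) C = C) :
    ∃ w : L, ∃ hw : w ∈ K, w * x = x * w ∧ ConjClasses.mk (⟨w, hw⟩ : K) = C := by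
  obtain ⟨k, rfl⟩ := ConjClasses.mk_surjective C
  have h1 : ConjClasses.mk ((MulAut.conjNormal x : MulAut K) k) = ConjClasses.mk k := hC
  rw [ConjClasses.mk_eq_mk_iff_isConj, isConj_iff] at h1
  obtain ⟨u, hu⟩ := h1
  have hu' : (u : L) * (x * k * x⁻¹) * (u : L)⁻¹ = k := by
    have := congrArg Subtype.val hu
    simpa using this
  have hxn : x ∈ Subgroup.normalizer (K : Set L) := by
    rw [Subgroup.normalizer_eq_top]
    exact Subgroup.mem_top x
  obtain ⟨t, ht, c, hc, hcx, hconj⟩ := S1496.result K x hxn hx (u : L) u.2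
  -- `c * x` commutes with `t * k * t⁻¹`
  have hcomm1 : (c * x) * (t * k * t⁻¹) = (t * k * t⁻¹) * (c * x) := by
    rw [← hconj]
    calc t * (↑u * x) * t⁻¹ * (t * ↑k * t⁻¹)
        = t * ((u : L) * (x * k * x⁻¹) * (u : L)⁻¹) * ((u : L) * x) * t⁻¹ := by group
      _ = t * ↑k * t⁻¹ * (t * (↑u * x) * t⁻¹) := by rw [hu']; group
  -- `x` is a power of `c * x`
  obtain ⟨s, r, hsr⟩ := Nat.isCoprime_iff_coprime.mpr hx
  have hcK : c ^ (Nat.card K) = 1 := by
    have h2 := pow_card_eq_one' (G := K) (x := ⟨c, hc⟩)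
    have h3 := congrArg Subtype.val h2
    rw [SubmonoidClass.coe_pow, OneMemClass.coe_one] at h3
    exact h3
  have hpow : (c * x) ^ ((Nat.card K : ℤ) * r) = x := by
    have hcomm : Commute c x := hcx
    rw [hcomm.mul_zpow, zpow_mul, zpow_natCast, hcK, one_zpow, one_mul]
    have h4 : ((Nat.card K : ℤ) * r) = 1 - (orderOf x : ℤ) * s := by
      rw [← hsr]; ring
    rw [h4, zpow_sub, zpow_one, zpow_mul, zpow_natCast, pow_orderOf_eq_one, one_zpow, inv_one,
      mul_one]
  have hcomm2 : (t * k * t⁻¹) * x = x * (t * k * t⁻¹) := by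
    have h5 : Commute (t * k * t⁻¹) (c * x) := hcomm1.symm
    have h6 := h5.zpow_right ((Nat.card K : ℤ) * r)
    rw [hpow] at h6
    exact h6.eq
  refine ⟨t * k * t⁻¹, hK.conj_mem _ k.2 t, hcomm2, ?_⟩
  rw [ConjClasses.mk_eq_mk_iff_isConj, isConj_iff]
  refine ⟨⟨t, ht⟩⁻¹, ?_⟩
  apply Subtype.ext
  simp [mul_assoc]

/-- Let K be a normal subgroup of the finite group L and x a non-identity element whose order is coprime to the order of K, such that K ⊓ C_L(y) = W₂ for every non-identity element y of the cyclic group generated by x. Then the number of conjugacy classes of K mapped to themselves by conjugation by x is at most Nat.card W₂. -/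
theorem result {L : Type*} [Group L] [Finite L] (K W₂ : Subgroup L) [hK : K.Normal] (x : L) (hx1 : x ≠ 1) (hx : Nat.Coprime (orderOf x) (Nat.card K)) (hC : ∀ y ∈ Subgroup.zpowers x, y ≠ 1 → K ⊓ Subgroup.centralizer ({y} : Set L) = W₂) : Nat.card {C : ConjClasses K // ConjClasses.map (MulEquiv.toMonoidHom ((MulAut.conjNormal x : MulAut K))) C = C} ≤ Nat.card W₂ := by
  have hW := hC x (Subgroup.mem_zpowers x) hx1
  have hex : ∀ C : {C : ConjClasses K // ConjClasses.map
      (MulEquiv.toMonoidHom ((MulAut.conjNormal x : MulAut K))) C = C},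
      ∃ w : W₂, ∃ hw : (w : L) ∈ K, ConjClasses.mk (⟨w, hw⟩ : K) = C.1 := by
    intro C
    obtain ⟨w, hw, hwx, hwC⟩ := exists_fixed K x hx C.1 C.2
    have hwW : w ∈ W₂ := by
      rw [← hW, Subgroup.mem_inf, Subgroup.mem_centralizer_singleton_iff]
      exact ⟨hw, hwx⟩
    exact ⟨⟨w, hwW⟩, hw, hwC⟩
  choose F hF using hex
  apply Nat.card_le_card_of_injective F
  intro C C' hCC
  obtain ⟨hw, h1⟩ := hF C
  obtain ⟨hw', h2⟩ := hF C'
  apply Subtype.ext
  rw [← h1, ← h2]
  congr 2
  rw [hCC]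

end Cfsg.Agent.S1512
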