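import Cfsg.Statements.S1528
import Cfsg.Agent.S0860
import Cfsg.Agent.S0854

set_option autoImplicit false
open Cfsg

namespace Cfsg.Agent.S1528

open Cfsg.Agent.Lib

section

variable {G : Type*} [Group G] (N : Subgroup G) [hN : N.Normal]

/-- conjugation action of `G` on the irreducible characters of a normal subgroup -/
@[instance_reducible]
def actIrr : MulAction G (IrrCharacter N) where
  smul g χ := ⟨Helper20.conjFun N χ.1 g⁻¹, Helper20.conjFun_irr N χ.2 g⁻¹⟩
  one_smul χ := by
    apply Subtype.ext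
    show Helper20.conjFun N χ.1 (1 : G)⁻¹ = χ.1
    rw [inv_one, Helper20.conjFun_one]
  mul_smul g h χ := by
    apply Subtype.ext
    show Helper20.conjFun N χ.1 (g * h)⁻¹ = Helper20.conjFun N (Helper20.conjFun N χ.1 h⁻¹) g⁻¹
    rw [Helper20.conjFun_conjFun, mul_inv_rev]

theorem actIrr_apply (g : G) (χ : IrrCharacter N) :
    ((actIrr N).smul g χ : IrrCharacter N).1 = Helper20.conjFun N χ.1 g⁻¹ := rfl

/-- conjugation action of `G` on the classes of a normal subgroup -/
@[instance_reducible]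
def actCls : MulAction G (ConjClasses N) where
  smul g C := ConjClasses.map (MulAut.conjNormal g : N ≃* N).toMonoidHom C
  one_smul C := by
    obtain ⟨n, rfl⟩ := ConjClasses.mk_surjective C
    show ConjClasses.mk ((MulAut.conjNormal (1 : G) : N ≃* N) n) = ConjClasses.mk n
    simp
  mul_smul g h C := by
    obtain ⟨n, rfl⟩ := ConjClasses.mk_surjective C
    show ConjClasses.mk ((MulAut.conjNormal (g * h) : N ≃* N) n) =
      ConjClasses.mk ((MulAut.conjNormal g : N ≃* N) ((MulAut.conjNormal h : N ≃* N) n))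
    simp

theorem actCls_mk (g : G) (n : N) :
    (actCls N).smul g (ConjClasses.mk n) =
      ConjClasses.mk (⟨g * n * g⁻¹, hN.conj_mem n n.2 g⟩ : N) := by
  show ConjClasses.mk ((MulAut.conjNormal g : N ≃* N) n) = _
  congr 1

attribute [local instance] actIrr actCls

theorem smul_irr_apply (g : G) (χ : IrrCharacter N) :
    ((g • χ : IrrCharacter N) : N → ℂ) = Helper20.conjFun N χ.1 g⁻¹ := rfl

theorem smul_cls_mk (g : G) (n : N) :
    g • (ConjClasses.mk n : ConjClasses N) =
      ConjClasses.mk (⟨g * n * g⁻¹, hN.conj_mem n n.2 g⟩ : N) := actCls_mk N g n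

theorem compat (a : G) (χ : IrrCharacter N) (g g' : N)
    (h : ConjClasses.mk g' = a • (ConjClasses.mk g : ConjClasses N)) :
    ((a • χ : IrrCharacter N) : N → ℂ) g' = (χ : N → ℂ) g := by
  rw [smul_cls_mk, ConjClasses.mk_eq_mk_iff_isConj] at h
  rw [smul_irr_apply]
  have hcf : IsClassFunction N (Helper20.conjFun N χ.1 a⁻¹) :=
    Helper35.isClassFunction_of_isCharacter
      (Helper35.isChar_of_irr (Helper20.conjFun_irr N χ.2 a⁻¹))
  obtain ⟨c, hc⟩ := isConj_iff.mp h
  rw [← hcf g' c, hc, Helper20.conjFun_apply]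
  exact congrArg χ.1 (Subtype.ext (by simp [mul_assoc]))

theorem fixed_cls (hC : ∀ n ∈ N, n ≠ 1 → Subgroup.centralizer ({n} : Set G) ≤ N) (g : G)
    (hg : g ∉ N) (C : ConjClasses N) (hfix : g • C = C) : C = ConjClasses.mk 1 := by
  obtain ⟨n, rfl⟩ := ConjClasses.mk_surjective C
  rw [smul_cls_mk, ConjClasses.mk_eq_mk_iff_isConj] at hfix
  obtain ⟨c, hc⟩ := isConj_iff.mp hfix
  by_contra hne
  have hn1 : (n : G) ≠ 1 := fun h => hne (by rw [show n = 1 from Subtype.ext h])
  have hc' : (c : G) * (g * n * g⁻¹) * (c : G)⁻¹ = n := by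
    have := congrArg Subtype.val hc
    simpa using this
  have hmem : (c : G) * g ∈ Subgroup.centralizer ({(n : G)} : Set G) := by
    rw [Subgroup.mem_centralizer_iff]
    intro y hy
    rw [Set.mem_singleton_iff] at hy
    subst hy
    calc (n : G) * ((c : G) * g) = ((c : G) * (g * n * g⁻¹) * (c : G)⁻¹) * ((c : G) * g) := by
          rw [hc']
      _ = (c : G) * g * n := by group
  have := hC n n.2 hn1 hmem
  exact hg ((Subgroup.mul_mem_cancel_left N c.2).mp this)

theorem card_fixed_irr [Finite G]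
    (hC : ∀ n ∈ N, n ≠ 1 → Subgroup.centralizer ({n} : Set G) ≤ N) (g : G) (hg : g ∉ N) :
    Nat.card {χ : IrrCharacter N // g • χ = χ} = 1 := by
  have h := Cfsg.Agent.S0860.result (G := N) (A := G)
    (fun a χ x x' hx => compat N a χ x x' hx) g
  rw [h, Nat.card_eq_one_iff_unique]
  refine ⟨⟨fun a b => Subtype.ext ?_⟩, ⟨⟨ConjClasses.mk 1, ?_⟩⟩⟩
  · rw [fixed_cls N hC g hg a.1 a.2, fixed_cls N hC g hg b.1 b.2]
  · rw [smul_cls_mk]
    congr 1
    apply Subtype.ext
    simp

theorem inertia_eq [Finite G]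
    (hC : ∀ n ∈ N, n ≠ 1 → Subgroup.centralizer ({n} : Set G) ≤ N) (φ : IrrCharacter N)
    (hφ : φ ≠ Helper83.trivIrr N) (g : G) :
    g ∈ N ↔ ∀ n : N, (φ : N → ℂ) ⟨g * n * g⁻¹, hN.conj_mem (n : G) n.2 g⟩ = (φ : N → ℂ) n := by
  constructor
  · intro hg n
    have hcf := Helper35.isClassFunction_of_isCharacter (Helper35.isChar_of_irr φ.2)
    have h1 : (⟨g * n * g⁻¹, hN.conj_mem (n : G) n.2 g⟩ : N) = ⟨g, hg⟩ * n * (⟨g, hg⟩ : N)⁻¹ :=
      Subtype.ext (by simp)
    rw [h1]
    exact hcf n ⟨g, hg⟩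
  · intro h
    by_contra hg
    have hg' : g⁻¹ ∉ N := fun h' => hg (by simpa using N.inv_mem h')
    have hcard := card_fixed_irr N hC g⁻¹ hg'
    have hsub := (Nat.card_eq_one_iff_unique.mp hcard).1
    have h1 : g⁻¹ • φ = φ := by
      apply Subtype.ext
      rw [smul_irr_apply, inv_inv]
      funext n
      exact h n
    have h2 : g⁻¹ • Helper83.trivIrr N = Helper83.trivIrr N := by
      apply Subtype.ext
      rw [smul_irr_apply]
      rfl
    have := hsub.elim ⟨φ, h1⟩ ⟨Helper83.trivIrr N, h2⟩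
    exact hφ (congrArg Subtype.val this)

end

/-- Let N be a normal subgroup of the finite group G such that every element of G commuting with a non-identity element of N lies in N. If χ is an irreducible character of G with χ n ≠ χ 1 for some n ∈ N, then χ is the function induced from some irreducible character of N. -/
theorem result {G : Type*} [Group G] [Fintype G] (N : Subgroup G) [N.Normal] (hC : ∀ n ∈ N, n ≠ 1 → Subgroup.centralizer ({n} : Set G) ≤ N) (χ : G → ℂ) (hχ : Cfsg.IsIrrCharacter G χ) (hker : ∃ n ∈ N, χ n ≠ χ 1) : ∃ φ : N → ℂ, Cfsg.IsIrrCharacter N φ ∧ χ = Cfsg.indFun N φ := by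
  classical
  let _ : Fintype N := Fintype.ofFinite N
  have := Helper4.irr_finite (G := N)
  let _ : Fintype (IrrCharacter N) := Fintype.ofFinite _
  have hcharχ := Helper35.isChar_of_irr hχ
  obtain ⟨m, hm⟩ := Helper4.exists_decomp_of_isCharacter (fun n : N => χ n)
    (Helper35.isCharacter_res N hcharχ)
  have hex : ∃ φ : IrrCharacter N, φ ≠ Helper83.trivIrr N ∧ m φ ≠ 0 := by
    by_contra hall
    push Not at hall
    obtain ⟨n, hn, hne⟩ := hker
    apply hne
    have h1 : ∀ x : N, χ x = (m (Helper83.trivIrr N) : ℂ) := by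
      intro x
      have := congrFun hm x
      simp only [Finset.sum_apply, Pi.smul_apply, smul_eq_mul] at this
      rw [this, Finset.sum_eq_single (Helper83.trivIrr N)]
      · rw [Helper83.trivIrr_apply, mul_one]
      · intro φ _ hφ
        rw [hall φ hφ, Nat.cast_zero, zero_mul]
      · intro h
        exact absurd (Finset.mem_univ _) h
    rw [h1 ⟨n, hn⟩]
    exact (h1 1).symm
  obtain ⟨φ, hφ, hmφ⟩ := hex
  have hcon : classInner (fun n : N => χ n) (φ : N → ℂ) ≠ 0 := by
    rw [hm, Helper4.classInner_sum_irr (fun ξ => (m ξ : ℂ)) φ]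
    exact_mod_cast hmφ
  obtain ⟨ψ, hψ, hind, -⟩ := Cfsg.Agent.S0854.result N (φ : N → ℂ) φ.2 N
    (inertia_eq N hC φ hφ) le_rfl χ hχ hcon
  exact ⟨ψ, hψ, hind.symm⟩

end Cfsg.Agent.S1528
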