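import Cfsg.Statements.S1513
import Cfsg.Agent.S1528
import Cfsg.Agent.S1512
import Cfsg.Agent.S1491

set_option autoImplicit false
open Cfsg

namespace Cfsg.Agent.S1513

open Cfsg.Agent.Lib
open scoped Pointwise

/-- uniqueness part of Glauberman's lemma for a cyclic acting group: two elements centralised
by `x` that are conjugate under the normal subgroup `K` of coprime order are conjugate under
`C_K(x)` -/
theorem unique_fixed {L : Type*} [Group L] [Finite L] (K : Subgroup L) [hK : K.Normal] (x : L)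
    (hcop : Nat.Coprime (orderOf x) (Nat.card K)) (a b : L) (ha : a * x = x * a)
    (hb : b * x = x * b) (k : L) (hk : k ∈ K) (hab : k * a * k⁻¹ = b) :
    ∃ k' ∈ K, k' * x = x * k' ∧ k' * a * k'⁻¹ = b := by
  obtain ⟨H, hH⟩ : ∃ H : Subgroup L, H = K ⊓ Subgroup.centralizer {a} := ⟨_, rfl⟩
  have hxC : x ∈ Subgroup.centralizer ({a} : Set L) :=
    Subgroup.mem_centralizer_singleton_iff.mpr ha.symm
  have hxnorm : x ∈ Subgroup.normalizer (H : Set L) := by
    rw [Subgroup.mem_normalizer_iff]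
    intro u
    rw [hH, Subgroup.mem_inf, Subgroup.mem_inf]
    have h1 : u ∈ K ↔ x * u * x⁻¹ ∈ K := by
      constructor
      · intro hu
        exact hK.conj_mem u hu x
      · intro hu
        have := hK.conj_mem _ hu x⁻¹
        simpa [mul_assoc] using this
    have h2 : u ∈ Subgroup.centralizer {a} ↔ x * u * x⁻¹ ∈ Subgroup.centralizer {a} := by
      rw [Subgroup.mul_mem_cancel_right _ (inv_mem hxC), Subgroup.mul_mem_cancel_left _ hxC]
    rw [h1, h2]
  have hcop' : Nat.Coprime (orderOf x) (Nat.card H) := by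
    have h2 : Nat.card H ∣ Nat.card K := by
      apply Subgroup.card_dvd_of_le
      rw [hH]; exact inf_le_left
    exact Nat.Coprime.coprime_dvd_right h2 hcop
  -- the element `h = k⁻¹ x k x⁻¹`
  have hconjC : k⁻¹ * x * k ∈ Subgroup.centralizer ({a} : Set L) := by
    rw [Subgroup.mem_centralizer_singleton_iff]
    have h1 : x * (k * a * k⁻¹) = (k * a * k⁻¹) * x := by rw [hab]; exact hb.symm
    calc k⁻¹ * x * k * a = k⁻¹ * (x * (k * a * k⁻¹)) * k := by group
      _ = k⁻¹ * ((k * a * k⁻¹) * x) * k := by rw [h1]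
      _ = a * (k⁻¹ * x * k) := by group
  have hh : k⁻¹ * (x * k * x⁻¹) ∈ H := by
    rw [hH, Subgroup.mem_inf]
    refine ⟨mul_mem (inv_mem hk) (hK.conj_mem k hk x), ?_⟩
    have h1 : k⁻¹ * (x * k * x⁻¹) = (k⁻¹ * x * k) * x⁻¹ := by group
    rw [h1]
    exact mul_mem hconjC (inv_mem hxC)
  obtain ⟨t, ht, c, hc, hcx, hconj⟩ := S1496.result H x hxnorm hcop' _ hh
  have hconj' : t * (k⁻¹ * x * k) * t⁻¹ = c * x := by
    rw [← hconj]; group
  rw [hH, Subgroup.mem_inf] at ht hc
  -- `c = 1`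
  have hc1 : c = 1 := by
    have hcomm : Commute c x := hcx
    have h1 : (c * x) ^ orderOf x = 1 := by
      rw [← hconj']
      have h2 : t * (k⁻¹ * x * k) * t⁻¹ = (t * k⁻¹) * x * (t * k⁻¹)⁻¹ := by group
      rw [h2, conj_pow, pow_orderOf_eq_one]
      group
    rw [hcomm.mul_pow, pow_orderOf_eq_one, mul_one] at h1
    have h3 : c ^ Nat.card K = 1 := by
      have h4 := pow_card_eq_one' (G := K) (x := ⟨c, hc.1⟩)
      have h5 := congrArg Subtype.val h4
      rw [SubmonoidClass.coe_pow, OneMemClass.coe_one] at h5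
      exact h5
    have h6 : orderOf c ∣ Nat.gcd (orderOf x) (Nat.card K) :=
      Nat.dvd_gcd (orderOf_dvd_of_pow_eq_one h1) (orderOf_dvd_of_pow_eq_one h3)
    rw [hcop] at h6
    exact orderOf_eq_one_iff.mp (Nat.dvd_one.mp h6)
  rw [hc1, one_mul] at hconj'
  refine ⟨k * t⁻¹, mul_mem hk (inv_mem ht.1), ?_, ?_⟩
  · calc k * t⁻¹ * x = k * t⁻¹ * (t * (k⁻¹ * x * k) * t⁻¹) := by rw [hconj']
      _ = x * (k * t⁻¹) := by group
  · have h1 : t * a = a * t := Subgroup.mem_centralizer_singleton_iff.mp ht.2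
    calc k * t⁻¹ * a * (k * t⁻¹)⁻¹ = k * (t⁻¹ * (a * t)) * k⁻¹ := by group
      _ = k * (t⁻¹ * (t * a)) * k⁻¹ := by rw [h1]
      _ = k * a * k⁻¹ := by group
      _ = b := hab

attribute [local instance] S1528.actIrr S1528.actCls

/-- Let L be a finite group with K normal with complement W₁ ≠ 1 a cyclic Hall subgroup, and W₂ ≠ 1 a cyclic subgroup of K equal to C_K(x) for every non-identity x ∈ W₁, with W₁W₂ of odd order. For an irreducible character θ of K: if θ is not fixed under conjugation by some element of W₁, then the function induced from θ to L is an irreducible character of L; and the irreducible characters of K fixed by all of W₁ are exactly Nat.card W₂ in number, each inducing to the sum of Nat.card W₁ pairwise distinct irreducible characters of L. -/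
theorem result {L : Type*} [Group L] [Fintype L] (K W₁ W₂ : Subgroup L) [hK : K.Normal] (hKW₁ : K ⊓ W₁ = ⊥) (hKW₁' : K ⊔ W₁ = ⊤) (hW₁ : W₁ ≠ ⊥) (hW₁c : IsCyclic W₁) (hHall : Nat.Coprime (Nat.card W₁) W₁.index) (hW₂ : W₂ ≠ ⊥) (hW₂c : IsCyclic W₂) (hW₂K : W₂ ≤ K) (hC : ∀ x ∈ W₁, x ≠ 1 → K ⊓ Subgroup.centralizer ({x} : Set L) = W₂) (hodd : Odd (Nat.card ↥(W₁ ⊔ W₂))) : (∀ θ : K → ℂ, Cfsg.IsIrrCharacter K θ → (∃ x ∈ W₁, (fun k : K => θ ⟨x * k * x⁻¹, hK.conj_mem (k : L) k.2 x⟩) ≠ θ) → Cfsg.IsIrrCharacter L (Cfsg.indFun K θ)) ∧ Nat.card {θ : Cfsg.IrrCharacter K // ∀ x ∈ W₁, (fun k : K => (θ : K → ℂ) ⟨x * k * x⁻¹, hK.conj_mem (k : L) k.2 x⟩) = θ} = Nat.card W₂ ∧ (∀ θ : K → ℂ, Cfsg.IsIrrCharacter K θ → (∀ x ∈ W₁, (fun k : K => θ ⟨x * k * x⁻¹, hK.conj_mem (k : L) k.2 x⟩) = θ) → ∃ C : Finset (L → ℂ), C.card = Nat.card W₁ ∧ (∀ μ ∈ C, Cfsg.IsIrrCharacter L μ) ∧ Cfsg.indFun K θ = ∑ μ ∈ C, μ) := by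
  classical
  let _ : Fintype K := Fintype.ofFinite K
  have hfinI := Helper4.irr_finite (G := K)
  -- cardinalities
  have hmul : ((K : Subgroup L) : Set L) * (W₁ : Set L) = Set.univ := by
    rw [← Subgroup.normal_mul, hKW₁', Subgroup.coe_top]
  have hcompl := Subgroup.isComplement'_of_disjoint_and_mul_eq_univ (disjoint_iff.mpr hKW₁) hmul
  have hcard : Nat.card K * Nat.card W₁ = Nat.card L := hcompl.card_mul_card
  have hKcard : Nat.card K = W₁.index := by
    have h1 := Subgroup.card_mul_index W₁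
    have h2 : 0 < Nat.card W₁ := Nat.card_pos
    rw [← hcard, mul_comm (Nat.card K)] at h1
    exact (Nat.eq_of_mul_eq_mul_left h2 h1).symm
  have hKidx : K.index = Nat.card W₁ := by
    have h1 := Subgroup.card_mul_index K
    have h2 : 0 < Nat.card K := Nat.card_pos
    rw [← hcard] at h1
    exact Nat.eq_of_mul_eq_mul_left h2 h1
  have hcopx : ∀ x ∈ W₁, Nat.Coprime (orderOf x) (Nat.card K) := by
    intro x hx
    rw [hKcard]
    have h1 : orderOf x ∣ Nat.card W₁ := by
      have := orderOf_dvd_natCard (⟨x, hx⟩ : W₁)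
      rwa [Subgroup.orderOf_mk] at this
    exact Nat.Coprime.coprime_dvd_left h1 hHall
  -- fixed characters of a nontrivial element
  have hF1 : ∀ x ∈ W₁, x ≠ 1 →
      Nat.card {θ : IrrCharacter K // x • θ = θ} ≤ Nat.card W₂ := by
    intro x hx hx1
    rw [Cfsg.Agent.S0860.result (G := K) (A := L)
      (fun a χ y y' hy => S1528.compat K a χ y y' hy) x]
    exact S1512.result K W₂ x hx1 (hcopx x hx) (fun y hy hy1 =>
      hC y ((Subgroup.zpowers_le.mpr hx) hy) hy1)
  -- a generator of `W₁`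
  obtain ⟨w, hw⟩ := hW₁c.exists_generator
  have hw1 : (w : L) ≠ 1 := by
    intro h
    apply hW₁
    rw [Subgroup.eq_bot_iff_forall]
    intro y hy
    obtain ⟨n, hn⟩ := Subgroup.mem_zpowers_iff.mp (hw ⟨y, hy⟩)
    have h2 := congrArg Subtype.val hn
    simp only [Subgroup.coe_zpow] at h2
    rw [← h2, h, one_zpow]
  have hW₁z : ∀ y ∈ W₁, y ∈ Subgroup.zpowers (w : L) := by
    intro y hy
    obtain ⟨n, hn⟩ := Subgroup.mem_zpowers_iff.mp (hw ⟨y, hy⟩)
    have h2 := congrArg Subtype.val hn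
    simp only [Subgroup.coe_zpow] at h2
    exact Subgroup.mem_zpowers_iff.mpr ⟨n, h2⟩
  have hW₂w := hC w w.2 hw1
  have hW₂comm : ∀ a ∈ W₂, ∀ b ∈ W₂, a * b = b * a := by
    intro a ha b hb
    have := hW₂c
    let _ := IsCyclic.commGroup (α := W₂)
    have h1 := mul_comm (⟨a, ha⟩ : W₂) ⟨b, hb⟩
    exact congrArg Subtype.val h1
  -- fixed classes of `w`
  have hF2 : Nat.card W₂ ≤ Nat.card {C : ConjClasses K // (w : L) • C = C} := by
    have hfix : ∀ v : W₂, (w : L) • (ConjClasses.mk (⟨v, hW₂K v.2⟩ : K)) =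
        ConjClasses.mk (⟨v, hW₂K v.2⟩ : K) := by
      intro v
      rw [S1528.smul_cls_mk]
      congr 1
      apply Subtype.ext
      have h1 : (v : L) ∈ K ⊓ Subgroup.centralizer ({(w : L)} : Set L) := by
        rw [hW₂w]; exact v.2
      have h2 := Subgroup.mem_centralizer_singleton_iff.mp h1.2
      show (w : L) * v * (w : L)⁻¹ = v
      rw [← h2]; group
    apply Nat.card_le_card_of_injective
      (fun v : W₂ => (⟨ConjClasses.mk (⟨v, hW₂K v.2⟩ : K), hfix v⟩ :
        {C : ConjClasses K // (w : L) • C = C}))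
    intro v v' hvv
    have h1 := congrArg Subtype.val hvv
    simp only at h1
    rw [ConjClasses.mk_eq_mk_iff_isConj, isConj_iff] at h1
    obtain ⟨k, hk⟩ := h1
    have hk' : (k : L) * v * (k : L)⁻¹ = v' := by
      have := congrArg Subtype.val hk
      simpa using this
    have hv : (v : L) ∈ K ⊓ Subgroup.centralizer ({(w : L)} : Set L) := by
      rw [hW₂w]; exact v.2
    have hv' : (v' : L) ∈ K ⊓ Subgroup.centralizer ({(w : L)} : Set L) := by
      rw [hW₂w]; exact v'.2
    obtain ⟨k', hk'K, hk'w, hk'conj⟩ := unique_fixed K (w : L) (hcopx w w.2) v v'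
      (Subgroup.mem_centralizer_singleton_iff.mp hv.2)
      (Subgroup.mem_centralizer_singleton_iff.mp hv'.2) k k.2 hk'
    have hk'W₂ : k' ∈ W₂ := by
      rw [← hW₂w, Subgroup.mem_inf, Subgroup.mem_centralizer_singleton_iff]
      exact ⟨hk'K, hk'w⟩
    apply Subtype.ext
    rw [← hk'conj, hW₂comm k' hk'W₂ v v.2]
    group
  -- the characters fixed by `W₁` are those fixed by `w`
  have hstab : ∀ θ : IrrCharacter K, (w : L) • θ = θ → ∀ x ∈ W₁, x • θ = θ := by
    intro θ hθ x hx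
    have h1 : (w : L) ∈ MulAction.stabilizer L θ := hθ
    have h2 : x ∈ MulAction.stabilizer L θ := (Subgroup.zpowers_le.mpr h1) (hW₁z x hx)
    exact h2
  have hfixiff : ∀ θ : IrrCharacter K,
      (∀ x ∈ W₁, (fun k : K => (θ : K → ℂ) ⟨x * k * x⁻¹, hK.conj_mem (k : L) k.2 x⟩) = θ) ↔
      (w : L) • θ = θ := by
    intro θ
    constructor
    · intro h
      apply Subtype.ext
      rw [S1528.smul_irr_apply]
      exact h _ (inv_mem w.2)
    · intro h x hx
      have h1 := hstab θ h x⁻¹ (inv_mem hx)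
      have h2 := congrArg Subtype.val h1
      rw [S1528.smul_irr_apply, inv_inv] at h2
      exact h2
  have hFixcard : Nat.card {θ : Cfsg.IrrCharacter K // ∀ x ∈ W₁,
      (fun k : K => (θ : K → ℂ) ⟨x * k * x⁻¹, hK.conj_mem (k : L) k.2 x⟩) = θ} =
      Nat.card W₂ := by
    rw [Nat.card_congr (Equiv.subtypeEquivRight hfixiff)]
    apply le_antisymm (hF1 w w.2 hw1)
    rw [Cfsg.Agent.S0860.result (G := K) (A := L)
      (fun a χ y y' hy => S1528.compat K a χ y y' hy) (w : L)]
    exact hF2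
  -- a character fixed by a nontrivial element of `W₁` is fixed by `W₁`
  have hF3 : ∀ θ : IrrCharacter K, ∀ x ∈ W₁, x ≠ 1 → x • θ = θ → (w : L) • θ = θ := by
    intro θ x hx hx1 hθ
    have hinj : Function.Injective (fun θ' : {θ : IrrCharacter K // (w : L) • θ = θ} =>
        (⟨θ'.1, hstab θ'.1 θ'.2 x hx⟩ : {θ : IrrCharacter K // x • θ = θ})) := by
      intro a b hab
      have h1 := congrArg (fun t : {θ : IrrCharacter K // x • θ = θ} => t.1) hab
      exact Subtype.ext h1
    have hle : Nat.card {θ : IrrCharacter K // x • θ = θ} ≤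
        Nat.card {θ : IrrCharacter K // (w : L) • θ = θ} := by
      refine le_trans (hF1 x hx hx1) ?_
      rw [Cfsg.Agent.S0860.result (G := K) (A := L)
        (fun a χ y y' hy => S1528.compat K a χ y y' hy) (w : L)]
      exact hF2
    have hbij := Function.Injective.bijective_of_nat_card_le hinj hle
    obtain ⟨θ', hθ'⟩ := hbij.2 ⟨θ, hθ⟩
    have h1 := congrArg Subtype.val hθ'
    simp only at h1
    rw [← h1]
    exact θ'.2
  refine ⟨?_, hFixcard, ?_⟩
  · -- non-invariant characters induce irreducibly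
    intro θ hθ ⟨x₀, hx₀, hne⟩
    have hcf := Helper35.isClassFunction_of_isCharacter (Helper35.isChar_of_irr hθ)
    have hT : ∀ g : L, g ∈ K ↔ ∀ h : K, θ ⟨g * h * g⁻¹, hK.conj_mem h h.2 g⟩ = θ h := by
      intro g
      constructor
      · intro hg h
        have h1 : (⟨g * h * g⁻¹, hK.conj_mem h h.2 g⟩ : K) = ⟨g, hg⟩ * h * (⟨g, hg⟩ : K)⁻¹ :=
          Subtype.ext (by simp)
        rw [h1]
        exact hcf h ⟨g, hg⟩
      · intro hg
        have hgmem : g ∈ ((K : Subgroup L) : Set L) * (W₁ : Set L) := by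
          rw [hmul]; exact Set.mem_univ g
        obtain ⟨k, hk, y, hy, rfl⟩ := Set.mem_mul.mp hgmem
        by_cases hy1 : y = 1
        · rw [hy1, mul_one]; exact hk
        · exfalso
          apply hne
          have hyfix : y⁻¹ • (⟨θ, hθ⟩ : IrrCharacter K) = ⟨θ, hθ⟩ := by
            apply Subtype.ext
            rw [S1528.smul_irr_apply, inv_inv]
            funext h
            rw [Helper20.conjFun_apply]
            have h2 := hg h
            have h3 : (⟨k * y * h * (k * y)⁻¹, hK.conj_mem h h.2 (k * y)⟩ : K) =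
                ⟨k, hk⟩ * ⟨y * h * y⁻¹, hK.conj_mem h h.2 y⟩ * (⟨k, hk⟩ : K)⁻¹ :=
              Subtype.ext (by simp [mul_assoc])
            rw [h3, hcf] at h2
            exact h2
          have hwfix := hF3 ⟨θ, hθ⟩ y⁻¹ (inv_mem hy) (by simpa using hy1) hyfix
          exact (hfixiff ⟨θ, hθ⟩).mpr hwfix x₀ hx₀
    have hcon : classInner (fun n : K => θ ⟨(n : L), le_refl K n.2⟩) θ ≠ 0 := by
      have h1 : (fun n : K => θ ⟨(n : L), le_refl K n.2⟩) = θ := rfl
      rw [h1, Helper35.classInner_irr' hθ hθ, if_pos rfl]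
      exact one_ne_zero
    exact (S1489.main K K θ hθ hT (le_refl K) θ hθ hcon).1
  · -- invariant characters
    intro θ hθ hinv
    have hcf := Helper35.isClassFunction_of_isCharacter (Helper35.isChar_of_irr hθ)
    have hT : ∀ g : L, g ∈ (⊤ : Subgroup L) ↔
        ∀ h : K, θ ⟨g * h * g⁻¹, hK.conj_mem h h.2 g⟩ = θ h := by
      intro g
      refine ⟨fun _ h => ?_, fun _ => Subgroup.mem_top g⟩
      have hgmem : g ∈ ((K : Subgroup L) : Set L) * (W₁ : Set L) := by
        rw [hmul]; exact Set.mem_univ g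
      obtain ⟨k, hk, y, hy, rfl⟩ := Set.mem_mul.mp hgmem
      have h3 : (⟨k * y * h * (k * y)⁻¹, hK.conj_mem h h.2 (k * y)⟩ : K) =
          ⟨k, hk⟩ * ⟨y * h * y⁻¹, hK.conj_mem h h.2 y⟩ * (⟨k, hk⟩ : K)⁻¹ :=
        Subtype.ext (by simp [mul_assoc])
      rw [h3, hcf]
      exact congrFun (hinv y hy) h
    have hab : ∀ x ∈ (⊤ : Subgroup L), ∀ y ∈ (⊤ : Subgroup L), x * y * x⁻¹ * y⁻¹ ∈ K := by
      intro x _ y _
      have hxmem : x ∈ ((K : Subgroup L) : Set L) * (W₁ : Set L) := by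
        rw [hmul]; exact Set.mem_univ x
      have hymem : y ∈ ((K : Subgroup L) : Set L) * (W₁ : Set L) := by
        rw [hmul]; exact Set.mem_univ y
      obtain ⟨k₁, hk₁, y₁, hy₁, rfl⟩ := Set.mem_mul.mp hxmem
      obtain ⟨k₂, hk₂, y₂, hy₂, rfl⟩ := Set.mem_mul.mp hymem
      rw [← QuotientGroup.eq_one_iff]
      have h1 : ((k₁ : L) : L ⧸ K) = 1 := (QuotientGroup.eq_one_iff _).mpr hk₁
      have h2 : ((k₂ : L) : L ⧸ K) = 1 := (QuotientGroup.eq_one_iff _).mpr hk₂
      have hcomm : y₁ * y₂ = y₂ * y₁ := by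
        have := hW₁c
        let _ := IsCyclic.commGroup (α := W₁)
        have h3 := mul_comm (⟨y₁, hy₁⟩ : W₁) ⟨y₂, hy₂⟩
        exact congrArg Subtype.val h3
      simp only [QuotientGroup.mk_mul, QuotientGroup.mk_inv, h1, h2, one_mul]
      rw [← QuotientGroup.mk_mul, hcomm, QuotientGroup.mk_mul]
      group
    have hcop : Nat.Coprime (Nat.card K) (K.relIndex ⊤) := by
      rw [Subgroup.relIndex_top_right, hKidx, hKcard]
      exact hHall.symm
    obtain ⟨C, hCirr, hCcard, hCind, -⟩ := S1491.result K ⊤ θ hθ hT hab hcop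
    refine ⟨C, ?_, hCirr, hCind⟩
    rw [hCcard, Subgroup.relIndex_top_right, hKidx]

end Cfsg.Agent.S1513
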