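import Cfsg.Statements.S1515
import Cfsg.Agent.Lib.Helper35.Ind

set_option autoImplicit false
open Cfsg

namespace Cfsg.Agent.S1515

open Cfsg.Agent.Lib.Helper35 Cfsg.Agent.Lib.Helper4
open scoped ComplexConjugate

theorem result {L : Type*} [Group L] [Fintype L] {G : Type*} [Group G] [Fintype G] (S : Set (L → ℂ)) (τ : (L → ℂ) → (G → ℂ)) (R : (L → ℂ) → Finset (G → ℂ)) (hS : Cfsg.IsCoherenceSystem S τ R) (χ : L → ℂ) (hχ : χ ∈ S) (ψ : L → ℂ) (hψ : ψ ∈ Cfsg.zspan S) (h1 : Cfsg.classInner χ ψ = 0) (h2 : Cfsg.classInner (Cfsg.conjFun χ) ψ = 0) (τ₁ : (L → ℂ) → (G → ℂ)) (hτ₁ : Cfsg.IsLinearIsometryOn (Cfsg.zspan {χ - ψ, χ - Cfsg.conjFun χ}) τ₁) (hagree : ∀ n : ℤ, τ₁ (n • (χ - Cfsg.conjFun χ)) = τ (n • (χ - Cfsg.conjFun χ))) : (Cfsg.classInner χ χ).re ≤ ∑ α ∈ R χ, ‖Cfsg.classInner (τ₁ (χ - ψ)) α‖ ^ 2 ∧ ((Cfsg.classInner ψ ψ).re ≤ (Cfsg.classInner (τ₁ (χ - ψ)) (τ₁ (χ - ψ))).re - ∑ α ∈ R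 χ, ‖Cfsg.classInner (τ₁ (χ - ψ)) α‖ ^ 2 → (∑ α ∈ R χ, ‖Cfsg.classInner (τ₁ (χ - ψ)) α‖ ^ 2 = (Cfsg.classInner χ χ).re ∧ ∀ α ∈ R χ, Cfsg.classInner (τ₁ (χ - ψ)) α = 0 ∨ Cfsg.classInner (τ₁ (χ - ψ)) α = 1)) := by
  classical
  obtain ⟨-, -, hiso, hgen⟩ := hτ₁
  have hm1 : χ - ψ ∈ Cfsg.zspan {χ - ψ, χ - Cfsg.conjFun χ} :=
    show χ - ψ ∈ Submodule.span ℤ _ from Submodule.subset_span (Set.mem_insert _ _)
  have hm2 : χ - Cfsg.conjFun χ ∈ Cfsg.zspan {χ - ψ, χ - Cfsg.conjFun χ} :=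
    show χ - Cfsg.conjFun χ ∈ Submodule.span ℤ _ from
      Submodule.subset_span (Set.mem_insert_of_mem _ (Set.mem_singleton _))
  set X := τ₁ (χ - ψ) with hX
  have hXgen : IsGeneralizedCharacter G X := hgen _ hm1
  have hb : τ₁ (χ - Cfsg.conjFun χ) = ∑ α ∈ R χ, α := by
    have := hagree 1
    rw [one_zsmul] at this
    rw [this, hS.sum_eq χ hχ]
  have h3 : classInner ψ χ = 0 := by
    rw [classInner_conj_symm ψ χ, h1, map_zero]
  have h4 : classInner ψ (Cfsg.conjFun χ) = 0 := by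
    rw [classInner_conj_symm ψ (Cfsg.conjFun χ), h2, map_zero]
  have h5 : classInner χ (Cfsg.conjFun χ) = 0 :=
    hS.orthogonal χ hχ (Cfsg.conjFun χ) (hS.conj_mem χ hχ) (Ne.symm (hS.conj_ne χ hχ))
  have he : classInner (χ - ψ) (χ - Cfsg.conjFun χ) = classInner χ χ := by
    rw [classInner_sub_left, classInner_sub_right, classInner_sub_right, h5, h3, h4]
    ring
  have hj : classInner (χ - ψ) (χ - ψ) = classInner χ χ + classInner ψ ψ := by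
    rw [classInner_sub_left, classInner_sub_right, classInner_sub_right, h1, h3]
    ring
  have hf : ∑ α ∈ R χ, classInner X α = classInner χ χ := by
    rw [← classInner_sum_right, ← hb, hX, hiso _ hm1 _ hm2, he]
  have hk : ∀ α ∈ R χ, ∃ k : ℤ, classInner X α = k := fun α hα =>
    classInner_gen_int hXgen (hS.virtual χ hχ α hα)
  choose! k hk using hk
  have hsumk : classInner χ χ = ((∑ α ∈ R χ, k α : ℤ) : ℂ) := by
    rw [← hf]
    push_cast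
    exact Finset.sum_congr rfl hk
  have hre : (classInner χ χ).re = ∑ α ∈ R χ, (k α : ℝ) := by
    rw [hsumk]
    simp
  have hnorm : ∑ α ∈ R χ, ‖classInner X α‖ ^ 2 = ∑ α ∈ R χ, (k α : ℝ) ^ 2 := by
    refine Finset.sum_congr rfl fun α hα => ?_
    rw [hk α hα, Complex.norm_intCast, sq_abs]
  have hle : ∀ α ∈ R χ, (k α : ℝ) ≤ (k α : ℝ) ^ 2 := by
    intro α _
    exact_mod_cast Int.le_self_sq (k α)
  rw [hnorm, hre]
  refine ⟨Finset.sum_le_sum hle, fun hyp => ?_⟩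
  have hXX : classInner X X = classInner χ χ + classInner ψ ψ := by
    rw [hX, hiso _ hm1 _ hm1, hj]
  rw [hXX, Complex.add_re, hre] at hyp
  have heq : ∑ α ∈ R χ, (k α : ℝ) = ∑ α ∈ R χ, (k α : ℝ) ^ 2 :=
    le_antisymm (Finset.sum_le_sum hle) (by linarith)
  refine ⟨heq.symm, fun α hα => ?_⟩
  have h6 := (Finset.sum_eq_sum_iff_of_le hle).mp heq α hα
  rw [hk α hα]
  have h7 : (k α : ℝ) * ((k α : ℝ) - 1) = 0 := by linarith [h6, sq (k α : ℝ)]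
  rcases mul_eq_zero.mp h7 with h | h
  · left
    have : k α = 0 := by exact_mod_cast h
    rw [this]; simp
  · right
    have : k α = 1 := by
      have h8 : (k α : ℝ) = 1 := by linarith
      exact_mod_cast h8
    rw [this]; simp

end Cfsg.Agent.S1515
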