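import Cfsg.Statements.S1518
-- import your own Cfsg.Agent.* helpers here
import Cfsg.Agent.Lib.Helper79.DadeC
import Cfsg.Agent.S1500
import Cfsg.Agent.Lib.Helper35.Virt
import Cfsg.Agent.Lib.Helper5.CharInd

set_option autoImplicit false
open Cfsg

namespace Cfsg.Agent.S1518

open Cfsg.Agent.Lib.Helper35
open scoped ComplexConjugate

theorem dade_zero {G : Type*} [Group G] (A : Set G) (L : Subgroup G) (H : G → Subgroup G) :
    Cfsg.dadeIsometry A L H (0 : L → ℂ) = 0 := by
  funext g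
  unfold Cfsg.dadeIsometry
  split_ifs <;> rfl

theorem dade_conj {G : Type*} [Group G] (A : Set G) (L : Subgroup G) (H : G → Subgroup G)
    (α : L → ℂ) :
    Cfsg.dadeIsometry A L H (conjFun α) = conjFun (Cfsg.dadeIsometry A L H α) := by
  funext g
  unfold Cfsg.dadeIsometry conjFun
  by_cases h : ∃ a : L, (a : G) ∈ A ∧ ∃ x : G, ∃ u ∈ H (a : G), x * g * x⁻¹ = (a : G) * u
  · simp only [dif_pos h]
  · simp only [dif_neg h, map_zero]

theorem dade_neg {G : Type*} [Group G] (A : Set G) (L : Subgroup G) (H : G → Subgroup G)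
    (α : L → ℂ) :
    Cfsg.dadeIsometry A L H (-α) = -Cfsg.dadeIsometry A L H α := by
  funext g
  unfold Cfsg.dadeIsometry
  by_cases h : ∃ a : L, (a : G) ∈ A ∧ ∃ x : G, ∃ u ∈ H (a : G), x * g * x⁻¹ = (a : G) * u
  · simp only [Pi.neg_apply, dif_pos h]
  · simp only [Pi.neg_apply, dif_neg h, neg_zero]

theorem dade_one {G : Type*} [Group G] [Fintype G] (A : Set G) (L : Subgroup G)
    (H : G → Subgroup G) (hD : Cfsg.DadeHypothesis A L H) (α : L → ℂ) :
    Cfsg.dadeIsometry A L H α 1 = 0 := by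
  have hS : ¬ ∃ a : L, (a : G) ∈ A ∧ ∃ x : G, ∃ u ∈ H (a : G), x * 1 * x⁻¹ = (a : G) * u := by
    rintro ⟨a, ha, x, u, hu, hx⟩
    obtain ⟨k, hk, -, -, -⟩ := dade_pow_trick A L H hD a a ha ha u u hu hu
    have h1 : (a : G) * u = 1 := by rw [← hx]; group
    rw [h1, one_pow] at hk
    exact hD.one_not_mem (hk ▸ ha)
  unfold Cfsg.dadeIsometry
  rw [dif_neg hS]

theorem result {G : Type*} [Group G] [Fintype G] (A : Set G) (L : Subgroup G) [Fintype L] (H : G → Subgroup G) (hD : Cfsg.DadeHypothesis A L H) (χ : L → ℂ) (hχ : Cfsg.IsIrrCharacter L χ) (hsupp : ∀ x : L, x ≠ 1 → (x : G) ∉ A → χ x = 0) : ∃ μ : G → ℂ, Cfsg.IsIrrCharacter G μ ∧ Cfsg.dadeIsometry A L H (χ - Cfsg.conjFun χ) = μ - Cfsg.conjFun μ := by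
  classical
  by_cases hreal : Cfsg.conjFun χ = χ
  · refine ⟨fun _ => 1, Cfsg.Agent.Lib.Helper5.isIrrCharacter_one G, ?_⟩
    rw [hreal, sub_self, dade_zero]
    funext g
    simp [Cfsg.conjFun]
  · have hχc : IsIrrCharacter L (conjFun χ) := isIrr_conjFun hχ
    have hα : IsGeneralizedCharacter L (χ - conjFun χ) :=
      isGenChar_sub (isGenChar_of_char (isChar_of_irr hχ)) (isGenChar_of_char (isChar_of_irr hχc))
    have hαA : ∀ x : L, (x : G) ∉ A → (χ - conjFun χ) x = 0 := by
      intro x hx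
      by_cases hx1 : x = 1
      · subst hx1
        simp only [Pi.sub_apply]
        rw [conjFun_one_irr hχ, sub_self]
      · simp only [Pi.sub_apply, conjFun_apply]
        rw [hsupp x hx1 hx]
        simp
    have hcl : IsClassFunction L (χ - conjFun χ) := by
      intro g h
      simp only [Pi.sub_apply]
      rw [isClassFunction_of_isCharacter (isChar_of_irr hχ) g h,
        isClassFunction_of_isCharacter (isChar_of_irr hχc) g h]
    have hΘ : IsGeneralizedCharacter G (Cfsg.dadeIsometry A L H (χ - conjFun χ)) :=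
      Cfsg.Agent.Lib.Helper79.dade_isGenChar A L H hD _ hα hαA
    have hnorm : classInner (Cfsg.dadeIsometry A L H (χ - conjFun χ))
        (Cfsg.dadeIsometry A L H (χ - conjFun χ)) = 2 := by
      rw [(Cfsg.Agent.S1500.result A L H hD _ hcl hαA).1 _ hcl hαA]
      rw [classInner_sub_left, classInner_sub_right, classInner_sub_right,
        classInner_irr' hχ hχ, classInner_irr' hχ hχc, classInner_irr' hχc hχ,
        classInner_irr' hχc hχc, if_pos rfl, if_pos rfl, if_neg (Ne.symm hreal), if_neg hreal]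
      norm_num
    obtain ⟨μ₁, μ₂, hμ₁, hμ₂, hne, hΘeq⟩ := gen_norm_two hΘ hnorm (dade_one A L H hD _)
    have hodd : conjFun (Cfsg.dadeIsometry A L H (χ - conjFun χ)) =
        -Cfsg.dadeIsometry A L H (χ - conjFun χ) := by
      rw [← dade_conj, ← dade_neg, conjFun_sub, conjFun_conjFun, neg_sub]
    rw [hΘeq, conjFun_sub] at hodd
    have hμ₁c : IsIrrCharacter G (conjFun μ₁) := isIrr_conjFun hμ₁
    have hμ₂c : IsIrrCharacter G (conjFun μ₂) := isIrr_conjFun hμ₂
    have hkey : classInner (conjFun μ₁ - conjFun μ₂) μ₁ = classInner (-(μ₁ - μ₂)) μ₁ := by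
      rw [hodd]
    rw [classInner_neg_left, classInner_sub_left, classInner_sub_left,
      classInner_irr' hμ₁c hμ₁, classInner_irr' hμ₂c hμ₁, classInner_irr' hμ₁ hμ₁,
      classInner_irr' hμ₂ hμ₁, if_pos rfl, if_neg (Ne.symm hne)] at hkey
    have h2 : conjFun μ₂ = μ₁ := by
      by_contra h
      rw [if_neg h] at hkey
      split_ifs at hkey <;> norm_num at hkey
    refine ⟨μ₁, hμ₁, ?_⟩
    rw [hΘeq, ← h2, conjFun_conjFun]

end Cfsg.Agent.S1518
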