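import Cfsg.Statements.S1521
import Cfsg.Agent.Lib.Helper35.QuotFrob
import Cfsg.Agent.S1517
import Cfsg.Agent.S1519
import Cfsg.Agent.S1520

set_option autoImplicit false
open Cfsg

namespace Cfsg.Agent.S1521

open Cfsg.Agent.Lib Cfsg.Agent.Lib.Helper35
open scoped commutatorElement

theorem subsystem {L : Type*} [Group L] [Fintype L] {G : Type*} [Group G] [Fintype G]
    {S T : Set (L → ℂ)} {τ : (L → ℂ) → (G → ℂ)} {R : (L → ℂ) → Finset (G → ℂ)}
    (hS : IsCoherenceSystem S τ R) (hTS : T ⊆ S) (hne : T.Nonempty)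
    (hconj : ∀ χ ∈ T, conjFun χ ∈ T) : IsCoherenceSystem T τ R :=
  { nonempty := hne
    isCharacter := fun χ h => hS.isCharacter χ (hTS h)
    conj_mem := hconj
    conj_ne := fun χ h => hS.conj_ne χ (hTS h)
    isometry := isoOn_mono (Helper36.zspanOn_mono hTS _) hS.isometry
    map_one := fun α hα => hS.map_one α (Helper36.zspanOn_mono hTS _ hα)
    orthogonal := fun χ hχ φ hφ h => hS.orthogonal χ (hTS hχ) φ (hTS hφ) h
    orthonormal := fun χ hχ => hS.orthonormal χ (hTS hχ)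
    virtual := fun χ hχ => hS.virtual χ (hTS hχ)
    sum_eq := fun χ hχ => hS.sum_eq χ (hTS hχ)
    disjoint := fun χ hχ φ hφ => hS.disjoint χ (hTS hχ) φ (hTS hφ) }

theorem sq_big (e a b : ℕ) (he : 0 < e) (ha : 2 * e + 1 ≤ a) (hb : 2 * e + 1 ≤ b) :
    4 * e ^ 2 + 1 < a * b := by
  have h1 : (2 * e + 1) * (2 * e + 1) ≤ a * b := Nat.mul_le_mul ha hb
  have h2 : (2 * e + 1) * (2 * e + 1) = 4 * e ^ 2 + 4 * e + 1 := by ring
  omega

section Quot

variable {L : Type*} [Group L] [Fintype L] (K : Subgroup L) [hK : K.Normal]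
  (M : Subgroup L) [hM : M.Normal]

omit [Fintype L] hK in
theorem map_nilpotent [(M.subgroupOf K).Normal]
    (hnil : Group.IsNilpotent (↥K ⧸ M.subgroupOf K)) :
    Group.IsNilpotent ↥(K.map (QuotientGroup.mk' M)) := by
  have hle : M.subgroupOf K ≤ ((QuotientGroup.mk' M).subgroupMap K).ker := by
    intro x hx
    rw [MonoidHom.mem_ker]
    apply Subtype.ext
    show (QuotientGroup.mk' M) (x : L) = 1
    exact (QuotientGroup.eq_one_iff (x : L)).mpr (Subgroup.mem_subgroupOf.mp hx)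
  have hg : Function.Surjective
      (QuotientGroup.lift (M.subgroupOf K) ((QuotientGroup.mk' M).subgroupMap K) hle) := by
    intro y
    obtain ⟨x, hx⟩ := (QuotientGroup.mk' M).subgroupMap_surjective K y
    exact ⟨(x : ↥K ⧸ M.subgroupOf K), by rw [QuotientGroup.lift_mk]; exact hx⟩
  exact Group.nilpotent_of_surjective _ hg

include hK in
/-- each prime divisor of `|K : M|` yields a normal subgroup of `L` above `K' M` of index a
positive power of that prime in `K` -/
theorem nil_prime_part (hMK : M ≤ K) [(M.subgroupOf K).Normal]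
    (hnil : Group.IsNilpotent (↥K ⧸ M.subgroupOf K)) (r : ℕ) (hr : r.Prime)
    (hrd : r ∣ M.relIndex K) :
    ∃ A : Subgroup L, A.Normal ∧ ⁅K, K⁆ ⊔ M ≤ A ∧ A ≤ K ∧
      ∃ j : ℕ, 0 < j ∧ A.relIndex K = r ^ j := by
  classical
  have hnilK := map_nilpotent K M hnil
  obtain ⟨f, hfdef⟩ : ∃ f : L →* L ⧸ M, f = QuotientGroup.mk' M := ⟨_, rfl⟩
  rw [← hfdef] at hnilK
  have hf : Function.Surjective f := by
    rw [hfdef]
    exact QuotientGroup.mk'_surjective M
  have hker : f.ker = M := by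
    rw [hfdef]
    exact QuotientGroup.ker_mk' M
  have hKn : (K.map f).Normal := Subgroup.Normal.map hK f hf
  have hcard : Nat.card (K.map f) = M.relIndex K := by
    rw [← Subgroup.relIndex_bot_left, ← Subgroup.relIndex_comap, MonoidHom.comap_bot, hker]
  have hcpos : Nat.card (K.map f) ≠ 0 := Nat.card_pos.ne'
  obtain ⟨k, m, hm, hkm⟩ := Nat.exists_eq_pow_mul_and_not_dvd hcpos r hr.one_lt.ne'
  have hk : 0 < k := by
    by_contra h
    have hk0 : k = 0 := by omega
    rw [hk0, pow_zero, one_mul] at hkm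
    rw [← hcard, hkm] at hrd
    exact hm hrd
  have hcop : Nat.Coprime m r := ((Nat.Prime.coprime_iff_not_dvd hr).mpr hm).symm
  obtain ⟨j, hj, hrel⟩ := powKer_relIndex (K.map f) r hr k m hk hkm hcop
  have hAn : (powKer (K.map f) m).Normal := powKer_normal (K.map f) m
  refine ⟨(powKer (K.map f) m).comap f, hAn.comap f, ?_, ?_, j, hj, ?_⟩
  · apply sup_le
    · rw [← Subgroup.map_le_iff_le_comap, Subgroup.map_commutator]
      exact commutator_le_powKer (K.map f) m
    · intro x hx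
      rw [Subgroup.mem_comap]
      have h1 : f x = 1 := by
        rw [← hker] at hx
        exact MonoidHom.mem_ker.mp hx
      rw [h1]
      exact one_mem _
  · have h1 := Subgroup.comap_mono (f := f) (powKer_le (K.map f) m)
    rwa [Subgroup.comap_map_eq_self (by rw [hker]; exact hMK)] at h1
  · rw [Subgroup.relIndex_comap]
    exact hrel

include hK in
/-- if `K / M` is nilpotent and `K' M` has prime index in `K`, then `K' ≤ M` -/
theorem comm_le_of_prime (hMK : M ≤ K) [(M.subgroupOf K).Normal]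
    (hnil : Group.IsNilpotent (↥K ⧸ M.subgroupOf K)) (p : ℕ) (hp : p.Prime)
    (hidx : (⁅K, K⁆ ⊔ M).relIndex K = p) : ⁅K, K⁆ ≤ M := by
  have hnilK := map_nilpotent K M hnil
  obtain ⟨f, hfdef⟩ : ∃ f : L →* L ⧸ M, f = QuotientGroup.mk' M := ⟨_, rfl⟩
  rw [← hfdef] at hnilK
  have hf : Function.Surjective f := by
    rw [hfdef]
    exact QuotientGroup.mk'_surjective M
  have hker : f.ker = M := by
    rw [hfdef]
    exact QuotientGroup.ker_mk' M
  have hKn : (K.map f).Normal := Subgroup.Normal.map hK f hf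
  have h1 : (⁅K.map f, K.map f⁆).relIndex (K.map f) = p := by
    rw [← Subgroup.map_commutator, ← Subgroup.relIndex_comap, Subgroup.comap_map_eq, hker]
    exact hidx
  have h2 := comm_bot_of_prime_index (K.map f) hnilK p hp h1
  rw [← Subgroup.map_commutator, Subgroup.map_eq_bot_iff, hker] at h2
  exact h2

end Quot

/-- Let K be a solvable normal subgroup of the finite group L of odd order and (S, τ, R) a coherence system from L to G with S the functions induced from non-principal irreducible characters of K; S(A) as before. Let M ≤ K be normal in L with K/M nilpotent, H₁ = [K, K] ⊔ M, H₁ < K < L, and suppose every element of K outside H₁ is centralised modulo H₁ only from inside K (L/H₁ is a Frobenius group with kernel K/H₁). Suppose one of the following: some normal subgroup of L lies strictly between H₁ and K; or [K:H₁] > 4[L:K]^2 + 1; or [K:M] is not a prime power; or [K,K] ≤ M; or [K:M] is a power of a prime p with [L:K] dividing p − 1. Then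 S(M) is coherent. -/
theorem result {L : Type*} [Group L] [Fintype L] {G : Type*} [Group G] [Fintype G] (K : Subgroup L) [hK : K.Normal] (hsolv : Group.IsSolvable K) (τ : (L → ℂ) → (G → ℂ)) (R : (L → ℂ) → Finset (G → ℂ)) (hS : Cfsg.IsCoherenceSystem (Cfsg.inducedIrrAbove K ⊥) τ R) (hodd : Odd (Nat.card L)) (M : Subgroup L) [M.Normal] (hMK : M ≤ K) [(M.subgroupOf K).Normal] (hnil : Group.IsNilpotent (↥K ⧸ M.subgroupOf K)) (H₁ : Subgroup L) (hH₁ : H₁ = ⁅K, K⁆ ⊔ M) (hH₁K : H₁ < K) (hKL : K < ⊤) (hfrob : ∀ k ∈ K, k ∉ H₁ → ∀ x : L, x * k * x⁻¹ * k⁻¹ ∈ H₁ → x ∈ K) (hgood : (∃ N : Subgroup L, N.Normal ∧ H₁ < N ∧ N < K) ∨ 4 * K.index ^ 2 + 1 < H₁.relIndex K ∨ (¬ ∃ p m : ℕ, p.Prime ∧ M.relIndex K = p ^ m) ∨ ⁅K, K⁆ ≤ M ∨ (∃ p m : ℕ, p.Prime ∧ M.relIndex K = p ^ m ∧ K.index ∣ p - 1)) : Cfsg.IsCoherent (Cfsg.inducedIrrAbove K M) {1}ᶜ τ := by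
  classical
  let _ : Fintype K := Fintype.ofFinite _
  have hH₁n : H₁.Normal := by
    rw [hH₁]
    infer_instance
  have hH₁le : H₁ ≤ K := hH₁K.le
  have hMH₁ : M ≤ H₁ := by
    rw [hH₁]
    exact le_sup_right
  have hK'H₁ : ⁅K, K⁆ ≤ H₁ := by
    rw [hH₁]
    exact le_sup_left
  have hsub : inducedIrrAbove K H₁ ⊆ inducedIrrAbove K ⊥ := S1519.induced_mono K bot_le
  have hne : (inducedIrrAbove K H₁).Nonempty := by
    obtain ⟨θ, hθ, hθ1, hker, -⟩ := S1519.exists_linear K hsolv H₁ hH₁K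
    exact ⟨indFun K θ, θ, hθ, hθ1, hker, rfl⟩
  have hsys := subsystem hS hsub hne (fun χ hχ => S1519.conj_mem_induced K _ hχ)
  have hdeg : ∀ φ ∈ inducedIrrAbove K H₁, φ 1 = (K.index : ℂ) := by
    rintro φ ⟨θ, hθ, hθ1, hker, rfl⟩
    rw [Helper35.indFun_one_eq]
    have h1 := S1519.central_bound hθ ⊤ (fun x _ g => by
      apply hker
      have h2 : ((x⁻¹ * (g * x * g⁻¹) : K) : L) = ⁅((x⁻¹ : K) : L), (g : L)⁆ := by
        simp [commutatorElement_def, mul_assoc]
      rw [h2]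
      exact hK'H₁ (Subgroup.commutator_mem_commutator (K.inv_mem x.2) g.2))
    rw [Subgroup.card_top] at h1
    obtain ⟨hpos, hd⟩ := Helper83.irr_degree hθ
    have hMpos : 0 < Nat.card K := Nat.card_pos
    have h3 : charDegree θ ^ 2 ≤ 1 := by
      by_contra h
      push Not at h
      have : Nat.card K * 1 < Nat.card K * charDegree θ ^ 2 := Nat.mul_lt_mul_of_pos_left h hMpos
      omega
    have h4 : charDegree θ = 1 := by nlinarith
    rw [hd, h4]
    simp
  have hcoh : IsCoherent (inducedIrrAbove K H₁) {1}ᶜ τ :=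
    S1517.result _ τ R hsys (fun φ hφ ψ hψ => by rw [hdeg φ hφ, hdeg ψ hψ])
  have hB : 4 * K.index ^ 2 + 1 < H₁.relIndex K → IsCoherent (inducedIrrAbove K M) {1}ᶜ τ :=
    fun hbig => S1520.result K hsolv τ R hS M H₁ K hMH₁ hH₁le le_rfl hnil hcoh hbig
  have hD : ⁅K, K⁆ ≤ M → IsCoherent (inducedIrrAbove K M) {1}ᶜ τ := by
    intro h
    have h1 : H₁ = M := by
      rw [hH₁]
      exact sup_eq_right.mpr h
    rw [← h1]
    exact hcoh
  have hoddK : ∀ n : ℕ, n ∣ Nat.card K → Odd n := fun n hn =>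
    hodd.of_dvd_nat (hn.trans (Subgroup.card_subgroup_dvd_card K))
  have hodde : Odd K.index := hodd.of_dvd_nat (Subgroup.index_dvd_card K)
  have hepos : 0 < K.index := Nat.pos_of_ne_zero Subgroup.index_ne_zero_of_finite
  have hR : ∀ A : Subgroup L, A.Normal → H₁ ≤ A → A ≤ K → A.relIndex K ≠ 1 →
      2 * K.index + 1 ≤ A.relIndex K := by
    intro A hAn hH₁A hAK hne1
    have hd := quot_frob_dvd K H₁ hH₁le hfrob A hH₁A hAK
    have hoddA : Odd (A.relIndex K) := hoddK _ (Subgroup.relIndex_dvd_card A K)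
    have hpos := relIndex_pos' K A
    exact feit_mod1 _ _ hodde (by omega)
      (fun h => (Nat.not_even_iff_odd.mpr hoddA) (even_iff_two_dvd.mpr h)) hd
  rcases hgood with ⟨N, hNn, hH₁N, hNK⟩ | hb | hc | hd | ⟨p, m, hp, hpm, hep⟩
  · apply hB
    have h1 := hR N hNn hH₁N.le hNK.le
      (fun h => (not_le_of_gt hNK) (Subgroup.relIndex_eq_one.mp h))
    have hmul := Subgroup.relIndex_mul_relIndex H₁ N K hH₁N.le hNK.le
    have h2 : 2 * K.index + 1 ≤ H₁.relIndex N := by
      have hd1 := quot_frob_dvd K H₁ hH₁le hfrob N hH₁N.le hNK.le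
      have hd2 := quot_frob_dvd K H₁ hH₁le hfrob H₁ le_rfl hH₁le
      rw [← hmul] at hd2
      have hd3 := feit_mod3 _ _ _ (relIndex_pos' K N) (relIndex_pos' N H₁) hd2 hd1
      have hne1 : H₁.relIndex N ≠ 1 := fun h =>
        (not_le_of_gt hH₁N) (Subgroup.relIndex_eq_one.mp h)
      have hoddN : Odd (H₁.relIndex N) :=
        hodd.of_dvd_nat ((Subgroup.relIndex_dvd_card H₁ N).trans
          (Subgroup.card_subgroup_dvd_card N))
      have hpos := relIndex_pos' N H₁
      exact feit_mod1 _ _ hodde (by omega)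
        (fun h => (Nat.not_even_iff_odd.mpr hoddN) (even_iff_two_dvd.mpr h)) hd3
    rw [← hmul]
    exact sq_big _ _ _ hepos h2 h1
  · exact hB hb
  · apply hB
    have hrel0 := relIndex_pos' K M
    have hrel1 : M.relIndex K ≠ 1 := fun h =>
      (not_le_of_gt hH₁K) ((Subgroup.relIndex_eq_one.mp h).trans hMH₁)
    rcases card_prime_dichotomy (M.relIndex K) hrel0.ne' hrel1 with
      ⟨p, hp, m, hm⟩ | ⟨p, q, hp, hq, hpq, hpd, hqd⟩
    · exact absurd ⟨p, m, hp, hm⟩ hc
    · obtain ⟨A₁, hA₁n, hA₁H, hA₁K, j₁, hj₁, hr₁⟩ := nil_prime_part K M hMK hnil p hp hpd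
      obtain ⟨A₂, hA₂n, hA₂H, hA₂K, j₂, hj₂, hr₂⟩ := nil_prime_part K M hMK hnil q hq hqd
      rw [← hH₁] at hA₁H hA₂H
      have h1 := hR A₁ hA₁n hA₁H hA₁K
        (by rw [hr₁]; exact (Nat.one_lt_pow hj₁.ne' hp.one_lt).ne')
      have h2 := hR A₂ hA₂n hA₂H hA₂K
        (by rw [hr₂]; exact (Nat.one_lt_pow hj₂.ne' hq.one_lt).ne')
      have hd1 : p ^ j₁ ∣ H₁.relIndex K := by
        rw [← hr₁]
        exact Subgroup.relIndex_dvd_of_le_left K hA₁H
      have hd2 : q ^ j₂ ∣ H₁.relIndex K := by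
        rw [← hr₂]
        exact Subgroup.relIndex_dvd_of_le_left K hA₂H
      have hcop : Nat.Coprime (p ^ j₁) (q ^ j₂) :=
        Nat.Coprime.pow _ _ ((Nat.coprime_primes hp hq).mpr hpq)
      have hd := hcop.mul_dvd_of_dvd_of_dvd hd1 hd2
      have hle := Nat.le_of_dvd (relIndex_pos' K H₁) hd
      rw [hr₁] at h1
      rw [hr₂] at h2
      exact lt_of_lt_of_le (sq_big _ _ _ hepos h1 h2) hle
  · exact hD hd
  · have hdvd : H₁.relIndex K ∣ p ^ m := by
      rw [← hpm]
      exact Subgroup.relIndex_dvd_of_le_left K hMH₁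
    obtain ⟨i, -, hi⟩ := (Nat.dvd_prime_pow hp).mp hdvd
    have hi0 : i ≠ 0 := by
      rintro rfl
      rw [pow_zero] at hi
      exact (not_le_of_gt hH₁K) (Subgroup.relIndex_eq_one.mp hi)
    have hpodd : Odd p := hoddK p (by
      have h1 : p ∣ H₁.relIndex K := by
        rw [hi]
        exact dvd_pow_self p hi0
      exact h1.trans (Subgroup.relIndex_dvd_card H₁ K))
    have hp2e : 2 * K.index + 1 ≤ p := feit_mod1 _ _ hodde hp.one_lt
      (fun h => (Nat.not_even_iff_odd.mpr hpodd) (even_iff_two_dvd.mpr h)) hep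
    rcases Nat.lt_or_ge i 2 with hi2 | hi2
    · have hi1 : i = 1 := by omega
      rw [hi1, pow_one] at hi
      apply hD
      rw [hH₁] at hi
      exact comm_le_of_prime K M hMK hnil p hp hi
    · apply hB
      rw [hi]
      have h1 : p ^ 2 ≤ p ^ i := Nat.pow_le_pow_right hp.pos hi2
      have h2 := sq_big _ _ _ hepos hp2e hp2e
      rw [pow_two] at h1
      omega

end Cfsg.Agent.S1521
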