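import Cfsg.Statements.S1522
import Cfsg.Agent.S1521
import Cfsg.Agent.Lib.Helper35.XCohAbs

set_option autoImplicit false
open Cfsg

namespace Cfsg.Agent.S1522

open Cfsg.Agent.Lib Cfsg.Agent.Lib.Helper35
open scoped ComplexConjugate commutatorElement

theorem eq_of_re_eq (w : ℂ) (d : ℝ) (h1 : w.re = d) (h2 : ‖w‖ ≤ d) : w = (d : ℂ) := by
  have h8 : ‖w‖ ^ 2 = w.re ^ 2 + w.im ^ 2 := by
    rw [Complex.sq_norm, Complex.normSq_apply]
    ring
  have h9 : ‖w‖ ^ 2 ≤ d ^ 2 := pow_le_pow_left₀ (norm_nonneg _) h2 2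
  rw [h8, h1] at h9
  have h7 : w.im = 0 := by nlinarith [sq_nonneg w.im]
  apply Complex.ext
  · rw [h1, Complex.ofReal_re]
  · rw [h7, Complex.ofReal_im]

section Aux

variable {L : Type*} [Group L] [Fintype L] (K : Subgroup L) [hK : K.Normal]

include hK in
/-- if a function induced from an irreducible character of the normal subgroup `K` takes its
degree at `z ∈ K`, so does the inducing character -/
theorem ind_triv (θ : K → ℂ) (hθ : IsIrrCharacter K θ) (z : K)
    (h : indFun K θ z = indFun K θ 1) : θ z = θ 1 := by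
  classical
  let _ : Fintype K := Fintype.ofFinite _
  have h1 : indFun K θ ((1 : K) : L) = indFun K θ 1 := rfl
  rw [← h1, Helper20.indFun_normal_apply, Helper20.indFun_normal_apply] at h
  have hK0 : (Nat.card K : ℂ)⁻¹ ≠ 0 := by
    apply inv_ne_zero
    exact_mod_cast (Nat.card_pos (α := K)).ne'
  have h2 : ∑ x : L, Helper20.conjFun K θ x z = ∑ x : L, Helper20.conjFun K θ x 1 :=
    mul_left_cancel₀ hK0 h
  have h3 : ∀ x : L, Helper20.conjFun K θ x 1 = θ 1 := by
    intro x
    rw [Helper20.conjFun_apply]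
    congr 1
    apply Subtype.ext
    simp
  have hre : ∀ x : L, (Helper20.conjFun K θ x z).re ≤ (charDegree θ : ℝ) := by
    intro x
    rw [Helper20.conjFun_apply]
    exact (Complex.re_le_norm _).trans (Helper83.irr_norm_le hθ _)
  have hd := (Helper83.irr_degree hθ).2
  have h4 : ∑ x : L, ((charDegree θ : ℝ) - (Helper20.conjFun K θ x z).re) = 0 := by
    have h5 := congrArg Complex.re h2
    simp only [Complex.re_sum, h3, hd, Complex.natCast_re] at h5
    rw [Finset.sum_sub_distrib]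
    linarith
  have h6 := (Finset.sum_eq_zero_iff_of_nonneg (fun x _ => sub_nonneg.mpr (hre x))).mp h4 1
    (Finset.mem_univ _)
  rw [Helper20.conjFun_one] at h6
  have h7 := eq_of_re_eq (θ z) (charDegree θ) (by linarith) (Helper83.irr_norm_le hθ z)
  rw [h7, hd]
  simp

include hK in
/-- the members of `S` outside `S(Z)` are the irreducible characters of `L` not trivial on `Z`,
provided they are irreducible -/
theorem diff_eq_ntSet (Z : Subgroup L) [hZ : Z.Normal] (hZK : Z ≤ K)
    (hirr : ∀ χ ∈ inducedIrrAbove K ⊥ \ inducedIrrAbove K Z, IsIrrCharacter L χ) :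
    inducedIrrAbove K ⊥ \ inducedIrrAbove K Z = ntSet Z := by
  classical
  let _ : Fintype K := Fintype.ofFinite _
  have := Helper4.irr_finite (G := L)
  let _ : Fintype (IrrCharacter L) := Fintype.ofFinite _
  have key : ∀ θ : K → ℂ, IsIrrCharacter K θ → (∀ z : K, (z : L) ∈ Z →
      indFun K θ z = indFun K θ 1) → S1519.KerAbove K Z θ := by
    intro θ hθ h a ha
    exact ind_triv K θ hθ a (h a ha)
  have hbot : ∀ θ : K → ℂ, ∀ a : K, (a : L) ∈ (⊥ : Subgroup L) → θ a = θ 1 := by
    intro θ a ha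
    have h1 : a = 1 := Subtype.ext (Subgroup.mem_bot.mp ha)
    rw [h1]
  ext χ
  constructor
  · rintro ⟨⟨θ, hθ, hθ1, -, rfl⟩, hnot⟩
    refine ⟨hirr _ ⟨⟨θ, hθ, hθ1, hbot θ, rfl⟩, hnot⟩, ?_⟩
    intro h
    exact hnot ⟨θ, hθ, hθ1, key θ hθ (fun z hz => h _ hz), rfl⟩
  · rintro ⟨hχ, hnt⟩
    obtain ⟨θ, hθ, hne⟩ := Helper20.exists_constituent K hχ
    have hin : classInner (indFun K θ) χ ≠ 0 := by
      have h1 := Helper83.inner_ind_irr K ⟨θ, hθ⟩ ⟨χ, hχ⟩
      simp only at h1
      rw [h1]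
      intro h2
      apply hne
      have h3 := congrArg (starRingEnd ℂ) h2
      rwa [Complex.conj_conj, map_zero] at h3
    have hθZ : ¬ S1519.KerAbove K Z θ := by
      intro hker
      apply hnt
      intro z hz
      have h1 : indFun K θ z = indFun K θ 1 := S1519.ind_ker K Z θ hker ⟨z, hZK hz⟩ hz
      obtain ⟨b, hb⟩ := Helper4.exists_decomp_of_isCharacter (indFun K θ)
        (Helper35.isCharacter_indFun K (Helper35.isChar_of_irr hθ))
      have hbχ : b ⟨χ, hχ⟩ ≠ 0 := by
        intro h0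
        apply hin
        rw [hb, Helper4.classInner_sum_irr (fun ξ => (b ξ : ℂ)) ⟨χ, hχ⟩, h0]
        simp
      have h2 : ∀ g : L, indFun K θ g = ∑ η : IrrCharacter L, (b η : ℂ) * (η : L → ℂ) g := by
        intro g
        conv_lhs => rw [hb]
        simp [Finset.sum_apply]
      exact S1519.constituent_ker b z (by rw [← h2, ← h2]; exact h1) ⟨χ, hχ⟩ hbχ
    have hθ1 : θ ≠ fun _ => 1 := by
      rintro rfl
      exact hθZ (fun a _ => rfl)
    have hmemS : indFun K θ ∈ inducedIrrAbove K ⊥ := ⟨θ, hθ, hθ1, hbot θ, rfl⟩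
    have hnotZ : indFun K θ ∉ inducedIrrAbove K Z := by
      rintro ⟨θ', hθ', -, hker', heq⟩
      apply hθZ
      apply key θ hθ
      intro z hz
      rw [heq]
      exact S1519.ind_ker K Z θ' hker' z hz
    have hirrInd := hirr _ ⟨hmemS, hnotZ⟩
    have heq : indFun K θ = χ := by
      by_contra hne'
      rw [Helper35.classInner_irr' hirrInd hχ, if_neg hne'] at hin
      exact hin rfl
    rw [← heq]
    exact ⟨hmemS, hnotZ⟩

end Aux

/-- Let K be a nilpotent normal subgroup of the finite group L of odd order with [K,K] < K < L and L/[K,K] a Frobenius group with kernel K/[K,K] (elements of K outside [K,K] are centralised modulo [K,K] only from inside K); let (S, τ, R) be a coherence system from L to G with S the functions induced from non-principal irreducible characters of K. Let Z be a nontrivial normal subgroup of L contained in the centre of K, and suppose every member of S outside S(Z) is an irreducible character of L. Then S minus S(Z) is the set of irreducible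 characters χ of L with χ z ≠ χ 1 for some z ∈ Z, and it is coherent. -/
theorem result {L : Type*} [Group L] [Fintype L] {G : Type*} [Group G] [Fintype G] (K : Subgroup L) [hK : K.Normal] (hsolv : Group.IsSolvable K) (τ : (L → ℂ) → (G → ℂ)) (R : (L → ℂ) → Finset (G → ℂ)) (hS : Cfsg.IsCoherenceSystem (Cfsg.inducedIrrAbove K ⊥) τ R) (hodd : Odd (Nat.card L)) (hnil : Group.IsNilpotent K) (hH₁K : ⁅K, K⁆ < K) (hKL : K < ⊤) (hfrob : ∀ k ∈ K, k ∉ ⁅K, K⁆ → ∀ x : L, x * k * x⁻¹ * k⁻¹ ∈ ⁅K, K⁆ → x ∈ K) (Z : Subgroup L) [Z.Normal] (hZ1 : Z ≠ ⊥) (hZK : Z ≤ K) (hZc : ∀ z ∈ Z, ∀ k ∈ K, z * k = k * z) (hirr : ∀ χ ∈ Cfsg.inducedIrrAbove K ⊥ \ Cfsg.inducedIrrAbove K Z, Cfsg.IsIrrCharacter L χ) : Cfsg.inducedIrrAbove K ⊥ \ Cfsg.inducedIrrAbove K Z = {χ | Cfsg.IsIrrCharacter L χ ∧ ∃ z ∈ Z, χ z ≠ χ 1} ∧ Cfsg.IsCoherent (Cfsg.inducedIrrAbove K ⊥ \ Cfsg.inducedIrrAbove K Z) {1}ᶜ τ := by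
  classical
  let _ : Fintype K := Fintype.ofFinite _
  have hset : inducedIrrAbove K ⊥ \ inducedIrrAbove K Z = ntSet Z := diff_eq_ntSet K Z hZK hirr
  have hnt : ntSet Z = {χ | IsIrrCharacter L χ ∧ ∃ z ∈ Z, χ z ≠ χ 1} := by
    ext χ
    simp only [ntSet, Set.mem_setOf_eq]
    constructor
    · rintro ⟨h1, h2⟩
      push Not at h2
      exact ⟨h1, h2⟩
    · rintro ⟨h1, z, hz, h2⟩
      exact ⟨h1, fun h => h2 (h z hz)⟩
  refine ⟨hset.trans hnt, ?_⟩
  rw [hset]
  have hsub : ntSet Z ⊆ inducedIrrAbove K ⊥ := by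
    rw [← hset]
    exact Set.diff_subset
  have hZcard : 1 < Nat.card Z := by
    have h0 : 0 < Nat.card Z := Nat.card_pos
    have h1 : Nat.card Z ≠ 1 := fun h => hZ1 (Subgroup.card_eq_one.mp h)
    omega
  have hsumZ := sum_sq_ntFin Z
  have hZL := Subgroup.card_mul_index Z
  have hZidx : 0 < Z.index := Nat.pos_of_ne_zero Subgroup.index_ne_zero_of_finite
  have hne : (ntFin Z).Nonempty := by
    rw [Finset.nonempty_iff_ne_empty]
    intro h
    rw [h, Finset.sum_empty] at hsumZ
    have h1 : 1 * Z.index < Nat.card Z * Z.index := Nat.mul_lt_mul_of_pos_right hZcard hZidx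
    omega
  have hK1 : Nat.card K ≠ 1 := by
    intro h
    have h1 : K = ⊥ := Subgroup.card_eq_one.mp h
    rw [h1] at hH₁K
    exact (not_lt_bot hH₁K)
  have hK0 : Nat.card K ≠ 0 := Nat.card_pos.ne'
  rcases card_prime_dichotomy (Nat.card K) hK0 hK1 with ⟨p, hp, m, hm⟩ | ⟨p, q, hp, hq, hpq, hpd, hqd⟩
  · -- `K` is a `p`-group
    have hp1 := hp.one_lt
    have hm0 : m ≠ 0 := by
      rintro rfl
      rw [pow_zero] at hm
      exact hK1 hm
    have hcardL : Nat.card L = K.index * p ^ m := by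
      rw [← hm, mul_comm]
      exact (Subgroup.card_mul_index K).symm
    have hp2 : p ≠ 2 := by
      rintro rfl
      rw [hcardL] at hodd
      exact (Nat.not_even_iff_odd.mpr hodd) (Even.mul_left (Nat.even_pow.mpr ⟨even_two, hm0⟩) _)
    have hepos : 0 < K.index := Nat.pos_of_ne_zero Subgroup.index_ne_zero_of_finite
    have hZdvd : Nat.card Z ∣ p ^ m := by
      rw [← hm]
      exact Subgroup.card_dvd_of_le hZK
    obtain ⟨j, hjm, hj⟩ := (Nat.dvd_prime_pow hp).mp hZdvd
    have hpm : p ^ m = p ^ (m - j) * p ^ j := by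
      rw [← pow_add]
      congr 1
      omega
    have hrel : Z.relIndex K = p ^ (m - j) := by
      have h1 := Subgroup.relIndex_mul_relIndex ⊥ Z K bot_le hZK
      rw [Subgroup.relIndex_bot_left, Subgroup.relIndex_bot_left, hj, hm, hpm, mul_comm] at h1
      exact Nat.eq_of_mul_eq_mul_right (by positivity) h1
    have hZindex : Z.index = K.index * p ^ (m - j) := by
      rw [← Subgroup.relIndex_mul_index hZK, hrel, mul_comm]
    have hcop : Nat.Coprime K.index p := by
      have hd := quot_frob_dvd K ⁅K, K⁆ hH₁K.le hfrob ⁅K, K⁆ le_rfl hH₁K.le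
      have h1 : (⁅K, K⁆ : Subgroup L).relIndex K ∣ p ^ m := by
        rw [← hm]
        exact Subgroup.relIndex_dvd_card _ K
      obtain ⟨i, -, hi⟩ := (Nat.dvd_prime_pow hp).mp h1
      have hi0 : i ≠ 0 := by
        rintro rfl
        rw [pow_zero] at hi
        exact (not_le_of_gt hH₁K) (Subgroup.relIndex_eq_one.mp hi)
      rw [hi] at hd
      have h2 : p ^ i = (p ^ i - 1) + 1 := by
        have : 0 < p ^ i := by positivity
        omega
      have h3 : Nat.Coprime (p ^ i - 1) (p ^ i - 1 + 1) := by simp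
      rw [← h2] at h3
      exact (Nat.coprime_pow_right_iff (Nat.pos_of_ne_zero hi0) _ _).mp (h3.coprime_dvd_left hd)
    have hiso : IsLinearIsometryOn (zspanOn (ntSet Z) {1}ᶜ) τ :=
      isoOn_mono (Helper36.zspanOn_mono hsub _) hS.isometry
    have hmap1 : ∀ α ∈ zspanOn (ntSet Z) {1}ᶜ, τ α 1 = 0 :=
      fun α hα => hS.map_one α (Helper36.zspanOn_mono hsub _ hα)
    rw [← coe_ntFin] at hiso hmap1 ⊢
    refine xcoh_arith' (ntFin Z) hne (fun ξ hξ => (mem_ntFin.mp hξ).1) ?_ τ hiso hmap1 p K.index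
      (p ^ (m - j)) (p ^ j - 1) hp hp2 hepos hcop ?_ ?_
    · intro χ hχ
      have h1 := ntSet_conj hodd (mem_ntFin.mp hχ)
      exact ⟨mem_ntFin.mpr h1.1, h1.2⟩
    · intro χ hχ
      have hχ' := mem_ntFin.mp hχ
      obtain ⟨θ, hθ, hθ1, -, rfl⟩ := hsub hχ'
      have hdvd : charDegree θ ∣ p ^ m := by
        rw [← hm]
        exact Helper83.irr_degree_dvd_card' hθ
      obtain ⟨a, -, ha⟩ := (Nat.dvd_prime_pow hp).mp hdvd
      refine ⟨a, ?_, ?_⟩
      · have h1 := Helper83.indFun_one K θ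
        rw [(Helper83.irr_degree hχ'.1).2, (Helper83.irr_degree hθ).2, ha] at h1
        exact_mod_cast h1
      · have h1 := S1519.central_bound hθ (Z.subgroupOf K) (by
          intro x hx g
          have h2 : x⁻¹ * (g * x * g⁻¹) = 1 := by
            have h3 : (x : L) * (g : L) = (g : L) * (x : L) :=
              hZc x (Subgroup.mem_subgroupOf.mp hx) g g.2
            have h4 : x * g = g * x := Subtype.ext h3
            rw [← h4]
            group
          rw [h2])
        have h5 : Nat.card (Z.subgroupOf K) = Nat.card Z :=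
          Nat.card_congr (Subgroup.subgroupOfEquivOfLe hZK).toEquiv
        rw [h5, hj, hm, ha, ← pow_mul, ← pow_add] at h1
        have h6 := (Nat.pow_le_pow_iff_right hp1).mp h1
        rw [← pow_mul]
        exact pow_dvd_pow p (by omega)
    · rw [hcardL, hZindex] at hsumZ
      have h3 : 1 ≤ p ^ j := Nat.one_le_pow _ _ (by omega)
      have h4 : K.index * (p ^ (m - j) * (p ^ j - 1)) + K.index * p ^ (m - j) = K.index * p ^ m := by
        rw [hpm]
        have h5 : p ^ j = (p ^ j - 1) + 1 := by omega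
        conv_rhs => rw [h5]
        ring
      omega
  · -- `K` is not a `p`-group
    have hnilq : Group.IsNilpotent (↥K ⧸ (⊥ : Subgroup L).subgroupOf K) :=
      Group.nilpotent_of_surjective (QuotientGroup.mk' _) (QuotientGroup.mk'_surjective _)
    have hsup : ⁅K, K⁆ ⊔ (⊥ : Subgroup L) = ⁅K, K⁆ := sup_bot_eq _
    have hcoh := S1521.result K hsolv τ R hS hodd ⊥ bot_le hnilq (⁅K, K⁆ ⊔ ⊥) rfl
      (by rw [hsup]; exact hH₁K) hKL (by rw [hsup]; exact hfrob)
      (Or.inr (Or.inr (Or.inl (by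
        rintro ⟨r, n, hr, hrn⟩
        rw [Subgroup.relIndex_bot_left] at hrn
        rw [hrn] at hpd hqd
        have h1 := (Nat.prime_dvd_prime_iff_eq hp hr).mp (hp.dvd_of_dvd_pow hpd)
        have h2 := (Nat.prime_dvd_prime_iff_eq hq hr).mp (hq.dvd_of_dvd_pow hqd)
        exact hpq (h1.trans h2.symm)))))
    apply S1519.coherent_subset hsub hcoh
    obtain ⟨χ, hχ⟩ := hne
    have hχ' := mem_ntFin.mp hχ
    have hc := ntSet_conj hodd hχ'
    refine ⟨χ - conjFun χ, ?_, ?_⟩
    · rw [Helper36.mem_zspanOn_compl_one]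
      refine ⟨Helper36.zspan_sub (Helper36.subset_zspan _ hχ') (Helper36.subset_zspan _ hc.1), ?_⟩
      rw [Pi.sub_apply, Helper35.conjFun_one_irr hχ'.1, sub_self]
    · intro h
      exact hc.2 (sub_eq_zero.mp h).symm

end Cfsg.Agent.S1522
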