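import Cfsg.Statements.S1524
import Cfsg.Agent.Lib.Helper35.TiNil

set_option autoImplicit false
open Cfsg

namespace Cfsg.Agent.S1524

open Cfsg.Agent.Lib

/-- the centraliser condition of a Frobenius kernel from a complement acting without fixed
points -/
theorem centralizer_le {G : Type*} [Group G] [Finite G] (H W₁ : Subgroup G)
    (hW₁L : W₁ ≤ Subgroup.normalizer (H : Set G))
    (hsup : H ⊔ W₁ = Subgroup.normalizer (H : Set G))
    (hfpf : ∀ w ∈ W₁, w ≠ 1 → ∀ h ∈ H, w * h = h * w → h = 1)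
    (hTI : Cfsg.IsTISubset (H : Set G)) :
    ∀ h ∈ H, h ≠ 1 → Subgroup.centralizer ({h} : Set G) ≤ H := by
  classical
  have hHL : H ≤ Subgroup.normalizer (H : Set G) := Subgroup.le_normalizer
  have hMn : (H.subgroupOf (Subgroup.normalizer (H : Set G))).Normal :=
    Subgroup.normal_in_normalizer
  have hHn : ∀ x ∈ Subgroup.normalizer (H : Set G), ∀ h ∈ H, x * h * x⁻¹ ∈ H := by
    intro x hx h hh
    exact (Subgroup.mem_normalizer_iff.mp hx h).mp hh
  have hdec : ∀ x ∈ Subgroup.normalizer (H : Set G), ∃ a ∈ H, ∃ w ∈ W₁, a * w = x := by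
    intro x hx
    have h1 : (⟨x, hx⟩ : ↥(Subgroup.normalizer (H : Set G))) ∈
        (H ⊔ W₁).subgroupOf (Subgroup.normalizer (H : Set G)) := by
      rw [Subgroup.mem_subgroupOf, hsup]
      exact hx
    rw [Subgroup.subgroupOf_sup hHL hW₁L, Subgroup.mem_sup_of_normal_left] at h1
    obtain ⟨y, hy, z, hz, hyz⟩ := h1
    exact ⟨y, Subgroup.mem_subgroupOf.mp hy, z, Subgroup.mem_subgroupOf.mp hz,
      congrArg Subtype.val hyz⟩
  intro h hh hh1 x hx
  rw [Subgroup.mem_centralizer_singleton_iff] at hx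
  have hxN : x ∈ Subgroup.normalizer (H : Set G) := by
    by_contra hxN
    apply hh1
    apply hTI x hxN h hh
    have h2 : x * h * x⁻¹ = h := by
      rw [hx]
      group
    rw [h2]
    exact hh
  obtain ⟨a, ha, w, hw, rfl⟩ := hdec x hxN
  by_cases hw1 : w = 1
  · rw [hw1, mul_one]
    exact ha
  · exfalso
    have hWn : ∀ y ∈ H, w * y * w⁻¹ ∈ H := fun y hy => hHn w (hW₁L hw) y hy
    let c : H → H := fun y =>
      ⟨(y : G)⁻¹ * (w * (y : G) * w⁻¹), H.mul_mem (H.inv_mem y.2) (hWn y y.2)⟩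
    have hinj : Function.Injective c := by
      intro y y' hyy
      have h1 : (y : G)⁻¹ * (w * (y : G) * w⁻¹) = (y' : G)⁻¹ * (w * (y' : G) * w⁻¹) :=
        congrArg Subtype.val hyy
      have h2 : w * ((y' : G) * (y : G)⁻¹) = (y' : G) * (y : G)⁻¹ * w := by
        calc w * ((y' : G) * (y : G)⁻¹)
            = (y' : G) * ((y' : G)⁻¹ * (w * (y' : G) * w⁻¹)) * w * (y : G)⁻¹ := by group
          _ = (y' : G) * ((y : G)⁻¹ * (w * (y : G) * w⁻¹)) * w * (y : G)⁻¹ := by rw [h1]
          _ = (y' : G) * (y : G)⁻¹ * w := by group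
      have h3 := hfpf w hw hw1 _ (H.mul_mem y'.2 (H.inv_mem y.2)) h2
      apply Subtype.ext
      exact (mul_inv_eq_one.mp h3).symm
    have hsurj : Function.Surjective c := Finite.injective_iff_surjective.mp hinj
    obtain ⟨y, hy⟩ := hsurj ⟨a, ha⟩
    have hy' : (y : G)⁻¹ * (w * (y : G) * w⁻¹) = a := congrArg Subtype.val hy
    have h4 : w * ((y : G) * h * (y : G)⁻¹) = (y : G) * h * (y : G)⁻¹ * w := by
      rw [← hy'] at hx
      calc w * ((y : G) * h * (y : G)⁻¹)
          = (y : G) * ((y : G)⁻¹ * (w * (y : G) * w⁻¹) * w * h) * (y : G)⁻¹ := by group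
        _ = (y : G) * (h * ((y : G)⁻¹ * (w * (y : G) * w⁻¹) * w)) * (y : G)⁻¹ := by rw [hx]
        _ = (y : G) * h * (y : G)⁻¹ * w := by group
    have h5 := hfpf w hw hw1 _ (H.mul_mem (H.mul_mem y.2 hh) (H.inv_mem y.2)) h4
    apply hh1
    have h6 : h = (y : G)⁻¹ * ((y : G) * h * (y : G)⁻¹) * (y : G) := by group
    rw [h6, h5]
    group

/-- Let G be a finite group and H ≤ L subgroups with L of odd order, H ≠ ⊥ nilpotent and normal in L with a nontrivial complement W₁ in L (H ⊓ W₁ = ⊥, H ⊔ W₁ = L) acting on H without non-identity fixed points (L is a Frobenius group with kernel H), and suppose the underlying set of H is a TI-subset of G whose normaliser is L. Let S be the set of functions on L induced from the non-principal irreducible characters of H. Then (S, L minus 1, induction to G) is coherent. -/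
theorem result {G : Type*} [Group G] [Fintype G] (H L W₁ : Subgroup G) [Fintype L] (hodd : Odd (Nat.card L)) (hHL : H ≤ L) (hW₁L : W₁ ≤ L) (hH1 : H ≠ ⊥) (hW1 : W₁ ≠ ⊥) (hnil : Group.IsNilpotent H) (hHn : ∀ x ∈ L, ∀ h ∈ H, x * h * x⁻¹ ∈ H) (hinf : H ⊓ W₁ = ⊥) (hsup : H ⊔ W₁ = L) (hfpf : ∀ w ∈ W₁, w ≠ 1 → ∀ h ∈ H, w * h = h * w → h = 1) (hTI : Cfsg.IsTISubset (H : Set G)) (hN : Subgroup.normalizer (H : Set G) = L) : Cfsg.IsCoherent (Cfsg.inducedIrrAbove (H.subgroupOf L) ⊥) {1}ᶜ (fun α : L → ℂ => Cfsg.indFun L α) := by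
  classical
  subst hN
  have hMn : (H.subgroupOf (Subgroup.normalizer (H : Set G))).Normal :=
    Subgroup.normal_in_normalizer
  have hC := centralizer_le H W₁ hW₁L hsup hfpf hTI
  have hfrob := Helper35.ti_frob H (Subgroup.normalizer (H : Set G)) hC
  rw [Helper35.induced_eq_ntSet _ hfrob]
  exact Helper35.ti_nil_coherent H hTI hC hnil hH1 hodd

end Cfsg.Agent.S1524
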