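import Cfsg.Statements.S1525
import Cfsg.Agent.Lib.Helper35.Dade

set_option autoImplicit false
open Cfsg

namespace Cfsg.Agent.S1525

open Cfsg.Agent.Lib.Helper35
open scoped ComplexConjugate

theorem result {G : Type*} [Group G] [Fintype G] (A : Set G) (L : Subgroup G) [Fintype L] (H : G → Subgroup G) (hD : Cfsg.DadeHypothesis A L H) (χ : G → ℂ) (hχ : Cfsg.IsClassFunction G χ) (ψ : L → ℂ) (hψ : ∀ a : L, (a : G) ∈ A → ψ a = (Nat.card (H a) : ℂ)⁻¹ * ∑ᶠ u ∈ (H a : Set G), χ (a * u)) : (Nat.card L : ℝ)⁻¹ * ∑ᶠ a ∈ {a : L | (a : G) ∈ A}, ‖ψ a‖ ^ 2 ≤ (Nat.card G : ℝ)⁻¹ * ∑ᶠ g ∈ {g : G | ∃ a ∈ A, ∃ u ∈ H a, ∃ x : G, x * g * x⁻¹ = a * u}, ‖χ g‖ ^ 2 := by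
  classical
  set w : L → ℂ := fun a => if (a : G) ∈ A then 1 else 0 with hwdef
  have hw : Cfsg.IsClassFunction L w := by
    intro g h
    have hiff : ((h * g * h⁻¹ : L) : G) ∈ A ↔ (g : G) ∈ A := by
      constructor
      · intro hm
        have := hD.conj_mem (h⁻¹ : L) (h⁻¹ : L).2 _ hm
        simpa [mul_assoc] using this
      · intro hm
        have := hD.conj_mem h h.2 _ hm
        simpa using this
    simp only [hwdef, hiff]
  set f : G → ℂ := fun g => ((‖χ g‖ ^ 2 : ℝ) : ℂ) with hfdef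
  have hf : ∀ g x : G, f (x⁻¹ * g * x) = f g := by
    intro g x
    have := hχ g x⁻¹
    simp only [inv_inv] at this
    simp only [hfdef, this]
  have hmain := dade_main_class A L H hD w hw f hf
  have hL : (0 : ℝ) < (Nat.card L : ℝ) := by exact_mod_cast (Nat.card_pos (α := L))
  have hG : (0 : ℝ) < (Nat.card G : ℝ) := by exact_mod_cast (Nat.card_pos (α := G))
  -- the Dade image of the indicator
  have hwτ : ∀ g : G, Cfsg.dadeIsometry A L H w g =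
      if (∃ a ∈ A, ∃ u ∈ H a, ∃ x : G, x * g * x⁻¹ = a * u) then 1 else 0 := by
    intro g
    split_ifs with hg
    · obtain ⟨a, ha, u, hu, x, hx⟩ := hg
      rw [dade_apply_of_witness A L H hD w hw g ⟨a, hD.subset ha⟩ ha x u hu hx]
      simp only [hwdef, ha, if_true]
    · unfold Cfsg.dadeIsometry
      rw [dif_neg]
      rintro ⟨a, ha, x, u, hu, hx⟩
      exact hg ⟨a, ha, u, hu, x, hx⟩
  have hlhs : ∑ g : G, Cfsg.dadeIsometry A L H w g * f g =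
      ((∑ g : G, if (∃ a ∈ A, ∃ u ∈ H a, ∃ x : G, x * g * x⁻¹ = a * u) then ‖χ g‖ ^ 2 else 0 : ℝ) : ℂ) := by
    rw [Complex.ofReal_sum]
    refine Finset.sum_congr rfl fun g _ => ?_
    rw [hwτ g]
    split_ifs <;> simp [hfdef]
  have hrhs : ∑ a : L, (if (a : G) ∈ A then
        w a * (Nat.card (H a) : ℂ)⁻¹ * ∑ u : G, (if u ∈ H a then f (a * u) else 0) else 0) =
      ((∑ a : L, if (a : G) ∈ A then (Nat.card (H (a : G)) : ℝ)⁻¹ *
        ∑ u : G, (if u ∈ H (a : G) then ‖χ (a * u)‖ ^ 2 else 0) else 0 : ℝ) : ℂ) := by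
    rw [Complex.ofReal_sum]
    refine Finset.sum_congr rfl fun a _ => ?_
    split_ifs with ha
    · simp only [hwdef, ha, if_true, one_mul, hfdef]
      push_cast
      congr 1
      refine Finset.sum_congr rfl fun u _ => ?_
      split_ifs <;> simp
    · simp
  rw [hlhs, hrhs] at hmain
  have hmain' : (Nat.card L : ℝ) * (∑ g : G, if (∃ a ∈ A, ∃ u ∈ H a, ∃ x : G, x * g * x⁻¹ = a * u)
      then ‖χ g‖ ^ 2 else 0) = (Nat.card G : ℝ) * ∑ a : L, if (a : G) ∈ A then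
        (Nat.card (H (a : G)) : ℝ)⁻¹ * ∑ u : G, (if u ∈ H (a : G) then ‖χ (a * u)‖ ^ 2 else 0)
        else 0 := by
    exact_mod_cast hmain
  -- Cauchy-Schwarz for each a
  have hCS : ∀ a : L, (a : G) ∈ A → ‖ψ a‖ ^ 2 ≤ (Nat.card (H (a : G)) : ℝ)⁻¹ *
      ∑ u : G, (if u ∈ H (a : G) then ‖χ (a * u)‖ ^ 2 else 0) := by
    intro a ha
    have hn : (0 : ℝ) < (Nat.card (H (a : G)) : ℝ) := by
      exact_mod_cast (Nat.card_pos (α := H (a : G)))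
    rw [hψ a ha, finsum_mem_subgroup_eq_sum, ← Finset.sum_filter, ← Finset.sum_filter]
    set s := Finset.univ.filter (fun u : G => u ∈ H (a : G)) with hs
    have hcard : (s.card : ℝ) = (Nat.card (H (a : G)) : ℝ) := by
      rw [hs, Nat.card_eq_fintype_card, Fintype.card_subtype]
    rw [norm_mul, norm_inv, Complex.norm_natCast, mul_pow]
    have h1 : ‖∑ u ∈ s, χ (a * u)‖ ≤ ∑ u ∈ s, ‖χ (a * u)‖ := norm_sum_le _ _
    have h2 : (∑ u ∈ s, ‖χ (a * u)‖) ^ 2 ≤ (s.card : ℝ) * ∑ u ∈ s, ‖χ (a * u)‖ ^ 2 :=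
      sq_sum_le_card_mul_sum_sq
    have h3 : ‖∑ u ∈ s, χ (a * u)‖ ^ 2 ≤ (Nat.card (H (a : G)) : ℝ) * ∑ u ∈ s, ‖χ (a * u)‖ ^ 2 := by
      rw [← hcard]
      exact le_trans (pow_le_pow_left₀ (norm_nonneg _) h1 2) h2
    calc ((Nat.card (H (a : G)) : ℝ)⁻¹) ^ 2 * ‖∑ u ∈ s, χ (a * u)‖ ^ 2
        ≤ ((Nat.card (H (a : G)) : ℝ)⁻¹) ^ 2 * ((Nat.card (H (a : G)) : ℝ) * ∑ u ∈ s, ‖χ (a * u)‖ ^ 2) :=
          mul_le_mul_of_nonneg_left h3 (by positivity)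
      _ = (Nat.card (H (a : G)) : ℝ)⁻¹ * ∑ u ∈ s, ‖χ (a * u)‖ ^ 2 := by
          field_simp
  rw [finsum_mem_set_eq_sum, finsum_mem_set_eq_sum]
  simp only [Set.mem_setOf_eq]
  have hsum_le : ∑ a : L, (if (a : G) ∈ A then ‖ψ a‖ ^ 2 else 0) ≤
      ∑ a : L, if (a : G) ∈ A then (Nat.card (H (a : G)) : ℝ)⁻¹ *
        ∑ u : G, (if u ∈ H (a : G) then ‖χ (a * u)‖ ^ 2 else 0) else 0 := by
    apply Finset.sum_le_sum
    intro a _
    split_ifs with ha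
    · exact hCS a ha
    · exact le_refl _
  have h4 : (Nat.card G : ℝ)⁻¹ * (∑ g : G, if (∃ a ∈ A, ∃ u ∈ H a, ∃ x : G, x * g * x⁻¹ = a * u)
      then ‖χ g‖ ^ 2 else 0) = (Nat.card L : ℝ)⁻¹ * ∑ a : L, if (a : G) ∈ A then
        (Nat.card (H (a : G)) : ℝ)⁻¹ * ∑ u : G, (if u ∈ H (a : G) then ‖χ (a * u)‖ ^ 2 else 0)
        else 0 := by
    rw [inv_mul_eq_div, inv_mul_eq_div, div_eq_div_iff hG.ne' hL.ne']
    linear_combination hmain'
  rw [h4]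
  exact mul_le_mul_of_nonneg_left hsum_le (by positivity)

end Cfsg.Agent.S1525
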