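import Cfsg.Statements.S1532
import Cfsg.Agent.Lib.Helper35.TiSetup
import Cfsg.Agent.Lib.Helper20.Tifn

set_option autoImplicit false
open Cfsg

namespace Cfsg.Agent.S1532

open Cfsg.Agent.Lib

/-- Let G be a finite group, p an odd prime and P a Sylow p-subgroup that is non-abelian, whose underlying set is a TI-subset of G, with P properly contained in its set normaliser N and C_G(x) ≤ P for every non-identity x ∈ P. Let Z be a nontrivial subgroup of the centre of P normalised by N. Then the set of irreducible characters χ of N with χ z ≠ χ 1 for some z ∈ Z is coherent for the map induced by induction from N to G. -/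
theorem result {G : Type*} [Group G] [Fintype G] (p : ℕ) [Fact p.Prime] (hp : p ≠ 2) (P : Sylow p G) (hna : ¬ IsMulCommutative (P : Subgroup G)) (hTI : Cfsg.IsTISubset ((P : Subgroup G) : Set G)) (hlt : (P : Subgroup G) < Subgroup.normalizer ((P : Subgroup G) : Set G)) (hC : ∀ k ∈ (P : Subgroup G), k ≠ 1 → Subgroup.centralizer ({k} : Set G) ≤ (P : Subgroup G)) [Fintype ↥(Subgroup.normalizer ((P : Subgroup G) : Set G))] (Z : Subgroup G) (hZ1 : Z ≠ ⊥) (hZP : ∀ z ∈ Z, z ∈ (P : Subgroup G) ∧ ∀ y ∈ (P : Subgroup G), z * y = y * z) (hZn : ∀ x ∈ Subgroup.normalizer ((P : Subgroup G) : Set G), ∀ z ∈ Z, x * z * x⁻¹ ∈ Z) : Cfsg.IsCoherent {χ : ↥(Subgroup.normalizer ((P : Subgroup G) : Set G)) → ℂ | Cfsg.IsIrrCharacter ↥(Subgroup.normalizer ((P : Subgroup G) : Set G)) χ ∧ ∃ z : ↥(Subgroup.normalizer ((P : Subgroup G) : Set G)), (z : G) ∈ Z ∧ χ z ≠ χ 1} {1}ᶜ (fun α => Cfsg.indFun (Subgroup.normalizer ((P : Subgroup G) : Set G)) α) := by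
  classical
  have hMn0 : ((P : Subgroup G).subgroupOf (Subgroup.normalizer ((P : Subgroup G) : Set G))).Normal :=
    Subgroup.normal_in_normalizer
  have hiso0 := Helper35.ti_isometry (P : Subgroup G) _ rfl hTI hC
  generalize Subgroup.normalizer ((P : Subgroup G) : Set G) = N at *
  have hPN : (P : Subgroup G) ≤ N := hlt.le
  have hfrob := Helper35.ti_frob (P : Subgroup G) N hC
  have hAn : (Z.subgroupOf N).Normal := by
    refine ⟨fun n hn g => ?_⟩
    rw [Subgroup.mem_subgroupOf] at hn ⊢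
    exact hZn (g : G) g.2 (n : G) hn
  have hAM : Z.subgroupOf N ≤ (P : Subgroup G).subgroupOf N := by
    intro z hz
    rw [Subgroup.mem_subgroupOf] at hz ⊢
    exact (hZP _ hz).1
  have hAc : ∀ z ∈ Z.subgroupOf N, ∀ k ∈ (P : Subgroup G).subgroupOf N, z * k = k * z := by
    intro z hz k hk
    rw [Subgroup.mem_subgroupOf] at hz hk
    exact Subtype.ext ((hZP _ hz).2 _ hk)
  have hA1 : Z.subgroupOf N ≠ ⊥ := by
    intro h
    apply hZ1
    rw [Subgroup.eq_bot_iff_forall]
    intro z hz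
    have h1 : (⟨z, hPN (hZP z hz).1⟩ : N) ∈ Z.subgroupOf N := Subgroup.mem_subgroupOf.mpr hz
    rw [h, Subgroup.mem_bot] at h1
    exact congrArg Subtype.val h1
  have hcardM : Nat.card ((P : Subgroup G).subgroupOf N) = Nat.card (P : Subgroup G) :=
    Nat.card_congr (Subgroup.subgroupOfEquivOfLe hPN).toEquiv
  have hpM : IsPGroup p ((P : Subgroup G).subgroupOf N) := P.isPGroup'.comap_subtype
  have hMo : Odd (Nat.card ((P : Subgroup G).subgroupOf N)) := by
    obtain ⟨n, hn⟩ := IsPGroup.iff_card.mp hpM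
    rw [hn]
    exact Odd.pow ((Fact.out : p.Prime).odd_of_ne_two hp)
  have hMnc : ¬ ∀ a ∈ (P : Subgroup G).subgroupOf N, ∀ b ∈ (P : Subgroup G).subgroupOf N,
      a * b = b * a := by
    intro hab
    apply hna
    refine ⟨⟨fun a b => ?_⟩⟩
    apply Subtype.ext
    have := hab ⟨(a : G), hPN a.2⟩ (Subgroup.mem_subgroupOf.mpr a.2) ⟨(b : G), hPN b.2⟩
      (Subgroup.mem_subgroupOf.mpr b.2)
    exact congrArg (fun x : ↥N => (x : G)) this
  have hodd := Helper35.frob_odd ((P : Subgroup G).subgroupOf N) hfrob hMnc hMo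
  have hsub : Helper35.ntSet (Z.subgroupOf N) ⊆ Helper35.ntSet ((P : Subgroup G).subgroupOf N) :=
    Helper35.ntSet_mono hAM
  have hset : {χ : ↥N → ℂ | Cfsg.IsIrrCharacter ↥N χ ∧ ∃ z : ↥N, (z : G) ∈ Z ∧ χ z ≠ χ 1} =
      Helper35.ntSet (Z.subgroupOf N) := by
    ext χ
    exact Helper20.tifn_mem_iff Z N χ
  rw [hset]
  exact Helper35.xcoh N ((P : Subgroup G).subgroupOf N) (Z.subgroupOf N) hfrob hodd p Fact.out hpM
    hAM hAc hA1 _ (Helper35.isoOn_mono (Helper36.zspanOn_mono hsub _) hiso0.1)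
    (fun α hα => hiso0.2 α (Helper36.zspanOn_mono hsub _ hα))

end Cfsg.Agent.S1532
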