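import Cfsg.Statements.S1533
import Cfsg.Agent.Lib.Helper35.SibleySyl
import Cfsg.Agent.Lib.Helper20.Tifn

set_option autoImplicit false
open Cfsg

namespace Cfsg.Agent.S1533

open Cfsg.Agent.Lib

/-- Let G be a finite group, p an odd prime, and P a nontrivial Sylow p-subgroup whose underlying set is a TI-subset of G, with P properly contained in its set normaliser N and C_G(x) ≤ P for every non-identity x ∈ P. Let S be the set of irreducible characters χ of N with χ x ≠ χ 1 for some x ∈ P. Then either S has exactly one member, P is elementary abelian and Nat.card P = [N:P] + 1; or (S, N minus 1, induction to G) is coherent. -/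
theorem result {G : Type*} [Group G] [Fintype G] (p : ℕ) [Fact p.Prime] (hp : p ≠ 2) (P : Sylow p G) (hP1 : (P : Subgroup G) ≠ ⊥) (hTI : Cfsg.IsTISubset ((P : Subgroup G) : Set G)) (hlt : (P : Subgroup G) < Subgroup.normalizer ((P : Subgroup G) : Set G)) (hC : ∀ k ∈ (P : Subgroup G), k ≠ 1 → Subgroup.centralizer ({k} : Set G) ≤ (P : Subgroup G)) [Fintype ↥(Subgroup.normalizer ((P : Subgroup G) : Set G))] : (Nat.card {χ : ↥(Subgroup.normalizer ((P : Subgroup G) : Set G)) → ℂ // Cfsg.IsIrrCharacter ↥(Subgroup.normalizer ((P : Subgroup G) : Set G)) χ ∧ ∃ x : ↥(Subgroup.normalizer ((P : Subgroup G) : Set G)), (x : G) ∈ (P : Subgroup G) ∧ χ x ≠ χ 1} = 1 ∧ Cfsg.IsElementaryAbelian p (P : Subgroup G) ∧ Nat.card (P : Subgroup G) = ((P : Subgroup G).subgroupOf (Subgroup.normalizer ((P : Subgroup G) : Set G))).index + 1) ∨ Cfsg.IsCoherent {χ : ↥(Subgroup.normalizer ((P : Subgroup G) : Set G)) → ℂ | Cfsg.IsIrrCharacter ↥(Subgroup.normalizer ((P : Subgroup G) : Set G)) χ ∧ ∃ x : ↥(Subgroup.normalizer ((P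 : Subgroup G) : Set G)), (x : G) ∈ (P : Subgroup G) ∧ χ x ≠ χ 1} {1}ᶜ (fun α => Cfsg.indFun (Subgroup.normalizer ((P : Subgroup G) : Set G)) α) := by
  classical
  have hset : {χ : ↥(Subgroup.normalizer ((P : Subgroup G) : Set G)) → ℂ |
      Cfsg.IsIrrCharacter ↥(Subgroup.normalizer ((P : Subgroup G) : Set G)) χ ∧
      ∃ x : ↥(Subgroup.normalizer ((P : Subgroup G) : Set G)),
        (x : G) ∈ (P : Subgroup G) ∧ χ x ≠ χ 1} =
      Helper35.ntSet ((P : Subgroup G).subgroupOf
        (Subgroup.normalizer ((P : Subgroup G) : Set G))) := by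
    ext χ
    exact Helper20.tifn_mem_iff _ _ χ
  by_cases hab : IsMulCommutative (P : Subgroup G)
  · have hab' : ∀ a ∈ (P : Subgroup G), ∀ b ∈ (P : Subgroup G), a * b = b * a := by
      intro a ha b hb
      have := hab.is_comm.comm (⟨a, ha⟩ : (P : Subgroup G)) ⟨b, hb⟩
      exact congrArg Subtype.val this
    rcases Helper35.ti_abelian (P : Subgroup G) hTI hC hab' hP1 with ⟨h1, h2, h3⟩ | h
    · left
      refine ⟨?_, ⟨hab, fun a ha => h3 p Fact.out ?_ a ha⟩, h2⟩
      · rw [← h1, ← Nat.card_eq_finsetCard]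
        apply Nat.card_congr
        exact Equiv.subtypeEquivRight (fun χ => by
          rw [Helper35.mem_ntFin]
          exact Helper20.tifn_mem_iff _ _ χ)
      · obtain ⟨n, hn⟩ := IsPGroup.iff_card.mp P.isPGroup'
        have hn0 : n ≠ 0 := by
          rintro rfl
          rw [pow_zero] at hn
          exact hP1 (Subgroup.card_eq_one.mp hn)
        rw [hn]
        exact dvd_pow_self p hn0
    · right
      rw [hset]
      exact h
  · right
    rw [hset]
    exact Helper35.sylow_coh_nonabelian p hp P hab hTI hC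

end Cfsg.Agent.S1533
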