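import Cfsg.Statements.S1536
import Cfsg.Agent.Lib.Helper4.CharExp2
import Cfsg.Agent.Lib.Helper32.Coprime

set_option autoImplicit false
open Cfsg

namespace Cfsg.Agent.S1536

open Cfsg.Agent.Lib.Helper4
open Representation
open scoped ComplexConjugate

section Brauer

variable {G : Type*} [Group G]

theorem irr_comp_equiv {χ : G → ℂ} (h : IsIrrCharacter G χ) (α : G ≃* G) :
    IsIrrCharacter G (χ ∘ α) := by
  obtain ⟨n, ρ, hρ, rfl⟩ := h
  refine ⟨n, ρ.comp α.toMonoidHom, ?_, ?_⟩
  · let f : Subrepresentation (ρ.comp α.toMonoidHom) → Subrepresentation ρ := fun S =>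
      { toSubmodule := S.toSubmodule
        apply_mem_toSubmodule := by
          intro g v hv
          have h1 := S.apply_mem_toSubmodule (α.symm g) hv
          have h2 : (ρ.comp α.toMonoidHom) (α.symm g) = ρ g := by
            show ρ (α (α.symm g)) = ρ g
            rw [MulEquiv.apply_symm_apply]
          rw [h2] at h1
          exact h1 }
    have hf : ∀ S, (f S).toSubmodule = S.toSubmodule := fun S => rfl
    refine { exists_pair_ne := ?_, eq_bot_or_eq_top := ?_ }
    · refine ⟨⊥, ⊤, ?_⟩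
      intro hbt
      obtain ⟨a, b, hab⟩ := hρ.toNontrivial
      have h2 : (⊥ : Subrepresentation (ρ.comp α.toMonoidHom)).toSubmodule
          = (⊤ : Subrepresentation (ρ.comp α.toMonoidHom)).toSubmodule := by rw [hbt]
      have h3 : (⊥ : Submodule ℂ (Fin n → ℂ)) = ⊤ := h2
      apply hab
      apply Subrepresentation.toSubmodule_injective
      have hsub : Subsingleton (Submodule ℂ (Fin n → ℂ)) := subsingleton_of_bot_eq_top h3
      exact Subsingleton.elim _ _
    · intro S
      rcases hρ.eq_bot_or_eq_top (f S) with h1 | h1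
      · left
        apply Subrepresentation.toSubmodule_injective
        have := congrArg Subrepresentation.toSubmodule h1
        rw [hf] at this
        exact this
      · right
        apply Subrepresentation.toSubmodule_injective
        have := congrArg Subrepresentation.toSubmodule h1
        rw [hf] at this
        exact this
  · ext g
    rfl

theorem irr_one : IsIrrCharacter G (fun _ => (1 : ℂ)) := by
  have hirr : (Representation.trivial ℂ G ℂ).IsIrreducible := by
    refine { exists_pair_ne := ?_, eq_bot_or_eq_top := ?_ }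
    · refine ⟨⊥, ⊤, ?_⟩
      intro hbt
      have h2 : (⊥ : Subrepresentation (Representation.trivial ℂ G ℂ)).toSubmodule
          = (⊤ : Subrepresentation (Representation.trivial ℂ G ℂ)).toSubmodule := by rw [hbt]
      have h3 : (1 : ℂ) ∈ (⊤ : Subrepresentation (Representation.trivial ℂ G ℂ)).toSubmodule :=
        Submodule.mem_top
      rw [← h2] at h3
      exact one_ne_zero ((Submodule.mem_bot ℂ).mp h3)
    · intro S
      rcases eq_bot_or_eq_top S.toSubmodule with h1 | h1
      · left
        exact Subrepresentation.toSubmodule_injective h1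
      · right
        exact Subrepresentation.toSubmodule_injective h1
  have h1 := isIrrCharacter_of_irreducible (Representation.trivial ℂ G ℂ)
  have h2 : (Representation.trivial ℂ G ℂ).character = fun _ => (1 : ℂ) := by
    ext g
    simp [Representation.character]
  rw [h2] at h1
  exact h1

variable [Fintype G]

theorem fixed_count (α : G ≃* G) [Fintype (IrrCharacter G)]
    [DecidablePred (fun χ : IrrCharacter G => (χ : G → ℂ) ∘ α = χ)]
    [∀ g : G, Decidable (IsConj (α g) g)] :
    ((Finset.univ.filter (fun χ : IrrCharacter G => (χ : G → ℂ) ∘ α = χ)).card : ℂ)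
        * (Nat.card G : ℂ)
      = ∑ g : G, (if IsConj (α g) g
          then (Nat.card (Subgroup.centralizer ({α g} : Set G)) : ℂ) else 0) := by
  have h1 : ((Finset.univ.filter (fun χ : IrrCharacter G => (χ : G → ℂ) ∘ α = χ)).card : ℂ)
      = ∑ χ : IrrCharacter G, classInner ((χ : G → ℂ) ∘ α) χ := by
    rw [Finset.card_filter]
    push_cast
    apply Finset.sum_congr rfl
    intro χ _
    have h2 := classInner_irr (⟨(χ : G → ℂ) ∘ α, irr_comp_equiv χ.2 α⟩ : IrrCharacter G) χ
    rw [h2]
    have h3 : ((⟨(χ : G → ℂ) ∘ α, irr_comp_equiv χ.2 α⟩ : IrrCharacter G) = χ)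
        ↔ ((χ : G → ℂ) ∘ α = χ) := Subtype.ext_iff
    by_cases h4 : (χ : G → ℂ) ∘ α = χ
    · rw [if_pos h4, if_pos (h3.mpr h4)]
    · rw [if_neg h4, if_neg (fun h => h4 (h3.mp h))]
  rw [h1, Finset.sum_mul]
  have h4 : ∀ χ : IrrCharacter G, classInner ((χ : G → ℂ) ∘ α) χ * (Nat.card G : ℂ)
      = ∑ g : G, (χ : G → ℂ) (α g) * conj ((χ : G → ℂ) g) := by
    intro χ
    simp only [classInner, Function.comp_apply]
    rw [mul_comm, ← mul_assoc, mul_inv_cancel₀ card_ne_zero_complex, one_mul]
  rw [Finset.sum_congr rfl (fun χ _ => h4 χ), Finset.sum_comm]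
  apply Finset.sum_congr rfl
  intro g _
  rw [col_orth (α g) g]
  by_cases h5 : IsConj (α g) g
  · rw [if_pos h5, if_pos h5]
  · rw [if_neg h5, if_neg h5]

end Brauer

section GT

theorem exists_commuting {M : Type*} [Group M] [Finite M] (H : Subgroup M) [hN : H.Normal]
    (hHall : Nat.Coprime (Nat.card H) H.index) (x : M) (g : M) (hg : g ∈ H) (hg1 : g ≠ 1)
    (y : M) (hy : y ∈ H) (hxy : x * g * x⁻¹ = y * g * y⁻¹) :
    ∃ c ∈ H, c ≠ 1 ∧ x * c = c * x := by
  by_cases hxn : x ^ H.index = 1
  · have hord : orderOf x ∣ H.index := orderOf_dvd_of_pow_eq_one hxn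
    have hcard : Nat.card (Subgroup.zpowers x) = orderOf x := Nat.card_zpowers x
    have hcop : (Nat.card (Subgroup.zpowers x)).Coprime (Nat.card H) := by
      rw [hcard]
      exact (Nat.Coprime.coprime_dvd_right hord hHall).symm
    obtain ⟨T, hT⟩ : ∃ T : Set M, T = {t | ∃ z ∈ H, t = z * g * z⁻¹} := ⟨_, rfl⟩
    have hxT : ∀ t ∈ T, x * t * x⁻¹ ∈ T := by
      intro t ht
      rw [hT] at ht ⊢
      obtain ⟨z, hz, rfl⟩ := ht
      refine ⟨x * z * x⁻¹ * y, H.mul_mem (hN.conj_mem z hz x) hy, ?_⟩
      have h1 : x * (z * g * z⁻¹) * x⁻¹ = (x * z * x⁻¹) * (x * g * x⁻¹) * (x * z * x⁻¹)⁻¹ := by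
        group
      rw [h1, hxy]
      group
    have hxT' : ∀ t ∈ T, x⁻¹ * t * x ∈ T := by
      intro t ht
      rw [hT] at ht ⊢
      obtain ⟨z, hz, rfl⟩ := ht
      have hw : x⁻¹ * y⁻¹ * x ∈ H := by
        have := hN.conj_mem y⁻¹ (H.inv_mem hy) x⁻¹
        simpa using this
      have hz' : x⁻¹ * z * x ∈ H := by
        have := hN.conj_mem z hz x⁻¹
        simpa using this
      refine ⟨x⁻¹ * z * x * (x⁻¹ * y⁻¹ * x), H.mul_mem hz' hw, ?_⟩
      have h1 : x⁻¹ * z * x * (x⁻¹ * y⁻¹ * x) * g * (x⁻¹ * z * x * (x⁻¹ * y⁻¹ * x))⁻¹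
          = x⁻¹ * z * y⁻¹ * (x * g * x⁻¹) * y * z⁻¹ * x := by group
      rw [h1, hxy]
      group
    have hpow : ∀ k : ℤ, ∀ t ∈ T, x ^ k * t * (x ^ k)⁻¹ ∈ T := by
      intro k
      induction k using Int.induction_on with
      | zero => intro t ht; simpa using ht
      | succ k ih =>
        intro t ht
        have h1 : x ^ ((k : ℤ) + 1) * t * (x ^ ((k : ℤ) + 1))⁻¹
            = x ^ (k : ℤ) * (x * t * x⁻¹) * (x ^ (k : ℤ))⁻¹ := by
          rw [zpow_add_one]
          group
        rw [h1]
        exact ih _ (hxT t ht)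
      | pred k ih =>
        intro t ht
        have h1 : x ^ (-(k : ℤ) - 1) * t * (x ^ (-(k : ℤ) - 1))⁻¹
            = x ^ (-(k : ℤ)) * (x⁻¹ * t * x) * (x ^ (-(k : ℤ)))⁻¹ := by
          rw [zpow_sub_one]
          group
        rw [h1]
        exact ih _ (hxT' t ht)
    have hAnorm : Subgroup.zpowers x ≤ Subgroup.normalizer (H : Set M) := by
      intro a _
      rw [Subgroup.mem_normalizer_iff]
      intro h
      constructor
      · intro hh
        exact hN.conj_mem h hh a
      · intro hh
        have := hN.conj_mem _ hh a⁻¹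
        simpa [mul_assoc] using this
    have hAsol : Group.IsSolvable (Subgroup.zpowers x) := by
      apply Group.isSolvable_of_comm
      rintro ⟨a, ha⟩ ⟨b, hb⟩
      obtain ⟨i, rfl⟩ := Subgroup.mem_zpowers_iff.mp ha
      obtain ⟨j, rfl⟩ := Subgroup.mem_zpowers_iff.mp hb
      apply Subtype.ext
      show x ^ i * x ^ j = x ^ j * x ^ i
      rw [← zpow_add, ← zpow_add, add_comm]
    have hTne : T.Nonempty := ⟨g, by rw [hT]; exact ⟨1, H.one_mem, by simp⟩⟩
    have hglaub := Cfsg.Agent.Lib.Helper32.glauberman_aux (G := M) (Ω := M)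
      (fun a t => a * t * a⁻¹) (by intro t; simp) (by intro a b t; group)
      (Nat.card (Subgroup.zpowers x)) (Subgroup.zpowers x) H T le_rfl hAnorm hcop hAsol
      (by
        intro a ha t ht
        obtain ⟨k, rfl⟩ := Subgroup.mem_zpowers_iff.mp ha
        exact hpow k t ht)
      (by
        intro z hz t ht
        rw [hT] at ht ⊢
        obtain ⟨w, hw, rfl⟩ := ht
        exact ⟨z * w, H.mul_mem hz hw, by group⟩)
      (by
        intro s hs t ht
        rw [hT] at hs ht
        obtain ⟨w, hw, rfl⟩ := hs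
        obtain ⟨v, hv, rfl⟩ := ht
        exact ⟨v * w⁻¹, H.mul_mem hv (H.inv_mem hw), by group⟩)
      hTne
    obtain ⟨⟨t, htT, hfix⟩, -⟩ := hglaub
    have hx : x * t * x⁻¹ = t := hfix x (Subgroup.mem_zpowers x)
    rw [hT] at htT
    obtain ⟨z, hz, rfl⟩ := htT
    refine ⟨z * g * z⁻¹, H.mul_mem (H.mul_mem hz hg) (H.inv_mem hz), ?_, ?_⟩
    · intro h1
      apply hg1
      have : g = z⁻¹ * (z * g * z⁻¹) * z := by group
      rw [this, h1]
      group
    · calc x * (z * g * z⁻¹) = (x * (z * g * z⁻¹) * x⁻¹) * x := by group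
        _ = (z * g * z⁻¹) * x := by rw [hx]
  · exact ⟨x ^ H.index, Subgroup.pow_index_mem H x, hxn, by rw [← pow_succ', ← pow_succ]⟩

end GT

/-- Let H be a normal subgroup of the finite group M whose order is coprime to its index. For x ∈ M: some non-principal irreducible character of H is unchanged under h ↦ θ(x h x⁻¹) if and only if some non-identity element of H commutes with x. -/
theorem result {M : Type*} [Group M] [Finite M] (H : Subgroup M) [hN : H.Normal] (hHall : Nat.Coprime (Nat.card H) H.index) (x : M) : (∃ θ : H → ℂ, Cfsg.IsIrrCharacter H θ ∧ θ ≠ (fun _ => 1) ∧ (fun h : H => θ ⟨x * h * x⁻¹, hN.conj_mem h h.2 x⟩) = θ) ↔ ∃ h ∈ H, h ≠ 1 ∧ x * h = h * x := by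
  classical
  cases nonempty_fintype H
  have hfin := irr_finite (G := H)
  let _ : Fintype (IrrCharacter H) := Fintype.ofFinite _
  obtain ⟨α, hα⟩ : ∃ α : H ≃* H, ∀ h : H, ((α h : H) : M) = x * h * x⁻¹ :=
    ⟨MulAut.conjNormal x, fun h => MulAut.conjNormal_apply x h⟩
  have hcomp : ∀ θ : H → ℂ, (fun h : H => θ ⟨x * h * x⁻¹, hN.conj_mem h h.2 x⟩) = θ ∘ α := by
    intro θ
    funext h
    show _ = θ (α h)
    congr 1
    exact Subtype.ext (hα h).symm
  have key := fixed_count α
  obtain ⟨Tn, hTn⟩ : ∃ Tn : H → ℕ, Tn = fun g => if IsConj (α g) g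
      then Nat.card (Subgroup.centralizer ({α g} : Set H)) else 0 := ⟨_, rfl⟩
  have keyN : (Finset.univ.filter (fun χ : IrrCharacter H => (χ : H → ℂ) ∘ α = χ)).card
      * Nat.card H = ∑ g : H, Tn g := by
    have h1 : ((∑ g : H, Tn g : ℕ) : ℂ) = ∑ g : H, (if IsConj (α g) g
          then (Nat.card (Subgroup.centralizer ({α g} : Set H)) : ℂ) else 0) := by
      rw [hTn]
      push_cast
      rfl
    have h2 : (((Finset.univ.filter (fun χ : IrrCharacter H => (χ : H → ℂ) ∘ α = χ)).card
        * Nat.card H : ℕ) : ℂ) = ((∑ g : H, Tn g : ℕ) : ℂ) := by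
      rw [h1, ← key]
      push_cast
      rfl
    exact_mod_cast h2
  have hT1 : Tn 1 = Nat.card H := by
    rw [hTn]
    simp only [map_one]
    rw [if_pos (IsConj.refl 1), card_centralizer_one]
  have hHpos : 0 < Nat.card H := Nat.card_pos
  constructor
  · rintro ⟨θ, hθ, hθ1, hθfix⟩
    rw [hcomp θ] at hθfix
    have hNF : 1 < (Finset.univ.filter (fun χ : IrrCharacter H => (χ : H → ℂ) ∘ α = χ)).card := by
      rw [Finset.one_lt_card]
      refine ⟨⟨θ, hθ⟩, by simp [hθfix], ⟨fun _ => 1, irr_one⟩, by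
        simp only [Finset.mem_filter, Finset.mem_univ, true_and]
        rfl, ?_⟩
      intro h
      exact hθ1 (congrArg Subtype.val h)
    have hex : ∃ g : H, g ≠ 1 ∧ IsConj (α g) g := by
      by_contra hall
      have hall : ∀ g : H, g ≠ 1 → ¬ IsConj (α g) g := fun g hg hc => hall ⟨g, hg, hc⟩
      have hsum : ∑ g : H, Tn g = Tn 1 := by
        apply Finset.sum_eq_single
        · intro g _ hg
          rw [hTn]
          simp only
          rw [if_neg (hall g hg)]
        · intro h
          exact absurd (Finset.mem_univ _) h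
      rw [hsum, hT1] at keyN
      nlinarith
    obtain ⟨g, hg1, hconj⟩ := hex
    obtain ⟨c, hc⟩ := isConj_iff.mp hconj
    have hxy : x * (g : M) * x⁻¹ = (c⁻¹ : H) * (g : M) * ((c⁻¹ : H) : M)⁻¹ := by
      rw [← hα g]
      have h1 : α g = c⁻¹ * g * c := by
        calc α g = c⁻¹ * (c * α g * c⁻¹) * c := by group
          _ = c⁻¹ * g * c := by rw [hc]
      rw [h1]
      simp
    have hg1' : (g : M) ≠ 1 := fun h => hg1 (Subtype.ext h)
    exact exists_commuting H hHall x g g.2 hg1' _ (c⁻¹).2 hxy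
  · rintro ⟨h, hh, hh1, hcomm⟩
    by_contra hno
    have hNF : (Finset.univ.filter (fun χ : IrrCharacter H => (χ : H → ℂ) ∘ α = χ)).card ≤ 1 := by
      rw [Finset.card_le_one]
      have hall : ∀ χ ∈ Finset.univ.filter (fun χ : IrrCharacter H => (χ : H → ℂ) ∘ α = χ),
          (χ : H → ℂ) = fun _ => 1 := by
        intro χ hχ
        by_contra hne
        apply hno
        refine ⟨χ, χ.2, hne, ?_⟩
        rw [hcomp]
        exact (Finset.mem_filter.mp hχ).2
      intro a ha b hb
      exact Subtype.ext ((hall a ha).trans (hall b hb).symm)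
    have hαh : α ⟨h, hh⟩ = ⟨h, hh⟩ := by
      apply Subtype.ext
      rw [hα]
      show x * h * x⁻¹ = h
      rw [hcomm]
      group
    have hTh : 0 < Tn ⟨h, hh⟩ := by
      rw [hTn]
      simp only
      rw [hαh, if_pos (IsConj.refl _)]
      exact Nat.card_pos
    have hne : (1 : H) ≠ ⟨h, hh⟩ := by
      intro h1
      exact hh1 (congrArg Subtype.val h1).symm
    have hsum : Tn 1 + Tn ⟨h, hh⟩ ≤ ∑ g : H, Tn g := by
      rw [← Finset.sum_pair hne]
      exact Finset.sum_le_sum_of_subset (Finset.subset_univ _)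
    rw [← keyN, hT1] at hsum
    nlinarith

end Cfsg.Agent.S1536
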