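import Cfsg.Statements.S1546
import Mathlib

set_option autoImplicit false
open Cfsg

namespace Cfsg.Agent.S1546

theorem geom_eq (p q : ℕ) (hp : 2 ≤ p) : (p ^ q - 1) / (p - 1) = ∑ i ∈ Finset.range q, p ^ i :=
  (Nat.geomSum_eq hp q).symm

theorem geom_mod (p q m : ℕ) (h : p % m = 1 % m) :
    (∑ i ∈ Finset.range q, p ^ i) % m = q % m := by
  have h1 : ∀ i, p ^ i ≡ 1 [MOD m] := by
    intro i
    have : p ≡ 1 [MOD m] := h
    simpa using this.pow i
  have h2 : (∑ i ∈ Finset.range q, p ^ i) ≡ ∑ _i ∈ Finset.range q, 1 [MOD m] := by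
    induction q with
    | zero => simp [Nat.ModEq]
    | succ n ih =>
      rw [Finset.sum_range_succ, Finset.sum_range_succ]
      exact ih.add (h1 n)
  simpa [Nat.ModEq] using h2

theorem prime_div_mod (p q r : ℕ) (hq : q.Prime) (hr : r.Prime)
    (hrN : r ∣ p ^ q - 1) (hp1 : 1 ≤ p) (hne : ¬ r ∣ p - 1) : r % q = 1 := by
  have : Fact r.Prime := ⟨hr⟩
  have hpq : (p : ZMod r) ^ q = 1 := by
    have h1 : ((p ^ q - 1 : ℕ) : ZMod r) = 0 := (ZMod.natCast_eq_zero_iff _ _).mpr hrN
    have h2 : 1 ≤ p ^ q := Nat.one_le_pow _ _ hp1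
    rw [Nat.cast_sub h2] at h1
    push_cast at h1
    exact sub_eq_zero.mp h1
  have hp1' : (p : ZMod r) ≠ 1 := by
    intro h
    apply hne
    have : ((p - 1 : ℕ) : ZMod r) = 0 := by
      rw [Nat.cast_sub hp1]; simp [h]
    exact (ZMod.natCast_eq_zero_iff _ _).mp this
  have hord : orderOf (p : ZMod r) = q := by
    have hdvd : orderOf (p : ZMod r) ∣ q := orderOf_dvd_of_pow_eq_one hpq
    rcases (Nat.dvd_prime hq).mp hdvd with h | h
    · exact absurd (orderOf_eq_one_iff.mp h) hp1'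
    · exact h
  have hp0 : (p : ZMod r) ≠ 0 := by
    intro h
    rw [h, zero_pow hq.ne_zero] at hpq
    exact zero_ne_one hpq
  have hq_dvd : q ∣ r - 1 := by
    rw [← hord]
    exact ZMod.orderOf_dvd_card_sub_one hp0
  obtain ⟨k, hk⟩ := hq_dvd
  have hr1 : r = q * k + 1 := by have := hr.one_lt; omega
  rw [hr1, Nat.mul_add_mod]
  exact Nat.mod_eq_of_lt hq.one_lt

theorem result (p q : ℕ) (hp : p.Prime) (hq : q.Prime) (hp2 : p ≠ 2) (hq2 : q ≠ 2) : Odd ((p ^ q - 1) / (p - 1)) ∧ (p % q = 1 → q ∣ (p ^ q - 1) / (p - 1)) ∧ (p % q ≠ 1 → Nat.Coprime ((p ^ q - 1) / (p - 1)) (p - 1) ∧ ∀ x : ℕ, x ∣ (p ^ q - 1) / (p - 1) → x % q = 1) := by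
  have hp2' : 2 ≤ p := hp.two_le
  have hpodd : Odd p := hp.odd_of_ne_two hp2
  have hqodd : Odd q := hq.odd_of_ne_two hq2
  have hN := geom_eq p q hp2'
  have hNodd : Odd ((p ^ q - 1) / (p - 1)) := by
    rw [hN, Nat.odd_iff]
    have h1 : p % 2 = 1 % 2 := by rw [Nat.odd_iff] at hpodd; omega
    rw [geom_mod p q 2 h1]
    exact Nat.odd_iff.mp hqodd
  have hdvdN : (p - 1) * ((p ^ q - 1) / (p - 1)) = p ^ q - 1 := by
    apply Nat.mul_div_cancel'
    simpa using Nat.sub_dvd_pow_sub_pow p 1 q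
  refine ⟨hNodd, ?_, ?_⟩
  · intro h
    rw [hN]
    have h1 : p % q = 1 % q := by rw [h, Nat.mod_eq_of_lt hq.one_lt]
    have := geom_mod p q q h1
    rw [Nat.mod_self] at this
    exact Nat.dvd_of_mod_eq_zero this
  · intro h
    have hcop : Nat.Coprime ((p ^ q - 1) / (p - 1)) (p - 1) := by
      rw [Nat.coprime_iff_gcd_eq_one] 
      by_contra hg
      obtain ⟨r, hr, hrg⟩ := Nat.exists_prime_and_dvd hg
      have hr1 : r ∣ (p ^ q - 1) / (p - 1) := hrg.trans (Nat.gcd_dvd_left _ _)
      have hr2 : r ∣ p - 1 := hrg.trans (Nat.gcd_dvd_right _ _)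
      have hmod : p % r = 1 % r := by
        have : (p - 1) % r = 0 := Nat.mod_eq_zero_of_dvd hr2
        have h3 : p = (p - 1) + 1 := by omega
        rw [h3, Nat.add_mod, this]; simp
      have h4 := geom_mod p q r hmod
      rw [← hN, Nat.mod_eq_zero_of_dvd hr1] at h4
      have hrq : r ∣ q := Nat.dvd_of_mod_eq_zero h4.symm
      have hrq' : r = q := (Nat.prime_dvd_prime_iff_eq hr hq).mp hrq
      subst hrq'
      apply h
      have : (p - 1) % r = 0 := Nat.mod_eq_zero_of_dvd hr2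
      have h3 : p = (p - 1) + 1 := by omega
      rw [h3, Nat.add_mod, this]; simp [Nat.mod_eq_of_lt hr.one_lt]
    refine ⟨hcop, ?_⟩
    intro x
    induction x using Nat.strong_induction_on with
    | _ x ih =>
      intro hx
      by_cases hx1 : x = 1
      · subst hx1; exact Nat.mod_eq_of_lt hq.one_lt
      · obtain ⟨r, hr, hrx⟩ := Nat.exists_prime_and_dvd hx1
        obtain ⟨y, rfl⟩ := hrx
        have hy : y ∣ (p ^ q - 1) / (p - 1) := (Dvd.intro_left r rfl).trans hx
        have hrN : r ∣ (p ^ q - 1) / (p - 1) := (Dvd.intro y rfl).trans hx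
        have hypos : 0 < y := by
          rcases Nat.eq_zero_or_pos y with h0 | h0
          · subst h0
            rw [Nat.mul_zero] at hx
            have hz := Nat.eq_zero_of_zero_dvd hx
            rw [hz] at hNodd; exact absurd hNodd (by decide)
          · exact h0
        have hylt : y < r * y := by
          have := hr.one_lt
          nlinarith
        have hy1 := ih y hylt hy
        have hrne : ¬ r ∣ p - 1 := by
          intro hr2
          have := Nat.dvd_gcd hrN hr2
          rw [hcop] at this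
          exact hr.one_lt.ne' (Nat.dvd_one.mp this)
        have hr1 : r % q = 1 := by
          apply prime_div_mod p q r hq hr _ (by omega) hrne
          rw [← hdvdN]
          exact hrN.mul_left _
        rw [Nat.mul_mod, hr1, hy1]
        exact Nat.mod_eq_of_lt hq.one_lt

end Cfsg.Agent.S1546
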