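import Cfsg.Statements.S1552
import Cfsg.Agent.Lib.Helper36.M24Sex

set_option autoImplicit false
open scoped Pointwise
open Cfsg

namespace Cfsg.Agent.S1552

open Cfsg.Agent.Lib.Helper9 Cfsg.Agent.Lib.Helper36

/-- A sextet stabiliser has four orbits on the 1771 sextets, of sizes 1, 90, 240, 1440; and the stabiliser is a maximal proper subgroup. -/
theorem result (S : Finset (Finset Cfsg.GolayPt)) (hS : S ∈ Cfsg.sextets) : ∃ X₁ ∈ Cfsg.sextets, ∃ X₂ ∈ Cfsg.sextets, ∃ X₃ ∈ Cfsg.sextets, (MulAction.orbit ↥(MulAction.stabilizer Cfsg.M24 S) X₁).ncard = 90 ∧ (MulAction.orbit ↥(MulAction.stabilizer Cfsg.M24 S) X₂).ncard = 240 ∧ (MulAction.orbit ↥(MulAction.stabilizer Cfsg.M24 S) X₃).ncard = 1440 ∧ Cfsg.sextets = {S} ∪ MulAction.orbit ↥(MulAction.stabilizer Cfsg.M24 S) X₁ ∪ MulAction.orbit ↥(MulAction.stabilizer Cfsg.M24 S) X₂ ∪ MulAction.orbit ↥(MulAction.stabilizer Cfsg.M24 S) X₃ ∧ IsCoatom (MulAction.stabilizer Cfsg.M24 S) := by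
  obtain ⟨γ, hγ, rfl⟩ := exists_smul_sx0 hS
  refine ⟨γ • sexRep 2, smul_sextet_mem hγ (sexRep_mem 2), γ • sexRep 0,
    smul_sextet_mem hγ (sexRep_mem 0), γ • sexRep 1, smul_sextet_mem hγ (sexRep_mem 1),
    ?_, ?_, ?_, ?_, ?_⟩
  · rw [ncard_orbit_stab_transfer hγ]; exact sex_partition.1 2
  · rw [ncard_orbit_stab_transfer hγ]; exact sex_partition.1 0
  · rw [ncard_orbit_stab_transfer hγ]; exact sex_partition.1 1
  · ext y
    simp only [Set.mem_union, Set.mem_singleton_iff, mem_orbit_stab_transfer hγ]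
    constructor
    · intro hy
      have hy' : γ⁻¹ • y ∈ sextets := smul_sextet_mem (M24.inv_mem hγ) hy
      rcases sex_partition.2.1 _ hy' with h | ⟨i, hi⟩
      · left; left; left
        rw [← h, smul_inv_smul]
      · fin_cases i
        · exact Or.inl (Or.inr hi)
        · exact Or.inr hi
        · exact Or.inl (Or.inl (Or.inr hi))
    · rintro (((rfl | ⟨σ, hσ, h⟩) | ⟨σ, hσ, h⟩) | ⟨σ, hσ, h⟩)
      · exact smul_sextet_mem hγ sx0_mem
      · have := smul_sextet_mem hγ (smul_sextet_mem (mem_stabIn.mp hσ).1 (sexRep_mem 2))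
        rwa [h, smul_inv_smul] at this
      · have := smul_sextet_mem hγ (smul_sextet_mem (mem_stabIn.mp hσ).1 (sexRep_mem 0))
        rwa [h, smul_inv_smul] at this
      · have := smul_sextet_mem hγ (smul_sextet_mem (mem_stabIn.mp hσ).1 (sexRep_mem 1))
        rwa [h, smul_inv_smul] at this
  · exact isCoatom_stabilizer_smul (⟨γ, hγ⟩ : M24) sx0 isCoatom_sx0

end Cfsg.Agent.S1552
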