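import Cfsg.Statements.S1558
import Cfsg.Agent.Lib.Helper95.TrioChk
import Mathlib.GroupTheory.NoncommCoprod

set_option autoImplicit false
open scoped Pointwise
open Cfsg

namespace Cfsg.Agent.S1558

open Cfsg.Agent.Lib.Helper9 Cfsg.Agent.Lib.Helper95

/-- The base trio. -/
abbrev T0 : Finset (Finset GolayPt) := sxSet tr0L

theorem p3_mem {k : ℕ} (hk : k < 9) :
    permOK (p3.getD k idT) = true ∧ tperm (p3.getD k idT) ∈ trStab0 :=
  mem_trStab0_of_trStabOK (List.all_eq_true.mp p3_ok k (List.mem_range.mpr hk))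

theorem gl_table : GL3Table gl2 :=
  ⟨fun k hk => List.all_eq_true.mp gl_perm k hk, gl_one, fun k hk => by
    have h := List.all_eq_true.mp gl_mulgen k hk
    rw [Bool.and_eq_true, beq_iff_eq, beq_iff_eq] at h
    exact h⟩

theorem gl_mem (M : GL (Fin 3) (ZMod 2)) : gl3Hom gl2 gl_table M ∈ trStab0 :=
  gl3Hom_mem gl_table trStab0.toSubmonoid (mem_trStab0_of_trStabOK gl_gen_ok.1).2
    (mem_trStab0_of_trStabOK gl_gen_ok.2).2 M

theorem gl_perm' (M : GL (Fin 3) (ZMod 2)) : permOK (gl3Tab gl2 (gl3Key M)) = true :=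
  gl_table.ok _ (gl3Key_mem M)

theorem base_swaps : ∀ a ∈ T0, ∀ b ∈ T0, a ≠ b → ∃ g : Equiv.Perm GolayPt, g ∈ M24 ∧
    g • T0 = T0 ∧ g • a = b ∧ g • b = a ∧ ∀ t ∈ T0, t ≠ a → t ≠ b → g • t = t := by
  intro a ha b hb hab
  obtain ⟨ma, hma, rfl⟩ := mem_sxSet.mp ha
  obtain ⟨mb, hmb, rfl⟩ := mem_sxSet.mp hb
  have hne : ma ≠ mb := fun h => hab (by rw [h])
  have h1 := List.all_eq_true.mp (List.all_eq_true.mp swap_dec ma hma) mb hmb
  rw [Bool.or_eq_true, beq_iff_eq, List.any_eq_true] at h1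
  rcases h1 with h1 | ⟨T, hT, hTc⟩
  · exact absurd h1 hne
  simp only [Bool.and_eq_true, beq_iff_eq, List.all_eq_true, Bool.or_eq_true] at hTc
  obtain ⟨⟨hab', hba'⟩, hrest⟩ := hTc
  obtain ⟨k, hk, rfl⟩ := List.mem_iff_getElem.mp hT
  have e : p3[k]'hk = p3.getD k idT := (List.getD_eq_getElem _ _ hk).symm
  have hk9 : k < 9 := hk
  rw [e] at hab' hba' hrest
  obtain ⟨hp, hmem⟩ := p3_mem hk9
  have hsm : ∀ m, tperm (p3.getD k idT) • support₂ (dec m) =
      support₂ (dec (push (p3.getD k idT) m)) :=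
    fun m => smul_support₂_dec (hasTable_tperm hp) m
  refine ⟨tperm (p3.getD k idT), hmem.1, hmem.2, ?_, ?_, ?_⟩
  · rw [hsm, hab']
  · rw [hsm, hba']
  · intro t ht hta htb
    obtain ⟨m, hm, rfl⟩ := mem_sxSet.mp ht
    rcases hrest m hm with (h | h) | h
    · exact absurd (by rw [h]) hta
    · exact absurd (by rw [h]) htb
    · rw [hsm, h]

theorem surj {T : Finset (Finset GolayPt)} (hT : T ∈ trios) :
    Function.Surjective (famHom T) := by
  obtain ⟨x, hx, hxT⟩ := exists_smul_trio hT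
  exact famHom_surjective (swaps_transport hx hxT base_swaps)

/-- The normal subgroup of order 64, as a group of permutations. -/
abbrev nSub : Subgroup (Equiv.Perm GolayPt) := spanSubgroup gens64 n64 n64_span

theorem n64_mem {S : List ℕ} (hS : S ∈ n64) : permOK S = true ∧ tperm S ∈ trStab0 :=
  ⟨spanOK_perm n64_span hS, spanOK_induction n64_span (P := fun x => x ∈ trStab0)
    trStab0.one_mem (fun _ _ => trStab0.mul_mem)
    (fun g hg => (mem_trStab0_of_trStabOK (List.all_eq_true.mp gens64_ok g hg)).2) hS⟩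

theorem nSub_le : nSub ≤ trStab0 := by
  rintro _ ⟨S, hS, rfl⟩
  exact (n64_mem hS).2

/-- The first factor of the complement. -/
noncomputable def psi1 : GL (Fin 3) (ZMod 2) →* ↥trStab0 :=
  (gl3Hom gl2 gl_table).codRestrict trStab0 gl_mem

/-- The second factor of the complement. -/
noncomputable def psi2 : Equiv.Perm (Fin 3) →* ↥trStab0 :=
  (p3Hom p3 p3_table).codRestrict trStab0 (fun π => (p3_mem (p3Key_lt π)).2)

theorem gen_mem : glGen1 ∈ glKeys ∧ glGen2 ∈ glKeys := ⟨glInv_ok.2.2.1, glInv_ok.2.2.2.1⟩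

theorem gl_comm (A : GL (Fin 3) (ZMod 2)) : gl3Hom gl2 gl_table A ∈
    Subgroup.centralizer (Set.range (p3Hom p3 p3_table)) := by
  refine gl3Hom_mem gl_table (Subgroup.centralizer (Set.range (p3Hom p3 p3_table))).toSubmonoid
    ?_ ?_ A
  · show tperm (gl3Tab gl2 glGen1) ∈ Subgroup.centralizer (Set.range (p3Hom p3 p3_table))
    rw [Subgroup.mem_centralizer_iff]
    rintro _ ⟨π, rfl⟩
    have h1 := gl_table.ok _ gen_mem.1
    have h2 := (p3_mem (p3Key_lt π)).1
    rw [p3Hom_apply, tperm_mul h1 h2, tperm_mul h2 h1, (comm_gen _ (p3Key_mem π)).1]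
  · show tperm (gl3Tab gl2 glGen2) ∈ Subgroup.centralizer (Set.range (p3Hom p3 p3_table))
    rw [Subgroup.mem_centralizer_iff]
    rintro _ ⟨π, rfl⟩
    have h1 := gl_table.ok _ gen_mem.2
    have h2 := (p3_mem (p3Key_lt π)).1
    rw [p3Hom_apply, tperm_mul h1 h2, tperm_mul h2 h1, (comm_gen _ (p3Key_mem π)).2]

theorem psi_comm (A : GL (Fin 3) (ZMod 2)) (π : Equiv.Perm (Fin 3)) :
    Commute (psi1 A) (psi2 π) := by
  apply Subtype.ext
  show gl3Hom gl2 gl_table A * p3Hom p3 p3_table π = p3Hom p3 p3_table π * gl3Hom gl2 gl_table A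
  exact ((Subgroup.mem_centralizer_iff.mp (gl_comm A)) _ ⟨π, rfl⟩).symm

/-- The complement, isomorphic to the product of `GL₃(𝔽₂)` and the symmetric group. -/
noncomputable def psi : GL (Fin 3) (ZMod 2) × Equiv.Perm (Fin 3) →* ↥trStab0 :=
  MonoidHom.noncommCoprod psi1 psi2 psi_comm

theorem psi_val (h : GL (Fin 3) (ZMod 2) × Equiv.Perm (Fin 3)) :
    ((psi h : ↥trStab0) : Equiv.Perm GolayPt) =
      tperm (compT (gl3Tab gl2 (gl3Key h.1)) (p3.getD (p3Key h.2) idT)) := by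
  rw [← tperm_mul (gl_perm' h.1) (p3_mem (p3Key_lt h.2)).1]
  rfl

theorem psi_val' (h : GL (Fin 3) (ZMod 2) × Equiv.Perm (Fin 3)) :
    ((psi h : ↥trStab0) : Equiv.Perm GolayPt) =
      gl3Hom gl2 gl_table h.1 * p3Hom p3 p3_table h.2 := rfl

theorem psi_eq_one {h : GL (Fin 3) (ZMod 2) × Equiv.Perm (Fin 3)}
    (hm : ((psi h : ↥trStab0) : Equiv.Perm GolayPt) ∈ nSub) : h = 1 := by
  rw [psi_val] at hm
  obtain ⟨S, hS, he⟩ := hm
  have hp := permOK_compT (gl_perm' h.1) (p3_mem (p3Key_lt h.2)).1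
  have h2 := tperm_inj hp (n64_mem hS).1 he
  have h3 : n64.contains (compT (gl3Tab gl2 (gl3Key h.1)) (p3.getD (p3Key h.2) idT)) = true := by
    rw [List.contains_iff_mem, h2]
    exact hS
  have h4 := List.all_eq_true.mp (List.all_eq_true.mp inj_dec _ (gl3Key_mem h.1)) _
    (p3Key_mem h.2)
  rw [h3] at h4
  simp only [Bool.not_true, Bool.false_or, Bool.and_eq_true, beq_iff_eq] at h4
  exact Prod.ext (gl3_eq_one h4.1) (p3_eq_one _ h4.2)

theorem card_nSub : Nat.card ↥nSub = 64 := by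
  rw [card_spanSubgroup gens64 n64 n64_span n64_nodup]
  rfl

/-- Every element of the stabiliser is a product of an element of the normal subgroup and an
element of the complement. -/
theorem mu_bijective : Function.Bijective (fun p : ↥nSub × (GL (Fin 3) (ZMod 2) ×
    Equiv.Perm (Fin 3)) => ((⟨p.1.1, nSub_le p.1.2⟩ : ↥trStab0) * psi p.2)) := by
  have hinj : Function.Injective (fun p : ↥nSub × (GL (Fin 3) (ZMod 2) ×
      Equiv.Perm (Fin 3)) => ((⟨p.1.1, nSub_le p.1.2⟩ : ↥trStab0) * psi p.2)) := by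
    rintro ⟨n, h⟩ ⟨n', h'⟩ heq
    have h1 : (n : Equiv.Perm GolayPt) * ((psi h : ↥trStab0) : Equiv.Perm GolayPt) =
        (n' : Equiv.Perm GolayPt) * ((psi h' : ↥trStab0) : Equiv.Perm GolayPt) :=
      congrArg (fun g : ↥trStab0 => (g : Equiv.Perm GolayPt)) heq
    have h2 : ((psi (h * h'⁻¹) : ↥trStab0) : Equiv.Perm GolayPt) ∈ nSub := by
      have e : ((psi (h * h'⁻¹) : ↥trStab0) : Equiv.Perm GolayPt) =
          (n : Equiv.Perm GolayPt)⁻¹ * (n' : Equiv.Perm GolayPt) := by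
        rw [map_mul, map_inv]
        show ((psi h : ↥trStab0) : Equiv.Perm GolayPt) *
          ((psi h' : ↥trStab0) : Equiv.Perm GolayPt)⁻¹ = _
        rw [eq_inv_mul_iff_mul_eq, ← mul_assoc, h1, mul_assoc, mul_inv_cancel, mul_one]
      rw [e]
      exact nSub.mul_mem (nSub.inv_mem n.2) n'.2
    have h3 := psi_eq_one h2
    have h4 : h = h' := by
      rw [mul_inv_eq_one] at h3
      exact h3
    subst h4
    have h5 : (n : Equiv.Perm GolayPt) = (n' : Equiv.Perm GolayPt) := mul_right_cancel h1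
    rw [Subtype.ext h5]
  refine hinj.bijective_of_nat_card_le ?_
  rw [Nat.card_prod, Nat.card_prod, card_nSub, card_GL32, Nat.card_perm, Nat.card_fin]
  exact card_trStab0_le

theorem card_trStab0 : Nat.card ↥trStab0 = 64512 := by
  rw [← Nat.card_congr (Equiv.ofBijective _ mu_bijective), Nat.card_prod, Nat.card_prod,
    card_nSub, card_GL32, Nat.card_perm, Nat.card_fin]
  rfl

theorem conj1 (A : GL (Fin 3) (ZMod 2)) : gl3Hom gl2 gl_table A ∈ conjSubmonoid nSub :=
  gl3Hom_mem gl_table (conjSubmonoid nSub)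
    (conj_mem_of_gens (gl_table.ok _ gen_mem.1) conj1_gen.1)
    (conj_mem_of_gens (gl_table.ok _ gen_mem.2) conj1_gen.2) A

theorem conj2 (π : Equiv.Perm (Fin 3)) : p3Hom p3 p3_table π ∈ conjSubmonoid nSub :=
  conj_mem_of_gens (p3_mem (p3Key_lt π)).1 (conj2_dec _ (p3Key_mem π))

theorem nSub_conj {g : Equiv.Perm GolayPt} (hg : g ∈ trStab0) {n : Equiv.Perm GolayPt}
    (hn : n ∈ nSub) : g * n * g⁻¹ ∈ nSub := by
  obtain ⟨⟨m, A, π⟩, hp⟩ := mu_bijective.2 ⟨g, hg⟩
  have hg' : g = (m : Equiv.Perm GolayPt) * (gl3Hom gl2 gl_table A * p3Hom p3 p3_table π) :=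
    (congrArg (fun g : ↥trStab0 => (g : Equiv.Perm GolayPt)) hp).symm
  have hm : (m : Equiv.Perm GolayPt) ∈ conjSubmonoid nSub := fun n hn =>
    nSub.mul_mem (nSub.mul_mem m.2 hn) (nSub.inv_mem m.2)
  have h1 : g ∈ conjSubmonoid nSub := by
    rw [hg']
    exact (conjSubmonoid nSub).mul_mem hm ((conjSubmonoid nSub).mul_mem (conj1 A) (conj2 π))
  exact h1 n hn

/-- The normal subgroup of order 64, inside the stabiliser. -/
abbrev nK : Subgroup ↥trStab0 := nSub.subgroupOf trStab0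

instance nK_normal : nK.Normal := ⟨fun n hn g => by
  rw [Subgroup.mem_subgroupOf] at hn ⊢
  exact nSub_conj g.2 hn⟩

theorem card_nK : Nat.card ↥nK = 64 := by
  rw [Nat.card_congr (Subgroup.subgroupOfEquivOfLe nSub_le).toEquiv]
  exact card_nSub

theorem nK_sq : ∀ x ∈ nK, x * x = 1 := by
  intro x hx
  rw [Subgroup.mem_subgroupOf] at hx
  apply Subtype.ext
  show (x : Equiv.Perm GolayPt) * (x : Equiv.Perm GolayPt) = 1
  exact spanSubgroup_sq hx

theorem quot_iso : Nonempty (↥trStab0 ⧸ nK ≃* GL (Fin 3) (ZMod 2) × Equiv.Perm (Fin 3)) := by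
  let c : GL (Fin 3) (ZMod 2) × Equiv.Perm (Fin 3) →* ↥trStab0 ⧸ nK :=
    (QuotientGroup.mk' nK).comp psi
  have hinj : Function.Injective c := by
    rw [injective_iff_map_eq_one]
    intro h hM
    have h1 : psi h ∈ nK := (QuotientGroup.eq_one_iff _).mp hM
    rw [Subgroup.mem_subgroupOf] at h1
    exact psi_eq_one h1
  have hcard : Nat.card (↥trStab0 ⧸ nK) = 1008 := by
    have h := Subgroup.card_eq_card_quotient_mul_card_subgroup nK
    rw [card_trStab0, card_nK] at h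
    omega
  have hbij : Function.Bijective c :=
    hinj.bijective_of_nat_card_le (by
      rw [hcard, Nat.card_prod, card_GL32, Nat.card_perm, Nat.card_fin]
      decide)
  exact ⟨(MulEquiv.ofBijective c hbij).symm⟩

theorem mem_iff {T : Finset (Finset GolayPt)} {x : Equiv.Perm GolayPt} (hxT : x • T0 = T)
    (hx : x ∈ M24) (g : ↥M24) :
    g ∈ MulAction.stabilizer ↥M24 T ↔ x⁻¹ * (g : Equiv.Perm GolayPt) * x ∈ trStab0 := by
  constructor
  · intro h1
    have h1' : (g : Equiv.Perm GolayPt) • T = T := h1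
    refine ⟨(conj_mem_M24_iff hx _).mpr g.2, ?_⟩
    show (x⁻¹ * (g : Equiv.Perm GolayPt) * x) • sxSet tr0L = sxSet tr0L
    rw [conj_smul_eq_iff, hxT]
    exact h1'
  · rintro ⟨-, h2⟩
    have h2' : (x⁻¹ * (g : Equiv.Perm GolayPt) * x) • sxSet tr0L = sxSet tr0L := h2
    rw [conj_smul_eq_iff, hxT] at h2'
    exact h2'

theorem transport {G G' X : Type*} [Group G] [Group G'] [Group X] (e : G ≃* G')
    (N' : Subgroup G') [N'.Normal] (n : ℕ) (hc : Nat.card N' = n)
    (hsq : ∀ x ∈ N', x * x = 1) (hq : Nonempty (G' ⧸ N' ≃* X)) :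
    ∃ (N : Subgroup G) (_ : N.Normal), Nat.card N = n ∧ (∀ x ∈ N, x * x = 1) ∧
      Nonempty (G ⧸ N ≃* X) := by
  obtain ⟨q⟩ := hq
  have hN : (N'.comap e.toMonoidHom).Normal := Subgroup.Normal.comap inferInstance _
  refine ⟨N'.comap e.toMonoidHom, hN, ?_, ?_, ?_⟩
  · rw [← hc, Subgroup.comap_equiv_eq_map_symm']
    exact Subgroup.card_map_of_injective e.symm.injective
  · intro x hx
    apply e.injective
    rw [map_mul, map_one]
    exact hsq _ hx
  · have hmap : (N'.comap e.toMonoidHom).map e.toMonoidHom = N' :=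
      Subgroup.map_comap_eq_self_of_surjective e.surjective N'
    exact ⟨(QuotientGroup.congr (N'.comap e.toMonoidHom) N' e hmap).trans q⟩


/-- Structure of a trio stabiliser: every permutation of the three octads is induced, and there is a normal subgroup of order 64 of elements squaring to the identity whose quotient is isomorphic to the product of GL(3, 2) with the symmetric group of degree 3. -/
theorem result (T : Finset (Finset Cfsg.GolayPt)) (hT : T ∈ Cfsg.trios) : (∀ e : Equiv.Perm ↥T, ∃ g ∈ MulAction.stabilizer Cfsg.M24 T, ∀ o : ↥T, (g : Equiv.Perm Cfsg.GolayPt) • (o : Finset Cfsg.GolayPt) = ((e o : ↥T) : Finset Cfsg.GolayPt)) ∧ ∃ (N : Subgroup ↥(MulAction.stabilizer Cfsg.M24 T)) (_ : N.Normal), Nat.card N = 64 ∧ (∀ x ∈ N, x * x = 1) ∧ Nonempty (↥(MulAction.stabilizer Cfsg.M24 T) ⧸ N ≃* GL (Fin 3) (ZMod 2) × Equiv.Perm (Fin 3)) := by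
  obtain ⟨x, hx, hxT⟩ := exists_smul_trio hT
  refine ⟨exists_of_famHom_surjective (surj hT), ?_⟩
  have hle : trStab0 ≤ M24 := inf_le_left
  exact transport (transportEquiv hx hle (mem_iff hxT hx)) nK 64 card_nK nK_sq quot_iso

end Cfsg.Agent.S1558
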