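import Cfsg.Statements.S1559
import Cfsg.Agent.Lib.Helper36.M24Trio

set_option autoImplicit false
open scoped Pointwise
open Cfsg

namespace Cfsg.Agent.S1559

open Cfsg.Agent.Lib.Helper9 Cfsg.Agent.Lib.Helper36

/-- A trio stabiliser has five orbits on the 3795 trios, of sizes 1, 42, 56, 1008, 2688; and the stabiliser is a maximal proper subgroup. -/
theorem result (T : Finset (Finset Cfsg.GolayPt)) (hT : T ∈ Cfsg.trios) : ∃ X₁ ∈ Cfsg.trios, ∃ X₂ ∈ Cfsg.trios, ∃ X₃ ∈ Cfsg.trios, ∃ X₄ ∈ Cfsg.trios, (MulAction.orbit ↥(MulAction.stabilizer Cfsg.M24 T) X₁).ncard = 42 ∧ (MulAction.orbit ↥(MulAction.stabilizer Cfsg.M24 T) X₂).ncard = 56 ∧ (MulAction.orbit ↥(MulAction.stabilizer Cfsg.M24 T) X₃).ncard = 1008 ∧ (MulAction.orbit ↥(MulAction.stabilizer Cfsg.M24 T) X₄).ncard = 2688 ∧ Cfsg.trios = {T} ∪ MulAction.orbit ↥(MulAction.stabilizer Cfsg.M24 T) X₁ ∪ MulAction.orbit ↥(MulAction.stabilizer Cfsg.M24 T) X₂ ∪ MulAction.orbit ↥(MulAction.stabilizer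 Cfsg.M24 T) X₃ ∪ MulAction.orbit ↥(MulAction.stabilizer Cfsg.M24 T) X₄ ∧ IsCoatom (MulAction.stabilizer Cfsg.M24 T) := by
  obtain ⟨γ, hγ, rfl⟩ := exists_smul_tr0 hT
  refine ⟨γ • trioRep 0, smul_trio_mem hγ (trioRep_mem 0), γ • trioRep 1,
    smul_trio_mem hγ (trioRep_mem 1), γ • trioRep 2, smul_trio_mem hγ (trioRep_mem 2),
    γ • trioRep 3, smul_trio_mem hγ (trioRep_mem 3),
    ?_, ?_, ?_, ?_, ?_, ?_⟩
  · rw [ncard_orbit_stab_transfer hγ]; exact trio_partition.1 0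
  · rw [ncard_orbit_stab_transfer hγ]; exact trio_partition.1 1
  · rw [ncard_orbit_stab_transfer hγ]; exact trio_partition.1 2
  · rw [ncard_orbit_stab_transfer hγ]; exact trio_partition.1 3
  · ext y
    simp only [Set.mem_union, Set.mem_singleton_iff, mem_orbit_stab_transfer hγ]
    constructor
    · intro hy
      have hy' : γ⁻¹ • y ∈ trios := smul_trio_mem (M24.inv_mem hγ) hy
      rcases trio_partition.2.1 _ hy' with h | ⟨i, hi⟩
      · left; left; left; left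
        rw [← h, smul_inv_smul]
      · fin_cases i
        · exact Or.inl (Or.inl (Or.inl (Or.inr hi)))
        · exact Or.inl (Or.inl (Or.inr hi))
        · exact Or.inl (Or.inr hi)
        · exact Or.inr hi
    · rintro ((((rfl | ⟨σ, hσ, h⟩) | ⟨σ, hσ, h⟩) | ⟨σ, hσ, h⟩) | ⟨σ, hσ, h⟩)
      · exact smul_trio_mem hγ tr0_mem
      · have := smul_trio_mem hγ (smul_trio_mem (mem_stabIn.mp hσ).1 (trioRep_mem 0))
        rwa [h, smul_inv_smul] at this
      · have := smul_trio_mem hγ (smul_trio_mem (mem_stabIn.mp hσ).1 (trioRep_mem 1))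
        rwa [h, smul_inv_smul] at this
      · have := smul_trio_mem hγ (smul_trio_mem (mem_stabIn.mp hσ).1 (trioRep_mem 2))
        rwa [h, smul_inv_smul] at this
      · have := smul_trio_mem hγ (smul_trio_mem (mem_stabIn.mp hσ).1 (trioRep_mem 3))
        rwa [h, smul_inv_smul] at this
  · exact isCoatom_stabilizer_smul (⟨γ, hγ⟩ : M24) tr0 isCoatom_tr0

end Cfsg.Agent.S1559
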