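import Cfsg.Statements.S1562
import Cfsg.Agent.Lib.Helper36.M24Sub
import Cfsg.Agent.Lib.Helper36.M24Dod

set_option autoImplicit false
open scoped Pointwise
open Cfsg

namespace Cfsg.Agent.S1562

open Cfsg.Agent.Lib.Helper9 Cfsg.Agent.Lib.Helper36

/-- Transfer of the size of a class along a permutation. -/
theorem ncard_transfer (γ : Equiv.Perm GolayPt) (P : Finset GolayPt → Finset GolayPt → Prop)
    (hP : ∀ T U, P (γ • T) (γ • U) ↔ P T U) (T : Finset GolayPt) :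
    {U | P (γ • T) U}.ncard = {U | P T U}.ncard := by
  have e : {U | P (γ • T) U} = (fun U => γ • U) '' {U | P T U} := by
    ext U
    simp only [Set.mem_ofPred_eq, Set.mem_image]
    constructor
    · intro h
      refine ⟨γ⁻¹ • U, ?_, smul_inv_smul γ U⟩
      rw [← hP, smul_inv_smul]
      exact h
    · rintro ⟨V, hV, rfl⟩
      exact (hP T V).mpr hV
  rw [e, Set.ncard_image_of_injective _ (MulAction.injective γ)]

theorem in_equiv {γ : Equiv.Perm GolayPt} (hγ : γ ∈ M24) (T U : Finset GolayPt) :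
    ((γ • U).card = 3 ∧ Disjoint (γ • T) (γ • U) ∧ ∃ o ∈ octads, γ • T ∪ γ • U ⊆ o) ↔
      (U.card = 3 ∧ Disjoint T U ∧ ∃ o ∈ octads, T ∪ U ⊆ o) := by
  rw [Finset.card_smul_finset, disjoint_smul_iff, ← Finset.smul_finset_union,
    exists_octad_smul_iff hγ]

theorem out_equiv {γ : Equiv.Perm GolayPt} (hγ : γ ∈ M24) (T U : Finset GolayPt) :
    ((γ • U).card = 3 ∧ Disjoint (γ • T) (γ • U) ∧ ¬ ∃ o ∈ octads, γ • T ∪ γ • U ⊆ o) ↔
      (U.card = 3 ∧ Disjoint T U ∧ ¬ ∃ o ∈ octads, T ∪ U ⊆ o) := by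
  rw [Finset.card_smul_finset, disjoint_smul_iff, ← Finset.smul_finset_union,
    exists_octad_smul_iff hγ]

theorem setIn0 : {U : Finset GolayPt | U.card = 3 ∧ Disjoint t0 U ∧ ∃ o ∈ octads, t0 ∪ U ⊆ o}
    = {y | ∃ σ ∈ stabIn t0, σ • triRep 2 = y} := by
  ext U
  constructor
  · rintro ⟨h3, hd, hex⟩
    refine tri_partition.2.2 U h3 2 ?_
    rw [triInv_rep, (triInv_eq_four_iff U).mpr ⟨hd, hex⟩]
    rfl
  · rintro ⟨σ, hσ, rfl⟩
    have h4 : triInv (σ • triRep 2) = 4 := by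
      rw [triInv_smul hσ, triInv_rep]; rfl
    have := (triInv_eq_four_iff _).mp h4
    refine ⟨?_, this.1, this.2⟩
    rw [Finset.card_smul_finset, triRep_card]

theorem setOut0 : {U : Finset GolayPt | U.card = 3 ∧ Disjoint t0 U ∧ ¬ ∃ o ∈ octads, t0 ∪ U ⊆ o}
    = {y | ∃ σ ∈ stabIn t0, σ • triRep 3 = y} := by
  ext U
  constructor
  · rintro ⟨h3, hd, hex⟩
    refine tri_partition.2.2 U h3 3 ?_
    rw [triInv_rep, (triInv_eq_five_iff U).mpr ⟨hd, hex⟩]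
    rfl
  · rintro ⟨σ, hσ, rfl⟩
    have h5 : triInv (σ • triRep 3) = 5 := by
      rw [triInv_smul hσ, triInv_rep]; rfl
    have := (triInv_eq_five_iff _).mp h5
    refine ⟨?_, this.1, this.2⟩
    rw [Finset.card_smul_finset, triRep_card]

theorem trans0 {U U' : Finset GolayPt} (hU : U.card = 3) (hU' : U'.card = 3) (hd : Disjoint t0 U)
    (hd' : Disjoint t0 U')
    (h : (∃ o ∈ octads, t0 ∪ U ⊆ o) ↔ (∃ o ∈ octads, t0 ∪ U' ⊆ o)) :
    ∃ σ ∈ stabMask 8388611, σ • U = U' := by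
  by_cases hex : ∃ o ∈ octads, t0 ∪ U ⊆ o
  · have h1 : U ∈ {U : Finset GolayPt | U.card = 3 ∧ Disjoint t0 U ∧ ∃ o ∈ octads, t0 ∪ U ⊆ o} :=
      ⟨hU, hd, hex⟩
    have h2 : U' ∈ {U : Finset GolayPt | U.card = 3 ∧ Disjoint t0 U ∧ ∃ o ∈ octads, t0 ∪ U ⊆ o} :=
      ⟨hU', hd', h.mp hex⟩
    rw [setIn0] at h1 h2
    obtain ⟨σ, hσ, rfl⟩ := h1
    obtain ⟨τ, hτ, rfl⟩ := h2
    exact ⟨τ * σ⁻¹, Subgroup.mul_mem _ hτ (Subgroup.inv_mem _ hσ), by rw [mul_smul, inv_smul_smul]⟩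
  · have h1 : U ∈ {U : Finset GolayPt | U.card = 3 ∧ Disjoint t0 U ∧ ¬ ∃ o ∈ octads, t0 ∪ U ⊆ o} :=
      ⟨hU, hd, hex⟩
    have h2 : U' ∈ {U : Finset GolayPt | U.card = 3 ∧ Disjoint t0 U ∧ ¬ ∃ o ∈ octads, t0 ∪ U ⊆ o} :=
      ⟨hU', hd', fun h' => hex (h.mpr h')⟩
    rw [setOut0] at h1 h2
    obtain ⟨σ, hσ, rfl⟩ := h1
    obtain ⟨τ, hτ, rfl⟩ := h2
    exact ⟨τ * σ⁻¹, Subgroup.mul_mem _ hτ (Subgroup.inv_mem _ hσ), by rw [mul_smul, inv_smul_smul]⟩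

/-- Orbits of a triad stabiliser on the triads disjoint from it: the 210 triads inside a common octad with it form one orbit and the remaining 1120 another. -/
theorem result (T : Finset Cfsg.GolayPt) (hT : T.card = 3) : {U : Finset Cfsg.GolayPt | U.card = 3 ∧ Disjoint T U ∧ (∃ o ∈ Cfsg.octads, T ∪ U ⊆ o)}.ncard = 210 ∧ {U : Finset Cfsg.GolayPt | U.card = 3 ∧ Disjoint T U ∧ ¬ (∃ o ∈ Cfsg.octads, T ∪ U ⊆ o)}.ncard = 1120 ∧ ∀ U U' : Finset Cfsg.GolayPt, U.card = 3 → U'.card = 3 → Disjoint T U → Disjoint T U' → ((∃ o ∈ Cfsg.octads, T ∪ U ⊆ o) ↔ (∃ o ∈ Cfsg.octads, T ∪ U' ⊆ o)) → ∃ g : Equiv.Perm Cfsg.GolayPt, g ∈ Cfsg.M24 ∧ g • T = T ∧ g • U = U' := by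
  obtain ⟨γ, hγ, rfl⟩ := exists_smul_t0 hT
  have hγi : γ⁻¹ ∈ M24 := M24.inv_mem hγ
  refine ⟨?_, ?_, ?_⟩
  · rw [ncard_transfer γ (fun T U => U.card = 3 ∧ Disjoint T U ∧ ∃ o ∈ octads, T ∪ U ⊆ o)
      (in_equiv hγ) t0, setIn0]
    exact tri_partition.1 2
  · rw [ncard_transfer γ (fun T U => U.card = 3 ∧ Disjoint T U ∧ ¬ ∃ o ∈ octads, T ∪ U ⊆ o)
      (out_equiv hγ) t0, setOut0]
    exact tri_partition.1 3
  · intro U U' hU hU' hd hd' h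
    have e : ∀ V : Finset GolayPt, γ • t0 ∪ V = γ • (t0 ∪ γ⁻¹ • V) := by
      intro V
      rw [Finset.smul_finset_union, smul_inv_smul]
    have d : ∀ V : Finset GolayPt, Disjoint (γ • t0) V → Disjoint t0 (γ⁻¹ • V) := by
      intro V hV
      rw [← disjoint_smul_iff γ, smul_inv_smul]
      exact hV
    apply transfer_stab hγ
    apply trans0 (by rw [Finset.card_smul_finset, hU]) (by rw [Finset.card_smul_finset, hU'])
      (d U hd) (d U' hd')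
    rw [← exists_octad_smul_iff hγ, ← e, ← exists_octad_smul_iff hγ (t0 ∪ γ⁻¹ • U'), ← e]
    exact h

end Cfsg.Agent.S1562
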