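import Cfsg.Statements.S1565
import Cfsg.Agent.Lib.Helper36.M24Oct
import Cfsg.Agent.Lib.Helper36.Coatom

set_option autoImplicit false
open scoped Pointwise
open Cfsg

namespace Cfsg.Agent.S1565

open Cfsg.Agent.Lib.Helper9 Cfsg.Agent.Lib.Helper36

/-- The octads meeting the standard octad in `2 c` points. -/
def cls (c : Fin 3) : Set (Finset Cfsg.GolayPt) :=
  {o' | o' ∈ Cfsg.octads ∧ (o0 ∩ o').card = 2 * c.val}

theorem orbit_o0 : MulAction.orbit Cfsg.M24 o0 = Cfsg.octads := by
  ext x
  constructor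
  · rintro ⟨g, rfl⟩
    exact smul_octad_mem g.2 o0_mem
  · intro hx
    obtain ⟨σ, hσ, rfl⟩ := exists_smul_o0 hx
    exact ⟨⟨σ, hσ⟩, rfl⟩

theorem isCoatom_o0 : IsCoatom (MulAction.stabilizer Cfsg.M24 o0) := by
  have hnum := interNum_5_8_24 golay_card_pt octads_steiner o0_mem
  apply isCoatom_stabilizer_of_suborbits o0 cls ![30, 448, 280]
  · rw [orbit_o0]
    ext x
    simp only [Set.mem_union, Set.mem_singleton_iff, Set.mem_iUnion, cls, Set.mem_ofPred_eq]
    constructor
    · intro hx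
      by_cases he : o0 = x
      · exact Or.inl he.symm
      · right
        rcases inter_card_5_8_24 golay_card_pt octads_steiner o0_mem hx he with h | h | h
        · exact ⟨0, hx, by rw [h]; rfl⟩
        · exact ⟨1, hx, by rw [h]; rfl⟩
        · exact ⟨2, hx, by rw [h]; rfl⟩
    · rintro (rfl | ⟨c, hx, -⟩)
      · exact o0_mem
      · exact hx
  · intro c hc
    have h1 := hc.2
    rw [Finset.inter_self, o0_mem.2] at h1
    have := c.2
    omega
  · intro i j hij
    rw [Set.disjoint_left]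
    intro x hx hx'
    apply hij
    apply Fin.ext
    have h1 := hx.2
    have h2 := hx'.2
    omega
  · intro c
    have e : cls c = {o' : Finset GolayPt | o' ∈ octads ∧ (o0 ∩ o').card = 2 * c.val} := rfl
    rw [e, ncard_oct_class]
    fin_cases c
    · exact hnum.1
    · exact hnum.2.2.1
    · exact hnum.2.2.2.2
  · intro c x hx y hy
    obtain ⟨σ, hσ, hσe⟩ := oct0_transitive hx.1 hy.1 (by rw [hx.2, hy.2])
    rw [mem_stabMask] at hσ
    exact ⟨⟨σ, hσ.1⟩, hσ.2, hσe⟩
  · refine ⟨0, ?_⟩
    apply Set.nonempty_of_ncard_ne_zero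
    have e : cls 0 = {o' : Finset GolayPt | o' ∈ octads ∧ (o0 ∩ o').card = 0} := rfl
    rw [e, ncard_oct_class, hnum.1]
    norm_num
  · decide

/-- The stabiliser of an octad is a maximal proper subgroup of the group of the length-24 code. -/
theorem result (o : Finset Cfsg.GolayPt) (ho : o ∈ Cfsg.octads) : IsCoatom (MulAction.stabilizer Cfsg.M24 o) := by
  obtain ⟨σ, hσ, rfl⟩ := exists_smul_o0 ho
  exact isCoatom_stabilizer_smul (⟨σ, hσ⟩ : Cfsg.M24) o0 isCoatom_o0

end Cfsg.Agent.S1565
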