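import Cfsg.Statements.S1566
import Cfsg.Agent.Lib.Helper36.M24Dod
import Cfsg.Agent.Lib.Helper36.Coatom

set_option autoImplicit false
open scoped Pointwise
open Cfsg

namespace Cfsg.Agent.S1566

open Finset Cfsg.Agent.Lib.Helper9 Cfsg.Agent.Lib.Helper10 Cfsg.Agent.Lib.Helper36

/-- A set together with its complement. -/
def pairOf (d : Finset Cfsg.GolayPt) : Finset (Finset Cfsg.GolayPt) := {d, dᶜ}

theorem smul_compl (g : Equiv.Perm Cfsg.GolayPt) (d : Finset Cfsg.GolayPt) : g • dᶜ = (g • d)ᶜ := by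
  rw [compl_eq_univ_sdiff, smul_finset_sdiff, smul_finset_univ, compl_eq_univ_sdiff]

theorem smul_pairOf (g : Equiv.Perm Cfsg.GolayPt) (d : Finset Cfsg.GolayPt) :
    g • pairOf d = pairOf (g • d) := by
  rw [pairOf, pairOf, smul_finset_insert, smul_finset_singleton, smul_compl]

theorem ne_compl (d : Finset Cfsg.GolayPt) : d ≠ dᶜ := by
  intro h
  have h1 : (none : Cfsg.GolayPt) ∈ d ↔ (none : Cfsg.GolayPt) ∈ dᶜ := by rw [← h]
  rw [mem_compl] at h1
  tauto

theorem pairOf_eq_iff {d e : Finset Cfsg.GolayPt} : pairOf d = pairOf e ↔ e = d ∨ e = dᶜ := by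
  constructor
  · intro h
    have : e ∈ pairOf d := by rw [h, pairOf]; exact mem_insert_self _ _
    rw [pairOf, mem_insert, mem_singleton] at this
    exact this
  · rintro (rfl | rfl)
    · rfl
    · rw [pairOf, pairOf, compl_compl, pair_comm]

theorem compl_mem_dodecads {d : Finset Cfsg.GolayPt} (hd : d ∈ Cfsg.dodecads) : dᶜ ∈ Cfsg.dodecads :=
  ⟨compl_mem_gsup hd.1, by rw [card_compl, golay_card_pt, hd.2]⟩

theorem card_inter_compl {d : Finset Cfsg.GolayPt} (a : Finset Cfsg.GolayPt) (ha : a.card = 12) :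
    (a ∩ dᶜ).card = 12 - (a ∩ d).card := by
  have h1 : a ∩ dᶜ = a \ d := by
    ext x; simp only [mem_inter, mem_compl, mem_sdiff]
  have h2 := card_sdiff_add_card_inter a d
  rw [h1]; omega

/-- A family of sets closed under complement has twice as many members as complementary pairs. -/
theorem card_pairs (D : Finset (Finset Cfsg.GolayPt)) (hD : ∀ d ∈ D, dᶜ ∈ D) :
    D.card = 2 * (D.image pairOf).card := by
  have hU : D = (D.image pairOf).biUnion id := by
    ext d
    simp only [mem_biUnion, mem_image, id]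
    constructor
    · intro hd
      exact ⟨pairOf d, ⟨d, hd, rfl⟩, by rw [pairOf]; exact mem_insert_self _ _⟩
    · rintro ⟨p, ⟨e, he, rfl⟩, hdp⟩
      rw [pairOf, mem_insert, mem_singleton] at hdp
      rcases hdp with rfl | rfl
      · exact he
      · exact hD e he
  have hc := card_biUnion (s := D.image pairOf) (t := id) (by
    intro p hp p' hp' hne
    rw [mem_coe, mem_image] at hp hp'
    obtain ⟨d, -, rfl⟩ := hp
    obtain ⟨e, -, rfl⟩ := hp'
    rw [Function.onFun, disjoint_left]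
    intro x hx hx'
    apply hne
    simp only [id, pairOf, mem_insert, mem_singleton] at hx hx'
    have h1 : pairOf d = pairOf x := pairOf_eq_iff.mpr hx
    have h2 : pairOf e = pairOf x := pairOf_eq_iff.mpr hx'
    rw [h1, h2])
  rw [← hU] at hc
  rw [hc, sum_congr rfl (g := fun _ => 2), sum_const, smul_eq_mul, mul_comm]
  intro p hp
  rw [mem_image] at hp
  obtain ⟨d, -, rfl⟩ := hp
  exact card_pair (ne_compl d)

/-- Pairs `{d, dᶜ}` of dodecads with `d` meeting the standard dodecad in `4 + 2c` points. -/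
def cls (c : Fin 2) : Set (Finset (Finset Cfsg.GolayPt)) :=
  pairOf '' {d | d ∈ Cfsg.dodecads ∧ (d0 ∩ d).card = 4 + 2 * c.val}

theorem ncard_cls0 : (cls 0).ncard = 495 := by
  have h12 : d0.card = 12 := d0_mem.2
  have hinj : Set.InjOn pairOf {d | d ∈ Cfsg.dodecads ∧ (d0 ∩ d).card = 4} := by
    rintro d ⟨hd, hk⟩ e ⟨he, hk'⟩ hde
    rcases pairOf_eq_iff.mp hde with h | h
    · exact h.symm
    · rw [h, card_inter_compl d0 h12] at hk'
      omega
  have e : cls 0 = pairOf '' {d | d ∈ Cfsg.dodecads ∧ (d0 ∩ d).card = 4} := rfl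
  rw [e, Set.InjOn.ncard_image hinj, Cfsg.Agent.S1560.set_eq, Set.ncard_coe_finset]
  exact Cfsg.Agent.S1560.card_four d0_mem

theorem ncard_cls1 : (cls 1).ncard = 792 := by
  have h12 : d0.card = 12 := d0_mem.2
  have e : cls 1 = ↑(((blocksFin dodecads).filter (fun d' => (d0 ∩ d').card = 6)).image pairOf) := by
    ext x
    simp only [cls, Set.mem_image, Set.mem_ofPred_eq, coe_image, coe_filter, mem_blocksFin]
    rfl
  rw [e, Set.ncard_coe_finset]
  have h1 := card_pairs ((blocksFin dodecads).filter (fun d' => (d0 ∩ d').card = 6)) (by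
    intro d hd
    rw [mem_filter, mem_blocksFin] at hd ⊢
    refine ⟨compl_mem_dodecads hd.1, ?_⟩
    rw [card_inter_compl d0 h12, hd.2])
  rw [Cfsg.Agent.S1560.card_six d0_mem] at h1
  omega

theorem orbit_pair0 : MulAction.orbit Cfsg.M24 (pairOf d0) = pairOf '' Cfsg.dodecads := by
  ext x
  constructor
  · rintro ⟨g, rfl⟩
    exact ⟨(g : Equiv.Perm GolayPt) • d0, smul_dodecad_mem g.2 d0_mem, (smul_pairOf _ _).symm⟩
  · rintro ⟨d, hd, rfl⟩
    obtain ⟨σ, hσ, rfl⟩ := exists_smul_d0 hd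
    exact ⟨⟨σ, hσ⟩, smul_pairOf σ d0⟩

theorem isCoatom_pair0 : IsCoatom (MulAction.stabilizer Cfsg.M24 (pairOf d0)) := by
  have h12 : d0.card = 12 := d0_mem.2
  apply isCoatom_stabilizer_of_suborbits (pairOf d0) cls ![495, 792]
  · rw [orbit_pair0]
    ext x
    simp only [Set.mem_union, Set.mem_singleton_iff, Set.mem_iUnion, cls, Set.mem_image,
      Set.mem_ofPred_eq]
    constructor
    · rintro ⟨d, hd, rfl⟩
      rcases Cfsg.Agent.S1560.inter_cases d0_mem hd with h | h | h | h | h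
      · left
        rw [pairOf_eq_iff]
        exact Or.inr (by rw [eq_compl_of_inter_zero d0_mem hd h, compl_compl])
      · exact Or.inr ⟨0, d, ⟨hd, by rw [h]; rfl⟩, rfl⟩
      · exact Or.inr ⟨1, d, ⟨hd, by rw [h]; rfl⟩, rfl⟩
      · refine Or.inr ⟨0, dᶜ, ⟨compl_mem_dodecads hd, ?_⟩, pairOf_eq_iff.mpr (Or.inr (compl_compl d).symm)⟩
        rw [card_inter_compl d0 h12, h]; rfl
      · left
        rw [pairOf_eq_iff]
        exact Or.inl (Cfsg.Agent.S1560.eq_of_inter_twelve d0_mem hd h).symm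
    · rintro (rfl | ⟨c, d, ⟨hd, -⟩, rfl⟩)
      · exact ⟨d0, d0_mem, rfl⟩
      · exact ⟨d, hd, rfl⟩
  · rintro c ⟨d, ⟨hd, hk⟩, he⟩
    have := c.2
    rcases pairOf_eq_iff.mp he with h | h
    · rw [← h, inter_self, h12] at hk; omega
    · have hd' : d = d0ᶜ := by rw [h, compl_compl]
      rw [hd', card_inter_compl d0 h12, inter_self, h12] at hk; omega
  · intro i j hij
    rw [Set.disjoint_left]
    rintro x ⟨d, ⟨hd, hk⟩, rfl⟩ ⟨e, ⟨he, hk'⟩, hee⟩
    apply hij
    apply Fin.ext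
    have hi := i.2
    have hj := j.2
    rcases pairOf_eq_iff.mp hee with h | h
    · rw [h] at hk; omega
    · rw [h, card_inter_compl d0 h12] at hk; omega
  · intro c
    fin_cases c
    · exact ncard_cls0
    · exact ncard_cls1
  · rintro c x ⟨d, ⟨hd, hk⟩, rfl⟩ y ⟨e, ⟨he, hk'⟩, rfl⟩
    obtain ⟨σ, hσ, hσe⟩ := dod0_transitive hd he (by rw [hk, hk'])
    rw [mem_stabMask] at hσ
    refine ⟨⟨σ, hσ.1⟩, ?_, ?_⟩
    · show σ • pairOf d0 = pairOf d0
      rw [smul_pairOf]
      exact congrArg pairOf hσ.2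
    · show σ • pairOf d = pairOf e
      rw [smul_pairOf, hσe]
  · refine ⟨0, pairOf (ms 1035448), ms 1035448, ⟨ms_mem_dodecads (by decide +kernel) (by decide +kernel), ?_⟩, rfl⟩
    rw [d0, ← ms_and, card_ms]
    decide +kernel
  · decide

/-- The setwise stabiliser of a dodecad together with its complement is a maximal proper subgroup of the group of the length-24 code. -/
theorem result (d : Finset Cfsg.GolayPt) (hd : d ∈ Cfsg.dodecads) : IsCoatom (MulAction.stabilizer Cfsg.M24 ({d, dᶜ} : Finset (Finset Cfsg.GolayPt))) := by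
  obtain ⟨σ, hσ, rfl⟩ := exists_smul_d0 hd
  have h := isCoatom_stabilizer_smul (⟨σ, hσ⟩ : Cfsg.M24) (pairOf d0) isCoatom_pair0
  have e : (⟨σ, hσ⟩ : Cfsg.M24) • pairOf d0 = ({σ • d0, (σ • d0)ᶜ} : Finset (Finset Cfsg.GolayPt)) :=
    smul_pairOf σ d0
  rw [e] at h
  exact h

end Cfsg.Agent.S1566
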