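import Cfsg.Statements.S1568
import Cfsg.Agent.Lib.Helper10.Census48

set_option autoImplicit false
open Cfsg

namespace Cfsg.Agent.S1568

/-- Shape census of the lattice vectors of sum of squares 48 (customary norm 6): the four families (2^12, 0^12), (±3^3, ±1^21), (±4, ±2^8, 0^15) and (±5, ±1^23) have 5275648, 8290304, 3108864 and 98304 members. -/
theorem result : {x : Cfsg.GolayPt → ℤ | x ∈ Cfsg.leechLattice ∧ Cfsg.sqNorm x = 48 ∧ ∀ i, x i = 0 ∨ x i = 2 ∨ x i = -2}.ncard = 5275648 ∧ {x : Cfsg.GolayPt → ℤ | x ∈ Cfsg.leechLattice ∧ Cfsg.sqNorm x = 48 ∧ ∃ i j k, i ≠ j ∧ j ≠ k ∧ i ≠ k ∧ |x i| = 3 ∧ |x j| = 3 ∧ |x k| = 3}.ncard = 8290304 ∧ {x : Cfsg.GolayPt → ℤ | x ∈ Cfsg.leechLattice ∧ Cfsg.sqNorm x = 48 ∧ ∃ i, |x i| = 4}.ncard = 3108864 ∧ {x : Cfsg.GolayPt → ℤ | x ∈ Cfsg.leechLattice ∧ Cfsg.sqNorm x = 48 ∧ ∃ i, |x i| = 5}.ncard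 = 98304 :=
  ⟨Cfsg.Agent.Lib.Helper10.card_setA, Cfsg.Agent.Lib.Helper10.card_setC, Cfsg.Agent.Lib.Helper10.card_setB, Cfsg.Agent.Lib.Helper10.card_setD⟩

end Cfsg.Agent.S1568
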