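import Cfsg.Statements.S1587
import Mathlib

set_option autoImplicit false
open Matrix
open Cfsg

namespace Cfsg.Agent.S1587

/-- First step of the characterisation of the rank-24 lattice: in an even lattice without roots, norm-8 vectors congruent modulo 2 are equal, opposite or orthogonal. -/
theorem result (B : Matrix (Fin 24) (Fin 24) ℤ) (hsymm : B.IsSymm) (hpos : ∀ x : Fin 24 → ℤ, x ≠ 0 → 0 < x ⬝ᵥ (B *ᵥ x)) (heven : ∀ x : Fin 24 → ℤ, (2 : ℤ) ∣ x ⬝ᵥ (B *ᵥ x)) (h2 : ∀ x : Fin 24 → ℤ, x ⬝ᵥ (B *ᵥ x) ≠ 2) (x y : Fin 24 → ℤ) (hx : x ⬝ᵥ (B *ᵥ x) = 8) (hy : y ⬝ᵥ (B *ᵥ y) = 8) (hc : ∀ i, (2 : ℤ) ∣ (x - y) i) : y = x ∨ y = -x ∨ x ⬝ᵥ (B *ᵥ y) = 0 := by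
  classical
  choose z hz using hc
  have hxy : x - y = (2 : ℤ) • z := by
    ext i
    simpa using hz i
  have hxy' : x + y = (2 : ℤ) • (x - z) := by
    ext i
    have := hz i
    simp only [Pi.sub_apply] at this
    simp only [Pi.add_apply, Pi.smul_apply, Pi.sub_apply, smul_eq_mul]
    linarith
  have hsym : y ⬝ᵥ (B *ᵥ x) = x ⬝ᵥ (B *ᵥ y) := by
    rw [Matrix.dotProduct_mulVec, ← Matrix.mulVec_transpose, hsymm.eq, dotProduct_comm]
  have e1 : (x - y) ⬝ᵥ (B *ᵥ (x - y)) = 16 - 2 * (x ⬝ᵥ (B *ᵥ y)) := by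
    simp only [Matrix.mulVec_sub, sub_dotProduct, dotProduct_sub, hsym, hx, hy]
    ring
  have e2 : (x + y) ⬝ᵥ (B *ᵥ (x + y)) = 16 + 2 * (x ⬝ᵥ (B *ᵥ y)) := by
    simp only [Matrix.mulVec_add, add_dotProduct, dotProduct_add, hsym, hx, hy]
    ring
  have e3 : (x - y) ⬝ᵥ (B *ᵥ (x - y)) = 4 * (z ⬝ᵥ (B *ᵥ z)) := by
    rw [hxy]
    simp only [Matrix.mulVec_smul, smul_dotProduct, dotProduct_smul, smul_eq_mul]
    ring
  have e4 : (x + y) ⬝ᵥ (B *ᵥ (x + y)) = 4 * ((x - z) ⬝ᵥ (B *ᵥ (x - z))) := by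
    rw [hxy']
    simp only [Matrix.mulVec_smul, smul_dotProduct, dotProduct_smul, smul_eq_mul]
    ring
  by_cases hz0 : z = 0
  · left
    rw [hz0, smul_zero, sub_eq_zero] at hxy
    exact hxy.symm
  by_cases hw0 : x - z = 0
  · right; left
    rw [hw0, smul_zero] at hxy'
    exact eq_neg_of_add_eq_zero_right hxy'
  right; right
  have p1 := hpos z hz0
  have p2 := hpos (x - z) hw0
  obtain ⟨a, ha⟩ := heven z
  obtain ⟨b, hb⟩ := heven (x - z)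
  have n1 := h2 z
  have n2 := h2 (x - z)
  rw [ha] at n1 p1
  rw [hb] at n2 p2
  rw [ha] at e3
  rw [hb] at e4
  have ha2 : 2 ≤ a := by
    by_contra hlt
    have : a = 1 := by omega
    subst this
    exact n1 rfl
  have hb2 : 2 ≤ b := by
    by_contra hlt
    have : b = 1 := by omega
    subst this
    exact n2 rfl
  linarith
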