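import Cfsg.Statements.S1588
import Mathlib

set_option autoImplicit false
open Matrix
open Cfsg

namespace Cfsg.Agent.S1588

theorem lemmaA (B : Matrix (Fin 24) (Fin 24) ℤ) (hsymm : B.IsSymm)
    (hpos : ∀ x : Fin 24 → ℤ, x ≠ 0 → 0 < x ⬝ᵥ (B *ᵥ x))
    (heven : ∀ x : Fin 24 → ℤ, (2 : ℤ) ∣ x ⬝ᵥ (B *ᵥ x))
    (h2 : ∀ x : Fin 24 → ℤ, x ⬝ᵥ (B *ᵥ x) ≠ 2) (x y : Fin 24 → ℤ)
    (hx : x ⬝ᵥ (B *ᵥ x) ≤ 8) (hy : y ⬝ᵥ (B *ᵥ y) ≤ 8) (hc : ∀ i, (2 : ℤ) ∣ (x - y) i) :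
    y = x ∨ y = -x ∨
      (x ⬝ᵥ (B *ᵥ x) = 8 ∧ y ⬝ᵥ (B *ᵥ y) = 8 ∧ x ⬝ᵥ (B *ᵥ y) = 0) := by
  classical
  choose z hz using hc
  have hxy : x - y = (2 : ℤ) • z := by
    ext i
    simpa using hz i
  have hxy' : x + y = (2 : ℤ) • (x - z) := by
    ext i
    have := hz i
    simp only [Pi.sub_apply] at this
    simp only [Pi.add_apply, Pi.smul_apply, Pi.sub_apply, smul_eq_mul]
    linarith
  have hsym : y ⬝ᵥ (B *ᵥ x) = x ⬝ᵥ (B *ᵥ y) := by
    rw [Matrix.dotProduct_mulVec, ← Matrix.mulVec_transpose, hsymm.eq, dotProduct_comm]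
  have e1 : (x - y) ⬝ᵥ (B *ᵥ (x - y)) =
      x ⬝ᵥ (B *ᵥ x) + y ⬝ᵥ (B *ᵥ y) - 2 * (x ⬝ᵥ (B *ᵥ y)) := by
    simp only [Matrix.mulVec_sub, sub_dotProduct, dotProduct_sub, hsym]
    ring
  have e2 : (x + y) ⬝ᵥ (B *ᵥ (x + y)) =
      x ⬝ᵥ (B *ᵥ x) + y ⬝ᵥ (B *ᵥ y) + 2 * (x ⬝ᵥ (B *ᵥ y)) := by
    simp only [Matrix.mulVec_add, add_dotProduct, dotProduct_add, hsym]
    ring
  have e3 : (x - y) ⬝ᵥ (B *ᵥ (x - y)) = 4 * (z ⬝ᵥ (B *ᵥ z)) := by
    rw [hxy]
    simp only [Matrix.mulVec_smul, smul_dotProduct, dotProduct_smul, smul_eq_mul]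
    ring
  have e4 : (x + y) ⬝ᵥ (B *ᵥ (x + y)) = 4 * ((x - z) ⬝ᵥ (B *ᵥ (x - z))) := by
    rw [hxy']
    simp only [Matrix.mulVec_smul, smul_dotProduct, dotProduct_smul, smul_eq_mul]
    ring
  by_cases hz0 : z = 0
  · left
    rw [hz0, smul_zero, sub_eq_zero] at hxy
    exact hxy.symm
  by_cases hw0 : x - z = 0
  · right; left
    rw [hw0, smul_zero] at hxy'
    exact eq_neg_of_add_eq_zero_right hxy'
  right; right
  have p1 := hpos z hz0
  have p2 := hpos (x - z) hw0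
  obtain ⟨a, ha⟩ := heven z
  obtain ⟨b, hb⟩ := heven (x - z)
  have n1 := h2 z
  have n2 := h2 (x - z)
  rw [ha] at n1 p1
  rw [hb] at n2 p2
  rw [e1, ha] at e3
  rw [e2, hb] at e4
  have ha2 : 2 ≤ a := by
    by_contra hlt
    have : a = 1 := by omega
    subst this
    exact n1 rfl
  have hb2 : 2 ≤ b := by
    by_contra hlt
    have : b = 1 := by omega
    subst this
    exact n2 rfl
  generalize x ⬝ᵥ (B *ᵥ x) = X at *
  generalize y ⬝ᵥ (B *ᵥ y) = Y at *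
  generalize x ⬝ᵥ (B *ᵥ y) = W at *
  omega

theorem fiber_bound (B : Matrix (Fin 24) (Fin 24) ℤ) (F : Finset (Fin 24 → ℤ))
    (hq : ∀ y ∈ F, y ⬝ᵥ (B *ᵥ y) = 8)
    (hneg : ∀ y ∈ F, -y ∈ F)
    (horth : ∀ y ∈ F, ∀ y' ∈ F, y' = y ∨ y' = -y ∨ y ⬝ᵥ (B *ᵥ y') = 0) : F.card ≤ 48 := by
  classical
  let pos : (Fin 24 → ℤ) → Prop := fun y => (0 : Lex (Fin 24 → ℤ)) < toLex y
  have hposneg : ∀ y, pos y → pos (-y) → False := by
    intro y h1 h2
    have h3 : (0 : Lex (Fin 24 → ℤ)) < -toLex y := h2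
    exact lt_asymm h1 (neg_pos.mp h3)
  set R := F.filter pos with hR
  have hRF : ∀ r ∈ R, r ∈ F := fun r hr => (Finset.mem_filter.mp hr).1
  have hRpos : ∀ r ∈ R, pos r := fun r hr => (Finset.mem_filter.mp hr).2
  have hcover : F ⊆ R ∪ R.image (fun y => -y) := by
    intro y hy
    have hy0 : y ≠ 0 := by
      rintro rfl
      have := hq 0 hy
      simp at this
    rcases lt_trichotomy (0 : Lex (Fin 24 → ℤ)) (toLex y) with h | h | h
    · exact Finset.mem_union_left _ (Finset.mem_filter.mpr ⟨hy, h⟩)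
    · exact absurd (toLex.injective h.symm) hy0
    · apply Finset.mem_union_right
      rw [Finset.mem_image]
      refine ⟨-y, Finset.mem_filter.mpr ⟨hneg y hy, ?_⟩, neg_neg y⟩
      show (0 : Lex (Fin 24 → ℤ)) < -toLex y
      exact neg_pos.mpr h
  have hli : LinearIndependent ℤ (fun r : R => (r : Fin 24 → ℤ)) := by
    rw [Fintype.linearIndependent_iff]
    intro g hg r0
    have h0 := congrArg (fun v => v ⬝ᵥ (B *ᵥ (r0 : Fin 24 → ℤ))) hg
    simp only [zero_dotProduct] at h0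
    rw [sum_dotProduct, Finset.sum_eq_single r0] at h0
    · rw [smul_dotProduct, hq _ (hRF _ r0.2)] at h0
      simpa using h0
    · intro r _ hr
      rw [smul_dotProduct]
      have : (r : Fin 24 → ℤ) ⬝ᵥ (B *ᵥ (r0 : Fin 24 → ℤ)) = 0 := by
        rcases horth r (hRF _ r.2) r0 (hRF _ r0.2) with h | h | h
        · exact absurd (Subtype.ext h).symm hr
        · exfalso
          have h1 := hRpos _ r.2
          have h2 := hRpos _ r0.2
          rw [h] at h2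
          exact hposneg _ h1 h2
        · exact h
      rw [this, smul_zero]
    · intro h; exact absurd (Finset.mem_univ _) h
  have hRcard : R.card ≤ 24 := by
    have := hli.finset_card_le_finrank
    simpa using this
  calc F.card ≤ (R ∪ R.image (fun y => -y)).card := Finset.card_le_card hcover
    _ ≤ R.card + (R.image (fun y => -y)).card := Finset.card_union_le _ _
    _ ≤ R.card + R.card := Nat.add_le_add_left Finset.card_image_le _
    _ ≤ 48 := by omega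

/-- Second step of the characterisation: under the vector counts of the rank-24 lattice, the norm-8 vectors fall into congruence classes of exactly 48 modulo twice the lattice. -/
theorem result (B : Matrix (Fin 24) (Fin 24) ℤ) (hsymm : B.IsSymm) (hpos : ∀ x : Fin 24 → ℤ, x ≠ 0 → 0 < x ⬝ᵥ (B *ᵥ x)) (heven : ∀ x : Fin 24 → ℤ, (2 : ℤ) ∣ x ⬝ᵥ (B *ᵥ x)) (h2 : ∀ x : Fin 24 → ℤ, x ⬝ᵥ (B *ᵥ x) ≠ 2) (h4 : {x : Fin 24 → ℤ | x ⬝ᵥ (B *ᵥ x) = 4}.ncard = 196560) (h6 : {x : Fin 24 → ℤ | x ⬝ᵥ (B *ᵥ x) = 6}.ncard = 16773120) (h8 : {x : Fin 24 → ℤ | x ⬝ᵥ (B *ᵥ x) = 8}.ncard = 398034000) (x : Fin 24 → ℤ) (hx : x ⬝ᵥ (B *ᵥ x) = 8) : {y : Fin 24 → ℤ | y ⬝ᵥ (B *ᵥ y) = 8 ∧ ∀ i, (2 : ℤ) ∣ (x - y) i}.ncard = 48 := by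
  classical
  have fin4 : {x : Fin 24 → ℤ | x ⬝ᵥ (B *ᵥ x) = 4}.Finite :=
    Set.finite_of_ncard_ne_zero (by rw [h4]; norm_num)
  have fin6 : {x : Fin 24 → ℤ | x ⬝ᵥ (B *ᵥ x) = 6}.Finite :=
    Set.finite_of_ncard_ne_zero (by rw [h6]; norm_num)
  have fin8 : {x : Fin 24 → ℤ | x ⬝ᵥ (B *ᵥ x) = 8}.Finite :=
    Set.finite_of_ncard_ne_zero (by rw [h8]; norm_num)
  set F4 := fin4.toFinset with hF4
  set F6 := fin6.toFinset with hF6
  set F8 := fin8.toFinset with hF8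
  have m4 : ∀ v, v ∈ F4 ↔ v ⬝ᵥ (B *ᵥ v) = 4 := fun v => by
    rw [hF4, Set.Finite.mem_toFinset]; rfl
  have m6 : ∀ v, v ∈ F6 ↔ v ⬝ᵥ (B *ᵥ v) = 6 := fun v => by
    rw [hF6, Set.Finite.mem_toFinset]; rfl
  have m8 : ∀ v, v ∈ F8 ↔ v ⬝ᵥ (B *ᵥ v) = 8 := fun v => by
    rw [hF8, Set.Finite.mem_toFinset]; rfl
  have c4 : F4.card = 196560 := by rw [← h4, Set.ncard_eq_toFinset_card _ fin4]
  have c6 : F6.card = 16773120 := by rw [← h6, Set.ncard_eq_toFinset_card _ fin6]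
  have c8 : F8.card = 398034000 := by rw [← h8, Set.ncard_eq_toFinset_card _ fin8]
  let π : (Fin 24 → ℤ) → (Fin 24 → ZMod 2) := fun v i => (v i : ZMod 2)
  have hπ : ∀ v w : Fin 24 → ℤ, π w = π v ↔ ∀ i, (2 : ℤ) ∣ (v - w) i := by
    intro v w
    rw [funext_iff]
    refine forall_congr' fun i => ?_
    show ((w i : ℤ) : ZMod 2) = ((v i : ℤ) : ZMod 2) ↔ _
    rw [ZMod.intCast_eq_intCast_iff_dvd_sub]
    rfl
  have hqneg : ∀ v : Fin 24 → ℤ, (-v) ⬝ᵥ (B *ᵥ (-v)) = v ⬝ᵥ (B *ᵥ v) := by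
    intro v
    simp [Matrix.mulVec_neg]
  have hπneg : ∀ v : Fin 24 → ℤ, π (-v) = π v := by
    intro v
    rw [hπ]
    intro i
    exact ⟨v i, by simp; ring⟩
  have hq0 : (0 : Fin 24 → ℤ) ⬝ᵥ (B *ᵥ (0 : Fin 24 → ℤ)) = 0 := by simp
  have hne : ∀ v : Fin 24 → ℤ, v ⬝ᵥ (B *ᵥ v) ≠ 0 → v ≠ -v := by
    intro v hv h
    apply hv
    have hv0 : v = 0 := by
      ext i
      have := congrFun h i
      simp only [Pi.neg_apply, Pi.zero_apply] at this ⊢
      omega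
    rw [hv0]; exact hq0
  -- the key dichotomy
  have key : ∀ v w : Fin 24 → ℤ, v ⬝ᵥ (B *ᵥ v) ≤ 8 → w ⬝ᵥ (B *ᵥ w) ≤ 8 → π w = π v →
      w = v ∨ w = -v ∨ (v ⬝ᵥ (B *ᵥ v) = 8 ∧ w ⬝ᵥ (B *ᵥ w) = 8 ∧ v ⬝ᵥ (B *ᵥ w) = 0) :=
    fun v w hv hw h => lemmaA B hsymm hpos heven h2 v w hv hw ((hπ v w).mp h)
  -- fibres over norm 4 and norm 6 have two elements
  have fib2 : ∀ (F : Finset (Fin 24 → ℤ)) (k : ℤ), k ≤ 8 → k ≠ 8 → k ≠ 0 →
      (∀ v, v ∈ F ↔ v ⬝ᵥ (B *ᵥ v) = k) → F.card = 2 * (F.image π).card := by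
    intro F k hk8 hkne hk0 hF
    rw [Finset.card_eq_sum_card_image π F, Finset.sum_const_nat (m := 2), mul_comm]
    intro c hc
    obtain ⟨v, hv, rfl⟩ := Finset.mem_image.mp hc
    have hvk := (hF v).mp hv
    have hfib : F.filter (fun a => π a = π v) = {v, -v} := by
      ext w
      simp only [Finset.mem_filter, Finset.mem_insert, Finset.mem_singleton]
      constructor
      · rintro ⟨hw, hπw⟩
        rcases key v w (by rw [hvk]; exact hk8) (by rw [(hF w).mp hw]; exact hk8) hπw with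
          h | h | ⟨h, -, -⟩
        · exact Or.inl h
        · exact Or.inr h
        · exact absurd (hvk.symm.trans h) hkne
      · rintro (rfl | rfl)
        · exact ⟨hv, rfl⟩
        · exact ⟨(hF _).mpr (by rw [hqneg, hvk]), hπneg v⟩
    rw [hfib, Finset.card_pair (hne v (by rw [hvk]; exact hk0))]
  have p4 : (F4.image π).card = 98280 := by
    have := fib2 F4 4 (by norm_num) (by norm_num) (by norm_num) m4
    omega
  have p6 : (F6.image π).card = 8386560 := by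
    have := fib2 F6 6 (by norm_num) (by norm_num) (by norm_num) m6
    omega
  -- congruent vectors of norm at most 8 have the same norm
  have keyq : ∀ v w : Fin 24 → ℤ, v ⬝ᵥ (B *ᵥ v) ≤ 8 → w ⬝ᵥ (B *ᵥ w) ≤ 8 → π w = π v →
      w ⬝ᵥ (B *ᵥ w) = v ⬝ᵥ (B *ᵥ v) := by
    intro v w hv hw h
    rcases key v w hv hw h with rfl | rfl | ⟨h1, h2, -⟩
    · rfl
    · exact hqneg v
    · rw [h1, h2]
  have disj : ∀ (F F' : Finset (Fin 24 → ℤ)) (k k' : ℤ), k ≤ 8 → k' ≤ 8 → k ≠ k' →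
      (∀ v, v ∈ F ↔ v ⬝ᵥ (B *ᵥ v) = k) → (∀ v, v ∈ F' ↔ v ⬝ᵥ (B *ᵥ v) = k') →
      Disjoint (F.image π) (F'.image π) := by
    intro F F' k k' hk hk' hkk hF hF'
    rw [Finset.disjoint_left]
    intro c hc hc'
    obtain ⟨v, hv, rfl⟩ := Finset.mem_image.mp hc
    obtain ⟨w, hw, hwv⟩ := Finset.mem_image.mp hc'
    have hvk := (hF v).mp hv
    have hwk := (hF' w).mp hw
    have := keyq v w (by rw [hvk]; exact hk) (by rw [hwk]; exact hk') hwv
    rw [hvk, hwk] at this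
    exact hkk this.symm
  set F0 : Finset (Fin 24 → ℤ) := {0} with hF0
  have m0 : ∀ v, v ∈ F0 ↔ v ⬝ᵥ (B *ᵥ v) = 0 := by
    intro v
    rw [hF0, Finset.mem_singleton]
    constructor
    · rintro rfl; exact hq0
    · intro h
      by_contra hv
      have := hpos v hv
      omega
  have p0 : (F0.image π).card = 1 := by
    rw [hF0, Finset.image_singleton, Finset.card_singleton]
  have d04 := disj F0 F4 0 4 (by norm_num) (by norm_num) (by norm_num) m0 m4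
  have d06 := disj F0 F6 0 6 (by norm_num) (by norm_num) (by norm_num) m0 m6
  have d08 := disj F0 F8 0 8 (by norm_num) (by norm_num) (by norm_num) m0 m8
  have d46 := disj F4 F6 4 6 (by norm_num) (by norm_num) (by norm_num) m4 m6
  have d48 := disj F4 F8 4 8 (by norm_num) (by norm_num) (by norm_num) m4 m8
  have d68 := disj F6 F8 6 8 (by norm_num) (by norm_num) (by norm_num) m6 m8
  have hU : (F0.image π ∪ F4.image π ∪ F6.image π ∪ F8.image π).card =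
      1 + 98280 + 8386560 + (F8.image π).card := by
    rw [Finset.card_union_of_disjoint, Finset.card_union_of_disjoint,
      Finset.card_union_of_disjoint d04, p0, p4, p6]
    · rw [Finset.disjoint_union_left]; exact ⟨d06, d46⟩
    · rw [Finset.disjoint_union_left, Finset.disjoint_union_left]; exact ⟨⟨d08, d48⟩, d68⟩
  have hle : (F0.image π ∪ F4.image π ∪ F6.image π ∪ F8.image π).card ≤ 16777216 := by
    have h1 := Finset.card_le_univ (F0.image π ∪ F4.image π ∪ F6.image π ∪ F8.image π)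
    have h2 : Fintype.card (Fin 24 → ZMod 2) = 16777216 := by
      rw [Fintype.card_fun, ZMod.card, Fintype.card_fin]; norm_num
    rw [h2] at h1
    exact h1
  have p8 : (F8.image π).card ≤ 8292375 := by omega
  -- fibres over norm 8 have at most 48 elements
  have fib48 : ∀ c ∈ F8.image π, (F8.filter (fun a => π a = c)).card ≤ 48 := by
    intro c hc
    apply fiber_bound B
    · intro y hy
      exact (m8 y).mp (Finset.mem_filter.mp hy).1
    · intro y hy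
      obtain ⟨hy8, hyc⟩ := Finset.mem_filter.mp hy
      exact Finset.mem_filter.mpr ⟨(m8 _).mpr (by rw [hqneg]; exact (m8 y).mp hy8),
        (hπneg y).trans hyc⟩
    · intro y hy y' hy'
      obtain ⟨hy8, hyc⟩ := Finset.mem_filter.mp hy
      obtain ⟨hy8', hyc'⟩ := Finset.mem_filter.mp hy'
      rcases key y y' (le_of_eq ((m8 y).mp hy8)) (le_of_eq ((m8 y').mp hy8'))
        (hyc'.trans hyc.symm) with h | h | ⟨-, -, h⟩
      · exact Or.inl h
      · exact Or.inr (Or.inl h)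
      · exact Or.inr (Or.inr h)
  have hxF : x ∈ F8 := (m8 x).mpr hx
  have hxP : π x ∈ F8.image π := Finset.mem_image_of_mem π hxF
  have hmain : (F8.filter (fun a => π a = π x)).card = 48 := by
    by_contra hne48
    have hlt : (F8.filter (fun a => π a = π x)).card < 48 :=
      lt_of_le_of_ne (fib48 _ hxP) hne48
    have hsum : ∑ c ∈ F8.image π, (F8.filter (fun a => π a = c)).card <
        ∑ _c ∈ F8.image π, 48 :=
      Finset.sum_lt_sum fib48 ⟨π x, hxP, hlt⟩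
    rw [← Finset.card_eq_sum_card_image π F8, c8, Finset.sum_const, smul_eq_mul] at hsum
    omega
  have hset : {y : Fin 24 → ℤ | y ⬝ᵥ (B *ᵥ y) = 8 ∧ ∀ i, (2 : ℤ) ∣ (x - y) i} =
      ((F8.filter (fun a => π a = π x) : Finset (Fin 24 → ℤ)) : Set (Fin 24 → ℤ)) := by
    ext y
    rw [Finset.coe_filter]
    show (y ⬝ᵥ (B *ᵥ y) = 8 ∧ ∀ i, (2 : ℤ) ∣ (x - y) i) ↔ (y ∈ F8 ∧ π y = π x)
    rw [m8, hπ x y]
  rw [hset, Set.ncard_coe_finset, hmain]

end Cfsg.Agent.S1588
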