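import Cfsg.Statements.S1590
import Cfsg.Agent.Lib.Helper37.Ternary

set_option autoImplicit false
open Cfsg

namespace Cfsg.Agent.S1590

open Cfsg.Agent.Lib.Helper37

theorem weights : ∀ a b c d e f : ZMod 3,
    (a = 0 ∧ b = 0 ∧ c = 0 ∧ d = 0 ∧ e = 0 ∧ f = 0) ∨
    (ternarySupport (tword a b c d e f)).card = 6 ∨
    (ternarySupport (tword a b c d e f)).card = 9 ∨
    (ternarySupport (tword a b c d e f)).card = 12 := by
  decide +kernel

theorem count6 : (Finset.univ.filter (fun t : T6 => (ternarySupport (tw t)).card = 6)).card = 264 := by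
  decide +kernel

theorem count9 : (Finset.univ.filter (fun t : T6 => (ternarySupport (tw t)).card = 9)).card = 440 := by
  decide +kernel

theorem count12 : (Finset.univ.filter (fun t : T6 => (ternarySupport (tw t)).card = 12)).card = 24 := by
  decide +kernel

/-- The length-12 ternary code has 729 words with weight distribution 0^1 6^264 9^440 12^24. -/
theorem result : Nat.card ↥Cfsg.ternaryGolayCode = 729 ∧ (∀ x ∈ Cfsg.ternaryGolayCode, x ≠ 0 → (Cfsg.ternarySupport x).card = 6 ∨ (Cfsg.ternarySupport x).card = 9 ∨ (Cfsg.ternarySupport x).card = 12) ∧ {x : Cfsg.ArrayPt → ZMod 3 | x ∈ Cfsg.ternaryGolayCode ∧ (Cfsg.ternarySupport x).card = 6}.ncard = 264 ∧ {x : Cfsg.ArrayPt → ZMod 3 | x ∈ Cfsg.ternaryGolayCode ∧ (Cfsg.ternarySupport x).card = 9}.ncard = 440 ∧ {x : Cfsg.ArrayPt → ZMod 3 | x ∈ Cfsg.ternaryGolayCode ∧ (Cfsg.ternarySupport x).card = 12}.ncard = 24 := by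
  refine ⟨ternary_card, ?_, ?_, ?_, ?_⟩
  · intro x hx hx0
    obtain ⟨a, b, c, d, e, f, rfl⟩ := (mem_ternary_iff x).mp hx
    rcases weights a b c d e f with ⟨rfl, rfl, rfl, rfl, rfl, rfl⟩ | h
    · exfalso
      apply hx0
      funext p
      simp [tword]
    · exact h
  · rw [ncard_code_filter]; exact count6
  · rw [ncard_code_filter]; exact count9
  · rw [ncard_code_filter]; exact count12

end Cfsg.Agent.S1590
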