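import Cfsg.Statements.S1591
import Cfsg.Agent.Lib.Helper37.Ternary

set_option autoImplicit false
open Cfsg

namespace Cfsg.Agent.S1591

open Cfsg.Agent.Lib.Helper37

theorem dot_gens : ∀ a b c d e f : ZMod 3,
    (∑ p, tword a b c d e f p * tg0 p = 0) ∧ (∑ p, tword a b c d e f p * tg1 p = 0) ∧
    (∑ p, tword a b c d e f p * tg2 p = 0) ∧ (∑ p, tword a b c d e f p * tg3 p = 0) ∧
    (∑ p, tword a b c d e f p * tg4 p = 0) ∧ (∑ p, tword a b c d e f p * tg5 p = 0) := by
  decide +kernel

/-- Any two words of the length-12 ternary code have dot product zero. -/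
theorem result (x y : Cfsg.ArrayPt → ZMod 3) (hx : x ∈ Cfsg.ternaryGolayCode) (hy : y ∈ Cfsg.ternaryGolayCode) : ∑ p, x p * y p = 0 := by
  obtain ⟨a, b, c, d, e, f, rfl⟩ := (mem_ternary_iff x).mp hx
  obtain ⟨a', b', c', d', e', f', rfl⟩ := (mem_ternary_iff y).mp hy
  obtain ⟨h0, h1, h2, h3, h4, h5⟩ := dot_gens a b c d e f
  have key : ∀ p, tword a b c d e f p * tword a' b' c' d' e' f' p =
      a' * (tword a b c d e f p * tg0 p) + b' * (tword a b c d e f p * tg1 p) +
      c' * (tword a b c d e f p * tg2 p) + d' * (tword a b c d e f p * tg3 p) +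
      e' * (tword a b c d e f p * tg4 p) + f' * (tword a b c d e f p * tg5 p) := by
    intro p
    simp only [tword]
    ring
  simp only [key, Finset.sum_add_distrib, ← Finset.mul_sum, h0, h1, h2, h3, h4, h5, mul_zero,
    add_zero]

end Cfsg.Agent.S1591
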