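import Cfsg.Statements.S1593
import Cfsg.Agent.Lib.Helper37.Ternary

set_option autoImplicit false
open Cfsg

namespace Cfsg.Agent.S1593

open Cfsg.Agent.Lib.Helper37

theorem eq_comb {y : ArrayPt → ZMod 3} (hy : y ∈ ternaryGolayCode) :
    y = y (0, 0) • tg0 + y (0, 1) • tg1 + y (0, 2) • tg2 + y (1, 0) • tg3 + y (1, 1) • tg4 +
      y (2, 0) • tg5 := by
  have e := eq_tword_of_mem hy
  rw [tword_eq] at e
  exact e

theorem supp_tg0 {y : ArrayPt → ZMod 3} (hy : y ∈ ternaryGolayCode)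
    (hs : ∀ p, tg0 p = 0 → y p = 0) : y = y (0, 0) • tg0 := by
  have e := eq_comb hy
  have h1 : y (0, 1) = 0 := hs _ (by decide)
  have h2 : y (0, 2) = 0 := hs _ (by decide)
  have h3 : y (1, 0) = 0 := hs _ (by decide)
  have h4 : y (1, 1) = 0 := hs _ (by decide)
  have h5 : y (2, 0) = 0 := hs _ (by decide)
  rw [h1, h2, h3, h4, h5] at e
  simpa using e

theorem supp_tg1 {y : ArrayPt → ZMod 3} (hy : y ∈ ternaryGolayCode)
    (hs : ∀ p, tg1 p = 0 → y p = 0) : y = y (0, 1) • tg1 := by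
  have e := eq_comb hy
  have h0 : y (0, 0) = 0 := hs _ (by decide)
  have h2 : y (0, 2) = 0 := hs _ (by decide)
  have h3 : y (1, 0) = 0 := hs _ (by decide)
  have h4 : y (1, 1) = 0 := hs _ (by decide)
  have h5 : y (2, 0) = 0 := hs _ (by decide)
  rw [h0, h2, h3, h4, h5] at e
  simpa using e

theorem supp_tg2 {y : ArrayPt → ZMod 3} (hy : y ∈ ternaryGolayCode)
    (hs : ∀ p, tg2 p = 0 → y p = 0) : y = y (0, 2) • tg2 := by
  have e := eq_comb hy
  have h0 : y (0, 0) = 0 := hs _ (by decide)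
  have h1 : y (0, 1) = 0 := hs _ (by decide)
  have h3 : y (1, 0) = 0 := hs _ (by decide)
  have h4 : y (1, 1) = 0 := hs _ (by decide)
  have h5 : y (2, 0) = 0 := hs _ (by decide)
  rw [h0, h1, h3, h4, h5] at e
  simpa using e

theorem supp_tg3 {y : ArrayPt → ZMod 3} (hy : y ∈ ternaryGolayCode)
    (hs : ∀ p, tg3 p = 0 → y p = 0) : y = y (1, 0) • tg3 := by
  have e := eq_comb hy
  have h0 : y (0, 0) = 0 := hs _ (by decide)
  have h1 : y (0, 1) = 0 := hs _ (by decide)
  have h2 : y (0, 2) = 0 := hs _ (by decide)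
  have h4 : y (1, 1) = 0 := hs _ (by decide)
  have h5 : y (2, 0) = 0 := hs _ (by decide)
  rw [h0, h1, h2, h4, h5] at e
  simpa using e

theorem supp_tg4 {y : ArrayPt → ZMod 3} (hy : y ∈ ternaryGolayCode)
    (hs : ∀ p, tg4 p = 0 → y p = 0) : y = y (1, 1) • tg4 := by
  have e := eq_comb hy
  have h0 : y (0, 0) = 0 := hs _ (by decide)
  have h1 : y (0, 1) = 0 := hs _ (by decide)
  have h2 : y (0, 2) = 0 := hs _ (by decide)
  have h3 : y (1, 0) = 0 := hs _ (by decide)
  have h5 : y (2, 0) = 0 := hs _ (by decide)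
  rw [h0, h1, h2, h3, h5] at e
  simpa using e

theorem supp_tg5 {y : ArrayPt → ZMod 3} (hy : y ∈ ternaryGolayCode)
    (hs : ∀ p, tg5 p = 0 → y p = 0) : y = y (2, 0) • tg5 := by
  have e := eq_comb hy
  have h0 : y (0, 0) = 0 := hs _ (by decide)
  have h1 : y (0, 1) = 0 := hs _ (by decide)
  have h2 : y (0, 2) = 0 := hs _ (by decide)
  have h3 : y (1, 0) = 0 := hs _ (by decide)
  have h4 : y (1, 1) = 0 := hs _ (by decide)
  rw [h0, h1, h2, h3, h4] at e
  simpa using e

theorem diag_aux (g : ArrayPt → ZMod 3) (q : ArrayPt) (hg : g ∈ ternaryGolayCode) (hq : g q = 1)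
    (hsupp : ∀ y ∈ ternaryGolayCode, (∀ p, g p = 0 → y p = 0) → y = y q • g)
    (c : ArrayPt → (ZMod 3)ˣ)
    (h : ∀ x ∈ ternaryGolayCode, monomialMap 1 c x ∈ ternaryGolayCode) :
    ∀ p, g p ≠ 0 → c p = c q := by
  intro p hp
  have hy := h g hg
  have hval : ∀ i, monomialMap 1 c g i = (c i : ZMod 3) * g i := by
    intro i
    rfl
  have e := hsupp _ hy (fun i hi => by rw [hval, hi, mul_zero])
  have ep := congrFun e p
  rw [Pi.smul_apply, hval, hval, hq, mul_one, smul_eq_mul] at ep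
  exact Units.ext (mul_right_cancel₀ hp ep)

theorem units_zmod3 : ∀ u : (ZMod 3)ˣ, u = 1 ∨ u = -1 := by decide

/-- The only sign changes preserving the length-12 ternary code are the identity and negation of all coordinates. -/
theorem result (c : Cfsg.ArrayPt → (ZMod 3)ˣ) (h : (∀ x ∈ Cfsg.ternaryGolayCode, Cfsg.monomialMap 1 c x ∈ Cfsg.ternaryGolayCode)) : (∀ p, c p = 1) ∨ (∀ p, c p = -1) := by
  have h0 := diag_aux tg0 (0, 0) tg0_mem (by decide) (fun y hy hs => supp_tg0 hy hs) c h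
  have h1 := diag_aux tg1 (0, 1) tg1_mem (by decide) (fun y hy hs => supp_tg1 hy hs) c h
  have h2 := diag_aux tg2 (0, 2) tg2_mem (by decide) (fun y hy hs => supp_tg2 hy hs) c h
  have h3 := diag_aux tg3 (1, 0) tg3_mem (by decide) (fun y hy hs => supp_tg3 hy hs) c h
  have h4 := diag_aux tg4 (1, 1) tg4_mem (by decide) (fun y hy hs => supp_tg4 hy hs) c h
  have h5 := diag_aux tg5 (2, 0) tg5_mem (by decide) (fun y hy hs => supp_tg5 hy hs) c h
  have e00 : c (0, 0) = c (3, 0) := (h0 (3, 0) (by decide)).symm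
  have e01 : c (0, 1) = c (3, 0) := (h1 (3, 0) (by decide)).symm
  have e02 : c (0, 2) = c (3, 0) := (h2 (3, 0) (by decide)).symm
  have e10 : c (1, 0) = c (3, 0) := (h3 (3, 0) (by decide)).symm
  have e20 : c (2, 0) = c (3, 0) := (h5 (3, 0) (by decide)).symm
  have e12 : c (1, 2) = c (3, 0) := (h0 (1, 2) (by decide)).trans e00
  have e22 : c (2, 2) = c (3, 0) := (h0 (2, 2) (by decide)).trans e00
  have e31 : c (3, 1) = c (3, 0) := (h0 (3, 1) (by decide)).trans e00
  have e32 : c (3, 2) = c (3, 0) := (h0 (3, 2) (by decide)).trans e00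
  have e21 : c (2, 1) = c (3, 0) := (h1 (2, 1) (by decide)).trans e01
  have e11 : c (1, 1) = c (3, 0) := (h4 (1, 2) (by decide)).symm.trans e12
  have hall : ∀ p, c p = c (3, 0) := by
    intro p
    rcases arrayPt_cases p with h | h | h | h | h | h | h | h | h | h | h | h <;> subst h
    · exact e00
    · exact e01
    · exact e02
    · exact e10
    · exact e11
    · exact e12
    · exact e20
    · exact e21
    · exact e22
    · rfl
    · exact e31
    · exact e32
  rcases units_zmod3 (c (3, 0)) with hu | hu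
  · left; intro p; rw [hall p, hu]
  · right; intro p; rw [hall p, hu]

end Cfsg.Agent.S1593
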