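import Cfsg.Statements.S1594
import Cfsg.Agent.S1593
import Cfsg.Agent.Lib.Helper37.TernaryHex

set_option autoImplicit false
open Cfsg
open scoped Pointwise

namespace Cfsg.Agent.S1594

open Cfsg.Agent.Lib.Helper37

/-- the twelve points listed by index -/
def ptL : List ArrayPt :=
  [(0, 0), (0, 1), (0, 2), (1, 0), (1, 1), (1, 2), (2, 0), (2, 1), (2, 2), (3, 0), (3, 1), (3, 2)]

/-- the point of an index -/
def pt (n : ℕ) : ArrayPt := ptL.getD n (0, 0)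

/-- the six basis words -/
def tgk (k : Fin 6) : ArrayPt → ZMod 3 :=
  match k with
  | 0 => tg0
  | 1 => tg1
  | 2 => tg2
  | 3 => tg3
  | 4 => tg4
  | 5 => tg5

/-- permutation table of a certificate -/
def cf (e : List ℕ × List ℕ × List ℕ) (p : ArrayPt) : ArrayPt := pt (e.1.getD (aidx p) 0)

/-- inverse table of a certificate -/
def cg (e : List ℕ × List ℕ × List ℕ) (p : ArrayPt) : ArrayPt := pt (e.2.1.getD (aidx p) 0)

/-- sign of a certificate, as a residue -/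
def csv (e : List ℕ × List ℕ × List ℕ) (p : ArrayPt) : ZMod 3 :=
  if e.2.2.getD (aidx p) 0 = 1 then 1 else 2

/-- sign of a certificate, as a unit -/
def cs (e : List ℕ × List ℕ × List ℕ) (p : ArrayPt) : (ZMod 3)ˣ :=
  if e.2.2.getD (aidx p) 0 = 1 then 1 else -1

/-- image of a basis word under the signed permutation of a certificate -/
def mw (e : List ℕ × List ℕ × List ℕ) (k : Fin 6) (p : ArrayPt) : ZMod 3 :=
  csv e p * tgk k (cg e p)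

/-- coded membership in the code -/
def isCW (x : ArrayPt → ZMod 3) : Prop :=
  ∀ p, x p = tword (x (0, 0)) (x (0, 1)) (x (0, 2)) (x (1, 0)) (x (1, 1)) (x (2, 0)) p

instance instDecIsCW (x : ArrayPt → ZMod 3) : Decidable (isCW x) :=
  inferInstanceAs (Decidable (∀ p, x p =
    tword (x (0, 0)) (x (0, 1)) (x (0, 2)) (x (1, 0)) (x (1, 1)) (x (2, 0)) p))

/-- validity of a certificate -/
def cvalid (e : List ℕ × List ℕ × List ℕ) : Prop :=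
  (∀ p, cg e (cf e p) = p) ∧ (∀ p, cf e (cg e p) = p) ∧ ∀ k : Fin 6, isCW (mw e k)

instance instDecCvalid (e : List ℕ × List ℕ × List ℕ) : Decidable (cvalid e) :=
  inferInstanceAs (Decidable ((∀ p, cg e (cf e p) = p) ∧ (∀ p, cf e (cg e p) = p) ∧
    ∀ k : Fin 6, isCW (mw e k)))

/-- the five base points -/
def base (i : Fin 5) : ArrayPt :=
  match i with
  | 0 => (0, 0)
  | 1 => (0, 1)
  | 2 => (0, 2)
  | 3 => (1, 0)
  | 4 => (1, 1)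

/-- transversal certificates: permutation table, inverse table, signs -/
def certs : List (List ℕ × List ℕ × List ℕ) := [
  ([0, 1, 2, 3, 4, 5, 6, 7, 8, 9, 10, 11], [0, 1, 2, 3, 4, 5, 6, 7, 8, 9, 10, 11], [1, 1, 1, 1, 1, 1, 1, 1, 1, 1, 1, 1]),
  ([1, 0, 2, 3, 4, 5, 11, 9, 10, 7, 8, 6], [1, 0, 2, 3, 4, 5, 11, 9, 10, 7, 8, 6], [1, 1, 1, 1, 1, 1, 1, 1, 1, 1, 1, 1]),
  ([2, 0, 1, 3, 4, 5, 8, 6, 7, 10, 11, 9], [1, 2, 0, 3, 4, 5, 7, 8, 6, 11, 9, 10], [1, 1, 1, 1, 1, 1, 1, 1, 1, 1, 1, 1]),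
  ([3, 0, 1, 2, 4, 5, 10, 7, 6, 8, 9, 11], [1, 2, 3, 0, 4, 5, 8, 7, 9, 10, 6, 11], [1, 1, 2, 2, 1, 1, 2, 2, 1, 2, 1, 2]),
  ([4, 0, 1, 2, 3, 5, 6, 9, 10, 11, 7, 8], [1, 2, 3, 4, 0, 5, 6, 10, 11, 7, 8, 9], [1, 1, 2, 1, 2, 1, 1, 2, 2, 2, 2, 1]),
  ([5, 0, 1, 2, 3, 4, 9, 6, 8, 7, 11, 10], [1, 2, 3, 4, 5, 0, 7, 9, 8, 6, 11, 10], [1, 1, 2, 1, 1, 2, 2, 1, 2, 1, 2, 2]),
  ([6, 0, 1, 2, 3, 9, 5, 4, 7, 10, 8, 11], [1, 2, 3, 4, 7, 6, 0, 8, 10, 5, 9, 11], [1, 2, 1, 1, 2, 1, 2, 2, 2, 1, 1, 2]),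
  ([7, 0, 1, 2, 3, 11, 10, 8, 9, 4, 5, 6], [1, 2, 3, 4, 9, 10, 11, 0, 7, 8, 6, 5], [1, 2, 2, 2, 2, 1, 1, 1, 1, 1, 2, 2]),
  ([8, 0, 1, 2, 3, 10, 7, 11, 4, 6, 9, 5], [1, 2, 3, 4, 8, 11, 9, 6, 0, 10, 5, 7], [1, 1, 1, 2, 1, 1, 2, 2, 1, 1, 2, 1]),
  ([9, 0, 1, 2, 3, 6, 4, 5, 11, 8, 10, 7], [1, 2, 3, 4, 6, 7, 5, 11, 9, 0, 10, 8], [1, 2, 1, 1, 1, 2, 1, 2, 1, 2, 2, 2]),
  ([10, 0, 1, 2, 3, 8, 11, 7, 5, 9, 6, 4], [1, 2, 3, 4, 11, 8, 10, 7, 5, 9, 0, 6], [1, 1, 1, 2, 1, 1, 1, 1, 2, 2, 1, 2]),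
  ([11, 0, 1, 2, 3, 7, 8, 10, 6, 5, 4, 9], [1, 2, 3, 4, 10, 9, 8, 5, 6, 11, 7, 0], [1, 2, 2, 2, 1, 2, 1, 2, 2, 1, 1, 1]),
  ([0, 1, 2, 3, 4, 5, 6, 7, 8, 9, 10, 11], [0, 1, 2, 3, 4, 5, 6, 7, 8, 9, 10, 11], [1, 1, 1, 1, 1, 1, 1, 1, 1, 1, 1, 1]),
  ([0, 2, 1, 3, 4, 5, 9, 10, 11, 6, 7, 8], [0, 2, 1, 3, 4, 5, 9, 10, 11, 6, 7, 8], [1, 1, 1, 1, 1, 1, 1, 1, 1, 1, 1, 1]),
  ([0, 3, 1, 2, 4, 5, 11, 8, 9, 7, 6, 10], [0, 2, 3, 1, 4, 5, 10, 9, 7, 8, 11, 6], [1, 1, 2, 2, 1, 1, 2, 2, 1, 2, 1, 2]),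
  ([0, 4, 1, 2, 3, 5, 8, 11, 7, 9, 10, 6], [0, 2, 3, 4, 1, 5, 11, 8, 6, 9, 10, 7], [1, 1, 2, 1, 2, 1, 1, 2, 2, 2, 2, 1]),
  ([0, 5, 1, 2, 3, 4, 10, 7, 11, 6, 8, 9], [0, 2, 3, 4, 5, 1, 9, 7, 10, 11, 6, 8], [1, 1, 2, 1, 1, 2, 2, 1, 2, 1, 2, 2]),
  ([0, 6, 1, 2, 3, 9, 11, 10, 8, 4, 7, 5], [0, 2, 3, 4, 9, 11, 1, 10, 8, 5, 7, 6], [1, 2, 1, 1, 2, 1, 2, 2, 2, 1, 1, 2]),
  ([0, 7, 1, 2, 3, 11, 6, 4, 5, 8, 9, 10], [0, 2, 3, 4, 7, 8, 6, 1, 9, 10, 11, 5], [1, 2, 2, 2, 2, 1, 1, 1, 1, 1, 2, 2]),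
  ([0, 8, 1, 2, 3, 10, 5, 6, 9, 11, 4, 7], [0, 2, 3, 4, 10, 6, 7, 11, 1, 8, 5, 9], [1, 1, 1, 2, 1, 1, 2, 2, 1, 1, 2, 1]),
  ([0, 9, 1, 2, 3, 6, 7, 8, 10, 5, 11, 4], [0, 2, 3, 4, 11, 9, 5, 6, 7, 1, 8, 10], [1, 2, 1, 1, 1, 2, 1, 2, 1, 2, 2, 2]),
  ([0, 10, 1, 2, 3, 8, 4, 9, 6, 7, 5, 11], [0, 2, 3, 4, 6, 10, 8, 9, 5, 7, 1, 11], [1, 1, 1, 2, 1, 1, 1, 1, 2, 2, 1, 2]),
  ([0, 11, 1, 2, 3, 7, 9, 5, 4, 10, 6, 8], [0, 2, 3, 4, 8, 7, 10, 5, 11, 6, 9, 1], [1, 2, 2, 2, 1, 2, 1, 2, 2, 1, 1, 1]),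
  ([0, 1, 2, 3, 4, 5, 6, 7, 8, 9, 10, 11], [0, 1, 2, 3, 4, 5, 6, 7, 8, 9, 10, 11], [1, 1, 1, 1, 1, 1, 1, 1, 1, 1, 1, 1]),
  ([0, 1, 3, 2, 4, 5, 7, 6, 10, 11, 8, 9], [0, 1, 3, 2, 4, 5, 7, 6, 10, 11, 8, 9], [1, 1, 2, 2, 1, 1, 2, 2, 1, 2, 1, 2]),
  ([0, 1, 4, 2, 3, 5, 9, 10, 6, 8, 11, 7], [0, 1, 3, 4, 2, 5, 8, 11, 9, 6, 7, 10], [1, 1, 2, 1, 2, 1, 1, 2, 2, 2, 2, 1]),
  ([0, 1, 5, 2, 3, 4, 6, 8, 9, 10, 7, 11], [0, 1, 3, 4, 5, 2, 6, 10, 7, 8, 9, 11], [1, 1, 2, 1, 1, 2, 2, 1, 2, 1, 2, 2]),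
  ([0, 1, 6, 2, 3, 9, 4, 7, 5, 11, 10, 8], [0, 1, 3, 4, 6, 8, 2, 7, 11, 5, 10, 9], [1, 2, 1, 1, 2, 1, 2, 2, 2, 1, 1, 2]),
  ([0, 1, 7, 2, 3, 11, 8, 9, 10, 6, 4, 5], [0, 1, 3, 4, 10, 11, 9, 2, 6, 7, 8, 5], [1, 2, 2, 2, 2, 1, 1, 1, 1, 1, 2, 2]),
  ([0, 1, 8, 2, 3, 10, 11, 4, 7, 5, 6, 9], [0, 1, 3, 4, 7, 9, 10, 8, 2, 11, 5, 6], [1, 1, 1, 2, 1, 1, 2, 2, 1, 1, 2, 1]),
  ([0, 1, 9, 2, 3, 6, 5, 11, 4, 7, 8, 10], [0, 1, 3, 4, 8, 6, 5, 9, 10, 2, 11, 7], [1, 2, 1, 1, 1, 2, 1, 2, 1, 2, 2, 2]),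
  ([0, 1, 10, 2, 3, 8, 7, 5, 11, 4, 9, 6], [0, 1, 3, 4, 9, 7, 11, 6, 5, 10, 2, 8], [1, 1, 1, 2, 1, 1, 1, 1, 2, 2, 1, 2]),
  ([0, 1, 11, 2, 3, 7, 10, 6, 8, 9, 5, 4], [0, 1, 3, 4, 11, 10, 7, 5, 8, 9, 6, 2], [1, 2, 2, 2, 1, 2, 1, 2, 2, 1, 1, 1]),
  ([0, 1, 2, 3, 4, 5, 6, 7, 8, 9, 10, 11], [0, 1, 2, 3, 4, 5, 6, 7, 8, 9, 10, 11], [1, 1, 1, 1, 1, 1, 1, 1, 1, 1, 1, 1]),
  ([0, 1, 2, 4, 3, 5, 10, 9, 11, 7, 6, 8], [0, 1, 2, 4, 3, 5, 10, 9, 11, 7, 6, 8], [1, 1, 1, 1, 1, 1, 1, 1, 1, 1, 1, 1]),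
  ([0, 1, 2, 5, 3, 4, 8, 6, 7, 11, 9, 10], [0, 1, 2, 4, 5, 3, 7, 8, 6, 10, 11, 9], [1, 1, 1, 1, 1, 1, 1, 1, 1, 1, 1, 1]),
  ([0, 1, 2, 6, 3, 9, 7, 4, 10, 8, 5, 11], [0, 1, 2, 4, 7, 10, 3, 6, 9, 5, 8, 11], [1, 2, 2, 1, 1, 1, 1, 1, 1, 1, 1, 1]),
  ([0, 1, 2, 7, 3, 11, 9, 8, 4, 5, 10, 6], [0, 1, 2, 4, 8, 9, 11, 3, 7, 6, 10, 5], [1, 2, 1, 2, 2, 2, 2, 2, 2, 2, 2, 2]),
  ([0, 1, 2, 8, 3, 10, 4, 11, 6, 9, 7, 5], [0, 1, 2, 4, 6, 11, 8, 10, 3, 9, 5, 7], [1, 1, 2, 2, 2, 2, 2, 2, 2, 2, 2, 2]),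
  ([0, 1, 2, 9, 3, 6, 11, 5, 8, 10, 4, 7], [0, 1, 2, 4, 10, 7, 5, 11, 8, 3, 9, 6], [1, 2, 2, 1, 1, 1, 1, 1, 1, 1, 1, 1]),
  ([0, 1, 2, 10, 3, 8, 5, 7, 9, 6, 11, 4], [0, 1, 2, 4, 11, 6, 9, 7, 5, 8, 3, 10], [1, 1, 2, 2, 2, 2, 2, 2, 2, 2, 2, 2]),
  ([0, 1, 2, 11, 3, 7, 6, 10, 5, 4, 8, 9], [0, 1, 2, 4, 9, 8, 6, 5, 10, 11, 7, 3], [1, 2, 1, 2, 2, 2, 2, 2, 2, 2, 2, 2]),
  ([0, 1, 2, 3, 4, 5, 6, 7, 8, 9, 10, 11], [0, 1, 2, 3, 4, 5, 6, 7, 8, 9, 10, 11], [1, 1, 1, 1, 1, 1, 1, 1, 1, 1, 1, 1]),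
  ([0, 1, 2, 3, 5, 4, 9, 11, 10, 6, 8, 7], [0, 1, 2, 3, 5, 4, 9, 11, 10, 6, 8, 7], [1, 1, 1, 1, 1, 1, 1, 1, 1, 1, 1, 1]),
  ([0, 1, 2, 3, 6, 9, 5, 8, 11, 4, 7, 10], [0, 1, 2, 3, 9, 6, 4, 10, 7, 5, 11, 8], [1, 2, 2, 1, 1, 1, 1, 1, 1, 1, 1, 1]),
  ([0, 1, 2, 3, 7, 11, 10, 5, 6, 8, 9, 4], [0, 1, 2, 3, 11, 7, 8, 4, 9, 10, 6, 5], [1, 2, 1, 2, 2, 2, 2, 2, 2, 2, 2, 2]),
  ([0, 1, 2, 3, 8, 10, 7, 9, 5, 11, 4, 6], [0, 1, 2, 3, 10, 8, 11, 6, 4, 7, 5, 9], [1, 1, 2, 2, 2, 2, 2, 2, 2, 2, 2, 2]),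
  ([0, 1, 2, 3, 9, 6, 4, 10, 7, 5, 11, 8], [0, 1, 2, 3, 6, 9, 5, 8, 11, 4, 7, 10], [1, 2, 2, 1, 1, 1, 1, 1, 1, 1, 1, 1]),
  ([0, 1, 2, 3, 10, 8, 11, 6, 4, 7, 5, 9], [0, 1, 2, 3, 8, 10, 7, 9, 5, 11, 4, 6], [1, 1, 2, 2, 2, 2, 2, 2, 2, 2, 2, 2]),
  ([0, 1, 2, 3, 11, 7, 8, 4, 9, 10, 6, 5], [0, 1, 2, 3, 7, 11, 10, 5, 6, 8, 9, 4], [1, 2, 1, 2, 2, 2, 2, 2, 2, 2, 2, 2])]

/-- for each pair of points off the base hexad, two four-subsets of the base hexad -/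
def rigT : List (ℕ × ℕ) := [(30,45), (27,46), (15,54), (29,39), (23,43), (29,43), (27,39), (23,46), (15,53), (23,45), (15,51), (30,39), (30,43), (29,46), (27,45)]

set_option maxRecDepth 100000 in
theorem certs_ok : ∀ k : Fin 5, ∀ t : ArrayPt, (∀ i : Fin 5, i < k → t ≠ base i) →
    ∃ e ∈ certs, (∀ i : Fin 5, i < k → cf e (base i) = base i) ∧ cf e (base k) = t ∧ cvalid e := by
  decide +kernel

/-- the base hexad -/
def h0m : ℕ := 63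

set_option maxRecDepth 100000 in
set_option synthInstance.maxSize 4096 in
theorem rig_check : ∀ p q : ArrayPt, h0m.testBit (aidx p) = false → h0m.testBit (aidx q) = false →
    p ≠ q → ∃ e ∈ rigT, e.1 < 2 ^ 12 ∧ e.2 < 2 ^ 12 ∧ e.1 &&& h0m = e.1 ∧ e.2 &&& h0m = e.2 ∧
      (e.1 ||| 2 ^ aidx p ||| 2 ^ aidx q) ∈ hexL ∧ (e.2 ||| 2 ^ aidx p ||| 2 ^ aidx q) ∈ hexL ∧
      ∀ w z : ArrayPt, (e.1 ||| 2 ^ aidx w ||| 2 ^ aidx z) ∈ hexL →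
        (e.2 ||| 2 ^ aidx w ||| 2 ^ aidx z) ∈ hexL → (w = p ∧ z = q) ∨ (w = q ∧ z = p) := by
  decide +kernel

/-! ### The group of permutation parts -/

theorem monomial_comb6 (σ : Equiv.Perm ArrayPt) (c : ArrayPt → (ZMod 3)ˣ)
    (a0 a1 a2 a3 a4 a5 : ZMod 3) (u0 u1 u2 u3 u4 u5 : ArrayPt → ZMod 3) :
    monomialMap σ c (a0 • u0 + a1 • u1 + a2 • u2 + a3 • u3 + a4 • u4 + a5 • u5) =
      a0 • monomialMap σ c u0 + a1 • monomialMap σ c u1 + a2 • monomialMap σ c u2 +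
        a3 • monomialMap σ c u3 + a4 • monomialMap σ c u4 + a5 • monomialMap σ c u5 := by
  funext i
  simp only [monomialMap, Pi.add_apply, Pi.smul_apply, smul_eq_mul]
  ring

theorem valid_of_gens (σ : Equiv.Perm ArrayPt) (c : ArrayPt → (ZMod 3)ˣ)
    (h : ∀ k : Fin 6, monomialMap σ c (tgk k) ∈ ternaryGolayCode) :
    ∀ x ∈ ternaryGolayCode, monomialMap σ c x ∈ ternaryGolayCode := by
  intro x hx
  rw [S1593.eq_comb hx, monomial_comb6]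
  exact Submodule.add_mem _ (Submodule.add_mem _ (Submodule.add_mem _ (Submodule.add_mem _
    (Submodule.add_mem _ (Submodule.smul_mem _ _ (h 0)) (Submodule.smul_mem _ _ (h 1)))
    (Submodule.smul_mem _ _ (h 2))) (Submodule.smul_mem _ _ (h 3)))
    (Submodule.smul_mem _ _ (h 4))) (Submodule.smul_mem _ _ (h 5))

theorem monomial_injective (σ : Equiv.Perm ArrayPt) (c : ArrayPt → (ZMod 3)ˣ) :
    Function.Injective (monomialMap (F := ZMod 3) σ c) := by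
  intro y y' h
  funext i
  have := congrFun h (σ i)
  simp only [monomialMap, Equiv.symm_apply_apply] at this
  exact mul_left_cancel₀ (c (σ i)).ne_zero this

theorem monomial_surj (σ : Equiv.Perm ArrayPt) (c : ArrayPt → (ZMod 3)ˣ)
    (h : ∀ x ∈ ternaryGolayCode, monomialMap σ c x ∈ ternaryGolayCode) :
    ∀ x ∈ ternaryGolayCode, ∃ y ∈ ternaryGolayCode, monomialMap σ c y = x := by
  classical
  let f : ternaryGolayCode → ternaryGolayCode := fun y => ⟨monomialMap σ c y.1, h y.1 y.2⟩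
  have hf : Function.Injective f := fun y y' hyy =>
    Subtype.ext (monomial_injective σ c (congrArg Subtype.val hyy))
  have hs := Finite.surjective_of_injective hf
  intro x hx
  obtain ⟨y, hy⟩ := hs ⟨x, hx⟩
  exact ⟨y.1, y.2, congrArg Subtype.val hy⟩

theorem monomial_mul (σ τ : Equiv.Perm ArrayPt) (c c' : ArrayPt → (ZMod 3)ˣ)
    (x : ArrayPt → ZMod 3) :
    monomialMap σ c (monomialMap τ c' x) =
      monomialMap (σ * τ) (fun i => c i * c' (σ.symm i)) x := by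
  funext i
  show (c i : ZMod 3) * ((c' (σ.symm i) : ZMod 3) * x (τ.symm (σ.symm i))) =
    ((c i * c' (σ.symm i) : (ZMod 3)ˣ) : ZMod 3) * x (τ.symm (σ.symm i))
  rw [Units.val_mul, mul_assoc]

/-- the permutation parts of the monomial automorphisms -/
def autPerms : Subgroup (Equiv.Perm ArrayPt) where
  carrier := {σ | ∃ c : ArrayPt → (ZMod 3)ˣ,
    ∀ x ∈ ternaryGolayCode, monomialMap σ c x ∈ ternaryGolayCode}
  one_mem' := ⟨fun _ => 1, fun x hx => by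
    have : monomialMap 1 (fun _ => (1 : (ZMod 3)ˣ)) x = x := by
      funext i
      show ((1 : (ZMod 3)ˣ) : ZMod 3) * x i = x i
      rw [Units.val_one, one_mul]
    rw [this]; exact hx⟩
  mul_mem' := by
    rintro σ τ ⟨c, hc⟩ ⟨c', hc'⟩
    refine ⟨fun i => c i * c' (σ.symm i), fun x hx => ?_⟩
    rw [← monomial_mul]
    exact hc _ (hc' x hx)
  inv_mem' := by
    rintro σ ⟨c, hc⟩
    refine ⟨fun i => (c (σ i))⁻¹, fun x hx => ?_⟩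
    obtain ⟨y, hy, rfl⟩ := monomial_surj σ c hc x hx
    have : monomialMap σ⁻¹ (fun i => (c (σ i))⁻¹) (monomialMap σ c y) = y := by
      funext i
      show (((c (σ i))⁻¹ : (ZMod 3)ˣ) : ZMod 3) * ((c (σ i) : ZMod 3) * y (σ.symm (σ i))) = y i
      rw [← mul_assoc, ← Units.val_mul, inv_mul_cancel, Units.val_one, one_mul,
        Equiv.symm_apply_apply]
    rw [this]; exact hy

theorem mem_autPerms (σ : Equiv.Perm ArrayPt) : σ ∈ autPerms ↔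
    ∃ c : ArrayPt → (ZMod 3)ˣ, ∀ x ∈ ternaryGolayCode, monomialMap σ c x ∈ ternaryGolayCode :=
  Iff.rfl

/-! ### Certificates give elements -/

theorem isCW_mem {x : ArrayPt → ZMod 3} (h : isCW x) : x ∈ ternaryGolayCode := by
  have : x = tword (x (0, 0)) (x (0, 1)) (x (0, 2)) (x (1, 0)) (x (1, 1)) (x (2, 0)) := funext h
  rw [this]
  exact tword_mem _ _ _ _ _ _

theorem cs_val (e : List ℕ × List ℕ × List ℕ) (p : ArrayPt) : ((cs e p : (ZMod 3)ˣ) : ZMod 3) = csv e p := by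
  unfold cs csv
  split_ifs
  · rfl
  · rfl

theorem exists_of_cvalid {e : List ℕ × List ℕ × List ℕ} (h : cvalid e) :
    ∃ τ ∈ autPerms, ∀ p, τ p = cf e p := by
  obtain ⟨h1, h2, h3⟩ := h
  refine ⟨⟨cf e, cg e, h1, h2⟩, ⟨cs e, valid_of_gens _ _ fun k => ?_⟩, fun p => rfl⟩
  have : monomialMap ⟨cf e, cg e, h1, h2⟩ (cs e) (tgk k) = mw e k := by
    funext p
    show ((cs e p : (ZMod 3)ˣ) : ZMod 3) * tgk k (cg e p) = csv e p * tgk k (cg e p)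
    rw [cs_val]
  rw [this]
  exact isCW_mem (h3 k)

theorem base_inj : Function.Injective base := by decide

/-- the permutation parts are transitive on ordered five-tuples -/
theorem five_trans (p : Fin 5 → ArrayPt) (hp : Function.Injective p) :
    ∃ τ ∈ autPerms, ∀ i, τ (base i) = p i := by
  have step : ∀ k : ℕ, k ≤ 5 → ∃ τ ∈ autPerms, ∀ i : Fin 5, i.val < k → τ (base i) = p i := by
    intro k
    induction k with
    | zero => exact fun _ => ⟨1, autPerms.one_mem, fun i hi => absurd hi (Nat.not_lt_zero _)⟩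
    | succ k ih =>
      intro hk
      obtain ⟨τ, hτ, hτp⟩ := ih (Nat.le_of_succ_le hk)
      have hk5 : k < 5 := hk
      obtain ⟨e, -, he1, he2, he3⟩ := certs_ok ⟨k, hk5⟩ (τ⁻¹ (p ⟨k, hk5⟩)) (by
        intro i hi heq
        have h1 : τ (base i) = p i := hτp i hi
        rw [← heq] at h1
        have h2 : p ⟨k, hk5⟩ = p i := by simpa using h1
        have h3 := hp h2
        rw [← h3] at hi
        exact lt_irrefl _ hi)
      obtain ⟨ρ, hρ, hρf⟩ := exists_of_cvalid he3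
      refine ⟨τ * ρ, autPerms.mul_mem hτ hρ, fun i hi => ?_⟩
      rw [Equiv.Perm.mul_apply, hρf]
      rcases Nat.lt_succ_iff_lt_or_eq.mp hi with hlt | heq
      · rw [he1 i hlt]
        exact hτp i hlt
      · have hi' : i = ⟨k, hk5⟩ := Fin.ext heq
        subst hi'
        rw [he2]
        simp
  obtain ⟨τ, hτ, h⟩ := step 5 le_rfl
  exact ⟨τ, hτ, fun i => h i i.isLt⟩

/-! ### Permutation parts preserve the hexads -/

theorem support_monomial (σ : Equiv.Perm ArrayPt) (c : ArrayPt → (ZMod 3)ˣ)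
    (x : ArrayPt → ZMod 3) : ternarySupport (monomialMap σ c x) = σ • ternarySupport x := by
  ext p
  rw [← Finset.inv_smul_mem_iff]
  unfold ternarySupport
  rw [Finset.mem_filter, Finset.mem_filter]
  simp only [Finset.mem_univ, true_and, monomialMap]
  constructor
  · intro h h2
    apply h
    rw [show σ.symm p = σ⁻¹ • p from rfl, h2, mul_zero]
  · intro h h2
    exact h ((mul_eq_zero.mp h2).resolve_left (c p).ne_zero)

theorem aut_le : autPerms ≤ setSystemAut hexads12 := by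
  intro σ hσ
  have key : ∀ τ ∈ autPerms, ∀ h ∈ hexads12, τ • h ∈ hexads12 := by
    rintro τ ⟨c, hc⟩ h ⟨x, hx, rfl, hcard⟩
    refine ⟨monomialMap τ c x, hc x hx, support_monomial τ c x, ?_⟩
    rw [Finset.card_smul_finset]
    exact hcard
  rw [MulAction.mem_stabilizer_iff]
  apply Set.Subset.antisymm
  · intro b hb
    rw [Set.mem_smul_set] at hb
    obtain ⟨b0, hb0, rfl⟩ := hb
    exact key σ hσ b0 hb0
  · intro b hb
    rw [Set.mem_smul_set]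
    exact ⟨σ⁻¹ • b, key σ⁻¹ (autPerms.inv_mem hσ) b hb, smul_inv_smul σ b⟩

/-! ### Rigidity -/

theorem dec_two_pow (p : ArrayPt) : dec aidx (2 ^ aidx p) = {p} := by
  ext q
  rw [mem_dec, Nat.testBit_two_pow, Finset.mem_singleton]
  simp [aidx_inj.eq_iff, eq_comm]

theorem two_pow_lt (p : ArrayPt) : 2 ^ aidx p < 2 ^ 12 :=
  Nat.pow_lt_pow_right (by norm_num) (aidx_lt p)

theorem dec_ins (a : ℕ) (p q : ArrayPt) :
    dec aidx (a ||| 2 ^ aidx p ||| 2 ^ aidx q) = dec aidx a ∪ {p} ∪ {q} := by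
  rw [dec_or, dec_or, dec_two_pow, dec_two_pow]

theorem ins_lt {a : ℕ} (ha : a < 2 ^ 12) (p q : ArrayPt) :
    a ||| 2 ^ aidx p ||| 2 ^ aidx q < 2 ^ 12 :=
  Nat.or_lt_two_pow (Nat.or_lt_two_pow ha (two_pow_lt p)) (two_pow_lt q)

theorem mem_hexL_of_dec {a : ℕ} (ha : a < 2 ^ 12) (h : dec aidx a ∈ hexads12) : a ∈ hexL := by
  obtain ⟨b, hb, hab⟩ := (mem_hexads12_iff _).mp h
  rw [dec_inj aidx_surj ha (hexL_lt b hb) hab]
  exact hb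

theorem smul_mem_hex {σ : Equiv.Perm ArrayPt} (hσ : σ ∈ setSystemAut hexads12)
    {h : Finset ArrayPt} (hh : h ∈ hexads12) : σ • h ∈ hexads12 := by
  rw [MulAction.mem_stabilizer_iff] at hσ
  have := Set.smul_mem_smul_set (a := σ) hh
  rwa [hσ] at this

theorem smul_eq_of_fix {σ : Equiv.Perm ArrayPt} {s : Finset ArrayPt} (h : ∀ x ∈ s, σ x = x) :
    σ • s = s := by
  ext x
  rw [Finset.mem_smul_finset]
  constructor
  · rintro ⟨y, hy, rfl⟩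
    rw [Equiv.Perm.smul_def, h y hy]
    exact hy
  · intro hx
    exact ⟨x, hx, h x hx⟩

theorem base_mem : ∀ i : Fin 5, h0m.testBit (aidx (base i)) = true := by decide

theorem h0_cases : ∀ p : ArrayPt, h0m.testBit (aidx p) = true → (∃ i, p = base i) ∨ p = (1, 2) := by
  decide

theorem base_ne : ∀ i : Fin 5, base i ≠ (1, 2) := by decide

theorem two_others : ∀ p : ArrayPt, h0m.testBit (aidx p) = false →
    ∃ q1 q2 : ArrayPt, h0m.testBit (aidx q1) = false ∧ h0m.testBit (aidx q2) = false ∧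
      p ≠ q1 ∧ p ≠ q2 ∧ q1 ≠ q2 := by
  decide

theorem h0m_mem : h0m ∈ hexL := by decide

theorem rigid (σ : Equiv.Perm ArrayPt) (hσ : σ ∈ setSystemAut hexads12)
    (hfix : ∀ i : Fin 5, σ (base i) = base i) : σ = 1 := by
  have hh0 : dec aidx h0m ∈ hexads12 := (mem_hexads12_iff _).mpr ⟨h0m, h0m_mem, rfl⟩
  -- the base hexad is fixed
  have hs5 : (Finset.univ.image base).card = 5 := by
    rw [Finset.card_image_of_injective _ base_inj]; rfl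
  have hsub1 : Finset.univ.image base ⊆ dec aidx h0m := by
    intro x hx
    obtain ⟨i, -, rfl⟩ := Finset.mem_image.mp hx
    exact mem_dec.mpr (base_mem i)
  have hsub2 : Finset.univ.image base ⊆ σ • dec aidx h0m := by
    intro x hx
    obtain ⟨i, -, rfl⟩ := Finset.mem_image.mp hx
    rw [← hfix i]
    exact Finset.smul_mem_smul_finset (a := σ) (mem_dec.mpr (base_mem i))
  have hfixh : σ • dec aidx h0m = dec aidx h0m :=
    (hexads12_steiner.2 _ hs5).unique ⟨smul_mem_hex hσ hh0, hsub2⟩ ⟨hh0, hsub1⟩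
  have hmem : ∀ p, p ∈ dec aidx h0m → σ p ∈ dec aidx h0m := by
    intro p hp
    have := Finset.smul_mem_smul_finset (a := σ) hp
    rwa [hfixh] at this
  -- pointwise
  have hfix6 : σ (1, 2) = (1, 2) := by
    have h1 : σ (1, 2) ∈ dec aidx h0m := hmem _ (mem_dec.mpr (by decide))
    rcases h0_cases _ (mem_dec.mp h1) with ⟨i, hi⟩ | h
    · rw [← hfix i] at hi
      exact absurd (σ.injective hi).symm (base_ne i)
    · exact h
  have hfixin : ∀ p, p ∈ dec aidx h0m → σ p = p := by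
    intro p hp
    rcases h0_cases _ (mem_dec.mp hp) with ⟨i, rfl⟩ | rfl
    · exact hfix i
    · exact hfix6
  have hout : ∀ p, h0m.testBit (aidx p) = false → h0m.testBit (aidx (σ p)) = false := by
    intro p hp
    by_contra hc
    rw [Bool.not_eq_false] at hc
    have h1 := hfixin (σ p) (mem_dec.mpr hc)
    have h2 : σ p = p := σ.injective h1
    rw [h2, hp] at hc
    exact Bool.false_ne_true hc
  have hpair : ∀ p q, h0m.testBit (aidx p) = false → h0m.testBit (aidx q) = false → p ≠ q →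
      (σ p = p ∧ σ q = q) ∨ (σ p = q ∧ σ q = p) := by
    intro p q hp hq hpq
    obtain ⟨e, -, hl1, hl2, hs1, hs2, hm1, hm2, huniq⟩ := rig_check p q hp hq hpq
    have himg : ∀ a : ℕ, a < 2 ^ 12 → a &&& h0m = a →
        (a ||| 2 ^ aidx p ||| 2 ^ aidx q) ∈ hexL →
        (a ||| 2 ^ aidx (σ p) ||| 2 ^ aidx (σ q)) ∈ hexL := by
      intro a ha hsub hm
      apply mem_hexL_of_dec (ins_lt ha _ _)
      have h1 : dec aidx (a ||| 2 ^ aidx p ||| 2 ^ aidx q) ∈ hexads12 :=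
        (mem_hexads12_iff _).mpr ⟨_, hm, rfl⟩
      have h2 := smul_mem_hex hσ h1
      have hsubs : dec aidx a ⊆ dec aidx h0m := (dec_subset_iff aidx_surj ha).mpr hsub
      rw [dec_ins, Finset.smul_finset_union, Finset.smul_finset_union,
        Finset.smul_finset_singleton, Finset.smul_finset_singleton,
        smul_eq_of_fix (fun x hx => hfixin x (hsubs hx))] at h2
      rw [dec_ins]
      exact h2
    exact huniq (σ p) (σ q) (himg e.1 hl1 hs1 hm1) (himg e.2 hl2 hs2 hm2)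
  apply Equiv.ext
  intro p
  rw [Equiv.Perm.one_apply]
  by_cases hp : h0m.testBit (aidx p) = true
  · exact hfixin p (mem_dec.mpr hp)
  · rw [Bool.not_eq_true] at hp
    obtain ⟨q1, q2, hq1, hq2, hpq1, hpq2, hq12⟩ := two_others p hp
    rcases hpair p q1 hp hq1 hpq1 with ⟨h, -⟩ | ⟨h1, -⟩
    · exact h
    · rcases hpair p q2 hp hq2 hpq2 with ⟨h, -⟩ | ⟨h2, -⟩
      · exact h
      · exact absurd (h1.symm.trans h2) hq12

/-! ### The two inclusions and the count -/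

theorem le_aut : setSystemAut hexads12 ≤ autPerms := by
  intro σ hσ
  obtain ⟨τ, hτ, hτb⟩ := five_trans (fun i => σ (base i))
    (fun i j h => base_inj (σ.injective h))
  have h1 : τ⁻¹ * σ ∈ setSystemAut hexads12 :=
    (setSystemAut hexads12).mul_mem ((setSystemAut hexads12).inv_mem (aut_le hτ)) hσ
  have h2 : τ⁻¹ * σ = 1 := rigid _ h1 (fun i => by
    rw [Equiv.Perm.mul_apply, ← hτb i]
    simp)
  have h3 : σ = τ := by
    have := congrArg (fun g => τ * g) h2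
    simpa using this
  rw [h3]
  exact hτ

theorem eq_of_base {σ τ : Equiv.Perm ArrayPt} (hσ : σ ∈ autPerms) (hτ : τ ∈ autPerms)
    (h : ∀ i, σ (base i) = τ (base i)) : σ = τ := by
  have h1 : τ⁻¹ * σ ∈ setSystemAut hexads12 :=
    (setSystemAut hexads12).mul_mem ((setSystemAut hexads12).inv_mem (aut_le hτ)) (aut_le hσ)
  have h2 : τ⁻¹ * σ = 1 := rigid _ h1 (fun i => by
    rw [Equiv.Perm.mul_apply, h i]
    simp)
  have := congrArg (fun g => τ * g) h2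
  simpa using this

theorem card_eq : Nat.card {f : Equiv.Perm ArrayPt × (ArrayPt → (ZMod 3)ˣ) //
    (∀ x ∈ ternaryGolayCode, monomialMap f.1 f.2 x ∈ ternaryGolayCode)} = 190080 := by
  classical
  let Φ : {f : Equiv.Perm ArrayPt × (ArrayPt → (ZMod 3)ˣ) //
      (∀ x ∈ ternaryGolayCode, monomialMap f.1 f.2 x ∈ ternaryGolayCode)} →
      (Fin 5 ↪ ArrayPt) × (ZMod 3)ˣ :=
    fun f => (⟨fun i => f.1.1 (base i), fun i j h => base_inj (f.1.1.injective h)⟩, f.1.2 (0, 0))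
  have hinj : Function.Injective Φ := by
    rintro ⟨⟨σ, c⟩, h⟩ ⟨⟨σ', c'⟩, h'⟩ heq
    simp only [Φ, Prod.mk.injEq] at heq
    obtain ⟨he, h0⟩ := heq
    have hσ : σ = σ' := eq_of_base ⟨c, h⟩ ⟨c', h'⟩ (fun i => by
      have := congrArg (fun g : Fin 5 ↪ ArrayPt => g i) he
      exact this)
    subst hσ
    have hr : ∀ x ∈ ternaryGolayCode, monomialMap 1 (fun i => c' i / c i) x ∈ ternaryGolayCode := by
      intro x hx
      obtain ⟨y, hy, rfl⟩ := monomial_surj σ c h x hx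
      have : monomialMap 1 (fun i => c' i / c i) (monomialMap σ c y) = monomialMap σ c' y := by
        funext i
        show ((c' i / c i : (ZMod 3)ˣ) : ZMod 3) * ((c i : ZMod 3) * y (σ.symm i)) =
          (c' i : ZMod 3) * y (σ.symm i)
        rw [← mul_assoc, ← Units.val_mul, div_mul_cancel]
      rw [this]
      exact h' y hy
    have hcc : c = c' := by
      have h00 : c' (0, 0) / c (0, 0) = 1 := by rw [h0, div_self']
      rcases S1593.result _ hr with hall | hall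
      · funext i
        have := hall i
        rw [div_eq_one] at this
        exact this.symm
      · have := hall (0, 0)
        rw [h00] at this
        exact absurd this (by decide)
    subst hcc
    rfl
  have hsurj : Function.Surjective Φ := by
    rintro ⟨p, u⟩
    obtain ⟨σ, ⟨c, hc⟩, hσ⟩ := five_trans p p.injective
    refine ⟨⟨(σ, fun i => u / c (0, 0) * c i), fun x hx => ?_⟩, ?_⟩
    · have : monomialMap σ (fun i => u / c (0, 0) * c i) x =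
          ((u / c (0, 0) : (ZMod 3)ˣ) : ZMod 3) • monomialMap σ c x := by
        funext i
        show ((u / c (0, 0) * c i : (ZMod 3)ˣ) : ZMod 3) * x (σ.symm i) =
          ((u / c (0, 0) : (ZMod 3)ˣ) : ZMod 3) * ((c i : ZMod 3) * x (σ.symm i))
        rw [Units.val_mul, mul_assoc]
      rw [this]
      exact Submodule.smul_mem _ _ (hc x hx)
    · simp only [Φ, Prod.mk.injEq]
      refine ⟨?_, div_mul_cancel u (c (0, 0))⟩
      exact Function.Embedding.ext hσ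
  rw [Nat.card_congr (Equiv.ofBijective Φ ⟨hinj, hsurj⟩), Nat.card_prod,
    Nat.card_eq_fintype_card (α := (ZMod 3)ˣ), Nat.card_eq_fintype_card (α := Fin 5 ↪ ArrayPt),
    Fintype.card_embedding_eq, Fintype.card_units, ZMod.card, Fintype.card_fin,
    Fintype.card_prod, Fintype.card_fin, ZMod.card]
  rfl

/-- The monomial automorphism group of the length-12 ternary code has order 190080 and its permutation parts are exactly the automorphisms of its hexad system. -/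
theorem result : Nat.card {f : Equiv.Perm Cfsg.ArrayPt × (Cfsg.ArrayPt → (ZMod 3)ˣ) // (∀ x ∈ Cfsg.ternaryGolayCode, Cfsg.monomialMap f.1 f.2 x ∈ Cfsg.ternaryGolayCode)} = 190080 ∧ {σ : Equiv.Perm Cfsg.ArrayPt | ∃ c : Cfsg.ArrayPt → (ZMod 3)ˣ, (∀ x ∈ Cfsg.ternaryGolayCode, Cfsg.monomialMap σ c x ∈ Cfsg.ternaryGolayCode)} = (Cfsg.setSystemAut {h : Finset Cfsg.ArrayPt | ∃ x ∈ Cfsg.ternaryGolayCode, Cfsg.ternarySupport x = h ∧ h.card = 6} : Set (Equiv.Perm Cfsg.ArrayPt)) := by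
  refine ⟨card_eq, ?_⟩
  exact Set.Subset.antisymm (fun σ hσ => aut_le hσ) (fun σ hσ => le_aut hσ)

end Cfsg.Agent.S1594
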