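import Cfsg.Statements.S1595
import Cfsg.Agent.Lib.Helper9.Steiner5824

set_option autoImplicit false
open Cfsg

namespace Cfsg.Agent.S1595

open Finset Cfsg.Agent.Lib.Helper9

variable {α : Type*} [Fintype α] [DecidableEq α]

/-- number of blocks through `s` meeting `b \ s` in exactly `i` points -/
noncomputable def xnum (B : Set (Finset α)) (s b : Finset α) (i : ℕ) : ℕ :=
  ((blocksFin B).filter (fun c => s ⊆ c ∧ ((b \ s) ∩ c).card = i)).card

theorem xnum_top {B : Set (Finset α)} (hB : Cfsg.IsSteinerSystem 5 6 B) {b : Finset α} (hb : b ∈ B)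
    {s : Finset α} (hs : s ⊆ b) : xnum B s b (6 - s.card) = 1 := by
  classical
  have hbc : b.card = 6 := hB.1 b hb
  have hsd : (b \ s).card = 6 - s.card := by rw [card_sdiff_of_subset hs, hbc]
  rw [xnum, card_eq_one]
  refine ⟨b, ?_⟩
  ext c
  simp only [mem_filter, mem_blocksFin, mem_singleton]
  constructor
  · rintro ⟨hc, hsc, hcard⟩
    have h1 : (b \ s) ∩ c = b \ s :=
      eq_of_subset_of_card_le inter_subset_left (by rw [hcard, hsd])
    have h2 : b \ s ⊆ c := by rw [← h1]; exact inter_subset_right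
    have h3 : b ⊆ c := by
      intro x hx
      by_cases hxs : x ∈ s
      · exact hsc hxs
      · exact h2 (mem_sdiff.mpr ⟨hx, hxs⟩)
    exact (eq_of_subset_of_card_le h3 (by rw [hB.1 c hc, hbc])).symm
  · rintro rfl
    refine ⟨hb, hs, ?_⟩
    rw [inter_eq_left.mpr sdiff_subset, hsd]

theorem xnum_zero_of {B : Set (Finset α)} (hB : Cfsg.IsSteinerSystem 5 6 B) {b : Finset α} (hb : b ∈ B)
    {s : Finset α} (hs : s ⊆ b) {i : ℕ} (hi : 5 ≤ s.card + i) (hi' : s.card + i ≠ 6) :
    xnum B s b i = 0 := by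
  classical
  have hbc : b.card = 6 := hB.1 b hb
  rw [xnum, card_eq_zero, filter_eq_empty_iff]
  rintro c hc ⟨hsc, hcard⟩
  rw [mem_blocksFin] at hc
  have hsub : s ∪ ((b \ s) ∩ c) ⊆ b ∩ c := by
    intro x hx
    rcases mem_union.mp hx with h | h
    · exact mem_inter.mpr ⟨hs h, hsc h⟩
    · exact mem_inter.mpr ⟨(mem_sdiff.mp (mem_inter.mp h).1).1, (mem_inter.mp h).2⟩
  have hdisj : Disjoint s ((b \ s) ∩ c) :=
    disjoint_of_subset_right inter_subset_left disjoint_sdiff
  have hle : s.card + i ≤ (b ∩ c).card := by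
    rw [← hcard, ← card_union_of_disjoint hdisj]
    exact card_le_card hsub
  have := eq_of_le_card_inter hB hb hc (by omega)
  subst this
  have hsd : (b \ s).card = 6 - s.card := by rw [card_sdiff_of_subset hs, hbc]
  rw [inter_eq_left.mpr sdiff_subset, hsd] at hcard
  have := card_le_card hs
  omega

theorem ncard_eq_xnum {B : Set (Finset α)} {b s : Finset α} (hs : s ⊆ b) :
    {c : Finset α | c ∈ B ∧ b ∩ c = s}.ncard = xnum B s b 0 := by
  classical
  have : {c : Finset α | c ∈ B ∧ b ∩ c = s} =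
      ((blocksFin B).filter (fun c => s ⊆ c ∧ ((b \ s) ∩ c).card = 0) : Finset (Finset α)) := by
    ext c
    simp only [Set.mem_ofPred_eq, coe_filter, mem_blocksFin, card_eq_zero]
    constructor
    · rintro ⟨hc, rfl⟩
      refine ⟨hc, inter_subset_right, ?_⟩
      ext x
      simp only [mem_inter, mem_sdiff, notMem_empty, iff_false]
      tauto
    · rintro ⟨hc, hsc, hemp⟩
      refine ⟨hc, ?_⟩
      ext x
      have hx : x ∉ (b \ s) ∩ c := by rw [hemp]; exact notMem_empty x
      simp only [mem_inter, mem_sdiff] at hx ⊢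
      constructor
      · rintro ⟨h1, h2⟩
        by_contra h3
        exact hx ⟨⟨h1, h3⟩, h2⟩
      · intro h
        exact ⟨hs h, hsc h⟩
  rw [this, Set.ncard_coe_finset, xnum]

theorem xnum_eqs {B : Set (Finset α)} (hα : Fintype.card α = 12) (hB : Cfsg.IsSteinerSystem 5 6 B)
    {b : Finset α} (hb : b ∈ B) {s : Finset α} (hs : s ⊆ b) (j : ℕ) (hj : s.card + j ≤ 5) :
    (∑ i ∈ range (6 - s.card + 1), i.choose j * xnum B s b i) *
        (6 - (s.card + j)).choose (5 - (s.card + j)) =
      (6 - s.card).choose j * (12 - (s.card + j)).choose (5 - (s.card + j)) := by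
  have hbc : b.card = 6 := hB.1 b hb
  have hsd : (b \ s).card = 6 - s.card := by rw [card_sdiff_of_subset hs, hbc]
  have := sum_choose_mul_card_inter hB s (b \ s) disjoint_sdiff j hj
  rw [hsd, hα] at this
  exact this

/-- Leech triangle of S(5, 6, 12): blocks meet in 0, 2, 3 or 4 points, and a block is met exactly in a given 2-, 3- or 4-subset by 3, 2, 3 blocks respectively. -/
theorem result {α : Type*} [Fintype α] [DecidableEq α] (hα : Fintype.card α = 12) {B : Set (Finset α)} (hB : Cfsg.IsSteinerSystem 5 6 B) (b : Finset α) (hb : b ∈ B) : (∀ c ∈ B, c ≠ b → (b ∩ c).card = 0 ∨ (b ∩ c).card = 2 ∨ (b ∩ c).card = 3 ∨ (b ∩ c).card = 4) ∧ ∀ s ⊆ b, (s.card = 2 → {c : Finset α | c ∈ B ∧ b ∩ c = s}.ncard = 3) ∧ (s.card = 3 → {c : Finset α | c ∈ B ∧ b ∩ c = s}.ncard = 2) ∧ (s.card = 4 → {c : Finset α | c ∈ B ∧ b ∩ c = s}.ncard = 3) := by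
  classical
  have hbc : b.card = 6 := hB.1 b hb
  refine ⟨?_, ?_⟩
  · intro c hc hcb
    -- intersection numbers with s = ∅
    have hs : (∅ : Finset α) ⊆ b := empty_subset b
    have e := fun j (hj : j ≤ 5) => xnum_eqs hα hB hb hs j (by simpa using hj)
    have e0 := e 0 (by norm_num)
    have e1 := e 1 (by norm_num)
    have e2 := e 2 (by norm_num)
    have e3 := e 3 (by norm_num)
    have e4 := e 4 (by norm_num)
    have h6 := xnum_top hB hb hs
    have h5 := xnum_zero_of hB hb hs (i := 5) (by simp) (by simp)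
    simp only [card_empty, zero_add, Nat.sub_zero, sum_range_succ, sum_range_zero] at e0 e1 e2 e3 e4 h6
    rw [h5, h6] at e0 e1 e2 e3 e4
    norm_num [Nat.choose] at e0 e1 e2 e3 e4
    have h1 : xnum B ∅ b 1 = 0 := by omega
    have hlt : (b ∩ c).card < 5 := by
      by_contra h
      exact hcb (eq_of_le_card_inter hB hb hc (by omega)).symm
    have hne : (b ∩ c).card ≠ 1 := by
      intro h
      rw [xnum, card_eq_zero, filter_eq_empty_iff] at h1
      exact h1 (mem_blocksFin.mpr hc) ⟨empty_subset c, by simpa using h⟩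
    omega
  · intro s hs
    refine ⟨?_, ?_, ?_⟩
    · intro hsc
      rw [ncard_eq_xnum hs]
      have e := fun j (hj : s.card + j ≤ 5) => xnum_eqs hα hB hb hs j hj
      have e0 := e 0 (by omega)
      have e1 := e 1 (by omega)
      have e2 := e 2 (by omega)
      have h4 := xnum_top hB hb hs
      have h3 := xnum_zero_of hB hb hs (i := 3) (by omega) (by omega)
      simp only [hsc, sum_range_succ, sum_range_zero] at e0 e1 e2 h4
      norm_num [Nat.choose] at e0 e1 e2 h4
      rw [h3, h4] at e0 e1 e2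
      omega
    · intro hsc
      rw [ncard_eq_xnum hs]
      have e := fun j (hj : s.card + j ≤ 5) => xnum_eqs hα hB hb hs j hj
      have e0 := e 0 (by omega)
      have e1 := e 1 (by omega)
      have h4 := xnum_top hB hb hs
      have h3 := xnum_zero_of hB hb hs (i := 2) (by omega) (by omega)
      simp only [hsc, sum_range_succ, sum_range_zero] at e0 e1 h4
      norm_num [Nat.choose] at e0 e1 h4
      rw [h3, h4] at e0 e1
      omega
    · intro hsc
      rw [ncard_eq_xnum hs]
      have e := fun j (hj : s.card + j ≤ 5) => xnum_eqs hα hB hb hs j hj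
      have e0 := e 0 (by omega)
      have e1 := e 1 (by omega)
      have h4 := xnum_top hB hb hs
      have h3 := xnum_zero_of hB hb hs (i := 1) (by omega) (by omega)
      simp only [hsc, sum_range_succ, sum_range_zero] at e0 e1 h4
      norm_num [Nat.choose] at e0 e1 h4
      rw [h3, h4] at e0 e1
      omega

end Cfsg.Agent.S1595
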