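import Cfsg.Statements.S1596
import Cfsg.Agent.Lib.Helper95.Quartet

set_option autoImplicit false
open scoped Pointwise
open Cfsg

namespace Cfsg.Agent.S1596

open Cfsg.Agent.Lib.Helper9 Cfsg.Agent.Lib.Helper95

/-- A quartet of a dodecad is determined by any two of its triples: two disjoint triples uniting to a hexad extend to exactly one quartet. -/
theorem result (d : Finset Cfsg.GolayPt) (hd : d ∈ Cfsg.dodecads) (t u : Finset Cfsg.GolayPt) (ht : t.card = 3) (hu : u.card = 3) (htu : Disjoint t u) (hh : t ∪ u ∈ Cfsg.hexadsOn d) : ∃! Q : Finset (Finset Cfsg.GolayPt), Q ∈ Cfsg.quartets d ∧ t ∈ Q ∧ u ∈ Q := by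
  obtain ⟨y, hy, hyd⟩ := exists_smul_dodecad hd
  have hyinv := M24.inv_mem hy
  have hh' : y⁻¹ • t ∪ y⁻¹ • u ∈ hexadsOn (support₂ (dec 340831)) := by
    have := smul_hexad_mem hyinv hh
    rwa [← hyd, inv_smul_smul, Finset.smul_finset_union] at this
  have ht' : (y⁻¹ • t).card = 3 := by rw [Finset.card_smul_finset]; exact ht
  have hu' : (y⁻¹ • u).card = 3 := by rw [Finset.card_smul_finset]; exact hu
  have hdisj : Disjoint (y⁻¹ • t) (y⁻¹ • u) := by
    rw [← Finset.card_union_eq_card_add_card, hh'.1, ht', hu']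
  obtain ⟨σ, hσ, h1, h2⟩ := exists_pair_perm ht' hu' hdisj hh'
  have hxM : y * σ ∈ M24 := M24.mul_mem hy hσ.1
  have hxd : (y * σ) • support₂ (dec 340831) = d := by
    rw [mul_smul, m12_smul_D0 σ hσ, hyd]
  have hxt : (y * σ) • support₂ (dec 7) = t := by rw [mul_smul, h1, smul_inv_smul]
  have hxu : (y * σ) • support₂ (dec 4120) = u := by rw [mul_smul, h2, smul_inv_smul]
  refine ⟨(y * σ) • sxSet q0L, ⟨?_, ?_, ?_⟩, ?_⟩
  · have := smul_quartet_mem hxM q0_mem_quartets
    rwa [hxd] at this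
  · rw [← hxt]
    exact Finset.smul_mem_smul_finset (mem_sxSet.mpr ⟨7, by decide, rfl⟩)
  · rw [← hxu]
    exact Finset.smul_mem_smul_finset (mem_sxSet.mpr ⟨4120, by decide, rfl⟩)
  · rintro Q' ⟨hQ', htQ, huQ⟩
    have hQ'' : (y * σ)⁻¹ • Q' ∈ quartets (support₂ (dec 340831)) := by
      have := smul_quartet_mem (M24.inv_mem hxM) hQ'
      rwa [← hxd, inv_smul_smul] at this
    have e := quartet_eq_q0 hQ'' (Finset.mem_inv_smul_finset_iff.mpr (by rw [hxt]; exact htQ))
      (Finset.mem_inv_smul_finset_iff.mpr (by rw [hxu]; exact huQ))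
    rw [← e, smul_inv_smul]

end Cfsg.Agent.S1596
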