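import Cfsg.Statements.S1597
import Cfsg.Agent.Lib.Helper95.Quartet

set_option autoImplicit false
open scoped Pointwise
open Cfsg

namespace Cfsg.Agent.S1597

open Cfsg.Agent.Lib.Helper9 Cfsg.Agent.Lib.Helper95

/-- A dodecad has 220 quartets and its stabiliser is transitive on them. -/
theorem result (d : Finset Cfsg.GolayPt) (hd : d ∈ Cfsg.dodecads) : (Cfsg.quartets d).ncard = 220 ∧ ∀ Q ∈ Cfsg.quartets d, ∀ Q' ∈ Cfsg.quartets d, ∃ g : Equiv.Perm Cfsg.GolayPt, g ∈ Cfsg.M24 ∧ g • d = d ∧ g • Q = Q' := by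
  constructor
  · obtain ⟨y, hy, hyd⟩ := exists_smul_dodecad hd
    have himg : quartets d = (fun Q => y • Q) '' quartets (support₂ (dec 340831)) := by
      ext Q
      constructor
      · intro hQ
        refine ⟨y⁻¹ • Q, ?_, smul_inv_smul y Q⟩
        have := smul_quartet_mem (M24.inv_mem hy) hQ
        rwa [← hyd, inv_smul_smul] at this
      · rintro ⟨Q0, hQ0, rfl⟩
        have := smul_quartet_mem hy hQ0
        rwa [hyd] at this
    rw [himg, Set.ncard_image_of_injective _ (MulAction.injective y)]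
    exact ncard_quartets_D0
  · intro Q hQ Q' hQ'
    obtain ⟨x, hx, hxd, hxQ⟩ := exists_quartet_config hd hQ
    obtain ⟨x', hx', hxd', hxQ'⟩ := exists_quartet_config hd hQ'
    refine ⟨x' * x⁻¹, M24.mul_mem hx' (M24.inv_mem hx), ?_, ?_⟩
    · rw [mul_smul, ← hxd, inv_smul_smul, hxd', hxd]
    · rw [mul_smul, ← hxQ, inv_smul_smul, hxQ']

end Cfsg.Agent.S1597
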