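import Cfsg.Statements.S1598
import Cfsg.Agent.Lib.Helper95.QuartetStab
import Cfsg.Agent.Lib.Helper95.TabGroup

set_option autoImplicit false
open scoped Pointwise
open Cfsg

namespace Cfsg.Agent.S1598

open Cfsg.Agent.Lib.Helper9 Cfsg.Agent.Lib.Helper95

/-- The dodecad of squares. -/
abbrev D0 : Finset GolayPt := support₂ (dec 340831)

/-- The normal subgroup of order 9 of the stabiliser of the base quartet. -/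
def nTabs : List (List ℕ) :=
  [[0, 1, 2, 3, 4, 5, 6, 7, 8, 9, 10, 11, 12, 13, 14, 15, 16, 17, 18, 19, 20, 21, 22, 23],
   [0, 1, 2, 4, 12, 15, 16, 7, 9, 13, 10, 22, 3, 8, 21, 19, 18, 17, 6, 5, 14, 20, 23, 11],
   [0, 1, 2, 12, 3, 19, 18, 7, 13, 8, 10, 23, 4, 9, 20, 5, 6, 17, 16, 15, 21, 14, 11, 22],
   [1, 2, 0, 3, 4, 23, 18, 7, 9, 13, 10, 21, 12, 8, 5, 11, 6, 17, 16, 22, 19, 15, 20, 14],
   [1, 2, 0, 4, 12, 11, 6, 7, 13, 8, 10, 20, 3, 9, 15, 22, 16, 17, 18, 23, 5, 19, 14, 21],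
   [1, 2, 0, 12, 3, 22, 16, 7, 8, 9, 10, 14, 4, 13, 19, 23, 18, 17, 6, 11, 15, 5, 21, 20],
   [2, 0, 1, 3, 4, 14, 16, 7, 13, 8, 10, 15, 12, 9, 23, 21, 18, 17, 6, 20, 22, 11, 19, 5],
   [2, 0, 1, 4, 12, 21, 18, 7, 8, 9, 10, 19, 3, 13, 11, 20, 6, 17, 16, 14, 23, 22, 5, 15],
   [2, 0, 1, 12, 3, 20, 6, 7, 9, 13, 10, 5, 4, 8, 22, 14, 16, 17, 18, 21, 11, 23, 15, 19]]

/-- A complement of order 48. -/
def tTabs : List (List ℕ) :=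
  [[0, 1, 2, 3, 4, 5, 6, 7, 8, 9, 10, 11, 12, 13, 14, 15, 16, 17, 18, 19, 20, 21, 22, 23],
   [0, 1, 2, 3, 12, 5, 9, 10, 16, 6, 7, 22, 4, 18, 14, 19, 8, 17, 13, 15, 21, 20, 11, 23],
   [0, 1, 2, 13, 8, 19, 4, 17, 6, 16, 7, 22, 9, 18, 14, 5, 12, 10, 3, 15, 20, 21, 23, 11],
   [0, 1, 2, 13, 9, 19, 16, 7, 12, 4, 17, 23, 8, 3, 14, 15, 6, 10, 18, 5, 21, 20, 22, 11],
   [0, 1, 2, 18, 6, 15, 8, 10, 4, 12, 17, 23, 16, 3, 14, 19, 9, 7, 13, 5, 20, 21, 11, 22],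
   [0, 1, 2, 18, 16, 15, 12, 17, 9, 8, 10, 11, 6, 13, 14, 5, 4, 7, 3, 19, 21, 20, 23, 22],
   [0, 2, 1, 3, 4, 23, 8, 10, 6, 16, 7, 15, 12, 18, 14, 11, 9, 17, 13, 22, 20, 21, 19, 5],
   [0, 2, 1, 3, 12, 23, 16, 7, 9, 8, 10, 19, 4, 13, 14, 22, 6, 17, 18, 11, 21, 20, 15, 5],
   [0, 2, 1, 13, 8, 11, 6, 7, 4, 12, 17, 5, 9, 3, 14, 22, 16, 10, 18, 23, 20, 21, 15, 19],
   [0, 2, 1, 13, 9, 11, 12, 17, 16, 6, 7, 15, 8, 18, 14, 23, 4, 10, 3, 22, 21, 20, 5, 19],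
   [0, 2, 1, 18, 6, 22, 4, 17, 8, 9, 10, 19, 16, 13, 14, 23, 12, 7, 3, 11, 20, 21, 5, 15],
   [0, 2, 1, 18, 16, 22, 9, 10, 12, 4, 17, 5, 6, 3, 14, 11, 8, 7, 13, 23, 21, 20, 19, 15],
   [3, 4, 12, 0, 1, 21, 16, 10, 8, 9, 7, 19, 2, 13, 14, 15, 6, 17, 18, 11, 23, 5, 22, 20],
   [3, 4, 12, 0, 2, 21, 9, 7, 6, 16, 10, 22, 1, 18, 14, 11, 8, 17, 13, 15, 5, 23, 19, 20],
   [3, 4, 12, 13, 8, 11, 1, 17, 16, 6, 10, 22, 9, 18, 14, 21, 2, 7, 0, 15, 23, 5, 20, 19],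
   [3, 4, 12, 13, 9, 11, 6, 10, 2, 1, 17, 20, 8, 0, 14, 15, 16, 7, 18, 21, 5, 23, 22, 19],
   [3, 4, 12, 18, 6, 15, 2, 17, 9, 8, 7, 19, 16, 13, 14, 21, 1, 10, 0, 11, 5, 23, 20, 22],
   [3, 4, 12, 18, 16, 15, 8, 7, 1, 2, 17, 20, 6, 0, 14, 11, 9, 10, 13, 21, 23, 5, 19, 22],
   [3, 12, 4, 0, 1, 20, 8, 7, 16, 6, 10, 15, 2, 18, 14, 19, 9, 17, 13, 22, 23, 5, 11, 21],
   [3, 12, 4, 0, 2, 20, 6, 10, 9, 8, 7, 11, 1, 13, 14, 22, 16, 17, 18, 19, 5, 23, 15, 21],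
   [3, 12, 4, 13, 8, 19, 16, 10, 1, 2, 17, 21, 9, 0, 14, 22, 6, 7, 18, 20, 23, 5, 15, 11],
   [3, 12, 4, 13, 9, 19, 2, 17, 6, 16, 10, 15, 8, 18, 14, 20, 1, 7, 0, 22, 5, 23, 21, 11],
   [3, 12, 4, 18, 6, 22, 9, 7, 2, 1, 17, 21, 16, 0, 14, 19, 8, 10, 13, 20, 5, 23, 11, 15],
   [3, 12, 4, 18, 16, 22, 1, 17, 8, 9, 7, 11, 6, 13, 14, 20, 2, 10, 0, 19, 23, 5, 21, 15],
   [13, 8, 9, 0, 1, 21, 12, 7, 6, 16, 17, 15, 2, 18, 14, 5, 4, 10, 3, 22, 11, 19, 23, 20],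
   [13, 8, 9, 0, 2, 21, 16, 17, 4, 12, 7, 23, 1, 3, 14, 22, 6, 10, 18, 5, 19, 11, 15, 20],
   [13, 8, 9, 3, 4, 5, 2, 10, 16, 6, 17, 15, 12, 18, 14, 21, 1, 7, 0, 22, 19, 11, 20, 23],
   [13, 8, 9, 3, 12, 5, 6, 17, 1, 2, 10, 20, 4, 0, 14, 22, 16, 7, 18, 21, 11, 19, 15, 23],
   [13, 8, 9, 18, 6, 22, 1, 10, 12, 4, 7, 23, 16, 3, 14, 21, 2, 17, 0, 5, 11, 19, 20, 15],
   [13, 8, 9, 18, 16, 22, 4, 7, 2, 1, 10, 20, 6, 0, 14, 5, 12, 17, 3, 21, 19, 11, 23, 15],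
   [13, 9, 8, 0, 1, 20, 6, 17, 12, 4, 7, 5, 2, 3, 14, 15, 16, 10, 18, 23, 11, 19, 22, 21],
   [13, 9, 8, 0, 2, 20, 4, 7, 16, 6, 17, 22, 1, 18, 14, 23, 12, 10, 3, 15, 19, 11, 5, 21],
   [13, 9, 8, 3, 4, 23, 16, 17, 2, 1, 10, 21, 12, 0, 14, 15, 6, 7, 18, 20, 19, 11, 22, 5],
   [13, 9, 8, 3, 12, 23, 1, 10, 6, 16, 17, 22, 4, 18, 14, 20, 2, 7, 0, 15, 11, 19, 21, 5],
   [13, 9, 8, 18, 6, 15, 12, 7, 1, 2, 10, 21, 16, 0, 14, 23, 4, 17, 3, 20, 11, 19, 5, 22],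
   [13, 9, 8, 18, 16, 15, 2, 10, 4, 12, 7, 5, 6, 3, 14, 20, 1, 17, 0, 23, 19, 11, 21, 22],
   [18, 6, 16, 0, 1, 21, 9, 17, 4, 12, 10, 5, 2, 3, 14, 19, 8, 7, 13, 23, 22, 15, 11, 20],
   [18, 6, 16, 0, 2, 21, 12, 10, 8, 9, 17, 11, 1, 13, 14, 23, 4, 7, 3, 19, 15, 22, 5, 20],
   [18, 6, 16, 3, 4, 23, 1, 7, 9, 8, 17, 11, 12, 13, 14, 21, 2, 10, 0, 19, 22, 15, 20, 5],
   [18, 6, 16, 3, 12, 23, 8, 17, 2, 1, 7, 20, 4, 0, 14, 19, 9, 10, 13, 21, 15, 22, 11, 5],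
   [18, 6, 16, 13, 8, 19, 2, 7, 12, 4, 10, 5, 9, 3, 14, 21, 1, 17, 0, 23, 15, 22, 20, 11],
   [18, 6, 16, 13, 9, 19, 4, 10, 1, 2, 7, 20, 8, 0, 14, 23, 12, 17, 3, 21, 22, 15, 5, 11],
   [18, 16, 6, 0, 1, 20, 4, 10, 9, 8, 17, 19, 2, 13, 14, 5, 12, 7, 3, 11, 22, 15, 23, 21],
   [18, 16, 6, 0, 2, 20, 8, 17, 12, 4, 10, 23, 1, 3, 14, 11, 9, 7, 13, 5, 15, 22, 19, 21],
   [18, 16, 6, 3, 4, 5, 9, 17, 1, 2, 7, 21, 12, 0, 14, 11, 8, 10, 13, 20, 22, 15, 19, 23],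
   [18, 16, 6, 3, 12, 5, 2, 7, 8, 9, 17, 19, 4, 13, 14, 20, 1, 10, 0, 11, 15, 22, 21, 23],
   [18, 16, 6, 13, 8, 11, 12, 10, 2, 1, 7, 21, 9, 0, 14, 5, 4, 17, 3, 20, 15, 22, 23, 19],
   [18, 16, 6, 13, 9, 11, 1, 7, 4, 12, 10, 23, 8, 3, 14, 20, 2, 17, 0, 5, 22, 15, 21, 19]]

/-- The complement indexed by the matrices over the field of three elements. -/
def glList : List (List ℕ) :=
  [[0, 1, 2, 3, 4, 5, 6, 7, 8, 9, 10, 11, 12, 13, 14, 15, 16, 17, 18, 19, 20, 21, 22, 23],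
   [0, 1, 2, 3, 4, 5, 6, 7, 8, 9, 10, 11, 12, 13, 14, 15, 16, 17, 18, 19, 20, 21, 22, 23],
   [0, 1, 2, 3, 4, 5, 6, 7, 8, 9, 10, 11, 12, 13, 14, 15, 16, 17, 18, 19, 20, 21, 22, 23],
   [0, 1, 2, 3, 4, 5, 6, 7, 8, 9, 10, 11, 12, 13, 14, 15, 16, 17, 18, 19, 20, 21, 22, 23],
   [0, 1, 2, 3, 4, 5, 6, 7, 8, 9, 10, 11, 12, 13, 14, 15, 16, 17, 18, 19, 20, 21, 22, 23],
   [0, 1, 2, 3, 4, 5, 6, 7, 8, 9, 10, 11, 12, 13, 14, 15, 16, 17, 18, 19, 20, 21, 22, 23],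
   [0, 1, 2, 3, 4, 5, 6, 7, 8, 9, 10, 11, 12, 13, 14, 15, 16, 17, 18, 19, 20, 21, 22, 23],
   [0, 1, 2, 3, 4, 5, 6, 7, 8, 9, 10, 11, 12, 13, 14, 15, 16, 17, 18, 19, 20, 21, 22, 23],
   [0, 1, 2, 3, 4, 5, 6, 7, 8, 9, 10, 11, 12, 13, 14, 15, 16, 17, 18, 19, 20, 21, 22, 23],
   [0, 1, 2, 3, 4, 5, 6, 7, 8, 9, 10, 11, 12, 13, 14, 15, 16, 17, 18, 19, 20, 21, 22, 23],
   [0, 1, 2, 3, 4, 5, 6, 7, 8, 9, 10, 11, 12, 13, 14, 15, 16, 17, 18, 19, 20, 21, 22, 23],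
   [0, 1, 2, 3, 4, 5, 6, 7, 8, 9, 10, 11, 12, 13, 14, 15, 16, 17, 18, 19, 20, 21, 22, 23],
   [3, 4, 12, 0, 1, 21, 16, 10, 8, 9, 7, 19, 2, 13, 14, 15, 6, 17, 18, 11, 23, 5, 22, 20],
   [3, 4, 12, 18, 16, 15, 8, 7, 1, 2, 17, 20, 6, 0, 14, 11, 9, 10, 13, 21, 23, 5, 19, 22],
   [3, 4, 12, 13, 8, 11, 1, 17, 16, 6, 10, 22, 9, 18, 14, 21, 2, 7, 0, 15, 23, 5, 20, 19],
   [3, 4, 12, 0, 2, 21, 9, 7, 6, 16, 10, 22, 1, 18, 14, 11, 8, 17, 13, 15, 5, 23, 19, 20],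
   [3, 4, 12, 18, 6, 15, 2, 17, 9, 8, 7, 19, 16, 13, 14, 21, 1, 10, 0, 11, 5, 23, 20, 22],
   [3, 4, 12, 13, 9, 11, 6, 10, 2, 1, 17, 20, 8, 0, 14, 15, 16, 7, 18, 21, 5, 23, 22, 19],
   [0, 1, 2, 3, 4, 5, 6, 7, 8, 9, 10, 11, 12, 13, 14, 15, 16, 17, 18, 19, 20, 21, 22, 23],
   [0, 1, 2, 3, 4, 5, 6, 7, 8, 9, 10, 11, 12, 13, 14, 15, 16, 17, 18, 19, 20, 21, 22, 23],
   [0, 1, 2, 3, 4, 5, 6, 7, 8, 9, 10, 11, 12, 13, 14, 15, 16, 17, 18, 19, 20, 21, 22, 23],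
   [3, 12, 4, 0, 1, 20, 8, 7, 16, 6, 10, 15, 2, 18, 14, 19, 9, 17, 13, 22, 23, 5, 11, 21],
   [3, 12, 4, 13, 8, 19, 16, 10, 1, 2, 17, 21, 9, 0, 14, 22, 6, 7, 18, 20, 23, 5, 15, 11],
   [3, 12, 4, 18, 16, 22, 1, 17, 8, 9, 7, 11, 6, 13, 14, 20, 2, 10, 0, 19, 23, 5, 21, 15],
   [3, 12, 4, 0, 2, 20, 6, 10, 9, 8, 7, 11, 1, 13, 14, 22, 16, 17, 18, 19, 5, 23, 15, 21],
   [3, 12, 4, 13, 9, 19, 2, 17, 6, 16, 10, 15, 8, 18, 14, 20, 1, 7, 0, 22, 5, 23, 21, 11],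
   [3, 12, 4, 18, 6, 22, 9, 7, 2, 1, 17, 21, 16, 0, 14, 19, 8, 10, 13, 20, 5, 23, 11, 15],
   [0, 1, 2, 3, 4, 5, 6, 7, 8, 9, 10, 11, 12, 13, 14, 15, 16, 17, 18, 19, 20, 21, 22, 23],
   [0, 1, 2, 3, 4, 5, 6, 7, 8, 9, 10, 11, 12, 13, 14, 15, 16, 17, 18, 19, 20, 21, 22, 23],
   [0, 2, 1, 3, 4, 23, 8, 10, 6, 16, 7, 15, 12, 18, 14, 11, 9, 17, 13, 22, 20, 21, 19, 5],
   [0, 1, 2, 3, 4, 5, 6, 7, 8, 9, 10, 11, 12, 13, 14, 15, 16, 17, 18, 19, 20, 21, 22, 23],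
   [18, 16, 6, 3, 4, 5, 9, 17, 1, 2, 7, 21, 12, 0, 14, 11, 8, 10, 13, 20, 22, 15, 19, 23],
   [18, 6, 16, 3, 4, 23, 1, 7, 9, 8, 17, 11, 12, 13, 14, 21, 2, 10, 0, 19, 22, 15, 20, 5],
   [0, 1, 2, 3, 4, 5, 6, 7, 8, 9, 10, 11, 12, 13, 14, 15, 16, 17, 18, 19, 20, 21, 22, 23],
   [13, 8, 9, 3, 4, 5, 2, 10, 16, 6, 17, 15, 12, 18, 14, 21, 1, 7, 0, 22, 19, 11, 20, 23],
   [13, 9, 8, 3, 4, 23, 16, 17, 2, 1, 10, 21, 12, 0, 14, 15, 6, 7, 18, 20, 19, 11, 22, 5],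
   [0, 1, 2, 3, 4, 5, 6, 7, 8, 9, 10, 11, 12, 13, 14, 15, 16, 17, 18, 19, 20, 21, 22, 23],
   [0, 1, 2, 18, 6, 15, 8, 10, 4, 12, 17, 23, 16, 3, 14, 19, 9, 7, 13, 5, 20, 21, 11, 22],
   [0, 2, 1, 13, 8, 11, 6, 7, 4, 12, 17, 5, 9, 3, 14, 22, 16, 10, 18, 23, 20, 21, 15, 19],
   [18, 6, 16, 0, 1, 21, 9, 17, 4, 12, 10, 5, 2, 3, 14, 19, 8, 7, 13, 23, 22, 15, 11, 20],
   [0, 1, 2, 3, 4, 5, 6, 7, 8, 9, 10, 11, 12, 13, 14, 15, 16, 17, 18, 19, 20, 21, 22, 23],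
   [18, 16, 6, 13, 9, 11, 1, 7, 4, 12, 10, 23, 8, 3, 14, 20, 2, 17, 0, 5, 22, 15, 21, 19],
   [13, 8, 9, 0, 2, 21, 16, 17, 4, 12, 7, 23, 1, 3, 14, 22, 6, 10, 18, 5, 19, 11, 15, 20],
   [13, 9, 8, 18, 16, 15, 2, 10, 4, 12, 7, 5, 6, 3, 14, 20, 1, 17, 0, 23, 19, 11, 21, 22],
   [0, 1, 2, 3, 4, 5, 6, 7, 8, 9, 10, 11, 12, 13, 14, 15, 16, 17, 18, 19, 20, 21, 22, 23],
   [0, 1, 2, 3, 4, 5, 6, 7, 8, 9, 10, 11, 12, 13, 14, 15, 16, 17, 18, 19, 20, 21, 22, 23],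
   [0, 1, 2, 13, 8, 19, 4, 17, 6, 16, 7, 22, 9, 18, 14, 5, 12, 10, 3, 15, 20, 21, 23, 11],
   [0, 2, 1, 18, 6, 22, 4, 17, 8, 9, 10, 19, 16, 13, 14, 23, 12, 7, 3, 11, 20, 21, 5, 15],
   [18, 16, 6, 0, 1, 20, 4, 10, 9, 8, 17, 19, 2, 13, 14, 5, 12, 7, 3, 11, 22, 15, 23, 21],
   [18, 6, 16, 13, 9, 19, 4, 10, 1, 2, 7, 20, 8, 0, 14, 23, 12, 17, 3, 21, 22, 15, 5, 11],
   [0, 1, 2, 3, 4, 5, 6, 7, 8, 9, 10, 11, 12, 13, 14, 15, 16, 17, 18, 19, 20, 21, 22, 23],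
   [13, 9, 8, 0, 2, 20, 4, 7, 16, 6, 17, 22, 1, 18, 14, 23, 12, 10, 3, 15, 19, 11, 5, 21],
   [0, 1, 2, 3, 4, 5, 6, 7, 8, 9, 10, 11, 12, 13, 14, 15, 16, 17, 18, 19, 20, 21, 22, 23],
   [13, 8, 9, 18, 16, 22, 4, 7, 2, 1, 10, 20, 6, 0, 14, 5, 12, 17, 3, 21, 19, 11, 23, 15],
   [0, 1, 2, 3, 4, 5, 6, 7, 8, 9, 10, 11, 12, 13, 14, 15, 16, 17, 18, 19, 20, 21, 22, 23],
   [0, 1, 2, 3, 12, 5, 9, 10, 16, 6, 7, 22, 4, 18, 14, 19, 8, 17, 13, 15, 21, 20, 11, 23],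
   [0, 2, 1, 3, 12, 23, 16, 7, 9, 8, 10, 19, 4, 13, 14, 22, 6, 17, 18, 11, 21, 20, 15, 5],
   [0, 1, 2, 3, 4, 5, 6, 7, 8, 9, 10, 11, 12, 13, 14, 15, 16, 17, 18, 19, 20, 21, 22, 23],
   [13, 8, 9, 3, 12, 5, 6, 17, 1, 2, 10, 20, 4, 0, 14, 22, 16, 7, 18, 21, 11, 19, 15, 23],
   [13, 9, 8, 3, 12, 23, 1, 10, 6, 16, 17, 22, 4, 18, 14, 20, 2, 7, 0, 15, 11, 19, 21, 5],
   [0, 1, 2, 3, 4, 5, 6, 7, 8, 9, 10, 11, 12, 13, 14, 15, 16, 17, 18, 19, 20, 21, 22, 23],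
   [18, 16, 6, 3, 12, 5, 2, 7, 8, 9, 17, 19, 4, 13, 14, 20, 1, 10, 0, 11, 15, 22, 21, 23],
   [18, 6, 16, 3, 12, 23, 8, 17, 2, 1, 7, 20, 4, 0, 14, 19, 9, 10, 13, 21, 15, 22, 11, 5],
   [0, 1, 2, 3, 4, 5, 6, 7, 8, 9, 10, 11, 12, 13, 14, 15, 16, 17, 18, 19, 20, 21, 22, 23],
   [0, 1, 2, 18, 16, 15, 12, 17, 9, 8, 10, 11, 6, 13, 14, 5, 4, 7, 3, 19, 21, 20, 23, 22],
   [0, 2, 1, 13, 9, 11, 12, 17, 16, 6, 7, 15, 8, 18, 14, 23, 4, 10, 3, 22, 21, 20, 5, 19],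
   [13, 8, 9, 0, 1, 21, 12, 7, 6, 16, 17, 15, 2, 18, 14, 5, 4, 10, 3, 22, 11, 19, 23, 20],
   [13, 9, 8, 18, 6, 15, 12, 7, 1, 2, 10, 21, 16, 0, 14, 23, 4, 17, 3, 20, 11, 19, 5, 22],
   [0, 1, 2, 3, 4, 5, 6, 7, 8, 9, 10, 11, 12, 13, 14, 15, 16, 17, 18, 19, 20, 21, 22, 23],
   [18, 6, 16, 0, 2, 21, 12, 10, 8, 9, 17, 11, 1, 13, 14, 23, 4, 7, 3, 19, 15, 22, 5, 20],
   [0, 1, 2, 3, 4, 5, 6, 7, 8, 9, 10, 11, 12, 13, 14, 15, 16, 17, 18, 19, 20, 21, 22, 23],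
   [18, 16, 6, 13, 8, 11, 12, 10, 2, 1, 7, 21, 9, 0, 14, 5, 4, 17, 3, 20, 15, 22, 23, 19],
   [0, 1, 2, 3, 4, 5, 6, 7, 8, 9, 10, 11, 12, 13, 14, 15, 16, 17, 18, 19, 20, 21, 22, 23],
   [0, 1, 2, 13, 9, 19, 16, 7, 12, 4, 17, 23, 8, 3, 14, 15, 6, 10, 18, 5, 21, 20, 22, 11],
   [0, 2, 1, 18, 16, 22, 9, 10, 12, 4, 17, 5, 6, 3, 14, 11, 8, 7, 13, 23, 21, 20, 19, 15],
   [13, 9, 8, 0, 1, 20, 6, 17, 12, 4, 7, 5, 2, 3, 14, 15, 16, 10, 18, 23, 11, 19, 22, 21],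
   [0, 1, 2, 3, 4, 5, 6, 7, 8, 9, 10, 11, 12, 13, 14, 15, 16, 17, 18, 19, 20, 21, 22, 23],
   [13, 8, 9, 18, 6, 22, 1, 10, 12, 4, 7, 23, 16, 3, 14, 21, 2, 17, 0, 5, 11, 19, 20, 15],
   [18, 16, 6, 0, 2, 20, 8, 17, 12, 4, 10, 23, 1, 3, 14, 11, 9, 7, 13, 5, 15, 22, 19, 21],
   [18, 6, 16, 13, 8, 19, 2, 7, 12, 4, 10, 5, 9, 3, 14, 21, 1, 17, 0, 23, 15, 22, 20, 11],
   [0, 1, 2, 3, 4, 5, 6, 7, 8, 9, 10, 11, 12, 13, 14, 15, 16, 17, 18, 19, 20, 21, 22, 23]]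

/-- Elements of the stabiliser moving the point `0` to each point of the dodecad. -/
def tr12 : List (List ℕ) :=
  [[0, 1, 2, 3, 4, 5, 6, 7, 8, 9, 10, 11, 12, 13, 14, 15, 16, 17, 18, 19, 20, 21, 22, 23],
   [1, 0, 2, 3, 4, 14, 9, 10, 18, 6, 7, 11, 12, 16, 5, 21, 13, 17, 8, 20, 19, 15, 22, 23],
   [2, 0, 1, 3, 4, 14, 16, 7, 13, 8, 10, 15, 12, 9, 23, 21, 18, 17, 6, 20, 22, 11, 19, 5],
   [3, 4, 12, 0, 1, 21, 16, 10, 8, 9, 7, 19, 2, 13, 14, 15, 6, 17, 18, 11, 23, 5, 22, 20],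
   [4, 3, 12, 0, 1, 14, 9, 7, 18, 16, 10, 19, 2, 6, 21, 5, 13, 17, 8, 23, 11, 15, 22, 20],
   [6, 16, 18, 0, 1, 20, 13, 17, 12, 3, 10, 15, 2, 4, 21, 5, 9, 7, 8, 11, 23, 19, 22, 14],
   [8, 9, 13, 0, 1, 20, 3, 7, 16, 18, 17, 19, 2, 6, 21, 15, 12, 10, 4, 23, 22, 5, 11, 14],
   [9, 8, 13, 0, 1, 21, 18, 17, 4, 3, 7, 19, 2, 12, 20, 5, 6, 10, 16, 22, 23, 15, 11, 14],
   [12, 3, 4, 0, 1, 14, 6, 10, 13, 8, 7, 15, 2, 9, 20, 5, 18, 17, 16, 23, 22, 19, 11, 21],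
   [13, 8, 9, 0, 1, 21, 12, 7, 6, 16, 17, 15, 2, 18, 14, 5, 4, 10, 3, 22, 11, 19, 23, 20],
   [16, 6, 18, 0, 1, 21, 3, 10, 8, 13, 17, 15, 2, 9, 20, 19, 4, 7, 12, 23, 11, 5, 22, 14],
   [18, 6, 16, 0, 1, 21, 9, 17, 4, 12, 10, 5, 2, 3, 14, 19, 8, 7, 13, 23, 22, 15, 11, 20]]

theorem nTabs_ok : nTabs.all kOK = true := by decide +kernel

theorem tTabs_ok : tTabs.all kOK = true := by decide +kernel

theorem tr12_ok : tr12.all kOK = true := by decide +kernel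

theorem glList_sub : (List.range 81).all (fun k => tTabs.contains (glList.getD k idT)) = true := by
  decide +kernel

theorem n_group : tabGroupOK nTabs = true := by decide +kernel

theorem n_nodup : nTabs.Nodup := by decide +kernel

theorem gl_mul : ∀ a b c d a' b' c' d' : ZMod 3, a * d - b * c ≠ 0 → a' * d' - b' * c' ≠ 0 →
    compT (glList.getD (key4 a b c d) idT) (glList.getD (key4 a' b' c' d') idT) =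
      glList.getD (key4 (a * a' + b * c') (a * b' + b * d') (c * a' + d * c')
        (c * b' + d * d')) idT := by
  decide +kernel

theorem gl_inj : ∀ a b c d : ZMod 3, a * d - b * c ≠ 0 →
    glList.getD (key4 a b c d) idT ∈ nTabs → a = 1 ∧ b = 0 ∧ c = 0 ∧ d = 1 := by
  decide +kernel

theorem conj_ok : tTabs.all (fun T => nTabs.all (fun S =>
    nTabs.contains (compT (compT T S) (invT T)))) = true := by decide +kernel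

/-- All 432 elements of the stabiliser. -/
def kEls : List (List ℕ) := nTabs.flatMap (fun N => tTabs.map (fun T => compT N T))

theorem kEls_nodup : kEls.Nodup := by decide +kernel

theorem kEls_length : kEls.length = 432 := by decide +kernel

theorem tr12_dec : ([0, 1, 2, 3, 4, 6, 8, 9, 12, 13, 16, 18] : List ℕ).all
    (fun j => tr12.any (fun U => U.getD 0 0 == j)) = true := by decide +kernel

theorem D0_bits : ∀ i < 24, (Nat.testBit 340831 i = true ↔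
    i ∈ ([0, 1, 2, 3, 4, 6, 8, 9, 12, 13, 16, 18] : List ℕ)) := by decide

theorem nTabs_mem {S : List ℕ} (hS : S ∈ nTabs) : permOK S = true ∧ tperm S ∈ qStab0 :=
  mem_qStab0_of_kOK (List.all_eq_true.mp nTabs_ok S hS)

theorem tTabs_mem {T : List ℕ} (hT : T ∈ tTabs) : permOK T = true ∧ tperm T ∈ qStab0 :=
  mem_qStab0_of_kOK (List.all_eq_true.mp tTabs_ok T hT)

theorem gl_mem {k : ℕ} (hk : k < 81) :
    permOK (glList.getD k idT) = true ∧ tperm (glList.getD k idT) ∈ qStab0 := by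
  have h := List.all_eq_true.mp glList_sub k (List.mem_range.mpr hk)
  rw [List.contains_iff_mem] at h
  exact tTabs_mem h

theorem gl_table : GLTable glList := ⟨fun _ hk => (gl_mem hk).1, gl_mul⟩

theorem orbit_q0 : MulAction.orbit ↥(M24 ⊓ setStab [340831]) (sxSet q0L) = quartets D0 := by
  ext Q
  constructor
  · rintro ⟨σ, rfl⟩
    show (σ : Equiv.Perm GolayPt) • sxSet q0L ∈ quartets D0
    have := smul_quartet_mem σ.2.1 q0_mem_quartets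
    rwa [m12_smul_D0 σ.1 σ.2] at this
  · intro hQ
    have hcard : 1 < Q.card := by rw [hQ.1]; norm_num
    obtain ⟨t, ht, u, hu, hne⟩ := Finset.one_lt_card.mp hcard
    obtain ⟨σ, hσ, -, -, h3⟩ := exists_quartet_perm hQ ht hu hne
    exact ⟨⟨σ, hσ⟩, h3⟩

theorem card_qStab0 : Nat.card ↥qStab0 = 432 := by
  have h := card_eq_orbit_mul_stab' (M24 ⊓ setStab [340831]) (sxSet q0L)
  rw [orbit_q0, ncard_quartets_D0, card_M12'] at h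
  show Nat.card ↥((M24 ⊓ setStab [340831]) ⊓
    MulAction.stabilizer (Equiv.Perm GolayPt) (sxSet q0L)) = 432
  omega

theorem kEls_mem {U : List ℕ} (hU : U ∈ kEls) : ∃ S ∈ nTabs, ∃ T ∈ tTabs, U = compT S T := by
  simp only [kEls, List.mem_flatMap, List.mem_map] at hU
  obtain ⟨S, hS, T, hT, rfl⟩ := hU
  exact ⟨S, hS, T, hT, rfl⟩

theorem kEls_ok : ∀ U ∈ kEls, permOK U = true ∧ tperm U ∈ qStab0 := by
  intro U hU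
  obtain ⟨S, hS, T, hT, rfl⟩ := kEls_mem hU
  obtain ⟨h1, h2⟩ := nTabs_mem hS
  obtain ⟨h3, h4⟩ := tTabs_mem hT
  refine ⟨permOK_compT h1 h3, ?_⟩
  rw [← tperm_mul h1 h3]
  exact qStab0.mul_mem h2 h4

theorem exists_kEl : ∀ σ ∈ qStab0, ∃ S ∈ nTabs, ∃ T ∈ tTabs, σ = tperm S * tperm T := by
  intro σ hσ
  obtain ⟨U, hU, rfl⟩ := exists_table_of_card_le kEls kEls_nodup kEls_ok
    (by rw [card_qStab0, kEls_length]) σ hσ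
  obtain ⟨S, hS, T, hT, rfl⟩ := kEls_mem hU
  exact ⟨S, hS, T, hT, (tperm_mul (nTabs_mem hS).1 (tTabs_mem hT).1).symm⟩

/-- The normal subgroup of order 9. -/
abbrev nSub : Subgroup (Equiv.Perm GolayPt) := tabSubgroup nTabs n_group

theorem nSub_le : nSub ≤ qStab0 := by
  rintro _ ⟨S, hS, rfl⟩
  exact (nTabs_mem hS).2

theorem nSub_conj {g : Equiv.Perm GolayPt} (hg : g ∈ qStab0) {n : Equiv.Perm GolayPt}
    (hn : n ∈ nSub) : g * n * g⁻¹ ∈ nSub := by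
  obtain ⟨S, hS, T, hT, rfl⟩ := exists_kEl g hg
  have h1 : tperm T * n * (tperm T)⁻¹ ∈ nSub := by
    obtain ⟨R, hR, rfl⟩ := hn
    have hTp := (tTabs_mem hT).1
    have hRp := (nTabs_mem hR).1
    have hc := List.all_eq_true.mp (List.all_eq_true.mp conj_ok T hT) R hR
    rw [List.contains_iff_mem] at hc
    refine ⟨_, hc, ?_⟩
    rw [tperm_inv hTp, tperm_mul hTp hRp, tperm_mul (permOK_compT hTp hRp) (permOK_invT hTp)]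
  have hs : tperm S ∈ nSub := ⟨S, hS, rfl⟩
  have e : tperm S * tperm T * n * (tperm S * tperm T)⁻¹ =
      tperm S * (tperm T * n * (tperm T)⁻¹) * (tperm S)⁻¹ := by
    simp [mul_assoc]
  rw [e]
  exact nSub.mul_mem (nSub.mul_mem hs h1) (nSub.inv_mem hs)

/-- The normal subgroup of order 9, inside the stabiliser. -/
abbrev nK : Subgroup ↥qStab0 := nSub.subgroupOf qStab0

instance nK_normal : nK.Normal := ⟨fun n hn g => by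
  rw [Subgroup.mem_subgroupOf] at hn ⊢
  exact nSub_conj g.2 hn⟩

theorem card_nK : Nat.card ↥nK = 9 := by
  rw [Nat.card_congr (Subgroup.subgroupOfEquivOfLe nSub_le).toEquiv,
    card_tabSubgroup nTabs n_group n_nodup]
  rfl

/-- The complement as a homomorphic image of the general linear group. -/
noncomputable def fHom : GL (Fin 2) (ZMod 3) →* ↥qStab0 :=
  (glHom glList gl_table).codRestrict qStab0 (fun _ => (gl_mem (key4_lt _ _ _ _)).2)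

theorem quot_iso : Nonempty (↥qStab0 ⧸ nK ≃* GL (Fin 2) (ZMod 3)) := by
  let c : GL (Fin 2) (ZMod 3) →* ↥qStab0 ⧸ nK := (QuotientGroup.mk' nK).comp fHom
  have hinj : Function.Injective c := by
    rw [injective_iff_map_eq_one]
    intro M hM
    have h1 : fHom M ∈ nK := (QuotientGroup.eq_one_iff _).mp hM
    rw [Subgroup.mem_subgroupOf] at h1
    exact glHom_mem_tab gl_table (fun T hT => (nTabs_mem hT).1) gl_inj h1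
  have hcard : Nat.card (↥qStab0 ⧸ nK) = 48 := by
    have h := Subgroup.card_eq_card_quotient_mul_card_subgroup nK
    rw [card_qStab0, card_nK] at h
    omega
  have hbij : Function.Bijective c :=
    hinj.bijective_of_nat_card_le (by rw [hcard, card_GL23])
  exact ⟨(MulEquiv.ofBijective c hbij).symm⟩

theorem trans_D0 : ∀ p ∈ D0, ∃ σ ∈ qStab0, σ (pt 0) = p := by
  intro p hp
  rw [mem_support₂_dec] at hp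
  have hi := (D0_bits (idx p) (idx_lt p)).mp hp
  have h := List.all_eq_true.mp tr12_dec _ hi
  rw [List.any_eq_true] at h
  obtain ⟨U, hU, hU0⟩ := h
  rw [beq_iff_eq] at hU0
  obtain ⟨hUp, hUm⟩ := mem_qStab0_of_kOK (List.all_eq_true.mp tr12_ok U hU)
  refine ⟨tperm U, hUm, ?_⟩
  rw [tperm_apply hUp, idx_pt (by norm_num), hU0, pt_idx]

theorem mem_iff {d : Finset GolayPt} {Q : Finset (Finset GolayPt)} {x : Equiv.Perm GolayPt}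
    (hx : x ∈ M24) (hxd : x • D0 = d) (hxQ : x • sxSet q0L = Q) (g : ↥M24) :
    g ∈ MulAction.stabilizer ↥M24 d ⊓ MulAction.stabilizer ↥M24 Q ↔
      x⁻¹ * (g : Equiv.Perm GolayPt) * x ∈ qStab0 := by
  constructor
  · rintro ⟨h1, h2⟩
    have h1' : (g : Equiv.Perm GolayPt) • d = d := h1
    have h2' : (g : Equiv.Perm GolayPt) • Q = Q := h2
    refine ⟨⟨(conj_mem_M24_iff hx _).mpr g.2, fun D hD => ?_⟩, ?_⟩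
    · rw [List.mem_singleton] at hD
      rw [hD, conj_smul_eq_iff, hxd]
      exact h1'
    · show (x⁻¹ * (g : Equiv.Perm GolayPt) * x) • sxSet q0L = sxSet q0L
      rw [conj_smul_eq_iff, hxQ]
      exact h2'
  · rintro ⟨⟨-, h1⟩, h2⟩
    have h1' := h1 340831 (by simp)
    rw [conj_smul_eq_iff, hxd] at h1'
    have h2' : (x⁻¹ * (g : Equiv.Perm GolayPt) * x) • sxSet q0L = sxSet q0L := h2
    rw [conj_smul_eq_iff, hxQ] at h2'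
    exact ⟨h1', h2'⟩


/-- A quartet stabiliser inside the dodecad stabiliser has order 432, a normal subgroup of order 9 with quotient GL(2, 3), and is transitive on the dodecad. -/
theorem result (d : Finset Cfsg.GolayPt) (hd : d ∈ Cfsg.dodecads) (Q : Finset (Finset Cfsg.GolayPt)) (hQ : Q ∈ Cfsg.quartets d) : Nat.card ↥(MulAction.stabilizer Cfsg.M24 d ⊓ MulAction.stabilizer Cfsg.M24 Q) = 432 ∧ (∃ (N : Subgroup ↥(MulAction.stabilizer Cfsg.M24 d ⊓ MulAction.stabilizer Cfsg.M24 Q)) (_ : N.Normal), Nat.card N = 9 ∧ Nonempty (↥(MulAction.stabilizer Cfsg.M24 d ⊓ MulAction.stabilizer Cfsg.M24 Q) ⧸ N ≃* GL (Fin 2) (ZMod 3))) ∧ ∀ p ∈ d, ∀ q ∈ d, ∃ g ∈ (MulAction.stabilizer Cfsg.M24 d ⊓ MulAction.stabilizer Cfsg.M24 Q), ((g : ↥Cfsg.M24) : Equiv.Perm Cfsg.GolayPt) p = q := by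
  obtain ⟨x, hx, hxd, hxQ⟩ := exists_quartet_config hd hQ
  have hxinv : x⁻¹ ∈ M24 := M24.inv_mem hx
  have hle : qStab0 ≤ M24 := inf_le_left.trans inf_le_left
  let e := transportEquiv hx hle (mem_iff hx hxd hxQ)
  refine ⟨?_, ?_, ?_⟩
  · rw [Nat.card_congr e.toEquiv]
    exact card_qStab0
  · exact exists_normal_of_equiv e nK 9 card_nK quot_iso
  · intro p hp q hq
    have hback : ∀ r ∈ d, x⁻¹ r ∈ D0 := by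
      intro r hr
      have h1 : x⁻¹ • r ∈ x⁻¹ • d := Finset.smul_mem_smul_finset hr
      rwa [← hxd, inv_smul_smul] at h1
    obtain ⟨σp, hσp, hσp0⟩ := trans_D0 _ (hback p hp)
    obtain ⟨σq, hσq, hσq0⟩ := trans_D0 _ (hback q hq)
    have hτ : σq * σp⁻¹ ∈ qStab0 := qStab0.mul_mem hσq (qStab0.inv_mem hσp)
    have hgM : x * (σq * σp⁻¹) * x⁻¹ ∈ M24 := M24.mul_mem (M24.mul_mem hx (hle hτ)) hxinv
    refine ⟨⟨x * (σq * σp⁻¹) * x⁻¹, hgM⟩, ?_, ?_⟩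
    · rw [mem_iff hx hxd hxQ]
      show x⁻¹ * (x * (σq * σp⁻¹) * x⁻¹) * x ∈ qStab0
      have e2 : x⁻¹ * (x * (σq * σp⁻¹) * x⁻¹) * x = σq * σp⁻¹ := by group
      rw [e2]
      exact hτ
    · show (x * (σq * σp⁻¹) * x⁻¹) p = q
      have e3 : σp⁻¹ (x⁻¹ p) = pt 0 := by
        rw [← hσp0]
        simp
      rw [Equiv.Perm.mul_apply, Equiv.Perm.mul_apply, Equiv.Perm.mul_apply, e3, hσq0]
      simp

end Cfsg.Agent.S1598
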