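import Cfsg.Statements.S1599
import Cfsg.Agent.Lib.Helper95.QuartetStab

set_option autoImplicit false
open scoped Pointwise
open Cfsg

namespace Cfsg.Agent.S1599

open Cfsg.Agent.Lib.Helper9 Cfsg.Agent.Lib.Helper95

/-- The dodecad of squares. -/
abbrev D0 : Finset GolayPt := support₂ (dec 340831)

/-- Elements of the stabiliser of the base quartet. -/
def kGens : List (List ℕ) :=
  [[0, 1, 2, 16, 18, 5, 13, 10, 3, 4, 17, 22, 6, 12, 20, 15, 8, 7, 9, 19, 21, 14, 23, 11],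
   [3, 12, 4, 6, 16, 19, 8, 7, 1, 0, 17, 11, 18, 2, 23, 20, 13, 10, 9, 22, 14, 5, 15, 21],
   [12, 4, 3, 9, 13, 15, 6, 10, 1, 2, 17, 14, 8, 0, 20, 11, 18, 7, 16, 21, 22, 19, 5, 23],
   [0, 2, 1, 13, 9, 11, 12, 17, 16, 6, 7, 15, 8, 18, 14, 23, 4, 10, 3, 22, 21, 20, 5, 19],
   [4, 12, 3, 0, 1, 20, 18, 10, 9, 13, 7, 5, 2, 8, 21, 19, 16, 17, 6, 22, 11, 15, 23, 14],
   [8, 13, 9, 1, 2, 19, 18, 17, 12, 4, 7, 23, 0, 3, 5, 11, 6, 10, 16, 14, 21, 22, 20, 15],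
   [0, 1, 2, 8, 9, 5, 12, 17, 16, 18, 7, 23, 13, 6, 21, 15, 3, 10, 4, 19, 14, 20, 11, 22],
   [9, 8, 13, 0, 2, 21, 3, 7, 6, 18, 17, 11, 1, 16, 20, 22, 4, 10, 12, 5, 15, 23, 19, 14],
   [13, 8, 9, 2, 1, 22, 6, 17, 12, 3, 7, 15, 0, 4, 11, 5, 18, 10, 16, 21, 14, 19, 20, 23],
   [0, 2, 1, 18, 16, 22, 9, 10, 12, 4, 17, 5, 6, 3, 14, 11, 8, 7, 13, 23, 21, 20, 19, 15],
   [3, 4, 12, 2, 0, 11, 18, 10, 13, 8, 7, 20, 1, 9, 23, 21, 16, 17, 6, 15, 5, 14, 19, 22],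
   [12, 3, 4, 13, 9, 14, 16, 10, 0, 2, 17, 15, 8, 1, 19, 23, 18, 7, 6, 5, 22, 20, 21, 11]]

theorem kGens_ok : kGens.all kOK = true := by decide +kernel

theorem good_k : Good qStab0 (kGens.map tperm) kGens :=
  good_tperm kGens (fun T hT => mem_qStab0_of_kOK (List.all_eq_true.mp kGens_ok T hT))

/-- A base quartet of each type. -/
def baseL : ℕ → List ℕ
  | 9 => [7, 336, 70144, 270344]
  | 4 => [11, 4116, 8512, 328192]
  | 6 => [11, 4864, 65616, 270340]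
  | 10 => [11, 580, 77824, 262416]
  | _ => [7, 4120, 8960, 327744]

/-- The points of its first triple. -/
def baseP : ℕ → List ℕ
  | 9 => [0, 1, 2]
  | 4 => [0, 1, 3]
  | 6 => [0, 1, 3]
  | 10 => [0, 1, 3]
  | _ => [0, 1, 2]

/-- The points of its second triple. -/
def baseP' : ℕ → List ℕ
  | 9 => [4, 6, 8]
  | 4 => [2, 4, 12]
  | 6 => [8, 9, 12]
  | 10 => [2, 6, 9]
  | _ => [3, 4, 12]

/-- For each listed quartet, a word in `kGens` carrying the base quartet of its type to it. -/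
def cert : List (List ℕ) :=
  [[], [8, 1], [], [5, 1], [], [], [], [8, 3], [3, 1], [7, 0], [1, 1], [0, 9, 0], [3, 5, 0], [4],
   [3, 10, 1], [0, 2], [2, 10], [2, 5], [2, 5], [6, 1], [3, 0], [5, 3], [3, 0], [3, 0], [4, 4],
   [2, 3], [11, 4], [4, 4], [11, 2], [9, 1], [0, 7], [0, 7], [2, 1], [2, 2], [6, 4], [4, 3, 0],
   [7], [10], [10], [10], [11, 0], [10, 2, 0], [2], [10, 2, 0], [6, 3], [8, 1], [8, 1], [8, 1],
   [4, 2, 0], [8, 0], [1, 2], [5, 10, 0], [7, 4], [5, 9], [5], [10, 8], [11, 7, 0], [7, 0], [6, 2],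
   [10, 7, 0], [3, 3, 0], [1, 2, 0], [2], [7], [1, 5, 0], [0, 11, 1], [0, 10, 0], [5], [11],
   [5, 3], [11, 1], [7, 3, 0], [6], [11, 4, 0], [3, 10], [3, 1], [3], [10, 1], [0], [4, 9], [6],
   [6], [10, 2], [5, 4], [9, 0], [4, 0], [1], [2], [10, 6], [3, 5, 0], [6, 2], [1, 11], [3, 7, 0],
   [3, 6], [7, 3], [0, 1], [4, 0], [1, 4, 0], [0, 4], [2, 0], [9, 2], [1, 1], [1], [10, 8, 0],
   [3, 5], [0, 1], [11, 1, 2], [3, 8], [7, 5, 0], [9, 1], [0, 9], [4, 3], [4, 3], [5, 1], [4],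
   [5, 9, 1], [8, 3], [1, 9], [9, 5], [2, 0], [0, 5], [10, 0], [2, 2, 5], [9], [1, 5], [4], [8, 4],
   [1, 2], [2, 3], [6, 4], [8], [0, 1], [3, 3, 0], [0, 9], [5], [7, 4], [10, 0], [1, 0], [0, 2],
   [7, 5], [9, 11, 0], [0, 11], [11, 9], [5, 0], [6, 8], [5, 0], [9, 11], [8, 0], [9, 1], [11, 0],
   [1], [9, 4], [1, 1], [8, 4], [3, 1], [11, 3], [0, 7, 0], [11], [4], [2, 9], [1], [1, 4],
   [10, 7], [5, 7, 0], [8], [9, 9, 0], [3, 8], [4, 2], [3, 5], [7], [7], [10, 3, 0], [0, 4],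
   [1, 1, 1], [1, 2], [11, 2], [0, 2], [7, 11, 0], [10, 1], [1, 5], [0], [4, 0], [3, 2], [2, 1],
   [9, 11], [0, 3], [0, 3], [11, 7], [9, 2], [8], [0, 5], [9, 5], [5], [6, 8], [6, 5], [2],
   [2, 10], [3], [10, 6], [8], [6, 11, 0], [11, 4, 0], [9], [6, 5], [10, 0], [5, 1], [9, 1],
   [8, 5], [8, 5], [8, 5], [0], [4, 4, 0], [3, 6], [4, 0, 2], [1, 1], [10, 3], [9], [3], [10, 1],
   [11, 4]]

theorem orbit_cert : ∀ L ∈ qL, baseL (tyL L) ∈ qL ∧
    ∃ σ ∈ qStab0, σ • sxSet (baseL (tyL L)) = sxSet L :=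
  quartet_orbit_cert inf_le_left good_k tyL [0, 9, 4, 6, 10] baseL baseP baseP' cert
    (by decide +kernel) (by decide +kernel) (by decide +kernel)

theorem ty_mem : qL.all (fun L => ([0, 9, 4, 6, 10] : List ℕ).contains (tyL L)) = true := by
  decide +kernel

theorem base_mem : ∀ k ∈ ([0, 9, 4, 6, 10] : List ℕ), baseL k ∈ qL ∧ tyL (baseL k) = k := by
  decide +kernel

theorem ty_zero : qL.all (fun L => tyL L != 0 || L == q0L) = true := by decide +kernel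

theorem count9 : (qL.filter (fun L => tyL L == 9)).length = 12 := by decide +kernel

theorem count4 : (qL.filter (fun L => tyL L == 4)).length = 27 := by decide +kernel

theorem count6 : (qL.filter (fun L => tyL L == 6)).length = 72 := by decide +kernel

theorem count10 : (qL.filter (fun L => tyL L == 10)).length = 108 := by decide +kernel

theorem orbit_eq {d : Finset GolayPt} {Q : Finset (Finset GolayPt)} {x : Equiv.Perm GolayPt}
    (hx : x ∈ M24) (hxd : x • D0 = d) (hxQ : x • sxSet q0L = Q) (k : ℕ)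
    (hk : k ∈ ([0, 9, 4, 6, 10] : List ℕ)) :
    MulAction.orbit ↥(MulAction.stabilizer ↥M24 d ⊓ MulAction.stabilizer ↥M24 Q)
      (x • sxSet (baseL k)) = {X | X ∈ quartets d ∧ ty1 Q X = k} := by
  have hxinv : x⁻¹ ∈ M24 := M24.inv_mem hx
  obtain ⟨hB, hBk⟩ := base_mem k hk
  have hXq : x • sxSet (baseL k) ∈ quartets d := by
    have := smul_quartet_mem hx (qSet_mem_quartets (qL_mem_ok hB))
    rwa [hxd] at this
  ext X
  constructor
  · rintro ⟨g, rfl⟩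
    have hgM : ((g : ↥M24) : Equiv.Perm GolayPt) ∈ M24 := (g : ↥M24).2
    have hgd : ((g : ↥M24) : Equiv.Perm GolayPt) • d = d := g.2.1
    have hgQ : ((g : ↥M24) : Equiv.Perm GolayPt) • Q = Q := g.2.2
    show ((g : ↥M24) : Equiv.Perm GolayPt) • (x • sxSet (baseL k)) ∈ quartets d ∧
      ty1 Q (((g : ↥M24) : Equiv.Perm GolayPt) • (x • sxSet (baseL k))) = k
    constructor
    · have := smul_quartet_mem hgM hXq
      rwa [hgd] at this
    · have h1 := ty1_smul ((g : ↥M24) : Equiv.Perm GolayPt) Q (x • sxSet (baseL k))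
      rw [hgQ] at h1
      rw [h1, ← hxQ, ty1_smul, ty1_qSet (qL_mem_ok hB), hBk]
  · rintro ⟨hX, hXk⟩
    have hX0 : x⁻¹ • X ∈ quartets D0 := by
      have := smul_quartet_mem hxinv hX
      rwa [← hxd, inv_smul_smul] at this
    obtain ⟨L, hL, hXL⟩ := exists_qL hX0
    have htyL : tyL L = k := by
      rw [← ty1_qSet (qL_mem_ok hL), ← hXL, ← ty1_smul x, smul_inv_smul, hxQ]
      exact hXk
    obtain ⟨-, σ, hσ, hσL⟩ := orbit_cert L hL
    rw [htyL] at hσL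
    have hgM : x * σ * x⁻¹ ∈ M24 := M24.mul_mem (M24.mul_mem hx hσ.1.1) hxinv
    have hgd : (x * σ * x⁻¹) • d = d := by
      rw [mul_smul, mul_smul, ← hxd, inv_smul_smul, m12_smul_D0 σ hσ.1]
    have hσQ : σ • sxSet q0L = sxSet q0L := hσ.2
    have hgQ : (x * σ * x⁻¹) • Q = Q := by
      rw [mul_smul, mul_smul, ← hxQ, inv_smul_smul, hσQ]
    refine ⟨⟨⟨x * σ * x⁻¹, hgM⟩, Subgroup.mem_inf.mpr ⟨hgd, hgQ⟩⟩, ?_⟩
    show (x * σ * x⁻¹) • (x • sxSet (baseL k)) = X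
    rw [mul_smul, mul_smul, inv_smul_smul, hσL, ← hXL, smul_inv_smul]


/-- A quartet stabiliser has five orbits on the quartets of its dodecad, of sizes 1, 12, 27, 72, 108. -/
theorem result (d : Finset Cfsg.GolayPt) (hd : d ∈ Cfsg.dodecads) (Q : Finset (Finset Cfsg.GolayPt)) (hQ : Q ∈ Cfsg.quartets d) : ∃ X₁ ∈ Cfsg.quartets d, ∃ X₂ ∈ Cfsg.quartets d, ∃ X₃ ∈ Cfsg.quartets d, ∃ X₄ ∈ Cfsg.quartets d, (MulAction.orbit ↥(MulAction.stabilizer Cfsg.M24 d ⊓ MulAction.stabilizer Cfsg.M24 Q) X₁).ncard = 12 ∧ (MulAction.orbit ↥(MulAction.stabilizer Cfsg.M24 d ⊓ MulAction.stabilizer Cfsg.M24 Q) X₂).ncard = 27 ∧ (MulAction.orbit ↥(MulAction.stabilizer Cfsg.M24 d ⊓ MulAction.stabilizer Cfsg.M24 Q) X₃).ncard = 72 ∧ (MulAction.orbit ↥(MulAction.stabilizer Cfsg.M24 d ⊓ MulAction.stabilizer Cfsg.M24 Q) X₄).ncard = 108 ∧ Cfsg.quartets d = {Q} ∪ MulAction.orbit ↥(MulAction.stabilizer Cfsg.M24 d ⊓ MulAction.stabilizer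 Cfsg.M24 Q) X₁ ∪ MulAction.orbit ↥(MulAction.stabilizer Cfsg.M24 d ⊓ MulAction.stabilizer Cfsg.M24 Q) X₂ ∪ MulAction.orbit ↥(MulAction.stabilizer Cfsg.M24 d ⊓ MulAction.stabilizer Cfsg.M24 Q) X₃ ∪ MulAction.orbit ↥(MulAction.stabilizer Cfsg.M24 d ⊓ MulAction.stabilizer Cfsg.M24 Q) X₄ := by
  classical
  obtain ⟨x, hx, hxd, hxQ⟩ := exists_quartet_config hd hQ
  have hxinv : x⁻¹ ∈ M24 := M24.inv_mem hx
  have hXs : ∀ k ∈ ([0, 9, 4, 6, 10] : List ℕ), x • sxSet (baseL k) ∈ quartets d := by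
    intro k hk
    have := smul_quartet_mem hx (qSet_mem_quartets (qL_mem_ok (base_mem k hk).1))
    rwa [hxd] at this
  have hpull : ∀ X : Finset (Finset GolayPt), ty1 (sxSet q0L) (x⁻¹ • X) = ty1 Q X := by
    intro X
    rw [← ty1_smul x, smul_inv_smul, hxQ]
  have hback : ∀ X : Finset (Finset GolayPt), X ∈ quartets d → x⁻¹ • X ∈ quartets D0 := by
    intro X hX
    have := smul_quartet_mem hxinv hX
    rwa [← hxd, inv_smul_smul] at this
  have hcount : ∀ k : ℕ, {X : Finset (Finset GolayPt) | X ∈ quartets d ∧ ty1 Q X = k}.ncard =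
      (qL.filter (fun L => tyL L == k)).length := by
    intro k
    have himg : {X : Finset (Finset GolayPt) | X ∈ quartets d ∧ ty1 Q X = k} =
        (fun X => x • X) '' {X : Finset (Finset GolayPt) | X ∈ quartets D0 ∧
          ty1 (sxSet q0L) X = k} := by
      ext X
      constructor
      · rintro ⟨hX, hk⟩
        exact ⟨x⁻¹ • X, ⟨hback X hX, by rw [hpull]; exact hk⟩, smul_inv_smul x X⟩
      · rintro ⟨X0, ⟨hX0, hk⟩, rfl⟩
        refine ⟨?_, ?_⟩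
        · have := smul_quartet_mem hx hX0
          rwa [hxd] at this
        · rw [← hpull, inv_smul_smul]
          exact hk
    rw [himg, Set.ncard_image_of_injective _ (MulAction.injective x)]
    exact ncard_quartets_filter _ _ (fun L hL => by rw [ty1_qSet (qL_mem_ok hL)]; simp)
  have h9 : (9 : ℕ) ∈ ([0, 9, 4, 6, 10] : List ℕ) := by simp
  have h4 : (4 : ℕ) ∈ ([0, 9, 4, 6, 10] : List ℕ) := by simp
  have h6 : (6 : ℕ) ∈ ([0, 9, 4, 6, 10] : List ℕ) := by simp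
  have h10 : (10 : ℕ) ∈ ([0, 9, 4, 6, 10] : List ℕ) := by simp
  refine ⟨x • sxSet (baseL 9), hXs 9 h9, x • sxSet (baseL 4), hXs 4 h4, x • sxSet (baseL 6),
    hXs 6 h6, x • sxSet (baseL 10), hXs 10 h10, ?_, ?_, ?_, ?_, ?_⟩
  · rw [orbit_eq hx hxd hxQ 9 h9, hcount 9]
    exact count9
  · rw [orbit_eq hx hxd hxQ 4 h4, hcount 4]
    exact count4
  · rw [orbit_eq hx hxd hxQ 6 h6, hcount 6]
    exact count6
  · rw [orbit_eq hx hxd hxQ 10 h10, hcount 10]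
    exact count10
  · rw [orbit_eq hx hxd hxQ 9 h9, orbit_eq hx hxd hxQ 4 h4, orbit_eq hx hxd hxQ 6 h6,
      orbit_eq hx hxd hxQ 10 h10]
    ext X
    constructor
    · intro hX
      obtain ⟨L, hL, hXL⟩ := exists_qL (hback X hX)
      have hty : tyL L = ty1 Q X := by rw [← ty1_qSet (qL_mem_ok hL), ← hXL, hpull]
      have hmem := List.all_eq_true.mp ty_mem L hL
      rw [List.contains_iff_mem] at hmem
      simp only [List.mem_cons, List.not_mem_nil, or_false] at hmem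
      rcases hmem with h | h | h | h | h
      · have hz := List.all_eq_true.mp ty_zero L hL
        rw [h] at hz
        have hLq : L = q0L := by simpa using hz
        have hXQ : X = Q := by
          rw [← hxQ, ← hLq, ← hXL, smul_inv_smul]
        exact Or.inl (Or.inl (Or.inl (Or.inl hXQ)))
      · exact Or.inl (Or.inl (Or.inl (Or.inr ⟨hX, by rw [← hty]; exact h⟩)))
      · exact Or.inl (Or.inl (Or.inr ⟨hX, by rw [← hty]; exact h⟩))
      · exact Or.inl (Or.inr ⟨hX, by rw [← hty]; exact h⟩)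
      · exact Or.inr ⟨hX, by rw [← hty]; exact h⟩
    · rintro ((((h | h) | h) | h) | h)
      · have hXQ : X = Q := h
        rw [hXQ]
        exact hQ
      · exact h.1
      · exact h.1
      · exact h.1
      · exact h.1

end Cfsg.Agent.S1599
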