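import Cfsg.Statements.S1604
import Cfsg.Agent.S0367
import Cfsg.Agent.Lib.Helper96.M24Cert

set_option autoImplicit false
open scoped Pointwise
open Cfsg

namespace Cfsg.Agent.S1604

open Cfsg.Agent.Lib.Helper9 Cfsg.Agent.Lib.Helper96
open scoped Pointwise

/-- mask of the base octad -/
def A0 : ℕ := 8391797

/-- class representatives -/
def rep (m : ℕ) : ℕ :=
  if popc (A0 &&& m) == 2 then 8499969 else if popc (A0 &&& m) == 4 then 8398155 else 8391797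

/-- elements of the stabiliser of the base octad moving its points to the first base point -/
def pcert1 : List (ℕ × List ℕ) :=
  [(0, [23,16,10,15,11,2,4,7,22,3,5,0,9,12,19,18,8,13,21,1,14,20,17,6]),
  (2, [5,7,23,21,10,4,11,3,15,17,0,2,20,22,9,13,19,18,14,12,16,1,8,6]),
  (4, [6,22,5,14,23,2,10,17,8,21,11,4,9,18,19,15,1,16,13,3,7,12,20,0]),
  (5, [11,8,4,9,6,23,0,18,15,1,2,10,17,14,12,13,7,19,22,21,3,20,16,5]),
  (6, [0,1,11,15,4,5,23,17,20,14,2,6,21,9,3,13,8,18,12,22,19,7,16,10]),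
  (10, [0,18,2,13,6,4,11,9,20,22,23,5,14,16,15,3,1,8,12,21,19,7,17,10]),
  (11, [5,14,0,19,4,2,11,3,12,7,10,23,8,15,22,9,17,16,21,13,1,20,18,6]),
  (23, [0,1,2,3,4,5,6,7,8,9,10,11,12,13,14,15,16,17,18,19,20,21,22,23])]

/-- elements of the stabiliser of the base octad and the first base point moving the other points
of the octad to the second base point -/
def pcert2 : List (ℕ × List ℕ) :=
  [(0, [0,1,2,3,4,5,6,7,8,9,10,11,12,13,14,15,16,17,18,19,20,21,22,23]),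
  (2, [5,3,0,22,4,11,6,15,21,17,2,10,20,13,16,14,18,8,7,9,1,19,12,23]),
  (4, [4,13,6,12,0,2,11,16,1,17,10,5,14,15,7,22,20,8,19,3,18,9,21,23]),
  (5, [4,16,2,1,6,0,5,19,18,15,11,10,12,17,13,8,21,22,9,7,20,3,14,23]),
  (6, [2,12,6,9,4,11,0,3,22,19,5,10,14,7,21,17,13,15,1,16,18,20,8,23]),
  (10, [11,9,5,18,6,2,4,12,15,13,0,10,16,22,20,21,17,3,7,19,1,8,14,23]),
  (11, [11,7,10,12,4,2,5,9,1,13,6,0,22,3,19,14,18,20,17,16,21,15,8,23])]

/-- elements of the stabiliser of the base triple moving the octads through the two base points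
to the class representatives -/
def cert : List (ℕ × List ℕ) :=
  [(8499969, [0,1,2,3,4,5,6,7,8,9,10,11,12,13,14,15,16,17,18,19,20,21,22,23]),
  (8716939, [0,16,10,12,2,5,4,15,21,13,11,6,22,7,19,18,8,1,9,3,20,17,14,23]),
  (9048457, [0,18,6,16,11,4,2,9,15,1,5,10,12,21,19,22,3,8,7,13,20,14,17,23]),
  (9347075, [0,12,4,19,5,2,11,7,22,17,6,10,20,13,14,9,3,15,8,16,1,21,18,23]),
  (9465987, [0,16,4,14,10,5,11,12,1,18,6,2,13,15,9,19,17,20,22,7,8,21,3,23]),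
  (9748745, [0,14,2,16,11,10,5,3,9,19,4,6,18,20,8,12,21,7,13,1,15,17,22,23]),
  (10666625, [0,21,6,14,11,5,10,9,1,15,4,2,19,18,12,13,17,8,7,22,20,16,3,23]),
  (11100169, [0,19,2,13,4,5,11,17,22,1,6,10,3,12,8,21,15,20,18,9,7,16,14,23]),
  (11731203, [0,12,5,19,6,10,2,7,15,3,4,11,20,14,1,18,8,16,17,22,13,9,21,23]),
  (12325377, [0,19,5,22,11,4,2,20,3,16,10,6,9,18,21,1,7,17,15,13,12,8,14,23]),
  (13062145, [0,19,2,14,11,4,6,1,20,22,10,5,13,17,15,3,9,12,8,7,18,21,16,23]),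
  (13124355, [0,15,4,7,10,5,2,14,13,9,11,6,20,3,8,22,17,1,21,12,18,19,16,23]),
  (13771273, [0,20,5,16,2,4,10,7,18,15,11,6,1,13,14,17,19,9,22,3,12,21,8,23]),
  (14254209, [0,20,4,3,6,11,5,9,7,22,10,2,18,21,19,8,13,1,17,16,12,14,15,23]),
  (14716939, [0,15,11,16,5,6,10,19,3,22,4,2,13,17,1,9,20,14,7,21,18,8,12,23]),
  (14950785, [0,1,11,20,6,4,2,12,9,7,10,5,21,15,3,17,14,19,13,18,22,8,16,23]),
  (8398155, [0,1,2,3,4,5,6,7,8,9,10,11,12,13,14,15,16,17,18,19,20,21,22,23]),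
  (8412681, [0,19,2,13,4,5,11,17,22,1,6,10,3,12,8,21,15,20,18,9,7,16,14,23]),
  (8421811, [0,13,4,7,6,10,2,1,3,14,11,5,18,15,19,8,20,9,12,16,17,22,21,23]),
  (8431757, [0,18,10,1,5,4,2,3,12,16,11,6,15,8,14,13,9,21,7,22,20,19,17,23]),
  (8471941, [0,22,6,18,11,5,2,8,3,21,10,4,14,19,1,16,13,20,7,15,9,17,12,23]),
  (8505411, [0,13,5,18,11,4,6,17,14,19,2,10,22,9,3,8,1,12,15,16,20,7,21,23]),
  (8524371, [0,8,2,21,6,4,10,16,19,1,11,5,13,15,9,18,17,3,20,14,12,7,22,23]),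
  (8536111, [0,1,10,13,11,6,4,14,16,20,2,5,19,22,8,15,7,3,12,21,9,18,17,23]),
  (8546577, [0,15,4,7,10,5,2,14,13,9,11,6,20,3,8,22,17,1,21,12,18,19,16,23]),
  (8593633, [0,22,4,7,2,6,10,8,17,18,11,5,19,1,14,15,13,3,21,12,9,20,16,23]),
  (8619033, [0,20,4,3,6,11,5,9,7,22,10,2,18,21,19,8,13,1,17,16,12,14,15,23]),
  (8657159, [0,13,6,18,11,2,5,7,3,21,4,10,1,12,14,15,22,9,8,16,20,17,19,23]),
  (8663097, [0,14,4,3,10,6,2,19,17,16,5,11,8,1,22,20,21,7,13,12,9,15,18,23]),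
  (8675909, [0,22,6,12,2,11,10,21,20,3,4,5,18,8,13,14,15,19,1,9,7,16,17,23]),
  (8688833, [0,19,2,14,11,4,6,1,20,22,10,5,13,17,15,3,9,12,8,7,18,21,16,23]),
  (8783649, [0,19,11,22,5,6,2,9,3,8,10,4,20,18,12,15,14,13,1,17,21,16,7,23]),
  (8922769, [0,16,2,18,10,5,4,1,19,3,6,11,17,8,21,12,7,15,9,13,20,22,14,23]),
  (8946281, [0,22,5,1,4,6,10,14,7,8,11,2,12,17,18,3,19,20,9,13,16,15,21,23]),
  (8966165, [0,7,10,21,6,5,11,17,16,9,4,2,8,12,3,13,15,20,14,1,19,22,18,23]),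
  (8983587, [0,8,4,20,2,10,11,14,7,18,6,5,1,9,22,16,3,12,15,13,19,17,21,23]),
  (9112069, [0,16,10,12,2,5,4,15,21,13,11,6,22,7,19,18,8,1,9,3,20,17,14,23]),
  (9193633, [0,14,2,16,11,10,5,3,9,19,4,6,18,20,8,12,21,7,13,1,15,17,22,23]),
  (9240913, [0,19,5,22,10,4,6,9,13,14,11,2,20,12,21,7,1,17,8,3,18,15,16,23]),
  (9440193, [0,9,11,15,2,4,6,8,3,13,5,10,14,19,22,21,16,18,12,20,1,7,17,23]),
  (9471495, [0,13,10,21,5,2,4,19,20,3,6,11,18,15,17,8,14,12,16,9,1,7,22,23]),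
  (9506893, [0,17,6,8,11,2,10,19,9,7,5,4,1,18,15,16,3,22,12,14,13,20,21,23]),
  (9519665, [0,12,5,19,6,10,2,7,15,3,4,11,20,14,1,18,8,16,17,22,13,9,21,23]),
  (9607201, [0,20,2,16,11,6,4,7,9,19,5,10,1,14,12,8,22,3,15,18,13,17,21,23]),
  (9776129, [0,12,4,19,5,2,11,7,22,17,6,10,20,13,14,9,3,15,8,16,1,21,18,23]),
  (9830549, [0,9,10,18,6,5,11,3,15,7,4,2,20,22,17,19,16,8,1,14,13,12,21,23]),
  (9963547, [0,1,2,13,10,4,5,14,21,12,11,6,19,9,22,18,20,16,7,3,8,17,15,23]),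
  (9969957, [0,14,6,17,11,10,5,12,3,18,2,4,7,1,20,9,16,19,22,8,13,21,15,23]),
  (10110017, [0,19,2,20,11,5,10,18,14,21,6,4,15,17,13,7,9,8,12,3,1,22,16,23]),
  (10486557, [0,22,10,8,6,4,5,14,3,1,11,2,18,16,12,7,9,20,19,15,17,13,21,23]),
  (10496547, [0,13,4,9,2,10,5,12,21,8,11,6,20,1,7,17,16,19,15,18,14,3,22,23]),
  (10506593, [0,17,11,22,5,10,6,18,8,16,2,4,13,15,1,9,12,7,14,21,19,3,20,23]),
  (10557585, [0,18,4,7,6,2,5,13,14,22,11,10,1,19,17,9,8,20,21,12,15,3,16,23]),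
  (10630149, [0,20,10,22,2,4,5,7,18,19,6,11,13,1,12,17,15,8,16,21,14,3,9,23]),
  (10765331, [0,1,11,20,6,4,2,12,9,7,10,5,21,15,3,17,14,19,13,18,22,8,16,23]),
  (10846245, [0,18,6,15,11,10,5,20,16,14,2,4,19,21,12,13,3,7,8,22,9,1,17,23]),
  (10881097, [0,22,5,3,2,11,6,20,14,17,4,10,15,7,16,21,9,8,13,18,19,1,12,23]),
  (11010247, [0,13,6,19,2,11,10,3,7,21,4,5,17,9,22,15,14,12,16,8,20,1,18,23]),
  (11046145, [0,19,5,22,11,4,2,20,3,16,10,6,9,18,21,1,7,17,15,13,12,8,14,23]),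
  (11535529, [0,19,4,13,2,10,11,3,22,16,6,5,17,12,7,18,14,9,21,20,8,1,15,23]),
  (11575377, [0,21,11,14,10,2,6,17,12,9,5,4,16,8,20,13,15,22,7,18,1,3,19,23]),
  (12587685, [0,22,10,21,11,6,5,13,19,8,4,2,3,17,9,12,7,16,18,14,20,15,1,23]),
  (12599513, [0,18,11,1,10,2,6,3,22,7,5,4,15,20,8,19,16,12,9,21,14,17,13,23]),
  (12641313, [0,16,4,19,2,6,5,20,12,15,10,11,21,1,8,3,22,18,7,9,17,14,13,23]),
  (12650793, [0,22,5,1,11,6,2,12,13,21,4,10,14,16,18,19,3,20,15,7,17,9,8,23]),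
  (12656663, [0,1,10,22,6,11,2,15,16,21,4,5,19,13,17,14,3,7,12,20,18,9,8,23]),
  (12717187, [0,8,5,7,11,4,2,13,14,18,10,6,12,16,15,17,22,1,21,20,9,19,3,23]),
  (12747077, [0,21,6,14,11,5,10,9,1,15,4,2,19,18,12,13,17,8,7,22,20,16,3,23]),
  (12880401, [0,20,11,14,10,2,5,15,9,3,4,6,7,16,22,1,18,21,8,17,19,12,13,23]),
  (13121601, [0,20,5,16,2,4,10,7,18,15,11,6,1,13,14,17,19,9,22,3,12,21,8,23]),
  (13370381, [0,12,6,3,5,2,11,22,9,15,10,4,17,14,16,7,21,20,1,13,18,19,8,23]),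
  (13636881, [0,16,4,14,10,5,11,12,1,18,6,2,13,15,9,19,17,20,22,7,8,21,3,23]),
  (13893731, [0,3,4,17,5,10,6,7,21,19,11,2,9,18,16,20,12,15,8,14,1,22,13,23]),
  (14747201, [0,14,5,19,2,11,10,22,20,8,6,4,16,17,18,21,1,7,9,15,12,13,3,23]),
  (15335473, [0,22,5,14,6,10,11,16,21,12,2,4,19,20,15,9,18,13,17,3,7,8,1,23]),
  (15747077, [0,12,6,17,2,4,5,14,15,22,11,10,7,20,1,19,16,9,18,21,13,8,3,23]),
  (8391797, [0,1,2,3,4,5,6,7,8,9,10,11,12,13,14,15,16,17,18,19,20,21,22,23])]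

/-- octads through the base points -/
def condB (m : ℕ) : Bool := popc m == 8 && m.testBit 23 && m.testBit 0

theorem pcert1_ok : pcert1.all (ptEntryOK [] [A0] 23) = true := by decide +kernel

theorem pcover1_ok : ptCoverOK (fun j => A0.testBit j) pcert1 = true := by decide +kernel

theorem pcert2_ok : pcert2.all (ptEntryOK [23] [A0] 0) = true := by decide +kernel

theorem pcover2_ok : ptCoverOK (fun j => A0.testBit j && !(j == 23)) pcert2 = true := by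
  decide +kernel

theorem cert_ok : cert.all (entryOK [23, 0] [A0] rep) = true := by decide +kernel

theorem cover_ok : coverOK condB cert = true := by decide +kernel

theorem cnt2 :
    cnt (fun m => popc m == 8 && (m.testBit 23 && (m.testBit 0 && popc (A0 &&& m) == 2))) gB 0 = 16 := by
  decide +kernel

theorem cnt4 :
    cnt (fun m => popc m == 8 && (m.testBit 23 && (m.testBit 0 && popc (A0 &&& m) == 4))) gB 0 = 60 := by
  decide +kernel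

theorem A0_ok : inCode A0 = true ∧ popc A0 = 8 := by decide +kernel

theorem A0_mem : msk A0 ∈ Cfsg.octads := msk_mem_octads (mem_sums_of_inCode A0_ok.1) A0_ok.2

theorem base_count (k : ℕ) :
    {x : Finset Cfsg.GolayPt | x ∈ Cfsg.octads ∧ pt 23 ∈ x ∧ pt 0 ∈ x ∧ (msk A0 ∩ x).card = k}.ncard =
      cnt (fun m => popc m == 8 && (m.testBit 23 && (m.testBit 0 && popc (A0 &&& m) == k))) gB 0 := by
  apply ncard_octads_filter (fun x => pt 23 ∈ x ∧ pt 0 ∈ x ∧ (msk A0 ∩ x).card = k)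
  intro m hm h8
  rw [pt_mem_msk (by norm_num), pt_mem_msk (by norm_num), msk_inter, card_msk]
  simp

theorem base_trans (o' o'' : Finset Cfsg.GolayPt) (ho' : o' ∈ Cfsg.octads) (ho'' : o'' ∈ Cfsg.octads)
    (hp' : pt 23 ∈ o') (hp'' : pt 23 ∈ o'') (hq' : pt 0 ∈ o') (hq'' : pt 0 ∈ o'')
    (h : (msk A0 ∩ o').card = (msk A0 ∩ o'').card) :
    ∃ g ∈ Cfsg.M24, g (pt 23) = pt 23 ∧ g (pt 0) = pt 0 ∧ g • msk A0 = msk A0 ∧ g • o' = o'' := by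
  obtain ⟨m', hm', h8', rfl⟩ := (mem_octads_iff_msk o').mp ho'
  obtain ⟨m'', hm'', h8'', rfl⟩ := (mem_octads_iff_msk o'').mp ho''
  rw [pt_mem_msk (by norm_num)] at hp' hp'' hq' hq''
  rw [msk_inter, msk_inter, card_msk, card_msk] at h
  have c' : cert.any (fun e => e.1 == m') = true :=
    cover_sound cover_ok hm' (by simp [condB, h8', hp', hq'])
  have c'' : cert.any (fun e => e.1 == m'') = true :=
    cover_sound cover_ok hm'' (by simp [condB, h8'', hp'', hq''])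
  have hrep : rep m' = rep m'' := by simp only [rep, h]
  obtain ⟨g, hg, hgm⟩ := cert_trans cert_ok c' c'' hrep
  rw [mem_stabFM] at hg
  exact ⟨g, hg.1, hg.2.1 23 (by simp), hg.2.1 0 (by simp), hg.2.2 A0 (by simp), hgm⟩

theorem frame (p q : Cfsg.GolayPt) (hpq : p ≠ q) (o : Finset Cfsg.GolayPt) (ho : o ∈ Cfsg.octads)
    (hp : p ∈ o) (hq : q ∈ o) :
    ∃ h ∈ Cfsg.M24, h p = pt 23 ∧ h q = pt 0 ∧ h • o = msk A0 := by
  obtain ⟨g1, hg1⟩ := Cfsg.Agent.S0367.result o (msk A0) ho A0_mem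
  have hg1' : (g1 : Equiv.Perm Cfsg.GolayPt) • o = msk A0 := hg1
  have hp1 : (g1 : Equiv.Perm Cfsg.GolayPt) p ∈ msk A0 := by
    rw [← hg1', apply_mem_smul_iff]; exact hp
  have hq1 : (g1 : Equiv.Perm Cfsg.GolayPt) q ∈ msk A0 := by
    rw [← hg1', apply_mem_smul_iff]; exact hq
  rw [mem_msk] at hp1
  obtain ⟨τ1, hτ1, hτ1p⟩ := ptCert_sound pcert1_ok pcover1_ok _ hp1
  rw [mem_stabFM] at hτ1
  have hA1 : τ1 • msk A0 = msk A0 := hτ1.2.2 A0 (by simp)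
  have hq2 : τ1 ((g1 : Equiv.Perm Cfsg.GolayPt) q) ∈ msk A0 := by
    rw [← hA1, apply_mem_smul_iff]; exact hq1
  have hne : τ1 ((g1 : Equiv.Perm Cfsg.GolayPt) q) ≠ pt 23 := by
    rw [← hτ1p]
    intro heq
    exact hpq ((g1 : Equiv.Perm Cfsg.GolayPt).injective (τ1.injective heq)).symm
  have hidx : idx (τ1 ((g1 : Equiv.Perm Cfsg.GolayPt) q)) ≠ 23 := by
    intro h23
    apply hne
    rw [← pt_idx (τ1 ((g1 : Equiv.Perm Cfsg.GolayPt) q)), h23]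
  rw [mem_msk] at hq2
  obtain ⟨τ2, hτ2, hτ2q⟩ := ptCert_sound pcert2_ok pcover2_ok (τ1 ((g1 : Equiv.Perm Cfsg.GolayPt) q))
    (by simp [hq2, hidx])
  rw [mem_stabFM] at hτ2
  refine ⟨τ2 * (τ1 * g1), Cfsg.M24.mul_mem hτ2.1 (Cfsg.M24.mul_mem hτ1.1 g1.2), ?_, ?_, ?_⟩
  · rw [Equiv.Perm.mul_apply, Equiv.Perm.mul_apply, hτ1p]
    exact hτ2.2.1 23 (by simp)
  · rw [Equiv.Perm.mul_apply, Equiv.Perm.mul_apply, hτ2q]
  · rw [mul_smul, mul_smul, hg1', hA1, hτ2.2.2 A0 (by simp)]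

/-- A hexad stabiliser in the two-point stabiliser has orbits of sizes 1, 16, 60 on the 77 hexads: the 16 hexads disjoint from it and the 60 meeting it in two points. -/
theorem result (p q : Cfsg.GolayPt) (hpq : p ≠ q) (o o' o'' : Finset Cfsg.GolayPt) (ho : o ∈ Cfsg.octads) (ho' : o' ∈ Cfsg.octads) (ho'' : o'' ∈ Cfsg.octads) (hp : p ∈ o ∧ p ∈ o' ∧ p ∈ o'') (hq : q ∈ o ∧ q ∈ o' ∧ q ∈ o'') (h : (o ∩ o').card = (o ∩ o'').card) : {x : Finset Cfsg.GolayPt | x ∈ Cfsg.octads ∧ p ∈ x ∧ q ∈ x ∧ (o ∩ x).card = 2}.ncard = 16 ∧ {x : Finset Cfsg.GolayPt | x ∈ Cfsg.octads ∧ p ∈ x ∧ q ∈ x ∧ (o ∩ x).card = 4}.ncard = 60 ∧ ∃ g : Equiv.Perm Cfsg.GolayPt, g ∈ Cfsg.M24 ∧ g p = p ∧ g q = q ∧ g • o = o ∧ g • o' = o'' := by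
  obtain ⟨f, hf, hfp, hfq, hfo⟩ := frame p q hpq o ho hp.1 hq.1
  have key : ∀ k, {x : Finset Cfsg.GolayPt | x ∈ Cfsg.octads ∧ p ∈ x ∧ q ∈ x ∧ (o ∩ x).card = k}.ncard =
      {x : Finset Cfsg.GolayPt | x ∈ Cfsg.octads ∧ pt 23 ∈ x ∧ pt 0 ∈ x ∧ (msk A0 ∩ x).card = k}.ncard := by
    intro k
    apply ncard_eq_of_smul f
    intro b
    simp only [Set.mem_ofPred_eq]
    rw [smul_mem_octads_iff hf, ← hfp, apply_mem_smul_iff, ← hfq, apply_mem_smul_iff, ← hfo,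
      card_smul_inter]
  refine ⟨?_, ?_, ?_⟩
  · rw [key 2, base_count 2]; exact cnt2
  · rw [key 4, base_count 4]; exact cnt4
  · obtain ⟨g0, hg0, hg0p, hg0q, hg0o, hg0m⟩ := base_trans (f • o') (f • o'')
      ((smul_mem_octads_iff hf _).mpr ho') ((smul_mem_octads_iff hf _).mpr ho'')
      (by rw [← hfp, apply_mem_smul_iff]; exact hp.2.1) (by rw [← hfp, apply_mem_smul_iff]; exact hp.2.2)
      (by rw [← hfq, apply_mem_smul_iff]; exact hq.2.1) (by rw [← hfq, apply_mem_smul_iff]; exact hq.2.2)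
      (by rw [← hfo, card_smul_inter, card_smul_inter]; exact h)
    refine ⟨f⁻¹ * g0 * f, Cfsg.M24.mul_mem (Cfsg.M24.mul_mem (Cfsg.M24.inv_mem hf) hg0) hf, ?_, ?_, ?_, ?_⟩
    · rw [Equiv.Perm.mul_apply, Equiv.Perm.mul_apply, hfp, hg0p, ← hfp]; simp
    · rw [Equiv.Perm.mul_apply, Equiv.Perm.mul_apply, hfq, hg0q, ← hfq]; simp
    · rw [mul_smul, mul_smul, hfo, hg0o, ← hfo, inv_smul_smul]
    · rw [mul_smul, mul_smul, hg0m, inv_smul_smul]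

end Cfsg.Agent.S1604
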