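import Cfsg.Statements.S1605
import Cfsg.Agent.Lib.Helper9.M24Trans
import Cfsg.Agent.Lib.Helper96.M24Cert

set_option autoImplicit false
open scoped Pointwise
open Cfsg

namespace Cfsg.Agent.S1605

open Cfsg.Agent.Lib.Helper9 Cfsg.Agent.Lib.Helper96
open scoped Pointwise

/-- mask of the base octad -/
def A0 : ℕ := 8394986

/-- class representatives -/
def rep (m : ℕ) : ℕ :=
  if popc (A0 &&& m) == 2 then 8439632 else if popc (A0 &&& m) == 4 then 8401364 else 8394986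

/-- elements of the stabiliser of the two base points moving the octads through the first and
not the second to the base octad -/
def cert1 : List (ℕ × List ℕ) :=
  [(8394986, [0,1,2,3,4,5,6,7,8,9,10,11,12,13,14,15,16,17,18,19,20,21,22,23]),
  (8401364, [0,18,3,20,7,14,6,11,5,10,22,4,12,1,8,19,16,15,13,17,2,21,9,23]),
  (8407702, [0,5,3,4,6,18,17,1,22,7,21,11,16,19,12,20,15,13,8,2,10,14,9,23]),
  (8414120, [0,9,4,12,16,1,2,3,7,11,22,13,19,5,6,18,14,17,10,8,15,21,20,23]),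
  (8426796, [0,20,12,5,4,11,21,19,3,13,7,16,6,10,17,1,8,15,2,9,14,18,22,23]),
  (8436754, [0,1,2,16,11,4,10,20,19,17,5,6,7,12,13,3,8,22,21,15,14,9,18,23]),
  (8439632, [0,16,8,17,12,21,6,4,7,3,5,14,2,13,1,11,15,20,10,18,22,19,9,23]),
  (8455014, [0,11,12,13,4,6,1,2,5,3,9,17,20,21,22,10,7,19,15,8,14,18,16,23]),
  (8464984, [0,18,22,12,5,16,11,15,2,7,8,3,19,1,17,21,6,14,10,4,13,9,20,23]),
  (8474906, [0,7,14,12,3,13,21,15,11,10,16,19,5,4,1,2,6,20,18,17,8,9,22,23]),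
  (8484900, [0,9,6,4,19,1,2,14,8,16,21,7,11,3,12,22,5,17,20,13,10,18,15,23]),
  (8490656, [0,8,15,10,20,11,17,6,9,1,5,12,16,18,19,7,3,21,13,22,4,2,14,23]),
  (8521420, [0,21,1,5,18,9,3,12,20,6,7,16,17,10,13,19,14,11,8,15,2,22,4,23]),
  (8541360, [0,17,9,4,3,1,18,5,2,21,7,16,11,20,12,14,22,6,19,10,15,8,13,23]),
  (8555274, [0,1,15,5,19,4,2,20,3,6,14,12,21,17,8,11,18,7,22,10,16,9,13,23]),
  (8561204, [0,14,7,4,1,6,2,16,15,5,19,21,17,12,22,11,20,3,9,10,18,8,13,23]),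
  (8581192, [0,19,4,11,8,20,12,2,13,17,22,10,7,6,1,5,16,3,9,15,21,14,18,23]),
  (8592704, [0,20,21,13,22,15,1,16,7,18,12,3,5,14,4,19,11,6,10,17,9,8,2,23]),
  (8611330, [0,12,22,13,21,19,4,20,18,7,5,17,16,3,6,9,1,11,14,10,2,8,15,23]),
  (8622214, [0,1,3,14,19,2,10,6,21,16,18,22,12,4,17,7,11,5,15,8,9,13,20,23]),
  (8654232, [0,17,10,5,12,9,14,6,1,16,3,11,22,2,8,4,13,18,7,20,15,19,21,23]),
  (8660134, [0,12,5,4,14,3,17,11,9,16,1,2,22,6,13,10,21,18,7,15,19,20,8,23]),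
  (8683614, [0,1,6,7,3,19,5,20,4,14,15,9,17,8,21,11,13,2,12,18,16,22,10,23]),
  (8694112, [0,16,14,13,2,3,5,20,6,18,17,1,15,7,19,12,10,21,11,4,22,9,8,23]),
  (8704546, [0,3,22,15,20,12,10,2,16,7,4,8,5,17,1,6,13,21,11,18,14,19,9,23]),
  (8721940, [0,14,1,21,3,18,9,8,15,12,7,16,11,17,4,20,5,10,6,19,13,22,2,23]),
  (8733800, [0,17,14,5,4,3,7,15,16,20,6,22,18,13,1,10,11,2,12,21,19,9,8,23]),
  (8773776, [0,17,22,4,11,21,2,6,18,9,20,14,16,7,5,3,1,19,12,8,13,15,10,23]),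
  (8796800, [0,13,14,8,15,4,2,6,20,3,19,12,7,5,17,21,10,11,1,9,16,18,22,23]),
  (8798658, [0,1,16,9,8,18,6,11,12,13,4,19,10,17,7,2,21,3,5,14,22,15,20,23]),
  (8834052, [0,16,7,18,20,9,8,14,4,17,6,11,21,19,3,5,22,1,12,10,13,2,15,23]),
  (8849458, [0,6,18,15,1,12,2,9,17,19,8,11,21,22,10,4,5,7,3,14,16,13,20,23]),
  (8855820, [0,9,11,7,14,20,2,16,5,18,22,21,13,12,8,4,3,6,1,17,15,19,10,23]),
  (8919856, [0,20,17,21,3,1,2,4,11,6,14,5,12,22,8,19,13,16,15,7,10,18,9,23]),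
  (8925710, [0,1,11,3,8,19,15,14,22,5,21,10,7,12,20,9,2,4,17,6,13,16,18,23]),
  (8931660, [0,22,11,1,15,17,5,8,6,14,20,12,13,18,7,2,9,10,19,3,21,16,4,23]),
  (8937586, [0,12,21,16,5,7,3,22,2,18,20,10,13,6,11,9,14,4,17,1,19,15,8,23]),
  (8963210, [0,6,2,11,9,4,21,1,17,16,3,8,22,18,5,12,14,10,15,7,20,19,13,23]),
  (8978620, [0,4,7,1,3,5,21,12,18,9,10,20,2,14,15,13,6,8,17,11,19,16,22,23]),
  (8989058, [0,1,2,10,17,9,19,6,12,13,16,11,18,5,20,4,3,15,8,7,22,21,14,23]),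
  (8999616, [0,4,14,15,10,19,6,7,13,5,20,17,11,21,12,9,1,2,8,3,16,22,18,23]),
  (9020484, [0,8,1,17,13,20,12,2,19,15,7,14,9,3,21,5,6,16,22,11,4,18,10,23]),
  (9045270, [0,5,1,4,12,8,2,14,6,9,11,18,22,10,15,21,16,7,20,3,13,17,19,23]),
  (9055272, [0,17,18,3,19,11,14,16,2,10,5,7,20,1,21,9,15,6,4,12,8,22,13,23]),
  (9078992, [0,8,16,9,6,13,5,3,10,21,17,7,14,18,15,1,4,12,2,11,20,22,19,23]),
  (9158944, [0,18,9,16,17,3,20,21,11,2,13,22,4,10,1,6,5,7,15,12,14,19,8,23]),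
  (9178690, [0,7,4,17,10,2,5,8,16,3,6,11,21,13,18,14,19,20,12,1,22,15,9,23]),
  (9204992, [0,8,21,9,22,2,20,17,6,10,11,14,12,7,3,15,18,4,5,1,19,16,13,23]),
  (9208708, [0,4,12,22,2,10,17,6,5,7,21,13,18,19,8,11,14,20,3,1,16,9,15,23]),
  (9279496, [0,15,17,7,4,21,19,13,20,2,22,5,12,16,9,6,3,14,11,1,8,18,10,23]),
  (9310308, [0,22,11,17,9,1,5,8,19,2,21,13,12,4,10,14,15,7,6,3,20,16,18,23]),
  (9323032, [0,22,15,12,6,21,4,9,10,7,20,13,14,8,1,16,2,3,5,11,19,18,17,23]),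
  (9451104, [0,16,10,14,22,7,11,20,15,5,1,17,3,6,2,19,9,8,4,18,12,13,21,23]),
  (9456930, [0,6,16,14,4,11,21,10,5,20,12,7,13,8,1,2,19,15,17,22,3,9,18,23]),
  (9462812, [0,10,1,12,6,16,14,21,9,17,11,15,20,3,5,22,13,19,2,18,7,4,8,23]),
  (9474712, [0,18,9,11,6,22,10,5,20,7,16,21,12,13,4,1,14,15,19,17,3,8,2,23]),
  (9486564, [0,4,6,22,16,7,5,11,21,9,17,13,20,19,3,12,18,14,15,2,1,10,8,23]),
  (9503954, [0,7,4,20,12,18,3,6,10,8,5,13,19,21,2,15,11,17,9,14,1,22,16,23]),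
  (9537812, [0,8,12,22,11,20,15,9,6,19,17,5,21,2,4,7,1,10,14,16,3,13,18,23]),
  (9543722, [0,3,18,5,17,12,22,19,8,9,16,14,20,11,4,7,6,13,15,2,1,10,21,23]),
  (9568632, [0,16,20,6,5,12,11,10,1,22,15,17,8,14,2,19,9,3,21,13,7,18,4,23]),
  (9578566, [0,6,3,22,20,4,11,21,13,9,19,1,8,12,14,15,16,7,10,18,5,17,2,23]),
  (9589508, [0,9,11,14,19,10,15,4,7,5,21,8,6,17,12,13,16,3,20,22,1,18,2,23]),
  (9610624, [0,16,18,8,10,19,22,12,5,9,3,2,21,11,4,1,13,6,15,14,7,17,20,23]),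
  (9652360, [0,16,10,5,17,19,20,11,9,8,14,6,21,4,12,2,3,1,22,13,7,18,15,23]),
  (9701932, [0,21,3,1,2,12,16,13,17,5,20,6,18,8,22,10,9,15,11,19,7,14,4,23]),
  (9708306, [0,5,18,2,1,21,10,9,11,12,4,14,19,6,15,13,22,16,7,17,3,8,20,23]),
  (9721936, [0,20,18,16,12,10,7,4,22,14,15,6,1,19,11,8,9,13,5,2,3,17,21,23]),
  (9769376, [0,2,19,9,8,11,15,12,1,22,10,21,6,20,16,18,5,17,7,4,3,14,13,23]),
  (9835530, [0,6,10,1,14,13,22,9,18,4,5,15,7,20,8,2,17,3,12,16,11,21,19,23]),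
  (9929280, [0,17,2,20,13,18,6,15,19,5,14,9,16,10,4,1,12,7,11,22,3,8,21,23]),
  (9968772, [0,17,11,14,2,4,10,7,20,21,6,5,12,19,8,18,9,13,15,1,3,22,16,23]),
  (9998658, [0,5,13,19,10,20,11,21,7,4,18,16,6,14,8,3,22,2,17,1,12,9,15,23]),
  (10021376, [0,10,18,14,9,4,22,19,13,6,15,11,16,5,1,7,17,21,20,3,12,2,8,23]),
  (10028808, [0,15,20,1,14,9,4,21,7,12,5,16,19,8,10,17,3,2,22,6,11,13,18,23]),
  (10093218, [0,5,16,22,20,11,10,12,15,7,13,18,21,14,8,17,9,3,2,1,6,19,4,23]),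
  (10170384, [0,8,18,4,1,19,13,22,14,10,17,15,3,11,16,9,12,6,20,7,5,21,2,23]),
  (10232008, [0,16,18,11,15,20,3,7,22,4,8,14,17,5,13,19,21,10,12,1,6,9,2,23]),
  (10257456, [0,22,16,4,6,1,15,20,18,8,11,14,17,9,13,5,10,2,12,7,3,19,21,23]),
  (10305542, [0,6,12,18,17,10,2,20,14,22,13,21,8,9,7,19,1,15,5,3,11,16,4,23]),
  (10491778, [0,5,2,13,15,20,9,12,11,3,1,10,6,21,8,17,18,19,4,22,14,7,16,23]),
  (10513600, [0,21,13,2,8,10,1,11,19,20,6,3,16,7,12,15,22,17,14,9,4,5,18,23]),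
  (10525252, [0,22,3,17,19,9,6,14,8,12,15,5,11,2,20,1,18,13,16,4,21,7,10,23]),
  (10537016, [0,17,8,7,1,12,18,9,4,15,2,11,13,20,3,6,21,19,14,10,22,5,16,23]),
  (10543366, [0,11,1,17,2,10,20,4,5,14,15,9,21,12,7,6,8,22,13,19,16,3,18,23]),
  (10554382, [0,11,7,3,19,2,21,16,17,8,6,1,10,18,13,9,5,15,22,4,20,12,14,23]),
  (10560816, [0,17,22,15,1,6,20,9,12,21,5,18,16,11,2,4,7,8,14,13,19,3,10,23]),
  (10584520, [0,22,20,3,2,9,1,5,12,16,15,10,4,21,17,7,11,13,8,18,19,6,14,23]),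
  (10619300, [0,19,12,17,4,3,13,11,1,9,18,5,10,15,8,20,2,7,16,22,21,6,14,23]),
  (10625178, [0,3,17,11,1,21,8,12,22,10,16,20,13,5,18,15,14,6,9,19,4,7,2,23]),
  (10650722, [0,1,19,21,17,7,12,10,22,4,3,8,9,15,2,11,18,6,14,16,20,5,13,23]),
  (10687016, [0,15,20,5,10,11,18,8,21,7,16,13,6,2,17,19,1,12,4,14,22,3,9,23]),
  (10698836, [0,13,3,8,7,10,5,4,19,17,20,21,16,2,1,9,11,6,14,18,22,12,15,23]),
  (10748656, [0,8,22,18,6,7,3,11,20,1,14,4,10,15,21,9,2,13,12,16,19,5,17,23]),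
  (10768524, [0,16,6,3,4,20,13,5,14,22,21,15,1,19,12,9,8,2,11,17,10,7,18,23]),
  (10790408, [0,14,19,3,20,16,22,9,4,11,7,15,2,6,13,5,10,21,12,8,18,1,17,23]),
  (10825794, [0,11,22,18,16,9,6,19,17,14,21,10,1,3,4,2,5,15,7,13,20,12,8,23]),
  (10832640, [0,20,16,17,13,21,19,15,6,5,14,3,2,10,1,4,11,8,12,22,9,7,18,23]),
  (10916112, [0,18,17,2,5,4,19,13,3,14,22,21,11,10,20,12,9,7,6,15,16,1,8,23]),
  (11015256, [0,16,18,6,12,8,1,9,15,10,11,2,5,14,4,13,22,19,21,3,20,7,17,23]),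
  (11028004, [0,20,1,18,9,5,13,14,16,3,11,21,17,10,6,4,15,22,8,12,19,7,2,23]),
  (11055264, [0,8,16,19,21,6,22,5,14,13,9,10,7,1,4,12,20,18,2,11,15,3,17,23]),
  (11108882, [0,12,22,10,11,20,21,15,17,7,2,14,16,13,8,5,6,4,18,3,9,1,19,23]),
  (11150144, [0,19,17,13,16,18,12,8,6,5,22,14,10,11,15,4,2,1,20,3,21,7,9,23]),
  (11163650, [0,1,4,8,13,15,20,19,17,14,21,6,12,16,5,18,22,7,9,3,10,11,2,23]),
  (11272490, [0,7,9,6,17,11,2,22,1,4,19,16,18,21,8,10,14,20,3,5,13,12,15,23]),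
  (11282452, [0,19,1,8,7,9,16,10,4,15,18,3,20,6,14,13,21,22,11,12,17,5,2,23]),
  (11469952, [0,18,20,9,14,21,22,1,4,16,11,2,17,15,19,10,3,12,7,6,13,5,8,23]),
  (11538486, [0,1,3,8,7,6,22,21,19,17,14,4,11,9,13,2,16,10,20,15,5,12,18,23]),
  (11548936, [0,4,18,6,22,19,10,21,5,20,2,3,12,11,16,17,15,8,13,14,7,1,9,23]),
  (11551306, [0,3,19,7,14,8,1,20,18,5,9,22,2,16,12,15,21,17,10,4,6,11,13,23]),
  (11608708, [0,20,12,18,2,19,15,5,8,1,14,4,10,3,21,13,6,9,22,17,7,11,16,23]),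
  (11654144, [0,10,22,13,20,15,19,2,9,17,7,16,6,4,5,1,12,14,21,18,11,3,8,23]),
  (11669008, [0,9,21,18,3,20,10,22,17,11,5,7,14,8,19,13,4,12,15,16,1,6,2,23]),
  (11797828, [0,17,1,8,18,16,7,22,12,2,3,9,4,19,21,14,15,20,6,10,5,11,13,23]),
  (11831426, [0,6,9,22,14,21,17,12,8,19,15,7,20,2,16,5,13,10,11,4,3,1,18,23]),
  (11952160, [0,18,4,13,2,3,21,10,22,16,8,9,15,7,12,19,20,5,11,14,6,1,17,23]),
  (12075408, [0,14,10,22,7,13,9,12,1,17,19,4,21,8,5,20,16,15,18,3,6,11,2,23]),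
  (12126304, [0,13,17,4,18,11,6,16,20,2,21,3,9,15,8,10,1,14,22,5,12,7,19,23]),
  (12222476, [0,8,7,5,14,15,9,20,18,19,17,21,22,10,4,3,2,1,13,6,12,11,16,23]),
  (12584506, [0,5,22,12,11,7,10,14,19,6,1,17,4,16,9,18,8,2,21,15,20,13,3,23]),
  (12594948, [0,9,7,19,18,10,15,17,5,11,6,12,22,3,13,8,16,4,2,21,20,14,1,23]),
  (12604486, [0,7,1,8,16,15,11,22,20,21,6,14,12,9,5,19,18,4,13,10,2,17,3,23]),
  (12624578, [0,3,15,18,19,8,11,7,17,1,21,10,4,6,14,12,9,20,16,2,22,13,5,23]),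
  (12638592, [0,9,21,18,15,19,10,6,5,2,8,11,1,17,12,3,14,20,13,22,4,16,7,23]),
  (12661896, [0,9,21,3,13,2,10,6,14,19,12,17,7,11,8,18,5,4,15,22,20,16,1,23]),
  (12685424, [0,17,19,4,7,5,11,16,13,10,14,18,1,8,21,6,3,22,15,2,20,9,12,23]),
  (12698124, [0,4,1,11,17,19,18,21,22,7,15,13,2,9,3,5,12,20,16,14,8,10,6,23]),
  (12720156, [0,21,3,12,5,15,9,2,18,13,19,6,11,20,22,16,10,1,17,8,14,4,7,23]),
  (12726562, [0,6,2,10,20,5,8,22,1,9,13,19,7,3,4,18,16,11,21,17,14,15,12,23]),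
  (12733024, [0,13,2,15,20,3,12,17,9,1,16,6,14,8,11,22,19,7,18,21,4,10,5,23]),
  (12780432, [0,9,22,20,5,13,15,11,1,6,10,14,19,2,17,21,7,3,8,4,16,18,12,23]),
  (12849992, [0,2,19,11,14,16,3,10,7,5,13,21,1,15,9,8,4,17,6,22,20,18,12,23]),
  (12861748, [0,9,1,17,3,6,8,19,5,2,10,13,21,18,12,15,16,4,11,22,20,14,7,23]),
  (12871690, [0,3,4,6,18,22,15,10,19,8,9,11,20,5,7,2,13,14,1,17,21,16,12,23]),
  (12912836, [0,14,5,16,18,4,3,1,21,15,13,12,8,19,9,10,11,20,6,17,22,2,7,23]),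
  (12944642, [0,3,8,9,13,4,14,18,12,16,11,17,19,10,2,5,1,21,7,20,22,15,6,23]),
  (12985424, [0,18,16,17,1,14,11,10,21,8,6,15,2,3,22,4,9,12,5,13,19,20,7,23]),
  (13009064, [0,8,16,11,13,3,19,6,10,20,21,14,2,15,22,1,9,5,7,4,17,18,12,23]),
  (13108704, [0,13,17,9,2,3,5,7,11,19,1,14,8,21,22,15,10,20,4,6,18,16,12,23]),
  (13142054, [0,5,3,14,18,1,16,22,20,15,9,7,21,4,17,6,13,2,10,11,19,8,12,23]),
  (13148440, [0,10,16,11,5,20,9,21,3,8,14,4,17,12,13,7,19,18,15,6,2,22,1,23]),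
  (13192208, [0,16,20,19,12,15,17,8,9,18,11,5,14,2,7,13,6,22,4,1,10,21,3,23]),
  (13262980, [0,15,6,18,9,10,16,1,2,13,21,22,8,5,7,20,19,12,17,11,4,14,3,23]),
  (13276672, [0,13,21,17,20,2,14,19,8,1,11,22,7,4,10,5,15,12,18,3,9,16,6,23]),
  (13303882, [0,12,21,6,4,8,3,22,20,13,2,9,18,16,14,10,11,5,19,1,17,15,7,23]),
  (13373586, [0,12,15,19,1,2,20,11,18,13,9,10,7,21,4,8,22,14,6,5,16,17,3,23]),
  (13443616, [0,14,8,4,21,11,19,22,2,3,15,10,16,12,17,20,6,13,7,1,18,9,5,23]),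
  (13631886, [0,6,12,1,21,17,13,11,3,15,10,2,20,8,9,18,14,4,16,19,7,22,5,23]),
  (13641904, [0,2,14,13,3,6,4,12,16,21,22,7,8,1,18,20,17,9,10,15,11,19,5,23]),
  (13667400, [0,18,4,7,10,2,11,22,19,13,5,6,16,14,17,3,21,20,8,15,12,9,1,23]),
  (13703682, [0,3,10,19,20,18,16,15,14,6,13,11,12,21,22,8,5,2,9,4,1,17,7,23]),
  (13721920, [0,2,10,8,4,14,1,15,12,22,18,21,13,11,7,19,6,16,17,9,3,20,5,23]),
  (13811730, [0,3,4,18,6,13,15,10,8,19,20,21,9,14,12,1,22,5,2,17,11,16,7,23]),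
  (13829156, [0,2,7,9,13,12,20,17,10,19,1,14,8,15,22,21,11,5,16,18,6,4,3,23]),
  (13911680, [0,13,15,9,4,16,17,1,22,11,3,10,14,20,12,2,21,8,5,19,7,18,6,23]),
  (13938692, [0,2,6,22,10,17,14,13,21,16,20,19,7,11,15,12,4,8,1,18,3,9,5,23]),
  (14156372, [0,4,11,18,12,22,6,10,8,1,19,13,17,16,15,20,21,9,14,5,3,2,7,23]),
  (14176296, [0,9,13,11,10,5,22,17,18,16,15,14,6,4,1,8,19,21,2,3,12,20,7,23]),
  (14551296, [0,13,19,9,21,10,8,2,12,18,15,11,22,16,4,17,14,7,6,5,1,20,3,23]),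
  (14682450, [0,6,21,15,3,20,7,2,12,22,10,5,14,18,13,16,17,4,8,19,9,1,11,23]),
  (14688364, [0,13,6,7,19,5,3,8,2,21,15,9,14,11,17,20,22,16,18,10,4,1,12,23]),
  (14709264, [0,15,22,8,3,17,13,10,16,11,9,20,7,12,6,4,21,2,19,14,18,5,1,23]),
  (14714004, [0,15,1,10,5,9,21,3,19,16,11,13,18,8,20,6,4,2,17,22,14,12,7,23]),
  (14762146, [0,11,19,18,4,7,13,12,16,8,10,9,17,20,5,21,1,14,2,22,15,6,3,23]),
  (14828808, [0,16,18,3,4,9,22,14,5,13,11,15,2,8,7,20,19,1,21,17,10,12,6,23]),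
  (14919680, [0,19,17,16,8,2,15,13,20,21,22,6,10,7,9,5,3,11,14,18,4,1,12,23]),
  (14949408, [0,15,14,21,19,7,18,20,16,13,5,11,1,2,9,22,4,17,6,8,10,3,12,23]),
  (15073798, [0,3,5,16,13,22,15,9,17,7,10,14,2,4,8,20,18,11,1,19,21,6,12,23]),
  (15207048, [0,2,15,1,8,9,13,3,4,5,16,12,19,22,10,21,17,20,14,11,18,7,6,23]),
  (15274244, [0,2,5,19,14,20,9,22,11,18,16,4,6,17,8,21,3,13,10,12,15,7,1,23]),
  (15515712, [0,21,19,16,20,14,6,2,22,15,10,17,4,9,3,11,18,13,5,1,8,7,12,23]),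
  (15762208, [0,17,14,4,22,11,20,10,7,3,2,21,9,18,8,1,16,13,15,19,5,6,12,23]),
  (15864000, [0,22,18,21,14,13,6,5,10,4,9,2,3,16,8,15,17,7,19,20,11,1,12,23]),
  (16056344, [0,4,21,1,11,14,22,17,13,9,2,20,15,16,10,8,12,18,6,19,3,5,7,23]),
  (16262146, [0,11,22,14,10,21,16,8,15,13,6,9,18,1,2,19,17,20,4,3,12,5,7,23])]

/-- elements of the stabiliser of the two base points and the base octad moving the octads
through the first base point and not the second to the class representatives -/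
def cert2 : List (ℕ × List ℕ) :=
  [(8439632, [0,1,2,3,4,5,6,7,8,9,10,11,12,13,14,15,16,17,18,19,20,21,22,23]),
  (8561204, [0,3,15,5,10,6,12,1,13,14,18,7,11,4,19,8,17,9,2,21,20,22,16,23]),
  (8611330, [0,6,17,12,2,1,5,7,21,10,14,3,11,8,9,19,15,4,18,16,20,13,22,23]),
  (8721940, [0,12,4,11,8,7,5,3,17,14,15,1,6,20,16,19,10,21,9,18,2,13,22,23]),
  (8773776, [0,1,19,3,14,11,7,6,16,13,18,5,12,9,4,15,8,20,10,2,17,21,22,23]),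
  (8834052, [0,3,10,11,18,12,7,5,13,16,15,6,1,2,14,4,22,9,8,21,17,20,19,23]),
  (8855820, [0,12,10,6,22,7,1,5,9,21,17,11,3,4,18,2,8,15,14,19,13,16,20,23]),
  (9020484, [0,5,9,11,17,1,6,3,2,16,4,12,7,10,21,14,8,13,22,15,20,19,18,23]),
  (9045270, [0,6,9,5,14,3,11,7,4,16,10,12,1,2,19,22,13,15,17,8,21,20,18,23]),
  (9158944, [0,11,20,7,16,6,3,1,15,22,2,12,5,13,9,14,10,8,17,4,21,19,18,23]),
  (9204992, [0,5,21,1,16,11,7,3,8,17,4,12,6,15,9,22,2,13,14,10,19,20,18,23]),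
  (9208708, [0,7,15,3,20,11,12,6,8,14,17,5,1,19,2,9,22,13,4,10,21,18,16,23]),
  (9323032, [0,7,20,6,4,11,1,12,21,15,19,3,5,2,9,16,18,8,10,14,22,13,17,23]),
  (9462812, [0,5,9,6,10,3,12,7,21,16,14,11,1,8,15,20,17,19,13,2,4,22,18,23]),
  (9537812, [0,3,8,5,9,11,7,12,10,18,20,6,1,21,22,14,4,16,13,19,15,17,2,23]),
  (9589508, [0,5,8,1,19,7,3,11,14,9,17,12,6,2,4,18,13,15,21,16,10,22,20,23]),
  (9610624, [0,11,21,12,20,7,3,6,9,19,10,5,1,14,16,8,22,4,13,17,15,18,2,23]),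
  (9708306, [0,6,22,12,10,11,1,5,4,8,17,7,3,9,19,2,21,13,14,18,15,20,16,23]),
  (9929280, [0,1,21,5,17,11,6,7,22,4,18,3,12,20,13,10,8,9,15,2,14,19,16,23]),
  (10021376, [0,1,21,12,17,3,11,5,2,10,18,6,7,8,15,14,16,22,19,9,4,13,20,23]),
  (10028808, [0,5,16,6,21,7,11,3,10,9,4,12,1,2,17,20,15,13,19,8,14,22,18,23]),
  (10170384, [0,5,18,7,8,11,12,3,22,21,2,1,6,9,19,16,10,14,20,4,15,13,17,23]),
  (10257456, [0,7,16,5,15,6,11,12,18,2,14,1,3,19,17,10,22,13,9,4,8,21,20,23]),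
  (10305542, [0,6,4,1,13,12,5,11,22,16,18,3,7,20,9,19,15,17,14,10,8,2,21,23]),
  (10543366, [0,6,10,12,20,7,5,11,8,22,21,3,1,14,15,9,19,18,13,2,16,4,17,23]),
  (10560816, [0,3,17,11,4,6,12,7,14,13,9,1,5,10,21,22,15,18,2,19,20,8,16,23]),
  (10698836, [0,5,8,1,9,7,6,12,22,19,20,11,3,18,4,2,10,15,16,21,13,14,17,23]),
  (10790408, [0,3,16,6,21,12,7,1,22,10,4,11,5,14,2,15,13,20,8,18,17,9,19,23]),
  (10832640, [0,3,22,12,20,1,5,11,4,10,18,6,7,13,15,19,9,21,14,16,2,8,17,23]),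
  (10916112, [0,11,20,1,10,3,5,12,9,2,21,7,6,13,19,14,18,4,8,17,22,15,16,23]),
  (11028004, [0,7,15,12,16,6,1,5,13,9,14,11,3,20,10,17,22,18,2,4,21,8,19,23]),
  (11108882, [0,6,21,1,10,7,5,12,18,4,20,3,11,22,19,15,9,2,17,8,13,14,16,23]),
  (11150144, [0,11,2,1,20,12,6,5,15,9,16,3,7,14,18,17,21,8,13,4,19,10,22,23]),
  (11282452, [0,7,8,3,14,12,5,1,20,18,21,6,11,10,17,13,16,19,9,4,22,15,2,23]),
  (11469952, [0,7,22,11,21,1,3,6,2,20,15,12,5,13,17,19,8,10,9,4,16,14,18,23]),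
  (11608708, [0,12,4,5,20,3,1,6,16,14,19,11,7,10,18,2,8,13,21,17,15,9,22,23]),
  (11654144, [0,1,2,11,22,12,5,3,21,20,9,7,6,13,8,15,4,18,19,17,10,14,16,23]),
  (11669008, [0,5,16,3,15,11,1,12,17,4,14,6,7,2,22,20,18,8,13,19,9,10,21,23]),
  (11797828, [0,11,14,7,21,5,6,1,9,17,8,12,3,20,19,13,22,18,10,16,4,15,2,23]),
  (11952160, [0,11,20,7,18,6,1,3,17,2,22,5,12,10,9,21,13,8,15,19,14,4,16,23]),
  (12075408, [0,7,20,1,15,12,11,6,10,2,17,5,3,22,14,18,19,13,21,8,4,9,16,23]),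
  (12222476, [0,7,8,6,22,11,5,1,17,2,16,3,12,13,20,10,21,9,19,4,14,15,18,23]),
  (12594948, [0,3,4,11,17,1,12,5,14,8,9,6,7,10,20,2,16,19,22,18,21,13,15,23]),
  (12698124, [0,11,15,6,21,1,12,5,13,4,22,3,7,19,14,9,10,16,2,17,18,20,8,23]),
  (12780432, [0,3,2,1,9,5,12,6,15,10,22,7,11,21,17,19,8,14,13,16,18,20,4,23]),
  (12861748, [0,5,15,3,10,6,12,11,4,16,18,7,1,13,9,2,22,19,8,20,21,17,14,23]),
  (12944642, [0,6,20,5,13,1,12,3,8,19,14,7,11,21,18,10,15,22,9,16,17,2,4,23]),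
  (12985424, [0,7,19,12,9,3,6,1,18,20,15,5,11,10,17,16,13,8,14,2,22,21,4,23]),
  (13148440, [0,12,16,6,9,3,7,11,10,22,18,1,5,15,20,14,13,2,19,4,17,21,8,23]),
  (13192208, [0,11,17,5,4,12,1,7,21,19,9,6,3,13,15,16,14,20,18,10,2,22,8,23]),
  (13262980, [0,11,14,12,17,3,1,6,18,22,2,5,7,8,9,21,13,10,19,15,20,16,4,23]),
  (13276672, [0,11,13,5,20,1,7,3,19,8,14,12,6,18,21,4,16,9,22,15,17,2,10,23]),
  (13443616, [0,5,22,1,13,6,12,7,16,4,19,11,3,10,20,17,15,18,8,9,21,2,14,23]),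
  (13721920, [0,1,20,11,2,3,6,5,14,21,16,12,7,15,4,17,9,19,13,18,8,22,10,23]),
  (13811730, [0,6,13,1,4,3,5,7,22,2,18,12,11,20,8,14,21,10,19,17,9,16,15,23]),
  (13829156, [0,5,10,11,18,6,12,1,20,13,15,7,3,17,2,22,9,4,21,19,14,16,8,23]),
  (13911680, [0,11,21,7,22,12,3,6,13,8,15,1,5,2,4,19,20,16,9,17,10,18,14,23]),
  (13938692, [0,12,8,7,22,3,11,1,21,13,16,5,6,4,17,15,20,19,14,2,9,18,10,23]),
  (14156372, [0,11,4,12,14,7,6,5,19,15,22,3,1,13,21,18,17,16,20,10,9,2,8,23]),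
  (14551296, [0,7,18,3,22,1,5,11,10,2,20,6,12,21,16,17,13,9,15,14,4,19,8,23]),
  (14709264, [0,3,16,5,4,11,7,1,20,14,21,12,6,10,8,19,17,22,2,18,13,9,15,23]),
  (14714004, [0,7,14,1,10,12,3,6,18,21,9,11,5,16,13,15,2,20,19,22,17,4,8,23]),
  (14828808, [0,7,18,6,2,12,11,5,9,13,8,1,3,20,10,22,17,15,16,19,21,14,4,23]),
  (14919680, [0,12,16,11,13,7,5,1,20,18,17,6,3,15,21,14,8,4,2,19,22,10,9,23]),
  (15073798, [0,6,9,5,18,3,7,11,17,10,16,1,12,13,19,21,2,15,4,20,22,8,14,23]),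
  (15274244, [0,5,8,11,17,3,7,1,14,13,19,12,6,18,22,2,9,16,21,15,20,4,10,23]),
  (15515712, [0,7,22,5,19,12,6,3,17,21,13,11,1,16,9,8,20,2,10,14,18,4,15,23]),
  (15762208, [0,11,18,3,20,6,5,7,8,15,22,1,12,16,21,9,13,17,2,19,4,14,10,23]),
  (16056344, [0,5,20,6,14,1,7,3,17,19,13,12,11,16,22,2,9,18,15,21,8,10,4,23]),
  (16262146, [0,6,20,3,13,12,7,11,22,17,14,1,5,4,2,19,21,16,18,8,10,9,15,23]),
  (8401364, [0,1,2,3,4,5,6,7,8,9,10,11,12,13,14,15,16,17,18,19,20,21,22,23]),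
  (8407702, [0,6,8,3,4,1,5,12,9,2,15,7,11,19,13,17,16,10,20,14,22,21,18,23]),
  (8414120, [0,11,21,7,22,12,3,6,13,8,15,1,5,2,4,19,20,16,9,17,10,18,14,23]),
  (8426796, [0,1,4,6,18,12,3,11,8,16,13,5,7,10,17,2,14,9,15,20,22,19,21,23]),
  (8436754, [0,7,10,1,2,11,5,3,15,9,4,6,12,8,17,13,16,22,18,21,19,20,14,23]),
  (8455014, [0,6,4,3,21,7,12,1,2,8,16,11,5,20,22,19,13,14,10,17,18,9,15,23]),
  (8464984, [0,1,22,12,4,3,7,11,20,8,14,6,5,13,21,19,2,15,18,17,9,10,16,23]),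
  (8474906, [0,12,19,7,4,3,1,5,13,9,20,11,6,14,8,18,2,17,22,16,21,10,15,23]),
  (8484900, [0,1,2,11,22,12,5,3,21,20,9,7,6,13,8,15,4,18,19,17,10,14,16,23]),
  (8490656, [0,5,20,3,9,7,11,12,22,13,8,6,1,16,10,2,4,21,18,15,19,17,14,23]),
  (8521420, [0,3,8,6,18,1,12,7,16,4,2,11,5,20,10,9,14,13,22,17,21,19,15,23]),
  (8541360, [0,3,15,11,4,7,5,6,22,18,8,1,12,16,2,14,17,13,21,19,20,9,10,23]),
  (8555274, [0,6,22,12,10,11,1,5,4,8,17,7,3,9,19,2,21,13,14,18,15,20,16,23]),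
  (8581192, [0,1,18,12,21,11,6,5,9,19,17,3,7,4,8,13,10,2,16,22,15,20,14,23]),
  (8592704, [0,5,21,1,16,11,7,3,8,17,4,12,6,15,9,22,2,13,14,10,19,20,18,23]),
  (8622214, [0,12,4,5,20,3,1,6,16,14,19,11,7,10,18,2,8,13,21,17,15,9,22,23]),
  (8654232, [0,5,18,6,8,1,11,7,4,16,2,12,3,10,20,15,17,22,13,14,21,19,9,23]),
  (8660134, [0,12,4,11,15,7,1,6,18,22,8,5,3,2,16,10,19,21,13,17,20,9,14,23]),
  (8683614, [0,7,13,12,8,1,6,5,15,9,10,3,11,18,14,4,22,20,2,17,19,16,21,23]),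
  (8694112, [0,3,10,11,18,12,7,5,13,16,15,6,1,2,14,4,22,9,8,21,17,20,19,23]),
  (8704546, [0,7,14,1,9,12,11,5,22,8,10,3,6,17,13,2,15,20,4,18,16,19,21,23]),
  (8733800, [0,3,16,6,21,12,7,1,22,10,4,11,5,14,2,15,13,20,8,18,17,9,19,23]),
  (8796800, [0,5,16,3,15,11,1,12,17,4,14,6,7,2,22,20,18,8,13,19,9,10,21,23]),
  (8798658, [0,6,10,3,17,1,7,12,4,16,22,11,5,14,8,9,20,13,2,18,21,15,19,23]),
  (8849458, [0,12,16,11,13,7,5,1,20,18,17,6,3,15,21,14,8,4,2,19,22,10,9,23]),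
  (8919856, [0,1,17,11,8,7,3,5,4,13,19,12,6,20,22,15,21,10,9,2,18,14,16,23]),
  (8925710, [0,7,8,6,22,11,5,1,17,2,16,3,12,13,20,10,21,9,19,4,14,15,18,23]),
  (8931660, [0,3,13,12,16,5,7,11,8,9,17,6,1,19,4,22,14,18,10,2,20,15,21,23]),
  (8937586, [0,6,20,3,13,12,7,11,22,17,14,1,5,4,2,19,21,16,18,8,10,9,15,23]),
  (8963210, [0,12,22,6,16,11,5,7,21,10,8,3,1,14,13,4,18,19,15,2,20,9,17,23]),
  (8978620, [0,11,13,6,4,12,3,7,21,20,18,5,1,17,22,16,8,19,9,2,10,15,14,23]),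
  (8989058, [0,6,9,5,14,3,11,7,4,16,10,12,1,2,19,22,13,15,17,8,21,20,18,23]),
  (8999616, [0,1,19,3,14,11,7,6,16,13,18,5,12,9,4,15,8,20,10,2,17,21,22,23]),
  (9055272, [0,5,16,6,21,7,11,3,10,9,4,12,1,2,17,20,15,13,19,8,14,22,18,23]),
  (9078992, [0,1,19,11,8,3,7,6,10,15,17,12,5,22,20,13,14,4,16,2,18,21,9,23]),
  (9178690, [0,12,9,3,20,11,7,5,17,13,8,6,1,19,10,15,18,14,4,2,16,22,21,23]),
  (9279496, [0,5,16,12,14,1,11,3,17,18,15,6,7,20,10,2,4,19,13,8,21,22,9,23]),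
  (9310308, [0,11,2,1,20,12,6,5,15,9,16,3,7,14,18,17,21,8,13,4,19,10,22,23]),
  (9451104, [0,3,9,5,17,6,12,11,18,8,4,1,7,13,15,21,22,19,16,14,2,10,20,23]),
  (9456930, [0,12,22,5,14,7,3,1,13,10,4,6,11,18,2,20,16,9,19,21,8,15,17,23]),
  (9474712, [0,11,14,12,2,3,5,7,15,4,17,1,6,20,9,13,21,10,16,18,8,19,22,23]),
  (9486564, [0,5,8,1,9,7,6,12,22,19,20,11,3,18,4,2,10,15,16,21,13,14,17,23]),
  (9503954, [0,12,15,1,2,3,7,6,20,9,13,11,5,14,21,16,4,22,17,18,8,10,19,23]),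
  (9543722, [0,12,10,6,22,7,1,5,9,21,17,11,3,4,18,2,8,15,14,19,13,16,20,23]),
  (9568632, [0,5,16,6,4,7,12,1,8,18,21,11,3,14,17,15,20,13,22,10,2,19,9,23]),
  (9578566, [0,7,4,5,17,1,12,11,22,19,9,6,3,2,15,10,18,8,14,16,13,21,20,23]),
  (9652360, [0,3,10,6,16,1,5,7,9,22,19,12,11,15,13,18,4,8,14,20,2,21,17,23]),
  (9701932, [0,1,4,6,21,12,11,3,15,13,16,7,5,14,17,22,10,9,8,19,2,20,18,23]),
  (9721936, [0,3,16,5,4,11,7,1,20,14,21,12,6,10,8,19,17,22,2,18,13,9,15,23]),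
  (9769376, [0,11,18,3,20,6,5,7,8,15,22,1,12,16,21,9,13,17,2,19,4,14,10,23]),
  (9835530, [0,12,20,7,19,1,11,5,16,22,4,3,6,21,14,10,9,13,2,17,8,15,18,23]),
  (9968772, [0,5,8,3,18,11,1,7,14,20,2,12,6,17,16,19,10,22,21,4,13,15,9,23]),
  (9998658, [0,7,22,11,15,1,12,5,4,18,21,3,6,16,17,8,19,10,14,2,13,9,20,23]),
  (10093218, [0,7,20,1,15,12,11,6,10,2,17,5,3,22,14,18,19,13,21,8,4,9,16,23]),
  (10232008, [0,5,9,6,10,3,12,7,21,16,14,11,1,8,15,20,17,19,13,2,4,22,18,23]),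
  (10491778, [0,7,9,3,21,1,11,6,2,4,13,5,12,15,18,19,14,16,22,20,10,8,17,23]),
  (10513600, [0,11,21,1,14,5,12,7,18,10,8,6,3,2,13,19,22,9,17,16,15,4,20,23]),
  (10525252, [0,3,4,11,17,1,12,5,14,8,9,6,7,10,20,2,16,19,22,18,21,13,15,23]),
  (10537016, [0,5,22,7,13,12,11,3,18,21,19,6,1,14,2,4,10,9,20,16,17,8,15,23]),
  (10554382, [0,6,2,12,15,3,11,5,19,14,13,7,1,22,20,9,8,16,21,10,18,4,17,23]),
  (10584520, [0,11,22,7,18,1,6,12,8,21,20,5,3,9,10,2,4,17,16,19,14,13,15,23]),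
  (10619300, [0,1,8,5,19,7,3,6,2,20,17,12,11,14,15,21,22,4,18,10,16,13,9,23]),
  (10625178, [0,6,17,12,2,1,5,7,21,10,14,3,11,8,9,19,15,4,18,16,20,13,22,23]),
  (10650722, [0,7,22,5,19,12,6,3,17,21,13,11,1,16,9,8,20,2,10,14,18,4,15,23]),
  (10687016, [0,11,9,6,18,7,1,5,14,2,16,3,12,15,20,19,4,8,10,21,17,13,22,23]),
  (10748656, [0,3,17,11,4,6,12,7,14,13,9,1,5,10,21,22,15,18,2,19,20,8,16,23]),
  (10768524, [0,11,2,6,14,5,3,7,18,9,17,1,12,21,4,19,20,10,8,15,16,13,22,23]),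
  (10825794, [0,6,9,5,18,3,7,11,17,10,16,1,12,13,19,21,2,15,4,20,22,8,14,23]),
  (11015256, [0,5,18,7,8,11,12,3,22,21,2,1,6,9,19,16,10,14,20,4,15,13,17,23]),
  (11055264, [0,11,18,5,16,7,1,12,21,15,9,3,6,13,19,4,20,14,17,8,22,2,10,23]),
  (11163650, [0,6,10,1,9,3,11,5,15,20,14,12,7,16,13,19,22,8,18,4,17,2,21,23]),
  (11272490, [0,6,10,12,20,7,5,11,8,22,21,3,1,14,15,9,19,18,13,2,16,4,17,23]),
  (11538486, [0,6,4,1,13,12,5,11,22,16,18,3,7,20,9,19,15,17,14,10,8,2,21,23]),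
  (11548936, [0,3,22,12,20,1,5,11,4,10,18,6,7,13,15,19,9,21,14,16,2,8,17,23]),
  (11551306, [0,12,22,6,17,11,7,5,15,8,10,1,3,18,13,20,14,19,21,9,4,2,16,23]),
  (11831426, [0,12,21,1,20,3,5,6,16,17,10,7,11,19,22,2,9,15,4,14,13,8,18,23]),
  (12126304, [0,3,15,1,10,12,7,11,9,20,18,6,5,16,22,14,4,21,19,13,8,2,17,23]),
  (12584506, [0,7,18,6,2,12,11,5,9,13,8,1,3,20,10,22,17,15,16,19,21,14,4,23]),
  (12604486, [0,6,4,11,15,5,7,3,9,18,8,1,12,20,2,19,21,10,17,14,16,22,13,23]),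
  (12624578, [0,7,10,1,9,11,12,6,20,2,14,3,5,13,17,8,19,22,21,18,16,15,4,23]),
  (12638592, [0,3,20,1,15,11,5,7,2,9,17,12,6,14,4,13,18,19,16,21,22,10,8,23]),
  (12661896, [0,11,14,12,17,3,1,6,18,22,2,5,7,8,9,21,13,10,19,15,20,16,4,23]),
  (12685424, [0,5,20,1,2,6,12,11,10,9,16,3,7,19,18,4,13,22,21,17,14,15,8,23]),
  (12720156, [0,3,8,6,2,1,11,5,17,15,18,12,7,21,10,14,9,13,19,16,20,22,4,23]),
  (12726562, [0,7,14,3,16,6,11,5,13,21,15,1,12,2,22,17,10,4,20,18,9,19,8,23]),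
  (12733024, [0,5,10,11,18,6,12,1,20,13,15,7,3,17,2,22,9,4,21,19,14,16,8,23]),
  (12849992, [0,11,15,6,21,1,12,5,13,4,22,3,7,19,14,9,10,16,2,17,18,20,8,23]),
  (12871690, [0,7,20,12,18,1,5,3,9,19,22,6,11,2,13,16,17,14,8,10,15,21,4,23]),
  (12912836, [0,3,8,5,9,11,7,12,10,18,20,6,1,21,22,14,4,16,13,19,15,17,2,23]),
  (13009064, [0,1,14,7,9,12,11,6,17,21,10,3,5,22,20,4,19,13,2,16,18,15,8,23]),
  (13108704, [0,5,14,11,22,7,6,12,2,20,4,3,1,10,19,9,15,18,17,8,16,21,13,23]),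
  (13142054, [0,7,8,3,14,12,5,1,20,18,21,6,11,10,17,13,16,19,9,4,22,15,2,23]),
  (13303882, [0,7,19,12,9,3,6,1,18,20,15,5,11,10,17,16,13,8,14,2,22,21,4,23]),
  (13373586, [0,12,19,5,4,1,11,6,17,21,20,3,7,15,10,9,14,16,8,13,18,22,2,23]),
  (13631886, [0,7,4,6,19,3,11,12,8,18,20,1,5,9,22,17,10,14,15,21,2,16,13,23]),
  (13641904, [0,11,17,5,4,12,1,7,21,19,9,6,3,13,15,16,14,20,18,10,2,22,8,23]),
  (13667400, [0,11,14,7,21,5,6,1,9,17,8,12,3,20,19,13,22,18,10,16,4,15,2,23]),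
  (13703682, [0,6,15,3,20,5,11,1,18,8,17,12,7,21,19,22,13,9,10,16,2,14,4,23]),
  (14176296, [0,11,16,12,18,7,3,5,14,17,9,1,6,10,4,19,20,21,15,8,2,22,13,23]),
  (14682450, [0,7,14,11,8,5,12,1,4,17,21,6,3,16,18,15,10,19,22,20,9,13,2,23]),
  (14688364, [0,11,4,12,14,7,6,5,19,15,22,3,1,13,21,18,17,16,20,10,9,2,8,23]),
  (14762146, [0,7,14,1,10,12,3,6,18,21,9,11,5,16,13,15,2,20,19,22,17,4,8,23]),
  (14949408, [0,1,19,5,22,12,11,3,21,17,13,6,7,9,16,15,14,10,2,20,18,4,8,23]),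
  (15207048, [0,11,15,12,19,5,3,7,14,4,9,6,1,10,17,18,21,20,16,13,22,2,8,23]),
  (15864000, [0,5,17,3,22,1,7,6,20,9,10,11,12,21,14,18,19,2,15,16,8,13,4,23]),
  (8394986, [0,1,2,3,4,5,6,7,8,9,10,11,12,13,14,15,16,17,18,19,20,21,22,23])]

/-- octads through the first base point and not the second -/
def condB (m : ℕ) : Bool := popc m == 8 && m.testBit 23 && !m.testBit 0

theorem cert1_ok : cert1.all (entryOK [23, 0] [] (fun _ => A0)) = true := by decide +kernel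

theorem cover1_ok : coverOK condB cert1 = true := by decide +kernel

theorem cert2_ok : cert2.all (entryOK [23, 0] [A0] rep) = true := by decide +kernel

theorem cover2_ok : coverOK condB cert2 = true := by decide +kernel

theorem cnt_all : cnt (fun m => popc m == 8 && (m.testBit 23 && !m.testBit 0)) gB 0 = 176 := by
  decide +kernel

theorem cnt2 :
    cnt (fun m => popc m == 8 && (m.testBit 23 && (!m.testBit 0 && popc (A0 &&& m) == 2))) gB 0 = 70 := by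
  decide +kernel

theorem cnt4 :
    cnt (fun m => popc m == 8 && (m.testBit 23 && (!m.testBit 0 && popc (A0 &&& m) == 4))) gB 0 = 105 := by
  decide +kernel

theorem A0_ok : inCode A0 = true ∧ popc A0 = 8 ∧ A0.testBit 23 = true ∧ A0.testBit 0 = false := by
  decide +kernel

theorem A0_mem : msk A0 ∈ Cfsg.octads := msk_mem_octads (mem_sums_of_inCode A0_ok.1) A0_ok.2.1

theorem base_count_all :
    {x : Finset Cfsg.GolayPt | x ∈ Cfsg.octads ∧ pt 23 ∈ x ∧ pt 0 ∉ x}.ncard =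
      cnt (fun m => popc m == 8 && (m.testBit 23 && !m.testBit 0)) gB 0 := by
  apply ncard_octads_filter (fun x => pt 23 ∈ x ∧ pt 0 ∉ x)
  intro m hm h8
  rw [pt_mem_msk (by norm_num), pt_mem_msk (by norm_num)]
  simp

theorem base_count (k : ℕ) :
    {x : Finset Cfsg.GolayPt | x ∈ Cfsg.octads ∧ pt 23 ∈ x ∧ pt 0 ∉ x ∧ (msk A0 ∩ x).card = k}.ncard =
      cnt (fun m => popc m == 8 && (m.testBit 23 && (!m.testBit 0 && popc (A0 &&& m) == k))) gB 0 := by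
  apply ncard_octads_filter (fun x => pt 23 ∈ x ∧ pt 0 ∉ x ∧ (msk A0 ∩ x).card = k)
  intro m hm h8
  rw [pt_mem_msk (by norm_num), pt_mem_msk (by norm_num), msk_inter, card_msk]
  simp

theorem base_trans1 (o o' : Finset Cfsg.GolayPt) (ho : o ∈ Cfsg.octads) (ho' : o' ∈ Cfsg.octads)
    (hp : pt 23 ∈ o) (hp' : pt 23 ∈ o') (hq : pt 0 ∉ o) (hq' : pt 0 ∉ o') :
    ∃ g ∈ Cfsg.M24, g (pt 23) = pt 23 ∧ g (pt 0) = pt 0 ∧ g • o = o' := by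
  obtain ⟨m, hm, h8, rfl⟩ := (mem_octads_iff_msk o).mp ho
  obtain ⟨m', hm', h8', rfl⟩ := (mem_octads_iff_msk o').mp ho'
  rw [pt_mem_msk (by norm_num)] at hp hp' hq hq'
  have c : cert1.any (fun e => e.1 == m) = true :=
    cover_sound cover1_ok hm (by simp [condB, h8, hp, hq])
  have c' : cert1.any (fun e => e.1 == m') = true :=
    cover_sound cover1_ok hm' (by simp [condB, h8', hp', hq'])
  obtain ⟨g, hg, hgm⟩ := cert_trans cert1_ok c c' rfl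
  rw [mem_stabFM] at hg
  exact ⟨g, hg.1, hg.2.1 23 (by simp), hg.2.1 0 (by simp), hgm⟩

theorem base_trans2 (o' o'' : Finset Cfsg.GolayPt) (ho' : o' ∈ Cfsg.octads) (ho'' : o'' ∈ Cfsg.octads)
    (hp' : pt 23 ∈ o') (hp'' : pt 23 ∈ o'') (hq' : pt 0 ∉ o') (hq'' : pt 0 ∉ o'')
    (h : (msk A0 ∩ o').card = (msk A0 ∩ o'').card) :
    ∃ g ∈ Cfsg.M24, g (pt 23) = pt 23 ∧ g (pt 0) = pt 0 ∧ g • msk A0 = msk A0 ∧ g • o' = o'' := by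
  obtain ⟨m', hm', h8', rfl⟩ := (mem_octads_iff_msk o').mp ho'
  obtain ⟨m'', hm'', h8'', rfl⟩ := (mem_octads_iff_msk o'').mp ho''
  rw [pt_mem_msk (by norm_num)] at hp' hp'' hq' hq''
  rw [msk_inter, msk_inter, card_msk, card_msk] at h
  have c' : cert2.any (fun e => e.1 == m') = true :=
    cover_sound cover2_ok hm' (by simp [condB, h8', hp', hq'])
  have c'' : cert2.any (fun e => e.1 == m'') = true :=
    cover_sound cover2_ok hm'' (by simp [condB, h8'', hp'', hq''])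
  have hrep : rep m' = rep m'' := by simp only [rep, h]
  obtain ⟨g, hg, hgm⟩ := cert_trans cert2_ok c' c'' hrep
  rw [mem_stabFM] at hg
  exact ⟨g, hg.1, hg.2.1 23 (by simp), hg.2.1 0 (by simp), hg.2.2 A0 (by simp), hgm⟩

/-- The two-point stabiliser acts on the 176 octads through the first point avoiding the second with rank 3 and subdegrees 1, 70, 105 (intersections 8, 2, 4). -/
theorem result (p q : Cfsg.GolayPt) (hpq : p ≠ q) : {x : Finset Cfsg.GolayPt | (x ∈ Cfsg.octads ∧ p ∈ x ∧ q ∉ x)}.ncard = 176 ∧ (∀ o o' : Finset Cfsg.GolayPt, (o ∈ Cfsg.octads ∧ p ∈ o ∧ q ∉ o) → (o' ∈ Cfsg.octads ∧ p ∈ o' ∧ q ∉ o') → ∃ g : Equiv.Perm Cfsg.GolayPt, g ∈ Cfsg.M24 ∧ g p = p ∧ g q = q ∧ g • o = o') ∧ ∀ o : Finset Cfsg.GolayPt, (o ∈ Cfsg.octads ∧ p ∈ o ∧ q ∉ o) → {x : Finset Cfsg.GolayPt | (x ∈ Cfsg.octads ∧ p ∈ x ∧ q ∉ x) ∧ (o ∩ x).card = 2}.ncard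 = 70 ∧ {x : Finset Cfsg.GolayPt | (x ∈ Cfsg.octads ∧ p ∈ x ∧ q ∉ x) ∧ (o ∩ x).card = 4}.ncard = 105 ∧ ∀ o' o'' : Finset Cfsg.GolayPt, (o' ∈ Cfsg.octads ∧ p ∈ o' ∧ q ∉ o') → (o'' ∈ Cfsg.octads ∧ p ∈ o'' ∧ q ∉ o'') → (o ∩ o').card = (o ∩ o'').card → ∃ g : Equiv.Perm Cfsg.GolayPt, g ∈ Cfsg.M24 ∧ g p = p ∧ g q = q ∧ g • o = o ∧ g • o' = o'' := by
  obtain ⟨f, hf, hfp, hfq⟩ := exists_map_two hpq
  have hmemp : ∀ b : Finset Cfsg.GolayPt, pt 23 ∈ f • b ↔ p ∈ b := by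
    intro b; rw [← hfp, apply_mem_smul_iff]
  have hmemq : ∀ b : Finset Cfsg.GolayPt, pt 0 ∈ f • b ↔ q ∈ b := by
    intro b; rw [← hfq, apply_mem_smul_iff]
  -- transitivity on the 176 octads
  have trans1 : ∀ o o' : Finset Cfsg.GolayPt, (o ∈ Cfsg.octads ∧ p ∈ o ∧ q ∉ o) →
      (o' ∈ Cfsg.octads ∧ p ∈ o' ∧ q ∉ o') →
      ∃ g : Equiv.Perm Cfsg.GolayPt, g ∈ Cfsg.M24 ∧ g p = p ∧ g q = q ∧ g • o = o' := by
    intro o o' ho ho'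
    obtain ⟨g0, hg0, hg0p, hg0q, hg0m⟩ := base_trans1 (f • o) (f • o')
      ((smul_mem_octads_iff hf _).mpr ho.1) ((smul_mem_octads_iff hf _).mpr ho'.1)
      ((hmemp _).mpr ho.2.1) ((hmemp _).mpr ho'.2.1)
      (fun hc => ho.2.2 ((hmemq _).mp hc)) (fun hc => ho'.2.2 ((hmemq _).mp hc))
    refine ⟨f⁻¹ * g0 * f, Cfsg.M24.mul_mem (Cfsg.M24.mul_mem (Cfsg.M24.inv_mem hf) hg0) hf, ?_, ?_, ?_⟩
    · rw [Equiv.Perm.mul_apply, Equiv.Perm.mul_apply, hfp, hg0p, ← hfp]; simp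
    · rw [Equiv.Perm.mul_apply, Equiv.Perm.mul_apply, hfq, hg0q, ← hfq]; simp
    · rw [mul_smul, mul_smul, hg0m, inv_smul_smul]
  refine ⟨?_, trans1, ?_⟩
  · have : {x : Finset Cfsg.GolayPt | (x ∈ Cfsg.octads ∧ p ∈ x ∧ q ∉ x)}.ncard =
        {x : Finset Cfsg.GolayPt | x ∈ Cfsg.octads ∧ pt 23 ∈ x ∧ pt 0 ∉ x}.ncard := by
      apply ncard_eq_of_smul f
      intro b
      simp only [Set.mem_ofPred_eq]
      rw [smul_mem_octads_iff hf, hmemp, hmemq]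
    rw [this, base_count_all]
    exact cnt_all
  · intro o ho
    -- move the frame (p, q, o) to the base frame
    have hA : (f⁻¹ • msk A0 : Finset Cfsg.GolayPt) ∈ Cfsg.octads ∧ p ∈ f⁻¹ • msk A0 ∧
        q ∉ f⁻¹ • msk A0 := by
      refine ⟨(smul_mem_octads_iff (Cfsg.M24.inv_mem hf) _).mpr A0_mem, ?_, ?_⟩
      · rw [← hmemp, smul_inv_smul, pt_mem_msk (by norm_num)]
        exact A0_ok.2.2.1
      · rw [← hmemq, smul_inv_smul, pt_mem_msk (by norm_num), A0_ok.2.2.2]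
        simp
    obtain ⟨g1, hg1, hg1p, hg1q, hg1o⟩ := trans1 o (f⁻¹ • msk A0) ho hA
    have hk : ∃ k ∈ Cfsg.M24, k p = pt 23 ∧ k q = pt 0 ∧ k • o = msk A0 := by
      refine ⟨f * g1, Cfsg.M24.mul_mem hf hg1, ?_, ?_, ?_⟩
      · rw [Equiv.Perm.mul_apply, hg1p, hfp]
      · rw [Equiv.Perm.mul_apply, hg1q, hfq]
      · rw [mul_smul, hg1o, smul_inv_smul]
    obtain ⟨k, hk, hkp, hkq, hko⟩ := hk
    have kmemp : ∀ b : Finset Cfsg.GolayPt, pt 23 ∈ k • b ↔ p ∈ b := by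
      intro b; rw [← hkp, apply_mem_smul_iff]
    have kmemq : ∀ b : Finset Cfsg.GolayPt, pt 0 ∈ k • b ↔ q ∈ b := by
      intro b; rw [← hkq, apply_mem_smul_iff]
    have key : ∀ n, {x : Finset Cfsg.GolayPt | (x ∈ Cfsg.octads ∧ p ∈ x ∧ q ∉ x) ∧ (o ∩ x).card = n}.ncard =
        {x : Finset Cfsg.GolayPt | x ∈ Cfsg.octads ∧ pt 23 ∈ x ∧ pt 0 ∉ x ∧ (msk A0 ∩ x).card = n}.ncard := by
      intro n
      apply ncard_eq_of_smul k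
      intro b
      simp only [Set.mem_ofPred_eq]
      rw [smul_mem_octads_iff hk, kmemp, kmemq, ← hko, card_smul_inter]
      tauto
    refine ⟨?_, ?_, ?_⟩
    · rw [key 2, base_count 2]; exact cnt2
    · rw [key 4, base_count 4]; exact cnt4
    · intro o' o'' ho' ho'' hcard
      obtain ⟨g0, hg0, hg0p, hg0q, hg0o, hg0m⟩ := base_trans2 (k • o') (k • o'')
        ((smul_mem_octads_iff hk _).mpr ho'.1) ((smul_mem_octads_iff hk _).mpr ho''.1)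
        ((kmemp _).mpr ho'.2.1) ((kmemp _).mpr ho''.2.1)
        (fun hc => ho'.2.2 ((kmemq _).mp hc)) (fun hc => ho''.2.2 ((kmemq _).mp hc))
        (by rw [← hko, card_smul_inter, card_smul_inter]; exact hcard)
      refine ⟨k⁻¹ * g0 * k, Cfsg.M24.mul_mem (Cfsg.M24.mul_mem (Cfsg.M24.inv_mem hk) hg0) hk, ?_, ?_, ?_, ?_⟩
      · rw [Equiv.Perm.mul_apply, Equiv.Perm.mul_apply, hkp, hg0p, ← hkp]; simp
      · rw [Equiv.Perm.mul_apply, Equiv.Perm.mul_apply, hkq, hg0q, ← hkq]; simp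
      · rw [mul_smul, mul_smul, hko, hg0o, ← hko, inv_smul_smul]
      · rw [mul_smul, mul_smul, hg0m, inv_smul_smul]

end Cfsg.Agent.S1605
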