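import Cfsg.Statements.S1610
import Cfsg.Agent.Lib.Helper96.F4

set_option autoImplicit false
open Cfsg

namespace Cfsg.Agent.S1610

open Cfsg.Agent.Lib.Helper96

/-- the coded weight -/
def wt4 (t : Fin 4 × Fin 4 × Fin 4) : ℕ :=
  (Finset.univ.filter fun i => hexW t.1 t.2.1 t.2.2 i ≠ 0).card

theorem hexW_inj : ∀ t t' : Fin 4 × Fin 4 × Fin 4,
    (∀ i, hexW t.1 t.2.1 t.2.2 i = hexW t'.1 t'.2.1 t'.2.2 i) → t = t' := by
  decide +kernel

theorem wt4_cases : ∀ t : Fin 4 × Fin 4 × Fin 4, t ≠ (0, 0, 0) → wt4 t = 4 ∨ wt4 t = 6 := by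
  decide +kernel

theorem wt4_count4 : (Finset.univ.filter fun t : Fin 4 × Fin 4 × Fin 4 => wt4 t = 4).card = 45 := by
  decide +kernel

theorem wt4_count6 : (Finset.univ.filter fun t : Fin 4 × Fin 4 × Fin 4 => wt4 t = 6).card = 18 := by
  decide +kernel

/-- decoded word -/
def wordOf {F : Type*} [Field F] (ω : F) (t : Fin 4 × Fin 4 × Fin 4) : Fin 6 → F :=
  fun i => phi4 ω (hexW t.1 t.2.1 t.2.2 i)

section
variable {F : Type*} [Field F] [Fintype F] [DecidableEq F]
variable (hF : Fintype.card F = 4) {ω : F} (hω : ω ^ 2 + ω + 1 = 0)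
include hF hω

theorem wordOf_injective : Function.Injective (wordOf ω) := by
  intro t t' h
  apply hexW_inj
  intro i
  exact phi4_injective hF hω (congrFun h i)

theorem weight_wordOf (t : Fin 4 × Fin 4 × Fin 4) :
    (Finset.univ.filter fun i => wordOf ω t i ≠ 0).card = wt4 t := by
  unfold wt4 wordOf
  congr 1
  ext i
  simp only [Finset.mem_filter, Finset.mem_univ, true_and, ne_eq, phi4_eq_zero_iff hF hω]

theorem hexacode_eq_range : (Cfsg.hexacode F ω : Set (Fin 6 → F)) = Set.range (wordOf ω) := by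
  ext x
  simp only [SetLike.mem_coe, mem_hexacode_iff hF hω, Set.mem_range, Prod.exists, wordOf]
  constructor
  · rintro ⟨a, b, c, rfl⟩
    exact ⟨a, b, c, rfl⟩
  · rintro ⟨a, b, c, rfl⟩
    exact ⟨a, b, c, rfl⟩

theorem wordOf_zero : wordOf ω (0, 0, 0) = 0 := by
  funext i
  have : hexW 0 0 0 i = 0 := by revert i; decide
  simp [wordOf, this, phi4]

theorem weight_set_eq (k : ℕ) :
    {x : Fin 6 → F | x ∈ Cfsg.hexacode F ω ∧ (Finset.univ.filter fun i => x i ≠ 0).card = k} =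
      wordOf ω '' ((Finset.univ.filter fun t : Fin 4 × Fin 4 × Fin 4 => wt4 t = k : Finset _) : Set _) := by
  ext x
  simp only [Set.mem_ofPred_eq, Set.mem_image, Finset.coe_filter, Finset.mem_univ, true_and]
  constructor
  · rintro ⟨hx, hk⟩
    have hx' : x ∈ (Cfsg.hexacode F ω : Set (Fin 6 → F)) := hx
    rw [hexacode_eq_range hF hω] at hx'
    obtain ⟨t, rfl⟩ := hx'
    exact ⟨t, by rw [← weight_wordOf hF hω]; exact hk, rfl⟩
  · rintro ⟨t, ht, rfl⟩
    refine ⟨?_, by rw [weight_wordOf hF hω]; exact ht⟩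
    have : wordOf ω t ∈ (Cfsg.hexacode F ω : Set (Fin 6 → F)) := by
      rw [hexacode_eq_range hF hω]; exact ⟨t, rfl⟩
    exact this

end

/-- The hexacode has 64 words, minimum weight 4, and weight distribution 0^1 4^45 6^18. -/
theorem result (F : Type*) [Field F] [Fintype F] [DecidableEq F] (hF : Fintype.card F = 4) (ω : F) (hω : ω ^ 2 + ω + 1 = 0) : Nat.card ↥(Cfsg.hexacode F ω) = 64 ∧ (∀ x ∈ Cfsg.hexacode F ω, x ≠ 0 → (Finset.univ.filter fun i => x i ≠ 0).card = 4 ∨ (Finset.univ.filter fun i => x i ≠ 0).card = 6) ∧ {x : Fin 6 → F | x ∈ Cfsg.hexacode F ω ∧ (Finset.univ.filter fun i => x i ≠ 0).card = 4}.ncard = 45 ∧ {x : Fin 6 → F | x ∈ Cfsg.hexacode F ω ∧ (Finset.univ.filter fun i => x i ≠ 0).card = 6}.ncard = 18 := by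
  refine ⟨?_, ?_, ?_, ?_⟩
  · have h1 : Nat.card ↥(Cfsg.hexacode F ω) = (Cfsg.hexacode F ω : Set (Fin 6 → F)).ncard := rfl
    rw [h1, hexacode_eq_range hF hω, ← Set.image_univ,
      Set.ncard_image_of_injective _ (wordOf_injective hF hω), Set.ncard_univ]
    simp
  · intro x hx hx0
    have hx' : x ∈ (Cfsg.hexacode F ω : Set (Fin 6 → F)) := hx
    rw [hexacode_eq_range hF hω] at hx'
    obtain ⟨t, rfl⟩ := hx'
    rw [weight_wordOf hF hω]
    apply wt4_cases
    rintro rfl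
    exact hx0 (wordOf_zero hF hω)
  · rw [weight_set_eq hF hω, Set.ncard_image_of_injective _ (wordOf_injective hF hω),
      Set.ncard_coe_finset]
    exact wt4_count4
  · rw [weight_set_eq hF hω, Set.ncard_image_of_injective _ (wordOf_injective hF hω),
      Set.ncard_coe_finset]
    exact wt4_count6

end Cfsg.Agent.S1610
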