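import Cfsg.Statements.S1629
import Mathlib
import Cfsg.Agent.Lib.Helper50.OrthTransv
import Cfsg.Agent.Lib.Helper51.HypPairs
import Cfsg.Agent.Lib.Helper44.OrthForms

set_option autoImplicit false
open Cfsg

namespace Cfsg.Agent.S1629

/-- The orthogonal transvections of the plus-type orthogonal group in dimension 2m ≥ 6 over the field with two elements form a generating conjugacy class of 3-transpositions. -/
theorem result (m : ℕ) (hm : 3 ≤ m) : Cfsg.IsThreeTranspositionClass {g : ↥(Cfsg.isometryGroup (ZMod 2) (Cfsg.quadFormPlus m (ZMod 2))) | (((g : GL (Fin m ⊕ Fin m) (ZMod 2)) : Matrix (Fin m ⊕ Fin m) (Fin m ⊕ Fin m) (ZMod 2)) - 1).rank = 1} := by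
  haveI : Nonempty (Fin m ⊕ Fin m) := ⟨Sum.inl ⟨0, by omega⟩⟩
  refine Cfsg.Agent.Lib.Helper50.orth_threeTransposition'
    (Cfsg.Agent.Lib.Helper51.QPlus m (ZMod 2))
    (Cfsg.Agent.Lib.Helper44.nondeg_QPlus m (ZMod 2)) ?_ _
    (Cfsg.Agent.Lib.Helper51.coe_QPlus m (ZMod 2))
  rw [Fintype.card_sum, Fintype.card_fin]
  omega

end Cfsg.Agent.S1629
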