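import Cfsg.Statements.S1631
import Cfsg.Agent.S0780
import Cfsg.Agent.Lib.Helper18.UnitaryTT

set_option autoImplicit false
open scoped MatrixGroups
open Cfsg

namespace Cfsg.Agent.S1631

/-- The unitary transvections of SU(n, 2), n ≥ 4, form a generating conjugacy class of 3-transpositions. -/
theorem result (F : Type) [Field F] [Fintype F] [DecidableEq F] (hF : Fintype.card F = 4) (n : ℕ) (hn : 4 ≤ n) : Cfsg.IsThreeTranspositionClass {g : ↥(Cfsg.SU n F 2) | (((g : Matrix.SpecialLinearGroup (Fin n) F) : Matrix (Fin n) (Fin n) F) - 1).rank = 1} := by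
  have hF' : Fintype.card F = 2 ^ 2 := by rw [hF]; norm_num
  exact Cfsg.Agent.Lib.Helper18.su2_three_transposition hF' n (by omega)
    (Cfsg.Agent.S0780.result hF' n (by omega) (by omega))

end Cfsg.Agent.S1631
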