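import Cfsg.Statements.S1635
import Cfsg.Agent.S0363
import Cfsg.Agent.Lib.Helper93.GolayCoset

set_option autoImplicit false
open Cfsg

namespace Cfsg.Agent.S1635

open Cfsg.Agent.Lib.Helper9 Cfsg.Agent.Lib.Helper93

theorem zero_mem_sums : (0 : ℕ) ∈ sums gB := by
  have h : dec 0 ∈ golayCode := by rw [dec_zero]; exact Submodule.zero_mem _
  exact mem_sums_of_dec_mem (by norm_num) h

theorem popc_zero : popc 0 = 0 := by decide

theorem popc_and_le (a b : ℕ) : popc (a &&& b) ≤ popc a := by
  have h := popc_xor_add a (a &&& b)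
  rw [← Nat.and_assoc, Nat.and_self] at h
  omega

theorem and_eq_of_popc {a b : ℕ} (ha : a < 2 ^ 24) (h : popc (a &&& b) = popc a) : a &&& b = a := by
  have h1 := popc_xor_add a (a &&& b)
  rw [← Nat.and_assoc, Nat.and_self] at h1
  have h2 : popc (a ^^^ (a &&& b)) = 0 := by omega
  have h3 : a ^^^ (a &&& b) < 2 ^ 24 :=
    Nat.xor_lt_two_pow ha (lt_of_le_of_lt Nat.and_le_left ha)
  have h4 := eq_zero_of_popc_eq_zero h3 h2
  exact (Nat.xor_eq_zero_iff.mp h4).symm

/-- membership in the coset in terms of masks -/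
theorem mem_iff {c : GolayPt → ZMod 2} (hc : c ∈ golayCode) (e : ℕ) (v : GolayPt → ZMod 2) :
    (c + dec e) - v ∈ golayCode ↔ ∃ k ∈ sums gB, v = dec (e ^^^ k) := by
  constructor
  · intro h
    have h1 : dec e - v ∈ golayCode := by
      have := Submodule.sub_mem _ h hc
      have e1 : c + dec e - v - c = dec e - v := by abel
      rwa [e1] at this
    obtain ⟨k, hk, hkeq⟩ := (mem_golayCode_iff _).mp h1
    refine ⟨k, hk, ?_⟩
    rw [← dec_sub, ← hkeq]
    abel
  · rintro ⟨k, hk, rfl⟩
    rw [dec_xor]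
    have e1 : c + dec e - (dec e + dec k) = c - dec k := by abel
    rw [e1]
    exact Submodule.sub_mem _ hc (dec_mem_golay hk)

/-- the weight analysis -/
theorem weight_cases {e k : ℕ} (he : e < 2 ^ 24) (hpop : popc e ≤ 4) (hk : k ∈ sums gB)
    (h : popc (e ^^^ k) ≤ 4) :
    k = 0 ∨ (popc k = 8 ∧ popc e = 4 ∧ e &&& k = e ∧ popc (e ^^^ k) = 4) := by
  have h1 := popc_xor_add e k
  have h2 := popc_and_le e k
  have h3 := wtOK_of_mem_sums hk
  simp only [wtOK, Bool.or_eq_true, beq_iff_eq] at h3
  have h4 : popc k = 0 ∨ popc k = 8 := by omega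
  rcases h4 with h4 | h4
  · left
    exact eq_zero_of_popc_eq_zero (sums_gB_lt k hk) h4
  · right
    have h5 : popc (e &&& k) = popc e := by omega
    exact ⟨h4, by omega, and_eq_of_popc he h5, by omega⟩

theorem xor_inj {e k k' : ℕ} (he : e < 2 ^ 24) (hk : k ∈ sums gB) (hk' : k' ∈ sums gB)
    (h : dec (e ^^^ k) = dec (e ^^^ k')) : k = k' := by
  have h1 := dec_injOn (Nat.xor_lt_two_pow he (sums_gB_lt k hk))
    (Nat.xor_lt_two_pow he (sums_gB_lt k' hk')) h
  exact Nat.xor_right_inj.mp h1

theorem card_pt : Fintype.card GolayPt = 24 := by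
  rw [Fintype.card_option, ZMod.card]

/-- exactly five octads contain a given four-set -/
theorem five_octads {e : ℕ} (he : e < 2 ^ 24) (hpop : popc e = 4) :
    {k | k ∈ sums gB ∧ popc k = 8 ∧ e &&& k = e}.ncard = 5 := by
  classical
  set T := support₂ (dec e) with hT
  have hTc : T.card = 4 := by rw [hT, card_support₂, hammingNorm_dec, hpop]
  have hcount := card_blocks_through Cfsg.Agent.S0363.result T (by rw [hTc]; norm_num)
  rw [hTc, card_pt] at hcount
  have h5 : ((blocksFin octads).filter (fun c => T ⊆ c)).card = 5 := by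
    have e1 : (8 - 4).choose (5 - 4) = 4 := by decide
    have e2 : (24 - 4).choose (5 - 4) = 20 := by decide
    rw [e1, e2] at hcount
    omega
  have hsub : ∀ k, T ⊆ support₂ (dec k) ↔ e &&& k = e := by
    intro k
    constructor
    · intro h
      have h1 : T ∩ support₂ (dec k) = T := Finset.inter_eq_left.mpr h
      rw [hT, support₂_dec_inter] at h1
      exact dec_injOn (lt_of_le_of_lt Nat.and_le_left he) he (support₂_injective h1)
    · intro h
      have h1 := support₂_dec_inter e k
      rw [h] at h1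
      rw [hT, ← h1]
      exact Finset.inter_subset_right
  have himg : (fun k => support₂ (dec k)) '' {k | k ∈ sums gB ∧ popc k = 8 ∧ e &&& k = e} =
      (((blocksFin octads).filter (fun c => T ⊆ c) : Finset (Finset GolayPt)) :
        Set (Finset GolayPt)) := by
    ext b
    simp only [Set.mem_image, Set.mem_ofPred_eq, Finset.coe_filter, mem_blocksFin]
    constructor
    · rintro ⟨k, ⟨hk, hk8, hke⟩, rfl⟩
      exact ⟨(mem_octads_iff _).mpr ⟨k, hk, hk8, rfl⟩, (hsub k).mpr hke⟩
    · rintro ⟨hb, hTb⟩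
      obtain ⟨k, hk, hk8, rfl⟩ := (mem_octads_iff _).mp hb
      exact ⟨k, ⟨hk, hk8, (hsub k).mp hTb⟩, rfl⟩
  have hinj : Set.InjOn (fun k => support₂ (dec k))
      {k | k ∈ sums gB ∧ popc k = 8 ∧ e &&& k = e} := by
    intro k hk k' hk' h
    exact dec_injOn (sums_gB_lt k hk.1) (sums_gB_lt k' hk'.1) (support₂_injective h)
  rw [← hinj.ncard_image, himg, Set.ncard_coe_finset, h5]

/-- Every coset of the length-24 code in the space of binary words of length 24 contains either exactly one word of weight at most 4, which has weight at most 3, or exactly six words of weight at most 4, all of weight exactly 4. -/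
theorem result (w : Cfsg.GolayPt → ZMod 2) : ({v : Cfsg.GolayPt → ZMod 2 | hammingNorm v ≤ 4 ∧ w - v ∈ Cfsg.golayCode}.ncard = 1 ∧ ∃ v : Cfsg.GolayPt → ZMod 2, hammingNorm v ≤ 3 ∧ w - v ∈ Cfsg.golayCode) ∨ ({v : Cfsg.GolayPt → ZMod 2 | hammingNorm v ≤ 4 ∧ w - v ∈ Cfsg.golayCode}.ncard = 6 ∧ ∀ v : Cfsg.GolayPt → ZMod 2, w - v ∈ Cfsg.golayCode → hammingNorm v ≤ 4 → hammingNorm v = 4) := by
  obtain ⟨c, hc, e, he, hpop, rfl⟩ := exists_leader w
  have hS : {v : GolayPt → ZMod 2 | hammingNorm v ≤ 4 ∧ (c + dec e) - v ∈ golayCode} =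
      (fun k => dec (e ^^^ k)) '' {k | k ∈ sums gB ∧ popc (e ^^^ k) ≤ 4} := by
    ext v
    simp only [Set.mem_ofPred_eq, Set.mem_image]
    constructor
    · rintro ⟨hv, hmem⟩
      obtain ⟨k, hk, rfl⟩ := (mem_iff hc e v).mp hmem
      rw [hammingNorm_dec] at hv
      exact ⟨k, ⟨hk, hv⟩, rfl⟩
    · rintro ⟨k, ⟨hk, hv⟩, rfl⟩
      rw [hammingNorm_dec]
      exact ⟨hv, (mem_iff hc e _).mpr ⟨k, hk, rfl⟩⟩
  have hinj : Set.InjOn (fun k => dec (e ^^^ k)) {k | k ∈ sums gB ∧ popc (e ^^^ k) ≤ 4} := by
    intro k hk k' hk' h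
    exact xor_inj he hk.1 hk'.1 h
  rw [hS, hinj.ncard_image]
  by_cases h3 : popc e ≤ 3
  · left
    constructor
    · have : {k | k ∈ sums gB ∧ popc (e ^^^ k) ≤ 4} = {0} := by
        ext k
        simp only [Set.mem_ofPred_eq, Set.mem_singleton_iff]
        constructor
        · rintro ⟨hk, hv⟩
          rcases weight_cases he hpop hk hv with h | ⟨-, h4, -, -⟩
          · exact h
          · omega
        · rintro rfl
          refine ⟨zero_mem_sums, ?_⟩
          rw [Nat.xor_zero]
          exact hpop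
      rw [this, Set.ncard_singleton]
    · refine ⟨dec e, ?_, ?_⟩
      · rw [hammingNorm_dec]; exact h3
      · rw [add_sub_cancel_right]; exact hc
  · right
    have h4 : popc e = 4 := by omega
    constructor
    · have : {k | k ∈ sums gB ∧ popc (e ^^^ k) ≤ 4} =
          insert 0 {k | k ∈ sums gB ∧ popc k = 8 ∧ e &&& k = e} := by
        ext k
        simp only [Set.mem_ofPred_eq, Set.mem_insert_iff]
        constructor
        · rintro ⟨hk, hv⟩
          rcases weight_cases he hpop hk hv with h | ⟨h8, -, hand, -⟩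
          · left; exact h
          · right; exact ⟨hk, h8, hand⟩
        · rintro (rfl | ⟨hk, h8, hand⟩)
          · refine ⟨zero_mem_sums, ?_⟩
            rw [Nat.xor_zero]
            exact hpop
          · refine ⟨hk, ?_⟩
            have h1 := popc_xor_add e k
            rw [hand] at h1
            omega
      have hfin : Set.Finite {k | k ∈ sums gB ∧ popc k = 8 ∧ e &&& k = e} :=
        Set.Finite.subset (List.finite_toSet (sums gB)) (fun k hk => hk.1)
      have hnot : (0 : ℕ) ∉ {k | k ∈ sums gB ∧ popc k = 8 ∧ e &&& k = e} := by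
        simp only [Set.mem_ofPred_eq, not_and]
        intro _ h8
        rw [popc_zero] at h8
        omega
      rw [this, Set.ncard_insert_of_notMem hnot hfin, five_octads he h4]
    · intro v hmem hv
      obtain ⟨k, hk, rfl⟩ := (mem_iff hc e v).mp hmem
      rw [hammingNorm_dec] at hv ⊢
      rcases weight_cases he hpop hk hv with h | ⟨-, -, -, h⟩
      · rw [h, Nat.xor_zero]; exact h4
      · exact h

end Cfsg.Agent.S1635
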