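import Cfsg.Statements.S1637
import Cfsg.Agent.Lib.Helper93.GolayCoset

set_option autoImplicit false
open Cfsg

namespace Cfsg.Agent.S1637

open Cfsg.Agent.Lib.Helper9 Cfsg.Agent.Lib.Helper93

/-- weight of a word of length 24 in terms of its restriction -/
theorem norm_option (w : GolayPt → ZMod 2) :
    hammingNorm w = hammingNorm (fun x : ZMod 23 => w (some x)) + (if w none ≠ 0 then 1 else 0) := by
  classical
  unfold hammingNorm
  rw [Finset.card_filter, Finset.card_filter, Fintype.sum_option]
  ring

/-- extension of a word of length 23 by a value at the extra coordinate -/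
def ext (u : ZMod 23 → ZMod 2) (b : ZMod 2) : GolayPt → ZMod 2 := fun p => p.elim b u

theorem exists_close (u : ZMod 23 → ZMod 2) :
    ∃ c ∈ golayCode, hammingDist u (fun x => c (some x)) ≤ 3 := by
  classical
  -- choose the extension of odd weight
  obtain ⟨b, hb⟩ : ∃ b : ZMod 2, hammingNorm (ext u b) % 2 = 1 := by
    by_cases hpar : hammingNorm u % 2 = 1
    · refine ⟨0, ?_⟩
      rw [norm_option]
      have h1 : (fun x : ZMod 23 => ext u 0 (some x)) = u := rfl
      have h2 : ext u 0 none = 0 := rfl
      rw [h1, h2]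
      simpa using hpar
    · refine ⟨1, ?_⟩
      rw [norm_option]
      have h1 : (fun x : ZMod 23 => ext u 1 (some x)) = u := rfl
      have h2 : ext u 1 none = 1 := rfl
      rw [h1, h2]
      have : (1 : ZMod 2) ≠ 0 := by decide
      rw [if_pos this]
      omega
  obtain ⟨c, hc, e, he, hpop, heq⟩ := exists_leader (ext u b)
  obtain ⟨k, hk, rfl⟩ := (mem_golayCode_iff _).mp hc
  have hodd : popc e % 2 = 1 := by
    rw [heq, ← dec_xor, hammingNorm_dec] at hb
    have h1 := popc_xor_add k e
    have h2 := popc_mod_four hk
    omega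
  have h3 : popc e ≤ 3 := by omega
  refine ⟨dec k, hc, ?_⟩
  have hd : hammingDist u (fun x => dec k (some x)) ≤ hammingNorm (dec e) := by
    unfold hammingDist hammingNorm
    apply Finset.card_le_card_of_injOn (fun x => (some x : GolayPt))
    · intro x hx
      simp only [Finset.coe_filter, Finset.mem_univ, true_and, Set.mem_ofPred_eq] at hx ⊢
      intro h0
      apply hx
      have h4 : u x = ext u b (some x) := rfl
      rw [h4, heq, Pi.add_apply, h0, add_zero]
    · intro x _ y _ h
      exact Option.some_injective _ h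
  rw [hammingNorm_dec] at hd
  omega

/-- The length-23 binary code obtained by deleting the extra coordinate of the length-24 code is perfect with covering radius 3. -/
theorem result (u : ZMod 23 → ZMod 2) : ∃! c : ZMod 23 → ZMod 2, c ∈ {u : ZMod 23 → ZMod 2 | ∃ w ∈ Cfsg.golayCode, ∀ x : ZMod 23, u x = w (some x)} ∧ hammingDist u c ≤ 3 := by
  classical
  obtain ⟨c, hc, hd⟩ := exists_close u
  refine ⟨fun x => c (some x), ⟨⟨c, hc, fun x => rfl⟩, hd⟩, ?_⟩
  rintro c2 ⟨⟨w2, hw2, hc2⟩, hd2⟩
  have hc2' : c2 = fun x => w2 (some x) := funext hc2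
  subst hc2'
  have hw : w2 - c ∈ golayCode := Submodule.sub_mem _ hw2 hc
  have h6 : hammingDist (fun x : ZMod 23 => w2 (some x)) (fun x => c (some x)) ≤ 6 := by
    have := hammingDist_triangle (fun x : ZMod 23 => w2 (some x)) u (fun x => c (some x))
    rw [hammingDist_comm (fun x : ZMod 23 => w2 (some x)) u] at this
    omega
  have h7 : hammingNorm (w2 - c) ≤ 7 := by
    rw [norm_option]
    have h8 : hammingNorm (fun x : ZMod 23 => (w2 - c) (some x)) =
        hammingDist (fun x : ZMod 23 => w2 (some x)) (fun x => c (some x)) := by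
      unfold hammingDist hammingNorm
      congr 1
      apply Finset.filter_congr
      intro x _
      show w2 (some x) - c (some x) ≠ 0 ↔ w2 (some x) ≠ c (some x)
      rw [sub_ne_zero]
    rw [h8]
    split_ifs <;> omega
  have h0 : hammingNorm (w2 - c) = 0 := by
    rcases wt_of_mem_golay hw with h | h | h | h | h <;> omega
  rw [hammingNorm_eq_zero, sub_eq_zero] at h0
  rw [h0]

end Cfsg.Agent.S1637
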