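import Cfsg.Statements.S1636
import Cfsg.Agent.S1637

set_option autoImplicit false
open Cfsg

namespace Cfsg.Agent.S1636

open Cfsg.Agent.Lib.Helper9

/-- restriction to the 23 finite points -/
def res (w : GolayPt → ZMod 2) : ZMod 23 → ZMod 2 := fun x => w (some x)

/-- the punctured code -/
def punct : Set (ZMod 23 → ZMod 2) := {u | ∃ w ∈ golayCode, ∀ x : ZMod 23, u x = w (some x)}

theorem punct_eq : punct = (fun k => res (dec k)) '' {k | k ∈ sums gB} := by
  ext u
  simp only [punct, Set.mem_ofPred_eq, Set.mem_image]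
  constructor
  · rintro ⟨w, hw, hu⟩
    obtain ⟨k, hk, rfl⟩ := (mem_golayCode_iff _).mp hw
    exact ⟨k, hk, (funext hu).symm⟩
  · rintro ⟨k, hk, rfl⟩
    exact ⟨dec k, dec_mem_golay hk, fun x => rfl⟩

/-- weight predicate on masks -/
def Q (n : ℕ) (m : ℕ) : Bool := popc m == n + (if m.testBit 23 then 1 else 0)

theorem norm_res (k : ℕ) :
    hammingNorm (res (dec k)) + (if k.testBit 23 = true then 1 else 0) = popc k := by
  have h := Cfsg.Agent.S1637.norm_option (dec k)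
  rw [hammingNorm_dec] at h
  have h2 : (dec k none ≠ 0) ↔ k.testBit 23 = true := dec_ne_zero_iff k none
  have h4 : hammingNorm (res (dec k)) = hammingNorm (fun x : ZMod 23 => dec k (some x)) := rfl
  rw [h, h4]
  by_cases hb : k.testBit 23 = true
  · rw [if_pos hb, if_pos (h2.mpr hb)]
  · rw [if_neg hb, if_neg (fun h3 => hb (h2.mp h3))]

theorem res_dec_xor (a b : ℕ) : res (dec (a ^^^ b)) = res (dec a) + res (dec b) := by
  rw [dec_xor]
  rfl

theorem res_injOn : Set.InjOn (fun k => res (dec k)) {k | k ∈ sums gB} := by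
  intro k hk k' hk' h
  have hx := xor_mem_sums hk hk'
  have h1 : res (dec (k ^^^ k')) = 0 := by
    rw [res_dec_xor]
    have h' : res (dec k) = res (dec k') := h
    rw [h']
    funext x
    have h2 : ∀ a : ZMod 2, a + a = 0 := by decide
    exact h2 _
  have h2 := norm_res (k ^^^ k')
  rw [h1, hammingNorm_zero] at h2
  have h3 := popc_mod_four hx
  have h4 : popc (k ^^^ k') = 0 := by
    split_ifs at h2 <;> omega
  have h5 := eq_zero_of_popc_eq_zero (sums_gB_lt _ hx) h4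
  exact Nat.xor_eq_zero_iff.mp h5

theorem card_punct : punct.ncard = 4096 := by
  rw [punct_eq, res_injOn.ncard_image]
  have h : {m | m ∈ sums gB} = ((sums gB).toFinset : Set ℕ) := by
    ext m; simp
  rw [h, Set.ncard_coe_finset, List.toFinset_card_of_nodup nodup_sums_gB, length_sums]
  rfl

theorem count_wt (n : ℕ) : {u | u ∈ punct ∧ hammingNorm u = n}.ncard = cnt (Q n) gB 0 := by
  have hset : {u | u ∈ punct ∧ hammingNorm u = n} =
      (fun k => res (dec k)) '' {k | k ∈ sums gB ∧ Q n k = true} := by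
    ext u
    rw [punct_eq]
    simp only [Set.mem_ofPred_eq, Set.mem_image]
    constructor
    · rintro ⟨⟨k, hk, rfl⟩, hn⟩
      refine ⟨k, ⟨hk, ?_⟩, rfl⟩
      have := norm_res k
      simp only [Q, beq_iff_eq]
      omega
    · rintro ⟨k, ⟨hk, hq⟩, rfl⟩
      refine ⟨⟨k, hk, rfl⟩, ?_⟩
      have := norm_res k
      simp only [Q, beq_iff_eq] at hq
      omega
  rw [hset, (res_injOn.mono (fun k hk => hk.1)).ncard_image]
  have h : {m | m ∈ sums gB ∧ Q n m = true} = (((sums gB).filter (Q n)).toFinset : Set ℕ) := by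
    ext m; simp
  rw [h, Set.ncard_coe_finset, List.toFinset_card_of_nodup (nodup_sums_gB.filter _), cnt_eq,
    List.countP_eq_length_filter]
  simp

theorem cnt7 : cnt (Q 7) gB 0 = 253 := by decide +kernel
theorem cnt8 : cnt (Q 8) gB 0 = 506 := by decide +kernel
theorem cnt11 : cnt (Q 11) gB 0 = 1288 := by decide +kernel
theorem cnt12 : cnt (Q 12) gB 0 = 1288 := by decide +kernel
theorem cnt15 : cnt (Q 15) gB 0 = 506 := by decide +kernel
theorem cnt16 : cnt (Q 16) gB 0 = 253 := by decide +kernel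

theorem min_wt : ∀ u ∈ punct, u ≠ 0 → 7 ≤ hammingNorm u := by
  intro u hu hne
  rw [punct_eq] at hu
  obtain ⟨k, hk, rfl⟩ := hu
  have h1 := norm_res k
  have h2 := wtOK_of_mem_sums hk
  simp only [wtOK, Bool.or_eq_true, beq_iff_eq] at h2
  have h3 : popc k ≠ 0 := by
    intro h0
    have := eq_zero_of_popc_eq_zero (sums_gB_lt _ hk) h0
    apply hne
    show res (dec k) = 0
    rw [this, dec_zero]
    rfl
  show 7 ≤ hammingNorm (res (dec k))
  split_ifs at h1 <;> omega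

/-- Deleting the extra coordinate from the length-24 code gives a binary code of length 23 with 4096 words and weight distribution 0^1 7^253 8^506 11^1288 12^1288 15^506 16^253 23^1; in particular its minimum weight is 7. -/
theorem result : {u : ZMod 23 → ZMod 2 | ∃ w ∈ Cfsg.golayCode, ∀ x : ZMod 23, u x = w (some x)}.ncard = 4096 ∧ {u : ZMod 23 → ZMod 2 | u ∈ {u : ZMod 23 → ZMod 2 | ∃ w ∈ Cfsg.golayCode, ∀ x : ZMod 23, u x = w (some x)} ∧ hammingNorm u = 7}.ncard = 253 ∧ {u : ZMod 23 → ZMod 2 | u ∈ {u : ZMod 23 → ZMod 2 | ∃ w ∈ Cfsg.golayCode, ∀ x : ZMod 23, u x = w (some x)} ∧ hammingNorm u = 8}.ncard = 506 ∧ {u : ZMod 23 → ZMod 2 | u ∈ {u : ZMod 23 → ZMod 2 | ∃ w ∈ Cfsg.golayCode, ∀ x : ZMod 23, u x = w (some x)} ∧ hammingNorm u = 11}.ncard = 1288 ∧ {u : ZMod 23 → ZMod 2 | u ∈ {u : ZMod 23 → ZMod 2 | ∃ w ∈ Cfsg.golayCode, ∀ x : ZMod 23, u x = w (some x)} ∧ hammingNorm u = 12}.ncard = 1288 ∧ {u : ZMod 23 → ZMod 2 | u ∈ {u : ZMod 23 →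 ZMod 2 | ∃ w ∈ Cfsg.golayCode, ∀ x : ZMod 23, u x = w (some x)} ∧ hammingNorm u = 15}.ncard = 506 ∧ {u : ZMod 23 → ZMod 2 | u ∈ {u : ZMod 23 → ZMod 2 | ∃ w ∈ Cfsg.golayCode, ∀ x : ZMod 23, u x = w (some x)} ∧ hammingNorm u = 16}.ncard = 253 ∧ ∀ u ∈ {u : ZMod 23 → ZMod 2 | ∃ w ∈ Cfsg.golayCode, ∀ x : ZMod 23, u x = w (some x)}, u ≠ 0 → 7 ≤ hammingNorm u :=
  ⟨card_punct, (count_wt 7).trans cnt7, (count_wt 8).trans cnt8, (count_wt 11).trans cnt11,
    (count_wt 12).trans cnt12, (count_wt 15).trans cnt15, (count_wt 16).trans cnt16, min_wt⟩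

end Cfsg.Agent.S1636
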