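import Cfsg.Statements.S1638
import Cfsg.Agent.Lib.Helper9.M24Trans
import Cfsg.Agent.Lib.Helper96.M24Cert

set_option autoImplicit false
open scoped Pointwise
open Cfsg

namespace Cfsg.Agent.S1638

open Cfsg.Agent.Lib.Helper9 Cfsg.Agent.Lib.Helper96
open scoped Pointwise

/-- masks of the 2-subsets of the 24 points -/
def pairMasks : List ℕ :=
  (List.range 24).flatMap (fun i => (List.range i).map (fun j => 2 ^ i ||| 2 ^ j))

/-- the 77 octads through the two base points -/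
def oct77 : List ℕ :=
  [8391797, 8398155, 8412681, 8421811, 8431757, 8471941, 8499969, 8505411, 8524371, 8536111, 8546577, 8593633, 8619033, 8657159, 8663097, 8675909, 8688833, 8716939, 8783649, 8922769, 8946281, 8966165, 8983587, 9048457, 9112069, 9193633, 9240913, 9347075, 9440193, 9465987, 9471495, 9506893, 9519665, 9607201, 9748745, 9776129, 9830549, 9963547, 9969957, 10110017, 10486557, 10496547, 10506593, 10557585, 10630149, 10666625, 10765331, 10846245, 10881097, 11010247, 11046145, 11100169, 11535529, 11575377, 11731203, 12325377, 12587685, 12599513, 12641313, 12650793, 12656663, 12717187, 12747077, 12880401, 13062145, 13121601, 13124355, 13370381, 13636881, 13771273, 13893731, 14254209, 14716939, 14747201, 14950785, 15335473, 15747077]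

/-- the base pair together with the pair `m` lies in an octad through the base points -/
def propB (m : ℕ) : Bool := oct77.any (fun c => (6 ||| m) &&& c == (6 ||| m))

/-- class representatives -/
def rep (m : ℕ) : ℕ :=
  if popc (6 &&& m) == 1 then 10 else if propB m then 40 else 24

/-- elements of the stabiliser of the base frame moving the pairs to the class representatives -/
def cert : List (ℕ × List ℕ) :=
  [(24, [0,1,2,3,4,5,6,7,8,9,10,11,12,13,14,15,16,17,18,19,20,21,22,23]),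
  (48, [0,2,1,5,4,3,20,9,8,7,19,11,18,13,14,21,22,17,12,10,6,15,16,23]),
  (72, [0,2,1,4,6,13,3,14,9,12,8,10,20,21,22,18,19,16,15,5,11,17,7,23]),
  (80, [0,2,1,18,4,11,3,5,10,21,19,20,9,22,12,6,16,8,15,17,7,14,13,23]),
  (96, [0,1,2,13,9,4,3,17,6,18,8,21,7,10,22,12,15,16,19,5,11,14,20,23]),
  (136, [0,2,1,3,10,5,16,4,6,8,12,19,7,20,17,11,9,14,21,22,18,13,15,23]),
  (144, [0,1,2,10,3,20,16,4,19,18,12,6,7,5,15,11,14,9,21,13,8,22,17,23]),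
  (160, [0,2,1,13,21,4,14,3,9,11,18,10,20,6,16,8,7,22,15,17,12,5,19,23]),
  (264, [0,2,1,3,19,14,9,15,4,11,8,22,16,21,5,12,7,17,13,10,18,20,6,23]),
  (272, [0,1,2,9,4,20,7,19,3,8,18,17,5,16,10,11,22,15,14,6,12,21,13,23]),
  (288, [0,1,2,16,20,4,18,11,3,6,7,17,5,9,13,19,15,22,14,8,21,12,10,23]),
  (320, [0,1,2,20,12,15,4,22,3,6,19,14,17,11,10,21,18,9,5,13,7,16,8,23]),
  (384, [0,1,2,18,20,11,14,3,4,7,21,22,13,10,8,19,9,12,16,5,6,17,15,23]),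
  (520, [0,2,1,4,20,13,12,8,19,3,14,7,6,15,22,5,9,16,21,18,17,11,10,23]),
  (528, [0,1,2,8,3,12,20,15,21,4,16,6,19,17,18,22,5,11,7,10,13,9,14,23]),
  (544, [0,1,2,13,7,4,18,8,15,3,17,20,9,19,22,5,6,16,10,12,14,11,21,23]),
  (576, [0,1,2,12,20,18,4,22,6,3,17,7,19,9,8,5,15,11,21,13,14,16,10,23]),
  (640, [0,2,1,21,18,19,17,3,10,4,13,15,20,12,6,22,8,7,9,5,16,14,11,23]),
  (768, [0,1,2,21,9,6,18,12,4,3,14,13,16,10,19,17,15,7,22,11,5,8,20,23]),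
  (1032, [0,1,2,4,10,22,19,7,11,5,3,18,12,20,13,17,15,16,8,21,14,6,9,23]),
  (1040, [0,2,1,7,3,19,20,10,18,16,4,11,12,17,21,22,14,6,8,15,13,9,5,23]),
  (1056, [0,2,1,14,20,3,19,6,12,13,4,11,8,15,17,16,9,5,18,21,22,7,10,23]),
  (1088, [0,1,2,19,9,21,3,5,11,16,4,8,18,20,6,13,10,7,12,14,22,17,15,23]),
  (1152, [0,1,2,10,7,15,13,4,8,14,3,11,12,6,9,5,21,20,18,22,17,16,19,23]),
  (1280, [0,1,2,20,6,10,11,8,3,16,4,5,14,19,9,13,21,15,17,18,22,12,7,23]),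
  (2056, [0,1,2,3,20,17,7,21,16,12,18,4,13,9,5,8,15,14,22,19,11,6,10,23]),
  (2064, [0,1,2,19,3,21,9,15,22,18,8,4,16,14,6,12,17,7,13,20,11,10,5,23]),
  (2080, [0,1,2,17,9,3,21,7,16,11,8,4,13,20,14,18,10,5,22,6,12,19,15,23]),
  (2112, [0,2,1,12,20,11,4,22,14,7,19,3,17,15,8,21,9,18,5,16,6,13,10,23]),
  (2176, [0,1,2,9,6,10,5,3,13,18,11,4,22,21,15,8,7,20,16,17,12,14,19,23]),
  (2560, [0,1,2,12,6,11,10,15,16,3,5,4,13,19,18,14,21,8,22,9,17,20,7,23]),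
  (3072, [0,2,1,18,19,11,20,9,17,13,4,3,5,7,12,16,6,8,14,10,22,15,21,23]),
  (4104, [0,1,2,4,7,22,9,10,17,18,12,5,3,6,13,11,21,16,14,15,8,20,19,23]),
  (4112, [0,1,2,7,3,6,20,10,13,11,12,16,4,14,21,8,17,19,22,9,18,15,5,23]),
  (4128, [0,2,1,5,18,3,7,19,22,20,9,16,4,12,14,10,8,17,13,21,15,6,11,23]),
  (4160, [0,2,1,20,21,10,4,13,17,8,18,14,3,7,15,12,19,9,5,22,11,16,6,23]),
  (4224, [0,1,2,12,7,8,16,4,5,9,10,14,3,19,11,15,6,18,17,13,20,22,21,23]),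
  (4608, [0,2,1,6,9,19,8,11,17,4,22,14,3,15,7,16,10,21,5,18,13,12,20,23]),
  (5120, [0,2,1,12,7,8,15,10,14,13,4,5,3,19,18,16,21,11,17,9,22,20,6,23]),
  (8200, [0,2,1,3,22,14,8,11,21,15,9,19,6,4,5,20,13,17,7,18,10,12,16,23]),
  (8224, [0,2,1,22,14,4,10,15,19,8,18,21,7,3,13,12,17,16,6,20,11,9,5,23]),
  (8256, [0,2,1,21,16,7,3,14,8,20,9,18,12,4,19,10,22,6,11,5,15,17,13,23]),
  (8320, [0,1,2,9,5,15,16,4,7,12,18,21,19,3,20,8,17,10,6,13,11,22,14,23]),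
  (8448, [0,1,2,20,17,9,11,12,4,7,19,16,22,3,15,6,14,10,13,8,21,18,5,23]),
  (8704, [0,2,1,6,13,21,11,12,10,3,5,9,15,4,19,17,16,7,20,18,14,8,22,23]),
  (9216, [0,2,1,21,13,6,8,18,9,5,3,10,20,4,7,14,16,19,15,12,17,11,22,23]),
  (10240, [0,1,2,9,16,20,6,21,17,11,12,3,14,4,10,8,13,15,5,7,18,19,22,23]),
  (12288, [0,1,2,6,22,7,12,11,17,15,9,5,3,4,19,10,16,21,14,18,20,8,13,23]),
  (16400, [0,2,1,22,3,16,7,6,12,15,9,18,11,5,4,20,17,13,8,19,10,21,14,23]),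
  (16448, [0,2,1,13,12,22,3,5,7,20,15,21,6,11,4,9,8,16,19,17,10,14,18,23]),
  (16512, [0,2,1,13,18,22,5,3,19,15,20,6,21,8,4,10,11,16,7,14,9,17,12,23]),
  (16640, [0,1,2,14,12,17,10,9,4,19,21,13,16,18,3,6,8,5,22,20,7,15,11,23]),
  (16896, [0,2,1,5,15,17,19,6,8,4,13,18,12,20,3,22,10,14,11,21,16,7,9,23]),
  (17408, [0,1,2,14,20,17,18,8,21,22,4,7,6,10,3,16,9,5,19,12,13,11,15,23]),
  (18432, [0,1,2,14,18,17,20,15,13,6,7,4,22,12,3,19,11,5,16,10,21,9,8,23]),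
  (20480, [0,1,2,14,8,17,15,20,16,7,6,22,4,11,3,21,12,5,13,9,19,10,18,23]),
  (24576, [0,2,1,14,16,5,19,21,15,11,12,10,9,4,3,18,22,17,20,7,8,6,13,23]),
  (32776, [0,2,1,4,15,13,18,11,7,5,17,19,21,20,22,3,10,16,6,12,14,8,9,23]),
  (32784, [0,1,2,6,4,19,15,20,11,5,14,12,8,16,21,3,22,7,18,9,17,10,13,23]),
  (32800, [0,2,1,16,21,4,10,9,8,17,14,18,12,7,22,3,19,13,11,15,5,20,6,23]),
  (32832, [0,1,2,15,6,10,4,13,8,17,5,11,12,7,20,3,19,9,18,16,14,22,21,23]),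
  (32896, [0,2,1,11,9,8,14,3,21,13,22,19,6,20,12,4,15,18,7,17,16,5,10,23]),
  (33024, [0,2,1,12,9,8,19,21,4,17,14,22,16,15,18,3,10,11,13,7,5,6,20,23]),
  (34816, [0,1,2,8,7,18,20,9,16,14,17,4,13,21,11,3,19,12,22,15,5,10,6,23]),
  (36864, [0,1,2,19,8,7,10,15,5,13,16,14,3,12,21,4,18,6,17,9,22,20,11,23]),
  (40960, [0,1,2,9,14,10,7,21,18,13,16,8,12,3,15,4,5,20,11,19,22,6,17,23]),
  (49152, [0,2,1,17,19,14,8,12,15,13,22,9,20,6,3,4,21,5,10,11,16,18,7,23]),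
  (65544, [0,1,2,3,13,14,9,20,7,11,18,6,21,16,17,12,4,5,19,10,8,15,22,23]),
  (65568, [0,2,1,5,22,3,15,10,18,6,21,12,8,16,14,19,4,17,11,9,7,20,13,23]),
  (65600, [0,2,1,19,13,6,3,14,18,15,10,8,11,22,21,9,4,7,12,5,20,17,16,23]),
  (65664, [0,2,1,8,14,12,13,4,19,9,20,7,6,5,11,15,3,18,21,16,10,22,17,23]),
  (65792, [0,1,2,10,22,15,6,21,3,18,8,17,5,13,9,12,4,20,14,7,11,19,16,23]),
  (66048, [0,2,1,21,14,6,15,9,18,4,16,11,12,5,7,13,3,19,8,20,22,10,17,23]),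
  (66560, [0,2,1,15,16,9,7,19,11,14,3,18,8,13,20,17,4,10,12,21,5,6,22,23]),
  (67584, [0,1,2,6,13,7,11,12,14,9,15,3,5,16,19,20,4,21,17,8,10,18,22,23]),
  (69632, [0,2,1,11,17,8,20,15,22,7,21,16,4,14,12,6,3,18,13,9,19,10,5,23]),
  (81920, [0,1,2,14,16,17,19,21,8,10,9,11,12,22,3,20,4,5,18,6,15,7,13,23]),
  (98304, [0,2,1,12,5,11,21,6,10,16,13,9,15,17,8,4,3,18,20,7,22,19,14,23]),
  (131088, [0,1,2,17,4,14,19,21,18,20,15,12,11,13,5,10,16,3,8,6,9,7,22,23]),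
  (131136, [0,2,1,17,8,5,4,13,20,21,7,15,9,18,14,19,12,3,10,22,6,16,11,23]),
  (131200, [0,2,1,14,20,17,16,4,7,12,8,21,6,10,5,18,15,3,19,22,11,13,9,23]),
  (131328, [0,1,2,16,6,13,9,10,3,12,18,14,17,7,22,8,19,4,5,15,11,20,21,23]),
  (131584, [0,1,2,17,20,14,11,12,7,4,22,21,19,10,5,13,9,3,6,8,16,18,15,23]),
  (132096, [0,1,2,13,18,22,10,20,6,14,3,19,21,8,16,5,12,4,7,15,17,9,11,23]),
  (133120, [0,1,2,22,12,16,6,19,5,9,20,3,17,18,13,10,8,4,14,21,15,7,11,23]),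
  (135168, [0,2,1,16,8,22,9,15,17,21,19,14,3,11,13,6,18,4,5,10,7,20,12,23]),
  (139264, [0,2,1,22,17,13,18,12,10,7,19,15,20,3,16,21,5,4,9,8,6,11,14,23]),
  (163840, [0,2,1,17,10,5,19,6,11,22,16,12,18,9,14,4,15,3,8,21,13,7,20,23]),
  (196608, [0,2,1,13,5,16,10,15,21,11,12,19,6,17,22,18,3,4,7,20,8,9,14,23]),
  (262152, [0,1,2,3,18,5,15,20,22,19,21,16,13,12,14,6,11,17,4,9,7,10,8,23]),
  (262160, [0,2,1,6,4,7,15,20,17,12,8,5,14,22,21,18,16,19,3,10,11,9,13,23]),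
  (262176, [0,1,2,16,10,4,11,18,14,7,6,5,17,15,13,21,9,22,3,12,19,8,20,23]),
  (262208, [0,1,2,15,18,20,4,22,5,21,7,17,14,8,9,6,12,10,3,13,19,16,11,23]),
  (262272, [0,1,2,11,21,18,16,4,14,20,15,5,17,6,12,10,19,8,3,13,9,22,7,23]),
  (262656, [0,2,1,9,7,10,11,8,16,3,17,22,13,19,20,14,21,15,4,12,5,18,6,23]),
  (263168, [0,2,1,20,21,15,12,18,16,17,3,22,13,6,9,5,7,10,4,11,14,8,19,23]),
  (270336, [0,2,1,10,16,15,11,18,5,19,6,14,17,4,20,21,22,9,3,8,7,12,13,23]),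
  (278528, [0,2,1,5,21,17,20,10,13,11,8,16,22,19,3,12,6,14,4,15,18,9,7,23]),
  (294912, [0,1,2,6,15,21,18,12,22,17,5,16,13,20,7,3,9,19,4,11,14,8,10,23]),
  (327680, [0,1,2,20,5,9,12,11,13,19,7,22,16,14,15,21,3,10,4,18,6,8,17,23]),
  (393216, [0,1,2,13,9,22,12,8,14,6,7,5,17,20,16,19,10,4,3,11,21,18,15,23]),
  (524296, [0,2,1,3,9,5,13,22,7,18,11,21,6,15,17,12,10,14,19,4,8,16,20,23]),
  (524304, [0,1,2,20,3,10,22,13,6,12,18,19,21,5,9,8,14,15,7,4,11,16,17,23]),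
  (524320, [0,2,1,13,7,4,5,17,20,12,8,15,9,19,16,18,21,22,10,3,11,14,6,23]),
  (524544, [0,2,1,10,18,20,5,17,4,21,6,22,16,11,9,7,12,15,13,3,19,14,8,23]),
  (524800, [0,1,2,18,10,12,13,16,19,3,17,21,6,15,11,5,9,8,7,4,14,22,20,23]),
  (525312, [0,1,2,8,6,11,5,14,15,22,4,10,20,7,12,16,19,18,9,3,13,17,21,23]),
  (526336, [0,2,1,21,8,6,13,22,17,20,10,3,5,12,7,15,11,19,14,4,9,16,18,23]),
  (528384, [0,2,1,18,20,8,16,13,5,6,21,17,3,15,11,19,9,12,14,4,7,22,10,23]),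
  (532480, [0,2,1,18,17,11,22,16,19,15,10,7,6,3,12,9,5,8,21,4,20,13,14,23]),
  (540672, [0,1,2,13,8,16,14,17,20,19,7,10,9,12,4,21,18,22,15,3,6,5,11,23]),
  (557056, [0,1,2,12,21,18,5,14,10,13,16,15,9,19,8,4,7,11,20,3,22,17,6,23]),
  (589824, [0,1,2,12,22,11,14,17,7,9,20,21,19,13,18,10,4,8,6,3,15,5,16,23]),
  (655360, [0,2,1,14,15,17,13,22,6,11,18,19,7,9,5,8,20,3,21,4,12,16,10,23]),
  (786432, [0,1,2,9,7,10,14,17,22,12,8,16,13,19,15,11,6,20,4,3,18,5,21,23]),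
  (1048584, [0,1,2,3,20,5,8,18,6,16,13,19,21,10,14,22,9,17,7,11,4,12,15,23]),
  (1048592, [0,2,1,21,4,6,12,11,10,14,17,9,15,13,7,5,22,19,20,8,3,18,16,23]),
  (1048608, [0,1,2,16,18,4,20,10,21,5,17,7,6,8,13,14,12,22,19,9,3,15,11,23]),
  (1048640, [0,1,2,21,12,19,4,16,10,17,14,15,9,18,7,5,8,6,20,22,3,13,11,23]),
  (1048704, [0,1,2,18,21,12,17,3,15,16,13,10,20,19,11,22,7,8,9,14,4,5,6,23]),
  (1048832, [0,2,1,6,12,19,10,15,4,17,5,16,13,11,7,14,8,21,22,20,3,9,18,23]),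
  (1050624, [0,1,2,19,20,7,18,12,13,5,17,4,22,15,21,14,10,6,16,11,3,8,9,23]),
  (1052672, [0,2,1,19,15,6,11,8,17,13,16,14,3,9,21,22,20,7,5,12,4,18,10,23]),
  (1056768, [0,2,1,7,13,19,18,8,20,14,17,15,9,4,21,5,16,6,10,11,3,12,22,23]),
  (1064960, [0,1,2,5,7,14,10,20,12,22,16,8,11,19,3,13,6,17,18,15,4,9,21,23]),
  (1114112, [0,2,1,20,17,10,11,12,21,16,22,7,19,14,15,13,3,9,6,18,4,8,5,23]),
  (1179648, [0,2,1,13,11,16,6,19,9,5,14,15,10,18,22,17,8,4,20,7,3,21,12,23]),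
  (1310720, [0,2,1,12,20,8,21,19,13,14,17,16,22,10,18,5,15,11,4,6,3,7,9,23]),
  (1572864, [0,2,1,21,9,19,22,16,11,5,14,8,12,20,6,17,15,7,18,4,3,13,10,23]),
  (2097160, [0,1,2,4,21,16,5,17,8,9,15,18,11,7,22,20,6,13,12,14,10,3,19,23]),
  (2097168, [0,1,2,21,3,6,16,13,8,9,20,12,18,17,19,10,5,7,11,22,15,4,14,23]),
  (2097184, [0,2,1,14,18,3,16,22,10,21,7,9,15,8,17,19,11,5,20,13,6,4,12,23]),
  (2097408, [0,1,2,21,8,7,14,5,4,9,10,16,22,18,6,15,11,19,13,17,20,3,12,23]),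
  (2097664, [0,2,1,11,20,8,17,5,19,4,16,21,7,9,12,13,10,18,6,14,22,3,15,23]),
  (2098176, [0,1,2,15,19,10,22,16,12,14,3,18,8,21,20,5,6,9,11,13,17,4,7,23]),
  (2099200, [0,2,1,15,12,9,17,5,22,21,6,4,13,8,20,7,18,10,16,14,19,3,11,23]),
  (2101248, [0,1,2,11,6,18,13,22,5,10,9,14,3,21,12,20,7,8,17,16,15,4,19,23]),
  (2105344, [0,2,1,10,14,9,22,13,18,21,19,8,11,3,15,6,17,20,12,16,7,4,5,23]),
  (2113536, [0,2,1,14,21,5,13,16,18,10,9,11,12,6,3,15,7,17,8,22,20,4,19,23]),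
  (2129920, [0,1,2,19,12,21,13,22,15,14,17,10,20,18,6,3,8,7,9,16,5,4,11,23]),
  (2162688, [0,2,1,15,22,20,5,14,21,12,18,6,7,16,10,11,4,9,19,17,8,3,13,23]),
  (2228224, [0,2,1,22,12,13,14,17,21,15,20,7,19,11,16,10,8,4,6,5,9,3,18,23]),
  (2359296, [0,1,2,7,11,21,14,5,13,15,20,22,16,12,19,9,8,6,4,17,10,3,18,23]),
  (3145728, [0,2,1,12,6,18,22,13,9,17,5,20,15,7,11,14,21,8,10,16,3,4,19,23]),
  (4194312, [0,1,2,3,16,14,10,15,6,12,8,7,19,13,17,11,22,5,21,9,18,20,4,23]),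
  (4194336, [0,1,2,5,22,3,19,21,12,9,10,18,8,16,17,15,13,14,11,6,20,7,4,23]),
  (4194368, [0,2,1,7,14,21,4,22,20,12,18,10,15,17,6,11,5,19,9,16,8,13,3,23]),
  (4194432, [0,1,2,6,14,21,22,4,18,9,20,11,8,5,7,10,17,19,12,16,15,13,3,23]),
  (4194560, [0,1,2,6,5,7,9,15,4,11,12,22,13,17,19,8,14,21,16,20,18,10,3,23]),
  (4194816, [0,1,2,10,5,9,7,21,11,4,22,12,8,17,20,13,14,15,18,19,16,6,3,23]),
  (4195328, [0,2,1,19,5,7,15,9,12,16,4,8,18,14,6,22,17,21,11,20,13,10,3,23]),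
  (4196352, [0,2,1,7,17,6,12,8,22,10,9,4,13,5,19,15,14,21,16,18,20,11,3,23]),
  (4198400, [0,1,2,20,13,9,6,21,5,8,18,14,3,22,15,11,16,10,17,7,12,19,4,23]),
  (4210688, [0,2,1,17,16,14,15,10,8,21,6,11,18,22,3,7,13,5,12,9,19,20,4,23]),
  (4227072, [0,1,2,11,14,18,9,10,21,22,13,6,19,5,12,4,17,8,7,15,16,20,3,23]),
  (4325376, [0,1,2,22,17,16,9,20,8,6,19,11,12,14,13,21,5,4,18,10,7,15,3,23]),
  (4456448, [0,2,1,11,16,8,21,7,14,15,20,17,5,22,12,10,13,18,3,19,9,6,4,23]),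
  (4718592, [0,1,2,8,13,18,14,17,19,20,9,6,7,22,11,15,16,12,21,3,10,5,4,23]),
  (5242880, [0,2,1,18,17,8,21,6,15,13,16,20,10,5,11,22,14,12,9,7,4,19,3,23]),
  (6291456, [0,1,2,11,5,12,22,16,10,6,7,9,20,17,8,19,14,18,15,13,21,4,3,23]),
  (40, [0,1,2,3,4,5,6,7,8,9,10,11,12,13,14,15,16,17,18,19,20,21,22,23]),
  (192, [0,1,2,19,9,21,3,5,11,16,4,8,18,20,6,13,10,7,12,14,22,17,15,23]),
  (1536, [0,2,1,21,13,6,8,18,9,5,3,10,20,4,7,14,16,19,15,12,17,11,22,23]),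
  (2304, [0,1,2,16,18,22,19,6,5,15,10,3,17,12,4,20,11,13,14,7,9,21,8,23]),
  (4352, [0,1,2,19,8,7,10,15,5,13,16,14,3,12,21,4,18,6,17,9,22,20,11,23]),
  (6144, [0,1,2,4,7,22,9,10,17,18,12,5,3,6,13,11,21,16,14,15,8,20,19,23]),
  (8208, [0,1,2,20,3,10,22,13,6,12,18,19,21,5,9,8,14,15,7,4,11,16,17,23]),
  (16392, [0,2,1,5,15,17,19,6,8,4,13,18,12,20,3,22,10,14,11,21,16,7,9,23]),
  (16416, [0,2,1,14,16,5,19,21,15,11,12,10,9,4,3,18,22,17,20,7,8,6,13,23]),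
  (33280, [0,2,1,4,15,13,18,11,7,5,17,19,21,20,22,3,10,16,6,12,14,8,9,23]),
  (33792, [0,2,1,20,21,15,12,18,16,17,3,22,13,6,9,5,7,10,4,11,14,8,19,23]),
  (65552, [0,1,2,20,5,9,12,11,13,19,7,22,16,14,15,21,3,10,4,18,6,8,17,23]),
  (73728, [0,2,1,18,17,11,22,16,19,15,10,7,6,3,12,9,5,8,21,4,20,13,14,23]),
  (131080, [0,2,1,5,19,14,22,4,12,10,9,8,18,7,17,15,6,3,11,13,20,16,21,23]),
  (131104, [0,2,1,14,18,3,16,22,10,21,7,9,15,8,17,19,11,5,20,13,6,4,12,23]),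
  (147456, [0,1,2,14,20,17,18,8,21,22,4,7,6,10,3,16,9,5,19,12,13,11,15,23]),
  (262400, [0,1,2,16,6,13,9,10,3,12,18,14,17,7,22,8,19,4,5,15,11,20,21,23]),
  (264192, [0,2,1,6,4,7,15,20,17,12,8,5,14,22,21,18,16,19,3,10,11,9,13,23]),
  (266240, [0,2,1,11,16,8,21,7,14,15,20,17,5,22,12,10,13,18,3,19,9,6,4,23]),
  (524352, [0,2,1,19,13,6,3,14,18,15,10,8,11,22,21,9,4,7,12,5,20,17,16,23]),
  (524416, [0,1,2,11,9,18,14,3,16,19,6,13,22,15,12,7,20,8,4,5,21,17,10,23]),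
  (1049088, [0,1,2,16,18,4,20,10,21,5,17,7,6,8,13,14,12,22,19,9,3,15,11,23]),
  (1049600, [0,2,1,15,16,9,7,19,11,14,3,18,8,13,20,17,4,10,12,21,5,6,22,23]),
  (1081344, [0,1,2,19,12,21,13,22,15,14,17,10,20,18,6,3,8,7,9,16,5,4,11,23]),
  (2097216, [0,2,1,21,12,19,5,14,15,22,16,10,9,18,6,4,11,7,20,17,13,3,8,23]),
  (2097280, [0,1,2,21,8,7,14,5,4,9,10,16,22,18,6,15,11,19,13,17,20,3,12,23]),
  (2621440, [0,1,2,13,8,16,14,17,20,19,7,10,9,12,4,21,18,22,15,3,6,5,11,23]),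
  (4194320, [0,2,1,7,3,19,20,10,18,16,4,11,12,17,21,22,14,6,8,15,13,9,5,23]),
  (4202496, [0,1,2,22,14,13,6,7,20,11,18,9,15,5,4,12,17,16,10,19,8,21,3,23]),
  (4259840, [0,2,1,20,17,10,11,12,21,16,22,7,19,14,15,13,3,9,6,18,4,8,5,23]),
  (10, [0,1,2,3,4,5,6,7,8,9,10,11,12,13,14,15,16,17,18,19,20,21,22,23]),
  (12, [0,2,1,3,10,5,16,4,6,8,12,19,7,20,17,11,9,14,21,22,18,13,15,23]),
  (18, [0,1,2,20,3,10,22,13,6,12,18,19,21,5,9,8,14,15,7,4,11,16,17,23]),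
  (20, [0,2,1,7,3,19,20,10,18,16,4,11,12,17,21,22,14,6,8,15,13,9,5,23]),
  (34, [0,1,2,5,22,3,19,21,12,9,10,18,8,16,17,15,13,14,11,6,20,7,4,23]),
  (36, [0,2,1,14,18,3,16,22,10,21,7,9,15,8,17,19,11,5,20,13,6,4,12,23]),
  (66, [0,1,2,19,9,21,3,5,11,16,4,8,18,20,6,13,10,7,12,14,22,17,15,23]),
  (68, [0,2,1,19,13,6,3,14,18,15,10,8,11,22,21,9,4,7,12,5,20,17,16,23]),
  (130, [0,1,2,11,9,18,14,3,16,19,6,13,22,15,12,7,20,8,4,5,21,17,10,23]),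
  (132, [0,2,1,13,21,4,14,3,9,11,18,10,20,6,16,8,7,22,15,17,12,5,19,23]),
  (258, [0,1,2,16,6,13,9,10,3,12,18,14,17,7,22,8,19,4,5,15,11,20,21,23]),
  (260, [0,2,1,20,19,10,16,22,3,11,12,5,17,6,15,18,21,9,14,13,8,4,7,23]),
  (514, [0,1,2,21,9,6,18,12,4,3,14,13,16,10,19,17,15,7,22,11,5,8,20,23]),
  (516, [0,2,1,9,7,10,11,8,16,3,17,22,13,19,20,14,21,15,4,12,5,18,6,23]),
  (1026, [0,1,2,10,7,15,13,4,8,14,3,11,12,6,9,5,21,20,18,22,17,16,19,23]),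
  (1028, [0,2,1,20,21,15,12,18,16,17,3,22,13,6,9,5,7,10,4,11,14,8,19,23]),
  (2050, [0,1,2,6,13,7,11,12,14,9,15,3,5,16,19,20,4,21,17,8,10,18,22,23]),
  (2052, [0,2,1,18,22,12,21,7,5,20,15,3,14,16,8,9,4,11,17,19,10,6,13,23]),
  (4098, [0,1,2,4,7,22,9,10,17,18,12,5,3,6,13,11,21,16,14,15,8,20,19,23]),
  (4100, [0,2,1,12,7,8,15,10,14,13,4,5,3,19,18,16,21,11,17,9,22,20,6,23]),
  (8194, [0,1,2,9,14,10,7,21,18,13,16,8,12,3,15,4,5,20,11,19,22,6,17,23]),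
  (8196, [0,2,1,18,17,11,22,16,19,15,10,7,6,3,12,9,5,8,21,4,20,13,14,23]),
  (16386, [0,1,2,14,20,17,18,8,21,22,4,7,6,10,3,16,9,5,19,12,13,11,15,23]),
  (16388, [0,2,1,17,16,14,15,10,8,21,6,11,18,22,3,7,13,5,12,9,19,20,4,23]),
  (32770, [0,1,2,19,12,21,13,22,15,14,17,10,20,18,6,3,8,7,9,16,5,4,11,23]),
  (32772, [0,2,1,4,15,13,18,11,7,5,17,19,21,20,22,3,10,16,6,12,14,8,9,23]),
  (65538, [0,1,2,15,17,20,7,21,8,22,4,18,11,5,9,16,3,10,12,19,13,6,14,23]),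
  (65540, [0,2,1,20,17,10,11,12,21,16,22,7,19,14,15,13,3,9,6,18,4,8,5,23]),
  (131074, [0,1,2,17,20,14,11,12,7,4,22,21,19,10,5,13,9,3,6,8,16,18,15,23]),
  (131076, [0,2,1,14,20,17,16,4,7,12,8,21,6,10,5,18,15,3,19,22,11,13,9,23]),
  (262146, [0,1,2,13,9,22,12,8,14,6,7,5,17,20,16,19,10,4,3,11,21,18,15,23]),
  (262148, [0,2,1,6,4,7,15,20,17,12,8,5,14,22,21,18,16,19,3,10,11,9,13,23]),
  (524290, [0,1,2,8,6,11,5,14,15,22,4,10,20,7,12,16,19,18,9,3,13,17,21,23]),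
  (524292, [0,2,1,22,19,16,5,17,9,8,12,10,20,7,4,11,6,13,15,3,18,14,21,23]),
  (1048578, [0,1,2,16,18,4,20,10,21,5,17,7,6,8,13,14,12,22,19,9,3,15,11,23]),
  (1048580, [0,2,1,12,20,8,21,19,13,14,17,16,22,10,18,5,15,11,4,6,3,7,9,23]),
  (2097154, [0,1,2,21,8,7,14,5,4,9,10,16,22,18,6,15,11,19,13,17,20,3,12,23]),
  (2097156, [0,2,1,15,12,9,17,5,22,21,6,4,13,8,20,7,18,10,16,14,19,3,11,23]),
  (4194306, [0,1,2,22,17,16,9,20,8,6,19,11,12,14,13,21,5,4,18,10,7,15,3,23]),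
  (4194308, [0,2,1,13,14,4,21,19,12,20,10,18,11,17,16,15,5,22,8,6,9,7,3,23])]

theorem pair_mem : ∀ i : Fin 24, ∀ j : Fin 24, i ≠ j → (2 ^ i.val ||| 2 ^ j.val) ∈ pairMasks := by
  decide +kernel

theorem pair_props : pairMasks.all (fun m => popc m == 2 && decide (m < 2 ^ 24)) = true := by
  decide +kernel

theorem pair_nodup : pairMasks.Nodup := by decide +kernel

theorem oct77_ok :
    oct77.all (fun c => inCode c && popc c == 8 && c.testBit 23 && c.testBit 0) = true := by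
  decide +kernel

theorem oct77_cover :
    allP (fun c => !(popc c == 8 && c.testBit 23 && c.testBit 0) || oct77.contains c) gB 0 = true := by
  decide +kernel

theorem cert_ok : cert.all (entryOK [23, 0] [6] rep) = true := by decide +kernel

theorem cover_ok : pairMasks.all (fun m => !(!m.testBit 23 && !m.testBit 0 && !(m == 6)) ||
    cert.any (fun e => e.1 == m)) = true := by decide +kernel

theorem cnt_in : (pairMasks.filter (fun m => !m.testBit 23 && !m.testBit 0 &&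
    popc (6 &&& m) == 0 && propB m)).length = 30 := by decide +kernel

theorem cnt_out : (pairMasks.filter (fun m => !m.testBit 23 && !m.testBit 0 &&
    popc (6 &&& m) == 0 && !propB m)).length = 160 := by decide +kernel

theorem msk_union (a b : ℕ) : msk a ∪ msk b = msk (a ||| b) := by
  ext p
  simp only [Finset.mem_union, mem_msk, Nat.testBit_or, Bool.or_eq_true]

theorem msk_subset_iff (a c : ℕ) (ha : a < 2 ^ 24) : msk a ⊆ msk c ↔ a &&& c = a := by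
  constructor
  · intro h
    have h1 : msk (a &&& c) = msk a := by rw [← msk_inter, Finset.inter_eq_left.mpr h]
    exact dec_injOn (lt_of_le_of_lt Nat.and_le_left ha) ha (support₂_injective h1)
  · intro h
    rw [← h, ← msk_inter]
    exact Finset.inter_subset_right

theorem msk_pow_or (i j : ℕ) (hi : i < 24) (hj : j < 24) :
    msk (2 ^ i ||| 2 ^ j) = {pt i, pt j} := by
  ext p
  simp only [mem_msk, Nat.testBit_or, Nat.testBit_two_pow, Bool.or_eq_true, decide_eq_true_eq,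
    Finset.mem_insert, Finset.mem_singleton]
  constructor
  · rintro (h | h)
    · left; rw [h, pt_idx]
    · right; rw [h, pt_idx]
  · rintro (h | h)
    · left; rw [h, idx_pt hi]
    · right; rw [h, idx_pt hj]

theorem msk_six : msk 6 = {pt 2, pt 1} := msk_pow_or 2 1 (by norm_num) (by norm_num)

theorem card_two_iff (t : Finset Cfsg.GolayPt) : t.card = 2 ↔ ∃ m ∈ pairMasks, msk m = t := by
  constructor
  · intro h
    obtain ⟨x, y, hxy, rfl⟩ := Finset.card_eq_two.mp h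
    have hne : (⟨idx x, idx_lt x⟩ : Fin 24) ≠ ⟨idx y, idx_lt y⟩ := by
      intro heq
      exact hxy (idx_injective (Fin.mk.inj heq))
    refine ⟨2 ^ idx x ||| 2 ^ idx y, pair_mem ⟨idx x, idx_lt x⟩ ⟨idx y, idx_lt y⟩ hne, ?_⟩
    rw [msk_pow_or _ _ (idx_lt x) (idx_lt y), pt_idx, pt_idx]
  · rintro ⟨m, hm, rfl⟩
    have := List.all_eq_true.mp pair_props m hm
    simp only [Bool.and_eq_true, beq_iff_eq, decide_eq_true_eq] at this
    rw [card_msk, this.1]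

theorem pair_lt {m : ℕ} (hm : m ∈ pairMasks) : m < 2 ^ 24 := by
  have := List.all_eq_true.mp pair_props m hm
  simp only [Bool.and_eq_true, beq_iff_eq, decide_eq_true_eq] at this
  exact this.2

theorem msk_inj_pairs {m m' : ℕ} (hm : m ∈ pairMasks) (hm' : m' ∈ pairMasks)
    (h : msk m = msk m') : m = m' :=
  dec_injOn (pair_lt hm) (pair_lt hm') (support₂_injective h)

/-- counting 2-subsets through masks -/
theorem ncard_pairs_filter (Q : Finset Cfsg.GolayPt → Prop) (P : ℕ → Bool)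
    (h : ∀ m ∈ pairMasks, (Q (msk m) ↔ P m = true)) :
    {t : Finset Cfsg.GolayPt | t.card = 2 ∧ Q t}.ncard = (pairMasks.filter P).length := by
  have hset : {t : Finset Cfsg.GolayPt | t.card = 2 ∧ Q t} =
      msk '' {m | m ∈ pairMasks ∧ P m = true} := by
    ext b
    simp only [Set.mem_ofPred_eq, Set.mem_image]
    constructor
    · rintro ⟨hb, hq⟩
      obtain ⟨m, hm, rfl⟩ := (card_two_iff b).mp hb
      exact ⟨m, ⟨hm, (h m hm).mp hq⟩, rfl⟩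
    · rintro ⟨m, ⟨hm, hp⟩, rfl⟩
      exact ⟨(card_two_iff _).mpr ⟨m, hm, rfl⟩, (h m hm).mpr hp⟩
  rw [hset, Set.InjOn.ncard_image]
  · have h2 : {m | m ∈ pairMasks ∧ P m = true} = ((pairMasks.filter P).toFinset : Set ℕ) := by
      ext m; simp
    rw [h2, Set.ncard_coe_finset, List.toFinset_card_of_nodup (pair_nodup.filter _)]
  · intro m hm m' hm' hmm
    exact msk_inj_pairs hm.1 hm'.1 hmm

theorem mem_oct77 {c : ℕ} (hc : c ∈ sums gB) (h8 : popc c = 8) (h23 : c.testBit 23 = true)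
    (h0 : c.testBit 0 = true) : c ∈ oct77 := by
  have h1 := (allP_iff _ gB 0).mp oct77_cover c hc
  rw [Nat.zero_xor] at h1
  simpa [h8, h23, h0] using h1

theorem prop_iff (m : ℕ) (hm : m < 2 ^ 24) :
    (∃ o ∈ Cfsg.octads, pt 23 ∈ o ∧ pt 0 ∈ o ∧ msk 6 ∪ msk m ⊆ o) ↔ propB m = true := by
  have h6 : 6 ||| m < 2 ^ 24 := Nat.or_lt_two_pow (by norm_num) hm
  simp only [propB, List.any_eq_true, beq_iff_eq]
  constructor
  · rintro ⟨o, ho, h23, h0, hsub⟩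
    obtain ⟨c, hc, h8, rfl⟩ := (mem_octads_iff_msk o).mp ho
    rw [pt_mem_msk (by norm_num)] at h23 h0
    rw [msk_union, msk_subset_iff _ _ h6] at hsub
    exact ⟨c, mem_oct77 hc h8 h23 h0, hsub⟩
  · rintro ⟨c, hc, hsub⟩
    have := List.all_eq_true.mp oct77_ok c hc
    simp only [Bool.and_eq_true, beq_iff_eq] at this
    obtain ⟨⟨⟨hin, h8⟩, h23⟩, h0⟩ := this
    refine ⟨msk c, msk_mem_octads (mem_sums_of_inCode hin) h8, ?_, ?_, ?_⟩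
    · rw [pt_mem_msk (by norm_num)]; exact h23
    · rw [pt_mem_msk (by norm_num)]; exact h0
    · rw [msk_union, msk_subset_iff _ _ h6]; exact hsub

theorem disj_iff (m : ℕ) : Disjoint (msk 6) (msk m) ↔ popc (6 &&& m) = 0 := by
  rw [Finset.disjoint_iff_inter_eq_empty, msk_inter, ← Finset.card_eq_zero, card_msk]

theorem base_count_in :
    {t : Finset Cfsg.GolayPt | t.card = 2 ∧ ((pt 23 ∉ t ∧ pt 0 ∉ t) ∧ Disjoint (msk 6) t ∧
      (∃ o ∈ Cfsg.octads, pt 23 ∈ o ∧ pt 0 ∈ o ∧ msk 6 ∪ t ⊆ o))}.ncard = 30 := by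
  rw [ncard_pairs_filter _ (fun m => !m.testBit 23 && !m.testBit 0 && popc (6 &&& m) == 0 && propB m)]
  · exact cnt_in
  · intro m hm
    rw [pt_mem_msk (by norm_num), pt_mem_msk (by norm_num), disj_iff, prop_iff m (pair_lt hm)]
    simp [and_assoc]

theorem base_count_out :
    {t : Finset Cfsg.GolayPt | t.card = 2 ∧ ((pt 23 ∉ t ∧ pt 0 ∉ t) ∧ Disjoint (msk 6) t ∧
      ¬ (∃ o ∈ Cfsg.octads, pt 23 ∈ o ∧ pt 0 ∈ o ∧ msk 6 ∪ t ⊆ o))}.ncard = 160 := by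
  rw [ncard_pairs_filter _ (fun m => !m.testBit 23 && !m.testBit 0 && popc (6 &&& m) == 0 && !propB m)]
  · exact cnt_out
  · intro m hm
    rw [pt_mem_msk (by norm_num), pt_mem_msk (by norm_num), disj_iff, prop_iff m (pair_lt hm)]
    simp [and_assoc]

theorem base_trans (t t' : Finset Cfsg.GolayPt) (ht : t.card = 2 ∧ pt 23 ∉ t ∧ pt 0 ∉ t)
    (ht' : t'.card = 2 ∧ pt 23 ∉ t' ∧ pt 0 ∉ t') (hts : t ≠ msk 6) (hts' : t' ≠ msk 6)
    (hcard : (msk 6 ∩ t).card = (msk 6 ∩ t').card)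
    (hprop : (∃ o ∈ Cfsg.octads, pt 23 ∈ o ∧ pt 0 ∈ o ∧ msk 6 ∪ t ⊆ o) ↔
      (∃ o ∈ Cfsg.octads, pt 23 ∈ o ∧ pt 0 ∈ o ∧ msk 6 ∪ t' ⊆ o)) :
    ∃ g ∈ Cfsg.M24, g (pt 23) = pt 23 ∧ g (pt 0) = pt 0 ∧ g • msk 6 = msk 6 ∧ g • t = t' := by
  obtain ⟨m, hm, rfl⟩ := (card_two_iff t).mp ht.1
  obtain ⟨m', hm', rfl⟩ := (card_two_iff t').mp ht'.1
  rw [pt_mem_msk (by norm_num), pt_mem_msk (by norm_num)] at ht ht'
  rw [msk_inter, msk_inter, card_msk, card_msk] at hcard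
  rw [prop_iff m (pair_lt hm), prop_iff m' (pair_lt hm')] at hprop
  have hm6 : m ≠ 6 := fun h => hts (by rw [h])
  have hm6' : m' ≠ 6 := fun h => hts' (by rw [h])
  have c : cert.any (fun e => e.1 == m) = true := by
    have := List.all_eq_true.mp cover_ok m hm
    simpa [ht.2.1, ht.2.2, hm6] using this
  have c' : cert.any (fun e => e.1 == m') = true := by
    have := List.all_eq_true.mp cover_ok m' hm'
    simpa [ht'.2.1, ht'.2.2, hm6'] using this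
  have hrep : rep m = rep m' := by
    have hb : propB m = propB m' := by
      cases h1 : propB m <;> cases h2 : propB m' <;> simp_all
    simp only [rep, hcard, hb]
  obtain ⟨g, hg, hgm⟩ := cert_trans cert_ok c c' hrep
  rw [mem_stabFM] at hg
  exact ⟨g, hg.1, hg.2.1 23 (by simp), hg.2.1 0 (by simp), hg.2.2 6 (by simp), hgm⟩

theorem frame (p q : Cfsg.GolayPt) (hpq : p ≠ q) (s : Finset Cfsg.GolayPt)
    (hs : s.card = 2 ∧ p ∉ s ∧ q ∉ s) :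
    ∃ h ∈ Cfsg.M24, h p = pt 23 ∧ h q = pt 0 ∧ h • s = msk 6 := by
  obtain ⟨a, b, hab, rfl⟩ := Finset.card_eq_two.mp hs.1
  have hpa : p ≠ a := fun h => hs.2.1 (by simp [h])
  have hpb : p ≠ b := fun h => hs.2.1 (by simp [h])
  have hqa : q ≠ a := fun h => hs.2.2 (by simp [h])
  have hqb : q ≠ b := fun h => hs.2.2 (by simp [h])
  obtain ⟨g, hg, e0, e1, e2, e3⟩ := exists_map_four hpq hpa hpb hqa hqb hab
  refine ⟨g, hg, e0, e1, ?_⟩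
  rw [msk_six]
  ext x
  simp only [Finset.mem_smul_finset, Finset.mem_insert, Finset.mem_singleton, Equiv.Perm.smul_def]
  constructor
  · rintro ⟨y, (rfl | rfl), rfl⟩
    · right; exact e2
    · left; exact e3
  · rintro (rfl | rfl)
    · exact ⟨b, Or.inr rfl, e3⟩
    · exact ⟨a, Or.inl rfl, e2⟩

/-- Fix two points p ≠ q and a pair s of two further points. Among the pairs avoiding p, q and disjoint from s, exactly 30 lie in an octad together with p, q and s and exactly 160 do not; and any two pairs other than s that meet s in equally many points and agree on that octad property are carried to one another by an element of the group of the length-24 code fixing p, q and s. -/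
theorem result (p q : Cfsg.GolayPt) (hpq : p ≠ q) (s : Finset Cfsg.GolayPt) (hs : (s.card = 2 ∧ p ∉ s ∧ q ∉ s)) : {t : Finset Cfsg.GolayPt | (t.card = 2 ∧ p ∉ t ∧ q ∉ t) ∧ Disjoint s t ∧ (∃ o ∈ Cfsg.octads, p ∈ o ∧ q ∈ o ∧ s ∪ t ⊆ o)}.ncard = 30 ∧ {t : Finset Cfsg.GolayPt | (t.card = 2 ∧ p ∉ t ∧ q ∉ t) ∧ Disjoint s t ∧ ¬ (∃ o ∈ Cfsg.octads, p ∈ o ∧ q ∈ o ∧ s ∪ t ⊆ o)}.ncard = 160 ∧ ∀ t t' : Finset Cfsg.GolayPt, (t.card = 2 ∧ p ∉ t ∧ q ∉ t) → (t'.card = 2 ∧ p ∉ t' ∧ q ∉ t') → t ≠ s → t' ≠ s → (s ∩ t).card = (s ∩ t').card → ((∃ o ∈ Cfsg.octads, p ∈ o ∧ q ∈ o ∧ s ∪ t ⊆ o) ↔ (∃ o ∈ Cfsg.octads, p ∈ o ∧ q ∈ o ∧ s ∪ t' ⊆ o)) → ∃ g : Equiv.Perm Cfsg.GolayPt, g ∈ Cfsg.M24 ∧ g p = p ∧ g q = q ∧ g • s = s ∧ g • t = t' := by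
  obtain ⟨f, hf, hfp, hfq, hfs⟩ := frame p q hpq s hs
  have memp : ∀ b : Finset Cfsg.GolayPt, pt 23 ∈ f • b ↔ p ∈ b := by
    intro b; rw [← hfp, apply_mem_smul_iff]
  have memq : ∀ b : Finset Cfsg.GolayPt, pt 0 ∈ f • b ↔ q ∈ b := by
    intro b; rw [← hfq, apply_mem_smul_iff]
  have hdisj : ∀ t : Finset Cfsg.GolayPt, Disjoint (msk 6) (f • t) ↔ Disjoint s t := by
    intro t
    rw [← hfs, Finset.disjoint_iff_inter_eq_empty, Finset.disjoint_iff_inter_eq_empty,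
      ← Finset.smul_finset_inter, Finset.smul_finset_eq_empty]
  have hprop : ∀ t : Finset Cfsg.GolayPt,
      (∃ o ∈ Cfsg.octads, pt 23 ∈ o ∧ pt 0 ∈ o ∧ msk 6 ∪ f • t ⊆ o) ↔
        (∃ o ∈ Cfsg.octads, p ∈ o ∧ q ∈ o ∧ s ∪ t ⊆ o) := by
    intro t
    constructor
    · rintro ⟨o, ho, h1, h2, h3⟩
      refine ⟨f⁻¹ • o, (smul_mem_octads_iff (Cfsg.M24.inv_mem hf) _).mpr ho, ?_, ?_, ?_⟩
      · rw [← memp, smul_inv_smul]; exact h1
      · rw [← memq, smul_inv_smul]; exact h2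
      · rw [← hfs, ← Finset.smul_finset_union] at h3
        intro x hx
        have : f • x ∈ f • (s ∪ t) := Finset.smul_mem_smul_finset hx
        have h4 := h3 this
        rw [Finset.mem_inv_smul_finset_iff]
        exact h4
    · rintro ⟨o, ho, h1, h2, h3⟩
      refine ⟨f • o, (smul_mem_octads_iff hf _).mpr ho, (memp _).mpr h1, (memq _).mpr h2, ?_⟩
      rw [← hfs, ← Finset.smul_finset_union]
      exact Finset.smul_finset_subset_smul_finset h3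
  refine ⟨?_, ?_, ?_⟩
  · rw [← base_count_in]
    apply ncard_eq_of_smul f
    intro b
    simp only [Set.mem_ofPred_eq]
    rw [Finset.card_smul_finset, memp, memq, hdisj, hprop]
    tauto
  · rw [← base_count_out]
    apply ncard_eq_of_smul f
    intro b
    simp only [Set.mem_ofPred_eq]
    rw [Finset.card_smul_finset, memp, memq, hdisj, hprop]
    tauto
  · intro t t' ht ht' hts hts' hcard hp
    obtain ⟨g0, hg0, hg0p, hg0q, hg0s, hg0t⟩ := base_trans (f • t) (f • t')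
      ⟨by rw [Finset.card_smul_finset]; exact ht.1, fun hc => ht.2.1 ((memp _).mp hc),
        fun hc => ht.2.2 ((memq _).mp hc)⟩
      ⟨by rw [Finset.card_smul_finset]; exact ht'.1, fun hc => ht'.2.1 ((memp _).mp hc),
        fun hc => ht'.2.2 ((memq _).mp hc)⟩
      (by rw [← hfs]; exact fun hc => hts (smul_left_cancel f hc))
      (by rw [← hfs]; exact fun hc => hts' (smul_left_cancel f hc))
      (by rw [← hfs, card_smul_inter, card_smul_inter]; exact hcard)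
      (by rw [hprop, hprop]; exact hp)
    refine ⟨f⁻¹ * g0 * f, Cfsg.M24.mul_mem (Cfsg.M24.mul_mem (Cfsg.M24.inv_mem hf) hg0) hf, ?_, ?_, ?_, ?_⟩
    · rw [Equiv.Perm.mul_apply, Equiv.Perm.mul_apply, hfp, hg0p, ← hfp]; simp
    · rw [Equiv.Perm.mul_apply, Equiv.Perm.mul_apply, hfq, hg0q, ← hfq]; simp
    · rw [mul_smul, mul_smul, hfs, hg0s, ← hfs, inv_smul_smul]
    · rw [mul_smul, mul_smul, hg0t, inv_smul_smul]

end Cfsg.Agent.S1638
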