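import Cfsg.Statements.S1642
import Cfsg.Agent.Lib.Helper10.HS

set_option autoImplicit false
open Cfsg

namespace Cfsg.Agent.S1642

/-- Some involution of the Higman–Sims group acts without fixed points on its 100 points. -/
theorem result (v w : ↥Cfsg.leechLattice) (hv : Cfsg.sqNorm (v : Cfsg.GolayPt → ℤ) = 48) (hw : Cfsg.sqNorm (w : Cfsg.GolayPt → ℤ) = 48) (hvw : Cfsg.dotInt (v : Cfsg.GolayPt → ℤ) (w : Cfsg.GolayPt → ℤ) = -32) : ∃ g : ↥Cfsg.Co0, g • v = v ∧ g • w = w ∧ orderOf g = 2 ∧ ∀ x ∈ {x : ↥Cfsg.leechLattice | Cfsg.sqNorm (x : Cfsg.GolayPt → ℤ) = 32 ∧ Cfsg.dotInt (v : Cfsg.GolayPt → ℤ) (x : Cfsg.GolayPt → ℤ) = 24 ∧ Cfsg.dotInt (w : Cfsg.GolayPt → ℤ) (x : Cfsg.GolayPt → ℤ) = -24}, g • x ≠ x :=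
  Cfsg.Agent.Lib.Helper10.hs_invol v w hv hw hvw

end Cfsg.Agent.S1642
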