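import Cfsg.Statements.S1643
import Cfsg.Agent.Lib.Helper94.L223PSL

set_option autoImplicit false
open scoped Pointwise
open Cfsg

namespace Cfsg.Agent.S1643

open Cfsg.Agent.Lib.Helper94.L223 Cfsg.Agent.Lib.Helper9 Cfsg.Agent.Lib.Helper89

theorem coatomF :
    IsCoatom ((F.subgroupOf M24).subgroupOf (MulAction.stabilizer M24 (none : GolayPt))) := by
  have hAB : F.subgroupOf M24 ≤ MulAction.stabilizer M24 (none : GolayPt) := by
    intro x hx
    rw [Subgroup.mem_subgroupOf] at hx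
    rw [MulAction.mem_stabilizer_iff]
    exact (mem_M23_iff.1 (F_le_M23 hx)).2
  apply coatom_subgroupOf hAB
  · intro h
    have h1 : Nat.card ↥(F.subgroupOf M24) = 253 := by
      rw [← card_F]
      exact Nat.card_congr (Subgroup.subgroupOfEquivOfLe F_le_M24).toEquiv
    rw [h, card_stabilizer_M24] at h1
    norm_num at h1
  · intro K hAK hKB
    have h1 : F ≤ K.map M24.subtype := by
      intro x hx
      exact ⟨⟨x, F_le_M24 hx⟩, hAK (Subgroup.mem_subgroupOf.2 hx), rfl⟩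
    have h2 : K.map M24.subtype ≤ Spor.M23 := by
      rintro y ⟨k, hk, rfl⟩
      have h3 := hKB hk
      rw [MulAction.mem_stabilizer_iff] at h3
      exact mem_M23_iff.2 ⟨k.2, h3⟩
    have h3 : K = (K.map M24.subtype).subgroupOf M24 :=
      (Subgroup.comap_map_eq_self_of_injective (Subgroup.subtype_injective M24) K).symm
    rcases eq_of_between h1 h2 with h4 | h4
    · left
      rw [h3, h4]
    · right
      rw [h3, h4]
      ext x
      rw [Subgroup.mem_subgroupOf, mem_M23_iff, MulAction.mem_stabilizer_iff]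
      exact ⟨fun h => h.2, fun h => ⟨x.2, h⟩⟩

theorem coatomL : IsCoatom (L.subgroupOf M24) := by
  apply coatom_subgroupOf L_le_M24
  · intro h
    have h1 := card_L
    rw [h, card_M24] at h1
    norm_num at h1
  · intro K hLK hK
    exact eq_of_over hLK hK

/-- PSL(2, 23) = ⟨t ↦ t+1, t ↦ u t (u square), t ↦ −1/t⟩ is maximal of order 6072 in the group of the length-24 code, and its point stabiliser 23:11 (order 253) is maximal in the Mathieu group of degree 23. -/
theorem result : (Subgroup.closure ({Equiv.optionCongr (Equiv.addRight (1 : ZMod 23)), Cfsg.projInv} ∪ {g : Equiv.Perm Cfsg.GolayPt | ∃ u : (ZMod 23)ˣ, IsSquare u ∧ g = Equiv.optionCongr (Units.mulLeft u)}) ≤ Cfsg.M24 ∧ Nat.card ↥(Subgroup.closure ({Equiv.optionCongr (Equiv.addRight (1 : ZMod 23)), Cfsg.projInv} ∪ {g : Equiv.Perm Cfsg.GolayPt | ∃ u : (ZMod 23)ˣ, IsSquare u ∧ g = Equiv.optionCongr (Units.mulLeft u)})) = 6072 ∧ IsCoatom ((Subgroup.closure ({Equiv.optionCongr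 (Equiv.addRight (1 : ZMod 23)), Cfsg.projInv} ∪ {g : Equiv.Perm Cfsg.GolayPt | ∃ u : (ZMod 23)ˣ, IsSquare u ∧ g = Equiv.optionCongr (Units.mulLeft u)})).subgroupOf Cfsg.M24)) ∧ (Subgroup.closure ({Equiv.optionCongr (Equiv.addRight (1 : ZMod 23))} ∪ {g : Equiv.Perm Cfsg.GolayPt | ∃ u : (ZMod 23)ˣ, IsSquare u ∧ g = Equiv.optionCongr (Units.mulLeft u)}) ≤ Cfsg.M24 ⊓ MulAction.stabilizer (Equiv.Perm Cfsg.GolayPt) (none : Cfsg.GolayPt) ∧ Nat.card ↥(Subgroup.closure ({Equiv.optionCongr (Equiv.addRight (1 : ZMod 23))} ∪ {g : Equiv.Perm Cfsg.GolayPt | ∃ u : (ZMod 23)ˣ, IsSquare u ∧ g = Equiv.optionCongr (Units.mulLeft u)})) = 253 ∧ IsCoatom (((Subgroup.closure ({Equiv.optionCongr (Equiv.addRight (1 : ZMod 23))} ∪ {g : Equiv.Perm Cfsg.GolayPt | ∃ u : (ZMod 23)ˣ, IsSquare u ∧ g = Equiv.optionCongr (Units.mulLeft u)})).subgroupOf Cfsg.M24).subgroupOf (MulAction.stabilizer Cfsg.M24 (none : Cfsg.GolayPt)))) := by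
  exact ⟨⟨L_le_M24, card_L, coatomL⟩, ⟨F_le_M23, card_F, coatomF⟩⟩

end Cfsg.Agent.S1643
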