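import Cfsg.Statements.S1666
import Cfsg.Agent.Lib.Helper9.HSRMain
import Cfsg.Agent.Lib.Helper95.NormBound2

set_option autoImplicit false
open Cfsg

namespace Cfsg.Agent.S1666

/-- Recognition of the Higman–Sims group as a rank 3 permutation group: a transitive permutation group on 100 points in which the stabiliser of a point is isomorphic to the Mathieu group M₂₂ and has two further orbits, of sizes 22 and 77, is isomorphic to the Higman–Sims group. -/
theorem result {Ω : Type*} [Fintype Ω] [DecidableEq Ω] (hΩ : Fintype.card Ω = 100) (G : Subgroup (Equiv.Perm Ω)) [MulAction.IsPretransitive G Ω] (a : Ω)  (e : MulAction.stabilizer G a ≃* Cfsg.Spor.M22) (b c : Ω) (hb : (MulAction.orbit (MulAction.stabilizer G a) b).ncard = 22) (hc : (MulAction.orbit (MulAction.stabilizer G a) c).ncard = 77) : Cfsg.Spor.IsoHS G := by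
  obtain ⟨Γ, hinv, hreg, hadj, hnadj⟩ :=
    Cfsg.Agent.Lib.Helper9.HSR.exists_graph hΩ G a b c hb hc
  let φ : ↥G →* (Γ ≃g Γ) :=
    { toFun := fun g => { toEquiv := g.1, map_rel_iff' := fun {x y} => hinv g.1 g.2 x y }
      map_one' := rfl
      map_mul' := fun _ _ => rfl }
  have hφ : Function.Injective φ := by
    intro g h hgh
    apply Subtype.ext
    exact congrArg (fun f : Γ ≃g Γ => f.toEquiv) hgh
  have hG : Nat.card ↥G = 44352000 := by
    have h1 := Subgroup.index_mul_card (MulAction.stabilizer (↥G) a)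
    rw [MulAction.index_stabilizer, MulAction.orbit_eq_univ, Set.ncard_univ,
      Nat.card_eq_fintype_card, hΩ, Nat.card_congr e.toEquiv,
      Cfsg.Agent.Lib.Helper95.card_sporM22] at h1
    exact h1.symm
  obtain ⟨e1⟩ := Cfsg.Agent.Lib.Helper9.HSR.iso_Hc_of_rank3 Γ
    (by rw [Nat.card_eq_fintype_card, hΩ]) hreg hG φ hφ
    (fun x y x' y' h h' => by
      obtain ⟨g, hg, h1, h2⟩ := hadj x y x' y' h h'
      exact ⟨⟨g, hg⟩, h1, h2⟩)
    (fun x y x' y' hxy h hxy' h' => by
      obtain ⟨g, hg, h1, h2⟩ := hnadj x y x' y' hxy h hxy' h'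
      exact ⟨⟨g, hg⟩, h1, h2⟩)
  obtain ⟨e2⟩ := Cfsg.Agent.Lib.Helper9.HSR.sporHS_iso_Hc
  exact ⟨e1.trans e2.symm⟩

end Cfsg.Agent.S1666
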