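import Cfsg.Statements.S1684
import Cfsg.Agent.Lib.Helper38.Fi22U6

set_option autoImplicit false
open Cfsg

namespace Cfsg.Agent.S1684

/-- In the presented Fischer group Fi₂₂, the subgroup generated by the images of a, c, d, e, f, g, h, i and (abcdeh)^5 is a non-split double cover of PSU(6, 2) (realised over a field with four elements). -/
theorem result : ∃ (K : Type) (_ : Field K) (_ : Fintype K), Fintype.card K = 4 ∧ Cfsg.IsNonsplitDoubleCover (((Subgroup.closure ({Cfsg.Spor.Fi22.a, Cfsg.Spor.Fi22.c, Cfsg.Spor.Fi22.d, Cfsg.Spor.Fi22.e, Cfsg.Spor.Fi22.f, Cfsg.Spor.Fi22.g, Cfsg.Spor.Fi22.h, Cfsg.Spor.Fi22.i, (Cfsg.Spor.Fi22.a * Cfsg.Spor.Fi22.b * Cfsg.Spor.Fi22.c * Cfsg.Spor.Fi22.d * Cfsg.Spor.Fi22.e * Cfsg.Spor.Fi22.h) ^ 5} : Set (FreeGroup Cfsg.Spor.Fi22.Gen))).map (PresentedGroup.mk (Cfsg.Spor.coxRelators Cfsg.Spor.Fi22.edges ∪ {r | r ∈ Cfsg.Spor.Fi22.extra}))))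 (Cfsg.PSU 6 K 2) := by
  exact ⟨Cfsg.Agent.Lib.Helper38.F4, inferInstance, inferInstance, Cfsg.Agent.Lib.Helper38.F4.card,
    Cfsg.Agent.Lib.Helper38.Fi22U6.main⟩

end Cfsg.Agent.S1684
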