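import Cfsg.Statements.S1685
-- import your own Cfsg.Agent.* helpers here
import Cfsg.Agent.Lib.Helper39.Fi22P
import Cfsg.Agent.Lib.Helper39.Fi22OV
import Cfsg.Agent.Lib.Helper39.Fi22ON

set_option autoImplicit false
open Cfsg

namespace Cfsg.Agent.S1685

open Cfsg.Agent.Lib.Helper38 Cfsg.Agent.Lib.Helper39.Fi22O Cfsg.Agent.Lib.Helper39.Fi22P

set_option maxRecDepth 100000
set_option maxHeartbeats 0
set_option linter.unusedSimpArgs false

theorem chkG_ok : cert.chkG = true := by decide +kernel

theorem words_eq : (List.range cert.nrel).map cert.wordL = words := by decide +kernel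

/-- the generators of the subgroup -/
abbrev S : Set (FreeGroup Cfsg.Spor.Fi22.Gen) :=
  {Cfsg.Spor.Fi22.b, Cfsg.Spor.Fi22.c, Cfsg.Spor.Fi22.d, Cfsg.Spor.Fi22.e, Cfsg.Spor.Fi22.f, Cfsg.Spor.Fi22.g, Cfsg.Spor.Fi22.h, Cfsg.Spor.Fi22.i}

theorem w_48 : cert.wordL 48 = [1] := by decide +kernel

theorem e_48 : ((cert.wordL 48).map (fun s => (PresentedGroup.of (gen s) : PresentedGroup rels))).prod =
    PresentedGroup.mk rels (Cfsg.Spor.Fi22.b) := by
  rw [w_48]
  simp only [List.map_cons, List.map_nil, List.prod_cons, List.prod_nil, mul_one, gen, PresentedGroup.of,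
    map_mul, pow_succ, pow_zero, one_mul, mul_assoc]

theorem w_49 : cert.wordL 49 = [2] := by decide +kernel

theorem e_49 : ((cert.wordL 49).map (fun s => (PresentedGroup.of (gen s) : PresentedGroup rels))).prod =
    PresentedGroup.mk rels (Cfsg.Spor.Fi22.c) := by
  rw [w_49]
  simp only [List.map_cons, List.map_nil, List.prod_cons, List.prod_nil, mul_one, gen, PresentedGroup.of,
    map_mul, pow_succ, pow_zero, one_mul, mul_assoc]

theorem w_50 : cert.wordL 50 = [3] := by decide +kernel

theorem e_50 : ((cert.wordL 50).map (fun s => (PresentedGroup.of (gen s) : PresentedGroup rels))).prod =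
    PresentedGroup.mk rels (Cfsg.Spor.Fi22.d) := by
  rw [w_50]
  simp only [List.map_cons, List.map_nil, List.prod_cons, List.prod_nil, mul_one, gen, PresentedGroup.of,
    map_mul, pow_succ, pow_zero, one_mul, mul_assoc]

theorem w_51 : cert.wordL 51 = [4] := by decide +kernel

theorem e_51 : ((cert.wordL 51).map (fun s => (PresentedGroup.of (gen s) : PresentedGroup rels))).prod =
    PresentedGroup.mk rels (Cfsg.Spor.Fi22.e) := by
  rw [w_51]
  simp only [List.map_cons, List.map_nil, List.prod_cons, List.prod_nil, mul_one, gen, PresentedGroup.of,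
    map_mul, pow_succ, pow_zero, one_mul, mul_assoc]

theorem w_52 : cert.wordL 52 = [5] := by decide +kernel

theorem e_52 : ((cert.wordL 52).map (fun s => (PresentedGroup.of (gen s) : PresentedGroup rels))).prod =
    PresentedGroup.mk rels (Cfsg.Spor.Fi22.f) := by
  rw [w_52]
  simp only [List.map_cons, List.map_nil, List.prod_cons, List.prod_nil, mul_one, gen, PresentedGroup.of,
    map_mul, pow_succ, pow_zero, one_mul, mul_assoc]

theorem w_53 : cert.wordL 53 = [6] := by decide +kernel

theorem e_53 : ((cert.wordL 53).map (fun s => (PresentedGroup.of (gen s) : PresentedGroup rels))).prod =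
    PresentedGroup.mk rels (Cfsg.Spor.Fi22.g) := by
  rw [w_53]
  simp only [List.map_cons, List.map_nil, List.prod_cons, List.prod_nil, mul_one, gen, PresentedGroup.of,
    map_mul, pow_succ, pow_zero, one_mul, mul_assoc]

theorem w_54 : cert.wordL 54 = [7] := by decide +kernel

theorem e_54 : ((cert.wordL 54).map (fun s => (PresentedGroup.of (gen s) : PresentedGroup rels))).prod =
    PresentedGroup.mk rels (Cfsg.Spor.Fi22.h) := by
  rw [w_54]
  simp only [List.map_cons, List.map_nil, List.prod_cons, List.prod_nil, mul_one, gen, PresentedGroup.of,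
    map_mul, pow_succ, pow_zero, one_mul, mul_assoc]

theorem w_55 : cert.wordL 55 = [8] := by decide +kernel

theorem e_55 : ((cert.wordL 55).map (fun s => (PresentedGroup.of (gen s) : PresentedGroup rels))).prod =
    PresentedGroup.mk rels (Cfsg.Spor.Fi22.i) := by
  rw [w_55]
  simp only [List.map_cons, List.map_nil, List.prod_cons, List.prod_nil, mul_one, gen, PresentedGroup.of,
    map_mul, pow_succ, pow_zero, one_mul, mul_assoc]

theorem hS : PresentedGroup.mk rels '' S = {x | ∃ wid, cert.nsub ≤ wid ∧ wid < cert.nw ∧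
    ((cert.wordL wid).map (fun s => (PresentedGroup.of (gen s) : PresentedGroup rels))).prod = x} := by
  ext x
  constructor
  · rintro ⟨w, hw, rfl⟩
    rcases hw with rfl | rfl | rfl | rfl | rfl | rfl | rfl | rfl
    · exact ⟨48, by decide, by decide, e_48⟩
    · exact ⟨49, by decide, by decide, e_49⟩
    · exact ⟨50, by decide, by decide, e_50⟩
    · exact ⟨51, by decide, by decide, e_51⟩
    · exact ⟨52, by decide, by decide, e_52⟩
    · exact ⟨53, by decide, by decide, e_53⟩
    · exact ⟨54, by decide, by decide, e_54⟩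
    · exact ⟨55, by decide, by decide, e_55⟩
  · rintro ⟨wid, h1, h2, rfl⟩
    have h1' : 48 ≤ wid := h1
    have h2' : wid < 56 := h2
    interval_cases wid
    · exact ⟨_, Or.inl rfl, e_48.symm⟩
    · exact ⟨_, Or.inr (Or.inl rfl), e_49.symm⟩
    · exact ⟨_, Or.inr (Or.inr (Or.inl rfl)), e_50.symm⟩
    · exact ⟨_, Or.inr (Or.inr (Or.inr (Or.inl rfl))), e_51.symm⟩
    · exact ⟨_, Or.inr (Or.inr (Or.inr (Or.inr (Or.inl rfl)))), e_52.symm⟩
    · exact ⟨_, Or.inr (Or.inr (Or.inr (Or.inr (Or.inr (Or.inl rfl))))), e_53.symm⟩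
    · exact ⟨_, Or.inr (Or.inr (Or.inr (Or.inr (Or.inr (Or.inr (Or.inl rfl)))))), e_54.symm⟩
    · exact ⟨_, Or.inr (Or.inr (Or.inr (Or.inr (Or.inr (Or.inr (Or.inr (rfl))))))), e_55.symm⟩

theorem hP : Cert.Pres cert (fun s => (PresentedGroup.of (gen s) : PresentedGroup rels))
    ((Subgroup.closure S).map (PresentedGroup.mk rels)) :=
  cert.pres_of rels gen idx gen_idx idx_lt idx_gen words words_eq of_invol of_words
    (fun σ hσ hw => lift_one σ hσ hw) S hS chkN_all

theorem hC : Cert.Checks cert := ⟨chkV_all, chkN_all, chkG_ok⟩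

/-- In the presented Fischer group Fi₂₂ (generators a, …, i), the subgroup generated by the images of b, c, d, e, f, g, h, i has index 14080. -/
theorem result : (((Subgroup.closure ({Cfsg.Spor.Fi22.b, Cfsg.Spor.Fi22.c, Cfsg.Spor.Fi22.d, Cfsg.Spor.Fi22.e, Cfsg.Spor.Fi22.f, Cfsg.Spor.Fi22.g, Cfsg.Spor.Fi22.h, Cfsg.Spor.Fi22.i} : Set (FreeGroup Cfsg.Spor.Fi22.Gen))).map (PresentedGroup.mk (Cfsg.Spor.coxRelators Cfsg.Spor.Fi22.edges ∪ {r | r ∈ Cfsg.Spor.Fi22.extra})))).index = 14080 := by
  exact Cert.index_eq hP hC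


end Cfsg.Agent.S1685
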