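import Cfsg.Statements.S1686
import Cfsg.Agent.S0292
import Cfsg.Agent.Lib.Helper38.O7Simple

set_option autoImplicit false
open Cfsg

namespace Cfsg.Agent.S1686

open Cfsg.Agent.Lib.Helper38 Cfsg.Agent.Lib.Helper38.Fi22P Cfsg.Agent.S1696

set_option maxRecDepth 100000
set_option maxHeartbeats 0

/-! ### Matrices over the field with three elements -/

/-- the index type of the quadratic form `quadFormOdd 3` -/
abbrev ι : Type := Unit ⊕ (Fin 3 ⊕ Fin 3)

/-- the number of an index -/
def enc : ι → ℕ
  | .inl _ => 0
  | .inr (.inl i) => 1 + i.val
  | .inr (.inr i) => 4 + i.val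

/-- the matrix with the ternary code `c` -/
def mk (c : ℕ) : Matrix ι ι (ZMod 3) :=
  Matrix.of fun i j => ((c / 3 ^ (7 * enc i + enc j) % 3 : ℕ) : ZMod 3)

/-- the code of the identity matrix -/
def idc : ℕ := 79778602595634228233767

theorem mk_idc : mk idc = 1 := by decide +kernel

/-- the Gram matrix of the polar form -/
def gram : Matrix ι ι (ZMod 3) := mk 2954763066713861984492

/-- the entries of the Gram matrix -/
def gramF : ι → ι → ZMod 3
  | .inl _, .inl _ => 2
  | .inr (.inl a), .inr (.inr b) => if a = b then 1 else 0
  | .inr (.inr a), .inr (.inl b) => if a = b then 1 else 0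
  | _, _ => 0

theorem gram_eq : gram = Matrix.of gramF := by decide +kernel

theorem Q_eq (v : ι → ZMod 3) : quadFormOdd 3 (ZMod 3) v = 2 * (v ⬝ᵥ (gram.mulVec v)) := by
  have h3 : (3 : ZMod 3) = 0 := by decide
  rw [gram_eq]
  simp only [quadFormOdd, dotProduct, Matrix.mulVec, Fintype.sum_sum_type, Fin.sum_univ_three,
    Finset.univ_unique, Finset.sum_singleton, Matrix.of_apply, gramF]
  simp
  linear_combination (-(v (Sum.inl ())) ^ 2 - v (Sum.inr (Sum.inl 0)) * v (Sum.inr (Sum.inr 0))
    - v (Sum.inr (Sum.inl 1)) * v (Sum.inr (Sum.inr 1)) - v (Sum.inr (Sum.inl 2)) * v (Sum.inr (Sum.inr 2))) * h3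

/-- a matrix preserving the Gram matrix preserves the quadratic form -/
theorem Q_pres (M : Matrix ι ι (ZMod 3)) (hM : M.transpose * gram * M = gram) (v : ι → ZMod 3) :
    quadFormOdd 3 (ZMod 3) (M.mulVec v) = quadFormOdd 3 (ZMod 3) v := by
  have e : M.mulVec v ⬝ᵥ gram.mulVec (M.mulVec v) = v ⬝ᵥ (M.transpose * gram * M).mulVec v := by
    calc M.mulVec v ⬝ᵥ gram.mulVec (M.mulVec v)
        = M.mulVec v ⬝ᵥ (gram * M).mulVec v := by rw [Matrix.mulVec_mulVec]
      _ = Matrix.vecMul v M.transpose ⬝ᵥ (gram * M).mulVec v := by rw [Matrix.vecMul_transpose]
      _ = v ⬝ᵥ M.transpose.mulVec ((gram * M).mulVec v) := (Matrix.dotProduct_mulVec _ _ _).symm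
      _ = v ⬝ᵥ (M.transpose * gram * M).mulVec v := by rw [Matrix.mulVec_mulVec, Matrix.mul_assoc]
  rw [Q_eq, Q_eq, e, hM]

/-! ### Products of matrices, computed on the codes -/

/-- the ternary digit of the code `c` at the place `(m, n)` -/
def dg (c m n : ℕ) : ℕ := c / 3 ^ (7 * m + n) % 3

theorem mk_apply (c : ℕ) (i j : ι) : mk c i j = ((dg c (enc i) (enc j) : ℕ) : ZMod 3) := rfl

theorem enc_lt (i : ι) : enc i < 7 := by
  rcases i with _ | i | i
  · simp [enc]
  · have := i.2; simp only [enc]; omega
  · have := i.2; simp only [enc]; omega

theorem sum_enc (f : ℕ → ZMod 3) : ∑ k : ι, f (enc k) = f 0 + f 1 + f 2 + f 3 + f 4 + f 5 + f 6 := by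
  simp only [Fintype.sum_sum_type, Fin.sum_univ_three, Finset.univ_unique, Finset.sum_singleton, enc]
  simp only [Fin.val_zero, Fin.val_one, Fin.val_two, Nat.add_zero, Nat.reduceAdd]
  ring

/-- the check that the matrix with the code `c` is the product of those with the codes `a`, `b` -/
def mulB (a b c : ℕ) : Bool :=
  (List.range 7).all fun m => (List.range 7).all fun n =>
    (dg a m 0 * dg b 0 n + dg a m 1 * dg b 1 n + dg a m 2 * dg b 2 n + dg a m 3 * dg b 3 n +
      dg a m 4 * dg b 4 n + dg a m 5 * dg b 5 n + dg a m 6 * dg b 6 n) % 3 == dg c m n

theorem mul_spec (a b c : ℕ) (h : mulB a b c = true) : mk a * mk b = mk c := by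
  ext i j
  rw [Matrix.mul_apply]
  simp only [mk_apply]
  rw [sum_enc (fun k => ((dg a (enc i) k : ℕ) : ZMod 3) * ((dg b k (enc j) : ℕ) : ZMod 3))]
  have h1 := List.all_eq_true.mp (List.all_eq_true.mp h (enc i) (List.mem_range.mpr (enc_lt i)))
    (enc j) (List.mem_range.mpr (enc_lt j))
  have h2 := beq_iff_eq.mp h1
  rw [← h2, ZMod.natCast_mod]
  push_cast
  rfl

/-- the codes of the matrices of the generators (the negatives of reflections) -/
def cds : List ℕ := [79778602595634228233767, 159557203498385815150506, 159627099282020514070344, 159557209080325905770319, 159627049250464949933340, 175761971724378382279230, 159557240554622514404840, 140910948668572552438850, 183519960859963436903606]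

/-- the code of the matrix of the generator `s` -/
def cd (s : ℕ) : ℕ := cds.getD s idc

theorem cd_ge (s : ℕ) (hs : 9 ≤ s) : cd s = idc := by
  unfold cd
  exact List.getD_eq_default _ _ (by simpa [cds] using hs)

theorem M_sq : ∀ s, mk (cd s) * mk (cd s) = 1 := by
  intro s
  by_cases hs : s < 9
  · rw [← mk_idc]
    interval_cases s <;> exact mul_spec _ _ _ (by decide +kernel)
  · rw [cd_ge s (by omega), mk_idc, one_mul]

theorem M_iso : ∀ s, (mk (cd s)).transpose * gram * mk (cd s) = gram := by
  intro s
  by_cases hs : s < 9
  · interval_cases s <;> decide +kernel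
  · rw [cd_ge s (by omega), mk_idc, Matrix.transpose_one, one_mul, mul_one]

/-- the isometry group -/
abbrev GO : Subgroup (Matrix.GeneralLinearGroup ι (ZMod 3)) :=
  isometryGroup (ZMod 3) (quadFormOdd 3 (ZMod 3))

/-- the images of the generators in the general linear group -/
def gl (s : ℕ) : Matrix.GeneralLinearGroup ι (ZMod 3) := ⟨mk (cd s), mk (cd s), M_sq s, M_sq s⟩

/-- the images of the generators in the isometry group -/
def iso (s : ℕ) : GO := ⟨gl s, fun u _ => Q_pres (mk (cd s)) (M_iso s) u⟩

/-- the matrix of an isometry -/
def mat : GO →* Matrix ι ι (ZMod 3) := (Units.coeHom (Matrix ι ι (ZMod 3))).comp GO.subtype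

theorem mat_inj : Function.Injective mat := by
  intro a b h
  exact Subtype.ext (Units.ext h)

theorem mat_iso (s : ℕ) : mat (iso s) = mk (cd s) := rfl

/-! ### The relators -/

/-- the check of a chain of partial products of a relator -/
def chainB : List ℕ → List ℕ → Bool
  | [], [c] => c == idc
  | s :: w, c :: c' :: cs => mulB (cd s) c' c && chainB w (c' :: cs)
  | _, _ => false

theorem chain_spec : ∀ (w cs : List ℕ), chainB w cs = true →
    ∀ c rest, cs = c :: rest → (w.map (fun s => mk (cd s))).prod = mk c
  | [], cs, h => by
    intro c rest e
    match cs, h, e with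
    | [c'], h, e =>
      have hc : c' = idc := by simpa [chainB] using h
      have e' : c = c' := (List.cons.inj e).1.symm
      rw [e', hc, mk_idc]
      rfl
  | s :: w, cs, h => by
    intro c rest e
    match cs, h, e with
    | c0 :: c' :: cs', h, e =>
      have h' : mulB (cd s) c' c0 = true ∧ chainB w (c' :: cs') = true := by
        simpa [chainB] using h
      have e' : c = c0 := (List.cons.inj e).1.symm
      rw [List.map_cons, List.prod_cons, chain_spec w (c' :: cs') h'.2 c' cs' rfl, mul_spec _ _ _ h'.1, e']

/-- the check of all relators -/
def relsB : List (List ℕ) → List (List ℕ) → Bool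
  | [], [] => true
  | w :: ws, c :: cs => (chainB w c && (c.head? == some idc)) && relsB ws cs
  | _, _ => false

theorem rels_spec : ∀ (ws cs : List (List ℕ)), relsB ws cs = true →
    ∀ w ∈ ws, (w.map (fun s => mk (cd s))).prod = 1
  | [], _, _ => by intro w hw; simp at hw
  | w0 :: ws, cs, h => by
    match cs, h with
    | c :: cs', h =>
      have h' : (chainB w0 c = true ∧ c.head? = some idc) ∧ relsB ws cs' = true := by
        simpa [relsB] using h
      intro w hw
      rcases List.mem_cons.mp hw with rfl | hw
      · obtain ⟨c0, rest, rfl⟩ : ∃ c0 rest, c = c0 :: rest := by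
          cases c with
          | nil => simp at h'
          | cons a l => exact ⟨a, l, rfl⟩
        have hc : c0 = idc := by simpa using h'.1.2
        rw [chain_spec w (c0 :: rest) h'.1.1 c0 rest rfl, hc, mk_idc]
      · exact rels_spec ws cs' h'.2 w hw

/-- the chains of partial products of the relators -/
def CS : List (List ℕ) := [
  [79778602595634228233767, 159557203498385815150506, 79828085771491312071574, 159619116858277985637474, 79831831114972871315698, 159627099282020514070344, 79778602595634228233767],
  [79778602595634228233767, 159557203498385815150506, 79778611997997903999794, 159557209080325905770319, 79778602595634228233767],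
  [79778602595634228233767, 159557203498385815150506, 79831838138158622445305, 159627049250464949933340, 79778602595634228233767],
  [79778602595634228233767, 159557203498385815150506, 103311089653062528446366, 175761971724378382279230, 79778602595634228233767],
  [79778602595634228233767, 159557203498385815150506, 79778630588395244098620, 159557240554622514404840, 79778602595634228233767],
  [79778602595634228233767, 159557203498385815150506, 190123377415611486597282, 140910948668572552438850, 79778602595634228233767],
  [79778602595634228233767, 159557203498385815150506, 92252368774987769808975, 183519960859963436903606, 79778602595634228233767],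
  [79778602595634228233767, 159627099282020514070344, 79831825533037780492479, 159606914672024964905888, 79803681475247884223244, 159557209080325905770319, 79778602595634228233767],
  [79778602595634228233767, 159627099282020514070344, 79848396623275157559386, 159627049250464949933340, 79778602595634228233767],
  [79778602595634228233767, 159627099282020514070344, 103364276856913999844468, 175761971724378382279230, 79778602595634228233767],
  [79778602595634228233767, 159627099282020514070344, 79831812154377843100602, 159557240554622514404840, 79778602595634228233767],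
  [79778602595634228233767, 159627099282020514070344, 190140085995394714122186, 140910948668572552438850, 79778602595634228233767],
  [79778602595634228233767, 159627099282020514070344, 92305550351148297260445, 183519960859963436903606, 79778602595634228233767],
  [79778602595634228233767, 159557209080325905770319, 79823794152957907446819, 159635434709973767569562, 79831851269434379141262, 159627049250464949933340, 79778602595634228233767],
  [79778602595634228233767, 159557209080325905770319, 103311100816939222901114, 175761971724378382279230, 79778602595634228233767],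
  [79778602595634228233767, 159557209080325905770319, 79778625006458654612844, 159557240554622514404840, 79778602595634228233767],
  [79778602595634228233767, 159557209080325905770319, 235297621058238518924031, 123614870348873891091450, 190123417953290901339258, 140910948668572552438850, 79778602595634228233767],
  [79778602595634228233767, 159557209080325905770319, 92252379870234086892279, 183519960859963436903606, 79778602595634228233767],
  [79778602595634228233767, 159627049250464949933340, 189861556163960506054291, 139424134225237771207920, 103356922219187933803387, 175761971724378382279230, 79778602595634228233767],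
  [79778602595634228233767, 159627049250464949933340, 79831862185933407237606, 159557240554622514404840, 79778602595634228233767],
  [79778602595634228233767, 159627049250464949933340, 190140136026950278259190, 140910948668572552438850, 79778602595634228233767],
  [79778602595634228233767, 159627049250464949933340, 92305600382703861397449, 183519960859963436903606, 79778602595634228233767],
  [79778602595634228233767, 175761971724378382279230, 103311120663718819418814, 60912438647888597611749, 32099779412332217304195, 159557240554622514404840, 79778602595634228233767],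
  [79778602595634228233767, 175761971724378382279230, 210697500904218575452248, 140910948668572552438850, 79778602595634228233767],
  [79778602595634228233767, 175761971724378382279230, 88211270411137407789195, 183519960859963436903606, 79778602595634228233767],
  [79778602595634228233767, 159557240554622514404840, 190123401465928141994323, 140910948668572552438850, 79778602595634228233767],
  [79778602595634228233767, 159557240554622514404840, 92252398392001049619412, 183519960859963436903606, 79778602595634228233767],
  [79778602595634228233767, 140910948668572552438850, 64729257621044555493559, 43097296848368926659140, 205228898995800045044647, 183519960859963436903606, 79778602595634228233767],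
  [79778602595634228233767, 159557209080325905770319, 79803681475247884223244, 159606899710604297569984, 79803698312570911229364, 159627086745521940756118, 138021545213807077084932, 193316908314735329841228, 228001042144718797376508, 35383294903668715237197, 57635677988601337265025, 35443066270090283430983, 57605443737721333317483, 35443083770834934590371, 57555910805124778967666, 107087388279913945807616, 213078615093023393556179, 102853233807680898518116, 113303986541902461563387, 217743151166108366303573, 113265874346755659839199, 217667311312731463856436, 113265905321935377702128, 217651558899194215875838, 222760022728013438763708, 126340797071792489506685, 53849321863337872395400, 134064110725444062709613, 188325263074739700017510, 134074180538867786962879, 188328736870360326234857, 134074141671201000636302, 188367428510506461229744, 87954806232818550186054, 163654087454660561381389, 49409558387043209433506, 233258136921613898932411, 116811666787297257334610, 233235464315045153380486, 116836575227148365794640, 233235489639655924959775, 116824075238373516259894, 205210225242043080440200, 144530893634799159531426, 92250322697549194516860,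 203746220231409022960083, 155056815618875101143190, 203830566868825168937714, 155117936267329574443801, 203830600131677814377862, 155097757859441555233541, 193339037150459948028739, 138036227264682116195134, 127973410511200162262858, 8951667746896680004756, 17788492093182393864025, 8928375939095006329470, 17820081538970486673413, 8928360291367377516251, 17758840261260766497571, 213109004578372859199479, 107101627481837110379201, 175985034137140486350937, 170330321993292652626566, 99938824566048885677111, 170258955696685166698961, 99901074602029699709426, 170258976743332973409901, 99918196092743538165608, 126325085222106392232406, 222774689588701825568627, 26940875935384028649496, 229263700445596562144165, 129575884171960547937539, 229265775096581062842856, 129569266715021640927933, 229265764069975846534840, 129638601552236386722497, 163634472709797518217439, 87969028002633009932862, 69235512653199512847399, 156731412394551377192520, 198240506421193211277581, 156790514661700774144294, 198215138448057734555082, 156790539368631871823483, 198229026333198829749140, 144528704005481751432516, 205228898995800045044647, 183519960859963436903606,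 79778602595634228233767],
  [79778602595634228233767, 159557203498385815150506, 79828085771491312071574, 159619118574031934388094, 79823818585376834256366, 211492521744464531646666, 147127576663748178074502, 32073229638644040552231, 60861967082297149679291, 32157606450269173019272, 60886541459907311966887, 32105046601828176772691, 77988476065156180242376, 40635840880129356057104, 16721880915962720280577, 23156824103091573100708, 16649292631861833782974, 23122575134712849248771, 16690546631933750674390, 86503623311025847411085, 163123027239500603159860, 25201437115761937561637, 14572351523507554335869, 25269192836108168570702, 14612464269170619546991, 25221903956890978455539, 39923533753034905016065, 79725515027202829865567, 171615281114139067899685, 103590350416533655044046, 171577352093496776418838, 103514811690429008260995, 171656203609455300298693, 56214098295495014834416, 32538832765266037121525, 226096438502429078342554, 132798369327099426657669, 226127352410814440147058, 132820097744614334325250, 226103361178128583760868, 228201226509174899332454, 127452423780849460264276, 7305266447617043130695, 5624218762037329981601,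 7320560359544457463751, 5632060859747967567809, 7272698713714258056623, 43753190083954483191559, 75567592626668579179598, 227990976495310352225680, 128003222629200363411307, 227942726882117782383159, 127940558163922318275987, 227951356261672712630371, 236755445325992767159248, 118870435083818983732143, 189943231487862665510310, 139450451401400778116493, 189889773290969497533424, 139479182582117022153646, 189903463791621309379410, 190123401465928141994323, 140910948668572552438850, 79778602595634228233767],
  [79778602595634228233767, 79778602595634228233767]]

theorem rels_ok : relsB W1 CS = true := by decide +kernel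

theorem iso_sq : ∀ s, iso s * iso s = 1 := fun s => mat_inj (by
  rw [map_mul, mat_iso, M_sq, map_one])

theorem iso_ge : ∀ s, 9 ≤ s → iso s = 1 := fun s hs => mat_inj (by
  rw [mat_iso, cd_ge s hs, mk_idc, map_one])

theorem iso_rel : ∀ w ∈ W1, (w.map iso).prod = 1 := fun w hw => mat_inj (by
  rw [map_list_prod, List.map_map, map_one]
  exact rels_spec W1 CS rels_ok w hw)

/-! ### The homomorphism onto the orthogonal group -/

/-- the homomorphism into the isometry group -/
noncomputable def θ0 : WP 9 W1 →* GO := WP.lift 9 W1 iso iso_sq iso_ge iso_rel

theorem θ0_gen (s : ℕ) : θ0 (WP.gen 9 W1 s) = iso s := WP.lift_gen 9 W1 iso iso_sq iso_ge iso_rel s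

theorem comm_top : commutator (WP 9 W1) = ⊤ := by
  have := O7S.simple
  rcases (inferInstance : (commutator (WP 9 W1)).Normal).eq_bot_or_eq_top with h | h
  · exfalso
    rw [commutator_eq_bot_iff_center_eq_top] at h
    have := O7S.nontriv
    obtain ⟨c, hc⟩ := exists_ne (1 : WP 9 W1)
    apply hc
    apply O7S.cen_one
    intro x
    have hc' : c ∈ Subgroup.center (WP 9 W1) := by rw [h]; exact Subgroup.mem_top c
    exact (Subgroup.mem_center_iff.mp hc' x).symm
  · exact h

theorem θ0_mem (x : WP 9 W1) : θ0 x ∈ Omega (ZMod 3) (quadFormOdd 3 (ZMod 3)) := by
  have hx : x ∈ commutator (WP 9 W1) := by rw [comm_top]; exact Subgroup.mem_top x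
  have h1 : θ0 x ∈ (commutator (WP 9 W1)).map θ0 := Subgroup.mem_map_of_mem θ0 hx
  rw [commutator_def, Subgroup.map_commutator] at h1
  exact Subgroup.commutator_mono le_top le_top h1

/-- the homomorphism into the commutator subgroup of the isometry group -/
noncomputable def θ1 : WP 9 W1 →* Omega (ZMod 3) (quadFormOdd 3 (ZMod 3)) :=
  θ0.codRestrict _ θ0_mem

/-- the homomorphism into the projective group -/
noncomputable def θ : WP 9 W1 →* POmega (ZMod 3) (quadFormOdd 3 (ZMod 3)) :=
  (QuotientGroup.mk' (Subgroup.center (Omega (ZMod 3) (quadFormOdd 3 (ZMod 3))))).comp θ1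

theorem θ_ne : θ (WP.gen 9 W1 1) ≠ 1 := by
  intro h
  have h1 : θ1 (WP.gen 9 W1 1) ∈ Subgroup.center (Omega (ZMod 3) (quadFormOdd 3 (ZMod 3))) :=
    (QuotientGroup.eq_one_iff _).mp h
  have h2 := Subgroup.mem_center_iff.mp h1 (θ1 (WP.gen 9 W1 2))
  have h3 := congrArg (fun x : Omega (ZMod 3) (quadFormOdd 3 (ZMod 3)) => mat (x : GO)) h2
  simp only [Subgroup.coe_mul, map_mul] at h3
  have e1 : ((θ1 (WP.gen 9 W1 1) : Omega (ZMod 3) (quadFormOdd 3 (ZMod 3))) : GO) = iso 1 := θ0_gen 1
  have e2 : ((θ1 (WP.gen 9 W1 2) : Omega (ZMod 3) (quadFormOdd 3 (ZMod 3))) : GO) = iso 2 := θ0_gen 2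
  rw [e1, e2, mat_iso, mat_iso] at h3
  revert h3
  decide +kernel

theorem card_PO : Nat.card (POmega (ZMod 3) (quadFormOdd 3 (ZMod 3))) = 4585351680 := by
  have h := Cfsg.Agent.S0292.result (F := ZMod 3) (q := 3) (by simp) (by decide) 3 (le_refl 3)
  norm_num [Finset.prod_range_succ] at h
  omega

/-- the presented group is isomorphic to the projective orthogonal group -/
theorem equiv_PO : Nonempty (WP 9 W1 ≃* POmega (ZMod 3) (quadFormOdd 3 (ZMod 3))) := by
  have := O7S.simple
  have hinj : Function.Injective θ := injective_of_simple θ _ θ_ne
  have hfin : Finite (POmega (ZMod 3) (quadFormOdd 3 (ZMod 3))) :=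
    Nat.finite_of_card_ne_zero (by rw [card_PO]; norm_num)
  have hbij : Function.Bijective θ :=
    hinj.bijective_of_nat_card_le (by rw [card_PO, O7S.card_eq])
  exact ⟨MulEquiv.ofBijective θ hbij⟩

/-! ### The subgroup of the Fischer group -/

/-- the subgroup generated by `b, …, i` -/
abbrev K : Subgroup (PresentedGroup rels) :=
  (Subgroup.closure ({Cfsg.Spor.Fi22.b, Cfsg.Spor.Fi22.c, Cfsg.Spor.Fi22.d, Cfsg.Spor.Fi22.e, Cfsg.Spor.Fi22.f, Cfsg.Spor.Fi22.g, Cfsg.Spor.Fi22.h, Cfsg.Spor.Fi22.i} : Set (FreeGroup Cfsg.Spor.Fi22.Gen))).map (PresentedGroup.mk rels)

theorem γ_ne : γ 1 ≠ 1 := by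
  obtain ⟨φ, hφ, -, -⟩ := order_and_base
  intro h
  have h1 := hφ 1 (by decide)
  rw [h, map_one] at h1
  have h2 : (1 : Equiv.Perm ℕ) 1 = Fi22B.cert.σ 1 1 := by rw [h1]
  rw [Equiv.Perm.one_apply,
    (Fi22B.cert.σ_of_lt (Cert.hInv_of B_hC) (s := 1) (c := 1) (by decide) (by decide)).1] at h2
  revert h2
  decide +kernel

theorem equiv_K : Nonempty (WP 9 W1 ≃* K) := by
  obtain ⟨ψ, hψ⟩ := sub_hom γ B_hP.hγ words of_words 9 W1 (actL [1, 2, 3, 4, 5, 6, 7, 8])
    (actL_ge _ 9 (by decide)) (by decide +kernel)
  have := O7S.simple
  have hinj : Function.Injective ψ := injective_of_simple ψ (WP.gen 9 W1 1) (by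
    rw [hψ 1]
    simpa [actL] using γ_ne)
  have hrange : ψ.range = K := by
    have h1 : ψ.range = Subgroup.map ψ ⊤ := (MonoidHom.range_eq_map ψ)
    have hK : K = Subgroup.closure (PresentedGroup.mk rels '' ({Cfsg.Spor.Fi22.b, Cfsg.Spor.Fi22.c, Cfsg.Spor.Fi22.d, Cfsg.Spor.Fi22.e, Cfsg.Spor.Fi22.f, Cfsg.Spor.Fi22.g, Cfsg.Spor.Fi22.h, Cfsg.Spor.Fi22.i} : Set (FreeGroup Cfsg.Spor.Fi22.Gen))) :=
      MonoidHom.map_closure _ _
    rw [h1, ← WP.closure_gen 9 W1, MonoidHom.map_closure, hK]
    apply le_antisymm
    · rw [Subgroup.closure_le]
      rintro _ ⟨_, ⟨s, hs, rfl⟩, rfl⟩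
      have hs' : s < 9 := hs
      rw [hψ s]
      interval_cases s
      · exact one_mem _
      all_goals
        apply Subgroup.subset_closure
        simp [actL, γ, gen, PresentedGroup.of]
    · rw [Subgroup.closure_le]
      rintro _ ⟨x, hx, rfl⟩
      simp only [Set.mem_insert_iff, Set.mem_singleton_iff] at hx
      rcases hx with rfl | rfl | rfl | rfl | rfl | rfl | rfl | rfl
      · exact Subgroup.subset_closure ⟨_, ⟨1, by decide, rfl⟩, by rw [hψ 1]; rfl⟩
      · exact Subgroup.subset_closure ⟨_, ⟨2, by decide, rfl⟩, by rw [hψ 2]; rfl⟩
      · exact Subgroup.subset_closure ⟨_, ⟨3, by decide, rfl⟩, by rw [hψ 3]; rfl⟩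
      · exact Subgroup.subset_closure ⟨_, ⟨4, by decide, rfl⟩, by rw [hψ 4]; rfl⟩
      · exact Subgroup.subset_closure ⟨_, ⟨5, by decide, rfl⟩, by rw [hψ 5]; rfl⟩
      · exact Subgroup.subset_closure ⟨_, ⟨6, by decide, rfl⟩, by rw [hψ 6]; rfl⟩
      · exact Subgroup.subset_closure ⟨_, ⟨7, by decide, rfl⟩, by rw [hψ 7]; rfl⟩
      · exact Subgroup.subset_closure ⟨_, ⟨8, by decide, rfl⟩, by rw [hψ 8]; rfl⟩
  exact ⟨(MonoidHom.ofInjective hinj).trans (MulEquiv.subgroupCongr hrange)⟩


/-- In the presented Fischer group Fi₂₂, the subgroup generated by the images of b, …, i is isomorphic to PΩ(7, 3), the commutator subgroup of the isometry group of the quadratic form x₀² + x₁y₁ + x₂y₂ + x₃y₃ over the integers mod 3, modulo its centre. -/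
theorem result : Nonempty ((((Subgroup.closure ({Cfsg.Spor.Fi22.b, Cfsg.Spor.Fi22.c, Cfsg.Spor.Fi22.d, Cfsg.Spor.Fi22.e, Cfsg.Spor.Fi22.f, Cfsg.Spor.Fi22.g, Cfsg.Spor.Fi22.h, Cfsg.Spor.Fi22.i} : Set (FreeGroup Cfsg.Spor.Fi22.Gen))).map (PresentedGroup.mk (Cfsg.Spor.coxRelators Cfsg.Spor.Fi22.edges ∪ {r | r ∈ Cfsg.Spor.Fi22.extra})))) ≃* Cfsg.POmega (ZMod 3) (Cfsg.quadFormOdd 3 (ZMod 3))) := by
  obtain ⟨e1⟩ := equiv_PO
  obtain ⟨e2⟩ := equiv_K
  exact ⟨e2.symm.trans e1⟩

end Cfsg.Agent.S1686
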