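import Cfsg.Statements.S1691

set_option autoImplicit false
open Pointwise
open Cfsg

namespace Cfsg.Agent.S1691

open Cfsg.Spor

/-- The sign map `Fi24 → C₂`. -/
theorem h39_sign_rels :
    ∀ r ∈ (coxRelators Fi24.edges ∪ {r | r ∈ Fi24.extra} : Set (FreeGroup Fi24.Gen)),
      FreeGroup.lift (fun _ : Fi24.Gen => (Multiplicative.ofAdd (1 : ZMod 2))) r = 1 := by
  intro r hr
  have h2 : (Multiplicative.ofAdd (1 : ZMod 2)) * (Multiplicative.ofAdd (1 : ZMod 2)) = 1 := by decide
  rcases hr with hr | hr
  · obtain ⟨x, _, y, _, rfl⟩ := hr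
    simp [h2]
  · simp only [Set.mem_ofPred_eq, Fi24.extra, List.mem_cons, List.not_mem_nil, or_false] at hr
    have hinv : (Multiplicative.ofAdd (1 : ZMod 2))⁻¹ = Multiplicative.ofAdd (1 : ZMod 2) := by decide
    rcases hr with rfl | rfl
    · simp only [map_mul, map_pow, map_inv, FreeGroup.lift_apply_of]
      decide
    · simp only [map_mul, map_pow, map_inv, FreeGroup.lift_apply_of]
      decide

noncomputable def h39_sign : Fi24 →* Multiplicative (ZMod 2) :=
  PresentedGroup.toGroup h39_sign_rels

theorem h39_sign_of (x : Fi24.Gen) :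
    h39_sign (PresentedGroup.of x) = Multiplicative.ofAdd (1 : ZMod 2) :=
  PresentedGroup.toGroup.of h39_sign_rels

theorem h39_rel (x y : Fi24.Gen) (hx : x ∈ coxNodes Fi24.edges) (hy : y ∈ coxNodes Fi24.edges) :
    ((PresentedGroup.of x : Fi24) * PresentedGroup.of y) ^ coxLabel Fi24.edges x y = 1 := by
  have : (FreeGroup.of x * FreeGroup.of y) ^ coxLabel Fi24.edges x y ∈
      (coxRelators Fi24.edges ∪ {r | r ∈ Fi24.extra} : Set (FreeGroup Fi24.Gen)) :=
    Or.inl ⟨x, hx, y, hy, rfl⟩
  have h := PresentedGroup.one_of_mem this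
  simpa [PresentedGroup.of] using h

theorem h39_ab_sq (x : Fi24.Gen) :
    (Abelianization.of (PresentedGroup.of x : Fi24)) ^ 2 = 1 := by
  have hx : x ∈ coxNodes Fi24.edges := by cases x <;> decide
  have h := h39_rel x x hx hx
  have hl : coxLabel Fi24.edges x x = 1 := by simp [coxLabel]
  rw [hl, pow_one] at h
  rw [← map_pow, pow_two, h, map_one]

theorem h39_ab_edge (x y : Fi24.Gen) (hx : x ∈ coxNodes Fi24.edges) (hy : y ∈ coxNodes Fi24.edges)
    (hl : coxLabel Fi24.edges x y = 3) :
    Abelianization.of (PresentedGroup.of x : Fi24) = Abelianization.of (PresentedGroup.of y : Fi24) := by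
  have h := h39_rel x y hx hy
  rw [hl] at h
  have h' := congrArg (Abelianization.of (G := Fi24)) h
  rw [map_pow, map_mul, map_one, mul_pow] at h'
  have hx2 := h39_ab_sq x
  have hy2 := h39_ab_sq y
  set X := Abelianization.of (PresentedGroup.of x : Fi24)
  set Y := Abelianization.of (PresentedGroup.of y : Fi24)
  have hX3 : X ^ 3 = X := by rw [pow_succ, hx2, one_mul]
  have hY3 : Y ^ 3 = Y := by rw [pow_succ, hy2, one_mul]
  rw [hX3, hY3] at h'
  have : X = Y⁻¹ := eq_inv_of_mul_eq_one_left h'
  rw [this]
  exact inv_eq_of_mul_eq_one_left (by rw [← pow_two]; exact hy2)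

theorem h39_ab_all (x : Fi24.Gen) :
    Abelianization.of (PresentedGroup.of x : Fi24) = Abelianization.of (PresentedGroup.of Fi24.Gen.d : Fi24) := by
  have hc := h39_ab_edge .c .d (by decide) (by decide) (by decide)
  have hb := h39_ab_edge .b .c (by decide) (by decide) (by decide)
  have ha := h39_ab_edge .a .b (by decide) (by decide) (by decide)
  have hk := h39_ab_edge .k .a (by decide) (by decide) (by decide)
  have hl := h39_ab_edge .l .k (by decide) (by decide) (by decide)
  have he := h39_ab_edge .e .d (by decide) (by decide) (by decide)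
  have hf := h39_ab_edge .f .e (by decide) (by decide) (by decide)
  have hg := h39_ab_edge .g .f (by decide) (by decide) (by decide)
  have hj := h39_ab_edge .j .g (by decide) (by decide) (by decide)
  have hh := h39_ab_edge .h .d (by decide) (by decide) (by decide)
  have hi := h39_ab_edge .i .h (by decide) (by decide) (by decide)
  cases x
  · rw [hl, hk, ha, hb, hc]
  · rw [hk, ha, hb, hc]
  · rw [ha, hb, hc]
  · rw [hb, hc]
  · rw [hc]
  · rfl
  · rw [he]
  · rw [hf, he]
  · rw [hg, hf, he]
  · rw [hj, hg, hf, he]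
  · rw [hh]
  · rw [hi, hh]

theorem result : (commutator Cfsg.Spor.Fi24).index = 2 := by
  -- lower bound: commutator ≤ ker sign, which has index 2
  have hker : (h39_sign.ker).index = 2 := by
    rw [Subgroup.index_ker]
    have hsurj : Function.Surjective h39_sign := by
      intro m
      have hm : m = 1 ∨ m = Multiplicative.ofAdd (1 : ZMod 2) := by
        revert m; decide
      rcases hm with rfl | rfl
      · exact ⟨1, map_one _⟩
      · exact ⟨PresentedGroup.of Fi24.Gen.d, h39_sign_of _⟩
    rw [MonoidHom.range_eq_top.mpr hsurj, Nat.card_congr (Subgroup.topEquiv).toEquiv]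
    simp
  have hle : commutator Fi24 ≤ h39_sign.ker := Abelianization.commutator_subset_ker h39_sign
  have hdvd : 2 ∣ (commutator Fi24).index := hker ▸ Subgroup.index_dvd_of_le hle
  -- upper bound: abelianization is generated by one involution
  set t := Abelianization.of (PresentedGroup.of Fi24.Gen.d : Fi24) with ht
  have htop : (Subgroup.zpowers t).comap (Abelianization.of (G := Fi24)) = ⊤ := by
    rw [eq_top_iff]
    intro x _
    refine PresentedGroup.generated_by _ _ (fun y => ?_) x
    rw [Subgroup.mem_comap, h39_ab_all y]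
    exact Subgroup.mem_zpowers t
  have hz : Subgroup.zpowers t = ⊤ := by
    rw [eq_top_iff]
    intro y _
    obtain ⟨x, rfl⟩ := QuotientGroup.mk_surjective (s := commutator Fi24) y
    have : x ∈ (Subgroup.zpowers t).comap (Abelianization.of (G := Fi24)) := by rw [htop]; trivial
    exact this
  have h1 : Nat.card (Subgroup.zpowers t) = orderOf t := Nat.card_zpowers t
  have h2 : orderOf t ∣ 2 := orderOf_dvd_of_pow_eq_one (h39_ab_sq _)
  have h3 : Nat.card (Abelianization Fi24) = Nat.card (Subgroup.zpowers t) := by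
    rw [hz]; exact (Nat.card_congr (Subgroup.topEquiv).toEquiv).symm
  have hidx : (commutator Fi24).index = Nat.card (Abelianization Fi24) := rfl
  rw [hidx, h3, h1] at hdvd ⊢
  exact Nat.dvd_antisymm h2 hdvd

end Cfsg.Agent.S1691
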