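import Cfsg.Statements.S1692
-- import your own Cfsg.Agent.* helpers here
import Cfsg.Agent.Lib.Helper39.ONP
import Cfsg.Agent.Lib.Helper39.ONLV
import Cfsg.Agent.Lib.Helper39.ONLN

set_option autoImplicit false
open Cfsg

namespace Cfsg.Agent.S1692

open Cfsg.Agent.Lib.Helper38 Cfsg.Agent.Lib.Helper39 Cfsg.Agent.Lib.Helper39.ONL Cfsg.Agent.Lib.Helper39.ONP

set_option maxRecDepth 100000
set_option maxHeartbeats 0
set_option linter.unusedSimpArgs false

theorem chkG_ok : chkGI cert 1 = true := by decide +kernel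

theorem words_eq : (List.range cert.nrel).map cert.wordL = words := by decide +kernel

/-- the generators of the subgroup -/
abbrev S : Set (FreeGroup Cfsg.Spor.ON.Gen) :=
  {Cfsg.Spor.ON.a, Cfsg.Spor.ON.b, Cfsg.Spor.ON.c, Cfsg.Spor.ON.d, Cfsg.Spor.ON.e, Cfsg.Spor.ON.f}

theorem w_30 : cert.wordL 30 = [2] := by decide +kernel

theorem e_30 : ((cert.wordL 30).map (fun s => (PresentedGroup.mk rels (gam s) : PresentedGroup rels))).prod =
    PresentedGroup.mk rels (Cfsg.Spor.ON.a) := by
  rw [w_30]
  simp only [List.map_cons, List.map_nil, List.prod_cons, List.prod_nil, mul_one, gam]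

theorem w_31 : cert.wordL 31 = [3] := by decide +kernel

theorem e_31 : ((cert.wordL 31).map (fun s => (PresentedGroup.mk rels (gam s) : PresentedGroup rels))).prod =
    PresentedGroup.mk rels (Cfsg.Spor.ON.b) := by
  rw [w_31]
  simp only [List.map_cons, List.map_nil, List.prod_cons, List.prod_nil, mul_one, gam]

theorem w_32 : cert.wordL 32 = [4] := by decide +kernel

theorem e_32 : ((cert.wordL 32).map (fun s => (PresentedGroup.mk rels (gam s) : PresentedGroup rels))).prod =
    PresentedGroup.mk rels (Cfsg.Spor.ON.c) := by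
  rw [w_32]
  simp only [List.map_cons, List.map_nil, List.prod_cons, List.prod_nil, mul_one, gam]

theorem w_33 : cert.wordL 33 = [5] := by decide +kernel

theorem e_33 : ((cert.wordL 33).map (fun s => (PresentedGroup.mk rels (gam s) : PresentedGroup rels))).prod =
    PresentedGroup.mk rels (Cfsg.Spor.ON.d) := by
  rw [w_33]
  simp only [List.map_cons, List.map_nil, List.prod_cons, List.prod_nil, mul_one, gam]

theorem w_34 : cert.wordL 34 = [6] := by decide +kernel

theorem e_34 : ((cert.wordL 34).map (fun s => (PresentedGroup.mk rels (gam s) : PresentedGroup rels))).prod =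
    PresentedGroup.mk rels (Cfsg.Spor.ON.e) := by
  rw [w_34]
  simp only [List.map_cons, List.map_nil, List.prod_cons, List.prod_nil, mul_one, gam]

theorem w_35 : cert.wordL 35 = [7] := by decide +kernel

theorem e_35 : ((cert.wordL 35).map (fun s => (PresentedGroup.mk rels (gam s) : PresentedGroup rels))).prod =
    PresentedGroup.mk rels (Cfsg.Spor.ON.f) := by
  rw [w_35]
  simp only [List.map_cons, List.map_nil, List.prod_cons, List.prod_nil, mul_one, gam]

theorem hS : PresentedGroup.mk rels '' S = {x | ∃ wid, cert.nsub ≤ wid ∧ wid < cert.nw ∧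
    ((cert.wordL wid).map (fun s => (PresentedGroup.mk rels (gam s) : PresentedGroup rels))).prod = x} := by
  ext x
  constructor
  · rintro ⟨w, hw, rfl⟩
    rcases hw with rfl | rfl | rfl | rfl | rfl | rfl
    · exact ⟨30, by decide, by decide, e_30⟩
    · exact ⟨31, by decide, by decide, e_31⟩
    · exact ⟨32, by decide, by decide, e_32⟩
    · exact ⟨33, by decide, by decide, e_33⟩
    · exact ⟨34, by decide, by decide, e_34⟩
    · exact ⟨35, by decide, by decide, e_35⟩
  · rintro ⟨wid, h1, h2, rfl⟩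
    have h1' : 30 ≤ wid := h1
    have h2' : wid < 36 := h2
    interval_cases wid
    · exact ⟨_, Or.inl rfl, e_30.symm⟩
    · exact ⟨_, Or.inr (Or.inl rfl), e_31.symm⟩
    · exact ⟨_, Or.inr (Or.inr (Or.inl rfl)), e_32.symm⟩
    · exact ⟨_, Or.inr (Or.inr (Or.inr (Or.inl rfl))), e_33.symm⟩
    · exact ⟨_, Or.inr (Or.inr (Or.inr (Or.inr (Or.inl rfl)))), e_34.symm⟩
    · exact ⟨_, Or.inr (Or.inr (Or.inr (Or.inr (Or.inr (rfl))))), e_35.symm⟩

theorem hP : PresI cert 1 (fun s => (PresentedGroup.mk rels (gam s) : PresentedGroup rels))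
    ((Subgroup.closure S).map (PresentedGroup.mk rels)) :=
  presI_of cert 1 rels gam idx gam_idx idx_lt words words_eq of_inv of_words
    (fun σ hσ hw => ⟨lift_one σ hσ hw, lift_gam σ hσ⟩) S hS chkN_all (by decide)

theorem hC : ChecksI cert 1 := ⟨chkV_all, chkN_all, chkG_ok⟩

/-- In the presented O'Nan group (generators g, a, b, c, d, e, f), the subgroup generated by the images of a, …, f has index 122760. -/
theorem result : (((Subgroup.closure ({Cfsg.Spor.ON.a, Cfsg.Spor.ON.b, Cfsg.Spor.ON.c, Cfsg.Spor.ON.d, Cfsg.Spor.ON.e, Cfsg.Spor.ON.f} : Set (FreeGroup Cfsg.Spor.ON.Gen))).map (PresentedGroup.mk (Cfsg.Spor.coxRelators Cfsg.Spor.ON.edges ∪ {r | r ∈ Cfsg.Spor.ON.extra})))).index = 122760 := by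
  exact index_eqI hP hC


end Cfsg.Agent.S1692
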