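import Cfsg.Statements.S1717
import Mathlib

set_option autoImplicit false
open Cfsg

namespace Cfsg.Agent.S1717

open Matrix

/-- A rank function on `Fin 5` ordering the basis as `0 < 2 < 3 < 4 < 1`. -/
def rk : Fin 5 → ℕ := ![0, 4, 1, 2, 3]

theorem rk_le (i : Fin 5) : rk i ≤ 4 := by
  fin_cases i <;> simp [rk]

theorem rk_inj {i j : Fin 5} (h : rk i = rk j) : i = j := by
  fin_cases i <;> fin_cases j <;> simp [rk] at h ⊢

/-- Strictly triangular with respect to `rk`. -/
def ST (N : Matrix (Fin 5) (Fin 5) (ZMod 2)) : Prop := ∀ i j, N i j ≠ 0 → rk i < rk j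

theorem mul_entry_ne_zero {A B : Matrix (Fin 5) (Fin 5) (ZMod 2)} {i j : Fin 5}
    (h : (A * B) i j ≠ 0) : ∃ l, A i l ≠ 0 ∧ B l j ≠ 0 := by
  rw [Matrix.mul_apply] at h
  obtain ⟨l, _, hl⟩ := Finset.exists_ne_zero_of_sum_ne_zero h
  exact ⟨l, left_ne_zero_of_mul hl, right_ne_zero_of_mul hl⟩

theorem ST.pow {N : Matrix (Fin 5) (Fin 5) (ZMod 2)} (hN : ST N) (k : ℕ) :
    ∀ i j, (N ^ k) i j ≠ 0 → rk i + k ≤ rk j := by
  induction k with
  | zero =>
    intro i j h
    rw [pow_zero] at h
    by_cases hij : i = j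
    · subst hij; simp
    · exact absurd (Matrix.one_apply_ne hij) h
  | succ k ih =>
    intro i j h
    rw [pow_succ] at h
    obtain ⟨l, h1, h2⟩ := mul_entry_ne_zero h
    have := ih i l h1
    have := hN l j h2
    omega

theorem ST.pow_five {N : Matrix (Fin 5) (Fin 5) (ZMod 2)} (hN : ST N) : N ^ 5 = 0 := by
  ext i j
  by_contra h
  have := hN.pow 5 i j h
  have := rk_le j
  omega

/-- Unitriangular with respect to `rk`. -/
def UT (g : Matrix (Fin 5) (Fin 5) (ZMod 2)) : Prop := ST (g - 1)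

theorem UT.one : UT (1 : Matrix (Fin 5) (Fin 5) (ZMod 2)) := by
  intro i j h
  simp at h

theorem UT.mul {g h : Matrix (Fin 5) (Fin 5) (ZMod 2)} (hg : UT g) (hh : UT h) : UT (g * h) := by
  intro i j hij
  have e : g * h - 1 = (g - 1) * (h - 1) + (g - 1) + (h - 1) := by noncomm_ring
  rw [e, Matrix.add_apply, Matrix.add_apply] at hij
  by_cases h1 : ((g - 1) * (h - 1)) i j = 0
  · by_cases h2 : (g - 1) i j = 0
    · rw [h1, h2, zero_add, zero_add] at hij
      exact hh i j hij
    · exact hg i j h2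
  · obtain ⟨l, ha, hb⟩ := mul_entry_ne_zero h1
    have := hg i l ha
    have := hh l j hb
    omega

theorem UT.pow {g : Matrix (Fin 5) (Fin 5) (ZMod 2)} (hg : UT g) (k : ℕ) : UT (g ^ k) := by
  induction k with
  | zero => rw [pow_zero]; exact UT.one
  | succ k ih => rw [pow_succ]; exact ih.mul hg

theorem UT.pow_eight {g : Matrix (Fin 5) (Fin 5) (ZMod 2)} (hg : UT g) : g ^ 8 = 1 := by
  haveI : Fact (Nat.Prime 2) := ⟨Nat.prime_two⟩
  have e : g = 1 + (g - 1) := by abel
  have h8 : (8 : ℕ) = 2 ^ 3 := by norm_num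
  rw [e, h8, add_pow_char_pow_of_commute 2 3 (Commute.one_left (g - 1))]
  have : (g - 1) ^ 2 ^ 3 = 0 := by
    have h5 := hg.pow_five
    have : (g - 1) ^ 2 ^ 3 = (g - 1) ^ 5 * (g - 1) ^ 3 := by rw [← pow_add]; norm_num
    rw [this, h5, zero_mul]
  rw [this, one_pow, add_zero]

theorem UT.transvection {i j : Fin 5} (h : rk i < rk j) :
    UT (Matrix.transvection i j (1 : ZMod 2)) := by
  intro a b hab
  have e : Matrix.transvection i j (1 : ZMod 2) - 1 = Matrix.single i j 1 := by
    rw [Matrix.transvection]; abel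
  rw [e, Matrix.single_apply] at hab
  by_cases hc : i = a ∧ j = b
  · obtain ⟨rfl, rfl⟩ := hc; exact h
  · rw [if_neg hc] at hab; exact absurd rfl hab

/-- Unitriangular matrices commute with the transvection `1 + E₀₁`. -/
theorem UT.commute_s {g : Matrix (Fin 5) (Fin 5) (ZMod 2)} (hg : UT g) :
    g * Matrix.transvection 0 1 (1 : ZMod 2) = Matrix.transvection 0 1 (1 : ZMod 2) * g := by
  have e : g = 1 + (g - 1) := by abel
  have h1 : (g - 1) * Matrix.single (0 : Fin 5) (1 : Fin 5) (1 : ZMod 2) = 0 := by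
    ext a b
    by_contra h
    obtain ⟨l, ha, hb⟩ := mul_entry_ne_zero h
    have h3 := hg a l ha
    rw [Matrix.single_apply] at hb
    by_cases hc : (0 : Fin 5) = l ∧ (1 : Fin 5) = b
    · obtain ⟨rfl, rfl⟩ := hc
      have h4 : rk (0 : Fin 5) = 0 := rfl
      rw [h4] at h3
      omega
    · rw [if_neg hc] at hb; exact hb rfl
  have h2 : Matrix.single (0 : Fin 5) (1 : Fin 5) (1 : ZMod 2) * (g - 1) = 0 := by
    ext a b
    by_contra h
    obtain ⟨l, ha, hb⟩ := mul_entry_ne_zero h
    have h3 := hg l b hb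
    rw [Matrix.single_apply] at ha
    by_cases hc : (0 : Fin 5) = a ∧ (1 : Fin 5) = l
    · obtain ⟨rfl, rfl⟩ := hc
      have := rk_le b
      have h4 : rk (1 : Fin 5) = 4 := rfl
      rw [h4] at h3
      omega
    · rw [if_neg hc] at ha; exact ha rfl
  rw [Matrix.transvection]
  calc g * (1 + Matrix.single 0 1 1) = g + (g - 1) * Matrix.single 0 1 1 + Matrix.single 0 1 1 := by
        noncomm_ring
    _ = g + Matrix.single 0 1 1 * (g - 1) + Matrix.single 0 1 1 := by rw [h1, h2]
    _ = (1 + Matrix.single 0 1 1) * g := by noncomm_ring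


theorem rk_lt_one {i : Fin 5} (hi : i ≠ 1) : rk i < rk 1 := by
  fin_cases i <;> simp [rk] at hi ⊢

theorem rk_zero_lt {j : Fin 5} (hj : j ≠ 0) : rk 0 < rk j := by
  fin_cases j <;> simp [rk] at hj ⊢

theorem zmod2_eq_one {x : ZMod 2} (h : x ≠ 0) : x = 1 := by
  revert x; decide

/-- A matrix of determinant one commuting with all the transvections `1 + Eᵢⱼ`, `rk i < rk j`,
is `1` or `1 + E₀₁`. -/
theorem centralizer_cases (g : Matrix (Fin 5) (Fin 5) (ZMod 2)) (hdet : g.det = 1)
    (hcomm : ∀ i j : Fin 5, rk i < rk j →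
      g * Matrix.transvection i j (1 : ZMod 2) = Matrix.transvection i j (1 : ZMod 2) * g) :
    g = 1 ∨ g = Matrix.transvection 0 1 (1 : ZMod 2) := by
  have hc : ∀ i j : Fin 5, rk i < rk j → Commute (Matrix.single i j (1 : ZMod 2)) g := by
    intro i j hij
    have h := hcomm i j hij
    rw [Matrix.transvection, mul_add, add_mul, mul_one, one_mul] at h
    exact (add_left_cancel h).symm
  have hcol : ∀ i : Fin 5, i ≠ 1 → ∀ k, k ≠ i → g k i = 0 := fun i hi k hk =>
    Matrix.col_eq_zero_of_commute_single (hc i 1 (rk_lt_one hi)) hk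
  have hrow : ∀ j : Fin 5, j ≠ 0 → ∀ k, k ≠ j → g j k = 0 := fun j hj k hk =>
    Matrix.row_eq_zero_of_commute_single (hc 0 j (rk_zero_lt hj)) hk
  have hdiag : ∀ j : Fin 5, j ≠ 0 → g 0 0 = g j j := fun j hj =>
    Matrix.diag_eq_of_commute_single (hc 0 j (rk_zero_lt hj))
  have hoff : ∀ a b : Fin 5, a ≠ b → ¬ (a = 0 ∧ b = 1) → g a b = 0 := by
    intro a b hab h01
    by_cases hb : b = 1
    · have ha : a ≠ 0 := fun ha => h01 ⟨ha, hb⟩
      exact hrow a ha b (Ne.symm hab)
    · exact hcol b hb a hab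
  have hd : g 0 0 = 1 := by
    apply zmod2_eq_one
    intro h0
    have h11 : g 1 1 = 0 := by rw [← hdiag 1 (by decide), h0]
    have hz : g.det = 0 := by
      apply Matrix.det_eq_zero_of_row_eq_zero 1
      intro k
      by_cases hk : k = 1
      · rw [hk, h11]
      · exact hrow 1 (by decide) k hk
    rw [hz] at hdet
    exact zero_ne_one hdet
  have hdiag1 : ∀ a : Fin 5, g a a = 1 := by
    intro a
    by_cases ha : a = 0
    · rw [ha, hd]
    · rw [← hdiag a ha, hd]
  by_cases hc01 : g 0 1 = 0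
  · left
    ext a b
    by_cases hab : a = b
    · subst hab; rw [hdiag1, Matrix.one_apply_eq]
    · rw [Matrix.one_apply_ne hab]
      by_cases h01 : a = 0 ∧ b = 1
      · obtain ⟨rfl, rfl⟩ := h01; exact hc01
      · exact hoff a b hab h01
  · right
    have hc1 : g 0 1 = 1 := zmod2_eq_one hc01
    ext a b
    rw [Matrix.transvection, Matrix.add_apply, Matrix.single_apply]
    by_cases hab : a = b
    · subst hab
      rw [hdiag1, Matrix.one_apply_eq]
      have : ¬ ((0 : Fin 5) = a ∧ (1 : Fin 5) = a) := by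
        rintro ⟨h1, h2⟩
        rw [← h1] at h2
        exact absurd h2 (by decide)
      rw [if_neg this, add_zero]
    · rw [Matrix.one_apply_ne hab, zero_add]
      by_cases h01 : a = 0 ∧ b = 1
      · obtain ⟨rfl, rfl⟩ := h01
        rw [if_pos ⟨rfl, rfl⟩, hc1]
      · have : ¬ ((0 : Fin 5) = a ∧ (1 : Fin 5) = b) := fun h => h01 ⟨h.1.symm, h.2.symm⟩
        rw [if_neg this]
        exact hoff a b hab h01


/-- The transvection `1 + Eᵢⱼ` as an element of `SL₅(2)`. -/
def tS (i j : Fin 5) (h : rk i < rk j) : Matrix.SpecialLinearGroup (Fin 5) (ZMod 2) :=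
  ⟨Matrix.transvection i j 1,
    Matrix.det_transvection_of_ne i j (by rintro rfl; exact lt_irrefl _ h) 1⟩

/-- The subgroup generated by the unitriangular matrices. -/
def U0 : Subgroup (Matrix.SpecialLinearGroup (Fin 5) (ZMod 2)) :=
  Subgroup.closure {g | UT (g : Matrix (Fin 5) (Fin 5) (ZMod 2))}

theorem U0_ut : ∀ g ∈ U0, UT (g : Matrix (Fin 5) (Fin 5) (ZMod 2)) := by
  intro g hg
  induction hg using Subgroup.closure_induction with
  | mem x hx => exact hx
  | one => rw [Matrix.SpecialLinearGroup.coe_one]; exact UT.one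
  | mul x y _ _ hx hy => rw [Matrix.SpecialLinearGroup.coe_mul]; exact hx.mul hy
  | inv x _ hx =>
    have h8 : x ^ 8 = 1 := by
      apply Subtype.ext
      rw [Matrix.SpecialLinearGroup.coe_pow, hx.pow_eight]
      rfl
    have h7 : x⁻¹ = x ^ 7 := by
      apply inv_eq_of_mul_eq_one_right
      rw [← pow_succ']; exact h8
    rw [h7, Matrix.SpecialLinearGroup.coe_pow]
    exact hx.pow 7

theorem U0_pgroup : IsPGroup 2 ↥U0 := by
  intro g
  refine ⟨3, ?_⟩
  apply Subtype.ext
  apply Subtype.ext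
  rw [Subgroup.coe_pow, Matrix.SpecialLinearGroup.coe_pow]
  have := (U0_ut g g.2).pow_eight
  norm_num
  exact this

theorem U0_le_centralizer (s : Matrix.SpecialLinearGroup (Fin 5) (ZMod 2))
    (hs : (s : Matrix (Fin 5) (Fin 5) (ZMod 2)) = Matrix.transvection 0 1 1) :
    U0 ≤ Subgroup.centralizer {s} := by
  intro g hg
  rw [Subgroup.mem_centralizer_singleton_iff]
  apply Subtype.ext
  rw [Matrix.SpecialLinearGroup.coe_mul, Matrix.SpecialLinearGroup.coe_mul, hs]
  exact (U0_ut g hg).commute_s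

theorem tS_mem_U0 (i j : Fin 5) (h : rk i < rk j) : tS i j h ∈ U0 :=
  Subgroup.subset_closure (UT.transvection h)

theorem central_cases {C : Type*} [Group C] (s : Matrix.SpecialLinearGroup (Fin 5) (ZMod 2))
    (hs : (s : Matrix (Fin 5) (Fin 5) (ZMod 2)) = Matrix.transvection 0 1 1)
    (e : C ≃* Subgroup.centralizer ({s} : Set (Matrix.SpecialLinearGroup (Fin 5) (ZMod 2)))) (w : C)
    (hw : ∀ u : C, ((e u : Matrix.SpecialLinearGroup (Fin 5) (ZMod 2))) ∈ U0 → w * u = u * w) :
    w = 1 ∨ (((e w : Matrix.SpecialLinearGroup (Fin 5) (ZMod 2))) : Matrix (Fin 5) (Fin 5) (ZMod 2))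
      = Matrix.transvection 0 1 1 := by
  have h := centralizer_cases (((e w : Matrix.SpecialLinearGroup (Fin 5) (ZMod 2))) : Matrix (Fin 5) (Fin 5) (ZMod 2))
    (e w : Matrix.SpecialLinearGroup (Fin 5) (ZMod 2)).2 ?_
  · rcases h with h | h
    · left
      have h1 : e w = 1 := by
        apply Subtype.ext
        apply Subtype.ext
        exact h
      exact (EmbeddingLike.map_eq_one_iff (f := e)).mp h1
    · right; exact h
  · intro i j hij
    have hmem : tS i j hij ∈ Subgroup.centralizer ({s} : Set (Matrix.SpecialLinearGroup (Fin 5) (ZMod 2))) :=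
      U0_le_centralizer s hs (tS_mem_U0 i j hij)
    have h1 := hw (e.symm ⟨tS i j hij, hmem⟩) (by rw [e.apply_symm_apply]; exact tS_mem_U0 i j hij)
    have h2 := congrArg (fun c => (((e c : Matrix.SpecialLinearGroup (Fin 5) (ZMod 2))) : Matrix (Fin 5) (Fin 5) (ZMod 2))) h1
    simp only [map_mul, e.apply_symm_apply, Subgroup.coe_mul, Matrix.SpecialLinearGroup.coe_mul] at h2
    exact h2

open scoped Pointwise in
theorem mem_smul_sylow {C : Type*} [Group C] {p : ℕ} (P : Sylow p C) (g x : C) :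
    x ∈ ((g • P : Sylow p C) : Subgroup C) ↔ g⁻¹ * x * g ∈ (P : Subgroup C) := by
  rw [Sylow.coe_subgroup_smul, Subgroup.mem_pointwise_smul_iff_inv_smul_mem, MulAut.smul_def]
  simp

theorem sylow_center {C : Type*} [Group C] [Finite C] (s : Matrix.SpecialLinearGroup (Fin 5) (ZMod 2))
    (hs : (s : Matrix (Fin 5) (Fin 5) (ZMod 2)) = Matrix.transvection 0 1 1)
    (e : C ≃* Subgroup.centralizer ({s} : Set (Matrix.SpecialLinearGroup (Fin 5) (ZMod 2))))
    (zc : C) (hzc : ∀ c : C, c * zc = zc * c) (hz1 : zc ≠ 1) (T : Sylow 2 C)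
    (x : C) (hx : ∀ y ∈ (T : Subgroup C), x * y = y * x) : x = 1 ∨ x = zc := by
  haveI : Fact (Nat.Prime 2) := ⟨Nat.prime_two⟩
  have hU1 : IsPGroup 2 ↥((U0.subgroupOf (Subgroup.centralizer ({s} : Set (Matrix.SpecialLinearGroup (Fin 5) (ZMod 2))))).comap e.toMonoidHom) := by
    have h0 : IsPGroup 2 ↥(U0.subgroupOf (Subgroup.centralizer ({s} : Set (Matrix.SpecialLinearGroup (Fin 5) (ZMod 2))))) :=
      U0_pgroup.comap_of_injective _ (Subgroup.subtype_injective _)
    exact h0.comap_of_injective _ e.injective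
  obtain ⟨P, hP⟩ := hU1.exists_le_sylow
  obtain ⟨c, hc⟩ := MulAction.exists_smul_eq C T P
  have hmemU1 : ∀ u : C, ((e u : Matrix.SpecialLinearGroup (Fin 5) (ZMod 2))) ∈ U0 → c⁻¹ * u * c ∈ (T : Subgroup C) := by
    intro u hu
    have h1 : u ∈ (P : Subgroup C) := hP hu
    rw [← hc, mem_smul_sylow] at h1
    exact h1
  have hx' : ∀ u : C, ((e u : Matrix.SpecialLinearGroup (Fin 5) (ZMod 2))) ∈ U0 →
      (c * x * c⁻¹) * u = u * (c * x * c⁻¹) := by
    intro u hu
    have h1 := hx _ (hmemU1 u hu)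
    calc c * x * c⁻¹ * u = c * (x * (c⁻¹ * u * c)) * c⁻¹ := by group
      _ = c * ((c⁻¹ * u * c) * x) * c⁻¹ := by rw [h1]
      _ = u * (c * x * c⁻¹) := by group
  rcases central_cases s hs e zc (fun u _ => (hzc u).symm) with h | h
  · exact absurd h hz1
  rcases central_cases s hs e (c * x * c⁻¹) hx' with h' | h'
  · left
    calc x = c⁻¹ * (c * x * c⁻¹) * c := by group
      _ = 1 := by rw [h']; group
  · right
    have h2 : e (c * x * c⁻¹) = e zc := by
      apply Subtype.ext
      apply Subtype.ext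
      rw [h', h]
    have h3 : c * x * c⁻¹ = zc := e.injective h2
    calc x = c⁻¹ * (c * x * c⁻¹) * c := by group
      _ = c⁻¹ * zc * c := by rw [h3]
      _ = c⁻¹ * (c * zc) := by rw [mul_assoc, hzc c]
      _ = zc := by group

theorem result {G : Type*} [Group G] [Finite G] (s : Matrix.SpecialLinearGroup (Fin 5) (ZMod 2)) (hs : (s : Matrix (Fin 5) (Fin 5) (ZMod 2)) = Matrix.transvection 0 1 1) (z : G) (hz : orderOf z = 2) (e : (Subgroup.centralizer ({z} : Set G)) ≃* Subgroup.centralizer ({s} : Set (Matrix.SpecialLinearGroup (Fin 5) (ZMod 2)))) (T : Sylow 2 (Subgroup.centralizer ({z} : Set G))) : ¬ 2 ∣ ((T : Subgroup (Subgroup.centralizer ({z} : Set G))).map (Subgroup.subtype (Subgroup.centralizer ({z} : Set G)))).index := by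
  haveI : Fact (Nat.Prime 2) := ⟨Nat.prime_two⟩
  have hzC : z ∈ Subgroup.centralizer ({z} : Set G) := Subgroup.mem_centralizer_singleton_iff.mpr rfl
  have hzcen : ∀ c : ↥(Subgroup.centralizer ({z} : Set G)), c * ⟨z, hzC⟩ = ⟨z, hzC⟩ * c :=
    fun c => Subtype.ext (Subgroup.mem_centralizer_singleton_iff.mp c.2)
  have hzne : z ≠ 1 := by
    intro h
    rw [h, orderOf_one] at hz
    omega
  have hz1 : (⟨z, hzC⟩ : ↥(Subgroup.centralizer ({z} : Set G))) ≠ 1 := by
    intro h
    exact hzne (congrArg Subtype.val h)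
  have hZ := fun x hx => sylow_center s hs e ⟨z, hzC⟩ hzcen hz1 T x hx
  -- `z ∈ T`
  have hzT : (⟨z, hzC⟩ : ↥(Subgroup.centralizer ({z} : Set G))) ∈ (T : Subgroup _) := by
    have hn : (Subgroup.zpowers (⟨z, hzC⟩ : ↥(Subgroup.centralizer ({z} : Set G)))).Normal := by
      constructor
      intro n hn g
      obtain ⟨k, rfl⟩ := Subgroup.mem_zpowers_iff.mp hn
      have hc : Commute g (⟨z, hzC⟩ : ↥(Subgroup.centralizer ({z} : Set G))) := hzcen g
      rw [(hc.zpow_right k).eq, mul_inv_cancel_right]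
      exact Subgroup.zpow_mem_zpowers _ k
    have hp : IsPGroup 2 ↥(Subgroup.zpowers (⟨z, hzC⟩ : ↥(Subgroup.centralizer ({z} : Set G)))) := by
      apply IsPGroup.of_card (n := 1)
      rw [Nat.card_zpowers, ← Subgroup.orderOf_coe, pow_one]; exact hz
    exact (hp.le_sylow_of_normal T) (Subgroup.mem_zpowers _)
  -- the normalizer of `T` in `G` lies in the centralizer of `z`
  have hN : Subgroup.normalizer (((T : Subgroup (Subgroup.centralizer ({z} : Set G))).map (Subgroup.subtype (Subgroup.centralizer ({z} : Set G))) : Subgroup G) : Set G)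
      ≤ Subgroup.centralizer ({z} : Set G) := by
    intro x hx
    have hzTG : z ∈ (T : Subgroup (Subgroup.centralizer ({z} : Set G))).map (Subgroup.subtype (Subgroup.centralizer ({z} : Set G))) :=
      ⟨⟨z, hzC⟩, hzT, rfl⟩
    have h1 : x * z * x⁻¹ ∈ (T : Subgroup (Subgroup.centralizer ({z} : Set G))).map (Subgroup.subtype (Subgroup.centralizer ({z} : Set G))) :=
      (Subgroup.mem_normalizer_iff.mp hx z).mp hzTG
    obtain ⟨w, hwT, hw⟩ := h1
    have hw' : (w : G) = x * z * x⁻¹ := hw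
    have hwc : ∀ y ∈ (T : Subgroup (Subgroup.centralizer ({z} : Set G))), w * y = y * w := by
      intro y hy
      apply Subtype.ext
      have hyTG : (y : G) ∈ (T : Subgroup (Subgroup.centralizer ({z} : Set G))).map (Subgroup.subtype (Subgroup.centralizer ({z} : Set G))) :=
        ⟨y, hy, rfl⟩
      have h2 : x⁻¹ * (y : G) * x ∈ (T : Subgroup (Subgroup.centralizer ({z} : Set G))).map (Subgroup.subtype (Subgroup.centralizer ({z} : Set G))) :=
        (Subgroup.mem_normalizer_iff''.mp hx (y : G)).mp hyTG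
      obtain ⟨v, _, hv⟩ := h2
      have hv' : (v : G) = x⁻¹ * (y : G) * x := hv
      have h3 : (v : G) * z = z * (v : G) := Subgroup.mem_centralizer_singleton_iff.mp v.2
      rw [hv'] at h3
      rw [Subgroup.coe_mul, Subgroup.coe_mul, hw']
      calc x * z * x⁻¹ * (y : G) = x * (z * (x⁻¹ * (y : G) * x)) * x⁻¹ := by group
        _ = x * ((x⁻¹ * (y : G) * x) * z) * x⁻¹ := by rw [h3]
        _ = (y : G) * (x * z * x⁻¹) := by group
    rw [Subgroup.mem_centralizer_singleton_iff]
    rcases hZ w hwc with h | h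
    · exfalso
      apply hzne
      have h4 : x * z * x⁻¹ = 1 := by rw [← hw', h]; rfl
      calc z = x⁻¹ * (x * z * x⁻¹) * x := by group
        _ = 1 := by rw [h4]; group
    · have h4 : x * z * x⁻¹ = z := by rw [← hw', h]
      calc x * z = (x * z * x⁻¹) * x := by group
        _ = z * x := by rw [h4]
  -- counting
  obtain ⟨n, hn⟩ := IsPGroup.iff_card.mp (T.2.map (Subgroup.subtype (Subgroup.centralizer ({z} : Set G))))
  have hmod := Sylow.card_quotient_normalizer_modEq_card_quotient (p := 2) hn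
  have h1 := Subgroup.relIndex_mul_relIndex
    ((T : Subgroup (Subgroup.centralizer ({z} : Set G))).map (Subgroup.subtype (Subgroup.centralizer ({z} : Set G)))) _ _
    Subgroup.le_normalizer hN
  have h2 : ((T : Subgroup (Subgroup.centralizer ({z} : Set G))).map (Subgroup.subtype (Subgroup.centralizer ({z} : Set G)))).relIndex
      (Subgroup.centralizer ({z} : Set G)) = (T : Subgroup (Subgroup.centralizer ({z} : Set G))).index := by
    rw [Subgroup.relIndex, Subgroup.subgroupOf,
      Subgroup.comap_map_eq_self_of_injective (Subgroup.subtype_injective _)]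
  have h3 : ¬ 2 ∣ (T : Subgroup (Subgroup.centralizer ({z} : Set G))).index := T.not_dvd_index
  intro hdvd
  apply h3
  rw [← h2, ← h1]
  apply Dvd.dvd.mul_right
  exact (hmod.dvd_iff (dvd_refl 2)).mpr hdvd

end Cfsg.Agent.S1717
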