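import Cfsg.Statements.S1753
import Mathlib

set_option autoImplicit false
universe u
open Cfsg

namespace Cfsg.Agent.S1753

/-- A section of a proper subgroup of a finite group has smaller order. -/
theorem card_section_lt {G : Type u} [Group G] [Finite G] (H : Subgroup G) (hH : H ≠ ⊤)
    (H' : Subgroup H) (N : Subgroup H') : Nat.card (H' ⧸ N) < Nat.card G := by
  have h1 : Nat.card (H' ⧸ N) ≤ Nat.card H' :=
    Nat.card_le_card_of_surjective _ (QuotientGroup.mk_surjective (s := N))
  have h2 : Nat.card H' ≤ Nat.card H := Subgroup.card_le_card_group H'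
  have h3 : Nat.card H < Nat.card G := by
    by_contra hcon
    exact hH (Subgroup.eq_top_of_le_card H (not_lt.mp hcon))
  omega

/-- If all smaller finite nonabelian simple groups satisfy `K`, then `G` is `K`-proper. -/
theorem kproper_of_smaller (K : ∀ (X : Type u) [Group X], Prop) (G : Type u) [Group G] [Finite G]
    (h : ∀ (X : Type u) [Group X] [Finite X],
      IsSimpleGroup X → ¬ IsMulCommutative X → Nat.card X < Nat.card G → K X) :
    Cfsg.IsKProperWith K G := by
  intro H hH H' N _ hs hc
  exact h (H' ⧸ N) hs hc (card_section_lt H hH H' N)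

theorem result (K : ∀ (X : Type u) [Group X], Prop) :
    (∀ (G : Type u) [Group G], Cfsg.IsMinCounterexampleWith K G → Cfsg.IsKProperWith K G) ∧
      ((∀ (X : Type u) [Group X] [Finite X], IsSimpleGroup X → ¬ IsMulCommutative X → Cfsg.IsKProperWith K X → K X) →
        ∀ (G : Type u) [Group G] [Finite G], IsSimpleGroup G → ¬ IsMulCommutative G → K G) := by
  refine ⟨?_, ?_⟩
  · intro G _ hG
    obtain ⟨hfin, _, _, _, hmin⟩ := hG
    exact kproper_of_smaller K G hmin
  · intro hK
    have key : ∀ n : ℕ, ∀ (G : Type u) [Group G] [Finite G], Nat.card G = n →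
        IsSimpleGroup G → ¬ IsMulCommutative G → K G := by
      intro n
      induction n using Nat.strong_induction_on with
      | _ n ih =>
        intro G _ _ hn hs hc
        apply hK G hs hc
        apply kproper_of_smaller K G
        intro X _ _ hXs hXc hlt
        exact ih (Nat.card X) (hn ▸ hlt) X rfl hXs hXc
    intro G _ _ hs hc
    exact key (Nat.card G) G rfl hs hc

end Cfsg.Agent.S1753
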