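import Cfsg.Statements.S1754
import Mathlib

set_option autoImplicit false
open Cfsg

namespace Cfsg.Agent.S1754

/-- Quasisimplicity is invariant under isomorphism. -/
theorem isQuasisimple_of_equiv {H H' : Type*} [Group H] [Group H'] (e : H ≃* H')
    (h : Cfsg.IsQuasisimple H) : Cfsg.IsQuasisimple H' := by
  obtain ⟨hp, hs⟩ := h
  refine ⟨?_, ?_⟩
  · exact Group.IsPerfect.ofSurjective (f := e.toMonoidHom) e.surjective
  · have hc : (Subgroup.center H).map (e : H →* H') = Subgroup.center H' := by
      ext x
      constructor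
      · rintro ⟨y, hy, rfl⟩
        have hy : ∀ g : H, g * y = y * g := Subgroup.mem_center_iff.mp hy
        rw [Subgroup.mem_center_iff]
        intro g
        obtain ⟨g', rfl⟩ := e.surjective g
        simp only [MonoidHom.coe_coe]
        rw [← map_mul, ← map_mul, hy g']
      · intro hx
        rw [Subgroup.mem_center_iff] at hx
        refine ⟨e.symm x, Subgroup.mem_center_iff.mpr ?_, by simp⟩
        intro g
        apply e.injective
        rw [map_mul, map_mul, e.apply_symm_apply]
        exact hx (e g)
    exact (QuotientGroup.congr (Subgroup.center H) (Subgroup.center H') e hc).symm.isSimpleGroup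

theorem result {G : Type*} [Group G] [Finite G]
    (A : Subgroup G) (hA : Cfsg.IsStandardSubgroup A) (t : G) (ht : orderOf t = 2) (htA : t ∈ Subgroup.centralizer (A : Set G)) :
    Subgroup.centralizer ({t} : Set G) ≤ Subgroup.normalizer (A : Set G) ∧
      Cfsg.IsComponent (A.subgroupOf (Subgroup.centralizer ({t} : Set G))) := by
  obtain ⟨hq, ⟨_, hte⟩, _, hN⟩ := hA
  have h1 : Subgroup.centralizer ({t} : Set G) ≤ Subgroup.normalizer (A : Set G) := by
    intro g hg
    rw [hN]
    by_contra hgn
    have hodd := hte g hgn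
    have hg' : g * t = t * g := Subgroup.mem_centralizer_singleton_iff.mp hg
    have htmem : t ∈ Subgroup.centralizer (A : Set G) ⊓
        (Subgroup.centralizer (A : Set G)).map (MulAut.conj g).toMonoidHom := by
      refine Subgroup.mem_inf.mpr ⟨htA, ⟨t, htA, ?_⟩⟩
      simp only [MulEquiv.toMonoidHom_eq_coe, MonoidHom.coe_coe, MulAut.conj_apply]
      rw [hg', mul_inv_cancel_right]
    have hdvd : orderOf t ∣ Nat.card ↥(Subgroup.centralizer (A : Set G) ⊓
        (Subgroup.centralizer (A : Set G)).map (MulAut.conj g).toMonoidHom) :=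
      Subgroup.orderOf_dvd_natCard _ htmem
    rw [ht] at hdvd
    exact (Nat.not_even_iff_odd.mpr hodd) (even_iff_two_dvd.mpr hdvd)
  refine ⟨h1, ?_⟩
  have hAC : A ≤ Subgroup.centralizer ({t} : Set G) := by
    intro a ha
    rw [Subgroup.mem_centralizer_singleton_iff]
    exact (Subgroup.mem_centralizer_iff.mp htA a ha)
  refine ⟨?_, ?_⟩
  · exact ((Subgroup.normal_subgroupOf_iff_le_normalizer hAC).mpr h1).isSubnormal
  · exact isQuasisimple_of_equiv (Subgroup.subgroupOfEquivOfLe hAC).symm hq

end Cfsg.Agent.S1754
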