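import Cfsg.Statements.S1755
import Mathlib

set_option autoImplicit false
open Cfsg

namespace Cfsg.Agent.S1755

/-- Membership in a conjugate subgroup. -/
theorem mem_conj_iff {G : Type*} [Group G] (B : Subgroup G) (g x : G) :
    x ∈ B.map (MulAut.conj g).toMonoidHom ↔ g⁻¹ * x * g ∈ B := by
  constructor
  · rintro ⟨y, hy, rfl⟩
    have : g⁻¹ * ((MulAut.conj g).toMonoidHom y) * g = y := by
      simp [MulAut.conj_apply, mul_assoc]
    rw [this]; exact hy
  · intro h
    refine ⟨g⁻¹ * x * g, h, ?_⟩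
    simp [MulAut.conj_apply, mul_assoc]

/-- Quasisimplicity is invariant under isomorphism. -/
theorem isQuasisimple_of_equiv {H H' : Type*} [Group H] [Group H'] (e : H ≃* H')
    (h : Cfsg.IsQuasisimple H) : Cfsg.IsQuasisimple H' := by
  obtain ⟨hp, hs⟩ := h
  refine ⟨?_, ?_⟩
  · exact Group.IsPerfect.ofSurjective (f := e.toMonoidHom) e.surjective
  · have hc : (Subgroup.center H).map (e : H →* H') = Subgroup.center H' := by
      ext x
      constructor
      · rintro ⟨y, hy, rfl⟩
        have hy : ∀ g : H, g * y = y * g := Subgroup.mem_center_iff.mp hy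
        rw [Subgroup.mem_center_iff]
        intro g
        obtain ⟨g', rfl⟩ := e.surjective g
        simp only [MonoidHom.coe_coe]
        rw [← map_mul, ← map_mul, hy g']
      · intro hx
        rw [Subgroup.mem_center_iff] at hx
        refine ⟨e.symm x, Subgroup.mem_center_iff.mpr ?_, by simp⟩
        intro g
        apply e.injective
        rw [map_mul, map_mul, e.apply_symm_apply]
        exact hx (e g)
    exact (QuotientGroup.congr (Subgroup.center H) (Subgroup.center H') e hc).symm.isSimpleGroup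

/-- The join of a conjugation-invariant family of subgroups is normal. -/
theorem sSup_normal_of_conj {X : Type*} [Group X] (S : Set (Subgroup X))
    (h : ∀ K ∈ S, ∀ x : X, K.map (MulAut.conj x).toMonoidHom ∈ S) : (sSup S).Normal := by
  constructor
  intro n hn g
  have hle : (sSup S).map (MulAut.conj g).toMonoidHom ≤ sSup S := by
    rw [Subgroup.map_le_iff_le_comap]
    apply sSup_le
    intro K hK
    rw [← Subgroup.map_le_iff_le_comap]
    exact le_sSup (h K hK g)
  exact hle ⟨n, hn, by simp [MulAut.conj_apply]⟩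

/-- The layer is a normal subgroup. -/
theorem layer_normal (X : Type*) [Group X] : (Cfsg.layer X).Normal := by
  apply sSup_normal_of_conj
  intro K hK x
  obtain ⟨hs, hq⟩ := hK
  refine ⟨hs.map (MulAut.conj x).surjective, ?_⟩
  exact isQuasisimple_of_equiv (K.equivMapOfInjective _ (MulAut.conj x).injective) hq

/-- The generalized Fitting subgroup is a normal subgroup. -/
theorem gfs_normal (X : Type*) [Group X] : (Cfsg.generalizedFittingSubgroup X).Normal := by
  haveI := layer_normal X
  haveI : (Cfsg.fittingSubgroup X).Normal := Subgroup.sSup_normal _ (fun _ h => h.1)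
  unfold Cfsg.generalizedFittingSubgroup
  infer_instance

/-- A central element lies in the generalized Fitting subgroup. -/
theorem center_le_gfs (X : Type*) [Group X] : Subgroup.center X ≤ Cfsg.generalizedFittingSubgroup X := by
  refine le_trans ?_ (le_sup_right : Cfsg.fittingSubgroup X ≤ _)
  apply le_sSup
  refine ⟨inferInstance, ?_⟩
  open scoped IsMulCommutative in
  infer_instance

/-- In a finite cyclic group there is at most one element of order two. -/
theorem unique_involution {H : Type*} [Group H] [Finite H] [IsCyclic H] (x y : H)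
    (hx : orderOf x = 2) (hy : orderOf y = 2) : x = y := by
  classical
  haveI := Fintype.ofFinite H
  have hd : 2 ∣ Fintype.card H := by
    rw [← hx]; exact orderOf_dvd_card
  have h1 := IsCyclic.card_orderOf_eq_totient (α := H) hd
  rw [Nat.totient_two] at h1
  have hxm : x ∈ Finset.univ.filter (fun a : H => orderOf a = 2) := by simp [hx]
  have hym : y ∈ Finset.univ.filter (fun a : H => orderOf a = 2) := by simp [hy]
  exact Finset.card_le_one.mp h1.le x hxm y hym

/-- A nontrivial finite 2-group has an element of order two. -/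
theorem exists_involution {H : Type*} [Group H] [Finite H] [Nontrivial H] (hH : IsPGroup 2 H) :
    ∃ x : H, orderOf x = 2 := by
  haveI : Fact (Nat.Prime 2) := ⟨Nat.prime_two⟩
  obtain ⟨n, hn0, hn⟩ := hH.nontrivial_iff_card.mp inferInstance
  exact exists_prime_orderOf_dvd_card' 2 (hn ▸ dvd_pow_self 2 (Nat.pos_iff_ne_zero.mp hn0))

/-- A nontrivial normal subgroup of a finite `p`-group meets the centre nontrivially. -/
theorem normal_inf_center_ne_bot {H : Type*} [Group H] [Finite H] (p : ℕ) [Fact p.Prime]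
    (hH : IsPGroup p H) (N : Subgroup H) [N.Normal] (hN : N ≠ ⊥) : N ⊓ Subgroup.center H ≠ ⊥ := by
  have hNp : IsPGroup p N := hH.to_subgroup N
  haveI : Nontrivial N := (Subgroup.nontrivial_iff_ne_bot N).mpr hN
  have hdvd : p ∣ Nat.card N := by
    obtain ⟨n, hn0, hn⟩ := hNp.nontrivial_iff_card.mp inferInstance
    exact hn ▸ dvd_pow_self p (Nat.pos_iff_ne_zero.mp hn0)
  have hfix : (1 : N) ∈ MulAction.fixedPoints (ConjAct H) N := by
    intro g
    exact smul_one g
  obtain ⟨b, hb, hb1⟩ :=
    (hH.of_equiv ConjAct.toConjAct).exists_fixed_point_of_prime_dvd_card_of_fixed_point N hdvd hfix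
  intro hbot
  apply hb1
  have hbc : (b : H) ∈ N ⊓ Subgroup.center H := by
    refine Subgroup.mem_inf.mpr ⟨b.2, ?_⟩
    rw [Subgroup.mem_center_iff]
    intro g
    have h1 := hb (ConjAct.toConjAct g)
    have h2 : g * (b : H) * g⁻¹ = b := by
      have := congrArg Subtype.val h1
      rw [ConjAct.Subgroup.val_conj_smul, ConjAct.smul_def] at this
      simpa using this
    calc g * (b : H) = g * (b : H) * g⁻¹ * g := by group
      _ = b * g := by rw [h2]
  rw [hbot] at hbc
  exact (Subtype.ext (Subgroup.mem_bot.mp hbc)).symm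

/-- The abstract form of the statement. -/
theorem ti_of_char_abelian {G : Type*} [Group G] [Finite G] (z : G) (hz : orderOf z = 2)
    (C : Subgroup G) (hzC : z ∈ C) (hzcen : ∀ c ∈ C, c * z = z * c)
    (hCz : ∀ g : G, g * z = z * g → g ∈ C)
    (Q : Subgroup ↥C) [hQn : Q.Normal] (hzQ : (⟨z, hzC⟩ : ↥C) ∈ Q)
    (hQ2 : IsPGroup 2 ↥Q)
    (hQcyc : ∀ A : Subgroup ↥Q, A.Characteristic → IsMulCommutative ↥A → IsCyclic ↥A)
    (B : Subgroup ↥Q) (hBc : B.Characteristic) (hBa : IsMulCommutative ↥B) (g : G) :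
    ((B.map Q.subtype).map C.subtype).map (MulAut.conj g).toMonoidHom = (B.map Q.subtype).map C.subtype ∨
      ((B.map Q.subtype).map C.subtype).map (MulAut.conj g).toMonoidHom ⊓ (B.map Q.subtype).map C.subtype = ⊥ := by
  haveI : Fact (Nat.Prime 2) := ⟨Nat.prime_two⟩
  have hmem : ∀ x : G, x ∈ (B.map Q.subtype).map C.subtype ↔ ∃ b : ↥Q, b ∈ B ∧ ((b : ↥C) : G) = x := by
    intro x
    simp only [Subgroup.mem_map, Subgroup.coe_subtype, exists_exists_and_eq_and]
  -- conjugation by elements of `C` preserves `BG`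
  have hF4 : ∀ c ∈ C, ∀ x ∈ (B.map Q.subtype).map C.subtype, c * x * c⁻¹ ∈ (B.map Q.subtype).map C.subtype := by
    intro c hc x hx
    obtain ⟨b, hb, rfl⟩ := (hmem x).mp hx
    have hmap := (Subgroup.characteristic_iff_map_eq.mp hBc) (MulAut.conjNormal (⟨c, hc⟩ : ↥C))
    have hb' : (MulAut.conjNormal (⟨c, hc⟩ : ↥C)) b ∈ B := by
      rw [← hmap]
      exact ⟨b, hb, rfl⟩
    refine (hmem _).mpr ⟨_, hb', ?_⟩
    rw [MulAut.conjNormal_apply]
    rfl
  by_cases hB : B = ⊥
  · left
    rw [hB, Subgroup.map_bot, Subgroup.map_bot, Subgroup.map_bot]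
  -- `z` as an element of `Q`
  have hzQord : orderOf (⟨⟨z, hzC⟩, hzQ⟩ : ↥Q) = 2 := by
    rw [← hz, ← Subgroup.orderOf_coe (⟨⟨z, hzC⟩, hzQ⟩ : ↥Q), ← Subgroup.orderOf_coe (⟨z, hzC⟩ : ↥C)]
  have hzQcen : (⟨⟨z, hzC⟩, hzQ⟩ : ↥Q) ∈ Subgroup.center ↥Q := by
    rw [Subgroup.mem_center_iff]
    intro q
    apply Subtype.ext
    apply Subtype.ext
    exact hzcen _ (q : ↥C).2
  -- `z ∈ B`
  have hzB : (⟨⟨z, hzC⟩, hzQ⟩ : ↥Q) ∈ B := by
    have hBn : B.Normal := Subgroup.normal_of_characteristic B
    have hne := normal_inf_center_ne_bot 2 hQ2 B hB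
    have : Nontrivial ↥(B ⊓ Subgroup.center ↥Q) := (Subgroup.nontrivial_iff_ne_bot _).mpr hne
    obtain ⟨y, hy⟩ := exists_involution (hQ2.to_subgroup (B ⊓ Subgroup.center ↥Q))
    have hyB : (y : ↥Q) ∈ B := (Subgroup.mem_inf.mp y.2).1
    have hycen : (y : ↥Q) ∈ Subgroup.center ↥Q := (Subgroup.mem_inf.mp y.2).2
    have : IsCyclic ↥(Subgroup.center ↥Q) := hQcyc _ inferInstance inferInstance
    have h1 : (⟨(y : ↥Q), hycen⟩ : ↥(Subgroup.center ↥Q)) = ⟨⟨⟨z, hzC⟩, hzQ⟩, hzQcen⟩ := by
      apply unique_involution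
      · rw [← Subgroup.orderOf_coe]; simpa using hy
      · rw [← Subgroup.orderOf_coe]; exact hzQord
    have h2 : (y : ↥Q) = ⟨⟨z, hzC⟩, hzQ⟩ := congrArg Subtype.val h1
    rw [← h2]; exact hyB
  have hzBG : z ∈ (B.map Q.subtype).map C.subtype := (hmem z).mpr ⟨_, hzB, rfl⟩
  -- every involution of `BG` is `z`
  have hBcyc : IsCyclic ↥B := hQcyc B hBc hBa
  have hF3 : ∀ x ∈ (B.map Q.subtype).map C.subtype, orderOf x = 2 → x = z := by
    intro x hx hxo
    obtain ⟨b, hb, rfl⟩ := (hmem x).mp hx
    have h1 : (⟨b, hb⟩ : ↥B) = ⟨⟨⟨z, hzC⟩, hzQ⟩, hzB⟩ := by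
      apply unique_involution
      · rw [← Subgroup.orderOf_coe, ← hxo, ← Subgroup.orderOf_coe b, ← Subgroup.orderOf_coe (b : ↥C)]
      · rw [← Subgroup.orderOf_coe]; exact hzQord
    have h2 : b = ⟨⟨z, hzC⟩, hzQ⟩ := congrArg Subtype.val h1
    rw [h2]
  have hBG2 : IsPGroup 2 ↥((B.map Q.subtype).map C.subtype) :=
    ((hQ2.to_subgroup B).map _).map _
  by_cases hI : ((B.map Q.subtype).map C.subtype).map (MulAut.conj g).toMonoidHom ⊓ (B.map Q.subtype).map C.subtype = ⊥
  · right; exact hI
  left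
  have : Nontrivial ↥(((B.map Q.subtype).map C.subtype).map (MulAut.conj g).toMonoidHom ⊓ (B.map Q.subtype).map C.subtype) :=
    (Subgroup.nontrivial_iff_ne_bot _).mpr hI
  have hI2 : IsPGroup 2 ↥(((B.map Q.subtype).map C.subtype).map (MulAut.conj g).toMonoidHom ⊓ (B.map Q.subtype).map C.subtype) :=
    hBG2.to_le inf_le_right
  obtain ⟨y, hy⟩ := exists_involution hI2
  have hyo : orderOf (y : G) = 2 := by rw [Subgroup.orderOf_coe]; exact hy
  have hy1 : (y : G) ∈ ((B.map Q.subtype).map C.subtype).map (MulAut.conj g).toMonoidHom := (Subgroup.mem_inf.mp y.2).1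
  have hy2 : (y : G) ∈ (B.map Q.subtype).map C.subtype := (Subgroup.mem_inf.mp y.2).2
  have hyz : (y : G) = z := hF3 _ hy2 hyo
  rw [mem_conj_iff, hyz] at hy1
  have hgz : g⁻¹ * z * g = z := by
    apply hF3 _ hy1
    have : g⁻¹ * z * g = MulAut.conj g⁻¹ z := by simp [MulAut.conj_apply]
    rw [this, MulEquiv.orderOf_eq, hz]
  have hgC : g ∈ C := by
    apply hCz
    calc g * z = g * (g⁻¹ * z * g) := by rw [hgz]
      _ = z * g := by group
  ext x
  rw [mem_conj_iff]
  constructor
  · intro hx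
    have := hF4 g hgC _ hx
    have e : g * (g⁻¹ * x * g) * g⁻¹ = x := by group
    rw [e] at this; exact this
  · intro hx
    have := hF4 g⁻¹ (C.inv_mem hgC) _ hx
    rw [inv_inv] at this; exact this

theorem result {G : Type*} [Group G] [Finite G] (z : G) (hz : orderOf z = 2) (hQ : Cfsg.IsOfSymplecticType ↥(Cfsg.generalizedFittingSubgroup ↥(Subgroup.centralizer ({z} : Set G))))
    (B : Subgroup ↥(Cfsg.generalizedFittingSubgroup ↥(Subgroup.centralizer ({z} : Set G)))) (hBc : B.Characteristic) (hBa : IsMulCommutative ↥B) (g : G) :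
    ((B.map (Cfsg.generalizedFittingSubgroup ↥(Subgroup.centralizer ({z} : Set G))).subtype).map (Subgroup.centralizer ({z} : Set G)).subtype).map (MulAut.conj g).toMonoidHom =
        (B.map (Cfsg.generalizedFittingSubgroup ↥(Subgroup.centralizer ({z} : Set G))).subtype).map (Subgroup.centralizer ({z} : Set G)).subtype ∨
      ((B.map (Cfsg.generalizedFittingSubgroup ↥(Subgroup.centralizer ({z} : Set G))).subtype).map (Subgroup.centralizer ({z} : Set G)).subtype).map (MulAut.conj g).toMonoidHom ⊓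
        (B.map (Cfsg.generalizedFittingSubgroup ↥(Subgroup.centralizer ({z} : Set G))).subtype).map (Subgroup.centralizer ({z} : Set G)).subtype = ⊥ := by
  have hzC : z ∈ Subgroup.centralizer ({z} : Set G) := Subgroup.mem_centralizer_singleton_iff.mpr rfl
  have hzcen : ∀ c ∈ Subgroup.centralizer ({z} : Set G), c * z = z * c :=
    fun c hc => Subgroup.mem_centralizer_singleton_iff.mp hc
  have hzcen' : (⟨z, hzC⟩ : ↥(Subgroup.centralizer ({z} : Set G))) ∈ Subgroup.center ↥(Subgroup.centralizer ({z} : Set G)) := by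
    rw [Subgroup.mem_center_iff]
    intro c
    apply Subtype.ext
    exact hzcen c c.2
  haveI := gfs_normal ↥(Subgroup.centralizer ({z} : Set G))
  exact ti_of_char_abelian z hz (Subgroup.centralizer ({z} : Set G)) hzC hzcen
    (fun g hg => Subgroup.mem_centralizer_singleton_iff.mpr hg)
    (Cfsg.generalizedFittingSubgroup ↥(Subgroup.centralizer ({z} : Set G)))
    (center_le_gfs _ hzcen') hQ.1 hQ.2 B hBc hBa g

end Cfsg.Agent.S1755
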