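import Cfsg.Statements.S1756
import Mathlib

set_option autoImplicit false
open Cfsg
open scoped commutatorElement

namespace Cfsg.Agent.S1756

section abstract
variable {P : Type*} [Group P]

/-- Commutator with a fixed element as a homomorphism into the centre (class two). -/
def commHom (hc : ∀ a b : P, ⁅a, b⁆ ∈ Subgroup.center P) (h : P) : P →* Subgroup.center P where
  toFun b := ⟨⁅b, h⁆, hc b h⟩
  map_one' := by ext; simp
  map_mul' a b := by
    ext
    simp only [Subgroup.coe_mul]
    have h1 : ⁅a * b, h⁆ = a * ⁅b, h⁆ * a⁻¹ * ⁅a, h⁆ := by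
      simp only [commutatorElement_def]; group
    have h2 : a * ⁅b, h⁆ = ⁅b, h⁆ * a := Subgroup.mem_center_iff.mp (hc b h) a
    have h3 : ⁅a, h⁆ * ⁅b, h⁆ = ⁅b, h⁆ * ⁅a, h⁆ := Subgroup.mem_center_iff.mp (hc b h) ⁅a, h⁆
    rw [h1, h2, h3]; group

theorem commHom_apply (hc : ∀ a b : P, ⁅a, b⁆ ∈ Subgroup.center P) (h b : P) :
    ((commHom hc h b : Subgroup.center P) : P) = ⁅b, h⁆ := rfl

variable [Finite P]

/-- In a class-two group with centre of order two, centralizing one more element costs
at most a factor two. -/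
theorem card_le_two_mul (hc : ∀ a b : P, ⁅a, b⁆ ∈ Subgroup.center P)
    (hz : Nat.card (Subgroup.center P) = 2) (D : Subgroup P) (h : P) :
    Nat.card D ≤ 2 * Nat.card (D ⊓ Subgroup.centralizer {h} : Subgroup P) := by
  let f : D →* Subgroup.center P := (commHom hc h).comp D.subtype
  have h1 : f.ker.index = Nat.card f.range := Subgroup.index_ker f
  have h2 : Nat.card f.range ≤ 2 := by
    rw [← hz]; exact Subgroup.card_le_card_group _
  have h3 : Nat.card f.ker * f.ker.index = Nat.card D := Subgroup.card_mul_index f.ker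
  have h4 : Nat.card f.ker ≤ Nat.card (D ⊓ Subgroup.centralizer {h} : Subgroup P) := by
    have hmem : ∀ x : f.ker, ((x : D) : P) ∈ (D ⊓ Subgroup.centralizer {h} : Subgroup P) := by
      intro x
      refine Subgroup.mem_inf.mpr ⟨(x : D).2, ?_⟩
      rw [Subgroup.mem_centralizer_singleton_iff]
      have hx : f (x : D) = 1 := MonoidHom.mem_ker.mp x.2
      have hx' : ⁅((x : D) : P), h⁆ = 1 := by
        have := congrArg (fun y : Subgroup.center P => (y : P)) hx
        simpa [f, commHom_apply] using this
      exact commutatorElement_eq_one_iff_mul_comm.mp hx'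
    apply Nat.card_le_card_of_injective (fun x : f.ker => (⟨((x : D) : P), hmem x⟩ :
      (D ⊓ Subgroup.centralizer {h} : Subgroup P)))
    intro x y hxy
    have := congrArg (fun y : (D ⊓ Subgroup.centralizer {h} : Subgroup P) => (y : P)) hxy
    exact Subtype.ext (Subtype.ext this)
  calc Nat.card D = Nat.card f.ker * f.ker.index := h3.symm
    _ ≤ Nat.card f.ker * 2 := by rw [h1]; exact Nat.mul_le_mul_left _ h2
    _ ≤ 2 * Nat.card (D ⊓ Subgroup.centralizer {h} : Subgroup P) := by
        rw [Nat.mul_comm]; exact Nat.mul_le_mul_left _ h4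

/-- `|K| |C(K)| ≥ 2 |P|` for subgroups containing the centre. -/
theorem card_mul_card_centralizer (hc : ∀ a b : P, ⁅a, b⁆ ∈ Subgroup.center P)
    (hz : Nat.card (Subgroup.center P) = 2) :
    ∀ n : ℕ, ∀ K : Subgroup P, Nat.card K = n → Subgroup.center P ≤ K →
      2 * Nat.card P ≤ Nat.card K * Nat.card (Subgroup.centralizer (K : Set P)) := by
  intro n
  induction n using Nat.strong_induction_on with
  | _ n ih =>
    intro K hKn hZK
    by_cases hK : K = Subgroup.center P
    · rw [hK, hz]
      have : Subgroup.centralizer ((Subgroup.center P : Subgroup P) : Set P) = ⊤ :=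
        Subgroup.centralizer_eq_top_iff_subset.mpr (le_refl _)
      rw [this, Subgroup.card_top]
    · have hlt : Subgroup.center P < K := lt_of_le_of_ne hZK (Ne.symm hK)
      obtain ⟨K1, -, hmax⟩ := Finite.exists_le_maximal
        (p := fun K1 : Subgroup P => Subgroup.center P ≤ K1 ∧ K1 < K) (a := Subgroup.center P)
        ⟨le_refl _, hlt⟩
      obtain ⟨hZK1, hK1K⟩ := hmax.prop
      obtain ⟨h, hhK, hhK1⟩ := SetLike.exists_of_lt hK1K
      have hle : K1 ⊔ Subgroup.zpowers h ≤ K :=
        sup_le hK1K.le ((Subgroup.zpowers_le).mpr hhK)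
      have hsup : K1 ⊔ Subgroup.zpowers h = K := by
        by_contra hne
        have hlt' : K1 ⊔ Subgroup.zpowers h < K := lt_of_le_of_ne hle hne
        have := hmax.le_of_ge ⟨le_trans hZK1 le_sup_left, hlt'⟩ le_sup_left
        exact hhK1 (this (Subgroup.mem_sup_right (Subgroup.mem_zpowers h)))
      have hcard : 2 * Nat.card K1 ≤ Nat.card K := by
        obtain ⟨m, hm⟩ := Subgroup.card_dvd_of_le hK1K.le
        have hK1pos : 0 < Nat.card K1 := Nat.card_pos
        have hm1 : m ≠ 1 := by
          intro h1
          rw [h1, Nat.mul_one] at hm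
          exact hK1K.ne (Subgroup.eq_of_le_of_card_ge hK1K.le (le_of_eq hm))
        have hm0 : m ≠ 0 := by
          intro h0
          rw [h0, Nat.mul_zero] at hm
          have : 0 < Nat.card K := Nat.card_pos
          omega
        have : 2 ≤ m := by omega
        rw [hm, Nat.mul_comm]
        exact Nat.mul_le_mul_left _ this
      have hcent : (Subgroup.centralizer (K1 : Set P) ⊓ Subgroup.centralizer {h} : Subgroup P) ≤
          Subgroup.centralizer (K : Set P) := by
        intro u hu
        obtain ⟨hu1, hu2⟩ := Subgroup.mem_inf.mp hu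
        have hK1u : K1 ≤ Subgroup.centralizer {u} := by
          intro k hk
          rw [Subgroup.mem_centralizer_singleton_iff]
          exact (Subgroup.mem_centralizer_iff.mp hu1 k hk)
        have hhu : Subgroup.zpowers h ≤ Subgroup.centralizer {u} := by
          rw [Subgroup.zpowers_le, Subgroup.mem_centralizer_singleton_iff]
          exact (Subgroup.mem_centralizer_singleton_iff.mp hu2).symm
        have hKu : K ≤ Subgroup.centralizer {u} := by
          rw [← hsup]; exact sup_le hK1u hhu
        rw [Subgroup.mem_centralizer_iff]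
        intro k hk
        exact (Subgroup.mem_centralizer_singleton_iff.mp (hKu hk))
      have hlt2 : Nat.card K1 < n := by
        rw [← hKn]
        have hK1pos : 0 < Nat.card K1 := Nat.card_pos
        omega
      have hIH := ih (Nat.card K1) hlt2 K1 rfl hZK1
      have hA := card_le_two_mul hc hz (Subgroup.centralizer (K1 : Set P)) h
      have hB : Nat.card (Subgroup.centralizer (K1 : Set P) ⊓ Subgroup.centralizer {h} :
          Subgroup P) ≤ Nat.card (Subgroup.centralizer (K : Set P)) :=
        Subgroup.card_le_of_le hcent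
      calc 2 * Nat.card P ≤ Nat.card K1 * Nat.card (Subgroup.centralizer (K1 : Set P)) := hIH
        _ ≤ Nat.card K1 * (2 * Nat.card (Subgroup.centralizer (K : Set P))) :=
            Nat.mul_le_mul_left _ (le_trans hA (Nat.mul_le_mul_left _ hB))
        _ = (2 * Nat.card K1) * Nat.card (Subgroup.centralizer (K : Set P)) := by ring
        _ ≤ Nat.card K * Nat.card (Subgroup.centralizer (K : Set P)) :=
            Nat.mul_le_mul_right _ hcard

/-- An index two subgroup containing the centre is centralized by a noncentral element. -/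
theorem exists_centralizing (hc : ∀ a b : P, ⁅a, b⁆ ∈ Subgroup.center P)
    (hz : Nat.card (Subgroup.center P) = 2) (H : Subgroup P) (hZH : Subgroup.center P ≤ H)
    (hH : H.index = 2) :
    ∃ u : P, u ∈ Subgroup.centralizer (H : Set P) ∧ u ∉ Subgroup.center P := by
  by_contra hcon
  push Not at hcon
  have h1 := card_mul_card_centralizer hc hz (Nat.card H) H rfl hZH
  have h2 : Nat.card H * 2 = Nat.card P := by rw [← hH]; exact Subgroup.card_mul_index H
  have h3 : Nat.card (Subgroup.centralizer (H : Set P)) ≤ 2 := by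
    rw [← hz]; exact Subgroup.card_le_of_le hcon
  have hpos : 0 < Nat.card H := Nat.card_pos
  have : Nat.card H * Nat.card (Subgroup.centralizer (H : Set P)) ≤ Nat.card H * 2 :=
    Nat.mul_le_mul_left _ h3
  omega

/-- An involutory automorphism whose fixed points form a subgroup of index two is inner. -/
theorem inner_of_index_two (hc : ∀ a b : P, ⁅a, b⁆ ∈ Subgroup.center P)
    (hz : Nat.card (Subgroup.center P) = 2) (τ : P ≃* P) (hτ : ∀ p, τ (τ p) = p)
    (H : Subgroup P) (hH : ∀ p, p ∈ H ↔ τ p = p) (hidx : H.index = 2) :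
    ∃ u : P, ∀ p, τ p = u * p * u⁻¹ := by
  -- uniqueness of the nontrivial central element
  have huniq : ∀ a b : P, a ∈ Subgroup.center P → b ∈ Subgroup.center P → a ≠ 1 → b ≠ 1 →
      a = b := by
    intro a b ha hb ha1 hb1
    obtain ⟨y, -, hy⟩ := (Nat.card_eq_two_iff' (1 : Subgroup.center P)).mp hz
    have h1 : (⟨a, ha⟩ : Subgroup.center P) = y := hy _ (by
      intro h; exact ha1 (congrArg Subtype.val h))
    have h2 : (⟨b, hb⟩ : Subgroup.center P) = y := hy _ (by
      intro h; exact hb1 (congrArg Subtype.val h))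
    exact congrArg Subtype.val (h1.trans h2.symm)
  -- centre is fixed
  have hZH : Subgroup.center P ≤ H := by
    intro z hzc
    rw [hH]
    by_cases hz1 : z = 1
    · rw [hz1, map_one]
    · have hτz : τ z ∈ Subgroup.center P := by
        rw [Subgroup.mem_center_iff]
        intro g
        obtain ⟨g', rfl⟩ := τ.surjective g
        rw [← map_mul, ← map_mul, Subgroup.mem_center_iff.mp hzc g']
      have hτz1 : τ z ≠ 1 := by
        intro h
        apply hz1
        have := congrArg τ h
        rw [hτ, map_one] at this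
        exact this
      exact huniq _ _ hτz hzc hτz1 hz1
  -- an element outside H
  have hne : H ≠ ⊤ := by
    intro h
    rw [h, Subgroup.index_top] at hidx
    omega
  obtain ⟨x, hx⟩ : ∃ x : P, x ∉ H := by
    by_contra hcon
    push Not at hcon
    exact hne (eq_top_iff.mpr (fun y _ => hcon y))
  have hτx : τ x ∉ H := by
    intro h
    have := (hH _).mp h
    rw [hτ] at this
    exact hx ((hH x).mpr this.symm)
  have hxinv : x⁻¹ ∉ H := fun h => hx (by simpa using H.inv_mem h)
  set d : P := x⁻¹ * τ x with hd
  have hdH : d ∈ H := by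
    rw [hd, Subgroup.mul_mem_iff_of_index_two hidx]
    exact ⟨fun h => absurd h hxinv, fun h => absurd h hτx⟩
  have hd1 : d ≠ 1 := by
    intro h
    apply hx
    rw [hH]
    have : x * d = x := by rw [h, mul_one]
    rw [hd] at this
    simpa using this
  have hτd : τ d = d⁻¹ := by
    rw [hd, map_mul, map_inv, hτ]; group
  have hdd : d = d⁻¹ := by
    rw [← hτd]; exact ((hH d).mp hdH).symm
  have hτxd : τ x = x * d := by rw [hd]; group
  have hnormal : H.Normal := Subgroup.normal_of_index_eq_two hidx
  -- d centralizes H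
  have hdcH : ∀ h ∈ H, d * h = h * d := by
    intro h hh
    have h1 : x * h * x⁻¹ ∈ H := hnormal.conj_mem h hh x
    have h2 : τ (x * h * x⁻¹) = x * h * x⁻¹ := (hH _).mp h1
    rw [map_mul, map_mul, map_inv, (hH h).mp hh, hτxd] at h2
    -- x * d * h * (x*d)⁻¹ = x * h * x⁻¹
    have h3 : d * h * d⁻¹ = h := by
      have : x⁻¹ * (x * d * h * (x * d)⁻¹) * x = x⁻¹ * (x * h * x⁻¹) * x := by rw [h2]
      calc d * h * d⁻¹ = x⁻¹ * (x * d * h * (x * d)⁻¹) * x := by group
        _ = x⁻¹ * (x * h * x⁻¹) * x := this
        _ = h := by group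
    calc d * h = d * h * d⁻¹ * d := by group
      _ = h * d := by rw [h3]
  -- d commutes with x
  have hdx : d * x = x * d := by
    have h1 : x * x ∈ H := by
      have := Subgroup.sq_mem_of_index_two hidx x
      rwa [pow_two] at this
    have h2 : τ (x * x) = x * x := (hH _).mp h1
    rw [map_mul, hτxd] at h2
    -- x * d * (x * d) = x * x
    have h3 : d * x * d = x := by
      calc d * x * d = x⁻¹ * (x * d * (x * d)) := by group
        _ = x⁻¹ * (x * x) := by rw [h2]
        _ = x := by group
    calc d * x = d * x * d * d⁻¹ := by group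
      _ = x * d⁻¹ := by rw [h3]
      _ = x * d := by rw [← hdd]
  -- every element is in H or x * H
  have hcases : ∀ p : P, p ∈ H ∨ ∃ h ∈ H, p = x * h := by
    intro p
    by_cases hp : p ∈ H
    · exact Or.inl hp
    · refine Or.inr ⟨x⁻¹ * p, ?_, by group⟩
      rw [Subgroup.mul_mem_iff_of_index_two hidx]
      exact ⟨fun h => absurd h hxinv, fun h => absurd h hp⟩
  have hdZ : d ∈ Subgroup.center P := by
    rw [Subgroup.mem_center_iff]
    intro g
    rcases hcases g with hg | ⟨h, hh, rfl⟩
    · exact (hdcH g hg).symm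
    · calc x * h * d = x * (h * d) := by group
        _ = x * (d * h) := by rw [hdcH h hh]
        _ = (x * d) * h := by group
        _ = (d * x) * h := by rw [hdx]
        _ = d * (x * h) := by group
  obtain ⟨u, huH, huZ⟩ := exists_centralizing hc hz H hZH hidx
  have huH' : ∀ h ∈ H, u * h = h * u := by
    intro h hh
    exact (Subgroup.mem_centralizer_iff.mp huH h hh).symm
  have hux : ⁅u, x⁆ ≠ 1 := by
    intro h
    apply huZ
    have hux' : u * x = x * u := commutatorElement_eq_one_iff_mul_comm.mp h
    rw [Subgroup.mem_center_iff]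
    intro g
    rcases hcases g with hg | ⟨h, hh, rfl⟩
    · exact (huH' g hg).symm
    · calc x * h * u = x * (h * u) := by group
        _ = x * (u * h) := by rw [huH' h hh]
        _ = (x * u) * h := by group
        _ = (u * x) * h := by rw [hux']
        _ = u * (x * h) := by group
  have hcomm : ⁅u, x⁆ = d := huniq _ _ (hc u x) hdZ hux hd1
  have huxu : u * x * u⁻¹ = x * d := by
    rw [← hdx, ← hcomm]; simp only [commutatorElement_def]; group
  refine ⟨u, fun p => ?_⟩
  rcases hcases p with hp | ⟨h, hh, rfl⟩
  · rw [(hH p).mp hp, huH' p hp]; group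
  · rw [map_mul, hτxd, (hH h).mp hh]
    have : u * (x * h) * u⁻¹ = u * x * u⁻¹ * (u * h * u⁻¹) := by group
    rw [this, huxu, huH' h hh]; group

end abstract

/-- Conjugation by a normalizing element as an automorphism of the subgroup. -/
def conjAut {G : Type*} [Group G] (D : Subgroup G) (b : G)
    (hb : b ∈ Subgroup.normalizer (D : Set G)) : ↥D ≃* ↥D where
  toFun d := ⟨b * d * b⁻¹, (Subgroup.mem_normalizer_iff.mp hb d).mp d.2⟩
  invFun d := ⟨b⁻¹ * d * b, (Subgroup.mem_normalizer_iff''.mp hb d).mp d.2⟩
  left_inv d := by ext; simp [mul_assoc]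
  right_inv d := by ext; simp [mul_assoc]
  map_mul' x y := by ext; simp [mul_assoc]

theorem conjAut_apply {G : Type*} [Group G] (D : Subgroup G) (b : G)
    (hb : b ∈ Subgroup.normalizer (D : Set G)) (d : ↥D) :
    ((conjAut D b hb d : ↥D) : G) = b * d * b⁻¹ := rfl

/-- Let Q be an extraspecial 2-subgroup of the finite group G (special with centre of order 2) and t an involution of G normalizing Q such that the centralizer of t in Q has index at most 2 in Q. Then t lies in the product of Q with the centralizer of Q. -/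
theorem result {G : Type*} [Group G] [Finite G] (Q : Subgroup G)
    (hQ : Cfsg.IsExtraspecial 2 ↥Q) (t : G) (ht : orderOf t = 2) (htN : t ∈ Subgroup.normalizer (Q : Set G))
    (hi : (Subgroup.centralizer ({t} : Set G) ⊓ Q).relIndex Q ≤ 2) :
    t ∈ Q ⊔ Subgroup.centralizer (Q : Set G) := by
  obtain ⟨⟨-, -, hcomm⟩, hz⟩ := hQ
  have hc : ∀ a b : ↥Q, ⁅a, b⁆ ∈ Subgroup.center ↥Q := by
    intro a b
    rw [← hcomm, commutator_def]
    exact Subgroup.commutator_mem_commutator (Subgroup.mem_top a) (Subgroup.mem_top b)
  have ht2 : t * t = 1 := by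
    have := pow_orderOf_eq_one t
    rwa [ht, pow_two] at this
  have htinv : t⁻¹ = t := inv_eq_of_mul_eq_one_left ht2
  have h0 : (Subgroup.centralizer ({t} : Set G) ⊓ Q).relIndex Q ≠ 0 := by
    unfold Subgroup.relIndex; exact Subgroup.index_ne_zero_of_finite
  have h12 : (Subgroup.centralizer ({t} : Set G) ⊓ Q).relIndex Q = 1 ∨
      (Subgroup.centralizer ({t} : Set G) ⊓ Q).relIndex Q = 2 := by omega
  rcases h12 with h1 | h2
  · have hle : Q ≤ Subgroup.centralizer ({t} : Set G) ⊓ Q := Subgroup.relIndex_eq_one.mp h1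
    apply Subgroup.mem_sup_right
    rw [Subgroup.mem_centralizer_iff]
    intro q hq
    have := (Subgroup.mem_inf.mp (hle hq)).1
    exact (Subgroup.mem_centralizer_singleton_iff.mp this)
  · let τ : ↥Q ≃* ↥Q := conjAut Q t htN
    have hτ : ∀ p, τ (τ p) = p := by
      intro p
      apply Subtype.ext
      rw [conjAut_apply, conjAut_apply, htinv]
      calc t * (t * (p : G) * t) * t = (t * t) * (p : G) * (t * t) := by group
        _ = (p : G) := by rw [ht2]; group
    have hH : ∀ p : ↥Q, p ∈ (Subgroup.centralizer ({t} : Set G) ⊓ Q).subgroupOf Q ↔ τ p = p := by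
      intro p
      rw [Subgroup.mem_subgroupOf, Subgroup.mem_inf, Subgroup.mem_centralizer_singleton_iff]
      constructor
      · rintro ⟨h, -⟩
        apply Subtype.ext
        rw [conjAut_apply, ← h]; group
      · intro h
        refine ⟨?_, p.2⟩
        have := congrArg (fun y : ↥Q => (y : G)) h
        simp only [conjAut_apply, τ] at this
        calc (p : G) * t = t * (p : G) * t⁻¹ * t := by rw [this]
          _ = t * (p : G) := by group
    obtain ⟨u, hu⟩ := inner_of_index_two hc hz τ hτ _ hH h2
    have hmem : (u : G)⁻¹ * t ∈ Subgroup.centralizer (Q : Set G) := by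
      rw [Subgroup.mem_centralizer_iff]
      intro q hq
      have := congrArg (fun y : ↥Q => (y : G)) (hu ⟨q, hq⟩)
      simp only [conjAut_apply, τ, Subgroup.coe_mul, Subgroup.coe_inv] at this
      -- this : t * q * t⁻¹ = u * q * u⁻¹
      calc q * ((u : G)⁻¹ * t) = (u : G)⁻¹ * ((u : G) * q * (u : G)⁻¹) * t := by group
        _ = (u : G)⁻¹ * (t * q * t⁻¹) * t := by rw [this]
        _ = (u : G)⁻¹ * t * q := by group
    have : t = (u : G) * ((u : G)⁻¹ * t) := by group
    rw [this]
    exact Subgroup.mul_mem_sup u.2 hmem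

end Cfsg.Agent.S1756
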