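import Cfsg.Statements.S1757
import Mathlib

set_option autoImplicit false
open Cfsg
open scoped commutatorElement

namespace Cfsg.Agent.S1757

/-- Membership in a conjugate subgroup. -/
theorem mem_conj_iff {G : Type*} [Group G] (B : Subgroup G) (g x : G) :
    x ∈ B.map (MulAut.conj g).toMonoidHom ↔ g⁻¹ * x * g ∈ B := by
  constructor
  · rintro ⟨y, hy, rfl⟩
    have : g⁻¹ * ((MulAut.conj g).toMonoidHom y) * g = y := by
      simp [MulAut.conj_apply, mul_assoc]
    rw [this]; exact hy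
  · intro h
    refine ⟨g⁻¹ * x * g, h, ?_⟩
    simp [MulAut.conj_apply, mul_assoc]

/-- Counting lemma: if `B` normalizes `A`, `|A| ≤ |B|`, `A ∩ B = 1`, and each `A`-conjugate of `B`
equals `B` or meets it trivially, then `A` and `B` commute. -/
theorem comm_of_normalizes {G : Type*} [Group G] [Finite G] (A B : Subgroup G)
    (hBti : ∀ a ∈ A, B.map (MulAut.conj a).toMonoidHom = B ∨ B.map (MulAut.conj a).toMonoidHom ⊓ B = ⊥)
    (hle : Nat.card ↥A ≤ Nat.card ↥B) (hAB : A ⊓ B = ⊥) (hN : B ≤ Subgroup.normalizer (A : Set G)) :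
    ⁅A, B⁆ = ⊥ := by
  have hBA : ∀ b ∈ B, ∀ x ∈ A, b * x * b⁻¹ ∈ A := fun b hb x hx =>
    (Subgroup.mem_normalizer_iff.mp (hN hb) x).mp hx
  -- every element of `A` normalizes `B`, or `B` is trivial
  have key : ∀ a ∈ A, B.map (MulAut.conj a).toMonoidHom = B ∨ B = ⊥ := by
    intro a ha
    rcases hBti a ha with h | h
    · exact Or.inl h
    · right
      let f : B × B → G := fun p => (p.1 : G) * (a * (p.2 : G) * a⁻¹)
      let g : A × B → G := fun p => (p.1 : G) * (p.2 : G)
      have hf : Function.Injective f := by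
        rintro ⟨b1, b2⟩ ⟨c1, c2⟩ hEq
        simp only [f] at hEq
        have h1 : (c1 : G)⁻¹ * b1 = a * ((c2 : G) * (b2 : G)⁻¹) * a⁻¹ := by
          have : (c1 : G)⁻¹ * ((b1 : G) * (a * (b2 : G) * a⁻¹)) * (a * (b2 : G)⁻¹ * a⁻¹)
              = (c1 : G)⁻¹ * ((c1 : G) * (a * (c2 : G) * a⁻¹)) * (a * (b2 : G)⁻¹ * a⁻¹) := by
            rw [hEq]
          have e1 : (c1 : G)⁻¹ * ((b1 : G) * (a * (b2 : G) * a⁻¹)) * (a * (b2 : G)⁻¹ * a⁻¹)
              = (c1 : G)⁻¹ * b1 := by group
          have e2 : (c1 : G)⁻¹ * ((c1 : G) * (a * (c2 : G) * a⁻¹)) * (a * (b2 : G)⁻¹ * a⁻¹)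
              = a * ((c2 : G) * (b2 : G)⁻¹) * a⁻¹ := by group
          rw [e1, e2] at this; exact this
        have hmemB : (c1 : G)⁻¹ * b1 ∈ B := B.mul_mem (B.inv_mem c1.2) b1.2
        have hmemB' : (c1 : G)⁻¹ * b1 ∈ B.map (MulAut.conj a).toMonoidHom := by
          rw [h1, mem_conj_iff]
          have : a⁻¹ * (a * ((c2 : G) * (b2 : G)⁻¹) * a⁻¹) * a = (c2 : G) * (b2 : G)⁻¹ := by group
          rw [this]
          exact B.mul_mem c2.2 (B.inv_mem b2.2)
        have hone : (c1 : G)⁻¹ * b1 = 1 := by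
          have : (c1 : G)⁻¹ * b1 ∈ B.map (MulAut.conj a).toMonoidHom ⊓ B := ⟨hmemB', hmemB⟩
          rw [h] at this
          exact Subgroup.mem_bot.mp this
        have hb1 : (b1 : G) = c1 := by
          have := inv_mul_eq_one.mp hone
          exact this.symm
        have hb2 : (b2 : G) = c2 := by
          rw [hone] at h1
          have h2 : (c2 : G) * (b2 : G)⁻¹ = 1 := by
            have : a⁻¹ * (a * ((c2 : G) * (b2 : G)⁻¹) * a⁻¹) * a = a⁻¹ * 1 * a := by rw [← h1]
            have e : a⁻¹ * (a * ((c2 : G) * (b2 : G)⁻¹) * a⁻¹) * a = (c2 : G) * (b2 : G)⁻¹ := by group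
            rw [e] at this
            simpa using this
          exact (mul_inv_eq_one.mp h2).symm
        exact Prod.ext (Subtype.ext hb1) (Subtype.ext hb2)
      have hsub : Set.range f ⊆ Set.range g := by
        rintro _ ⟨⟨b1, b2⟩, rfl⟩
        have hx : (b1 : G) * a * (b1 : G)⁻¹ * (((b1 : G) * b2) * a⁻¹ * ((b1 : G) * b2)⁻¹) ∈ A :=
          A.mul_mem (hBA b1 b1.2 a ha)
            (hBA _ (B.mul_mem b1.2 b2.2) a⁻¹ (A.inv_mem ha))
        refine ⟨(⟨_, hx⟩, ⟨(b1 : G) * b2, B.mul_mem b1.2 b2.2⟩), ?_⟩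
        simp only [g, f]
        group
      have hcf : Nat.card (Set.range f) = Nat.card B * Nat.card B := by
        rw [Nat.card_range_of_injective hf, Nat.card_prod]
      have hcg : Nat.card (Set.range g) ≤ Nat.card A * Nat.card B := by
        have := Finite.card_range_le g
        rwa [Nat.card_prod] at this
      have hfg : Nat.card (Set.range f) ≤ Nat.card (Set.range g) :=
        Nat.card_mono (Set.toFinite _) hsub
      have hBpos : 0 < Nat.card B := Nat.card_pos
      have hAB' : Nat.card A = Nat.card B := by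
        have h1 : Nat.card B * Nat.card B ≤ Nat.card A * Nat.card B := by omega
        have h2 : Nat.card B ≤ Nat.card A := Nat.le_of_mul_le_mul_right h1 hBpos
        omega
      have heq : Set.range f = Set.range g := by
        apply Set.eq_of_subset_of_ncard_le hsub _ (Set.toFinite _)
        rw [← Nat.card_coe_set_eq, ← Nat.card_coe_set_eq, hcf]
        calc Nat.card (Set.range g) ≤ Nat.card A * Nat.card B := hcg
          _ = Nat.card B * Nat.card B := by rw [hAB']
      have hainv : a⁻¹ ∈ Set.range g := ⟨(⟨a⁻¹, A.inv_mem ha⟩, 1), by simp [g]⟩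
      rw [← heq] at hainv
      obtain ⟨⟨b1, b2⟩, hb⟩ := hainv
      simp only [f] at hb
      have ha1 : a = (b1 : G)⁻¹ * (b2 : G)⁻¹ := by
        have : (b1 : G) * (a * (b2 : G) * a⁻¹) * a = a⁻¹ * a := by rw [hb]
        have e : (b1 : G) * (a * (b2 : G) * a⁻¹) * a = (b1 : G) * a * (b2 : G) := by group
        rw [e, inv_mul_cancel] at this
        calc a = (b1 : G)⁻¹ * ((b1 : G) * a * (b2 : G)) * (b2 : G)⁻¹ := by group
          _ = (b1 : G)⁻¹ * (b2 : G)⁻¹ := by rw [this, mul_one]
      have haB : a ∈ B := by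
        rw [ha1]; exact B.mul_mem (B.inv_mem b1.2) (B.inv_mem b2.2)
      have ha_one : a = 1 := by
        have : a ∈ A ⊓ B := ⟨ha, haB⟩
        rw [hAB] at this
        exact Subgroup.mem_bot.mp this
      have hmap : B.map (MulAut.conj a).toMonoidHom = B := by
        rw [ha_one]
        ext x
        rw [mem_conj_iff]
        simp
      rw [hmap, inf_idem] at h
      exact h
  by_cases hB : B = ⊥
  · rw [hB]
    exact Subgroup.commutator_bot_right A
  · rw [eq_bot_iff, ← hAB, Subgroup.commutator_le]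
    intro a ha b hb
    refine ⟨?_, ?_⟩
    · have : ⁅a, b⁆ = a * (b * a⁻¹ * b⁻¹) := by
        rw [commutatorElement_def]; group
      rw [this]
      exact A.mul_mem ha (hBA b hb a⁻¹ (A.inv_mem ha))
    · have hmap : B.map (MulAut.conj a).toMonoidHom = B := (key a ha).resolve_right hB
      have h1 : a * b * a⁻¹ ∈ B := by
        rw [← hmap, mem_conj_iff]
        have : a⁻¹ * (a * b * a⁻¹) * a = b := by group
        rw [this]; exact hb
      rw [commutatorElement_def]
      exact B.mul_mem h1 (B.inv_mem hb)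

theorem result {G : Type*} [Group G] [Finite G] (p : ℕ) [Fact p.Prime] (A B : Subgroup G)
    (hA : IsPGroup p ↥A) (hB : IsPGroup p ↥B)
    (hAti : ∀ g : G, A.map (MulAut.conj g).toMonoidHom = A ∨ A.map (MulAut.conj g).toMonoidHom ⊓ A = ⊥)
    (hBti : ∀ g : G, B.map (MulAut.conj g).toMonoidHom = B ∨ B.map (MulAut.conj g).toMonoidHom ⊓ B = ⊥)
    (hle : Nat.card ↥A ≤ Nat.card ↥B) (hAB : A ⊓ B = ⊥) (hN : B ≤ Subgroup.normalizer (A : Set G)) : ⁅A, B⁆ = ⊥ :=
  comm_of_normalizes A B (fun a _ => hBti a) hle hAB hN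

end Cfsg.Agent.S1757
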