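import Cfsg.Statements.S1774
import Cfsg.Agent.S1755
import Cfsg.Agent.Lib.Helper30.Basic
import Cfsg.Agent.Lib.Helper57.SympMain

set_option autoImplicit false
open Cfsg

namespace Cfsg.Agent.S1774

/-- Let G be a finite group and let z be an involution of G such that Q, the generalized Fitting subgroup of the centralizer C of z, is a 2-group of symplectic type (every characteristic abelian subgroup of Q is cyclic); suppose every element of Q has order dividing 4. Let g ∈ G with z' = g z g⁻¹ ≠ z and z' ∈ Q. Then z lies in the conjugate g Q g⁻¹, and the subgroup X generated by Q and g Q g⁻¹ induces every automorphism of the four-group generated by z and z': for any two distinct non-identity elements u, v of that four-group there is x ∈ X with x z x⁻¹ = u and x z' x⁻¹ = v. -/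
theorem result {G : Type*} [Group G] [Finite G] (z : G) (hz : orderOf z = 2) (hQ : Cfsg.IsOfSymplecticType ↥(Cfsg.generalizedFittingSubgroup ↥(Subgroup.centralizer ({z} : Set G))))
    (h4 : ∀ q ∈ (Cfsg.generalizedFittingSubgroup ↥(Subgroup.centralizer ({z} : Set G))).map (Subgroup.centralizer ({z} : Set G)).subtype, q ^ 4 = 1) (g : G) (hne : g * z * g⁻¹ ≠ z) (hin : g * z * g⁻¹ ∈ (Cfsg.generalizedFittingSubgroup ↥(Subgroup.centralizer ({z} : Set G))).map (Subgroup.centralizer ({z} : Set G)).subtype) :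
    z ∈ ((Cfsg.generalizedFittingSubgroup ↥(Subgroup.centralizer ({z} : Set G))).map (Subgroup.centralizer ({z} : Set G)).subtype).map (MulAut.conj g).toMonoidHom ∧
      ∀ u ∈ Subgroup.closure ({z, g * z * g⁻¹} : Set G), ∀ v ∈ Subgroup.closure ({z, g * z * g⁻¹} : Set G),
        u ≠ 1 → v ≠ 1 → u ≠ v →
          ∃ x ∈ (Cfsg.generalizedFittingSubgroup ↥(Subgroup.centralizer ({z} : Set G))).map (Subgroup.centralizer ({z} : Set G)).subtype ⊔ ((Cfsg.generalizedFittingSubgroup ↥(Subgroup.centralizer ({z} : Set G))).map (Subgroup.centralizer ({z} : Set G)).subtype).map (MulAut.conj g).toMonoidHom, x * z * x⁻¹ = u ∧ x * (g * z * g⁻¹) * x⁻¹ = v := by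
  have hCz : ∀ c : G, c ∈ Subgroup.centralizer ({z} : Set G) ↔ c * z = z * c :=
    fun c => Subgroup.mem_centralizer_singleton_iff
  have hzC : z ∈ Subgroup.centralizer ({z} : Set G) := (hCz z).mpr rfl
  have hFn : (Cfsg.generalizedFittingSubgroup ↥(Subgroup.centralizer ({z} : Set G))).Normal :=
    Cfsg.Agent.S1755.gfs_normal _
  have hzcen : (⟨z, hzC⟩ : ↥(Subgroup.centralizer ({z} : Set G))) ∈
      Subgroup.center ↥(Subgroup.centralizer ({z} : Set G)) := by
    rw [Subgroup.mem_center_iff]
    intro c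
    apply Subtype.ext
    exact (hCz c.1).mp c.2
  have hzF : (⟨z, hzC⟩ : ↥(Subgroup.centralizer ({z} : Set G))) ∈
      Cfsg.generalizedFittingSubgroup ↥(Subgroup.centralizer ({z} : Set G)) :=
    Cfsg.Agent.S1755.center_le_gfs _ hzcen
  have hself0 := Cfsg.Agent.Lib.Helper30.centralizer_genFitting_le
    (G := ↥(Subgroup.centralizer ({z} : Set G)))
  -- structure of `F` from symplectic type
  have h4' : ∀ q : ↥(Cfsg.generalizedFittingSubgroup ↥(Subgroup.centralizer ({z} : Set G))),
      q ^ 4 = 1 := by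
    intro q
    apply Subtype.ext
    apply Subtype.ext
    have := h4 ((q : ↥(Subgroup.centralizer ({z} : Set G))) : G) ⟨q.1, q.2, rfl⟩
    simpa using this
  have hz' : orderOf (⟨⟨z, hzC⟩, hzF⟩ :
      ↥(Cfsg.generalizedFittingSubgroup ↥(Subgroup.centralizer ({z} : Set G)))) = 2 := by
    rw [← Subgroup.orderOf_coe, ← Subgroup.orderOf_coe]
    exact hz
  have hzc' : (⟨⟨z, hzC⟩, hzF⟩ :
      ↥(Cfsg.generalizedFittingSubgroup ↥(Subgroup.centralizer ({z} : Set G)))) ∈
      Subgroup.center ↥(Cfsg.generalizedFittingSubgroup ↥(Subgroup.centralizer ({z} : Set G))) := by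
    rw [Subgroup.mem_center_iff]
    intro f
    apply Subtype.ext
    apply Subtype.ext
    exact (hCz f.1.1).mp f.1.2
  obtain ⟨hcomm0, hcen0⟩ := Cfsg.Agent.Lib.Helper57.Symp.symp_struct hQ.1 hQ.2 h4' _ hz' hzc'
  refine Cfsg.Agent.Lib.Helper57.Symp.main_abs z hz _ ?_ ?_ ?_ ?_ ?_ ?_ ?_ g hne hin
  · -- Q ≤ C
    rintro _ ⟨f, -, rfl⟩
    exact f.2
  · -- Q normal in C
    rintro c hc _ ⟨f, hf, rfl⟩
    refine ⟨⟨c, hc⟩ * f * ⟨c, hc⟩⁻¹, hFn.conj_mem f hf ⟨c, hc⟩, ?_⟩
    simp
  · exact ⟨⟨z, hzC⟩, hzF, rfl⟩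
  · -- self-centralizing
    intro c hc hcq
    refine ⟨⟨c, hc⟩, hself0 ?_, rfl⟩
    rw [Subgroup.mem_centralizer_iff]
    intro f hf
    apply Subtype.ext
    have := hcq (f : G) ⟨f, hf, rfl⟩
    simpa using this.symm
  · -- 2-group
    rintro ⟨_, ⟨f, hf, rfl⟩⟩
    obtain ⟨k, hk⟩ := hQ.1 ⟨f, hf⟩
    refine ⟨k, ?_⟩
    apply Subtype.ext
    have := congrArg (fun x : ↥(Cfsg.generalizedFittingSubgroup
      ↥(Subgroup.centralizer ({z} : Set G))) => ((x : ↥(Subgroup.centralizer ({z} : Set G))) : G)) hk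
    simpa using this
  · -- commutators
    rintro _ ⟨a, ha, rfl⟩ _ ⟨b, hb, rfl⟩
    rcases hcomm0 ⟨a, ha⟩ ⟨b, hb⟩ with h | h
    · left
      have := congrArg (fun x : ↥(Cfsg.generalizedFittingSubgroup
        ↥(Subgroup.centralizer ({z} : Set G))) => ((x : ↥(Subgroup.centralizer ({z} : Set G))) : G)) h
      simpa [commutatorElement_def] using this
    · right
      have := congrArg (fun x : ↥(Cfsg.generalizedFittingSubgroup
        ↥(Subgroup.centralizer ({z} : Set G))) => ((x : ↥(Subgroup.centralizer ({z} : Set G))) : G)) h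
      simpa [commutatorElement_def] using this
  · -- central involutions
    rintro _ ⟨t, ht, rfl⟩ htc htt
    have h1 : (⟨t, ht⟩ : ↥(Cfsg.generalizedFittingSubgroup
        ↥(Subgroup.centralizer ({z} : Set G)))) ∈ Subgroup.center _ := by
      rw [Subgroup.mem_center_iff]
      intro f
      apply Subtype.ext
      apply Subtype.ext
      have := htc ((f : ↥(Subgroup.centralizer ({z} : Set G))) : G) ⟨f.1, f.2, rfl⟩
      simpa using this.symm
    have h2 : (⟨t, ht⟩ : ↥(Cfsg.generalizedFittingSubgroup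
        ↥(Subgroup.centralizer ({z} : Set G)))) ^ 2 = 1 := by
      apply Subtype.ext
      apply Subtype.ext
      simpa [pow_two] using htt
    rcases hcen0 _ h1 h2 with h | h
    · left
      have := congrArg (fun x : ↥(Cfsg.generalizedFittingSubgroup
        ↥(Subgroup.centralizer ({z} : Set G))) => ((x : ↥(Subgroup.centralizer ({z} : Set G))) : G)) h
      simpa using this
    · right
      have := congrArg (fun x : ↥(Cfsg.generalizedFittingSubgroup
        ↥(Subgroup.centralizer ({z} : Set G))) => ((x : ↥(Subgroup.centralizer ({z} : Set G))) : G)) h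
      simpa using this

end Cfsg.Agent.S1774
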