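import Cfsg.Statements.S1780
import Mathlib

set_option autoImplicit false
open Cfsg

namespace Cfsg.Agent.S1780

/-- The key step: if `x⁻¹ * t x` and `x ^ 2` are fixed by `t` then so is `x`. -/
theorem step {A : Type*} [CommGroup A] (t : MulAut A)
    (hC : ∀ a : A, t (t a) = a → t a = a) (x : A)
    (h1 : t (x⁻¹ * t x) = x⁻¹ * t x) (h2 : t (x ^ 2) = x ^ 2) : t x = x := by
  apply hC
  have hsq : (x⁻¹ * t x) ^ 2 = 1 := by
    rw [mul_pow, inv_pow, ← map_pow, h2, inv_mul_cancel]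
  have e1 : t x = x * (x⁻¹ * t x) := by rw [mul_inv_cancel_left]
  calc t (t x) = t (x * (x⁻¹ * t x)) := by rw [← e1]
    _ = t x * t (x⁻¹ * t x) := map_mul _ _ _
    _ = t x * (x⁻¹ * t x) := by rw [h1]
    _ = x * (x⁻¹ * t x) * (x⁻¹ * t x) := by rw [← e1]
    _ = x * (x⁻¹ * t x) ^ 2 := by rw [pow_two, mul_assoc]
    _ = x := by rw [hsq, mul_one]

/-- On involutions, the `2^i`-th iterate of `x ↦ x⁻¹ * t x` is `x ↦ x * t^(2^i) x`. -/
theorem iter_pow {A : Type*} [CommGroup A] (t : MulAut A) (i : ℕ) :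
    ∀ x : A, x ^ 2 = 1 → (fun y : A => y⁻¹ * t y)^[2 ^ i] x = x * (t ^ (2 ^ i)) x := by
  induction i with
  | zero =>
    intro x hx
    have : x⁻¹ = x := by rw [inv_eq_iff_mul_eq_one, ← pow_two, hx]
    simp [this]
  | succ i ih =>
    intro x hx
    have hy : (x * (t ^ (2 ^ i)) x) ^ 2 = 1 := by
      rw [mul_pow, ← map_pow, hx, map_one, mul_one]
    have h2 : (2 : ℕ) ^ (i + 1) = 2 ^ i + 2 ^ i := by ring
    rw [h2, Function.iterate_add_apply, ih x hx, ih _ hy, map_mul, pow_add, MulAut.mul_apply]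
    have h3 : ((t ^ (2 ^ i)) x) ^ 2 = 1 := by rw [← map_pow, hx, map_one]
    calc x * (t ^ 2 ^ i) x * ((t ^ 2 ^ i) x * (t ^ 2 ^ i) ((t ^ 2 ^ i) x))
        = x * ((t ^ 2 ^ i) x) ^ 2 * (t ^ 2 ^ i) ((t ^ 2 ^ i) x) := by rw [pow_two]; simp only [mul_assoc]
      _ = x * (t ^ 2 ^ i) ((t ^ 2 ^ i) x) := by rw [h3, mul_one]

/-- If an iterate of `x ↦ x⁻¹ * t x` kills the involution `x`, then `t` fixes `x`. -/
theorem fixed_of_iter {A : Type*} [CommGroup A] (t : MulAut A)
    (hC : ∀ a : A, t (t a) = a → t a = a) (n : ℕ) :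
    ∀ x : A, x ^ 2 = 1 → (fun y : A => y⁻¹ * t y)^[n] x = 1 → t x = x := by
  induction n with
  | zero =>
    intro x _ h
    simp only [Function.iterate_zero, id_eq] at h
    rw [h, map_one]
  | succ n ih =>
    intro x hx h
    rw [Function.iterate_succ_apply] at h
    have hsq : (x⁻¹ * t x) ^ 2 = 1 := by
      rw [mul_pow, inv_pow, ← map_pow, hx, map_one, inv_one, mul_one]
    have h1 := ih _ hsq h
    exact step t hC x h1 (by rw [hx, map_one])

theorem fixed_of_sq {A : Type*} [CommGroup A] (t : MulAut A)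
    (ht : ∃ k : ℕ, orderOf t = 2 ^ k) (hC : ∀ a : A, t (t a) = a → t a = a)
    (x : A) (hx : x ^ 2 = 1) : t x = x := by
  obtain ⟨k, hk⟩ := ht
  apply fixed_of_iter t hC (2 ^ k) x hx
  rw [iter_pow t k x hx, ← hk, pow_orderOf_eq_one, MulAut.one_apply, ← pow_two, hx]

theorem result {A : Type*} [CommGroup A] [Finite A]
    (hA : IsPGroup 2 A) (t : MulAut A) (ht : ∃ k : ℕ, orderOf t = 2 ^ k) (hC : ∀ a : A, t (t a) = a → t a = a) :
    ∀ a : A, t a = a := by
  have key : ∀ m : ℕ, ∀ x : A, x ^ (2 ^ m) = 1 → t x = x := by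
    intro m
    induction m with
    | zero =>
      intro x hx
      rw [pow_zero, pow_one] at hx
      rw [hx, map_one]
    | succ m ih =>
      intro x hx
      have h2 : t (x ^ 2) = x ^ 2 := by
        apply ih
        rw [← pow_mul, ← pow_succ']
        exact hx
      have hsq : (x⁻¹ * t x) ^ 2 = 1 := by
        rw [mul_pow, inv_pow, ← map_pow, h2, inv_mul_cancel]
      exact step t hC x (fixed_of_sq t ht hC _ hsq) h2
  intro a
  obtain ⟨m, hm⟩ := hA a
  exact key m a hm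

end Cfsg.Agent.S1780
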