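import Cfsg.Statements.S1781
import Cfsg.Agent.S1780
import Mathlib

set_option autoImplicit false
open Cfsg
open scoped commutatorElement

namespace Cfsg.Agent.S1781

/-- Membership in a conjugate subgroup. -/
theorem mem_conj_iff {G : Type*} [Group G] (B : Subgroup G) (g x : G) :
    x ∈ B.map (MulAut.conj g).toMonoidHom ↔ g⁻¹ * x * g ∈ B := by
  constructor
  · rintro ⟨y, hy, rfl⟩
    have : g⁻¹ * ((MulAut.conj g).toMonoidHom y) * g = y := by
      simp [MulAut.conj_apply, mul_assoc]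
    rw [this]; exact hy
  · intro h
    refine ⟨g⁻¹ * x * g, h, ?_⟩
    simp [MulAut.conj_apply, mul_assoc]

/-- If the conjugate of `A` by `d` equals `A`, then `d` conjugates `A` into `A`. -/
theorem conj_mem_of_map_eq {G : Type*} [Group G] (A : Subgroup G) (d : G)
    (h : A.map (MulAut.conj d).toMonoidHom = A) (x : G) (hx : x ∈ A) : d * x * d⁻¹ ∈ A := by
  rw [← h, mem_conj_iff]
  have : d⁻¹ * (d * x * d⁻¹) * d = x := by group
  rw [this]; exact hx

/-- Conjugation by a normalizing element as an automorphism of the subgroup. -/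
def conjAut {G : Type*} [Group G] (D : Subgroup G) (b : G)
    (hb : b ∈ Subgroup.normalizer (D : Set G)) : MulAut ↥D where
  toFun d := ⟨b * d * b⁻¹, (Subgroup.mem_normalizer_iff.mp hb d).mp d.2⟩
  invFun d := ⟨b⁻¹ * d * b, (Subgroup.mem_normalizer_iff''.mp hb d).mp d.2⟩
  left_inv d := by ext; simp [mul_assoc]
  right_inv d := by ext; simp [mul_assoc]
  map_mul' x y := by ext; simp [mul_assoc]

theorem conjAut_pow {G : Type*} [Group G] (D : Subgroup G) (b : G)
    (hb : b ∈ Subgroup.normalizer (D : Set G)) (n : ℕ) (d : ↥D) :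
    (((conjAut D b hb) ^ n) d : G) = b ^ n * d * (b ^ n)⁻¹ := by
  induction n generalizing d with
  | zero => simp
  | succ n ih =>
    rw [pow_succ, MulAut.mul_apply, ih]
    simp only [conjAut, MulEquiv.coe_mk, Equiv.coe_fn_mk]
    rw [pow_succ]; group

/-- Main lemma. -/
theorem normalizes_of_sq {G : Type*} [Group G] [Finite G] (A D : Subgroup G)
    (hD2 : IsPGroup 2 ↥D) (hDc : ∀ x ∈ D, ∀ y ∈ D, x * y = y * x)
    (hAD : A ⊓ D = ⊥)
    (hti : ∀ d ∈ D, A.map (MulAut.conj d).toMonoidHom = A ∨ A.map (MulAut.conj d).toMonoidHom ⊓ A = ⊥)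
    (b : G) (hbA : b ∈ A) (hbN : b ∈ Subgroup.normalizer (D : Set G)) (hb2 : b ^ 2 ≠ 1)
    (hbo : ∃ k : ℕ, b ^ (2 ^ k) = 1) :
    ∀ d ∈ D, A.map (MulAut.conj d).toMonoidHom = A := by
  -- an element `c ≠ 1` of `A` centralized by `d ∈ D` forces `A^d = A`
  have hfix : ∀ c ∈ A, c ≠ 1 → ∀ d ∈ D, d * c * d⁻¹ = c → A.map (MulAut.conj d).toMonoidHom = A := by
    intro c hc hc1 d hd hdc
    rcases hti d hd with h | h
    · exact h
    · exfalso
      apply hc1
      have : c ∈ A.map (MulAut.conj d).toMonoidHom ⊓ A := by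
        refine Subgroup.mem_inf.mpr ⟨?_, hc⟩
        rw [mem_conj_iff]
        have : d⁻¹ * c * d = c := by
          calc d⁻¹ * c * d = d⁻¹ * (d * c * d⁻¹) * d := by rw [hdc]
            _ = c := by group
        rw [this]; exact hc
      rw [h] at this
      exact Subgroup.mem_bot.mp this
  have : IsMulCommutative ↥D := ⟨⟨fun x y => Subtype.ext (hDc x x.2 y y.2)⟩⟩
  let t : MulAut ↥D := conjAut D b hbN
  have ht : ∃ k : ℕ, orderOf t = 2 ^ k := by
    obtain ⟨k, hk⟩ := hbo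
    have h1 : t ^ (2 ^ k) = 1 := by
      ext d
      rw [conjAut_pow, hk]; simp
    have h2 : orderOf t ∣ 2 ^ k := orderOf_dvd_of_pow_eq_one h1
    obtain ⟨j, _, hj⟩ := (Nat.dvd_prime_pow Nat.prime_two).mp h2
    exact ⟨j, hj⟩
  have hbsqA : b ^ 2 ∈ A := A.pow_mem hbA 2
  have hC : ∀ d : ↥D, t (t d) = d → t d = d := by
    intro d hd
    have hd' : b ^ 2 * (d : G) * (b ^ 2)⁻¹ = d := by
      have := congrArg Subtype.val hd
      simp only [t, conjAut, MulEquiv.coe_mk, Equiv.coe_fn_mk] at this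
      calc b ^ 2 * (d : G) * (b ^ 2)⁻¹ = b * (b * (d : G) * b⁻¹) * b⁻¹ := by
            rw [pow_two]; group
        _ = d := this
    -- `d` centralizes `b ^ 2`
    have hdc : (d : G) * b ^ 2 * (d : G)⁻¹ = b ^ 2 := by
      calc (d : G) * b ^ 2 * (d : G)⁻¹ = (b ^ 2 * (d : G) * (b ^ 2)⁻¹) * b ^ 2 * (d : G)⁻¹ := by rw [hd']
        _ = b ^ 2 := by group
    have hAd := hfix (b ^ 2) hbsqA hb2 d d.2 hdc
    -- the commutator of `b` and `d` lies in `A ⊓ D`
    have hcomm : b * (d : G) * b⁻¹ * (d : G)⁻¹ ∈ A ⊓ D := by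
      refine Subgroup.mem_inf.mpr ⟨?_, ?_⟩
      · have h1 : (d : G) * b⁻¹ * (d : G)⁻¹ ∈ A := conj_mem_of_map_eq A d hAd _ (A.inv_mem hbA)
        have : b * (d : G) * b⁻¹ * (d : G)⁻¹ = b * ((d : G) * b⁻¹ * (d : G)⁻¹) := by group
        rw [this]; exact A.mul_mem hbA h1
      · exact D.mul_mem ((Subgroup.mem_normalizer_iff.mp hbN d).mp d.2) (D.inv_mem d.2)
    rw [hAD] at hcomm
    have h1 : b * (d : G) * b⁻¹ * (d : G)⁻¹ = 1 := Subgroup.mem_bot.mp hcomm
    apply Subtype.ext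
    simp only [t, conjAut, MulEquiv.coe_mk, Equiv.coe_fn_mk]
    exact mul_inv_eq_one.mp h1
  have hall : ∀ d : ↥D, t d = d := by
    open scoped IsMulCommutative in
    exact Cfsg.Agent.S1780.result hD2 t ht hC
  have hb1 : b ≠ 1 := by
    rintro rfl
    exact hb2 (one_pow 2)
  intro d hd
  apply hfix b hbA hb1 d hd
  have h1 := congrArg Subtype.val (hall ⟨d, hd⟩)
  simp only [t, conjAut, MulEquiv.coe_mk, Equiv.coe_fn_mk] at h1
  calc d * b * d⁻¹ = (b * d * b⁻¹) * b * d⁻¹ := by rw [h1]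
    _ = b := by group

/-- A conjugate of a TI subgroup is TI. -/
theorem ti_conj {G : Type*} [Group G] (A : Subgroup G)
    (hti : ∀ h : G, A.map (MulAut.conj h).toMonoidHom = A ∨ A.map (MulAut.conj h).toMonoidHom ⊓ A = ⊥)
    (g a : G) :
    (A.map (MulAut.conj g).toMonoidHom).map (MulAut.conj a).toMonoidHom = A.map (MulAut.conj g).toMonoidHom ∨
      (A.map (MulAut.conj g).toMonoidHom).map (MulAut.conj a).toMonoidHom ⊓ A.map (MulAut.conj g).toMonoidHom = ⊥ := by
  have key : (A.map (MulAut.conj g).toMonoidHom).map (MulAut.conj a).toMonoidHom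
      = (A.map (MulAut.conj (g⁻¹ * a * g)).toMonoidHom).map (MulAut.conj g).toMonoidHom := by
    ext x
    simp only [mem_conj_iff]
    have : (g⁻¹ * a * g)⁻¹ * (g⁻¹ * x * g) * (g⁻¹ * a * g) = g⁻¹ * (a⁻¹ * x * a) * g := by group
    rw [this]
  rw [key]
  rcases hti (g⁻¹ * a * g) with h | h
  · left; rw [h]
  · right
    rw [← Subgroup.map_inf _ _ _ (MulAut.conj g).injective, h, Subgroup.map_bot]

theorem result {G : Type*} [Group G] [Finite G] (A : Subgroup G)
    (hA2 : IsPGroup 2 ↥A) (hAa : IsMulCommutative ↥A)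
    (hti : ∀ h : G, A.map (MulAut.conj h).toMonoidHom = A ∨ A.map (MulAut.conj h).toMonoidHom ⊓ A = ⊥)
    (g : G) (hg : A.map (MulAut.conj g).toMonoidHom ≠ A) :
    Cfsg.IsElementaryAbelian 2 (A ⊓ Subgroup.normalizer ((A.map (MulAut.conj g).toMonoidHom : Subgroup G) : Set G)) ∨
      ⁅A, A.map (MulAut.conj g).toMonoidHom⁆ = ⊥ := by
  set D := A.map (MulAut.conj g).toMonoidHom with hD
  have hAc : ∀ x ∈ A, ∀ y ∈ A, x * y = y * x := fun x hx y hy =>
    congrArg Subtype.val (mul_comm' (⟨x, hx⟩ : ↥A) ⟨y, hy⟩)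
  by_cases hel : ∀ b ∈ A ⊓ Subgroup.normalizer (D : Set G), b ^ 2 = 1
  · left
    refine ⟨⟨⟨fun x y => Subtype.ext (hAc x x.2.1 y y.2.1)⟩⟩, hel⟩
  · right
    push Not at hel
    obtain ⟨b, ⟨hbA, hbN⟩, hb2⟩ := hel
    have hDA : D ⊓ A = ⊥ := (hti g).resolve_left hg
    have hAD : A ⊓ D = ⊥ := by rw [inf_comm]; exact hDA
    have hD2 : IsPGroup 2 ↥D := hA2.map _
    have hDc : ∀ x ∈ D, ∀ y ∈ D, x * y = y * x := by
      rintro _ ⟨x, hx, rfl⟩ _ ⟨y, hy, rfl⟩
      rw [← map_mul, ← map_mul, hAc x hx y hy]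
    have hbo : ∃ k : ℕ, b ^ (2 ^ k) = 1 := by
      obtain ⟨k, hk⟩ := hA2 ⟨b, hbA⟩
      exact ⟨k, by simpa using congrArg Subtype.val hk⟩
    -- first application: `D` normalizes `A`
    have h1 : ∀ d ∈ D, A.map (MulAut.conj d).toMonoidHom = A :=
      normalizes_of_sq A D hD2 hDc hAD (fun d _ => hti d) b hbA hbN hb2 hbo
    -- second application with `d = g b g⁻¹`
    have hdD : g * b * g⁻¹ ∈ D := ⟨b, hbA, by simp [MulAut.conj_apply]⟩
    have hdN : g * b * g⁻¹ ∈ Subgroup.normalizer (A : Set G) := by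
      rw [Subgroup.mem_normalizer_iff]
      intro x
      constructor
      · intro hx
        exact conj_mem_of_map_eq A _ (h1 _ hdD) x hx
      · intro hx
        have h2 := h1 _ (D.inv_mem hdD)
        have := conj_mem_of_map_eq A _ h2 _ hx
        have e : (g * b * g⁻¹)⁻¹ * (g * b * g⁻¹ * x * (g * b * g⁻¹)⁻¹) * (g * b * g⁻¹)⁻¹⁻¹ = x := by group
        rw [e] at this; exact this
    have hd2 : (g * b * g⁻¹) ^ 2 ≠ 1 := by
      intro h
      apply hb2
      have : (g * b * g⁻¹) ^ 2 = g * b ^ 2 * g⁻¹ := by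
        rw [pow_two, pow_two]; group
      rw [this] at h
      have : b ^ 2 = g⁻¹ * (g * b ^ 2 * g⁻¹) * g := by group
      rw [this, h]; group
    have hdo : ∃ k : ℕ, (g * b * g⁻¹) ^ (2 ^ k) = 1 := by
      obtain ⟨k, hk⟩ := hbo
      refine ⟨k, ?_⟩
      have : (g * b * g⁻¹) ^ (2 ^ k) = g * b ^ (2 ^ k) * g⁻¹ := by
        rw [← MulAut.conj_apply, ← MulAut.conj_apply, map_pow]
      rw [this, hk]; group
    have h2 : ∀ a ∈ A, D.map (MulAut.conj a).toMonoidHom = D :=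
      normalizes_of_sq D A hA2 hAc hDA (fun a _ => ti_conj A hti g a) (g * b * g⁻¹) hdD hdN hd2 hdo
    rw [eq_bot_iff, ← hAD, Subgroup.commutator_le]
    intro a ha d hd
    refine Subgroup.mem_inf.mpr ⟨?_, ?_⟩
    · have e : ⁅a, d⁆ = a * (d * a⁻¹ * d⁻¹) := by rw [commutatorElement_def]; group
      rw [e]
      exact A.mul_mem ha (conj_mem_of_map_eq A d (h1 d hd) _ (A.inv_mem ha))
    · rw [commutatorElement_def]
      exact D.mul_mem (conj_mem_of_map_eq D a (h2 a ha) d hd) (D.inv_mem hd)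

end Cfsg.Agent.S1781
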