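import Cfsg.Statements.S1783
import Cfsg.Agent.Lib.Helper39.TIFamily
import Cfsg.Agent.Lib.Helper30.Basic
import Cfsg.Agent.Lib.Helper55.Basic
import Cfsg.Agent.Lib.Helper14.Basic
import Mathlib

set_option autoImplicit false
open Cfsg

namespace Cfsg.Agent.S1783

open Cfsg.Agent.Lib.Helper39

variable {X : Type*} [Group X]

/-- The subgroup generated by the squares of the elements of `H`. -/
def sqSub (H : Subgroup X) : Subgroup X := Subgroup.closure ((fun a : X => a ^ 2) '' (H : Set X))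

theorem sq_mem_sqSub {H : Subgroup X} {y : X} (hy : y ∈ H) : y ^ 2 ∈ sqSub H :=
  Subgroup.subset_closure ⟨y, hy, rfl⟩

theorem sqSub_le (H : Subgroup X) : sqSub H ≤ H := by
  rw [sqSub, Subgroup.closure_le]
  rintro _ ⟨y, hy, rfl⟩
  exact H.pow_mem hy 2

theorem sqSub_conj {H : Subgroup X} {g : X} (hH : ∀ y ∈ H, g * y * g⁻¹ ∈ H) :
    ∀ y ∈ sqSub H, g * y * g⁻¹ ∈ sqSub H := by
  intro y hy
  have hle : sqSub H ≤ (sqSub H).comap (MulAut.conj g).toMonoidHom := by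
    rw [sqSub, Subgroup.closure_le]
    rintro _ ⟨z, hz, rfl⟩
    show (MulAut.conj g).toMonoidHom (z ^ 2) ∈ sqSub H
    have : (MulAut.conj g).toMonoidHom (z ^ 2) = (g * z * g⁻¹) ^ 2 := by
      rw [map_pow]; rfl
    rw [this]
    exact sq_mem_sqSub (hH z hz)
  have := hle hy
  simpa [Subgroup.mem_comap, MulAut.conj_apply] using this

theorem sqSub_lt [Finite X] (H : Subgroup X) (hH2 : IsPGroup 2 ↥H) (hH : H ≠ ⊥) :
    Nat.card (sqSub H) < Nat.card H := by
  haveI : Fact (Nat.Prime 2) := ⟨Nat.prime_two⟩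
  obtain ⟨n, hn⟩ := (IsPGroup.iff_card).mp hH2
  have hn0 : n ≠ 0 := by
    rintro rfl
    rw [pow_zero] at hn
    exact hH (Subgroup.eq_bot_of_card_eq H hn)
  obtain ⟨n', rfl⟩ := Nat.exists_eq_succ_of_ne_zero hn0
  obtain ⟨M', hM'⟩ := Sylow.exists_subgroup_card_pow_prime 2 (G := ↥H) (n := n')
    (by rw [hn]; exact pow_dvd_pow 2 (Nat.le_succ n'))
  have hidx : M'.index = 2 := by
    have := Subgroup.card_mul_index M'
    rw [hM', hn, pow_succ] at this
    exact Nat.eq_of_mul_eq_mul_left (pow_pos (by norm_num) n') this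
  have hle : sqSub H ≤ M'.map H.subtype := by
    rw [sqSub, Subgroup.closure_le]
    rintro _ ⟨y, hy, rfl⟩
    exact ⟨⟨y, hy⟩ ^ 2, Subgroup.sq_mem_of_index_two hidx _, rfl⟩
  calc Nat.card (sqSub H) ≤ Nat.card (M'.map H.subtype) := Subgroup.card_le_of_le hle
    _ = Nat.card M' := Subgroup.card_map_of_injective H.subtype_injective
    _ = 2 ^ n' := hM'
    _ < 2 ^ (n' + 1) := Nat.pow_lt_pow_right (by norm_num) (Nat.lt_succ_self n')
    _ = Nat.card H := hn.symm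

/-- The iterated series of squares. -/
def ser (Q : Subgroup X) : ℕ → Subgroup X
  | 0 => Q
  | (j + 1) => sqSub (ser Q j)

theorem ser_le (Q : Subgroup X) (j : ℕ) : ser Q j ≤ Q := by
  induction j with
  | zero => exact le_rfl
  | succ j ih => exact (sqSub_le _).trans ih

theorem ser_conj (Q : Subgroup X) [hQ : Q.Normal] (j : ℕ) (g : X) :
    ∀ y ∈ ser Q j, g * y * g⁻¹ ∈ ser Q j := by
  induction j with
  | zero => intro y hy; exact hQ.conj_mem y hy g
  | succ j ih => exact sqSub_conj ih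

theorem ser_bot [Finite X] (Q : Subgroup X) (hQ2 : IsPGroup 2 ↥Q) : ∃ n, ser Q n = ⊥ := by
  have key : ∀ j : ℕ, ser Q j = ⊥ ∨ Nat.card (ser Q j) + j ≤ Nat.card Q := by
    intro j
    induction j with
    | zero => right; exact le_rfl
    | succ j ih =>
      by_cases hb : ser Q j = ⊥
      · left
        show sqSub (ser Q j) = ⊥
        rw [hb]; exact le_bot_iff.mp (sqSub_le ⊥)
      · right
        have h := ih.resolve_left hb
        have := sqSub_lt (ser Q j) (hQ2.to_le (ser_le Q j)) hb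
        show Nat.card (sqSub (ser Q j)) + (j + 1) ≤ Nat.card Q
        omega
  rcases key (Nat.card Q) with h | h
  · exact ⟨_, h⟩
  · exfalso
    have : 0 < Nat.card (ser Q (Nat.card Q)) := Nat.card_pos
    omega

/-- The stability group of the series. -/
def stab (Q : Subgroup X) [Q.Normal] : Subgroup X where
  carrier := {g | ∀ j : ℕ, ∀ y ∈ ser Q j, g * y * g⁻¹ * y⁻¹ ∈ ser Q (j + 1)}
  one_mem' := by
    intro j y _
    have : (1 : X) * y * 1⁻¹ * y⁻¹ = 1 := by group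
    rw [this]; exact Subgroup.one_mem _
  mul_mem' := by
    intro g h hg hh j y hy
    have h1 := hh j y hy
    have h2 := hg j y hy
    have h3 := ser_conj Q (j + 1) g _ h1
    have : g * h * y * (g * h)⁻¹ * y⁻¹ =
        (g * (h * y * h⁻¹ * y⁻¹) * g⁻¹) * (g * y * g⁻¹ * y⁻¹) := by group
    rw [this]; exact Subgroup.mul_mem _ h3 h2
  inv_mem' := by
    intro g hg j y hy
    have h1 := hg j y hy
    have h2 := ser_conj Q (j + 1) g⁻¹ _ (Subgroup.inv_mem _ h1)
    have : g⁻¹ * y * g⁻¹⁻¹ * y⁻¹ = g⁻¹ * (g * y * g⁻¹ * y⁻¹)⁻¹ * g⁻¹⁻¹ := by group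
    rw [this]; exact h2

theorem mem_stab {Q : Subgroup X} [Q.Normal] {g : X} :
    g ∈ stab Q ↔ ∀ j : ℕ, ∀ y ∈ ser Q j, g * y * g⁻¹ * y⁻¹ ∈ ser Q (j + 1) := Iff.rfl

theorem stab_normal (Q : Subgroup X) [Q.Normal] : (stab Q).Normal := by
  refine ⟨fun g hg h => ?_⟩
  rw [mem_stab]
  intro j y hy
  have hy' : h⁻¹ * y * h⁻¹⁻¹ ∈ ser Q j := ser_conj Q j h⁻¹ y hy
  have h1 := hg j _ hy'
  have h2 := ser_conj Q (j + 1) h _ h1
  have : h * g * h⁻¹ * y * (h * g * h⁻¹)⁻¹ * y⁻¹ =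
      h * (g * (h⁻¹ * y * h⁻¹⁻¹) * g⁻¹ * (h⁻¹ * y * h⁻¹⁻¹)⁻¹) * h⁻¹ := by group
  rw [this]; exact h2

/-- An element of odd order in the stability group centralizes `Q`. -/
theorem stab_odd_centralizes [Finite X] (Q : Subgroup X) [Q.Normal] (hQ2 : IsPGroup 2 ↥Q)
    {g : X} (hg : g ∈ stab Q) {m : ℕ} (hm : Odd m) (hgm : g ^ m = 1) :
    ∀ y ∈ Q, g * y = y * g := by
  obtain ⟨n, hn⟩ := ser_bot Q hQ2
  have step : ∀ j : ℕ, (∀ y ∈ ser Q (j + 1), g * y = y * g) → ∀ y ∈ ser Q j, g * y = y * g := by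
    intro j hj y hy
    have hc := hg j y hy
    have hgc := hj _ hc
    have hpow : ∀ k : ℕ, g ^ k * y * (g ^ k)⁻¹ = (g * y * g⁻¹ * y⁻¹) ^ k * y := by
      intro k
      induction k with
      | zero => simp
      | succ k ih =>
        have hcomm : g * (g * y * g⁻¹ * y⁻¹) ^ k = (g * y * g⁻¹ * y⁻¹) ^ k * g :=
          (Commute.pow_right (show Commute g (g * y * g⁻¹ * y⁻¹) from hgc) k).eq
        calc g ^ (k + 1) * y * (g ^ (k + 1))⁻¹ = g * (g ^ k * y * (g ^ k)⁻¹) * g⁻¹ := by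
              rw [pow_succ']; group
          _ = g * ((g * y * g⁻¹ * y⁻¹) ^ k * y) * g⁻¹ := by rw [ih]
          _ = (g * (g * y * g⁻¹ * y⁻¹) ^ k) * y * g⁻¹ := by group
          _ = ((g * y * g⁻¹ * y⁻¹) ^ k * g) * y * g⁻¹ := by rw [hcomm]
          _ = (g * y * g⁻¹ * y⁻¹) ^ k * ((g * y * g⁻¹ * y⁻¹) * y) := by group
          _ = (g * y * g⁻¹ * y⁻¹) ^ (k + 1) * y := by rw [pow_succ]; simp only [mul_assoc]
    have h1 := hpow m
    rw [hgm] at h1
    have hcm : (g * y * g⁻¹ * y⁻¹) ^ m = 1 := by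
      have : y = (g * y * g⁻¹ * y⁻¹) ^ m * y := by simpa using h1
      exact (mul_eq_right.mp this.symm)
    have hcQ : g * y * g⁻¹ * y⁻¹ ∈ Q := ser_le Q (j + 1) hc
    obtain ⟨t, ht⟩ := pow_two_pow_eq_one hQ2 hcQ
    have hd1 : orderOf (g * y * g⁻¹ * y⁻¹) ∣ m := orderOf_dvd_of_pow_eq_one hcm
    have hd2 : orderOf (g * y * g⁻¹ * y⁻¹) ∣ 2 ^ t := orderOf_dvd_of_pow_eq_one ht
    have hcop : Nat.Coprime m (2 ^ t) := Nat.Coprime.pow_right t (Nat.Coprime.symm (Nat.coprime_two_left.mpr hm))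
    have ho : orderOf (g * y * g⁻¹ * y⁻¹) = 1 := Nat.eq_one_of_dvd_coprimes hcop hd1 hd2
    have hc1 : g * y * g⁻¹ * y⁻¹ = 1 := orderOf_eq_one_iff.mp ho
    calc g * y = (g * y * g⁻¹ * y⁻¹) * (y * g) := by group
      _ = y * g := by rw [hc1, one_mul]
  have down : ∀ i : ℕ, ∀ y ∈ ser Q (n - i), g * y = y * g := by
    intro i
    induction i with
    | zero =>
      intro y hy
      rw [Nat.sub_zero, hn, Subgroup.mem_bot] at hy
      rw [hy, mul_one, one_mul]
    | succ i ih =>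
      by_cases hi : i < n
      · have : n - (i + 1) + 1 = n - i := by omega
        apply step
        rw [this]; exact ih
      · have : n - (i + 1) = n - i := by omega
        rw [this]; exact ih
  intro y hy
  have := down n y
  rw [Nat.sub_self] at this
  exact this hy

theorem stab_isPGroup [Finite X] (Q : Subgroup X) [Q.Normal] (hQ2 : IsPGroup 2 ↥Q)
    (hCQ : Subgroup.centralizer (Q : Set X) ≤ Q) : IsPGroup 2 ↥(stab Q) := by
  intro g
  have ho : orderOf (g : X) ≠ 0 := (orderOf_pos (g : X)).ne'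
  obtain ⟨e, m, hm, hem⟩ := Nat.exists_eq_two_pow_mul_odd ho
  refine ⟨e, ?_⟩
  have hh : (g : X) ^ 2 ^ e ∈ stab Q := Subgroup.pow_mem _ g.2 _
  have hhm : ((g : X) ^ 2 ^ e) ^ m = 1 := by
    rw [← pow_mul, ← hem]; exact pow_orderOf_eq_one _
  have hcen := stab_odd_centralizes Q hQ2 hh hm hhm
  have hmemC : (g : X) ^ 2 ^ e ∈ Subgroup.centralizer (Q : Set X) := by
    rw [Subgroup.mem_centralizer_iff]
    intro y hy
    exact (hcen y hy).symm
  obtain ⟨t, ht⟩ := pow_two_pow_eq_one hQ2 (hCQ hmemC)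
  have hd1 : orderOf ((g : X) ^ 2 ^ e) ∣ m := orderOf_dvd_of_pow_eq_one hhm
  have hd2 : orderOf ((g : X) ^ 2 ^ e) ∣ 2 ^ t := orderOf_dvd_of_pow_eq_one ht
  have hcop : Nat.Coprime m (2 ^ t) := Nat.Coprime.pow_right t (Nat.Coprime.symm (Nat.coprime_two_left.mpr hm))
  have ho1 : orderOf ((g : X) ^ 2 ^ e) = 1 := Nat.eq_one_of_dvd_coprimes hcop hd1 hd2
  apply Subtype.ext
  rw [Subgroup.coe_pow]
  exact orderOf_eq_one_iff.mp ho1

/-- The TI property for arbitrary pairs of conjugates. -/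
theorem ti_pair (A : Subgroup X)
    (hti : ∀ h : X, A.map (MulAut.conj h).toMonoidHom = A ∨ A.map (MulAut.conj h).toMonoidHom ⊓ A = ⊥)
    (g h : X) : cj g A = cj h A ∨ cj g A ⊓ cj h A = ⊥ := by
  have hg : g = h * (h⁻¹ * g) := by group
  rcases hti (h⁻¹ * g) with h1 | h1
  · left
    rw [hg, cj_mul]
    show cj h (cj (h⁻¹ * g) A) = cj h A
    rw [show cj (h⁻¹ * g) A = A from h1]
  · right
    rw [eq_bot_iff]
    intro x hx
    obtain ⟨hx1, hx2⟩ := Subgroup.mem_inf.mp hx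
    rw [hg, cj_mul, mem_cj] at hx1
    rw [mem_cj] at hx2
    have : h⁻¹ * x * h ∈ cj (h⁻¹ * g) A ⊓ A := Subgroup.mem_inf.mpr ⟨hx1, hx2⟩
    rw [show cj (h⁻¹ * g) A ⊓ A = ⊥ from h1, Subgroup.mem_bot] at this
    rw [Subgroup.mem_bot]
    calc x = h * (h⁻¹ * x * h) * h⁻¹ := by group
      _ = 1 := by rw [this]; group

theorem isMulCommutative_closure_of_comm (k : Set X) (hk : ∀ x ∈ k, ∀ y ∈ k, x * y = y * x) :
    IsMulCommutative ↥(Subgroup.closure k) := by
  have h1 : k ⊆ Subgroup.centralizer k := fun x hx => by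
    rw [SetLike.mem_coe, Subgroup.mem_centralizer_iff]; intro y hy; exact hk y hy x hx
  have h2 : Subgroup.closure k ≤ Subgroup.centralizer k := (Subgroup.closure_le _).mpr h1
  have h3 : k ⊆ Subgroup.centralizer (Subgroup.closure k : Set X) := fun x hx => by
    rw [SetLike.mem_coe, Subgroup.mem_centralizer_iff]
    intro y hy
    exact (Subgroup.mem_centralizer_iff.mp (h2 hy) x hx).symm
  have h4 : Subgroup.closure k ≤ Subgroup.centralizer (Subgroup.closure k : Set X) :=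
    (Subgroup.closure_le _).mpr h3
  exact IsMulCommutative.of_comm fun a b =>
    Subtype.ext (Subgroup.mem_centralizer_iff.mp (h4 b.2) a a.2)

/-- Let X be a finite group whose generalized Fitting subgroup equals its largest normal 2-subgroup Q, and let A be an abelian 2-subgroup of X such that every conjugate of A equals A or meets A trivially. Let B be the subgroup generated by the squares of the elements of A. Then B lies in Q, and if B is not an elementary abelian 2-group then the normal closure of B in X is commutative. -/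
theorem result {X : Type*} [Group X] [Finite X]
    (hX : Cfsg.generalizedFittingSubgroup X = Cfsg.pCore 2 X) (A : Subgroup X) (hA2 : IsPGroup 2 ↥A) (hAa : IsMulCommutative ↥A)
    (hti : ∀ h : X, A.map (MulAut.conj h).toMonoidHom = A ∨ A.map (MulAut.conj h).toMonoidHom ⊓ A = ⊥) :
    Subgroup.closure ((fun a : X => a ^ 2) '' (A : Set X)) ≤ Cfsg.pCore 2 X ∧
      (¬ Cfsg.IsElementaryAbelian 2 (Subgroup.closure ((fun a : X => a ^ 2) '' (A : Set X))) →
        IsMulCommutative ↥(Subgroup.normalClosure ((fun a : X => a ^ 2) '' (A : Set X)))) := by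
  haveI hQn : (Cfsg.pCore 2 X).Normal := Cfsg.Agent.Lib.Helper55.pCore_normal
  have hQ2 : IsPGroup 2 ↥(Cfsg.pCore 2 X) := Cfsg.Agent.Lib.Helper55.pCore_isPGroup
  have hCQ : Subgroup.centralizer ((Cfsg.pCore 2 X : Subgroup X) : Set X) ≤ Cfsg.pCore 2 X := by
    have := Cfsg.Agent.Lib.Helper30.centralizer_genFitting_le (G := X)
    rwa [hX] at this
  have hAc : ∀ a ∈ A, ∀ a' ∈ A, a * a' = a' * a := by
    intro a ha a' ha'
    exact congrArg Subtype.val (mul_comm' (⟨a, ha⟩ : A) ⟨a', ha'⟩)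
  have hBA : sqSub A ≤ A := sqSub_le A
  -- Part 1
  have part1 : sqSub A ≤ Cfsg.pCore 2 X := by
    rw [sqSub, Subgroup.closure_le]
    rintro _ ⟨a, ha, rfl⟩
    show a ^ 2 ∈ Cfsg.pCore 2 X
    by_cases hex : ∃ a₀ ∈ A, a₀ * a₀ ≠ 1
    · obtain ⟨a₀, ha₀, ha₀2⟩ := hex
      -- conjugates of A under Q commute with A
      have hcomm1 : ∀ x ∈ Cfsg.pCore 2 X, ∀ a ∈ A, ∀ a' ∈ A,
          a * (x * a' * x⁻¹) = (x * a' * x⁻¹) * a := by
        intro x hx a ha a' ha'
        have hH2 : IsPGroup 2 ↥(Cfsg.pCore 2 X ⊔ A) := IsPGroup.to_sup_of_normal_left hQ2 hA2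
        have key := ti_family_commute (Cfsg.pCore 2 X ⊔ A) hH2
          {R | ∃ s ∈ Cfsg.pCore 2 X ⊔ A, R = cj s A}
          (by rintro R ⟨s, hs, rfl⟩; exact cj_le hs le_sup_right)
          (by
            rintro h hh R ⟨s, hs, rfl⟩
            exact ⟨h * s, Subgroup.mul_mem _ hh hs, (cj_mul h s A).symm⟩)
          (by
            rintro R ⟨s, hs, rfl⟩
            refine ⟨s * a₀ * s⁻¹, cj_mem ha₀, ?_⟩
            intro h
            apply ha₀2
            have : s * a₀ * s⁻¹ * (s * a₀ * s⁻¹) = s * (a₀ * a₀) * s⁻¹ := by group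
            rw [this] at h
            calc a₀ * a₀ = s⁻¹ * (s * (a₀ * a₀) * s⁻¹) * s := by group
              _ = 1 := by rw [h]; group)
          (by
            rintro R ⟨s, hs, rfl⟩ T ⟨t, ht, rfl⟩
            rw [card_cj, card_cj])
          (by
            rintro R ⟨s, hs, rfl⟩ T ⟨t, ht, rfl⟩
            exact ti_pair A hti s t)
        by_cases hxA : cj x A = A
        · exact hAc a ha _ (forall_of_cj_eq hxA a' ha')
        · exact key A ⟨1, Subgroup.one_mem _, (cj_one A).symm⟩ (cj x A)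
            ⟨x, Subgroup.mem_sup_left hx, rfl⟩ (Ne.symm hxA) a ha _ (cj_mem ha')
      -- a ^ 2 lies in the stability group
      have hstab : a ^ 2 ∈ stab (Cfsg.pCore 2 X) := by
        rw [mem_stab]
        intro j y hy
        have hyQ : y ∈ Cfsg.pCore 2 X := ser_le _ j hy
        have hc : a * y * a⁻¹ * y⁻¹ ∈ ser (Cfsg.pCore 2 X) j :=
          Subgroup.mul_mem _ (ser_conj _ j a y hy) (Subgroup.inv_mem _ hy)
        have h1 : a * (y * a⁻¹ * y⁻¹) = (y * a⁻¹ * y⁻¹) * a :=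
          hcomm1 y hyQ a ha a⁻¹ (A.inv_mem ha)
        have h2 : a * (a * y * a⁻¹ * y⁻¹) * a⁻¹ = a * y * a⁻¹ * y⁻¹ := by
          calc a * (a * y * a⁻¹ * y⁻¹) * a⁻¹ = a * (a * (y * a⁻¹ * y⁻¹)) * a⁻¹ := by group
            _ = a * ((y * a⁻¹ * y⁻¹) * a) * a⁻¹ := by rw [h1]
            _ = a * y * a⁻¹ * y⁻¹ := by group
        have h3 : a ^ 2 * y * (a ^ 2)⁻¹ * y⁻¹ = (a * y * a⁻¹ * y⁻¹) ^ 2 := by
          calc a ^ 2 * y * (a ^ 2)⁻¹ * y⁻¹
              = (a * (a * y * a⁻¹ * y⁻¹) * a⁻¹) * (a * y * a⁻¹ * y⁻¹) := by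
                rw [pow_two]; group
            _ = (a * y * a⁻¹ * y⁻¹) * (a * y * a⁻¹ * y⁻¹) := by rw [h2]
            _ = (a * y * a⁻¹ * y⁻¹) ^ 2 := (pow_two _).symm
        rw [h3]
        exact sq_mem_sqSub hc
      exact Cfsg.Agent.Lib.Helper55.le_pCore (stab_normal _) (stab_isPGroup _ hQ2 hCQ) hstab
    · push Not at hex
      rw [pow_two, hex a ha]
      exact Subgroup.one_mem _
  refine ⟨part1, ?_⟩
  intro hnea
  -- an element of B with nontrivial square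
  have hBc : ∀ b ∈ sqSub A, ∀ b' ∈ sqSub A, b * b' = b' * b :=
    fun b hb b' hb' => hAc b (hBA hb) b' (hBA hb')
  have hex : ∃ b₀ ∈ sqSub A, b₀ * b₀ ≠ 1 := by
    by_contra hcon
    push Not at hcon
    apply hnea
    exact Cfsg.Agent.Lib.Helper14.ea_of_forall hBc (fun b hb => by rw [pow_two]; exact hcon b hb)
  obtain ⟨b₀, hb₀, hb₀2⟩ := hex
  -- B is invariant under the normalizer of A
  have hBinv : ∀ k : X, cj k A = A → cj k (sqSub A) = sqSub A := by
    intro k hk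
    exact cj_eq_of_forall (sqSub_conj (forall_of_cj_eq hk))
  have hBQ : ∀ g : X, cj g (sqSub A) ≤ Cfsg.pCore 2 X := by
    rintro g _ ⟨y, hy, rfl⟩
    simpa [MulAut.conj_apply] using hQn.conj_mem y (part1 hy) g
  have key := ti_family_commute (Cfsg.pCore 2 X) hQ2 {R | ∃ g : X, R = cj g (sqSub A)}
    (by rintro R ⟨g, rfl⟩; exact hBQ g)
    (by
      rintro h _ R ⟨g, rfl⟩
      exact ⟨h * g, (cj_mul h g _).symm⟩)
    (by
      rintro R ⟨s, rfl⟩
      refine ⟨s * b₀ * s⁻¹, cj_mem hb₀, ?_⟩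
      intro h
      apply hb₀2
      have : s * b₀ * s⁻¹ * (s * b₀ * s⁻¹) = s * (b₀ * b₀) * s⁻¹ := by group
      rw [this] at h
      calc b₀ * b₀ = s⁻¹ * (s * (b₀ * b₀) * s⁻¹) * s := by group
        _ = 1 := by rw [h]; group)
    (by
      rintro R ⟨s, rfl⟩ T ⟨t, rfl⟩
      rw [card_cj, card_cj])
    (by
      rintro R ⟨g, rfl⟩ T ⟨h, rfl⟩
      have hg : g = h * (h⁻¹ * g) := by group
      rcases hti (h⁻¹ * g) with h1 | h1
      · left
        rw [hg, cj_mul, hBinv (h⁻¹ * g) h1]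
      · right
        rw [eq_bot_iff]
        intro x hx
        obtain ⟨hx1, hx2⟩ := Subgroup.mem_inf.mp hx
        rw [hg, cj_mul, mem_cj] at hx1
        rw [mem_cj] at hx2
        have : h⁻¹ * x * h ∈ cj (h⁻¹ * g) A ⊓ A :=
          Subgroup.mem_inf.mpr ⟨cj_mono hBA hx1, hBA hx2⟩
        rw [show cj (h⁻¹ * g) A ⊓ A = ⊥ from h1, Subgroup.mem_bot] at this
        rw [Subgroup.mem_bot]
        calc x = h * (h⁻¹ * x * h) * h⁻¹ := by group
          _ = 1 := by rw [this]; group)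
  -- conjugates of squares commute pairwise
  show IsMulCommutative ↥(Subgroup.closure (Group.conjugatesOfSet ((fun a : X => a ^ 2) '' (A : Set X))))
  apply isMulCommutative_closure_of_comm
  intro x hx y hy
  obtain ⟨x', ⟨a, ha, rfl⟩, hxc⟩ := Group.mem_conjugatesOfSet_iff.mp hx
  obtain ⟨y', ⟨a', ha', rfl⟩, hyc⟩ := Group.mem_conjugatesOfSet_iff.mp hy
  obtain ⟨g, rfl⟩ := isConj_iff.mp hxc
  obtain ⟨h, rfl⟩ := isConj_iff.mp hyc
  have hxm : g * a ^ 2 * g⁻¹ ∈ cj g (sqSub A) := cj_mem (sq_mem_sqSub ha)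
  have hym : h * a' ^ 2 * h⁻¹ ∈ cj h (sqSub A) := cj_mem (sq_mem_sqSub ha')
  by_cases hgh : cj g (sqSub A) = cj h (sqSub A)
  · rw [← hgh] at hym
    have h1 := mem_cj.mp hxm
    have h2 := mem_cj.mp hym
    have h3 := hBc _ h1 _ h2
    calc g * a ^ 2 * g⁻¹ * (h * a' ^ 2 * h⁻¹)
        = g * ((g⁻¹ * (g * a ^ 2 * g⁻¹) * g) * (g⁻¹ * (h * a' ^ 2 * h⁻¹) * g)) * g⁻¹ := by group
      _ = g * ((g⁻¹ * (h * a' ^ 2 * h⁻¹) * g) * (g⁻¹ * (g * a ^ 2 * g⁻¹) * g)) * g⁻¹ := by rw [h3]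
      _ = h * a' ^ 2 * h⁻¹ * (g * a ^ 2 * g⁻¹) := by group
  · exact key _ ⟨g, rfl⟩ _ ⟨h, rfl⟩ hgh _ hxm _ hym

end Cfsg.Agent.S1783
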