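import Cfsg.Statements.S1784
import Cfsg.Agent.S1756
import Cfsg.Agent.Lib.Helper30.Basic
import Cfsg.Agent.Lib.Helper94.LargeExtra
import Mathlib

set_option autoImplicit false
open Cfsg
open scoped commutatorElement

namespace Cfsg.Agent.S1784

section abstract
variable {P : Type*} [Group P]

/-- `|K| |C(K)| ≤ 2 |P|` for subgroups containing the centre (class two, centre of order two). -/
theorem card_mul_card_centralizer_le [Finite P] (hc : ∀ a b : P, ⁅a, b⁆ ∈ Subgroup.center P)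
    (hz : Nat.card (Subgroup.center P) = 2) :
    ∀ n : ℕ, ∀ K : Subgroup P, Nat.card P - Nat.card K = n → Subgroup.center P ≤ K →
      Nat.card K * Nat.card (Subgroup.centralizer (K : Set P)) ≤ 2 * Nat.card P := by
  intro n
  induction n using Nat.strong_induction_on with
  | _ n ih =>
    intro K hKn hZK
    by_cases hK : K = ⊤
    · rw [hK, Subgroup.card_top, Subgroup.coe_top, Subgroup.centralizer_univ, hz, mul_comm]
    · obtain ⟨h, hh⟩ : ∃ h : P, h ∉ K := by
        by_contra hcon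
        push Not at hcon
        exact hK (eq_top_iff.mpr fun x _ => hcon x)
      have hlt : K < K ⊔ Subgroup.zpowers h :=
        lt_of_le_of_ne le_sup_left
          (fun heq => hh (heq ▸ Subgroup.mem_sup_right (Subgroup.mem_zpowers h)))
      have hcard : 2 * Nat.card K ≤ Nat.card (K ⊔ Subgroup.zpowers h : Subgroup P) := by
        obtain ⟨m, hm⟩ := Subgroup.card_dvd_of_le hlt.le
        have hKpos : 0 < Nat.card K := Nat.card_pos
        have hm1 : m ≠ 1 := by
          intro h1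
          rw [h1, Nat.mul_one] at hm
          exact hlt.ne (Subgroup.eq_of_le_of_card_ge hlt.le (le_of_eq hm))
        have hm0 : m ≠ 0 := by
          intro h0
          rw [h0, Nat.mul_zero] at hm
          have : 0 < Nat.card (K ⊔ Subgroup.zpowers h : Subgroup P) := Nat.card_pos
          omega
        have : 2 ≤ m := by omega
        rw [hm, Nat.mul_comm]
        exact Nat.mul_le_mul_left _ this
      have hcent : (Subgroup.centralizer (K : Set P) ⊓ Subgroup.centralizer {h} : Subgroup P) ≤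
          Subgroup.centralizer ((K ⊔ Subgroup.zpowers h : Subgroup P) : Set P) := by
        intro u hu
        obtain ⟨hu1, hu2⟩ := Subgroup.mem_inf.mp hu
        have hKu : K ≤ Subgroup.centralizer {u} := by
          intro k hk
          rw [Subgroup.mem_centralizer_singleton_iff]
          exact (Subgroup.mem_centralizer_iff.mp hu1 k hk)
        have hhu : Subgroup.zpowers h ≤ Subgroup.centralizer {u} := by
          rw [Subgroup.zpowers_le, Subgroup.mem_centralizer_singleton_iff]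
          exact (Subgroup.mem_centralizer_singleton_iff.mp hu2).symm
        rw [Subgroup.mem_centralizer_iff]
        intro k hk
        exact (Subgroup.mem_centralizer_singleton_iff.mp ((sup_le hKu hhu) hk))
      have hA := Cfsg.Agent.S1756.card_le_two_mul hc hz (Subgroup.centralizer (K : Set P)) h
      have hB : Nat.card (Subgroup.centralizer (K : Set P) ⊓ Subgroup.centralizer {h} :
          Subgroup P) ≤ Nat.card (Subgroup.centralizer
            ((K ⊔ Subgroup.zpowers h : Subgroup P) : Set P)) :=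
        Subgroup.card_le_of_le hcent
      have hKle : Nat.card (K ⊔ Subgroup.zpowers h : Subgroup P) ≤ Nat.card P :=
        Subgroup.card_le_card_group _
      have hKpos : 0 < Nat.card K := Nat.card_pos
      have hIH := ih (Nat.card P - Nat.card (K ⊔ Subgroup.zpowers h : Subgroup P)) (by omega) _ rfl
        (hZK.trans le_sup_left)
      calc Nat.card K * Nat.card (Subgroup.centralizer (K : Set P))
          ≤ Nat.card K * (2 * Nat.card (Subgroup.centralizer
              ((K ⊔ Subgroup.zpowers h : Subgroup P) : Set P))) :=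
            Nat.mul_le_mul_left _ (hA.trans (Nat.mul_le_mul_left _ hB))
        _ = (2 * Nat.card K) * Nat.card (Subgroup.centralizer
              ((K ⊔ Subgroup.zpowers h : Subgroup P) : Set P)) := by ring
        _ ≤ Nat.card (K ⊔ Subgroup.zpowers h : Subgroup P) * Nat.card (Subgroup.centralizer
              ((K ⊔ Subgroup.zpowers h : Subgroup P) : Set P)) := Nat.mul_le_mul_right _ hcard
        _ ≤ 2 * Nat.card P := hIH

/-- The map `p ↦ τ p * p⁻¹` modulo the centre is a homomorphism. -/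
def commQ (hc : ∀ a b : P, ⁅a, b⁆ ∈ Subgroup.center P) (τ : P ≃* P) :
    P →* P ⧸ Subgroup.center P where
  toFun p := QuotientGroup.mk (τ p * p⁻¹)
  map_one' := by simp
  map_mul' p q := by
    rw [← QuotientGroup.mk_mul, QuotientGroup.eq]
    have : (τ (p * q) * (p * q)⁻¹)⁻¹ * (τ p * p⁻¹ * (τ q * q⁻¹)) = ⁅p, q * (τ q)⁻¹⁆ := by
      rw [map_mul, commutatorElement_def]; group
    rw [this]; exact hc _ _

theorem commQ_apply (hc : ∀ a b : P, ⁅a, b⁆ ∈ Subgroup.center P) (τ : P ≃* P) (p : P) :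
    commQ hc τ p = QuotientGroup.mk (τ p * p⁻¹) := rfl

/-- The abstract statement: `[P, τ] = Z(P₀)` where `P₀` is the preimage of the fixed points of
`τ` on `P / Z(P)`. -/
theorem abstract_main [Finite P] (hc : ∀ a b : P, ⁅a, b⁆ ∈ Subgroup.center P)
    (hz : Nat.card (Subgroup.center P) = 2) (hsq : ∀ a : P, a * a ∈ Subgroup.center P)
    (τ : P ≃* P) (hτ : ∀ p, τ (τ p) = p) (hne : ∃ p, τ p ≠ p) (x : P) :
    x ∈ Subgroup.closure (Set.range fun p : P => τ p * p⁻¹) ↔
      (τ x * x⁻¹ ∈ Subgroup.center P ∧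
        ∀ y : P, τ y * y⁻¹ ∈ Subgroup.center P → x * y = y * x) := by
  have huniq : ∀ a b : P, a ∈ Subgroup.center P → b ∈ Subgroup.center P → a ≠ 1 → b ≠ 1 →
      a = b := by
    intro a b ha hb ha1 hb1
    obtain ⟨y, -, hy⟩ := (Nat.card_eq_two_iff' (1 : Subgroup.center P)).mp hz
    have h1 : (⟨a, ha⟩ : Subgroup.center P) = y := hy _ (by
      intro h; exact ha1 (congrArg Subtype.val h))
    have h2 : (⟨b, hb⟩ : Subgroup.center P) = y := hy _ (by
      intro h; exact hb1 (congrArg Subtype.val h))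
    exact congrArg Subtype.val (h1.trans h2.symm)
  have hτZ : ∀ ζ ∈ Subgroup.center P, τ ζ = ζ := by
    intro ζ hζ
    by_cases hζ1 : ζ = 1
    · rw [hζ1, map_one]
    · have hτζ : τ ζ ∈ Subgroup.center P := by
        rw [Subgroup.mem_center_iff]
        intro g
        obtain ⟨g', rfl⟩ := τ.surjective g
        rw [← map_mul, ← map_mul, Subgroup.mem_center_iff.mp hζ g']
      have hτζ1 : τ ζ ≠ 1 := by
        intro h
        apply hζ1
        have := congrArg τ h
        rw [hτ, map_one] at this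
        exact this
      exact huniq _ _ hτζ hζ hτζ1 hζ1
  have hker : ∀ p, p ∈ (commQ hc τ).ker ↔ τ p * p⁻¹ ∈ Subgroup.center P := by
    intro p
    rw [MonoidHom.mem_ker, commQ_apply, QuotientGroup.eq_one_iff]
  have hgen : ∀ p, τ p * p⁻¹ ∈ Subgroup.closure (Set.range fun p : P => τ p * p⁻¹) :=
    fun p => Subgroup.subset_closure ⟨p, rfl⟩
  -- commutation
  have comm1 : ∀ q y : P, τ y * y⁻¹ ∈ Subgroup.center P →
      ((τ q)⁻¹ * q) * y = y * ((τ q)⁻¹ * q) := by
    intro q y hy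
    have hζc : ∀ g : P, g * (τ y * y⁻¹) = (τ y * y⁻¹) * g := Subgroup.mem_center_iff.mp hy
    have hτy : τ y = (τ y * y⁻¹) * y := by group
    have hκ : τ (q * y * q⁻¹ * y⁻¹) = q * y * q⁻¹ * y⁻¹ := by
      apply hτZ
      have := hc q y
      rwa [commutatorElement_def] at this
    have h1 : τ (q * y * q⁻¹ * y⁻¹) = τ q * y * (τ q)⁻¹ * y⁻¹ := by
      rw [map_mul, map_mul, map_mul, map_inv, map_inv]
      calc τ q * τ y * (τ q)⁻¹ * (τ y)⁻¹
          = τ q * ((τ y * y⁻¹) * y) * (τ q)⁻¹ * ((τ y * y⁻¹) * y)⁻¹ := by rw [← hτy]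
        _ = (τ q * (τ y * y⁻¹)) * y * (τ q)⁻¹ * y⁻¹ * (τ y * y⁻¹)⁻¹ := by group
        _ = ((τ y * y⁻¹) * τ q) * y * (τ q)⁻¹ * y⁻¹ * (τ y * y⁻¹)⁻¹ := by rw [hζc (τ q)]
        _ = (τ y * y⁻¹) * (τ q * y * (τ q)⁻¹ * y⁻¹) * (τ y * y⁻¹)⁻¹ := by group
        _ = (τ q * y * (τ q)⁻¹ * y⁻¹) * (τ y * y⁻¹) * (τ y * y⁻¹)⁻¹ := by
            rw [← hζc (τ q * y * (τ q)⁻¹ * y⁻¹)]
        _ = τ q * y * (τ q)⁻¹ * y⁻¹ := by group
    have h2 : q * y * q⁻¹ = τ q * y * (τ q)⁻¹ := by
      have : q * y * q⁻¹ * y⁻¹ = τ q * y * (τ q)⁻¹ * y⁻¹ := by rw [← h1, hκ]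
      exact mul_right_cancel this
    calc (τ q)⁻¹ * q * y = (τ q)⁻¹ * (q * y * q⁻¹) * q := by group
      _ = (τ q)⁻¹ * (τ q * y * (τ q)⁻¹) * q := by rw [h2]
      _ = y * ((τ q)⁻¹ * q) := by group
  have hWle : Subgroup.closure (Set.range fun p : P => τ p * p⁻¹) ≤
      (commQ hc τ).ker ⊓ Subgroup.centralizer ((commQ hc τ).ker : Set P) := by
    rw [Subgroup.closure_le]
    rintro _ ⟨q, rfl⟩
    show τ q * q⁻¹ ∈ (commQ hc τ).ker ⊓ Subgroup.centralizer ((commQ hc τ).ker : Set P)
    refine Subgroup.mem_inf.mpr ⟨?_, ?_⟩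
    · rw [hker]
      have : τ (τ q * q⁻¹) * (τ q * q⁻¹)⁻¹ = (q * (τ q)⁻¹) * (q * (τ q)⁻¹) := by
        rw [map_mul, hτ, map_inv]; group
      rw [this]; exact hsq _
    · rw [Subgroup.mem_centralizer_iff]
      intro y hy
      have := comm1 q⁻¹ y ((hker y).mp hy)
      rw [map_inv, inv_inv] at this
      exact this.symm
  -- the centre lies in W
  have hZW : ∀ ζ ∈ Subgroup.center P,
      ζ ∈ Subgroup.closure (Set.range fun p : P => τ p * p⁻¹) := by
    obtain ⟨p, hp⟩ := hne
    have hc1 : τ p * p⁻¹ ≠ 1 := by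
      intro h
      apply hp
      calc τ p = (τ p * p⁻¹) * p := by group
        _ = p := by rw [h, one_mul]
    -- a nontrivial central element of W
    obtain ⟨κ, hκZ, hκ1, hκW⟩ : ∃ κ : P, κ ∈ Subgroup.center P ∧ κ ≠ 1 ∧
        κ ∈ Subgroup.closure (Set.range fun p : P => τ p * p⁻¹) := by
      by_cases hcZ : τ p * p⁻¹ ∈ Subgroup.center P
      · exact ⟨_, hcZ, hc1, hgen p⟩
      · rw [Subgroup.mem_center_iff] at hcZ
        push Not at hcZ
        obtain ⟨x, hx⟩ := hcZ
        refine ⟨x * (τ p * p⁻¹) * x⁻¹ * (τ p * p⁻¹)⁻¹, ?_, ?_, ?_⟩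
        · have := hc x (τ p * p⁻¹)
          rwa [commutatorElement_def] at this
        · intro h
          apply hx
          calc x * (τ p * p⁻¹) = (x * (τ p * p⁻¹) * x⁻¹ * (τ p * p⁻¹)⁻¹) * ((τ p * p⁻¹) * x) := by
                group
            _ = (τ p * p⁻¹) * x := by rw [h, one_mul]
        · have h1 : x * (τ p * p⁻¹) * x⁻¹ = (τ x * x⁻¹)⁻¹ * (τ (x * p) * (x * p)⁻¹) := by
            rw [map_mul]; group
          rw [h1]
          exact Subgroup.mul_mem _ (Subgroup.mul_mem _ (Subgroup.inv_mem _ (hgen x)) (hgen (x * p)))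
            (Subgroup.inv_mem _ (hgen p))
    intro ζ hζ
    by_cases hζ1 : ζ = 1
    · rw [hζ1]; exact Subgroup.one_mem _
    · rw [huniq ζ κ hζ hκZ hζ1 hκ1]; exact hκW
  -- counting
  have hW' : (commQ hc τ).range.comap (QuotientGroup.mk' (Subgroup.center P)) ≤
      Subgroup.closure (Set.range fun p : P => τ p * p⁻¹) := by
    intro w hw
    obtain ⟨q, hq⟩ := hw
    have hq' : (QuotientGroup.mk (τ q * q⁻¹) : P ⧸ Subgroup.center P) = QuotientGroup.mk w := hq
    have h1 : (τ q * q⁻¹)⁻¹ * w ∈ Subgroup.center P := QuotientGroup.eq.mp hq'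
    have h2 : w = (τ q * q⁻¹) * ((τ q * q⁻¹)⁻¹ * w) := by group
    rw [h2]; exact Subgroup.mul_mem _ (hgen q) (hZW _ h1)
  have hcount : Nat.card ((commQ hc τ).range.comap (QuotientGroup.mk' (Subgroup.center P))) *
      Nat.card (commQ hc τ).ker = 2 * Nat.card P := by
    have h1 := Subgroup.card_mul_index
      ((commQ hc τ).range.comap (QuotientGroup.mk' (Subgroup.center P)))
    have h2 : ((commQ hc τ).range.comap (QuotientGroup.mk' (Subgroup.center P))).index =
        (commQ hc τ).range.index :=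
      Subgroup.index_comap_of_surjective _ (QuotientGroup.mk'_surjective _)
    have h3 := Subgroup.card_mul_index (commQ hc τ).range
    have h4 : Nat.card P = Nat.card (P ⧸ Subgroup.center P) * Nat.card (Subgroup.center P) :=
      Subgroup.card_eq_card_quotient_mul_card_subgroup _
    have h5 := Subgroup.card_mul_index (commQ hc τ).ker
    have h6 : (commQ hc τ).ker.index = Nat.card (commQ hc τ).range := Subgroup.index_ker _
    rw [h2] at h1
    rw [hz] at h4
    rw [h6] at h5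
    have hi : 0 < (commQ hc τ).range.index :=
      Nat.pos_of_ne_zero Subgroup.index_ne_zero_of_finite
    have h7 : Nat.card ((commQ hc τ).range.comap (QuotientGroup.mk' (Subgroup.center P))) =
        2 * Nat.card (commQ hc τ).range := by
      apply Nat.eq_of_mul_eq_mul_right hi
      rw [h1, h4, ← h3]; ring
    rw [h7, mul_assoc, mul_comm (Nat.card (commQ hc τ).range), h5]
  have hZker : Subgroup.center P ≤ (commQ hc τ).ker := by
    intro ζ hζ
    rw [hker, hτZ ζ hζ, mul_inv_cancel]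
    exact Subgroup.one_mem _
  have hU := card_mul_card_centralizer_le hc hz _ (commQ hc τ).ker rfl hZker
  have heq : Subgroup.closure (Set.range fun p : P => τ p * p⁻¹) =
      (commQ hc τ).ker ⊓ Subgroup.centralizer ((commQ hc τ).ker : Set P) := by
    apply Subgroup.eq_of_le_of_card_ge hWle
    have e1 : Nat.card ((commQ hc τ).ker ⊓ Subgroup.centralizer ((commQ hc τ).ker : Set P) :
        Subgroup P) ≤ Nat.card (Subgroup.centralizer ((commQ hc τ).ker : Set P)) :=
      Subgroup.card_le_of_le inf_le_right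
    have e2 := Subgroup.card_le_of_le hW'
    have e3 : Nat.card (Subgroup.centralizer ((commQ hc τ).ker : Set P)) ≤
        Nat.card ((commQ hc τ).range.comap (QuotientGroup.mk' (Subgroup.center P))) := by
      have hk : 0 < Nat.card (commQ hc τ).ker := Nat.card_pos
      have : Nat.card (Subgroup.centralizer ((commQ hc τ).ker : Set P)) *
          Nat.card (commQ hc τ).ker ≤
          Nat.card ((commQ hc τ).range.comap (QuotientGroup.mk' (Subgroup.center P))) *
            Nat.card (commQ hc τ).ker := by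
        rw [hcount, mul_comm]; exact hU
      exact Nat.le_of_mul_le_mul_right this hk
    omega
  rw [heq, Subgroup.mem_inf, hker, Subgroup.mem_centralizer_iff]
  constructor
  · rintro ⟨h1, h2⟩
    exact ⟨h1, fun y hy => (h2 y ((hker y).mpr hy)).symm⟩
  · rintro ⟨h1, h2⟩
    exact ⟨h1, fun y hy => (h2 y ((hker y).mp hy)).symm⟩

end abstract

theorem mem_zpowers_invol {G : Type*} [Group G] {e x : G} (he : e * e = 1)
    (hx : x ∈ Subgroup.zpowers e) : x = 1 ∨ x = e := by
  obtain ⟨k, rfl⟩ := Subgroup.mem_zpowers_iff.mp hx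
  have he2 : e ^ (2 : ℤ) = 1 := by rw [zpow_two]; exact he
  rcases Int.emod_two_eq_zero_or_one k with h | h
  · left
    have : k = 2 * (k / 2) := by omega
    rw [this, zpow_mul, he2, one_zpow]
  · right
    have : k = 2 * (k / 2) + 1 := by omega
    rw [this, zpow_add, zpow_mul, he2, one_zpow, one_mul, zpow_one]

/-- Part (a) in a general setting: `C` a subgroup of `G`, `Q` a normal self-centralizing
extraspecial subgroup of `C`, `z` a central involution of `C`. -/
theorem main_G {G : Type*} [Group G] [Finite G] (C : Subgroup G) (Q : Subgroup ↥C) [hQn : Q.Normal]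
    (hCQ : Subgroup.centralizer (Q : Set ↥C) ≤ Q) (hE : IsExtraspecial 2 ↥Q)
    (z : G) (hz2 : z * z = 1) (hz1 : z ≠ 1) (hzC : ∀ c ∈ C, c * z = z * c) (hzmem : z ∈ C)
    (α : G) (hα2 : α * α = 1) (hαC : α ∈ C) (hαQ : α ∉ Q.map C.subtype)
    (Q₀ : Subgroup G)
    (hQ₀ : ∀ q : G, q ∈ Q₀ ↔ (q ∈ Q.map C.subtype ∧ α * q * α⁻¹ * q⁻¹ ∈ Subgroup.zpowers z)) :
    Subgroup.closure ((fun q : G => α * q * α⁻¹ * q⁻¹) '' ((Q.map C.subtype : Subgroup G) : Set G)) =
      (Subgroup.center ↥Q₀).map Q₀.subtype := by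
  obtain ⟨⟨hP2, hfr, hcomm⟩, hzcard⟩ := hE
  have hc : ∀ a b : ↥Q, ⁅a, b⁆ ∈ Subgroup.center ↥Q := by
    intro a b
    rw [← hcomm, commutator_def]
    exact Subgroup.commutator_mem_commutator (Subgroup.mem_top a) (Subgroup.mem_top b)
  have hsq : ∀ a : ↥Q, a * a ∈ Subgroup.center ↥Q := by
    intro a
    rw [← hfr]
    exact Cfsg.Agent.Lib.Helper94.sq_mem_frattini hP2 a
  have hαinv : α⁻¹ = α := inv_eq_of_mul_eq_one_left hα2
  -- z lies in Q
  have hzQ : (⟨z, hzmem⟩ : ↥C) ∈ Q := by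
    apply hCQ
    rw [Subgroup.mem_centralizer_iff]
    intro c _
    exact Subtype.ext (hzC c c.2)
  -- the automorphism induced by α
  let τ : ↥Q ≃* ↥Q := MulAut.conjNormal (⟨α, hαC⟩ : ↥C)
  have hτv : ∀ p : ↥Q, (((τ p : ↥Q) : ↥C) : G) = α * ((p : ↥C) : G) * α⁻¹ := by
    intro p
    show (((MulAut.conjNormal (⟨α, hαC⟩ : ↥C) p : ↥Q) : ↥C) : G) = _
    rw [MulAut.conjNormal_apply]
    rfl
  have hτ : ∀ p, τ (τ p) = p := by
    intro p
    apply Subtype.ext; apply Subtype.ext
    rw [hτv, hτv, hαinv]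
    calc α * (α * ((p : ↥C) : G) * α) * α = (α * α) * ((p : ↥C) : G) * (α * α) := by group
      _ = ((p : ↥C) : G) := by rw [hα2]; group
  have hne : ∃ p, τ p ≠ p := by
    by_contra hcon
    push Not at hcon
    apply hαQ
    have hmem : (⟨α, hαC⟩ : ↥C) ∈ Subgroup.centralizer (Q : Set ↥C) := by
      rw [Subgroup.mem_centralizer_iff]
      intro c hc'
      have h1 := hcon ⟨c, hc'⟩
      have h2 : α * (c : G) * α⁻¹ = c := by
        have := congrArg (fun y : ↥Q => ((y : ↥C) : G)) h1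
        simpa [hτv] using this
      apply Subtype.ext
      show (c : G) * α = α * c
      calc (c : G) * α = (α * (c : G) * α⁻¹) * α := by rw [h2]
        _ = α * c := by group
    exact ⟨⟨α, hαC⟩, hCQ hmem, rfl⟩
  have habs := abstract_main hc hzcard hsq τ hτ hne
  -- the central involution of Q
  have hz₀c : (⟨⟨z, hzmem⟩, hzQ⟩ : ↥Q) ∈ Subgroup.center ↥Q := by
    rw [Subgroup.mem_center_iff]
    intro g
    apply Subtype.ext; apply Subtype.ext
    exact hzC _ (g : ↥C).2
  have hcenter : ∀ w : ↥Q, w ∈ Subgroup.center ↥Q ↔ (((w : ↥C) : G) ∈ Subgroup.zpowers z) := by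
    intro w
    constructor
    · intro hw
      by_cases hw1 : w = 1
      · rw [hw1]; exact Subgroup.one_mem _
      · obtain ⟨y, -, hy⟩ := (Nat.card_eq_two_iff' (1 : Subgroup.center ↥Q)).mp hzcard
        have h1 : (⟨w, hw⟩ : Subgroup.center ↥Q) = y := hy _ (by
          intro h; exact hw1 (congrArg Subtype.val h))
        have h2 : (⟨⟨⟨z, hzmem⟩, hzQ⟩, hz₀c⟩ : Subgroup.center ↥Q) = y := hy _ (by
          intro h
          apply hz1
          have := congrArg (fun t : Subgroup.center ↥Q => (((t : ↥Q) : ↥C) : G)) h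
          simpa using this)
        have h3 := congrArg (fun t : Subgroup.center ↥Q => (((t : ↥Q) : ↥C) : G)) (h1.trans h2.symm)
        have h4 : ((w : ↥C) : G) = z := by simpa using h3
        rw [h4]; exact Subgroup.mem_zpowers z
    · intro hw
      rcases mem_zpowers_invol hz2 hw with h | h
      · have : w = 1 := by
          apply Subtype.ext; apply Subtype.ext; exact h
        rw [this]; exact Subgroup.one_mem _
      · have : w = ⟨⟨z, hzmem⟩, hzQ⟩ := by
          apply Subtype.ext; apply Subtype.ext; exact h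
        rw [this]; exact hz₀c
  -- membership in Q₀
  have hkey : ∀ x : ↥Q, ((x : ↥C) : G) ∈ Q₀ ↔ τ x * x⁻¹ ∈ Subgroup.center ↥Q := by
    intro x
    rw [hQ₀, hcenter]
    have h1 : (((τ x * x⁻¹ : ↥Q) : ↥C) : G) = α * ((x : ↥C) : G) * α⁻¹ * ((x : ↥C) : G)⁻¹ := by
      rw [Subgroup.coe_mul, Subgroup.coe_mul, hτv, Subgroup.coe_inv, Subgroup.coe_inv]
    rw [h1]
    constructor
    · exact fun h => h.2
    · exact fun h => ⟨⟨(x : ↥C), x.2, rfl⟩, h⟩
  -- the closure is the image of the abstract closure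
  have hclos : Subgroup.closure ((fun q : G => α * q * α⁻¹ * q⁻¹) ''
      ((Q.map C.subtype : Subgroup G) : Set G)) =
      (Subgroup.closure (Set.range fun p : ↥Q => τ p * p⁻¹)).map (C.subtype.comp Q.subtype) := by
    rw [MonoidHom.map_closure]
    congr 1
    ext g
    constructor
    · rintro ⟨q, ⟨c, hcQ, rfl⟩, rfl⟩
      refine ⟨τ ⟨c, hcQ⟩ * (⟨c, hcQ⟩ : ↥Q)⁻¹, ⟨⟨c, hcQ⟩, rfl⟩, ?_⟩
      show (((τ ⟨c, hcQ⟩ * (⟨c, hcQ⟩ : ↥Q)⁻¹ : ↥Q) : ↥C) : G) = _
      rw [Subgroup.coe_mul, Subgroup.coe_mul, hτv, Subgroup.coe_inv, Subgroup.coe_inv]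
      rfl
    · rintro ⟨_, ⟨p, rfl⟩, rfl⟩
      refine ⟨((p : ↥C) : G), ⟨(p : ↥C), p.2, rfl⟩, ?_⟩
      show _ = (((τ p * p⁻¹ : ↥Q) : ↥C) : G)
      rw [Subgroup.coe_mul, Subgroup.coe_mul, hτv, Subgroup.coe_inv, Subgroup.coe_inv]
  rw [hclos]
  ext g
  constructor
  · rintro ⟨x, hx, rfl⟩
    obtain ⟨hx1, hx2⟩ := (habs x).mp hx
    have hxQ₀ : ((x : ↥C) : G) ∈ Q₀ := (hkey x).mpr hx1
    refine ⟨⟨((x : ↥C) : G), hxQ₀⟩, ?_, rfl⟩
    show (⟨((x : ↥C) : G), hxQ₀⟩ : ↥Q₀) ∈ Subgroup.center ↥Q₀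
    rw [Subgroup.mem_center_iff]
    rintro ⟨y', hy'⟩
    apply Subtype.ext
    show y' * ((x : ↥C) : G) = ((x : ↥C) : G) * y'
    obtain ⟨⟨c, hcQ, rfl⟩, -⟩ := (hQ₀ y').mp hy'
    have hy2 := hx2 ⟨c, hcQ⟩ ((hkey ⟨c, hcQ⟩).mp hy')
    have := congrArg (fun t : ↥Q => ((t : ↥C) : G)) hy2
    simpa using this.symm
  · rintro ⟨⟨g', hg'⟩, hcen, rfl⟩
    obtain ⟨⟨c, hcQ, hcg⟩, -⟩ := (hQ₀ g').mp hg'
    have hcg' : (c : G) = g' := hcg
    refine ⟨⟨c, hcQ⟩, ?_, hcg'⟩
    show (⟨c, hcQ⟩ : ↥Q) ∈ Subgroup.closure (Set.range fun p : ↥Q => τ p * p⁻¹)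
    rw [habs]
    have hg'' : (((⟨c, hcQ⟩ : ↥Q) : ↥C) : G) ∈ Q₀ := by
      show (c : G) ∈ Q₀
      rw [hcg']; exact hg'
    refine ⟨(hkey _).mp hg'', ?_⟩
    intro y hy
    have hyQ₀ : ((y : ↥C) : G) ∈ Q₀ := (hkey y).mpr hy
    have hcen' : (⟨g', hg'⟩ : ↥Q₀) ∈ Subgroup.center ↥Q₀ := hcen
    have h1 := Subgroup.mem_center_iff.mp hcen' ⟨_, hyQ₀⟩
    have h2 : ((y : ↥C) : G) * g' = g' * ((y : ↥C) : G) := congrArg Subtype.val h1
    apply Subtype.ext; apply Subtype.ext
    show (c : G) * ((y : ↥C) : G) = ((y : ↥C) : G) * (c : G)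
    rw [hcg']; exact h2.symm

/-- Let G be a finite group and let z be an involution of G such that Q, the generalized Fitting subgroup of the centralizer C of z, is a 2-group of symplectic type (every characteristic abelian subgroup of Q is cyclic); suppose Q is extraspecial, and view Q inside G. Let α be an involution of C that is not in Q, and let Q₀ be the subgroup of those q ∈ Q whose commutator with α lies in the subgroup generated by z. Then (a) the subgroup generated by the commutators α q α⁻¹ q⁻¹, q ∈ Q, equals the centre of Q₀; and (b) if Q₀ is not contained in the product of the centralizer of α in Q with the subgroup generated by z, then some element of Q conjugates α to α z. -/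
theorem result {G : Type*} [Group G] [Finite G] (z : G) (hz : orderOf z = 2) (hQ : Cfsg.IsOfSymplecticType ↥(Cfsg.generalizedFittingSubgroup ↥(Subgroup.centralizer ({z} : Set G)))) (hE : Cfsg.IsExtraspecial 2 ↥(Cfsg.generalizedFittingSubgroup ↥(Subgroup.centralizer ({z} : Set G))))
    (α : G) (hα : orderOf α = 2) (hαC : α ∈ Subgroup.centralizer ({z} : Set G)) (hαQ : α ∉ (Cfsg.generalizedFittingSubgroup ↥(Subgroup.centralizer ({z} : Set G))).map (Subgroup.centralizer ({z} : Set G)).subtype)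
    (Q₀ : Subgroup G) (hQ₀ : ∀ q : G, q ∈ Q₀ ↔ (q ∈ (Cfsg.generalizedFittingSubgroup ↥(Subgroup.centralizer ({z} : Set G))).map (Subgroup.centralizer ({z} : Set G)).subtype ∧ α * q * α⁻¹ * q⁻¹ ∈ Subgroup.zpowers z)) :
    Subgroup.closure ((fun q : G => α * q * α⁻¹ * q⁻¹) '' ((Cfsg.generalizedFittingSubgroup ↥(Subgroup.centralizer ({z} : Set G))).map (Subgroup.centralizer ({z} : Set G)).subtype : Set G)) = (Subgroup.center ↥Q₀).map Q₀.subtype ∧
      (¬ Q₀ ≤ ((Cfsg.generalizedFittingSubgroup ↥(Subgroup.centralizer ({z} : Set G))).map (Subgroup.centralizer ({z} : Set G)).subtype ⊓ Subgroup.centralizer ({α} : Set G)) ⊔ Subgroup.zpowers z →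
        ∃ q ∈ (Cfsg.generalizedFittingSubgroup ↥(Subgroup.centralizer ({z} : Set G))).map (Subgroup.centralizer ({z} : Set G)).subtype, q * α * q⁻¹ = α * z) := by
  have hz2 : z * z = 1 := by
    have := pow_orderOf_eq_one z
    rwa [hz, pow_two] at this
  have hz1 : z ≠ 1 := by
    intro h
    rw [h, orderOf_one] at hz
    omega
  have hα2 : α * α = 1 := by
    have := pow_orderOf_eq_one α
    rwa [hα, pow_two] at this
  have hzinv : z⁻¹ = z := inv_eq_of_mul_eq_one_left hz2
  haveI hQn : (Cfsg.generalizedFittingSubgroup ↥(Subgroup.centralizer ({z} : Set G))).Normal :=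
    Cfsg.Agent.Lib.Helper30.genFitting_normal
  refine ⟨?_, ?_⟩
  · exact main_G (Subgroup.centralizer ({z} : Set G))
      (Cfsg.generalizedFittingSubgroup ↥(Subgroup.centralizer ({z} : Set G)))
      Cfsg.Agent.Lib.Helper30.centralizer_genFitting_le hE z hz2 hz1
      (fun c hc => Subgroup.mem_centralizer_singleton_iff.mp hc)
      (Subgroup.mem_centralizer_singleton_iff.mpr rfl) α hα2 hαC hαQ Q₀ hQ₀
  · intro hnle
    obtain ⟨q₀, hq₀, hq₀n⟩ := SetLike.not_le_iff_exists.mp hnle
    obtain ⟨hq₀Q, hq₀z⟩ := (hQ₀ q₀).mp hq₀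
    have hnc : q₀ ∉ Subgroup.centralizer ({α} : Set G) := by
      intro h
      exact hq₀n (Subgroup.mem_sup_left (Subgroup.mem_inf.mpr ⟨hq₀Q, h⟩))
    have hcz : α * q₀ * α⁻¹ * q₀⁻¹ = z := by
      rcases mem_zpowers_invol hz2 hq₀z with h | h
      · exfalso
        apply hnc
        rw [Subgroup.mem_centralizer_singleton_iff]
        calc q₀ * α = (α * q₀ * α⁻¹ * q₀⁻¹)⁻¹ * (α * q₀) := by group
          _ = α * q₀ := by rw [h]; group
      · exact h
    have hαz : α * z = z * α := Subgroup.mem_centralizer_singleton_iff.mp hαC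
    refine ⟨q₀, hq₀Q, ?_⟩
    calc q₀ * α * q₀⁻¹ = (α * q₀ * α⁻¹ * q₀⁻¹)⁻¹ * α := by group
      _ = z⁻¹ * α := by rw [hcz]
      _ = α * z := by rw [hzinv, hαz]

end Cfsg.Agent.S1784
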