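import Cfsg.Statements.S1785
import Cfsg.Agent.Lib.Helper14.Basic
import Mathlib

set_option autoImplicit false
open Cfsg

namespace Cfsg.Agent.S1785

open Cfsg.Agent.Lib.Helper14 (ea_comm ea_of_forall ea_of_le ea_sup ea_zpowers card_sup_mul_card_inf)

variable {X : Type*} [Group X]

theorem sq_eq_one {A : Subgroup X} (hA : IsElementaryAbelian 2 A) : ∀ a ∈ A, a * a = 1 := by
  intro a ha
  have := hA.2 a ha
  rwa [pow_two] at this

/-- An involution `v` normalizing an elementary abelian 2-group `E'` centralizes at least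
`√|E'|` elements of it. -/
theorem card_le_sq [Finite X] (E' : Subgroup X) (hcomm : ∀ x ∈ E', ∀ y ∈ E', x * y = y * x)
    (hexp : ∀ x ∈ E', x * x = 1) (v : X) (hv : v * v = 1) (hn : ∀ x ∈ E', v * x * v⁻¹ ∈ E') :
    Nat.card E' ≤ Nat.card (E' ⊓ Subgroup.centralizer {v} : Subgroup X) ^ 2 := by
  have hvinv : v⁻¹ = v := inv_eq_of_mul_eq_one_left hv
  let φ : ↥E' →* ↥E' :=
    { toFun := fun x => ⟨x * (v * x * v⁻¹), E'.mul_mem x.2 (hn x x.2)⟩
      map_one' := by ext; simp
      map_mul' := by
        intro x y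
        ext
        simp only [Subgroup.coe_mul]
        have h := hcomm y y.2 (v * x * v⁻¹) (hn x x.2)
        calc (x : X) * y * (v * ((x : X) * y) * v⁻¹)
            = x * (y * (v * x * v⁻¹)) * (v * y * v⁻¹) := by group
          _ = x * ((v * x * v⁻¹) * y) * (v * y * v⁻¹) := by rw [h]
          _ = x * (v * x * v⁻¹) * (y * (v * y * v⁻¹)) := by group }
  have hφ : ∀ x : ↥E', ((φ x : ↥E') : X) = x * (v * x * v⁻¹) := fun x => rfl
  have hker : Nat.card φ.ker ≤ Nat.card (E' ⊓ Subgroup.centralizer {v} : Subgroup X) := by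
    have hmem : ∀ x : φ.ker, ((x : ↥E') : X) ∈ (E' ⊓ Subgroup.centralizer {v} : Subgroup X) := by
      intro x
      refine Subgroup.mem_inf.mpr ⟨(x : ↥E').2, ?_⟩
      rw [Subgroup.mem_centralizer_singleton_iff]
      have hx : φ (x : ↥E') = 1 := MonoidHom.mem_ker.mp x.2
      have hx' : ((x : ↥E') : X) * (v * ((x : ↥E') : X) * v⁻¹) = 1 := by
        rw [← hφ, hx]; rfl
      have hxx := hexp _ (x : ↥E').2
      have h1 : v * ((x : ↥E') : X) * v⁻¹ = (x : ↥E') := by
        calc v * ((x : ↥E') : X) * v⁻¹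
            = (((x : ↥E') : X) * ((x : ↥E') : X)) * (v * ((x : ↥E') : X) * v⁻¹) := by
              rw [hxx, one_mul]
          _ = ((x : ↥E') : X) * (((x : ↥E') : X) * (v * ((x : ↥E') : X) * v⁻¹)) := by group
          _ = (x : ↥E') := by rw [hx', mul_one]
      calc ((x : ↥E') : X) * v = (v * ((x : ↥E') : X) * v⁻¹) * v := by rw [h1]
        _ = v * (x : ↥E') := by group
    apply Nat.card_le_card_of_injective (fun x : φ.ker => (⟨((x : ↥E') : X), hmem x⟩ :
      (E' ⊓ Subgroup.centralizer {v} : Subgroup X)))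
    intro x y hxy
    have := congrArg (fun y : (E' ⊓ Subgroup.centralizer {v} : Subgroup X) => (y : X)) hxy
    exact Subtype.ext (Subtype.ext this)
  have hrange : Nat.card φ.range ≤ Nat.card (E' ⊓ Subgroup.centralizer {v} : Subgroup X) := by
    have hmem : ∀ y : φ.range, ((y : ↥E') : X) ∈ (E' ⊓ Subgroup.centralizer {v} : Subgroup X) := by
      intro y
      refine Subgroup.mem_inf.mpr ⟨(y : ↥E').2, ?_⟩
      rw [Subgroup.mem_centralizer_singleton_iff]
      obtain ⟨x, hx⟩ := y.2
      have hx' : ((y : ↥E') : X) = (x : X) * (v * (x : X) * v⁻¹) := by rw [← hφ, hx]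
      have h := hcomm x x.2 (v * x * v⁻¹) (hn x x.2)
      rw [hx']
      calc (x : X) * (v * (x : X) * v⁻¹) * v = (v * (x : X) * v⁻¹) * x * v := by rw [h]
        _ = v * ((x : X) * (v⁻¹ * (x : X) * v)) := by group
        _ = v * ((x : X) * (v * (x : X) * v⁻¹)) := by rw [hvinv]
    apply Nat.card_le_card_of_injective (fun y : φ.range => (⟨((y : ↥E') : X), hmem y⟩ :
      (E' ⊓ Subgroup.centralizer {v} : Subgroup X)))
    intro x y hxy
    have := congrArg (fun y : (E' ⊓ Subgroup.centralizer {v} : Subgroup X) => (y : X)) hxy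
    exact Subtype.ext (Subtype.ext this)
  have h1 : Nat.card φ.ker * φ.ker.index = Nat.card ↥E' := Subgroup.card_mul_index φ.ker
  have h2 : φ.ker.index = Nat.card φ.range := Subgroup.index_ker φ
  calc Nat.card E' = Nat.card φ.ker * Nat.card φ.range := by rw [← h2, h1]
    _ ≤ Nat.card (E' ⊓ Subgroup.centralizer {v} : Subgroup X) *
        Nat.card (E' ⊓ Subgroup.centralizer {v} : Subgroup X) := Nat.mul_le_mul hker hrange
    _ = Nat.card (E' ⊓ Subgroup.centralizer {v} : Subgroup X) ^ 2 := (pow_two _).symm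

theorem mem_zpowers_invol {e x : X} (he : e * e = 1) (hx : x ∈ Subgroup.zpowers e) :
    x = 1 ∨ x = e := by
  obtain ⟨k, rfl⟩ := Subgroup.mem_zpowers_iff.mp hx
  have he2 : e ^ (2 : ℤ) = 1 := by rw [zpow_two]; exact he
  rcases Int.emod_two_eq_zero_or_one k with h | h
  · left
    have : k = 2 * (k / 2) := by omega
    rw [this, zpow_mul, he2, one_zpow]
  · right
    have : k = 2 * (k / 2) + 1 := by omega
    rw [this, zpow_add, zpow_mul, he2, one_zpow, one_mul, zpow_one]

/-- Adjoining a commuting involution outside `V` doubles an elementary abelian 2-group. -/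
theorem ext_props {V : Subgroup X} (hV : IsElementaryAbelian 2 V) {e : X}
    (he : e * e = 1) (heV : e ∉ V) (hc : ∀ a ∈ V, e * a = a * e) :
    IsElementaryAbelian 2 (V ⊔ Subgroup.zpowers e) ∧
      Nat.card (V ⊔ Subgroup.zpowers e : Subgroup X) = 2 * Nat.card V := by
  haveI : Fact (Nat.Prime 2) := ⟨Nat.prime_two⟩
  have he1 : e ≠ 1 := fun h => heV (h ▸ V.one_mem)
  have hcz : ∀ a ∈ V, ∀ b ∈ Subgroup.zpowers e, a * b = b * a := by
    intro a ha b hb
    rcases mem_zpowers_invol he hb with rfl | rfl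
    · simp
    · exact (hc a ha).symm
  refine ⟨ea_sup hV (ea_zpowers (by rw [pow_two]; exact he)) hcz, ?_⟩
  have hinf : V ⊓ Subgroup.zpowers e = ⊥ := by
    rw [eq_bot_iff]
    intro x hx
    obtain ⟨hxV, hxz⟩ := Subgroup.mem_inf.mp hx
    rcases mem_zpowers_invol he hxz with rfl | rfl
    · exact Subgroup.mem_bot.mpr rfl
    · exact absurd hxV heV
  have hnorm : V ≤ Subgroup.normalizer ((Subgroup.zpowers e : Subgroup X) : Set X) := by
    refine le_trans ?_ (Subgroup.centralizer_le_normalizer _)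
    intro a ha
    rw [Subgroup.mem_centralizer_iff]
    intro b hb
    exact (hcz a ha b hb).symm
  have hcard := card_sup_mul_card_inf hnorm
  rw [hinf, Subgroup.card_bot, mul_one, Nat.card_zpowers,
    orderOf_eq_prime (by rw [pow_two]; exact he) he1] at hcard
  rw [hcard, mul_comm]

/-- The chain inequality. -/
theorem chain_bound [Finite X] (E : Subgroup X) [hEn : E.Normal] (hE : IsElementaryAbelian 2 E)
    (A : Subgroup X) (hA : IsElementaryAbelian 2 A) (D : Subgroup X) (hDE : D ≤ E) :
    ∀ n : ℕ, ∀ K : Subgroup X, Nat.card K = n → D ≤ K → K ≤ A →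
      Nat.card E ≤ Nat.card (E ⊓ Subgroup.centralizer (K : Set X) : Subgroup X) ^
        (Nat.card K / Nat.card D) := by
  intro n
  induction n using Nat.strong_induction_on with
  | _ n ih =>
    intro K hKn hDK hKA
    by_cases hK : K = D
    · have h1 : E ⊓ Subgroup.centralizer (K : Set X) = E := by
        apply inf_eq_left.mpr
        intro x hx
        rw [Subgroup.mem_centralizer_iff]
        intro k hk
        exact ea_comm hE k (hDE (hK ▸ hk)) x hx
      rw [h1, hK, Nat.div_self Nat.card_pos, pow_one]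
    · have hlt : D < K := lt_of_le_of_ne hDK (Ne.symm hK)
      obtain ⟨K1, -, hmax⟩ := Finite.exists_le_maximal
        (p := fun K1 : Subgroup X => D ≤ K1 ∧ K1 < K) (a := D) ⟨le_refl _, hlt⟩
      obtain ⟨hDK1, hK1K⟩ := hmax.prop
      obtain ⟨h, hhK, hhK1⟩ := SetLike.exists_of_lt hK1K
      have hle : K1 ⊔ Subgroup.zpowers h ≤ K :=
        sup_le hK1K.le ((Subgroup.zpowers_le).mpr hhK)
      have hsup : K1 ⊔ Subgroup.zpowers h = K := by
        by_contra hne
        have hlt' : K1 ⊔ Subgroup.zpowers h < K := lt_of_le_of_ne hle hne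
        have := hmax.le_of_ge ⟨le_trans hDK1 le_sup_left, hlt'⟩ le_sup_left
        exact hhK1 (this (Subgroup.mem_sup_right (Subgroup.mem_zpowers h)))
      have hcard : 2 * Nat.card K1 ≤ Nat.card K := by
        obtain ⟨m, hm⟩ := Subgroup.card_dvd_of_le hK1K.le
        have hK1pos : 0 < Nat.card K1 := Nat.card_pos
        have hm1 : m ≠ 1 := by
          intro h1
          rw [h1, Nat.mul_one] at hm
          exact hK1K.ne (Subgroup.eq_of_le_of_card_ge hK1K.le (le_of_eq hm))
        have hm0 : m ≠ 0 := by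
          intro h0
          rw [h0, Nat.mul_zero] at hm
          have : 0 < Nat.card K := Nat.card_pos
          omega
        have : 2 ≤ m := by omega
        rw [hm, Nat.mul_comm]
        exact Nat.mul_le_mul_left _ this
      have hlt2 : Nat.card K1 < n := by
        rw [← hKn]
        have hK1pos : 0 < Nat.card K1 := Nat.card_pos
        omega
      have hIH := ih (Nat.card K1) hlt2 K1 rfl hDK1 (hK1K.le.trans hKA)
      have hhA : h ∈ A := hKA hhK
      have hF := card_le_sq (E ⊓ Subgroup.centralizer (K1 : Set X))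
        (fun x hx y hy => ea_comm hE x hx.1 y hy.1) (fun x hx => sq_eq_one hE x hx.1) h
        (sq_eq_one hA h hhA)
        (by
          intro x hx
          obtain ⟨hxE, hxC⟩ := Subgroup.mem_inf.mp hx
          refine Subgroup.mem_inf.mpr ⟨hEn.conj_mem x hxE h, ?_⟩
          rw [Subgroup.mem_centralizer_iff]
          intro k hk
          have hkh : k * h = h * k := ea_comm hA k (hKA (hK1K.le hk)) h hhA
          have hkx : k * x = x * k := Subgroup.mem_centralizer_iff.mp hxC k hk
          have hkh' : k * h⁻¹ = h⁻¹ * k := by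
            calc k * h⁻¹ = h⁻¹ * (h * k) * h⁻¹ := by group
              _ = h⁻¹ * (k * h) * h⁻¹ := by rw [hkh]
              _ = h⁻¹ * k := by group
          calc k * (h * x * h⁻¹) = (k * h) * x * h⁻¹ := by group
            _ = h * (k * x) * h⁻¹ := by rw [hkh]; group
            _ = h * x * (k * h⁻¹) := by rw [hkx]; group
            _ = h * x * h⁻¹ * k := by rw [hkh']; group)
      have hcent : (E ⊓ Subgroup.centralizer (K1 : Set X)) ⊓ Subgroup.centralizer {h} ≤
          E ⊓ Subgroup.centralizer (K : Set X) := by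
        intro u hu
        obtain ⟨hu1, hu2⟩ := Subgroup.mem_inf.mp hu
        obtain ⟨huE, huC⟩ := Subgroup.mem_inf.mp hu1
        refine Subgroup.mem_inf.mpr ⟨huE, ?_⟩
        have hK1u : K1 ≤ Subgroup.centralizer {u} := by
          intro k hk
          rw [Subgroup.mem_centralizer_singleton_iff]
          exact (Subgroup.mem_centralizer_iff.mp huC k hk)
        have hhu : Subgroup.zpowers h ≤ Subgroup.centralizer {u} := by
          rw [Subgroup.zpowers_le, Subgroup.mem_centralizer_singleton_iff]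
          exact (Subgroup.mem_centralizer_singleton_iff.mp hu2).symm
        have hKu : K ≤ Subgroup.centralizer {u} := by
          rw [← hsup]; exact sup_le hK1u hhu
        rw [Subgroup.mem_centralizer_iff]
        intro k hk
        exact (Subgroup.mem_centralizer_singleton_iff.mp (hKu hk))
      have hc1 : Nat.card (E ⊓ Subgroup.centralizer (K1 : Set X) : Subgroup X) ≤
          Nat.card (E ⊓ Subgroup.centralizer (K : Set X) : Subgroup X) ^ 2 :=
        le_trans hF (Nat.pow_le_pow_left (Subgroup.card_le_of_le hcent) 2)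
      have hj : 2 * (Nat.card K1 / Nat.card D) ≤ Nat.card K / Nat.card D := by
        obtain ⟨j1, hj1⟩ := Subgroup.card_dvd_of_le hDK1
        have hDpos : 0 < Nat.card D := Nat.card_pos
        rw [hj1, Nat.mul_div_cancel_left _ hDpos, Nat.le_div_iff_mul_le hDpos]
        calc 2 * j1 * Nat.card D = 2 * (Nat.card D * j1) := by ring
          _ = 2 * Nat.card K1 := by rw [hj1]
          _ ≤ Nat.card K := hcard
      have hcpos : 0 < Nat.card (E ⊓ Subgroup.centralizer (K : Set X) : Subgroup X) :=
        Nat.card_pos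
      calc Nat.card E
          ≤ Nat.card (E ⊓ Subgroup.centralizer (K1 : Set X) : Subgroup X) ^
              (Nat.card K1 / Nat.card D) := hIH
        _ ≤ (Nat.card (E ⊓ Subgroup.centralizer (K : Set X) : Subgroup X) ^ 2) ^
              (Nat.card K1 / Nat.card D) := Nat.pow_le_pow_left hc1 _
        _ = Nat.card (E ⊓ Subgroup.centralizer (K : Set X) : Subgroup X) ^
              (2 * (Nat.card K1 / Nat.card D)) := by rw [← pow_mul]
        _ ≤ Nat.card (E ⊓ Subgroup.centralizer (K : Set X) : Subgroup X) ^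
              (Nat.card K / Nat.card D) := Nat.pow_le_pow_right hcpos hj

/-- An elementary abelian subgroup of order 4 or 8 is centralized by an element of `E`
outside it. -/
theorem exists_centralizing [Finite X] (E : Subgroup X) [E.Normal]
    (hE : IsElementaryAbelian 2 E) (hE32 : 32 ≤ Nat.card E)
    (A : Subgroup X) (hA : IsElementaryAbelian 2 A) (hcard : Nat.card A = 4 ∨ Nat.card A = 8) :
    ∃ e ∈ E, e ∉ A ∧ e * e = 1 ∧ ∀ a ∈ A, e * a = a * e := by
  by_contra hcon
  push Not at hcon
  have hsub : E ⊓ Subgroup.centralizer (A : Set X) ≤ A ⊓ E := by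
    intro e he
    obtain ⟨heE, heC⟩ := Subgroup.mem_inf.mp he
    refine Subgroup.mem_inf.mpr ⟨?_, heE⟩
    by_contra heA
    obtain ⟨a, ha, hne⟩ := hcon e heE heA (sq_eq_one hE e heE)
    exact hne (Subgroup.mem_centralizer_iff.mp heC a ha).symm
  have hb := chain_bound E hE A hA (A ⊓ E) inf_le_right (Nat.card A) A rfl inf_le_left le_rfl
  have hc : Nat.card (E ⊓ Subgroup.centralizer (A : Set X) : Subgroup X) ≤
      Nat.card (A ⊓ E : Subgroup X) := Subgroup.card_le_of_le hsub
  have hd : Nat.card (A ⊓ E : Subgroup X) ∣ Nat.card A := Subgroup.card_dvd_of_le inf_le_left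
  have hb' : 32 ≤ Nat.card (A ⊓ E : Subgroup X) ^ (Nat.card A / Nat.card (A ⊓ E : Subgroup X)) :=
    le_trans hE32 (le_trans hb (Nat.pow_le_pow_left hc _))
  generalize Nat.card (A ⊓ E : Subgroup X) = d at hd hb'
  rcases hcard with h | h
  · rw [h] at hd hb'
    have hle : d ≤ 4 := Nat.le_of_dvd (by norm_num) hd
    interval_cases d <;> revert hd hb' <;> decide
  · rw [h] at hd hb'
    have hle : d ≤ 8 := Nat.le_of_dvd (by norm_num) hd
    interval_cases d <;> revert hd hb' <;> decide

/-- A hyperplane of `A` containing a proper subgroup `D`. -/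
theorem exists_hyperplane [Finite X] {A D : Subgroup X} (hA : IsElementaryAbelian 2 A)
    (hDA : D ≤ A) (hne : D ≠ A) :
    ∃ A₀ : Subgroup X, D ≤ A₀ ∧ A₀ ≤ A ∧ 2 * Nat.card A₀ = Nat.card A := by
  have hlt : D < A := lt_of_le_of_ne hDA hne
  obtain ⟨K1, -, hmax⟩ := Finite.exists_le_maximal
    (p := fun K1 : Subgroup X => D ≤ K1 ∧ K1 < A) (a := D) ⟨le_refl _, hlt⟩
  obtain ⟨hDK1, hK1A⟩ := hmax.prop
  obtain ⟨h, hhA, hhK1⟩ := SetLike.exists_of_lt hK1A
  have hle : K1 ⊔ Subgroup.zpowers h ≤ A :=
    sup_le hK1A.le ((Subgroup.zpowers_le).mpr hhA)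
  have hsup : K1 ⊔ Subgroup.zpowers h = A := by
    by_contra hne
    have hlt' : K1 ⊔ Subgroup.zpowers h < A := lt_of_le_of_ne hle hne
    have := hmax.le_of_ge ⟨le_trans hDK1 le_sup_left, hlt'⟩ le_sup_left
    exact hhK1 (this (Subgroup.mem_sup_right (Subgroup.mem_zpowers h)))
  have := (ext_props (ea_of_le hA hK1A.le) (sq_eq_one hA h hhA) hhK1
    (fun a ha => ea_comm hA h hhA a (hK1A.le ha))).2
  exact ⟨K1, hDK1, hK1A.le, by rw [← this, hsup]⟩

/-- Let X be a finite 2-group having a normal elementary abelian subgroup of order at least 32. Then (a) for any two elementary abelian subgroups A, B of X of order 8 there is a chain A = A₁, A₂, …, Aₙ = B of elementary abelian subgroups of order 8 in which consecutive members commute elementwise; and (b) every elementary abelian subgroup of X of order 4 is contained in an elementary abelian subgroup of order 8. -/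
theorem result {X : Type*} [Group X] [Finite X]
    (hX : IsPGroup 2 X) (E : Subgroup X) [E.Normal] (hE : Cfsg.IsElementaryAbelian 2 E) (hE32 : 32 ≤ Nat.card ↥E) :
    (∀ A B : Subgroup X, Cfsg.IsElementaryAbelian 2 A → Nat.card ↥A = 8 → Cfsg.IsElementaryAbelian 2 B → Nat.card ↥B = 8 →
        Relation.ReflTransGen
          (fun C D : Subgroup X => Cfsg.IsElementaryAbelian 2 C ∧ Nat.card ↥C = 8 ∧ Cfsg.IsElementaryAbelian 2 D ∧ Nat.card ↥D = 8 ∧ ⁅C, D⁆ = ⊥)
          A B) ∧
      (∀ V : Subgroup X, Cfsg.IsElementaryAbelian 2 V → Nat.card ↥V = 4 →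
        ∃ A : Subgroup X, V ≤ A ∧ Cfsg.IsElementaryAbelian 2 A ∧ Nat.card ↥A = 8) := by
  set r : Subgroup X → Subgroup X → Prop := fun C D : Subgroup X =>
    Cfsg.IsElementaryAbelian 2 C ∧ Nat.card ↥C = 8 ∧ Cfsg.IsElementaryAbelian 2 D ∧
      Nat.card ↥D = 8 ∧ ⁅C, D⁆ = ⊥ with hr
  have hsymm : ∀ C D : Subgroup X, r C D → r D C := by
    rintro C D ⟨h1, h2, h3, h4, h5⟩
    exact ⟨h3, h4, h1, h2, by rw [Subgroup.commutator_comm]; exact h5⟩
  have reach : ∀ m : ℕ, ∀ A : Subgroup X, IsElementaryAbelian 2 A → Nat.card A = 8 →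
      8 - Nat.card (A ⊓ E : Subgroup X) = m →
      ∃ A' : Subgroup X, IsElementaryAbelian 2 A' ∧ Nat.card A' = 8 ∧ A' ≤ E ∧
        Relation.ReflTransGen r A A' := by
    intro m
    induction m using Nat.strong_induction_on with
    | _ m ih =>
      intro A hA hA8 hm
      by_cases hAE : A ≤ E
      · exact ⟨A, hA, hA8, hAE, Relation.ReflTransGen.refl⟩
      · obtain ⟨e, heE, heA, hee, hec⟩ := exists_centralizing E hE hE32 A hA (Or.inr hA8)
        have hDne : A ⊓ E ≠ A := fun h => hAE (h ▸ inf_le_right)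
        obtain ⟨A₀, hDA₀, hA₀A, hA₀card⟩ := exists_hyperplane hA inf_le_left hDne
        have heA₀ : e ∉ A₀ := fun h => heA (hA₀A h)
        obtain ⟨hBea, hBcard⟩ := ext_props (ea_of_le hA hA₀A) hee heA₀
          (fun a ha => hec a (hA₀A ha))
        have hB8 : Nat.card (A₀ ⊔ Subgroup.zpowers e : Subgroup X) = 8 := by
          rw [hBcard, hA₀card, hA8]
        have hBle : A₀ ⊔ Subgroup.zpowers e ≤ Subgroup.centralizer (A : Set X) := by
          refine sup_le ?_ ?_
          · intro x hx
            rw [Subgroup.mem_centralizer_iff]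
            intro y hy
            exact ea_comm hA y hy x (hA₀A hx)
          · rw [Subgroup.zpowers_le, Subgroup.mem_centralizer_iff]
            intro y hy
            exact (hec y hy).symm
        have hcomm : ⁅A, A₀ ⊔ Subgroup.zpowers e⁆ = ⊥ := by
          rw [eq_bot_iff, Subgroup.commutator_le]
          intro a ha b hb
          rw [Subgroup.mem_bot, commutatorElement_eq_one_iff_mul_comm]
          exact Subgroup.mem_centralizer_iff.mp (hBle hb) a ha
        have hlt : Nat.card (A ⊓ E : Subgroup X) <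
            Nat.card ((A₀ ⊔ Subgroup.zpowers e) ⊓ E : Subgroup X) := by
          have hle : A ⊓ E ≤ (A₀ ⊔ Subgroup.zpowers e) ⊓ E :=
            le_inf (hDA₀.trans le_sup_left) inf_le_right
          have hne : A ⊓ E ≠ (A₀ ⊔ Subgroup.zpowers e) ⊓ E := by
            intro h
            have hmem : e ∈ (A₀ ⊔ Subgroup.zpowers e) ⊓ E :=
              Subgroup.mem_inf.mpr ⟨Subgroup.mem_sup_right (Subgroup.mem_zpowers e), heE⟩
            rw [← h] at hmem
            exact heA (Subgroup.mem_inf.mp hmem).1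
          exact lt_of_le_of_ne (Subgroup.card_le_of_le hle)
            (fun h => hne (Subgroup.eq_of_le_of_card_ge hle (le_of_eq h.symm)))
        have hle8 : Nat.card ((A₀ ⊔ Subgroup.zpowers e) ⊓ E : Subgroup X) ≤ 8 := by
          rw [← hB8]; exact Subgroup.card_le_of_le inf_le_left
        obtain ⟨A', hA', hA'8, hA'E, hchain⟩ :=
          ih (8 - Nat.card ((A₀ ⊔ Subgroup.zpowers e) ⊓ E : Subgroup X)) (by omega) _ hBea hB8 rfl
        exact ⟨A', hA', hA'8, hA'E,
          Relation.ReflTransGen.head ⟨hA, hA8, hBea, hB8, hcomm⟩ hchain⟩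
  constructor
  · intro A B hA hA8 hB hB8
    obtain ⟨A', hA', hA'8, hA'E, hchainA⟩ := reach _ A hA hA8 rfl
    obtain ⟨B', hB', hB'8, hB'E, hchainB⟩ := reach _ B hB hB8 rfl
    have hmid : r A' B' := ⟨hA', hA'8, hB', hB'8, by
      rw [eq_bot_iff, Subgroup.commutator_le]
      intro a ha b hb
      rw [Subgroup.mem_bot, commutatorElement_eq_one_iff_mul_comm]
      exact ea_comm hE a (hA'E ha) b (hB'E hb)⟩
    have hBrev : Relation.ReflTransGen r B' B :=
      Relation.ReflTransGen.mono (fun a b (h : Function.swap r a b) => hsymm b a h) _ _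
        (Relation.reflTransGen_swap.mpr hchainB)
    exact (hchainA.tail hmid).trans hBrev
  · intro V hV hV4
    obtain ⟨e, heE, heV, hee, hec⟩ := exists_centralizing E hE hE32 V hV (Or.inl hV4)
    obtain ⟨hBea, hBcard⟩ := ext_props hV hee heV hec
    exact ⟨V ⊔ Subgroup.zpowers e, le_sup_left, hBea, by rw [hBcard, hV4]⟩

end Cfsg.Agent.S1785
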