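import Mathlib
import Cfsg.Statements.S1850
import Cfsg.Agent.Lib.Helper40.EvenChar

set_option autoImplicit false
open Cfsg

namespace Cfsg.Agent.S1850

open Cfsg.Agent.Lib.Helper40

/-- Let G be a non-abelian finite simple QTKE-group and T a Sylow 2-subgroup of G. If U is a nontrivial 2-subgroup of G with U ∩ Z(T) ≠ 1, then F*(N_G(U)) = O₂(N_G(U)). -/
theorem result {G : Type*} [Group G] [Finite G] [IsSimpleGroup G]
    (hG : ¬ IsMulCommutative G) (hQ : Cfsg.IsQTKE G) (T : Sylow 2 G) (U : Subgroup G)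
    (hU : IsPGroup 2 ↥U) (hZ : U ⊓ ((T : Subgroup G) ⊓ Subgroup.centralizer ((T : Subgroup G) : Set G)) ≠ ⊥) :
    Subgroup.normalizer (U : Set G) ∈ Cfsg.calHe G := by
  have : Fact (Nat.Prime 2) := ⟨Nat.prime_two⟩
  obtain ⟨⟨z, hz⟩, hz1⟩ := (Subgroup.ne_bot_iff_exists_ne_one).mp hZ
  have hz1' : z ≠ 1 := fun h => hz1 (Subtype.ext h)
  obtain ⟨hzU, hzT, hzC⟩ := hz
  have hE := hQ.2.2
  have hV2 : IsPGroup 2 ↥(Subgroup.zpowers z) :=
    hU.to_le ((Subgroup.zpowers_le).mpr hzU)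
  have hVne : Subgroup.zpowers z ≠ ⊥ := by
    rw [Ne, Subgroup.zpowers_eq_bot]; exact hz1'
  have hTM : (T : Subgroup G) ≤ Subgroup.normalizer ((Subgroup.zpowers z : Subgroup G) : Set G) := by
    refine le_trans ?_ (Subgroup.centralizer_le_normalizer _)
    intro t ht
    rw [Subgroup.mem_centralizer_iff]
    intro h hh
    obtain ⟨k, rfl⟩ := Subgroup.mem_zpowers_iff.mp hh
    have h1 : t * z = z * t := (Subgroup.mem_centralizer_iff.mp hzC) t ht
    exact ((show Commute t z from h1).zpow_right k).eq.symm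
  have hM := hE _ ⟨Subgroup.zpowers z, hV2, hVne, rfl⟩ ⟨T, hTM⟩
  exact genFitting_eq_pCore_normalizer_of_elt 2 U hU hzU hM

end Cfsg.Agent.S1850
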