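import Cfsg.Statements.S1957
import Cfsg.Agent.Lib.Helper42.Sec31

set_option autoImplicit false
open Cfsg

namespace Cfsg.Agent.S1957

/-- Let `G` be a finite non-abelian simple group in which every local subgroup is solvable and which is of characteristic 2 type. Let `P` be a Sylow 2-subgroup of `G` and `U` a normal subgroup of `P` that is a four-group, with `U` central in `P` if the centre of `P` is not cyclic. Then `U` centralizes every subgroup of odd order of `G` that it normalizes. -/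
theorem result {G : Type*} [Group G] [Finite G]
    [IsSimpleGroup G] (hna : ¬ IsMulCommutative G) (hN : Cfsg.IsNGroup G) (h2 : Cfsg.IsCharacteristicTwoType G)
    (P : Sylow 2 G) (U : Subgroup G) (hUP : U ≤ (P : Subgroup G)) (hUn : (P : Subgroup G) ≤ Subgroup.normalizer (U : Set G))
    (hU4 : IsKleinFour ↥U)
    (hUZ : ¬ IsCyclic ↥((P : Subgroup G) ⊓ Subgroup.centralizer ((P : Subgroup G) : Set G)) →
      U ≤ Subgroup.centralizer ((P : Subgroup G) : Set G))
    (K : Subgroup G) (hK : Odd (Nat.card K)) (hUK : U ≤ Subgroup.normalizer (K : Set G)) :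
    U ≤ Subgroup.centralizer (K : Set G) := by
  haveI := hU4
  have hU2 : ∀ x ∈ U, x * x = 1 := fun x hx =>
    congrArg Subtype.val (IsKleinFour.mul_self (⟨x, hx⟩ : ↥U))
  have hUcomm : ∀ x ∈ U, ∀ y ∈ U, x * y = y * x := by
    intro x hx y hy
    have h1 := hU2 (x * y) (U.mul_mem hx hy)
    calc x * y = (x * y)⁻¹ := (inv_eq_of_mul_eq_one_right h1).symm
      _ = y⁻¹ * x⁻¹ := mul_inv_rev x y
      _ = y * x := by
        rw [inv_eq_of_mul_eq_one_right (hU2 y hy), inv_eq_of_mul_eq_one_right (hU2 x hx)]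
  have hU4' : ∀ x ∈ U, ∀ y ∈ U, ∀ w ∈ U, x ≠ 1 → y ≠ 1 → x ≠ y →
      w = 1 ∨ w = x ∨ w = y ∨ w = x * y := by
    intro x hx y hy w hw hx1 hy1 hxy
    by_contra hcon
    push Not at hcon
    have := IsKleinFour.eq_mul_of_ne_all (G := ↥U) (x := ⟨x, hx⟩) (y := ⟨y, hy⟩) (z := ⟨w, hw⟩)
      (fun h => hx1 (congrArg Subtype.val h)) (fun h => hy1 (congrArg Subtype.val h))
      (fun h => hxy (congrArg Subtype.val h)) (fun h => hcon.1 (congrArg Subtype.val h))
      (fun h => hcon.2.1 (congrArg Subtype.val h)) (fun h => hcon.2.2.1 (congrArg Subtype.val h))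
    exact hcon.2.2.2 (congrArg Subtype.val this)
  have hUcard : Nat.card U = 4 := IsKleinFour.card_four
  have hchar : ∀ t ∈ U, t ≠ 1 → Cfsg.IsOfCharacteristicTwo
      ↥(Subgroup.normalizer ((Subgroup.zpowers t : Subgroup G) : Set G)) := by
    intro t ht ht1
    apply h2.2
    · rintro ⟨d, hd⟩
      refine ⟨1, ?_⟩
      apply Subtype.ext
      show d ^ (2 ^ 1) = 1
      rcases Cfsg.Agent.Lib.Helper42.zpowers_cases (hU2 t ht) hd with h | h
      · rw [h]; simp
      · rw [h, pow_one, pow_two]; exact hU2 t ht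
    · intro hbot
      apply ht1
      have : t ∈ (⊥ : Subgroup G) := hbot ▸ Subgroup.mem_zpowers t
      exact Subgroup.mem_bot.mp this
  have key : ∀ t ∈ U, t ≠ 1 → ∀ k ∈ K, t * k = k * t → ∀ s ∈ U, s * k = k * s := by
    intro t ht ht1
    apply Cfsg.Agent.Lib.Helper42.four_centralizes_fixed (hU2 t ht) ht1 (hchar t ht ht1) U ht
      hUcomm _ _ hK hUK
    · intro x hx w hw hx1 hxt
      exact hU4' t ht x hx w hw ht1 hx1 (fun h => hxt h.symm)
    · exact Cfsg.Agent.Lib.Helper42.core_normalizes_four P U hUP hUn hUcomm hU2 hU4'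
        (by rw [hUcard]; norm_num) hUZ ht ht1
  intro s hs
  rw [Subgroup.mem_centralizer_iff]
  intro k hk
  by_cases hs1 : s = 1
  · rw [hs1]; simp
  obtain ⟨b, hb, hb1, hbs⟩ : ∃ b ∈ U, b ≠ 1 ∧ b ≠ s := by
    by_contra hall
    push Not at hall
    have hsub : (U : Set G) ⊆ {1, s} := by
      intro b hb
      by_cases hb1 : b = 1
      · exact Or.inl hb1
      · exact Or.inr (hall b hb hb1)
    have e1 : Nat.card U = (U : Set G).ncard := Nat.card_coe_set_eq _
    have h3 : (U : Set G).ncard ≤ 2 := by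
      calc (U : Set G).ncard ≤ ({1, s} : Set G).ncard := Set.ncard_le_ncard hsub (Set.toFinite _)
        _ ≤ ({s} : Set G).ncard + 1 := Set.ncard_insert_le _ _
        _ = 2 := by rw [Set.ncard_singleton]
    omega
  have hsb1 : s * b ≠ 1 := by
    intro h
    apply hbs
    have h4 : s⁻¹ = b := inv_eq_of_mul_eq_one_right h
    rw [← h4, inv_eq_of_mul_eq_one_right (hU2 s hs)]
  have hfin := Cfsg.Agent.Lib.Helper42.centralizes_of_fixed hK (hU2 s hs) (hU2 b hb)
    (hUcomm s hs b hb) (hUK hs) (hUK hb)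
    (fun k hk h => key b hb hb1 k hk h s hs)
    (fun k hk h => key (s * b) (U.mul_mem hs hb) hsb1 k hk h s hs) k hk
  exact hfin.symm

end Cfsg.Agent.S1957
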