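import Cfsg.Statements.S1966
import Cfsg.Agent.Lib.Helper42.Fusion

set_option autoImplicit false
open Cfsg

namespace Cfsg.Agent.S1966

open Cfsg.Agent.Lib.Helper42

theorem chain_of_normal {G : Type*} [Group G] {𝓕 : Set (Subgroup G)} {O : Subgroup G}
    (hO : O.Normal) : ∀ (L : List (Subgroup G × G)) (A : Set G), (O : Set G) ⊆ A →
    Chain 𝓕 A L → Chain {T | T ∈ 𝓕 ∧ O ≤ T} A L
  | [], _, _, _ => chain_nil _ _
  | (T, x) :: L, A, hOA, hc => by
    rw [chain_cons] at hc ⊢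
    refine ⟨⟨hc.1, hOA.trans hc.2.2.1⟩, hc.2.1, hc.2.2.1, ?_⟩
    refine chain_of_normal hO L _ (fun o ho => ⟨x * o * x⁻¹, hOA (hO.conj_mem o ho x), ?_⟩) hc.2.2.2
    group

/-- Let p be a prime, G a finite group with Sylow p-subgroup S and 𝓕 a conjugation family for S in G. Then the members of 𝓕 containing O_p(G) still form a conjugation family for S in G. -/
theorem result {G : Type*} [Group G] [Finite G] {p : ℕ} [Fact p.Prime] (S : Sylow p G) (𝓕 : Set (Subgroup G)) (h : Cfsg.IsConjugationFamily 𝓕 (S : Subgroup G)) : Cfsg.IsConjugationFamily {T : Subgroup G | T ∈ 𝓕 ∧ Cfsg.pCore p G ≤ T} (S : Subgroup G) := by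
  have hOn : (Cfsg.pCore p G).Normal := Subgroup.sSup_normal _ (fun H hH => hH.1)
  have hOp : IsPGroup p (Cfsg.pCore p G) :=
    Sylow.sSup_of_normal _ (fun H hH => hH.2) (fun H hH => hH.1)
  have hOS : Cfsg.pCore p G ≤ (S : Subgroup G) := hOp.le_sylow_of_normal S
  rw [isConjugationFamily_iff] at h ⊢
  obtain ⟨h1, h2⟩ := h
  refine ⟨fun T hT => h1 T hT.1, fun A g hne hA hAg => ?_⟩
  have hA' : A ∪ (Cfsg.pCore p G : Set G) ⊆ (S : Subgroup G) := Set.union_subset hA hOS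
  have hAg' : (fun a => g⁻¹ * a * g) '' (A ∪ (Cfsg.pCore p G : Set G)) ⊆ (S : Subgroup G) := by
    rintro _ ⟨a, ha | ha, rfl⟩
    · exact hAg ⟨a, ha, rfl⟩
    · have := hOn.conj_mem a ha g⁻¹
      rw [inv_inv] at this
      exact hOS this
  obtain ⟨L, hprod, hc⟩ := h2 _ g (hne.mono Set.subset_union_left) hA' hAg'
  exact ⟨L, hprod, (chain_of_normal hOn L _ Set.subset_union_right hc).mono L Set.subset_union_left⟩

end Cfsg.Agent.S1966
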