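import Cfsg.Statements.S1967
import Cfsg.Agent.Lib.Helper42.Fusion

set_option autoImplicit false
open Cfsg

namespace Cfsg.Agent.S1967

open Cfsg.Agent.Lib.Helper42 in
/-- Let p be a prime, G a finite group with Sylow p-subgroup S and W a conjugacy functor for p on G. Then W controls strong fusion in G if and only if, whenever T ≤ S and g ∈ G satisfy gTg⁻¹ ≤ S, one can write g = n c with n ∈ N_G(W(S)) and c ∈ C_G(T). -/
theorem result {G : Type*} [Group G] [Finite G] {p : ℕ} [Fact p.Prime] (S : Sylow p G) (W : Subgroup G → Subgroup G) (hW : Cfsg.IsConjugacyFunctor p W) : Cfsg.ControlsStrongFusionIn p W ⊤ ↔ ∀ (T : Subgroup G) (g : G), T ≤ (S : Subgroup G) → T.map (MulAut.conj g).toMonoidHom ≤ (S : Subgroup G) → ∃ n ∈ Subgroup.normalizer ((W (S : Subgroup G) : Subgroup G) : Set G), ∃ c ∈ Subgroup.centralizer (T : Set G), g = n * c := by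
  constructor
  · rintro ⟨T', hT'le, hT'p, hT'idx, hctl⟩ T g hT hTg
    have hsyl' : IsSylIn p T' ⊤ := ⟨hT'le, hT'p, hT'idx⟩
    obtain ⟨k, -, hk⟩ := hsyl'.conj_eq (sylow_isSylIn S)
    have hA : ((cj k T : Subgroup G) : Set G) ⊆ T' := by
      rw [← hk]; exact cj_mono hT
    have hAh : (fun a => (k * g * k⁻¹) * a * (k * g * k⁻¹)⁻¹) '' ((cj k T : Subgroup G) : Set G) ⊆ T' := by
      rintro _ ⟨a, ha, rfl⟩
      rw [SetLike.mem_coe, mem_cj] at ha
      rw [← hk]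
      have h1 : g * (k⁻¹ * a * k) * g⁻¹ ∈ cj g T := conj_mem_cj ha
      have h2 := conj_mem_cj (g := k) (hTg h1)
      have e : k * (g * (k⁻¹ * a * k) * g⁻¹) * k⁻¹ = (k * g * k⁻¹) * a * (k * g * k⁻¹)⁻¹ := by group
      rw [e] at h2
      exact h2
    obtain ⟨x, hx, hxa⟩ := hctl _ (k * g * k⁻¹) (Subgroup.mem_top _) hA hAh
    have hWT : W T' = cj k (W (S : Subgroup G)) := by
      rw [← hk]; exact (hW _ S.isPGroup').2.2 k
    have hn : k⁻¹ * x * k ∈ Subgroup.normalizer ((W (S : Subgroup G) : Subgroup G) : Set G) := by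
      rw [← mem_cj, ← normalizer_cj, ← hWT]; exact hx.2
    refine ⟨k⁻¹ * x * k, hn, (k⁻¹ * x * k)⁻¹ * g, ?_, by group⟩
    rw [Subgroup.mem_centralizer_iff]
    intro t ht
    have h3 := hxa (k * t * k⁻¹) (conj_mem_cj ht)
    have h4 : (k⁻¹ * x * k) * t * (k⁻¹ * x * k)⁻¹ = g * t * g⁻¹ := by
      have e1 : (k⁻¹ * x * k) * t * (k⁻¹ * x * k)⁻¹ = k⁻¹ * (x * (k * t * k⁻¹) * x⁻¹) * k := by group
      rw [e1, h3]; group
    calc t * ((k⁻¹ * x * k)⁻¹ * g) = (k⁻¹ * x * k)⁻¹ * ((k⁻¹ * x * k) * t * (k⁻¹ * x * k)⁻¹) * g := by group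
      _ = (k⁻¹ * x * k)⁻¹ * (g * t * g⁻¹) * g := by rw [h4]
      _ = (k⁻¹ * x * k)⁻¹ * g * t := by group
  · intro h
    refine ⟨S, le_top, S.isPGroup', (sylow_isSylIn S).2.2, ?_⟩
    intro A g _ hA hAg
    have hB : Subgroup.closure A ≤ (S : Subgroup G) := (Subgroup.closure_le _).mpr hA
    obtain ⟨n, hn, c, hc, hg⟩ := h _ g hB (image_conj_subset_iff.mp hAg)
    refine ⟨n, ⟨Subgroup.mem_top _, hn⟩, fun a ha => ?_⟩
    have hca := (Subgroup.mem_centralizer_iff.mp hc) a (Subgroup.subset_closure ha)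
    rw [hg]
    calc n * a * n⁻¹ = n * (a * c) * c⁻¹ * n⁻¹ := by group
      _ = n * (c * a) * c⁻¹ * n⁻¹ := by rw [hca]
      _ = n * c * a * (n * c)⁻¹ := by group

end Cfsg.Agent.S1967
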