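import Cfsg.Statements.S1968
import Cfsg.Agent.Lib.Helper42.Fusion3

set_option autoImplicit false
open Cfsg

namespace Cfsg.Agent.S1968

open Cfsg.Agent.Lib.Helper42

theorem chain_moves {G : Type*} [Group G] {𝓕 : Set (Subgroup G)} :
    ∀ (L : List (Subgroup G × G)) (A : Set G), Chain 𝓕 A L →
      rc ((L.map Prod.snd).prod) A ≠ A →
      ∃ T ∈ 𝓕, ∃ x ∈ Subgroup.normalizer (T : Set G), A ⊆ T ∧ rc x A ≠ A
  | [], A, _, hne => absurd (by simp [rc_one]) hne
  | (T, x) :: L, A, hc, hne => by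
    rw [chain_cons] at hc
    by_cases h : rc x A = A
    · have hc' : Chain 𝓕 (rc x A) L := hc.2.2.2
      rw [h] at hc'
      apply chain_moves L A hc'
      simp only [List.map_cons, List.prod_cons] at hne
      rw [← rc_rc, h] at hne
      exact hne
    · exact ⟨T, hc.1, x, hc.2.1, hc.2.2.1, h⟩

/-- Let p be a prime, G a finite group with Sylow p-subgroup S and W a conjugacy functor for p on G with Z(P) ≤ W(P) for every p-subgroup P. Let A be a subgroup of Z(S) normalized by N_G(W(S)) that is not weakly closed in S with respect to G. Then there is a subgroup T of S, well placed in S with respect to W, such that: A ≤ T; N_G(W(N_S(T))) normalizes A; N_S(T) is a Sylow p-subgroup of N_G(T); A ≤ Z(N_S(T)); and A is not weakly closed in N_S(T) with respect to N_G(T), that is, some N_G(T)-conjugate of A other than A lies in N_S(T). -/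
theorem result {G : Type*} [Group G] [Finite G] {p : ℕ} [Fact p.Prime] (S : Sylow p G) (W : Subgroup G → Subgroup G) (hW : Cfsg.IsConjugacyFunctor p W) (hWZ : ∀ P : Subgroup G, IsPGroup p ↥P → P ⊓ Subgroup.centralizer (P : Set G) ≤ W P) (A : Subgroup G) (hAZ : A ≤ (S : Subgroup G) ⊓ Subgroup.centralizer ((S : Subgroup G) : Set G)) (hAN : Subgroup.normalizer ((W (S : Subgroup G) : Subgroup G) : Set G) ≤ Subgroup.normalizer ((A : Subgroup G) : Set G)) (hnwc : ¬ Cfsg.IsWeaklyClosed A (S : Subgroup G)) : ∃ T : Subgroup G, Cfsg.IsWellPlaced p W (S : Subgroup G) T ∧ A ≤ T ∧ Subgroup.normalizer ((W ((S : Subgroup G) ⊓ Subgroup.normalizer ((T : Subgroup G) : Set G)) : Subgroup G) : Set G) ≤ Subgroup.normalizer ((A : Subgroup G) : Set G) ∧ ¬ p ∣ ((S : Subgroup G) ⊓ Subgroup.normalizer ((T : Subgroup G) : Set G)).relIndex (Subgroup.normalizer ((T : Subgroup G) : Set G)) ∧ A ≤ Subgroup.centralizer (((S : Subgroup G) ⊓ Subgroup.normalizer ((T : Subgroup G) : Set G) : Subgroup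 G) : Set G) ∧ ∃ g ∈ Subgroup.normalizer ((T : Subgroup G) : Set G), A.map (MulAut.conj g).toMonoidHom ≤ (S : Subgroup G) ⊓ Subgroup.normalizer ((T : Subgroup G) : Set G) ∧ A.map (MulAut.conj g).toMonoidHom ≠ A := by
  classical
  have hAS : A ≤ (S : Subgroup G) := hAZ.trans inf_le_left
  have hAC : A ≤ Subgroup.centralizer ((S : Subgroup G) : Set G) := hAZ.trans inf_le_right
  have hex : ∃ g : G, cj g A ≤ (S : Subgroup G) ∧ cj g A ≠ A := by
    by_contra hcon
    push Not at hcon
    exact hnwc ⟨hAS, hcon⟩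
  obtain ⟨g, hg, hgne⟩ := hex
  have hfam := wellPlaced_conjFamily S hW
  rw [isConjugationFamily_iff] at hfam
  have hAg : (fun a => (g⁻¹)⁻¹ * a * g⁻¹) '' (A : Set G) ⊆ (S : Subgroup G) := by
    have := coe_cj g A
    intro z hz
    have hz' : z ∈ rc g⁻¹ (A : Set G) := hz
    rw [← this] at hz'
    exact hg hz'
  obtain ⟨L, hprod, hc⟩ := hfam.2 (A : Set G) g⁻¹ ⟨1, A.one_mem⟩ hAS hAg
  have hne' : rc ((L.map Prod.snd).prod) (A : Set G) ≠ A := by
    rw [hprod, ← coe_cj]
    intro h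
    exact hgne (SetLike.coe_injective h)
  obtain ⟨T₀, hT₀, x, hx, hAT₀, hxne⟩ := chain_moves L _ hc hne'
  let 𝒯 : Set (Subgroup G) := {T | Cfsg.IsWellPlaced p W (S : Subgroup G) T ∧ A ≤ T ∧
    ∃ g ∈ Subgroup.normalizer ((T : Subgroup G) : Set G), cj g A ≠ A}
  have hT₀' : T₀ ∈ 𝒯 := by
    refine ⟨hT₀, hAT₀, x⁻¹, Subgroup.inv_mem _ hx, ?_⟩
    intro h
    apply hxne
    have := coe_cj x⁻¹ A
    rw [inv_inv, h] at this
    exact this.symm
  obtain ⟨T, hT, hmax⟩ := Set.exists_max_image 𝒯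
    (fun T => Nat.card ((S : Subgroup G) ⊓ Subgroup.normalizer ((T : Subgroup G) : Set G) : Subgroup G))
    (Set.toFinite 𝒯) ⟨T₀, hT₀'⟩
  obtain ⟨hTwp, hAT, y, hy, hyne⟩ := hT
  refine ⟨T, hTwp, hAT, ?_, hTwp.2 0, ?_, y, hy, ?_, hyne⟩
  · by_cases hRS : (S : Subgroup G) ⊓ Subgroup.normalizer ((T : Subgroup G) : Set G) = (S : Subgroup G)
    · rw [hRS]; exact hAN
    · intro z hz
      by_contra hzA
      have hAR : A ≤ (S : Subgroup G) ⊓ Subgroup.normalizer ((T : Subgroup G) : Set G) :=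
        le_inf hAS (hAT.trans Subgroup.le_normalizer)
      have hAWR : A ≤ W ((S : Subgroup G) ⊓ Subgroup.normalizer ((T : Subgroup G) : Set G)) :=
        (le_inf hAR (hAC.trans (Subgroup.centralizer_le inf_le_left))).trans
          (hWZ _ S.isPGroup'.to_inf_left)
      have hmem : W ((S : Subgroup G) ⊓ Subgroup.normalizer ((T : Subgroup G) : Set G)) ∈ 𝒯 :=
        ⟨wellPlaced_succ hW S.isPGroup' hTwp, hAWR, z, hz, fun h => hzA (cj_eq_self_iff.mp h)⟩
      have h1 := hmax _ hmem
      have h2 := card_lt_card_inf_normalizer S.isPGroup' inf_le_left hRS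
      have h3 : Nat.card ((S : Subgroup G) ⊓ Subgroup.normalizer
          (((S : Subgroup G) ⊓ Subgroup.normalizer ((T : Subgroup G) : Set G) : Subgroup G) : Set G) : Subgroup G) ≤
          Nat.card ((S : Subgroup G) ⊓ Subgroup.normalizer
            ((W ((S : Subgroup G) ⊓ Subgroup.normalizer ((T : Subgroup G) : Set G)) : Subgroup G) : Set G) : Subgroup G) :=
        Subgroup.card_le_of_le (inf_le_inf_left _ (conjFunctor_normalizer_le hW S.isPGroup'.to_inf_left))
      omega
  · exact hAC.trans (Subgroup.centralizer_le inf_le_left)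
  · have h1 : cj y A ≤ T := by
      have := cj_mono (g := y) hAT
      rwa [cj_eq_of_mem_normalizer hy] at this
    exact h1.trans (le_inf hTwp.1 Subgroup.le_normalizer)

end Cfsg.Agent.S1968
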