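import Cfsg.Statements.S1970
import Cfsg.Agent.Lib.Helper42.Sec6

set_option autoImplicit false
universe u
open Cfsg

namespace Cfsg.Agent.S1970

/-- Let p be a prime, G a finite group and W an isomorphism-invariant p-group functor (W assigns to every group Q a subgroup W(Q), nontrivial whenever Q is a nontrivial finite p-group, and every isomorphism from a finite p-group Q onto a group R carries W(Q) onto W(R)). Suppose that for every section G* = K/R of G with C_{G*}(O_p(G*)) ≤ O_p(G*) and every Sylow p-subgroup S* of G*, one has O_p(G*) ∩ (G*)' = O_p(G*) ∩ (N_{G*}(W(S*)))'. Then W controls transfer in every section G* of G: S* ∩ (G*)' = S* ∩ (N_{G*}(W(S*)))' for a Sylow p-subgroup S* of G*. -/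
theorem result {G : Type u} [Group G] [Finite G] {p : ℕ} [Fact p.Prime] (W : ∀ (Q : Type u) [Group Q], Subgroup Q) (hW : Cfsg.IsCharPFunctor.{u} p W) (hloc : ∀ (K R : Subgroup G) [hR : (R.subgroupOf K).Normal], Subgroup.centralizer ((Cfsg.pCore p (↥K ⧸ R.subgroupOf K) : Subgroup (↥K ⧸ R.subgroupOf K)) : Set (↥K ⧸ R.subgroupOf K)) ≤ Cfsg.pCore p (↥K ⧸ R.subgroupOf K) → ∀ T : Sylow p (↥K ⧸ R.subgroupOf K), Cfsg.pCore p (↥K ⧸ R.subgroupOf K) ⊓ commutator (↥K ⧸ R.subgroupOf K) = Cfsg.pCore p (↥K ⧸ R.subgroupOf K) ⊓ ⁅Subgroup.normalizer ((Cfsg.inducedFunctor (G := (↥K ⧸ R.subgroupOf K)) W ((T : Subgroup (↥K ⧸ R.subgroupOf K))) : Subgroup (↥K ⧸ R.subgroupOf K)) : Set (↥K ⧸ R.subgroupOf K)), Subgroup.normalizer ((Cfsg.inducedFunctor (G := (↥K ⧸ R.subgroupOf K)) W ((T : Subgroup (↥K ⧸ R.subgroupOf K))) : Subgroup (↥K ⧸ R.subgroupOf K)) : Set (↥K ⧸ R.subgroupOf K))⁆) : ∀ (K R : Subgroup G) [hR : (R.subgroupOf K).Normal], Cfsg.ControlsTransferIn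 p (Cfsg.inducedFunctor (G := (↥K ⧸ R.subgroupOf K)) W) ⊤ := by
  have key := Cfsg.Agent.Lib.Helper42.tr_of_sections_O hW (G := G) (fun K R hR hc T hT => by
    have := hloc K R hc (IsPGroup.toSylow hT.2.1
      (by rw [← Subgroup.relIndex_top_right]; exact hT.2.2))
    exact this)
  intro K R hR
  exact Cfsg.Agent.Lib.Helper42.controlsTransferIn_of_tr (key (↥K ⧸ R.subgroupOf K)
    ((Cfsg.Agent.Lib.Helper42.isSec_quotient _).trans (Cfsg.Agent.Lib.Helper42.isSec_subgroup K)))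

end Cfsg.Agent.S1970
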