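import Cfsg.Statements.S1980
import Mathlib

set_option autoImplicit false
open Cfsg
open scoped commutatorElement

namespace Cfsg.Agent.S1980

theorem abelian_le_centralizer {P : Type*} [Group P] (A : Subgroup P) (hA : IsMulCommutative ↥A) :
    A ≤ Subgroup.centralizer (A : Set P) := by
  intro a ha
  rw [Subgroup.mem_centralizer_iff]
  intro b hb
  have := hA.is_comm.comm (⟨b, hb⟩ : A) ⟨a, ha⟩
  exact congrArg Subtype.val this

theorem comm_le_of_normal {P : Type*} [Group P] (A Q : Subgroup P) [A.Normal] : ⁅A, Q⁆ ≤ A := by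
  rw [Subgroup.commutator_le]
  intro a ha q _
  have h1 : q * a⁻¹ * q⁻¹ ∈ A := Subgroup.Normal.conj_mem inferInstance a⁻¹ (A.inv_mem ha) q
  have h2 : ⁅a, q⁆ = a * (q * a⁻¹ * q⁻¹) := by rw [commutatorElement_def]; group
  rw [h2]
  exact A.mul_mem ha h1

/-- Let P be a finite p-group and A an abelian normal subgroup of P. Then A belongs to every family used to build the K-sequence of P: the class-two family, every lower-star family relative to an odd-indexed term, and every upper-star family relative to an even-indexed term. In particular A lies in every term of the K-sequence. -/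
theorem result {P : Type*} [Group P] [Finite P] {p : ℕ} [Fact p.Prime] (hP : IsPGroup p P) (A : Subgroup P) [A.Normal] (hA : IsMulCommutative ↥A) : A ∈ Cfsg.classTwoSubgroups P ∧ ∀ n : ℕ, A ∈ Cfsg.kLowerStarFamily (Cfsg.kSeqOdd P n) ∧ A ∈ Cfsg.kUpperStarFamily (Cfsg.kSeqEven P n) := by
  have hcen := abelian_le_centralizer A hA
  have h2 : A ∈ Cfsg.classTwoSubgroups P := by
    show ⁅A, A⁆ ≤ Subgroup.centralizer (A : Set P)
    exact (comm_le_of_normal A A).trans hcen
  refine ⟨h2, fun n => ⟨⟨h2, ?_, ?_⟩, ⟨h2, ?_⟩⟩⟩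
  · rw [Subgroup.normalizer_eq_top]; exact le_top
  · intro B _ _ _ _ _
    exact le_inf (comm_le_of_normal A B) ((comm_le_of_normal A B).trans hcen)
  · exact le_inf (comm_le_of_normal A _) ((comm_le_of_normal A _).trans hcen)

end Cfsg.Agent.S1980
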