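import Cfsg.Statements.S1981
import Cfsg.Agent.Lib.Helper42.KInf

set_option autoImplicit false
open Cfsg

namespace Cfsg.Agent.S1981

open Cfsg.Agent.Lib.Helper42 in
/-- Let P be a finite p-group generated by its abelian normal subgroups. Then both K-infinity subgroups of P equal P. -/
theorem result {P : Type*} [Group P] [Finite P] {p : ℕ} [Fact p.Prime] (hP : IsPGroup p P) (hgen : ⨆ A ∈ {A : Subgroup P | A.Normal ∧ IsMulCommutative ↥A}, A = ⊤) : Cfsg.kInfLower P = ⊤ ∧ Cfsg.kInfUpper P = ⊤ := by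
  have hlow : ∀ Q : Subgroup P, sSup (Cfsg.kLowerStarFamily Q) = ⊤ := by
    intro Q
    rw [eq_top_iff, ← hgen]
    refine iSup₂_le fun A hA => ?_
    haveI : A.Normal := hA.1
    exact le_sSup (normal_abelian_mem_lower A hA.2 Q)
  have hup : ∀ Q : Subgroup P, sSup (Cfsg.kUpperStarFamily Q) = ⊤ := by
    intro Q
    rw [eq_top_iff, ← hgen]
    refine iSup₂_le fun A hA => ?_
    haveI : A.Normal := hA.1
    exact le_sSup (normal_abelian_mem_upper A hA.2 Q)
  have hodd : ∀ n, Cfsg.kSeqOdd P n = ⊤ := by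
    intro n
    cases n with
    | zero => exact kSeqOdd_zero
    | succ n => rw [kSeqOdd_succ]; exact hup _
  have heven : ∀ n, Cfsg.kSeqEven P n = ⊤ := fun n => by rw [kSeqEven_eq]; exact hlow _
  constructor
  · show (⨆ n, Cfsg.kSeqEven P n) = ⊤
    simp [heven]
  · show (⨅ n, Cfsg.kSeqOdd P n) = ⊤
    simp [hodd]

end Cfsg.Agent.S1981
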