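import Cfsg.Statements.S1982
import Cfsg.Agent.Lib.Helper26.KQuot6

set_option autoImplicit false
universe u
open Cfsg

namespace Cfsg.Agent.S1982

/-- Let p be a prime, G a finite group with Sylow p-subgroup S, T = O_p(G), and A a characteristic subgroup of T with A/Z(A) elementary abelian, [T, A] ≤ Z(A), C_T(A) = Z(A), and such that every automorphism of T of order prime to p fixing A elementwise is trivial (a critical subgroup of T). Suppose that the lower or the upper K-infinity subgroup of S is not normal in G. Then there is an element g of S outside T with [A, g, g, g] ≤ Z(A) and [Z(A), g, g] = 1, and such that if moreover C_G(T) ≤ T then some chief factor X/Y of G with X ≤ A satisfies [X, g, g] ≤ Y but [X, g] ≰ Y. -/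
theorem result {G : Type u} [Group G] [Finite G] {p : ℕ} [Fact p.Prime] (S : Sylow p G) (A : Subgroup G) (hAT : A ≤ (Cfsg.pCore p G)) (hAchar : (A.subgroupOf (Cfsg.pCore p G)).Characteristic) (hA1 : ∀ a ∈ A, a ^ p ∈ A ⊓ Subgroup.centralizer ((A : Subgroup G) : Set G)) (hA2 : ⁅A, A⁆ ≤ Subgroup.centralizer ((A : Subgroup G) : Set G)) (hA3 : ⁅(Cfsg.pCore p G), A⁆ ≤ A ⊓ Subgroup.centralizer ((A : Subgroup G) : Set G)) (hA4 : (Cfsg.pCore p G) ⊓ Subgroup.centralizer ((A : Subgroup G) : Set G) = A ⊓ Subgroup.centralizer ((A : Subgroup G) : Set G)) (hA5 : ∀ φ : MulAut ↥(Cfsg.pCore p G), (orderOf φ).Coprime p → (∀ a : ↥(Cfsg.pCore p G), (a : G) ∈ A → φ a = a) → φ = 1) (hK : ¬ (Cfsg.inducedFunctor Cfsg.kInfLower (S : Subgroup G)).Normal ∨ ¬ (Cfsg.inducedFunctor Cfsg.kInfUpper (S : Subgroup G)).Normal) : ∃ g : G, g ∈ (S : Subgroup G) ∧ g ∉ (Cfsg.pCore p G) ∧ Cfsg.iterCommutator A (Subgroup.zpowers g) 3 ≤ A ⊓ Subgroup.centralizer ((A : Subgroup G) : Set G) ∧ ⁅⁅A ⊓ Subgroup.centralizer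 ((A : Subgroup G) : Set G), (Subgroup.zpowers g)⁆, (Subgroup.zpowers g)⁆ = ⊥ ∧ (Subgroup.centralizer (((Cfsg.pCore p G) : Subgroup G) : Set G) ≤ (Cfsg.pCore p G) → ∃ U V : Subgroup G, Cfsg.IsChiefFactor U V ∧ U ≤ A ∧ ⁅⁅U, (Subgroup.zpowers g)⁆, (Subgroup.zpowers g)⁆ ≤ V ∧ ¬ ⁅U, (Subgroup.zpowers g)⁆ ≤ V) := by
  have hTn : (Cfsg.pCore p G).Normal := Cfsg.Agent.Lib.Helper42.pCore_normal p G
  haveI := hTn
  have hTp : IsPGroup p (Cfsg.pCore p G) := Cfsg.Agent.Lib.Helper42.isPGroup_pCore p G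
  have hAn : A.Normal := by
    haveI := hAchar
    have h1 : ((A.subgroupOf (Cfsg.pCore p G)).map (Cfsg.pCore p G).subtype).Normal :=
      ConjAct.normal_of_characteristic_of_normal
    rwa [Subgroup.map_subgroupOf_eq_of_le hAT] at h1
  haveI := hAn
  by_cases hc : Subgroup.centralizer ((Cfsg.pCore p G : Subgroup G) : Set G) ≤ Cfsg.pCore p G
  · by_contra hno
    have hA5' : ∀ x : G, (orderOf x).Coprime p → x ∈ Subgroup.centralizer (A : Set G) →
        x = 1 := by
      intro x hcop hx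
      have hφ1 : (MulAut.conjNormal x : MulAut ↥(Cfsg.pCore p G)) = 1 := by
        apply hA5
        · exact Nat.Coprime.coprime_dvd_left
            (orderOf_map_dvd (MulAut.conjNormal : G →* MulAut ↥(Cfsg.pCore p G)) x) hcop
        · intro a ha
          apply Subtype.ext
          rw [MulAut.conjNormal_apply]
          have h2 := (Subgroup.mem_centralizer_iff.mp hx) (a : G) ha
          rw [← h2]; group
      have hxc : x ∈ Subgroup.centralizer ((Cfsg.pCore p G : Subgroup G) : Set G) := by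
        rw [Subgroup.mem_centralizer_iff]
        intro t ht
        have h3 : (MulAut.conjNormal x : MulAut ↥(Cfsg.pCore p G)) ⟨t, ht⟩ = ⟨t, ht⟩ := by
          rw [hφ1]; rfl
        have h4 := congrArg (Subtype.val) h3
        rw [MulAut.conjNormal_apply] at h4
        simp only at h4
        calc t * x = (x * t * x⁻¹) * x := by rw [h4]
          _ = x * t := by group
      have h1 : x ∈ Cfsg.pCore p G := hc hxc
      obtain ⟨j, hj⟩ := IsPGroup.iff_orderOf.mp hTp ⟨x, h1⟩
      rw [Subgroup.orderOf_mk] at hj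
      apply orderOf_eq_one_iff.mp
      rw [hj] at hcop ⊢
      rcases Nat.eq_zero_or_pos j with rfl | hjpos
      · simp
      · exfalso
        have h2 : p = 1 := Nat.Coprime.eq_one_of_dvd hcop.symm (dvd_pow_self p hjpos.ne')
        exact (Fact.out : p.Prime).ne_one h2
    have hHc : ∀ g ∈ (S : Subgroup G),
        Cfsg.iterCommutator A (Subgroup.zpowers g) 3 ≤ A ⊓ Subgroup.centralizer (A : Set G) →
        ⁅⁅A ⊓ Subgroup.centralizer (A : Set G), Subgroup.zpowers g⁆, Subgroup.zpowers g⁆ = ⊥ →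
        ∀ U V : Subgroup G, Cfsg.IsChiefFactor U V → U ≤ A →
          ⁅⁅U, Subgroup.zpowers g⁆, Subgroup.zpowers g⁆ ≤ V → ⁅U, Subgroup.zpowers g⁆ ≤ V := by
      intro g hgS h1 h2 U V hUV hUA hq
      by_cases hgT : g ∈ Cfsg.pCore p G
      · obtain ⟨hlt, hUn, hVn, hmax⟩ := hUV
        haveI := hUn
        haveI := hVn
        have hFn : (⁅U, Cfsg.pCore p G⁆ ⊔ V).Normal := inferInstance
        have hUT : ⁅U, Cfsg.pCore p G⁆ ≤ V := by
          rcases hmax _ hFn le_sup_right
            (sup_le (Subgroup.commutator_le_left U _) hlt.le) with h | h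
          · rw [← h]; exact le_sup_left
          · exfalso
            have h3 : U ≤ V := Cfsg.Agent.Lib.Helper26.kq_nilp (p := p) (H := Cfsg.pCore p G)
              hTp (hUA.trans hAT) (by rw [h])
            exact lt_irrefl _ (lt_of_lt_of_le hlt h3)
        exact (Subgroup.commutator_mono le_rfl ((Subgroup.zpowers_le).mpr hgT)).trans hUT
      · by_contra hnt
        exact hno ⟨g, hgS, hgT, h1, h2, fun _ => ⟨U, V, hUV, hUA, hq, hnt⟩⟩
    obtain ⟨hL, hU⟩ := Cfsg.Agent.Lib.Helper26.kq_kinf_eq_rel S A hAT hA2 hA3 hA5' hHc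
    rcases hK with hK | hK
    · apply hK
      rw [hL]
      exact Cfsg.Agent.Lib.Helper42.inducedFunctor_pCore_normal
        (Cfsg.Agent.Lib.Helper42.isCharPFunctor_kInfLower p)
    · apply hK
      rw [hU]
      exact Cfsg.Agent.Lib.Helper42.inducedFunctor_pCore_normal
        (Cfsg.Agent.Lib.Helper42.isCharPFunctor_kInfUpper p)
  · obtain ⟨g, hgS, hgT, hg3, hg2⟩ :=
      Cfsg.Agent.Lib.Helper42.exists_good_of_not_normal S A hAT hA2 hA3 hK
    exact ⟨g, hgS, hgT, hg3, hg2, fun h => absurd h hc⟩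

end Cfsg.Agent.S1982
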