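import Cfsg.Statements.S1985
import Cfsg.Agent.Lib.Helper42.Sec23

set_option autoImplicit false
universe u
open Cfsg

namespace Cfsg.Agent.S1985

/-- Let p be an odd prime and G a finite group. Then the lower K-infinity subgroup controls weak closure of elements in G: the lower K-infinity subgroup of every p-subgroup P of G contains Z(P), and for some (equivalently, every) Sylow p-subgroup S of G, with K the lower K-infinity subgroup of S, every element of S commuting with all of N_G(K) is weakly closed in S with respect to G (every G-conjugate of it lying in S equals it). -/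
theorem result {G : Type u} [Group G] [Finite G] {p : ℕ} [Fact p.Prime] (hp : p ≠ 2) : Cfsg.ControlsWeakClosureOfElementsIn p (Cfsg.inducedFunctor (G := G) Cfsg.kInfLower) ⊤ := by
  exact Cfsg.Agent.Lib.Helper42.controlsWeakClosure_of_quadratic hp
    (Cfsg.Agent.Lib.Helper42.isConjugacyFunctor_induced
      (Cfsg.Agent.Lib.Helper42.isCharPFunctor_kInfLower p) G)
    (fun P hP => (Cfsg.Agent.Lib.Helper42.center_le_induced_kInf P hP).1)
    Cfsg.Agent.Lib.Helper42.hloc_kInfLower ⊤

end Cfsg.Agent.S1985
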