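import Cfsg.Statements.S1989
import Cfsg.Agent.Lib.Helper15.KStab6

set_option autoImplicit false
universe u
open Cfsg

namespace Cfsg.Agent.S1989


/-- Let p be an odd prime and G a finite group. Then Qd(p) (the natural semidirect product of an elementary abelian group of order p² by SL₂(p)) is not involved in G if and only if, in every section K/R of G and for every Sylow p-subgroup T of K/R, the lower K-infinity subgroup of T controls strong fusion in K/R. -/
theorem result {G : Type u} [Group G] [Finite G] {p : ℕ} [Fact p.Prime] (hp : p ≠ 2) : ¬ Cfsg.Involves ↥(Cfsg.qd p) G ↔ ∀ (K R : Subgroup G) [hR : (R.subgroupOf K).Normal], ∀ T : Sylow p (↥K ⧸ R.subgroupOf K), Cfsg.ControlsStrongFusion p (Cfsg.inducedFunctor (G := (↥K ⧸ R.subgroupOf K)) Cfsg.kInfLower (T : Subgroup (↥K ⧸ R.subgroupOf K))) := by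
  constructor
  · intro hfree K R hR T
    have hfree' : ¬ Cfsg.Involves ↥(Cfsg.qd p) (↥K ⧸ R.subgroupOf K) := fun hinv =>
      hfree (Cfsg.Agent.Lib.Helper2.involves_of_subgroup K
        (Cfsg.Agent.Lib.Helper2.involves_of_quotient _ hinv))
    exact (Cfsg.Agent.Lib.Helper15.kinf_controls_of_qd_free hp hfree' T).1
  · intro h hinv
    obtain ⟨K, R, hR, ⟨e⟩⟩ := hinv
    haveI : (R.subgroupOf K).Normal := hR
    obtain ⟨T⟩ : Nonempty (Sylow p (↥K ⧸ R.subgroupOf K)) := inferInstance
    exact Cfsg.Agent.Lib.Helper15.not_controls_kInfLower_of_equiv_qd e T (h K R T)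

end Cfsg.Agent.S1989
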