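import Cfsg.Statements.S1997
import Cfsg.Agent.Lib.Helper42.Sec28

set_option autoImplicit false
universe u
open Cfsg

namespace Cfsg.Agent.S1997

/-- Let p be a prime, G a finite group with Sylow p-subgroup S, and W₁, W₂ two isomorphism-invariant p-group functors (W assigns to every group Q a subgroup W(Q), nontrivial whenever Q is a nontrivial finite p-group, and every isomorphism from a finite p-group Q onto a group R carries W(Q) onto W(R)). Suppose that G* = C_{G*}(Ω₁Z(S*)) N_{G*}(W₁(S*)) = C_{G*}(Ω₁Z(S*)) N_{G*}(W₂(S*)) = N_{G*}(W₁(S*)) N_{G*}(W₂(S*)) whenever G* = K/R is a section of G with C_{G*}(O_p(G*)) ≤ O_p(G*) and S* is a Sylow p-subgroup of G*, where Ω₁Z denotes the subgroup generated by the elements of order dividing p in the centre. Suppose also Ω₁Z(S) ≤ W₁(S) ∩ W₂(S), and let A be the normal closure of Ω₁Z(S) in N_G(W₁(S)). Then A is an elementary abelian subgroup of S, strongly closed in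 S with respect to G, and A controls strong fusion in G. -/
theorem result {G : Type u} [Group G] [Finite G] {p : ℕ} [Fact p.Prime] (S : Sylow p G) (W₁ W₂ : ∀ (Q : Type u) [Group Q], Subgroup Q) (hW₁ : Cfsg.IsCharPFunctor.{u} p W₁) (hW₂ : Cfsg.IsCharPFunctor.{u} p W₂) (hfac : ∀ (K R : Subgroup G) [hR : (R.subgroupOf K).Normal], Subgroup.centralizer ((Cfsg.pCore p (↥K ⧸ R.subgroupOf K) : Subgroup (↥K ⧸ R.subgroupOf K)) : Set (↥K ⧸ R.subgroupOf K)) ≤ Cfsg.pCore p (↥K ⧸ R.subgroupOf K) → ∀ T : Sylow p (↥K ⧸ R.subgroupOf K), (∀ x : (↥K ⧸ R.subgroupOf K), ∃ a ∈ Subgroup.centralizer ((Cfsg.omegaOne p ((T : Subgroup (↥K ⧸ R.subgroupOf K)) ⊓ Subgroup.centralizer (((T : Subgroup (↥K ⧸ R.subgroupOf K)) : Subgroup (↥K ⧸ R.subgroupOf K)) : Set (↥K ⧸ R.subgroupOf K))) : Subgroup (↥K ⧸ R.subgroupOf K)) : Set (↥K ⧸ R.subgroupOf K)), ∃ b ∈ Subgroup.normalizer ((Cfsg.inducedFunctor (G := (↥K ⧸ R.subgroupOf K)) W₁ (T : Subgroup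 (↥K ⧸ R.subgroupOf K)) : Subgroup (↥K ⧸ R.subgroupOf K)) : Set (↥K ⧸ R.subgroupOf K)), x = a * b) ∧ (∀ x : (↥K ⧸ R.subgroupOf K), ∃ a ∈ Subgroup.centralizer ((Cfsg.omegaOne p ((T : Subgroup (↥K ⧸ R.subgroupOf K)) ⊓ Subgroup.centralizer (((T : Subgroup (↥K ⧸ R.subgroupOf K)) : Subgroup (↥K ⧸ R.subgroupOf K)) : Set (↥K ⧸ R.subgroupOf K))) : Subgroup (↥K ⧸ R.subgroupOf K)) : Set (↥K ⧸ R.subgroupOf K)), ∃ b ∈ Subgroup.normalizer ((Cfsg.inducedFunctor (G := (↥K ⧸ R.subgroupOf K)) W₂ (T : Subgroup (↥K ⧸ R.subgroupOf K)) : Subgroup (↥K ⧸ R.subgroupOf K)) : Set (↥K ⧸ R.subgroupOf K)), x = a * b) ∧ (∀ x : (↥K ⧸ R.subgroupOf K), ∃ a ∈ Subgroup.normalizer ((Cfsg.inducedFunctor (G := (↥K ⧸ R.subgroupOf K)) W₁ (T : Subgroup (↥K ⧸ R.subgroupOf K)) : Subgroup (↥K ⧸ R.subgroupOf K)) : Set (↥K ⧸ R.subgroupOf K)), ∃ b ∈ Subgroup.normalizer ((Cfsg.inducedFunctor (G := (↥K ⧸ R.subgroupOf K)) W₂ (T : Subgroup (↥K ⧸ R.subgroupOf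 K)) : Subgroup (↥K ⧸ R.subgroupOf K)) : Set (↥K ⧸ R.subgroupOf K)), x = a * b)) (hZ : Cfsg.omegaOne p ((S : Subgroup G) ⊓ Subgroup.centralizer (((S : Subgroup G) : Subgroup G) : Set G)) ≤ Cfsg.inducedFunctor (G := G) W₁ (S : Subgroup G) ⊓ Cfsg.inducedFunctor (G := G) W₂ (S : Subgroup G)) (N₁ : Subgroup G) (hN₁ : N₁ = Subgroup.normalizer ((Cfsg.inducedFunctor (G := G) W₁ (S : Subgroup G) : Subgroup G) : Set G)) (A : Subgroup G) (hA : A = (Subgroup.normalClosure (((Cfsg.omegaOne p ((S : Subgroup G) ⊓ Subgroup.centralizer (((S : Subgroup G) : Subgroup G) : Set G))).subgroupOf N₁ : Subgroup ↥N₁) : Set ↥N₁)).map N₁.subtype) : A ≤ (S : Subgroup G) ∧ Cfsg.IsElementaryAbelian p A ∧ Cfsg.IsStronglyClosed A (S : Subgroup G) ∧ Cfsg.ControlsStrongFusion p A := by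
  subst hN₁
  have hp : p.Prime := Fact.out
  have hSp : IsPGroup p (S : Subgroup G) := S.isPGroup'
  have hc₁ := Cfsg.Agent.Lib.Helper42.isConjugacyFunctor_induced hW₁ G
  have hc₂ := Cfsg.Agent.Lib.Helper42.isConjugacyFunctor_induced hW₂ G
  have hV₁S : Cfsg.inducedFunctor (G := G) W₁ (S : Subgroup G) ≤ S :=
    Cfsg.Agent.Lib.Helper42.conjFunctor_le hc₁ hSp
  have hV₂S : Cfsg.inducedFunctor (G := G) W₂ (S : Subgroup G) ≤ S :=
    Cfsg.Agent.Lib.Helper42.conjFunctor_le hc₂ hSp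
  have hS1 : (S : Subgroup G) ≤ Subgroup.normalizer
      ((Cfsg.inducedFunctor (G := G) W₁ (S : Subgroup G) : Subgroup G) : Set G) :=
    Subgroup.le_normalizer.trans (Cfsg.Agent.Lib.Helper42.conjFunctor_normalizer_le hc₁ hSp)
  have hS2 : (S : Subgroup G) ≤ Subgroup.normalizer
      ((Cfsg.inducedFunctor (G := G) W₂ (S : Subgroup G) : Subgroup G) : Set G) :=
    Subgroup.le_normalizer.trans (Cfsg.Agent.Lib.Helper42.conjFunctor_normalizer_le hc₂ hSp)
  -- the factorizations C(Ω₁Z) N(W) in the sections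
  have hT₂ := Cfsg.Agent.Lib.Helper42.prT_of_sections hW₂ (G := G) (fun K R _ hc T hT x => by
    obtain ⟨T', rfl⟩ := Cfsg.Agent.Lib.Helper42.IsSylIn.exists_sylow hT
    exact (hfac K R hc T').2.1 x)
  have hT₁ := Cfsg.Agent.Lib.Helper42.prT_of_sections hW₁ (G := G) (fun K R _ hc T hT x => by
    obtain ⟨T', rfl⟩ := Cfsg.Agent.Lib.Helper42.IsSylIn.exists_sylow hT
    exact (hfac K R hc T').1 x)
  have hf₁ := Cfsg.Agent.Lib.Helper42.facCN_of_subgroup hW₂ S hS1 (hSp.to_le hV₁S) inferInstance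
    (hZ.trans inf_le_left) (hT₂ _ (Cfsg.Agent.Lib.Helper42.isSec_subgroup _))
  have hf₂ := Cfsg.Agent.Lib.Helper42.facCN_of_subgroup hW₁ S hS2 (hSp.to_le hV₂S) inferInstance
    (hZ.trans inf_le_right) (hT₁ _ (Cfsg.Agent.Lib.Helper42.isSec_subgroup _))
  have hCs : Cfsg.Agent.Lib.Helper42.Cs (Subgroup.normalizer
        ((Cfsg.inducedFunctor (G := G) W₁ (S : Subgroup G) : Subgroup G) : Set G))
        (Cfsg.Agent.Lib.Helper42.OZ p (S : Subgroup G)) =
      Cfsg.Agent.Lib.Helper42.Cs (Subgroup.normalizer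
        ((Cfsg.inducedFunctor (G := G) W₂ (S : Subgroup G) : Subgroup G) : Set G))
        (Cfsg.Agent.Lib.Helper42.OZ p (S : Subgroup G)) :=
    Set.Subset.antisymm (Cfsg.Agent.Lib.Helper42.Cs_subset_of_fac (fun n hn => hf₁ n hn))
      (Cfsg.Agent.Lib.Helper42.Cs_subset_of_fac (fun n hn => hf₂ n hn))
  obtain ⟨hZc, hZp⟩ := Cfsg.Agent.Lib.Helper42.OZ_facts p (S : Subgroup G)
  have hZN₁ : Cfsg.Agent.Lib.Helper42.OZ p (S : Subgroup G) ≤ Subgroup.normalizer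
      ((Cfsg.inducedFunctor (G := G) W₁ (S : Subgroup G) : Subgroup G) : Set G) :=
    hZc.trans (inf_le_left.trans hS1)
  have hA' : A = Subgroup.closure (Cfsg.Agent.Lib.Helper42.Cs (Subgroup.normalizer
        ((Cfsg.inducedFunctor (G := G) W₁ (S : Subgroup G) : Subgroup G) : Set G))
        (Cfsg.Agent.Lib.Helper42.OZ p (S : Subgroup G))) := by
    rw [hA]; exact Cfsg.Agent.Lib.Helper42.map_normalClosure_subgroupOf hZN₁
  have hN₁A : Subgroup.normalizer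
      ((Cfsg.inducedFunctor (G := G) W₁ (S : Subgroup G) : Subgroup G) : Set G) ≤
      Subgroup.normalizer (A : Set G) := by
    rw [hA']; exact Cfsg.Agent.Lib.Helper42.le_normalizer_closure_Cs _ _
  have hN₂A : Subgroup.normalizer
      ((Cfsg.inducedFunctor (G := G) W₂ (S : Subgroup G) : Subgroup G) : Set G) ≤
      Subgroup.normalizer (A : Set G) := by
    rw [hA', hCs]; exact Cfsg.Agent.Lib.Helper42.le_normalizer_closure_Cs _ _
  have hCsV : ∀ x ∈ Cfsg.Agent.Lib.Helper42.Cs (Subgroup.normalizer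
        ((Cfsg.inducedFunctor (G := G) W₁ (S : Subgroup G) : Subgroup G) : Set G))
        (Cfsg.Agent.Lib.Helper42.OZ p (S : Subgroup G)),
      x ∈ Cfsg.inducedFunctor (G := G) W₁ (S : Subgroup G) ∧
      x ∈ Subgroup.centralizer
        ((Cfsg.inducedFunctor (G := G) W₁ (S : Subgroup G) : Subgroup G) : Set G) ∧
      x ^ p = 1 := by
    rintro _ ⟨n, hn, z, hz, rfl⟩
    have hzV : z ∈ Cfsg.inducedFunctor (G := G) W₁ (S : Subgroup G) := (hZ hz).1
    have hzC : z ∈ Subgroup.centralizer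
        ((Cfsg.inducedFunctor (G := G) W₁ (S : Subgroup G) : Subgroup G) : Set G) :=
      Subgroup.centralizer_le hV₁S (hZc hz).2
    refine ⟨(Subgroup.mem_normalizer_iff.mp hn z).mp hzV, ?_, ?_⟩
    · rw [Subgroup.mem_centralizer_iff]
      intro v hv
      have hv' : n⁻¹ * v * n ∈ Cfsg.inducedFunctor (G := G) W₁ (S : Subgroup G) := by
        have := (Subgroup.mem_normalizer_iff.mp (Subgroup.inv_mem _ hn) v).mp hv
        simpa using this
      have h1 := Subgroup.mem_centralizer_iff.mp hzC _ hv'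
      calc v * (n * z * n⁻¹) = n * ((n⁻¹ * v * n) * z) * n⁻¹ := by group
        _ = n * (z * (n⁻¹ * v * n)) * n⁻¹ := by rw [h1]
        _ = n * z * n⁻¹ * v := by group
    · rw [conj_pow, hZp z hz]
      group
  have hAV : A ≤ Cfsg.inducedFunctor (G := G) W₁ (S : Subgroup G) := by
    rw [hA', Subgroup.closure_le]
    exact fun x hx => (hCsV x hx).1
  have hAS : A ≤ (S : Subgroup G) := hAV.trans hV₁S
  have hEA : Cfsg.IsElementaryAbelian p A := by
    rw [hA']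
    exact Cfsg.Agent.Lib.Helper42.elemAb_closure
      (fun x hx y hy => Subgroup.mem_centralizer_iff.mp (hCsV y hy).2.1 x (hCsV x hx).1)
      (fun x hx => (hCsV x hx).2.2)
  -- control of strong fusion by the pair
  have h𝓦 : ∀ W ∈ ({W₁, W₂} : Set (∀ (Q : Type u) [Group Q], Subgroup Q)),
      Cfsg.IsCharPFunctor.{u} p W := by
    rintro W (rfl | rfl)
    · exact hW₁
    · exact hW₂
  have hctl := Cfsg.Agent.Lib.Helper42.ctl_of_sections h𝓦 (G := G) (fun K R hR hc => by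
    obtain ⟨T⟩ : Nonempty (Sylow p (↥K ⧸ R.subgroupOf K)) := inferInstance
    exact Cfsg.Agent.Lib.Helper42.ctl_pair_of_fac hW₁ hW₂ T (hfac K R hc T).2.2) G
    (Cfsg.Agent.Lib.Helper42.IsSec.refl G)
  have hfus : ∀ B : Set G, B ⊆ (S : Subgroup G) → ∀ g : G,
      (fun a => g * a * g⁻¹) '' B ⊆ (S : Subgroup G) →
      ∃ x ∈ Subgroup.normalizer (A : Set G), ∀ a ∈ B, g * a * g⁻¹ = x * a * x⁻¹ := by
    intro B hB g hgB
    obtain ⟨l, hl, hact⟩ := Cfsg.Agent.Lib.Helper42.FC_of_familyControls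
      (Cfsg.Agent.Lib.Helper42.fam_conj h𝓦 G) (Cfsg.Agent.Lib.Helper42.sylow_isSylIn S) hctl B g
      trivial hB hgB
    refine ⟨l.reverse.prod, ?_, fun a ha => (hact a ha).symm⟩
    apply Subgroup.list_prod_mem
    intro s hs
    obtain ⟨_, ⟨W', hW', rfl⟩, hs'⟩ := hl.mem_steps l s (List.mem_reverse.mp hs)
    have hs2 := hs'.2
    rcases hW' with h | h
    · rw [h] at hs2
      exact hN₁A hs2
    · rw [h] at hs2
      exact hN₂A hs2
  refine ⟨hAS, hEA, ⟨hAS, ?_⟩, ⟨S, hAS, fun B hB => ⟨hB, fun g hgB => hfus B hB g hgB⟩⟩⟩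
  intro x hx g hgx
  obtain ⟨y, hy, hxy⟩ := hfus {x} (by
    intro a ha
    rw [Set.mem_singleton_iff.mp ha]
    exact hAS hx) g (by
    rintro _ ⟨a, ha, rfl⟩
    rw [Set.mem_singleton_iff.mp ha]
    exact hgx)
  rw [hxy x rfl]
  exact (Subgroup.mem_normalizer_iff.mp hy x).mp hx

end Cfsg.Agent.S1997
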