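import Cfsg.Statements.S2007
import Mathlib
-- import your own Cfsg.Agent.* helpers here

set_option autoImplicit false
open Cfsg

namespace Cfsg.Agent.S2007

theorem eq_one_of_coprime_of_eq_pow {p m k : ℕ} (hp : p.Prime) (h1 : Nat.Coprime m p)
    (h2 : m = p ^ k) : m = 1 := by
  subst h2
  rcases k with _ | k
  · simp
  · exfalso
    have h3 : p ∣ p ^ (k + 1) := dvd_pow_self p (Nat.succ_ne_zero k)
    exact hp.ne_one (Nat.Coprime.eq_one_of_dvd h1.symm h3)

/-- If a subgroup `K` of a finite group consists exactly of the elements of order prime to `p`,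
then it is a normal complement to every Sylow `p`-subgroup. -/
theorem normal_complement_of_pprime_elements {G : Type*} [Group G] [Finite G] {p : ℕ}
    [hp : Fact p.Prime] (S : Sylow p G) (K : Subgroup G)
    (hK : ∀ g : G, g ∈ K ↔ (orderOf g).Coprime p) :
    K.Normal ∧ K.IsComplement' (S : Subgroup G) := by
  have hKn : K.Normal := by
    refine ⟨fun k hk g => ?_⟩
    rw [hK] at hk ⊢
    have : orderOf (g * k * g⁻¹) = orderOf k := by
      have := (MulAut.conj g).orderOf_eq k
      rwa [MulAut.conj_apply] at this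
    rw [this]; exact hk
  refine ⟨hKn, ?_⟩
  have hquot : IsPGroup p (G ⧸ K) := by
    intro q
    obtain ⟨x, rfl⟩ := QuotientGroup.mk_surjective q
    have hpos : orderOf x ≠ 0 := (orderOf_pos x).ne'
    obtain ⟨k, m, hm, hkm⟩ := Nat.exists_eq_pow_mul_and_not_dvd hpos p hp.out.ne_one
    refine ⟨k, ?_⟩
    rw [← QuotientGroup.mk_pow, QuotientGroup.eq_one_iff, hK]
    have h1 : (x ^ p ^ k) ^ m = 1 := by
      rw [← pow_mul, ← hkm]; exact pow_orderOf_eq_one x
    have h2 : orderOf (x ^ p ^ k) ∣ m := orderOf_dvd_of_pow_eq_one h1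
    exact Nat.Coprime.coprime_dvd_left h2 ((Nat.Prime.coprime_iff_not_dvd hp.out).mpr hm).symm
  obtain ⟨n, hn⟩ := IsPGroup.iff_card.mp hquot
  have h2 : K.index = p ^ n := by rw [Subgroup.index_eq_card]; exact hn
  have h3 : (K ⊔ (S : Subgroup G)).index ∣ p ^ n := h2 ▸ Subgroup.index_dvd_of_le le_sup_left
  have h4 : (K ⊔ (S : Subgroup G)).index ∣ (S : Subgroup G).index :=
    Subgroup.index_dvd_of_le le_sup_right
  have h5 : Nat.Coprime (p ^ n) (S : Subgroup G).index :=
    Nat.Coprime.pow_left n ((Nat.Prime.coprime_iff_not_dvd hp.out).mpr S.not_dvd_index)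
  have h6 : (K ⊔ (S : Subgroup G)).index = 1 := Nat.eq_one_of_dvd_coprimes h5 h3 h4
  have h7 : K ⊔ (S : Subgroup G) = ⊤ := Subgroup.index_eq_one.mp h6
  apply Subgroup.isComplement'_of_disjoint_and_mul_eq_univ
  · rw [Subgroup.disjoint_def]
    intro x hxK hxS
    rw [hK] at hxK
    obtain ⟨k, hk⟩ := (IsPGroup.iff_orderOf.mp S.isPGroup') ⟨x, hxS⟩
    rw [Subgroup.orderOf_mk] at hk
    exact orderOf_eq_one_iff.mp (eq_one_of_coprime_of_eq_pow hp.out hxK hk)
  · rw [← Subgroup.normal_mul, h7]; rfl

/-- The abstract form: `T` normal in `G`. -/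
theorem main {G : Type*} [Group G] [Finite G] {p : ℕ} [hp : Fact p.Prime] (S : Sylow p G)
    (T : Subgroup G) [hTn : T.Normal]
    (hC : (S : Subgroup G) ⊓ Subgroup.centralizer (T : Set G) ≤ T)
    (hN : ∀ g : G, (orderOf g).Coprime p → g ∈ Subgroup.centralizer (T : Set G)) :
    Cfsg.HasNormalPComplement p G := by
  classical
  set C : Subgroup G := Subgroup.centralizer (T : Set G) with hCdef
  have hCn : C.Normal := Subgroup.normal_centralizer
  obtain ⟨D⟩ : Nonempty (Sylow p C) := inferInstance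
  have hDT : ∀ d : C, d ∈ D → (d : G) ∈ T := by
    intro d hd
    have hDp : IsPGroup p ((D : Subgroup C).map C.subtype) := D.isPGroup'.map _
    obtain ⟨Q, hQ⟩ := hDp.exists_le_sylow
    obtain ⟨g, hg⟩ := MulAction.exists_smul_eq G S Q
    have h1 : (d : G) ∈ (Q : Subgroup G) := hQ (Subgroup.mem_map.mpr ⟨d, hd, rfl⟩)
    rw [← hg, Sylow.coe_subgroup_smul, Subgroup.mem_pointwise_smul_iff_inv_smul_mem] at h1
    have h2 : g⁻¹ * (d : G) * g ∈ (S : Subgroup G) := by
      simpa [MulAut.smul_def, MulAut.conj_apply] using h1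
    have h3 : g⁻¹ * (d : G) * g ∈ C := by
      have := hCn.conj_mem d d.2 g⁻¹
      simpa using this
    have h4 : g⁻¹ * (d : G) * g ∈ T := hC (Subgroup.mem_inf.mpr ⟨h2, h3⟩)
    have h5 := hTn.conj_mem _ h4 g
    convert h5 using 1; group
  have hDc : ∀ d : C, d ∈ D → ∀ c : C, d * c = c * d := by
    intro d hd c
    apply Subtype.ext
    have := (Subgroup.mem_centralizer_iff.mp c.2) (d : G) (hDT d hd)
    simpa using this
  have hP : Subgroup.normalizer ((D : Subgroup C) : Set C) ≤
      Subgroup.centralizer ((D : Subgroup C) : Set C) := by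
    intro c _
    rw [Subgroup.mem_centralizer_iff]
    intro d hd
    exact hDc d hd c
  let f : C →* D := MonoidHom.transferSylow D hP
  have hker : ¬ p ∣ Nat.card f.ker := MonoidHom.not_dvd_card_ker_transferSylow D hP
  let K : Subgroup G := f.ker.map C.subtype
  have hK : ∀ g : G, g ∈ K ↔ (orderOf g).Coprime p := by
    intro g
    constructor
    · intro hg
      obtain ⟨k, hk, rfl⟩ := Subgroup.mem_map.mp hg
      have h1 : orderOf (C.subtype k) = orderOf (⟨k, hk⟩ : f.ker) := by
        rw [Subgroup.coe_subtype, Subgroup.orderOf_coe, ← Subgroup.orderOf_mk k hk]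
      rw [h1]
      exact Nat.Coprime.coprime_dvd_left (orderOf_dvd_natCard _)
        ((Nat.Prime.coprime_iff_not_dvd hp.out).mpr hker).symm
    · intro hg
      let c : C := ⟨g, hN g hg⟩
      have h1 : orderOf (f c) ∣ orderOf g := by
        have h2 : orderOf c = orderOf g := Subgroup.orderOf_mk g _
        rw [← h2]
        exact orderOf_map_dvd f c
      obtain ⟨k, hk⟩ := (IsPGroup.iff_orderOf.mp D.isPGroup') (f c)
      have h3 : orderOf (f c) = 1 :=
        eq_one_of_coprime_of_eq_pow hp.out (Nat.Coprime.coprime_dvd_left h1 hg) hk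
      have h4 : f c = 1 := orderOf_eq_one_iff.mp h3
      exact Subgroup.mem_map.mpr ⟨c, MonoidHom.mem_ker.mpr h4, rfl⟩
  obtain ⟨h1, h2⟩ := normal_complement_of_pprime_elements S K hK
  exact ⟨S, K, h1, h2⟩

/-- Let p be a prime, G a finite group with Sylow p-subgroup S, and T a normal subgroup of S containing C_S(T). If N_G(T)/C_G(T) is a p-group (every element of N_G(T) of order prime to p centralizes T), then N_G(T) has a normal p-complement. -/
theorem result {G : Type*} [Group G] [Finite G] {p : ℕ} [Fact p.Prime] (S : Sylow p G) (T : Subgroup G) (hTS : T ≤ (S : Subgroup G)) (hTn : (S : Subgroup G) ≤ Subgroup.normalizer ((T : Subgroup G) : Set G)) (hC : (S : Subgroup G) ⊓ Subgroup.centralizer ((T : Subgroup G) : Set G) ≤ T) (hN : ∀ g ∈ Subgroup.normalizer ((T : Subgroup G) : Set G), (orderOf g).Coprime p → g ∈ Subgroup.centralizer ((T : Subgroup G) : Set G)) : Cfsg.HasNormalPComplement p ↥(Subgroup.normalizer ((T : Subgroup G) : Set G)) := by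
  classical
  set N : Subgroup G := Subgroup.normalizer ((T : Subgroup G) : Set G) with hNdef
  have hTN : T ≤ N := Subgroup.le_normalizer
  have hT'n : (T.subgroupOf N).Normal := Subgroup.normal_in_normalizer
  have hcent : ∀ x : N, x ∈ Subgroup.centralizer ((T.subgroupOf N : Subgroup N) : Set N) →
      (x : G) ∈ Subgroup.centralizer ((T : Subgroup G) : Set G) := by
    intro x hx
    rw [Subgroup.mem_centralizer_iff] at hx ⊢
    intro t ht
    have := hx ⟨t, hTN ht⟩ (by
      show (⟨t, hTN ht⟩ : N) ∈ T.subgroupOf N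
      rw [Subgroup.mem_subgroupOf]; exact ht)
    exact congrArg Subtype.val this
  have hcent' : ∀ x : N, (x : G) ∈ Subgroup.centralizer ((T : Subgroup G) : Set G) →
      x ∈ Subgroup.centralizer ((T.subgroupOf N : Subgroup N) : Set N) := by
    intro x hx
    rw [Subgroup.mem_centralizer_iff] at hx ⊢
    intro t ht
    have ht' : (t : G) ∈ T := Subgroup.mem_subgroupOf.mp ht
    exact Subtype.ext (hx (t : G) ht')
  apply main (S.subtype hTn) (T.subgroupOf N)
  · intro x hx
    obtain ⟨hx1, hx2⟩ := Subgroup.mem_inf.mp hx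
    rw [Sylow.coe_subtype, Subgroup.mem_subgroupOf] at hx1
    rw [Subgroup.mem_subgroupOf]
    exact hC (Subgroup.mem_inf.mpr ⟨hx1, hcent x hx2⟩)
  · intro g hg
    apply hcent'
    apply hN (g : G) g.2
    rwa [Subgroup.orderOf_coe]

end Cfsg.Agent.S2007
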