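import Cfsg.Statements.S2008
-- import your own Cfsg.Agent.* helpers here

set_option autoImplicit false
open Cfsg

namespace Cfsg.Agent.S2008

/-- An element `e` with `e * e = 1` whose centralizer meets the finite normal subgroup `N` trivially
inverts `N`. -/
theorem inverts_of_inf_centralizer_eq_bot {H : Type*} [Group H] [Finite H] (e : H) (he : e * e = 1)
    (N : Subgroup H) [hn : N.Normal] (hN : N ⊓ Subgroup.centralizer ({e} : Set H) = ⊥) :
    ∀ n ∈ N, e * n * e⁻¹ = n⁻¹ := by
  have hfpf : MonoidHom.FixedPointFree (MulAut.conjNormal (H := N) e) := by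
    intro n hn'
    have h1 : (n : H) ∈ N ⊓ Subgroup.centralizer ({e} : Set H) := by
      refine Subgroup.mem_inf.mpr ⟨n.2, ?_⟩
      rw [Subgroup.mem_centralizer_iff]
      intro h hh
      rw [Set.mem_singleton_iff] at hh
      subst hh
      have h2 := congrArg Subtype.val hn'
      rw [MulAut.conjNormal_apply] at h2
      calc h * (n : H) = h * (n : H) * h⁻¹ * h := by group
        _ = (n : H) * h := by rw [h2]
    rw [hN, Subgroup.mem_bot] at h1
    exact Subtype.ext h1
  have hinv : Function.Involutive (MulAut.conjNormal (H := N) e) := by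
    intro n
    apply Subtype.ext
    rw [MulAut.conjNormal_apply, MulAut.conjNormal_apply]
    have he' : e⁻¹ = e := inv_eq_of_mul_eq_one_left he
    rw [he']
    calc e * (e * (n : H) * e) * e = (e * e) * (n : H) * (e * e) := by group
      _ = (n : H) := by rw [he]; simp
  have key := hfpf.coe_eq_inv_of_involutive hinv
  intro n hn'
  have h3 := congrFun key ⟨n, hn'⟩
  have h4 := congrArg Subtype.val h3
  rw [MulAut.conjNormal_apply] at h4
  simpa using h4

/-- The core of both statements: a proper normal subgroup is trivial. -/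
theorem normal_eq_bot_of_ne_top {H : Type*} [Group H] [Finite H] (z : H) (hz : orderOf z = 2) (hN : ∀ N : Subgroup H, N.Normal → N ≠ ⊤ → N ⊓ Subgroup.centralizer ({z} : Set H) = ⊥) (E : Subgroup H) (hE : IsKleinFour ↥E) (hzE : z ∈ E) (hc : ∀ e ∈ E, e ≠ 1 → IsConj z e)
    (N : Subgroup H) (hNn : N.Normal) (hNt : N ≠ ⊤) : N = ⊥ := by
  have hz1 : z ≠ 1 := by
    intro h
    rw [h, orderOf_one] at hz
    omega
  have hzz : z * z = 1 := by
    have := pow_orderOf_eq_one z
    rw [hz, pow_two] at this
    exact this
  -- every non-identity element of `E` inverts `N`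
  have hinvE : ∀ e ∈ E, e ≠ 1 → ∀ n ∈ N, e * n * e⁻¹ = n⁻¹ := by
    intro e heE he1
    obtain ⟨c, hc'⟩ := isConj_iff.mp (hc e heE he1)
    have hee : e * e = 1 := by
      rw [← hc']
      calc c * z * c⁻¹ * (c * z * c⁻¹) = c * (z * z) * c⁻¹ := by group
        _ = 1 := by rw [hzz]; group
    have hNe : N ⊓ Subgroup.centralizer ({e} : Set H) = ⊥ := by
      rw [eq_bot_iff]
      intro n hn
      rw [Subgroup.mem_bot]
      have h1 : c⁻¹ * n * c ∈ N ⊓ Subgroup.centralizer ({z} : Set H) := by
        refine Subgroup.mem_inf.mpr ⟨?_, ?_⟩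
        · have := hNn.conj_mem n (Subgroup.mem_inf.mp hn).1 c⁻¹
          simpa using this
        · rw [Subgroup.mem_centralizer_iff]
          intro h hh
          rw [Set.mem_singleton_iff] at hh
          subst hh
          have h2 := (Subgroup.mem_centralizer_iff.mp (Subgroup.mem_inf.mp hn).2) e (Set.mem_singleton e)
          rw [← hc'] at h2
          calc h * (c⁻¹ * n * c) = c⁻¹ * (c * h * c⁻¹ * n) * c := by group
            _ = c⁻¹ * (n * (c * h * c⁻¹)) * c := by rw [h2]
            _ = c⁻¹ * n * c * h := by group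
      rw [hN N hNn hNt, Subgroup.mem_bot] at h1
      have : n = c * (c⁻¹ * n * c) * c⁻¹ := by group
      rw [this, h1]
      group
    exact inverts_of_inf_centralizer_eq_bot e hee N hNe
  -- pick a third element of `E`
  have hex : ∃ e ∈ E, e ≠ 1 ∧ e ≠ z := by
    by_contra hcon
    push Not at hcon
    have hsub : (E : Set H) ⊆ {1, z} := by
      intro e he
      by_cases h1 : e = 1
      · left; exact h1
      · right; exact hcon e he h1
    have hcard : Nat.card E ≤ 2 := by
      have h1 : Nat.card E = (E : Set H).ncard := rfl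
      rw [h1]
      calc (E : Set H).ncard ≤ ({1, z} : Set H).ncard := Set.ncard_le_ncard hsub (Set.toFinite _)
        _ ≤ ({z} : Set H).ncard + 1 := Set.ncard_insert_le 1 {z}
        _ = 2 := by rw [Set.ncard_singleton]
    have := hE.card_four
    omega
  obtain ⟨e, heE, he1, hez⟩ := hex
  have hze : z * e ∈ E := E.mul_mem hzE heE
  have hze1 : z * e ≠ 1 := by
    intro h
    apply hez
    have h' : e = z⁻¹ := (inv_eq_of_mul_eq_one_right h).symm
    rw [h']
    exact inv_eq_of_mul_eq_one_left hzz
  rw [eq_bot_iff]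
  intro n hn
  rw [Subgroup.mem_bot]
  have h1 := hinvE z hzE hz1 n hn
  have h2 := hinvE e heE he1 n hn
  have h3 := hinvE (z * e) hze hze1 n hn
  have h4 : n = n⁻¹ := by
    have : z * e * n * (z * e)⁻¹ = z * (e * n * e⁻¹) * z⁻¹ := by group
    rw [this, h2] at h3
    have h5 : z * n⁻¹ * z⁻¹ = (z * n * z⁻¹)⁻¹ := by group
    rw [h5, h1, inv_inv] at h3
    exact h3
  have h6 : n ∈ N ⊓ Subgroup.centralizer ({z} : Set H) := by
    refine Subgroup.mem_inf.mpr ⟨hn, ?_⟩
    rw [Subgroup.mem_centralizer_iff]
    intro h hh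
    rw [Set.mem_singleton_iff] at hh
    subst hh
    rw [← h4] at h1
    calc h * n = h * n * h⁻¹ * h := by group
      _ = n * h := by rw [h1]
  rw [hN N hNn hNt, Subgroup.mem_bot] at h6
  exact h6

/-- Let H be a finite group and z an involution such that every proper normal subgroup of H meets the centralizer of z trivially, and suppose z lies in a Klein four-subgroup E of H all three of whose involutions are conjugate to z in H. Then H has no non-trivial abelian normal subgroup. -/
theorem result {H : Type*} [Group H] [Finite H] (z : H) (hz : orderOf z = 2) (hN : ∀ N : Subgroup H, N.Normal → N ≠ ⊤ → N ⊓ Subgroup.centralizer ({z} : Set H) = ⊥) (E : Subgroup H) (hE : IsKleinFour ↥E) (hzE : z ∈ E) (hc : ∀ e ∈ E, e ≠ 1 → IsConj z e) (N : Subgroup H) [N.Normal] (hab : IsMulCommutative ↥N) : N = ⊥ := by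
  by_cases hNt : N = ⊤
  · exfalso
    subst hNt
    have hz1 : z ≠ 1 := by
      intro h
      rw [h, orderOf_one] at hz
      omega
    have hcomm : ∀ a b : H, a * b = b * a := by
      intro a b
      have h1 := hab.is_comm.comm (⟨a, Subgroup.mem_top a⟩ : (⊤ : Subgroup H)) ⟨b, Subgroup.mem_top b⟩
      exact congrArg Subtype.val h1
    have hall : ∀ e ∈ E, e ≠ 1 → e = z := by
      intro e heE he1
      obtain ⟨c, hc'⟩ := isConj_iff.mp (hc e heE he1)
      rw [← hc', hcomm c z]
      group
    have hsub : (E : Set H) ⊆ {1, z} := by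
      intro e he
      by_cases h1 : e = 1
      · left; exact h1
      · right; exact hall e he h1
    have hcard : Nat.card E ≤ 2 := by
      have h1 : Nat.card E = (E : Set H).ncard := rfl
      rw [h1]
      calc (E : Set H).ncard ≤ ({1, z} : Set H).ncard := Set.ncard_le_ncard hsub (Set.toFinite _)
        _ ≤ ({z} : Set H).ncard + 1 := Set.ncard_insert_le 1 {z}
        _ = 2 := by rw [Set.ncard_singleton]
    have := hE.card_four
    omega
  · exact normal_eq_bot_of_ne_top z hz hN E hE hzE hc N inferInstance hNt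

end Cfsg.Agent.S2008
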