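import Cfsg.Statements.S2034
import Mathlib
import Cfsg.Agent.Lib.Helper89.TabMathieu
import Cfsg.Agent.Lib.Helper70.Metacyclic

set_option autoImplicit false
set_option maxRecDepth 100000
open Cfsg

namespace Cfsg.Agent.S2034

open Cfsg.Agent.Lib.Helper9 Cfsg.Agent.Lib.Helper95 Cfsg.Agent.Lib.Helper89 Cfsg.Agent.Lib.Helper70

/-! ### Metacyclic subgroups given by tables -/

/-- The words `a ^ i * b ^ j`. -/
def mcWords (m n : ℕ) : List (List ℕ) :=
  (List.range m).flatMap (fun i => (List.range n).map (fun j => List.replicate i 0 ++ List.replicate j 1))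

theorem tg_metacyclic {gA gB : List ℕ} {L : List (List ℕ)} (D : TgData [gA, gB] L) (hnd : L.Nodup)
    (m n r : ℕ) (hm : 0 < m) (hn : 0 < n) (hr : 0 < r) (hrn : r ^ n ≡ 1 [MOD m])
    (hA : gA ∈ L) (hB : gB ∈ L) (h1 : tgPow gA m = idT) (h2 : tgPow gB n = idT)
    (h3 : compT (compT gB gA) (invT gB) = tgPow gA r) (hL : m * n ≤ L.length) :
    Cfsg.HasCyclicSchurMultiplier ↥(tgGrp [gA, gB])
      (Nat.gcd 0 (Nat.gcd m (r - 1) * Nat.gcd m (∑ i ∈ Finset.range n, r ^ i) / m)) := by
  have hAm : tperm gA ∈ tgGrp [gA, gB] := D.mem_grp hA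
  have hBm : tperm gB ∈ tgGrp [gA, gB] := D.mem_grp hB
  have : Finite ↥(tgGrp [gA, gB]) := by
    apply Nat.finite_of_card_ne_zero
    rw [D.card hnd]
    have : 0 < m * n := Nat.mul_pos hm hn
    omega
  have e1 : tperm gA ^ m = 1 := by
    rw [← (D.pow_mem hA m).2, h1, tg_tperm_id]
  have e2 : tperm gB ^ n = 1 := by
    rw [← (D.pow_mem hB n).2, h2, tg_tperm_id]
  have e3 : tperm gB * tperm gA * (tperm gB)⁻¹ = tperm gA ^ r := by
    rw [← (D.pow_mem hA r).2, ← h3, D.tperm_mul (D.mul_mem hB hA) (D.inv_mem hB), D.tperm_mul hB hA,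
      D.tperm_inv hB]
  apply hasCyclicSchurMultiplier_of_metacyclic (⟨tperm gA, hAm⟩ : tgGrp [gA, gB]) ⟨tperm gB, hBm⟩
    m n r 0 hm hn hr hrn
  · exact Subtype.ext e1
  · rw [mul_zero, Nat.zero_div, pow_zero]
    exact Subtype.ext e2
  · exact Subtype.ext e3
  · have h := Subgroup.closure_closure_coe_preimage
      (k := {σ : Equiv.Perm GolayPt | ∃ g ∈ [gA, gB], σ = tperm g})
    have hset : (((↑) : Subgroup.closure {σ : Equiv.Perm GolayPt | ∃ g ∈ [gA, gB], σ = tperm g} →
        Equiv.Perm GolayPt) ⁻¹' {σ : Equiv.Perm GolayPt | ∃ g ∈ [gA, gB], σ = tperm g}) =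
        {(⟨tperm gA, hAm⟩ : tgGrp [gA, gB]), ⟨tperm gB, hBm⟩} := by
      ext ⟨x, hx⟩
      constructor
      · rintro ⟨g, hg, hxg⟩
        rcases List.mem_pair.mp hg with rfl | rfl
        · left; exact Subtype.ext hxg
        · right; exact Subtype.ext hxg
      · rintro (h | h)
        · exact ⟨gA, by simp, congrArg Subtype.val h⟩
        · exact ⟨gB, by simp, congrArg Subtype.val h⟩
    rw [hset] at h
    exact h
  · rw [D.card hnd]
    exact hL

/-! ### The data: a semidihedral group of order 16 and a group `S₃ × C₃` inside `M₁₁` -/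

def gA : List ℕ := [0, 1, 3, 2, 8, 17, 13, 19, 6, 18, 15, 21, 16, 12, 23, 11, 9, 14, 4, 22, 10, 7, 20, 5]

def gB : List ℕ := [0, 1, 3, 2, 4, 5, 9, 10, 13, 6, 7, 11, 12, 8, 14, 20, 18, 23, 16, 21, 15, 19, 22, 17]

def gX : List ℕ := [0, 1, 2, 4, 12, 15, 16, 7, 9, 13, 10, 22, 3, 8, 21, 19, 18, 17, 6, 5, 14, 20, 23, 11]

def gW : List ℕ := [0, 2, 1, 6, 18, 23, 13, 10, 3, 12, 17, 15, 16, 4, 21, 22, 9, 7, 8, 11, 20, 14, 5, 19]

def L2 : List (List ℕ) := tgElems [gA, gB] (mcWords 8 2)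

def L3 : List (List ℕ) := tgElems [gX, gW] (mcWords 3 6)

theorem data2 : TgData [gA, gB] L2 := tgData_of_ok _ _ (by decide +kernel)

theorem nodup2 : L2.Nodup := by decide +kernel

theorem data3 : TgData [gX, gW] L3 := tgData_of_ok _ _ (by decide +kernel)

theorem nodup3 : L3.Nodup := by decide +kernel

theorem le2 : tgGrp [gA, gB] ≤ Spor.M11 :=
  tgGrp_le_of_check Spor.M11 inM11 inM11_sound (by decide +kernel)

theorem le3 : tgGrp [gX, gW] ≤ Spor.M11 :=
  tgGrp_le_of_check Spor.M11 inM11 inM11_sound (by decide +kernel)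

theorem mult2 : Cfsg.HasCyclicSchurMultiplier ↥(tgGrp [gA, gB]) 1 := by
  have h := tg_metacyclic data2 nodup2 8 2 3 (by norm_num) (by norm_num) (by norm_num) (by decide)
    (by decide +kernel) (by decide +kernel) (by decide +kernel) (by decide +kernel)
    (by decide +kernel) (by decide +kernel)
  have e : Nat.gcd 0 (Nat.gcd 8 (3 - 1) * Nat.gcd 8 (∑ i ∈ Finset.range 2, 3 ^ i) / 8) = 1 := by
    decide
  rwa [e] at h

theorem mult3 : Cfsg.HasCyclicSchurMultiplier ↥(tgGrp [gX, gW]) 1 := by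
  have h := tg_metacyclic data3 nodup3 3 6 2 (by norm_num) (by norm_num) (by norm_num) (by decide)
    (by decide +kernel) (by decide +kernel) (by decide +kernel) (by decide +kernel)
    (by decide +kernel) (by decide +kernel)
  have e : Nat.gcd 0 (Nat.gcd 3 (2 - 1) * Nat.gcd 3 (∑ i ∈ Finset.range 6, 2 ^ i) / 3) = 1 := by
    decide
  rwa [e] at h

theorem finM11 : Finite ↥Spor.M11 :=
  Nat.finite_of_card_ne_zero (by rw [card_SporM11]; norm_num)

theorem local_of_tg {gens : List (List ℕ)} {L : List (List ℕ)} (D : TgData gens L) (hnd : L.Nodup)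
    (hle : tgGrp gens ≤ Spor.M11) (hmult : Cfsg.HasCyclicSchurMultiplier ↥(tgGrp gens) 1)
    (ℓ : ℕ) (hpos : 0 < L.length) (hℓ : ¬ ℓ ∣ 7920 / L.length)
    {Γ : Type} [Group Γ] (σ : Γ →* ↥Spor.M11) (hσ : Cfsg.IsStemExtension σ) :
    ∃ U : Subgroup ↥Spor.M11, ¬ ℓ ∣ U.index ∧
      ∀ a ∈ ⁅U.comap σ, U.comap σ⁆, a ∈ σ.ker → a = 1 := by
  have : Finite ↥Spor.M11 := finM11
  let U : Subgroup ↥Spor.M11 := (tgGrp gens).subgroupOf Spor.M11
  let e : ↥U ≃* ↥(tgGrp gens) := Subgroup.subgroupOfEquivOfLe hle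
  have hU : Cfsg.HasCyclicSchurMultiplier ↥U 1 := hasSchurMultiplier_of_mulEquiv e.symm hmult
  have hcard : Nat.card U = L.length := by rw [Nat.card_congr e.toEquiv, D.card hnd]
  have hidx : U.index = 7920 / L.length := by
    have h := Subgroup.card_mul_index U
    rw [hcard, card_SporM11] at h
    exact (Nat.div_eq_of_eq_mul_right hpos h.symm).symm
  exact ⟨U, by rw [hidx]; exact hℓ, commutator_comap_inf_ker_of_trivial σ hσ.1 hσ.2.1 U hU⟩

theorem isCyclic_sylow_of_sq_not_dvd {G : Type*} [Group G] [Finite G] (p : ℕ) [Fact p.Prime]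
    (h : ¬ p ^ 2 ∣ Nat.card G) (P : Sylow p G) : IsCyclic P := by
  obtain ⟨n, hn⟩ := IsPGroup.iff_card.mp P.isPGroup'
  have hdvd : Nat.card P ∣ Nat.card G := Subgroup.card_subgroup_dvd_card _
  have hn1 : n ≤ 1 := by
    by_contra hlt
    have hlt' : 2 ≤ n := by omega
    exact h ((pow_dvd_pow p hlt').trans (hn ▸ hdvd))
  interval_cases n
  · have : Subsingleton P := (Nat.card_eq_one_iff_unique.mp (by simpa using hn)).1
    exact isCyclic_of_subsingleton
  · exact isCyclic_of_prime_card (p := p) (by simpa using hn)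

/-- The Schur multiplier of the Mathieu group M₁₁ (the stabiliser of a dodecad and one of its points in the automorphism group of the length-24 binary code) is trivial; here the Schur multiplier is described through stem extensions, as in the definitions: surjective homomorphisms onto the group from a finite group, whose kernel is central in that finite group and contained in that finite group's commutator subgroup. -/
theorem result : Cfsg.HasCyclicSchurMultiplier ↥Cfsg.Spor.M11 1 := by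
  have : Finite ↥Spor.M11 := finM11
  apply hasCyclicSchurMultiplier_one_of_local
  intro Γ _ _ σ hσ ℓ hℓ
  by_cases h2 : ℓ = 2
  · subst h2
    exact local_of_tg data2 nodup2 le2 mult2 2 (by decide +kernel) (by decide +kernel) σ hσ
  by_cases h3 : ℓ = 3
  · subst h3
    exact local_of_tg data3 nodup3 le3 mult3 3 (by decide +kernel) (by decide +kernel) σ hσ
  have : Fact ℓ.Prime := ⟨hℓ⟩
  have hsq : ¬ ℓ ^ 2 ∣ Nat.card ↥Spor.M11 := by
    rw [card_SporM11]
    intro hd
    have hℓd : ℓ ∣ 7920 := (dvd_pow_self ℓ two_ne_zero).trans hd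
    have hcases : ℓ = 2 ∨ ℓ = 3 ∨ ℓ = 5 ∨ ℓ = 11 := by
      have h7920 : (7920 : ℕ) = 2 ^ 4 * 3 ^ 2 * 5 * 11 := by norm_num
      rw [h7920] at hℓd
      rcases (Nat.Prime.dvd_mul hℓ).mp hℓd with h | h
      · rcases (Nat.Prime.dvd_mul hℓ).mp h with h | h
        · rcases (Nat.Prime.dvd_mul hℓ).mp h with h | h
          · left
            exact (Nat.prime_dvd_prime_iff_eq hℓ Nat.prime_two).mp (hℓ.dvd_of_dvd_pow h)
          · right; left
            exact (Nat.prime_dvd_prime_iff_eq hℓ Nat.prime_three).mp (hℓ.dvd_of_dvd_pow h)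
        · right; right; left
          exact (Nat.prime_dvd_prime_iff_eq hℓ (by norm_num)).mp h
      · right; right; right
        exact (Nat.prime_dvd_prime_iff_eq hℓ (by norm_num)).mp h
    rcases hcases with rfl | rfl | rfl | rfl
    · exact h2 rfl
    · exact h3 rfl
    · norm_num at hd
    · norm_num at hd
  let R : Sylow ℓ ↥Spor.M11 := default
  have hcyc := isCyclic_sylow_of_sq_not_dvd ℓ hsq R
  refine ⟨R, R.not_dvd_index, ?_⟩
  have hbot := commutator_comap_eq_bot_of_isCyclic σ hσ.2.1 (R : Subgroup ↥Spor.M11)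
  intro a ha _
  rw [hbot] at ha
  exact Subgroup.mem_bot.mp ha

end Cfsg.Agent.S2034
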