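import Cfsg.Statements.S2035
import Mathlib
import Cfsg.Agent.Lib.Helper70.TabLocal3
import Cfsg.Agent.Lib.Helper70.M12Cover

set_option autoImplicit false
set_option maxRecDepth 100000
open Cfsg

namespace Cfsg.Agent.S2035

open Cfsg.Agent.Lib.Helper9 Cfsg.Agent.Lib.Helper95 Cfsg.Agent.Lib.Helper89 Cfsg.Agent.Lib.Helper70

/-! ### The data at the prime 2: `V = 4 × 4`, an element `y` of order 3 acting without fixed points on
`V`, and a four-group `⟨s, t⟩` normalising `V` and `⟨y⟩`, where `s` inverts `V` -/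

def v1 : List ℕ := [3, 16, 0, 8, 9, 22, 13, 14, 2, 4, 17, 20, 6, 18, 5, 15, 1, 11, 12, 19, 10, 21, 7, 23]

def v2 : List ℕ := [0, 4, 2, 3, 16, 22, 12, 14, 8, 1, 11, 10, 18, 6, 5, 21, 9, 20, 13, 23, 17, 19, 7, 15]

def yT : List ℕ := [18, 2, 13, 12, 0, 15, 9, 19, 6, 8, 7, 5, 16, 1, 23, 11, 3, 22, 4, 10, 14, 17, 21, 20]

def sT : List ℕ := [2, 4, 0, 8, 1, 22, 12, 14, 3, 16, 20, 17, 6, 18, 7, 21, 9, 11, 13, 23, 10, 15, 5, 19]

def tT : List ℕ := [12, 9, 6, 18, 16, 10, 2, 11, 13, 1, 5, 7, 0, 8, 17, 19, 4, 14, 3, 15, 22, 23, 20, 21]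

def gV : List (List ℕ) := [v1, v2]

def gD : List (List ℕ) := [sT, tT]

def wV : List (List ℕ) :=
  [[], [1], [1, 1], [1, 1, 1], [0], [0, 1], [0, 1, 1], [0, 1, 1, 1], [0, 0], [0, 0, 1], [0, 0, 1, 1],
   [0, 0, 1, 1, 1], [0, 0, 0], [0, 0, 0, 1], [0, 0, 0, 1, 1], [0, 0, 0, 1, 1, 1]]

def wD : List (List ℕ) :=
  [[], [0], [1], [0, 1]]

def LV : List (List ℕ) := tgElems gV wV

def LD : List (List ℕ) := tgElems gD wD

/-! ### Involutions: `a0T` without fixed points, `b0T` with 8 fixed points; a group of order 8 with seven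
involutions conjugate to `b0T`; a four-group `{1, a0T, f2T, a0T * f2T}` of conjugates of `a0T` -/

def a0T : List ℕ := [2, 4, 0, 8, 1, 22, 12, 14, 3, 16, 20, 17, 6, 18, 7, 21, 9, 11, 13, 23, 10, 15, 5, 19]

def b0T : List ℕ := [8, 1, 3, 2, 4, 7, 18, 5, 0, 9, 11, 10, 13, 12, 22, 15, 16, 20, 6, 19, 17, 21, 14, 23]

def u1 : List ℕ := [8, 1, 3, 2, 4, 7, 18, 5, 0, 9, 11, 10, 13, 12, 22, 15, 16, 20, 6, 19, 17, 21, 14, 23]

def u2 : List ℕ := [0, 9, 3, 2, 16, 7, 6, 5, 8, 1, 10, 11, 13, 12, 14, 21, 4, 20, 18, 23, 17, 15, 22, 19]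

def u3 : List ℕ := [0, 16, 2, 3, 9, 7, 18, 5, 8, 4, 10, 11, 13, 12, 22, 19, 1, 17, 6, 15, 20, 23, 14, 21]

def f2T : List ℕ := [12, 9, 6, 18, 16, 10, 2, 11, 13, 1, 5, 7, 0, 8, 17, 19, 4, 14, 3, 15, 22, 23, 20, 21]

def kf2 : List ℕ := [1, 2, 9, 16, 6, 7, 13, 5, 4, 18, 23, 15, 8, 0, 10, 17, 3, 19, 12, 20, 21, 14, 11, 22]

def kf12 : List ℕ := [3, 12, 13, 1, 2, 10, 4, 19, 16, 6, 23, 20, 9, 8, 21, 17, 0, 5, 18, 11, 15, 7, 22, 14]

/-- Conjugating elements, in `M₁₂`. -/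
def K7 : List (List ℕ) :=
  [[0, 1, 2, 3, 4, 5, 6, 7, 8, 9, 10, 11, 12, 13, 14, 15, 16, 17, 18, 19, 20, 21, 22, 23],
   [1, 0, 2, 3, 8, 23, 13, 19, 9, 18, 15, 21, 16, 4, 17, 22, 6, 5, 12, 11, 7, 10, 20, 14],
   [9, 8, 16, 1, 2, 7, 13, 5, 4, 3, 23, 21, 6, 18, 14, 10, 0, 15, 12, 11, 19, 17, 22, 20],
   [8, 2, 9, 1, 3, 11, 4, 10, 0, 12, 14, 22, 18, 6, 21, 17, 13, 19, 16, 7, 23, 5, 15, 20],
   [1, 12, 9, 4, 6, 20, 3, 17, 16, 18, 23, 21, 0, 8, 10, 5, 13, 19, 2, 7, 15, 22, 11, 14],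
   [18, 12, 16, 9, 13, 22, 1, 14, 6, 8, 20, 17, 3, 2, 21, 5, 0, 15, 4, 11, 23, 10, 19, 7],
   [9, 6, 12, 13, 18, 23, 0, 15, 16, 3, 19, 21, 4, 1, 5, 17, 2, 10, 8, 22, 11, 14, 7, 20]]

def KS : List (List ℕ) :=
  [[0, 1, 2, 3, 4, 5, 6, 7, 8, 9, 10, 11, 12, 13, 14, 15, 16, 17, 18, 19, 20, 21, 22, 23],
   [12, 18, 9, 4, 16, 17, 3, 10, 13, 1, 23, 21, 2, 0, 20, 15, 6, 22, 8, 19, 14, 7, 11, 5],
   [13, 4, 6, 18, 16, 17, 0, 20, 12, 1, 5, 7, 2, 3, 10, 19, 9, 22, 8, 15, 14, 21, 11, 23],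
   [3, 4, 16, 1, 9, 11, 18, 20, 8, 13, 17, 10, 2, 0, 15, 14, 12, 7, 6, 23, 5, 21, 19, 22],
   [8, 2, 9, 1, 3, 11, 4, 10, 0, 12, 14, 22, 18, 6, 21, 17, 13, 19, 16, 7, 23, 5, 15, 20],
   [8, 3, 16, 1, 4, 5, 13, 14, 0, 9, 23, 21, 12, 6, 7, 19, 2, 17, 18, 15, 20, 11, 22, 10],
   [9, 6, 12, 13, 18, 23, 0, 15, 16, 3, 19, 21, 4, 1, 5, 17, 2, 10, 8, 22, 11, 14, 7, 20],
   [4, 1, 13, 6, 16, 19, 12, 15, 9, 3, 17, 20, 8, 0, 5, 21, 2, 14, 18, 10, 7, 11, 22, 23],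
   [13, 18, 6, 16, 12, 11, 4, 23, 9, 2, 21, 5, 1, 0, 19, 7, 8, 14, 3, 10, 15, 22, 20, 17],
   [2, 13, 18, 6, 16, 7, 3, 5, 8, 12, 20, 10, 4, 9, 17, 22, 1, 21, 0, 19, 23, 14, 11, 15],
   [3, 8, 0, 9, 2, 7, 16, 23, 1, 6, 21, 17, 4, 13, 15, 20, 12, 10, 18, 5, 19, 11, 14, 22],
   [16, 4, 3, 0, 9, 15, 2, 19, 1, 18, 22, 14, 12, 13, 17, 21, 6, 10, 8, 5, 20, 7, 11, 23],
   [1, 0, 2, 3, 8, 23, 13, 19, 9, 18, 15, 21, 16, 4, 17, 22, 6, 5, 12, 11, 7, 10, 20, 14],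
   [12, 0, 3, 2, 4, 11, 13, 10, 18, 8, 7, 14, 1, 16, 5, 17, 9, 21, 6, 15, 23, 20, 22, 19],
   [18, 12, 16, 9, 13, 22, 1, 14, 6, 8, 20, 17, 3, 2, 21, 5, 0, 15, 4, 11, 23, 10, 19, 7],
   [13, 1, 4, 9, 16, 22, 3, 7, 18, 0, 5, 14, 12, 6, 19, 20, 8, 11, 2, 23, 10, 21, 15, 17]]

def KE : List (List ℕ) :=
  [[0, 1, 2, 3, 4, 5, 6, 7, 8, 9, 10, 11, 12, 13, 14, 15, 16, 17, 18, 19, 20, 21, 22, 23],
   [1, 2, 9, 16, 6, 7, 13, 5, 4, 18, 23, 15, 8, 0, 10, 17, 3, 19, 12, 20, 21, 14, 11, 22],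
   [3, 12, 13, 1, 2, 10, 4, 19, 16, 6, 23, 20, 9, 8, 21, 17, 0, 5, 18, 11, 15, 7, 22, 14]]

/-! ### The data at the prime 3 -/

def a3 : List ℕ := [0, 6, 3, 4, 2, 22, 18, 17, 8, 9, 19, 10, 13, 16, 7, 15, 12, 14, 1, 11, 5, 21, 20, 23]

def b3 : List ℕ := [9, 1, 6, 13, 4, 7, 12, 21, 0, 8, 10, 11, 2, 18, 23, 20, 16, 15, 3, 19, 17, 5, 14, 22]

def t3 : List ℕ := [8, 1, 3, 2, 4, 7, 18, 5, 0, 9, 11, 10, 13, 12, 22, 15, 16, 20, 6, 19, 17, 21, 14, 23]

def w3 : List (List ℕ) :=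
  [[], [0, 1, 0, 0, 1, 1], [0, 1, 0, 0, 1, 1, 0, 1, 0, 0, 1, 1], [1], [1, 0, 1, 0, 0, 1, 1],
   [1, 0, 1, 0, 0, 1, 1, 0, 1, 0, 0, 1, 1], [1, 1], [1, 1, 0, 1, 0, 0, 1, 1],
   [1, 1, 0, 1, 0, 0, 1, 1, 0, 1, 0, 0, 1, 1], [0], [0, 0, 1, 0, 0, 1, 1],
   [0, 0, 1, 0, 0, 1, 1, 0, 1, 0, 0, 1, 1], [0, 1], [0, 1, 0, 1, 0, 0, 1, 1],
   [0, 1, 0, 1, 0, 0, 1, 1, 0, 1, 0, 0, 1, 1], [0, 1, 1], [0, 1, 1, 0, 1, 0, 0, 1, 1],
   [0, 1, 1, 0, 1, 0, 0, 1, 1, 0, 1, 0, 0, 1, 1], [0, 0], [0, 0, 0, 1, 0, 0, 1, 1],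
   [0, 0, 0, 1, 0, 0, 1, 1, 0, 1, 0, 0, 1, 1], [0, 0, 1], [0, 0, 1, 0, 1, 0, 0, 1, 1],
   [0, 0, 1, 0, 1, 0, 0, 1, 1, 0, 1, 0, 0, 1, 1], [0, 0, 1, 1], [0, 0, 1, 1, 0, 1, 0, 0, 1, 1],
   [0, 0, 1, 1, 0, 1, 0, 0, 1, 1, 0, 1, 0, 0, 1, 1]]

def L3 : List (List ℕ) := tgElems [a3, b3] w3

theorem dataV : TgData gV LV := tgData_of_ok _ _ (by decide +kernel)

theorem nodupV : LV.Nodup := by decide +kernel

theorem dataD : TgData gD LD := tgData_of_ok _ _ (by decide +kernel)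

theorem nodupD : LD.Nodup := by decide +kernel

theorem data3 : TgData [a3, b3] L3 := tgData_of_ok _ _ (by decide +kernel)

theorem nodup3 : L3.Nodup := by decide +kernel

theorem leU : tgGrp (gV ++ gD) ≤ Spor.M12 :=
  tgGrp_le_of_check Spor.M12 inM12 inM12_sound (by decide +kernel)

theorem le3 : tgGrp [a3, b3] ≤ Spor.M12 :=
  tgGrp_le_of_check Spor.M12 inM12 inM12_sound (by decide +kernel)

theorem finM12 : Finite ↥Spor.M12 :=
  Nat.finite_of_card_ne_zero (by rw [card_SporM12]; norm_num)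

theorem chk_y3 : compT yT (compT yT yT) = idT := by decide +kernel

theorem chk_yV : LV.all (fun a => LV.contains (conjT yT a)) = true := by decide +kernel

theorem chk_fix : LV.all (fun a => a == idT || conjT yT a != a) = true := by decide +kernel

theorem chk_DV : LD.all (fun d => LV.all (fun a => LV.contains (conjT d a))) = true := by
  decide +kernel

theorem chk_Dy : LD.all (fun d => conjT d yT == yT || conjT d yT == invT yT) = true := by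
  decide +kernel

theorem a0_in : inM12 a0T = true := by decide +kernel

theorem f2_in : inM12 f2T = true := by decide +kernel

theorem kf2_in : inM12 kf2 = true := by decide +kernel

theorem kf12_in : inM12 kf12 = true := by decide +kernel

/-- The involution without fixed points, in `M₁₂`. -/
noncomputable def a0 : ↥Spor.M12 := ⟨tperm a0T, (inM12_sound a0T a0_in).2⟩

theorem a0_sq : a0 * a0 = 1 :=
  Subtype.ext (tperm_sq (inM12_sound a0T a0_in).1 (by decide +kernel))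

/-- The prime 2, for the stem extensions in which the lifts of `a0` square to one. -/
theorem local_two {Γ : Type} [Group Γ] (σ : Γ →* ↥Spor.M12) (hσ : Cfsg.IsStemExtension σ)
    (hexp : ∀ ζ ∈ σ.ker, ζ ^ 2 = 1) (hq : QOne σ a0) :
    ∃ U : Subgroup ↥Spor.M12, ¬ 2 ∣ U.index ∧ ∀ a ∈ ⁅U.comap σ, U.comap σ⁆, a ∈ σ.ker → a = 1 := by
  have : Finite ↥Spor.M12 := finM12
  have C : TabExt (Spor.M12.subtype.comp σ) inM12 :=
    tabExt_of_surjective inM12_sound σ hσ.1 hσ.2.1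
  have h2 : ∀ ζ ∈ (Spor.M12.subtype.comp σ).ker, ζ * ζ = 1 := by
    intro ζ hζ
    have hζ' : ζ ∈ σ.ker := by
      rw [MonoidHom.mem_ker] at hζ ⊢
      exact Subtype.ext hζ
    rw [← pow_two]
    exact hexp ζ hζ'
  have qA : QOne (Spor.M12.subtype.comp σ) (tperm a0T) := by
    intro g hg
    exact hq g (Subtype.ext hg)
  have qB : QOne (Spor.M12.subtype.comp σ) (tperm b0T) :=
    C.qOne_seven h2 (K := K7) (x0 := b0T) (u1 := u1) (u2 := u2) (u3 := u3) (by decide +kernel)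
      (by decide +kernel) (by decide +kernel) (by decide +kernel) (by decide +kernel)
      (by decide +kernel) (by decide +kernel) (by decide +kernel) (by decide +kernel)
  have hX : ∀ x ∈ [a0T, b0T], inM12 x = true ∧ compT x x = idT ∧
      QOne (Spor.M12.subtype.comp σ) (tperm x) := by
    intro x hx
    rcases List.mem_pair.mp hx with rfl | rfl
    · exact ⟨by decide +kernel, by decide +kernel, qA⟩
    · exact ⟨by decide +kernel, by decide +kernel, qB⟩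
  have qS := C.qOne_of_pairs h2 hX (K := KS) (L := LV.map (fun a => compT sT a))
    (by decide +kernel)
  have qE := C.qOne_of_pairs h2 hX (K := KE) (L := [sT, tT, compT sT tT]) (by decide +kernel)
  have hVab := C.abelian_of_inverting dataV (sT := sT) (by decide +kernel)
    (fun a ha => qS _ (List.mem_map_of_mem ha))
  obtain ⟨D₁, hD₁, hD₁k⟩ := C.lift_four dataD nodupD (by decide +kernel)
    (by decide +kernel) (by decide +kernel) (qE _ (by simp)) (qE _ (by simp)) (qE _ (by simp))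
  have key := C.two_local_ab h2 dataV dataD (yT := yT) (by decide +kernel) chk_y3
    (by decide +kernel) hVab chk_yV chk_fix chk_DV chk_Dy D₁ hD₁ hD₁k
  have hidx := not_two_dvd_index_tab (H := Spor.M12) dataV dataD nodupV nodupD 4 2
    (by decide +kernel) (by decide +kernel) leU (yT := yT) (by decide +kernel) chk_y3 chk_yV
    chk_fix chk_DV chk_Dy (by rw [card_SporM12]; norm_num)
  exact local_of_index (tgGrp (gV ++ gD)) 2 hidx σ key

/-- The prime 3. -/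
theorem local_three {Γ : Type} [Group Γ] (σ : Γ →* ↥Spor.M12) (hσ : Cfsg.IsStemExtension σ) :
    ∃ U : Subgroup ↥Spor.M12, ¬ 3 ∣ U.index ∧ ∀ a ∈ ⁅U.comap σ, U.comap σ⁆, a ∈ σ.ker → a = 1 := by
  have : Finite ↥Spor.M12 := finM12
  have C : TabExt (Spor.M12.subtype.comp σ) inM12 :=
    tabExt_of_surjective inM12_sound σ hσ.1 hσ.2.1
  have key := C.three_extraspecial (aT := a3) (bT := b3) (tT := t3) (by decide +kernel)
    (by decide +kernel) (by decide +kernel) (by decide +kernel) (by decide +kernel)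
    (by decide +kernel) (by decide +kernel) (by decide +kernel) (by decide +kernel)
    (by decide +kernel)
  exact local_of_tab data3 nodup3 le3 3 95040 card_SporM12 (by decide +kernel)
    (by decide +kernel) σ key

/-- A kernel of exponent 2 is generated by the square of a lift of `a0`. -/
theorem htwo : ∀ (Γ : Type) [Group Γ] [Finite Γ] (σ : Γ →* ↥Spor.M12), Cfsg.IsStemExtension σ →
    (∀ ζ ∈ σ.ker, ζ ^ 2 = 1) → ∀ α : Γ, σ α = a0 → ∀ ζ ∈ σ.ker, ζ = 1 ∨ ζ = α * α := by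
  have : Finite ↥Spor.M12 := finM12
  intro Γ _ _ σ hσ hexp α hα
  exact ker_le_sq_of_local a0 a0_sq
    (fun Γ' _ _ σ' hσ' hexp' hq' => local_two σ' hσ' hexp' hq') σ hσ hexp α hα

/-- A kernel of exponent 4 has exponent 2. -/
theorem hfour : ∀ (Γ : Type) [Group Γ] [Finite Γ] (σ : Γ →* ↥Spor.M12), Cfsg.IsStemExtension σ →
    (∀ ζ ∈ σ.ker, ζ ^ 4 = 1) → ∀ ζ ∈ σ.ker, ζ ^ 2 = 1 := by
  have : Finite ↥Spor.M12 := finM12
  intro Γ _ _ σ hσ hexp
  have ha := (inM12_sound a0T a0_in).1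
  have hf := (inM12_sound f2T f2_in).1
  have hk2 := (inM12_sound kf2 kf2_in).1
  have hk12 := (inM12_sound kf12 kf12_in).1
  refine exp_two_of_four_group a0 a0 ⟨tperm f2T, (inM12_sound f2T f2_in).2⟩ a0_sq ?_ ⟨1, by group⟩
    ⟨⟨tperm kf2, (inM12_sound kf2 kf2_in).2⟩, ?_⟩ ⟨⟨tperm kf12, (inM12_sound kf12 kf12_in).2⟩, ?_⟩
    htwo σ hσ hexp
  · apply Subtype.ext
    show tperm a0T * tperm f2T = tperm f2T * tperm a0T
    rw [tperm_mul ha hf, tperm_mul hf ha, show compT a0T f2T = compT f2T a0T from by decide +kernel]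
  · apply Subtype.ext
    show tperm f2T = tperm kf2 * tperm a0T * (tperm kf2)⁻¹
    rw [← tperm_conjT hk2 ha, show conjT kf2 a0T = f2T from by decide +kernel]
  · apply Subtype.ext
    show tperm a0T * tperm f2T = tperm kf12 * tperm a0T * (tperm kf12)⁻¹
    rw [tperm_mul ha hf, ← tperm_conjT hk12 ha,
      show conjT kf12 a0T = compT a0T f2T from by decide +kernel]

/-- The Schur multiplier of the Mathieu group M₁₂ (the stabiliser of a dodecad in the automorphism group of the length-24 binary code) is cyclic of order 2; here the Schur multiplier is described through stem extensions, as in the definitions: surjective homomorphisms onto the group from a finite group, whose kernel is central in that finite group and contained in that finite group's commutator subgroup. -/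
theorem result : Cfsg.HasCyclicSchurMultiplier ↥Cfsg.Spor.M12 2 := by
  have : Finite ↥Spor.M12 := finM12
  refine hasCyclicSchurMultiplier_two_of_local exists_m12_cover ?_ a0 a0_sq htwo hfour
  intro Γ _ _ σ hσ ℓ hℓ hne hexp
  by_cases h3 : ℓ = 3
  · subst h3
    exact local_three σ hσ
  have : Fact ℓ.Prime := ⟨hℓ⟩
  have hsq : ¬ ℓ ^ 2 ∣ Nat.card ↥Spor.M12 := by
    rw [card_SporM12]
    intro hd
    have hℓd : ℓ ∣ 95040 := (dvd_pow_self ℓ two_ne_zero).trans hd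
    have hcases : ℓ = 2 ∨ ℓ = 3 ∨ ℓ = 5 ∨ ℓ = 11 := by
      have hN : (95040 : ℕ) = 2 ^ 6 * 3 ^ 3 * 5 * 11 := by norm_num
      rw [hN] at hℓd
      rcases (Nat.Prime.dvd_mul hℓ).mp hℓd with h | h
      · rcases (Nat.Prime.dvd_mul hℓ).mp h with h | h
        · rcases (Nat.Prime.dvd_mul hℓ).mp h with h | h
          · left
            exact (Nat.prime_dvd_prime_iff_eq hℓ Nat.prime_two).mp (hℓ.dvd_of_dvd_pow h)
          · right; left
            exact (Nat.prime_dvd_prime_iff_eq hℓ Nat.prime_three).mp (hℓ.dvd_of_dvd_pow h)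
        · right; right; left
          exact (Nat.prime_dvd_prime_iff_eq hℓ (by norm_num)).mp h
      · right; right; right
        exact (Nat.prime_dvd_prime_iff_eq hℓ (by norm_num)).mp h
    rcases hcases with rfl | rfl | rfl | rfl
    · exact hne rfl
    · exact h3 rfl
    · norm_num at hd
    · norm_num at hd
  exact local_of_sq_not_dvd ℓ hsq σ hσ.2.1

end Cfsg.Agent.S2035
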