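import Cfsg.Statements.S2038
import Mathlib
import Cfsg.Agent.Lib.Helper70.TabLocal2

set_option autoImplicit false
set_option maxRecDepth 100000
open Cfsg

namespace Cfsg.Agent.S2038

open Cfsg.Agent.Lib.Helper9 Cfsg.Agent.Lib.Helper95 Cfsg.Agent.Lib.Helper89 Cfsg.Agent.Lib.Helper70

/-! ### The data at the prime 2: `V = 2⁶` (the normal subgroup of a sextet stabiliser), an element `y`
of order 3 acting without fixed points on `V`, and a group `⟨r⟩ × ⟨s, t⟩` of order 16 normalising `V`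
and `⟨y⟩` -/

def v1 : List ℕ := [23, 22, 16, 3, 13, 5, 6, 10, 14, 19, 7, 17, 12, 4, 8, 15, 2, 11, 18, 9, 20, 21, 1, 0]

def v2 : List ℕ := [0, 22, 16, 5, 4, 3, 15, 7, 14, 9, 10, 17, 18, 13, 8, 6, 2, 11, 12, 19, 21, 20, 1, 23]

def v3 : List ℕ := [0, 11, 14, 20, 4, 21, 18, 7, 16, 9, 10, 1, 15, 13, 2, 12, 8, 22, 6, 19, 3, 5, 17, 23]

def v4 : List ℕ := [7, 1, 14, 20, 13, 21, 6, 0, 16, 19, 23, 11, 12, 4, 2, 15, 8, 17, 18, 9, 3, 5, 22, 10]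

def v5 : List ℕ := [10, 1, 16, 5, 19, 3, 6, 23, 14, 13, 0, 11, 12, 9, 8, 15, 2, 17, 18, 4, 21, 20, 22, 7]

def v6 : List ℕ := [0, 22, 2, 20, 13, 21, 12, 7, 8, 19, 10, 17, 6, 4, 14, 18, 16, 11, 15, 9, 3, 5, 1, 23]

def yT : List ℕ := [7, 11, 14, 21, 13, 3, 18, 23, 2, 4, 10, 17, 6, 9, 8, 15, 16, 1, 12, 19, 20, 5, 22, 0]

def rT : List ℕ := [2, 17, 0, 5, 4, 3, 18, 8, 7, 13, 16, 11, 12, 9, 23, 15, 10, 1, 6, 19, 20, 21, 22, 14]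

def sT : List ℕ := [0, 3, 2, 1, 12, 17, 13, 7, 8, 18, 10, 21, 4, 6, 14, 19, 16, 5, 9, 15, 22, 11, 20, 23]

def tT : List ℕ := [0, 17, 2, 13, 21, 9, 18, 23, 14, 5, 10, 11, 12, 3, 8, 15, 16, 1, 6, 20, 19, 4, 22, 7]

def gV : List (List ℕ) := [v1, v2, v3, v4, v5, v6]

def gD : List (List ℕ) := [rT, sT, tT]

def wV : List (List ℕ) :=
  [[], [0], [1], [0, 1], [2], [0, 2], [1, 2], [0, 1, 2], [3], [0, 3], [1, 3], [0, 1, 3], [2, 3],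
   [0, 2, 3], [1, 2, 3], [0, 1, 2, 3], [4], [0, 4], [1, 4], [0, 1, 4], [2, 4], [0, 2, 4], [1, 2, 4],
   [0, 1, 2, 4], [3, 4], [0, 3, 4], [1, 3, 4], [0, 1, 3, 4], [2, 3, 4], [0, 2, 3, 4], [1, 2, 3, 4],
   [0, 1, 2, 3, 4], [5], [0, 5], [1, 5], [0, 1, 5], [2, 5], [0, 2, 5], [1, 2, 5], [0, 1, 2, 5], [3, 5],
   [0, 3, 5], [1, 3, 5], [0, 1, 3, 5], [2, 3, 5], [0, 2, 3, 5], [1, 2, 3, 5], [0, 1, 2, 3, 5], [4, 5],
   [0, 4, 5], [1, 4, 5], [0, 1, 4, 5], [2, 4, 5], [0, 2, 4, 5], [1, 2, 4, 5], [0, 1, 2, 4, 5],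
   [3, 4, 5], [0, 3, 4, 5], [1, 3, 4, 5], [0, 1, 3, 4, 5], [2, 3, 4, 5], [0, 2, 3, 4, 5],
   [1, 2, 3, 4, 5], [0, 1, 2, 3, 4, 5]]

def wD : List (List ℕ) :=
  [[], [1], [2], [1, 2], [2, 1], [1, 2, 1], [2, 1, 2], [1, 2, 1, 2], [0], [0, 1], [0, 2], [0, 1, 2],
   [0, 2, 1], [0, 1, 2, 1], [0, 2, 1, 2], [0, 1, 2, 1, 2]]

def LV : List (List ℕ) := tgElems gV wV

def LD : List (List ℕ) := tgElems gD wD

/-! ### Involutions: a group of order 8 with seven involutions fixing 8 points, and a group of order 8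
with six such involutions and one involution without fixed points -/

def uA1 : List ℕ := [23, 22, 16, 3, 13, 5, 6, 10, 14, 19, 7, 17, 12, 4, 8, 15, 2, 11, 18, 9, 20, 21, 1, 0]

def uA2 : List ℕ := [0, 22, 16, 5, 4, 3, 15, 7, 14, 9, 10, 17, 18, 13, 8, 6, 2, 11, 12, 19, 21, 20, 1, 23]

def uA3 : List ℕ := [10, 1, 16, 5, 19, 3, 6, 23, 14, 13, 0, 11, 12, 9, 8, 15, 2, 17, 18, 4, 21, 20, 22, 7]

def uB1 : List ℕ := [10, 1, 2, 20, 9, 21, 18, 23, 8, 4, 0, 11, 15, 19, 14, 12, 16, 17, 6, 13, 3, 5, 22, 7]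

def uB2 : List ℕ := [10, 1, 8, 3, 13, 5, 12, 23, 2, 19, 0, 11, 6, 4, 16, 18, 14, 17, 15, 9, 20, 21, 22, 7]

def uB3 : List ℕ := [10, 11, 14, 3, 9, 5, 6, 23, 16, 4, 0, 1, 12, 19, 2, 15, 8, 22, 18, 13, 20, 21, 17, 7]

def xB : List ℕ := [10, 11, 16, 20, 13, 21, 15, 23, 14, 19, 0, 1, 18, 4, 8, 6, 2, 22, 12, 9, 3, 5, 17, 7]

/-- Conjugating elements, in `M₂₄`. -/
def KA : List (List ℕ) :=
  [[0, 1, 2, 3, 4, 5, 6, 7, 8, 9, 10, 11, 12, 13, 14, 15, 16, 17, 18, 19, 20, 21, 22, 23],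
   [2, 5, 18, 9, 22, 7, 23, 15, 8, 20, 6, 11, 10, 1, 14, 13, 12, 17, 19, 21, 4, 0, 3, 16],
   [7, 4, 3, 22, 2, 6, 17, 13, 8, 20, 9, 10, 18, 16, 14, 12, 5, 0, 11, 21, 15, 1, 19, 23],
   [23, 10, 12, 1, 15, 16, 8, 4, 3, 21, 13, 9, 11, 6, 5, 17, 18, 19, 14, 20, 2, 22, 7, 0],
   [10, 5, 7, 2, 20, 18, 14, 4, 19, 11, 9, 22, 8, 21, 13, 15, 0, 1, 6, 17, 16, 12, 3, 23],
   [12, 7, 22, 8, 19, 2, 14, 13, 0, 15, 9, 11, 20, 4, 10, 16, 1, 17, 3, 6, 21, 5, 23, 18],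
   [15, 12, 7, 20, 23, 11, 17, 9, 2, 14, 4, 19, 3, 10, 16, 21, 0, 13, 22, 8, 1, 5, 18, 6]]

def KB : List (List ℕ) :=
  [[18, 19, 9, 22, 15, 17, 16, 3, 10, 5, 20, 23, 1, 12, 0, 8, 4, 7, 11, 21, 14, 2, 13, 6],
   [8, 18, 9, 20, 23, 22, 11, 4, 14, 12, 13, 10, 1, 7, 16, 5, 19, 0, 3, 6, 21, 17, 15, 2],
   [9, 7, 22, 5, 8, 15, 12, 11, 13, 0, 1, 2, 18, 16, 19, 21, 17, 14, 3, 10, 20, 6, 23, 4],
   [6, 19, 13, 10, 18, 23, 11, 21, 14, 20, 5, 8, 0, 12, 16, 22, 9, 2, 7, 3, 17, 1, 4, 15],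
   [16, 22, 6, 10, 5, 4, 7, 1, 20, 15, 11, 14, 13, 21, 3, 19, 18, 2, 23, 12, 9, 0, 17, 8],
   [18, 14, 17, 5, 9, 0, 3, 16, 19, 11, 2, 12, 7, 13, 4, 10, 22, 6, 20, 1, 23, 21, 8, 15]]

def KV : List (List ℕ) :=
  [[0, 1, 2, 3, 4, 5, 6, 7, 8, 9, 10, 11, 12, 13, 14, 15, 16, 17, 18, 19, 20, 21, 22, 23],
   [0, 1, 2, 3, 4, 5, 6, 7, 8, 9, 10, 11, 12, 13, 14, 15, 16, 17, 18, 19, 20, 21, 22, 23],
   [2, 5, 18, 9, 22, 7, 23, 15, 8, 20, 6, 11, 10, 1, 14, 13, 12, 17, 19, 21, 4, 0, 3, 16],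
   [23, 10, 12, 1, 15, 16, 8, 4, 3, 21, 13, 9, 11, 6, 5, 17, 18, 19, 14, 20, 2, 22, 7, 0],
   [16, 22, 6, 10, 5, 4, 7, 1, 20, 15, 11, 14, 13, 21, 3, 19, 18, 2, 23, 12, 9, 0, 17, 8],
   [2, 22, 0, 3, 13, 21, 6, 14, 10, 9, 8, 11, 12, 4, 7, 18, 23, 17, 15, 19, 20, 5, 1, 16],
   [2, 5, 21, 13, 16, 9, 10, 1, 6, 11, 17, 15, 19, 14, 12, 23, 3, 18, 4, 22, 7, 0, 20, 8],
   [3, 10, 15, 8, 1, 2, 9, 20, 6, 22, 21, 7, 4, 11, 12, 19, 18, 23, 13, 17, 16, 14, 0, 5],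
   [13, 9, 21, 12, 3, 22, 11, 7, 2, 16, 0, 10, 6, 20, 14, 18, 5, 23, 1, 8, 17, 15, 19, 4],
   [7, 8, 5, 19, 11, 6, 12, 20, 0, 14, 3, 1, 15, 17, 10, 9, 21, 22, 4, 16, 13, 18, 2, 23],
   [16, 17, 23, 15, 5, 12, 13, 8, 0, 21, 14, 11, 19, 20, 7, 4, 10, 1, 9, 3, 6, 18, 22, 2],
   [21, 15, 14, 1, 0, 17, 4, 5, 8, 7, 20, 12, 19, 10, 16, 13, 2, 18, 9, 23, 22, 11, 6, 3],
   [23, 12, 9, 21, 22, 8, 2, 4, 0, 6, 13, 11, 14, 17, 7, 20, 19, 1, 3, 18, 5, 16, 15, 10],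
   [17, 15, 0, 9, 14, 5, 3, 7, 11, 18, 23, 2, 21, 8, 22, 13, 10, 16, 4, 6, 19, 20, 12, 1],
   [20, 12, 22, 16, 0, 8, 19, 5, 1, 10, 21, 6, 13, 7, 17, 9, 11, 15, 4, 23, 2, 14, 18, 3],
   [11, 3, 23, 4, 12, 19, 14, 22, 10, 15, 17, 21, 2, 6, 0, 8, 7, 20, 16, 18, 9, 13, 5, 1],
   [7, 4, 3, 22, 2, 6, 17, 13, 8, 20, 9, 10, 18, 16, 14, 12, 5, 0, 11, 21, 15, 1, 19, 23],
   [10, 5, 7, 2, 20, 18, 14, 4, 19, 11, 9, 22, 8, 21, 13, 15, 0, 1, 6, 17, 16, 12, 3, 23],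
   [12, 7, 22, 8, 19, 2, 14, 13, 0, 15, 9, 11, 20, 4, 10, 16, 1, 17, 3, 6, 21, 5, 23, 18],
   [15, 12, 7, 20, 23, 11, 17, 9, 2, 14, 4, 19, 3, 10, 16, 21, 0, 13, 22, 8, 1, 5, 18, 6],
   [22, 7, 4, 6, 2, 12, 3, 1, 13, 14, 17, 23, 5, 8, 9, 21, 19, 10, 20, 16, 18, 15, 0, 11],
   [15, 11, 13, 0, 21, 10, 8, 18, 4, 20, 12, 22, 14, 3, 9, 16, 19, 17, 2, 5, 7, 23, 1, 6],
   [9, 2, 5, 7, 11, 10, 18, 19, 3, 17, 13, 14, 6, 22, 20, 15, 21, 8, 12, 1, 23, 0, 16, 4],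
   [9, 0, 21, 14, 11, 8, 15, 19, 3, 17, 4, 7, 6, 1, 20, 18, 5, 10, 12, 22, 16, 2, 23, 13],
   [19, 20, 7, 12, 16, 22, 6, 3, 2, 0, 21, 4, 1, 14, 8, 11, 10, 9, 15, 23, 17, 18, 5, 13],
   [4, 8, 5, 18, 22, 7, 15, 2, 11, 3, 14, 9, 23, 1, 17, 0, 20, 13, 12, 21, 10, 6, 16, 19],
   [7, 8, 21, 4, 17, 19, 18, 0, 3, 1, 10, 16, 6, 11, 20, 12, 5, 14, 15, 22, 9, 13, 2, 23],
   [6, 19, 13, 10, 18, 23, 11, 21, 14, 20, 5, 8, 0, 12, 16, 22, 9, 2, 7, 3, 17, 1, 4, 15],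
   [17, 14, 20, 12, 10, 6, 9, 11, 3, 23, 22, 8, 13, 7, 5, 4, 21, 16, 19, 0, 15, 18, 2, 1],
   [13, 5, 21, 8, 19, 2, 0, 11, 6, 17, 22, 15, 14, 4, 18, 7, 20, 12, 16, 1, 10, 23, 3, 9],
   [18, 4, 23, 16, 11, 14, 2, 1, 19, 12, 17, 10, 5, 22, 13, 8, 0, 7, 20, 6, 21, 3, 9, 15],
   [18, 14, 17, 5, 9, 0, 3, 16, 19, 11, 2, 12, 7, 13, 4, 10, 22, 6, 20, 1, 23, 21, 8, 15],
   [18, 5, 6, 10, 20, 2, 0, 17, 1, 13, 11, 19, 7, 3, 22, 8, 12, 9, 16, 4, 23, 14, 21, 15],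
   [23, 6, 10, 9, 15, 22, 13, 8, 2, 20, 14, 5, 4, 18, 16, 17, 7, 21, 11, 3, 19, 1, 12, 0],
   [16, 3, 19, 11, 18, 22, 17, 12, 5, 8, 15, 4, 23, 6, 20, 1, 9, 13, 7, 14, 0, 10, 21, 2],
   [17, 0, 1, 14, 10, 9, 2, 15, 6, 3, 12, 5, 8, 7, 18, 13, 22, 20, 19, 21, 16, 4, 23, 11],
   [16, 18, 1, 5, 19, 0, 3, 6, 4, 22, 15, 2, 7, 9, 13, 23, 17, 14, 21, 11, 10, 20, 12, 8],
   [15, 17, 16, 3, 10, 5, 20, 23, 1, 12, 0, 8, 4, 7, 11, 21, 14, 2, 13, 18, 19, 9, 22, 6],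
   [5, 8, 17, 6, 19, 23, 10, 1, 21, 14, 11, 13, 0, 9, 20, 18, 22, 4, 15, 16, 12, 7, 2, 3],
   [17, 14, 20, 12, 10, 6, 9, 11, 3, 23, 22, 8, 13, 7, 5, 4, 21, 16, 19, 0, 15, 18, 2, 1],
   [15, 16, 7, 13, 11, 4, 5, 6, 10, 22, 12, 2, 20, 17, 23, 21, 0, 14, 3, 1, 9, 19, 8, 18],
   [8, 18, 9, 20, 23, 22, 11, 4, 14, 12, 13, 10, 1, 7, 16, 5, 19, 0, 3, 6, 21, 17, 15, 2],
   [7, 21, 8, 9, 12, 19, 17, 10, 14, 18, 23, 3, 1, 15, 16, 22, 2, 5, 11, 6, 13, 4, 20, 0],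
   [17, 7, 12, 8, 4, 2, 3, 1, 6, 19, 11, 23, 20, 13, 18, 5, 15, 10, 21, 9, 16, 14, 0, 22],
   [20, 12, 22, 16, 0, 8, 19, 5, 1, 10, 21, 6, 13, 7, 17, 9, 11, 15, 4, 23, 2, 14, 18, 3],
   [0, 1, 2, 3, 4, 5, 6, 7, 8, 9, 10, 11, 12, 13, 14, 15, 16, 17, 18, 19, 20, 21, 22, 23],
   [2, 22, 5, 9, 23, 4, 19, 0, 1, 8, 7, 3, 12, 10, 11, 13, 20, 21, 18, 14, 15, 6, 17, 16],
   [23, 5, 19, 15, 1, 12, 18, 11, 3, 10, 22, 4, 2, 17, 21, 6, 9, 13, 16, 0, 8, 14, 20, 7],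
   [11, 3, 23, 4, 12, 19, 14, 22, 10, 15, 17, 21, 2, 6, 0, 8, 7, 20, 16, 18, 9, 13, 5, 1],
   [18, 23, 20, 16, 4, 17, 11, 21, 12, 0, 3, 13, 22, 19, 6, 8, 5, 9, 2, 7, 14, 1, 10, 15],
   [18, 19, 9, 22, 15, 17, 16, 3, 10, 5, 20, 23, 1, 12, 0, 8, 4, 7, 11, 21, 14, 2, 13, 6],
   [15, 16, 7, 13, 11, 4, 5, 6, 10, 22, 12, 2, 20, 17, 23, 21, 0, 14, 3, 1, 9, 19, 8, 18],
   [9, 7, 20, 14, 6, 2, 22, 13, 5, 18, 4, 23, 17, 15, 3, 11, 21, 0, 1, 12, 16, 8, 10, 19],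
   [12, 14, 0, 1, 3, 17, 9, 6, 23, 21, 18, 2, 19, 5, 10, 13, 7, 8, 4, 20, 11, 22, 16, 15],
   [9, 7, 22, 5, 8, 15, 12, 11, 13, 0, 1, 2, 18, 16, 19, 21, 17, 14, 3, 10, 20, 6, 23, 4],
   [22, 7, 4, 6, 2, 12, 3, 1, 13, 14, 17, 23, 5, 8, 9, 21, 19, 10, 20, 16, 18, 15, 0, 11],
   [4, 17, 6, 3, 0, 21, 14, 13, 18, 10, 19, 11, 2, 23, 15, 16, 12, 22, 8, 7, 5, 20, 1, 9],
   [15, 19, 21, 22, 16, 23, 0, 3, 12, 9, 5, 2, 10, 8, 6, 11, 20, 14, 1, 4, 17, 7, 13, 18],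
   [2, 4, 16, 20, 13, 22, 21, 6, 15, 0, 18, 10, 5, 9, 12, 11, 8, 7, 1, 23, 3, 17, 19, 14],
   [13, 1, 18, 5, 8, 20, 21, 14, 17, 4, 16, 15, 0, 2, 11, 3, 6, 12, 23, 9, 10, 7, 22, 19],
   [12, 7, 8, 21, 11, 20, 9, 6, 16, 1, 18, 10, 19, 22, 2, 13, 14, 0, 4, 17, 3, 5, 23, 15],
   [11, 19, 17, 23, 4, 14, 10, 15, 18, 5, 6, 3, 7, 9, 12, 8, 22, 21, 2, 20, 0, 16, 13, 1],
   [9, 0, 21, 14, 11, 8, 15, 19, 3, 17, 4, 7, 6, 1, 20, 18, 5, 10, 12, 22, 16, 2, 23, 13],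
   [9, 2, 5, 7, 11, 10, 18, 19, 3, 17, 13, 14, 6, 22, 20, 15, 21, 8, 12, 1, 23, 0, 16, 4]]

def KE : List (List ℕ) :=
  [[17, 10, 14, 12, 9, 15, 19, 18, 7, 3, 6, 2, 21, 13, 8, 4, 23, 0, 20, 5, 11, 22, 16, 1],
   [4, 18, 20, 16, 5, 0, 7, 13, 3, 11, 6, 19, 2, 17, 1, 23, 22, 15, 8, 21, 14, 10, 9, 12],
   [18, 9, 20, 2, 14, 12, 11, 21, 17, 3, 4, 23, 15, 8, 1, 10, 19, 7, 16, 13, 0, 22, 5, 6],
   [18, 3, 6, 7, 13, 10, 14, 19, 4, 11, 20, 15, 23, 5, 21, 16, 17, 22, 2, 12, 8, 0, 9, 1],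
   [23, 1, 11, 6, 16, 13, 12, 0, 22, 7, 14, 5, 15, 10, 20, 4, 21, 17, 19, 8, 9, 18, 3, 2],
   [8, 9, 5, 17, 14, 18, 22, 21, 16, 19, 4, 2, 1, 7, 10, 11, 13, 0, 6, 20, 12, 15, 3, 23]]

/-! ### The data at the prime 3 -/

def a3 : List ℕ := [3, 0, 2, 1, 13, 17, 12, 21, 8, 4, 20, 7, 18, 9, 14, 15, 16, 23, 6, 19, 22, 11, 10, 5]

def b3 : List ℕ := [21, 23, 4, 1, 12, 17, 14, 5, 9, 18, 20, 0, 2, 6, 13, 16, 19, 7, 8, 15, 22, 11, 10, 3]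

def t3 : List ℕ := [0, 3, 2, 1, 12, 17, 13, 7, 8, 18, 10, 21, 4, 6, 14, 19, 16, 5, 9, 15, 22, 11, 20, 23]

def w3 : List (List ℕ) :=
  [[], [0, 1, 0, 0, 1, 1], [0, 1, 0, 0, 1, 1, 0, 1, 0, 0, 1, 1], [1], [1, 0, 1, 0, 0, 1, 1],
   [1, 0, 1, 0, 0, 1, 1, 0, 1, 0, 0, 1, 1], [1, 1], [1, 1, 0, 1, 0, 0, 1, 1],
   [1, 1, 0, 1, 0, 0, 1, 1, 0, 1, 0, 0, 1, 1], [0], [0, 0, 1, 0, 0, 1, 1],
   [0, 0, 1, 0, 0, 1, 1, 0, 1, 0, 0, 1, 1], [0, 1], [0, 1, 0, 1, 0, 0, 1, 1],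
   [0, 1, 0, 1, 0, 0, 1, 1, 0, 1, 0, 0, 1, 1], [0, 1, 1], [0, 1, 1, 0, 1, 0, 0, 1, 1],
   [0, 1, 1, 0, 1, 0, 0, 1, 1, 0, 1, 0, 0, 1, 1], [0, 0], [0, 0, 0, 1, 0, 0, 1, 1],
   [0, 0, 0, 1, 0, 0, 1, 1, 0, 1, 0, 0, 1, 1], [0, 0, 1], [0, 0, 1, 0, 1, 0, 0, 1, 1],
   [0, 0, 1, 0, 1, 0, 0, 1, 1, 0, 1, 0, 0, 1, 1], [0, 0, 1, 1], [0, 0, 1, 1, 0, 1, 0, 0, 1, 1],
   [0, 0, 1, 1, 0, 1, 0, 0, 1, 1, 0, 1, 0, 0, 1, 1]]

def L3 : List (List ℕ) := tgElems [a3, b3] w3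

theorem dataV : TgData gV LV := tgData_of_ok _ _ (by decide +kernel)

theorem nodupV : LV.Nodup := by decide +kernel

theorem dataD : TgData gD LD := tgData_of_ok _ _ (by decide +kernel)

theorem nodupD : LD.Nodup := by decide +kernel

theorem data3 : TgData [a3, b3] L3 := tgData_of_ok _ _ (by decide +kernel)

theorem nodup3 : L3.Nodup := by decide +kernel

theorem leU : tgGrp (gV ++ gD) ≤ M24 :=
  tgGrp_le_of_check M24 inM24 inM24_sound (by decide +kernel)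

theorem le3 : tgGrp [a3, b3] ≤ M24 :=
  tgGrp_le_of_check M24 inM24 inM24_sound (by decide +kernel)

theorem finM24 : Finite ↥M24 :=
  Nat.finite_of_card_ne_zero (by rw [card_SporM24]; norm_num)

theorem chk_y3 : compT yT (compT yT yT) = idT := by decide +kernel

theorem chk_yV : LV.all (fun a => LV.contains (conjT yT a)) = true := by decide +kernel

theorem chk_fix : LV.all (fun a => a == idT || conjT yT a != a) = true := by decide +kernel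

theorem chk_DV : LD.all (fun d => LV.all (fun a => LV.contains (conjT d a))) = true := by
  decide +kernel

theorem chk_Dy : LD.all (fun d => conjT d yT == yT || conjT d yT == invT yT) = true := by
  decide +kernel

theorem xB_eq : compT (compT uB1 uB2) uB3 = xB := by decide +kernel

/-- The prime 2. -/
theorem local_two {Γ : Type} [Group Γ] (σ : Γ →* ↥M24) (hσ : Cfsg.IsStemExtension σ)
    (hexp : ∀ ζ ∈ σ.ker, ζ ^ 2 = 1) :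
    ∃ U : Subgroup ↥M24, ¬ 2 ∣ U.index ∧ ∀ a ∈ ⁅U.comap σ, U.comap σ⁆, a ∈ σ.ker → a = 1 := by
  have : Finite ↥M24 := finM24
  have C : TabExt (M24.subtype.comp σ) inM24 :=
    tabExt_of_surjective inM24_sound σ hσ.1 hσ.2.1
  have h2 : ∀ ζ ∈ (M24.subtype.comp σ).ker, ζ * ζ = 1 := by
    intro ζ hζ
    have hζ' : ζ ∈ σ.ker := by
      rw [MonoidHom.mem_ker] at hζ ⊢
      exact Subtype.ext hζ
    rw [← pow_two]
    exact hexp ζ hζ'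
  have qA : QOne (M24.subtype.comp σ) (tperm uA1) :=
    C.qOne_seven h2 (K := KA) (u1 := uA1) (u2 := uA2) (u3 := uA3) (by decide +kernel)
      (by decide +kernel) (by decide +kernel) (by decide +kernel) (by decide +kernel)
      (by decide +kernel) (by decide +kernel) (by decide +kernel) (by decide +kernel)
  have hXA : ∀ x ∈ [uA1], inM24 x = true ∧ compT x x = idT ∧
      QOne (M24.subtype.comp σ) (tperm x) := by
    intro x hx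
    rw [List.mem_singleton] at hx
    subst hx
    exact ⟨by decide +kernel, by decide +kernel, qA⟩
  have q6 := C.qOne_of_pairs h2 hXA (K := KB)
    (L := [uB1, uB2, uB3, compT uB1 uB2, compT uB1 uB3, compT uB2 uB3]) (by decide +kernel)
  have qB : QOne (M24.subtype.comp σ) (tperm xB) := by
    rw [← xB_eq]
    exact C.qOne_six h2 (by decide +kernel) (by decide +kernel) (by decide +kernel)
      (by decide +kernel) (by decide +kernel) (by decide +kernel) (by decide +kernel)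
      (by decide +kernel) (by decide +kernel) (q6 _ (by simp)) (q6 _ (by simp)) (q6 _ (by simp))
      (q6 _ (by simp)) (q6 _ (by simp)) (q6 _ (by simp))
  have hX : ∀ x ∈ [uA1, xB], inM24 x = true ∧ compT x x = idT ∧
      QOne (M24.subtype.comp σ) (tperm x) := by
    intro x hx
    rcases List.mem_pair.mp hx with rfl | rfl
    · exact ⟨by decide +kernel, by decide +kernel, qA⟩
    · exact ⟨by decide +kernel, by decide +kernel, qB⟩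
  have qV := C.qOne_of_pairs h2 hX (K := KV) (L := LV) (by decide +kernel)
  have qE := C.qOne_of_pairs h2 hX (K := KE)
    (L := [rT, sT, tT, compT (compT sT tT) (compT sT tT), compT sT rT, compT tT rT])
    (by decide +kernel)
  obtain ⟨D₁, hD₁, hD₁k⟩ := C.lift_dihedral_two dataD nodupD (by decide +kernel)
    (by decide +kernel) (by decide +kernel) (by decide +kernel) (qE _ (by simp)) (qE _ (by simp))
    (qE _ (by simp)) (qE _ (by simp)) (qE _ (by simp)) (qE _ (by simp))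
  have key := C.two_local h2 dataV dataD (yT := yT) (by decide +kernel) chk_y3
    (by decide +kernel) qV chk_yV chk_fix chk_DV chk_Dy D₁ hD₁ hD₁k
  have hidx := not_two_dvd_index_tab (H := M24) dataV dataD nodupV nodupD 6 4 (by decide +kernel)
    (by decide +kernel) leU (yT := yT) (by decide +kernel) chk_y3 chk_yV chk_fix chk_DV chk_Dy
    (by rw [card_SporM24]; norm_num)
  exact local_of_index (tgGrp (gV ++ gD)) 2 hidx σ key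

/-- The prime 3. -/
theorem local_three {Γ : Type} [Group Γ] (σ : Γ →* ↥M24) (hσ : Cfsg.IsStemExtension σ) :
    ∃ U : Subgroup ↥M24, ¬ 3 ∣ U.index ∧ ∀ a ∈ ⁅U.comap σ, U.comap σ⁆, a ∈ σ.ker → a = 1 := by
  have : Finite ↥M24 := finM24
  have C : TabExt (M24.subtype.comp σ) inM24 :=
    tabExt_of_surjective inM24_sound σ hσ.1 hσ.2.1
  have key := C.three_extraspecial (aT := a3) (bT := b3) (tT := t3) (by decide +kernel)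
    (by decide +kernel) (by decide +kernel) (by decide +kernel) (by decide +kernel)
    (by decide +kernel) (by decide +kernel) (by decide +kernel) (by decide +kernel)
    (by decide +kernel)
  exact local_of_tab data3 nodup3 le3 3 244823040 card_SporM24 (by decide +kernel)
    (by decide +kernel) σ key

/-- The Schur multiplier of the Mathieu group M₂₄ (the automorphism group of the length-24 binary code) is trivial; here the Schur multiplier is described through stem extensions, as in the definitions: surjective homomorphisms onto the group from a finite group, whose kernel is central in that finite group and contained in that finite group's commutator subgroup. -/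
theorem result : Cfsg.HasCyclicSchurMultiplier ↥Cfsg.M24 1 := by
  have : Finite ↥M24 := finM24
  apply hasCyclicSchurMultiplier_one_of_local_exp
  intro Γ _ _ σ hσ ℓ hℓ hexp
  by_cases h2 : ℓ = 2
  · subst h2
    exact local_two σ hσ hexp
  by_cases h3 : ℓ = 3
  · subst h3
    exact local_three σ hσ
  have : Fact ℓ.Prime := ⟨hℓ⟩
  have hsq : ¬ ℓ ^ 2 ∣ Nat.card ↥M24 := by
    rw [card_SporM24]
    intro hd
    have hℓd : ℓ ∣ 244823040 := (dvd_pow_self ℓ two_ne_zero).trans hd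
    have hcases : ℓ = 2 ∨ ℓ = 3 ∨ ℓ = 5 ∨ ℓ = 7 ∨ ℓ = 11 ∨ ℓ = 23 := by
      have hN : (244823040 : ℕ) = 2 ^ 10 * 3 ^ 3 * 5 * 7 * 11 * 23 := by norm_num
      rw [hN] at hℓd
      rcases (Nat.Prime.dvd_mul hℓ).mp hℓd with h | h
      · rcases (Nat.Prime.dvd_mul hℓ).mp h with h | h
        · rcases (Nat.Prime.dvd_mul hℓ).mp h with h | h
          · rcases (Nat.Prime.dvd_mul hℓ).mp h with h | h
            · rcases (Nat.Prime.dvd_mul hℓ).mp h with h | h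
              · left
                exact (Nat.prime_dvd_prime_iff_eq hℓ Nat.prime_two).mp (hℓ.dvd_of_dvd_pow h)
              · right; left
                exact (Nat.prime_dvd_prime_iff_eq hℓ Nat.prime_three).mp (hℓ.dvd_of_dvd_pow h)
            · right; right; left
              exact (Nat.prime_dvd_prime_iff_eq hℓ (by norm_num)).mp h
          · right; right; right; left
            exact (Nat.prime_dvd_prime_iff_eq hℓ (by norm_num)).mp h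
        · right; right; right; right; left
          exact (Nat.prime_dvd_prime_iff_eq hℓ (by norm_num)).mp h
      · right; right; right; right; right
        exact (Nat.prime_dvd_prime_iff_eq hℓ (by norm_num)).mp h
    rcases hcases with rfl | rfl | rfl | rfl | rfl | rfl
    · exact h2 rfl
    · exact h3 rfl
    · norm_num at hd
    · norm_num at hd
    · norm_num at hd
    · norm_num at hd
  exact local_of_sq_not_dvd ℓ hsq σ hσ.2.1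

end Cfsg.Agent.S2038
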