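import Cfsg.Statements.S2039
import Cfsg.Agent.Lib.Helper70.J1Simple
import Cfsg.Agent.Lib.Helper70.Frob56
import Cfsg.Agent.Lib.Helper70.SchurLocal

set_option autoImplicit false
open Cfsg

namespace Cfsg.Agent.S2039

open Cfsg.Agent.Lib.Helper70 Cfsg.Agent.Lib.Helper70.J1 Cfsg.Spor

open scoped commutatorElement

/-- Code of the inverse of the generator `X`. -/
def cXinv : ℕ := 0x100000001000000010000000100000001000000011000000

/-- Index in the table `S0C` of the `r`-th involution, in the order in which `X⁻¹` permutes them. -/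
def idx (r : ℕ) : ℕ := Nat.add 1 (Nat.mod (Nat.sub 7 (Nat.mod r 7)) 7)

theorem idx_lt (r : ℕ) : idx r < 8 := by
  show 1 + (7 - r % 7) % 7 < 8
  omega

theorem idx_mod (r : ℕ) : idx (r % 7) = idx r := by
  show 1 + (7 - r % 7 % 7) % 7 = 1 + (7 - r % 7) % 7
  rw [Nat.mod_mod]

theorem S0_rep : allLt 8 (fun i => Nat.blt (S0K i) 3080 && Nat.blt (S0c i) 57 &&
    mulEq (U (S0K i)) (Kt (S0c i)) (S0C i) cI) = true := by decide +kernel

theorem S0_elt (i : ℕ) (hi : i < 8) : ∃ g : ↥J1, IsCode g (S0C i) := by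
  have := (allLt_iff _ _).mp S0_rep i hi
  rw [Bool.and_eq_true, Bool.and_eq_true] at this
  exact exists_isCode _ _ _ this.1.1 this.1.2 this.2

theorem chk_conj : allLt 7 (fun r =>
    mulEq cXinv (S0C (idx r)) (S0C (idx (Nat.add r 1))) cXinv) = true := by decide +kernel

theorem chk_rel : allLt 7 (fun r =>
    mulEq (S0C (idx r)) (S0C (idx (Nat.add r 1))) (S0C (idx (Nat.add r 3))) cI) = true := by
  decide +kernel

theorem chk_comm : allLt 7 (fun r => allLt 7 fun s =>
    mulEq (S0C (idx r)) (S0C (idx s)) (S0C (idx s)) (S0C (idx r))) = true := by decide +kernel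

theorem chk_idx : allLt 8 (fun m => Nat.beq m 0 || Nat.beq (idx (Nat.sub 8 m)) m) = true := by
  decide +kernel

theorem isCode_gX_inv : IsCode gX⁻¹ cXinv := isCode_gX.inv (by decide +kernel)

/-- The local data at the prime 2: a Sylow `2`-subgroup whose preimage in any central extension
is abelian. -/
theorem local_two {Γ : Type} [Group Γ] (σ : Γ →* ↥J1) (hσ : Function.Surjective σ)
    (hker : σ.ker ≤ Subgroup.center Γ) :
    ∃ H : Subgroup ↥J1, ¬ 2 ∣ H.index ∧ ∀ x ∈ H.comap σ, ∀ y ∈ H.comap σ, x * y = y * x := by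
  obtain ⟨H, hH8, hH⟩ := exists_S0
  have : Finite ↥J1 := finite_J1
  refine ⟨H, ?_, ?_⟩
  · have h := Subgroup.card_mul_index H
    rw [hH8, card_J1] at h
    omega
  have hex : ∀ r : ℕ, ∃ g : ↥J1, IsCode g (S0C (idx r)) := fun r => S0_elt _ (idx_lt r)
  choose e he using hex
  have hmod : ∀ r, e r = e (r % 7) := by
    intro r
    have h1 := he (r % 7)
    rw [idx_mod] at h1
    exact (he r).ext h1
  refine comap_commute_of_frob σ hσ hker H e gX⁻¹ ?_ ?_ ?_ ?_ ?_
  · intro s hs
    obtain ⟨m, hm, hsm⟩ := (hH s).mp hs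
    have := (allLt_iff _ _).mp chk_idx m hm
    rw [Bool.or_eq_true] at this
    rcases this with h0 | h1
    · left
      have hm0 : m = 0 := Nat.eq_of_beq_eq_true h0
      rw [hm0, S0C_zero] at hsm
      exact hsm.eq_one
    · right
      have hm1 : idx (Nat.sub 8 m) = m := Nat.eq_of_beq_eq_true h1
      refine ⟨Nat.sub 8 m, ?_⟩
      have h2 := he (Nat.sub 8 m)
      rw [hm1] at h2
      exact hsm.ext h2
  · intro i
    have h1 := (allLt_iff _ _).mp chk_conj (i % 7) (Nat.mod_lt _ (by norm_num))
    have h2 := isCode_gX_inv.conj (he (i % 7)) h1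
    have h3 : e (i + 1) = e (i % 7 + 1) := by
      rw [hmod (i + 1), hmod (i % 7 + 1)]
      congr 1
      omega
    rw [hmod i, h3]
    exact h2.ext (he _)
  · intro i
    rw [hmod (i + 7), hmod i]
    congr 1
    omega
  · intro i
    have h1 := (allLt_iff _ _).mp chk_rel (i % 7) (Nat.mod_lt _ (by norm_num))
    have h2 := (he (i % 7)).mul (he (Nat.add (i % 7) 1)) h1
    have h3 : e (i + 1) = e (i % 7 + 1) := by
      rw [hmod (i + 1), hmod (i % 7 + 1)]
      congr 1
      omega
    have h4 : e (i + 3) = e (i % 7 + 3) := by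
      rw [hmod (i + 3), hmod (i % 7 + 3)]
      congr 1
      omega
    rw [hmod i, h3, h4]
    exact h2.ext (he _)
  · intro i j
    have h1 := (allLt_iff _ _).mp ((allLt_iff _ _).mp chk_comm (i % 7) (Nat.mod_lt _ (by norm_num)))
      (j % 7) (Nat.mod_lt _ (by norm_num))
    have h2 : dec (S0C (idx (i % 7))) * dec (S0C (idx (j % 7))) =
        dec (S0C (idx (j % 7))) * dec (S0C (idx (i % 7))) := (mulEq_iff _ _ _ _).mp h1
    rw [hmod i, hmod j]
    apply Subtype.ext
    apply Units.ext
    have hi := he (i % 7)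
    have hj := he (j % 7)
    unfold IsCode at hi hj
    rw [Subgroup.coe_mul, Subgroup.coe_mul, Units.val_mul, Units.val_mul, hi, hj, h2]

theorem isCyclic_sylow_of_sq_not_dvd {G : Type*} [Group G] [Finite G] (p : ℕ) [Fact p.Prime]
    (h : ¬ p ^ 2 ∣ Nat.card G) (P : Sylow p G) : IsCyclic P := by
  obtain ⟨n, hn⟩ := IsPGroup.iff_card.mp P.isPGroup'
  have hdvd : Nat.card P ∣ Nat.card G := Subgroup.card_subgroup_dvd_card _
  have hn1 : n ≤ 1 := by
    by_contra hlt
    have hlt' : 2 ≤ n := by omega
    exact h ((pow_dvd_pow p hlt').trans (hn ▸ hdvd))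
  interval_cases n
  · have : Subsingleton P := (Nat.card_eq_one_iff_unique.mp (by simpa using hn)).1
    exact isCyclic_of_subsingleton
  · exact isCyclic_of_prime_card (p := p) (by simpa using hn)

/-- The Schur multiplier of the Janko group J₁ (the group generated by two explicit 7 × 7 matrices over the integers modulo 11) is trivial; here the Schur multiplier is described through stem extensions, as in the definitions: surjective homomorphisms onto the group from a finite group, whose kernel is central in that finite group and contained in that finite group's commutator subgroup. -/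
theorem result : Cfsg.HasCyclicSchurMultiplier ↥Cfsg.Spor.J1 1 := by
  have : Finite ↥Spor.J1 := finite_J1
  apply hasCyclicSchurMultiplier_one_of_local
  intro Γ _ _ σ hσ ℓ hℓ
  by_cases h2 : ℓ = 2
  · subst h2
    obtain ⟨H, hidx, hcomm⟩ := local_two σ hσ.1 hσ.2.1
    refine ⟨H, hidx, ?_⟩
    have hbot : ⁅H.comap σ, H.comap σ⁆ = ⊥ := by
      rw [Subgroup.commutator_eq_bot_iff_le_centralizer]
      intro x hx
      rw [Subgroup.mem_centralizer_iff]
      intro y hy
      exact hcomm y hy x hx
    intro a ha _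
    rw [hbot] at ha
    exact Subgroup.mem_bot.mp ha
  have : Fact ℓ.Prime := ⟨hℓ⟩
  have hsq : ¬ ℓ ^ 2 ∣ Nat.card ↥Spor.J1 := by
    rw [card_J1]
    intro hd
    have hℓd : ℓ ∣ 175560 := (dvd_pow_self ℓ two_ne_zero).trans hd
    have hle : ℓ ≤ 175560 := Nat.le_of_dvd (by norm_num) hℓd
    have hcases : ℓ = 2 ∨ ℓ = 3 ∨ ℓ = 5 ∨ ℓ = 7 ∨ ℓ = 11 ∨ ℓ = 19 := by
      have h175560 : (175560 : ℕ) = 2 ^ 3 * 3 * 5 * 7 * 11 * 19 := by norm_num
      rw [h175560] at hℓd
      rcases (Nat.Prime.dvd_mul hℓ).mp hℓd with h | h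
      · rcases (Nat.Prime.dvd_mul hℓ).mp h with h | h
        · rcases (Nat.Prime.dvd_mul hℓ).mp h with h | h
          · rcases (Nat.Prime.dvd_mul hℓ).mp h with h | h
            · rcases (Nat.Prime.dvd_mul hℓ).mp h with h | h
              · left
                exact (Nat.prime_dvd_prime_iff_eq hℓ Nat.prime_two).mp (hℓ.dvd_of_dvd_pow h)
              · right; left
                exact (Nat.prime_dvd_prime_iff_eq hℓ Nat.prime_three).mp h
            · right; right; left
              exact (Nat.prime_dvd_prime_iff_eq hℓ (by norm_num)).mp h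
          · right; right; right; left
            exact (Nat.prime_dvd_prime_iff_eq hℓ (by norm_num)).mp h
        · right; right; right; right; left
          exact (Nat.prime_dvd_prime_iff_eq hℓ (by norm_num)).mp h
      · right; right; right; right; right
        exact (Nat.prime_dvd_prime_iff_eq hℓ (by norm_num)).mp h
    rcases hcases with rfl | rfl | rfl | rfl | rfl | rfl
    · exact h2 rfl
    all_goals norm_num at hd
  let R : Sylow ℓ ↥Spor.J1 := default
  have hcyc := isCyclic_sylow_of_sq_not_dvd ℓ hsq R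
  refine ⟨R, R.not_dvd_index, ?_⟩
  have hbot := commutator_comap_eq_bot_of_isCyclic σ hσ.2.1 (R : Subgroup ↥Spor.J1)
  intro a ha _
  rw [hbot] at ha
  exact Subgroup.mem_bot.mp ha

end Cfsg.Agent.S2039
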