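import Cfsg.Statements.S2086
import Cfsg.Agent.Lib.Helper48.MulMain

set_option autoImplicit false
open Cfsg

namespace Cfsg.Agent.S2086

/-- Schur multipliers of the linear groups: for n ≥ 2 and a field F with q elements (q ≥ 4 when n = 2), apart from the five exceptional pairs (n, q) = (2, 4), (2, 9), (3, 2), (3, 4), (4, 2), the Schur multiplier of PSL_n(F) is cyclic of order gcd(n, q − 1); here the Schur multiplier is described through stem extensions, as in the definitions. -/
theorem result {F : Type*} [Field F] [Fintype F] {q : ℕ} (hF : Fintype.card F = q) (n : ℕ) (hn : 2 ≤ n) (h2 : n = 2 → 4 ≤ q) (hexc : (n, q) ∉ ({(2, 4), (2, 9), (3, 2), (3, 4), (4, 2)} : Set (ℕ × ℕ))) : Cfsg.HasCyclicSchurMultiplier (Matrix.ProjectiveSpecialLinearGroup (Fin n) F) (Nat.gcd n (q - 1)) := by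
  exact Cfsg.Agent.Lib.Helper48.Mul.psl_multiplier hF n hn h2 hexc

end Cfsg.Agent.S2086
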