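import Cfsg.Statements.S2087
import Mathlib
import Cfsg.Agent.Lib.Helper70.SchurLocal
import Cfsg.Agent.S2117
import Cfsg.Agent.S3958
import Cfsg.Agent.S0255

set_option autoImplicit false
open Cfsg

namespace Cfsg.Agent.S2087

open Cfsg.Agent.Lib.Helper70
open scoped commutatorElement

instance fact7 : Fact (Nat.Prime 7) := ⟨by norm_num⟩

/-- `SL₂(7)`. -/
abbrev S7 : Type := Matrix.SpecialLinearGroup (Fin 2) (ZMod 7)

/-- The projection `SL₂(7) → PSL₂(7)`. -/
abbrev pr7 : S7 →* Matrix.ProjectiveSpecialLinearGroup (Fin 2) (ZMod 7) :=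
  QuotientGroup.mk' (Subgroup.center S7)

def mA : S7 := ⟨!![0, 1; -1, 0], by decide⟩

def mB : S7 := ⟨!![2, 3; 3, -2], by decide⟩

theorem center_le_commutator : Subgroup.center S7 ≤ commutator S7 := by
  intro c hc
  obtain ⟨r, hr, hrc⟩ := Matrix.SpecialLinearGroup.mem_center_iff.mp hc
  have hr' : r = 1 ∨ r = -1 := by
    have : ∀ r : ZMod 7, r ^ 2 = 1 → r = 1 ∨ r = -1 := by decide
    exact this r (by simpa using hr)
  rcases hr' with rfl | rfl
  · have : c = 1 := by
      apply Subtype.ext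
      rw [← hrc]; simp
    rw [this]; exact Subgroup.one_mem _
  · have h1 : mA * mB = c * (mB * mA) := by
      apply Subtype.ext
      show (!![0, 1; -1, 0] : Matrix (Fin 2) (Fin 2) (ZMod 7)) * !![2, 3; 3, -2] =
        (c : Matrix (Fin 2) (Fin 2) (ZMod 7)) * (!![2, 3; 3, -2] * !![0, 1; -1, 0])
      rw [← hrc]
      decide
    have h2 : c = ⁅mA, mB⁆ := by
      rw [commutatorElement_def, h1]; group
    rw [h2]
    exact Subgroup.commutator_mem_commutator (Subgroup.mem_top _) (Subgroup.mem_top _)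

theorem card_center : Nat.card (Subgroup.center S7) = 2 := by
  rw [Nat.card_congr (Matrix.SpecialLinearGroup.center_equiv_rootsOfUnity (n := Fin 2)
    (R := ZMod 7)).toEquiv]
  have h := (IsPrimitiveRoot.neg_one 7 (by norm_num) : IsPrimitiveRoot (-1 : ZMod 7) 2).card_rootsOfUnity
  have e : max (Fintype.card (Fin 2)) 1 = 2 := by simp
  rw [e]
  exact h

theorem isStem_pr7 : Cfsg.IsStemExtension pr7 := by
  refine ⟨QuotientGroup.mk'_surjective _, ?_, ?_⟩
  · rw [QuotientGroup.ker_mk']
  · rw [QuotientGroup.ker_mk']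
    exact center_le_commutator

theorem trivial_S7 : Cfsg.HasCyclicSchurMultiplier S7 1 :=
  Cfsg.Agent.S2117.result (F := ZMod 7) (by rw [ZMod.card]; norm_num) (by rw [ZMod.card]; norm_num)

theorem mult_psl27 : Cfsg.HasCyclicSchurMultiplier
    (Matrix.ProjectiveSpecialLinearGroup (Fin 2) (ZMod 7)) 2 := by
  have hcard : Nat.card pr7.ker = 2 := by
    rw [QuotientGroup.ker_mk']; exact card_center
  have hcyc : IsCyclic pr7.ker := isCyclic_of_prime_card (p := 2) hcard
  have e : pr7.ker ≃* Multiplicative (ZMod 2) := by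
    have e' := (zmodCyclicMulEquiv hcyc).symm
    rw [hcard] at e'
    exact e'
  refine ⟨⟨S7, inferInstance, inferInstance, pr7, isStem_pr7, ⟨e⟩⟩, ?_⟩
  intro Δ _ _ τ hτ
  obtain ⟨π, hπ⟩ := Cfsg.Agent.S3958.result pr7 isStem_pr7 trivial_S7 Δ τ hτ
  exact ⟨π.comp e.symm.toMonoidHom, hπ.comp e.symm.surjective⟩

/-- Exceptional Schur multiplier: over the field with 2 elements, PSL₃ has Schur multiplier cyclic of order 2 (here the Schur multiplier is described through stem extensions, as in the definitions). -/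
theorem result {F : Type*} [Field F] [Fintype F] (hF : Fintype.card F = 2) : Cfsg.HasCyclicSchurMultiplier (Matrix.ProjectiveSpecialLinearGroup (Fin 3) F) 2 := by
  obtain ⟨e⟩ := Cfsg.Agent.S0255.result (F := ZMod 7) (K := F) (by rw [ZMod.card]) hF
  exact hasSchurMultiplier_of_mulEquiv e mult_psl27

end Cfsg.Agent.S2087
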