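import Cfsg.Statements.S2111
import Mathlib
import Cfsg.Agent.Lib.Helper27.SzBridge
import Cfsg.Agent.Lib.Helper45.SzU
import Cfsg.Agent.Lib.Helper8.Sz11
import Cfsg.Agent.Lib.Helper70.SchurLocal
import Cfsg.Agent.Lib.Helper70.SuzukiExt

set_option autoImplicit false
open Cfsg

namespace Cfsg.Agent.S2111

open Cfsg.Agent.Lib.Helper8.Sz Cfsg.Agent.Lib.Helper45.SzU Cfsg.Agent.Lib.Helper27.SzBridge
open Cfsg.Agent.Lib.Helper70 Polynomial
open scoped commutatorElement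

variable {F : Type*} [Field F] [Fintype F] {m : ℕ}

theorem exists_kappa1 (hm : 2 ≤ m) (hF : Fintype.card F = 2 ^ (2 * m + 1)) :
    ∃ κ : F, κ ≠ 0 ∧ κ + 1 ≠ 0 ∧ (κ * th m κ)⁻¹ + 1 + ((κ + 1) * th m (κ + 1))⁻¹ ≠ 0 := by
  have h2 : (2 : F) = 0 := two_eq_zero hF
  set t : ℕ := 2 ^ (m + 1) with ht
  set p : F[X] := X * (X + 1) * (X ^ (2 + 2 * t) + X ^ (2 + t) + X ^ (1 + 2 * t) + X ^ (1 + t) +
    X ^ t + X + 1) with hp
  have hcard : 4 + 2 * t < Fintype.card F := by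
    rw [hF, ht]
    have h1 : 2 ^ (m + 1) * 2 ^ 2 ≤ 2 ^ (2 * m + 1) := by
      rw [← pow_add]
      exact Nat.pow_le_pow_right (by norm_num) (by omega)
    have h3 : 8 ≤ 2 ^ (m + 1) := by
      calc 8 = 2 ^ 3 := by norm_num
        _ ≤ 2 ^ (m + 1) := Nat.pow_le_pow_right (by norm_num) (by omega)
    omega
  have hdeg : p.natDegree ≤ 4 + 2 * t := by
    rw [hp]
    compute_degree
    omega
  have ht0 : t ≠ 0 := by rw [ht]; positivity
  have hne : p ≠ 0 := by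
    rw [hp]
    refine mul_ne_zero (mul_ne_zero X_ne_zero ?_) ?_
    · intro h
      have := congrArg (eval 0) h
      simp at this
    · intro h
      have := congrArg (eval 0) h
      simp [ht0] at this
  obtain ⟨κ, hκ⟩ := Polynomial.exists_eval_ne_zero_of_natDegree_lt_card p hne
    (by rw [Cardinal.mk_fintype]; exact_mod_cast lt_of_le_of_lt hdeg hcard)
  rw [hp] at hκ
  simp only [eval_mul, eval_add, eval_pow, eval_X, eval_one] at hκ
  have hκ0 : κ ≠ 0 := by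
    rintro rfl
    simp at hκ
  have hκ1 : κ + 1 ≠ 0 := by
    intro h
    rw [h] at hκ
    simp at hκ
  refine ⟨κ, hκ0, hκ1, ?_⟩
  intro h
  apply hκ
  have hθ : th m κ = κ ^ t := th_def κ
  have hθ1 : th m (κ + 1) = κ ^ t + 1 := by rw [th_add hF, th_one, hθ]
  rw [hθ, hθ1] at h
  have hK0 : κ ^ t ≠ 0 := pow_ne_zero _ hκ0
  have hK1 : κ ^ t + 1 ≠ 0 := by
    rw [← hθ1]
    exact th_ne_zero hκ1
  field_simp at h
  have e : κ * (κ + 1) * (κ ^ (2 + 2 * t) + κ ^ (2 + t) + κ ^ (1 + 2 * t) + κ ^ (1 + t) + κ ^ t + κ + 1)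
      = κ * (κ + 1) * ((κ + 1) * (κ ^ t + 1) + κ * κ ^ t * ((κ + 1) * (κ ^ t + 1)) + κ * κ ^ t)
        - κ * (κ + 1) * (κ * κ ^ t) * 2 := by ring
  rw [e, h2]
  linear_combination (κ * (κ + 1)) * h

theorem exists_kappa2 (hm : 1 ≤ m) (hF : Fintype.card F = 2 ^ (2 * m + 1)) :
    ∃ κ : F, κ ≠ 0 ∧ κ + 1 ≠ 0 ∧ κ⁻¹ + 1 + (κ + 1)⁻¹ ≠ 0 := by
  have h2 : (2 : F) = 0 := two_eq_zero hF
  have hcard : 4 < Fintype.card F := by
    rw [hF]
    calc 4 < 2 ^ 3 := by norm_num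
      _ ≤ 2 ^ (2 * m + 1) := Nat.pow_le_pow_right (by norm_num) (by omega)
  have hdeg : (X * (X + 1) * (X ^ 2 + X + 1) : F[X]).natDegree ≤ 4 := by
    compute_degree
  have hne : (X * (X + 1) * (X ^ 2 + X + 1) : F[X]) ≠ 0 := by
    refine mul_ne_zero (mul_ne_zero X_ne_zero ?_) ?_
    · intro h
      have := congrArg (eval 0) h
      simp at this
    · intro h
      have := congrArg (eval 0) h
      simp at this
  obtain ⟨κ, hκ⟩ := Polynomial.exists_eval_ne_zero_of_natDegree_lt_card _ hne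
    (by rw [Cardinal.mk_fintype]; exact_mod_cast lt_of_le_of_lt hdeg hcard)
  simp only [eval_mul, eval_add, eval_pow, eval_X, eval_one] at hκ
  have hκ0 : κ ≠ 0 := by
    rintro rfl
    simp at hκ
  have hκ1 : κ + 1 ≠ 0 := by
    intro h
    rw [h] at hκ
    simp at hκ
  refine ⟨κ, hκ0, hκ1, ?_⟩
  intro h
  apply hκ
  field_simp at h
  linear_combination (κ * (κ + 1)) * h - (κ * (κ + 1) * κ) * h2

theorem sz_mult (hm : 2 ≤ m) (hF : Fintype.card F = 2 ^ (2 * m + 1)) :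
    Cfsg.HasCyclicSchurMultiplier ↥(Cfsg.Sz F m) 1 := by
  have hm1 : 1 ≤ m := by omega
  have hchar := charP_two hF
  apply hasCyclicSchurMultiplier_one_of_local
  intro Γ _ _ σ hσ ℓ hℓ
  by_cases hℓ2 : ℓ = 2
  · subst hℓ2
    refine ⟨U hF, U_index_odd hm1 hF, ?_⟩
    obtain ⟨κ₁, h1, h1', h1''⟩ := exists_kappa1 hm hF
    obtain ⟨κ₂, h2, h2', h2''⟩ := exists_kappa2 hm1 hF
    refine suzuki_commutator_ker (th m) (th_add hF) th_mul (th_th hF) (exists_th hF) σ hσ.1 hσ.2.1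
      (TS hF) (TS_mul hF) ?_ (HS hF) (HS_mul_TS hF) ?_ κ₁ h1 h1' h1'' κ₂ h2 h2' h2'' (U hF) ?_
    · intro b hb
      rw [← TS_zero hF] at hb
      exact (Tg_inj (congrArg Subtype.val hb)).2
    · intro s s'
      rw [← HS_mul, ← HS_mul, mul_comm]
    · intro g hg
      obtain ⟨a, b, hab⟩ := (mem_U hF g).mp hg
      exact ⟨a, b, Subtype.ext hab⟩
  · have : Fact ℓ.Prime := ⟨hℓ⟩
    let R : Sylow ℓ ↥(Cfsg.Sz F m) := default
    have hcyc : IsCyclic R := sylow_cyclic hF hm1 hℓ2 R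
    refine ⟨R, R.not_dvd_index, ?_⟩
    have hbot := commutator_comap_eq_bot_of_isCyclic σ hσ.2.1 (R : Subgroup ↥(Cfsg.Sz F m))
    intro a ha _
    rw [hbot] at ha
    exact Subgroup.mem_bot.mp ha

/-- Schur multipliers of the Suzuki groups: for q = 2^(2m+1) with m ≥ 2 the Schur multiplier of Sz(q) is trivial (here the Schur multiplier is described through stem extensions, as in the definitions); q = 8 is exceptional. -/
theorem result {F : Type*} [Field F] [Fintype F] {m : ℕ} (hm : 2 ≤ m) (hF : Fintype.card F = 2 ^ (2 * m + 1)) : Cfsg.HasCyclicSchurMultiplier ↥(Cfsg.Lie.Sz F (2 ^ (m + 1))) 1 := by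
  have hm1 : 1 ≤ m := by omega
  exact hasSchurMultiplier_of_mulEquiv (szEquiv hF hm1) (sz_mult hm hF)

end Cfsg.Agent.S2111
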