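import Cfsg.Statements.S2118
import Mathlib
import Cfsg.Agent.Lib.Helper70.SchurLocal
import Cfsg.Agent.Lib.Helper70.SchurThree
import Cfsg.Agent.Lib.Helper70.A6Cover
import Cfsg.Agent.Lib.Helper7.SL2Sylow
import Cfsg.Agent.S0261
import Cfsg.Agent.S0262
import Cfsg.Agent.S3963
import Cfsg.Agent.S0254

set_option autoImplicit false
open Cfsg

namespace Cfsg.Agent.S2118

open Cfsg.Agent.Lib.Helper70 Cfsg.Agent.Lib.Helper7
open scoped commutatorElement

universe u

section

variable {F : Type u} [Field F] [Fintype F]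

/-- The unipotent subgroup of `SL₂(9)` is generated by two elements. -/
theorem exists_gens (hF : Fintype.card F = 9) (h3 : (3 : F) = 0) :
    ∃ ω : F, USL F = Subgroup.closure {tu (1 : F), tu ω} := by
  classical
  obtain ⟨ω, hω⟩ : ∃ ω : F, ω ∉ ({0, 1, 1 + 1} : Finset F) := by
    by_contra hcon
    have hcon' : ∀ x : F, x ∈ ({0, 1, 1 + 1} : Finset F) := fun x => by
      by_contra h
      exact hcon ⟨x, h⟩
    have h1 : (Finset.univ : Finset F) ⊆ {0, 1, 1 + 1} := fun x _ => hcon' x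
    have h2 := Finset.card_le_card h1
    rw [Finset.card_univ, hF] at h2
    have h4 : ({0, 1, 1 + 1} : Finset F).card ≤ 3 := Finset.card_le_three
    omega
  refine ⟨ω, ?_⟩
  have ha3 : tu (1 : F) ^ 3 = 1 := by
    rw [pow_succ, pow_two, ← tu_add, ← tu_add, ← tu_zero]
    congr 1
    linear_combination h3
  have hne : tu (1 : F) ≠ 1 := by
    intro h
    rw [← tu_zero] at h
    exact one_ne_zero (tu_injective h)
  have hord : orderOf (tu (1 : F)) = 3 := orderOf_eq_prime ha3 hne
  have hle : Subgroup.closure {tu (1 : F), tu ω} ≤ USL F := by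
    rw [Subgroup.closure_le]
    rintro x (rfl | rfl)
    · exact mem_USL_iff.mpr ⟨1, rfl⟩
    · exact mem_USL_iff.mpr ⟨ω, rfl⟩
  have hz : Subgroup.zpowers (tu (1 : F)) ≤ Subgroup.closure {tu (1 : F), tu ω} := by
    rw [Subgroup.zpowers_le]
    exact Subgroup.subset_closure (Set.mem_insert _ _)
  have hb : tu ω ∉ Subgroup.zpowers (tu (1 : F)) := by
    intro hmem
    obtain ⟨k, hk⟩ := Subgroup.mem_zpowers_iff.mp hmem
    have hmod : tu (1 : F) ^ (k % 3) = tu ω := by
      rw [← hk]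
      have := zpow_mod_orderOf (tu (1 : F)) k
      rw [hord] at this
      exact this
    have h0 : 0 ≤ k % 3 := Int.emod_nonneg k (by norm_num)
    have h3' : k % 3 < 3 := Int.emod_lt_of_pos k (by norm_num)
    generalize k % 3 = r at hmod h0 h3'
    apply hω
    interval_cases r
    · rw [zpow_zero, ← tu_zero] at hmod
      rw [← tu_injective hmod]
      simp
    · rw [zpow_one] at hmod
      rw [← tu_injective hmod]
      simp
    · rw [zpow_two, ← tu_add] at hmod
      rw [← tu_injective hmod]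
      simp
  have hcU : Nat.card (USL F) = 9 := by rw [card_USL, hF]
  have hcz : Nat.card (Subgroup.zpowers (tu (1 : F))) = 3 := by rw [Nat.card_zpowers, hord]
  have hd1 : 3 ∣ Nat.card (Subgroup.closure {tu (1 : F), tu ω}) := by
    rw [← hcz]
    exact Subgroup.card_dvd_of_le hz
  have hd2 : Nat.card (Subgroup.closure {tu (1 : F), tu ω}) ∣ 9 := by
    rw [← hcU]
    exact Subgroup.card_dvd_of_le hle
  have hcases : Nat.card (Subgroup.closure {tu (1 : F), tu ω}) = 3 ∨
      Nat.card (Subgroup.closure {tu (1 : F), tu ω}) = 9 := by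
    have hle9 : Nat.card (Subgroup.closure {tu (1 : F), tu ω}) ≤ 9 := Nat.le_of_dvd (by norm_num) hd2
    generalize Nat.card (Subgroup.closure {tu (1 : F), tu ω}) = n at hd1 hd2 hle9
    interval_cases n <;> omega
  rcases hcases with h | h
  · exfalso
    apply hb
    have : Subgroup.zpowers (tu (1 : F)) = Subgroup.closure {tu (1 : F), tu ω} :=
      Subgroup.eq_of_le_of_card_ge hz (by rw [h, hcz])
    rw [this]
    exact Subgroup.subset_closure (Set.mem_insert_of_mem _ rfl)
  · exact (Subgroup.eq_of_le_of_card_ge hle (by rw [h, hcU])).symm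

/-- The primes different from the characteristic. -/
theorem local_ne (p : ℕ) [Fact p.Prime] [CharP F p] {Γ : Type u} [Group Γ]
    (σ : Γ →* Matrix.SpecialLinearGroup (Fin 2) F) (hσ : Cfsg.IsStemExtension σ) (ℓ : ℕ)
    (hℓ : ℓ.Prime) (hℓp : ℓ ≠ p) :
    ∃ R : Subgroup (Matrix.SpecialLinearGroup (Fin 2) F), ¬ ℓ ∣ R.index ∧
      ∀ a ∈ ⁅R.comap σ, R.comap σ⁆, a ∈ σ.ker → a = 1 := by
  classical
  have : Fact ℓ.Prime := ⟨hℓ⟩
  by_cases hℓ2 : ℓ = 2
  · subst hℓ2
    have hodd : Odd (Fintype.card F) := by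
      obtain ⟨k, hp, hk⟩ := FiniteField.card F p
      rw [hk]
      apply Odd.pow
      exact hp.odd_of_ne_two (fun h => hℓp h.symm)
    let R : Sylow 2 (Matrix.SpecialLinearGroup (Fin 2) F) := default
    obtain ⟨k, hk, ⟨e⟩⟩ := Cfsg.Agent.S0261.result hodd R
    have : NeZero (2 ^ k) := ⟨by positivity⟩
    have hQ := Cfsg.Agent.S3963.result (2 ^ k)
    have hR : Cfsg.HasCyclicSchurMultiplier (R : Subgroup (Matrix.SpecialLinearGroup (Fin 2) F)) 1 :=
      hasSchurMultiplier_of_mulEquiv e.symm hQ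
    exact ⟨R, R.not_dvd_index, commutator_comap_inf_ker_of_trivial σ hσ.1 hσ.2.1 R hR⟩
  · let R : Sylow ℓ (Matrix.SpecialLinearGroup (Fin 2) F) := default
    have hcyc := Cfsg.Agent.S0262.result p ℓ hℓ2 hℓp R
    refine ⟨R, R.not_dvd_index, ?_⟩
    have hbot := commutator_comap_eq_bot_of_isCyclic σ hσ.2.1
      (R : Subgroup (Matrix.SpecialLinearGroup (Fin 2) F))
    intro a ha _
    rw [hbot] at ha
    exact Subgroup.mem_bot.mp ha

/-- The kernel of a stem extension of `SL₂(9)` is cyclic of order dividing 3. -/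
theorem upper (hF : Fintype.card F = 9) {Γ : Type u} [Group Γ] [Finite Γ]
    (σ : Γ →* Matrix.SpecialLinearGroup (Fin 2) F) (hσ : Cfsg.IsStemExtension σ) :
    ∃ π : Multiplicative (ZMod 3) →* σ.ker, Function.Surjective π := by
  classical
  obtain ⟨p, hchar⟩ := CharP.exists F
  obtain ⟨n, hp, hn⟩ := FiniteField.card F p
  have h1 : p ∣ 3 ^ 2 := by
    rw [show (3 : ℕ) ^ 2 = 9 from rfl, ← hF, hn]
    exact dvd_pow_self p n.ne_zero
  have hp3 : p = 3 := (Nat.prime_dvd_prime_iff_eq hp Nat.prime_three).mp (hp.dvd_of_dvd_pow h1)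
  subst hp3
  have : Fact (Nat.Prime 3) := ⟨hp⟩
  have h3 : (3 : F) = 0 := by exact_mod_cast CharP.cast_eq_zero F 3
  obtain ⟨ω, hgen⟩ := exists_gens hF h3
  obtain ⟨α, hα⟩ := hσ.1 (tu (1 : F))
  obtain ⟨β, hβ⟩ := hσ.1 (tu ω)
  have hab : tu (1 : F) * tu ω = tu ω * tu 1 := by rw [← tu_add, ← tu_add, add_comm]
  have hκ : ⁅α, β⁆ ∈ σ.ker := by
    rw [MonoidHom.mem_ker, map_commutatorElement, hα, hβ, commutatorElement_eq_one_iff_mul_comm]
    exact hab
  have hβ3 : β ^ 3 ∈ σ.ker := by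
    rw [MonoidHom.mem_ker, map_pow, hβ, pow_succ, pow_two, ← tu_add, ← tu_add, ← tu_zero]
    congr 1
    linear_combination ω * h3
  have hκ3 : ⁅α, β⁆ ^ 3 = 1 :=
    central_commutator_pow_eq_one α β (hσ.2.1 hκ) 3 (Subgroup.mem_center_iff.mp (hσ.2.1 hβ3) α)
  have hU : ⁅(USL F).comap σ, (USL F).comap σ⁆ ≤ Subgroup.zpowers ⁅α, β⁆ := by
    rw [hgen]
    exact commutator_comap_closure_pair_le σ hσ.2.1 hα hβ hab
  have hK : σ.ker ≤ Subgroup.zpowers ⁅α, β⁆ := by
    apply ker_le_zpowers_of_local σ hσ (USL F) _ hU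
    intro ℓ hℓ hdvd
    have hℓp : ℓ ≠ 3 := by
      rintro rfl
      exact USL_index_not_dvd 3 hdvd
    exact local_ne 3 σ hσ ℓ hℓ hℓp
  exact surj_of_le_zpowers σ.ker _ 3 hK hκ3

/-- A stem extension of `SL₂(9)` with kernel of order 3: the pullback of the triple cover of the
alternating group of degree 6. -/
theorem exists_cover (hF : Fintype.card F = 9) :
    ∃ (Γ : Type u) (_ : Group Γ) (_ : Finite Γ) (σ : Γ →* Matrix.SpecialLinearGroup (Fin 2) F),
      Cfsg.IsStemExtension σ ∧ Nonempty (σ.ker ≃* Multiplicative (ZMod 3)) := by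
  classical
  obtain ⟨e⟩ := Cfsg.Agent.S0254.result hF
  obtain ⟨Γ₀, _, _, σ₀, c, hσ₀, hker, hord⟩ := exists_a6_cover
  let ξ : Matrix.SpecialLinearGroup (Fin 2) F →* alternatingGroup (Fin 6) :=
    e.toMonoidHom.comp (QuotientGroup.mk' (Subgroup.center (Matrix.SpecialLinearGroup (Fin 2) F)))
  have hξ : Function.Surjective ξ := e.surjective.comp (QuotientGroup.mk'_surjective _)
  have hξker : ∀ ε ∈ ξ.ker, ε ^ 4 = 1 := by
    intro ε hε
    have h1 : ε ∈ Subgroup.center (Matrix.SpecialLinearGroup (Fin 2) F) := by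
      rw [MonoidHom.mem_ker] at hε
      have h2 : QuotientGroup.mk' (Subgroup.center (Matrix.SpecialLinearGroup (Fin 2) F)) ε = 1 :=
        e.injective (by rw [map_one]; exact hε)
      exact (QuotientGroup.eq_one_iff ε).mp h2
    rw [Matrix.SpecialLinearGroup.mem_center_iff] at h1
    obtain ⟨r, hr, hrε⟩ := h1
    rw [Fintype.card_fin] at hr
    have hr4 : r ^ 4 = 1 := by rw [show 4 = 2 * 2 from rfl, pow_mul, hr, one_pow]
    apply Subtype.ext
    rw [Matrix.SpecialLinearGroup.coe_pow, ← hrε, ← map_pow, hr4, map_one]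
    rfl
  have hc4 : c ^ 4 = c := by
    have : c ^ 3 = 1 := by rw [← hord]; exact pow_orderOf_eq_one c
    rw [pow_succ, this, one_mul]
  have hstem := isStemExtension_pb_fst ξ σ₀ hξ hσ₀ c hker 4 hξker hc4
  have hcard : Nat.card (pb.fst ξ σ₀).ker = 3 := by
    rw [Nat.card_congr (pb.kerFstEquiv ξ σ₀), hker, Nat.card_zpowers, hord]
  have hcyc : IsCyclic (pb.fst ξ σ₀).ker := isCyclic_of_prime_card (p := 3) hcard
  have e' : (pb.fst ξ σ₀).ker ≃* Multiplicative (ZMod 3) := by
    have e'' := (zmodCyclicMulEquiv hcyc).symm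
    rw [hcard] at e''
    exact e''
  exact ⟨pb ξ σ₀, inferInstance, inferInstance, pb.fst ξ σ₀, hstem, ⟨e'⟩⟩

end

/-- For the field with 9 elements, the special linear group SL₂ has Schur multiplier cyclic of order 3 (here the Schur multiplier is described through stem extensions, as in the definitions). -/
theorem result {F : Type*} [Field F] [Fintype F] (hF : Fintype.card F = 9) : Cfsg.HasCyclicSchurMultiplier (Matrix.SpecialLinearGroup (Fin 2) F) 3 := by
  refine ⟨exists_cover hF, ?_⟩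
  intro Γ _ _ σ hσ
  exact upper hF σ hσ

end Cfsg.Agent.S2118
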