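import Cfsg.Statements.S2125
import Cfsg.Agent.Lib.Helper27.ChevDynCard

set_option autoImplicit false
open Cfsg

namespace Cfsg.Agent.S2125

/-- Outer automorphisms of the Chevalley groups of type E₈: over a field with p^f elements, p prime, the outer automorphism group of E₈(p^f) has order f (field automorphisms only). -/
theorem result {F : Type*} [Field F] [Fintype F] (p f : ℕ) [Fact p.Prime] [CharP F p] (hF : Fintype.card F = p ^ f) : Nat.card (Cfsg.Out ↥(Cfsg.Lie.chevE8.group F)) = f := by
  exact Cfsg.Agent.Lib.Helper27.ChevDynCard.card_E8 p f hF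

end Cfsg.Agent.S2125
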