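import Cfsg.Statements.S2155
import Cfsg.Agent.Lib.Helper25.ChevFstar

set_option autoImplicit false
open Cfsg

namespace Cfsg.Agent.S2155

/-- In a Chevalley group of type G₂, B₂, D₄, F₄, E₆, E₇ or E₈ over a finite field of characteristic p (for types G₂ and B₂ the field is assumed to have at least 3 elements, so that the group is simple), the generalized Fitting subgroup of every proper standard parabolic subgroup P_J is a p-group (P_J is p-constrained with trivial largest normal subgroup of order prime to p). -/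
theorem result {F : Type*} [Field F] [Fintype F] (p : ℕ) [Fact p.Prime] [CharP F p] (D : Cfsg.Lie.ChevalleyDatum) (hD : D ∈ [Cfsg.Lie.chevG2, Cfsg.Lie.chevB2, Cfsg.Lie.chevD4, Cfsg.Lie.chevF4, Cfsg.Lie.chevE6, Cfsg.Lie.chevE7, Cfsg.Lie.chevE8]) (hq : (D = Cfsg.Lie.chevG2 ∨ D = Cfsg.Lie.chevB2) → 3 ≤ Fintype.card F) (J : Set ℕ) (hJ : ∃ i, i < D.rank ∧ i ∉ J) : IsPGroup p ↥(Cfsg.generalizedFittingSubgroup ↥(D.parabolicSubgroup F J)) := by
  exact Cfsg.Agent.Lib.Helper25.parabolic_genFitting_isPGroup p D hD J hJ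

end Cfsg.Agent.S2155
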