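import Cfsg.Statements.S2157

set_option autoImplicit false
open Cfsg

namespace Cfsg.Agent.S2157

open Cfsg.Lie

/-- walking along one chain of the table: each step adds `r`. -/
def walkOK (D : ChevalleyDatum) (r : ℕ) : ℕ → List (ℕ × ℤ) → Bool
  | _, [] => true
  | prev, (u, _) :: rest =>
    decide (prev < D.nroots) && (decide (u < D.nroots) && ((D.chainRoot r prev 1 == some u) && walkOK D r u rest))

/-- the table property used: every chain of the table is consistent with `chainRoot`. -/
def chainOK (D : ChevalleyDatum) : Bool :=
  (List.range D.nroots).all fun r => (D.chain.getD r #[]).toList.all fun e => walkOK D r e.1 e.2.toList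

theorem walk_spec {F : Type*} [Field F] (D : ChevalleyDatum) (χ : ℕ → Fˣ) (hχ : D.IsRootCharacter χ)
    (r : ℕ) (hr : r < D.nroots) :
    ∀ (l : List (ℕ × ℤ)) (prev : ℕ), walkOK D r prev l = true →
      ∀ (q : ℕ) (x : ℕ × ℤ), l[q]? = some x → χ x.1 = χ r ^ (q + 1) * χ prev := by
  intro l
  induction l with
  | nil => intro prev _ q x hx; simp at hx
  | cons a rest ih =>
    intro prev hw q x hx
    obtain ⟨u, m⟩ := a
    simp only [walkOK, Bool.and_eq_true, decide_eq_true_eq, beq_iff_eq] at hw
    obtain ⟨hprev, hu, hch, hrest⟩ := hw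
    have hstep : χ u = χ r * χ prev := hχ.2 r prev u hr hprev hch
    cases q with
    | zero =>
      simp only [List.getElem?_cons_zero, Option.some.injEq] at hx
      subst hx
      simpa using hstep
    | succ q =>
      simp only [List.getElem?_cons_succ] at hx
      rw [ih u hrest q x hx, hstep, pow_succ (χ r) (q + 1), mul_assoc]

theorem mem_chainCoeff (D : ChevalleyDatum) {r s u k : ℕ} {M : ℤ} (h : (k, M) ∈ D.chainCoeff r s u) :
    ∃ e ∈ (D.chain.getD r #[]).toList, e.1 = s ∧ ∃ q, e.2.toList[q]? = some (u, M) ∧ k = q + 1 := by
  unfold ChevalleyDatum.chainCoeff at h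
  rw [List.mem_flatMap] at h
  obtain ⟨e, he, h⟩ := h
  rw [List.mem_filter] at he
  rw [List.mem_map] at h
  obtain ⟨q, hq, hq'⟩ := h
  rw [List.mem_filter] at hq
  obtain ⟨hq1, hq2⟩ := hq
  rw [List.mem_zipIdx_iff_getElem?] at hq1
  refine ⟨e, he.1, by simpa using he.2, q.2, ?_, ?_⟩
  · have h1 : q.1.1 = u := by simpa using hq2
    have h2 : q.1.2 = M := by simpa using (congrArg Prod.snd hq').symm ▸ rfl
    rw [hq1]
    congr 1
    exact Prod.ext h1 h2
  · have := congrArg Prod.fst hq'
    simpa using this.symm

theorem key {F : Type*} [Field F] (D : ChevalleyDatum) (hD : chainOK D = true) (χ : ℕ → Fˣ)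
    (hχ : D.IsRootCharacter χ) (r : ℕ) (hr : r < D.nroots) {s u k : ℕ} {M : ℤ}
    (h : (k, M) ∈ D.chainCoeff r s u) : χ u = χ r ^ k * χ s := by
  obtain ⟨e, he, hes, q, hq, hk⟩ := mem_chainCoeff D h
  unfold chainOK at hD
  rw [List.all_eq_true] at hD
  have h1 := hD r (List.mem_range.mpr hr)
  rw [List.all_eq_true] at h1
  have h2 := h1 e he
  have := walk_spec D χ hχ r hr e.2.toList e.1 h2 q (u, M) hq
  rw [hk, ← hes]
  exact this

theorem generic {F : Type*} [Field F] (D : ChevalleyDatum) (hD : chainOK D = true) (χ : ℕ → Fˣ)
    (hχ : D.IsRootCharacter χ) (r : ℕ) (hr : r < D.nroots) (t : F) :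
    D.charDiag F χ * D.x F r t * D.charDiag F (fun s => (χ s)⁻¹) = D.x F r ((χ r : F) * t) := by
  have hne : ∀ s : ℕ, (χ s : F) ≠ 0 := fun s => Units.ne_zero _
  ext row col
  simp only [ChevalleyDatum.charDiag, Matrix.mul_diagonal, Matrix.diagonal_mul, ChevalleyDatum.x, dif_pos hr]
  rcases col with i | s
  · rcases row with i' | u
    · simp [ChevalleyDatum.xMat]
    · simp only [ChevalleyDatum.xMat, Matrix.of_apply, Sum.elim_inl, Sum.elim_inr, mul_one]
      by_cases hu : u = ⟨r, hr⟩
      · subst hu
        simp only [if_true]
        ring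
      · simp [hu]
  · simp only [ChevalleyDatum.xMat, Matrix.of_apply, Sum.elim_inr, Units.val_inv_eq_inv_val]
    by_cases hs : s = ⟨r, hr⟩
    · subst hs
      simp only [if_true]
      rcases row with i' | u
      · simp
      · by_cases hu : u = ⟨r, hr⟩
        · subst hu
          simp [hne]
        · simp [hu]
    · simp only [if_neg hs]
      by_cases hneg : s.val = D.negIdx.getD r 0
      · simp only [if_pos hneg]
        have hχs : (χ s.val : F)⁻¹ = (χ r : F) := by
          have h1 := hχ.1 r hr
          have h2 : χ s.val = (χ r)⁻¹ := by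
            rw [hneg]; exact h1
          rw [h2]
          simp
        rw [hχs]
        rcases row with i' | u
        · simp only [Sum.elim_inl]
          ring
        · simp only [Sum.elim_inr]
          by_cases hu : u = s
          · subst hu
            simp only [if_true]
            rw [← hχs]
            field_simp
          · simp only [if_neg hu]
            by_cases hu' : u = ⟨r, hr⟩
            · subst hu'
              simp only [if_true]
              ring
            · simp [hu']
      · simp only [if_neg hneg]
        rcases row with i' | u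
        · simp
        · simp only [Sum.elim_inr]
          rw [mul_add, add_mul]
          congr 1
          · by_cases hu : u = s
            · subst hu
              simp [hne]
            · simp [hu]
          · rw [← List.sum_map_mul_left, ← List.sum_map_mul_right]
            congr 1
            apply List.map_congr_left
            intro km hkm
            obtain ⟨k, M⟩ := km
            have hk := key D hD χ hχ r hr hkm
            simp only []
            rw [hk]
            push_cast
            have := hne s.val
            field_simp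
            ring

theorem chainOK_G2 : chainOK chevG2 = true := by decide +kernel
theorem chainOK_B2 : chainOK chevB2 = true := by decide +kernel
theorem chainOK_D4 : chainOK chevD4 = true := by decide +kernel
theorem chainOK_F4 : chainOK chevF4 = true := by decide +kernel
theorem chainOK_E6 : chainOK chevE6 = true := by decide +kernel
theorem chainOK_E7 : chainOK chevE7 = true := by decide +kernel
theorem chainOK_E8 : chainOK chevE8 = true := by decide +kernel

/-- In a Chevalley group of type G₂, B₂, D₄, F₄, E₆, E₇ or E₈, for every character `χ` of the root lattice with values in `Fˣ` the diagonal matrix `ĥ(χ)` (identity on the coroot coordinates, `χ(s)` on the coordinate of `e_s`) conjugates each root element `x_r(t)` to `x_r(χ(r) t)`: `ĥ(χ) x_r(t) ĥ(χ)⁻¹ = x_r(χ(r) t)` as matrices, with `ĥ(χ)⁻¹` written as `ĥ(χ⁻¹)`. -/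
theorem result {F : Type*} [Field F] (D : Cfsg.Lie.ChevalleyDatum) (hD : D ∈ [Cfsg.Lie.chevG2, Cfsg.Lie.chevB2, Cfsg.Lie.chevD4, Cfsg.Lie.chevF4, Cfsg.Lie.chevE6, Cfsg.Lie.chevE7, Cfsg.Lie.chevE8]) (χ : ℕ → Fˣ) (hχ : D.IsRootCharacter χ) (r : ℕ) (hr : r < D.nroots) (t : F) :
    D.charDiag F χ * D.x F r t * D.charDiag F (fun s => (χ s)⁻¹) = D.x F r ((χ r : F) * t) := by
  have hOK : chainOK D = true := by
    simp only [List.mem_cons, List.not_mem_nil, or_false] at hD
    rcases hD with rfl | rfl | rfl | rfl | rfl | rfl | rfl
    · exact chainOK_G2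
    · exact chainOK_B2
    · exact chainOK_D4
    · exact chainOK_F4
    · exact chainOK_E6
    · exact chainOK_E7
    · exact chainOK_E8
  exact generic D hOK χ hχ r hr t

end Cfsg.Agent.S2157
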