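import Cfsg.Statements.S2160
import Cfsg.Agent.Lib.Helper24.GenSimple

set_option autoImplicit false
open Cfsg

namespace Cfsg.Agent.S2160

open Cfsg.Agent.Lib.Helper24 in
/-- In a Chevalley group of type G₂, B₂, D₄, F₄, E₆, E₇ or E₈ over a finite field, every field automorphism commutes with every graph automorphism. -/
theorem result {F : Type*} [Field F] [Finite F] (D : Cfsg.Lie.ChevalleyDatum) (hD : D ∈ [Cfsg.Lie.chevG2, Cfsg.Lie.chevB2, Cfsg.Lie.chevD4, Cfsg.Lie.chevF4, Cfsg.Lie.chevE6, Cfsg.Lie.chevE7, Cfsg.Lie.chevE8]) (f g : ↥(D.group F) ≃* ↥(D.group F))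
    (hf : D.IsFieldAut f) (hg : D.IsGraphAut g) (y : ↥(D.group F)) : f (g y) = g (f y) := by
  have hD' : D ∈ chevList := hD
  obtain ⟨σ, hσ⟩ := hf
  obtain ⟨π, -, hπ⟩ := hg
  have hgen : D.group F ≤ (Subgroup.closure {x : ↥(D.group F) | ∃ (i : Fin D.rank) (t : F),
      ((x : GL D.Idx F) : Matrix D.Idx D.Idx F) = D.x F (D.simple i) t ∨
      ((x : GL D.Idx F) : Matrix D.Idx D.Idx F) = D.x F (D.neg (D.simple i)) t}).map
        (D.group F).subtype := by
    apply group_le_of_simple D hD'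
    intro i hi
    constructor
    · unfold Cfsg.Lie.ChevalleyDatum.rootSubgroup
      rw [Subgroup.closure_le]
      rintro x ⟨t, hx⟩
      exact ⟨⟨x, mem_group_of_val_x D hD' x _ t hx⟩,
        Subgroup.subset_closure ⟨⟨i, hi⟩, t, Or.inl hx⟩, rfl⟩
    · unfold Cfsg.Lie.ChevalleyDatum.rootSubgroup
      rw [Subgroup.closure_le]
      rintro x ⟨t, hx⟩
      exact ⟨⟨x, mem_group_of_val_x D hD' x _ t hx⟩,
        Subgroup.subset_closure ⟨⟨i, hi⟩, t, Or.inr hx⟩, rfl⟩
  have hy : y ∈ Subgroup.closure {x : ↥(D.group F) | ∃ (i : Fin D.rank) (t : F),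
      ((x : GL D.Idx F) : Matrix D.Idx D.Idx F) = D.x F (D.simple i) t ∨
      ((x : GL D.Idx F) : Matrix D.Idx D.Idx F) = D.x F (D.neg (D.simple i)) t} := by
    obtain ⟨z, hz, hzy⟩ := hgen y.2
    have : z = y := Subtype.ext hzy
    exact this ▸ hz
  induction hy using Subgroup.closure_induction with
  | mem x hx =>
    obtain ⟨i, t, hx | hx⟩ := hx
    · have hs : D.simple (π i) < D.nroots := simple_lt D hD' _ (π i).isLt
      have hs' : D.simple i < D.nroots := simple_lt D hD' _ i.isLt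
      have h1 := (hπ x i t).1 hx
      have h2 := hσ (g x) _ _ hs h1
      have h3 := hσ x _ t hs' hx
      have h4 := (hπ (f x) i (σ t)).1 h3
      apply Subtype.ext
      apply Units.ext
      rw [h2, h4, map_pow]
    · have hs : D.neg (D.simple (π i)) < D.nroots :=
        neg_lt_of_preChk D (preChk_of_mem D hD') _ (simple_lt D hD' _ (π i).isLt)
      have hs' : D.neg (D.simple i) < D.nroots :=
        neg_lt_of_preChk D (preChk_of_mem D hD') _ (simple_lt D hD' _ i.isLt)
      have h1 := (hπ x i t).2 hx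
      have h2 := hσ (g x) _ _ hs h1
      have h3 := hσ x _ t hs' hx
      have h4 := (hπ (f x) i (σ t)).2 h3
      apply Subtype.ext
      apply Units.ext
      rw [h2, h4, map_pow]
  | one => rw [map_one, map_one, map_one]
  | mul a b _ _ ha hb => rw [map_mul, map_mul, map_mul, map_mul, ha, hb]
  | inv a _ ha => rw [map_inv, map_inv, map_inv, map_inv, ha]

end Cfsg.Agent.S2160
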