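import Cfsg.Statements.S2161
import Cfsg.Agent.Lib.Helper24.GraphAut

set_option autoImplicit false
open Cfsg

namespace Cfsg.Agent.S2161

open Cfsg.Agent.Lib.Helper24 in
/-- For the Chevalley groups of types D₄ and E₆ (one root length) over any field: if `π` is a symmetry of the Dynkin diagram and `φ` is an automorphism sending `x_{p_i}(t)` to `x_{p_{π i}}(t)` and `x_{-p_i}(t)` to `x_{-p_{π i}}(t)` for every fundamental root `p_i`, then for every root `r` there is a sign `ε = ±1` with `φ(x_r(t)) = x_{π·r}(ε t)` for all `t`, where `π·r` is the root whose coefficients are those of `r` permuted by `π`. -/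
theorem result {F : Type*} [Field F] (D : Cfsg.Lie.ChevalleyDatum) (hD : D ∈ [Cfsg.Lie.chevD4, Cfsg.Lie.chevE6])
    (π : Equiv.Perm (Fin D.rank)) (hπ : D.IsDiagramSymmetry π) (φ : ↥(D.group F) ≃* ↥(D.group F))
    (hφ : ∀ (g : ↥(D.group F)) (i : Fin D.rank) (t : F),
      (((g : GL D.Idx F) : Matrix D.Idx D.Idx F) = D.x F (D.simple i) t →
        ((φ g : GL D.Idx F) : Matrix D.Idx D.Idx F) = D.x F (D.simple (π i)) t) ∧
      (((g : GL D.Idx F) : Matrix D.Idx D.Idx F) = D.x F (D.neg (D.simple i)) t →
        ((φ g : GL D.Idx F) : Matrix D.Idx D.Idx F) = D.x F (D.neg (D.simple (π i))) t))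
    (r : ℕ) (hr : r < D.nroots) :
    ∃ ε : F, (ε = 1 ∨ ε = -1) ∧ ∀ (g : ↥(D.group F)) (t : F),
      ((g : GL D.Idx F) : Matrix D.Idx D.Idx F) = D.x F r t →
        ((φ g : GL D.Idx F) : Matrix D.Idx D.Idx F) = D.x F (D.permRoot π r) (ε * t) := by
  have hD' : D ∈ chevList := by
    simp only [List.mem_cons, List.not_mem_nil, or_false] at hD
    rcases hD with rfl | rfl <;> simp [chevList]
  simp only [List.mem_cons, List.not_mem_nil, or_false] at hD
  rcases hD with rfl | rfl
  · exact graph_aut_root _ hD' (by decide +kernel)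
      (fun s hs => by rw [← longChk_sound _ _ longChk_D4 s hs]; exact Nat.zero_testBit s)
      π (permData_D4 π hπ) φ hφ r hr
  · exact graph_aut_root _ hD' (by decide +kernel)
      (fun s hs => by rw [← longChk_sound _ _ longChk_E6 s hs]; exact Nat.zero_testBit s)
      π (permData_E6 π hπ) φ hφ r hr

end Cfsg.Agent.S2161
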