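import Cfsg.Statements.S2298
import Cfsg.Agent.Lib.Helper46.GL2i

set_option autoImplicit false
open Cfsg

namespace Cfsg.Agent.S2298

open Cfsg.Agent.Lib.Helper46 Cfsg.Agent.Lib.Helper4 Matrix

open scoped Classical in
theorem natCard_deg' {F : Type*} [Field F] [Fintype F] [Fintype (IrrCharacter (GL (Fin 2) F))]
    (c : ℂ) (d : ℕ) (hc : c = d) :
    Nat.card {χ : IrrCharacter (GL (Fin 2) F) // (χ : GL (Fin 2) F → ℂ) 1 = c} =
      (Finset.univ.filter (fun χ : IrrCharacter (GL (Fin 2) F) => deg χ = d)).card := by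
  subst hc
  exact natCard_deg d

/-- Over a finite field F with q elements, every irreducible complex character of GL₂ has degree 1, q − 1, q or q + 1; and when q ≥ 3 (so that these four numbers are distinct) there are exactly q − 1 irreducible characters of degree 1, exactly q − 1 of degree q, exactly (q − 1)(q − 2)/2 of degree q + 1 and exactly q(q − 1)/2 of degree q − 1. -/
theorem result {F : Type*} [Field F] [Fintype F] :
    (∀ χ : Matrix.GeneralLinearGroup (Fin 2) F → ℂ, Cfsg.IsIrrCharacter (Matrix.GeneralLinearGroup (Fin 2) F) χ →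
      χ 1 = 1 ∨ χ 1 = (Fintype.card F : ℂ) - 1 ∨ χ 1 = (Fintype.card F : ℂ) ∨ χ 1 = (Fintype.card F : ℂ) + 1) ∧
    (3 ≤ Fintype.card F →
      Nat.card {χ : Cfsg.IrrCharacter (Matrix.GeneralLinearGroup (Fin 2) F) // (χ : Matrix.GeneralLinearGroup (Fin 2) F → ℂ) 1 = 1} = Fintype.card F - 1 ∧
      Nat.card {χ : Cfsg.IrrCharacter (Matrix.GeneralLinearGroup (Fin 2) F) // (χ : Matrix.GeneralLinearGroup (Fin 2) F → ℂ) 1 = (Fintype.card F : ℂ)} = Fintype.card F - 1 ∧
      Nat.card {χ : Cfsg.IrrCharacter (Matrix.GeneralLinearGroup (Fin 2) F) // (χ : Matrix.GeneralLinearGroup (Fin 2) F → ℂ) 1 = (Fintype.card F : ℂ) + 1} = (Fintype.card F - 1) * (Fintype.card F - 2) / 2 ∧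
      Nat.card {χ : Cfsg.IrrCharacter (Matrix.GeneralLinearGroup (Fin 2) F) // (χ : Matrix.GeneralLinearGroup (Fin 2) F → ℂ) 1 = (Fintype.card F : ℂ) - 1} = Fintype.card F * (Fintype.card F - 1) / 2) := by
  classical
  have := irr_finite (G := GL (Fin 2) F)
  let _ : Fintype (IrrCharacter (GL (Fin 2) F)) := Fintype.ofFinite _
  let _ : Fintype (MulChar F ℂ) := Fintype.ofFinite _
  refine ⟨?_, ?_⟩
  · intro χ hχ
    rcases gl2_irr_cases χ hχ with ⟨α, rfl⟩ | ⟨α, rfl⟩ | ⟨α, β, -, rfl⟩ | ⟨-, h⟩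
    · exact Or.inl (detChar_one α)
    · exact Or.inr (Or.inr (Or.inl (st_one α)))
    · exact Or.inr (Or.inr (Or.inr (ps_one α β)))
    · exact Or.inr (Or.inl h)
  · intro hq
    obtain ⟨m, hm⟩ : ∃ m, Fintype.card F = m + 2 := ⟨Fintype.card F - 2, by omega⟩
    have hm1 : 1 ≤ m := by omega
    have hK := two_mul_card_cusp m hm
    refine ⟨?_, ?_, ?_, ?_⟩
    · rw [natCard_deg' 1 1 (by simp), card_deg_eq m hm, hm]
      have e1 : ¬ (m + 2 = 1) := by omega
      have e2 : ¬ (m + 3 = 1) := by omega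
      have e3 : ¬ (m + 1 = 1) := by omega
      rw [if_pos rfl, if_neg e1, if_neg e2, if_neg e3]
      omega
    · rw [natCard_deg' _ (Fintype.card F) rfl, card_deg_eq m hm, hm]
      have e1 : ¬ (1 = m + 2) := by omega
      have e2 : ¬ (m + 3 = m + 2) := by omega
      have e3 : ¬ (m + 1 = m + 2) := by omega
      rw [if_pos rfl, if_neg e1, if_neg e2, if_neg e3]
      omega
    · rw [natCard_deg' _ (Fintype.card F + 1) (by push_cast; rfl), card_deg_eq m hm, hm]
      have e1 : ¬ (1 = m + 2 + 1) := by omega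
      have e2 : ¬ (m + 2 = m + 2 + 1) := by omega
      have e3 : ¬ (m + 1 = m + 2 + 1) := by omega
      simp only [e1, e2, e3, if_false, zero_add, add_zero, if_true]
      rw [Nat.choose_two_right]
      rfl
    · rw [natCard_deg' _ (Fintype.card F - 1) (by rw [Nat.cast_sub Fintype.card_pos, Nat.cast_one]),
        card_deg_eq m hm, hm]
      have e1 : ¬ (1 = m + 2 - 1) := by omega
      have e2 : ¬ (m + 2 = m + 2 - 1) := by omega
      have e3 : ¬ (m + 3 = m + 2 - 1) := by omega
      have e4 : m + 1 = m + 2 - 1 := by omega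
      simp only [e1, e2, e3, if_false, zero_add, add_zero, if_pos e4]
      have e5 : (m + 2) * (m + 2 - 1) = 2 * (cusp F).card := by
        rw [hK, ← e4]
        ring
      rw [e5, Nat.mul_div_cancel_left _ (by norm_num : 0 < 2)]

end Cfsg.Agent.S2298
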