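import Cfsg.Statements.S2301
import Cfsg.Agent.Lib.Helper46.Mat2b

set_option autoImplicit false
open Cfsg

namespace Cfsg.Agent.S2301

open Cfsg.Agent.Lib.Helper46 Matrix

/-- Over a finite field with q elements of odd characteristic p, the elements of order p of SL₂ (the non-identity unipotent elements) fall into exactly two conjugacy classes, each of size (q² − 1)/2; two upper unitriangular matrices with non-zero off-diagonal entries b and b′ are conjugate exactly when bb′ is a square. -/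
theorem result {F : Type*} [Field F] [Fintype F] (p : ℕ) [Fact p.Prime] [CharP F p] (hp : p ≠ 2) :
    Nat.card {C : ConjClasses (Matrix.SpecialLinearGroup (Fin 2) F) // ∃ g : Matrix.SpecialLinearGroup (Fin 2) F, orderOf g = p ∧ ConjClasses.mk g = C} = 2 ∧
    (∀ g : Matrix.SpecialLinearGroup (Fin 2) F, orderOf g = p → Nat.card (ConjClasses.mk g).carrier = (Fintype.card F ^ 2 - 1) / 2) ∧
    ∀ g h : Matrix.SpecialLinearGroup (Fin 2) F, (g : Matrix (Fin 2) (Fin 2) F) 0 0 = 1 → (g : Matrix (Fin 2) (Fin 2) F) 1 1 = 1 → (g : Matrix (Fin 2) (Fin 2) F) 1 0 = 0 → (g : Matrix (Fin 2) (Fin 2) F) 0 1 ≠ 0 →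
      (h : Matrix (Fin 2) (Fin 2) F) 0 0 = 1 → (h : Matrix (Fin 2) (Fin 2) F) 1 1 = 1 → (h : Matrix (Fin 2) (Fin 2) F) 1 0 = 0 → (h : Matrix (Fin 2) (Fin 2) F) 0 1 ≠ 0 →
      (IsConj g h ↔ IsSquare ((g : Matrix (Fin 2) (Fin 2) F) 0 1 * (h : Matrix (Fin 2) (Fin 2) F) 0 1)) := by
  have hchar : ringChar F ≠ 2 := by rw [ringChar.eq F p]; exact hp
  have h2 : (2 : F) ≠ 0 := Ring.two_ne_zero hchar
  obtain ⟨η, hη⟩ := FiniteField.exists_nonsquare hchar
  have hη0 : η ≠ 0 := fun h => hη (h ▸ IsSquare.zero)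
  have hord : ∀ b : F, b ≠ 0 → orderOf (slU b) = p := fun b hb =>
    orderOf_eq_of_trace p (slU b) (trace_slU b) (slU_ne_one b hb)
  refine ⟨?_, ?_, ?_⟩
  · rw [Nat.card_eq_two_iff]
    refine ⟨⟨ConjClasses.mk (slU 1), slU 1, hord 1 one_ne_zero, rfl⟩,
      ⟨ConjClasses.mk (slU η), slU η, hord η hη0, rfl⟩, ?_, ?_⟩
    · intro h
      have h' : ConjClasses.mk (slU (1 : F)) = ConjClasses.mk (slU η) := congrArg Subtype.val h
      rw [ConjClasses.mk_eq_mk_iff_isConj, slU_isConj_iff 1 η one_ne_zero hη0, one_mul] at h'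
      exact hη h'
    · ext ⟨C, g, hg, rfl⟩
      simp only [Set.mem_insert_iff, Set.mem_singleton_iff, Set.mem_univ, iff_true,
        Subtype.mk.injEq, ConjClasses.mk_eq_mk_iff_isConj]
      obtain ⟨b, hb, hc⟩ := exists_isConj_slU p g hg
      by_cases hsq : IsSquare b
      · left
        exact hc.trans ((slU_isConj_iff b 1 hb one_ne_zero).mpr (by rwa [mul_one]))
      · right
        exact hc.trans ((slU_isConj_iff b η hb hη0).mpr (isSquare_mul_of_not_isSquare hsq hη))
  · intro g hg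
    obtain ⟨b, hb, hc⟩ := exists_isConj_slU p g hg
    rw [ConjClasses.mk_eq_mk_iff_isConj.mpr hc]
    have h1 := card_centralizer_mul_card_carrier (slU b)
    rw [card_centralizer_slU b hb, card_SL2, card_sq_eq_one_odd h2] at h1
    have h3 : Fintype.card F * (2 * Nat.card (ConjClasses.mk (slU b)).carrier) =
        Fintype.card F * (Fintype.card F ^ 2 - 1) := by
      rw [← h1]; ring
    have h4 := Nat.eq_of_mul_eq_mul_left Fintype.card_pos h3
    omega
  · intro g h g00 g11 g10 g01 h00 h11 h10 h01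
    rw [slU_eq g g00 g11 g10, slU_eq h h00 h11 h10]
    simp only [slU_coe, Matrix.of_apply, Matrix.cons_val', Matrix.cons_val_zero, Matrix.cons_val_one,
      Matrix.cons_val_fin_one]
    rw [slU_eq g g00 g11 g10, slU_coe] at g01
    rw [slU_eq h h00 h11 h10, slU_coe] at h01
    exact slU_isConj_iff _ _ (by simpa using g01) (by simpa using h01)

end Cfsg.Agent.S2301
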