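import Cfsg.Statements.S2302
import Cfsg.Agent.Lib.Helper46.Mat2b

set_option autoImplicit false
open Cfsg

namespace Cfsg.Agent.S2302

open Cfsg.Agent.Lib.Helper46 Matrix

/-- Over a finite field with q elements of characteristic 2, the involutions of SL₂ (the non-identity unipotent elements) form a single conjugacy class, of size q² − 1. -/
theorem result {F : Type*} [Field F] [Fintype F] [CharP F 2] (g h : Matrix.SpecialLinearGroup (Fin 2) F) (hg : orderOf g = 2) (hh : orderOf h = 2) :
    IsConj g h ∧ Nat.card (ConjClasses.mk g).carrier = Fintype.card F ^ 2 - 1 := by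
  have : Fact (Nat.Prime 2) := ⟨Nat.prime_two⟩
  have key : ∀ g : Matrix.SpecialLinearGroup (Fin 2) F, orderOf g = 2 → IsConj g (slU 1) := by
    intro g hg
    obtain ⟨b, hb, hc⟩ := exists_isConj_slU 2 g hg
    refine hc.trans ((slU_isConj_iff b 1 hb one_ne_zero).mpr ?_)
    exact FiniteField.isSquare_of_char_two (ringChar.eq F 2) _
  refine ⟨(key g hg).trans (key h hh).symm, ?_⟩
  have hmk : ConjClasses.mk g = ConjClasses.mk (slU 1) :=
    ConjClasses.mk_eq_mk_iff_isConj.mpr (key g hg)
  rw [hmk]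
  have h1 := card_centralizer_mul_card_carrier (slU (1 : F))
  rw [card_centralizer_slU 1 one_ne_zero, card_SL2] at h1
  have h2 : Nat.card {a : F // a ^ 2 = 1} = 1 := by
    rw [Nat.card_eq_one_iff_unique]
    refine ⟨⟨?_⟩, ⟨⟨1, one_pow 2⟩⟩⟩
    have hone : ∀ a : F, a ^ 2 = 1 → a = 1 := by
      intro a ha
      have : (a - 1) ^ 2 = 0 := by rw [sub_pow_char a 1, ha, one_pow, sub_self]
      exact sub_eq_zero.mp (pow_eq_zero_iff (two_ne_zero) |>.mp this)
    rintro ⟨a, ha⟩ ⟨b, hb⟩
    apply Subtype.ext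
    show a = b
    rw [hone a ha, hone b hb]
  rw [h2, one_mul] at h1
  exact Nat.eq_of_mul_eq_mul_left Fintype.card_pos h1

end Cfsg.Agent.S2302
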