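import Cfsg.Statements.S2303
import Mathlib

set_option autoImplicit false
open Cfsg

namespace Cfsg.Agent.S2303

open Matrix

theorem comm_iff {F : Type*} [Field F] (g h : GL (Fin 2) F) :
    h * g = g * h ↔
      ((h : Matrix (Fin 2) (Fin 2) F) 0 0 * (g : Matrix (Fin 2) (Fin 2) F) 0 0 + (h : Matrix (Fin 2) (Fin 2) F) 0 1 * (g : Matrix (Fin 2) (Fin 2) F) 1 0
        = (g : Matrix (Fin 2) (Fin 2) F) 0 0 * (h : Matrix (Fin 2) (Fin 2) F) 0 0 + (g : Matrix (Fin 2) (Fin 2) F) 0 1 * (h : Matrix (Fin 2) (Fin 2) F) 1 0) ∧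
      ((h : Matrix (Fin 2) (Fin 2) F) 0 0 * (g : Matrix (Fin 2) (Fin 2) F) 0 1 + (h : Matrix (Fin 2) (Fin 2) F) 0 1 * (g : Matrix (Fin 2) (Fin 2) F) 1 1
        = (g : Matrix (Fin 2) (Fin 2) F) 0 0 * (h : Matrix (Fin 2) (Fin 2) F) 0 1 + (g : Matrix (Fin 2) (Fin 2) F) 0 1 * (h : Matrix (Fin 2) (Fin 2) F) 1 1) ∧
      ((h : Matrix (Fin 2) (Fin 2) F) 1 0 * (g : Matrix (Fin 2) (Fin 2) F) 0 0 + (h : Matrix (Fin 2) (Fin 2) F) 1 1 * (g : Matrix (Fin 2) (Fin 2) F) 1 0
        = (g : Matrix (Fin 2) (Fin 2) F) 1 0 * (h : Matrix (Fin 2) (Fin 2) F) 0 0 + (g : Matrix (Fin 2) (Fin 2) F) 1 1 * (h : Matrix (Fin 2) (Fin 2) F) 1 0) ∧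
      ((h : Matrix (Fin 2) (Fin 2) F) 1 0 * (g : Matrix (Fin 2) (Fin 2) F) 0 1 + (h : Matrix (Fin 2) (Fin 2) F) 1 1 * (g : Matrix (Fin 2) (Fin 2) F) 1 1
        = (g : Matrix (Fin 2) (Fin 2) F) 1 0 * (h : Matrix (Fin 2) (Fin 2) F) 0 1 + (g : Matrix (Fin 2) (Fin 2) F) 1 1 * (h : Matrix (Fin 2) (Fin 2) F) 1 1) := by
  rw [Units.ext_iff, Units.val_mul, Units.val_mul, ← Matrix.ext_iff]
  simp only [Fin.forall_fin_two, Matrix.mul_apply, Fin.sum_univ_two]
  tauto

theorem part1 {F : Type*} [Field F] [Fintype F] (g : GL (Fin 2) F)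
    (h01 : (g : Matrix (Fin 2) (Fin 2) F) 0 1 = 0) (h10 : (g : Matrix (Fin 2) (Fin 2) F) 1 0 = 0)
    (hne : (g : Matrix (Fin 2) (Fin 2) F) 0 0 ≠ (g : Matrix (Fin 2) (Fin 2) F) 1 1) :
    Nat.card (Subgroup.centralizer ({g} : Set (GL (Fin 2) F))) = (Fintype.card F - 1) ^ 2 := by
  classical
  let f : Fˣ × Fˣ → GL (Fin 2) F := fun p =>
    GeneralLinearGroup.mkOfDetNeZero !![(p.1 : F), 0; 0, (p.2 : F)] (by simp [det_fin_two])
  have hf : ∀ p : Fˣ × Fˣ, ((f p : GL (Fin 2) F) : Matrix (Fin 2) (Fin 2) F) = !![(p.1 : F), 0; 0, (p.2 : F)] :=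
    fun p => rfl
  have hinj : Function.Injective f := by
    intro p p' hpp
    have h := congrArg (fun x : GL (Fin 2) F => (x : Matrix (Fin 2) (Fin 2) F)) hpp
    simp only [hf] at h
    have h0 := congrFun (congrFun h 0) 0
    have h1 := congrFun (congrFun h 1) 1
    simp at h0 h1
    exact Prod.ext (Units.ext h0) (Units.ext h1)
  have hrange : Set.range f = (Subgroup.centralizer ({g} : Set (GL (Fin 2) F)) : Set (GL (Fin 2) F)) := by
    ext h
    simp only [Set.mem_range, SetLike.mem_coe, Subgroup.mem_centralizer_iff, Set.mem_singleton_iff,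
      forall_eq]
    rw [eq_comm (a := g * h), comm_iff]
    constructor
    · rintro ⟨p, rfl⟩
      simp [hf, h01, h10, mul_comm]
    · rintro ⟨e1, e2, e3, e4⟩
      rw [h01, h10] at *
      simp only [mul_zero, add_zero, zero_mul, zero_add] at e2 e3
      have hh01 : (h : Matrix (Fin 2) (Fin 2) F) 0 1 = 0 := by
        have : (h : Matrix (Fin 2) (Fin 2) F) 0 1 * ((g : Matrix (Fin 2) (Fin 2) F) 1 1 - (g : Matrix (Fin 2) (Fin 2) F) 0 0) = 0 := by
          linear_combination e2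
        rcases mul_eq_zero.mp this with h | h
        · exact h
        · exact absurd (sub_eq_zero.mp h).symm hne
      have hh10 : (h : Matrix (Fin 2) (Fin 2) F) 1 0 = 0 := by
        have : (h : Matrix (Fin 2) (Fin 2) F) 1 0 * ((g : Matrix (Fin 2) (Fin 2) F) 0 0 - (g : Matrix (Fin 2) (Fin 2) F) 1 1) = 0 := by
          linear_combination e3
        rcases mul_eq_zero.mp this with h | h
        · exact h
        · exact absurd (sub_eq_zero.mp h) hne
      have hdet : (h : Matrix (Fin 2) (Fin 2) F).det ≠ 0 := by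
        exact ((Matrix.isUnit_iff_isUnit_det _).mp h.isUnit).ne_zero
      rw [det_fin_two, hh01, hh10] at hdet
      simp only [mul_zero, sub_zero] at hdet
      have h00 : (h : Matrix (Fin 2) (Fin 2) F) 0 0 ≠ 0 := left_ne_zero_of_mul hdet
      have h11 : (h : Matrix (Fin 2) (Fin 2) F) 1 1 ≠ 0 := right_ne_zero_of_mul hdet
      refine ⟨(Units.mk0 _ h00, Units.mk0 _ h11), ?_⟩
      apply Units.ext
      rw [hf]
      conv_rhs => rw [Matrix.eta_fin_two (h : Matrix (Fin 2) (Fin 2) F)]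
      simp [hh01, hh10]
  have hc : Nat.card (Subgroup.centralizer ({g} : Set (GL (Fin 2) F))) = Nat.card (Set.range f) :=
    (Nat.card_congr (Equiv.setCongr hrange)).symm
  rw [hc, Nat.card_range_of_injective hinj, Nat.card_prod,
    Nat.card_units, Nat.card_eq_fintype_card, sq]

theorem part2 {F : Type*} [Field F] [Fintype F] (g : GL (Fin 2) F)
    (hg : ∀ (c : F) (v : Fin 2 → F), v ≠ 0 → (g : Matrix (Fin 2) (Fin 2) F).mulVec v ≠ c • v) :
    Nat.card (Subgroup.centralizer ({g} : Set (GL (Fin 2) F))) = Fintype.card F ^ 2 - 1 := by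
  classical
  have h10 : (g : Matrix (Fin 2) (Fin 2) F) 1 0 ≠ 0 := by
    intro h
    apply hg ((g : Matrix (Fin 2) (Fin 2) F) 0 0) ![1, 0]
    · intro h0
      have := congrFun h0 0
      simp at this
    · ext i
      fin_cases i <;> simp [Matrix.mulVec, dotProduct, h]
  have hdet : ∀ p : F × F, p ≠ 0 →
      (p.1 • (1 : Matrix (Fin 2) (Fin 2) F) + p.2 • (g : Matrix (Fin 2) (Fin 2) F)).det ≠ 0 := by
    rintro ⟨x, y⟩ hxy hd
    obtain ⟨v, hv, hv0⟩ := Matrix.exists_mulVec_eq_zero_iff.mpr hd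
    have hv1 : x • v + y • (g : Matrix (Fin 2) (Fin 2) F).mulVec v = 0 := by
      simpa [Matrix.add_mulVec, Matrix.smul_mulVec] using hv0
    by_cases hy : y = 0
    · subst hy
      have hx : x ≠ 0 := by
        rintro rfl
        exact hxy rfl
      simp only [zero_smul, add_zero] at hv1
      rcases smul_eq_zero.mp hv1 with h | h
      · exact hx h
      · exact hv h
    · apply hg (-x / y) v hv
      have : y • (g : Matrix (Fin 2) (Fin 2) F).mulVec v = y • ((-x / y) • v) := by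
        rw [smul_smul, mul_div_cancel₀ _ hy, neg_smul]
        exact eq_neg_of_add_eq_zero_right hv1
      exact smul_right_injective _ hy this
  let f : {p : F × F // p ≠ 0} → GL (Fin 2) F := fun p =>
    GeneralLinearGroup.mkOfDetNeZero _ (hdet p.1 p.2)
  have hf : ∀ p : {p : F × F // p ≠ 0}, ((f p : GL (Fin 2) F) : Matrix (Fin 2) (Fin 2) F) =
      p.1.1 • (1 : Matrix (Fin 2) (Fin 2) F) + p.1.2 • (g : Matrix (Fin 2) (Fin 2) F) :=
    fun p => rfl
  have hinj : Function.Injective f := by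
    rintro ⟨⟨x, y⟩, hp⟩ ⟨⟨x', y'⟩, hp'⟩ hpp
    have h := congrArg (fun x : GL (Fin 2) F => (x : Matrix (Fin 2) (Fin 2) F)) hpp
    simp only [hf] at h
    have e0 := congrFun (congrFun h 0) 0
    have e1 := congrFun (congrFun h 1) 0
    simp at e0 e1
    have hy : y = y' := by
      rcases e1 with h | h
      · exact h
      · exact absurd h h10
    subst hy
    have hx : x = x' := by simpa using e0
    subst hx
    rfl
  have hrange : Set.range f = (Subgroup.centralizer ({g} : Set (GL (Fin 2) F)) : Set (GL (Fin 2) F)) := by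
    ext h
    simp only [Set.mem_range, SetLike.mem_coe, Subgroup.mem_centralizer_iff, Set.mem_singleton_iff,
      forall_eq]
    constructor
    · rintro ⟨p, rfl⟩
      apply Units.ext
      rw [Units.val_mul, Units.val_mul, hf]
      simp [add_mul, mul_add]
    · intro hc
      rw [eq_comm, comm_iff] at hc
      obtain ⟨e1, e2, e3, e4⟩ := hc
      set y := (h : Matrix (Fin 2) (Fin 2) F) 1 0 / (g : Matrix (Fin 2) (Fin 2) F) 1 0 with hy
      set x := (h : Matrix (Fin 2) (Fin 2) F) 0 0 - y * (g : Matrix (Fin 2) (Fin 2) F) 0 0 with hx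
      have hmat : (h : Matrix (Fin 2) (Fin 2) F) = x • (1 : Matrix (Fin 2) (Fin 2) F) + y • (g : Matrix (Fin 2) (Fin 2) F) := by
        ext i j
        fin_cases i <;> fin_cases j
        · simp [hx]
        · simp [hy]
          field_simp
          linear_combination e1
        · simp [hy]
          field_simp
        · simp [hx, hy]
          field_simp
          linear_combination e3
      have hxy : (x, y) ≠ (0 : F × F) := by
        intro h0
        have hx0 : x = 0 := congrArg Prod.fst h0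
        have hy0 : y = 0 := congrArg Prod.snd h0
        have hd : (h : Matrix (Fin 2) (Fin 2) F).det ≠ 0 :=
          ((Matrix.isUnit_iff_isUnit_det _).mp h.isUnit).ne_zero
        rw [hmat, hx0, hy0] at hd
        simp at hd
      refine ⟨⟨(x, y), hxy⟩, ?_⟩
      apply Units.ext
      rw [hf, hmat]
  have hc : Nat.card (Subgroup.centralizer ({g} : Set (GL (Fin 2) F))) = Nat.card (Set.range f) :=
    (Nat.card_congr (Equiv.setCongr hrange)).symm
  rw [hc, Nat.card_range_of_injective hinj, Nat.card_eq_fintype_card, Fintype.card_subtype_compl,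
    Fintype.card_subtype_eq, Fintype.card_prod, sq]

theorem result {F : Type*} [Field F] [Fintype F] (g : Matrix.GeneralLinearGroup (Fin 2) F) :
    ((g : Matrix (Fin 2) (Fin 2) F) 0 1 = 0 → (g : Matrix (Fin 2) (Fin 2) F) 1 0 = 0 → (g : Matrix (Fin 2) (Fin 2) F) 0 0 ≠ (g : Matrix (Fin 2) (Fin 2) F) 1 1 →
      Nat.card (Subgroup.centralizer ({g} : Set (Matrix.GeneralLinearGroup (Fin 2) F))) = (Fintype.card F - 1) ^ 2) ∧
    ((∀ (c : F) (v : Fin 2 → F), v ≠ 0 → (g : Matrix (Fin 2) (Fin 2) F).mulVec v ≠ c • v) →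
      Nat.card (Subgroup.centralizer ({g} : Set (Matrix.GeneralLinearGroup (Fin 2) F))) = Fintype.card F ^ 2 - 1) :=
  ⟨part1 g, part2 g⟩

end Cfsg.Agent.S2303
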