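import Cfsg.Statements.S2304
import Cfsg.Agent.Lib.Helper46.GL2b

set_option autoImplicit false
open Cfsg

namespace Cfsg.Agent.S2304

open Cfsg.Agent.Lib.Helper46 Cfsg.Agent.Lib.Helper4 Matrix

/-- Over a finite field F, for distinct multiplicative characters α ≠ β of F, the character of GL₂ induced from the linear character b ↦ α(b₁₁) β(b₂₂) of the upper triangular subgroup is irreducible. -/
theorem result {F : Type*} [Field F] [Fintype F] [DecidableEq F] (α β : MulChar F ℂ) (hαβ : α ≠ β) :
    Cfsg.IsIrrCharacter (Matrix.GeneralLinearGroup (Fin 2) F) (Cfsg.indFun (Cfsg.upperTriangularGL 2 F) (fun b => α (((b : Matrix.GeneralLinearGroup (Fin 2) F) : Matrix (Fin 2) (Fin 2) F) 0 0) * β (((b : Matrix.GeneralLinearGroup (Fin 2) F) : Matrix (Fin 2) (Fin 2) F) 1 1))) := by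
  classical
  change IsIrrCharacter _ (ps α β)
  have := irr_finite (G := GL (Fin 2) F)
  let _ : Fintype (IrrCharacter (GL (Fin 2) F)) := Fintype.ofFinite _
  apply isIrrCharacter_of_norm_one (ps α β) (ps_isCharacter α β)
  rw [classInner_ps_ps]
  have h5 : ¬ (α = β ∧ β = α) := fun h => hαβ h.1
  simp [h5]

end Cfsg.Agent.S2304
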