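import Cfsg.Statements.S2305
import Cfsg.Agent.Lib.Helper46.GL2b
import Cfsg.Agent.Lib.Helper46.Inner

set_option autoImplicit false
open Cfsg

namespace Cfsg.Agent.S2305

open Cfsg.Agent.Lib.Helper46 Matrix

/-- Over a finite field F, for multiplicative characters α, β, α′, β′ of F, the characters of GL₂ induced from the linear characters b ↦ α(b₁₁) β(b₂₂) and b ↦ α′(b₁₁) β′(b₂₂) of the upper triangular subgroup coincide exactly when {α, β} = {α′, β′} as unordered pairs. -/
theorem result {F : Type*} [Field F] [Fintype F] [DecidableEq F] (α β α' β' : MulChar F ℂ) :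
    Cfsg.indFun (Cfsg.upperTriangularGL 2 F) (fun b => α (((b : Matrix.GeneralLinearGroup (Fin 2) F) : Matrix (Fin 2) (Fin 2) F) 0 0) * β (((b : Matrix.GeneralLinearGroup (Fin 2) F) : Matrix (Fin 2) (Fin 2) F) 1 1)) = Cfsg.indFun (Cfsg.upperTriangularGL 2 F) (fun b => α' (((b : Matrix.GeneralLinearGroup (Fin 2) F) : Matrix (Fin 2) (Fin 2) F) 0 0) * β' (((b : Matrix.GeneralLinearGroup (Fin 2) F) : Matrix (Fin 2) (Fin 2) F) 1 1)) ↔
      (α = α' ∧ β = β') ∨ (α = β' ∧ β = α') := by
  classical
  change ps α β = ps α' β' ↔ _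
  constructor
  · intro h
    have h1 := classInner_ps_ps α β α' β'
    rw [← h, classInner_ps_ps] at h1
    by_contra hcon
    push Not at hcon
    have h2 : ¬ (α = α' ∧ β = β') := fun h => hcon.1 h.1 h.2
    have h3 : ¬ (α = β' ∧ β = α') := fun h => hcon.2 h.1 h.2
    rw [if_neg h2, if_neg h3, if_pos ⟨rfl, rfl⟩] at h1
    by_cases h4 : α = β ∧ β = α
    · rw [if_pos h4] at h1
      norm_num at h1
    · rw [if_neg h4] at h1
      norm_num at h1
  · rintro (⟨rfl, rfl⟩ | ⟨rfl, rfl⟩)
    · rfl
    · apply eq_of_classInner_sub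
      rw [classInner_ps_ps, classInner_ps_ps, classInner_ps_ps, classInner_ps_ps]
      by_cases h4 : α = β
      · subst h4
        simp
      · have h5 : ¬ (α = β ∧ β = α) := fun h => h4 h.1
        have h6 : ¬ (β = α ∧ α = β) := fun h => h4 h.2
        simp [h5, h6]

end Cfsg.Agent.S2305
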