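import Cfsg.Statements.S2306
import Cfsg.Agent.Lib.Helper46.SL2c

set_option autoImplicit false
open Cfsg

namespace Cfsg.Agent.S2306

open Cfsg.Agent.Lib.Helper46 Cfsg.Agent.Lib.Helper4 Matrix

/-- Over a finite field F, for a multiplicative character α of F, the function induced to SL₂ from the linear character b ↦ α(b₁₁) of the upper triangular subgroup is an irreducible character if and only if α² ≠ 1. -/
theorem result {F : Type*} [Field F] [Fintype F] [DecidableEq F] (α : MulChar F ℂ) :
    Cfsg.IsIrrCharacter (Matrix.SpecialLinearGroup (Fin 2) F) (Cfsg.indFun ((Cfsg.upperTriangularGL 2 F).comap Matrix.SpecialLinearGroup.toGL) (fun b => α (((b : Matrix.SpecialLinearGroup (Fin 2) F) : Matrix (Fin 2) (Fin 2) F) 0 0))) ↔ α ^ 2 ≠ 1 := by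
  obtain rfl : ‹DecidableEq F› = fun a b => Classical.propDecidable (a = b) :=
    Subsingleton.elim _ _
  classical
  change IsIrrCharacter _ (psS α) ↔ _
  let _ : Fintype (MulChar F ℂ) := Fintype.ofFinite _
  have := irr_finite (G := SpecialLinearGroup (Fin 2) F)
  let _ : Fintype (IrrCharacter (SpecialLinearGroup (Fin 2) F)) := Fintype.ofFinite _
  have hn := classInner_psS α α
  rw [if_pos rfl] at hn
  have e : α = α⁻¹ ↔ α ^ 2 = 1 := by rw [sq, eq_inv_iff_mul_eq_one]
  constructor
  · intro h hsq
    rw [classInner_irr_self _ h, if_pos (e.mpr hsq)] at hn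
    norm_num at hn
  · intro hsq
    apply isIrrCharacter_of_norm_one _ (psS_isCharacter α)
    rw [hn, if_neg (fun h => hsq (e.mp h)), add_zero]

end Cfsg.Agent.S2306
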