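import Cfsg.Statements.S2307
import Cfsg.Agent.Lib.Helper46.SL2h

set_option autoImplicit false
open Cfsg

namespace Cfsg.Agent.S2307

open Cfsg.Agent.Lib.Helper46 Cfsg.Agent.Lib.Helper4 Matrix

/-- Over a finite field F with q elements, q odd, let α be the multiplicative character of F of order 2. The character of SL₂ induced from the linear character b ↦ α(b₁₁) of the upper triangular subgroup is the sum of two distinct irreducible characters, each of degree (q + 1)/2, which are conjugate under GL₂: some fixed element of GL₂ conjugates the one into the other. -/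
theorem result {F : Type*} [Field F] [Fintype F] [DecidableEq F] (hodd : Odd (Fintype.card F)) (α : MulChar F ℂ)
    (hα : α ^ 2 = 1) (hα1 : α ≠ 1) :
    ∃ χ₁ χ₂ : Matrix.SpecialLinearGroup (Fin 2) F → ℂ, Cfsg.IsIrrCharacter (Matrix.SpecialLinearGroup (Fin 2) F) χ₁ ∧ Cfsg.IsIrrCharacter (Matrix.SpecialLinearGroup (Fin 2) F) χ₂ ∧ χ₁ ≠ χ₂ ∧
      Cfsg.indFun ((Cfsg.upperTriangularGL 2 F).comap Matrix.SpecialLinearGroup.toGL) (fun b => α (((b : Matrix.SpecialLinearGroup (Fin 2) F) : Matrix (Fin 2) (Fin 2) F) 0 0)) = χ₁ + χ₂ ∧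
      χ₁ 1 = (((Fintype.card F + 1) / 2 : ℕ) : ℂ) ∧ χ₂ 1 = (((Fintype.card F + 1) / 2 : ℕ) : ℂ) ∧
      ∃ x : Matrix.GeneralLinearGroup (Fin 2) F, ∀ g h : Matrix.SpecialLinearGroup (Fin 2) F,
        Matrix.SpecialLinearGroup.toGL h = x * Matrix.SpecialLinearGroup.toGL g * x⁻¹ → χ₂ h = χ₁ g := by
  obtain rfl : ‹DecidableEq F› = fun a b => Classical.propDecidable (a = b) :=
    Subsingleton.elim _ _
  classical
  change ∃ χ₁ χ₂ : Matrix.SpecialLinearGroup (Fin 2) F → ℂ, _ ∧ _ ∧ χ₁ ≠ χ₂ ∧ psS α = χ₁ + χ₂ ∧ _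
  have hirr : IsIrrCharacter (GL (Fin 2) F) (ps α 1) := ps_irr α 1 hα1
  have hres : res (ps α 1) = psS α := (psS_eq_res α).symm
  have hnorm := psS_norm α
  rw [if_pos hα] at hnorm
  rcases res_cases (ps α 1) hirr with h | ⟨h20, ψ, ψ', hψ, hψ', hne, heq, hconj⟩
  · exfalso
    rw [hres] at h
    rw [classInner_irr_self _ h] at hnorm
    norm_num at hnorm
  · rw [hres] at heq
    have h1 := congrFun heq 1
    rw [psS_one, Pi.add_apply, hconj.one_eq] at h1
    obtain ⟨k, hk⟩ := hodd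
    have hk2 : (Fintype.card F + 1) / 2 = k + 1 := by omega
    have hdeg : ψ 1 = ((k + 1 : ℕ) : ℂ) := by
      have h2 : (Fintype.card F : ℂ) = 2 * (k : ℂ) + 1 := by rw [hk]; push_cast; ring
      rw [h2] at h1
      push_cast
      linear_combination -(1 / 2 : ℂ) * h1
    refine ⟨ψ', ψ, hψ', hψ, hne.symm, by rw [heq, add_comm], ?_, ?_, ?_⟩
    · rw [hk2, hconj.one_eq, hdeg]
    · rw [hk2, hdeg]
    · obtain ⟨x, hx⟩ := hconj
      exact ⟨x, fun g h hh => (hx g h hh).symm⟩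

end Cfsg.Agent.S2307
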