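import Cfsg.Statements.S2309
import Cfsg.Agent.Lib.Helper46.GL2j

set_option autoImplicit false
open Cfsg

namespace Cfsg.Agent.S2309

open Cfsg.Agent.Lib.Helper46 Cfsg.Agent.Lib.Helper4 Matrix

/-- Over a finite field F with q elements: every irreducible complex character of GL₂ of degree q − 1 vanishes at every diagonal matrix with two distinct entries, and every irreducible complex character of degree q + 1 vanishes at every element with no eigenvector in F². -/
theorem result {F : Type*} [Field F] [Fintype F] (χ : Matrix.GeneralLinearGroup (Fin 2) F → ℂ) (hχ : Cfsg.IsIrrCharacter (Matrix.GeneralLinearGroup (Fin 2) F) χ) (g : Matrix.GeneralLinearGroup (Fin 2) F) :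
    (χ 1 = (Fintype.card F : ℂ) - 1 → (g : Matrix (Fin 2) (Fin 2) F) 0 1 = 0 → (g : Matrix (Fin 2) (Fin 2) F) 1 0 = 0 → (g : Matrix (Fin 2) (Fin 2) F) 0 0 ≠ (g : Matrix (Fin 2) (Fin 2) F) 1 1 → χ g = 0) ∧
    (χ 1 = (Fintype.card F : ℂ) + 1 → (∀ (c : F) (v : Fin 2 → F), v ≠ 0 → (g : Matrix (Fin 2) (Fin 2) F).mulVec v ≠ c • v) → χ g = 0) := by
  classical
  have hq := card_ne_zero_F (F := F)
  refine ⟨?_, ?_⟩
  · intro h1 h01 h10 hne
    rcases gl2_irr_cases χ hχ with ⟨α, rfl⟩ | ⟨α, rfl⟩ | ⟨α, β, -, rfl⟩ | ⟨hc, -⟩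
    · exfalso
      rw [detChar_one] at h1
      have h2 := card_eq_two_of_cast h1
      have hd := gl_det_eq g
      rw [h01, zero_mul, sub_zero] at hd
      exact hne (eq_of_card_two h2 (left_ne_zero_of_mul hd) (right_ne_zero_of_mul hd))
    · exfalso
      rw [st_one] at h1
      exact one_ne_zero (by linear_combination h1 : (1 : ℂ) = 0)
    · exfalso
      rw [ps_one] at h1
      exact two_ne_zero (by linear_combination h1 : (2 : ℂ) = 0)
    · exact cuspidal_diag χ hχ hc g h01 h10 hne
  · intro h1 hg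
    rcases gl2_irr_cases χ hχ with ⟨α, rfl⟩ | ⟨α, rfl⟩ | ⟨α, β, -, rfl⟩ | ⟨-, h2⟩
    · exfalso
      rw [detChar_one] at h1
      exact hq (by linear_combination -h1)
    · exfalso
      rw [st_one] at h1
      exact one_ne_zero (by linear_combination -h1 : (1 : ℂ) = 0)
    · exact ps_elliptic α β g hg
    · exfalso
      rw [h2] at h1
      exact two_ne_zero (by linear_combination -h1 : (2 : ℂ) = 0)

end Cfsg.Agent.S2309
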