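import Cfsg.Statements.S2310
import Cfsg.Agent.Lib.Helper46.GL2j

set_option autoImplicit false
open Cfsg

namespace Cfsg.Agent.S2310

open Cfsg.Agent.Lib.Helper46 Cfsg.Agent.Lib.Helper4 Matrix

/-- Over a finite field F with q ≥ 3 elements, let u be the upper unitriangular matrix of GL₂ with off-diagonal entry 1. An irreducible complex character χ of GL₂ takes at u the value 1 if χ has degree 1 or q + 1, the value −1 if χ has degree q − 1, and the value 0 if χ has degree q. -/
theorem result {F : Type*} [Field F] [Fintype F] (hq : 3 ≤ Fintype.card F) (χ : Matrix.GeneralLinearGroup (Fin 2) F → ℂ) (hχ : Cfsg.IsIrrCharacter (Matrix.GeneralLinearGroup (Fin 2) F) χ)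
    (u : Matrix.GeneralLinearGroup (Fin 2) F) (hu : (u : Matrix (Fin 2) (Fin 2) F) = !![1, 1; 0, 1]) :
    (χ 1 = 1 → χ u = 1) ∧ (χ 1 = (Fintype.card F : ℂ) + 1 → χ u = 1) ∧
    (χ 1 = (Fintype.card F : ℂ) - 1 → χ u = -1) ∧ (χ 1 = (Fintype.card F : ℂ) → χ u = 0) := by
  classical
  have hq := card_ne_zero_F (F := F)
  have hq1 := card_ne_one_F (F := F)
  have hq2 : (1 : ℂ) ≠ (Fintype.card F : ℂ) - 1 := by
    intro h
    have := card_eq_two_of_cast h
    omega
  have hu' : u = glU := Units.ext hu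
  subst hu'
  refine ⟨?_, ?_, ?_, ?_⟩
  · intro h1
    rcases gl2_irr_cases χ hχ with ⟨α, rfl⟩ | ⟨α, rfl⟩ | ⟨α, β, -, rfl⟩ | ⟨hc, h2⟩
    · exact detChar_glU α
    · exfalso
      rw [st_one] at h1
      exact hq1 h1
    · exfalso
      rw [ps_one] at h1
      exact hq (by linear_combination h1)
    · exfalso
      rw [h2] at h1
      exact hq2 h1.symm
  · intro h1
    rcases gl2_irr_cases χ hχ with ⟨α, rfl⟩ | ⟨α, rfl⟩ | ⟨α, β, -, rfl⟩ | ⟨hc, h2⟩
    · exfalso
      rw [detChar_one] at h1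
      exact hq (by linear_combination -h1)
    · exfalso
      rw [st_one] at h1
      exact one_ne_zero (by linear_combination -h1 : (1 : ℂ) = 0)
    · exact ps_glU α β
    · exfalso
      rw [h2] at h1
      exact two_ne_zero (by linear_combination -h1 : (2 : ℂ) = 0)
  · intro h1
    rcases gl2_irr_cases χ hχ with ⟨α, rfl⟩ | ⟨α, rfl⟩ | ⟨α, β, -, rfl⟩ | ⟨hc, h2⟩
    · exfalso
      rw [detChar_one] at h1
      exact hq2 h1
    · exfalso
      rw [st_one] at h1
      exact one_ne_zero (by linear_combination h1 : (1 : ℂ) = 0)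
    · exfalso
      rw [ps_one] at h1
      exact two_ne_zero (by linear_combination h1 : (2 : ℂ) = 0)
    · exact cusp_glU χ hχ hc h2
  · intro h1
    rcases gl2_irr_cases χ hχ with ⟨α, rfl⟩ | ⟨α, rfl⟩ | ⟨α, β, -, rfl⟩ | ⟨hc, h2⟩
    · exfalso
      rw [detChar_one] at h1
      exact hq1 h1.symm
    · exact st_glU α
    · exfalso
      rw [ps_one] at h1
      exact one_ne_zero (by linear_combination h1 : (1 : ℂ) = 0)
    · exfalso
      rw [h2] at h1
      exact one_ne_zero (by linear_combination -h1 : (1 : ℂ) = 0)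

end Cfsg.Agent.S2310
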