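import Cfsg.Statements.S2317
import Cfsg.Agent.Lib.Helper51.Jordan

set_option autoImplicit false
open Cfsg

namespace Cfsg.Agent.S2317

open Cfsg.Agent.Lib.Helper51.Jordan

/-- Over a finite field of characteristic p, the conjugacy classes of GL_n consisting of elements of p-power order (the unipotent classes) are as many as the partitions of n. -/
theorem result {F : Type*} [Field F] [Fintype F] (p : ℕ) [Fact p.Prime] [CharP F p] (n : ℕ) :
    Nat.card {C : ConjClasses (Matrix.GeneralLinearGroup (Fin n) F) //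
      ∃ g : Matrix.GeneralLinearGroup (Fin n) F, (∃ k : ℕ, orderOf g = p ^ k) ∧ ConjClasses.mk g = C} =
      Fintype.card (Nat.Partition n) := by
  classical
  rw [← Nat.card_eq_fintype_card]
  symm
  choose G hGnil hGkap using fun μ : Nat.Partition n =>
    exists_unip (F := F) μ.parts μ.parts_sum
  refine Nat.card_eq_of_bijective
    (fun μ => ⟨ConjClasses.mk (G μ), G μ,
      (Cfsg.Agent.S2315.order_iff p (G μ)).mpr (hGnil μ), rfl⟩) ⟨?_, ?_⟩
  · intro μ ν h
    have h1 : ConjClasses.mk (G μ) = ConjClasses.mk (G ν) := congrArg Subtype.val h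
    have h2 := ConjClasses.mk_eq_mk_iff_isConj.mp h1
    apply Nat.Partition.ext
    apply kapM_inj _ _ (fun c hc => μ.parts_pos hc) (fun c hc => ν.parts_pos hc)
    intro j
    rw [← hGkap μ j, ← hGkap ν j]
    exact kap_of_isConj _ _ h2 j
  · rintro ⟨C, g, hg, rfl⟩
    have hnil := (Cfsg.Agent.S2315.order_iff p g).mp hg
    obtain ⟨μ', hpos, hsum, hk⟩ := exists_type_gl g hnil
    refine ⟨⟨μ', fun {i} hi => hpos i hi, hsum⟩, ?_⟩
    apply Subtype.ext
    apply ConjClasses.mk_eq_mk_iff_isConj.mpr
    apply isConj_of_kap _ _ (hGnil _) hnil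
    intro j
    rw [hGkap, hk]

end Cfsg.Agent.S2317
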