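import Cfsg.Statements.S2320
import Cfsg.Agent.Lib.Helper46.GL2j

set_option autoImplicit false
open Cfsg

namespace Cfsg.Agent.S2320

open Cfsg.Agent.Lib.Helper46 Cfsg.Agent.Lib.Helper4 Matrix

/-- Over a finite field F with q elements, every irreducible complex character of GL₂ of degree q takes a value of absolute value 1 at every diagonal matrix with two different diagonal entries and at every element with no eigenvector in F². -/
theorem result {F : Type*} [Field F] [Fintype F] (χ : Matrix.GeneralLinearGroup (Fin 2) F → ℂ) (hχ : Cfsg.IsIrrCharacter (Matrix.GeneralLinearGroup (Fin 2) F) χ) (hdeg : χ 1 = (Fintype.card F : ℂ)) (g : Matrix.GeneralLinearGroup (Fin 2) F) :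
    ((g : Matrix (Fin 2) (Fin 2) F) 0 1 = 0 → (g : Matrix (Fin 2) (Fin 2) F) 1 0 = 0 → (g : Matrix (Fin 2) (Fin 2) F) 0 0 ≠ (g : Matrix (Fin 2) (Fin 2) F) 1 1 → ‖χ g‖ = 1) ∧
    ((∀ (c : F) (v : Fin 2 → F), v ≠ 0 → (g : Matrix (Fin 2) (Fin 2) F).mulVec v ≠ c • v) → ‖χ g‖ = 1) := by
  classical
  have hq1 := card_ne_one_F (F := F)
  have hst : ∃ α : MulChar F ℂ, χ = st α := by
    rcases gl2_irr_cases χ hχ with ⟨α, rfl⟩ | ⟨α, rfl⟩ | ⟨α, β, -, rfl⟩ | ⟨hc, h2⟩
    · exfalso
      rw [detChar_one] at hdeg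
      exact hq1 hdeg.symm
    · exact ⟨α, rfl⟩
    · exfalso
      rw [ps_one] at hdeg
      exact one_ne_zero (by linear_combination hdeg : (1 : ℂ) = 0)
    · exfalso
      rw [h2] at hdeg
      exact one_ne_zero (by linear_combination -hdeg : (1 : ℂ) = 0)
  obtain ⟨α, rfl⟩ := hst
  have hd := gl_det_eq g
  refine ⟨?_, ?_⟩
  · intro h01 h10 hne
    rw [h01, zero_mul, sub_zero] at hd
    rw [st_diag α g h01 h10 hne, norm_mul, mulChar_norm α (left_ne_zero_of_mul hd),
      mulChar_norm α (right_ne_zero_of_mul hd), mul_one]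
  · intro hg
    rw [st_elliptic α g hg, norm_neg, mulChar_norm α (gl_det_ne_zero g)]

end Cfsg.Agent.S2320
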