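import Cfsg.Statements.S2321
import Cfsg.Agent.Lib.Helper46.SL2h

set_option autoImplicit false
open Cfsg

namespace Cfsg.Agent.S2321

open Cfsg.Agent.Lib.Helper46 Cfsg.Agent.Lib.Helper4 Matrix

/-- Over a finite field F with q elements, an irreducible complex character of SL₂ of degree q (the Steinberg character) takes the value 1 at every diagonal matrix whose diagonal entry a has a² ≠ 1, the value −1 at every element with no eigenvector in F², and the value 0 at every upper triangular matrix with equal diagonal entries and non-zero upper right entry. -/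
theorem result {F : Type*} [Field F] [Fintype F] (χ : Matrix.SpecialLinearGroup (Fin 2) F → ℂ) (hχ : Cfsg.IsIrrCharacter (Matrix.SpecialLinearGroup (Fin 2) F) χ) (hdeg : χ 1 = (Fintype.card F : ℂ)) (g : Matrix.SpecialLinearGroup (Fin 2) F) :
    ((g : Matrix (Fin 2) (Fin 2) F) 0 1 = 0 → (g : Matrix (Fin 2) (Fin 2) F) 1 0 = 0 → (g : Matrix (Fin 2) (Fin 2) F) 0 0 ^ 2 ≠ 1 → χ g = 1) ∧
    ((∀ (c : F) (v : Fin 2 → F), v ≠ 0 → (g : Matrix (Fin 2) (Fin 2) F).mulVec v ≠ c • v) → χ g = -1) ∧
    ((g : Matrix (Fin 2) (Fin 2) F) 1 0 = 0 → (g : Matrix (Fin 2) (Fin 2) F) 0 0 = (g : Matrix (Fin 2) (Fin 2) F) 1 1 → (g : Matrix (Fin 2) (Fin 2) F) 0 1 ≠ 0 → χ g = 0) := by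
  classical
  have hst : χ = stS := by
    rcases sl2_cases χ hχ with rfl | rfl | ⟨γ, hγ, rfl⟩ |
      ⟨h20, γ, ψ', hγ2, hγ1, hψ', hne, heq, hc1, hc2⟩ | ⟨χ', hχ', hcusp, hd, rfl⟩ |
      ⟨h20, χ', ψ', hχ', hcusp, hd, hψ', hne, heq, hc1, hc2⟩
    · exfalso
      have h1 : (1 : ℂ) = (Fintype.card F : ℂ) := hdeg
      exact card_ne_one_F h1.symm
    · rfl
    · exfalso
      rw [psS_one] at hdeg
      have := nat_of_cast (m := Fintype.card F + 1) (n := Fintype.card F) (by push_cast; exact hdeg)
      omega
    · exfalso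
      have h1 := congrFun heq 1
      rw [psS_one, Pi.add_apply, hc1.one_eq, hdeg] at h1
      have := nat_of_cast (m := Fintype.card F + 1) (n := 2 * Fintype.card F)
        (by push_cast; linear_combination h1)
      have : 1 < Fintype.card F := Fintype.one_lt_card
      omega
    · exfalso
      rw [res_one, hd] at hdeg
      have := nat_of_cast (m := Fintype.card F) (n := Fintype.card F + 1)
        (by push_cast; linear_combination hdeg)
      omega
    · exfalso
      have h1 := congrFun heq 1
      rw [res_one, hd, Pi.add_apply, hc1.one_eq, hdeg] at h1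
      have := nat_of_cast (m := Fintype.card F) (n := 2 * Fintype.card F + 1)
        (by push_cast; linear_combination h1)
      omega
  subst hst
  exact ⟨stS_diag g, stS_elliptic g, stS_unipotent g⟩

end Cfsg.Agent.S2321
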