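import Cfsg.Statements.S2322
import Cfsg.Agent.Lib.Helper46.SL2n

set_option autoImplicit false
open Cfsg

namespace Cfsg.Agent.S2322

open Matrix Cfsg.Agent.Lib.Helper4 Cfsg.Agent.Lib.Helper46

/-- Over a finite field F with q elements, q odd: every irreducible complex character of SL₂ of degree q − 1 or (q − 1)/2 vanishes at every diagonal matrix whose diagonal entry a has a² ≠ 1, and every irreducible complex character of degree q + 1 or (q + 1)/2 vanishes at every element with no eigenvector in F². -/
theorem result {F : Type*} [Field F] [Fintype F] (hodd : Odd (Fintype.card F)) (χ : Matrix.SpecialLinearGroup (Fin 2) F → ℂ) (hχ : Cfsg.IsIrrCharacter (Matrix.SpecialLinearGroup (Fin 2) F) χ) (g : Matrix.SpecialLinearGroup (Fin 2) F) :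
    ((χ 1 = (Fintype.card F : ℂ) - 1 ∨ χ 1 = (((Fintype.card F - 1) / 2 : ℕ) : ℂ)) →
      (g : Matrix (Fin 2) (Fin 2) F) 0 1 = 0 → (g : Matrix (Fin 2) (Fin 2) F) 1 0 = 0 → (g : Matrix (Fin 2) (Fin 2) F) 0 0 ^ 2 ≠ 1 → χ g = 0) ∧
    ((χ 1 = (Fintype.card F : ℂ) + 1 ∨ χ 1 = (((Fintype.card F + 1) / 2 : ℕ) : ℂ)) →
      (∀ (c : F) (v : Fin 2 → F), v ≠ 0 → (g : Matrix (Fin 2) (Fin 2) F).mulVec v ≠ c • v) → χ g = 0) := by
  classical
  obtain ⟨k, hk⟩ := hodd
  have h2 : (2 : F) ≠ 0 := by
    intro h
    have : CharP F 2 := CharTwo.of_one_ne_zero_of_two_eq_zero one_ne_zero h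
    have := FiniteField.even_card_of_char_two (F := F) (ringChar.eq F 2)
    omega
  have hcf : IsClassFunction (SpecialLinearGroup (Fin 2) F) χ :=
    isClassFunction_irr (⟨χ, hχ⟩ : IrrCharacter (SpecialLinearGroup (Fin 2) F))
  have hq2 := card_F_ge_two (F := F)
  refine ⟨?_, ?_⟩
  · intro hdeg h01 h10 ha
    have hd := sl_det_eq g
    rw [h01, zero_mul, sub_zero] at hd
    have ha0 : (g : Matrix (Fin 2) (Fin 2) F) 0 0 ≠ 0 := left_ne_zero_of_mul_eq_one hd
    have hq3 : Fintype.card F ≠ 3 := fun h => ha (sq_eq_one_of_card_three h _ ha0)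
    have hne : (g : Matrix (Fin 2) (Fin 2) F) 0 0 ≠ (g : Matrix (Fin 2) (Fin 2) F) 1 1 := by
      intro h
      apply ha
      rw [sq]
      nth_rewrite 2 [h]
      exact hd
    rcases sl2_cases χ hχ with h | h | ⟨γ, -, h⟩ |
      ⟨-, γ, ψ', hγ, hγ1, hψ', hne', hsum, hc, hc'⟩ | ⟨χ', hχ', hcusp, hd', rfl⟩ |
      ⟨-, χ', ψ', hχ', hcusp, hd', hψ', hne', hsum, hc, hc'⟩
    · exfalso
      rw [h] at hdeg
      rcases hdeg with hdeg | hdeg
      · have := nat_of_cast (m := 2) (n := Fintype.card F) (by push_cast; linear_combination hdeg)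
        omega
      · have := nat_of_cast (m := 1) (n := (Fintype.card F - 1) / 2) (by push_cast; exact hdeg)
        omega
    · exfalso
      rw [h, stS_one] at hdeg
      rcases hdeg with hdeg | hdeg
      · have := nat_of_cast (m := Fintype.card F + 1) (n := Fintype.card F)
          (by push_cast; linear_combination hdeg)
        omega
      · have := nat_of_cast hdeg
        omega
    · exfalso
      rw [h, psS_one] at hdeg
      rcases hdeg with hdeg | hdeg
      · have := nat_of_cast (m := Fintype.card F + 2) (n := Fintype.card F)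
          (by push_cast; linear_combination hdeg)
        omega
      · have := nat_of_cast (m := Fintype.card F + 1) (n := (Fintype.card F - 1) / 2)
          (by push_cast; exact hdeg)
        omega
    · exfalso
      have h1 := congrFun hsum 1
      rw [psS_one, Pi.add_apply, hc.one_eq] at h1
      rcases hdeg with hdeg | hdeg
      · rw [hdeg] at h1
        have := nat_of_cast (m := 3) (n := Fintype.card F) (by push_cast; linear_combination h1)
        exact hq3 this.symm
      · rw [hdeg] at h1
        have := nat_of_cast (m := Fintype.card F + 1) (n := 2 * ((Fintype.card F - 1) / 2))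
          (by push_cast; linear_combination h1)
        omega
    · exact cuspidal_diag χ' hχ' hcusp (SpecialLinearGroup.toGL g) h01 h10 hne
    · have e := hc.apply_eq hcf g (detSurj_diag g h01 h10)
      have h1 := congrFun hsum g
      rw [res_apply, cuspidal_diag χ' hχ' hcusp (SpecialLinearGroup.toGL g) h01 h10 hne,
        Pi.add_apply, e] at h1
      linear_combination (-(1 / 2 : ℂ)) * h1
  · intro hdeg hell
    rcases sl2_cases χ hχ with h | h | ⟨γ, -, h⟩ |
      ⟨-, γ, ψ', hγ, hγ1, hψ', hne', hsum, hc, hc'⟩ | ⟨χ', hχ', hcusp, hd', rfl⟩ |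
      ⟨-, χ', ψ', hχ', hcusp, hd', hψ', hne', hsum, hc, hc'⟩
    · exfalso
      rw [h] at hdeg
      rcases hdeg with hdeg | hdeg
      · have := nat_of_cast (m := 1) (n := Fintype.card F + 1) (by push_cast; exact hdeg)
        omega
      · have := nat_of_cast (m := 1) (n := (Fintype.card F + 1) / 2) (by push_cast; exact hdeg)
        omega
    · exfalso
      rw [h, stS_one] at hdeg
      rcases hdeg with hdeg | hdeg
      · have := nat_of_cast (m := Fintype.card F) (n := Fintype.card F + 1)
          (by push_cast; exact hdeg)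
        omega
      · have := nat_of_cast hdeg
        omega
    · rw [h]
      exact psS_elliptic γ g hell
    · have e := hc.apply_eq hcf g (detSurj_elliptic h2 g hell)
      have h1 := congrFun hsum g
      rw [psS_elliptic γ g hell, Pi.add_apply, e] at h1
      linear_combination (-(1 / 2 : ℂ)) * h1
    · rw [res_one, hd'] at hdeg
      rcases hdeg with hdeg | hdeg
      · exfalso
        have := nat_of_cast (m := Fintype.card F) (n := Fintype.card F + 2)
          (by push_cast; linear_combination hdeg)
        omega
      · have hq3 : Fintype.card F = 3 := by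
          have := nat_of_cast (m := Fintype.card F) (n := (Fintype.card F + 1) / 2 + 1)
            (by push_cast; linear_combination hdeg)
          omega
        exact res_cusp_elliptic_three hq3 χ' hχ' hcusp (by rw [hd', hq3]; norm_num) hχ g hell
    · exfalso
      have h1 := congrFun hsum 1
      rw [res_one, hd', Pi.add_apply, hc.one_eq] at h1
      rcases hdeg with hdeg | hdeg
      · rw [hdeg] at h1
        have := nat_of_cast (m := Fintype.card F + 3) (n := 0)
          (by push_cast; linear_combination -h1)
        omega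
      · rw [hdeg] at h1
        have := nat_of_cast (m := Fintype.card F) (n := 2 * ((Fintype.card F + 1) / 2) + 1)
          (by push_cast; linear_combination h1)
        omega

end Cfsg.Agent.S2322
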