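import Cfsg.Statements.S2323
import Cfsg.Agent.Lib.Helper46.SL2h

set_option autoImplicit false
open Cfsg

namespace Cfsg.Agent.S2323

open Cfsg.Agent.Lib.Helper46 Cfsg.Agent.Lib.Helper4 Matrix

/-- Over a finite field F with q ≥ 4 elements, let u be the upper unitriangular matrix of SL₂ with off-diagonal entry 1. An irreducible complex character of SL₂ takes at u the value 1 if its degree is q + 1 and the value −1 if its degree is q − 1. -/
theorem result {F : Type*} [Field F] [Fintype F] (hq : 4 ≤ Fintype.card F) (χ : Matrix.SpecialLinearGroup (Fin 2) F → ℂ) (hχ : Cfsg.IsIrrCharacter (Matrix.SpecialLinearGroup (Fin 2) F) χ)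
    (u : Matrix.SpecialLinearGroup (Fin 2) F) (hu : (u : Matrix (Fin 2) (Fin 2) F) = !![1, 1; 0, 1]) :
    (χ 1 = (Fintype.card F : ℂ) + 1 → χ u = 1) ∧ (χ 1 = (Fintype.card F : ℂ) - 1 → χ u = -1) := by
  classical
  refine ⟨?_, ?_⟩
  · intro hdeg
    rcases sl2_cases χ hχ with rfl | rfl | ⟨γ, hγ, rfl⟩ |
      ⟨h20, γ, ψ', hγ2, hγ1, hψ', hne, heq, hc1, hc2⟩ | ⟨χ', hχ', hcusp, hd, rfl⟩ |
      ⟨h20, χ', ψ', hχ', hcusp, hd, hψ', hne, heq, hc1, hc2⟩
    · exfalso
      have h1 : (1 : ℂ) = (Fintype.card F : ℂ) + 1 := hdeg
      have := nat_of_cast (m := 1) (n := Fintype.card F + 1) (by push_cast; exact h1)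
      omega
    · exfalso
      rw [stS_one] at hdeg
      have := nat_of_cast (m := Fintype.card F) (n := Fintype.card F + 1) (by push_cast; exact hdeg)
      omega
    · exact psS_slU γ u hu
    · exfalso
      have h1 := congrFun heq 1
      rw [psS_one, Pi.add_apply, hc1.one_eq, hdeg] at h1
      have := nat_of_cast (m := Fintype.card F + 1) (n := 2 * (Fintype.card F + 1))
        (by push_cast; linear_combination h1)
      omega
    · exfalso
      rw [res_one, hd] at hdeg
      have := nat_of_cast (m := Fintype.card F) (n := Fintype.card F + 2)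
        (by push_cast; linear_combination hdeg)
      omega
    · exfalso
      have h1 := congrFun heq 1
      rw [res_one, hd, Pi.add_apply, hc1.one_eq, hdeg] at h1
      have := nat_of_cast (m := Fintype.card F) (n := 2 * Fintype.card F + 3)
        (by push_cast; linear_combination h1)
      omega
  · intro hdeg
    rcases sl2_cases χ hχ with rfl | rfl | ⟨γ, hγ, rfl⟩ |
      ⟨h20, γ, ψ', hγ2, hγ1, hψ', hne, heq, hc1, hc2⟩ | ⟨χ', hχ', hcusp, hd, rfl⟩ |
      ⟨h20, χ', ψ', hχ', hcusp, hd, hψ', hne, heq, hc1, hc2⟩
    · exfalso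
      have h1 : (1 : ℂ) = (Fintype.card F : ℂ) - 1 := hdeg
      have := nat_of_cast (m := 2) (n := Fintype.card F) (by push_cast; linear_combination h1)
      omega
    · exfalso
      rw [stS_one] at hdeg
      have := nat_of_cast (m := Fintype.card F + 1) (n := Fintype.card F)
        (by push_cast; linear_combination hdeg)
      omega
    · exfalso
      rw [psS_one] at hdeg
      have := nat_of_cast (m := Fintype.card F + 2) (n := Fintype.card F)
        (by push_cast; linear_combination hdeg)
      omega
    · exfalso
      have h1 := congrFun heq 1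
      rw [psS_one, Pi.add_apply, hc1.one_eq, hdeg] at h1
      have := nat_of_cast (m := Fintype.card F + 3) (n := 2 * Fintype.card F)
        (by push_cast; linear_combination h1)
      omega
    · rw [res_apply, toGL_eq_glU u hu]
      exact cusp_glU χ' hχ' hcusp hd
    · exfalso
      have h1 := congrFun heq 1
      rw [res_one, hd, Pi.add_apply, hc1.one_eq, hdeg] at h1
      have := nat_of_cast (m := Fintype.card F + 1) (n := 2 * Fintype.card F)
        (by push_cast; linear_combination h1)
      omega

end Cfsg.Agent.S2323
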