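import Cfsg.Statements.S2324
import Cfsg.Agent.Lib.Helper46.SL2q
import Cfsg.Agent.S2299

set_option autoImplicit false
open Cfsg

namespace Cfsg.Agent.S2324

open Matrix Cfsg.Agent.Lib.Helper4 Cfsg.Agent.Lib.Helper46

/-- Over a finite field F with q elements, q odd and q ≥ 5, let u be the upper unitriangular matrix of SL₂ with off-diagonal entry 1 and let δ = (−1)^((q−1)/2). Every irreducible complex character χ of SL₂ of degree (q + 1)/2 satisfies (2χ(u) − 1)² = δq, and every irreducible complex character χ of degree (q − 1)/2 satisfies (2χ(u) + 1)² = δq; that is, χ(u) = (1 ± √(δq))/2 in the first case and χ(u) = (−1 ± √(δq))/2 in the second. Moreover two different irreducible characters of degree (q + 1)/2 take the two different values (their values at u add up to 1), and likewise for degree (q − 1)/2 (values adding up to −1). -/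
theorem result {F : Type*} [Field F] [Fintype F] (hodd : Odd (Fintype.card F)) (hq : 5 ≤ Fintype.card F)
    (u : Matrix.SpecialLinearGroup (Fin 2) F) (hu : (u : Matrix (Fin 2) (Fin 2) F) = !![1, 1; 0, 1]) :
    (∀ χ : Matrix.SpecialLinearGroup (Fin 2) F → ℂ, Cfsg.IsIrrCharacter (Matrix.SpecialLinearGroup (Fin 2) F) χ → χ 1 = (((Fintype.card F + 1) / 2 : ℕ) : ℂ) → (2 * χ u - 1) ^ 2 = (-1 : ℂ) ^ ((Fintype.card F - 1) / 2) * (Fintype.card F : ℂ)) ∧
    (∀ χ : Matrix.SpecialLinearGroup (Fin 2) F → ℂ, Cfsg.IsIrrCharacter (Matrix.SpecialLinearGroup (Fin 2) F) χ → χ 1 = (((Fintype.card F - 1) / 2 : ℕ) : ℂ) → (2 * χ u + 1) ^ 2 = (-1 : ℂ) ^ ((Fintype.card F - 1) / 2) * (Fintype.card F : ℂ)) ∧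
    (∀ χ₁ χ₂ : Matrix.SpecialLinearGroup (Fin 2) F → ℂ, Cfsg.IsIrrCharacter (Matrix.SpecialLinearGroup (Fin 2) F) χ₁ → Cfsg.IsIrrCharacter (Matrix.SpecialLinearGroup (Fin 2) F) χ₂ → χ₁ ≠ χ₂ →
      χ₁ 1 = (((Fintype.card F + 1) / 2 : ℕ) : ℂ) → χ₂ 1 = (((Fintype.card F + 1) / 2 : ℕ) : ℂ) → χ₁ u + χ₂ u = 1) ∧
    (∀ χ₁ χ₂ : Matrix.SpecialLinearGroup (Fin 2) F → ℂ, Cfsg.IsIrrCharacter (Matrix.SpecialLinearGroup (Fin 2) F) χ₁ → Cfsg.IsIrrCharacter (Matrix.SpecialLinearGroup (Fin 2) F) χ₂ → χ₁ ≠ χ₂ →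
      χ₁ 1 = (((Fintype.card F - 1) / 2 : ℕ) : ℂ) → χ₂ 1 = (((Fintype.card F - 1) / 2 : ℕ) : ℂ) → χ₁ u + χ₂ u = -1) := by
  classical
  obtain ⟨k, hk⟩ := hodd
  have h2 : (2 : F) ≠ 0 := by
    intro h
    have : CharP F 2 := CharTwo.of_one_ne_zero_of_two_eq_zero one_ne_zero h
    have := FiniteField.even_card_of_char_two (F := F) (ringChar.eq F 2)
    omega
  have hu1 : u = slU 1 := Subtype.ext (by rw [hu, slU_coe])
  subst hu1
  have hq1 : (Fintype.card F + 1) / 2 = k + 1 := by omega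
  have hq2 : (Fintype.card F - 1) / 2 = k := by omega
  have hk2 : 2 ≤ k := by omega
  rw [hq1, hq2]
  have keyP : ∀ χ : SpecialLinearGroup (Fin 2) F → ℂ,
      IsIrrCharacter (SpecialLinearGroup (Fin 2) F) χ → χ 1 = ((k + 1 : ℕ) : ℂ) →
      ∃ (γ : MulChar F ℂ) (ψ' : SpecialLinearGroup (Fin 2) F → ℂ), γ ^ 2 = 1 ∧ γ ≠ 1 ∧
        IsIrrCharacter (SpecialLinearGroup (Fin 2) F) ψ' ∧ χ ≠ ψ' ∧ psS γ = χ + ψ' ∧
        ConjGL χ ψ' ∧ ConjGL ψ' χ := by
    intro χ hχ hdeg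
    rcases sl2_cases χ hχ with h | h | ⟨γ, -, h⟩ |
      ⟨-, γ, ψ', hγ, hγ1, hψ', hne', hsum, hc, hc'⟩ | ⟨χ', hχ', hcusp, hd', rfl⟩ |
      ⟨-, χ', ψ', hχ', hcusp, hd', hψ', hne', hsum, hc, hc'⟩
    · exfalso
      rw [h] at hdeg
      have := nat_of_cast (m := 1) (n := k + 1) (by push_cast; push_cast at hdeg; exact hdeg)
      omega
    · exfalso
      rw [h, stS_one] at hdeg
      have := nat_of_cast hdeg
      omega
    · exfalso
      rw [h, psS_one] at hdeg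
      have := nat_of_cast (m := Fintype.card F + 1) (n := k + 1)
        (by push_cast; push_cast at hdeg; exact hdeg)
      omega
    · exact ⟨γ, ψ', hγ, hγ1, hψ', hne', hsum, hc, hc'⟩
    · exfalso
      rw [res_one, hd'] at hdeg
      have := nat_of_cast (m := Fintype.card F) (n := k + 1 + 1)
        (by push_cast; push_cast at hdeg; linear_combination hdeg)
      omega
    · exfalso
      have h1 := congrFun hsum 1
      rw [res_one, hd', Pi.add_apply, hc.one_eq, hdeg] at h1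
      have := nat_of_cast (m := Fintype.card F) (n := (k + 1) + (k + 1) + 1)
        (by push_cast; push_cast at h1; linear_combination h1)
      omega
  have keyC : ∀ χ : SpecialLinearGroup (Fin 2) F → ℂ,
      IsIrrCharacter (SpecialLinearGroup (Fin 2) F) χ → χ 1 = ((k : ℕ) : ℂ) →
      ∃ (χ' : GL (Fin 2) F → ℂ) (ψ' : SpecialLinearGroup (Fin 2) F → ℂ),
        IsIrrCharacter (GL (Fin 2) F) χ' ∧ Cuspidal χ' ∧ χ' 1 = (Fintype.card F : ℂ) - 1 ∧
        IsIrrCharacter (SpecialLinearGroup (Fin 2) F) ψ' ∧ χ ≠ ψ' ∧ res χ' = χ + ψ' ∧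
        ConjGL χ ψ' ∧ ConjGL ψ' χ := by
    intro χ hχ hdeg
    rcases sl2_cases χ hχ with h | h | ⟨γ, -, h⟩ |
      ⟨-, γ, ψ', hγ, hγ1, hψ', hne', hsum, hc, hc'⟩ | ⟨χ', hχ', hcusp, hd', rfl⟩ |
      ⟨-, χ', ψ', hχ', hcusp, hd', hψ', hne', hsum, hc, hc'⟩
    · exfalso
      rw [h] at hdeg
      have := nat_of_cast (m := 1) (n := k) (by push_cast; exact hdeg)
      omega
    · exfalso
      rw [h, stS_one] at hdeg
      have := nat_of_cast hdeg
      omega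
    · exfalso
      rw [h, psS_one] at hdeg
      have := nat_of_cast (m := Fintype.card F + 1) (n := k) (by push_cast; exact hdeg)
      omega
    · exfalso
      have h1 := congrFun hsum 1
      rw [psS_one, Pi.add_apply, hc.one_eq, hdeg] at h1
      have := nat_of_cast (m := Fintype.card F + 1) (n := k + k) (by push_cast; exact h1)
      omega
    · exfalso
      rw [res_one, hd'] at hdeg
      have := nat_of_cast (m := Fintype.card F) (n := k + 1)
        (by push_cast; linear_combination hdeg)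
      omega
    · exact ⟨χ', ψ', hχ', hcusp, hd', hψ', hne', hsum, hc, hc'⟩
  have hglU : ∀ χ' : GL (Fin 2) F → ℂ, IsIrrCharacter (GL (Fin 2) F) χ' → Cuspidal χ' →
      χ' 1 = (Fintype.card F : ℂ) - 1 → χ' glU = -1 := by
    intro χ' hχ' hcusp hd'
    have h5 := cuspidal_glU χ' hχ' hcusp
    rw [hd'] at h5
    have h6 : ((Fintype.card F : ℂ) - 1) * (χ' glU + 1) = 0 := by linear_combination h5
    rcases mul_eq_zero.mp h6 with h | h
    · exact absurd h card_sub_one_ne_zero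
    · linear_combination h
  refine ⟨?_, ?_, ?_, ?_⟩
  · intro χ hχ hdeg
    obtain ⟨γ, ψ', hγ, hγ1, hψ', hne', hsum, hc, hc'⟩ := keyP χ hχ hdeg
    have h1 := congrFun hsum (slU 1)
    rw [psS_slU γ (slU 1) (slU_coe 1), Pi.add_apply] at h1
    have hsq := half_sq h2 χ ψ' hχ hψ' hne' hc hc'
    rw [hq2] at hsq
    rw [← hsq]
    have h3 : 2 * χ (slU 1) - 1 = χ (slU 1) - ψ' (slU 1) := by linear_combination -h1
    rw [h3]
  · intro χ hχ hdeg
    obtain ⟨χ', ψ', hχ', hcusp, hd', hψ', hne', hsum, hc, hc'⟩ := keyC χ hχ hdeg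
    have h1 := congrFun hsum (slU 1)
    rw [res_apply, toGL_eq_glU (slU 1) (slU_coe 1), hglU χ' hχ' hcusp hd', Pi.add_apply] at h1
    have hsq := half_sq h2 χ ψ' hχ hψ' hne' hc hc'
    rw [hq2] at hsq
    rw [← hsq]
    have h3 : 2 * χ (slU 1) + 1 = χ (slU 1) - ψ' (slU 1) := by linear_combination -h1
    rw [h3]
  · intro χ₁ χ₂ hχ₁ hχ₂ hne hd1 hd2
    obtain ⟨γ, ψ', hγ, hγ1, hψ', hne', hsum, hc, hc'⟩ := keyP χ₁ hχ₁ hd1
    obtain ⟨γ₂, ψ₂', hγ₂, hγ₂1, hψ₂', hne₂', hsum₂, -, -⟩ := keyP χ₂ hχ₂ hd2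
    obtain ⟨γ₀, -, -, huniq⟩ := exists_order_two h2
    have hγe : γ₂ = γ := (huniq γ₂ hγ₂ hγ₂1).trans (huniq γ hγ hγ1).symm
    subst hγe
    have h3 := (classInner_add_irr χ₂ ψ₂' hχ₂ hψ₂' hne₂').1
    rw [← hsum₂, hsum, classInner_add_left] at h3
    have e1 : classInner χ₁ χ₂ = 0 := classInner_irr_ne _ _ hχ₁ hχ₂ hne
    have e2 : χ₂ = ψ' := by
      by_contra e
      have e3 := classInner_irr_ne _ _ hψ' hχ₂ (fun h => e h.symm)
      rw [e1, e3] at h3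
      norm_num at h3
    subst e2
    have h4 := congrFun hsum (slU 1)
    rw [psS_slU γ₂ (slU 1) (slU_coe 1), Pi.add_apply] at h4
    exact h4.symm
  · intro χ₁ χ₂ hχ₁ hχ₂ hne hd1 hd2
    obtain ⟨χc, ψ', hχc, hcusp, hdc, hψ', hne', hsum, hc, hc'⟩ := keyC χ₁ hχ₁ hd1
    have hcnt := ((Cfsg.Agent.S2299.result (F := F) ⟨k, hk⟩).2 hq).2.2.2.2.2
    rw [hq2] at hcnt
    have e2 : χ₂ = ψ' := by
      by_contra e
      obtain ⟨x, y, hxy, huniv⟩ := Nat.card_eq_two_iff.mp hcnt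
      have hm : ∀ w : {χ : IrrCharacter (SpecialLinearGroup (Fin 2) F) //
          (χ : SpecialLinearGroup (Fin 2) F → ℂ) 1 = ((k : ℕ) : ℂ)}, w = x ∨ w = y := by
        intro w
        have : w ∈ ({x, y} : Set _) := by rw [huniv]; exact Set.mem_univ w
        simpa using this
      have hψ1 : ψ' 1 = ((k : ℕ) : ℂ) := by rw [hc.one_eq]; exact hd1
      have hab : (⟨⟨χ₁, hχ₁⟩, hd1⟩ : {χ : IrrCharacter (SpecialLinearGroup (Fin 2) F) //
          (χ : SpecialLinearGroup (Fin 2) F → ℂ) 1 = ((k : ℕ) : ℂ)}) ≠ ⟨⟨χ₂, hχ₂⟩, hd2⟩ := by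
        intro h
        exact hne (congrArg (fun w => (w.1.1 : SpecialLinearGroup (Fin 2) F → ℂ)) h)
      have hac : (⟨⟨χ₁, hχ₁⟩, hd1⟩ : {χ : IrrCharacter (SpecialLinearGroup (Fin 2) F) //
          (χ : SpecialLinearGroup (Fin 2) F → ℂ) 1 = ((k : ℕ) : ℂ)}) ≠ ⟨⟨ψ', hψ'⟩, hψ1⟩ := by
        intro h
        exact hne' (congrArg (fun w => (w.1.1 : SpecialLinearGroup (Fin 2) F → ℂ)) h)
      have hbc : (⟨⟨χ₂, hχ₂⟩, hd2⟩ : {χ : IrrCharacter (SpecialLinearGroup (Fin 2) F) //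
          (χ : SpecialLinearGroup (Fin 2) F → ℂ) 1 = ((k : ℕ) : ℂ)}) ≠ ⟨⟨ψ', hψ'⟩, hψ1⟩ := by
        intro h
        exact e (congrArg (fun w => (w.1.1 : SpecialLinearGroup (Fin 2) F → ℂ)) h)
      rcases hm ⟨⟨χ₁, hχ₁⟩, hd1⟩ with ha | ha <;> rcases hm ⟨⟨χ₂, hχ₂⟩, hd2⟩ with hb | hb <;>
        rcases hm ⟨⟨ψ', hψ'⟩, hψ1⟩ with hc3 | hc3 <;>
        first
          | exact hab (ha.trans hb.symm)
          | exact hac (ha.trans hc3.symm)
          | exact hbc (hb.trans hc3.symm)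
    subst e2
    have h4 := congrFun hsum (slU 1)
    rw [res_apply, toGL_eq_glU (slU 1) (slU_coe 1), hglU χc hχc hcusp hdc, Pi.add_apply] at h4
    exact h4.symm

end Cfsg.Agent.S2324
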