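import Cfsg.Statements.S2329
import Cfsg.Agent.Lib.Helper46.Mat2

set_option autoImplicit false
open Cfsg

namespace Cfsg.Agent.S2329

open Cfsg.Agent.Lib.Helper46 Matrix

/-- Over a finite field of characteristic p, any two elements of order p of GL₂ are conjugate: there is a single conjugacy class of non-identity unipotent elements. -/
theorem result {F : Type*} [Field F] [Fintype F] (p : ℕ) [Fact p.Prime] [CharP F p] (g h : Matrix.GeneralLinearGroup (Fin 2) F)
    (hg : orderOf g = p) (hh : orderOf h = p) : IsConj g h := by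
  have key : ∀ g : GL (Fin 2) F, orderOf g = p →
      (g : Matrix (Fin 2) (Fin 2) F).trace = 2 ∧ (g : Matrix (Fin 2) (Fin 2) F).det = 1 ∧
        NonScalar (g : Matrix (Fin 2) (Fin 2) F) := by
    intro g hg
    have hgp : g ^ p = 1 := by rw [← hg]; exact pow_orderOf_eq_one g
    have hg1 : g ≠ 1 := by
      rintro rfl
      rw [orderOf_one] at hg
      exact (Fact.out : p.Prime).ne_one hg.symm
    have hM : (g : Matrix (Fin 2) (Fin 2) F) ^ p = 1 := by
      rw [← Units.val_pow_eq_pow_val, hgp]
      rfl
    obtain ⟨ht, hd⟩ := trace_det_of_pow_char p _ hM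
    exact ⟨ht, hd, nonScalar_of_trace_det _ ht hd (fun h => hg1 (Units.ext h))⟩
  obtain ⟨t1, d1, n1⟩ := key g hg
  obtain ⟨t2, d2, n2⟩ := key h hh
  exact gl_isConj_of_nonScalar g h n1 n2 (t1.trans t2.symm) (d1.trans d2.symm)

end Cfsg.Agent.S2329
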