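import Cfsg.Statements.S2363
-- import your own Cfsg.Agent.* helpers here
import Cfsg.Agent.Lib.Lead.LTBMain
import Cfsg.Agent.S0243
import Cfsg.Agent.S0245
import Cfsg.Agent.S0246
import Cfsg.Agent.S0280
import Cfsg.Agent.S0292
import Cfsg.Agent.S0293
import Cfsg.Agent.S0294
import Cfsg.Agent.S1059
import Cfsg.Agent.S1062
import Cfsg.Agent.S1063
import Cfsg.Agent.S1064
import Cfsg.Agent.S1065
import Cfsg.Agent.S1066
import Cfsg.Agent.S1067
import Cfsg.Agent.S1069
import Cfsg.Agent.S1163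
import Cfsg.Agent.Lib.Helper4.LTBPSP
import Cfsg.Agent.Lib.Helper14.LTBTW
import Cfsg.Agent.Lib.Helper20.LTBPSU
import Cfsg.Agent.Lib.Helper34.LTBOMINUS
import Cfsg.Agent.Lib.Helper56.LTBOPLUS
import Cfsg.Agent.Lib.Helper57.LTBG2F4E8
import Cfsg.Agent.Lib.Helper68.LTBSZ
import Cfsg.Agent.Lib.Helper82.LTBE6E7
import Cfsg.Agent.Lib.Helper87.LTBOODD
import Cfsg.Agent.Lib.Helper89.LTBPSL
import Cfsg.Agent.Lib.Helper26.TwF4Fact

set_option autoImplicit false
open Cfsg

namespace Cfsg.Agent.S2363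

/-- arithmetic for the Ree groups `²G₂(q)` -/
theorem ree_arith (Q : ℕ) (hQ : 2 ≤ Q) : Q ^ 3 * (Q - 1) * (Q ^ 3 + 1) < Q ^ 8 := by
  obtain ⟨t, rfl⟩ : ∃ t, Q = t + 1 := ⟨Q - 1, by omega⟩
  have ht : 1 ≤ t := by omega
  rw [Nat.add_sub_cancel]
  have h1 : (t + 1) ^ 3 + 1 ≤ (t + 1) ^ 4 := by
    have : 2 * (t + 1) ^ 3 ≤ (t + 1) * (t + 1) ^ 3 := Nat.mul_le_mul_right _ (by omega)
    have h3 : 1 ≤ (t + 1) ^ 3 := Nat.one_le_pow _ _ (by omega)
    calc (t + 1) ^ 3 + 1 ≤ 2 * (t + 1) ^ 3 := by omega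
      _ ≤ (t + 1) * (t + 1) ^ 3 := this
      _ = (t + 1) ^ 4 := by ring
  have h2 : t * ((t + 1) ^ 3 + 1) < (t + 1) * (t + 1) ^ 4 :=
    Nat.mul_lt_mul_of_lt_of_le (by omega) h1 (by positivity)
  calc (t + 1) ^ 3 * t * ((t + 1) ^ 3 + 1) = (t + 1) ^ 3 * (t * ((t + 1) ^ 3 + 1)) := by ring
    _ < (t + 1) ^ 3 * ((t + 1) * (t + 1) ^ 4) := Nat.mul_lt_mul_of_pos_left h2 (by positivity)
    _ = (t + 1) ^ 8 := by ring

/-- the weak facts for the Ree groups, from the order formula S1069 -/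
theorem ree_fact : Cfsg.Agent.Lib.Lead.LTB.ReeFact := by
  intro K _ _ m _ hK
  have h := Cfsg.Agent.S1069.result hK
  have hQ : 2 ≤ 3 ^ (2 * m + 1) := by
    calc 2 ≤ 3 ^ 1 := by norm_num
      _ ≤ 3 ^ (2 * m + 1) := Nat.pow_le_pow_right (by norm_num) (by omega)
  refine ⟨?_, ?_⟩
  · rw [h, mul_assoc]
    exact Dvd.intro _ rfl
  · rw [h]
    exact ree_arith _ hQ

/-- Let G be a finite simple group of Lie type in characteristic p and let p^k be the exact power of p dividing the order of G. Then the order of G is less than p^(3k); and unless G is isomorphic to PSL(2, F) for the field F with p^k elements, the cube of the order of G is less than p^(8k) (that is, the order is below p^(8k/3)). -/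
theorem result {G : Type*} [Group G] [Finite G] (p : ℕ) (hp : p.Prime) (hG : Cfsg.IsLieTypeChar p G) :
    Nat.card G < p ^ (3 * (Nat.card G).factorization p) ∧
      ((¬ ∃ (F : Type) (_ : Field F) (_ : Fintype F), Fintype.card F = p ^ (Nat.card G).factorization p ∧
          Nonempty (G ≃* Matrix.ProjectiveSpecialLinearGroup (Fin 2) F)) →
        Nat.card G ^ 3 < p ^ (8 * (Nat.card G).factorization p)) := by
  open Cfsg.Agent.Lib.Lead.LTB in
  exact Cfsg.Agent.Lib.Lead.LTB.main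
    ⟨psl_stmt, psp_stmt, psu_stmt, oodd_stmt, oplus_stmt, ominus_stmt, g2_stmt, f4_stmt, e6_stmt,
      e7_stmt, e8_stmt, twe6_stmt, twd4_stmt, sz_stmt, ree_fact, twf4_fact⟩
    ⟨fun F _ _ n hn => Cfsg.Agent.S0243.result rfl n hn,
     fun F _ _ m => Cfsg.Agent.S0245.result rfl m,
     fun F _ _ m hm => Cfsg.Agent.S0246.result rfl m hm,
     fun F _ _ n q hF hn => Cfsg.Agent.S0280.result hF n hn,
     fun F _ _ m hodd hm => Cfsg.Agent.S0292.result rfl hodd m hm,
     fun F _ _ m hm => Cfsg.Agent.S0293.result rfl m hm,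
     fun F _ _ m hm a b hab => Cfsg.Agent.S0294.result rfl m hm a b hab,
     fun F _ _ => Cfsg.Agent.S1059.result rfl,
     fun F _ _ => Cfsg.Agent.S1062.result rfl,
     fun F _ _ => Cfsg.Agent.S1063.result rfl,
     fun F _ _ => Cfsg.Agent.S1064.result rfl,
     fun F _ _ => Cfsg.Agent.S1065.result rfl,
     fun K _ _ q hq hK => Cfsg.Agent.S1066.result hq hK,
     fun K _ _ q hq hK => Cfsg.Agent.S1067.result hq hK,
     fun F _ _ m hm hF => (Cfsg.Agent.S1163.result hm hF).1⟩ p hp hG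

end Cfsg.Agent.S2363
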