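import Cfsg.Statements.S2364
-- import your own Cfsg.Agent.* helpers here
import Cfsg.Agent.Lib.Helper47.UnipCentral
import Cfsg.Agent.Lib.Helper47.SylowSL

set_option autoImplicit false
open Cfsg

namespace Cfsg.Agent.S2364

open Matrix

/-- `q ∣ |SL_m(q)|` for `m ≥ 2`. -/
theorem card_dvd_card_SL (F : Type*) [Field F] [Fintype F] (m : ℕ) (hm : 2 ≤ m) :
    Fintype.card F ∣ Nat.card (Matrix.SpecialLinearGroup (Fin m) F) := by
  have hq2 : 2 ≤ Fintype.card F := Fintype.one_lt_card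
  have h1 := Cfsg.Agent.Lib.Helper47.card_GL_eq_card_SL_mul F m (by omega)
  rw [Matrix.card_GL_field] at h1
  have h2 : Fintype.card F ^ m - Fintype.card F ^ ((⟨m - 1, by omega⟩ : Fin m) : ℕ)
      ∣ ∏ i : Fin m, (Fintype.card F ^ m - Fintype.card F ^ (i : ℕ)) :=
    Finset.dvd_prod_of_mem _ (Finset.mem_univ (⟨m - 1, by omega⟩ : Fin m))
  have h3 : Fintype.card F ^ m - Fintype.card F ^ (m - 1)
      = Fintype.card F ^ (m - 1) * (Fintype.card F - 1) := by
    rw [Nat.mul_sub, mul_one, ← pow_succ]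
    congr 2
    omega
  have h4 : Fintype.card F * (Fintype.card F - 1)
      ∣ Fintype.card F ^ (m - 1) * (Fintype.card F - 1) :=
    mul_dvd_mul_right (dvd_pow_self _ (by omega)) _
  rw [h1] at h2
  simp only at h2
  rw [h3] at h2
  exact Nat.dvd_of_mul_dvd_mul_right (by omega) (h4.trans h2)

/-- `(q^e - 1) ∣ |SL_m(q)|` for `2 ≤ e ≤ m`. -/
theorem pow_sub_one_dvd_card_SL (F : Type*) [Field F] [Fintype F] (m e : ℕ) (he : 2 ≤ e)
    (hem : e ≤ m) :
    Fintype.card F ^ e - 1 ∣ Nat.card (Matrix.SpecialLinearGroup (Fin m) F) := by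
  have hq2 : 2 ≤ Fintype.card F := Fintype.one_lt_card
  have h1 := Cfsg.Agent.Lib.Helper47.card_GL_eq_card_SL_mul F m (by omega)
  rw [Matrix.card_GL_field] at h1
  have hne : (⟨m - e, by omega⟩ : Fin m) ≠ ⟨m - 1, by omega⟩ := by
    intro h
    have := congrArg Fin.val h
    simp only at this
    omega
  have h2 : ∏ i ∈ ({(⟨m - e, by omega⟩ : Fin m), ⟨m - 1, by omega⟩} : Finset (Fin m)),
      (Fintype.card F ^ m - Fintype.card F ^ (i : ℕ))
      ∣ ∏ i : Fin m, (Fintype.card F ^ m - Fintype.card F ^ (i : ℕ)) :=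
    Finset.prod_dvd_prod_of_subset _ _ _ (Finset.subset_univ _)
  rw [Finset.prod_pair hne] at h2
  simp only at h2
  have h3 : Fintype.card F ^ m - Fintype.card F ^ (m - e)
      = Fintype.card F ^ (m - e) * (Fintype.card F ^ e - 1) := by
    rw [Nat.mul_sub, mul_one, ← pow_add]
    congr 2
    omega
  have h4 : Fintype.card F ^ m - Fintype.card F ^ (m - 1)
      = Fintype.card F ^ (m - 1) * (Fintype.card F - 1) := by
    rw [Nat.mul_sub, mul_one, ← pow_succ]
    congr 2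
    omega
  have h5 : (Fintype.card F ^ e - 1) * (Fintype.card F - 1)
      ∣ (Fintype.card F ^ m - Fintype.card F ^ (m - e)) *
        (Fintype.card F ^ m - Fintype.card F ^ (m - 1)) := by
    rw [h3, h4]
    exact mul_dvd_mul (dvd_mul_left _ _) (dvd_mul_left _ _)
  rw [h1] at h2
  exact Nat.dvd_of_mul_dvd_mul_right (by omega) (h5.trans h2)

/-- Let F be a finite field of characteristic p, n ≥ 4, and let a, b be commuting elements of PSL(n, F) with a of order p. Then every prime divisor of the order of b divides the order of SL(n − 2, F). -/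
theorem result {F : Type*} [Field F] [Fintype F] (p : ℕ) [Fact p.Prime] [CharP F p] (n : ℕ) (hn : 4 ≤ n)
    (a b : Matrix.ProjectiveSpecialLinearGroup (Fin n) F) (ha : orderOf a = p) (hab : Commute a b) :
    (orderOf b).primeFactors ⊆ (Nat.card (Matrix.SpecialLinearGroup (Fin (n - 2)) F)).primeFactors := by
  classical
  intro ℓ hℓ
  rw [Nat.mem_primeFactors] at hℓ ⊢
  obtain ⟨hℓp, hℓb, hb0⟩ := hℓ
  refine ⟨hℓp, ?_, Nat.card_pos.ne'⟩
  have hpp : p.Prime := Fact.out
  have hq2 : 2 ≤ Fintype.card F := Fintype.one_lt_card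
  obtain ⟨kq, _, hkq⟩ := FiniteField.card F p
  by_cases hlp : ℓ = p
  · have hpq : p ∣ Fintype.card F := by
      rw [hkq]
      exact dvd_pow_self p kq.ne_zero
    rw [hlp]
    exact hpq.trans (card_dvd_card_SL F (n - 2) (by omega))
  have hℓF : (ℓ : F) ≠ 0 := by
    intro h
    have := (CharP.cast_eq_zero_iff F p ℓ).mp h
    exact hlp ((Nat.prime_dvd_prime_iff_eq hpp hℓp).mp this).symm
  have hℓq : ¬ ℓ ∣ Fintype.card F := by
    rw [hkq]
    intro h
    exact hlp ((Nat.prime_dvd_prime_iff_eq hℓp hpp).mp (hℓp.dvd_of_dvd_pow h))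
  by_cases hq1 : ℓ ∣ Fintype.card F - 1
  · have h1 : Fintype.card F ^ 2 - 1 = (Fintype.card F - 1) * (Fintype.card F + 1) := by
      obtain ⟨c, hc⟩ : ∃ c, Fintype.card F = c + 1 := ⟨Fintype.card F - 1, by omega⟩
      rw [hc]
      simp only [Nat.add_sub_cancel]
      have : (c + 1) ^ 2 = c * (c + 1 + 1) + 1 := by ring
      rw [this, Nat.add_sub_cancel]
    have h2 : ℓ ∣ Fintype.card F ^ 2 - 1 := by
      rw [h1]
      exact dvd_mul_of_dvd_left hq1 _
    exact h2.trans (pow_sub_one_dvd_card_SL F (n - 2) 2 le_rfl (by omega))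
  -- main case
  have hne : Nonempty (Fin n) := ⟨⟨0, by omega⟩⟩
  obtain ⟨a₀, rfl⟩ := QuotientGroup.mk_surjective a
  obtain ⟨b₀, rfl⟩ := QuotientGroup.mk_surjective b
  have hap : a₀ ^ p ∈ Subgroup.center (Matrix.SpecialLinearGroup (Fin n) F) := by
    rw [← QuotientGroup.eq_one_iff, QuotientGroup.mk_pow, ← ha]
    exact pow_orderOf_eq_one _
  have ha1 : a₀ ∉ Subgroup.center (Matrix.SpecialLinearGroup (Fin n) F) := by
    intro h
    rw [← QuotientGroup.eq_one_iff] at h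
    rw [h, orderOf_one] at ha
    exact hpp.one_lt.ne ha
  obtain ⟨z, hz⟩ : ∃ z, z = a₀ * b₀ * a₀⁻¹ * b₀⁻¹ := ⟨_, rfl⟩
  have hzc : z ∈ Subgroup.center (Matrix.SpecialLinearGroup (Fin n) F) := by
    rw [← QuotientGroup.eq_one_iff, hz]
    have h1 := hab.eq
    simp only [QuotientGroup.mk_mul, QuotientGroup.mk_inv]
    rw [h1]
    group
  have hgrp : a₀ * b₀ = z * (b₀ * a₀) := by
    rw [hz]
    group
  obtain ⟨t, ht⟩ : ∃ t, t = orderOf (b₀ : Matrix.ProjectiveSpecialLinearGroup (Fin n) F) :=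
    ⟨_, rfl⟩
  rw [← ht] at hℓb hb0
  have hbt : b₀ ^ t ∈ Subgroup.center (Matrix.SpecialLinearGroup (Fin n) F) := by
    rw [← QuotientGroup.eq_one_iff, QuotientGroup.mk_pow, ht]
    exact pow_orderOf_eq_one _
  obtain ⟨lam, hlamn, hlam⟩ := Matrix.SpecialLinearGroup.mem_center_iff.mp hap
  obtain ⟨ζ, hζn, hζ⟩ := Matrix.SpecialLinearGroup.mem_center_iff.mp hzc
  obtain ⟨ν, hνn, hν⟩ := Matrix.SpecialLinearGroup.mem_center_iff.mp hbt
  rw [Fintype.card_fin] at hlamn hζn hνn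
  have hn0 : n ≠ 0 := by omega
  have hlam0 : lam ≠ 0 := by
    rintro rfl
    rw [zero_pow hn0] at hlamn
    exact zero_ne_one hlamn
  have hζ0 : ζ ≠ 0 := by
    rintro rfl
    rw [zero_pow hn0] at hζn
    exact zero_ne_one hζn
  have hν0 : ν ≠ 0 := by
    rintro rfl
    rw [zero_pow hn0] at hνn
    exact zero_ne_one hνn
  obtain ⟨M, hM⟩ : ∃ M : Matrix (Fin n) (Fin n) F, M = a₀.1 := ⟨_, rfl⟩
  obtain ⟨B, hB⟩ : ∃ B : Matrix (Fin n) (Fin n) F, B = b₀.1 := ⟨_, rfl⟩
  have hMp : M ^ p = lam • (1 : Matrix (Fin n) (Fin n) F) := by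
    rw [hM, Matrix.smul_one_eq_diagonal, ← Matrix.scalar_apply, hlam]
    rfl
  have hBt : B ^ t = ν • (1 : Matrix (Fin n) (Fin n) F) := by
    rw [hB, Matrix.smul_one_eq_diagonal, ← Matrix.scalar_apply, hν]
    rfl
  have hMB : M * B = ζ • (B * M) := by
    have h1 := congrArg (fun g : Matrix.SpecialLinearGroup (Fin n) F =>
      (g : Matrix (Fin n) (Fin n) F)) hgrp
    simp only [Matrix.SpecialLinearGroup.coe_mul] at h1
    rw [← hζ, Matrix.scalar_apply, ← Matrix.smul_eq_diagonal_mul] at h1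
    rw [hM, hB]
    exact h1
  have hMBpow : ∀ j : ℕ, M * B ^ j = ζ ^ j • (B ^ j * M) := by
    intro j
    induction j with
    | zero => simp
    | succ j ih =>
      rw [pow_succ, ← mul_assoc, ih, smul_mul_assoc, mul_assoc, hMB, mul_smul_comm, smul_smul,
        ← mul_assoc, ← pow_succ]
  -- the element `c`
  obtain ⟨t', ht'⟩ := hℓb
  have ht'0 : t' ≠ 0 := by
    rintro rfl
    rw [mul_zero] at ht'
    exact hb0 ht'
  obtain ⟨k, hk⟩ : ∃ k, k = t' * (Fintype.card F - 1) := ⟨_, rfl⟩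
  obtain ⟨Cm, hCm⟩ : ∃ Cm : Matrix (Fin n) (Fin n) F, Cm = B ^ k := ⟨_, rfl⟩
  have hCmℓ : Cm ^ ℓ = 1 := by
    rw [hCm, ← pow_mul, hk]
    have : t' * (Fintype.card F - 1) * ℓ = t * (Fintype.card F - 1) := by
      rw [ht']
      ring
    rw [this, pow_mul, hBt, smul_pow, one_pow, FiniteField.pow_card_sub_one_eq_one ν hν0,
      one_smul]
  have hCm1 : Cm ≠ 1 := by
    intro h
    have h1 : b₀ ^ k = 1 := by
      apply Subtype.ext
      rw [Matrix.SpecialLinearGroup.coe_pow, ← hB, ← hCm, h]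
      rfl
    have h2 : (b₀ : Matrix.ProjectiveSpecialLinearGroup (Fin n) F) ^ k = 1 := by
      rw [← QuotientGroup.mk_pow, h1]
      rfl
    have h3 : t ∣ k := by
      rw [ht]
      exact orderOf_dvd_of_pow_eq_one h2
    rw [ht', hk, mul_comm ℓ t'] at h3
    exact hq1 (Nat.dvd_of_mul_dvd_mul_left (Nat.pos_of_ne_zero ht'0) h3)
  have hCmM : Commute Cm M := by
    have h1 := hMBpow k
    have h2 : ζ ^ k = 1 := by
      rw [hk, mul_comm, pow_mul, FiniteField.pow_card_sub_one_eq_one ζ hζ0, one_pow]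
    rw [h2, one_smul, ← hCm] at h1
    exact h1.symm
  -- the nilpotent element
  obtain ⟨μ, hμ⟩ := (Finite.injective_iff_surjective.mp (frobenius_inj F p)) lam
  rw [frobenius_def] at hμ
  obtain ⟨Nm, hNm⟩ : ∃ Nm : Matrix (Fin n) (Fin n) F, Nm = M - μ • (1 : Matrix (Fin n) (Fin n) F) :=
    ⟨_, rfl⟩
  have hNmp : Nm ^ p = 0 := by
    have hc : Commute M (μ • (1 : Matrix (Fin n) (Fin n) F)) :=
      (Commute.one_right M).smul_right μ
    rw [hNm, sub_pow_char_of_commute p hc, hMp, smul_pow, one_pow, hμ, sub_self]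
  have hNm0 : Nm ≠ 0 := by
    intro h
    rw [hNm, sub_eq_zero] at h
    apply ha1
    rw [Matrix.SpecialLinearGroup.mem_center_iff]
    refine ⟨μ, ?_, ?_⟩
    · have h1 : M.det = 1 := by
        rw [hM]
        exact a₀.2
      rw [h, Matrix.det_smul, Matrix.det_one, mul_one] at h1
      exact h1
    · rw [Matrix.scalar_apply, ← Matrix.smul_one_eq_diagonal, ← h, hM]
  have hCmN : Commute Cm Nm := by
    rw [hNm]
    exact hCmM.sub_right ((Commute.one_right Cm).smul_right μ)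
  -- apply the linear algebra lemma
  obtain ⟨φ, hφ⟩ : ∃ φ : Matrix (Fin n) (Fin n) F ≃ₐ[F] Module.End F (Fin n → F),
      φ = Matrix.toLinAlgEquiv' := ⟨_, rfl⟩
  have hfact : Fact ℓ.Prime := ⟨hℓp⟩
  obtain ⟨e, he1, he2, he3⟩ := Cfsg.Agent.Lib.Helper47.exists_small_exponent ℓ hℓF hℓq
    (φ Cm) (φ Nm)
    (by rw [← map_pow, hCmℓ, map_one])
    (by
      intro h
      apply hCm1
      apply φ.injective
      rw [h, map_one])
    (hCmN.map φ)
    ⟨p, by rw [← map_pow, hNmp, map_zero]⟩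
    (by
      intro h
      apply hNm0
      apply φ.injective
      rw [h, map_zero])
    (by rw [Module.finrank_fin_fun]; exact hn)
  rw [Module.finrank_fin_fun] at he2
  have he : 2 ≤ e := by
    by_contra hlt
    have : e = 1 := by omega
    rw [this, pow_one] at he3
    exact hq1 he3
  exact he3.trans (pow_sub_one_dvd_card_SL F (n - 2) e he (by omega))

end Cfsg.Agent.S2364
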