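import Cfsg.Statements.S2365
-- import your own Cfsg.Agent.* helpers here
import Cfsg.Agent.Lib.Helper47.UnipUnitary
import Cfsg.Agent.Lib.Helper47.UnitaryEmb
import Cfsg.Agent.Lib.Helper7.SUCenter

set_option autoImplicit false
open Cfsg

namespace Cfsg.Agent.S2365

open Matrix

/-- Central elements of `SU_m(q)` are nonzero scalar matrices. -/
theorem center_scalar {F : Type*} [Field F] [Fintype F] {q : ℕ} (hF : Fintype.card F = q ^ 2)
    {m : ℕ} (hm : 1 ≤ m) (z : ↥(Cfsg.SU m F q)) (hz : z ∈ Subgroup.center ↥(Cfsg.SU m F q)) :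
    ∃ c : F, c ≠ 0 ∧ (z.1.1 : Matrix (Fin m) (Fin m) F) = c • (1 : Matrix (Fin m) (Fin m) F) := by
  obtain ⟨c, hc⟩ : ∃ c : F, c = (z.1.1 : Matrix (Fin m) (Fin m) F) ⟨0, by omega⟩ ⟨0, by omega⟩ :=
    ⟨_, rfl⟩
  have hmat : (z.1.1 : Matrix (Fin m) (Fin m) F) = c • (1 : Matrix (Fin m) (Fin m) F) := by
    ext i j
    rw [Matrix.smul_apply, Matrix.one_apply, smul_eq_mul]
    by_cases hij : i = j
    · subst hij
      rw [if_pos rfl, mul_one, hc]
      by_cases hi0 : i = ⟨0, by omega⟩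
      · rw [hi0]
      · exact Cfsg.Agent.Lib.Helper7.su_center_diag_eq hF z hz i ⟨0, by omega⟩ hi0
    · rw [if_neg hij, mul_zero]
      exact Cfsg.Agent.Lib.Helper7.su_center_offdiag hF z hz i j hij
  refine ⟨c, ?_, hmat⟩
  rintro rfl
  have h1 : (z.1.1 : Matrix (Fin m) (Fin m) F).det = 1 := z.1.2
  have hne : Nonempty (Fin m) := ⟨⟨0, by omega⟩⟩
  rw [hmat, zero_smul, Matrix.det_zero] at h1
  exact zero_ne_one h1

/-- The order of `SU_n(q)`, `n ≥ 2`, is `q^(n(n-1)/2) (q² - 1)` times an integer. -/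
theorem card_SU_struct {F : Type*} [Field F] [Fintype F] {q : ℕ} (hF : Fintype.card F = q ^ 2)
    (n : ℕ) (hn : 2 ≤ n) :
    ∃ P : ℕ, Nat.card ↥(Cfsg.SU n F q) = q ^ (n * (n - 1) / 2) * (P * (q ^ 2 - 1)) := by
  obtain ⟨k, rfl⟩ : ∃ k, n = k + 2 := ⟨n - 2, by omega⟩
  have h1 := Cfsg.Agent.Lib.Helper7.card_SU hF (k + 2) (by omega)
  rw [Cfsg.Agent.Lib.Helper7.card_GU hF (k + 2), Finset.prod_range_succ',
    Finset.prod_range_succ'] at h1
  refine ⟨∏ j ∈ Finset.range k,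
    (if Even (j + 1 + 1) then q ^ (j + 1 + 1 + 1) + 1 else q ^ (j + 1 + 1 + 1) - 1), ?_⟩
  have h2 : (if Even (0 + 1) then q ^ (0 + 1 + 1) + 1 else q ^ (0 + 1 + 1) - 1) = q ^ 2 - 1 := by
    rw [if_neg (by decide)]
  have h3 : (if Even 0 then q ^ (0 + 1) + 1 else q ^ (0 + 1) - 1) = q + 1 := by
    rw [if_pos (by decide)]
    simp
  rw [h2, h3] at h1
  have hq1 : 0 < q + 1 := by omega
  apply Nat.eq_of_mul_eq_mul_left hq1
  rw [h1]
  ring

/-- `ℓ ∣ q^i - (-1)^i`, `1 ≤ i ≤ n`, `ℓ ∤ q + 1` implies `ℓ ∣ |SU_n(q)|`. -/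
theorem dvd_card_SU_of_factor {F : Type*} [Field F] [Fintype F] {q : ℕ}
    (hF : Fintype.card F = q ^ 2) (n i ℓ : ℕ) (hℓ : ℓ.Prime) (hi1 : 1 ≤ i) (hin : i ≤ n)
    (hℓq1 : ¬ ℓ ∣ q + 1) (h : (Even i ∧ ℓ ∣ q ^ i - 1) ∨ (Odd i ∧ ℓ ∣ q ^ i + 1)) :
    ℓ ∣ Nat.card ↥(Cfsg.SU n F q) := by
  have h1 := Cfsg.Agent.Lib.Helper7.card_SU hF n (by omega)
  rw [Cfsg.Agent.Lib.Helper7.card_GU hF n] at h1
  have h2 : (if Even (i - 1) then q ^ (i - 1 + 1) + 1 else q ^ (i - 1 + 1) - 1)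
      ∣ ∏ j ∈ Finset.range n, (if Even j then q ^ (j + 1) + 1 else q ^ (j + 1) - 1) :=
    Finset.dvd_prod_of_mem _ (Finset.mem_range.mpr (by omega))
  have h3 : ℓ ∣ (if Even (i - 1) then q ^ (i - 1 + 1) + 1 else q ^ (i - 1 + 1) - 1) := by
    have hi : i - 1 + 1 = i := by omega
    rw [hi]
    rcases h with ⟨he, hd⟩ | ⟨ho, hd⟩
    · have hne : ¬ Even (i - 1) := by
        rw [Nat.not_even_iff_odd]
        obtain ⟨k, hk⟩ := he
        exact ⟨k - 1, by omega⟩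
      rw [if_neg hne]
      exact hd
    · have hev : Even (i - 1) := by
        obtain ⟨k, hk⟩ := ho
        exact ⟨k, by omega⟩
      rw [if_pos hev]
      exact hd
  have h4 : ℓ ∣ (q + 1) * Nat.card ↥(Cfsg.SU n F q) := by
    rw [h1]
    exact dvd_mul_of_dvd_right (h3.trans h2) _
  exact (hℓ.dvd_mul.mp h4).resolve_left hℓq1

/-- Let q be a power of the prime p, F the field with q² elements, m ≥ 4, and let a, b be commuting elements of PSU(m, q) with a of order p. Then every prime divisor of the order of b divides the order of SU(m − 2, q). -/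
theorem result {F : Type*} [Field F] [Fintype F] (p : ℕ) [Fact p.Prime] [CharP F p] (m q : ℕ) (hm : 4 ≤ m) (hF : Fintype.card F = q ^ 2)
    (a b : Cfsg.PSU m F q) (ha : orderOf a = p) (hab : Commute a b) :
    (orderOf b).primeFactors ⊆ (Nat.card ↥(Cfsg.SU (m - 2) F q)).primeFactors := by
  classical
  intro ℓ hℓ
  rw [Nat.mem_primeFactors] at hℓ ⊢
  obtain ⟨hℓp, hℓb, hb0⟩ := hℓ
  refine ⟨hℓp, ?_, Nat.card_pos.ne'⟩
  have hpp : p.Prime := Fact.out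
  have hne : Nonempty (Fin m) := ⟨⟨0, by omega⟩⟩
  have hq2 : 2 ≤ q := Cfsg.Agent.Lib.Helper7.herm_two_le hF
  obtain ⟨kq, _, hkq⟩ := FiniteField.card F p
  obtain ⟨P, hP⟩ := card_SU_struct hF (m - 2) (by omega)
  have hexp : 1 ≤ (m - 2) * (m - 2 - 1) / 2 := by
    rw [Nat.le_div_iff_mul_le (by norm_num)]
    have h1 : 2 ≤ m - 2 := by omega
    have h2 : 1 ≤ m - 2 - 1 := by omega
    calc 1 * 2 = 2 * 1 := by norm_num
      _ ≤ (m - 2) * (m - 2 - 1) := Nat.mul_le_mul h1 h2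
  by_cases hlp : ℓ = p
  · have hpq : p ∣ q := by
      have h1 : p ∣ q ^ 2 := by
        rw [← hF, hkq]
        exact dvd_pow_self p kq.ne_zero
      exact hpp.dvd_of_dvd_pow h1
    rw [hlp, hP]
    exact dvd_mul_of_dvd_left (hpq.trans (dvd_pow_self q (by omega))) _
  by_cases hq1 : ℓ ∣ q ^ 2 - 1
  · rw [hP]
    exact dvd_mul_of_dvd_right (dvd_mul_of_dvd_right hq1 _) _
  -- main case
  have hℓq1 : ¬ ℓ ∣ q + 1 := by
    intro h
    apply hq1
    have h1 : q ^ 2 - 1 = (q + 1) * (q - 1) := by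
      obtain ⟨c, rfl⟩ : ∃ c, q = c + 1 := ⟨q - 1, by omega⟩
      simp only [Nat.add_sub_cancel]
      have : (c + 1) ^ 2 = (c + 1 + 1) * c + 1 := by ring
      rw [this, Nat.add_sub_cancel]
    rw [h1]
    exact dvd_mul_of_dvd_left h _
  obtain ⟨σ, hσq, hσ, -⟩ := Cfsg.Agent.Lib.Helper47.exists_unitary_data F q hF
  obtain ⟨a₀, rfl⟩ := QuotientGroup.mk_surjective a
  obtain ⟨b₀, rfl⟩ := QuotientGroup.mk_surjective b
  have hap : a₀ ^ p ∈ Subgroup.center ↥(Cfsg.SU m F q) := by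
    rw [← QuotientGroup.eq_one_iff, QuotientGroup.mk_pow, ← ha]
    exact pow_orderOf_eq_one _
  have ha1 : a₀ ∉ Subgroup.center ↥(Cfsg.SU m F q) := by
    intro h
    rw [← QuotientGroup.eq_one_iff] at h
    rw [h, orderOf_one] at ha
    exact hpp.one_lt.ne ha
  obtain ⟨z, hz⟩ : ∃ z, z = a₀ * b₀ * a₀⁻¹ * b₀⁻¹ := ⟨_, rfl⟩
  have hzc : z ∈ Subgroup.center ↥(Cfsg.SU m F q) := by
    rw [← QuotientGroup.eq_one_iff, hz]
    have h1 := hab.eq
    simp only [QuotientGroup.mk_mul, QuotientGroup.mk_inv]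
    rw [h1]
    group
  have hgrp : a₀ * b₀ = z * (b₀ * a₀) := by
    rw [hz]
    group
  obtain ⟨t, ht⟩ : ∃ t, t = orderOf (b₀ : Cfsg.PSU m F q) := ⟨_, rfl⟩
  rw [← ht] at hℓb hb0
  have hbt : b₀ ^ t ∈ Subgroup.center ↥(Cfsg.SU m F q) := by
    rw [← QuotientGroup.eq_one_iff, QuotientGroup.mk_pow, ht]
    exact pow_orderOf_eq_one _
  obtain ⟨lam, hlam0, hlam⟩ := center_scalar hF (by omega) _ hap
  obtain ⟨ζ, hζ0, hζ⟩ := center_scalar hF (by omega) _ hzc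
  obtain ⟨ν, hν0, hν⟩ := center_scalar hF (by omega) _ hbt
  obtain ⟨M, hM⟩ : ∃ M : Matrix (Fin m) (Fin m) F, M = a₀.1.1 := ⟨_, rfl⟩
  obtain ⟨B, hB⟩ : ∃ B : Matrix (Fin m) (Fin m) F, B = b₀.1.1 := ⟨_, rfl⟩
  have hMp : M ^ p = lam • (1 : Matrix (Fin m) (Fin m) F) := by
    rw [← hlam, hM]
    rfl
  have hBt : B ^ t = ν • (1 : Matrix (Fin m) (Fin m) F) := by
    rw [← hν, hB]
    rfl
  have hMB : M * B = ζ • (B * M) := by
    have h1 := congrArg (fun g : ↥(Cfsg.SU m F q) => (g.1.1 : Matrix (Fin m) (Fin m) F)) hgrp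
    have h2 : ((z * (b₀ * a₀)).1.1 : Matrix (Fin m) (Fin m) F) = z.1.1 * (b₀.1.1 * a₀.1.1) := rfl
    have h3 : ((a₀ * b₀).1.1 : Matrix (Fin m) (Fin m) F) = a₀.1.1 * b₀.1.1 := rfl
    beta_reduce at h1
    rw [h2, h3, hζ, smul_mul_assoc, one_mul] at h1
    rw [hM, hB]
    exact h1
  have hMBpow : ∀ j : ℕ, M * B ^ j = ζ ^ j • (B ^ j * M) := by
    intro j
    induction j with
    | zero => simp
    | succ j ih =>
      rw [pow_succ, ← mul_assoc, ih, smul_mul_assoc, mul_assoc, hMB, mul_smul_comm, smul_smul,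
        ← mul_assoc, ← pow_succ]
  -- the element `c`
  obtain ⟨t', ht'⟩ := hℓb
  have ht'0 : t' ≠ 0 := by
    rintro rfl
    rw [mul_zero] at ht'
    exact hb0 ht'
  obtain ⟨k, hk⟩ : ∃ k, k = t' * (Fintype.card F - 1) := ⟨_, rfl⟩
  obtain ⟨Cm, hCm⟩ : ∃ Cm : Matrix (Fin m) (Fin m) F, Cm = B ^ k := ⟨_, rfl⟩
  have hCmℓ : Cm ^ ℓ = 1 := by
    rw [hCm, ← pow_mul, hk]
    have : t' * (Fintype.card F - 1) * ℓ = t * (Fintype.card F - 1) := by
      rw [ht']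
      ring
    rw [this, pow_mul, hBt, smul_pow, one_pow, FiniteField.pow_card_sub_one_eq_one ν hν0,
      one_smul]
  have hCm1 : Cm ≠ 1 := by
    intro h
    have h1 : b₀ ^ k = 1 := by
      apply Subtype.ext
      apply Subtype.ext
      have h2 : ((b₀ ^ k).1.1 : Matrix (Fin m) (Fin m) F) = B ^ k := by
        rw [hB]
        rfl
      rw [h2, ← hCm, h]
      rfl
    have h2 : (b₀ : Cfsg.PSU m F q) ^ k = 1 := by
      rw [← QuotientGroup.mk_pow, h1]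
      rfl
    have h3 : t ∣ k := by
      rw [ht]
      exact orderOf_dvd_of_pow_eq_one h2
    rw [ht', hk, mul_comm ℓ t', hF] at h3
    exact hq1 (Nat.dvd_of_mul_dvd_mul_left (Nat.pos_of_ne_zero ht'0) h3)
  have hCmM : Commute Cm M := by
    have h1 := hMBpow k
    have h2 : ζ ^ k = 1 := by
      rw [hk, mul_comm, pow_mul, FiniteField.pow_card_sub_one_eq_one ζ hζ0, one_pow]
    rw [h2, one_smul, ← hCm] at h1
    exact h1.symm
  -- the nilpotent element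
  obtain ⟨μ, hμ⟩ := (Finite.injective_iff_surjective.mp (frobenius_inj F p)) lam
  rw [frobenius_def] at hμ
  obtain ⟨Nm, hNm⟩ : ∃ Nm : Matrix (Fin m) (Fin m) F, Nm = M - μ • (1 : Matrix (Fin m) (Fin m) F) :=
    ⟨_, rfl⟩
  have hNmp : Nm ^ p = 0 := by
    have hc : Commute M (μ • (1 : Matrix (Fin m) (Fin m) F)) :=
      (Commute.one_right M).smul_right μ
    rw [hNm, sub_pow_char_of_commute p hc, hMp, smul_pow, one_pow, hμ, sub_self]
  have hNm0 : Nm ≠ 0 := by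
    intro h
    rw [hNm, sub_eq_zero] at h
    apply ha1
    rw [Subgroup.mem_center_iff]
    intro g
    apply Subtype.ext
    apply Subtype.ext
    have h2 : ((g * a₀).1.1 : Matrix (Fin m) (Fin m) F) = g.1.1 * a₀.1.1 := rfl
    have h3 : ((a₀ * g).1.1 : Matrix (Fin m) (Fin m) F) = a₀.1.1 * g.1.1 := rfl
    rw [h2, h3, ← hM, h, mul_smul_comm, smul_mul_assoc, mul_one, one_mul]
  have hCmN : Commute Cm Nm := by
    rw [hNm]
    exact hCmM.sub_right ((Commute.one_right Cm).smul_right μ)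
  -- unitarity
  have hBu : Cfsg.Agent.Lib.Helper47.sT σ B * B = 1 := by
    apply Cfsg.Agent.Lib.Helper47.sT_mul_self_of_unitary hσ
    intro u v
    have h1 := (Cfsg.Agent.Lib.Helper47.mem_SU_iff q m b₀.1).mp b₀.2 u v
    rw [Cfsg.Agent.Lib.Helper47.hermForm_eq q σ hσq, Cfsg.Agent.Lib.Helper47.hermForm_eq q σ hσq]
      at h1
    rw [hB]
    exact h1
  have hCu : Cfsg.Agent.Lib.Helper47.sT σ Cm * Cm = 1 := by
    have hcomm : Commute (Cfsg.Agent.Lib.Helper47.sT σ B) B := by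
      rw [Commute, SemiconjBy, hBu]
      exact (mul_eq_one_comm.mp hBu).symm
    rw [hCm, Cfsg.Agent.Lib.Helper47.sT_pow, ← hcomm.mul_pow, hBu, one_pow]
  obtain ⟨i, hi2, him, hi⟩ := Cfsg.Agent.Lib.Helper47.exists_unitary_exponent hF hσq hσ hℓp hlp hq1
    Cm Nm hCmℓ hCm1 hCu hCmN ⟨p, hNmp⟩ hNm0
  exact dvd_card_SU_of_factor hF (m - 2) i ℓ hℓp (by omega) (by omega) hℓq1 hi

end Cfsg.Agent.S2365
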