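import Cfsg.Statements.S2366
-- import your own Cfsg.Agent.* helpers here
import Cfsg.Agent.Lib.Helper47.SU3SpecB

set_option autoImplicit false
open Cfsg

namespace Cfsg.Agent.S2366

open Cfsg.Agent.Lib.Helper47

/-- The set of element orders of PSU(3, q) for an odd prime power q = p^n: writing d = gcd(3, q + 1), a positive integer is the order of some element exactly when it divides one of q + 1, p(q + 1)/d, (q² − 1)/d, (q² − q + 1)/d. -/
theorem result {F : Type*} [Field F] [Fintype F] (p : ℕ) [Fact p.Prime] [CharP F p] (hp : p ≠ 2) (q : ℕ) (hF : Fintype.card F = q ^ 2) :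
    Set.range (orderOf : Cfsg.PSU 3 F q → ℕ) =
      {s : ℕ | s ∣ q + 1} ∪ {s : ℕ | s ∣ p * (q + 1) / Nat.gcd 3 (q + 1)} ∪
        {s : ℕ | s ∣ (q ^ 2 - 1) / Nat.gcd 3 (q + 1)} ∪ {s : ℕ | s ∣ (q ^ 2 - q + 1) / Nat.gcd 3 (q + 1)} := by
  obtain ⟨σ, hσq, hσ, -, -, x₀, -, -, -, hx₀⟩ :=
    Cfsg.Agent.Lib.Helper47.exists_unitary_data F q hF
  have hne : ∃ c, σ c ≠ c := ⟨x₀, hx₀⟩
  have hq1 := one_le_q hF
  have hq2 := two_le_q hF
  have hpp : p.Prime := Fact.out
  have hd0 : 0 < Nat.gcd 3 (q + 1) := Nat.gcd_pos_of_pos_left _ (by norm_num)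
  have hdq : Nat.gcd 3 (q + 1) ∣ q + 1 := Nat.gcd_dvd_right 3 (q + 1)
  have hdiv : ∀ A : ℕ, 0 < A → Nat.gcd 3 (q + 1) ∣ A → A / Nat.gcd 3 (q + 1) ≠ 0 := by
    intro A hA hdA
    exact (Nat.div_pos (Nat.le_of_dvd hA hdA) hd0).ne'
  apply Set.eq_of_subset_of_subset
  · rintro s ⟨x, rfl⟩
    obtain ⟨g, rfl⟩ := QuotientGroup.mk_surjective x
    have hM := (mem_SU_iff_sT hσq hσ g.1).mp g.2
    obtain ⟨N, hN, hsc⟩ := su3_exists_scalar_pow p hp hF hσq hσ g.1.1 hM g.1.2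
    have hdvd := psu_orderOf_dvd hF (by norm_num) g N hsc
    rcases hN with rfl | rfl | rfl | rfl
    · exact Or.inl (Or.inl (Or.inl hdvd))
    · exact Or.inl (Or.inl (Or.inr hdvd))
    · exact Or.inl (Or.inr hdvd)
    · exact Or.inr hdvd
  · rintro s (((hs | hs) | hs) | hs)
    · obtain ⟨y, hy⟩ := exists_psu_order_one hF hσq hσ hne p
      exact exists_orderOf_eq_of_dvd y hy (by omega) hs
    · obtain ⟨y, hy⟩ := exists_psu_order_two hF hσq hσ hne p
      exact exists_orderOf_eq_of_dvd y hy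
        (hdiv _ (Nat.mul_pos hpp.pos (by omega)) (hdq.trans (dvd_mul_left _ _))) hs
    · obtain ⟨y, hy⟩ := exists_psu_order_three hF hσq hσ hne p
      have h1 : 0 < q ^ 2 - 1 := by nlinarith [Nat.sub_add_cancel (Nat.one_le_pow 2 q hq1)]
      exact exists_orderOf_eq_of_dvd y hy (hdiv _ h1 (hdq.trans (q_add_one_dvd hq1))) hs
    · obtain ⟨y, hy⟩ := exists_psu_order_four p hp hF hσq hσ hne
      have h1 : Nat.gcd 3 (q + 1) ∣ q ^ 2 - q + 1 := by
        rcases gcd_three_cases q with hd | hd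
        · rw [hd]
          exact one_dvd _
        · rw [hd]
          exact three_dvd_sq_sub_add (hd ▸ hdq)
      exact exists_orderOf_eq_of_dvd y hy (hdiv _ (by omega) h1) hs

end Cfsg.Agent.S2366
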