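import Cfsg.Statements.S2367
-- import your own Cfsg.Agent.* helpers here

set_option autoImplicit false
open Cfsg

namespace Cfsg.Agent.S2367

theorem sporadic_key (N a : ℕ) (l : List (ℕ × ℕ)) (hl : ∀ x ∈ l, x.1.Prime)
    (hN : N = (l.map fun x => x.1 ^ x.2).prod) (h2 : 2 ^ a ∣ N)
    (hchk : ∀ x ∈ l, x.1 ≠ 2 → x.1 ^ 3 ∣ N → ¬ x.1 ^ 4 ∣ N → x.1 ^ 3 < 2 ^ a)
    (p : ℕ) (hp : p.Prime) (hodd : p ≠ 2) (h3 : N.factorization p = 3) :
    p ^ 3 < 2 ^ N.factorization 2 := by
  have hN0 : N ≠ 0 := by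
    rintro rfl
    simp at h3
  have hd3 : p ^ 3 ∣ N := by
    have := Nat.ordProj_dvd N p
    rwa [h3] at this
  have hd4 : ¬ p ^ 4 ∣ N := by
    have := Nat.pow_succ_factorization_not_dvd hN0 hp
    rwa [h3] at this
  have hpN : p ∣ N := dvd_trans (dvd_pow_self p (by norm_num)) hd3
  rw [hN] at hpN
  obtain ⟨y, hy, hpy⟩ := (Prime.dvd_prod_iff hp.prime).mp hpN
  obtain ⟨x, hx, rfl⟩ := List.mem_map.mp hy
  have hpx : p = x.1 := (Nat.prime_dvd_prime_iff_eq hp (hl x hx)).mp (hp.dvd_of_dvd_pow hpy)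
  subst hpx
  have h := hchk x hx hodd hd3 hd4
  have h2' : a ≤ N.factorization 2 := (Nat.prime_two.pow_dvd_iff_le_factorization hN0).mp h2
  exact lt_of_lt_of_le h (Nat.pow_le_pow_right (by norm_num) h2')

theorem cube_lt_four_pow (p : ℕ) (hp : 5 ≤ p) : p ^ 3 < 4 ^ (p - 1) := by
  induction p, hp using Nat.le_induction with
  | base => norm_num
  | succ p hp ih =>
    have h1 : p + 1 - 1 = (p - 1) + 1 := by omega
    have h5 : 5 * p ≤ p ^ 2 := by nlinarith
    have h6 : 5 * p ^ 2 ≤ p ^ 3 := by nlinarith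
    have h7 : (p + 1) ^ 3 = p ^ 3 + 3 * p ^ 2 + 3 * p + 1 := by ring
    have h8 : (4 : ℕ) ^ (p - 1 + 1) = 4 ^ (p - 1) * 4 := pow_succ 4 (p - 1)
    rw [h1, h7, h8]
    omega

theorem alt_key (n : ℕ) (hn : 5 ≤ n) (c : ℕ) (hc : 2 * c = n.factorial)
    (p : ℕ) (hp : p.Prime) (hodd : p ≠ 2) (h3 : c.factorization p = 3) :
    p ^ 3 < 2 ^ c.factorization 2 := by
  have hc0 : c ≠ 0 := by
    rintro rfl
    simp at h3
  have hfp : (n.factorial).factorization p = 3 := by
    rw [← hc, Nat.factorization_mul (by norm_num) hc0]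
    simp [Nat.factorization_eq_zero_of_not_dvd
      (fun h => hodd ((Nat.prime_dvd_prime_iff_eq hp Nat.prime_two).mp h)), h3]
  have hf2 : (n.factorial).factorization 2 = c.factorization 2 + 1 := by
    rw [← hc, Nat.factorization_mul (by norm_num) hc0]
    simp [Nat.Prime.factorization_self Nat.prime_two, add_comm]
  have hp3 : 3 ≤ p := by
    have := hp.two_le
    omega
  -- 3 p ≤ n
  have h3p : 3 * p ≤ n := by
    by_contra hlt
    rw [not_le] at hlt
    have hlog : Nat.log p n < 2 := by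
      apply Nat.log_lt_of_lt_pow (by omega)
      nlinarith
    rw [Nat.factorization_factorial hp hlog] at hfp
    simp at hfp
    have : n / p < 3 := by
      rw [Nat.div_lt_iff_lt_mul hp.pos]
      exact hlt
    omega
  -- p ≠ 3
  have hp5 : 5 ≤ p := by
    by_contra hlt
    have hp3' : p = 3 := by
      have : p ≠ 4 := by
        rintro rfl
        norm_num at hp
      omega
    subst hp3'
    have hlog : Nat.log 3 n < Nat.log 3 n + 3 := by omega
    rw [Nat.factorization_factorial hp hlog] at hfp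
    have hsub : ({1, 2} : Finset ℕ) ⊆ Finset.Ico 1 (Nat.log 3 n + 3) := by
      intro i hi
      simp only [Finset.mem_insert, Finset.mem_singleton] at hi
      simp only [Finset.mem_Ico]
      omega
    have := Finset.sum_le_sum_of_subset (f := fun i => n / 3 ^ i) hsub
    rw [hfp] at this
    simp at this
    omega
  -- 2-adic valuation bound
  have hv2 : n / 2 + n / 4 ≤ (n.factorial).factorization 2 := by
    have hlog : Nat.log 2 n < Nat.log 2 n + 3 := by omega
    rw [Nat.factorization_factorial Nat.prime_two hlog]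
    have hsub : ({1, 2} : Finset ℕ) ⊆ Finset.Ico 1 (Nat.log 2 n + 3) := by
      intro i hi
      simp only [Finset.mem_insert, Finset.mem_singleton] at hi
      simp only [Finset.mem_Ico]
      omega
    have := Finset.sum_le_sum_of_subset (f := fun i => n / 2 ^ i) hsub
    simpa using this
  have hexp : 2 * (p - 1) ≤ c.factorization 2 := by omega
  calc p ^ 3 < 4 ^ (p - 1) := cube_lt_four_pow p hp5
    _ = 2 ^ (2 * (p - 1)) := by rw [pow_mul]; norm_num
    _ ≤ 2 ^ c.factorization 2 := Nat.pow_le_pow_right (by norm_num) hexp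

theorem card_alt (n : ℕ) (hn : 5 ≤ n) :
    2 * Nat.card (alternatingGroup (Fin n)) = n.factorial := by
  have : Nontrivial (Fin n) := Fin.nontrivial_iff_two_le.mpr (by omega)
  rw [Nat.card_eq_fintype_card, two_mul_card_alternatingGroup, Fintype.card_perm, Fintype.card_fin]

/-- Let G be an alternating group of degree at least 5 or a simple group with the order of one of the 26 sporadic groups, and let p be an odd prime such that p³ is the exact power of p dividing the order of G. Then p³ is less than the 2-part of the order of G. -/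
theorem result {G : Type*} [Group G] [Finite G] (hG : Cfsg.IsAlternating G ∨ Cfsg.IsSporadic G)
    (p : ℕ) (hp : p.Prime) (hodd : p ≠ 2) (h3 : (Nat.card G).factorization p = 3) :
    p ^ 3 < 2 ^ (Nat.card G).factorization 2 := by
  rcases hG with ⟨n, hn, ⟨e⟩⟩ | hG
  · have hc : 2 * Nat.card G = n.factorial := by
      rw [Nat.card_congr e.toEquiv, card_alt n hn]
    exact alt_key n hn _ hc p hp hodd h3
  · unfold IsSporadic IsM11 IsM12 IsM22 IsM23 IsM24 IsJ1 IsJ2 IsJ3 IsJ4 IsCo1 IsCo2 IsCo3 IsFi22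
      IsFi23 IsFi24' IsHS IsMcL IsHe IsRu IsSuz IsON IsHN IsLy IsTh IsB IsM at hG
    rcases hG with ⟨-, h⟩ | ⟨-, h⟩ | ⟨-, h⟩ | ⟨-, h⟩ | ⟨-, h⟩ | ⟨-, h⟩ | ⟨-, h⟩ | ⟨-, h⟩ | ⟨-, h⟩ |
      ⟨-, h⟩ | ⟨-, h⟩ | ⟨-, h⟩ | ⟨-, h⟩ | ⟨-, h⟩ | ⟨-, h⟩ | ⟨-, h⟩ | ⟨-, h⟩ | ⟨-, h⟩ | ⟨-, h⟩ |
      ⟨-, h⟩ | ⟨-, h⟩ | ⟨-, h⟩ | ⟨-, h⟩ | ⟨-, h⟩ | ⟨-, h⟩ | ⟨-, h⟩ <;> rw [h] at h3 ⊢
    · exact sporadic_key _ 4 [(2,4),(3,2),(5,1),(11,1)] (by simp; norm_num) (by norm_num) (by norm_num) (by decide) p hp hodd h3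
    · exact sporadic_key _ 6 [(2,6),(3,3),(5,1),(11,1)] (by simp; norm_num) (by norm_num) (by norm_num) (by decide) p hp hodd h3
    · exact sporadic_key _ 7 [(2,7),(3,2),(5,1),(7,1),(11,1)] (by simp; norm_num) (by norm_num) (by norm_num) (by decide) p hp hodd h3
    · exact sporadic_key _ 7 [(2,7),(3,2),(5,1),(7,1),(11,1),(23,1)] (by simp; norm_num) (by norm_num) (by norm_num) (by decide) p hp hodd h3
    · exact sporadic_key _ 10 [(2,10),(3,3),(5,1),(7,1),(11,1),(23,1)] (by simp; norm_num) (by norm_num) (by norm_num) (by decide) p hp hodd h3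
    · exact sporadic_key _ 3 [(2,3),(3,1),(5,1),(7,1),(11,1),(19,1)] (by simp; norm_num) (by norm_num) (by norm_num) (by decide) p hp hodd h3
    · exact sporadic_key _ 7 [(2,7),(3,3),(5,2),(7,1)] (by simp; norm_num) (by norm_num) (by norm_num) (by decide) p hp hodd h3
    · exact sporadic_key _ 7 [(2,7),(3,5),(5,1),(17,1),(19,1)] (by simp; norm_num) (by norm_num) (by norm_num) (by decide) p hp hodd h3
    · exact sporadic_key _ 21 [(2,21),(3,3),(5,1),(7,1),(11,3),(23,1),(29,1),(31,1),(37,1),(43,1)] (by simp; norm_num) (by norm_num) (by norm_num) (by decide) p hp hodd h3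
    · exact sporadic_key _ 21 [(2,21),(3,9),(5,4),(7,2),(11,1),(13,1),(23,1)] (by simp; norm_num) (by norm_num) (by norm_num) (by decide) p hp hodd h3
    · exact sporadic_key _ 18 [(2,18),(3,6),(5,3),(7,1),(11,1),(23,1)] (by simp; norm_num) (by norm_num) (by norm_num) (by decide) p hp hodd h3
    · exact sporadic_key _ 10 [(2,10),(3,7),(5,3),(7,1),(11,1),(23,1)] (by simp; norm_num) (by norm_num) (by norm_num) (by decide) p hp hodd h3
    · exact sporadic_key _ 17 [(2,17),(3,9),(5,2),(7,1),(11,1),(13,1)] (by simp; norm_num) (by norm_num) (by norm_num) (by decide) p hp hodd h3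
    · exact sporadic_key _ 18 [(2,18),(3,13),(5,2),(7,1),(11,1),(13,1),(17,1),(23,1)] (by simp; norm_num) (by norm_num) (by norm_num) (by decide) p hp hodd h3
    · exact sporadic_key _ 21 [(2,21),(3,16),(5,2),(7,3),(11,1),(13,1),(17,1),(23,1),(29,1)] (by simp; norm_num) (by norm_num) (by norm_num) (by decide) p hp hodd h3
    · exact sporadic_key _ 9 [(2,9),(3,2),(5,3),(7,1),(11,1)] (by simp; norm_num) (by norm_num) (by norm_num) (by decide) p hp hodd h3
    · exact sporadic_key _ 7 [(2,7),(3,6),(5,3),(7,1),(11,1)] (by simp; norm_num) (by norm_num) (by norm_num) (by decide) p hp hodd h3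
    · exact sporadic_key _ 10 [(2,10),(3,3),(5,2),(7,3),(17,1)] (by simp; norm_num) (by norm_num) (by norm_num) (by decide) p hp hodd h3
    · exact sporadic_key _ 14 [(2,14),(3,3),(5,3),(7,1),(13,1),(29,1)] (by simp; norm_num) (by norm_num) (by norm_num) (by decide) p hp hodd h3
    · exact sporadic_key _ 13 [(2,13),(3,7),(5,2),(7,1),(11,1),(13,1)] (by simp; norm_num) (by norm_num) (by norm_num) (by decide) p hp hodd h3
    · exact sporadic_key _ 9 [(2,9),(3,4),(5,1),(7,3),(11,1),(19,1),(31,1)] (by simp; norm_num) (by norm_num) (by norm_num) (by decide) p hp hodd h3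
    · exact sporadic_key _ 14 [(2,14),(3,6),(5,6),(7,1),(11,1),(19,1)] (by simp; norm_num) (by norm_num) (by norm_num) (by decide) p hp hodd h3
    · exact sporadic_key _ 8 [(2,8),(3,7),(5,6),(7,1),(11,1),(31,1),(37,1),(67,1)] (by simp; norm_num) (by norm_num) (by norm_num) (by decide) p hp hodd h3
    · exact sporadic_key _ 15 [(2,15),(3,10),(5,3),(7,2),(13,1),(19,1),(31,1)] (by simp; norm_num) (by norm_num) (by norm_num) (by decide) p hp hodd h3
    · exact sporadic_key _ 41 [(2,41),(3,13),(5,6),(7,2),(11,1),(13,1),(17,1),(19,1),(23,1),(31,1),(47,1)] (by simp; norm_num) (by norm_num) (by norm_num) (by decide) p hp hodd h3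
    · exact sporadic_key _ 46 [(2,46),(3,20),(5,9),(7,6),(11,2),(13,3),(17,1),(19,1),(23,1),(29,1),(31,1),(41,1),(47,1),(59,1),(71,1)] (by simp; norm_num) (by norm_num) (by norm_num) (by decide) p hp hodd h3

end Cfsg.Agent.S2367
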