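import Cfsg.Statements.S2368
-- import your own Cfsg.Agent.* helpers here
import Mathlib

set_option autoImplicit false
open Cfsg

namespace Cfsg.Agent.S2368

open Matrix

theorem nilp_pow_card {F : Type*} [Field F] {m : ℕ} (N : Matrix (Fin m) (Fin m) F)
    (hN : IsNilpotent N) : N ^ m = 0 := by
  have h1 := Matrix.isNilpotent_charpoly_sub_pow_of_isNilpotent hN
  have h2 : N.charpoly - Polynomial.X ^ (Fintype.card (Fin m)) = 0 := h1.eq_zero
  have h3 : N.charpoly = Polynomial.X ^ m := by
    rw [sub_eq_zero] at h2
    simpa using h2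
  have h4 := Matrix.aeval_self_charpoly N
  rw [h3] at h4
  simpa using h4

/-- the shift matrix -/
def shift (F : Type*) [Field F] (m : ℕ) : Matrix (Fin m) (Fin m) F :=
  Matrix.of fun i j => if (j : ℕ) = i + 1 then 1 else 0

theorem shift_pow_apply {F : Type*} [Field F] (m : ℕ) (k : ℕ) (i j : Fin m) :
    (shift F m ^ k) i j = if (j : ℕ) = i + k then 1 else 0 := by
  induction k generalizing i j with
  | zero =>
    simp [Matrix.one_apply, Fin.ext_iff, eq_comm]
  | succ k ih =>
    rw [pow_succ, Matrix.mul_apply]
    simp only [ih]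
    simp only [shift, Matrix.of_apply]
    have hjlt := j.isLt
    by_cases hj : (j : ℕ) = i + (k + 1)
    · rw [if_pos hj]
      have hl : (i : ℕ) + k < m := by omega
      rw [Finset.sum_eq_single (⟨i + k, hl⟩ : Fin m)]
      · simp [hj]; omega
      · intro b _ hb
        have : ¬ ((b : ℕ) = i + k) := fun h => hb (Fin.ext h)
        simp [this]
      · intro h; exact absurd (Finset.mem_univ _) h
    · rw [if_neg hj]
      apply Finset.sum_eq_zero
      intro b _
      by_cases hb : (b : ℕ) = i + k
      · have : ¬ ((j : ℕ) = b + 1) := by omega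
        simp [this]
      · simp [hb]

theorem shift_pow_eq_zero_iff {F : Type*} [Field F] (m : ℕ) (hm : 1 ≤ m) (k : ℕ) :
    shift F m ^ k = 0 ↔ m ≤ k := by
  constructor
  · intro h
    by_contra hlt
    rw [not_le] at hlt
    have := congrFun (congrFun h ⟨0, by omega⟩) ⟨k, hlt⟩
    rw [shift_pow_apply] at this
    simp at this
  · intro h
    ext i j
    rw [shift_pow_apply]
    have : ¬ ((j : ℕ) = i + k) := by omega
    simp [this]

/-- Let F be a finite field of characteristic p and m ≥ 1. Every element of GL(m, F) of p-power order has order less than p·m, and GL(m, F) has an element of p-power order at least m; so the largest order of a p-element of GL(m, F) is the least power of p that is at least m. -/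
theorem result {F : Type*} [Field F] [Fintype F] (p : ℕ) [Fact p.Prime] [CharP F p] (m : ℕ) (hm : 1 ≤ m) :
    (∀ g : Matrix.GeneralLinearGroup (Fin m) F, (∃ j : ℕ, orderOf g = p ^ j) → orderOf g < p * m) ∧
      ∃ g : Matrix.GeneralLinearGroup (Fin m) F, (∃ j : ℕ, orderOf g = p ^ j) ∧ m ≤ orderOf g := by
  have hp : p.Prime := Fact.out
  have : Nonempty (Fin m) := ⟨⟨0, by omega⟩⟩
  have : CharP (Matrix (Fin m) (Fin m) F) p := Matrix.charP p
  set K := Nat.clog p m with hK
  have hmK : m ≤ p ^ K := Nat.le_pow_clog hp.one_lt m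
  have hKlt : p ^ K < p * m := by
    rcases Nat.eq_zero_or_pos K with h0 | hpos
    · rw [h0, pow_zero]
      have := hp.two_le
      nlinarith
    · have h1 : p ^ (K - 1) < m := by
        rcases Nat.lt_or_ge 1 m with h1m | h1m
        · exact Nat.pow_pred_clog_lt_self hp.one_lt h1m
        · have hm1 : m = 1 := by omega
          rw [hK, hm1] at hpos
          simp at hpos
      have h2 : p ^ K = p * p ^ (K - 1) := by
        rw [← pow_succ']
        congr 1
        omega
      rw [h2]
      exact Nat.mul_lt_mul_of_pos_left h1 hp.pos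
  constructor
  · rintro g ⟨j, hj⟩
    set A : Matrix (Fin m) (Fin m) F := (g : Matrix (Fin m) (Fin m) F) with hA
    have hAj : A ^ (p ^ j) = 1 := by
      have := pow_orderOf_eq_one g
      rw [hj] at this
      have h2 := congrArg (fun u : Matrix.GeneralLinearGroup (Fin m) F => (u : Matrix (Fin m) (Fin m) F)) this
      simpa using h2
    have hnil : IsNilpotent (A - 1) := by
      refine ⟨p ^ j, ?_⟩
      rw [sub_pow_char_pow_of_commute p j (Commute.one_right A), hAj]
      simp
    have hNm : (A - 1) ^ m = 0 := nilp_pow_card _ hnil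
    have hNK : (A - 1) ^ (p ^ K) = 0 := by
      rw [← Nat.sub_add_cancel hmK, pow_add, hNm, mul_zero]
    have hAK : A ^ (p ^ K) = 1 := by
      have := sub_pow_char_pow_of_commute p K (Commute.one_right A)
      rw [hNK] at this
      simpa using (sub_eq_zero.mp this.symm)
    have hgK : g ^ (p ^ K) = 1 := by
      apply Units.ext
      simpa using hAK
    have hdvd := orderOf_dvd_of_pow_eq_one hgK
    exact lt_of_le_of_lt (Nat.le_of_dvd (pow_pos hp.pos K) hdvd) hKlt
  · set N := shift F m with hN
    set A : Matrix (Fin m) (Fin m) F := 1 + N with hA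
    have hpow : ∀ i : ℕ, A ^ (p ^ i) = 1 + N ^ (p ^ i) := by
      intro i
      rw [hA, add_pow_char_pow_of_commute p i (Commute.one_left N), one_pow]
    have hAK : A ^ (p ^ K) = 1 := by
      rw [hpow, (shift_pow_eq_zero_iff m hm _).mpr hmK, add_zero]
    have hunit : IsUnit A := IsUnit.of_pow_eq_one hAK (pow_pos hp.pos K).ne'
    refine ⟨hunit.unit, ?_⟩
    have hord : orderOf hunit.unit = orderOf A := by
      rw [← orderOf_units]
      rfl
    rw [hord]
    have hdvd := orderOf_dvd_of_pow_eq_one hAK
    obtain ⟨j, -, hj⟩ := (Nat.dvd_prime_pow hp).mp hdvd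
    refine ⟨⟨j, hj⟩, ?_⟩
    have h1 := pow_orderOf_eq_one A
    rw [hj, hpow] at h1
    have h2 : N ^ (p ^ j) = 0 := by simpa using h1
    rw [hj]
    exact (shift_pow_eq_zero_iff m hm _).mp h2

end Cfsg.Agent.S2368
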