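import Cfsg.Statements.S2370
import Cfsg.Agent.Lib.Helper25.ChevSylow
import Cfsg.Agent.Lib.Helper24.TwD4Inst
import Cfsg.Agent.Lib.Helper24.UProdAll
import Cfsg.Agent.Lib.Helper25.ChevGr

set_option autoImplicit false
set_option maxRecDepth 100000
open Cfsg

namespace Cfsg.Agent.S2370

open Cfsg.Lie Cfsg.Agent.Lib.Helper24 Cfsg.Agent.Lib.Helper25

/-- the heights of the roots of `F₄`: the sum of the rows of the inverse Cartan matrix paired
with the Cartan integers -/
def htF4 : ℕ → ℤ := coW [[8, 15, 21, 11]] chevF4 0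

theorem ht_facts : ∀ r < 48, (chevF4.IsPosRoot r → 1 ≤ htF4 r) ∧ -11 ≤ htF4 r ∧ htF4 r ≤ 11 := by
  decide +kernel

theorem hF4 : chevF4 ∈ [chevG2, chevB2, chevD4, chevF4, chevE6, chevE7, chevE8] := by simp

theorem hF4' : chevF4 ∈ chevList := hF4

theorem ht_addGraded : AddGraded chevF4 htF4 := addGraded_coW [[8, 15, 21, 11]] chevF4 hF4' 0

section

variable {ι : Type*} [Fintype ι] [DecidableEq ι] {R : Type*} [CommRing R]

/-- all non-zero entries raise the level by at least `k` -/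
def Rais (lv : ι → ℤ) (k : ℤ) (N : Matrix ι ι R) : Prop := ∀ a b, N a b ≠ 0 → lv b + k ≤ lv a

theorem rais_one (lv : ι → ℤ) : Rais lv 0 (1 : Matrix ι ι R) := by
  intro a b h
  by_cases hab : a = b
  · rw [hab]
    omega
  · exact absurd (Matrix.one_apply_ne hab) h

theorem Rais.mul {lv : ι → ℤ} {j k : ℤ} {M N : Matrix ι ι R} (hM : Rais lv j M)
    (hN : Rais lv k N) : Rais lv (j + k) (M * N) := by
  intro a b h
  rw [Matrix.mul_apply] at h
  obtain ⟨c, -, hc⟩ := Finset.exists_ne_zero_of_sum_ne_zero h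
  have h1 := hM a c (left_ne_zero_of_mul hc)
  have h2 := hN c b (right_ne_zero_of_mul hc)
  omega

theorem Rais.pow {lv : ι → ℤ} {N : Matrix ι ι R} (hN : Rais lv 1 N) (n : ℕ) :
    Rais lv n (N ^ n) := by
  induction n with
  | zero =>
    rw [pow_zero]
    exact rais_one lv
  | succ n ih =>
    rw [pow_succ]
    have h := ih.mul hN
    have e : ((n + 1 : ℕ) : ℤ) = (n : ℤ) + 1 := by push_cast; ring
    rw [e]
    exact h

theorem rais_of_upT {lv : ι → ℤ} {M : Matrix ι ι R} (hM : UpT lv 0 M) : Rais lv 1 (M - 1) := by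
  intro a b h
  by_cases hab : a = b
  · subst hab
    rw [Matrix.sub_apply, hM.1 a, Matrix.one_apply_eq, sub_self] at h
    exact absurd rfl h
  · rw [Matrix.sub_apply, Matrix.one_apply_ne hab, sub_zero] at h
    rcases hM.2 a b h with e | e
    · exact absurd e hab
    · omega

theorem rais_eq_zero {lv : ι → ℤ} {N : Matrix ι ι R} (hlv : ∀ a, -11 ≤ lv a ∧ lv a ≤ 11)
    (hN : Rais lv 23 N) : N = 0 := by
  ext a b
  by_contra h
  have h0 := hN a b h
  have h1 := hlv a
  have h2 := hlv b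
  omega

end

theorem one_add_sq_char2 {R : Type*} [Ring R] (hR : ∀ A : R, A + A = 0) (A : R) :
    (1 + A) ^ 2 = 1 + A ^ 2 := by
  calc (1 + A) ^ 2 = 1 + (A + A) + A ^ 2 := by noncomm_ring
    _ = 1 + A ^ 2 := by rw [hR, add_zero]

theorem one_add_pow_two_pow {R : Type*} [Ring R] (hR : ∀ A : R, A + A = 0) (A : R) (k : ℕ) :
    (1 + A) ^ (2 ^ k) = 1 + A ^ (2 ^ k) := by
  induction k with
  | zero => simp
  | succ k ih => rw [pow_succ, pow_mul, ih, one_add_sq_char2 hR, ← pow_mul]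

theorem wordMat_cons' {K : Type*} [Field K] (p : ℕ × K) (W : List (ℕ × K)) :
    chevF4.wordMat K (p :: W) = chevF4.x K p.1 p.2 * chevF4.wordMat K W := by
  unfold ChevalleyDatum.wordMat
  rw [List.map_cons, List.prod_cons]

theorem upT_word {K : Type*} [Field K] (W : List (ℕ × K)) (hW : ∀ p ∈ W, chevF4.IsPosRoot p.1) :
    UpT (lvl chevF4 htF4) 0 (chevF4.wordMat K W) := by
  induction W with
  | nil => exact upT_one _ _
  | cons p W ih =>
    rw [wordMat_cons']
    have hp := hW p List.mem_cons_self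
    have hht : (0 : ℤ) < htF4 p.1 := by
      have := (ht_facts p.1 hp.1).1 hp
      omega
    exact UpT.mul le_rfl (x_upT chevF4 hF4 htF4 ht_addGraded p.1 hp 0 le_rfl hht p.2)
      (ih (fun q hq => hW q (List.mem_cons_of_mem _ hq)))

/-- every element of the unipotent subgroup `U` of `F₄(K)`, `K` of characteristic `2`, has order
dividing `32` -/
theorem unip_pow {K : Type*} [Field K] (h2 : (2 : K) = 0) (u : GL chevF4.Idx K)
    (hu : u ∈ chevF4.posUnipotent K) : u ^ 32 = 1 := by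
  obtain ⟨t, ⟨ht0, hut⟩, -⟩ := (unique_product_all (F := K) chevF4 hF4').1 u hu
  have hU : UpT (lvl chevF4 htF4) 0 (u : Matrix chevF4.Idx chevF4.Idx K) := by
    rw [hut]
    apply upT_word
    intro p hp
    rw [List.mem_map] at hp
    obtain ⟨r, hr, rfl⟩ := hp
    unfold ChevalleyDatum.posRoots at hr
    rw [List.mem_filter, decide_eq_true_eq] at hr
    exact hr.2
  have hN := rais_of_upT hU
  have hN23 : ((u : Matrix chevF4.Idx chevF4.Idx K) - 1) ^ 23 = 0 := by
    apply rais_eq_zero (lv := lvl chevF4 htF4)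
    · intro a
      rcases a with i | s
      · exact ⟨by show (-11 : ℤ) ≤ 0; norm_num, by show (0 : ℤ) ≤ 11; norm_num⟩
      · exact (ht_facts s.val s.isLt).2
    · exact hN.pow 23
  have hN32 : ((u : Matrix chevF4.Idx chevF4.Idx K) - 1) ^ 32 = 0 := by
    rw [show 32 = 23 + 9 from rfl, pow_add, hN23, zero_mul]
  have hchar : ∀ A : Matrix chevF4.Idx chevF4.Idx K, A + A = 0 := by
    intro A
    ext a b
    rw [Matrix.add_apply, Matrix.zero_apply, ← two_mul, h2, zero_mul]
  have h32 : (u : Matrix chevF4.Idx chevF4.Idx K) ^ 32 = 1 := by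
    have h := one_add_pow_two_pow hchar ((u : Matrix chevF4.Idx chevF4.Idx K) - 1) 5
    rw [add_sub_cancel] at h
    have e : (2 : ℕ) ^ 5 = 32 := rfl
    rw [e] at h
    rw [h, hN32, add_zero]
  exact Units.ext ((Units.val_pow_eq_pow_val u 32).trans (h32.trans Units.val_one.symm))

/-- Let q = 2^(2m+1) with m ≥ 1. Every element of 2-power order of the large Ree group ²F₄(q) has order at most 32. -/
theorem result {K : Type*} [Field K] [Fintype K] (m : ℕ) (hm : 1 ≤ m) (hK : Fintype.card K = 2 ^ (2 * m + 1))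
    (x : ↥(Cfsg.Lie.twistedF4 K (2 ^ m))) (hx : ∃ j : ℕ, orderOf x = 2 ^ j) : orderOf x ≤ 32 := by
  have h2 : (2 : K) = 0 := by
    have h := Nat.cast_card_eq_zero K
    rw [hK] at h
    push_cast at h
    exact pow_eq_zero_iff (by omega) |>.mp h
  haveI : CharP K 2 := CharTwo.of_one_ne_zero_of_two_eq_zero one_ne_zero h2
  haveI : Fact (Nat.Prime 2) := ⟨Nat.prime_two⟩
  obtain ⟨P, hP⟩ := posUnipotent_sylow (F := K) 2 chevF4 hF4
  have hle : twistedF4 K (2 ^ m) ≤ chevF4.group K := genSubgroup_le_group chevF4 hF4' _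
  obtain ⟨j, hj⟩ := hx
  obtain ⟨x', hx'⟩ : ∃ x' : ↥(chevF4.group K), x' = ⟨x.1, hle x.2⟩ := ⟨_, rfl⟩
  have hx'val : (x' : GL chevF4.Idx K) = (x : GL chevF4.Idx K) := by rw [hx']
  have hord' : orderOf x' = orderOf x := by
    rw [← Subgroup.orderOf_coe, hx'val, Subgroup.orderOf_coe]
  have hpg : IsPGroup 2 ↥(Subgroup.zpowers x') := by
    apply IsPGroup.of_card (n := j)
    rw [Nat.card_zpowers, hord', hj]
  obtain ⟨Q, hQ⟩ := hpg.exists_le_sylow
  obtain ⟨g, hg⟩ := MulAction.exists_smul_eq (↥(chevF4.group K)) Q P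
  have hxQ : x' ∈ (Q : Subgroup ↥(chevF4.group K)) := hQ (Subgroup.mem_zpowers x')
  have hgx : g * x' * g⁻¹ ∈ (P : Subgroup ↥(chevF4.group K)) := by
    rw [← hg, Sylow.coe_subgroup_smul]
    exact Subgroup.smul_mem_pointwise_smul _ _ _ hxQ
  rw [hP, Subgroup.mem_subgroupOf] at hgx
  have h32 := unip_pow h2 _ hgx
  have h32' : (g * x' * g⁻¹) ^ 32 = 1 := by
    apply Subtype.ext
    rw [Subgroup.coe_pow]
    exact h32
  rw [conj_pow] at h32'
  have hx32 : x' ^ 32 = 1 := by
    have h := congrArg (fun y => g⁻¹ * y * g) h32'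
    simpa [mul_assoc] using h
  rw [← hord']
  exact Nat.le_of_dvd (by norm_num) (orderOf_dvd_of_pow_eq_one hx32)

end Cfsg.Agent.S2370
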