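import Cfsg.Statements.S2384
-- import your own Cfsg.Agent.* helpers here
import Cfsg.Agent.Lib.Helper47.SemiCount

set_option autoImplicit false
open Cfsg

namespace Cfsg.Agent.S2384

/-- In `SL_n(q)`, `q` a power of the prime `p`, the number of conjugacy classes of elements of order prime to `p` (the semisimple classes) is `q^(n-1)`. -/
theorem result {F : Type*} [Field F] [Fintype F] {q : ℕ} (hq : Fintype.card F = q) (p : ℕ) [Fact p.Prime] [CharP F p] (n : ℕ) (hn : 1 ≤ n) :
    Nat.card {c : ConjClasses (Matrix.SpecialLinearGroup (Fin n) F) //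
      ∃ g : Matrix.SpecialLinearGroup (Fin n) F, ConjClasses.mk g = c ∧ (orderOf g).Coprime p} = q ^ (n - 1) := by
  obtain ⟨m, rfl⟩ : ∃ m, n = m + 1 := ⟨n - 1, by omega⟩
  rw [Cfsg.Agent.Lib.Helper47.sl_card_semisimple_classes p m, hq, Nat.add_sub_cancel]

end Cfsg.Agent.S2384
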