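import Cfsg.Statements.S2391
-- import your own Cfsg.Agent.* helpers here

set_option autoImplicit false
open Cfsg

namespace Cfsg.Agent.S2391

open Matrix

variable {F : Type*} [Field F] {n : ℕ}

/-- the series of iterated fixed points -/
def W (U : Subgroup (Matrix.SpecialLinearGroup (Fin n) F)) : ℕ → Submodule F (Fin n → F)
  | 0 => ⊥
  | (i + 1) => ⨅ u ∈ U, (W U i).comap (Matrix.mulVecLin (u : Matrix (Fin n) (Fin n) F) - 1)

theorem mem_W_succ (U : Subgroup (Matrix.SpecialLinearGroup (Fin n) F)) (i : ℕ) (v : Fin n → F) :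
    v ∈ W U (i + 1) ↔ ∀ u ∈ U, (u : Matrix (Fin n) (Fin n) F).mulVec v - v ∈ W U i := by
  simp [W, Submodule.mem_iInf]

theorem W_le_succ (U : Subgroup (Matrix.SpecialLinearGroup (Fin n) F)) (i : ℕ) :
    W U i ≤ W U (i + 1) := by
  induction i with
  | zero => simp [W]
  | succ i ih =>
    intro v hv
    rw [mem_W_succ] at hv ⊢
    intro u hu
    exact ih (hv u hu)

theorem W_mono (U : Subgroup (Matrix.SpecialLinearGroup (Fin n) F)) : Monotone (W U) :=
  monotone_nat_of_le_succ (W_le_succ U)

theorem W_stable (U : Subgroup (Matrix.SpecialLinearGroup (Fin n) F)) (i : ℕ)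
    (u : Matrix.SpecialLinearGroup (Fin n) F) (hu : u ∈ U) (v : Fin n → F) (hv : v ∈ W U i) :
    (u : Matrix (Fin n) (Fin n) F).mulVec v ∈ W U i := by
  have h1 := (mem_W_succ U i v).mp (W_le_succ U i hv) u hu
  have h2 := (W U i).add_mem h1 hv
  simpa using h2

theorem W_norm_le (U : Subgroup (Matrix.SpecialLinearGroup (Fin n) F)) (i : ℕ)
    (g : Matrix.SpecialLinearGroup (Fin n) F)
    (hg : g ∈ Subgroup.normalizer (U : Set (Matrix.SpecialLinearGroup (Fin n) F)))
    (v : Fin n → F) (hv : v ∈ W U i) :
    (g : Matrix (Fin n) (Fin n) F).mulVec v ∈ W U i := by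
  induction i generalizing v with
  | zero =>
    simp only [W, Submodule.mem_bot] at hv ⊢
    rw [hv]
    simp
  | succ i ih =>
    rw [mem_W_succ] at hv ⊢
    intro u hu
    have hu' : g⁻¹ * u * g ∈ U := by
      have := (Subgroup.mem_normalizer_iff.mp hg (g⁻¹ * u * g))
      rw [this]
      simpa [mul_assoc] using hu
    have h1 := ih _ (hv _ hu')
    have h2 : (g : Matrix (Fin n) (Fin n) F).mulVec
        ((((g⁻¹ * u * g : Matrix.SpecialLinearGroup (Fin n) F)) : Matrix (Fin n) (Fin n) F).mulVec v - v)
        = (u : Matrix (Fin n) (Fin n) F).mulVec ((g : Matrix (Fin n) (Fin n) F).mulVec v)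
          - (g : Matrix (Fin n) (Fin n) F).mulVec v := by
      have hm : (g : Matrix (Fin n) (Fin n) F) *
          ((g⁻¹ * u * g : Matrix.SpecialLinearGroup (Fin n) F) : Matrix (Fin n) (Fin n) F)
          = (u : Matrix (Fin n) (Fin n) F) * (g : Matrix (Fin n) (Fin n) F) := by
        rw [← Matrix.SpecialLinearGroup.coe_mul, ← Matrix.SpecialLinearGroup.coe_mul,
          mul_assoc g⁻¹ u g, mul_inv_cancel_left]
      rw [Matrix.mulVec_sub, Matrix.mulVec_mulVec, Matrix.mulVec_mulVec, hm]
    rw [h2] at h1
    exact h1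

theorem W_norm_eq (U : Subgroup (Matrix.SpecialLinearGroup (Fin n) F)) (i : ℕ)
    (g : Matrix.SpecialLinearGroup (Fin n) F)
    (hg : g ∈ Subgroup.normalizer (U : Set (Matrix.SpecialLinearGroup (Fin n) F))) :
    (W U i).map (Matrix.mulVecLin (g : Matrix (Fin n) (Fin n) F)) = W U i := by
  apply le_antisymm
  · rintro _ ⟨v, hv, rfl⟩
    exact W_norm_le U i g hg v hv
  · intro v hv
    refine ⟨(g⁻¹ : Matrix.SpecialLinearGroup (Fin n) F).1.mulVec v,
      W_norm_le U i g⁻¹ (inv_mem hg) v hv, ?_⟩
    simp only [Matrix.mulVecLin_apply, Matrix.mulVec_mulVec]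
    have : (g : Matrix (Fin n) (Fin n) F) * (g⁻¹ : Matrix.SpecialLinearGroup (Fin n) F).1 = 1 := by
      rw [← Matrix.SpecialLinearGroup.coe_mul, mul_inv_cancel]
      rfl
    rw [this, Matrix.one_mulVec]

theorem W_strict [Fintype F] (p : ℕ) [Fact p.Prime] [CharP F p]
    (U : Subgroup (Matrix.SpecialLinearGroup (Fin n) F)) (hU : IsPGroup p ↥U) (i : ℕ)
    (hi : W U i ≠ ⊤) : W U i < W U (i + 1) := by
  refine lt_of_le_of_ne (W_le_succ U i) ?_
  intro heq
  have hstab : ∀ u : ↥U, W U i ≤ (W U i).comap
      (Matrix.mulVecLin ((u : Matrix.SpecialLinearGroup (Fin n) F) : Matrix (Fin n) (Fin n) F)) := by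
    intro u v hv
    exact W_stable U i u u.2 v hv
  let Q := (Fin n → F) ⧸ W U i
  let act : MulAction ↥U Q :=
    { smul := fun u q => (W U i).mapQ (W U i)
        (Matrix.mulVecLin ((u : Matrix.SpecialLinearGroup (Fin n) F) : Matrix (Fin n) (Fin n) F))
        (hstab u) q
      one_smul := by
        intro q
        induction q using Submodule.Quotient.induction_on with
        | _ v =>
          change (W U i).mapQ (W U i) _ _ (Submodule.Quotient.mk v) = _
          rw [Submodule.mapQ_apply]
          simp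
      mul_smul := by
        intro a b q
        induction q using Submodule.Quotient.induction_on with
        | _ v =>
          change (W U i).mapQ (W U i) _ _ (Submodule.Quotient.mk v) =
            (W U i).mapQ (W U i) _ _ ((W U i).mapQ (W U i) _ _ (Submodule.Quotient.mk v))
          rw [Submodule.mapQ_apply, Submodule.mapQ_apply, Submodule.mapQ_apply]
          simp [Matrix.mulVec_mulVec] }
  have hsmul : ∀ (u : ↥U) (v : Fin n → F), u • (Submodule.Quotient.mk v : Q) =
      Submodule.Quotient.mk
        (((u : Matrix.SpecialLinearGroup (Fin n) F) : Matrix (Fin n) (Fin n) F).mulVec v) := by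
    intro u v
    change (W U i).mapQ (W U i) _ _ (Submodule.Quotient.mk v) = _
    rw [Submodule.mapQ_apply]
    rfl
  have : Finite Q := Finite.of_surjective _ (Submodule.Quotient.mk_surjective (W U i))
  have hnt : Nontrivial Q := Submodule.Quotient.nontrivial_iff.mpr hi
  have hpQ : p ∣ Nat.card Q := by
    obtain ⟨x, hx⟩ := exists_ne (0 : Q)
    have hpx : p • x = 0 := by
      rw [← Nat.cast_smul_eq_nsmul F p x, CharP.cast_eq_zero F p, zero_smul]
    have hord : addOrderOf x = p := addOrderOf_eq_prime hpx hx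
    rw [← hord]
    exact addOrderOf_dvd_natCard x
  have h0 : (0 : Q) ∈ MulAction.fixedPoints ↥U Q := by
    intro u
    have := hsmul u 0
    simpa using this
  obtain ⟨b, hb, hb0⟩ := hU.exists_fixed_point_of_prime_dvd_card_of_fixed_point Q hpQ h0
  obtain ⟨v, rfl⟩ := Submodule.Quotient.mk_surjective (W U i) b
  have hv : v ∉ W U i := by
    intro hv
    apply hb0
    exact ((Submodule.Quotient.mk_eq_zero (W U i)).mpr hv).symm
  apply hv
  rw [heq, mem_W_succ]
  intro u hu
  have h1 := hb ⟨u, hu⟩
  rw [hsmul] at h1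
  exact (Submodule.Quotient.eq (W U i)).mp h1

/-- The Borel–Tits property of `SL_n(q)` in flag form: for a field `F` of characteristic `p` with finitely many elements and a non-trivial `p`-subgroup `U` of `SL_n(F)`, there is a flag `0 = V₀ < V₁ < ⋯ < V_{k+1} = F^n` with at least one proper non-zero member such that every element of the normaliser of `U` maps each `V_i` onto itself and every element of `U` acts trivially on each quotient `V_{i+1}/V_i` (so the normaliser lies in the parabolic subgroup of the flag and `U` in its unipotent radical). -/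
theorem result {F : Type*} [Field F] [Fintype F] (p : ℕ) [Fact p.Prime] [CharP F p] (n : ℕ)
    (U : Subgroup (Matrix.SpecialLinearGroup (Fin n) F)) (hU : IsPGroup p ↥U) (hne : U ≠ ⊥) :
    ∃ (k : ℕ) (V : Fin (k + 2) → Submodule F (Fin n → F)), 1 ≤ k ∧ StrictMono V ∧ V 0 = ⊥ ∧ V (Fin.last (k + 1)) = ⊤ ∧
      (∀ g ∈ Subgroup.normalizer (U : Set (Matrix.SpecialLinearGroup (Fin n) F)), ∀ i, (V i).map (Matrix.mulVecLin (g : Matrix (Fin n) (Fin n) F)) = V i) ∧
      (∀ u ∈ U, ∀ i : Fin (k + 1), ∀ v ∈ V i.succ, (u : Matrix (Fin n) (Fin n) F).mulVec v - v ∈ V (Fin.castSucc i)) := by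
  classical
  -- some W i is ⊤
  have hex : ∃ i, W U i = ⊤ := by
    by_contra hcon
    rw [not_exists] at hcon
    have hsm : StrictMono (W U) := strictMono_nat_of_lt_succ (fun i => W_strict p U hU i (hcon i))
    have : Finite (Submodule F (Fin n → F)) :=
      Finite.of_injective (fun S : Submodule F (Fin n → F) => (S : Set (Fin n → F)))
        SetLike.coe_injective
    exact not_injective_infinite_finite _ hsm.injective
  set k0 := Nat.find hex with hk0
  have hk0top : W U k0 = ⊤ := Nat.find_spec hex
  have hlt : ∀ i < k0, W U i ≠ ⊤ := fun i hi => Nat.find_min hex hi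
  -- U nontrivial gives a nonidentity element
  obtain ⟨u0, hu01⟩ := (Subgroup.ne_bot_iff_exists_ne_one.mp hne)
  have hu0' : (u0 : Matrix.SpecialLinearGroup (Fin n) F) ≠ 1 := fun h => hu01 (Subtype.ext h)
  have h0 : W U 0 ≠ ⊤ := by
    intro h
    apply hu0'
    ext i j
    have hv : (Pi.single j 1 : Fin n → F) ∈ W U 0 := by rw [h]; trivial
    simp only [W, Submodule.mem_bot] at hv
    have := congrFun hv j
    simp at this
  have h1 : W U 1 ≠ ⊤ := by
    intro h
    apply hu0'
    ext i j
    have hv : (Pi.single j 1 : Fin n → F) ∈ W U 1 := by rw [h]; trivial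
    rw [mem_W_succ] at hv
    have h2 := hv u0 u0.2
    simp only [W, Submodule.mem_bot] at h2
    have h3 := congrFun h2 i
    simp only [Pi.sub_apply, Pi.zero_apply, Matrix.mulVec_single_one, sub_eq_zero] at h3
    simp only [Matrix.col_apply] at h3
    rw [Matrix.SpecialLinearGroup.coe_one, Matrix.one_apply, h3, Pi.single_apply]
  have hk2 : 2 ≤ k0 := by
    by_contra hcon
    have : k0 = 0 ∨ k0 = 1 := by omega
    rcases this with h | h
    · exact h0 (h ▸ hk0top)
    · exact h1 (h ▸ hk0top)
  have hstrict : ∀ j ≤ k0, ∀ i < j, W U i < W U j := by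
    intro j
    induction j with
    | zero => intro _ i hi; omega
    | succ j ih =>
      intro hj i hi
      have h2 : W U i ≤ W U j := W_mono U (by omega)
      exact lt_of_le_of_lt h2 (W_strict p U hU j (hlt j (by omega)))
  refine ⟨k0 - 1, fun i => W U i.val, by omega, ?_, ?_, ?_, ?_, ?_⟩
  · intro i j hij
    exact hstrict j.val (by have := j.isLt; omega) i.val hij
  · rfl
  · have : (Fin.last (k0 - 1 + 1)).val = k0 := by simp; omega
    simp only [this]
    exact hk0top
  · intro g hg i
    exact W_norm_eq U i.val g hg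
  · intro u hu i v hv
    simp only [Fin.val_succ] at hv
    simp only [Fin.val_castSucc]
    exact (mem_W_succ U i.val v).mp hv u hu

end Cfsg.Agent.S2391
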