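import Cfsg.Statements.S2392
-- import your own Cfsg.Agent.* helpers here
import Cfsg.Agent.Lib.Helper47.LSBound
import Cfsg.Agent.Lib.Helper47.SylowSL

set_option autoImplicit false
open scoped MatrixGroups
open Cfsg

namespace Cfsg.Agent.S2392

open Matrix Cfsg.Agent.Lib.Helper47

section trans

variable {F : Type*} [Field F] {m : ℕ}

/-- A rank-one unipotent element moving `e` to `w`. -/
theorem exists_SL_mulVec_of_dot (e w φ : Fin m → F) (he : φ ⬝ᵥ e = 1) (hw : φ ⬝ᵥ w = 1) :
    ∃ g : Matrix.SpecialLinearGroup (Fin m) F, g.1 *ᵥ e = w := by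
  refine ⟨⟨1 + vecMulVec (w - e) φ, ?_⟩, ?_⟩
  · rw [vecMulVec_eq Unit, det_one_add_replicateCol_mul_replicateRow, dotProduct_sub, he, hw,
      sub_self, add_zero]
  · show (1 + vecMulVec (w - e) φ) *ᵥ e = w
    rw [add_mulVec, one_mulVec, vecMulVec_mulVec, he]
    simp

theorem exists_SL_mulVec_single (hm : 2 ≤ m) (i₀ : Fin m) (w : Fin m → F) (hw : w ≠ 0) :
    ∃ g : Matrix.SpecialLinearGroup (Fin m) F, g.1 *ᵥ (Pi.single i₀ 1) = w := by
  classical
  by_cases hA : ∃ j, j ≠ i₀ ∧ w j ≠ 0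
  · obtain ⟨j, hj, hwj⟩ := hA
    apply exists_SL_mulVec_of_dot _ _ (Pi.single i₀ 1 + Pi.single j ((1 - w i₀) / w j))
    · rw [add_dotProduct, single_dotProduct, single_dotProduct, Pi.single_eq_same,
        Pi.single_eq_of_ne hj]
      simp
    · rw [add_dotProduct, single_dotProduct, single_dotProduct]
      field_simp
      ring
  · push Not at hA
    have hc : w i₀ ≠ 0 := by
      intro h0
      apply hw
      funext j
      by_cases hj : j = i₀
      · rw [hj, h0]
        rfl
      · exact hA j hj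
    obtain ⟨i₁, hi₁⟩ : ∃ i₁ : Fin m, i₁ ≠ i₀ := by
      by_cases h : i₀ = ⟨0, by omega⟩
      · refine ⟨⟨1, by omega⟩, ?_⟩
        rw [h]
        intro h'
        have := congrArg Fin.val h'
        simp at this
      · exact ⟨⟨0, by omega⟩, fun h' => h h'.symm⟩
    obtain ⟨g₁, hg₁⟩ := exists_SL_mulVec_of_dot (Pi.single i₀ 1)
      (Pi.single i₀ 1 + Pi.single i₁ 1) (Pi.single i₀ (1 : F))
      (by rw [single_dotProduct, Pi.single_eq_same, mul_one])
      (by rw [single_dotProduct, Pi.add_apply, Pi.single_eq_same, Pi.single_eq_of_ne hi₁.symm,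
        add_zero, mul_one])
    obtain ⟨g₂, hg₂⟩ := exists_SL_mulVec_of_dot (Pi.single i₀ 1 + Pi.single i₁ 1) w
      (Pi.single i₀ (w i₀)⁻¹ + Pi.single i₁ (1 - (w i₀)⁻¹))
      (by
        rw [add_dotProduct, single_dotProduct, single_dotProduct, Pi.add_apply, Pi.add_apply,
          Pi.single_eq_same, Pi.single_eq_same, Pi.single_eq_of_ne hi₁.symm,
          Pi.single_eq_of_ne hi₁]
        ring)
      (by
        rw [add_dotProduct, single_dotProduct, single_dotProduct, hA i₁ hi₁, mul_zero, add_zero,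
          inv_mul_cancel₀ hc])
    refine ⟨g₂ * g₁, ?_⟩
    rw [Matrix.SpecialLinearGroup.coe_mul, ← mulVec_mulVec, hg₁, hg₂]

end trans

section main

variable {F : Type*} [Field F]

/-- The unipotent block matrix `[[1, v], [0, 1]]`. -/
def uMat (m : ℕ) (v : Fin m → F) : Matrix (Unit ⊕ Fin m) (Unit ⊕ Fin m) F :=
  fromBlocks 1 (replicateRow Unit v) 0 1

theorem uMat_add (m : ℕ) (v w : Fin m → F) : uMat m (v + w) = uMat m v * uMat m w := by
  rw [uMat, uMat, uMat, fromBlocks_multiply, replicateRow_add]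
  simp [add_comm]

theorem uMat_zero (m : ℕ) : uMat m (0 : Fin m → F) = 1 := by
  rw [uMat, replicateRow_zero, fromBlocks_one]

theorem uMat_det (m : ℕ) (v : Fin m → F) : (uMat m v).det = 1 := by
  rw [uMat, det_fromBlocks_zero₂₁, det_one, det_one, mul_one]

theorem uMat_conj (m : ℕ) (G G' : Matrix (Fin m) (Fin m) F) (hG : G' * G = 1) (v : Fin m → F) :
    fromBlocks 1 0 0 G * uMat m v = uMat m (v ᵥ* G') * fromBlocks 1 0 0 G := by
  rw [uMat, uMat, fromBlocks_multiply, fromBlocks_multiply, replicateRow_vecMul]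
  simp [Matrix.mul_assoc, hG]

/-- The unipotent radical as a homomorphism into `SL_n`. -/
noncomputable def xHom (n m : ℕ) (e : Unit ⊕ Fin m ≃ Fin n) :
    Multiplicative (Fin m → F) →* Matrix.SpecialLinearGroup (Fin n) F :=
  toSLHom
    { toFun := fun a => Matrix.reindexAlgEquiv F F e (uMat m (Multiplicative.toAdd a))
      map_one' := by rw [toAdd_one, uMat_zero, map_one]
      map_mul' := fun a b => by rw [toAdd_mul, uMat_add, map_mul] }
    (fun a => by
      show (Matrix.reindexAlgEquiv F F e (uMat m (Multiplicative.toAdd a))).det = 1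
      rw [Matrix.det_reindexAlgEquiv, uMat_det])

theorem xHom_coe (n m : ℕ) (e : Unit ⊕ Fin m ≃ Fin n) (v : Fin m → F) :
    ((xHom n m e (Multiplicative.ofAdd v)) : Matrix (Fin n) (Fin n) F)
      = Matrix.reindexAlgEquiv F F e (uMat m v) := rfl

/-- The Levi element `diag(1, g)`. -/
noncomputable def lev (n m : ℕ) (e : Unit ⊕ Fin m ≃ Fin n)
    (g : Matrix.SpecialLinearGroup (Fin m) F) : Matrix.SpecialLinearGroup (Fin n) F :=
  ⟨Matrix.reindexAlgEquiv F F e (fromBlocks 1 0 0 g.1), by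
    rw [Matrix.det_reindexAlgEquiv, det_fromBlocks_zero₂₁, det_one, one_mul]
    exact g.2⟩

theorem lev_conj (n m : ℕ) (e : Unit ⊕ Fin m ≃ Fin n) (g : Matrix.SpecialLinearGroup (Fin m) F)
    (v : Fin m → F) :
    lev n m e g * xHom n m e (Multiplicative.ofAdd v) * (lev n m e g)⁻¹
      = xHom n m e (Multiplicative.ofAdd (v ᵥ* (g⁻¹).1)) := by
  rw [mul_inv_eq_iff_eq_mul]
  apply Subtype.ext
  rw [Matrix.SpecialLinearGroup.coe_mul, Matrix.SpecialLinearGroup.coe_mul, xHom_coe, xHom_coe]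
  show Matrix.reindexAlgEquiv F F e (fromBlocks 1 0 0 g.1) * Matrix.reindexAlgEquiv F F e (uMat m v)
    = Matrix.reindexAlgEquiv F F e (uMat m (v ᵥ* (g⁻¹).1))
      * Matrix.reindexAlgEquiv F F e (fromBlocks 1 0 0 g.1)
  rw [← map_mul, ← map_mul, uMat_conj m g.1 (g⁻¹).1 (by
    rw [← Matrix.SpecialLinearGroup.coe_mul, inv_mul_cancel]
    rfl)]

end main

/-- A lower bound for representations in cross characteristic: for `n ≥ 3` and a field `F` with `q` elements, every homomorphism from `SL_n(F)` to `GL_d(K)`, `K` a field of characteristic different from that of `F`, whose kernel is central has `d ≥ q^(n-1) - 1`. -/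
theorem result {F : Type*} [Field F] [Fintype F] {q : ℕ} (hq : Fintype.card F = q) (n : ℕ) (hn : 3 ≤ n)
    {K : Type*} [Field K] (hK : ringChar K ≠ ringChar F) {d : ℕ}
    (ρ : Matrix.SpecialLinearGroup (Fin n) F →* GL (Fin d) K) (hker : ρ.ker ≤ Subgroup.center (Matrix.SpecialLinearGroup (Fin n) F)) :
    q ^ (n - 1) - 1 ≤ d := by
  classical
  subst hq
  obtain ⟨p, hp⟩ := CharP.exists F
  have hpp : p.Prime := by
    rcases CharP.char_is_prime_or_zero F p with h | h
    · exact h
    · exfalso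
      subst h
      have : CharZero F := CharP.charP_to_charZero F
      exact not_finite F
  have hfact : Fact p.Prime := ⟨hpp⟩
  have hpK : (p : K) ≠ 0 := by
    intro h
    have h1 : ringChar K ∣ p := (ringChar.spec K p).mp h
    have h2 : ringChar F = p := ringChar.eq F p
    rcases (Nat.dvd_prime hpp).mp h1 with h3 | h3
    · exact CharP.ringChar_ne_one h3
    · exact hK (h3.trans h2.symm)
  obtain ⟨m, hm⟩ : ∃ m, m = n - 1 := ⟨_, rfl⟩
  rw [← hm]
  have hcard : Fintype.card (Unit ⊕ Fin m) = Fintype.card (Fin n) := by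
    simp only [Fintype.card_sum, Fintype.card_unit, Fintype.card_fin]
    omega
  obtain ⟨e⟩ : Nonempty (Unit ⊕ Fin m ≃ Fin n) := ⟨Fintype.equivOfCardEq hcard⟩
  obtain ⟨i₀⟩ : Nonempty (Fin m) := ⟨⟨0, by omega⟩⟩
  refine ls_bound p (A := Fin m → F) (fun a => ?_) hpK ρ (xHom n m e) (Pi.single i₀ 1) ?_
    (Fintype.card F ^ m - 1) ?_
  · funext i
    rw [Pi.smul_apply, nsmul_eq_mul, CharP.cast_eq_zero F p, zero_mul]
    rfl
  · intro h
    have h1 : xHom n m e (Multiplicative.ofAdd (Pi.single i₀ 1))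
        ∈ Subgroup.center (Matrix.SpecialLinearGroup (Fin n) F) :=
      hker (MonoidHom.mem_ker.mpr h)
    obtain ⟨r, _, hr⟩ := Matrix.SpecialLinearGroup.mem_center_iff.mp h1
    have h2 := congrFun (congrFun hr (e (Sum.inl ()))) (e (Sum.inr i₀))
    rw [xHom_coe, Matrix.coe_reindexAlgEquiv, Matrix.reindex_apply, Matrix.submatrix_apply,
      Equiv.symm_apply_apply, Equiv.symm_apply_apply, Matrix.scalar_apply,
      Matrix.diagonal_apply_ne _ (by
        intro h'
        exact Sum.inl_ne_inr (e.injective h'))] at h2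
    simp [uMat] at h2
  · intro χ hχ
    obtain ⟨ψ, hψdef⟩ : ∃ ψ : AddChar F (AlgebraicClosure K),
        ψ = χ.compAddMonoidHom (AddMonoidHom.single (fun _ => F) i₀) := ⟨_, rfl⟩
    have hψ : ψ ≠ 1 := by
      rw [AddChar.ne_one_iff]
      refine ⟨1, ?_⟩
      rw [hψdef]
      exact hχ
    obtain ⟨w₀, hw₀⟩ := addChar_pi_classify ψ hψ χ
    have hw₀0 : w₀ ≠ 0 := by
      rintro rfl
      apply hχ
      rw [hw₀, zero_dotProduct, AddChar.map_zero_eq_one]
    refine ⟨(Finset.univ.filter (fun w : Fin m → F => w ≠ 0)).image (dotChar ψ), ?_, ?_⟩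
    · rw [Finset.card_image_of_injective _ (dotChar_injective ψ hψ), Finset.filter_ne',
        Finset.card_erase_of_mem (Finset.mem_univ _), Finset.card_univ, Fintype.card_pi_const]
    · intro χ' hχ'
      obtain ⟨w', hw', rfl⟩ := Finset.mem_image.mp hχ'
      have hw'0 : w' ≠ 0 := (Finset.mem_filter.mp hw').2
      obtain ⟨g₁, hg₁⟩ := exists_SL_mulVec_single (by omega) i₀ w₀ hw₀0
      obtain ⟨g₂, hg₂⟩ := exists_SL_mulVec_single (by omega) i₀ w' hw'0
      obtain ⟨h, hh⟩ : ∃ h : Matrix.SpecialLinearGroup (Fin m) F, h = g₂ * g₁⁻¹ := ⟨_, rfl⟩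
      have hhw : h.1 *ᵥ w₀ = w' := by
        have h3 : (h * g₁).1 *ᵥ Pi.single i₀ 1 = w' := by
          rw [hh, inv_mul_cancel_right]
          exact hg₂
        rw [← hg₁, mulVec_mulVec]
        exact h3
      refine ⟨lev n m e h⁻¹, fun v => v ᵥ* h.1, ?_, ?_⟩
      · intro v
        have := lev_conj n m e h⁻¹ v
        rwa [inv_inv] at this
      · intro a
        rw [dotChar_apply, hw₀, ← hhw]
        congr 1
        rw [dotProduct_comm, dotProduct_mulVec, dotProduct_comm]

end Cfsg.Agent.S2392
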