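import Cfsg.Statements.S2393
-- import your own Cfsg.Agent.* helpers here
import Cfsg.Agent.Lib.Helper47.LSBound
import Cfsg.Agent.Lib.Helper47.ClassicalEmb

set_option autoImplicit false
open scoped MatrixGroups
open Cfsg

namespace Cfsg.Agent.S2393

open Matrix Cfsg.Agent.Lib.Helper47

section main

variable {F : Type*} [Field F] {n : ℕ}

/-- The symmetric matrix `e₀ aᵀ + a e₀ᵀ`. -/
def sMat (i₀ : Fin n) (a : Fin n → F) : Matrix (Fin n) (Fin n) F :=
  vecMulVec (Pi.single i₀ 1) a + vecMulVec a (Pi.single i₀ 1)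

theorem sMat_transpose (i₀ : Fin n) (a : Fin n → F) : (sMat i₀ a)ᵀ = sMat i₀ a := by
  rw [sMat, transpose_add, transpose_vecMulVec, transpose_vecMulVec, add_comm]

theorem sMat_add (i₀ : Fin n) (a b : Fin n → F) : sMat i₀ (a + b) = sMat i₀ a + sMat i₀ b := by
  rw [sMat, sMat, sMat, vecMulVec_add, add_vecMulVec]
  abel

theorem sMat_zero (i₀ : Fin n) : sMat i₀ (0 : Fin n → F) = 0 := by
  ext i j
  simp [sMat]

theorem sMat_conj (i₀ : Fin n) (g : Matrix (Fin n) (Fin n) F) (s : F)
    (hg : g *ᵥ Pi.single i₀ 1 = s • Pi.single i₀ 1) (a : Fin n → F) :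
    g * sMat i₀ a * gᵀ = sMat i₀ (s • (g *ᵥ a)) := by
  rw [sMat, sMat, Matrix.mul_add, Matrix.add_mul, mul_vecMulVec, mul_vecMulVec, vecMulVec_mul,
    vecMulVec_mul, vecMul_transpose, vecMul_transpose, hg, smul_vecMulVec, vecMulVec_smul,
    vecMulVec_smul, smul_vecMulVec]

/-- Upper unitriangular block matrix. -/
def upMat (S : Matrix (Fin n) (Fin n) F) : Matrix (Fin n ⊕ Fin n) (Fin n ⊕ Fin n) F :=
  fromBlocks 1 S 0 1

/-- Lower unitriangular block matrix. -/
def loMat (S : Matrix (Fin n) (Fin n) F) : Matrix (Fin n ⊕ Fin n) (Fin n ⊕ Fin n) F :=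
  fromBlocks 1 0 S 1

theorem upMat_mem (S : Matrix (Fin n) (Fin n) F) (hS : Sᵀ = S) :
    upMat S ∈ Matrix.symplecticGroup (Fin n) F := by
  rw [SymplecticGroup.mem_iff, upMat, Matrix.J, fromBlocks_multiply, fromBlocks_transpose,
    fromBlocks_multiply, hS]
  simp

theorem loMat_mem (S : Matrix (Fin n) (Fin n) F) (hS : Sᵀ = S) :
    loMat S ∈ Matrix.symplecticGroup (Fin n) F := by
  rw [SymplecticGroup.mem_iff, loMat, Matrix.J, fromBlocks_multiply, fromBlocks_transpose,
    fromBlocks_multiply, hS]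
  simp

theorem upMat_add (S T : Matrix (Fin n) (Fin n) F) : upMat (S + T) = upMat S * upMat T := by
  rw [upMat, upMat, upMat, fromBlocks_multiply]
  simp [add_comm]

theorem upMat_zero : upMat (0 : Matrix (Fin n) (Fin n) F) = 1 := fromBlocks_one

/-- The abelian unipotent subgroup as a homomorphism into `Sp_{2n}`. -/
def xHom (i₀ : Fin n) : Multiplicative (Fin n → F) →* ↥(Matrix.symplecticGroup (Fin n) F) where
  toFun a := ⟨upMat (sMat i₀ (Multiplicative.toAdd a)), upMat_mem _ (sMat_transpose _ _)⟩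
  map_one' := Subtype.ext (by
    show upMat (sMat i₀ (0 : Fin n → F)) = 1
    rw [sMat_zero, upMat_zero])
  map_mul' a b := Subtype.ext (by
    show upMat (sMat i₀ (Multiplicative.toAdd a + Multiplicative.toAdd b))
      = upMat (sMat i₀ (Multiplicative.toAdd a)) * upMat (sMat i₀ (Multiplicative.toAdd b))
    rw [sMat_add, upMat_add])

theorem xHom_coe (i₀ : Fin n) (a : Fin n → F) :
    ((xHom i₀ (Multiplicative.ofAdd a) : ↥(Matrix.symplecticGroup (Fin n) F)) :
      Matrix (Fin n ⊕ Fin n) (Fin n ⊕ Fin n) F) = upMat (sMat i₀ a) := rfl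

theorem spEmb_conj (i₀ : Fin n) (g : GL (Fin n) F) (s : F)
    (hg : (g : Matrix (Fin n) (Fin n) F) *ᵥ Pi.single i₀ 1 = s • Pi.single i₀ 1)
    (a : Fin n → F) :
    spEmb n F g * xHom i₀ (Multiplicative.ofAdd a) * (spEmb n F g)⁻¹
      = xHom i₀ (Multiplicative.ofAdd (s • ((g : Matrix (Fin n) (Fin n) F) *ᵥ a))) := by
  rw [mul_inv_eq_iff_eq_mul]
  apply Subtype.ext
  show hypMat g * upMat (sMat i₀ a)
    = upMat (sMat i₀ (s • ((g : Matrix (Fin n) (Fin n) F) *ᵥ a))) * hypMat g
  rw [hypMat_apply, upMat, upMat, fromBlocks_multiply, fromBlocks_multiply,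
    ← sMat_conj i₀ (g : Matrix (Fin n) (Fin n) F) s hg a]
  have h1 : ((g : GL (Fin n) F) : Matrix (Fin n) (Fin n) F)ᵀ
      * ((g⁻¹ : GL (Fin n) F) : Matrix (Fin n) (Fin n) F)ᵀ = 1 := by
    rw [← transpose_mul, ← Units.val_mul, inv_mul_cancel, Units.val_one, transpose_one]
  simp only [Matrix.mul_one, Matrix.one_mul, Matrix.mul_zero, Matrix.zero_mul, add_zero,
    zero_add, Matrix.mul_assoc, h1]

end main

/-- A lower bound for representations in cross characteristic: for `n ≥ 2` and a field `F` with `q` elements, `q` odd, every homomorphism from the symplectic group `Sp_{2n}(F)` to `GL_d(K)`, `K` a field of characteristic different from that of `F`, whose kernel is central has `d ≥ q^(n-1)(q-1)/2`. -/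
theorem result {F : Type*} [Field F] [Fintype F] {q : ℕ} (hq : Fintype.card F = q) (hodd : Odd q) (n : ℕ) (hn : 2 ≤ n)
    {K : Type*} [Field K] (hK : ringChar K ≠ ringChar F) {d : ℕ}
    (ρ : ↥(Matrix.symplecticGroup (Fin n) F) →* GL (Fin d) K) (hker : ρ.ker ≤ Subgroup.center ↥(Matrix.symplecticGroup (Fin n) F)) :
    q ^ (n - 1) * (q - 1) / 2 ≤ d := by
  classical
  subst hq
  obtain ⟨p, hp⟩ := CharP.exists F
  have hpp : p.Prime := by
    rcases CharP.char_is_prime_or_zero F p with h | h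
    · exact h
    · exfalso
      subst h
      have : CharZero F := CharP.charP_to_charZero F
      exact not_finite F
  have hfact : Fact p.Prime := ⟨hpp⟩
  have hpK : (p : K) ≠ 0 := by
    intro h
    have h1 : ringChar K ∣ p := (ringChar.spec K p).mp h
    have h2 : ringChar F = p := ringChar.eq F p
    rcases (Nat.dvd_prime hpp).mp h1 with h3 | h3
    · exact CharP.ringChar_ne_one h3
    · exact hK (h3.trans h2.symm)
  have h2F : (2 : F) ≠ 0 := by
    intro h
    have h1 : p ∣ 2 := by
      have := (CharP.cast_eq_zero_iff F p 2).mp (by exact_mod_cast h)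
      exact this
    have h2 : p = 2 := (Nat.prime_dvd_prime_iff_eq hpp Nat.prime_two).mp h1
    obtain ⟨k, _, hk⟩ := FiniteField.card F p
    rw [hk, h2] at hodd
    have : Even (2 ^ (k : ℕ)) := (Nat.even_pow' k.ne_zero).mpr even_two
    exact (Nat.not_even_iff_odd.mpr hodd) this
  obtain ⟨m, rfl⟩ : ∃ m, n = m + 1 := ⟨n - 1, by omega⟩
  rw [Nat.add_sub_cancel]
  refine ls_bound p (A := Fin (m + 1) → F) (fun a => ?_) hpK ρ (xHom 0) (Pi.single 0 1) ?_
    (Fintype.card F ^ m * (Fintype.card F - 1) / 2) ?_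
  · funext i
    rw [Pi.smul_apply, nsmul_eq_mul, CharP.cast_eq_zero F p, zero_mul]
    rfl
  · intro h
    have h1 : xHom 0 (Multiplicative.ofAdd (Pi.single 0 1))
        ∈ Subgroup.center ↥(Matrix.symplecticGroup (Fin (m + 1)) F) :=
      hker (MonoidHom.mem_ker.mpr h)
    have h2 := Subgroup.mem_center_iff.mp h1
      ⟨loMat (sMat (0 : Fin (m + 1)) (Pi.single 0 (1 : F))), loMat_mem _ (sMat_transpose _ _)⟩
    have h3 : loMat (sMat (0 : Fin (m + 1)) (Pi.single 0 (1 : F)))
        * upMat (sMat (0 : Fin (m + 1)) (Pi.single 0 (1 : F)))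
        = upMat (sMat (0 : Fin (m + 1)) (Pi.single 0 (1 : F)))
          * loMat (sMat (0 : Fin (m + 1)) (Pi.single 0 (1 : F))) := congrArg Subtype.val h2
    rw [loMat, upMat, fromBlocks_multiply, fromBlocks_multiply] at h3
    have h4 := congrFun (congrFun h3 (Sum.inl 0)) (Sum.inl 0)
    have h5 : (sMat (0 : Fin (m + 1)) (Pi.single 0 (1 : F))
        * sMat (0 : Fin (m + 1)) (Pi.single 0 (1 : F))) 0 0 = 4 := by
      have h6 : sMat (0 : Fin (m + 1)) (Pi.single 0 (1 : F))
          = (2 : F) • vecMulVec (Pi.single 0 1) (Pi.single 0 1) := by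
        rw [sMat, two_smul]
      rw [h6, Matrix.smul_mul, Matrix.mul_smul, vecMulVec_mul_vecMulVec, single_dotProduct,
        Pi.single_eq_same]
      simp only [Matrix.smul_apply, vecMulVec_apply, Pi.smul_apply, Pi.single_eq_same,
        smul_eq_mul]
      norm_num
    simp only [fromBlocks_apply₁₁, Matrix.mul_one, Matrix.one_mul, Matrix.mul_zero,
      Matrix.zero_mul, add_zero, zero_add, Matrix.add_apply, Matrix.one_apply_eq] at h4
    rw [h5] at h4
    have h7 : (4 : F) = 0 := by linear_combination -h4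
    have h8 : (2 : F) * 2 = 0 := by
      rw [← h7]
      norm_num
    rcases mul_eq_zero.mp h8 with h9 | h9 <;> exact h2F h9
  · intro χ hχ
    obtain ⟨ψ, hψdef⟩ : ∃ ψ : AddChar F (AlgebraicClosure K),
        ψ = χ.compAddMonoidHom (AddMonoidHom.single (fun _ => F) (0 : Fin (m + 1))) := ⟨_, rfl⟩
    have hψ : ψ ≠ 1 := by
      rw [AddChar.ne_one_iff]
      refine ⟨1, ?_⟩
      rw [hψdef]
      exact hχ
    obtain ⟨φ, hφ⟩ := addChar_pi_classify ψ hψ χ
    have hφ0 : φ 0 ≠ 0 := by
      intro h0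
      apply hχ
      rw [hφ, dotProduct_single, h0, zero_mul, AddChar.map_zero_eq_one]
    obtain ⟨T, hT⟩ : ∃ T : Finset F,
        T = (Finset.univ.filter (fun s : F => s ≠ 0)).image (fun s : F => s ^ 2 * φ 0) :=
      ⟨_, rfl⟩
    have hTcard : Fintype.card F - 1 ≤ 2 * T.card := by
      have h1 := Finset.card_le_mul_card_image (f := fun s : F => s ^ 2 * φ 0)
        (Finset.univ.filter (fun s : F => s ≠ 0)) 2 (by
          intro b hb
          obtain ⟨x₀, hx₀, hx₀b⟩ := Finset.mem_image.mp hb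
          have hsub : (Finset.univ.filter (fun s : F => s ≠ 0)).filter
              (fun s : F => s ^ 2 * φ 0 = b) ⊆ {x₀, -x₀} := by
            intro x hx
            rw [Finset.mem_filter] at hx
            have h2 : x ^ 2 * φ 0 = x₀ ^ 2 * φ 0 := hx.2.trans hx₀b.symm
            have h3 : x ^ 2 = x₀ ^ 2 := mul_right_cancel₀ hφ0 h2
            have h4 : (x - x₀) * (x + x₀) = 0 := by
              linear_combination h3
            rw [Finset.mem_insert, Finset.mem_singleton]
            rcases mul_eq_zero.mp h4 with h5 | h5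
            · left
              exact sub_eq_zero.mp h5
            · right
              exact eq_neg_of_add_eq_zero_left h5
          exact (Finset.card_le_card hsub).trans Finset.card_le_two)
      have h0 : (Finset.univ.filter (fun s : F => s ≠ 0)).card = Fintype.card F - 1 := by
        rw [Finset.filter_ne', Finset.card_erase_of_mem (Finset.mem_univ _), Finset.card_univ]
      rw [← hT, h0] at h1
      exact h1
    refine ⟨(T ×ˢ (Finset.univ : Finset (Fin m → F))).image
      (fun tr : F × (Fin m → F) => dotChar ψ (Fin.cons tr.1 tr.2 : Fin (m + 1) → F)), ?_, ?_⟩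
    · rw [Finset.card_image_of_injective, Finset.card_product, Finset.card_univ,
        Fintype.card_pi_const]
      · apply Nat.div_le_of_le_mul
        calc Fintype.card F ^ m * (Fintype.card F - 1)
            ≤ Fintype.card F ^ m * (2 * T.card) := Nat.mul_le_mul_left _ hTcard
          _ = 2 * (T.card * Fintype.card F ^ m) := by ring
      · intro tr tr' h
        have h1 := dotChar_injective ψ hψ h
        have h2 := Fin.cons_inj.mp h1
        exact Prod.ext h2.1 h2.2
    · intro χ' hχ'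
      obtain ⟨⟨t, r⟩, htr, rfl⟩ := Finset.mem_image.mp hχ'
      rw [Finset.mem_product, hT] at htr
      obtain ⟨s, hs, hst⟩ := Finset.mem_image.mp htr.1
      have hs0 : s ≠ 0 := (Finset.mem_filter.mp hs).2
      simp only at hst
      obtain ⟨φ', hφ'⟩ : ∃ φ' : Fin (m + 1) → F, φ' = Fin.cons t r := ⟨_, rfl⟩
      have hφ'0 : φ' 0 = s ^ 2 * φ 0 := by
        rw [hφ', Fin.cons_zero, hst]
      obtain ⟨ρv, hρv⟩ : ∃ ρv : Fin (m + 1) → F, ρv = (φ 0)⁻¹ • (s⁻¹ • φ' - φ) := ⟨_, rfl⟩
      have hρ0 : ρv ⬝ᵥ Pi.single 0 1 = s - 1 := by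
        rw [dotProduct_single, mul_one, hρv]
        simp only [Pi.smul_apply, Pi.sub_apply, smul_eq_mul]
        rw [hφ'0]
        field_simp
      have hdet : (1 + vecMulVec (Pi.single 0 1) ρv : Matrix (Fin (m + 1)) (Fin (m + 1)) F).det
          = s := by
        rw [vecMulVec_eq Unit, det_one_add_replicateCol_mul_replicateRow, hρ0]
        ring
      obtain ⟨g, hg⟩ : ∃ g : GL (Fin (m + 1)) F,
          (g : Matrix (Fin (m + 1)) (Fin (m + 1)) F) = 1 + vecMulVec (Pi.single 0 1) ρv :=
        ⟨Matrix.GeneralLinearGroup.mkOfDetNeZero _ (by rw [hdet]; exact hs0), rfl⟩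
      have hge : (g : Matrix (Fin (m + 1)) (Fin (m + 1)) F) *ᵥ Pi.single 0 1
          = s • Pi.single 0 1 := by
        rw [hg, add_mulVec, one_mulVec, vecMulVec_mulVec, hρ0]
        funext i
        simp only [Pi.add_apply, Pi.smul_apply, MulOpposite.smul_eq_mul_unop,
          MulOpposite.unop_op, smul_eq_mul]
        ring
      refine ⟨spEmb (m + 1) F g, fun a => s • ((g : Matrix (Fin (m + 1)) (Fin (m + 1)) F) *ᵥ a),
        fun a => spEmb_conj 0 g s hge a, ?_⟩
      intro a
      rw [dotChar_apply, hφ, ← hφ']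
      congr 1
      rw [dotProduct_smul, dotProduct_mulVec, hg, vecMul_add, vecMul_one, vecMul_vecMulVec,
        dotProduct_single, mul_one, hρv, smul_smul, mul_inv_cancel₀ hφ0, one_smul,
        add_sub_cancel, smul_dotProduct, smul_eq_mul, smul_eq_mul, ← mul_assoc,
        mul_inv_cancel₀ hs0, one_mul]

end Cfsg.Agent.S2393
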