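import Cfsg.Statements.S2394
-- import your own Cfsg.Agent.* helpers here
import Cfsg.Agent.S0245

set_option autoImplicit false
open scoped MatrixGroups
open Cfsg

namespace Cfsg.Agent.S2394

open Matrix

/-- For odd `q` and `k`, `q^(2k+1) + 1 = (q+1) S` with `S` odd. -/
theorem exists_odd_cofactor (q : ℤ) (hq : Odd q) (k : ℕ) :
    ∃ S : ℤ, Odd S ∧ q ^ (2 * k + 1) + 1 = (q + 1) * S := by
  induction k with
  | zero => exact ⟨1, odd_one, by ring⟩
  | succ k ih =>
    obtain ⟨S, hS, hE⟩ := ih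
    refine ⟨q ^ 2 * S - (q - 1), ?_, ?_⟩
    · apply Odd.sub_even
      · exact (hq.pow).mul hS
      · obtain ⟨t, ht⟩ := hq
        exact ⟨t, by rw [ht]; ring⟩
    · have : q ^ (2 * (k + 1) + 1) + 1 = q ^ 2 * (q ^ (2 * k + 1) + 1) - (q ^ 2 - 1) := by ring
      rw [this, hE]
      ring

/-- `q^n + 1` has an odd prime divisor for `q, n ≥ 2`. -/
theorem exists_odd_prime_dvd_pow_add_one (q n : ℕ) (hq : 2 ≤ q) (hn : 2 ≤ n) :
    ∃ r : ℕ, r.Prime ∧ r ≠ 2 ∧ r ∣ q ^ n + 1 := by
  by_contra hcon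
  push Not at hcon
  obtain ⟨s, hs⟩ : ∃ s, q ^ n + 1 = 2 ^ s :=
    ⟨_, Nat.eq_prime_pow_of_unique_prime_dvd (Nat.succ_ne_zero _) (fun {r} hr hrd => by
      by_contra h2
      exact hcon r hr h2 hrd)⟩
  have hqn : 4 ≤ q ^ n := by
    calc 4 = 2 ^ 2 := by norm_num
      _ ≤ q ^ 2 := Nat.pow_le_pow_left hq 2
      _ ≤ q ^ n := Nat.pow_le_pow_right (by omega) hn
  have hqn' : q < q ^ n := by
    calc q < q * q := by nlinarith
      _ = q ^ 2 := by ring
      _ ≤ q ^ n := Nat.pow_le_pow_right (by omega) hn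
  have hs2 : 2 ≤ s := by
    by_contra h
    push Not at h
    interval_cases s <;> omega
  have h4 : 4 ∣ q ^ n + 1 := by
    rw [hs]
    exact pow_dvd_pow 2 hs2
  rcases Nat.even_or_odd q with hqe | hqo
  · have h1 : Even (q ^ n) := Nat.even_pow.mpr ⟨hqe, by omega⟩
    obtain ⟨c, hc⟩ := h1
    obtain ⟨e, he⟩ := h4
    omega
  · rcases Nat.even_or_odd n with hne | hno
    · obtain ⟨k, hk⟩ := hne
      have hodd : Odd (q ^ k) := hqo.pow
      obtain ⟨t, ht⟩ := hodd
      have h1 : q ^ n = (2 * t + 1) * (2 * t + 1) := by rw [hk, pow_add, ht]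
      obtain ⟨c, hc⟩ := h4
      have h2 : (2 * t + 1) * (2 * t + 1) + 1 = 4 * (t * t + t) + 2 := by ring
      omega
    · obtain ⟨k, hk⟩ := hno
      obtain ⟨S, hS, hE⟩ := exists_odd_cofactor (q : ℤ) (by exact_mod_cast hqo) k
      rw [← hk] at hE
      have hE' : q ^ n + 1 = (q + 1) * S.natAbs := by
        have h1 := congrArg Int.natAbs hE
        rw [Int.natAbs_mul] at h1
        have h2 : ((q : ℤ) ^ n + 1).natAbs = q ^ n + 1 := by
          have : ((q : ℤ) ^ n + 1) = ((q ^ n + 1 : ℕ) : ℤ) := by push_cast; ring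
          rw [this, Int.natAbs_natCast]
        have h3 : ((q : ℤ) + 1).natAbs = q + 1 := by
          have : ((q : ℤ) + 1) = ((q + 1 : ℕ) : ℤ) := by push_cast; ring
          rw [this, Int.natAbs_natCast]
        rw [h2, h3] at h1
        exact h1
      have hSodd : Odd S.natAbs := Int.natAbs_odd.mpr hS
      have hSdvd : S.natAbs ∣ 2 ^ s := by
        rw [← hs, hE']
        exact dvd_mul_left _ _
      obtain ⟨u, _, hu⟩ := (Nat.dvd_prime_pow Nat.prime_two).mp hSdvd
      have hu0 : u = 0 := by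
        by_contra hne
        have : Even (2 ^ u) := (Nat.even_pow' hne).mpr even_two
        rw [← hu] at this
        exact (Nat.not_even_iff_odd.mpr hSodd) this
      rw [hu0, pow_zero] at hu
      rw [hu, mul_one] at hE'
      omega

/-- If `r ∣ q^n + 1` for an odd prime `r`, then `r ∤ q^j - 1` for odd `j`. -/
theorem not_dvd_pow_sub_one_of_odd (q n r : ℕ) (hq : 1 ≤ q) (hr : r.Prime) (hr2 : r ≠ 2)
    (hrd : r ∣ q ^ n + 1) (j : ℕ) (hj : Odd j) : ¬ r ∣ q ^ j - 1 := by
  intro h
  have : Fact r.Prime := ⟨hr⟩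
  have h1 : ((q : ZMod r)) ^ n = -1 := by
    have := (ZMod.natCast_eq_zero_iff (q ^ n + 1) r).mpr hrd
    push_cast at this
    exact eq_neg_of_add_eq_zero_left this
  have h2 : ((q : ZMod r)) ^ j = 1 := by
    have := (ZMod.natCast_eq_zero_iff (q ^ j - 1) r).mpr h
    rw [Nat.cast_sub (Nat.one_le_pow _ _ hq)] at this
    push_cast at this
    exact sub_eq_zero.mp this
  have h3 : ((q : ZMod r)) ^ (n * j) = -1 := by
    rw [pow_mul, h1, hj.neg_one_pow]
  have h4 : ((q : ZMod r)) ^ (n * j) = 1 := by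
    rw [mul_comm, pow_mul, h2, one_pow]
  have h7 : (1 : ZMod r) = -1 := h4.symm.trans h3
  have h5 : ((2 : ℕ) : ZMod r) = 0 := by
    push_cast
    linear_combination h7
  have h6 := (ZMod.natCast_eq_zero_iff 2 r).mp h5
  exact hr2 ((Nat.prime_dvd_prime_iff_eq hr Nat.prime_two).mp h6)

theorem sum_range_odd_zero (f : ℕ → ℕ) (hf : ∀ j, Odd j → f j = 0) (m : ℕ) :
    ∑ k ∈ Finset.range (2 * m + 1), f (k + 1) = ∑ i ∈ Finset.range m, f (2 * (i + 1)) := by
  induction m with
  | zero => simp [hf 1 odd_one]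
  | succ m ih =>
    rw [show 2 * (m + 1) + 1 = (2 * m + 1) + 1 + 1 by ring, Finset.sum_range_succ,
      Finset.sum_range_succ, ih, Finset.sum_range_succ]
    have h1 : f (2 * m + 1 + 1 + 1) = 0 := hf _ ⟨m + 1, by ring⟩
    rw [h1, add_zero]
    have h2 : 2 * m + 1 + 1 = 2 * (m + 1) := by ring
    rw [h2]

theorem factorization_card_GL_eq_sum (r : ℕ) (hr : r.Prime) (F : Type*) [Field F] [Fintype F]
    (d : ℕ) (hrq : ¬ r ∣ Fintype.card F) :
    (Nat.card (GL (Fin d) F)).factorization r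
      = ∑ k ∈ Finset.range d, ((Fintype.card F) ^ (k + 1) - 1).factorization r := by
  obtain ⟨q, hq⟩ : ∃ q, q = Fintype.card F := ⟨_, rfl⟩
  have hq2 : 2 ≤ q := by
    rw [hq]
    exact Fintype.one_lt_card
  rw [← hq] at hrq ⊢
  rw [Matrix.card_GL_field, ← hq]
  have hne : ∀ i ∈ (Finset.univ : Finset (Fin d)), q ^ d - q ^ (i : ℕ) ≠ 0 := by
    intro i _
    have : q ^ (i : ℕ) < q ^ d := Nat.pow_lt_pow_right (by omega) i.2
    omega
  rw [Nat.factorization_prod hne]
  simp only [Finsupp.coe_finsetSum, Finset.sum_apply]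
  have hterm : ∀ i : Fin d, (q ^ d - q ^ (i : ℕ)).factorization r
      = (q ^ ((d - 1 - (i : ℕ)) + 1) - 1).factorization r := by
    intro i
    have hi : (i : ℕ) < d := i.2
    have hsplit : q ^ d - q ^ (i : ℕ) = q ^ (i : ℕ) * (q ^ (d - (i : ℕ)) - 1) := by
      rw [Nat.mul_sub, mul_one, ← pow_add]
      congr 2
      omega
    have h1 : q ^ (i : ℕ) ≠ 0 := by positivity
    have h2 : q ^ (d - (i : ℕ)) - 1 ≠ 0 := by
      have : 2 ≤ q ^ (d - (i : ℕ)) := le_trans hq2 (Nat.le_self_pow (by omega) q)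
      omega
    rw [hsplit, Nat.factorization_mul h1 h2, Finsupp.add_apply]
    have h3 : (q ^ (i : ℕ)).factorization r = 0 := by
      rw [Nat.factorization_def _ hr]
      apply padicValNat.eq_zero_of_not_dvd
      intro hdvd
      exact hrq (hr.dvd_of_dvd_pow hdvd)
    rw [h3, zero_add]
    have : d - (i : ℕ) = d - 1 - (i : ℕ) + 1 := by omega
    rw [this]
  simp only [hterm]
  rw [Fin.sum_univ_eq_sum_range (fun i => (q ^ ((d - 1 - i) + 1) - 1).factorization r) d]
  rw [Finset.sum_range_reflect (fun k => (q ^ (k + 1) - 1).factorization r) d]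

theorem factorization_card_Sp_eq_sum (r : ℕ) (hr : r.Prime) (F : Type*) [Field F] [Fintype F]
    (n : ℕ) (hrq : ¬ r ∣ Fintype.card F) :
    (Nat.card (Matrix.symplecticGroup (Fin n) F)).factorization r
      = ∑ i ∈ Finset.range n, ((Fintype.card F) ^ (2 * (i + 1)) - 1).factorization r := by
  obtain ⟨q, hq⟩ : ∃ q, q = Fintype.card F := ⟨_, rfl⟩
  have hq2 : 2 ≤ q := by
    rw [hq]
    exact Fintype.one_lt_card
  rw [← hq] at hrq ⊢
  rw [Cfsg.Agent.S0245.result hq.symm n]
  have hne : ∀ i ∈ Finset.range n, q ^ (2 * (i + 1)) - 1 ≠ 0 := by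
    intro i _
    have : 2 ≤ q ^ (2 * (i + 1)) := le_trans hq2 (Nat.le_self_pow (by omega) q)
    omega
  have h1 : q ^ (n ^ 2) ≠ 0 := by positivity
  have h2 : ∏ i ∈ Finset.range n, (q ^ (2 * (i + 1)) - 1) ≠ 0 := Finset.prod_ne_zero_iff.mpr hne
  rw [Nat.factorization_mul h1 h2, Finsupp.add_apply, Nat.factorization_prod hne]
  simp only [Finsupp.coe_finsetSum, Finset.sum_apply]
  have h3 : (q ^ (n ^ 2)).factorization r = 0 := by
    rw [Nat.factorization_def _ hr]
    apply padicValNat.eq_zero_of_not_dvd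
    intro hdvd
    exact hrq (hr.dvd_of_dvd_pow hdvd)
  rw [h3, zero_add]

/-- Two explicit elements of `Sp_2(F)`. -/
def spA (F : Type*) [Field F] : Matrix (Fin 1 ⊕ Fin 1) (Fin 1 ⊕ Fin 1) F := fromBlocks 1 1 0 1

def spB (F : Type*) [Field F] : Matrix (Fin 1 ⊕ Fin 1) (Fin 1 ⊕ Fin 1) F := fromBlocks 1 0 1 1

theorem spA_mem (F : Type*) [Field F] : spA F ∈ Matrix.symplecticGroup (Fin 1) F := by
  rw [SymplecticGroup.mem_iff, spA, Matrix.J, fromBlocks_multiply, fromBlocks_transpose,
    fromBlocks_multiply]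
  simp

theorem spB_mem (F : Type*) [Field F] : spB F ∈ Matrix.symplecticGroup (Fin 1) F := by
  rw [SymplecticGroup.mem_iff, spB, Matrix.J, fromBlocks_multiply, fromBlocks_transpose,
    fromBlocks_multiply]
  simp

theorem spA_spB_ne (F : Type*) [Field F] : spA F * spB F ≠ spB F * spA F := by
  intro h
  have h1 := congrFun (congrFun h (Sum.inl 0)) (Sum.inl 0)
  rw [spA, spB, fromBlocks_multiply, fromBlocks_multiply] at h1
  simp at h1

/-- The smallest degree of a faithful representation of the symplectic group `Sp_{2n}(q)` over its own field `F_q` is `2n`: every injective homomorphism from `Sp_{2n}(F)` to `GL_d(F)`, `F` the field with `q` elements, has `d ≥ 2n`. -/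
theorem result {F : Type*} [Field F] [Fintype F] (n : ℕ) {d : ℕ}
    (ρ : ↥(Matrix.symplecticGroup (Fin n) F) →* GL (Fin d) F) (hρ : Function.Injective ρ) : 2 * n ≤ d := by
  classical
  by_contra hlt
  push Not at hlt
  rcases Nat.lt_or_ge n 2 with h1 | h2
  · have hn1 : n = 1 := by omega
    subst hn1
    have hd : d ≤ 1 := by omega
    have hsub : Subsingleton (Fin d) := Fin.subsingleton_iff_le_one.mpr hd
    have hcomm : ∀ x y : GL (Fin d) F, x * y = y * x := by
      intro x y
      apply Units.ext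
      rw [Units.val_mul, Units.val_mul]
      ext i j
      rw [Matrix.mul_apply, Matrix.mul_apply]
      apply Finset.sum_congr rfl
      intro k _
      rw [Subsingleton.elim i k, Subsingleton.elim j k, mul_comm]
    have h2 := hcomm (ρ ⟨spA F, spA_mem F⟩) (ρ ⟨spB F, spB_mem F⟩)
    rw [← map_mul, ← map_mul] at h2
    have h3 := congrArg Subtype.val (hρ h2)
    exact spA_spB_ne F h3
  · obtain ⟨r, hr, hr2, hrdvd⟩ :=
      exists_odd_prime_dvd_pow_add_one (Fintype.card F) n Fintype.one_lt_card h2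
    have hq2 : 2 ≤ Fintype.card F := Fintype.one_lt_card
    have hrq : ¬ r ∣ Fintype.card F := by
      intro h
      have h1 : r ∣ Fintype.card F ^ n := dvd_pow h (by omega)
      have h2 : r ∣ 1 := (Nat.dvd_add_right h1).mp hrdvd
      exact hr.one_lt.ne' (Nat.dvd_one.mp h2)
    have hdiv : Nat.card ↥(Matrix.symplecticGroup (Fin n) F) ∣ Nat.card (GL (Fin d) F) := by
      have := Subgroup.card_subgroup_dvd_card ρ.range
      rwa [← Nat.card_congr (MonoidHom.ofInjective hρ).toEquiv] at this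
    have hle := (Nat.factorization_le_iff_dvd Nat.card_pos.ne' Nat.card_pos.ne').mpr hdiv r
    rw [factorization_card_GL_eq_sum r hr F d hrq, factorization_card_Sp_eq_sum r hr F n hrq]
      at hle
    obtain ⟨f, hf⟩ : ∃ f : ℕ → ℕ, f = fun j => ((Fintype.card F) ^ j - 1).factorization r :=
      ⟨_, rfl⟩
    have hfodd : ∀ j, Odd j → f j = 0 := by
      intro j hj
      rw [hf]
      show ((Fintype.card F) ^ j - 1).factorization r = 0
      rw [Nat.factorization_def _ hr]
      apply padicValNat.eq_zero_of_not_dvd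
      exact not_dvd_pow_sub_one_of_odd (Fintype.card F) n r (by omega) hr hr2 hrdvd j hj
    have hle' : ∑ i ∈ Finset.range n, f (2 * (i + 1)) ≤ ∑ k ∈ Finset.range d, f (k + 1) := by
      rw [hf]
      exact hle
    have hmono : ∑ k ∈ Finset.range d, f (k + 1)
        ≤ ∑ k ∈ Finset.range (2 * (n - 1) + 1), f (k + 1) := by
      apply Finset.sum_le_sum_of_subset
      exact Finset.range_mono (by omega)
    rw [sum_range_odd_zero f hfodd (n - 1)] at hmono
    have hsplit : ∑ i ∈ Finset.range n, f (2 * (i + 1))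
        = ∑ i ∈ Finset.range (n - 1), f (2 * (i + 1)) + f (2 * n) := by
      have hn : n = (n - 1) + 1 := by omega
      nth_rewrite 1 [hn]
      rw [Finset.sum_range_succ]
      have : n - 1 + 1 = n := by omega
      rw [this]
    have hpos : 0 < f (2 * n) := by
      rw [hf]
      show 0 < ((Fintype.card F) ^ (2 * n) - 1).factorization r
      apply Nat.Prime.factorization_pos_of_dvd hr
      · have : 2 ≤ Fintype.card F ^ (2 * n) := le_trans hq2 (Nat.le_self_pow (by omega) _)
        omega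
      · have h1 : Fintype.card F ^ (2 * n) - 1
            = (Fintype.card F ^ n - 1) * (Fintype.card F ^ n + 1) := by
          have h2 : 1 ≤ Fintype.card F ^ n := Nat.one_le_pow _ _ (by omega)
          rw [two_mul, pow_add]
          obtain ⟨c, hc⟩ : ∃ c, Fintype.card F ^ n = c + 1 := ⟨Fintype.card F ^ n - 1, by omega⟩
          rw [hc]
          simp only [Nat.add_sub_cancel]
          have : (c + 1) * (c + 1) = c * (c + 1 + 1) + 1 := by ring
          rw [this, Nat.add_sub_cancel]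
        rw [h1]
        exact dvd_mul_of_dvd_right hrdvd _
    omega

end Cfsg.Agent.S2394
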