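import Cfsg.Statements.S2395
-- import your own Cfsg.Agent.* helpers here

set_option autoImplicit false
open Cfsg

namespace Cfsg.Agent.S2395

open Cfsg.Lie

section general

variable (D : ChevalleyDatum) (K : Type*) [Field K]

theorem scGen_add (r : ℕ) (t₁ t₂ : K) :
    D.scGen K r (t₁ + t₂) = D.scGen K r t₁ * D.scGen K r t₂ := by
  by_cases h : r < D.nroots
  · have hrel : D.stX r t₁ * D.stX r t₂ * (D.stX r (t₁ + t₂))⁻¹ ∈ D.steinbergRelsAB K :=
      Or.inl ⟨r, t₁, t₂, h, rfl⟩
    have h1 := PresentedGroup.one_of_mem hrel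
    rw [map_mul, map_mul, map_inv] at h1
    exact (mul_inv_eq_one.mp h1).symm
  · have h0 : ∀ t : K, D.scGen K r t = 1 := by
      intro t
      unfold ChevalleyDatum.scGen ChevalleyDatum.stX
      rw [dif_neg h]
      exact map_one _
    rw [h0, h0, h0, mul_one]

theorem scGen_zero (r : ℕ) : D.scGen K r 0 = 1 := by
  have h := scGen_add D K r 0 0
  rw [add_zero] at h
  exact (left_eq_mul.mp h)

theorem scGen_neg (r : ℕ) (t : K) : D.scGen K r (-t) = (D.scGen K r t)⁻¹ := by
  have h := scGen_add D K r (-t) t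
  rw [neg_add_cancel, scGen_zero] at h
  exact eq_inv_of_mul_eq_one_left h.symm

theorem mk_stWord (w : List (ℕ × K)) :
    PresentedGroup.mk (D.steinbergRelsAB K) (D.stWord w)
      = (w.map fun p => D.scGen K p.1 p.2).prod := by
  unfold ChevalleyDatum.stWord
  rw [map_list_prod, List.map_map]
  rfl

theorem comm_mem (r s : ℕ) (hr : r < D.nroots) (hs : s < D.nroots) (hsr : s ≠ r)
    (hsn : s ≠ D.neg r) (t u : K) :
    ((D.commWord K r s t u).map fun p => D.scGen K p.1 p.2).prod
      ∈ commutator (D.SteinbergCover K) := by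
  have hrel : (D.stX s u)⁻¹ * (D.stX r t)⁻¹ * D.stX s u * D.stX r t *
      (D.stWord (D.commWord K r s t u))⁻¹ ∈ D.steinbergRelsAB K :=
    Or.inr ⟨r, s, t, u, hr, hs, hsr, hsn, rfl⟩
  have h1 := PresentedGroup.one_of_mem hrel
  rw [map_mul, map_mul, map_mul, map_mul, map_inv, map_inv, map_inv, mk_stWord] at h1
  have h2 := mul_inv_eq_one.mp h1
  rw [← h2, commutator_def]
  have h3 := Subgroup.commutator_mem_commutator
    (Subgroup.mem_top ((PresentedGroup.mk (D.steinbergRelsAB K)) (D.stX s u))⁻¹)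
    (Subgroup.mem_top ((PresentedGroup.mk (D.steinbergRelsAB K)) (D.stX r t))⁻¹)
  rw [commutatorElement_def, inv_inv, inv_inv] at h3
  exact h3

theorem mem_of_single (r s k : ℕ) (C : ℤ) (hr : r < D.nroots) (hs : s < D.nroots) (hsr : s ≠ r)
    (hsn : s ≠ D.neg r) (hterms : D.commTerms r s = [(k, C, 1, 1)]) (hC : C = 1 ∨ C = -1)
    (c : K) : D.scGen K k c ∈ commutator (D.SteinbergCover K) := by
  have h := comm_mem D K r s hr hs hsr hsn (-(C : K) * c) 1
  unfold ChevalleyDatum.commWord at h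
  rw [hterms] at h
  simp only [List.map_cons, List.map_nil, List.prod_cons, List.prod_nil, mul_one, pow_one,
    one_pow] at h
  have e : (C : K) * -(-(C : K) * c) = c := by
    rcases hC with rfl | rfl <;> simp
  rw [e] at h
  exact h

theorem mem_of_double (r s k₁ k₂ : ℕ) (C₁ C₂ : ℤ) (rest : List (ℕ × ℤ × ℕ × ℕ))
    (hr : r < D.nroots) (hs : s < D.nroots) (hsr : s ≠ r) (hsn : s ≠ D.neg r)
    (hterms : D.commTerms r s = (k₁, C₁, 1, 1) :: (k₂, C₂, 2, 1) :: rest)
    (hrest : ∀ q ∈ rest, ∀ c : K, D.scGen K q.1 c ∈ commutator (D.SteinbergCover K))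
    (hC₁ : C₁ = 1 ∨ C₁ = -1) (hC₂ : C₂ = 1 ∨ C₂ = -1) (hK : ∃ x : K, x ≠ 0 ∧ x ≠ 1) (c : K) :
    D.scGen K k₁ c ∈ commutator (D.SteinbergCover K) ∧
      D.scGen K k₂ c ∈ commutator (D.SteinbergCover K) := by
  obtain ⟨t₀, ht0, ht1⟩ := hK
  -- the basic relation
  have hP : ∀ t u : K, D.scGen K k₁ ((C₁ : K) * (-t) * u) * D.scGen K k₂ ((C₂ : K) * (-t) ^ 2 * u)
      ∈ commutator (D.SteinbergCover K) := by
    intro t u
    have h := comm_mem D K r s hr hs hsr hsn t u
    unfold ChevalleyDatum.commWord at h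
    rw [hterms] at h
    simp only [List.map_cons, List.prod_cons, pow_one] at h
    have hrest' : ((rest.map fun c => (c.1, (c.2.1 : K) * (-t) ^ c.2.2.1 * u ^ c.2.2.2)).map
        fun p => D.scGen K p.1 p.2).prod ∈ commutator (D.SteinbergCover K) := by
      apply Subgroup.list_prod_mem
      intro x hx
      rw [List.mem_map] at hx
      obtain ⟨p, hp, rfl⟩ := hx
      rw [List.mem_map] at hp
      obtain ⟨q, hq, rfl⟩ := hp
      exact hrest q hq _
    rw [← mul_assoc] at h
    exact (Subgroup.mul_mem_cancel_right _ hrest').mp h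
  have hC₁' : (C₁ : K) * (C₁ : K) = 1 := by
    rcases hC₁ with rfl | rfl <;> simp
  have hC₂' : (C₂ : K) ≠ 0 := by
    rcases hC₂ with rfl | rfl <;> simp
  have h2 : ∀ c : K, D.scGen K k₂ c ∈ commutator (D.SteinbergCover K) := by
    intro c
    have hne : (C₂ : K) * (t₀ - t₀ ^ 2) ≠ 0 := by
      apply mul_ne_zero hC₂'
      have : t₀ - t₀ ^ 2 = t₀ * (1 - t₀) := by ring
      rw [this]
      exact mul_ne_zero ht0 (sub_ne_zero.mpr (Ne.symm ht1))
    obtain ⟨u, hu⟩ : ∃ u : K, (C₂ : K) * (t₀ - t₀ ^ 2) * u = c := ⟨c / ((C₂ : K) * (t₀ - t₀ ^ 2)), by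
      field_simp⟩
    have hA := hP t₀ u
    have hB := hP 1 (t₀ * u)
    have e1 : (C₁ : K) * (-1) * (t₀ * u) = (C₁ : K) * (-t₀) * u := by ring
    rw [e1] at hB
    have hAB := mul_mem (inv_mem hA) hB
    rw [_root_.mul_inv_rev, mul_assoc, inv_mul_cancel_left, ← scGen_neg, ← scGen_add] at hAB
    have e2 : -((C₂ : K) * (-t₀) ^ 2 * u) + (C₂ : K) * (-1) ^ 2 * (t₀ * u) = c := by
      rw [← hu]
      ring
    rw [e2] at hAB
    exact hAB
  refine ⟨?_, h2 c⟩
  have hA := hP 1 (-(C₁ : K) * c)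
  have hB := h2 ((C₂ : K) * (-1) ^ 2 * (-(C₁ : K) * c))
  have h3 := (Subgroup.mul_mem_cancel_right _ hB).mp hA
  have e : (C₁ : K) * (-1) * (-(C₁ : K) * c) = c := by
    calc (C₁ : K) * (-1) * (-(C₁ : K) * c) = ((C₁ : K) * (C₁ : K)) * c := by ring
      _ = c := by rw [hC₁', one_mul]
  rw [e] at h3
  exact h3

theorem commutator_eq_top_of_gens
    (h : ∀ r < D.nroots, ∀ t : K, D.scGen K r t ∈ commutator (D.SteinbergCover K)) :
    commutator (D.SteinbergCover K) = ⊤ := by
  rw [eq_top_iff, ← PresentedGroup.closure_range_of, Subgroup.closure_le]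
  rintro _ ⟨⟨r, t⟩, rfl⟩
  have h1 := h r.1 r.2 t
  have h2 : D.scGen K r.1 t = PresentedGroup.of (r, t) := by
    unfold ChevalleyDatum.scGen ChevalleyDatum.stX
    rw [dif_pos r.2]
    rfl
  rw [h2] at h1
  exact h1

/-- check of single-term commutator witnesses `(k, a, b)` -/
def chkS (D : ChevalleyDatum) (wit : List (ℕ × ℕ × ℕ)) : Bool :=
  wit.all fun w => decide (w.2.1 < D.nroots) && decide (w.2.2 < D.nroots) &&
    decide (w.2.2 ≠ w.2.1) && decide (w.2.2 ≠ D.neg w.2.1) &&
    (decide (D.commTerms w.2.1 w.2.2 = [(w.1, 1, 1, 1)]) ||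
      decide (D.commTerms w.2.1 w.2.2 = [(w.1, -1, 1, 1)]))

theorem dead_of_chkS (wit : List (ℕ × ℕ × ℕ)) (h : chkS D wit = true) :
    ∀ w ∈ wit, ∀ c : K, D.scGen K w.1 c ∈ commutator (D.SteinbergCover K) := by
  intro w hw c
  unfold chkS at h
  rw [List.all_eq_true] at h
  have h1 := h w hw
  simp only [Bool.and_eq_true, Bool.or_eq_true, decide_eq_true_eq] at h1
  obtain ⟨⟨⟨⟨ha, hb⟩, hba⟩, hbn⟩, hterm⟩ := h1
  rcases hterm with ht | ht
  · exact mem_of_single D K w.2.1 w.2.2 w.1 1 ha hb hba hbn ht (Or.inl rfl) c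
  · exact mem_of_single D K w.2.1 w.2.2 w.1 (-1) ha hb hba hbn ht (Or.inr rfl) c

theorem perfect_of_chkS (wit : List (ℕ × ℕ × ℕ)) (h : chkS D wit = true)
    (hall : wit.map (fun w => w.1) = List.range D.nroots) :
    commutator (D.SteinbergCover K) = ⊤ := by
  apply commutator_eq_top_of_gens
  intro r hr t
  have hmem : r ∈ wit.map (fun w => w.1) := by
    rw [hall]
    exact List.mem_range.mpr hr
  rw [List.mem_map] at hmem
  obtain ⟨w, hw, rfl⟩ := hmem
  exact dead_of_chkS D K wit h w hw t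

end general

def witD4 : List (ℕ × ℕ × ℕ) :=
  [(0, 1, 9), (1, 0, 14), (2, 0, 15), (3, 0, 16), (4, 0, 17), (5, 1, 17), (6, 0, 19), (7, 0, 20), (8, 0, 21), (9, 0, 22), (10, 1, 20), (11, 1, 21), (12, 2, 22), (13, 3, 22), (14, 1, 23), (15, 2, 23), (16, 3, 23), (17, 4, 23), (18, 6, 22), (19, 6, 23), (20, 7, 23), (21, 8, 23), (22, 9, 23), (23, 14, 22)]

def witF4 : List (ℕ × ℕ × ℕ) :=
  [(0, 1, 23), (1, 0, 24), (2, 0, 26), (3, 7, 14), (4, 0, 31), (5, 0, 32), (6, 1, 32), (7, 3, 33), (8, 3, 34), (9, 3, 35), (10, 3, 36), (11, 3, 37), (12, 3, 38), (13, 3, 39), (14, 3, 40), (15, 0, 42), (16, 0, 43), (17, 1, 43), (18, 7, 37), (19, 7, 38), (20, 7, 39), (21, 0, 45), (22, 1, 45), (23, 0, 46), (24, 1, 47), (25, 2, 46), (26, 2, 47), (27, 8, 40), (28, 9, 40), (29, 10, 40), (30, 4, 46), (31, 4, 47), (32, 5, 47), (33, 7, 44), (34, 8, 44), (35, 9, 44), (36, 10, 44), (37, 11, 44), (38, 12, 44), (39, 13, 44), (40, 14, 44), (41, 15, 46), (42, 15, 47), (43, 16, 47), (44, 33, 40), (45,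 21, 47), (46, 23, 47), (47, 24, 46)]

def witE6 : List (ℕ × ℕ × ℕ) :=
  [(0, 1, 25), (1, 0, 46), (2, 0, 47), (3, 0, 48), (4, 0, 49), (5, 0, 50), (6, 0, 51), (7, 0, 52), (8, 0, 53), (9, 0, 54), (10, 0, 55), (11, 1, 53), (12, 1, 54), (13, 1, 55), (14, 2, 55), (15, 5, 55), (16, 0, 61), (17, 0, 62), (18, 0, 63), (19, 0, 64), (20, 0, 65), (21, 0, 66), (22, 0, 67), (23, 0, 68), (24, 0, 69), (25, 0, 70), (26, 1, 64), (27, 1, 65), (28, 1, 66), (29, 2, 66), (30, 1, 67), (31, 1, 68), (32, 1, 69), (33, 2, 67), (34, 2, 68), (35, 3, 67), (36, 4, 68), (37, 3, 69), (38, 4, 69), (39, 2, 70), (40, 3, 70), (41, 4, 70), (42, 5, 69), (43, 5, 70), (44, 6, 70), (45, 7, 70), (46, 1, 71), (47, 2, 71), (48, 3, 71), (49, 4, 71), (50, 5, 71), (51, 6, 71), (52, 7, 71), (53, 8, 71), (54, 9, 71), (55, 10, 71), (56, 16, 66), (57, 16, 69), (58, 16, 70), (59, 17, 70), (60, 18, 70), (61, 16, 71), (62, 17, 71), (63, 18, 71), (64, 19, 71), (65, 20, 71), (66, 21, 71), (67, 22, 71), (68, 23, 71),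 (69, 24, 71), (70, 25, 71), (71, 46, 70)]

def witE7 : List (ℕ × ℕ × ℕ) :=
  [(0, 1, 32), (1, 0, 93), (2, 0, 94), (3, 0, 95), (4, 0, 96), (5, 0, 97), (6, 0, 98), (7, 0, 99), (8, 0, 100), (9, 0, 101), (10, 0, 102), (11, 0, 103), (12, 0, 104), (13, 0, 105), (14, 0, 106), (15, 0, 107), (16, 0, 108), (17, 0, 109), (18, 0, 110), (19, 0, 111), (20, 0, 112), (21, 0, 113), (22, 0, 114), (23, 0, 115), (24, 0, 116), (25, 0, 117), (26, 0, 118), (27, 0, 119), (28, 0, 120), (29, 0, 121), (30, 0, 122), (31, 0, 123), (32, 0, 124), (33, 1, 109), (34, 1, 110), (35, 1, 111), (36, 1, 112), (37, 1, 113), (38, 1, 114), (39, 1, 115), (40, 1, 116), (41, 1, 117), (42, 1, 118), (43, 2, 115), (44, 2, 116), (45, 2, 117), (46, 2, 118), (47, 3, 118), (48, 1, 119), (49, 1, 120), (50, 1, 121), (51, 1, 122), (52, 1, 123), (53, 2, 119), (54, 2, 120), (55, 2, 121), (56, 2, 122), (57, 3, 119), (58, 3, 120), (59, 3, 121), (60, 4, 119), (61, 4, 120), (62, 5, 119), (63, 6, 120), (64, 5, 121), (65,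 6, 121), (66, 4, 122), (67, 5, 122), (68, 6, 122), (69, 3, 123), (70, 4, 123), (71, 5, 123), (72, 6, 123), (73, 2, 124), (74, 3, 124), (75, 4, 124), (76, 5, 124), (77, 6, 124), (78, 7, 122), (79, 7, 123), (80, 8, 123), (81, 9, 123), (82, 10, 123), (83, 7, 124), (84, 8, 124), (85, 9, 124), (86, 10, 124), (87, 11, 124), (88, 12, 124), (89, 13, 124), (90, 14, 124), (91, 15, 124), (92, 16, 124), (93, 1, 125), (94, 2, 125), (95, 3, 125), (96, 4, 125), (97, 5, 125), (98, 6, 125), (99, 7, 125), (100, 8, 125), (101, 9, 125), (102, 10, 125), (103, 11, 125), (104, 12, 125), (105, 13, 125), (106, 14, 125), (107, 15, 125), (108, 16, 125), (109, 17, 125), (110, 18, 125), (111, 19, 125), (112, 20, 125), (113, 21, 125), (114, 22, 125), (115, 23, 125), (116, 24, 125), (117, 25, 125), (118, 26, 125), (119, 27, 125), (120, 28, 125), (121, 29, 125), (122, 30, 125), (123, 31, 125), (124, 32, 125), (125, 93, 124)]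

def witE8 : List (ℕ × ℕ × ℕ) :=
  [(0, 1, 119), (1, 0, 120), (2, 0, 122), (3, 0, 125), (4, 0, 129), (5, 0, 134), (6, 0, 140), (7, 0, 146), (8, 0, 151), (9, 0, 155), (10, 0, 158), (11, 0, 160), (12, 0, 161), (13, 1, 161), (14, 0, 168), (15, 0, 173), (16, 0, 177), (17, 0, 180), (18, 0, 182), (19, 0, 183), (20, 1, 183), (21, 0, 187), (22, 0, 190), (23, 0, 192), (24, 0, 193), (25, 1, 193), (26, 0, 196), (27, 0, 198), (28, 0, 199), (29, 1, 199), (30, 0, 201), (31, 0, 202), (32, 1, 202), (33, 0, 203), (34, 1, 203), (35, 2, 203), (36, 0, 206), (37, 0, 208), (38, 0, 209), (39, 1, 209), (40, 0, 211), (41, 0, 212), (42, 1, 212), (43, 0, 213), (44, 1, 213), (45, 2, 213), (46, 0, 215), (47, 0, 216), (48, 1, 216), (49, 0, 217), (50, 1, 217), (51, 2, 217), (52, 0, 218), (53, 1, 218), (54, 2, 218), (55, 3, 218), (56, 0, 220), (57, 0, 221), (58, 1, 221), (59, 0, 222), (60, 1, 222), (61, 2, 222), (62, 0, 223), (63, 1, 223), (64, 2, 223), (65, 3, 223), (66, 0, 224), (67, 1, 224),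 (68, 2, 224), (69, 3, 224), (70, 4, 224), (71, 0, 225), (72, 1, 225), (73, 2, 225), (74, 3, 225), (75, 4, 225), (76, 5, 225), (77, 6, 225), (78, 0, 227), (79, 0, 228), (80, 1, 228), (81, 0, 229), (82, 1, 229), (83, 2, 229), (84, 0, 230), (85, 1, 230), (86, 2, 230), (87, 3, 230), (88, 0, 231), (89, 1, 231), (90, 2, 231), (91, 3, 231), (92, 4, 231), (93, 0, 232), (94, 1, 232), (95, 2, 232), (96, 3, 232), (97, 4, 232), (98, 5, 232), (99, 0, 233), (100, 1, 233), (101, 2, 233), (102, 3, 233), (103, 4, 233), (104, 5, 233), (105, 0, 234), (106, 1, 234), (107, 2, 234), (108, 3, 234), (109, 4, 234), (110, 0, 235), (111, 1, 235), (112, 2, 235), (113, 3, 235), (114, 0, 236), (115, 1, 236), (116, 2, 236), (117, 0, 237), (118, 1, 237), (119, 0, 238), (120, 1, 239), (121, 2, 238), (122, 2, 239), (123, 3, 237), (124, 3, 238), (125, 3, 239), (126, 4, 236), (127, 4, 237), (128, 4, 238), (129, 4, 239), (130, 5, 235), (131, 5, 236), (132, 5, 237), (133, 5, 238), (134, 5, 239), (135,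 6, 234), (136, 6, 235), (137, 6, 236), (138, 6, 237), (139, 6, 238), (140, 6, 239), (141, 7, 234), (142, 7, 235), (143, 7, 236), (144, 7, 237), (145, 7, 238), (146, 7, 239), (147, 8, 235), (148, 8, 236), (149, 8, 237), (150, 8, 238), (151, 8, 239), (152, 9, 236), (153, 9, 237), (154, 9, 238), (155, 9, 239), (156, 10, 237), (157, 10, 238), (158, 10, 239), (159, 11, 238), (160, 11, 239), (161, 12, 239), (162, 14, 233), (163, 14, 234), (164, 14, 235), (165, 14, 236), (166, 14, 237), (167, 14, 238), (168, 14, 239), (169, 15, 235), (170, 15, 236), (171, 15, 237), (172, 15, 238), (173, 15, 239), (174, 16, 236), (175, 16, 237), (176, 16, 238), (177, 16, 239), (178, 17, 237), (179, 17, 238), (180, 17, 239), (181, 18, 238), (182, 18, 239), (183, 19, 239), (184, 21, 236), (185, 21, 237), (186, 21, 238), (187, 21, 239), (188, 22, 237), (189, 22, 238), (190, 22, 239), (191, 23, 238), (192, 23, 239), (193, 24, 239), (194, 26, 237), (195, 26, 238), (196, 26, 239), (197, 27,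 238), (198, 27, 239), (199, 28, 239), (200, 30, 238), (201, 30, 239), (202, 31, 239), (203, 33, 239), (204, 36, 237), (205, 36, 238), (206, 36, 239), (207, 37, 238), (208, 37, 239), (209, 38, 239), (210, 40, 238), (211, 40, 239), (212, 41, 239), (213, 43, 239), (214, 46, 238), (215, 46, 239), (216, 47, 239), (217, 49, 239), (218, 52, 239), (219, 56, 238), (220, 56, 239), (221, 57, 239), (222, 59, 239), (223, 62, 239), (224, 66, 239), (225, 71, 239), (226, 78, 238), (227, 78, 239), (228, 79, 239), (229, 81, 239), (230, 84, 239), (231, 88, 239), (232, 93, 239), (233, 99, 239), (234, 105, 239), (235, 110, 239), (236, 114, 239), (237, 117, 239), (238, 119, 239), (239, 120, 238)]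


theorem chk_D4 : chkS chevD4 witD4 = true := by decide +kernel
theorem all_D4 : witD4.map (fun w => w.1) = List.range chevD4.nroots := by decide +kernel
theorem chk_F4 : chkS chevF4 witF4 = true := by decide +kernel
theorem all_F4 : witF4.map (fun w => w.1) = List.range chevF4.nroots := by decide +kernel
theorem chk_E6 : chkS chevE6 witE6 = true := by decide +kernel
theorem all_E6 : witE6.map (fun w => w.1) = List.range chevE6.nroots := by decide +kernel
theorem chk_E7 : chkS chevE7 witE7 = true := by decide +kernel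
theorem all_E7 : witE7.map (fun w => w.1) = List.range chevE7.nroots := by decide +kernel
theorem chk_E8 : chkS chevE8 witE8 = true := by decide +kernel
theorem all_E8 : witE8.map (fun w => w.1) = List.range chevE8.nroots := by decide +kernel

theorem perfect_B2 (K : Type*) [Field K] (hK : ∃ x : K, x ≠ 0 ∧ x ≠ 1) :
    commutator (chevB2.SteinbergCover K) = ⊤ := by
  have h14 := mem_of_double chevB2 K 1 4 2 0 1 1 [] (by decide) (by decide) (by decide) (by decide)
    (by decide +kernel) (by simp) (Or.inl rfl) (Or.inl rfl) hK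
  have h17 := mem_of_double chevB2 K 1 7 5 3 (-1) 1 [] (by decide) (by decide) (by decide)
    (by decide) (by decide +kernel) (by simp) (Or.inr rfl) (Or.inl rfl) hK
  have h23 := mem_of_double chevB2 K 2 3 1 0 1 (-1) [] (by decide) (by decide) (by decide)
    (by decide) (by decide +kernel) (by simp) (Or.inl rfl) (Or.inr rfl) hK
  have h27 := mem_of_double chevB2 K 2 7 6 4 1 (-1) [] (by decide) (by decide) (by decide)
    (by decide) (by decide +kernel) (by simp) (Or.inl rfl) (Or.inr rfl) hK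
  have h54 := mem_of_double chevB2 K 5 4 6 7 (-1) (-1) [] (by decide) (by decide) (by decide)
    (by decide) (by decide +kernel) (by simp) (Or.inr rfl) (Or.inr rfl) hK
  apply commutator_eq_top_of_gens
  intro r hr t
  have hr' : r < 8 := hr
  interval_cases r
  · exact (h14 t).2
  · exact (h23 t).1
  · exact (h14 t).1
  · exact (h17 t).2
  · exact (h27 t).2
  · exact (h17 t).1
  · exact (h27 t).1
  · exact (h54 t).2

theorem perfect_G2 (K : Type*) [Field K] (hK : ∃ x : K, x ≠ 0 ∧ x ≠ 1) :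
    commutator (chevG2.SteinbergCover K) = ⊤ := by
  have hlong := dead_of_chkS chevG2 K
    [(0, 1, 5), (1, 0, 6), (5, 0, 10), (6, 1, 11), (10, 5, 11), (11, 6, 10)] (by decide +kernel)
  have d0 : ∀ c : K, chevG2.scGen K 0 c ∈ commutator (chevG2.SteinbergCover K) :=
    hlong (0, 1, 5) (by simp)
  have d1 : ∀ c : K, chevG2.scGen K 1 c ∈ commutator (chevG2.SteinbergCover K) :=
    hlong (1, 0, 6) (by simp)
  have d5 : ∀ c : K, chevG2.scGen K 5 c ∈ commutator (chevG2.SteinbergCover K) :=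
    hlong (5, 0, 10) (by simp)
  have d6 : ∀ c : K, chevG2.scGen K 6 c ∈ commutator (chevG2.SteinbergCover K) :=
    hlong (6, 1, 11) (by simp)
  have d10 : ∀ c : K, chevG2.scGen K 10 c ∈ commutator (chevG2.SteinbergCover K) :=
    hlong (10, 5, 11) (by simp)
  have d11 : ∀ c : K, chevG2.scGen K 11 c ∈ commutator (chevG2.SteinbergCover K) :=
    hlong (11, 6, 10) (by simp)
  have h210 := mem_of_double chevG2 K 2 10 7 3 (-1) 1 [(0, 1, 3, 1), (5, 1, 3, 2)] (by decide)
    (by decide) (by decide) (by decide) (by decide +kernel)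
    (by
      intro q hq
      simp only [List.mem_cons, List.mem_nil_iff, or_false] at hq
      rcases hq with rfl | rfl
      · exact d0
      · exact d5) (Or.inr rfl) (Or.inl rfl) hK
  have h211 := mem_of_double chevG2 K 2 11 8 4 (-1) (-1) [(1, -1, 3, 1), (6, -1, 3, 2)] (by decide)
    (by decide) (by decide) (by decide) (by decide +kernel)
    (by
      intro q hq
      simp only [List.mem_cons, List.mem_nil_iff, or_false] at hq
      rcases hq with rfl | rfl
      · exact d1
      · exact d6) (Or.inr rfl) (Or.inr rfl) hK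
  have h36 := mem_of_double chevG2 K 3 6 4 2 1 (-1) [(0, 1, 3, 1), (1, -1, 3, 2)] (by decide)
    (by decide) (by decide) (by decide) (by decide +kernel)
    (by
      intro q hq
      simp only [List.mem_cons, List.mem_nil_iff, or_false] at hq
      rcases hq with rfl | rfl
      · exact d0
      · exact d1) (Or.inl rfl) (Or.inr rfl) hK
  have h311 := mem_of_double chevG2 K 3 11 9 7 1 1 [(5, -1, 3, 1), (10, 1, 3, 2)] (by decide)
    (by decide) (by decide) (by decide) (by decide +kernel)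
    (by
      intro q hq
      simp only [List.mem_cons, List.mem_nil_iff, or_false] at hq
      rcases hq with rfl | rfl
      · exact d5
      · exact d10) (Or.inl rfl) (Or.inl rfl) hK
  apply commutator_eq_top_of_gens
  intro r hr t
  have hr' : r < 12 := hr
  interval_cases r
  · exact d0 t
  · exact d1 t
  · exact (h36 t).2
  · exact (h210 t).2
  · exact (h211 t).2
  · exact d5 t
  · exact d6 t
  · exact (h210 t).1
  · exact (h211 t).1
  · exact (h311 t).1
  · exact d10 t
  · exact d11 t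

/-- The group presented by Steinberg's generators x̄_r(t) subject only to (R1) (additivity) and (R2) (the commutator formula) is perfect, for each of the types G₂, B₂, D₄, F₄, E₆, E₇, E₈ over any field (for types B₂ and G₂ the field must have more than two elements — the cases where the Chevalley group is not simple are set aside). -/
theorem result {K : Type*} [Field K] (D : Cfsg.Lie.ChevalleyDatum) (hD : D ∈ [Cfsg.Lie.chevG2, Cfsg.Lie.chevB2, Cfsg.Lie.chevD4, Cfsg.Lie.chevF4, Cfsg.Lie.chevE6, Cfsg.Lie.chevE7, Cfsg.Lie.chevE8]) (hK : D ∈ [Cfsg.Lie.chevB2, Cfsg.Lie.chevG2] → ∃ x : K, x ≠ 0 ∧ x ≠ 1) :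
    commutator (D.SteinbergCover K) = ⊤ := by
  simp only [List.mem_cons, List.mem_nil_iff, or_false] at hD
  rcases hD with rfl | rfl | rfl | rfl | rfl | rfl | rfl
  · exact perfect_G2 K (hK (by simp))
  · exact perfect_B2 K (hK (by simp))
  · exact perfect_of_chkS chevD4 K witD4 chk_D4 all_D4
  · exact perfect_of_chkS chevF4 K witF4 chk_F4 all_F4
  · exact perfect_of_chkS chevE6 K witE6 chk_E6 all_E6
  · exact perfect_of_chkS chevE7 K witE7 chk_E7 all_E7
  · exact perfect_of_chkS chevE8 K witE8 chk_E8 all_E8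

end Cfsg.Agent.S2395
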