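import Cfsg.Statements.S2402
-- import your own Cfsg.Agent.* helpers here
import Cfsg.Agent.Lib.Helper47.SLGen

set_option autoImplicit false
open Cfsg

namespace Cfsg.Agent.S2402

open Matrix Matrix.SpecialLinearGroup Cfsg.Agent.Lib.Helper47

theorem diag_conj_transvection {ι F : Type*} [Fintype ι] [DecidableEq ι] [Field F]
    (g : SpecialLinearGroup ι F) (d : ι → F) (hg : g.1 = Matrix.diagonal d) {i j : ι}
    (hij : i ≠ j) (hj : d j ≠ 0) (c : F) :
    g * transvection hij c * g⁻¹ = transvection hij (d i * c * (d j)⁻¹) := by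
  rw [mul_inv_eq_iff_eq_mul]
  apply Subtype.ext
  simp only [coe_mul, transvection_coe, hg, mul_add, add_mul, mul_one, one_mul]
  congr 1
  ext a b
  rw [Matrix.diagonal_mul, Matrix.mul_diagonal]
  simp only [Matrix.single_apply]
  by_cases h1 : i = a ∧ j = b
  · obtain ⟨rfl, rfl⟩ := h1
    simp
    field_simp
  · simp [h1]

theorem cyc_conj_diag {F : Type*} [Field F] {n : ℕ} (w h : SpecialLinearGroup (Fin (n + 1)) F)
    (hw : w.1 = cycMat F n) (d : Fin (n + 1) → F) (hh : h.1 = Matrix.diagonal d) :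
    (w * h * w⁻¹).1 = Matrix.diagonal (fun a => d (a + 1)) := by
  have e1 : (w * h * w⁻¹).1 * w.1 = Matrix.diagonal (fun a => d (a + 1)) * w.1 := by
    rw [← coe_mul, inv_mul_cancel_right, coe_mul, hw, hh, cycMat_mul_diagonal]
  have e2 : (w * h * w⁻¹).1 * w.1 * (w⁻¹).1 =
      Matrix.diagonal (fun a => d (a + 1)) * w.1 * (w⁻¹).1 := by rw [e1]
  rw [Matrix.mul_assoc, Matrix.mul_assoc, ← coe_mul w w⁻¹, mul_inv_cancel, coe_one, Matrix.mul_one,
    Matrix.mul_one] at e2
  exact e2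

theorem exists_sq_sub_sq {K : Type*} [Field K] [Fintype K] (b : K) :
    ∃ u v : K, b = u * u - v * v := by
  by_cases h2 : ringChar K = 2
  · obtain ⟨r, hr⟩ := FiniteField.isSquare_of_char_two h2 b
    exact ⟨r, 0, by rw [hr]; ring⟩
  · have h2' : (2 : K) ≠ 0 := Ring.two_ne_zero h2
    refine ⟨(b + 1) / 2, (b - 1) / 2, ?_⟩
    field_simp
    ring

/-- abstract commutator computation -/
theorem comm_calc {G K : Type*} [Group G] [Field K] (t : K → G)
    (hadd : ∀ a b : K, t (a + b) = t a * t b) (h h' x : G) (k e₁ e₂ : K)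
    (F1 : ∀ c : K, h * t c * h⁻¹ = t (k * c * k))
    (F2 : ∀ c : K, h' * t c * h'⁻¹ = t (e₁ * c * e₂))
    (F3 : h * h' * h⁻¹ = h') (hx : x = t 1) (hxi : x⁻¹ = t (-1)) :
    h * (x * h' * x⁻¹) * h⁻¹ * (x * h' * x⁻¹)⁻¹ =
      t (k * 1 * k + e₁ * (k * (-1) * k + 1) * e₂ + (-1)) := by
  have e1 : h * (x * h' * x⁻¹) * h⁻¹ * (x * h' * x⁻¹)⁻¹ =
      (h * x * h⁻¹) * (h * h' * h⁻¹) * (h * x⁻¹ * h⁻¹) * x * h'⁻¹ * x⁻¹ := by group
  rw [e1, F3, hxi, hx, F1, F1]
  have e2 : t (k * 1 * k) * h' * t (k * (-1) * k) * t 1 * h'⁻¹ * t (-1) =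
      t (k * 1 * k) * (h' * (t (k * (-1) * k) * t 1) * h'⁻¹) * t (-1) := by group
  rw [e2, ← hadd, F2, ← hadd, ← hadd]

/-- abstract generation of a root subgroup -/
theorem root_gen {G K : Type*} [Group G] [Field K] [Fintype K] (t : K → G)
    (hadd : ∀ a b : K, t (a + b) = t a * t b) (G0 : Subgroup G) (h : G) (hh : h ∈ G0) (k : Kˣ)
    (hk : ∀ u : Kˣ, u ∈ Subgroup.zpowers k)
    (F1 : ∀ c : K, h * t c * h⁻¹ = t (k * c * k)) (c₀ : K) (hc₀ : c₀ ≠ 0) (S1 : t c₀ ∈ G0) :
    ∀ c : K, t c ∈ G0 := by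
  have hk0 : (k : K) ≠ 0 := k.ne_zero
  have ht0 : t 0 = 1 := by
    have := hadd 0 0
    rw [add_zero] at this
    exact (mul_eq_left.mp this.symm)
  have S2 : ∀ a b : K, t a ∈ G0 → t b ∈ G0 → t (a + b) ∈ G0 := by
    intro a b ha hb
    rw [hadd]
    exact mul_mem ha hb
  have S2' : ∀ a : K, t a ∈ G0 → t (-a) ∈ G0 := by
    intro a ha
    have : t (-a) = (t a)⁻¹ := by
      rw [eq_inv_iff_mul_eq_one, ← hadd, neg_add_cancel, ht0]
    rw [this]
    exact inv_mem ha
  have S3 : ∀ c : K, t c ∈ G0 → t (k * c * k) ∈ G0 := by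
    intro c hc
    rw [← F1]
    exact mul_mem (mul_mem hh hc) (inv_mem hh)
  have S4 : ∀ c : K, t c ∈ G0 → t ((k : K)⁻¹ * c * (k : K)⁻¹) ∈ G0 := by
    intro c hc
    have e := F1 ((k : K)⁻¹ * c * (k : K)⁻¹)
    have e' : (k : K) * ((k : K)⁻¹ * c * (k : K)⁻¹) * k = c := by field_simp
    rw [e'] at e
    have : t ((k : K)⁻¹ * c * (k : K)⁻¹) = h⁻¹ * t c * h := by
      rw [← e]; group
    rw [this]
    exact mul_mem (mul_mem (inv_mem hh) hc) hh
  have S5 : ∀ z : ℤ, ∀ c : K, t c ∈ G0 →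
      t (((k ^ z : Kˣ) : K) * c * ((k ^ z : Kˣ) : K)) ∈ G0 := by
    intro z
    induction z using Int.induction_on with
    | zero => intro c hc; simpa using hc
    | succ i ih =>
      intro c hc
      have := S3 _ (ih c hc)
      have e : ((k ^ ((i : ℤ) + 1) : Kˣ) : K) = k * ((k ^ (i : ℤ) : Kˣ) : K) := by
        rw [_root_.zpow_add_one, Units.val_mul, mul_comm]
      rw [e]
      have e3 : (k : K) * ((k ^ (i : ℤ) : Kˣ) : K) * c * (k * ((k ^ (i : ℤ) : Kˣ) : K)) =
          k * (((k ^ (i : ℤ) : Kˣ) : K) * c * ((k ^ (i : ℤ) : Kˣ) : K)) * k := by ring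
      rw [e3]
      exact this
    | pred i ih =>
      intro c hc
      have := S4 _ (ih c hc)
      have e : ((k ^ (-(i : ℤ) - 1) : Kˣ) : K) = (k : K)⁻¹ * ((k ^ (-(i : ℤ)) : Kˣ) : K) := by
        rw [_root_.zpow_sub_one, Units.val_mul, Units.val_inv_eq_inv_val, mul_comm]
      rw [e]
      have e3 : (k : K)⁻¹ * ((k ^ (-(i : ℤ)) : Kˣ) : K) * c * ((k : K)⁻¹ * ((k ^ (-(i : ℤ)) : Kˣ) : K)) =
          (k : K)⁻¹ * (((k ^ (-(i : ℤ)) : Kˣ) : K) * c * ((k ^ (-(i : ℤ)) : Kˣ) : K)) * (k : K)⁻¹ := by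
        ring
      rw [e3]
      exact this
  have S6 : ∀ a c : K, t c ∈ G0 → t (a * c * a) ∈ G0 := by
    intro a c hc
    by_cases ha : a = 0
    · subst ha
      rw [zero_mul, zero_mul, ht0]
      exact one_mem _
    · obtain ⟨z, hz⟩ := Subgroup.mem_zpowers_iff.mp (hk (Units.mk0 a ha))
      have := S5 z c hc
      rw [hz] at this
      simpa using this
  intro c
  obtain ⟨u, v, huv⟩ := exists_sq_sub_sq (c / c₀)
  have e : c = u * c₀ * u + -(v * c₀ * v) := by
    have : c = (c / c₀) * c₀ := by field_simp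
    rw [this, huv]
    ring
  rw [e]
  exact S2 _ _ (S6 u c₀ S1) (S2' _ (S6 v c₀ S1))

/-- Explicit two-element generation of `PSL_{n+1}(K)` for a finite field `K` with more than three elements: let `k` generate the multiplicative group of `K`, `h = diag(k, k⁻¹, 1, …, 1)`, `x = 1 + E₁₂` (the elementary transvection) and `w` the monomial matrix with entries `1` in positions `(i, i+1)` and `(−1)^n` in position `(n+1, 1)`. Then `h` and `x·w` generate `SL_{n+1}(K)` modulo its centre: the subgroup they generate together with the centre is everything. -/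
theorem result {K : Type*} [Field K] [Fintype K] (hK : 3 < Fintype.card K) (n : ℕ) (hn : 1 ≤ n)
    (k : Kˣ) (hk : ∀ u : Kˣ, u ∈ Subgroup.zpowers k)
    (h x w : Matrix.SpecialLinearGroup (Fin (n + 1)) K)
    (hh : (h : Matrix (Fin (n + 1)) (Fin (n + 1)) K) =
      Matrix.diagonal (fun i => if i.val = 0 then (k : K) else if i.val = 1 then ((k⁻¹ : Kˣ) : K) else 1))
    (hx : (x : Matrix (Fin (n + 1)) (Fin (n + 1)) K) = Matrix.transvection (0 : Fin (n + 1)) (1 : Fin (n + 1)) 1)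
    (hw : (w : Matrix (Fin (n + 1)) (Fin (n + 1)) K) =
      Matrix.of (fun i j => if j.val = i.val + 1 then 1 else if i.val = n ∧ j.val = 0 then (-1) ^ n else 0)) :
    Subgroup.closure ({h, x * w} : Set (Matrix.SpecialLinearGroup (Fin (n + 1)) K)) ⊔
      Subgroup.center (Matrix.SpecialLinearGroup (Fin (n + 1)) K) = ⊤ := by
  classical
  obtain ⟨n', rfl⟩ := Nat.exists_eq_succ_of_ne_zero (by omega : n ≠ 0)
  obtain ⟨G0, hG0⟩ : ∃ G0, G0 = Subgroup.closure
    ({h, x * w} : Set (Matrix.SpecialLinearGroup (Fin (n' + 1 + 1)) K)) := ⟨_, rfl⟩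
  rw [← hG0]
  have hhG : h ∈ G0 := by rw [hG0]; exact Subgroup.subset_closure (by simp)
  have hyG : x * w ∈ G0 := by rw [hG0]; exact Subgroup.subset_closure (by simp)
  have h01 : (0 : Fin (n' + 1 + 1)) ≠ 1 := by simp
  obtain ⟨d, hd⟩ : ∃ d : Fin (n' + 1 + 1) → K, d =
    fun i : Fin (n' + 1 + 1) => if i.val = 0 then (k : K) else if i.val = 1 then ((k⁻¹ : Kˣ) : K) else 1 :=
    ⟨_, rfl⟩
  rw [← hd] at hh
  have hk0 : (k : K) ≠ 0 := k.ne_zero
  have hd0 : d 0 = k := by simp [hd]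
  have hd1 : d 1 = (k : K)⁻¹ := by simp [hd]
  have hval : (1 + 1 : Fin (n' + 1 + 1)).val ≠ 1 := by
    rw [Fin.val_add]
    simp only [Fin.val_one]
    rcases n' with _ | n''
    · simp
    · rw [Nat.mod_eq_of_lt (by omega)]
      omega
  have hd2 : d (1 + 1) = k ∨ d (1 + 1) = 1 := by
    rw [hd]
    simp only [hval, if_false]
    split_ifs
    · left; rfl
    · right; rfl
  -- order of k
  have hord : orderOf k = Fintype.card K - 1 := by
    rw [orderOf_eq_card_of_forall_mem_zpowers hk, Nat.card_eq_fintype_card, Fintype.card_units]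
  have hk2 : (k : K) * k ≠ 1 := by
    intro h1
    have : k ^ 2 = 1 := by
      apply Units.ext
      rw [Units.val_pow_eq_pow_val, pow_two, h1]
      rfl
    have := orderOf_dvd_of_pow_eq_one this
    have := Nat.le_of_dvd (by norm_num) this
    omega
  have hk1 : (k : K) ≠ 1 := by
    intro h1
    apply hk2
    rw [h1, mul_one]
  have hadd : ∀ a b : K, transvection h01 (a + b) = transvection h01 a * transvection h01 b :=
    fun a b => transvection_add h01 a b
  have hx1 : x = transvection h01 1 := Subtype.ext (by rw [hx]; rfl)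
  have hxinv : x⁻¹ = transvection h01 (-1) := by rw [hx1]; exact transvection_inv h01 1
  have F1 : ∀ c : K, h * transvection h01 c * h⁻¹ = transvection h01 (k * c * k) := by
    intro c
    have := diag_conj_transvection h d hh h01 (by rw [hd1]; exact inv_ne_zero hk0) c
    rw [hd0, hd1, inv_inv] at this
    exact this
  obtain ⟨h', hh'⟩ : ∃ h', h' = w * h * w⁻¹ := ⟨_, rfl⟩
  have hh'd : h'.1 = Matrix.diagonal (fun a => d (a + 1)) := by
    rw [hh']; exact cyc_conj_diag w h hw d hh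
  have hd2ne : d (1 + 1) ≠ 0 := by
    rcases hd2 with h2 | h2 <;> rw [h2]
    · exact hk0
    · exact one_ne_zero
  have F2 : ∀ c : K, h' * transvection h01 c * h'⁻¹ =
      transvection h01 ((k : K)⁻¹ * c * (d (1 + 1))⁻¹) := by
    intro c
    have := diag_conj_transvection h' _ hh'd h01 hd2ne c
    simp only [zero_add, hd1] at this
    exact this
  have F3 : h * h' * h⁻¹ = h' := by
    rw [mul_inv_eq_iff_eq_mul]
    apply Subtype.ext
    rw [coe_mul, coe_mul, hh, hh'd, Matrix.diagonal_mul_diagonal, Matrix.diagonal_mul_diagonal]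
    congr 1
    funext a
    exact mul_comm _ _
  have hg₁G : (x * w) * h * (x * w)⁻¹ ∈ G0 := mul_mem (mul_mem hyG hhG) (inv_mem hyG)
  have hg₁' : (x * w) * h * (x * w)⁻¹ = x * h' * x⁻¹ := by
    rw [hh']
    group
  rw [hg₁'] at hg₁G
  have hg₂G : h * (x * h' * x⁻¹) * h⁻¹ * (x * h' * x⁻¹)⁻¹ ∈ G0 :=
    mul_mem (mul_mem (mul_mem hhG hg₁G) (inv_mem hhG)) (inv_mem hg₁G)
  rw [comm_calc (SpecialLinearGroup.transvection h01) hadd h h' x (k : K) _ _ F1 F2 F3 hx1 hxinv] at hg₂G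
  have hc₀ne : (k : K) * 1 * k + (k : K)⁻¹ * (k * (-1) * k + 1) * (d (1 + 1))⁻¹ + (-1) ≠ 0 := by
    have hkk : (k : K) * k - 1 ≠ 0 := sub_ne_zero.mpr hk2
    have hkm : (k : K) - 1 ≠ 0 := sub_ne_zero.mpr hk1
    rcases hd2 with h2 | h2 <;> rw [h2]
    · intro hzero
      have : ((k : K) * k - 1) * ((k : K) * k - 1) = 0 := by
        field_simp at hzero
        linear_combination hzero
      exact hkk (mul_self_eq_zero.mp this)
    · intro hzero
      have : ((k : K) * k - 1) * ((k : K) - 1) = 0 := by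
        field_simp at hzero
        linear_combination hzero
      rcases mul_eq_zero.mp this with h3 | h3
      · exact hkk h3
      · exact hkm h3
  have S7 := root_gen (SpecialLinearGroup.transvection h01) hadd G0 h hhG k hk F1 _ hc₀ne hg₂G
  have hxG : x ∈ G0 := hx1 ▸ S7 1
  have hwG : w ∈ G0 := by
    have : w = x⁻¹ * (x * w) := by group
    rw [this]
    exact mul_mem (inv_mem hxG) hyG
  have htop : G0 = ⊤ := eq_top_of_cyc (by omega) G0 w hw hwG (fun c _ => S7 c)
  rw [htop, top_sup_eq]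

end Cfsg.Agent.S2402
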