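import Cfsg.Statements.S2403
-- import your own Cfsg.Agent.* helpers here
import Cfsg.Agent.Lib.Helper47.SLGen

set_option autoImplicit false
open Cfsg

namespace Cfsg.Agent.S2403

open Matrix Matrix.SpecialLinearGroup Cfsg.Agent.Lib.Helper47

theorem natCast_surj {K : Type*} [Field K] [Fintype K] (hK : Fintype.card K ≤ 3) (c : K) :
    ∃ m : ℕ, (m : K) = c := by
  set p := ringChar K with hp
  have : CharP K p := ringChar.charP K
  obtain ⟨e, hpp, hcard⟩ := FiniteField.card K p
  have he : (e : ℕ) = 1 := by
    by_contra hne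
    have h2 : 2 ≤ (e : ℕ) := by have := e.pos; omega
    have : p ^ 2 ≤ p ^ (e : ℕ) := Nat.pow_le_pow_right hpp.pos h2
    have := hpp.two_le
    nlinarith
  rw [he, pow_one] at hcard
  let φ := ZMod.ringEquivOfPrime K hpp hcard
  obtain ⟨z, rfl⟩ := φ.surjective c
  have : NeZero p := ⟨hpp.ne_zero⟩
  refine ⟨z.val, ?_⟩
  rw [← map_natCast φ, ZMod.natCast_zmod_val]

theorem transvection_pow {ι F : Type*} [Fintype ι] [DecidableEq ι] [Field F] {i j : ι}
    (hij : i ≠ j) (m : ℕ) : (transvection hij (1 : F)) ^ m = transvection hij (m : F) := by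
  induction m with
  | zero => simp
  | succ m ih => rw [pow_succ, ih, Nat.cast_succ, transvection_add]

/-- Explicit two-element generation of `PSL_{n+1}(K)` over the fields with two or three elements: with `x = 1 + E₁₂` and `w` the monomial matrix with entries `1` in positions `(i, i+1)` and `(−1)^n` in position `(n+1, 1)`, the elements `x` and `w` generate `SL_{n+1}(K)` modulo its centre. -/
theorem result {K : Type*} [Field K] [Fintype K] (hK : Fintype.card K ≤ 3) (n : ℕ) (hn : 1 ≤ n)
    (x w : Matrix.SpecialLinearGroup (Fin (n + 1)) K)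
    (hx : (x : Matrix (Fin (n + 1)) (Fin (n + 1)) K) = Matrix.transvection (0 : Fin (n + 1)) (1 : Fin (n + 1)) 1)
    (hw : (w : Matrix (Fin (n + 1)) (Fin (n + 1)) K) =
      Matrix.of (fun i j => if j.val = i.val + 1 then 1 else if i.val = n ∧ j.val = 0 then (-1) ^ n else 0)) :
    Subgroup.closure ({x, w} : Set (Matrix.SpecialLinearGroup (Fin (n + 1)) K)) ⊔
      Subgroup.center (Matrix.SpecialLinearGroup (Fin (n + 1)) K) = ⊤ := by
  set H := Subgroup.closure ({x, w} : Set (Matrix.SpecialLinearGroup (Fin (n + 1)) K)) with hH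
  have hxH : x ∈ H := Subgroup.subset_closure (by simp)
  have hwH : w ∈ H := Subgroup.subset_closure (by simp)
  have h01 : ∀ c : K, TMem H 0 1 c := by
    intro c hij
    obtain ⟨m, rfl⟩ := natCast_surj hK c
    have hx' : x = transvection hij 1 := Subtype.ext (by rw [hx]; rfl)
    rw [← transvection_pow hij m, ← hx']
    exact pow_mem hxH m
  have htop : H = ⊤ := eq_top_of_cyc hn H w hw hwH h01
  rw [htop, top_sup_eq]

end Cfsg.Agent.S2403
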