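import Cfsg.Statements.S2416
import Cfsg.Agent.Lib.Helper24.GenComm

set_option autoImplicit false
open scoped MatrixGroups
open Cfsg

namespace Cfsg.Agent.S2416

open Cfsg.Agent.Lib.Helper24 in
/-- A Chevalley group of type G₂, B₂, D₄, F₄, E₆, E₇ or E₈ over a finite field lies in (indeed equals) the subgroup generated by its monomial subgroup `N` and a single fundamental root subgroup `X_p`, where `p` is a short fundamental root if there are two root lengths (any fundamental root otherwise), provided the characteristic is not 2 for types B₂, F₄ and not 3 for type G₂ (and the field has more than two elements for B₂, G₂). -/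
theorem result {K : Type*} [Field K] [Finite K] (D : Cfsg.Lie.ChevalleyDatum) (hD : D ∈ [Cfsg.Lie.chevG2, Cfsg.Lie.chevB2, Cfsg.Lie.chevD4, Cfsg.Lie.chevF4, Cfsg.Lie.chevE6, Cfsg.Lie.chevE7, Cfsg.Lie.chevE8])
    (hK : D ∈ [Cfsg.Lie.chevB2, Cfsg.Lie.chevG2] → ∃ x : K, x ≠ 0 ∧ x ≠ 1)
    (h2 : D ∈ [Cfsg.Lie.chevB2, Cfsg.Lie.chevF4] → ringChar K ≠ 2) (h3 : D = Cfsg.Lie.chevG2 → ringChar K ≠ 3)
    (i : ℕ) (hi : i < D.rank) (hshort : D.isLong (D.simple i) = false) :
    D.group K ≤ D.monomialSubgroup K ⊔ D.rootSubgroup K (D.simple i) := by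
  have hD' : D ∈ chevList := hD
  apply group_le_of_short D hD' _ (fun k hk => le_sup_left (α := Subgroup (GL D.Idx K))
    (nGL_mem_monomial D hD' _ (simple_lt D hD' k hk))) (D.simple i) (simple_lt D hD' i hi) hshort
    le_sup_right
  · intro h
    exact Ring.two_ne_zero (h2 (by rcases h with rfl | rfl <;> simp))
  · intro h h0
    have hdvd : ringChar K ∣ 3 := (ringChar.spec K 3).1 (by exact_mod_cast h0)
    rcases (Nat.dvd_prime Nat.prime_three).1 hdvd with h1 | h1
    · exact CharP.ringChar_ne_one h1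
    · exact h3 h h1

end Cfsg.Agent.S2416
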