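import Cfsg.Statements.S2417
import Cfsg.Agent.Lib.Helper24.GenRoot

set_option autoImplicit false
open scoped MatrixGroups
open Cfsg

namespace Cfsg.Agent.S2417

open Cfsg.Agent.Lib.Helper24 in
/-- In the characteristics with an exceptional graph symmetry — type B₂ or F₄ in characteristic 2 (field of more than two elements for B₂) and type G₂ in characteristic 3 — the Chevalley group lies in the subgroup generated by its monomial subgroup `N` and the two fundamental root subgroups `X_a`, `X_b` of a short root `a` and a long root `b` joined in the Dynkin diagram. -/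
theorem result {K : Type*} [Field K] [Finite K] (e : Cfsg.Lie.ChevalleyDatum × ℕ)
    (he : e ∈ [(Cfsg.Lie.chevB2, 2), (Cfsg.Lie.chevF4, 2), (Cfsg.Lie.chevG2, 3)]) [CharP K e.2]
    (hK : e.1 = Cfsg.Lie.chevB2 → ∃ x : K, x ≠ 0 ∧ x ≠ 1)
    (i j : ℕ) (hi : i < e.1.rank) (hj : j < e.1.rank) (hshort : e.1.isLong (e.1.simple i) = false)
    (hlong : e.1.isLong (e.1.simple j) = true) (hbond : e.1.bonds i j ≠ 0) :
    e.1.group K ≤ e.1.monomialSubgroup K ⊔ e.1.rootSubgroup K (e.1.simple i) ⊔ e.1.rootSubgroup K (e.1.simple j) := by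
  have hD : e.1 ∈ chevList := by
    simp only [List.mem_cons, List.not_mem_nil, or_false] at he
    rcases he with rfl | rfl | rfl <;> simp [chevList]
  apply group_le_of_rootSubgroups
  intro r hr
  have hM : ∀ k < e.1.rank, nGL e.1 hD (e.1.simple k) ∈
      e.1.monomialSubgroup K ⊔ e.1.rootSubgroup K (e.1.simple i) ⊔
        e.1.rootSubgroup K (e.1.simple j) := fun k hk =>
    le_sup_left (α := Subgroup (GL e.1.Idx K)) (le_sup_left (α := Subgroup (GL e.1.Idx K))
      (nGL_mem_monomial e.1 hD _ (simple_lt e.1 hD k hk)))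
  cases hb : e.1.isLong r
  · exact rootSubgroup_le_of_same_length e.1 hD _ hM (e.1.simple i) r (simple_lt e.1 hD i hi) hr
      (hshort.trans hb.symm) (le_sup_of_le_left le_sup_right)
  · exact rootSubgroup_le_of_same_length e.1 hD _ hM (e.1.simple j) r (simple_lt e.1 hD j hj) hr
      (hlong.trans hb.symm) le_sup_right

end Cfsg.Agent.S2417
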