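import Mathlib
import Cfsg.Statements.S2419

set_option autoImplicit false
open Cfsg

namespace Cfsg.Agent.S2419

section abstract

variable {G : Type*} [Group G]

lemma conj_step (a x' x b : G) (hbr : x' * x * x' = x * x' * x) (hax : Commute a x)
    (hbx' : Commute b x') : x * (a * x' * x * b) = (a * x' * x * b) * x' := by
  calc x * (a * x' * x * b) = (x * a) * x' * x * b := by simp only [mul_assoc]
    _ = (a * x) * x' * x * b := by rw [hax.eq]
    _ = a * (x * x' * x) * b := by simp only [mul_assoc]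
    _ = a * (x' * x * x') * b := by rw [hbr]
    _ = a * x' * x * (x' * b) := by simp only [mul_assoc]
    _ = a * x' * x * (b * x') := by rw [hbx'.eq]
    _ = (a * x' * x * b) * x' := by simp only [mul_assoc]

lemma conj_step2 (x x' r : G) (hbr : x * x' * x = x' * x * x') (hr : Commute r x) :
    (x * x' * r) * x = x' * (x * x' * r) := by
  calc (x * x' * r) * x = x * x' * (r * x) := by simp only [mul_assoc]
    _ = x * x' * (x * r) := by rw [hr.eq]
    _ = (x * x' * x) * r := by simp only [mul_assoc]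
    _ = (x' * x * x') * r := by rw [hbr]
    _ = x' * (x * x' * r) := by simp only [mul_assoc]

lemma peel (w x : G) (hx : x * x = 1) : w * x * x = w := by rw [mul_assoc, hx, mul_one]

lemma cube (u v w : G) (huv : Commute v u) (hvw : Commute v w) (hv : v * v = 1)
    (h3 : (u * w) ^ 3 = 1) : (u * v * w) ^ 3 = v := by
  have e : u * v * w = v * (u * w) := by
    rw [← huv.eq, mul_assoc]
  have hc : Commute v (u * w) := huv.mul_right hvw
  rw [e, hc.mul_pow, h3, mul_one, pow_succ, pow_two, hv, one_mul]

lemma extract (u w x : G) (hu : u * u = 1) (hw : w * w = 1) (hx : x * x = 1) (hux : Commute u x)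
    (hbr : x * w * x = w * x * w) :
    ((u * w)⁻¹ * x * (u * w)) * x * ((u * w)⁻¹ * x * (u * w)) = w := by
  have hui : u⁻¹ = u := inv_eq_of_mul_eq_one_right hu
  have hwi : w⁻¹ = w := inv_eq_of_mul_eq_one_right hw
  have e1 : (u * w)⁻¹ * x * (u * w) = w * x * w := by
    rw [mul_inv_rev, hui, hwi]
    calc w * u * x * (u * w) = w * (u * x) * u * w := by simp only [mul_assoc]
      _ = w * (x * u) * u * w := by rw [hux.eq]
      _ = w * x * (u * u) * w := by simp only [mul_assoc]
      _ = w * x * w := by rw [hu, mul_one]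
  rw [e1]
  calc w * x * w * x * (w * x * w) = w * (x * w * x) * (w * x * w) := by simp only [mul_assoc]
    _ = w * (w * x * w) * (w * x * w) := by rw [hbr]
    _ = (w * w) * x * (w * w) * x * w := by simp only [mul_assoc]
    _ = x * x * w := by rw [hw, one_mul, mul_one]
    _ = w := by rw [hx, one_mul]

/-- the core step for type `E`: from `s3` and `s0 s1 s2` recover `s0`, `s1`, `s2` -/
lemma coreE (H : Subgroup G) (s0 s1 s2 s3 : G) (h0 : s0 * s0 = 1) (h1 : s1 * s1 = 1) (h2 : s2 * s2 = 1)
    (h3 : s3 * s3 = 1) (c10 : Commute s1 s0) (c12 : Commute s1 s2) (c03 : Commute s0 s3)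
    (h02 : (s0 * s2) ^ 3 = 1) (hbr : s3 * s2 * s3 = s2 * s3 * s2)
    (m3 : s3 ∈ H) (md : s0 * s1 * s2 ∈ H) : s0 ∈ H ∧ s1 ∈ H ∧ s2 ∈ H := by
  have m1 : s1 ∈ H := by
    rw [← cube s0 s1 s2 c10 c12 h1 h02]
    exact H.pow_mem md 3
  have me : s0 * s2 ∈ H := by
    have : s0 * s2 = s1 * (s0 * s1 * s2) := by
      calc s0 * s2 = (s1 * s1) * s0 * s2 := by rw [h1, one_mul]
        _ = s1 * (s1 * s0) * s2 := by simp only [mul_assoc]
        _ = s1 * (s0 * s1) * s2 := by rw [c10.eq]
        _ = s1 * (s0 * s1 * s2) := by simp only [mul_assoc]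
    rw [this]
    exact H.mul_mem m1 md
  have m2 : s2 ∈ H := by
    rw [← extract s0 s2 s3 h0 h2 h3 c03 hbr]
    have hconj : (s0 * s2)⁻¹ * s3 * (s0 * s2) ∈ H := H.mul_mem (H.mul_mem (H.inv_mem me) m3) me
    exact H.mul_mem (H.mul_mem hconj m3) hconj
  have m0 : s0 ∈ H := by
    have : s0 = (s0 * s2) * s2 := by rw [mul_assoc, h2, mul_one]
    rw [this]
    exact H.mul_mem me m2
  exact ⟨m0, m1, m2⟩

end abstract

section coxeter

variable {B : Type*} (M : CoxeterMatrix B)

lemma ss (i : B) : M.simple i * M.simple i = 1 := by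
  have := M.toCoxeterSystem.simple_mul_simple_self i
  rwa [CoxeterMatrix.toCoxeterSystem_simple] at this

lemma comm2 (i j : B) (h : M i j = 2) : Commute (M.simple i) (M.simple j) := by
  have h1 := M.toCoxeterSystem.simple_mul_simple_pow i j
  rw [CoxeterMatrix.toCoxeterSystem_simple, h, pow_two] at h1
  have h2 : M.simple i * M.simple j = (M.simple i * M.simple j)⁻¹ := eq_inv_of_mul_eq_one_left h1
  rw [mul_inv_rev, inv_eq_of_mul_eq_one_right (ss M i), inv_eq_of_mul_eq_one_right (ss M j)] at h2
  exact h2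

lemma pow3 (i j : B) (h : M i j = 3) : (M.simple i * M.simple j) ^ 3 = 1 := by
  have h1 := M.toCoxeterSystem.simple_mul_simple_pow i j
  rwa [CoxeterMatrix.toCoxeterSystem_simple, h] at h1

lemma braid3 (i j : B) (h : M i j = 3) :
    M.simple i * M.simple j * M.simple i = M.simple j * M.simple i * M.simple j := by
  have h1 := pow3 M i j h
  have h2 : M.simple i * M.simple j * M.simple i * (M.simple j * M.simple i * M.simple j) = 1 := by
    rw [← h1, pow_succ, pow_two]
    simp only [mul_assoc]
  have h3 := eq_inv_of_mul_eq_one_left h2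
  rw [mul_inv_rev, mul_inv_rev, inv_eq_of_mul_eq_one_right (ss M i), inv_eq_of_mul_eq_one_right (ss M j)] at h3
  rw [h3]
  simp only [mul_assoc]

lemma closure_top (H : Subgroup M.Group) (h : ∀ i, M.simple i ∈ H) : H = ⊤ := by
  rw [eq_top_iff, ← M.toCoxeterSystem.subgroup_closure_range_simple, Subgroup.closure_le,
    CoxeterMatrix.toCoxeterSystem_simple]
  rintro _ ⟨i, rfl⟩
  exact h i

end coxeter

lemma caseI (M : CoxeterMatrix (Fin 2)) :
    ∃ T : Finset M.Group, T.card = 1 ∧ (∀ t ∈ T, ∃ (g : M.Group) (i : Fin 2), t = g * M.simple i * g⁻¹) ∧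
      Subgroup.closure (({((List.finRange 2).map M.simple).prod} : Set M.Group) ∪ ↑T) = ⊤ := by
  classical
  refine ⟨{M.simple 0}, Finset.card_singleton _, ?_, ?_⟩
  · intro t ht
    rw [Finset.mem_singleton] at ht
    exact ⟨1, 0, by rw [ht]; simp⟩
  · have hl : List.finRange 2 = [0, 1] := by decide
    rw [hl]
    simp only [List.map_cons, List.map_nil, List.prod_cons, List.prod_nil, mul_one]
    set H := Subgroup.closure (({M.simple 0 * M.simple 1} : Set M.Group) ∪ ↑({M.simple 0} : Finset M.Group)) with hH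
    have mc : M.simple 0 * M.simple 1 ∈ H := Subgroup.subset_closure (Or.inl rfl)
    have m0 : M.simple 0 ∈ H := Subgroup.subset_closure (Or.inr (by simp))
    have m1 : M.simple 1 ∈ H := by
      have : M.simple 1 = M.simple 0 * (M.simple 0 * M.simple 1) := by
        rw [← mul_assoc, ss, one_mul]
      rw [this]
      exact H.mul_mem m0 mc
    apply closure_top
    intro i
    fin_cases i
    · exact m0
    · exact m1

lemma neD4 : Cfsg.Lie.coxeterD4.simple 0 ≠ Cfsg.Lie.coxeterD4.simple 2 := by
  have hf : CoxeterMatrix.IsLiftable Cfsg.Lie.coxeterD4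
      (![Equiv.swap 0 1, Equiv.swap 1 2, Equiv.swap 2 3, Equiv.swap 2 3] : Fin 4 → Equiv.Perm (Fin 4)) := by
    unfold CoxeterMatrix.IsLiftable
    decide
  intro h
  have h0 := Cfsg.Lie.coxeterD4.toCoxeterSystem.lift_apply_simple hf 0
  have h2 := Cfsg.Lie.coxeterD4.toCoxeterSystem.lift_apply_simple hf 2
  rw [CoxeterMatrix.toCoxeterSystem_simple] at h0 h2
  rw [h, h2] at h0
  revert h0
  decide

lemma neF4 : CoxeterMatrix.F₄.simple 0 ≠ CoxeterMatrix.F₄.simple 3 := by
  have hf : CoxeterMatrix.IsLiftable CoxeterMatrix.F₄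
      (![Multiplicative.ofAdd 1, Multiplicative.ofAdd 1, Multiplicative.ofAdd 0, Multiplicative.ofAdd 0] :
        Fin 4 → Multiplicative (ZMod 2)) := by
    unfold CoxeterMatrix.IsLiftable
    decide
  intro h
  have h0 := CoxeterMatrix.F₄.toCoxeterSystem.lift_apply_simple hf 0
  have h3 := CoxeterMatrix.F₄.toCoxeterSystem.lift_apply_simple hf 3
  rw [CoxeterMatrix.toCoxeterSystem_simple] at h0 h3
  rw [h, h3] at h0
  revert h0
  decide

lemma caseD4 :
    ∃ T : Finset Cfsg.Lie.coxeterD4.Group, T.card = 2 ∧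
      (∀ t ∈ T, ∃ (g : Cfsg.Lie.coxeterD4.Group) (i : Fin 4), t = g * Cfsg.Lie.coxeterD4.simple i * g⁻¹) ∧
      Subgroup.closure (({((List.finRange 4).map Cfsg.Lie.coxeterD4.simple).prod} : Set Cfsg.Lie.coxeterD4.Group) ∪ ↑T) = ⊤ := by
  classical
  set M := Cfsg.Lie.coxeterD4 with hM
  refine ⟨{M.simple 0, M.simple 2}, Finset.card_pair neD4, ?_, ?_⟩
  · intro t ht
    rw [Finset.mem_insert, Finset.mem_singleton] at ht
    rcases ht with ht | ht
    · exact ⟨1, 0, by rw [ht]; simp⟩
    · exact ⟨1, 2, by rw [ht]; simp⟩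
  · have hl : List.finRange 4 = [0, 1, 2, 3] := by decide
    rw [hl]
    simp only [List.map_cons, List.map_nil, List.prod_cons, List.prod_nil, mul_one]
    set H := Subgroup.closure (({M.simple 0 * (M.simple 1 * (M.simple 2 * M.simple 3))} : Set M.Group) ∪
      ↑({M.simple 0, M.simple 2} : Finset M.Group)) with hH
    have mc : M.simple 0 * (M.simple 1 * (M.simple 2 * M.simple 3)) ∈ H := Subgroup.subset_closure (Or.inl rfl)
    have m0 : M.simple 0 ∈ H := Subgroup.subset_closure (Or.inr (by simp))
    have m2 : M.simple 2 ∈ H := Subgroup.subset_closure (Or.inr (by simp))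
    have hc : M.simple 0 * (M.simple 1 * (M.simple 2 * M.simple 3))
        = M.simple 0 * M.simple 1 * (M.simple 2 * M.simple 3) := by simp only [mul_assoc]
    rw [hc] at mc
    have m1 : M.simple 1 ∈ H := by
      have key := conj_step2 (M.simple 0) (M.simple 1) (M.simple 2 * M.simple 3)
        (braid3 M 0 1 (by decide))
        ((comm2 M 2 0 (by decide)).mul_left (comm2 M 3 0 (by decide)))
      have : M.simple 1 = (M.simple 0 * M.simple 1 * (M.simple 2 * M.simple 3)) * M.simple 0 *
          (M.simple 0 * M.simple 1 * (M.simple 2 * M.simple 3))⁻¹ := by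
        rw [key, mul_inv_cancel_right]
      rw [this]
      exact H.mul_mem (H.mul_mem mc m0) (H.inv_mem mc)
    have m3 : M.simple 3 ∈ H := by
      have : M.simple 3 = M.simple 2 * (M.simple 1 * (M.simple 0 * (M.simple 0 * M.simple 1 * (M.simple 2 * M.simple 3)))) := by
        have e0 : M.simple 0 * (M.simple 0 * M.simple 1 * (M.simple 2 * M.simple 3)) = M.simple 1 * (M.simple 2 * M.simple 3) := by
          rw [mul_assoc (M.simple 0) (M.simple 1), ← mul_assoc, ss, one_mul]
        rw [e0, ← mul_assoc (M.simple 1), ss, one_mul, ← mul_assoc, ss, one_mul]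
      rw [this]
      exact H.mul_mem m2 (H.mul_mem m1 (H.mul_mem m0 mc))
    apply closure_top
    intro i
    fin_cases i
    · exact m0
    · exact m1
    · exact m2
    · exact m3

lemma caseF4 :
    ∃ T : Finset CoxeterMatrix.F₄.Group, T.card = 2 ∧
      (∀ t ∈ T, ∃ (g : CoxeterMatrix.F₄.Group) (i : Fin 4), t = g * CoxeterMatrix.F₄.simple i * g⁻¹) ∧
      Subgroup.closure (({((List.finRange 4).map CoxeterMatrix.F₄.simple).prod} : Set CoxeterMatrix.F₄.Group) ∪ ↑T) = ⊤ := by
  classical
  set M := CoxeterMatrix.F₄ with hM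
  refine ⟨{M.simple 0, M.simple 3}, Finset.card_pair neF4, ?_, ?_⟩
  · intro t ht
    rw [Finset.mem_insert, Finset.mem_singleton] at ht
    rcases ht with ht | ht
    · exact ⟨1, 0, by rw [ht]; simp⟩
    · exact ⟨1, 3, by rw [ht]; simp⟩
  · have hl : List.finRange 4 = [0, 1, 2, 3] := by decide
    rw [hl]
    simp only [List.map_cons, List.map_nil, List.prod_cons, List.prod_nil, mul_one]
    set H := Subgroup.closure (({M.simple 0 * (M.simple 1 * (M.simple 2 * M.simple 3))} : Set M.Group) ∪
      ↑({M.simple 0, M.simple 3} : Finset M.Group)) with hH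
    have mc : M.simple 0 * (M.simple 1 * (M.simple 2 * M.simple 3)) ∈ H := Subgroup.subset_closure (Or.inl rfl)
    have m0 : M.simple 0 ∈ H := Subgroup.subset_closure (Or.inr (by simp))
    have m3 : M.simple 3 ∈ H := Subgroup.subset_closure (Or.inr (by simp))
    have hc : M.simple 0 * (M.simple 1 * (M.simple 2 * M.simple 3))
        = M.simple 0 * M.simple 1 * (M.simple 2 * M.simple 3) := by simp only [mul_assoc]
    rw [hc] at mc
    have m1 : M.simple 1 ∈ H := by
      have key := conj_step2 (M.simple 0) (M.simple 1) (M.simple 2 * M.simple 3)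
        (braid3 M 0 1 (by decide))
        ((comm2 M 2 0 (by decide)).mul_left (comm2 M 3 0 (by decide)))
      have : M.simple 1 = (M.simple 0 * M.simple 1 * (M.simple 2 * M.simple 3)) * M.simple 0 *
          (M.simple 0 * M.simple 1 * (M.simple 2 * M.simple 3))⁻¹ := by
        rw [key, mul_inv_cancel_right]
      rw [this]
      exact H.mul_mem (H.mul_mem mc m0) (H.inv_mem mc)
    have m2 : M.simple 2 ∈ H := by
      have : M.simple 2 = M.simple 1 * (M.simple 0 * (M.simple 0 * M.simple 1 * (M.simple 2 * M.simple 3))) * M.simple 3 := by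
        have e0 : M.simple 0 * (M.simple 0 * M.simple 1 * (M.simple 2 * M.simple 3)) = M.simple 1 * (M.simple 2 * M.simple 3) := by
          rw [mul_assoc (M.simple 0) (M.simple 1), ← mul_assoc, ss, one_mul]
        rw [e0, ← mul_assoc (M.simple 1), ss, one_mul, mul_assoc, ss, mul_one]
      rw [this]
      exact H.mul_mem (H.mul_mem m1 (H.mul_mem m0 mc)) m3
    apply closure_top
    intro i
    fin_cases i
    · exact m0
    · exact m1
    · exact m2
    · exact m3

lemma caseE6 :
    ∃ T : Finset CoxeterMatrix.E₆.Group, T.card = 1 ∧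
      (∀ t ∈ T, ∃ (g : CoxeterMatrix.E₆.Group) (i : Fin 6), t = g * CoxeterMatrix.E₆.simple i * g⁻¹) ∧
      Subgroup.closure (({((List.finRange 6).map CoxeterMatrix.E₆.simple).prod} : Set CoxeterMatrix.E₆.Group) ∪ ↑T) = ⊤ := by
  classical
  set M := CoxeterMatrix.E₆ with hM
  refine ⟨{M.simple 5}, Finset.card_singleton _, ?_, ?_⟩
  · intro t ht
    rw [Finset.mem_singleton] at ht
    exact ⟨1, 5, by rw [ht]; simp⟩
  · have hl : List.finRange 6 = [0, 1, 2, 3, 4, 5] := by decide
    rw [hl]
    simp only [List.map_cons, List.map_nil, List.prod_cons, List.prod_nil, mul_one]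
    set c := M.simple 0 * (M.simple 1 * (M.simple 2 * (M.simple 3 * (M.simple 4 * M.simple 5)))) with hc
    set H := Subgroup.closure (({c} : Set M.Group) ∪ ↑({M.simple 5} : Finset M.Group)) with hH
    have mc : c ∈ H := Subgroup.subset_closure (Or.inl rfl)
    have m5 : M.simple 5 ∈ H := Subgroup.subset_closure (Or.inr (by simp))
    have step : ∀ (a x' x b : M.Group), x' * x * x' = x * x' * x → Commute a x → Commute b x' →
        c = a * x' * x * b → x ∈ H → x' ∈ H := by
      intro a x' x b hbr hax hbx' hcab hx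
      have key := conj_step a x' x b hbr hax hbx'
      rw [← hcab] at key
      have : x' = c⁻¹ * (x * c) := by rw [key, inv_mul_cancel_left]
      rw [this]
      exact H.mul_mem (H.inv_mem mc) (H.mul_mem hx mc)
    have m4 : M.simple 4 ∈ H := by
      apply step (M.simple 0 * M.simple 1 * M.simple 2 * M.simple 3) (M.simple 4) (M.simple 5) 1
        (braid3 M 4 5 (by decide)) ?_ (Commute.one_left _) (by rw [hc]; simp only [mul_assoc, mul_one]) m5
      exact (((comm2 M 0 5 (by decide)).mul_left (comm2 M 1 5 (by decide))).mul_left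
        (comm2 M 2 5 (by decide))).mul_left (comm2 M 3 5 (by decide))
    have m3 : M.simple 3 ∈ H := by
      apply step (M.simple 0 * M.simple 1 * M.simple 2) (M.simple 3) (M.simple 4) (M.simple 5)
        (braid3 M 3 4 (by decide)) ?_ (comm2 M 5 3 (by decide)) (by rw [hc]; simp only [mul_assoc]) m4
      exact ((comm2 M 0 4 (by decide)).mul_left (comm2 M 1 4 (by decide))).mul_left
        (comm2 M 2 4 (by decide))
    have md : M.simple 0 * M.simple 1 * M.simple 2 ∈ H := by
      have : M.simple 0 * M.simple 1 * M.simple 2 = c * M.simple 5 * M.simple 4 * M.simple 3 := by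
        have hc' : c = M.simple 0 * M.simple 1 * M.simple 2 * M.simple 3 * M.simple 4 * M.simple 5 := by
          rw [hc]; simp only [mul_assoc]
        rw [hc', peel _ _ (ss M 5), peel _ _ (ss M 4), peel _ _ (ss M 3)]
      rw [this]
      exact H.mul_mem (H.mul_mem (H.mul_mem mc m5) m4) m3
    obtain ⟨m0, m1, m2⟩ := coreE H (M.simple 0) (M.simple 1) (M.simple 2) (M.simple 3)
      (ss M 0) (ss M 1) (ss M 2) (ss M 3) (comm2 M 1 0 (by decide)) (comm2 M 1 2 (by decide))
      (comm2 M 0 3 (by decide)) (pow3 M 0 2 (by decide)) (braid3 M 3 2 (by decide)) m3 md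
    apply closure_top
    intro i
    fin_cases i
    · exact m0
    · exact m1
    · exact m2
    · exact m3
    · exact m4
    · exact m5

lemma caseE7 :
    ∃ T : Finset CoxeterMatrix.E₇.Group, T.card = 1 ∧
      (∀ t ∈ T, ∃ (g : CoxeterMatrix.E₇.Group) (i : Fin 7), t = g * CoxeterMatrix.E₇.simple i * g⁻¹) ∧
      Subgroup.closure (({((List.finRange 7).map CoxeterMatrix.E₇.simple).prod} : Set CoxeterMatrix.E₇.Group) ∪ ↑T) = ⊤ := by
  classical
  set M := CoxeterMatrix.E₇ with hM
  refine ⟨{M.simple 6}, Finset.card_singleton _, ?_, ?_⟩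
  · intro t ht
    rw [Finset.mem_singleton] at ht
    exact ⟨1, 6, by rw [ht]; simp⟩
  · have hl : List.finRange 7 = [0, 1, 2, 3, 4, 5, 6] := by decide
    rw [hl]
    simp only [List.map_cons, List.map_nil, List.prod_cons, List.prod_nil, mul_one]
    set c := M.simple 0 * (M.simple 1 * (M.simple 2 * (M.simple 3 * (M.simple 4 * (M.simple 5 * M.simple 6))))) with hc
    set H := Subgroup.closure (({c} : Set M.Group) ∪ ↑({M.simple 6} : Finset M.Group)) with hH
    have mc : c ∈ H := Subgroup.subset_closure (Or.inl rfl)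
    have m6 : M.simple 6 ∈ H := Subgroup.subset_closure (Or.inr (by simp))
    have step : ∀ (a x' x b : M.Group), x' * x * x' = x * x' * x → Commute a x → Commute b x' →
        c = a * x' * x * b → x ∈ H → x' ∈ H := by
      intro a x' x b hbr hax hbx' hcab hx
      have key := conj_step a x' x b hbr hax hbx'
      rw [← hcab] at key
      have : x' = c⁻¹ * (x * c) := by rw [key, inv_mul_cancel_left]
      rw [this]
      exact H.mul_mem (H.inv_mem mc) (H.mul_mem hx mc)
    have m5 : M.simple 5 ∈ H := by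
      apply step (M.simple 0 * M.simple 1 * M.simple 2 * M.simple 3 * M.simple 4) (M.simple 5) (M.simple 6) 1
        (braid3 M 5 6 (by decide)) ?_ (Commute.one_left _) (by rw [hc]; simp only [mul_assoc, mul_one]) m6
      exact ((((comm2 M 0 6 (by decide)).mul_left (comm2 M 1 6 (by decide))).mul_left
        (comm2 M 2 6 (by decide))).mul_left (comm2 M 3 6 (by decide))).mul_left (comm2 M 4 6 (by decide))
    have m4 : M.simple 4 ∈ H := by
      apply step (M.simple 0 * M.simple 1 * M.simple 2 * M.simple 3) (M.simple 4) (M.simple 5) (M.simple 6)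
        (braid3 M 4 5 (by decide)) ?_ (comm2 M 6 4 (by decide)) (by rw [hc]; simp only [mul_assoc]) m5
      exact (((comm2 M 0 5 (by decide)).mul_left (comm2 M 1 5 (by decide))).mul_left
        (comm2 M 2 5 (by decide))).mul_left (comm2 M 3 5 (by decide))
    have m3 : M.simple 3 ∈ H := by
      apply step (M.simple 0 * M.simple 1 * M.simple 2) (M.simple 3) (M.simple 4) (M.simple 5 * M.simple 6)
        (braid3 M 3 4 (by decide)) ?_ ((comm2 M 5 3 (by decide)).mul_left (comm2 M 6 3 (by decide)))
        (by rw [hc]; simp only [mul_assoc]) m4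
      exact ((comm2 M 0 4 (by decide)).mul_left (comm2 M 1 4 (by decide))).mul_left
        (comm2 M 2 4 (by decide))
    have md : M.simple 0 * M.simple 1 * M.simple 2 ∈ H := by
      have : M.simple 0 * M.simple 1 * M.simple 2 = c * M.simple 6 * M.simple 5 * M.simple 4 * M.simple 3 := by
        have hc' : c = M.simple 0 * M.simple 1 * M.simple 2 * M.simple 3 * M.simple 4 * M.simple 5 * M.simple 6 := by
          rw [hc]; simp only [mul_assoc]
        rw [hc', peel _ _ (ss M 6), peel _ _ (ss M 5), peel _ _ (ss M 4), peel _ _ (ss M 3)]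
      rw [this]
      exact H.mul_mem (H.mul_mem (H.mul_mem (H.mul_mem mc m6) m5) m4) m3
    obtain ⟨m0, m1, m2⟩ := coreE H (M.simple 0) (M.simple 1) (M.simple 2) (M.simple 3)
      (ss M 0) (ss M 1) (ss M 2) (ss M 3) (comm2 M 1 0 (by decide)) (comm2 M 1 2 (by decide))
      (comm2 M 0 3 (by decide)) (pow3 M 0 2 (by decide)) (braid3 M 3 2 (by decide)) m3 md
    apply closure_top
    intro i
    fin_cases i
    · exact m0
    · exact m1
    · exact m2
    · exact m3
    · exact m4
    · exact m5
    · exact m6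

lemma caseE8 :
    ∃ T : Finset CoxeterMatrix.E₈.Group, T.card = 1 ∧
      (∀ t ∈ T, ∃ (g : CoxeterMatrix.E₈.Group) (i : Fin 8), t = g * CoxeterMatrix.E₈.simple i * g⁻¹) ∧
      Subgroup.closure (({((List.finRange 8).map CoxeterMatrix.E₈.simple).prod} : Set CoxeterMatrix.E₈.Group) ∪ ↑T) = ⊤ := by
  classical
  set M := CoxeterMatrix.E₈ with hM
  refine ⟨{M.simple 7}, Finset.card_singleton _, ?_, ?_⟩
  · intro t ht
    rw [Finset.mem_singleton] at ht
    exact ⟨1, 7, by rw [ht]; simp⟩
  · have hl : List.finRange 8 = [0, 1, 2, 3, 4, 5, 6, 7] := by decide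
    rw [hl]
    simp only [List.map_cons, List.map_nil, List.prod_cons, List.prod_nil, mul_one]
    set c := M.simple 0 * (M.simple 1 * (M.simple 2 * (M.simple 3 * (M.simple 4 * (M.simple 5 * (M.simple 6 * M.simple 7)))))) with hc
    set H := Subgroup.closure (({c} : Set M.Group) ∪ ↑({M.simple 7} : Finset M.Group)) with hH
    have mc : c ∈ H := Subgroup.subset_closure (Or.inl rfl)
    have m7 : M.simple 7 ∈ H := Subgroup.subset_closure (Or.inr (by simp))
    have step : ∀ (a x' x b : M.Group), x' * x * x' = x * x' * x → Commute a x → Commute b x' →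
        c = a * x' * x * b → x ∈ H → x' ∈ H := by
      intro a x' x b hbr hax hbx' hcab hx
      have key := conj_step a x' x b hbr hax hbx'
      rw [← hcab] at key
      have : x' = c⁻¹ * (x * c) := by rw [key, inv_mul_cancel_left]
      rw [this]
      exact H.mul_mem (H.inv_mem mc) (H.mul_mem hx mc)
    have m6 : M.simple 6 ∈ H := by
      apply step (M.simple 0 * M.simple 1 * M.simple 2 * M.simple 3 * M.simple 4 * M.simple 5) (M.simple 6) (M.simple 7) 1
        (braid3 M 6 7 (by decide)) ?_ (Commute.one_left _) (by rw [hc]; simp only [mul_assoc, mul_one]) m7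
      exact (((((comm2 M 0 7 (by decide)).mul_left (comm2 M 1 7 (by decide))).mul_left
        (comm2 M 2 7 (by decide))).mul_left (comm2 M 3 7 (by decide))).mul_left (comm2 M 4 7 (by decide))).mul_left
        (comm2 M 5 7 (by decide))
    have m5 : M.simple 5 ∈ H := by
      apply step (M.simple 0 * M.simple 1 * M.simple 2 * M.simple 3 * M.simple 4) (M.simple 5) (M.simple 6) (M.simple 7)
        (braid3 M 5 6 (by decide)) ?_ (comm2 M 7 5 (by decide)) (by rw [hc]; simp only [mul_assoc]) m6
      exact ((((comm2 M 0 6 (by decide)).mul_left (comm2 M 1 6 (by decide))).mul_left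
        (comm2 M 2 6 (by decide))).mul_left (comm2 M 3 6 (by decide))).mul_left (comm2 M 4 6 (by decide))
    have m4 : M.simple 4 ∈ H := by
      apply step (M.simple 0 * M.simple 1 * M.simple 2 * M.simple 3) (M.simple 4) (M.simple 5) (M.simple 6 * M.simple 7)
        (braid3 M 4 5 (by decide)) ?_ ((comm2 M 6 4 (by decide)).mul_left (comm2 M 7 4 (by decide)))
        (by rw [hc]; simp only [mul_assoc]) m5
      exact (((comm2 M 0 5 (by decide)).mul_left (comm2 M 1 5 (by decide))).mul_left
        (comm2 M 2 5 (by decide))).mul_left (comm2 M 3 5 (by decide))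
    have m3 : M.simple 3 ∈ H := by
      apply step (M.simple 0 * M.simple 1 * M.simple 2) (M.simple 3) (M.simple 4) (M.simple 5 * M.simple 6 * M.simple 7)
        (braid3 M 3 4 (by decide)) ?_
        (((comm2 M 5 3 (by decide)).mul_left (comm2 M 6 3 (by decide))).mul_left (comm2 M 7 3 (by decide)))
        (by rw [hc]; simp only [mul_assoc]) m4
      exact ((comm2 M 0 4 (by decide)).mul_left (comm2 M 1 4 (by decide))).mul_left
        (comm2 M 2 4 (by decide))
    have md : M.simple 0 * M.simple 1 * M.simple 2 ∈ H := by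
      have : M.simple 0 * M.simple 1 * M.simple 2 = c * M.simple 7 * M.simple 6 * M.simple 5 * M.simple 4 * M.simple 3 := by
        have hc' : c = M.simple 0 * M.simple 1 * M.simple 2 * M.simple 3 * M.simple 4 * M.simple 5 * M.simple 6 * M.simple 7 := by
          rw [hc]; simp only [mul_assoc]
        rw [hc', peel _ _ (ss M 7), peel _ _ (ss M 6), peel _ _ (ss M 5), peel _ _ (ss M 4), peel _ _ (ss M 3)]
      rw [this]
      exact H.mul_mem (H.mul_mem (H.mul_mem (H.mul_mem (H.mul_mem mc m7) m6) m5) m4) m3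
    obtain ⟨m0, m1, m2⟩ := coreE H (M.simple 0) (M.simple 1) (M.simple 2) (M.simple 3)
      (ss M 0) (ss M 1) (ss M 2) (ss M 3) (comm2 M 1 0 (by decide)) (comm2 M 1 2 (by decide))
      (comm2 M 0 3 (by decide)) (pow3 M 0 2 (by decide)) (braid3 M 3 2 (by decide)) m3 md
    apply closure_top
    intro i
    fin_cases i
    · exact m0
    · exact m1
    · exact m2
    · exact m3
    · exact m4
    · exact m5
    · exact m6
    · exact m7

theorem result (c : (Σ n : ℕ, CoxeterMatrix (Fin n)) × ℕ)
    (hc : c ∈ [(⟨2, CoxeterMatrix.B 2⟩, 1), (⟨2, CoxeterMatrix.G₂⟩, 1), (⟨4, Cfsg.Lie.coxeterD4⟩, 2), (⟨4, CoxeterMatrix.F₄⟩, 2),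
      (⟨6, CoxeterMatrix.E₆⟩, 1), (⟨7, CoxeterMatrix.E₇⟩, 1), (⟨8, CoxeterMatrix.E₈⟩, 1)]) :
    ∃ T : Finset c.1.2.Group, T.card = c.2 ∧ (∀ t ∈ T, ∃ (g : c.1.2.Group) (i : Fin c.1.1), t = g * c.1.2.simple i * g⁻¹) ∧
      Subgroup.closure (({((List.finRange c.1.1).map c.1.2.simple).prod} : Set c.1.2.Group) ∪ ↑T) = ⊤ := by
  simp only [List.mem_cons, List.not_mem_nil, or_false] at hc
  rcases hc with rfl | rfl | rfl | rfl | rfl | rfl | rfl
  · exact caseI (CoxeterMatrix.B 2)
  · exact caseI CoxeterMatrix.G₂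
  · exact caseD4
  · exact caseF4
  · exact caseE6
  · exact caseE7
  · exact caseE8

end Cfsg.Agent.S2419
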