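import Cfsg.Statements.S2421
import Cfsg.Agent.Lib.Helper48.GLnG

set_option autoImplicit false
open scoped MatrixGroups
open Cfsg

namespace Cfsg.Agent.S2421

/-- Irreducible characters of `GL_n(q)` indexed by partitions: for `ν` a partition of `n` written with `n` non-decreasing parts `ν_0 ≤ ⋯ ≤ ν_{n−1}` (zeros allowed; positions counted from 0) and `λ_i = ν_i + i`, the alternating sum over permutations `κ` of `{0, …, n−1}` of `sign κ` times the permutation character on partial flags of type `λ − κ` (terms with a negative entry omitted) is an irreducible complex character of `GL_n(q)`. For `ν = (1, …, 1)` this is the Steinberg character. -/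
theorem result {F : Type*} [Field F] [Fintype F] {n : ℕ} (ν : Fin n → ℕ) (hmono : Monotone ν) (hsum : ∑ i, ν i = n) :
    Cfsg.IsIrrCharacter (GL (Fin n) F) (Cfsg.unipotentCharacterGL n F ν) := by
  exact Lib.Helper48.unipotent_irr ν hmono hsum

end Cfsg.Agent.S2421
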