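import Mathlib
import Cfsg.Statements.S2427
import Cfsg.Agent.S2433

set_option autoImplicit false
open Cfsg

namespace Cfsg.Agent.S2427

open Matrix

/-- a function on `SL₂(3)` which is a homomorphism onto `ℤ/3` -/
def fval (g : Matrix.SpecialLinearGroup (Fin 2) (ZMod 3)) : ZMod 3 :=
  (g : Matrix (Fin 2) (Fin 2) (ZMod 3)) 1 0 * (g : Matrix (Fin 2) (Fin 2) (ZMod 3)) 1 1
  + (g : Matrix (Fin 2) (Fin 2) (ZMod 3)) 0 1 * (g : Matrix (Fin 2) (Fin 2) (ZMod 3)) 1 1
  + 2 * (g : Matrix (Fin 2) (Fin 2) (ZMod 3)) 0 1 * (g : Matrix (Fin 2) (Fin 2) (ZMod 3)) 1 0 ^ 2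
      * (g : Matrix (Fin 2) (Fin 2) (ZMod 3)) 1 1
  + (g : Matrix (Fin 2) (Fin 2) (ZMod 3)) 0 0 * (g : Matrix (Fin 2) (Fin 2) (ZMod 3)) 1 0

/-- the trace -/
def trv (g : Matrix.SpecialLinearGroup (Fin 2) (ZMod 3)) : ZMod 3 :=
  (g : Matrix (Fin 2) (Fin 2) (ZMod 3)) 0 0 + (g : Matrix (Fin 2) (Fin 2) (ZMod 3)) 1 1

/-- an element of order 3 -/
def tt : Matrix.SpecialLinearGroup (Fin 2) (ZMod 3) := ⟨!![1, 1; 0, 1], by decide⟩
/-- an element of order 4 -/
def ii : Matrix.SpecialLinearGroup (Fin 2) (ZMod 3) := ⟨!![0, 1; -1, 0], by decide⟩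
/-- another element of order 4 -/
def jj : Matrix.SpecialLinearGroup (Fin 2) (ZMod 3) := ⟨!![1, 1; 1, -1], by decide⟩
/-- the central involution -/
def zz : Matrix.SpecialLinearGroup (Fin 2) (ZMod 3) := ⟨!![-1, 0; 0, -1], by decide⟩

set_option maxRecDepth 100000 in
theorem fval_mul : ∀ g h : Matrix.SpecialLinearGroup (Fin 2) (ZMod 3), fval (g * h) = fval g + fval h := by
  decide

theorem fval_one : fval 1 = 0 := by decide

/-- the homomorphism onto the cyclic group of order 3 -/
def fhom : Matrix.SpecialLinearGroup (Fin 2) (ZMod 3) →* Multiplicative (ZMod 3) where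
  toFun g := Multiplicative.ofAdd (fval g)
  map_one' := by rw [fval_one]; rfl
  map_mul' g h := by rw [fval_mul]; rfl

lemma mem_ker_iff (g : Matrix.SpecialLinearGroup (Fin 2) (ZMod 3)) : g ∈ fhom.ker ↔ fval g = 0 := by
  rw [MonoidHom.mem_ker]
  constructor
  · intro h
    exact h
  · intro h
    exact h

set_option maxRecDepth 100000 in
theorem fval_surj : ∀ y : ZMod 3, ∃ g : Matrix.SpecialLinearGroup (Fin 2) (ZMod 3), fval g = y := by
  decide

set_option maxRecDepth 100000 in
theorem ker_comm : ∀ g : Matrix.SpecialLinearGroup (Fin 2) (ZMod 3), fval g = 0 →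
    ∃ y : Matrix.SpecialLinearGroup (Fin 2) (ZMod 3), g = ii * y * ii⁻¹ * y⁻¹ ∨ g = jj * y * jj⁻¹ * y⁻¹ := by
  decide

set_option maxRecDepth 100000 in
theorem D1 : ∀ g : Matrix.SpecialLinearGroup (Fin 2) (ZMod 3), fval g ≠ 0 →
    trv (ii * g * ii⁻¹ * g⁻¹) = 0 := by
  decide

set_option maxRecDepth 100000 in
theorem D2 : ∀ g : Matrix.SpecialLinearGroup (Fin 2) (ZMod 3), trv g = 0 →
    fval g = 0 ∧ g ^ 2 ≠ 1 ∧ g ^ 4 = 1 ∧ ∀ k : Fin 4, tt * g * tt⁻¹ ≠ g ^ k.val := by
  decide

set_option maxRecDepth 100000 in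
theorem D3 : ∀ g : Matrix.SpecialLinearGroup (Fin 2) (ZMod 3), fval g = 0 → trv g ≠ 0 → g = 1 ∨ g = zz := by
  decide

set_option maxRecDepth 100000 in
theorem D4 : ∀ g : Matrix.SpecialLinearGroup (Fin 2) (ZMod 3),
    (∀ h : Matrix.SpecialLinearGroup (Fin 2) (ZMod 3), h * g = g * h) ↔ (g = 1 ∨ g = zz) := by
  decide

theorem zz_ne_one : zz ≠ 1 := by decide

lemma card_G : Nat.card (Matrix.SpecialLinearGroup (Fin 2) (ZMod 3)) = 24 := by
  have : Fact (Nat.Prime 3) := ⟨Nat.prime_three⟩
  rw [Nat.card_eq_fintype_card]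
  have := Cfsg.Agent.S2433.card_SL (F := ZMod 3)
  rw [ZMod.card] at this
  convert this using 1

lemma card_ker : Nat.card fhom.ker = 8 := by
  have h1 := Subgroup.card_mul_index fhom.ker
  rw [Subgroup.index_ker, card_G] at h1
  have hs : Function.Surjective fhom := by
    intro y
    obtain ⟨g, hg⟩ := fval_surj (Multiplicative.toAdd y)
    exact ⟨g, by change Multiplicative.ofAdd (fval g) = y; rw [hg]; rfl⟩
  have h2 : Nat.card fhom.range = 3 := by
    rw [MonoidHom.range_eq_top.mpr hs, Subgroup.card_top, Nat.card_eq_fintype_card]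
    rfl
  rw [h2] at h1
  omega

lemma comm_eq_ker : commutator (Matrix.SpecialLinearGroup (Fin 2) (ZMod 3)) = fhom.ker := by
  apply le_antisymm
  · exact Abelianization.commutator_subset_ker fhom
  · intro g hg
    rw [mem_ker_iff] at hg
    obtain ⟨y, hy | hy⟩ := ker_comm g hg
    · rw [hy, commutator_def]
      exact Subgroup.commutator_mem_commutator (Subgroup.mem_top ii) (Subgroup.mem_top y)
    · rw [hy, commutator_def]
      exact Subgroup.commutator_mem_commutator (Subgroup.mem_top jj) (Subgroup.mem_top y)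

/-- the map from the quaternion group -/
def qfun : QuaternionGroup 2 → Matrix.SpecialLinearGroup (Fin 2) (ZMod 3)
  | QuaternionGroup.a k => ii ^ k.val
  | QuaternionGroup.xa k => jj * ii ^ k.val

set_option maxRecDepth 100000 in
theorem qfun_mul : ∀ x y : QuaternionGroup 2, qfun (x * y) = qfun x * qfun y := by
  decide

set_option maxRecDepth 100000 in
theorem qfun_inj : ∀ x : QuaternionGroup 2, qfun x = 1 → x = 1 := by
  decide

set_option maxRecDepth 100000 in
theorem qfun_ker : ∀ x : QuaternionGroup 2, fval (qfun x) = 0 := by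
  decide

/-- the embedding of the quaternion group -/
def qhom : QuaternionGroup 2 →* Matrix.SpecialLinearGroup (Fin 2) (ZMod 3) :=
  MonoidHom.mk' qfun qfun_mul

lemma qhom_inj : Function.Injective qhom := by
  rw [injective_iff_map_eq_one]
  intro x hx
  exact qfun_inj x hx

lemma qrange_eq : qhom.range = fhom.ker := by
  apply Subgroup.eq_of_le_of_card_ge
  · rintro _ ⟨x, rfl⟩
    rw [mem_ker_iff]
    exact qfun_ker x
  · rw [card_ker, ← Nat.card_congr (MonoidHom.ofInjective qhom_inj).toEquiv, Nat.card_eq_fintype_card]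
    simp [QuaternionGroup.card]

lemma claimA (N : Subgroup (Matrix.SpecialLinearGroup (Fin 2) (ZMod 3))) (hN : N.Normal)
    (g : Matrix.SpecialLinearGroup (Fin 2) (ZMod 3)) (hg : g ∈ N) (ht : trv g = 0) : fhom.ker ≤ N := by
  classical
  obtain ⟨h1, h2, h3, h4⟩ := D2 g ht
  have hgk : g ∈ fhom.ker := (mem_ker_iff g).mpr h1
  have hord : orderOf g = 4 := by
    have : Fact (Nat.Prime 2) := ⟨Nat.prime_two⟩
    have := orderOf_eq_prime_pow (x := g) (p := 2) (n := 1) (by simpa using h2) (by simpa using h3)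
    simpa using this
  set M := N ⊓ fhom.ker with hM
  have hgM : g ∈ M := ⟨hg, hgk⟩
  have hg'M : tt * g * tt⁻¹ ∈ M := ⟨hN.conj_mem g hg tt, (inferInstance : fhom.ker.Normal).conj_mem g hgk tt⟩
  have hzM : Subgroup.zpowers g ≤ M := by
    rw [Subgroup.zpowers_le]
    exact hgM
  have hnot : tt * g * tt⁻¹ ∉ Subgroup.zpowers g := by
    rw [mem_zpowers_iff_mem_range_orderOf, hord]
    simp only [Finset.mem_image, Finset.mem_range, not_exists, not_and]
    intro k hk hgk'
    exact h4 ⟨k, hk⟩ hgk'.symm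
  have hcz : Nat.card (Subgroup.zpowers g) = 4 := by rw [Nat.card_zpowers, hord]
  have hle : M ≤ fhom.ker := inf_le_right
  have hdvd : Nat.card M ∣ 8 := by
    rw [← card_ker]; exact Subgroup.card_dvd_of_le hle
  have hge : 4 ∣ Nat.card M := by
    rw [← hcz]; exact Subgroup.card_dvd_of_le hzM
  have hne4 : Nat.card M ≠ 4 := by
    intro h
    have : Subgroup.zpowers g = M := Subgroup.eq_of_le_of_card_ge hzM (by rw [h, hcz])
    rw [this] at hnot
    exact hnot hg'M
  have h8 : Nat.card M = 8 := by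
    obtain ⟨k, hk⟩ := hge
    have hle8 : Nat.card M ≤ 8 := Nat.le_of_dvd (by norm_num) hdvd
    have hk2 : k ≤ 2 := by omega
    interval_cases k
    · rw [hk] at hdvd; norm_num at hdvd
    · omega
    · omega
  have : M = fhom.ker := Subgroup.eq_of_le_of_card_ge hle (by rw [h8, card_ker])
  rw [← this]
  exact inf_le_left

lemma claimB (N : Subgroup (Matrix.SpecialLinearGroup (Fin 2) (ZMod 3))) (hN : N.Normal)
    (g : Matrix.SpecialLinearGroup (Fin 2) (ZMod 3)) (hg : g ∈ N) (hf : fval g ≠ 0) : N = ⊤ := by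
  have h1 : ii * g * ii⁻¹ * g⁻¹ ∈ N := N.mul_mem (hN.conj_mem g hg ii) (N.inv_mem hg)
  have hle : fhom.ker ≤ N := claimA N hN _ h1 (D1 g hf)
  have hd1 : 8 ∣ Nat.card N := by
    rw [← card_ker]; exact Subgroup.card_dvd_of_le hle
  have hd2 : Nat.card N ∣ 24 := by
    rw [← card_G]; exact Subgroup.card_subgroup_dvd_card N
  have hne : Nat.card N ≠ 8 := by
    intro h
    have : fhom.ker = N := Subgroup.eq_of_le_of_card_ge hle (by rw [h, card_ker])
    rw [← this, mem_ker_iff] at hg
    exact hf hg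
  apply Subgroup.eq_top_of_card_eq
  rw [card_G]
  obtain ⟨k, hk⟩ := hd1
  have hle24 : Nat.card N ≤ 24 := Nat.le_of_dvd (by norm_num) hd2
  have hk3 : k ≤ 3 := by omega
  interval_cases k
  · rw [hk] at hd2; norm_num at hd2
  · omega
  · rw [hk] at hd2; norm_num at hd2
  · omega

lemma mem_center_iff' (g : Matrix.SpecialLinearGroup (Fin 2) (ZMod 3)) :
    g ∈ Subgroup.center (Matrix.SpecialLinearGroup (Fin 2) (ZMod 3)) ↔ (g = 1 ∨ g = zz) := by
  rw [Subgroup.mem_center_iff]
  exact D4 g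

theorem result :
    Nat.card (Matrix.SpecialLinearGroup (Fin 2) (ZMod 3)) = 24 ∧
    Nat.card (Subgroup.center (Matrix.SpecialLinearGroup (Fin 2) (ZMod 3))) = 2 ∧
    Nat.card (commutator (Matrix.SpecialLinearGroup (Fin 2) (ZMod 3))) = 8 ∧
    Nonempty (commutator (Matrix.SpecialLinearGroup (Fin 2) (ZMod 3)) ≃* QuaternionGroup 2) ∧
    (∀ P : Sylow 3 (Matrix.SpecialLinearGroup (Fin 2) (ZMod 3)),
      Subgroup.IsComplement' (commutator (Matrix.SpecialLinearGroup (Fin 2) (ZMod 3)))
        (P : Subgroup (Matrix.SpecialLinearGroup (Fin 2) (ZMod 3)))) ∧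
    ∀ N : Subgroup (Matrix.SpecialLinearGroup (Fin 2) (ZMod 3)), N.Normal →
      N = ⊥ ∨ N = ⊤ ∨ N = Subgroup.center (Matrix.SpecialLinearGroup (Fin 2) (ZMod 3)) ∨
        N = commutator (Matrix.SpecialLinearGroup (Fin 2) (ZMod 3)) := by
  have hc8 : Nat.card (commutator (Matrix.SpecialLinearGroup (Fin 2) (ZMod 3))) = 8 := by
    rw [comm_eq_ker, card_ker]
  refine ⟨card_G, ?_, hc8, ?_, ?_, ?_⟩
  · rw [Nat.card_eq_two_iff]
    refine ⟨⟨1, (mem_center_iff' 1).mpr (Or.inl rfl)⟩, ⟨zz, (mem_center_iff' zz).mpr (Or.inr rfl)⟩, ?_, ?_⟩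
    · intro h
      exact zz_ne_one (congrArg Subtype.val h).symm
    · ext x
      simp only [Set.mem_insert_iff, Set.mem_singleton_iff, Set.mem_univ, iff_true]
      rcases (mem_center_iff' x.1).mp x.2 with h | h
      · left; exact Subtype.ext h
      · right; exact Subtype.ext h
  · refine ⟨(MulEquiv.subgroupCongr (comm_eq_ker.trans qrange_eq.symm)).trans (MonoidHom.ofInjective qhom_inj).symm⟩
  · intro P
    have : Fact (Nat.Prime 3) := ⟨Nat.prime_three⟩
    have hP : Nat.card (P : Subgroup (Matrix.SpecialLinearGroup (Fin 2) (ZMod 3))) = 3 := by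
      rw [Sylow.card_eq_multiplicity, card_G]
      have h : (24 : ℕ) = 3 * 8 := by norm_num
      rw [h, Nat.factorization_mul (by norm_num) (by norm_num)]
      simp [Nat.Prime.factorization_self Nat.prime_three,
        Nat.factorization_eq_zero_of_not_dvd (by norm_num : ¬ 3 ∣ 8)]
    apply Subgroup.isComplement'_of_coprime
    · rw [hc8, hP, card_G]
    · rw [hc8, hP]; norm_num
  · intro N hN
    by_cases h1 : ∃ g ∈ N, fval g ≠ 0
    · obtain ⟨g, hg, hf⟩ := h1
      right; left
      exact claimB N hN g hg hf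
    · push Not at h1
      have hNle : N ≤ fhom.ker := fun g hg => (mem_ker_iff g).mpr (h1 g hg)
      by_cases h2 : ∃ g ∈ N, trv g = 0
      · obtain ⟨g, hg, ht⟩ := h2
        right; right; right
        rw [comm_eq_ker]
        exact le_antisymm hNle (claimA N hN g hg ht)
      · push Not at h2
        have h3 : ∀ g ∈ N, g = 1 ∨ g = zz := fun g hg => D3 g (h1 g hg) (h2 g hg)
        by_cases hz : zz ∈ N
        · right; right; left
          ext x
          rw [mem_center_iff']
          constructor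
          · exact h3 x
          · rintro (h | h)
            · rw [h]; exact N.one_mem
            · rw [h]; exact hz
        · left
          rw [Subgroup.eq_bot_iff_forall]
          intro x hx
          rcases h3 x hx with h | h
          · exact h
          · rw [h] at hx; exact absurd hx hz

end Cfsg.Agent.S2427
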