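import Mathlib
import Cfsg.Statements.S2430
import Cfsg.Agent.S2428
import Cfsg.Agent.S2429
import Cfsg.Agent.S2433

set_option autoImplicit false
open Cfsg

namespace Cfsg.Agent.S2430

section abstract

variable {G : Type*} [Group G]

lemma conj_transport (g : G) (Q P : Subgroup G) (hP : ∀ x, x ∈ P ↔ g⁻¹ * x * g ∈ Q) :
    (∀ y, y ∈ Subgroup.centralizer (P : Set G) ↔ g⁻¹ * y * g ∈ Subgroup.centralizer (Q : Set G)) ∧
    (∀ y, y ∈ Subgroup.normalizer (P : Set G) ↔ g⁻¹ * y * g ∈ Subgroup.normalizer (Q : Set G)) := by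
  have hQ : ∀ q, q ∈ Q ↔ g * q * g⁻¹ ∈ P := by
    intro q
    rw [hP]
    simp [mul_assoc]
  constructor
  · intro y
    simp only [Subgroup.mem_centralizer_iff, SetLike.mem_coe]
    constructor
    · intro h q hq
      have := h (g * q * g⁻¹) ((hQ q).mp hq)
      calc q * (g⁻¹ * y * g) = g⁻¹ * ((g * q * g⁻¹) * y) * g := by simp [mul_assoc]
        _ = g⁻¹ * (y * (g * q * g⁻¹)) * g := by rw [this]
        _ = g⁻¹ * y * g * q := by simp [mul_assoc]
    · intro h x hx
      have := h (g⁻¹ * x * g) ((hP x).mp hx)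
      calc x * y = g * ((g⁻¹ * x * g) * (g⁻¹ * y * g)) * g⁻¹ := by simp [mul_assoc]
        _ = g * ((g⁻¹ * y * g) * (g⁻¹ * x * g)) * g⁻¹ := by rw [this]
        _ = y * x := by simp [mul_assoc]
  · intro y
    simp only [Subgroup.mem_set_normalizer_iff, SetLike.mem_coe]
    constructor
    · intro h q
      rw [hQ q, h (g * q * g⁻¹), hP]
      have : g⁻¹ * (y * (g * q * g⁻¹) * y⁻¹) * g = g⁻¹ * y * g * q * (g⁻¹ * y * g)⁻¹ := by
        simp [mul_assoc]
      rw [this]
    · intro h x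
      rw [hP x, h (g⁻¹ * x * g), hP]
      have : g⁻¹ * y * g * (g⁻¹ * x * g) * (g⁻¹ * y * g)⁻¹ = g⁻¹ * (y * x * y⁻¹) * g := by
        simp [mul_assoc]
      rw [this]

/-- two subgroups related by conjugation are isomorphic -/
def conjEquiv (g : G) (A B : Subgroup G) (h : ∀ y, y ∈ A ↔ g⁻¹ * y * g ∈ B) : A ≃* B where
  toFun y := ⟨g⁻¹ * y.1 * g, (h y.1).mp y.2⟩
  invFun t := ⟨g * t.1 * g⁻¹, (h _).mpr (by simpa [mul_assoc] using t.2)⟩
  left_inv y := by
    apply Subtype.ext
    simp [mul_assoc]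
  right_inv t := by
    apply Subtype.ext
    simp [mul_assoc]
  map_mul' a b := by
    apply Subtype.ext
    simp [mul_assoc]

lemma norm_le_norm_cent (Q : Subgroup G) :
    Subgroup.normalizer (Q : Set G) ≤ Subgroup.normalizer ((Subgroup.centralizer (Q : Set G) : Subgroup G) : Set G) := by
  have key : ∀ y, y ∈ Subgroup.normalizer (Q : Set G) → ∀ t, t ∈ Subgroup.centralizer (Q : Set G) →
      y * t * y⁻¹ ∈ Subgroup.centralizer (Q : Set G) := by
    intro y hy t ht
    rw [Subgroup.mem_set_normalizer_iff] at hy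
    rw [Subgroup.mem_centralizer_iff] at ht ⊢
    intro q hq
    have hq' : y⁻¹ * q * y ∈ Q := by
      have := (hy (y⁻¹ * q * y))
      rw [SetLike.mem_coe, SetLike.mem_coe] at this
      rw [this]
      simpa [mul_assoc] using hq
    have := ht _ hq'
    calc q * (y * t * y⁻¹) = y * ((y⁻¹ * q * y) * t) * y⁻¹ := by simp [mul_assoc]
      _ = y * (t * (y⁻¹ * q * y)) * y⁻¹ := by rw [this]
      _ = y * t * y⁻¹ * q := by simp [mul_assoc]
  intro y hy
  rw [Subgroup.mem_set_normalizer_iff]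
  intro t
  constructor
  · intro ht
    exact key y hy t ht
  · intro ht
    have := key y⁻¹ (Subgroup.inv_mem _ hy) _ ht
    simpa [mul_assoc] using this

theorem sylow_torus [Finite G] (ℓ : ℕ) [Fact ℓ.Prime] (T : Subgroup G) (hT : IsCyclic T)
    (hfac : (Nat.card G).factorization ℓ = (Nat.card T).factorization ℓ)
    (hdvd : ℓ ∣ Nat.card T)
    (hcent : ∀ x ∈ T, orderOf x = ℓ → Subgroup.centralizer ({x} : Set G) = T)
    (P : Sylow ℓ G) :
    Nat.card (Subgroup.centralizer ((P : Subgroup G) : Set G)) = Nat.card T ∧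
    IsCyclic (Subgroup.centralizer ((P : Subgroup G) : Set G)) ∧
    Nat.card (Subgroup.normalizer ((P : Subgroup G) : Set G)) = Nat.card (Subgroup.normalizer (T : Set G)) := by
  have hℓ : ℓ.Prime := Fact.out
  obtain ⟨⟨t₀, ht₀T⟩, hgen⟩ := hT.exists_generator
  have hTeq : T = Subgroup.zpowers t₀ := by
    ext x
    constructor
    · intro hx
      obtain ⟨k, hk⟩ := Subgroup.mem_zpowers_iff.mp (hgen ⟨x, hx⟩)
      refine Subgroup.mem_zpowers_iff.mpr ⟨k, ?_⟩
      have := congrArg Subtype.val hk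
      simpa using this
    · intro hx
      obtain ⟨k, rfl⟩ := Subgroup.mem_zpowers_iff.mp hx
      exact T.zpow_mem ht₀T k
  subst hTeq
  clear hgen ht₀T
  rw [Nat.card_zpowers] at hfac hdvd ⊢
  have hN0 : orderOf t₀ ≠ 0 := (orderOf_pos t₀).ne'
  obtain ⟨k, hk⟩ : ∃ k, k = (orderOf t₀).factorization ℓ := ⟨_, rfl⟩
  obtain ⟨m, hm⟩ : ∃ m, m = orderOf t₀ / ℓ ^ k := ⟨_, rfl⟩
  have hNkm : ℓ ^ k * m = orderOf t₀ := by
    rw [hm, hk]; exact Nat.ordProj_mul_ordCompl_eq_self _ _
  have hk1 : 1 ≤ k := by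
    rw [hk]; exact hℓ.factorization_pos_of_dvd hN0 hdvd
  have hm0 : m ≠ 0 := by
    rintro rfl
    rw [mul_zero] at hNkm
    exact hN0 hNkm.symm
  have hℓk0 : ℓ ^ k ≠ 0 := pow_ne_zero _ hℓ.ne_zero
  -- the Sylow subgroup of the torus
  have hu : orderOf (t₀ ^ m) = ℓ ^ k := by
    rw [orderOf_pow_of_dvd hm0 (Dvd.intro_left _ hNkm), ← hNkm, Nat.mul_div_cancel _ (Nat.pos_of_ne_zero hm0)]
  have hcardQ : Nat.card (Subgroup.zpowers (t₀ ^ m)) = ℓ ^ (Nat.card G).factorization ℓ := by
    rw [Nat.card_zpowers, hu, hfac, hk]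
  -- an element of order ℓ
  have hx₀ : orderOf (t₀ ^ (m * ℓ ^ (k - 1))) = ℓ := by
    have hdiv : m * ℓ ^ (k - 1) * ℓ = orderOf t₀ := by
      rw [← hNkm, mul_assoc, ← pow_succ, Nat.sub_add_cancel hk1, mul_comm]
    rw [orderOf_pow_of_dvd (mul_ne_zero hm0 (pow_ne_zero _ hℓ.ne_zero)) (Dvd.intro _ hdiv), ← hdiv,
      Nat.mul_div_cancel_left _ (Nat.pos_of_ne_zero (mul_ne_zero hm0 (pow_ne_zero _ hℓ.ne_zero)))]
  have hx₀Q : t₀ ^ (m * ℓ ^ (k - 1)) ∈ Subgroup.zpowers (t₀ ^ m) := by
    rw [pow_mul]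
    exact Subgroup.pow_mem _ (Subgroup.mem_zpowers _) _
  have hx₀T : t₀ ^ (m * ℓ ^ (k - 1)) ∈ Subgroup.zpowers t₀ := Subgroup.pow_mem _ (Subgroup.mem_zpowers _) _
  -- centralizer of Q
  have hCQ : Subgroup.centralizer ((Subgroup.zpowers (t₀ ^ m) : Subgroup G) : Set G) = Subgroup.zpowers t₀ := by
    apply le_antisymm
    · intro y hy
      rw [← hcent _ hx₀T hx₀]
      rw [Subgroup.mem_centralizer_iff] at hy ⊢
      intro x hx
      rw [Set.mem_singleton_iff] at hx
      subst hx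
      exact hy _ hx₀Q
    · intro t ht
      rw [Subgroup.mem_centralizer_iff]
      intro q hq
      obtain ⟨i, rfl⟩ := Subgroup.mem_zpowers_iff.mp ht
      obtain ⟨j, rfl⟩ := Subgroup.mem_zpowers_iff.mp hq
      exact (((Commute.refl t₀).pow_left m).zpow_left j).zpow_right i
  -- normalizer of Q
  have hNQ : Subgroup.normalizer ((Subgroup.zpowers (t₀ ^ m) : Subgroup G) : Set G) =
      Subgroup.normalizer ((Subgroup.zpowers t₀ : Subgroup G) : Set G) := by
    apply le_antisymm
    · have := norm_le_norm_cent (Subgroup.zpowers (t₀ ^ m))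
      rw [hCQ] at this
      exact this
    · have key : ∀ y, y ∈ Subgroup.normalizer ((Subgroup.zpowers t₀ : Subgroup G) : Set G) →
          ∀ q, q ∈ Subgroup.zpowers (t₀ ^ m) → y * q * y⁻¹ ∈ Subgroup.zpowers (t₀ ^ m) := by
        intro y hy q hq
        rw [Subgroup.mem_set_normalizer_iff] at hy
        have h1 : y * t₀ * y⁻¹ ∈ Subgroup.zpowers t₀ := (hy t₀).mp (Subgroup.mem_zpowers t₀)
        obtain ⟨j, hj⟩ := Subgroup.mem_zpowers_iff.mp h1
        obtain ⟨i, rfl⟩ := Subgroup.mem_zpowers_iff.mp hq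
        have h2 : y * (t₀ ^ m) ^ i * y⁻¹ = ((t₀ ^ m) ^ j) ^ i := by
          have e1 : y * (t₀ ^ m) ^ i * y⁻¹ = ((y * t₀ * y⁻¹) ^ m) ^ i := by
            rw [conj_pow, conj_zpow]
          have e2 : (t₀ ^ j) ^ m = (t₀ ^ m) ^ j := by
            rw [← zpow_natCast, ← zpow_mul, ← zpow_natCast t₀ m, ← zpow_mul, mul_comm]
          rw [e1, ← hj, e2]
        rw [h2]
        exact Subgroup.zpow_mem _ (Subgroup.zpow_mem _ (Subgroup.mem_zpowers _) _) _
      intro y hy
      rw [Subgroup.mem_set_normalizer_iff]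
      intro q
      constructor
      · intro hq
        exact key y hy q hq
      · intro hq
        have := key y⁻¹ (Subgroup.inv_mem _ hy) _ hq
        simpa [mul_assoc] using this
  -- conjugate to P
  obtain ⟨g, hg⟩ := MulAction.exists_smul_eq G (Sylow.ofCard (Subgroup.zpowers (t₀ ^ m)) hcardQ) P
  have hP : ∀ x, x ∈ (P : Subgroup G) ↔ g⁻¹ * x * g ∈ Subgroup.zpowers (t₀ ^ m) := by
    intro x
    rw [← hg, Sylow.coe_subgroup_smul, Subgroup.mem_pointwise_smul_iff_inv_smul_mem]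
    simp [MulAut.smul_def, Sylow.coe_ofCard]
  obtain ⟨hc, hn⟩ := conj_transport g (Subgroup.zpowers (t₀ ^ m)) (P : Subgroup G) hP
  rw [hCQ] at hc
  rw [hNQ] at hn
  refine ⟨?_, ?_, ?_⟩
  · rw [Nat.card_congr (conjEquiv g _ _ hc).toEquiv, Nat.card_zpowers]
  · exact isCyclic_of_surjective (conjEquiv g _ _ hc).symm.toMonoidHom (conjEquiv g _ _ hc).symm.surjective
  · exact Nat.card_congr (conjEquiv g _ _ hn).toEquiv

end abstract

section split

variable {F : Type*} [Field F]

/-- diagonal matrices -/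
def dg (a : Fˣ) : Matrix.SpecialLinearGroup (Fin 2) F :=
  ⟨!![(a : F), 0; 0, (a : F)⁻¹], by simp [Matrix.det_fin_two_of]⟩

lemma dg_coe (a : Fˣ) :
    ((dg a : Matrix.SpecialLinearGroup (Fin 2) F) : Matrix (Fin 2) (Fin 2) F) = !![(a : F), 0; 0, (a : F)⁻¹] := rfl

/-- the diagonal embedding of `Fˣ` -/
def diagHom : Fˣ →* Matrix.SpecialLinearGroup (Fin 2) F where
  toFun a := dg a
  map_one' := by
    ext i j
    fin_cases i <;> fin_cases j <;> simp [dg_coe]
  map_mul' a b := by
    ext i j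
    fin_cases i <;> fin_cases j <;>
      simp only [Matrix.SpecialLinearGroup.coe_mul, Matrix.mul_apply, Fin.sum_univ_two] <;>
      simp [dg_coe, mul_comm]

lemma diagHom_coe (a : Fˣ) :
    ((diagHom a : Matrix.SpecialLinearGroup (Fin 2) F) : Matrix (Fin 2) (Fin 2) F) = !![(a : F), 0; 0, (a : F)⁻¹] := rfl

lemma diagHom_injective : Function.Injective (diagHom (F := F)) := by
  intro a b hab
  have := congrArg (fun g : Matrix.SpecialLinearGroup (Fin 2) F => (g : Matrix (Fin 2) (Fin 2) F) 0 0) hab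
  simp [diagHom_coe] at this
  exact Units.ext this

lemma mem_diag_range (g : Matrix.SpecialLinearGroup (Fin 2) F) :
    g ∈ (diagHom (F := F)).range ↔
      ((g : Matrix (Fin 2) (Fin 2) F) 0 1 = 0 ∧ (g : Matrix (Fin 2) (Fin 2) F) 1 0 = 0) := by
  constructor
  · rintro ⟨a, rfl⟩
    simp [diagHom_coe]
  · rintro ⟨h1, h2⟩
    have hdet := Cfsg.Agent.S2428.det_eq g
    rw [h1, zero_mul, sub_zero] at hdet
    refine ⟨Units.mk0 _ (left_ne_zero_of_mul_eq_one hdet), ?_⟩
    ext i j
    fin_cases i <;> fin_cases j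
    · simp [diagHom_coe]
    · simp [diagHom_coe, h1]
    · simp [diagHom_coe, h2]
    · simp [diagHom_coe]
      exact (eq_inv_of_mul_eq_one_right hdet).symm

lemma sq_one_of_diag (g : Matrix.SpecialLinearGroup (Fin 2) F)
    (h1 : (g : Matrix (Fin 2) (Fin 2) F) 0 1 = 0) (h2 : (g : Matrix (Fin 2) (Fin 2) F) 1 0 = 0)
    (hsq : (g : Matrix (Fin 2) (Fin 2) F) 0 0 ^ 2 = 1) : g * g = 1 := by
  have hdet := Cfsg.Agent.S2428.det_eq g
  rw [h1, zero_mul, sub_zero] at hdet
  have h11 : (g : Matrix (Fin 2) (Fin 2) F) 1 1 = (g : Matrix (Fin 2) (Fin 2) F) 0 0 := by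
    linear_combination (-((g : Matrix (Fin 2) (Fin 2) F) 1 1)) * hsq + (g : Matrix (Fin 2) (Fin 2) F) 0 0 * hdet
  ext i j
  fin_cases i <;> fin_cases j
  · simp only [Matrix.SpecialLinearGroup.coe_mul, Matrix.mul_apply, Fin.sum_univ_two]
    simp [h1]
    linear_combination hsq
  · simp only [Matrix.SpecialLinearGroup.coe_mul, Matrix.mul_apply, Fin.sum_univ_two]
    simp [h1]
  · simp only [Matrix.SpecialLinearGroup.coe_mul, Matrix.mul_apply, Fin.sum_univ_two]
    simp [h2]
  · simp only [Matrix.SpecialLinearGroup.coe_mul, Matrix.mul_apply, Fin.sum_univ_two]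
    simp [h2, h11]
    linear_combination hsq

end split

lemma not_sq_one {G : Type*} [Group G] (ℓ : ℕ) [Fact ℓ.Prime] (hℓ : ℓ ≠ 2) (x : G) (hx : orderOf x = ℓ) :
    x * x ≠ 1 := by
  intro h
  have h2 : x ^ 2 = 1 := by rw [pow_two]; exact h
  have := orderOf_dvd_of_pow_eq_one h2
  rw [hx] at this
  have hp : ℓ.Prime := Fact.out
  have := (Nat.prime_dvd_prime_iff_eq hp Nat.prime_two).mp this
  exact hℓ this

theorem result {F : Type*} [Field F] [Fintype F] (hodd : Odd (Fintype.card F)) (ℓ : ℕ) [Fact ℓ.Prime] (hℓ : ℓ ≠ 2)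
    (P : Sylow ℓ (Matrix.SpecialLinearGroup (Fin 2) F)) :
    (ℓ ∣ Fintype.card F - 1 →
      Nat.card (Subgroup.centralizer ((P : Subgroup (Matrix.SpecialLinearGroup (Fin 2) F)) : Set (Matrix.SpecialLinearGroup (Fin 2) F))) = Fintype.card F - 1 ∧
      IsCyclic (Subgroup.centralizer ((P : Subgroup (Matrix.SpecialLinearGroup (Fin 2) F)) : Set (Matrix.SpecialLinearGroup (Fin 2) F))) ∧
      Nat.card (Subgroup.normalizer ((P : Subgroup (Matrix.SpecialLinearGroup (Fin 2) F)) : Set (Matrix.SpecialLinearGroup (Fin 2) F))) = 2 * (Fintype.card F - 1)) ∧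
    (ℓ ∣ Fintype.card F + 1 →
      Nat.card (Subgroup.centralizer ((P : Subgroup (Matrix.SpecialLinearGroup (Fin 2) F)) : Set (Matrix.SpecialLinearGroup (Fin 2) F))) = Fintype.card F + 1 ∧
      IsCyclic (Subgroup.centralizer ((P : Subgroup (Matrix.SpecialLinearGroup (Fin 2) F)) : Set (Matrix.SpecialLinearGroup (Fin 2) F))) ∧
      Nat.card (Subgroup.normalizer ((P : Subgroup (Matrix.SpecialLinearGroup (Fin 2) F)) : Set (Matrix.SpecialLinearGroup (Fin 2) F))) = 2 * (Fintype.card F + 1)) := by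
  classical
  have hp : ℓ.Prime := Fact.out
  have hq : 2 ≤ Fintype.card F := Fintype.one_lt_card
  have hcardG : Nat.card (Matrix.SpecialLinearGroup (Fin 2) F) =
      (Fintype.card F - 1) * Fintype.card F * (Fintype.card F + 1) := by
    rw [Nat.card_eq_fintype_card]
    exact Cfsg.Agent.S2433.card_SL
  have hℓ3 : 3 ≤ ℓ := by
    have := hp.two_le
    omega
  constructor
  · intro hdvd
    -- factorization
    have hnq : ¬ ℓ ∣ Fintype.card F := by
      intro h
      have : ℓ ∣ 1 := by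
        have h1 := Nat.dvd_sub h hdvd
        rwa [show Fintype.card F - (Fintype.card F - 1) = 1 by omega] at h1
      have := Nat.le_of_dvd one_pos this
      omega
    have hnq1 : ¬ ℓ ∣ Fintype.card F + 1 := by
      intro h
      have : ℓ ∣ 2 := by
        have h1 := Nat.dvd_sub h hdvd
        rwa [show Fintype.card F + 1 - (Fintype.card F - 1) = 2 by omega] at h1
      have := Nat.le_of_dvd two_pos this
      omega
    have hcD : Nat.card (diagHom (F := F)).range = Fintype.card F - 1 := by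
      rw [← Nat.card_congr (MonoidHom.ofInjective diagHom_injective).toEquiv, Nat.card_eq_fintype_card,
        Fintype.card_units]
    have hfac : (Nat.card (Matrix.SpecialLinearGroup (Fin 2) F)).factorization ℓ =
        (Nat.card (diagHom (F := F)).range).factorization ℓ := by
      rw [hcD, hcardG, Nat.factorization_mul (Nat.mul_ne_zero (by omega) (by omega)) (by omega),
        Nat.factorization_mul (by omega) (by omega)]
      simp [Nat.factorization_eq_zero_of_not_dvd hnq, Nat.factorization_eq_zero_of_not_dvd hnq1]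
    have hcent : ∀ x ∈ (diagHom (F := F)).range, orderOf x = ℓ →
        Subgroup.centralizer ({x} : Set (Matrix.SpecialLinearGroup (Fin 2) F)) = (diagHom (F := F)).range := by
      intro x hx hox
      obtain ⟨h1, h2⟩ := (mem_diag_range x).mp hx
      have hda : (x : Matrix (Fin 2) (Fin 2) F) 0 0 ^ 2 ≠ 1 :=
        fun h => not_sq_one ℓ hℓ x hox (sq_one_of_diag x h1 h2 h)
      ext g
      rw [Cfsg.Agent.S2428.mem_cent_iff x h1 h2 hda g, mem_diag_range]
    have hcyc : IsCyclic (diagHom (F := F)).range :=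
      isCyclic_of_surjective (diagHom (F := F)).rangeRestrict (diagHom (F := F)).rangeRestrict_surjective
    obtain ⟨r1, r2, r3⟩ := sylow_torus ℓ (diagHom (F := F)).range hcyc hfac (by rw [hcD]; exact hdvd) hcent P
    refine ⟨by rw [r1, hcD], r2, ?_⟩
    rw [r3]
    obtain ⟨x, hx⟩ := exists_prime_orderOf_dvd_card' (G := (diagHom (F := F)).range) ℓ (by rw [hcD]; exact hdvd)
    have hox : orderOf (x : Matrix.SpecialLinearGroup (Fin 2) F) = ℓ := by
      rw [Subgroup.orderOf_coe]; exact hx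
    obtain ⟨h1, h2⟩ := (mem_diag_range x.1).mp x.2
    have hda : (x.1 : Matrix (Fin 2) (Fin 2) F) 0 0 ^ 2 ≠ 1 :=
      fun h => not_sq_one ℓ hℓ x.1 hox (sq_one_of_diag x.1 h1 h2 h)
    have h28 := (Cfsg.Agent.S2428.result hodd x.1 h1 h2 hda).2.1
    rw [hcent x.1 x.2 hox] at h28
    exact h28
  · intro hdvd
    obtain ⟨T', hcyc, hcardT', -, hcentT', -, hN, -, -⟩ := Cfsg.Agent.S2429.result hodd
    have hnq : ¬ ℓ ∣ Fintype.card F := by
      intro h
      have : ℓ ∣ 1 := by
        have h1 := Nat.dvd_sub hdvd h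
        rwa [show Fintype.card F + 1 - Fintype.card F = 1 by omega] at h1
      have := Nat.le_of_dvd one_pos this
      omega
    have hnq1 : ¬ ℓ ∣ Fintype.card F - 1 := by
      intro h
      have : ℓ ∣ 2 := by
        have h1 := Nat.dvd_sub hdvd h
        rwa [show Fintype.card F + 1 - (Fintype.card F - 1) = 2 by omega] at h1
      have := Nat.le_of_dvd two_pos this
      omega
    have hfac : (Nat.card (Matrix.SpecialLinearGroup (Fin 2) F)).factorization ℓ =
        (Nat.card T').factorization ℓ := by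
      rw [hcardT', hcardG, Nat.factorization_mul (Nat.mul_ne_zero (by omega) (by omega)) (by omega),
        Nat.factorization_mul (by omega) (by omega)]
      simp [Nat.factorization_eq_zero_of_not_dvd hnq, Nat.factorization_eq_zero_of_not_dvd hnq1]
    have hcent : ∀ x ∈ T', orderOf x = ℓ →
        Subgroup.centralizer ({x} : Set (Matrix.SpecialLinearGroup (Fin 2) F)) = T' := by
      intro x hx hox
      apply hcentT' x hx
      · intro h1
        have : x = 1 := Subtype.ext h1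
        rw [this, orderOf_one] at hox
        have := hp.one_lt
        omega
      · intro hm1
        apply not_sq_one ℓ hℓ x hox
        apply Subtype.ext
        rw [Matrix.SpecialLinearGroup.coe_mul, hm1]
        simp
    obtain ⟨r1, r2, r3⟩ := sylow_torus ℓ T' hcyc hfac (by rw [hcardT']; exact hdvd) hcent P
    exact ⟨by rw [r1, hcardT'], r2, by rw [r3, hN]⟩

end Cfsg.Agent.S2430
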