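import Cfsg.Statements.S2434
import Cfsg.Agent.Lib.Helper48.SL2l

set_option autoImplicit false
open Cfsg

namespace Cfsg.Agent.S2434

open Cfsg.Agent.Lib.Helper48
open scoped ComplexConjugate
open Cfsg.Agent.S2429 (SL Tns)
open Cfsg.Agent.S2433 (mkB)

/-- Let F be a finite field with q elements, q odd, and C a cyclic subgroup of order q + 1 of SL₂ over F (a non-split torus; it contains the centre). For every homomorphism θ from C to the non-zero complex numbers with θ² ≠ 1 there is an irreducible complex character χ of degree q − 1 such that χ(c) = −θ(c) − θ(c)⁻¹ for every non-central c in C, χ(zg) = θ(z)χ(g) for central z in C, χ vanishes at diagonal elements with entry a, a² ≠ 1, and χ takes the value −1 at every upper unitriangular element other than 1. Conversely every irreducible character of degree q − 1 has, for some such θ, the values −θ(c) − θ(c)⁻¹ at the non-central elements c of C (for q ≥ 5 these are exactly the cuspidal characters of degree q − 1).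 -/
theorem result {F : Type*} [Field F] [Fintype F] (hodd : Odd (Fintype.card F))
    (C : Subgroup (Matrix.SpecialLinearGroup (Fin 2) F)) (hC : IsCyclic C) (hcard : Nat.card C = Fintype.card F + 1) :
    (∀ θ : C →* ℂˣ, (∃ c : C, θ c ^ 2 ≠ 1) →
      ∃ χ : Matrix.SpecialLinearGroup (Fin 2) F → ℂ, Cfsg.IsIrrCharacter (Matrix.SpecialLinearGroup (Fin 2) F) χ ∧ χ 1 = (Fintype.card F : ℂ) - 1 ∧
        (∀ c : C, (c : Matrix.SpecialLinearGroup (Fin 2) F) ∉ Subgroup.center (Matrix.SpecialLinearGroup (Fin 2) F) → χ c = -((θ c).val + (θ c)⁻¹.val)) ∧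
        (∀ c : C, (c : Matrix.SpecialLinearGroup (Fin 2) F) ∈ Subgroup.center (Matrix.SpecialLinearGroup (Fin 2) F) → ∀ g : Matrix.SpecialLinearGroup (Fin 2) F, χ ((c : Matrix.SpecialLinearGroup (Fin 2) F) * g) = (θ c).val * χ g) ∧
        (∀ g : Matrix.SpecialLinearGroup (Fin 2) F, (g : Matrix (Fin 2) (Fin 2) F) 0 1 = 0 → (g : Matrix (Fin 2) (Fin 2) F) 1 0 = 0 → (g : Matrix (Fin 2) (Fin 2) F) 0 0 ^ 2 ≠ 1 → χ g = 0) ∧
        (∀ g : Matrix.SpecialLinearGroup (Fin 2) F, (g : Matrix (Fin 2) (Fin 2) F) 1 0 = 0 → (g : Matrix (Fin 2) (Fin 2) F) 0 0 = 1 → (g : Matrix (Fin 2) (Fin 2) F) 1 1 = 1 → (g : Matrix (Fin 2) (Fin 2) F) 0 1 ≠ 0 → χ g = -1)) ∧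
    (∀ χ : Matrix.SpecialLinearGroup (Fin 2) F → ℂ, Cfsg.IsIrrCharacter (Matrix.SpecialLinearGroup (Fin 2) F) χ → χ 1 = (Fintype.card F : ℂ) - 1 →
      ∃ θ : C →* ℂˣ, (∃ c : C, θ c ^ 2 ≠ 1) ∧
        ∀ c : C, (c : Matrix.SpecialLinearGroup (Fin 2) F) ∉ Subgroup.center (Matrix.SpecialLinearGroup (Fin 2) F) → χ c = -((θ c).val + (θ c)⁻¹.val)) := by
  classical
  have hcardF : Fintype.card F % 2 = 1 := Nat.odd_iff.mp hodd
  have hF : ringChar F ≠ 2 := by
    intro h
    have := FiniteField.even_card_iff_char_two.mp h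
    omega
  have h2 : (2 : F) ≠ 0 := Ring.two_ne_zero hF
  obtain ⟨ε, hε⟩ := FiniteField.exists_nonsquare hF
  have hψ := AddChar.FiniteField.primitiveChar_to_Complex_isPrimitive F
  let _ : Fintype (Tns ε →* ℂˣ) := Fintype.ofFinite _
  let _ : Fintype (MulChar F ℂ) := Fintype.ofFinite _
  have hq2 : 2 ≤ Fintype.card F := Fintype.one_lt_card
  obtain ⟨h, hsub, hmem⟩ := conj_cyclic ε hε hcardF h2 C hC hcard
  constructor
  · intro θ hθ
    -- transport θ to the torus
    have hrel : ∀ c : C, θ c = (θ.comp (toC ε C h hmem)) ⟨h * c.1 * h⁻¹, hsub c.1 c.2⟩ := by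
      intro c
      show θ c = θ ⟨h⁻¹ * (h * c.1 * h⁻¹) * h, _⟩
      congr 1
      apply Subtype.ext
      show c.1 = h⁻¹ * (h * c.1 * h⁻¹) * h
      group
    have hne : θ.comp (toC ε C h hmem) ≠ (θ.comp (toC ε C h hmem))⁻¹ := by
      intro hinv
      obtain ⟨c, hc⟩ := hθ
      apply hc
      rw [hrel c]
      exact theta_sq ε _ hinv _
    refine ⟨piC (AddChar.FiniteField.primitiveChar_to_Complex F) ε (θ.comp (toC ε C h hmem)),
      pi_irr _ hψ ε hε h2 hcardF _ hne, pi_deg _ hψ ε hε h2 _, ?_, ?_, ?_, ?_⟩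
    · intro c hc
      exact pi_C_noncentral _ ε hε h2 hcardF C h hsub θ _ hrel c hc
    · intro c hc g
      exact pi_C_central _ ε h2 C h hsub θ _ hrel c hc g
    · intro g h01 h10 hsq
      obtain ⟨a, x, rfl⟩ := eq_mkB_of_10 g h10
      rw [mkB_00] at hsq
      have ha : (a : F) ≠ (a : F)⁻¹ := by
        intro h'
        apply hsq
        rw [pow_two]
        nth_rewrite 2 [h']
        exact mul_inv_cancel₀ a.ne_zero
      rw [pi_B _ hψ ε hε h2, if_neg ha]
    · intro g h10 h00 h11 h01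
      obtain ⟨a, x, rfl⟩ := eq_mkB_of_10 g h10
      rw [mkB_00] at h00
      rw [mkB_01] at h01
      have ha : a = 1 := Units.ext h00
      subst ha
      rw [pi_one _ hψ ε hε h2, if_neg h01]
  · intro χ hχ hdeg
    obtain ⟨d, hx, hcases⟩ := classify_nat (AddChar.FiniteField.primitiveChar_to_Complex F) hψ ε hε h2
      hcardF hodd χ hχ
    rw [hx] at hdeg
    have hd : d + 1 = Fintype.card F :=
      Nat.cast_injective (R := ℂ) (by push_cast; linear_combination hdeg)
    rcases hcases with h' | ⟨h', -⟩ | ⟨h', -⟩ | ⟨h', -, α₀, hα1, hαi, hval⟩ | ⟨-, -, θ', hθ', rfl⟩ |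
      ⟨h', -⟩
    · exfalso; omega
    · exfalso; omega
    · exfalso; omega
    · -- q = 3
      have hq3 : Fintype.card F = 3 := by omega
      obtain ⟨θ', hθ'⟩ := exists_theta_neg ε hε h2
      have key : ∀ (c' : SL F) (hc' : c' ∈ Tns ε), c'.1 1 0 ≠ 0 →
          ((θ' ⟨c', hc'⟩ : ℂˣ) : ℂ) ^ 2 = -1 := by
        intro c' hc' h10
        have e : (⟨c', hc'⟩ : Tns ε) * ⟨c', hc'⟩ = ⟨-1, negOne_mem ε⟩ :=
          Subtype.ext (T_sq_q3 ε hε hq3 c' hc' h10)
        rw [pow_two, ← Units.val_mul, ← map_mul, e]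
        exact hθ'
      have hrel : ∀ c : C, (θ'.comp (toT ε C h hsub)) c = θ' ⟨h * c.1 * h⁻¹, hsub c.1 c.2⟩ :=
        fun c => rfl
      refine ⟨θ'.comp (toT ε C h hsub), ?_, ?_⟩
      · obtain ⟨c', hc', h10⟩ := Cfsg.Agent.S2429.exists_noncentral ε hε h2
        refine ⟨⟨h⁻¹ * c' * h, hmem c' hc'⟩, ?_⟩
        intro hsq
        have e : (θ'.comp (toT ε C h hsub)) ⟨h⁻¹ * c' * h, hmem c' hc'⟩ = θ' ⟨c', hc'⟩ := by
          rw [hrel]
          congr 1
          apply Subtype.ext
          show h * (h⁻¹ * c' * h) * h⁻¹ = c'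
          group
        rw [e] at hsq
        have h1 := key c' hc' h10
        rw [← Units.val_pow_eq_pow_val, hsq, Units.val_one] at h1
        norm_num at h1
      · intro c hc
        have h10 := C_noncentral_10 ε C h hsub c hc
        have hh := hsub c.1 c.2
        have hcf := isClassFunction_of_char χ (Lib.Helper46.isCharacter_of_irr _ hχ)
        have hv : χ c = 0 := by
          rw [← hcf c.1 h, hval _ (by rw [Gam_T _ ε hε h2 _ _ _ hh, Gam_T _ ε hε h2 _ _ _ hh, if_neg h10]),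
            PS_T' ε hε _ _ hh, if_neg h10, zero_div]
        rw [hv, hrel c]
        have hk := key _ hh h10
        have hne : ((θ' ⟨h * c.1 * h⁻¹, hh⟩ : ℂˣ) : ℂ) ≠ 0 := Units.ne_zero _
        rw [Units.val_inv_eq_inv_val]
        field_simp
        linear_combination hk
    · -- χ = piC θ'
      have hrel : ∀ c : C, (θ'.comp (toT ε C h hsub)) c = θ' ⟨h * c.1 * h⁻¹, hsub c.1 c.2⟩ :=
        fun c => rfl
      refine ⟨θ'.comp (toT ε C h hsub), ?_, ?_⟩
      · by_contra hcon
        push Not at hcon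
        apply hθ'
        apply MonoidHom.ext
        intro c'
        rw [MonoidHom.inv_apply]
        have e : (θ'.comp (toT ε C h hsub)) ⟨h⁻¹ * c'.1 * h, hmem c'.1 c'.2⟩ = θ' c' := by
          rw [hrel]
          congr 1
          apply Subtype.ext
          show h * (h⁻¹ * c'.1 * h) * h⁻¹ = c'.1
          group
        have := hcon ⟨h⁻¹ * c'.1 * h, hmem c'.1 c'.2⟩
        rw [e, pow_two] at this
        exact eq_inv_of_mul_eq_one_left this
      · intro c hc
        exact pi_C_noncentral _ ε hε h2 hcardF C h hsub _ θ' hrel c hc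
    · exfalso; omega

end Cfsg.Agent.S2434
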