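import Cfsg.Statements.S2435
import Cfsg.Agent.Lib.Helper48.SL2k

set_option autoImplicit false
open Cfsg

namespace Cfsg.Agent.S2435

open Cfsg.Agent.Lib.Helper48
open scoped ComplexConjugate
open Cfsg.Agent.S2429 (SL Tns)

/-- Let F be a finite field with q elements, q odd and q ≥ 5, and χ an irreducible complex character of SL₂ over F. If χ has degree (q + 1)/2, then at a diagonal element with entry a, a² ≠ 1, χ takes the value 1 when a is a square in F and −1 otherwise. If χ has degree (q − 1)/2, then at an element g with no eigenvector in F² (so g has order dividing q + 1), χ takes the value −1 when g raised to the power (q + 1)/2 is the identity and the value 1 otherwise. -/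
theorem result {F : Type*} [Field F] [Fintype F] (hodd : Odd (Fintype.card F)) (hq : 5 ≤ Fintype.card F)
    (χ : Matrix.SpecialLinearGroup (Fin 2) F → ℂ) (hχ : Cfsg.IsIrrCharacter (Matrix.SpecialLinearGroup (Fin 2) F) χ) (g : Matrix.SpecialLinearGroup (Fin 2) F) :
    (χ 1 = (((Fintype.card F + 1) / 2 : ℕ) : ℂ) → (g : Matrix (Fin 2) (Fin 2) F) 0 1 = 0 → (g : Matrix (Fin 2) (Fin 2) F) 1 0 = 0 → (g : Matrix (Fin 2) (Fin 2) F) 0 0 ^ 2 ≠ 1 →
      (IsSquare ((g : Matrix (Fin 2) (Fin 2) F) 0 0) → χ g = 1) ∧ (¬ IsSquare ((g : Matrix (Fin 2) (Fin 2) F) 0 0) → χ g = -1)) ∧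
    (χ 1 = (((Fintype.card F - 1) / 2 : ℕ) : ℂ) → (∀ (c : F) (v : Fin 2 → F), v ≠ 0 → (g : Matrix (Fin 2) (Fin 2) F).mulVec v ≠ c • v) →
      (((g ^ ((Fintype.card F + 1) / 2)) : Matrix (Fin 2) (Fin 2) F) = 1 → χ g = -1) ∧ (((g ^ ((Fintype.card F + 1) / 2)) : Matrix (Fin 2) (Fin 2) F) ≠ 1 → χ g = 1)) := by
  classical
  have hcard : Fintype.card F % 2 = 1 := Nat.odd_iff.mp hodd
  have hF : ringChar F ≠ 2 := by
    intro h
    have := FiniteField.even_card_iff_char_two.mp h
    omega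
  have h2 : (2 : F) ≠ 0 := Ring.two_ne_zero hF
  obtain ⟨ε, hε⟩ := FiniteField.exists_nonsquare hF
  have hψ := AddChar.FiniteField.primitiveChar_to_Complex_isPrimitive F
  let _ : Fintype (Tns ε →* ℂˣ) := Fintype.ofFinite _
  let _ : Fintype (MulChar F ℂ) := Fintype.ofFinite _
  obtain ⟨d, hx, hcases⟩ := classify_nat (AddChar.FiniteField.primitiveChar_to_Complex F) hψ ε hε h2
    hcard hodd χ hχ
  constructor
  · intro hdeg h01 h10 hsq
    rw [hx] at hdeg
    have hd := Nat.cast_injective hdeg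
    rcases hcases with h' | ⟨h', -⟩ | ⟨h', -⟩ | ⟨-, -, α₀, hα1, hαi, hval⟩ | ⟨h', -⟩ | ⟨h', -⟩
    · exfalso; omega
    · exfalso; omega
    · exfalso; omega
    · have hv := half_diag (AddChar.FiniteField.primitiveChar_to_Complex F) ε hodd α₀ hαi χ hval g
        h01 h10 hsq
      have ha0 : (g : Matrix (Fin 2) (Fin 2) F) 0 0 ≠ 0 := by
        intro h0
        apply hsq
        have hdet := Cfsg.Agent.S2429.det_eq g
        rw [h0, h10] at hdet
        simp at hdet
      constructor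
      · intro hs
        rw [hv, alpha_isSquare α₀ hαi _ ha0 hs]
      · intro hs
        rw [hv, alpha_nonsq α₀ hα1 hαi _ hs]
    · exfalso; omega
    · exfalso; omega
  · intro hdeg hg
    rw [hx] at hdeg
    have hd := Nat.cast_injective hdeg
    rcases hcases with h' | ⟨h', -⟩ | ⟨h', -⟩ | ⟨h', -⟩ | ⟨h', -⟩ | ⟨-, -, θ₀, hθ1, hθi, hval⟩
    · exfalso; omega
    · exfalso; omega
    · exfalso; omega
    · exfalso; omega
    · exfalso; omega
    · obtain ⟨h, hc, hv⟩ := half_ell (AddChar.FiniteField.primitiveChar_to_Complex F) ε hε h2 hcard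
        θ₀ hθi χ (isClassFunction_of_char χ (Lib.Helper46.isCharacter_of_irr _ hχ)) hval g hg
      have hiff := theta_half ε hε h2 hcard θ₀ hθ1 hθi ⟨h * g * h⁻¹, hc⟩
      have hpow : (⟨h * g * h⁻¹, hc⟩ : Tns ε) ^ ((Fintype.card F + 1) / 2) = 1 ↔
          ((g ^ ((Fintype.card F + 1) / 2) : SL F) : Matrix (Fin 2) (Fin 2) F) = 1 := by
        rw [Subtype.ext_iff]
        show (h * g * h⁻¹) ^ ((Fintype.card F + 1) / 2) = 1 ↔ _
        rw [conj_pow, conj_eq_one_iff]
        constructor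
        · intro h'
          rw [h']; rfl
        · intro h'
          exact Subtype.ext h'
      constructor
      · intro hm
        have h1 := hiff.mpr (hpow.mpr hm)
        rw [hv, h1, Units.val_one]
      · intro hm
        have h1 : θ₀ ⟨h * g * h⁻¹, hc⟩ ≠ 1 := fun h1 => hm (hpow.mp (hiff.mp h1))
        have hsq := theta_sq ε θ₀ hθi ⟨h * g * h⁻¹, hc⟩
        have hsq' : ((θ₀ ⟨h * g * h⁻¹, hc⟩ : ℂˣ) : ℂ) ^ 2 = 1 := by
          rw [← Units.val_pow_eq_pow_val, hsq, Units.val_one]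
        have hne : ((θ₀ ⟨h * g * h⁻¹, hc⟩ : ℂˣ) : ℂ) ≠ 1 := by
          intro h'
          apply h1
          apply Units.ext
          rw [h', Units.val_one]
        have : (((θ₀ ⟨h * g * h⁻¹, hc⟩ : ℂˣ) : ℂ) - 1) * (((θ₀ ⟨h * g * h⁻¹, hc⟩ : ℂˣ) : ℂ) + 1) = 0 := by
          linear_combination hsq'
        rcases mul_eq_zero.mp this with h' | h'
        · exact absurd (by linear_combination h') hne
        · rw [hv]; linear_combination -h'

end Cfsg.Agent.S2435
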