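import Cfsg.Statements.S2438
import Cfsg.Agent.Lib.Helper48.SL2j

set_option autoImplicit false
open Cfsg

namespace Cfsg.Agent.S2438

open Cfsg.Agent.Lib.Helper48
open scoped ComplexConjugate
open Cfsg.Agent.S2429 (SL Tns)

lemma final_aux (q d : ℕ) (hq : 5 ≤ q) (hqodd : q % 2 = 1) (x S : ℂ) (hx : x = (d : ℂ))
    (hcases : d = 1 ∨ (d = q ∧ S = q) ∨ (d = q + 1 ∧ S = 2 * q) ∨ (d = (q + 1) / 2 ∧ S = q) ∨
      (d = q - 1 ∧ S = 0) ∨ (d = (q - 1) / 2 ∧ S = 0)) :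
    (x = (q : ℂ) + 1 → S = 2 * (q : ℂ)) ∧ (x = (q : ℂ) → S = (q : ℂ)) ∧ (x = (q : ℂ) - 1 → S = 0) ∧
      (x = (((q + 1) / 2 : ℕ) : ℂ) → S = (q : ℂ)) ∧ (x = (((q - 1) / 2 : ℕ) : ℂ) → S = 0) := by
  subst hx
  have e1 : (d : ℂ) = (q : ℂ) + 1 → d = q + 1 := fun h =>
    Nat.cast_injective (R := ℂ) (by push_cast; exact h)
  have e2 : (d : ℂ) = (q : ℂ) → d = q := fun h => Nat.cast_injective h
  have e3 : (d : ℂ) = (q : ℂ) - 1 → d + 1 = q := fun h =>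
    Nat.cast_injective (R := ℂ) (by push_cast; linear_combination h)
  have e4 : (d : ℂ) = (((q + 1) / 2 : ℕ) : ℂ) → d = (q + 1) / 2 := fun h => Nat.cast_injective h
  have e5 : (d : ℂ) = (((q - 1) / 2 : ℕ) : ℂ) → d = (q - 1) / 2 := fun h => Nat.cast_injective h
  refine ⟨fun h => ?_, fun h => ?_, fun h => ?_, fun h => ?_, fun h => ?_⟩
  · have := e1 h
    rcases hcases with h' | ⟨h', hS⟩ | ⟨h', hS⟩ | ⟨h', hS⟩ | ⟨h', hS⟩ | ⟨h', hS⟩ <;>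
      first | exact hS | (exfalso; omega)
  · have := e2 h
    rcases hcases with h' | ⟨h', hS⟩ | ⟨h', hS⟩ | ⟨h', hS⟩ | ⟨h', hS⟩ | ⟨h', hS⟩ <;>
      first | exact hS | (exfalso; omega)
  · have := e3 h
    rcases hcases with h' | ⟨h', hS⟩ | ⟨h', hS⟩ | ⟨h', hS⟩ | ⟨h', hS⟩ | ⟨h', hS⟩ <;>
      first | exact hS | (exfalso; omega)
  · have := e4 h
    rcases hcases with h' | ⟨h', hS⟩ | ⟨h', hS⟩ | ⟨h', hS⟩ | ⟨h', hS⟩ | ⟨h', hS⟩ <;>
      first | exact hS | (exfalso; omega)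
  · have := e5 h
    rcases hcases with h' | ⟨h', hS⟩ | ⟨h', hS⟩ | ⟨h', hS⟩ | ⟨h', hS⟩ | ⟨h', hS⟩ <;>
      first | exact hS | (exfalso; omega)

/-- Let F be a finite field with q elements, q odd, q ≥ 5, U the upper unitriangular subgroup of SL₂ over F, and χ an irreducible complex character. The sum of the values of χ over U equals 2q, q, 0, q, 0 according as the degree of χ is q + 1, q, q − 1, (q + 1)/2, (q − 1)/2; so among these five degrees the sum vanishes exactly for the degrees q − 1 and (q − 1)/2, i.e. the irreducible characters of those two degrees are the ones whose restriction to U does not contain the trivial character (the cuspidal characters), while those of degree q + 1, q and (q + 1)/2 are not cuspidal. -/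
theorem result {F : Type*} [Field F] [Fintype F] [DecidableEq F] (hodd : Odd (Fintype.card F)) (hq : 5 ≤ Fintype.card F)
    (χ : Matrix.SpecialLinearGroup (Fin 2) F → ℂ) (hχ : Cfsg.IsIrrCharacter (Matrix.SpecialLinearGroup (Fin 2) F) χ) :
    (χ 1 = (Fintype.card F : ℂ) + 1 →
      (∑ g : Matrix.SpecialLinearGroup (Fin 2) F, if (g : Matrix (Fin 2) (Fin 2) F) 1 0 = 0 ∧ (g : Matrix (Fin 2) (Fin 2) F) 0 0 = 1 ∧ (g : Matrix (Fin 2) (Fin 2) F) 1 1 = 1 then χ g else 0) = 2 * (Fintype.card F : ℂ)) ∧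
    (χ 1 = (Fintype.card F : ℂ) →
      (∑ g : Matrix.SpecialLinearGroup (Fin 2) F, if (g : Matrix (Fin 2) (Fin 2) F) 1 0 = 0 ∧ (g : Matrix (Fin 2) (Fin 2) F) 0 0 = 1 ∧ (g : Matrix (Fin 2) (Fin 2) F) 1 1 = 1 then χ g else 0) = (Fintype.card F : ℂ)) ∧
    (χ 1 = (Fintype.card F : ℂ) - 1 →
      (∑ g : Matrix.SpecialLinearGroup (Fin 2) F, if (g : Matrix (Fin 2) (Fin 2) F) 1 0 = 0 ∧ (g : Matrix (Fin 2) (Fin 2) F) 0 0 = 1 ∧ (g : Matrix (Fin 2) (Fin 2) F) 1 1 = 1 then χ g else 0) = 0) ∧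
    (χ 1 = (((Fintype.card F + 1) / 2 : ℕ) : ℂ) →
      (∑ g : Matrix.SpecialLinearGroup (Fin 2) F, if (g : Matrix (Fin 2) (Fin 2) F) 1 0 = 0 ∧ (g : Matrix (Fin 2) (Fin 2) F) 0 0 = 1 ∧ (g : Matrix (Fin 2) (Fin 2) F) 1 1 = 1 then χ g else 0) = (Fintype.card F : ℂ)) ∧
    (χ 1 = (((Fintype.card F - 1) / 2 : ℕ) : ℂ) →
      (∑ g : Matrix.SpecialLinearGroup (Fin 2) F, if (g : Matrix (Fin 2) (Fin 2) F) 1 0 = 0 ∧ (g : Matrix (Fin 2) (Fin 2) F) 0 0 = 1 ∧ (g : Matrix (Fin 2) (Fin 2) F) 1 1 = 1 then χ g else 0) = 0) := by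
  have hcard : Fintype.card F % 2 = 1 := Nat.odd_iff.mp hodd
  have hF : ringChar F ≠ 2 := by
    intro h
    have := FiniteField.even_card_iff_char_two.mp h
    omega
  have h2 : (2 : F) ≠ 0 := Ring.two_ne_zero hF
  obtain ⟨ε, hε⟩ := FiniteField.exists_nonsquare hF
  have hψ := AddChar.FiniteField.primitiveChar_to_Complex_isPrimitive F
  let _ : Fintype (Tns ε →* ℂˣ) := Fintype.ofFinite _
  let _ : Fintype (MulChar F ℂ) := Fintype.ofFinite _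
  have hq1 : 1 ≤ Fintype.card F := Fintype.card_pos
  have hU := U_sum χ (isClassFunction_of_char χ (Lib.Helper46.isCharacter_of_irr _ hχ))
  obtain ⟨d, hx, hcases⟩ : ∃ d : ℕ, χ 1 = (d : ℂ) ∧ (d = 1 ∨
      (d = Fintype.card F ∧
        (∑ g : SL F, (if g.1 1 0 = 0 ∧ g.1 0 0 = 1 ∧ g.1 1 1 = 1 then χ g else 0)) = (Fintype.card F : ℕ)) ∨
      (d = Fintype.card F + 1 ∧
        (∑ g : SL F, (if g.1 1 0 = 0 ∧ g.1 0 0 = 1 ∧ g.1 1 1 = 1 then χ g else 0)) = 2 * (Fintype.card F : ℕ)) ∨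
      (d = (Fintype.card F + 1) / 2 ∧
        (∑ g : SL F, (if g.1 1 0 = 0 ∧ g.1 0 0 = 1 ∧ g.1 1 1 = 1 then χ g else 0)) = (Fintype.card F : ℕ)) ∨
      (d = Fintype.card F - 1 ∧
        (∑ g : SL F, (if g.1 1 0 = 0 ∧ g.1 0 0 = 1 ∧ g.1 1 1 = 1 then χ g else 0)) = 0) ∨
      (d = (Fintype.card F - 1) / 2 ∧
        (∑ g : SL F, (if g.1 1 0 = 0 ∧ g.1 0 0 = 1 ∧ g.1 1 1 = 1 then χ g else 0)) = 0)) := by
    rcases classify (AddChar.FiniteField.primitiveChar_to_Complex F) hψ ε hε h2 hcard hodd χ hχ with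
      h | ⟨hd, hP⟩ | ⟨hd, hP⟩ | ⟨hd, hP, -⟩ | ⟨hd, hP, -⟩ | ⟨hd, hP, -⟩
    · exact ⟨1, by rw [h]; simp, Or.inl rfl⟩
    · refine ⟨Fintype.card F, hd, Or.inr (Or.inl ⟨rfl, ?_⟩)⟩
      rw [hU, hP]; simp
    · refine ⟨Fintype.card F + 1, by rw [hd]; push_cast; ring, Or.inr (Or.inr (Or.inl ⟨rfl, ?_⟩))⟩
      rw [hU, hP, map_ofNat]; push_cast; ring
    · refine ⟨(Fintype.card F + 1) / 2, by rw [hd, half_add hcard],
        Or.inr (Or.inr (Or.inr (Or.inl ⟨rfl, ?_⟩)))⟩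
      rw [hU, hP]; simp
    · refine ⟨Fintype.card F - 1, by rw [hd, Nat.cast_sub hq1]; simp,
        Or.inr (Or.inr (Or.inr (Or.inr (Or.inl ⟨rfl, ?_⟩))))⟩
      rw [hU, hP]; simp
    · refine ⟨(Fintype.card F - 1) / 2, by rw [hd, half_sub hcard],
        Or.inr (Or.inr (Or.inr (Or.inr (Or.inr ⟨rfl, ?_⟩))))⟩
      rw [hU, hP]; simp
  exact final_aux (Fintype.card F) d hq hcard (χ 1) _ hx hcases

end Cfsg.Agent.S2438
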