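import Cfsg.Statements.S2439
import Cfsg.Agent.Lib.Helper48.DZv

set_option autoImplicit false
open Cfsg
open scoped IsMulCommutative

namespace Cfsg.Agent.S2439

/-- Let F be a finite field with q elements of odd characteristic p, and M a maximal ideal of the algebraic integers containing p. Then SL₂ over F has exactly three p-blocks relative to M: the irreducible character of degree q (the Steinberg character) alone; the other irreducible characters taking the same value at −1 as at 1 (the principal block); and the irreducible characters χ with χ(−1) = −χ(1). Every Sylow p-subgroup is a defect group of each of the last two blocks. -/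
theorem result {F : Type*} [Field F] [Fintype F] (p : ℕ) [Fact p.Prime] [CharP F p] (hp : p ≠ 2)
    (M : Ideal Cfsg.AlgInt) (hM : Cfsg.IsPModular p M) :
    (∀ B : Set (Cfsg.IrrCharacter (Matrix.SpecialLinearGroup (Fin 2) F)), Cfsg.IsPBlock M B ↔
      (B = {χ : Cfsg.IrrCharacter (Matrix.SpecialLinearGroup (Fin 2) F) | (χ : Matrix.SpecialLinearGroup (Fin 2) F → ℂ) 1 = (Fintype.card F : ℂ)} ∨
       B = {χ : Cfsg.IrrCharacter (Matrix.SpecialLinearGroup (Fin 2) F) | (χ : Matrix.SpecialLinearGroup (Fin 2) F → ℂ) (-1) = (χ : Matrix.SpecialLinearGroup (Fin 2) F → ℂ) 1 ∧ (χ : Matrix.SpecialLinearGroup (Fin 2) F → ℂ) 1 ≠ (Fintype.card F : ℂ)} ∨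
       B = {χ : Cfsg.IrrCharacter (Matrix.SpecialLinearGroup (Fin 2) F) | (χ : Matrix.SpecialLinearGroup (Fin 2) F → ℂ) (-1) = -(χ : Matrix.SpecialLinearGroup (Fin 2) F → ℂ) 1})) ∧
    Nat.card {B : Set (Cfsg.IrrCharacter (Matrix.SpecialLinearGroup (Fin 2) F)) // Cfsg.IsPBlock M B} = 3 ∧
    ∀ P : Sylow p (Matrix.SpecialLinearGroup (Fin 2) F),
      Cfsg.IsDefectGroup p M {χ : Cfsg.IrrCharacter (Matrix.SpecialLinearGroup (Fin 2) F) | (χ : Matrix.SpecialLinearGroup (Fin 2) F → ℂ) (-1) = (χ : Matrix.SpecialLinearGroup (Fin 2) F → ℂ) 1 ∧ (χ : Matrix.SpecialLinearGroup (Fin 2) F → ℂ) 1 ≠ (Fintype.card F : ℂ)} (P : Subgroup (Matrix.SpecialLinearGroup (Fin 2) F)) ∧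
      Cfsg.IsDefectGroup p M {χ : Cfsg.IrrCharacter (Matrix.SpecialLinearGroup (Fin 2) F) | (χ : Matrix.SpecialLinearGroup (Fin 2) F → ℂ) (-1) = -(χ : Matrix.SpecialLinearGroup (Fin 2) F → ℂ) 1} (P : Subgroup (Matrix.SpecialLinearGroup (Fin 2) F)) := by
  classical
  have hpp : p.Prime := Fact.out
  have hn : 2 ≤ 2 := le_rfl
  have hn0 : 0 < 2 := by norm_num
  haveI := Lib.Helper22.isPrime_of_isPModular hM
  -- the centre
  have hneg : (-1 : Matrix.SpecialLinearGroup (Fin 2) F) ∈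
      Subgroup.center (Matrix.SpecialLinearGroup (Fin 2) F) := by
    rw [Subgroup.mem_center_iff]
    intro g
    simp
  have hne : (-1 : Matrix.SpecialLinearGroup (Fin 2) F) ≠ 1 := by
    intro h
    have h1 := congrArg (fun g : Matrix.SpecialLinearGroup (Fin 2) F =>
      (g : Matrix (Fin 2) (Fin 2) F) 0 0) h
    simp only [Matrix.SpecialLinearGroup.coe_neg, Matrix.SpecialLinearGroup.coe_one,
      Matrix.neg_apply, Matrix.one_apply_eq] at h1
    have h2 : ((2 : ℕ) : F) = 0 := by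
      have : (1 : F) + 1 = 0 := by linear_combination -h1
      push_cast
      rw [← this]
      norm_num
    have h3 := (CharP.cast_eq_zero_iff F p 2).mp h2
    exact hp ((Nat.prime_dvd_prime_iff_eq hpp Nat.prime_two).mp h3)
  have hZ : ∀ z : Matrix.SpecialLinearGroup (Fin 2) F,
      z ∈ Subgroup.center (Matrix.SpecialLinearGroup (Fin 2) F) → z = 1 ∨ z = -1 := by
    intro z hz
    obtain ⟨r, hr, hrz⟩ := Matrix.SpecialLinearGroup.mem_center_iff.mp hz
    rw [Fintype.card_fin] at hr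
    have h1 : (r - 1) * (r + 1) = 0 := by linear_combination hr
    rcases mul_eq_zero.mp h1 with h | h
    · left
      apply Subtype.ext
      rw [← hrz, sub_eq_zero.mp h, map_one, Matrix.SpecialLinearGroup.coe_one]
    · right
      apply Subtype.ext
      rw [← hrz, eq_neg_of_add_eq_zero_left h, map_neg, map_one, Matrix.SpecialLinearGroup.coe_neg,
        Matrix.SpecialLinearGroup.coe_one]
  have hcardZ : Nat.card ↥(Subgroup.center (Matrix.SpecialLinearGroup (Fin 2) F)) = 2 := by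
    rw [Nat.card_eq_two_iff]
    refine ⟨1, ⟨-1, hneg⟩, ?_, ?_⟩
    · intro h
      exact hne (congrArg Subtype.val h).symm
    · ext z
      simp only [Set.mem_insert_iff, Set.mem_singleton_iff, Set.mem_univ, iff_true]
      rcases hZ z.1 z.2 with h | h
      · left
        exact Subtype.ext h
      · right
        exact Subtype.ext h
  have hpZ : ¬ p ∣ Nat.card ↥(Subgroup.center (Matrix.SpecialLinearGroup (Fin 2) F)) :=
    Lib.Helper48.not_dvd_card_center_sl p hn0
  -- homomorphisms on the centre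
  have hlam2 : ∀ lam : ↥(Subgroup.center (Matrix.SpecialLinearGroup (Fin 2) F)) →* ℂˣ,
      ((lam ⟨-1, hneg⟩ : ℂˣ) : ℂ) = 1 ∨ ((lam ⟨-1, hneg⟩ : ℂˣ) : ℂ) = -1 := by
    intro lam
    have h1 : lam ⟨-1, hneg⟩ * lam ⟨-1, hneg⟩ = 1 := by
      rw [← map_mul]
      have : (⟨-1, hneg⟩ : ↥(Subgroup.center (Matrix.SpecialLinearGroup (Fin 2) F))) * ⟨-1, hneg⟩ = 1 :=
        Subtype.ext (by simp)
      rw [this, map_one]
    have h2 : ((lam ⟨-1, hneg⟩ : ℂˣ) : ℂ) * ((lam ⟨-1, hneg⟩ : ℂˣ) : ℂ) = 1 := by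
      rw [← Units.val_mul, h1, Units.val_one]
    exact mul_self_eq_one_iff.mp h2
  have hlam_ext : ∀ lam mu : ↥(Subgroup.center (Matrix.SpecialLinearGroup (Fin 2) F)) →* ℂˣ,
      ((lam ⟨-1, hneg⟩ : ℂˣ) : ℂ) = ((mu ⟨-1, hneg⟩ : ℂˣ) : ℂ) → lam = mu := by
    intro lam mu h
    apply MonoidHom.ext
    rintro ⟨z, hz⟩
    rcases hZ z hz with rfl | rfl
    · have : (⟨1, hz⟩ : ↥(Subgroup.center (Matrix.SpecialLinearGroup (Fin 2) F))) = 1 := rfl
      rw [this, map_one, map_one]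
    · exact Units.ext h
  -- the Steinberg character
  have hStdeg : (Lib.Helper48.stSL 2 F hn0 : Matrix.SpecialLinearGroup (Fin 2) F → ℂ) 1 =
      (Fintype.card F : ℂ) := by
    rw [Lib.Helper48.stSL_one]
    have : ∑ j ∈ Finset.range 2, j = 1 := by decide
    rw [this, pow_one]
  have hSt_iff : ∀ χ : IrrCharacter (Matrix.SpecialLinearGroup (Fin 2) F),
      (χ : Matrix.SpecialLinearGroup (Fin 2) F → ℂ) 1 = (Fintype.card F : ℂ) ↔
        χ = Lib.Helper48.stSL 2 F hn0 := by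
    intro χ
    constructor
    · intro h
      apply Lib.Helper48.irr_eq_stSL p hn χ
      rw [Lib.Helper22.charDegree_eq_of_one_eq _ _ h, Lib.Helper48.card_sl_ordProj p hn0]
      have : ∑ j ∈ Finset.range 2, j = 1 := by decide
      rw [this, pow_one]
    · intro h
      rw [h]
      exact hStdeg
  have hStneg : (Lib.Helper48.stSL 2 F hn0 : Matrix.SpecialLinearGroup (Fin 2) F → ℂ) (-1) =
      (Lib.Helper48.stSL 2 F hn0 : Matrix.SpecialLinearGroup (Fin 2) F → ℂ) 1 := by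
    have := Lib.Helper48.stSL_central hn0 (-1) hneg
    rw [this, MonoidHom.one_apply, Units.val_one, one_mul]
  have hSt0 : (Lib.Helper48.stSL 2 F hn0 : Matrix.SpecialLinearGroup (Fin 2) F → ℂ) 1 ≠ 0 :=
    Lib.Helper83.irr_one_ne_zero (Lib.Helper48.stSL 2 F hn0).2
  -- central characters
  have hcent := fun χ : IrrCharacter (Matrix.SpecialLinearGroup (Fin 2) F) =>
    Lib.Helper48.exists_central_hom χ
  choose L hL using hcent
  have hLneg : ∀ χ : IrrCharacter (Matrix.SpecialLinearGroup (Fin 2) F),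
      (χ : Matrix.SpecialLinearGroup (Fin 2) F → ℂ) (-1) = ((L χ ⟨-1, hneg⟩ : ℂˣ) : ℂ) *
        (χ : Matrix.SpecialLinearGroup (Fin 2) F → ℂ) 1 := fun χ => hL χ (-1) hneg
  have hsame : ∀ χ ψ : IrrCharacter (Matrix.SpecialLinearGroup (Fin 2) F),
      χ ≠ Lib.Helper48.stSL 2 F hn0 → ψ ≠ Lib.Helper48.stSL 2 F hn0 →
      (SameBlock M (χ : Matrix.SpecialLinearGroup (Fin 2) F → ℂ)
        (ψ : Matrix.SpecialLinearGroup (Fin 2) F → ℂ) ↔
        ((L χ ⟨-1, hneg⟩ : ℂˣ) : ℂ) = ((L ψ ⟨-1, hneg⟩ : ℂˣ) : ℂ)) := by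
    intro χ ψ hχ hψ
    constructor
    · intro h
      rw [Lib.Helper48.sameBlock_central hM hpZ χ ψ (L χ) (L ψ) (hL χ) (hL ψ) h]
    · intro h
      have h2 := hlam_ext _ _ h
      exact Lib.Helper48.sameBlock_of_central p M hM hn χ ψ hχ hψ (L χ) (hL χ)
        (by rw [h2]; exact hL ψ)
  -- a block meeting the Steinberg block is the Steinberg block
  have hnotSt : ∀ χ ψ : IrrCharacter (Matrix.SpecialLinearGroup (Fin 2) F),
      χ ≠ Lib.Helper48.stSL 2 F hn0 →
      ψ ∈ blockOf M (χ : Matrix.SpecialLinearGroup (Fin 2) F → ℂ) →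
      ψ ≠ Lib.Helper48.stSL 2 F hn0 := by
    intro χ ψ hχ hψ hψSt
    rw [hψSt] at hψ
    have h1 := Lib.Helper79.blockOf_eq_of_mem hM (Lib.Helper79.isPBlock_blockOf χ) hψ
    have h2 : χ ∈ blockOf M (χ : Matrix.SpecialLinearGroup (Fin 2) F → ℂ) :=
      Lib.Helper79.mem_blockOf_self hM χ
    rw [h1, Lib.Helper48.blockOf_stSL p M hM hn0] at h2
    exact hχ h2
  -- the principal character
  have htriv1 : (Lib.Helper83.trivIrr (Matrix.SpecialLinearGroup (Fin 2) F) :
      Matrix.SpecialLinearGroup (Fin 2) F → ℂ) 1 = 1 := rfl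
  have htrivSt : Lib.Helper83.trivIrr (Matrix.SpecialLinearGroup (Fin 2) F) ≠
      Lib.Helper48.stSL 2 F hn0 := by
    intro h
    have h1 := (hSt_iff _).mpr h
    rw [htriv1] at h1
    have h2 : (1 : ℕ) = Fintype.card F := by exact_mod_cast h1
    have := Fintype.one_lt_card (α := F)
    omega
  have hLtriv : ((L (Lib.Helper83.trivIrr (Matrix.SpecialLinearGroup (Fin 2) F)) ⟨-1, hneg⟩ : ℂˣ) : ℂ) = 1 := by
    have h1 := hLneg (Lib.Helper83.trivIrr (Matrix.SpecialLinearGroup (Fin 2) F))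
    rw [htriv1, mul_one] at h1
    rw [← h1]
    rfl
  -- a character with central character -1
  obtain ⟨lam₀, hlam₀⟩ : ∃ lam₀ : ↥(Subgroup.center (Matrix.SpecialLinearGroup (Fin 2) F)) →* ℂˣ,
      lam₀ ≠ 1 := by
    by_contra hcon
    push Not at hcon
    have hsub : Subsingleton (↥(Subgroup.center (Matrix.SpecialLinearGroup (Fin 2) F)) →* ℂˣ) :=
      ⟨fun a b => by rw [hcon a, hcon b]⟩
    have h1 := CommGroup.card_monoidHom_of_hasEnoughRootsOfUnity
      ↥(Subgroup.center (Matrix.SpecialLinearGroup (Fin 2) F)) ℂ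
    rw [hcardZ] at h1
    have h2 := @Nat.card_of_subsingleton _
      (1 : ↥(Subgroup.center (Matrix.SpecialLinearGroup (Fin 2) F)) →* ℂˣ) hsub
    omega
  have hlam₀neg : ((lam₀ ⟨-1, hneg⟩ : ℂˣ) : ℂ) = -1 := by
    rcases hlam2 lam₀ with h | h
    · exfalso
      apply hlam₀
      apply hlam_ext
      rw [h, MonoidHom.one_apply, Units.val_one]
    · exact h
  obtain ⟨χ₀, hχ₀⟩ := Lib.Helper48.exists_irr_central lam₀
  have hχ₀1 : (χ₀ : Matrix.SpecialLinearGroup (Fin 2) F → ℂ) 1 ≠ 0 :=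
    Lib.Helper83.irr_one_ne_zero χ₀.2
  have hχ₀neg : (χ₀ : Matrix.SpecialLinearGroup (Fin 2) F → ℂ) (-1) =
      -(χ₀ : Matrix.SpecialLinearGroup (Fin 2) F → ℂ) 1 := by
    rw [hχ₀ (-1) hneg, hlam₀neg, neg_one_mul]
  -- characters with χ(-1) = -χ(1) are not Steinberg
  have hnegSt : ∀ χ : IrrCharacter (Matrix.SpecialLinearGroup (Fin 2) F),
      (χ : Matrix.SpecialLinearGroup (Fin 2) F → ℂ) (-1) =
        -(χ : Matrix.SpecialLinearGroup (Fin 2) F → ℂ) 1 → χ ≠ Lib.Helper48.stSL 2 F hn0 := by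
    intro χ h hχ
    rw [hχ, hStneg] at h
    apply hSt0
    linear_combination (1 / 2 : ℂ) * h
  have hLneg_iff : ∀ χ : IrrCharacter (Matrix.SpecialLinearGroup (Fin 2) F), ∀ c : ℂ,
      (χ : Matrix.SpecialLinearGroup (Fin 2) F → ℂ) (-1) =
        c * (χ : Matrix.SpecialLinearGroup (Fin 2) F → ℂ) 1 ↔ ((L χ ⟨-1, hneg⟩ : ℂˣ) : ℂ) = c := by
    intro χ c
    rw [hLneg χ]
    constructor
    · intro h
      exact mul_right_cancel₀ (Lib.Helper83.irr_one_ne_zero χ.2) h
    · intro h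
      rw [h]
  have hLχ₀ : ((L χ₀ ⟨-1, hneg⟩ : ℂˣ) : ℂ) = -1 := by
    rw [← hLneg_iff χ₀ (-1), hχ₀neg, neg_one_mul]
  have hχ₀St : χ₀ ≠ Lib.Helper48.stSL 2 F hn0 := hnegSt χ₀ hχ₀neg
  -- the three blocks
  have hB1 : {χ : Cfsg.IrrCharacter (Matrix.SpecialLinearGroup (Fin 2) F) |
      (χ : Matrix.SpecialLinearGroup (Fin 2) F → ℂ) 1 = (Fintype.card F : ℂ)} =
      blockOf M (Lib.Helper48.stSL 2 F hn0 : Matrix.SpecialLinearGroup (Fin 2) F → ℂ) := by
    rw [Lib.Helper48.blockOf_stSL p M hM hn0]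
    ext χ
    rw [Set.mem_ofPred_eq, Set.mem_singleton_iff]
    exact hSt_iff χ
  have hB2 : {χ : Cfsg.IrrCharacter (Matrix.SpecialLinearGroup (Fin 2) F) |
      (χ : Matrix.SpecialLinearGroup (Fin 2) F → ℂ) (-1) =
        (χ : Matrix.SpecialLinearGroup (Fin 2) F → ℂ) 1 ∧
      (χ : Matrix.SpecialLinearGroup (Fin 2) F → ℂ) 1 ≠ (Fintype.card F : ℂ)} =
      blockOf M (Lib.Helper83.trivIrr (Matrix.SpecialLinearGroup (Fin 2) F) :
        Matrix.SpecialLinearGroup (Fin 2) F → ℂ) := by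
    ext χ
    rw [Set.mem_ofPred_eq]
    constructor
    · rintro ⟨h1, h2⟩
      have hχSt : χ ≠ Lib.Helper48.stSL 2 F hn0 := fun h => h2 ((hSt_iff χ).mpr h)
      show SameBlock M _ _
      rw [hsame _ _ htrivSt hχSt, hLtriv]
      symm
      rw [← hLneg_iff χ 1, one_mul]
      exact h1
    · intro h
      have hχSt := hnotSt _ χ htrivSt h
      have h1 : SameBlock M _ _ := h
      rw [hsame _ _ htrivSt hχSt, hLtriv] at h1
      refine ⟨?_, fun h2 => hχSt ((hSt_iff χ).mp h2)⟩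
      have := (hLneg_iff χ 1).mpr h1.symm
      rw [one_mul] at this
      exact this
  have hB3 : {χ : Cfsg.IrrCharacter (Matrix.SpecialLinearGroup (Fin 2) F) |
      (χ : Matrix.SpecialLinearGroup (Fin 2) F → ℂ) (-1) =
        -(χ : Matrix.SpecialLinearGroup (Fin 2) F → ℂ) 1} =
      blockOf M (χ₀ : Matrix.SpecialLinearGroup (Fin 2) F → ℂ) := by
    ext χ
    rw [Set.mem_ofPred_eq]
    constructor
    · intro h1
      have hχSt : χ ≠ Lib.Helper48.stSL 2 F hn0 := hnegSt χ h1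
      show SameBlock M _ _
      rw [hsame _ _ hχ₀St hχSt, hLχ₀]
      symm
      rw [← hLneg_iff χ (-1), neg_one_mul]
      exact h1
    · intro h
      have hχSt := hnotSt _ χ hχ₀St h
      have h1 : SameBlock M _ _ := h
      rw [hsame _ _ hχ₀St hχSt, hLχ₀] at h1
      have := (hLneg_iff χ (-1)).mpr h1.symm
      rw [neg_one_mul] at this
      exact this
  refine ⟨?_, ?_, ?_⟩
  · intro B
    constructor
    · rintro ⟨χ, rfl⟩
      by_cases hχ : χ = Lib.Helper48.stSL 2 F hn0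
      · left
        rw [hB1, hχ]
      · rcases hlam2 (L χ) with h | h
        · right; left
          rw [hB2]
          apply Lib.Helper79.blockOf_eq_of_mem hM (Lib.Helper79.isPBlock_blockOf χ)
          show SameBlock M _ _
          rw [hsame _ _ hχ htrivSt, hLtriv]
          exact h
        · right; right
          rw [hB3]
          apply Lib.Helper79.blockOf_eq_of_mem hM (Lib.Helper79.isPBlock_blockOf χ)
          show SameBlock M _ _
          rw [hsame _ _ hχ hχ₀St, hLχ₀]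
          exact h
    · rintro (h | h | h)
      · rw [h, hB1]
        exact Lib.Helper79.isPBlock_blockOf _
      · rw [h, hB2]
        exact Lib.Helper79.isPBlock_blockOf _
      · rw [h, hB3]
        exact Lib.Helper79.isPBlock_blockOf _
  · rw [Lib.Helper48.card_blocks_sl p M hM hn, hcardZ]
  · intro P
    rw [hB2, hB3]
    exact ⟨Lib.Helper48.sylow_isDefectGroup p M hM hn _ (Lib.Helper79.isPBlock_blockOf _)
        (Lib.Helper48.blockDefect_full p M hM hn _ htrivSt) P,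
      Lib.Helper48.sylow_isDefectGroup p M hM hn _ (Lib.Helper79.isPBlock_blockOf _)
        (Lib.Helper48.blockDefect_full p M hM hn _ hχ₀St) P⟩

end Cfsg.Agent.S2439
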