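import Cfsg.Statements.S2531
import Mathlib

set_option autoImplicit false
open Cfsg

namespace Cfsg.Agent.S2531

open scoped LinearAlgebra.Projectivization

section
variable {F : Type*} [Field F] [Finite F] {V : Type*} [AddCommGroup V] [Module F V] [Finite V]

/-- points of `ℙ V` inside a subspace `W` correspond to `ℙ W` -/
noncomputable def pointsEquiv (W : Submodule F V) :
    ℙ F W ≃ {x : ℙ F V // x.submodule ≤ W} := by
  refine Equiv.ofBijective
    (fun y => ⟨Projectivization.map W.subtype W.injective_subtype y, ?_⟩) ⟨?_, ?_⟩
  · induction y using Projectivization.ind with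
    | h v hv =>
      rw [Projectivization.map_mk, Projectivization.submodule_mk]
      simp
  · intro y y' h
    exact Projectivization.map_injective (τ := RingHom.id F) W.subtype W.injective_subtype
      (Subtype.ext_iff.1 h)
  · rintro ⟨x, hx⟩
    induction x using Projectivization.ind with
    | h v hv =>
      rw [Projectivization.submodule_mk, Submodule.span_singleton_le_iff_mem] at hx
      refine ⟨Projectivization.mk F ⟨v, hx⟩ (by simpa [Subtype.ext_iff] using hv), ?_⟩
      apply Subtype.ext
      simp [Projectivization.map_mk]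

lemma card_points (W : Submodule F V) (hW : W ≠ ⊥) :
    ((Nat.card {x : ℙ F V // x.submodule ≤ W} : ℕ) : ZMod (Nat.card F)) = 1 := by
  rw [← Nat.card_congr (pointsEquiv W)]
  have h := Projectivization.card' F W
  have hq : 1 ≤ Nat.card F := Nat.card_pos
  have hWcard : ((Nat.card W : ℕ) : ZMod (Nat.card F)) = 0 := by
    rw [ZMod.natCast_eq_zero_iff]
    classical
    have := Fintype.ofFinite F
    have := Fintype.ofFinite W
    rw [Nat.card_eq_fintype_card, Nat.card_eq_fintype_card,
      Module.card_eq_pow_finrank (K := F) (V := W)]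
    apply dvd_pow_self
    intro h0
    apply hW
    rw [Module.finrank_eq_zero_iff_of_free] at h0
    exact Submodule.subsingleton_iff_eq_bot.1 h0
  have h2 := congrArg (Nat.cast : ℕ → ZMod (Nat.card F)) h
  rw [hWcard] at h2
  push_cast [Nat.cast_sub hq] at h2
  rw [ZMod.natCast_self] at h2
  linear_combination h2

end

/-- Let `F` be a finite field and `n ≥ 3`. No set of permutations of the points of the projective space of `Fⁿ`, each induced by an invertible semilinear transformation of `Fⁿ` (so a subset of the full projective semilinear group), is sharply 2-transitive on the points: it is impossible that for all pairs of distinct points `(a, b)` and `(c, d)` exactly one member of the set sends `a` to `c` and `b` to `d`. -/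
theorem result {F : Type*} [Field F] [Finite F]
    (n : ℕ) (hn : 3 ≤ n) (S : Set (Equiv.Perm (Projectivization F (Fin n → F))))
    (hS : ∀ s ∈ S, ∃ (σ : F ≃+* F) (f : (Fin n → F) →ₛₗ[(σ : F →+* F)] (Fin n → F)) (hf : Function.Injective f),
      ∀ x, s x = Projectivization.map f hf x) :
    ¬ (∀ a b c d : Projectivization F (Fin n → F), a ≠ b → c ≠ d →
        ∃! s, s ∈ S ∧ s a = c ∧ s b = d) := by
  intro hsharp
  classical
  have : Fintype (ℙ F (Fin n → F)) := Fintype.ofFinite _
  -- indices
  let i0 : Fin n := ⟨0, by omega⟩
  let i1 : Fin n := ⟨1, by omega⟩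
  let i2 : Fin n := ⟨2, by omega⟩
  have h01 : i0 ≠ i1 := by simp [i0, i1, Fin.ext_iff]
  have h02 : i0 ≠ i2 := by simp [i0, i2, Fin.ext_iff]
  have h12 : i1 ≠ i2 := by simp [i1, i2, Fin.ext_iff]
  let e0 : Fin n → F := Pi.single i0 1
  let e1 : Fin n → F := Pi.single i1 1
  let e2 : Fin n → F := Pi.single i2 1
  have he0 : e0 ≠ 0 := by simp [e0]
  have he1 : e1 ≠ 0 := by simp [e1]
  let a : ℙ F (Fin n → F) := Projectivization.mk F e0 he0
  let b : ℙ F (Fin n → F) := Projectivization.mk F e1 he1
  let M : Submodule F (Fin n → F) := Submodule.span F {e1, e2}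
  let H : Submodule F (Fin n → F) := LinearMap.ker (LinearMap.proj i0 : (Fin n → F) →ₗ[F] F)
  have he1H : e1 ∈ H := by simp [H, e1, h01]
  have he2H : e2 ∈ H := by simp [H, e2, h02]
  have he1M : e1 ∈ M := Submodule.subset_span (by simp)
  have he2M : e2 ∈ M := Submodule.subset_span (by simp)
  have hMH : M ≤ H := by
    apply Submodule.span_le.2
    intro v hv
    rcases hv with rfl | rfl
    · exact he1H
    · exact he2H
  have haH : ¬ a.submodule ≤ H := by
    rw [Projectivization.submodule_mk, Submodule.span_singleton_le_iff_mem]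
    simp [H, e0]
  have hab : a ≠ b := by
    intro h
    apply haH
    rw [h, Projectivization.submodule_mk, Submodule.span_singleton_le_iff_mem]
    exact he1H
  have hMbot : M ≠ ⊥ := fun h => he1 (by simpa [h] using he1M)
  have hHbot : H ≠ ⊥ := fun h => he1 (by simpa [h] using he1H)
  -- point sets
  let m : Finset (ℙ F (Fin n → F)) := Finset.univ.filter (fun x => x.submodule ≤ M)
  let h : Finset (ℙ F (Fin n → F)) := Finset.univ.filter (fun x => x.submodule ≤ H)
  let Sa : Finset (Equiv.Perm (ℙ F (Fin n → F))) := Finset.univ.filter (fun s => s ∈ S ∧ s a = a)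
  have hcardfilter : ∀ W : Submodule F (Fin n → F), W ≠ ⊥ →
      (((Finset.univ.filter (fun x : ℙ F (Fin n → F) => x.submodule ≤ W)).card : ℕ) :
        ZMod (Nat.card F)) = 1 := by
    intro W hW
    rw [← card_points W hW,
      Nat.card_eq_fintype_card (α := {x : ℙ F (Fin n → F) // x.submodule ≤ W}),
      Fintype.card_subtype]
  have hm1 : ((m.card : ℕ) : ZMod (Nat.card F)) = 1 := hcardfilter M hMbot
  have hh1 : ((h.card : ℕ) : ZMod (Nat.card F)) = 1 := hcardfilter H hHbot
  have hah : a ∉ h := by simp [h, haH]
  have hmh : ∀ x ∈ m, x ≠ a := by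
    intro x hx hxa
    apply haH
    rw [← hxa]
    exact le_trans (by simpa [m] using hx) hMH
  -- card of Sa
  have hSa : ((Sa.card : ℕ) : ZMod (Nat.card F)) = 0 := by
    have h1 : Sa.card = (Finset.univ.erase a).card := by
      apply Finset.card_bij (fun s _ => s b)
      · intro s hs
        simp only [Sa, Finset.mem_filter, Finset.mem_univ, true_and] at hs
        simp only [Finset.mem_erase, Finset.mem_univ, and_true]
        intro hsb
        apply hab
        apply s.injective
        rw [hs.2, hsb]
      · intro s hs s' hs' hss'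
        simp only [Sa, Finset.mem_filter, Finset.mem_univ, true_and] at hs hs'
        have hne : a ≠ s b := by
          intro hsb
          apply hab
          apply s.injective
          rw [hs.2, ← hsb]
        obtain ⟨t, -, htu⟩ := hsharp a b a (s b) hab hne
        rw [htu s ⟨hs.1, hs.2, rfl⟩, htu s' ⟨hs'.1, hs'.2, hss'.symm⟩]
      · intro y hy
        simp only [Finset.mem_erase, Finset.mem_univ, and_true] at hy
        obtain ⟨t, ht, -⟩ := hsharp a b a y hab (Ne.symm hy)
        exact ⟨t, by simp [Sa, ht.1, ht.2.1], ht.2.2⟩
    have h2 : (Finset.univ.erase a).card + 1 = Fintype.card (ℙ F (Fin n → F)) := by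
      rw [Finset.card_erase_of_mem (Finset.mem_univ a), Finset.card_univ]
      have : 0 < Fintype.card (ℙ F (Fin n → F)) := Fintype.card_pos_iff.2 ⟨a⟩
      omega
    have h3 : ((Fintype.card (ℙ F (Fin n → F)) : ℕ) : ZMod (Nat.card F)) = 1 := by
      have h4 := hcardfilter ⊤ (by
        intro htop
        exact he1 (by simpa [htop] using (Submodule.mem_top : e1 ∈ (⊤ : Submodule F (Fin n → F)))))
      rw [← h4]
      congr 1
      rw [← Finset.card_univ]
      congr 1
      ext x
      simp
    rw [h1]
    have h5 := congrArg (Nat.cast : ℕ → ZMod (Nat.card F)) h2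
    rw [h3] at h5
    push_cast at h5
    linear_combination h5
  -- each s in Sa has count 1
  have hcount : ∀ s ∈ Sa, (((m.filter (fun x => s x ∈ h)).card : ℕ) : ZMod (Nat.card F)) = 1 := by
    intro s hs
    simp only [Sa, Finset.mem_filter, Finset.mem_univ, true_and] at hs
    obtain ⟨σ, f, hf, hsf⟩ := hS s hs.1
    have key : ∀ x : ℙ F (Fin n → F),
        (Projectivization.map f hf x).submodule ≤ H ↔ x.submodule ≤ H.comap f := by
      intro x
      induction x using Projectivization.ind with
      | h v hv =>
        rw [Projectivization.map_mk, Projectivization.submodule_mk, Projectivization.submodule_mk,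
          Submodule.span_singleton_le_iff_mem, Submodule.span_singleton_le_iff_mem]
        simp
    have hfilter : m.filter (fun x => s x ∈ h) =
        Finset.univ.filter (fun x : ℙ F (Fin n → F) => x.submodule ≤ M ⊓ H.comap f) := by
      ext x
      simp only [m, h, Finset.mem_filter, Finset.mem_univ, true_and, le_inf_iff, hsf x, key]
    rw [hfilter]
    apply hcardfilter
    -- M ⊓ comap f H ≠ ⊥
    by_cases hα : f e1 i0 = 0
    · intro hbot
      have : e1 ∈ M ⊓ H.comap f := ⟨he1M, by simpa [H] using hα⟩
      rw [hbot] at this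
      exact he1 (by simpa using this)
    · intro hbot
      set v : Fin n → F := σ.symm (f e2 i0) • e1 - σ.symm (f e1 i0) • e2 with hv
      have hvM : v ∈ M := M.sub_mem (M.smul_mem _ he1M) (M.smul_mem _ he2M)
      have hvH : v ∈ H.comap f := by
        simp only [Submodule.mem_comap, H, LinearMap.mem_ker, LinearMap.proj_apply, hv, map_sub,
          LinearMap.map_smulₛₗ, smul_eq_mul]
        simp
        ring
      have : v ∈ M ⊓ H.comap f := ⟨hvM, hvH⟩
      rw [hbot] at this
      have hv0 : v = 0 := by simpa using this
      have hv2 : v i2 = - σ.symm (f e1 i0) := by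
        simp [hv, e1, e2, Ne.symm h12]
      rw [hv0] at hv2
      apply hα
      have : f e1 i0 = 0 := by
        have := hv2
        simp at this
        exact this
      exact this
  -- double counting
  have hdc : ∑ s ∈ Sa, (m.filter (fun x => s x ∈ h)).card = m.card * h.card := by
    simp_rw [Finset.card_filter]
    rw [Finset.sum_comm]
    have : ∀ x ∈ m, ∑ s ∈ Sa, (if s x ∈ h then 1 else 0) = h.card := by
      intro x hx
      rw [← Finset.card_filter]
      have hxa : a ≠ x := Ne.symm (hmh x hx)
      apply Finset.card_bij (fun s _ => s x)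
      · intro s hs
        simp only [Finset.mem_filter] at hs
        exact hs.2
      · intro s hs s' hs' hss'
        simp only [Sa, Finset.mem_filter, Finset.mem_univ, true_and] at hs hs'
        have hne : a ≠ s x := by
          intro hsx
          apply hxa
          apply s.injective
          rw [hs.1.2, ← hsx]
        obtain ⟨t, -, htu⟩ := hsharp a x a (s x) hxa hne
        rw [htu s ⟨hs.1.1, hs.1.2, rfl⟩, htu s' ⟨hs'.1.1, hs'.1.2, hss'.symm⟩]
      · intro y hy
        have hya : a ≠ y := fun hay => hah (hay ▸ hy)
        obtain ⟨t, ht, -⟩ := hsharp a x a y hxa hya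
        refine ⟨t, ?_, ht.2.2⟩
        simp only [Sa, Finset.mem_filter, Finset.mem_univ, true_and]
        exact ⟨⟨ht.1, ht.2.1⟩, by rw [ht.2.2]; exact hy⟩
    rw [Finset.sum_congr rfl this]
    simp
  have hfinal := congrArg (Nat.cast : ℕ → ZMod (Nat.card F)) hdc
  push_cast at hfinal
  rw [Finset.sum_congr rfl hcount, hm1, hh1] at hfinal
  simp only [Finset.sum_const, nsmul_eq_mul, mul_one] at hfinal
  rw [hSa] at hfinal
  have : Fact (1 < Nat.card F) := ⟨Finite.one_lt_card⟩
  exact zero_ne_one hfinal

end Cfsg.Agent.S2531
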