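import Cfsg.Statements.S2532
import Mathlib

set_option autoImplicit false
open Cfsg

namespace Cfsg.Agent.S2532

theorem core {G X : Type} [Group G] [Fintype G] [MulAction G X] [Fintype X] [DecidableEq X] (r : ℕ)
    (hcard : Fintype.card G * (2 ^ Fintype.card G * r + 1) ≤ Fintype.card X) :
    ∃ Φ : Equiv.Perm (Fin r) →* Equiv.Perm X, Function.Injective Φ ∧
      (∀ π (g : G) (x : X), Φ π (g • x) = g • Φ π x) ∧
      (∀ π, Equiv.Perm.sign π = 1 → Equiv.Perm.sign (Φ π) = 1) := by
  classical
  have hGpos : 0 < Fintype.card G := Fintype.card_pos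
  have : Fintype (MulAction.orbitRel.Quotient G X) := Fintype.ofFinite _
  have : Fintype (Subgroup G) := Fintype.ofFinite _
  -- card X ≤ card Ω * card G
  have h1 : Fintype.card X ≤ Fintype.card (MulAction.orbitRel.Quotient G X) * Fintype.card G := by
    rw [Fintype.card_congr (MulAction.selfEquivSigmaOrbitsQuotientStabilizer G X),
      Fintype.card_sigma]
    calc ∑ ω : MulAction.orbitRel.Quotient G X,
          Fintype.card (G ⧸ MulAction.stabilizer G ω.out)
        ≤ ∑ _ω : MulAction.orbitRel.Quotient G X, Fintype.card G :=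
          Finset.sum_le_sum (fun ω _ => Fintype.card_le_of_surjective _ (QuotientGroup.mk_surjective))
      _ = Fintype.card (MulAction.orbitRel.Quotient G X) * Fintype.card G := by simp
  have h2 : Fintype.card (Subgroup G) * r < Fintype.card (MulAction.orbitRel.Quotient G X) := by
    have h3 : Fintype.card (Subgroup G) ≤ 2 ^ Fintype.card G := by
      rw [← Fintype.card_set]
      exact Fintype.card_le_of_injective (fun K : Subgroup G => (K : Set G)) SetLike.coe_injective
    have h4 : Fintype.card G * (2 ^ Fintype.card G * r + 1)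
        ≤ Fintype.card G * Fintype.card (MulAction.orbitRel.Quotient G X) := by
      rw [mul_comm (Fintype.card G) (Fintype.card (MulAction.orbitRel.Quotient G X))]
      exact le_trans hcard h1
    have h5 := Nat.le_of_mul_le_mul_left h4 hGpos
    calc Fintype.card (Subgroup G) * r ≤ 2 ^ Fintype.card G * r := Nat.mul_le_mul_right r h3
      _ < Fintype.card (MulAction.orbitRel.Quotient G X) := by omega
  obtain ⟨H₀, hH₀⟩ := Fintype.exists_lt_card_fiber_of_mul_lt_card
    (fun ω : MulAction.orbitRel.Quotient G X => MulAction.stabilizer G ω.out) h2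
  obtain ⟨c'⟩ : Nonempty (Fin r ↪
      {ω : MulAction.orbitRel.Quotient G X // MulAction.stabilizer G ω.out = H₀}) := by
    apply Function.Embedding.nonempty_of_card_le
    rw [Fintype.card_fin, Fintype.card_subtype]
    exact hH₀.le
  let c : Fin r → X := fun i => (c' i).1.out
  have hc_stab : ∀ i, MulAction.stabilizer G (c i) = H₀ := fun i => (c' i).2
  have hc_orb : ∀ i j, c i ∈ MulAction.orbit G (c j) → i = j := by
    intro i j h
    apply c'.injective
    apply Subtype.ext
    have h1 : (Quotient.mk'' (c i) : MulAction.orbitRel.Quotient G X) = Quotient.mk'' (c j) :=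
      Quotient.sound' h
    simpa [c] using h1
  -- the embedding
  let ι₀ : (G ⧸ H₀) × Fin r → X := fun p =>
    Quotient.liftOn' p.1 (fun g => g • c p.2) (by
      intro a b hab
      have hab' : a⁻¹ * b ∈ H₀ := QuotientGroup.leftRel_apply.1 hab
      rw [← hc_stab p.2, MulAction.mem_stabilizer_iff] at hab'
      show a • c p.2 = b • c p.2
      calc a • c p.2 = a • ((a⁻¹ * b) • c p.2) := by rw [hab']
        _ = b • c p.2 := by rw [smul_smul, mul_inv_cancel_left])
  have hι_mk : ∀ (g : G) (i : Fin r), ι₀ (QuotientGroup.mk g, i) = g • c i := fun g i => rfl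
  have hι_inj : Function.Injective ι₀ := by
    rintro ⟨q, i⟩ ⟨q', j⟩ h
    obtain ⟨g, rfl⟩ := QuotientGroup.mk_surjective q
    obtain ⟨g', rfl⟩ := QuotientGroup.mk_surjective q'
    rw [hι_mk, hι_mk] at h
    have hij : i = j := by
      apply hc_orb
      refine ⟨g⁻¹ * g', ?_⟩
      show (g⁻¹ * g') • c j = c i
      rw [mul_smul, ← h, inv_smul_smul]
    subst hij
    have : g⁻¹ * g' ∈ H₀ := by
      rw [← hc_stab i, MulAction.mem_stabilizer_iff, mul_smul, ← h, inv_smul_smul]
    rw [Prod.mk.injEq]
    exact ⟨QuotientGroup.eq.2 this, rfl⟩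
  let ι : (G ⧸ H₀) × Fin r ↪ X := ⟨ι₀, hι_inj⟩
  have hι_equiv : ∀ (g : G) (p : (G ⧸ H₀) × Fin r), g • ι p = ι (g • p.1, p.2) := by
    rintro g ⟨q, i⟩
    obtain ⟨g', rfl⟩ := QuotientGroup.mk_surjective q
    show g • ι₀ (QuotientGroup.mk g', i) = ι₀ (g • (QuotientGroup.mk g' : G ⧸ H₀), i)
    rw [hι_mk, ← mul_smul]
    rfl
  let T : Equiv.Perm (Fin r) →* Equiv.Perm ((G ⧸ H₀) × Fin r) :=
    { toFun := fun π => Equiv.prodCongrRight (fun _ => π)
      map_one' := by ext ⟨q, i⟩ <;> rfl
      map_mul' := by intro π π'; ext ⟨q, i⟩ <;> rfl }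
  have hT_inj : Function.Injective T := by
    intro π π' h
    apply Equiv.ext
    intro i
    have := congrArg (fun e : Equiv.Perm ((G ⧸ H₀) × Fin r) =>
      (e ((QuotientGroup.mk 1 : G ⧸ H₀), i)).2) h
    simpa [T] using this
  refine ⟨(Equiv.Perm.viaEmbeddingHom ι).comp T, ?_, ?_, ?_⟩
  · exact (Equiv.Perm.viaEmbeddingHom_injective ι).comp hT_inj
  · intro π g x
    show (T π).viaEmbedding ι (g • x) = g • (T π).viaEmbedding ι x
    by_cases hx : x ∈ Set.range ι
    · obtain ⟨⟨q, i⟩, rfl⟩ := hx
      rw [hι_equiv, Equiv.Perm.viaEmbedding_apply, Equiv.Perm.viaEmbedding_apply]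
      show ι (g • q, π i) = g • ι (q, π i)
      rw [hι_equiv]
    · have hgx : g • x ∉ Set.range ι := by
        rintro ⟨p, hp⟩
        apply hx
        refine ⟨(g⁻¹ • p.1, p.2), ?_⟩
        rw [← hι_equiv, hp, inv_smul_smul]
      rw [Equiv.Perm.viaEmbedding_apply_of_notMem _ _ _ hgx,
        Equiv.Perm.viaEmbedding_apply_of_notMem _ _ _ hx]
  · intro π hπ
    have hker : alternatingGroup (Fin r)
        ≤ (Equiv.Perm.sign.comp ((Equiv.Perm.viaEmbeddingHom ι).comp T)).ker := by
      rw [← Equiv.Perm.closure_three_cycles_eq_alternating, Subgroup.closure_le]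
      intro σ hσ
      have h3 : σ ^ 3 = 1 := by
        rw [← hσ.orderOf]
        exact pow_orderOf_eq_one σ
      rw [SetLike.mem_coe, MonoidHom.mem_ker]
      set u := (Equiv.Perm.sign.comp ((Equiv.Perm.viaEmbeddingHom ι).comp T)) σ with hu
      have hu3 : u ^ 3 = 1 := by rw [hu, ← map_pow, h3, map_one]
      have hu2 : u ^ 2 = 1 := Int.units_sq u
      calc u = u ^ 3 * (u ^ 2)⁻¹ := by group
        _ = 1 := by rw [hu3, hu2]; simp
    have hmem : π ∈ alternatingGroup (Fin r) := Equiv.Perm.mem_alternatingGroup.2 hπ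
    exact MonoidHom.mem_ker.1 (hker hmem)

/-- There is a function `f` of two natural-number arguments such that, whenever `m ≥ f(n, r)`, every subgroup of order `n` of the alternating group of degree `m` centralizes some subgroup of that alternating group isomorphic to the alternating group of degree `r`. -/
theorem result :
    ∃ f : ℕ → ℕ → ℕ, ∀ (m r : ℕ) (H : Subgroup ↥(alternatingGroup (Fin m))), f (Nat.card H) r ≤ m →
      ∃ K : Subgroup ↥(alternatingGroup (Fin m)), Nonempty (↥K ≃* ↥(alternatingGroup (Fin r))) ∧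
        K ≤ Subgroup.centralizer (H : Set ↥(alternatingGroup (Fin m))) := by
  refine ⟨fun n r => n * (2 ^ n * r + 1), ?_⟩
  intro m r H hm
  classical
  let φ : H →* Equiv.Perm (Fin m) := (alternatingGroup (Fin m)).subtype.comp H.subtype
  let _ : MulAction H (Fin m) := MulAction.compHom (Fin m) φ
  have hsmul : ∀ (h : H) (x : Fin m), h • x = ((h : alternatingGroup (Fin m)) : Equiv.Perm (Fin m)) x :=
    fun h x => rfl
  have : Fintype H := Fintype.ofFinite H
  obtain ⟨Φ, hinj, hcomm, hsign⟩ := core (G := H) (X := Fin m) r (by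
    rw [Fintype.card_fin, ← Nat.card_eq_fintype_card]
    exact hm)
  let Ψ : alternatingGroup (Fin r) →* alternatingGroup (Fin m) :=
    { toFun := fun π => ⟨Φ π.1, Equiv.Perm.mem_alternatingGroup.2
        (hsign π.1 (Equiv.Perm.mem_alternatingGroup.1 π.2))⟩
      map_one' := by
        apply Subtype.ext
        simp
      map_mul' := by
        intro a b
        apply Subtype.ext
        simp }
  have hΨ : Function.Injective Ψ := by
    intro a b h
    apply Subtype.ext
    apply hinj
    exact congrArg Subtype.val h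
  refine ⟨Ψ.range, ⟨(MonoidHom.ofInjective hΨ).symm⟩, ?_⟩
  rintro _ ⟨π, rfl⟩
  rw [Subgroup.mem_centralizer_iff]
  intro h hh
  apply Subtype.ext
  apply Equiv.ext
  intro x
  show (h : Equiv.Perm (Fin m)) (Φ π.1 x) = Φ π.1 ((h : Equiv.Perm (Fin m)) x)
  have h2 := hcomm π.1 ⟨h, hh⟩ x
  rw [hsmul, hsmul] at h2
  exact h2.symm

end Cfsg.Agent.S2532
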