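import Mathlib
import Cfsg.Statements.S2533

set_option autoImplicit false
open Cfsg

namespace Cfsg.Agent.S2533

open Matrix

section gen
variable {R : Type} [CommRing R] {n : ℕ}

/-- parity vector: `1` on even indices, `e` on odd ones -/
def dv (e : R) (n : ℕ) : Fin n → R := fun i => if Even (i : ℕ) then 1 else e

/-- shift matrix by `d` -/
def Sh (R : Type) [CommRing R] (n d : ℕ) : Matrix (Fin n) (Fin n) R :=
  Matrix.of fun i j => if (i : ℕ) = j + d then 1 else 0

theorem Sh_apply (d : ℕ) (i j : Fin n) : Sh R n d i j = if (i : ℕ) = j + d then 1 else 0 := rfl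

theorem dv_apply (e : R) (i : Fin n) : dv e n i = if Even (i : ℕ) then 1 else e := rfl

/-- zero extension of the entries -/
def ze (A : Matrix (Fin n) (Fin n) R) (i j : ℕ) : R :=
  if h : i < n ∧ j < n then A ⟨i, h.1⟩ ⟨j, h.2⟩ else 0

theorem ze_fin (A : Matrix (Fin n) (Fin n) R) (i j : Fin n) : ze A i j = A i j := by
  simp [ze]

theorem ze_lt (A : Matrix (Fin n) (Fin n) R) {i j : ℕ} (hi : i < n) (hj : j < n) :
    ze A i j = A ⟨i, hi⟩ ⟨j, hj⟩ := by
  simp [ze, hi, hj]

theorem ze_right (A : Matrix (Fin n) (Fin n) R) (i : ℕ) {j : ℕ} (hj : n ≤ j) : ze A i j = 0 := by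
  have : ¬ (i < n ∧ j < n) := by omega
  simp [ze, this]

theorem ze_left (A : Matrix (Fin n) (Fin n) R) {i : ℕ} (j : ℕ) (hi : n ≤ i) : ze A i j = 0 := by
  have : ¬ (i < n ∧ j < n) := by omega
  simp [ze, this]

theorem mulS (A : Matrix (Fin n) (Fin n) R) (i j : Fin n) :
    (A * Sh R n 1) i j = ze A i (j + 1) := by
  rw [Matrix.mul_apply]
  by_cases h : (j : ℕ) + 1 < n
  · rw [Finset.sum_eq_single ⟨j + 1, h⟩]
    · simp [Sh_apply, ze_lt A i.2 h]
    · intro k _ hk
      have : (k : ℕ) ≠ j + 1 := fun h' => hk (Fin.ext h')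
      simp [Sh_apply, this]
    · simp
  · rw [Finset.sum_eq_zero, ze_right A _ (by omega)]
    intro k _
    have : (k : ℕ) ≠ j + 1 := by omega
    simp [Sh_apply, this]

theorem Smul (A : Matrix (Fin n) (Fin n) R) (i : ℕ) (hi : i + 1 < n) (j : Fin n) :
    (Sh R n 1 * A) ⟨i + 1, hi⟩ j = ze A i j := by
  rw [Matrix.mul_apply]
  rw [Finset.sum_eq_single ⟨i, by omega⟩]
  · simp [Sh_apply, ze_lt A (show i < n by omega) j.2]
  · intro k _ hk
    have : i ≠ (k : ℕ) := fun h' => hk (Fin.ext h'.symm)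
    simp [Sh_apply, this]
  · simp

theorem mulT (A : Matrix (Fin n) (Fin n) R) (i : Fin n) (j : ℕ) (hj : j + 1 < n) :
    (A * (Sh R n 1)ᵀ) i ⟨j + 1, hj⟩ = ze A i j := by
  rw [Matrix.mul_apply]
  rw [Finset.sum_eq_single ⟨j, by omega⟩]
  · simp [Sh_apply, ze_lt A i.2 (show j < n by omega)]
  · intro k _ hk
    have : j ≠ (k : ℕ) := fun h' => hk (Fin.ext h'.symm)
    simp [Sh_apply, this]
  · simp

theorem mulT0 (A : Matrix (Fin n) (Fin n) R) (i : Fin n) (h0 : 0 < n) :
    (A * (Sh R n 1)ᵀ) i ⟨0, h0⟩ = 0 := by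
  rw [Matrix.mul_apply]
  apply Finset.sum_eq_zero
  intro k _
  simp [Sh_apply]

theorem Tmul (A : Matrix (Fin n) (Fin n) R) (i j : Fin n) :
    ((Sh R n 1)ᵀ * A) i j = ze A (i + 1) j := by
  rw [Matrix.mul_apply]
  by_cases h : (i : ℕ) + 1 < n
  · rw [Finset.sum_eq_single ⟨i + 1, h⟩]
    · simp [Sh_apply, ze_lt A h j.2]
    · intro k _ hk
      have : (k : ℕ) ≠ i + 1 := fun h' => hk (Fin.ext h')
      simp [Sh_apply, this]
    · simp
  · rw [Finset.sum_eq_zero, ze_left A _ (by omega)]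
    intro k _
    have : (k : ℕ) ≠ i + 1 := by omega
    simp [Sh_apply, this]

/-- core: a matrix commuting with the two half-shifts is scalar -/
theorem scalar_core (hn : Odd n) (A : Matrix (Fin n) (Fin n) R)
    (hS : ∀ i j : Fin n, Even (j : ℕ) → (A * Sh R n 1) i j = (Sh R n 1 * A) i j)
    (hT : ∀ i j : Fin n, Even (j : ℕ) → (A * (Sh R n 1)ᵀ) i j = ((Sh R n 1)ᵀ * A) i j) :
    ∀ i j : ℕ, i < n → j < n → ze A i j = if i = j then ze A 0 0 else 0 := by
  have hn0 : 0 < n := hn.pos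
  -- shift invariance
  have star : ∀ i j : ℕ, i + 1 < n → j + 1 < n → ze A (i + 1) (j + 1) = ze A i j := by
    intro i j hi hj
    rcases Nat.even_or_odd j with he | ho
    · have := hS ⟨i + 1, hi⟩ ⟨j, by omega⟩ he
      rw [mulS, Smul] at this
      exact this
    · have := hT ⟨i, by omega⟩ ⟨j + 1, hj⟩ (by simpa using ho.add_one)
      rw [mulT, Tmul] at this
      exact this.symm
  have L0 : ∀ i : ℕ, ze A (i + 1) 0 = 0 := by
    intro i
    by_cases hi : i < n
    · have := hT ⟨i, hi⟩ ⟨0, hn0⟩ (by simp)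
      rw [mulT0, Tmul] at this
      exact this.symm
    · exact ze_left A _ (by omega)
  have U0 : ∀ i : ℕ, i + 1 < n → ze A i (n - 1) = 0 := by
    intro i hi
    have he : Even (n - 1) := by
      obtain ⟨k, rfl⟩ := hn
      simp
    have := hS ⟨i + 1, hi⟩ ⟨n - 1, by omega⟩ he
    rw [mulS, Smul] at this
    rw [← this]
    exact ze_right A _ (by simp; omega)
  have lower : ∀ d j : ℕ, j + d + 1 < n → ze A (j + d + 1) j = 0 := by
    intro d j
    induction j with
    | zero => intro _; simpa using L0 d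
    | succ j ih =>
      intro h
      have := star (j + d + 1) j (by omega) (by omega)
      rw [show j + 1 + d + 1 = j + d + 1 + 1 by ring, this]
      exact ih (by omega)
  have upper : ∀ m i j : ℕ, i < j → j + m + 1 = n → ze A i j = 0 := by
    intro m
    induction m with
    | zero =>
      intro i j hij hj
      have : j = n - 1 := by omega
      rw [this]
      exact U0 i (by omega)
    | succ m ih =>
      intro i j hij hj
      rw [← star i j (by omega) (by omega)]
      exact ih (i + 1) (j + 1) (by omega) (by omega)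
  have diag : ∀ i : ℕ, i < n → ze A i i = ze A 0 0 := by
    intro i
    induction i with
    | zero => intro _; rfl
    | succ i ih =>
      intro h
      rw [star i i h h]
      exact ih (by omega)
  intro i j hi hj
  rcases lt_trichotomy i j with h | h | h
  · rw [if_neg (by omega)]
    exact upper (n - 1 - j) i j h (by omega)
  · subst h
    rw [if_pos rfl]
    exact diag i hi
  · rw [if_neg (by omega)]
    obtain ⟨d, rfl⟩ : ∃ d, i = j + d + 1 := ⟨i - j - 1, by omega⟩
    exact lower d j hi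


/-- projection on even coordinates -/
def Ev (R : Type) [CommRing R] (n : ℕ) : Matrix (Fin n) (Fin n) R := diagonal (dv (0 : R) n)

/-- the diagonal matrix `1` on even, `e` on odd coordinates -/
def Dg (e : R) (n : ℕ) : Matrix (Fin n) (Fin n) R := diagonal (dv e n)

theorem Ev_mul_Ev : Ev R n * Ev R n = Ev R n := by
  unfold Ev
  rw [diagonal_mul_diagonal]
  congr 1
  funext i
  by_cases h : Even (i : ℕ) <;> simp [dv_apply, h]

theorem Ev_mul_Dg (e : R) : Ev R n * Dg e n = Ev R n := by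
  unfold Ev Dg
  rw [diagonal_mul_diagonal]
  congr 1
  funext i
  by_cases h : Even (i : ℕ) <;> simp [dv_apply, h]

theorem Dg_eq (e : R) : Dg e n = Ev R n + e • (1 - Ev R n) := by
  ext i j
  by_cases hij : i = j
  · subst hij
    by_cases h : Even (i : ℕ) <;> simp [Dg, Ev, dv_apply, h]
  · simp [Dg, Ev, hij]

theorem Dg_one : Dg (1 : R) n = 1 := by
  rw [Dg_eq]; simp

theorem Dg_mul (e e' : R) : Dg e n * Dg e' n = Dg (e * e') n := by
  unfold Dg
  rw [diagonal_mul_diagonal]
  congr 1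
  funext i
  by_cases h : Even (i : ℕ) <;> simp [dv_apply, h]

theorem Ev_Sh_Ev (d : ℕ) (hd : Odd d) : Ev R n * Sh R n d * Ev R n = 0 := by
  ext i j
  unfold Ev
  rw [Matrix.mul_diagonal, Matrix.diagonal_mul, Sh_apply, dv_apply, dv_apply]
  by_cases h : (i : ℕ) = j + d
  · by_cases hj : Even (j : ℕ)
    · have : ¬ Even (i : ℕ) := by
        rw [h, Nat.even_add]
        simp [hj, hd]
      simp [this]
    · simp [hj]
  · simp [h]

theorem Ev_ShT_Ev (d : ℕ) (hd : Odd d) : Ev R n * (Sh R n d)ᵀ * Ev R n = 0 := by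
  have := congrArg Matrix.transpose (Ev_Sh_Ev (R := R) (n := n) d hd)
  rw [Matrix.transpose_mul, Matrix.transpose_mul] at this
  simpa [Ev, Matrix.mul_assoc] using this

/-- the linear combination of shifts -/
def Mc (n : ℕ) (c : Fin 3 → R) : Matrix (Fin n) (Fin n) R :=
  c 0 • Sh R n 1 + c 1 • (Sh R n 1)ᵀ + c 2 • Sh R n 3

/-- the nilpotent part -/
def Nc (n : ℕ) (c : Fin 3 → R) : Matrix (Fin n) (Fin n) R := Mc n c * Ev R n

theorem Ev_Mc_Ev (c : Fin 3 → R) : Ev R n * Mc n c * Ev R n = 0 := by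
  unfold Mc
  rw [Matrix.mul_add, Matrix.mul_add, Matrix.add_mul, Matrix.add_mul, Matrix.mul_smul,
    Matrix.mul_smul, Matrix.mul_smul, Matrix.smul_mul, Matrix.smul_mul, Matrix.smul_mul,
    Ev_Sh_Ev 1 (by decide), Ev_ShT_Ev 1 (by decide), Ev_Sh_Ev 3 (by decide)]
  simp

theorem Ev_mul_Nc (c : Fin 3 → R) : Ev R n * Nc n c = 0 := by
  unfold Nc
  rw [← Matrix.mul_assoc, Ev_Mc_Ev]

theorem Nc_mul_Ev (c : Fin 3 → R) : Nc n c * Ev R n = Nc n c := by
  unfold Nc
  rw [Matrix.mul_assoc, Ev_mul_Ev]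

theorem Nc_mul_Nc (c c' : Fin 3 → R) : Nc n c * Nc n c' = 0 := by
  rw [← Nc_mul_Ev c, Matrix.mul_assoc, Ev_mul_Nc, Matrix.mul_zero]

theorem Nc_add (c c' : Fin 3 → R) : Nc n (c + c') = Nc n c + Nc n c' := by
  unfold Nc Mc
  rw [← Matrix.add_mul]
  congr 1
  simp only [Pi.add_apply, add_smul]
  abel

theorem Nc_zero : Nc n (0 : Fin 3 → R) = 0 := by
  unfold Nc Mc
  simp

theorem Nc_smul (e : R) (c : Fin 3 → R) : Nc n (e • c) = e • Nc n c := by
  unfold Nc Mc
  rw [← Matrix.smul_mul]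
  congr 1
  simp only [Pi.smul_apply, smul_eq_mul, mul_smul, smul_add]

theorem Dg_mul_Nc (e : R) (c : Fin 3 → R) : Dg e n * Nc n c = e • Nc n c := by
  rw [Dg_eq, Matrix.add_mul, Ev_mul_Nc, Matrix.smul_mul, Matrix.sub_mul, Ev_mul_Nc]
  simp

theorem Nc_mul_Dg (e : R) (c : Fin 3 → R) : Nc n c * Dg e n = Nc n c := by
  rw [← Nc_mul_Ev c, Matrix.mul_assoc, Ev_mul_Dg]

theorem det_one_add_Nc (c : Fin 3 → R) : (1 + Nc n c).det = 1 := by
  rw [← Nc_mul_Ev c, Matrix.det_one_add_mul_comm, Ev_mul_Nc]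
  simp

theorem prod_dv (e : R) (k : ℕ) :
    ∏ i ∈ Finset.range (2 * k + 1), (if Even i then (1 : R) else e) = e ^ k := by
  induction k with
  | zero => simp
  | succ k ih =>
    rw [show 2 * (k + 1) + 1 = 2 * k + 1 + 1 + 1 by ring, Finset.prod_range_succ,
      Finset.prod_range_succ, ih]
    have h1 : ¬ Even (2 * k + 1) := by simp
    have h2 : Even (2 * k + 1 + 1) := by
      rw [show 2 * k + 1 + 1 = 2 * (k + 1) by ring]; simp
    rw [if_neg h1, if_pos h2, mul_one, pow_succ]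

theorem det_Dg (e : R) (he : e ^ 2 = 1) (m : ℕ) : (Dg e (4 * m + 1)).det = 1 := by
  unfold Dg
  rw [Matrix.det_diagonal]
  have := Fin.prod_univ_eq_prod_range (fun i => if Even i then (1 : R) else e) (4 * m + 1)
  simp only [dv_apply]
  rw [this, show 4 * m + 1 = 2 * (2 * m) + 1 by ring, prod_dv, pow_mul, he, one_pow]

theorem Nc_entry10 (c : Fin 3 → R) (h : 3 < n) : Nc n c ⟨1, by omega⟩ ⟨0, by omega⟩ = c 0 := by
  unfold Nc Mc Ev
  rw [Matrix.mul_diagonal]
  simp [Sh_apply, dv_apply]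

theorem Nc_entry12 (c : Fin 3 → R) (h : 3 < n) : Nc n c ⟨1, by omega⟩ ⟨2, by omega⟩ = c 1 := by
  unfold Nc Mc Ev
  rw [Matrix.mul_diagonal]
  simp [Sh_apply, dv_apply]

theorem Nc_entry30 (c : Fin 3 → R) (h : 3 < n) : Nc n c ⟨3, by omega⟩ ⟨0, by omega⟩ = c 2 := by
  unfold Nc Mc Ev
  rw [Matrix.mul_diagonal]
  simp [Sh_apply, dv_apply]

theorem Nc_entry11 (c : Fin 3 → R) (h : 3 < n) : Nc n c ⟨1, by omega⟩ ⟨1, by omega⟩ = 0 := by
  unfold Nc Mc Ev
  rw [Matrix.mul_diagonal]
  simp [dv_apply]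

end gen



section main
variable (p : ℕ) [Fact p.Prime]

/-- the sign in `ZMod p` -/
def sg (ε : ℤˣ) : ZMod p := ((ε : ℤ) : ZMod p)

theorem sg_one : sg p 1 = 1 := by simp [sg]

theorem sg_mul (ε ε' : ℤˣ) : sg p (ε * ε') = sg p ε * sg p ε' := by simp [sg]

theorem sg_neg_one : sg p (-1) = -1 := by simp [sg]

theorem sg_sq (ε : ℤˣ) : sg p ε ^ 2 = 1 := by
  rcases Int.units_eq_one_or ε with rfl | rfl <;> simp [sg]

theorem sg_mul_self (ε : ℤˣ) : sg p ε * sg p ε = 1 := by
  rw [← pow_two, sg_sq]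

theorem two_ne_zero' (hp : p ≠ 2) : (2 : ZMod p) ≠ 0 := by
  intro h
  have h2 : ((2 : ℕ) : ZMod p) = 0 := by exact_mod_cast h
  have h3 : p ∣ 2 := (ZMod.natCast_eq_zero_iff 2 p).mp h2
  have h4 := Nat.le_of_dvd (by norm_num) h3
  have h5 := (Fact.out : p.Prime).two_le
  omega

theorem sg_inj (hp : p ≠ 2) (ε : ℤˣ) (h : sg p ε = 1) : ε = 1 := by
  rcases Int.units_eq_one_or ε with rfl | rfl
  · rfl
  · exfalso
    rw [sg_neg_one] at h
    apply two_ne_zero' p hp
    linear_combination -h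

/-- the inversion action -/
def actHom : ℤˣ →* MulAut (Multiplicative (Fin 3 → ZMod p)) where
  toFun ε :=
    { toFun := fun c => Multiplicative.ofAdd (sg p ε • Multiplicative.toAdd c)
      invFun := fun c => Multiplicative.ofAdd (sg p ε • Multiplicative.toAdd c)
      left_inv := fun c => by
        show Multiplicative.ofAdd (sg p ε • (sg p ε • Multiplicative.toAdd c)) = c
        rw [smul_smul, sg_mul_self, one_smul]; rfl
      right_inv := fun c => by
        show Multiplicative.ofAdd (sg p ε • (sg p ε • Multiplicative.toAdd c)) = c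
        rw [smul_smul, sg_mul_self, one_smul]; rfl
      map_mul' := fun c c' => by
        show Multiplicative.ofAdd (sg p ε • (Multiplicative.toAdd c + Multiplicative.toAdd c')) = _
        rw [smul_add]; rfl }
  map_one' := by
    apply MulEquiv.ext
    intro c
    show Multiplicative.ofAdd (sg p 1 • Multiplicative.toAdd c) = c
    rw [sg_one, one_smul]; rfl
  map_mul' := fun ε ε' => by
    apply MulEquiv.ext
    intro c
    show Multiplicative.ofAdd (sg p (ε * ε') • Multiplicative.toAdd c) =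
      Multiplicative.ofAdd (sg p ε • (sg p ε' • Multiplicative.toAdd c))
    rw [sg_mul, smul_smul]

theorem actHom_apply (ε : ℤˣ) (c : Multiplicative (Fin 3 → ZMod p)) :
    actHom p ε c = Multiplicative.ofAdd (sg p ε • Multiplicative.toAdd c) := rfl

/-- the group of order `2 p ^ 3` -/
abbrev HH : Type := Multiplicative (Fin 3 → ZMod p) ⋊[actHom p] ℤˣ

theorem card_HH : Nat.card (HH p) = 2 * p ^ 3 := by
  rw [SemidirectProduct.card, Nat.card_eq_fintype_card, Nat.card_eq_fintype_card,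
    Fintype.card_units_int]
  have : Fintype.card (Multiplicative (Fin 3 → ZMod p)) = p ^ 3 := by
    rw [Fintype.card_congr Multiplicative.toAdd]
    simp [ZMod.card]
  rw [this, mul_comm]

instance : Finite (HH p) := Finite.of_equiv _ SemidirectProduct.equivProd.symm

/-- unipotent elements -/
def Uc (m : ℕ) (c : Fin 3 → ZMod p) : Matrix.SpecialLinearGroup (Fin (4 * m + 1)) (ZMod p) :=
  ⟨1 + Nc (4 * m + 1) c, det_one_add_Nc c⟩

/-- the involution -/
def Te (m : ℕ) (ε : ℤˣ) : Matrix.SpecialLinearGroup (Fin (4 * m + 1)) (ZMod p) :=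
  ⟨Dg (sg p ε) (4 * m + 1), det_Dg _ (sg_sq p ε) m⟩

theorem Uc_val (m : ℕ) (c : Fin 3 → ZMod p) :
    (Uc p m c).val = 1 + Nc (4 * m + 1) c := rfl

theorem Te_val (m : ℕ) (ε : ℤˣ) : (Te p m ε).val = Dg (sg p ε) (4 * m + 1) := rfl

/-- hom on the normal subgroup -/
def fnHom (m : ℕ) :
    Multiplicative (Fin 3 → ZMod p) →* Matrix.SpecialLinearGroup (Fin (4 * m + 1)) (ZMod p) where
  toFun c := Uc p m (Multiplicative.toAdd c)
  map_one' := by
    apply Subtype.ext
    show 1 + Nc (4 * m + 1) (0 : Fin 3 → ZMod p) = 1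
    rw [Nc_zero, add_zero]
  map_mul' := fun a b => by
    apply Subtype.ext
    show 1 + Nc (4 * m + 1) (Multiplicative.toAdd a + Multiplicative.toAdd b) =
      (1 + Nc (4 * m + 1) (Multiplicative.toAdd a)) * (1 + Nc (4 * m + 1) (Multiplicative.toAdd b))
    rw [Nc_add, Matrix.add_mul, Matrix.mul_add, Matrix.mul_add, Nc_mul_Nc]
    simp only [Matrix.one_mul, Matrix.mul_one, add_zero]
    abel

/-- hom on the complement -/
def fgHom (m : ℕ) : ℤˣ →* Matrix.SpecialLinearGroup (Fin (4 * m + 1)) (ZMod p) where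
  toFun ε := Te p m ε
  map_one' := by
    apply Subtype.ext
    show Dg (sg p 1) (4 * m + 1) = 1
    rw [sg_one, Dg_one]
  map_mul' := fun a b => by
    apply Subtype.ext
    show Dg (sg p (a * b)) (4 * m + 1) = Dg (sg p a) (4 * m + 1) * Dg (sg p b) (4 * m + 1)
    rw [sg_mul, Dg_mul]

theorem compat (m : ℕ) (g : ℤˣ) :
    (fnHom p m).comp (actHom p g).toMonoidHom =
      (MulAut.conj (fgHom p m g)).toMonoidHom.comp (fnHom p m) := by
  apply MonoidHom.ext
  intro c
  show Uc p m (sg p g • Multiplicative.toAdd c) =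
    Te p m g * Uc p m (Multiplicative.toAdd c) * (Te p m g)⁻¹
  rw [eq_mul_inv_iff_mul_eq]
  apply Subtype.ext
  show (1 + Nc (4 * m + 1) (sg p g • Multiplicative.toAdd c)) * Dg (sg p g) (4 * m + 1) =
    Dg (sg p g) (4 * m + 1) * (1 + Nc (4 * m + 1) (Multiplicative.toAdd c))
  rw [Nc_smul, Matrix.add_mul, Matrix.mul_add, Matrix.one_mul, Matrix.mul_one, Matrix.smul_mul,
    Nc_mul_Dg, Dg_mul_Nc]

/-- the representation -/
def psi (m : ℕ) : HH p →* Matrix.SpecialLinearGroup (Fin (4 * m + 1)) (ZMod p) :=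
  SemidirectProduct.lift (fnHom p m) (fgHom p m) (compat p m)

theorem psi_val (m : ℕ) (a : HH p) :
    (psi p m a).val = Dg (sg p a.right) (4 * m + 1) + Nc (4 * m + 1) (Multiplicative.toAdd a.left) := by
  show (1 + Nc (4 * m + 1) (Multiplicative.toAdd a.left)) * Dg (sg p a.right) (4 * m + 1) = _
  rw [Matrix.add_mul, Matrix.one_mul, Nc_mul_Dg]

theorem psi_inj (hp : p ≠ 2) (m : ℕ) (hm : 1 ≤ m) (a : HH p) (h : psi p m a = 1) : a = 1 := by
  have hv : Dg (sg p a.right) (4 * m + 1) + Nc (4 * m + 1) (Multiplicative.toAdd a.left) = 1 := by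
    rw [← psi_val, h]; rfl
  have h3 : 3 < 4 * m + 1 := by omega
  have e11 := congrFun (congrFun hv ⟨1, by omega⟩) ⟨1, by omega⟩
  rw [Matrix.add_apply, Nc_entry11 _ h3] at e11
  have hs : sg p a.right = 1 := by
    simpa [Dg, dv_apply] using e11
  have hr : a.right = 1 := sg_inj p hp _ hs
  rw [hs, Dg_one] at hv
  have hN : Nc (4 * m + 1) (Multiplicative.toAdd a.left) = 0 := by
    simpa using hv
  have c0 := Nc_entry10 (Multiplicative.toAdd a.left) h3
  have c1 := Nc_entry12 (Multiplicative.toAdd a.left) h3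
  have c2 := Nc_entry30 (Multiplicative.toAdd a.left) h3
  rw [hN] at c0 c1 c2
  have hl : a.left = 1 := by
    have : Multiplicative.toAdd a.left = 0 := by
      funext i
      fin_cases i
      · exact c0.symm
      · exact c1.symm
      · exact c2.symm
    exact this
  exact SemidirectProduct.ext hl hr


theorem Nc_single0 (n : ℕ) :
    Nc n (Pi.single 0 1 : Fin 3 → ZMod p) = Sh (ZMod p) n 1 * Ev (ZMod p) n := by
  unfold Nc Mc
  simp

theorem Nc_single1 (n : ℕ) :
    Nc n (Pi.single 1 1 : Fin 3 → ZMod p) = (Sh (ZMod p) n 1)ᵀ * Ev (ZMod p) n := by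
  unfold Nc Mc
  simp

theorem pow_lemma (m : ℕ) (hpm : (p - 1) ∣ m) (r : ZMod p) (hr : r ^ (4 * m + 1) = 1) : r = 1 := by
  obtain ⟨t, rfl⟩ := hpm
  have hr0 : r ≠ 0 := by
    rintro rfl
    simp at hr
  have h1 : r ^ (p - 1) = 1 := ZMod.pow_card_sub_one_eq_one hr0
  rw [pow_succ, show 4 * ((p - 1) * t) = (p - 1) * (4 * t) by ring, pow_mul, h1, one_pow,
    one_mul] at hr
  exact hr

theorem center_triv (m : ℕ) (hpm : (p - 1) ∣ m)
    (A : Matrix.SpecialLinearGroup (Fin (4 * m + 1)) (ZMod p))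
    (hA : A ∈ Subgroup.center (Matrix.SpecialLinearGroup (Fin (4 * m + 1)) (ZMod p))) : A = 1 := by
  obtain ⟨r, hr, hrA⟩ := Matrix.SpecialLinearGroup.mem_center_iff.1 hA
  rw [Fintype.card_fin] at hr
  have := pow_lemma p m hpm r hr
  subst this
  apply Subtype.ext
  rw [← hrA]
  simp

theorem psi_cent (hp : p ≠ 2) (m : ℕ) (hpm : (p - 1) ∣ m)
    (A : Matrix.SpecialLinearGroup (Fin (4 * m + 1)) (ZMod p))
    (h : ∀ a : HH p, psi p m a * A = A * psi p m a) : A = 1 := by
  have hodd : Odd (4 * m + 1) := ⟨2 * m, by ring⟩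
  have key : ∀ a : HH p, (Dg (sg p a.right) (4 * m + 1) +
      Nc (4 * m + 1) (Multiplicative.toAdd a.left)) * A.val =
      A.val * (Dg (sg p a.right) (4 * m + 1) + Nc (4 * m + 1) (Multiplicative.toAdd a.left)) := by
    intro a
    have := congrArg Subtype.val (h a)
    rw [Matrix.SpecialLinearGroup.coe_mul, Matrix.SpecialLinearGroup.coe_mul, psi_val] at this
    exact this
  -- commute with `Dg (-1)`
  have hD : Dg (-1 : ZMod p) (4 * m + 1) * A.val = A.val * Dg (-1 : ZMod p) (4 * m + 1) := by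
    have := key ⟨1, -1⟩
    rw [sg_neg_one] at this
    have h0 : Multiplicative.toAdd (1 : Multiplicative (Fin 3 → ZMod p)) = 0 := rfl
    rw [h0, Nc_zero, add_zero] at this
    exact this
  have hE : A.val * Ev (ZMod p) (4 * m + 1) = Ev (ZMod p) (4 * m + 1) * A.val := by
    have e1 : Dg (-1 : ZMod p) (4 * m + 1) = (2 : ZMod p) • Ev (ZMod p) (4 * m + 1) - 1 := by
      rw [Dg_eq, two_smul]
      simp
      abel
    rw [e1, Matrix.sub_mul, Matrix.mul_sub, Matrix.smul_mul, Matrix.mul_smul, Matrix.one_mul,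
      Matrix.mul_one] at hD
    have h2 := sub_left_injective hD
    ext i j
    have := congrFun (congrFun h2 i) j
    simp only [Matrix.smul_apply, smul_eq_mul] at this
    exact (mul_left_cancel₀ (two_ne_zero' p hp) this).symm
  have hS' : A.val * (Sh (ZMod p) (4 * m + 1) 1 * Ev (ZMod p) (4 * m + 1)) =
      (Sh (ZMod p) (4 * m + 1) 1 * Ev (ZMod p) (4 * m + 1)) * A.val := by
    have := key ⟨Multiplicative.ofAdd (Pi.single 0 1), 1⟩
    rw [sg_one, Dg_one] at this
    have h0 : Multiplicative.toAdd (Multiplicative.ofAdd (Pi.single 0 1 : Fin 3 → ZMod p)) =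
      Pi.single 0 1 := rfl
    rw [h0, Nc_single0, Matrix.add_mul, Matrix.mul_add, Matrix.one_mul, Matrix.mul_one] at this
    exact (add_left_cancel this).symm
  have hT' : A.val * ((Sh (ZMod p) (4 * m + 1) 1)ᵀ * Ev (ZMod p) (4 * m + 1)) =
      ((Sh (ZMod p) (4 * m + 1) 1)ᵀ * Ev (ZMod p) (4 * m + 1)) * A.val := by
    have := key ⟨Multiplicative.ofAdd (Pi.single 1 1), 1⟩
    rw [sg_one, Dg_one] at this
    have h0 : Multiplicative.toAdd (Multiplicative.ofAdd (Pi.single 1 1 : Fin 3 → ZMod p)) =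
      Pi.single 1 1 := rfl
    rw [h0, Nc_single1, Matrix.add_mul, Matrix.mul_add, Matrix.one_mul, Matrix.mul_one] at this
    exact (add_left_cancel this).symm
  have strip : ∀ X : Matrix (Fin (4 * m + 1)) (Fin (4 * m + 1)) (ZMod p),
      A.val * (X * Ev (ZMod p) (4 * m + 1)) = (X * Ev (ZMod p) (4 * m + 1)) * A.val →
      ∀ i j : Fin (4 * m + 1), Even (j : ℕ) → (A.val * X) i j = (X * A.val) i j := by
    intro X hX i j hj
    have e1 : A.val * X * Ev (ZMod p) (4 * m + 1) = X * A.val * Ev (ZMod p) (4 * m + 1) := by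
      rw [Matrix.mul_assoc, hX, Matrix.mul_assoc, ← hE, ← Matrix.mul_assoc]
    have := congrFun (congrFun e1 i) j
    unfold Ev at this
    rw [Matrix.mul_diagonal, Matrix.mul_diagonal, dv_apply, if_pos hj, mul_one, mul_one] at this
    exact this
  have sc := scalar_core hodd A.val (strip _ hS') (strip _ hT')
  have hA : A.val = (ze A.val 0 0) • (1 : Matrix (Fin (4 * m + 1)) (Fin (4 * m + 1)) (ZMod p)) := by
    ext i j
    rw [← ze_fin A.val i j, sc i j i.2 j.2, Matrix.smul_apply, Matrix.one_apply]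
    by_cases hij : i = j
    · subst hij; simp
    · have : (i : ℕ) ≠ j := fun h' => hij (Fin.ext h')
      simp [hij, this]
  have hdet : (ze A.val 0 0) ^ (4 * m + 1) = 1 := by
    have := A.2
    rw [hA, Matrix.det_smul, Matrix.det_one, mul_one, Fintype.card_fin] at this
    exact this
  have hc := pow_lemma p m hpm _ hdet
  apply Subtype.ext
  rw [hA, hc, one_smul]
  rfl

end main

/-- For every odd prime `p` there is a finite group `H` of order `2p³` which, for infinitely many `n`, embeds in the projective special linear group `PSL(n, p)` as a subgroup with trivial centralizer. -/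
theorem result
    (p : ℕ) [Fact p.Prime] (hp : p ≠ 2) :
    ∃ (H : Type) (_ : Group H) (_ : Finite H), Nat.card H = 2 * p ^ 3 ∧
      ∀ N : ℕ, ∃ n, N ≤ n ∧ ∃ φ : H →* Matrix.ProjectiveSpecialLinearGroup (Fin n) (ZMod p),
        Function.Injective φ ∧ Subgroup.centralizer (φ.range : Set (Matrix.ProjectiveSpecialLinearGroup (Fin n) (ZMod p))) = ⊥ := by
  refine ⟨HH p, inferInstance, inferInstance, card_HH p, fun N => ?_⟩
  have hp2 := (Fact.out : p.Prime).two_le
  have hpm : (p - 1) ∣ (p - 1) * (N + 1) := Dvd.intro _ rfl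
  have hm : 1 ≤ (p - 1) * (N + 1) := Nat.mul_pos (by omega) (by omega)
  have hN : N ≤ 4 * ((p - 1) * (N + 1)) + 1 := by
    have : N + 1 ≤ (p - 1) * (N + 1) := Nat.le_mul_of_pos_left _ (by omega)
    omega
  refine ⟨4 * ((p - 1) * (N + 1)) + 1, hN,
    (QuotientGroup.mk' _).comp (psi p ((p - 1) * (N + 1))), ?_, ?_⟩
  · rw [injective_iff_map_eq_one]
    intro a ha
    have h1 : psi p ((p - 1) * (N + 1)) a ∈ Subgroup.center _ :=
      (QuotientGroup.eq_one_iff _).1 ha
    exact psi_inj p hp _ hm a (center_triv p _ hpm _ h1)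
  · rw [Subgroup.eq_bot_iff_forall]
    intro x hx
    obtain ⟨A, rfl⟩ := QuotientGroup.mk_surjective x
    have hA : A = 1 := by
      apply psi_cent p hp _ hpm
      intro a
      have h1 := Subgroup.mem_centralizer_iff.1 hx
        ((QuotientGroup.mk' _).comp (psi p ((p - 1) * (N + 1))) a) ⟨a, rfl⟩
      have h2 : ((psi p ((p - 1) * (N + 1)) a * A : Matrix.SpecialLinearGroup _ _) :
          Matrix.ProjectiveSpecialLinearGroup (Fin (4 * ((p - 1) * (N + 1)) + 1)) (ZMod p)) =
          ((A * psi p ((p - 1) * (N + 1)) a : Matrix.SpecialLinearGroup _ _) :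
          Matrix.ProjectiveSpecialLinearGroup (Fin (4 * ((p - 1) * (N + 1)) + 1)) (ZMod p)) := h1
      have h3 := center_triv p _ hpm _ (QuotientGroup.eq.1 h2)
      exact (inv_mul_eq_one.1 h3)
    rw [hA]
    rfl

end Cfsg.Agent.S2533
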