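import Cfsg.Statements.S2534
import Cfsg.Agent.Lib.Helper13.HADpi
import Cfsg.Agent.Lib.Helper45.HADpiA

set_option autoImplicit false
open Cfsg

namespace Cfsg.Agent.S2534

/-- For `n ≥ 5` and a set of primes `π`, the alternating group of degree `n` satisfies the full Sylow analogue for `π` (its maximal `π`-subgroups are pairwise conjugate; for a finite group this says Hall `π`-subgroups exist, are all conjugate, and contain every `π`-subgroup up to conjugacy) if and only if either at most one prime of `π` divides its order or every prime dividing its order lies in `π`. -/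
theorem result (n : ℕ) (hn : 5 ≤ n) (π : Set ℕ) :
    Cfsg.IsDPiGroup π ↥(alternatingGroup (Fin n)) ↔
      ((∀ r s : ℕ, r.Prime → s.Prime → r ∈ π → s ∈ π → r ∣ Nat.card ↥(alternatingGroup (Fin n)) → s ∣ Nat.card ↥(alternatingGroup (Fin n)) → r = s) ∨
        ∀ r : ℕ, r.Prime → r ∣ Nat.card ↥(alternatingGroup (Fin n)) → r ∈ π) := by
  constructor
  · intro hD
    by_contra hcon
    push Not at hcon
    obtain ⟨⟨r, s, hr, hs, hrπ, hsπ, hrd, hsd, hrs⟩, ⟨t, ht, htd, htπ⟩⟩ := hcon
    have hle : ∀ p : ℕ, p.Prime → p ∣ Nat.card ↥(alternatingGroup (Fin n)) → p ≤ n := by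
      intro p hp hdvd
      have h1 : Nat.card ↥(alternatingGroup (Fin n)) ∣ Nat.card (Equiv.Perm (Fin n)) :=
        Subgroup.card_subgroup_dvd_card _
      rw [Nat.card_perm, Nat.card_fin] at h1
      exact (Nat.Prime.dvd_factorial hp).mp (hdvd.trans h1)
    exact Cfsg.Agent.Lib.Helper13.HA.dpi_alt_contra n hn π hD
      ⟨r, s, hr, hs, hrs, hrπ, hsπ, hle r hr hrd, hle s hs hsd⟩ ⟨t, ht, hle t ht htd, htπ⟩
  · rintro (h1 | h2)
    · exact Cfsg.Agent.Lib.Helper45.HA.dpi_of_single π h1
    · exact Cfsg.Agent.Lib.Helper45.HA.dpi_of_all π h2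

end Cfsg.Agent.S2534
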