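import Cfsg.Statements.S2535
import Cfsg.Agent.Lib.Helper13.HABridge
import Cfsg.Agent.Lib.Helper13.HAExt
import Cfsg.Agent.Lib.Helper13.HAGNormal
import Cfsg.Agent.Lib.Helper13.HAConjS
import Cfsg.Agent.Lib.Helper13.HAConjA

set_option autoImplicit false
open Cfsg

namespace Cfsg.Agent.S2535

/-- For every `n` and every set of primes `π`, the following are equivalent for the symmetric group `S` of degree `n` and its alternating subgroup `A`: `S` has a Hall `π`-subgroup; `S` has a Hall `π`-subgroup and all of them are conjugate; `A` has a Hall `π`-subgroup; `A` has a Hall `π`-subgroup and all of them are conjugate. -/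
theorem result (n : ℕ) (π : Set ℕ) :
    (Cfsg.IsEPiGroup π (Equiv.Perm (Fin n)) ↔ Cfsg.IsCPiGroup π (Equiv.Perm (Fin n))) ∧
    (Cfsg.IsEPiGroup π (Equiv.Perm (Fin n)) ↔ Cfsg.IsEPiGroup π ↥(alternatingGroup (Fin n))) ∧
    (Cfsg.IsEPiGroup π ↥(alternatingGroup (Fin n)) ↔ Cfsg.IsCPiGroup π ↥(alternatingGroup (Fin n))) := by
  refine ⟨⟨fun h => ⟨h, fun H K hH hK => Cfsg.Agent.Lib.Helper13.HA.sym_conj π H K hH hK⟩,
    fun h => h.1⟩, ⟨?_, ?_⟩,
    ⟨fun h => ⟨h, fun M K hM hK => Cfsg.Agent.Lib.Helper13.HA.alt_conj π M K hM hK⟩,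
    fun h => h.1⟩⟩
  · rintro ⟨H, hH⟩
    exact ⟨H.subgroupOf _,
      Cfsg.Agent.Lib.Helper13.HA.hall_subgroupOf_normal π H (alternatingGroup (Fin n)) hH⟩
  · rintro ⟨M, hM⟩
    obtain ⟨M₀, hM₀, _⟩ := Cfsg.Agent.Lib.Helper13.HA.hallAlt_extend π _
      ((Cfsg.Agent.Lib.Helper13.HA.hallAlt_map π M).mp hM)
    exact ⟨M₀, hM₀⟩

end Cfsg.Agent.S2535
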