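import Cfsg.Statements.S2537
import Mathlib
import Cfsg.Agent.S0799
import Cfsg.Agent.S0802
import Cfsg.Agent.S0803
import Cfsg.Agent.S0265
import Cfsg.Agent.Lib.Helper54.DkHall

set_option autoImplicit false
open Cfsg
open Cfsg.Agent.Lib.Helper54 Cfsg.Agent.Lib.Helper19.Dk

namespace Cfsg.Agent.S2537

/-- Let `F` be a finite field with `q` elements of characteristic `p ≥ 5`, and `ε = 1` if `q ≡ 1 (mod 4)`, `ε = -1` otherwise. Then `PSL(2, F)` has a Hall `{2, 3}`-subgroup if and only if `3` divides `q − ε`, or the `{2,3}`-part of `q² − 1` is 24, or the `{2,3}`-part of `q² − 1` is 48 (the `{2,3}`-part of `m` being the largest divisor of `m` with no prime factor other than 2 and 3). -/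
theorem result {F : Type*} [Field F] [Fintype F] {p : ℕ} [Fact p.Prime] [CharP F p]
    (hp : 5 ≤ p) (q : ℕ) (hq : Fintype.card F = q) :
    (∃ H : Subgroup (Matrix.ProjectiveSpecialLinearGroup (Fin 2) F), Cfsg.IsPiHall ({2, 3} : Set ℕ) H) ↔
      (3 ∣ q - 1 ∧ q % 4 = 1) ∨ (3 ∣ q + 1 ∧ q % 4 = 3) ∨
        2 ^ (q ^ 2 - 1).factorization 2 * 3 ^ (q ^ 2 - 1).factorization 3 = 24 ∨
        2 ^ (q ^ 2 - 1).factorization 2 * 3 ^ (q ^ 2 - 1).factorization 3 = 48 := by
  classical
  have hpp : p.Prime := Fact.out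
  obtain ⟨n, -, hn⟩ := FiniteField.card F p
  rw [hq] at hn
  have h2F : (2 : F) ≠ 0 := dkm_two_ne_zero p (by omega)
  have hq2 : ¬ 2 ∣ q := by
    rw [hn]
    intro h
    have := (Nat.prime_dvd_prime_iff_eq Nat.prime_two hpp).1 (Nat.Prime.dvd_of_dvd_pow Nat.prime_two h)
    omega
  have hq3 : ¬ 3 ∣ q := by
    rw [hn]
    intro h
    have := (Nat.prime_dvd_prime_iff_eq Nat.prime_three hpp).1
      (Nat.Prime.dvd_of_dvd_pow Nat.prime_three h)
    omega
  have hq3' : q % 3 = 1 ∨ q % 3 = 2 := by omega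
  have hpq : p ∣ q := by rw [hn]; exact dvd_pow_self p n.ne_zero
  have hq5 : 5 ≤ q := le_trans hp (Nat.le_of_dvd (by
    rcases Nat.eq_zero_or_pos q with h0 | h0
    · exact absurd (h0 ▸ dvd_zero 2) hq2
    · exact h0) hpq)
  have hG : 2 * Nat.card (Matrix.ProjectiveSpecialLinearGroup (Fin 2) F) = q * (q ^ 2 - 1) := by
    have := dkm_card_P2_odd h2F p
    rwa [hq] at this
  have hfac : q ^ 2 - 1 = (q - 1) * (q + 1) := sq_sub_one' q (by omega)
  have hQ0 : q ^ 2 - 1 ≠ 0 := by
    rw [hfac]
    exact Nat.mul_ne_zero (by omega) (by omega)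
  constructor
  · rintro ⟨H, hH1, hH2⟩
    obtain ⟨h, hh⟩ : ∃ h, h = Nat.card H := ⟨_, rfl⟩
    obtain ⟨i, hi⟩ : ∃ i, i = H.index := ⟨_, rfl⟩
    have hhi : h * i = Nat.card (Matrix.ProjectiveSpecialLinearGroup (Fin 2) F) := by
      rw [hh, hi]; exact Subgroup.card_mul_index H
    have hhpos : 0 < h := by rw [hh]; exact Nat.card_pos
    have hi2 : ¬ 2 ∣ i := by rw [hi]; exact hH2 2 Nat.prime_two (by simp)
    have hi3 : ¬ 3 ∣ i := by rw [hi]; exact hH2 3 Nat.prime_three (by simp)
    have hprime : ∀ p' : ℕ, p'.Prime → p' ∣ h → p' = 2 ∨ p' = 3 := by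
      intro p' pp' hd
      rw [hh] at hd
      have := hH1 p' pp' hd
      simpa using this
    have key : 2 * (h * i) = q * ((q - 1) * (q + 1)) := by rw [hhi, hG, hfac]
    have hcase_plus : h ∣ q + 1 → (3 ∣ q + 1 ∧ q % 4 = 3) := by
      rintro ⟨c, hc⟩
      have e : 2 * i = q * (q - 1) * c := by
        have h1 : h * (2 * i) = h * (q * (q - 1) * c) := by
          rw [hc] at key
          linear_combination key
        exact Nat.eq_of_mul_eq_mul_left hhpos h1
      constructor
      · by_contra h3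
        have h3' : 3 ∣ q - 1 := by rcases hq3' with h | h <;> omega
        obtain ⟨u, hu⟩ := h3'
        apply hi3
        have h4 : 3 ∣ 2 * i := by rw [e, hu]; exact ⟨q * u * c, by ring⟩
        exact (Nat.Coprime.dvd_mul_left (by norm_num)).1 h4
      · by_contra h4
        have h4' : 4 ∣ q - 1 := by omega
        obtain ⟨u, hu⟩ := h4'
        apply hi2
        have h5 : 2 * i = 2 * (2 * (q * u * c)) := by rw [e, hu]; ring
        exact ⟨q * u * c, by omega⟩
    have hcase_minus : h ∣ q - 1 → (3 ∣ q - 1 ∧ q % 4 = 1) := by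
      rintro ⟨c, hc⟩
      have e : 2 * i = q * c * (q + 1) := by
        have h1 : h * (2 * i) = h * (q * c * (q + 1)) := by
          rw [hc] at key
          linear_combination key
        exact Nat.eq_of_mul_eq_mul_left hhpos h1
      constructor
      · by_contra h3
        have h3' : 3 ∣ q + 1 := by rcases hq3' with h | h <;> omega
        obtain ⟨u, hu⟩ := h3'
        apply hi3
        have h4 : 3 ∣ 2 * i := by rw [e, hu]; exact ⟨q * c * u, by ring⟩
        exact (Nat.Coprime.dvd_mul_left (by norm_num)).1 h4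
      · by_contra h4
        have h4' : 4 ∣ q + 1 := by omega
        obtain ⟨u, hu⟩ := h4'
        apply hi2
        have h5 : 2 * i = 2 * (2 * (q * c * u)) := by rw [e, hu]; ring
        exact ⟨q * c * u, by omega⟩
    rcases Cfsg.Agent.S0799.result hq p H with ⟨k, hk, hkH⟩ | ⟨P, K, hK, ⟨e⟩⟩ | ⟨⟨e⟩⟩ | ⟨⟨e⟩⟩ |
      ⟨⟨e⟩⟩ | ⟨K, iK, fK, m, hm, hiso⟩
    · have hgcd : Nat.gcd 2 (q - 1) = 2 := Nat.gcd_eq_left (by omega)
      rw [hgcd] at hk
      have h2k : (k ∣ (q + 1) / 2 → 2 * k ∣ q + 1) ∧ (k ∣ (q - 1) / 2 → 2 * k ∣ q - 1) := by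
        constructor
        · rintro ⟨c, hc⟩
          exact ⟨c, by rw [mul_assoc, ← hc]; omega⟩
        · rintro ⟨c, hc⟩
          exact ⟨c, by rw [mul_assoc, ← hc]; omega⟩
      have hdvd : h ∣ q + 1 ∨ h ∣ q - 1 := by
        rcases hkH with ⟨-, hcard⟩ | ⟨⟨e⟩⟩
        · have hk' : h = k := by rw [hh]; exact hcard
          rcases hk with hk | hk
          · left; rw [hk']; exact dvd_trans (Dvd.intro_left 2 rfl) (h2k.1 hk)
          · right; rw [hk']; exact dvd_trans (Dvd.intro_left 2 rfl) (h2k.2 hk)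
        · have hk' : h = 2 * k := by rw [hh, Nat.card_congr e.toEquiv, DihedralGroup.nat_card]
          rcases hk with hk | hk
          · left; rw [hk']; exact h2k.1 hk
          · right; rw [hk']; exact h2k.2 hk
      rcases hdvd with hd | hd
      · right; left; exact hcase_plus hd
      · left; exact hcase_minus hd
    · exfalso
      have h1 : h ∣ Nat.card (Subgroup.normalizer
          ((P : Subgroup (Matrix.ProjectiveSpecialLinearGroup (Fin 2) F)) :
            Set (Matrix.ProjectiveSpecialLinearGroup (Fin 2) F))) := by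
        rw [hh, Nat.card_congr e.toEquiv]; exact Subgroup.card_dvd_of_le hK
      have h2 := card_normalizer_sylow_dvd p P
      rw [center_card_two h2F, hq] at h2
      obtain ⟨c, hc⟩ := dvd_trans (Nat.mul_dvd_mul_left 2 h1) h2
      apply hi2
      have h3 : h * (2 * i) = h * (2 * (c * (q + 1))) := by
        have h4 : q * ((q - 1) * (q + 1)) = (q * (q - 1)) * (q + 1) := by ring
        rw [h4, hc] at key
        linear_combination key
      have e' : i = c * (q + 1) := by
        have := Nat.eq_of_mul_eq_mul_left hhpos h3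
        omega
      rw [e']
      exact Dvd.dvd.mul_left (by omega) c
    · have h12 : h = 12 := by rw [hh, Nat.card_congr e.toEquiv, dkm_card_a4]
      right; right; left
      have heq : 2 ^ 3 * 3 ^ 1 * i = q * (q ^ 2 - 1) := by rw [← hG, ← hhi, h12]; ring
      obtain ⟨ha, hb⟩ := dkh_fact _ 3 1 i q heq hQ0 hq2 hq3 hi2 hi3
      rw [ha, hb]; norm_num
    · have h24 : h = 24 := by rw [hh, Nat.card_congr e.toEquiv, dkm_card_s4]
      right; right; right
      have heq : 2 ^ 4 * 3 ^ 1 * i = q * (q ^ 2 - 1) := by rw [← hG, ← hhi, h24]; ring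
      obtain ⟨ha, hb⟩ := dkh_fact _ 4 1 i q heq hQ0 hq2 hq3 hi2 hi3
      rw [ha, hb]; norm_num
    · exfalso
      have h60 : h = 60 := by rw [hh, Nat.card_congr e.toEquiv, dkm_card_a5]
      have := hprime 5 Nat.prime_five (by rw [h60]; norm_num)
      omega
    · exfalso
      have hm0 : m ≠ 0 := by
        rintro rfl
        rw [pow_zero] at hm
        omega
      have hpK : p ∣ Fintype.card K := by
        have h1 : p ∣ Fintype.card K ^ m := by rw [hm]; exact hpq
        exact hpp.dvd_of_dvd_pow h1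
      have hph : p ∣ h := by
        rcases hiso with ⟨⟨e⟩⟩ | ⟨⟨e⟩⟩
        · have hc := card_P2 (F := K)
          have h1 : p ∣ Nat.gcd 2 (Fintype.card K - 1) * Nat.card (P2 K) := by
            rw [hc]; exact Dvd.dvd.mul_right hpK _
          rcases (Nat.Prime.dvd_mul hpp).1 h1 with h1 | h1
          · exfalso
            have h2 := Nat.le_of_dvd (Nat.gcd_pos_of_pos_left _ (by norm_num)) h1
            have h3 := Nat.gcd_le_left (Fintype.card K - 1) (by norm_num : 0 < 2)
            omega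
          · rw [hh, Nat.card_congr e.toEquiv]; exact h1
        · rw [hh, Nat.card_congr e.toEquiv, Cfsg.Agent.S0265.result (F := K) 2, card_S2]
          exact Dvd.dvd.mul_right hpK _
      have := hprime p hpp hph
      omega
  · rintro (⟨h3, h4⟩ | ⟨h3, h4⟩ | h24 | h48)
    · obtain ⟨t, ht⟩ := exists_order_sub_one (F := F)
      rw [hq] at ht
      obtain ⟨m, hm⟩ : ∃ m, q - 1 = 2 * m := ⟨(q - 1) / 2, by omega⟩
      have hmpos : 0 < m := by omega
      have hcop : Nat.Coprime (q - 1) p := by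
        apply Nat.Coprime.symm
        rw [hpp.coprime_iff_not_dvd]
        intro hd
        have h1 : p ∣ q - (q - 1) := Nat.dvd_sub hpq hd
        have h2 : q - (q - 1) = 1 := by omega
        rw [h2] at h1
        exact hpp.one_lt.ne' (Nat.dvd_one.1 h1)
      have htr : tr t ^ 2 ≠ 4 := tr_ne_of_order p t (q - 1) ht hcop (by omega)
      obtain ⟨d, e, hde, hpd, he2, he3⟩ := dkh_part23 m hmpos
      obtain ⟨H, ⟨iso⟩⟩ := dkh_exists_dih h2F t m d (by rw [ht, hm]) htr hmpos ⟨e, hde⟩
      refine ⟨H, dkh_hall_of_card H (2 * d) (q * e * (m + 1))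
        (by rw [Nat.card_congr iso.toEquiv, DihedralGroup.nat_card]) ?_ hpd ?_ ?_⟩
      · have h5 : q + 1 = 2 * (m + 1) := by omega
        have h6 : 2 * Nat.card (Matrix.ProjectiveSpecialLinearGroup (Fin 2) F)
            = 2 * (2 * d * (q * e * (m + 1))) := by
          rw [hG, hfac, hm, h5, hde]; ring
        exact Nat.eq_of_mul_eq_mul_left (by norm_num) h6
      · intro hd
        rcases (Nat.Prime.dvd_mul Nat.prime_two).1 hd with h | h
        · rcases (Nat.Prime.dvd_mul Nat.prime_two).1 h with h | h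
          · exact hq2 h
          · exact he2 h
        · omega
      · intro hd
        rcases (Nat.Prime.dvd_mul Nat.prime_three).1 hd with h | h
        · rcases (Nat.Prime.dvd_mul Nat.prime_three).1 h with h | h
          · exact hq3 h
          · exact he3 h
        · omega
    · obtain ⟨t, ht⟩ := exists_order_add_one (F := F) p
      rw [hq] at ht
      obtain ⟨m, hm⟩ : ∃ m, q + 1 = 2 * m := ⟨(q + 1) / 2, by omega⟩
      have hmpos : 0 < m := by omega
      have hcop : Nat.Coprime (q + 1) p := by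
        apply Nat.Coprime.symm
        rw [hpp.coprime_iff_not_dvd]
        intro hd
        have h1 : p ∣ (q + 1) - q := Nat.dvd_sub hd hpq
        have h2 : (q + 1) - q = 1 := by omega
        rw [h2] at h1
        exact hpp.one_lt.ne' (Nat.dvd_one.1 h1)
      have htr : tr t ^ 2 ≠ 4 := tr_ne_of_order p t (q + 1) ht hcop (by omega)
      obtain ⟨d, e, hde, hpd, he2, he3⟩ := dkh_part23 m hmpos
      obtain ⟨H, ⟨iso⟩⟩ := dkh_exists_dih h2F t m d (by rw [ht, hm]) htr hmpos ⟨e, hde⟩
      refine ⟨H, dkh_hall_of_card H (2 * d) (q * e * (m - 1))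
        (by rw [Nat.card_congr iso.toEquiv, DihedralGroup.nat_card]) ?_ hpd ?_ ?_⟩
      · have h5 : q - 1 = 2 * (m - 1) := by omega
        have h6 : 2 * Nat.card (Matrix.ProjectiveSpecialLinearGroup (Fin 2) F)
            = 2 * (2 * d * (q * e * (m - 1))) := by
          rw [hG, hfac, hm, h5, hde]; ring
        exact Nat.eq_of_mul_eq_mul_left (by norm_num) h6
      · intro hd
        rcases (Nat.Prime.dvd_mul Nat.prime_two).1 hd with h | h
        · rcases (Nat.Prime.dvd_mul Nat.prime_two).1 h with h | h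
          · exact hq2 h
          · exact he2 h
        · omega
      · intro hd
        rcases (Nat.Prime.dvd_mul Nat.prime_three).1 hd with h | h
        · rcases (Nat.Prime.dvd_mul Nat.prime_three).1 h with h | h
          · exact hq3 h
          · exact he3 h
        · omega
    · obtain ⟨a, ha⟩ : ∃ a, a = (q ^ 2 - 1).factorization 2 := ⟨_, rfl⟩
      obtain ⟨b, hb⟩ : ∃ b, b = (q ^ 2 - 1).factorization 3 := ⟨_, rfl⟩
      rw [← ha, ← hb] at h24
      have ha5 : a < 5 := by
        by_contra hcon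
        have h1 : 2 ^ 5 ≤ 2 ^ a := Nat.pow_le_pow_right (by norm_num) (by omega)
        have h2 : 1 ≤ 3 ^ b := Nat.one_le_pow _ _ (by norm_num)
        nlinarith
      have hb3 : b < 3 := by
        by_contra hcon
        have h1 : 3 ^ 3 ≤ 3 ^ b := Nat.pow_le_pow_right (by norm_num) (by omega)
        have h2 : 1 ≤ 2 ^ a := Nat.one_le_pow _ _ (by norm_num)
        nlinarith
      have hab : a = 3 ∧ b = 1 := by
        interval_cases a <;> interval_cases b <;> simp at h24 <;> simp
      obtain ⟨H, ⟨e⟩⟩ := (Cfsg.Agent.S0802.result p n (by rw [hq]; exact hn)).2 (by omega)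
      have hH12 : Nat.card H = 12 := by rw [Nat.card_congr e.toEquiv, dkm_card_a4]
      have hidx := Subgroup.card_mul_index H
      rw [hH12] at hidx
      refine ⟨H, dkh_hall_of_card H 12 H.index hH12 hidx.symm ?_ ?_ ?_⟩
      · intro p' pp' hd
        have h12 : (12 : ℕ) = 2 ^ 2 * 3 := by norm_num
        rw [h12] at hd
        rcases (Nat.Prime.dvd_mul pp').1 hd with h | h
        · left; exact (Nat.prime_dvd_prime_iff_eq pp' Nat.prime_two).1 (pp'.dvd_of_dvd_pow h)
        · right; exact (Nat.prime_dvd_prime_iff_eq pp' Nat.prime_three).1 h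
      · rintro ⟨u, hu⟩
        have h1 : q * (q ^ 2 - 1) = 2 ^ 4 * (3 * u) := by rw [← hG, ← hidx, hu]; ring
        have h2 : 2 ^ 4 ∣ q ^ 2 - 1 :=
          (Nat.Coprime.pow_left 4 ((Nat.Prime.coprime_iff_not_dvd Nat.prime_two).2 hq2)).dvd_of_dvd_mul_left
            (Dvd.intro _ h1.symm)
        have h3 := (Nat.Prime.pow_dvd_iff_le_factorization Nat.prime_two hQ0).1 h2
        omega
      · rintro ⟨u, hu⟩
        have h1 : q * (q ^ 2 - 1) = 3 ^ 2 * (8 * u) := by rw [← hG, ← hidx, hu]; ring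
        have h2 : 3 ^ 2 ∣ q ^ 2 - 1 :=
          (Nat.Coprime.pow_left 2 ((Nat.Prime.coprime_iff_not_dvd Nat.prime_three).2 hq3)).dvd_of_dvd_mul_left
            (Dvd.intro _ h1.symm)
        have h3 := (Nat.Prime.pow_dvd_iff_le_factorization Nat.prime_three hQ0).1 h2
        omega
    · obtain ⟨a, ha⟩ : ∃ a, a = (q ^ 2 - 1).factorization 2 := ⟨_, rfl⟩
      obtain ⟨b, hb⟩ : ∃ b, b = (q ^ 2 - 1).factorization 3 := ⟨_, rfl⟩
      rw [← ha, ← hb] at h48
      have ha6 : a < 6 := by
        by_contra hcon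
        have h1 : 2 ^ 6 ≤ 2 ^ a := Nat.pow_le_pow_right (by norm_num) (by omega)
        have h2 : 1 ≤ 3 ^ b := Nat.one_le_pow _ _ (by norm_num)
        nlinarith
      have hb4 : b < 4 := by
        by_contra hcon
        have h1 : 3 ^ 4 ≤ 3 ^ b := Nat.pow_le_pow_right (by norm_num) (by omega)
        have h2 : 1 ≤ 2 ^ a := Nat.one_le_pow _ _ (by norm_num)
        nlinarith
      have hab : a = 4 ∧ b = 1 := by
        interval_cases a <;> interval_cases b <;> simp at h48 <;> simp
      have h16 : 2 ^ 4 ∣ q ^ 2 - 1 :=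
        (Nat.Prime.pow_dvd_iff_le_factorization Nat.prime_two hQ0).2 (by omega)
      have hq1 : 1 ≤ q ^ 2 := Nat.one_le_pow _ _ (by omega)
      obtain ⟨H, ⟨e⟩⟩ := (Cfsg.Agent.S0803.result (F := F) hq).2 (by omega)
      have hH24 : Nat.card H = 24 := by rw [Nat.card_congr e.toEquiv, dkm_card_s4]
      have hidx := Subgroup.card_mul_index H
      rw [hH24] at hidx
      refine ⟨H, dkh_hall_of_card H 24 H.index hH24 hidx.symm ?_ ?_ ?_⟩
      · intro p' pp' hd
        have h24' : (24 : ℕ) = 2 ^ 3 * 3 := by norm_num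
        rw [h24'] at hd
        rcases (Nat.Prime.dvd_mul pp').1 hd with h | h
        · left; exact (Nat.prime_dvd_prime_iff_eq pp' Nat.prime_two).1 (pp'.dvd_of_dvd_pow h)
        · right; exact (Nat.prime_dvd_prime_iff_eq pp' Nat.prime_three).1 h
      · rintro ⟨u, hu⟩
        have h1 : q * (q ^ 2 - 1) = 2 ^ 5 * (3 * u) := by rw [← hG, ← hidx, hu]; ring
        have h2 : 2 ^ 5 ∣ q ^ 2 - 1 :=
          (Nat.Coprime.pow_left 5 ((Nat.Prime.coprime_iff_not_dvd Nat.prime_two).2 hq2)).dvd_of_dvd_mul_left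
            (Dvd.intro _ h1.symm)
        have h3 := (Nat.Prime.pow_dvd_iff_le_factorization Nat.prime_two hQ0).1 h2
        omega
      · rintro ⟨u, hu⟩
        have h1 : q * (q ^ 2 - 1) = 3 ^ 2 * (16 * u) := by rw [← hG, ← hidx, hu]; ring
        have h2 : 3 ^ 2 ∣ q ^ 2 - 1 :=
          (Nat.Coprime.pow_left 2 ((Nat.Prime.coprime_iff_not_dvd Nat.prime_three).2 hq3)).dvd_of_dvd_mul_left
            (Dvd.intro _ h1.symm)
        have h3 := (Nat.Prime.pow_dvd_iff_le_factorization Nat.prime_three hQ0).1 h2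
        omega

end Cfsg.Agent.S2537
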