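import Cfsg.Statements.S2538
import Cfsg.Agent.Lib.Helper13.HABridge
import Cfsg.Agent.Lib.Helper13.HAExt
import Cfsg.Agent.Lib.Helper13.HAGNormal

set_option autoImplicit false
open Cfsg

namespace Cfsg.Agent.S2538

/-- For every `n` and every set of primes `π`, a subgroup of the alternating group of degree `n` is a Hall `π`-subgroup of it if and only if it is the intersection with the alternating group of some Hall `π`-subgroup of the symmetric group of degree `n`. -/
theorem result (n : ℕ) (π : Set ℕ)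
    (M : Subgroup ↥(alternatingGroup (Fin n))) :
    Cfsg.IsPiHall π M ↔ ∃ M₀ : Subgroup (Equiv.Perm (Fin n)), Cfsg.IsPiHall π M₀ ∧ M = M₀.subgroupOf (alternatingGroup (Fin n)) := by
  constructor
  · intro hM
    have h1 := (Cfsg.Agent.Lib.Helper13.HA.hallAlt_map π M).mp hM
    obtain ⟨M₀, hM₀, hinf⟩ := Cfsg.Agent.Lib.Helper13.HA.hallAlt_extend π _ h1
    refine ⟨M₀, hM₀, ?_⟩
    rw [Cfsg.Agent.Lib.Helper13.HA.altOf_eq] at hinf
    ext x
    rw [Subgroup.mem_subgroupOf]
    constructor
    · intro hx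
      have h2 : (x : Equiv.Perm (Fin n)) ∈ M.map (alternatingGroup (Fin n)).subtype :=
        ⟨x, hx, rfl⟩
      rw [← hinf] at h2
      exact h2.1
    · intro hx
      have h2 : (x : Equiv.Perm (Fin n)) ∈ M₀ ⊓ alternatingGroup (Fin n) := ⟨hx, x.2⟩
      rw [hinf] at h2
      obtain ⟨y, hy, hyx⟩ := h2
      have h3 : y = x := Subtype.ext hyx
      rw [← h3]
      exact hy
  · rintro ⟨M₀, hM₀, rfl⟩
    exact Cfsg.Agent.Lib.Helper13.HA.hall_subgroupOf_normal π M₀ (alternatingGroup (Fin n)) hM₀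

end Cfsg.Agent.S2538
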