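import Mathlib
import Cfsg.Statements.S2540
import Cfsg.Agent.S0248
import Cfsg.Agent.S0249

set_option autoImplicit false
open Cfsg

namespace Cfsg.Agent.S2540

open Matrix
open scoped commutatorElement

theorem comm_central_left {S : Type*} [Group S] (m z y : S) (hz : ∀ w : S, w * z = z * w) :
    ⁅m * z, y⁆ = ⁅m, y⁆ := by
  rw [commutatorElement_def, commutatorElement_def]
  congr 1
  rw [mul_inv_eq_iff_eq_mul]
  have : m * y * m⁻¹ * (m * z) = m * (y * z) := by group
  rw [this, mul_assoc, ← hz y]

theorem comm_central {S : Type*} [Group S] (m m' z z' : S) (hz : ∀ w : S, w * z = z * w)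
    (hz' : ∀ w : S, w * z' = z' * w) : ⁅m * z, m' * z'⁆ = ⁅m, m'⁆ := by
  rw [comm_central_left m z _ hz, ← commutatorElement_inv, comm_central_left m' z' _ hz',
    commutatorElement_inv]

theorem abstract_core {S P : Type*} [Group S] [Group P] (ι : S →* P) (hι : Function.Injective ι)
    (hperf : commutator S = ⊤) (hsimp : IsSimpleGroup (S ⧸ Subgroup.center S))
    (G : Subgroup P) (hG : ∀ s : S, ∀ x ∈ G, ι s * x * (ι s)⁻¹ ∈ G)
    (g : P) (hg : g ∈ G) (hrange : ∀ s : S, ι s * g * (ι s)⁻¹ * g⁻¹ ∈ ι.range)
    (hnc : ¬ ∀ s : S, ι s * g = g * ι s) : ι.range ≤ G := by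
  classical
  have hNn : (G.comap ι).Normal := ⟨fun x hx s => by
    show ι (s * x * s⁻¹) ∈ G
    rw [map_mul, map_mul, map_inv]
    exact hG s _ hx⟩
  choose k hk using hrange
  have hkN : ∀ s, k s ∈ G.comap ι := fun s => by
    show ι (k s) ∈ G
    rw [hk]
    exact G.mul_mem (hG s g hg) (G.inv_mem hg)
  by_cases hNZ : G.comap ι ≤ Subgroup.center S
  · exfalso
    apply hnc
    let κ : S →* S :=
      { toFun := k
        map_one' := by
          apply hι
          rw [hk]
          simp
        map_mul' := fun s s' => by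
          apply hι
          have hc := Subgroup.mem_center_iff.1 (hNZ (hkN s'))
          have e1 : k s * k s' = s * k s' * s⁻¹ * k s := by
            rw [hc s, mul_inv_cancel_right, ← hc (k s)]
          rw [e1, map_mul, map_mul, map_mul, map_inv, hk, hk, hk, map_mul]
          group }
    have hle : commutator S ≤ κ.ker := by
      rw [commutator_def, Subgroup.commutator_le]
      intro a _ b _
      rw [MonoidHom.mem_ker, map_commutatorElement, commutatorElement_eq_one_iff_commute]
      exact Subgroup.mem_center_iff.1 (hNZ (hkN b)) (κ a)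
    intro s
    have h0 : s ∈ commutator S := by rw [hperf]; trivial
    have h2 : k s = 1 := hle h0
    have h3 := hk s
    rw [h2, map_one] at h3
    have h4 : ι s * g * (ι s)⁻¹ * g⁻¹ = 1 := h3.symm
    rw [mul_inv_eq_one, mul_inv_eq_iff_eq_mul] at h4
    exact h4
  · have hmap : ((G.comap ι).map (QuotientGroup.mk' (Subgroup.center S))).Normal :=
      Subgroup.Normal.map hNn _ (QuotientGroup.mk'_surjective _)
    rcases hmap.eq_bot_or_eq_top with h | h
    · exfalso
      apply hNZ
      intro x hx
      have h1 : (QuotientGroup.mk' (Subgroup.center S)) x ∈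
          (G.comap ι).map (QuotientGroup.mk' (Subgroup.center S)) :=
        Subgroup.mem_map_of_mem _ hx
      rw [h, Subgroup.mem_bot] at h1
      exact (QuotientGroup.eq_one_iff x).1 h1
    · have hdec : ∀ x : S, ∃ m ∈ G.comap ι, ∃ z ∈ Subgroup.center S, x = m * z := by
        intro x
        have h1 : (QuotientGroup.mk' (Subgroup.center S)) x ∈
            (G.comap ι).map (QuotientGroup.mk' (Subgroup.center S)) := by
          rw [h]; trivial
        obtain ⟨m, hm, hmx⟩ := Subgroup.mem_map.1 h1
        exact ⟨m, hm, m⁻¹ * x, QuotientGroup.eq.1 hmx, by group⟩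
      have hNtop : G.comap ι = ⊤ := by
        rw [eq_top_iff, ← hperf, commutator_def, Subgroup.commutator_le]
        intro x _ y _
        obtain ⟨m, hm, z, hz, rfl⟩ := hdec x
        obtain ⟨m', hm', z', hz', rfl⟩ := hdec y
        rw [comm_central m m' z z' (Subgroup.mem_center_iff.1 hz) (Subgroup.mem_center_iff.1 hz'),
          commutatorElement_def]
        exact Subgroup.mul_mem _ (Subgroup.mul_mem _ (Subgroup.mul_mem _ hm hm')
          (Subgroup.inv_mem _ hm)) (Subgroup.inv_mem _ hm')
      rintro _ ⟨s, rfl⟩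
      have hs : s ∈ G.comap ι := by rw [hNtop]; trivial
      exact hs

theorem field_cond {F : Type*} [Field F] [Fintype F] (hF : 4 ≤ Fintype.card F) :
    ∃ a : F, a ≠ 0 ∧ a ^ 2 ≠ 1 := by
  classical
  by_contra hcon
  simp only [not_exists, not_and, not_not] at hcon
  have hsub : (Finset.univ : Finset F) ⊆ {0, 1, -1} := by
    intro a _
    by_cases ha : a = 0
    · simp [ha]
    · have h1 := hcon a ha
      have h2 : (a - 1) * (a + 1) = 0 := by linear_combination h1
      rcases mul_eq_zero.1 h2 with h3 | h3
      · have : a = 1 := by linear_combination h3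
        simp [this]
      · have : a = -1 := by linear_combination h3
        simp [this]
  have hcard := Finset.card_le_card hsub
  have h3 : ({0, 1, -1} : Finset F).card ≤ 3 := Finset.card_le_three
  rw [Finset.card_univ] at hcard
  omega

/-- Let F be a finite field and n ≥ 1, excluding the case n = 2 with #F ≤ 3. A subgroup of GL_n(F) that is normalized by every element of SL_n(F) either consists of scalar matrices or contains SL_n(F). -/
theorem result {F : Type*} [Field F] [Fintype F] (n : ℕ) (hn : 1 ≤ n) (hex : ¬ (n = 2 ∧ Fintype.card F ≤ 3)) (G : Subgroup (Matrix.GeneralLinearGroup (Fin n) F)) (hG : ∀ s : Matrix.SpecialLinearGroup (Fin n) F, ∀ g ∈ G, (Matrix.SpecialLinearGroup.toGL s) * g * (Matrix.SpecialLinearGroup.toGL s)⁻¹ ∈ G) : (∀ g ∈ G, ∃ c : F, (g : Matrix (Fin n) (Fin n) F) = c • (1 : Matrix (Fin n) (Fin n) F)) ∨ (Matrix.SpecialLinearGroup.toGL : Matrix.SpecialLinearGroup (Fin n) F →* _).range ≤ G := by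
  by_cases hsc : ∀ g ∈ G, ∃ c : F, (g : Matrix (Fin n) (Fin n) F) = c • (1 : Matrix (Fin n) (Fin n) F)
  · exact Or.inl hsc
  right
  simp only [not_forall] at hsc
  obtain ⟨g, hg, hgs⟩ := hsc
  have hn2 : 2 ≤ n := by
    by_contra h
    have h1 : n = 1 := by omega
    subst h1
    apply hgs
    refine ⟨(g : Matrix (Fin 1) (Fin 1) F) 0 0, ?_⟩
    ext i j
    rw [Subsingleton.elim i 0, Subsingleton.elim j 0]
    simp
  have hperf : commutator (Matrix.SpecialLinearGroup (Fin n) F) = ⊤ := by
    by_cases h3 : 3 ≤ n
    · exact Cfsg.Agent.S0248.result n h3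
    · have h2 : n = 2 := by omega
      subst h2
      have hF : 4 ≤ Fintype.card F := by
        by_contra h
        exact hex ⟨rfl, by omega⟩
      obtain ⟨a, ha, hasq⟩ := field_cond hF
      exact Matrix.SL2.commutator_eq_top ha hasq
  have hsimp : IsSimpleGroup (Matrix.SpecialLinearGroup (Fin n) F ⧸
      Subgroup.center (Matrix.SpecialLinearGroup (Fin n) F)) := by
    by_cases h3 : 3 ≤ n
    · exact Cfsg.Agent.S0249.result n h3
    · have h2 : n = 2 := by omega
      subst h2
      have hF : 4 ≤ Nat.card F := by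
        rw [Nat.card_eq_fintype_card]
        by_contra h
        exact hex ⟨rfl, by omega⟩
      exact Matrix.ProjectiveSpecialLinearGroup.rank_two_simple hF
  apply abstract_core Matrix.SpecialLinearGroup.toGL Matrix.SpecialLinearGroup.toGL_injective
    hperf hsimp G hG g hg
  · intro s
    have hdet : Matrix.GeneralLinearGroup.det (Matrix.SpecialLinearGroup.toGL s * g *
        (Matrix.SpecialLinearGroup.toGL s)⁻¹ * g⁻¹) = 1 := by
      rw [map_mul, map_mul, map_mul, map_inv, map_inv, mul_inv_cancel_comm, mul_inv_cancel]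
    have hdet' : ((Matrix.SpecialLinearGroup.toGL s * g *
        (Matrix.SpecialLinearGroup.toGL s)⁻¹ * g⁻¹ : Matrix.GeneralLinearGroup (Fin n) F) :
        Matrix (Fin n) (Fin n) F).det = 1 := by
      have := congrArg Units.val hdet
      rw [Matrix.GeneralLinearGroup.val_det_apply] at this
      exact this
    exact ⟨⟨_, hdet'⟩, Units.ext rfl⟩
  · intro hall
    apply hgs
    have hM : ∀ t : Matrix.TransvectionStruct (Fin n) F,
        Commute t.toMatrix (g : Matrix (Fin n) (Fin n) F) := by
      intro t
      have := congrArg Units.val (hall ⟨t.toMatrix, t.det⟩)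
      exact this
    obtain ⟨c, hc⟩ := Matrix.mem_range_scalar_of_commute_transvectionStruct hM
    refine ⟨c, ?_⟩
    rw [← hc, Matrix.smul_one_eq_diagonal]
    rfl

end Cfsg.Agent.S2540
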