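import Cfsg.Statements.S2541
import Mathlib

set_option autoImplicit false
open Cfsg

namespace Cfsg.Agent.S2541

lemma perm_pow_four (σ : Equiv.Perm (Fin 6)) (h : σ ^ 8 = 1) : σ ^ 4 = 1 := by
  have h8 : orderOf σ ∣ 8 := orderOf_dvd_of_pow_eq_one h
  have h4 : orderOf σ ∣ 4 := by
    rw [← Equiv.Perm.lcm_cycleType]
    apply Multiset.lcm_dvd.mpr
    intro c hc
    have hc8 : c ∣ 8 := (Equiv.Perm.dvd_of_mem_cycleType hc).trans h8
    have hc6 : c ≤ 6 := by
      have h1 := Multiset.le_sum_of_mem hc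
      have h2 := Equiv.Perm.sum_cycleType_le σ
      simp at h2
      omega
    have hc9 : c ≤ 8 := by omega
    interval_cases c <;> omega
  exact orderOf_dvd_iff_pow_eq_one.mp h4

/-- Let F be a field with 9 elements. The symmetric group S_6 is not isomorphic to PGL_2(F) (although both have index-2 subgroups isomorphic to A_6). -/
theorem result {F : Type*} [Field F] [Fintype F] (hF : Fintype.card F = 9) : ¬ Nonempty (Equiv.Perm (Fin 6) ≃* Matrix.ProjGenLinGroup (Fin 2) F) := by
  rintro ⟨e⟩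
  classical
  obtain ⟨u, hu⟩ : IsCyclic Fˣ := inferInstance
  have hcard : Fintype.card Fˣ = 8 := by
    rw [Fintype.card_units, hF]
  have hord : orderOf u = 8 := by
    rw [orderOf_eq_card_of_forall_mem_zpowers hu, Nat.card_eq_fintype_card, hcard]
  -- the diagonal matrix diag(u, 1)
  let D : (Fin 2 → Fˣ) → GL (Fin 2) F := fun d =>
    ⟨Matrix.diagonal (fun i => (d i : F)), Matrix.diagonal (fun i => ((d i)⁻¹ : Fˣ)),
      by simp [Matrix.diagonal_mul_diagonal], by simp [Matrix.diagonal_mul_diagonal]⟩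
  have hDpow : ∀ (d : Fin 2 → Fˣ) (k : ℕ), (D d) ^ k = D (d ^ k) := by
    intro d k
    apply Units.ext
    simp [D, Matrix.diagonal_pow]
  let g : GL (Fin 2) F := D ![u, 1]
  let x : Matrix.ProjGenLinGroup (Fin 2) F := Matrix.ProjGenLinGroup.mk g
  have hscal : ∀ k : ℕ, x ^ k = 1 → u ^ k = 1 := by
    intro k hk
    have : Matrix.ProjGenLinGroup.mk (g ^ k) = 1 := by
      rw [map_pow]; exact hk
    rw [Matrix.ProjGenLinGroup.mk_eq_one, Matrix.GeneralLinearGroup.center_eq_range_scalar] at this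
    obtain ⟨c, hc⟩ := this
    have h1 := congrArg (fun M : GL (Fin 2) F => (M : Matrix (Fin 2) (Fin 2) F) 0 0) hc
    have h2 := congrArg (fun M : GL (Fin 2) F => (M : Matrix (Fin 2) (Fin 2) F) 1 1) hc
    simp only [g, hDpow] at h1 h2
    simp [D] at h1 h2
    apply Units.ext
    rw [Units.val_pow_eq_pow_val, ← h1, h2]
  have hx8 : x ^ 8 = 1 := by
    have : g ^ 8 = 1 := by
      simp only [g, hDpow]
      apply Units.ext
      have hu8 : u ^ 8 = 1 := by rw [← hord]; exact pow_orderOf_eq_one u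
      have hu8' : (u : F) ^ 8 = 1 := by
        rw [← Units.val_pow_eq_pow_val, hu8]; rfl
      ext i j
      fin_cases i <;> fin_cases j <;> simp [D, hu8']
    show (Matrix.ProjGenLinGroup.mk g) ^ 8 = 1
    rw [← map_pow, this, map_one]
  have hx4 : x ^ 4 ≠ 1 := by
    intro h
    have := hscal 4 h
    have := orderOf_dvd_of_pow_eq_one this
    rw [hord] at this
    omega
  apply hx4
  have h1 : (e.symm x) ^ 8 = 1 := by rw [← map_pow, hx8, map_one]
  have h2 := perm_pow_four _ h1
  have h3 := congrArg e h2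
  simpa using h3

end Cfsg.Agent.S2541
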