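import Cfsg.Statements.S2542
import Cfsg.Agent.Lib.Helper93.M11L

set_option autoImplicit false
open Cfsg

namespace Cfsg.Agent.S2542

open Cfsg.Agent.Lib.Helper93.M11L

/-- Double coset criterion: if `H` has exactly two double cosets, the action on `G ⧸ H` is
2-transitive. -/
theorem two_trans_quot {G : Type*} [Group G] (H : Subgroup G)
    (hH : ∀ g : G, g ∉ H → ∀ g' : G, g' ∉ H → ∃ h ∈ H, ∃ h' ∈ H, g' = h * g * h') :
    MulAction.IsMultiplyPretransitive G (G ⧸ H) 2 := by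
  rw [MulAction.is_two_pretransitive_iff]
  intro a b c d hab hcd
  obtain ⟨a₀, rfl⟩ := QuotientGroup.mk_surjective a
  obtain ⟨b₀, rfl⟩ := QuotientGroup.mk_surjective b
  obtain ⟨c₀, rfl⟩ := QuotientGroup.mk_surjective c
  obtain ⟨d₀, rfl⟩ := QuotientGroup.mk_surjective d
  have h1 : a₀⁻¹ * b₀ ∉ H := fun h => hab (QuotientGroup.eq.mpr h)
  have h2 : c₀⁻¹ * d₀ ∉ H := fun h => hcd (QuotientGroup.eq.mpr h)
  obtain ⟨h, hh, h', hh', e⟩ := hH _ h1 _ h2
  refine ⟨c₀ * h * a₀⁻¹, ?_, ?_⟩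
  · show ((c₀ * h * a₀⁻¹ * a₀ : G) : G ⧸ H) = (c₀ : G ⧸ H)
    rw [QuotientGroup.eq]
    have e1 : (c₀ * h * a₀⁻¹ * a₀)⁻¹ * c₀ = h⁻¹ := by group
    rw [e1]
    exact H.inv_mem hh
  · show ((c₀ * h * a₀⁻¹ * b₀ : G) : G ⧸ H) = (d₀ : G ⧸ H)
    rw [QuotientGroup.eq]
    have e1 : (c₀ * h * a₀⁻¹ * b₀)⁻¹ * d₀ = (a₀⁻¹ * b₀)⁻¹ * h⁻¹ * (c₀⁻¹ * d₀) := by group
    rw [e1, e]
    have e2 : (a₀⁻¹ * b₀)⁻¹ * h⁻¹ * (h * (a₀⁻¹ * b₀) * h') = h' := by group
    rw [e2]
    exact hh'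

/-- Let F be a field with 11 elements. PSL_2(F) has a subgroup H of index 11 isomorphic to the alternating group A_5, and the action of PSL_2(F) on the cosets of H is 2-transitive (of degree 11). -/
theorem result {F : Type*} [Field F] [Fintype F] (hF : Fintype.card F = 11) : ∃ H : Subgroup (Matrix.ProjectiveSpecialLinearGroup (Fin 2) F), H.index = 11 ∧ Nonempty (H ≃* alternatingGroup (Fin 5)) ∧ MulAction.IsMultiplyPretransitive (Matrix.ProjectiveSpecialLinearGroup (Fin 2) F) ((Matrix.ProjectiveSpecialLinearGroup (Fin 2) F) ⧸ H) 2 := by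
  classical
  -- a dodecad with two of its points and a point outside
  obtain ⟨d, hd⟩ : ∃ d : Finset GolayPt, d ∈ dodecads := ⟨_, Cfsg.Agent.S1600.D0_mem⟩
  have hdc : d.card = 12 := hd.2
  obtain ⟨p, hp⟩ : d.Nonempty := Finset.card_pos.mp (by rw [hdc]; norm_num)
  obtain ⟨x, hxd, hxp, -⟩ := third hd p p
  obtain ⟨q, hq'⟩ : (dᶜ).Nonempty :=
    Finset.card_pos.mp (by rw [(Cfsg.Agent.Lib.Helper10.compl_mem_dodecads hd).2]; norm_num)
  have hq : q ∉ d := Finset.mem_compl.mp hq'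
  have hsimple : IsSimpleGroup ↥(LL d p q) := simple_LL hd hp hq
  have hcard := card_LL hd hp hq
  obtain ⟨e⟩ := Cfsg.Agent.S0498.result (G := ↥(LL d p q)) 11 (Or.inl rfl)
    (by rw [hcard]; norm_num) (F := F) hF
  set K : Subgroup ↥(LL d p q) :=
    (LL d p q ⊓ MulAction.stabilizer M24 x).subgroupOf (LL d p q) with hK
  have key : ∀ l : ↥(LL d p q), l ∈ K ↔ ((l : ↥M24) : Equiv.Perm GolayPt) x = x := by
    intro l
    rw [hK, Subgroup.mem_subgroupOf, Subgroup.mem_inf]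
    constructor
    · exact fun h => h.2
    · exact fun h => ⟨l.2, h⟩
  have hKc : Nat.card ↥K = 60 := by
    rw [hK, Nat.card_congr (Subgroup.subgroupOfEquivOfLe inf_le_left).toEquiv]
    exact card_LLx hd hp hq hxd hxp
  refine ⟨K.map (e : ↥(LL d p q) →* Matrix.ProjectiveSpecialLinearGroup (Fin 2) F), ?_, ?_, ?_⟩
  · rw [Subgroup.index_map_equiv]
    have := K.card_mul_index
    rw [hKc, hcard] at this
    omega
  · obtain ⟨f⟩ := iso_A5 hd hp hq hxd hxp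
    exact ⟨((e.subgroupMap K).symm.trans (Subgroup.subgroupOfEquivOfLe inf_le_left)).trans f⟩
  · apply two_trans_quot
    intro g hg g' hg'
    obtain ⟨l, rfl⟩ := e.surjective g
    obtain ⟨l', rfl⟩ := e.surjective g'
    have hl : l ∉ K := fun h => hg (Subgroup.mem_map_of_mem _ h)
    have hl' : l' ∉ K := fun h => hg' (Subgroup.mem_map_of_mem _ h)
    rw [key] at hl hl'
    obtain ⟨hld, hlp, hlq⟩ := (mem_LL l.1).mp l.2
    obtain ⟨hld', hlp', hlq'⟩ := (mem_LL l'.1).mp l'.2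
    have hyp : ((l : ↥M24) : Equiv.Perm GolayPt) x ≠ p := by
      intro h
      apply hxp
      apply ((l : ↥M24) : Equiv.Perm GolayPt).injective
      rw [h, hlp]
    have hyp' : ((l' : ↥M24) : Equiv.Perm GolayPt) x ≠ p := by
      intro h
      apply hxp
      apply ((l' : ↥M24) : Equiv.Perm GolayPt).injective
      rw [h, hlp']
    obtain ⟨h, hh, hhx, hhy⟩ := exists_move2 hd hp hq hxd hxp (mem' _ hld x hxd) hyp hl
      (mem' _ hld' x hxd) hyp' hl'
    have hk : (⟨h, hh⟩ * l)⁻¹ * l' ∈ K := by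
      rw [key]
      show ((((h : Equiv.Perm GolayPt) * ((l : ↥M24) : Equiv.Perm GolayPt))⁻¹ *
        ((l' : ↥M24) : Equiv.Perm GolayPt))) x = x
      rw [Equiv.Perm.mul_apply, Equiv.Perm.inv_eq_iff_eq, Equiv.Perm.mul_apply, hhy]
    refine ⟨e ⟨h, hh⟩, Subgroup.mem_map_of_mem _ ((key _).mpr hhx), e ((⟨h, hh⟩ * l)⁻¹ * l'),
      Subgroup.mem_map_of_mem _ hk, ?_⟩
    rw [← map_mul, ← map_mul]
    congr 1
    group

end Cfsg.Agent.S2542
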