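import Cfsg.Statements.S2543
import Cfsg.Agent.Lib.Helper36.A5L11

set_option autoImplicit false
open scoped Pointwise
open Cfsg

namespace Cfsg.Agent.S2543

open Cfsg.Agent.Lib.Helper36.A5L11 Matrix

/-- The quotient map onto `PSL(2, F)` for a field `F` isomorphic to `ZMod 11` satisfies the
hypotheses of the enumeration. -/
theorem hyp_of_equiv {F : Type*} [Field F] (e : ZMod 11 ≃+* F) :
    Hyp ((QuotientGroup.mk' (Subgroup.center (Matrix.SpecialLinearGroup (Fin 2) F))).comp
      (Matrix.SpecialLinearGroup.map e.toRingHom)) := by
  constructor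
  · intro g
    obtain ⟨B, rfl⟩ := QuotientGroup.mk'_surjective _ g
    refine ⟨Matrix.SpecialLinearGroup.map e.symm.toRingHom B, ?_⟩
    rw [MonoidHom.comp_apply]
    congr 1
    ext i j
    simp [Matrix.SpecialLinearGroup.map_apply_coe]
  · intro A
    rw [MonoidHom.comp_apply, QuotientGroup.mk'_apply, QuotientGroup.eq_one_iff,
      Matrix.SpecialLinearGroup.mem_center_iff]
    constructor
    · rintro ⟨r, hr, hA⟩
      have hr2 : r = 1 ∨ r = -1 := by
        have : r ^ 2 = 1 := by simpa using hr
        exact sq_eq_one_iff.1 this
      have hval : (A : Matrix (Fin 2) (Fin 2) (ZMod 11)) = Matrix.scalar (Fin 2) (e.symm r) := by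
        ext i j
        have h1 := congrFun (congrFun hA i) j
        simp only [Matrix.SpecialLinearGroup.map_apply_coe, RingHom.mapMatrix_apply,
          Matrix.map_apply, RingEquiv.toRingHom_eq_coe, RingHom.coe_coe] at h1
        apply e.injective
        rw [← h1]
        simp only [Matrix.scalar_apply, Matrix.diagonal_apply]
        split_ifs <;> simp
      rcases hr2 with rfl | rfl
      · left
        rw [hval]
        simp
      · right
        rw [hval, map_neg, map_one]
        ext i j
        simp only [Matrix.scalar_apply, Matrix.diagonal_apply, Matrix.neg_apply, Matrix.one_apply]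
        split_ifs <;> simp
    · rintro (hA | hA)
      · refine ⟨1, by simp, ?_⟩
        ext i j
        simp only [Matrix.SpecialLinearGroup.map_apply_coe, RingHom.mapMatrix_apply,
          Matrix.map_apply, hA, Matrix.one_apply, Matrix.scalar_apply, Matrix.diagonal_apply]
        split_ifs <;> simp
      · refine ⟨-1, by simp, ?_⟩
        ext i j
        simp only [Matrix.SpecialLinearGroup.map_apply_coe, RingHom.mapMatrix_apply,
          Matrix.map_apply, hA, Matrix.one_apply, Matrix.scalar_apply, Matrix.diagonal_apply,
          Matrix.neg_apply]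
        split_ifs <;> simp

/-- Let F be a field with 11 elements. PSL_2(F) has exactly 22 subgroups isomorphic to the alternating group A_5, and they form two conjugacy classes: there are two such subgroups that are not conjugate, and every such subgroup is conjugate to one of these two. -/
theorem result {F : Type*} [Field F] [Fintype F] (hF : Fintype.card F = 11) : Nat.card {H : Subgroup (Matrix.ProjectiveSpecialLinearGroup (Fin 2) F) // Nonempty (H ≃* alternatingGroup (Fin 5))} = 22 ∧ ∃ H K : Subgroup (Matrix.ProjectiveSpecialLinearGroup (Fin 2) F), Nonempty (H ≃* alternatingGroup (Fin 5)) ∧ Nonempty (K ≃* alternatingGroup (Fin 5)) ∧ (∀ g : Matrix.ProjectiveSpecialLinearGroup (Fin 2) F, MulAut.conj g • H ≠ K) ∧ ∀ L : Subgroup (Matrix.ProjectiveSpecialLinearGroup (Fin 2) F), Nonempty (L ≃* alternatingGroup (Fin 5)) → ∃ g : Matrix.ProjectiveSpecialLinearGroup (Fin 2) F, MulAut.conj g • L = H ∨ MulAut.conj g • L = K := by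
  have hp : Nat.Prime 11 := by norm_num
  exact main (hyp_of_equiv (ZMod.ringEquivOfPrime F hp hF))

end Cfsg.Agent.S2543
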