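import Cfsg.Statements.S2544
import Cfsg.Agent.Lib.Helper48.GLnJ
import Cfsg.Agent.Lib.Helper83.Quot
import Cfsg.Agent.S0165

set_option autoImplicit false
open Cfsg

namespace Cfsg.Agent.S2544

/-- Let F be a finite field of characteristic p and consider the projective special linear group PSL_n(F) with n ≥ 2. This group has an irreducible complex character χ whose degree equals the order of a Sylow p-subgroup (namely q^(n(n−1)/2) when #F = q) and whose restriction to any Sylow p-subgroup P is the regular character of P: χ vanishes on the non-identity elements of P. (This is the Steinberg character.) -/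
theorem result {F : Type*} [Field F] [Fintype F] (p : ℕ) [Fact p.Prime] [CharP F p] (n : ℕ) (hn : 2 ≤ n) : ∃ χ : Matrix.ProjectiveSpecialLinearGroup (Fin n) F → ℂ, Cfsg.IsIrrCharacter (Matrix.ProjectiveSpecialLinearGroup (Fin n) F) χ ∧ ∀ P : Sylow p (Matrix.ProjectiveSpecialLinearGroup (Fin n) F), χ 1 = Nat.card P ∧ ∀ x : Matrix.ProjectiveSpecialLinearGroup (Fin n) F, x ∈ P → x ≠ 1 → χ x = 0 := by
  classical
  have hn0 : 0 < n := by omega
  have hp : p.Prime := Fact.out
  have hirr := Lib.Helper48.unipotent_restrict_irr (F := F) hn0 (fun _ : Fin n => 1) monotone_const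
    (by simp)
  obtain ⟨ψ, hψ, hψv⟩ := Lib.Helper83.irr_deflate
    (Subgroup.center (Matrix.SpecialLinearGroup (Fin n) F)) hirr (fun x hx => by
      show unipotentCharacterGL n F (fun _ => 1) (Matrix.SpecialLinearGroup.toGL x) =
        unipotentCharacterGL n F (fun _ => 1) (Matrix.SpecialLinearGroup.toGL 1)
      rw [map_one]
      exact Lib.Helper48.unipotent_central _ x hx)
  refine ⟨ψ, hψ, fun P => ?_⟩
  have h1 : ψ 1 = ((Fintype.card F ^ (∑ j ∈ Finset.range n, j) : ℕ) : ℂ) := by
    have := hψv 1
    rw [QuotientGroup.mk_one] at this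
    rw [this, map_one]
    exact Lib.Helper48.steinberg_degree n F
  have hcard : Nat.card P = Fintype.card F ^ (∑ j ∈ Finset.range n, j) := by
    rw [Sylow.card_eq_multiplicity]
    exact Lib.Helper48.card_psl_ordProj p hn0
  refine ⟨by rw [h1, hcard], fun x hx hx1 => ?_⟩
  obtain ⟨m, ρ, hρ, hχ⟩ := hψ
  haveI := hρ
  rw [← hχ]
  have hm : m = p ^ (Nat.card (Matrix.ProjectiveSpecialLinearGroup (Fin n) F)).factorization p := by
    have e1 := Representation.char_one ρ
    rw [hχ, h1, Module.finrank_fin_fun] at e1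
    have := Nat.cast_injective e1
    rw [Lib.Helper48.card_psl_ordProj p hn0]
    exact this.symm
  apply Cfsg.Agent.S0165.result ρ p _ hp (Nat.ordProj_dvd _ p)
    (Nat.pow_succ_factorization_not_dvd Nat.card_pos.ne' hp)
  · rw [Module.finrank_fin_fun, ← hm]
  · obtain ⟨k, hk⟩ := (IsPGroup.iff_orderOf.mp P.isPGroup') ⟨x, hx⟩
    rw [Subgroup.orderOf_mk] at hk
    rw [hk]
    have hk0 : k ≠ 0 := by
      rintro rfl
      rw [pow_zero, orderOf_eq_one_iff] at hk
      exact hx1 hk
    exact dvd_pow_self p hk0

end Cfsg.Agent.S2544
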