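import Cfsg.Statements.S2550
import Mathlib

set_option autoImplicit false
open Cfsg

namespace Cfsg.Agent.S2550

open Polynomial

theorem lin_to_sq {K : Type*} [Field K] (I : Ideal K[X]) (d e : K) (hd : d ≠ 0)
    (h : C d * X + C e ∈ I) : ∃ c : K, X ^ 2 - C c ∈ I := by
  have h1 : X + C (e / d) ∈ I := by
    have h2 := I.mul_mem_left (C d⁻¹) h
    have h3 : C d⁻¹ * (C d * X + C e) = X + C (e / d) := by
      rw [mul_add, ← mul_assoc, ← C_mul, ← C_mul, inv_mul_cancel₀ hd, C_1, one_mul, div_eq_inv_mul]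
    rwa [h3] at h2
  refine ⟨(e / d) ^ 2, ?_⟩
  have h4 : X ^ 2 - C ((e / d) ^ 2) = (X + C (e / d)) * (X - C (e / d)) := by
    rw [C_pow]
    ring
  rw [h4]
  exact I.mul_mem_right _ h1

theorem ideal_lemma {K : Type*} [Field K] (h2 : (2 : K) = 0) (h4 : ∀ a : K, a ^ 4 = a)
    (I : Ideal K[X]) (a b ζ : K)
    (hf : X ^ 3 + C a * X ^ 2 + C b * X - 1 ∈ I) (hh : X ^ 6 - C ζ ∈ I) :
    (∃ c : K, X ^ 2 - C c ∈ I) ∨ (∃ c : K, X ^ 3 - C c ∈ I) := by
  have hr : C (a ^ 4 - 3 * a ^ 2 * b + b ^ 2 - 2 * a) * X ^ 2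
      + C (a ^ 3 * b - 2 * a * b ^ 2 + a ^ 2 - 2 * b) * X + C (-a ^ 3 + 2 * a * b - ζ + 1) ∈ I := by
    have e : C (a ^ 4 - 3 * a ^ 2 * b + b ^ 2 - 2 * a) * X ^ 2
        + C (a ^ 3 * b - 2 * a * b ^ 2 + a ^ 2 - 2 * b) * X + C (-a ^ 3 + 2 * a * b - ζ + 1)
        = (X ^ 6 - C ζ) - (X ^ 3 + C a * X ^ 2 + C b * X - 1)
          * (X ^ 3 - C a * X ^ 2 + C (a ^ 2 - b) * X + C (-a ^ 3 + 2 * a * b + 1)) := by
      simp only [map_sub, map_add, map_mul, map_pow, map_neg, map_one, map_ofNat]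
      ring
    rw [e]
    exact I.sub_mem hh (I.mul_mem_right _ hf)
  set A : K := a ^ 4 - 3 * a ^ 2 * b + b ^ 2 - 2 * a with hA
  set B : K := a ^ 3 * b - 2 * a * b ^ 2 + a ^ 2 - 2 * b with hB
  set C0 : K := -a ^ 3 + 2 * a * b - ζ + 1 with hC0
  by_cases hA0 : A = 0
  · by_cases hB0 : B = 0
    · -- a = 0 and b = 0
      right
      have h1 : a ^ 2 * (a * b + 1) = 0 := by
        linear_combination hB0 + (a * b ^ 2 + b) * h2
      have hab : a = 0 ∧ b = 0 := by
        rcases mul_eq_zero.1 h1 with h | h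
        · have ha : a = 0 := pow_eq_zero_iff (two_ne_zero) |>.1 h
          refine ⟨ha, ?_⟩
          have : b ^ 2 = 0 := by
            rw [hA, ha] at hA0
            linear_combination hA0
          exact pow_eq_zero_iff (two_ne_zero) |>.1 this
        · exfalso
          have hb2 : b ^ 2 = 0 := by
            linear_combination hA0 - h4 a + 3 * a * h - a * h2
          have hb : b = 0 := pow_eq_zero_iff (two_ne_zero) |>.1 hb2
          rw [hb] at h
          simp at h
      refine ⟨1, ?_⟩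
      have e : X ^ 3 - C (1 : K) = X ^ 3 + C a * X ^ 2 + C b * X - 1 := by
        rw [hab.1, hab.2]
        simp
      rw [e]
      exact hf
    · left
      rw [hA0] at hr
      simp only [map_zero, zero_mul, zero_add] at hr
      exact lin_to_sq I B C0 hB0 hr
  · -- quadratic relation
    set β : K := B / A with hβ
    set γ : K := C0 / A with hγ
    have hp : X ^ 2 + C β * X + C γ ∈ I := by
      have h1 := I.mul_mem_left (C A⁻¹) hr
      have h3 : C A⁻¹ * (C A * X ^ 2 + C B * X + C C0) = X ^ 2 + C β * X + C γ := by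
        rw [mul_add, mul_add, ← mul_assoc, ← mul_assoc, ← C_mul, ← C_mul, ← C_mul,
          inv_mul_cancel₀ hA0, C_1, one_mul, hβ, hγ, div_eq_inv_mul, div_eq_inv_mul]
      rwa [h3] at h1
    have hDE : C (-β ^ 5 + 4 * β ^ 3 * γ - 3 * β * γ ^ 2) * X
        + C (-β ^ 4 * γ + 3 * β ^ 2 * γ ^ 2 - γ ^ 3 - ζ) ∈ I := by
      have e : C (-β ^ 5 + 4 * β ^ 3 * γ - 3 * β * γ ^ 2) * X
          + C (-β ^ 4 * γ + 3 * β ^ 2 * γ ^ 2 - γ ^ 3 - ζ)
          = (X ^ 6 - C ζ) - (X ^ 2 + C β * X + C γ)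
            * (X ^ 4 - C β * X ^ 3 + C (β ^ 2 - γ) * X ^ 2 + C (-β ^ 3 + 2 * β * γ) * X
              + C (β ^ 4 - 3 * β ^ 2 * γ + γ ^ 2)) := by
        simp only [map_sub, map_add, map_mul, map_pow, map_neg, map_ofNat]
        ring
      rw [e]
      exact I.sub_mem hh (I.mul_mem_right _ hp)
    by_cases hD : -β ^ 5 + 4 * β ^ 3 * γ - 3 * β * γ ^ 2 = 0
    · have h1 : β * (β ^ 2 - γ) ^ 2 = 0 := by
        linear_combination (-1 : K) * hD + (β ^ 3 * γ - β * γ ^ 2) * h2
      rcases mul_eq_zero.1 h1 with h | h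
      · left
        refine ⟨-γ, ?_⟩
        have e : X ^ 2 - C (-γ) = X ^ 2 + C β * X + C γ := by
          rw [h]
          simp
        rw [e]
        exact hp
      · right
        have hu : β ^ 2 - γ = 0 := pow_eq_zero_iff (two_ne_zero) |>.1 h
        refine ⟨β * γ, ?_⟩
        have e : X ^ 3 - C (β * γ) = (X ^ 2 + C β * X + C γ) * (X - C β) + C (β ^ 2 - γ) * X := by
          simp only [map_sub, map_mul, map_pow]
          ring
        rw [e, hu]
        simp only [map_zero, zero_mul, add_zero]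
        exact I.mul_mem_right _ hp
    · left
      exact lin_to_sq I _ _ hD hDE

theorem matrix_lemma {K : Type*} [Field K] [Fintype K] (hK : Fintype.card K = 4)
    (M : Matrix (Fin 3) (Fin 3) K) (hdet : M.det = 1) (ζ : K)
    (h6 : M ^ 6 = Matrix.scalar (Fin 3) ζ) :
    (∃ c : K, M ^ 2 = Matrix.scalar (Fin 3) c) ∨ (∃ c : K, M ^ 3 = Matrix.scalar (Fin 3) c) := by
  have h2 : (2 : K) = 0 := by
    have h := FiniteField.cast_card_eq_zero K
    rw [hK] at h
    have h' : (2 : K) * 2 = 0 := by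
      norm_num
      exact_mod_cast h
    exact mul_self_eq_zero.1 h'
  have h4 : ∀ a : K, a ^ 4 = a := fun a => by
    rw [← hK]
    exact FiniteField.pow_card a
  have hsc : ∀ c : K, algebraMap K (Matrix (Fin 3) (Fin 3) K) c = Matrix.scalar (Fin 3) c := by
    intro c
    rw [Matrix.algebraMap_eq_diagonal, Matrix.scalar_apply]
    rfl
  let I : Ideal K[X] := RingHom.ker (aeval M : K[X] →ₐ[K] Matrix (Fin 3) (Fin 3) K).toRingHom
  have hmem : ∀ p : K[X], p ∈ I ↔ aeval M p = 0 := fun p => RingHom.mem_ker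
  have hcp : M.charpoly
      = X ^ 3 + C (M.charpoly.coeff 2) * X ^ 2 + C (M.charpoly.coeff 1) * X - 1 := by
    have hmonic := M.charpoly_monic
    have hdeg : M.charpoly.natDegree = 3 := by simp
    have h0 : M.charpoly.coeff 0 = -1 := by
      have h := M.det_eq_sign_charpoly_coeff
      rw [hdet] at h
      simp at h
      linear_combination h
    conv_lhs => rw [hmonic.as_sum, hdeg]
    simp only [Finset.sum_range_succ, Finset.sum_range_zero, h0]
    simp
    ring
  have hf : X ^ 3 + C (M.charpoly.coeff 2) * X ^ 2 + C (M.charpoly.coeff 1) * X - 1 ∈ I := by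
    rw [← hcp, hmem]
    exact M.aeval_self_charpoly
  have hh : X ^ 6 - C ζ ∈ I := by
    rw [hmem]
    simp [h6, hsc]
  rcases ideal_lemma h2 h4 I _ _ ζ hf hh with ⟨c, hc⟩ | ⟨c, hc⟩
  · left
    refine ⟨c, ?_⟩
    rw [hmem] at hc
    simp only [map_sub, map_pow, aeval_X, aeval_C, hsc, sub_eq_zero] at hc
    exact hc
  · right
    refine ⟨c, ?_⟩
    rw [hmem] at hc
    simp only [map_sub, map_pow, aeval_X, aeval_C, hsc, sub_eq_zero] at hc
    exact hc

theorem psl3_lemma {K : Type*} [Field K] [Fintype K] (hK : Fintype.card K = 4)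
    (x : Matrix.ProjectiveSpecialLinearGroup (Fin 3) K) (hx : x ^ 6 = 1) :
    x ^ 2 = 1 ∨ x ^ 3 = 1 := by
  obtain ⟨A, rfl⟩ := QuotientGroup.mk_surjective x
  rw [← QuotientGroup.mk_pow, QuotientGroup.eq_one_iff,
    Matrix.SpecialLinearGroup.mem_center_iff] at hx
  obtain ⟨r, -, hr⟩ := hx
  have h6 : (A : Matrix (Fin 3) (Fin 3) K) ^ 6 = Matrix.scalar (Fin 3) r := by
    rw [hr, Matrix.SpecialLinearGroup.coe_pow]
  have hc3 : ∀ (c : K) (k : ℕ), (A : Matrix (Fin 3) (Fin 3) K) ^ k = Matrix.scalar (Fin 3) c →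
      c ^ Fintype.card (Fin 3) = 1 := by
    intro c k hc
    have h := congrArg Matrix.det hc
    rw [Matrix.det_pow, A.det_coe, one_pow, Matrix.scalar_apply, Matrix.det_diagonal] at h
    simpa using h.symm
  rcases matrix_lemma hK A.1 A.det_coe r h6 with ⟨c, hc⟩ | ⟨c, hc⟩
  · left
    rw [← QuotientGroup.mk_pow, QuotientGroup.eq_one_iff,
      Matrix.SpecialLinearGroup.mem_center_iff]
    exact ⟨c, hc3 c 2 hc, by rw [Matrix.SpecialLinearGroup.coe_pow, hc]⟩
  · right
    rw [← QuotientGroup.mk_pow, QuotientGroup.eq_one_iff,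
      Matrix.SpecialLinearGroup.mem_center_iff]
    exact ⟨c, hc3 c 3 hc, by rw [Matrix.SpecialLinearGroup.coe_pow, hc]⟩

/-- an element of order 6 in `SL₄(𝔽₂)` -/
def Y₀ : Matrix.SpecialLinearGroup (Fin 4) (ZMod 2) :=
  ⟨!![1, 1, 0, 0; 0, 1, 0, 0; 0, 0, 0, 1; 0, 0, 1, 1], by decide⟩

theorem Y₀_pow6 : Y₀ ^ 6 = 1 := by decide

theorem Y₀_sq : (Y₀ ^ 2).1 2 3 = 1 := by decide

theorem Y₀_cube : (Y₀ ^ 3).1 0 1 = 1 := by decide

theorem psl4_elt {F : Type*} [Field F] [Fintype F] (hF : Fintype.card F = 2) :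
    ∃ y : Matrix.ProjectiveSpecialLinearGroup (Fin 4) F, y ^ 6 = 1 ∧ y ^ 2 ≠ 1 ∧ y ^ 3 ≠ 1 := by
  have h2 : (2 : F) = 0 := by
    have h := FiniteField.cast_card_eq_zero F
    rw [hF] at h
    exact_mod_cast h
  have : CharP F 2 := CharTwo.of_one_ne_zero_of_two_eq_zero one_ne_zero h2
  let φ : ZMod 2 →+* F := ZMod.castHom (dvd_refl 2) F
  let Y : Matrix.SpecialLinearGroup (Fin 4) F := Matrix.SpecialLinearGroup.map φ Y₀
  have hentry : ∀ (k : ℕ) (i j : Fin 4), (Y ^ k).1 i j = φ ((Y₀ ^ k).1 i j) := by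
    intro k i j
    have : Y ^ k = Matrix.SpecialLinearGroup.map φ (Y₀ ^ k) := by
      rw [map_pow]
    rw [this]
    rfl
  refine ⟨QuotientGroup.mk Y, ?_, ?_, ?_⟩
  · rw [← QuotientGroup.mk_pow]
    have : Y ^ 6 = 1 := by
      show (Matrix.SpecialLinearGroup.map φ Y₀) ^ 6 = 1
      rw [← map_pow, Y₀_pow6, map_one]
    rw [this]
    rfl
  · intro h
    rw [← QuotientGroup.mk_pow, QuotientGroup.eq_one_iff,
      Matrix.SpecialLinearGroup.mem_center_iff] at h
    obtain ⟨r, -, hr⟩ := h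
    have h1 := congrFun (congrFun hr 2) 3
    rw [hentry, Y₀_sq, map_one] at h1
    simp [Matrix.scalar_apply] at h1
  · intro h
    rw [← QuotientGroup.mk_pow, QuotientGroup.eq_one_iff,
      Matrix.SpecialLinearGroup.mem_center_iff] at h
    obtain ⟨r, -, hr⟩ := h
    have h1 := congrFun (congrFun hr 0) 1
    rw [hentry, Y₀_cube, map_one] at h1
    simp [Matrix.scalar_apply] at h1

theorem card_SL {𝔽 : Type*} [Field 𝔽] [Fintype 𝔽] (n : ℕ) [NeZero n] :
    Nat.card (Matrix.SpecialLinearGroup (Fin n) 𝔽) * (Fintype.card 𝔽 - 1)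
      = Nat.card (GL (Fin n) 𝔽) := by
  classical
  let d : GL (Fin n) 𝔽 →* 𝔽ˣ := Matrix.GeneralLinearGroup.det
  have h1 : Nat.card d.ker * d.ker.index = Nat.card (GL (Fin n) 𝔽) := Subgroup.card_mul_index d.ker
  have h2 : d.ker.index = Fintype.card 𝔽 - 1 := by
    rw [Subgroup.index_ker, MonoidHom.range_eq_top.2 Matrix.GeneralLinearGroup.det_surjective,
      Subgroup.card_top, Nat.card_eq_fintype_card, Fintype.card_units]
  have h3 : Nat.card (Matrix.SpecialLinearGroup (Fin n) 𝔽) = Nat.card d.ker := by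
    apply Nat.card_congr
    refine Equiv.ofBijective (fun A => ⟨Matrix.SpecialLinearGroup.toGL A, ?_⟩) ⟨?_, ?_⟩
    · rw [MonoidHom.mem_ker]
      ext
      simp [d]
    · intro A B h
      exact Matrix.SpecialLinearGroup.toGL_injective (Subtype.ext_iff.1 h)
    · rintro ⟨g, hg⟩
      refine ⟨⟨g.1, ?_⟩, ?_⟩
      · have := congrArg Units.val (MonoidHom.mem_ker.1 hg)
        simpa [d] using this
      · apply Subtype.ext
        apply Units.ext
        rfl
  rw [h3, ← h2, h1]

theorem card_PSL {𝔽 : Type*} [Field 𝔽] [Fintype 𝔽] (n : ℕ) [NeZero n] :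
    Nat.card (Matrix.ProjectiveSpecialLinearGroup (Fin n) 𝔽)
        * Nat.card (rootsOfUnity n 𝔽) * (Fintype.card 𝔽 - 1)
      = Nat.card (GL (Fin n) 𝔽) := by
  rw [← card_SL n, Subgroup.card_eq_card_quotient_mul_card_subgroup
    (Subgroup.center (Matrix.SpecialLinearGroup (Fin n) 𝔽))]
  congr 2
  have e := Matrix.SpecialLinearGroup.center_equiv_rootsOfUnity' (R := 𝔽) (0 : Fin n)
  rw [Fintype.card_fin] at e
  exact (Nat.card_congr e.toEquiv).symm

/-- Let F be a field with 2 elements and K a field with 4 elements. PSL_4(F) and PSL_3(K) have the same order (20160) but are not isomorphic. -/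
theorem result {F K : Type*} [Field F] [Fintype F] [Field K] [Fintype K] (hF : Fintype.card F = 2) (hK : Fintype.card K = 4) : Nat.card (Matrix.ProjectiveSpecialLinearGroup (Fin 4) F) = Nat.card (Matrix.ProjectiveSpecialLinearGroup (Fin 3) K) ∧ ¬ Nonempty (Matrix.ProjectiveSpecialLinearGroup (Fin 4) F ≃* Matrix.ProjectiveSpecialLinearGroup (Fin 3) K) := by
  classical
  constructor
  · have hFc : Nat.card (Matrix.ProjectiveSpecialLinearGroup (Fin 4) F) = 20160 := by
      have h := card_PSL (𝔽 := F) 4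
      rw [Matrix.card_GL_field, hF] at h
      have hr : Nat.card (rootsOfUnity 4 F) = 1 := by
        have hd := Subgroup.card_subgroup_dvd_card (rootsOfUnity 4 F)
        rw [Nat.card_eq_fintype_card (α := Fˣ), Fintype.card_units, hF] at hd
        exact Nat.dvd_one.1 hd
      rw [hr] at h
      generalize Nat.card (Matrix.ProjectiveSpecialLinearGroup (Fin 4) F) = N at h ⊢
      simp [Fin.prod_univ_four] at h
      omega
    have hKc : Nat.card (Matrix.ProjectiveSpecialLinearGroup (Fin 3) K) = 20160 := by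
      have h := card_PSL (𝔽 := K) 3
      rw [Matrix.card_GL_field, hK] at h
      have hr : Nat.card (rootsOfUnity 3 K) = 3 := by
        have htop : rootsOfUnity 3 K = ⊤ := by
          rw [eq_top_iff]
          intro u _
          rw [mem_rootsOfUnity]
          have h3 : Fintype.card Kˣ = 3 := by rw [Fintype.card_units, hK]
          rw [← h3]
          exact pow_card_eq_one
        rw [htop, Subgroup.card_top, Nat.card_eq_fintype_card, Fintype.card_units, hK]
      rw [hr] at h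
      generalize Nat.card (Matrix.ProjectiveSpecialLinearGroup (Fin 3) K) = N at h ⊢
      simp [Fin.prod_univ_three] at h
      omega
    rw [hFc, hKc]
  · rintro ⟨e⟩
    obtain ⟨y, hy6, hy2, hy3⟩ := psl4_elt hF
    have h6 : (e y) ^ 6 = 1 := by rw [← map_pow, hy6, map_one]
    rcases psl3_lemma hK (e y) h6 with h | h
    · apply hy2
      apply e.injective
      rw [map_pow, h, map_one]
    · apply hy3
      apply e.injective
      rw [map_pow, h, map_one]

end Cfsg.Agent.S2550
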