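import Cfsg.Statements.S2551
import Mathlib
import Cfsg.Agent.Lib.Helper60.A7GL4

set_option autoImplicit false
open Cfsg

namespace Cfsg.Agent.S2551

/-- Let F be the field with 2 elements. GL_4(F) (≅ A_8) has a subgroup isomorphic to the alternating group A_7, and every such subgroup acts 2-transitively on the 15 non-zero vectors of F⁴: any ordered pair of distinct non-zero vectors is carried to any other by some element of the subgroup. -/
theorem result {F : Type*} [Field F] [Fintype F] (hF : Fintype.card F = 2) : (∃ H : Subgroup (Matrix.GeneralLinearGroup (Fin 4) F), Nonempty (H ≃* alternatingGroup (Fin 7))) ∧ ∀ H : Subgroup (Matrix.GeneralLinearGroup (Fin 4) F), Nonempty (H ≃* alternatingGroup (Fin 7)) → ∀ v w v' w' : Fin 4 → F, v ≠ 0 → w ≠ 0 → v ≠ w → v' ≠ 0 → w' ≠ 0 → v' ≠ w' → ∃ g ∈ H, (g : Matrix (Fin 4) (Fin 4) F).mulVec v = v' ∧ (g : Matrix (Fin 4) (Fin 4) F).mulVec w = w' := by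
  exact Cfsg.Agent.Lib.Helper60.A7GL4.main hF

end Cfsg.Agent.S2551
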