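import Mathlib
import Cfsg.Statements.S2552

set_option autoImplicit false
open Cfsg

namespace Cfsg.Agent.S2552

open Matrix

/-- a dilation preserving any subspace containing `v`, with prescribed determinant -/
theorem exists_dilation {F : Type*} [Field F] (n : ℕ) (v : Fin n → F) (hv : v ≠ 0) (c : F) :
    ∃ M : Matrix (Fin n) (Fin n) F, M.det = c ∧ ∀ y : Fin n → F, ∃ a : F, M *ᵥ y = y + a • v := by
  obtain ⟨i, hi⟩ : ∃ i, v i ≠ 0 := by
    by_contra h
    simp only [not_exists, not_not] at h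
    exact hv (funext h)
  refine ⟨1 + vecMulVec ((c - 1) • v) (Pi.single i (v i)⁻¹), ?_, fun y => ⟨(v i)⁻¹ * y i * (c - 1), ?_⟩⟩
  · rw [vecMulVec_eq (ι := Unit), det_one_add_replicateCol_mul_replicateRow]
    simp only [single_dotProduct, Pi.smul_apply, smul_eq_mul]
    field_simp
    ring
  · rw [Matrix.add_mulVec, Matrix.one_mulVec, vecMulVec_mulVec]
    simp only [single_dotProduct]
    congr 1
    ext j
    simp
    ring

/-- Let F be a finite field and n ≥ 1. For every k, the special linear group SL_n(F) acts transitively on the set of k-dimensional subspaces of F^n: any two subspaces of the same dimension are carried onto each other by some matrix of determinant 1. -/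
theorem result {F : Type*} [Field F] [Fintype F] (n : ℕ) (hn : 1 ≤ n) (U₁ U₂ : Submodule F (Fin n → F)) (h : Module.finrank F U₁ = Module.finrank F U₂) : ∃ g : Matrix.SpecialLinearGroup (Fin n) F, U₁.map ((Matrix.SpecialLinearGroup.toLin' g : (Fin n → F) ≃ₗ[F] (Fin n → F)) : (Fin n → F) →ₗ[F] (Fin n → F)) = U₂ := by
  suffices hs : ∃ g : Matrix.SpecialLinearGroup (Fin n) F, ∀ x ∈ U₁, (g.val *ᵥ x) ∈ U₂ by
    obtain ⟨g, hg⟩ := hs
    refine ⟨g, Submodule.eq_of_le_of_finrank_eq ?_ ?_⟩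
    · rintro _ ⟨x, hx, rfl⟩
      exact hg x hx
    · rw [LinearEquiv.finrank_map_eq, h]
  by_cases hU : U₂ = ⊥
  · refine ⟨1, fun x hx => ?_⟩
    have h1 : U₁ = ⊥ := by
      rw [← Submodule.finrank_eq_zero, h, hU, finrank_bot]
    rw [h1] at hx
    rw [(Submodule.mem_bot F).1 hx]
    simp
  · obtain ⟨v, hv, hv0⟩ := (Submodule.ne_bot_iff U₂).1 hU
    obtain ⟨W₁, hW₁⟩ := Submodule.exists_isCompl U₁
    obtain ⟨W₂, hW₂⟩ := Submodule.exists_isCompl U₂
    have hW : Module.finrank F W₁ = Module.finrank F W₂ := by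
      have h1 := Submodule.finrank_add_eq_of_isCompl hW₁
      have h2 := Submodule.finrank_add_eq_of_isCompl hW₂
      omega
    let eU := LinearEquiv.ofFinrankEq U₁ U₂ h
    let eW := LinearEquiv.ofFinrankEq W₁ W₂ hW
    let e : (Fin n → F) ≃ₗ[F] (Fin n → F) := (Submodule.prodEquivOfIsCompl U₁ W₁ hW₁).symm.trans
      ((LinearEquiv.prodCongr eU eW).trans (Submodule.prodEquivOfIsCompl U₂ W₂ hW₂))
    have he : ∀ x ∈ U₁, e x ∈ U₂ := by
      intro x hx
      have h1 : e x = (eU ⟨x, hx⟩ : Fin n → F) := by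
        show (Submodule.prodEquivOfIsCompl U₂ W₂ hW₂) ((LinearEquiv.prodCongr eU eW)
          ((Submodule.prodEquivOfIsCompl U₁ W₁ hW₁).symm ((⟨x, hx⟩ : U₁) : Fin n → F))) = _
        rw [Submodule.prodEquivOfIsCompl_symm_apply_left]
        simp
      rw [h1]
      exact (eU ⟨x, hx⟩).2
    have hd : LinearMap.det (e : (Fin n → F) →ₗ[F] (Fin n → F)) ≠ 0 :=
      (LinearEquiv.isUnit_det' e).ne_zero
    obtain ⟨M, hM, hMy⟩ := exists_dilation n v hv0
      (LinearMap.det (e : (Fin n → F) →ₗ[F] (Fin n → F)))⁻¹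
    refine ⟨⟨M * LinearMap.toMatrix' (e : (Fin n → F) →ₗ[F] (Fin n → F)), ?_⟩, fun x hx => ?_⟩
    · rw [Matrix.det_mul, hM, LinearMap.det_toMatrix', inv_mul_cancel₀ hd]
    · show (M * LinearMap.toMatrix' (e : (Fin n → F) →ₗ[F] (Fin n → F))) *ᵥ x ∈ U₂
      rw [← Matrix.mulVec_mulVec, LinearMap.toMatrix'_mulVec]
      obtain ⟨a, ha⟩ := hMy (e x)
      rw [LinearEquiv.coe_coe, ha]
      exact U₂.add_mem (he x hx) (U₂.smul_mem a hv)

end Cfsg.Agent.S2552
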