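import Cfsg.Statements.S2564
import Mathlib

set_option autoImplicit false
open Cfsg

namespace Cfsg.Agent.S2564

/-- the polar form of the plus-type form -/
def B (m : ℕ) (u v : Fin m ⊕ Fin m → ZMod 2) : ZMod 2 :=
  ∑ i : Fin m, (u (.inl i) * v (.inr i) + v (.inl i) * u (.inr i))

lemma polar_eq (m : ℕ) (u v : Fin m ⊕ Fin m → ZMod 2) :
    Cfsg.quadFormPlus m (ZMod 2) (u + v) - Cfsg.quadFormPlus m (ZMod 2) u
      - Cfsg.quadFormPlus m (ZMod 2) v = B m u v := by
  unfold Cfsg.quadFormPlus B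
  rw [← Finset.sum_sub_distrib, ← Finset.sum_sub_distrib]
  apply Finset.sum_congr rfl
  intro i _
  simp only [Pi.add_apply]
  ring

lemma B_add_left (m : ℕ) (u u' v : Fin m ⊕ Fin m → ZMod 2) :
    B m (u + u') v = B m u v + B m u' v := by
  unfold B
  rw [← Finset.sum_add_distrib]
  apply Finset.sum_congr rfl
  intro i _
  simp only [Pi.add_apply]
  ring

lemma B_self (m : ℕ) (u : Fin m ⊕ Fin m → ZMod 2) : B m u u = 0 := by
  unfold B
  apply Finset.sum_eq_zero
  intro i _
  have : ∀ x : ZMod 2, x + x = 0 := by decide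
  exact this _

lemma B_zero_right (m : ℕ) (u : Fin m ⊕ Fin m → ZMod 2) : B m u 0 = 0 := by
  unfold B
  simp

/-- the sign character of `ZMod 2` -/
def χ (a : ZMod 2) : ℤ := if a = 0 then 1 else -1

lemma χ_add : ∀ a b : ZMod 2, χ (a + b) = χ a * χ b := by decide

lemma χ_zero : χ 0 = 1 := by decide

lemma χ_one : χ 1 = -1 := by decide

lemma exists_B_eq_one (m : ℕ) (t : Fin m ⊕ Fin m → ZMod 2) (ht : t ≠ 0) :
    ∃ e : Fin m ⊕ Fin m → ZMod 2, B m e t = 1 := by
  obtain ⟨j, hj⟩ : ∃ j, t j ≠ 0 := by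
    by_contra h
    simp only [not_exists, not_not] at h
    exact ht (funext h)
  have hj1 : t j = 1 := by
    have : ∀ x : ZMod 2, x ≠ 0 → x = 1 := by decide
    exact this _ hj
  rcases j with i | i
  · refine ⟨Pi.single (Sum.inr i) 1, ?_⟩
    unfold B
    rw [Finset.sum_eq_single i]
    · simp [hj1]
    · intro k _ hk
      simp [hk]
    · simp
  · refine ⟨Pi.single (Sum.inl i) 1, ?_⟩
    unfold B
    rw [Finset.sum_eq_single i]
    · simp [hj1]
    · intro k _ hk
      simp [hk]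
    · simp

lemma sum_χ_B (m : ℕ) (t : Fin m ⊕ Fin m → ZMod 2) (ht : t ≠ 0) :
    ∑ u : Fin m ⊕ Fin m → ZMod 2, χ (B m u t) = 0 := by
  obtain ⟨e, he⟩ := exists_B_eq_one m t ht
  have h1 : ∑ u : Fin m ⊕ Fin m → ZMod 2, χ (B m u t)
      = ∑ u : Fin m ⊕ Fin m → ZMod 2, χ (B m (u + e) t) :=
    (Equiv.sum_comp (Equiv.addRight e) (fun u => χ (B m u t))).symm
  have h2 : ∑ u : Fin m ⊕ Fin m → ZMod 2, χ (B m (u + e) t)
      = - ∑ u : Fin m ⊕ Fin m → ZMod 2, χ (B m u t) := by
    rw [← Finset.sum_neg_distrib]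
    apply Finset.sum_congr rfl
    intro u _
    rw [B_add_left, he, χ_add, χ_one]
    ring
  linarith

lemma gauss_sq (m : ℕ) (q : (Fin m ⊕ Fin m → ZMod 2) → ZMod 2)
    (hq : ∀ u v, q (u + v) = q u + q v + B m u v) :
    (∑ v : Fin m ⊕ Fin m → ZMod 2, χ (q v)) ^ 2 = Fintype.card (Fin m ⊕ Fin m → ZMod 2) := by
  have hq0 : q 0 = 0 := by
    have h := hq 0 0
    rw [B_zero_right, add_zero, add_zero] at h
    have : ∀ x : ZMod 2, x = x + x → x = 0 := by decide
    exact this _ h
  rw [sq, Finset.sum_mul_sum]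
  have h1 : ∀ u : Fin m ⊕ Fin m → ZMod 2,
      ∑ v : Fin m ⊕ Fin m → ZMod 2, χ (q u) * χ (q v)
        = ∑ t : Fin m ⊕ Fin m → ZMod 2, χ (q t) * χ (B m u t) := by
    intro u
    rw [← Equiv.sum_comp (Equiv.addLeft u)]
    apply Finset.sum_congr rfl
    intro t _
    simp only [Equiv.coe_addLeft]
    rw [hq u t, ← χ_add, ← χ_add]
    congr 1
    have : ∀ x y z : ZMod 2, x + (x + y + z) = y + z := by decide
    exact this _ _ _
  rw [Finset.sum_congr rfl (fun u _ => h1 u), Finset.sum_comm]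
  rw [Finset.sum_eq_single (0 : Fin m ⊕ Fin m → ZMod 2)]
  · simp [hq0, B_zero_right, χ_zero]
  · intro t _ ht
    rw [← Finset.mul_sum, sum_χ_B m t ht, mul_zero]
  · simp

/-- On the 2m-dimensional space over the field of two elements (m ≥ 1) let f be the alternating form obtained by polarizing the plus-type form Σ xᵢyᵢ, and let q be any quadratic form polarizing to f. For a vector w, the function q + f(·, w) again polarizes to f, and it is equivalent to q under an invertible linear map (that is, has the same type) if and only if q(w) = 0. -/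
theorem result (m : ℕ) (hm : 1 ≤ m) (q : (Fin m ⊕ Fin m → ZMod 2) → ZMod 2) (hq : (∀ u v : (Fin m ⊕ Fin m → ZMod 2), q (u + v) = q u + q v + (Cfsg.quadFormPlus m (ZMod 2) (u + v) - Cfsg.quadFormPlus m (ZMod 2) u - Cfsg.quadFormPlus m (ZMod 2) v))) (w : (Fin m ⊕ Fin m → ZMod 2)) :
    (∀ u v : (Fin m ⊕ Fin m → ZMod 2), (q (u + v) + (Cfsg.quadFormPlus m (ZMod 2) (u + v + w) - Cfsg.quadFormPlus m (ZMod 2) (u + v) - Cfsg.quadFormPlus m (ZMod 2) w)) =
        (q u + (Cfsg.quadFormPlus m (ZMod 2) (u + w) - Cfsg.quadFormPlus m (ZMod 2) u - Cfsg.quadFormPlus m (ZMod 2) w)) + (q v + (Cfsg.quadFormPlus m (ZMod 2) (v + w) - Cfsg.quadFormPlus m (ZMod 2) v - Cfsg.quadFormPlus m (ZMod 2) w)) +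
        (Cfsg.quadFormPlus m (ZMod 2) (u + v) - Cfsg.quadFormPlus m (ZMod 2) u - Cfsg.quadFormPlus m (ZMod 2) v)) ∧
    ((∃ g : (Fin m ⊕ Fin m → ZMod 2) ≃ₗ[ZMod 2] (Fin m ⊕ Fin m → ZMod 2), ∀ v, q v + (Cfsg.quadFormPlus m (ZMod 2) (v + w) - Cfsg.quadFormPlus m (ZMod 2) v - Cfsg.quadFormPlus m (ZMod 2) w) = q (g v)) ↔ q w = 0) := by
  simp only [polar_eq] at hq ⊢
  refine ⟨?_, ?_, ?_⟩
  · intro u v
    rw [hq u v, B_add_left]
    ring
  · rintro ⟨g, hg⟩
    by_contra hw
    have hw1 : q w = 1 := by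
      have : ∀ x : ZMod 2, x ≠ 0 → x = 1 := by decide
      exact this _ hw
    have h1 : ∑ v : Fin m ⊕ Fin m → ZMod 2, χ (q (g v))
        = ∑ v : Fin m ⊕ Fin m → ZMod 2, χ (q v) :=
      Equiv.sum_comp g.toEquiv (fun v => χ (q v))
    have h2 : ∑ v : Fin m ⊕ Fin m → ZMod 2, χ (q (g v))
        = - ∑ v : Fin m ⊕ Fin m → ZMod 2, χ (q v) := by
      rw [← Equiv.sum_comp (Equiv.addRight w) (fun v => χ (q v)), ← Finset.sum_neg_distrib]
      apply Finset.sum_congr rfl
      intro v _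
      simp only [Equiv.coe_addRight]
      rw [← hg v, hq v w, hw1, χ_add, χ_add, χ_add, χ_one]
      ring
    have h3 : ∑ v : Fin m ⊕ Fin m → ZMod 2, χ (q v) = 0 := by linarith
    have h4 := gauss_sq m q hq
    rw [h3] at h4
    have h5 : (0 : ℤ) < Fintype.card (Fin m ⊕ Fin m → ZMod 2) := by
      exact_mod_cast Fintype.card_pos
    rw [← h4] at h5
    norm_num at h5
  · intro hw
    have hBlin : ∀ u v : Fin m ⊕ Fin m → ZMod 2, B m (u + v) w = B m u w + B m v w :=
      fun u v => B_add_left m u v w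
    let φ : (Fin m ⊕ Fin m → ZMod 2) →+ (Fin m ⊕ Fin m → ZMod 2) :=
      { toFun := fun v => v + B m v w • w
        map_zero' := by
          have : B m 0 w = 0 := by unfold B; simp
          simp [this]
        map_add' := by
          intro u v
          rw [hBlin, add_smul]
          abel }
    have hinv : Function.Involutive (φ.toZModLinearMap 2) := by
      intro v
      show (v + B m v w • w) + B m (v + B m v w • w) w • w = v
      have h01 : B m v w = 0 ∨ B m v w = 1 := by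
        have : ∀ x : ZMod 2, x = 0 ∨ x = 1 := by decide
        exact this _
      rcases h01 with h | h
      · simp [h]
      · simp only [h, one_smul]
        rw [hBlin, B_self, h, add_zero, one_smul, add_assoc]
        have : w + w = 0 := by
          ext i
          have : ∀ x : ZMod 2, x + x = 0 := by decide
          exact this _
        rw [this, add_zero]
    refine ⟨LinearEquiv.ofInvolutive (φ.toZModLinearMap 2) hinv, ?_⟩
    intro v
    show q v + B m v w = q (v + B m v w • w)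
    have h01 : B m v w = 0 ∨ B m v w = 1 := by
      have : ∀ x : ZMod 2, x = 0 ∨ x = 1 := by decide
      exact this _
    rcases h01 with h | h
    · simp [h]
    · rw [h, one_smul, hq v w, hw, h, add_zero]

end Cfsg.Agent.S2564
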