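import Cfsg.Statements.S2561
import Mathlib
import Cfsg.Agent.Lib.Helper50.GaussF2
import Cfsg.Agent.S2564

set_option autoImplicit false
open Cfsg

namespace Cfsg.Agent.S2561

open Cfsg.Agent.Lib.Helper50

theorem two_eq_zero' : (2 : ZMod 2) = 0 := by decide

theorem χ_unfold (a : ZMod 2) : χ a = if a = 0 then 1 else -1 := rfl

theorem polar_eq (m : ℕ) (u v : Fin m ⊕ Fin m → ZMod 2) :
    Cfsg.quadFormPlus m (ZMod 2) (u + v) - Cfsg.quadFormPlus m (ZMod 2) u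
      - Cfsg.quadFormPlus m (ZMod 2) v = Bp m u v := by
  rw [qfp_polar]
  ring

/-- the form `Q⁺ + B(·, w)` -/
def qw (m : ℕ) (w : Fin m ⊕ Fin m → ZMod 2) : (Fin m ⊕ Fin m → ZMod 2) → ZMod 2 :=
  fun v => Cfsg.quadFormPlus m (ZMod 2) v + Bp m v w

theorem qw_polar (m : ℕ) (w u v : Fin m ⊕ Fin m → ZMod 2) :
    qw m w (u + v) = qw m w u + qw m w v + Bp m u v := by
  simp only [qw]
  rw [qfp_polar, Bp_add_left]
  ring

theorem qw_inj (m : ℕ) (w w' : Fin m ⊕ Fin m → ZMod 2) (h : qw m w = qw m w') : w = w' := by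
  by_contra hne
  have ht : w + w' ≠ 0 := by
    intro h0
    apply hne
    have h1 : w = -w' := eq_neg_of_add_eq_zero_left h0
    rw [h1]
    ext j
    have : ∀ x : ZMod 2, -x = x := by decide
    exact this _
  obtain ⟨e, he⟩ := Bp_nondeg m _ ht
  have h1 := congrFun h e
  simp only [qw] at h1
  have h2 : Bp m e w = Bp m e w' := add_left_cancel h1
  rw [Bp_add_right, h2, zmod2_add_self] at he
  exact zero_ne_one he

theorem exists_w (m : ℕ) (q : (Fin m ⊕ Fin m → ZMod 2) → ZMod 2)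
    (hq : ∀ u v, q (u + v) = q u + q v + Bp m u v) : ∃ w, q = qw m w := by
  classical
  let lam : (Fin m ⊕ Fin m → ZMod 2) →+ ZMod 2 :=
    AddMonoidHom.mk' (fun v => q v + Cfsg.quadFormPlus m (ZMod 2) v) (by
      intro u v
      rw [hq u v, qfp_polar]
      linear_combination (Bp m u v) * two_eq_zero')
  let L : (Fin m ⊕ Fin m → ZMod 2) →ₗ[ZMod 2] ZMod 2 := lam.toZModLinearMap 2
  have hL : ∀ v, L v = q v + Cfsg.quadFormPlus m (ZMod 2) v := fun v => rfl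
  refine ⟨fun j => Sum.elim (fun i => L (fun j' => if Sum.inr i = j' then 1 else 0))
    (fun i => L (fun j' => if Sum.inl i = j' then 1 else 0)) j, ?_⟩
  funext v
  have h1 : q v = L v + Cfsg.quadFormPlus m (ZMod 2) v := by
    rw [hL]
    linear_combination (-(Cfsg.quadFormPlus m (ZMod 2) v)) * two_eq_zero'
  rw [h1, qw, add_comm]
  congr 1
  rw [LinearMap.pi_apply_eq_sum_univ L v, Fintype.sum_sum_type, Bp, Finset.sum_add_distrib]
  simp only [Sum.elim_inl, Sum.elim_inr, smul_eq_mul]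
  congr 1
  apply Finset.sum_congr rfl
  intro i _
  ring

theorem plus_iff (m : ℕ) (hm : 1 ≤ m) (w : Fin m ⊕ Fin m → ZMod 2) :
    (∃ g : (Fin m ⊕ Fin m → ZMod 2) ≃ₗ[ZMod 2] (Fin m ⊕ Fin m → ZMod 2),
      ∀ v, qw m w v = Cfsg.quadFormPlus m (ZMod 2) (g v))
    ↔ Cfsg.quadFormPlus m (ZMod 2) w = 0 := by
  have h := (Cfsg.Agent.S2564.result m hm (Cfsg.quadFormPlus m (ZMod 2))
    (fun u v => by ring) w).2
  rw [← h]
  apply exists_congr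
  intro g
  apply forall_congr'
  intro v
  rw [polar_eq]
  rfl

/-- relabelling of coordinates -/
def σ (k : ℕ) : (Fin k ⊕ Fin k) ⊕ Fin 2 → Fin (k + 1) ⊕ Fin (k + 1)
  | .inl (.inl i) => .inl i.succ
  | .inl (.inr i) => .inr i.succ
  | .inr i => if i = 0 then .inl 0 else .inr 0

theorem σ_bij (k : ℕ) : Function.Bijective (σ k) := by
  rw [Fintype.bijective_iff_injective_and_card]
  refine ⟨?_, by simp; ring⟩
  rintro ((i | i) | i) ((j | j) | j) h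
  · simpa [σ] using h
  · simp [σ] at h
  · simp only [σ] at h
    split_ifs at h <;>
    first
    | exact absurd h (Fin.succ_ne_zero _)
    | exact absurd h.symm (Fin.succ_ne_zero _)
    | exact absurd (Sum.inl.inj h) (Fin.succ_ne_zero _)
    | exact absurd (Sum.inr.inj h) (Fin.succ_ne_zero _)
    | exact absurd (Sum.inl.inj h).symm (Fin.succ_ne_zero _)
    | exact absurd (Sum.inr.inj h).symm (Fin.succ_ne_zero _)
    | simp at h
  · simp [σ] at h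
  · simpa [σ] using h
  · simp only [σ] at h
    split_ifs at h <;>
    first
    | exact absurd h (Fin.succ_ne_zero _)
    | exact absurd h.symm (Fin.succ_ne_zero _)
    | exact absurd (Sum.inl.inj h) (Fin.succ_ne_zero _)
    | exact absurd (Sum.inr.inj h) (Fin.succ_ne_zero _)
    | exact absurd (Sum.inl.inj h).symm (Fin.succ_ne_zero _)
    | exact absurd (Sum.inr.inj h).symm (Fin.succ_ne_zero _)
    | simp at h
  · simp only [σ] at h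
    split_ifs at h <;>
    first
    | exact absurd h (Fin.succ_ne_zero _)
    | exact absurd h.symm (Fin.succ_ne_zero _)
    | exact absurd (Sum.inl.inj h) (Fin.succ_ne_zero _)
    | exact absurd (Sum.inr.inj h) (Fin.succ_ne_zero _)
    | exact absurd (Sum.inl.inj h).symm (Fin.succ_ne_zero _)
    | exact absurd (Sum.inr.inj h).symm (Fin.succ_ne_zero _)
    | simp at h
  · simp only [σ] at h
    split_ifs at h <;>
    first
    | exact absurd h (Fin.succ_ne_zero _)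
    | exact absurd h.symm (Fin.succ_ne_zero _)
    | exact absurd (Sum.inl.inj h) (Fin.succ_ne_zero _)
    | exact absurd (Sum.inr.inj h) (Fin.succ_ne_zero _)
    | exact absurd (Sum.inl.inj h).symm (Fin.succ_ne_zero _)
    | exact absurd (Sum.inr.inj h).symm (Fin.succ_ne_zero _)
    | simp at h
  · fin_cases i <;> fin_cases j <;> simp [σ] at h ⊢

/-- the special vector -/
def w₀ (k : ℕ) : Fin (k + 1) ⊕ Fin (k + 1) → ZMod 2 :=
  fun j => Sum.elim (fun i => if i = 0 then 1 else 0) (fun i => if i = 0 then 1 else 0) j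

theorem qw_w₀ (k : ℕ) (v : Fin (k + 1) ⊕ Fin (k + 1) → ZMod 2) :
    qw (k + 1) (w₀ k) v = Cfsg.quadFormMinus k (ZMod 2) 1 1 (fun j => v (σ k j)) := by
  rw [qw, qfp_eq, Bp, qfm_eq, Fin.sum_univ_succ, Fin.sum_univ_succ]
  simp only [σ, w₀, Sum.elim_inl, Sum.elim_inr, Fin.succ_ne_zero, if_true, if_false, mul_zero,
    zero_mul, add_zero, Finset.sum_const_zero, mul_one, one_mul]
  have hsq : ∀ x : ZMod 2, x ^ 2 = x := by decide
  simp only [Fin.isValue, ↓reduceIte, one_ne_zero, hsq]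
  ring

theorem minus_of (k : ℕ) (w : Fin (k + 1) ⊕ Fin (k + 1) → ZMod 2)
    (hw : Cfsg.quadFormPlus (k + 1) (ZMod 2) w = 1) :
    ∃ g : (Fin (k + 1) ⊕ Fin (k + 1) → ZMod 2) ≃ₗ[ZMod 2] ((Fin k ⊕ Fin k) ⊕ Fin 2 → ZMod 2),
      ∀ v, qw (k + 1) w v = Cfsg.quadFormMinus k (ZMod 2) 1 1 (g v) := by
  have hw₀ : Cfsg.quadFormPlus (k + 1) (ZMod 2) (w₀ k) = 1 := by
    rw [qfp_eq, Fin.sum_univ_succ]
    simp [w₀, Fin.succ_ne_zero]
  have h := (Cfsg.Agent.S2564.result (k + 1) (by omega) (qw (k + 1) (w₀ k))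
    (fun u v => by rw [polar_eq]; exact qw_polar (k + 1) (w₀ k) u v) (w + w₀ k)).2
  have h0 : qw (k + 1) (w₀ k) (w + w₀ k) = 0 := by
    simp only [qw]
    rw [qfp_polar, hw, hw₀, Bp_add_left, Bp_self]
    have : ∀ x : ZMod 2, 1 + 1 + x + (x + 0) = 0 := by decide
    exact this _
  obtain ⟨g₁, hg₁⟩ := h.2 h0
  refine ⟨g₁.trans (LinearEquiv.funCongrLeft (ZMod 2) (ZMod 2) (Equiv.ofBijective (σ k) (σ_bij k))),
    ?_⟩
  intro v
  have h2 := hg₁ v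
  rw [polar_eq] at h2
  have h3 : qw (k + 1) w v = qw (k + 1) (w₀ k) v + Bp (k + 1) v (w + w₀ k) := by
    simp only [qw]
    rw [Bp_add_right]
    have : ∀ a b c : ZMod 2, a + b = a + c + (b + c) := by decide
    exact this _ _ _
  rw [h3, h2, qw_w₀]
  rfl

theorem not_both (k : ℕ) (q : (Fin (k + 1) ⊕ Fin (k + 1) → ZMod 2) → ZMod 2)
    (h1 : ∃ g : (Fin (k + 1) ⊕ Fin (k + 1) → ZMod 2) ≃ₗ[ZMod 2] (Fin (k + 1) ⊕ Fin (k + 1) → ZMod 2),
      ∀ v, q v = Cfsg.quadFormPlus (k + 1) (ZMod 2) (g v))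
    (h2 : ∃ g : (Fin (k + 1) ⊕ Fin (k + 1) → ZMod 2) ≃ₗ[ZMod 2] ((Fin k ⊕ Fin k) ⊕ Fin 2 → ZMod 2),
      ∀ v, q v = Cfsg.quadFormMinus k (ZMod 2) 1 1 (g v)) : False := by
  obtain ⟨g, hg⟩ := h1
  obtain ⟨g', hg'⟩ := h2
  have e1 : ∑ v : Fin (k + 1) ⊕ Fin (k + 1) → ZMod 2, χ (q v) = 2 ^ (k + 1) := by
    have hr : ∑ v : Fin (k + 1) ⊕ Fin (k + 1) → ZMod 2, χ (Cfsg.quadFormPlus (k + 1) (ZMod 2) (g v))
        = ∑ v : Fin (k + 1) ⊕ Fin (k + 1) → ZMod 2, χ (Cfsg.quadFormPlus (k + 1) (ZMod 2) v) :=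
      Equiv.sum_comp g.toEquiv (fun v => χ (Cfsg.quadFormPlus (k + 1) (ZMod 2) v))
    rw [← gauss_plus (k + 1), ← hr]
    apply Finset.sum_congr rfl
    intro v _
    rw [hg v]
  have e2 : ∑ v : Fin (k + 1) ⊕ Fin (k + 1) → ZMod 2, χ (q v) = - 2 ^ (k + 1) := by
    have hr : ∑ v : Fin (k + 1) ⊕ Fin (k + 1) → ZMod 2, χ (Cfsg.quadFormMinus k (ZMod 2) 1 1 (g' v))
        = ∑ v : (Fin k ⊕ Fin k) ⊕ Fin 2 → ZMod 2, χ (Cfsg.quadFormMinus k (ZMod 2) 1 1 v) :=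
      Equiv.sum_comp g'.toEquiv (fun v => χ (Cfsg.quadFormMinus k (ZMod 2) 1 1 v))
    rw [← gauss_minus k, ← hr]
    apply Finset.sum_congr rfl
    intro v _
    rw [hg' v]
  have : (0 : ℤ) < 2 ^ (k + 1) := by positivity
  linarith

theorem count_zero (m : ℕ) (hm : 1 ≤ m) :
    (Finset.univ.filter (fun w : Fin m ⊕ Fin m → ZMod 2 => Cfsg.quadFormPlus m (ZMod 2) w = 0)).card
        = 2 ^ (2 * m - 1) + 2 ^ (m - 1) ∧
    (Finset.univ.filter (fun w : Fin m ⊕ Fin m → ZMod 2 => Cfsg.quadFormPlus m (ZMod 2) w = 1)).card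
        = 2 ^ (2 * m - 1) - 2 ^ (m - 1) := by
  have hg := gauss_plus m
  have hsum : ∑ v : Fin m ⊕ Fin m → ZMod 2, χ (Cfsg.quadFormPlus m (ZMod 2) v)
      = ((Finset.univ.filter (fun w : Fin m ⊕ Fin m → ZMod 2 =>
            Cfsg.quadFormPlus m (ZMod 2) w = 0)).card : ℤ)
        - ((Finset.univ.filter (fun w : Fin m ⊕ Fin m → ZMod 2 =>
            ¬ Cfsg.quadFormPlus m (ZMod 2) w = 0)).card : ℤ) := by
    simp only [χ_unfold]
    rw [Finset.sum_ite]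
    simp
    ring
  have hfil : (Finset.univ.filter (fun w : Fin m ⊕ Fin m → ZMod 2 =>
      ¬ Cfsg.quadFormPlus m (ZMod 2) w = 0))
      = (Finset.univ.filter (fun w : Fin m ⊕ Fin m → ZMod 2 =>
        Cfsg.quadFormPlus m (ZMod 2) w = 1)) := by
    ext w
    simp only [Finset.mem_filter, Finset.mem_univ, true_and]
    have : ∀ x : ZMod 2, ¬ x = 0 ↔ x = 1 := by decide
    exact this _
  have htot := Finset.card_filter_add_card_filter_not (s := (Finset.univ : Finset (Fin m ⊕ Fin m → ZMod 2)))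
    (fun w : Fin m ⊕ Fin m → ZMod 2 => Cfsg.quadFormPlus m (ZMod 2) w = 0)
  rw [hfil] at hsum htot
  rw [Finset.card_univ, card_plus] at htot
  rw [hg] at hsum
  obtain ⟨k, rfl⟩ : ∃ k, m = k + 1 := ⟨m - 1, by omega⟩
  have e1 : 2 * (k + 1) - 1 = 2 * k + 1 := by omega
  have e2 : k + 1 - 1 = k := by omega
  rw [e1, e2]
  have p1 : (2 : ℤ) ^ (2 * (k + 1)) = 2 * 2 ^ (2 * k + 1) := by ring
  have p2 : (2 : ℤ) ^ (k + 1) = 2 * 2 ^ k := by ring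
  have p3 : (2 : ℕ) ^ k ≤ 2 ^ (2 * k + 1) := Nat.pow_le_pow_right (by norm_num) (by omega)
  have htot' : ((Finset.univ.filter (fun w : Fin (k + 1) ⊕ Fin (k + 1) → ZMod 2 =>
            Cfsg.quadFormPlus (k + 1) (ZMod 2) w = 0)).card : ℤ)
      + ((Finset.univ.filter (fun w : Fin (k + 1) ⊕ Fin (k + 1) → ZMod 2 =>
            Cfsg.quadFormPlus (k + 1) (ZMod 2) w = 1)).card : ℤ) = 2 ^ (2 * (k + 1)) := by
    exact_mod_cast htot
  constructor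
  · zify
    linarith
  · zify [p3]
    linarith

theorem main (k : ℕ) :
    Nat.card {q : (Fin (k + 1) ⊕ Fin (k + 1) → ZMod 2) → ZMod 2 // (∀ u v : (Fin (k + 1) ⊕ Fin (k + 1) → ZMod 2), q (u + v) = q u + q v + (Cfsg.quadFormPlus (k + 1) (ZMod 2) (u + v) - Cfsg.quadFormPlus (k + 1) (ZMod 2) u - Cfsg.quadFormPlus (k + 1) (ZMod 2) v))} = 2 ^ (2 * (k + 1)) ∧
    (∀ q : (Fin (k + 1) ⊕ Fin (k + 1) → ZMod 2) → ZMod 2, (∀ u v : (Fin (k + 1) ⊕ Fin (k + 1) → ZMod 2), q (u + v) = q u + q v + (Cfsg.quadFormPlus (k + 1) (ZMod 2) (u + v) - Cfsg.quadFormPlus (k + 1) (ZMod 2) u - Cfsg.quadFormPlus (k + 1) (ZMod 2) v)) →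
      (∃ g : (Fin (k + 1) ⊕ Fin (k + 1) → ZMod 2) ≃ₗ[ZMod 2] (Fin (k + 1) ⊕ Fin (k + 1) → ZMod 2), ∀ v, q v = Cfsg.quadFormPlus (k + 1) (ZMod 2) (g v)) ∨
      (∃ g : (Fin (k + 1) ⊕ Fin (k + 1) → ZMod 2) ≃ₗ[ZMod 2] ((Fin k ⊕ Fin k) ⊕ Fin 2 → ZMod 2), ∀ v, q v = Cfsg.quadFormMinus k (ZMod 2) 1 1 (g v))) ∧
    Nat.card {q : (Fin (k + 1) ⊕ Fin (k + 1) → ZMod 2) → ZMod 2 // (∀ u v : (Fin (k + 1) ⊕ Fin (k + 1) → ZMod 2), q (u + v) = q u + q v + (Cfsg.quadFormPlus (k + 1) (ZMod 2) (u + v) - Cfsg.quadFormPlus (k + 1) (ZMod 2) u - Cfsg.quadFormPlus (k + 1) (ZMod 2) v)) ∧ ∃ g : (Fin (k + 1) ⊕ Fin (k + 1) → ZMod 2) ≃ₗ[ZMod 2] (Fin (k + 1) ⊕ Fin (k + 1) → ZMod 2), ∀ v, q v = Cfsg.quadFormPlus (k + 1) (ZMod 2) (g v)} = 2 ^ (2 * (k + 1) - 1) + 2 ^ (k + 1 - 1) ∧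
    Nat.card {q : (Fin (k + 1) ⊕ Fin (k + 1) → ZMod 2) → ZMod 2 // (∀ u v : (Fin (k + 1) ⊕ Fin (k + 1) → ZMod 2), q (u + v) = q u + q v + (Cfsg.quadFormPlus (k + 1) (ZMod 2) (u + v) - Cfsg.quadFormPlus (k + 1) (ZMod 2) u - Cfsg.quadFormPlus (k + 1) (ZMod 2) v)) ∧ ∃ g : (Fin (k + 1) ⊕ Fin (k + 1) → ZMod 2) ≃ₗ[ZMod 2] ((Fin k ⊕ Fin k) ⊕ Fin 2 → ZMod 2), ∀ v, q v = Cfsg.quadFormMinus k (ZMod 2) 1 1 (g v)} = 2 ^ (2 * (k + 1) - 1) - 2 ^ (k + 1 - 1) := by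
  classical
  have hm : 1 ≤ k + 1 := by omega
  simp only [polar_eq]
  refine ⟨?_, ?_, ?_, ?_⟩
  · have E : (Fin (k + 1) ⊕ Fin (k + 1) → ZMod 2) ≃
        {q : (Fin (k + 1) ⊕ Fin (k + 1) → ZMod 2) → ZMod 2 //
          ∀ u v, q (u + v) = q u + q v + Bp (k + 1) u v} :=
      Equiv.ofBijective (fun w => ⟨qw (k + 1) w, qw_polar (k + 1) w⟩)
        ⟨fun w w' h => qw_inj _ _ _ (congrArg Subtype.val h), fun ⟨q, hq⟩ => by
          obtain ⟨w, rfl⟩ := exists_w _ q hq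
          exact ⟨w, rfl⟩⟩
    rw [← Nat.card_congr E, Nat.card_eq_fintype_card, card_plus]
  · intro q hq
    obtain ⟨w, rfl⟩ := exists_w _ q hq
    rcases zmod2_cases (Cfsg.quadFormPlus (k + 1) (ZMod 2) w) with h | h
    · left
      exact (plus_iff (k + 1) hm w).2 h
    · right
      exact minus_of k w h
  · have E : {w : Fin (k + 1) ⊕ Fin (k + 1) → ZMod 2 // Cfsg.quadFormPlus (k + 1) (ZMod 2) w = 0} ≃
        {q : (Fin (k + 1) ⊕ Fin (k + 1) → ZMod 2) → ZMod 2 //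
          (∀ u v, q (u + v) = q u + q v + Bp (k + 1) u v) ∧
          ∃ g : (Fin (k + 1) ⊕ Fin (k + 1) → ZMod 2) ≃ₗ[ZMod 2] (Fin (k + 1) ⊕ Fin (k + 1) → ZMod 2),
            ∀ v, q v = Cfsg.quadFormPlus (k + 1) (ZMod 2) (g v)} :=
      Equiv.ofBijective (fun w => ⟨qw (k + 1) w.1, qw_polar (k + 1) w.1, (plus_iff (k + 1) hm w.1).2 w.2⟩)
        ⟨fun w w' h => Subtype.ext (qw_inj _ _ _ (congrArg Subtype.val h)), fun ⟨q, hq, hg⟩ => by
          obtain ⟨w, rfl⟩ := exists_w _ q hq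
          exact ⟨⟨w, (plus_iff (k + 1) hm w).1 hg⟩, rfl⟩⟩
    rw [← Nat.card_congr E, Nat.card_eq_fintype_card, Fintype.card_subtype]
    exact (count_zero (k + 1) hm).1
  · have E : {w : Fin (k + 1) ⊕ Fin (k + 1) → ZMod 2 // Cfsg.quadFormPlus (k + 1) (ZMod 2) w = 1} ≃
        {q : (Fin (k + 1) ⊕ Fin (k + 1) → ZMod 2) → ZMod 2 //
          (∀ u v, q (u + v) = q u + q v + Bp (k + 1) u v) ∧
          ∃ g : (Fin (k + 1) ⊕ Fin (k + 1) → ZMod 2) ≃ₗ[ZMod 2] ((Fin k ⊕ Fin k) ⊕ Fin 2 → ZMod 2),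
            ∀ v, q v = Cfsg.quadFormMinus k (ZMod 2) 1 1 (g v)} :=
      Equiv.ofBijective (fun w => ⟨qw (k + 1) w.1, qw_polar (k + 1) w.1, minus_of k w.1 w.2⟩)
        ⟨fun w w' h => Subtype.ext (qw_inj _ _ _ (congrArg Subtype.val h)), fun ⟨q, hq, hg⟩ => by
          obtain ⟨w, rfl⟩ := exists_w _ q hq
          rcases zmod2_cases (Cfsg.quadFormPlus (k + 1) (ZMod 2) w) with h | h
          · exact (not_both k _ ((plus_iff (k + 1) hm w).2 h) hg).elim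
          · exact ⟨⟨w, h⟩, rfl⟩⟩
    rw [← Nat.card_congr E, Nat.card_eq_fintype_card, Fintype.card_subtype]
    exact (count_zero (k + 1) hm).2

/-- Fix the non-singular alternating form on the 2m-dimensional space over the field of two elements obtained by polarizing the plus-type form Σ xᵢyᵢ (m ≥ 1). The functions q on the space with q(u + v) = q(u) + q(v) + f(u, v) (the quadratic forms polarizing to f) number 2^(2m); each is equivalent under an invertible linear map either to the plus-type form or to the minus-type form Σ xᵢyᵢ + (z₁² + z₁z₂ + z₂²); and those of plus type number 2^(2m−1) + 2^(m−1), those of minus type 2^(2m−1) − 2^(m−1). -/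
theorem result (m : ℕ) (hm : 1 ≤ m) :
    Nat.card {q : (Fin m ⊕ Fin m → ZMod 2) → ZMod 2 // (∀ u v : (Fin m ⊕ Fin m → ZMod 2), q (u + v) = q u + q v + (Cfsg.quadFormPlus m (ZMod 2) (u + v) - Cfsg.quadFormPlus m (ZMod 2) u - Cfsg.quadFormPlus m (ZMod 2) v))} = 2 ^ (2 * m) ∧
    (∀ q : (Fin m ⊕ Fin m → ZMod 2) → ZMod 2, (∀ u v : (Fin m ⊕ Fin m → ZMod 2), q (u + v) = q u + q v + (Cfsg.quadFormPlus m (ZMod 2) (u + v) - Cfsg.quadFormPlus m (ZMod 2) u - Cfsg.quadFormPlus m (ZMod 2) v)) →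
      (∃ g : (Fin m ⊕ Fin m → ZMod 2) ≃ₗ[ZMod 2] (Fin m ⊕ Fin m → ZMod 2), ∀ v, q v = Cfsg.quadFormPlus m (ZMod 2) (g v)) ∨
      (∃ g : (Fin m ⊕ Fin m → ZMod 2) ≃ₗ[ZMod 2] ((Fin (m - 1) ⊕ Fin (m - 1)) ⊕ Fin 2 → ZMod 2), ∀ v, q v = Cfsg.quadFormMinus (m - 1) (ZMod 2) 1 1 (g v))) ∧
    Nat.card {q : (Fin m ⊕ Fin m → ZMod 2) → ZMod 2 // (∀ u v : (Fin m ⊕ Fin m → ZMod 2), q (u + v) = q u + q v + (Cfsg.quadFormPlus m (ZMod 2) (u + v) - Cfsg.quadFormPlus m (ZMod 2) u - Cfsg.quadFormPlus m (ZMod 2) v)) ∧ ∃ g : (Fin m ⊕ Fin m → ZMod 2) ≃ₗ[ZMod 2] (Fin m ⊕ Fin m → ZMod 2), ∀ v, q v = Cfsg.quadFormPlus m (ZMod 2) (g v)} = 2 ^ (2 * m - 1) + 2 ^ (m - 1) ∧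
    Nat.card {q : (Fin m ⊕ Fin m → ZMod 2) → ZMod 2 // (∀ u v : (Fin m ⊕ Fin m → ZMod 2), q (u + v) = q u + q v + (Cfsg.quadFormPlus m (ZMod 2) (u + v) - Cfsg.quadFormPlus m (ZMod 2) u - Cfsg.quadFormPlus m (ZMod 2) v)) ∧ ∃ g : (Fin m ⊕ Fin m → ZMod 2) ≃ₗ[ZMod 2] ((Fin (m - 1) ⊕ Fin (m - 1)) ⊕ Fin 2 → ZMod 2), ∀ v, q v = Cfsg.quadFormMinus (m - 1) (ZMod 2) 1 1 (g v)} = 2 ^ (2 * m - 1) - 2 ^ (m - 1) := by
  obtain ⟨k, rfl⟩ : ∃ k, m = k + 1 := ⟨m - 1, by omega⟩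
  exact main k

end Cfsg.Agent.S2561
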