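import Cfsg.Statements.S2562
import Mathlib
import Cfsg.Agent.Lib.Helper50.GaussF2

set_option autoImplicit false
open Cfsg

namespace Cfsg.Agent.S2562

open Cfsg.Agent.Lib.Helper50

/-- Witt indices over the field of two elements, m ≥ 1: for the plus-type form Σ xᵢyᵢ in dimension 2m some m-dimensional subspace is totally singular and no totally singular subspace has larger dimension; for the minus-type form Σ xᵢyᵢ + (z₁² + z₁z₂ + z₂²) in dimension 2m the maximal dimension of a totally singular subspace is m − 1. -/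
theorem result (m : ℕ) (hm : 1 ≤ m) :
    (∃ U : Submodule (ZMod 2) (Fin m ⊕ Fin m → ZMod 2), (∀ u ∈ U, Cfsg.quadFormPlus m (ZMod 2) u = 0) ∧ Module.finrank (ZMod 2) ↥U = m) ∧
    (∀ U : Submodule (ZMod 2) (Fin m ⊕ Fin m → ZMod 2), (∀ u ∈ U, Cfsg.quadFormPlus m (ZMod 2) u = 0) → Module.finrank (ZMod 2) ↥U ≤ m) ∧
    (∃ U : Submodule (ZMod 2) ((Fin (m - 1) ⊕ Fin (m - 1)) ⊕ Fin 2 → ZMod 2), (∀ u ∈ U, Cfsg.quadFormMinus (m - 1) (ZMod 2) 1 1 u = 0) ∧ Module.finrank (ZMod 2) ↥U = m - 1) ∧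
    (∀ U : Submodule (ZMod 2) ((Fin (m - 1) ⊕ Fin (m - 1)) ⊕ Fin 2 → ZMod 2), (∀ u ∈ U, Cfsg.quadFormMinus (m - 1) (ZMod 2) 1 1 u = 0) → Module.finrank (ZMod 2) ↥U ≤ m - 1) := by
  refine ⟨⟨LinearMap.range (ιp m), qfp_ιp m, finrank_range_ιp m⟩, ?_,
    ⟨LinearMap.range (ιm (m - 1)), qfm_ιm (m - 1), finrank_range_ιm (m - 1)⟩, ?_⟩
  · intro U hU
    have h := card_sq_le (Cfsg.quadFormPlus m (ZMod 2)) (Bp m) (qfp_polar m) (Bp_add_left m)
      (Bp_add_right m) (Bp_nondeg m) U hU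
    rw [card_filter_mem, card_plus, ← pow_mul] at h
    have := (Nat.pow_le_pow_iff_right (by norm_num : 1 < 2)).1 h
    omega
  · intro U hU
    by_contra hlt
    have hge : m ≤ Module.finrank (ZMod 2) ↥U := by omega
    have h := gauss_eq_card (Cfsg.quadFormMinus (m - 1) (ZMod 2) 1 1) (Bm (m - 1))
      (qfm_polar (m - 1)) (Bm_add_left _) (Bm_add_right _) (Bm_nondeg _) U hU (by
        rw [card_filter_mem, card_minus, ← pow_mul]
        apply Nat.pow_le_pow_right (by norm_num)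
        omega)
    rw [gauss_minus] at h
    have h1 : (0 : ℤ) < 2 ^ (m - 1 + 1) := by positivity
    have h2 := h.symm ▸ (Nat.cast_nonneg _ : (0 : ℤ) ≤ _)
    linarith

end Cfsg.Agent.S2562
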