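import Mathlib
import Cfsg.Statements.S2563
import Cfsg.Agent.Lib.Helper50.GaussF2
import Cfsg.Agent.S2561

set_option autoImplicit false
open Cfsg

namespace Cfsg.Agent.S2563

open Cfsg.Agent.Lib.Helper50
open Matrix

section weights
variable {N : ℕ}

/-- Hamming weight -/
def wt (x : Fin N → ZMod 2) : ℕ := ∑ j, (x j).val

/-- coordinate sum -/
def sm (x : Fin N → ZMod 2) : ZMod 2 := ∑ j, x j

/-- half the weight mod 2 -/
def qh (x : Fin N → ZMod 2) : ZMod 2 := ((wt x / 2 : ℕ) : ZMod 2)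

/-- permutation action -/
def rho (σ : Equiv.Perm (Fin N)) : (Fin N → ZMod 2) →ₗ[ZMod 2] (Fin N → ZMod 2) :=
  LinearMap.funLeft (ZMod 2) (ZMod 2) σ.symm

theorem rho_apply (σ : Equiv.Perm (Fin N)) (x : Fin N → ZMod 2) (j : Fin N) :
    rho σ x j = x (σ.symm j) := rfl

theorem rho_mul (σ τ : Equiv.Perm (Fin N)) (x : Fin N → ZMod 2) :
    rho (σ * τ) x = rho σ (rho τ x) := rfl

theorem rho_one (x : Fin N → ZMod 2) : rho (1 : Equiv.Perm (Fin N)) x = x := rfl

theorem rho_const (σ : Equiv.Perm (Fin N)) : rho σ (1 : Fin N → ZMod 2) = 1 := rfl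

theorem sm_eq_wt (x : Fin N → ZMod 2) : sm x = (wt x : ZMod 2) := by
  unfold sm wt
  rw [Nat.cast_sum]
  apply Finset.sum_congr rfl
  intro j _
  exact (ZMod.natCast_zmod_val (x j)).symm

theorem even_wt (x : Fin N → ZMod 2) (h : sm x = 0) : Even (wt x) := by
  rw [sm_eq_wt] at h
  exact (ZMod.natCast_eq_zero_iff_even).1 h

theorem wt_add (x y : Fin N → ZMod 2) :
    wt (x + y) + 2 * ∑ j, (x j).val * (y j).val = wt x + wt y := by
  unfold wt
  rw [Finset.mul_sum, ← Finset.sum_add_distrib, ← Finset.sum_add_distrib]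
  apply Finset.sum_congr rfl
  intro j _
  have : ∀ a b : ZMod 2, (a + b).val + 2 * (a.val * b.val) = a.val + b.val := by decide
  exact this _ _

theorem dot_eq (x y : Fin N → ZMod 2) :
    x ⬝ᵥ y = ((∑ j, (x j).val * (y j).val : ℕ) : ZMod 2) := by
  unfold dotProduct
  rw [Nat.cast_sum]
  apply Finset.sum_congr rfl
  intro j _
  rw [Nat.cast_mul, ZMod.natCast_zmod_val, ZMod.natCast_zmod_val]

theorem qh_add (x y : Fin N → ZMod 2) (hx : sm x = 0) (hy : sm y = 0) :
    qh (x + y) = qh x + qh y + x ⬝ᵥ y := by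
  obtain ⟨a, ha⟩ := even_wt x hx
  obtain ⟨b, hb⟩ := even_wt y hy
  have h := wt_add x y
  rw [dot_eq]
  unfold qh
  set c := ∑ j, (x j).val * (y j).val with hc
  have h1 : wt (x + y) / 2 + c = a + b := by omega
  have h2 : wt x / 2 = a := by omega
  have h3 : wt y / 2 = b := by omega
  rw [h2, h3]
  have h4 : ((wt (x + y) / 2 : ℕ) : ZMod 2) + (c : ZMod 2) = (a : ZMod 2) + (b : ZMod 2) := by
    rw [← Nat.cast_add, h1, Nat.cast_add]
  have : ∀ p q r s : ZMod 2, p + q = r + s → p = r + s + q := by decide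
  exact this _ _ _ _ h4

theorem wt_rho (σ : Equiv.Perm (Fin N)) (x : Fin N → ZMod 2) : wt (rho σ x) = wt x := by
  unfold wt
  exact Equiv.sum_comp σ.symm (fun j => (x j).val)

theorem qh_rho (σ : Equiv.Perm (Fin N)) (x : Fin N → ZMod 2) : qh (rho σ x) = qh x := by
  unfold qh
  rw [wt_rho]

theorem sm_rho (σ : Equiv.Perm (Fin N)) (x : Fin N → ZMod 2) : sm (rho σ x) = sm x := by
  rw [sm_eq_wt, sm_eq_wt, wt_rho]

theorem wt_one : wt (1 : Fin N → ZMod 2) = N := by
  unfold wt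
  simp [ZMod.val_one]

theorem sm_add (x y : Fin N → ZMod 2) : sm (x + y) = sm x + sm y := by
  unfold sm
  rw [← Finset.sum_add_distrib]
  rfl

theorem dot_one (x : Fin N → ZMod 2) : x ⬝ᵥ (1 : Fin N → ZMod 2) = sm x := by
  unfold sm dotProduct
  simp

/-- zero extension -/
def ye (y : Fin N → ZMod 2) (p : ℕ) : ZMod 2 := if h : p < N then y ⟨p, h⟩ else 0

theorem ye_lt (y : Fin N → ZMod 2) (p : ℕ) (h : p < N) : ye y p = y ⟨p, h⟩ := dif_pos h

theorem ye_val (y : Fin N → ZMod 2) (j : Fin N) : ye y j = y j := by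
  rw [ye_lt y j j.2]

theorem sum_ite_val (y : Fin N → ZMod 2) (p : ℕ) :
    ∑ j : Fin N, (if (j : ℕ) = p then y j else 0) = ye y p := by
  by_cases h : p < N
  · rw [ye_lt y p h, Finset.sum_eq_single ⟨p, h⟩]
    · simp
    · intro j _ hj
      have : (j : ℕ) ≠ p := fun h' => hj (Fin.ext h')
      rw [if_neg this]
    · simp
  · have : ye y p = 0 := dif_neg h
    rw [this]
    apply Finset.sum_eq_zero
    intro j _
    have : (j : ℕ) ≠ p := by have := j.2; omega
    rw [if_neg this]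

/-- the pair vector `e_p + e_(p+1)` -/
def pv (N : ℕ) (p : ℕ) : Fin N → ZMod 2 := fun j => if (j : ℕ) = p ∨ (j : ℕ) = p + 1 then 1 else 0

theorem pv_dot (p : ℕ) (y : Fin N → ZMod 2) : pv N p ⬝ᵥ y = ye y p + ye y (p + 1) := by
  rw [← sum_ite_val y p, ← sum_ite_val y (p + 1), ← Finset.sum_add_distrib]
  unfold dotProduct
  apply Finset.sum_congr rfl
  intro j _
  unfold pv
  by_cases h1 : (j : ℕ) = p
  · have h2 : (j : ℕ) ≠ p + 1 := by omega
    simp [h1]
  · by_cases h2 : (j : ℕ) = p + 1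
    · simp [h2]
    · simp [h1, h2]

end weights


section basis
variable (N m : ℕ)

/-- the interval vector -/
def bv (i : ℕ) : Fin N → ZMod 2 :=
  fun j => if 2 * i + 1 ≤ (j : ℕ) ∧ (j : ℕ) ≤ 2 * m then 1 else 0

/-- the vector `e_p + e_q` -/
def ev2 (p q : Fin N) : Fin N → ZMod 2 := fun j => if j = p ∨ j = q then 1 else 0

variable {N}

theorem wt_ev2 (p q : Fin N) (hpq : p ≠ q) : wt (ev2 N p q) = 2 := by
  unfold wt ev2
  have h : ∀ j : Fin N, (if j = p ∨ j = q then (1 : ZMod 2) else 0).val =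
      (if j = p then 1 else 0) + (if j = q then 1 else 0) := by
    intro j
    by_cases h1 : j = p
    · have h2 : ¬ j = q := fun h => hpq (h1.symm.trans h)
      rw [if_pos (Or.inl h1), if_pos h1, if_neg h2]
      rfl
    · by_cases h2 : j = q
      · rw [if_pos (Or.inr h2), if_neg h1, if_pos h2]
        rfl
      · rw [if_neg (by tauto), if_neg h1, if_neg h2]
        rfl
  simp_rw [h]
  rw [Finset.sum_add_distrib]
  simp

theorem pv_eq_ev2 (p : ℕ) (hp : p + 1 < N) :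
    pv N p = ev2 N ⟨p, by omega⟩ ⟨p + 1, hp⟩ := by
  funext j
  unfold pv ev2
  simp only [Fin.ext_iff]

theorem wt_pv (p : ℕ) (hp : p + 1 < N) : wt (pv N p) = 2 := by
  rw [pv_eq_ev2 p hp]
  apply wt_ev2
  intro h
  have := congrArg Fin.val h
  simp at this

theorem sm_pv (p : ℕ) (hp : p + 1 < N) : sm (pv N p) = 0 := by
  rw [sm_eq_wt, wt_pv p hp]
  rfl

theorem qh_pv (p : ℕ) (hp : p + 1 < N) : qh (pv N p) = 1 := by
  unfold qh
  rw [wt_pv p hp]
  rfl

variable {m}

theorem wt_bv (i : ℕ) (hN : 2 * m < N) : wt (bv N m i) = 2 * m - 2 * i := by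
  unfold wt bv
  have h : ∀ j : Fin N, (if 2 * i + 1 ≤ (j : ℕ) ∧ (j : ℕ) ≤ 2 * m then (1 : ZMod 2) else 0).val =
      if 2 * i + 1 ≤ (j : ℕ) ∧ (j : ℕ) ≤ 2 * m then 1 else 0 := by
    intro j
    split_ifs <;> rfl
  simp_rw [h]
  rw [Fin.sum_univ_eq_sum_range (fun p => if 2 * i + 1 ≤ p ∧ p ≤ 2 * m then 1 else 0) N,
    Finset.sum_boole]
  have h2 : (Finset.range N).filter (fun p => 2 * i + 1 ≤ p ∧ p ≤ 2 * m) =
      Finset.Icc (2 * i + 1) (2 * m) := by
    ext p
    simp only [Finset.mem_filter, Finset.mem_range, Finset.mem_Icc]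
    omega
  rw [h2, Nat.card_Icc, Nat.cast_id]
  omega

theorem sm_bv (i : ℕ) (hN : 2 * m < N) : sm (bv N m i) = 0 := by
  rw [sm_eq_wt, wt_bv i hN]
  exact (ZMod.natCast_eq_zero_iff_even).2 ⟨m - i, by omega⟩

theorem qh_bv (i : ℕ) (hN : 2 * m < N) : qh (bv N m i) = ((m - i : ℕ) : ZMod 2) := by
  unfold qh
  rw [wt_bv i hN]
  congr 1
  omega

theorem pv_pv (i j : ℕ) (hi : 2 * i + 1 < N) :
    pv N (2 * i) ⬝ᵥ pv N (2 * j) = 0 := by
  rw [pv_dot, ye_lt _ _ (by omega), ye_lt _ _ hi]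
  show (if 2 * i = 2 * j ∨ 2 * i = 2 * j + 1 then (1 : ZMod 2) else 0) +
    (if 2 * i + 1 = 2 * j ∨ 2 * i + 1 = 2 * j + 1 then (1 : ZMod 2) else 0) = 0
  by_cases h : i = j
  · rw [if_pos (by omega), if_pos (by omega)]
    rfl
  · rw [if_neg (by omega), if_neg (by omega)]
    rfl

theorem pv_bv (i j : ℕ) (hi : i < m) (hN : 2 * m < N) :
    pv N (2 * i) ⬝ᵥ bv N m j = if i = j then 1 else 0 := by
  rw [pv_dot, ye_lt _ _ (by omega), ye_lt _ _ (by omega)]
  show (if 2 * j + 1 ≤ 2 * i ∧ 2 * i ≤ 2 * m then (1 : ZMod 2) else 0) +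
    (if 2 * j + 1 ≤ 2 * i + 1 ∧ 2 * i + 1 ≤ 2 * m then (1 : ZMod 2) else 0) = _
  rcases lt_trichotomy i j with h | h | h
  · rw [if_neg (by omega), if_neg (by omega), if_neg (by omega)]
    rfl
  · rw [if_neg (by omega), if_pos (by omega), if_pos h]
    rfl
  · rw [if_pos (by omega), if_pos (by omega), if_neg (by omega)]
    rfl

theorem bv_bv_le (i j : ℕ) (hij : i ≤ j) (hN : 2 * m < N) :
    bv N m i ⬝ᵥ bv N m j = 0 := by
  have h : bv N m i ⬝ᵥ bv N m j = sm (bv N m j) := by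
    unfold dotProduct sm
    apply Finset.sum_congr rfl
    intro p _
    show (if 2 * i + 1 ≤ (p : ℕ) ∧ (p : ℕ) ≤ 2 * m then (1 : ZMod 2) else 0) *
      (if 2 * j + 1 ≤ (p : ℕ) ∧ (p : ℕ) ≤ 2 * m then (1 : ZMod 2) else 0) =
      (if 2 * j + 1 ≤ (p : ℕ) ∧ (p : ℕ) ≤ 2 * m then (1 : ZMod 2) else 0)
    by_cases h1 : 2 * j + 1 ≤ (p : ℕ) ∧ (p : ℕ) ≤ 2 * m
    · rw [if_pos h1, if_pos (by omega)]
      rfl
    · rw [if_neg h1, mul_zero]
  rw [h, sm_bv j hN]

theorem bv_bv (i j : ℕ) (hN : 2 * m < N) : bv N m i ⬝ᵥ bv N m j = 0 := by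
  rcases le_total i j with h | h
  · exact bv_bv_le i j h hN
  · rw [dotProduct_comm]
    exact bv_bv_le j i h hN

theorem bv_succ (i : ℕ) (hi : i < m) : bv N m i = bv N m (i + 1) + pv N (2 * i + 1) := by
  funext j
  show (if 2 * i + 1 ≤ (j : ℕ) ∧ (j : ℕ) ≤ 2 * m then (1 : ZMod 2) else 0) =
    (if 2 * (i + 1) + 1 ≤ (j : ℕ) ∧ (j : ℕ) ≤ 2 * m then (1 : ZMod 2) else 0) +
    (if (j : ℕ) = 2 * i + 1 ∨ (j : ℕ) = 2 * i + 1 + 1 then (1 : ZMod 2) else 0)
  by_cases hB : 2 * (i + 1) + 1 ≤ (j : ℕ) ∧ (j : ℕ) ≤ 2 * m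
  · rw [if_pos (by omega), if_pos hB, if_neg (by omega)]
    rfl
  · by_cases hC : (j : ℕ) = 2 * i + 1 ∨ (j : ℕ) = 2 * i + 1 + 1
    · rw [if_pos (by omega), if_neg hB, if_pos hC]
      rfl
    · rw [if_neg (by omega), if_neg hB, if_neg hC]
      rfl

theorem bv_top : bv N m m = 0 := by
  funext j
  show (if 2 * m + 1 ≤ (j : ℕ) ∧ (j : ℕ) ≤ 2 * m then (1 : ZMod 2) else 0) = 0
  rw [if_neg (by omega)]

end basis


section maps
variable (N m : ℕ)

/-- dot product with a fixed vector, as a linear functional -/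
def dotL (y : Fin N → ZMod 2) : (Fin N → ZMod 2) →ₗ[ZMod 2] ZMod 2 where
  toFun x := x ⬝ᵥ y
  map_add' a b := add_dotProduct a b y
  map_smul' c a := smul_dotProduct c a y

/-- coordinates to vectors -/
def JJ : (Fin m ⊕ Fin m → ZMod 2) →ₗ[ZMod 2] (Fin N → ZMod 2) :=
  ∑ i : Fin m, ((LinearMap.proj (Sum.inl i)).smulRight (pv N (2 * i)) +
    (LinearMap.proj (Sum.inr i)).smulRight (bv N m i))

/-- vectors to coordinates -/
def LL : (Fin N → ZMod 2) →ₗ[ZMod 2] (Fin m ⊕ Fin m → ZMod 2) :=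
  LinearMap.pi (fun c => Sum.elim (fun i : Fin m => dotL N (bv N m i))
    (fun i : Fin m => dotL N (pv N (2 * i))) c)

variable {N m}

theorem JJ_apply (v : Fin m ⊕ Fin m → ZMod 2) :
    JJ N m v = ∑ i : Fin m, (v (Sum.inl i) • pv N (2 * i) + v (Sum.inr i) • bv N m i) := by
  unfold JJ
  rw [LinearMap.sum_apply]
  rfl

theorem LL_inl (x : Fin N → ZMod 2) (i : Fin m) : LL N m x (Sum.inl i) = x ⬝ᵥ bv N m i := rfl

theorem LL_inr (x : Fin N → ZMod 2) (i : Fin m) : LL N m x (Sum.inr i) = x ⬝ᵥ pv N (2 * i) := rfl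

theorem JJ_dot (v : Fin m ⊕ Fin m → ZMod 2) (y : Fin N → ZMod 2) :
    JJ N m v ⬝ᵥ y = ∑ i : Fin m, (v (Sum.inl i) * (pv N (2 * i) ⬝ᵥ y) +
      v (Sum.inr i) * (bv N m i ⬝ᵥ y)) := by
  rw [JJ_apply, sum_dotProduct]
  apply Finset.sum_congr rfl
  intro i _
  rw [add_dotProduct, smul_dotProduct, smul_dotProduct, smul_eq_mul, smul_eq_mul]

theorem LL_JJ (hN : N = 2 * m + 2) (v : Fin m ⊕ Fin m → ZMod 2) : LL N m (JJ N m v) = v := by
  funext c
  rcases c with j | j
  · rw [LL_inl, JJ_dot, Finset.sum_eq_single j]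
    · rw [pv_bv _ _ j.2 (by omega), if_pos rfl, bv_bv _ _ (by omega), mul_one, mul_zero, add_zero]
    · intro i _ hij
      have : (i : ℕ) ≠ j := fun h => hij (Fin.ext h)
      rw [pv_bv _ _ i.2 (by omega), if_neg this, bv_bv _ _ (by omega), mul_zero, mul_zero,
        add_zero]
    · intro h
      exact absurd (Finset.mem_univ j) h
  · rw [LL_inr, JJ_dot, Finset.sum_eq_single j]
    · rw [pv_pv _ _ (by have := j.2; omega), dotProduct_comm (bv N m j),
        pv_bv _ _ j.2 (by omega), if_pos rfl, mul_zero, mul_one, zero_add]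
    · intro i _ hij
      have : (j : ℕ) ≠ i := fun h => hij (Fin.ext h.symm)
      rw [pv_pv _ _ (by have := i.2; omega), dotProduct_comm (bv N m i),
        pv_bv _ _ j.2 (by omega), if_neg this, mul_zero, mul_zero, add_zero]
    · intro h
      exact absurd (Finset.mem_univ j) h

theorem JJ_JJ (hN : N = 2 * m + 2) (u v : Fin m ⊕ Fin m → ZMod 2) :
    JJ N m u ⬝ᵥ JJ N m v = Bp m u v := by
  rw [JJ_dot, Bp]
  apply Finset.sum_congr rfl
  intro i _
  have h1 : pv N (2 * i) ⬝ᵥ JJ N m v = v (Sum.inr i) := by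
    rw [dotProduct_comm, ← LL_inr, LL_JJ hN]
  have h2 : bv N m i ⬝ᵥ JJ N m v = v (Sum.inl i) := by
    rw [dotProduct_comm, ← LL_inl, LL_JJ hN]
  rw [h1, h2]
  ring

theorem sm_JJ (hN : N = 2 * m + 2) (v : Fin m ⊕ Fin m → ZMod 2) : sm (JJ N m v) = 0 := by
  rw [← dot_one, JJ_dot]
  apply Finset.sum_eq_zero
  intro i _
  rw [dot_one, dot_one, sm_pv _ (by have := i.2; omega), sm_bv _ (by omega), mul_zero, mul_zero,
    add_zero]

theorem LL_one (hN : N = 2 * m + 2) : LL N m (1 : Fin N → ZMod 2) = 0 := by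
  funext c
  rcases c with j | j
  · rw [LL_inl, dotProduct_comm, dot_one, sm_bv _ (by omega)]
    rfl
  · rw [LL_inr, dotProduct_comm, dot_one, sm_pv _ (by have := j.2; omega)]
    rfl

theorem JJ_last (hN : N = 2 * m + 2) (v : Fin m ⊕ Fin m → ZMod 2) :
    JJ N m v ⟨2 * m + 1, by omega⟩ = 0 := by
  rw [JJ_apply, Finset.sum_apply]
  apply Finset.sum_eq_zero
  intro i _
  have h1 : pv N (2 * i) ⟨2 * m + 1, by omega⟩ = 0 := by
    show (if 2 * m + 1 = 2 * (i : ℕ) ∨ 2 * m + 1 = 2 * (i : ℕ) + 1 then (1 : ZMod 2) else 0) = 0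
    rw [if_neg (by have := i.2; omega)]
  have h2 : bv N m i ⟨2 * m + 1, by omega⟩ = 0 := by
    show (if 2 * (i : ℕ) + 1 ≤ 2 * m + 1 ∧ 2 * m + 1 ≤ 2 * m then (1 : ZMod 2) else 0) = 0
    rw [if_neg (by omega)]
  rw [Pi.add_apply, Pi.smul_apply, Pi.smul_apply, h1, h2, smul_zero, smul_zero, add_zero]

/-- a vector of even weight orthogonal to the symplectic basis is constant -/
theorem const_of_LL (hN : N = 2 * m + 2) (y : Fin N → ZMod 2) (hs : sm y = 0)
    (hL : LL N m y = 0) : y = 0 ∨ y = 1 := by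
  have ha : ∀ i : ℕ, i < m → ye y (2 * i) + ye y (2 * i + 1) = 0 := by
    intro i hi
    have := congrFun hL (Sum.inr ⟨i, hi⟩)
    rw [LL_inr, dotProduct_comm, pv_dot] at this
    exact this
  have hb : ∀ i : ℕ, i ≤ m → y ⬝ᵥ bv N m i = 0 := by
    intro i hi
    rcases Nat.lt_or_ge i m with h | h
    · have := congrFun hL (Sum.inl ⟨i, h⟩)
      rw [LL_inl] at this
      exact this
    · have : i = m := by omega
      rw [this, bv_top, dotProduct_zero]
  have hc : ∀ i : ℕ, i < m → ye y (2 * i + 1) + ye y (2 * i + 1 + 1) = 0 := by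
    intro i hi
    have h1 := hb i (by omega)
    rw [bv_succ i hi, dotProduct_add, hb (i + 1) (by omega), zero_add, dotProduct_comm,
      pv_dot] at h1
    exact h1
  have hstep : ∀ p : ℕ, p < 2 * m → ye y (p + 1) = ye y p := by
    intro p hp
    have key : ∀ a b : ZMod 2, a + b = 0 → b = a := by decide
    rcases Nat.even_or_odd' p with ⟨i, h | h⟩
    · rw [h]
      exact key _ _ (ha i (by omega))
    · rw [h]
      exact key _ _ (hc i (by omega))
  have hall : ∀ p : ℕ, p ≤ 2 * m → ye y p = ye y 0 := by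
    intro p
    induction p with
    | zero => intro _; rfl
    | succ p ih =>
      intro hp
      rw [hstep p (by omega), ih (by omega)]
  have hsum : sm y = ye y 0 + ye y (2 * m + 1) := by
    unfold sm
    have h1 : ∑ j : Fin N, y j = ∑ j : Fin N, ye y (j : ℕ) := by
      apply Finset.sum_congr rfl
      intro j _
      rw [ye_val]
    have hr : Finset.range N = Finset.range (2 * m + 1 + 1) := by rw [hN]
    rw [h1, Fin.sum_univ_eq_sum_range (fun p => ye y p) N, hr, Finset.sum_range_succ]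
    congr 1
    rw [Finset.sum_congr rfl (fun p hp => hall p (by
      have := Finset.mem_range.1 hp; omega)), Finset.sum_const, Finset.card_range, nsmul_eq_mul]
    have : ((2 * m + 1 : ℕ) : ZMod 2) = 1 := by
      push_cast
      have h2 : (2 : ZMod 2) = 0 := rfl
      rw [h2, zero_mul, zero_add]
    rw [this, one_mul]
  have hlast : ye y (2 * m + 1) = ye y 0 := by
    have key : ∀ a b : ZMod 2, a + b = 0 → b = a := by decide
    rw [hs] at hsum
    exact key _ _ hsum.symm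
  have hconst : ∀ j : Fin N, y j = ye y 0 := by
    intro j
    rw [← ye_val y j]
    by_cases hj : (j : ℕ) ≤ 2 * m
    · exact hall _ hj
    · have : (j : ℕ) = 2 * m + 1 := by have := j.2; omega
      rw [this, hlast]
  rcases zmod2_cases (ye y 0) with h | h
  · left
    funext j
    rw [hconst j, h]
    rfl
  · right
    funext j
    rw [hconst j, h]
    rfl

theorem JJ_LL (hN : N = 2 * m + 2) (x : Fin N → ZMod 2) (hs : sm x = 0) :
    JJ N m (LL N m x) = x ∨ JJ N m (LL N m x) = x + 1 := by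
  have key : ∀ a b : ZMod 2, a + b + b = a := by decide
  have h1 : sm (JJ N m (LL N m x) + x) = 0 := by
    rw [sm_add, sm_JJ hN, hs, add_zero]
  have h2 : LL N m (JJ N m (LL N m x) + x) = 0 := by
    rw [map_add, LL_JJ hN]
    funext c
    exact zmod2_add_self _
  rcases const_of_LL hN _ h1 h2 with h | h
  · left
    funext j
    have := congrFun h j
    rw [Pi.add_apply, Pi.zero_apply] at this
    have key2 : ∀ a b : ZMod 2, a + b = 0 → a = b := by decide
    exact key2 _ _ this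
  · right
    funext j
    have := congrFun h j
    rw [Pi.add_apply, Pi.one_apply] at this
    rw [Pi.add_apply, Pi.one_apply]
    have key2 : ∀ a b : ZMod 2, a + b = 1 → a = b + 1 := by decide
    exact key2 _ _ this

theorem JJ_LL_eq (hN : N = 2 * m + 2) (x : Fin N → ZMod 2) (hs : sm x = 0)
    (hx : x ⟨2 * m + 1, by omega⟩ = 0) : JJ N m (LL N m x) = x := by
  rcases JJ_LL hN x hs with h | h
  · exact h
  · exfalso
    have := congrFun h ⟨2 * m + 1, by omega⟩
    rw [JJ_last hN, Pi.add_apply, hx, Pi.one_apply, zero_add] at this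
    exact zero_ne_one this

end maps


theorem build {N : ℕ} {ι κ : Type} [Fintype ι] [DecidableEq ι] [Fintype κ] [DecidableEq κ]
    (Q : (κ → ZMod 2) → ZMod 2)
    (J : (ι → ZMod 2) →ₗ[ZMod 2] (Fin N → ZMod 2)) (L : (Fin N → ZMod 2) →ₗ[ZMod 2] (ι → ZMod 2))
    (g : (ι → ZMod 2) ≃ₗ[ZMod 2] (κ → ZMod 2))
    (hLJ : ∀ v, L (J v) = v)
    (hJL : ∀ (σ : Equiv.Perm (Fin N)) (v : ι → ZMod 2),
      J (L (rho σ (J v))) = rho σ (J v) ∨ J (L (rho σ (J v))) = rho σ (J v) + 1)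
    (hL1 : L (1 : Fin N → ZMod 2) = 0)
    (hQ : ∀ (σ : Equiv.Perm (Fin N)) (v : ι → ZMod 2), Q (g (L (rho σ (J v)))) = Q (g v))
    (hinj : ∀ σ : Equiv.Perm (Fin N), (∀ v, L (rho σ (J v)) = v) → σ = 1) :
    ∃ φ : Equiv.Perm (Fin N) →* ↥(Cfsg.isometryGroup (ZMod 2) Q), Function.Injective φ := by
  obtain ⟨h, h_apply⟩ : ∃ h : Equiv.Perm (Fin N) → ((κ → ZMod 2) →ₗ[ZMod 2] (κ → ZMod 2)),
      ∀ σ v, h σ v = g (L (rho σ (J (g.symm v)))) :=
    ⟨fun σ => g.toLinearMap ∘ₗ L ∘ₗ rho σ ∘ₗ J ∘ₗ g.symm.toLinearMap, fun σ v => rfl⟩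
  have h_one : h 1 = LinearMap.id := by
    apply LinearMap.ext
    intro v
    rw [h_apply, rho_one, hLJ, g.apply_symm_apply]
    rfl
  have h_mul : ∀ σ τ, h (σ * τ) = h σ ∘ₗ h τ := by
    intro σ τ
    apply LinearMap.ext
    intro v
    rw [LinearMap.comp_apply, h_apply, h_apply, h_apply, g.symm_apply_apply, rho_mul]
    congr 1
    rcases hJL τ (g.symm v) with e | e
    · rw [e]
    · rw [e, map_add, map_add, rho_const, hL1, add_zero]
  let M : Equiv.Perm (Fin N) →* Matrix κ κ (ZMod 2) :=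
    { toFun := fun σ => LinearMap.toMatrix' (h σ)
      map_one' := by rw [h_one, LinearMap.toMatrix'_id]
      map_mul' := fun σ τ => by rw [h_mul, LinearMap.toMatrix'_comp] }
  have hM : ∀ σ u, (M σ) *ᵥ u = h σ u := fun σ u => LinearMap.toMatrix'_mulVec (h σ) u
  have hmem : ∀ σ, M.toHomUnits σ ∈ Cfsg.isometryGroup (ZMod 2) Q := by
    intro σ u v
    show Q ((M σ) *ᵥ u) = Q u
    rw [hM, h_apply, hQ, g.apply_symm_apply]
  refine ⟨M.toHomUnits.codRestrict _ hmem, ?_⟩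
  rw [injective_iff_map_eq_one]
  intro σ hσ
  apply hinj
  intro v
  have h1 : M σ = 1 :=
    congrArg (fun x : ↥(Cfsg.isometryGroup (ZMod 2) Q) =>
      ((x : GL κ (ZMod 2)) : Matrix κ κ (ZMod 2))) hσ
  have h2 : h σ (g v) = g v := by rw [← hM, h1, Matrix.one_mulVec]
  rw [h_apply, g.symm_apply_apply] at h2
  exact g.injective h2

section inj
variable {N m : ℕ}

theorem add_eq_cases (a x : Fin N → ZMod 2) (h : a + x = 0 ∨ a + x = 1) :
    a = x ∨ a = x + 1 := by
  rcases h with h | h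
  · left
    funext j
    have := congrFun h j
    rw [Pi.add_apply, Pi.zero_apply] at this
    have key2 : ∀ a b : ZMod 2, a + b = 0 → a = b := by decide
    exact key2 _ _ this
  · right
    funext j
    have := congrFun h j
    rw [Pi.add_apply, Pi.one_apply] at this
    rw [Pi.add_apply, Pi.one_apply]
    have key2 : ∀ a b : ZMod 2, a + b = 1 → a = b + 1 := by decide
    exact key2 _ _ this

theorem wt_add_one (x : Fin N → ZMod 2) : wt (x + 1) + wt x = N := by
  have h := wt_add x 1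
  have h1 : ∑ j, (x j).val * ((1 : Fin N → ZMod 2) j).val = wt x := by
    unfold wt
    apply Finset.sum_congr rfl
    intro j _
    rw [Pi.one_apply]
    have : (1 : ZMod 2).val = 1 := rfl
    rw [this, mul_one]
  rw [h1, wt_one] at h
  omega

theorem perm_inj (hN : N = 2 * m + 2) (hm : 3 ≤ m) (σ : Equiv.Perm (Fin N))
    (h : ∀ v, LL N m (rho σ (JJ N m v)) = v) : σ = 1 := by
  have hA : ∀ x : Fin N → ZMod 2, sm x = 0 → x ⟨2 * m + 1, by omega⟩ = 0 →
      rho σ x = x ∨ rho σ x = x + 1 := by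
    intro x hs hl
    have hx := JJ_LL_eq hN x hs hl
    have h1 : LL N m (rho σ x) = LL N m x := by
      conv_lhs => rw [← hx]
      exact h _
    apply add_eq_cases
    apply const_of_LL hN
    · rw [sm_add, sm_rho, hs, add_zero]
    · rw [map_add, h1]
      funext c
      exact zmod2_add_self _
  have hB : ∀ p q : Fin N, p ≠ q → (p : ℕ) ≠ 2 * m + 1 → (q : ℕ) ≠ 2 * m + 1 →
      σ p = p ∨ σ p = q := by
    intro p q hpq hp hq
    have hs : sm (ev2 N p q) = 0 := by
      rw [sm_eq_wt, wt_ev2 p q hpq]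
      rfl
    have hl : ev2 N p q ⟨2 * m + 1, by omega⟩ = 0 := by
      show (if (⟨2 * m + 1, _⟩ : Fin N) = p ∨ (⟨2 * m + 1, _⟩ : Fin N) = q then (1 : ZMod 2)
        else 0) = 0
      rw [if_neg]
      rintro (h' | h')
      · exact hp (congrArg Fin.val h').symm
      · exact hq (congrArg Fin.val h').symm
    have hfix : rho σ (ev2 N p q) = ev2 N p q := by
      rcases hA _ hs hl with h' | h'
      · exact h'
      · exfalso
        have h1 := wt_add_one (ev2 N p q)
        rw [← h', wt_rho, wt_ev2 p q hpq] at h1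
        omega
    have h1 := congrFun hfix (σ p)
    rw [rho_apply, Equiv.symm_apply_apply] at h1
    have h2 : ev2 N p q p = 1 := by
      show (if p = p ∨ p = q then (1 : ZMod 2) else 0) = 1
      rw [if_pos (Or.inl rfl)]
    rw [h2] at h1
    by_contra hcon
    have h3 : ev2 N p q (σ p) = 0 := by
      show (if σ p = p ∨ σ p = q then (1 : ZMod 2) else 0) = 0
      rw [if_neg hcon]
    rw [h3] at h1
    exact one_ne_zero h1
  have hC : ∀ p q q' : Fin N, p ≠ q → p ≠ q' → q ≠ q' → (p : ℕ) ≠ 2 * m + 1 →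
      (q : ℕ) ≠ 2 * m + 1 → (q' : ℕ) ≠ 2 * m + 1 → σ p = p := by
    intro p q q' h1 h2 h3 hp hq hq'
    rcases hB p q h1 hp hq with e | e
    · exact e
    · rcases hB p q' h2 hp hq' with e' | e'
      · exact e'
      · exact absurd (e.symm.trans e') h3
  have hD : ∀ p : Fin N, (p : ℕ) ≠ 2 * m + 1 → σ p = p := by
    intro p hp
    have e0 : ((⟨0, by omega⟩ : Fin N) : ℕ) = 0 := rfl
    have e1 : ((⟨1, by omega⟩ : Fin N) : ℕ) = 1 := rfl
    have e2 : ((⟨2, by omega⟩ : Fin N) : ℕ) = 2 := rfl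
    by_cases h0 : (p : ℕ) = 0
    · refine hC p ⟨1, by omega⟩ ⟨2, by omega⟩ ?_ ?_ ?_ hp ?_ ?_
      · intro h'; have := congrArg Fin.val h'; omega
      · intro h'; have := congrArg Fin.val h'; omega
      · intro h'; have := congrArg Fin.val h'; omega
      · omega
      · omega
    · by_cases h1 : (p : ℕ) = 1
      · refine hC p ⟨0, by omega⟩ ⟨2, by omega⟩ ?_ ?_ ?_ hp ?_ ?_
        · intro h'; have := congrArg Fin.val h'; omega
        · intro h'; have := congrArg Fin.val h'; omega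
        · intro h'; have := congrArg Fin.val h'; omega
        · omega
        · omega
      · refine hC p ⟨0, by omega⟩ ⟨1, by omega⟩ ?_ ?_ ?_ hp ?_ ?_
        · intro h'; have := congrArg Fin.val h'; omega
        · intro h'; have := congrArg Fin.val h'; omega
        · intro h'; have := congrArg Fin.val h'; omega
        · omega
        · omega
  apply Equiv.ext
  intro j
  show σ j = j
  by_cases hj : (j : ℕ) = 2 * m + 1
  · by_contra hcon
    have h1 : ((σ j : Fin N) : ℕ) ≠ 2 * m + 1 := by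
      intro h'
      apply hcon
      exact Fin.ext (h'.trans hj.symm)
    have h2 := hD (σ j) h1
    exact hcon (σ.injective h2)
  · exact hD j hj

end inj

theorem even_sum (k : ℕ) :
    ∑ i ∈ Finset.range (2 * k + 1), (if Even i then (1 : ZMod 2) else 0) = ((k + 1 : ℕ) : ZMod 2) := by
  induction k with
  | zero => rw [Finset.sum_range_one, if_pos (by simp)]; rfl
  | succ k ih =>
    rw [show 2 * (k + 1) + 1 = 2 * k + 1 + 1 + 1 by ring, Finset.sum_range_succ,
      Finset.sum_range_succ, ih]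
    have h1 : ¬ Even (2 * k + 1) := by simp
    have h2 : Even (2 * k + 1 + 1) := by
      rw [show 2 * k + 1 + 1 = 2 * (k + 1) by ring]; simp
    rw [if_neg h1, if_pos h2, add_zero]
    push_cast
    ring

theorem arf_sum (k : ℕ) :
    ∑ i : Fin (2 * k + 1), ((2 * k + 1 - (i : ℕ) : ℕ) : ZMod 2) = ((k + 1 : ℕ) : ZMod 2) := by
  rw [Fin.sum_univ_eq_sum_range (fun i => ((2 * k + 1 - i : ℕ) : ZMod 2)) (2 * k + 1),
    ← even_sum k]
  apply Finset.sum_congr rfl
  intro i hi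
  have hi' := Finset.mem_range.1 hi
  by_cases he : Even i
  · rw [if_pos he]
    have : Odd (2 * k + 1 - i) := by
      obtain ⟨a, ha⟩ := he
      exact ⟨k - a, by omega⟩
    exact (ZMod.natCast_eq_one_iff_odd).2 this
  · rw [if_neg he]
    have : Even (2 * k + 1 - i) := by
      obtain ⟨a, ha⟩ := Nat.not_even_iff_odd.1 he
      exact ⟨k - a, by omega⟩
    exact (ZMod.natCast_eq_zero_iff_even).2 this

theorem qh_add_one (k : ℕ) (z : Fin (4 * k + 4) → ZMod 2) (hz : sm z = 0) :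
    qh (z + 1) = qh z := by
  have h1 : sm (1 : Fin (4 * k + 4) → ZMod 2) = 0 := by
    rw [sm_eq_wt, wt_one]
    exact (ZMod.natCast_eq_zero_iff_even).2 ⟨2 * k + 2, by ring⟩
  have h2 : qh (1 : Fin (4 * k + 4) → ZMod 2) = 0 := by
    unfold qh
    rw [wt_one]
    exact (ZMod.natCast_eq_zero_iff_even).2 ⟨k + 1, by omega⟩
  rw [qh_add z 1 hz h1, h2, dot_one, hz, add_zero, add_zero]

theorem embed_of_equiv (k : ℕ) (hk : 1 ≤ k) {κ : Type} [Fintype κ] [DecidableEq κ]
    (Q : (κ → ZMod 2) → ZMod 2)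
    (g : (Fin (2 * k + 1) ⊕ Fin (2 * k + 1) → ZMod 2) ≃ₗ[ZMod 2] (κ → ZMod 2))
    (hg : ∀ v, qh (JJ (4 * k + 4) (2 * k + 1) v) = Q (g v)) :
    ∃ φ : Equiv.Perm (Fin (4 * k + 4)) →* ↥(Cfsg.isometryGroup (ZMod 2) Q),
      Function.Injective φ := by
  have hN : 4 * k + 4 = 2 * (2 * k + 1) + 2 := by ring
  refine build Q (JJ (4 * k + 4) (2 * k + 1)) (LL (4 * k + 4) (2 * k + 1)) g (LL_JJ hN)
    (fun σ v => JJ_LL hN _ (by rw [sm_rho, sm_JJ hN])) (LL_one hN) ?_
    (perm_inj hN (by omega))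
  intro σ v
  rw [← hg, ← hg]
  rcases JJ_LL hN (rho σ (JJ (4 * k + 4) (2 * k + 1) v)) (by rw [sm_rho, sm_JJ hN]) with e | e
  · rw [e, qh_rho]
  · rw [e, qh_add_one k _ (by rw [sm_rho, sm_JJ hN]), qh_rho]


theorem JJ_single_inl (N m : ℕ) (i : Fin m) :
    JJ N m (Pi.single (Sum.inl i) 1) = pv N (2 * i) := by
  rw [JJ_apply, Finset.sum_eq_single i]
  · rw [Pi.single_eq_same, Pi.single_eq_of_ne (by simp), one_smul, zero_smul, add_zero]
  · intro j _ hj
    rw [Pi.single_eq_of_ne (fun h => hj (Sum.inl.inj h)), Pi.single_eq_of_ne (by simp), zero_smul,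
      zero_smul, add_zero]
  · intro h
    exact absurd (Finset.mem_univ i) h

theorem JJ_single_inr (N m : ℕ) (i : Fin m) :
    JJ N m (Pi.single (Sum.inr i) 1) = bv N m i := by
  rw [JJ_apply, Finset.sum_eq_single i]
  · rw [Pi.single_eq_same, Pi.single_eq_of_ne (by simp), one_smul, zero_smul, zero_add]
  · intro j _ hj
    rw [Pi.single_eq_of_ne (by simp), Pi.single_eq_of_ne (fun h => hj (Sum.inr.inj h)), zero_smul,
      zero_smul, add_zero]
  · intro h
    exact absurd (Finset.mem_univ i) h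

theorem qw_single_inl (m : ℕ) (w : Fin m ⊕ Fin m → ZMod 2) (i : Fin m) :
    Cfsg.Agent.S2561.qw m w (Pi.single (Sum.inl i) 1) = w (Sum.inr i) := by
  show Cfsg.quadFormPlus m (ZMod 2) (Pi.single (Sum.inl i) 1) +
    ∑ j : Fin m, ((Pi.single (Sum.inl i) 1 : Fin m ⊕ Fin m → ZMod 2) (Sum.inl j) * w (Sum.inr j) +
      w (Sum.inl j) * (Pi.single (Sum.inl i) 1 : Fin m ⊕ Fin m → ZMod 2) (Sum.inr j)) = _
  rw [qfp_eq]
  simp [Pi.single_apply]

theorem qw_single_inr (m : ℕ) (w : Fin m ⊕ Fin m → ZMod 2) (i : Fin m) :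
    Cfsg.Agent.S2561.qw m w (Pi.single (Sum.inr i) 1) = w (Sum.inl i) := by
  show Cfsg.quadFormPlus m (ZMod 2) (Pi.single (Sum.inr i) 1) +
    ∑ j : Fin m, ((Pi.single (Sum.inr i) 1 : Fin m ⊕ Fin m → ZMod 2) (Sum.inl j) * w (Sum.inr j) +
      w (Sum.inl j) * (Pi.single (Sum.inr i) 1 : Fin m ⊕ Fin m → ZMod 2) (Sum.inr j)) = _
  rw [qfp_eq]
  simp [Pi.single_apply]

/-- For k ≥ 1 the symmetric group of degree 4k + 4 embeds in a full orthogonal group in dimension 4k + 2 over the field of two elements: in the isometry group of the plus-type form Σ xᵢyᵢ when k is odd, and in that of the minus-type form Σ xᵢyᵢ + (z₁² + z₁z₂ + z₂²) when k is even (through its action on even partitions of a (4k+4)-set, with the form 'half the size of a part, modulo 2'). -/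
theorem result (k : ℕ) (hk : 1 ≤ k) :
    (Odd k → ∃ φ : Equiv.Perm (Fin (4 * k + 4)) →* ↥(Cfsg.isometryGroup (ZMod 2) (Cfsg.quadFormPlus (2 * k + 1) (ZMod 2))), Function.Injective φ) ∧
    (Even k → ∃ φ : Equiv.Perm (Fin (4 * k + 4)) →* ↥(Cfsg.isometryGroup (ZMod 2) (Cfsg.quadFormMinus (2 * k) (ZMod 2) 1 1)), Function.Injective φ) := by
  have hN : 4 * k + 4 = 2 * (2 * k + 1) + 2 := by ring
  have hpolar : ∀ u v : Fin (2 * k + 1) ⊕ Fin (2 * k + 1) → ZMod 2,
      qh (JJ (4 * k + 4) (2 * k + 1) (u + v)) = qh (JJ (4 * k + 4) (2 * k + 1) u) +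
        qh (JJ (4 * k + 4) (2 * k + 1) v) + Bp (2 * k + 1) u v := by
    intro u v
    rw [map_add, qh_add _ _ (sm_JJ hN u) (sm_JJ hN v), JJ_JJ hN]
  obtain ⟨w, hw⟩ := Cfsg.Agent.S2561.exists_w (2 * k + 1)
    (fun v => qh (JJ (4 * k + 4) (2 * k + 1) v)) hpolar
  have hw' : ∀ v, qh (JJ (4 * k + 4) (2 * k + 1) v) = Cfsg.Agent.S2561.qw (2 * k + 1) w v :=
    fun v => congrFun hw v
  have hwr : ∀ i : Fin (2 * k + 1), w (Sum.inr i) = 1 := by
    intro i
    have h1 := hw' (Pi.single (Sum.inl i) 1)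
    rw [JJ_single_inl, qh_pv _ (by have := i.2; omega), qw_single_inl] at h1
    exact h1.symm
  have hwl : ∀ i : Fin (2 * k + 1), w (Sum.inl i) = ((2 * k + 1 - (i : ℕ) : ℕ) : ZMod 2) := by
    intro i
    have h1 := hw' (Pi.single (Sum.inr i) 1)
    rw [JJ_single_inr, qh_bv _ (by omega), qw_single_inr] at h1
    exact h1.symm
  have hQw : Cfsg.quadFormPlus (2 * k + 1) (ZMod 2) w = ((k + 1 : ℕ) : ZMod 2) := by
    rw [qfp_eq, ← arf_sum k]
    apply Finset.sum_congr rfl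
    intro i _
    rw [hwl, hwr, mul_one]
  constructor
  · intro hodd
    have h0 : Cfsg.quadFormPlus (2 * k + 1) (ZMod 2) w = 0 := by
      rw [hQw]
      exact (ZMod.natCast_eq_zero_iff_even).2 hodd.add_one
    obtain ⟨g, hg⟩ := (Cfsg.Agent.S2561.plus_iff (2 * k + 1) (by omega) w).2 h0
    exact embed_of_equiv k hk _ g (fun v => by rw [hw', hg])
  · intro heven
    have h1 : Cfsg.quadFormPlus (2 * k + 1) (ZMod 2) w = 1 := by
      rw [hQw]
      exact (ZMod.natCast_eq_one_iff_odd).2 heven.add_one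
    obtain ⟨g, hg⟩ := Cfsg.Agent.S2561.minus_of (2 * k) w h1
    exact embed_of_equiv k hk _ g (fun v => by rw [hw', hg])

end Cfsg.Agent.S2563
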