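import Cfsg.Statements.S2566
import Mathlib

set_option autoImplicit false
open Cfsg

namespace Cfsg.Agent.S2566

open Matrix

abbrev I4 : Type := Fin 2 ⊕ Fin 2
abbrev V4 : Type := I4 → ZMod 2
abbrev Q4 : V4 → ZMod 2 := quadFormPlus 2 (ZMod 2)

def vec4 (a b c d : ZMod 2) : V4
  | .inl 0 => a
  | .inl 1 => b
  | .inr 0 => c
  | .inr 1 => d

def tw (u : V4) : V4
  | .inl k => u (.inr k)
  | .inr k => u (.inl k)

def t : Fin 3 → V4
  | 0 => vec4 1 0 1 0
  | 1 => vec4 1 1 0 1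
  | 2 => vec4 0 1 1 1

def s : Fin 3 → V4
  | 0 => vec4 0 1 0 1
  | 1 => vec4 1 1 1 0
  | 2 => vec4 1 0 1 1

def am (σ : Equiv.Perm (Fin 3)) : Matrix I4 I4 (ZMod 2) :=
  fun i j => ∑ k : Fin 3, (t (σ k) i * tw (t k) j + s k i * tw (s k) j)

def gm : Matrix I4 I4 (ZMod 2) :=
  fun i j => ∑ k : Fin 3, (s k i * tw (t k) j + t k i * tw (s k) j)

set_option maxRecDepth 100000 in
theorem D1 : ∀ σ τ : Equiv.Perm (Fin 3), am (σ * τ) = am σ * am τ := by decide +kernel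

set_option maxRecDepth 100000 in
theorem D2 : am 1 = 1 := by decide +kernel

set_option maxRecDepth 100000 in
theorem D3 : ∀ (σ : Equiv.Perm (Fin 3)) (u : V4), Q4 (am σ *ᵥ u) = Q4 u := by decide +kernel

set_option maxRecDepth 100000 in
theorem D4 : ∀ σ : Equiv.Perm (Fin 3), am σ = 1 → σ = 1 := by decide +kernel

set_option maxRecDepth 100000 in
theorem D5 : gm * gm = 1 := by decide +kernel

set_option maxRecDepth 100000 in
theorem D5' : ∀ u : V4, Q4 (gm *ᵥ u) = Q4 u := by decide +kernel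

set_option maxRecDepth 100000 in
theorem D6 : ∀ σ τ : Equiv.Perm (Fin 3), am σ * (gm * am τ * gm) = (gm * am τ * gm) * am σ := by
  decide +kernel

set_option maxRecDepth 100000 in
theorem D7 : ∀ σ τ : Equiv.Perm (Fin 3), am σ = gm * am τ * gm → σ = 1 := by decide +kernel

set_option maxRecDepth 100000 in
theorem D8 : ∀ σ τ : Equiv.Perm (Fin 3), am σ * (gm * am τ * gm) ≠ gm := by decide +kernel

/-! ### Counting: at most 72 isometries -/

abbrev P1 (c1 : V4) : Prop := Q4 c1 = 0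
abbrev P2 (c1 c2 : V4) : Prop := Q4 c2 = 0 ∧ Q4 (c1 + c2) = 1
abbrev P3 (c1 c2 c3 : V4) : Prop := Q4 c3 = 0 ∧ Q4 (c1 + c3) = 0 ∧ Q4 (c2 + c3) = 0
abbrev P4 (c1 c2 c3 c4 : V4) : Prop :=
  Q4 c4 = 0 ∧ Q4 (c1 + c4) = 0 ∧ Q4 (c2 + c4) = 0 ∧ Q4 (c3 + c4) = 1

theorem card_filter_prod {α β : Type*} [Fintype α] [Fintype β] (p : α → Prop) (q : α → β → Prop)
    [DecidablePred p] [∀ a, DecidablePred (q a)] :
    (Finset.univ.filter (fun c : α × β => p c.1 ∧ q c.1 c.2)).card =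
      ∑ a : α, if p a then (Finset.univ.filter (q a)).card else 0 := by
  rw [Finset.card_filter, Fintype.sum_prod_type]
  refine Finset.sum_congr rfl fun a _ => ?_
  split_ifs with h
  · rw [Finset.card_filter]; simp [h]
  · simp [h]

set_option maxRecDepth 100000 in
theorem count72 : (∑ c1 : V4, if P1 c1 then ∑ c2 : V4, if P2 c1 c2 then ∑ c3 : V4,
    if P3 c1 c2 c3 then (Finset.univ.filter (P4 c1 c2 c3)).card else 0 else 0 else 0) = 72 := by
  decide +kernel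

theorem count72' : (Finset.univ.filter (fun c : V4 × V4 × V4 × V4 =>
    P1 c.1 ∧ P2 c.1 c.2.1 ∧ P3 c.1 c.2.1 c.2.2.1 ∧ P4 c.1 c.2.1 c.2.2.1 c.2.2.2)).card = 72 := by
  have h1 := card_filter_prod (α := V4) (β := V4 × V4 × V4) P1
    (fun c1 c' => P2 c1 c'.1 ∧ P3 c1 c'.1 c'.2.1 ∧ P4 c1 c'.1 c'.2.1 c'.2.2)
  have h2 : ∀ c1 : V4, _ := fun c1 => card_filter_prod (α := V4) (β := V4 × V4) (P2 c1)
    (fun c2 c'' => P3 c1 c2 c''.1 ∧ P4 c1 c2 c''.1 c''.2)
  have h3 : ∀ c1 c2 : V4, _ := fun c1 c2 => card_filter_prod (α := V4) (β := V4) (P3 c1 c2)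
    (fun c3 c4 => P4 c1 c2 c3 c4)
  rw [h1]
  simp only [h2, h3]
  exact count72

/-! ### The group -/

abbrev GL4 : Type := Matrix.GeneralLinearGroup I4 (ZMod 2)
abbrev G4 : Subgroup GL4 := isometryGroup (ZMod 2) Q4

theorem mem_G4 (x : GL4) : x ∈ G4 ↔ ∀ u : V4, Q4 (x.1 *ᵥ u) = Q4 u :=
  ⟨fun h u => h u u, fun h u _ => h u⟩

def amHom : Equiv.Perm (Fin 3) →* Matrix I4 I4 (ZMod 2) where
  toFun := am
  map_one' := D2
  map_mul' := D1

def aHom : Equiv.Perm (Fin 3) →* ↥G4 :=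
  MonoidHom.codRestrict amHom.toHomUnits G4 (fun σ => (mem_G4 _).2 (fun u => D3 σ u))

theorem coe_aHom (σ : Equiv.Perm (Fin 3)) :
    ((aHom σ : GL4) : Matrix I4 I4 (ZMod 2)) = am σ := rfl

def gU : GL4 := ⟨gm, gm, D5, D5⟩

def gG : ↥G4 := ⟨gU, (mem_G4 _).2 D5'⟩

def bHom : Equiv.Perm (Fin 3) →* ↥G4 := (MulAut.conj gG).toMonoidHom.comp aHom

theorem coe_bHom (σ : Equiv.Perm (Fin 3)) :
    ((bHom σ : GL4) : Matrix I4 I4 (ZMod 2)) = gm * am σ * gm := rfl

def toM (x : ↥G4) : Matrix I4 I4 (ZMod 2) := ((x : GL4) : Matrix I4 I4 (ZMod 2))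

theorem toM_inj : Function.Injective toM := fun _ _ h => Subtype.ext (Units.ext h)

theorem aHom_inj : Function.Injective aHom := by
  refine (injective_iff_map_eq_one aHom).2 (fun σ h => D4 σ ?_)
  exact congrArg toM h

theorem bHom_inj : Function.Injective bHom := (MulAut.conj gG).injective.comp aHom_inj

theorem comm_ab (σ τ : Equiv.Perm (Fin 3)) : Commute (aHom σ) (bHom τ) :=
  toM_inj (D6 σ τ)

theorem disj : aHom.range ⊓ bHom.range = ⊥ := by
  rw [Subgroup.eq_bot_iff_forall]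
  rintro x ⟨⟨σ, rfl⟩, ⟨τ, hτ⟩⟩
  have h1 : σ = 1 := D7 σ τ (congrArg toM hτ).symm
  rw [h1, map_one]

theorem cHom_inj : Function.Injective (MonoidHom.noncommCoprod aHom bHom comm_ab) :=
  (MonoidHom.noncommCoprod_injective _ _ _).2 ⟨aHom_inj, bHom_inj, disjoint_iff.2 disj⟩

theorem card_sup : Nat.card ↥(aHom.range ⊔ bHom.range) = 36 := by
  rw [← MonoidHom.noncommCoprod_range aHom bHom comm_ab,
    Nat.card_congr (MonoidHom.ofInjective cHom_inj).symm.toEquiv, Nat.card_prod, Nat.card_perm]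
  simp [Nat.factorial]

theorem gG_not_mem : gG ∉ aHom.range ⊔ bHom.range := by
  rw [← MonoidHom.noncommCoprod_range aHom bHom comm_ab]
  rintro ⟨⟨σ, τ⟩, h⟩
  exact D8 σ τ (congrArg toM h)

/-! ### Upper bound via columns -/

def e1 : V4 := vec4 1 0 0 0
def f1 : V4 := vec4 0 0 1 0
def e2 : V4 := vec4 0 1 0 0
def f2 : V4 := vec4 0 0 0 1

theorem mulVec_vec4 (M : Matrix I4 I4 (ZMod 2)) (a b c d : ZMod 2) (i : I4) :
    (M *ᵥ vec4 a b c d) i =
      M i (.inl 0) * a + M i (.inl 1) * b + M i (.inr 0) * c + M i (.inr 1) * d := by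
  simp [Matrix.mulVec, dotProduct, Fintype.sum_sum_type, Fin.sum_univ_two, vec4]
  ring

theorem ext_cols (M N : Matrix I4 I4 (ZMod 2)) (h1 : M *ᵥ e1 = N *ᵥ e1) (h2 : M *ᵥ f1 = N *ᵥ f1)
    (h3 : M *ᵥ e2 = N *ᵥ e2) (h4 : M *ᵥ f2 = N *ᵥ f2) : M = N := by
  ext i j
  have a1 := congrFun h1 i
  have a2 := congrFun h2 i
  have a3 := congrFun h3 i
  have a4 := congrFun h4 i
  simp only [e1, f1, e2, f2, mulVec_vec4, mul_one, mul_zero, add_zero, zero_add] at a1 a2 a3 a4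
  rcases j with j | j <;> fin_cases j <;> assumption

abbrev Tup : Type :=
  {c : V4 × V4 × V4 × V4 // P1 c.1 ∧ P2 c.1 c.2.1 ∧ P3 c.1 c.2.1 c.2.2.1 ∧ P4 c.1 c.2.1 c.2.2.1 c.2.2.2}

def colmap (x : ↥G4) : Tup :=
  ⟨(toM x *ᵥ e1, toM x *ᵥ f1, toM x *ᵥ e2, toM x *ᵥ f2), by
    have h : ∀ u : V4, Q4 (toM x *ᵥ u) = Q4 u := (mem_G4 _).1 x.2
    refine ⟨?_, ⟨?_, ?_⟩, ⟨?_, ?_, ?_⟩, ⟨?_, ?_, ?_, ?_⟩⟩
    · exact (h e1).trans (by decide)
    · exact (h f1).trans (by decide)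
    · show Q4 (toM x *ᵥ e1 + toM x *ᵥ f1) = 1
      rw [← Matrix.mulVec_add, h]; decide
    · exact (h e2).trans (by decide)
    · show Q4 (toM x *ᵥ e1 + toM x *ᵥ e2) = 0
      rw [← Matrix.mulVec_add, h]; decide
    · show Q4 (toM x *ᵥ f1 + toM x *ᵥ e2) = 0
      rw [← Matrix.mulVec_add, h]; decide
    · exact (h f2).trans (by decide)
    · show Q4 (toM x *ᵥ e1 + toM x *ᵥ f2) = 0
      rw [← Matrix.mulVec_add, h]; decide
    · show Q4 (toM x *ᵥ f1 + toM x *ᵥ f2) = 0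
      rw [← Matrix.mulVec_add, h]; decide
    · show Q4 (toM x *ᵥ e2 + toM x *ᵥ f2) = 1
      rw [← Matrix.mulVec_add, h]; decide⟩

theorem colmap_inj : Function.Injective colmap := by
  intro x y h
  have h' := congrArg Subtype.val h
  simp only [colmap, Prod.mk.injEq] at h'
  exact toM_inj (ext_cols _ _ h'.1 h'.2.1 h'.2.2.1 h'.2.2.2)

theorem card_le : Nat.card ↥G4 ≤ 72 := by
  have h := Nat.card_le_card_of_injective colmap colmap_inj
  rw [Nat.card_eq_fintype_card (α := Tup), Fintype.card_subtype, count72'] at h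
  exact h

/-- The full orthogonal group of the plus-type form x₁y₁ + x₂y₂ in dimension 4 over the field of two elements has order 72 and is isomorphic to the wreath product of the symmetric group of degree 3 by a group of order 2: it has a normal subgroup isomorphic to the direct product of two symmetric groups of degree 3, of index 2, whose two direct factors are interchanged by conjugation by some element. -/
theorem result :
    Nat.card ↥(Cfsg.isometryGroup (ZMod 2) (Cfsg.quadFormPlus 2 (ZMod 2))) = 72 ∧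
    ∃ (A B : Subgroup ↥(Cfsg.isometryGroup (ZMod 2) (Cfsg.quadFormPlus 2 (ZMod 2)))),
      Nonempty (↥A ≃* Equiv.Perm (Fin 3)) ∧ Nonempty (↥B ≃* Equiv.Perm (Fin 3)) ∧ A ⊓ B = ⊥ ∧ (∀ a ∈ A, ∀ b ∈ B, a * b = b * a) ∧
      (A ⊔ B).index = 2 ∧ ∃ g : ↥(Cfsg.isometryGroup (ZMod 2) (Cfsg.quadFormPlus 2 (ZMod 2))), A.map (MulAut.conj g).toMonoidHom = B := by
  have hsup := card_sup
  have hidx1 : (aHom.range ⊔ bHom.range).index ≠ 1 := by
    intro h
    apply gG_not_mem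
    rw [Subgroup.index_eq_one.1 h]
    trivial
  have hidx0 : (aHom.range ⊔ bHom.range).index ≠ 0 := Subgroup.index_ne_zero_of_finite
  have hmul := Subgroup.card_mul_index (aHom.range ⊔ bHom.range)
  have hle := card_le
  rw [hsup] at hmul
  have hidx2 : (aHom.range ⊔ bHom.range).index = 2 := by omega
  refine ⟨?_, aHom.range, bHom.range, ⟨(MonoidHom.ofInjective aHom_inj).symm⟩,
    ⟨(MonoidHom.ofInjective bHom_inj).symm⟩, disj, ?_, hidx2, gG, ?_⟩
  · rw [← hmul, hidx2]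
  · rintro a ⟨σ, rfl⟩ b ⟨τ, rfl⟩
    exact comm_ab σ τ
  · exact MonoidHom.map_range _ _

end Cfsg.Agent.S2566
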