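import Cfsg.Statements.S2567
import Mathlib

set_option autoImplicit false
open Cfsg

namespace Cfsg.Agent.S2567

lemma lift_unique {G : Type*} [Group G] (r : ℕ) (hr : r.Prime)
    (hcop : (Nat.card (Subgroup.center G)).Coprime r) (x : G ⧸ Subgroup.center G)
    (hx : orderOf x = r) :
    ∃! g : G, (QuotientGroup.mk g : G ⧸ Subgroup.center G) = x ∧ orderOf g = r := by
  classical
  have : Fact r.Prime := ⟨hr⟩
  have hx1 : x ≠ 1 := by
    intro h
    rw [h, orderOf_one] at hx
    exact hr.one_lt.ne hx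
  have hxr : x ^ r = 1 := by rw [← hx]; exact pow_orderOf_eq_one x
  obtain ⟨g₀, rfl⟩ := QuotientGroup.mk_surjective x
  have hz₀ : g₀ ^ r ∈ Subgroup.center G := by
    rw [← QuotientGroup.mk_pow] at hxr
    exact (QuotientGroup.eq_one_iff _).1 hxr
  obtain ⟨s, hs⟩ := (powCoprime hcop).surjective ⟨(g₀ ^ r)⁻¹, (Subgroup.center G).inv_mem hz₀⟩
  have hs' : (s : G) ^ r = (g₀ ^ r)⁻¹ := congrArg Subtype.val hs
  have hscomm : ∀ y : G, Commute y (s : G) := by
    intro y
    have := Subgroup.mem_center_iff.1 s.2 y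
    exact this
  refine ⟨g₀ * s, ⟨?_, ?_⟩, ?_⟩
  · rw [QuotientGroup.mk_mul]
    have : (QuotientGroup.mk (s : G) : G ⧸ Subgroup.center G) = 1 :=
      (QuotientGroup.eq_one_iff _).2 s.2
    rw [this, mul_one]
  · apply orderOf_eq_prime
    · rw [(hscomm g₀).mul_pow, hs', mul_inv_cancel]
    · intro h
      apply hx1
      have : g₀ = (s : G)⁻¹ := eq_inv_of_mul_eq_one_left h
      rw [this]
      exact (QuotientGroup.eq_one_iff _).2 ((Subgroup.center G).inv_mem s.2)
  · rintro g' ⟨hg', hord'⟩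
    have hz : g₀⁻¹ * g' ∈ Subgroup.center G := QuotientGroup.eq.1 hg'.symm
    have hg'eq : g' = g₀ * (g₀⁻¹ * g') := by simp
    have hzcomm : Commute g₀ (g₀⁻¹ * g') := (Subgroup.mem_center_iff.1 hz g₀)
    have h1 : g₀ ^ r * (g₀⁻¹ * g') ^ r = 1 := by
      rw [← hzcomm.mul_pow, ← hg'eq, ← hord']; exact pow_orderOf_eq_one g'
    have h2 : (g₀⁻¹ * g') ^ r = (s : G) ^ r := by
      rw [hs']; exact eq_inv_of_mul_eq_one_right h1
    have h3 : (⟨g₀⁻¹ * g', hz⟩ : Subgroup.center G) ^ r = s ^ r := Subtype.ext h2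
    have h4 : (⟨g₀⁻¹ * g', hz⟩ : Subgroup.center G) = s :=
      (powCoprime hcop).injective h3
    rw [hg'eq, ← h4]

/-- Lifting elements of prime order from PGL to GL: let F be a finite field with q elements, r a prime not dividing q − 1, and x an element of order r in GL_n(F) modulo its centre (the scalar matrices). Then x has exactly one preimage in GL_n(F) of order r. -/
theorem result {F : Type*} [Field F] [Fintype F] {q n r : ℕ} (hF : Fintype.card F = q) (hr : r.Prime) (hdiv : ¬ r ∣ q - 1) (x : GL (Fin n) F ⧸ Subgroup.center (GL (Fin n) F)) (hx : orderOf x = r) : ∃! g : GL (Fin n) F, (QuotientGroup.mk g : GL (Fin n) F ⧸ Subgroup.center (GL (Fin n) F)) = x ∧ orderOf g = r := by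
  classical
  have hcardZ : Nat.card (Subgroup.center (GL (Fin n) F)) ∣ q - 1 := by
    rw [Matrix.GeneralLinearGroup.center_eq_range_scalar]
    have h2 := Subgroup.card_range_dvd (Matrix.GeneralLinearGroup.scalar (Fin n) (R := F))
    rwa [Nat.card_eq_fintype_card (α := Fˣ), Fintype.card_units, hF] at h2
  have hcop : (Nat.card (Subgroup.center (GL (Fin n) F))).Coprime r := by
    have : Nat.Coprime r (q - 1) := (Nat.Prime.coprime_iff_not_dvd hr).2 hdiv
    exact (Nat.Coprime.coprime_dvd_right hcardZ this).symm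
  exact lift_unique r hr hcop x hx

end Cfsg.Agent.S2567
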