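import Cfsg.Statements.S2569
-- import your own Cfsg.Agent.* helpers here
import Cfsg.Agent.Lib.Helper47.SemiConjMat

set_option autoImplicit false
open Cfsg

namespace Cfsg.Agent.S2569

/-- In GL_n over a finite field of characteristic p, the conjugacy class of a semisimple element (an element of order prime to p) under the special linear group is its whole GL-conjugacy class: for every such x and every invertible g there is h of determinant one with h x h⁻¹ = g x g⁻¹. -/
theorem result {F : Type*} [Field F] [Fintype F] {p : ℕ} [Fact p.Prime] [CharP F p] {n : ℕ} (x g : GL (Fin n) F) (hx : (orderOf x).Coprime p) : ∃ h : GL (Fin n) F, (h : Matrix (Fin n) (Fin n) F).det = 1 ∧ h * x * h⁻¹ = g * x * g⁻¹ := by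
  rcases Nat.eq_zero_or_pos n with h0 | hpos
  · subst h0
    refine ⟨1, by simp, Subsingleton.elim _ _⟩
  have hne : Nonempty (Fin n) := ⟨⟨0, hpos⟩⟩
  have hxk : (x : Matrix (Fin n) (Fin n) F) ^ orderOf x = 1 := by
    rw [← Units.val_pow_eq_pow_val, pow_orderOf_eq_one]; rfl
  have hs : Module.End.IsSemisimple (Matrix.toLin' (x : Matrix (Fin n) (Fin n) F)) :=
    Cfsg.Agent.Lib.Helper47.isSemisimple_toLin'_of_pow_eq_one _ (orderOf x)
      (Cfsg.Agent.Lib.Helper47.natCast_ne_zero_of_coprime p hx) hxk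
  have hgdet : (g : Matrix (Fin n) (Fin n) F).det ≠ 0 := by
    have := (Matrix.isUnit_iff_isUnit_det (g : Matrix (Fin n) (Fin n) F)).mp g.isUnit
    exact this.ne_zero
  obtain ⟨c, hc, hcdet⟩ := Cfsg.Agent.Lib.Helper47.exists_commute_matrix_det
    (x : Matrix (Fin n) (Fin n) F) hs ((g : Matrix (Fin n) (Fin n) F).det)⁻¹
  have hcu : IsUnit c := by
    rw [Matrix.isUnit_iff_isUnit_det, hcdet]
    exact isUnit_iff_ne_zero.mpr (inv_ne_zero hgdet)
  obtain ⟨c', hc'⟩ := hcu
  refine ⟨g * c', ?_, ?_⟩
  · rw [Units.val_mul, Matrix.det_mul, hc', hcdet, mul_inv_cancel₀ hgdet]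
  · have hcomm : c' * x = x * c' := by
      apply Units.ext
      rw [Units.val_mul, Units.val_mul, hc']
      exact hc
    have : c' * x * c'⁻¹ = x := by
      rw [hcomm, mul_assoc, mul_inv_cancel, mul_one]
    calc g * c' * x * (g * c')⁻¹ = g * (c' * x * c'⁻¹) * g⁻¹ := by group
      _ = g * x * g⁻¹ := by rw [this]

end Cfsg.Agent.S2569
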