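import Cfsg.Statements.S2570
import Cfsg.Agent.Lib.Helper51.Jordan

set_option autoImplicit false
open Cfsg

namespace Cfsg.Agent.S2570

open Cfsg.Agent.Lib.Helper51.Jordan

section aux

variable {F : Type*} [Field F] {n : ℕ}

theorem order_p_iff (p : ℕ) [Fact p.Prime] [CharP F p] (g : Matrix.GeneralLinearGroup (Fin n) F) :
    orderOf g = p ↔ IsNilpotent ((g : Matrix (Fin n) (Fin n) F) - 1) ∧
      kap (Matrix.toLin' ((g : Matrix (Fin n) (Fin n) F) - 1)) p = n ∧
      kap (Matrix.toLin' ((g : Matrix (Fin n) (Fin n) F) - 1)) 1 ≠ n := by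
  have hp : p.Prime := Fact.out
  rcases Nat.eq_zero_or_pos n with rfl | hn
  · constructor
    · intro h
      have h1 : g = 1 := Subsingleton.elim _ _
      rw [h1, orderOf_one] at h
      exact absurd h.symm hp.one_lt.ne'
    · rintro ⟨-, -, h⟩
      exfalso
      apply h
      have h1 := Submodule.finrank_le (LinearMap.ker
        ((Matrix.toLin' ((g : Matrix (Fin 0) (Fin 0) F) - 1)) ^ 1))
      rw [finrank_fn] at h1
      unfold kap
      omega
  · have : Nonempty (Fin n) := ⟨⟨0, hn⟩⟩
    have hcomm : Commute (g : Matrix (Fin n) (Fin n) F) 1 := Commute.one_right _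
    have hpow : ((g : Matrix (Fin n) (Fin n) F) - 1) ^ p
        = (g : Matrix (Fin n) (Fin n) F) ^ p - 1 := by
      rw [sub_pow_char_of_commute p hcomm, one_pow]
    have hk : ∀ K : ℕ, kap (Matrix.toLin' ((g : Matrix (Fin n) (Fin n) F) - 1)) K = n ↔
        ((g : Matrix (Fin n) (Fin n) F) - 1) ^ K = 0 := by
      intro K
      constructor
      · intro h
        apply Matrix.toLin'.injective
        rw [Matrix.toLin'_pow, map_zero]
        exact pow_zero_of_kap _ K (by rw [h, finrank_fn])
      · intro h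
        rw [kap_of_pow_zero _ K (by rw [← Matrix.toLin'_pow, h, map_zero]), finrank_fn]
    rw [orderOf_eq_prime_iff]
    constructor
    · rintro ⟨h1, h2⟩
      have h3 : ((g : Matrix (Fin n) (Fin n) F) - 1) ^ p = 0 := by
        rw [hpow, ← Units.val_pow_eq_pow_val, h1]
        exact sub_self _
      refine ⟨⟨p, h3⟩, (hk p).mpr h3, fun h => h2 ?_⟩
      have h4 := (hk 1).mp h
      rw [pow_one] at h4
      apply Units.ext
      exact sub_eq_zero.mp h4
    · rintro ⟨-, h1, h2⟩
      have h1' := (hk p).mp h1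
      constructor
      · apply Units.ext
        rw [Units.val_pow_eq_pow_val]
        rw [hpow] at h1'
        exact sub_eq_zero.mp h1'
      · intro h
        apply h2
        apply (hk 1).mpr
        rw [h, pow_one]
        exact sub_self _

/-- The partition of `n` into ones. -/
def ones (n : ℕ) : Nat.Partition n :=
  ⟨Multiset.replicate n 1, fun {i} hi => by rw [Multiset.eq_of_mem_replicate hi]; exact Nat.one_pos,
    by simp⟩

theorem le_one_iff (μ : Nat.Partition n) : (∀ a ∈ μ.parts, a ≤ 1) ↔ μ = ones n := by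
  constructor
  · intro h
    apply Nat.Partition.ext
    have h1 : ∀ b ∈ μ.parts, b = 1 := fun b hb => by
      have := μ.parts_pos hb
      have := h b hb
      omega
    have h2 := Multiset.eq_replicate_card.mpr h1
    have h3 := μ.parts_sum
    rw [h2, Multiset.sum_replicate, smul_eq_mul, mul_one] at h3
    rw [h2, h3]
    rfl
  · rintro rfl a ha
    have : a = 1 := Multiset.eq_of_mem_replicate ha
    omega

end aux

/-- Number of conjugacy classes of elements of order p in GL_n over a finite field of characteristic p: they correspond to the Jordan types, that is, to the partitions of n with all parts at most p other than the partition into ones, so there are (number of partitions of n with parts ≤ p) − 1 of them. -/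
theorem result {F : Type*} [Field F] [Fintype F] {p : ℕ} [Fact p.Prime] [CharP F p] (n : ℕ) : Nat.card {C : ConjClasses (GL (Fin n) F) // ∃ g : GL (Fin n) F, ConjClasses.mk g = C ∧ orderOf g = p} = (Finset.univ.filter (fun μ : Nat.Partition n => ∀ a ∈ μ.parts, a ≤ p)).card - 1 := by
  classical
  have hp : p.Prime := Fact.out
  choose G hGnil hGkap using fun μ : Nat.Partition n =>
    exists_unip (F := F) μ.parts μ.parts_sum
  have hbij : Nat.card {μ : Nat.Partition n // (∀ a ∈ μ.parts, a ≤ p) ∧ ¬ ∀ a ∈ μ.parts, a ≤ 1}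
      = Nat.card {C : ConjClasses (GL (Fin n) F) // ∃ g : GL (Fin n) F, ConjClasses.mk g = C ∧ orderOf g = p} := by
    refine Nat.card_eq_of_bijective
      (fun μ => ⟨ConjClasses.mk (G μ.1), G μ.1, rfl, (order_p_iff p (G μ.1)).mpr
        ⟨hGnil μ.1, ?_, ?_⟩⟩) ⟨?_, ?_⟩
    · rw [hGkap, (kapM_eq_sum_iff μ.1.parts p).mpr μ.2.1, μ.1.parts_sum]
    · rw [hGkap]
      intro h
      apply μ.2.2
      rw [← kapM_eq_sum_iff, h, μ.1.parts_sum]
    · intro μ ν h
      have h1 : ConjClasses.mk (G μ.1) = ConjClasses.mk (G ν.1) := congrArg Subtype.val h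
      have h2 := ConjClasses.mk_eq_mk_iff_isConj.mp h1
      apply Subtype.ext
      apply Nat.Partition.ext
      apply kapM_inj _ _ (fun c hc => μ.1.parts_pos hc) (fun c hc => ν.1.parts_pos hc)
      intro j
      rw [← hGkap μ.1 j, ← hGkap ν.1 j]
      exact kap_of_isConj _ _ h2 j
    · rintro ⟨C, g, rfl, hg⟩
      obtain ⟨hnil, hkp, hk1⟩ := (order_p_iff p g).mp hg
      obtain ⟨μ', hpos, hsum, hk⟩ := exists_type_gl g hnil
      refine ⟨⟨⟨μ', fun {i} hi => hpos i hi, hsum⟩, ?_, ?_⟩, ?_⟩
      · rw [← kapM_eq_sum_iff, ← hk, hkp, hsum]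
      · intro h
        apply hk1
        rw [hk, (kapM_eq_sum_iff μ' 1).mpr h, hsum]
      · apply Subtype.ext
        apply ConjClasses.mk_eq_mk_iff_isConj.mpr
        apply isConj_of_kap _ _ (hGnil _) hnil
        intro j
        exact (hGkap _ j).trans (hk j).symm
  rw [← hbij, Nat.card_eq_fintype_card, Fintype.card_subtype]
  have hfilter : Finset.univ.filter
      (fun μ : Nat.Partition n => (∀ a ∈ μ.parts, a ≤ p) ∧ ¬ ∀ a ∈ μ.parts, a ≤ 1)
      = (Finset.univ.filter (fun μ : Nat.Partition n => ∀ a ∈ μ.parts, a ≤ p)).erase (ones n) := by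
    ext μ
    rw [Finset.mem_filter, Finset.mem_erase, Finset.mem_filter, le_one_iff]
    constructor
    · rintro ⟨-, h1, h2⟩
      exact ⟨h2, Finset.mem_univ _, h1⟩
    · rintro ⟨h2, -, h1⟩
      exact ⟨Finset.mem_univ _, h1, h2⟩
  have hmem : ones n ∈ Finset.univ.filter (fun μ : Nat.Partition n => ∀ a ∈ μ.parts, a ≤ p) := by
    rw [Finset.mem_filter]
    refine ⟨Finset.mem_univ _, fun a ha => ?_⟩
    have : a = 1 := Multiset.eq_of_mem_replicate ha
    have := hp.one_lt
    omega
  rw [hfilter, Finset.card_erase_of_mem hmem]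

end Cfsg.Agent.S2570
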