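import Mathlib
import Cfsg.Statements.S2571

set_option autoImplicit false
open Cfsg

namespace Cfsg.Agent.S2571

open Matrix

section
variable {F : Type*} [Field F]

theorem finrank_map_ge {V : Type*} [AddCommGroup V] [Module F V] [FiniteDimensional F V]
    (f : V →ₗ[F] V) (S : Submodule F V) :
    Module.finrank F S ≤ Module.finrank F (S.map f) + Module.finrank F (LinearMap.ker f) := by
  have h1 := (f.domRestrict S).finrank_range_add_finrank_ker
  rw [LinearMap.range_domRestrict, LinearMap.ker_domRestrict] at h1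
  have h2 : Module.finrank F ((LinearMap.ker f).comap S.subtype) ≤
      Module.finrank F (LinearMap.ker f) := by
    rw [← Submodule.finrank_map_subtype_eq, Submodule.map_comap_subtype]
    exact Submodule.finrank_mono inf_le_right
  omega

theorem toLin_pow {m : ℕ} (N : Matrix (Fin (m + 1)) (Fin (m + 1)) F) (k : ℕ) :
    (Matrix.toLin' N) ^ k = Matrix.toLin' (N ^ k) := by
  induction k with
  | zero => rw [pow_zero, pow_zero, Matrix.toLin'_one]; rfl
  | succ k ih => rw [pow_succ, pow_succ, ih, Matrix.toLin'_mul]; rfl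

theorem exists_cyclic {m : ℕ} (N : Matrix (Fin (m + 1)) (Fin (m + 1)) F) (hreg : N.rank = m) :
    ∃ v : Fin (m + 1) → F, (N ^ m) *ᵥ v ≠ 0 := by
  have hr : Module.finrank F (LinearMap.range (Matrix.toLin' N)) = m := hreg
  have hk : Module.finrank F (LinearMap.ker (Matrix.toLin' N)) = 1 := by
    have := (Matrix.toLin' N).finrank_range_add_finrank_ker
    rw [hr, Module.finrank_fin_fun] at this
    omega
  have ind : ∀ k, k ≤ m + 1 →
      m + 1 - k ≤ Module.finrank F (LinearMap.range ((Matrix.toLin' N) ^ k)) := by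
    intro k
    induction k with
    | zero =>
      intro _
      rw [pow_zero, Module.End.one_eq_id, LinearMap.range_id, finrank_top, Module.finrank_fin_fun]
      omega
    | succ k ih =>
      intro hk'
      have h1 := finrank_map_ge (Matrix.toLin' N) (LinearMap.range ((Matrix.toLin' N) ^ k))
      rw [← LinearMap.range_comp] at h1
      have e : (Matrix.toLin' N) ∘ₗ (Matrix.toLin' N) ^ k = (Matrix.toLin' N) ^ (k + 1) := by
        rw [pow_succ']; rfl
      rw [e] at h1
      have h2 := ih (by omega)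
      omega
  have h1 : 1 ≤ Module.finrank F (LinearMap.range ((Matrix.toLin' N) ^ m)) := by
    have := ind m (by omega)
    omega
  by_contra hcon
  simp only [not_exists, not_not] at hcon
  have h0 : (Matrix.toLin' N) ^ m = 0 := by
    rw [toLin_pow]
    apply LinearMap.ext
    intro v
    rw [Matrix.toLin'_apply, hcon v]
    rfl
  rw [h0, LinearMap.range_zero, finrank_bot] at h1
  omega

/-- the "polynomial in `N`" with coefficient vector `a` -/
def LL {m : ℕ} (N : Matrix (Fin (m + 1)) (Fin (m + 1)) F) (a : Fin (m + 1) → F) :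
    Matrix (Fin (m + 1)) (Fin (m + 1)) F :=
  ∑ i : Fin (m + 1), a i • N ^ (i : ℕ)

variable {m : ℕ} (N : Matrix (Fin (m + 1)) (Fin (m + 1)) F)

theorem LL_sub (a b : Fin (m + 1) → F) : LL N (a - b) = LL N a - LL N b := by
  unfold LL
  rw [← Finset.sum_sub_distrib]
  apply Finset.sum_congr rfl
  intro i _
  rw [Pi.sub_apply, sub_smul]

theorem LL_comm (a : Fin (m + 1) → F) : Commute N (LL N a) := by
  unfold LL
  apply Commute.sum_right
  intro i _
  exact ((Commute.refl N).pow_right _).smul_right _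

theorem LL_comm' (A : Matrix (Fin (m + 1)) (Fin (m + 1)) F) (hA : Commute A N)
    (a : Fin (m + 1) → F) : Commute A (LL N a) := by
  unfold LL
  apply Commute.sum_right
  intro i _
  exact (hA.pow_right _).smul_right _

theorem LL_decomp (a : Fin (m + 1) → F) :
    LL N a = a 0 • 1 + N * ∑ i : Fin m, a i.succ • N ^ (i : ℕ) := by
  unfold LL
  rw [Fin.sum_univ_succ, Finset.mul_sum, Fin.val_zero, pow_zero]
  congr 1
  apply Finset.sum_congr rfl
  intro i _
  rw [Matrix.mul_smul, ← pow_succ', Fin.val_succ]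

theorem pow_mul_LL (hnil : N ^ (m + 1) = 0) (a : Fin (m + 1) → F) (j : Fin (m + 1))
    (h0 : ∀ i : Fin (m + 1), i < j → a i = 0) :
    N ^ (m - (j : ℕ)) * LL N a = a j • N ^ m := by
  unfold LL
  rw [Finset.mul_sum, Finset.sum_eq_single j]
  · rw [Matrix.mul_smul, ← pow_add]
    congr 2
    have := j.2
    omega
  · intro i _ hij
    rw [Matrix.mul_smul, ← pow_add]
    rcases lt_or_gt_of_ne hij with h | h
    · rw [h0 i h, zero_smul]
    · have hle : m + 1 ≤ m - (j : ℕ) + (i : ℕ) := by
        have h1 : (j : ℕ) < (i : ℕ) := h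
        have := j.2
        omega
      rw [pow_eq_zero_of_le hle hnil, smul_zero]
  · intro h
    exact absurd (Finset.mem_univ j) h

theorem LL_inj (hnil : N ^ (m + 1) = 0) (v : Fin (m + 1) → F) (hv : (N ^ m) *ᵥ v ≠ 0)
    (a : Fin (m + 1) → F) (ha : LL N a *ᵥ v = 0) : a = 0 := by
  have key : ∀ k : ℕ, ∀ i : Fin (m + 1), (i : ℕ) < k → a i = 0 := by
    intro k
    induction k with
    | zero => intro i hi; omega
    | succ k ih =>
      intro i hi
      by_cases hik : (i : ℕ) < k
      · exact ih i hik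
      · have h1 := pow_mul_LL N hnil a i (fun i' hi' => ih i' (by
          have : (i' : ℕ) < (i : ℕ) := hi'
          omega))
        have h2 : (N ^ (m - (i : ℕ)) * LL N a) *ᵥ v = 0 := by
          rw [← Matrix.mulVec_mulVec, ha, Matrix.mulVec_zero]
        rw [h1, Matrix.smul_mulVec] at h2
        rcases smul_eq_zero.1 h2 with h3 | h3
        · exact h3
        · exact absurd h3 hv
  funext i
  exact key (i + 1) i (by omega)

theorem LL_unit (hnil : N ^ (m + 1) = 0) (a : Fin (m + 1) → F) :
    IsUnit (LL N a) ↔ a 0 ≠ 0 := by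
  have hc : Commute N (∑ i : Fin m, a i.succ • N ^ (i : ℕ)) := by
    apply Commute.sum_right
    intro i _
    exact ((Commute.refl N).pow_right _).smul_right _
  have hn : IsNilpotent (N * ∑ i : Fin m, a i.succ • N ^ (i : ℕ)) :=
    ⟨m + 1, by rw [hc.mul_pow, hnil, zero_mul]⟩
  rw [LL_decomp]
  constructor
  · intro hu h0
    rw [h0, zero_smul, zero_add] at hu
    exact hu.not_isNilpotent hn
  · intro h0
    apply hn.isUnit_add_left_of_commute
    · rw [← Algebra.algebraMap_eq_smul_one]
      exact (isUnit_iff_ne_zero.2 h0).map _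
    · exact (Commute.one_right _).smul_right _


theorem cent_eq [Fintype F] (hnil : N ^ (m + 1) = 0) (v : Fin (m + 1) → F)
    (hv : (N ^ m) *ᵥ v ≠ 0) (A : Matrix (Fin (m + 1)) (Fin (m + 1)) F) (hA : Commute A N) :
    ∃ a : Fin (m + 1) → F, A = LL N a := by
  have hinj : Function.Injective (fun a : Fin (m + 1) → F => LL N a *ᵥ v) := by
    intro a b hab
    have hab' : LL N a *ᵥ v = LL N b *ᵥ v := hab
    have : LL N (a - b) *ᵥ v = 0 := by rw [LL_sub, Matrix.sub_mulVec, hab', sub_self]
    exact sub_eq_zero.1 (LL_inj N hnil v hv _ this)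
  have hsurj := Finite.injective_iff_surjective.1 hinj
  obtain ⟨a, ha⟩ := hsurj (A *ᵥ v)
  have ha' : LL N a *ᵥ v = A *ᵥ v := ha
  refine ⟨a, ?_⟩
  have hB : Commute (A - LL N a) N := hA.sub_left (LL_comm N a).symm
  have hBv : (A - LL N a) *ᵥ v = 0 := by rw [Matrix.sub_mulVec, ha', sub_self]
  have hall : ∀ w : Fin (m + 1) → F, (A - LL N a) *ᵥ w = 0 := by
    intro w
    obtain ⟨b, hb⟩ := hsurj w
    have hb' : LL N b *ᵥ v = w := hb
    rw [← hb', Matrix.mulVec_mulVec, (LL_comm' N _ hB b).eq, ← Matrix.mulVec_mulVec, hBv,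
      Matrix.mulVec_zero]
  have h0 : A - LL N a = 0 := by
    ext i j
    have := congrFun (hall (Pi.single j 1)) i
    simpa using this
  exact sub_eq_zero.1 h0

end

/-- Centraliser of a regular unipotent element in GL_n(q): if u is an invertible n × n matrix over the field with q elements, n ≥ 1, with (u − 1)^n = 0 and rank(u − 1) = n − 1 (a single unipotent Jordan block), then its centraliser in GL_n(q) has order (q − 1) q^(n−1). -/
theorem result {F : Type*} [Field F] [Fintype F] {q n : ℕ} (hF : Fintype.card F = q) (hn : 1 ≤ n) (u : GL (Fin n) F) (hnil : ((u : Matrix (Fin n) (Fin n) F) - 1) ^ n = 0) (hreg : ((u : Matrix (Fin n) (Fin n) F) - 1).rank = n - 1) : Nat.card ↥(Subgroup.centralizer ({u} : Set (GL (Fin n) F))) = (q - 1) * q ^ (n - 1) := by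
  obtain ⟨m, rfl⟩ : ∃ m, n = m + 1 := ⟨n - 1, by omega⟩
  rw [Nat.add_sub_cancel] at hreg ⊢
  obtain ⟨v, hv⟩ := exists_cyclic _ hreg
  have hmem : ∀ g : GL (Fin (m + 1)) F, g ∈ Subgroup.centralizer ({u} : Set (GL (Fin (m + 1)) F)) ↔
      Commute g.val ((u : Matrix (Fin (m + 1)) (Fin (m + 1)) F) - 1) := by
    intro g
    rw [Subgroup.mem_centralizer_iff]
    constructor
    · intro h
      have h1 := h u rfl
      have h2 : u.val * g.val = g.val * u.val := by
        rw [← Units.val_mul, ← Units.val_mul, h1]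
      show g.val * (u.val - 1) = (u.val - 1) * g.val
      rw [mul_sub, sub_mul, mul_one, one_mul, h2]
    · intro h x hx
      rw [Set.mem_singleton_iff.1 hx]
      apply Units.ext
      rw [Units.val_mul, Units.val_mul]
      have h1 : g.val * (u.val - 1) = (u.val - 1) * g.val := h
      rw [mul_sub, sub_mul, mul_one, one_mul] at h1
      exact (sub_left_injective h1).symm
  let Θ : {a : Fin (m + 1) → F // a 0 ≠ 0} →
      Subgroup.centralizer ({u} : Set (GL (Fin (m + 1)) F)) :=
    fun a => ⟨((LL_unit _ hnil a.1).2 a.2).unit, (hmem _).2 (LL_comm _ a.1).symm⟩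
  have hΘ : Function.Bijective Θ := by
    constructor
    · intro a b hab
      have h1 : LL ((u : Matrix (Fin (m + 1)) (Fin (m + 1)) F) - 1) a.1 =
          LL ((u : Matrix (Fin (m + 1)) (Fin (m + 1)) F) - 1) b.1 :=
        congrArg (fun g : Subgroup.centralizer ({u} : Set (GL (Fin (m + 1)) F)) =>
          ((g : GL (Fin (m + 1)) F) : Matrix (Fin (m + 1)) (Fin (m + 1)) F)) hab
      apply Subtype.ext
      have := LL_inj _ hnil v hv (a.1 - b.1) (by rw [LL_sub, h1, sub_self, Matrix.zero_mulVec])
      exact sub_eq_zero.1 this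
    · intro g
      obtain ⟨a, ha⟩ := cent_eq _ hnil v hv g.1.val ((hmem g.1).1 g.2)
      have ha0 : a 0 ≠ 0 := (LL_unit _ hnil a).1 (ha ▸ g.1.isUnit)
      refine ⟨⟨a, ha0⟩, ?_⟩
      apply Subtype.ext
      apply Units.ext
      exact ha.symm
  rw [← Nat.card_congr (Equiv.ofBijective Θ hΘ)]
  let e : {a : Fin (m + 1) → F // a 0 ≠ 0} ≃ {x : F // x ≠ 0} × (Fin m → F) :=
    { toFun := fun a => (⟨a.1 0, a.2⟩, Fin.tail a.1)
      invFun := fun p => ⟨Fin.cons p.1.1 p.2, by simpa using p.1.2⟩
      left_inv := fun a => Subtype.ext (by simp)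
      right_inv := fun p => by simp }
  classical
  rw [Nat.card_congr e, Nat.card_prod, Nat.card_eq_fintype_card, Nat.card_eq_fintype_card,
    Fintype.card_subtype_compl, Fintype.card_subtype_eq, hF]
  simp [hF]

end Cfsg.Agent.S2571
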