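import Mathlib
import Cfsg.Statements.S2572

set_option autoImplicit false
open Cfsg

namespace Cfsg.Agent.S2572

open Matrix

theorem exists_basis {F : Type*} [Field F] {n : ℕ} (N : Matrix (Fin n) (Fin n) F)
    (hr : N.rank = 1) (hsq : N * N = 0) :
    ∃ (d : ℕ) (b : Module.Basis (Fin (d + 2)) F (Fin n → F)),
      N *ᵥ (b 0) = b 1 ∧ ∀ j : Fin (d + 2), j ≠ 0 → N *ᵥ (b j) = 0 := by
  have hr' : Module.finrank F (LinearMap.range N.mulVecLin) = 1 := hr
  obtain ⟨⟨v, hvr⟩, hv0, hspan⟩ := finrank_eq_one_iff'.1 hr'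
  obtain ⟨u, hu⟩ := hvr
  have hu' : N *ᵥ u = v := hu
  have hv0' : v ≠ 0 := fun h => hv0 (Subtype.ext h)
  have hNv : N *ᵥ v = 0 := by
    rw [← hu', Matrix.mulVec_mulVec, hsq, Matrix.zero_mulVec]
  have hspan' : ∀ z : Fin n → F, ∃ a : F, a • v = N *ᵥ z := by
    intro z
    obtain ⟨a, ha⟩ := hspan ⟨N *ᵥ z, ⟨z, rfl⟩⟩
    exact ⟨a, congrArg Subtype.val ha⟩
  obtain ⟨W₀, hW₀⟩ := Submodule.exists_isCompl (Submodule.span F {v})
  have hvK : v ∈ LinearMap.ker N.mulVecLin := hNv
  have hli : ∀ c : F, ∀ x ∈ W₀ ⊓ LinearMap.ker N.mulVecLin, c • v + x = 0 → c = 0 := by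
    intro c x hx h
    have h1 : c • v ∈ W₀ := by
      have : c • v = -x := eq_neg_of_add_eq_zero_left h
      rw [this]
      exact W₀.neg_mem hx.1
    have h2 : c • v ∈ Submodule.span F {v} :=
      Submodule.smul_mem _ _ (Submodule.mem_span_singleton_self v)
    have h3 : c • v = 0 := (Submodule.disjoint_def.1 hW₀.disjoint) _ h2 h1
    rcases smul_eq_zero.1 h3 with h | h
    · exact h
    · exact absurd h hv0'
  have hsp : ∀ z ∈ LinearMap.ker N.mulVecLin, ∃ c : F,
      z + c • v ∈ W₀ ⊓ LinearMap.ker N.mulVecLin := by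
    intro z hz
    have hz' : z ∈ Submodule.span F {v} ⊔ W₀ := by rw [hW₀.sup_eq_top]; trivial
    obtain ⟨y, hy, w, hw, hyw⟩ := Submodule.mem_sup.1 hz'
    obtain ⟨a, rfl⟩ := Submodule.mem_span_singleton.1 hy
    refine ⟨-a, ?_, ?_⟩
    · have : z + -a • v = w := by rw [← hyw]; module
      rw [this]
      exact hw
    · exact Submodule.add_mem _ hz (Submodule.smul_mem _ _ hvK)
  have hli' : ∀ c : F, ∀ x ∈ LinearMap.ker N.mulVecLin, c • u + x = 0 → c = 0 := by
    intro c x hx h
    have h1 : N *ᵥ (c • u + x) = 0 := by rw [h, Matrix.mulVec_zero]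
    have hx' : N *ᵥ x = 0 := hx
    rw [Matrix.mulVec_add, Matrix.mulVec_smul, hx', hu', add_zero] at h1
    rcases smul_eq_zero.1 h1 with h | h
    · exact h
    · exact absurd h hv0'
  have hsp' : ∀ z : Fin n → F, ∃ c : F, z + c • u ∈ LinearMap.ker N.mulVecLin := by
    intro z
    obtain ⟨a, ha⟩ := hspan' z
    refine ⟨-a, ?_⟩
    show N *ᵥ (z + -a • u) = 0
    rw [Matrix.mulVec_add, Matrix.mulVec_smul, ← ha, hu']
    module
  refine ⟨_, Module.Basis.mkFinCons u (Module.Basis.mkFinConsOfLE v hvK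
    (Module.finBasis F (W₀ ⊓ LinearMap.ker N.mulVecLin : Submodule F (Fin n → F)))
    inf_le_right hli hsp) hli' hsp', ?_, ?_⟩
  · rw [Module.Basis.coe_mkFinCons, ← Fin.succ_zero_eq_one, Fin.cons_zero, Fin.cons_succ,
      Function.comp_apply, Module.Basis.coe_mkFinConsOfLE, Fin.cons_zero]
    exact hu'
  · intro j hj
    obtain ⟨i, rfl⟩ := Fin.exists_succ_eq_of_ne_zero hj
    rw [Module.Basis.coe_mkFinCons, Fin.cons_succ, Function.comp_apply]
    exact (Module.Basis.mkFinConsOfLE v hvK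
      (Module.finBasis F (W₀ ⊓ LinearMap.ker N.mulVecLin : Submodule F (Fin n → F)))
      inf_le_right hli hsp i).2


section count
variable {F : Type*} [Field F] {M : Type} [Fintype M] [DecidableEq M]

/-- the standard block matrix -/
def Psi (c : F) (A : Matrix M M F) (r : M → F) (w : M ⊕ Unit → F) :
    Matrix ((M ⊕ Unit) ⊕ Unit) ((M ⊕ Unit) ⊕ Unit) F :=
  Matrix.fromBlocks
    (Matrix.fromBlocks A 0 (Matrix.replicateRow Unit r) (c • (1 : Matrix Unit Unit F)))
    (Matrix.replicateCol Unit w) 0 (c • (1 : Matrix Unit Unit F))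

/-- the standard nilpotent -/
def EE (F : Type*) [Field F] (M : Type) [Fintype M] [DecidableEq M] :
    Matrix ((M ⊕ Unit) ⊕ Unit) ((M ⊕ Unit) ⊕ Unit) F :=
  Matrix.single (Sum.inl (Sum.inr ())) (Sum.inr ()) 1

theorem det_Psi (c : F) (A : Matrix M M F) (r : M → F) (w : M ⊕ Unit → F) :
    (Psi c A r w).det = A.det * c * c := by
  unfold Psi
  rw [Matrix.det_fromBlocks_zero₂₁, Matrix.det_fromBlocks_zero₁₂]
  simp

theorem comm_iff (y : Matrix ((M ⊕ Unit) ⊕ Unit) ((M ⊕ Unit) ⊕ Unit) F) :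
    y * EE F M = EE F M * y ↔
      (∀ i, i ≠ Sum.inl (Sum.inr ()) → y i (Sum.inl (Sum.inr ())) = 0) ∧
      (∀ j, j ≠ Sum.inr () → y (Sum.inr ()) j = 0) ∧
      y (Sum.inl (Sum.inr ())) (Sum.inl (Sum.inr ())) = y (Sum.inr ()) (Sum.inr ()) := by
  constructor
  · intro h
    refine ⟨fun i hi => ?_, fun j hj => ?_, ?_⟩
    · have := congrFun (congrFun h i) (Sum.inr ())
      unfold EE at this
      rw [Matrix.mul_single_apply_same, Matrix.single_mul_apply_of_ne (h := hi), mul_one] at this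
      exact this
    · have := congrFun (congrFun h (Sum.inl (Sum.inr ()))) j
      unfold EE at this
      rw [Matrix.mul_single_apply_of_ne (hbj := hj), Matrix.single_mul_apply_same, one_mul] at this
      exact this.symm
    · have := congrFun (congrFun h (Sum.inl (Sum.inr ()))) (Sum.inr ())
      unfold EE at this
      rw [Matrix.mul_single_apply_same, Matrix.single_mul_apply_same, mul_one, one_mul] at this
      exact this
  · rintro ⟨h1, h2, h3⟩
    ext i j
    unfold EE
    by_cases hi : i = Sum.inl (Sum.inr ()) <;> by_cases hj : j = Sum.inr ()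
    · subst hi hj
      rw [Matrix.mul_single_apply_same, Matrix.single_mul_apply_same, mul_one, one_mul, h3]
    · subst hi
      rw [Matrix.mul_single_apply_of_ne (hbj := hj), Matrix.single_mul_apply_same, one_mul,
        h2 j hj]
    · subst hj
      rw [Matrix.mul_single_apply_same, Matrix.single_mul_apply_of_ne (h := hi), mul_one,
        h1 i hi]
    · rw [Matrix.mul_single_apply_of_ne (hbj := hj), Matrix.single_mul_apply_of_ne (h := hi)]

theorem Psi_comm (c : F) (A : Matrix M M F) (r : M → F) (w : M ⊕ Unit → F) :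
    Psi c A r w * EE F M = EE F M * Psi c A r w := by
  rw [comm_iff]
  refine ⟨?_, ?_, ?_⟩
  · rintro ((m | ⟨⟩) | ⟨⟩) h
    · simp [Psi]
    · exact absurd rfl h
    · simp [Psi]
  · rintro ((m | ⟨⟩) | ⟨⟩) h
    · simp [Psi]
    · simp [Psi]
    · exact absurd rfl h
  · simp [Psi]

theorem eq_Psi (y : Matrix ((M ⊕ Unit) ⊕ Unit) ((M ⊕ Unit) ⊕ Unit) F)
    (hy : y * EE F M = EE F M * y) :
    y = Psi (y (Sum.inr ()) (Sum.inr ()))
      (Matrix.of fun m m' => y (Sum.inl (Sum.inl m)) (Sum.inl (Sum.inl m')))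
      (fun m => y (Sum.inl (Sum.inr ())) (Sum.inl (Sum.inl m)))
      (fun i => y (Sum.inl i) (Sum.inr ())) := by
  obtain ⟨h1, h2, h3⟩ := (comm_iff y).1 hy
  ext i j
  rcases i with (m | u) | u <;> rcases j with (m' | u') | u'
  · simp [Psi]
  · simp [Psi, h1 (Sum.inl (Sum.inl m)) (by simp)]
  · simp [Psi]
  · simp [Psi]
  · simp [Psi, h3]
  · simp [Psi]
  · simp [Psi, h2 (Sum.inl (Sum.inl m')) (by simp)]
  · simp [Psi, h2 (Sum.inl (Sum.inr ())) (by simp)]
  · simp [Psi]

theorem Psi_inj (c c' : F) (A A' : Matrix M M F) (r r' : M → F) (w w' : M ⊕ Unit → F)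
    (h : Psi c A r w = Psi c' A' r' w') : c = c' ∧ A = A' ∧ r = r' ∧ w = w' := by
  refine ⟨?_, ?_, ?_, ?_⟩
  · have := congrFun (congrFun h (Sum.inr ())) (Sum.inr ())
    simpa [Psi] using this
  · ext m m'
    have := congrFun (congrFun h (Sum.inl (Sum.inl m))) (Sum.inl (Sum.inl m'))
    simpa [Psi] using this
  · ext m
    have := congrFun (congrFun h (Sum.inl (Sum.inr ()))) (Sum.inl (Sum.inl m))
    simpa [Psi] using this
  · ext i
    have := congrFun (congrFun h (Sum.inl i)) (Sum.inr ())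
    simpa [Psi] using this

theorem card_X [Fintype F] :
    Nat.card {y : Matrix ((M ⊕ Unit) ⊕ Unit) ((M ⊕ Unit) ⊕ Unit) F //
      IsUnit y ∧ y * EE F M = EE F M * y} =
    (Fintype.card F - 1) * (Nat.card (GL M F) *
      (Fintype.card F ^ Fintype.card M * Fintype.card F ^ (Fintype.card M + 1))) := by
  classical
  let f : {c : F // c ≠ 0} × (GL M F × ((M → F) × (M ⊕ Unit → F))) →
      {y : Matrix ((M ⊕ Unit) ⊕ Unit) ((M ⊕ Unit) ⊕ Unit) F //
        IsUnit y ∧ y * EE F M = EE F M * y} :=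
    fun x => ⟨Psi x.1.1 x.2.1.val x.2.2.1 x.2.2.2, by
      rw [Matrix.isUnit_iff_isUnit_det, det_Psi]
      have hA : IsUnit (x.2.1.val).det := (Matrix.isUnit_iff_isUnit_det _).1 x.2.1.isUnit
      have hc : IsUnit x.1.1 := isUnit_iff_ne_zero.2 x.1.2
      exact (hA.mul hc).mul hc, Psi_comm _ _ _ _⟩
  have hf : Function.Bijective f := by
    constructor
    · rintro ⟨c, A, r, w⟩ ⟨c', A', r', w'⟩ h
      have h' := congrArg Subtype.val h
      obtain ⟨h1, h2, h3, h4⟩ := Psi_inj c.1 c'.1 A.val A'.val r r' w w' h'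
      have h1' : c = c' := Subtype.ext h1
      have h2' : A = A' := Units.ext h2
      subst h1' h2' h3 h4
      rfl
    · rintro ⟨y, hu, hc⟩
      obtain ⟨c, A, r, w, hy⟩ : ∃ (c : F) (A : Matrix M M F) (r : M → F) (w : M ⊕ Unit → F),
          y = Psi c A r w := ⟨_, _, _, _, eq_Psi y hc⟩
      subst hy
      have hdet : IsUnit (Psi c A r w).det := (Matrix.isUnit_iff_isUnit_det _).1 hu
      rw [det_Psi] at hdet
      have hne := hdet.ne_zero
      have hc0 : c ≠ 0 := by
        intro h0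
        apply hne
        rw [h0, mul_zero]
      have hA0 : A.det ≠ 0 := by
        intro h0
        apply hne
        rw [h0, zero_mul, zero_mul]
      have hAu : IsUnit A := (Matrix.isUnit_iff_isUnit_det _).2 (isUnit_iff_ne_zero.2 hA0)
      exact ⟨⟨⟨c, hc0⟩, hAu.unit, r, w⟩, rfl⟩
  rw [← Nat.card_congr (Equiv.ofBijective f hf), Nat.card_prod, Nat.card_prod, Nat.card_prod]
  congr 1
  · rw [Nat.card_eq_fintype_card, Fintype.card_subtype_compl, Fintype.card_subtype_eq]
  · congr 1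
    congr 1
    · rw [Nat.card_eq_fintype_card, Fintype.card_fun]
    · rw [Nat.card_eq_fintype_card, Fintype.card_fun]
      simp

end count

theorem card_transfer {F : Type*} [Field F] {ι κ : Type} [Fintype ι] [DecidableEq ι]
    [Fintype κ] [DecidableEq κ] (Θ : Matrix ι ι F ≃ₐ[F] Matrix κ κ F) (t : GL ι F)
    (E : Matrix κ κ F) (hE : Θ ((t : Matrix ι ι F) - 1) = E) :
    Nat.card (Subgroup.centralizer ({t} : Set (GL ι F))) =
      Nat.card {y : Matrix κ κ F // IsUnit y ∧ y * E = E * y} := by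
  have hcomm : ∀ x : Matrix ι ι F, (t : Matrix ι ι F) * x = x * (t : Matrix ι ι F) ↔
      Θ x * E = E * Θ x := by
    intro x
    rw [← hE, ← map_mul, ← map_mul, Θ.injective.eq_iff, mul_sub, sub_mul, mul_one, one_mul]
    constructor
    · intro h; rw [h]
    · intro h; exact (sub_left_injective h).symm
  let f : Subgroup.centralizer ({t} : Set (GL ι F)) →
      {y : Matrix κ κ F // IsUnit y ∧ y * E = E * y} :=
    fun g => ⟨Θ (g.1 : Matrix ι ι F), g.1.isUnit.map Θ, (hcomm _).1 (by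
      have := Subgroup.mem_centralizer_iff.1 g.2 t rfl
      rw [← Units.val_mul, ← Units.val_mul, this])⟩
  have hf : Function.Bijective f := by
    constructor
    · intro g g' h
      have h' : Θ (g.1 : Matrix ι ι F) = Θ (g'.1 : Matrix ι ι F) := congrArg Subtype.val h
      exact Subtype.ext (Units.ext (Θ.injective h'))
    · rintro ⟨y, hu, hc⟩
      have hxu : IsUnit (Θ.symm y) := hu.map Θ.symm
      refine ⟨⟨hxu.unit, ?_⟩, ?_⟩
      · rw [Subgroup.mem_centralizer_iff]
        intro h hh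
        rw [Set.mem_singleton_iff.1 hh]
        apply Units.ext
        rw [Units.val_mul, Units.val_mul]
        show (t : Matrix ι ι F) * Θ.symm y = Θ.symm y * (t : Matrix ι ι F)
        rw [hcomm, Θ.apply_symm_apply]
        exact hc
      · apply Subtype.ext
        show Θ (Θ.symm y) = y
        exact Θ.apply_symm_apply y
  exact Nat.card_congr (Equiv.ofBijective f hf)


/-- reindexing: `0 ↦ last`, `1 ↦ middle unit` -/
def eqv (d : ℕ) : Fin (d + 2) ≃ (Fin d ⊕ Unit) ⊕ Unit :=
  (finSuccEquiv (d + 1)).trans ((Equiv.optionCongr (finSuccEquiv d)).trans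
    ((Equiv.optionEquivSumPUnit _).trans
      (Equiv.sumCongr (Equiv.optionEquivSumPUnit _) (Equiv.refl _))))

theorem eqv_zero (d : ℕ) : eqv d 0 = Sum.inr () := rfl

theorem eqv_one (d : ℕ) : eqv d 1 = Sum.inl (Sum.inr ()) := rfl

theorem prod_cast (q : ℕ) (m d : ℕ) (h : m = d) :
    ∏ i : Fin m, (q ^ m - q ^ (i : ℕ)) = ∏ i : Fin d, (q ^ d - q ^ (i : ℕ)) := by
  subst h; rfl

/-- Centraliser of a transvection in GL_n(q), n ≥ 2: if t − 1 has rank one and square zero, the centraliser of t in GL_n(q) has order q^(2n−3) (q − 1) |GL_(n−2)(q)| (a group of order q^(2n−3) extended by GL_1(q) × GL_(n−2)(q)). -/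
theorem result {F : Type*} [Field F] [Fintype F] {q n : ℕ} (hF : Fintype.card F = q) (hn : 2 ≤ n) (t : GL (Fin n) F) (ht : Cfsg.IsTransvection (t : Matrix (Fin n) (Fin n) F)) : Nat.card ↥(Subgroup.centralizer ({t} : Set (GL (Fin n) F))) = q ^ (2 * n - 3) * (q - 1) * ∏ i : Fin (n - 2), (q ^ (n - 2) - q ^ (i : ℕ)) := by
  obtain ⟨hr, hsq⟩ := ht
  obtain ⟨d, b, hb0, hbj⟩ := exists_basis _ hr hsq
  have hnd : n = d + 2 := by
    have := Module.finrank_eq_card_basis b
    simpa using this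
  subst hnd
  have hΘ : ((Matrix.toLinAlgEquiv' : Matrix (Fin (d + 2)) (Fin (d + 2)) F ≃ₐ[F] _).trans
      (LinearMap.toMatrixAlgEquiv (b.reindex (eqv d))))
      ((t : Matrix (Fin (d + 2)) (Fin (d + 2)) F) - 1) = EE F (Fin d) := by
    ext i j
    show (LinearMap.toMatrixAlgEquiv (b.reindex (eqv d)))
      (Matrix.toLinAlgEquiv' ((t : Matrix (Fin (d + 2)) (Fin (d + 2)) F) - 1)) i j = _
    rw [LinearMap.toMatrixAlgEquiv_apply, Matrix.toLinAlgEquiv'_apply, Module.Basis.reindex_apply]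
    by_cases hj : j = Sum.inr ()
    · subst hj
      have h0 : (eqv d).symm (Sum.inr ()) = 0 := by
        rw [Equiv.symm_apply_eq, eqv_zero]
      have h1 : b 1 = (b.reindex (eqv d)) (Sum.inl (Sum.inr ())) := by
        rw [Module.Basis.reindex_apply, ← eqv_one, Equiv.symm_apply_apply]
      rw [h0, hb0, h1, Module.Basis.repr_self]
      unfold EE
      by_cases hi : i = Sum.inl (Sum.inr ())
      · subst hi; simp
      · rw [Finsupp.single_apply, if_neg (Ne.symm hi), Matrix.single_apply_of_row_ne (Ne.symm hi)]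
    · have h0 : (eqv d).symm j ≠ 0 := by
        intro h
        apply hj
        rw [Equiv.symm_apply_eq, eqv_zero] at h
        exact h
      rw [hbj _ h0]
      unfold EE
      rw [Matrix.single_apply_of_col_ne _ _ (Ne.symm hj)]
      simp
  rw [card_transfer _ t _ hΘ, card_X, Matrix.card_GL_field, hF,
    prod_cast q (d + 2 - 2) d (by omega)]
  have e1 : 2 * (d + 2) - 3 = d + (d + 1) := by omega
  rw [e1, pow_add]
  simp only [Fintype.card_fin]
  ring

end Cfsg.Agent.S2572
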