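import Cfsg.Statements.S2574
import Mathlib

set_option autoImplicit false
open Cfsg

namespace Cfsg.Agent.S2574

theorem finrank_ker_pow_le {K V : Type*} [Field K] [AddCommGroup V] [Module K V]
    [FiniteDimensional K V] (f : Module.End K V) (k : ℕ) :
    Module.finrank K (LinearMap.ker (f ^ k)) ≤ k * Module.finrank K (LinearMap.ker f) := by
  induction k with
  | zero =>
    have : LinearMap.ker (f ^ 0) = ⊥ := by
      rw [pow_zero]; exact LinearMap.ker_id
    rw [this]; simp
  | succ k ih =>
    let g : LinearMap.ker (f ^ (k + 1)) →ₗ[K] LinearMap.ker (f ^ k) :=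
      f.restrict (p := LinearMap.ker (f ^ (k + 1))) (q := LinearMap.ker (f ^ k)) (by
        intro x hx
        rw [LinearMap.mem_ker] at hx ⊢
        rw [pow_succ] at hx
        exact hx)
    have h1 := LinearMap.finrank_range_add_finrank_ker g
    have h2 : Module.finrank K (LinearMap.range g) ≤ Module.finrank K (LinearMap.ker (f ^ k)) :=
      Submodule.finrank_le _
    have h3 : Module.finrank K (LinearMap.ker g) ≤ Module.finrank K (LinearMap.ker f) := by
      have hle : (LinearMap.ker g).map (Submodule.subtype _) ≤ LinearMap.ker f := by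
        rintro _ ⟨x, hx, rfl⟩
        have := congrArg Subtype.val (LinearMap.mem_ker.mp hx)
        exact this
      calc Module.finrank K (LinearMap.ker g)
          = Module.finrank K ((LinearMap.ker g).map (Submodule.subtype _)) :=
            (Submodule.finrank_map_subtype_eq _ _).symm
        _ ≤ Module.finrank K (LinearMap.ker f) := Submodule.finrank_mono hle
    rw [add_mul, one_mul]
    omega

theorem invariant_eq_ker {K V : Type*} [Field K] [AddCommGroup V] [Module K V]
    [FiniteDimensional K V] (f : Module.End K V) (n : ℕ) (hfn : f ^ n = 0)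
    (hker : Module.finrank K (LinearMap.ker f) ≤ 1) (W : Submodule K V)
    (hWf : ∀ w ∈ W, f w ∈ W) : W = LinearMap.ker (f ^ Module.finrank K W) := by
  let g : Module.End K W := f.restrict hWf
  have hg : g ^ n = 0 := by
    rw [Module.End.pow_restrict]
    ext w
    simp [hfn]
  have hgd : g ^ (Module.finrank K W) = 0 := by
    have := Module.End.ker_pow_le_ker_pow_finrank g n
    rw [hg, LinearMap.ker_zero] at this
    exact LinearMap.ker_eq_top.mp (top_le_iff.mp this)
  have hle : W ≤ LinearMap.ker (f ^ Module.finrank K W) := by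
    intro w hw
    rw [LinearMap.mem_ker]
    rw [Module.End.pow_restrict] at hgd
    have := congrArg (fun h => ((h ⟨w, hw⟩ : W) : V)) hgd
    simpa using this
  have hdim : Module.finrank K (LinearMap.ker (f ^ Module.finrank K W)) ≤ Module.finrank K W := by
    calc Module.finrank K (LinearMap.ker (f ^ Module.finrank K W))
        ≤ Module.finrank K W * Module.finrank K (LinearMap.ker f) := finrank_ker_pow_le f _
      _ ≤ Module.finrank K W * 1 := Nat.mul_le_mul_left _ hker
      _ = _ := mul_one _
  exact Submodule.eq_of_le_of_finrank_le hle hdim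

/-- A regular unipotent element of the symplectic group has totally isotropic small invariant subspaces: over a finite field, if u ∈ Sp_2m(F) satisfies (u − 1)^(2m) = 0 and rank(u − 1) = 2m − 1, and W is a u-invariant subspace with 2 dim W ≤ 2m, then the alternating form vanishes identically on W. -/
theorem result {F : Type*} [Field F] [Finite F] {m : ℕ} (u : Matrix.symplecticGroup (Fin m) F) (hnil : ((u : Matrix (Fin m ⊕ Fin m) (Fin m ⊕ Fin m) F) - 1) ^ (2 * m) = 0) (hreg : ((u : Matrix (Fin m ⊕ Fin m) (Fin m ⊕ Fin m) F) - 1).rank = 2 * m - 1) (W : Submodule F (Fin m ⊕ Fin m → F)) (hW : ∀ v ∈ W, (u : Matrix (Fin m ⊕ Fin m) (Fin m ⊕ Fin m) F).mulVec v ∈ W) (hdim : 2 * Module.finrank F W ≤ 2 * m) : ∀ v ∈ W, ∀ w ∈ W, Cfsg.sympForm m F v w = 0 := by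
  classical
  set A : Matrix (Fin m ⊕ Fin m) (Fin m ⊕ Fin m) F := (u : Matrix (Fin m ⊕ Fin m) (Fin m ⊕ Fin m) F) with hA
  let f : Module.End F (Fin m ⊕ Fin m → F) := Matrix.toLin' (A - 1)
  have hfn : f ^ (2 * m) = 0 := by
    rw [← Matrix.toLin'_pow, hnil]; simp
  have hfin : Module.finrank F (Fin m ⊕ Fin m → F) = 2 * m := by
    simp; omega
  have hker : Module.finrank F (LinearMap.ker f) ≤ 1 := by
    have h := LinearMap.finrank_range_add_finrank_ker f
    have hr : Module.finrank F (LinearMap.range f) = 2 * m - 1 := hreg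
    rw [hr, hfin] at h
    omega
  have hfapp : ∀ w, f w = A.mulVec w - w := by
    intro w; simp [f]
  have hWf : ∀ w ∈ W, f w ∈ W := by
    intro w hw
    rw [hfapp]; exact W.sub_mem (hW w hw) hw
  -- A preserves the form
  have hAJ : A.transpose * Matrix.J (Fin m) F * A = Matrix.J (Fin m) F := by
    exact SymplecticGroup.mem_iff'.mp u.2
  have hform : ∀ x y, Cfsg.sympForm m F (A.mulVec x) (A.mulVec y) = Cfsg.sympForm m F x y := by
    intro x y
    unfold Cfsg.sympForm
    rw [Matrix.mulVec_mulVec, ← Matrix.vecMul_transpose, Matrix.dotProduct_mulVec,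
      Matrix.vecMul_vecMul, ← Matrix.dotProduct_mulVec, ← Matrix.mul_assoc, hAJ]
  -- A maps W onto W
  have hAinj : Function.Injective A.mulVec := by
    have hu : IsUnit A := by
      have : IsUnit A.det := SymplecticGroup.symplectic_det u.2
      exact (Matrix.isUnit_iff_isUnit_det A).mpr this
    exact Matrix.mulVec_injective_iff_isUnit.mpr hu
  let g : W →ₗ[F] W := (Matrix.mulVecLin A).restrict (p := W) (q := W) hW
  have hginj : Function.Injective g := by
    intro a b hab
    apply Subtype.ext
    apply hAinj
    have := congrArg Subtype.val hab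
    exact this
  have hgsurj : Function.Surjective g := LinearMap.injective_iff_surjective.mp hginj
  have hWsurj : ∀ w ∈ W, ∃ w' ∈ W, A.mulVec w' = w := by
    intro w hw
    obtain ⟨w', hw'⟩ := hgsurj ⟨w, hw⟩
    refine ⟨w', w'.2, ?_⟩
    have := congrArg Subtype.val hw'
    exact this
  -- the bilinear form
  let B : LinearMap.BilinForm F (Fin m ⊕ Fin m → F) := Matrix.toBilin' (Matrix.J (Fin m) F)
  have hBapp : ∀ x y, B x y = Cfsg.sympForm m F x y := by
    intro x y
    simp [B, Matrix.toBilin'_apply', Cfsg.sympForm]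
  have hBnd : B.Nondegenerate := by
    apply Matrix.nondegenerate_toBilin'_iff.mpr
    apply Matrix.nondegenerate_of_det_ne_zero
    exact (Matrix.isUnit_det_J (Fin m) F).ne_zero
  let W' : Submodule F (Fin m ⊕ Fin m → F) := B.orthogonal W
  have hW'dim : Module.finrank F W' = 2 * m - Module.finrank F W := by
    rw [← hfin]
    exact LinearMap.BilinForm.finrank_orthogonal hBnd W
  have hW'f : ∀ w ∈ W', f w ∈ W' := by
    intro v hv
    rw [hfapp]
    refine W'.sub_mem ?_ hv
    refine LinearMap.BilinForm.mem_orthogonal_iff.mpr ?_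
    intro w hw
    obtain ⟨w', hw', rfl⟩ := hWsurj w hw
    rw [hBapp, hform, ← hBapp]
    exact (LinearMap.BilinForm.mem_orthogonal_iff.mp hv) w' hw'
  have e1 := invariant_eq_ker f (2 * m) hfn hker W hWf
  have e2 := invariant_eq_ker f (2 * m) hfn hker W' hW'f
  have hle : W ≤ W' := by
    rw [e1, e2, hW'dim]
    have hd : 2 * m - Module.finrank F W = (2 * m - 2 * Module.finrank F W) + Module.finrank F W := by
      omega
    rw [hd, pow_add]
    exact LinearMap.ker_le_ker_comp _ _
  intro v hv w hw
  have := (LinearMap.BilinForm.mem_orthogonal_iff.mp (hle hw)) v hv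
  rwa [hBapp] at this

end Cfsg.Agent.S2574
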