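import Cfsg.Statements.S2575
import Mathlib

set_option autoImplicit false
open Cfsg

namespace Cfsg.Agent.S2575

theorem neg_one_ne_one {F : Type*} [Field F] [Fintype F] (hq : Odd (Fintype.card F)) :
    (-1 : F) ≠ 1 := by
  have hchar : ringChar F ≠ 2 := by
    intro h
    have := FiniteField.even_card_iff_char_two.mp h
    rcases hq with ⟨k, hk⟩
    omega
  exact Ring.neg_one_ne_one_of_char_ne_two hchar

theorem card_sub_one_ne_zero {F : Type*} [Field F] [Fintype F] : Fintype.card F - 1 ≠ 0 := by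
  have := Fintype.one_lt_card (α := F)
  omega

/-- If `d ^ (2 ^ k) = -1` in a finite field of odd order `q` then `k < v₂(q - 1)`. -/
theorem lt_padicValNat_of_pow_eq_neg_one {F : Type*} [Field F] [Fintype F]
    (hq : Odd (Fintype.card F)) (d : F) (k : ℕ) (hd : d ^ (2 ^ k) = -1) :
    k < padicValNat 2 (Fintype.card F - 1) := by
  have hne := neg_one_ne_one hq
  have hd0 : d ≠ 0 := by
    rintro rfl
    rw [zero_pow (by positivity)] at hd
    exact absurd hd (by simp)
  have ho : orderOf d = 2 ^ (k + 1) := by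
    apply orderOf_eq_prime_pow
    · rw [hd]; exact hne
    · rw [pow_succ, pow_mul, hd]; simp
  have hdvd : 2 ^ (k + 1) ∣ Fintype.card F - 1 := by
    rw [← ho]
    exact orderOf_dvd_of_pow_eq_one (FiniteField.pow_card_sub_one_eq_one d hd0)
  exact (padicValNat_dvd_iff_le card_sub_one_ne_zero).mp hdvd

/-- In a finite field of odd order, `-1` is an `n`-th power when `v₂(n) < v₂(q - 1)`. -/
theorem exists_pow_eq_neg_one {F : Type*} [Field F] [Fintype F]
    (hq : Odd (Fintype.card F)) (n : ℕ) (hn : n ≠ 0)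
    (h : padicValNat 2 n < padicValNat 2 (Fintype.card F - 1)) :
    ∃ c : F, c ≠ 0 ∧ c ^ n = -1 := by
  classical
  have hne := neg_one_ne_one hq
  obtain ⟨a, n', hn', rfl⟩ := Nat.exists_eq_two_pow_mul_odd hn
  have ha : padicValNat 2 (2 ^ a * n') = a := by
    have hn'0 : n' ≠ 0 := by rintro rfl; simp at hn
    rw [padicValNat.mul (by positivity) hn'0, padicValNat.prime_pow,
      padicValNat.eq_zero_of_not_dvd (by rcases hn' with ⟨k, hk⟩; omega), add_zero]
  rw [ha] at h
  have hdvd : 2 ^ (a + 1) ∣ Fintype.card F - 1 :=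
    (padicValNat_dvd_iff_le card_sub_one_ne_zero).mpr h
  obtain ⟨r, hr⟩ := hdvd
  obtain ⟨g, hg⟩ := IsCyclic.exists_generator (α := Fˣ)
  have hgo : orderOf g = Fintype.card F - 1 := by
    rw [orderOf_eq_card_of_forall_mem_zpowers hg, Nat.card_units, Nat.card_eq_fintype_card]
  have hr0 : 0 < r := by
    rcases Nat.eq_zero_or_pos r with h0 | h0
    · rw [h0, mul_zero] at hr
      exact absurd hr card_sub_one_ne_zero
    · exact h0
  -- z = g ^ (2^a * r) is -1
  have hz1 : g ^ (2 ^ a * r) ≠ 1 := by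
    apply pow_ne_one_of_lt_orderOf
    · positivity
    · rw [hgo, hr]
      have h1 : 0 < 2 ^ a * r := by positivity
      have h2 : 2 ^ (a + 1) * r = 2 * (2 ^ a * r) := by ring
      omega
  have hz2 : (g ^ (2 ^ a * r)) ^ 2 = 1 := by
    rw [← pow_mul, show 2 ^ a * r * 2 = orderOf g by rw [hgo, hr]; ring, pow_orderOf_eq_one]
  have hz : ((g ^ (2 ^ a * r) : Fˣ) : F) = -1 := by
    have h1 : ((g ^ (2 ^ a * r) : Fˣ) : F) * ((g ^ (2 ^ a * r) : Fˣ) : F) = 1 := by
      rw [← Units.val_mul, ← pow_two, hz2, Units.val_one]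
    rcases mul_self_eq_one_iff.mp h1 with h2 | h2
    · exact absurd (Units.ext h2) hz1
    · exact h2
  refine ⟨((g ^ r : Fˣ) : F), Units.ne_zero _, ?_⟩
  rw [← Units.val_pow_eq_pow_val, ← pow_mul, show r * (2 ^ a * n') = (2 ^ a * r) * n' by ring,
    pow_mul, Units.val_pow_eq_pow_val, hz]
  exact Odd.neg_one_pow hn'

theorem prod_ite_lt (F : Type*) [Field F] (n i : ℕ) (hi : i ≤ n) :
    ∏ j : Fin n, (if (j : ℕ) < i then (-1 : F) else 1) = (-1) ^ i := by
  rw [Fin.prod_univ_eq_prod_range (fun j => if j < i then (-1 : F) else 1) n]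
  rw [Finset.prod_ite, Finset.prod_const_one, mul_one, Finset.prod_const]
  congr 1
  have : (Finset.range n).filter (fun j => j < i) = Finset.range i := by
    ext j
    simp only [Finset.mem_filter, Finset.mem_range]
    omega
  rw [this, Finset.card_range]

/-- Which diagonal involutions of PGL_n(q) lie in PSL_n(q), q odd: for the diagonal matrix t with i entries −1 and n − i entries 1, some non-zero scalar multiple of t has determinant one if and only if i is even or the 2-part of q − 1 exceeds the 2-part of n (that is, −1 is an n-th power in the field exactly in the latter case). -/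
theorem result {F : Type*} [Field F] [Fintype F] {q : ℕ} (hF : Fintype.card F = q) (hq : Odd q) {n : ℕ} (hn : 1 ≤ n) (i : ℕ) (hi : i ≤ n) : (∃ c : F, c ≠ 0 ∧ (c • Matrix.diagonal (fun j : Fin n => if (j : ℕ) < i then (-1 : F) else 1)).det = 1) ↔ (Even i ∨ padicValNat 2 n < padicValNat 2 (q - 1)) := by
  subst hF
  have hdet : ∀ c : F, (c • Matrix.diagonal (fun j : Fin n => if (j : ℕ) < i then (-1 : F) else 1)).det
      = c ^ n * (-1) ^ i := by
    intro c
    rw [Matrix.det_smul, Matrix.det_diagonal, prod_ite_lt F n i hi, Fintype.card_fin]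
  simp only [hdet]
  have hne := neg_one_ne_one hq
  constructor
  · rintro ⟨c, hc0, hc⟩
    by_cases hi2 : Even i
    · exact Or.inl hi2
    right
    have hodd : Odd i := Nat.not_even_iff_odd.mp hi2
    rw [Odd.neg_one_pow hodd, mul_neg_one, neg_eq_iff_eq_neg] at hc
    obtain ⟨a, n', hn', rfl⟩ := Nat.exists_eq_two_pow_mul_odd (show n ≠ 0 by omega)
    have ha : padicValNat 2 (2 ^ a * n') = a := by
      have hn'0 : n' ≠ 0 := by rintro rfl; simp at hn
      rw [padicValNat.mul (by positivity) hn'0, padicValNat.prime_pow,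
        padicValNat.eq_zero_of_not_dvd (by rcases hn' with ⟨k, hk⟩; omega), add_zero]
    rw [ha]
    apply lt_padicValNat_of_pow_eq_neg_one hq (c ^ n') a
    rw [← pow_mul, mul_comm, hc]
  · rintro (hi2 | h)
    · exact ⟨1, one_ne_zero, by rw [one_pow, one_mul, Even.neg_one_pow hi2]⟩
    · by_cases hi2 : Even i
      · exact ⟨1, one_ne_zero, by rw [one_pow, one_mul, Even.neg_one_pow hi2]⟩
      have hodd : Odd i := Nat.not_even_iff_odd.mp hi2
      obtain ⟨c, hc0, hc⟩ := exists_pow_eq_neg_one hq n (by omega) h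
      exact ⟨c, hc0, by rw [hc, Odd.neg_one_pow hodd]; simp⟩

end Cfsg.Agent.S2575
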