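import Cfsg.Statements.S2576
import Mathlib

set_option autoImplicit false
open Cfsg

namespace Cfsg.Agent.S2576

theorem neg_one_ne_one {F : Type*} [Field F] [Fintype F] (hq : Odd (Fintype.card F)) :
    (-1 : F) ≠ 1 := by
  have hchar : ringChar F ≠ 2 := by
    intro h
    have := FiniteField.even_card_iff_char_two.mp h
    rcases hq with ⟨k, hk⟩
    omega
  exact Ring.neg_one_ne_one_of_char_ne_two hchar

theorem card_sub_one_ne_zero {F : Type*} [Field F] [Fintype F] : Fintype.card F - 1 ≠ 0 := by
  have := Fintype.one_lt_card (α := F)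
  omega

/-- If `d ^ (2 ^ k) = -1` in a finite field of odd order `q` then `k < v₂(q - 1)`. -/
theorem lt_padicValNat_of_pow_eq_neg_one {F : Type*} [Field F] [Fintype F]
    (hq : Odd (Fintype.card F)) (d : F) (k : ℕ) (hd : d ^ (2 ^ k) = -1) :
    k < padicValNat 2 (Fintype.card F - 1) := by
  have hne := neg_one_ne_one hq
  have hd0 : d ≠ 0 := by
    rintro rfl
    rw [zero_pow (by positivity)] at hd
    exact absurd hd (by simp)
  have ho : orderOf d = 2 ^ (k + 1) := by
    apply orderOf_eq_prime_pow
    · rw [hd]; exact hne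
    · rw [pow_succ, pow_mul, hd]; simp
  have hdvd : 2 ^ (k + 1) ∣ Fintype.card F - 1 := by
    rw [← ho]
    exact orderOf_dvd_of_pow_eq_one (FiniteField.pow_card_sub_one_eq_one d hd0)
  exact (padicValNat_dvd_iff_le card_sub_one_ne_zero).mp hdvd

theorem padicValNat_two_mul (m : ℕ) (hm : m ≠ 0) : padicValNat 2 (2 * m) = padicValNat 2 m + 1 := by
  rw [padicValNat.mul (by norm_num) hm, padicValNat.self (by norm_num), add_comm]

/-- Which involutions of PGL_2m(q) coming from a scalar of the quadratic extension field lie in PSL_2m(q), q odd: let μ generate the Sylow 2-subgroup of the multiplicative group of the field with q elements (μ has order the 2-part of q − 1) and let t be the block-diagonal matrix with m diagonal blocks [[0, 1], [μ, 0]] (so t² is the scalar μ and t is an involution modulo scalars). Then some non-zero scalar multiple of t has determinant one if and only if q ≡ 3 (mod 4) or the 2-part of q − 1 is less than the 2-part of 2m. -/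
theorem result {F : Type*} [Field F] [Fintype F] {q : ℕ} (hF : Fintype.card F = q) (hq : Odd q) {m : ℕ} (hm : 1 ≤ m) (μ : F) (hμ : orderOf μ = 2 ^ padicValNat 2 (q - 1)) : (∃ c : F, c ≠ 0 ∧ (c • Matrix.blockDiagonal (fun _ : Fin m => !![(0 : F), 1; μ, 0])).det = 1) ↔ (q % 4 = 3 ∨ padicValNat 2 (q - 1) < padicValNat 2 (2 * m)) := by
  classical
  subst hF
  have hdet : ∀ c : F, (c • Matrix.blockDiagonal (fun _ : Fin m => !![(0 : F), 1; μ, 0])).det
      = c ^ (2 * m) * (-μ) ^ m := by
    intro c
    rw [Matrix.det_smul, Matrix.det_blockDiagonal]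
    simp [Matrix.det_fin_two_of]
  simp only [hdet]
  have hne := neg_one_ne_one hq
  have hm0 : m ≠ 0 := by omega
  set e := padicValNat 2 (Fintype.card F - 1) with he
  have hq1 : Fintype.card F - 1 ≠ 0 := card_sub_one_ne_zero
  have he1 : 1 ≤ e := by
    apply (padicValNat_dvd_iff_le hq1).mp
    rcases hq with ⟨k, hk⟩
    rw [pow_one]
    omega
  rw [padicValNat_two_mul m hm0]
  -- μ ^ (2 ^ (e - 1)) = -1
  have hμ2 : μ ^ (2 ^ (e - 1)) = -1 := by
    have h1 : μ ^ (2 ^ (e - 1)) ≠ 1 := by
      apply pow_ne_one_of_lt_orderOf (by positivity)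
      rw [hμ]
      exact Nat.pow_lt_pow_right (by norm_num) (by omega)
    have h2 : μ ^ (2 ^ (e - 1)) * μ ^ (2 ^ (e - 1)) = 1 := by
      rw [← pow_add, ← two_mul, ← pow_succ', show e - 1 + 1 = e by omega, ← hμ, pow_orderOf_eq_one]
    rcases mul_self_eq_one_iff.mp h2 with h3 | h3
    · exact absurd h3 h1
    · exact h3
  constructor
  · rintro ⟨c, hc0, hc⟩
    by_contra hcon
    rw [not_or, not_lt] at hcon
    obtain ⟨hq3, hle⟩ := hcon
    -- e ≥ 2
    have he2 : 2 ≤ e := by
      apply (padicValNat_dvd_iff_le hq1).mp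
      rcases hq with ⟨k, hk⟩
      show 2 ^ 2 ∣ Fintype.card F - 1
      have : Fintype.card F % 4 = 1 := by omega
      omega
    obtain ⟨b, m', hm', rfl⟩ := Nat.exists_eq_two_pow_mul_odd hm0
    have hb : padicValNat 2 (2 ^ b * m') = b := by
      have hm'0 : m' ≠ 0 := by rintro rfl; simp at hm0
      rw [padicValNat.mul (by positivity) hm'0, padicValNat.prime_pow,
        padicValNat.eq_zero_of_not_dvd (by rcases hm' with ⟨k, hk⟩; omega), add_zero]
    rw [hb] at hle
    have hν : (-μ) ^ (2 ^ (e - 1)) = -1 := by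
      rw [neg_pow, hμ2, Even.neg_one_pow, one_mul]
      exact (Nat.even_pow' (by omega)).mpr even_two
    have h5 := congrArg (fun x => x ^ (2 ^ (e - 1 - b))) hc
    simp only [one_pow, mul_pow] at h5
    rw [← pow_mul, ← pow_mul] at h5
    have hexp1 : 2 * (2 ^ b * m') * 2 ^ (e - 1 - b) = m' * 2 ^ e := by
      have : 2 ^ e = 2 * 2 ^ b * 2 ^ (e - 1 - b) := by
        rw [← pow_succ', ← pow_add]; congr 1; omega
      rw [this]; ring
    have hexp2 : 2 ^ b * m' * 2 ^ (e - 1 - b) = 2 ^ (e - 1) * m' := by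
      have : 2 ^ (e - 1) = 2 ^ b * 2 ^ (e - 1 - b) := by
        rw [← pow_add]; congr 1; omega
      rw [this]; ring
    rw [hexp1, hexp2, pow_mul (-μ), hν, Odd.neg_one_pow hm', mul_neg_one, neg_eq_iff_eq_neg,
      pow_mul] at h5
    have := lt_padicValNat_of_pow_eq_neg_one hq (c ^ m') e h5
    omega
  · rintro (hq3 | h)
    · -- e = 1, μ = -1
      have he' : e = 1 := by
        have h4 : ¬ (2 ^ 2 ∣ Fintype.card F - 1) := by
          intro hd
          have : Fintype.card F ≥ 1 := Fintype.card_pos
          omega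
        have := (padicValNat_dvd_iff_le (p := 2) (n := 2) hq1).not.mp h4
        omega
      rw [he'] at hμ2
      simp only [Nat.sub_self, pow_zero, pow_one] at hμ2
      refine ⟨1, one_ne_zero, ?_⟩
      rw [hμ2]; simp
    · have hle : e ≤ padicValNat 2 m := by omega
      have hdvd : 2 ^ e ∣ m := (padicValNat_dvd_iff_le hm0).mpr hle
      have hμm : μ ^ m = 1 := by
        rw [← orderOf_dvd_iff_pow_eq_one, hμ]; exact hdvd
      have hev : Even m := by
        have : 2 ∣ m := dvd_trans (dvd_pow_self 2 (by omega)) hdvd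
        exact even_iff_two_dvd.mpr this
      refine ⟨1, one_ne_zero, ?_⟩
      rw [neg_pow, hμm, Even.neg_one_pow hev]; simp

end Cfsg.Agent.S2576
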