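import Cfsg.Statements.S2577

set_option autoImplicit false
open Cfsg

namespace Cfsg.Agent.S2577

section endo

variable {F V : Type*} [Field F] [AddCommGroup V] [Module F V] [FiniteDimensional F V]

/-- The eigenspaces of an involution are complementary (characteristic not two). -/
theorem invol_isCompl (h2 : (2 : F) ≠ 0) (T : Module.End F V) (hT : T * T = 1) :
    IsCompl (LinearMap.ker (T + 1)) (LinearMap.ker (T - 1)) := by
  have hTT : ∀ v, T (T v) = v := fun v => by
    rw [← Module.End.mul_apply, hT, Module.End.one_apply]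
  constructor
  · rw [Submodule.disjoint_def]
    intro v hv hw
    rw [LinearMap.mem_ker, LinearMap.add_apply, Module.End.one_apply] at hv
    rw [LinearMap.mem_ker, LinearMap.sub_apply, Module.End.one_apply] at hw
    have h3 : (2 : F) • v = 0 := by
      rw [two_smul]
      have e1 : T v = -v := eq_neg_of_add_eq_zero_left hv
      have e2 : T v = v := sub_eq_zero.mp hw
      have e3 : v = -v := e2.symm.trans e1
      nth_rewrite 1 [e3]
      rw [neg_add_cancel]
    rcases smul_eq_zero.mp h3 with h | h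
    · exact absurd h h2
    · exact h
  · rw [codisjoint_iff, eq_top_iff]
    intro v _
    have hv : v = (2 : F)⁻¹ • (v - T v) + (2 : F)⁻¹ • (v + T v) := by
      rw [← smul_add]
      have e : v - T v + (v + T v) = (2 : F) • v := by rw [two_smul]; abel
      rw [e, smul_smul, inv_mul_cancel₀ h2, one_smul]
    rw [hv]
    apply Submodule.add_mem_sup
    · apply Submodule.smul_mem
      rw [LinearMap.mem_ker, LinearMap.add_apply, Module.End.one_apply, map_sub, hTT]
      abel
    · apply Submodule.smul_mem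
      rw [LinearMap.mem_ker, LinearMap.sub_apply, Module.End.one_apply, map_add, hTT]
      abel

/-- Two involutions with `-1`-eigenspaces of the same dimension are conjugate. -/
theorem conj_of_invol (h2 : (2 : F) ≠ 0) (T T' : Module.End F V) (hT : T * T = 1)
    (hT' : T' * T' = 1)
    (hdim : Module.finrank F (LinearMap.ker (T + 1)) = Module.finrank F (LinearMap.ker (T' + 1))) :
    ∃ φ : V ≃ₗ[F] V, ∀ v, φ (T v) = T' (φ v) := by
  have hc := invol_isCompl h2 T hT
  have hc' := invol_isCompl h2 T' hT'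
  have h1 := Submodule.finrank_add_eq_of_isCompl hc
  have h1' := Submodule.finrank_add_eq_of_isCompl hc'
  have hdim' : Module.finrank F (LinearMap.ker (T - 1))
      = Module.finrank F (LinearMap.ker (T' - 1)) := by omega
  let em := LinearEquiv.ofFinrankEq _ _ hdim
  let ep := LinearEquiv.ofFinrankEq _ _ hdim'
  refine ⟨(Submodule.prodEquivOfIsCompl _ _ hc).symm.trans
    ((em.prodCongr ep).trans (Submodule.prodEquivOfIsCompl _ _ hc')), ?_⟩
  intro v
  obtain ⟨⟨a, b⟩, rfl⟩ := (Submodule.prodEquivOfIsCompl _ _ hc).surjective v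
  have ha : T (a : V) = -(a : V) := by
    have := a.2
    rw [LinearMap.mem_ker, LinearMap.add_apply, Module.End.one_apply] at this
    exact eq_neg_of_add_eq_zero_left this
  have hb : T (b : V) = (b : V) := by
    have := b.2
    rw [LinearMap.mem_ker, LinearMap.sub_apply, Module.End.one_apply] at this
    exact sub_eq_zero.mp this
  have ha' : T' ((em a : LinearMap.ker (T' + 1)) : V) = -((em a : LinearMap.ker (T' + 1)) : V) := by
    have := (em a).2
    rw [LinearMap.mem_ker, LinearMap.add_apply, Module.End.one_apply] at this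
    exact eq_neg_of_add_eq_zero_left this
  have hb' : T' ((ep b : LinearMap.ker (T' - 1)) : V) = ((ep b : LinearMap.ker (T' - 1)) : V) := by
    have := (ep b).2
    rw [LinearMap.mem_ker, LinearMap.sub_apply, Module.End.one_apply] at this
    exact sub_eq_zero.mp this
  have hTv : T (Submodule.prodEquivOfIsCompl _ _ hc (a, b))
      = Submodule.prodEquivOfIsCompl _ _ hc (-a, b) := by
    rw [Submodule.coe_prodEquivOfIsCompl', Submodule.coe_prodEquivOfIsCompl', map_add, ha, hb]
    rfl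
  have hφ : ∀ (x : LinearMap.ker (T + 1)) (y : LinearMap.ker (T - 1)),
      ((Submodule.prodEquivOfIsCompl _ _ hc).symm.trans
        ((em.prodCongr ep).trans (Submodule.prodEquivOfIsCompl _ _ hc')))
        (Submodule.prodEquivOfIsCompl _ _ hc (x, y))
      = ((em x : LinearMap.ker (T' + 1)) : V) + ((ep y : LinearMap.ker (T' - 1)) : V) := by
    intro x y
    rw [LinearEquiv.trans_apply, LinearEquiv.symm_apply_apply, LinearEquiv.trans_apply,
      LinearEquiv.prodCongr_apply, Submodule.coe_prodEquivOfIsCompl']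
  rw [hTv, hφ, hφ, map_neg, Submodule.coe_neg, map_add, ha', hb']

/-- An endomorphism squaring to a non-square scalar has a "half" subspace. -/
theorem exists_half (g : Module.End F V) (lam : F) (hg : g * g = lam • 1)
    (hlam : ¬ IsSquare lam) : ∃ W : Submodule F V, IsCompl W (W.map g) := by
  have hgg : ∀ v, g (g v) = lam • v := fun v => by
    rw [← Module.End.mul_apply, hg, LinearMap.smul_apply, Module.End.one_apply]
  obtain ⟨W, hW, hmax⟩ := wellFounded_gt.has_min {W : Submodule F V | Disjoint W (W.map g)}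
    ⟨⊥, by simp⟩
  have hW' : Disjoint W (W.map g) := hW
  refine ⟨W, hW', ?_⟩
  rw [codisjoint_iff]
  by_contra htop
  obtain ⟨v, -, hv⟩ := SetLike.exists_of_lt (lt_top_iff_ne_top.mpr htop)
  have hU : ∀ x ∈ W ⊔ W.map g, g x ∈ W ⊔ W.map g := by
    intro x hx
    obtain ⟨w, hw, y, hy, rfl⟩ := Submodule.mem_sup.mp hx
    obtain ⟨u, hu, rfl⟩ := Submodule.mem_map.mp hy
    rw [map_add, hgg]
    exact Submodule.add_mem _ (Submodule.mem_sup_right (Submodule.mem_map_of_mem hw))
      (Submodule.mem_sup_left (W.smul_mem _ hu))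
  have key : ∀ a b : F, a • v + b • g v ∈ W ⊔ W.map g → a = 0 ∧ b = 0 := by
    intro a b hab
    have h1 := hU _ hab
    rw [map_add, map_smul, map_smul, hgg] at h1
    have h2 : (a * a - lam * b * b) • v ∈ W ⊔ W.map g := by
      have e : (a * a - lam * b * b) • v
          = a • (a • v + b • g v) - b • (a • g v + b • lam • v) := by
        module
      rw [e]
      exact Submodule.sub_mem _ (Submodule.smul_mem _ _ hab) (Submodule.smul_mem _ _ h1)
    have h3 : a * a - lam * b * b = 0 := by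
      by_contra hne
      apply hv
      have := Submodule.smul_mem _ (a * a - lam * b * b)⁻¹ h2
      rwa [smul_smul, inv_mul_cancel₀ hne, one_smul] at this
    have hb : b = 0 := by
      by_contra hb
      apply hlam
      refine ⟨a / b, ?_⟩
      rw [div_mul_div_comm, eq_div_iff (mul_ne_zero hb hb)]
      linear_combination -h3
    refine ⟨?_, hb⟩
    rw [hb, mul_zero, sub_zero] at h3
    exact mul_self_eq_zero.mp h3
  have hW₁ : Disjoint (W ⊔ Submodule.span F {v}) ((W ⊔ Submodule.span F {v}).map g) := by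
    rw [Submodule.disjoint_def]
    intro x hx hx'
    obtain ⟨w, hw, y, hy, rfl⟩ := Submodule.mem_sup.mp hx
    obtain ⟨a, rfl⟩ := Submodule.mem_span_singleton.mp hy
    obtain ⟨x', hx'1, hx'2⟩ := Submodule.mem_map.mp hx'
    obtain ⟨w', hw', y', hy', rfl⟩ := Submodule.mem_sup.mp hx'1
    obtain ⟨b, rfl⟩ := Submodule.mem_span_singleton.mp hy'
    rw [map_add, map_smul] at hx'2
    have hmem : a • v + (-b) • g v ∈ W ⊔ W.map g := by
      have e : a • v + (-b) • g v = g w' - w := by
        have e2 : a • v = g w' + b • g v - w := by rw [hx'2]; abel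
        rw [e2, neg_smul]; abel
      rw [e]
      exact Submodule.sub_mem _ (Submodule.mem_sup_right (Submodule.mem_map_of_mem hw'))
        (Submodule.mem_sup_left hw)
    obtain ⟨ha, hb⟩ := key a (-b) hmem
    rw [neg_eq_zero] at hb
    rw [ha, zero_smul, add_zero]
    rw [ha, hb, zero_smul, zero_smul, add_zero, add_zero] at hx'2
    rw [Submodule.disjoint_def] at hW'
    exact hW' w hw (hx'2 ▸ Submodule.mem_map_of_mem hw')
  refine hmax _ hW₁ (lt_of_le_of_ne le_sup_left fun h => hv ?_)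
  apply Submodule.mem_sup_left
  rw [h]
  exact Submodule.mem_sup_right (Submodule.mem_span_singleton_self v)

/-- Dimension is even when some endomorphism squares to a non-square scalar. -/
theorem finrank_half (g : Module.End F V) (lam : F) (hg : g * g = lam • 1)
    (hlam : ¬ IsSquare lam) (W : Submodule F V) (hc : IsCompl W (W.map g)) :
    Function.Injective g ∧ Module.finrank F V = 2 * Module.finrank F W := by
  have hgg : ∀ v, g (g v) = lam • v := fun v => by
    rw [← Module.End.mul_apply, hg, LinearMap.smul_apply, Module.End.one_apply]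
  have hl : lam ≠ 0 := fun h => hlam ⟨0, by rw [h, mul_zero]⟩
  have hinj : Function.Injective g := by
    intro x y hxy
    have := congrArg g hxy
    rw [hgg, hgg] at this
    exact smul_right_injective V hl this
  refine ⟨hinj, ?_⟩
  have h1 := Submodule.finrank_add_eq_of_isCompl hc
  have h2 := LinearEquiv.finrank_eq (Submodule.equivMapOfInjective g hinj W)
  omega

theorem conj_of_nonsq (g g' : Module.End F V) (lam : F) (hg : g * g = lam • 1)
    (hg' : g' * g' = lam • 1) (hlam : ¬ IsSquare lam) :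
    ∃ φ : V ≃ₗ[F] V, ∀ v, φ (g v) = g' (φ v) := by
  have hgg : ∀ v, g (g v) = lam • v := fun v => by
    rw [← Module.End.mul_apply, hg, LinearMap.smul_apply, Module.End.one_apply]
  have hgg' : ∀ v, g' (g' v) = lam • v := fun v => by
    rw [← Module.End.mul_apply, hg', LinearMap.smul_apply, Module.End.one_apply]
  obtain ⟨W, hc⟩ := exists_half g lam hg hlam
  obtain ⟨W', hc'⟩ := exists_half g' lam hg' hlam
  obtain ⟨hinj, hf⟩ := finrank_half g lam hg hlam W hc
  obtain ⟨hinj', hf'⟩ := finrank_half g' lam hg' hlam W' hc'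
  have hWW : Module.finrank F W = Module.finrank F W' := by omega
  let ψ := LinearEquiv.ofFinrankEq W W' hWW
  let eg := Submodule.equivMapOfInjective g hinj W
  let eg' := Submodule.equivMapOfInjective g' hinj' W'
  have hφ : ∀ (x u : W),
      ((Submodule.prodEquivOfIsCompl _ _ hc).symm.trans
        ((ψ.prodCongr (eg.symm.trans (ψ.trans eg'))).trans
          (Submodule.prodEquivOfIsCompl _ _ hc')))
        (Submodule.prodEquivOfIsCompl _ _ hc (x, eg u))
      = ((ψ x : W') : V) + g' ((ψ u : W') : V) := by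
    intro x u
    rw [LinearEquiv.trans_apply, LinearEquiv.symm_apply_apply, LinearEquiv.trans_apply,
      LinearEquiv.prodCongr_apply, Submodule.coe_prodEquivOfIsCompl', LinearEquiv.trans_apply,
      LinearEquiv.symm_apply_apply, LinearEquiv.trans_apply,
      Submodule.coe_equivMapOfInjective_apply]
  refine ⟨(Submodule.prodEquivOfIsCompl _ _ hc).symm.trans
        ((ψ.prodCongr (eg.symm.trans (ψ.trans eg'))).trans
          (Submodule.prodEquivOfIsCompl _ _ hc')), ?_⟩
  intro v
  obtain ⟨⟨x, y⟩, rfl⟩ := (Submodule.prodEquivOfIsCompl _ _ hc).surjective v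
  obtain ⟨u, rfl⟩ := eg.surjective y
  have hgv : g (Submodule.prodEquivOfIsCompl _ _ hc (x, eg u))
      = Submodule.prodEquivOfIsCompl _ _ hc (lam • u, eg x) := by
    rw [Submodule.coe_prodEquivOfIsCompl', Submodule.coe_prodEquivOfIsCompl', map_add,
      Submodule.coe_equivMapOfInjective_apply, Submodule.coe_equivMapOfInjective_apply, hgg,
      add_comm]
    rfl
  rw [hgv, hφ, hφ, map_add, hgg', map_smul, Submodule.coe_smul, add_comm]

end endo

section mat

variable {F : Type*} [Field F] {n : ℕ}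

theorem toLin_sq (M : Matrix (Fin n) (Fin n) F) (z : F) (hM : M * M = z • 1) :
    (Matrix.toLin' M : Module.End F (Fin n → F)) * Matrix.toLin' M = z • 1 := by
  rw [Module.End.mul_eq_comp, ← Matrix.toLin'_mul, hM, map_smul, Matrix.toLin'_one]
  rfl

theorem mat_of_equiv (φ : (Fin n → F) ≃ₗ[F] (Fin n → F)) (M N : Matrix (Fin n) (Fin n) F)
    (c : F) (h : ∀ v, φ (Matrix.toLin' M v) = c • Matrix.toLin' N (φ v)) :
    ∃ P : Matrix (Fin n) (Fin n) F, IsUnit P.det ∧ P * M = c • (N * P) := by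
  refine ⟨LinearMap.toMatrix' (φ : (Fin n → F) →ₗ[F] (Fin n → F)), ?_, ?_⟩
  · rw [LinearMap.det_toMatrix']
    exact LinearEquiv.isUnit_det' φ
  · apply Matrix.toLin'.injective
    rw [Matrix.toLin'_mul, map_smul, Matrix.toLin'_mul, Matrix.toLin'_toMatrix']
    apply LinearMap.ext
    intro v
    rw [LinearMap.comp_apply, LinearMap.smul_apply, LinearMap.comp_apply]
    exact h v

theorem finrank_fun : Module.finrank F (Fin n → F) = n := by
  rw [Module.finrank_fintype_fun_eq_card, Fintype.card_fin]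

theorem rank_toLin (A : Matrix (Fin n) (Fin n) F) :
    A.rank = Module.finrank F (LinearMap.range (Matrix.toLin' A)) := rfl

theorem eq_zero_of_rank (A : Matrix (Fin n) (Fin n) F) (h : A.rank = 0) : A = 0 := by
  rw [rank_toLin] at h
  have hbot : LinearMap.range (Matrix.toLin' A) = ⊥ := Submodule.finrank_eq_zero.mp h
  have h0 : Matrix.toLin' A = 0 := LinearMap.range_eq_bot.mp hbot
  apply Matrix.toLin'.injective
  rw [h0, map_zero]

theorem rank_neg' (A : Matrix (Fin n) (Fin n) F) : (-A).rank = A.rank := by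
  have e : -A = (-1 : F) • A := by rw [neg_smul, one_smul]
  rw [e]
  exact Matrix.rank_smul_of_mem_nonZeroDivisors A
    (mem_nonZeroDivisors_of_ne_zero (neg_ne_zero.mpr one_ne_zero))

theorem invol_ranks (h2 : (2 : F) ≠ 0) (M : Matrix (Fin n) (Fin n) F) (hM : M * M = 1) :
    (M + 1).rank + (M - 1).rank = n ∧
    Module.finrank F (LinearMap.ker ((Matrix.toLin' M : Module.End F (Fin n → F)) + 1))
      = (M - 1).rank := by
  have hT : (Matrix.toLin' M : Module.End F (Fin n → F)) * Matrix.toLin' M = 1 := by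
    have := toLin_sq M 1 (by rw [hM, one_smul])
    rwa [one_smul] at this
  have hc := invol_isCompl h2 _ hT
  have h1 := Submodule.finrank_add_eq_of_isCompl hc
  rw [finrank_fun] at h1
  have r1 := LinearMap.finrank_range_add_finrank_ker
    ((Matrix.toLin' M : Module.End F (Fin n → F)) + 1)
  have r2 := LinearMap.finrank_range_add_finrank_ker
    ((Matrix.toLin' M : Module.End F (Fin n → F)) - 1)
  rw [finrank_fun] at r1 r2
  have e1 : (M + 1).rank = Module.finrank F
      (LinearMap.range ((Matrix.toLin' M : Module.End F (Fin n → F)) + 1)) := by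
    rw [rank_toLin, map_add, Matrix.toLin'_one]
    rfl
  have e2 : (M - 1).rank = Module.finrank F
      (LinearMap.range ((Matrix.toLin' M : Module.End F (Fin n → F)) - 1)) := by
    rw [rank_toLin, map_sub, Matrix.toLin'_one]
    rfl
  omega

theorem conj_mat (h2 : (2 : F) ≠ 0) (M N : Matrix (Fin n) (Fin n) F) (hM : M * M = 1)
    (hN : N * N = 1) (hr : (M - 1).rank = (N - 1).rank) :
    ∃ P : Matrix (Fin n) (Fin n) F, IsUnit P.det ∧ P * M = N * P := by
  have hT : (Matrix.toLin' M : Module.End F (Fin n → F)) * Matrix.toLin' M = 1 := by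
    have := toLin_sq M 1 (by rw [hM, one_smul])
    rwa [one_smul] at this
  have hT' : (Matrix.toLin' N : Module.End F (Fin n → F)) * Matrix.toLin' N = 1 := by
    have := toLin_sq N 1 (by rw [hN, one_smul])
    rwa [one_smul] at this
  obtain ⟨φ, hφ⟩ := conj_of_invol h2 _ _ hT hT'
    (by rw [(invol_ranks h2 M hM).2, (invol_ranks h2 N hN).2, hr])
  obtain ⟨P, hP, hPM⟩ := mat_of_equiv φ M N 1 (fun v => by rw [one_smul]; exact hφ v)
  exact ⟨P, hP, by rw [hPM, one_smul]⟩

/-- The diagonal involution with `i` entries `-1`. -/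
noncomputable def D (F : Type*) [Field F] (n i : ℕ) : Matrix (Fin n) (Fin n) F :=
  Matrix.diagonal (fun j : Fin n => if (j : ℕ) < i then (-1 : F) else 1)

theorem D_sq (i : ℕ) : D F n i * D F n i = 1 := by
  unfold D
  rw [Matrix.diagonal_mul_diagonal, ← Matrix.diagonal_one]
  congr 1
  funext j
  split_ifs <;> simp

theorem rank_D_sub (h2 : (2 : F) ≠ 0) (i : ℕ) (hi : i ≤ n) : (D F n i - 1).rank = i := by
  classical
  have e : D F n i - 1
      = Matrix.diagonal (fun j : Fin n => if (j : ℕ) < i then (-2 : F) else 0) := by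
    unfold D
    rw [← Matrix.diagonal_one, Matrix.diagonal_sub]
    congr 1
    funext j
    split_ifs <;> ring
  rw [e, Matrix.rank_diagonal, Fintype.card_subtype]
  have hf : (Finset.univ.filter
      (fun j : Fin n => (if (j : ℕ) < i then (-2 : F) else 0) ≠ 0))
      = Finset.univ.filter (fun j : Fin n => (j : ℕ) < i) := by
    apply Finset.filter_congr
    intro j _
    split_ifs with h <;> simp [h, h2]
  rw [hf, Fin.card_filter_val_lt, min_eq_right hi]

theorem D_not_scalar (h2 : (2 : F) ≠ 0) (i : ℕ) (hi1 : 1 ≤ i) (hi2 : i < n) (z : F) :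
    D F n i ≠ z • 1 := by
  intro h
  have e0 := congrFun (congrFun h ⟨0, by omega⟩) ⟨0, by omega⟩
  have e1 := congrFun (congrFun h ⟨i, hi2⟩) ⟨i, hi2⟩
  unfold D at e0 e1
  rw [Matrix.diagonal_apply_eq, Matrix.smul_apply, Matrix.one_apply_eq, smul_eq_mul, mul_one]
    at e0 e1
  rw [if_pos (by exact hi1)] at e0
  rw [if_neg (by exact lt_irrefl i)] at e1
  apply h2
  have : (1 : F) = -1 := e1.trans e0.symm
  linear_combination this

theorem scal_rel (hn : 0 < n) (P M N : Matrix (Fin n) (Fin n) F) (c a b : F)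
    (hP : IsUnit P.det) (h : P * M = c • (N * P)) (hM : M * M = a • 1) (hN : N * N = b • 1) :
    a = c * c * b := by
  have h1 : P * (M * M) = (c * c) • (N * N * P) := by
    rw [← Matrix.mul_assoc, h, Matrix.smul_mul, Matrix.mul_assoc, h, Matrix.mul_smul, smul_smul,
      Matrix.mul_assoc]
  rw [hM, hN, Matrix.mul_smul, Matrix.mul_one, Matrix.smul_mul, Matrix.one_mul, smul_smul] at h1
  by_contra hne
  have h3 : (a - c * c * b) • P = 0 := by rw [sub_smul, h1, sub_self]
  rcases smul_eq_zero.mp h3 with h4 | h4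
  · exact hne (sub_eq_zero.mp h4)
  · rw [h4] at hP
    have : Nonempty (Fin n) := ⟨⟨0, hn⟩⟩
    rw [Matrix.det_zero] at hP
    exact not_isUnit_zero hP

theorem D_inj (h2 : (2 : F) ≠ 0) (hn : 0 < n) (i j : ℕ) (hi : i ≤ n / 2) (hj : j ≤ n / 2)
    (P : Matrix (Fin n) (Fin n) F) (hP : IsUnit P.det) (c : F)
    (h : P * D F n i = c • (D F n j * P)) : i = j := by
  have hc := scal_rel hn P _ _ c 1 1 hP h (by rw [D_sq, one_smul]) (by rw [D_sq, one_smul])
  have hc' : c = 1 ∨ c = -1 := by
    have : (c - 1) * (c + 1) = 0 := by linear_combination -hc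
    rcases mul_eq_zero.mp this with h | h
    · left; exact sub_eq_zero.mp h
    · right; exact eq_neg_of_add_eq_zero_left h
  have ri := rank_D_sub (n := n) h2 i (by omega)
  have rj := rank_D_sub (n := n) h2 j (by omega)
  have rj' := (invol_ranks h2 (D F n j) (D_sq j)).1
  rcases hc' with rfl | rfl
  · rw [one_smul] at h
    have e : P * (D F n i - 1) = (D F n j - 1) * P := by
      rw [Matrix.mul_sub, Matrix.sub_mul, h, Matrix.mul_one, Matrix.one_mul]
    have := congrArg Matrix.rank e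
    rw [Matrix.rank_mul_eq_right_of_isUnit_det _ _ hP,
      Matrix.rank_mul_eq_left_of_isUnit_det _ _ hP] at this
    omega
  · have e : P * (D F n i - 1) = -((D F n j + 1) * P) := by
      rw [Matrix.mul_sub, h, Matrix.add_mul, Matrix.mul_one, Matrix.one_mul, neg_smul, one_smul]
      abel
    have := congrArg Matrix.rank e
    rw [rank_neg', Matrix.rank_mul_eq_right_of_isUnit_det _ _ hP,
      Matrix.rank_mul_eq_left_of_isUnit_det _ _ hP] at this
    omega

theorem class_sq (h2 : (2 : F) ≠ 0) (M : Matrix (Fin n) (Fin n) F) (μ : F) (hμ : μ ≠ 0)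
    (hM : M * M = (μ * μ) • 1) (hns : ∀ z : F, M ≠ z • 1) :
    ∃ i, 1 ≤ i ∧ i ≤ n / 2 ∧ ∃ P : Matrix (Fin n) (Fin n) F, IsUnit P.det ∧
      ∃ c : F, c ≠ 0 ∧ P * M = c • (D F n i * P) := by
  have hT : (μ⁻¹ • M) * (μ⁻¹ • M) = 1 := by
    rw [Matrix.smul_mul, Matrix.mul_smul, hM, smul_smul, smul_smul]
    have : μ⁻¹ * μ⁻¹ * (μ * μ) = 1 := by field_simp
    rw [this, one_smul]
  obtain ⟨hr, hk⟩ := invol_ranks h2 _ hT
  have hr1 : (μ⁻¹ • M - 1).rank ≠ 0 := by
    intro h0
    have := eq_zero_of_rank _ h0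
    apply hns μ
    have h1 : μ⁻¹ • M = 1 := sub_eq_zero.mp this
    rw [← h1, smul_smul, mul_inv_cancel₀ hμ, one_smul]
  have hr2 : (μ⁻¹ • M + 1).rank ≠ 0 := by
    intro h0
    have := eq_zero_of_rank _ h0
    apply hns (-μ)
    have h1 : μ⁻¹ • M = -1 := eq_neg_of_add_eq_zero_left this
    have h3 : M = μ • (μ⁻¹ • M) := by rw [smul_smul, mul_inv_cancel₀ hμ, one_smul]
    rw [h3, h1, smul_neg, neg_smul]
  by_cases hle : (μ⁻¹ • M - 1).rank ≤ n / 2
  · refine ⟨(μ⁻¹ • M - 1).rank, by omega, hle, ?_⟩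
    obtain ⟨P, hP, hPM⟩ := conj_mat h2 (μ⁻¹ • M) (D F n (μ⁻¹ • M - 1).rank) hT (D_sq _)
      (by rw [rank_D_sub h2 _ (by omega)])
    refine ⟨P, hP, μ, hμ, ?_⟩
    rw [← hPM, Matrix.mul_smul, smul_smul, mul_inv_cancel₀ hμ, one_smul]
  · have hT' : (-(μ⁻¹ • M)) * (-(μ⁻¹ • M)) = 1 := by rw [neg_mul_neg, hT]
    have hrk : (-(μ⁻¹ • M) - 1).rank = (μ⁻¹ • M + 1).rank := by
      have : -(μ⁻¹ • M) - 1 = -(μ⁻¹ • M + 1) := by abel
      rw [this, rank_neg']
    refine ⟨(μ⁻¹ • M + 1).rank, by omega, by omega, ?_⟩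
    obtain ⟨P, hP, hPM⟩ := conj_mat h2 (-(μ⁻¹ • M)) (D F n (μ⁻¹ • M + 1).rank) hT' (D_sq _)
      (by rw [hrk, rank_D_sub h2 _ (by omega)])
    refine ⟨P, hP, -μ, neg_ne_zero.mpr hμ, ?_⟩
    rw [← hPM, Matrix.mul_neg, Matrix.mul_smul, smul_neg, neg_smul, neg_neg, smul_smul,
      mul_inv_cancel₀ hμ, one_smul]

theorem nonsq_mul [Finite F] (z ν : F) (hz : ¬ IsSquare z) (hν : ¬ IsSquare ν) :
    ∃ c : F, c ≠ 0 ∧ z = c * c * ν := by
  classical
  have := Fintype.ofFinite F
  have hν0 : ν ≠ 0 := fun h => hν ⟨0, by rw [h, mul_zero]⟩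
  have hz0 : z ≠ 0 := fun h => hz ⟨0, by rw [h, mul_zero]⟩
  have h1 := quadraticChar_neg_one_iff_not_isSquare.mpr hz
  have h2 := quadraticChar_neg_one_iff_not_isSquare.mpr hν
  have h3 : quadraticChar F (z * ν) = 1 := by
    rw [map_mul, h1, h2]
    norm_num
  obtain ⟨d, hd⟩ := (quadraticChar_one_iff_isSquare (mul_ne_zero hz0 hν0)).mp h3
  have hd0 : d ≠ 0 := by
    rintro rfl
    rw [mul_zero] at hd
    exact mul_ne_zero hz0 hν0 hd
  refine ⟨d / ν, div_ne_zero hd0 hν0, ?_⟩
  field_simp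
  linear_combination hd

theorem class_nonsq [Finite F] (M N : Matrix (Fin n) (Fin n) F) (z ν : F)
    (hM : M * M = z • 1) (hz : ¬ IsSquare z) (hN : N * N = ν • 1) (hν : ¬ IsSquare ν) :
    ∃ P : Matrix (Fin n) (Fin n) F, IsUnit P.det ∧ ∃ c : F, c ≠ 0 ∧ P * M = c • (N * P) := by
  obtain ⟨c, hc0, hc⟩ := nonsq_mul z ν hz hν
  have hN' : (c • N) * (c • N) = z • 1 := by
    rw [Matrix.smul_mul, Matrix.mul_smul, hN, smul_smul, smul_smul, hc, mul_assoc]
  obtain ⟨φ, hφ⟩ := conj_of_nonsq _ _ z (toLin_sq M z hM) (toLin_sq (c • N) z hN') hz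
  obtain ⟨P, hP, hPM⟩ := mat_of_equiv φ M N c (fun v => by
    rw [hφ v, map_smul, LinearMap.smul_apply])
  exact ⟨P, hP, c, hc0, hPM⟩

theorem even_of_nonsq (M : Matrix (Fin n) (Fin n) F) (z : F)
    (hM : M * M = z • 1) (hz : ¬ IsSquare z) : Even n := by
  obtain ⟨W, hc⟩ := exists_half _ z (toLin_sq M z hM) hz
  obtain ⟨-, hf⟩ := finrank_half _ z (toLin_sq M z hM) hz W hc
  rw [finrank_fun] at hf
  exact ⟨_, hf.trans (two_mul _)⟩

theorem exists_B (ν : F) (hn : Even n) : ∃ N : Matrix (Fin n) (Fin n) F, N * N = ν • 1 := by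
  obtain ⟨m, rfl⟩ := hn
  have hB : (Matrix.fromBlocks 0 (ν • 1) 1 0 : Matrix (Fin m ⊕ Fin m) (Fin m ⊕ Fin m) F)
      * Matrix.fromBlocks 0 (ν • 1) 1 0 = ν • 1 := by
    rw [Matrix.fromBlocks_multiply, ← Matrix.fromBlocks_one, Matrix.fromBlocks_smul]
    simp
  refine ⟨Matrix.reindexAlgEquiv F F finSumFinEquiv (Matrix.fromBlocks 0 (ν • 1) 1 0), ?_⟩
  rw [← map_mul, hB, map_smul, map_one]

end mat

section grp

variable {F : Type*} [Field F] {n : ℕ}

theorem scalar_eq (z : F) :
    Matrix.scalar (Fin n) z = z • (1 : Matrix (Fin n) (Fin n) F) := by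
  rw [Matrix.smul_one_eq_diagonal]
  rfl

theorem orderOf_two_iff (g : Matrix.GeneralLinearGroup (Fin n) F) :
    orderOf (QuotientGroup.mk' (Subgroup.center (Matrix.GeneralLinearGroup (Fin n) F)) g) = 2 ↔
      (∃ z : F, (g : Matrix (Fin n) (Fin n) F) * g = z • 1) ∧
        ∀ z : F, (g : Matrix (Fin n) (Fin n) F) ≠ z • 1 := by
  have : Fact (Nat.Prime 2) := ⟨Nat.prime_two⟩
  rw [orderOf_eq_prime_iff, ← map_pow, ← MonoidHom.mem_ker, QuotientGroup.ker_mk', ne_eq,
    ← MonoidHom.mem_ker, QuotientGroup.ker_mk',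
    Matrix.GeneralLinearGroup.mem_center_iff_val_mem_range_scalar,
    Matrix.GeneralLinearGroup.mem_center_iff_val_mem_range_scalar]
  have e : ((g ^ 2 : Matrix.GeneralLinearGroup (Fin n) F) : Matrix (Fin n) (Fin n) F)
      = (g : Matrix (Fin n) (Fin n) F) * g := by
    rw [pow_two]
    rfl
  rw [e]
  constructor
  · rintro ⟨⟨z, hz⟩, h⟩
    refine ⟨⟨z, ?_⟩, fun z hz' => h ⟨z, ?_⟩⟩
    · rw [← hz, scalar_eq]
    · rw [hz', scalar_eq]
  · rintro ⟨⟨z, hz⟩, h⟩
    refine ⟨⟨z, ?_⟩, ?_⟩
    · rw [hz, scalar_eq]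
    · rintro ⟨z, hz'⟩
      exact h z (by rw [← hz', scalar_eq])

theorem isConj_mk_iff (g g' : Matrix.GeneralLinearGroup (Fin n) F) :
    IsConj (QuotientGroup.mk' (Subgroup.center (Matrix.GeneralLinearGroup (Fin n) F)) g)
      (QuotientGroup.mk' (Subgroup.center (Matrix.GeneralLinearGroup (Fin n) F)) g') ↔
    ∃ P : Matrix (Fin n) (Fin n) F, IsUnit P.det ∧ ∃ c : F, c ≠ 0 ∧
      P * (g : Matrix (Fin n) (Fin n) F) = c • ((g' : Matrix (Fin n) (Fin n) F) * P) := by
  rw [isConj_iff]
  constructor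
  · rintro ⟨x, hx⟩
    obtain ⟨c, rfl⟩ := QuotientGroup.mk'_surjective _ x
    rw [← map_inv, ← map_mul, ← map_mul] at hx
    have hmem : (c * g * c⁻¹)⁻¹ * g' ∈ Subgroup.center (Matrix.GeneralLinearGroup (Fin n) F) := by
      rw [← QuotientGroup.ker_mk' (Subgroup.center (Matrix.GeneralLinearGroup (Fin n) F)),
        MonoidHom.mem_ker, map_mul, map_inv, hx, inv_mul_cancel]
    rw [Matrix.GeneralLinearGroup.center_eq_range_scalar] at hmem
    obtain ⟨u, hu⟩ := hmem
    have h1 : g' * c = c * g * Matrix.GeneralLinearGroup.scalar (Fin n) u := by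
      have e1 : g' = c * g * c⁻¹ * Matrix.GeneralLinearGroup.scalar (Fin n) u := by
        rw [hu]
        group
      have e2 := Matrix.GeneralLinearGroup.scalar_commute u c
      calc g' * c = c * g * c⁻¹ * (Matrix.GeneralLinearGroup.scalar (Fin n) u * c) := by
            rw [← mul_assoc, ← e1]
        _ = c * g * Matrix.GeneralLinearGroup.scalar (Fin n) u := by
            rw [e2]
            group
    have h2 := congrArg (fun x : Matrix.GeneralLinearGroup (Fin n) F =>
      (x : Matrix (Fin n) (Fin n) F)) h1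
    simp only [Units.val_mul, Matrix.GeneralLinearGroup.coe_scalar] at h2
    rw [scalar_eq, Matrix.mul_smul, Matrix.mul_one] at h2
    refine ⟨(c : Matrix (Fin n) (Fin n) F), (Matrix.isUnit_iff_isUnit_det _).mp c.isUnit,
      ((u⁻¹ : Fˣ) : F), Units.ne_zero _, ?_⟩
    rw [h2, smul_smul, Units.inv_mul, one_smul]
  · rintro ⟨P, hP, c, hc, h⟩
    refine ⟨QuotientGroup.mk' _ (Matrix.GeneralLinearGroup.mk'' P hP), ?_⟩
    have e : Matrix.GeneralLinearGroup.mk'' P hP * g
        = Matrix.GeneralLinearGroup.scalar (Fin n) (Units.mk0 c hc)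
          * (g' * Matrix.GeneralLinearGroup.mk'' P hP) := by
      apply Units.ext
      simp only [Units.val_mul, Matrix.GeneralLinearGroup.coe_scalar,
        Matrix.GeneralLinearGroup.val_mk'', Units.val_mk0]
      rw [scalar_eq, Matrix.smul_mul, Matrix.one_mul]
      exact h
    have e2 := congrArg (QuotientGroup.mk' (Subgroup.center (Matrix.GeneralLinearGroup (Fin n) F))) e
    rw [map_mul, map_mul, map_mul] at e2
    have e3 : QuotientGroup.mk' (Subgroup.center (Matrix.GeneralLinearGroup (Fin n) F))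
        (Matrix.GeneralLinearGroup.scalar (Fin n) (Units.mk0 c hc)) = 1 := by
      rw [← MonoidHom.mem_ker, QuotientGroup.ker_mk',
        Matrix.GeneralLinearGroup.center_eq_range_scalar]
      exact ⟨_, rfl⟩
    rw [e3, one_mul] at e2
    rw [e2, mul_inv_cancel_right]

/-- `D i` as an element of `GL`. -/
noncomputable def dU (F : Type*) [Field F] (n i : ℕ) : Matrix.GeneralLinearGroup (Fin n) F :=
  ⟨D F n i, D F n i, D_sq i, D_sq i⟩

theorem dU_val (i : ℕ) : ((dU F n i : Matrix.GeneralLinearGroup (Fin n) F) :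
    Matrix (Fin n) (Fin n) F) = D F n i := rfl

local notation "πQ" =>
  QuotientGroup.mk' (Subgroup.center (Matrix.GeneralLinearGroup (Fin n) F))

theorem order_dU (h2 : (2 : F) ≠ 0) (hn : 2 ≤ n) (i : ℕ) (h1 : 1 ≤ i) (hi : i ≤ n / 2) :
    orderOf (πQ (dU F n i)) = 2 := by
  rw [orderOf_two_iff, dU_val]
  exact ⟨⟨1, by rw [D_sq, one_smul]⟩, fun z => D_not_scalar h2 i h1 (by omega) z⟩

theorem dU_inj (h2 : (2 : F) ≠ 0) (hn : 2 ≤ n) (i j : ℕ) (hi : i ≤ n / 2) (hj : j ≤ n / 2)
    (hc : IsConj (πQ (dU F n i)) (πQ (dU F n j))) : i = j := by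
  obtain ⟨P, hP, c, -, h⟩ := (isConj_mk_iff _ _).mp hc
  exact D_inj h2 (by omega) i j hi hj P hP c h

theorem cls (h2 : (2 : F) ≠ 0) (hn : 2 ≤ n) (g : Matrix.GeneralLinearGroup (Fin n) F)
    (hg : orderOf (πQ g) = 2) :
    (∃ i, 1 ≤ i ∧ i ≤ n / 2 ∧ IsConj (πQ g) (πQ (dU F n i))) ∨
      (∃ z : F, ¬ IsSquare z ∧ (g : Matrix (Fin n) (Fin n) F) * g = z • 1) := by
  obtain ⟨⟨z, hz⟩, hns⟩ := (orderOf_two_iff g).mp hg
  by_cases hsq : IsSquare z
  · left
    obtain ⟨μ, rfl⟩ := hsq
    have hμ : μ ≠ 0 := by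
      rintro rfl
      rw [mul_zero, zero_smul] at hz
      have hu := (g * g).isUnit
      rw [Units.val_mul, hz] at hu
      have : Nonempty (Fin n) := ⟨⟨0, by omega⟩⟩
      exact not_isUnit_zero hu
    obtain ⟨i, h1, h2', P, hP, c, hc, h⟩ := class_sq h2 _ μ hμ hz hns
    exact ⟨i, h1, h2', (isConj_mk_iff _ _).mpr ⟨P, hP, c, hc, h⟩⟩
  · right
    exact ⟨z, hsq, hz⟩

theorem order_b (hn : 2 ≤ n) (ν : F) (hν : ¬ IsSquare ν)
    (b : Matrix.GeneralLinearGroup (Fin n) F)
    (hb : (b : Matrix (Fin n) (Fin n) F) * b = ν • 1) : orderOf (πQ b) = 2 := by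
  rw [orderOf_two_iff]
  refine ⟨⟨ν, hb⟩, fun z hz => hν ⟨z, ?_⟩⟩
  rw [hz, Matrix.smul_mul, Matrix.mul_smul, Matrix.mul_one, smul_smul] at hb
  have := congrFun (congrFun hb ⟨0, by omega⟩) ⟨0, by omega⟩
  rw [Matrix.smul_apply, Matrix.smul_apply, Matrix.one_apply_eq, smul_eq_mul, smul_eq_mul,
    mul_one, mul_one] at this
  exact this.symm

theorem dU_ne_b (hn : 2 ≤ n) (ν : F) (hν : ¬ IsSquare ν)
    (b : Matrix.GeneralLinearGroup (Fin n) F)
    (hb : (b : Matrix (Fin n) (Fin n) F) * b = ν • 1) (i : ℕ)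
    (hc : IsConj (πQ (dU F n i)) (πQ b)) : False := by
  obtain ⟨P, hP, c, hc0, h⟩ := (isConj_mk_iff _ _).mp hc
  rw [dU_val] at h
  have h1 := scal_rel (by omega) P _ _ c 1 ν hP h (by rw [D_sq, one_smul]) hb
  apply hν
  refine ⟨c⁻¹, ?_⟩
  rw [← mul_inv]
  exact eq_inv_of_mul_eq_one_left (by linear_combination -h1)

theorem conj_b [Finite F] (ν : F) (hν : ¬ IsSquare ν)
    (b : Matrix.GeneralLinearGroup (Fin n) F)
    (hb : (b : Matrix (Fin n) (Fin n) F) * b = ν • 1)
    (g : Matrix.GeneralLinearGroup (Fin n) F) (z : F) (hz : ¬ IsSquare z)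
    (hg : (g : Matrix (Fin n) (Fin n) F) * g = z • 1) : IsConj (πQ g) (πQ b) := by
  obtain ⟨P, hP, c, hc, h⟩ := class_nonsq _ _ z ν hg hz hb hν
  exact (isConj_mk_iff _ _).mpr ⟨P, hP, c, hc, h⟩

theorem exists_b (ν : F) (hν0 : ν ≠ 0) (hn : Even n) :
    ∃ b : Matrix.GeneralLinearGroup (Fin n) F,
      (b : Matrix (Fin n) (Fin n) F) * b = ν • 1 := by
  obtain ⟨N, hN⟩ := exists_B (n := n) ν hn
  exact ⟨⟨N, ν⁻¹ • N, by rw [Matrix.mul_smul, hN, smul_smul, inv_mul_cancel₀ hν0, one_smul],
    by rw [Matrix.smul_mul, hN, smul_smul, inv_mul_cancel₀ hν0, one_smul]⟩, hN⟩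

end grp

/-- Number of conjugacy classes of involutions in PGL_n(q) for q odd and n ≥ 2: there are ⌊n/2⌋ classes represented by diagonal matrices with i entries −1 (1 ≤ i ≤ n/2) and, when n is even, one more class represented by a block-diagonal matrix of 2 × 2 blocks [[0, 1], [μ, 0]] with μ a non-square (a matrix squaring to a scalar but having no eigenvalue in the field); in all ⌊n/2⌋ + 1 classes if n is even and ⌊n/2⌋ if n is odd. -/
theorem result {F : Type*} [Field F] [Fintype F] {q : ℕ} (hF : Fintype.card F = q) (hq : Odd q) {n : ℕ} (hn : 2 ≤ n) : Nat.card {C : ConjClasses (GL (Fin n) F ⧸ Subgroup.center (GL (Fin n) F)) // ∃ g : GL (Fin n) F ⧸ Subgroup.center (GL (Fin n) F), ConjClasses.mk g = C ∧ orderOf g = 2} = n / 2 + (if Even n then 1 else 0) := by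
  classical
  have hchar : ringChar F ≠ 2 := by
    intro h
    have := FiniteField.even_card_iff_char_two.mp h
    rw [hF] at this
    rcases hq with ⟨k, hk⟩
    omega
  have h2 : (2 : F) ≠ 0 := Ring.two_ne_zero hchar
  obtain ⟨ν, hν⟩ := FiniteField.exists_nonsquare hchar
  have hν0 : ν ≠ 0 := fun h => hν ⟨0, by rw [h, mul_zero]⟩
  have hinjOn : Set.InjOn (fun i : ℕ => ConjClasses.mk
      (QuotientGroup.mk' (Subgroup.center (GL (Fin n) F)) (dU F n i)))
      ↑(Finset.Icc 1 (n / 2)) := by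
    intro i hi j hj hij
    rw [Finset.mem_coe, Finset.mem_Icc] at hi hj
    exact dU_inj h2 hn i j hi.2 hj.2 (ConjClasses.mk_eq_mk_iff_isConj.mp hij)
  have hcard := Nat.card_coe_set_eq {C : ConjClasses (GL (Fin n) F ⧸ Subgroup.center (GL (Fin n) F)) | ∃ g : GL (Fin n) F ⧸ Subgroup.center (GL (Fin n) F), ConjClasses.mk g = C ∧ orderOf g = 2}
  by_cases hev : Even n
  · obtain ⟨b, hb⟩ := exists_b (n := n) ν hν0 hev
    have hset : {C : ConjClasses (GL (Fin n) F ⧸ Subgroup.center (GL (Fin n) F)) | ∃ g : GL (Fin n) F ⧸ Subgroup.center (GL (Fin n) F), ConjClasses.mk g = C ∧ orderOf g = 2}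
        = (fun i : ℕ => ConjClasses.mk
            (QuotientGroup.mk' (Subgroup.center (GL (Fin n) F)) (dU F n i)))
            '' ↑(Finset.Icc 1 (n / 2))
          ∪ {ConjClasses.mk (QuotientGroup.mk' (Subgroup.center (GL (Fin n) F)) b)} := by
      ext C
      constructor
      · rintro ⟨x, rfl, hx⟩
        obtain ⟨g, rfl⟩ := QuotientGroup.mk'_surjective _ x
        rcases cls h2 hn g hx with ⟨i, h1, h2', hc⟩ | ⟨z, hz, hgz⟩
        · left
          exact ⟨i, Finset.mem_coe.mpr (Finset.mem_Icc.mpr ⟨h1, h2'⟩),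
            (ConjClasses.mk_eq_mk_iff_isConj.mpr hc).symm⟩
        · right
          rw [Set.mem_singleton_iff]
          exact ConjClasses.mk_eq_mk_iff_isConj.mpr (conj_b ν hν b hb g z hz hgz)
      · rintro (⟨i, hi, rfl⟩ | rfl)
        · rw [Finset.mem_coe, Finset.mem_Icc] at hi
          exact ⟨_, rfl, order_dU h2 hn i hi.1 hi.2⟩
        · exact ⟨_, rfl, order_b hn ν hν b hb⟩
    have hdisj : Disjoint ((fun i : ℕ => ConjClasses.mk
            (QuotientGroup.mk' (Subgroup.center (GL (Fin n) F)) (dU F n i)))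
            '' ↑(Finset.Icc 1 (n / 2)))
          {ConjClasses.mk (QuotientGroup.mk' (Subgroup.center (GL (Fin n) F)) b)} := by
      rw [Set.disjoint_singleton_right]
      rintro ⟨i, -, hib⟩
      exact dU_ne_b hn ν hν b hb i (ConjClasses.mk_eq_mk_iff_isConj.mp hib)
    rw [if_pos hev]
    refine hcard.trans ?_
    rw [hset, Set.ncard_union_eq hdisj ((Finset.finite_toSet _).image _) (Set.finite_singleton _),
      Set.InjOn.ncard_image hinjOn, Set.ncard_coe_finset, Nat.card_Icc, Set.ncard_singleton]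
    omega
  · have hset : {C : ConjClasses (GL (Fin n) F ⧸ Subgroup.center (GL (Fin n) F)) | ∃ g : GL (Fin n) F ⧸ Subgroup.center (GL (Fin n) F), ConjClasses.mk g = C ∧ orderOf g = 2}
        = (fun i : ℕ => ConjClasses.mk
            (QuotientGroup.mk' (Subgroup.center (GL (Fin n) F)) (dU F n i)))
            '' ↑(Finset.Icc 1 (n / 2)) := by
      ext C
      constructor
      · rintro ⟨x, rfl, hx⟩
        obtain ⟨g, rfl⟩ := QuotientGroup.mk'_surjective _ x
        rcases cls h2 hn g hx with ⟨i, h1, h2', hc⟩ | ⟨z, hz, hgz⟩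
        · exact ⟨i, Finset.mem_coe.mpr (Finset.mem_Icc.mpr ⟨h1, h2'⟩),
            (ConjClasses.mk_eq_mk_iff_isConj.mpr hc).symm⟩
        · exact absurd (even_of_nonsq _ z hgz hz) hev
      · rintro ⟨i, hi, rfl⟩
        rw [Finset.mem_coe, Finset.mem_Icc] at hi
        exact ⟨_, rfl, order_dU h2 hn i hi.1 hi.2⟩
    rw [if_neg hev, add_zero]
    refine hcard.trans ?_
    rw [hset, Set.InjOn.ncard_image hinjOn, Set.ncard_coe_finset, Nat.card_Icc]
    omega

end Cfsg.Agent.S2577
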