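import Cfsg.Statements.S2579
import Mathlib

set_option autoImplicit false
open Cfsg

namespace Cfsg.Agent.S2579

open Module

variable {F : Type*} [Field F]

lemma normal_form {n : ℕ} (N : Matrix (Fin n) (Fin n) F) (hr : N.rank = 1) (h2 : N * N = 0) :
    ∃ (v : Fin n → F) (f : Module.Dual F (Fin n → F)),
      v ≠ 0 ∧ f ≠ 0 ∧ f v = 0 ∧ ∀ x, N.mulVec x = f x • v := by
  have hr' : Module.finrank F (LinearMap.range N.mulVecLin) = 1 := hr
  obtain ⟨⟨v, hv⟩, hv0, hsp⟩ := finrank_eq_one_iff'.mp hr'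
  have hv0' : v ≠ 0 := fun h => hv0 (Subtype.ext h)
  obtain ⟨i, hi⟩ : ∃ i, v i ≠ 0 := by
    by_contra hcon
    apply hv0'
    funext k
    by_contra hk
    exact hcon ⟨k, hk⟩
  obtain ⟨y, hy⟩ := hv
  have hy' : N.mulVec y = v := hy
  let f : Module.Dual F (Fin n → F) := ((v i)⁻¹ • LinearMap.proj i) ∘ₗ N.mulVecLin
  have hfx : ∀ x, f x = (v i)⁻¹ * (N.mulVec x) i := fun x => rfl
  have hf : ∀ x, N.mulVec x = f x • v := by
    intro x
    obtain ⟨c, hc⟩ := hsp ⟨N.mulVec x, ⟨x, rfl⟩⟩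
    have hc' : c • v = N.mulVec x := congrArg Subtype.val hc
    have : f x = c := by
      rw [hfx, ← hc']
      simp only [Pi.smul_apply, smul_eq_mul]
      field_simp
    rw [this, hc']
  refine ⟨v, f, hv0', ?_, ?_, hf⟩
  · intro h0
    have h1 := hf y
    rw [h0, hy'] at h1
    simp at h1
    exact hv0' h1
  · rw [hfx, ← hy', Matrix.mulVec_mulVec, h2]
    simp

lemma exists_map {V : Type*} [AddCommGroup V] [Module F V] [FiniteDimensional F V]
    (h3 : 3 ≤ finrank F V) (v v' : V) (f f' : Dual F V)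
    (hv : v ≠ 0) (hf : f ≠ 0) (hfv : f v = 0)
    (hv' : v' ≠ 0) (hf' : f' ≠ 0) (hfv' : f' v' = 0) :
    ∃ G : V →ₗ[F] V, LinearMap.det G = 1 ∧ G v = v' ∧ ∀ x, f' (G x) = f x := by
  classical
  obtain ⟨ι, b, i, j, hij, hvb, hfb⟩ := exists_basis_of_pairing_eq_zero hfv hf hv
  obtain ⟨ι', b', i', j', hij', hvb', hfb'⟩ := exists_basis_of_pairing_eq_zero hfv' hf' hv'
  let e0 : ι ≃ ι' := b.indexEquiv b'
  let e1 : ι ≃ ι' := e0.trans (Equiv.swap (e0 i) i')
  have he1i : e1 i = i' := by simp [e1]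
  let e : ι ≃ ι' := e1.trans (Equiv.swap (e1 j) j')
  have hej : e j = j' := by simp [e]
  have hei : e i = i' := by
    have h1 : e1 i ≠ e1 j := fun h => hij (e1.injective h)
    simp only [e, Equiv.trans_apply]
    rw [he1i] at h1 ⊢
    exact Equiv.swap_apply_of_ne_of_ne h1 hij'
  let g0 : V ≃ₗ[F] V := b.equiv b' e
  have hg0v : g0 v = v' := by
    rw [hvb, hvb']
    simp [g0, hei]
  have hg0f : ∀ x, f' (g0 x) = f x := by
    intro x
    have : f' ∘ₗ g0.toLinearMap = f := by
      apply b.ext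
      intro k
      rw [hfb, hfb']
      simp only [LinearMap.comp_apply, LinearEquiv.coe_coe, g0, Basis.equiv_apply,
        Basis.coord_apply, Basis.repr_self, Finsupp.single_apply]
      by_cases hk : k = j
      · subst hk
        simp [hej]
      · have : e k ≠ j' := fun h => hk (e.injective (h.trans hej.symm))
        simp [hk, this]
    exact LinearMap.congr_fun this x
  have : Finite ι := Module.Finite.finite_basis b
  let _ : Fintype ι := Fintype.ofFinite ι
  obtain ⟨k0, hk0i, hk0j⟩ : ∃ k0 : ι, k0 ≠ i ∧ k0 ≠ j := by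
    by_contra hcon
    have hsub : (Finset.univ : Finset ι) ⊆ {i, j} := by
      intro k _
      by_contra hk
      simp only [Finset.mem_insert, Finset.mem_singleton, not_or] at hk
      exact hcon ⟨k, hk.1, hk.2⟩
    have hc := Finset.card_le_card hsub
    have hc2 : ({i, j} : Finset ι).card ≤ 2 := Finset.card_le_two
    rw [Finset.card_univ, ← Module.finrank_eq_card_basis b] at hc
    omega
  set d : F := LinearMap.det g0.toLinearMap with hd
  have hd0 : d ≠ 0 := (LinearEquiv.isUnit_det' g0).ne_zero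
  let D : V →ₗ[F] V := LinearMap.transvection ((d⁻¹ - 1) • b.coord k0) (b k0)
  have hDdet : LinearMap.det D = d⁻¹ := by
    simp [D, LinearMap.transvection.det]
  have hDv : D v = v := by
    rw [hvb]
    simp [D, LinearMap.transvection.apply, hk0i]
  have hDf : ∀ x, f (D x) = f x := by
    intro x
    rw [hfb]
    simp [D, LinearMap.transvection.apply, Ne.symm hk0j]
  refine ⟨g0.toLinearMap ∘ₗ D, ?_, ?_, ?_⟩
  · rw [LinearMap.det_comp, hDdet, ← hd, mul_inv_cancel₀ hd0]
  · simp [hDv, hg0v]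
  · intro x
    simp [hg0f, hDf]

theorem result {F : Type*} [Field F] [Finite F] {n : ℕ} (hn : 3 ≤ n) (s t : Matrix.SpecialLinearGroup (Fin n) F) (hs : Cfsg.IsTransvection (s : Matrix (Fin n) (Fin n) F)) (ht : Cfsg.IsTransvection (t : Matrix (Fin n) (Fin n) F)) : IsConj s t := by
  obtain ⟨v, f, hv, hf, hfv, hN⟩ := normal_form _ hs.1 hs.2
  obtain ⟨v', f', hv', hf', hfv', hN'⟩ := normal_form _ ht.1 ht.2
  have h3 : 3 ≤ finrank F (Fin n → F) := by simpa using hn
  obtain ⟨G, hGdet, hGv, hGf⟩ := exists_map h3 v v' f f' hv hf hfv hv' hf' hfv'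
  let c : Matrix (Fin n) (Fin n) F := LinearMap.toMatrix' G
  have hcdet : c.det = 1 := by rw [LinearMap.det_toMatrix', hGdet]
  have hcx : ∀ x, c.mulVec x = G x := by
    intro x
    rw [← Matrix.toLin'_apply, Matrix.toLin'_toMatrix']
  have hcN : c * ((s : Matrix (Fin n) (Fin n) F) - 1) = ((t : Matrix (Fin n) (Fin n) F) - 1) * c := by
    apply Matrix.toLin'.injective
    apply LinearMap.ext
    intro x
    rw [Matrix.toLin'_apply, Matrix.toLin'_apply, ← Matrix.mulVec_mulVec, ← Matrix.mulVec_mulVec,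
      hN, hN', hcx, hcx, hGf, map_smul, hGv]
  have hcs : c * (s : Matrix (Fin n) (Fin n) F) = (t : Matrix (Fin n) (Fin n) F) * c := by
    have := hcN
    rw [mul_sub, sub_mul, mul_one, one_mul] at this
    exact sub_left_injective this
  rw [isConj_iff]
  let C : Matrix.SpecialLinearGroup (Fin n) F := ⟨c, hcdet⟩
  have hC : C * s = t * C := by
    apply Subtype.ext
    simpa using hcs
  exact ⟨C, mul_inv_eq_iff_eq_mul.mpr hC⟩

end Cfsg.Agent.S2579
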