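import Cfsg.Statements.S2582
import Cfsg.Agent.Lib.Helper51.JBlocks
import Cfsg.Agent.Lib.Helper51.JForm
import Cfsg.Agent.Lib.Helper18.Symp

set_option autoImplicit false
open Cfsg

namespace Cfsg.Agent.S2582

open Cfsg.Agent.Lib.Helper51.Jordan Cfsg.Agent.Lib.Helper51.JType Cfsg.Agent.Lib.Helper51.JBlocks
open Cfsg.Agent.Lib.Helper51.JForm
open scoped Matrix

universe v

section sums

variable {F : Type v} [Field F]
variable {α : Type*} [Fintype α] [DecidableEq α] {β : Type*} [Fintype β] [DecidableEq β]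

omit [Fintype α] [Fintype β] in
theorem J_sum : Matrix.J (α ⊕ β) F
    = Matrix.reindex (Equiv.sumSumSumComm α α β β) (Equiv.sumSumSumComm α α β β)
      (Matrix.fromBlocks (Matrix.J α F) 0 0 (Matrix.J β F)) := by
  ext ((i | i) | (i | i)) ((j | j) | (j | j)) <;> simp [Matrix.J, Matrix.one_apply]

omit [Fintype α] [Fintype β] in
theorem J_reindex (e : α ≃ β) : Matrix.J β F
    = Matrix.reindex (e.sumCongr e) (e.sumCongr e) (Matrix.J α F) := by
  ext (i | i) (j | j) <;> simp [Matrix.J, Matrix.one_apply]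

theorem mem_sum (A₁ : Matrix (α ⊕ α) (α ⊕ α) F) (A₂ : Matrix (β ⊕ β) (β ⊕ β) F)
    (h₁ : A₁ ∈ Matrix.symplecticGroup α F) (h₂ : A₂ ∈ Matrix.symplecticGroup β F) :
    Matrix.reindex (Equiv.sumSumSumComm α α β β) (Equiv.sumSumSumComm α α β β)
      (Matrix.fromBlocks A₁ 0 0 A₂) ∈ Matrix.symplecticGroup (α ⊕ β) F := by
  rw [SymplecticGroup.mem_iff'] at h₁ h₂ ⊢
  rw [J_sum, Matrix.reindex_apply, Matrix.reindex_apply, Matrix.transpose_submatrix,
    Matrix.submatrix_mul_equiv, Matrix.submatrix_mul_equiv, Matrix.fromBlocks_transpose,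
    Matrix.fromBlocks_multiply, Matrix.fromBlocks_multiply]
  congr 1
  simp [h₁, h₂]

theorem mem_reindex (e : α ≃ β) (A : Matrix (α ⊕ α) (α ⊕ α) F)
    (h : A ∈ Matrix.symplecticGroup α F) :
    Matrix.reindex (e.sumCongr e) (e.sumCongr e) A ∈ Matrix.symplecticGroup β F := by
  rw [SymplecticGroup.mem_iff'] at h ⊢
  rw [J_reindex e, Matrix.reindex_apply, Matrix.reindex_apply, Matrix.transpose_submatrix,
    Matrix.submatrix_mul_equiv, Matrix.submatrix_mul_equiv, h]

end sums

section real

variable {F : Type v} [Field F]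

/-- The Jordan type `μ` is realised by a unipotent symplectic matrix. -/
def SpReal (F : Type v) [Field F] (μ : Multiset ℕ) : Prop :=
  ∃ (ι : Type) (_ : Fintype ι) (_ : DecidableEq ι) (A : Matrix (ι ⊕ ι) (ι ⊕ ι) F),
    A ∈ Matrix.symplecticGroup ι F ∧ 2 * Fintype.card ι = μ.sum ∧
    ∀ j, kap (Matrix.toLin' (A - 1)) j = kapM μ j

theorem kapM_add (μ ν : Multiset ℕ) (j : ℕ) : kapM (μ + ν) j = kapM μ j + kapM ν j := by
  unfold kapM
  rw [Multiset.map_add, Multiset.sum_add]

theorem spReal_zero : SpReal F 0 := by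
  refine ⟨Fin 0, inferInstance, inferInstance, 1, Submonoid.one_mem _, by simp, fun j => ?_⟩
  rw [kapM_zero]
  have h := kap_le (Matrix.toLin' ((1 : Matrix (Fin 0 ⊕ Fin 0) (Fin 0 ⊕ Fin 0) F) - 1)) j
  rw [Module.finrank_fintype_fun_eq_card] at h
  simpa using h

theorem spReal_add (μ ν : Multiset ℕ) (h₁ : SpReal F μ) (h₂ : SpReal F ν) :
    SpReal F (μ + ν) := by
  obtain ⟨α, _, _, A₁, hA₁, hc₁, hk₁⟩ := h₁
  obtain ⟨β, _, _, A₂, hA₂, hc₂, hk₂⟩ := h₂
  refine ⟨α ⊕ β, inferInstance, inferInstance, _, mem_sum A₁ A₂ hA₁ hA₂, ?_, fun j => ?_⟩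
  · rw [Fintype.card_sum, Multiset.sum_add]
    omega
  · rw [reindex_sub_one, kap_reindex, fromBlocks_sub_one, kap_fromBlocks, hk₁, hk₂, kapM_add]

theorem spReal_pair (c : ℕ) : SpReal F (c ::ₘ c ::ₘ 0) := by
  refine ⟨Fin c, inferInstance, inferInstance, pairM F c, pairM_mem c, ?_, fun j => ?_⟩
  · simp
    ring
  · rw [kap_pairM, kapM_cons, kapM_cons, kapM_zero, add_zero]

theorem spReal_even (k : ℕ) (hk : 0 < k) : SpReal F ((2 * k) ::ₘ 0) := by
  refine ⟨Fin k, inferInstance, inferInstance, evenM F k, evenM_mem k, ?_, fun j => ?_⟩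
  · simp
  · rw [kap_evenM k hk, kapM_cons, kapM_zero, add_zero]

theorem spReal_of_cond : ∀ (n : ℕ) (μ : Multiset ℕ), μ.card = n → (∀ c ∈ μ, 0 < c) →
    (∀ j, Odd j → Even (μ.count j)) → SpReal F μ := by
  intro n
  induction n using Nat.strong_induction_on with
  | _ n IH =>
    intro μ hcard hpos hcond
    rcases Multiset.empty_or_exists_mem μ with rfl | ⟨a, ha⟩
    · exact spReal_zero
    · have hcp : 0 < μ.card := Multiset.card_pos_iff_exists_mem.mpr ⟨a, ha⟩
      rcases Nat.even_or_odd a with hev | hodd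
      · obtain ⟨k, hk⟩ := hev
        have hk0 : 0 < k := by
          have := hpos _ ha
          omega
        have h1 := IH (μ.erase a).card (by rw [Multiset.card_erase_of_mem ha, Nat.pred_eq_sub_one]; omega)
          (μ.erase a) rfl (fun c hc => hpos c (Multiset.mem_of_mem_erase hc)) (fun j hj => by
            rw [Multiset.count_erase_of_ne]
            · exact hcond j hj
            · rintro rfl
              rw [hk] at hj
              exact absurd hj (by rw [Nat.not_odd_iff_even]; exact ⟨k, rfl⟩))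
        have h2 := spReal_add _ _ (spReal_even (F := F) k hk0) h1
        have e : (2 * k) ::ₘ 0 + μ.erase a = μ := by
          rw [show 2 * k = a by omega, Multiset.cons_add, zero_add, Multiset.cons_erase ha]
        rwa [e] at h2
      · have hc := hcond a hodd
        have hc1 : 0 < μ.count a := Multiset.count_pos.mpr ha
        have hc2 : 2 ≤ μ.count a := by
          obtain ⟨r, hr⟩ := hc
          omega
        have ha' : a ∈ μ.erase a := by
          rw [← Multiset.count_pos, Multiset.count_erase_self]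
          omega
        have h1 := IH ((μ.erase a).erase a).card (by
            rw [Multiset.card_erase_of_mem ha', Multiset.card_erase_of_mem ha, Nat.pred_eq_sub_one,
              Nat.pred_eq_sub_one]
            omega)
          ((μ.erase a).erase a) rfl
          (fun c hc => hpos c (Multiset.mem_of_mem_erase (Multiset.mem_of_mem_erase hc)))
          (fun j hj => by
            by_cases hja : j = a
            · subst hja
              rw [Multiset.count_erase_self, Multiset.count_erase_self]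
              obtain ⟨r, hr⟩ := hc
              exact ⟨r - 1, by omega⟩
            · rw [Multiset.count_erase_of_ne hja, Multiset.count_erase_of_ne hja]
              exact hcond j hj)
        have h2 := spReal_add _ _ (spReal_pair (F := F) a) h1
        have e : a ::ₘ a ::ₘ 0 + (μ.erase a).erase a = μ := by
          rw [Multiset.cons_add, Multiset.cons_add, zero_add, Multiset.cons_erase ha',
            Multiset.cons_erase ha]
        rwa [e] at h2

theorem exists_symp (μ : Multiset ℕ) (m : ℕ) (hsum : μ.sum = 2 * m) (h : SpReal F μ) :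
    ∃ A : Matrix (Fin m ⊕ Fin m) (Fin m ⊕ Fin m) F, A ∈ Matrix.symplecticGroup (Fin m) F ∧
      IsNilpotent (A - 1) ∧ ∀ j, kap (Matrix.toLin' (A - 1)) j = kapM μ j := by
  obtain ⟨ι, _, _, A, hA, hc, hk⟩ := h
  have hcard : Fintype.card ι = m := by omega
  have hk' : ∀ j, kap (Matrix.toLin' (Matrix.reindex ((Fintype.equivFinOfCardEq hcard).sumCongr
      (Fintype.equivFinOfCardEq hcard)) ((Fintype.equivFinOfCardEq hcard).sumCongr
      (Fintype.equivFinOfCardEq hcard)) A - 1)) j = kapM μ j := by
    intro j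
    rw [reindex_sub_one, kap_reindex, hk]
  refine ⟨_, mem_reindex (Fintype.equivFinOfCardEq hcard) A hA, ?_, hk'⟩
  apply mat_nil_of_kap _ (2 * m)
  rw [hk', (kapM_eq_sum_iff μ (2 * m)).mpr (fun c hc => hsum ▸ Multiset.le_sum_of_mem hc), hsum,
    Fintype.card_sum, Fintype.card_fin]
  ring

end real

/-- Which unipotent Jordan types occur in the finite symplectic group: over a finite field, a unipotent matrix with Jordan block sizes d_1, …, d_t (sum 2m, all at least 1) is similar to an element of Sp_2m(F) if and only if every odd block size occurs an even number of times. -/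
theorem result {F : Type*} [Field F] [Fintype F] {m t : ℕ} (d : Fin t → ℕ) (hd : ∀ k, 1 ≤ d k) (hsum : ∑ k, d k = 2 * m) : (∃ e : ((k : Fin t) × Fin (d k)) ≃ (Fin m ⊕ Fin m), ∃ A : Matrix.symplecticGroup (Fin m) F, IsConj (Matrix.reindex e e (Cfsg.jordanTypeMatrix d F)) (A : Matrix (Fin m ⊕ Fin m) (Fin m ⊕ Fin m) F)) ↔ ∀ j : ℕ, Odd j → Even (Finset.univ.filter (fun k : Fin t => d k = j)).card := by
  constructor
  · rintro ⟨e, A, h⟩ j hj
    rw [← count_map]
    apply even_count_of_kap _ (2 * m) _ j hj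
    intro i
    have hk : ∀ j, kap (Matrix.toLin' ((A : Matrix (Fin m ⊕ Fin m) (Fin m ⊕ Fin m) F) - 1)) j
        = kapM (Finset.univ.val.map d) j := by
      intro j
      rw [← kap_isConj _ _ h, reindex_sub_one, kap_reindex, kap_jordanType]
    have hdet : IsUnit (A : Matrix (Fin m ⊕ Fin m) (Fin m ⊕ Fin m) F).det :=
      SymplecticGroup.symplectic_det A.2
    obtain ⟨k, hk'⟩ := even_of_isometry (Cfsg.Agent.Lib.Helper18.sympB (F := F) m)
      (Cfsg.Agent.Lib.Helper18.sympB_isAlt m) (Cfsg.Agent.Lib.Helper18.sympB_nondegenerate m).2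
      (Matrix.toLin' (A : Matrix (Fin m ⊕ Fin m) (Fin m ⊕ Fin m) F))
      (Matrix.toLin' (A : Matrix (Fin m ⊕ Fin m) (Fin m ⊕ Fin m) F)⁻¹)
      (by
        rw [Module.End.mul_eq_comp, ← Matrix.toLin'_mul, Matrix.mul_nonsing_inv _ hdet,
          Matrix.toLin'_one]
        rfl)
      (by
        rw [Module.End.mul_eq_comp, ← Matrix.toLin'_mul, Matrix.nonsing_inv_mul _ hdet,
          Matrix.toLin'_one]
        rfl)
      (Cfsg.Agent.Lib.Helper18.symplectic_isometry m _ A.2) i
    have e1 : (Matrix.toLin' (A : Matrix (Fin m ⊕ Fin m) (Fin m ⊕ Fin m) F) - 1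
        : Module.End F (Fin m ⊕ Fin m → F))
        = Matrix.toLin' ((A : Matrix (Fin m ⊕ Fin m) (Fin m ⊕ Fin m) F) - 1) := by
      rw [map_sub, Matrix.toLin'_one]
      rfl
    rw [e1, hk, Module.finrank_fintype_fun_eq_card, Fintype.card_sum, Fintype.card_fin] at hk'
    exact ⟨k, by omega⟩
  · intro hcond
    have hpos : ∀ c ∈ Finset.univ.val.map d, 0 < c := by
      intro c hc
      obtain ⟨k, _, rfl⟩ := Multiset.mem_map.mp hc
      exact hd k
    have hsum' : (Finset.univ.val.map d).sum = 2 * m := hsum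
    obtain ⟨A, hA, hnil, hk⟩ := exists_symp (F := F) _ m hsum'
      (spReal_of_cond _ _ rfl hpos (fun j hj => by rw [count_map]; exact hcond j hj))
    have hcard : Fintype.card ((k : Fin t) × Fin (d k)) = Fintype.card (Fin m ⊕ Fin m) := by
      rw [Fintype.card_sigma, Fintype.card_sum, Fintype.card_fin]
      simp only [Fintype.card_fin]
      rw [hsum]
      ring
    refine ⟨Fintype.equivOfCardEq hcard, ⟨A, hA⟩, ?_⟩
    apply isConj_of_kap'
    · rw [reindex_sub_one]
      exact (jordanType_nil (F := F) d).map (Matrix.reindexAlgEquiv F F (Fintype.equivOfCardEq hcard))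
    · exact hnil
    · intro j
      rw [reindex_sub_one, kap_reindex, kap_jordanType, hk]

end Cfsg.Agent.S2582
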