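import Cfsg.Statements.S2584
import Cfsg.Agent.Lib.Helper51.JOrth

set_option autoImplicit false
open Cfsg

namespace Cfsg.Agent.S2584

open Cfsg.Agent.S2315 (shiftM shiftM_pow shiftM_nil)
open Cfsg.Agent.Lib.Helper51.Jordan Cfsg.Agent.Lib.Helper51.JType Cfsg.Agent.Lib.Helper51.JBlocks
open Cfsg.Agent.Lib.Helper51.JForm Cfsg.Agent.Lib.Helper51.JOrth
open scoped Matrix

universe v

section block

variable {F : Type v} [Field F]

/-- Extension by zero of a vector indexed by `Fin k`. -/
def ext0 {k : ℕ} (y : Fin k → F) (a : ℕ) : F := if h : a < k then y ⟨a, h⟩ else 0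

theorem shiftT_mulVec' (k : ℕ) (y : Fin k → F) (i : Fin k) :
    ((shiftM F k)ᵀ *ᵥ y) i = ext0 y ((i : ℕ) + 1) := by
  unfold ext0
  by_cases h : (i : ℕ) + 1 < k
  · rw [dif_pos h, shiftT_mulVec _ _ _ h]
  · rw [dif_neg h, Matrix.mulVec, dotProduct]
    apply Finset.sum_eq_zero
    intro b _
    have : ¬ (b : ℕ) = (i : ℕ) + 1 := by
      have := b.2
      omega
    simp [shiftM, this]

theorem rev_ext0 (k : ℕ) (y : Fin k → F) (i : Fin k) : y (Fin.rev i) = ext0 y (k - 1 - (i : ℕ)) := by
  unfold ext0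
  have h : k - 1 - (i : ℕ) < k := by
    have := i.2
    omega
  rw [dif_pos h]
  congr 1
  apply Fin.ext
  rw [Fin.val_rev]
  simp only
  omega

theorem T_eq [CharP F 2] (k : ℕ) (y : Fin k → F) :
    ∑ i, y (Fin.rev i) * ((shiftM F k)ᵀ *ᵥ y) i
      = ∑ i ∈ Finset.range k,
          (if 2 * (i + 1) = k then ext0 y (i + 1) * ext0 y (i + 1) else 0) := by
  have e1 : ∑ i, y (Fin.rev i) * ((shiftM F k)ᵀ *ᵥ y) i
      = ∑ i ∈ Finset.range k, ext0 y (k - 1 - i) * ext0 y (i + 1) := by
    rw [← Fin.sum_univ_eq_sum_range (fun i => ext0 y (k - 1 - i) * ext0 y (i + 1))]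
    apply Finset.sum_congr rfl
    intro i _
    rw [rev_ext0 k y i, shiftT_mulVec']
  rw [e1, ← CharTwo.add_eq_zero, ← Finset.sum_add_distrib]
  have hk0 : ext0 y k = 0 := by
    unfold ext0
    rw [dif_neg (lt_irrefl k)]
  apply Finset.sum_involution (fun i _ => if i + 2 ≤ k then k - 2 - i else i)
  · intro i hi
    rw [Finset.mem_range] at hi
    by_cases h : i + 2 ≤ k
    · simp only [if_pos h]
      have e1 : k - 1 - (k - 2 - i) = i + 1 := by omega
      have e2 : k - 2 - i + 1 = k - 1 - i := by omega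
      rw [e1, e2]
      by_cases h2 : 2 * (i + 1) = k
      · have e3 : k - 1 - i = i + 1 := by omega
        rw [if_pos h2, if_pos (by omega), e3]
        exact CharTwo.add_self_eq_zero _
      · rw [if_neg h2, if_neg (by omega), add_zero, add_zero, mul_comm (ext0 y (i + 1))]
        exact CharTwo.add_self_eq_zero _
    · simp only [if_neg h]
      exact CharTwo.add_self_eq_zero _
  · intro i hi hne
    rw [Finset.mem_range] at hi
    by_cases h : i + 2 ≤ k
    · simp only [if_pos h]
      intro heq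
      apply hne
      have e3 : k - 1 - i = i + 1 := by omega
      rw [if_pos (by omega), e3]
      exact CharTwo.add_self_eq_zero _
    · exfalso
      apply hne
      have e4 : i + 1 = k := by omega
      rw [e4, hk0, mul_zero, zero_add, if_neg (by omega)]
  · intro i hi
    rw [Finset.mem_range] at hi ⊢
    by_cases h : i + 2 ≤ k
    · simp only [if_pos h]
      omega
    · simp only [if_neg h]
      exact hi
  · intro i hi
    rw [Finset.mem_range] at hi
    by_cases h : i + 2 ≤ k
    · simp only [if_pos h]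
      rw [if_pos (by omega)]
      omega
    · simp only [if_neg h]

theorem hyp_quad (c : ℕ) (z : Fin c ⊕ Fin c → F) :
    z ⬝ᵥ ((Matrix.fromBlocks 0 1 0 0 : Matrix (Fin c ⊕ Fin c) (Fin c ⊕ Fin c) F) *ᵥ z)
      = (z ∘ Sum.inl) ⬝ᵥ (z ∘ Sum.inr) := by
  rw [Matrix.fromBlocks_mulVec]
  simp [dotProduct, Fintype.sum_sum_type]

theorem hyp_add_transpose (c : ℕ) :
    (Matrix.fromBlocks 0 1 0 0 : Matrix (Fin c ⊕ Fin c) (Fin c ⊕ Fin c) F)
        + (Matrix.fromBlocks 0 1 0 0 : Matrix (Fin c ⊕ Fin c) (Fin c ⊕ Fin c) F)ᵀ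
      = Matrix.fromBlocks 0 1 1 0 := by
  rw [Matrix.fromBlocks_transpose, Matrix.fromBlocks_add]
  simp

theorem hyp_det (c : ℕ) :
    (Matrix.fromBlocks 0 1 1 0 : Matrix (Fin c ⊕ Fin c) (Fin c ⊕ Fin c) F).det ≠ 0 := by
  have h2 : (Matrix.fromBlocks 0 1 1 0 : Matrix (Fin c ⊕ Fin c) (Fin c ⊕ Fin c) F)
      * Matrix.fromBlocks 0 1 1 0 = 1 := by
    rw [Matrix.fromBlocks_multiply]
    simp [Matrix.fromBlocks_one]
  intro h0
  have := congrArg Matrix.det h2
  rw [Matrix.det_mul, h0, Matrix.det_one, zero_mul] at this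
  exact zero_ne_one this

theorem hyp_even [CharP F 2] (k : ℕ) (v : Fin k ⊕ Fin k → F) :
    ((evenM F k *ᵥ v) ∘ Sum.inl) ⬝ᵥ ((evenM F k *ᵥ v) ∘ Sum.inr)
      = (v ∘ Sum.inl) ⬝ᵥ (v ∘ Sum.inr) + ∑ i ∈ Finset.range k,
          (if 2 * (i + 1) = k then ext0 (v ∘ Sum.inr) (i + 1) * ext0 (v ∘ Sum.inr) (i + 1)
            else 0) := by
  unfold evenM
  rw [Matrix.fromBlocks_mulVec, Sum.elim_comp_inl, Sum.elim_comp_inr, ← T_eq]
  obtain ⟨x, hx⟩ : ∃ x, x = v ∘ Sum.inl := ⟨_, rfl⟩
  obtain ⟨y, hy⟩ : ∃ y, y = v ∘ Sum.inr := ⟨_, rfl⟩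
  rw [← hx, ← hy]
  have hterm : ∀ i : Fin k, (((0 : Matrix (Fin k) (Fin k) F) *ᵥ x + -revM F k *ᵥ y
      : Fin k → F) i)
      * ((revM F k *ᵥ x + ((1 : Matrix (Fin k) (Fin k) F) + 1 + (shiftM F k)ᵀ) *ᵥ y
          : Fin k → F) i)
      = x (Fin.rev i) * y (Fin.rev i) + y (Fin.rev i) * ((shiftM F k)ᵀ *ᵥ y) i := by
    intro i
    simp only [Pi.add_apply, Matrix.zero_mulVec, Pi.zero_apply, zero_add, Matrix.neg_mulVec,
      Pi.neg_apply, revM_mulVec, Matrix.add_mulVec, Matrix.one_mulVec]
    rw [CharTwo.neg_eq, CharTwo.add_self_eq_zero, zero_add]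
    ring
  have hrev : ∑ i, x (Fin.rev i) * y (Fin.rev i) = ∑ i, x i * y i :=
    Equiv.sum_comp Fin.revPerm (fun i => x i * y i)
  show ∑ i, _ = ∑ i, x i * y i + _
  rw [Finset.sum_congr rfl (fun i _ => hterm i), Finset.sum_add_distrib, hrev]

end block


section real

variable {F : Type v} [Field F]

/-- In characteristic two a single Jordan block of even size is an isometry of a quadratic form
with non-degenerate polar form. -/
theorem oReal_even [CharP F 2] (k : ℕ) (hk : 0 < k) : OReal F ((2 * k) ::ₘ 0) := by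
  rcases Nat.even_or_odd' k with ⟨h, rfl | rfl⟩
  · have hh : 0 < h := by omega
    obtain ⟨a, ha⟩ : ∃ a : Fin (2 * h), (a : ℕ) = h := ⟨⟨h, by omega⟩, rfl⟩
    obtain ⟨b, hb⟩ : ∃ b : Fin (2 * h), (b : ℕ) = h - 1 := ⟨⟨h - 1, by omega⟩, rfl⟩
    have hra : Fin.rev a = b := Fin.ext (by rw [Fin.val_rev]; omega)
    have hrb : Fin.rev b = a := Fin.ext (by rw [Fin.val_rev]; omega)
    have hb1 : (b : ℕ) + 1 < 2 * h := by omega
    have hba : (⟨(b : ℕ) + 1, hb1⟩ : Fin (2 * h)) = a := Fin.ext (by simp only; omega)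
    obtain ⟨ℓ, hℓ⟩ : ∃ ℓ : Fin (2 * h) ⊕ Fin (2 * h) → F,
        ℓ = Pi.single (Sum.inl a) 1 + Pi.single (Sum.inr b) 1 := ⟨_, rfl⟩
    have hℓv : ∀ z : Fin (2 * h) ⊕ Fin (2 * h) → F, ℓ ⬝ᵥ z = z (Sum.inl a) + z (Sum.inr b) := by
      intro z
      rw [hℓ, add_dotProduct, single_one_dotProduct, single_one_dotProduct]
    refine ⟨Fin (2 * h) ⊕ Fin (2 * h), inferInstance, inferInstance,
      Matrix.fromBlocks 0 1 0 0 + Matrix.vecMulVec ℓ ℓ, evenM F (2 * h), ?_, fun v => ?_, ?_,
      fun j => ?_⟩
    · have e : (Matrix.fromBlocks 0 1 0 0 + Matrix.vecMulVec ℓ ℓ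
            : Matrix (Fin (2 * h) ⊕ Fin (2 * h)) (Fin (2 * h) ⊕ Fin (2 * h)) F)
          + (Matrix.fromBlocks 0 1 0 0 + Matrix.vecMulVec ℓ ℓ
            : Matrix (Fin (2 * h) ⊕ Fin (2 * h)) (Fin (2 * h) ⊕ Fin (2 * h)) F)ᵀ
          = Matrix.fromBlocks 0 1 1 0 := by
        rw [← hyp_add_transpose]
        ext i j
        simp only [Matrix.add_apply, Matrix.transpose_apply, Matrix.vecMulVec_apply]
        have : ℓ i * ℓ j + ℓ j * ℓ i = 0 := by
          rw [mul_comm (ℓ j)]
          exact CharTwo.add_self_eq_zero _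
        linear_combination this
      rw [e]
      exact hyp_det _
    · have hq : ∀ z : Fin (2 * h) ⊕ Fin (2 * h) → F,
          z ⬝ᵥ ((Matrix.fromBlocks 0 1 0 0 + Matrix.vecMulVec ℓ ℓ) *ᵥ z)
            = (z ∘ Sum.inl) ⬝ᵥ (z ∘ Sum.inr) + (ℓ ⬝ᵥ z) * (ℓ ⬝ᵥ z) := by
        intro z
        rw [Matrix.add_mulVec, dotProduct_add, hyp_quad, Matrix.vecMulVec_mulVec,
          op_smul_eq_smul, dotProduct_smul, smul_eq_mul, dotProduct_comm z ℓ]
      rw [hq, hq, hyp_even, hℓv, hℓv]
      have hsum : ∑ i ∈ Finset.range (2 * h), (if 2 * (i + 1) = 2 * h then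
          ext0 (v ∘ Sum.inr) (i + 1) * ext0 (v ∘ Sum.inr) (i + 1) else 0)
          = v (Sum.inr a) * v (Sum.inr a) := by
        rw [Finset.sum_eq_single (h - 1)]
        · rw [if_pos (by omega)]
          have e1 : h - 1 + 1 = h := by omega
          have e2 : ext0 (v ∘ Sum.inr) h = v (Sum.inr a) := by
            unfold ext0
            rw [dif_pos (by omega)]
            show v (Sum.inr _) = v (Sum.inr a)
            congr 2
            exact Fin.ext ha.symm
          rw [e1, e2]
        · intro c _ hc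
          rw [if_neg (by omega)]
        · intro hc
          exact absurd (Finset.mem_range.mpr (by omega)) hc
      rw [hsum]
      have c1 : (evenM F (2 * h) *ᵥ v) (Sum.inl a) = - v (Sum.inr b) := by
        unfold evenM
        rw [Matrix.fromBlocks_mulVec]
        simp only [Sum.elim_inl, Matrix.zero_mulVec, zero_add,
          Matrix.neg_mulVec, Pi.neg_apply, revM_mulVec, Function.comp_apply, hra]
      have c2 : (evenM F (2 * h) *ᵥ v) (Sum.inr b)
          = v (Sum.inl a) + v (Sum.inr b) + v (Sum.inr b) + v (Sum.inr a) := by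
        unfold evenM
        rw [Matrix.fromBlocks_mulVec]
        simp only [Sum.elim_inr, Pi.add_apply, Matrix.add_mulVec, Matrix.one_mulVec, revM_mulVec,
          Function.comp_apply, hrb]
        rw [shiftT_mulVec _ _ _ hb1, hba]
        simp only [Function.comp_apply]
        ring
      rw [c1, c2]
      have e3 : -v (Sum.inr b) + (v (Sum.inl a) + v (Sum.inr b) + v (Sum.inr b) + v (Sum.inr a))
          = (v (Sum.inl a) + v (Sum.inr b)) + v (Sum.inr a) := by ring
      rw [e3, CharTwo.add_mul_self]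
      have := CharTwo.add_self_eq_zero (v (Sum.inr a) * v (Sum.inr a))
      linear_combination this
    · simp
      ring
    · rw [kap_evenM _ hk, kapM_cons, kapM_zero, add_zero]
  · refine ⟨Fin (2 * h + 1) ⊕ Fin (2 * h + 1), inferInstance, inferInstance,
      Matrix.fromBlocks 0 1 0 0, evenM F (2 * h + 1), ?_, fun v => ?_, ?_, fun j => ?_⟩
    · rw [hyp_add_transpose]
      exact hyp_det _
    · rw [hyp_quad, hyp_quad, hyp_even, Finset.sum_eq_zero, add_zero]
      intro i _
      rw [if_neg (by omega)]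
    · simp
      ring
    · rw [kap_evenM _ hk, kapM_cons, kapM_zero, add_zero]

theorem oReal_of_cond [CharP F 2] : ∀ (n : ℕ) (μ : Multiset ℕ), μ.card = n →
    (∀ c ∈ μ, 0 < c) → (∀ j, Odd j → Even (μ.count j)) → OReal F μ := by
  intro n
  induction n using Nat.strong_induction_on with
  | _ n IH =>
    intro μ hcard hpos hcond
    rcases Multiset.empty_or_exists_mem μ with rfl | ⟨a, ha⟩
    · exact oReal_zero
    · have hcp : 0 < μ.card := Multiset.card_pos_iff_exists_mem.mpr ⟨a, ha⟩
      rcases Nat.even_or_odd a with hev | hodd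
      · obtain ⟨k, hk⟩ := hev
        have hk0 : 0 < k := by
          have := hpos _ ha
          omega
        have h1 := IH (μ.erase a).card
          (by rw [Multiset.card_erase_of_mem ha, Nat.pred_eq_sub_one]; omega)
          (μ.erase a) rfl (fun c hc => hpos c (Multiset.mem_of_mem_erase hc)) (fun j hj => by
            rw [Multiset.count_erase_of_ne]
            · exact hcond j hj
            · rintro rfl
              rw [hk] at hj
              exact absurd hj (by rw [Nat.not_odd_iff_even]; exact ⟨k, rfl⟩))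
        have h3 := oReal_add _ _ (oReal_even (F := F) k hk0) h1
        have e : (2 * k) ::ₘ 0 + μ.erase a = μ := by
          rw [show 2 * k = a by omega, Multiset.cons_add, zero_add, Multiset.cons_erase ha]
        rwa [e] at h3
      · have hc := hcond a hodd
        have hc1 : 0 < μ.count a := Multiset.count_pos.mpr ha
        have hc2 : 2 ≤ μ.count a := by
          obtain ⟨r, hr⟩ := hc
          omega
        have ha' : a ∈ μ.erase a := by
          rw [← Multiset.count_pos, Multiset.count_erase_self]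
          omega
        have h1 := IH ((μ.erase a).erase a).card (by
            rw [Multiset.card_erase_of_mem ha', Multiset.card_erase_of_mem ha, Nat.pred_eq_sub_one,
              Nat.pred_eq_sub_one]
            omega)
          ((μ.erase a).erase a) rfl
          (fun c hc => hpos c (Multiset.mem_of_mem_erase (Multiset.mem_of_mem_erase hc)))
          (fun j hj => by
            by_cases hja : j = a
            · subst hja
              rw [Multiset.count_erase_self, Multiset.count_erase_self]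
              obtain ⟨r, hr⟩ := hc
              exact ⟨r - 1, by omega⟩
            · rw [Multiset.count_erase_of_ne hja, Multiset.count_erase_of_ne hja]
              exact hcond j hj)
        have h3 := oReal_add _ _ (oReal_pair (F := F) a) h1
        have e : a ::ₘ a ::ₘ 0 + (μ.erase a).erase a = μ := by
          rw [Multiset.cons_add, Multiset.cons_add, zero_add, Multiset.cons_erase ha',
            Multiset.cons_erase ha]
        rwa [e] at h3

end real

/-- Which unipotent Jordan types occur in a finite orthogonal group in characteristic two: over a finite field of characteristic 2 and in even dimension 2m, a unipotent matrix with Jordan block sizes d_1, …, d_t (sum 2m, all at least 1) is similar to an isometry of some quadratic form on F^(2m) with non-degenerate polar form if and only if every odd block size occurs an even number of times (the same condition as for the symplectic group, which contains these orthogonal groups). -/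
theorem result {F : Type*} [Field F] [Fintype F] [CharP F 2] {m t : ℕ} (d : Fin t → ℕ) (hd : ∀ k, 1 ≤ d k) (hsum : ∑ k, d k = 2 * m) : (∃ Q : QuadraticForm F (Fin (2 * m) → F), (QuadraticMap.polarBilin Q).Nondegenerate ∧ ∃ e : ((k : Fin t) × Fin (d k)) ≃ Fin (2 * m), ∃ A : ↥(Cfsg.isometryGroup F ⇑Q), IsConj (Matrix.reindex e e (Cfsg.jordanTypeMatrix d F)) ((A : Matrix.GeneralLinearGroup (Fin (2 * m)) F) : Matrix (Fin (2 * m)) (Fin (2 * m)) F)) ↔ ∀ j : ℕ, Odd j → Even (Finset.univ.filter (fun k : Fin t => d k = j)).card := by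
  have hpos : ∀ c ∈ Finset.univ.val.map d, 0 < c := by
    intro c hc
    obtain ⟨k, _, rfl⟩ := Multiset.mem_map.mp hc
    exact hd k
  constructor
  · rintro ⟨Q, hnd, e, A, h⟩ j hj
    rw [← count_map]
    apply even_count_of_kap _ (2 * m) _ j hj
    intro i
    have hk := kap_of_conj d e _ h
    have e1 : (Matrix.toLin'
        ((A : Matrix.GeneralLinearGroup (Fin (2 * m)) F) : Matrix (Fin (2 * m)) (Fin (2 * m)) F)
        - 1 : Module.End F (Fin (2 * m) → F))
        = Matrix.toLin' (((A : Matrix.GeneralLinearGroup (Fin (2 * m)) F)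
          : Matrix (Fin (2 * m)) (Fin (2 * m)) F) - 1) := by
      rw [map_sub, Matrix.toLin'_one]
      rfl
    obtain ⟨k, hk'⟩ := even_of_isometry (QuadraticMap.polarBilin Q)
      (fun x => by
        rw [QuadraticMap.polarBilin_apply_apply, QuadraticMap.polar_self, two_nsmul]
        exact CharTwo.add_self_eq_zero _)
      hnd.2
      (Matrix.toLin'
        ((A : Matrix.GeneralLinearGroup (Fin (2 * m)) F) : Matrix (Fin (2 * m)) (Fin (2 * m)) F))
      (Matrix.toLin' (((A : Matrix.GeneralLinearGroup (Fin (2 * m)) F)⁻¹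
        : Matrix.GeneralLinearGroup (Fin (2 * m)) F) : Matrix (Fin (2 * m)) (Fin (2 * m)) F))
      (by
        rw [Module.End.mul_eq_comp, ← Matrix.toLin'_mul, Units.mul_inv, Matrix.toLin'_one]
        rfl)
      (by
        rw [Module.End.mul_eq_comp, ← Matrix.toLin'_mul, Units.inv_mul, Matrix.toLin'_one]
        rfl)
      (polar_isometry Q A) i
    rw [e1, hk, Module.finrank_fintype_fun_eq_card, Fintype.card_fin] at hk'
    exact ⟨k, hk'⟩
  · intro hcond
    exact exists_conj d hsum (oReal_of_cond _ _ rfl hpos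
      (fun j hj => by rw [count_map]; exact hcond j hj))

end Cfsg.Agent.S2584
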