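import Cfsg.Statements.S2585
import Mathlib

set_option autoImplicit false
open Cfsg

namespace Cfsg.Agent.S2585

/-- the standard hyperbolic form -/
noncomputable def Q0 (m : ℕ) (F : Type*) [Field F] : QuadraticForm F (Fin m ⊕ Fin m → F) :=
  ∑ i : Fin m, QuadraticMap.proj (Sum.inl i) (Sum.inr i)

theorem Q0_apply (m : ℕ) (F : Type*) [Field F] (v : Fin m ⊕ Fin m → F) :
    Q0 m F v = ∑ i : Fin m, v (Sum.inl i) * v (Sum.inr i) := by
  simp [Q0]

theorem sympForm_eq (m : ℕ) (F : Type*) [Field F] (u v : Fin m ⊕ Fin m → F) :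
    Cfsg.sympForm m F u v =
      ∑ i : Fin m, (u (Sum.inr i) * v (Sum.inl i) - u (Sum.inl i) * v (Sum.inr i)) := by
  simp [Cfsg.sympForm, Matrix.J, Matrix.fromBlocks_mulVec, dotProduct, Fintype.sum_sum_type,
    Matrix.neg_mulVec, Finset.sum_sub_distrib]
  ring

theorem polar_Q0 (m : ℕ) (F : Type*) [Field F] [CharP F 2] (u v : Fin m ⊕ Fin m → F) :
    QuadraticMap.polar ⇑(Q0 m F) u v = Cfsg.sympForm m F u v := by
  rw [sympForm_eq]
  simp only [QuadraticMap.polar, Q0_apply, Pi.add_apply]
  rw [← Finset.sum_sub_distrib, ← Finset.sum_sub_distrib]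
  apply Finset.sum_congr rfl
  intro i _
  have h2 : ∀ a : F, -a = a := fun a => CharTwo.neg_eq a
  have : u (Sum.inr i) * v (Sum.inl i) - u (Sum.inl i) * v (Sum.inr i)
      = u (Sum.inr i) * v (Sum.inl i) + u (Sum.inl i) * v (Sum.inr i) := by
    rw [sub_eq_add_neg, h2]
  rw [this]
  ring

/-- Over a finite field of characteristic two every element of the symplectic group is orthogonal for a suitable quadratic form: for each A in Sp_2m(F) there is a quadratic form Q on F^(2m) whose polar form is the alternating form defining Sp_2m(F) (so Q is non-degenerate) and which A preserves. Equivalently, for m ≥ 1, Sp_2m(F) is the union of the conjugates of its two orthogonal subgroups O⁺_2m(F) and O⁻_2m(F). -/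
theorem result {F : Type*} [Field F] [Fintype F] [CharP F 2] {m : ℕ} (A : Matrix.symplecticGroup (Fin m) F) : ∃ Q : QuadraticForm F (Fin m ⊕ Fin m → F), (∀ u v : Fin m ⊕ Fin m → F, QuadraticMap.polar ⇑Q u v = Cfsg.sympForm m F u v) ∧ ∀ v : Fin m ⊕ Fin m → F, Q ((A : Matrix (Fin m ⊕ Fin m) (Fin m ⊕ Fin m) F).mulVec v) = Q v := by
  classical
  set M : Matrix (Fin m ⊕ Fin m) (Fin m ⊕ Fin m) F := (A : Matrix (Fin m ⊕ Fin m) (Fin m ⊕ Fin m) F) with hM
  have h2 : ∀ a : F, -a = a := fun a => CharTwo.neg_eq a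
  have hadd2 : ∀ a : F, a + a = 0 := fun a => CharTwo.add_self_eq_zero a
  -- M preserves the symplectic form
  have hAJ : M.transpose * Matrix.J (Fin m) F * M = Matrix.J (Fin m) F :=
    SymplecticGroup.mem_iff'.mp A.2
  have hform : ∀ x y, Cfsg.sympForm m F (M.mulVec x) (M.mulVec y) = Cfsg.sympForm m F x y := by
    intro x y
    unfold Cfsg.sympForm
    rw [Matrix.mulVec_mulVec, ← Matrix.vecMul_transpose, Matrix.dotProduct_mulVec,
      Matrix.vecMul_vecMul, ← Matrix.dotProduct_mulVec, ← Matrix.mul_assoc, hAJ]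
  -- the defect
  let D : (Fin m ⊕ Fin m → F) → F := fun v => Q0 m F (M.mulVec v) - Q0 m F v
  have hDadd : ∀ u v, D (u + v) = D u + D v := by
    intro u v
    simp only [D]
    rw [Matrix.mulVec_add, QuadraticMap.map_add (Q0 m F) (M.mulVec u) (M.mulVec v),
      QuadraticMap.map_add (Q0 m F) u v, polar_Q0, polar_Q0, hform]
    ring
  have hDsmul : ∀ (a : F) v, D (a • v) = a ^ 2 * D v := by
    intro a v
    simp only [D]
    rw [Matrix.mulVec_smul, QuadraticMap.map_smul, QuadraticMap.map_smul]
    simp only [smul_eq_mul]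
    ring
  -- square root of the defect is linear
  let sq : F ≃+* F := frobeniusEquiv F 2
  have hsq : ∀ a : F, sq a = a ^ 2 := fun a => by simp [sq, frobeniusEquiv_apply, frobenius_def]
  let ψ : (Fin m ⊕ Fin m → F) →ₗ[F] F :=
    { toFun := fun v => sq.symm (D v)
      map_add' := by
        intro u v
        rw [hDadd, map_add]
      map_smul' := by
        intro a v
        rw [hDsmul]
        show sq.symm (a ^ 2 * D v) = a * sq.symm (D v)
        apply sq.injective
        rw [RingEquiv.apply_symm_apply, map_mul sq a, RingEquiv.apply_symm_apply, hsq] }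
  have hψ : ∀ v, ψ v ^ 2 = D v := by
    intro v
    rw [← hsq]
    exact sq.apply_symm_apply (D v)
  -- ψ vanishes on the fixed space of M
  let T : (Fin m ⊕ Fin m → F) →ₗ[F] (Fin m ⊕ Fin m → F) := Matrix.toLin' (M - 1)
  have hTapp : ∀ v, T v = M.mulVec v - v := by
    intro v; simp [T]
  have hmem : ψ ∈ LinearMap.range T.dualMap := by
    rw [LinearMap.range_dualMap_eq_dualAnnihilator_ker]
    rw [Submodule.mem_dualAnnihilator]
    intro w hw
    rw [LinearMap.mem_ker, hTapp, sub_eq_zero] at hw
    have h0 : D w = 0 := by simp only [D]; rw [hw, sub_self]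
    have : ψ w ^ 2 = 0 := by rw [hψ, h0]
    exact pow_eq_zero_iff (two_ne_zero) |>.mp this
  obtain ⟨η, hη⟩ := hmem
  have hηT : ∀ v, η (M.mulVec v - v) = ψ v := by
    intro v
    rw [← hTapp]
    have := congrArg (fun g : Module.Dual F (Fin m ⊕ Fin m → F) => g v) hη
    simpa using this
  refine ⟨Q0 m F + QuadraticMap.linMulLin η η, ?_, ?_⟩
  · intro u v
    rw [← polar_Q0]
    simp only [QuadraticMap.polar, add_apply, QuadraticMap.linMulLin_apply, map_add]
    have := hadd2 (η u * η v)
    linear_combination this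
  · intro v
    simp only [add_apply, QuadraticMap.linMulLin_apply]
    have h1 := hηT v
    rw [map_sub] at h1
    have h3 := hψ v
    simp only [D] at h3
    have h4 := hadd2 (η (M.mulVec v) * η v)
    have h5 := hadd2 (Q0 m F (M.mulVec v) - Q0 m F v)
    rw [← h1] at h3
    have h6 := hadd2 (η v ^ 2)
    linear_combination h3 + h5 + h4 - h6
end Cfsg.Agent.S2585
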