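import Cfsg.Statements.S2586
import Mathlib

set_option autoImplicit false
open Cfsg

namespace Cfsg.Agent.S2586

open Polynomial

theorem exists_functional {F : Type*} [Field F] (p : F[X]) (hp : Irreducible p) (e : ℕ) :
    ∃ l : (F[X] ⧸ Submodule.span F[X] {p ^ e}) →ₗ[F] F,
      ∀ a : F[X] ⧸ Submodule.span F[X] {p ^ e}, (∀ b, l (a * b) = 0) → a = 0 := by
  rcases Nat.eq_zero_or_pos e with he | he
  · subst he
    refine ⟨0, fun a _ => ?_⟩
    have htop : (Ideal.span {p ^ 0} : Ideal F[X]) = ⊤ := by simp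
    obtain ⟨h, rfl⟩ := Ideal.Quotient.mk_surjective a
    exact Ideal.Quotient.eq_zero_iff_mem.mpr (by
      show h ∈ Ideal.span {p ^ 0}
      rw [htop]; trivial)
  · obtain ⟨e', rfl⟩ : ∃ e', e = e' + 1 := ⟨e - 1, by omega⟩
    show ∃ l : (F[X] ⧸ Ideal.span {p ^ (e' + 1)}) →ₗ[F] F,
      ∀ a : F[X] ⧸ Ideal.span {p ^ (e' + 1)}, (∀ b, l (a * b) = 0) → a = 0
    set I : Ideal F[X] := Ideal.span {p ^ (e' + 1)} with hI
    let s : F[X] ⧸ I := Ideal.Quotient.mk I (p ^ e')
    have hs : s ≠ 0 := by
      intro h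
      rw [Ideal.Quotient.eq_zero_iff_mem, Ideal.mem_span_singleton] at h
      have := (pow_dvd_pow_iff hp.ne_zero hp.not_isUnit).mp h
      omega
    obtain ⟨l, hl⟩ : ∃ l : Module.Dual F (F[X] ⧸ I), l s ≠ 0 := by
      by_contra hcon
      exact hs ((Module.forall_dual_apply_eq_zero_iff F s).mp
        (fun l => not_not.mp (fun hne => hcon ⟨l, hne⟩)))
    refine ⟨l, fun a ha => ?_⟩
    by_contra ha0
    obtain ⟨h, rfl⟩ := Ideal.Quotient.mk_surjective a
    have hh : ¬ p ^ (e' + 1) ∣ h := by
      intro hd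
      exact ha0 (Ideal.Quotient.eq_zero_iff_mem.mpr (Ideal.mem_span_singleton.mpr hd))
    have hh0 : h ≠ 0 := by rintro rfl; exact hh (dvd_zero _)
    obtain ⟨k, h', hph', rfl⟩ := WfDvdMonoid.max_power_factor hh0 hp
    have hk : k ≤ e' := by
      by_contra hk
      exact hh (Dvd.dvd.mul_right (pow_dvd_pow p (not_le.mp hk)) h')
    have hcop : IsCoprime h' (p ^ (e' + 1)) := by
      apply IsCoprime.pow_right
      exact (hp.coprime_iff_not_dvd.mpr hph').symm
    obtain ⟨u, v, huv⟩ := hcop
    apply hl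
    have := ha (Ideal.Quotient.mk I (u * p ^ (e' - k)))
    rw [← this]
    congr 1
    rw [← map_mul]
    show Ideal.Quotient.mk I (p ^ e') = _
    rw [Ideal.Quotient.eq, Ideal.mem_span_singleton]
    refine ⟨p ^ e' * v, ?_⟩
    have hpk : p ^ e' = p ^ k * p ^ (e' - k) := by rw [← pow_add]; congr 1; omega
    linear_combination (u * h') * hpk - p ^ e' * huv

theorem conj_transpose {F : Type*} [Field F] {κ : Type*} [Fintype κ] [DecidableEq κ] (A : Matrix κ κ F) : IsConj A A.transpose := by
  classical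
  let φ : Module.End F (κ → F) := Matrix.toLin' A
  have htors : Module.IsTorsion F[X] (Module.AEval' φ) :=
    Module.AEval.isTorsion_of_finiteDimensional F (κ → F) φ
  obtain ⟨ι, hι, p, hp, e, ⟨E⟩⟩ := Module.equiv_directSum_of_isTorsion htors
  choose l hl using fun i => exists_functional (p i) (hp i) (e i)
  let comp := fun i => DirectSum.component F[X] ι (fun i => F[X] ⧸ Submodule.span F[X] {p i ^ e i}) i
  let β : Module.AEval' φ → Module.AEval' φ → F :=
    fun x y => ∑ i, l i (comp i (E x) * comp i (E y))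
  have hCl : ∀ i (c : F) (r : F[X] ⧸ Submodule.span F[X] {p i ^ e i}), l i (C c • r) = c * l i r := by
    intro i c r
    rw [Polynomial.C_eq_algebraMap, algebraMap_smul, map_smul, smul_eq_mul]
  have hβadd_left : ∀ x x' y, β (x + x') y = β x y + β x' y := by
    intro x x' y
    simp only [β, map_add, add_mul, Finset.sum_add_distrib]
  have hβadd_right : ∀ x y y', β x (y + y') = β x y + β x y' := by
    intro x y y'
    simp only [β, map_add, mul_add, Finset.sum_add_distrib]
  have hβC_left : ∀ (c : F) x y, β (C c • x) y = c * β x y := by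
    intro c x y
    simp only [β, map_smul, smul_mul_assoc, hCl, Finset.mul_sum]
  have hβC_right : ∀ (c : F) x y, β x (C c • y) = c * β x y := by
    intro c x y
    simp only [β, map_smul, mul_smul_comm, hCl, Finset.mul_sum]
  have hβX : ∀ x y, β ((X : F[X]) • x) y = β x ((X : F[X]) • y) := by
    intro x y
    simp only [β, map_smul, smul_mul_assoc, mul_smul_comm]
  have hof_smul : ∀ (c : F) x, Module.AEval'.of φ (c • x) = (C c : F[X]) • Module.AEval'.of φ x := by
    intro c x
    rw [Module.AEval.C_smul, map_smul]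
  let B : LinearMap.BilinForm F (κ → F) :=
    LinearMap.mk₂ F (fun x y => β (Module.AEval'.of φ x) (Module.AEval'.of φ y))
      (by intro x x' y; simp only [map_add, hβadd_left])
      (by
        intro c x y
        rw [hof_smul, hβC_left, smul_eq_mul])
      (by intro x y y'; simp only [map_add, hβadd_right])
      (by
        intro c x y
        rw [hof_smul, hβC_right, smul_eq_mul])
  have hBapp : ∀ x y, B x y = β (Module.AEval'.of φ x) (Module.AEval'.of φ y) := fun x y => rfl
  have hBφ : ∀ x y, B (φ x) y = B x (φ y) := by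
    intro x y
    rw [hBapp, hBapp, ← Module.AEval'.X_smul_of, ← Module.AEval'.X_smul_of, hβX]
  have hBnd : ∀ x, (∀ y, B x y = 0) → x = 0 := by
    intro x hx
    have h1 : ∀ i, comp i (E (Module.AEval'.of φ x)) = 0 := by
      intro i
      apply hl i
      intro b
      have h2 := hx ((Module.AEval'.of φ).symm (E.symm (DirectSum.of _ i b)))
      rw [hBapp] at h2
      simp only [β, LinearEquiv.apply_symm_apply] at h2
      rw [Finset.sum_eq_single i] at h2
      · have hcs : comp i (DirectSum.of (fun i => F[X] ⧸ Submodule.span F[X] {p i ^ e i}) i b) = b := by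
          show (DirectSum.of (fun i => F[X] ⧸ Submodule.span F[X] {p i ^ e i}) i b) i = b
          exact DirectSum.of_eq_same (β := fun i => F[X] ⧸ Submodule.span F[X] {p i ^ e i}) i b
        rw [hcs] at h2
        exact h2
      · intro j _ hji
        have : comp j (DirectSum.of (fun i => F[X] ⧸ Submodule.span F[X] {p i ^ e i}) i b) = 0 :=
          DirectSum.of_eq_of_ne _ _ _ hji
        rw [this, mul_zero, map_zero]
      · intro hi; exact absurd (Finset.mem_univ i) hi
    have h3 : E (Module.AEval'.of φ x) = 0 := by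
      apply DirectSum.ext_component F[X]
      intro i
      rw [map_zero]
      exact h1 i
    have h4 : Module.AEval'.of φ x = 0 := E.map_eq_zero_iff.mp h3
    exact (Module.AEval'.of φ).map_eq_zero_iff.mp h4
  -- the matrix
  let S : Matrix κ κ F := LinearMap.BilinForm.toMatrix' B
  have hSB : ∀ x y, B x y = x ⬝ᵥ S.mulVec y := by
    intro x y
    rw [← Matrix.toBilin'_apply', Matrix.toBilin'_toMatrix']
  have hSA : S * A = A.transpose * S := by
    have h1 : B.compLeft φ = B.compRight φ := by
      refine LinearMap.ext₂ (fun x y => ?_)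
      exact hBφ x y
    have h2 := congrArg LinearMap.BilinForm.toMatrix' h1
    rw [LinearMap.BilinForm.toMatrix'_compLeft, LinearMap.BilinForm.toMatrix'_compRight,
      LinearMap.toMatrix'_toLin'] at h2
    exact h2.symm
  have hSunit : IsUnit S := by
    rw [← Matrix.vecMul_injective_iff_isUnit]
    intro x y hxy
    have hxy' : Matrix.vecMul x S = Matrix.vecMul y S := hxy
    have hx : Matrix.vecMul (x - y) S = 0 := by rw [Matrix.sub_vecMul, hxy', sub_self]
    have := hBnd (x - y) (fun z => by rw [hSB, Matrix.dotProduct_mulVec, hx, zero_dotProduct])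
    exact sub_eq_zero.mp this
  obtain ⟨c, hc⟩ := hSunit
  exact ⟨c, by rw [SemiconjBy, hc]; exact hSA⟩

/-- Over a finite field, every element of the symplectic group Sp_2m(F) is conjugate by an invertible matrix to its inverse. -/
theorem result {F : Type*} [Field F] [Finite F] {m : ℕ} (A : Matrix.symplecticGroup (Fin m) F) : IsConj (A : Matrix (Fin m ⊕ Fin m) (Fin m ⊕ Fin m) F) ((A⁻¹ : Matrix.symplecticGroup (Fin m) F) : Matrix (Fin m ⊕ Fin m) (Fin m ⊕ Fin m) F) := by
  classical
  have h1 := conj_transpose (A : Matrix (Fin m ⊕ Fin m) (Fin m ⊕ Fin m) F)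
  refine h1.trans ?_
  rw [SymplecticGroup.coe_inv]
  have hJ : Matrix.J (Fin m) F * Matrix.J (Fin m) F = -1 := Matrix.J_squared (Fin m) F
  let u : (Matrix (Fin m ⊕ Fin m) (Fin m ⊕ Fin m) F)ˣ :=
    ⟨-Matrix.J (Fin m) F, Matrix.J (Fin m) F, by rw [neg_mul, hJ, neg_neg], by rw [mul_neg, hJ, neg_neg]⟩
  refine ⟨u, ?_⟩
  show -Matrix.J (Fin m) F * (A : Matrix (Fin m ⊕ Fin m) (Fin m ⊕ Fin m) F).transpose
    = -Matrix.J (Fin m) F * (A : Matrix (Fin m ⊕ Fin m) (Fin m ⊕ Fin m) F).transpose * Matrix.J (Fin m) F * (-Matrix.J (Fin m) F)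
  rw [Matrix.mul_assoc (-Matrix.J (Fin m) F * (A : Matrix (Fin m ⊕ Fin m) (Fin m ⊕ Fin m) F).transpose), mul_neg, hJ, neg_neg, mul_one]

end Cfsg.Agent.S2586
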