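import Cfsg.Statements.S2588
-- import your own Cfsg.Agent.* helpers here
import Cfsg.Agent.Lib.Helper47.GUSim

set_option autoImplicit false
open Cfsg

namespace Cfsg.Agent.S2588

open Cfsg.Agent.Lib.Helper47 in
/-- An invertible matrix A over the field with q² elements is conjugate in GL_n(q²) to an element of the general unitary group GU_n(q) (isometries of the Hermitian form Σ u_i v_i^q) if and only if A is similar to the inverse transpose of its entrywise q-th power (A ~ A^(−qT), the image of A under the map sending a matrix to the inverse transpose of its entrywise q-th power — inverse transpose composed with the field automorphism — whose fixed points form GU_n(q)). -/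
theorem result {K : Type*} [Field K] [Fintype K] {q n : ℕ} (hK : Fintype.card K = q ^ 2) (A : GL (Fin n) K) : (∃ B : ↥(Cfsg.GU n K q), IsConj A (B : GL (Fin n) K)) ↔ IsConj (A : Matrix (Fin n) (Fin n) K) (((A : Matrix (Fin n) (Fin n) K).map (fun x : K => x ^ q)).transpose)⁻¹ := by
  classical
  obtain ⟨σ, hσq, hσ, -, -, x₀, -, -, -, hx₀⟩ := exists_unitary_data K q hK
  obtain ⟨p, hp⟩ := CharP.exists K
  have hpp : p.Prime := by
    rcases CharP.char_is_prime_or_zero K p with h | h
    · exact h
    · exfalso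
      subst h
      have : CharZero K := CharP.charP_to_charZero K
      exact not_finite K
  have : Fact p.Prime := ⟨hpp⟩
  have hform : ∀ u v : Fin n → K, Cfsg.hermForm n K q u v = uForm σ u v :=
    fun u v => hermForm_eq q σ hσq n u v
  have hmap : (A : Matrix (Fin n) (Fin n) K).map (fun x : K => x ^ q)
      = (A : Matrix (Fin n) (Fin n) K).map σ := by
    ext i j; simp [hσq]
  have hsT : ((A : Matrix (Fin n) (Fin n) K).map (fun x : K => x ^ q)).transpose
      = sT σ (A : Matrix (Fin n) (Fin n) K) := by rw [hmap]; rfl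
  rw [hsT]
  have hAdet : IsUnit (A : Matrix (Fin n) (Fin n) K).det :=
    (Matrix.isUnit_iff_isUnit_det _).mp A.isUnit
  have hsdet : IsUnit (sT σ (A : Matrix (Fin n) (Fin n) K)).det := by
    rw [det_sT]; exact hAdet.map σ
  constructor
  · rintro ⟨B, hB⟩
    obtain ⟨g, hg⟩ := isConj_iff.mp hB
    have hgAB : (g : Matrix (Fin n) (Fin n) K) * (A : Matrix (Fin n) (Fin n) K)
        = ((B : GL (Fin n) K) : Matrix (Fin n) (Fin n) K) * (g : Matrix (Fin n) (Fin n) K) := by
      have h1 : g * A = (B : GL (Fin n) K) * g := by rw [← hg]; group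
      have := congrArg (fun z : GL (Fin n) K => (z : Matrix (Fin n) (Fin n) K)) h1
      simpa using this
    have hBu : sT σ ((B : GL (Fin n) K) : Matrix (Fin n) (Fin n) K)
        * ((B : GL (Fin n) K) : Matrix (Fin n) (Fin n) K) = 1 := by
      apply sT_mul_self_of_unitary hσ
      intro u v
      rw [← hform, ← hform]
      exact B.2 u v
    have hcU : IsUnit (sT σ (g : Matrix (Fin n) (Fin n) K) * (g : Matrix (Fin n) (Fin n) K)) := by
      rw [Matrix.isUnit_iff_isUnit_det, Matrix.det_mul, det_sT]
      have hgdet : IsUnit (g : Matrix (Fin n) (Fin n) K).det :=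
        (Matrix.isUnit_iff_isUnit_det _).mp g.isUnit
      exact (hgdet.map σ).mul hgdet
    obtain ⟨c, hc⟩ := hcU
    refine ⟨c, ?_⟩
    show (c : Matrix (Fin n) (Fin n) K) * (A : Matrix (Fin n) (Fin n) K)
      = (sT σ (A : Matrix (Fin n) (Fin n) K))⁻¹ * (c : Matrix (Fin n) (Fin n) K)
    have key : sT σ (A : Matrix (Fin n) (Fin n) K) * (c : Matrix (Fin n) (Fin n) K)
        * (A : Matrix (Fin n) (Fin n) K) = (c : Matrix (Fin n) (Fin n) K) := by
      rw [hc]
      calc sT σ (A : Matrix (Fin n) (Fin n) K)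
            * (sT σ (g : Matrix (Fin n) (Fin n) K) * (g : Matrix (Fin n) (Fin n) K))
            * (A : Matrix (Fin n) (Fin n) K)
          = sT σ ((g : Matrix (Fin n) (Fin n) K) * (A : Matrix (Fin n) (Fin n) K))
            * ((g : Matrix (Fin n) (Fin n) K) * (A : Matrix (Fin n) (Fin n) K)) := by
            rw [sT_mul]; simp only [mul_assoc]
        _ = sT σ (((B : GL (Fin n) K) : Matrix (Fin n) (Fin n) K) * (g : Matrix (Fin n) (Fin n) K))
            * (((B : GL (Fin n) K) : Matrix (Fin n) (Fin n) K) * (g : Matrix (Fin n) (Fin n) K)) := by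
            rw [hgAB]
        _ = sT σ (g : Matrix (Fin n) (Fin n) K)
            * (sT σ ((B : GL (Fin n) K) : Matrix (Fin n) (Fin n) K)
              * ((B : GL (Fin n) K) : Matrix (Fin n) (Fin n) K))
            * (g : Matrix (Fin n) (Fin n) K) := by
            rw [sT_mul]; simp only [mul_assoc]
        _ = sT σ (g : Matrix (Fin n) (Fin n) K) * (g : Matrix (Fin n) (Fin n) K) := by
            rw [hBu, mul_one]
    calc (c : Matrix (Fin n) (Fin n) K) * (A : Matrix (Fin n) (Fin n) K)
        = (sT σ (A : Matrix (Fin n) (Fin n) K))⁻¹ * (sT σ (A : Matrix (Fin n) (Fin n) K)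
            * (c : Matrix (Fin n) (Fin n) K) * (A : Matrix (Fin n) (Fin n) K)) := by
          rw [mul_assoc, ← mul_assoc, Matrix.nonsing_inv_mul _ hsdet, one_mul]
      _ = (sT σ (A : Matrix (Fin n) (Fin n) K))⁻¹ * (c : Matrix (Fin n) (Fin n) K) := by rw [key]
  · rintro ⟨c, hc⟩
    have hc' : (c : Matrix (Fin n) (Fin n) K) * (A : Matrix (Fin n) (Fin n) K)
        = (sT σ (A : Matrix (Fin n) (Fin n) K))⁻¹ * (c : Matrix (Fin n) (Fin n) K) := hc
    have key : sT σ (A : Matrix (Fin n) (Fin n) K) * (c : Matrix (Fin n) (Fin n) K)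
        * (A : Matrix (Fin n) (Fin n) K) = (c : Matrix (Fin n) (Fin n) K) := by
      rw [mul_assoc, hc', ← mul_assoc, Matrix.mul_nonsing_inv _ hsdet, one_mul]
    obtain ⟨y, B, hyU, hyAB, hBB⟩ := exists_unitary_similar p hσ ⟨x₀, hx₀⟩
      (A : Matrix (Fin n) (Fin n) K) (c : Matrix (Fin n) (Fin n) K) A.isUnit c.isUnit key
    have hBU : IsUnit B := by
      rw [Matrix.isUnit_iff_isUnit_det]
      have h5 : (sT σ B).det * B.det = 1 := by rw [← Matrix.det_mul, hBB, Matrix.det_one]
      exact isUnit_of_mul_isUnit_right (by rw [h5]; exact isUnit_one)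
    obtain ⟨Bu, hBu⟩ := hBU
    obtain ⟨yu, hyu⟩ := hyU
    have hBm : Bu ∈ Cfsg.GU n K q := by
      intro u v
      rw [hform, hform]
      have : (Units.coeHom (Matrix (Fin n) (Fin n) K)) Bu = B := hBu
      rw [this]
      exact unitary_of_sT_mul_self hσ hBB u v
    refine ⟨⟨Bu, hBm⟩, ?_⟩
    rw [isConj_iff]
    refine ⟨yu, ?_⟩
    rw [mul_inv_eq_iff_eq_mul]
    apply Units.ext
    simp only [Units.val_mul]
    rw [hyu, hBu]
    exact hyAB

end Cfsg.Agent.S2588
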