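import Cfsg.Statements.S2589
-- import your own Cfsg.Agent.* helpers here
import Cfsg.Agent.Lib.Helper47.SpConj

set_option autoImplicit false
open Cfsg

namespace Cfsg.Agent.S2589

/-- Two semisimple elements of the finite symplectic group Sp_2m(F) (elements of order prime to the characteristic) are conjugate in Sp_2m(F) if and only if they are conjugate in GL_2m(F). -/
theorem result {F : Type*} [Field F] [Fintype F] {p : ℕ} [Fact p.Prime] [CharP F p] {m : ℕ} (A B : Matrix.symplecticGroup (Fin m) F) (hA : (orderOf A).Coprime p) : IsConj A B ↔ IsConj (A : Matrix (Fin m ⊕ Fin m) (Fin m ⊕ Fin m) F) (B : Matrix (Fin m ⊕ Fin m) (Fin m ⊕ Fin m) F) := by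
  constructor
  · intro h
    exact (Matrix.symplecticGroup (Fin m) F).subtype.map_isConj h
  · rintro ⟨u, hu⟩
    have hu' : (u : Matrix (Fin m ⊕ Fin m) (Fin m ⊕ Fin m) F) * A = B * u := hu
    have hc : (A : Matrix (Fin m ⊕ Fin m) (Fin m ⊕ Fin m) F).charpoly
        = (B : Matrix (Fin m ⊕ Fin m) (Fin m ⊕ Fin m) F).charpoly :=
      Cfsg.Agent.Lib.Helper47.charpoly_eq_of_mul_eq _ _ _
        ((Matrix.isUnit_iff_isUnit_det _).mp u.isUnit) hu'
    have hpow : ∀ k : ℕ, (u : Matrix (Fin m ⊕ Fin m) (Fin m ⊕ Fin m) F)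
        * (A : Matrix (Fin m ⊕ Fin m) (Fin m ⊕ Fin m) F) ^ k
        = (B : Matrix (Fin m ⊕ Fin m) (Fin m ⊕ Fin m) F) ^ k * u := by
      intro k
      induction k with
      | zero => simp
      | succ k ih => rw [pow_succ, ← mul_assoc, ih, mul_assoc, hu', ← mul_assoc, ← pow_succ]
    have hB : B ^ orderOf A = 1 := by
      apply Subtype.ext
      rw [SubmonoidClass.coe_pow]
      have h1 := hpow (orderOf A)
      rw [← SubmonoidClass.coe_pow, pow_orderOf_eq_one] at h1
      have h2 : (B : Matrix (Fin m ⊕ Fin m) (Fin m ⊕ Fin m) F) ^ orderOf A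
          = (B : Matrix (Fin m ⊕ Fin m) (Fin m ⊕ Fin m) F) ^ orderOf A * u * (u⁻¹ : (Matrix (Fin m ⊕ Fin m) (Fin m ⊕ Fin m) F)ˣ) := by
        rw [mul_assoc, Units.mul_inv, mul_one]
      rw [h2, ← h1]
      simp
    exact Cfsg.Agent.Lib.Helper47.sp_isConj_of_charpoly_eq p m A B _ _ hA hA
      (pow_orderOf_eq_one A) hB hc

end Cfsg.Agent.S2589
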