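import Cfsg.Statements.S2590
import Cfsg.Agent.Lib.Helper47.SemiConjMat
import Cfsg.Agent.Lib.Helper44.OrthSemi

set_option autoImplicit false
open Cfsg

namespace Cfsg.Agent.S2590

/-- Two semisimple elements of odd order of a finite orthogonal group (isometry group of a quadratic form on F^n with non-degenerate polar form, F finite of characteristic p; the elements have odd order prime to p) are conjugate in the orthogonal group if and only if they are conjugate in GL_n(F). -/
theorem result {F : Type*} [Field F] [Fintype F] {p : ℕ} [Fact p.Prime] [CharP F p] {n : ℕ} (Q : QuadraticForm F (Fin n → F)) (hQ : (QuadraticMap.polarBilin Q).Nondegenerate) (A B : ↥(Cfsg.isometryGroup F ⇑Q)) (hodd : Odd (orderOf A)) (hA : (orderOf A).Coprime p) : IsConj A B ↔ IsConj ((A : Matrix.GeneralLinearGroup (Fin n) F) : Matrix (Fin n) (Fin n) F) ((B : Matrix.GeneralLinearGroup (Fin n) F) : Matrix (Fin n) (Fin n) F) := by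
  constructor
  · intro h
    exact ((Units.coeHom (Matrix (Fin n) (Fin n) F)).comp
      (Cfsg.isometryGroup F ⇑Q).subtype).map_isConj h
  · rintro ⟨u, hu⟩
    have hu' : (u : Matrix (Fin n) (Fin n) F)
        * ((A : Matrix.GeneralLinearGroup (Fin n) F) : Matrix (Fin n) (Fin n) F)
        = ((B : Matrix.GeneralLinearGroup (Fin n) F) : Matrix (Fin n) (Fin n) F) * u := hu
    set MA : Matrix (Fin n) (Fin n) F :=
      ((A : Matrix.GeneralLinearGroup (Fin n) F) : Matrix (Fin n) (Fin n) F) with hMA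
    set MB : Matrix (Fin n) (Fin n) F :=
      ((B : Matrix.GeneralLinearGroup (Fin n) F) : Matrix (Fin n) (Fin n) F) with hMB
    have hpow : ∀ k : ℕ, (u : Matrix (Fin n) (Fin n) F) * MA ^ k = MB ^ k * u := by
      intro k
      induction k with
      | zero => simp
      | succ k ih => rw [pow_succ, ← mul_assoc, ih, mul_assoc, hu', ← mul_assoc, ← pow_succ]
    have hAk : MA ^ orderOf A = 1 := by
      have h1 : A ^ orderOf A = 1 := pow_orderOf_eq_one A
      have h2 : (((A ^ orderOf A : ↥(Cfsg.isometryGroup F ⇑Q)) :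
          Matrix.GeneralLinearGroup (Fin n) F) : Matrix (Fin n) (Fin n) F) = MA ^ orderOf A := by
        rw [SubmonoidClass.coe_pow, Units.val_pow_eq_pow_val]
      rw [← h2, h1]; rfl
    have hBk : MB ^ orderOf A = 1 := by
      have h1 := hpow (orderOf A)
      rw [hAk, mul_one] at h1
      have h2 : MB ^ orderOf A = MB ^ orderOf A * u * (u⁻¹ : (Matrix (Fin n) (Fin n) F)ˣ) := by
        rw [mul_assoc, Units.mul_inv, mul_one]
      rw [h2, ← h1, Units.mul_inv]
    have hk : ((orderOf A : ℕ) : F) ≠ 0 :=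
      Cfsg.Agent.Lib.Helper47.natCast_ne_zero_of_coprime p hA
    have hgs := Cfsg.Agent.Lib.Helper47.isSemisimple_toLin'_of_pow_eq_one MA _ hk hAk
    have hgs' := Cfsg.Agent.Lib.Helper47.isSemisimple_toLin'_of_pow_eq_one MB _ hk hBk
    have hgQ : ∀ v, Q (Matrix.toLin' MA v) = Q v := fun v => by
      rw [Matrix.toLin'_apply]; exact A.2 v v
    have hgQ' : ∀ v, Q (Matrix.toLin' MB v) = Q v := fun v => by
      rw [Matrix.toLin'_apply]; exact B.2 v v
    let c : (Fin n → F) ≃ₗ[F] (Fin n → F) :=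
      LinearEquiv.ofLinearMap (Matrix.toLin' (u : Matrix (Fin n) (Fin n) F))
        (Matrix.toLin' ((u⁻¹ : (Matrix (Fin n) (Fin n) F)ˣ) : Matrix (Fin n) (Fin n) F))
        (by rw [← Matrix.toLin'_mul, Units.mul_inv, Matrix.toLin'_one])
        (by rw [← Matrix.toLin'_mul, Units.inv_mul, Matrix.toLin'_one])
    have hc : ∀ v, c (Matrix.toLin' MA v) = Matrix.toLin' MB (c v) := by
      intro v
      change Matrix.toLin' (u : Matrix (Fin n) (Fin n) F) (Matrix.toLin' MA v)
        = Matrix.toLin' MB (Matrix.toLin' (u : Matrix (Fin n) (Fin n) F) v)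
      rw [← LinearMap.comp_apply, ← LinearMap.comp_apply, ← Matrix.toLin'_mul,
        ← Matrix.toLin'_mul, hu']
    obtain ⟨ψ, hψQ, hψc⟩ := Cfsg.Agent.Lib.Helper44.OrthConj.exists_quadratic_isometry_conj Q hQ
      (Matrix.toLin' MA) (Matrix.toLin' MB) hgQ hgQ' hgs hgs' (orderOf A) hodd
      (by rw [← Matrix.toLin'_pow, hAk, Matrix.toLin'_one]; rfl)
      (by rw [← Matrix.toLin'_pow, hBk, Matrix.toLin'_one]; rfl) c hc
    -- the matrix of `ψ`
    let P : Matrix.GeneralLinearGroup (Fin n) F :=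
      ⟨LinearMap.toMatrix' (ψ : (Fin n → F) →ₗ[F] (Fin n → F)),
        LinearMap.toMatrix' (ψ.symm : (Fin n → F) →ₗ[F] (Fin n → F)),
        by rw [← LinearMap.toMatrix'_comp, LinearEquiv.comp_symm, LinearMap.toMatrix'_id],
        by rw [← LinearMap.toMatrix'_comp, LinearEquiv.symm_comp, LinearMap.toMatrix'_id]⟩
    have hPv : ∀ v, (P : Matrix (Fin n) (Fin n) F).mulVec v = ψ v := fun v => by
      change (LinearMap.toMatrix' (ψ : (Fin n → F) →ₗ[F] (Fin n → F))).mulVec v = ψ v
      rw [LinearMap.toMatrix'_mulVec]; rfl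
    have hP : P ∈ Cfsg.isometryGroup F ⇑Q := by
      intro v w
      change Q ((P : Matrix (Fin n) (Fin n) F).mulVec v) = Q v
      rw [hPv, hψQ]
    have hPA : (P : Matrix (Fin n) (Fin n) F) * MA = MB * (P : Matrix (Fin n) (Fin n) F) := by
      apply Matrix.toLin'.injective
      apply LinearMap.ext
      intro v
      rw [Matrix.toLin'_mul, Matrix.toLin'_mul, LinearMap.comp_apply, LinearMap.comp_apply,
        Matrix.toLin'_apply (P : Matrix (Fin n) (Fin n) F), hPv,
        Matrix.toLin'_apply (P : Matrix (Fin n) (Fin n) F), hPv]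
      exact hψc v
    rw [isConj_iff]
    refine ⟨⟨P, hP⟩, ?_⟩
    rw [mul_inv_eq_iff_eq_mul]
    apply Subtype.ext
    apply Units.ext
    exact hPA

end Cfsg.Agent.S2590
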