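import Cfsg.Statements.S2592
import Cfsg.Agent.S2578
import Cfsg.Agent.Lib.Helper18.Symp

set_option autoImplicit false
open Cfsg

namespace Cfsg.Agent.S2592

section A

variable {F V : Type*} [Field F] [AddCommGroup V] [Module F V] [FiniteDimensional F V]
variable (τ : Module.End F V) (m : ℕ)

/-- Even and odd powers of `τ` applied to `x`. -/
def fam (x : V) : Fin m ⊕ Fin m → V :=
  Sum.elim (fun j => (τ ^ (2 * (j : ℕ))) x) (fun j => (τ ^ (2 * (j : ℕ) + 1)) x)

/-- The even/odd enumeration of `Fin (n + 1)` when `n + 1 = 2 m`. -/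
def idx (n : ℕ) (hn : n + 1 = 2 * m) : Fin m ⊕ Fin m → Fin (n + 1) :=
  Sum.elim (fun j => ⟨2 * (j : ℕ), by have := j.2; omega⟩)
    (fun j => ⟨2 * (j : ℕ) + 1, by have := j.2; omega⟩)

theorem idx_injective (n : ℕ) (hn : n + 1 = 2 * m) : Function.Injective (idx m n hn) := by
  rintro (i | i) (j | j) h <;> simp only [idx, Sum.elim_inl, Sum.elim_inr, Fin.mk.injEq] at h
  · congr 1; exact Fin.ext (by omega)
  · omega
  · omega
  · congr 1; exact Fin.ext (by omega)

theorem fam_li (n : ℕ) (hn : n + 1 = 2 * m) (hτ : τ ^ (n + 1) = 0) (x : V)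
    (hx : (τ ^ n) x ≠ 0) : LinearIndependent F (fam τ m x) := by
  have hx0 : (τ ^ (n + 1)) x = 0 := by rw [hτ]; rfl
  have h := (Cfsg.Agent.S2578.linearIndependent_pow τ n x hx hx0).comp (idx m n hn)
    (idx_injective m n hn)
  convert h using 1
  funext i
  rcases i with i | i <;> rfl

/-- The basis of even and odd powers of `τ` applied to a cyclic vector. -/
noncomputable def bx (hm : 1 ≤ m) (hV : Module.finrank F V = 2 * m) (x : V)
    (hli : LinearIndependent F (fam τ m x)) : Module.Basis (Fin m ⊕ Fin m) F V :=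
  haveI : Nonempty (Fin m ⊕ Fin m) := ⟨Sum.inl ⟨0, hm⟩⟩
  basisOfLinearIndependentOfCardEqFinrank hli
    (by rw [Fintype.card_sum, Fintype.card_fin, hV, two_mul])

theorem bx_apply (hm : 1 ≤ m) (hV : Module.finrank F V = 2 * m) (x : V)
    (hli : LinearIndependent F (fam τ m x)) (i : Fin m ⊕ Fin m) :
    bx τ m hm hV x hli i = fam τ m x i := by
  have : Nonempty (Fin m ⊕ Fin m) := ⟨Sum.inl ⟨0, hm⟩⟩
  unfold bx
  exact congrFun (coe_basisOfLinearIndependentOfCardEqFinrank hli _) i

/-- The polynomial in `τ` with even coefficients `a` and odd coefficients `b`. -/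
def P (a b : Fin m → F) : Module.End F V :=
  ∑ j, a j • τ ^ (2 * (j : ℕ)) + ∑ j, b j • τ ^ (2 * (j : ℕ) + 1)

theorem P_comm (c : Module.End F V) (hc : Commute c τ) (a b : Fin m → F) :
    Commute c (P τ m a b) := by
  unfold P
  apply Commute.add_right <;> apply Commute.sum_right <;> intro j _ <;>
    exact (hc.pow_right _).smul_right _

theorem P_apply_x (a b : Fin m → F) (x : V) :
    P τ m a b x = ∑ i, (Sum.elim a b i) • fam τ m x i := by
  rw [Fintype.sum_sum_type]
  simp only [P, fam, LinearMap.add_apply, LinearMap.sum_apply, LinearMap.smul_apply,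
    Sum.elim_inl, Sum.elim_inr]

theorem ext_of_comm (hm : 1 ≤ m) (hV : Module.finrank F V = 2 * m) (x : V)
    (hli : LinearIndependent F (fam τ m x)) (c c' : Module.End F V) (hc : Commute c τ)
    (hc' : Commute c' τ) (h : c x = c' x) : c = c' := by
  apply (bx τ m hm hV x hli).ext
  intro i
  rw [bx_apply]
  have key : ∀ k : ℕ, c ((τ ^ k) x) = c' ((τ ^ k) x) := by
    intro k
    have h1 : c ((τ ^ k) x) = (τ ^ k) (c x) := LinearMap.congr_fun (hc.pow_right k).eq x
    have h2 : c' ((τ ^ k) x) = (τ ^ k) (c' x) := LinearMap.congr_fun (hc'.pow_right k).eq x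
    rw [h1, h2, h]
  rcases i with i | i
  · exact key _
  · exact key _

theorem exists_P (hm : 1 ≤ m) (hV : Module.finrank F V = 2 * m) (x : V)
    (hli : LinearIndependent F (fam τ m x)) (c : Module.End F V) (hc : Commute c τ) :
    ∃ a b : Fin m → F, c = P τ m a b := by
  refine ⟨fun j => (bx τ m hm hV x hli).repr (c x) (Sum.inl j),
    fun j => (bx τ m hm hV x hli).repr (c x) (Sum.inr j), ?_⟩
  apply ext_of_comm τ m hm hV x hli c _ hc (P_comm τ m τ (Commute.refl τ) _ _).symm
  rw [P_apply_x]
  refine ((bx τ m hm hV x hli).sum_repr (c x)).symm.trans ?_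
  apply Finset.sum_congr rfl
  intro i _
  rw [bx_apply]
  rcases i with i | i <;> rfl

theorem P_inj (x : V) (hli : LinearIndependent F (fam τ m x)) (a b a' b' : Fin m → F)
    (h : P τ m a b = P τ m a' b') : a = a' ∧ b = b' := by
  have hx : P τ m a b x = P τ m a' b' x := by rw [h]
  rw [P_apply_x, P_apply_x] at hx
  have hg : ∑ i, (Sum.elim a b i - Sum.elim a' b' i) • fam τ m x i = 0 := by
    simp only [sub_smul, Finset.sum_sub_distrib]
    rw [hx, sub_self]
  have h0 := Fintype.linearIndependent_iff.mp hli _ hg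
  constructor
  · funext j
    have := h0 (Sum.inl j)
    simpa [sub_eq_zero] using this
  · funext j
    have := h0 (Sum.inr j)
    simpa [sub_eq_zero] using this

theorem P_decomp (m' : ℕ) (a b : Fin (m' + 1) → F) :
    P τ (m' + 1) a b = a 0 • 1 + τ * (∑ j : Fin m', a j.succ • τ ^ (2 * (j : ℕ) + 1)
      + ∑ j : Fin (m' + 1), b j • τ ^ (2 * (j : ℕ))) := by
  unfold P
  rw [Fin.sum_univ_succ, mul_add, Finset.mul_sum, Finset.mul_sum, add_assoc]
  have e0 : a 0 • τ ^ (2 * ((0 : Fin (m' + 1)) : ℕ)) = a 0 • (1 : Module.End F V) := by simp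
  rw [e0]
  congr 2
  · apply Finset.sum_congr rfl
    intro j _
    have e1 : 2 * ((j : ℕ) + 1) = 2 * (j : ℕ) + 1 + 1 := by ring
    rw [mul_smul_comm, ← pow_succ', Fin.val_succ, e1]
  · apply Finset.sum_congr rfl
    intro j _
    rw [mul_smul_comm, ← pow_succ']

theorem unit_or_nilp (n : ℕ) (hτ : τ ^ (n + 1) = 0) (hm : 1 ≤ m)
    (hV : Module.finrank F V = 2 * m) (x : V) (hli : LinearIndependent F (fam τ m x))
    (c : Module.End F V) (hc : Commute c τ) : IsUnit c ∨ IsNilpotent c := by
  obtain ⟨m', rfl⟩ : ∃ m', m = m' + 1 := ⟨m - 1, by omega⟩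
  obtain ⟨a, b, rfl⟩ := exists_P τ (m' + 1) hm hV x hli c hc
  rw [P_decomp]
  have hRc : Commute τ (∑ j : Fin m', a j.succ • τ ^ (2 * (j : ℕ) + 1)
      + ∑ j : Fin (m' + 1), b j • τ ^ (2 * (j : ℕ))) := by
    apply Commute.add_right <;> apply Commute.sum_right <;> intro j _ <;>
      exact ((Commute.refl τ).pow_right _).smul_right _
  have hnil : IsNilpotent (τ * (∑ j : Fin m', a j.succ • τ ^ (2 * (j : ℕ) + 1)
      + ∑ j : Fin (m' + 1), b j • τ ^ (2 * (j : ℕ)))) :=
    ⟨n + 1, by rw [hRc.mul_pow, hτ, zero_mul]⟩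
  by_cases h0 : a 0 = 0
  · right
    rw [h0, zero_smul, zero_add]
    exact hnil
  · left
    apply hnil.isUnit_add_left_of_commute
    · rw [← Algebra.algebraMap_eq_smul_one]
      exact (isUnit_iff_ne_zero.2 h0).map _
    · exact (Commute.one_right _).smul_right _

end A

section B

variable {F V : Type*} [Field F] [AddCommGroup V] [Module F V] [FiniteDimensional F V]
variable (B : LinearMap.BilinForm F V)

/-- `g` is adjoint to `f` with respect to `B`. -/
def IsAdj (f g : Module.End F V) : Prop := ∀ v w, B (f v) w = B v (g w)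

variable {B}

theorem IsAdj.one : IsAdj B 1 1 := fun _ _ => rfl

theorem IsAdj.zero : IsAdj B 0 0 := fun v w => by simp

theorem IsAdj.add {f g f' g' : Module.End F V} (h : IsAdj B f g) (h' : IsAdj B f' g') :
    IsAdj B (f + f') (g + g') := by
  intro v w
  rw [LinearMap.add_apply, LinearMap.add_apply, map_add, LinearMap.add_apply, map_add, h v w,
    h' v w]

theorem IsAdj.smul {f g : Module.End F V} (h : IsAdj B f g) (c : F) :
    IsAdj B (c • f) (c • g) := by
  intro v w
  rw [LinearMap.smul_apply, LinearMap.smul_apply, map_smul, LinearMap.smul_apply, map_smul,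
    h v w]

theorem IsAdj.neg {f g : Module.End F V} (h : IsAdj B f g) : IsAdj B (-f) (-g) := by
  intro v w
  rw [LinearMap.neg_apply, LinearMap.neg_apply, map_neg, LinearMap.neg_apply, map_neg, h v w]

theorem IsAdj.mul {f g f' g' : Module.End F V} (h : IsAdj B f g) (h' : IsAdj B f' g') :
    IsAdj B (f * f') (g' * g) := by
  intro v w
  rw [Module.End.mul_apply, Module.End.mul_apply, h, h']

theorem IsAdj.pow {f g : Module.End F V} (h : IsAdj B f g) (k : ℕ) :
    IsAdj B (f ^ k) (g ^ k) := by
  induction k with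
  | zero => rw [pow_zero, pow_zero]; exact IsAdj.one
  | succ k ih =>
    rw [pow_succ, pow_succ']
    exact ih.mul h

theorem IsAdj.sum {ι : Type*} (s : Finset ι) (f g : ι → Module.End F V)
    (h : ∀ i ∈ s, IsAdj B (f i) (g i)) : IsAdj B (∑ i ∈ s, f i) (∑ i ∈ s, g i) := by
  classical
  induction s using Finset.induction_on with
  | empty => rw [Finset.sum_empty, Finset.sum_empty]; exact IsAdj.zero
  | insert a s ha ih =>
    rw [Finset.sum_insert ha, Finset.sum_insert ha]
    exact (h a (Finset.mem_insert_self a s)).add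
      (ih (fun i hi => h i (Finset.mem_insert_of_mem hi)))

theorem adj_unique (hB : B.Nondegenerate) {f g g' : Module.End F V} (h : IsAdj B f g)
    (h' : IsAdj B f g') : g = g' := by
  apply LinearMap.ext
  intro w
  rw [← sub_eq_zero]
  apply hB.2
  intro v
  rw [map_sub, ← h v w, ← h' v w, sub_self]

theorem adj_P (τ : Module.End F V) (hτ : IsAdj B τ (-τ)) (m : ℕ) (a b : Fin m → F) :
    IsAdj B (P τ m a b) (P τ m a (-b)) := by
  unfold P
  apply IsAdj.add
  · apply IsAdj.sum
    intro j _
    have h := (hτ.pow (2 * (j : ℕ))).smul (a j)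
    rwa [Even.neg_pow (even_two_mul _)] at h
  · apply IsAdj.sum
    intro j _
    have h := (hτ.pow (2 * (j : ℕ) + 1)).smul (b j)
    rw [Odd.neg_pow (odd_two_mul_add_one _), smul_neg, ← neg_smul] at h
    exact h

theorem P_neg (τ : Module.End F V) (m : ℕ) (a b : Fin m → F) :
    -(P τ m a b) = P τ m (-a) (-b) := by
  unfold P
  simp only [Pi.neg_apply, neg_smul, Finset.sum_neg_distrib, neg_add]

theorem P_skew_iff (hB : B.Nondegenerate) (h2 : (2 : F) ≠ 0) (τ : Module.End F V)
    (hτ : IsAdj B τ (-τ)) (m : ℕ) (x : V) (hli : LinearIndependent F (fam τ m x))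
    (a b : Fin m → F) : IsAdj B (P τ m a b) (-(P τ m a b)) ↔ a = 0 := by
  constructor
  · intro h
    have h1 := adj_unique hB h (adj_P τ hτ m a b)
    rw [P_neg] at h1
    have h3 := (P_inj τ m x hli _ _ _ _ h1).1
    funext j
    have h4 := congrFun h3 j
    rw [Pi.neg_apply] at h4
    have h5 : (2 : F) * a j = 0 := by linear_combination -h4
    rcases mul_eq_zero.mp h5 with h6 | h6
    · exact absurd h6 h2
    · exact h6
  · rintro rfl
    have h := adj_P τ hτ m 0 b
    have h2' : P τ m 0 (-b) = -(P τ m 0 b) := by rw [P_neg, neg_zero]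
    rwa [h2'] at h

end B

section ring

variable {R : Type*} [Ring R]

/-- The Cayley transform. -/
noncomputable def cay (n : R) : R := (1 + n) * Ring.inverse (1 - n)

theorem comm_inverse {a x : R} (hx : IsUnit x) (h : Commute a x) :
    Commute a (Ring.inverse x) := by
  obtain ⟨U, rfl⟩ := hx
  rw [Ring.inverse_unit]
  exact h.units_inv_right

theorem cay_sub_one {n : R} (h : IsUnit (1 - n)) :
    cay n - 1 = (n + n) * Ring.inverse (1 - n) := by
  have h1 : (1 - n) * Ring.inverse (1 - n) = 1 := Ring.mul_inverse_cancel _ h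
  calc cay n - 1 = (1 + n) * Ring.inverse (1 - n) - (1 - n) * Ring.inverse (1 - n) := by
        rw [h1, cay]
    _ = (n + n) * Ring.inverse (1 - n) := by
        rw [← sub_mul]
        congr 1
        abel

theorem cay_add_one {n : R} (h : IsUnit (1 - n)) :
    cay n + 1 = (1 + 1) * Ring.inverse (1 - n) := by
  have h1 : (1 - n) * Ring.inverse (1 - n) = 1 := Ring.mul_inverse_cancel _ h
  calc cay n + 1 = (1 + n) * Ring.inverse (1 - n) + (1 - n) * Ring.inverse (1 - n) := by
        rw [h1, cay]
    _ = (1 + 1) * Ring.inverse (1 - n) := by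
        rw [← add_mul]
        congr 1
        abel

theorem cay_mul {n : R} (h : IsUnit (1 - n)) : (cay n + 1) * n = cay n - 1 := by
  rw [cay_add_one h, cay_sub_one h]
  have hc : Commute (Ring.inverse (1 - n)) n :=
    (comm_inverse h ((Commute.one_right n).sub_right (Commute.refl n))).symm
  rw [mul_assoc, hc.eq, ← mul_assoc, add_mul, one_mul]

theorem one_sub_icay {g : R} (h : IsUnit (g + 1)) :
    1 - (g - 1) * Ring.inverse (g + 1) = (1 + 1) * Ring.inverse (g + 1) := by
  have h1 : (g + 1) * Ring.inverse (g + 1) = 1 := Ring.mul_inverse_cancel _ h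
  calc 1 - (g - 1) * Ring.inverse (g + 1)
      = (g + 1) * Ring.inverse (g + 1) - (g - 1) * Ring.inverse (g + 1) := by rw [h1]
    _ = (1 + 1) * Ring.inverse (g + 1) := by
        rw [← sub_mul]
        congr 1
        abel

theorem one_add_icay {g : R} (h : IsUnit (g + 1)) :
    1 + (g - 1) * Ring.inverse (g + 1) = g * ((1 + 1) * Ring.inverse (g + 1)) := by
  have h1 : (g + 1) * Ring.inverse (g + 1) = 1 := Ring.mul_inverse_cancel _ h
  calc 1 + (g - 1) * Ring.inverse (g + 1)
      = (g + 1) * Ring.inverse (g + 1) + (g - 1) * Ring.inverse (g + 1) := by rw [h1]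
    _ = (g + g) * Ring.inverse (g + 1) := by
        rw [← add_mul]
        congr 1
        abel
    _ = g * ((1 + 1) * Ring.inverse (g + 1)) := by
        rw [← mul_assoc, mul_add, mul_one]

theorem cay_icay {g : R} (h : IsUnit (g + 1)) (h2 : IsUnit ((1 + 1 : R))) :
    cay ((g - 1) * Ring.inverse (g + 1)) = g := by
  rw [cay, one_add_icay h, one_sub_icay h, mul_assoc,
    Ring.mul_inverse_cancel _ (h2.mul h.ringInverse), mul_one]

end ring

section C

variable {F V : Type*} [Field F] [AddCommGroup V] [Module F V] [FiniteDimensional F V]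

theorem cay_iso {B : LinearMap.BilinForm F V} {n : Module.End F V} (hs : IsAdj B n (-n))
    (hu : IsUnit (1 - n)) (v w : V) : B (cay n v) (cay n w) = B v w := by
  have h1 : (1 - n) * Ring.inverse (1 - n) = 1 := Ring.mul_inverse_cancel _ hu
  have hv : ∀ y : V, y = (1 - n) (Ring.inverse (1 - n) y) := fun y => by
    rw [← Module.End.mul_apply, h1]; rfl
  have hg : ∀ y : V, cay n y = (1 + n) (Ring.inverse (1 - n) y) := fun y => rfl
  rw [hg, hg]
  conv_rhs => rw [hv v, hv w]
  simp only [LinearMap.add_apply, LinearMap.sub_apply, Module.End.one_apply, map_add, map_sub]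
  have e1 := hs (Ring.inverse (1 - n) v) (Ring.inverse (1 - n) w)
  rw [LinearMap.neg_apply, map_neg] at e1
  linear_combination 2 * e1

theorem icay_skew {B : LinearMap.BilinForm F V} {g : Module.End F V}
    (hiso : ∀ v w, B (g v) (g w) = B v w) (hu : IsUnit (g + 1)) :
    IsAdj B ((g - 1) * Ring.inverse (g + 1)) (-((g - 1) * Ring.inverse (g + 1))) := by
  intro v w
  have h1 : (g + 1) * Ring.inverse (g + 1) = 1 := Ring.mul_inverse_cancel _ hu
  have hv : ∀ y : V, y = (g + 1) (Ring.inverse (g + 1) y) := fun y => by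
    rw [← Module.End.mul_apply, h1]; rfl
  rw [LinearMap.neg_apply, map_neg, Module.End.mul_apply, Module.End.mul_apply]
  have e := hiso (Ring.inverse (g + 1) v) (Ring.inverse (g + 1) w)
  have e1 : B ((g - 1) (Ring.inverse (g + 1) v)) w
      = B ((g - 1) (Ring.inverse (g + 1) v)) ((g + 1) (Ring.inverse (g + 1) w)) := by
    rw [← hv w]
  have e2 : B v ((g - 1) (Ring.inverse (g + 1) w))
      = B ((g + 1) (Ring.inverse (g + 1) v)) ((g - 1) (Ring.inverse (g + 1) w)) := by
    rw [← hv v]
  rw [e1, e2]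
  simp only [LinearMap.add_apply, LinearMap.sub_apply, Module.End.one_apply, map_add, map_sub]
  linear_combination 2 * e

/-- Hypotheses: `u` (with inverse `ui`) is a regular unipotent isometry of the non-degenerate
form `B` on a space of dimension `2 m`, in odd characteristic. -/
structure Setup (B : LinearMap.BilinForm F V) (u ui : Module.End F V) (m : ℕ) : Prop where
  hB : B.Nondegenerate
  h2 : (2 : F) ≠ 0
  hm : 1 ≤ m
  hV : Module.finrank F V = 2 * m
  mul1 : u * ui = 1
  mul2 : ui * u = 1
  iso : ∀ v w, B (u v) (u w) = B v w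
  nil : (u - 1) ^ (2 * m) = 0
  ker : Module.finrank F (LinearMap.ker (u - 1)) ≤ 1

/-- The skew elements commuting with `u`. -/
def Lset (B : LinearMap.BilinForm F V) (u : Module.End F V) : Set (Module.End F V) :=
  {n | Commute n u ∧ IsAdj B n (-n)}

/-- The isometries commuting with `u`. -/
def Cent (B : LinearMap.BilinForm F V) (u : Module.End F V) : Set (Module.End F V) :=
  {g | Commute g u ∧ ∀ v w, B (g v) (g w) = B v w}

namespace Setup

variable {B : LinearMap.BilinForm F V} {u ui : Module.End F V} {m : ℕ} (S : Setup B u ui m)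

include S

theorem adj_tau : IsAdj B (u - ui) (-(u - ui)) := by
  intro v w
  have h1 : B (u v) w = B v (ui w) := by
    have := S.iso v (ui w)
    rw [← Module.End.mul_apply u ui w, S.mul1, Module.End.one_apply] at this
    exact this
  have h2 : B (ui v) w = B v (u w) := by
    have := S.iso (ui v) w
    rw [← Module.End.mul_apply u ui v, S.mul1, Module.End.one_apply] at this
    exact this.symm
  rw [LinearMap.sub_apply, map_sub, LinearMap.sub_apply, h1, h2, LinearMap.neg_apply,
    LinearMap.sub_apply, map_neg, map_sub]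
  ring

theorem comm_ui {c : Module.End F V} (hc : Commute c u) : Commute c ui := by
  show c * ui = ui * c
  calc c * ui = (ui * u) * c * ui := by rw [S.mul2, one_mul]
    _ = ui * (c * u) * ui := by rw [mul_assoc ui u c, hc.eq]
    _ = ui * c * (u * ui) := by simp only [mul_assoc]
    _ = ui * c := by rw [S.mul1, mul_one]

theorem comm_tau {c : Module.End F V} (hc : Commute c u) : Commute c (u - ui) :=
  hc.sub_right (S.comm_ui hc)

theorem tau_eq : u - ui = (ui * (u + 1)) * (u - 1) := by
  have h : (u + 1) * (u - 1) = u * u - 1 := by noncomm_ring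
  rw [mul_assoc, h, mul_sub, mul_one, ← mul_assoc, S.mul2, one_mul]

theorem two_unit : IsUnit ((1 : Module.End F V) + 1) := by
  have e : (1 : Module.End F V) + 1 = (2 : F) • (1 : Module.End F V) := by rw [two_smul]
  rw [e, ← Algebra.algebraMap_eq_smul_one]
  exact (isUnit_iff_ne_zero.2 S.h2).map _

theorem unit_u_add_one : IsUnit (u + 1) := by
  have e : u + 1 = ((1 : Module.End F V) + 1) + (u - 1) := by abel
  rw [e]
  apply IsNilpotent.isUnit_add_left_of_commute ⟨2 * m, S.nil⟩ S.two_unit
  exact ((Commute.one_right u).add_right (Commute.one_right u)).sub_left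
    ((Commute.one_right 1).add_right (Commute.one_right 1))

theorem unit_W : IsUnit (ui * (u + 1)) :=
  (show IsUnit ui from ⟨⟨ui, u, S.mul2, S.mul1⟩, rfl⟩).mul S.unit_u_add_one

theorem comm_W_N : Commute (ui * (u + 1)) (u - 1) := by
  have h1 : Commute u ui := S.comm_ui (Commute.refl u)
  apply Commute.mul_left
  · exact h1.symm.sub_right (Commute.one_right ui)
  · exact ((Commute.refl u).add_left (Commute.one_left u)).sub_right (Commute.one_right _)

theorem tau_pow : (u - ui) ^ (2 * m) = 0 := by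
  rw [S.tau_eq, S.comm_W_N.mul_pow, S.nil, mul_zero]

theorem ker_tau : LinearMap.ker (u - ui) = LinearMap.ker (u - 1) := by
  ext v
  rw [LinearMap.mem_ker, LinearMap.mem_ker, S.tau_eq, Module.End.mul_apply]
  have hinj : Function.Injective ((ui * (u + 1) : Module.End F V) : V → V) :=
    ((Module.End.isUnit_iff _).mp S.unit_W).injective
  constructor
  · intro h
    exact hinj (by rw [h, map_zero])
  · intro h
    rw [h, map_zero]

theorem exists_x : ∃ x, LinearIndependent F (fam (u - ui) m x) := by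
  have hm := S.hm
  obtain ⟨n, hn⟩ : ∃ n, n + 1 = 2 * m := ⟨2 * m - 1, by omega⟩
  have hV : Module.finrank F V = n + 1 := by rw [S.hV, hn]
  have hker : Module.finrank F (LinearMap.ker (u - ui)) ≤ 1 := by
    rw [S.ker_tau]; exact S.ker
  obtain ⟨x, hx⟩ := Cfsg.Agent.S2578.exists_cyclic (u - ui) n hV hker
  exact ⟨x, fam_li (u - ui) m n hn (by rw [hn]; exact S.tau_pow) x hx⟩

theorem exists_P' (c : Module.End F V) (hc : Commute c u) :
    ∃ a b : Fin m → F, c = P (u - ui) m a b := by
  obtain ⟨x, hli⟩ := S.exists_x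
  exact exists_P (u - ui) m S.hm S.hV x hli c (S.comm_tau hc)

theorem P_comm_u (a b : Fin m → F) : Commute (P (u - ui) m a b) u :=
  (P_comm (u - ui) m u (S.comm_tau (Commute.refl u)) a b).symm

theorem unit_or_nilp' (c : Module.End F V) (hc : Commute c u) : IsUnit c ∨ IsNilpotent c := by
  obtain ⟨x, hli⟩ := S.exists_x
  obtain ⟨n, hn⟩ : ∃ n, n + 1 = 2 * m := ⟨2 * m - 1, by have := S.hm; omega⟩
  exact unit_or_nilp (u - ui) m n (by rw [hn]; exact S.tau_pow) S.hm S.hV x hli c
    (S.comm_tau hc)

theorem L_eq (n : Module.End F V) :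
    n ∈ Lset B u ↔ ∃ b : Fin m → F, n = P (u - ui) m 0 b := by
  obtain ⟨x, hli⟩ := S.exists_x
  constructor
  · rintro ⟨hc, hs⟩
    obtain ⟨a, b, rfl⟩ := S.exists_P' n hc
    have ha := (P_skew_iff S.hB S.h2 (u - ui) S.adj_tau m x hli a b).mp hs
    exact ⟨b, by rw [ha]⟩
  · rintro ⟨b, rfl⟩
    exact ⟨S.P_comm_u 0 b, (P_skew_iff S.hB S.h2 (u - ui) S.adj_tau m x hli 0 b).mpr rfl⟩

theorem L_nilp {n : Module.End F V} (hn : n ∈ Lset B u) : IsNilpotent n := by
  obtain ⟨b, rfl⟩ := (S.L_eq n).mp hn
  have e : P (u - ui) m 0 b = (u - ui) * ∑ j, b j • (u - ui) ^ (2 * (j : ℕ)) := by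
    unfold P
    rw [Finset.mul_sum]
    simp only [Pi.zero_apply, zero_smul, Finset.sum_const_zero, zero_add, mul_smul_comm,
      ← pow_succ']
  rw [e]
  apply Commute.isNilpotent_mul_right
  · apply Commute.sum_right
    intro j _
    exact ((Commute.refl _).pow_right _).smul_right _
  · exact ⟨2 * m, S.tau_pow⟩

theorem card_L [Fintype F] : Nat.card (Lset B u) = Fintype.card F ^ m := by
  obtain ⟨x, hli⟩ := S.exists_x
  have hbij : Function.Bijective (fun b : Fin m → F =>
      (⟨P (u - ui) m 0 b, (S.L_eq _).mpr ⟨b, rfl⟩⟩ : Lset B u)) := by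
    constructor
    · intro b b' h
      have h' : P (u - ui) m 0 b = P (u - ui) m 0 b' := congrArg Subtype.val h
      exact (P_inj (u - ui) m x hli _ _ _ _ h').2
    · rintro ⟨n, hn⟩
      obtain ⟨b, rfl⟩ := (S.L_eq n).mp hn
      exact ⟨b, rfl⟩
  rw [← Nat.card_eq_of_bijective _ hbij, Nat.card_eq_fintype_card, Fintype.card_fun,
    Fintype.card_fin]

theorem cay_mem {n : Module.End F V} (hn : n ∈ Lset B u) :
    cay n ∈ Cent B u ∧ IsNilpotent (cay n - 1) ∧ IsUnit (cay n + 1) := by
  have hnil := S.L_nilp hn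
  have hu : IsUnit (1 - n) := hnil.isUnit_one_sub
  have hcd : Commute (Ring.inverse (1 - n)) u :=
    (comm_inverse hu ((Commute.one_right u).sub_right hn.1.symm)).symm
  refine ⟨⟨?_, cay_iso hn.2 hu⟩, ?_, ?_⟩
  · exact Commute.mul_left ((Commute.one_left u).add_left hn.1) hcd
  · rw [cay_sub_one hu]
    apply Commute.isNilpotent_mul_right
    · have h1 : Commute n (Ring.inverse (1 - n)) :=
        comm_inverse hu ((Commute.one_right n).sub_right (Commute.refl n))
      exact h1.add_left h1
    · exact Commute.isNilpotent_add (Commute.refl n) hnil hnil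
  · rw [cay_add_one hu]
    exact S.two_unit.mul hu.ringInverse

theorem icay_mem {g : Module.End F V} (hg : g ∈ Cent B u) (hu : IsUnit (g + 1)) :
    (g - 1) * Ring.inverse (g + 1) ∈ Lset B u := by
  refine ⟨?_, icay_skew hg.2 hu⟩
  apply Commute.mul_left (hg.1.sub_left (Commute.one_left u))
  exact (comm_inverse hu ((hg.1.symm).add_right (Commute.one_right u))).symm

theorem nilp_or {g : Module.End F V} (hg : g ∈ Cent B u) :
    IsNilpotent (g - 1) ∨ IsNilpotent (g + 1) := by
  rcases S.unit_or_nilp' (g + 1) (hg.1.add_left (Commute.one_left u)) with h | h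
  · left
    have hn := S.L_nilp (S.icay_mem hg h)
    have e : g - 1 = ((g - 1) * Ring.inverse (g + 1)) * (g + 1) := by
      rw [mul_assoc, Ring.inverse_mul_cancel _ h, mul_one]
    rw [e]
    apply Commute.isNilpotent_mul_right _ hn
    have h1 : Commute (g - 1) (g + 1) :=
      ((Commute.refl g).sub_left (Commute.one_left g)).add_right (Commute.one_right _)
    have h2 : Commute (Ring.inverse (g + 1)) (g + 1) :=
      (comm_inverse h (Commute.refl (g + 1))).symm
    exact h1.mul_left h2
  · right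
    exact h

theorem neg_mem {g : Module.End F V} (hg : g ∈ Cent B u) : -g ∈ Cent B u := by
  refine ⟨hg.1.neg_left, ?_⟩
  intro v w
  rw [LinearMap.neg_apply, LinearMap.neg_apply, map_neg, map_neg, LinearMap.neg_apply, neg_neg]
  exact hg.2 v w

theorem not_nilp_both (g : Module.End F V) (h1 : IsNilpotent (g - 1))
    (h2 : IsNilpotent (g + 1)) : False := by
  have hV : 0 < Module.finrank F V := by rw [S.hV]; have := S.hm; omega
  have : Nontrivial V := Module.nontrivial_of_finrank_pos hV
  have hc : Commute (g + 1) (g - 1) :=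
    ((Commute.refl g).add_left (Commute.one_left g)).sub_right (Commute.one_right _)
  have h3 := Commute.isNilpotent_sub hc h2 h1
  have e : g + 1 - (g - 1) = (1 : Module.End F V) + 1 := by abel
  rw [e] at h3
  exact S.two_unit.not_isNilpotent h3

theorem cay_inj {n n' : Module.End F V} (hn : n ∈ Lset B u) (hn' : n' ∈ Lset B u)
    (h : cay n = cay n') : n = n' := by
  have hu : IsUnit (1 - n) := (S.L_nilp hn).isUnit_one_sub
  have hu' : IsUnit (1 - n') := (S.L_nilp hn').isUnit_one_sub
  have e1 := cay_mul hu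
  have e2 := cay_mul hu'
  rw [← h] at e2
  exact (S.cay_mem hn).2.2.mul_left_cancel (e1.trans e2.symm)

theorem exists_cay {g : Module.End F V} (hg : g ∈ Cent B u) (hnil : IsNilpotent (g - 1)) :
    ∃ n ∈ Lset B u, cay n = g := by
  have hu : IsUnit (g + 1) := by
    have e : g + 1 = ((1 : Module.End F V) + 1) + (g - 1) := by abel
    rw [e]
    apply IsNilpotent.isUnit_add_left_of_commute hnil S.two_unit
    exact ((Commute.one_right g).add_right (Commute.one_right g)).sub_left
      ((Commute.one_right 1).add_right (Commute.one_right 1))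
  exact ⟨_, S.icay_mem hg hu, cay_icay hu S.two_unit⟩

theorem card_Cent [Fintype F] : Nat.card (Cent B u) = 2 * Fintype.card F ^ m := by
  have hbij : Function.Bijective (fun p : Bool × Lset B u =>
      (if p.1 then ⟨cay p.2.1, (S.cay_mem p.2.2).1⟩
        else ⟨-cay p.2.1, S.neg_mem (S.cay_mem p.2.2).1⟩ : Cent B u)) := by
    constructor
    · rintro ⟨ε, n, hn⟩ ⟨ε', n', hn'⟩ h
      have hval := congrArg Subtype.val h
      cases ε <;> cases ε' <;> simp only [if_true, if_false, Bool.false_eq_true] at hval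
      · have := S.cay_inj hn hn' (neg_injective hval)
        subst this
        rfl
      · exfalso
        apply S.not_nilp_both (cay n') (S.cay_mem hn').2.1
        have e : cay n' + 1 = -(cay n - 1) := by rw [← hval]; abel
        rw [e]
        exact (S.cay_mem hn).2.1.neg
      · exfalso
        apply S.not_nilp_both (cay n) (S.cay_mem hn).2.1
        have e : cay n + 1 = -(cay n' - 1) := by rw [hval]; abel
        rw [e]
        exact (S.cay_mem hn').2.1.neg
      · have := S.cay_inj hn hn' hval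
        subst this
        rfl
    · rintro ⟨g, hg⟩
      rcases S.nilp_or hg with h | h
      · obtain ⟨n, hn, hcay⟩ := S.exists_cay hg h
        refine ⟨(true, ⟨n, hn⟩), ?_⟩
        apply Subtype.ext
        simp only [if_true]
        exact hcay
      · have h' : IsNilpotent (-g - 1) := by
          have e : -g - 1 = -(g + 1) := by abel
          rw [e]
          exact h.neg
        obtain ⟨n, hn, hcay⟩ := S.exists_cay (S.neg_mem hg) h'
        refine ⟨(false, ⟨n, hn⟩), ?_⟩
        apply Subtype.ext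
        simp only [Bool.false_eq_true, if_false]
        rw [hcay, neg_neg]
  rw [← Nat.card_eq_of_bijective _ hbij, Nat.card_prod, Nat.card_eq_fintype_card (α := Bool),
    Fintype.card_bool, S.card_L]

end Setup

end C

section D

open Cfsg.Agent.Lib.Helper18

variable {F : Type*} [Field F] {m : ℕ}

theorem setup_of (h2 : (2 : F) ≠ 0) (hm : 1 ≤ m) (u : Matrix.symplecticGroup (Fin m) F)
    (hnil : ((u : Matrix (Fin m ⊕ Fin m) (Fin m ⊕ Fin m) F) - 1) ^ (2 * m) = 0)
    (hreg : ((u : Matrix (Fin m ⊕ Fin m) (Fin m ⊕ Fin m) F) - 1).rank = 2 * m - 1) :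
    Setup (sympB (F := F) m)
      (Matrix.toLin' (u : Matrix (Fin m ⊕ Fin m) (Fin m ⊕ Fin m) F))
      (Matrix.toLin' ((u⁻¹ : Matrix.symplecticGroup (Fin m) F) :
        Matrix (Fin m ⊕ Fin m) (Fin m ⊕ Fin m) F)) m := by
  have hsub : Matrix.toLin' (u : Matrix (Fin m ⊕ Fin m) (Fin m ⊕ Fin m) F) - 1
      = Matrix.toLin' ((u : Matrix (Fin m ⊕ Fin m) (Fin m ⊕ Fin m) F) - 1) := by
    rw [map_sub, Matrix.toLin'_one]
    rfl
  have hfr : Module.finrank F (Fin m ⊕ Fin m → F) = 2 * m := by
    rw [Module.finrank_fintype_fun_eq_card, Fintype.card_sum, Fintype.card_fin, two_mul]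
  refine ⟨sympB_nondegenerate m, h2, hm, hfr, ?_, ?_, ?_, ?_, ?_⟩
  · have h := congrArg (fun x : Matrix.symplecticGroup (Fin m) F =>
      (x : Matrix (Fin m ⊕ Fin m) (Fin m ⊕ Fin m) F)) (mul_inv_cancel u)
    simp only [Submonoid.coe_mul, Submonoid.coe_one] at h
    rw [Module.End.mul_eq_comp, ← Matrix.toLin'_mul, h, Matrix.toLin'_one]
    rfl
  · have h := congrArg (fun x : Matrix.symplecticGroup (Fin m) F =>
      (x : Matrix (Fin m ⊕ Fin m) (Fin m ⊕ Fin m) F)) (inv_mul_cancel u)
    simp only [Submonoid.coe_mul, Submonoid.coe_one] at h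
    rw [Module.End.mul_eq_comp, ← Matrix.toLin'_mul, h, Matrix.toLin'_one]
    rfl
  · exact fun v w => symplectic_isometry m u.1 u.2 v w
  · rw [hsub, ← Matrix.toLin'_pow, hnil, map_zero]
  · rw [hsub]
    have h1 := LinearMap.finrank_range_add_finrank_ker
      (Matrix.toLin' ((u : Matrix (Fin m ⊕ Fin m) (Fin m ⊕ Fin m) F) - 1))
    have hr : Module.finrank F (LinearMap.range
        (Matrix.toLin' ((u : Matrix (Fin m ⊕ Fin m) (Fin m ⊕ Fin m) F) - 1))) = 2 * m - 1 := hreg
    rw [hr, hfr] at h1
    omega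

theorem card_centralizer_eq (u : Matrix.symplecticGroup (Fin m) F) :
    Nat.card (Subgroup.centralizer ({u} : Set (Matrix.symplecticGroup (Fin m) F)))
      = Nat.card (Cent (sympB (F := F) m)
          (Matrix.toLin' (u : Matrix (Fin m ⊕ Fin m) (Fin m ⊕ Fin m) F))) := by
  have hmem : ∀ h : Subgroup.centralizer ({u} : Set (Matrix.symplecticGroup (Fin m) F)),
      Matrix.toLin' ((h : Matrix.symplecticGroup (Fin m) F) :
        Matrix (Fin m ⊕ Fin m) (Fin m ⊕ Fin m) F)
        ∈ Cent (sympB (F := F) m)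
          (Matrix.toLin' (u : Matrix (Fin m ⊕ Fin m) (Fin m ⊕ Fin m) F)) := by
    intro h
    refine ⟨?_, fun v w => symplectic_isometry m _ (h : Matrix.symplecticGroup (Fin m) F).2 v w⟩
    have h1 := Subgroup.mem_centralizer_iff.mp h.2 u rfl
    have h2 := congrArg (fun x : Matrix.symplecticGroup (Fin m) F =>
      (x : Matrix (Fin m ⊕ Fin m) (Fin m ⊕ Fin m) F)) h1
    simp only [Submonoid.coe_mul] at h2
    show Matrix.toLin' _ * Matrix.toLin' _ = Matrix.toLin' _ * Matrix.toLin' _
    rw [Module.End.mul_eq_comp, Module.End.mul_eq_comp, ← Matrix.toLin'_mul, ← Matrix.toLin'_mul,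
      h2]
  apply Nat.card_eq_of_bijective (fun h => (⟨_, hmem h⟩ : Cent (sympB (F := F) m)
    (Matrix.toLin' (u : Matrix (Fin m ⊕ Fin m) (Fin m ⊕ Fin m) F))))
  constructor
  · intro h h' hh
    have h1 := congrArg Subtype.val hh
    exact Subtype.ext (Subtype.ext (Matrix.toLin'.injective h1))
  · rintro ⟨g, hgc, hgi⟩
    have hM : LinearMap.toMatrix' g ∈ Matrix.symplecticGroup (Fin m) F := by
      rw [SymplecticGroup.mem_iff']
      apply Matrix.toBilin'.injective
      rw [← Matrix.toBilin'_comp, Matrix.toLin'_toMatrix']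
      apply LinearMap.ext₂
      intro x y
      exact hgi x y
    have hcomm : (u : Matrix (Fin m ⊕ Fin m) (Fin m ⊕ Fin m) F) * LinearMap.toMatrix' g
        = LinearMap.toMatrix' g * (u : Matrix (Fin m ⊕ Fin m) (Fin m ⊕ Fin m) F) := by
      have h1 : g * Matrix.toLin' (u : Matrix (Fin m ⊕ Fin m) (Fin m ⊕ Fin m) F)
          = Matrix.toLin' (u : Matrix (Fin m ⊕ Fin m) (Fin m ⊕ Fin m) F) * g := hgc
      have h2 := congrArg LinearMap.toMatrix' h1
      rw [Module.End.mul_eq_comp, Module.End.mul_eq_comp, LinearMap.toMatrix'_comp,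
        LinearMap.toMatrix'_comp, LinearMap.toMatrix'_toLin'] at h2
      exact h2.symm
    have hcent : (⟨LinearMap.toMatrix' g, hM⟩ : Matrix.symplecticGroup (Fin m) F)
        ∈ Subgroup.centralizer ({u} : Set (Matrix.symplecticGroup (Fin m) F)) := by
      rw [Subgroup.mem_centralizer_iff]
      intro k hk
      rw [Set.mem_singleton_iff] at hk
      subst hk
      apply Subtype.ext
      simp only [Submonoid.coe_mul]
      exact hcomm
    refine ⟨⟨⟨LinearMap.toMatrix' g, hM⟩, hcent⟩, ?_⟩
    apply Subtype.ext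
    exact Matrix.toLin'_toMatrix' g

end D

/-- Over a finite field with q elements, q odd, the centraliser in Sp_2m(F) (m ≥ 1) of a regular unipotent element (u − 1 nilpotent of rank 2m − 1) has order 2 q^m. -/
theorem result {F : Type*} [Field F] [Fintype F] {q : ℕ} (hF : Fintype.card F = q) (hq : Odd q) {m : ℕ} (hm : 1 ≤ m) (u : Matrix.symplecticGroup (Fin m) F) (hnil : ((u : Matrix (Fin m ⊕ Fin m) (Fin m ⊕ Fin m) F) - 1) ^ (2 * m) = 0) (hreg : ((u : Matrix (Fin m ⊕ Fin m) (Fin m ⊕ Fin m) F) - 1).rank = 2 * m - 1) : Nat.card ↥(Subgroup.centralizer ({u} : Set ↥(Matrix.symplecticGroup (Fin m) F))) = 2 * q ^ m := by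
  have h2 : (2 : F) ≠ 0 := by
    apply Ring.two_ne_zero
    intro h
    have := FiniteField.even_card_iff_char_two.mp h
    rw [hF] at this
    rcases hq with ⟨k, hk⟩
    omega
  rw [card_centralizer_eq, (setup_of h2 hm u hnil hreg).card_Cent, hF]

end Cfsg.Agent.S2592
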