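import Cfsg.Statements.S2591
import Cfsg.Agent.S2592

set_option autoImplicit false
open Cfsg

namespace Cfsg.Agent.S2591

open Cfsg.Agent.S2592

section abs

variable {F V : Type*} [Field F] [AddCommGroup V] [Module F V] [FiniteDimensional F V]
variable {B : LinearMap.BilinForm F V} {u ui : Module.End F V} {m : ℕ}

theorem scalar_zero (S : Setup B u ui m) (a : F) (X : Module.End F V)
    (hX : Commute (u - ui) X) (h : a • (1 : Module.End F V) = (u - ui) * X) : a = 0 := by
  by_contra ha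
  have hV : 0 < Module.finrank F V := by rw [S.hV]; have := S.hm; omega
  have : Nontrivial V := Module.nontrivial_of_finrank_pos hV
  have hunit : IsUnit (a • (1 : Module.End F V)) := by
    rw [← Algebra.algebraMap_eq_smul_one]
    exact (isUnit_iff_ne_zero.2 ha).map _
  have hnil : IsNilpotent ((u - ui) * X) :=
    Commute.isNilpotent_mul_right hX ⟨2 * m, S.tau_pow⟩
  rw [h] at hunit
  exact hunit.not_isNilpotent hnil

theorem decomp_P (τ : Module.End F V) (m' : ℕ) (a b : Fin (m' + 1) → F) :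
    ∃ R : Module.End F V, Commute τ R ∧ P τ (m' + 1) a b = a 0 • 1 + τ * R := by
  refine ⟨_, ?_, P_decomp τ m' a b⟩
  apply Commute.add_right <;> apply Commute.sum_right <;> intro j _ <;>
    exact ((Commute.refl τ).pow_right _).smul_right _

theorem iso_ui (S : Setup B u ui m) (v w : V) : B (ui v) w = B v (u w) := by
  have := S.iso (ui v) w
  rw [← Module.End.mul_apply u ui v, S.mul1, Module.End.one_apply] at this
  exact this.symm

/-- An element commuting with `u` which scales the form by `lam` has `lam` a square. -/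
theorem const_sq (S : Setup B u ui m) (c : Module.End F V) (hc : Commute c u) (lam : F)
    (h : ∀ v w, B (c v) (c w) = lam * B v w) : ∃ g0 : F, lam = g0 * g0 := by
  obtain ⟨m', rfl⟩ : ∃ m', m = m' + 1 := ⟨m - 1, by have := S.hm; omega⟩
  obtain ⟨γ, δ, rfl⟩ := S.exists_P' c hc
  have hadj := adj_P (B := B) (u - ui) S.adj_tau (m' + 1) γ δ
  have hprod : P (u - ui) (m' + 1) γ (-δ) * P (u - ui) (m' + 1) γ δ
      = lam • (1 : Module.End F V) := by
    apply LinearMap.ext
    intro w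
    rw [← sub_eq_zero]
    apply S.hB.2
    intro v
    rw [map_sub, Module.End.mul_apply, ← hadj v _, h, LinearMap.smul_apply, Module.End.one_apply,
      map_smul, smul_eq_mul, sub_self]
  obtain ⟨R, hR, e1⟩ := decomp_P (u - ui) m' γ δ
  obtain ⟨R', hR', e2⟩ := decomp_P (u - ui) m' γ (-δ)
  refine ⟨γ 0, ?_⟩
  have key : (lam - γ 0 * γ 0) • (1 : Module.End F V)
      = (u - ui) * (γ 0 • R + γ 0 • R' + R' * ((u - ui) * R)) := by
    rw [sub_smul, ← hprod, e1, e2]
    simp only [add_mul, mul_add, smul_mul_assoc, mul_smul_comm, one_mul, mul_one, smul_smul,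
      mul_assoc, smul_add]
    abel
  have hcomm : Commute (u - ui) (γ 0 • R + γ 0 • R' + R' * ((u - ui) * R)) :=
    ((hR.smul_right _).add_right (hR'.smul_right _)).add_right
      (hR'.mul_right ((Commute.refl _).mul_right hR))
  exact sub_eq_zero.mp (scalar_zero S _ _ hcomm key)

/-- Two regular unipotent isometries are conjugate under a similitude. -/
theorem exists_sim [Finite F] (hAlt : B.IsAlt) {u' ui' : Module.End F V} (S : Setup B u ui m)
    (S' : Setup B u' ui' m) :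
    ∃ (T : Module.End F V) (lam : F), lam ≠ 0 ∧ IsUnit T ∧ T * u = u' * T ∧
      ∀ v w, B (T v) (T w) = lam * B v w := by
  have hm := S.hm
  have hVpos : 0 < Module.finrank F V := by rw [S.hV]; omega
  have hnt : Nontrivial V := Module.nontrivial_of_finrank_pos hVpos
  obtain ⟨n, hn⟩ : ∃ n, n + 1 = 2 * m := ⟨2 * m - 1, by omega⟩
  have hV : Module.finrank F V = n + 1 := by rw [S.hV, hn]
  obtain ⟨x, hx⟩ := Cfsg.Agent.S2578.exists_cyclic (u - 1) n hV S.ker
  obtain ⟨x', hx'⟩ := Cfsg.Agent.S2578.exists_cyclic (u' - 1) n hV S'.ker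
  obtain ⟨Pm, hPm⟩ := Cfsg.Agent.S2578.exists_intertwiner (u - 1) (u' - 1) n hV
    (by rw [hn]; exact S.nil) (by rw [hn]; exact S'.nil) x x' hx hx'
  obtain ⟨Pl, hPl⟩ : ∃ Pl : Module.End F V, ∀ y, Pl y = Pm y := ⟨(Pm : V →ₗ[F] V), fun _ => rfl⟩
  have hPu : Pl * u = u' * Pl := by
    apply LinearMap.ext
    intro y
    have h1 := hPm y
    simp only [LinearMap.sub_apply, Module.End.one_apply, map_sub] at h1
    rw [Module.End.mul_apply, Module.End.mul_apply, hPl, hPl]
    exact sub_left_injective h1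
  have hPui : Pl * ui = ui' * Pl := by
    calc Pl * ui = (ui' * u') * Pl * ui := by rw [S'.mul2, one_mul]
      _ = ui' * (Pl * u) * ui := by rw [hPu]; simp only [mul_assoc]
      _ = ui' * Pl * (u * ui) := by simp only [mul_assoc]
      _ = ui' * Pl := by rw [S.mul1, mul_one]
  have hskew : ∀ a b : V, B a b = - B b a := fun a b => (hAlt.neg_eq b a).symm
  obtain ⟨Pd, hadj1⟩ : ∃ Pd : Module.End F V, ∀ a b, B (Pd a) b = B a (Pl b) :=
    ⟨B.leftAdjointOfNondegenerate S.hB Pl,
      LinearMap.BilinForm.isAdjointPairLeftAdjointOfNondegenerate B S.hB Pl⟩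
  have hadj2 : ∀ a b, B (Pl a) b = B a (Pd b) := by
    intro a b
    rw [hskew (Pl a) b, ← hadj1 b a, ← hskew]
  obtain ⟨a, ha⟩ : ∃ a : Module.End F V, ∀ v w, B (Pl v) (Pl w) = B v (a w) :=
    ⟨Pd * Pl, fun v w => hadj2 v (Pl w)⟩
  have hau : Commute a u := by
    apply LinearMap.ext
    intro w
    rw [← sub_eq_zero]
    apply S.hB.2
    intro v
    have e1 : B v ((a * u) w) = B (Pl v) (u' (Pl w)) := by
      rw [Module.End.mul_apply, ← ha, ← Module.End.mul_apply Pl u, hPu, Module.End.mul_apply]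
    have e2 : B v ((u * a) w) = B (Pl v) (u' (Pl w)) := by
      rw [Module.End.mul_apply, ← iso_ui S, ← ha, ← Module.End.mul_apply Pl ui, hPui,
        Module.End.mul_apply, iso_ui S']
    rw [map_sub, e1, e2, sub_self]
  have haa : IsAdj B a a := by
    intro v w
    rw [hskew (a v) w, ← ha, ← hskew, ha]
  have hainj : Function.Injective a := by
    rw [← LinearMap.ker_eq_bot, LinearMap.ker_eq_bot']
    intro w hw
    have h1 : Pm w = 0 := by
      apply S.hB.2
      intro y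
      have h2 := ha (Pm.symm y) w
      rw [hPl, hPl, LinearEquiv.apply_symm_apply, hw, map_zero] at h2
      exact h2
    exact Pm.map_eq_zero_iff.mp h1
  have haunit : IsUnit a := (Module.End.isUnit_iff a).mpr
    ⟨hainj, LinearMap.surjective_of_injective hainj⟩
  obtain ⟨m', rfl⟩ : ∃ m', m = m' + 1 := ⟨m - 1, by omega⟩
  obtain ⟨x₀, hli⟩ := S.exists_x
  obtain ⟨α, β, hab⟩ := S.exists_P' a hau
  have hβ : β = 0 := by
    have h1 : IsAdj B (P (u - ui) (m' + 1) α β) (P (u - ui) (m' + 1) α β) := by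
      rw [← hab]; exact haa
    have h2 := adj_unique S.hB h1 (adj_P (B := B) (u - ui) S.adj_tau (m' + 1) α β)
    have h3 := (P_inj (u - ui) (m' + 1) x₀ hli _ _ _ _ h2).2
    funext j
    have h4 := congrFun h3 j
    rw [Pi.neg_apply] at h4
    have h5 : (2 : F) * β j = 0 := by linear_combination h4
    rcases mul_eq_zero.mp h5 with h6 | h6
    · exact absurd h6 S.h2
    · exact h6
  obtain ⟨R, hR, e1⟩ := decomp_P (u - ui) m' α β
  rw [← hab] at e1
  have hα0 : α 0 ≠ 0 := by
    intro h0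
    rw [h0, zero_smul, zero_add] at e1
    have hnil : IsNilpotent a := by
      rw [e1]
      exact Commute.isNilpotent_mul_right hR ⟨2 * (m' + 1), S.tau_pow⟩
    exact haunit.not_isNilpotent hnil
  -- the unipotent part
  obtain ⟨η, hη, hηnil, hηa⟩ : ∃ η : Module.End F V, a = α 0 • (1 + η) ∧
      η ^ (2 * (m' + 1)) = 0 ∧ Commute η a := by
    refine ⟨(α 0)⁻¹ • ((u - ui) * R), ?_, ?_, ?_⟩
    · rw [smul_add, smul_smul, mul_inv_cancel₀ hα0, one_smul]
      exact e1
    · rw [smul_pow, hR.mul_pow, S.tau_pow, zero_mul, smul_zero]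
    · have h1 : Commute ((u - ui) * R) a := by
        rw [e1]
        exact ((Commute.one_right _).smul_right _).add_right (Commute.refl _)
      exact h1.smul_left _
  obtain ⟨p, hp⟩ := CharP.exists F
  have hpprime : Fact p.Prime := ⟨CharP.char_is_prime F p⟩
  have hp2 : p ≠ 2 := by
    rintro rfl
    exact S.h2 (by exact_mod_cast CharP.cast_eq_zero F 2)
  have hpodd : Odd p := hpprime.out.eq_two_or_odd'.resolve_left hp2
  have hcharp : CharP (Module.End F V) p :=
    charP_of_injective_algebraMap (algebraMap F (Module.End F V)).injective p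
  obtain ⟨e, he⟩ : ∃ e, p ^ (2 * (m' + 1)) = e + 1 + e := by
    obtain ⟨k, hk⟩ := hpodd.pow (n := 2 * (m' + 1))
    exact ⟨k, by omega⟩
  have hpow : (1 + η) ^ (p ^ (2 * (m' + 1))) = 1 := by
    rw [add_pow_char_pow_of_commute p (2 * (m' + 1)) (Commute.one_left η), one_pow]
    have hle : 2 * (m' + 1) ≤ p ^ (2 * (m' + 1)) :=
      (Nat.lt_pow_self hpprime.out.one_lt).le
    rw [pow_eq_zero_of_le hle hηnil, add_zero]
  have hr : (1 + η) ^ e * (1 + η) * (1 + η) ^ e = 1 := by
    rw [← pow_succ, ← pow_add, ← he, hpow]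
  have hw1adj : IsAdj B (1 + η) (1 + η) := by
    have h1 := haa.smul (α 0)⁻¹
    rw [hη, smul_smul, inv_mul_cancel₀ hα0, one_smul] at h1
    exact h1
  have hradj : IsAdj B ((1 + η) ^ e) ((1 + η) ^ e) := hw1adj.pow e
  have hw1u : Commute (1 + η) u := by
    have h1 := hau.smul_left (α 0)⁻¹
    rw [hη, smul_smul, inv_mul_cancel₀ hα0, one_smul] at h1
    exact h1
  have hru : Commute ((1 + η) ^ e) u := hw1u.pow_left e
  refine ⟨Pl * (1 + η) ^ e, α 0, hα0, ?_, ?_, ?_⟩
  · apply IsUnit.mul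
    · rw [Module.End.isUnit_iff]
      have hfun : (Pl : V → V) = Pm := funext hPl
      rw [hfun]
      exact Pm.bijective
    · refine ⟨⟨(1 + η) ^ e, (1 + η) * (1 + η) ^ e, ?_, ?_⟩, rfl⟩
      · rw [← mul_assoc]; exact hr
      · rw [← pow_succ', ← pow_add, ← he, hpow]
  · rw [mul_assoc, hru.eq, ← mul_assoc, hPu, mul_assoc]
  · intro v w
    rw [Module.End.mul_apply, Module.End.mul_apply, ha, hradj v _]
    have h1 : ((1 + η) ^ e) (a (((1 + η) ^ e) w)) = α 0 • w := by
      rw [hη, LinearMap.smul_apply, map_smul, ← Module.End.mul_apply, ← Module.End.mul_apply,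
        hr, Module.End.one_apply]
    rw [h1, map_smul, smul_eq_mul]

/-- Conjugacy under an isometry of `B`. -/
def SpConj (B : LinearMap.BilinForm F V) (U U' : Module.End F V) : Prop :=
  ∃ g : Module.End F V, (∀ v w, B (g v) (g w) = B v w) ∧ g * U = U' * g

theorem B_smul_smul (B : LinearMap.BilinForm F V) (c : F) (x y : V) :
    B (c • x) (c • y) = c * (c * B x y) := by
  rw [map_smul, map_smul, LinearMap.smul_apply, smul_eq_mul, smul_eq_mul]

theorem sim_inv {ν : F} (hν0 : ν ≠ 0) {Sν Sνi : Module.End F V} (h1 : Sν * Sνi = 1)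
    (hsim : ∀ v w, B (Sν v) (Sν w) = ν * B v w) (v w : V) :
    B (Sνi v) (Sνi w) = ν⁻¹ * B v w := by
  have h := hsim (Sνi v) (Sνi w)
  rw [← Module.End.mul_apply, ← Module.End.mul_apply, h1, Module.End.one_apply,
    Module.End.one_apply] at h
  rw [h, ← mul_assoc, inv_mul_cancel₀ hν0, one_mul]

theorem conj_cases [Fintype F] (hAlt : B.IsAlt) {u' ui' : Module.End F V} (S : Setup B u ui m)
    (S' : Setup B u' ui' m) (ν : F) (hν : ¬ IsSquare ν) (Sν Sνi : Module.End F V)
    (h1 : Sν * Sνi = 1) (h2 : Sνi * Sν = 1) (hsim : ∀ v w, B (Sν v) (Sν w) = ν * B v w) :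
    SpConj B u u' ∨ SpConj B (Sν * u * Sνi) u' := by
  classical
  have hν0 : ν ≠ 0 := by
    rintro rfl
    exact hν ⟨0, by simp⟩
  obtain ⟨T, lam, hlam, -, hTu, hTB⟩ := exists_sim hAlt S S'
  by_cases hsq : IsSquare lam
  · obtain ⟨s, hs⟩ := hsq
    have hs0 : s ≠ 0 := by
      rintro rfl
      exact hlam (by rw [hs, mul_zero])
    left
    refine ⟨s⁻¹ • T, ?_, ?_⟩
    · intro v w
      rw [LinearMap.smul_apply, LinearMap.smul_apply, B_smul_smul, hTB, hs]
      field_simp
    · rw [smul_mul_assoc, mul_smul_comm, hTu]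
  · right
    have hsq2 : IsSquare (lam * ν) := by
      rw [← quadraticChar_one_iff_isSquare (mul_ne_zero hlam hν0), map_mul,
        quadraticChar_neg_one_iff_not_isSquare.mpr hsq,
        quadraticChar_neg_one_iff_not_isSquare.mpr hν]
      norm_num
    obtain ⟨s, hs⟩ := hsq2
    have hs0 : s ≠ 0 := by
      rintro rfl
      exact mul_ne_zero hlam hν0 (by rw [hs, mul_zero])
    refine ⟨(ν / s) • (T * Sνi), ?_, ?_⟩
    · intro v w
      rw [LinearMap.smul_apply, LinearMap.smul_apply, B_smul_smul,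
        Module.End.mul_apply, Module.End.mul_apply, hTB, sim_inv hν0 h1 hsim]
      have e : ν / s * (ν / s * (lam * (ν⁻¹ * B v w))) = (lam * ν) / (s * s) * B v w := by
        field_simp
      rw [e, hs, div_self (mul_ne_zero hs0 hs0), one_mul]
    · rw [smul_mul_assoc, mul_smul_comm]
      congr 1
      calc T * Sνi * (Sν * u * Sνi) = T * (Sνi * Sν) * u * Sνi := by simp only [mul_assoc]
        _ = u' * (T * Sνi) := by rw [h2, mul_one, hTu, mul_assoc]

theorem not_conj (S : Setup B u ui m) (ν : F) (hν : ¬ IsSquare ν) (Sν Sνi : Module.End F V)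
    (h1 : Sν * Sνi = 1) (h2 : Sνi * Sν = 1) (hsim : ∀ v w, B (Sν v) (Sν w) = ν * B v w) :
    ¬ SpConj B u (Sν * u * Sνi) := by
  have hν0 : ν ≠ 0 := by
    rintro rfl
    exact hν ⟨0, by simp⟩
  rintro ⟨g, hg, hgu⟩
  have hc : Commute (Sνi * g) u := by
    show Sνi * g * u = u * (Sνi * g)
    calc Sνi * g * u = Sνi * (g * u) := by rw [mul_assoc]
      _ = (Sνi * Sν) * u * (Sνi * g) := by rw [hgu]; simp only [mul_assoc]
      _ = u * (Sνi * g) := by rw [h2, one_mul]
  have hB : ∀ v w, B ((Sνi * g) v) ((Sνi * g) w) = ν⁻¹ * B v w := by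
    intro v w
    rw [Module.End.mul_apply, Module.End.mul_apply, sim_inv hν0 h1 hsim, hg]
  obtain ⟨g0, hg0⟩ := const_sq S _ hc ν⁻¹ hB
  apply hν
  refine ⟨g0⁻¹, ?_⟩
  rw [← mul_inv, ← hg0, inv_inv]

end abs

section conc

open Cfsg.Agent.Lib.Helper18

variable {F : Type*} [Field F] {m : ℕ}

theorem sympB_formula (x y : Fin m ⊕ Fin m → F) :
    sympB m x y = ∑ i, (x (Sum.inr i) * y (Sum.inl i) - x (Sum.inl i) * y (Sum.inr i)) := by
  rw [sympB_apply]
  simp [Matrix.J, dotProduct, Matrix.mulVec, Fintype.sum_sum_type, Matrix.fromBlocks, Matrix.one_apply,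
    Finset.sum_ite_eq, Matrix.neg_apply, Finset.sum_sub_distrib]
  ring

/-- The regular nilpotent element of the symplectic Lie algebra. -/
def n0 (F : Type*) [Field F] (m' : ℕ) : Module.End F (Fin (m' + 1) ⊕ Fin (m' + 1) → F) where
  toFun v := Sum.elim
    (fun j => Fin.lastCases (v (Sum.inr (Fin.last m'))) (fun i => v (Sum.inl i.succ)) j)
    (fun j => Fin.cases 0 (fun i => - v (Sum.inr i.castSucc)) j)
  map_add' v w := by
    funext i
    rcases i with i | i
    · refine Fin.lastCases ?_ (fun i => ?_) i <;> simp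
    · refine Fin.cases ?_ (fun i => ?_) i <;> simp [add_comm]
  map_smul' c v := by
    funext i
    rcases i with i | i
    · refine Fin.lastCases ?_ (fun i => ?_) i <;> simp
    · refine Fin.cases ?_ (fun i => ?_) i <;> simp

variable {m' : ℕ}

theorem n0_inl_last (v : Fin (m' + 1) ⊕ Fin (m' + 1) → F) :
    n0 F m' v (Sum.inl (Fin.last m')) = v (Sum.inr (Fin.last m')) := by
  simp [n0]

theorem n0_inl_castSucc (v : Fin (m' + 1) ⊕ Fin (m' + 1) → F) (i : Fin m') :
    n0 F m' v (Sum.inl i.castSucc) = v (Sum.inl i.succ) := by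
  simp [n0]

theorem n0_inr_zero (v : Fin (m' + 1) ⊕ Fin (m' + 1) → F) :
    n0 F m' v (Sum.inr 0) = 0 := by
  simp [n0]

theorem n0_inr_succ (v : Fin (m' + 1) ⊕ Fin (m' + 1) → F) (i : Fin m') :
    n0 F m' v (Sum.inr i.succ) = - v (Sum.inr i.castSucc) := by
  simp [n0]

theorem n0_skew (v w : Fin (m' + 1) ⊕ Fin (m' + 1) → F) :
    sympB (m' + 1) (n0 F m' v) w = - sympB (m' + 1) v (n0 F m' w) := by
  rw [sympB_formula, sympB_formula, Finset.sum_sub_distrib, Finset.sum_sub_distrib]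
  have A1 : ∑ i, n0 F m' v (Sum.inr i) * w (Sum.inl i)
      = - ∑ i : Fin m', v (Sum.inr i.castSucc) * w (Sum.inl i.succ) := by
    rw [Fin.sum_univ_succ, n0_inr_zero, zero_mul, zero_add, ← Finset.sum_neg_distrib]
    apply Finset.sum_congr rfl
    intro i _
    rw [n0_inr_succ, neg_mul]
  have A2 : ∑ i, n0 F m' v (Sum.inl i) * w (Sum.inr i)
      = ∑ i : Fin m', v (Sum.inl i.succ) * w (Sum.inr i.castSucc)
        + v (Sum.inr (Fin.last m')) * w (Sum.inr (Fin.last m')) := by
    rw [Fin.sum_univ_castSucc, n0_inl_last]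
    congr 1
    apply Finset.sum_congr rfl
    intro i _
    rw [n0_inl_castSucc]
  have B1 : ∑ i, v (Sum.inr i) * n0 F m' w (Sum.inl i)
      = ∑ i : Fin m', v (Sum.inr i.castSucc) * w (Sum.inl i.succ)
        + v (Sum.inr (Fin.last m')) * w (Sum.inr (Fin.last m')) := by
    rw [Fin.sum_univ_castSucc, n0_inl_last]
    congr 1
    apply Finset.sum_congr rfl
    intro i _
    rw [n0_inl_castSucc]
  have B2 : ∑ i, v (Sum.inl i) * n0 F m' w (Sum.inr i)
      = - ∑ i : Fin m', v (Sum.inl i.succ) * w (Sum.inr i.castSucc) := by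
    rw [Fin.sum_univ_succ, n0_inr_zero, mul_zero, zero_add, ← Finset.sum_neg_distrib]
    apply Finset.sum_congr rfl
    intro i _
    rw [n0_inr_succ, mul_neg]
  rw [A1, A2, B1, B2]
  ring

/-- The level of a coordinate. -/
def lvl (m' : ℕ) : Fin (m' + 1) ⊕ Fin (m' + 1) → ℕ :=
  Sum.elim (fun j => (j : ℕ)) (fun j => 2 * m' + 1 - (j : ℕ))

theorem n0_lvl (c k : ℕ) (v : Fin (m' + 1) ⊕ Fin (m' + 1) → F)
    (h : ∀ i, c ≤ lvl m' i + k → v i = 0) :
    ∀ i, c ≤ lvl m' i + (k + 1) → n0 F m' v i = 0 := by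
  intro i
  rcases i with j | j
  · refine Fin.lastCases ?_ (fun i => ?_) j
    · intro hc
      rw [n0_inl_last]
      apply h
      simp only [lvl, Sum.elim_inl, Sum.elim_inr, Fin.val_last] at hc ⊢
      omega
    · intro hc
      rw [n0_inl_castSucc]
      apply h
      simp only [lvl, Sum.elim_inl, Fin.val_succ, Fin.val_castSucc] at hc ⊢
      omega
  · refine Fin.cases ?_ (fun i => ?_) j
    · intro _
      exact n0_inr_zero v
    · intro hc
      rw [n0_inr_succ, neg_eq_zero]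
      apply h
      have := i.2
      simp only [lvl, Sum.elim_inr, Fin.val_succ, Fin.val_castSucc] at hc ⊢
      omega

theorem n0_pow (k : ℕ) (v : Fin (m' + 1) ⊕ Fin (m' + 1) → F) :
    ∀ i, 2 * (m' + 1) ≤ lvl m' i + k → ((n0 F m') ^ k) v i = 0 := by
  induction k with
  | zero =>
    intro i hi
    exfalso
    rcases i with j | j
    · have := j.2
      simp only [lvl, Sum.elim_inl] at hi
      omega
    · simp only [lvl, Sum.elim_inr] at hi
      omega
  | succ k ih =>
    intro i hi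
    rw [pow_succ', Module.End.mul_apply]
    exact n0_lvl (2 * (m' + 1)) k _ ih i hi

theorem n0_pow_zero : (n0 F m') ^ (2 * (m' + 1)) = 0 := by
  apply LinearMap.ext
  intro v
  funext i
  exact n0_pow _ v i (by omega)

theorem n0_ker (v : Fin (m' + 1) ⊕ Fin (m' + 1) → F) (hv : n0 F m' v = 0) :
    v = v (Sum.inl 0) • Pi.single (Sum.inl 0) 1 := by
  funext i
  rw [Pi.smul_apply, smul_eq_mul]
  rcases i with j | j
  · refine Fin.cases ?_ (fun i => ?_) j
    · rw [Pi.single_eq_same, mul_one]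
    · rw [Pi.single_eq_of_ne (by simp [Fin.succ_ne_zero]), mul_zero]
      have h := congrFun hv (Sum.inl i.castSucc)
      rw [n0_inl_castSucc] at h
      exact h
  · rw [Pi.single_eq_of_ne (by simp), mul_zero]
    refine Fin.lastCases ?_ (fun i => ?_) j
    · have h := congrFun hv (Sum.inl (Fin.last m'))
      rw [n0_inl_last] at h
      exact h
    · have h := congrFun hv (Sum.inr i.succ)
      rw [n0_inr_succ] at h
      exact neg_eq_zero.mp h

theorem n0_finrank_ker :
    Module.finrank F (LinearMap.ker (n0 F m')) ≤ 1 := by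
  have hle : LinearMap.ker (n0 F m') ≤ Submodule.span F {Pi.single (Sum.inl 0) (1 : F)} := by
    intro v hv
    rw [LinearMap.mem_ker] at hv
    rw [n0_ker v hv]
    exact Submodule.smul_mem _ _ (Submodule.mem_span_singleton_self _)
  refine (Submodule.finrank_mono hle).trans ?_
  exact (finrank_span_le_card _).trans (by simp)


/-- Dilation of the first half of the coordinates: a similitude of the symplectic form. -/
def dil (c : F) : Module.End F (Fin m ⊕ Fin m → F) where
  toFun v := fun i => Sum.elim (fun _ => c) (fun _ => (1 : F)) i * v i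
  map_add' v w := by
    funext i
    simp [mul_add]
  map_smul' a v := by
    funext i
    simp [mul_left_comm]

theorem dil_mul (c c' : F) (h : c * c' = 1) : dil (m := m) c * dil c' = 1 := by
  apply LinearMap.ext
  intro v
  funext i
  rcases i with i | i <;> simp [dil, ← mul_assoc, h]

theorem dil_sim (c : F) (v w : Fin m ⊕ Fin m → F) :
    sympB m (dil c v) (dil c w) = c * sympB m v w := by
  rw [sympB_formula, sympB_formula, Finset.mul_sum]
  apply Finset.sum_congr rfl
  intro i _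
  simp only [dil, LinearMap.coe_mk, AddHom.coe_mk, Sum.elim_inl, Sum.elim_inr]
  ring

theorem mat_of_iso (g : Module.End F (Fin m ⊕ Fin m → F))
    (hg : ∀ v w, sympB m (g v) (g w) = sympB m v w) :
    LinearMap.toMatrix' g ∈ Matrix.symplecticGroup (Fin m) F := by
  rw [SymplecticGroup.mem_iff']
  apply Matrix.toBilin'.injective
  rw [← Matrix.toBilin'_comp, Matrix.toLin'_toMatrix']
  apply LinearMap.ext₂
  intro x y
  exact hg x y

theorem isConj_iff_spConj (u u' : Matrix.symplecticGroup (Fin m) F) :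
    IsConj u u' ↔ SpConj (sympB (F := F) m)
      (Matrix.toLin' (u : Matrix (Fin m ⊕ Fin m) (Fin m ⊕ Fin m) F))
      (Matrix.toLin' (u' : Matrix (Fin m ⊕ Fin m) (Fin m ⊕ Fin m) F)) := by
  rw [isConj_iff]
  constructor
  · rintro ⟨c, hc⟩
    rw [mul_inv_eq_iff_eq_mul] at hc
    refine ⟨Matrix.toLin' (c : Matrix (Fin m ⊕ Fin m) (Fin m ⊕ Fin m) F),
      fun v w => symplectic_isometry m _ c.2 v w, ?_⟩
    have h := congrArg (fun x : Matrix.symplecticGroup (Fin m) F =>
      (x : Matrix (Fin m ⊕ Fin m) (Fin m ⊕ Fin m) F)) hc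
    simp only [Submonoid.coe_mul] at h
    rw [Module.End.mul_eq_comp, Module.End.mul_eq_comp, ← Matrix.toLin'_mul,
      ← Matrix.toLin'_mul, h]
  · rintro ⟨g, hg, hgu⟩
    refine ⟨(⟨LinearMap.toMatrix' g, mat_of_iso g hg⟩ : Matrix.symplecticGroup (Fin m) F), ?_⟩
    rw [mul_inv_eq_iff_eq_mul]
    apply Subtype.ext
    simp only [Submonoid.coe_mul]
    have h := congrArg LinearMap.toMatrix' hgu
    rw [Module.End.mul_eq_comp, Module.End.mul_eq_comp, LinearMap.toMatrix'_comp,
      LinearMap.toMatrix'_comp, LinearMap.toMatrix'_toLin', LinearMap.toMatrix'_toLin'] at h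
    exact h

theorem regMat_of_regEnd (hm : 1 ≤ m) (M : Matrix (Fin m ⊕ Fin m) (Fin m ⊕ Fin m) F)
    (X : Module.End F (Fin m ⊕ Fin m → F)) (hX : Matrix.toLin' M - 1 = X)
    (hnil : X ^ (2 * m) = 0) (hker : Module.finrank F (LinearMap.ker X) ≤ 1) :
    (M - 1) ^ (2 * m) = 0 ∧ (M - 1).rank = 2 * m - 1 := by
  have hsub : Matrix.toLin' (M - 1) = X := by
    rw [map_sub, Matrix.toLin'_one]
    exact hX
  have hfr : Module.finrank F (Fin m ⊕ Fin m → F) = 2 * m := by
    rw [Module.finrank_fintype_fun_eq_card, Fintype.card_sum, Fintype.card_fin, two_mul]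
  constructor
  · apply Matrix.toLin'.injective
    rw [Matrix.toLin'_pow, hsub, hnil, map_zero]
  · have h1 := LinearMap.finrank_range_add_finrank_ker X
    rw [hfr] at h1
    have hr : (M - 1).rank = Module.finrank F (LinearMap.range X) := by
      rw [← hsub]
      rfl
    have hk : Module.finrank F (LinearMap.ker X) ≠ 0 := by
      intro h0
      have hbot : LinearMap.ker X = ⊥ := Submodule.finrank_eq_zero.mp h0
      have hinj : Function.Injective X := LinearMap.ker_eq_bot.mp hbot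
      have hinj2 : Function.Injective (X ^ (2 * m)) := by
        rw [Module.End.coe_pow]
        exact hinj.iterate _
      rw [hnil] at hinj2
      have h3 : (Pi.single (Sum.inl ⟨0, hm⟩) (1 : F) : Fin m ⊕ Fin m → F) = 0 :=
        hinj2 (by simp)
      have h4 := congrFun h3 (Sum.inl ⟨0, hm⟩)
      simp at h4
    rw [hr]
    omega

theorem exists_u0 (h2 : (2 : F) ≠ 0) (m' : ℕ) :
    ∃ u₀ : Matrix.symplecticGroup (Fin (m' + 1)) F,
      ((u₀ : Matrix (Fin (m' + 1) ⊕ Fin (m' + 1)) (Fin (m' + 1) ⊕ Fin (m' + 1)) F) - 1)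
          ^ (2 * (m' + 1)) = 0 ∧
      ((u₀ : Matrix (Fin (m' + 1) ⊕ Fin (m' + 1)) (Fin (m' + 1) ⊕ Fin (m' + 1)) F) - 1).rank
        = 2 * (m' + 1) - 1 := by
  have hnil : IsNilpotent (n0 F m') := ⟨_, n0_pow_zero⟩
  have hu : IsUnit (1 - n0 F m') := hnil.isUnit_one_sub
  have hskew : IsAdj (sympB (F := F) (m' + 1)) (n0 F m') (-(n0 F m')) := by
    intro v w
    rw [LinearMap.neg_apply, map_neg]
    exact n0_skew v w
  have hiso := cay_iso hskew hu
  refine ⟨⟨LinearMap.toMatrix' (cay (n0 F m')), mat_of_iso _ hiso⟩, ?_⟩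
  have hd : Commute (n0 F m' + n0 F m') (Ring.inverse (1 - n0 F m')) := by
    have h1 : Commute (n0 F m') (Ring.inverse (1 - n0 F m')) :=
      comm_inverse hu ((Commute.one_right _).sub_right (Commute.refl _))
    exact h1.add_left h1
  apply regMat_of_regEnd (Nat.succ_le_succ (Nat.zero_le m')) _
    ((n0 F m' + n0 F m') * Ring.inverse (1 - n0 F m'))
  · rw [Matrix.toLin'_toMatrix']
    exact cay_sub_one hu
  · have e : n0 F m' + n0 F m' = (2 : F) • n0 F m' := (two_smul F _).symm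
    rw [hd.mul_pow, e, smul_pow, n0_pow_zero, smul_zero, zero_mul]
  · have hle : LinearMap.ker ((n0 F m' + n0 F m') * Ring.inverse (1 - n0 F m'))
        ≤ LinearMap.ker (n0 F m') := by
      intro v hv
      rw [LinearMap.mem_ker, hd.eq, Module.End.mul_apply] at hv
      have hinj : Function.Injective
          ((Ring.inverse (1 - n0 F m') : Module.End F _) : _ → _) :=
        ((Module.End.isUnit_iff _).mp hu.ringInverse).injective
      have h3 : (n0 F m' + n0 F m') v = 0 := hinj (by rw [hv, map_zero])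
      rw [LinearMap.mem_ker]
      rw [LinearMap.add_apply, ← two_smul F] at h3
      rcases smul_eq_zero.mp h3 with h4 | h4
      · exact absurd h4 h2
      · exact h4
    exact (Submodule.finrank_mono hle).trans n0_finrank_ker

theorem conj_pow' {R : Type*} [Ring R] (a b x : R) (h : a * b = 1) (h' : b * a = 1) (k : ℕ) :
    (a * x * b) ^ k = a * x ^ k * b := by
  induction k with
  | zero => rw [pow_zero, pow_zero, mul_one, h]
  | succ k ih =>
    rw [pow_succ, ih, pow_succ]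
    calc a * x ^ k * b * (a * x * b) = a * x ^ k * (b * a) * x * b := by simp only [mul_assoc]
      _ = a * (x ^ k * x) * b := by rw [h', mul_one, mul_assoc a]

theorem exists_u1 (h2 : (2 : F) ≠ 0) (hm : 1 ≤ m) (u₀ : Matrix.symplecticGroup (Fin m) F)
    (hnil₀ : ((u₀ : Matrix (Fin m ⊕ Fin m) (Fin m ⊕ Fin m) F) - 1) ^ (2 * m) = 0)
    (hreg₀ : ((u₀ : Matrix (Fin m ⊕ Fin m) (Fin m ⊕ Fin m) F) - 1).rank = 2 * m - 1)
    (ν : F) (hν0 : ν ≠ 0) :
    ∃ u₁ : Matrix.symplecticGroup (Fin m) F,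
      Matrix.toLin' (u₁ : Matrix (Fin m ⊕ Fin m) (Fin m ⊕ Fin m) F)
        = dil ν * Matrix.toLin' (u₀ : Matrix (Fin m ⊕ Fin m) (Fin m ⊕ Fin m) F) * dil ν⁻¹ ∧
      ((u₁ : Matrix (Fin m ⊕ Fin m) (Fin m ⊕ Fin m) F) - 1) ^ (2 * m) = 0 ∧
      ((u₁ : Matrix (Fin m ⊕ Fin m) (Fin m ⊕ Fin m) F) - 1).rank = 2 * m - 1 := by
  have S₀ := setup_of h2 hm u₀ hnil₀ hreg₀
  have hd1 : dil (m := m) ν * dil ν⁻¹ = 1 := dil_mul ν ν⁻¹ (mul_inv_cancel₀ hν0)
  have hd2 : dil (m := m) ν⁻¹ * dil ν = 1 := dil_mul ν⁻¹ ν (inv_mul_cancel₀ hν0)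
  obtain ⟨g₁, hg₁⟩ : ∃ g₁ : Module.End F (Fin m ⊕ Fin m → F),
      g₁ = dil ν * Matrix.toLin' (u₀ : Matrix (Fin m ⊕ Fin m) (Fin m ⊕ Fin m) F) * dil ν⁻¹ :=
    ⟨_, rfl⟩
  have hiso : ∀ v w, sympB m (g₁ v) (g₁ w) = sympB m v w := by
    intro v w
    rw [hg₁, Module.End.mul_apply, Module.End.mul_apply, Module.End.mul_apply,
      Module.End.mul_apply, dil_sim, S₀.iso, dil_sim, ← mul_assoc, mul_inv_cancel₀ hν0, one_mul]
  refine ⟨⟨LinearMap.toMatrix' g₁, mat_of_iso _ hiso⟩, ?_, ?_⟩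
  · rw [← hg₁]
    exact Matrix.toLin'_toMatrix' _
  apply regMat_of_regEnd hm _
    (dil ν * (Matrix.toLin' (u₀ : Matrix (Fin m ⊕ Fin m) (Fin m ⊕ Fin m) F) - 1) * dil ν⁻¹)
  · rw [Matrix.toLin'_toMatrix', hg₁, mul_sub, sub_mul, mul_one, hd1]
  · rw [conj_pow' _ _ _ hd1 hd2, S₀.nil, mul_zero, zero_mul]
  · have hle : LinearMap.ker (dil ν *
          (Matrix.toLin' (u₀ : Matrix (Fin m ⊕ Fin m) (Fin m ⊕ Fin m) F) - 1) * dil ν⁻¹)
        ≤ Submodule.map (dil (m := m) ν)
          (LinearMap.ker (Matrix.toLin' (u₀ : Matrix (Fin m ⊕ Fin m) (Fin m ⊕ Fin m) F) - 1)) := by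
      intro v hv
      rw [LinearMap.mem_ker, Module.End.mul_apply, Module.End.mul_apply] at hv
      have h3 := congrArg (dil (m := m) ν⁻¹) hv
      rw [← Module.End.mul_apply (dil ν⁻¹) (dil ν), hd2, Module.End.one_apply, map_zero] at h3
      refine ⟨dil ν⁻¹ v, LinearMap.mem_ker.mpr h3, ?_⟩
      rw [← Module.End.mul_apply, hd1, Module.End.one_apply]
    exact ((Submodule.finrank_mono hle).trans (Submodule.finrank_map_le _ _)).trans S₀.ker

end conc

/-- Over a finite field of odd order and for m ≥ 1, the regular unipotent elements of Sp_2m(F) (u − 1 nilpotent of rank 2m − 1, a single Jordan block) form exactly two conjugacy classes of Sp_2m(F) (one class under the similarity group, which splits in two). -/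
theorem result {F : Type*} [Field F] [Fintype F] {q : ℕ} (hF : Fintype.card F = q) (hq : Odd q) {m : ℕ} (hm : 1 ≤ m) : Nat.card {C : ConjClasses ↥(Matrix.symplecticGroup (Fin m) F) // ∃ u : Matrix.symplecticGroup (Fin m) F, ConjClasses.mk u = C ∧ ((u : Matrix (Fin m ⊕ Fin m) (Fin m ⊕ Fin m) F) - 1) ^ (2 * m) = 0 ∧ ((u : Matrix (Fin m ⊕ Fin m) (Fin m ⊕ Fin m) F) - 1).rank = 2 * m - 1} = 2 := by
  classical
  have hchar : ringChar F ≠ 2 := by
    intro h
    have := FiniteField.even_card_iff_char_two.mp h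
    rw [hF] at this
    rcases hq with ⟨k, hk⟩
    omega
  have h2 : (2 : F) ≠ 0 := Ring.two_ne_zero hchar
  obtain ⟨ν, hν⟩ := FiniteField.exists_nonsquare hchar
  have hν0 : ν ≠ 0 := by
    rintro rfl
    exact hν ⟨0, by simp⟩
  obtain ⟨m', rfl⟩ : ∃ m', m = m' + 1 := ⟨m - 1, by omega⟩
  obtain ⟨u₀, hnil₀, hreg₀⟩ := exists_u0 h2 m'
  have S₀ := Cfsg.Agent.S2592.setup_of h2 hm u₀ hnil₀ hreg₀
  obtain ⟨u₁, hu₁, hnil₁, hreg₁⟩ := exists_u1 h2 hm u₀ hnil₀ hreg₀ ν hν0
  have hd1 : dil (m := m' + 1) ν * dil ν⁻¹ = 1 := dil_mul ν ν⁻¹ (mul_inv_cancel₀ hν0)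
  have hd2 : dil (m := m' + 1) ν⁻¹ * dil ν = 1 := dil_mul ν⁻¹ ν (inv_mul_cancel₀ hν0)
  have hne : ConjClasses.mk u₀ ≠ ConjClasses.mk u₁ := by
    intro h
    have hc := ConjClasses.mk_eq_mk_iff_isConj.mp h
    rw [isConj_iff_spConj, hu₁] at hc
    exact not_conj S₀ ν hν (dil ν) (dil ν⁻¹) hd1 hd2 (dil_sim ν) hc
  have hset : {C : ConjClasses ↥(Matrix.symplecticGroup (Fin (m' + 1)) F) | ∃ u : Matrix.symplecticGroup (Fin (m' + 1)) F, ConjClasses.mk u = C ∧ ((u : Matrix (Fin (m' + 1) ⊕ Fin (m' + 1)) (Fin (m' + 1) ⊕ Fin (m' + 1)) F) - 1) ^ (2 * (m' + 1)) = 0 ∧ ((u : Matrix (Fin (m' + 1) ⊕ Fin (m' + 1)) (Fin (m' + 1) ⊕ Fin (m' + 1)) F) - 1).rank = 2 * (m' + 1) - 1}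
      = {ConjClasses.mk u₀, ConjClasses.mk u₁} := by
    ext C
    simp only [Set.mem_ofPred_eq, Set.mem_insert_iff, Set.mem_singleton_iff]
    constructor
    · rintro ⟨u, rfl, hnil, hreg⟩
      have S' := Cfsg.Agent.S2592.setup_of h2 hm u hnil hreg
      rcases conj_cases (Cfsg.Agent.Lib.Helper18.sympB_isAlt (m' + 1)) S₀ S' ν hν (dil ν)
        (dil ν⁻¹) hd1 hd2 (dil_sim ν) with h | h
      · left
        exact (ConjClasses.mk_eq_mk_iff_isConj.mpr ((isConj_iff_spConj u₀ u).mpr h)).symm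
      · right
        rw [← hu₁] at h
        exact (ConjClasses.mk_eq_mk_iff_isConj.mpr ((isConj_iff_spConj u₁ u).mpr h)).symm
    · rintro (rfl | rfl)
      · exact ⟨u₀, rfl, hnil₀, hreg₀⟩
      · exact ⟨u₁, rfl, hnil₁, hreg₁⟩
  have hcard := Nat.card_coe_set_eq {C : ConjClasses ↥(Matrix.symplecticGroup (Fin (m' + 1)) F) | ∃ u : Matrix.symplecticGroup (Fin (m' + 1)) F, ConjClasses.mk u = C ∧ ((u : Matrix (Fin (m' + 1) ⊕ Fin (m' + 1)) (Fin (m' + 1) ⊕ Fin (m' + 1)) F) - 1) ^ (2 * (m' + 1)) = 0 ∧ ((u : Matrix (Fin (m' + 1) ⊕ Fin (m' + 1)) (Fin (m' + 1) ⊕ Fin (m' + 1)) F) - 1).rank = 2 * (m' + 1) - 1}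
  have h3 := Set.ncard_pair hne
  rw [← hset] at h3
  exact hcard.trans h3

end Cfsg.Agent.S2591
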