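import Cfsg.Statements.S2594
import Cfsg.Agent.S0245
import Cfsg.Agent.S0271

set_option autoImplicit false
open Cfsg

namespace Cfsg.Agent.S2594

open Cfsg.Agent.Lib.Helper18 Matrix

section aux

variable {F : Type*} [Field F] (m : ℕ)

theorem sp_isometry (A : Matrix (Fin m ⊕ Fin m) (Fin m ⊕ Fin m) F)
    (hA : A ∈ Matrix.symplecticGroup (Fin m) F) (x y : Fin m ⊕ Fin m → F) :
    sympB m (A.mulVec x) (A.mulVec y) = sympB m x y := by
  have h := symplectic_isometry m A hA x y
  rwa [Matrix.toLin'_apply, Matrix.toLin'_apply] at h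

theorem sympB_swap (x y : Fin m ⊕ Fin m → F) : sympB m x y = - sympB m y x :=
  ((sympB_isAlt (F := F) m).neg_eq y x).symm

theorem sympB_self (x : Fin m ⊕ Fin m → F) : sympB m x x = 0 :=
  (sympB_isAlt (F := F) m).self_eq_zero x

/-- A symplectic matrix `t` with `rank (t - 1) = 1` over a finite field of characteristic two is
`x ↦ x + B(u, x) u` for some non-zero `u`. -/
theorem exists_vec [Fintype F] [CharP F 2] (t : Matrix (Fin m ⊕ Fin m) (Fin m ⊕ Fin m) F)
    (ht : t ∈ Matrix.symplecticGroup (Fin m) F) (hr : (t - 1).rank = 1) :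
    ∃ u : Fin m ⊕ Fin m → F, u ≠ 0 ∧ ∀ x, t.mulVec x = x + sympB m u x • u := by
  have hr' : Module.finrank F (LinearMap.range (t - 1).mulVecLin) = 1 := hr
  obtain ⟨⟨w, hwr⟩, hw0, hspan⟩ := finrank_eq_one_iff'.mp hr'
  have hw0' : w ≠ 0 := fun h => hw0 (Subtype.ext h)
  have hex : ∀ x, ∃ c : F, c • w = (t - 1).mulVec x := by
    intro x
    obtain ⟨c, hc⟩ := hspan ⟨(t - 1).mulVec x, ⟨x, rfl⟩⟩
    exact ⟨c, congrArg Subtype.val hc⟩
  choose φ hφ using hex
  have htx : ∀ x, t.mulVec x = x + φ x • w := by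
    intro x
    rw [hφ x, Matrix.sub_mulVec, Matrix.one_mulVec]
    abel
  obtain ⟨x₁, hx₁⟩ := hwr
  have hφ1 : φ x₁ = 1 := by
    have h1 : φ x₁ • w = w := by
      rw [hφ x₁]
      exact hx₁
    have h2 : (φ x₁ - 1) • w = 0 := by
      rw [sub_smul, h1, one_smul, sub_self]
    rcases smul_eq_zero.mp h2 with h3 | h3
    · exact sub_eq_zero.mp h3
    · exact absurd h3 hw0'
  have hE : ∀ x y, φ y * sympB m x w + φ x * sympB m w y = 0 := by
    intro x y
    have h := sp_isometry m t ht x y
    rw [htx x, htx y] at h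
    simp only [map_add, map_smul, LinearMap.add_apply, LinearMap.smul_apply, smul_eq_mul,
      sympB_self] at h
    linear_combination h
  set c := sympB m w x₁ with hc
  have hxw : ∀ x, sympB m x w = - (φ x * c) := by
    intro x
    have h := hE x x₁
    rw [hφ1] at h
    linear_combination h
  have hc0 : c ≠ 0 := by
    intro h0
    apply hw0'
    apply (sympB_nondegenerate (F := F) m).2
    intro x
    rw [hxw x, h0]
    ring
  have hφx : ∀ x, φ x = c⁻¹ * sympB m w x := by
    intro x
    have h := hxw x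
    rw [sympB_swap m x w] at h
    field_simp
    linear_combination h
  have hchar : ringChar F = 2 := ringChar.eq F 2
  obtain ⟨d, hd⟩ := FiniteField.isSquare_of_char_two hchar c⁻¹
  have hd0 : d ≠ 0 := by
    rintro rfl
    rw [mul_zero] at hd
    exact inv_ne_zero hc0 hd
  refine ⟨d • w, smul_ne_zero hd0 hw0', ?_⟩
  intro x
  rw [htx x, hφx x, hd]
  simp only [map_smul, LinearMap.smul_apply, smul_eq_mul, smul_smul]
  congr 2
  ring

theorem mat_ext {M N : Matrix (Fin m ⊕ Fin m) (Fin m ⊕ Fin m) F}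
    (h : ∀ x, M.mulVec x = N.mulVec x) : M = N := by
  apply Matrix.toLin'.injective
  apply LinearMap.ext
  intro x
  rw [Matrix.toLin'_apply, Matrix.toLin'_apply, h]

/-- An element of the symplectic group commutes with the transvection attached to `u` exactly
when it fixes `u` (characteristic two). -/
theorem comm_iff [CharP F 2] (u : Fin m ⊕ Fin m → F) (hu : u ≠ 0)
    (t g : Matrix.symplecticGroup (Fin m) F)
    (ht : ∀ x, (t : Matrix (Fin m ⊕ Fin m) (Fin m ⊕ Fin m) F).mulVec x = x + sympB m u x • u) :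
    g * t = t * g ↔ (g : Matrix (Fin m ⊕ Fin m) (Fin m ⊕ Fin m) F).mulVec u = u := by
  have hgiso := sp_isometry m g.1 g.2
  have e1 : ((g * t : Matrix.symplecticGroup (Fin m) F) :
      Matrix (Fin m ⊕ Fin m) (Fin m ⊕ Fin m) F) = g.1 * t.1 := rfl
  have e2 : ((t * g : Matrix.symplecticGroup (Fin m) F) :
      Matrix (Fin m ⊕ Fin m) (Fin m ⊕ Fin m) F) = t.1 * g.1 := rfl
  constructor
  · intro hcomm
    have hx : ∀ x, sympB m u x • (g.1.mulVec u) = sympB m u (g.1.mulVec x) • u := by
      intro x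
      have h1 : (g * t).1.mulVec x = (t * g).1.mulVec x := by rw [hcomm]
      rw [e1, e2, ← Matrix.mulVec_mulVec, ← Matrix.mulVec_mulVec, ht, ht, Matrix.mulVec_add,
        Matrix.mulVec_smul] at h1
      exact add_left_cancel h1
    obtain ⟨x₀, hx₀⟩ : ∃ x₀, sympB m u x₀ ≠ 0 := by
      by_contra hcon
      apply hu
      apply (sympB_nondegenerate (F := F) m).1 u
      intro x
      by_contra hx0
      exact hcon ⟨x, hx0⟩
    set lam := sympB m u (g.1.mulVec x₀) / sympB m u x₀ with hlam
    have hgu : g.1.mulVec u = lam • u := by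
      have h := hx x₀
      rw [hlam, div_eq_inv_mul, mul_smul, ← h, smul_smul, inv_mul_cancel₀ hx₀, one_smul]
    have h2 : sympB m u x₀ = lam * sympB m u (g.1.mulVec x₀) := by
      have h := hgiso u x₀
      rw [hgu] at h
      simp only [map_smul, LinearMap.smul_apply, smul_eq_mul] at h
      exact h.symm
    have h3 : sympB m u (g.1.mulVec x₀) = lam * sympB m u x₀ := by
      rw [hlam]
      field_simp
    have h4 : lam * lam = 1 := by
      have h : sympB m u x₀ * (lam * lam - 1) = 0 := by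
        rw [h3] at h2
        linear_combination (-1 : F) * h2
      rcases mul_eq_zero.mp h with h | h
      · exact absurd h hx₀
      · exact sub_eq_zero.mp h
    have h5 : lam = 1 := by
      have h2F : (2 : F) = 0 := CharTwo.two_eq_zero
      have h : (lam - 1) * (lam - 1) = 0 := by
        linear_combination h4 + (1 - lam) * h2F
      rcases mul_eq_zero.mp h with h | h <;> exact sub_eq_zero.mp h
    rw [hgu, h5, one_smul]
  · intro hgu
    apply Subtype.ext
    rw [e1, e2]
    apply mat_ext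
    intro x
    rw [← Matrix.mulVec_mulVec, ← Matrix.mulVec_mulVec, ht, ht, Matrix.mulVec_add,
      Matrix.mulVec_smul, hgu]
    have h := hgiso u x
    rw [hgu] at h
    rw [h]

/-- The natural action of the symplectic group on vectors. -/
@[reducible] def spAction : MulAction (Matrix.symplecticGroup (Fin m) F) (Fin m ⊕ Fin m → F) where
  smul g v := (g : Matrix (Fin m ⊕ Fin m) (Fin m ⊕ Fin m) F).mulVec v
  one_smul v := Matrix.one_mulVec v
  mul_smul g h v := (Matrix.mulVec_mulVec v g.1 h.1).symm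

attribute [local instance] spAction

theorem card_centralizer [Fintype F] [CharP F 2] (t : Matrix.symplecticGroup (Fin m) F)
    (hr : ((t : Matrix (Fin m ⊕ Fin m) (Fin m ⊕ Fin m) F) - 1).rank = 1) :
    (Fintype.card F ^ (2 * m) - 1)
        * Nat.card ↥(Subgroup.centralizer ({t} : Set ↥(Matrix.symplecticGroup (Fin m) F)))
      = Nat.card (Matrix.symplecticGroup (Fin m) F) := by
  classical
  obtain ⟨u, hu, htu⟩ := exists_vec m t.1 t.2 hr
  have hsmul : ∀ (g : Matrix.symplecticGroup (Fin m) F) (v : Fin m ⊕ Fin m → F),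
      g • v = (g : Matrix (Fin m ⊕ Fin m) (Fin m ⊕ Fin m) F).mulVec v := fun _ _ => rfl
  have hstab : MulAction.stabilizer (Matrix.symplecticGroup (Fin m) F) u
      = Subgroup.centralizer ({t} : Set ↥(Matrix.symplecticGroup (Fin m) F)) := by
    ext g
    rw [MulAction.mem_stabilizer_iff, Subgroup.mem_centralizer_iff, hsmul]
    constructor
    · intro h s hs
      rw [Set.mem_singleton_iff] at hs
      rw [hs]
      exact ((comm_iff m u hu t g htu).mpr h).symm
    · intro h
      exact (comm_iff m u hu t g htu).mp (h t rfl).symm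
  have horb : MulAction.orbit (Matrix.symplecticGroup (Fin m) F) u = {v | v ≠ 0} := by
    ext v
    constructor
    · rintro ⟨g, rfl⟩
      show g • u ≠ 0
      rw [hsmul]
      intro h0
      apply hu
      apply (sympB_nondegenerate (F := F) m).1
      intro x
      rw [← sp_isometry m g.1 g.2 u x, h0]
      simp
    · intro hv
      obtain ⟨g, hg⟩ := Cfsg.Agent.S0271.result m u v hu hv
      exact ⟨g, hg⟩
  have h1 := Nat.card_congr
    (MulAction.orbitProdStabilizerEquivGroup (Matrix.symplecticGroup (Fin m) F) u)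
  rw [Nat.card_prod, hstab, horb] at h1
  rw [← h1]
  congr 1
  have h2 : Nat.card {v : Fin m ⊕ Fin m → F | v ≠ 0} = Fintype.card {v : Fin m ⊕ Fin m → F // ¬ (v = 0)} := by
    rw [Nat.card_eq_fintype_card]
    rfl
  rw [h2, Fintype.card_subtype_compl, Fintype.card_subtype_eq, Fintype.card_fun, Fintype.card_sum,
    Fintype.card_fin, two_mul]

theorem aux_final [Fintype F] [CharP F 2] {q : ℕ} (hF : Fintype.card F = q) (k : ℕ)
    (t : Matrix.symplecticGroup (Fin (k + 1)) F)
    (ht : ((t : Matrix (Fin (k + 1) ⊕ Fin (k + 1)) (Fin (k + 1) ⊕ Fin (k + 1)) F) - 1).rank = 1) :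
    Nat.card ↥(Subgroup.centralizer ({t} : Set ↥(Matrix.symplecticGroup (Fin (k + 1)) F)))
      = q ^ (2 * k + 1) * (q ^ (k ^ 2) * ∏ i : Fin k, (q ^ (2 * ((i : ℕ) + 1)) - 1)) := by
  have h1 := card_centralizer (k + 1) t ht
  rw [hF, Cfsg.Agent.S0245.result hF (k + 1), Finset.prod_range_succ] at h1
  have hq : 2 ≤ q := by
    rw [← hF]
    exact Fintype.one_lt_card
  have hpos : 0 < q ^ (2 * (k + 1)) - 1 := by
    have h2 : 1 < q ^ (2 * (k + 1)) := Nat.one_lt_pow (by omega) (by omega)
    omega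
  apply Nat.eq_of_mul_eq_mul_left hpos
  rw [h1, ← Finset.prod_range (fun i => q ^ (2 * (i + 1)) - 1)]
  have e : (k + 1) ^ 2 = (2 * k + 1) + k ^ 2 := by ring
  rw [e, pow_add]
  ring

end aux

/-- Over a finite field with q elements, q even, an element t of Sp_2m(F) with rank(t − 1) = 1 (a symplectic transvection) has centraliser in Sp_2m(F) of order q^(2m−1) · |Sp_(2m−2)(q)| = q^(2m−1) · q^((m−1)²) · Π_(i=1)^(m−1) (q^(2i) − 1). -/
theorem result {F : Type*} [Field F] [Fintype F] [CharP F 2] {q : ℕ} (hF : Fintype.card F = q) {m : ℕ} (hm : 1 ≤ m) (t : Matrix.symplecticGroup (Fin m) F) (ht : ((t : Matrix (Fin m ⊕ Fin m) (Fin m ⊕ Fin m) F) - 1).rank = 1) : Nat.card ↥(Subgroup.centralizer ({t} : Set ↥(Matrix.symplecticGroup (Fin m) F))) = q ^ (2 * m - 1) * (q ^ ((m - 1) ^ 2) * ∏ i : Fin (m - 1), (q ^ (2 * ((i : ℕ) + 1)) - 1)) := by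
  obtain ⟨k, rfl⟩ : ∃ k, m = k + 1 := ⟨m - 1, by omega⟩
  have h := aux_final hF k t ht
  have e1 : 2 * (k + 1) - 1 = 2 * k + 1 := by omega
  rw [e1]
  exact h

end Cfsg.Agent.S2594
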