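import Cfsg.Statements.S2599
import Mathlib

set_option autoImplicit false
open Cfsg

namespace Cfsg.Agent.S2599

/-- An irreducible invariant subspace of a semisimple isometry is non-degenerate or totally singular: let Q be a quadratic form on F^n (F finite of characteristic p) with non-degenerate polar form f, x an isometry of Q of order prime to p, and U a non-zero x-invariant subspace containing no x-invariant subspace other than 0 and U. Then U meets its f-orthogonal trivially, or Q vanishes on U, or p = 2, U is a line spanned by a non-singular vector and x fixes U pointwise. -/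
theorem result {F : Type*} [Field F] [Fintype F] {p : ℕ} [Fact p.Prime] [CharP F p] {n : ℕ} (Q : QuadraticForm F (Fin n → F)) (hQ : (QuadraticMap.polarBilin Q).Nondegenerate) (x : ↥(Cfsg.isometryGroup F ⇑Q)) (hx : (orderOf x).Coprime p) (U : Submodule F (Fin n → F)) (hU0 : U ≠ ⊥) (hUx : ∀ u ∈ U, ((x : Matrix.GeneralLinearGroup (Fin n) F) : Matrix (Fin n) (Fin n) F).mulVec u ∈ U) (hirr : ∀ W : Submodule F (Fin n → F), W ≤ U → (∀ w ∈ W, ((x : Matrix.GeneralLinearGroup (Fin n) F) : Matrix (Fin n) (Fin n) F).mulVec w ∈ W) → W = ⊥ ∨ W = U) : U ⊓ LinearMap.BilinForm.orthogonal (QuadraticMap.polarBilin Q) U = ⊥ ∨ (∀ u ∈ U, Q u = 0) ∨ (p = 2 ∧ Module.finrank F U = 1 ∧ (∃ u ∈ U, Q u ≠ 0) ∧ ∀ u ∈ U, ((x : Matrix.GeneralLinearGroup (Fin n) F) : Matrix (Fin n) (Fin n) F).mulVec u = u) := by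
  classical
  set M : Matrix (Fin n) (Fin n) F := ((x : Matrix.GeneralLinearGroup (Fin n) F) : Matrix (Fin n) (Fin n) F) with hM
  -- M preserves Q
  have hMQ : ∀ v, Q (M.mulVec v) = Q v := by
    intro v
    have := x.2 v v
    simpa using this
  have hMpolar : ∀ u v, QuadraticMap.polar Q (M.mulVec u) (M.mulVec v) = QuadraticMap.polar Q u v := by
    intro u v
    simp only [QuadraticMap.polar, ← Matrix.mulVec_add, hMQ]
  -- M is injective
  have hMinj : Function.Injective M.mulVec := by
    have hu : IsUnit M := ⟨(x : Matrix.GeneralLinearGroup (Fin n) F), rfl⟩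
    exact Matrix.mulVec_injective_iff_isUnit.mpr hu
  -- M maps U onto U
  let f : U →ₗ[F] U := (Matrix.mulVecLin M).restrict (p := U) (q := U) hUx
  have hfinj : Function.Injective f := by
    intro a b hab
    apply Subtype.ext
    apply hMinj
    have := congrArg Subtype.val hab
    exact this
  have hfsurj : Function.Surjective f := LinearMap.injective_iff_surjective.mp hfinj
  have hUsurj : ∀ u ∈ U, ∃ u' ∈ U, M.mulVec u' = u := by
    intro u hu
    obtain ⟨u', hu'⟩ := hfsurj ⟨u, hu⟩
    refine ⟨u', u'.2, ?_⟩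
    have := congrArg Subtype.val hu'
    exact this
  -- first dichotomy
  have h1 := hirr (U ⊓ LinearMap.BilinForm.orthogonal (QuadraticMap.polarBilin Q) U) inf_le_left (by
    intro w hw
    refine ⟨hUx w hw.1, ?_⟩
    refine LinearMap.BilinForm.mem_orthogonal_iff.mpr ?_
    intro u hu
    obtain ⟨u', hu', rfl⟩ := hUsurj u hu
    rw [QuadraticMap.polarBilin_apply_apply, hMpolar]
    have := (LinearMap.BilinForm.mem_orthogonal_iff.mp hw.2) u' hu'
    rwa [QuadraticMap.polarBilin_apply_apply] at this)
  rcases h1 with h1 | h1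
  · exact Or.inl h1
  right
  -- polar vanishes on U
  have hpol : ∀ u ∈ U, ∀ v ∈ U, QuadraticMap.polar Q u v = 0 := by
    intro u hu v hv
    have hv' : v ∈ U ⊓ LinearMap.BilinForm.orthogonal (QuadraticMap.polarBilin Q) U := by
      rw [h1]; exact hv
    have := (LinearMap.BilinForm.mem_orthogonal_iff.mp hv'.2) u hu
    rwa [QuadraticMap.polarBilin_apply_apply] at this
  have hadd : ∀ u ∈ U, ∀ v ∈ U, Q (u + v) = Q u + Q v := by
    intro u hu v hv
    rw [QuadraticMap.map_add Q u v, hpol u hu v hv, add_zero]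
  -- the singular vectors of U form an invariant submodule
  let W1 : Submodule F (Fin n → F) :=
    { carrier := {u | u ∈ U ∧ Q u = 0}
      add_mem' := by
        intro a b ha hb
        exact ⟨U.add_mem ha.1 hb.1, by rw [hadd a ha.1 b hb.1, ha.2, hb.2, add_zero]⟩
      zero_mem' := ⟨U.zero_mem, by simp⟩
      smul_mem' := by
        intro c a ha
        exact ⟨U.smul_mem c ha.1, by rw [QuadraticMap.map_smul, ha.2, smul_zero]⟩ }
  have hW1mem : ∀ u, u ∈ W1 ↔ (u ∈ U ∧ Q u = 0) := fun u => Iff.rfl
  have h2 := hirr W1 (fun u hu => hu.1) (by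
    intro w hw
    exact ⟨hUx w hw.1, by rw [hMQ]; exact hw.2⟩)
  rcases h2 with h2 | h2
  swap
  · left
    intro u hu
    have : u ∈ W1 := by rw [h2]; exact hu
    exact this.2
  right
  have hW1 : ∀ u ∈ U, Q u = 0 → u = 0 := by
    intro u hu hQu
    have : u ∈ W1 := ⟨hu, hQu⟩
    rw [h2] at this
    simpa using this
  -- twice Q vanishes on U
  have h2Q : ∀ u ∈ U, (2 : F) * Q u = 0 := by
    intro u hu
    have := hpol u hu u hu
    rw [QuadraticMap.polar_self] at this
    simpa using this
  obtain ⟨u0, hu0, hu0ne⟩ := (Submodule.ne_bot_iff U).mp hU0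
  have hQu0 : Q u0 ≠ 0 := fun h => hu0ne (hW1 u0 hu0 h)
  have h2F : (2 : F) = 0 := by
    have := h2Q u0 hu0
    rcases mul_eq_zero.mp this with h | h
    · exact h
    · exact absurd h hQu0
  have hp2 : p = 2 := by
    have h2' : ((2 : ℕ) : F) = 0 := by exact_mod_cast h2F
    have hdvd : p ∣ 2 := (CharP.cast_eq_zero_iff F p 2).mp h2'
    exact (Nat.prime_dvd_prime_iff_eq (Fact.out) Nat.prime_two).mp hdvd
  have hneg : ∀ a : F, -a = a := by
    intro a
    have : a + a = 0 := by
      have : (2 : F) * a = 0 := by rw [h2F, zero_mul]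
      linear_combination this
    exact neg_eq_of_add_eq_zero_left this
  refine ⟨hp2, ?_, ⟨u0, hu0, hQu0⟩, ?_⟩
  · -- finrank = 1
    have : CharP F 2 := hp2 ▸ (inferInstance : CharP F p)
    rw [finrank_eq_one_iff']
    refine ⟨⟨u0, hu0⟩, ?_, ?_⟩
    · intro h
      exact hu0ne (congrArg Subtype.val h)
    · intro w
      obtain ⟨c, hc⟩ := FiniteField.isSquare_of_char_two (F := F) (by exact ringChar.eq F 2 |>.symm ▸ rfl) (Q w / Q u0)
      refine ⟨c, ?_⟩
      apply Subtype.ext
      have hmem : (w : Fin n → F) + c • u0 ∈ U := U.add_mem w.2 (U.smul_mem c hu0)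
      have hQ0 : Q ((w : Fin n → F) + c • u0) = 0 := by
        rw [hadd _ w.2 _ (U.smul_mem c hu0), QuadraticMap.map_smul, smul_eq_mul, ← hc]
        field_simp
        have := h2Q w w.2
        linear_combination this
      have := hW1 _ hmem hQ0
      have h3 : (w : Fin n → F) = -(c • u0) := eq_neg_of_add_eq_zero_left this
      have h4 : -(c • u0) = c • u0 := by
        rw [← neg_smul, hneg]
      simp only [Submodule.coe_smul]
      rw [h3, h4]
  · intro u hu
    have hmem : M.mulVec u + u ∈ U := U.add_mem (hUx u hu) hu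
    have hQ0 : Q (M.mulVec u + u) = 0 := by
      rw [hadd _ (hUx u hu) _ hu, hMQ]
      have := h2Q u hu
      linear_combination this
    have := hW1 _ hmem hQ0
    have h3 : M.mulVec u = -u := eq_neg_of_add_eq_zero_left this
    rw [h3]
    funext i
    simp [hneg]

end Cfsg.Agent.S2599
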