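import Cfsg.Statements.S2610
import Cfsg.Agent.Lib.Helper51.NegOne

set_option autoImplicit false
open Cfsg

namespace Cfsg.Agent.S2610

/-- For a quadratic form Q on F^n with non-degenerate polar form, F finite of odd order and n ≥ 2 even, the isometry −1 lies in Ω (the commutator subgroup of the orthogonal group) if and only if the discriminant of Q (the determinant of the Gram matrix of its polar form) is a square. -/
theorem result {F : Type*} [Field F] [Fintype F] (h2 : (2 : F) ≠ 0) {n : ℕ} (hn : 2 ≤ n) (he : Even n) (Q : QuadraticForm F (Fin n → F)) (hQ : (QuadraticMap.polarBilin Q).Nondegenerate) : (∃ g : ↥(Cfsg.isometryGroup F ⇑Q), g ∈ Cfsg.Omega F ⇑Q ∧ ((g : Matrix.GeneralLinearGroup (Fin n) F) : Matrix (Fin n) (Fin n) F) = -1) ↔ IsSquare (Matrix.of (fun i j : Fin n => QuadraticMap.polar ⇑Q (Pi.single i 1) (Pi.single j 1))).det := by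
  exact Cfsg.Agent.Lib.Helper51.neg_one_mem_commutator_iff Q h2 (by rw [Fintype.card_fin]; exact he) hQ

end Cfsg.Agent.S2610
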