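import Cfsg.Statements.S2612
import Cfsg.Agent.Lib.Helper51.NegOne
import Cfsg.Agent.Lib.Helper51.HypPairs

set_option autoImplicit false
open Cfsg

namespace Cfsg.Agent.S2612

open Cfsg.Agent.Lib.Helper51
open scoped commutatorElement

section perm

variable {ι : Type} [Fintype ι] [DecidableEq ι] {F : Type*} [Field F]
variable (Q : QuadraticForm F (ι → F))

/-- A coordinate permutation preserving `Q`, as an isometry. -/
noncomputable def permIso (σ : Equiv.Perm ι) (hσ : ∀ x, Q (x ∘ σ) = Q x) : isometryGroup F ⇑Q :=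
  ⟨⟨σ.permMatrix F, σ⁻¹.permMatrix F,
    by rw [← Matrix.permMatrix_mul]; simp,
    by rw [← Matrix.permMatrix_mul]; simp⟩,
    (mem_isometryGroup_iff Q _).mpr (fun x => by
      show Q ((σ.permMatrix F).mulVec x) = Q x
      rw [Matrix.permMatrix_mulVec]
      exact hσ x)⟩

theorem permIso_mulVec (σ : Equiv.Perm ι) (hσ : ∀ x, Q (x ∘ σ) = Q x) (x : ι → F) :
    (((permIso Q σ hσ : isometryGroup F ⇑Q) : Matrix.GeneralLinearGroup ι F) :
      Matrix ι ι F).mulVec x = x ∘ σ :=
  Matrix.permMatrix_mulVec σ

end perm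

section swap

variable {m : ℕ} {F : Type*} [Field F]

/-- Partial swap of the hyperbolic pairs selected by `S`. -/
def tauFun (S : Fin m → Prop) [DecidablePred S] : Fin m ⊕ Fin m → Fin m ⊕ Fin m
  | Sum.inl i => if S i then Sum.inr i else Sum.inl i
  | Sum.inr i => if S i then Sum.inl i else Sum.inr i

theorem tauFun_invol (S : Fin m → Prop) [DecidablePred S] : Function.Involutive (tauFun S) := by
  intro k
  rcases k with i | i
  · by_cases h : S i <;> simp [tauFun, h]
  · by_cases h : S i <;> simp [tauFun, h]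

/-- `tauFun` as a permutation. -/
def tau (S : Fin m → Prop) [DecidablePred S] : Equiv.Perm (Fin m ⊕ Fin m) :=
  (tauFun_invol S).toPerm

theorem tau_preserves (S : Fin m → Prop) [DecidablePred S] (x : Fin m ⊕ Fin m → F) :
    QPlus m F (x ∘ tau S) = QPlus m F x := by
  rw [QPlus_apply, QPlus_apply]
  apply Finset.sum_congr rfl
  intro i _
  by_cases h : S i
  · simp [tau, tauFun, h, mul_comm]
  · simp [tau, tauFun, h]

theorem sumCongr_preserves (π : Equiv.Perm (Fin m)) (x : Fin m ⊕ Fin m → F) :
    QPlus m F (x ∘ (Equiv.sumCongr π π)) = QPlus m F x := by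
  rw [QPlus_apply, QPlus_apply]
  simp only [Function.comp_apply, Equiv.sumCongr_apply, Sum.map_inl, Sum.map_inr]
  exact Equiv.sum_comp π (fun i => x (Sum.inl i) * x (Sum.inr i))

theorem sumComm_preserves (x : Fin m ⊕ Fin m → F) :
    QPlus m F (x ∘ (Equiv.sumComm (Fin m) (Fin m))) = QPlus m F x := by
  rw [QPlus_apply, QPlus_apply]
  apply Finset.sum_congr rfl
  intro i _
  simp [mul_comm]

/-- The full swap is a commutator when there is a fixed-point-free pairing. -/
theorem swap_eq_commutator (S : Fin m → Prop) [DecidablePred S] (π : Equiv.Perm (Fin m))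
    (hπ : ∀ i, S (π i) ↔ ¬ S i) :
    permIso (QPlus m F) (Equiv.sumComm (Fin m) (Fin m)) sumComm_preserves
      = ⁅permIso (QPlus m F) (tau S) (tau_preserves S),
          permIso (QPlus m F) (Equiv.sumCongr π π) (sumCongr_preserves π)⁆ := by
  have hrel : permIso (QPlus m F) (tau S) (tau_preserves S)
        * permIso (QPlus m F) (Equiv.sumCongr π π) (sumCongr_preserves π)
      = permIso (QPlus m F) (Equiv.sumComm (Fin m) (Fin m)) sumComm_preserves
        * permIso (QPlus m F) (Equiv.sumCongr π π) (sumCongr_preserves π)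
        * permIso (QPlus m F) (tau S) (tau_preserves S) := by
    apply isometry_ext
    apply matrix_ext_mulVec
    intro x
    rw [coe_mul', coe_mul', coe_mul', ← Matrix.mulVec_mulVec, ← Matrix.mulVec_mulVec,
      ← Matrix.mulVec_mulVec, permIso_mulVec, permIso_mulVec, permIso_mulVec, permIso_mulVec,
      permIso_mulVec]
    funext k
    simp only [Function.comp_apply]
    congr 1
    rcases k with i | i
    · by_cases h : S i
      · have h' : ¬ S (π i) := fun hh => (hπ i).mp hh h
        simp [tau, tauFun, h, h']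
      · have h' : S (π i) := (hπ i).mpr h
        simp [tau, tauFun, h, h']
    · by_cases h : S i
      · have h' : ¬ S (π i) := fun hh => (hπ i).mp hh h
        simp [tau, tauFun, h, h']
      · have h' : S (π i) := (hπ i).mpr h
        simp [tau, tauFun, h, h']
  rw [commutatorElement_def, hrel]
  group

end swap

section blocks

variable {ι : Type} [Fintype ι] [DecidableEq ι] {F : Type*} [Field F]

theorem isometry_gram (Q : QuadraticForm F (ι → F)) (g : isometryGroup F ⇑Q) :
    (((g : Matrix.GeneralLinearGroup ι F) : Matrix ι ι F)).transpose * gram Q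
      * ((g : Matrix.GeneralLinearGroup ι F) : Matrix ι ι F) = gram Q := by
  ext a b
  have h := isometry_polar Q g (Pi.single a 1) (Pi.single b 1)
  rw [polar_eq_gram, polar_eq_gram] at h
  have e1 : ∀ (N : Matrix ι ι F), Pi.single a 1 ⬝ᵥ N.mulVec (Pi.single b 1) = N a b := by
    intro N
    simp
  rw [e1, ← Matrix.vecMul_transpose, ← Matrix.dotProduct_mulVec, Matrix.mulVec_mulVec,
    Matrix.mulVec_mulVec, e1] at h
  rw [← h, Matrix.mul_assoc]

variable {m : ℕ}

theorem gram_QPlus : gram (QPlus m F) = Matrix.fromBlocks 0 1 1 0 := by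
  ext a b
  rw [gram_apply, polar_QPlus]
  rcases a with i | i <;> rcases b with j | j <;>
    simp [Pi.single_apply, Matrix.one_apply, eq_comm]

/-- Column relations between the blocks of an isometry of the hyperbolic form. -/
theorem block_col (g : isometryGroup F ⇑(QPlus m F)) (A B C D : Matrix (Fin m) (Fin m) F)
    (hM : ((g : Matrix.GeneralLinearGroup (Fin m ⊕ Fin m) F) :
      Matrix (Fin m ⊕ Fin m) (Fin m ⊕ Fin m) F) = Matrix.fromBlocks A B C D) :
    C.transpose * A + A.transpose * C = 0 ∧ C.transpose * B + A.transpose * D = 1 ∧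
    D.transpose * B + B.transpose * D = 0 ∧ (∀ j, (A.transpose * C) j j = 0) ∧
    (∀ j, (B.transpose * D) j j = 0) := by
  have h := isometry_gram (QPlus m F) g
  rw [gram_QPlus, hM, Matrix.fromBlocks_transpose, Matrix.fromBlocks_multiply,
    Matrix.fromBlocks_multiply] at h
  simp only [Matrix.mul_zero, Matrix.mul_one, zero_add, add_zero] at h
  have h11 := congrArg Matrix.toBlocks₁₁ h
  have h12 := congrArg Matrix.toBlocks₁₂ h
  have h22 := congrArg Matrix.toBlocks₂₂ h
  simp only [Matrix.toBlocks_fromBlocks₁₁, Matrix.toBlocks_fromBlocks₁₂,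
    Matrix.toBlocks_fromBlocks₂₂] at h11 h12 h22
  refine ⟨h11, h12, h22, ?_, ?_⟩
  · intro j
    have hq := isometry_apply (QPlus m F) g (Pi.single (Sum.inl j) 1)
    rw [(hypPlus m F j).2.1, QPlus_apply, hM] at hq
    rw [Matrix.mul_apply, ← hq]
    apply Finset.sum_congr rfl
    intro i _
    simp
  · intro j
    have hq := isometry_apply (QPlus m F) g (Pi.single (Sum.inr j) 1)
    rw [(hypPlus m F j).2.2.1, QPlus_apply, hM] at hq
    rw [Matrix.mul_apply, ← hq]
    apply Finset.sum_congr rfl
    intro i _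
    simp

/-- The blocks of the inverse of an isometry. -/
theorem block_inv (g : isometryGroup F ⇑(QPlus m F)) (A B C D : Matrix (Fin m) (Fin m) F)
    (hM : ((g : Matrix.GeneralLinearGroup (Fin m ⊕ Fin m) F) :
      Matrix (Fin m ⊕ Fin m) (Fin m ⊕ Fin m) F) = Matrix.fromBlocks A B C D) :
    (((g⁻¹ : isometryGroup F ⇑(QPlus m F)) : Matrix.GeneralLinearGroup (Fin m ⊕ Fin m) F) :
      Matrix (Fin m ⊕ Fin m) (Fin m ⊕ Fin m) F)
      = Matrix.fromBlocks D.transpose B.transpose C.transpose A.transpose := by
  obtain ⟨h1, h2, h3, -, -⟩ := block_col g A B C D hM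
  have hN : Matrix.fromBlocks D.transpose B.transpose C.transpose A.transpose
      * Matrix.fromBlocks A B C D = 1 := by
    rw [Matrix.fromBlocks_multiply, h1, h2, h3]
    have h2' := congrArg Matrix.transpose h2
    rw [Matrix.transpose_add, Matrix.transpose_mul, Matrix.transpose_mul, Matrix.transpose_transpose,
      Matrix.transpose_transpose, Matrix.transpose_one, add_comm] at h2'
    rw [h2', Matrix.fromBlocks_one]
  have hinv : ((g : Matrix.GeneralLinearGroup (Fin m ⊕ Fin m) F) :
      Matrix (Fin m ⊕ Fin m) (Fin m ⊕ Fin m) F)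
      * (((g⁻¹ : isometryGroup F ⇑(QPlus m F)) : Matrix.GeneralLinearGroup (Fin m ⊕ Fin m) F) :
      Matrix (Fin m ⊕ Fin m) (Fin m ⊕ Fin m) F) = 1 := by
    rw [← coe_mul', mul_inv_cancel]
    rfl
  rw [hM] at hinv
  calc (((g⁻¹ : isometryGroup F ⇑(QPlus m F)) : Matrix.GeneralLinearGroup (Fin m ⊕ Fin m) F) :
      Matrix (Fin m ⊕ Fin m) (Fin m ⊕ Fin m) F)
      = (Matrix.fromBlocks D.transpose B.transpose C.transpose A.transpose
        * Matrix.fromBlocks A B C D) * (((g⁻¹ : isometryGroup F ⇑(QPlus m F)) :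
          Matrix.GeneralLinearGroup (Fin m ⊕ Fin m) F) :
          Matrix (Fin m ⊕ Fin m) (Fin m ⊕ Fin m) F) := by rw [hN, Matrix.one_mul]
    _ = Matrix.fromBlocks D.transpose B.transpose C.transpose A.transpose := by
      rw [Matrix.mul_assoc, hinv, Matrix.mul_one]

/-- Row relations between the blocks of an isometry of the hyperbolic form. -/
theorem block_row (g : isometryGroup F ⇑(QPlus m F)) (A B C D : Matrix (Fin m) (Fin m) F)
    (hM : ((g : Matrix.GeneralLinearGroup (Fin m ⊕ Fin m) F) :
      Matrix (Fin m ⊕ Fin m) (Fin m ⊕ Fin m) F) = Matrix.fromBlocks A B C D) :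
    C * D.transpose + D * C.transpose = 0 ∧ B * C.transpose + A * D.transpose = 1 ∧
    A * B.transpose + B * A.transpose = 0 ∧ (∀ j, (B * A.transpose) j j = 0) := by
  obtain ⟨h1, h2, h3, -, h5⟩ := block_col g⁻¹ _ _ _ _ (block_inv g A B C D hM)
  simp only [Matrix.transpose_transpose] at h1 h2 h3 h5
  refine ⟨h1, ?_, h3, h5⟩
  have h2' := congrArg Matrix.transpose h2
  rw [Matrix.transpose_add, Matrix.transpose_mul, Matrix.transpose_mul, Matrix.transpose_transpose,
    Matrix.transpose_transpose, Matrix.transpose_one] at h2'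
  exact h2'

theorem trace_alt (h2 : (2 : F) = 0) (S T : Matrix (Fin m) (Fin m) F)
    (hS : ∀ i j, S i j + S j i = 0) (hS0 : ∀ i, S i i = 0) (hT : ∀ i j, T i j + T j i = 0) :
    Matrix.trace (S * T) = 0 := by
  have e : Matrix.trace (S * T) = ∑ p : Fin m × Fin m, S p.1 p.2 * T p.2 p.1 := by
    rw [Fintype.sum_prod_type]
    simp only [Matrix.trace, Matrix.diag_apply, Matrix.mul_apply]
  rw [e]
  refine Finset.sum_involution (fun p _ => p.swap) ?_ ?_ (fun p _ => Finset.mem_univ _)
    (fun p _ => Prod.swap_swap p)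
  · intro p _
    simp only [Prod.fst_swap, Prod.snd_swap]
    linear_combination (S p.1 p.2 * T p.2 p.1) * h2 + S p.2 p.1 * hT p.1 p.2 - T p.2 p.1 * hS p.1 p.2
  · intro p _ hne hsw
    apply hne
    have h12 : p.2 = p.1 := congrArg Prod.fst hsw
    rw [h12, hS0, zero_mul]

/-- The Dickson-type invariant `tr(Bᵀ C)`. -/
noncomputable def dk (M : Matrix (Fin m ⊕ Fin m) (Fin m ⊕ Fin m) F) : F :=
  Matrix.trace (M.toBlocks₁₂.transpose * M.toBlocks₂₁)

theorem dk_mul (h2 : (2 : F) = 0) (g g' : isometryGroup F ⇑(QPlus m F)) :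
    dk (((g * g' : isometryGroup F ⇑(QPlus m F)) : Matrix.GeneralLinearGroup (Fin m ⊕ Fin m) F) :
      Matrix (Fin m ⊕ Fin m) (Fin m ⊕ Fin m) F)
    = dk ((g : Matrix.GeneralLinearGroup (Fin m ⊕ Fin m) F) :
      Matrix (Fin m ⊕ Fin m) (Fin m ⊕ Fin m) F)
    + dk ((g' : Matrix.GeneralLinearGroup (Fin m ⊕ Fin m) F) :
      Matrix (Fin m ⊕ Fin m) (Fin m ⊕ Fin m) F) := by
  obtain ⟨A, B, C, D, hM⟩ : ∃ A B C D : Matrix (Fin m) (Fin m) F,
      ((g : Matrix.GeneralLinearGroup (Fin m ⊕ Fin m) F) :
      Matrix (Fin m ⊕ Fin m) (Fin m ⊕ Fin m) F) = Matrix.fromBlocks A B C D :=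
    ⟨_, _, _, _, (Matrix.fromBlocks_toBlocks _).symm⟩
  obtain ⟨A', B', C', D', hM'⟩ : ∃ A B C D : Matrix (Fin m) (Fin m) F,
      ((g' : Matrix.GeneralLinearGroup (Fin m ⊕ Fin m) F) :
      Matrix (Fin m ⊕ Fin m) (Fin m ⊕ Fin m) F) = Matrix.fromBlocks A B C D :=
    ⟨_, _, _, _, (Matrix.fromBlocks_toBlocks _).symm⟩
  obtain ⟨c1, c2, c3, c4, c5⟩ := block_col g A B C D hM
  obtain ⟨r1, r2, r3, r4⟩ := block_row g' A' B' C' D' hM'
  rw [coe_mul', hM, hM', Matrix.fromBlocks_multiply]
  simp only [dk, Matrix.toBlocks_fromBlocks₁₂, Matrix.toBlocks_fromBlocks₂₁]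
  have e : (A * B' + B * D').transpose * (C * A' + D * C')
      = B'.transpose * (A.transpose * C) * A' + B'.transpose * (A.transpose * D) * C'
        + D'.transpose * (B.transpose * C) * A' + D'.transpose * (B.transpose * D) * C' := by
    simp only [Matrix.transpose_add, Matrix.transpose_mul, Matrix.add_mul, Matrix.mul_add,
      Matrix.mul_assoc]
    abel
  rw [e, Matrix.trace_add, Matrix.trace_add, Matrix.trace_add]
  have t1 : Matrix.trace (B'.transpose * (A.transpose * C) * A') = 0 := by
    rw [Matrix.trace_mul_cycle, Matrix.trace_mul_comm]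
    apply trace_alt h2
    · intro i j
      have := congrFun (congrFun c1 i) j
      simp only [Matrix.add_apply, Matrix.zero_apply] at this
      have e2 : (C.transpose * A) i j = (A.transpose * C) j i := by
        rw [← Matrix.transpose_apply (A.transpose * C), Matrix.transpose_mul,
          Matrix.transpose_transpose]
      rw [e2] at this
      rw [add_comm]
      exact this
    · exact c4
    · intro i j
      have := congrFun (congrFun r3 i) j
      simp only [Matrix.add_apply, Matrix.zero_apply] at this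
      have e2 : (B' * A'.transpose) i j = (A' * B'.transpose) j i := by
        rw [← Matrix.transpose_apply (A' * B'.transpose), Matrix.transpose_mul,
          Matrix.transpose_transpose]
      rw [e2] at this
      exact this
  have t4 : Matrix.trace (D'.transpose * (B.transpose * D) * C') = 0 := by
    rw [Matrix.trace_mul_cycle, Matrix.trace_mul_comm]
    apply trace_alt h2
    · intro i j
      have := congrFun (congrFun c3 i) j
      simp only [Matrix.add_apply, Matrix.zero_apply] at this
      have e2 : (D.transpose * B) i j = (B.transpose * D) j i := by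
        rw [← Matrix.transpose_apply (B.transpose * D), Matrix.transpose_mul,
          Matrix.transpose_transpose]
      rw [e2] at this
      rw [add_comm]
      exact this
    · exact c5
    · intro i j
      have := congrFun (congrFun r1 i) j
      simp only [Matrix.add_apply, Matrix.zero_apply] at this
      have e2 : (D' * C'.transpose) i j = (C' * D'.transpose) j i := by
        rw [← Matrix.transpose_apply (C' * D'.transpose), Matrix.transpose_mul,
          Matrix.transpose_transpose]
      rw [e2] at this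
      exact this
  have hAD : A.transpose * D = 1 - C.transpose * B := by
    rw [← c2]; abel
  have hAD' : A' * D'.transpose = 1 - B' * C'.transpose := by
    rw [← r2]; abel
  have t2a : Matrix.trace (B'.transpose * (C.transpose * B) * C')
      = Matrix.trace ((B.transpose * C) * (B' * C'.transpose)) := by
    have e3 : (B'.transpose * (C.transpose * B) * C').transpose
        = C'.transpose * ((B.transpose * C) * B') := by
      simp only [Matrix.transpose_mul, Matrix.transpose_transpose, Matrix.mul_assoc]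
    rw [← Matrix.trace_transpose, e3, Matrix.trace_mul_comm, Matrix.mul_assoc]
  have t2 : Matrix.trace (B'.transpose * (A.transpose * D) * C')
      = Matrix.trace (B'.transpose * C')
        - Matrix.trace ((B.transpose * C) * (B' * C'.transpose)) := by
    rw [hAD, Matrix.mul_sub, Matrix.sub_mul, Matrix.trace_sub, Matrix.mul_one, t2a]
  have t3 : Matrix.trace (D'.transpose * (B.transpose * C) * A')
      = Matrix.trace (B.transpose * C)
        - Matrix.trace ((B.transpose * C) * (B' * C'.transpose)) := by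
    rw [Matrix.trace_mul_cycle, Matrix.trace_mul_comm, hAD', Matrix.mul_sub, Matrix.trace_sub,
      Matrix.mul_one]
  rw [t1, t2, t3, t4]
  linear_combination (-Matrix.trace ((B.transpose * C) * (B' * C'.transpose))) * h2

/-- The Dickson-type invariant as a homomorphism in characteristic two. -/
noncomputable def dickHom (h2 : (2 : F) = 0) :
    isometryGroup F ⇑(QPlus m F) →* Multiplicative F where
  toFun g := Multiplicative.ofAdd (dk ((g : Matrix.GeneralLinearGroup (Fin m ⊕ Fin m) F) :
      Matrix (Fin m ⊕ Fin m) (Fin m ⊕ Fin m) F))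
  map_one' := by
    show Multiplicative.ofAdd (dk (1 : Matrix (Fin m ⊕ Fin m) (Fin m ⊕ Fin m) F)) = 1
    simp [dk, ← Matrix.fromBlocks_one]
  map_mul' g g' := by rw [dk_mul h2, ofAdd_add]

theorem dickHom_apply (h2 : (2 : F) = 0) (g : isometryGroup F ⇑(QPlus m F)) :
    dickHom h2 g = Multiplicative.ofAdd (dk ((g : Matrix.GeneralLinearGroup (Fin m ⊕ Fin m) F) :
      Matrix (Fin m ⊕ Fin m) (Fin m ⊕ Fin m) F)) := rfl

theorem det_swapBlocks :
    (Matrix.fromBlocks (0 : Matrix (Fin m) (Fin m) F) (1 : Matrix (Fin m) (Fin m) F)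
      (1 : Matrix (Fin m) (Fin m) F) (0 : Matrix (Fin m) (Fin m) F)).det = (-1) ^ m := by
  have h : Matrix.fromBlocks (0 : Matrix (Fin m) (Fin m) F) (1 : Matrix (Fin m) (Fin m) F)
      (1 : Matrix (Fin m) (Fin m) F) (0 : Matrix (Fin m) (Fin m) F)
      = Matrix.fromBlocks (1 : Matrix (Fin m) (Fin m) F) (1 : Matrix (Fin m) (Fin m) F)
          (0 : Matrix (Fin m) (Fin m) F) (1 : Matrix (Fin m) (Fin m) F)
        * Matrix.fromBlocks (1 : Matrix (Fin m) (Fin m) F) (0 : Matrix (Fin m) (Fin m) F)
          (-1 : Matrix (Fin m) (Fin m) F) (1 : Matrix (Fin m) (Fin m) F)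
        * Matrix.fromBlocks (1 : Matrix (Fin m) (Fin m) F) (1 : Matrix (Fin m) (Fin m) F)
          (0 : Matrix (Fin m) (Fin m) F) (1 : Matrix (Fin m) (Fin m) F)
        * Matrix.fromBlocks (-1 : Matrix (Fin m) (Fin m) F) (0 : Matrix (Fin m) (Fin m) F)
          (0 : Matrix (Fin m) (Fin m) F) (1 : Matrix (Fin m) (Fin m) F) := by
    simp [Matrix.fromBlocks_multiply]
  rw [h, Matrix.det_mul, Matrix.det_mul, Matrix.det_mul, Matrix.det_fromBlocks_zero₂₁,
    Matrix.det_fromBlocks_zero₁₂, Matrix.det_fromBlocks_zero₂₁]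
  simp [Matrix.det_neg]

end blocks

/-- For the hyperbolic quadratic form Σ x_i y_i on F^(2m) (F finite, m ≥ 1, excluding m = 2 over the field of two elements), Ω⁺_2m(F) (the commutator subgroup of the orthogonal group) contains an element interchanging the two complementary maximal totally singular subspaces {y = 0} and {x = 0} if and only if m is even (dimension divisible by 4). -/
theorem result {F : Type*} [Field F] [Fintype F] {m : ℕ} (hm : 1 ≤ m) (h : Fintype.card F ≠ 2 ∨ m ≠ 2) : (∃ g : ↥(Cfsg.isometryGroup F (Cfsg.quadFormPlus m F)), g ∈ Cfsg.Omega F (Cfsg.quadFormPlus m F) ∧ (∀ v : Fin m ⊕ Fin m → F, (∀ i, v (Sum.inr i) = 0) → ∀ i, (((g : Matrix.GeneralLinearGroup (Fin m ⊕ Fin m) F) : Matrix (Fin m ⊕ Fin m) (Fin m ⊕ Fin m) F).mulVec v) (Sum.inl i) = 0) ∧ (∀ v : Fin m ⊕ Fin m → F, (∀ i, v (Sum.inl i) = 0) → ∀ i, (((g : Matrix.GeneralLinearGroup (Fin m ⊕ Fin m) F) : Matrix (Fin m ⊕ Fin m) (Fin m ⊕ Fin m) F).mulVec v) (Sum.inr i) = 0)) ↔ Even m := by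
  rw [← coe_QPlus m F]
  constructor
  · rintro ⟨g, hg, hX, hY⟩
    obtain ⟨A, B, C, D, hM⟩ : ∃ A B C D : Matrix (Fin m) (Fin m) F,
        ((g : Matrix.GeneralLinearGroup (Fin m ⊕ Fin m) F) :
        Matrix (Fin m ⊕ Fin m) (Fin m ⊕ Fin m) F) = Matrix.fromBlocks A B C D :=
      ⟨_, _, _, _, (Matrix.fromBlocks_toBlocks _).symm⟩
    have hA : A = 0 := by
      ext i j
      have := hX (Pi.single (Sum.inl j) 1) (by intro i; simp) i
      rw [hM] at this
      simpa using this
    have hD : D = 0 := by
      ext i j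
      have := hY (Pi.single (Sum.inr j) 1) (by intro i; simp) i
      rw [hM] at this
      simpa using this
    obtain ⟨c1, c2, c3, c4, c5⟩ := block_col g A B C D hM
    rw [hA, Matrix.transpose_zero, Matrix.zero_mul, add_zero] at c2
    by_cases h2 : (2 : F) = 0
    · have hk : dickHom h2 g = 1 :=
        MonoidHom.mem_ker.mp (Abelianization.commutator_subset_ker (dickHom (m := m) h2) hg)
      rw [dickHom_apply, hM] at hk
      have hdk : Matrix.trace (B.transpose * C) = 0 := by
        have := congrArg Multiplicative.toAdd hk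
        simpa [dk] using this
      have hBC : B.transpose * C = 1 := by
        have := congrArg Matrix.transpose c2
        simpa [Matrix.transpose_mul] using this
      rw [hBC, Matrix.trace_one, Fintype.card_fin] at hdk
      have : CharP F 2 := CharTwo.of_one_ne_zero_of_two_eq_zero one_ne_zero h2
      exact even_iff_two_dvd.mpr ((CharP.cast_eq_zero_iff F 2 m).mp hdk)
    · have hdet : ((g : Matrix.GeneralLinearGroup (Fin m ⊕ Fin m) F) :
          Matrix (Fin m ⊕ Fin m) (Fin m ⊕ Fin m) F).det = 1 := by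
        have h1 := MonoidHom.mem_ker.mp (Abelianization.commutator_subset_ker
          (Matrix.GeneralLinearGroup.det.comp (Subgroup.subtype (isometryGroup F ⇑(QPlus m F)))) hg)
        have h3 := congrArg Units.val h1
        simpa using h3
      rw [hM, hA, hD] at hdet
      have hfac : Matrix.fromBlocks (0 : Matrix (Fin m) (Fin m) F) B C 0
          = Matrix.fromBlocks B 0 0 C
            * Matrix.fromBlocks (0 : Matrix (Fin m) (Fin m) F) (1 : Matrix (Fin m) (Fin m) F)
              (1 : Matrix (Fin m) (Fin m) F) (0 : Matrix (Fin m) (Fin m) F) := by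
        simp [Matrix.fromBlocks_multiply]
      rw [hfac, Matrix.det_mul, Matrix.det_fromBlocks_zero₂₁, det_swapBlocks] at hdet
      have hBC : B.det * C.det = 1 := by
        have := congrArg Matrix.det c2
        rw [Matrix.det_mul, Matrix.det_transpose, Matrix.det_one] at this
        rw [mul_comm]
        exact this
      rw [hBC, one_mul] at hdet
      by_contra hodd
      rw [Nat.not_even_iff_odd] at hodd
      rw [hodd.neg_one_pow] at hdet
      apply h2
      linear_combination (-1 : F) * hdet
  · intro hev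
    obtain ⟨k, rfl⟩ := hev
    have hπ : ∀ i : Fin (k + k), ((Fin.revPerm i : Fin (k + k)) : ℕ) < k ↔ ¬ (i : ℕ) < k := by
      intro i
      simp only [Fin.revPerm_apply, Fin.val_rev]
      omega
    refine ⟨permIso (QPlus (k + k) F) (Equiv.sumComm _ _) sumComm_preserves, ?_, ?_, ?_⟩
    · rw [swap_eq_commutator (fun i : Fin (k + k) => (i : ℕ) < k) Fin.revPerm hπ]
      exact Subgroup.commutator_mem_commutator (Subgroup.mem_top _) (Subgroup.mem_top _)
    · intro v hv i
      rw [permIso_mulVec]
      simp [hv]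
    · intro v hv i
      rw [permIso_mulVec]
      simp [hv]

end Cfsg.Agent.S2612
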