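import Cfsg.Statements.S2617
import Mathlib

set_option autoImplicit false
open Cfsg

namespace Cfsg.Agent.S2617

open Matrix Module

/-- subspaces of `F^n` orthogonal for the dot product have dimensions adding to at most `n` -/
theorem finrank_add_le_of_dot {F : Type*} [Field F] {n : ℕ} (X Y : Submodule F (Fin n → F))
    (h : ∀ x ∈ X, ∀ y ∈ Y, x ⬝ᵥ y = 0) : finrank F X + finrank F Y ≤ n := by
  classical
  set B : LinearMap.BilinForm F (Fin n → F) := Matrix.toBilin' (1 : Matrix (Fin n) (Fin n) F) with hB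
  have hnd : B.Nondegenerate := by
    rw [hB, LinearMap.BilinForm.nondegenerate_toBilin'_iff_det_ne_zero]
    simp
  have hle : Y ≤ B.orthogonal X := by
    intro y hy
    rw [LinearMap.BilinForm.mem_orthogonal_iff]
    intro x hx
    show B x y = 0
    rw [hB, Matrix.toBilin'_apply', Matrix.one_mulVec]
    exact h x hx y hy
  have h1 := Submodule.finrank_mono hle
  rw [LinearMap.BilinForm.finrank_orthogonal hnd, finrank_pi, Fintype.card_fin] at h1
  have h2 : finrank F X ≤ n := by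
    have := Submodule.finrank_le X
    rwa [finrank_pi, Fintype.card_fin] at this
  omega

/-- the embedding of the first summand -/
def inlMap (F : Type*) [Field F] (m : ℕ) : (Fin m → F) →ₗ[F] (Fin m ⊕ Fin m → F) where
  toFun x := Sum.elim x 0
  map_add' x y := by
    ext i; cases i <;> simp
  map_smul' c x := by
    ext i; cases i <;> simp

theorem inlMap_injective (F : Type*) [Field F] (m : ℕ) : Function.Injective (inlMap F m) := by
  intro x y h
  ext i
  have := congrFun h (Sum.inl i)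
  simpa [inlMap] using this

theorem plus_inlMap (F : Type*) [Field F] (m : ℕ) (x : Fin m → F) :
    Cfsg.quadFormPlus m F (inlMap F m x) = 0 := by
  simp [Cfsg.quadFormPlus, inlMap]

theorem aniso {F : Type*} [Field F] (ζ : F) (hζ : ∀ t : F, t ^ 2 + t + ζ ≠ 0) (z₀ z₁ : F)
    (h : z₀ ^ 2 + 1 * z₀ * z₁ + ζ * z₁ ^ 2 = 0) : z₀ = 0 ∧ z₁ = 0 := by
  by_cases h1 : z₁ = 0
  · subst h1
    simp at h
    exact ⟨h, rfl⟩
  · exfalso
    apply hζ (z₀ / z₁)
    field_simp
    linear_combination h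

theorem aux {F : Type*} [Field F] {m n : ℕ} (hm : n < m) (ζ : F) (hζ : ∀ t : F, t ^ 2 + t + ζ ≠ 0) (g : (Fin m ⊕ Fin m → F) ≃ₗ[F] ((Fin n ⊕ Fin n) ⊕ Fin 2 → F)) : ¬ (∀ v : Fin m ⊕ Fin m → F, Cfsg.quadFormMinus n F 1 ζ (g v) = Cfsg.quadFormPlus m F v) := by
  intro hiso
  let j : (Fin m → F) →ₗ[F] ((Fin n ⊕ Fin n) ⊕ Fin 2 → F) :=
    (g : (Fin m ⊕ Fin m → F) →ₗ[F] ((Fin n ⊕ Fin n) ⊕ Fin 2 → F)).comp (inlMap F m)
  have hj_inj : Function.Injective j := g.injective.comp (inlMap_injective F m)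
  have hjQ : ∀ d, Cfsg.quadFormMinus n F 1 ζ (j d) = 0 := by
    intro d
    show Cfsg.quadFormMinus n F 1 ζ (g (inlMap F m d)) = 0
    rw [hiso, plus_inlMap]
  let πx : ((Fin n ⊕ Fin n) ⊕ Fin 2 → F) →ₗ[F] (Fin n → F) :=
    LinearMap.funLeft F F (fun i => Sum.inl (Sum.inl i))
  let πy : ((Fin n ⊕ Fin n) ⊕ Fin 2 → F) →ₗ[F] (Fin n → F) :=
    LinearMap.funLeft F F (fun i => Sum.inl (Sum.inr i))
  let T : (Fin m → F) →ₗ[F] (Fin n → F) := πy.comp j
  let K := LinearMap.ker T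
  -- elements of K have only x-coordinates
  have hKy : ∀ d ∈ K, ∀ i, j d (Sum.inl (Sum.inr i)) = 0 := by
    intro d hd i
    have : T d = 0 := hd
    exact congrFun this i
  have hKz : ∀ d ∈ K, j d (Sum.inr 0) = 0 ∧ j d (Sum.inr 1) = 0 := by
    intro d hd
    have h1 := hjQ d
    unfold Cfsg.quadFormMinus at h1
    have h2 : ∑ i : Fin n, j d (Sum.inl (Sum.inl i)) * j d (Sum.inl (Sum.inr i)) = 0 := by
      apply Finset.sum_eq_zero
      intro i _
      rw [hKy d hd i, mul_zero]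
    rw [h2, zero_add] at h1
    exact aniso ζ hζ _ _ h1
  let S : K →ₗ[F] (Fin n → F) := (πx.comp j).domRestrict K
  have hS_inj : Function.Injective S := by
    rw [← LinearMap.ker_eq_bot, LinearMap.ker_eq_bot']
    intro d hd
    apply Subtype.ext
    apply hj_inj
    show j d.1 = j 0
    rw [map_zero]
    ext i
    rcases i with (i | i) | i
    · exact congrFun hd i
    · exact hKy d.1 d.2 i
    · fin_cases i
      · exact (hKz d.1 d.2).1
      · exact (hKz d.1 d.2).2
  have horth : ∀ x ∈ LinearMap.range S, ∀ y ∈ LinearMap.range T, x ⬝ᵥ y = 0 := by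
    rintro x ⟨d, rfl⟩ y ⟨d', rfl⟩
    have h1 := hjQ (d.1 + d')
    have h2 := hjQ d'
    rw [map_add] at h1
    unfold Cfsg.quadFormMinus at h1 h2
    have hz := hKz d.1 d.2
    simp only [Pi.add_apply, hKy d.1 d.2, hz.1, hz.2, zero_add] at h1
    have h3 : ∑ i : Fin n, (j d.1 (Sum.inl (Sum.inl i)) + j d' (Sum.inl (Sum.inl i))) * j d' (Sum.inl (Sum.inr i))
        = ∑ i : Fin n, j d.1 (Sum.inl (Sum.inl i)) * j d' (Sum.inl (Sum.inr i))
          + ∑ i : Fin n, j d' (Sum.inl (Sum.inl i)) * j d' (Sum.inl (Sum.inr i)) := by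
      rw [← Finset.sum_add_distrib]
      apply Finset.sum_congr rfl
      intro i _
      ring
    rw [h3] at h1
    have h4 : ∑ i : Fin n, j d.1 (Sum.inl (Sum.inl i)) * j d' (Sum.inl (Sum.inr i)) = 0 := by
      linear_combination h1 - h2
    exact h4
  have hdim := finrank_add_le_of_dot _ _ horth
  have h5 : finrank F (LinearMap.range S) = finrank F K := LinearMap.finrank_range_of_inj hS_inj
  have h6 := LinearMap.finrank_range_add_finrank_ker T
  rw [finrank_pi, Fintype.card_fin] at h6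
  have h7 : finrank F (LinearMap.ker T) = finrank F K := rfl
  omega

theorem result {F : Type*} [Field F] [Finite F] {m : ℕ} (hm : 1 ≤ m) (ζ : F) (hζ : ∀ t : F, t ^ 2 + t + ζ ≠ 0) (g : (Fin m ⊕ Fin m → F) ≃ₗ[F] ((Fin (m - 1) ⊕ Fin (m - 1)) ⊕ Fin 2 → F)) : ¬ (∀ v : Fin m ⊕ Fin m → F, Cfsg.quadFormMinus (m - 1) F 1 ζ (g v) = Cfsg.quadFormPlus m F v) :=
  aux (by omega) ζ hζ g

end Cfsg.Agent.S2617
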