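import Cfsg.Statements.S2622
import Mathlib

set_option autoImplicit false
open Cfsg

namespace Cfsg.Agent.S2622

open Module LinearMap.BilinForm

universe u v

theorem aux {F : Type u} [Field F] [Fintype F] [CharP F 2] :
    ∀ (n : ℕ) (V : Type v) [AddCommGroup V] [Module F V] [FiniteDimensional F V]
      (B : LinearMap.BilinForm F V), finrank F V = n → B.IsSymm → B.Nondegenerate →
      (∃ v : V, B v v ≠ 0) → ∃ b : Fin n → V, ∀ i j, B (b i) (b j) = if i = j then 1 else 0 := by
  intro n
  induction n with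
  | zero =>
    intro V _ _ _ B hV hS hB ⟨v, hv⟩
    exfalso
    have : Subsingleton V := finrank_zero_iff.1 hV
    apply hv
    rw [Subsingleton.elim v 0]
    simp
  | succ n ih =>
    intro V _ _ _ B hV hS hB ⟨v, hv⟩
    have hchar : ringChar F = 2 := ringChar.eq F 2
    have h11 : (1 : F) + 1 = 0 := CharTwo.add_self_eq_zero 1
    -- a vector of norm one
    obtain ⟨v₀, hv₀⟩ : ∃ v₀ : V, B v₀ v₀ = 1 := by
      obtain ⟨s, hs⟩ := FiniteField.isSquare_of_char_two hchar (B v v)
      have hs0 : s ≠ 0 := by
        rintro rfl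
        simp at hs
        exact hv hs
      refine ⟨s⁻¹ • v, ?_⟩
      simp only [map_smul, LinearMap.smul_apply, smul_eq_mul, hs]
      field_simp
    -- a vector of norm one whose orthogonal complement is not alternating
    obtain ⟨v₁, hv₁, hw⟩ : ∃ v₁ : V, B v₁ v₁ = 1 ∧
        (n = 0 ∨ ∃ w ∈ B.orthogonal (F ∙ v₁), B w w ≠ 0) := by
      by_cases hn : n = 0
      · exact ⟨v₀, hv₀, Or.inl hn⟩
      by_cases halt : ∃ w ∈ B.orthogonal (F ∙ v₀), B w w ≠ 0
      · exact ⟨v₀, hv₀, Or.inr halt⟩
      push Not at halt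
      set W₀ := B.orthogonal (F ∙ v₀) with hW₀
      have hv₀ne : v₀ ≠ 0 := by
        rintro rfl
        simp at hv₀
      have hdim : finrank F W₀ = n := by
        rw [hW₀, finrank_orthogonal hB, hV, finrank_span_singleton hv₀ne]
        rfl
      have hnd : (B.restrict W₀).Nondegenerate :=
        restrict_nondegenerate_orthogonal_spanSingleton B hB hS.isRefl (by rw [hv₀]; exact one_ne_zero)
      have hpos : 0 < finrank F W₀ := by omega
      obtain ⟨e, he⟩ := (finrank_pos_iff_exists_ne_zero (R := F) (M := W₀)).1 hpos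
      obtain ⟨f, hf⟩ : ∃ f : W₀, B.restrict W₀ e f ≠ 0 := by
        by_contra hcon
        push Not at hcon
        exact he (hnd.1 e hcon)
      have hef : B (e : V) (f : V) ≠ 0 := hf
      set f' : V := (B (e : V) (f : V))⁻¹ • (f : V) with hf'
      have hf'mem : f' ∈ W₀ := W₀.smul_mem _ f.2
      have hef' : B (e : V) f' = 1 := by
        rw [hf', map_smul, smul_eq_mul, inv_mul_cancel₀ hef]
      have hv₀e : B v₀ (e : V) = 0 :=
        (mem_orthogonal_iff.1 e.2) v₀ (Submodule.mem_span_singleton_self v₀)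
      have hv₀f : B v₀ f' = 0 :=
        (mem_orthogonal_iff.1 hf'mem) v₀ (Submodule.mem_span_singleton_self v₀)
      have hev₀ : B (e : V) v₀ = 0 := by rw [hS.eq]; exact hv₀e
      have hfv₀ : B f' v₀ = 0 := by rw [hS.eq]; exact hv₀f
      have hee : B (e : V) (e : V) = 0 := halt e e.2
      have hff : B f' f' = 0 := halt f' hf'mem
      refine ⟨v₀ + e, ?_, Or.inr ⟨v₀ + f', ?_, ?_⟩⟩
      · simp only [map_add, LinearMap.add_apply, hv₀, hv₀e, hev₀, hee]
        ring
      · rw [mem_orthogonal_iff]
        intro x hx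
        obtain ⟨c, rfl⟩ := Submodule.mem_span_singleton.1 hx
        simp only [map_add, LinearMap.add_apply, map_smul, LinearMap.smul_apply, smul_eq_mul,
          hv₀, hv₀f, hev₀, hef']
        linear_combination c * h11
      · simp only [map_add, LinearMap.add_apply, hv₀, hv₀f, hfv₀, hff]
        simp
    -- induct on the orthogonal complement
    set W := B.orthogonal (F ∙ v₁) with hW
    have hv₁ne : v₁ ≠ 0 := by
      rintro rfl
      simp at hv₁
    have hdim : finrank F W = n := by
      rw [hW, finrank_orthogonal hB, hV, finrank_span_singleton hv₁ne]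
      rfl
    have hnd : (B.restrict W).Nondegenerate :=
      restrict_nondegenerate_orthogonal_spanSingleton B hB hS.isRefl (by rw [hv₁]; exact one_ne_zero)
    have hb' : ∃ b' : Fin n → W, ∀ i j, B (b' i : V) (b' j : V) = if i = j then 1 else 0 := by
      rcases hw with hn | ⟨w, hwW, hww⟩
      · subst hn
        exact ⟨fun i => i.elim0, fun i => i.elim0⟩
      · exact ih W (B.restrict W) hdim (hS.restrict W) hnd ⟨⟨w, hwW⟩, hww⟩
    obtain ⟨b', hb'⟩ := hb'
    have horth : ∀ i, B v₁ (b' i : V) = 0 := fun i =>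
      (mem_orthogonal_iff.1 (b' i).2) v₁ (Submodule.mem_span_singleton_self v₁)
    refine ⟨Fin.cons v₁ (fun i => (b' i : V)), ?_⟩
    intro i j
    refine Fin.cases ?_ (fun i' => ?_) i <;> refine Fin.cases ?_ (fun j' => ?_) j
    · simp [hv₁]
    · simp only [Fin.cons_zero, Fin.cons_succ, horth]
      rw [if_neg (Fin.succ_ne_zero j').symm]
    · simp only [Fin.cons_zero, Fin.cons_succ]
      rw [hS.eq, horth, if_neg (Fin.succ_ne_zero i')]
    · simp only [Fin.cons_succ, hb', Fin.succ_inj]

theorem result {F V : Type*} [Field F] [Finite F] [CharP F 2] [AddCommGroup V] [Module F V] [FiniteDimensional F V] {n : ℕ} (hV : Module.finrank F V = n) (B : LinearMap.BilinForm F V) (hS : B.IsSymm) (hB : B.Nondegenerate) (hna : ∃ v : V, B v v ≠ 0) : ∃ b : Module.Basis (Fin n) F V, ∀ i j, B (b i) (b j) = if i = j then 1 else 0 := by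
  cases nonempty_fintype F
  obtain ⟨b, hb⟩ := aux n V B hV hS hB hna
  have hli : LinearIndependent F b := by
    apply linearIndependent_of_iIsOrtho (B := B)
    · rw [iIsOrtho_def]
      intro i j hij
      rw [hb, if_neg hij]
    · intro i
      rw [hb, if_pos rfl]
      exact one_ne_zero
  refine ⟨basisOfLinearIndependentOfCardEqFinrank' b hli (by rw [Fintype.card_fin, hV]), ?_⟩
  intro i j
  rw [coe_basisOfLinearIndependentOfCardEqFinrank']
  exact hb i j

end Cfsg.Agent.S2622
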