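import Cfsg.Statements.S2623
import Mathlib
import Cfsg.Agent.Lib.Helper52.QuadFin

set_option autoImplicit false
open Cfsg

namespace Cfsg.Agent.S2623

open Cfsg.Agent.Lib.Helper52

theorem result {F : Type*} [Field F] [Fintype F] (h2 : (2 : F) ≠ 0) {n : ℕ} (Q₁ Q₂ : QuadraticForm F (Fin n → F)) (h₁ : (QuadraticMap.polarBilin Q₁).Nondegenerate) (h₂ : (QuadraticMap.polarBilin Q₂).Nondegenerate) : (∃ g : (Fin n → F) ≃ₗ[F] (Fin n → F), ∀ v, Q₂ (g v) = Q₁ v) ↔ IsSquare ((Matrix.of (fun i j : Fin n => QuadraticMap.polar ⇑Q₁ (Pi.single i 1) (Pi.single j 1))).det * (Matrix.of (fun i j : Fin n => QuadraticMap.polar ⇑Q₂ (Pi.single i 1) (Pi.single j 1))).det) := by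
  constructor
  · rintro ⟨g, hg⟩
    let b' : Module.Basis (Fin n) F (Fin n → F) := (Pi.basisFun F (Fin n)).map g
    obtain ⟨d, hd, hdet⟩ := gram_det_basis (QuadraticMap.polarBilin Q₂) b'
    have hM : Matrix.of (fun i j : Fin n => QuadraticMap.polar ⇑Q₁ (Pi.single i 1) (Pi.single j 1)) =
        Matrix.of (fun i j : Fin n => QuadraticMap.polarBilin Q₂ (b' i) (b' j)) := by
      ext i j
      simp only [Matrix.of_apply, QuadraticMap.polarBilin_apply_apply, QuadraticMap.polar, b',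
        Module.Basis.map_apply, Pi.basisFun_apply]
      rw [← LinearEquiv.map_add, hg, hg, hg]
    have hM2 : Matrix.of (fun i j : Fin n => QuadraticMap.polar ⇑Q₂ (Pi.single i 1) (Pi.single j 1)) =
        LinearMap.BilinForm.toMatrix' (QuadraticMap.polarBilin Q₂) := by
      ext i j
      simp [LinearMap.BilinForm.toMatrix'_apply]
    rw [hM, hdet, hM2]
    exact ⟨d * (LinearMap.BilinForm.toMatrix' (QuadraticMap.polarBilin Q₂)).det, by ring⟩
  · intro h
    have hb : ∀ i, Pi.basisFun F (Fin n) i = Pi.single i 1 := fun i => Pi.basisFun_apply F (Fin n) i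
    have h' : IsSquare ((Matrix.of (fun i j : Fin n => QuadraticMap.polar ⇑Q₁ (Pi.basisFun F (Fin n) i) (Pi.basisFun F (Fin n) j))).det * (Matrix.of (fun i j : Fin n => QuadraticMap.polar ⇑Q₂ (Pi.basisFun F (Fin n) i) (Pi.basisFun F (Fin n) j))).det) := by
      simpa only [hb] using h
    obtain ⟨f⟩ := equivalent_of_gram h2 Q₁ Q₂ h₁ h₂ rfl (Pi.basisFun F (Fin n)) (Pi.basisFun F (Fin n)) h'
    exact ⟨f.toLinearEquiv, fun v => f.map_app v⟩

end Cfsg.Agent.S2623
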