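import Cfsg.Statements.S2624
import Mathlib
import Cfsg.Agent.Lib.Helper52.QuadFin

set_option autoImplicit false
open Cfsg

namespace Cfsg.Agent.S2624

open Cfsg.Agent.Lib.Helper52

theorem result {F : Type*} [Field F] [Fintype F] {n : ℕ} (hn : 2 ≤ n) (he : Even n) (Q : QuadraticForm F (Fin n → F)) (hQ : (QuadraticMap.polarBilin Q).Nondegenerate) (c : F) (hc : c ≠ 0) : ∃ g : (Fin n → F) ≃ₗ[F] (Fin n → F), ∀ v, Q (g v) = c * Q v := by
  by_cases h2 : (2 : F) = 0
  · haveI : CharP F 2 := CharTwo.of_one_ne_zero_of_two_eq_zero one_ne_zero h2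
    have hchar : ringChar F = 2 := ringChar.eq F 2
    obtain ⟨d, hd⟩ := FiniteField.isSquare_of_char_two hchar c
    have hd0 : d ≠ 0 := by
      rintro rfl
      simp at hd
      exact hc hd
    refine ⟨LinearEquiv.smulOfNeZero F (Fin n → F) d hd0, ?_⟩
    intro v
    show Q (d • v) = c * Q v
    rw [QuadraticMap.map_smul, hd, smul_eq_mul]
  · have hpol : ∀ x y, QuadraticMap.polarBilin (c • Q) x y = c * QuadraticMap.polarBilin Q x y := by
      intro x y
      simp only [QuadraticMap.polarBilin_apply_apply, QuadraticMap.polar, QuadraticMap.smul_apply,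
        smul_eq_mul]
      ring
    have h₁ : (QuadraticMap.polarBilin (c • Q)).Nondegenerate := by
      constructor
      · intro x hx
        apply hQ.1 x
        intro y
        have := hx y
        rw [hpol] at this
        exact (mul_eq_zero.1 this).resolve_left hc
      · intro y hy
        apply hQ.2 y
        intro x
        have := hy x
        rw [hpol] at this
        exact (mul_eq_zero.1 this).resolve_left hc
    have hM : Matrix.of (fun i j : Fin n => QuadraticMap.polar ⇑(c • Q) (Pi.basisFun F (Fin n) i) (Pi.basisFun F (Fin n) j)) =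
        c • Matrix.of (fun i j : Fin n => QuadraticMap.polar ⇑Q (Pi.basisFun F (Fin n) i) (Pi.basisFun F (Fin n) j)) := by
      ext i j
      simp only [Matrix.of_apply, Matrix.smul_apply, smul_eq_mul]
      exact hpol _ _
    have hsq : IsSquare ((Matrix.of (fun i j : Fin n => QuadraticMap.polar ⇑(c • Q) (Pi.basisFun F (Fin n) i) (Pi.basisFun F (Fin n) j))).det *
        (Matrix.of (fun i j : Fin n => QuadraticMap.polar ⇑Q (Pi.basisFun F (Fin n) i) (Pi.basisFun F (Fin n) j))).det) := by
      rw [hM, Matrix.det_smul, Fintype.card_fin]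
      obtain ⟨r, hr⟩ := he
      refine ⟨c ^ r * (Matrix.of (fun i j : Fin n => QuadraticMap.polar ⇑Q (Pi.basisFun F (Fin n) i) (Pi.basisFun F (Fin n) j))).det, ?_⟩
      have hcn : c ^ n = c ^ r * c ^ r := by rw [hr, pow_add]
      rw [hcn]
      ring
    obtain ⟨f⟩ := equivalent_of_gram h2 (c • Q) Q h₁ hQ rfl (Pi.basisFun F (Fin n)) (Pi.basisFun F (Fin n)) hsq
    refine ⟨f.toLinearEquiv, fun v => ?_⟩
    have := f.map_app v
    simpa using this

end Cfsg.Agent.S2624
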