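import Cfsg.Statements.S2625
import Mathlib

set_option autoImplicit false
open Cfsg

namespace Cfsg.Agent.S2625

open Matrix

theorem result {F : Type*} [Field F] [Fintype F] {n : ℕ} (hn : Odd n) (Q : QuadraticForm F (Fin n → F)) (hQ : (QuadraticMap.polarBilin Q).Nondegenerate) (g : (Fin n → F) ≃ₗ[F] (Fin n → F)) (c : F) (hg : ∀ v, Q (g v) = c * Q v) : IsSquare c := by
  classical
  by_cases hc : c = 0
  · exact ⟨0, by simp [hc]⟩
  set B : LinearMap.BilinForm F (Fin n → F) := QuadraticMap.polarBilin Q with hB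
  have hdet : (LinearMap.BilinForm.toMatrix' B).det ≠ 0 := by
    rw [← Matrix.nondegenerate_iff_det_ne_zero]
    exact LinearMap.BilinForm.nondegenerate_toMatrix'_iff.2 hQ
  have hcomp : LinearMap.BilinForm.comp B (g : (Fin n → F) →ₗ[F] (Fin n → F)) (g : (Fin n → F) →ₗ[F] (Fin n → F)) = c • B := by
    refine LinearMap.ext₂ fun u v => ?_
    simp only [LinearMap.BilinForm.comp_apply, LinearEquiv.coe_coe, LinearMap.smul_apply, hB,
      QuadraticMap.polarBilin_apply_apply, QuadraticMap.polar, smul_eq_mul]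
    rw [← map_add, hg, hg, hg]
    ring
  have hmat := congrArg LinearMap.BilinForm.toMatrix' hcomp
  rw [LinearMap.BilinForm.toMatrix'_comp] at hmat
  have hsm : LinearMap.BilinForm.toMatrix' (c • B) = c • LinearMap.BilinForm.toMatrix' B := by
    simp
  rw [hsm] at hmat
  have hd := congrArg Matrix.det hmat
  rw [Matrix.det_mul, Matrix.det_mul, Matrix.det_transpose, Matrix.det_smul, Fintype.card_fin] at hd
  set d := (LinearMap.toMatrix' (g : (Fin n → F) →ₗ[F] (Fin n → F))).det with hd'
  set D := (LinearMap.BilinForm.toMatrix' B).det with hD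
  have h1 : c ^ n = d ^ 2 := by
    have : d * D * d = c ^ n * D := hd
    have h2 : (d ^ 2 - c ^ n) * D = 0 := by rw [sub_mul, ← this]; ring
    rcases mul_eq_zero.1 h2 with h3 | h3
    · exact (sub_eq_zero.1 h3).symm
    · exact absurd h3 hdet
  obtain ⟨k, hk⟩ := hn
  refine ⟨d / c ^ k, ?_⟩
  have hck : c ^ k ≠ 0 := pow_ne_zero _ hc
  field_simp
  rw [← h1, hk]
  ring

end Cfsg.Agent.S2625
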