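import Cfsg.Statements.S2626
import Mathlib

set_option autoImplicit false
open Cfsg

namespace Cfsg.Agent.S2626

open Matrix

/-- block diagonal embedding of general linear groups -/
def blockGL {F : Type*} [Field F] (k l : ℕ) :
    GL (Fin k) F × GL (Fin l) F →* GL (Fin k ⊕ Fin l) F where
  toFun p :=
    { val := Matrix.fromBlocks (p.1 : Matrix (Fin k) (Fin k) F) 0 0 (p.2 : Matrix (Fin l) (Fin l) F)
      inv := Matrix.fromBlocks ((p.1⁻¹ : GL (Fin k) F) : Matrix (Fin k) (Fin k) F) 0 0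
        ((p.2⁻¹ : GL (Fin l) F) : Matrix (Fin l) (Fin l) F)
      val_inv := by
        rw [Matrix.fromBlocks_multiply]
        simp [Matrix.fromBlocks_one]
      inv_val := by
        rw [Matrix.fromBlocks_multiply]
        simp [Matrix.fromBlocks_one] }
  map_one' := by
    ext1
    simp [Matrix.fromBlocks_one]
  map_mul' p q := by
    ext1
    simp [Matrix.fromBlocks_multiply]

theorem blockGL_val {F : Type*} [Field F] (k l : ℕ) (p : GL (Fin k) F × GL (Fin l) F) :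
    ((blockGL k l p : GL (Fin k ⊕ Fin l) F) : Matrix (Fin k ⊕ Fin l) (Fin k ⊕ Fin l) F) =
      Matrix.fromBlocks (p.1 : Matrix (Fin k) (Fin k) F) 0 0 (p.2 : Matrix (Fin l) (Fin l) F) := rfl

theorem mem_iso {ι : Type} [Fintype ι] [DecidableEq ι] {F : Type*} [Field F] (Q : (ι → F) → F)
    (g : GL ι F) : g ∈ Cfsg.isometryGroup F Q ↔ ∀ u : ι → F, Q ((g : Matrix ι ι F) *ᵥ u) = Q u := by
  constructor
  · intro h u
    exact h u u
  · intro h u _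
    exact h u

theorem block_mem {F : Type*} [Field F] {k l : ℕ} (Q₁ : (Fin k → F) → F) (Q₂ : (Fin l → F) → F)
    (p : GL (Fin k) F × GL (Fin l) F) (h1 : p.1 ∈ Cfsg.isometryGroup F Q₁)
    (h2 : p.2 ∈ Cfsg.isometryGroup F Q₂) :
    blockGL k l p ∈ Cfsg.isometryGroup F
      (fun v : Fin k ⊕ Fin l → F => Q₁ (v ∘ Sum.inl) + Q₂ (v ∘ Sum.inr)) := by
  rw [mem_iso] at h1 h2 ⊢
  intro u
  have hu : u = Sum.elim (u ∘ Sum.inl) (u ∘ Sum.inr) := by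
    ext x; cases x <;> rfl
  rw [blockGL_val]
  have e1 : (Matrix.fromBlocks (p.1 : Matrix (Fin k) (Fin k) F) 0 0 (p.2 : Matrix (Fin l) (Fin l) F) *ᵥ u) ∘ Sum.inl
      = (p.1 : Matrix (Fin k) (Fin k) F) *ᵥ (u ∘ Sum.inl) := by
    conv_lhs => rw [hu, Matrix.fromBlocks_mulVec]
    ext x
    simp
  have e2 : (Matrix.fromBlocks (p.1 : Matrix (Fin k) (Fin k) F) 0 0 (p.2 : Matrix (Fin l) (Fin l) F) *ᵥ u) ∘ Sum.inr
      = (p.2 : Matrix (Fin l) (Fin l) F) *ᵥ (u ∘ Sum.inr) := by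
    conv_lhs => rw [hu, Matrix.fromBlocks_mulVec]
    ext x
    simp
  show Q₁ _ + Q₂ _ = Q₁ _ + Q₂ _
  rw [e1, e2, h1, h2]

/-- the block-diagonal hom on isometry groups -/
def blockIso {F : Type*} [Field F] {k l : ℕ} (Q₁ : (Fin k → F) → F) (Q₂ : (Fin l → F) → F) :
    ↥(Cfsg.isometryGroup F Q₁) × ↥(Cfsg.isometryGroup F Q₂) →*
      ↥(Cfsg.isometryGroup F (fun v : Fin k ⊕ Fin l → F => Q₁ (v ∘ Sum.inl) + Q₂ (v ∘ Sum.inr))) where
  toFun p := ⟨blockGL k l (p.1.1, p.2.1), block_mem Q₁ Q₂ (p.1.1, p.2.1) p.1.2 p.2.2⟩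
  map_one' := by
    apply Subtype.ext
    exact (blockGL k l).map_one
  map_mul' p q := by
    apply Subtype.ext
    exact (blockGL k l).map_mul (p.1.1, p.2.1) (q.1.1, q.2.1)

theorem result {F : Type*} [Field F] [Fintype F] {k l : ℕ} (Q₁ : QuadraticForm F (Fin k → F)) (Q₂ : QuadraticForm F (Fin l → F)) (h₁ : (QuadraticMap.polarBilin Q₁).Nondegenerate) (h₂ : (QuadraticMap.polarBilin Q₂).Nondegenerate) (g₁ : ↥(Cfsg.isometryGroup F ⇑Q₁)) (g₂ : ↥(Cfsg.isometryGroup F ⇑Q₂)) (hg₁ : g₁ ∈ Cfsg.Omega F ⇑Q₁) (hg₂ : g₂ ∈ Cfsg.Omega F ⇑Q₂) : ∃ g : ↥(Cfsg.isometryGroup F (fun v : Fin k ⊕ Fin l → F => Q₁ (v ∘ Sum.inl) + Q₂ (v ∘ Sum.inr))), g ∈ Cfsg.Omega F (fun v : Fin k ⊕ Fin l → F => Q₁ (v ∘ Sum.inl) + Q₂ (v ∘ Sum.inr)) ∧ ((g : Matrix.GeneralLinearGroup (Fin k ⊕ Fin l) F) : Matrix (Fin k ⊕ Fin l) (Fin k ⊕ Fin l) F) = Matrix.fromBlocks ((g₁ : Matrix.GeneralLinearGroup (Fin k) F) : Matrix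 (Fin k) (Fin k) F) 0 0 ((g₂ : Matrix.GeneralLinearGroup (Fin l) F) : Matrix (Fin l) (Fin l) F) := by
  refine ⟨blockIso (⇑Q₁) (⇑Q₂) (g₁, g₂), ?_, rfl⟩
  have hmem : (g₁, g₂) ∈ commutator (↥(Cfsg.isometryGroup F ⇑Q₁) × ↥(Cfsg.isometryGroup F ⇑Q₂)) := by
    rw [commutator_def, ← Subgroup.top_prod_top, Subgroup.commutator_prod_prod]
    exact ⟨by simpa [commutator_def] using hg₁, by simpa [commutator_def] using hg₂⟩
  have hle : (commutator (↥(Cfsg.isometryGroup F ⇑Q₁) × ↥(Cfsg.isometryGroup F ⇑Q₂))).map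
      (blockIso (⇑Q₁) (⇑Q₂)) ≤ commutator _ := by
    rw [commutator_def, Subgroup.map_commutator, commutator_def]
    exact Subgroup.commutator_mono le_top le_top
  exact hle (Subgroup.mem_map_of_mem _ hmem)

end Cfsg.Agent.S2626
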