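import Cfsg.Statements.S2627
import Mathlib
import Cfsg.Agent.S2626
import Cfsg.Agent.Lib.Helper52.OmegaGeom
import Cfsg.Agent.Lib.Helper51.DicksonTwo

set_option autoImplicit false
open Cfsg

namespace Cfsg.Agent.S2627

open Matrix QuadraticMap Cfsg.Agent.Lib.Helper51

variable {F : Type*} [Field F] {k l : ℕ}

/-- the quadratic form `Q₁ ⊕ Q₂` -/
noncomputable def dsum (Q₁ : QuadraticForm F (Fin k → F)) (Q₂ : QuadraticForm F (Fin l → F)) :
    QuadraticForm F (Fin k ⊕ Fin l → F) :=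
  Q₁.comp (LinearMap.funLeft F F Sum.inl) + Q₂.comp (LinearMap.funLeft F F Sum.inr)

theorem dsum_apply (Q₁ : QuadraticForm F (Fin k → F)) (Q₂ : QuadraticForm F (Fin l → F))
    (v : Fin k ⊕ Fin l → F) : dsum Q₁ Q₂ v = Q₁ (v ∘ Sum.inl) + Q₂ (v ∘ Sum.inr) := rfl

theorem polar_dsum (Q₁ : QuadraticForm F (Fin k → F)) (Q₂ : QuadraticForm F (Fin l → F))
    (x y : Fin k ⊕ Fin l → F) :
    polar ⇑(dsum Q₁ Q₂) x y = polar ⇑Q₁ (x ∘ Sum.inl) (y ∘ Sum.inl) +
      polar ⇑Q₂ (x ∘ Sum.inr) (y ∘ Sum.inr) := by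
  simp only [polar, dsum_apply]
  have e1 : (x + y) ∘ Sum.inl = x ∘ Sum.inl + y ∘ Sum.inl := rfl
  have e2 : (x + y) ∘ Sum.inr = x ∘ Sum.inr + y ∘ Sum.inr := rfl
  rw [e1, e2]
  ring

theorem dsum_nondegenerate (Q₁ : QuadraticForm F (Fin k → F)) (Q₂ : QuadraticForm F (Fin l → F))
    (h₁ : (polarBilin Q₁).Nondegenerate) (h₂ : (polarBilin Q₂).Nondegenerate) :
    (polarBilin (dsum Q₁ Q₂)).Nondegenerate := by
  have hl : ∀ x : Fin k ⊕ Fin l → F, (∀ y, polar ⇑(dsum Q₁ Q₂) x y = 0) → x = 0 := by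
    intro x hx
    have h1 : x ∘ Sum.inl = 0 := by
      apply h₁.1
      intro w
      have := hx (Sum.elim w 0)
      rw [polar_dsum] at this
      have e : (Sum.elim w (0 : Fin l → F)) ∘ Sum.inr = 0 := rfl
      rw [e] at this
      simpa [polarBilin_apply_apply] using this
    have h3 : x ∘ Sum.inr = 0 := by
      apply h₂.1
      intro w
      have := hx (Sum.elim 0 w)
      rw [polar_dsum] at this
      have e : (Sum.elim (0 : Fin k → F) w) ∘ Sum.inl = 0 := rfl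
      rw [e] at this
      simpa [polarBilin_apply_apply] using this
    funext i
    rcases i with i | i
    · exact congrFun h1 i
    · exact congrFun h3 i
  refine ⟨fun x hx => hl x hx, fun y hy => hl y (fun x => ?_)⟩
  have := hy x
  rw [polarBilin_apply_apply] at this
  rw [polar_comm]
  exact this

/-- extension of a vector by zero -/
def ext0 (l : ℕ) (v : Fin k → F) : Fin k ⊕ Fin l → F := Sum.elim v 0

theorem dsum_ext0 (Q₁ : QuadraticForm F (Fin k → F)) (Q₂ : QuadraticForm F (Fin l → F))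
    (v : Fin k → F) : dsum Q₁ Q₂ (ext0 l v) = Q₁ v := by
  rw [dsum_apply]
  show Q₁ v + Q₂ 0 = Q₁ v
  rw [map_zero, add_zero]

theorem refl_ext0 (Q₁ : QuadraticForm F (Fin k → F)) (Q₂ : QuadraticForm F (Fin l → F))
    (v : Fin k → F) :
    Cfsg.reflectionMatrix ⇑(dsum Q₁ Q₂) (ext0 l v)
      = Matrix.fromBlocks (Cfsg.reflectionMatrix ⇑Q₁ v) 0 0 1 := by
  apply matrix_ext_mulVec
  intro x
  rw [reflectionMatrix_mulVec, Matrix.fromBlocks_mulVec, reflectionMatrix_mulVec, dsum_ext0,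
    polar_dsum]
  have e1 : (ext0 l v : Fin k ⊕ Fin l → F) ∘ Sum.inl = v := rfl
  have e2 : (ext0 l v : Fin k ⊕ Fin l → F) ∘ Sum.inr = 0 := rfl
  rw [e1, e2]
  have e3 : polar ⇑Q₂ 0 (x ∘ Sum.inr) = 0 := by simp [polar]
  rw [e3, add_zero]
  funext i
  rcases i with i | i
  · simp [ext0]
  · simp [ext0]

theorem prod_refl_ext0 (Q₁ : QuadraticForm F (Fin k → F)) (Q₂ : QuadraticForm F (Fin l → F))
    (vs : List (Fin k → F)) :
    ((vs.map (ext0 l)).map (fun w => Cfsg.reflectionMatrix ⇑(dsum Q₁ Q₂) w)).prod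
      = Matrix.fromBlocks (vs.map (fun v => Cfsg.reflectionMatrix ⇑Q₁ v)).prod 0 0 1 := by
  induction vs with
  | nil => simp [Matrix.fromBlocks_one]
  | cons v vs ih =>
    rw [List.map_cons, List.map_cons, List.prod_cons, ih, refl_ext0, List.map_cons,
      List.prod_cons, Matrix.fromBlocks_multiply]
    simp

theorem key [Fintype F] (h : Fintype.card F ≠ 2 ∨ (k ≠ 4 ∧ k + l ≠ 4))
    (Q₁ : QuadraticForm F (Fin k → F)) (Q₂ : QuadraticForm F (Fin l → F))
    (h₁ : (polarBilin Q₁).Nondegenerate) (h₂ : (polarBilin Q₂).Nondegenerate)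
    (g₁ : ↥(Cfsg.isometryGroup F ⇑Q₁)) (g : ↥(Cfsg.isometryGroup F ⇑(dsum Q₁ Q₂)))
    (hg : g ∈ commutator ↥(Cfsg.isometryGroup F ⇑(dsum Q₁ Q₂)))
    (hmat : ((g : Matrix.GeneralLinearGroup (Fin k ⊕ Fin l) F) :
        Matrix (Fin k ⊕ Fin l) (Fin k ⊕ Fin l) F)
      = Matrix.fromBlocks ((g₁ : Matrix.GeneralLinearGroup (Fin k) F) :
        Matrix (Fin k) (Fin k) F) 0 0 1) :
    g₁ ∈ commutator ↥(Cfsg.isometryGroup F ⇑Q₁) := by
  classical
  have hc1 : Fintype.card F ≠ 2 ∨ Fintype.card (Fin k) ≠ 4 := by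
    rcases h with h | h
    · exact Or.inl h
    · right; rw [Fintype.card_fin]; exact h.1
  have hcS : Fintype.card F ≠ 2 ∨ Fintype.card (Fin k ⊕ Fin l) ≠ 4 := by
    rcases h with h | h
    · exact Or.inl h
    · right; rw [Fintype.card_sum, Fintype.card_fin, Fintype.card_fin]; exact h.2
  have hQS := dsum_nondegenerate Q₁ Q₂ h₁ h₂
  obtain ⟨vs, hvs, rfl⟩ := Cfsg.Agent.Lib.Helper52.exists_reflList Q₁ h₁ hc1 g₁
  have hvs' : ∀ w ∈ vs.map (ext0 l), dsum Q₁ Q₂ w ≠ 0 := by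
    intro w hw
    obtain ⟨v, hv, rfl⟩ := List.mem_map.mp hw
    rw [dsum_ext0]
    exact hvs v hv
  have hgeq : g = reflList (dsum Q₁ Q₂) (vs.map (ext0 l)) hvs' := by
    apply isometry_ext
    rw [hmat, coe_reflList, coe_reflList, prod_refl_ext0]
  rw [hgeq] at hg
  by_cases h2 : (2 : F) = 0
  · have hd := (mem_commutator_iff_dicksonHom_two (dsum Q₁ Q₂) h2 hQS hcS _).mp hg
    rw [dicksonHom_reflList, List.length_map] at hd
    have hev : Even vs.length := by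
      by_contra hodd
      rw [Nat.not_even_iff_odd] at hodd
      rw [Odd.neg_one_pow hodd] at hd
      exact absurd hd (by decide)
    exact Cfsg.Agent.Lib.Helper52.reflList_mem_commutator_two Q₁ h2 h₁ hc1 vs hvs hev
  · rw [reflList_mem_commutator_iff _ h2] at hg ⊢
    obtain ⟨hev, hsq⟩ := hg
    rw [List.length_map] at hev
    refine ⟨hev, ?_⟩
    have e : ((vs.map (ext0 l)).map (fun w => dsum Q₁ Q₂ w)) = vs.map (fun v => Q₁ v) := by
      rw [List.map_map]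
      apply List.map_congr_left
      intro v _
      exact dsum_ext0 Q₁ Q₂ v
    rwa [e] at hsq

/-- For an orthogonal direct sum Q = Q₁ ⊕ Q₂ of quadratic forms with non-degenerate polar forms over a finite field, an isometry g₁ of Q₁ extended by the identity on the second summand lies in Ω(Q) (the commutator subgroup of the orthogonal group of Q) if and only if g₁ lies in Ω(Q₁). (Excluded: the field of two elements when the first summand or the whole space has dimension 4, where the commutator subgroup of O⁺₄(2) is smaller than the group usually called Ω.) -/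
theorem result {F : Type*} [Field F] [Fintype F] {k l : ℕ} (h : Fintype.card F ≠ 2 ∨ (k ≠ 4 ∧ k + l ≠ 4)) (Q₁ : QuadraticForm F (Fin k → F)) (Q₂ : QuadraticForm F (Fin l → F)) (h₁ : (QuadraticMap.polarBilin Q₁).Nondegenerate) (h₂ : (QuadraticMap.polarBilin Q₂).Nondegenerate) (g₁ : ↥(Cfsg.isometryGroup F ⇑Q₁)) : (∃ g : ↥(Cfsg.isometryGroup F (fun v : Fin k ⊕ Fin l → F => Q₁ (v ∘ Sum.inl) + Q₂ (v ∘ Sum.inr))), g ∈ Cfsg.Omega F (fun v : Fin k ⊕ Fin l → F => Q₁ (v ∘ Sum.inl) + Q₂ (v ∘ Sum.inr)) ∧ ((g : Matrix.GeneralLinearGroup (Fin k ⊕ Fin l) F) : Matrix (Fin k ⊕ Fin l) (Fin k ⊕ Fin l) F) = Matrix.fromBlocks ((g₁ : Matrix.GeneralLinearGroup (Fin k) F) : Matrix (Fin k) (Fin k) F) 0 0 1) ↔ g₁ ∈ Cfsg.Omega F ⇑Q₁ := by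
  constructor
  · rintro ⟨g, hg, hmat⟩
    exact key h Q₁ Q₂ h₁ h₂ g₁ g hg hmat
  · intro hg₁
    obtain ⟨g, hg, hmat⟩ := Cfsg.Agent.S2626.result Q₁ Q₂ h₁ h₂ g₁ 1 hg₁ (Subgroup.one_mem _)
    exact ⟨g, hg, hmat⟩

end Cfsg.Agent.S2627
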