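import Cfsg.Statements.S2628
import Cfsg.Agent.S2626
import Cfsg.Agent.Lib.Helper52.ReflGen

set_option autoImplicit false
open Cfsg

namespace Cfsg.Agent.S2628

open Matrix Cfsg.Agent.Lib.Helper52
open scoped commutatorElement

/-- the quadratic form `Q ⊕ Q` -/
noncomputable def dsum {F : Type*} [Field F] {k : ℕ} (Q : QuadraticForm F (Fin k → F)) :
    QuadraticForm F (Fin k ⊕ Fin k → F) :=
  Q.comp (LinearMap.funLeft F F Sum.inl) + Q.comp (LinearMap.funLeft F F Sum.inr)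

theorem dsum_apply {F : Type*} [Field F] {k : ℕ} (Q : QuadraticForm F (Fin k → F))
    (v : Fin k ⊕ Fin k → F) : dsum Q v = Q (v ∘ Sum.inl) + Q (v ∘ Sum.inr) := rfl

theorem polar_dsum {F : Type*} [Field F] {k : ℕ} (Q : QuadraticForm F (Fin k → F))
    (x y : Fin k ⊕ Fin k → F) :
    QuadraticMap.polar (dsum Q) x y = QuadraticMap.polar Q (x ∘ Sum.inl) (y ∘ Sum.inl) +
      QuadraticMap.polar Q (x ∘ Sum.inr) (y ∘ Sum.inr) := by
  simp only [QuadraticMap.polar, dsum_apply]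
  have e1 : (x + y) ∘ Sum.inl = x ∘ Sum.inl + y ∘ Sum.inl := rfl
  have e2 : (x + y) ∘ Sum.inr = x ∘ Sum.inr + y ∘ Sum.inr := rfl
  rw [e1, e2]
  ring

theorem dsum_nondegenerate {F : Type*} [Field F] {k : ℕ} (Q : QuadraticForm F (Fin k → F))
    (hQ : (QuadraticMap.polarBilin Q).Nondegenerate) :
    (QuadraticMap.polarBilin (dsum Q)).Nondegenerate := by
  have hl : ∀ x : Fin k ⊕ Fin k → F, (∀ y, QuadraticMap.polar (dsum Q) x y = 0) → x = 0 := by
    intro x hx
    have h1 : x ∘ Sum.inl = 0 := by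
      apply hQ.1
      intro w
      have := hx (Sum.elim w 0)
      rw [polar_dsum] at this
      have e : (Sum.elim w (0 : Fin k → F)) ∘ Sum.inr = 0 := rfl
      rw [e] at this
      simpa [QuadraticMap.polarBilin_apply_apply] using this
    have h3 : x ∘ Sum.inr = 0 := by
      apply hQ.1
      intro w
      have := hx (Sum.elim 0 w)
      rw [polar_dsum] at this
      have e : (Sum.elim (0 : Fin k → F) w) ∘ Sum.inl = 0 := rfl
      rw [e] at this
      simpa [QuadraticMap.polarBilin_apply_apply] using this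
    funext i
    rcases i with i | i
    · exact congrFun h1 i
    · exact congrFun h3 i
  refine ⟨fun x hx => hl x hx, fun y hy => hl y (fun x => ?_)⟩
  have := hy x
  rw [QuadraticMap.polarBilin_apply_apply] at this
  rw [QuadraticMap.polar_comm]
  exact this

/-- the swap of the two summands -/
def swapGL (F : Type*) [Field F] (k : ℕ) : GL (Fin k ⊕ Fin k) F where
  val := Matrix.fromBlocks 0 1 1 0
  inv := Matrix.fromBlocks 0 1 1 0
  val_inv := by
    rw [Matrix.fromBlocks_multiply]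
    simp [Matrix.fromBlocks_one]
  inv_val := by
    rw [Matrix.fromBlocks_multiply]
    simp [Matrix.fromBlocks_one]

theorem swap_mem {F : Type*} [Field F] {k : ℕ} (Q : (Fin k → F) → F) :
    swapGL F k ∈ Cfsg.isometryGroup F
      (fun v : Fin k ⊕ Fin k → F => Q (v ∘ Sum.inl) + Q (v ∘ Sum.inr)) := by
  rw [Cfsg.Agent.S2626.mem_iso]
  intro u
  have hu : u = Sum.elim (u ∘ Sum.inl) (u ∘ Sum.inr) := by
    ext x; cases x <;> rfl
  have e1 : ((Matrix.fromBlocks 0 1 1 0 : Matrix (Fin k ⊕ Fin k) (Fin k ⊕ Fin k) F) *ᵥ u) ∘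
      Sum.inl = u ∘ Sum.inr := by
    conv_lhs => rw [hu, Matrix.fromBlocks_mulVec]
    ext x
    simp
  have e2 : ((Matrix.fromBlocks 0 1 1 0 : Matrix (Fin k ⊕ Fin k) (Fin k ⊕ Fin k) F) *ᵥ u) ∘
      Sum.inr = u ∘ Sum.inl := by
    conv_lhs => rw [hu, Matrix.fromBlocks_mulVec]
    ext x
    simp
  show Q _ + Q _ = Q _ + Q _
  rw [show ((swapGL F k : GL (Fin k ⊕ Fin k) F) : Matrix (Fin k ⊕ Fin k) (Fin k ⊕ Fin k) F) =
    Matrix.fromBlocks 0 1 1 0 from rfl, e1, e2, add_comm]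

/-- For the orthogonal direct sum Q ⊕ Q of two copies of a quadratic form Q with non-degenerate polar form on F^k (F finite), every isometry g of Q acting diagonally, diag(g, g), lies in Ω(Q ⊕ Q), the commutator subgroup of the orthogonal group of Q ⊕ Q. (Excluded: k = 2 over the field of two elements, where Q ⊕ Q is the hyperbolic 4-space whose orthogonal group's commutator subgroup is smaller than the group usually called Ω.) -/
theorem result {F : Type*} [Field F] [Fintype F] {k : ℕ} (h : Fintype.card F ≠ 2 ∨ k ≠ 2) (Q : QuadraticForm F (Fin k → F)) (hQ : (QuadraticMap.polarBilin Q).Nondegenerate) (g : ↥(Cfsg.isometryGroup F ⇑Q)) : ∃ x : ↥(Cfsg.isometryGroup F (fun v : Fin k ⊕ Fin k → F => Q (v ∘ Sum.inl) + Q (v ∘ Sum.inr))), x ∈ Cfsg.Omega F (fun v : Fin k ⊕ Fin k → F => Q (v ∘ Sum.inl) + Q (v ∘ Sum.inr)) ∧ ((x : Matrix.GeneralLinearGroup (Fin k ⊕ Fin k) F) : Matrix (Fin k ⊕ Fin k) (Fin k ⊕ Fin k) F) = Matrix.fromBlocks ((g : Matrix.GeneralLinearGroup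 (Fin k) F) : Matrix (Fin k) (Fin k) F) 0 0 ((g : Matrix.GeneralLinearGroup (Fin k) F) : Matrix (Fin k) (Fin k) F) := by
  classical
  have hcard : Fintype.card F ≠ 2 ∨ Fintype.card (Fin k ⊕ Fin k) ≠ 4 := by
    rcases h with h | h
    · exact Or.inl h
    · right
      simp only [Fintype.card_sum, Fintype.card_fin]
      omega
  have hgen := closure_reflSet_eq_top_of_finite (dsum Q) (dsum_nondegenerate Q hQ) hcard
  have key : ∀ (Q' : (Fin k ⊕ Fin k → F) → F), Q' = ⇑(dsum Q) →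
      ∀ y : ↥(Cfsg.isometryGroup F Q'), y * y ∈ commutator ↥(Cfsg.isometryGroup F Q') := by
    intro Q' hQ'
    subst hQ'
    exact sq_mem_commutator (dsum Q) hgen
  have hsq := key (fun v : Fin k ⊕ Fin k → F => Q (v ∘ Sum.inl) + Q (v ∘ Sum.inr)) rfl
  set B := Cfsg.Agent.S2626.blockIso (⇑Q) (⇑Q) with hBdef
  let s : ↥(Cfsg.isometryGroup F (fun v : Fin k ⊕ Fin k → F => Q (v ∘ Sum.inl) + Q (v ∘ Sum.inr))) :=
    ⟨swapGL F k, swap_mem (⇑Q)⟩
  refine ⟨B (g, g), ?_, rfl⟩
  -- conjugation by the swap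
  have hconj : s * B (g, 1) * s⁻¹ = B (1, g) := by
    apply Subtype.ext
    apply Units.ext
    have hs : ((s⁻¹ : ↥(Cfsg.isometryGroup F
        (fun v : Fin k ⊕ Fin k → F => Q (v ∘ Sum.inl) + Q (v ∘ Sum.inr)))) :
        GL (Fin k ⊕ Fin k) F) = swapGL F k := rfl
    show (Matrix.fromBlocks 0 1 1 0 : Matrix (Fin k ⊕ Fin k) (Fin k ⊕ Fin k) F) *
      Matrix.fromBlocks ((g : GL (Fin k) F) : Matrix (Fin k) (Fin k) F) 0 0
        (((1 : ↥(Cfsg.isometryGroup F ⇑Q)) : GL (Fin k) F) : Matrix (Fin k) (Fin k) F) *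
      Matrix.fromBlocks 0 1 1 0 =
      Matrix.fromBlocks (((1 : ↥(Cfsg.isometryGroup F ⇑Q)) : GL (Fin k) F) :
        Matrix (Fin k) (Fin k) F) 0 0 ((g : GL (Fin k) F) : Matrix (Fin k) (Fin k) F)
    rw [Matrix.fromBlocks_multiply, Matrix.fromBlocks_multiply]
    simp
  have h1 : B (g, g) = ⁅B (g, 1), s⁆ * (B (1, g) * B (1, g)) := by
    rw [commutatorElement_def]
    have h3 : B (g, 1) * s * (B (g, 1))⁻¹ * s⁻¹ = B (g, 1) * (B (1, g))⁻¹ := by
      rw [← hconj]
      group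
    rw [h3, mul_assoc, inv_mul_cancel_left, ← map_mul]
    simp
  show B (g, g) ∈ commutator _
  rw [h1]
  refine Subgroup.mul_mem _ ?_ (hsq _)
  exact Subgroup.commutator_mem_commutator (Subgroup.mem_top _) (Subgroup.mem_top _)

end Cfsg.Agent.S2628
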