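import Cfsg.Statements.S2629
import Mathlib
import Cfsg.Agent.Lib.Helper52.OmegaPlus

set_option autoImplicit false
open Cfsg

namespace Cfsg.Agent.S2629

open Cfsg.Agent.Lib.Helper52 Cfsg.Agent.Lib.Helper51

/-- For the hyperbolic form Σ x_i y_i on F^(2m) over a finite field of odd order (m ≥ 1), an isometry g preserves the class of the maximal totally singular subspace U₀ = {y = 0} (that is, m − dim(U₀ ∩ gU₀) is even) if and only if det g = 1: the stabiliser of each of the two classes of maximal totally singular subspaces is SO. -/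
theorem result {F : Type*} [Field F] [Fintype F] (h2 : (2 : F) ≠ 0) {m : ℕ} (hm : 1 ≤ m) (g : ↥(Cfsg.isometryGroup F (Cfsg.quadFormPlus m F))) : Even (m - Module.finrank F ↥(LinearMap.ker (LinearMap.funLeft F F (Sum.inr : Fin m → Fin m ⊕ Fin m)) ⊓ (LinearMap.ker (LinearMap.funLeft F F (Sum.inr : Fin m → Fin m ⊕ Fin m))).map (Matrix.mulVecLin ((g : Matrix.GeneralLinearGroup (Fin m ⊕ Fin m) F) : Matrix (Fin m ⊕ Fin m) (Fin m ⊕ Fin m) F)))) ↔ ((g : Matrix.GeneralLinearGroup (Fin m ⊕ Fin m) F) : Matrix (Fin m ⊕ Fin m) (Fin m ⊕ Fin m) F).det = 1 := by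
  classical
  revert g
  rw [← coe_QPlus m F]
  intro g
  have hcard : Fintype.card F ≠ 2 ∨ Fintype.card (Fin m ⊕ Fin m) ≠ 4 := by
    left
    intro hc
    apply h2
    have : ((Fintype.card F : ℕ) : F) = 0 := Nat.cast_card_eq_zero F
    rw [hc] at this
    exact_mod_cast this
  obtain ⟨vs, hvs, rfl⟩ := exists_reflList (QPlus m F) QPlus_nondegenerate hcard g
  have hpar := parity_reflList vs hvs (Cfsg.Agent.S0832.X0 m F) Cfsg.Agent.S0832.X0_finrank
    (fun w hw => by rw [QPlus_eq]; exact Cfsg.Agent.S0832.X0_Q w hw)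
  unfold Cfsg.Agent.S0832.X0 at hpar
  rw [hpar, det_reflList]
  constructor
  · intro hev
    exact Even.neg_one_pow hev
  · intro h
    by_contra hodd
    rw [Nat.not_even_iff_odd] at hodd
    rw [Odd.neg_one_pow hodd] at h
    apply h2
    linear_combination (-1 : F) * h

end Cfsg.Agent.S2629
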