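import Cfsg.Statements.S2630
import Mathlib
import Cfsg.Agent.Lib.Helper52.OmegaPlus

set_option autoImplicit false
open Cfsg

namespace Cfsg.Agent.S2630

open Cfsg.Agent.Lib.Helper52 Cfsg.Agent.Lib.Helper51

/-- For the hyperbolic form Σ x_i y_i on F^(2m) over a finite field of characteristic two (m ≥ 1, excluding m = 2 over the field of two elements), an isometry g preserves the class of the maximal totally singular subspace U₀ = {y = 0} (m − dim(U₀ ∩ gU₀) even) if and only if g lies in Ω (the commutator subgroup of the orthogonal group): the stabiliser of each class is Ω. -/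
theorem result {F : Type*} [Field F] [Fintype F] [CharP F 2] {m : ℕ} (hm : 1 ≤ m) (h : Fintype.card F ≠ 2 ∨ m ≠ 2) (g : ↥(Cfsg.isometryGroup F (Cfsg.quadFormPlus m F))) : Even (m - Module.finrank F ↥(LinearMap.ker (LinearMap.funLeft F F (Sum.inr : Fin m → Fin m ⊕ Fin m)) ⊓ (LinearMap.ker (LinearMap.funLeft F F (Sum.inr : Fin m → Fin m ⊕ Fin m))).map (Matrix.mulVecLin ((g : Matrix.GeneralLinearGroup (Fin m ⊕ Fin m) F) : Matrix (Fin m ⊕ Fin m) (Fin m ⊕ Fin m) F)))) ↔ g ∈ Cfsg.Omega F (Cfsg.quadFormPlus m F) := by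
  classical
  revert g
  rw [← coe_QPlus m F]
  intro g
  have h2 : (2 : F) = 0 := CharTwo.two_eq_zero
  have hcard : Fintype.card F ≠ 2 ∨ Fintype.card (Fin m ⊕ Fin m) ≠ 4 := by
    rcases h with h | h
    · exact Or.inl h
    · right
      rw [Fintype.card_sum, Fintype.card_fin]
      omega
  have hX0 : ∀ w ∈ Cfsg.Agent.S0832.X0 m F, QPlus m F w = 0 :=
    fun w hw => by rw [QPlus_eq]; exact Cfsg.Agent.S0832.X0_Q w hw
  constructor
  · intro hev
    obtain ⟨vs, hvs, rfl⟩ := exists_reflList (QPlus m F) QPlus_nondegenerate hcard g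
    have hpar := parity_reflList vs hvs (Cfsg.Agent.S0832.X0 m F) Cfsg.Agent.S0832.X0_finrank hX0
    unfold Cfsg.Agent.S0832.X0 at hpar
    exact reflList_mem_commutator_two (QPlus m F) h2 QPlus_nondegenerate hcard vs hvs
      (hpar.mp hev)
  · intro hg
    obtain ⟨vs, hvs, rfl, hev⟩ :=
      exists_even_reflList_of_mem_commutator (QPlus m F) QPlus_nondegenerate hcard hg
    have hpar := parity_reflList vs hvs (Cfsg.Agent.S0832.X0 m F) Cfsg.Agent.S0832.X0_finrank hX0
    unfold Cfsg.Agent.S0832.X0 at hpar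
    exact hpar.mpr hev

end Cfsg.Agent.S2630
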