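import Cfsg.Statements.S2631
import Mathlib
import Cfsg.Agent.Lib.Helper52.OmegaPlus

set_option autoImplicit false
open Cfsg

namespace Cfsg.Agent.S2631

open Cfsg.Agent.Lib.Helper52 Cfsg.Agent.Lib.Helper51

/-- For the hyperbolic form Σ x_i y_i on F^(2m) over a finite field (m ≥ 1, excluding m = 2 over the field of two elements), Ω (the commutator subgroup of the orthogonal group) acts transitively on each of the two classes of maximal totally singular subspaces: if U and W are m-dimensional totally singular subspaces with m − dim(U ∩ W) even, some element of Ω carries U to W. -/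
theorem result {F : Type*} [Field F] [Fintype F] {m : ℕ} (hm : 1 ≤ m) (h : Fintype.card F ≠ 2 ∨ m ≠ 2) (U W : Submodule F (Fin m ⊕ Fin m → F)) (hU : Module.finrank F U = m) (hW : Module.finrank F W = m) (hU0 : ∀ u ∈ U, Cfsg.quadFormPlus m F u = 0) (hW0 : ∀ w ∈ W, Cfsg.quadFormPlus m F w = 0) (he : Even (m - Module.finrank F ↥(U ⊓ W))) : ∃ g : ↥(Cfsg.isometryGroup F (Cfsg.quadFormPlus m F)), g ∈ Cfsg.Omega F (Cfsg.quadFormPlus m F) ∧ U.map (Matrix.mulVecLin ((g : Matrix.GeneralLinearGroup (Fin m ⊕ Fin m) F) : Matrix (Fin m ⊕ Fin m) (Fin m ⊕ Fin m) F)) = W := by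
  classical
  revert hU0 hW0
  rw [← coe_QPlus m F]
  intro hU0 hW0
  have hcard : Fintype.card F ≠ 2 ∨ Fintype.card (Fin m ⊕ Fin m) ≠ 4 := by
    rcases h with h | h
    · exact Or.inl h
    · right
      rw [Fintype.card_sum, Fintype.card_fin]
      omega
  let e : U ≃ₗ[F] W := LinearEquiv.ofFinrankEq U W (hU.trans hW.symm)
  obtain ⟨g₀, -, hg₀⟩ := exists_isometry_extending (QPlus m F) QPlus_nondegenerate U W e
    (fun u => by rw [hW0 _ (e u).2, hU0 _ u.2])
  apply exists_mem_commutator_map (QPlus m F) U W g₀ hg₀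
  obtain ⟨vs, hvs, rfl⟩ := exists_reflList (QPlus m F) QPlus_nondegenerate hcard g₀
  have hpar := parity_reflList vs hvs U hU hU0
  rw [hg₀] at hpar
  have hev : Even vs.length := hpar.mp he
  by_cases h2 : (2 : F) = 0
  · exact ⟨1, Subgroup.one_mem _, by
      rw [one_mul]
      exact reflList_mem_commutator_two (QPlus m F) h2 QPlus_nondegenerate hcard vs hvs hev⟩
  · have hWne : W ≠ ⊥ := by
      rintro rfl
      rw [finrank_bot] at hW
      omega
    obtain ⟨e₀, he₀W, he₀⟩ := (Submodule.ne_bot_iff W).mp hWne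
    have hchar : ringChar F ≠ 2 := by
      intro hc2
      apply h2
      have : ((ringChar F : ℕ) : F) = 0 := ringChar.Nat.cast_ringChar
      rw [hc2] at this
      exact_mod_cast this
    obtain ⟨ν, hν⟩ := FiniteField.exists_nonsquare hchar
    have hν0 : ν ≠ 0 := by
      rintro rfl
      exact hν ⟨0, by simp⟩
    obtain ⟨a, b, ha, hb, hab, hS2⟩ :=
      exists_rotation (QPlus m F) QPlus_nondegenerate W hW0 e₀ he₀W he₀ ν hν0
    exact exists_mul_reflList_mem_commutator (QPlus m F) h2 (stabSub (QPlus m F) W) a b ha hb hS2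
      (by rw [hab]; exact hν) vs hvs hev

end Cfsg.Agent.S2631
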