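import Cfsg.Statements.S2632
import Mathlib
import Cfsg.Agent.Lib.Helper52.OmegaGeom

set_option autoImplicit false
open Cfsg

namespace Cfsg.Agent.S2632

open Cfsg.Agent.Lib.Helper52 Cfsg.Agent.Lib.Helper51 Module QuadraticMap

/-- Ω is transitive on non-degenerate subspaces of each isometry type: for a quadratic form Q on F^n, n ≥ 3, with non-degenerate polar form (F finite; excluding dimension 4 over the field of two elements), if U and W are subspaces on which the polar form is non-degenerate and there is a Q-preserving linear isomorphism U → W, then some element of Ω (the commutator subgroup of the orthogonal group) carries U to W. (In dimension 2 this fails: Ω can be {±1}, which fixes every line.) -/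
theorem result {F : Type*} [Field F] [Fintype F] {n : ℕ} (hn : 3 ≤ n) (h : Fintype.card F ≠ 2 ∨ n ≠ 4) (Q : QuadraticForm F (Fin n → F)) (hQ : (QuadraticMap.polarBilin Q).Nondegenerate) (U W : Submodule F (Fin n → F)) (hU : U ⊓ LinearMap.BilinForm.orthogonal (QuadraticMap.polarBilin Q) U = ⊥) (hW : W ⊓ LinearMap.BilinForm.orthogonal (QuadraticMap.polarBilin Q) W = ⊥) (e : U ≃ₗ[F] W) (he : ∀ u : U, Q (e u : Fin n → F) = Q (u : Fin n → F)) : ∃ g : ↥(Cfsg.isometryGroup F ⇑Q), g ∈ Cfsg.Omega F ⇑Q ∧ U.map (Matrix.mulVecLin ((g : Matrix.GeneralLinearGroup (Fin n) F) : Matrix (Fin n) (Fin n) F)) = W := by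
  classical
  have hcard : Fintype.card F ≠ 2 ∨ Fintype.card (Fin n) ≠ 4 := by
    rw [Fintype.card_fin]; exact h
  obtain ⟨g₀, -, hg₀⟩ := exists_isometry_extending Q hQ U W e he
  apply exists_mem_commutator_map Q U W g₀ hg₀
  obtain ⟨P, hP⟩ : ∃ P : Submodule F (Fin n → F),
      P = LinearMap.BilinForm.orthogonal (polarBilin Q) W := ⟨_, rfl⟩
  have hrefl := (polarBilin_isSymm Q).isRefl
  have hPP : P ⊓ LinearMap.BilinForm.orthogonal (polarBilin Q) P = ⊥ := by
    rw [hP, LinearMap.BilinForm.orthogonal_orthogonal hQ hrefl, inf_comm]; exact hW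
  have hdim : finrank F W + finrank F P = n := by
    have h1 := LinearMap.BilinForm.finrank_orthogonal hQ W
    rw [Module.finrank_fintype_fun_eq_card, Fintype.card_fin, ← hP] at h1
    have h3 := Submodule.finrank_le W
    rw [Module.finrank_fintype_fun_eq_card, Fintype.card_fin] at h3
    omega
  have hstab : ∀ X : Submodule F (Fin n → F), (X = W ∨ X = P) → ∀ u ∈ X, ∀ hu : Q u ≠ 0,
      refl Q u hu ∈ stabSub Q W := by
    intro X hX u huX hu
    apply refl_mem_stabSub
    rcases hX with rfl | rfl
    · exact Or.inl huX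
    · right
      intro w hw
      rw [hP, LinearMap.BilinForm.mem_orthogonal_iff] at huX
      have := huX w hw
      rw [polarBilin_apply_apply] at this
      rw [polar_comm]; exact this
  have hXX : ∀ X : Submodule F (Fin n → F), (X = W ∨ X = P) →
      X ⊓ LinearMap.BilinForm.orthogonal (polarBilin Q) X = ⊥ := by
    rintro X (rfl | rfl)
    · exact hW
    · exact hPP
  by_cases h2 : (2 : F) = 0
  · obtain ⟨X, hX, hXne⟩ : ∃ X : Submodule F (Fin n → F), (X = W ∨ X = P) ∧ X ≠ ⊥ := by
      by_cases hW0 : W = ⊥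
      · refine ⟨P, Or.inr rfl, ?_⟩
        intro hP0
        rw [hW0, hP0, finrank_bot] at hdim
        omega
      · exact ⟨W, Or.inl rfl, hW0⟩
    obtain ⟨u, huX, hu⟩ := exists_nonsingular_of_nondeg Q X (hXX X hX) hXne
    exact exists_mul_mem_commutator_two Q h2 hQ hcard (stabSub Q W) u hu (hstab X hX u huX hu) g₀
  · obtain ⟨X, hX, hXdim⟩ : ∃ X : Submodule F (Fin n → F), (X = W ∨ X = P) ∧ 2 ≤ finrank F X := by
      by_cases hW2 : 2 ≤ finrank F W
      · exact ⟨W, Or.inl rfl, hW2⟩
      · exact ⟨P, Or.inr rfl, by omega⟩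
    obtain ⟨u, huX, u', hu'X, hu, hu', hns⟩ := exists_nonsquare_pair Q h2 X (hXX X hX) hXdim
    exact exists_mul_mem_commutator_odd Q h2 hQ (stabSub Q W) u u u' hu hu hu'
      (hstab X hX u huX hu)
      ((stabSub Q W).mul_mem (hstab X hX u huX hu) (hstab X hX u' hu'X hu')) hns g₀

end Cfsg.Agent.S2632
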