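import Cfsg.Statements.S2633
import Mathlib
import Cfsg.Agent.Lib.Helper52.OmegaGeom

set_option autoImplicit false
open Cfsg

namespace Cfsg.Agent.S2633

open Cfsg.Agent.Lib.Helper52 Cfsg.Agent.Lib.Helper51

/-- Ω is transitive on totally singular subspaces of each dimension less than half the dimension: for a quadratic form Q on F^n with non-degenerate polar form (F finite; excluding dimension 4 over the field of two elements), if U and W are subspaces of the same dimension k with 2k < n on which Q vanishes, then some element of Ω (the commutator subgroup of the orthogonal group) carries U to W. -/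
theorem result {F : Type*} [Field F] [Fintype F] {n : ℕ} (h : Fintype.card F ≠ 2 ∨ n ≠ 4) (Q : QuadraticForm F (Fin n → F)) (hQ : (QuadraticMap.polarBilin Q).Nondegenerate) (U W : Submodule F (Fin n → F)) {k : ℕ} (hk : 2 * k < n) (hU : Module.finrank F U = k) (hW : Module.finrank F W = k) (hU0 : ∀ u ∈ U, Q u = 0) (hW0 : ∀ w ∈ W, Q w = 0) : ∃ g : ↥(Cfsg.isometryGroup F ⇑Q), g ∈ Cfsg.Omega F ⇑Q ∧ U.map (Matrix.mulVecLin ((g : Matrix.GeneralLinearGroup (Fin n) F) : Matrix (Fin n) (Fin n) F)) = W := by
  classical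
  have hcard : Fintype.card F ≠ 2 ∨ Fintype.card (Fin n) ≠ 4 := by
    rw [Fintype.card_fin]; exact h
  let e : U ≃ₗ[F] W := LinearEquiv.ofFinrankEq U W (hU.trans hW.symm)
  obtain ⟨g₀, -, hg₀⟩ := exists_isometry_extending Q hQ U W e
    (fun u => by rw [hW0 _ (e u).2, hU0 _ u.2])
  apply exists_mem_commutator_map Q U W g₀ hg₀
  obtain ⟨u, hu, huW⟩ := exists_nonsingular_orth_of_ts Q hQ W hW0
    (by rw [hW, Fintype.card_fin]; exact hk)
  have hS1 : refl Q u hu ∈ stabSub Q W := refl_mem_stabSub Q W u hu (Or.inr huW)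
  by_cases h2 : (2 : F) = 0
  · exact exists_mul_mem_commutator_two Q h2 hQ hcard (stabSub Q W) u hu hS1 g₀
  · by_cases hk0 : W = ⊥
    · refine ⟨g₀⁻¹, ?_, by rw [inv_mul_cancel]; exact Subgroup.one_mem _⟩
      apply mem_stabSub_of_forall
      intro w hw
      rw [hk0] at hw ⊢
      rw [(Submodule.mem_bot F).mp hw, Matrix.mulVec_zero]
      exact Submodule.zero_mem _
    · obtain ⟨e₀, he₀W, he₀⟩ := (Submodule.ne_bot_iff W).mp hk0
      have hchar : ringChar F ≠ 2 := by
        intro hc2
        apply h2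
        have : ((ringChar F : ℕ) : F) = 0 := ringChar.Nat.cast_ringChar
        rw [hc2] at this
        exact_mod_cast this
      obtain ⟨ν, hν⟩ := FiniteField.exists_nonsquare hchar
      have hν0 : ν ≠ 0 := by
        rintro rfl
        exact hν ⟨0, by simp⟩
      obtain ⟨a, b, ha, hb, hab, hS2⟩ := exists_rotation Q hQ W hW0 e₀ he₀W he₀ ν hν0
      exact exists_mul_mem_commutator_odd Q h2 hQ (stabSub Q W) u a b hu ha hb hS1 hS2
        (by rw [hab]; exact hν) g₀

end Cfsg.Agent.S2633
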