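import Cfsg.Statements.S2634
import Cfsg.Agent.Lib.Helper52.ReflChar2

set_option autoImplicit false
open Cfsg

namespace Cfsg.Agent.S2634

open Cfsg.Agent.Lib.Helper52

/-- Over a finite field of characteristic two, Ω (the commutator subgroup of the orthogonal group of a quadratic form Q on F^n with non-degenerate polar form; excluding dimension 4 over the field of two elements) acts transitively on the non-singular 1-spaces: for u, v with Q(u) ≠ 0 and Q(v) ≠ 0 some element of Ω carries the line through u to the line through v. -/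
theorem result {F : Type*} [Field F] [Fintype F] [CharP F 2] {n : ℕ} (h : Fintype.card F ≠ 2 ∨ n ≠ 4) (Q : QuadraticForm F (Fin n → F)) (hQ : (QuadraticMap.polarBilin Q).Nondegenerate) (u v : Fin n → F) (hu : Q u ≠ 0) (hv : Q v ≠ 0) : ∃ g : ↥(Cfsg.isometryGroup F ⇑Q), g ∈ Cfsg.Omega F ⇑Q ∧ (F ∙ ((g : Matrix.GeneralLinearGroup (Fin n) F) : Matrix (Fin n) (Fin n) F).mulVec u) = F ∙ v := by
  have h2 : (2 : F) = 0 := CharTwo.two_eq_zero
  have h' : Fintype.card F ≠ 2 ∨ Fintype.card (Fin n) ≠ 4 := by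
    rwa [Fintype.card_fin]
  have hgen := closure_reflSet_eq_top_of_finite Q hQ h'
  have hΩ : Cfsg.Omega F ⇑Q = Subgroup.closure (pairSet Q) := commutator_eq_pair_two Q h2 hQ h'
  obtain ⟨k, c, hc0, hk⟩ := exists_isometry_smul_two Q h2 hQ h' u v hu hv
  have hspan : (F ∙ (c • v)) = F ∙ v :=
    Submodule.span_singleton_smul_eq (IsUnit.mk0 c hc0) v
  rcases mem_or_forall_refl Q hgen k with hk' | hk'
  · refine ⟨k, ?_, ?_⟩
    · rw [hΩ]; exact hk'
    · rw [hk, hspan]
  · refine ⟨Cfsg.Agent.Lib.Helper51.refl Q v hv * k, ?_, ?_⟩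
    · rw [hΩ]
      exact hk' _ (refl_mem_reflSet Q v hv)
    · rw [Cfsg.Agent.Lib.Helper51.coe_mul', ← Matrix.mulVec_mulVec, hk,
        Cfsg.Agent.Lib.Helper51.coe_refl, Matrix.mulVec_smul,
        Cfsg.Agent.Lib.Helper51.reflectionMatrix_mulVec, QuadraticMap.polar_self]
      have e : v - ((Q v)⁻¹ * (2 • Q v)) • v = v := by
        rw [nsmul_eq_mul]
        simp [h2]
      rw [e, hspan]

end Cfsg.Agent.S2634
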