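import Cfsg.Statements.S2636
import Mathlib

set_option autoImplicit false
open Cfsg

namespace Cfsg.Agent.S2636

open Module Matrix

theorem fixed_subfield {F : Type*} [Field F] [Fintype F] {q₀ r : ℕ} (hr : r.Prime)
    (hF : Fintype.card F = q₀ ^ r) (σ : F ≃+* F) (hσ : orderOf σ = r) :
    ∃ F₀ : Subfield F, (∀ x : F, x ∈ F₀ ↔ σ x = x) ∧ Nat.card F₀ = q₀ := by
  classical
  let G : Subgroup (F ≃+* F) := Subgroup.zpowers σ
  have : Finite (F ≃+* F) := Finite.of_injective (fun e : F ≃+* F => (e : F → F))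
    (fun a b h => RingEquiv.ext (congrFun h))
  haveI : Fintype G := Fintype.ofFinite G
  have hcard : Fintype.card G = r := by
    rw [← Nat.card_eq_fintype_card, Nat.card_zpowers, hσ]
  let F₀ : Subfield F := FixedPoints.subfield G F
  have hmem : ∀ x : F, x ∈ F₀ ↔ σ x = x := by
    intro x
    constructor
    · intro hx
      exact hx ⟨σ, Subgroup.mem_zpowers σ⟩
    · intro hx g
      have hle : G ≤ MulAction.stabilizer (F ≃+* F) x := by
        apply (Subgroup.zpowers_le).2
        exact hx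
      exact hle g.2
  have hfin : finrank F₀ F = r := by
    rw [FixedPoints.finrank_eq_card G F, hcard]
  haveI : Fintype F₀ := Fintype.ofFinite F₀
  have h1 : Fintype.card F = Fintype.card F₀ ^ r := by
    rw [Module.card_eq_pow_finrank (K := F₀) (V := F), hfin]
  have h2 : Fintype.card F₀ = q₀ := by
    rw [hF] at h1
    exact (Nat.pow_left_injective hr.ne_zero h1).symm
  exact ⟨F₀, hmem, by rw [Nat.card_eq_fintype_card, h2]⟩

theorem result {F : Type*} [Field F] [Fintype F] {q₀ r n : ℕ} (hr : r.Prime) (hn : 1 ≤ n) (hF : Fintype.card F = q₀ ^ r) (σ : F ≃+* F) (hσ : orderOf σ = r) : Nat.card {g : GL (Fin n) F // ∃ c : F, c ≠ 0 ∧ (g : Matrix (Fin n) (Fin n) F).map σ = c • (g : Matrix (Fin n) (Fin n) F)} = (q₀ ^ r - 1) / (q₀ - 1) * ∏ i : Fin n, (q₀ ^ n - q₀ ^ (i : ℕ)) := by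
  classical
  obtain ⟨F₀, hmem, hF₀⟩ := fixed_subfield hr hF σ hσ
  haveI : Fintype F₀ := Fintype.ofFinite F₀
  have hF₀' : Fintype.card F₀ = q₀ := by rw [← Nat.card_eq_fintype_card, hF₀]
  let ι : F₀ →+* F := F₀.subtype
  have hι : Function.Injective ι := Subtype.val_injective
  have hιfix : ∀ x : F₀, σ (ι x) = ι x := fun x => (hmem _).1 x.2
  let mapι : GL (Fin n) F₀ →* GL (Fin n) F := Matrix.GeneralLinearGroup.map ι
  let sc : Fˣ →* GL (Fin n) F := Matrix.GeneralLinearGroup.scalar (Fin n)
  let φ : Fˣ × GL (Fin n) F₀ →* GL (Fin n) F :=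
    MonoidHom.noncommCoprod sc mapι
      (fun d g => Matrix.GeneralLinearGroup.scalar_commute d (mapι g))
  have hφ : ∀ (d : Fˣ) (g₀ : GL (Fin n) F₀) (k l : Fin n),
      ((φ (d, g₀) : GL (Fin n) F) : Matrix (Fin n) (Fin n) F) k l = (d : F) * ι (g₀ k l) := by
    intro d g₀ k l
    show ((sc d * mapι g₀ : GL (Fin n) F) : Matrix (Fin n) (Fin n) F) k l = _
    rw [Units.val_mul, Matrix.GeneralLinearGroup.coe_scalar, Matrix.scalar_apply,
      Matrix.diagonal_mul]
    rfl
  haveI : Nonempty (Fin n) := ⟨⟨0, hn⟩⟩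
  -- the range of φ
  have hrange : ∀ g : GL (Fin n) F,
      (∃ c : F, c ≠ 0 ∧ (g : Matrix (Fin n) (Fin n) F).map σ = c • (g : Matrix (Fin n) (Fin n) F)) ↔
        g ∈ φ.range := by
    intro g
    constructor
    · rintro ⟨c, hc, hg⟩
      have hex : ∃ i j, (g : Matrix (Fin n) (Fin n) F) i j ≠ 0 := by
        by_contra hcon
        push Not at hcon
        have h0 : (g : Matrix (Fin n) (Fin n) F) = 0 := by
          ext i j; exact hcon i j
        have h1 : (g : Matrix (Fin n) (Fin n) F) * ((g⁻¹ : GL (Fin n) F) : Matrix (Fin n) (Fin n) F) = 1 := by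
          rw [← Units.val_mul, mul_inv_cancel]; rfl
        rw [h0, zero_mul] at h1
        exact zero_ne_one h1
      obtain ⟨i, j, hij⟩ := hex
      set d : F := (g : Matrix (Fin n) (Fin n) F) i j with hd
      have hσd : σ d = c * d := by
        have := congrFun (congrFun hg i) j
        simpa [Matrix.map_apply, Matrix.smul_apply] using this
      have hentry : ∀ k l, σ (d⁻¹ * (g : Matrix (Fin n) (Fin n) F) k l) =
          d⁻¹ * (g : Matrix (Fin n) (Fin n) F) k l := by
        intro k l
        have h1 : σ ((g : Matrix (Fin n) (Fin n) F) k l) = c * (g : Matrix (Fin n) (Fin n) F) k l := by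
          have := congrFun (congrFun hg k) l
          simpa [Matrix.map_apply, Matrix.smul_apply] using this
        rw [map_mul, map_inv₀, hσd, h1]
        field_simp
      let A₀ : Matrix (Fin n) (Fin n) F₀ := fun k l =>
        ⟨d⁻¹ * (g : Matrix (Fin n) (Fin n) F) k l, (hmem _).2 (hentry k l)⟩
      have hA₀ : A₀.map ι = d⁻¹ • (g : Matrix (Fin n) (Fin n) F) := by
        ext k l
        rfl
      have hdet : A₀.det ≠ 0 := by
        intro h0
        have h1 : (A₀.map ι).det = 0 := by
          have := RingHom.map_det ι A₀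
          rw [RingHom.mapMatrix_apply, h0, map_zero] at this
          exact this.symm
        rw [hA₀, Matrix.det_smul] at h1
        have h2 : (g : Matrix (Fin n) (Fin n) F).det ≠ 0 := by
          have := (Matrix.isUnit_iff_isUnit_det _).1 g.isUnit
          exact this.ne_zero
        rcases mul_eq_zero.1 h1 with h3 | h3
        · exact pow_ne_zero _ (inv_ne_zero hij) h3
        · exact h2 h3
      refine ⟨(Units.mk0 d hij, Matrix.GeneralLinearGroup.mkOfDetNeZero A₀ hdet), ?_⟩
      apply Units.ext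
      ext k l
      rw [hφ]
      show d * (d⁻¹ * (g : Matrix (Fin n) (Fin n) F) k l) = _
      field_simp
    · rintro ⟨⟨d, g₀⟩, rfl⟩
      refine ⟨σ (d : F) / (d : F), div_ne_zero ((map_ne_zero σ).2 d.ne_zero) d.ne_zero, ?_⟩
      ext k l
      rw [Matrix.map_apply, Matrix.smul_apply, hφ, map_mul, hιfix, smul_eq_mul]
      field_simp
  -- the kernel of φ
  have hker : Nat.card φ.ker = q₀ - 1 := by
    have hβ : ∀ u : F₀ˣ, ((Units.map (ι : F₀ →* F) u)⁻¹, Matrix.GeneralLinearGroup.scalar (Fin n) u) ∈ φ.ker := by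
      intro u
      rw [MonoidHom.mem_ker]
      show sc (Units.map (ι : F₀ →* F) u)⁻¹ * mapι (Matrix.GeneralLinearGroup.scalar (Fin n) u) = 1
      rw [Matrix.GeneralLinearGroup.map_scalar, map_inv]
      exact inv_mul_cancel _
    let β : F₀ˣ → φ.ker := fun u => ⟨_, hβ u⟩
    have hβbij : Function.Bijective β := by
      constructor
      · intro u u' h
        have h1 := congrArg (fun x : φ.ker => (x : Fˣ × GL (Fin n) F₀).1) h
        simp only [β] at h1
        have h2 : Units.map (ι : F₀ →* F) u = Units.map (ι : F₀ →* F) u' := inv_injective h1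
        apply Units.ext
        apply hι
        exact congrArg Units.val h2
      · rintro ⟨⟨d, g₀⟩, h⟩
        rw [MonoidHom.mem_ker] at h
        have hent : ∀ k l, (d : F) * ι (g₀ k l) = if k = l then 1 else 0 := by
          intro k l
          rw [← hφ, h]
          simp [Matrix.one_apply]
        let i₀ : Fin n := ⟨0, hn⟩
        have h00 : (d : F) * ι (g₀ i₀ i₀) = 1 := by rw [hent, if_pos rfl]
        have hu0 : g₀ i₀ i₀ ≠ 0 := by
          intro h0
          rw [h0, map_zero, mul_zero] at h00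
          exact zero_ne_one h00
        refine ⟨Units.mk0 (g₀ i₀ i₀) hu0, ?_⟩
        apply Subtype.ext
        show ((Units.map (ι : F₀ →* F) (Units.mk0 (g₀ i₀ i₀) hu0))⁻¹,
          Matrix.GeneralLinearGroup.scalar (Fin n) (Units.mk0 (g₀ i₀ i₀) hu0)) = (d, g₀)
        apply Prod.ext
        · apply Units.ext
          show ((Units.map (ι : F₀ →* F) (Units.mk0 (g₀ i₀ i₀) hu0))⁻¹ : Fˣ).val = d.val
          rw [Units.val_inv_eq_inv_val]
          show (ι (g₀ i₀ i₀))⁻¹ = (d : F)
          exact (eq_inv_of_mul_eq_one_left h00).symm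
        · apply Units.ext
          ext k l
          show ι ((Matrix.scalar (Fin n) (g₀ i₀ i₀)) k l) = ι (g₀ k l)
          have hd0 : (d : F) ≠ 0 := d.ne_zero
          have h1 := hent k l
          rw [Matrix.scalar_apply, Matrix.diagonal_apply]
          by_cases hkl : k = l
          · rw [if_pos hkl]
            rw [if_pos hkl] at h1
            apply mul_left_cancel₀ hd0
            rw [h00, h1]
          · rw [if_neg hkl, map_zero]
            rw [if_neg hkl] at h1
            exact ((mul_eq_zero.1 h1).resolve_left hd0).symm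
    rw [← Nat.card_congr (Equiv.ofBijective β hβbij), Nat.card_units, hF₀]
  -- counting
  have hS : Nat.card {g : GL (Fin n) F // ∃ c : F, c ≠ 0 ∧ (g : Matrix (Fin n) (Fin n) F).map σ = c • (g : Matrix (Fin n) (Fin n) F)} = Nat.card φ.range :=
    Nat.card_congr (Equiv.subtypeEquivRight hrange)
  have h1 : Nat.card (Fˣ × GL (Fin n) F₀) = Nat.card φ.range * Nat.card φ.ker := by
    rw [Subgroup.card_eq_card_quotient_mul_card_subgroup φ.ker,
      Nat.card_congr (QuotientGroup.quotientKerEquivRange φ).toEquiv]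
  have h2 : Nat.card (Fˣ × GL (Fin n) F₀) = (q₀ ^ r - 1) * ∏ i : Fin n, (q₀ ^ n - q₀ ^ (i : ℕ)) := by
    rw [Nat.card_prod, Nat.card_units, Nat.card_eq_fintype_card, hF, Matrix.card_GL_field, hF₀']
  rw [hS]
  have hq₀ : 2 ≤ q₀ := by
    by_contra hcon
    have h3 : q₀ ^ r ≤ 1 := by
      have : q₀ ≤ 1 := by omega
      calc q₀ ^ r ≤ 1 ^ r := Nat.pow_le_pow_left this r
        _ = 1 := one_pow r
    have := Fintype.one_lt_card (α := F)
    omega
  obtain ⟨M, hM⟩ := Nat.sub_one_dvd_pow_sub_one q₀ r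
  rw [hM, Nat.mul_div_cancel_left M (by omega : 0 < q₀ - 1)]
  rw [h2, hker, hM] at h1
  have h4 : (q₀ - 1) * (M * ∏ i : Fin n, (q₀ ^ n - q₀ ^ (i : ℕ))) = (q₀ - 1) * Nat.card φ.range := by
    rw [← mul_assoc, h1, mul_comm]
  exact (Nat.eq_of_mul_eq_mul_left (by omega : 0 < q₀ - 1) h4).symm

end Cfsg.Agent.S2636
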