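import Cfsg.Statements.S2637
-- import your own Cfsg.Agent.* helpers here
import Cfsg.Agent.Lib.Helper47.Sp3Cent

set_option autoImplicit false
open Cfsg

namespace Cfsg.Agent.S2637

open Cfsg.Agent.Lib.Helper47

/-- Centraliser of a fixed-point-free element of order three in Sp_2m(q) when q ≡ 2 (mod 3): if x ∈ Sp_2m(F) (|F| = q, m ≥ 1) satisfies x³ = 1 and x − 1 is invertible, then its centraliser in Sp_2m(F) has the order of the unitary group GU_m(q), namely q^(m(m−1)/2) Π_(i=1)^m (q^i − (−1)^i) (x lies in the centre of a subgroup GU_m(q) of Sp_2m(q)). -/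
theorem result {F : Type*} [Field F] [Fintype F] {q : ℕ} (hF : Fintype.card F = q) (hq : q % 3 = 2) {m : ℕ} (hm : 1 ≤ m) (x : Matrix.symplecticGroup (Fin m) F) (hx3 : x ^ 3 = 1) (hfpf : IsUnit ((x : Matrix (Fin m ⊕ Fin m) (Fin m ⊕ Fin m) F) - 1)) : (Nat.card ↥(Subgroup.centralizer ({x} : Set ↥(Matrix.symplecticGroup (Fin m) F))) : ℤ) = (q : ℤ) ^ (m * (m - 1) / 2) * ∏ i : Fin m, ((q : ℤ) ^ ((i : ℕ) + 1) - (-1) ^ ((i : ℕ) + 1)) := by
  have hq1 : 1 ≤ q := by omega
  rw [sp_card_centralizer_order_three hF hq x hx3 hfpf, Nat.cast_mul, Nat.cast_pow,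
    Nat.cast_prod]
  congr 1
  rw [← Fin.prod_univ_eq_prod_range]
  apply Finset.prod_congr rfl
  intro i _
  split_ifs with h
  · rw [Nat.cast_add, Nat.cast_pow, Nat.cast_one, Odd.neg_one_pow (Even.add_one h)]
    ring
  · rw [Nat.cast_sub (Nat.one_le_pow _ _ hq1), Nat.cast_pow, Nat.cast_one,
      Even.neg_one_pow (Odd.add_one (Nat.not_even_iff_odd.mp h))]

end Cfsg.Agent.S2637
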