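import Cfsg.Statements.S2638
import Mathlib

set_option autoImplicit false
open Cfsg

namespace Cfsg.Agent.S2638

open Module Polynomial

theorem minpoly_irred {F : Type*} [Field F] [Fintype F] {p q : ℕ} [Fact p.Prime] [CharP F p]
    (hF : Fintype.card F = q) {n r : ℕ} (hn : 1 ≤ n) (hr : r.Prime) (hrp : r ≠ p)
    (hi : orderOf (q : ZMod r) = n) (A : Matrix (Fin n) (Fin n) F) (hAr : A ^ r = 1)
    (hA1 : A ≠ 1) : Irreducible (minpoly F A) ∧ (minpoly F A).natDegree = n := by
  classical
  haveI : Fact r.Prime := ⟨hr⟩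
  haveI : Nonempty (Fin n) := ⟨⟨0, hn⟩⟩
  have hint : IsIntegral F A := Matrix.isIntegral A
  set μ := minpoly F A with hμ
  have hμ0 : μ ≠ 0 := minpoly.ne_zero hint
  have hdvd : μ ∣ (X ^ r - 1 : F[X]) := by
    apply minpoly.dvd
    simp [hAr]
  have hdeg : μ.natDegree ≤ n := by
    have h1 := natDegree_le_of_dvd (Matrix.minpoly_dvd_charpoly A) (Matrix.charpoly_monic A).ne_zero
    rwa [Matrix.charpoly_natDegree_eq_dim, Fintype.card_fin] at h1
  set Φ : F[X] := ∑ i ∈ Finset.range r, X ^ i with hΦ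
  have hΦmul : Φ * (X - 1) = X ^ r - 1 := geom_sum_mul X r
  have hΦ1 : Φ.eval 1 = (r : F) := by
    simp [hΦ, eval_finsetSum]
  have hr0 : (r : F) ≠ 0 := by
    intro h0
    have h1 := (CharP.cast_eq_zero_iff F p r).1 h0
    have hp : p.Prime := Fact.out
    rcases (Nat.dvd_prime hr).1 h1 with h | h
    · exact hp.ne_one h
    · exact hrp h.symm
  have hX1 : (X - 1 : F[X]) = X - C 1 := by simp
  -- an irreducible factor other than X - 1
  have hex : ∃ f : F[X], Irreducible f ∧ f ∣ μ ∧ ¬ f ∣ (X - 1) := by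
    by_contra hcon
    push Not at hcon
    have hcop : IsCoprime μ Φ := by
      apply isCoprime_of_irreducible_dvd
      · intro h
        exact hμ0 h.1
      · intro z hz hzμ hzΦ
        have h1 := hcon z hz hzμ
        rw [hX1] at h1
        have h2 : Associated z (X - C 1) := hz.associated_of_dvd (irreducible_X_sub_C 1) h1
        have h3 : (X - C (1 : F)) ∣ Φ := h2.symm.dvd.trans hzΦ
        have h4 : Φ.IsRoot 1 := dvd_iff_isRoot.1 h3
        rw [IsRoot, hΦ1] at h4
        exact hr0 h4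
    have h5 : μ ∣ (X - 1 : F[X]) := hcop.dvd_of_dvd_mul_left (hΦmul ▸ hdvd)
    obtain ⟨g, hg⟩ := h5
    have h6 : aeval A (X - 1 : F[X]) = 0 := by
      rw [hg, map_mul, hμ, minpoly.aeval, zero_mul]
    apply hA1
    simp only [map_sub, aeval_X, map_one] at h6
    exact sub_eq_zero.1 h6
  obtain ⟨f, hf, hfμ, hfX⟩ := hex
  haveI : Fact (Irreducible f) := ⟨hf⟩
  have hf0 : f ≠ 0 := hf.ne_zero
  set d := f.natDegree with hd
  have hd1 : 1 ≤ d := hf.natDegree_pos
  have hdn : d ≤ μ.natDegree := natDegree_le_of_dvd hfμ hμ0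
  -- the root in the field AdjoinRoot f
  set α : AdjoinRoot f := AdjoinRoot.root f with hα
  have hαr : α ^ r = 1 := by
    have h1 : AdjoinRoot.mk f (X ^ r - 1) = 0 := AdjoinRoot.mk_eq_zero.2 (hfμ.trans hdvd)
    rw [map_sub, map_pow, AdjoinRoot.mk_X, map_one] at h1
    exact sub_eq_zero.1 h1
  have hα1 : α ≠ 1 := by
    intro h1
    apply hfX
    apply AdjoinRoot.mk_eq_zero.1
    rw [map_sub, AdjoinRoot.mk_X, map_one, ← hα, h1, sub_self]
  have hα0 : α ≠ 0 := by
    rintro h0
    rw [h0, zero_pow hr.ne_zero] at hαr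
    exact zero_ne_one hαr
  haveI : Module.Finite F (AdjoinRoot f) := (AdjoinRoot.powerBasis hf0).finite
  haveI : Finite (AdjoinRoot f) := Module.finite_of_finite F
  have hcard : Nat.card (AdjoinRoot f) = q ^ d := by
    rw [Module.natCard_eq_pow_finrank (K := F), Nat.card_eq_fintype_card, hF,
      (AdjoinRoot.powerBasis hf0).finrank, AdjoinRoot.powerBasis_dim]
  let αu : (AdjoinRoot f)ˣ := Units.mk0 α hα0
  have hord : orderOf αu = r := by
    apply orderOf_eq_prime
    · apply Units.ext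
      rw [Units.val_pow_eq_pow_val]
      exact hαr
    · intro h1
      apply hα1
      have := congrArg Units.val h1
      simpa [αu] using this
  have hrdvd : r ∣ q ^ d - 1 := by
    have h1 := orderOf_dvd_natCard αu
    rwa [hord, Nat.card_units, hcard] at h1
  have hq1 : 1 ≤ q ^ d := by
    have : 0 < q := by
      rw [← hF]; exact Fintype.card_pos
    exact Nat.one_le_pow _ _ this
  have hpow : (q : ZMod r) ^ d = 1 := by
    have h1 : ((q ^ d - 1 : ℕ) : ZMod r) = 0 := (ZMod.natCast_eq_zero_iff _ _).2 hrdvd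
    rw [Nat.cast_sub hq1, Nat.cast_pow, Nat.cast_one] at h1
    exact sub_eq_zero.1 h1
  have hnd : n ∣ d := by
    rw [← hi]
    exact orderOf_dvd_of_pow_eq_one hpow
  have hnd' : n ≤ d := Nat.le_of_dvd (by omega) hnd
  have hdeq : d = μ.natDegree := by omega
  have hμn : μ.natDegree = n := by omega
  refine ⟨?_, hμn⟩
  obtain ⟨g, hg⟩ := hfμ
  have hg0 : g ≠ 0 := by
    rintro rfl
    rw [mul_zero] at hg
    exact hμ0 hg
  have hgdeg : g.natDegree = 0 := by
    have := natDegree_mul hf0 hg0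
    rw [← hg] at this
    omega
  have hgu : IsUnit g := by
    rw [eq_C_of_natDegree_eq_zero hgdeg] at hg0 ⊢
    exact isUnit_C.2 (isUnit_iff_ne_zero.2 (by simpa using hg0))
  rw [hg]
  exact (associated_mul_unit_right f g hgu).irreducible hf


theorem result {F : Type*} [Field F] [Fintype F] {p q : ℕ} [Fact p.Prime] [CharP F p] (hF : Fintype.card F = q) {n r : ℕ} (hn : 1 ≤ n) (hr : r.Prime) (hrp : r ≠ p) (hi : orderOf (q : ZMod r) = n) (x : GL (Fin n) F) (hx : orderOf x = r) : IsCyclic ↥(Subgroup.centralizer ({x} : Set (GL (Fin n) F))) ∧ Nat.card ↥(Subgroup.centralizer ({x} : Set (GL (Fin n) F))) = q ^ n - 1 := by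
  classical
  haveI : Nonempty (Fin n) := ⟨⟨0, hn⟩⟩
  set A : Matrix (Fin n) (Fin n) F := (x : Matrix (Fin n) (Fin n) F) with hA
  have hAr : A ^ r = 1 := by
    have h1 := pow_orderOf_eq_one x
    rw [hx] at h1
    have h2 := congrArg Units.val h1
    rwa [Units.val_pow_eq_pow_val] at h2
  have hA1 : A ≠ 1 := by
    intro h
    have h1 : x = 1 := Units.ext h
    rw [h1, orderOf_one] at hx
    exact hr.ne_one hx.symm
  obtain ⟨hirr, hdeg⟩ := minpoly_irred hF hn hr hrp hi A hAr hA1
  set μ := minpoly F A with hμ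
  haveI : Fact (Irreducible μ) := ⟨hirr⟩
  have hμ0 : μ ≠ 0 := hirr.ne_zero
  let ρ : AdjoinRoot μ →ₐ[F] Matrix (Fin n) (Fin n) F :=
    Ideal.Quotient.liftₐ (Ideal.span {μ}) (aeval A) (by
      intro a ha
      obtain ⟨g, rfl⟩ := Ideal.mem_span_singleton.1 ha
      rw [map_mul, hμ, minpoly.aeval, zero_mul])
  have hρmk : ∀ P : F[X], ρ (AdjoinRoot.mk μ P) = aeval A P := fun P => rfl
  have hρroot : ρ (AdjoinRoot.root μ) = A := by
    rw [← AdjoinRoot.mk_X, hρmk, aeval_X]
  have hρinj : Function.Injective ρ := (ρ : AdjoinRoot μ →+* Matrix (Fin n) (Fin n) F).injective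
  haveI : Module.Finite F (AdjoinRoot μ) := (AdjoinRoot.powerBasis hμ0).finite
  haveI : Finite (AdjoinRoot μ) := Module.finite_of_finite F
  have hfin : finrank F (AdjoinRoot μ) = n := by
    rw [(AdjoinRoot.powerBasis hμ0).finrank, AdjoinRoot.powerBasis_dim, hdeg]
  have hcard : Nat.card (AdjoinRoot μ) = q ^ n := by
    rw [Module.natCard_eq_pow_finrank (K := F), Nat.card_eq_fintype_card, hF, hfin]
  -- a nonzero vector
  let v₀ : Fin n → F := fun _ => 1
  have hv₀ : v₀ ≠ 0 := by
    intro h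
    have := congrFun h ⟨0, hn⟩
    simp [v₀] at this
  let T : AdjoinRoot μ →ₗ[F] (Fin n → F) :=
    { toFun := fun l => (ρ l).mulVec v₀
      map_add' := by
        intro a b
        rw [map_add, Matrix.add_mulVec]
      map_smul' := by
        intro c a
        rw [map_smul, Matrix.smul_mulVec, RingHom.id_apply] }
  have hTapp : ∀ l, T l = (ρ l).mulVec v₀ := fun l => rfl
  have hTinj : Function.Injective T := by
    rw [injective_iff_map_eq_zero]
    intro l hl
    by_contra hl0
    apply hv₀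
    have h1 : ρ l⁻¹ * ρ l = 1 := by
      rw [← map_mul, inv_mul_cancel₀ hl0, map_one]
    rw [hTapp] at hl
    calc v₀ = (1 : Matrix (Fin n) (Fin n) F).mulVec v₀ := (Matrix.one_mulVec v₀).symm
      _ = (ρ l⁻¹ * ρ l).mulVec v₀ := by rw [h1]
      _ = (ρ l⁻¹).mulVec ((ρ l).mulVec v₀) := (Matrix.mulVec_mulVec _ _ _).symm
      _ = 0 := by rw [hl, Matrix.mulVec_zero]
  have hTsurj : Function.Surjective T := by
    apply (LinearMap.injective_iff_surjective_of_finrank_eq_finrank _).1 hTinj
    rw [hfin, finrank_pi, Fintype.card_fin]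
  -- matrices commuting with A are in the image of ρ
  have hcomm : ∀ Y : Matrix (Fin n) (Fin n) F, A * Y = Y * A → ∃ l, ρ l = Y := by
    intro Y hY
    have hYρ : ∀ l, Y * ρ l = ρ l * Y := by
      intro l
      induction l using AdjoinRoot.induction_on with
      | ih P =>
        rw [hρmk]
        have h1 : aeval A P ∈ Algebra.adjoin F {A} := aeval_mem_adjoin_singleton F A
        have h2 : Algebra.adjoin F {A} ≤ Subalgebra.centralizer F {Y} := by
          apply Algebra.adjoin_le
          intro B hB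
          rw [Set.mem_singleton_iff] at hB
          subst hB
          rw [SetLike.mem_coe, Subalgebra.mem_centralizer_iff]
          intro g hg
          rw [Set.mem_singleton_iff] at hg
          subst hg
          exact hY.symm
        have h3 := h2 h1
        rw [Subalgebra.mem_centralizer_iff] at h3
        exact h3 Y rfl
    obtain ⟨l₀, hl₀⟩ := hTsurj (Y.mulVec v₀)
    refine ⟨l₀, ?_⟩
    apply Matrix.toLin'.injective
    apply LinearMap.ext
    intro v
    obtain ⟨l, rfl⟩ := hTsurj v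
    rw [Matrix.toLin'_apply, Matrix.toLin'_apply, hTapp]
    calc (ρ l₀).mulVec ((ρ l).mulVec v₀) = (ρ l₀ * ρ l).mulVec v₀ := Matrix.mulVec_mulVec _ _ _
      _ = (ρ l * ρ l₀).mulVec v₀ := by rw [← map_mul, ← map_mul, mul_comm]
      _ = (ρ l).mulVec ((ρ l₀).mulVec v₀) := (Matrix.mulVec_mulVec _ _ _).symm
      _ = (ρ l).mulVec (Y.mulVec v₀) := by rw [← hTapp l₀, hl₀]
      _ = (ρ l * Y).mulVec v₀ := Matrix.mulVec_mulVec _ _ _
      _ = (Y * ρ l).mulVec v₀ := by rw [hYρ]
      _ = Y.mulVec ((ρ l).mulVec v₀) := (Matrix.mulVec_mulVec _ _ _).symm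
  -- the group isomorphism
  let ψ : (AdjoinRoot μ)ˣ →* GL (Fin n) F := Units.map (ρ : AdjoinRoot μ →* Matrix (Fin n) (Fin n) F)
  have hψval : ∀ u : (AdjoinRoot μ)ˣ, ((ψ u : GL (Fin n) F) : Matrix (Fin n) (Fin n) F) = ρ (u : AdjoinRoot μ) :=
    fun u => rfl
  have hψinj : Function.Injective ψ := by
    intro u u' h
    apply Units.ext
    apply hρinj
    rw [← hψval, ← hψval, h]
  have hC : Subgroup.centralizer ({x} : Set (GL (Fin n) F)) = ψ.range := by
    ext y
    rw [Subgroup.mem_centralizer_iff]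
    constructor
    · intro hy
      have h1 : A * (y : Matrix (Fin n) (Fin n) F) = (y : Matrix (Fin n) (Fin n) F) * A := by
        have := congrArg Units.val (hy x rfl)
        simpa using this
      obtain ⟨l₀, hl₀⟩ := hcomm _ h1
      have hl0 : l₀ ≠ 0 := by
        rintro rfl
        rw [map_zero] at hl₀
        have h2 : (y : Matrix (Fin n) (Fin n) F) * ((y⁻¹ : GL (Fin n) F) : Matrix (Fin n) (Fin n) F) = 1 := by
          rw [← Units.val_mul, mul_inv_cancel]; rfl
        rw [← hl₀, zero_mul] at h2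
        exact zero_ne_one h2
      refine ⟨Units.mk0 l₀ hl0, ?_⟩
      apply Units.ext
      rw [hψval]
      exact hl₀
    · rintro ⟨u, rfl⟩ h hh
      rw [Set.mem_singleton_iff] at hh
      subst hh
      apply Units.ext
      rw [Units.val_mul, Units.val_mul, hψval, ← hA, ← hρroot, ← map_mul, ← map_mul, mul_comm]
  rw [hC]
  let e : (AdjoinRoot μ)ˣ ≃* ψ.range := MonoidHom.ofInjective hψinj
  constructor
  · exact isCyclic_of_surjective e e.surjective
  · rw [← Nat.card_congr e.toEquiv, Nat.card_units, hcard]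

end Cfsg.Agent.S2638
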