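import Cfsg.Statements.S2639
import Cfsg.Agent.Lib.Helper52.GUEmbed

set_option autoImplicit false
open Cfsg

namespace Cfsg.Agent.S2639

open Cfsg.Agent.Lib.Helper52

/-- The unitary group embeds in the symplectic group of twice the dimension over the subfield: for a field K with q² elements and a field F with q elements (isomorphic to the subfield of K of order q), there is an injective homomorphism GU_m(q) → Sp_2m(F). -/
theorem result {K F : Type*} [Field K] [Fintype K] [Field F] [Fintype F] {q : ℕ} (hK : Fintype.card K = q ^ 2) (hF : Fintype.card F = q) (m : ℕ) : ∃ φ : ↥(Cfsg.GU m K q) →* ↥(Matrix.symplecticGroup (Fin m) F), Function.Injective φ := by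
  classical
  subst hF
  obtain ⟨j⟩ := exists_ringHom_of_card_sq hK rfl
  let _ : Algebra F K := j.toAlgebra
  have h2 : Module.finrank F K = 2 := by
    have h := Module.card_eq_pow_finrank (K := F) (V := K)
    rw [hK] at h
    exact (Nat.pow_right_injective Fintype.one_lt_card h).symm
  obtain ⟨σ, θ, ε, hσ, hσσ, htr, -, hε, hεθ⟩ := exists_quad_data h2
  have hinj := (algebraMap F K).injective
  have t1 : Algebra.trace F K ε = 0 := hinj (by rw [htr, hε, map_zero]; ring)
  have t2 : Algebra.trace F K (ε * σ θ) = -1 :=
    hinj (by rw [htr, map_mul, hε, hσσ, map_neg, map_one]; linear_combination -hεθ)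
  have t3 : Algebra.trace F K (ε * θ) = 1 :=
    hinj (by rw [htr, map_mul, hε, map_one]; linear_combination hεθ)
  have t4 : Algebra.trace F K (ε * (θ * σ θ)) = 0 :=
    hinj (by rw [htr, map_mul, map_mul, hε, hσσ, map_zero]; ring)
  let b : Fin m ⊕ Fin m → (Fin m → K) :=
    Sum.elim (fun i => Pi.single i 1) (fun i => Pi.single i θ)
  have hgram : ∀ s t, trForm σ ε (b s) (b t) = Matrix.J (Fin m) F s t := by
    rintro (i | i) (j | j)
    · by_cases hij : i = j <;> simp [b, trForm_apply, herm_single, Matrix.J, hij, t1]
    · by_cases hij : i = j <;> simp [b, trForm_apply, herm_single, Matrix.J, hij, t2]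
    · by_cases hij : i = j <;> simp [b, trForm_apply, herm_single, Matrix.J, hij, t3]
    · by_cases hij : i = j <;> simp [b, trForm_apply, herm_single, Matrix.J, hij, t4]
  have hdet : (Matrix.J (Fin m) F).det ≠ 0 := by
    intro h
    have := Matrix.J_det_mul_J_det (Fin m) F
    rw [h] at this
    simp at this
  have hli : LinearIndependent F b :=
    linearIndependent_of_gram (trForm σ ε) b (Matrix.J (Fin m) F) hgram hdet
  have hcard : Fintype.card (Fin m ⊕ Fin m) = Module.finrank F (Fin m → K) := by
    rw [Module.finrank_pi_fintype]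
    simp [h2]
    ring
  have : FiniteDimensional F K := Module.finite_of_finrank_pos (by omega)
  let B := basisOfLinearIndependentOfCardEqFinrank' b hli hcard
  exact exists_hom_symplectic B (glRep F (Cfsg.GU m K (Fintype.card F))) (glRep_injective _ _)
    (trForm σ ε) (by simpa [B] using hgram)
    (fun g u v => by rw [trForm_apply, trForm_apply, gu_herm σ hσ])

end Cfsg.Agent.S2639
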