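import Cfsg.Statements.S2640
import Cfsg.Agent.Lib.Helper52.GUOrth

set_option autoImplicit false
open Cfsg

namespace Cfsg.Agent.S2640

open Cfsg.Agent.Lib.Helper52 Module

/-- For m even, the unitary group GU_m(q) (over the field with q² elements) embeds in the orthogonal group O⁺_2m(q) of the hyperbolic form Σ x_i y_i over the field with q elements (there is an injective homomorphism). -/
theorem result {K F : Type*} [Field K] [Fintype K] [Field F] [Fintype F] {q : ℕ} (hK : Fintype.card K = q ^ 2) (hF : Fintype.card F = q) (m : ℕ) (hm : Even m) : ∃ φ : ↥(Cfsg.GU m K q) →* ↥(Cfsg.isometryGroup F (Cfsg.quadFormPlus m F)), Function.Injective φ := by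
  classical
  subst hF
  obtain ⟨j⟩ := exists_ringHom_of_card_sq hK rfl
  let _ : Algebra F K := j.toAlgebra
  have h2 : finrank F K = 2 := by
    have h := Module.card_eq_pow_finrank (K := F) (V := K)
    rw [hK] at h
    exact (Nat.pow_right_injective Fintype.one_lt_card h).symm
  obtain ⟨σ, θ, ε, hσ, hσσ, htr, hnorm, hε, hεθ⟩ := exists_quad_data h2
  obtain ⟨c, hc⟩ := exists_norm_neg_one σ hnorm
  have hinj := (algebraMap F K).injective
  obtain ⟨k, rfl⟩ := hm
  let ι₀ : Fin k → Fin (k + k) := fun p => ⟨2 * p.1, by omega⟩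
  let ι₁ : Fin k → Fin (k + k) := fun p => ⟨2 * p.1 + 1, by omega⟩
  have inj₀ : Function.Injective ι₀ := by
    intro p p' h
    simp only [ι₀, Fin.mk.injEq] at h
    exact Fin.ext (by omega)
  have inj₁ : Function.Injective ι₁ := by
    intro p p' h
    simp only [ι₁, Fin.mk.injEq] at h
    exact Fin.ext (by omega)
  have hdisj : ∀ p p', ι₀ p ≠ ι₁ p' := by
    intro p p' h
    simp only [ι₀, ι₁, Fin.mk.injEq] at h
    omega
  let φ : Fin (k + k) ≃ Fin k × Fin 2 := (finCongr (by ring)).trans finProdFinEquiv.symm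
  let e : Fin (k + k) → (Fin (k + k) → K) := fun i => hypE ι₀ ι₁ c θ (φ i)
  let f : Fin (k + k) → (Fin (k + k) → K) := fun i => hypF ι₀ ι₁ c θ ε (φ i)
  let B : LinearMap.BilinForm F (Fin (k + k) → K) := trForm σ (1 : K)
  have hB : ∀ u v, B u v = Algebra.trace F K (herm σ u v) := fun u v => by
    rw [trForm_eq_herm, one_mul]
  have hee : ∀ i j, B (e i) (e j) = 0 := fun i j => by
    rw [hB, herm_hypE_hypE σ ι₀ ι₁ inj₀ inj₁ hdisj c θ hc, map_zero]
  have hff : ∀ i j, B (f i) (f j) = 0 := fun i j => by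
    rw [hB, herm_hypF_hypF σ ι₀ ι₁ inj₀ inj₁ hdisj c θ ε hc hε hεθ, map_zero]
  have hef : ∀ i j, B (e i) (f j) = if i = j then 1 else 0 := fun i j => by
    rw [hB, trace_herm_hypE_hypF σ hσσ htr ι₀ ι₁ inj₀ inj₁ hdisj c θ ε hc hε hεθ]
    simp [φ.injective.eq_iff]
  have htrσ : ∀ z, Algebra.trace F K (σ z) = Algebra.trace F K z := fun z => by
    apply hinj
    rw [htr, htr, hσσ, add_comm]
  have hfe : ∀ i j, B (f i) (e j) = if i = j then 1 else 0 := fun i j => by
    rw [hB, herm_symm σ hσσ, htrσ, ← hB, hef]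
    simp [eq_comm]
  have he : ∀ i, normForm F (e i) = 0 := fun i => hinj (by
    rw [algebraMap_normForm σ hnorm, herm_hypE_hypE σ ι₀ ι₁ inj₀ inj₁ hdisj c θ hc, map_zero])
  have hf : ∀ i, normForm F (f i) = 0 := fun i => hinj (by
    rw [algebraMap_normForm σ hnorm, herm_hypF_hypF σ ι₀ ι₁ inj₀ inj₁ hdisj c θ ε hc hε hεθ,
      map_zero])
  let b : Fin (k + k) ⊕ Fin (k + k) → (Fin (k + k) → K) := Sum.elim e f
  have hgram : ∀ s t, B (b s) (b t) =
      (Matrix.fromBlocks 0 1 1 0 : Matrix (Fin (k + k) ⊕ Fin (k + k)) (Fin (k + k) ⊕ Fin (k + k)) F) s t := by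
    rintro (i | i) (j | j) <;> simp [b, hee, hff, hef, hfe, Matrix.one_apply]
  have hdet : (Matrix.fromBlocks 0 1 1 0 : Matrix (Fin (k + k) ⊕ Fin (k + k)) (Fin (k + k) ⊕ Fin (k + k)) F).det ≠ 0 := by
    intro h
    have h1 : (Matrix.fromBlocks 0 1 1 0 : Matrix (Fin (k + k) ⊕ Fin (k + k)) (Fin (k + k) ⊕ Fin (k + k)) F) *
        Matrix.fromBlocks 0 1 1 0 = 1 := by
      rw [Matrix.fromBlocks_multiply]
      simp [Matrix.fromBlocks_one]
    have h3 := congrArg Matrix.det h1
    rw [Matrix.det_mul, h] at h3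
    simp at h3
  have hli : LinearIndependent F b := linearIndependent_of_gram B b _ hgram hdet
  have hcard : Fintype.card (Fin (k + k) ⊕ Fin (k + k)) = finrank F (Fin (k + k) → K) := by
    rw [Module.finrank_pi_fintype]
    simp [h2]
    ring
  have : FiniteDimensional F K := Module.finite_of_finrank_pos (by omega)
  let Bs := basisOfLinearIndependentOfCardEqFinrank' b hli hcard
  refine exists_hom_isometryGroup Bs (glRep F (Cfsg.GU (k + k) K (Fintype.card F)))
    (glRep_injective _ _) (Cfsg.quadFormPlus (k + k) F) (normForm F) ?_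
    (fun g v => normForm_glRep σ hσ hnorm g v)
  intro v
  have hv : v = ∑ i, (Bs.repr v (Sum.inl i)) • e i + ∑ i, (Bs.repr v (Sum.inr i)) • f i := by
    conv_lhs => rw [← Bs.sum_repr v]
    rw [Fintype.sum_sum_type]
    simp [Bs, b]
  conv_lhs => rw [hv]
  rw [hyp_expand (normForm F) B (normForm_add σ hσσ htr hnorm) (normForm_smul σ hnorm) e f he hf
    hee hff hef]
  rfl

end Cfsg.Agent.S2640
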