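import Cfsg.Statements.S2641
import Cfsg.Agent.Lib.Helper52.GUOrth

set_option autoImplicit false
open Cfsg

namespace Cfsg.Agent.S2641

open Cfsg.Agent.Lib.Helper52 Module

theorem herm_single_right {F K ι : Type*} [Field F] [Field K] [Algebra F K] [Fintype ι]
    [DecidableEq ι] (σ : K ≃ₐ[F] K) (u : ι → K) (t : ι) (y : K) :
    herm σ u (Pi.single t y) = u t * σ y := by
  rw [herm, Finset.sum_eq_single t]
  · simp
  · intro i _ hi
    simp [Pi.single_eq_of_ne hi]
  · intro h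
    exact absurd (Finset.mem_univ t) h

theorem aux {K F : Type*} [Field K] [Fintype K] [Field F] [Fintype F]
    (hK : Fintype.card K = Fintype.card F ^ 2) (k : ℕ) (a b : F)
    (hab : ∀ z₁ z₂ : F, z₁ ^ 2 + a * z₁ * z₂ + b * z₂ ^ 2 = 0 → z₁ = 0 ∧ z₂ = 0) :
    ∃ φ : ↥(Cfsg.GU (2 * k + 1) K (Fintype.card F)) →*
      ↥(Cfsg.isometryGroup F (Cfsg.quadFormMinus (2 * k) F a b)), Function.Injective φ := by
  classical
  obtain ⟨j⟩ := exists_ringHom_of_card_sq hK rfl
  let _ : Algebra F K := j.toAlgebra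
  have h2 : finrank F K = 2 := by
    have h := Module.card_eq_pow_finrank (K := F) (V := K)
    rw [hK] at h
    exact (Nat.pow_right_injective Fintype.one_lt_card h).symm
  obtain ⟨σ, θ, ε, hσ, hσσ, htr, hnorm, hε, hεθ⟩ := exists_quad_data h2
  obtain ⟨c, hc⟩ := exists_norm_neg_one σ hnorm
  obtain ⟨ρ, hρ1, hρ2⟩ := exists_root_quad σ hσ a b hab h2
  have hinj := (algebraMap F K).injective
  let ι₀ : Fin k → Fin (2 * k + 1) := fun p => ⟨2 * p.1, by omega⟩
  let ι₁ : Fin k → Fin (2 * k + 1) := fun p => ⟨2 * p.1 + 1, by omega⟩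
  let t : Fin (2 * k + 1) := ⟨2 * k, by omega⟩
  have inj₀ : Function.Injective ι₀ := by
    intro p p' h
    simp only [ι₀, Fin.mk.injEq] at h
    exact Fin.ext (by omega)
  have inj₁ : Function.Injective ι₁ := by
    intro p p' h
    simp only [ι₁, Fin.mk.injEq] at h
    exact Fin.ext (by omega)
  have hdisj : ∀ p p', ι₀ p ≠ ι₁ p' := by
    intro p p' h
    simp only [ι₀, ι₁, Fin.mk.injEq] at h
    omega
  have h₀t : ∀ p, ι₀ p ≠ t := by
    intro p h
    simp only [ι₀, t, Fin.mk.injEq] at h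
    omega
  have h₁t : ∀ p, ι₁ p ≠ t := by
    intro p h
    simp only [ι₁, t, Fin.mk.injEq] at h
    omega
  let φ : Fin (2 * k) ≃ Fin k × Fin 2 := (finCongr (by ring)).trans finProdFinEquiv.symm
  let e : Fin (2 * k) → (Fin (2 * k + 1) → K) := fun i => hypE ι₀ ι₁ c θ (φ i)
  let f : Fin (2 * k) → (Fin (2 * k + 1) → K) := fun i => hypF ι₀ ι₁ c θ ε (φ i)
  let g₀ : Fin (2 * k + 1) → K := Pi.single t 1
  let g₁ : Fin (2 * k + 1) → K := Pi.single t ρ
  have het : ∀ i, e i t = 0 := fun i => by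
    simp [e, hypE, hypW_apply_of_ne ι₀ ι₁ c _ t h₀t h₁t]
  have hft : ∀ i, f i t = 0 := fun i => by
    simp [f, hypF, hypW'_apply_of_ne ι₀ ι₁ c _ _ t h₀t h₁t]
  let B : LinearMap.BilinForm F (Fin (2 * k + 1) → K) := trForm σ (1 : K)
  have hB : ∀ u v, B u v = Algebra.trace F K (herm σ u v) := fun u v => by
    rw [trForm_eq_herm, one_mul]
  have hee : ∀ i j, B (e i) (e j) = 0 := fun i j => by
    rw [hB, herm_hypE_hypE σ ι₀ ι₁ inj₀ inj₁ hdisj c θ hc, map_zero]
  have hff : ∀ i j, B (f i) (f j) = 0 := fun i j => by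
    rw [hB, herm_hypF_hypF σ ι₀ ι₁ inj₀ inj₁ hdisj c θ ε hc hε hεθ, map_zero]
  have hef : ∀ i j, B (e i) (f j) = if i = j then 1 else 0 := fun i j => by
    rw [hB, trace_herm_hypE_hypF σ hσσ htr ι₀ ι₁ inj₀ inj₁ hdisj c θ ε hc hε hεθ]
    simp [φ.injective.eq_iff]
  have htrσ : ∀ z, Algebra.trace F K (σ z) = Algebra.trace F K z := fun z => by
    apply hinj
    rw [htr, htr, hσσ, add_comm]
  have hfe : ∀ i j, B (f i) (e j) = if i = j then 1 else 0 := fun i j => by
    rw [hB, herm_symm σ hσσ, htrσ, ← hB, hef]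
    simp [eq_comm]
  have he : ∀ i, normForm F (e i) = 0 := fun i => hinj (by
    rw [algebraMap_normForm σ hnorm, herm_hypE_hypE σ ι₀ ι₁ inj₀ inj₁ hdisj c θ hc, map_zero])
  have hf : ∀ i, normForm F (f i) = 0 := fun i => hinj (by
    rw [algebraMap_normForm σ hnorm, herm_hypF_hypF σ ι₀ ι₁ inj₀ inj₁ hdisj c θ ε hc hε hεθ,
      map_zero])
  have he0 : ∀ i, B (e i) g₀ = 0 := fun i => by
    rw [hB, herm_single_right, het, zero_mul, map_zero]
  have he1 : ∀ i, B (e i) g₁ = 0 := fun i => by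
    rw [hB, herm_single_right, het, zero_mul, map_zero]
  have hf0 : ∀ i, B (f i) g₀ = 0 := fun i => by
    rw [hB, herm_single_right, hft, zero_mul, map_zero]
  have hf1 : ∀ i, B (f i) g₁ = 0 := fun i => by
    rw [hB, herm_single_right, hft, zero_mul, map_zero]
  have hQ0 : normForm F g₀ = 1 := hinj (by
    rw [algebraMap_normForm σ hnorm, herm_single_right]
    simp [g₀])
  have hQ1 : normForm F g₁ = b := hinj (by
    rw [algebraMap_normForm σ hnorm, herm_single_right]
    simp [g₁, hρ2])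
  have hB01 : B g₀ g₁ = a := hinj (by
    rw [hB, htr, herm_single_right]
    simp [g₀, hσσ]
    rw [← hρ1]
    ring)
  -- linear independence of the hyperbolic part
  let b₀ : Fin (2 * k) ⊕ Fin (2 * k) → (Fin (2 * k + 1) → K) := Sum.elim e f
  have hgram : ∀ s t, B (b₀ s) (b₀ t) =
      (Matrix.fromBlocks 0 1 1 0 :
        Matrix (Fin (2 * k) ⊕ Fin (2 * k)) (Fin (2 * k) ⊕ Fin (2 * k)) F) s t := by
    rintro (i | i) (j | j) <;> simp [b₀, hee, hff, hef, hfe, Matrix.one_apply]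
  have hdet : (Matrix.fromBlocks 0 1 1 0 :
      Matrix (Fin (2 * k) ⊕ Fin (2 * k)) (Fin (2 * k) ⊕ Fin (2 * k)) F).det ≠ 0 := by
    intro h
    have h1 : (Matrix.fromBlocks 0 1 1 0 :
        Matrix (Fin (2 * k) ⊕ Fin (2 * k)) (Fin (2 * k) ⊕ Fin (2 * k)) F) *
        Matrix.fromBlocks 0 1 1 0 = 1 := by
      rw [Matrix.fromBlocks_multiply]
      simp [Matrix.fromBlocks_one]
    have h3 := congrArg Matrix.det h1
    rw [Matrix.det_mul, h] at h3
    simp at h3
  have hli₀ : LinearIndependent F b₀ := linearIndependent_of_gram B b₀ _ hgram hdet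
  let bb : (Fin (2 * k) ⊕ Fin (2 * k)) ⊕ Fin 2 → (Fin (2 * k + 1) → K) :=
    Sum.elim b₀ ![g₀, g₁]
  have hsum : ∀ cc : (Fin (2 * k) ⊕ Fin (2 * k)) ⊕ Fin 2 → F, ∑ s, cc s • bb s =
      ∑ i, cc (Sum.inl (Sum.inl i)) • e i + ∑ i, cc (Sum.inl (Sum.inr i)) • f i +
        (cc (Sum.inr 0) • g₀ + cc (Sum.inr 1) • g₁) := by
    intro cc
    rw [Fintype.sum_sum_type, Fintype.sum_sum_type, Fin.sum_univ_two]
    simp [bb, b₀]
  have hli : LinearIndependent F bb := by
    rw [Fintype.linearIndependent_iff]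
    intro cc hcc
    rw [hsum] at hcc
    have ht := congrFun hcc t
    simp only [Pi.add_apply, Finset.sum_apply, Pi.smul_apply, het, hft, smul_zero,
      Finset.sum_const_zero, zero_add, Pi.zero_apply, g₀, g₁, Pi.single_eq_same] at ht
    rw [Algebra.smul_def, Algebra.smul_def, mul_one] at ht
    have hz : cc (Sum.inr 0) ^ 2 + a * cc (Sum.inr 0) * cc (Sum.inr 1) +
        b * cc (Sum.inr 1) ^ 2 = 0 := by
      apply hinj
      simp only [map_add, map_mul, map_pow, map_zero]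
      rw [← hρ1, ← hρ2]
      linear_combination (algebraMap F K (cc (Sum.inr 0)) +
        algebraMap F K (cc (Sum.inr 1)) * σ ρ) * ht
    obtain ⟨hz0, hz1⟩ := hab _ _ hz
    rw [hz0, hz1, zero_smul, zero_smul, add_zero, add_zero] at hcc
    have h0 := Fintype.linearIndependent_iff.1 hli₀ (fun s => cc (Sum.inl s))
      (by rw [Fintype.sum_sum_type]; simpa [b₀] using hcc)
    rintro ((i | i) | r)
    · exact h0 (Sum.inl i)
    · exact h0 (Sum.inr i)
    · fin_cases r
      · exact hz0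
      · exact hz1
  have hcard : Fintype.card ((Fin (2 * k) ⊕ Fin (2 * k)) ⊕ Fin 2) =
      finrank F (Fin (2 * k + 1) → K) := by
    rw [Module.finrank_pi_fintype]
    simp [h2]
    ring
  have : FiniteDimensional F K := Module.finite_of_finrank_pos (by omega)
  let Bs := basisOfLinearIndependentOfCardEqFinrank' bb hli hcard
  refine exists_hom_isometryGroup Bs (glRep F (Cfsg.GU (2 * k + 1) K (Fintype.card F)))
    (glRep_injective _ _) (Cfsg.quadFormMinus (2 * k) F a b) (normForm F) ?_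
    (fun g v => normForm_glRep σ hσ hnorm g v)
  intro v
  have hv : v = ∑ s, (Bs.repr v s) • bb s := by
    conv_lhs => rw [← Bs.sum_repr v]
    simp [Bs]
  conv_lhs => rw [hv, hsum]
  rw [hyp_expand_add (normForm F) B (normForm_add σ hσσ htr hnorm) (normForm_smul σ hnorm) e f
    he hf hee hff hef g₀ g₁ he0 he1 hf0 hf1, hQ0, hQ1, hB01]
  simp only [Cfsg.quadFormMinus]
  ring

/-- For m odd, the unitary group GU_m(q) (over the field with q² elements) embeds in the orthogonal group O⁻_2m(q) of an elliptic form (Σ_(i<m−1) x_i y_i plus an anisotropic binary form) over the field with q elements (there is an injective homomorphism). -/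
theorem result {K F : Type*} [Field K] [Fintype K] [Field F] [Fintype F] {q : ℕ} (hK : Fintype.card K = q ^ 2) (hF : Fintype.card F = q) (m : ℕ) (hm : Odd m) (a b : F) (hab : ∀ z₁ z₂ : F, z₁ ^ 2 + a * z₁ * z₂ + b * z₂ ^ 2 = 0 → z₁ = 0 ∧ z₂ = 0) : ∃ φ : ↥(Cfsg.GU m K q) →* ↥(Cfsg.isometryGroup F (Cfsg.quadFormMinus (m - 1) F a b)), Function.Injective φ := by
  subst hF
  obtain ⟨k, rfl⟩ := hm
  exact aux hK k a b hab

end Cfsg.Agent.S2641
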