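import Cfsg.Statements.S2642
import Cfsg.Agent.Lib.Helper51.JBlocks
import Cfsg.Agent.S2587
import Cfsg.Agent.S2588

set_option autoImplicit false
open Cfsg

namespace Cfsg.Agent.S2642

open Cfsg.Agent.Lib.Helper51.Jordan Cfsg.Agent.Lib.Helper51.JType Cfsg.Agent.Lib.Helper51.JBlocks
open scoped Matrix

universe v

section prep

variable {F : Type v} [Field F]

/-- Every multiset of naturals is the multiset of values of a function on some `Fin t`. -/
theorem exists_d (μ : Multiset ℕ) : ∃ (t : ℕ) (d : Fin t → ℕ), Finset.univ.val.map d = μ := by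
  refine ⟨μ.toList.length, μ.toList.get, ?_⟩
  rw [Fin.univ_val_map, List.ofFn_get, Multiset.coe_toList]

/-- The entries of the matrix of Jordan type `d` are fixed by any map fixing `0` and `1`. -/
theorem jt_map {t : ℕ} (d : Fin t → ℕ) (f : F → F) (h0 : f 0 = 0) (h1 : f 1 = 1) :
    (Cfsg.jordanTypeMatrix d F).map f = Cfsg.jordanTypeMatrix d F := by
  ext x y
  rw [Matrix.map_apply]
  unfold Cfsg.jordanTypeMatrix
  rw [Matrix.blockDiagonal'_apply]
  split_ifs with h
  · unfold Cfsg.jordanBlock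
    rw [Matrix.of_apply]
    split_ifs <;> simp [h0, h1]
  · exact h0

variable {ι : Type*} [Fintype ι] [DecidableEq ι]

theorem kap_inv (X : Matrix ι ι F) (hX : IsUnit X.det) (j : ℕ) :
    kap (Matrix.toLin' (X⁻¹ - 1)) j = kap (Matrix.toLin' (X - 1)) j := by
  have e : X⁻¹ - 1 = X⁻¹ * (-(X - 1)) := by
    rw [Matrix.mul_neg, Matrix.mul_sub, Matrix.nonsing_inv_mul _ hX, Matrix.mul_one]
    abel
  have e' : X⁻¹ * (-(X - 1)) = (-(X - 1)) * X⁻¹ := by
    rw [Matrix.mul_neg, Matrix.mul_sub, Matrix.nonsing_inv_mul _ hX, Matrix.mul_one,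
      Matrix.neg_mul, Matrix.sub_mul, Matrix.mul_nonsing_inv _ hX, Matrix.one_mul]
  rw [e, Matrix.toLin'_mul]
  have hU : IsUnit (Matrix.toLin' X⁻¹) := by
    refine ⟨⟨Matrix.toLin' X⁻¹, Matrix.toLin' X, ?_, ?_⟩, rfl⟩
    · rw [Module.End.mul_eq_comp, ← Matrix.toLin'_mul, Matrix.nonsing_inv_mul _ hX,
        Matrix.toLin'_one]
      rfl
    · rw [Module.End.mul_eq_comp, ← Matrix.toLin'_mul, Matrix.mul_nonsing_inv _ hX,
        Matrix.toLin'_one]
      rfl
  have hc : Commute (Matrix.toLin' X⁻¹) (Matrix.toLin' (-(X - 1))) := by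
    show Matrix.toLin' X⁻¹ * Matrix.toLin' (-(X - 1))
      = Matrix.toLin' (-(X - 1)) * Matrix.toLin' X⁻¹
    rw [Module.End.mul_eq_comp, Module.End.mul_eq_comp, ← Matrix.toLin'_mul, ← Matrix.toLin'_mul,
      e']
  have h1 := kap_unit_mul _ _ hU hc j
  rw [Module.End.mul_eq_comp] at h1
  have h2 : Matrix.toLin' (-(X - 1)) = -(Matrix.toLin' (X - 1) : Module.End F (ι → F)) :=
    map_neg _ _
  rw [h1, h2, kap_neg]

end prep

section gu

variable {K : Type v} [Field K] [Fintype K] {q n : ℕ}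

/-- Every unipotent Jordan type occurs in the general unitary group. -/
theorem exists_gu (hK : Fintype.card K = q ^ 2) (μ : Multiset ℕ) (hμ : μ.sum = n) :
    ∃ B : ↥(Cfsg.GU n K q), ∀ j,
      kap (Matrix.toLin' (((B : GL (Fin n) K) : Matrix (Fin n) (Fin n) K) - 1)) j = kapM μ j := by
  obtain ⟨t, d, rfl⟩ := exists_d μ
  have hq : q ≠ 0 := by
    rintro rfl
    rw [zero_pow two_ne_zero] at hK
    exact Fintype.card_ne_zero hK
  have hcard : Fintype.card ((k : Fin t) × Fin (d k)) = Fintype.card (Fin n) := by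
    rw [Fintype.card_sigma, Fintype.card_fin]
    simp only [Fintype.card_fin]
    exact hμ
  obtain ⟨e, -⟩ : ∃ e : ((k : Fin t) × Fin (d k)) ≃ Fin n, e = e :=
    ⟨Fintype.equivOfCardEq hcard, rfl⟩
  obtain ⟨A₀, hA₀⟩ : ∃ A₀ : Matrix (Fin n) (Fin n) K,
      A₀ = Matrix.reindex e e (Cfsg.jordanTypeMatrix d K) := ⟨_, rfl⟩
  have hkap : ∀ j, kap (Matrix.toLin' (A₀ - 1)) j = kapM (Finset.univ.val.map d) j := by
    intro j
    rw [hA₀, reindex_sub_one, kap_reindex, kap_jordanType]
  have hfull : kapM (Finset.univ.val.map d) n = Fintype.card (Fin n) := by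
    rw [(kapM_eq_sum_iff _ n).mpr (fun c hc => hμ ▸ Multiset.le_sum_of_mem hc), hμ,
      Fintype.card_fin]
  have hnil : IsNilpotent (A₀ - 1) := by
    apply mat_nil_of_kap _ n
    rw [hkap, hfull]
  have hu : IsUnit A₀ := by
    have := hnil.isUnit_one_add
    rwa [add_sub_cancel] at this
  have hmap : A₀.map (fun x : K => x ^ q) = A₀ := by
    ext i j
    have := congrFun (congrFun (jt_map d (fun x : K => x ^ q) (zero_pow hq) (one_pow q))
      (e.symm i)) (e.symm j)
    rw [hA₀]
    simpa [Matrix.map_apply] using this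
  have hdetT : IsUnit (A₀ᵀ).det := by
    rw [Matrix.det_transpose]
    exact (Matrix.isUnit_iff_isUnit_det _).mp hu
  have hk2 : ∀ j, kap (Matrix.toLin' ((A₀ᵀ)⁻¹ - 1)) j = kap (Matrix.toLin' (A₀ - 1)) j := by
    intro j
    rw [kap_inv _ hdetT, show A₀ᵀ - 1 = (A₀ - 1)ᵀ by
      rw [Matrix.transpose_sub, Matrix.transpose_one], kap_transpose]
  have hconj : IsConj A₀ ((A₀.map (fun x : K => x ^ q))ᵀ)⁻¹ := by
    rw [hmap]
    apply isConj_of_kap' _ _ hnil
    · apply mat_nil_of_kap _ n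
      rw [hk2, hkap, hfull]
    · intro j
      rw [hk2]
  obtain ⟨B, hB⟩ := (Cfsg.Agent.S2588.result hK hu.unit).mpr (by
    rw [IsUnit.unit_spec]
    exact hconj)
  refine ⟨B, fun j => ?_⟩
  rw [← kap_of_isConj _ _ hB j, IsUnit.unit_spec, hkap]

end gu

theorem pow_p_iff {K : Type*} [Field K] (p : ℕ) [Fact p.Prime] [CharP K p] {n : ℕ}
    (g : GL (Fin n) K) : g ^ p = 1 ↔ ((g : Matrix (Fin n) (Fin n) K) - 1) ^ p = 0 := by
  rcases Nat.eq_zero_or_pos n with rfl | hn
  · constructor <;> intro _ <;> exact Subsingleton.elim _ _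
  · have : Nonempty (Fin n) := ⟨⟨0, hn⟩⟩
    have hcomm : Commute (g : Matrix (Fin n) (Fin n) K) 1 := Commute.one_right _
    rw [sub_pow_char_of_commute p hcomm, one_pow, sub_eq_zero]
    constructor
    · intro h
      rw [← Units.val_pow_eq_pow_val, h]
      rfl
    · intro h
      apply Units.ext
      rw [Units.val_pow_eq_pow_val, h]
      rfl

/-- Number of conjugacy classes of elements of order p in the general unitary group GU_n(q), q a power of p: every unipotent Jordan type occurs and the classes correspond to the partitions of n with all parts at most p other than the all-ones partition, exactly as in GL_n; so there are (number of partitions of n with parts ≤ p) − 1 classes. -/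
theorem result {K : Type*} [Field K] [Fintype K] {p q n : ℕ} [Fact p.Prime] [CharP K p] (hK : Fintype.card K = q ^ 2) : Nat.card {C : ConjClasses ↥(Cfsg.GU n K q) // ∃ g : ↥(Cfsg.GU n K q), ConjClasses.mk g = C ∧ orderOf g = p} = (Finset.univ.filter (fun μ : Nat.Partition n => ∀ a ∈ μ.parts, a ≤ p)).card - 1 := by
  classical
  have hp : p.Prime := Fact.out
  choose G hG using fun μ : Nat.Partition n => exists_gu (q := q) hK μ.parts μ.parts_sum
  have hpow : ∀ (g : ↥(Cfsg.GU n K q)) (μ : Multiset ℕ), μ.sum = n →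
      (∀ j, kap (Matrix.toLin' (((g : GL (Fin n) K) : Matrix (Fin n) (Fin n) K) - 1)) j
        = kapM μ j) →
      ∀ m, (((g : GL (Fin n) K) : Matrix (Fin n) (Fin n) K) - 1) ^ m = 0 ↔ ∀ a ∈ μ, a ≤ m := by
    intro g μ hsum hk m
    rw [← kapM_eq_sum_iff, ← hk, hsum]
    constructor
    · intro h
      have := kap_of_pow_zero
        (Matrix.toLin' (((g : GL (Fin n) K) : Matrix (Fin n) (Fin n) K) - 1)) m
        (by rw [← Matrix.toLin'_pow, h, map_zero])
      rw [this, finrank_fn]
    · intro h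
      apply Matrix.toLin'.injective
      rw [Matrix.toLin'_pow, map_zero]
      apply pow_zero_of_kap
      rw [h, finrank_fn]
  have key : ∀ (g : ↥(Cfsg.GU n K q)) (μ : Multiset ℕ), μ.sum = n →
      (∀ j, kap (Matrix.toLin' (((g : GL (Fin n) K) : Matrix (Fin n) (Fin n) K) - 1)) j
        = kapM μ j) →
      (orderOf g = p ↔ (∀ a ∈ μ, a ≤ p) ∧ ¬ (∀ a ∈ μ, a ≤ 1)) := by
    intro g μ hsum hk
    rw [← Subgroup.orderOf_coe, orderOf_eq_prime_iff, pow_p_iff p, hpow g μ hsum hk p,
      ← hpow g μ hsum hk 1, pow_one, sub_eq_zero]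
    constructor
    · rintro ⟨h1, h2⟩
      exact ⟨h1, fun h => h2 (Units.ext h)⟩
    · rintro ⟨h1, h2⟩
      exact ⟨h1, fun h => h2 (by rw [h]; rfl)⟩
  have hnilG : ∀ μ : Nat.Partition n, IsNilpotent
      (((G μ : GL (Fin n) K) : Matrix (Fin n) (Fin n) K) - 1) := by
    intro μ
    refine ⟨n, ?_⟩
    rw [hpow (G μ) μ.parts μ.parts_sum (hG μ) n]
    intro a ha
    have := Multiset.le_sum_of_mem ha
    rw [μ.parts_sum] at this
    exact this
  have hT : Nat.card {C : ConjClasses ↥(Cfsg.GU n K q) //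
      ∃ g : ↥(Cfsg.GU n K q), ConjClasses.mk g = C ∧ orderOf g = p}
      = Nat.card {μ : Nat.Partition n // (∀ a ∈ μ.parts, a ≤ p) ∧ ¬ (∀ a ∈ μ.parts, a ≤ 1)} := by
    symm
    refine Nat.card_eq_of_bijective (fun μ => ⟨ConjClasses.mk (G μ.1), G μ.1, rfl,
      (key (G μ.1) μ.1.parts μ.1.parts_sum (hG μ.1)).mpr μ.2⟩) ⟨?_, ?_⟩
    · intro μ ν h
      have h1 : ConjClasses.mk (G μ.1) = ConjClasses.mk (G ν.1) := congrArg Subtype.val h
      have h2 := (Cfsg.Agent.S2587.result hK _ _).mp (ConjClasses.mk_eq_mk_iff_isConj.mp h1)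
      apply Subtype.ext
      apply Nat.Partition.ext
      apply kapM_inj _ _ (fun c hc => μ.1.parts_pos hc) (fun c hc => ν.1.parts_pos hc)
      intro j
      rw [← hG μ.1 j, ← hG ν.1 j]
      exact kap_of_isConj _ _ h2 j
    · rintro ⟨C, g, rfl, hg⟩
      have hgp : (((g : GL (Fin n) K) : Matrix (Fin n) (Fin n) K) - 1) ^ p = 0 := by
        rw [← pow_p_iff p]
        rw [← Subgroup.orderOf_coe] at hg
        rw [← hg]
        exact pow_orderOf_eq_one _
      have hnil : IsNilpotent (((g : GL (Fin n) K) : Matrix (Fin n) (Fin n) K) - 1) := ⟨p, hgp⟩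
      obtain ⟨μ', hpos, hsum, hk⟩ := exists_type_gl (g : GL (Fin n) K) hnil
      refine ⟨⟨⟨μ', fun {i} hi => hpos i hi, hsum⟩, (key g μ' hsum hk).mp hg⟩, ?_⟩
      apply Subtype.ext
      apply ConjClasses.mk_eq_mk_iff_isConj.mpr
      rw [Cfsg.Agent.S2587.result hK]
      apply isConj_of_kap _ _ (hnilG _) hnil
      intro j
      rw [hG, hk]
  rw [hT, Nat.card_eq_fintype_card, Fintype.card_subtype]
  have hsplit := Finset.card_filter_add_card_filter_not
    (s := Finset.univ.filter (fun μ : Nat.Partition n => ∀ a ∈ μ.parts, a ≤ p))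
    (fun μ : Nat.Partition n => ∀ a ∈ μ.parts, a ≤ 1)
  rw [Finset.filter_filter, Finset.filter_filter] at hsplit
  have hone : (Finset.univ.filter (fun μ : Nat.Partition n =>
      (∀ a ∈ μ.parts, a ≤ p) ∧ ∀ a ∈ μ.parts, a ≤ 1)).card = 1 := by
    rw [Finset.card_eq_one]
    refine ⟨⟨Multiset.replicate n 1, fun {i} hi => by
      rw [Multiset.eq_of_mem_replicate hi]
      exact one_pos, by simp⟩, ?_⟩
    ext μ
    rw [Finset.mem_filter, Finset.mem_singleton]
    constructor
    · rintro ⟨-, -, h1⟩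
      apply Nat.Partition.ext
      have hall : ∀ b ∈ μ.parts, b = 1 := by
        intro b hb
        have := h1 b hb
        have := μ.parts_pos hb
        omega
      have hrep := Multiset.eq_replicate_card.mpr hall
      have hs := μ.parts_sum
      rw [hrep, Multiset.sum_replicate, smul_eq_mul, mul_one] at hs
      show μ.parts = Multiset.replicate n 1
      rw [hrep, hs]
    · rintro rfl
      refine ⟨Finset.mem_univ _, ?_, ?_⟩
      · intro a ha
        rw [Multiset.eq_of_mem_replicate ha]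
        exact hp.one_lt.le
      · intro a ha
        rw [Multiset.eq_of_mem_replicate ha]
  omega

end Cfsg.Agent.S2642
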