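import Cfsg.Statements.S2643
import Cfsg.Agent.S2578
import Cfsg.Agent.S2642
import Cfsg.Agent.Lib.Helper7.SUOrder

set_option autoImplicit false
open Cfsg

namespace Cfsg.Agent.S2643

open Cfsg.Agent.Lib.Helper51.Jordan Cfsg.Agent.Lib.Helper7 Cfsg.Agent.S2578
open scoped Matrix

section endo

variable {F V : Type*} [Field F] [AddCommGroup V] [Module F V] [FiniteDimensional F V]

/-- An endomorphism commuting with a regular nilpotent `N` is `a + N E` with `E` commuting
with `N`, and has determinant `a ^ (m + 1)`. -/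
theorem decomp_of_commute (N c : Module.End F V) (m : ℕ) (hV : Module.finrank F V = m + 1)
    (hN : N ^ (m + 1) = 0) (x : V) (hx : (N ^ m) x ≠ 0) (hc : Commute c N) :
    ∃ (a : F) (E : Module.End F V), c = a • 1 + N * E ∧ Commute N E ∧
      LinearMap.det c = a ^ (m + 1) := by
  have hx0 : (N ^ (m + 1)) x = 0 := by rw [hN]; rfl
  set a := (cycBasis N m hV x hx hx0).repr (c x) with ha
  have hcx : c x = ∑ k : Fin (m + 1), a k • (N ^ (k : ℕ)) x := by
    have h := (cycBasis N m hV x hx hx0).sum_repr (c x)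
    simp only [cycBasis_apply] at h
    exact h.symm
  set p : Module.End F V := ∑ k : Fin (m + 1), a k • N ^ (k : ℕ) with hp
  have hcp : c = p := by
    apply (cycBasis N m hV x hx hx0).ext
    intro j
    rw [cycBasis_apply]
    have h1 : c ((N ^ (j : ℕ)) x) = (N ^ (j : ℕ)) (c x) :=
      LinearMap.congr_fun (hc.pow_right (j : ℕ)).eq x
    rw [h1, hcx, map_sum, hp, LinearMap.sum_apply]
    apply Finset.sum_congr rfl
    intro k _
    rw [map_smul, LinearMap.smul_apply, ← Module.End.mul_apply, ← Module.End.mul_apply, ← pow_add,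
      ← pow_add, add_comm (j : ℕ) (k : ℕ)]
  set E : Module.End F V := ∑ k : Fin m, a k.succ • N ^ (k : ℕ) with hE
  have hpE : p = a 0 • 1 + N * E := by
    rw [hp, Fin.sum_univ_succ, hE, Finset.mul_sum]
    have e0 : a 0 • N ^ ((0 : Fin (m + 1)) : ℕ) = a 0 • (1 : Module.End F V) := by simp
    rw [e0]
    congr 1
    apply Finset.sum_congr rfl
    intro k _
    rw [Fin.val_succ, pow_succ', mul_smul_comm]
  have hNE : Commute N E := by
    rw [hE]
    apply Commute.sum_right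
    intro k _
    exact ((Commute.refl N).pow_right _).smul_right _
  have hD : (N * E) ^ (m + 1) = 0 := by rw [hNE.mul_pow, hN, zero_mul]
  refine ⟨a 0, E, hcp.trans hpE, hNE, ?_⟩
  have hnil : IsNilpotent (-(N * E)) := ⟨m + 1, by rw [neg_pow, hD, mul_zero]⟩
  have hch := hnil.charpoly_eq_X_pow_finrank
  have hev := LinearMap.eval_charpoly (-(N * E)) (a 0)
  rw [hch, Polynomial.eval_pow, Polynomial.eval_X, hV] at hev
  rw [hcp, hpE, hev]
  congr 1
  rw [sub_neg_eq_add, Algebra.algebraMap_eq_smul_one]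

end endo

section unitary

variable {K : Type*} [Field K] [Fintype K] {q m : ℕ}

/-- Matrices preserving the Hermitian form. -/
def Pres (q : ℕ) (M : Matrix (Fin (m + 1)) (Fin (m + 1)) K) : Prop :=
  ∀ u v, Cfsg.hermForm (m + 1) K q (M *ᵥ u) (M *ᵥ v) = Cfsg.hermForm (m + 1) K q u v

theorem Pres.mul {A B : Matrix (Fin (m + 1)) (Fin (m + 1)) K} (hA : Pres q A) (hB : Pres q B) :
    Pres q (A * B) := by
  intro u v
  rw [← Matrix.mulVec_mulVec, ← Matrix.mulVec_mulVec, hA, hB]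

theorem Pres.isUnit_det (hK : Fintype.card K = q ^ 2) {A : Matrix (Fin (m + 1)) (Fin (m + 1)) K}
    (hA : Pres q A) : IsUnit A.det :=
  (Matrix.isUnit_iff_isUnit_det A).mp (isUnit_of_preserves hK A hA)

theorem Pres.inv (hK : Fintype.card K = q ^ 2) {A : Matrix (Fin (m + 1)) (Fin (m + 1)) K}
    (hA : Pres q A) : Pres q A⁻¹ := by
  intro u v
  have h := hA (A⁻¹ *ᵥ u) (A⁻¹ *ᵥ v)
  rw [Matrix.mulVec_mulVec, Matrix.mulVec_mulVec, Matrix.mul_nonsing_inv A (hA.isUnit_det hK),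
    Matrix.one_mulVec, Matrix.one_mulVec] at h
  exact h.symm

theorem Pres.smul {A : Matrix (Fin (m + 1)) (Fin (m + 1)) K} (hA : Pres q A) {a : K}
    (ha : a ^ (q + 1) = 1) : Pres q (a • A) := by
  intro u v
  rw [Matrix.smul_mulVec, Matrix.smul_mulVec, hf_smul_left, hf_smul_right, hA, ← mul_assoc,
    ← pow_succ', ha, one_mul]

theorem Pres.det_pow (hK : Fintype.card K = q ^ 2) {A : Matrix (Fin (m + 1)) (Fin (m + 1)) K}
    (hA : Pres q A) : A.det ^ (q + 1) = 1 :=
  det_pow_of_isFr hK A (isFr_of_preserves hK A hA)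

theorem exists_pres_det (hK : Fintype.card K = q ^ 2) (d : K) (hd : d ^ (q + 1) = 1) :
    ∃ P : Matrix (Fin (m + 1)) (Fin (m + 1)) K, Pres q P ∧ P.det = d := by
  classical
  let w : Fin (m + 1) → K := Function.update (fun _ => (1 : K)) 0 d
  have hw : ∀ i, w i ^ (q + 1) = 1 := by
    intro i
    by_cases hi : i = 0
    · subst hi
      simp only [w, Function.update_self]
      exact hd
    · simp only [w, Function.update_of_ne hi, one_pow]
  refine ⟨Matrix.diagonal w, preserves_of_isFr hK _ (isFr_diagonal hK w hw), ?_⟩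
  rw [Matrix.det_diagonal]
  simp only [w]
  rw [Finset.prod_update_of_mem (Finset.mem_univ _)]
  simp

/-- A unitary matrix commuting with a regular unipotent unitary matrix has determinant
`a ^ (m + 1)` with `a ^ (q + 1) = 1`. -/
theorem det_of_commute_pres (hK : Fintype.card K = q ^ 2)
    {U C : Matrix (Fin (m + 1)) (Fin (m + 1)) K} (hU : Reg U) (hUp : Pres q U) (hCp : Pres q C)
    (hC : C * U = U * C) : ∃ a : K, a ^ (q + 1) = 1 ∧ C.det = a ^ (m + 1) := by
  classical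
  obtain ⟨x, hx⟩ := hU.exists_cyclic
  have hc : Commute (Matrix.toLin' C) (Matrix.toLin' (U - 1)) := by
    show Matrix.toLin' C * Matrix.toLin' (U - 1) = Matrix.toLin' (U - 1) * Matrix.toLin' C
    rw [Module.End.mul_eq_comp, Module.End.mul_eq_comp, ← Matrix.toLin'_mul, ← Matrix.toLin'_mul,
      mul_sub, sub_mul, hC, mul_one, one_mul]
  obtain ⟨a, E, hcE, hNE, hdet⟩ := decomp_of_commute (V := Fin (m + 1) → K)
    (Matrix.toLin' (U - 1)) (Matrix.toLin' C) m (Module.finrank_fin_fun K) hU.pow_eq x hx hc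
  refine ⟨a, ?_, by rw [← hdet, LinearMap.det_toLin']⟩
  set N := Matrix.toLin' (U - 1) with hNdef
  set y₀ := (N ^ m) x with hy₀
  have hNy : N y₀ = 0 := by
    rw [hy₀, ← Module.End.mul_apply, ← pow_succ', hU.pow_eq]
    rfl
  have hNapp : ∀ w, N w = U *ᵥ w - w := by
    intro w
    rw [hNdef, Matrix.toLin'_apply, Matrix.sub_mulVec, Matrix.one_mulVec]
  have hUy : U *ᵥ y₀ = y₀ := by
    have h := hNapp y₀
    rw [hNy] at h
    exact (sub_eq_zero.mp h.symm)
  have hCapp : ∀ w, C *ᵥ w = a • w + N (E w) := by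
    intro w
    have h := LinearMap.congr_fun hcE w
    rw [Matrix.toLin'_apply] at h
    rw [h]
    rfl
  have hCy : C *ᵥ y₀ = a • y₀ := by
    rw [hCapp]
    have h1 : N (E y₀) = E (N y₀) := LinearMap.congr_fun hNE.eq y₀
    rw [h1, hNy, map_zero, add_zero]
  have hperp : ∀ w, Cfsg.hermForm (m + 1) K q (N w) y₀ = 0 := by
    intro w
    rw [hNapp, hf_sub_left]
    have h := hUp w y₀
    rw [hUy] at h
    rw [h, sub_self]
  obtain ⟨i, hi⟩ : ∃ i, y₀ i ≠ 0 := by
    by_contra hcon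
    exact hx (funext fun i => not_not.mp fun h => hcon ⟨i, h⟩)
  have hz : Cfsg.hermForm (m + 1) K q (Pi.single i 1) y₀ = (y₀ i) ^ q := by
    unfold Cfsg.hermForm
    rw [Finset.sum_eq_single i]
    · simp
    · intro l _ hl
      simp [Pi.single_apply, hl]
    · intro h
      exact absurd (Finset.mem_univ i) h
  have hz0 : Cfsg.hermForm (m + 1) K q (Pi.single i 1) y₀ ≠ 0 := by
    rw [hz]
    exact pow_ne_zero _ hi
  have hmain := hCp (Pi.single i 1) y₀
  rw [hCy, hCapp, hf_smul_right, hf_add_left, hf_smul_left, hperp, add_zero, ← mul_assoc,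
    ← pow_succ] at hmain
  have h2 : (a ^ (q + 1) - 1) * Cfsg.hermForm (m + 1) K q (Pi.single i 1) y₀ = 0 := by
    rw [sub_mul, hmain, one_mul, sub_self]
  rcases mul_eq_zero.mp h2 with h3 | h3
  · exact sub_eq_zero.mp h3
  · exact absurd h3 hz0

theorem det_of_reg {U : Matrix (Fin (m + 1)) (Fin (m + 1)) K} (hU : Reg U) : U.det = 1 := by
  have h : U = LinearMap.toMatrix' (1 + Matrix.toLin' (U - 1)) := by
    rw [map_add, LinearMap.toMatrix'_one, LinearMap.toMatrix'_toLin', add_sub_cancel]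
  rw [h, LinearMap.det_toMatrix']
  exact det_one_add_nilpotent _ ⟨m + 1, hU.pow_eq⟩

/-- A regular unipotent element of `GU`. -/
theorem exists_reg_gu (hK : Fintype.card K = q ^ 2) :
    ∃ g : ↥(Cfsg.GU (m + 1) K q),
      Reg ((g : GL (Fin (m + 1)) K) : Matrix (Fin (m + 1)) (Fin (m + 1)) K) := by
  obtain ⟨B, hB⟩ := Cfsg.Agent.S2642.exists_gu (n := m + 1) hK {m + 1} (by simp)
  refine ⟨B, ?_, ?_⟩
  · have h1 := hB (m + 1)
    have h2 := pow_zero_of_kap (Matrix.toLin'
      (((B : GL (Fin (m + 1)) K) : Matrix (Fin (m + 1)) (Fin (m + 1)) K) - 1)) (m + 1)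
      (by rw [h1, finrank_fn]; simp [kapM])
    apply Matrix.toLin'.injective
    rw [Matrix.toLin'_pow, h2, map_zero]
  · have h1 := hB 1
    have h3 := LinearMap.finrank_range_add_finrank_ker (Matrix.toLin'
      (((B : GL (Fin (m + 1)) K) : Matrix (Fin (m + 1)) (Fin (m + 1)) K) - 1))
    unfold kap at h1
    rw [pow_one] at h1
    rw [h1, Module.finrank_fin_fun] at h3
    have h4 : kapM {m + 1} 1 = 1 := by simp [kapM]
    rw [h4] at h3
    show Module.finrank K (LinearMap.range (Matrix.toLin'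
      (((B : GL (Fin (m + 1)) K) : Matrix (Fin (m + 1)) (Fin (m + 1)) K) - 1))) = m
    exact Nat.add_right_cancel h3

end unitary

section count

variable {K : Type*} [Field K] [Fintype K] {q m : ℕ}

/-- Conjugates `P U P⁻¹`, `P' U P'⁻¹` (with `P, P'` unitary) of a regular unipotent unitary `U`
are `SU`-conjugate exactly when `det P / det P'` is an `(m+1)`-th power of a norm-one element. -/
theorem isConj_iff_det_pres (hK : Fintype.card K = q ^ 2)
    {U P P' : Matrix (Fin (m + 1)) (Fin (m + 1)) K} (hU : Reg U) (hUp : Pres q U)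
    (hP : Pres q P) (hP' : Pres q P') (B B' : ↥(Cfsg.SU (m + 1) K q))
    (hB : ((B : Matrix.SpecialLinearGroup (Fin (m + 1)) K) :
      Matrix (Fin (m + 1)) (Fin (m + 1)) K) = P * U * P⁻¹)
    (hB' : ((B' : Matrix.SpecialLinearGroup (Fin (m + 1)) K) :
      Matrix (Fin (m + 1)) (Fin (m + 1)) K) = P' * U * P'⁻¹) :
    IsConj B B' ↔ ∃ a : K, a ^ (q + 1) = 1 ∧ P.det = P'.det * a ^ (m + 1) := by
  have hPu : IsUnit P.det := hP.isUnit_det hK
  have hPu' : IsUnit P'.det := hP'.isUnit_det hK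
  rw [isConj_iff]
  constructor
  · rintro ⟨c, hc⟩
    rw [mul_inv_eq_iff_eq_mul] at hc
    have h : ((c : Matrix.SpecialLinearGroup (Fin (m + 1)) K) :
          Matrix (Fin (m + 1)) (Fin (m + 1)) K)
          * ((B : Matrix.SpecialLinearGroup (Fin (m + 1)) K) :
          Matrix (Fin (m + 1)) (Fin (m + 1)) K)
        = ((B' : Matrix.SpecialLinearGroup (Fin (m + 1)) K) :
          Matrix (Fin (m + 1)) (Fin (m + 1)) K)
          * ((c : Matrix.SpecialLinearGroup (Fin (m + 1)) K) :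
          Matrix (Fin (m + 1)) (Fin (m + 1)) K) := by
      have h := congrArg (fun x : ↥(Cfsg.SU (m + 1) K q) =>
        ((x : Matrix.SpecialLinearGroup (Fin (m + 1)) K) :
          Matrix (Fin (m + 1)) (Fin (m + 1)) K)) hc
      simpa only [Subgroup.coe_mul, Matrix.SpecialLinearGroup.coe_mul] using h
    have hSp : Pres q ((c : Matrix.SpecialLinearGroup (Fin (m + 1)) K) :
          Matrix (Fin (m + 1)) (Fin (m + 1)) K) := (mem_SU_iff c.1).mp c.2
    have hSd : ((c : Matrix.SpecialLinearGroup (Fin (m + 1)) K) :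
          Matrix (Fin (m + 1)) (Fin (m + 1)) K).det = 1 := c.1.2
    generalize ((c : Matrix.SpecialLinearGroup (Fin (m + 1)) K) :
          Matrix (Fin (m + 1)) (Fin (m + 1)) K) = S at h hSp hSd
    rw [hB, hB'] at h
    have hC : (P'⁻¹ * S * P) * U = U * (P'⁻¹ * S * P) := by
      calc (P'⁻¹ * S * P) * U = P'⁻¹ * (S * (P * U * P⁻¹)) * P := by
            simp only [mul_assoc]
            rw [Matrix.nonsing_inv_mul P hPu, mul_one]
        _ = P'⁻¹ * (P' * U * P'⁻¹ * S) * P := by rw [h]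
        _ = (P'⁻¹ * P') * U * (P'⁻¹ * S * P) := by simp only [mul_assoc]
        _ = U * (P'⁻¹ * S * P) := by rw [Matrix.nonsing_inv_mul P' hPu', one_mul]
    obtain ⟨a, ha, hdet⟩ := det_of_commute_pres hK hU hUp (((hP'.inv hK).mul hSp).mul hP) hC
    rw [Matrix.det_mul, Matrix.det_mul, hSd, mul_one, Matrix.det_nonsing_inv] at hdet
    refine ⟨a, ha, ?_⟩
    rw [← hdet, ← mul_assoc, Ring.mul_inverse_cancel _ hPu', one_mul]
  · rintro ⟨a, ha, hdet⟩
    have ha0 : a ≠ 0 := by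
      rintro rfl
      rw [zero_pow (Nat.succ_ne_zero q)] at ha
      exact zero_ne_one ha
    have hSd : (a • (P' * P⁻¹)).det = 1 := by
      rw [Matrix.det_smul, Matrix.det_mul, Matrix.det_nonsing_inv, Fintype.card_fin, hdet,
        Ring.inverse_eq_inv', mul_inv]
      have h1 : a ^ (m + 1) ≠ 0 := pow_ne_zero _ ha0
      have h2 : P'.det ≠ 0 := hPu'.ne_zero
      field_simp
    have hSp : Pres q (a • (P' * P⁻¹)) := (hP'.mul (hP.inv hK)).smul ha
    refine ⟨⟨⟨a • (P' * P⁻¹), hSd⟩, (mem_SU_iff _).mpr hSp⟩, ?_⟩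
    rw [mul_inv_eq_iff_eq_mul]
    apply Subtype.ext
    apply Subtype.ext
    show (a • (P' * P⁻¹)) * ((B : Matrix.SpecialLinearGroup (Fin (m + 1)) K) :
          Matrix (Fin (m + 1)) (Fin (m + 1)) K)
        = ((B' : Matrix.SpecialLinearGroup (Fin (m + 1)) K) :
          Matrix (Fin (m + 1)) (Fin (m + 1)) K) * (a • (P' * P⁻¹))
    rw [hB, hB', Matrix.smul_mul, Matrix.mul_smul]
    congr 1
    calc P' * P⁻¹ * (P * U * P⁻¹) = P' * (P⁻¹ * P) * U * P⁻¹ := by simp only [mul_assoc]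
      _ = P' * U * P⁻¹ := by rw [Matrix.nonsing_inv_mul P hPu, mul_one]
      _ = P' * U * (P'⁻¹ * P') * P⁻¹ := by rw [Matrix.nonsing_inv_mul P' hPu', mul_one]
      _ = P' * U * P'⁻¹ * (P' * P⁻¹) := by simp only [mul_assoc]

/-- Every regular unipotent element of `SU` is a `GU`-conjugate of a fixed one. -/
theorem exists_rep (hK : Fintype.card K = q ^ 2) (g₀ : ↥(Cfsg.GU (m + 1) K q))
    (h₀ : Reg ((g₀ : GL (Fin (m + 1)) K) : Matrix (Fin (m + 1)) (Fin (m + 1)) K))
    (u : ↥(Cfsg.SU (m + 1) K q))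
    (hu : Reg ((u : Matrix.SpecialLinearGroup (Fin (m + 1)) K) :
      Matrix (Fin (m + 1)) (Fin (m + 1)) K)) :
    ∃ P : Matrix (Fin (m + 1)) (Fin (m + 1)) K, Pres q P ∧
      ((u : Matrix.SpecialLinearGroup (Fin (m + 1)) K) : Matrix (Fin (m + 1)) (Fin (m + 1)) K)
        = P * ((g₀ : GL (Fin (m + 1)) K) : Matrix (Fin (m + 1)) (Fin (m + 1)) K) * P⁻¹ := by
  let gu : ↥(Cfsg.GU (m + 1) K q) := ⟨Matrix.SpecialLinearGroup.toGL u.1,
    (mem_GU_iff _).mpr ((mem_SU_iff u.1).mp u.2)⟩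
  obtain ⟨P₁, hP₁, hPu⟩ := exists_conj_of_reg h₀ hu
  have hconj : IsConj (g₀ : GL (Fin (m + 1)) K) (gu : GL (Fin (m + 1)) K) := by
    rw [isConj_iff]
    refine ⟨Matrix.GeneralLinearGroup.mkOfDetNeZero P₁ hP₁, ?_⟩
    rw [mul_inv_eq_iff_eq_mul]
    apply Units.ext
    exact hPu
  obtain ⟨c, hc⟩ := isConj_iff.mp ((Cfsg.Agent.S2587.result hK g₀ gu).mpr hconj)
  refine ⟨((c : GL (Fin (m + 1)) K) : Matrix (Fin (m + 1)) (Fin (m + 1)) K),
    (mem_GU_iff _).mp c.2, ?_⟩
  have h := congrArg (fun x : ↥(Cfsg.GU (m + 1) K q) =>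
    ((x : GL (Fin (m + 1)) K) : Matrix (Fin (m + 1)) (Fin (m + 1)) K)) hc
  simp only [Subgroup.coe_mul, Subgroup.coe_inv, Units.val_mul, Matrix.coe_units_inv] at h
  exact h.symm

theorem card_classes (hK : Fintype.card K = q ^ 2) :
    Nat.card {C : ConjClasses ↥(Cfsg.SU (m + 1) K q) //
      ∃ u : ↥(Cfsg.SU (m + 1) K q), ConjClasses.mk u = C ∧
        Reg ((u : Matrix.SpecialLinearGroup (Fin (m + 1)) K) :
          Matrix (Fin (m + 1)) (Fin (m + 1)) K)}
      = Nat.gcd (m + 1) (q + 1) := by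
  classical
  obtain ⟨g₀, h₀⟩ := exists_reg_gu (m := m) hK
  have hUp : Pres q ((g₀ : GL (Fin (m + 1)) K) : Matrix (Fin (m + 1)) (Fin (m + 1)) K) :=
    (mem_GU_iff _).mp g₀.2
  have key0 : ∀ u : ↥(Cfsg.SU (m + 1) K q),
      Reg ((u : Matrix.SpecialLinearGroup (Fin (m + 1)) K) :
        Matrix (Fin (m + 1)) (Fin (m + 1)) K) →
      ∃ P : Matrix (Fin (m + 1)) (Fin (m + 1)) K, Pres q P ∧
        ((u : Matrix.SpecialLinearGroup (Fin (m + 1)) K) :
          Matrix (Fin (m + 1)) (Fin (m + 1)) K)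
          = P * ((g₀ : GL (Fin (m + 1)) K) : Matrix (Fin (m + 1)) (Fin (m + 1)) K) * P⁻¹ :=
    fun u hu => exists_rep hK g₀ h₀ u hu
  generalize ((g₀ : GL (Fin (m + 1)) K) : Matrix (Fin (m + 1)) (Fin (m + 1)) K) = U
    at h₀ hUp key0
  have key : ∀ C : {C : ConjClasses ↥(Cfsg.SU (m + 1) K q) //
      ∃ u : ↥(Cfsg.SU (m + 1) K q), ConjClasses.mk u = C ∧
        Reg ((u : Matrix.SpecialLinearGroup (Fin (m + 1)) K) :
          Matrix (Fin (m + 1)) (Fin (m + 1)) K)},
      ∃ (u : ↥(Cfsg.SU (m + 1) K q)) (P : Matrix (Fin (m + 1)) (Fin (m + 1)) K),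
        ConjClasses.mk u = C.1 ∧ Pres q P ∧
          ((u : Matrix.SpecialLinearGroup (Fin (m + 1)) K) :
            Matrix (Fin (m + 1)) (Fin (m + 1)) K) = P * U * P⁻¹ := by
    rintro ⟨C, u, hu, hreg⟩
    obtain ⟨P, hP, hPu⟩ := key0 u hreg
    exact ⟨u, P, hu, hP, hPu⟩
  choose uf Pf h1 h2 h3 using key
  let M : Subgroup Kˣ := (powMonoidHom (q + 1) : Kˣ →* Kˣ).ker
  let H : Subgroup M := (powMonoidHom (m + 1) : M →* M).range
  have hdetM : ∀ P : Matrix (Fin (m + 1)) (Fin (m + 1)) K, Pres q P →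
      ∃ x : M, ((x : Kˣ) : K) = P.det := by
    intro P hP
    refine ⟨⟨Units.mk0 P.det (hP.isUnit_det hK).ne_zero, ?_⟩, rfl⟩
    rw [MonoidHom.mem_ker, powMonoidHom_apply]
    apply Units.ext
    rw [Units.val_pow_eq_pow_val, Units.val_mk0, Units.val_one]
    exact hP.det_pow hK
  choose dM hdM using hdetM
  let ψ : {C : ConjClasses ↥(Cfsg.SU (m + 1) K q) //
      ∃ u : ↥(Cfsg.SU (m + 1) K q), ConjClasses.mk u = C ∧
        Reg ((u : Matrix.SpecialLinearGroup (Fin (m + 1)) K) :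
          Matrix (Fin (m + 1)) (Fin (m + 1)) K)} → M ⧸ H :=
    fun C => QuotientGroup.mk (dM (Pf C) (h2 C))
  have hM1 : ∀ x : M, ((x : Kˣ) : K) ^ (q + 1) = 1 := by
    intro x
    have hx2 := x.2
    rw [MonoidHom.mem_ker, powMonoidHom_apply] at hx2
    have := congrArg (fun z : Kˣ => (z : K)) hx2
    simpa using this
  have hmem : ∀ x y : M, (QuotientGroup.mk x : M ⧸ H) = QuotientGroup.mk y ↔
      ∃ a : K, a ^ (q + 1) = 1 ∧ ((y : Kˣ) : K) = ((x : Kˣ) : K) * a ^ (m + 1) := by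
    intro x y
    rw [QuotientGroup.eq]
    constructor
    · rintro ⟨b, hb⟩
      refine ⟨((b : Kˣ) : K), hM1 b, ?_⟩
      have h := congrArg (fun z : M => ((x : Kˣ) : K) * ((z : Kˣ) : K)) hb
      simp only [powMonoidHom_apply, Subgroup.coe_pow, Units.val_pow_eq_pow_val,
        Subgroup.coe_mul, Subgroup.coe_inv, Units.val_mul, Units.val_inv_eq_inv_val] at h
      rw [h, ← mul_assoc, mul_inv_cancel₀ (x : Kˣ).ne_zero, one_mul]
    · rintro ⟨a, ha, h⟩
      have ha0 : a ≠ 0 := by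
        rintro rfl
        rw [zero_pow (Nat.succ_ne_zero q)] at ha
        exact zero_ne_one ha
      refine ⟨⟨Units.mk0 a ha0, ?_⟩, ?_⟩
      · rw [MonoidHom.mem_ker, powMonoidHom_apply]
        apply Units.ext
        rw [Units.val_pow_eq_pow_val, Units.val_mk0, Units.val_one]
        exact ha
      · apply Subtype.ext
        apply Units.ext
        simp only [powMonoidHom_apply, Subgroup.coe_pow, Units.val_pow_eq_pow_val,
          Subgroup.coe_mul, Subgroup.coe_inv, Units.val_mul, Units.val_inv_eq_inv_val,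
          Units.val_mk0]
        rw [h, ← mul_assoc, inv_mul_cancel₀ (x : Kˣ).ne_zero, one_mul]
  have hbij : Function.Bijective ψ := by
    constructor
    · intro C C' hCC
      have h := (hmem _ _).mp hCC
      rw [hdM, hdM] at h
      have hconj : IsConj (uf C') (uf C) :=
        (isConj_iff_det_pres hK h₀ hUp (h2 C') (h2 C) (uf C') (uf C) (h3 C') (h3 C)).mpr h
      apply Subtype.ext
      rw [← h1 C, ← h1 C']
      exact (ConjClasses.mk_eq_mk_iff_isConj.mpr hconj).symm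
    · intro y
      obtain ⟨d, rfl⟩ := QuotientGroup.mk_surjective y
      obtain ⟨P, hP, hPd⟩ := exists_pres_det (m := m) hK ((d : Kˣ) : K) (hM1 d)
      have hP0 : IsUnit P.det := hP.isUnit_det hK
      have hdet : (P * U * P⁻¹).det = 1 := by
        rw [Matrix.det_mul, Matrix.det_mul, det_of_reg h₀, mul_one, Matrix.det_nonsing_inv,
          Ring.mul_inverse_cancel _ hP0]
      have hpres : Pres q (P * U * P⁻¹) := (hP.mul hUp).mul (hP.inv hK)
      obtain ⟨B, hB⟩ : ∃ B : ↥(Cfsg.SU (m + 1) K q),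
          ((B : Matrix.SpecialLinearGroup (Fin (m + 1)) K) :
            Matrix (Fin (m + 1)) (Fin (m + 1)) K) = P * U * P⁻¹ :=
        ⟨⟨⟨P * U * P⁻¹, hdet⟩, (mem_SU_iff _).mpr hpres⟩, rfl⟩
      have hBreg : Reg ((B : Matrix.SpecialLinearGroup (Fin (m + 1)) K) :
            Matrix (Fin (m + 1)) (Fin (m + 1)) K) := by
        rw [hB]
        exact h₀.conj hP0.ne_zero
      refine ⟨⟨ConjClasses.mk B, B, rfl, hBreg⟩, ?_⟩
      have hconj : IsConj B (uf ⟨ConjClasses.mk B, B, rfl, hBreg⟩) :=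
        (ConjClasses.mk_eq_mk_iff_isConj.mp (h1 ⟨ConjClasses.mk B, B, rfl, hBreg⟩)).symm
      have h := (isConj_iff_det_pres hK h₀ hUp hP (h2 _) B _ hB (h3 _)).mp hconj
      show (QuotientGroup.mk (dM (Pf ⟨ConjClasses.mk B, B, rfl, hBreg⟩)
        (h2 ⟨ConjClasses.mk B, B, rfl, hBreg⟩)) : M ⧸ H) = QuotientGroup.mk d
      rw [hmem, hdM, ← hPd]
      exact h
  rw [Nat.card_eq_of_bijective ψ hbij, ← Subgroup.index_eq_card,
    IsCyclic.index_powMonoidHom_range, herm_card_ker hK, Nat.gcd_comm]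

end count

/-- Regular unipotent classes of SU_n(q). -/
theorem result {K : Type*} [Field K] [Fintype K] {q n : ℕ} (hK : Fintype.card K = q ^ 2) (hn : 2 ≤ n) : Nat.card {C : ConjClasses ↥(Cfsg.SU n K q) // ∃ u : ↥(Cfsg.SU n K q), ConjClasses.mk u = C ∧ (((u : GL (Fin n) K) : Matrix (Fin n) (Fin n) K) - 1) ^ n = 0 ∧ (((u : GL (Fin n) K) : Matrix (Fin n) (Fin n) K) - 1).rank = n - 1} = Nat.gcd n (q + 1) := by
  obtain ⟨m, rfl⟩ : ∃ m, n = m + 1 := ⟨n - 1, by omega⟩
  exact card_classes (m := m) hK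

end Cfsg.Agent.S2643
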