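import Cfsg.Statements.S2665
import Mathlib

set_option autoImplicit false
open Cfsg

namespace Cfsg.Agent.S2665

open Module Polynomial

/-- Auxiliary polynomials. -/
noncomputable def polyA {K : Type*} [Field K] (q : ℕ) (e : ℕ → K) : ℕ → K[X]
  | 0 => C (e 0) * X ^ q
  | (i + 1) => (polyA q e i) ^ q + C (e (i + 1)) * X ^ q

theorem polyA_dvd {K : Type*} [Field K] (q : ℕ) (hq : 2 ≤ q) (e : ℕ → K) (i : ℕ) :
    (X : K[X]) ^ q ∣ polyA q e i := by
  induction i with
  | zero => exact dvd_mul_left _ _
  | succ i ih =>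
    show X ^ q ∣ (polyA q e i) ^ q + C (e (i + 1)) * X ^ q
    apply dvd_add _ (dvd_mul_left _ _)
    exact dvd_trans ih (dvd_pow_self _ (by omega))

theorem polyA_ne_zero {K : Type*} [Field K] (q : ℕ) (hq : 2 ≤ q) (e : ℕ → K) (i : ℕ) :
    (polyA q e i = 0 ∧ ∀ j ≤ i, e j = 0) ∨ (polyA q e i ≠ 0 ∧ q ≤ (polyA q e i).natDegree) := by
  induction i with
  | zero =>
    by_cases h : e 0 = 0
    · left
      refine ⟨by simp [polyA, h], ?_⟩
      intro j hj
      have : j = 0 := by omega
      rw [this, h]
    · right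
      have hd : (polyA q e 0).natDegree = q := natDegree_C_mul_X_pow q (e 0) h
      refine ⟨?_, hd.ge⟩
      intro h0
      rw [h0, natDegree_zero] at hd
      omega
  | succ i ih =>
    rcases ih with ⟨h0, hall⟩ | ⟨hne, hdeg⟩
    · have hA : polyA q e (i + 1) = C (e (i + 1)) * X ^ q := by
        show (polyA q e i) ^ q + C (e (i + 1)) * X ^ q = _
        rw [h0, zero_pow (by omega), zero_add]
      by_cases h : e (i + 1) = 0
      · left
        refine ⟨by rw [hA, h]; simp, ?_⟩
        intro j hj
        rcases Nat.lt_or_ge j (i + 1) with hlt | hge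
        · exact hall j (by omega)
        · have : j = i + 1 := by omega
          rw [this, h]
      · right
        have hd : (polyA q e (i + 1)).natDegree = q := by
          rw [hA]; exact natDegree_C_mul_X_pow q (e (i + 1)) h
        refine ⟨?_, hd.ge⟩
        intro h0'
        rw [h0', natDegree_zero] at hd
        omega
    · right
      have hpow : ((polyA q e i) ^ q).natDegree = q * (polyA q e i).natDegree :=
        natDegree_pow _ _
      have hlt : (C (e (i + 1)) * X ^ q : K[X]).natDegree < ((polyA q e i) ^ q).natDegree := by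
        calc (C (e (i + 1)) * X ^ q : K[X]).natDegree ≤ q := natDegree_C_mul_X_pow_le _ _
          _ < q * q := by nlinarith
          _ ≤ q * (polyA q e i).natDegree := Nat.mul_le_mul_left q hdeg
          _ = ((polyA q e i) ^ q).natDegree := hpow.symm
      have hd : (polyA q e (i + 1)).natDegree = q * (polyA q e i).natDegree := by
        show ((polyA q e i) ^ q + C (e (i + 1)) * X ^ q).natDegree = _
        rw [natDegree_add_eq_left_of_natDegree_lt hlt, hpow]
      have hge : q ≤ (polyA q e (i + 1)).natDegree := by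
        rw [hd]
        calc q = q * 1 := (mul_one q).symm
          _ ≤ q * (polyA q e i).natDegree := Nat.mul_le_mul_left q (by omega)
      refine ⟨?_, hge⟩
      intro h0'
      rw [h0', natDegree_zero] at hge
      omega

theorem exists_root_polyA {K : Type*} [Field K] [IsAlgClosed K] (q : ℕ) (hq : 2 ≤ q) (e : ℕ → K)
    (i : ℕ) (hne : polyA q e i ≠ 0) : ∃ t : K, t ≠ 0 ∧ (polyA q e i).eval t = t := by
  obtain ⟨B', hB'⟩ := polyA_dvd q hq e i
  set B : K[X] := X ^ (q - 1) * B' with hB
  have hAB : polyA q e i = X * B := by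
    rw [hB', hB, ← mul_assoc, ← pow_succ']
    congr 2
    omega
  have hB0 : B.eval 0 = 0 := by
    rw [hB, eval_mul, eval_pow, eval_X, zero_pow (by omega), zero_mul]
  have hdeg : (B - 1).degree ≠ 0 := by
    intro h0
    have h1 := eq_C_of_degree_eq_zero h0
    have h2 : B = C ((B - 1).coeff 0 + 1) := by
      rw [C_add, ← h1]
      simp
    have h3 : (B - 1).coeff 0 + 1 = 0 := by
      have := congrArg (eval 0) h2
      rw [hB0, eval_C] at this
      exact this.symm
    rw [h3, C_0] at h2
    apply hne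
    rw [hAB, h2, mul_zero]
  obtain ⟨t, ht⟩ := IsAlgClosed.exists_root (B - 1) hdeg
  have ht' : B.eval t = 1 := by
    have : (B - 1).eval t = 0 := ht
    rw [eval_sub, eval_one] at this
    exact sub_eq_zero.1 this
  refine ⟨t, ?_, ?_⟩
  · rintro rfl
    rw [hB0] at ht'
    exact zero_ne_one ht'
  · rw [hAB, eval_mul, eval_X, ht', mul_one]

/-- A nonzero fixed vector of an injective Frobenius-semilinear map. -/
theorem exists_fixed {K : Type*} [Field K] [IsAlgClosed K] (q : ℕ) (hq : 2 ≤ q) (Fr : K →+* K)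
    (hFr : ∀ c, Fr c = c ^ q) {V : Type*} [AddCommGroup V] [Module K V] [FiniteDimensional K V]
    [Nontrivial V] (φ : V →ₛₗ[Fr] V) (hφ : Function.Injective φ) : ∃ v : V, v ≠ 0 ∧ φ v = v := by
  classical
  obtain ⟨w, hw⟩ := exists_ne (0 : V)
  let W : ℕ → V := fun i => φ^[i] w
  have hW0 : W 0 = w := rfl
  have hWs : ∀ i, W (i + 1) = φ (W i) := fun i => Function.iterate_succ_apply' φ i w
  let S : ℕ → Submodule K V := fun k => Submodule.span K (Set.range (fun i : Fin k => W i))
  have hSmem : ∀ k i, i < k → W i ∈ S k := fun k i hi => Submodule.subset_span ⟨⟨i, hi⟩, rfl⟩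
  have hSle : ∀ k, S k ≤ S (k + 1) := by
    intro k
    apply Submodule.span_le.2
    rintro _ ⟨i, rfl⟩
    exact hSmem (k + 1) i (by omega)
  have hex : ∃ k, W k ∈ S k := by
    by_contra hcon
    push Not at hcon
    have hfin : ∀ k, k ≤ finrank K (S k) := by
      intro k
      induction k with
      | zero => exact Nat.zero_le _
      | succ k ih =>
        have hlt : S k < S (k + 1) := by
          refine lt_of_le_of_ne (hSle k) ?_
          intro heq
          apply hcon k
          rw [heq]
          exact hSmem (k + 1) k (by omega)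
        have := Submodule.finrank_lt_finrank_of_lt hlt
        omega
    have h1 := hfin (finrank K V + 1)
    have h2 := Submodule.finrank_le (S (finrank K V + 1))
    omega
  let k := Nat.find hex
  have hk : W k ∈ S k := Nat.find_spec hex
  have hmin : ∀ m, m < k → W m ∉ S m := fun m hm => Nat.find_min hex hm
  have hk0 : k ≠ 0 := by
    intro h0
    rw [h0] at hk
    have : S 0 = ⊥ := by
      simp [S]
    rw [this, Submodule.mem_bot] at hk
    exact hw hk
  obtain ⟨k', hk'⟩ : ∃ k', k = k' + 1 := ⟨k - 1, by omega⟩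
  -- the relation
  obtain ⟨c, hc⟩ := (Submodule.mem_span_range_iff_exists_fun K).1 hk
  let e : ℕ → K := fun i => if h : i < k then c ⟨i, h⟩ else 0
  have hrel : ∑ i ∈ Finset.range k, e i • W i = W k := by
    rw [← hc, Finset.sum_range]
    apply Finset.sum_congr rfl
    intro i _
    simp [e]
  -- not all coefficients vanish
  have hinj : ∀ m : ℕ, ∀ x : V, φ^[m] x = 0 → x = 0 := by
    intro m
    induction m with
    | zero => intro x hx; exact hx
    | succ m ih =>
      intro x hx
      rw [Function.iterate_succ_apply'] at hx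
      apply ih
      apply hφ
      rw [hx, map_zero]
  have hA : polyA q e k' ≠ 0 := by
    rcases polyA_ne_zero q hq e k' with ⟨_, hall⟩ | ⟨hne, _⟩
    · exfalso
      apply hw
      apply hinj k
      show W k = 0
      rw [← hrel]
      apply Finset.sum_eq_zero
      intro i hi
      rw [hall i (by rw [Finset.mem_range] at hi; omega), zero_smul]
    · exact hne
  obtain ⟨t, ht0, ht⟩ := exists_root_polyA q hq e k' hA
  let a : ℕ → K := fun i => (polyA q e i).eval t
  have ha0 : a 0 = e 0 * t ^ q := by
    simp [a, polyA]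
  have has : ∀ i, a (i + 1) = (a i) ^ q + e (i + 1) * t ^ q := by
    intro i
    simp [a, polyA]
  have hak : a k' = t := ht
  refine ⟨∑ i ∈ Finset.range k, a i • W i, ?_, ?_⟩
  · intro h0
    rw [hk', Finset.sum_range_succ, hak] at h0
    apply hmin k' (by omega)
    have h1 : W k' = -(t⁻¹ • ∑ i ∈ Finset.range k', a i • W i) := by
      have h2 : t • W k' = -∑ i ∈ Finset.range k', a i • W i := by
        rw [eq_neg_iff_add_eq_zero, add_comm]; exact h0
      rw [← smul_neg, ← h2, smul_smul, inv_mul_cancel₀ ht0, one_smul]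
    rw [h1]
    apply Submodule.neg_mem
    apply Submodule.smul_mem
    apply Submodule.sum_mem
    intro i hi
    exact Submodule.smul_mem _ _ (hSmem k' i (Finset.mem_range.1 hi))
  · rw [map_sum]
    have h1 : ∀ i, φ (a i • W i) = (a i) ^ q • W (i + 1) := by
      intro i
      rw [map_smulₛₗ, hFr, hWs]
    simp only [h1]
    rw [hk', Finset.sum_range_succ, hak]
    have h2 : W (k' + 1) = ∑ i ∈ Finset.range k', e (i + 1) • W (i + 1) + e 0 • W 0 := by
      rw [← hk', ← hrel, hk', Finset.sum_range_succ']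
    rw [h2, Finset.sum_range_succ', ha0]
    simp only [has]
    rw [smul_add, Finset.smul_sum, ← add_assoc, ← Finset.sum_add_distrib]
    congr 1
    · apply Finset.sum_congr rfl
      intro i _
      rw [smul_smul, ← add_smul]
      congr 1
      ring
    · rw [smul_smul]
      congr 1
      ring


theorem exists_AS {K : Type*} [Field K] [IsAlgClosed K] (q : ℕ) (hq : 2 ≤ q) (c : K) :
    ∃ a : K, a ^ q - a = c := by
  have hdeg : (X ^ q - (X + C c) : K[X]).degree ≠ 0 := by
    rw [degree_sub_eq_left_of_degree_lt]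
    · rw [degree_X_pow]
      exact_mod_cast (by omega : q ≠ 0)
    · rw [degree_X_pow, degree_X_add_C]
      exact_mod_cast (by omega : 1 < q)
  obtain ⟨a, ha⟩ := IsAlgClosed.exists_root _ hdeg
  refine ⟨a, ?_⟩
  have : (X ^ q - (X + C c) : K[X]).eval a = 0 := ha
  simp only [eval_sub, eval_pow, eval_X, eval_add, eval_C] at this
  linear_combination this

/-- The fixed vectors of an injective Frobenius-semilinear map span the space. -/
theorem span_fixed {K : Type*} [Field K] [IsAlgClosed K] (q : ℕ) (hq : 2 ≤ q) (Fr : K →+* K)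
    (hFr : ∀ c, Fr c = c ^ q) {V : Type*} [AddCommGroup V] [Module K V] [FiniteDimensional K V]
    (φ : V →ₛₗ[Fr] V) (hφ : Function.Injective φ) :
    Submodule.span K {v : V | φ v = v} = ⊤ := by
  set U := Submodule.span K {v : V | φ v = v} with hU
  have hsurj : ∀ u ∈ U, ∃ u' ∈ U, φ u' = u := by
    intro u hu
    induction hu using Submodule.span_induction with
    | mem v hv => exact ⟨v, Submodule.subset_span hv, hv⟩
    | zero => exact ⟨0, U.zero_mem, map_zero φ⟩
    | add x y _ _ hx hy =>
      obtain ⟨x', hx', rfl⟩ := hx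
      obtain ⟨y', hy', rfl⟩ := hy
      exact ⟨x' + y', U.add_mem hx' hy', map_add φ x' y'⟩
    | smul c x _ hx =>
      obtain ⟨x', hx', rfl⟩ := hx
      obtain ⟨d, hd⟩ := IsAlgClosed.exists_pow_nat_eq c (by omega : 0 < q)
      exact ⟨d • x', U.smul_mem d hx', by rw [map_smulₛₗ, hFr, hd]⟩
  have hstab : U ≤ U.comap φ := by
    apply Submodule.span_le.2
    intro v hv
    show φ v ∈ U
    have hv' : φ v = v := hv
    rw [hv']
    exact Submodule.subset_span hv
  have hAS : ∀ u ∈ U, ∀ c : K, ∃ u₀ ∈ U, φ u₀ - u₀ = c • u := by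
    intro u hu
    induction hu using Submodule.span_induction with
    | mem v hv =>
      intro c
      obtain ⟨a, ha⟩ := exists_AS q hq c
      have hv' : φ v = v := hv
      exact ⟨a • v, U.smul_mem a (Submodule.subset_span hv), by
        rw [map_smulₛₗ, hFr, hv', ← sub_smul, ha]⟩
    | zero =>
      intro c
      exact ⟨0, U.zero_mem, by simp⟩
    | add x y _ _ hx hy =>
      intro c
      obtain ⟨x₀, hx₀, hx₁⟩ := hx c
      obtain ⟨y₀, hy₀, hy₁⟩ := hy c
      exact ⟨x₀ + y₀, U.add_mem hx₀ hy₀, by rw [map_add, smul_add, ← hx₁, ← hy₁]; abel⟩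
    | smul d x _ hx =>
      intro c
      obtain ⟨x₀, hx₀, hx₁⟩ := hx (c * d)
      exact ⟨x₀, hx₀, by rw [hx₁, mul_smul]⟩
  by_contra hne
  let φq : (V ⧸ U) →ₛₗ[Fr] (V ⧸ U) := U.mapQ U φ hstab
  have hφq : Function.Injective φq := by
    rw [injective_iff_map_eq_zero]
    intro x hx
    obtain ⟨v, rfl⟩ := Submodule.Quotient.mk_surjective U x
    have hx' : Submodule.Quotient.mk (p := U) (φ v) = 0 := hx
    rw [Submodule.Quotient.mk_eq_zero] at hx' ⊢
    obtain ⟨u', hu', hu'φ⟩ := hsurj _ hx'
    rw [← hφ hu'φ]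
    exact hu'
  have : Nontrivial (V ⧸ U) :=
    Submodule.Quotient.nontrivial_iff.2 hne
  obtain ⟨x, hx0, hxfix⟩ := exists_fixed q hq Fr hFr φq hφq
  obtain ⟨v, rfl⟩ := Submodule.Quotient.mk_surjective U x
  have hxfix' : Submodule.Quotient.mk (p := U) (φ v) = Submodule.Quotient.mk v := hxfix
  have hdiff : φ v - v ∈ U := (Submodule.Quotient.eq U).1 hxfix'
  obtain ⟨u₀, hu₀, hu₀'⟩ := hAS _ hdiff (-1)
  have hfix : φ (v + u₀) = v + u₀ := by
    rw [map_add]
    have h1 : φ u₀ = u₀ - (φ v - v) := by
      have h4 : φ u₀ = (φ u₀ - u₀) + u₀ := by abel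
      rw [h4, hu₀', neg_smul, one_smul]
      abel
    rw [h1]
    abel
  apply hx0
  rw [Submodule.Quotient.mk_eq_zero]
  have h2 : v + u₀ ∈ U := Submodule.subset_span hfix
  have h3 : v = (v + u₀) - u₀ := by abel
  rw [h3]
  exact U.sub_mem h2 hu₀


theorem result {K : Type*} [Field K] [IsAlgClosed K] (p : ℕ) [Fact p.Prime] [CharP K p]
    (f : ℕ) (hf : 1 ≤ f) (n : ℕ) (g : GL (Fin n) K) :
    ∃ x : GL (Fin n) K, g = x * (Matrix.GeneralLinearGroup.map (iterateFrobenius K p f) x)⁻¹ := by
  classical
  have hp2 : 2 ≤ p := (Fact.out : p.Prime).two_le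
  have hq2 : 2 ≤ p ^ f := by
    calc 2 ≤ p := hp2
      _ = p ^ 1 := (pow_one p).symm
      _ ≤ p ^ f := Nat.pow_le_pow_right (by omega) hf
  let Fr : K →+* K := iterateFrobenius K p f
  have hFr : ∀ c, Fr c = c ^ (p ^ f) := fun c => rfl
  let M : Matrix (Fin n) (Fin n) K := (g : Matrix (Fin n) (Fin n) K)
  let φ : (Fin n → K) →ₛₗ[Fr] (Fin n → K) :=
    { toFun := fun v => M.mulVec (fun i => Fr (v i))
      map_add' := by
        intro u v
        rw [← Matrix.mulVec_add]
        congr 1
        ext i
        simp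
      map_smul' := by
        intro c v
        rw [← Matrix.mulVec_smul]
        congr 1
        ext i
        simp }
  have hφapp : ∀ v, φ v = M.mulVec (fun i => Fr (v i)) := fun v => rfl
  have hφ : Function.Injective φ := by
    intro u v huv
    rw [hφapp, hφapp] at huv
    have hM : Function.Injective M.mulVec := by
      apply Matrix.mulVec_injective_iff_isUnit.2
      exact g.isUnit
    have h1 := hM huv
    ext i
    exact Fr.injective (congrFun h1 i)
  have hspan := span_fixed (p ^ f) hq2 Fr hFr φ hφ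
  obtain ⟨b, hb, hsp, hli⟩ := exists_linearIndependent K {v : Fin n → K | φ v = v}
  let B : Basis b K (Fin n → K) := Basis.mk hli (by
    rw [Subtype.range_coe, hsp, hspan])
  have hB : ∀ i : b, B i = (i : Fin n → K) := fun i => Basis.mk_apply hli _ i
  let e : b ≃ Fin n := B.indexEquiv (Pi.basisFun K (Fin n))
  let B' : Basis (Fin n) K (Fin n → K) := B.reindex e
  have hB'fix : ∀ j, φ (B' j) = B' j := by
    intro j
    have h1 : B' j = ((e.symm j : b) : Fin n → K) := by
      simp [B', hB]
    rw [h1]
    exact hb (e.symm j).2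
  let X : Matrix (Fin n) (Fin n) K := (Pi.basisFun K (Fin n)).toMatrix B'
  have hXapp : ∀ i j, X i j = B' j i := by
    intro i j
    simp [X, Basis.toMatrix_apply]
  letI hXinv : Invertible X := Basis.invertibleToMatrix (Pi.basisFun K (Fin n)) B'
  have hgX : M * X.map Fr = X := by
    ext i j
    have h1 := congrFun (hB'fix j) i
    rw [hφapp] at h1
    rw [hXapp, ← h1]
    simp [Matrix.mul_apply, Matrix.mulVec, dotProduct, hXapp]
  let x : GL (Fin n) K := unitOfInvertible X
  have hxval : (x : Matrix (Fin n) (Fin n) K) = X := rfl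
  refine ⟨x, ?_⟩
  rw [eq_mul_inv_iff_mul_eq]
  apply Units.ext
  rw [Units.val_mul]
  show M * (X.map Fr) = X
  exact hgX

end Cfsg.Agent.S2665
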