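import Cfsg.Statements.S2666

set_option autoImplicit false
open Cfsg

namespace Cfsg.Agent.S2666

theorem telescope {X : Type*} [Group X] (σ : MulAut X) (a : X) (d : ℕ) :
    ((List.range d).map (fun i => (σ ^ i) (a * (σ a)⁻¹))).prod = a * ((σ ^ d) a)⁻¹ := by
  induction d with
  | zero => simp
  | succ d ih =>
    rw [List.range_succ, List.map_append, List.prod_append, ih]
    simp only [List.map_cons, List.map_nil, List.prod_cons, List.prod_nil, mul_one, map_mul, map_inv]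
    have : (σ ^ d) (σ a) = (σ ^ (d + 1)) a := by
      rw [pow_succ, MulAut.mul_apply]
    rw [this]
    group

theorem pow_fix {X : Type*} [Group X] (σ : MulAut X) (n : ℕ) (y : X) (hy : σ y = y) :
    (σ ^ n) y = y := by
  induction n with
  | zero => simp
  | succ n ih => rw [pow_succ, MulAut.mul_apply, hy, ih]

theorem comm_apply {X : Type*} [Group X] (σ : MulAut X) (e : ℕ) (y : X) :
    (σ ^ e) (σ y) = σ ((σ ^ e) y) := by
  have : σ ^ e * σ = σ * σ ^ e := by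
    rw [← pow_succ, ← pow_succ']
  have h2 := congrArg (fun f : MulAut X => f y) this
  simpa [MulAut.mul_apply] using h2

/-- `x = (τ a)⁻¹ a` is fixed by `σ` iff `g = a σ(a)⁻¹` is fixed by `τ = σ^e`. -/
theorem fix_iff {X : Type*} [Group X] (σ : MulAut X) (e : ℕ) (a : X) :
    (σ ^ e) (a * (σ a)⁻¹) = a * (σ a)⁻¹ ↔ σ (((σ ^ e) a)⁻¹ * a) = ((σ ^ e) a)⁻¹ * a := by
  simp only [map_mul, map_inv]
  rw [comm_apply]
  set τ := σ ^ e
  constructor
  · intro hg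
    have h3 : (σ (τ a))⁻¹ = (τ a)⁻¹ * (a * (σ a)⁻¹) := by
      rw [← hg]; group
    rw [h3]; group
  · intro hx
    have h3 : (σ (τ a))⁻¹ = (τ a)⁻¹ * a * (σ a)⁻¹ := by
      rw [← hx]; group
    rw [h3]; group

theorem result {X : Type*} [Group X] (σ : MulAut X) (e : ℕ) (he : 1 ≤ e)
    (hL : ∀ g : X, ∃ a : X, g = a * (σ a)⁻¹) (hLe : ∀ g : X, ∃ a : X, g = a * ((σ ^ e) a)⁻¹) :
    (∀ g ∈ (MulEquiv.toMonoidHom (σ ^ e)).eqLocus (MonoidHom.id X), ∀ a : X, g = a * (σ a)⁻¹ →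
        ((σ ^ e) a)⁻¹ * a ∈ (MulEquiv.toMonoidHom σ).eqLocus (MonoidHom.id X) ∧
          a⁻¹ * ((List.range e).map (fun i => (σ ^ i) g)).prod * a = ((σ ^ e) a)⁻¹ * a) ∧
    (∀ g ∈ (MulEquiv.toMonoidHom (σ ^ e)).eqLocus (MonoidHom.id X), ∀ g' ∈ (MulEquiv.toMonoidHom (σ ^ e)).eqLocus (MonoidHom.id X), ∀ a b : X,
        g = a * (σ a)⁻¹ → g' = b * (σ b)⁻¹ →
          ((∃ k ∈ (MulEquiv.toMonoidHom (σ ^ e)).eqLocus (MonoidHom.id X), g' = k * g * (σ k)⁻¹) ↔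
            (∃ h ∈ (MulEquiv.toMonoidHom σ).eqLocus (MonoidHom.id X), ((σ ^ e) b)⁻¹ * b = h * (((σ ^ e) a)⁻¹ * a) * h⁻¹))) ∧
    (∀ x ∈ (MulEquiv.toMonoidHom σ).eqLocus (MonoidHom.id X), ∃ g ∈ (MulEquiv.toMonoidHom (σ ^ e)).eqLocus (MonoidHom.id X), ∃ a : X,
        g = a * (σ a)⁻¹ ∧ ((σ ^ e) a)⁻¹ * a = x) := by
  have mem1 : ∀ (τ : MulAut X) (x : X), x ∈ (MulEquiv.toMonoidHom τ).eqLocus (MonoidHom.id X) ↔ τ x = x := by
    intro τ x
    rfl
  simp only [mem1]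
  refine ⟨?_, ?_, ?_⟩
  · intro g hg a ha
    subst ha
    refine ⟨(fix_iff σ e a).1 hg, ?_⟩
    rw [telescope]; group
  · intro g hg g' hg' a b ha hb
    subst ha; subst hb
    have hxa := (fix_iff σ e a).1 hg
    have hxb := (fix_iff σ e b).1 hg'
    set τ := σ ^ e with hτ
    constructor
    · rintro ⟨k, hk, hkg⟩
      -- h := b⁻¹ k a
      have hfix : σ (b⁻¹ * k * a) = b⁻¹ * k * a := by
        simp only [map_mul, map_inv]
        have h2 : σ k = σ b * b⁻¹ * k * a * (σ a)⁻¹ := by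
          have : σ k = (b * (σ b)⁻¹)⁻¹ * (k * (a * (σ a)⁻¹)) := by
            rw [hkg]; group
          rw [this]; group
        rw [h2]; group
      refine ⟨b⁻¹ * k * a, hfix, ?_⟩
      have hτfix : τ (b⁻¹ * k * a) = b⁻¹ * k * a := pow_fix σ e _ hfix
      simp only [map_mul, map_inv] at hτfix
      rw [hk] at hτfix
      -- hτfix : (τ b)⁻¹ * k * τ a = b⁻¹ * k * a
      have h3 : (τ b)⁻¹ = b⁻¹ * k * a * (τ a)⁻¹ * k⁻¹ := by
        rw [← hτfix]; group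
      rw [h3]; group
    · rintro ⟨h, hh, hx⟩
      refine ⟨b * h * a⁻¹, ?_, ?_⟩
      · have hτh : τ h = h := pow_fix σ e _ hh
        simp only [map_mul, map_inv]
        rw [hτh]
        have h3 : τ b = b * (h * ((τ a)⁻¹ * a) * h⁻¹)⁻¹ := by
          rw [← hx]; group
        rw [h3]; group
      · simp only [map_mul, map_inv]
        rw [hh]; group
  · intro x hx
    obtain ⟨c, hc⟩ := hLe x⁻¹
    have hx' : ((σ ^ e) c⁻¹)⁻¹ * c⁻¹ = x := by
      have : x = (c * ((σ ^ e) c)⁻¹)⁻¹ := by rw [← hc]; group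
      rw [this]; simp only [map_inv]; group
    refine ⟨c⁻¹ * (σ c⁻¹)⁻¹, ?_, c⁻¹, rfl, hx'⟩
    rw [fix_iff, hx']
    exact hx

end Cfsg.Agent.S2666
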