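import Cfsg.Statements.S2667

set_option autoImplicit false
open Cfsg

namespace Cfsg.Agent.S2667

theorem result {X : Type*} [Group X] (σ : MulAut X) (e : ℕ) (he : 1 ≤ e)
    (g : X) (hg : g ∈ (MulEquiv.toMonoidHom (σ ^ e)).eqLocus (MonoidHom.id X)) (a : X) (ha : g = a * (σ a)⁻¹) (k : X) :
    (k ∈ (MulEquiv.toMonoidHom (σ ^ e)).eqLocus (MonoidHom.id X) ∧ k * g * (σ k)⁻¹ = g) ↔
      (a⁻¹ * k * a ∈ (MulEquiv.toMonoidHom σ).eqLocus (MonoidHom.id X) ∧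
        (a⁻¹ * k * a) * (((σ ^ e) a)⁻¹ * a) = (((σ ^ e) a)⁻¹ * a) * (a⁻¹ * k * a)) := by
  have mem1 : ∀ (τ : MulAut X) (x : X), x ∈ (MulEquiv.toMonoidHom τ).eqLocus (MonoidHom.id X) ↔ τ x = x := by
    intro τ x
    rfl
  rw [mem1, mem1]
  -- key: k * g * (σ k)⁻¹ = g ↔ σ (a⁻¹ * k * a) = a⁻¹ * k * a
  have key : k * g * (σ k)⁻¹ = g ↔ σ (a⁻¹ * k * a) = a⁻¹ * k * a := by
    subst ha
    simp only [map_mul, map_inv]
    constructor
    · intro h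
      have h2 : k * a = a * (σ a)⁻¹ * σ k * σ a := by
        calc k * a = (k * (a * (σ a)⁻¹) * (σ k)⁻¹) * σ k * σ a := by group
          _ = a * (σ a)⁻¹ * σ k * σ a := by rw [h]
      calc (σ a)⁻¹ * σ k * σ a = a⁻¹ * (a * (σ a)⁻¹ * σ k * σ a) := by group
        _ = a⁻¹ * (k * a) := by rw [h2]
        _ = a⁻¹ * k * a := by group
    · intro h
      have h2 : σ k = σ a * (a⁻¹ * k * a) * (σ a)⁻¹ := by
        rw [← h]; group
      rw [h2]; group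
  have hpow : ∀ (n : ℕ) (y : X), σ y = y → (σ ^ n) y = y := by
    intro n y hy
    induction n with
    | zero => simp
    | succ n ih => rw [pow_succ, MulAut.mul_apply, hy, ih]
  rw [key]
  set τ := σ ^ e with hτ
  constructor
  · rintro ⟨h1, h2⟩
    refine ⟨h2, ?_⟩
    have h3 : τ (a⁻¹ * k * a) = a⁻¹ * k * a := hpow e _ h2
    simp only [map_mul, map_inv] at h3
    rw [h1] at h3
    calc a⁻¹ * k * a * ((τ a)⁻¹ * a) = (τ a)⁻¹ * (τ a * (a⁻¹ * k * a) * (τ a)⁻¹) * a := by group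
      _ = (τ a)⁻¹ * (τ a * ((τ a)⁻¹ * k * τ a) * (τ a)⁻¹) * a := by rw [h3]
      _ = (τ a)⁻¹ * a * (a⁻¹ * k * a) := by group
  · rintro ⟨h2, h4⟩
    refine ⟨?_, h2⟩
    have h3 : τ (a⁻¹ * k * a) = a⁻¹ * k * a := hpow e _ h2
    simp only [map_mul, map_inv] at h3
    have h5 : τ k = τ a * (a⁻¹ * k * a) * (τ a)⁻¹ := by
      rw [← h3]; group
    rw [h5]
    calc τ a * (a⁻¹ * k * a) * (τ a)⁻¹ = τ a * ((a⁻¹ * k * a) * ((τ a)⁻¹ * a)) * a⁻¹ := by group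
      _ = τ a * (((τ a)⁻¹ * a) * (a⁻¹ * k * a)) * a⁻¹ := by rw [h4]
      _ = k := by group

end Cfsg.Agent.S2667
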