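import Cfsg.Statements.S2668

set_option autoImplicit false
open Cfsg

namespace Cfsg.Agent.S2668

theorem telescope {X : Type*} [Group X] (σ : MulAut X) (a : X) (d : ℕ) :
    ((List.range d).map (fun i => (σ ^ i) (a * (σ a)⁻¹))).prod = a * ((σ ^ d) a)⁻¹ := by
  induction d with
  | zero => simp
  | succ d ih =>
    rw [List.range_succ, List.map_append, List.prod_append, ih]
    simp only [List.map_cons, List.map_nil, List.prod_cons, List.prod_nil, mul_one, map_mul, map_inv]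
    have : (σ ^ d) (σ a) = (σ ^ (d + 1)) a := by
      rw [pow_succ, MulAut.mul_apply]
    rw [this]
    group

theorem pow_fix {X : Type*} [Group X] (σ : MulAut X) (n : ℕ) (y : X) (hy : σ y = y) :
    (σ ^ n) y = y := by
  induction n with
  | zero => simp
  | succ n ih => rw [pow_succ, MulAut.mul_apply, hy, ih]

theorem result {X : Type*} [Group X] (σ : MulAut X) (e d : ℕ) (he : 1 ≤ e) (hd : 1 ≤ d)
    (g : X) (hg : g ∈ (MulEquiv.toMonoidHom (σ ^ e)).eqLocus (MonoidHom.id X)) (a : X) (ha : g = a * (σ a)⁻¹) :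
    ((List.range d).map (fun i => (σ ^ i) g)).prod = a * ((σ ^ d) a)⁻¹ ∧
      ((List.range d).map (fun i => (σ ^ i) g)).prod ∈ (MulEquiv.toMonoidHom ((σ ^ d) ^ e)).eqLocus (MonoidHom.id X) ∧
      (((σ ^ d) ^ e) a)⁻¹ * a = (((σ ^ e) a)⁻¹ * a) ^ d := by
  have mem1 : ∀ (τ : MulAut X) (x : X), x ∈ (MulEquiv.toMonoidHom τ).eqLocus (MonoidHom.id X) ↔ τ x = x := by
    intro τ x
    rfl
  rw [mem1] at hg
  rw [mem1]
  have h1 : ((List.range d).map (fun i => (σ ^ i) g)).prod = a * ((σ ^ d) a)⁻¹ := by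
    rw [ha]; exact telescope σ a d
  have hcomm : (σ ^ d) ^ e = (σ ^ e) ^ d := by
    rw [← pow_mul, ← pow_mul, mul_comm]
  set τ := σ ^ e with hτ
  -- x = (τ a)⁻¹ * a is fixed by σ
  have hτσ : ∀ y, τ (σ y) = σ (τ y) := by
    intro y
    have : τ * σ = σ * τ := by
      rw [hτ, ← pow_succ, ← pow_succ']
    have h2 := congrArg (fun f : MulAut X => f y) this
    simpa [MulAut.mul_apply] using h2
  have hx : σ ((τ a)⁻¹ * a) = (τ a)⁻¹ * a := by
    rw [ha] at hg
    simp only [map_mul, map_inv] at hg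
    rw [hτσ] at hg
    simp only [map_mul, map_inv]
    -- hg : τ a * (σ (τ a))⁻¹ = a * (σ a)⁻¹
    have h3 : (σ (τ a))⁻¹ = (τ a)⁻¹ * (a * (σ a)⁻¹) := by
      rw [← hg]; group
    rw [h3]; group
  have hxτ : τ ((τ a)⁻¹ * a) = (τ a)⁻¹ * a := pow_fix σ e _ hx
  refine ⟨h1, ?_, ?_⟩
  · rw [hcomm]
    apply pow_fix τ d
    -- the product is fixed by τ
    rw [h1]
    simp only [map_mul, map_inv]
    have h4 : τ ((σ ^ d) a) = (σ ^ d) (τ a) := by
      have : τ * σ ^ d = σ ^ d * τ := by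
        rw [hτ, ← pow_add, ← pow_add, add_comm]
      have h2 := congrArg (fun f : MulAut X => f a) this
      simpa [MulAut.mul_apply] using h2
    rw [h4]
    -- (σ^d) ((τ a)⁻¹ * a) = (τ a)⁻¹ * a
    have h5 : (σ ^ d) ((τ a)⁻¹ * a) = (τ a)⁻¹ * a := pow_fix σ d _ hx
    simp only [map_mul, map_inv] at h5
    have h6 : ((σ ^ d) (τ a))⁻¹ = (τ a)⁻¹ * a * ((σ ^ d) a)⁻¹ := by
      rw [← h5]; group
    rw [h6]; group
  · rw [hcomm]
    clear hd
    induction d with
    | zero => simp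
    | succ d ih =>
      have hd' : ((τ ^ d) a)⁻¹ * a = ((τ a)⁻¹ * a) ^ d := by
        apply ih
        · rw [ha]; exact telescope σ a d
        · rw [← pow_mul, ← pow_mul, mul_comm]
      rw [pow_succ' τ d, MulAut.mul_apply, pow_succ, ← hd']
      have h7 : τ (((τ ^ d) a)⁻¹ * a) = ((τ ^ d) a)⁻¹ * a := by
        rw [hd']
        rw [map_pow, hxτ]
      simp only [map_mul, map_inv] at h7
      have h8 : (τ ((τ ^ d) a))⁻¹ = ((τ ^ d) a)⁻¹ * a * (τ a)⁻¹ := by
        rw [← h7]; group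
      rw [h8]; group

end Cfsg.Agent.S2668
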