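import Cfsg.Statements.S2669
import Mathlib

set_option autoImplicit false
open Cfsg

namespace Cfsg.Agent.S2669

variable {X : Type*} [Group X]

lemma pow_fix (σ : MulAut X) (e : ℕ) {h : X} (hh : σ h = h) : (σ ^ e) h = h := by
  induction e with
  | zero => simp
  | succ n ih => rw [pow_succ, MulAut.mul_apply, hh, ih]

lemma pow_mem (σ : MulAut X) (Y : Subgroup X) (hY : ∀ y : X, y ∈ Y ↔ σ y ∈ Y) (e : ℕ) {y : X}
    (hy : y ∈ Y) : (σ ^ e) y ∈ Y := by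
  induction e with
  | zero => simpa using hy
  | succ n ih => rw [pow_succ', MulAut.mul_apply]; exact (hY _).1 ih

/-- Counting pairs `(k, h)` with `k⁻¹ a h ∈ Y` by first coordinate. -/
lemma fiber_count (G H Y : Subgroup X) (a : X) :
    Nat.card {p : ↥G × ↥H // (p.1 : X)⁻¹ * a * (p.2 : X) ∈ Y} =
      Nat.card {k : ↥G // ∃ h : ↥H, (k : X)⁻¹ * a * (h : X) ∈ Y} * Nat.card ↥(Y ⊓ H) := by
  classical
  rw [← Nat.card_prod]
  apply Nat.card_congr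
  -- choice of a base point in each nonempty fibre
  let h₀ : {k : ↥G // ∃ h : ↥H, (k : X)⁻¹ * a * (h : X) ∈ Y} → ↥H := fun k => Classical.choose k.2
  have h₀spec : ∀ k : {k : ↥G // ∃ h : ↥H, (k : X)⁻¹ * a * (h : X) ∈ Y},
      ((k : ↥G) : X)⁻¹ * a * (h₀ k : X) ∈ Y := fun k => Classical.choose_spec k.2
  refine Equiv.symm
    { toFun := fun ky => ⟨(ky.1.1, h₀ ky.1 * ⟨(ky.2 : X), (Subgroup.mem_inf.1 ky.2.2).2⟩), ?_⟩
      invFun := fun t => (⟨t.1.1, ⟨t.1.2, t.2⟩⟩,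
        ⟨((h₀ ⟨t.1.1, ⟨t.1.2, t.2⟩⟩ : ↥H) : X)⁻¹ * (t.1.2 : X), ?_⟩)
      left_inv := ?_
      right_inv := ?_ }
  · have h1 := h₀spec ky.1
    have h2 : (ky.2 : X) ∈ Y := (Subgroup.mem_inf.1 ky.2.2).1
    have : ((ky.1 : ↥G) : X)⁻¹ * a * ((h₀ ky.1 : X) * (ky.2 : X)) =
        (((ky.1 : ↥G) : X)⁻¹ * a * (h₀ ky.1 : X)) * (ky.2 : X) := by group
    simp only [Subgroup.coe_mul]
    rw [this]
    exact Y.mul_mem h1 h2
  · have h1 := h₀spec ⟨t.1.1, ⟨t.1.2, t.2⟩⟩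
    have h2 := t.2
    refine Subgroup.mem_inf.2 ⟨?_, H.mul_mem (H.inv_mem (h₀ _).2) t.1.2.2⟩
    have : ((h₀ ⟨t.1.1, ⟨t.1.2, t.2⟩⟩ : ↥H) : X)⁻¹ * (t.1.2 : X) =
        ((t.1.1 : X)⁻¹ * a * (h₀ ⟨t.1.1, ⟨t.1.2, t.2⟩⟩ : X))⁻¹ * ((t.1.1 : X)⁻¹ * a * (t.1.2 : X)) := by
      group
    rw [this]
    exact Y.mul_mem (Y.inv_mem h1) h2
  · rintro ⟨k, y⟩
    apply Prod.ext
    · rfl
    · apply Subtype.ext
      simp
  · rintro ⟨⟨k, h⟩, ht⟩
    apply Subtype.ext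
    apply Prod.ext
    · rfl
    · apply Subtype.ext
      simp

/-- The double count. -/
lemma double_count (G H Y : Subgroup X) (a : X) :
    Nat.card {k : ↥G // ∃ h : ↥H, (k : X)⁻¹ * a * (h : X) ∈ Y} * Nat.card ↥(Y ⊓ H) =
      Nat.card {h : ↥H // ∃ k : ↥G, (k : X)⁻¹ * a * (h : X) ∈ Y} * Nat.card ↥(Y ⊓ G) := by
  rw [← fiber_count G H Y a]
  have e1 : {p : ↥G × ↥H // (p.1 : X)⁻¹ * a * (p.2 : X) ∈ Y} ≃
      {p : ↥H × ↥G // (p.1 : X)⁻¹ * a⁻¹ * (p.2 : X) ∈ Y} :=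
    { toFun := fun t => ⟨(t.1.2, t.1.1), by
        have := Y.inv_mem t.2
        simpa [mul_assoc] using this⟩
      invFun := fun t => ⟨(t.1.2, t.1.1), by
        have := Y.inv_mem t.2
        simpa [mul_assoc] using this⟩
      left_inv := fun t => rfl
      right_inv := fun t => rfl }
  rw [Nat.card_congr e1, fiber_count H G Y a⁻¹]
  congr 1
  apply Nat.card_congr
  apply Equiv.subtypeEquivRight
  intro h
  constructor
  · rintro ⟨k, hk⟩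
    refine ⟨k, ?_⟩
    have := Y.inv_mem hk
    simpa [mul_assoc] using this
  · rintro ⟨k, hk⟩
    refine ⟨k, ?_⟩
    have := Y.inv_mem hk
    simpa [mul_assoc] using this

/-- Shintani descent preserves numbers of fixed points on coset spaces (abstract form). Let `σ` be an automorphism of a group `X` and `e ≥ 1`; write `G` for the fixed points of `σᵉ` and `H` for the fixed points of `σ`, and assume `G` is finite. Let `Y` be a `σ`-stable subgroup of `X` on which the maps `a ↦ a σ(a)⁻¹` and `a ↦ a σᵉ(a)⁻¹` are surjective (as for a closed connected `σ`-stable subgroup of an algebraic group). Let `g ∈ G`, let `a ∈ X` satisfy `g = a σ(a)⁻¹` and put `x = σᵉ(a)⁻¹ a` (the Shintani image, an element of `H`). The element `g σ` of the semidirect product acts on the cosets of `Y ∩ G` in `G` by `k (Y ∩ G) ↦ g σ(k) (Y ∩ G)`, fixing that coset exactly when `k⁻¹ g σ(k) ∈ Y`; and `x`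 fixes the coset `h (Y ∩ H)` of `H` exactly when `h⁻¹ x h ∈ Y`. Then the two numbers of fixed cosets agree; in cross-multiplied form, `#{k ∈ G : k⁻¹ g σ(k) ∈ Y} · |Y ∩ H| = #{h ∈ H : h⁻¹ x h ∈ Y} · |Y ∩ G|`. -/
theorem result {X : Type*} [Group X] (σ : MulAut X) (e : ℕ) (he : 1 ≤ e)
    [Finite ↥((MulEquiv.toMonoidHom (σ ^ e)).eqLocus (MonoidHom.id X))]
    (Y : Subgroup X) (hY : ∀ y : X, y ∈ Y ↔ σ y ∈ Y)
    (hYL : ∀ y ∈ Y, ∃ a ∈ Y, y = a * (σ a)⁻¹) (hYLe : ∀ y ∈ Y, ∃ a ∈ Y, y = a * ((σ ^ e) a)⁻¹)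
    (g : X) (hg : g ∈ (MulEquiv.toMonoidHom (σ ^ e)).eqLocus (MonoidHom.id X)) (a : X) (ha : g = a * (σ a)⁻¹) :
    Nat.card {k : ↥((MulEquiv.toMonoidHom (σ ^ e)).eqLocus (MonoidHom.id X)) // (k : X)⁻¹ * g * σ k ∈ Y} *
        Nat.card ↥(Y ⊓ (MulEquiv.toMonoidHom σ).eqLocus (MonoidHom.id X)) =
      Nat.card {h : ↥((MulEquiv.toMonoidHom σ).eqLocus (MonoidHom.id X)) // (h : X)⁻¹ * (((σ ^ e) a)⁻¹ * a) * h ∈ Y} *
        Nat.card ↥(Y ⊓ (MulEquiv.toMonoidHom (σ ^ e)).eqLocus (MonoidHom.id X)) := by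
  have memG : ∀ z : X, z ∈ (MulEquiv.toMonoidHom (σ ^ e)).eqLocus (MonoidHom.id X) ↔ (σ ^ e) z = z := by
    intro z; rfl
  have memH : ∀ z : X, z ∈ (MulEquiv.toMonoidHom σ).eqLocus (MonoidHom.id X) ↔ σ z = z := by
    intro z; rfl
  have hYe : ∀ y : X, y ∈ Y → (σ ^ e) y ∈ Y := fun y hy => pow_mem σ Y hY e hy
  have hYinv : ∀ y : X, y ∈ Y → (σ y)⁻¹ ∈ Y := fun y hy => Y.inv_mem ((hY y).1 hy)
  have hP : ∀ k : ↥((MulEquiv.toMonoidHom (σ ^ e)).eqLocus (MonoidHom.id X)),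
      ((k : X)⁻¹ * g * σ k ∈ Y) ↔
        ∃ h : ↥((MulEquiv.toMonoidHom σ).eqLocus (MonoidHom.id X)), (k : X)⁻¹ * a * (h : X) ∈ Y := by
    intro k
    constructor
    · intro hk
      obtain ⟨b, hbY, hb⟩ := hYL _ hk
      -- u = k⁻¹ a, u σ(u)⁻¹ = b σ(b)⁻¹
      have hu : (k : X)⁻¹ * a * (σ ((k : X)⁻¹ * a))⁻¹ = b * (σ b)⁻¹ := by
        rw [← hb, ha]; simp [mul_assoc]
      have hfix : σ (((k : X)⁻¹ * a)⁻¹ * b) = ((k : X)⁻¹ * a)⁻¹ * b := by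
        have h1 : σ (((k : X)⁻¹ * a)⁻¹ * b) = (σ ((k : X)⁻¹ * a))⁻¹ * σ b := by simp
        rw [h1]
        have h2 : (σ ((k : X)⁻¹ * a))⁻¹ = ((k : X)⁻¹ * a)⁻¹ * (b * (σ b)⁻¹) := by
          rw [← hu]; group
        rw [h2]; group
      refine ⟨⟨((k : X)⁻¹ * a)⁻¹ * b, (memH _).2 hfix⟩, ?_⟩
      have : (k : X)⁻¹ * a * (((k : X)⁻¹ * a)⁻¹ * b) = b := by group
      show (k : X)⁻¹ * a * (((k : X)⁻¹ * a)⁻¹ * b) ∈ Y
      rw [this]; exact hbY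
    · rintro ⟨h, hh⟩
      have hσh : σ (h : X) = h := (memH _).1 h.2
      have h1 := hYinv _ hh
      have h2 : (k : X)⁻¹ * g * σ k = ((k : X)⁻¹ * a * (h : X)) * (σ ((k : X)⁻¹ * a * (h : X)))⁻¹ := by
        rw [ha]; simp [hσh, mul_assoc]
      rw [h2]
      exact Y.mul_mem hh h1
  have hQ : ∀ h : ↥((MulEquiv.toMonoidHom σ).eqLocus (MonoidHom.id X)),
      ((h : X)⁻¹ * (((σ ^ e) a)⁻¹ * a) * h ∈ Y) ↔
        ∃ k : ↥((MulEquiv.toMonoidHom (σ ^ e)).eqLocus (MonoidHom.id X)), (k : X)⁻¹ * a * (h : X) ∈ Y := by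
    intro h
    have hσh : (σ ^ e) (h : X) = h := pow_fix σ e ((memH _).1 h.2)
    have hx : (h : X)⁻¹ * (((σ ^ e) a)⁻¹ * a) * h = ((σ ^ e) (a * (h : X)))⁻¹ * (a * (h : X)) := by
      simp [hσh, mul_assoc]
    rw [hx]
    constructor
    · intro hh
      have hh' : (a * (h : X))⁻¹ * (σ ^ e) (a * (h : X)) ∈ Y := by
        have := Y.inv_mem hh
        simpa using this
      obtain ⟨c, hcY, hc⟩ := hYLe _ hh'
      have hfix : (σ ^ e) (a * (h : X) * c) = a * (h : X) * c := by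
        have h1 : (σ ^ e) (a * (h : X) * c) = (σ ^ e) (a * (h : X)) * (σ ^ e) c := by simp
        have h2 : (σ ^ e) (a * (h : X)) = (a * (h : X)) * (c * ((σ ^ e) c)⁻¹) := by
          rw [← hc]; group
        rw [h1, h2]; group
      refine ⟨⟨a * (h : X) * c, (memG _).2 hfix⟩, ?_⟩
      have : (a * (h : X) * c)⁻¹ * a * (h : X) = c⁻¹ := by group
      show (a * (h : X) * c)⁻¹ * a * (h : X) ∈ Y
      rw [this]; exact Y.inv_mem hcY
    · rintro ⟨k, hk⟩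
      have hσk : (σ ^ e) (k : X) = k := (memG _).1 k.2
      have h1 : (σ ^ e) ((k : X)⁻¹ * a * (h : X)) ∈ Y := hYe _ hk
      have h2 : ((σ ^ e) (a * (h : X)))⁻¹ * (a * (h : X)) =
          ((σ ^ e) ((k : X)⁻¹ * a * (h : X)))⁻¹ * ((k : X)⁻¹ * a * (h : X)) := by
        simp [hσk, hσh, mul_assoc]
      rw [h2]
      exact Y.mul_mem (Y.inv_mem h1) hk
  have := double_count ((MulEquiv.toMonoidHom (σ ^ e)).eqLocus (MonoidHom.id X))
    ((MulEquiv.toMonoidHom σ).eqLocus (MonoidHom.id X)) Y a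
  rw [Nat.card_congr (Equiv.subtypeEquivRight hP), Nat.card_congr (Equiv.subtypeEquivRight hQ)]
  exact this

end Cfsg.Agent.S2669
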