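import Cfsg.Statements.S2674
-- import your own Cfsg.Agent.* helpers here
import Cfsg.Agent.Lib.Helper47.QuadFinal

set_option autoImplicit false
open Cfsg

namespace Cfsg.Agent.S2674

open Cfsg.Agent.Lib.Helper47

/-- Number of conjugacy classes of elements of odd prime order r ≠ p in the orthogonal group O⁺_2m(q) of Σ x_j y_j (m ≥ 1): with i the multiplicative order of q mod r and t = (r − 1)/i — if i is odd, C(⌊m/i⌋ + t/2, t/2) − 1; if i is even, C(⌊2m/i⌋ + t, t) − 1 minus, when i divides 2m with odd quotient, the C(2m/i + t − 1, t − 1) tuples using the whole space (an odd number of elliptic i-blocks fills an elliptic, not a hyperbolic, space). -/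
theorem result {F : Type*} [Field F] [Fintype F] {p q : ℕ} [Fact p.Prime] [CharP F p] (hF : Fintype.card F = q) (m r i t : ℕ) (hm : 1 ≤ m) (hr : r.Prime) (hr2 : r ≠ 2) (hrp : r ≠ p) (hi : i = orderOf (q : ZMod r)) (ht : t * i = r - 1) : Nat.card {C : ConjClasses ↥(Cfsg.isometryGroup F (Cfsg.quadFormPlus m F)) // ∃ g : ↥(Cfsg.isometryGroup F (Cfsg.quadFormPlus m F)), ConjClasses.mk g = C ∧ orderOf g = r} = if Odd i then Nat.choose (m / i + t / 2) (t / 2) - 1 else Nat.choose (2 * m / i + t) t - 1 - (if i ∣ 2 * m ∧ Odd (2 * m / i) then Nat.choose (2 * m / i + t - 1) (t - 1) else 0) := by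
  exact plus_card_prime_order_classes hF m r i t hm hr hr2 hrp hi ht

end Cfsg.Agent.S2674
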