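import Cfsg.Statements.S2677
import Mathlib
import Cfsg.Agent.S2636
import Cfsg.Agent.S0277

set_option autoImplicit false
open Cfsg

namespace Cfsg.Agent.S2677

open Module Matrix
open Cfsg.Agent.Lib.Helper7

/-- on the fixed field (of order `q₀²`), `x ↦ x^(q₀^r)` agrees with `x ↦ x^q₀` for odd `r`. -/
theorem pow_fixed {K₀ : Type*} [Field K₀] [Fintype K₀] {q₀ r : ℕ} (hK₀ : Fintype.card K₀ = q₀ ^ 2)
    (hr : Odd r) (x : K₀) : x ^ (q₀ ^ r) = x ^ q₀ := by
  obtain ⟨k, rfl⟩ := hr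
  have h1 : q₀ ^ (2 * k + 1) = (q₀ ^ 2) ^ k * q₀ := by ring
  rw [h1, pow_mul, ← hK₀, FiniteField.pow_card_pow]

/-- casting the order formula of `GU_n(q₀)` to the integers. -/
theorem cast_formula (q₀ n : ℕ) (hq₀ : 1 ≤ q₀) :
    ((q₀ ^ (n * (n - 1) / 2) * ∏ i ∈ Finset.range n,
      (if Even i then q₀ ^ (i + 1) + 1 else q₀ ^ (i + 1) - 1) : ℕ) : ℤ) =
    (q₀ : ℤ) ^ (n * (n - 1) / 2) * ∏ i : Fin n, ((q₀ : ℤ) ^ ((i : ℕ) + 1) - (-1) ^ ((i : ℕ) + 1)) := by
  rw [Fin.prod_univ_eq_prod_range (fun i : ℕ => ((q₀ : ℤ) ^ (i + 1) - (-1) ^ (i + 1))) n]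
  push_cast
  congr 1
  apply Finset.prod_congr rfl
  intro i _
  by_cases hi : Even i
  · rw [if_pos hi, Odd.neg_one_pow (Even.add_one hi)]
    push_cast
    ring
  · rw [if_neg hi]
    have hi' : Even (i + 1) := by
      rcases Nat.even_or_odd i with h | h
      · exact absurd h hi
      · exact Odd.add_one h
    rw [Even.neg_one_pow hi']
    have : 1 ≤ q₀ ^ (i + 1) := Nat.one_le_pow _ _ hq₀
    push_cast [Nat.cast_sub this]
    ring


theorem result {K : Type*} [Field K] [Fintype K] {q₀ q r n : ℕ} (hr : r.Prime) (hr2 : r ≠ 2) (hn : 1 ≤ n) (hq : q = q₀ ^ r) (hK : Fintype.card K = q ^ 2) (σ : K ≃+* K) (hσ : orderOf σ = r) : (Nat.card {g : ↥(Cfsg.GU n K q) // ∃ c : K, c ≠ 0 ∧ ((g : GL (Fin n) K) : Matrix (Fin n) (Fin n) K).map σ = c • ((g : GL (Fin n) K) : Matrix (Fin n) (Fin n) K)} : ℤ) = ((q + 1) / (q₀ + 1) : ℕ) * ((q₀ : ℤ) ^ (n * (n - 1) / 2) * ∏ i : Fin n, ((q₀ : ℤ) ^ ((i : ℕ) + 1) - (-1) ^ ((i : ℕ) + 1))) := by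
  classical
  have hrodd : Odd r := hr.odd_of_ne_two hr2
  have hK' : Fintype.card K = (q₀ ^ 2) ^ r := by rw [hK, hq]; ring
  obtain ⟨K₀, hmem, hK₀⟩ := Cfsg.Agent.S2636.fixed_subfield hr hK' σ hσ
  haveI : Fintype K₀ := Fintype.ofFinite K₀
  have hK₀' : Fintype.card K₀ = q₀ ^ 2 := by rw [← Nat.card_eq_fintype_card, hK₀]
  have hq₀ : 2 ≤ q₀ := herm_two_le hK₀'
  let ι : K₀ →+* K := K₀.subtype
  have hι : Function.Injective ι := Subtype.val_injective
  have hιfix : ∀ x : K₀, σ (ι x) = ι x := fun x => (hmem _).1 x.2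
  have hpow : ∀ x : K₀, (ι x) ^ q = ι (x ^ q₀) := by
    intro x
    rw [← map_pow, hq, pow_fixed hK₀' hrodd]
  have hpow1 : ∀ x : K₀, (ι x) ^ (q + 1) = ι (x ^ (q₀ + 1)) := by
    intro x
    rw [pow_succ, hpow, pow_succ, map_mul]
  let mapι : GL (Fin n) K₀ →* GL (Fin n) K := Matrix.GeneralLinearGroup.map ι
  let sc : Kˣ →* GL (Fin n) K := Matrix.GeneralLinearGroup.scalar (Fin n)
  let U : Subgroup Kˣ := (powMonoidHom (q + 1) : Kˣ →* Kˣ).ker
  have hUcard : Nat.card U = q + 1 := herm_card_ker hK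
  have hUmem : ∀ z : Kˣ, z ∈ U ↔ (z : K) ^ (q + 1) = 1 := by
    intro z
    show z ^ (q + 1) = 1 ↔ _
    rw [Units.ext_iff]
    simp
  let H₀ : Subgroup (GL (Fin n) K₀) := Cfsg.GU n K₀ q₀
  let φ : U × H₀ →* GL (Fin n) K :=
    MonoidHom.noncommCoprod (sc.comp U.subtype) (mapι.comp H₀.subtype)
      (fun d g => Matrix.GeneralLinearGroup.scalar_commute (d : Kˣ) (mapι (g : GL (Fin n) K₀)))
  have hφ : ∀ (d : U) (g₀ : H₀) (k l : Fin n),
      ((φ (d, g₀) : GL (Fin n) K) : Matrix (Fin n) (Fin n) K) k l =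
        ((d : Kˣ) : K) * ι ((g₀ : GL (Fin n) K₀) k l) := by
    intro d g₀ k l
    show ((sc (d : Kˣ) * mapι (g₀ : GL (Fin n) K₀) : GL (Fin n) K) : Matrix (Fin n) (Fin n) K) k l = _
    rw [Units.val_mul, Matrix.GeneralLinearGroup.coe_scalar, Matrix.scalar_apply,
      Matrix.diagonal_mul]
    rfl
  haveI : Nonempty (Fin n) := ⟨⟨0, hn⟩⟩
  -- the range of φ
  have hrange : ∀ g : GL (Fin n) K,
      (g ∈ Cfsg.GU n K q ∧ ∃ c : K, c ≠ 0 ∧
        (g : Matrix (Fin n) (Fin n) K).map σ = c • (g : Matrix (Fin n) (Fin n) K)) ↔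
        g ∈ φ.range := by
    intro g
    constructor
    · rintro ⟨hgU, c, hc, hg⟩
      have hfr : IsFr q n n (colFr (g : Matrix (Fin n) (Fin n) K)) :=
        (mem_GU_iff_isFr hK g).1 hgU
      have hex : ∃ i j, (g : Matrix (Fin n) (Fin n) K) i j ≠ 0 := by
        by_contra hcon
        push Not at hcon
        have h0 : (g : Matrix (Fin n) (Fin n) K) = 0 := by
          ext i j; exact hcon i j
        have h1 : (g : Matrix (Fin n) (Fin n) K) * ((g⁻¹ : GL (Fin n) K) : Matrix (Fin n) (Fin n) K) = 1 := by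
          rw [← Units.val_mul, mul_inv_cancel]; rfl
        rw [h0, zero_mul] at h1
        exact zero_ne_one h1
      obtain ⟨i, j, hij⟩ := hex
      set d : K := (g : Matrix (Fin n) (Fin n) K) i j with hd
      have hσd : σ d = c * d := by
        have := congrFun (congrFun hg i) j
        simpa [Matrix.map_apply, Matrix.smul_apply] using this
      have hentry : ∀ k l, σ (d⁻¹ * (g : Matrix (Fin n) (Fin n) K) k l) =
          d⁻¹ * (g : Matrix (Fin n) (Fin n) K) k l := by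
        intro k l
        have h1 : σ ((g : Matrix (Fin n) (Fin n) K) k l) = c * (g : Matrix (Fin n) (Fin n) K) k l := by
          have := congrFun (congrFun hg k) l
          simpa [Matrix.map_apply, Matrix.smul_apply] using this
        rw [map_mul, map_inv₀, hσd, h1]
        field_simp
      let A₀ : Matrix (Fin n) (Fin n) K₀ := fun k l =>
        ⟨d⁻¹ * (g : Matrix (Fin n) (Fin n) K) k l, (hmem _).2 (hentry k l)⟩
      have hA₀ : ∀ k l, ι (A₀ k l) = d⁻¹ * (g : Matrix (Fin n) (Fin n) K) k l := fun k l => rfl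
      have hgram : ∀ a b : Fin n, ι (Cfsg.hermForm n K₀ q₀ (colFr A₀ a) (colFr A₀ b)) =
          (d⁻¹) ^ (q + 1) * (if a = b then 1 else 0) := by
        intro a b
        have h1 := hfr a b
        unfold Cfsg.hermForm at h1 ⊢
        rw [map_sum, ← h1, Finset.mul_sum]
        apply Finset.sum_congr rfl
        intro k _
        rw [map_mul, ← hpow]
        show ι (A₀ k a) * (ι (A₀ k b)) ^ q = _
        rw [hA₀, hA₀]
        show _ = d⁻¹ ^ (q + 1) * ((g : Matrix (Fin n) (Fin n) K) k a * ((g : Matrix (Fin n) (Fin n) K) k b) ^ q)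
        rw [mul_pow, pow_succ]; ring
      set μ₀ : K₀ := Cfsg.hermForm n K₀ q₀ (colFr A₀ j) (colFr A₀ j) with hμ₀
      have hμι : ι μ₀ = (d⁻¹) ^ (q + 1) := by rw [hμ₀, hgram, if_pos rfl, mul_one]
      have hμ0 : μ₀ ≠ 0 := by
        intro h0
        rw [h0, map_zero] at hμι
        exact pow_ne_zero _ (inv_ne_zero hij) hμι.symm
      have hμfix : μ₀ ^ q₀ = μ₀ := by
        apply hι
        rw [← hpow, hμι]
        exact herm_norm_fixed hK _
      have hgram' : ∀ a b : Fin n, Cfsg.hermForm n K₀ q₀ (colFr A₀ a) (colFr A₀ b) =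
          μ₀ * (if a = b then 1 else 0) := by
        intro a b
        apply hι
        rw [hgram, map_mul, hμι]
        split_ifs <;> simp
      obtain ⟨t, ht0, ht⟩ := herm_norm_surj hK₀' μ₀ hμ0 hμfix
      let B₀ : Matrix (Fin n) (Fin n) K₀ := t⁻¹ • A₀
      have hB : IsFr q₀ n n (colFr B₀) := by
        intro a b
        have h1 : colFr B₀ a = t⁻¹ • colFr A₀ a := rfl
        have h2 : colFr B₀ b = t⁻¹ • colFr A₀ b := rfl
        rw [h1, h2, hf_smul_left, hf_smul_right, hgram', ← ht]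
        split_ifs
        · rw [pow_succ, inv_pow]; field_simp
        · simp
      have hBU : IsUnit B₀ := isUnit_of_preserves hK₀' B₀ (preserves_of_isFr hK₀' B₀ hB)
      have hg₀ : hBU.unit ∈ H₀ := (mem_GU_iff_isFr hK₀' _).2 hB
      have hιt : ι t ≠ 0 := (map_ne_zero ι).2 ht0
      set z : K := d * ι t with hzdef
      have hz0 : z ≠ 0 := mul_ne_zero hij hιt
      have hz : z ^ (q + 1) = 1 := by
        rw [hzdef, mul_pow, hpow1, ht, hμι, ← mul_pow, mul_inv_cancel₀ hij, one_pow]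
      refine ⟨(⟨Units.mk0 z hz0, (hUmem _).2 hz⟩, ⟨hBU.unit, hg₀⟩), ?_⟩
      apply Units.ext
      ext k l
      rw [hφ]
      show d * ι t * ι (t⁻¹ * A₀ k l) = _
      rw [map_mul, hA₀, map_inv₀]
      field_simp
    · rintro ⟨⟨z, g₀⟩, rfl⟩
      constructor
      · rw [mem_GU_iff_isFr hK]
        intro a b
        have h0 : IsFr q₀ n n (colFr ((g₀ : GL (Fin n) K₀) : Matrix (Fin n) (Fin n) K₀)) :=
          (mem_GU_iff_isFr hK₀' _).1 g₀.2
        have h1 := h0 a b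
        have hz : ((z : Kˣ) : K) ^ (q + 1) = 1 := (hUmem _).1 z.2
        unfold Cfsg.hermForm at h1 ⊢
        have h2 : ∀ k : Fin n,
            colFr ((φ (z, g₀) : GL (Fin n) K) : Matrix (Fin n) (Fin n) K) a k *
              (colFr ((φ (z, g₀) : GL (Fin n) K) : Matrix (Fin n) (Fin n) K) b k) ^ q =
            ι (colFr ((g₀ : GL (Fin n) K₀) : Matrix (Fin n) (Fin n) K₀) a k *
              (colFr ((g₀ : GL (Fin n) K₀) : Matrix (Fin n) (Fin n) K₀) b k) ^ q₀) := by
          intro k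
          show ((φ (z, g₀) : GL (Fin n) K) : Matrix (Fin n) (Fin n) K) k a *
              (((φ (z, g₀) : GL (Fin n) K) : Matrix (Fin n) (Fin n) K) k b) ^ q = _
          rw [hφ, hφ, mul_pow, hpow, map_mul]
          calc ((z : Kˣ) : K) * ι ((g₀ : GL (Fin n) K₀) k a) *
                (((z : Kˣ) : K) ^ q * ι (((g₀ : GL (Fin n) K₀) k b) ^ q₀))
              = ((z : Kˣ) : K) ^ (q + 1) * (ι ((g₀ : GL (Fin n) K₀) k a) *
                  ι (((g₀ : GL (Fin n) K₀) k b) ^ q₀)) := by rw [pow_succ]; ring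
            _ = _ := by rw [hz, one_mul]; rfl
        rw [Finset.sum_congr rfl (fun k _ => h2 k), ← map_sum, h1]
        split_ifs <;> simp
      · refine ⟨σ ((z : Kˣ) : K) / ((z : Kˣ) : K),
          div_ne_zero ((map_ne_zero σ).2 (z : Kˣ).ne_zero) (z : Kˣ).ne_zero, ?_⟩
        ext k l
        have hz0 : ((z : Kˣ) : K) ≠ 0 := (z : Kˣ).ne_zero
        rw [Matrix.map_apply, Matrix.smul_apply, hφ, map_mul, hιfix, smul_eq_mul]
        field_simp
  -- the kernel of φ
  let V : Subgroup K₀ˣ := (powMonoidHom (q₀ + 1) : K₀ˣ →* K₀ˣ).ker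
  have hVcard : Nat.card V = q₀ + 1 := herm_card_ker hK₀'
  have hVmem : ∀ u : K₀ˣ, u ∈ V ↔ (u : K₀) ^ (q₀ + 1) = 1 := by
    intro u
    show u ^ (q₀ + 1) = 1 ↔ _
    rw [Units.ext_iff]
    simp
  have hβU : ∀ u : V, (Units.map (ι : K₀ →* K) (u : K₀ˣ))⁻¹ ∈ U := by
    intro u
    rw [hUmem, Units.val_inv_eq_inv_val, inv_pow]
    show ((ι ((u : K₀ˣ) : K₀)) ^ (q + 1))⁻¹ = 1
    rw [hpow1, (hVmem _).1 u.2, map_one, inv_one]
  have hβH : ∀ u : V, Matrix.GeneralLinearGroup.scalar (Fin n) (u : K₀ˣ) ∈ H₀ := by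
    intro u
    show _ ∈ Cfsg.GU n K₀ q₀
    rw [mem_GU_iff]
    have hsc : ∀ x : Fin n → K₀,
        ((Matrix.GeneralLinearGroup.scalar (Fin n) (u : K₀ˣ) : GL (Fin n) K₀) :
          Matrix (Fin n) (Fin n) K₀) *ᵥ x = ((u : K₀ˣ) : K₀) • x := by
      intro x
      rw [Matrix.GeneralLinearGroup.coe_scalar]
      ext k
      simp [Matrix.scalar_apply, Matrix.mulVec_diagonal]
    intro x y
    rw [hsc, hsc, hf_smul_left, hf_smul_right, ← mul_assoc, ← pow_succ', (hVmem _).1 u.2, one_mul]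
  have hβ : ∀ u : V, ((⟨_, hβU u⟩ : U), (⟨_, hβH u⟩ : H₀)) ∈ φ.ker := by
    intro u
    rw [MonoidHom.mem_ker]
    show sc (Units.map (ι : K₀ →* K) (u : K₀ˣ))⁻¹ *
      mapι (Matrix.GeneralLinearGroup.scalar (Fin n) (u : K₀ˣ)) = 1
    rw [Matrix.GeneralLinearGroup.map_scalar, map_inv]
    exact inv_mul_cancel _
  let β : V → φ.ker := fun u => ⟨_, hβ u⟩
  have hβbij : Function.Bijective β := by
    constructor
    · intro u u' h
      have h1 := congrArg (fun x : φ.ker => (((x : U × H₀).1 : U) : Kˣ)) h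
      simp only [β] at h1
      have h2 : Units.map (ι : K₀ →* K) (u : K₀ˣ) = Units.map (ι : K₀ →* K) (u' : K₀ˣ) :=
        inv_injective h1
      apply Subtype.ext
      apply Units.ext
      apply hι
      exact congrArg Units.val h2
    · rintro ⟨⟨d, g₀⟩, h⟩
      rw [MonoidHom.mem_ker] at h
      have hent : ∀ k l, ((d : Kˣ) : K) * ι ((g₀ : GL (Fin n) K₀) k l) = if k = l then 1 else 0 := by
        intro k l
        rw [← hφ, h]
        simp [Matrix.one_apply]
      let i₀ : Fin n := ⟨0, hn⟩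
      have h00 : ((d : Kˣ) : K) * ι ((g₀ : GL (Fin n) K₀) i₀ i₀) = 1 := by rw [hent, if_pos rfl]
      have hu0 : (g₀ : GL (Fin n) K₀) i₀ i₀ ≠ 0 := by
        intro h0
        rw [h0, map_zero, mul_zero] at h00
        exact zero_ne_one h00
      have huV : Units.mk0 ((g₀ : GL (Fin n) K₀) i₀ i₀) hu0 ∈ V := by
        rw [hVmem]
        show ((g₀ : GL (Fin n) K₀) i₀ i₀) ^ (q₀ + 1) = 1
        apply hι
        rw [← hpow1, map_one]
        have hd1 : ((d : Kˣ) : K) ^ (q + 1) = 1 := (hUmem _).1 d.2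
        have := congrArg (fun x => x ^ (q + 1)) h00
        simp only [mul_pow, hd1, one_mul, one_pow] at this
        exact this
      refine ⟨⟨Units.mk0 _ hu0, huV⟩, ?_⟩
      apply Subtype.ext
      apply Prod.ext
      · apply Subtype.ext
        apply Units.ext
        show ((Units.map (ι : K₀ →* K) (Units.mk0 ((g₀ : GL (Fin n) K₀) i₀ i₀) hu0))⁻¹ : Kˣ).val =
          (d : Kˣ).val
        rw [Units.val_inv_eq_inv_val]
        show (ι ((g₀ : GL (Fin n) K₀) i₀ i₀))⁻¹ = ((d : Kˣ) : K)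
        exact (eq_inv_of_mul_eq_one_left h00).symm
      · apply Subtype.ext
        apply Units.ext
        ext k l
        show ι ((Matrix.scalar (Fin n) ((g₀ : GL (Fin n) K₀) i₀ i₀)) k l) = ι ((g₀ : GL (Fin n) K₀) k l)
        have hd0 : ((d : Kˣ) : K) ≠ 0 := (d : Kˣ).ne_zero
        have h1 := hent k l
        rw [Matrix.scalar_apply, Matrix.diagonal_apply]
        by_cases hkl : k = l
        · rw [if_pos hkl]
          rw [if_pos hkl] at h1
          apply mul_left_cancel₀ hd0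
          rw [h00, h1]
        · rw [if_neg hkl, map_zero]
          rw [if_neg hkl] at h1
          exact ((mul_eq_zero.1 h1).resolve_left hd0).symm
  have hker : Nat.card φ.ker = q₀ + 1 := by
    rw [← Nat.card_congr (Equiv.ofBijective β hβbij), hVcard]
  -- counting
  have hS : Nat.card {g : ↥(Cfsg.GU n K q) // ∃ c : K, c ≠ 0 ∧ ((g : GL (Fin n) K) : Matrix (Fin n) (Fin n) K).map σ = c • ((g : GL (Fin n) K) : Matrix (Fin n) (Fin n) K)} = Nat.card φ.range := by
    apply Nat.card_congr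
    refine (Equiv.subtypeSubtypeEquivSubtypeInter (fun g : GL (Fin n) K => g ∈ Cfsg.GU n K q)
      (fun g => ∃ c : K, c ≠ 0 ∧ (g : Matrix (Fin n) (Fin n) K).map σ =
        c • (g : Matrix (Fin n) (Fin n) K))).trans ?_
    exact Equiv.subtypeEquivRight hrange
  have h1 : Nat.card (U × H₀) = Nat.card φ.range * Nat.card φ.ker := by
    rw [Subgroup.card_eq_card_quotient_mul_card_subgroup φ.ker,
      Nat.card_congr (QuotientGroup.quotientKerEquivRange φ).toEquiv]
  obtain ⟨G₀, hG₀⟩ : ∃ G₀ : ℕ, G₀ = q₀ ^ (n * (n - 1) / 2) * ∏ i ∈ Finset.range n,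
      (if Even i then q₀ ^ (i + 1) + 1 else q₀ ^ (i + 1) - 1) := ⟨_, rfl⟩
  have h2 : Nat.card (U × H₀) = (q + 1) * G₀ := by
    rw [Nat.card_prod, hUcard, hG₀]
    congr 1
    exact Cfsg.Agent.S0277.result hK₀' n
  obtain ⟨M, hM⟩ : (q₀ + 1) ∣ (q + 1) := by
    rw [hq]
    have := Odd.nat_add_dvd_pow_add_pow q₀ 1 hrodd
    simpa using this
  rw [hS, hM, Nat.mul_div_cancel_left M (by omega : 0 < q₀ + 1),
    ← cast_formula q₀ n (by omega), ← hG₀, ← Nat.cast_mul]
  congr 1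
  rw [h2, hker, hM] at h1
  have h4 : (q₀ + 1) * (M * G₀) = (q₀ + 1) * Nat.card φ.range := by
    rw [← mul_assoc, h1, mul_comm]
  exact (Nat.eq_of_mul_eq_mul_left (by omega : 0 < q₀ + 1) h4).symm

end Cfsg.Agent.S2677
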