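import Cfsg.Statements.S2678
import Mathlib

set_option autoImplicit false
open Cfsg

namespace Cfsg.Agent.S2678

open Matrix Kronecker Module

section Alg

variable {K F : Type*} [Field K] [Fintype K] [Field F] [Fintype F]

lemma exists_algebra (h : Fintype.card K = Fintype.card F ^ 2) :
    ∃ (alg : Algebra F K), @Module.finrank F K _ _ alg.toModule = 2 := by
  obtain ⟨p, hp⟩ := CharP.exists F
  haveI : Fact p.Prime := ⟨CharP.char_is_prime F p⟩
  let K' := FiniteField.Extension F p 2
  letI : Fintype K' := Fintype.ofFinite K'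
  have hc : Fintype.card K = Fintype.card K' := by
    rw [h, Fintype.card_eq_nat_card (α := K'), FiniteField.natCard_extension,
      Nat.card_eq_fintype_card]
  let e : K ≃+* K' := FiniteField.ringEquivOfCardEq hc
  let alg : Algebra F K := ((e.symm : K' →+* K).comp (algebraMap F K')).toAlgebra
  refine ⟨alg, ?_⟩
  letI := alg
  have h1 : Fintype.card K = Fintype.card F ^ Module.finrank F K := Module.card_eq_pow_finrank
  rw [h] at h1
  exact (Nat.pow_right_injective Fintype.one_lt_card h1).symm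

end Alg

section General

variable {K F : Type*} [Field K] [Field F] [Algebra F K]
variable {ι : Type*} [Fintype ι] [DecidableEq ι]

lemma key (b : Basis ι F K) (x : K) :
    (Algebra.leftMulMatrix b x)ᵀ * Algebra.traceMatrix F b =
      Algebra.traceMatrix F b * Algebra.leftMulMatrix b x := by
  ext s t
  simp only [Matrix.mul_apply, Matrix.transpose_apply, Algebra.traceMatrix_apply,
    Algebra.traceForm_apply, Algebra.leftMulMatrix_eq_repr_mul]
  have e1 : x * b s = ∑ u, b.repr (x * b s) u • b u := (b.sum_repr _).symm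
  have e2 : x * b t = ∑ u, b.repr (x * b t) u • b u := (b.sum_repr _).symm
  have h1 : Algebra.trace F K (x * b s * b t) =
      ∑ u, b.repr (x * b s) u * Algebra.trace F K (b u * b t) := by
    calc Algebra.trace F K (x * b s * b t)
        = Algebra.trace F K ((∑ u, b.repr (x * b s) u • b u) * b t) := by rw [← e1]
      _ = _ := by simp only [Finset.sum_mul, map_sum, smul_mul_assoc, map_smul, smul_eq_mul]
  have h2 : Algebra.trace F K (b s * (x * b t)) =
      ∑ u, Algebra.trace F K (b s * b u) * b.repr (x * b t) u := by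
    calc Algebra.trace F K (b s * (x * b t))
        = Algebra.trace F K (b s * (∑ u, b.repr (x * b t) u • b u)) := by rw [← e2]
      _ = _ := by
        simp only [Finset.mul_sum, map_sum, mul_smul_comm, map_smul, smul_eq_mul]
        exact Finset.sum_congr rfl fun u _ => mul_comm _ _
  rw [← h1, ← h2]
  congr 1; ring

variable {n : Type*} [Fintype n] [DecidableEq n]

noncomputable def blow (b : Basis ι F K) (n : Type*) [Fintype n] [DecidableEq n] :
    Matrix n n K →+* Matrix (n × ι) (n × ι) F :=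
  (Matrix.compRingEquiv n ι F).toRingHom.comp (Algebra.leftMulMatrix b).toRingHom.mapMatrix

lemma blow_apply (b : Basis ι F K) (A : Matrix n n K) (i j : n) (s t : ι) :
    blow b n A (i, s) (j, t) = Algebra.leftMulMatrix b (A i j) s t := rfl

lemma blow_injective (b : Basis ι F K) : Function.Injective (blow b n) := by
  intro A B h
  ext i j
  apply Algebra.leftMulMatrix_injective b
  ext s t
  have := congrFun (congrFun h (i, s)) (j, t)
  simpa [blow_apply] using this

lemma blow_transpose (b : Basis ι F K) (A : Matrix n n K) :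
    (blow b n A)ᵀ * ((1 : Matrix n n F) ⊗ₖ Algebra.traceMatrix F b) =
      ((1 : Matrix n n F) ⊗ₖ Algebra.traceMatrix F b) * blow b n Aᵀ := by
  ext ⟨i, s⟩ ⟨j, t⟩
  have h := congrFun (congrFun (key b (A j i)) s) t
  simp only [Matrix.mul_apply, Matrix.transpose_apply] at h
  simp only [Matrix.mul_apply, Fintype.sum_prod_type, Matrix.transpose_apply, blow_apply,
    Matrix.kroneckerMap_apply, Matrix.one_apply]
  simp only [ite_mul, one_mul, zero_mul, mul_ite, mul_zero]
  rw [Finset.sum_eq_single j (by intro x _ hx; simp [hx]) (by simp),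
    Finset.sum_eq_single i (by intro x _ hx; simp [Ne.symm hx]) (by simp)]
  simpa using h

variable {l : Type*} [Fintype l] [DecidableEq l]

lemma blow_J (b : Basis ι F K) :
    blow b (l ⊕ l) (J l K) = (J l F) ⊗ₖ (1 : Matrix ι ι F) := by
  ext ⟨i, s⟩ ⟨j, t⟩
  rcases i with i | i <;> rcases j with j | j <;>
    by_cases hij : i = j <;> by_cases hst : s = t <;>
    simp [blow_apply, J, Matrix.one_apply, Matrix.kroneckerMap_apply, hij, hst]

/-- The change-of-basis matrix. -/
noncomputable def Pmat (b : Basis ι F K) (l : Type*) [Fintype l] [DecidableEq l] :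
    Matrix ((l ⊕ l) × ι) ((l ⊕ l) × ι) F :=
  (fromBlocks 1 0 0 0 : Matrix (l ⊕ l) (l ⊕ l) F) ⊗ₖ (1 : Matrix ι ι F) +
    (fromBlocks 0 0 0 1 : Matrix (l ⊕ l) (l ⊕ l) F) ⊗ₖ Algebra.traceMatrix F b

noncomputable def Pinv (b : Basis ι F K) (l : Type*) [Fintype l] [DecidableEq l] :
    Matrix ((l ⊕ l) × ι) ((l ⊕ l) × ι) F :=
  (fromBlocks 1 0 0 0 : Matrix (l ⊕ l) (l ⊕ l) F) ⊗ₖ (1 : Matrix ι ι F) +
    (fromBlocks 0 0 0 1 : Matrix (l ⊕ l) (l ⊕ l) F) ⊗ₖ (Algebra.traceMatrix F b)⁻¹

lemma traceMatrix_transpose (b : Basis ι F K) :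
    (Algebra.traceMatrix F b)ᵀ = Algebra.traceMatrix F b := by
  ext i j; simp [Algebra.traceMatrix_apply, Algebra.traceForm_apply, mul_comm]

lemma Pmat_mul_Pinv (b : Basis ι F K) (hM : IsUnit (Algebra.traceMatrix F b).det) :
    Pmat b l * Pinv b l = 1 := by
  simp only [Pmat, Pinv, Matrix.add_mul, Matrix.mul_add, ← Matrix.mul_kronecker_mul,
    fromBlocks_multiply]
  simp only [Matrix.mul_one, Matrix.one_mul, Matrix.mul_zero, Matrix.zero_mul, add_zero, zero_add,
    fromBlocks_zero, Matrix.zero_kronecker, Matrix.mul_nonsing_inv _ hM]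
  rw [← Matrix.add_kronecker, fromBlocks_add]
  simp [fromBlocks_one]

lemma Pinv_mul_Pmat (b : Basis ι F K) (hM : IsUnit (Algebra.traceMatrix F b).det) :
    Pinv b l * Pmat b l = 1 := by
  simp only [Pmat, Pinv, Matrix.add_mul, Matrix.mul_add, ← Matrix.mul_kronecker_mul,
    fromBlocks_multiply]
  simp only [Matrix.mul_one, Matrix.one_mul, Matrix.mul_zero, Matrix.zero_mul, add_zero, zero_add,
    fromBlocks_zero, Matrix.zero_kronecker, Matrix.nonsing_inv_mul _ hM]
  rw [← Matrix.add_kronecker, fromBlocks_add]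
  simp [fromBlocks_one]

lemma Pmat_transpose (b : Basis ι F K) : (Pmat b l)ᵀ = Pmat b l := by
  simp only [Pmat, Matrix.transpose_add, ← Matrix.kroneckerMap_transpose, fromBlocks_transpose,
    traceMatrix_transpose, Matrix.transpose_one, Matrix.transpose_zero]

lemma Pmat_form (b : Basis ι F K) :
    (Pmat b l)ᵀ * ((J l F) ⊗ₖ (1 : Matrix ι ι F)) * Pmat b l =
      (J l F) ⊗ₖ Algebra.traceMatrix F b := by
  rw [Pmat_transpose]
  simp only [Pmat, J, Matrix.add_mul, Matrix.mul_add, ← Matrix.mul_kronecker_mul,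
    fromBlocks_multiply]
  simp only [Matrix.mul_one, Matrix.one_mul, Matrix.mul_zero, Matrix.zero_mul, add_zero, zero_add,
    fromBlocks_zero, Matrix.zero_kronecker, Matrix.mul_neg, Matrix.neg_mul, neg_zero]
  rw [← Matrix.add_kronecker, fromBlocks_add]
  simp

lemma blow_mem (b : Basis ι F K) {A : Matrix (l ⊕ l) (l ⊕ l) K} (hA : A ∈ symplecticGroup l K) :
    (blow b _ A)ᵀ * ((J l F) ⊗ₖ Algebra.traceMatrix F b) * blow b _ A =
      (J l F) ⊗ₖ Algebra.traceMatrix F b := by
  have h1 : Aᵀ * J l K * A = J l K := SymplecticGroup.mem_iff'.1 hA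
  have h2 : blow b _ Aᵀ * blow b _ (J l K) * blow b _ A = blow b _ (J l K) := by
    rw [← map_mul, ← map_mul, h1]
  have h3 : (J l F) ⊗ₖ Algebra.traceMatrix F b =
      ((1 : Matrix (l ⊕ l) (l ⊕ l) F) ⊗ₖ Algebra.traceMatrix F b) * blow b _ (J l K) := by
    rw [blow_J, ← Matrix.mul_kronecker_mul, Matrix.one_mul, Matrix.mul_one]
  rw [h3, ← Matrix.mul_assoc, blow_transpose, Matrix.mul_assoc, Matrix.mul_assoc,
    ← Matrix.mul_assoc (blow b _ Aᵀ), h2]

lemma psi_form (b : Basis ι F K) (hM : IsUnit (Algebra.traceMatrix F b).det)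
    {A : Matrix (l ⊕ l) (l ⊕ l) K} (hA : A ∈ symplecticGroup l K) :
    (Pmat b l * blow b _ A * Pinv b l)ᵀ * ((J l F) ⊗ₖ (1 : Matrix ι ι F)) *
        (Pmat b l * blow b _ A * Pinv b l) = (J l F) ⊗ₖ (1 : Matrix ι ι F) := by
  have hP := Pmat_form (l := l) b
  have hPP := Pmat_mul_Pinv (l := l) b hM
  have hA' := blow_mem b hA
  have hPP' : (Pinv b l)ᵀ * (Pmat b l)ᵀ = 1 := by
    rw [← Matrix.transpose_mul, hPP, Matrix.transpose_one]
  calc (Pmat b l * blow b _ A * Pinv b l)ᵀ * ((J l F) ⊗ₖ (1 : Matrix ι ι F)) *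
        (Pmat b l * blow b _ A * Pinv b l)
      = (Pinv b l)ᵀ * ((blow b _ A)ᵀ * ((Pmat b l)ᵀ * ((J l F) ⊗ₖ (1 : Matrix ι ι F)) * Pmat b l) *
          blow b _ A) * Pinv b l := by
        simp only [Matrix.transpose_mul, Matrix.mul_assoc]
    _ = (Pinv b l)ᵀ * ((Pmat b l)ᵀ * ((J l F) ⊗ₖ (1 : Matrix ι ι F)) * Pmat b l) * Pinv b l := by
        rw [hP, hA']
    _ = ((Pinv b l)ᵀ * (Pmat b l)ᵀ) * ((J l F) ⊗ₖ (1 : Matrix ι ι F)) * (Pmat b l * Pinv b l) := by
        simp only [Matrix.mul_assoc]
    _ = _ := by rw [hPP, hPP', Matrix.one_mul, Matrix.mul_one]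

theorem exists_embedding (b : Basis ι F K) (hM : IsUnit (Algebra.traceMatrix F b).det)
    {l' : Type*} [Fintype l'] [DecidableEq l'] (e : (l ⊕ l) × ι ≃ l' ⊕ l')
    (hJ : ((J l F) ⊗ₖ (1 : Matrix ι ι F)).submatrix e.symm e.symm = J l' F) :
    ∃ φ : symplecticGroup l K →* symplecticGroup l' F, Function.Injective φ := by
  have hPP := Pmat_mul_Pinv (l := l) b hM
  have hPP' := Pinv_mul_Pmat (l := l) b hM
  have hcancel : ∀ X : Matrix ((l ⊕ l) × ι) ((l ⊕ l) × ι) F,
      Pinv b l * (Pmat b l * X * Pinv b l) * Pmat b l = X := by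
    intro X
    rw [← Matrix.mul_assoc, ← Matrix.mul_assoc, hPP', Matrix.one_mul, Matrix.mul_assoc, hPP',
      Matrix.mul_one]
  refine ⟨{ toFun := fun A =>
              ⟨(Pmat b l * blow b _ A.1 * Pinv b l).submatrix e.symm e.symm, ?_⟩
            map_one' := ?_
            map_mul' := ?_ }, ?_⟩
  · rw [SymplecticGroup.mem_iff', ← hJ, Matrix.transpose_submatrix, Matrix.submatrix_mul_equiv,
      Matrix.submatrix_mul_equiv, psi_form b hM A.2]
  · apply Subtype.ext
    simp [hPP]
  · intro A B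
    apply Subtype.ext
    simp only [Submonoid.coe_mul, map_mul]
    rw [Matrix.submatrix_mul_equiv]
    congr 1
    calc Pmat b l * (blow b _ A.1 * blow b _ B.1) * Pinv b l
        = Pmat b l * blow b _ A.1 * (Pinv b l * Pmat b l) * blow b _ B.1 * Pinv b l := by
          simp only [Matrix.mul_assoc]
          rw [← Matrix.mul_assoc (Pinv b l) (Pmat b l), hPP', Matrix.one_mul]
      _ = _ := by simp only [Matrix.mul_assoc]
  · intro A B h
    apply Subtype.ext
    apply blow_injective b
    have h' := congrArg Subtype.val h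
    simp only [MonoidHom.coe_mk, OneHom.coe_mk] at h'
    have h'' : Pmat b l * blow b _ A.1 * Pinv b l = Pmat b l * blow b _ B.1 * Pinv b l := by
      have := congrArg (fun X => X.submatrix e e) h'
      simpa using this
    rw [← hcancel (blow b _ A.1), h'', hcancel]

lemma J_reindex {l' : Type*} [Fintype l'] [DecidableEq l'] (f : l × ι ≃ l') :
    ((J l F) ⊗ₖ (1 : Matrix ι ι F)).submatrix
        ((Equiv.sumProdDistrib l l ι).trans (Equiv.sumCongr f f)).symm
        ((Equiv.sumProdDistrib l l ι).trans (Equiv.sumCongr f f)).symm = J l' F := by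
  ext i j
  rcases i with i | i <;> rcases j with j | j <;>
    simp [J, Matrix.one_apply, Matrix.kroneckerMap_apply]
  all_goals
    by_cases h : i = j
    · subst h; simp
    · have h' : ¬ ((f.symm i).1 = (f.symm j).1 ∧ (f.symm i).2 = (f.symm j).2) := by
        rw [← Prod.ext_iff]; exact fun hh => h (f.symm.injective hh)
      split_ifs <;> simp_all

end General

/-- Field-extension embedding of symplectic groups: for a field K with q² elements and a field F with q elements there is an injective homomorphism Sp_2a(K) → Sp_4a(F). -/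
theorem result {K F : Type*} [Field K] [Fintype K] [Field F] [Fintype F] {q : ℕ} (hK : Fintype.card K = q ^ 2) (hF : Fintype.card F = q) (a : ℕ) : ∃ φ : ↥(Matrix.symplecticGroup (Fin a) K) →* ↥(Matrix.symplecticGroup (Fin (2 * a)) F), Function.Injective φ := by
  obtain ⟨alg, hfr⟩ := exists_algebra (K := K) (F := F) (by rw [hK, hF])
  letI := alg
  let b : Basis (Fin 2) F K := Module.finBasisOfFinrankEq F K hfr
  have hM : IsUnit (Algebra.traceMatrix F b).det := by
    rw [isUnit_iff_ne_zero, Algebra.traceMatrix_of_basis]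
    exact det_traceForm_ne_zero b
  let f : Fin a × Fin 2 ≃ Fin (2 * a) := (Equiv.prodComm _ _).trans finProdFinEquiv
  exact exists_embedding b hM _ (J_reindex f)

end Cfsg.Agent.S2678
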