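import Cfsg.Statements.S2679
import Mathlib

set_option autoImplicit false
open Cfsg

namespace Cfsg.Agent.S2679

open Matrix Polynomial

section QF

variable {ι : Type} [Fintype ι] [DecidableEq ι] {R : Type*} [CommRing R]

/-- The quadratic function attached to a matrix. -/
def qf (A : Matrix ι ι R) (v : ι → R) : R := v ⬝ᵥ (A *ᵥ v)

lemma qf_eq_sum (A : Matrix ι ι R) (v : ι → R) : qf A v = ∑ i, ∑ j, v i * A i j * v j := by
  simp only [qf, dotProduct, mulVec, Finset.mul_sum, mul_assoc]

lemma qf_mulVec (A g : Matrix ι ι R) (v : ι → R) : qf A (g *ᵥ v) = qf (gᵀ * A * g) v := by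
  simp only [qf]
  rw [← Matrix.mulVec_mulVec, ← Matrix.mulVec_mulVec, Matrix.dotProduct_mulVec v gᵀ,
    Matrix.vecMul_transpose]

lemma qf_sub (A B : Matrix ι ι R) (v : ι → R) : qf (A - B) v = qf A v - qf B v := by
  simp [qf, Matrix.sub_mulVec, dotProduct_sub]

lemma qf_zero_of_alt (C : Matrix ι ι R) (h1 : ∀ i, C i i = 0) (h2 : ∀ i j, C i j + C j i = 0)
    (v : ι → R) : qf C v = 0 := by
  rw [qf_eq_sum]
  have key : ∀ s : Finset ι, ∑ i ∈ s, ∑ j ∈ s, v i * C i j * v j = 0 := by
    intro s
    induction s using Finset.induction_on with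
    | empty => simp
    | insert a s ha ih =>
      rw [Finset.sum_insert ha]
      simp only [Finset.sum_insert ha]
      rw [Finset.sum_add_distrib, ih, add_zero, h1 a, mul_zero, zero_mul, zero_add,
        ← Finset.sum_add_distrib]
      apply Finset.sum_eq_zero
      intro j _
      have := h2 a j
      linear_combination (v a * v j) * this
  exact key Finset.univ

lemma alt_of_qf_zero (C : Matrix ι ι R) (h : ∀ v, qf C v = 0) :
    (∀ i, C i i = 0) ∧ (∀ i j, C i j + C j i = 0) := by
  have h1 : ∀ i, C i i = 0 := by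
    intro i
    have := h (Pi.single i 1)
    simpa [qf] using this
  refine ⟨h1, fun i j => ?_⟩
  have := h (Pi.single i 1 + Pi.single j 1)
  simp [qf, Matrix.mulVec_add, dotProduct_add, add_dotProduct] at this
  linear_combination this - h1 i - h1 j

lemma qf_map_preserved {F K : Type*} [CommRing F] [CommRing K] (φ : F →+* K)
    (A g : Matrix ι ι F) (h : ∀ v, qf A (g *ᵥ v) = qf A v) (w : ι → K) :
    qf (A.map φ) (g.map φ *ᵥ w) = qf (A.map φ) w := by
  have hC : ∀ v, qf (gᵀ * A * g - A) v = 0 := fun v => by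
    rw [qf_sub, ← qf_mulVec, h, sub_self]
  obtain ⟨h1, h2⟩ := alt_of_qf_zero _ hC
  have hK : qf ((gᵀ * A * g - A).map φ) w = 0 := by
    apply qf_zero_of_alt
    · intro i; simp only [Matrix.map_apply]; rw [h1 i, map_zero]
    · intro i j; simp only [Matrix.map_apply]; rw [← map_add, h2 i j, map_zero]
  rw [qf_mulVec]
  have : (gᵀ * A * g - A).map φ = (g.map φ)ᵀ * A.map φ * g.map φ - A.map φ := by
    simp [Matrix.map_sub, Matrix.map_mul, Matrix.transpose_map]
  rw [this, qf_sub, sub_eq_zero] at hK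
  exact hK

end QF

section Isom

variable {ι κ : Type} [Fintype ι] [DecidableEq ι] [Fintype κ] [DecidableEq κ]

lemma mem_isometryGroup {K : Type*} [Field K] (Q : (ι → K) → K) (g : GL ι K) :
    g ∈ isometryGroup K Q ↔ ∀ u : ι → K, Q ((g : Matrix ι ι K) *ᵥ u) = Q u := by
  constructor
  · intro h u; exact h u u
  · intro h u _; exact h u

/-- Conjugation by an invertible (possibly rectangular) matrix carrying one form to another. -/
lemma exists_hom_of_conj {K : Type*} [Field K] (Q : (ι → K) → K) (Q' : (κ → K) → K)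
    (T : Matrix κ ι K) (T' : Matrix ι κ K) (h1 : T' * T = 1) (h2 : T * T' = 1)
    (hQ : ∀ v, Q' (T *ᵥ v) = Q v) :
    ∃ φ : isometryGroup K Q →* isometryGroup K Q', Function.Injective φ := by
  let ψ : GL ι K →* GL κ K :=
    { toFun := fun g => ⟨T * (g : Matrix ι ι K) * T', T * ((g⁻¹ : GL ι K) : Matrix ι ι K) * T', by
          calc T * (g : Matrix ι ι K) * T' * (T * ((g⁻¹ : GL ι K) : Matrix ι ι K) * T')
              = T * ((g : Matrix ι ι K) * (T' * T) * ((g⁻¹ : GL ι K) : Matrix ι ι K)) * T' := by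
                simp only [Matrix.mul_assoc]
            _ = 1 := by
                rw [h1, Matrix.mul_one, ← Units.val_mul, mul_inv_cancel, Units.val_one,
                  Matrix.mul_one, h2], by
          calc T * ((g⁻¹ : GL ι K) : Matrix ι ι K) * T' * (T * (g : Matrix ι ι K) * T')
              = T * (((g⁻¹ : GL ι K) : Matrix ι ι K) * (T' * T) * (g : Matrix ι ι K)) * T' := by
                simp only [Matrix.mul_assoc]
            _ = 1 := by
                rw [h1, Matrix.mul_one, ← Units.val_mul, inv_mul_cancel, Units.val_one,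
                  Matrix.mul_one, h2]⟩
      map_one' := by
        apply Units.ext
        simp [h2]
      map_mul' := by
        intro g g'
        apply Units.ext
        simp only [Units.val_mul]
        calc T * ((g : Matrix ι ι K) * (g' : Matrix ι ι K)) * T'
            = T * ((g : Matrix ι ι K) * 1 * (g' : Matrix ι ι K)) * T' := by rw [Matrix.mul_one]
          _ = _ := by rw [← h1]; simp only [Matrix.mul_assoc] }
  have hψ : ∀ g : GL ι K, ((ψ g : GL κ K) : Matrix κ κ K) = T * (g : Matrix ι ι K) * T' :=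
    fun g => rfl
  have hinj : Function.Injective ψ := by
    intro g g' h
    apply Units.ext
    have h' : T * (g : Matrix ι ι K) * T' = T * (g' : Matrix ι ι K) * T' := by
      rw [← hψ, ← hψ, h]
    calc (g : Matrix ι ι K) = (T' * T) * (g : Matrix ι ι K) * (T' * T) := by
          rw [h1, Matrix.one_mul, Matrix.mul_one]
      _ = T' * (T * (g : Matrix ι ι K) * T') * T := by simp only [Matrix.mul_assoc]
      _ = T' * (T * (g' : Matrix ι ι K) * T') * T := by rw [h']
      _ = (T' * T) * (g' : Matrix ι ι K) * (T' * T) := by simp only [Matrix.mul_assoc]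
      _ = (g' : Matrix ι ι K) := by rw [h1, Matrix.one_mul, Matrix.mul_one]
  have hmem : ∀ g : isometryGroup K Q, ψ g ∈ isometryGroup K Q' := by
    intro g
    rw [mem_isometryGroup]
    intro u
    have hg := (mem_isometryGroup Q g.1).1 g.2
    have hu : u = T *ᵥ (T' *ᵥ u) := by rw [Matrix.mulVec_mulVec, h2, Matrix.one_mulVec]
    rw [hψ, ← Matrix.mulVec_mulVec, ← Matrix.mulVec_mulVec, hQ, hg, ← hQ, ← hu]
  refine ⟨(ψ.comp (isometryGroup K Q).subtype).codRestrict (isometryGroup K Q') hmem, ?_⟩
  intro g g' h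
  apply Subtype.ext
  apply hinj
  exact congrArg Subtype.val h

/-- Reindexing along an equivalence of index types. -/
lemma exists_hom_reindex {K : Type*} [Field K] (Q : (ι → K) → K) (Q' : (κ → K) → K)
    (ε : ι ≃ κ) (hQ : ∀ v, Q' (v ∘ ε.symm) = Q v) :
    ∃ φ : isometryGroup K Q →* isometryGroup K Q', Function.Injective φ := by
  refine exists_hom_of_conj Q Q' ((1 : Matrix ι ι K).submatrix ε.symm id)
    ((1 : Matrix ι ι K).submatrix id ε.symm) ?_ ?_ ?_
  · rw [Matrix.submatrix_mul_equiv]
    simp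
  · ext i j
    simp [Matrix.mul_apply, Matrix.one_apply]
  · intro v
    rw [← hQ]
    congr 1
    ext i
    simp [Matrix.mulVec, dotProduct, Matrix.one_apply]

/-- Base change along a field homomorphism for quadratic functions given by matrices. -/
lemma exists_hom_map {F K : Type*} [Field F] [Field K] (φ : F →+* K) (A : Matrix ι ι F)
    (Q : (ι → F) → F) (Q' : (ι → K) → K) (hQ : ∀ v, Q v = qf A v)
    (hQ' : ∀ v, Q' v = qf (A.map φ) v) :
    ∃ ψ : isometryGroup F Q →* isometryGroup K Q', Function.Injective ψ := by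
  have hmem : ∀ g : isometryGroup F Q,
      Matrix.GeneralLinearGroup.map φ (g : GL ι F) ∈ isometryGroup K Q' := by
    intro g
    rw [mem_isometryGroup]
    intro u
    have hg := (mem_isometryGroup Q g.1).1 g.2
    simp only [hQ] at hg
    rw [hQ', hQ']
    exact qf_map_preserved φ A _ hg u
  refine ⟨((Matrix.GeneralLinearGroup.map φ).comp (isometryGroup F Q).subtype).codRestrict
    (isometryGroup K Q') hmem, ?_⟩
  intro g g' h
  apply Subtype.ext
  have h' : Matrix.GeneralLinearGroup.map φ (g : GL ι F) =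
      Matrix.GeneralLinearGroup.map φ (g' : GL ι F) := congrArg Subtype.val h
  apply Units.ext
  ext i j
  have := congrArg (fun x : GL ι K => x i j) h'
  simp only [Matrix.GeneralLinearGroup.map_apply] at this
  exact φ.injective this

end Isom

section Specific

variable {R : Type*} [Field R]

/-- Matrix of the minus-type form. -/
def Aminus (k : ℕ) (a c : R) : Matrix ((Fin k ⊕ Fin k) ⊕ Fin 2) ((Fin k ⊕ Fin k) ⊕ Fin 2) R :=
  fromBlocks (fromBlocks 0 1 0 0) 0 0 !![1, a; 0, c]

lemma quadFormMinus_eq_qf (k : ℕ) (a c : R) (v : (Fin k ⊕ Fin k) ⊕ Fin 2 → R) :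
    quadFormMinus k R a c v = qf (Aminus k a c) v := by
  simp only [quadFormMinus, qf, Aminus, dotProduct, mulVec, Fintype.sum_sum_type,
    fromBlocks_apply₁₁, fromBlocks_apply₁₂, fromBlocks_apply₂₁, fromBlocks_apply₂₂,
    Fin.sum_univ_two]
  simp [Matrix.one_apply]
  ring

lemma Aminus_map {K : Type*} [Field K] (φ : R →+* K) (k : ℕ) (a c : R) :
    (Aminus k a c).map φ = Aminus k (φ a) (φ c) := by
  ext i j
  rcases i with (i | i) | i <;> rcases j with (j | j) | j <;>
    simp [Aminus, Matrix.one_apply, apply_ite]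
  fin_cases i <;> fin_cases j <;> simp

/-- A hyperbolic form on the index type of the minus-type form. -/
def hypForm (k : ℕ) (R : Type*) [Field R] (v : (Fin k ⊕ Fin k) ⊕ Fin 2 → R) : R :=
  (∑ i : Fin k, v (.inl (.inl i)) * v (.inl (.inr i))) + v (.inr 0) * v (.inr 1)

/-- The change of variables splitting the binary part. -/
def Tmat (k : ℕ) (α β : R) : Matrix ((Fin k ⊕ Fin k) ⊕ Fin 2) ((Fin k ⊕ Fin k) ⊕ Fin 2) R :=
  fromBlocks 1 0 0 !![1, -α; 1, -β]

def Tinv (k : ℕ) (α β : R) : Matrix ((Fin k ⊕ Fin k) ⊕ Fin 2) ((Fin k ⊕ Fin k) ⊕ Fin 2) R :=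
  fromBlocks 1 0 0 ((α - β)⁻¹ • !![-β, α; -1, 1])

lemma Tinv_mul_Tmat (k : ℕ) {α β : R} (h : α ≠ β) : Tinv k α β * Tmat k α β = 1 := by
  have hd : α - β ≠ 0 := sub_ne_zero.2 h
  rw [Tinv, Tmat, fromBlocks_multiply]
  have : ((α - β)⁻¹ • !![-β, α; -1, 1]) * !![1, -α; 1, -β] = (1 : Matrix (Fin 2) (Fin 2) R) := by
    ext i j
    fin_cases i <;> fin_cases j <;> simp [Matrix.mul_apply, Fin.sum_univ_two] <;> field_simp <;> ring
  simp only [Matrix.zero_mul, Matrix.mul_zero, Matrix.one_mul, Matrix.mul_one, add_zero,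
    zero_add, this]
  exact fromBlocks_one

lemma Tmat_mul_Tinv (k : ℕ) {α β : R} (h : α ≠ β) : Tmat k α β * Tinv k α β = 1 := by
  have hd : α - β ≠ 0 := sub_ne_zero.2 h
  rw [Tinv, Tmat, fromBlocks_multiply]
  have : !![1, -α; 1, -β] * ((α - β)⁻¹ • !![-β, α; -1, 1]) = (1 : Matrix (Fin 2) (Fin 2) R) := by
    ext i j
    fin_cases i <;> fin_cases j <;> simp [Matrix.mul_apply, Fin.sum_univ_two] <;> field_simp <;> ring
  simp only [Matrix.zero_mul, Matrix.mul_zero, Matrix.one_mul, Matrix.mul_one, add_zero,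
    zero_add, this]
  exact fromBlocks_one

lemma hypForm_Tmat (k : ℕ) (a c α β : R) (h1 : α + β = -a) (h2 : α * β = c)
    (v : (Fin k ⊕ Fin k) ⊕ Fin 2 → R) :
    hypForm k R (Tmat k α β *ᵥ v) = quadFormMinus k R a c v := by
  have ha : a = -(α + β) := by rw [h1, neg_neg]
  subst ha
  subst h2
  simp only [hypForm, quadFormMinus, Tmat, mulVec, dotProduct, Fintype.sum_sum_type,
    fromBlocks_apply₁₁, fromBlocks_apply₁₂, fromBlocks_apply₂₁, fromBlocks_apply₂₂,
    Fin.sum_univ_two]
  simp [Matrix.one_apply]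
  ring

/-- The index equivalence moving the binary part to the last hyperbolic pair. -/
def eqv (k : ℕ) : (Fin k ⊕ Fin k) ⊕ Fin 2 ≃ Fin (k + 1) ⊕ Fin (k + 1) where
  toFun x := match x with
    | .inl (.inl i) => .inl i.castSucc
    | .inl (.inr i) => .inr i.castSucc
    | .inr s => if s = 0 then .inl (Fin.last k) else .inr (Fin.last k)
  invFun y := match y with
    | .inl i => Fin.lastCases (.inr 0) (fun j => .inl (.inl j)) i
    | .inr i => Fin.lastCases (.inr 1) (fun j => .inl (.inr j)) i
  left_inv := by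
    rintro ((i | i) | s)
    · simp
    · simp
    · fin_cases s <;> simp
  right_inv := by
    rintro (i | i)
    · refine Fin.lastCases ?_ (fun j => ?_) i <;> simp
    · refine Fin.lastCases ?_ (fun j => ?_) i <;> simp

lemma quadFormPlus_eqv (k : ℕ) (v : (Fin k ⊕ Fin k) ⊕ Fin 2 → R) :
    quadFormPlus (k + 1) R (v ∘ (eqv k).symm) = hypForm k R v := by
  simp only [quadFormPlus, hypForm, Function.comp_apply, Fin.sum_univ_castSucc]
  simp [eqv]

end Specific

section Roots

variable {F K : Type*} [Field F] [Fintype F] [Field K] [Fintype K]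

lemma exists_roots (hK : Fintype.card K = Fintype.card F ^ 2) (a c : F)
    (hac : ∀ z₁ z₂ : F, z₁ ^ 2 + a * z₁ * z₂ + c * z₂ ^ 2 = 0 → z₁ = 0 ∧ z₂ = 0) :
    ∃ (φ : F →+* K) (α β : K), α ≠ β ∧ α + β = - φ a ∧ α * β = φ c := by
  classical
  let f : F[X] := X ^ 2 + C a * X + C c
  have hdeg : f.natDegree = 2 := by
    simp only [f]; compute_degree!
  have hnoroot : ∀ z : F, ¬ f.IsRoot z := by
    intro z hz
    have : z ^ 2 + a * z * 1 + c * 1 ^ 2 = 0 := by simpa [f] using hz
    exact one_ne_zero (hac z 1 this).2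
  have hirr : Irreducible f :=
    Polynomial.irreducible_of_degree_le_three_of_not_isRoot (by rw [hdeg]; decide) hnoroot
  haveI : Fact (Irreducible f) := ⟨hirr⟩
  have hf0 : f ≠ 0 := hirr.ne_zero
  haveI : Module.Finite F (AdjoinRoot f) := (AdjoinRoot.powerBasis hf0).finite
  haveI : Finite (AdjoinRoot f) := Module.finite_of_finite F
  letI : Fintype (AdjoinRoot f) := Fintype.ofFinite _
  have hfr : Module.finrank F (AdjoinRoot f) = 2 := by
    rw [(AdjoinRoot.powerBasis hf0).finrank, AdjoinRoot.powerBasis_dim, hdeg]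
  have hcard : Fintype.card (AdjoinRoot f) = Fintype.card F ^ 2 := by
    rw [Module.card_eq_pow_finrank (K := F) (V := AdjoinRoot f), hfr]
  let e : K ≃+* AdjoinRoot f := FiniteField.ringEquivOfCardEq (hK.trans hcard.symm)
  let φ : F →+* K := (e.symm : AdjoinRoot f →+* K).comp (AdjoinRoot.of f)
  let α : K := e.symm (AdjoinRoot.root f)
  have hα : α ^ 2 + φ a * α + φ c = 0 := by
    have h0 : (AdjoinRoot.root f) ^ 2 + AdjoinRoot.of f a * AdjoinRoot.root f +
        AdjoinRoot.of f c = 0 := by
      have := AdjoinRoot.eval₂_root f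
      simpa [f, eval₂_add, eval₂_mul, eval₂_pow] using this
    have := congrArg e.symm h0
    simpa [φ, α] using this
  refine ⟨φ, α, -φ a - α, ?_, by ring, ?_⟩
  · intro h
    by_cases h2 : (2 : F) = 0
    · have h2K : (2 : K) = 0 := by
        have := congrArg φ h2
        rwa [map_ofNat, map_zero] at this
      have ha : φ a = 0 := by linear_combination h - α * h2K
      have ha0 : a = 0 := φ.injective (by simpa using ha)
      have hchar : ringChar F = 2 :=
        CharP.ringChar_of_prime_eq_zero Nat.prime_two (by exact_mod_cast h2)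
      obtain ⟨d, hd⟩ := FiniteField.isSquare_of_char_two hchar c
      have := hac d 1 (by rw [ha0, hd]; linear_combination d * d * h2)
      exact one_ne_zero this.2
    · have h2K : (2 : K) ≠ 0 := by
        intro h'; apply h2; apply φ.injective; rw [map_ofNat, map_zero]; exact h'
      have hz : φ (-a / 2) = α := by
        have h3 : 2 * α = - φ a := by linear_combination h
        simp only [map_div₀, map_neg, map_ofNat]
        field_simp
        linear_combination -h3
      have hroot : (-a / 2) ^ 2 + a * (-a / 2) * 1 + c * 1 ^ 2 = 0 := by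
        apply φ.injective
        simp only [map_add, map_mul, map_pow, map_one, map_zero, hz]
        linear_combination hα
      exact one_ne_zero (hac (-a / 2) 1 hroot).2
  · linear_combination -hα

end Roots

/-- An elliptic orthogonal group embeds in the hyperbolic orthogonal group of the same dimension over the quadratic extension: for a field F with q elements and a field K with q² elements there is an injective homomorphism from O⁻_2m(F) (isometries of Σ_(j<m−1) x_j y_j + z₁² + a z₁z₂ + c z₂², binary part anisotropic) to O⁺_2m(K) (isometries of Σ_(j<m) x_j y_j over K). -/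
theorem result {F K : Type*} [Field F] [Fintype F] [Field K] [Fintype K] {q : ℕ} (hF : Fintype.card F = q) (hK : Fintype.card K = q ^ 2) {m : ℕ} (hm : 1 ≤ m) (a c : F) (hac : ∀ z₁ z₂ : F, z₁ ^ 2 + a * z₁ * z₂ + c * z₂ ^ 2 = 0 → z₁ = 0 ∧ z₂ = 0) : ∃ φ : ↥(Cfsg.isometryGroup F (Cfsg.quadFormMinus (m - 1) F a c)) →* ↥(Cfsg.isometryGroup K (Cfsg.quadFormPlus m K)), Function.Injective φ := by
  obtain ⟨k, rfl⟩ : ∃ k, m = k + 1 := ⟨m - 1, by omega⟩
  obtain ⟨φ, α, β, hne, hsum, hprod⟩ := exists_roots (K := K) (by rw [hK, hF]) a c hac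
  obtain ⟨ψ₁, h₁⟩ := exists_hom_map φ (Aminus k a c) (quadFormMinus k F a c)
    (quadFormMinus k K (φ a) (φ c)) (quadFormMinus_eq_qf k a c)
    (fun v => by rw [Aminus_map]; exact quadFormMinus_eq_qf k (φ a) (φ c) v)
  obtain ⟨ψ₂, h₂⟩ := exists_hom_of_conj (quadFormMinus k K (φ a) (φ c)) (hypForm k K)
    (Tmat k α β) (Tinv k α β) (Tinv_mul_Tmat k hne) (Tmat_mul_Tinv k hne)
    (hypForm_Tmat k (φ a) (φ c) α β hsum hprod)
  obtain ⟨ψ₃, h₃⟩ := exists_hom_reindex (hypForm k K) (quadFormPlus (k + 1) K) (eqv k)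
    (quadFormPlus_eqv k)
  exact ⟨ψ₃.comp (ψ₂.comp ψ₁), h₃.comp (h₂.comp h₁)⟩

end Cfsg.Agent.S2679
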