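import Cfsg.Statements.S2692
import Cfsg.Agent.Lib.Helper53.SUFinal

set_option autoImplicit false
open Cfsg

namespace Cfsg.Agent.S2692

open Cfsg.Agent.Lib.Helper53.AutPSU Cfsg.Agent.Lib.Helper87 in
/-- Every automorphism of a simple PSU_n(q), n ≥ 3, (n, q) ≠ (3, 2), realised over the field F with q² elements, is a product δ φ of an inner-diagonal automorphism δ (induced by a general unitary matrix) and a standard field automorphism φ (one automorphism of F applied to every entry, possibly the identity; the standard field automorphisms of even order are the graph automorphisms here). -/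
theorem result {F : Type*} [Field F] [Fintype F] {p f q : ℕ} [Fact p.Prime] (hq : q = p ^ f) (hf : 1 ≤ f) (hF : Fintype.card F = q ^ 2) {n : ℕ} (hn : 3 ≤ n) (hs : ¬ (n = 3 ∧ q = 2)) (β : MulAut (Cfsg.PSU n F q)) :
    ∃ (δ φ : MulAut (Cfsg.PSU n F q)) (σ : F ≃+* F), Cfsg.IsInnerDiagonalAutPSU δ ∧ Cfsg.IsFieldAutPSUOf σ φ ∧ β = δ * φ := by
  haveI := charP_of_card hq hf hF
  obtain ⟨g, σ, hg, h⟩ := aut_induced (p := p) hF hn hs β
  refine ⟨β * (descU (faU σ))⁻¹, descU (faU σ), σ, ⟨g, hg, ?_⟩, fieldAut_of σ, ?_⟩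
  · intro s s' hs'
    have h1 : (descU (faU σ) : MulAut (Cfsg.PSU n F q))⁻¹ (QuotientGroup.mk s)
        = QuotientGroup.mk ((faU σ)⁻¹ s) := by
      rw [← map_inv]
      rfl
    rw [MulAut.mul_apply, h1]
    apply h
    rw [hs']
    congr 2
    have h2 := faU_symm_coe σ s
    unfold suM at h2
    rw [h2]
    ext i j
    simp
  · rw [inv_mul_cancel_right]

end Cfsg.Agent.S2692
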