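import Cfsg.Statements.S2702
import Cfsg.Agent.Lib.Helper53.GT3Main

set_option autoImplicit false
open Cfsg

namespace Cfsg.Agent.S2702

/-- Let T = PSL_n(F) over the field with q = p^f elements, n ≥ 3, G = Inndiag(T) the image of PGL_n(F), and γ an involutory graph automorphism of T. The G-class of γ is the union of exactly c T-classes, where: if n is even and q is odd, c = gcd(n/2, q − 1) when C_G(γ) is isomorphic to the projective conformal symplectic group PGSp_n(F) (symplectic type) and c = gcd(n, q − 1)/2 otherwise; and c = gcd(n, q − 1) when n is odd or q is even. -/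
theorem result {F : Type*} [Field F] [Fintype F] {p f : ℕ} [Fact p.Prime] (hF : Fintype.card F = p ^ f) (hf : 1 ≤ f) {n : ℕ} (hn : 3 ≤ n) (γ : MulAut (Matrix.ProjectiveSpecialLinearGroup (Fin n) F)) (hγ : Cfsg.IsGraphAutClassPSL γ) (hγ2 : orderOf γ = 2) :
    ((Even n ∧ Odd p ∧ Nonempty (↥(Cfsg.inndiagPSL n F ⊓ Subgroup.centralizer {γ}) ≃* Cfsg.PGSp (n / 2) F)) → Cfsg.splitClassCount (Cfsg.inndiagPSL n F) (Cfsg.Inn (Matrix.ProjectiveSpecialLinearGroup (Fin n) F)) γ = Nat.gcd (n / 2) (p ^ f - 1)) ∧ ((Even n ∧ Odd p ∧ ¬ Nonempty (↥(Cfsg.inndiagPSL n F ⊓ Subgroup.centralizer {γ}) ≃* Cfsg.PGSp (n / 2) F)) → Cfsg.splitClassCount (Cfsg.inndiagPSL n F) (Cfsg.Inn (Matrix.ProjectiveSpecialLinearGroup (Fin n) F)) γ = Nat.gcd n (p ^ f - 1) / 2) ∧ (¬ (Even n ∧ Odd p) → Cfsg.splitClassCount (Cfsg.inndiagPSL n F) (Cfsg.Inn (Matrix.ProjectiveSpecialLinearGroup (Fin n) F)) γ = Nat.gcd n (p ^ f - 1)) := by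
  exact Cfsg.Agent.Lib.Helper53.GT3Main.main_gt3 hF hf hn γ hγ hγ2

end Cfsg.Agent.S2702
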