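import Cfsg.Statements.S2705
import Cfsg.Agent.Lib.Helper53.SUCent

set_option autoImplicit false
open Cfsg

namespace Cfsg.Agent.S2705

/-- Let T = PSU_n(q) be simple (n ≥ 3, (n, q) ≠ (3, 2), q = p^f), realised over the field F with q² elements, G = Inndiag(T) the image of PGU_n(q) in Aut(T), and x a field automorphism of T (conjugate to a standard field automorphism of odd order) of odd prime order r. Then r divides f; C_G(x) is isomorphic to PGU_n(q₀) with q₀ = p^(f/r), realised over a field F₀ with q₀² elements; and the G-class of x is the union of exactly gcd(n, (q + 1)/(q₀ + 1)) T-classes. -/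
theorem result {F : Type*} [Field F] [Fintype F] {p f q : ℕ} [Fact p.Prime] (hq : q = p ^ f) (hf : 1 ≤ f) (hF : Fintype.card F = q ^ 2) {n : ℕ} (hn : 3 ≤ n) (hs : ¬ (n = 3 ∧ q = 2)) (x : MulAut (Cfsg.PSU n F q)) (hx : Cfsg.IsFieldAutClassPSU x) {r : ℕ} (hr : r.Prime) (hro : Odd r) (hxr : orderOf x = r) (F₀ : Type*) [Field F₀] [Fintype F₀] (hF₀ : Fintype.card F₀ = p ^ (2 * (f / r))) :
    r ∣ f ∧ Nonempty (↥(Cfsg.inndiagPSU n F q ⊓ Subgroup.centralizer {x}) ≃* Cfsg.PGU n F₀ (p ^ (f / r))) ∧ Cfsg.splitClassCount (Cfsg.inndiagPSU n F q) (Cfsg.Inn (Cfsg.PSU n F q)) x = Nat.gcd n ((q + 1) / (p ^ (f / r) + 1)) := by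
  exact Cfsg.Agent.Lib.Helper53.AutPSU.field_main_su hq hf hF hn hs x hx hr hro hxr F₀ hF₀

end Cfsg.Agent.S2705
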