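import Cfsg.Statements.S2714
import Cfsg.Agent.Lib.Helper53.OddFMain

set_option autoImplicit false
open Cfsg

namespace Cfsg.Agent.S2714

/-- Let T = Ω_{2m+1}(F) (m ≥ 3, |F| = p^f odd; realised as PΩ of the form x₀² + Σ xᵢ yᵢ), G = Inndiag(T) the image of the conformal orthogonal group in Aut(T), and x a field automorphism of T of prime order r. Then r divides f; C_G(x) is isomorphic to Inndiag(Ω_{2m+1}(F₀)) for a field F₀ with p^(f/r) elements; and the G-class of x is a single T-class when r is odd and the union of exactly two T-classes when r = 2. -/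
theorem result {F : Type*} [Field F] [Fintype F] {p f : ℕ} [Fact p.Prime] (hF : Fintype.card F = p ^ f) (hf : 1 ≤ f) (hodd : Odd (Fintype.card F)) {m : ℕ} (hm : 3 ≤ m) (x : MulAut (Cfsg.POmega F (Cfsg.quadFormOdd m F))) (hx : Cfsg.IsFieldAutClassPOmega (Cfsg.quadFormOdd m F) x) {r : ℕ} (hr : r.Prime) (hxr : orderOf x = r) (F₀ : Type*) [Field F₀] [Fintype F₀] (hF₀ : Fintype.card F₀ = p ^ (f / r)) :
    r ∣ f ∧ Nonempty (↥(Cfsg.inndiagPOmegaOdd m F ⊓ Subgroup.centralizer {x}) ≃* ↥(Cfsg.inndiagPOmegaOdd m F₀)) ∧ (Odd r → Cfsg.splitClassCount (Cfsg.inndiagPOmegaOdd m F) (Cfsg.Inn (Cfsg.POmega F (Cfsg.quadFormOdd m F))) x = 1) ∧ (r = 2 → Cfsg.splitClassCount (Cfsg.inndiagPOmegaOdd m F) (Cfsg.Inn (Cfsg.POmega F (Cfsg.quadFormOdd m F))) x = 2) := by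
  exact Cfsg.Agent.Lib.Helper53.OddF.main_odd hF hodd hm _
    (Cfsg.Agent.Lib.Helper51.coe_QOdd m F) x hx hr hxr F₀ hF₀ _
    (Cfsg.Agent.Lib.Helper51.coe_QOdd m F₀)

end Cfsg.Agent.S2714
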