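import Cfsg.Statements.S2719
import Cfsg.Agent.Lib.Helper53.GMMain
import Cfsg.Agent.Lib.Helper53.GMC
import Cfsg.Agent.Lib.Helper75.GMQEXT

set_option autoImplicit false
open Cfsg

namespace Cfsg.Agent.S2719

/-- Let T = PΩ⁻_{2m+2}(F) with m ≥ 3 and |F| = q odd (form with anisotropic binary part z₁² + a z₁ z₂ + b z₂²), G = Inndiag(T), and γ an involutory graph automorphism of T (an automorphism in the image of the semisimilarity group, not inner-diagonal, of order 2). Then the G-class of γ is either a single T-class or the union of exactly two T-classes, and it is the union of two unless m is even and q ≡ 1 (mod 4). -/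
theorem result {F : Type*} [Field F] [Fintype F] (hodd : Odd (Fintype.card F)) {m : ℕ} (hm : 3 ≤ m) (a b : F) (hab : (∀ z₁ z₂ : F, z₁ ^ 2 + a * z₁ * z₂ + b * z₂ ^ 2 = 0 → z₁ = 0 ∧ z₂ = 0)) (γ : MulAut (Cfsg.POmega F (Cfsg.quadFormMinus m F a b))) (hγ : Cfsg.IsGraphAutClassPOmegaMinus m a b γ) (hγ2 : orderOf γ = 2) :
    (Cfsg.splitClassCount (Cfsg.inndiagPOmegaMinus m F a b) (Cfsg.Inn (Cfsg.POmega F (Cfsg.quadFormMinus m F a b))) γ = 1 ∨ Cfsg.splitClassCount (Cfsg.inndiagPOmegaMinus m F a b) (Cfsg.Inn (Cfsg.POmega F (Cfsg.quadFormMinus m F a b))) γ = 2) ∧ (¬ (Even m ∧ Fintype.card F % 4 = 1) → Cfsg.splitClassCount (Cfsg.inndiagPOmegaMinus m F a b) (Cfsg.Inn (Cfsg.POmega F (Cfsg.quadFormMinus m F a b))) γ = 2) := by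
  have hF := Cfsg.Agent.Lib.Helper54.ringChar_ne_two_of_odd hodd
  have h2 : (2 : F) ≠ 0 := Ring.two_ne_zero hF
  have hD := Cfsg.Agent.Lib.Helper54.aniso_disc_ne_zero h2 a b hab
  exact Cfsg.Agent.Lib.Helper53.GMMain.main_of_cent hodd hm a b hab
    (fun g hg hgg => Cfsg.Agent.Lib.Helper53.GMC.exists_cent_minus hF hm a b hab
      (fun G μ hμ hGG hG => Cfsg.Agent.Lib.Helper75.GMQEXT.exists_unit_orth_minus h2 (by omega)
        a b hD G μ hμ hGG hG) g hg hgg)
    (Cfsg.quadFormMinus m F a b) (Cfsg.Agent.Lib.Helper51.coe_QMinus m F a b).symm γ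
    hγ.1 hγ.2.1 hγ2

end Cfsg.Agent.S2719
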