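import Cfsg.Statements.S2726
import Cfsg.Agent.Lib.Helper54.OrthMinus

set_option autoImplicit false
open Cfsg
open Cfsg.Agent.Lib.Helper54

namespace Cfsg.Agent.S2726

/-- Let T = PΩ⁻_{2m+2}(F) with m ≥ 3 and |F| = q odd (form with anisotropic binary part). Inside Aut(T), the image G̃ of the conformal orthogonal group of the form modulo the image of the special orthogonal group is elementary abelian of order 4. -/
theorem result {F : Type*} [Field F] [Fintype F] (hodd : Odd (Fintype.card F)) {m : ℕ} (hm : 3 ≤ m) (a b : F) (hab : (∀ z₁ z₂ : F, z₁ ^ 2 + a * z₁ * z₂ + b * z₂ ^ 2 = 0 → z₁ = 0 ∧ z₂ = 0)) :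
    (∃ φ : ↥(Cfsg.pgoAut F (Cfsg.quadFormMinus m F a b)) →* Multiplicative (ZMod 2 × ZMod 2), Function.Surjective φ ∧ φ.ker = (Cfsg.psoAut F (Cfsg.quadFormMinus m F a b)).subgroupOf (Cfsg.pgoAut F (Cfsg.quadFormMinus m F a b))) := by
  have hF : ringChar F ≠ 2 := by
    intro h
    have h1 := FiniteField.even_card_of_char_two h
    rcases hodd with ⟨k, hk⟩
    omega
  rw [← Cfsg.Agent.Lib.Helper51.coe_QMinus m F a b]
  exact minus_main hF (by omega) a b hab

end Cfsg.Agent.S2726
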