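import Cfsg.Statements.S2729
import Cfsg.Agent.Lib.Helper54.OrthInnMinus

set_option autoImplicit false
open Cfsg
open Cfsg.Agent.Lib.Helper54

namespace Cfsg.Agent.S2729

/-- Let T = PΩ⁻_{2m+2}(F) with m ≥ 3 and |F| = q odd (form with anisotropic binary part). The inner-diagonal group G = Inndiag(T) (image of the class-preserving similarities) taken modulo the inner automorphism group T is cyclic of order 4 when m is even and q ≡ 3 (mod 4), and of order 2 otherwise. -/
theorem result {F : Type*} [Field F] [Fintype F] (hodd : Odd (Fintype.card F)) {m : ℕ} (hm : 3 ≤ m) (a b : F) (hab : (∀ z₁ z₂ : F, z₁ ^ 2 + a * z₁ * z₂ + b * z₂ ^ 2 = 0 → z₁ = 0 ∧ z₂ = 0)) :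
    ((Even m ∧ Fintype.card F % 4 = 3) → (∃ φ : ↥(Cfsg.inndiagPOmegaMinus m F a b) →* Multiplicative (ZMod 4), Function.Surjective φ ∧ φ.ker = (Cfsg.Inn (Cfsg.POmega F (Cfsg.quadFormMinus m F a b))).subgroupOf (Cfsg.inndiagPOmegaMinus m F a b))) ∧ (¬ (Even m ∧ Fintype.card F % 4 = 3) → (∃ φ : ↥(Cfsg.inndiagPOmegaMinus m F a b) →* Multiplicative (ZMod 2), Function.Surjective φ ∧ φ.ker = (Cfsg.Inn (Cfsg.POmega F (Cfsg.quadFormMinus m F a b))).subgroupOf (Cfsg.inndiagPOmegaMinus m F a b))) := by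
  exact minus_inndiag_gen hodd hm a b hab (Cfsg.quadFormMinus m F a b)
    (Cfsg.Agent.Lib.Helper51.coe_QMinus m F a b).symm

end Cfsg.Agent.S2729
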