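import Cfsg.Statements.S2738
import Cfsg.Agent.Lib.Helper47.SLGen

set_option autoImplicit false
open Cfsg

namespace Cfsg.Agent.S2738

open Matrix Matrix.SpecialLinearGroup
open scoped commutatorElement

/-- `SL₃(F)` is perfect. -/
theorem sl3_perfect (F : Type*) [Field F] :
    commutator (Matrix.SpecialLinearGroup (Fin 3) F) = ⊤ := by
  apply Cfsg.Agent.Lib.Helper47.eq_top_of_transvection_mem
  intro i k hik c
  obtain ⟨j, hij, hjk⟩ : ∃ j : Fin 3, i ≠ j ∧ j ≠ k := by
    revert i k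
    decide
  have h := Cfsg.Agent.Lib.Helper47.transvection_comm_eq (F := F) hij hjk hik c 1
  rw [mul_one] at h
  rw [← h, commutator_def]
  have := Subgroup.commutator_mem_commutator (H₁ := (⊤ : Subgroup (SpecialLinearGroup (Fin 3) F)))
    (H₂ := ⊤) (Subgroup.mem_top (transvection hij c)) (Subgroup.mem_top (transvection hjk (1 : F)))
  rw [commutatorElement_def] at this
  exact this

theorem card_center (F : Type*) [Field F] [Fintype F] (hF : Fintype.card F = 4) :
    Nat.card ↥(Subgroup.center (Matrix.SpecialLinearGroup (Fin 3) F)) = 3 := by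
  classical
  have e := Matrix.SpecialLinearGroup.center_equiv_rootsOfUnity' (n := Fin 3) (R := F) 0
  rw [Nat.card_congr e.toEquiv]
  have hu : Fintype.card Fˣ = 3 := by rw [Fintype.card_units, hF]
  have htop : rootsOfUnity (Fintype.card (Fin 3)) F = ⊤ := by
    rw [eq_top_iff]
    intro x _
    rw [mem_rootsOfUnity, Fintype.card_fin, ← hu]
    exact pow_card_eq_one
  rw [htop, Subgroup.card_top, Nat.card_eq_fintype_card, hu]

/-- The special linear group SL(3, 4) has centre of order 3 and does not split over it: no subgroup is a complement to the centre (so SL(3, 4) is a non-split central extension of PSL(3, 4) by a group of order 3). -/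
theorem result (F : Type*) [Field F] [Fintype F] (hF : Fintype.card F = 4) : Nat.card ↥(Subgroup.center (Matrix.SpecialLinearGroup (Fin 3) F)) = 3 ∧ ¬ ∃ K : Subgroup (Matrix.SpecialLinearGroup (Fin 3) F), Subgroup.IsComplement' (Subgroup.center (Matrix.SpecialLinearGroup (Fin 3) F)) K := by
  refine ⟨card_center F hF, ?_⟩
  rintro ⟨K, hK⟩
  have hKtop : K = ⊤ := by
    rw [eq_top_iff, ← sl3_perfect F, commutator_def, Subgroup.commutator_le]
    intro g _ h _
    have hsup := hK.sup_eq_top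
    have hg : g ∈ Subgroup.center (SpecialLinearGroup (Fin 3) F) ⊔ K := by rw [hsup]; trivial
    have hh : h ∈ Subgroup.center (SpecialLinearGroup (Fin 3) F) ⊔ K := by rw [hsup]; trivial
    rw [← SetLike.mem_coe, Subgroup.normal_mul, Set.mem_mul] at hg hh
    obtain ⟨z1, hz1, k1, hk1, rfl⟩ := hg
    obtain ⟨z2, hz2, k2, hk2, rfl⟩ := hh
    rw [SetLike.mem_coe] at hz1 hz2 hk1 hk2
    have e : ⁅z1 * k1, z2 * k2⁆ = ⁅k1, k2⁆ := by
      rw [commutatorElement_def, commutatorElement_def]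
      rw [Subgroup.mem_center_iff] at hz1 hz2
      have a1 : ∀ x, x * z1 = z1 * x := hz1
      have a2 : ∀ x, x * z2 = z2 * x := hz2
      have a1' : ∀ x, x * z1⁻¹ = z1⁻¹ * x := fun x => by
        rw [eq_inv_mul_iff_mul_eq, ← mul_assoc, ← a1, mul_assoc, mul_inv_cancel, mul_one]
      have a2' : ∀ x, x * z2⁻¹ = z2⁻¹ * x := fun x => by
        rw [eq_inv_mul_iff_mul_eq, ← mul_assoc, ← a2, mul_assoc, mul_inv_cancel, mul_one]
      rw [_root_.mul_inv_rev, _root_.mul_inv_rev]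
      calc z1 * k1 * (z2 * k2) * (k1⁻¹ * z1⁻¹) * (k2⁻¹ * z2⁻¹)
          = z1 * (k1 * z2) * k2 * (k1⁻¹ * z1⁻¹) * (k2⁻¹ * z2⁻¹) := by group
        _ = z1 * (z2 * k1) * k2 * (k1⁻¹ * z1⁻¹) * (k2⁻¹ * z2⁻¹) := by rw [a2]
        _ = z1 * z2 * (k1 * k2 * k1⁻¹ * z1⁻¹) * (k2⁻¹ * z2⁻¹) := by group
        _ = z1 * z2 * (z1⁻¹ * (k1 * k2 * k1⁻¹)) * (k2⁻¹ * z2⁻¹) := by rw [a1']
        _ = z1 * (z2 * z1⁻¹) * (k1 * k2 * k1⁻¹ * k2⁻¹ * z2⁻¹) := by group
        _ = z1 * (z1⁻¹ * z2) * (z2⁻¹ * (k1 * k2 * k1⁻¹ * k2⁻¹)) := by rw [a1', a2']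
        _ = k1 * k2 * k1⁻¹ * k2⁻¹ := by group
    rw [e]
    rw [commutatorElement_def]
    exact K.mul_mem (K.mul_mem (K.mul_mem hk1 hk2) (K.inv_mem hk1)) (K.inv_mem hk2)
  have hdisj := hK.disjoint
  rw [hKtop, disjoint_top] at hdisj
  have hc := card_center F hF
  rw [hdisj, Subgroup.card_bot] at hc
  omega

end Cfsg.Agent.S2738
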