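import Cfsg.Statements.S2739
import Cfsg.Agent.Lib.Helper54.Cube3

set_option autoImplicit false
open scoped Pointwise
open Cfsg

namespace Cfsg.Agent.S2739

open Cfsg.Agent.Lib.Helper54 Matrix

variable {F : Type*} [Field F] [Fintype F]

theorem two_eq_zero (hF : Fintype.card F = 4) : (2 : F) = 0 := by
  have h4 : ((Fintype.card F : ℕ) : F) = 0 := Nat.cast_card_eq_zero F
  rw [hF] at h4
  have : (2 : F) * 2 = 0 := by
    have e : ((4 : ℕ) : F) = 2 * 2 := by norm_num
    rw [← e]
    exact h4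
  exact mul_self_eq_zero.1 this

theorem cube_eq_one (hF : Fintype.card F = 4) (x : F) (hx : x ≠ 0) : x ^ 3 = 1 := by
  have := FiniteField.pow_card_sub_one_eq_one x hx
  rwa [hF] at this

theorem exists_omega (hF : Fintype.card F = 4) : ∃ ω : F, ω ^ 2 + ω + 1 = 0 := by
  obtain ⟨ω, h0, h1⟩ : ∃ ω : F, ω ≠ 0 ∧ ω ≠ 1 := by
    by_contra hcon
    push Not at hcon
    have : Fintype.card F ≤ 2 := by
      classical
      calc Fintype.card F = (Finset.univ : Finset F).card := rfl
        _ ≤ ({0, 1} : Finset F).card := Finset.card_le_card (fun x _ => by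
            by_cases hx : x = 0
            · simp [hx]
            · simp [hcon x hx])
        _ ≤ 2 := Finset.card_le_two
    omega
  refine ⟨ω, ?_⟩
  have h3 := cube_eq_one hF ω h0
  have : (ω - 1) * (ω ^ 2 + ω + 1) = 0 := by linear_combination h3
  exact (mul_eq_zero.1 this).resolve_left (sub_ne_zero.2 h1)

theorem three_ne_zero4 (hF : Fintype.card F = 4) : (3 : F) ≠ 0 := by
  have h2 := two_eq_zero hF
  intro h3
  have : (1 : F) = 0 := by linear_combination h3 - h2
  exact one_ne_zero this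

/-- The standard element `diag(1, ω, ω²)`. -/
def dmat (ω : F) (hω : ω ^ 2 + ω + 1 = 0) : Matrix.SpecialLinearGroup (Fin 3) F :=
  ⟨Matrix.diagonal ![1, ω, ω ^ 2], by
    rw [Matrix.det_diagonal, Fin.prod_univ_three]
    simp
    linear_combination (ω - 1) * hω⟩

theorem conj_smul_zpowers {G : Type*} [Group G] (g x : G) :
    MulAut.conj g • Subgroup.zpowers x = Subgroup.zpowers (g * x * g⁻¹) := by
  have h := MonoidHom.map_zpowers (MulAut.conj g).toMonoidHom x
  rw [Subgroup.pointwise_smul_def]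
  exact h

theorem key (hF : Fintype.card F = 4) (ω : F) (hω : ω ^ 2 + ω + 1 = 0)
    (X : Subgroup (Matrix.ProjectiveSpecialLinearGroup (Fin 3) F)) (hX : Nat.card ↥X = 3) :
    ∃ p : Matrix.ProjectiveSpecialLinearGroup (Fin 3) F,
      X = Subgroup.zpowers (p * (QuotientGroup.mk (dmat ω hω)) * p⁻¹) := by
  have hp3 : Fact (Nat.Prime 3) := ⟨by norm_num⟩
  have hfin : Finite ↥X := Nat.finite_of_card_ne_zero (by omega)
  obtain ⟨x, hx1⟩ : ∃ x : ↥X, x ≠ 1 := by
    have : Nontrivial ↥X := by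
      rw [← Finite.one_lt_card_iff_nontrivial]
      omega
    exact exists_ne 1
  have hxtop : Subgroup.zpowers x = ⊤ := zpowers_eq_top_of_prime_card hX hx1
  have hXz : X = Subgroup.zpowers (x : Matrix.ProjectiveSpecialLinearGroup (Fin 3) F) := by
    have := congrArg (Subgroup.map X.subtype) hxtop
    rw [MonoidHom.map_zpowers, ← MonoidHom.range_eq_map, Subgroup.range_subtype] at this
    exact this.symm
  have hx3 : (x : Matrix.ProjectiveSpecialLinearGroup (Fin 3) F) ^ 3 = 1 := by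
    have h : x ^ 3 = 1 := by
      have h' : x ^ Nat.card ↥X = 1 := pow_card_eq_one'
      rwa [hX] at h'
    have := congrArg Subtype.val h
    rwa [Subgroup.coe_pow, Subgroup.coe_one] at this
  obtain ⟨g, hg⟩ := QuotientGroup.mk_surjective (x : Matrix.ProjectiveSpecialLinearGroup (Fin 3) F)
  have hgc : g ∉ Subgroup.center (Matrix.SpecialLinearGroup (Fin 3) F) := by
    intro h
    apply hx1
    apply Subtype.ext
    rw [← hg]
    exact (QuotientGroup.eq_one_iff g).2 h
  have hg3 : g ^ 3 ∈ Subgroup.center (Matrix.SpecialLinearGroup (Fin 3) F) := by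
    rw [← QuotientGroup.eq_one_iff, QuotientGroup.mk_pow, hg, hx3]
  rw [Matrix.SpecialLinearGroup.mem_center_iff] at hg3
  obtain ⟨c, hc3, hcg⟩ := hg3
  have hdet : (g : Matrix (Fin 3) (Fin 3) F).det = 1 := g.det_coe
  have hM3 : (g : Matrix (Fin 3) (Fin 3) F) ^ 3 = c • (1 : Matrix (Fin 3) (Fin 3) F) := by
    rw [← Matrix.SpecialLinearGroup.coe_pow, ← hcg]
    ext i j
    simp [Matrix.scalar_apply, Matrix.diagonal_apply, Matrix.one_apply]
  have hc0 : c ≠ 0 := by
    rintro rfl
    simp at hc3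
  have hc1 : c = 1 := cube_scalar_eq_one (two_eq_zero hF) (cube_eq_one hF) _ hdet c hc0 hM3
  rw [hc1, one_smul] at hM3
  have hns : ∀ l : F, (g : Matrix (Fin 3) (Fin 3) F) ≠ l • (1 : Matrix (Fin 3) (Fin 3) F) := by
    intro l hl
    apply hgc
    rw [Matrix.SpecialLinearGroup.mem_center_iff]
    refine ⟨l, ?_, ?_⟩
    · have : (g : Matrix (Fin 3) (Fin 3) F).det = l ^ 3 := by
        rw [hl]
        simp
      rw [Fintype.card_fin, ← this, hdet]
    · rw [hl]
      ext i j
      simp [Matrix.scalar_apply, Matrix.diagonal_apply, Matrix.one_apply]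
  obtain ⟨P, hPdet, hMP⟩ := exists_diagonalizer (three_ne_zero4 hF) ω hω _ hdet hM3 hns
  obtain ⟨p, hp⟩ : ∃ p : Matrix.SpecialLinearGroup (Fin 3) F,
      (p : Matrix (Fin 3) (Fin 3) F) = P := ⟨⟨P, hPdet⟩, rfl⟩
  have hgp : g * p = p * dmat ω hω := by
    apply Subtype.ext
    show (g : Matrix (Fin 3) (Fin 3) F) * (p : Matrix (Fin 3) (Fin 3) F) =
      (p : Matrix (Fin 3) (Fin 3) F) * Matrix.diagonal ![1, ω, ω ^ 2]
    rw [hp]
    exact hMP
  refine ⟨QuotientGroup.mk p, ?_⟩
  rw [hXz, ← hg]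
  congr 1
  rw [← QuotientGroup.mk_mul, ← QuotientGroup.mk_inv, ← QuotientGroup.mk_mul, ← hgp,
    mul_inv_cancel_right]

/-- In the projective special linear group PSL(3, 4) all subgroups of order 3 are conjugate. -/
theorem result (F : Type*) [Field F] [Fintype F] (hF : Fintype.card F = 4) (X Y : Subgroup (Matrix.ProjectiveSpecialLinearGroup (Fin 3) F)) (hX : Nat.card ↥X = 3) (hY : Nat.card ↥Y = 3) : ∃ g : Matrix.ProjectiveSpecialLinearGroup (Fin 3) F, MulAut.conj g • X = Y := by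
  obtain ⟨ω, hω⟩ := exists_omega hF
  obtain ⟨p, hp⟩ := key hF ω hω X hX
  obtain ⟨q, hq⟩ := key hF ω hω Y hY
  refine ⟨q * p⁻¹, ?_⟩
  rw [hp, hq, conj_smul_zpowers]
  congr 1
  group

end Cfsg.Agent.S2739
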