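import Cfsg.Statements.S2758
import Cfsg.Agent.Lib.Helper54.Amalgam2

set_option autoImplicit false
open Cfsg

namespace Cfsg.Agent.S2758

open Cfsg.Agent.Lib.Helper54

/-- Recognition of the dihedral group of order `2p`. -/
theorem dih_iso {Q : Type*} [Group Q] {p : ℕ} [Fact p.Prime] (hp2 : p ≠ 2) (a b : Q)
    (ha : a ^ p = 1) (ha1 : a ≠ 1) (hb : b ^ 2 = 1) (hab : b * a * b⁻¹ = a⁻¹)
    (hgen : Subgroup.closure ({a, b} : Set Q) = ⊤) : Nonempty (Q ≃* DihedralGroup p) := by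
  have hp : p.Prime := Fact.out
  have : NeZero p := ⟨hp.ne_zero⟩
  have hord : orderOf a = p := orderOf_eq_prime ha ha1
  have hbb : b * b = 1 := by rw [← sq]; exact hb
  have hbinv : b⁻¹ = b := inv_eq_of_mul_eq_one_left hbb
  let e : ZMod p → Q := fun i => a ^ i.val
  have he_add : ∀ i j : ZMod p, e (i + j) = e i * e j := by
    intro i j
    show a ^ (i + j).val = a ^ i.val * a ^ j.val
    rw [ZMod.val_add, ← pow_add, ← pow_eq_pow_mod _ ha]
  have he_zero : e 0 = 1 := by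
    show a ^ (0 : ZMod p).val = 1
    rw [ZMod.val_zero, pow_zero]
  have he_sub : ∀ i j : ZMod p, e (j - i) = (e i)⁻¹ * e j := by
    intro i j
    have h1 : e (j - i) * e i = e j := by rw [← he_add]; congr 1; ring
    have h2 : Commute (e (j - i)) (e i) := (Commute.refl a).pow_pow _ _
    rw [eq_inv_mul_iff_mul_eq, ← h2.eq, h1]
  have hconj : ∀ i : ZMod p, b * e i * b⁻¹ = (e i)⁻¹ := by
    intro i
    show b * a ^ i.val * b⁻¹ = (a ^ i.val)⁻¹
    rw [← conj_pow, hab, inv_pow]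
  have hswap : ∀ i : ZMod p, e i * b = b * (e i)⁻¹ := by
    intro i
    have h1 := congrArg (fun t => t⁻¹) (hconj i)
    simp only [mul_inv_rev, inv_inv] at h1
    calc e i * b = (b * ((e i)⁻¹ * b⁻¹)) * b := by rw [h1]
      _ = b * (e i)⁻¹ := by group
  let ψf : DihedralGroup p → Q := fun x =>
    match x with
    | DihedralGroup.r i => e i
    | DihedralGroup.sr i => b * e i
  have hψmul : ∀ x y : DihedralGroup p, ψf (x * y) = ψf x * ψf y := by
    intro x y
    rcases x with i | i <;> rcases y with j | j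
    · show e (i + j) = e i * e j
      exact he_add i j
    · show b * e (j - i) = e i * (b * e j)
      rw [he_sub, ← mul_assoc (e i), hswap, mul_assoc]
    · show b * e (i + j) = b * e i * e j
      rw [he_add, mul_assoc]
    · show e (j - i) = b * e i * (b * e j)
      rw [he_sub, mul_assoc b (e i), ← mul_assoc (e i), hswap, mul_assoc b, ← mul_assoc b b,
        hbb, one_mul]
  let ψ : DihedralGroup p →* Q := MonoidHom.mk' ψf hψmul
  have hinj : Function.Injective ψ := by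
    rw [injective_iff_map_eq_one]
    intro x hx
    rcases x with i | i
    · have h1 : a ^ i.val = 1 := hx
      have h2 : p ∣ i.val := by
        have := orderOf_dvd_of_pow_eq_one h1
        rwa [hord] at this
      have h3 : i.val < p := ZMod.val_lt i
      have h4 : i.val = 0 := Nat.eq_zero_of_dvd_of_lt h2 h3
      have h5 : i = 0 := (ZMod.val_eq_zero i).1 h4
      rw [h5, DihedralGroup.one_def]
    · exfalso
      have h1 : b * a ^ i.val = 1 := hx
      have h2 : b = (a ^ i.val)⁻¹ := eq_inv_of_mul_eq_one_left h1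
      have h3 : Commute b a := by
        rw [h2]
        exact ((Commute.refl a).pow_left _).inv_left
      have h4 : a = a⁻¹ := by
        rw [← hab, h3.eq, mul_assoc, mul_inv_cancel, mul_one]
      have h5 : a ^ 2 = 1 := by
        rw [sq]
        nth_rewrite 2 [h4]
        exact mul_inv_cancel a
      have h6 : p ∣ 2 := by
        have := orderOf_dvd_of_pow_eq_one h5
        rwa [hord] at this
      exact hp2 ((Nat.prime_dvd_prime_iff_eq hp Nat.prime_two).1 h6)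
  have hsurj : Function.Surjective ψ := by
    rw [← MonoidHom.range_eq_top, eq_top_iff, ← hgen, Subgroup.closure_le]
    intro x hx
    rcases hx with rfl | rfl
    · refine ⟨DihedralGroup.r 1, ?_⟩
      show x ^ (1 : ZMod p).val = x
      rw [ZMod.val_one_eq_one_mod, Nat.mod_eq_of_lt hp.one_lt, pow_one]
    · refine ⟨DihedralGroup.sr 0, ?_⟩
      show x * a ^ (0 : ZMod p).val = x
      rw [ZMod.val_zero, pow_zero, mul_one]
  exact ⟨(MulEquiv.ofBijective ψ ⟨hinj, hsurj⟩).symm⟩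


theorem B_to_C {G : Type*} [Group G] [Finite G] {p : ℕ} [Fact p.Prime] (x : G)
    (P : Subgroup G) (hx : ∃ k : ℕ, orderOf x = 2 ^ k) (hP : IsPGroup p P)
    (hxN : x ∈ Subgroup.normalizer (P : Set G)) (hxC : x ∉ Subgroup.centralizer (P : Set G)) :
    ∃ x y : G, (∃ k : ℕ, orderOf x = 2 ^ k) ∧ (∃ k : ℕ, orderOf y = p ^ k) ∧ y ≠ 1 ∧
      x * y * x⁻¹ = y⁻¹ := by
  classical
  obtain ⟨k, hk⟩ := hx
  have hex : ∃ j : ℕ, x ^ (2 ^ j) ∈ Subgroup.centralizer (P : Set G) :=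
    ⟨k, by rw [← hk, pow_orderOf_eq_one]; exact Subgroup.one_mem _⟩
  have hj0 : Nat.find hex ≠ 0 := by
    intro h0
    have := Nat.find_spec hex
    rw [h0] at this
    simp at this
    exact hxC this
  obtain ⟨j, hj⟩ := Nat.exists_eq_succ_of_ne_zero hj0
  set x' := x ^ (2 ^ j) with hx'
  have hx'C : x' ∉ Subgroup.centralizer (P : Set G) := by
    intro hcon
    have := Nat.find_min' hex hcon
    omega
  have hx'2 : x' * x' ∈ Subgroup.centralizer (P : Set G) := by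
    have := Nat.find_spec hex
    rw [hj] at this
    have e : x' * x' = x ^ (2 ^ (j + 1)) := by
      rw [hx', ← pow_add, pow_succ]; congr 1; ring
    rw [e]; exact this
  have hx'N : x' ∈ Subgroup.normalizer (P : Set G) := Subgroup.pow_mem _ hxN _
  have hx'ord : ∃ k' : ℕ, orderOf x' = 2 ^ k' := by
    have h1 : orderOf x' ∣ orderOf x := orderOf_pow_dvd _
    rw [hk] at h1
    obtain ⟨m, -, hm⟩ := (Nat.dvd_prime_pow Nat.prime_two).1 h1
    exact ⟨m, hm⟩
  rw [Subgroup.mem_centralizer_iff] at hx'C hx'2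
  push Not at hx'C
  obtain ⟨g, hg, hgx⟩ := hx'C
  have hconj : x' * g * x'⁻¹ ∈ P := ((Subgroup.mem_normalizer_iff.1 hx'N) g).1 hg
  refine ⟨x', g⁻¹ * (x' * g * x'⁻¹), hx'ord, ?_, ?_, ?_⟩
  · have hy : g⁻¹ * (x' * g * x'⁻¹) ∈ P := P.mul_mem (P.inv_mem hg) hconj
    obtain ⟨k', hk'⟩ := (IsPGroup.iff_orderOf.1 hP) ⟨_, hy⟩
    exact ⟨k', by rw [← hk']; simp⟩
  · intro h1
    apply hgx
    have : x' * g * x'⁻¹ = g := by
      have := congrArg (fun t => g * t) h1
      simpa using this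
    calc g * x' = (x' * g * x'⁻¹) * x' := by rw [this]
      _ = x' * g := by group
  · have hc := hx'2 g hg
    calc x' * (g⁻¹ * (x' * g * x'⁻¹)) * x'⁻¹
        = x' * g⁻¹ * x'⁻¹ * ((x' * x') * g) * (x'⁻¹ * x'⁻¹) := by group
      _ = x' * g⁻¹ * x'⁻¹ * (g * (x' * x')) * (x'⁻¹ * x'⁻¹) := by rw [hc]
      _ = (g⁻¹ * (x' * g * x'⁻¹))⁻¹ := by group

theorem C_to_A {G : Type*} [Group G] [Finite G] {p : ℕ} [Fact p.Prime] (hp2 : p ≠ 2) (x y : G)
    (hy : ∃ k : ℕ, orderOf y = p ^ k) (hy1 : y ≠ 1) (hxy : x * y * x⁻¹ = y⁻¹) :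
    Involves (DihedralGroup p) G := by
  have hp : p.Prime := Fact.out
  obtain ⟨k, hk⟩ := hy
  have hpg : IsPGroup p (Subgroup.zpowers y) :=
    IsPGroup.of_card (n := k) (by rw [Nat.card_zpowers, hk])
  obtain ⟨y₁, hy₁mem, hy₁p, hy₁1⟩ :=
    exists_order_p_of_ne_one hpg (Subgroup.mem_zpowers y) hy1
  have hxy₁ : x * y₁ * x⁻¹ = y₁⁻¹ := by
    obtain ⟨m, rfl⟩ := hy₁mem
    rw [← conj_zpow, hxy, inv_zpow]
  have hord : orderOf y₁ = p := orderOf_eq_prime hy₁p hy₁1
  have hswap : x * y₁⁻¹ = y₁ * x := by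
    have h1 := congrArg (fun t => t⁻¹) hxy₁
    simp only [mul_inv_rev, inv_inv] at h1
    calc x * y₁⁻¹ = (x * (y₁⁻¹ * x⁻¹)) * x := by group
      _ = y₁ * x := by rw [h1]
  have hcomm₁ : x * x * y₁ = y₁ * (x * x) := by
    calc x * x * y₁ = x * (x * y₁ * x⁻¹) * x := by group
      _ = x * y₁⁻¹ * x := by rw [hxy₁]
      _ = y₁ * x * x := by rw [hswap]
      _ = y₁ * (x * x) := by group
  set K := Subgroup.closure ({y₁, x} : Set G) with hK
  set R := Subgroup.zpowers (x * x) with hR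
  have hxK : x ∈ K := Subgroup.subset_closure (by simp)
  have hyK : y₁ ∈ K := Subgroup.subset_closure (by simp)
  have hKc : K ≤ Subgroup.centralizer ({x * x} : Set G) := by
    rw [hK, Subgroup.closure_le]
    intro g hg
    rw [SetLike.mem_coe, Subgroup.mem_centralizer_iff]
    intro h hh
    rw [Set.mem_singleton_iff] at hh
    subst hh
    rcases hg with rfl | rfl
    · exact hcomm₁
    · exact mul_assoc _ _ _
  have hRc : ∀ r ∈ R, ∀ g ∈ K, g * r * g⁻¹ = r := by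
    intro r hr g hg
    obtain ⟨m, rfl⟩ := hr
    have h1 := hKc hg
    rw [Subgroup.mem_centralizer_iff] at h1
    have h2 : Commute g (x * x) := (h1 (x * x) rfl).symm
    have h3 : Commute g ((x * x) ^ m) := h2.zpow_right m
    rw [h3.eq]; group
  have hnorm : (R.subgroupOf K).Normal := by
    constructor
    intro n hn g
    rw [Subgroup.mem_subgroupOf] at hn ⊢
    have := hRc _ hn g g.2
    show (g : G) * (n : G) * (g : G)⁻¹ ∈ R
    rw [this]; exact hn
  let a : ↥K ⧸ R.subgroupOf K := QuotientGroup.mk ⟨y₁, hyK⟩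
  let b : ↥K ⧸ R.subgroupOf K := QuotientGroup.mk ⟨x, hxK⟩
  have ha : a ^ p = 1 := by
    show (QuotientGroup.mk ((⟨y₁, hyK⟩ : ↥K) ^ p) : ↥K ⧸ R.subgroupOf K) = 1
    have : (⟨y₁, hyK⟩ : ↥K) ^ p = 1 := Subtype.ext hy₁p
    rw [this]; rfl
  have hb : b ^ 2 = 1 := by
    show (QuotientGroup.mk ((⟨x, hxK⟩ : ↥K) ^ 2) : ↥K ⧸ R.subgroupOf K) = 1
    rw [QuotientGroup.eq_one_iff, Subgroup.mem_subgroupOf]
    show x ^ 2 ∈ R
    rw [sq]; exact Subgroup.mem_zpowers _
  have ha1 : a ≠ 1 := by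
    intro h
    have h1 : (⟨y₁, hyK⟩ : ↥K) ∈ R.subgroupOf K := (QuotientGroup.eq_one_iff _).1 h
    rw [Subgroup.mem_subgroupOf] at h1
    have h2 := hRc _ h1 x hxK
    have h3 : y₁ = y₁⁻¹ := by rw [← hxy₁]; exact h2.symm
    have h5 : y₁ ^ 2 = 1 := by
      rw [sq]
      nth_rewrite 2 [h3]
      exact mul_inv_cancel y₁
    have h6 : p ∣ 2 := by
      have := orderOf_dvd_of_pow_eq_one h5
      rwa [hord] at this
    exact hp2 ((Nat.prime_dvd_prime_iff_eq hp Nat.prime_two).1 h6)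
  have hab : b * a * b⁻¹ = a⁻¹ := by
    show (QuotientGroup.mk ((⟨x, hxK⟩ : ↥K) * ⟨y₁, hyK⟩ * (⟨x, hxK⟩ : ↥K)⁻¹) : ↥K ⧸ R.subgroupOf K) =
      QuotientGroup.mk ((⟨y₁, hyK⟩ : ↥K)⁻¹)
    congr 1
    exact Subtype.ext hxy₁
  have hgen : Subgroup.closure ({a, b} : Set (↥K ⧸ R.subgroupOf K)) = ⊤ := by
    have h1 : Subgroup.closure ((Subtype.val : ↥K → G) ⁻¹' ({y₁, x} : Set G)) = ⊤ :=
      Subgroup.closure_closure_coe_preimage
    have h2 : ({a, b} : Set (↥K ⧸ R.subgroupOf K)) =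
        (QuotientGroup.mk' (R.subgroupOf K)) '' ((Subtype.val : ↥K → G) ⁻¹' ({y₁, x} : Set G)) := by
      ext q
      constructor
      · rintro (rfl | rfl)
        · exact ⟨⟨y₁, hyK⟩, by simp, rfl⟩
        · exact ⟨⟨x, hxK⟩, by simp, rfl⟩
      · rintro ⟨z, hz, rfl⟩
        rcases hz with hz | hz
        · left
          have : z = ⟨y₁, hyK⟩ := Subtype.ext hz
          rw [this]; rfl
        · right
          have : z = ⟨x, hxK⟩ := Subtype.ext hz
          rw [this]; rfl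
    rw [h2, ← MonoidHom.map_closure, h1]
    exact Subgroup.map_top_of_surjective _ (QuotientGroup.mk'_surjective _)
  exact ⟨K, R, hnorm, dih_iso hp2 a b ha ha1 hb hab hgen⟩

theorem mem_rot {p : ℕ} [NeZero p] (x : DihedralGroup p) :
    x ∈ Subgroup.zpowers (DihedralGroup.r 1 : DihedralGroup p) ↔ ∃ i : ZMod p, x = DihedralGroup.r i := by
  constructor
  · rintro ⟨k, rfl⟩
    exact ⟨k, DihedralGroup.r_one_zpow k⟩
  · rintro ⟨i, rfl⟩
    refine ⟨(i.val : ℤ), ?_⟩
    show DihedralGroup.r 1 ^ (i.val : ℤ) = DihedralGroup.r i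
    rw [zpow_natCast, DihedralGroup.r_one_pow, ZMod.natCast_zmod_val]

theorem rot_normal {p : ℕ} [NeZero p] :
    (Subgroup.zpowers (DihedralGroup.r 1 : DihedralGroup p)).Normal := by
  constructor
  intro n hn g
  rw [mem_rot] at hn ⊢
  obtain ⟨i, rfl⟩ := hn
  rcases g with j | j
  · refine ⟨i, ?_⟩
    rw [DihedralGroup.inv_r, DihedralGroup.r_mul_r, DihedralGroup.r_mul_r]
    congr 1; ring
  · refine ⟨-i, ?_⟩
    rw [DihedralGroup.inv_sr, DihedralGroup.sr_mul_r, DihedralGroup.sr_mul_sr]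
    congr 1; ring

/-- The abstract version of `A → B` for a finite group mapping onto the dihedral group. -/
theorem surj_dih {K : Type*} [Group K] [Finite K] {p : ℕ} [Fact p.Prime] (hp2 : p ≠ 2)
    (π : K →* DihedralGroup p) (hπ : Function.Surjective π) :
    ∃ (x : K) (P : Subgroup K), (∃ k : ℕ, orderOf x = 2 ^ k) ∧ IsPGroup p P ∧
      x ∈ Subgroup.normalizer (P : Set K) ∧ x ∉ Subgroup.centralizer (P : Set K) := by
  have hp : p.Prime := Fact.out
  have : NeZero p := ⟨hp.ne_zero⟩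
  have hrn := rot_normal (p := p)
  set N : Subgroup K := (Subgroup.zpowers (DihedralGroup.r 1 : DihedralGroup p)).comap π with hN
  have hNn : N.Normal := Subgroup.Normal.comap hrn π
  -- a p-element of N mapping to a nontrivial rotation
  obtain ⟨g₀, hg₀⟩ := hπ (DihedralGroup.r 1)
  have ho : orderOf g₀ ≠ 0 := (orderOf_pos g₀).ne'
  obtain ⟨e, m, hm, hom⟩ := Nat.exists_eq_pow_mul_and_not_dvd ho p hp.ne_one
  have hm0 : m ≠ 0 := by
    rintro rfl
    exact hm (dvd_zero p)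
  set g₁ := g₀ ^ m with hg₁
  have hg₁ord : orderOf g₁ = p ^ e := by
    rw [hg₁, orderOf_pow, hom, Nat.gcd_eq_right (dvd_mul_left _ _),
      Nat.mul_div_cancel _ (Nat.pos_of_ne_zero hm0)]
  have hπg₁ : π g₁ = DihedralGroup.r (m : ZMod p) := by
    rw [hg₁, map_pow, hg₀, DihedralGroup.r_one_pow]
  have hg₁N : g₁ ∈ N := by
    rw [hN, Subgroup.mem_comap, hπg₁, mem_rot]
    exact ⟨_, rfl⟩
  have hpg : IsPGroup p (Subgroup.zpowers (⟨g₁, hg₁N⟩ : ↥N)) :=
    IsPGroup.of_card (n := e) (by rw [Nat.card_zpowers, Subgroup.orderOf_mk, hg₁ord])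
  obtain ⟨P, hP⟩ := hpg.exists_le_sylow
  have hfr := Sylow.normalizer_sup_eq_top P
  set P' : Subgroup K := (P : Subgroup ↥N).map N.subtype with hP'
  have hg₁P : g₁ ∈ P' := ⟨⟨g₁, hg₁N⟩, hP (Subgroup.mem_zpowers _), rfl⟩
  obtain ⟨t₀, ht₀⟩ := hπ (DihedralGroup.sr 0)
  have ht₀mem : t₀ ∈ ((Subgroup.normalizer (P' : Set K) ⊔ N : Subgroup K) : Set K) := by
    rw [SetLike.mem_coe, hfr]; trivial
  rw [Subgroup.mul_normal] at ht₀mem
  obtain ⟨t₁, ht₁, n, hn, htn⟩ := ht₀mem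
  have hπn : ∃ j : ZMod p, π n = DihedralGroup.r j := by
    have : π n ∈ Subgroup.zpowers (DihedralGroup.r 1 : DihedralGroup p) := hn
    exact (mem_rot _).1 this
  obtain ⟨j, hj⟩ := hπn
  have hπt₁ : ∃ i : ZMod p, π t₁ = DihedralGroup.sr i := by
    have h1 : π t₁ * π n = DihedralGroup.sr 0 := by
      have : t₁ * n = t₀ := htn
      rw [← map_mul, this, ht₀]
    rw [hj] at h1
    have h2 : π t₁ = DihedralGroup.sr 0 * (DihedralGroup.r j)⁻¹ := by
      rw [← h1]; group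
    rw [DihedralGroup.inv_r, DihedralGroup.sr_mul_r] at h2
    exact ⟨_, h2⟩
  obtain ⟨i, hi⟩ := hπt₁
  -- the 2-part of t₁
  have ho' : orderOf t₁ ≠ 0 := (orderOf_pos t₁).ne'
  obtain ⟨e', m', hm', hom'⟩ := Nat.exists_eq_pow_mul_and_not_dvd ho' 2 (by norm_num)
  have hm'0 : m' ≠ 0 := by
    rintro rfl
    exact hm' (dvd_zero 2)
  set x := t₁ ^ m' with hx
  have hxord : orderOf x = 2 ^ e' := by
    rw [hx, orderOf_pow, hom', Nat.gcd_eq_right (dvd_mul_left _ _),
      Nat.mul_div_cancel _ (Nat.pos_of_ne_zero hm'0)]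
  have hπx : π x = DihedralGroup.sr i := by
    rw [hx, map_pow, hi]
    have hodd : m' % 2 = 1 := by omega
    have h1 : m' = 2 * (m' / 2) + 1 := by omega
    rw [h1, pow_succ, pow_mul, sq, DihedralGroup.sr_mul_self, one_pow, one_mul]
  refine ⟨x, P', ⟨e', hxord⟩, P.isPGroup'.map _, Subgroup.pow_mem _ ht₁ _, ?_⟩
  intro hcon
  rw [Subgroup.mem_centralizer_iff] at hcon
  have h1 := hcon g₁ hg₁P
  have h2 := congrArg π h1
  rw [map_mul, map_mul, hπx, hπg₁, DihedralGroup.r_mul_sr, DihedralGroup.sr_mul_r] at h2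
  have h3 : i - (m : ZMod p) = i + (m : ZMod p) := by injection h2
  have h4 : ((2 * m : ℕ) : ZMod p) = 0 := by
    push_cast
    have : (m : ZMod p) + m = 0 := by linear_combination (-1 : ZMod p) * h3
    rw [two_mul]; exact this
  rw [ZMod.natCast_eq_zero_iff] at h4
  rcases (Nat.Prime.dvd_mul hp).1 h4 with h5 | h5
  · exact hp2 ((Nat.prime_dvd_prime_iff_eq hp Nat.prime_two).1 h5)
  · exact hm h5

theorem A_to_B {G : Type*} [Group G] [Finite G] {p : ℕ} [Fact p.Prime] (hp2 : p ≠ 2)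
    (h : Involves (DihedralGroup p) G) :
    ∃ (x : G) (P : Subgroup G), (∃ k : ℕ, orderOf x = 2 ^ k) ∧ IsPGroup p ↥P ∧
      x ∈ Subgroup.normalizer (P : Set G) ∧ x ∉ Subgroup.centralizer (P : Set G) := by
  obtain ⟨K, R, hn, ⟨e⟩⟩ := h
  let π : ↥K →* DihedralGroup p := e.toMonoidHom.comp (QuotientGroup.mk' (R.subgroupOf K))
  have hπ : Function.Surjective π := e.surjective.comp (QuotientGroup.mk'_surjective _)
  obtain ⟨x, P, ⟨k, hk⟩, hP, hxN, hxC⟩ := surj_dih hp2 π hπ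
  refine ⟨(x : G), P.map K.subtype, ⟨k, by rw [Subgroup.orderOf_coe]; exact hk⟩, hP.map _, ?_, ?_⟩
  · exact Subgroup.le_normalizer_map K.subtype ⟨x, hxN, rfl⟩
  · intro hcon
    apply hxC
    rw [Subgroup.mem_centralizer_iff] at hcon ⊢
    intro g hg
    apply Subtype.ext
    exact hcon (g : G) ⟨g, hg, rfl⟩

/-- For an odd prime p and a finite group G the following are equivalent: the dihedral group of order 2p is involved in G; some element of 2-power order normalizes but does not centralize some p-subgroup of G; some element of 2-power order inverts some nonidentity element of p-power order. -/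
theorem result {G : Type*} [Group G] [Finite G] {p : ℕ} [Fact p.Prime] (hp : p ≠ 2) : (Cfsg.Involves (DihedralGroup p) G ↔ ∃ (x : G) (P : Subgroup G), (∃ k : ℕ, orderOf x = 2 ^ k) ∧ IsPGroup p ↥P ∧ x ∈ Subgroup.normalizer (P : Set G) ∧ x ∉ Subgroup.centralizer (P : Set G)) ∧ (Cfsg.Involves (DihedralGroup p) G ↔ ∃ x y : G, (∃ k : ℕ, orderOf x = 2 ^ k) ∧ (∃ k : ℕ, orderOf y = p ^ k) ∧ y ≠ 1 ∧ x * y * x⁻¹ = y⁻¹) := by
  have hAB : Cfsg.Involves (DihedralGroup p) G → ∃ (x : G) (P : Subgroup G), (∃ k : ℕ, orderOf x = 2 ^ k) ∧ IsPGroup p ↥P ∧ x ∈ Subgroup.normalizer (P : Set G) ∧ x ∉ Subgroup.centralizer (P : Set G) :=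
    A_to_B hp
  have hBC : (∃ (x : G) (P : Subgroup G), (∃ k : ℕ, orderOf x = 2 ^ k) ∧ IsPGroup p ↥P ∧ x ∈ Subgroup.normalizer (P : Set G) ∧ x ∉ Subgroup.centralizer (P : Set G)) → ∃ x y : G, (∃ k : ℕ, orderOf x = 2 ^ k) ∧ (∃ k : ℕ, orderOf y = p ^ k) ∧ y ≠ 1 ∧ x * y * x⁻¹ = y⁻¹ := by
    rintro ⟨x, P, hx, hP, hxN, hxC⟩
    exact B_to_C x P hx hP hxN hxC
  have hCA : (∃ x y : G, (∃ k : ℕ, orderOf x = 2 ^ k) ∧ (∃ k : ℕ, orderOf y = p ^ k) ∧ y ≠ 1 ∧ x * y * x⁻¹ = y⁻¹) → Cfsg.Involves (DihedralGroup p) G := by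
    rintro ⟨x, y, _, hy, hy1, hxy⟩
    exact C_to_A hp x y hy hy1 hxy
  exact ⟨⟨hAB, fun h => hCA (hBC h)⟩, ⟨fun h => hBC (hAB h), hCA⟩⟩

end Cfsg.Agent.S2758
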