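import Cfsg.Statements.S2760
import Cfsg.Agent.Lib.Helper54.Amalgam2

set_option autoImplicit false
open Cfsg

namespace Cfsg.Agent.S2760

open Cfsg.Agent.Lib.Helper54

theorem exists_pow_coprime_order {G : Type*} [Group G] [Finite G] (p : ℕ) [Fact p.Prime] (g : G) :
    ∃ e : ℕ, (orderOf (g ^ (p ^ e))).Coprime p := by
  have hp : p.Prime := Fact.out
  have hn : orderOf g ≠ 0 := (orderOf_pos g).ne'
  obtain ⟨e, m, hm, hn'⟩ := Nat.exists_eq_pow_mul_and_not_dvd hn p hp.ne_one
  refine ⟨e, ?_⟩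
  rw [orderOf_pow, hn']
  have hpe : p ^ e ≠ 0 := pow_ne_zero _ hp.ne_zero
  have : Nat.gcd (p ^ e * m) (p ^ e) = p ^ e := Nat.gcd_eq_right (dvd_mul_right _ _)
  rw [this, Nat.mul_div_cancel_left _ (Nat.pos_of_ne_zero hpe)]
  exact ((Nat.Prime.coprime_iff_not_dvd hp).2 hm).symm

theorem isPGroup_of_no_pprime {G : Type*} [Group G] [Finite G] {p : ℕ} [Fact p.Prime]
    (C : Subgroup G) (h : ∀ c ∈ C, (orderOf c).Coprime p → c = 1) : IsPGroup p C := by
  intro g
  obtain ⟨e, he⟩ := exists_pow_coprime_order p (g : G)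
  refine ⟨e, ?_⟩
  apply Subtype.ext
  exact h _ (C.pow_mem g.2 _) he

theorem coprime_centralizes {G : Type*} [Group G] {p : ℕ} [Fact p.Prime] {Q : Subgroup G}
    (hQ : IsPGroup p Q) (hQn : Q.Normal) {c q : G} (hq : q ∈ Q) (hc : (orderOf c).Coprime p)
    (hz : Commute (q⁻¹ * c⁻¹ * q * c) c) : c⁻¹ * q * c = q := by
  have hp : p.Prime := Fact.out
  set z := q⁻¹ * c⁻¹ * q * c with hzdef
  have hzc : ∀ k : ℕ, c⁻¹ * z ^ k * c = z ^ k := by
    intro k
    have := (hz.pow_left k).eq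
    calc c⁻¹ * z ^ k * c = c⁻¹ * (z ^ k * c) := by group
      _ = c⁻¹ * (c * z ^ k) := by rw [this]
      _ = z ^ k := by group
  have hcq : c⁻¹ * q * c = q * z := by rw [hzdef]; group
  have key : ∀ k : ℕ, c⁻¹ ^ k * q * c ^ k = q * z ^ k := by
    intro k
    induction k with
    | zero => simp
    | succ k ih =>
      calc c⁻¹ ^ (k + 1) * q * c ^ (k + 1) = c⁻¹ * (c⁻¹ ^ k * q * c ^ k) * c := by
            rw [pow_succ', pow_succ]; group
        _ = c⁻¹ * (q * z ^ k) * c := by rw [ih]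
        _ = (c⁻¹ * q * c) * (c⁻¹ * z ^ k * c) := by group
        _ = q * z * z ^ k := by rw [hcq, hzc]
        _ = q * z ^ (k + 1) := by rw [pow_succ']; group
  have h1 := key (orderOf c)
  rw [inv_pow, pow_orderOf_eq_one] at h1
  have h2 : z ^ orderOf c = 1 := by
    have : q = q * z ^ orderOf c := by simpa using h1
    have := congrArg (fun t => q⁻¹ * t) this
    simpa using this.symm
  have hzQ : z ∈ Q := by
    have : z = q⁻¹ * (c⁻¹ * q * c⁻¹⁻¹) := by rw [hzdef]; group
    rw [this]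
    exact Q.mul_mem (Q.inv_mem hq) (hQn.conj_mem q hq c⁻¹)
  obtain ⟨k, hk⟩ := (IsPGroup.iff_orderOf.1 hQ) ⟨z, hzQ⟩
  have hk' : orderOf z = p ^ k := by rw [← hk]; simp
  have h3 : orderOf z ∣ orderOf c := orderOf_dvd_of_pow_eq_one h2
  rw [hk'] at h3
  have h4 : (p ^ k).Coprime p := Nat.Coprime.coprime_dvd_left h3 hc
  have hk0 : k = 0 := by
    by_contra hk0
    have : p ∣ p ^ k := dvd_pow_self p hk0
    have := Nat.eq_one_of_dvd_coprimes h4 this (dvd_refl p)
    exact hp.one_lt.ne' this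
  rw [hk0, pow_zero, orderOf_eq_one_iff] at hk'
  rw [hcq, hk', mul_one]

theorem cj_pCoreOf {G : Type*} [Group G] (p : ℕ) (g : G) (H : Subgroup G) :
    cj g (pCoreOf p H) = pCoreOf p (cj g H) :=
  (pCoreOf_map p H (MulAut.conj g)).symm

theorem cj_centralizer {G : Type*} [Group G] (g : G) (K : Subgroup G) :
    cj g (Subgroup.centralizer (K : Set G)) = Subgroup.centralizer ((cj g K : Subgroup G) : Set G) :=
  map_centralizer (MulAut.conj g) K

theorem cj_inf {G : Type*} [Group G] (g : G) (A B : Subgroup G) :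
    cj g (A ⊓ B) = cj g A ⊓ cj g B :=
  Subgroup.map_inf A B _ (MulAut.conj g).injective

theorem cj_normal {G : Type*} [Group G] (g : G) {H : Subgroup G} (hH : H.Normal) : cj g H = H :=
  cj_eq_of_mem_normalizer (by rw [Subgroup.normalizer_eq_top_iff.2 hH]; trivial)

/-- The normal case, for a prime `p`, inside `G`. -/
theorem normal_case {G : Type*} [Group G] [Finite G] {p : ℕ} [Fact p.Prime]
    (hchar : Subgroup.centralizer (pCore p G : Set G) ≤ pCore p G) (H : Subgroup G)
    (hH : H.Normal) :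
    H ⊓ Subgroup.centralizer (pCoreOf p H : Set G) ≤ pCoreOf p H := by
  set Q := pCore p G with hQ
  have hQp : IsPGroup p Q := pCore_isPGroup p G
  have hQn : Q.Normal := inferInstance
  set QH := pCoreOf p H with hQH
  set C := H ⊓ Subgroup.centralizer (QH : Set G) with hC
  have hcjQH : ∀ g : G, cj g QH = QH := by
    intro g
    rw [hQH, cj_pCoreOf, cj_normal g hH]
  have hcjC : ∀ g : G, cj g C = C := by
    intro g
    rw [hC, cj_inf, cj_centralizer, hcjQH, cj_normal g hH]
  have hHQ : H ⊓ Q ≤ QH := by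
    apply le_pCoreOf inf_le_left (hQp.to_le inf_le_right)
    apply le_normalizer_of_cj_le
    intro g _
    rw [cj_inf, cj_normal g hH, cj_normal g hQn]
  have hnop : ∀ c ∈ C, (orderOf c).Coprime p → c = 1 := by
    intro c hc hco
    have hcH : c ∈ H := hc.1
    have hcQH : c ∈ Subgroup.centralizer (QH : Set G) := hc.2
    rw [Subgroup.mem_centralizer_iff] at hcQH
    have hcent : c ∈ Subgroup.centralizer (Q : Set G) := by
      rw [Subgroup.mem_centralizer_iff]
      intro q hq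
      have hz : q⁻¹ * c⁻¹ * q * c ∈ QH := by
        apply hHQ
        constructor
        · have h1 : q⁻¹ * c⁻¹ * q⁻¹⁻¹ ∈ H := hH.conj_mem _ (H.inv_mem hcH) q⁻¹
          have : q⁻¹ * c⁻¹ * q * c = (q⁻¹ * c⁻¹ * q⁻¹⁻¹) * c := by group
          rw [this]
          exact H.mul_mem h1 hcH
        · have h1 : c⁻¹ * q * c⁻¹⁻¹ ∈ Q := hQn.conj_mem _ hq c⁻¹
          have : q⁻¹ * c⁻¹ * q * c = q⁻¹ * (c⁻¹ * q * c⁻¹⁻¹) := by group
          rw [this]
          exact Q.mul_mem (Q.inv_mem hq) h1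
      have hcomm : Commute (q⁻¹ * c⁻¹ * q * c) c := hcQH _ hz
      have := coprime_centralizes hQp hQn hq hco hcomm
      calc q * c = c * (c⁻¹ * q * c) := by group
        _ = c * q := by rw [this]
    have hcQ : c ∈ Q := hchar hcent
    obtain ⟨k, hk⟩ := (IsPGroup.iff_orderOf.1 hQp) ⟨c, hcQ⟩
    have hk' : orderOf c = p ^ k := by rw [← hk]; simp
    have hp : p.Prime := Fact.out
    rw [hk'] at hco
    have hk0 : k = 0 := by
      by_contra hk0
      have : p ∣ p ^ k := dvd_pow_self p hk0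
      have := Nat.eq_one_of_dvd_coprimes hco this (dvd_refl p)
      exact hp.one_lt.ne' this
    rw [hk0, pow_zero, orderOf_eq_one_iff] at hk'
    exact hk'
  have hCp : IsPGroup p C := isPGroup_of_no_pprime C hnop
  apply le_pCoreOf inf_le_left hCp
  apply le_normalizer_of_cj_le
  intro g _
  rw [hcjC]

theorem step2 {G : Type*} [Group G] [Finite G] {p : ℕ} [Fact p.Prime]
    (hchar : Subgroup.centralizer (pCore p G : Set G) ≤ pCore p G) (H : Subgroup G)
    (hK : ((pResidual p ↥H).map H.subtype).Normal) :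
    H ⊓ Subgroup.centralizer (pCoreOf p H : Set G) ≤ pCoreOf p H := by
  set K := (pResidual p ↥H).map H.subtype with hKdef
  have hKH : K ≤ H := Subgroup.map_subtype_le _
  have h1 := normal_case hchar K hK
  have hQK : pCoreOf p K ≤ pCoreOf p H := by
    apply le_pCoreOf ((pCoreOf_le p K).trans hKH) (pCoreOf_isPGroup p K)
    apply le_normalizer_of_cj_le
    intro g _
    rw [cj_pCoreOf, cj_normal g hK]
  set C := H ⊓ Subgroup.centralizer (pCoreOf p H : Set G) with hC
  have hCK : C ⊓ K ≤ pCoreOf p K := by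
    refine le_trans ?_ h1
    refine le_inf inf_le_right ?_
    exact (inf_le_left.trans inf_le_right).trans (Subgroup.centralizer_le hQK)
  have hCp : IsPGroup p C := by
    intro c
    obtain ⟨e, he⟩ := exists_pow_coprime_order p (c : G)
    have hcH : (c : G) ∈ H := c.2.1
    have hmem : (c : G) ^ (p ^ e) ∈ K := by
      refine ⟨⟨(c : G) ^ (p ^ e), H.pow_mem hcH _⟩, ?_, rfl⟩
      apply Subgroup.subset_closure
      show (orderOf (⟨(c : G) ^ (p ^ e), H.pow_mem hcH _⟩ : ↥H)).Coprime p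
      rw [Subgroup.orderOf_mk]
      exact he
    have hmem2 : (c : G) ^ (p ^ e) ∈ pCoreOf p K := hCK ⟨C.pow_mem c.2 _, hmem⟩
    obtain ⟨k, hk⟩ := (pCoreOf_isPGroup p K) ⟨_, hmem2⟩
    have hk' : ((c : G) ^ (p ^ e)) ^ (p ^ k) = 1 := by
      simpa using congrArg Subtype.val hk
    refine ⟨e + k, ?_⟩
    apply Subtype.ext
    show (c : G) ^ (p ^ (e + k)) = 1
    rw [pow_add, pow_mul]
    exact hk'
  apply le_pCoreOf inf_le_left hCp
  apply le_normalizer_of_cj_le
  intro g hg
  rw [cj_inf, cj_centralizer, cj_self hg,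
    cj_eq_of_mem_normalizer (pCoreOf_normal p H hg)]

/-- Let G be a finite group with C_G(O₂(G)) ≤ O₂(G) and H a subgroup of G such that H is normal in G, or the subgroup O²(H) generated by the elements of H of odd order is normal in G. Then C_H(O₂(H)) ≤ O₂(H). -/
theorem result {G : Type*} [Group G] [Finite G] (hchar : Subgroup.centralizer (Cfsg.pCore 2 G : Set G) ≤ Cfsg.pCore 2 G) (H : Subgroup G) (hH : H.Normal ∨ ((Cfsg.pResidual 2 ↥H).map H.subtype).Normal) : Subgroup.centralizer (Cfsg.pCore 2 ↥H : Set ↥H) ≤ Cfsg.pCore 2 ↥H := by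
  have : Fact (Nat.Prime 2) := ⟨Nat.prime_two⟩
  rw [charp_iff]
  rcases hH with hH | hH
  · exact normal_case hchar H hH
  · exact step2 hchar H hH

end Cfsg.Agent.S2760
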