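import Cfsg.Statements.S2761
import Cfsg.Agent.Lib.Helper54.Qd

set_option autoImplicit false
open Cfsg

namespace Cfsg.Agent.S2761

open Cfsg.Agent.Lib.Helper54 Matrix

/-- The points of the affine plane over `ZMod 2`. -/
abbrev Pt := ZMod 2 × ZMod 2

/-- The underlying matrix. -/
abbrev mat (M : ↥(affSub (ZMod 2))) : Matrix (Fin 3) (Fin 3) (ZMod 2) :=
  ((M : Matrix.SpecialLinearGroup (Fin 3) (ZMod 2)) : Matrix (Fin 3) (Fin 3) (ZMod 2))

def act (M : ↥(affSub (ZMod 2))) (v : Pt) : Pt :=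
  (mat M 0 0 * v.1 + mat M 0 1 * v.2 + mat M 0 2, mat M 1 0 * v.1 + mat M 1 1 * v.2 + mat M 1 2)

instance : MulAction ↥(affSub (ZMod 2)) Pt where
  smul := act
  one_smul := by
    intro v
    show act 1 v = v
    have h1 : mat (1 : ↥(affSub (ZMod 2))) = 1 := rfl
    unfold act
    rw [h1]
    ext <;> simp
  mul_smul := by
    intro M N v
    show act (M * N) v = act M (act N v)
    obtain ⟨n0, n1, n2⟩ := N.2
    have hmul : mat (M * N) = mat M * mat N := rfl
    unfold act
    rw [hmul]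
    simp only [Matrix.mul_apply, Fin.sum_univ_three]
    have e0 : mat N 2 0 = 0 := n0
    have e1 : mat N 2 1 = 0 := n1
    have e2 : mat N 2 2 = 1 := n2
    rw [e0, e1, e2]
    ext <;> simp <;> ring

theorem smul_def (M : ↥(affSub (ZMod 2))) (v : Pt) : M • v = act M v := rfl

/-- An explicit numbering of the four points. -/
def eps : Fin 4 ≃ Pt where
  toFun := ![(0, 0), (1, 0), (1, 1), (0, 1)]
  invFun := fun v => if v = (0, 0) then 0 else if v = (1, 0) then 1 else if v = (1, 1) then 2 else 3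
  left_inv := by decide
  right_inv := by decide

/-- The action homomorphism to `Perm (Fin 4)`. -/
def Phi : ↥(affSub (ZMod 2)) →* Equiv.Perm (Fin 4) :=
  (Equiv.permCongrHom eps.symm).toMonoidHom.comp (MulAction.toPermHom ↥(affSub (ZMod 2)) Pt)

theorem Phi_apply (M : ↥(affSub (ZMod 2))) (i : Fin 4) : Phi M i = eps.symm (act M (eps i)) := rfl

def Msig : ↥(affSub (ZMod 2)) :=
  ⟨⟨!![0, 1, 1; 1, 0, 0; 0, 0, 1], by rw [Matrix.det_fin_three]; decide⟩, by
    refine ⟨?_, ?_, ?_⟩ <;> rfl⟩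

def Mtau : ↥(affSub (ZMod 2)) :=
  ⟨⟨!![1, 1, 1; 0, 1, 0; 0, 0, 1], by rw [Matrix.det_fin_three]; decide⟩, by
    refine ⟨?_, ?_, ?_⟩ <;> rfl⟩

theorem Phi_sig : Phi Msig = finRotate 4 := by
  ext i
  rw [Phi_apply]
  fin_cases i <;> rfl

theorem Phi_tau : Phi Mtau = Equiv.swap 0 1 := by
  ext i
  rw [Phi_apply]
  fin_cases i <;> rfl

theorem Phi_surj : Function.Surjective Phi := by
  rw [← MonoidHom.range_eq_top, eq_top_iff]
  have h := Equiv.Perm.closure_cycle_adjacent_swap (σ := finRotate 4) isCycle_finRotate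
    support_finRotate (0 : Fin 4)
  rw [← h, Subgroup.closure_le]
  intro x hx
  rcases hx with rfl | rfl
  · exact ⟨Msig, Phi_sig⟩
  · refine ⟨Mtau, ?_⟩
    rw [Phi_tau]
    rfl

theorem Phi_inj : Function.Injective Phi := by
  rw [injective_iff_map_eq_one]
  intro M hM
  have h : ∀ v : Pt, act M v = v := by
    intro v
    have h1 := congrArg (fun σ : Equiv.Perm (Fin 4) => σ (eps.symm v)) hM
    simp only [Phi_apply, Equiv.apply_symm_apply, Equiv.Perm.coe_one, id_eq] at h1
    exact eps.symm.injective h1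
  obtain ⟨m0, m1, m2⟩ := M.2
  have h00 := h (0, 0)
  have h10 := h (1, 0)
  have h01 := h (0, 1)
  unfold act at h00 h10 h01
  simp only [Prod.mk.injEq, mul_zero, mul_one, zero_add, add_zero] at h00 h10 h01
  obtain ⟨a1, a2⟩ := h00
  obtain ⟨b1, b2⟩ := h10
  obtain ⟨c1, c2⟩ := h01
  rw [a1, add_zero] at b1 c1
  rw [a2, add_zero] at b2 c2
  apply Subtype.ext
  apply Subtype.ext
  ext i j
  fin_cases i <;> fin_cases j
  · exact b1
  · exact c1
  · exact a1
  · exact b2
  · exact c2
  · exact a2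
  · exact m0
  · exact m1
  · exact m2

/-- The group Qd(2), the natural semidirect product of an elementary abelian group of order 4 by SL₂(2) (realised as the affine subgroup of SL₃(2)), is isomorphic to the symmetric group of degree 4. -/
theorem result : Nonempty (↥(Cfsg.qd 2) ≃* Equiv.Perm (Fin 4)) := by
  exact ⟨(MulEquiv.subgroupCongr (qd_eq 2)).trans (MulEquiv.ofBijective Phi ⟨Phi_inj, Phi_surj⟩)⟩

end Cfsg.Agent.S2761
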