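import Cfsg.Statements.S2770
import Cfsg.Agent.Lib.Helper15.GFac

set_option autoImplicit false
open Cfsg

namespace Cfsg.Agent.S2770


open Cfsg Cfsg.Agent.Lib.Helper42 Cfsg.Agent.Lib.Helper2 Cfsg.Agent.Lib.Helper15 in

/-- Let G be a finite group and p a prime with C_G(O_p(G)) ≤ O_p(G), S a Sylow p-subgroup lying in exactly one maximal subgroup of G, and G/K ≅ PSL₂(p^n) for some normal K and n ≥ 1. If Z(S) is not elementary abelian, then either ℧¹(Z(S)) (the subgroup generated by the p-th powers of the elements of Z(S)) is normal in G or C_S(Z(J(S))) is normal in G, J(S) being generated by the abelian subgroups of S of largest order. -/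
theorem result {G : Type*} [Group G] [Finite G] {p : ℕ} [Fact p.Prime] (S : Sylow p G) (hE₁ : Subgroup.centralizer (Cfsg.pCore p G : Set G) ≤ Cfsg.pCore p G) (hE₂ : ∃! M : Subgroup G, IsCoatom M ∧ (S : Subgroup G) ≤ M) (K : Subgroup G) [K.Normal] (F : Type) [Field F] [Fintype F] (n : ℕ) (hn : 1 ≤ n) (hF : Fintype.card F = p ^ n) (hE₃ : Nonempty (G ⧸ K ≃* Matrix.ProjectiveSpecialLinearGroup (Fin 2) F)) (h : ¬ Cfsg.IsElementaryAbelian p ((S : Subgroup G) ⊓ Subgroup.centralizer ((S : Subgroup G) : Set G))) : (Cfsg.powerClosure p 1 ((S : Subgroup G) ⊓ Subgroup.centralizer ((S : Subgroup G) : Set G))).Normal ∨ (((S : Subgroup G) ⊓ Subgroup.centralizer (Cfsg.centerThompsonAOf (S : Subgroup G) : Set G))).Normal := by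
  classical
  obtain ⟨M, ⟨hMco, hSM⟩, hMuniq⟩ := hE₂
  set Z := (S : Subgroup G) ⊓ Subgroup.centralizer ((S : Subgroup G) : Set G) with hZ
  set U := Cfsg.powerClosure p 1 Z with hU
  -- every proper subgroup containing `S` lies in `M`
  have hmax : ∀ L : Subgroup G, (S : Subgroup G) ≤ L → L ≠ ⊤ → L ≤ M := by
    intro L hSL hL
    rcases IsCoatomic.eq_top_or_exists_le_coatom L with h | ⟨a, ha, hLa⟩
    · exact absurd h hL
    · have := hMuniq a ⟨ha, hSL.trans hLa⟩
      rw [← this]; exact hLa
  have hfac := gfac S hE₁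
  set C := Subgroup.centralizer (U : Set G) with hC
  set J := Cfsg.thompsonSubgroupAOf (S : Subgroup G) with hJ
  set N := Subgroup.normalizer (J : Set G) with hN
  have hUZ : U ≤ Z := by
    rw [hU]
    unfold Cfsg.powerClosure
    rw [Subgroup.closure_le]
    rintro y ⟨z, hz, rfl⟩
    exact Subgroup.pow_mem _ hz _
  have hSC : (S : Subgroup G) ≤ C := by
    intro s hs
    rw [hC, Subgroup.mem_centralizer_iff]
    intro u hu
    exact ((Subgroup.mem_centralizer_iff.mp (hUZ hu).2) s hs).symm
  have hSN : (S : Subgroup G) ≤ N := by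
    intro s hs
    rw [hN, hJ, thompsonSubgroupAOf_eq_JJ]
    exact mem_normalizer_JJ (Subgroup.le_normalizer hs)
  have hCN : C = ⊤ ∨ N = ⊤ := by
    by_contra hcon
    push Not at hcon
    have h1 := hmax C hSC hcon.1
    have h2 := hmax N hSN hcon.2
    apply hMco.1
    rw [eq_top_iff]
    intro g _
    obtain ⟨c, m, hc, hm, rfl⟩ := hfac g
    exact M.mul_mem (h1 hc) (h2 hm)
  -- a subgroup of the centre is normal
  have hcentral : (∀ u ∈ U, ∀ g : G, g * u * g⁻¹ = u) → U.Normal := by
    intro hc
    refine ⟨fun u hu g => ?_⟩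
    rw [hc u hu g]; exact hu
  rcases hCN with hCtop | hNtop
  · left
    apply hcentral
    intro u hu g
    have hg : g ∈ C := hCtop ▸ Subgroup.mem_top g
    have h3 := (Subgroup.mem_centralizer_iff.mp hg) u hu
    rw [← h3]; group
  · have hJn : J.Normal := Subgroup.normalizer_eq_top_iff.mp hNtop
    set Z₁ := Cfsg.centerThompsonAOf (S : Subgroup G) with hZ₁
    have hZ₁e : Z₁ = J ⊓ Subgroup.centralizer (J : Set G) := rfl
    have hZ₁n : Z₁.Normal := by
      rw [hZ₁e]
      haveI := hJn
      infer_instance
    set Cz := Subgroup.centralizer (Z₁ : Set G) with hCz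
    have hCzn : Cz.Normal := by
      haveI := hZ₁n
      rw [hCz]
      infer_instance
    set B := (S : Subgroup G) ⊓ Cz with hB
    by_cases hBn : B.Normal
    · right; exact hBn
    · left
      have hNB : Subgroup.normalizer (B : Set G) ≠ ⊤ :=
        fun h => hBn (Subgroup.normalizer_eq_top_iff.mp h)
      have hCzN : ∀ g : G, g ∈ Subgroup.normalizer (Cz : Set G) := by
        intro g
        have : Subgroup.normalizer (Cz : Set G) = ⊤ := Subgroup.normalizer_eq_top_iff.mpr hCzn
        rw [this]; exact Subgroup.mem_top g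
      have hSNB : (S : Subgroup G) ≤ Subgroup.normalizer (B : Set G) := by
        intro s hs
        rw [← cj_eq_self_iff, hB, cj_inf, cj_eq_of_mem_normalizer (Subgroup.le_normalizer hs),
          cj_eq_of_mem_normalizer (hCzN s)]
      have hNBM := hmax _ hSNB hNB
      have hSyl : IsSylIn p B Cz :=
        (sylow_isSylIn S).inf_normal le_top (fun g _ => hCzN g)
      have hCS : Cz ⊔ (S : Subgroup G) = ⊤ := by
        by_contra hne
        have h5 := hmax _ le_sup_right hne
        apply hMco.1
        rw [eq_top_iff]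
        intro g _
        obtain ⟨n, hn, hng⟩ := frattini_isSylIn hSyl (hCzN g)
        have e : g = n⁻¹ * (n * g) := by group
        rw [e]
        exact M.mul_mem (M.inv_mem (h5 (le_sup_left (a := Cz) hn))) (hNBM hng)
      have hZZ₁ : Z ≤ Z₁ := by
        rw [hZ₁e, hJ, thompsonSubgroupAOf_eq_JJ]
        exact gf_center_le_ZJ (S : Subgroup G)
      have hZc : ∀ z ∈ Z, ∀ g : G, g * z * g⁻¹ = z := by
        intro z hz g
        have h6 : Cz ⊔ (S : Subgroup G) ≤ Subgroup.centralizer ({z} : Set G) := by
          apply sup_le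
          · intro x hx
            rw [Subgroup.mem_centralizer_iff]
            intro y hy
            rw [Set.mem_singleton_iff.mp hy]
            exact (Subgroup.mem_centralizer_iff.mp hx) z (hZZ₁ hz)
          · intro s hs
            rw [Subgroup.mem_centralizer_iff]
            intro y hy
            rw [Set.mem_singleton_iff.mp hy]
            exact ((Subgroup.mem_centralizer_iff.mp hz.2) s hs).symm
        have hg : g ∈ Subgroup.centralizer ({z} : Set G) := h6 (hCS ▸ Subgroup.mem_top g)
        have h7 := (Subgroup.mem_centralizer_iff.mp hg) z rfl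
        rw [← h7]; group
      apply hcentral
      intro u hu g
      exact hZc u (hUZ hu) g

end Cfsg.Agent.S2770
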