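import Cfsg.Statements.S2779
import Cfsg.Agent.Lib.Helper54.SL2Model

set_option autoImplicit false
open Cfsg

namespace Cfsg.Agent.S2779

open Cfsg.Agent.Lib.Helper54

/-- Let L act on the elementary abelian p-group V (inside a finite group, by conjugation, faithfully) as SL₂(F) on its natural module, F a field with p^n elements, and let S be a Sylow p-subgroup of L. Then [V, S, S] = 1; |V| = p^(2n) and |C_V(S)| = p^n; and for every nonidentity s ∈ S and every v ∈ V outside C_V(S): C_V(s) = C_V(S) = [V, S] = [V, s] = the subgroup generated by the commutators [v, t], t ∈ S. -/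
theorem result {G : Type*} [Group G] [Finite G] {p : ℕ} [Fact p.Prime] {F : Type*} [Field F] [Fintype F] (n : ℕ) (hF : Fintype.card F = p ^ n) (V L : Subgroup G) (hnat : Cfsg.IsNaturalSL2Module F V L) (hf : L ⊓ Subgroup.centralizer (V : Set G) = ⊥) (S : Sylow p ↥L) (T : Subgroup G) (hT : T = ((S : Subgroup ↥L).map L.subtype)) : ⁅⁅V, T⁆, T⁆ = ⊥ ∧ Nat.card V = p ^ (2 * n) ∧ Nat.card ↥(V ⊓ Subgroup.centralizer ((T : Subgroup G) : Set G)) = p ^ n ∧ ∀ s ∈ T, s ≠ 1 → (V ⊓ Subgroup.centralizer ({s} : Set G)) = (V ⊓ Subgroup.centralizer ((T : Subgroup G) : Set G)) ∧ ⁅V, T⁆ = (V ⊓ Subgroup.centralizer ((T : Subgroup G) : Set G)) ∧ ⁅V, Subgroup.zpowers s⁆ = (V ⊓ Subgroup.centralizer ((T : Subgroup G) : Set G)) ∧ ∀ v ∈ V, v ∉ Subgroup.centralizer (T : Set G) → Subgroup.closure {x : G | ∃ t ∈ T, x = v * t * v⁻¹ * t⁻¹} = (V ⊓ Subgroup.centralizer ((T : Subgroup G) : Set G)) := by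
  have hchar : CharP F p := charP_of_card_eq_prime_pow hF
  obtain ⟨M⟩ := exists_model V L hnat hf S T hT
  rw [M.V_inf_centralizer_T, M.comm_V_T]
  have hcF : Nat.card F = p ^ n := by rw [Nat.card_eq_fintype_card, hF]
  refine ⟨M.comm_V1_T, ?_, ?_, ?_⟩
  · rw [M.card_V, hcF, ← pow_mul, mul_comm]
  · rw [M.card_V1, hcF]
  · intro s hs hs1
    obtain ⟨b, rfl⟩ := (M.mem_T_iff s).1 hs
    have hb : b ≠ 0 := fun h => hs1 ((M.lel_u2_eq_one_iff b).2 h)
    exact ⟨M.V_inf_centralizer_u2 hb, rfl, M.comm_V_zpowers hb, fun v hv hvT => M.closure_comm hv hvT⟩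

end Cfsg.Agent.S2779
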