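import Cfsg.Statements.S2781
import Cfsg.Agent.Lib.Helper54.Amalgam2

set_option autoImplicit false
open Cfsg

namespace Cfsg.Agent.S2781

open Cfsg.Agent.Lib.Helper54
open scoped IsMulCommutative
open scoped commutatorElement

/-- Averaging argument: a `T`-fixed vector is, up to `[V, R]`, an `R`-fixed vector. -/
theorem avg {G : Type*} [Group G] [Finite G] {p : ℕ} [Fact p.Prime] (V R T : Subgroup G)
    (hVc : IsMulCommutative ↥V) (hVp : ∀ a ∈ V, a ^ p = 1)
    (hRV : R ≤ Subgroup.normalizer (V : Set G)) (hTR : T ≤ R)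
    (hidx : (T.relIndex R).Coprime p) (v : G) (hv : v ∈ V)
    (hvT : v ∈ Subgroup.centralizer (T : Set G)) :
    v ∈ ⁅V, R⁆ ⊔ (V ⊓ Subgroup.centralizer (R : Set G)) := by
  classical
  have hp : p.Prime := Fact.out
  set Tq : Subgroup ↥R := T.subgroupOf R with hTq
  let A := ↥R ⧸ Tq
  have : Fintype A := Fintype.ofFinite A
  have hconj : ∀ r : ↥R, ∀ a ∈ V, (r : G) * a * (r : G)⁻¹ ∈ V := by
    intro r a ha
    have := hRV r.2
    rw [Subgroup.mem_normalizer_iff] at this
    exact (this a).1 ha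
  let g : A → ↥V := fun x => ⟨((Quotient.out x : ↥R) : G) * v * ((Quotient.out x : ↥R) : G)⁻¹,
    hconj _ v hv⟩
  set Nv : ↥V := ∏ x : A, g x with hNv
  rw [Subgroup.mem_centralizer_iff] at hvT
  -- (F1)
  have F1 : ∀ (r₀ : ↥R) (x : A),
      (r₀ : G) * (g x : G) * (r₀ : G)⁻¹ = (g (r₀ • x) : G) := by
    intro r₀ x
    have h1 : (QuotientGroup.mk (r₀ * Quotient.out x) : A) = QuotientGroup.mk (Quotient.out (r₀ • x)) := by
      rw [QuotientGroup.out_eq']
      have : (QuotientGroup.mk (r₀ * Quotient.out x) : A) = r₀ • (QuotientGroup.mk (Quotient.out x) : A) := rfl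
      rw [this, QuotientGroup.out_eq']
    have h2' : (r₀ * Quotient.out x)⁻¹ * Quotient.out (r₀ • x) ∈ Tq := QuotientGroup.eq.1 h1
    have h2 : (((r₀ * Quotient.out x)⁻¹ * Quotient.out (r₀ • x) : ↥R) : G) ∈ T :=
      Subgroup.mem_subgroupOf.1 h2'
    set t : G := (((r₀ * Quotient.out x)⁻¹ * Quotient.out (r₀ • x) : ↥R) : G) with ht
    have h3 : ((Quotient.out (r₀ • x) : ↥R) : G) = (r₀ : G) * ((Quotient.out x : ↥R) : G) * t := by
      rw [ht]
      push_cast
      group
    have h4 : t * v * t⁻¹ = v := by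
      have := hvT t h2
      rw [this]; group
    show (r₀ : G) * (((Quotient.out x : ↥R) : G) * v * ((Quotient.out x : ↥R) : G)⁻¹) * (r₀ : G)⁻¹ =
      ((Quotient.out (r₀ • x) : ↥R) : G) * v * ((Quotient.out (r₀ • x) : ↥R) : G)⁻¹
    rw [h3]
    calc (r₀ : G) * (((Quotient.out x : ↥R) : G) * v * ((Quotient.out x : ↥R) : G)⁻¹) * (r₀ : G)⁻¹
        = (r₀ : G) * ((Quotient.out x : ↥R) : G) * (t * v * t⁻¹) * ((Quotient.out x : ↥R) : G)⁻¹ * (r₀ : G)⁻¹ := by
          rw [h4]; group
      _ = (r₀ : G) * ((Quotient.out x : ↥R) : G) * t * v * ((r₀ : G) * ((Quotient.out x : ↥R) : G) * t)⁻¹ := by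
          group
  -- (F2) Nv is centralized by R
  have F2 : (Nv : G) ∈ Subgroup.centralizer (R : Set G) := by
    rw [Subgroup.mem_centralizer_iff]
    intro r₀ hr₀
    let ψ : ↥V →* ↥V :=
      { toFun := fun a => ⟨r₀ * (a : G) * r₀⁻¹, hconj ⟨r₀, hr₀⟩ a a.2⟩
        map_one' := by apply Subtype.ext; simp
        map_mul' := by intro a b; apply Subtype.ext; simp [mul_assoc] }
    have h1 : ψ Nv = Nv := by
      rw [hNv, map_prod]
      have h2 : ∀ x : A, ψ (g x) = g ((⟨r₀, hr₀⟩ : ↥R) • x) := by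
        intro x
        apply Subtype.ext
        exact F1 ⟨r₀, hr₀⟩ x
      simp_rw [h2]
      exact Equiv.prod_comp (MulAction.toPerm (⟨r₀, hr₀⟩ : ↥R)) g
    have h3 : r₀ * (Nv : G) * r₀⁻¹ = (Nv : G) := congrArg Subtype.val h1
    calc r₀ * (Nv : G) = r₀ * (Nv : G) * r₀⁻¹ * r₀ := by group
      _ = (Nv : G) * r₀ := by rw [h3]
  -- (F3)
  set v' : ↥V := ⟨v, hv⟩ with hv'
  have F3 : ((Nv * v'⁻¹ ^ Fintype.card A : ↥V) : G) ∈ ⁅V, R⁆ := by
    have h1 : Nv * v'⁻¹ ^ Fintype.card A = ∏ x : A, (g x * v'⁻¹) := by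
      rw [Finset.prod_mul_distrib, Finset.prod_const, Finset.card_univ]
    rw [h1]
    have h2 : (∏ x : A, (g x * v'⁻¹)) ∈ (⁅V, R⁆).subgroupOf V := by
      apply Subgroup.prod_mem
      intro x _
      rw [Subgroup.mem_subgroupOf]
      show ((Quotient.out x : ↥R) : G) * v * ((Quotient.out x : ↥R) : G)⁻¹ * v⁻¹ ∈ ⁅V, R⁆
      rw [Subgroup.commutator_comm]
      exact Subgroup.commutator_mem_commutator (Quotient.out x).2 hv
    exact Subgroup.mem_subgroupOf.1 h2
  have hcard : Fintype.card A = T.relIndex R := by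
    rw [Subgroup.relIndex, Subgroup.index, Nat.card_eq_fintype_card]
  -- (F5)
  have F5 : v ^ (T.relIndex R) ∈ ⁅V, R⁆ ⊔ (V ⊓ Subgroup.centralizer (R : Set G)) := by
    have h1 : v ^ (T.relIndex R) =
        ((Nv * v'⁻¹ ^ Fintype.card A : ↥V) : G)⁻¹ * (Nv : G) := by
      rw [← hcard]
      push_cast
      rw [hv']
      simp
    rw [h1]
    exact Subgroup.mul_mem_sup (Subgroup.inv_mem _ F3) ⟨Nv.2, F2⟩
  obtain ⟨m, -, hm⟩ := Nat.exists_mul_mod_eq_one_of_coprime hidx hp.one_lt
  have h6 : v = (v ^ (T.relIndex R)) ^ m := by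
    rw [← pow_mul, pow_eq_pow_mod _ (hVp v hv), hm, pow_one]
  rw [h6]
  exact Subgroup.pow_mem _ F5 m

theorem pResidual_normal (p : ℕ) (K : Type*) [Group K] : (pResidual p K).Normal := by
  rw [← Subgroup.normalizer_eq_top_iff, eq_top_iff]
  unfold pResidual
  rw [Subgroup.le_normalizer_closure_iff]
  intro h _ g hg
  apply Subgroup.subset_closure
  show (orderOf (h * g * h⁻¹)).Coprime p
  have : h * g * h⁻¹ = MulAut.conj h g := by simp
  rw [this, MulEquiv.orderOf_eq]
  exact hg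

/-- Let H act faithfully by conjugation on the elementary abelian p-subgroup V of a finite group, let O^p(H) be the subgroup of H generated by its elements of order prime to p, and T a Sylow p-subgroup of O^p(H). If V is generated by the H-conjugates of C_V(T) (V is the smallest H-invariant subgroup containing C_V(T)), then V = [V, O^p(H)]·C_V(O^p(H)). -/
theorem result {G : Type*} [Group G] [Finite G] {p : ℕ} [Fact p.Prime] (V H : Subgroup G) (hV : Cfsg.IsElementaryAbelian p V) (hHV : H ≤ Subgroup.normalizer (V : Set G)) (hf : H ⊓ Subgroup.centralizer (V : Set G) = ⊥) (R : Subgroup G) (hR : R = (Cfsg.pResidual p ↥H).map H.subtype) (S : Sylow p ↥R) (T : Subgroup G) (hT : T = ((S : Subgroup ↥R).map R.subtype)) (hgen : ∀ W : Subgroup G, H ≤ Subgroup.normalizer (W : Set G) → (V ⊓ Subgroup.centralizer ((T : Subgroup G) : Set G)) ≤ W → V ≤ W) : ⁅V, R⁆ ⊔ (V ⊓ Subgroup.centralizer ((R : Subgroup G) : Set G)) = V := by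
  have hp : p.Prime := Fact.out
  have hRH : R ≤ H := by rw [hR]; exact Subgroup.map_subtype_le _
  have hRV : R ≤ Subgroup.normalizer (V : Set G) := hRH.trans hHV
  have hTR : T ≤ R := by rw [hT]; exact Subgroup.map_subtype_le _
  have hRn : H ≤ Subgroup.normalizer (R : Set G) := by
    rw [Subgroup.le_normalizer_iff]
    intro h hh k hk
    rw [hR] at hk ⊢
    obtain ⟨y, hy, rfl⟩ := hk
    have hn := pResidual_normal p ↥H
    exact ⟨⟨h, hh⟩ * y * ⟨h, hh⟩⁻¹, hn.conj_mem y hy ⟨h, hh⟩, rfl⟩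
  apply le_antisymm
  · apply sup_le _ inf_le_left
    rw [Subgroup.commutator_le]
    intro a ha b hb
    have := hRV hb
    rw [Subgroup.mem_normalizer_iff] at this
    have h1 : b * a⁻¹ * b⁻¹ ∈ V := (this _).1 (V.inv_mem ha)
    have : ⁅a, b⁆ = a * (b * a⁻¹ * b⁻¹) := by
      rw [commutatorElement_def]; group
    rw [this]
    exact V.mul_mem ha h1
  · apply hgen
    · apply le_normalizer_of_cj_le
      intro h hh
      show (⁅V, R⁆ ⊔ (V ⊓ Subgroup.centralizer (R : Set G))).map (MulAut.conj h).toMonoidHom ≤ _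
      rw [Subgroup.map_sup, Subgroup.map_commutator,
        Subgroup.map_inf _ _ _ (MulAut.conj h).injective, map_centralizer]
      have e1 : V.map (MulAut.conj h).toMonoidHom = V := cj_eq_of_mem_normalizer (hHV hh)
      have e2 : R.map (MulAut.conj h).toMonoidHom = R := cj_eq_of_mem_normalizer (hRn hh)
      rw [e1, e2]
    · intro v hv
      have hidx : (T.relIndex R).Coprime p := by
        have h1 : T.subgroupOf R = (S : Subgroup ↥R) := by
          rw [hT]
          ext x
          rw [Subgroup.mem_subgroupOf]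
          constructor
          · rintro ⟨y, hy, hyx⟩
            have : y = x := Subtype.ext hyx
            rwa [← this]
          · intro hx
            exact ⟨x, hx, rfl⟩
        rw [Subgroup.relIndex, h1]
        exact ((Nat.Prime.coprime_iff_not_dvd hp).2 S.not_dvd_index).symm
      exact avg V R T hV.1 hV.2 hRV hTR hidx v hv.1 hv.2

end Cfsg.Agent.S2781
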