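import Cfsg.Statements.S2787
import Cfsg.Agent.Lib.Helper48.QAFinal
import Cfsg.Agent.Lib.Helper2.QARHO

set_option autoImplicit false
open Cfsg

namespace Cfsg.Agent.S2787

/-- Let p be a prime and let H act by conjugation on the elementary abelian p-subgroup V of a finite group, irreducibly (no H-invariant subgroups of V other than 1 and V) and nontrivially, and suppose H/C_H(V) is isomorphic to PSL₂(F) for a field F with p^n elements, p^n odd, or p = 3 and H/C_H(V) is isomorphic to a Ree group ²G₂(3^(2m+1)), m ≥ 1. Then no subgroup A of H acting nontrivially on V acts quadratically: [V, A, A] = 1 forces [V, A] = 1. -/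
theorem result {G : Type*} [Group G] [Finite G] {p : ℕ} [Fact p.Prime] (V H : Subgroup G) (hV : Cfsg.IsElementaryAbelian p V) (hHV : H ≤ Subgroup.normalizer (V : Set G)) (hirr : ∀ U : Subgroup G, U ≤ V → H ≤ Subgroup.normalizer (U : Set G) → U = ⊥ ∨ U = V) (hnt : ¬ H ≤ Subgroup.centralizer (V : Set G)) [hn : ((Subgroup.centralizer (V : Set G)).subgroupOf H).Normal] (hq : (∃ (F : Type) (_ : Field F) (_ : Fintype F) (n : ℕ), Fintype.card F = p ^ n ∧ Odd (Fintype.card F) ∧ Nonempty (↥H ⧸ (Subgroup.centralizer (V : Set G)).subgroupOf H ≃* Matrix.ProjectiveSpecialLinearGroup (Fin 2) F)) ∨ (p = 3 ∧ Cfsg.Lie.IsoRee (↥H ⧸ (Subgroup.centralizer (V : Set G)).subgroupOf H))) (A : Subgroup G) (hA : A ≤ H) (hquad : ⁅⁅V, A⁆, A⁆ = ⊥) : ⁅V, A⁆ = ⊥ := by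
  classical
  open Cfsg.Agent.Lib.Helper48.QA in
  by_contra hne
  obtain ⟨R, _, _, ρ, hpR, hker, hq2⟩ := exists_rho V H hV hHV
  have hex : ∃ a : ↥A, ρ ⟨a.1, hA a.2⟩ ≠ 1 := by
    by_contra hall
    push Not at hall
    apply hne
    rw [Subgroup.commutator_eq_bot_iff_le_centralizer]
    intro v hv
    rw [Subgroup.mem_centralizer_iff]
    intro a ha
    have h1 : (⟨a, hA ha⟩ : ↥H) ∈ ρ.ker := MonoidHom.mem_ker.2 (hall ⟨a, ha⟩)
    rw [hker, Subgroup.mem_subgroupOf, Subgroup.mem_centralizer_iff] at h1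
    exact (h1 v hv).symm
  obtain ⟨a, ha⟩ := hex
  let e₀ : ↥H ⧸ (Subgroup.centralizer (V : Set G)).subgroupOf H ≃* ↥ρ.range :=
    (QuotientGroup.quotientMulEquivOfEq hker.symm).trans (QuotientGroup.quotientKerEquivRange ρ)
  apply ha
  refine abs_main hpR ρ.range ?_ (ρ ⟨a.1, hA a.2⟩) ⟨_, rfl⟩ (hq2 A hA hquad a)
  rcases hq with ⟨F, hFf, hFt, n, hF, hodd, ⟨e⟩⟩ | ⟨hp3, K, hKf, hKt, m, hm, hK, ⟨e⟩⟩
  · exact Or.inl ⟨F, hFf, hFt, n, hF, hodd, ⟨e₀.symm.trans e⟩⟩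
  · exact Or.inr ⟨hp3, K, hKf, hKt, m, hm, hK, ⟨e₀.symm.trans e⟩⟩

end Cfsg.Agent.S2787
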