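import Cfsg.Statements.S2791
import Cfsg.Agent.Lib.Helper55.Fus

set_option autoImplicit false
open Cfsg

namespace Cfsg.Agent.S2791

open Cfsg.Agent.Lib.Helper55
open scoped commutatorElement

/-- Let S be a Sylow p-subgroup of the finite group G and A an abelian subgroup of S that is strongly closed in S with respect to G. Then A controls strong fusion in G: for some Sylow p-subgroup T containing A, whenever a subset of T is conjugated into T by an element of G, the same elementwise conjugation is induced by an element of N_G(A). -/
theorem result {G : Type*} [Group G] [Finite G] {p : ℕ} [Fact p.Prime] (S : Sylow p G) (A : Subgroup G) (hA : IsMulCommutative ↥A) (hsc : Cfsg.IsStronglyClosed A (S : Subgroup G)) : Cfsg.ControlsStrongFusion p A := by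
  have hAc : ∀ a ∈ A, ∀ b ∈ A, a * b = b * a := by
    intro a ha b hb
    have h := hA.is_comm.comm ⟨a, ha⟩ ⟨b, hb⟩
    exact congrArg Subtype.val h
  have key := stronglyClosed_abelian_controls S A hAc hsc
  refine ⟨S, hsc.1, fun B hB => ⟨hB, fun g hg => ?_⟩⟩
  have hle : Subgroup.closure B ≤ S := (Subgroup.closure_le _).mpr hB
  obtain ⟨x, hx, hxe⟩ := key (Subgroup.closure B) hle g (by
    have h1 : Subgroup.closure B ≤ (S : Subgroup G).comap (MulAut.conj g).toMonoidHom := by
      rw [Subgroup.closure_le]
      intro b hb
      exact hg ⟨b, hb, rfl⟩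
    intro b hb
    exact h1 hb)
  exact ⟨x, hx, fun a ha => hxe a (Subgroup.subset_closure ha)⟩

end Cfsg.Agent.S2791
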