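import Cfsg.Statements.S2792
import Cfsg.Agent.Lib.Helper30.WYTate

set_option autoImplicit false
open Cfsg

namespace Cfsg.Agent.S2792

/-- Let S be a Sylow p-subgroup of the finite group G and W a subgroup of S weakly closed in S with respect to G. If S ∩ G' ≠ S ∩ (N_G(W))', then there are x ∈ S, z ∈ W and a maximal subgroup W₀ of W such that the iterated commutator [x, z; p−1] (with [x, z] = x⁻¹z⁻¹xz and [x, z; i+1] = [[x, z; i], z]) lies in W₀ but not in the Frattini subgroup of W₀; in particular [x, z; p−1] ≠ 1. -/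
theorem result {G : Type*} [Group G] [Finite G] {p : ℕ} [Fact p.Prime] (S : Sylow p G) (W : Subgroup G) (hW : Cfsg.IsWeaklyClosed W (S : Subgroup G)) (h : (S : Subgroup G) ⊓ commutator G ≠ (S : Subgroup G) ⊓ ⁅Subgroup.normalizer (W : Set G), Subgroup.normalizer (W : Set G)⁆) : ∃ x ∈ (S : Subgroup G), ∃ z ∈ W, ∃ W₀ : Subgroup ↥W, IsCoatom W₀ ∧ (fun y : G => y⁻¹ * z⁻¹ * y * z)^[p - 1] x ∈ W₀.map W.subtype ∧ (fun y : G => y⁻¹ * z⁻¹ * y * z)^[p - 1] x ∉ ((frattini ↥W₀).map W₀.subtype).map W.subtype := by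
  obtain ⟨u, hu, z, hz, W₀, hidx, -, -, h1, h2⟩ := Cfsg.Agent.Lib.Helper30.wy_focal S hW h
  exact ⟨u, hu, z, hz, W₀,
    Cfsg.Agent.Lib.Helper30.isCoatom_of_index_eq_prime Fact.out W₀ hidx, h1, h2⟩

end Cfsg.Agent.S2792
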