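import Cfsg.Statements.S2807
import Cfsg.Agent.Lib.Helper30.WYTate
import Cfsg.Agent.Lib.Helper30.WreathImage

set_option autoImplicit false
open Cfsg

namespace Cfsg.Agent.S2807

/-- Let S be a Sylow p-subgroup of the finite group G. If S ∩ G' ≠ S ∩ (N_G(S))' (derived subgroups), then the wreath product Z_p ≀ Z_p — realised as a Sylow p-subgroup of the symmetric group of degree p² — is a homomorphic image of S. -/
theorem result {G : Type*} [Group G] [Finite G] {p : ℕ} [Fact p.Prime] (S : Sylow p G) (h : (S : Subgroup G) ⊓ commutator G ≠ (S : Subgroup G) ⊓ ⁅Subgroup.normalizer ((S : Subgroup G) : Set G), Subgroup.normalizer ((S : Subgroup G) : Set G)⁆) : ∃ (P : Sylow p (Equiv.Perm (Fin (p ^ 2)))) (f : ↥(S : Subgroup G) →* ↥(P : Subgroup (Equiv.Perm (Fin (p ^ 2))))), Function.Surjective f := by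
  have hW : Cfsg.IsWeaklyClosed (S : Subgroup G) (S : Subgroup G) := by
    refine ⟨le_rfl, fun g hle => ?_⟩
    apply Subgroup.eq_of_le_of_card_ge hle
    rw [Subgroup.card_map_of_injective (MulAut.conj g).injective]
  obtain ⟨u, hu, z, hz, W₀, hidx, -, huW, helt, hfr⟩ :=
    Cfsg.Agent.Lib.Helper30.wy_focal S hW h
  have hsemi : ∀ (k : ℕ) (s : ↥(S : Subgroup G)),
      (((fun y : ↥(S : Subgroup G) => y⁻¹ * (⟨z, hz⟩ : ↥(S : Subgroup G))⁻¹ * y * ⟨z, hz⟩)^[k] s :
        ↥(S : Subgroup G)) : G) = (fun y : G => y⁻¹ * z⁻¹ * y * z)^[k] (s : G) := by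
    intro k
    induction k with
    | zero => intro s; rfl
    | succ k ih =>
      intro s
      rw [Function.iterate_succ_apply, Function.iterate_succ_apply, ih]
      rfl
  have hu₀ : (⟨u, hu⟩ : ↥(S : Subgroup G)) ∈ W₀ := by
    obtain ⟨y, hy, hyu⟩ := huW hu
    have e : y = ⟨u, hu⟩ := Subtype.ext hyu
    rw [← e]
    exact hy
  apply Cfsg.Agent.Lib.Helper30.exists_wreath_image S.isPGroup' W₀ hidx ⟨z, hz⟩ ⟨u, hu⟩ hu₀
  intro hmem hfrat
  apply hfr
  exact ⟨_, ⟨⟨_, hmem⟩, hfrat, rfl⟩, hsemi (p - 1) ⟨u, hu⟩⟩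

end Cfsg.Agent.S2807
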