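import Mathlib
import Cfsg.Statements.S2945
import Cfsg.Agent.S2944
import Cfsg.Agent.Lib.Helper78.JQCore
import Cfsg.Agent.Lib.Helper78.JQSubn
import Cfsg.Agent.Lib.Helper78.JQTrda
import Cfsg.Agent.Lib.Helper12.JQcntb
import Cfsg.Agent.Lib.Helper2.JQtrdc
import Cfsg.Agent.Lib.Helper30.JQlaba
import Cfsg.Agent.Lib.Helper47.JQtrdb
import Cfsg.Agent.Lib.Helper53.JQsub3
import Cfsg.Agent.Lib.Helper78.JQMaxx
import Cfsg.Agent.Lib.Helper60.JQcnte
import Cfsg.Agent.Lib.Helper67.JQrnk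
import Cfsg.Agent.Lib.Helper74.JQrcw
import Cfsg.Agent.Lib.Helper85.JQind
import Cfsg.Agent.Lib.Helper91.JQlabc

set_option autoImplicit false
open Cfsg

namespace Cfsg.Agent.S2945

/-- The abstract theorem (assembly of the pieces of the JQ project): a largest elementary abelian
2-subgroup normalizes the four-group of a subnormal `J`-component-like subgroup. -/
theorem absAux.{u} : Cfsg.Agent.Lib.Helper78.JQ.AbsStmt.{u} :=
  Cfsg.Agent.Lib.Helper78.JQ.abs_of_pieces (Cfsg.Agent.Lib.Helper67.JQ.rnk.{u})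
    (Cfsg.Agent.Lib.Helper74.JQ.rcw.{u}) (Cfsg.Agent.Lib.Helper53.JQ.sub3.{u})
    (Cfsg.Agent.Lib.Helper30.JQ.laba.{u}) (Cfsg.Agent.Lib.Helper91.JQ.labc.{u})
    (Cfsg.Agent.Lib.Helper85.JQ.ind.{u}) (Cfsg.Agent.Lib.Helper12.JQ.cntb.{u})
    (Cfsg.Agent.Lib.Helper60.JQ.cnte.{u}) (Cfsg.Agent.Lib.Helper57.JN.vw.{u})

/-- Let G be a finite group of characteristic 2 type in which every 2-local subgroup is solvable and the centralizer of Ω₁(Z(S)) lies in N_G(S) for every Sylow 2-subgroup S, and let T be a nontrivial 2-subgroup (below, J is the Thompson subgroup generated by the elementary abelian 2-subgroups of largest order), L a subgroup in which T is a Sylow 2-subgroup with J(T) not contained in O₂(L) and C_G(O₂(L)) ≤ O₂(L), and K ≤ L a subgroup that is subnormal in ⟨K, J(T)⟩. If for some conjugate Tᵍ of T, K is a J(Tᵍ)-component with J(Tᵍ) the Thompson subgroup of every Sylow 2-subgroup of N_G(W_K) containing J(Tᵍ) (W_K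 = [Ω₁(Z(O₂(K))), K]), then K is a J(T)-component. -/
theorem result {G : Type*} [Group G] [Finite G] (hL : Cfsg.IsCharacteristicTwoType G) (hN : ∀ N : Subgroup G, Cfsg.IsTwoLocal N → Group.IsSolvable ↥N)
    (hZ : ∀ S : Sylow 2 G, Subgroup.centralizer (Cfsg.omegaCenterOf (S : Subgroup G) : Set G) ≤ Subgroup.normalizer ((S : Subgroup G) : Set G)) (T : Subgroup G) (hT : IsPGroup 2 ↥T) (hT1 : T ≠ ⊥) (L : Subgroup G) (hLT : L ∈ Cfsg.jOvergroups T)
    (K : Subgroup G) (hKL : K ≤ L) (hKsn : (K.subgroupOf (K ⊔ Cfsg.thompsonSubgroupOf 2 T)).IsSubnormal)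
    (g : G) (hKg : K ∈ Cfsg.jComponentsZero (T.map (MulAut.conj g).toMonoidHom)) : Cfsg.IsJComponent T K := by
  have hT₀ : IsPGroup 2 ↥(T.map (MulAut.conj g).toMonoidHom) := hT.map _
  have hT₀1 : T.map (MulAut.conj g).toMonoidHom ≠ ⊥ := by
    intro h
    exact hT1 ((Subgroup.map_eq_bot_iff_of_injective T (MulEquiv.injective (MulAut.conj g))).mp h)
  have hJ := Cfsg.Agent.Lib.Helper78.JQ.final_of_pieces absAux Cfsg.Agent.Lib.Helper78.JQ.trda
    Cfsg.Agent.Lib.Helper47.JQ.trdb Cfsg.Agent.Lib.Helper2.JQ.trdc Cfsg.Agent.Lib.Helper78.JQ.maxx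
    Cfsg.Agent.Lib.Helper78.JQ.subn T L hLT K hKL hKsn _ hKg.1
  have h := (Cfsg.Agent.S2944.result hL hN hZ _ hT₀ hT₀1 K hKg).2 g⁻¹
    (by rw [Cfsg.Agent.Lib.Helper66.JN.thc_map_map']; exact hJ)
  rwa [Cfsg.Agent.Lib.Helper66.JN.thc_map_map'] at h

end Cfsg.Agent.S2945
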