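import Mathlib
import Cfsg.Statements.S2950
import Cfsg.Agent.Lib.Helper72.JRMain
import Cfsg.Agent.Lib.Helper10.JEA3
import Cfsg.Agent.Lib.Helper29.JRMax
import Cfsg.Agent.Lib.Helper39.JEA4
import Cfsg.Agent.Lib.Helper47.JRFin
import Cfsg.Agent.Lib.Helper6.JEA1
import Cfsg.Agent.Lib.Helper75.JEA2

set_option autoImplicit false
open Cfsg

namespace Cfsg.Agent.S2950

/-- Uniqueness of the maximal 2-local overgroup. Let G be a finite group of characteristic 2 type in which every 2-local subgroup is solvable and the centralizer of Ω₁(Z(S)) lies in N_G(S) for every Sylow 2-subgroup S; suppose O₂(G) = 1, fix a Sylow 2-subgroup S and a 2-local subgroup M containing N_G(J(S)) (J the Thompson subgroup generated by the elementary abelian 2-subgroups of largest order). Let T be maximal (for the order of a largest elementary abelian subgroup, then the order of J(T), then the order of T) among the nontrivial 2-subgroups of M lying in a 2-local subgroup not inside M, and let K be a J(T)-component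 not contained in M with J(T) the Thompson subgroup of every Sylow 2-subgroup of N_G(W_K) containing J(T), and O₂(⟨K, T⟩) ≠ 1. Then there is exactly one maximal 2-local subgroup L of G containing ⟨K, J(T)⟩; moreover K is subnormal in L and T is a Sylow 2-subgroup of L. -/
theorem result {G : Type*} [Group G] [Finite G] (hL : Cfsg.IsCharacteristicTwoType G) (hN : ∀ N : Subgroup G, Cfsg.IsTwoLocal N → Group.IsSolvable ↥N)
    (hZ : ∀ S : Sylow 2 G, Subgroup.centralizer (Cfsg.omegaCenterOf (S : Subgroup G) : Set G) ≤ Subgroup.normalizer ((S : Subgroup G) : Set G)) (hO : Cfsg.pCore 2 G = ⊥) (S : Sylow 2 G) (M : Subgroup G) (hM : Cfsg.IsTwoLocal M)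
    (hMJ : Subgroup.normalizer (Cfsg.thompsonSubgroupOf 2 (S : Subgroup G) : Set G) ≤ M) (T : Subgroup G) (hT : T ∈ Cfsg.maxStraddlingTwoSubgroups M)
    (K : Subgroup G) (hK : K ∈ Cfsg.jComponentsOutside M T) :
    ∃ L : Subgroup G, Cfsg.IsMaximalTwoLocal L ∧ K ⊔ Cfsg.thompsonSubgroupOf 2 T ≤ L ∧
      (∀ L' : Subgroup G, Cfsg.IsMaximalTwoLocal L' → K ⊔ Cfsg.thompsonSubgroupOf 2 T ≤ L' → L' = L) ∧
      (K.subgroupOf L).IsSubnormal ∧ Cfsg.IsSylowTwoIn T L :=
  Cfsg.Agent.Lib.Helper47.JR.fin Cfsg.Agent.Lib.Helper6.JE.a1 Cfsg.Agent.Lib.Helper75.JE.a2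
    Cfsg.Agent.Lib.Helper10.JE.a3 Cfsg.Agent.Lib.Helper39.JE.a4 Cfsg.Agent.Lib.Helper29.JR.maxl
    Cfsg.Agent.Lib.Helper72.JR.s42 Cfsg.Agent.Lib.Helper72.JR.yp0 Cfsg.Agent.Lib.Helper72.JR.uni
    G hL hN hZ hO S M hM hMJ T hT K hK

end Cfsg.Agent.S2950
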