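import Cfsg.Statements.S3084
import Cfsg.Agent.Lib.Helper59.CLAsm

set_option autoImplicit false
open Cfsg

namespace Cfsg.Agent.S3084

/-- Let K be a group acting faithfully and linearly on a finite-dimensional vector space U of dimension 2n ≥ 2 over the field with two elements, preserving a quadratic form q whose polar bilinear form is non-degenerate and which vanishes on some n-dimensional subspace (a non-singular form of plus type). Then there is a finite group R with a normal extraspecial 2-subgroup Q of order 2^(2n+1), an isomorphism of R/Q with K, and a surjective homomorphism χ from Q onto (the additive group of) U with kernel the centre of Q, such that χ carries conjugation by any r in R to the action of the image of r in K, and an element a of Q squares to the identity exactly when q vanishes at χ(a). -/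
theorem result {K : Type*} [Group K] {U : Type*} [AddCommGroup U] [Module (ZMod 2) U] [Module.Finite (ZMod 2) U] (n : ℕ) (hn1 : 1 ≤ n) (hn : Module.finrank (ZMod 2) U = 2 * n) (ρ : Representation (ZMod 2) K U) (hρ : Function.Injective ρ) (q : QuadraticForm (ZMod 2) U) (hq : ∀ (k : K) (u : U), q (ρ k u) = q u) (hnd : (QuadraticMap.polarBilin q).Nondegenerate) (hplus : ∃ W : Submodule (ZMod 2) U, Module.finrank (ZMod 2) ↥W = n ∧ ∀ w ∈ W, q w = 0) : ∃ (R : Type) (_ : Group R) (_ : Finite R) (Q : Subgroup R) (hN : Q.Normal) (e : R ⧸ Q ≃* K) (χ : ↥Q →* Multiplicative U), Cfsg.IsExtraspecial 2 ↥Q ∧ Nat.card ↥Q = 2 ^ (2 * n + 1) ∧ Function.Surjective χ ∧ χ.ker = Subgroup.center ↥Q ∧ (∀ (r : R) (a : ↥Q), χ ⟨r * a * r⁻¹, hN.conj_mem (a : R) a.2 r⟩ = Multiplicative.ofAdd (ρ (e (r : R ⧸ Q)) (Multiplicative.toAdd (χ a)))) ∧ ∀ a : ↥Q, a * a = 1 ↔ q (Multiplicative.toAdd (χ a)) = 0 := by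
  exact Cfsg.Agent.Lib.Helper59.CL.main n hn1 hn ρ hρ q hq hnd

end Cfsg.Agent.S3084
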