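import Cfsg.Statements.S3103
import Mathlib
import Cfsg.Agent.Lib.Helper60.GL4A8
import Cfsg.Agent.Lib.Helper60.FrattAut

set_option autoImplicit false
open Cfsg

namespace Cfsg.Agent.S3103

/-- Let X be a finite 2-constrained group with no nontrivial normal subgroup of odd order such that O₂(X) has sectional 2-rank at most 4. Then X/O₂(X) is isomorphic to a subgroup of the alternating group of degree 8. -/
theorem result {X : Type*} [Group X] [Finite X] (hc : Cfsg.IsPConstrained 2 X) (hO : Cfsg.oddCore X = ⊥)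
    (h4 : Cfsg.SectionalPRankLE 2 4 ↥(Cfsg.pCore 2 X)) :
    ∃ f : X ⧸ Cfsg.pCore 2 X →* ↥(alternatingGroup (Fin 8)), Function.Injective f := by
  haveI : Fact (Nat.Prime 2) := ⟨Nat.prime_two⟩
  obtain ⟨f₁, hf₁⟩ := Lib.Helper60.exists_quot_pCore_to_aut_frattini 2 hc hO
  have hQ : IsPGroup 2 ↥(pCore 2 X) := Lib.Helper41.pCore_isPGroup 2
  have hcard := Lib.Helper60.card_quot_frattini_le hQ 4 h4
  have h2 : ∀ v : ↥(pCore 2 X) ⧸ frattini ↥(pCore 2 X), v * v = 1 := by
    intro v
    induction v using QuotientGroup.induction_on with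
    | H q =>
      rw [← QuotientGroup.mk_mul, QuotientGroup.eq_one_iff]
      exact Lib.Helper94.sq_mem_frattini hQ q
  obtain ⟨f₂, hf₂⟩ := Lib.Helper60.exists_mulAut_to_GL _ h2 4 hcard
  obtain ⟨f₃, hf₃⟩ := Lib.Helper60.exists_GL4_to_A8
  exact ⟨f₃.comp (f₂.comp f₁), hf₃.comp (hf₂.comp hf₁)⟩

end Cfsg.Agent.S3103
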