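import Cfsg.Statements.S3356
import Mathlib

set_option autoImplicit false
open Cfsg

namespace Cfsg.Agent.S3356

open MulAction
open scoped Pointwise

lemma dvd_card_of_dvd_index {L X : Type*} [Group L] [MulAction L X] [Finite X] (t : ℕ)
    (h : ∀ y : X, t ∣ (stabilizer L y).index) : t ∣ Nat.card X := by
  classical
  haveI : Fintype (orbitRel.Quotient L X) := Fintype.ofFinite _
  rw [Nat.card_congr (selfEquivSigmaOrbits L X), Nat.card_sigma]
  apply Finset.dvd_sum
  intro ω _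
  have h1 := h (Quotient.out ω)
  rw [index_stabilizer] at h1
  rwa [Nat.card_coe_set_eq]

section
variable {G Ω : Type*} [Group G] [Finite G] [MulAction G Ω] [Finite Ω]

lemma stab_sub (L : Subgroup G) (y : Ω) :
    stabilizer L y = (stabilizer G y).subgroupOf L := by
  ext g
  simp [mem_stabilizer_iff, Subgroup.mem_subgroupOf, Subgroup.smul_def]

lemma core (a : Ω) (s : ℕ)
    (hs : ∀ b : Ω, b ≠ a → (stabilizer G b).relIndex (stabilizer G a) = s)
    (Y : Set Ω) (haY : a ∉ Y)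
    (hY : ∀ y ∈ Y, ∀ h ∈ stabilizer G a, h • y = y → ∀ y' ∈ Y, h • y' ∈ Y)
    (hcop : Nat.Coprime (Nat.card Y) s) :
    ∀ y ∈ Y, ∀ h ∈ stabilizer G a, h • y = y → ∀ y' ∈ Y, h • y' = y' := by
  classical
  obtain ⟨H, hH⟩ : ∃ H : Subgroup G, H = stabilizer G a := ⟨_, rfl⟩
  rw [← hH] at hs hY ⊢
  obtain ⟨L, hL⟩ : ∃ L : Subgroup G, L = H ⊓ stabilizer G Y := ⟨_, rfl⟩
  have hLH : L ≤ H := hL ▸ inf_le_left
  have hLY : L ≤ stabilizer G Y := hL ▸ inf_le_right
  have hKL : ∀ y ∈ Y, H ⊓ stabilizer G y ≤ L := by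
    intro y hy h hh
    rw [hL]
    refine ⟨hh.1, ?_⟩
    show h ∈ stabilizer G Y
    rw [mem_stabilizer_set_iff_smul_set_subset (Set.toFinite Y)]
    rintro _ ⟨y', hy', rfl⟩
    exact hY y hy h hh.1 hh.2 y' hy'
  let p : SubMulAction L Ω :=
    { carrier := Y
      smul_mem' := by
        intro g y hy
        have hg : (g : G) ∈ stabilizer G Y := hLY g.2
        have : (g : G) • Y = Y := hg
        rw [← this]
        exact Set.smul_mem_smul_set hy }
  have hrel : ∀ y ∈ Y, (stabilizer G y).relIndex L * L.relIndex H = s := by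
    intro y hy
    have hya : y ≠ a := fun h => haY (h ▸ hy)
    have h1 := Subgroup.relIndex_mul_relIndex (H ⊓ stabilizer G y) L H (hKL y hy) hLH
    rw [Subgroup.inf_relIndex_left, hs y hya] at h1
    rw [← h1]
    congr 1
    rw [← Subgroup.inf_relIndex_right (stabilizer G y) L, ← Subgroup.inf_relIndex_right (H ⊓ stabilizer G y) L]
    congr 1
    rw [inf_comm H, inf_assoc, inf_eq_right.mpr hLH]
  have hLne : L.relIndex H ≠ 0 := by
    intro h0
    have := Subgroup.relIndex_dvd_card L H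
    rw [h0, zero_dvd_iff] at this
    exact Nat.card_pos.ne' this
  intro y hy h hh hfix y' hy'
  have ht : ∀ z ∈ Y, (stabilizer G z).relIndex L = (stabilizer G y).relIndex L := by
    intro z hz
    have h1 := hrel z hz
    have h2 := hrel y hy
    exact Nat.eq_of_mul_eq_mul_right (Nat.pos_of_ne_zero hLne) (h1.trans h2.symm)
  have hdvd : (stabilizer G y).relIndex L ∣ Nat.card Y := by
    have : (stabilizer G y).relIndex L ∣ Nat.card p := by
      apply dvd_card_of_dvd_index (L := L)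
      intro z
      rw [SubMulAction.stabilizer_of_subMul, stab_sub]
      exact dvd_of_eq (ht z.1 z.2).symm
    exact this
  have hdvd2 : (stabilizer G y).relIndex L ∣ s := Dvd.intro _ (hrel y hy)
  have h1 : (stabilizer G y).relIndex L = 1 := Nat.eq_one_of_dvd_coprimes hcop hdvd hdvd2
  have h1' : (stabilizer G y').relIndex L = 1 := (ht y' hy').trans h1
  rw [Subgroup.relIndex_eq_one] at h1'
  exact h1' (hKL y hy ⟨hh, hfix⟩)


lemma card_range_of_coset {N' β : Type*} [Group N'] (S : Subgroup N') (f : N' → β)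
    (hf : ∀ n m, f n = f m ↔ n⁻¹ * m ∈ S) : Nat.card (Set.range f) = S.index := by
  let F : N' ⧸ S → Set.range f := fun q =>
    Quotient.liftOn' q (fun n => (⟨f n, n, rfl⟩ : Set.range f)) (by
      intro n m h
      rw [QuotientGroup.leftRel_apply] at h
      exact Subtype.ext ((hf n m).mpr h))
  have hbij : Function.Bijective F := by
    constructor
    · intro q1 q2
      induction q1 using Quotient.inductionOn' with | _ n => ?_
      induction q2 using Quotient.inductionOn' with | _ m => ?_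
      intro h
      have : f n = f m := congrArg Subtype.val h
      exact Quotient.sound' (QuotientGroup.leftRel_apply.mpr ((hf n m).mp this))
    · rintro ⟨_, n, rfl⟩
      exact ⟨Quotient.mk'' n, rfl⟩
  rw [Subgroup.index, ← Nat.card_congr (Equiv.ofBijective F hbij)]

end

theorem result {G Ω : Type*} [Group G] [Finite G]
    [MulAction G Ω] [FaithfulSMul G Ω] [Finite Ω] (htrans : MulAction.IsPretransitive G Ω)
    (hne : ∀ a : Ω, MulAction.stabilizer G a ≠ ⊥)
    (hhalf : ∀ a b c : Ω, b ≠ a → c ≠ a →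
      Nat.card (MulAction.orbit (MulAction.stabilizer G a) b) = Nat.card (MulAction.orbit (MulAction.stabilizer G a) c))
    (N : Subgroup G) [hN : N.Normal] (hNt : MulAction.IsPretransitive N Ω) (hNr : ∀ a : Ω, MulAction.stabilizer N a = ⊥)
    (hnotF : ∃ a b : Ω, a ≠ b ∧ MulAction.stabilizer G a ⊓ MulAction.stabilizer G b ≠ ⊥) :
    (∃ p : ℕ, p.Prime ∧ IsMulCommutative N ∧ ∀ x ∈ N, x ^ p = 1) ∧
    (∀ M : Subgroup G, M.Normal → M ≠ ⊥ → N ≤ M) := by
  classical
  obtain ⟨a, b₀, hab, hK0⟩ := hnotF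
  obtain ⟨H, hH⟩ : ∃ H : Subgroup G, H = stabilizer G a := ⟨_, rfl⟩
  have hHmem : ∀ h : G, h ∈ H ↔ h • a = a := by intro h; rw [hH]; exact mem_stabilizer_iff
  have hreg : ∀ n ∈ N, n • a = a → n = 1 := by
    intro n hn h
    have h1 : (⟨n, hn⟩ : N) ∈ stabilizer N a := by
      rw [mem_stabilizer_iff]; exact h
    rw [hNr a, Subgroup.mem_bot] at h1
    exact congrArg Subtype.val h1
  have hinj : ∀ n ∈ N, ∀ n' ∈ N, n • a = n' • a → n = n' := by
    intro n hn n' hn' h
    have h1 : (n'⁻¹ * n) • a = a := by rw [mul_smul, h, inv_smul_smul]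
    have h2 := hreg _ (N.mul_mem (N.inv_mem hn') hn) h1
    exact (inv_mul_eq_one.mp h2).symm
  have hsurj : ∀ c : Ω, ∃ n ∈ N, n • a = c := by
    intro c
    obtain ⟨n, hn⟩ := MulAction.exists_smul_eq N a c
    exact ⟨n.1, n.2, hn⟩
  have hconj : ∀ h ∈ H, ∀ x : G, h • (x • a) = (h * x * h⁻¹) • a := by
    intro h hh x
    have h1 : h⁻¹ • a = a := by rw [inv_smul_eq_iff]; exact ((hHmem h).mp hh).symm
    rw [mul_smul, mul_smul, h1]
  have hfix : ∀ h ∈ H, ∀ x ∈ N, (h • (x • a) = x • a ↔ h * x = x * h) := by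
    intro h hh x hx
    rw [hconj h hh x]
    constructor
    · intro e
      have h1 := hinj _ (hN.conj_mem x hx h) x hx e
      rw [mul_inv_eq_iff_eq_mul] at h1
      exact h1
    · intro e
      rw [e, mul_inv_cancel_right]
  have hne1 : ∀ x ∈ N, x ≠ 1 → x • a ≠ a := fun x hx h1 h2 => h1 (hreg x hx h2)
  have hfaith : ∀ h ∈ H, (∀ n ∈ N, h * n = n * h) → h = 1 := by
    intro h hh hc
    apply FaithfulSMul.eq_of_smul_eq_smul (α := Ω)
    intro c
    obtain ⟨n, hn, rfl⟩ := hsurj c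
    rw [one_smul]
    exact (hfix h hh n hn).mpr (hc n hn)
  obtain ⟨s, hsdef⟩ : ∃ s : ℕ, s = (stabilizer G b₀).relIndex H := ⟨_, rfl⟩
  have horb : ∀ (L : Subgroup G) (y : Ω), Nat.card (orbit L y) = (stabilizer G y).relIndex L := by
    intro L y
    rw [Nat.card_coe_set_eq, ← index_stabilizer, stab_sub]; rfl
  have hs : ∀ b : Ω, b ≠ a → (stabilizer G b).relIndex H = s := by
    intro b hb
    rw [hsdef, ← horb, ← horb]
    subst hH
    exact hhalf a b b₀ hb (Ne.symm hab)
  have hs' : ∀ b : Ω, b ≠ a → (stabilizer G b).relIndex (stabilizer G a) = s := by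
    rw [← hH]; exact hs
  have hcopΩ : Nat.Coprime (Nat.card Ω) s := by
    have h1 : s ∣ Nat.card (SubMulAction.ofStabilizer G a) := by
      apply dvd_card_of_dvd_index (L := stabilizer G a)
      intro y
      rw [SubMulAction.stabilizer_of_subMul, stab_sub]
      have hy : (y : Ω) ≠ a := (SubMulAction.mem_ofStabilizer_iff G a).mp y.2
      exact dvd_of_eq (hs' y hy).symm
    have h2 := SubMulAction.nat_card_ofStabilizer_add_one_eq G a
    obtain ⟨j, hj⟩ := h1
    rw [← h2, hj, Nat.coprime_comm]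
    simp
  have hcardN : Nat.card N = Nat.card Ω := by
    have := MulAction.index_stabilizer_of_transitive N a
    rw [hNr a, Subgroup.index_bot] at this
    exact this
  have hKcard : ∀ b : Ω, b ≠ a → Nat.card (H ⊓ stabilizer G b : Subgroup G) * s = Nat.card H := by
    intro b hb
    have h1 := Subgroup.relIndex_mul_relIndex ⊥ (H ⊓ stabilizer G b) H bot_le inf_le_left
    rw [Subgroup.relIndex_bot_left, Subgroup.relIndex_bot_left, Subgroup.inf_relIndex_left, hs b hb] at h1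
    exact h1
  have hspos : 0 < s := by
    rcases Nat.eq_zero_or_pos s with h0 | h0
    · have := hKcard b₀ (Ne.symm hab)
      rw [h0, mul_zero] at this
      exact absurd this.symm Nat.card_pos.ne'
    · exact h0
  have hKeq : ∀ b c : Ω, b ≠ a → c ≠ a → H ⊓ stabilizer G b ≤ H ⊓ stabilizer G c →
      H ⊓ stabilizer G b = H ⊓ stabilizer G c := by
    intro b c hb hc hle
    apply Subgroup.eq_of_le_of_card_ge hle
    have h1 := hKcard b hb
    have h2 := hKcard c hc
    have : Nat.card (H ⊓ stabilizer G c : Subgroup G) = Nat.card (H ⊓ stabilizer G b : Subgroup G) :=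
      Nat.eq_of_mul_eq_mul_right hspos (h2.trans h1.symm)
    exact this.le
  have hE1 : ∀ x ∈ N, x ≠ 1 → ∀ y ∈ N, y ≠ 1 → (∀ h ∈ H, h * x = x * h → h * y = y * h) →
      ∀ h ∈ H, h * y = y * h → h * x = x * h := by
    intro x hx hx1 y hy hy1 hxy h hh hhy
    have hle : H ⊓ stabilizer G (x • a) ≤ H ⊓ stabilizer G (y • a) := by
      intro g hg
      refine ⟨hg.1, ?_⟩
      show g • (y • a) = y • a
      exact (hfix g hg.1 y hy).mpr (hxy g hg.1 ((hfix g hg.1 x hx).mp hg.2))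
    have heq := hKeq _ _ (hne1 x hx hx1) (hne1 y hy hy1) hle
    have hmem : h ∈ H ⊓ stabilizer G (y • a) := ⟨hh, (hfix h hh y hy).mpr hhy⟩
    rw [← heq] at hmem
    exact (hfix h hh x hx).mp hmem.2
  have hE2 : ∀ x ∈ N, x ≠ 1 → ∃ h ∈ H, h ≠ 1 ∧ h * x = x * h := by
    intro x hx hx1
    have h1 := hKcard (x • a) (hne1 x hx hx1)
    have h2 := hKcard b₀ (Ne.symm hab)
    have h3 : Nat.card (H ⊓ stabilizer G (x • a) : Subgroup G) = Nat.card (H ⊓ stabilizer G b₀ : Subgroup G) :=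
      Nat.eq_of_mul_eq_mul_right hspos (h1.trans h2.symm)
    have h4 : (H ⊓ stabilizer G (x • a) : Subgroup G) ≠ ⊥ := by
      intro hbot
      rw [hbot, Subgroup.card_bot] at h3
      have h5 : (H ⊓ stabilizer G b₀ : Subgroup G) = ⊥ := Subgroup.card_eq_one.mp h3.symm
      rw [hH] at h5
      exact hK0 h5
    rw [Ne, Subgroup.eq_bot_iff_forall] at h4
    push_neg at h4
    obtain ⟨h, hh, hh1⟩ := h4
    exact ⟨h, hh.1, hh1, (hfix h hh.1 x hx).mp hh.2⟩
  have hU1 : ∀ x ∈ N, x ≠ 1 → ∀ n ∈ N, ∀ h ∈ H, h * x = x * h →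
      h * (n * x * n⁻¹) = (n * x * n⁻¹) * h := by
    intro x hx hx1 n hn h hh hhx
    let f : N → Ω := fun m => ((m : G) * x * (m : G)⁻¹) • a
    have hYcard : Nat.card (Set.range f) ∣ Nat.card Ω := by
      have h1 := card_range_of_coset (Subgroup.centralizer {(⟨x, hx⟩ : N)}) f (by
        intro m m'
        constructor
        · intro e
          have e' := hinj _ (hN.conj_mem x hx m) _ (hN.conj_mem x hx m') e
          rw [Subgroup.mem_centralizer_iff]
          intro z hz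
          rw [Set.mem_singleton_iff] at hz
          subst hz
          apply Subtype.ext
          simp only [Subgroup.coe_mul, Subgroup.coe_inv]
          have e2 : x * ((m : G)⁻¹ * m') = (m : G)⁻¹ * (m * x * (m : G)⁻¹) * m' := by group
          rw [e2, e']; group
        · intro hmem
          rw [Subgroup.mem_centralizer_iff] at hmem
          have h2 := congrArg Subtype.val (hmem ⟨x, hx⟩ rfl)
          simp only [Subgroup.coe_mul, Subgroup.coe_inv] at h2
          show ((m : G) * x * (m : G)⁻¹) • a = ((m' : G) * x * (m' : G)⁻¹) • a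
          congr 1
          have e3 : (m' : G) * x * (m' : G)⁻¹ = m * (((m : G)⁻¹ * m') * x) * (m' : G)⁻¹ := by group
          rw [e3, ← h2]; group)
      rw [h1, ← hcardN]
      exact Subgroup.index_dvd_card _
    have haY : a ∉ Set.range f := by
      rintro ⟨m, hm⟩
      have h1 := hreg _ (hN.conj_mem x hx m) hm
      exact hx1 (conj_eq_one_iff.mp h1)
    have hY : ∀ y ∈ Set.range f, ∀ g ∈ stabilizer G a, g • y = y → ∀ y' ∈ Set.range f, g • y' ∈ Set.range f := by
      rintro _ ⟨n₁, rfl⟩ g hg hgfix _ ⟨m, rfl⟩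
      have hgH : g ∈ H := by rw [hH]; exact hg
      have hc : g * ((n₁ : G) * x * (n₁ : G)⁻¹) = ((n₁ : G) * x * (n₁ : G)⁻¹) * g :=
        (hfix g hgH _ (hN.conj_mem x hx n₁)).mp hgfix
      have key : g⁻¹ * ((n₁ : G) * x * (n₁ : G)⁻¹) * g = (n₁ : G) * x * (n₁ : G)⁻¹ := by
        rw [mul_assoc, ← hc, inv_mul_cancel_left]
      refine ⟨⟨(g * ((m : G) * (n₁ : G)⁻¹) * g⁻¹) * n₁, ?_⟩, ?_⟩
      · exact N.mul_mem (hN.conj_mem _ (N.mul_mem m.2 (N.inv_mem n₁.2)) g) n₁.2
      · show (((g * ((m : G) * (n₁ : G)⁻¹) * g⁻¹) * n₁) * x * ((g * ((m : G) * (n₁ : G)⁻¹) * g⁻¹) * n₁)⁻¹) • a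
            = g • (((m : G) * x * (m : G)⁻¹) • a)
        rw [hconj g hgH]
        congr 1
        have e1 : ((g * ((m : G) * (n₁ : G)⁻¹) * g⁻¹) * n₁) * x * ((g * ((m : G) * (n₁ : G)⁻¹) * g⁻¹) * n₁)⁻¹
            = g * m * (n₁ : G)⁻¹ * (g⁻¹ * ((n₁ : G) * x * (n₁ : G)⁻¹) * g) * n₁ * (m : G)⁻¹ * g⁻¹ := by group
        rw [e1, key]; group
    have hcore := core a s hs' (Set.range f) haY hY (Nat.Coprime.coprime_dvd_left hYcard hcopΩ)
    have h1 : h • (f 1) = f 1 := by
      show h • (((1 : N) : G) * x * ((1 : N) : G)⁻¹) • a = (((1 : N) : G) * x * ((1 : N) : G)⁻¹) • a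
      simp only [OneMemClass.coe_one, one_mul, inv_one, mul_one]
      exact (hfix h hh x hx).mpr hhx
    have h2 := hcore (f 1) ⟨1, rfl⟩ h (by rw [← hH]; exact hh) h1 (f ⟨n, hn⟩) ⟨⟨n, hn⟩, rfl⟩
    exact (hfix h hh _ (hN.conj_mem x hx n)).mp h2
  have hP1 : ∀ u ∈ N, ∀ v ∈ N, u ≠ 1 → v ≠ 1 → u * v ≠ v * u →
      ∀ h ∈ H, h * u = u * h → h * v = v * h := by
    intro u hu v hv hu1 hv1 hne h hh hhu
    have hwN : u * v * u⁻¹ * v⁻¹ ∈ N := N.mul_mem (N.mul_mem (N.mul_mem hu hv) (N.inv_mem hu)) (N.inv_mem hv)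
    have hw1 : u * v * u⁻¹ * v⁻¹ ≠ 1 := by
      intro e
      apply hne
      have : u * v = (u * v * u⁻¹ * v⁻¹) * (v * u) := by group
      rw [this, e, one_mul]
    have h1 : h * (v * u * v⁻¹) = (v * u * v⁻¹) * h := hU1 u hu hu1 v hv h hh hhu
    have h2 : h * (u * v * u⁻¹ * v⁻¹) = (u * v * u⁻¹ * v⁻¹) * h := by
      have e : u * v * u⁻¹ * v⁻¹ = u * (v * u * v⁻¹)⁻¹ := by group
      rw [e]
      exact Commute.mul_right hhu (Commute.inv_right h1)
    have h3 : ∀ g ∈ H, g * v = v * g → g * (u * v * u⁻¹ * v⁻¹) = (u * v * u⁻¹ * v⁻¹) * g := by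
      intro g hg hgv
      have h4 := hU1 v hv hv1 u hu g hg hgv
      exact Commute.mul_right h4 (Commute.inv_right hgv)
    exact hE1 v hv hv1 _ hwN hw1 h3 h hh h2
  have hab' : ∀ u ∈ N, ∀ v ∈ N, u * v = v * u := by
    intro u hu v hv
    by_contra hne
    have hu1 : u ≠ 1 := by rintro rfl; simp at hne
    have hv1 : v ≠ 1 := by rintro rfl; simp at hne
    have huv := hP1 u hu v hv hu1 hv1 hne
    obtain ⟨h, hh, hh1, hhu⟩ := hE2 u hu hu1
    have hex : ∃ w ∈ N, h * w ≠ w * h := by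
      by_contra hcon
      push_neg at hcon
      exact hh1 (hfaith h hh hcon)
    obtain ⟨w, hw, hhw⟩ := hex
    have hw1 : w ≠ 1 := by rintro rfl; simp at hhw
    have huw : u * w = w * u := by
      by_contra hne2
      exact hhw (hP1 u hu w hw hu1 hw1 hne2 h hh hhu)
    have hhv : h * v = v * h := huv h hh hhu
    have hvw1 : v * w ≠ 1 := by
      intro e
      have e2 : w = v⁻¹ := eq_inv_of_mul_eq_one_right e
      apply hhw
      rw [e2]
      exact Commute.inv_right hhv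
    have hhvw : h * (v * w) ≠ (v * w) * h := by
      intro e
      apply hhw
      have e2 : Commute h (v⁻¹ * (v * w)) := Commute.mul_right (Commute.inv_right hhv) e
      rw [inv_mul_cancel_left] at e2
      exact e2
    have huvw : u * (v * w) = (v * w) * u := by
      by_contra hne2
      exact hhvw (hP1 u hu (v * w) (N.mul_mem hv hw) hu1 hvw1 hne2 h hh hhu)
    apply hne
    have e3 : u * v * w = v * u * w := by
      calc u * v * w = u * (v * w) := mul_assoc _ _ _
        _ = v * w * u := huvw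
        _ = v * (w * u) := mul_assoc _ _ _
        _ = v * (u * w) := by rw [huw]
        _ = v * u * w := (mul_assoc _ _ _).symm
    exact mul_right_cancel e3
  have hirr : ∀ N₀ : Subgroup G, N₀ ≤ N → (∀ h ∈ H, ∀ w ∈ N₀, h * w * h⁻¹ ∈ N₀) →
      N₀ = ⊥ ∨ N₀ = N := by
    intro N₀ hle hinv
    by_contra hcon
    push_neg at hcon
    obtain ⟨hbot, hneN⟩ := hcon
    obtain ⟨w₀, hw₀, hw₀1⟩ : ∃ w ∈ N₀, w ≠ 1 := by
      by_contra h; push_neg at h; exact hbot ((Subgroup.eq_bot_iff_forall _).mpr h)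
    obtain ⟨x₀, hx₀, hx₀N⟩ : ∃ x ∈ N, x ∉ N₀ := by
      by_contra h; push_neg at h; exact hneN (le_antisymm hle h)
    have hA : ∀ x ∈ N, x ∉ N₀ → ∀ w ∈ N₀, ∀ h ∈ H, h * x = x * h → h * w = w * h := by
      intro x hx hxN w hw h hh hhx
      let f : N₀ → Ω := fun v => ((v : G) * x) • a
      have hfinj : Function.Injective f := by
        intro v v' e
        have := hinj _ (N.mul_mem (hle v.2) hx) _ (N.mul_mem (hle v'.2) hx) e
        exact Subtype.ext (mul_right_cancel this)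
      have hYcard : Nat.card (Set.range f) ∣ Nat.card Ω := by
        rw [Nat.card_range_of_injective hfinj, ← hcardN]
        exact Subgroup.card_dvd_of_le hle
      have haY : a ∉ Set.range f := by
        rintro ⟨v, hv⟩
        have h1 := hreg _ (N.mul_mem (hle v.2) hx) hv
        apply hxN
        have h2 : x = (v : G)⁻¹ := eq_inv_of_mul_eq_one_right h1
        rw [h2]; exact N₀.inv_mem v.2
      have hY : ∀ y ∈ Set.range f, ∀ g ∈ stabilizer G a, g • y = y →
          ∀ y' ∈ Set.range f, g • y' ∈ Set.range f := by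
        rintro _ ⟨v₁, rfl⟩ g hg hgfix _ ⟨v, rfl⟩
        have hgH : g ∈ H := by rw [hH]; exact hg
        have hc : g * ((v₁ : G) * x) = ((v₁ : G) * x) * g :=
          (hfix g hgH _ (N.mul_mem (hle v₁.2) hx)).mp hgfix
        have key : g * ((v₁ : G) * x) * g⁻¹ = (v₁ : G) * x := by rw [hc, mul_inv_cancel_right]
        refine ⟨⟨(g * v * g⁻¹) * (g * (v₁ : G)⁻¹ * g⁻¹) * v₁, ?_⟩, ?_⟩
        · exact N₀.mul_mem (N₀.mul_mem (hinv g hgH v v.2) (hinv g hgH _ (N₀.inv_mem v₁.2))) v₁.2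
        · show ((g * v * g⁻¹) * (g * (v₁ : G)⁻¹ * g⁻¹) * v₁ * x) • a = g • (((v : G) * x) • a)
          rw [hconj g hgH]
          congr 1
          have e1 : g * ((v : G) * x) * g⁻¹
              = (g * v * g⁻¹) * (g * (v₁ : G)⁻¹ * g⁻¹) * (g * ((v₁ : G) * x) * g⁻¹) := by group
          rw [e1, key]; group
      have hcore := core a s hs' (Set.range f) haY hY (Nat.Coprime.coprime_dvd_left hYcard hcopΩ)
      have h1 : h • (f 1) = f 1 := by
        show h • (((1 : N₀) : G) * x) • a = (((1 : N₀) : G) * x) • a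
        simp only [OneMemClass.coe_one, one_mul]
        exact (hfix h hh x hx).mpr hhx
      have h2 := hcore (f 1) ⟨1, rfl⟩ h (by rw [← hH]; exact hh) h1 (f ⟨w, hw⟩) ⟨⟨w, hw⟩, rfl⟩
      have h3 : h * (w * x) = (w * x) * h := (hfix h hh (w * x) (N.mul_mem (hle hw) hx)).mp h2
      have h4 : Commute h (w * x * x⁻¹) := Commute.mul_right h3 (Commute.inv_right hhx)
      rw [mul_inv_cancel_right] at h4
      exact h4
    have hx₀1 : x₀ ≠ 1 := by rintro rfl; exact hx₀N N₀.one_mem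
    obtain ⟨h, hh, hh1, hhw⟩ := hE2 w₀ (hle hw₀) hw₀1
    apply hh1
    apply hfaith h hh
    intro n hn
    have hhx₀ : h * x₀ = x₀ * h :=
      hE1 x₀ hx₀ hx₀1 w₀ (hle hw₀) hw₀1 (fun g hg hgx => hA x₀ hx₀ hx₀N w₀ hw₀ g hg hgx) h hh hhw
    by_cases hnN : n ∈ N₀
    · exact hA x₀ hx₀ hx₀N n hnN h hh hhx₀
    · have hn1 : n ≠ 1 := by rintro rfl; exact hnN N₀.one_mem
      exact hE1 n hn hn1 w₀ (hle hw₀) hw₀1 (fun g hg hgn => hA n hn hnN w₀ hw₀ g hg hgn) h hh hhw
  have hNcard : 1 < Nat.card N := by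
    rw [hcardN]
    exact Finite.one_lt_card_iff_nontrivial.mpr ⟨⟨a, b₀, hab⟩⟩
  obtain ⟨p, hp, hpd⟩ := Nat.exists_prime_and_dvd (Nat.ne_of_gt hNcard)
  haveI := Fact.mk hp
  obtain ⟨x₁, hx₁⟩ := exists_prime_orderOf_dvd_card' (G := N) p hpd
  let N₀ : Subgroup G :=
    { carrier := {x | x ∈ N ∧ x ^ p = 1}
      mul_mem' := by
        rintro x y ⟨hx, hxp⟩ ⟨hy, hyp⟩
        refine ⟨N.mul_mem hx hy, ?_⟩
        rw [(show Commute x y from hab' x hx y hy).mul_pow, hxp, hyp, one_mul]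
      one_mem' := ⟨N.one_mem, one_pow p⟩
      inv_mem' := by
        rintro x ⟨hx, hxp⟩
        exact ⟨N.inv_mem hx, by rw [inv_pow, hxp, inv_one]⟩ }
  have hN₀ : N₀ = ⊥ ∨ N₀ = N := hirr N₀ (fun x hx => hx.1) (by
    rintro h hh w ⟨hw, hwp⟩
    refine ⟨hN.conj_mem w hw h, ?_⟩
    rw [conj_pow, hwp, mul_one, mul_inv_cancel])
  have hN₀N : N₀ = N := by
    rcases hN₀ with h0 | h0
    · exfalso
      have h1 : (x₁ : G) ∈ N₀ := by
        refine ⟨x₁.2, ?_⟩
        rw [← Subgroup.coe_pow, ← hx₁, pow_orderOf_eq_one]; rfl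
      rw [h0, Subgroup.mem_bot] at h1
      have h2 : x₁ = 1 := Subtype.ext h1
      rw [h2, orderOf_one] at hx₁
      exact hp.one_lt.ne hx₁
    · exact h0
  refine ⟨⟨p, hp, ?_, ?_⟩, ?_⟩
  · exact ⟨⟨fun u v => Subtype.ext (hab' u.1 u.2 v.1 v.2)⟩⟩
  · intro x hx
    have h1 : x ∈ N₀ := by rw [hN₀N]; exact hx
    exact h1.2
  · intro M hM hMbot
    rcases hirr (M ⊓ N) inf_le_right (by
      rintro h hh w ⟨hwM, hwN⟩
      exact ⟨hM.conj_mem w hwM h, hN.conj_mem w hwN h⟩) with h0 | h0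
    · exfalso
      apply hMbot
      rw [Subgroup.eq_bot_iff_forall]
      intro g hg
      obtain ⟨n, hn, hna⟩ := hsurj (g • a)
      have hcomm : ∀ m ∈ N, g * m = m * g := fun m hm =>
        Subgroup.commute_of_normal_of_disjoint M N hM hN (disjoint_iff.mpr h0) g m hg hm
      have hh : n⁻¹ * g ∈ H := by
        rw [hHmem, mul_smul, ← hna, inv_smul_smul]
      have h1 : n⁻¹ * g = 1 := by
        apply hfaith _ hh
        intro m hm
        calc n⁻¹ * g * m = n⁻¹ * (g * m) := mul_assoc _ _ _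
          _ = n⁻¹ * (m * g) := by rw [hcomm m hm]
          _ = n⁻¹ * m * g := (mul_assoc _ _ _).symm
          _ = m * n⁻¹ * g := by rw [hab' n⁻¹ (N.inv_mem hn) m hm]
          _ = m * (n⁻¹ * g) := mul_assoc _ _ _
      have hgn : g = n := by rw [inv_mul_eq_one] at h1; exact h1.symm
      have h2 : g ∈ M ⊓ N := ⟨hg, hgn ▸ hn⟩
      rw [h0, Subgroup.mem_bot] at h2
      exact h2
    · rw [← h0]; exact inf_le_left

end Cfsg.Agent.S3356
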