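import Mathlib
import Cfsg.Statements.S3357
import Cfsg.Agent.Lib.Helper64.FrobLift
import Cfsg.Agent.Lib.Helper64.FrobLift2

set_option autoImplicit false
open Cfsg

namespace Cfsg.Agent.S3357

open Cfsg.Agent.Lib.Helper64.FrobLift
open TensorProduct

universe u

theorem conj_inv_ne_one {X : Type*} [Group X] :
    ∀ a ∈ {x : X | x ≠ 1}, ∀ g : X, g⁻¹ * a * g ∈ {x : X | x ≠ 1} := by
  intro a ha g h
  apply ha
  have h2 : a = g * (g⁻¹ * a * g) * g⁻¹ := by group
  rw [h2, h]
  group

section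

variable {X : Type u} [Group X]

/-- If no nonzero integer lies in `idl ℤ T`, then `1 ∉ idl K T` for a field `K` of
characteristic zero. -/
theorem one_notMem_char0 (K : Type*) [Field K] [CharZero K] {T : Set X}
    (hT : ∀ a ∈ T, ∀ g : X, g⁻¹ * a * g ∈ T)
    (hno : ∀ m : ℤ, m ≠ 0 → (m : MonoidAlgebra ℤ X) ∉ idl ℤ T) :
    (1 : MonoidAlgebra K X) ∉ idl K T := by
  have hts : (idl ℤ T).IsTwoSided := ⟨fun b ha => idl_mul_mem hT ha b⟩
  let mk : MonoidAlgebra ℤ X →+* MonoidAlgebra ℤ X ⧸ idl ℤ T := Ideal.Quotient.mk _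
  have hinj : Function.Injective (Algebra.linearMap ℤ (MonoidAlgebra ℤ X ⧸ idl ℤ T)) := by
    rw [injective_iff_map_eq_zero]
    intro m hm
    by_contra h
    apply hno m h
    have h2 : mk (m : MonoidAlgebra ℤ X) = 0 := by
      rw [map_intCast]
      simpa using hm
    exact Ideal.Quotient.eq_zero_iff_mem.mp h2
  have hinj2 := Module.Flat.lTensor_preserves_injective_linearMap (M := K)
    (Algebra.linearMap ℤ (MonoidAlgebra ℤ X ⧸ idl ℤ T)) hinj
  have hne : (1 : K ⊗[ℤ] (MonoidAlgebra ℤ X ⧸ idl ℤ T)) ≠ 0 := by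
    intro h0
    have h1 : LinearMap.lTensor K (Algebra.linearMap ℤ (MonoidAlgebra ℤ X ⧸ idl ℤ T))
        ((1 : K) ⊗ₜ[ℤ] (1 : ℤ)) = 0 := by
      rw [LinearMap.lTensor_tmul]
      simpa [Algebra.TensorProduct.one_def] using h0
    have h2 : (1 : K) ⊗ₜ[ℤ] (1 : ℤ) = 0 := hinj2 (by rw [h1, map_zero])
    have h3 := congrArg (TensorProduct.rid ℤ K) h2
    simp at h3
  let φ : X →* K ⊗[ℤ] (MonoidAlgebra ℤ X ⧸ idl ℤ T) :=
    ((Algebra.TensorProduct.includeRight :
      (MonoidAlgebra ℤ X ⧸ idl ℤ T) →ₐ[ℤ] K ⊗[ℤ] (MonoidAlgebra ℤ X ⧸ idl ℤ T)) :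
      (MonoidAlgebra ℤ X ⧸ idl ℤ T) →* K ⊗[ℤ] (MonoidAlgebra ℤ X ⧸ idl ℤ T)).comp
      (mk.toMonoidHom.comp (MonoidAlgebra.of ℤ X))
  let Φ : MonoidAlgebra K X →ₐ[K] K ⊗[ℤ] (MonoidAlgebra ℤ X ⧸ idl ℤ T) :=
    MonoidAlgebra.lift K (K ⊗[ℤ] (MonoidAlgebra ℤ X ⧸ idl ℤ T)) X φ
  have hΦ : ∀ x ∈ idl K T, Φ x = 0 := by
    intro x hx
    unfold idl at hx
    induction hx using Submodule.span_induction with
    | mem z hz =>
      obtain ⟨a, ha, rfl⟩ := hz
      have h5 : Φ (nrm K a) = ∑ i ∈ Finset.range (orderOf a), φ (a ^ i) := by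
        unfold nrm
        rw [map_sum]
        exact Finset.sum_congr rfl fun i _ => MonoidAlgebra.lift_of _ _
      have h6 : ∑ i ∈ Finset.range (orderOf a), φ (a ^ i)
          = Algebra.TensorProduct.includeRight (mk (nrm ℤ a)) := by
        unfold nrm
        rw [map_sum, map_sum]
        rfl
      rw [h5, h6, Ideal.Quotient.eq_zero_iff_mem.mpr (nrm_mem ha), map_zero]
    | zero => simp
    | add z w _ _ hz hw => rw [map_add, hz, hw, add_zero]
    | smul c z _ hz => rw [smul_eq_mul, map_mul, hz, mul_zero]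
  intro h1
  exact hne (by rw [← map_one Φ]; exact hΦ 1 h1)

variable [Finite X]

/-- A fixed-point-free irreducible matrix representation from `1 ∉ idl K {x ≠ 1}`. -/
theorem exists_rep (K : Type*) [Field K] [CharZero K]
    (h1 : (1 : MonoidAlgebra K X) ∉ idl K {x : X | x ≠ 1}) :
    ∃ (n : ℕ) (ρ : X →* GL (Fin n) K), 0 < n ∧ Function.Injective ρ ∧
      (∀ W : Submodule K (Fin n → K),
        (∀ g : X, ∀ w ∈ W, ((ρ g : GL (Fin n) K) : Matrix (Fin n) (Fin n) K).mulVec w ∈ W) →
          W = ⊥ ∨ W = ⊤) ∧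
      ∀ g : X, g ≠ 1 → ∀ v : Fin n → K,
        ((ρ g : GL (Fin n) K) : Matrix (Fin n) (Fin n) K).mulVec v = v → v = 0 := by
  classical
  have hne : NeZero (Nat.card X : K) := ⟨Nat.cast_ne_zero.mpr Nat.card_pos.ne'⟩
  obtain ⟨C, hC⟩ := MonoidAlgebra.Submodule.exists_isCompl (k := K) (G := X)
    (idl K {x : X | x ≠ 1})
  have hCbot : C ≠ ⊥ := by
    rintro rfl
    have h2 : idl K {x : X | x ≠ 1} = ⊤ := by simpa using hC.sup_eq_top
    exact h1 (h2 ▸ Submodule.mem_top)
  obtain ⟨W, hWatom, hWC⟩ := (eq_bot_or_exists_atom_le C).resolve_left hCbot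
  have hkill : ∀ a : X, a ≠ 1 → ∀ w ∈ W, nrm K a * w = 0 := by
    intro a ha w hw
    have h2 : nrm K a * w ∈ idl K {x : X | x ≠ 1} :=
      idl_mul_mem conj_inv_ne_one (nrm_mem ha) w
    have h3 : nrm K a * w ∈ C := C.smul_mem _ (hWC hw)
    have h4 : nrm K a * w ∈ idl K {x : X | x ≠ 1} ⊓ C := ⟨h2, h3⟩
    rw [hC.inf_eq_bot] at h4
    simpa using h4
  let W' : Submodule K (MonoidAlgebra K X) := W.restrictScalars K
  let b : Module.Basis (Fin (Module.finrank K W')) K W' := Module.finBasis K W'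
  have hmem : ∀ (h : X), ∀ x ∈ W', MonoidAlgebra.of K X h * x ∈ W' :=
    fun h x hx => W.smul_mem _ hx
  let Lm : X → (W' →ₗ[K] W') :=
    fun h => (LinearMap.mulLeft K (MonoidAlgebra.of K X h)).restrict (hmem h)
  have hLm_apply : ∀ h (w : W'),
      ((Lm h w : W') : MonoidAlgebra K X) = MonoidAlgebra.of K X h * (w : MonoidAlgebra K X) :=
    fun h w => rfl
  have hLm1 : Lm 1 = LinearMap.id := by
    ext w
    rw [hLm_apply, map_one, one_mul]
    rfl
  have hLmmul : ∀ h k, Lm (h * k) = Lm h ∘ₗ Lm k := by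
    intro h k
    ext w
    rw [hLm_apply, LinearMap.comp_apply, hLm_apply, hLm_apply, map_mul, mul_assoc]
  let ρ₀ : X →* Matrix (Fin (Module.finrank K W')) (Fin (Module.finrank K W')) K :=
    { toFun := fun h => LinearMap.toMatrix b b (Lm h)
      map_one' := by rw [hLm1, LinearMap.toMatrix_id]
      map_mul' := fun h k => by rw [hLmmul, LinearMap.toMatrix_comp b b b] }
  have hF : ∀ (h : X) (v : Fin (Module.finrank K W') → K),
      (ρ₀ h).mulVec v = b.equivFun (Lm h (b.equivFun.symm v)) := by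
    intro h v
    have h2 := LinearMap.toMatrix_mulVec_repr b b (Lm h) (b.equivFun.symm v)
    have h3 : (⇑(b.repr (b.equivFun.symm v)) : Fin (Module.finrank K W') → K) = v := by
      rw [← Module.Basis.equivFun_apply, LinearEquiv.apply_symm_apply]
    rw [h3] at h2
    rw [Module.Basis.equivFun_apply]
    exact h2
  have hpos : 0 < Module.finrank K W' := by
    rw [Module.finrank_pos_iff_exists_ne_zero]
    obtain ⟨w, hw, hw0⟩ := (Submodule.ne_bot_iff W).mp hWatom.1
    exact ⟨⟨w, hw⟩, fun h => hw0 (congrArg Subtype.val h)⟩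
  have hfpf : ∀ g : X, g ≠ 1 → ∀ v : Fin (Module.finrank K W') → K,
      (ρ₀ g).mulVec v = v → v = 0 := by
    intro g hg v hv
    rw [hF] at hv
    have h2 : Lm g (b.equivFun.symm v) = b.equivFun.symm v := by
      apply b.equivFun.injective
      rw [hv, LinearEquiv.apply_symm_apply]
    have h3 : MonoidAlgebra.of K X g * ((b.equivFun.symm v : W') : MonoidAlgebra K X)
        = ((b.equivFun.symm v : W') : MonoidAlgebra K X) := by
      rw [← hLm_apply, h2]
    have h4 : ∀ i : ℕ, MonoidAlgebra.of K X (g ^ i) * ((b.equivFun.symm v : W') : MonoidAlgebra K X)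
        = ((b.equivFun.symm v : W') : MonoidAlgebra K X) := by
      intro i
      induction i with
      | zero => rw [pow_zero, map_one, one_mul]
      | succ i ih => rw [pow_succ, map_mul, mul_assoc, h3, ih]
    have h5 : nrm K g * ((b.equivFun.symm v : W') : MonoidAlgebra K X)
        = (orderOf g) • ((b.equivFun.symm v : W') : MonoidAlgebra K X) := by
      unfold nrm
      rw [Finset.sum_mul, Finset.sum_congr rfl (fun i _ => h4 i)]
      simp
    rw [hkill g hg _ (b.equivFun.symm v).2] at h5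
    have h6 : ((b.equivFun.symm v : W') : MonoidAlgebra K X) = 0 := by
      have h7 : ((orderOf g : ℕ) : K) • ((b.equivFun.symm v : W') : MonoidAlgebra K X) = 0 := by
        rw [Nat.cast_smul_eq_nsmul]
        exact h5.symm
      rcases smul_eq_zero.mp h7 with h8 | h8
      · exact absurd h8 (Nat.cast_ne_zero.mpr (orderOf_pos g).ne')
      · exact h8
    have h7 : b.equivFun.symm v = 0 := Subtype.ext h6
    have h8 := congrArg b.equivFun h7
    rwa [LinearEquiv.apply_symm_apply, map_zero] at h8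
  refine ⟨Module.finrank K W', ρ₀.toHomUnits, hpos, ?_, ?_, hfpf⟩
  · intro g g' hgg
    by_contra hne'
    have h2 : g⁻¹ * g' ≠ 1 := fun h => hne' (by rw [← mul_one g, ← h]; group)
    have h3 : ρ₀ (g⁻¹ * g') = 1 := by
      have h4 : ρ₀ g = ρ₀ g' := congrArg (fun u : GL (Fin (Module.finrank K W')) K =>
        (u : Matrix (Fin (Module.finrank K W')) (Fin (Module.finrank K W')) K)) hgg
      have h5 : ρ₀ g * ρ₀ (g⁻¹ * g') = ρ₀ g := by rw [← map_mul, h4]; congr 1; group
      have h6 : ρ₀ g⁻¹ * ρ₀ g = 1 := by rw [← map_mul, inv_mul_cancel, map_one]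
      calc ρ₀ (g⁻¹ * g') = (ρ₀ g⁻¹ * ρ₀ g) * ρ₀ (g⁻¹ * g') := by rw [h6, one_mul]
        _ = ρ₀ g⁻¹ * (ρ₀ g * ρ₀ (g⁻¹ * g')) := by rw [mul_assoc]
        _ = 1 := by rw [h5, h6]
    have h7 := hfpf (g⁻¹ * g') h2 (Pi.single ⟨0, hpos⟩ 1) (by rw [h3, Matrix.one_mulVec])
    have h8 := congrFun h7 ⟨0, hpos⟩
    simp at h8
  · intro U hU
    let W₁ : Submodule (MonoidAlgebra K X) (MonoidAlgebra K X) :=
      { carrier := {x | ∃ w : W', (w : MonoidAlgebra K X) = x ∧ b.equivFun w ∈ U}
        add_mem' := by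
          rintro x y ⟨w, rfl, hw⟩ ⟨w', rfl, hw'⟩
          exact ⟨w + w', rfl, by rw [map_add]; exact U.add_mem hw hw'⟩
        zero_mem' := ⟨0, rfl, by rw [map_zero]; exact U.zero_mem⟩
        smul_mem' := by
          rintro c x ⟨w, rfl, hw⟩
          induction c using MonoidAlgebra.induction_on with
          | of h =>
            refine ⟨Lm h w, rfl, ?_⟩
            have h2 := hU h (b.equivFun w) hw
            have h3 : (ρ₀ h).mulVec (b.equivFun w) = b.equivFun (Lm h w) := by
              rw [hF, LinearEquiv.symm_apply_apply]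
            rw [← h3]
            exact h2
          | add c d hc hd =>
            obtain ⟨w₁, hw₁, hw₁'⟩ := hc
            obtain ⟨w₂, hw₂, hw₂'⟩ := hd
            refine ⟨w₁ + w₂, ?_, by rw [map_add]; exact U.add_mem hw₁' hw₂'⟩
            rw [add_smul, ← hw₁, ← hw₂]
            rfl
          | smul r c hc =>
            obtain ⟨w₁, hw₁, hw₁'⟩ := hc
            refine ⟨r • w₁, ?_, by rw [map_smul]; exact U.smul_mem r hw₁'⟩
            rw [smul_assoc, ← hw₁]
            rfl }
    have hW₁le : W₁ ≤ W := by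
      rintro x ⟨w, rfl, _⟩
      exact w.2
    rcases (hWatom.le_iff.mp hW₁le) with h2 | h2
    · left
      rw [eq_bot_iff]
      intro u hu
      have h3 : ((b.equivFun.symm u : W') : MonoidAlgebra K X) ∈ W₁ :=
        ⟨b.equivFun.symm u, rfl, by rw [LinearEquiv.apply_symm_apply]; exact hu⟩
      rw [h2] at h3
      have h4 : b.equivFun.symm u = 0 := Subtype.ext ((Submodule.mem_bot _).mp h3)
      have h5 := congrArg b.equivFun h4
      rw [LinearEquiv.apply_symm_apply, map_zero] at h5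
      exact (Submodule.mem_bot K).mpr h5
    · right
      rw [eq_top_iff]
      intro u _
      have h3 : ((b.equivFun.symm u : W') : MonoidAlgebra K X) ∈ W₁ := by
        rw [h2]
        exact (b.equivFun.symm u).2
      obtain ⟨w, hw, hw'⟩ := h3
      have h4 : w = b.equivFun.symm u := Subtype.ext hw
      rw [h4, LinearEquiv.apply_symm_apply] at hw'
      exact hw'

end

/-- Let G be a finite group that occurs as a Frobenius complement. Then G has a faithful irreducible representation over an algebraic closure of the rationals in which no non-identity element of G has 1 as an eigenvalue: there are n ≥ 1 and an injective homomorphism ρ from G to GL(n) over that field, with no invariant subspace other than 0 and the whole space, such that for g ≠ 1 the only vector fixed by ρ(g) is 0. -/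
theorem result {G : Type*} [Group G] [Finite G]
    (hFC : ∃ (L : Type) (_ : Group L) (_ : Finite L) (H : Subgroup L), Cfsg.IsFrobeniusComplement H ∧ Nonempty (G ≃* H)) :
    ∃ (n : ℕ) (ρ : G →* GL (Fin n) (AlgebraicClosure ℚ)), 0 < n ∧ Function.Injective ρ ∧
      (∀ W : Submodule (AlgebraicClosure ℚ) (Fin n → AlgebraicClosure ℚ),
        (∀ g : G, ∀ w ∈ W, ((ρ g : GL (Fin n) (AlgebraicClosure ℚ)) : Matrix (Fin n) (Fin n) (AlgebraicClosure ℚ)).mulVec w ∈ W) → W = ⊥ ∨ W = ⊤) ∧
      ∀ g : G, g ≠ 1 → ∀ v : Fin n → AlgebraicClosure ℚ,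
        ((ρ g : GL (Fin n) (AlgebraicClosure ℚ)) : Matrix (Fin n) (Fin n) (AlgebraicClosure ℚ)).mulVec v = v → v = 0 := by
  obtain ⟨L, i1, i2, H, hH, ⟨e⟩⟩ := hFC
  obtain ⟨p, hp, hpd, hp1⟩ := exists_prime_one_notMem H hH
  have := Fact.mk hp
  have hno := no_int_mem (T := {h : H | h ≠ 1}) conj_inv_ne_one p hpd hp1
  have h1 := one_notMem_char0 (AlgebraicClosure ℚ) (T := {h : H | h ≠ 1}) conj_inv_ne_one hno
  obtain ⟨n, ρ, hn, hinj, hirr, hfpf⟩ := exists_rep (AlgebraicClosure ℚ) h1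
  refine ⟨n, ρ.comp e.toMonoidHom, hn, hinj.comp e.injective, ?_, ?_⟩
  · intro W hW
    apply hirr W
    intro g w hw
    have h2 := hW (e.symm g) w hw
    simpa using h2
  · intro g hg v hv
    exact hfpf (e g) (fun h => hg (e.injective (by rw [h, map_one]))) v hv

end Cfsg.Agent.S3357
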