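import Cfsg.Statements.S3359
import Mathlib
import Cfsg.Agent.Lib.Helper63.FrobComp
import Cfsg.Agent.S0690
set_option autoImplicit false
open Cfsg

namespace Cfsg.Agent.S3359

/-- Structure of non-solvable Frobenius complements. Let G be a finite non-solvable group that occurs as a Frobenius complement. Then G has a normal subgroup G₀ of index 1 or 2 which is the direct product of a subgroup isomorphic to SL(2,5) and a subgroup M of order prime to 30 all of whose Sylow subgroups are cyclic. -/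
theorem result {G : Type*} [Group G] [Finite G] (hns : ¬ Group.IsSolvable G)
    (hFC : ∃ (L : Type) (_ : Group L) (_ : Finite L) (H : Subgroup L), Cfsg.IsFrobeniusComplement H ∧ Nonempty (G ≃* H)) :
    ∃ G₀ : Subgroup G, G₀.Normal ∧ (G₀.index = 1 ∨ G₀.index = 2) ∧
      ∃ S M : Subgroup G, S ⊔ M = G₀ ∧ S ⊓ M = ⊥ ∧ (∀ s ∈ S, ∀ x ∈ M, s * x = x * s) ∧
        Nonempty (S ≃* Matrix.SpecialLinearGroup (Fin 2) (ZMod 5)) ∧
        (∀ (p : ℕ) [Fact p.Prime] (P : Sylow p M), IsCyclic P) ∧ (Nat.card M).Coprime 30 := by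
  exact Cfsg.Agent.Lib.Helper63.FrobComp.main
    (fun K _ _ Γ h1 h2 h3 => Cfsg.Agent.S0690.result Γ h1 h2 h3) hns hFC

end Cfsg.Agent.S3359
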