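import Cfsg.Statements.S3362
import Mathlib

set_option autoImplicit false
open Cfsg

namespace Cfsg.Agent.S3362

abbrev G := Equiv.Perm (Fin 12)

def gs : G := Equiv.swap (3 : Fin 12) 5 * Equiv.swap (3 : Fin 12) 4 * Equiv.swap (6 : Fin 12) 8 * Equiv.swap (6 : Fin 12) 7 * Equiv.swap (9 : Fin 12) 11 * Equiv.swap (9 : Fin 12) 10
def gt : G := Equiv.swap (3 : Fin 12) 9 * Equiv.swap (3 : Fin 12) 6 * Equiv.swap (4 : Fin 12) 10 * Equiv.swap (4 : Fin 12) 7 * Equiv.swap (5 : Fin 12) 11 * Equiv.swap (5 : Fin 12) 8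
def gu : G := Equiv.swap (4 : Fin 12) 9 * Equiv.swap (4 : Fin 12) 5 * Equiv.swap (4 : Fin 12) 6 * Equiv.swap (7 : Fin 12) 10 * Equiv.swap (7 : Fin 12) 11 * Equiv.swap (7 : Fin 12) 8
def gv : G := Equiv.swap (4 : Fin 12) 11 * Equiv.swap (4 : Fin 12) 5 * Equiv.swap (4 : Fin 12) 7 * Equiv.swap (6 : Fin 12) 8 * Equiv.swap (6 : Fin 12) 9 * Equiv.swap (6 : Fin 12) 10
def gw : G := Equiv.swap (4 : Fin 12) 8 * Equiv.swap (4 : Fin 12) 5 * Equiv.swap (4 : Fin 12) 10 * Equiv.swap (6 : Fin 12) 7 * Equiv.swap (6 : Fin 12) 9 * Equiv.swap (6 : Fin 12) 11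
def gx1 : G := Equiv.swap (0 : Fin 12) 3 * Equiv.swap (6 : Fin 12) 7 * Equiv.swap (8 : Fin 12) 10 * Equiv.swap (9 : Fin 12) 11
def gx2 : G := Equiv.swap (0 : Fin 12) 1 * Equiv.swap (6 : Fin 12) 9 * Equiv.swap (7 : Fin 12) 10 * Equiv.swap (8 : Fin 12) 11
def gx3 : G := Equiv.swap (1 : Fin 12) 2 * Equiv.swap (6 : Fin 12) 11 * Equiv.swap (7 : Fin 12) 9 * Equiv.swap (8 : Fin 12) 10

def gen : Fin 8 → G := ![gu, gv, gw, gs, gt, gx1, gx2, gx3]

def Gk (k : ℕ) : Subgroup G := Subgroup.closure {g | ∃ a : Fin 8, a.val < k ∧ gen a = g}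

lemma Gk_mono {k k' : ℕ} (h : k' ≤ k) : Gk k' ≤ Gk k := by
  apply Subgroup.closure_mono
  rintro g ⟨a, ha, rfl⟩
  exact ⟨a, lt_of_lt_of_le ha h, rfl⟩

lemma Gk_zero : Gk 0 = ⊥ := by
  rw [Gk, Subgroup.closure_eq_bot_iff]
  rintro g ⟨a, ha, -⟩
  exact absurd ha (Nat.not_lt_zero _)

def tab (N : ℕ) (i : ℕ) (x : Fin 12) : Fin 12 :=
  ⟨N / 12 ^ (12 * i + x.val) % 12, Nat.mod_lt _ (by norm_num)⟩

def evalWord : List (Fin 8) → G
  | [] => 1
  | a :: l => gen a * evalWord l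

lemma evalWord_mem (k : ℕ) (l : List (Fin 8)) (h : ∀ c ∈ l, c.val < k) : evalWord l ∈ Gk k := by
  induction l with
  | nil => exact Subgroup.one_mem _
  | cons a l ih =>
    have h1 : gen a ∈ Gk k := Subgroup.subset_closure ⟨a, h a (by simp), rfl⟩
    exact Subgroup.mul_mem _ h1 (ih (fun c hc => h c (by simp [hc])))

lemma closure_sub {H : Type*} [Group H] [Finite H] (A : Set H) (X : Set H) (h1 : (1 : H) ∈ X)
    (hA : ∀ a ∈ A, ∀ x ∈ X, a * x ∈ X) : ∀ g ∈ Subgroup.closure A, g ∈ X := by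
  let S : Submonoid H :=
    { carrier := {g | ∀ x ∈ X, g * x ∈ X}
      mul_mem' := by
        intro a b ha hb x hx
        rw [mul_assoc]
        exact ha _ (hb x hx)
      one_mem' := by
        intro x hx
        rw [one_mul]; exact hx }
  have hS : ∀ g ∈ S, g⁻¹ ∈ S := by
    intro g hg
    have h2 : g⁻¹ = g ^ (orderOf g - 1) := by
      apply inv_eq_of_mul_eq_one_right
      rw [← pow_succ', Nat.sub_add_cancel (orderOf_pos g), pow_orderOf_eq_one]
    rw [h2]; exact S.pow_mem hg _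
  intro g hg
  have h3 : g ∈ S := by
    refine Subgroup.closure_induction (p := fun g _ => g ∈ S) ?_ ?_ ?_ ?_ hg
    · intro x hx; exact hA x hx
    · exact S.one_mem
    · intro x y _ _ hx hy; exact S.mul_mem hx hy
    · intro x _ hx; exact hS x hx
  have := h3 1 h1
  rwa [mul_one] at this

lemma level (k k' : ℕ) (b : Fin 12) (n : ℕ) (T : ℕ → G) (hn : 0 < n)
    (hT0 : T 0 = 1)
    (hTmem : ∀ i < n, T i ∈ Gk k)
    (hk : k' ≤ k)
    (hfixb : ∀ a : Fin 8, a.val < k' → gen a b = b)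
    (hinj : ∀ i < n, ∀ j < n, T i b = T j b → i = j)
    (hstep : ∀ a : Fin 8, a.val < k → ∀ i < n, ∃ j < n, (T j)⁻¹ * (gen a * T i) ∈ Gk k') :
    (∀ g ∈ Gk k, g b = b → g ∈ Gk k') ∧ Nat.card (Gk k) = n * Nat.card (Gk k') := by
  have hle : Gk k' ≤ Gk k := Gk_mono hk
  have hfix : ∀ h ∈ Gk k', h b = b := by
    have h1 : Gk k' ≤ MulAction.stabilizer G b := by
      rw [Gk, Subgroup.closure_le]
      rintro g ⟨a, ha, rfl⟩
      exact hfixb a ha
    intro h hh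
    exact h1 hh
  have hdec : ∀ g ∈ Gk k, ∃ i < n, (T i)⁻¹ * g ∈ Gk k' := by
    apply closure_sub {g | ∃ a : Fin 8, a.val < k ∧ gen a = g} {g | ∃ i < n, (T i)⁻¹ * g ∈ Gk k'}
    · refine ⟨0, hn, ?_⟩
      rw [hT0, inv_one, one_mul]; exact Subgroup.one_mem _
    · rintro _ ⟨a, ha, rfl⟩ x ⟨i, hi, hx⟩
      obtain ⟨j, hj, hjm⟩ := hstep a ha i hi
      refine ⟨j, hj, ?_⟩
      have h2 : (T j)⁻¹ * (gen a * x) = ((T j)⁻¹ * (gen a * T i)) * ((T i)⁻¹ * x) := by group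
      rw [h2]; exact Subgroup.mul_mem _ hjm hx
  refine ⟨?_, ?_⟩
  · intro g hg hgb
    obtain ⟨i, hi, hm⟩ := hdec g hg
    have h1 := hfix _ hm
    have h2 : T i b = b := by
      rw [Equiv.Perm.mul_apply, hgb] at h1
      exact (Equiv.Perm.inv_eq_iff_eq.mp h1).symm
    have h3 : i = 0 := hinj i hi 0 hn (by rw [h2, hT0]; rfl)
    subst h3
    rw [hT0, inv_one, one_mul] at hm
    exact hm
  · let f : Fin n × Gk k' → Gk k := fun p =>
      ⟨T p.1.val * p.2.val, Subgroup.mul_mem _ (hTmem _ p.1.isLt) (hle p.2.2)⟩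
    have hf : Function.Bijective f := by
      constructor
      · rintro ⟨i, h⟩ ⟨i', h'⟩ hp
        have hp' : T i.val * h.val = T i'.val * h'.val := congrArg Subtype.val hp
        have h1 : T i.val b = T i'.val b := by
          have := congrArg (fun g : G => g b) hp'
          simp only [Equiv.Perm.mul_apply] at this
          rwa [hfix _ h.2, hfix _ h'.2] at this
        have h2 : i.val = i'.val := hinj _ i.isLt _ i'.isLt h1
        have h3 : i = i' := Fin.ext h2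
        subst h3
        have h4 : h.val = h'.val := mul_left_cancel hp'
        have h5 : h = h' := Subtype.ext h4
        rw [h5]
      · rintro ⟨g, hg⟩
        obtain ⟨i, hi, hm⟩ := hdec g hg
        refine ⟨(⟨i, hi⟩, ⟨(T i)⁻¹ * g, hm⟩), ?_⟩
        apply Subtype.ext
        show T i * ((T i)⁻¹ * g) = g
        rw [mul_inv_cancel_left]
    rw [← Nat.card_congr (Equiv.ofBijective f hf), Nat.card_prod, Nat.card_fin]

def gtabN : ℕ := 22371106992299319844755297748100531671548106867669067604686376025775268577109941968999707066621825185644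

lemma hgen : ∀ a : Fin 8, ∀ x : Fin 12, gen a x = tab gtabN a.val x := by decide +kernel

def tabN0 : ℕ := 239520945380585626267451020636889521982062896368561231075834940540049958880139399582221235417616506369544900911876963964410061480145212632292816023152555372
def words0 : List (List (Fin 8)) := [[], [7], [6, 7], [5, 6, 7], [3, 5, 6, 7], [4, 5, 6, 7], [1, 3, 5, 6, 7], [2, 3, 5, 6, 7], [3, 3, 5, 6, 7], [2, 4, 5, 6, 7], [4, 4, 5, 6, 7], [0, 1, 3, 5, 6, 7]]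
def T0 (i : ℕ) : G := evalWord (words0.getD i [])
def certN0 : ℕ := 2117111698949245963034865630546718444213778576423995190423203691935660689935178766520019039232128075236664739077046997619565429065995400732366684898814524662111890571108239698017665388682948034075026372479695040334704141244231792370608034471435622304249085627859298853762864029265454504370143480261787603960774024713491588971812388757688771783778354916902104834143593739580474095049366678404494817685317752189556203783432495923828439557415012952876687064870055302337798721522277414190414887431371031271560681032174202258381611000988680557046770258937598880676381302254010368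
def cert0 (a i m : ℕ) : ℕ := certN0 / 16 ^ ((a * 12 + i) * 5 + m) % 16
lemma hT0 : ∀ i : Fin 12, ∀ x : Fin 12, T0 i.val x = tab tabN0 i.val x := by decide +kernel
lemma hW0 : ∀ i : Fin 12, ∀ c ∈ words0.getD i.val [], c.val < 8 := by decide +kernel
lemma hTmem0 : ∀ i < 12, T0 i ∈ Gk 8 := fun i hi => evalWord_mem _ _ (hW0 ⟨i, hi⟩)
lemma hfixb0 : ∀ a : Fin 8, a.val < 7 → gen a (2 : Fin 12) = 2 := by decide +kernel
lemma hinj0' : ∀ i j : Fin 12, tab tabN0 i.val (2 : Fin 12) = tab tabN0 j.val 2 → i = j := by decide +kernel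
lemma hinj0 : ∀ i < 12, ∀ j < 12, T0 i (2 : Fin 12) = T0 j 2 → i = j := by
  intro i hi j hj h
  have h1 := hT0 ⟨i, hi⟩ 2
  have h2 := hT0 ⟨j, hj⟩ 2
  simp only at h1 h2
  rw [h1, h2] at h
  exact congrArg Fin.val (hinj0' ⟨i, hi⟩ ⟨j, hj⟩ h)

def tabN1 : ℕ := 16012087797708882147622788502491683590848098724670615595268683676993688023980664156582114354581521387042491823224984893525810210794145384822124
def words1 : List (List (Fin 8)) := [[], [6], [5, 6], [3, 5, 6], [4, 5, 6], [1, 3, 5, 6], [2, 3, 5, 6], [3, 3, 5, 6], [2, 4, 5, 6], [4, 4, 5, 6], [0, 1, 3, 5, 6]]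
def T1 (i : ℕ) : G := evalWord (words1.getD i [])
def certN1 : ℕ := 1202618821256907584661252489042629062971700204427271691731317096771004203071040134701890150254880554002018027455607135263886635228143149889121743320242855294403940259428625387163014889414496720628026420787349872052935119586098939593440348697184492882404787200989555884181979011447651796763912211315390269039480995960029869243962455920722320675353528018635857147229054507311361925075174295505196694250907479931548795452767090219723840423493554351201321177769658635999241547718366120033078887758958592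
def cert1 (a i m : ℕ) : ℕ := certN1 / 16 ^ ((a * 12 + i) * 5 + m) % 16
lemma hT1 : ∀ i : Fin 11, ∀ x : Fin 12, T1 i.val x = tab tabN1 i.val x := by decide +kernel
lemma hW1 : ∀ i : Fin 11, ∀ c ∈ words1.getD i.val [], c.val < 7 := by decide +kernel
lemma hTmem1 : ∀ i < 11, T1 i ∈ Gk 7 := fun i hi => evalWord_mem _ _ (hW1 ⟨i, hi⟩)
lemma hfixb1 : ∀ a : Fin 8, a.val < 6 → gen a (1 : Fin 12) = 1 := by decide +kernel
lemma hinj1' : ∀ i j : Fin 11, tab tabN1 i.val (1 : Fin 12) = tab tabN1 j.val 1 → i = j := by decide +kernel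
lemma hinj1 : ∀ i < 11, ∀ j < 11, T1 i (1 : Fin 12) = T1 j 1 → i = j := by
  intro i hi j hj h
  have h1 := hT1 ⟨i, hi⟩ 1
  have h2 := hT1 ⟨j, hj⟩ 1
  simp only at h1 h2
  rw [h1, h2] at h
  exact congrArg Fin.val (hinj1' ⟨i, hi⟩ ⟨j, hj⟩ h)

def tabN2 : ℕ := 1233940490929194801126317248002529974514172554833960021121622210840261033996791744000414910551827508932040261884580895358674859372
def words2 : List (List (Fin 8)) := [[], [5], [3, 5], [4, 5], [1, 3, 5], [2, 3, 5], [3, 3, 5], [2, 4, 5], [4, 4, 5], [0, 1, 3, 5]]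
def T2 (i : ℕ) : G := evalWord (words2.getD i [])
def certN2 : ℕ := 29263493718227035370209536282846136907362230827987767296923739217523786635288452727583307382963066587584064225345188402274129262340294618496632537517582805687062264955402953122750767799516571877183573694502667679304244163151209545605659222493458525316179147936774799793847589410487099683348672280908177468059151713178476562956729101837511941652951152873341790168187517869415345104938926553864062922627328878690138325248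
def cert2 (a i m : ℕ) : ℕ := certN2 / 16 ^ ((a * 12 + i) * 5 + m) % 16
lemma hT2 : ∀ i : Fin 10, ∀ x : Fin 12, T2 i.val x = tab tabN2 i.val x := by decide +kernel
lemma hW2 : ∀ i : Fin 10, ∀ c ∈ words2.getD i.val [], c.val < 6 := by decide +kernel
lemma hTmem2 : ∀ i < 10, T2 i ∈ Gk 6 := fun i hi => evalWord_mem _ _ (hW2 ⟨i, hi⟩)
lemma hfixb2 : ∀ a : Fin 8, a.val < 5 → gen a (0 : Fin 12) = 0 := by decide +kernel
lemma hinj2' : ∀ i j : Fin 10, tab tabN2 i.val (0 : Fin 12) = tab tabN2 j.val 0 → i = j := by decide +kernel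
lemma hinj2 : ∀ i < 10, ∀ j < 10, T2 i (0 : Fin 12) = T2 j 0 → i = j := by
  intro i hi j hj h
  have h1 := hT2 ⟨i, hi⟩ 0
  have h2 := hT2 ⟨j, hj⟩ 0
  simp only at h1 h2
  rw [h1, h2] at h
  exact congrArg Fin.val (hinj2' ⟨i, hi⟩ ⟨j, hj⟩ h)

def tabN3 : ℕ := 342217332522673243849733782970956626928034875551170098972681888998786365471087863339584268289517268365977709829748076
def words3 : List (List (Fin 8)) := [[], [3], [4], [1, 3], [2, 3], [3, 3], [2, 4], [4, 4], [0, 1, 3]]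
def T3 (i : ℕ) : G := evalWord (words3.getD i [])
def certN3 : ℕ := 996995466878228720539317187579724100084516903471807475208449908713461709950063237296759167624643102219624451506916007073843168054070096988868961652434305143042417740248391823720020248573418956670550896728473491494040864441764731202121892412585436056202232647941834498476092170149204636610745266988278196836675848896319437150057773983072272
def cert3 (a i m : ℕ) : ℕ := certN3 / 16 ^ ((a * 12 + i) * 5 + m) % 16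
lemma hT3 : ∀ i : Fin 9, ∀ x : Fin 12, T3 i.val x = tab tabN3 i.val x := by decide +kernel
lemma hW3 : ∀ i : Fin 9, ∀ c ∈ words3.getD i.val [], c.val < 5 := by decide +kernel
lemma hTmem3 : ∀ i < 9, T3 i ∈ Gk 5 := fun i hi => evalWord_mem _ _ (hW3 ⟨i, hi⟩)
lemma hfixb3 : ∀ a : Fin 8, a.val < 3 → gen a (3 : Fin 12) = 3 := by decide +kernel
lemma hinj3' : ∀ i j : Fin 9, tab tabN3 i.val (3 : Fin 12) = tab tabN3 j.val 3 → i = j := by decide +kernel
lemma hinj3 : ∀ i < 9, ∀ j < 9, T3 i (3 : Fin 12) = T3 j 3 → i = j := by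
  intro i hi j hj h
  have h1 := hT3 ⟨i, hi⟩ 3
  have h2 := hT3 ⟨j, hj⟩ 3
  simp only at h1 h2
  rw [h1, h2] at h
  exact congrArg Fin.val (hinj3' ⟨i, hi⟩ ⟨j, hj⟩ h)

def tabN4 : ℕ := 29807775719139326742380353581388330256245367423141011528243986119604986649148215620198431454720282129772
def words4 : List (List (Fin 8)) := [[], [0], [1], [2], [0, 0], [2, 0], [0, 1], [1, 2]]
def T4 (i : ℕ) : G := evalWord (words4.getD i [])
def certN4 : ℕ := 8702164874337613172538989829427245339397034315360314929884687517413527996441025159046909001647062870037741454248865008511902475419416257929585872020888255111068959773789774302959221342209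
def cert4 (a i m : ℕ) : ℕ := certN4 / 16 ^ ((a * 12 + i) * 5 + m) % 16
lemma hT4 : ∀ i : Fin 8, ∀ x : Fin 12, T4 i.val x = tab tabN4 i.val x := by decide +kernel
lemma hW4 : ∀ i : Fin 8, ∀ c ∈ words4.getD i.val [], c.val < 3 := by decide +kernel
lemma hTmem4 : ∀ i < 8, T4 i ∈ Gk 3 := fun i hi => evalWord_mem _ _ (hW4 ⟨i, hi⟩)
lemma hfixb4 : ∀ a : Fin 8, a.val < 0 → gen a (4 : Fin 12) = 4 := by decide +kernel
lemma hinj4' : ∀ i j : Fin 8, tab tabN4 i.val (4 : Fin 12) = tab tabN4 j.val 4 → i = j := by decide +kernel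
lemma hinj4 : ∀ i < 8, ∀ j < 8, T4 i (4 : Fin 12) = T4 j 4 → i = j := by
  intro i hi j hj h
  have h1 := hT4 ⟨i, hi⟩ 4
  have h2 := hT4 ⟨j, hj⟩ 4
  simp only at h1 h2
  rw [h1, h2] at h
  exact congrArg Fin.val (hinj4' ⟨i, hi⟩ ⟨j, hj⟩ h)

lemma hE4 : ∀ a : Fin 8, a.val < 3 → ∀ i : Fin 8, (cert4 a.val i.val 0 < 8) ∧
    ∀ x : Fin 12, tab gtabN a.val (tab tabN4 i.val x) = tab tabN4 (cert4 a.val i.val 0) (x) := by decide +kernel

lemma hstep4 : ∀ a : Fin 8, a.val < 3 → ∀ i < 8, ∃ j < 8, (T4 j)⁻¹ * (gen a * T4 i) ∈ Gk 0 := by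
  intro a ha i hi
  obtain ⟨hb0, hx⟩ := hE4 a ha ⟨i, hi⟩
  simp only at hb0 hx
  refine ⟨cert4 a.val i 0, hb0, ?_⟩
  have heq : gen a * T4 i = T4 (cert4 a.val i 0) * (1) := by
    ext x
    simp only [Equiv.Perm.mul_apply, mul_one]
    have e0 := hgen a
    have e1 := hT4 ⟨i, hi⟩
    simp only at e1
    have f0 := hT4 ⟨cert4 a.val i 0, hb0⟩
    simp only at f0
    rw [e0, e1, f0]
    exact congrArg Fin.val (hx x)
  rw [heq, inv_mul_cancel_left]
  exact Subgroup.one_mem _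

lemma hlevel4 : (∀ g ∈ Gk 3, g (4 : Fin 12) = 4 → g ∈ Gk 0) ∧ Nat.card (Gk 3) = 8 * Nat.card (Gk 0) :=
  level 3 0 4 8 T4 (by norm_num) rfl hTmem4 (by norm_num) hfixb4 hinj4 hstep4

lemma hE3 : ∀ a : Fin 8, a.val < 5 → ∀ i : Fin 9, (cert3 a.val i.val 0 < 9 ∧ cert3 a.val i.val 1 < 8) ∧
    ∀ x : Fin 12, tab gtabN a.val (tab tabN3 i.val x) = tab tabN3 (cert3 a.val i.val 0) (tab tabN4 (cert3 a.val i.val 1) (x)) := by decide +kernel

lemma hstep3 : ∀ a : Fin 8, a.val < 5 → ∀ i < 9, ∃ j < 9, (T3 j)⁻¹ * (gen a * T3 i) ∈ Gk 3 := by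
  intro a ha i hi
  obtain ⟨⟨hb0, hb1⟩, hx⟩ := hE3 a ha ⟨i, hi⟩
  simp only at hb0 hb1 hx
  refine ⟨cert3 a.val i 0, hb0, ?_⟩
  have heq : gen a * T3 i = T3 (cert3 a.val i 0) * (T4 (cert3 a.val i 1)) := by
    ext x
    simp only [Equiv.Perm.mul_apply]
    have e0 := hgen a
    have e1 := hT3 ⟨i, hi⟩
    simp only at e1
    have f0 := hT3 ⟨cert3 a.val i 0, hb0⟩
    simp only at f0
    have f1 := hT4 ⟨cert3 a.val i 1, hb1⟩
    simp only at f1
    rw [e0, e1, f0, f1]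
    exact congrArg Fin.val (hx x)
  rw [heq, inv_mul_cancel_left]
  exact (Gk_mono (by norm_num : 3 ≤ 3) (hTmem4 _ hb1))

lemma hlevel3 : (∀ g ∈ Gk 5, g (3 : Fin 12) = 3 → g ∈ Gk 3) ∧ Nat.card (Gk 5) = 9 * Nat.card (Gk 3) :=
  level 5 3 3 9 T3 (by norm_num) rfl hTmem3 (by norm_num) hfixb3 hinj3 hstep3

lemma hE2 : ∀ a : Fin 8, a.val < 6 → ∀ i : Fin 10, (cert2 a.val i.val 0 < 10 ∧ cert2 a.val i.val 1 < 9 ∧ cert2 a.val i.val 2 < 8) ∧
    ∀ x : Fin 12, tab gtabN a.val (tab tabN2 i.val x) = tab tabN2 (cert2 a.val i.val 0) (tab tabN3 (cert2 a.val i.val 1) (tab tabN4 (cert2 a.val i.val 2) (x))) := by decide +kernel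

lemma hstep2 : ∀ a : Fin 8, a.val < 6 → ∀ i < 10, ∃ j < 10, (T2 j)⁻¹ * (gen a * T2 i) ∈ Gk 5 := by
  intro a ha i hi
  obtain ⟨⟨hb0, hb1, hb2⟩, hx⟩ := hE2 a ha ⟨i, hi⟩
  simp only at hb0 hb1 hb2 hx
  refine ⟨cert2 a.val i 0, hb0, ?_⟩
  have heq : gen a * T2 i = T2 (cert2 a.val i 0) * (T3 (cert2 a.val i 1) * (T4 (cert2 a.val i 2))) := by
    ext x
    simp only [Equiv.Perm.mul_apply]
    have e0 := hgen a
    have e1 := hT2 ⟨i, hi⟩
    simp only at e1
    have f0 := hT2 ⟨cert2 a.val i 0, hb0⟩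
    simp only at f0
    have f1 := hT3 ⟨cert2 a.val i 1, hb1⟩
    simp only at f1
    have f2 := hT4 ⟨cert2 a.val i 2, hb2⟩
    simp only at f2
    rw [e0, e1, f0, f1, f2]
    exact congrArg Fin.val (hx x)
  rw [heq, inv_mul_cancel_left]
  exact Subgroup.mul_mem _ (Gk_mono (by norm_num : 5 ≤ 5) (hTmem3 _ hb1)) ((Gk_mono (by norm_num : 3 ≤ 5) (hTmem4 _ hb2)))

lemma hlevel2 : (∀ g ∈ Gk 6, g (0 : Fin 12) = 0 → g ∈ Gk 5) ∧ Nat.card (Gk 6) = 10 * Nat.card (Gk 5) :=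
  level 6 5 0 10 T2 (by norm_num) rfl hTmem2 (by norm_num) hfixb2 hinj2 hstep2

lemma hE1 : ∀ a : Fin 8, a.val < 7 → ∀ i : Fin 11, (cert1 a.val i.val 0 < 11 ∧ cert1 a.val i.val 1 < 10 ∧ cert1 a.val i.val 2 < 9 ∧ cert1 a.val i.val 3 < 8) ∧
    ∀ x : Fin 12, tab gtabN a.val (tab tabN1 i.val x) = tab tabN1 (cert1 a.val i.val 0) (tab tabN2 (cert1 a.val i.val 1) (tab tabN3 (cert1 a.val i.val 2) (tab tabN4 (cert1 a.val i.val 3) (x)))) := by decide +kernel

lemma hstep1 : ∀ a : Fin 8, a.val < 7 → ∀ i < 11, ∃ j < 11, (T1 j)⁻¹ * (gen a * T1 i) ∈ Gk 6 := by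
  intro a ha i hi
  obtain ⟨⟨hb0, hb1, hb2, hb3⟩, hx⟩ := hE1 a ha ⟨i, hi⟩
  simp only at hb0 hb1 hb2 hb3 hx
  refine ⟨cert1 a.val i 0, hb0, ?_⟩
  have heq : gen a * T1 i = T1 (cert1 a.val i 0) * (T2 (cert1 a.val i 1) * (T3 (cert1 a.val i 2) * (T4 (cert1 a.val i 3)))) := by
    ext x
    simp only [Equiv.Perm.mul_apply]
    have e0 := hgen a
    have e1 := hT1 ⟨i, hi⟩
    simp only at e1
    have f0 := hT1 ⟨cert1 a.val i 0, hb0⟩
    simp only at f0
    have f1 := hT2 ⟨cert1 a.val i 1, hb1⟩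
    simp only at f1
    have f2 := hT3 ⟨cert1 a.val i 2, hb2⟩
    simp only at f2
    have f3 := hT4 ⟨cert1 a.val i 3, hb3⟩
    simp only at f3
    rw [e0, e1, f0, f1, f2, f3]
    exact congrArg Fin.val (hx x)
  rw [heq, inv_mul_cancel_left]
  exact Subgroup.mul_mem _ (Gk_mono (by norm_num : 6 ≤ 6) (hTmem2 _ hb1)) (Subgroup.mul_mem _ (Gk_mono (by norm_num : 5 ≤ 6) (hTmem3 _ hb2)) ((Gk_mono (by norm_num : 3 ≤ 6) (hTmem4 _ hb3))))

lemma hlevel1 : (∀ g ∈ Gk 7, g (1 : Fin 12) = 1 → g ∈ Gk 6) ∧ Nat.card (Gk 7) = 11 * Nat.card (Gk 6) :=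
  level 7 6 1 11 T1 (by norm_num) rfl hTmem1 (by norm_num) hfixb1 hinj1 hstep1

lemma hE0 : ∀ a : Fin 8, a.val < 8 → ∀ i : Fin 12, (cert0 a.val i.val 0 < 12 ∧ cert0 a.val i.val 1 < 11 ∧ cert0 a.val i.val 2 < 10 ∧ cert0 a.val i.val 3 < 9 ∧ cert0 a.val i.val 4 < 8) ∧
    ∀ x : Fin 12, tab gtabN a.val (tab tabN0 i.val x) = tab tabN0 (cert0 a.val i.val 0) (tab tabN1 (cert0 a.val i.val 1) (tab tabN2 (cert0 a.val i.val 2) (tab tabN3 (cert0 a.val i.val 3) (tab tabN4 (cert0 a.val i.val 4) (x))))) := by decide +kernel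

lemma hstep0 : ∀ a : Fin 8, a.val < 8 → ∀ i < 12, ∃ j < 12, (T0 j)⁻¹ * (gen a * T0 i) ∈ Gk 7 := by
  intro a ha i hi
  obtain ⟨⟨hb0, hb1, hb2, hb3, hb4⟩, hx⟩ := hE0 a ha ⟨i, hi⟩
  simp only at hb0 hb1 hb2 hb3 hb4 hx
  refine ⟨cert0 a.val i 0, hb0, ?_⟩
  have heq : gen a * T0 i = T0 (cert0 a.val i 0) * (T1 (cert0 a.val i 1) * (T2 (cert0 a.val i 2) * (T3 (cert0 a.val i 3) * (T4 (cert0 a.val i 4))))) := by
    ext x
    simp only [Equiv.Perm.mul_apply]
    have e0 := hgen a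
    have e1 := hT0 ⟨i, hi⟩
    simp only at e1
    have f0 := hT0 ⟨cert0 a.val i 0, hb0⟩
    simp only at f0
    have f1 := hT1 ⟨cert0 a.val i 1, hb1⟩
    simp only at f1
    have f2 := hT2 ⟨cert0 a.val i 2, hb2⟩
    simp only at f2
    have f3 := hT3 ⟨cert0 a.val i 3, hb3⟩
    simp only at f3
    have f4 := hT4 ⟨cert0 a.val i 4, hb4⟩
    simp only at f4
    rw [e0, e1, f0, f1, f2, f3, f4]
    exact congrArg Fin.val (hx x)
  rw [heq, inv_mul_cancel_left]
  exact Subgroup.mul_mem _ (Gk_mono (by norm_num : 7 ≤ 7) (hTmem1 _ hb1)) (Subgroup.mul_mem _ (Gk_mono (by norm_num : 6 ≤ 7) (hTmem2 _ hb2)) (Subgroup.mul_mem _ (Gk_mono (by norm_num : 5 ≤ 7) (hTmem3 _ hb3)) ((Gk_mono (by norm_num : 3 ≤ 7) (hTmem4 _ hb4)))))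

lemma hlevel0 : (∀ g ∈ Gk 8, g (2 : Fin 12) = 2 → g ∈ Gk 7) ∧ Nat.card (Gk 8) = 12 * Nat.card (Gk 7) :=
  level 8 7 2 12 T0 (by norm_num) rfl hTmem0 (by norm_num) hfixb0 hinj0 hstep0

lemma card0 : Nat.card (Gk 0) = 1 := by rw [Gk_zero]; exact Subgroup.card_bot

lemma card8 : Nat.card (Gk 8) = 95040 := by
  have h0 := hlevel0.2
  have h1 := hlevel1.2
  have h2 := hlevel2.2
  have h3 := hlevel3.2
  have h4 := hlevel4.2
  rw [card0] at h4
  omega

lemma card7 : Nat.card (Gk 7) = 7920 := by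
  have h1 := hlevel1.2
  have h2 := hlevel2.2
  have h3 := hlevel3.2
  have h4 := hlevel4.2
  rw [card0] at h4
  omega

lemma stab_chain (g : G) (hg : g ∈ Gk 8) (h2 : g 2 = 2) (h1 : g 1 = 1) (h0 : g 0 = 0)
    (h3 : g 3 = 3) (h4 : g 4 = 4) : g = 1 := by
  have := hlevel4.1 g (hlevel3.1 g (hlevel2.1 g (hlevel1.1 g (hlevel0.1 g hg h2) h1) h0) h3) h4
  rw [Gk_zero] at this
  exact Subgroup.mem_bot.mp this

lemma set8 : ({gs, gt, gu, gv, gw, gx1, gx2, gx3} : Set G) = {g | ∃ a : Fin 8, a.val < 8 ∧ gen a = g} := by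
  ext g
  constructor
  · rintro (rfl | rfl | rfl | rfl | rfl | rfl | rfl | rfl)
    · exact ⟨3, by decide, rfl⟩
    · exact ⟨4, by decide, rfl⟩
    · exact ⟨0, by decide, rfl⟩
    · exact ⟨1, by decide, rfl⟩
    · exact ⟨2, by decide, rfl⟩
    · exact ⟨5, by decide, rfl⟩
    · exact ⟨6, by decide, rfl⟩
    · exact ⟨7, by decide, rfl⟩
  · rintro ⟨a, ha, rfl⟩
    fin_cases a <;> simp [gen]

lemma set7 : ({gs, gt, gu, gv, gw, gx1, gx2} : Set G) = {g | ∃ a : Fin 8, a.val < 7 ∧ gen a = g} := by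
  ext g
  constructor
  · rintro (rfl | rfl | rfl | rfl | rfl | rfl | rfl)
    · exact ⟨3, by decide, rfl⟩
    · exact ⟨4, by decide, rfl⟩
    · exact ⟨0, by decide, rfl⟩
    · exact ⟨1, by decide, rfl⟩
    · exact ⟨2, by decide, rfl⟩
    · exact ⟨5, by decide, rfl⟩
    · exact ⟨6, by decide, rfl⟩
  · rintro ⟨a, ha, rfl⟩
    fin_cases a <;> first | (exact absurd ha (by decide)) | simp [gen]

def y0 : Fin 5 ↪ Fin 12 := ⟨![2, 1, 0, 3, 4], by decide⟩

lemma stab_y0' (g : G) (hg : g ∈ Gk 8) (h : g • y0 = y0) : g = 1 := by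
  have hpt : ∀ i : Fin 5, g (y0 i) = y0 i := fun i =>
    congrArg (fun f : Fin 5 ↪ Fin 12 => f i) h
  exact stab_chain g hg (hpt 0) (hpt 1) (hpt 2) (hpt 3) (hpt 4)

lemma card_emb : Nat.card (Fin 5 ↪ Fin 12) = 95040 := by
  rw [Nat.card_eq_fintype_card, Fintype.card_embedding_eq]
  simp [Nat.descFactorial]

lemma surj_y0 : ∀ x : Fin 5 ↪ Fin 12, ∃ g ∈ Gk 8, g • y0 = x := by
  let φ : Gk 8 → (Fin 5 ↪ Fin 12) := fun g => (g : G) • y0
  have hinj : Function.Injective φ := by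
    intro g h hgh
    have hgh' : (g : G) • y0 = (h : G) • y0 := hgh
    have h1 : ((h : G)⁻¹ * (g : G)) • y0 = y0 := by
      rw [mul_smul, hgh', inv_smul_smul]
    have h2 := stab_y0' _ (Subgroup.mul_mem _ (Subgroup.inv_mem _ h.2) g.2) h1
    apply Subtype.ext
    exact (inv_mul_eq_one.mp h2).symm
  have hcard : Nat.card (Gk 8) = Nat.card (Fin 5 ↪ Fin 12) := by rw [card8, card_emb]
  have hbij := (Nat.bijective_iff_injective_and_card φ).mpr ⟨hinj, hcard⟩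
  intro x
  obtain ⟨g, hg⟩ := hbij.2 x
  exact ⟨g, g.2, hg⟩

lemma trans8 : MulAction.IsMultiplyPretransitive (Gk 8) (Fin 12) 5 := by
  rw [MulAction.isMultiplyPretransitive_iff]
  intro x y
  obtain ⟨a, ha, rfl⟩ := surj_y0 x
  obtain ⟨b, hb, rfl⟩ := surj_y0 y
  refine ⟨⟨b * a⁻¹, Subgroup.mul_mem _ hb (Subgroup.inv_mem _ ha)⟩, ?_⟩
  ext i
  simp [Function.Embedding.smul_apply, Subgroup.smul_def]

lemma stab_all (y : Fin 5 ↪ Fin 12) : MulAction.stabilizer (Gk 8) y = ⊥ := by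
  rw [eq_bot_iff]
  intro g hg
  rw [MulAction.mem_stabilizer_iff] at hg
  have hg' : (g : G) • y = y := hg
  obtain ⟨a, ha, rfl⟩ := surj_y0 y
  have h1 : (a⁻¹ * (g : G) * a) • y0 = y0 := by
    rw [mul_smul, mul_smul, hg', inv_smul_smul]
  have h2 := stab_y0' _ (Subgroup.mul_mem _ (Subgroup.mul_mem _ (Subgroup.inv_mem _ ha) g.2) ha) h1
  rw [Subgroup.mem_bot]
  apply Subtype.ext
  have h3 : (g : G) = a * (a⁻¹ * (g : G) * a) * a⁻¹ := by group
  rw [h3, h2]; simp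

theorem result
    (s t u v w x₁ x₂ x₃ : Equiv.Perm (Fin 12))
    (hs : s = Equiv.swap (3 : Fin 12) 5 * Equiv.swap (3 : Fin 12) 4 * Equiv.swap (6 : Fin 12) 8 * Equiv.swap (6 : Fin 12) 7 * Equiv.swap (9 : Fin 12) 11 * Equiv.swap (9 : Fin 12) 10) (ht : t = Equiv.swap (3 : Fin 12) 9 * Equiv.swap (3 : Fin 12) 6 * Equiv.swap (4 : Fin 12) 10 * Equiv.swap (4 : Fin 12) 7 * Equiv.swap (5 : Fin 12) 11 * Equiv.swap (5 : Fin 12) 8)
    (hu : u = Equiv.swap (4 : Fin 12) 9 * Equiv.swap (4 : Fin 12) 5 * Equiv.swap (4 : Fin 12) 6 * Equiv.swap (7 : Fin 12) 10 * Equiv.swap (7 : Fin 12) 11 * Equiv.swap (7 : Fin 12) 8) (hv : v = Equiv.swap (4 : Fin 12) 11 * Equiv.swap (4 : Fin 12) 5 * Equiv.swap (4 : Fin 12) 7 * Equiv.swap (6 : Fin 12) 8 * Equiv.swap (6 : Fin 12) 9 * Equiv.swap (6 : Fin 12) 10) (hw : w = Equiv.swap (4 : Fin 12) 8 * Equiv.swap (4 : Fin 12) 5 * Equiv.swap (4 : Fin 12) 10 * Equiv.swap (6 : Fin 12) 7 * Equiv.swap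 (6 : Fin 12) 9 * Equiv.swap (6 : Fin 12) 11)
    (hx₁ : x₁ = Equiv.swap (0 : Fin 12) 3 * Equiv.swap (6 : Fin 12) 7 * Equiv.swap (8 : Fin 12) 10 * Equiv.swap (9 : Fin 12) 11) (hx₂ : x₂ = Equiv.swap (0 : Fin 12) 1 * Equiv.swap (6 : Fin 12) 9 * Equiv.swap (7 : Fin 12) 10 * Equiv.swap (8 : Fin 12) 11)
    (hx₃ : x₃ = Equiv.swap (1 : Fin 12) 2 * Equiv.swap (6 : Fin 12) 11 * Equiv.swap (7 : Fin 12) 9 * Equiv.swap (8 : Fin 12) 10)
    (M₁₂ M₁₁ : Subgroup (Equiv.Perm (Fin 12))) (hM₁₂ : M₁₂ = Subgroup.closure {s, t, u, v, w, x₁, x₂, x₃})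
    (hM₁₁ : M₁₁ = Subgroup.closure {s, t, u, v, w, x₁, x₂}) :
    MulAction.IsMultiplyPretransitive M₁₂ (Fin 12) 5 ∧ (∀ y : Fin 5 ↪ Fin 12, MulAction.stabilizer M₁₂ y = ⊥) ∧
    Nat.card M₁₂ = 95040 ∧ Nat.card M₁₁ = 7920 ∧
    M₁₁ = M₁₂ ⊓ MulAction.stabilizer (Equiv.Perm (Fin 12)) (2 : Fin 12) := by
  have e12 : M₁₂ = Gk 8 := by
    rw [hM₁₂, hs, ht, hu, hv, hw, hx₁, hx₂, hx₃]
    exact congrArg Subgroup.closure set8
  have e11 : M₁₁ = Gk 7 := by
    rw [hM₁₁, hs, ht, hu, hv, hw, hx₁, hx₂]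
    exact congrArg Subgroup.closure set7
  subst e12 e11
  refine ⟨trans8, stab_all, card8, card7, ?_⟩
  apply le_antisymm
  · refine le_inf (Gk_mono (by norm_num)) ?_
    rw [Gk, Subgroup.closure_le]
    rintro g ⟨a, ha, rfl⟩
    exact hfixb0 a ha
  · rintro g ⟨hg, hg2⟩
    exact hlevel0.1 g hg hg2

end Cfsg.Agent.S3362
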