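import Cfsg.Statements.S3374
import Mathlib
import Cfsg.Agent.Lib.Helper76.FrobAction

set_option autoImplicit false
open Cfsg

namespace Cfsg.Agent.S3374

abbrev Q4 := ZMod 11 × ZMod 11 × ZMod 11 × ZMod 11

abbrev N4 := ℕ × ℕ × ℕ × ℕ

def tblN : ℕ :=
  2759342020333551677915932885720135721918476672800127213590577434516839598520258119516086173529559538671805070409590294187348446258704360393835410806567185363243130514992884369619275679944057718011773013239241843472734478852672871863497191067006306442229848681194269221508587083953799070629532970992016335018437521620429320861083201481896174098147379741104571648837077847592892894066711098264489738615721199167725985247783648732242009229396475218224547437700320484272386663503976087151212900001499260101103796649586300000371738334041411248787117403550828825502866192457539646588239186910613988081905919621371128026361743672491386024756279548527255290821634177373039172482398260372638860031812721392501190206367741420782503530469658296811005636643355995666478624569699284474093121387522967845516799466124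013988048501391043756819949522042032526087197868897691213277477241261336072731049848184061061454430049002119879171832321708942951475480595508833423929743135385516945161117780935917735117384527108233732624207436036122450549054410496669848574372821576327956701867246932794620708856106954955246181616922291272600399294790892820241660122718281640678581798703994624679228749390180065721178237374789454270312039749072288794383721794804261960452227336849194564527396465106323420448473117543145371712701829581649922179707487583954338910147919791610076026084957666298956313262370259215762517058706397528618439143874347377456769488551270188198120288654024367543829143276806323983205198822132853877647684964184547336501636275300240211225866354758271296827188217614083559364076660279534064393849745540208936872077442360778763527747333052698737949059963736156197821723552887520118538249458266398466494916973002306479082857402125059978125387275241828045123602507013432554011796828784333114875136188256906995569166057785159629436056918945062252893522301679284858408094482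6642947644751971423112022860818886457068522938696137982538705217165633243800525696766941741449588410904343364001159095645878024658908479603234591727935487863080563384881660464371264969102108174047973136342787542305739764653032164057422336697681438111613803037770902234622796065478159095863159491379053856146642145425798559975184682774674384231795588958112425937036496907389020561903397485532720650497296435004061128825580572878266532179791899796193730940283792155688384356708109564785641076752094301937370832808982341880621620980007538773539839386349442628651975916595786626689096130291560149756319600294260922965111383288540317461178594571889867501218110567922008955363195701611201755911880927378059296079445792173227338739664227735456227559500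

def idxs : List ℕ :=
  [45, 46, 47, 48, 49, 60, 61, 62, 63, 64, 90, 91, 92, 93, 94, 105, 106, 107, 108, 109, 126, 131, 136, 141, 146, 151, 157, 163, 169, 170, 176, 183, 185, 192, 199, 201, 209, 212, 215, 223, 226, 230, 239, 243, 247, 253, 258, 263, 268, 273, 278, 281, 289, 292, 295, 303, 309, 310, 316, 322, 328, 332, 336, 340, 349, 353, 355, 362, 369, 371, 377, 382, 387, 392, 397, 402, 409, 411, 418, 420, 427, 431, 435, 444, 448, 452, 458, 464, 465, 471, 477, 480, 488, 491, 499, 504, 509, 514, 519, 524, 529, 533, 537, 541, 545, 554, 557, 560, 568, 571, 579, 581, 588, 590, 597, 604, 605, 611, 617, 623]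

def ntbl (i : ℕ) : N4 :=
  (tblN / 14641 ^ i % 14641 / 1331, tblN / 14641 ^ i % 14641 / 121 % 11,
    tblN / 14641 ^ i % 14641 / 11 % 11, tblN / 14641 ^ i % 14641 % 11)

def nmul4 (x y : N4) : N4 :=
  ((x.1 * y.1 + x.2.1 * y.2.2.1) % 11, (x.1 * y.2.1 + x.2.1 * y.2.2.2) % 11,
   (x.2.2.1 * y.1 + x.2.2.2 * y.2.2.1) % 11, (x.2.2.1 * y.2.1 + x.2.2.2 * y.2.2.2) % 11)

def pidx (i j : ℕ) : ℕ :=
  125 * (((i / 125) * (j / 125) + (i / 25 % 5) * (j / 5 % 5)) % 5)
    + 25 * (((i / 125) * (j / 25 % 5) + (i / 25 % 5) * (j % 5)) % 5)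
    + 5 * (((i / 5 % 5) * (j / 125) + (i % 5) * (j / 5 % 5)) % 5)
    + ((i / 5 % 5) * (j / 25 % 5) + (i % 5) * (j % 5)) % 5

def nfree (x : N4) : ℕ := ((x.1 + 10) * (x.2.2.2 + 10) + 10 * (x.2.1 * x.2.2.1)) % 11

def idx (a b c d : ZMod 5) : ℕ := 125 * a.val + 25 * b.val + 5 * c.val + d.val

theorem mem_idxs : ∀ a b c d : ZMod 5, a * d - b * c = 1 → idx a b c d ∈ idxs := by
  decide +kernel

theorem ntbl_mul : ∀ i ∈ idxs, ∀ j ∈ idxs, ntbl (pidx i j) = nmul4 (ntbl i) (ntbl j) := by
  decide +kernel

theorem ntbl_free : ∀ i ∈ idxs, i ≠ 126 → nfree (ntbl i) ≠ 0 := by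
  decide +kernel

def cast4 (x : N4) : Q4 := ((x.1 : ZMod 11), (x.2.1 : ZMod 11), (x.2.2.1 : ZMod 11), (x.2.2.2 : ZMod 11))

def tbl (a b c d : ZMod 5) : Q4 := cast4 (ntbl (idx a b c d))

def mul4 (x y : Q4) : Q4 :=
  (x.1 * y.1 + x.2.1 * y.2.2.1, x.1 * y.2.1 + x.2.1 * y.2.2.2,
   x.2.2.1 * y.1 + x.2.2.2 * y.2.2.1, x.2.2.1 * y.2.1 + x.2.2.2 * y.2.2.2)

theorem cast4_nmul4 (x y : N4) : cast4 (nmul4 x y) = mul4 (cast4 x) (cast4 y) := by
  simp only [cast4, nmul4, mul4, ZMod.natCast_mod]
  push_cast
  rfl

theorem val_lt5 (a : ZMod 5) : a.val < 5 := ZMod.val_lt a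

theorem idx_pidx (a b c d e f g h : ZMod 5) :
    idx (a * e + b * g) (a * f + b * h) (c * e + d * g) (c * f + d * h)
      = pidx (idx a b c d) (idx e f g h) := by
  have ha := val_lt5 a
  have hb := val_lt5 b
  have hc := val_lt5 c
  have hd := val_lt5 d
  have he := val_lt5 e
  have hf := val_lt5 f
  have hg := val_lt5 g
  have hh := val_lt5 h
  have e1 : (125 * a.val + 25 * b.val + 5 * c.val + d.val) / 125 = a.val := by omega
  have e2 : (125 * a.val + 25 * b.val + 5 * c.val + d.val) / 25 % 5 = b.val := by omega
  have e3 : (125 * a.val + 25 * b.val + 5 * c.val + d.val) / 5 % 5 = c.val := by omega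
  have e4 : (125 * a.val + 25 * b.val + 5 * c.val + d.val) % 5 = d.val := by omega
  have e5 : (125 * e.val + 25 * f.val + 5 * g.val + h.val) / 125 = e.val := by omega
  have e6 : (125 * e.val + 25 * f.val + 5 * g.val + h.val) / 25 % 5 = f.val := by omega
  have e7 : (125 * e.val + 25 * f.val + 5 * g.val + h.val) / 5 % 5 = g.val := by omega
  have e8 : (125 * e.val + 25 * f.val + 5 * g.val + h.val) % 5 = h.val := by omega
  unfold pidx
  simp only [idx] at *
  rw [e1, e2, e3, e4, e5, e6, e7, e8]
  simp only [ZMod.val_add, ZMod.val_mul, Nat.add_mod, Nat.mul_mod, Nat.mod_mod]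

theorem tbl_mul (a b c d e f g h : ZMod 5) (h1 : a * d - b * c = 1) (h2 : e * h - f * g = 1) :
    tbl (a * e + b * g) (a * f + b * h) (c * e + d * g) (c * f + d * h)
      = mul4 (tbl a b c d) (tbl e f g h) := by
  unfold tbl
  rw [idx_pidx, ntbl_mul _ (mem_idxs a b c d h1) _ (mem_idxs e f g h h2), cast4_nmul4]

theorem idx_one_iff (a b c d : ZMod 5) (h : idx a b c d = 126) : a = 1 ∧ b = 0 ∧ c = 0 ∧ d = 1 := by
  revert a b c d
  decide +kernel

theorem tbl_free (a b c d : ZMod 5) (h1 : a * d - b * c = 1)
    (hne : ¬ (a = 1 ∧ b = 0 ∧ c = 0 ∧ d = 1)) :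
    ((tbl a b c d).1 - 1) * ((tbl a b c d).2.2.2 - 1) - (tbl a b c d).2.1 * (tbl a b c d).2.2.1 ≠ 0 := by
  have hf := ntbl_free _ (mem_idxs a b c d h1) (fun h => hne (idx_one_iff a b c d h))
  intro h0
  apply hf
  unfold nfree
  have h10 : (10 : ZMod 11) = -1 := by decide
  have key : (((((ntbl (idx a b c d)).1 + 10) * ((ntbl (idx a b c d)).2.2.2 + 10)
      + 10 * ((ntbl (idx a b c d)).2.1 * (ntbl (idx a b c d)).2.2.1) : ℕ)) : ZMod 11) = 0 := by
    push_cast
    rw [h10]
    simp only [tbl, cast4] at h0
    rw [← h0]
    ring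
  rw [ZMod.natCast_eq_zero_iff] at key
  exact Nat.mod_eq_zero_of_dvd key

def toMat (x : Q4) : Matrix (Fin 2) (Fin 2) (ZMod 11) :=
  !![x.1, x.2.1; x.2.2.1, x.2.2.2]

theorem toMat_mul4 (x y : Q4) : toMat (mul4 x y) = toMat x * toMat y := by
  ext i j
  fin_cases i <;> fin_cases j <;> simp [toMat, mul4, Matrix.mul_apply, Fin.sum_univ_two]

theorem tbl_one : tbl 1 0 0 1 = (1, 0, 0, 1) := by decide +kernel

def psi0 : Matrix.SpecialLinearGroup (Fin 2) (ZMod 5) →* Matrix (Fin 2) (Fin 2) (ZMod 11) where
  toFun A := toMat (tbl (A.1 0 0) (A.1 0 1) (A.1 1 0) (A.1 1 1))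
  map_one' := by
    simp only [Matrix.SpecialLinearGroup.coe_one, Matrix.one_apply_eq, ne_eq, zero_ne_one,
      not_false_eq_true, Matrix.one_apply_ne, one_ne_zero, tbl_one]
    ext i j
    fin_cases i <;> fin_cases j <;> simp [toMat]
  map_mul' A B := by
    have hA : A.1 0 0 * A.1 1 1 - A.1 0 1 * A.1 1 0 = 1 := by
      rw [← Matrix.det_fin_two]; exact A.2
    have hB : B.1 0 0 * B.1 1 1 - B.1 0 1 * B.1 1 0 = 1 := by
      rw [← Matrix.det_fin_two]; exact B.2
    rw [← toMat_mul4, ← tbl_mul _ _ _ _ _ _ _ _ hA hB]
    simp [Matrix.SpecialLinearGroup.coe_mul, Matrix.mul_apply, Fin.sum_univ_two]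

/-- SL(2,5) occurs as a Frobenius complement: there is a finite group L with a subgroup H isomorphic to SL(2,5) which is a non-trivial proper subgroup meeting each conjugate gHg⁻¹ with g outside H trivially. -/
theorem result :
    ∃ (L : Type) (_ : Group L) (_ : Finite L) (H : Subgroup L),
      Cfsg.IsFrobeniusComplement H ∧ Nonempty (H ≃* Matrix.SpecialLinearGroup (Fin 2) (ZMod 5)) := by
  have hp11 : Fact (Nat.Prime 11) := ⟨by norm_num⟩
  have hp5 : Fact (Nat.Prime 5) := ⟨by norm_num⟩
  have hnt : Nontrivial (Matrix.SpecialLinearGroup (Fin 2) (ZMod 5)) := by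
    refine ⟨⟨1, -1, ?_⟩⟩
    intro h
    have h2 := congrArg (fun A : Matrix.SpecialLinearGroup (Fin 2) (ZMod 5) => A.1 0 0) h
    simp at h2
    revert h2
    decide
  obtain ⟨L, hL1, hL2, H, hH, ⟨f⟩⟩ :=
    Cfsg.Agent.Lib.Helper76.exists_frobenius_of_units_hom (R := Matrix (Fin 2) (Fin 2) (ZMod 11))
      psi0.toHomUnits (by
    intro h hh r hr
    rw [MonoidHom.coe_toHomUnits] at hr
    have hdet : h.1 0 0 * h.1 1 1 - h.1 0 1 * h.1 1 0 = 1 := by
      rw [← Matrix.det_fin_two]; exact h.2
    have hne : ¬ (h.1 0 0 = 1 ∧ h.1 0 1 = 0 ∧ h.1 1 0 = 0 ∧ h.1 1 1 = 1) := by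
      rintro ⟨h1, h2, h3, h4⟩
      apply hh
      apply Subtype.ext
      ext i j
      fin_cases i <;> fin_cases j <;> simp [h1, h2, h3, h4]
    have hfree := tbl_free _ _ _ _ hdet hne
    set x := tbl (h.1 0 0) (h.1 0 1) (h.1 1 0) (h.1 1 1) with hx
    have hN : (psi0 h - 1).det ≠ 0 := by
      have : (psi0 h - 1).det = (x.1 - 1) * (x.2.2.2 - 1) - x.2.1 * x.2.2.1 := by
        rw [Matrix.det_fin_two]
        show (toMat x - 1) 0 0 * (toMat x - 1) 1 1 - (toMat x - 1) 0 1 * (toMat x - 1) 1 0 = _
        simp [toMat]
      rw [this]; exact hfree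
    have hunit : IsUnit (psi0 h - 1) := by
      rw [Matrix.isUnit_iff_isUnit_det]
      exact isUnit_iff_ne_zero.mpr hN
    have h0 : (psi0 h - 1) * r = 0 := by rw [sub_mul, hr, one_mul, sub_self]
    exact (IsUnit.mul_right_eq_zero hunit).mp h0)
  exact ⟨L, hL1, hL2, H, hH, ⟨f.symm⟩⟩

end Cfsg.Agent.S3374
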