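import Cfsg.Statements.S3379
import Mathlib

set_option autoImplicit false
open Cfsg

namespace Cfsg.Agent.S3379

variable {G : Type*} [Group G]

lemma comm_of_closure_top {Q : Type*} [Group Q] (a b : Q) (hab : a * b = b * a)
    (htop : Subgroup.closure {a, b} = ⊤) : ∀ u v : Q, u * v = v * u := by
  have h1 : Subgroup.closure {a, b} ≤ Subgroup.centralizer ({a, b} : Set Q) := by
    rw [Subgroup.closure_le]
    intro s hs
    rw [SetLike.mem_coe, Subgroup.mem_centralizer_iff]
    intro t ht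
    rcases hs with rfl | rfl <;> rcases ht with rfl | rfl
    · rfl
    · exact hab.symm
    · exact hab
    · rfl
  have h2 : ∀ u : Q, u ∈ Subgroup.centralizer ({a, b} : Set Q) := by
    intro u
    apply h1
    rw [htop]; exact Subgroup.mem_top u
  have h3 : Subgroup.closure {a, b} ≤ Subgroup.center Q := by
    rw [Subgroup.closure_le]
    intro s hs
    rw [SetLike.mem_coe, Subgroup.mem_center_iff]
    intro g
    have := (Subgroup.mem_centralizer_iff.mp (h2 g)) s hs
    exact this.symm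
  intro u v
  have hv : v ∈ Subgroup.center Q := by
    apply h3; rw [htop]; exact Subgroup.mem_top v
  exact (Subgroup.mem_center_iff.mp hv u)

lemma conj_pow' (x y : G) (i : ℕ) : (x⁻¹ * y * x) ^ i = x⁻¹ * y ^ i * x := by
  have := conj_pow (i := i) (a := x⁻¹) (b := y)
  simpa using this

lemma iter_conj (x y : G) (r : ℕ) (h : x⁻¹ * y * x = y ^ r) (j : ℕ) :
    (x ^ j)⁻¹ * y * x ^ j = y ^ (r ^ j) := by
  induction j with
  | zero => simp
  | succ j ih =>
    have h1 : (x ^ (j + 1))⁻¹ * y * x ^ (j + 1) = x⁻¹ * ((x ^ j)⁻¹ * y * x ^ j) * x := by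
      rw [pow_succ]; group
    rw [h1, ih, ← conj_pow', h, ← pow_mul, pow_succ, mul_comm]

theorem result {G : Type*} [Group G] [Finite G]
    (hZ : ∀ (p : ℕ) [Fact p.Prime] (P : Sylow p G), IsCyclic (P : Subgroup G)) :
    ∃ (x y : G) (n m r : ℕ), Subgroup.closure {x, y} = ⊤ ∧ orderOf x = n ∧ orderOf y = m ∧
      x⁻¹ * y * x = y ^ r ∧ Nat.Coprime (r - 1) m ∧ Nat.Coprime n m ∧ 1 ≤ r ∧ r ^ n % m = 1 % m := by
  have : IsZGroup G := ⟨fun p hp P => by have : Fact p.Prime := ⟨hp⟩; exact hZ p P⟩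
  have hcop := IsZGroup.coprime_commutator_index G
  obtain ⟨H, hH⟩ := Subgroup.exists_right_complement'_of_coprime hcop
  have hNcyc : IsCyclic (commutator G) := IsZGroup.isCyclic_commutator G
  have hHcyc : IsCyclic H := by
    have h1 : Abelianization G ≃* H := hH.symm.QuotientMulEquiv
    exact isCyclic_of_surjective _ h1.surjective
  obtain ⟨y₀, hy₀⟩ := hNcyc.exists_generator
  obtain ⟨x₀, hx₀⟩ := hHcyc.exists_generator
  set y : G := (y₀ : G) with hy
  set x : G := (x₀ : G) with hx
  have hyN : ∀ g ∈ commutator G, g ∈ Subgroup.zpowers y := by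
    intro g hg
    obtain ⟨k, hk⟩ := Subgroup.mem_zpowers_iff.mp (hy₀ ⟨g, hg⟩)
    refine Subgroup.mem_zpowers_iff.mpr ⟨k, ?_⟩
    have := congrArg Subtype.val hk
    simpa using this
  have hxH : ∀ g ∈ H, g ∈ Subgroup.zpowers x := by
    intro g hg
    obtain ⟨k, hk⟩ := Subgroup.mem_zpowers_iff.mp (hx₀ ⟨g, hg⟩)
    refine Subgroup.mem_zpowers_iff.mpr ⟨k, ?_⟩
    have := congrArg Subtype.val hk
    simpa using this
  have hordy : orderOf y = Nat.card (commutator G) := by
    rw [hy, Subgroup.orderOf_coe]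
    exact orderOf_eq_card_of_forall_mem_zpowers hy₀
  have hordx : orderOf x = Nat.card H := by
    rw [hx, Subgroup.orderOf_coe]
    exact orderOf_eq_card_of_forall_mem_zpowers hx₀
  have hmpos : 0 < orderOf y := orderOf_pos y
  -- generation
  have hgen : Subgroup.closure {x, y} = ⊤ := by
    rw [eq_top_iff, ← hH.sup_eq_top, sup_le_iff]
    constructor
    · intro g hg
      have h1 := hyN g hg
      have h2 : Subgroup.zpowers y ≤ Subgroup.closure {x, y} := by
        rw [Subgroup.zpowers_le]; exact Subgroup.subset_closure (by simp)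
      exact h2 h1
    · intro g hg
      have h1 := hxH g hg
      have h2 : Subgroup.zpowers x ≤ Subgroup.closure {x, y} := by
        rw [Subgroup.zpowers_le]; exact Subgroup.subset_closure (by simp)
      exact h2 h1
  -- the exponent r
  have hconj : x⁻¹ * y * x ∈ commutator G := by
    have hn : (commutator G).Normal := inferInstance
    have := hn.conj_mem y y₀.2 x⁻¹
    simpa using this
  obtain ⟨k, hk⟩ := Subgroup.mem_zpowers_iff.mp (hyN _ hconj)
  have hk' : y ^ (k % (orderOf y : ℤ)) = x⁻¹ * y * x := by rw [zpow_mod_orderOf, hk]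
  have hnn : 0 ≤ k % (orderOf y : ℤ) := Int.emod_nonneg _ (by exact_mod_cast hmpos.ne')
  set r₀ : ℕ := (k % (orderOf y : ℤ)).toNat with hr₀
  have hr₀' : y ^ r₀ = x⁻¹ * y * x := by
    rw [← hk', ← zpow_natCast, hr₀, Int.toNat_of_nonneg hnn]
  obtain ⟨r, hr1, hr⟩ : ∃ r : ℕ, 1 ≤ r ∧ x⁻¹ * y * x = y ^ r := by
    by_cases h0 : r₀ = 0
    · refine ⟨orderOf y, hmpos, ?_⟩
      rw [← hr₀', h0, pow_zero, pow_orderOf_eq_one]
    · exact ⟨r₀, Nat.one_le_iff_ne_zero.mpr h0, hr₀'.symm⟩
  refine ⟨x, y, orderOf x, orderOf y, r, hgen, rfl, rfl, hr, ?_, ?_, hr1, ?_⟩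
  · -- coprime (r-1) m
    let Z : Subgroup G := Subgroup.zpowers (y ^ (r - 1))
    have hZn : Z.Normal := by
      constructor
      intro z hz g
      obtain ⟨i, rfl⟩ := Subgroup.mem_zpowers_iff.mp hz
      have hn : (commutator G).Normal := inferInstance
      have hgy : g * y * g⁻¹ ∈ commutator G := hn.conj_mem y y₀.2 g
      obtain ⟨j, hj⟩ := Subgroup.mem_zpowers_iff.mp (hyN _ hgy)
      refine Subgroup.mem_zpowers_iff.mpr ⟨j * i, ?_⟩
      have h1 : g * (y ^ (r - 1)) ^ i * g⁻¹ = (g * y * g⁻¹) ^ (((r - 1 : ℕ) : ℤ) * i) := by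
        rw [← zpow_natCast, ← zpow_mul]
        exact map_zpow (MulAut.conj g) y _
      rw [h1, ← hj, ← zpow_natCast, ← zpow_mul, ← zpow_mul]
      congr 1; ring
    have hcomm : ∀ u v : G ⧸ Z, u * v = v * u := by
      apply comm_of_closure_top (QuotientGroup.mk' Z x) (QuotientGroup.mk' Z y)
      · rw [← map_mul, ← map_mul]
        apply (QuotientGroup.eq).mpr
        -- (x*y)⁻¹ * (y*x) ∈ Z
        have h1 : (x * y)⁻¹ * (y * x) = y⁻¹ * (x⁻¹ * y * x) := by group
        rw [h1, hr]
        refine Subgroup.mem_zpowers_iff.mpr ⟨1, ?_⟩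
        rw [zpow_one]
        have h2 : y ^ r = y * y ^ (r - 1) := by
          rw [← pow_succ', Nat.sub_add_cancel hr1]
        rw [h2]; group
      · have h1 : Subgroup.map (QuotientGroup.mk' Z) (Subgroup.closure {x, y}) = ⊤ := by
          rw [hgen]
          exact Subgroup.map_top_of_surjective _ (QuotientGroup.mk'_surjective Z)
        rw [MonoidHom.map_closure] at h1
        rw [← h1]
        congr 1
        ext u
        simp [Set.image_pair]
    have hle : commutator G ≤ Z := by
      rw [← Subgroup.Normal.quotient_commutative_iff_commutator_le]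
      exact ⟨⟨hcomm⟩⟩
    have hyZ : y ∈ Z := hle y₀.2
    have h1 : Subgroup.zpowers y ≤ Z := Subgroup.zpowers_le.mpr hyZ
    have h2 : Nat.card (Subgroup.zpowers y) ≤ Nat.card Z := Subgroup.card_le_of_le h1
    rw [Nat.card_zpowers, Nat.card_zpowers, orderOf_pow] at h2
    show Nat.gcd (r - 1) (orderOf y) = 1
    rw [Nat.gcd_comm]
    by_contra hne
    have hg : 1 < Nat.gcd (orderOf y) (r - 1) := by
      have hpos : 0 < Nat.gcd (orderOf y) (r - 1) := Nat.gcd_pos_of_pos_left _ hmpos
      omega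
    have := Nat.div_lt_self hmpos hg
    omega
  · -- coprime n m
    rw [hordx, hordy, ← hH.symm.index_eq_card]
    exact hcop.symm
  · -- r^n ≡ 1
    have h1 := iter_conj x y r hr (orderOf x)
    rw [pow_orderOf_eq_one] at h1
    simp only [inv_one, one_mul, mul_one] at h1
    have h2 : y ^ (r ^ orderOf x) = y ^ 1 := by rw [← h1, pow_one]
    exact pow_eq_pow_iff_modEq.mp h2

end Cfsg.Agent.S3379
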