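import Cfsg.Statements.S3381
import Mathlib

set_option autoImplicit false
open Cfsg

namespace Cfsg.Agent.S3381

section general

variable {K V : Type*} [Field K] [AddCommGroup V] [Module K V] [Finite V]

lemma card_mul_le (p p' : Submodule K V) (hdisj : ∀ v, v ∈ p → v ∈ p' → v = 0) :
    Nat.card p * Nat.card p' ≤ Nat.card V := by
  rw [← Nat.card_prod]
  apply Nat.card_le_card_of_injective (fun x : p × p' => (x.1 : V) + (x.2 : V))
  rintro ⟨⟨a, ha⟩, ⟨b, hb⟩⟩ ⟨⟨a', ha'⟩, ⟨b', hb'⟩⟩ h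
  have h' : a + b = a' + b' := h
  have h1 : a - a' = b' - b := by
    rw [sub_eq_sub_iff_add_eq_add, h', add_comm]
  have h2 : a - a' = 0 := hdisj _ (p.sub_mem ha ha') (h1 ▸ p'.sub_mem hb' hb)
  have h3 : b' - b = 0 := by rw [← h1, h2]
  have e1 : a = a' := sub_eq_zero.mp h2
  have e2 : b' = b := sub_eq_zero.mp h3
  subst e1; subst e2; rfl

lemma card_mul_eq (p p' : Submodule K V) (hdisj : ∀ v, v ∈ p → v ∈ p' → v = 0)
    (hspan : ∀ v : V, ∃ a ∈ p, ∃ b ∈ p', v = a + b) :
    Nat.card p * Nat.card p' = Nat.card V := by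
  apply le_antisymm (card_mul_le p p' hdisj)
  rw [← Nat.card_prod]
  apply Nat.card_le_card_of_surjective (fun x : p × p' => (x.1 : V) + (x.2 : V))
  intro v
  obtain ⟨a, ha, b, hb, rfl⟩ := hspan v
  exact ⟨(⟨a, ha⟩, ⟨b, hb⟩), rfl⟩

end general

lemma arith1 (a b c d N : ℕ) (ha : 0 < a) (hb : 0 < b) (hab : a * b = N) (hcd : c * d = N)
    (h1 : c * a ≤ N) (h2 : c * b ≤ N) (h3 : d * a ≤ N) (h4 : d * b ≤ N) : a = b := by
  have hca : c ≤ b := by
    rw [← hab, mul_comm a b] at h1
    exact Nat.le_of_mul_le_mul_right h1 ha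
  have hcb : c ≤ a := by
    rw [← hab] at h2
    exact Nat.le_of_mul_le_mul_right h2 hb
  have hda : d ≤ b := by
    rw [← hab, mul_comm a b] at h3
    exact Nat.le_of_mul_le_mul_right h3 ha
  have hdb : d ≤ a := by
    rw [← hab] at h4
    exact Nat.le_of_mul_le_mul_right h4 hb
  rcases Nat.lt_trichotomy a b with h | h | h
  · exfalso
    have : c * d ≤ a * a := Nat.mul_le_mul hcb hdb
    have : a * a < a * b := Nat.mul_lt_mul_of_pos_left h ha
    omega
  · exact h
  · exfalso
    have : c * d ≤ b * b := Nat.mul_le_mul hca hda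
    have : b * b < a * b := Nat.mul_lt_mul_of_pos_right h hb
    omega

lemma arith2 (c I : ℕ) (hc : 2 ≤ c) (h : c * c - 1 = I * (c - 1)) : I = c + 1 := by
  obtain ⟨k, rfl⟩ : ∃ k, c = k + 2 := ⟨c - 2, by omega⟩
  have h1 : (k + 2) * (k + 2) - 1 = (k + 3) * (k + 1) := by
    have : (k + 2) * (k + 2) = (k + 3) * (k + 1) + 1 := by ring
    omega
  have h2 : k + 2 - 1 = k + 1 := by omega
  rw [h1, h2] at h
  have := Nat.eq_of_mul_eq_mul_right (by omega : 0 < k + 1) h
  omega

theorem result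
    (q : ℕ) [Fact q.Prime] {V : Type*} [AddCommGroup V] [Module (ZMod q) V] [Finite V] [Nontrivial V]
    {G : Type*} [Group G] [Finite G] (ρ : G →* (V ≃ₗ[ZMod q] V)) (hρ : Function.Injective ρ)
    (hstab : ∀ v : V, v ≠ 0 → Nat.card {g : G // ρ g v = v} = 2)
    (z : G) (hz : orderOf z = 2) (hzc : z ∈ Subgroup.center G) :
    ∃ r : ℕ, Nat.card V = q ^ (2 * r) ∧
      Nat.card {g : G // orderOf g = 2 ∧ g ∉ Subgroup.center G} = q ^ r + 1 := by
  classical
  have hmul : ∀ (g h : G) (v : V), ρ (g * h) v = ρ g (ρ h v) := by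
    intro g h v; rw [map_mul]; rfl
  have hone : ∀ v : V, ρ 1 v = v := by intro v; rw [map_one]; rfl
  have hzz : z * z = 1 := by
    have := pow_orderOf_eq_one z; rw [hz, pow_two] at this; exact this
  have hz1 : z ≠ 1 := by
    intro h; rw [h, orderOf_one] at hz; omega
  have hzcomm : ∀ g : G, g * z = z * g := fun g => Subgroup.mem_center_iff.mp hzc g
  -- A
  have hA : ∀ v : V, v ≠ 0 → ∃ t : G, t ≠ 1 ∧ ρ t v = v ∧ ∀ g : G, ρ g v = v → g = 1 ∨ g = t := by
    intro v hv
    have h2 := hstab v hv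
    rw [Nat.card_eq_two_iff' (⟨1, hone v⟩ : {g : G // ρ g v = v})] at h2
    obtain ⟨⟨t, ht⟩, ht1, huniq⟩ := h2
    refine ⟨t, ?_, ht, ?_⟩
    · intro h; apply ht1; exact Subtype.ext h
    · intro g hg
      by_cases hg1 : g = 1
      · exact Or.inl hg1
      · right
        have := huniq ⟨g, hg⟩ (by intro h; exact hg1 (congrArg Subtype.val h))
        exact congrArg Subtype.val this
  have huniq : ∀ (v : V), v ≠ 0 → ∀ s t : G, s ≠ 1 → t ≠ 1 → ρ s v = v → ρ t v = v → s = t := by
    intro v hv s t hs1 ht1 hsv htv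
    obtain ⟨u, hu1, huv, hu⟩ := hA v hv
    rw [(hu s hsv).resolve_left hs1, (hu t htv).resolve_left ht1]
  have hsq : ∀ (v : V), v ≠ 0 → ∀ t : G, t ≠ 1 → ρ t v = v → t * t = 1 := by
    intro v hv t ht1 htv
    have h3 : ρ (t * t) v = v := by rw [hmul, htv, htv]
    by_contra hne
    have := huniq v hv (t * t) t hne ht1 h3 htv
    apply ht1
    have := congrArg (fun x => t⁻¹ * x) this
    simpa using this
  -- B: z acts as -1
  have hzv2 : ∀ v : V, ρ z (ρ z v) = v := by intro v; rw [← hmul, hzz, hone]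
  have hB1 : ∀ v : V, ρ z v ≠ v → ρ z v = -v := by
    intro v hv
    have hv0 : v ≠ 0 := by rintro rfl; exact hv (map_zero _)
    obtain ⟨s, hs1, hsv, hs⟩ := hA v hv0
    have hsz : ρ s (ρ z v) = ρ z v := by
      rw [← hmul, hzcomm s, hmul, hsv]
    by_contra hne
    have hw : v + ρ z v ≠ 0 := by
      intro h; apply hne; exact (eq_neg_of_add_eq_zero_right h)
    have h1 : ρ z (v + ρ z v) = v + ρ z v := by rw [map_add, hzv2, add_comm]
    have h2 : ρ s (v + ρ z v) = v + ρ z v := by rw [map_add, hsv, hsz]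
    have := huniq _ hw s z hs1 hz1 h2 h1
    rw [this] at hsv
    exact hv hsv
  have hB2 : ∀ u : V, u ≠ 0 → ρ z u ≠ u := by
    intro u hu hzu
    have : ∃ v : V, ρ z v ≠ v := by
      by_contra hcon
      push Not at hcon
      apply hz1
      apply hρ
      ext v
      rw [hcon v, hone]
    obtain ⟨v, hv⟩ := this
    have hzv := hB1 v hv
    have hvv : -v ≠ v := by rw [← hzv]; exact hv
    have h3 : ρ z (u + v) = u + -v := by rw [map_add, hzu, hzv]
    by_cases h4 : ρ z (u + v) = u + v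
    · rw [h3] at h4
      exact hvv (add_left_cancel h4)
    · have h5 := hB1 (u + v) h4
      rw [h3, neg_add] at h5
      have h6 : u = -u := add_right_cancel h5
      have h7 : (2 : ZMod q) • u = 0 := by
        rw [two_smul]
        nth_rewrite 1 [h6]
        exact neg_add_cancel u
      have h8 : (2 : ZMod q) = 0 := (smul_eq_zero.mp h7).resolve_right hu
      have h9 : (2 : ZMod q) • v = 0 := by rw [h8, zero_smul]
      rw [two_smul] at h9
      exact hvv (neg_eq_of_add_eq_zero_left h9)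
  have hB : ∀ v : V, ρ z v = -v := by
    intro v
    by_cases hv : v = 0
    · rw [hv]; simp
    · exact hB1 v (hB2 v hv)
  have hneg : ∀ v : V, v ≠ 0 → -v ≠ v := by
    intro v hv h; exact hB2 v hv (by rw [hB, h])
  have hneg' : ∀ v : V, v = -v → v = 0 := by
    intro v h
    by_contra hv
    exact hneg v hv h.symm
  have h2ne : (2 : ZMod q) ≠ 0 := by
    intro h
    obtain ⟨v, hv⟩ := exists_ne (0 : V)
    apply hneg v hv
    have : (2 : ZMod q) • v = 0 := by rw [h, zero_smul]
    rw [two_smul] at this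
    exact neg_eq_of_add_eq_zero_left this
  -- the involutions other than z
  let I : G → Prop := fun t => orderOf t = 2 ∧ t ≠ z
  have hI1 : ∀ t, I t → t ≠ 1 := by
    rintro t ⟨h, -⟩ rfl; rw [orderOf_one] at h; omega
  have hI2 : ∀ t, I t → t * t = 1 := by
    rintro t ⟨h, -⟩
    have := pow_orderOf_eq_one t; rw [h, pow_two] at this; exact this
  have hIof : ∀ t, t ≠ 1 → t * t = 1 → t ≠ z → I t := by
    intro t h1 h2 h3
    refine ⟨?_, h3⟩
    have : Fact (Nat.Prime 2) := ⟨Nat.prime_two⟩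
    exact orderOf_eq_prime (by rw [pow_two]; exact h2) h1
  have hItt : ∀ t, I t → ∀ v, ρ t (ρ t v) = v := by
    intro t ht v; rw [← hmul, hI2 t ht, hone]
  have hAI : ∀ v : V, v ≠ 0 → ∃ t, I t ∧ ρ t v = v := by
    intro v hv
    obtain ⟨t, ht1, htv, -⟩ := hA v hv
    refine ⟨t, hIof t ht1 (hsq v hv t ht1 htv) ?_, htv⟩
    rintro rfl
    exact hB2 v hv htv
  have hIuniq : ∀ v : V, v ≠ 0 → ∀ s t, I s → I t → ρ s v = v → ρ t v = v → s = t := by
    intro v hv s t hs ht hsv htv
    exact huniq v hv s t (hI1 s hs) (hI1 t ht) hsv htv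
  have hIz : ∀ t, I t → I (t * z) := by
    intro t ht
    apply hIof
    · intro h
      have : t * z = z * z := by rw [h, hzz]
      exact ht.2 (mul_right_cancel this)
    · calc t * z * (t * z) = (t * t) * (z * z) := by
            rw [mul_assoc, ← mul_assoc z t z, ← hzcomm t]; group
        _ = 1 := by rw [hI2 t ht, hzz, mul_one]
    · intro h
      have : t * z = 1 * z := by rw [h, one_mul]
      exact hI1 t ht (mul_right_cancel this)
  have htz : ∀ t v, ρ (t * z) v = -ρ t v := by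
    intro t v; rw [hmul, hB, map_neg]
  -- fixed spaces
  let C : G → Submodule (ZMod q) V := fun t =>
    LinearMap.ker (((ρ t : V ≃ₗ[ZMod q] V) : V →ₗ[ZMod q] V) - LinearMap.id)
  have hC : ∀ t v, v ∈ C t ↔ ρ t v = v := by
    intro t v
    simp only [C, LinearMap.mem_ker, LinearMap.sub_apply, LinearMap.id_apply, sub_eq_zero]
    rfl
  have hCz : ∀ t v, v ∈ C (t * z) ↔ ρ t v = -v := by
    intro t v
    rw [hC, htz, neg_eq_iff_eq_neg]
  have hCne : ∀ t, I t → ∃ a, a ∈ C t ∧ a ≠ 0 := by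
    intro t ht
    have : ∃ v : V, ρ t v ≠ -v := by
      by_contra hcon
      push Not at hcon
      apply ht.2
      apply hρ
      ext v
      rw [hcon v, hB]
    obtain ⟨v, hv⟩ := this
    refine ⟨v + ρ t v, ?_, ?_⟩
    · rw [hC, map_add, hItt t ht, add_comm]
    · intro h
      exact hv (eq_neg_of_add_eq_zero_right h)
  have hdisjz : ∀ t, ∀ v, v ∈ C t → v ∈ C (t * z) → v = 0 := by
    intro t v h1 h2
    rw [hC] at h1
    rw [hCz, h1] at h2
    exact hneg' v h2
  have hdecomp : ∀ t, I t → ∀ v : V, ∃ a ∈ C t, ∃ b ∈ C (t * z), v = a + b := by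
    intro t ht v
    refine ⟨(2 : ZMod q)⁻¹ • (v + ρ t v), ?_, (2 : ZMod q)⁻¹ • (v - ρ t v), ?_, ?_⟩
    · rw [hC, map_smul, map_add, hItt t ht, add_comm]
    · rw [hCz, map_smul, map_sub, hItt t ht, ← smul_neg, neg_sub]
    · rw [← smul_add, add_add_sub_cancel, ← two_smul (ZMod q) v, smul_smul,
        inv_mul_cancel₀ h2ne, one_smul]
  have hcardz : ∀ t, I t → Nat.card (C t) * Nat.card (C (t * z)) = Nat.card V := by
    intro t ht
    exact card_mul_eq (C t) (C (t * z)) (hdisjz t) (hdecomp t ht)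
  have hdisj : ∀ s t, I s → I t → s ≠ t → ∀ v, v ∈ C s → v ∈ C t → v = 0 := by
    intro s t hs ht hst v h1 h2
    by_contra hv
    rw [hC] at h1 h2
    exact hst (hIuniq v hv s t hs ht h1 h2)
  have hcardle : ∀ s t, I s → I t → s ≠ t → Nat.card (C s) * Nat.card (C t) ≤ Nat.card V := by
    intro s t hs ht hst
    exact card_mul_le (C s) (C t) (hdisj s t hs ht hst)
  have hthird : ∀ t, I t → ∃ t₁, I t₁ ∧ t₁ ≠ t ∧ t₁ ≠ t * z := by
    intro t ht
    obtain ⟨a, haC, ha0⟩ := hCne t ht
    obtain ⟨b, hbC, hb0⟩ := hCne (t * z) (hIz t ht)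
    rw [hC] at haC
    rw [hCz] at hbC
    have hv : a + b ≠ 0 := by
      intro h
      have hab : a = -b := eq_neg_of_add_eq_zero_left h
      apply ha0
      apply hneg'
      have h1 : ρ t a = -a := by rw [hab, map_neg, hbC]
      rw [haC] at h1
      exact h1
    obtain ⟨t₁, ht₁, ht₁v⟩ := hAI (a + b) hv
    refine ⟨t₁, ht₁, ?_, ?_⟩
    · rintro rfl
      rw [map_add, haC, hbC] at ht₁v
      exact hb0 (hneg' b (add_left_cancel ht₁v).symm)
    · rintro rfl
      rw [htz, map_add, haC, hbC, neg_add, neg_neg] at ht₁v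
      exact ha0 (hneg' a (add_right_cancel ht₁v).symm)
  have hpos : ∀ t, 0 < Nat.card (C t) := fun t => Nat.card_pos
  have hsqcard : ∀ t, I t → Nat.card (C t) * Nat.card (C t) = Nat.card V := by
    intro t ht
    obtain ⟨t₁, ht₁, hne1, hne2⟩ := hthird t ht
    have hne3 : t₁ * z ≠ t := by
      intro h
      apply hne2
      rw [← h, mul_assoc, hzz, mul_one]
    have hne4 : t₁ * z ≠ t * z := by
      intro h
      exact hne1 (mul_right_cancel h)
    have hab := hcardz t ht
    have hcd := hcardz t₁ ht₁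
    have h1 := hcardle t₁ t ht₁ ht hne1
    have h2 := hcardle t₁ (t * z) ht₁ (hIz t ht) hne2
    have h3 := hcardle (t₁ * z) t (hIz t₁ ht₁) ht hne3
    have h4 := hcardle (t₁ * z) (t * z) (hIz t₁ ht₁) (hIz t ht) hne4
    have := arith1 _ _ _ _ _ (hpos t) (hpos (t * z)) hab hcd h1 h2 h3 h4
    rw [← this] at hab
    exact hab
  -- non-central
  have hnc : ∀ t, I t → t ∉ Subgroup.center G := by
    intro t ht htc
    have htcomm : ∀ g : G, g * t = t * g := fun g => Subgroup.mem_center_iff.mp htc g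
    obtain ⟨t₁, ht₁, hne1, hne2⟩ := hthird t ht
    have h1 : ∀ a, a ∈ C t → ρ t₁ a = -a := by
      intro a ha
      rw [hC] at ha
      have hta : ρ t (ρ t₁ a) = ρ t₁ a := by
        rw [← hmul, ← htcomm t₁, hmul, ha]
      by_contra hcon
      have hw : a + ρ t₁ a ≠ 0 := by
        intro h; exact hcon (eq_neg_of_add_eq_zero_right h)
      have e1 : ρ t₁ (a + ρ t₁ a) = a + ρ t₁ a := by
        rw [map_add, hItt t₁ ht₁, add_comm]
      have e2 : ρ t (a + ρ t₁ a) = a + ρ t₁ a := by
        rw [map_add, ha, hta]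
      exact hne1 (hIuniq _ hw t₁ t ht₁ ht e1 e2)
    have h2 : ∀ b, b ∈ C (t * z) → ρ t₁ b = -b := by
      intro b hb
      have hb' := hb
      rw [hC] at hb'
      have hcomm' : t * z * t₁ = t₁ * (t * z) := by
        rw [mul_assoc, ← hzcomm t₁, ← mul_assoc, ← htcomm t₁, mul_assoc]
      have hta : ρ (t * z) (ρ t₁ b) = ρ t₁ b := by
        rw [← hmul, hcomm', hmul, hb']
      by_contra hcon
      have hw : b + ρ t₁ b ≠ 0 := by
        intro h; exact hcon (eq_neg_of_add_eq_zero_right h)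
      have e1 : ρ t₁ (b + ρ t₁ b) = b + ρ t₁ b := by
        rw [map_add, hItt t₁ ht₁, add_comm]
      have e2 : ρ (t * z) (b + ρ t₁ b) = b + ρ t₁ b := by
        rw [map_add, hb', hta]
      exact hne2 (hIuniq _ hw t₁ (t * z) ht₁ (hIz t ht) e1 e2)
    apply ht₁.2
    apply hρ
    ext v
    obtain ⟨a, ha, b, hb, rfl⟩ := hdecomp t ht v
    rw [map_add, h1 a ha, h2 b hb, hB, neg_add]
  -- a base involution
  obtain ⟨v₀, hv₀⟩ := exists_ne (0 : V)
  obtain ⟨t₀, ht₀, -⟩ := hAI v₀ hv₀
  letI : Fintype V := Fintype.ofFinite V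
  letI : Fintype G := Fintype.ofFinite G
  set c := Nat.card (C t₀) with hc
  have hcc : c * c = Nat.card V := hsqcard t₀ ht₀
  have hcardC : ∀ t, I t → Nat.card (C t) = c := by
    intro t ht
    have := hsqcard t ht
    rw [← hcc] at this
    exact Nat.mul_self_inj.mp this
  have hc2 : 2 ≤ c := by
    obtain ⟨a, ha, ha0⟩ := hCne t₀ ht₀
    have : Nontrivial (C t₀) := ⟨⟨⟨a, ha⟩, 0, fun h => ha0 (congrArg Subtype.val h)⟩⟩
    exact Finite.one_lt_card
  -- counting
  let Ifs : Finset G := Finset.univ.filter (fun t => I t)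
  have hcover : (Finset.univ.filter (fun v : V => v ≠ 0)) =
      Ifs.biUnion (fun t => (Finset.univ.filter (fun v : V => ρ t v = v)).erase 0) := by
    ext v
    simp only [Finset.mem_filter, Finset.mem_univ, true_and, Finset.mem_biUnion, Finset.mem_erase, Ifs]
    constructor
    · intro hv
      obtain ⟨t, ht, htv⟩ := hAI v hv
      exact ⟨t, ht, hv, htv⟩
    · rintro ⟨t, -, hv, -⟩
      exact hv
  have hfib : ∀ t ∈ Ifs, ((Finset.univ.filter (fun v : V => ρ t v = v)).erase 0).card = c - 1 := by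
    intro t ht
    have ht' : I t := by simpa [Ifs] using ht
    rw [Finset.card_erase_of_mem (by simp)]
    congr 1
    rw [← hcardC t ht', Nat.card_eq_fintype_card]
    rw [← Fintype.card_subtype]
    apply Fintype.card_congr
    exact Equiv.subtypeEquivRight (fun v => (hC t v).symm)
  have hcount : Nat.card V - 1 = Ifs.card * (c - 1) := by
    have h1 : (Finset.univ.filter (fun v : V => v ≠ 0)).card = Nat.card V - 1 := by
      rw [Finset.filter_ne', Finset.card_erase_of_mem (Finset.mem_univ _), Finset.card_univ,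
        Nat.card_eq_fintype_card]
    rw [← h1, hcover, Finset.card_biUnion]
    · rw [Finset.sum_congr rfl hfib, Finset.sum_const, smul_eq_mul]
    · intro s hs t ht hst
      have hs' : I s := by simpa [Ifs] using hs
      have ht' : I t := by simpa [Ifs] using ht
      rw [Function.onFun, Finset.disjoint_left]
      intro v hvs hvt
      simp only [Finset.mem_erase, Finset.mem_filter, Finset.mem_univ, true_and] at hvs hvt
      exact hvs.1 (hdisj s t hs' ht' hst v ((hC s v).mpr hvs.2) ((hC t v).mpr hvt.2))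
  have hIcard : Ifs.card = c + 1 := by
    rw [← hcc] at hcount
    exact arith2 c Ifs.card hc2 hcount
  refine ⟨Module.finrank (ZMod q) (C t₀), ?_, ?_⟩
  · have h1 : c = q ^ Module.finrank (ZMod q) (C t₀) := by
      rw [hc, Module.natCard_eq_pow_finrank (K := ZMod q), Nat.card_zmod]
    rw [← hcc, h1]; ring
  · have h1 : c = q ^ Module.finrank (ZMod q) (C t₀) := by
      rw [hc, Module.natCard_eq_pow_finrank (K := ZMod q), Nat.card_zmod]
    rw [← h1, ← hIcard, Nat.card_eq_fintype_card, Fintype.card_subtype]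
    congr 1
    apply Finset.filter_congr
    intro g _
    constructor
    · rintro ⟨h1, h2⟩
      refine ⟨h1, ?_⟩
      rintro rfl
      exact h2 hzc
    · intro h
      exact ⟨h.1, hnc g h⟩

end Cfsg.Agent.S3381
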