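import Cfsg.Statements.S3382
import Mathlib

namespace Cfsg.Agent.S3382

theorem chain {H : Type*} [Group H] (β : MulAut H) (r : ℕ) (hr : Odd r) (hβ : β ^ r = 1)
    (g n : H) (hg : β g = g * n) (hn : β n = n) (k : ℕ) (hk : n ^ 2 ^ k = 1) : β g = g := by
  have h1 : ∀ j : ℕ, (β ^ j) g = g * n ^ j := by
    intro j
    induction j with
    | zero => simp
    | succ j ih =>
      rw [pow_succ', MulAut.mul_apply, ih, map_mul, map_pow, hg, hn, mul_assoc, ← pow_succ']
  have h2 := h1 r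
  rw [hβ, MulAut.one_apply] at h2
  have h3 : n ^ r = 1 := by simpa using h2.symm
  have h4 : orderOf n ∣ r := orderOf_dvd_of_pow_eq_one h3
  have h5 : orderOf n ∣ 2 ^ k := orderOf_dvd_of_pow_eq_one hk
  have hc : Nat.Coprime r (2 ^ k) := Nat.Coprime.pow_right k hr.coprime_two_right
  have h6 : orderOf n = 1 := Nat.eq_one_of_dvd_coprimes hc h4 h5
  rw [orderOf_eq_one_iff] at h6
  rw [hg, h6, mul_one]

theorem z2a : ∀ a : ZMod 2, a ≠ 0 → a = 1 := by decide
theorem z2s : ∀ s : ZMod 2, (s = 1 ∨ s = -1) → s = 1 := by decide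
theorem z3a : ∀ a : ZMod 3, a ≠ 0 → a = 1 ∨ a = -1 := by decide
theorem z3sq : ∀ a : ZMod 3, a ≠ 0 → a * a = 1 := by decide
theorem z3neg : (-1 : ZMod 3) ≠ 1 := by decide
theorem z3m1 : (-1 : ZMod 3) ≠ 0 := by decide
theorem z3e11 : (-1 : ZMod 3) * (-1) = 1 := by decide

section
variable {q : ℕ} [Fact q.Prime]

abbrev L (q : ℕ) := (Fin 2 → ZMod q) ≃ₗ[ZMod q] (Fin 2 → ZMod q)

def isD (f : L q) (a s : ZMod q) : Prop := ∀ v, f v = ![a * v 0, s * a⁻¹ * v 1]
def isW (f : L q) (a s : ZMod q) : Prop := ∀ v, f v = ![s * a⁻¹ * v 1, a * v 0]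

theorem isD_one : isD (1 : L q) 1 1 := by
  intro v
  ext i
  fin_cases i <;> simp

theorem isD_ext {f g : L q} {a s : ZMod q} (hf : isD f a s) (hg : isD g a s) : f = g := by
  ext v i
  rw [hf v, hg v]

theorem isD_param {f : L q} {a s b t : ZMod q} (ha : a ≠ 0) (hf : isD f a s) (hg : isD f b t) :
    a = b ∧ s = t := by
  have h0 := (hf ![1, 0]).symm.trans (hg ![1, 0])
  have h1 := (hf ![0, 1]).symm.trans (hg ![0, 1])
  have e0 : a = b := by simpa using congrFun h0 0
  subst e0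
  refine ⟨rfl, ?_⟩
  have e1 : s * a⁻¹ = t * a⁻¹ := by simpa using congrFun h1 1
  exact mul_right_cancel₀ (inv_ne_zero ha) e1

theorem not_D_W {f : L q} {a s b t : ZMod q} (hb : b ≠ 0) (hf : isD f a s) (hg : isW f b t) : False := by
  have h0 := (hf ![1, 0]).symm.trans (hg ![1, 0])
  have e1 : (0 : ZMod q) = b := by simpa using congrFun h0 1
  exact hb e1.symm

theorem isD_mul {f g : L q} {a s b t : ZMod q} (hf : isD f a s) (hg : isD g b t) :
    isD (f * g) (a * b) (s * t) := by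
  intro v
  rw [LinearEquiv.mul_apply, hf, hg]
  ext i
  fin_cases i
  · simp; ring
  · simp; ring

theorem isD_inv {f : L q} {a s : ZMod q} (ha : a ≠ 0) (hs : s * s = 1) (hf : isD f a s) :
    isD f⁻¹ a⁻¹ s := by
  intro v
  show f.symm v = _
  rw [LinearEquiv.symm_apply_eq, hf]
  ext i
  fin_cases i
  · simp [ha]
  · simp
    have : s * a⁻¹ * (s * a * v 1) = (s * s) * (a⁻¹ * a) * v 1 := by ring
    rw [this, hs, inv_mul_cancel₀ ha]; ring

theorem isW_inv_mul {f g : L q} {a s b t : ZMod q} (ha : a ≠ 0) (hs : s * s = 1)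
    (hf : isW f a s) (hg : isW g b t) : isD (f⁻¹ * g) (a⁻¹ * b) (s * t) := by
  intro v
  rw [LinearEquiv.mul_apply]
  show f.symm (g v) = _
  rw [LinearEquiv.symm_apply_eq, hf, hg]
  ext i
  fin_cases i
  · simp
    have : s * a⁻¹ * (s * t * (b⁻¹ * a) * v 1) = (s * s) * (a⁻¹ * a) * (t * b⁻¹ * v 1) := by ring
    rw [this, hs, inv_mul_cancel₀ ha]; ring
  · simp
    rw [← mul_assoc, ← mul_assoc, mul_inv_cancel₀ ha, one_mul]

theorem isW_sq {f : L q} {a s : ZMod q} (ha : a ≠ 0) (hs : s * s = 1) (hf : isW f a s) :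
    isD (f * f) s 1 := by
  intro v
  rw [LinearEquiv.mul_apply, hf, hf]
  have hsi : s⁻¹ = s := inv_eq_of_mul_eq_one_left hs
  ext i
  fin_cases i
  · simp
    have : s * a⁻¹ * (a * v 0) = s * (a⁻¹ * a) * v 0 := by ring
    rw [this, inv_mul_cancel₀ ha]; ring
  · simp [hsi]
    have : a * (s * a⁻¹ * v 1) = s * (a * a⁻¹) * v 1 := by ring
    rw [this, mul_inv_cancel₀ ha]; ring

theorem isD_comm {f g : L q} {a s b t : ZMod q} (hf : isD f a s) (hg : isD g b t) :
    f * g = g * f := by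
  have h1 := isD_mul hf hg
  have h2 := isD_mul hg hf
  rw [mul_comm b a, mul_comm t s] at h2
  exact isD_ext h1 h2

theorem isD_pow {f : L q} {a s : ZMod q} (hf : isD f a s) (k : ℕ) : isD (f ^ k) (a ^ k) (s ^ k) := by
  induction k with
  | zero => simpa using isD_one
  | succ k ih => rw [pow_succ, pow_succ, pow_succ]; exact isD_mul ih hf

theorem D_W_comm {f g : L q} {a s b t : ZMod q} (ha : a ≠ 0) (hb : b ≠ 0)
    (hf : isD f a s) (hg : isW g b t) (h : f * g = g * f) : a * a = s := by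
  have h0 := congrArg (fun φ : L q => φ ![1, 0]) h
  simp only [LinearEquiv.mul_apply] at h0
  rw [hg, hf, hf, hg] at h0
  have e1 : s * a⁻¹ * b = b * a := by simpa using congrFun h0 1
  have e2 : s * a⁻¹ = a := by
    have : b * (s * a⁻¹) = b * a := by rw [← e1]; ring
    exact mul_left_cancel₀ hb this
  calc a * a = s * a⁻¹ * a := by rw [e2]
    _ = s := by rw [mul_assoc, inv_mul_cancel₀ ha, mul_one]

theorem D_mul_W {f g : L q} {a s b t : ZMod q} (ha : a ≠ 0) (hs : s * s = 1)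
    (hf : isD f a s) (hg : isW g b t) : isW (f * g) (s * a⁻¹ * b) (s * t) := by
  intro v
  rw [LinearEquiv.mul_apply, hg, hf]
  have hsi : s⁻¹ = s := inv_eq_of_mul_eq_one_left hs
  ext i
  fin_cases i
  · simp [hsi]
    have : s * t * (b⁻¹ * (a * s)) * v 1 = (s * s) * (a * (t * b⁻¹ * v 1)) := by ring
    rw [this, hs]; ring
  · simp; ring

/-- explicit diagonal maps -/
def diagL (a b : (ZMod q)ˣ) : L q where
  toFun v := ![a * v 0, b * v 1]
  map_add' v w := by ext i; fin_cases i <;> simp [mul_add]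
  map_smul' c v := by ext i; fin_cases i <;> simp <;> ring
  invFun v := ![((a⁻¹ : (ZMod q)ˣ) : ZMod q) * v 0, ((b⁻¹ : (ZMod q)ˣ) : ZMod q) * v 1]
  left_inv v := by
    ext i
    fin_cases i
    · show ((a⁻¹ : (ZMod q)ˣ) : ZMod q) * ((a : ZMod q) * v 0) = v 0
      rw [← mul_assoc, ← Units.val_mul, inv_mul_cancel, Units.val_one, one_mul]
    · show ((b⁻¹ : (ZMod q)ˣ) : ZMod q) * ((b : ZMod q) * v 1) = v 1
      rw [← mul_assoc, ← Units.val_mul, inv_mul_cancel, Units.val_one, one_mul]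
  right_inv v := by
    ext i
    fin_cases i
    · show (a : ZMod q) * (((a⁻¹ : (ZMod q)ˣ) : ZMod q) * v 0) = v 0
      rw [← mul_assoc, ← Units.val_mul, mul_inv_cancel, Units.val_one, one_mul]
    · show (b : ZMod q) * (((b⁻¹ : (ZMod q)ˣ) : ZMod q) * v 1) = v 1
      rw [← mul_assoc, ← Units.val_mul, mul_inv_cancel, Units.val_one, one_mul]

/-- the diagonal element with parameters `a`, `s` -/
def mkD (a s : ZMod q) (ha : a ≠ 0) (hs : s * s = 1) : L q :=
  diagL (Units.mk0 a ha) (Units.mk0 (s * a⁻¹)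
    (mul_ne_zero (fun h => by rw [h] at hs; simp at hs) (inv_ne_zero ha)))

theorem isD_mkD (a s : ZMod q) (ha : a ≠ 0) (hs : s * s = 1) : isD (mkD a s ha hs) a s := by
  intro v
  rfl

/-- the swap -/
def sw : L q := LinearEquiv.funCongrLeft (ZMod q) (ZMod q) (Equiv.swap 0 1)

theorem isW_sw : isW (sw : L q) 1 1 := by
  intro v
  ext i
  fin_cases i <;> simp [sw, LinearEquiv.funCongrLeft]


def DT (f : L q) : Prop := ∃ a s : ZMod q, a ≠ 0 ∧ (s = 1 ∨ s = -1) ∧ isD f a s
def WT (f : L q) : Prop := ∃ a s : ZMod q, a ≠ 0 ∧ (s = 1 ∨ s = -1) ∧ isW f a s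

theorem ss {s : ZMod q} (hs : s = 1 ∨ s = -1) : s * s = 1 := by
  rcases hs with rfl | rfl <;> ring

theorem pm_mul {s t : ZMod q} (hs : s = 1 ∨ s = -1) (ht : t = 1 ∨ t = -1) :
    s * t = 1 ∨ s * t = -1 := by
  rcases hs with rfl | rfl <;> rcases ht with rfl | rfl <;> simp

theorem pm_of_sq {c : ZMod q} (h : c * c = 1) : c = 1 ∨ c = -1 := mul_self_eq_one_iff.1 h

variable (T : Subgroup (L q))
  (hT : ∀ f, f ∈ T ↔ ∃ a s : ZMod q, a ≠ 0 ∧ (s = 1 ∨ s = -1) ∧
      ((∀ v, f v = ![a * v 0, s * a⁻¹ * v 1]) ∨ (∀ v, f v = ![s * a⁻¹ * v 1, a * v 0])))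

include hT

theorem cases_T (x : T) : DT (x : L q) ∨ WT (x : L q) := by
  obtain ⟨a, s, ha, hs, h | h⟩ := (hT x).1 x.2
  · exact Or.inl ⟨a, s, ha, hs, h⟩
  · exact Or.inr ⟨a, s, ha, hs, h⟩

theorem mem_D {f : L q} {a s : ZMod q} (ha : a ≠ 0) (hs : s = 1 ∨ s = -1) (h : isD f a s) : f ∈ T :=
  (hT f).2 ⟨a, s, ha, hs, Or.inl h⟩

theorem mem_W {f : L q} {a s : ZMod q} (ha : a ≠ 0) (hs : s = 1 ∨ s = -1) (h : isW f a s) : f ∈ T :=
  (hT f).2 ⟨a, s, ha, hs, Or.inr h⟩

/-- the case `q = 2` -/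
theorem case2 (h2 : q = 2) (β : MulAut T) : β = 1 := by
  subst h2
  have hD : ∀ x : T, DT (x : L 2) → x = 1 := by
    rintro x ⟨a, s, ha, hs, hx⟩
    rw [z2a a ha, z2s s hs] at hx
    exact Subtype.ext (isD_ext hx isD_one)
  have hW : ∀ x y : T, WT (x : L 2) → WT (y : L 2) → x = y := by
    rintro x y ⟨a, s, ha, hs, hx⟩ ⟨b, t, hb, ht, hy⟩
    have h1 : DT ((x⁻¹ * y : T) : L 2) :=
      ⟨a⁻¹ * b, s * t, mul_ne_zero (inv_ne_zero ha) hb, pm_mul hs ht, isW_inv_mul ha (ss hs) hx hy⟩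
    have h2 := hD _ h1
    exact inv_mul_eq_one.1 h2
  ext1 x
  rcases cases_T T hT x with h | h
  · rw [hD x h, map_one]; rfl
  · rcases cases_T T hT (β x) with h' | h'
    · have h1 := hD _ h'
      have h2 : x = 1 := by
        apply β.injective
        rw [h1, map_one]
      rw [h2, map_one]; rfl
    · exact hW _ _ h' h

/-- the case `q = 3` -/
theorem case3 (h3 : q = 3) (β : MulAut T) (r : ℕ) (hr : Odd r) (hβ : β ^ r = 1) : β = 1 := by
  subst h3
  have hneg : (-1 : ZMod 3) ≠ 1 := z3neg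
  have hm1 : (-1 : ZMod 3) ≠ 0 := z3m1
  have e11 : (-1 : ZMod 3) * (-1) = 1 := z3e11
  have h11 : (1 : ZMod 3) * 1 = 1 := by ring
  let mI : T := ⟨mkD (-1) 1 hm1 h11, mem_D T hT hm1 (Or.inl rfl) (isD_mkD (-1) 1 hm1 h11)⟩
  have hmI_D : isD (mI : L 3) (-1) 1 := isD_mkD (-1) 1 hm1 h11
  let zz : T := ⟨mkD 1 (-1) one_ne_zero e11,
    mem_D T hT one_ne_zero (Or.inr rfl) (isD_mkD 1 (-1) one_ne_zero e11)⟩
  have hzz : isD (zz : L 3) 1 (-1) := isD_mkD 1 (-1) one_ne_zero e11
  let swT : T := ⟨sw, mem_W T hT one_ne_zero (Or.inl rfl) isW_sw⟩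
  let ω : T := zz * swT
  have hω : isW (ω : L 3) (-1) (-1) := by
    have h0 : isW ((zz : L 3) * sw) (-1 * 1⁻¹ * 1) (-1 * 1) := D_mul_W one_ne_zero e11 hzz isW_sw
    have e : (-1 : ZMod 3) * 1⁻¹ * 1 = -1 := by simp
    rw [e, mul_one] at h0
    exact h0
  have hωω : ω * ω = mI := Subtype.ext (isD_ext (isW_sq hm1 e11 hω) hmI_D)
  have hmI1 : mI ≠ 1 := by
    intro h
    have h1 : isD (1 : L 3) (-1) 1 := by
      have := hmI_D
      rwa [h] at this
    exact hneg ((isD_param one_ne_zero isD_one h1).1).symm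
  have hmImI : mI * mI = 1 :=
    Subtype.ext (isD_ext (isD_mul hmI_D hmI_D) (by rw [e11, mul_one]; exact isD_one))
  have hmI : β mI = mI := by
    rcases cases_T T hT (β ω) with ⟨a', s', ha', hs', hb⟩ | ⟨a', s', ha', hs', hb⟩
    · exfalso
      have h1 : β ω * β ω = 1 :=
        Subtype.ext (isD_ext (isD_mul hb hb) (by rw [z3sq a' ha', ss hs']; exact isD_one))
      rw [← map_mul, hωω] at h1
      exact hmI1 ((MulEquiv.map_eq_one_iff β).1 h1)
    · rcases hs' with rfl | rfl
      · exfalso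
        have h1 : β ω * β ω = 1 :=
          Subtype.ext (isD_ext (isW_sq ha' (by ring) hb) isD_one)
        rw [← map_mul, hωω] at h1
        exact hmI1 ((MulEquiv.map_eq_one_iff β).1 h1)
      · have h1 : β ω * β ω = mI :=
          Subtype.ext (isD_ext (isW_sq ha' e11 hb) hmI_D)
        rw [← map_mul, hωω] at h1
        exact h1
  -- elements with parameters (±1, 1) are fixed
  have fixD1 : ∀ n : T, ∀ e : ZMod 3, e ≠ 0 → isD (n : L 3) e 1 → β n = n ∧ n ^ 2 ^ 1 = 1 := by
    intro n e he hn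
    rcases z3a e he with rfl | rfl
    · have : n = 1 := Subtype.ext (isD_ext hn isD_one)
      rw [this, map_one]; exact ⟨rfl, by simp⟩
    · have : n = mI := Subtype.ext (isD_ext hn hmI_D)
      rw [this, hmI]; exact ⟨rfl, by rw [pow_one, pow_two]; exact hmImI⟩
  have sq_ne : ∀ x : T, x * x ≠ 1 → ∃ a, a ≠ 0 ∧ isW (x : L 3) a (-1) := by
    intro x h
    rcases cases_T T hT x with ⟨a, s, ha, hs, hx⟩ | ⟨a, s, ha, hs, hx⟩
    · exfalso; apply h
      exact Subtype.ext (isD_ext (isD_mul hx hx) (by rw [z3sq a ha, ss hs]; exact isD_one))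
    · rcases hs with rfl | rfl
      · exfalso; apply h
        exact Subtype.ext (isD_ext (isW_sq ha (by ring) hx) isD_one)
      · exact ⟨a, ha, hx⟩
  have hord4 : ∀ x : T, x * x ≠ 1 → β x = x := by
    intro x h
    obtain ⟨a, ha, hx⟩ := sq_ne x h
    have h' : β x * β x ≠ 1 := by
      intro h1
      rw [← map_mul] at h1
      exact h ((MulEquiv.map_eq_one_iff β).1 h1)
    obtain ⟨a', ha', hbx⟩ := sq_ne (β x) h'
    have hn : isD ((x⁻¹ * β x : T) : L 3) (a⁻¹ * a') 1 := by
      have := isW_inv_mul ha e11 hx hbx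
      rwa [e11] at this
    obtain ⟨h1, h2⟩ := fixD1 _ _ (mul_ne_zero (inv_ne_zero ha) ha') hn
    exact chain β r hr hβ x (x⁻¹ * β x) (by group) h1 1 h2
  have pow4 : ∀ t : T, t ^ 2 ^ 2 = 1 := by
    intro t
    have e : t ^ 2 ^ 2 = (t * t) * (t * t) := by
      rw [show (2 : ℕ) ^ 2 = 2 + 2 from rfl, pow_add, pow_two]
    rw [e]
    rcases cases_T T hT t with ⟨a, s, ha, hs, hx⟩ | ⟨a, s, ha, hs, hx⟩
    · have h1 : t * t = 1 :=
        Subtype.ext (isD_ext (isD_mul hx hx) (by rw [z3sq a ha, ss hs]; exact isD_one))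
      rw [h1, mul_one]
    · have h1 := isW_sq ha (ss hs) hx
      exact Subtype.ext (isD_ext (isD_mul h1 h1) (by rw [ss hs, mul_one]; exact isD_one))
  have hinv2 : ∀ x : T, x * x = 1 → β x = x := by
    intro x hxx
    by_cases hx1 : x = 1
    · rw [hx1, map_one]
    by_cases hx2 : x = mI
    · rw [hx2, hmI]
    have hb1 : β x ≠ 1 := fun h => hx1 ((MulEquiv.map_eq_one_iff β).1 h)
    have hb2 : β x ≠ mI := fun h => hx2 (β.injective (h.trans hmI.symm))
    have hbb : β x * β x = 1 := by rw [← map_mul, hxx, map_one]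
    -- D-type elements different from 1, mI have s = -1
    have hDs : ∀ y : T, y ≠ 1 → y ≠ mI → ∀ a s : ZMod 3, a ≠ 0 → (s = 1 ∨ s = -1) →
        isD (y : L 3) a s → s = -1 := by
      intro y hy1 hy2 a s ha hs hy
      rcases hs with rfl | rfl
      · exfalso
        rcases z3a a ha with rfl | rfl
        · exact hy1 (Subtype.ext (isD_ext hy isD_one))
        · exact hy2 (Subtype.ext (isD_ext hy hmI_D))
      · rfl
    -- W-type involutions have s = 1
    have hWs : ∀ y : T, y * y = 1 → ∀ a s : ZMod 3, a ≠ 0 → (s = 1 ∨ s = -1) →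
        isW (y : L 3) a s → s = 1 := by
      intro y hyy a s ha hs hy
      have h1 := isW_sq ha (ss hs) hy
      have h2 : isD (1 : L 3) s 1 := by
        have : ((y * y : T) : L 3) = 1 := by rw [hyy]; rfl
        rwa [← this]
      exact ((isD_param one_ne_zero isD_one h2).1).symm
    have hn : β (x⁻¹ * β x) = x⁻¹ * β x := by
      by_cases hnn : (x⁻¹ * β x) * (x⁻¹ * β x) = 1
      · rcases cases_T T hT x with ⟨a, s, ha, hs, hx⟩ | ⟨a, s, ha, hs, hx⟩
        · have hs1 := hDs x hx1 hx2 a s ha hs hx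
          subst hs1
          rcases cases_T T hT (β x) with ⟨b, t, hb, ht, hbx⟩ | ⟨b, t, hb, ht, hbx⟩
          · have ht1 := hDs (β x) hb1 hb2 b t hb ht hbx
            subst ht1
            have h1 : isD ((x⁻¹ * β x : T) : L 3) (a⁻¹ * b) 1 := by
              have := isD_mul (isD_inv ha e11 hx) hbx
              rwa [e11] at this
            exact (fixD1 _ _ (mul_ne_zero (inv_ne_zero ha) hb) h1).1
          · exfalso
            have ht1 := hWs (β x) hbb b t hb ht hbx
            subst ht1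
            have h1 := D_mul_W (inv_ne_zero ha) e11 (isD_inv ha e11 hx) hbx
            have h2 := isW_sq (mul_ne_zero (mul_ne_zero hm1 (inv_ne_zero (inv_ne_zero ha))) hb)
              (by rw [mul_one]; exact e11) h1
            have h3 : isD (1 : L 3) (-1 * 1) 1 := by
              have : (((x⁻¹ * β x) * (x⁻¹ * β x) : T) : L 3) = 1 := by rw [hnn]; rfl
              rwa [← this]
            rw [mul_one] at h3
            exact hneg ((isD_param one_ne_zero isD_one h3).1).symm
        · have hs1 := hWs x hxx a s ha hs hx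
          subst hs1
          rcases cases_T T hT (β x) with ⟨b, t, hb, ht, hbx⟩ | ⟨b, t, hb, ht, hbx⟩
          · exfalso
            have ht1 := hDs (β x) hb1 hb2 b t hb ht hbx
            subst ht1
            have h1 := D_mul_W (inv_ne_zero hb) e11 (isD_inv hb e11 hbx) hx
            have h2 := isW_sq (mul_ne_zero (mul_ne_zero hm1 (inv_ne_zero (inv_ne_zero hb))) ha)
              (by rw [mul_one]; exact e11) h1
            have hnn' : ((β x)⁻¹ * x) * ((β x)⁻¹ * x) = 1 := by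
              have e : ((β x)⁻¹ * x) * ((β x)⁻¹ * x) = ((x⁻¹ * β x) * (x⁻¹ * β x))⁻¹ := by group
              rw [e, hnn, inv_one]
            have h3 : isD (1 : L 3) (-1 * 1) 1 := by
              have : ((((β x)⁻¹ * x) * ((β x)⁻¹ * x) : T) : L 3) = 1 := by rw [hnn']; rfl
              rwa [← this]
            rw [mul_one] at h3
            exact hneg ((isD_param one_ne_zero isD_one h3).1).symm
          · have ht1 := hWs (β x) hbb b t hb ht hbx
            subst ht1
            have h1 : isD ((x⁻¹ * β x : T) : L 3) (a⁻¹ * b) 1 := by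
              have := isW_inv_mul ha (by ring) hx hbx
              rwa [mul_one] at this
            exact (fixD1 _ _ (mul_ne_zero (inv_ne_zero ha) hb) h1).1
      · exact hord4 _ hnn
    exact chain β r hr hβ x (x⁻¹ * β x) (by group) hn 2 (pow4 _)
  ext1 x
  by_cases hxx : x * x = 1
  · rw [hinv2 x hxx]; rfl
  · rw [hord4 x hxx]; rfl


/-- the general case `q ≥ 17` -/
theorem caseBig (m : ℕ) (hq : q = 2 ^ m + 1) (h17 : 17 ≤ q)
    (β : MulAut T) (r : ℕ) (hr : Odd r) (hβ : β ^ r = 1) : β = 1 := by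
  have hqp : q.Prime := Fact.out
  have hnz : ∀ n : ℕ, 0 < n → n < q → ((n : ℕ) : ZMod q) ≠ 0 := by
    intro n hn hnq h
    rw [ZMod.natCast_eq_zero_iff] at h
    exact absurd (Nat.le_of_dvd hn h) (by omega)
  have h2 : (2 : ZMod q) ≠ 0 := by
    have := hnz 2 (by norm_num) (by omega)
    exact_mod_cast this
  have h4 : (2 : ZMod q) * 2 ≠ 1 := by
    intro h
    apply hnz 3 (by norm_num) (by omega)
    push_cast
    linear_combination h
  have h16 : (2 : ZMod q) ^ 4 ≠ 1 := by
    intro h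
    apply hnz 15 (by norm_num) (by omega)
    push_cast
    linear_combination h
  have hneg : (-1 : ZMod q) ≠ 1 := by
    intro h
    apply h2
    linear_combination -h
  have hm1 : (-1 : ZMod q) ≠ 0 := neg_ne_zero.2 one_ne_zero
  have e11 : (-1 : ZMod q) * (-1) = 1 := by ring
  have h11 : (1 : ZMod q) * 1 = 1 := by ring
  have hm2 : 2 ≤ m := by
    by_contra hcon
    have : m = 0 ∨ m = 1 := by omega
    rcases this with rfl | rfl <;> norm_num at hq <;> omega
  obtain ⟨i, hi⟩ : ∃ i : ZMod q, i * i = -1 := by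
    have h := (ZMod.exists_sq_eq_neg_one_iff (p := q)).2 (by
      obtain ⟨m', rfl⟩ : ∃ m', m = m' + 2 := ⟨m - 2, by omega⟩
      rw [hq, pow_add]
      omega)
    obtain ⟨i, hi⟩ := h
    exact ⟨i, hi.symm⟩
  have hi0 : i ≠ 0 := by
    intro h
    rw [h, mul_zero] at hi
    exact hm1 hi.symm
  have fermat : ∀ a : ZMod q, a ≠ 0 → a ^ 2 ^ m = 1 := by
    intro a ha
    have h1 := ZMod.pow_card_sub_one_eq_one ha
    have e : q - 1 = 2 ^ m := by omega
    rw [e] at h1
    exact h1
  -- explicit elements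
  let mI : T := ⟨mkD (-1) 1 hm1 h11, mem_D T hT hm1 (Or.inl rfl) (isD_mkD (-1) 1 hm1 h11)⟩
  have hmI_D : isD (mI : L q) (-1) 1 := isD_mkD (-1) 1 hm1 h11
  let iI : T := ⟨mkD i 1 hi0 h11, mem_D T hT hi0 (Or.inl rfl) (isD_mkD i 1 hi0 h11)⟩
  have hiI_D : isD (iI : L q) i 1 := isD_mkD i 1 hi0 h11
  let tw : T := ⟨mkD 2 1 h2 h11, mem_D T hT h2 (Or.inl rfl) (isD_mkD 2 1 h2 h11)⟩
  have htw_D : isD (tw : L q) 2 1 := isD_mkD 2 1 h2 h11
  have hW4 : ∀ y : T, WT (y : L q) → y ^ 4 = 1 := by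
    rintro y ⟨b, t, hb, ht, hy⟩
    have e : y ^ 4 = (y * y) * (y * y) := by
      rw [show (4 : ℕ) = 2 + 2 from rfl, pow_add, pow_two]
    rw [e]
    have h1 := isW_sq hb (ss ht) hy
    exact Subtype.ext (isD_ext (isD_mul h1 h1) (by rw [ss ht, mul_one]; exact isD_one))
  -- intrinsic characterisation of the diagonal elements
  have hD0 : ∀ x : T, DT (x : L q) ↔ ∀ y : T, y ^ 4 ≠ 1 → x * y = y * x := by
    intro x
    constructor
    · rintro ⟨a, s, ha, hs, hx⟩ y hy
      rcases cases_T T hT y with ⟨b, t, hb, ht, hyD⟩ | hyW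
      · exact Subtype.ext (isD_comm hx hyD)
      · exact absurd (hW4 y hyW) hy
    · intro h
      by_contra hnD
      rcases cases_T T hT x with hxD | ⟨b, t, hb, ht, hxW⟩
      · exact hnD hxD
      · have hy4 : tw ^ 4 ≠ 1 := by
          intro h4'
          have h5 : isD (1 : L q) (2 ^ 4) (1 ^ 4) := by
            have := isD_pow htw_D 4
            have e : ((tw ^ 4 : T) : L q) = 1 := by rw [h4']; rfl
            rwa [← e]
          exact h16 ((isD_param one_ne_zero isD_one h5).1).symm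
        have hc := h tw hy4
        have hc' : (tw : L q) * (x : L q) = (x : L q) * (tw : L q) := (congrArg Subtype.val hc).symm
        exact h4 (D_W_comm h2 hb htw_D hxW hc')
  have hinv : ∀ x : T, DT (β x : L q) ↔ DT (x : L q) := by
    intro x
    rw [hD0, hD0]
    constructor
    · intro h y hy
      apply β.injective
      rw [map_mul, map_mul]
      apply h
      intro h'
      apply hy
      apply β.injective
      rw [map_pow, h', map_one]
    · intro h y hy
      have h1 := h (β.symm y) (by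
        intro h'
        apply hy
        have := congrArg β h'
        rwa [map_pow, MulEquiv.apply_symm_apply, map_one] at this)
      have h2 := congrArg β h1
      rwa [map_mul, map_mul, MulEquiv.apply_symm_apply] at h2
  have hmI1 : mI ≠ 1 := by
    intro h
    have h1 : isD (1 : L q) (-1) 1 := by
      have := hmI_D
      rwa [h] at this
    exact hneg ((isD_param one_ne_zero isD_one h1).1).symm
  have hmImI : mI * mI = 1 :=
    Subtype.ext (isD_ext (isD_mul hmI_D hmI_D) (by rw [e11, mul_one]; exact isD_one))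
  have hiIiI : iI * iI = mI :=
    Subtype.ext (isD_ext (isD_mul hiI_D hiI_D) (by rw [hi, mul_one]; exact hmI_D))
  have hmI : β mI = mI := by
    obtain ⟨a', s', ha', hs', hb⟩ := (hinv iI).2 ⟨i, 1, hi0, Or.inl rfl, hiI_D⟩
    have h2' : isD ((β mI : T) : L q) (a' * a') (s' * s') := by
      rw [← hiIiI, map_mul]; exact isD_mul hb hb
    have h3 : β mI * β mI = 1 := by rw [← map_mul, hmImI, map_one]
    have h4' : isD (1 : L q) ((a' * a') * (a' * a')) ((s' * s') * (s' * s')) := by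
      have := isD_mul h2' h2'
      have e : ((β mI * β mI : T) : L q) = 1 := by rw [h3]; rfl
      rwa [← e]
    have h5 := (isD_param one_ne_zero isD_one h4').1
    rw [ss hs'] at h2'
    rcases pm_of_sq h5.symm with h | h
    · exfalso
      rw [h] at h2'
      have h6 : β mI = 1 := Subtype.ext (isD_ext h2' isD_one)
      exact hmI1 ((MulEquiv.map_eq_one_iff β).1 h6)
    · rw [h] at h2'
      exact Subtype.ext (isD_ext h2' hmI_D)
  have fixD1 : ∀ n : T, ∀ e : ZMod q, (e = 1 ∨ e = -1) → isD (n : L q) e 1 →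
      β n = n ∧ n ^ 2 ^ 1 = 1 := by
    intro n e he hn
    rcases he with rfl | rfl
    · have : n = 1 := Subtype.ext (isD_ext hn isD_one)
      rw [this, map_one]; exact ⟨rfl, by simp⟩
    · have : n = mI := Subtype.ext (isD_ext hn hmI_D)
      rw [this, hmI]; exact ⟨rfl, by rw [pow_one, pow_two]; exact hmImI⟩
  have hD2 : ∀ u : T, DT (u : L q) → u * u = 1 → β u = u := by
    rintro u ⟨c, s, hc, hs, hu⟩ huu
    have hcc : c * c = 1 := by
      have h1 : isD (1 : L q) (c * c) (s * s) := by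
        have := isD_mul hu hu
        have e : ((u * u : T) : L q) = 1 := by rw [huu]; rfl
        rwa [← e]
      exact ((isD_param one_ne_zero isD_one h1).1).symm
    obtain ⟨c', s', hc'0, hs', hbu⟩ := (hinv u).2 ⟨c, s, hc, hs, hu⟩
    have hcc' : c' * c' = 1 := by
      have hbb : β u * β u = 1 := by rw [← map_mul, huu, map_one]
      have h1 : isD (1 : L q) (c' * c') (s' * s') := by
        have := isD_mul hbu hbu
        have e : ((β u * β u : T) : L q) = 1 := by rw [hbb]; rfl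
        rwa [← e]
      exact ((isD_param one_ne_zero isD_one h1).1).symm
    rcases hs with rfl | rfl
    · exact (fixD1 u c (pm_of_sq hcc) hu).1
    · have hs'1 : s' = -1 := by
        rcases hs' with rfl | rfl
        · exfalso
          rcases pm_of_sq hcc' with rfl | rfl
          · have h1 : β u = 1 := Subtype.ext (isD_ext hbu isD_one)
            have h2 : u = 1 := (MulEquiv.map_eq_one_iff β).1 h1
            rw [h2] at hu
            exact hneg ((isD_param one_ne_zero isD_one hu).2).symm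
          · have h1 : β u = mI := Subtype.ext (isD_ext hbu hmI_D)
            have h2 : u = mI := β.injective (h1.trans hmI.symm)
            rw [h2] at hu
            exact hneg ((isD_param hm1 hmI_D hu).2).symm
        · rfl
      subst hs'1
      have hn : isD ((u⁻¹ * β u : T) : L q) (c⁻¹ * c') 1 := by
        have := isD_mul (isD_inv hc e11 hu) hbu
        rwa [e11] at this
      have hcc2 : (c⁻¹ * c') * (c⁻¹ * c') = 1 := by
        have : (c⁻¹ * c') * (c⁻¹ * c') = (c * c)⁻¹ * (c' * c') := by rw [mul_inv]; ring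
        rw [this, hcc, hcc', inv_one, mul_one]
      obtain ⟨h1, h2⟩ := fixD1 _ _ (pm_of_sq hcc2) hn
      exact chain β r hr hβ u (u⁻¹ * β u) (by group) h1 1 h2
  have hD3 : ∀ j : ℕ, ∀ x : T, DT (x : L q) → x ^ 2 ^ (j + 1) = 1 → β x = x := by
    intro j
    induction j with
    | zero =>
      intro x hx hpow
      apply hD2 x hx
      rw [← pow_two]
      simpa using hpow
    | succ j ih =>
      rintro x ⟨a, s, ha, hs, hxa⟩ hpow
      have hu : DT ((x ^ 2 ^ (j + 1) : T) : L q) := by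
        refine ⟨a ^ 2 ^ (j + 1), s ^ 2 ^ (j + 1), pow_ne_zero _ ha, ?_, isD_pow hxa _⟩
        rcases hs with rfl | rfl
        · left; simp
        · left
          exact Even.neg_one_pow (Nat.even_pow.2 ⟨even_two, by omega⟩)
      have huu : x ^ 2 ^ (j + 1) * x ^ 2 ^ (j + 1) = 1 := by
        rw [← pow_two, ← pow_mul, ← pow_succ]; exact hpow
      have hbu : β (x ^ 2 ^ (j + 1)) = x ^ 2 ^ (j + 1) := hD2 _ hu huu
      obtain ⟨a', s', ha', hs', hbx⟩ := (hinv x).2 ⟨a, s, ha, hs, hxa⟩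
      have hxinv : isD ((x⁻¹ : T) : L q) a⁻¹ s := isD_inv ha (ss hs) hxa
      have hnD : DT ((x⁻¹ * β x : T) : L q) :=
        ⟨a⁻¹ * a', s * s', mul_ne_zero (inv_ne_zero ha) ha', pm_mul hs hs', isD_mul hxinv hbx⟩
      have hcomm : Commute x⁻¹ (β x) := Subtype.ext (isD_comm hxinv hbx)
      have hnpow : (x⁻¹ * β x) ^ 2 ^ (j + 1) = 1 := by
        rw [hcomm.mul_pow, inv_pow, ← map_pow, hbu, inv_mul_cancel]
      have hbn : β (x⁻¹ * β x) = x⁻¹ * β x := ih _ hnD hnpow
      exact chain β r hr hβ x (x⁻¹ * β x) (by group) hbn (j + 1) hnpow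
  have hD4 : ∀ x : T, DT (x : L q) → x ^ 2 ^ (m + 1) = 1 := by
    rintro x ⟨a, s, ha, hs, hx⟩
    have e1 : a ^ 2 ^ (m + 1) = 1 := by rw [pow_succ, pow_mul, fermat a ha, one_pow]
    have e2 : s ^ 2 ^ (m + 1) = 1 := by
      rw [pow_succ, mul_comm, pow_mul, pow_two, ss hs, one_pow]
    have h1 := isD_pow hx (2 ^ (m + 1))
    rw [e1, e2] at h1
    exact Subtype.ext (isD_ext h1 isD_one)
  have hDfix : ∀ x : T, DT (x : L q) → β x = x := fun x hx => hD3 m x hx (hD4 x hx)
  ext1 x
  rcases cases_T T hT x with hx | ⟨a, s, ha, hs, hx⟩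
  · rw [hDfix x hx]; rfl
  · have hnD : ¬ DT (x : L q) := fun ⟨b, t, hb, ht, hxD⟩ => not_D_W ha hxD hx
    have hnD' : ¬ DT (β x : L q) := fun h => hnD ((hinv x).1 h)
    rcases cases_T T hT (β x) with h | ⟨b, t, hb, ht, hbx⟩
    · exact absurd h hnD'
    · have hn : DT ((x⁻¹ * β x : T) : L q) :=
        ⟨a⁻¹ * b, s * t, mul_ne_zero (inv_ne_zero ha) hb, pm_mul hs ht,
          isW_inv_mul ha (ss hs) hx hbx⟩
      have := chain β r hr hβ x (x⁻¹ * β x) (by group) (hDfix _ hn) (m + 1) (hD4 _ hn)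
      rw [this]; rfl

end

theorem result (q m : ℕ) [Fact q.Prime] (hq : q = 2 ^ m + 1) (hq5 : q ≠ 5)
    (T : Subgroup ((Fin 2 → ZMod q) ≃ₗ[ZMod q] (Fin 2 → ZMod q)))
    (hT : ∀ f, f ∈ T ↔ ∃ a s : ZMod q, a ≠ 0 ∧ (s = 1 ∨ s = -1) ∧
      ((∀ v, f v = ![a * v 0, s * a⁻¹ * v 1]) ∨ (∀ v, f v = ![s * a⁻¹ * v 1, a * v 0]))) :
    IsPGroup 2 (MulAut T) := by
  have hqp : q.Prime := Fact.out
  have key : ∀ (β : MulAut T) (r : ℕ), Odd r → β ^ r = 1 → β = 1 := by
    intro β r hr hβ
    rcases m with _ | _ | _ | _ | m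
    · exact case2 T hT (by simpa using hq) β
    · exact case3 T hT (by simpa using hq) β r hr hβ
    · exact absurd (by simpa using hq) hq5
    · exfalso
      have h9 : q = 9 := by simpa using hq
      rw [h9] at hqp
      norm_num at hqp
    · refine caseBig T hT _ hq ?_ β r hr hβ
      have : 2 ^ 4 ≤ 2 ^ (m + 1 + 1 + 1 + 1) := Nat.pow_le_pow_right (by norm_num) (by omega)
      omega
  haveI : Finite (L q) := Finite.of_injective _ DFunLike.coe_injective
  haveI : Finite (MulAut T) := Finite.of_injective (fun β : MulAut T => (β : T → T)) DFunLike.coe_injective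
  intro β
  obtain ⟨k, r, hr, hkr⟩ := Nat.exists_eq_two_pow_mul_odd (orderOf_pos β).ne'
  refine ⟨k, key (β ^ 2 ^ k) r hr ?_⟩
  rw [← pow_mul, ← hkr, pow_orderOf_eq_one]

end Cfsg.Agent.S3382
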