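import Cfsg.Statements.S3419
import Mathlib
import Cfsg.Agent.Lib.Helper63.AltSpecC

set_option autoImplicit false
open Cfsg

namespace Cfsg.Agent.S3419

/-- Let n ≥ 5 and let G be a finite group with the same order and the same set of element orders as the alternating group of degree n. Then G is not solvable. -/
theorem result {G : Type*} [Group G] [Finite G] (n : ℕ) (hn : 5 ≤ n)
    (hcard : Nat.card G = Nat.card ↥(alternatingGroup (Fin n)))
    (hspec : Set.range (orderOf : G → ℕ) = Set.range (orderOf : ↥(alternatingGroup (Fin n)) → ℕ)) :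
    ¬ Group.IsSolvable G := by
  intro hsolv
  obtain ⟨N, H, hN, hH, hlt, hsimp, p, s, hp, hs, hsp, hpd, hsd⟩ :=
    Cfsg.Agent.Lib.Helper63.AltSpec.exists_section_two_primes n hn hcard hspec
  have hsolvH : Group.IsSolvable H := inferInstance
  have hsolvQ : Group.IsSolvable (↥H ⧸ N.subgroupOf H) := inferInstance
  have hcomm := IsSimpleGroup.comm_iff_isSolvable.mpr hsolvQ
  have hprime := Cfsg.Agent.Lib.Helper63.AltSpec.prime_card_of_simple_comm hcomm
  have h1 := (Nat.prime_dvd_prime_iff_eq hp hprime).mp hpd
  have h2 := (Nat.prime_dvd_prime_iff_eq hs hprime).mp hsd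
  exact hsp (h2.trans h1.symm)

end Cfsg.Agent.S3419
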