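import Cfsg.Statements.S3420
import Mathlib
import Cfsg.Agent.Lib.Helper63.AltSpecC

set_option autoImplicit false
open Cfsg

namespace Cfsg.Agent.S3420

/-- Let n ≥ 11 and let G be a finite group with the same order and the same set of element orders as the alternating group of degree n. Then G has normal subgroups N < H such that H/N is a non-abelian simple group whose order is divisible by every prime p with n/2 < p ≤ n. -/
theorem result {G : Type*} [Group G] [Finite G] (n : ℕ) (hn : 11 ≤ n)
    (hcard : Nat.card G = Nat.card ↥(alternatingGroup (Fin n)))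
    (hspec : Set.range (orderOf : G → ℕ) = Set.range (orderOf : ↥(alternatingGroup (Fin n)) → ℕ)) :
    ∃ (N H : Subgroup G) (_ : N.Normal), H.Normal ∧ N < H ∧
      IsSimpleGroup (↥H ⧸ N.subgroupOf H) ∧ ¬ IsMulCommutative (↥H ⧸ N.subgroupOf H) ∧
      ∀ p : ℕ, p.Prime → n < 2 * p → p ≤ n → p ∣ Nat.card (↥H ⧸ N.subgroupOf H) := by
  obtain ⟨N, H, hN, hH, hlt, hsimp, ⟨p, s, hp, hs, hsp, hp1, hp2, hs1, hs2⟩, hall⟩ :=
    Cfsg.Agent.Lib.Helper63.AltSpec.exists_section_all_primes n (by omega) (by omega) (by omega)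
      hcard hspec
  refine ⟨N, H, hN, hH, hlt, hsimp, ?_, hall⟩
  intro hc
  have hcomm : ∀ a b : ↥H ⧸ N.subgroupOf H, a * b = b * a := fun a b =>
    (IsMulCommutative.is_comm (M := ↥H ⧸ N.subgroupOf H)).comm a b
  have hprime := Cfsg.Agent.Lib.Helper63.AltSpec.prime_card_of_simple_comm hcomm
  have h1 := (Nat.prime_dvd_prime_iff_eq hp hprime).mp (hall p hp hp1 hp2)
  have h2 := (Nat.prime_dvd_prime_iff_eq hs hprime).mp (hall s hs hs1 hs2)
  exact hsp (h2.trans h1.symm)

end Cfsg.Agent.S3420
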