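import Cfsg.Statements.S3431
import Cfsg.Agent.Lib.Helper11.NseBase
import Cfsg.Agent.Lib.Helper11.NseEnd
import Cfsg.Agent.Lib.Helper11.NseFin
import Cfsg.Agent.Lib.Helper77.NseAlt
import Cfsg.Agent.Lib.Helper62.NseNum6
import Cfsg.Agent.Lib.Helper40.NseNum4
import Cfsg.Agent.Lib.Helper40.NseNum5

set_option autoImplicit false
open Cfsg

namespace Cfsg.Agent.S3431

open Cfsg.Agent.Lib.Helper11.NseBase

theorem s_ne_zero_of {G : Type*} [Group G] [Finite G] (g : G) :
    Nat.card {x : G // orderOf x = orderOf g} ≠ 0 := by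
  have : Nonempty {x : G // orderOf x = orderOf g} := ⟨⟨g, rfl⟩⟩
  exact Nat.card_pos.ne'

theorem s_mem_of_ne_zero {G : Type*} [Group G] [Finite G] (V : Set ℕ)
    (h : ((fun m : ℕ => Nat.card {g : G // orderOf g = m}) '' Set.range (orderOf : G → ℕ)) = V)
    (m : ℕ) : Nat.card {g : G // orderOf g = m} = 0 ∨ Nat.card {g : G // orderOf g = m} ∈ V := by
  by_cases h0 : Nat.card {g : G // orderOf g = m} = 0
  · exact Or.inl h0
  · right
    rw [← h]
    have hne : Nonempty {g : G // orderOf g = m} := by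
      by_contra hcon
      rw [not_nonempty_iff] at hcon
      exact h0 Nat.card_of_isEmpty
    obtain ⟨⟨g, hg⟩⟩ := hne
    exact ⟨m, ⟨g, hg⟩, rfl⟩

theorem s_exists_of_mem {G : Type*} [Group G] [Finite G] (V : Set ℕ)
    (h : ((fun m : ℕ => Nat.card {g : G // orderOf g = m}) '' Set.range (orderOf : G → ℕ)) = V)
    (v : ℕ) (hv : v ∈ V) : ∃ m, Nat.card {g : G // orderOf g = m} = v := by
  rw [← h] at hv
  obtain ⟨m, -, hm⟩ := hv
  exact ⟨m, hm⟩

/-- Let n be 4, 5 or 6 and let G be a finite group whose set of sizes of same-order classes (the set of numbers #{g : o(g) = m} over the element orders m of G) equals that of the alternating group of degree n. Then G is isomorphic to that alternating group. -/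
theorem result {G : Type*} [Group G] [Finite G] (n : ℕ) (hn : n = 4 ∨ n = 5 ∨ n = 6)
    (h : ((fun m : ℕ => Nat.card {g : G // orderOf g = m}) '' Set.range (orderOf : G → ℕ)) = ((fun m : ℕ => Nat.card {g : ↥(alternatingGroup (Fin n)) // orderOf g = m}) '' Set.range (orderOf : ↥(alternatingGroup (Fin n)) → ℕ))) :
    Nonempty (G ≃* ↥(alternatingGroup (Fin n))) := by
  rcases hn with rfl | rfl | rfl
  · rw [Cfsg.Agent.Lib.Helper77.NseAlt.nse_alt4] at h
    have hV := s_mem_of_ne_zero _ h
    have hE := s_exists_of_mem _ h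
    obtain ⟨hN, h3⟩ := Cfsg.Agent.Lib.Helper40.NseNum.nse_num4 (Nat.card G)
      (fun m => Nat.card {g : G // orderOf g = m})
      Nat.card_pos s_one s_totient s_frob s_sum s_div s_ord s_prime
      (fun m => by simpa using hV m) (hE 3 (by simp)) (hE 8 (by simp))
    exact Cfsg.Agent.Lib.Helper11.NseEnd.nse_end4 hN h3
  · rw [Cfsg.Agent.Lib.Helper77.NseAlt.nse_alt5] at h
    have hV := s_mem_of_ne_zero _ h
    have hE := s_exists_of_mem _ h
    obtain ⟨hN, h3, h5, hall⟩ := Cfsg.Agent.Lib.Helper40.NseNum.nse_num5 (Nat.card G)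
      (fun m => Nat.card {g : G // orderOf g = m})
      Nat.card_pos s_one s_totient s_frob s_sum s_div s_ord s_prime
      (fun m => by simpa using hV m) (hE 15 (by simp)) (hE 20 (by simp)) (hE 24 (by simp))
    exact Cfsg.Agent.Lib.Helper11.NseFin.nse_end5 hN h3 h5 (fun g => hall _ (s_ne_zero_of g))
  · rw [Cfsg.Agent.Lib.Helper77.NseAlt.nse_alt6] at h
    have hV := s_mem_of_ne_zero _ h
    have hE := s_exists_of_mem _ h
    obtain ⟨hN, h3, h5, hall⟩ := Cfsg.Agent.Lib.Helper62.Nse6.nse_num6 (Nat.card G)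
      (fun m => Nat.card {g : G // orderOf g = m})
      Nat.card_pos s_one s_totient s_frob s_sum s_div s_ord s_prime
      (fun m => by simpa using hV m) (hE 45 (by simp)) (hE 80 (by simp)) (hE 90 (by simp))
      (hE 144 (by simp))
    exact Cfsg.Agent.Lib.Helper11.NseFin.nse_end6 hN h3 h5 (fun g => hall _ (s_ne_zero_of g))

end Cfsg.Agent.S3431
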