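import Cfsg.Statements.S3704
import Mathlib

set_option autoImplicit false
open Cfsg

namespace Cfsg.Agent.S3704

open scoped BigOperators

/-- A `G`-invariant function of two points of a `2`-transitive set takes at most two values. -/
theorem homog {G Ω : Type*} [Group G] [MulAction G Ω]
    (h2 : ∀ a b c d : Ω, a ≠ b → c ≠ d → ∃ g : G, g • a = c ∧ g • b = d)
    (f : Ω → Ω → ℚ) (hf : ∀ (g : G) (α β : Ω), f (g • α) (g • β) = f α β)
    (a₀ b₀ : Ω) (hab : a₀ ≠ b₀) [DecidableEq Ω] :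
    ∀ α β, f α β = if α = β then f a₀ a₀ else f a₀ b₀ := by
  intro α β
  by_cases h : α = β
  · subst h
    rw [if_pos rfl]
    by_cases h0 : a₀ = α
    · rw [h0]
    · obtain ⟨g, hg, -⟩ := h2 a₀ α α a₀ h0 (Ne.symm h0)
      rw [← hg, hf]
  · rw [if_neg h]
    obtain ⟨g, hg1, hg2⟩ := h2 a₀ b₀ α β hab h
    rw [← hg1, ← hg2, hf]

/-- The incidence sum of two invariant relations is invariant. -/
theorem inc_inv {G Ω Δ : Type*} [Group G] [MulAction G Ω] [MulAction G Δ] [Fintype Δ]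
    (N M : Ω → Δ → ℚ) (hN : ∀ (g : G) (ω : Ω) (δ : Δ), N (g • ω) (g • δ) = N ω δ)
    (hM : ∀ (g : G) (ω : Ω) (δ : Δ), M (g • ω) (g • δ) = M ω δ) (g : G) (α β : Ω) :
    ∑ δ, N (g • α) δ * M (g • β) δ = ∑ δ, N α δ * M β δ := by
  symm
  refine Fintype.sum_equiv (MulAction.toPerm g) _ _ ?_
  intro δ
  simp only [MulAction.toPerm_apply]
  rw [hN, hM]

theorem core {G Ω Δ : Type*} [Group G] [MulAction G Ω] [MulAction G Δ] [Fintype Ω] [Fintype Δ]
    [DecidableEq Ω]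
    (h2 : ∀ a b c d : Ω, a ≠ b → c ≠ d → ∃ g : G, g • a = c ∧ g • b = d)
    (hcard : Fintype.card Ω = Fintype.card Δ) (R₁ R₂ R₃ : Ω → Δ → Prop)
    (hR₁ : ∀ (g : G) (ω : Ω) (δ : Δ), R₁ (g • ω) (g • δ) ↔ R₁ ω δ)
    (hR₂ : ∀ (g : G) (ω : Ω) (δ : Δ), R₂ (g • ω) (g • δ) ↔ R₂ ω δ)
    (hR₃ : ∀ (g : G) (ω : Ω) (δ : Δ), R₃ (g • ω) (g • δ) ↔ R₃ ω δ)
    (hd12 : ∀ ω δ, R₁ ω δ → ¬ R₂ ω δ) (hd13 : ∀ ω δ, R₁ ω δ → ¬ R₃ ω δ)
    (δ₀ : Δ) (α₁ α₂ α₃ : Ω) (h1 : R₁ α₁ δ₀) (h2' : R₂ α₂ δ₀) (h3 : R₃ α₃ δ₀)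
    (h32 : ¬ R₃ α₂ δ₀) : False := by
  classical
  let N₁ : Ω → Δ → ℚ := fun ω δ => if R₁ ω δ then 1 else 0
  let N₂ : Ω → Δ → ℚ := fun ω δ => if R₂ ω δ then 1 else 0
  let N₃ : Ω → Δ → ℚ := fun ω δ => if R₃ ω δ then 1 else 0
  have hN₁ : ∀ (g : G) (ω : Ω) (δ : Δ), N₁ (g • ω) (g • δ) = N₁ ω δ := fun g ω δ => by
    simp only [N₁, hR₁]
  have hN₂ : ∀ (g : G) (ω : Ω) (δ : Δ), N₂ (g • ω) (g • δ) = N₂ ω δ := fun g ω δ => by
    simp only [N₂, hR₂]
  have hN₃ : ∀ (g : G) (ω : Ω) (δ : Δ), N₃ (g • ω) (g • δ) = N₃ ω δ := fun g ω δ => by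
    simp only [N₃, hR₃]
  have h12 : α₁ ≠ α₂ := by
    intro h; rw [h] at h1; exact hd12 _ _ h1 h2'
  have h13 : α₁ ≠ α₃ := by
    intro h; rw [h] at h1; exact hd13 _ _ h1 h3
  have hn1 : ¬ R₁ α₂ δ₀ := fun h => hd12 _ _ h h2'
  have N₁01 : ∀ ω δ, 0 ≤ N₁ ω δ ∧ N₁ ω δ ≤ 1 := by
    intro ω δ
    simp only [N₁]
    split_ifs <;> norm_num
  have N₂0 : ∀ ω δ, 0 ≤ N₂ ω δ := by
    intro ω δ
    simp only [N₂]
    split_ifs <;> norm_num
  have N₃0 : ∀ ω δ, 0 ≤ N₃ ω δ := by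
    intro ω δ
    simp only [N₃]
    split_ifs <;> norm_num
  -- the Gram function of `N₁`
  set μ : ℚ := ∑ δ, N₁ α₁ δ * N₁ α₁ δ with hμ
  set lam : ℚ := ∑ δ, N₁ α₁ δ * N₁ α₂ δ with hlam
  have hc11 := homog h2 (fun α β => ∑ δ, N₁ α δ * N₁ β δ) (inc_inv N₁ N₁ hN₁ hN₁) α₁ α₂ h12
  have hlam0 : 0 ≤ lam := Finset.sum_nonneg (fun δ _ => mul_nonneg (N₁01 _ _).1 (N₁01 _ _).1)
  have hlt : lam < μ := by
    apply Finset.sum_lt_sum
    · intro δ _
      by_cases h : R₁ α₁ δ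
      · simp only [N₁, if_pos h, one_mul]
        exact (N₁01 α₂ δ).2
      · simp only [N₁, if_neg h, zero_mul, le_refl]
    · refine ⟨δ₀, Finset.mem_univ _, ?_⟩
      simp only [N₁, if_pos h1, if_neg hn1]
      norm_num
  -- injectivity of the transpose
  have hinj : ∀ y : Ω → ℚ, (∀ δ, ∑ α, N₁ α δ * y α = 0) → y = 0 := by
    intro y hy
    have key : ∀ β, (μ - lam) * y β + lam * ∑ α, y α = 0 := by
      intro β
      have e1 : ∑ δ, N₁ β δ * (∑ α, N₁ α δ * y α) = 0 := by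
        simp only [hy, mul_zero, Finset.sum_const_zero]
      have e2 : ∑ δ, N₁ β δ * (∑ α, N₁ α δ * y α) = ∑ α, (∑ δ, N₁ β δ * N₁ α δ) * y α := by
        simp only [Finset.mul_sum, Finset.sum_mul]
        rw [Finset.sum_comm]
        refine Finset.sum_congr rfl (fun α _ => Finset.sum_congr rfl (fun δ _ => ?_))
        ring
      rw [e2] at e1
      have e3 : ∀ α, (∑ δ, N₁ β δ * N₁ α δ) * y α
          = lam * y α + (if β = α then (μ - lam) * y α else 0) := by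
        intro α
        rw [hc11 β α]
        split_ifs <;> ring
      rw [Finset.sum_congr rfl (fun α _ => e3 α), Finset.sum_add_distrib, Finset.sum_ite_eq,
        if_pos (Finset.mem_univ _), ← Finset.mul_sum] at e1
      linarith
    have hs : ∑ α, y α = 0 := by
      have e4 : ∑ β, ((μ - lam) * y β + lam * ∑ α, y α) = 0 :=
        Finset.sum_eq_zero (fun β _ => key β)
      rw [Finset.sum_add_distrib, ← Finset.mul_sum, Finset.sum_const, Finset.card_univ,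
        nsmul_eq_mul] at e4
      have e5 : (μ - lam + (Fintype.card Ω : ℚ) * lam) * ∑ α, y α = 0 := by linarith
      have e6 : 0 < μ - lam + (Fintype.card Ω : ℚ) * lam := by
        have : (0 : ℚ) ≤ (Fintype.card Ω : ℚ) * lam := mul_nonneg (Nat.cast_nonneg _) hlam0
        linarith
      rcases mul_eq_zero.mp e5 with h | h
      · linarith
      · exact h
    funext β
    have := key β
    rw [hs, mul_zero, add_zero] at this
    rcases mul_eq_zero.mp this with h | h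
    · linarith
    · exact h
  -- surjectivity of the transpose
  let L : (Ω → ℚ) →ₗ[ℚ] (Δ → ℚ) :=
    { toFun := fun y δ => ∑ α, N₁ α δ * y α
      map_add' := fun y z => by
        funext δ
        simp only [Pi.add_apply, mul_add, Finset.sum_add_distrib]
      map_smul' := fun c y => by
        funext δ
        simp only [Pi.smul_apply, smul_eq_mul, RingHom.id_apply, Finset.mul_sum]
        refine Finset.sum_congr rfl (fun α _ => ?_)
        ring }
  have hLinj : Function.Injective L := by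
    rw [← LinearMap.ker_eq_bot, LinearMap.ker_eq_bot']
    intro y hy
    exact hinj y (fun δ => congrFun hy δ)
  have hLsurj : Function.Surjective L := by
    refine (LinearMap.injective_iff_surjective_of_finrank_eq_finrank ?_).mp hLinj
    rw [Module.finrank_fintype_fun_eq_card, Module.finrank_fintype_fun_eq_card, hcard]
  -- injectivity of `N₁`
  have hinj' : ∀ x : Δ → ℚ, (∀ α, ∑ δ, N₁ α δ * x δ = 0) → x = 0 := by
    intro x hx
    obtain ⟨y, hy⟩ := hLsurj x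
    have hy' : ∀ δ, ∑ α, N₁ α δ * y α = x δ := fun δ => congrFun hy δ
    have e1 : ∑ δ, x δ * x δ = 0 := by
      have e2 : ∑ δ, x δ * x δ = ∑ α, y α * ∑ δ, N₁ α δ * x δ := by
        simp only [Finset.mul_sum]
        rw [Finset.sum_comm]
        refine Finset.sum_congr rfl (fun δ _ => ?_)
        rw [← hy' δ, Finset.sum_mul]
        refine Finset.sum_congr rfl (fun α _ => ?_)
        ring
      rw [e2]
      simp only [hx, mul_zero, Finset.sum_const_zero]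
    funext δ
    have e3 := (Finset.sum_eq_zero_iff_of_nonneg (fun δ _ => mul_self_nonneg (x δ))).mp e1 δ
      (Finset.mem_univ _)
    exact mul_self_eq_zero.mp e3
  -- the mixed Gram functions
  have hc12 := homog h2 (fun α β => ∑ δ, N₁ α δ * N₂ β δ) (inc_inv N₁ N₂ hN₁ hN₂) α₁ α₂ h12
  have hc13 := homog h2 (fun α β => ∑ δ, N₁ α δ * N₃ β δ) (inc_inv N₁ N₃ hN₁ hN₃) α₁ α₂ h12
  have hz12 : ∑ δ, N₁ α₁ δ * N₂ α₁ δ = 0 := by
    apply Finset.sum_eq_zero
    intro δ _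
    by_cases h : R₁ α₁ δ
    · simp only [N₁, N₂, if_pos h, if_neg (hd12 _ _ h), mul_zero]
    · simp only [N₁, if_neg h, zero_mul]
  have hz13 : ∑ δ, N₁ α₁ δ * N₃ α₁ δ = 0 := by
    apply Finset.sum_eq_zero
    intro δ _
    by_cases h : R₁ α₁ δ
    · simp only [N₁, N₃, if_pos h, if_neg (hd13 _ _ h), mul_zero]
    · simp only [N₁, if_neg h, zero_mul]
  set l2 : ℚ := ∑ δ, N₁ α₁ δ * N₂ α₂ δ with hl2
  set l3 : ℚ := ∑ δ, N₁ α₁ δ * N₃ α₂ δ with hl3
  have hl3pos : 0 < l3 := by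
    have e1 := hc13 α₁ α₃
    simp only [if_neg h13] at e1
    rw [← e1]
    have e2 : N₁ α₁ δ₀ * N₃ α₃ δ₀ ≤ ∑ δ, N₁ α₁ δ * N₃ α₃ δ :=
      Finset.single_le_sum (f := fun δ => N₁ α₁ δ * N₃ α₃ δ)
        (fun δ _ => mul_nonneg (N₁01 _ _).1 (N₃0 _ _)) (Finset.mem_univ δ₀)
    simp only [N₁, N₃, if_pos h1, if_pos h3] at e2
    linarith
  have hx := hinj' (fun δ => l3 * N₂ α₂ δ - l2 * N₃ α₂ δ) (by
    intro α
    have e1 : ∑ δ, N₁ α δ * (l3 * N₂ α₂ δ - l2 * N₃ α₂ δ)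
        = l3 * (∑ δ, N₁ α δ * N₂ α₂ δ) - l2 * (∑ δ, N₁ α δ * N₃ α₂ δ) := by
      rw [Finset.mul_sum, Finset.mul_sum, ← Finset.sum_sub_distrib]
      refine Finset.sum_congr rfl (fun δ _ => ?_)
      ring
    rw [e1, hc12 α α₂, hc13 α α₂]
    split_ifs with h
    · rw [hz12, hz13]; ring
    · ring)
  have e := congrFun hx δ₀
  simp only [N₂, N₃, if_pos h2', if_neg h32, Pi.zero_apply] at e
  linarith

/-- The `G`-invariant relation between `Ω` and `G ⧸ H` attached to a subset `S` of `Ω`. -/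
def rel {G Ω : Type*} [Group G] [MulAction G Ω] (H : Subgroup G) (S : Set Ω) (ω : Ω)
    (δ : G ⧸ H) : Prop :=
  ∃ g : G, (g : G ⧸ H) = δ ∧ g⁻¹ • ω ∈ S

theorem rel_inv {G Ω : Type*} [Group G] [MulAction G Ω] (H : Subgroup G) (S : Set Ω) (x : G)
    (ω : Ω) (δ : G ⧸ H) : rel H S (x • ω) (x • δ) ↔ rel H S ω δ := by
  constructor
  · rintro ⟨g, hg, hgS⟩
    refine ⟨x⁻¹ * g, ?_, ?_⟩
    · have e : ((x⁻¹ * g : G) : G ⧸ H) = x⁻¹ • (g : G ⧸ H) := rfl
      rw [e, hg, inv_smul_smul]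
    · rw [mul_inv_rev, inv_inv, mul_smul]
      exact hgS
  · rintro ⟨g, hg, hgS⟩
    refine ⟨x * g, ?_, ?_⟩
    · have e : ((x * g : G) : G ⧸ H) = x • (g : G ⧸ H) := rfl
      rw [e, hg]
    · rw [mul_inv_rev, mul_smul, inv_smul_smul]
      exact hgS

theorem rel_base {G Ω : Type*} [Group G] [MulAction G Ω] (H : Subgroup G) (S : Set Ω)
    (hS : ∀ h ∈ H, ∀ ω ∈ S, h • ω ∈ S) (ω : Ω) :
    rel H S ω ((1 : G) : G ⧸ H) ↔ ω ∈ S := by
  constructor
  · rintro ⟨g, hg, hgS⟩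
    have h1 : g⁻¹ * 1 ∈ H := QuotientGroup.eq.mp hg
    rw [mul_one] at h1
    have h2 := hS g (by simpa using H.inv_mem h1) _ hgS
    rwa [smul_inv_smul] at h2
  · intro hω
    exact ⟨1, rfl, by simpa using hω⟩

theorem rel_disj {G Ω : Type*} [Group G] [MulAction G Ω] (H : Subgroup G) (S T : Set Ω)
    (hT : ∀ h ∈ H, ∀ ω ∈ T, h • ω ∈ T) (hST : ∀ ω, ω ∈ S → ω ∉ T) (ω : Ω) (δ : G ⧸ H) :
    rel H S ω δ → ¬ rel H T ω δ := by
  rintro ⟨g, hg, hgS⟩ ⟨g', hg', hgT⟩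
  have h1 : g⁻¹ * g' ∈ H := QuotientGroup.eq.mp (hg.trans hg'.symm)
  have h2 := hT _ h1 _ hgT
  rw [mul_smul, smul_inv_smul] at h2
  exact hST _ hgS h2

/-- Let G be a finite group acting faithfully and 2-transitively on a finite set Ω of size n, and let H be a subgroup of index n in G which is not transitive on Ω and fixes no point of Ω. Then H has exactly two orbits on Ω. -/
theorem result {G Ω : Type*} [Group G] [Finite G] [MulAction G Ω] [FaithfulSMul G Ω] [Finite Ω] (h2 : MulAction.IsMultiplyPretransitive G Ω 2) (H : Subgroup G) (hidx : H.index = Nat.card Ω) (hnt : ¬ MulAction.IsPretransitive H Ω) (hfix : ∀ a : Ω, ∃ h : H, h • a ≠ a) : Nat.card (MulAction.orbitRel.Quotient H Ω) = 2 := by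
  classical
  have hge : 2 ≤ Nat.card (MulAction.orbitRel.Quotient H Ω) := by
    by_contra hlt
    apply hnt
    rw [MulAction.pretransitive_iff_subsingleton_quotient]
    exact Finite.card_le_one_iff_subsingleton.mp (by omega)
  refine le_antisymm ?_ hge
  by_contra hgt
  let _ : Fintype Ω := Fintype.ofFinite Ω
  let _ : Fintype (G ⧸ H) := Fintype.ofFinite _
  let _ : Fintype (MulAction.orbitRel.Quotient H Ω) := Fintype.ofFinite _
  rw [Nat.card_eq_fintype_card, not_le, Fintype.two_lt_card_iff] at hgt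
  obtain ⟨q₁, q₂, q₃, h12, h13, h23⟩ := hgt
  induction q₁ using Quotient.inductionOn' with | _ α₁ => ?_
  induction q₂ using Quotient.inductionOn' with | _ α₂ => ?_
  induction q₃ using Quotient.inductionOn' with | _ α₃ => ?_
  have hinv : ∀ α : Ω, ∀ h ∈ H, ∀ ω ∈ MulAction.orbit H α, h • ω ∈ MulAction.orbit H α := by
    rintro α h hh ω ⟨k, rfl⟩
    exact ⟨⟨h, hh⟩ * k, by simp [mul_smul, Subgroup.smul_def]⟩
  have hdisj : ∀ α β : Ω, (Quotient.mk'' α : MulAction.orbitRel.Quotient H Ω) ≠ Quotient.mk'' β →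
      ∀ ω, ω ∈ MulAction.orbit H α → ω ∉ MulAction.orbit H β := by
    intro α β hne ω h1 h2
    apply hne
    rw [Quotient.eq'']
    change α ∈ MulAction.orbit H β
    rw [← MulAction.orbit_eq_iff, ← MulAction.orbit_eq_iff.mpr h1, MulAction.orbit_eq_iff.mpr h2]
  have h2' : ∀ a b c d : Ω, a ≠ b → c ≠ d → ∃ g : G, g • a = c ∧ g • b = d :=
    fun a b c d hab hcd => MulAction.is_two_pretransitive_iff.mp h2 hab hcd
  have hcard : Fintype.card Ω = Fintype.card (G ⧸ H) := by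
    rw [← Nat.card_eq_fintype_card, ← Nat.card_eq_fintype_card, ← hidx, Subgroup.index_eq_card]
  exact core h2' hcard
    (rel H (MulAction.orbit H α₁)) (rel H (MulAction.orbit H α₂)) (rel H (MulAction.orbit H α₃))
    (rel_inv H _) (rel_inv H _) (rel_inv H _)
    (rel_disj H _ _ (hinv α₂) (hdisj α₁ α₂ h12)) (rel_disj H _ _ (hinv α₃) (hdisj α₁ α₃ h13))
    ((1 : G) : G ⧸ H) α₁ α₂ α₃
    ((rel_base H _ (hinv α₁) α₁).mpr (MulAction.mem_orbit_self α₁))
    ((rel_base H _ (hinv α₂) α₂).mpr (MulAction.mem_orbit_self α₂))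
    ((rel_base H _ (hinv α₃) α₃).mpr (MulAction.mem_orbit_self α₃))
    (fun h => hdisj α₂ α₃ h23 α₂ (MulAction.mem_orbit_self α₂) ((rel_base H _ (hinv α₃) α₂).mp h))

end Cfsg.Agent.S3704
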