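import Cfsg.Statements.S3733
import Mathlib

set_option autoImplicit false
open Pointwise
open Cfsg

namespace Cfsg.Agent.S3733

open scoped IsMulCommutative in
/-- Let A and V be subgroups of a finite group with V abelian and nontrivial and A normalizing V. Suppose a nonempty finite family of proper subgroups of A partitions A: every non-identity element of A lies in exactly one member. If the number of members minus one is coprime to the order of V, then some member B of the family has a non-identity fixed point on V, that is V ∩ C(B) ≠ 1. -/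
theorem result {G : Type*} [Group G] [Finite G] (A V : Subgroup G) (hVab : IsMulCommutative V) (hV : V ≠ ⊥) (hAV : A ≤ Subgroup.normalizer (V : Set G)) (𝒜 : Finset (Subgroup G)) (hne : 𝒜.Nonempty) (hprop : ∀ B ∈ 𝒜, B < A) (hpart : ∀ a ∈ A, a ≠ 1 → ∃! B, B ∈ 𝒜 ∧ a ∈ B) (hk : (𝒜.card - 1).Coprime (Nat.card V)) : ∃ B ∈ 𝒜, V ⊓ Subgroup.centralizer (B : Set G) ≠ ⊥ := by
  classical
  by_contra hcon
  push Not at hcon
  apply hV
  rw [eq_bot_iff]
  intro v hv
  rw [Subgroup.mem_bot]
  have : Fintype G := Fintype.ofFinite G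
  have hconj : ∀ a ∈ A, ∀ w ∈ V, a * w * a⁻¹ ∈ V := fun a ha w hw => by
    have := hAV ha
    rw [Subgroup.mem_normalizer_iff] at this
    exact (this w).mp hw
  let φ : G → V := fun g => if h : g ∈ A then ⟨g * v * g⁻¹, hconj g h v hv⟩ else 1
  have hφA : ∀ g (h : g ∈ A), φ g = ⟨g * v * g⁻¹, hconj g h v hv⟩ := fun g h => by
    simp only [φ, dif_pos h]
  have hφnA : ∀ g, g ∉ A → φ g = 1 := fun g h => by
    simp only [φ, dif_neg h]
  let N : Subgroup G → V := fun B => ∏ g : G, if g ∈ B then φ g else 1
  -- invariance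
  have hinv : ∀ B : Subgroup G, B ≤ A → ∀ c ∈ B, c * (N B : G) * c⁻¹ = (N B : G) := by
    intro B hBA c hc
    have hcA : c ∈ A := hBA hc
    let ψ : V →* V :=
      { toFun := fun w => ⟨c * w * c⁻¹, hconj c hcA w w.2⟩
        map_one' := by ext; simp
        map_mul' := fun x y => by ext; simp [mul_assoc] }
    have h1 : ψ (N B) = N B := by
      simp only [N]
      rw [map_prod]
      have h2 : ∀ g : G, ψ (if g ∈ B then φ g else 1) = if g ∈ B then φ (c * g) else 1 := by
        intro g
        split_ifs with hg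
        · rw [hφA g (hBA hg), hφA (c * g) (A.mul_mem hcA (hBA hg))]
          ext
          simp [ψ, mul_assoc]
        · exact map_one ψ
      simp_rw [h2]
      rw [← Equiv.prod_comp (Equiv.mulLeft c) (fun g => if g ∈ B then φ g else 1)]
      apply Finset.prod_congr rfl
      intro g _
      simp only [Equiv.coe_mulLeft]
      have : c * g ∈ B ↔ g ∈ B := by
        constructor
        · intro h
          have := B.mul_mem (B.inv_mem hc) h
          simpa using this
        · intro h
          exact B.mul_mem hc h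
      simp only [this]
    have := congrArg (fun w : V => (w : G)) h1
    simpa [ψ] using this
  have hNone : ∀ B : Subgroup G, B ≤ A → ∀ B' ∈ 𝒜, B' ≤ B → N B = 1 := by
    intro B hBA B' hB' hB'B
    have hmem : (N B : G) ∈ V ⊓ Subgroup.centralizer (B' : Set G) := by
      rw [Subgroup.mem_inf]
      refine ⟨(N B).2, ?_⟩
      rw [Subgroup.mem_centralizer_iff]
      intro c hc
      have := hinv B hBA c (hB'B hc)
      calc c * (N B : G) = c * (N B : G) * c⁻¹ * c := by group
        _ = (N B : G) * c := by rw [this]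
    rw [hcon B' hB', Subgroup.mem_bot] at hmem
    exact Subtype.ext hmem
  -- the counting identity
  let vV : V := ⟨v, hv⟩
  have hφ1 : φ 1 = vV := by
    rw [hφA 1 A.one_mem]
    ext
    simp [vV]
  have hident : ∏ B ∈ 𝒜, N B = N A * vV ^ (𝒜.card - 1) := by
    simp only [N]
    rw [Finset.prod_comm]
    rw [← Finset.mul_prod_erase Finset.univ _ (Finset.mem_univ (1 : G))]
    rw [← Finset.mul_prod_erase Finset.univ (fun g => if g ∈ A then φ g else 1) (Finset.mem_univ (1 : G))]
    have h1 : ∏ B ∈ 𝒜, (if (1 : G) ∈ B then φ 1 else 1) = vV ^ 𝒜.card := by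
      rw [Finset.prod_congr rfl (fun B _ => if_pos B.one_mem), Finset.prod_const, hφ1]
    have h2 : ∀ g ∈ Finset.univ.erase (1 : G),
        ∏ B ∈ 𝒜, (if g ∈ B then φ g else 1) = if g ∈ A then φ g else 1 := by
      intro g hg
      have hg1 : g ≠ 1 := Finset.ne_of_mem_erase hg
      split_ifs with hgA
      · obtain ⟨B0, ⟨hB0, hgB0⟩, huniq⟩ := hpart g hgA hg1
        rw [Finset.prod_eq_single B0]
        · rw [if_pos hgB0]
        · intro B hB hne
          rw [if_neg]
          intro hgB
          exact hne (huniq B ⟨hB, hgB⟩)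
        · intro h; exact absurd hB0 h
      · apply Finset.prod_eq_one
        intro B hB
        rw [hφnA g hgA]
        simp
    rw [h1, Finset.prod_congr rfl h2, if_pos A.one_mem, hφ1]
    have hc : 𝒜.card = (𝒜.card - 1) + 1 := by
      have := Finset.card_pos.mpr hne
      omega
    conv_lhs => rw [hc, pow_succ]
    rw [mul_comm (vV ^ (𝒜.card - 1)) vV, mul_assoc, mul_assoc]
    congr 1
    rw [mul_comm]
  obtain ⟨B0, hB0⟩ := hne
  have hNA : N A = 1 := hNone A le_rfl B0 hB0 (hprop B0 hB0).le
  have hNB : ∀ B ∈ 𝒜, N B = 1 := fun B hB => hNone B (hprop B hB).le B hB le_rfl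
  rw [Finset.prod_eq_one hNB, hNA, one_mul] at hident
  have hord : orderOf vV ∣ 𝒜.card - 1 := orderOf_dvd_of_pow_eq_one hident.symm
  have hord2 : orderOf vV ∣ Nat.card V := orderOf_dvd_natCard vV
  have : orderOf vV = 1 := Nat.eq_one_of_dvd_coprimes hk hord hord2
  rw [orderOf_eq_one_iff] at this
  exact congrArg (fun w : V => (w : G)) this

end Cfsg.Agent.S3733
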