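import Cfsg.Statements.S3735
import Mathlib

set_option autoImplicit false
open Pointwise
open Cfsg

namespace Cfsg.Agent.S3735

variable {G : Type*} [Group G]

/-- `K` leaves `W` invariant under conjugation. -/
def InvS (K W : Subgroup G) : Prop := ∀ k ∈ K, MulAut.conj k • W = W

lemma mem_normalizer_iff_smul (g : G) (W : Subgroup G) :
    g ∈ Subgroup.normalizer (W : Set G) ↔ MulAut.conj g • W = W := by
  rw [Subgroup.mem_normalizer_iff_map_conj_eq]
  rfl

lemma invS_iff (K W : Subgroup G) : InvS K W ↔ K ≤ Subgroup.normalizer (W : Set G) := by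
  constructor
  · intro h k hk
    exact (mem_normalizer_iff_smul k W).mpr (h k hk)
  · intro h k hk
    exact (mem_normalizer_iff_smul k W).mp (h hk)

lemma invS_sup {K W₁ W₂ : Subgroup G} (h₁ : InvS K W₁) (h₂ : InvS K W₂) : InvS K (W₁ ⊔ W₂) := by
  intro k hk
  rw [Subgroup.smul_sup, h₁ k hk, h₂ k hk]

lemma invS_inf {K W₁ W₂ : Subgroup G} (h₁ : InvS K W₁) (h₂ : InvS K W₂) : InvS K (W₁ ⊓ W₂) := by
  intro k hk
  rw [Subgroup.smul_inf, h₁ k hk, h₂ k hk]

lemma invS_sSup {K : Subgroup G} {S : Set (Subgroup G)} (h : ∀ W ∈ S, InvS K W) :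
    InvS K (sSup S) := by
  intro k hk
  apply le_antisymm
  · rw [Subgroup.pointwise_smul_subset_iff]
    apply sSup_le
    intro W hW
    rw [← Subgroup.pointwise_smul_subset_iff, h W hW k hk]
    exact le_sSup hW
  · apply sSup_le
    intro W hW
    rw [Subgroup.subset_pointwise_smul_iff]
    have : (MulAut.conj k)⁻¹ • W = W := by
      rw [inv_smul_eq_iff, h W hW k hk]
    rw [this]
    exact le_sSup hW

lemma invS_conj {A W : Subgroup G} (hW : InvS A W) {h : G}
    (hh : h ∈ Subgroup.normalizer (A : Set G)) : InvS A (MulAut.conj h • W) := by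
  intro a ha
  have hmem : h⁻¹ * a * h ∈ A := by
    rw [Subgroup.mem_normalizer_iff] at hh
    rw [hh (h⁻¹ * a * h)]
    simpa [mul_assoc] using ha
  have h1 := hW _ hmem
  rw [smul_smul, ← map_mul]
  have : a * h = h * (h⁻¹ * a * h) := by group
  rw [this, map_mul, mul_smul, h1]

/-- minimal nontrivial invariant subgroups -/
def MinInv (A S : Subgroup G) : Prop :=
  S ≠ ⊥ ∧ InvS A S ∧ ∀ S' : Subgroup G, S' ≤ S → InvS A S' → S' = ⊥ ∨ S' = S

lemma exists_minInv [Finite G] {A W : Subgroup G} (hW : W ≠ ⊥) (hinv : InvS A W) :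
    ∃ S : Subgroup G, S ≤ W ∧ MinInv A S := by
  have hfin : {S : Subgroup G | S ≠ ⊥ ∧ S ≤ W ∧ InvS A S}.Finite := Set.toFinite _
  obtain ⟨S, hS⟩ := hfin.exists_minimal ⟨W, hW, le_rfl, hinv⟩
  refine ⟨S, hS.1.2.1, hS.1.1, hS.1.2.2, ?_⟩
  intro S' hS' hinv'
  by_cases hb : S' = ⊥
  · exact Or.inl hb
  · right
    exact le_antisymm hS' (hS.2 ⟨hb, hS'.trans hS.1.2.1, hinv'⟩ hS')

lemma minInv_conj {A S : Subgroup G} (hS : MinInv A S) {h : G}
    (hh : h ∈ Subgroup.normalizer (A : Set G)) : MinInv A (MulAut.conj h • S) := by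
  refine ⟨?_, invS_conj hS.2.1 hh, ?_⟩
  · intro hb
    apply hS.1
    have := congrArg (fun X => (MulAut.conj h)⁻¹ • X) hb
    simpa using this
  · intro S' hS' hinv'
    have hh' : h⁻¹ ∈ Subgroup.normalizer (A : Set G) := Subgroup.inv_mem _ hh
    have h1 : MulAut.conj h⁻¹ • S' ≤ S := by
      rw [map_inv, ← Subgroup.subset_pointwise_smul_iff]
      exact hS'
    rcases hS.2.2 _ h1 (invS_conj hinv' hh') with h2 | h2
    · left
      have := congrArg (fun X => (MulAut.conj h) • X) h2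
      simpa [map_inv] using this
    · right
      have := congrArg (fun X => (MulAut.conj h) • X) h2
      simpa [map_inv] using this

lemma disjoint_aux {V U W S : Subgroup G} (hcomm : ∀ x ∈ V, ∀ y ∈ V, x * y = y * x)
    (hW : W ≤ V) (hS : S ≤ V) (h1 : U ⊓ W = ⊥) (h2 : S ⊓ (U ⊔ W) = ⊥) :
    U ⊓ (W ⊔ S) = ⊥ := by
  rw [eq_bot_iff]
  rintro x ⟨hxU, hxWS⟩
  have hWn : W ≤ Subgroup.normalizer (S : Set G) := by
    intro w hw
    rw [Subgroup.mem_normalizer_iff]
    intro s
    constructor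
    · intro hs
      have : w * s * w⁻¹ = s := by
        rw [hcomm w (hW hw) s (hS hs)]; group
      rw [this]; exact hs
    · intro hs
      have h3 : w * s * w⁻¹ ∈ V := hS hs
      have h4 : s ∈ V := by
        have := V.mul_mem (V.mul_mem (V.inv_mem (hW hw)) h3) (hW hw)
        simpa [mul_assoc] using this
      have : w * s * w⁻¹ = s := by
        rw [hcomm w (hW hw) s h4]; group
      rw [this] at hs; exact hs
  have hx' : x ∈ ((W ⊔ S : Subgroup G) : Set G) := hxWS
  rw [Subgroup.coe_mul_of_left_le_normalizer_right W S hWn] at hx'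
  obtain ⟨w, hw, s, hs, rfl⟩ := Set.mem_mul.mp hx'
  have hsU : s ∈ U ⊔ W := by
    have : s = w⁻¹ * (w * s) := by group
    rw [this]
    exact Subgroup.mul_mem _ (Subgroup.mem_sup_right (W.inv_mem hw)) (Subgroup.mem_sup_left hxU)
  have hs1 : s ∈ S ⊓ (U ⊔ W) := ⟨hs, hsU⟩
  rw [h2, Subgroup.mem_bot] at hs1
  subst hs1
  rw [mul_one] at hxU ⊢
  have : w ∈ U ⊓ W := ⟨hxU, hw⟩
  rw [h1] at this
  exact this

/-- Clifford's Theorem for actions on finite abelian groups, first part. Let H and V be subgroups of a finite group with V abelian and H normalizing V, and let A be a normal subgroup of H. If every H-invariant subgroup of V has an H-invariant complement in V, then every A-invariant subgroup of V has an A-invariant complement in V. -/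
theorem result {G : Type*} [Group G] [Finite G] (H A V : Subgroup G) (hVab : IsMulCommutative V) (hHV : H ≤ Subgroup.normalizer (V : Set G)) (hAH : A ≤ H) (hAn : H ≤ Subgroup.normalizer (A : Set G)) (hss : ∀ U : Subgroup G, U ≤ V → H ≤ Subgroup.normalizer (U : Set G) → ∃ W : Subgroup G, W ≤ V ∧ H ≤ Subgroup.normalizer (W : Set G) ∧ U ⊓ W = ⊥ ∧ U ⊔ W = V) (U : Subgroup G) (hUV : U ≤ V) (hAU : A ≤ Subgroup.normalizer (U : Set G)) : ∃ W : Subgroup G, W ≤ V ∧ A ≤ Subgroup.normalizer (W : Set G) ∧ U ⊓ W = ⊥ ∧ U ⊔ W = V := by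
  classical
  have hcomm : ∀ x ∈ V, ∀ y ∈ V, x * y = y * x := fun x hx y hy => by
    have := mul_comm' (⟨x, hx⟩ : V) ⟨y, hy⟩
    exact congrArg Subtype.val this
  have hHVs : InvS H V := (invS_iff H V).mpr hHV
  -- the A-socle of V
  set 𝒮 : Set (Subgroup G) := {S | S ≤ V ∧ MinInv A S} with h𝒮
  set T : Subgroup G := sSup 𝒮 with hT
  have hTV : T ≤ V := sSup_le fun S hS => hS.1
  have hTH : InvS H T := by
    intro h hh
    have key : ∀ h ∈ H, MulAut.conj h • T ≤ T := by
      intro h hh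
      rw [Subgroup.pointwise_smul_subset_iff]
      apply sSup_le
      intro S hS
      rw [← Subgroup.pointwise_smul_subset_iff]
      apply le_sSup
      refine ⟨?_, minInv_conj hS.2 (hAn hh)⟩
      have := (Subgroup.pointwise_smul_le_pointwise_smul_iff (a := MulAut.conj h)).mpr hS.1
      rwa [hHVs h hh] at this
    apply le_antisymm (key h hh)
    rw [Subgroup.subset_pointwise_smul_iff, ← map_inv]
    exact key h⁻¹ (H.inv_mem hh)
  have hTtop : T = V := by
    obtain ⟨W, hWV, hWH, hTW, hTW'⟩ := hss T hTV ((invS_iff H T).mp hTH)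
    have hWbot : W = ⊥ := by
      by_contra hW
      have hWA : InvS A W := (invS_iff A W).mpr (hAH.trans hWH)
      obtain ⟨S, hSW, hS⟩ := exists_minInv hW hWA
      have hST : S ≤ T := le_sSup ⟨hSW.trans hWV, hS⟩
      have : S ≤ T ⊓ W := le_inf hST hSW
      rw [hTW] at this
      exact hS.1 (eq_bot_iff.mpr this)
    rw [hWbot, sup_bot_eq] at hTW'
    exact hTW'
  -- a maximal invariant subgroup meeting U trivially
  have hUA : InvS A U := (invS_iff A U).mpr hAU
  have hfin : {W : Subgroup G | W ≤ V ∧ InvS A W ∧ U ⊓ W = ⊥}.Finite := Set.toFinite _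
  obtain ⟨W, hW⟩ := hfin.exists_maximal ⟨⊥, bot_le, fun k _ => Subgroup.smul_bot _, inf_bot_eq U⟩
  obtain ⟨⟨hWV, hWA, hUW⟩, hmax⟩ := hW
  refine ⟨W, hWV, (invS_iff A W).mp hWA, hUW, ?_⟩
  apply le_antisymm (sup_le hUV hWV)
  rw [← hTtop]
  apply sSup_le
  intro S hS
  by_contra hnot
  have hSUW : S ⊓ (U ⊔ W) = ⊥ := by
    rcases hS.2.2.2 (S ⊓ (U ⊔ W)) inf_le_left (invS_inf hS.2.2.1 (invS_sup hUA hWA)) with h | h
    · exact h
    · exact absurd (h ▸ inf_le_right) hnot
  have hd := disjoint_aux hcomm hWV hS.1 hUW hSUW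
  have hle : W ⊔ S ≤ W := hmax ⟨sup_le hWV hS.1, invS_sup hWA hS.2.2.1, hd⟩ le_sup_left
  exact hnot ((le_sup_right.trans hle).trans le_sup_right)

end Cfsg.Agent.S3735
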