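import Cfsg.Statements.S3736
import Cfsg.Agent.Lib.Helper66.Class2
import Cfsg.Agent.Lib.Helper1.Coprime
import Cfsg.Agent.S0027
import Cfsg.Agent.S0055
import Cfsg.Agent.S0056
import Cfsg.Agent.S0119
import Cfsg.Agent.S0120

set_option autoImplicit false
open Cfsg

namespace Cfsg.Agent.S3736

open Cfsg.Agent.Lib.Helper66 Cfsg.Agent.Lib.Helper1
open scoped commutatorElement Pointwise

/-- The abelian case. -/
theorem abelian_case {X : Type*} [Group X] [Finite X] {p : ℕ} [Fact p.Prime] (B A P : Subgroup X)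
    (hP : IsPGroup p P) (hBP : B ≤ Subgroup.normalizer (P : Set X)) (hAB : A ≤ B)
    (hAp : (Nat.card A).Coprime p) (hnt : ⁅P, A⁆ ≠ ⊥)
    (hmin : ∀ U : Subgroup X, U < P → B ≤ Subgroup.normalizer (U : Set X) → ⁅U, A⁆ = ⊥)
    (hPA : ⁅P, A⁆ = P) (hab : IsMulCommutative ↥P) :
    (∀ x ∈ P, x ^ p = 1) ∧
    (∀ U : Subgroup X, U ≤ P → B ≤ Subgroup.normalizer (U : Set X) → U = ⊥ ∨ U = P) := by
  have hp : p.Prime := Fact.out
  have hAP : A ≤ Subgroup.normalizer (P : Set X) := hAB.trans hBP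
  obtain ⟨k, hk⟩ := IsPGroup.iff_card.mp hP
  have hcop : (Nat.card A).Coprime (Nat.card P) := by rw [hk]; exact hAp.pow_right k
  have hcomm : ∀ x ∈ P, ∀ y ∈ P, x * y = y * x := by
    intro x hx y hy
    have := hab.is_comm.comm ⟨x, hx⟩ ⟨y, hy⟩
    exact congrArg Subtype.val this
  have hcent : ∀ U : Subgroup X, U ≤ P → U ≠ P → B ≤ Subgroup.normalizer (U : Set X) →
      U ≤ Subgroup.centralizer (A : Set X) := fun U h1 h1' h2 =>
    Subgroup.commutator_eq_bot_iff_le_centralizer.mp (hmin U (lt_of_le_of_ne h1 h1') h2)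
  let Ω : Subgroup X :=
    { carrier := {x | x ∈ P ∧ x ^ p = 1}
      mul_mem' := by
        rintro x y ⟨hx, hx'⟩ ⟨hy, hy'⟩
        refine ⟨P.mul_mem hx hy, ?_⟩
        have hc : Commute x y := hcomm x hx y hy
        rw [hc.mul_pow, hx', hy', one_mul]
      one_mem' := ⟨P.one_mem, one_pow p⟩
      inv_mem' := by
        rintro x ⟨hx, hx'⟩
        exact ⟨P.inv_mem hx, by rw [inv_pow, hx', inv_one]⟩ }
  have hΩP : Ω ≤ P := fun x hx => hx.1
  have hBΩ : B ≤ Subgroup.normalizer (Ω : Set X) := by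
    intro b hb
    rw [Subgroup.mem_normalizer_iff]
    intro x
    change (x ∈ P ∧ x ^ p = 1) ↔ (b * x * b⁻¹ ∈ P ∧ (b * x * b⁻¹) ^ p = 1)
    rw [conj_pow, conj_eq_one_iff, ← Subgroup.mem_normalizer_iff.mp (hBP hb) x]
  have hΩ : Ω = P := by
    by_contra hne
    have h1 := hcent Ω hΩP hne hBΩ
    have h2 := Cfsg.Agent.S0056.result A P hAP hcop (by
      intro v hv hvp a ha
      have hdvd : orderOf v ∣ p ^ k := by
        rw [← hk]
        have := orderOf_dvd_natCard (⟨v, hv⟩ : ↥P)
        rwa [Subgroup.orderOf_mk] at this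
      have hq : orderOf v = p := (Nat.prime_dvd_prime_iff_eq hvp hp).mp (hvp.dvd_of_dvd_pow hdvd)
      have hvΩ : v ∈ Ω := ⟨hv, by rw [← hq]; exact pow_orderOf_eq_one v⟩
      exact (Subgroup.mem_centralizer_iff.mp (h1 hvΩ) a ha))
    apply hnt
    rw [Subgroup.commutator_eq_bot_iff_le_centralizer, Subgroup.le_centralizer_iff]
    exact h2
  have hexp : ∀ x ∈ P, x ^ p = 1 := by
    intro x hx
    have : x ∈ Ω := by rw [hΩ]; exact hx
    exact this.2
  refine ⟨hexp, ?_⟩
  intro U hUP hBU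
  by_cases hU : U = P
  · exact Or.inr hU
  · left
    have h1 := hcent U hUP hU hBU
    have h2 := (Cfsg.Agent.S0055.result A P hAP hcop).1
    rw [hPA] at h2
    rw [eq_bot_iff, ← h2]
    exact le_inf (le_inf hUP h1) hUP

/-- The non-abelian case. -/
theorem nonabelian_case {X : Type*} [Group X] [Finite X] {p : ℕ} [Fact p.Prime] (B A P : Subgroup X)
    (hP : IsPGroup p P) (hBP : B ≤ Subgroup.normalizer (P : Set X)) (hAB : A ≤ B)
    (hAp : (Nat.card A).Coprime p) (hnt : ⁅P, A⁆ ≠ ⊥)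
    (hmin : ∀ U : Subgroup X, U < P → B ≤ Subgroup.normalizer (U : Set X) → ⁅U, A⁆ = ⊥)
    (hPA : ⁅P, A⁆ = P) (hab : ¬ IsMulCommutative ↥P) :
    (Cfsg.IsElementaryAbelian p P ∨ Cfsg.IsSpecial p ↥P) ∧ (∀ U : Subgroup X, (frattini ↥P).map P.subtype ≤ U → U ≤ P → B ≤ Subgroup.normalizer (U : Set X) → U = (frattini ↥P).map P.subtype ∨ U = P) ∧ (p ≠ 2 → ∀ x ∈ P, x ^ p = 1) := by
  classical
  have hp : p.Prime := Fact.out
  have hAP : A ≤ Subgroup.normalizer (P : Set X) := hAB.trans hBP
  have hcent : ∀ U : Subgroup X, U ≤ P → U ≠ P → B ≤ Subgroup.normalizer (U : Set X) →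
      U ≤ Subgroup.centralizer (A : Set X) := fun U h1 h1' h2 =>
    Subgroup.commutator_eq_bot_iff_le_centralizer.mp (hmin U (lt_of_le_of_ne h1 h1') h2)
  set N := Subgroup.normalizer (P : Set X) with hN
  let A' : Subgroup (MulAut ↥P) := (A.subgroupOf N).map (conjAut P)
  have hA'mem : ∀ a' ∈ A', ∃ a ∈ A, ∃ ha : a ∈ N, a' = conjAut P ⟨a, ha⟩ := by
    intro a' ha'
    obtain ⟨n, hn, rfl⟩ := Subgroup.mem_map.mp ha'
    exact ⟨n.1, Subgroup.mem_subgroupOf.mp hn, n.2, rfl⟩
  have hA' : (Nat.card A').Coprime p := by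
    have h1 : Nat.card A' ∣ Nat.card (A.subgroupOf N) := Subgroup.card_map_dvd _ _
    have h2 : Nat.card (A.subgroupOf N) = Nat.card A :=
      Nat.card_congr (Subgroup.subgroupOfEquivOfLe hAP).toEquiv
    rw [h2] at h1
    exact Nat.Coprime.coprime_dvd_left h1 hAp
  -- characteristic subgroups of `P` that are proper are centralised by `A`
  have hcharcent : ∀ H : Subgroup ↥P, H.Characteristic → H ≠ ⊤ →
      ∀ a ∈ A, ∀ h ∈ H, a * (h : X) * a⁻¹ = h := by
    intro H hHc hHne a ha h hh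
    have hU1 : H.map P.subtype ≤ P := Subgroup.map_subtype_le H
    have hU2 : H.map P.subtype ≠ P := by
      intro hU
      apply hHne
      apply Subgroup.map_injective P.subtype_injective
      rw [hU, ← MonoidHom.range_eq_map, Subgroup.range_subtype]
    have hU3 : B ≤ Subgroup.normalizer ((H.map P.subtype : Subgroup X) : Set X) :=
      hBP.trans (normalizer_le_normalizer_map_of_characteristic H)
    have h1 := hcent _ hU1 hU2 hU3
    have h2 : (h : X) ∈ H.map P.subtype := Subgroup.mem_map.mpr ⟨h, hh, rfl⟩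
    have h3 := Subgroup.mem_centralizer_iff.mp (h1 h2) a ha
    rw [h3, mul_inv_cancel_right]
  have hGA : Subgroup.closure {x : ↥P | ∃ g : ↥P, ∃ a ∈ A', x = g⁻¹ * a g} = ⊤ := by
    apply Subgroup.map_injective P.subtype_injective
    rw [← MonoidHom.range_eq_map, Subgroup.range_subtype]
    apply le_antisymm (Subgroup.map_subtype_le _)
    nth_rewrite 1 [← hPA]
    rw [Subgroup.commutator_le]
    intro g₁ h₁ g₂ h₂
    refine Subgroup.mem_map.mpr ⟨(⟨g₁⁻¹, P.inv_mem h₁⟩ : ↥P)⁻¹ *
      conjAut P ⟨g₂, hAP h₂⟩ ⟨g₁⁻¹, P.inv_mem h₁⟩, Subgroup.subset_closure ?_, ?_⟩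
    · exact ⟨⟨g₁⁻¹, P.inv_mem h₁⟩, conjAut P ⟨g₂, hAP h₂⟩,
        Subgroup.mem_map.mpr ⟨⟨g₂, hAP h₂⟩, Subgroup.mem_subgroupOf.mpr h₂, rfl⟩, rfl⟩
    · simp [conjAut_apply, commutatorElement_def, mul_assoc]
  have hchar : ∀ H : Subgroup ↥P, H.Characteristic → IsMulCommutative H →
      ∀ a ∈ A', ∀ h ∈ H, a h = h := by
    intro H hHc hHab a' ha' h hh
    obtain ⟨a, ha, haN, rfl⟩ := hA'mem a' ha'
    have hHne : H ≠ ⊤ := by
      intro hH
      apply hab
      refine ⟨⟨fun x y => ?_⟩⟩
      have hx : x ∈ H := by rw [hH]; exact Subgroup.mem_top x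
      have hy : y ∈ H := by rw [hH]; exact Subgroup.mem_top y
      have := hHab.is_comm.comm ⟨x, hx⟩ ⟨y, hy⟩
      exact congrArg Subtype.val this
    apply Subtype.ext
    rw [conjAut_apply]
    exact hcharcent H hHc hHne a ha h hh
  obtain ⟨hspec, hcenter⟩ := Cfsg.Agent.S0119.result hP A' hA' hGA hchar
  refine ⟨Or.inr hspec, ?_, ?_⟩
  · intro U hΦ hUP hBU
    by_cases hU : U = P
    · exact Or.inr hU
    · left
      have h1 := hcent U hUP hU hBU
      refine le_antisymm ?_ hΦ
      intro u hu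
      have h2 : (⟨u, hUP hu⟩ : ↥P) ∈ Subgroup.center ↥P := by
        rw [hcenter]
        intro a' ha'
        obtain ⟨a, ha, haN, rfl⟩ := hA'mem a' ha'
        apply Subtype.ext
        rw [conjAut_apply]
        have h3 := Subgroup.mem_centralizer_iff.mp (h1 hu) a ha
        change a * u * a⁻¹ = u
        rw [h3, mul_inv_cancel_right]
      rw [← hspec.2.1] at h2
      exact Subgroup.mem_map.mpr ⟨_, h2, rfl⟩
  · intro hp2
    have hc : Class2 ↥P := by
      intro x y
      rw [← hspec.2.2, commutator_def]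
      exact Subgroup.commutator_mem_commutator (Subgroup.mem_top x) (Subgroup.mem_top y)
    let Ω : Subgroup ↥P := Subgroup.closure {x : ↥P | x ^ p = 1}
    have hΩchar : Ω.Characteristic := by
      rw [Subgroup.characteristic_iff_map_le]
      intro φ
      rw [MonoidHom.map_closure]
      apply Subgroup.closure_mono
      rintro _ ⟨x, hx, rfl⟩
      change (φ x) ^ p = 1
      rw [← map_pow, (hx : x ^ p = 1), map_one]
    have hΩtop : Ω = ⊤ := by
      by_contra hne
      apply hnt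
      rw [Subgroup.commutator_eq_bot_iff_le_centralizer, Subgroup.le_centralizer_iff]
      intro a ha
      have h1 : (conjAut P ⟨a, hAP ha⟩) ^ (Nat.card A) = 1 := by
        rw [← map_pow]
        have : (⟨a, hAP ha⟩ : ↥N) ^ (Nat.card A) = 1 := by
          apply Subtype.ext
          have h2 := pow_card_eq_one' (G := ↥A) (x := ⟨a, ha⟩)
          have h3 := congrArg Subtype.val h2
          rw [Subgroup.coe_pow, Subgroup.coe_one] at h3
          rw [Subgroup.coe_pow, Subgroup.coe_one]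
          exact h3
        rw [this, map_one]
      have h4 : (orderOf (conjAut P ⟨a, hAP ha⟩)).Coprime p :=
        Nat.Coprime.coprime_dvd_left (orderOf_dvd_of_pow_eq_one h1) hAp
      have h5 := Cfsg.Agent.S0120.result hp2 hP (conjAut P ⟨a, hAP ha⟩) h4 (by
        intro x hx
        apply Subtype.ext
        rw [conjAut_apply]
        exact hcharcent Ω hΩchar hne a ha x (Subgroup.subset_closure hx))
      rw [Subgroup.mem_centralizer_iff]
      intro g hg
      have h6 := congrArg (fun φ : MulAut ↥P => ((φ ⟨g, hg⟩ : ↥P) : X)) h5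
      simp only [conjAut_apply, MulAut.one_apply] at h6
      exact (mul_inv_eq_iff_eq_mul.mp h6).symm
    have hall : ∀ g : ↥P, g ∈ Ω := fun g => by rw [hΩtop]; exact Subgroup.mem_top g
    have hodd : Odd p := hp.odd_of_ne_two hp2
    have hcp : ∀ g x : ↥P, ⁅g, x⁆ ^ p = 1 := by
      intro g x
      refine Subgroup.closure_induction (p := fun g _ => ⁅g, x⁆ ^ p = 1) ?_ ?_ ?_ ?_ (hall g)
      · intro y hy
        rw [← hc.comm_pow_left, (hy : y ^ p = 1), commutatorElement_one_left]
      · rw [commutatorElement_one_left, one_pow]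
      · intro y z _ _ hy hz
        rw [hc.comm_mul_left, hc.mul_pow, hy, hz, one_mul]
      · intro y _ hy
        rw [hc.comm_inv_left, inv_pow, hy, inv_one]
    have hexp : ∀ g : ↥P, g ^ p = 1 := by
      intro g
      refine Subgroup.closure_induction (p := fun g _ => g ^ p = 1) ?_ ?_ ?_ ?_ (hall g)
      · intro y hy
        exact hy
      · exact one_pow p
      · intro y z _ _ hy hz
        exact hc.mul_pow_eq_one hodd hy hz (hcp z y)
      · intro y _ hy
        rw [inv_pow, hy, inv_one]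
    intro x hx
    have := congrArg Subtype.val (hexp ⟨x, hx⟩)
    simpa using this

/-- The Hall–Higman reduction for a minimal non-trivial action. Let B, A and P be subgroups of a finite group with P a p-group, B normalizing P, and A a normal subgroup of B of order prime to p. Suppose A does not centralize P but centralizes every proper B-invariant subgroup of P. Then [P, A] = P; P is elementary abelian or special; B acts irreducibly on P/Φ(P), that is, the only B-invariant subgroups of P containing Φ(P) are Φ(P) and P; and if p is odd then every element of P has order dividing p. -/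
theorem result {X : Type*} [Group X] [Finite X] {p : ℕ} [Fact p.Prime] (B A P : Subgroup X) (hP : IsPGroup p P) (hBP : B ≤ Subgroup.normalizer (P : Set X)) (hAB : A ≤ B) (hAn : B ≤ Subgroup.normalizer (A : Set X)) (hAp : (Nat.card A).Coprime p) (hnt : ⁅P, A⁆ ≠ ⊥) (hmin : ∀ U : Subgroup X, U < P → B ≤ Subgroup.normalizer (U : Set X) → ⁅U, A⁆ = ⊥) : ⁅P, A⁆ = P ∧ (Cfsg.IsElementaryAbelian p P ∨ Cfsg.IsSpecial p ↥P) ∧ (∀ U : Subgroup X, (frattini ↥P).map P.subtype ≤ U → U ≤ P → B ≤ Subgroup.normalizer (U : Set X) → U = (frattini ↥P).map P.subtype ∨ U = P) ∧ (p ≠ 2 → ∀ x ∈ P, x ^ p = 1) := by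
  classical
  have hp : p.Prime := Fact.out
  have hAP : A ≤ Subgroup.normalizer (P : Set X) := hAB.trans hBP
  obtain ⟨k, hk⟩ := IsPGroup.iff_card.mp hP
  have hcop : (Nat.card A).Coprime (Nat.card P) := by rw [hk]; exact hAp.pow_right k
  have hnil : Group.IsNilpotent ↥P := hP.isNilpotent
  have hPA : ⁅P, A⁆ = P := by
    have hle : ⁅P, A⁆ ≤ P := commutator_le_of_le_normalizer hAP
    by_contra hne
    have h1 := hmin _ (lt_of_le_of_ne hle hne) (le_normalizer_comm' hBP hAn)
    have h2 := Cfsg.Agent.S0027.result A P hAP hcop (Or.inr inferInstance)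
    rw [h1] at h2
    exact hnt h2.symm
  refine ⟨hPA, ?_⟩
  by_cases hab : IsMulCommutative ↥P
  · obtain ⟨hexp, hirr⟩ := abelian_case B A P hP hBP hAB hAp hnt hmin hPA hab
    refine ⟨Or.inl ⟨hab, hexp⟩, ?_, fun _ => hexp⟩
    intro U hΦ hUP hBU
    rcases hirr U hUP hBU with h | h
    · left
      rw [h] at hΦ ⊢
      exact (le_bot_iff.mp hΦ).symm
    · exact Or.inr h
  · exact nonabelian_case B A P hP hBP hAB hAp hnt hmin hPA hab

end Cfsg.Agent.S3736
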