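import Cfsg.Statements.S3737
import Cfsg.Agent.Lib.Helper66.Baer
import Cfsg.Agent.Lib.Helper1.Coprime
import Cfsg.Agent.S0027

set_option autoImplicit false
open Cfsg

namespace Cfsg.Agent.S3737

open Cfsg.Agent.Lib.Helper66 Cfsg.Agent.Lib.Helper1
open scoped commutatorElement Pointwise

/-- An element normalising `H` and `K` normalises `⁅H, K⁆`. -/
theorem le_normalizer_comm {X : Type*} [Group X] {A H K : Subgroup X}
    (hH : A ≤ Subgroup.normalizer (H : Set X)) (hK : A ≤ Subgroup.normalizer (K : Set X)) :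
    A ≤ Subgroup.normalizer ((⁅H, K⁆ : Subgroup X) : Set X) := by
  intro a ha
  rw [mem_normalizer_iff_conj_smul, conj_smul_commutator,
    (mem_normalizer_iff_conj_smul a H).mp (hH ha), (mem_normalizer_iff_conj_smul a K).mp (hK ha)]

theorem aux {X : Type*} [Group X] [Finite X] {p : ℕ} [Fact p.Prime] (hp : p ≠ 2)
    (P Q : Subgroup X) (hP : IsPGroup p P) (hQ : (Nat.card Q).Coprime p)
    (hPQ : P ≤ Subgroup.normalizer (Q : Set X)) :
    ∀ n : ℕ, ∀ G : Subgroup X, Nat.card G = n → IsPGroup p G →
      P ≤ Subgroup.normalizer (G : Set X) → Q ≤ Subgroup.normalizer (G : Set X) →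
      G ⊓ Subgroup.centralizer (P : Set X) ≤ Subgroup.centralizer (Q : Set X) →
      Q ≤ Subgroup.centralizer (G : Set X) := by
  intro n
  induction n using Nat.strong_induction_on with
  | _ n ih =>
  intro G hn hG hPG hQG hC
  have hprop : ∀ U : Subgroup X, U ≤ G → U ≠ G → P ≤ Subgroup.normalizer (U : Set X) →
      Q ≤ Subgroup.normalizer (U : Set X) → Q ≤ Subgroup.centralizer (U : Set X) := by
    intro U hU hne h1 h2
    have hlt : Nat.card U < n := by
      rw [← hn]
      by_contra hlt
      exact hne (Subgroup.eq_of_le_of_card_ge hU (not_lt.mp hlt))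
    exact ih (Nat.card U) hlt U rfl (hG.to_le hU) h1 h2 (le_trans (inf_le_inf_right _ hU) hC)
  have hKle : ⁅G, Q⁆ ≤ G := commutator_le_of_le_normalizer hQG
  by_cases hK : ⁅G, Q⁆ = G
  · -- class two
    by_cases hbot : G = ⊥
    · rw [hbot]
      intro q _
      rw [Subgroup.mem_centralizer_iff]
      intro g hg
      rw [Subgroup.coe_bot, Set.mem_singleton_iff] at hg
      rw [hg, one_mul, mul_one]
    have hDlt : ⁅G, G⁆ ≠ G := by
      have : Nontrivial ↥G := (Subgroup.nontrivial_iff_ne_bot G).mpr hbot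
      have : Group.IsNilpotent ↥G := hG.isNilpotent
      have h1 := Group.IsSolvable.commutator_lt_top_of_nontrivial ↥G
      intro h2
      apply h1.ne
      apply Subgroup.map_injective G.subtype_injective
      rw [commutator_def, Subgroup.map_commutator, ← MonoidHom.range_eq_map, Subgroup.range_subtype]
      exact h2
    have hDle : ⁅G, G⁆ ≤ G := commutator_le_of_le_normalizer Subgroup.le_normalizer
    have hGD : G ≤ Subgroup.normalizer ((⁅G, G⁆ : Subgroup X) : Set X) :=
      le_normalizer_comm Subgroup.le_normalizer Subgroup.le_normalizer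
    have hED : ⁅⁅G, G⁆, G⁆ ≤ ⁅G, G⁆ := commutator_le_of_le_normalizer hGD
    have hDQ : Q ≤ Subgroup.centralizer ((⁅G, G⁆ : Subgroup X) : Set X) :=
      hprop _ hDle hDlt (le_normalizer_comm hPG hPG) (le_normalizer_comm hQG hQG)
    have hEle : ⁅⁅G, G⁆, G⁆ ≤ G := le_trans hED hDle
    have hEne : ⁅⁅G, G⁆, G⁆ ≠ G := by
      intro h
      apply hDlt
      refine le_antisymm hDle ?_
      rw [h] at hED
      exact hED
    have hEQ : Q ≤ Subgroup.centralizer ((⁅⁅G, G⁆, G⁆ : Subgroup X) : Set X) :=
      hprop _ hEle hEne (le_normalizer_comm (le_normalizer_comm hPG hPG) hPG)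
        (le_normalizer_comm (le_normalizer_comm hQG hQG) hQG)
    have h1 : ⁅⁅Q, ⁅G, G⁆⁆, G⁆ = ⊥ := by
      have : ⁅Q, ⁅G, G⁆⁆ = ⊥ := Subgroup.commutator_eq_bot_iff_le_centralizer.mpr hDQ
      rw [this, Subgroup.commutator_bot_left]
    have h2 : ⁅⁅⁅G, G⁆, G⁆, Q⁆ = ⊥ := by
      rw [Subgroup.commutator_comm]
      exact Subgroup.commutator_eq_bot_iff_le_centralizer.mpr hEQ
    have h3 := Subgroup.commutator_commutator_eq_bot_of_rotate h1 h2
    rw [hK] at h3
    have hcl : ⁅G, G⁆ ≤ Subgroup.centralizer (G : Set X) := by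
      rw [Subgroup.le_centralizer_iff]
      exact Subgroup.commutator_eq_bot_iff_le_centralizer.mp h3
    exact pq_odd_class2 hp P Q G hP hQ hPQ hG hPG hQG hcl hC
  · have hKQ : Q ≤ Subgroup.centralizer ((⁅G, Q⁆ : Subgroup X) : Set X) :=
      hprop _ hKle hK (le_normalizer_comm hPG hPQ) (le_normalizer_comm hQG Subgroup.le_normalizer)
    have h1 : ⁅⁅G, Q⁆, Q⁆ = ⊥ := by
      rw [Subgroup.commutator_comm]
      exact Subgroup.commutator_eq_bot_iff_le_centralizer.mpr hKQ
    obtain ⟨k, hk⟩ := IsPGroup.iff_card.mp hG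
    have hnil : Group.IsNilpotent ↥G := hG.isNilpotent
    have h2 := Cfsg.Agent.S0027.result Q G hQG (by rw [hk]; exact hQ.pow_right k)
      (Or.inr inferInstance)
    rw [h1] at h2
    rw [Subgroup.le_centralizer_iff]
    exact Subgroup.commutator_eq_bot_iff_le_centralizer.mp h2.symm

/-- Thompson's strengthening of the P × Q lemma for odd primes. Let p be an odd prime and let P, Q and G be subgroups of a finite group with P a p-group, Q of order prime to p and normalized by P, and G a p-group normalized by both P and Q. If every element of G centralized by P is centralized by Q, then Q centralizes G. -/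
theorem result {X : Type*} [Group X] [Finite X] {p : ℕ} [Fact p.Prime] (hp : p ≠ 2) (P Q G : Subgroup X) (hP : IsPGroup p P) (hQ : (Nat.card Q).Coprime p) (hPQ : P ≤ Subgroup.normalizer (Q : Set X)) (hG : IsPGroup p G) (hPG : P ≤ Subgroup.normalizer (G : Set X)) (hQG : Q ≤ Subgroup.normalizer (G : Set X)) (hC : G ⊓ Subgroup.centralizer (P : Set X) ≤ Subgroup.centralizer (Q : Set X)) : Q ≤ Subgroup.centralizer (G : Set X) := by
  exact aux hp P Q hP hQ hPQ _ G rfl hG hPG hQG hC

end Cfsg.Agent.S3737
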