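import Cfsg.Statements.S3773
import Mathlib

set_option autoImplicit false
open Cfsg

namespace Cfsg.Agent.S3773

open scoped commutatorElement

section cl2

variable {G : Type*} [Group G]

theorem zmod2_cases : ∀ a : ZMod 2, a = 0 ∨ a = 1 := by decide

/-- ordered product of the `v j ^ x j` -/
def prodv : (d : ℕ) → (Fin d → G) → (Fin d → ZMod 2) → G
  | 0, _, _ => 1
  | d + 1, v, x => v 0 ^ (x 0).val * prodv d (Fin.tail v) (Fin.tail x)

theorem prodv_succ (d : ℕ) (v : Fin (d + 1) → G) (x : Fin (d + 1) → ZMod 2) :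
    prodv (d + 1) v x = v 0 ^ (x 0).val * prodv d (Fin.tail v) (Fin.tail x) := rfl

theorem prodv_zero_vec : ∀ (d : ℕ) (v : Fin d → G), prodv d v 0 = 1 := by
  intro d
  induction d with
  | zero => intro v; rfl
  | succ d ih =>
    intro v
    rw [prodv_succ]
    have : Fin.tail (0 : Fin (d + 1) → ZMod 2) = 0 := rfl
    rw [this, ih]
    simp

theorem sq_mul (hc : ∀ a b c : G, ⁅a, b⁆ * c = c * ⁅a, b⁆) (a b : G) :
    (a * b) ^ 2 = a ^ 2 * b ^ 2 * ⁅b, a⁆ := by
  have key : ∀ z : G, (∀ g, z * g = g * z) → b * a = z * (a * b) →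
      (a * b) ^ 2 = a ^ 2 * b ^ 2 * z := by
    intro z hz h
    calc (a * b) ^ 2 = a * (b * a) * b := by rw [pow_two]; group
      _ = a * (z * (a * b)) * b := by rw [h]
      _ = a * ((a * b) * z) * b := by rw [hz (a * b)]
      _ = a * (a * b) * (z * b) := by group
      _ = a * (a * b) * (b * z) := by rw [hz b]
      _ = a ^ 2 * b ^ 2 * z := by rw [pow_two, pow_two]; group
  exact key ⁅b, a⁆ (hc b a) (by group)

theorem comm_mul_left (hc : ∀ a b c : G, ⁅a, b⁆ * c = c * ⁅a, b⁆) (a b c : G) :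
    ⁅a * b, c⁆ = ⁅a, c⁆ * ⁅b, c⁆ := by
  have key : ∀ z : G, (∀ g, z * g = g * z) → b * c = z * (c * b) →
      ⁅a * b, c⁆ = ⁅a, c⁆ * z := by
    intro z hz h
    calc ⁅a * b, c⁆ = a * (b * c) * b⁻¹ * a⁻¹ * c⁻¹ := by group
      _ = a * (z * (c * b)) * b⁻¹ * a⁻¹ * c⁻¹ := by rw [h]
      _ = (a * z) * (c * b) * b⁻¹ * a⁻¹ * c⁻¹ := by group
      _ = (z * a) * (c * b) * b⁻¹ * a⁻¹ * c⁻¹ := by rw [hz a]
      _ = z * ⁅a, c⁆ := by group
      _ = ⁅a, c⁆ * z := hz _
  exact key ⁅b, c⁆ (hc b c) (by group)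

theorem comm_mul_right (hc : ∀ a b c : G, ⁅a, b⁆ * c = c * ⁅a, b⁆) (a b c : G) :
    ⁅a, b * c⁆ = ⁅a, b⁆ * ⁅a, c⁆ := by
  have key : ∀ z : G, (∀ g, z * g = g * z) → a * c * a⁻¹ * c⁻¹ = z →
      ⁅a, b * c⁆ = ⁅a, b⁆ * z := by
    intro z hz h
    calc ⁅a, b * c⁆ = a * b * a⁻¹ * (a * c * a⁻¹ * c⁻¹) * b⁻¹ := by group
      _ = a * b * a⁻¹ * z * b⁻¹ := by rw [h]
      _ = a * b * a⁻¹ * (z * b⁻¹) := by group
      _ = a * b * a⁻¹ * (b⁻¹ * z) := by rw [hz b⁻¹]
      _ = ⁅a, b⁆ * z := by group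
  exact key ⁅a, c⁆ (hc a c) (commutatorElement_def a c).symm

theorem comm_one_left (c : G) : ⁅(1 : G), c⁆ = 1 := by group

theorem comm_one_right (c : G) : ⁅c, (1 : G)⁆ = 1 := by group

/-- the commutator with an ordered product is linear in the exponents -/
theorem lin (hc : ∀ a b c : G, ⁅a, b⁆ * c = c * ⁅a, b⁆) (R : Subgroup G) (lam : G → ZMod 2)
    (hlam : ∀ a ∈ R, ∀ b ∈ R, lam (a * b) = lam a + lam b) :
    ∀ (d : ℕ) (v : Fin d → G) (c : G), (∀ j, ⁅v j, c⁆ ∈ R) → ∀ x : Fin d → ZMod 2,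
      ⁅prodv d v x, c⁆ ∈ R ∧ lam ⁅prodv d v x, c⁆ = ∑ j, x j * lam ⁅v j, c⁆ := by
  have hl1 : lam 1 = 0 := by
    have := hlam 1 R.one_mem 1 R.one_mem
    rw [mul_one] at this
    exact left_eq_add.1 this
  intro d
  induction d with
  | zero =>
    intro v c _ x
    refine ⟨?_, ?_⟩
    · show ⁅(1 : G), c⁆ ∈ R
      rw [comm_one_left]
      exact R.one_mem
    · show lam ⁅(1 : G), c⁆ = _
      rw [comm_one_left, hl1]
      simp
  | succ d ih =>
    intro v c hv x
    obtain ⟨h1, h2⟩ := ih (Fin.tail v) c (fun j => hv j.succ) (Fin.tail x)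
    rw [prodv_succ, comm_mul_left hc, Fin.sum_univ_succ]
    rcases zmod2_cases (x 0) with h0 | h0
    · rw [h0]
      simp only [ZMod.val_zero, pow_zero, comm_one_left, one_mul, zero_mul, zero_add]
      exact ⟨h1, h2⟩
    · rw [h0]
      have hv1 : (1 : ZMod 2).val = 1 := rfl
      simp only [hv1, pow_one, one_mul]
      refine ⟨R.mul_mem (hv 0) h1, ?_⟩
      rw [hlam _ (hv 0) _ h1, h2]
      rfl

/-- the square of an ordered product is a quadratic polynomial in the exponents -/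
theorem poly (hc : ∀ a b c : G, ⁅a, b⁆ * c = c * ⁅a, b⁆) (R : Subgroup G) (lam : G → ZMod 2)
    (hlam : ∀ a ∈ R, ∀ b ∈ R, lam (a * b) = lam a + lam b) :
    ∀ (d : ℕ) (v : Fin d → G), (∀ j, v j ^ 2 ∈ R) → (∀ j k, ⁅v j, v k⁆ ∈ R) →
      ∃ f : MvPolynomial (Fin d) (ZMod 2), f.totalDegree ≤ 2 ∧ ∀ x : Fin d → ZMod 2,
        (prodv d v x) ^ 2 ∈ R ∧ MvPolynomial.eval x f = lam ((prodv d v x) ^ 2) := by
  have hl1 : lam 1 = 0 := by
    have := hlam 1 R.one_mem 1 R.one_mem
    rw [mul_one] at this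
    exact left_eq_add.1 this
  intro d
  induction d with
  | zero =>
    intro v _ _
    refine ⟨0, by simp, fun x => ?_⟩
    refine ⟨?_, ?_⟩
    · show (1 : G) ^ 2 ∈ R
      rw [one_pow]
      exact R.one_mem
    · show MvPolynomial.eval x 0 = lam ((1 : G) ^ 2)
      rw [one_pow, hl1, map_zero]
  | succ d ih =>
    intro v hv2 hvc
    obtain ⟨f', hf'd, hf'⟩ := ih (Fin.tail v) (fun j => hv2 j.succ) (fun j k => hvc j.succ k.succ)
    refine ⟨MvPolynomial.C (lam (v 0 ^ 2)) * MvPolynomial.X 0 + MvPolynomial.rename Fin.succ f'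
      + MvPolynomial.X 0 * ∑ j : Fin d, MvPolynomial.C (lam ⁅v j.succ, v 0⁆) *
          MvPolynomial.X j.succ, ?_, fun x => ?_⟩
    · have h1 : (MvPolynomial.C (lam (v 0 ^ 2)) * MvPolynomial.X (0 : Fin (d + 1)) :
          MvPolynomial (Fin (d + 1)) (ZMod 2)).totalDegree ≤ 2 := by
        refine (MvPolynomial.totalDegree_mul _ _).trans ?_
        rw [MvPolynomial.totalDegree_C, MvPolynomial.totalDegree_X]
        omega
      have h2 : (MvPolynomial.rename (Fin.succ : Fin d → Fin (d + 1)) f').totalDegree ≤ 2 :=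
        (MvPolynomial.totalDegree_rename_le _ _).trans hf'd
      have h3 : (MvPolynomial.X (0 : Fin (d + 1)) * ∑ j : Fin d,
          MvPolynomial.C (lam ⁅v j.succ, v 0⁆) * MvPolynomial.X j.succ :
          MvPolynomial (Fin (d + 1)) (ZMod 2)).totalDegree ≤ 2 := by
        refine (MvPolynomial.totalDegree_mul _ _).trans ?_
        rw [MvPolynomial.totalDegree_X]
        have h4 : (∑ j : Fin d, MvPolynomial.C (lam ⁅v j.succ, v 0⁆) * MvPolynomial.X j.succ :
            MvPolynomial (Fin (d + 1)) (ZMod 2)).totalDegree ≤ 1 := by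
          refine (MvPolynomial.totalDegree_finsetSum _ _).trans ?_
          apply Finset.sup_le
          intro j _
          refine (MvPolynomial.totalDegree_mul _ _).trans ?_
          rw [MvPolynomial.totalDegree_C, MvPolynomial.totalDegree_X]
        omega
      refine (MvPolynomial.totalDegree_add _ _).trans (max_le ?_ h3)
      exact (MvPolynomial.totalDegree_add _ _).trans (max_le h1 h2)
    · obtain ⟨hP2, hPe⟩ := hf' (Fin.tail x)
      obtain ⟨hL1, hL2⟩ := lin hc R lam hlam d (Fin.tail v) (v 0) (fun j => hvc j.succ 0)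
        (Fin.tail x)
      have hev : MvPolynomial.eval x (MvPolynomial.rename Fin.succ f') =
          MvPolynomial.eval (Fin.tail x) f' := by
        rw [MvPolynomial.eval_rename]
        rfl
      simp only [map_add, map_mul, MvPolynomial.eval_C, MvPolynomial.eval_X, map_sum, hev, hPe]
      rw [prodv_succ, sq_mul hc]
      rcases zmod2_cases (x 0) with h0 | h0
      · rw [h0]
        simp only [ZMod.val_zero, pow_zero, comm_one_right, one_pow, one_mul, mul_one, mul_zero,
          zero_mul, zero_add, add_zero]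
        exact ⟨hP2, trivial⟩
      · rw [h0]
        have hv1 : (1 : ZMod 2).val = 1 := rfl
        simp only [hv1, pow_one, one_mul, mul_one]
        refine ⟨R.mul_mem (R.mul_mem (hv2 0) hP2) hL1, ?_⟩
        rw [hlam _ (R.mul_mem (hv2 0) hP2) _ hL1, hlam _ (hv2 0) _ hP2, hL2]
        congr 1
        apply Finset.sum_congr rfl
        intro j _
        rw [mul_comm]
        rfl

theorem prodv_mem (K : Subgroup G) : ∀ (d : ℕ) (v : Fin d → G), (∀ j, v j ∈ K) →
    ∀ x : Fin d → ZMod 2, prodv d v x ∈ K := by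
  intro d
  induction d with
  | zero => intro v _ x; exact K.one_mem
  | succ d ih =>
    intro v hv x
    rw [prodv_succ]
    exact K.mul_mem (K.pow_mem (hv 0) _) (ih _ (fun j => hv j.succ) _)

/-- Chevalley--Warning: more than `2 r'` elements have a nontrivial product whose square is
killed by the `r'` coordinates -/
theorem cw_zero (hc : ∀ a b c : G, ⁅a, b⁆ * c = c * ⁅a, b⁆) (R : Subgroup G) (r' : ℕ)
    (lam : Fin r' → G → ZMod 2)
    (hlam : ∀ i, ∀ a ∈ R, ∀ b ∈ R, lam i (a * b) = lam i a + lam i b)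
    (d : ℕ) (v : Fin d → G) (hv2 : ∀ j, v j ^ 2 ∈ R) (hvc : ∀ j k, ⁅v j, v k⁆ ∈ R)
    (hd : 2 * r' < d) :
    ∃ x : Fin d → ZMod 2, x ≠ 0 ∧ ∀ i, lam i ((prodv d v x) ^ 2) = 0 := by
  choose F hFd hF using fun i => poly hc R (lam i) (hlam i) d v hv2 hvc
  have hsum : ∑ i ∈ (Finset.univ : Finset (Fin r')), (F i).totalDegree < Fintype.card (Fin d) := by
    rw [Fintype.card_fin]
    calc ∑ i ∈ (Finset.univ : Finset (Fin r')), (F i).totalDegree
        ≤ ∑ _i ∈ (Finset.univ : Finset (Fin r')), 2 := Finset.sum_le_sum (fun i _ => hFd i)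
      _ = 2 * r' := by simp [mul_comm]
      _ < d := hd
  have hdvd := char_dvd_card_solutions_of_sum_lt (K := ZMod 2) 2 hsum
  rw [Fintype.card_eq_nat_card] at hdvd
  have h0 : ∀ i ∈ (Finset.univ : Finset (Fin r')),
      MvPolynomial.eval (0 : Fin d → ZMod 2) (F i) = 0 := by
    intro i _
    rw [(hF i 0).2, prodv_zero_vec, one_pow]
    have := hlam i 1 R.one_mem 1 R.one_mem
    rw [mul_one] at this
    exact left_eq_add.1 this
  haveI : Nonempty {x : Fin d → ZMod 2 // ∀ i ∈ (Finset.univ : Finset (Fin r')),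
      MvPolynomial.eval x (F i) = 0} := ⟨⟨0, h0⟩⟩
  have hpos : 0 < Nat.card {x : Fin d → ZMod 2 // ∀ i ∈ (Finset.univ : Finset (Fin r')),
      MvPolynomial.eval x (F i) = 0} := Nat.card_pos
  have hcard : 1 < Nat.card {x : Fin d → ZMod 2 // ∀ i ∈ (Finset.univ : Finset (Fin r')),
      MvPolynomial.eval x (F i) = 0} := by
    have := Nat.le_of_dvd hpos hdvd
    omega
  haveI : Nontrivial {x : Fin d → ZMod 2 // ∀ i ∈ (Finset.univ : Finset (Fin r')),
      MvPolynomial.eval x (F i) = 0} := Finite.one_lt_card_iff_nontrivial.1 hcard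
  obtain ⟨⟨x, hx⟩, hne⟩ := exists_ne (⟨0, h0⟩ : {x : Fin d → ZMod 2 //
    ∀ i ∈ (Finset.univ : Finset (Fin r')), MvPolynomial.eval x (F i) = 0})
  refine ⟨x, fun h => hne (Subtype.ext h), fun i => ?_⟩
  rw [← (hF i x).2]
  exact hx i (Finset.mem_univ i)

theorem zpow_two_cases (z : G) (hz : z ^ 2 = 1) (k : ℤ) : z ^ k = 1 ∨ z ^ k = z := by
  rcases Int.even_or_odd' k with ⟨j, rfl | rfl⟩
  · left
    rw [zpow_mul, zpow_ofNat, hz, one_zpow]
  · right
    rw [zpow_add, zpow_mul, zpow_ofNat, hz, one_zpow, one_mul, zpow_one]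

theorem normal_zpowers (z : G) (hz : ∀ g : G, z * g = g * z) : (Subgroup.zpowers z).Normal := by
  constructor
  intro n hn g
  obtain ⟨k, rfl⟩ := Subgroup.mem_zpowers_iff.1 hn
  have hcomm : Commute g z := (hz g).symm
  have h1 : g * z ^ k = z ^ k * g := (hcomm.zpow_right k).eq
  have h2 : g * z ^ k * g⁻¹ = z ^ k := by rw [h1]; group
  rw [h2]
  exact hn

/-- hyperplanes of the elementary abelian central subgroup `R` cutting out `R₀` -/
theorem hyp [Finite G] (R : Subgroup G) (hRc : ∀ z ∈ R, ∀ g : G, z * g = g * z)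
    (hR2 : ∀ z ∈ R, z ^ 2 = 1) :
    ∀ (n : ℕ) (R₀ : Subgroup G), R₀ ≤ R → Nat.card R - Nat.card R₀ ≤ n →
      ∃ (r' : ℕ) (H : Fin r' → Subgroup G),
        (∀ i, ∀ a ∈ R, ∀ b ∈ R, (a * b ∈ H i ↔ (a ∈ H i ↔ b ∈ H i))) ∧
        (∀ z ∈ R, (∀ i, z ∈ H i) → z ∈ R₀) ∧ 2 ^ r' ≤ R₀.relIndex R := by
  classical
  have hne0 : ∀ A B : Subgroup G, A.relIndex B ≠ 0 := by
    intro A B
    unfold Subgroup.relIndex
    exact Subgroup.index_ne_zero_of_finite
  have triv : ∀ R₀ : Subgroup G, R ≤ R₀ → ∃ (r' : ℕ) (H : Fin r' → Subgroup G),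
        (∀ i, ∀ a ∈ R, ∀ b ∈ R, (a * b ∈ H i ↔ (a ∈ H i ↔ b ∈ H i))) ∧
        (∀ z ∈ R, (∀ i, z ∈ H i) → z ∈ R₀) ∧ 2 ^ r' ≤ R₀.relIndex R := by
    intro R₀ hle
    refine ⟨0, Fin.elim0, fun i => i.elim0, fun z hz _ => hle hz, ?_⟩
    rw [pow_zero]
    exact Nat.one_le_iff_ne_zero.2 (hne0 _ _)
  intro n
  induction n with
  | zero =>
    intro R₀ h0 hn
    apply triv
    have : Nat.card R ≤ Nat.card R₀ := by omega
    rw [Subgroup.eq_of_le_of_card_ge h0 this]
  | succ n ih =>
    intro R₀ h0 hn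
    by_cases hle : R ≤ R₀
    · exact triv R₀ hle
    obtain ⟨z, hzR, hzR₀⟩ := SetLike.not_le_iff_exists.1 hle
    have hzc := hRc z hzR
    have hz2 := hR2 z hzR
    haveI hzn : (Subgroup.zpowers z).Normal := normal_zpowers z hzc
    have h0' : R₀ ⊔ Subgroup.zpowers z ≤ R := sup_le h0 (by rw [Subgroup.zpowers_le]; exact hzR)
    have hlt : Nat.card R₀ < Nat.card ↥(R₀ ⊔ Subgroup.zpowers z) := by
      by_contra hcon
      push Not at hcon
      have := Subgroup.eq_of_le_of_card_ge (le_sup_left : R₀ ≤ R₀ ⊔ Subgroup.zpowers z) hcon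
      apply hzR₀
      rw [this]
      exact Subgroup.mem_sup_right (Subgroup.mem_zpowers z)
    have hle' : Nat.card ↥(R₀ ⊔ Subgroup.zpowers z) ≤ Nat.card R := Subgroup.card_le_of_le h0'
    obtain ⟨r'', H'', hx'', hk'', hc''⟩ := ih (R₀ ⊔ Subgroup.zpowers z) h0' (by omega)
    obtain ⟨R₁, hR₁⟩ := Set.Finite.exists_maximal
      (Set.toFinite {L : Subgroup G | R₀ ≤ L ∧ L ≤ R ∧ z ∉ L}) ⟨R₀, le_rfl, h0, hzR₀⟩
    obtain ⟨hR₁a, hR₁b, hR₁c⟩ := hR₁.1
    have key1 : ∀ a ∈ R, a ∉ R₁ → a * z ∈ R₁ := by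
      intro a haR haR₁
      have hac := hRc a haR
      have ha2 := hR2 a haR
      haveI : (Subgroup.zpowers a).Normal := normal_zpowers a hac
      have hzL : z ∈ R₁ ⊔ Subgroup.zpowers a := by
        by_contra hzL
        have hL : R₁ ⊔ Subgroup.zpowers a ∈ {L : Subgroup G | R₀ ≤ L ∧ L ≤ R ∧ z ∉ L} :=
          ⟨hR₁a.trans le_sup_left, sup_le hR₁b (by rw [Subgroup.zpowers_le]; exact haR), hzL⟩
        have := hR₁.2 hL le_sup_left
        exact haR₁ (this (Subgroup.mem_sup_right (Subgroup.mem_zpowers a)))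
      have hzL' : z ∈ ((R₁ ⊔ Subgroup.zpowers a : Subgroup G) : Set G) := hzL
      rw [Subgroup.mul_normal, Set.mem_mul] at hzL'
      obtain ⟨m, hm, y, hy, hmy⟩ := hzL'
      obtain ⟨k, rfl⟩ := Subgroup.mem_zpowers_iff.1 hy
      rcases zpow_two_cases a ha2 k with h1 | h1
      · rw [h1, mul_one] at hmy
        rw [← hmy] at hR₁c
        exact absurd hm hR₁c
      · rw [h1] at hmy
        have : a * z = m := by
          rw [← hmy, ← mul_assoc, hac m, mul_assoc, ← pow_two, ha2, mul_one]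
        rw [this]
        exact hm
    have xor1 : ∀ a ∈ R, ∀ b ∈ R, (a * b ∈ R₁ ↔ (a ∈ R₁ ↔ b ∈ R₁)) := by
      intro a haR b hbR
      by_cases ha : a ∈ R₁ <;> by_cases hb : b ∈ R₁
      · simp [ha, hb, R₁.mul_mem ha hb]
      · have : a * b ∉ R₁ := fun h => hb (by
          have := R₁.mul_mem (R₁.inv_mem ha) h
          simpa using this)
        simp [ha, hb, this]
      · have : a * b ∉ R₁ := fun h => ha (by
          have := R₁.mul_mem h (R₁.inv_mem hb)
          simpa using this)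
        simp [ha, hb, this]
      · have h1 := key1 a haR ha
        have h2 := key1 b hbR hb
        have h3 : a * b = (a * z) * (b * z) := by
          rw [mul_assoc a z (b * z), ← mul_assoc z b z, hzc b, mul_assoc b z z, ← pow_two, hz2,
            mul_one]
        have : a * b ∈ R₁ := by rw [h3]; exact R₁.mul_mem h1 h2
        simp [ha, hb, this]
    refine ⟨r'' + 1, Fin.cons R₁ H'', ?_, ?_, ?_⟩
    · intro i
      refine Fin.cases ?_ (fun j => ?_) i
      · simpa using xor1
      · simpa using hx'' j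
    · intro w hwR hw
      have hw0 : w ∈ R₁ := by simpa using hw 0
      have hw' : w ∈ R₀ ⊔ Subgroup.zpowers z :=
        hk'' w hwR (fun j => by simpa using hw j.succ)
      have hw'' : w ∈ ((R₀ ⊔ Subgroup.zpowers z : Subgroup G) : Set G) := hw'
      rw [Subgroup.mul_normal, Set.mem_mul] at hw''
      obtain ⟨m, hm, y, hy, rfl⟩ := hw''
      obtain ⟨k, rfl⟩ := Subgroup.mem_zpowers_iff.1 hy
      rcases zpow_two_cases z hz2 k with h1 | h1
      · rw [h1, mul_one]
        exact hm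
      · exfalso
        rw [h1] at hw0
        apply hR₁c
        have := R₁.mul_mem (R₁.inv_mem (hR₁a hm)) hw0
        simpa using this
    · have h1 : R₀.relIndex (R₀ ⊔ Subgroup.zpowers z) * (R₀ ⊔ Subgroup.zpowers z).relIndex R
          = R₀.relIndex R := Subgroup.relIndex_mul_relIndex R₀ _ R le_sup_left h0'
      have h2 : 2 ≤ R₀.relIndex (R₀ ⊔ Subgroup.zpowers z) := by
        have hne1 : R₀.relIndex (R₀ ⊔ Subgroup.zpowers z) ≠ 1 := by
          rw [Ne, Subgroup.relIndex_eq_one]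
          intro h
          exact hzR₀ (h (Subgroup.mem_sup_right (Subgroup.mem_zpowers z)))
        have := hne0 R₀ (R₀ ⊔ Subgroup.zpowers z)
        omega
      rw [← h1, pow_succ]
      calc 2 ^ r'' * 2 = 2 * 2 ^ r'' := by ring
        _ ≤ R₀.relIndex (R₀ ⊔ Subgroup.zpowers z) * (R₀ ⊔ Subgroup.zpowers z).relIndex R :=
          Nat.mul_le_mul h2 hc''

/-- the main counting bound -/
theorem bound [Finite G] (hc : ∀ a b c : G, ⁅a, b⁆ * c = c * ⁅a, b⁆)
    (R R₀ : Subgroup G) (hRc : ∀ z ∈ R, ∀ g : G, z * g = g * z) (hR2 : ∀ z ∈ R, z ^ 2 = 1)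
    (hR₀ : R₀ ≤ R) (K : Subgroup G) (M : Set G)
    (hK2 : ∀ a ∈ K, a ^ 2 ∈ R) (hKc : ∀ a ∈ K, ∀ b ∈ K, ⁅a, b⁆ ∈ R)
    (hKM : ∀ a ∈ K, a ^ 2 ∈ R₀ → a ∈ M) :
    Nat.card K ≤ (R₀.relIndex R) ^ 2 * M.ncard := by
  classical
  obtain ⟨r', H, hx, hk, hcnt⟩ := hyp R hRc hR2 _ R₀ hR₀ le_rfl
  set lam : Fin r' → G → ZMod 2 := fun i g => if g ∈ H i then 0 else 1 with hlamdef
  have hlam : ∀ i, ∀ a ∈ R, ∀ b ∈ R, lam i (a * b) = lam i a + lam i b := by
    intro i a ha b hb
    have := hx i a ha b hb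
    simp only [hlamdef]
    by_cases h1 : a ∈ H i <;> by_cases h2 : b ∈ H i
    · have h3 : a * b ∈ H i := this.2 ⟨fun _ => h2, fun _ => h1⟩
      simp [h1, h2, h3]
    · have h3 : a * b ∉ H i := fun h => h2 ((this.1 h).1 h1)
      simp [h1, h2, h3]
    · have h3 : a * b ∉ H i := fun h => h1 ((this.1 h).2 h2)
      simp [h1, h2, h3]
    · have h3 : a * b ∈ H i := this.2 ⟨fun h => absurd h h1, fun h => absurd h h2⟩
      rw [if_pos h3, if_neg h1, if_neg h2]
      decide
  let P : ℕ → Prop := fun d => ∃ v : Fin d → G, (∀ j, v j ∈ K) ∧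
    ∀ x : Fin d → ZMod 2, x ≠ 0 → prodv d v x ∉ M
  have hP0 : P 0 :=
    ⟨Fin.elim0, fun j => j.elim0, fun x hx => absurd (Subsingleton.elim x 0) hx⟩
  have hPle : ∀ d, P d → d ≤ 2 * r' := by
    rintro d ⟨v, hvK, hind⟩
    by_contra hd
    push Not at hd
    obtain ⟨x, hx0, hxz⟩ := cw_zero hc R r' lam hlam d v (fun j => hK2 _ (hvK j))
      (fun j k => hKc _ (hvK j) _ (hvK k)) hd
    apply hind x hx0
    have hpK : prodv d v x ∈ K := prodv_mem K d v hvK x
    apply hKM _ hpK
    apply hk _ (hK2 _ hpK)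
    intro i
    have := hxz i
    simp only [hlamdef] at this
    by_contra hni
    rw [if_neg hni] at this
    exact one_ne_zero this
  have hPd₀ : P (Nat.findGreatest P (2 * r')) := Nat.findGreatest_spec (Nat.zero_le _) hP0
  have hnP : ¬ P (Nat.findGreatest P (2 * r') + 1) := by
    intro h
    have h1 := hPle _ h
    exact Nat.findGreatest_is_greatest (Nat.lt_succ_self _) h1 h
  have hd₀le : Nat.findGreatest P (2 * r') ≤ 2 * r' := Nat.findGreatest_le _
  generalize Nat.findGreatest P (2 * r') = d₀ at hPd₀ hnP hd₀le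
  obtain ⟨v, hvK, hind⟩ := hPd₀
  have hcov : ∀ y ∈ K, ∃ x : Fin d₀ → ZMod 2, y * prodv d₀ v x ∈ M := by
    intro y hy
    by_contra hcon
    push Not at hcon
    apply hnP
    refine ⟨Fin.cons y v, ?_, ?_⟩
    · intro j
      refine Fin.cases ?_ (fun j => ?_) j
      · simpa using hy
      · simpa using hvK j
    · intro x hx0
      rw [prodv_succ]
      simp only [Fin.cons_zero, Fin.tail_cons]
      rcases zmod2_cases (x 0) with h0 | h0
      · rw [h0]
        simp only [ZMod.val_zero, pow_zero, one_mul]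
        apply hind
        intro ht
        apply hx0
        funext j
        refine Fin.cases ?_ (fun j => ?_) j
        · simpa using h0
        · have := congrFun ht j
          simpa [Fin.tail] using this
      · rw [h0]
        have hv1 : (1 : ZMod 2).val = 1 := rfl
        rw [hv1, pow_one]
        exact hcon _
  choose! g hg using hcov
  have hinj : Function.Injective (fun y : ↥K =>
      ((g y : Fin d₀ → ZMod 2), (⟨(y : G) * prodv d₀ v (g y), hg y y.2⟩ : ↥M))) := by
    intro y y' h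
    simp only [Prod.mk.injEq, Subtype.mk.injEq] at h
    obtain ⟨h1, h2⟩ := h
    rw [h1] at h2
    exact Subtype.ext (mul_right_cancel h2)
  have hcard := Nat.card_le_card_of_injective _ hinj
  rw [Nat.card_prod] at hcard
  have hfun : Nat.card (Fin d₀ → ZMod 2) = 2 ^ d₀ := by simp
  calc Nat.card K ≤ 2 ^ d₀ * M.ncard := by
        rw [← hfun, ← _root_.Nat.card_coe_set_eq]
        exact hcard
    _ ≤ (R₀.relIndex R) ^ 2 * M.ncard := by
        apply Nat.mul_le_mul_right
        calc 2 ^ d₀ ≤ 2 ^ (2 * r') := Nat.pow_le_pow_right (by norm_num) hd₀le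
          _ = (2 ^ r') ^ 2 := by rw [← pow_mul, mul_comm]
          _ ≤ (R₀.relIndex R) ^ 2 := Nat.pow_le_pow_left hcnt 2

theorem comm_sq (hc : ∀ a b c : G, ⁅a, b⁆ * c = c * ⁅a, b⁆) (hexp : ∀ x : G, x ^ 4 = 1)
    (a b : G) : ⁅b, a⁆ ^ 2 = 1 := by
  have key : ∀ z : G, (∀ g, z * g = g * z) → ⁅b, a⁆ = z → z ^ 2 = 1 := by
    intro z hzc hz
    have h1 : (a * b) ^ 2 = a ^ 2 * b ^ 2 * z := by rw [sq_mul hc a b, hz]
    have h2 : (a ^ 2 * b ^ 2) ^ 2 = (a ^ 2) ^ 2 * (b ^ 2) ^ 2 * ⁅b ^ 2, a ^ 2⁆ := sq_mul hc _ _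
    have h3 : ⁅b ^ 2, a ^ 2⁆ = z ^ 4 := by
      have e1 : ⁅b, a ^ 2⁆ = z * z := by rw [pow_two, comm_mul_right hc, hz]
      rw [pow_two b, comm_mul_left hc, e1, show (4 : ℕ) = 2 + 2 from rfl, pow_add, pow_two]
    have h4 : (a * b) ^ 4 = z ^ 2 := by
      have e : (a * b) ^ 4 = ((a * b) ^ 2) ^ 2 := by rw [← pow_mul]
      rw [e, h1]
      have h5 : (a ^ 2 * b ^ 2 * z) ^ 2 = (a ^ 2 * b ^ 2) ^ 2 * z ^ 2 := by
        have hcm : Commute (a ^ 2 * b ^ 2) z := (hzc _).symm
        exact hcm.mul_pow 2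
      rw [h5, h2, h3, ← pow_mul, ← pow_mul, hexp a, hexp b, hexp z]
      simp
    rw [← h4, hexp]
  exact key ⁅b, a⁆ (hc b a) rfl

theorem sq_central (hc : ∀ a b c : G, ⁅a, b⁆ * c = c * ⁅a, b⁆) (hexp : ∀ x : G, x ^ 4 = 1)
    (a g : G) : a ^ 2 * g = g * a ^ 2 := by
  have h1 : ⁅a ^ 2, g⁆ = 1 := by
    rw [pow_two, comm_mul_left hc, ← pow_two]
    exact comm_sq hc hexp g a
  exact (commutatorElement_eq_one_iff_commute.1 h1).eq

theorem card_rel (A B : Subgroup G) (h : A ≤ B) : Nat.card A * A.relIndex B = Nat.card B := by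
  have := Subgroup.relIndex_mul_relIndex (⊥ : Subgroup G) A B bot_le h
  rw [Subgroup.relIndex_bot_left, Subgroup.relIndex_bot_left] at this
  exact this

end cl2

/-- Let G be a finite 2-group of nilpotency class at most 2 and exponent dividing 4 in which the elements x with x² = 1 form a subgroup N. Then |G| ≤ |N|³, and |G| < |N|³ unless G is special. -/
theorem result {G : Type*} [Group G] [Finite G] (hG : IsPGroup 2 G) (hcl : (⊤ : Subgroup G).lowerCentralSeries 2 = ⊥) (hexp : ∀ x : G, x ^ 4 = 1) (hN : ∀ x y : G, x ^ 2 = 1 → y ^ 2 = 1 → (x * y) ^ 2 = 1) : Nat.card G ≤ Nat.card {x : G // x ^ 2 = 1} ^ 3 ∧ (¬ Cfsg.IsSpecial 2 G → Nat.card G < Nat.card {x : G // x ^ 2 = 1} ^ 3) := by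
  classical
  have hc : ∀ a b c : G, ⁅a, b⁆ * c = c * ⁅a, b⁆ := by
    intro a b c
    have h1 : ⁅⁅a, b⁆, c⁆ ∈ (⊤ : Subgroup G).lowerCentralSeries 2 := by
      rw [Subgroup.lowerCentralSeries_succ, Subgroup.lowerCentralSeries_succ,
        Subgroup.lowerCentralSeries_zero]
      exact Subgroup.commutator_mem_commutator (Subgroup.commutator_mem_commutator
        (Subgroup.mem_top a) (Subgroup.mem_top b)) (Subgroup.mem_top c)
    rw [hcl, Subgroup.mem_bot] at h1
    exact (commutatorElement_eq_one_iff_commute.1 h1).eq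
  have hcs : ∀ a b : G, ⁅a, b⁆ ^ 2 = 1 := fun a b => comm_sq hc hexp b a
  have hsc : ∀ a g : G, a ^ 2 * g = g * a ^ 2 := sq_central hc hexp
  let N : Subgroup G :=
    { carrier := {x | x ^ 2 = 1}
      mul_mem' := fun {x y} hx hy => hN x y hx hy
      one_mem' := one_pow 2
      inv_mem' := fun {x} hx => by
        show (x⁻¹) ^ 2 = 1
        rw [inv_pow, show x ^ 2 = 1 from hx, inv_one] }
  have hNmem : ∀ x : G, x ∈ N ↔ x ^ 2 = 1 := fun x => Iff.rfl
  have hNcard : Nat.card {x : G // x ^ 2 = 1} = Nat.card N := rfl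
  let R : Subgroup G :=
    { carrier := {z | (∀ g : G, z * g = g * z) ∧ z ^ 2 = 1}
      mul_mem' := fun {x y} hx hy => ⟨fun g => by
          rw [mul_assoc, hy.1 g, ← mul_assoc, hx.1 g, mul_assoc], by
          have hcm : Commute x y := hx.1 y
          rw [hcm.mul_pow, hx.2, hy.2, one_mul]⟩
      one_mem' := ⟨fun g => by simp, one_pow 2⟩
      inv_mem' := fun {x} hx => ⟨fun g => by
          have h1 := hx.1 g
          calc x⁻¹ * g = x⁻¹ * (g * x) * x⁻¹ := by group
            _ = x⁻¹ * (x * g) * x⁻¹ := by rw [h1]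
            _ = g * x⁻¹ := by group, by
          show (x⁻¹) ^ 2 = 1
          rw [inv_pow, hx.2, inv_one]⟩ }
  have hRmem : ∀ z : G, z ∈ R ↔ (∀ g : G, z * g = g * z) ∧ z ^ 2 = 1 := fun z => Iff.rfl
  have hRc : ∀ z ∈ R, ∀ g : G, z * g = g * z := fun z hz => hz.1
  have hR2 : ∀ z ∈ R, z ^ 2 = 1 := fun z hz => hz.2
  have hRN : R ≤ N := fun z hz => hz.2
  have hsqR : ∀ a : G, a ^ 2 ∈ R := fun a => ⟨hsc a, by rw [← pow_mul]; exact hexp a⟩
  have hcomR : ∀ a b : G, ⁅a, b⁆ ∈ R := fun a b => ⟨hc a b, hcs a b⟩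
  have hNpos : 0 < Nat.card N := Nat.card_pos
  have hRpos : 0 < Nat.card R := Nat.card_pos
  have hRleN : Nat.card R ≤ Nat.card N := Subgroup.card_le_of_le hRN
  have hmain : Nat.card G ≤ (Nat.card R) ^ 2 * Nat.card N := by
    have h := bound hc R ⊥ hRc hR2 bot_le ⊤ (N : Set G) (fun a _ => hsqR a)
      (fun a _ b _ => hcomR a b) (fun a _ ha => by
        rw [Subgroup.mem_bot] at ha
        exact ha)
    rw [Subgroup.relIndex_bot_left, Subgroup.card_top, ← _root_.Nat.card_coe_set_eq] at h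
    exact h
  rw [hNcard]
  have hfirst : Nat.card G ≤ Nat.card N ^ 3 := by
    calc Nat.card G ≤ (Nat.card R) ^ 2 * Nat.card N := hmain
      _ ≤ (Nat.card N) ^ 2 * Nat.card N := Nat.mul_le_mul_right _ (Nat.pow_le_pow_left hRleN 2)
      _ = Nat.card N ^ 3 := by ring
  refine ⟨hfirst, fun hns => ?_⟩
  by_contra hge
  push Not at hge
  apply hns
  -- R = N
  have hRN' : Nat.card N ≤ Nat.card R := by
    have h1 : Nat.card N ^ 2 * Nat.card N ≤ (Nat.card R) ^ 2 * Nat.card N := by
      calc Nat.card N ^ 2 * Nat.card N = Nat.card N ^ 3 := by ring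
        _ ≤ Nat.card G := hge
        _ ≤ _ := hmain
    have h2 : Nat.card N ^ 2 ≤ (Nat.card R) ^ 2 := Nat.le_of_mul_le_mul_right h1 hNpos
    exact (Nat.pow_le_pow_iff_left (by norm_num)).1 h2
  have hReq : R = N := Subgroup.eq_of_le_of_card_ge hRN hRN'
  have hNc : ∀ z ∈ N, ∀ g : G, z * g = g * z := fun z hz => hRc z (by rw [hReq]; exact hz)
  -- (a) the centre has exponent 2
  have hcen : ∀ z : G, (∀ g : G, z * g = g * z) → z ^ 2 = 1 := by
    intro z hz
    by_contra hz2
    have hz4 : (z ^ 2) ^ 2 = 1 := by rw [← pow_mul]; exact hexp z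
    have hR₀ : Subgroup.zpowers (z ^ 2) ≤ R := by
      rw [Subgroup.zpowers_le]
      exact hsqR z
    have h := bound hc R (Subgroup.zpowers (z ^ 2)) hRc hR2 hR₀ ⊤
      {x : G | x ^ 2 = 1 ∨ x ^ 2 = z ^ 2} (fun a _ => hsqR a) (fun a _ b _ => hcomR a b)
      (fun a _ ha => by
        obtain ⟨k, hk⟩ := Subgroup.mem_zpowers_iff.1 ha
        rcases zpow_two_cases (z ^ 2) hz4 k with h1 | h1
        · left
          rw [← hk, h1]
        · right
          rw [← hk, h1])
    rw [Subgroup.card_top] at h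
    have hM : ({x : G | x ^ 2 = 1 ∨ x ^ 2 = z ^ 2} : Set G).ncard ≤ 2 * Nat.card N := by
      have hsub : ({x : G | x ^ 2 = 1 ∨ x ^ 2 = z ^ 2} : Set G) ⊆
          (N : Set G) ∪ (fun n => n * z) '' (N : Set G) := by
        rintro x (hx | hx)
        · exact Or.inl hx
        · right
          refine ⟨x * z⁻¹, ?_, by group⟩
          show (x * z⁻¹) ^ 2 = 1
          have hcm : Commute x z⁻¹ := by
            have := hz x
            have h2 : Commute z x := this
            exact h2.symm.inv_right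
          rw [hcm.mul_pow, hx, inv_pow, mul_inv_cancel]
      calc ({x : G | x ^ 2 = 1 ∨ x ^ 2 = z ^ 2} : Set G).ncard
          ≤ ((N : Set G) ∪ (fun n => n * z) '' (N : Set G)).ncard :=
            Set.ncard_le_ncard hsub (Set.toFinite _)
        _ ≤ (N : Set G).ncard + ((fun n => n * z) '' (N : Set G)).ncard := Set.ncard_union_le _ _
        _ ≤ (N : Set G).ncard + (N : Set G).ncard :=
            Nat.add_le_add_left (Set.ncard_image_le (Set.toFinite _)) _
        _ = 2 * Nat.card N := by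
            rw [← _root_.Nat.card_coe_set_eq]
            show Nat.card ↥N + Nat.card ↥N = 2 * Nat.card ↥N
            ring
    have hcard2 : Nat.card (Subgroup.zpowers (z ^ 2)) = 2 := by
      rw [Nat.card_zpowers]
      exact orderOf_eq_prime hz4 hz2
    have hrel := card_rel (Subgroup.zpowers (z ^ 2)) R hR₀
    rw [hcard2, hReq] at hrel
    rw [hReq] at h
    set ρ := (Subgroup.zpowers (z ^ 2)).relIndex N with hρ
    have h1 : Nat.card N ^ 3 ≤ ρ ^ 2 * (2 * Nat.card N) :=
      hge.trans (h.trans (Nat.mul_le_mul_left _ hM))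
    rw [← hrel] at h1
    have hρpos : 0 < ρ := by
      rcases Nat.eq_zero_or_pos ρ with h0 | h0
      · rw [h0, mul_zero] at hrel
        omega
      · exact h0
    have h3 : 0 < ρ ^ 3 := pow_pos hρpos 3
    nlinarith [h1, h3]
  -- (b) N is the commutator subgroup
  have hG'R : commutator G ≤ R := by
    rw [commutator_def, Subgroup.commutator_le]
    intro a _ b _
    exact hcomR a b
  have hG'N : commutator G = N := by
    by_contra hne
    have hlt : Nat.card (commutator G) < Nat.card R := by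
      by_contra hcon
      push Not at hcon
      exact hne ((Subgroup.eq_of_le_of_card_ge hG'R hcon).trans hReq)
    have hcomG' : ∀ a b : G, ⁅a, b⁆ ∈ commutator G := by
      intro a b
      rw [commutator_def]
      exact Subgroup.commutator_mem_commutator (Subgroup.mem_top a) (Subgroup.mem_top b)
    let K : Subgroup G :=
      { carrier := {x | x ^ 2 ∈ commutator G}
        mul_mem' := fun {x y} hx hy => by
          show (x * y) ^ 2 ∈ commutator G
          rw [sq_mul hc]
          exact Subgroup.mul_mem _ (Subgroup.mul_mem _ hx hy) (hcomG' y x)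
        one_mem' := by
          show (1 : G) ^ 2 ∈ commutator G
          rw [one_pow]
          exact Subgroup.one_mem _
        inv_mem' := fun {x} hx => by
          show (x⁻¹) ^ 2 ∈ commutator G
          rw [inv_pow]
          exact Subgroup.inv_mem _ hx }
    have hKb := bound hc (commutator G) ⊥ (fun z hz => hRc z (hG'R hz))
      (fun z hz => hR2 z (hG'R hz)) bot_le K (N : Set G) (fun a ha => ha)
      (fun a _ b _ => hcomG' a b) (fun a _ ha => by
        rw [Subgroup.mem_bot] at ha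
        exact ha)
    rw [Subgroup.relIndex_bot_left, ← _root_.Nat.card_coe_set_eq] at hKb
    -- the squaring homomorphism modulo the commutator subgroup
    haveI : ((commutator G).subgroupOf R).Normal := inferInstance
    let ψ : G →* ↥R ⧸ (commutator G).subgroupOf R :=
      MonoidHom.mk' (fun x => QuotientGroup.mk (⟨x ^ 2, hsqR x⟩ : ↥R)) (by
        intro x y
        rw [← QuotientGroup.mk_mul, QuotientGroup.eq, Subgroup.mem_subgroupOf]
        show ((x * y) ^ 2)⁻¹ * (x ^ 2 * y ^ 2) ∈ commutator G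
        rw [sq_mul hc]
        have : (x ^ 2 * y ^ 2 * ⁅y, x⁆)⁻¹ * (x ^ 2 * y ^ 2) = ⁅y, x⁆⁻¹ := by
          rw [mul_inv_rev, mul_assoc, inv_mul_cancel, mul_one]
        rw [this]
        exact Subgroup.inv_mem _ (hcomG' y x))
    have hker : ψ.ker = K := by
      ext x
      rw [MonoidHom.mem_ker]
      show QuotientGroup.mk (⟨x ^ 2, hsqR x⟩ : ↥R) = 1 ↔ x ^ 2 ∈ commutator G
      rw [QuotientGroup.eq_one_iff, Subgroup.mem_subgroupOf]
    have hidx : K.index ≤ (commutator G).relIndex R := by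
      rw [← hker, Subgroup.index_ker]
      calc Nat.card ψ.range ≤ Nat.card (↥R ⧸ (commutator G).subgroupOf R) :=
            Subgroup.card_le_card_group _
        _ = (commutator G).relIndex R := (Subgroup.index_eq_card _).symm
    have hrel := card_rel (commutator G) R hG'R
    have h1 : Nat.card G = K.index * Nat.card K := (Subgroup.index_mul_card K).symm
    have h2 : Nat.card G ≤ (commutator G).relIndex R *
        (Nat.card (commutator G) ^ 2 * Nat.card N) := by
      rw [h1]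
      exact Nat.mul_le_mul hidx hKb
    have h3 : (commutator G).relIndex R * (Nat.card (commutator G) ^ 2 * Nat.card N)
        = Nat.card R * Nat.card (commutator G) * Nat.card N := by
      rw [← hrel]
      ring
    rw [h3, hReq] at h2
    have h4 : Nat.card N * Nat.card (commutator G) * Nat.card N <
        Nat.card N * Nat.card N * Nat.card N := by
      rw [hReq] at hlt
      apply Nat.mul_lt_mul_of_pos_right _ hNpos
      exact Nat.mul_lt_mul_of_pos_left hlt hNpos
    have h5 : Nat.card N ^ 3 = Nat.card N * Nat.card N * Nat.card N := by ring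
    omega
  -- the centre is N
  have hcenN : Subgroup.center G = N := by
    ext z
    rw [Subgroup.mem_center_iff, hNmem]
    constructor
    · intro h
      exact hcen z (fun g => (h g).symm)
    · intro h g
      exact (hNc z h g).symm
  -- (c) the Frattini subgroup is N
  have hfrat : frattini G = N := by
    apply le_antisymm
    · intro x hx
      by_contra hxN
      obtain ⟨H, hH⟩ := Set.Finite.exists_maximal
        (Set.toFinite {L : Subgroup G | N ≤ L ∧ x ∉ L}) ⟨N, le_rfl, hxN⟩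
      obtain ⟨hH1, hH2⟩ := hH.1
      haveI hHn : H.Normal := by
        constructor
        intro n hn g
        have e : g * n * g⁻¹ = ⁅g, n⁆ * n := by group
        rw [e]
        exact H.mul_mem (hH1 (hRN (hcomR g n))) hn
      have hco : IsCoatom H := by
        refine ⟨fun h => hH2 (by rw [h]; exact Subgroup.mem_top x), fun L hL => ?_⟩
        have hxL : x ∈ L := by
          by_contra hxL
          have := hH.2 (show L ∈ {L : Subgroup G | N ≤ L ∧ x ∉ L} from ⟨hH1.trans hL.le, hxL⟩)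
            hL.le
          exact (not_le_of_gt hL) this
        rw [eq_top_iff]
        intro y _
        by_cases hyH : y ∈ H
        · exact hL.le hyH
        have hxs : x ∈ H ⊔ Subgroup.zpowers y := by
          by_contra hxs
          have := hH.2 (show H ⊔ Subgroup.zpowers y ∈ {L : Subgroup G | N ≤ L ∧ x ∉ L} from
            ⟨hH1.trans le_sup_left, hxs⟩) le_sup_left
          exact hyH (this (Subgroup.mem_sup_right (Subgroup.mem_zpowers y)))
        have hxs' : x ∈ ((H ⊔ Subgroup.zpowers y : Subgroup G) : Set G) := hxs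
        rw [Subgroup.normal_mul, Set.mem_mul] at hxs'
        obtain ⟨h, hh, w, hw, hhw⟩ := hxs'
        obtain ⟨k, rfl⟩ := Subgroup.mem_zpowers_iff.1 hw
        have hy2 : y ^ 2 ∈ H := hH1 (hRN (hsqR y))
        rcases Int.even_or_odd' k with ⟨j, rfl | rfl⟩
        · exfalso
          apply hH2
          rw [← hhw, zpow_mul, zpow_ofNat]
          exact H.mul_mem hh (H.zpow_mem hy2 j)
        · have e : y = ((y ^ 2) ^ j)⁻¹ * h⁻¹ * x := by
            rw [← hhw, zpow_add, zpow_mul, zpow_ofNat, zpow_one]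
            group
          rw [e]
          exact L.mul_mem (L.mul_mem (L.inv_mem (hL.le (H.zpow_mem hy2 j)))
            (L.inv_mem (hL.le hh))) hxL
      exact hH2 (frattini_le_coatom hco hx)
    · rw [← hG'N]
      unfold frattini Order.radical
      apply le_iInf₂
      intro H hH
      rw [commutator_def, Subgroup.commutator_le]
      intro a _ b _
      by_contra hcH
      have hcc := hc a b
      haveI : (Subgroup.zpowers ⁅a, b⁆).Normal := normal_zpowers _ hcc
      have htop : H ⊔ Subgroup.zpowers ⁅a, b⁆ = ⊤ := by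
        apply hH.2
        refine lt_of_le_of_ne le_sup_left ?_
        intro heq
        apply hcH
        rw [heq]
        exact Subgroup.mem_sup_right (Subgroup.mem_zpowers _)
      have hdec : ∀ g : G, ∃ h ∈ H, ∃ u : G, (∀ t : G, u * t = t * u) ∧ g = h * u := by
        intro g
        have hg : g ∈ ((H ⊔ Subgroup.zpowers ⁅a, b⁆ : Subgroup G) : Set G) := by
          rw [htop]
          exact Set.mem_univ g
        rw [Subgroup.mul_normal, Set.mem_mul] at hg
        obtain ⟨h, hh, u, hu, rfl⟩ := hg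
        obtain ⟨k, rfl⟩ := Subgroup.mem_zpowers_iff.1 hu
        refine ⟨h, hh, _, fun t => ?_, rfl⟩
        have hcm : Commute ⁅a, b⁆ t := hcc t
        exact (hcm.zpow_left k).eq
      obtain ⟨h₁, hh₁, u₁, hu₁, rfl⟩ := hdec a
      obtain ⟨h₂, hh₂, u₂, hu₂, rfl⟩ := hdec b
      apply hcH
      have e1 : ∀ t : G, ⁅u₁, t⁆ = 1 := fun t =>
        commutatorElement_eq_one_iff_commute.2 (hu₁ t)
      have e2 : ∀ t : G, ⁅t, u₂⁆ = 1 := fun t =>
        commutatorElement_eq_one_iff_commute.2 (hu₂ t).symm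
      rw [comm_mul_left hc, e1, mul_one, comm_mul_right hc, e2, mul_one]
      rw [commutatorElement_def]
      exact H.mul_mem (H.mul_mem (H.mul_mem hh₁ hh₂) (H.inv_mem hh₁)) (H.inv_mem hh₂)
  exact ⟨hG, by rw [hfrat, hcenN], by rw [hG'N, hcenN]⟩

end Cfsg.Agent.S3773
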