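import Cfsg.Statements.S3738
import Mathlib
import Cfsg.Agent.S3736
import Cfsg.Agent.S3773

set_option autoImplicit false
open Cfsg

namespace Cfsg.Agent.S3738

open scoped commutatorElement

/-- a permutation of 3-power order whose cube has no fixed point moves a number of points
divisible by 9 -/
theorem nine_dvd {α : Type*} [Fintype α] [DecidableEq α] (π : Equiv.Perm α) (n : ℕ)
    (h1 : π ^ (3 ^ n) = 1) (h2 : ∀ x, (π ^ 3) x ≠ x) : 9 ∣ Fintype.card α := by
  have hsupp : π.support = Finset.univ := by
    ext x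
    simp only [Equiv.Perm.mem_support, Finset.mem_univ, iff_true]
    intro hx
    apply h2 x
    have e : π ^ 3 = π * π * π := by rw [pow_succ, pow_succ, pow_one]
    rw [e, Equiv.Perm.mul_apply, Equiv.Perm.mul_apply, hx, hx, hx]
  have hsum : π.cycleType.sum = Fintype.card α := by
    rw [Equiv.Perm.sum_cycleType, hsupp, Finset.card_univ]
  rw [← hsum]
  apply Multiset.dvd_sum
  intro m hm
  rw [Equiv.Perm.cycleType_def] at hm
  obtain ⟨c, hc, rfl⟩ := Multiset.mem_map.1 hm
  have hc' : c ∈ π.cycleFactorsFinset := hc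
  have hcyc : c.IsCycle := (Equiv.Perm.mem_cycleFactorsFinset_iff.1 hc').1
  obtain ⟨a, ha⟩ := hcyc.nonempty_support
  have hceq : c = π.cycleOf a := Equiv.Perm.cycle_is_cycleOf ha hc'
  have hon : π.IsCycleOn (π.cycleOf a).support := Equiv.Perm.isCycleOn_support_cycleOf π a
  have hmem : a ∈ (π.cycleOf a).support := by rw [← hceq]; exact ha
  have key : ∀ k : ℕ, (π ^ k) a = a ↔ (π.cycleOf a).support.card ∣ k :=
    fun k => hon.pow_apply_eq hmem
  show 9 ∣ (Finset.card ∘ Equiv.Perm.support) c
  simp only [Function.comp]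
  rw [hceq]
  have hd1 : (π.cycleOf a).support.card ∣ 3 ^ n := (key _).1 (by rw [h1]; rfl)
  have hd2 : ¬ (π.cycleOf a).support.card ∣ 3 := fun h => h2 a ((key 3).2 h)
  obtain ⟨j, -, hj⟩ := (Nat.dvd_prime_pow Nat.prime_three).1 hd1
  rw [hj] at hd2 ⊢
  have hj2 : 2 ≤ j := by
    by_contra hlt
    push Not at hlt
    interval_cases j
    · exact hd2 (by norm_num)
    · exact hd2 (by norm_num)
  have e9 : (9 : ℕ) = 3 ^ 2 := by norm_num
  rw [e9]
  exact pow_dvd_pow 3 hj2

/-- Let d be a non-identity 3-element of a finite group and P a 2-subgroup normalized by d on which ⟨d⟩ acts faithfully (no non-identity power of d centralizes P) and without non-identity fixed points (C_P(d) = 1). If every abelian subgroup of P has 2-rank at most 2, then d has order 3. -/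
theorem result {X : Type*} [Group X] [Finite X] (d : X) (n : ℕ) (hn : 1 ≤ n) (hd : orderOf d = 3 ^ n) (P : Subgroup X) (hP : IsPGroup 2 P) (hdP : d ∈ Subgroup.normalizer (P : Set X)) (hfaith : Subgroup.zpowers d ⊓ Subgroup.centralizer (P : Set X) = ⊥) (hfpf : P ⊓ Subgroup.centralizer {d} = ⊥) (hrank : ∀ V : Subgroup X, V ≤ P → IsMulCommutative V → Cfsg.PRankLE 2 2 V) : orderOf d = 3 := by
  classical
  by_contra hne
  have hn2 : 2 ≤ n := by
    by_contra h
    have : n = 1 := by omega
    rw [this, pow_one] at hd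
    exact hne hd
  have haB : d ^ 3 ∈ Subgroup.zpowers d := Subgroup.pow_mem _ (Subgroup.mem_zpowers d) 3
  have hAB : Subgroup.zpowers (d ^ 3) ≤ Subgroup.zpowers d := by
    rw [Subgroup.zpowers_le]
    exact haB
  have ha1 : d ^ 3 ≠ 1 := by
    intro h
    have h1 := orderOf_dvd_of_pow_eq_one h
    rw [hd] at h1
    have h2 := Nat.le_of_dvd (by norm_num) h1
    have h3 : 3 ^ 2 ≤ 3 ^ n := Nat.pow_le_pow_right (by norm_num) hn2
    omega
  have hcomm : ∀ b ∈ Subgroup.zpowers d, ∀ x ∈ Subgroup.zpowers d, b * x = x * b := by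
    intro b hb x hx
    obtain ⟨i, rfl⟩ := Subgroup.mem_zpowers_iff.1 hb
    obtain ⟨j, rfl⟩ := Subgroup.mem_zpowers_iff.1 hx
    rw [← zpow_add, ← zpow_add, add_comm]
  have hBP : Subgroup.zpowers d ≤ Subgroup.normalizer (P : Set X) := by
    rw [Subgroup.zpowers_le]
    exact hdP
  have hAn : Subgroup.zpowers d ≤ Subgroup.normalizer (Subgroup.zpowers (d ^ 3) : Set X) := by
    intro b hb
    rw [Subgroup.mem_normalizer_iff]
    intro h
    constructor
    · intro hh
      have e : b * h * b⁻¹ = h := by rw [hcomm b hb h (hAB hh)]; group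
      rw [e]
      exact hh
    · intro hh
      have h1 : b * h * b⁻¹ ∈ Subgroup.zpowers d := hAB hh
      have h2 : h ∈ Subgroup.zpowers d := by
        have h3 := Subgroup.mul_mem _ (Subgroup.mul_mem _ (Subgroup.inv_mem _ hb) h1) hb
        have e : b⁻¹ * (b * h * b⁻¹) * b = h := by group
        rw [e] at h3
        exact h3
      have e : b * h * b⁻¹ = h := by rw [hcomm b hb h h2]; group
      rw [← e]
      exact hh
  have hAp : (Nat.card (Subgroup.zpowers (d ^ 3))).Coprime 2 := by
    rw [Nat.card_zpowers]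
    have h1 : orderOf (d ^ 3) ∣ 3 ^ n := by
      rw [← hd]
      exact orderOf_pow_dvd 3
    exact Nat.Coprime.coprime_dvd_left h1 (Nat.Coprime.pow_left n (by norm_num))
  have hPA : ⁅P, Subgroup.zpowers (d ^ 3)⁆ ≠ ⊥ := by
    intro h
    rw [Subgroup.commutator_eq_bot_iff_le_centralizer] at h
    apply ha1
    have h1 : d ^ 3 ∈ Subgroup.zpowers d ⊓ Subgroup.centralizer (P : Set X) := by
      refine ⟨haB, ?_⟩
      show d ^ 3 ∈ Subgroup.centralizer (P : Set X)
      rw [Subgroup.mem_centralizer_iff]
      intro x hx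
      have := Subgroup.mem_centralizer_iff.1 (h hx) (d ^ 3) (Subgroup.mem_zpowers _)
      exact this.symm
    rw [hfaith, Subgroup.mem_bot] at h1
    exact h1
  obtain ⟨R, hRmin⟩ := Set.Finite.exists_minimal (Set.toFinite {U : Subgroup X | U ≤ P ∧
    Subgroup.zpowers d ≤ Subgroup.normalizer (U : Set X) ∧ ⁅U, Subgroup.zpowers (d ^ 3)⁆ ≠ ⊥})
    ⟨P, le_rfl, hBP, hPA⟩
  obtain ⟨hRP, hBR, hRA⟩ := hRmin.1
  have hmin : ∀ U : Subgroup X, U < R → Subgroup.zpowers d ≤ Subgroup.normalizer (U : Set X) →
      ⁅U, Subgroup.zpowers (d ^ 3)⁆ = ⊥ := by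
    intro U hU hBU
    by_contra hUA
    exact (not_le_of_gt hU) (hRmin.2 (show U ∈ {U : Subgroup X | U ≤ P ∧
      Subgroup.zpowers d ≤ Subgroup.normalizer (U : Set X) ∧
      ⁅U, Subgroup.zpowers (d ^ 3)⁆ ≠ ⊥} from ⟨hU.le.trans hRP, hBU, hUA⟩) hU.le)
  have hR2 : IsPGroup 2 R := hP.to_le hRP
  obtain ⟨-, hcase, hirr, -⟩ := Cfsg.Agent.S3736.result (Subgroup.zpowers d)
    (Subgroup.zpowers (d ^ 3)) R hR2 hBR hAB hAn hAp hRA hmin
  -- invariance of the centralizer of A
  have hcentA : ∀ b ∈ Subgroup.zpowers d,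
      ∀ x ∈ Subgroup.centralizer (Subgroup.zpowers (d ^ 3) : Set X),
      b * x * b⁻¹ ∈ Subgroup.centralizer (Subgroup.zpowers (d ^ 3) : Set X) := by
    intro b hb x hx
    rw [Subgroup.mem_centralizer_iff] at hx ⊢
    intro y hy
    have h1 := hx y hy
    have h2 := hcomm b hb y (hAB hy)
    have h3 : y * b⁻¹ = b⁻¹ * y := by
      calc y * b⁻¹ = b⁻¹ * (b * y) * b⁻¹ := by group
        _ = b⁻¹ * (y * b) * b⁻¹ := by rw [h2]
        _ = b⁻¹ * y := by group
    calc y * (b * x * b⁻¹) = (y * b) * x * b⁻¹ := by group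
      _ = (b * y) * x * b⁻¹ := by rw [h2]
      _ = b * (y * x) * b⁻¹ := by group
      _ = b * (x * y) * b⁻¹ := by rw [h1]
      _ = b * x * (y * b⁻¹) := by group
      _ = b * x * (b⁻¹ * y) := by rw [h3]
      _ = b * x * b⁻¹ * y := by group
  set C := R ⊓ Subgroup.centralizer (Subgroup.zpowers (d ^ 3) : Set X) with hC
  have hCR : C ≤ R := inf_le_left
  have hBC : Subgroup.zpowers d ≤ Subgroup.normalizer (C : Set X) := by
    intro b hb
    rw [Subgroup.mem_normalizer_iff]
    intro h
    have hbR := Subgroup.mem_normalizer_iff.1 (hBR hb)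
    constructor
    · rintro ⟨h1, h2⟩
      exact ⟨(hbR h).1 h1, hcentA b hb h h2⟩
    · rintro ⟨h1, h2⟩
      refine ⟨(hbR h).2 h1, ?_⟩
      have h3 := hcentA b⁻¹ (Subgroup.inv_mem _ hb) _ h2
      have e : b⁻¹ * (b * h * b⁻¹) * b⁻¹⁻¹ = h := by group
      rw [e] at h3
      exact h3
  have hCne : C ≠ R := by
    intro h
    apply hRA
    rw [Subgroup.commutator_eq_bot_iff_le_centralizer, ← h]
    exact inf_le_right
  have hCltcard : Nat.card C < Nat.card R := by
    by_contra hcon
    push Not at hcon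
    exact hCne (Subgroup.eq_of_le_of_card_ge hCR hcon)
  -- the orbit count
  have hnine : 9 ∣ Nat.card R - Nat.card C := by
    have hdmem := Subgroup.mem_normalizer_iff.1 (hBR (Subgroup.mem_zpowers d))
    have hdC := Subgroup.mem_normalizer_iff.1 (hBC (Subgroup.mem_zpowers d))
    let π : Equiv.Perm {x : X // x ∈ R ∧ x ∉ C} :=
      (MulAut.conj d).toEquiv.subtypeEquiv (fun x => by
        show (x ∈ R ∧ x ∉ C) ↔ (d * x * d⁻¹ ∈ R ∧ d * x * d⁻¹ ∉ C)
        rw [← hdmem x, ← hdC x])
    have hπ : ∀ x : {x : X // x ∈ R ∧ x ∉ C}, ((π x : {x : X // x ∈ R ∧ x ∉ C}) : X)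
        = d * x.1 * d⁻¹ := fun x => rfl
    have hk : ∀ (k : ℕ) (x : {x : X // x ∈ R ∧ x ∉ C}),
        (((π ^ k) x : {x : X // x ∈ R ∧ x ∉ C}) : X) = d ^ k * x.1 * (d ^ k)⁻¹ := by
      intro k
      induction k with
      | zero => intro x; simp
      | succ k ih =>
        intro x
        rw [pow_succ, Equiv.Perm.mul_apply, ih, hπ, pow_succ]
        group
    have h1 : π ^ (3 ^ n) = 1 := by
      ext x
      rw [hk, ← hd, pow_orderOf_eq_one]
      simp
    have h2 : ∀ x, (π ^ 3) x ≠ x := by
      intro x hx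
      have h3 := congrArg Subtype.val hx
      rw [hk] at h3
      apply x.2.2
      refine ⟨x.2.1, ?_⟩
      show x.1 ∈ Subgroup.centralizer ((Subgroup.zpowers (d ^ 3) : Subgroup X) : Set X)
      rw [Subgroup.mem_centralizer_iff]
      intro y hy
      obtain ⟨i, rfl⟩ := Subgroup.mem_zpowers_iff.1 hy
      have h4 : Commute (d ^ 3) x.1 := by
        have : d ^ 3 * x.1 = x.1 * d ^ 3 := by
          calc d ^ 3 * x.1 = (d ^ 3 * x.1 * (d ^ 3)⁻¹) * d ^ 3 := by group
            _ = x.1 * d ^ 3 := by rw [h3]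
        exact this
      exact (h4.zpow_left i).eq
    haveI : Fintype {x : X // x ∈ R ∧ x ∉ C} := Fintype.ofFinite _
    have h9 := nine_dvd π n h1 h2
    have e1 : Fintype.card {x : X // x ∈ R ∧ x ∉ C} = ((R : Set X) \ (C : Set X)).ncard := by
      rw [← Nat.card_eq_fintype_card, ← _root_.Nat.card_coe_set_eq]
      rfl
    have e2 : ((R : Set X) \ (C : Set X)).ncard = (R : Set X).ncard - (C : Set X).ncard :=
      Set.ncard_sdiff (fun x hx => hCR hx) (Set.toFinite _)
    rw [e1, e2, ← _root_.Nat.card_coe_set_eq, ← _root_.Nat.card_coe_set_eq] at h9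
    exact h9
  rcases hcase with ⟨hcommR, hexpR⟩ | hspec
  · -- elementary abelian case
    have hle : Nat.card R ≤ 2 ^ 2 := by
      have hPR := hrank R hRP hcommR
      have h1 := hPR ⊤ ⟨⟨fun a b => Subtype.ext (hcommR.is_comm.comm a.1 b.1)⟩⟩
        (fun a _ => Subtype.ext (by
          have := hexpR a.1 a.2
          simpa using this))
      rw [Subgroup.card_top] at h1
      exact h1
    have hCpos : 0 < Nat.card C := Nat.card_pos
    have hpos : 0 < Nat.card R - Nat.card C := by omega
    have := Nat.le_of_dvd hpos hnine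
    omega
  · -- special case
    obtain ⟨hQ2, hfrat, hcomQ⟩ := hspec
    have hc : ∀ a b c : ↥R, ⁅a, b⁆ * c = c * ⁅a, b⁆ := by
      intro a b c
      have h1 : ⁅a, b⁆ ∈ Subgroup.center ↥R := by
        rw [← hcomQ, commutator_def]
        exact Subgroup.commutator_mem_commutator (Subgroup.mem_top a) (Subgroup.mem_top b)
      exact ((Subgroup.mem_center_iff.1 h1) c).symm
    have hsq : ∀ x : ↥R, x ^ 2 ∈ Subgroup.center ↥R := by
      intro x
      rw [← hfrat]
      exact Cfsg.Agent.S0120.pow_mem_frattini hQ2 x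
    have hcomsq : ∀ x y : ↥R, ⁅x, y⁆ ^ 2 = 1 := by
      intro x y
      rw [pow_two, ← Cfsg.Agent.S3773.comm_mul_left hc, ← pow_two]
      rw [commutatorElement_eq_one_iff_commute]
      exact ((Subgroup.mem_center_iff.1 (hsq x)) y).symm
    have hZc : ∀ z ∈ Subgroup.center ↥R, ∀ g : ↥R, z * g = g * z :=
      fun z hz g => ((Subgroup.mem_center_iff.1 hz) g).symm
    have hZ2 : ∀ z ∈ Subgroup.center ↥R, z ^ 2 = 1 := by
      let W : Subgroup ↥R :=
        { carrier := {z | z ∈ Subgroup.center ↥R ∧ z ^ 2 = 1}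
          mul_mem' := fun {x y} hx hy => ⟨Subgroup.mul_mem _ hx.1 hy.1, by
            have hcm : Commute x y := hZc x hx.1 y
            rw [hcm.mul_pow, hx.2, hy.2, one_mul]⟩
          one_mem' := ⟨Subgroup.one_mem _, one_pow 2⟩
          inv_mem' := fun {x} hx => ⟨Subgroup.inv_mem _ hx.1, by rw [inv_pow, hx.2, inv_one]⟩ }
      have hW : Subgroup.center ↥R ≤ W := by
        rw [← hcomQ, commutator_def, Subgroup.commutator_le]
        intro a _ b _
        refine ⟨?_, hcomsq a b⟩
        rw [← hcomQ, commutator_def]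
        exact Subgroup.commutator_mem_commutator (Subgroup.mem_top a) (Subgroup.mem_top b)
      intro z hz
      exact (hW hz).2
    set Z := (Subgroup.center ↥R).map R.subtype with hZ
    have hZR : Z ≤ R := Subgroup.map_subtype_le _
    have hZmem : ∀ u : X, u ∈ Z ↔ ∃ h : u ∈ R, (⟨u, h⟩ : ↥R) ∈ Subgroup.center ↥R := by
      intro u
      constructor
      · rintro ⟨y, hy, rfl⟩
        exact ⟨y.2, hy⟩
      · rintro ⟨h, hy⟩
        exact ⟨⟨u, h⟩, hy, rfl⟩
    have hZcard : Nat.card Z = Nat.card (Subgroup.center ↥R) :=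
      (Nat.card_congr (Subgroup.equivMapOfInjective (Subgroup.center ↥R) R.subtype
        R.subtype_injective).toEquiv).symm
    have hRne : R ≠ ⊥ := by
      intro h
      apply hRA
      rw [h]
      exact Subgroup.commutator_bot_left _
    haveI : Nontrivial ↥R := (Subgroup.nontrivial_iff_ne_bot R).2 hRne
    have hBZ : Subgroup.zpowers d ≤ Subgroup.normalizer (Z : Set X) :=
      hBR.trans (Cfsg.Agent.Lib.Helper1.normalizer_le_normalizer_map_of_characteristic
        (Subgroup.center ↥R))
    have hZneR : Z ≠ R := by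
      intro h
      have h1 : Subgroup.center ↥R = ⊤ := by
        apply Subgroup.map_injective R.subtype_injective
        rw [← hZ, h, ← MonoidHom.range_eq_map, Subgroup.range_subtype]
      have h2 : (⊥ : Subgroup ↥R) ⊔ frattini ↥R = ⊤ := by rw [hfrat, h1, bot_sup_eq]
      have h3 := frattini_nongenerating h2
      exact bot_ne_top h3
    have hZltR : Z < R := lt_of_le_of_ne hZR hZneR
    have hZC : Z = C := by
      have h1 : Z ≤ C := by
        refine le_inf hZR ?_
        exact Subgroup.commutator_eq_bot_iff_le_centralizer.1 (hmin Z hZltR hBZ)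
      have h2 := hirr C (by rw [hfrat]; exact h1) hCR hBC
      rcases h2 with h2 | h2
      · rw [h2, hfrat]
      · exact absurd h2 hCne
    -- the order of Z is 4
    have hZle : Nat.card Z ≤ 2 ^ 2 := by
      have hZcomm : IsMulCommutative ↥Z := by
        refine ⟨⟨fun u v => ?_⟩⟩
        obtain ⟨hu, hu'⟩ := (hZmem u.1).1 u.2
        have := hZc _ hu' ⟨v.1, hZR v.2⟩
        apply Subtype.ext
        have h := congrArg Subtype.val this
        simpa using h
      have hPR := hrank Z (hZR.trans hRP) hZcomm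
      have h1 := hPR ⊤ ⟨⟨fun a b => Subtype.ext (hZcomm.is_comm.comm a.1 b.1)⟩⟩
        (fun a _ => by
          obtain ⟨hu, hu'⟩ := (hZmem a.1).1 a.2
          have h2 := hZ2 _ hu'
          apply Subtype.ext
          have h3 := congrArg Subtype.val h2
          simpa using h3)
      rw [Subgroup.card_top] at h1
      exact h1
    have hZ4 : Nat.card Z = 4 := by
      have hZp : IsPGroup 2 Z := hR2.to_le hZR
      obtain ⟨k, hk⟩ := IsPGroup.iff_card.1 hZp
      have hk2 : k ≤ 2 := by
        by_contra hcon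
        push Not at hcon
        have : 2 ^ 3 ≤ 2 ^ k := Nat.pow_le_pow_right (by norm_num) hcon
        omega
      have hk0 : k ≠ 0 := by
        intro h0
        rw [h0, pow_zero] at hk
        haveI : Nontrivial (Subgroup.center ↥R) := hQ2.center_nontrivial
        have h1 : 1 < Nat.card (Subgroup.center ↥R) := Finite.one_lt_card
        omega
      have hk1 : k ≠ 1 := by
        intro h1
        rw [h1, pow_one] at hk
        obtain ⟨y, hy1, hyu⟩ := (Nat.card_eq_two_iff' (1 : ↥Z)).1 hk
        have hdZ := Subgroup.mem_normalizer_iff.1 (hBZ (Subgroup.mem_zpowers d))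
        have h2 : d * y.1 * d⁻¹ ∈ Z := (hdZ y.1).1 y.2
        have h3 : (⟨d * y.1 * d⁻¹, h2⟩ : ↥Z) ≠ 1 := by
          intro h
          apply hy1
          have h4 := congrArg Subtype.val h
          simp only [Subgroup.coe_one] at h4
          apply Subtype.ext
          simp only [Subgroup.coe_one]
          have e : y.1 = d⁻¹ * (d * y.1 * d⁻¹) * d := by group
          rw [e, h4]
          group
        have h4 := hyu _ h3
        have h5 : d * y.1 * d⁻¹ = y.1 := congrArg Subtype.val h4
        have h6 : y.1 ∈ P ⊓ Subgroup.centralizer {d} := by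
          refine ⟨hRP (hZR y.2), ?_⟩
          show y.1 ∈ Subgroup.centralizer ({d} : Set X)
          rw [Subgroup.mem_centralizer_iff]
          intro g hg
          rw [Set.mem_singleton_iff] at hg
          rw [hg]
          calc d * y.1 = (d * y.1 * d⁻¹) * d := by group
            _ = y.1 * d := by rw [h5]
        rw [hfpf, Subgroup.mem_bot] at h6
        exact hy1 (Subtype.ext h6)
      have : k = 2 := by omega
      rw [hk, this]
      norm_num
    rw [← hZC, hZ4] at hnine
    have hcen4 : Nat.card (Subgroup.center ↥R) = 4 := by rw [← hZcard, hZ4]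
    -- the Chevalley--Warning bound
    have hb := Cfsg.Agent.S3773.bound hc (Subgroup.center ↥R) ⊥ hZc hZ2 bot_le ⊤
      {x : ↥R | x ^ 2 = 1} (fun a _ => hsq a) (fun a _ b _ => by
        rw [← hcomQ, commutator_def]
        exact Subgroup.commutator_mem_commutator (Subgroup.mem_top a) (Subgroup.mem_top b))
      (fun a _ ha => by
        rw [Subgroup.mem_bot] at ha
        exact ha)
    rw [Subgroup.relIndex_bot_left, Subgroup.card_top, hcen4] at hb
    by_cases hall : ∀ x : ↥R, x ^ 2 = 1 → x ∈ Subgroup.center ↥R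
    · have h1 : ({x : ↥R | x ^ 2 = 1} : Set ↥R).ncard ≤ 4 := by
        rw [← hcen4, ← _root_.Nat.card_coe_set_eq]
        exact Set.ncard_le_ncard (fun x hx => hall x hx) (Set.toFinite _)
      have h2 : Nat.card R ≤ 64 := by
        calc Nat.card R ≤ 4 ^ 2 * ({x : ↥R | x ^ 2 = 1} : Set ↥R).ncard := hb
          _ ≤ 4 ^ 2 * 4 := Nat.mul_le_mul_left _ h1
          _ = 64 := by norm_num
      obtain ⟨k, hk⟩ := IsPGroup.iff_card.1 hR2
      have h3 : 4 < Nat.card R := by
        rw [← hZ4]
        by_contra hcon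
        push Not at hcon
        exact hZneR (Subgroup.eq_of_le_of_card_ge hZR hcon)
      rw [hk] at h2 h3 hnine
      have hk6 : k ≤ 6 := by
        by_contra hcon
        push Not at hcon
        have : 2 ^ 7 ≤ 2 ^ k := Nat.pow_le_pow_right (by norm_num) hcon
        omega
      interval_cases k <;> omega
    · push Not at hall
      obtain ⟨x, hx2, hxZ⟩ := hall
      set E := Subgroup.closure ((Z : Set X) ∪ {(x : X)}) with hE
      have hgenR : ∀ g ∈ (Z : Set X) ∪ {(x : X)}, g ∈ R := by
        rintro g (hg | hg)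
        · exact hZR hg
        · rw [Set.mem_singleton_iff] at hg
          rw [hg]
          exact x.2
      have hgencomm : ∀ g ∈ (Z : Set X) ∪ {(x : X)}, ∀ g' ∈ (Z : Set X) ∪ {(x : X)},
          g * g' = g' * g := by
        have hzall : ∀ g ∈ Z, ∀ r ∈ R, g * r = r * g := by
          intro g hg r hr
          obtain ⟨hu, hu'⟩ := (hZmem g).1 hg
          have := hZc _ hu' ⟨r, hr⟩
          exact congrArg Subtype.val this
        rintro g (hg | hg) g' hg'
        · exact hzall g hg g' (hgenR g' hg')
        · rw [Set.mem_singleton_iff] at hg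
          rcases hg' with hg' | hg'
          · rw [hg]
            exact (hzall g' hg' x.1 x.2).symm
          · rw [Set.mem_singleton_iff] at hg'
            rw [hg, hg']
      have hEcomm : ∀ e₁ ∈ E, ∀ e₂ ∈ E, e₁ * e₂ = e₂ * e₁ := by
        have hT : E ≤ Subgroup.centralizer ((Z : Set X) ∪ {(x : X)}) := by
          rw [hE, Subgroup.closure_le]
          intro g hg
          rw [SetLike.mem_coe, Subgroup.mem_centralizer_iff]
          intro g' hg'
          exact hgencomm g' hg' g hg
        intro e₁ he₁ e₂ he₂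
        have h1 : E ≤ Subgroup.centralizer ({e₁} : Set X) := by
          rw [hE, Subgroup.closure_le]
          intro g hg
          rw [SetLike.mem_coe, Subgroup.mem_centralizer_iff]
          intro y hy
          rw [Set.mem_singleton_iff] at hy
          rw [hy]
          exact ((Subgroup.mem_centralizer_iff.1 (hT he₁)) g hg).symm
        have h2 := (Subgroup.mem_centralizer_iff.1 (h1 he₂)) e₁ (Set.mem_singleton _)
        exact h2
      have hEexp : ∀ e ∈ E, e ^ 2 = 1 := by
        intro e he
        refine Subgroup.closure_induction (p := fun e _ => e ^ 2 = 1) ?_ ?_ ?_ ?_ he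
        · rintro g (hg | hg)
          · obtain ⟨hu, hu'⟩ := (hZmem g).1 hg
            have h3 := congrArg Subtype.val (hZ2 _ hu')
            simpa using h3
          · rw [Set.mem_singleton_iff] at hg
            rw [hg]
            have h3 := congrArg Subtype.val hx2
            simpa using h3
        · exact one_pow 2
        · intro a b ha hb ha2 hb2
          have hcm : Commute a b := hEcomm a ha b hb
          rw [hcm.mul_pow, ha2, hb2, one_mul]
        · intro a _ ha2
          rw [inv_pow, ha2, inv_one]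
      have hEP : E ≤ P := by
        rw [hE, Subgroup.closure_le]
        intro g hg
        exact hRP (hgenR g hg)
      have hEc : IsMulCommutative ↥E :=
        ⟨⟨fun u v => Subtype.ext (hEcomm u.1 u.2 v.1 v.2)⟩⟩
      have hPR := hrank E hEP hEc
      have h1 := hPR ⊤ ⟨⟨fun a b => Subtype.ext (hEc.is_comm.comm a.1 b.1)⟩⟩
        (fun a _ => Subtype.ext (by
          have := hEexp a.1 a.2
          simpa using this))
      rw [Subgroup.card_top] at h1
      have hZE : Z ≤ E := by
        rw [hE]
        intro g hg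
        exact Subgroup.subset_closure (Or.inl hg)
      have hxE : (x : X) ∈ E := Subgroup.subset_closure (Or.inr (Set.mem_singleton _))
      have hxZ' : (x : X) ∉ Z := by
        intro h
        obtain ⟨hu, hu'⟩ := (hZmem x.1).1 h
        exact hxZ hu'
      have hlt : Nat.card Z < Nat.card E := by
        by_contra hcon
        push Not at hcon
        have := Subgroup.eq_of_le_of_card_ge hZE hcon
        rw [this] at hxZ'
        exact hxZ' hxE
      omega

end Cfsg.Agent.S3738
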