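import Cfsg.Statements.S3741
import Cfsg.Agent.Lib.Helper66.PAct

set_option autoImplicit false
open Cfsg

namespace Cfsg.Agent.S3741

open Cfsg.Agent.Lib.Helper66
open scoped commutatorElement

/-- one-sided count: for `a ∈ A`, the centraliser of `a` in `B` is all of `B` or has index `p`. -/
private lemma side {G : Type*} [Group G] [Finite G] {p : ℕ} [Fact p.Prime] (A B : Subgroup G)
    (hZ : Nat.card ↥⁅A, B⁆ = p) (hcB : ⁅A, B⁆ ≤ Subgroup.centralizer (B : Set G))
    (a : G) (ha : a ∈ A) :
    ((a ∈ Subgroup.centralizer (B : Set G)) →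
        Nat.card {b : B // a * (b : G) = (b : G) * a} = Nat.card B) ∧
    ((a ∉ Subgroup.centralizer (B : Set G)) →
        Nat.card {b : B // a * (b : G) = (b : G) * a} * p = Nat.card B) := by
  have hp : p.Prime := Fact.out
  constructor
  · intro hc
    have : ∀ b : B, a * (b : G) = (b : G) * a := fun b => (hc b b.2).symm
    exact Nat.card_congr (Equiv.subtypeUnivEquiv this)
  · intro hc
    -- the hom b ↦ [a,b]
    let φ : B →* ↥⁅A, B⁆ := MonoidHom.mk' (fun b => ⟨⁅a, (b : G)⁆, Subgroup.commutator_mem_commutator ha b.2⟩)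
      (by
        intro b1 b2
        apply Subtype.ext
        have h2 : (b1 : G) * ⁅a, (b2 : G)⁆ = ⁅a, (b2 : G)⁆ * b1 :=
          hcB (Subgroup.commutator_mem_commutator ha b2.2) b1 b1.2
        change ⁅a, (b1 : G) * (b2 : G)⁆ = ⁅a, (b1 : G)⁆ * ⁅a, (b2 : G)⁆
        have h3 : ⁅a, (b1 : G) * (b2 : G)⁆ = ⁅a, (b1 : G)⁆ * ((b1 : G) * ⁅a, (b2 : G)⁆) * (b1 : G)⁻¹ := by
          simp only [commutatorElement_def]; group
        rw [h3, h2]; group)
    have hker : ∀ b : B, b ∈ φ.ker ↔ a * (b : G) = (b : G) * a := by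
      intro b
      rw [MonoidHom.mem_ker]
      constructor
      · intro h
        have h1 : ⁅a, (b : G)⁆ = 1 := congrArg Subtype.val h
        exact commutatorElement_eq_one_iff_mul_comm.mp h1
      · intro h
        apply Subtype.ext
        exact commutatorElement_eq_one_iff_mul_comm.mpr h
    have hcard : Nat.card {b : B // a * (b : G) = (b : G) * a} = Nat.card φ.ker :=
      Nat.card_congr (Equiv.subtypeEquivRight (fun b => (hker b).symm))
    have hrange : Nat.card φ.range = p := by
      have hdvd : Nat.card φ.range ∣ p := hZ ▸ Subgroup.card_subgroup_dvd_card φ.range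
      rcases (Nat.dvd_prime hp).mp hdvd with h1 | h1
      · exfalso
        apply hc
        intro b hb
        have hbot : φ.range = ⊥ := Subgroup.card_eq_one.mp h1
        have : φ ⟨b, hb⟩ ∈ φ.range := ⟨_, rfl⟩
        rw [hbot, Subgroup.mem_bot] at this
        have h2 : ⁅a, b⁆ = 1 := congrArg Subtype.val this
        exact (commutatorElement_eq_one_iff_mul_comm.mp h2).symm
      · exact h1
    rw [hcard, ← hrange, ← Subgroup.index_ker, Subgroup.card_mul_index]

/-- the double-counting identity -/
private lemma dcount {G : Type*} [Group G] [Finite G] (A B : Subgroup G) :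
    ∑ᶠ a : A, Nat.card {b : B // (a : G) * (b : G) = (b : G) * a}
      = ∑ᶠ b : B, Nat.card {a : A // (a : G) * (b : G) = (b : G) * a} := by
  classical
  haveI := Fintype.ofFinite A
  haveI := Fintype.ofFinite B
  rw [finsum_eq_sum_of_fintype, finsum_eq_sum_of_fintype]
  rw [← Nat.card_sigma, ← Nat.card_sigma]
  refine Nat.card_congr ?_
  exact
    { toFun := fun x => ⟨x.2.1, ⟨x.1, x.2.2⟩⟩
      invFun := fun x => ⟨x.2.1, ⟨x.1, x.2.2⟩⟩
      left_inv := fun x => rfl
      right_inv := fun x => rfl }


/-- sum over one side -/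
private lemma sumside {G : Type*} [Group G] [Finite G] {p : ℕ} (A B : Subgroup G)
    (hside : ∀ a ∈ A, ((a ∈ Subgroup.centralizer (B : Set G)) →
        Nat.card {b : B // a * (b : G) = (b : G) * a} = Nat.card B) ∧
    ((a ∉ Subgroup.centralizer (B : Set G)) →
        Nat.card {b : B // a * (b : G) = (b : G) * a} * p = Nat.card B)) :
    ∃ n : ℕ, Nat.card ↥(A ⊓ Subgroup.centralizer (B : Set G)) + n = Nat.card A ∧
      p * ∑ᶠ a : A, Nat.card {b : B // (a : G) * (b : G) = (b : G) * a}
        = Nat.card ↥(A ⊓ Subgroup.centralizer (B : Set G)) * (p * Nat.card B) + n * Nat.card B := by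
  classical
  haveI := Fintype.ofFinite A
  refine ⟨(Finset.univ.filter (fun a : A => ¬ ((a : G) ∈ Subgroup.centralizer (B : Set G)))).card, ?_, ?_⟩
  · have h1 : Nat.card ↥(A ⊓ Subgroup.centralizer (B : Set G))
        = (Finset.univ.filter (fun a : A => ((a : G) ∈ Subgroup.centralizer (B : Set G)))).card := by
      rw [← Fintype.card_subtype, ← Nat.card_eq_fintype_card]
      refine Nat.card_congr ?_
      exact
        { toFun := fun x => ⟨⟨x.1, x.2.1⟩, x.2.2⟩
          invFun := fun x => ⟨x.1.1, x.1.2, x.2⟩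
          left_inv := fun x => rfl
          right_inv := fun x => rfl }
    rw [h1, Finset.card_filter_add_card_filter_not, Finset.card_univ, Nat.card_eq_fintype_card]
  · have h1 : Nat.card ↥(A ⊓ Subgroup.centralizer (B : Set G))
        = (Finset.univ.filter (fun a : A => ((a : G) ∈ Subgroup.centralizer (B : Set G)))).card := by
      rw [← Fintype.card_subtype, ← Nat.card_eq_fintype_card]
      refine Nat.card_congr ?_
      exact
        { toFun := fun x => ⟨⟨x.1, x.2.1⟩, x.2.2⟩
          invFun := fun x => ⟨x.1.1, x.1.2, x.2⟩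
          left_inv := fun x => rfl
          right_inv := fun x => rfl }
    rw [finsum_eq_sum_of_fintype, Finset.mul_sum]
    have h2 : ∀ a ∈ (Finset.univ : Finset A),
        p * Nat.card {b : B // (a : G) * (b : G) = (b : G) * a}
          = if ((a : G) ∈ Subgroup.centralizer (B : Set G)) then p * Nat.card B else Nat.card B := by
      intro a _
      split_ifs with h
      · rw [(hside a a.2).1 h]
      · rw [mul_comm, (hside a a.2).2 h]
    rw [Finset.sum_congr rfl h2, Finset.sum_ite, Finset.sum_const, Finset.sum_const, h1]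
    simp only [smul_eq_mul]

/-- Let A and B be subgroups of a finite p-group with [A, B] ≤ A ∩ B and [A, B] of order at most p. Then |A : C_A(B)| = |B : C_B(A)|. -/
theorem result {G : Type*} [Group G] [Finite G] {p : ℕ} [Fact p.Prime] (hG : IsPGroup p G) (A B : Subgroup G) (hAB : ⁅A, B⁆ ≤ A ⊓ B) (hcard : Nat.card ↥⁅A, B⁆ ≤ p) : (A ⊓ Subgroup.centralizer (B : Set G)).relIndex A = (B ⊓ Subgroup.centralizer (A : Set G)).relIndex B := by
  classical
  have hp : p.Prime := Fact.out
  by_cases hZbot : ⁅A, B⁆ = ⊥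
  · have h1 : A ≤ Subgroup.centralizer (B : Set G) := Subgroup.commutator_eq_bot_iff_le_centralizer.mp hZbot
    have h2 : B ≤ Subgroup.centralizer (A : Set G) := by
      rw [Subgroup.commutator_comm] at hZbot
      exact Subgroup.commutator_eq_bot_iff_le_centralizer.mp hZbot
    rw [inf_eq_left.mpr h1, inf_eq_left.mpr h2, Subgroup.relIndex_self, Subgroup.relIndex_self]
  · -- main case
    have hZ : Nat.card ↥⁅A, B⁆ = p := by
      obtain ⟨k, hk⟩ := (IsPGroup.iff_card (p := p)).mp (hG.to_subgroup ⁅A, B⁆)
      rcases k with _ | _ | k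
      · rw [pow_zero] at hk
        exact absurd (Subgroup.card_eq_one.mp hk) hZbot
      · simpa using hk
      · exfalso
        rw [hk] at hcard
        have : p ^ 1 < p ^ (k + 1 + 1) := Nat.pow_lt_pow_right hp.one_lt (by omega)
        rw [pow_one] at this
        omega
    have hNB : A ≤ Subgroup.normalizer (B : Set G) := by
      intro a ha
      rw [Subgroup.mem_normalizer_iff]
      intro b
      constructor
      · intro hb
        have h1 : ⁅a, b⁆ ∈ B := (hAB (Subgroup.commutator_mem_commutator ha hb)).2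
        have h2 : a * b * a⁻¹ = ⁅a, b⁆ * b := by simp only [commutatorElement_def]; group
        rw [h2]; exact B.mul_mem h1 hb
      · intro hb
        have h1 : ⁅a⁻¹, a * b * a⁻¹⁆ ∈ B := (hAB (Subgroup.commutator_mem_commutator (A.inv_mem ha) hb)).2
        have h2 : b = ⁅a⁻¹, a * b * a⁻¹⁆ * (a * b * a⁻¹) := by simp only [commutatorElement_def]; group
        rw [h2]; exact B.mul_mem h1 hb
    have hNA : B ≤ Subgroup.normalizer (A : Set G) := by
      intro b hb
      rw [Subgroup.mem_normalizer_iff]
      intro a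
      constructor
      · intro ha
        have h1 : ⁅a, b⁆ ∈ A := (hAB (Subgroup.commutator_mem_commutator ha hb)).1
        have h2 : b * a * b⁻¹ = ⁅a, b⁆⁻¹ * a := by simp only [commutatorElement_def]; group
        rw [h2]; exact A.mul_mem (A.inv_mem h1) ha
      · intro ha
        have h1 : ⁅b * a * b⁻¹, b⁻¹⁆ ∈ A := (hAB (Subgroup.commutator_mem_commutator ha (B.inv_mem hb))).1
        have h2 : a = ⁅b * a * b⁻¹, b⁻¹⁆⁻¹ * (b * a * b⁻¹) := by simp only [commutatorElement_def]; group
        rw [h2]; exact A.mul_mem (A.inv_mem h1) ha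
    have hnorm : ∀ x : G, x ∈ Subgroup.normalizer (A : Set G) → x ∈ Subgroup.normalizer (B : Set G) →
        x ∈ Subgroup.normalizer ((⁅A, B⁆ : Subgroup G) : Set G) := by
      intro x hxA hxB
      rw [Subgroup.mem_normalizer_iff_map_conj_eq, Subgroup.map_commutator,
        Subgroup.mem_normalizer_iff_map_conj_eq.mp hxA, Subgroup.mem_normalizer_iff_map_conj_eq.mp hxB]
    have hnZA : A ≤ Subgroup.normalizer ((⁅A, B⁆ : Subgroup G) : Set G) :=
      fun a ha => hnorm a (Subgroup.le_normalizer ha) (hNB ha)
    have hnZB : B ≤ Subgroup.normalizer ((⁅A, B⁆ : Subgroup G) : Set G) :=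
      fun b hb => hnorm b (hNA hb) (Subgroup.le_normalizer hb)
    have hcA : ⁅A, B⁆ ≤ Subgroup.centralizer (A : Set G) :=
      le_centralizer_of_card_prime (hG.to_subgroup A) hZ hnZA
    have hcB : ⁅A, B⁆ ≤ Subgroup.centralizer (B : Set G) :=
      le_centralizer_of_card_prime (hG.to_subgroup B) hZ hnZB
    have hZ' : Nat.card ↥⁅B, A⁆ = p := by rw [Subgroup.commutator_comm]; exact hZ
    have hcA' : ⁅B, A⁆ ≤ Subgroup.centralizer (A : Set G) := by rw [Subgroup.commutator_comm]; exact hcA
    obtain ⟨nA, hnA, hsumA⟩ := sumside (p := p) A B (fun a ha => side A B hZ hcB a ha)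
    obtain ⟨nB, hnB, hsumB⟩ := sumside (p := p) B A (fun b hb => side B A hZ' hcA' b hb)
    have hdc := dcount A B
    have hdc' : ∑ᶠ b : B, Nat.card {a : A // (a : G) * (b : G) = (b : G) * a}
        = ∑ᶠ b : B, Nat.card {a : A // (b : G) * (a : G) = (a : G) * b} := by
      congr 1
      funext b
      exact Nat.card_congr (Equiv.subtypeEquivRight (fun a => eq_comm))
    rw [hdc, hdc', hsumB] at hsumA
    -- arithmetic
    set cA := Nat.card ↥(A ⊓ Subgroup.centralizer (B : Set G)) with hcAdef
    set cB := Nat.card ↥(B ⊓ Subgroup.centralizer (A : Set G)) with hcBdef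
    have hcApos : 0 < cA := Nat.card_pos
    have hcBpos : 0 < cB := Nat.card_pos
    have key : cA * Nat.card B = cB * Nat.card A := by
      obtain ⟨q, rfl⟩ : ∃ q, p = q + 1 := ⟨p - 1, by have := hp.one_lt; omega⟩
      have hq : 0 < q := by have := hp.one_lt; omega
      rw [← hnA, ← hnB] at hsumA ⊢
      have h3 : q * (cA * nB) = q * (cB * nA) := by nlinarith
      have h4 : cA * nB = cB * nA := Nat.eq_of_mul_eq_mul_left hq h3
      nlinarith
    have hrA : cA * (A ⊓ Subgroup.centralizer (B : Set G)).relIndex A = Nat.card A := by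
      have h1 := Subgroup.relIndex_mul_index (inf_le_left : A ⊓ Subgroup.centralizer (B : Set G) ≤ A)
      have h2 := Subgroup.card_mul_index (A ⊓ Subgroup.centralizer (B : Set G))
      have h3 := Subgroup.card_mul_index A
      have h4 : A.index ≠ 0 := Subgroup.index_ne_zero_of_finite
      rw [← h1, ← h3, ← mul_assoc] at h2
      exact Nat.eq_of_mul_eq_mul_right (Nat.pos_of_ne_zero h4) h2
    have hrB : cB * (B ⊓ Subgroup.centralizer (A : Set G)).relIndex B = Nat.card B := by
      have h1 := Subgroup.relIndex_mul_index (inf_le_left : B ⊓ Subgroup.centralizer (A : Set G) ≤ B)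
      have h2 := Subgroup.card_mul_index (B ⊓ Subgroup.centralizer (A : Set G))
      have h3 := Subgroup.card_mul_index B
      have h4 : B.index ≠ 0 := Subgroup.index_ne_zero_of_finite
      rw [← h1, ← h3, ← mul_assoc] at h2
      exact Nat.eq_of_mul_eq_mul_right (Nat.pos_of_ne_zero h4) h2
    rw [← hrA, ← hrB] at key
    have h5 : (cA * cB) * (B ⊓ Subgroup.centralizer (A : Set G)).relIndex B
        = (cA * cB) * (A ⊓ Subgroup.centralizer (B : Set G)).relIndex A := by
      rw [mul_assoc, key]; ring
    exact (Nat.eq_of_mul_eq_mul_left (Nat.mul_pos hcApos hcBpos) h5).symm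

end Cfsg.Agent.S3741
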