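import Cfsg.Statements.S3744
import Cfsg.Agent.S0057
import Cfsg.Agent.Lib.Helper4.GrpAux
import Cfsg.Agent.Lib.Helper81.PSolv

set_option autoImplicit false
open Cfsg

namespace Cfsg.Agent.S3744

universe u

section

variable {G : Type u} [Group G]

/-- `H` is a `p`-complement of `G`. -/
def PC (p : ℕ) (H : Subgroup G) : Prop := (Nat.card H).Coprime p ∧ ∃ n : ℕ, H.index = p ^ n

/-- conjugation by `g` as a map on subgroups -/
abbrev cj (g : G) (H : Subgroup G) : Subgroup G := H.map (MulAut.conj g).toMonoidHom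

lemma card_cj (g : G) (H : Subgroup G) : Nat.card (cj g H) = Nat.card H :=
  Subgroup.card_map_of_injective (MulAut.conj g).injective

lemma index_cj (g : G) (H : Subgroup G) : (cj g H).index = H.index :=
  Subgroup.index_map_of_bijective (MulAut.conj g).bijective H

lemma pc_cj {p : ℕ} (g : G) {H : Subgroup G} (h : PC p H) : PC p (cj g H) := by
  unfold PC
  rw [card_cj, index_cj]
  exact h

lemma cj_cj (g h : G) (H : Subgroup G) : cj g (cj h H) = cj (g * h) H := by
  unfold cj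
  rw [Subgroup.map_map]
  congr 1
  ext x
  simp [mul_assoc]

lemma map_cj {G' : Type*} [Group G'] (f : G →* G') (g : G) (H : Subgroup G) :
    (cj g H).map f = cj (f g) (H.map f) := by
  unfold cj
  rw [Subgroup.map_map, Subgroup.map_map]
  congr 1
  ext x
  simp

lemma le_cj_of (n : G) {U H : Subgroup G} (h : ∀ x ∈ U, n⁻¹ * x * n ∈ H) : U ≤ cj n H := by
  intro x hx
  refine ⟨n⁻¹ * x * n, h x hx, ?_⟩
  simp [mul_assoc]

variable [Finite G]

lemma pc_card_eq {p : ℕ} [Fact p.Prime] {H₁ H₂ : Subgroup G} (h₁ : PC p H₁) (h₂ : PC p H₂) :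
    Nat.card H₁ = Nat.card H₂ := by
  obtain ⟨c₁, n₁, hn₁⟩ := h₁
  obtain ⟨c₂, n₂, hn₂⟩ := h₂
  have e₁ := Subgroup.card_mul_index H₁
  have e₂ := Subgroup.card_mul_index H₂
  rw [hn₁] at e₁
  rw [hn₂] at e₂
  apply Nat.dvd_antisymm
  · have : Nat.card H₁ ∣ Nat.card H₂ * p ^ n₂ := by rw [e₂, ← e₁]; exact dvd_mul_right _ _
    exact (Nat.Coprime.pow_right n₂ c₁).dvd_of_dvd_mul_right this
  · have : Nat.card H₂ ∣ Nat.card H₁ * p ^ n₁ := by rw [e₁, ← e₂]; exact dvd_mul_right _ _
    exact (Nat.Coprime.pow_right n₁ c₂).dvd_of_dvd_mul_right this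

lemma pc_map {p : ℕ} [Fact p.Prime] (N : Subgroup G) [N.Normal] {H : Subgroup G} (h : PC p H) :
    PC p (H.map (QuotientGroup.mk' N)) := by
  have hp : p.Prime := Fact.out
  obtain ⟨c, n, hn⟩ := h
  constructor
  · have hd : Nat.card (H.map (QuotientGroup.mk' N)) ∣ Nat.card H :=
      Subgroup.card_dvd_of_surjective ((QuotientGroup.mk' N).subgroupMap H)
        ((QuotientGroup.mk' N).subgroupMap_surjective H)
    exact Nat.Coprime.coprime_dvd_left hd c
  · have hd : (H.map (QuotientGroup.mk' N)).index ∣ p ^ n :=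
      hn ▸ Subgroup.index_map_dvd H (QuotientGroup.mk'_surjective N)
    obtain ⟨m, -, hm⟩ := (Nat.dvd_prime_pow hp).mp hd
    exact ⟨m, hm⟩

lemma card_comap_mk (N : Subgroup G) [N.Normal] (K : Subgroup (G ⧸ N)) :
    Nat.card (K.comap (QuotientGroup.mk' N)) = Nat.card N * Nat.card K := by
  have h1 := Subgroup.card_mul_index (K.comap (QuotientGroup.mk' N))
  rw [Subgroup.index_comap_of_surjective K (QuotientGroup.mk'_surjective N)] at h1
  have h2 := Subgroup.card_mul_index K
  have h3 := Subgroup.card_eq_card_quotient_mul_card_subgroup N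
  have hpos : 0 < K.index := Nat.pos_of_ne_zero Subgroup.index_ne_zero_of_finite
  apply Nat.eq_of_mul_eq_mul_right hpos
  rw [h1, h3, ← h2]
  ring

lemma le_comap_mk (N : Subgroup G) [N.Normal] (K : Subgroup (G ⧸ N)) :
    N ≤ K.comap (QuotientGroup.mk' N) := by
  intro x hx
  rw [Subgroup.mem_comap]
  have : (QuotientGroup.mk' N) x = 1 := by
    rw [← MonoidHom.mem_ker, QuotientGroup.ker_mk']; exact hx
  rw [this]; exact K.one_mem

lemma comap_map_mk (N : Subgroup G) [N.Normal] (H : Subgroup G) :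
    (H.map (QuotientGroup.mk' N)).comap (QuotientGroup.mk' N) = H ⊔ N := by
  rw [Subgroup.comap_map_eq, QuotientGroup.ker_mk']

lemma dedekind {N H V : Subgroup G} [N.Normal] (hNV : N ≤ V) (hV : V ≤ N ⊔ H) :
    V = N ⊔ (V ⊓ H) := by
  apply le_antisymm
  · intro x hx
    have hx' : x ∈ ((N ⊔ H : Subgroup G) : Set G) := hV hx
    rw [Subgroup.normal_mul] at hx'
    obtain ⟨n, hn, h, hh, rfl⟩ := Set.mem_mul.mp hx'
    have hhV : h ∈ V := by
      have : h = n⁻¹ * (n * h) := by group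
      rw [this]
      exact V.mul_mem (V.inv_mem (hNV hn)) hx
    exact Subgroup.mul_mem _ (Subgroup.mem_sup_left hn) (Subgroup.mem_sup_right ⟨hhV, hh⟩)
  · exact sup_le hNV inf_le_left

lemma card_sup_of_coprime {U N : Subgroup G} [N.Normal]
    (h : (Nat.card U).Coprime (Nat.card N)) :
    Nat.card (U ⊔ N : Subgroup G) = Nat.card U * Nat.card N := by
  have h1 := Cfsg.Agent.Lib.Helper4.card_sup_mul_card_inf U N Subgroup.le_normalizer_of_normal
  rw [(Subgroup.disjoint_of_coprime_natCard h).eq_bot, Subgroup.card_bot, mul_one] at h1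
  exact h1

end

/-- the conclusion of the statement (with containment in the strong form) -/
def Good (p : ℕ) (G : Type u) [Group G] : Prop :=
  (∃ H : Subgroup G, PC p H) ∧
  (∀ H₁ H₂ : Subgroup G, PC p H₁ → PC p H₂ → ∃ g : G, H₂ = cj g H₁) ∧
  (∀ U : Subgroup G, (Nat.card U).Coprime p → ∃ H : Subgroup G, PC p H ∧ U ≤ H)

lemma good_of_subsingleton (p : ℕ) (G : Type u) [Group G] [Finite G] (h : Subsingleton G) :
    Good p G := by
  have hsub : Subsingleton (Subgroup G) := inferInstance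
  have htop : PC p (⊤ : Subgroup G) := by
    refine ⟨?_, 0, ?_⟩
    · rw [Subgroup.card_top, Nat.card_of_subsingleton (1 : G)]
      exact Nat.coprime_one_left p
    · rw [Subgroup.index_top, pow_zero]
  refine ⟨⟨⊤, htop⟩, fun H₁ H₂ _ _ => ⟨1, Subsingleton.elim _ _⟩, fun U _ => ⟨⊤, htop, le_top⟩⟩

section step

variable {G : Type u} [Group G] [Finite G] {p : ℕ} [Fact p.Prime]

/-- lifting a `p`-complement through a normal `p`-subgroup -/
lemma lift_pgroup (N : Subgroup G) [N.Normal] {m : ℕ} (hN : Nat.card N = p ^ m)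
    (K : Subgroup (G ⧸ N)) (hK : PC p K) :
    ∃ H : Subgroup G, PC p H ∧ N ⊔ H = K.comap (QuotientGroup.mk' N) := by
  have hp : p.Prime := Fact.out
  obtain ⟨cK, n, hn⟩ := hK
  set K₁ : Subgroup G := K.comap (QuotientGroup.mk' N) with hK₁
  have hNK₁ : N ≤ K₁ := le_comap_mk N K
  have hcardK₁ : Nat.card K₁ = Nat.card N * Nat.card K := card_comap_mk N K
  have hcardN₁ : Nat.card (N.subgroupOf K₁) = Nat.card N :=
    Nat.card_congr (Subgroup.subgroupOfEquivOfLe hNK₁).toEquiv
  have hidx : (N.subgroupOf K₁).index = Nat.card K := by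
    have h1 := Subgroup.card_mul_index (N.subgroupOf K₁)
    rw [hcardN₁, hcardK₁] at h1
    exact Nat.eq_of_mul_eq_mul_left Nat.card_pos h1
  have hcop : Nat.Coprime (Nat.card (N.subgroupOf K₁)) (N.subgroupOf K₁).index := by
    rw [hcardN₁, hidx, hN]
    exact (Nat.Coprime.pow_right m cK).symm
  obtain ⟨H₀, hH₀⟩ := Subgroup.exists_right_complement'_of_coprime hcop
  have hcardH₀ : Nat.card H₀ = Nat.card K := by
    have h1 := hH₀.card_mul_card
    rw [hcardN₁, hcardK₁] at h1
    exact Nat.eq_of_mul_eq_mul_left Nat.card_pos h1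
  set H : Subgroup G := H₀.map K₁.subtype with hH
  have hcardH : Nat.card H = Nat.card K := by
    rw [hH, Subgroup.card_map_of_injective K₁.subtype_injective, hcardH₀]
  have hHK₁ : H ≤ K₁ := Subgroup.map_subtype_le _
  have hcopHN : (Nat.card H).Coprime (Nat.card N) := by
    rw [hcardH, hN]; exact Nat.Coprime.pow_right m cK
  refine ⟨H, ⟨by rw [hcardH]; exact cK, m + n, ?_⟩, ?_⟩
  · have h1 := Subgroup.card_mul_index H
    have h2 := Subgroup.card_mul_index K₁
    rw [Subgroup.index_comap_of_surjective K (QuotientGroup.mk'_surjective N), hn, hcardK₁] at h2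
    rw [hcardH, ← h2, hN] at h1
    apply Nat.eq_of_mul_eq_mul_left (Nat.card_pos (α := K))
    rw [h1, pow_add]; ring
  · apply Subgroup.eq_of_le_of_card_ge (sup_le hNK₁ hHK₁)
    rw [sup_comm, card_sup_of_coprime hcopHN, hcardK₁, hcardH, mul_comm]

/-- a `p'`-subgroup of `N ⊔ H` (`N` a normal `p`-subgroup, `H` a `p'`-group) is `N`-conjugate into `H` -/
lemma conj_into (N : Subgroup G) [N.Normal] {m : ℕ} (hN : Nat.card N = p ^ m)
    (H U : Subgroup G) (hH : (Nat.card H).Coprime p) (hU : (Nat.card U).Coprime p)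
    (hUH : U ≤ N ⊔ H) : ∃ n ∈ N, U ≤ cj n H := by
  have hp : p.Prime := Fact.out
  have hUN : (Nat.card U).Coprime (Nat.card N) := by rw [hN]; exact Nat.Coprime.pow_right m hU
  set HU : Subgroup G := (U ⊔ N) ⊓ H with hHU
  have hHUcop : (Nat.card HU).Coprime p :=
    Nat.Coprime.coprime_dvd_left (Subgroup.card_dvd_of_le inf_le_right) hH
  have hHUN : (Nat.card HU).Coprime (Nat.card N) := by
    rw [hN]; exact Nat.Coprime.pow_right m hHUcop
  have hded : U ⊔ N = N ⊔ HU := dedekind le_sup_right (sup_le hUH le_sup_left)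
  have hcard : Nat.card U = Nat.card HU := by
    have h1 := card_sup_of_coprime hUN
    have h2 := card_sup_of_coprime hHUN
    rw [hded, sup_comm, h2] at h1
    exact (Nat.eq_of_mul_eq_mul_right Nat.card_pos h1).symm
  have hsolv : Group.IsSolvable N := by
    haveI : Group.IsNilpotent N := (IsPGroup.of_card hN).isNilpotent
    infer_instance
  obtain ⟨n, hn, hconj⟩ := Cfsg.Agent.S0057.sup_conj (N := N) (A := HU) (B := U)
    Subgroup.le_normalizer_of_normal hHUN (Or.inr hsolv) (by rw [← hded]; exact le_sup_left) hcard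
  exact ⟨n, hn, le_cj_of n (fun x hx => (hconj x hx).2)⟩

lemma good_step (N : Subgroup G) [N.Normal]
    (hN : (∃ m : ℕ, Nat.card N = p ^ m) ∨ (Nat.card N).Coprime p) (ih : Good p (G ⧸ N)) :
    Good p G := by
  have hp : p.Prime := Fact.out
  obtain ⟨⟨K, hK⟩, hconjQ, hcontQ⟩ := ih
  -- lifting conjugacy to the quotient
  have hlift : ∀ H₁ H₂ : Subgroup G, PC p H₁ → PC p H₂ → ∃ g : G, cj g H₁ ⊔ N = H₂ ⊔ N := by
    intro H₁ H₂ h₁ h₂
    obtain ⟨gb, hgb⟩ := hconjQ _ _ (pc_map N h₁) (pc_map N h₂)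
    obtain ⟨g, rfl⟩ := QuotientGroup.mk'_surjective N gb
    refine ⟨g, ?_⟩
    rw [← comap_map_mk, ← comap_map_mk, map_cj, hgb]
  rcases hN with ⟨m, hm⟩ | hcop
  · -- `N` a `p`-group
    have hsolv : Group.IsSolvable N := by
      haveI : Group.IsNilpotent N := (IsPGroup.of_card hm).isNilpotent
      infer_instance
    refine ⟨?_, ?_, ?_⟩
    · obtain ⟨H, hH, -⟩ := lift_pgroup N hm K hK
      exact ⟨H, hH⟩
    · intro H₁ H₂ h₁ h₂
      obtain ⟨g, hg⟩ := hlift H₁ H₂ h₁ h₂
      have hB : cj g H₁ ≤ N ⊔ H₂ := by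
        rw [sup_comm, ← hg]; exact le_sup_left
      have hcard : Nat.card (cj g H₁) = Nat.card H₂ := by rw [card_cj]; exact pc_card_eq h₁ h₂
      have hcopN : (Nat.card H₂).Coprime (Nat.card N) := by
        rw [hm]; exact Nat.Coprime.pow_right m h₂.1
      obtain ⟨n, hn, hconj⟩ := Cfsg.Agent.S0057.sup_conj (N := N) (A := H₂) (B := cj g H₁)
        Subgroup.le_normalizer_of_normal hcopN (Or.inr hsolv) hB hcard
      have hle : cj g H₁ ≤ cj n H₂ := le_cj_of n hconj
      have heq : cj g H₁ = cj n H₂ :=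
        Subgroup.eq_of_le_of_card_ge hle (by rw [card_cj, hcard])
      refine ⟨n⁻¹ * g, ?_⟩
      rw [← cj_cj, heq, cj_cj, inv_mul_cancel]
      unfold cj
      ext x
      simp
    · intro U hU
      have hUb : (Nat.card (U.map (QuotientGroup.mk' N))).Coprime p :=
        Nat.Coprime.coprime_dvd_left
          (Subgroup.card_dvd_of_surjective ((QuotientGroup.mk' N).subgroupMap U)
            ((QuotientGroup.mk' N).subgroupMap_surjective U)) hU
      obtain ⟨Kb, hKb, hUKb⟩ := hcontQ _ hUb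
      obtain ⟨H, hH, hHK⟩ := lift_pgroup N hm Kb hKb
      have hUH : U ≤ N ⊔ H := by
        rw [hHK]
        exact (Subgroup.map_le_iff_le_comap).mp hUKb
      obtain ⟨n, -, hn⟩ := conj_into N hm H U hH.1 hU hUH
      exact ⟨cj n H, pc_cj n hH, hn⟩
  · -- `N` a `p'`-group
    have hNle : ∀ H : Subgroup G, PC p H → N ≤ H := by
      intro H hH
      obtain ⟨c, n, hn⟩ := hH
      have h1 : Nat.card (H ⊔ N : Subgroup G) ∣ Nat.card H * Nat.card N := by
        have := Cfsg.Agent.Lib.Helper4.card_sup_mul_card_inf H N Subgroup.le_normalizer_of_normal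
        exact Dvd.intro _ this
      have h2 : (Nat.card (H ⊔ N : Subgroup G)).Coprime p :=
        Nat.Coprime.coprime_dvd_left h1 (Nat.Coprime.mul_left c hcop)
      have h3 : H.relIndex (H ⊔ N) ∣ p ^ n := by
        rw [← hn]; exact Subgroup.relIndex_dvd_index_of_le le_sup_left
      have h4 : H.relIndex (H ⊔ N) ∣ Nat.card (H ⊔ N : Subgroup G) := Subgroup.relIndex_dvd_card _ _
      have h5 : H.relIndex (H ⊔ N) = 1 := by
        have h6 : (H.relIndex (H ⊔ N)).Coprime (p ^ n) :=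
          Nat.Coprime.pow_right n (Nat.Coprime.coprime_dvd_left h4 h2)
        exact Nat.Coprime.eq_one_of_dvd h6 h3
      exact le_sup_right.trans (Subgroup.relIndex_eq_one.mp h5)
    have hcomapPC : ∀ Kb : Subgroup (G ⧸ N), PC p Kb → PC p (Kb.comap (QuotientGroup.mk' N)) := by
      intro Kb hKb
      obtain ⟨c, n, hn⟩ := hKb
      refine ⟨?_, n, ?_⟩
      · rw [card_comap_mk]
        exact Nat.Coprime.mul_left hcop c
      · rw [Subgroup.index_comap_of_surjective Kb (QuotientGroup.mk'_surjective N), hn]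
    refine ⟨⟨_, hcomapPC K hK⟩, ?_, ?_⟩
    · intro H₁ H₂ h₁ h₂
      obtain ⟨g, hg⟩ := hlift H₁ H₂ h₁ h₂
      refine ⟨g, ?_⟩
      rw [sup_eq_left.mpr (hNle _ (pc_cj g h₁)), sup_eq_left.mpr (hNle _ h₂)] at hg
      exact hg.symm
    · intro U hU
      have hUb : (Nat.card (U.map (QuotientGroup.mk' N))).Coprime p :=
        Nat.Coprime.coprime_dvd_left
          (Subgroup.card_dvd_of_surjective ((QuotientGroup.mk' N).subgroupMap U)
            ((QuotientGroup.mk' N).subgroupMap_surjective U)) hU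
      obtain ⟨Kb, hKb, hUKb⟩ := hcontQ _ hUb
      exact ⟨_, hcomapPC Kb hKb, (Subgroup.map_le_iff_le_comap).mp hUKb⟩

end step

/-- A finite p-soluble group has a p-complement, all its p-complements are conjugate, and every subgroup of order prime to p lies in one of them. Here a p-complement is a subgroup of order prime to p whose index is a power of p. -/
theorem result {G : Type*} [Group G] [Finite G] {p : ℕ} [Fact p.Prime] (hG : Cfsg.IsPSolvable p G) : (∃ H : Subgroup G, (Nat.card H).Coprime p ∧ ∃ n : ℕ, H.index = p ^ n) ∧ (∀ H₁ H₂ : Subgroup G, (Nat.card H₁).Coprime p → (∃ n : ℕ, H₁.index = p ^ n) → (Nat.card H₂).Coprime p → (∃ n : ℕ, H₂.index = p ^ n) → ∃ g : G, H₂ = H₁.map (MulAut.conj g).toMonoidHom) ∧ (∀ U : Subgroup G, (Nat.card U).Coprime p → ∃ H : Subgroup G, (Nat.card H).Coprime p ∧ (∃ n : ℕ, H.index = p ^ n) ∧ ∃ g : G, U.map (MulAut.conj g).toMonoidHom ≤ H) := by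
  have key : Good p G :=
    Cfsg.Agent.Lib.Helper81.isPSolvable_induction p (fun G _ _ => Good p G)
      (fun G _ _ h => good_of_subsingleton p G h)
      (fun G _ _ N _ hN ih => good_step N hN ih) G hG
  obtain ⟨hE, hC, hD⟩ := key
  refine ⟨hE, fun H₁ H₂ c₁ i₁ c₂ i₂ => hC H₁ H₂ ⟨c₁, i₁⟩ ⟨c₂, i₂⟩, fun U hU => ?_⟩
  obtain ⟨H, ⟨c, i⟩, hUH⟩ := hD U hU
  refine ⟨H, c, i, 1, ?_⟩
  intro x hx
  obtain ⟨y, hy, rfl⟩ := hx
  have : (MulAut.conj (1 : G)).toMonoidHom y = y := by simp
  rw [this]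
  exact hUH hy

end Cfsg.Agent.S3744
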