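import Cfsg.Statements.S3745
import Cfsg.Agent.Lib.Helper66.PiHall
import Cfsg.Agent.Lib.Helper1.Coprime
import Cfsg.Agent.Lib.Helper81.PSolv

set_option autoImplicit false
open Cfsg

namespace Cfsg.Agent.S3745

open Cfsg.Agent.Lib.Helper66

section

variable {X : Type*} [Group X]

lemma mem_normalizer_iff_cjg (g : X) (H : Subgroup X) :
    g ∈ Subgroup.normalizer (H : Set X) ↔ cjg g H = H :=
  Subgroup.mem_normalizer_iff_map_conj_eq

variable [Finite X]

/-- dominance: an `A`-invariant `π`-subgroup lies in an `A`-invariant Hall `π`-subgroup -/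
lemma dom (A G : Subgroup X) (hAG : A ≤ Subgroup.normalizer (G : Set X))
    (hcop : (Nat.card A).Coprime (Nat.card G)) (hsolv : Group.IsSolvable G) (π : Set ℕ)
    (U : Subgroup X) (hUG : U ≤ G) (hAU : A ≤ Subgroup.normalizer (U : Set X))
    (hU : ∀ p : ℕ, p.Prime → p ∣ Nat.card U → p ∈ π) :
    ∃ H : Subgroup X, Cfsg.IsPiHallOf π H G ∧ A ≤ Subgroup.normalizer (H : Set X) ∧ U ≤ H := by
  classical
  set Γ : Subgroup X := A ⊔ G with hΓ
  have hAΓ : A ≤ Γ := le_sup_left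
  have hGΓ : G ≤ Γ := le_sup_right
  haveI hG'n : (G.subgroupOf Γ).Normal := Subgroup.normal_subgroupOf_sup_of_le_normalizer hAG
  haveI := hsolv
  have hG'solv : Group.IsSolvable (G.subgroupOf Γ) := Cfsg.Agent.Lib.Helper1.isSolvable_subgroupOf G Γ
  set π' : Set ℕ := {q | q ∈ π ∨ q ∣ Nat.card A} with hπ'
  have hidx : PiNum π' (G.subgroupOf Γ).index := by
    have h1 := Cfsg.Agent.Lib.Helper1.card_subgroupOf_sup_eq_index hAG hcop
    rw [← h1, Nat.card_congr (Subgroup.subgroupOfEquivOfLe hAΓ).toEquiv]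
    exact fun q _ hq => Or.inr hq
  have hgood := goodPi_of_solvable_normal π' ↥Γ (G.subgroupOf Γ) hG'solv hidx
  obtain ⟨-, -, hdom⟩ := hgood
  have hUA : U ⊔ A ≤ Γ := sup_le (hUG.trans hGΓ) hAΓ
  have hU' : PiNum π' (Nat.card ((U ⊔ A).subgroupOf Γ)) := by
    rw [Nat.card_congr (Subgroup.subgroupOfEquivOfLe hUA).toEquiv]
    have h1 := Cfsg.Agent.Lib.Helper4.card_sup_mul_card_inf A U hAU
    have h2 : Nat.card (U ⊔ A : Subgroup X) ∣ Nat.card A * Nat.card U := by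
      rw [sup_comm]; exact Dvd.intro _ h1
    have h3 : PiNum π' (Nat.card A * Nat.card U) :=
      PiNum.mul (fun q _ hq => Or.inr hq) (fun q hq hqU => Or.inl (hU q hq hqU))
    exact h3.of_dvd h2
  obtain ⟨K', hK', hUK'⟩ := hdom _ hU'
  set K : Subgroup X := K'.map Γ.subtype with hK
  have hUAK : U ⊔ A ≤ K := by
    intro x hx
    exact ⟨⟨x, hUA hx⟩, hUK' (Subgroup.mem_subgroupOf.mpr hx), rfl⟩
  have hKΓ : K ≤ Γ := Subgroup.map_subtype_le _
  refine ⟨K ⊓ G, ⟨inf_le_right, ?_, ?_⟩, ?_, le_inf (le_sup_left.trans hUAK) hUG⟩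
  · intro q hq hqH
    have h1 : q ∣ Nat.card K := hqH.trans (Subgroup.card_dvd_of_le inf_le_left)
    rw [hK, Subgroup.card_map_of_injective Γ.subtype_injective] at h1
    rcases hK'.1 q hq h1 with h | h
    · exact h
    · exfalso
      have h2 : q ∣ Nat.card G := hqH.trans (Subgroup.card_dvd_of_le inf_le_right)
      have h3 : q ∣ Nat.gcd (Nat.card A) (Nat.card G) := Nat.dvd_gcd h h2
      rw [hcop] at h3
      exact hq.one_lt.ne' (Nat.dvd_one.mp h3)
  · intro q hq hqπ hdvd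
    rw [Subgroup.inf_relIndex_right] at hdvd
    have h1 : K.relIndex G = K'.relIndex (G.subgroupOf Γ) := by
      conv_lhs => rw [← Subgroup.map_subgroupOf_eq_of_le hGΓ, hK]
      exact Subgroup.relIndex_map_map_of_injective _ _ Γ.subtype_injective
    rw [h1, ← Cfsg.Agent.Lib.Helper81.relIndex_sup_of_normal K' (G.subgroupOf Γ)] at hdvd
    have h2 : q ∣ K'.index := hdvd.trans (Subgroup.relIndex_dvd_index_of_le le_sup_left)
    exact hK'.2 q hq h2 (Or.inl hqπ)
  · exact (le_inf ((le_sup_right.trans hUAK).trans Subgroup.le_normalizer) hAG).trans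
      Subgroup.inf_normalizer_le_normalizer_inf

/-- conjugacy of `A`-invariant Hall `π`-subgroups under `C_G(A)` -/
lemma conjC (A G : Subgroup X) (hAG : A ≤ Subgroup.normalizer (G : Set X))
    (hcop : (Nat.card A).Coprime (Nat.card G)) (hsolv : Group.IsSolvable G) (π : Set ℕ)
    (H₁ H₂ : Subgroup X) (h₁ : Cfsg.IsPiHallOf π H₁ G) (hA₁ : A ≤ Subgroup.normalizer (H₁ : Set X))
    (h₂ : Cfsg.IsPiHallOf π H₂ G) (hA₂ : A ≤ Subgroup.normalizer (H₂ : Set X)) :
    ∃ c ∈ G ⊓ Subgroup.centralizer (A : Set X), H₂ = H₁.map (MulAut.conj c).toMonoidHom := by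
  classical
  haveI := hsolv
  have hph : ∀ H : Subgroup X, Cfsg.IsPiHallOf π H G → PH π (H.subgroupOf G) := by
    rintro H ⟨hHG, hc, hi⟩
    refine ⟨?_, fun q hq hdvd hqπ => hi q hq hqπ hdvd⟩
    rw [Nat.card_congr (Subgroup.subgroupOfEquivOfLe hHG).toEquiv]
    exact hc
  obtain ⟨-, hconj, -⟩ := goodPi_of_solvable π ↥G
  obtain ⟨g, hg⟩ := hconj _ _ (hph H₁ h₁) (hph H₂ h₂)
  have hx : H₂ = cjg (g : X) H₁ := by
    have h3 := congrArg (Subgroup.map G.subtype) hg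
    rw [map_cjg, Subgroup.map_subgroupOf_eq_of_le h₁.1, Subgroup.map_subgroupOf_eq_of_le h₂.1] at h3
    exact h3
  set x : X := (g : X) with hxdef
  have hxG : x ∈ G := g.2
  set D : Subgroup X := G ⊓ Subgroup.normalizer (H₁ : Set X) with hD
  have hAD : A ≤ Subgroup.normalizer (D : Set X) :=
    (le_inf hAG (hA₁.trans Subgroup.le_normalizer)).trans Subgroup.inf_normalizer_le_normalizer_inf
  have hcopD : (Nat.card A).Coprime (Nat.card D) :=
    Nat.Coprime.coprime_dvd_right (Subgroup.card_dvd_of_le inf_le_left) hcop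
  have hsolvD : Group.IsSolvable D := Cfsg.Agent.Lib.Helper1.isSolvable_of_le' inf_le_left hsolv
  have hmem : ∀ a ∈ A, x⁻¹ * (a * x * a⁻¹) ∈ D := by
    intro a ha
    refine ⟨?_, ?_⟩
    · exact G.mul_mem (G.inv_mem hxG) ((Subgroup.mem_normalizer_iff.mp (hAG ha) x).mp hxG)
    · change x⁻¹ * (a * x * a⁻¹) ∈ Subgroup.normalizer (H₁ : Set X)
      rw [mem_normalizer_iff_cjg]
      have e1 : cjg a⁻¹ H₁ = H₁ := (mem_normalizer_iff_cjg _ _).mp (hA₁ (A.inv_mem ha))
      have e2 : cjg a H₂ = H₂ := (mem_normalizer_iff_cjg _ _).mp (hA₂ ha)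
      have e3 : x⁻¹ * (a * x * a⁻¹) = x⁻¹ * (a * (x * a⁻¹)) := by group
      rw [e3, ← cjg_cjg, ← cjg_cjg, ← cjg_cjg, e1, ← hx, e2, hx, cjg_cjg, inv_mul_cancel, cjg_one]
  obtain ⟨d, hd, hc⟩ := Cfsg.Agent.Lib.Helper1.coprime_coset_fixed hAD hcopD (Or.inr hsolvD) x hmem
  refine ⟨x * d, ⟨G.mul_mem hxG hd.1, hc⟩, ?_⟩
  have e4 : cjg d H₁ = H₁ := (mem_normalizer_iff_cjg _ _).mp hd.2
  change H₂ = cjg (x * d) H₁
  rw [← cjg_cjg, e4, hx]

end

/-- Coprime action on a solvable group and Hall subgroups. Let A and G be subgroups of a finite group with A normalizing G, the orders of A and G coprime, and G solvable, and let π be a set of primes. Then (a) G has an A-invariant Hall π-subgroup; (b) any two A-invariant Hall π-subgroups of G are conjugate by an element of C_G(A); (c) every A-invariant π-subgroup of G lies in an A-invariant Hall π-subgroup of G. -/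
theorem result {X : Type*} [Group X] [Finite X] (A G : Subgroup X) (hAG : A ≤ Subgroup.normalizer (G : Set X)) (hcop : (Nat.card A).Coprime (Nat.card G)) (hsolv : Group.IsSolvable G) (π : Set ℕ) : (∃ H : Subgroup X, Cfsg.IsPiHallOf π H G ∧ A ≤ Subgroup.normalizer (H : Set X)) ∧ (∀ H₁ H₂ : Subgroup X, Cfsg.IsPiHallOf π H₁ G → A ≤ Subgroup.normalizer (H₁ : Set X) → Cfsg.IsPiHallOf π H₂ G → A ≤ Subgroup.normalizer (H₂ : Set X) → ∃ c ∈ G ⊓ Subgroup.centralizer (A : Set X), H₂ = H₁.map (MulAut.conj c).toMonoidHom) ∧ (∀ U : Subgroup X, U ≤ G → A ≤ Subgroup.normalizer (U : Set X) → (∀ p : ℕ, p.Prime → p ∣ Nat.card U → p ∈ π) → ∃ H : Subgroup X, Cfsg.IsPiHallOf π H G ∧ A ≤ Subgroup.normalizer (H : Set X) ∧ U ≤ H) := by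
  refine ⟨?_, fun H₁ H₂ h₁ hA₁ h₂ hA₂ => conjC A G hAG hcop hsolv π H₁ H₂ h₁ hA₁ h₂ hA₂,
    fun U hUG hAU hU => dom A G hAG hcop hsolv π U hUG hAU hU⟩
  obtain ⟨H, hH, hAH, -⟩ := dom A G hAG hcop hsolv π ⊥ bot_le
    (by
      have h1 : Subgroup.normalizer ((⊥ : Subgroup X) : Set X) = ⊤ := Subgroup.normalizer_eq_top _
      rw [h1]; exact le_top)
    (by
      intro p hp hdvd
      rw [Subgroup.card_bot] at hdvd
      exact absurd (Nat.dvd_one.mp hdvd) hp.one_lt.ne')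
  exact ⟨H, hH, hAH⟩

end Cfsg.Agent.S3745
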