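import Cfsg.Statements.S3746
import Cfsg.Agent.Lib.Helper66.Layer

set_option autoImplicit false
open Cfsg

namespace Cfsg.Agent.S3746

open Cfsg.Agent.Lib.Helper66

open scoped commutatorElement in
lemma commutator_sup_central_le {G : Type*} [Group G] (A Z : Subgroup G) [Z.Normal]
    (hZ : Z ≤ Subgroup.center G) : ⁅A ⊔ Z, A ⊔ Z⁆ ≤ ⁅A, A⁆ := by
  rw [Subgroup.commutator_le]
  intro a ha b hb
  rw [Subgroup.mem_sup_of_normal_right] at ha hb
  obtain ⟨a', ha', z, hz, rfl⟩ := ha
  obtain ⟨b', hb', z', hz', rfl⟩ := hb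
  rw [commutatorElement_mul_central_left _ _ _ (Subgroup.mem_center_iff.mp (hZ hz)),
    commutatorElement_mul_central_right _ _ _ (Subgroup.mem_center_iff.mp (hZ hz'))]
  exact Subgroup.commutator_mem_commutator ha' hb'

lemma commutator_self_le {G : Type*} [Group G] (A : Subgroup G) : ⁅A, A⁆ ≤ A := by
  rw [Subgroup.commutator_le]
  intro a ha b hb
  exact A.mul_mem (A.mul_mem (A.mul_mem ha hb) (A.inv_mem ha)) (A.inv_mem hb)

lemma le_normalizer_commutator_self {G : Type*} [Group G] (A : Subgroup G) :
    A ≤ Subgroup.normalizer ((⁅A, A⁆ : Subgroup G) : Set G) := by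
  have h1 := Subgroup.le_normalizer_map (H := commutator A) A.subtype
  have h2 : Subgroup.normalizer ((commutator A : Subgroup A) : Set A) = ⊤ :=
    Subgroup.normalizer_eq_top_iff.mpr inferInstance
  rw [h2, ← MonoidHom.range_eq_map, Subgroup.range_subtype,
    Subgroup.map_subtype_commutator] at h1
  exact h1

open scoped commutatorElement in
/-- Let Z ≤ Z(G) be a central subgroup of a finite group G and E a subgroup of G containing Z whose image E/Z is a component of G/Z (subnormal and quasisimple). Then the derived subgroup [E, E] is a component of G. -/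
theorem result {G : Type*} [Group G] [Finite G] (Z : Subgroup G) (hZ : Z ≤ Subgroup.center G) [Z.Normal] (E : Subgroup G) (hZE : Z ≤ E) (hE : Cfsg.IsComponent (E.map (QuotientGroup.mk' Z))) : Cfsg.IsComponent ⁅E, E⁆ := by
  set π := QuotientGroup.mk' Z with hπ
  have hker : π.ker = Z := QuotientGroup.ker_mk' Z
  have hQ : QS (E.map π) := isComponent_qs hE
  set D : Subgroup G := ⁅E, E⁆ with hD
  have hDE : D ≤ E := commutator_self_le E
  have h1 : D.map π = E.map π := by
    rw [hD, Subgroup.map_commutator, hQ.1]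
  have h2 : E ≤ D ⊔ Z := by
    have := Subgroup.comap_map_eq (f := π) D
    rw [h1, hker] at this
    rw [← this]
    exact Subgroup.le_comap_map π E
  have hperf : ⁅D, D⁆ = D := by
    apply le_antisymm (commutator_self_le D)
    calc D = ⁅E, E⁆ := rfl
      _ ≤ ⁅D ⊔ Z, D ⊔ Z⁆ := Subgroup.commutator_mono h2 h2
      _ ≤ ⁅D, D⁆ := commutator_sup_central_le D Z hZ
  have hQS : QS D := by
    refine ⟨hperf, ?_⟩
    intro N hND hDn hNne
    have hNb : N.map π ≤ E.map π := Subgroup.map_mono (hND.trans hDE)
    have hnb : E.map π ≤ Subgroup.normalizer ((N.map π : Subgroup (G ⧸ Z)) : Set (G ⧸ Z)) := by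
      rw [← h1]
      exact (Subgroup.map_mono hDn).trans (Subgroup.le_normalizer_map π)
    by_cases hNeq : N.map π = E.map π
    · exfalso
      apply hNne
      apply le_antisymm hND
      have h3 : E ≤ N ⊔ Z := by
        have := Subgroup.comap_map_eq (f := π) N
        rw [hNeq, hker] at this
        rw [← this]
        exact Subgroup.le_comap_map π E
      calc D = ⁅E, E⁆ := rfl
        _ ≤ ⁅N ⊔ Z, N ⊔ Z⁆ := Subgroup.commutator_mono h3 h3
        _ ≤ ⁅N, N⁆ := commutator_sup_central_le N Z hZ
        _ ≤ N := commutator_self_le N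
    · have hc := hQ.2 (N.map π) hNb hnb hNeq
      intro x hx
      have hxe : ∀ e ∈ E, ⁅x, e⁆ ∈ Z := by
        intro e he
        have h3 : π x ∈ Subgroup.centralizer ((E.map π : Subgroup (G ⧸ Z)) : Set (G ⧸ Z)) :=
          hc (Subgroup.mem_map_of_mem π hx)
        have h4 := (Subgroup.mem_centralizer_iff.mp h3) (π e) (Subgroup.mem_map_of_mem π he)
        rw [← hker, MonoidHom.mem_ker, map_commutatorElement, commutatorElement_def, ← h4]
        group
      have hconj : ∀ e ∈ E, ∃ z ∈ Z, x * e * x⁻¹ = e * z := by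
        intro e he
        refine ⟨e⁻¹ * ⁅x, e⁆ * e, ?_, ?_⟩
        · have hz := hxe e he
          have hzc := Subgroup.mem_center_iff.mp (hZ hz) e
          have : e⁻¹ * ⁅x, e⁆ * e = ⁅x, e⁆ := by
            rw [mul_assoc, ← hzc, inv_mul_cancel_left]
          rw [this]; exact hz
        · rw [commutatorElement_def]; group
      have hgen : ∀ e ∈ E, ∀ e' ∈ E, x * ⁅e, e'⁆ * x⁻¹ = ⁅e, e'⁆ := by
        intro e he e' he'
        obtain ⟨z, hz, hze⟩ := hconj e he
        obtain ⟨z', hz', hze'⟩ := hconj e' he'
        have : x * ⁅e, e'⁆ * x⁻¹ = ⁅x * e * x⁻¹, x * e' * x⁻¹⁆ := by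
          simp only [commutatorElement_def]; group
        rw [this, hze, hze',
          commutatorElement_mul_central_left _ _ _ (Subgroup.mem_center_iff.mp (hZ hz)),
          commutatorElement_mul_central_right _ _ _ (Subgroup.mem_center_iff.mp (hZ hz'))]
      have hDc : D ≤ Subgroup.centralizer ({x} : Set G) := by
        rw [hD, Subgroup.commutator_def, Subgroup.closure_le]
        rintro g ⟨e, he, e', he', rfl⟩
        rw [SetLike.mem_coe, Subgroup.mem_centralizer_iff]
        intro h hh
        rw [Set.mem_singleton_iff] at hh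
        subst hh
        have := hgen e he e' he'
        calc h * ⁅e, e'⁆ = h * ⁅e, e'⁆ * h⁻¹ * h := by group
          _ = ⁅e, e'⁆ * h := by rw [this]
      rw [Subgroup.mem_centralizer_iff]
      intro d hd
      have := (Subgroup.mem_centralizer_iff.mp (hDc hd)) x (Set.mem_singleton x)
      exact this.symm
  have hDne : D ≠ ⊥ := by
    intro h
    apply isComponent_ne_bot hE
    rw [← h1, h, Subgroup.map_bot]
  have hEsn : E.IsSubnormal := by
    have h3 := hE.1.comap π
    rw [Subgroup.comap_map_eq, hker, sup_eq_left.mpr hZE] at h3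
    exact h3
  have hDsn : D.IsSubnormal :=
    Subgroup.IsSubnormal.step D E hDE hEsn
      (Subgroup.normal_subgroupOf_of_le_normalizer (le_normalizer_commutator_self E))
  exact ⟨hDsn, isQuasisimple_of_qs hQS hDne⟩

end Cfsg.Agent.S3746
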