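import Cfsg.Statements.S3747
import Cfsg.Agent.Lib.Helper66.Layer

set_option autoImplicit false
open Cfsg

namespace Cfsg.Agent.S3747

open Cfsg.Agent.Lib.Helper66 in
/-- Let G be a finite group. (a) If K is a component of G with trivial centre, then the normal closure of K in G is a minimal normal subgroup of G. (b) If the Fitting subgroup of G is trivial, then the layer E(G) is generated by the minimal normal subgroups of G. -/
theorem result {G : Type*} [Group G] [Finite G] : (∀ K : Subgroup G, Cfsg.IsComponent K → Subgroup.center ↥K = ⊥ → (Subgroup.normalClosure (K : Set G) ≠ ⊥ ∧ ∀ N : Subgroup G, N.Normal → N ≤ Subgroup.normalClosure (K : Set G) → N = ⊥ ∨ N = Subgroup.normalClosure (K : Set G))) ∧ (Cfsg.fittingSubgroup G = ⊥ → sSup {N : Subgroup G | N ≠ ⊥ ∧ N.Normal ∧ ∀ N' : Subgroup G, N'.Normal → N' ≤ N → N' = ⊥ ∨ N' = N} = Cfsg.layer G) := by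
  have parta : ∀ K : Subgroup G, Cfsg.IsComponent K → Subgroup.center ↥K = ⊥ →
      (Subgroup.normalClosure (K : Set G) ≠ ⊥ ∧ ∀ N : Subgroup G, N.Normal →
        N ≤ Subgroup.normalClosure (K : Set G) → N = ⊥ ∨ N = Subgroup.normalClosure (K : Set G)) := by
    intro K hK hc
    refine ⟨?_, fun N hN hle => normalClosure_minimal_of_centerless hK hc hN hle⟩
    intro h
    apply isComponent_ne_bot hK
    rw [eq_bot_iff, ← h]
    exact Subgroup.le_normalClosure
  refine ⟨parta, ?_⟩
  intro hF
  apply le_antisymm
  · apply sSup_le
    rintro N ⟨hNne, hNn, hNmin⟩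
    obtain ⟨L, hLne, hLsn, hLN, hL⟩ := exists_minimal_subnormal hNn.isSubnormal hNne
    rcases hL with hQS | ⟨p, hp, hpg⟩
    · have hcomp : IsComponent L := ⟨hLsn, isQuasisimple_of_qs hQS hLne⟩
      have hLl : L ≤ layer G := le_sSup hcomp
      have hn : (layer G ⊓ N).Normal := inferInstance
      rcases hNmin (layer G ⊓ N) hn inf_le_right with h | h
      · exact absurd (eq_bot_iff.mpr (h ▸ le_inf hLl hLN)) hLne
      · exact inf_eq_right.mp h
    · exfalso
      have : Fact p.Prime := ⟨hp⟩
      have hnil : Group.IsNilpotent L := hpg.isNilpotent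
      have := subnormal_nilpotent_le_fitting hLsn hnil
      rw [hF] at this
      exact hLne (eq_bot_iff.mpr this)
  · apply sSup_le
    intro K hK
    have hc : Subgroup.center K = ⊥ := by
      have hsn : ((Subgroup.center K).map K.subtype).IsSubnormal :=
        Subgroup.IsSubnormal.trans' (Subgroup.Normal.isSubnormal inferInstance) hK.1
      have hnilc : Group.IsNilpotent (Subgroup.center K) := by
        open scoped IsMulCommutative in exact CommGroup.isNilpotent
      have hnil : Group.IsNilpotent ((Subgroup.center K).map K.subtype) :=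
        Group.nilpotent_of_mulEquiv
          (Subgroup.equivMapOfInjective (Subgroup.center K) K.subtype K.subtype_injective)
      have := subnormal_nilpotent_le_fitting hsn hnil
      rw [hF, le_bot_iff, Subgroup.map_eq_bot_iff_of_injective _ K.subtype_injective] at this
      exact this
    obtain ⟨h1, h2⟩ := parta K hK hc
    exact Subgroup.le_normalClosure.trans (le_sSup ⟨h1, inferInstance, h2⟩)

end Cfsg.Agent.S3747
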