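import Cfsg.Statements.S3749
import Cfsg.Agent.Lib.Helper66.InvSylow

set_option autoImplicit false
open Cfsg

namespace Cfsg.Agent.S3749

open Cfsg.Agent.Lib.Helper66
open Pointwise

/-- Call a proper subgroup M of G primitive when M = N_G(N) for every non-trivial normal subgroup N of M. Let M be a primitive subgroup of the finite group G, p a prime with O_p(M) ≠ 1, and N a normal subgroup of G with M ∩ N = 1. Then p does not divide the order of N; for every prime q there is exactly one Sylow q-subgroup of N normalized by M; and if the order of N has at least two prime divisors then M is not a maximal subgroup of G. -/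
theorem result {G : Type*} [Group G] [Finite G] (M : Subgroup G) (hM : M ≠ ⊤) (hprim : ∀ N : Subgroup G, N ≤ M → M ≤ Subgroup.normalizer (N : Set G) → N ≠ ⊥ → Subgroup.normalizer (N : Set G) = M) {p : ℕ} [Fact p.Prime] (hOp : Cfsg.pCore p ↥M ≠ ⊥) (N : Subgroup G) [N.Normal] (hMN : M ⊓ N = ⊥) : ¬ p ∣ Nat.card N ∧ (∀ q : ℕ, [Fact q.Prime] → ∃! Q : Sylow q ↥N, M ≤ Subgroup.normalizer ((Q : Subgroup ↥N).map N.subtype : Set G)) ∧ ((∃ q r : ℕ, q.Prime ∧ r.Prime ∧ q ≠ r ∧ q ∣ Nat.card N ∧ r ∣ Nat.card N) → ¬ IsCoatom M) := by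
  classical
  have hp : p.Prime := Fact.out
  set P : Subgroup G := (Cfsg.pCore p ↥M).map M.subtype with hPdef
  have hPM : P ≤ M := Subgroup.map_subtype_le _
  have hPne : P ≠ ⊥ := by
    intro h
    exact hOp ((Subgroup.map_eq_bot_iff_of_injective _ M.subtype_injective).mp h)
  have hPp : IsPGroup p P := (isPGroup_pCore (G := ↥M) p).map M.subtype
  have hcoreN : (Cfsg.pCore p ↥M).Normal :=
    Subgroup.sSup_normal _ (fun H hH => hH.1)
  have hMP : M ≤ Subgroup.normalizer (P : Set G) := by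
    intro m hm
    rw [Subgroup.mem_normalizer_iff]
    intro g
    constructor
    · rintro ⟨g', hg', rfl⟩
      exact ⟨⟨m, hm⟩ * g' * ⟨m, hm⟩⁻¹, hcoreN.conj_mem g' hg' ⟨m, hm⟩, rfl⟩
    · rintro ⟨g', hg', hgg⟩
      have hgM : g ∈ M := by
        have h1 : m * g * m⁻¹ ∈ M := hgg ▸ g'.2
        have h2 : g = m⁻¹ * (m * g * m⁻¹) * m := by group
        rw [h2]
        exact M.mul_mem (M.mul_mem (M.inv_mem hm) h1) hm
      refine ⟨⟨g, hgM⟩, ?_, rfl⟩
      have h3 : (⟨g, hgM⟩ : ↥M) = ⟨m, hm⟩⁻¹ * g' * ⟨m, hm⟩⁻¹⁻¹ := by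
        apply Subtype.ext
        change g = m⁻¹ * (g' : G) * m⁻¹⁻¹
        have hgg' : (g' : G) = m * g * m⁻¹ := hgg
        rw [hgg']; group
      rw [h3]
      exact hcoreN.conj_mem g' hg' ⟨m, hm⟩⁻¹
  have hNP : Subgroup.normalizer (P : Set G) = M := hprim P hPM hMP hPne
  have hCN : N ⊓ Subgroup.centralizer (P : Set G) = ⊥ := by
    rw [eq_bot_iff, ← hMN]
    intro n hn
    refine ⟨?_, hn.1⟩
    rw [← hNP]
    exact Subgroup.centralizer_le_normalizer _ hn.2
  -- (a)
  have ha : ¬ p ∣ Nat.card N := by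
    have key := card_normal_modEq_card_centralizer hPp N
    rw [hCN, Subgroup.card_bot] at key
    intro hdvd
    have h0 : Nat.card N ≡ 0 [MOD p] := Nat.modEq_zero_iff_dvd.mpr hdvd
    have h1 : 1 ≡ 0 [MOD p] := key.symm.trans h0
    have h2 : p ∣ 1 := Nat.modEq_zero_iff_dvd.mp h1
    exact hp.one_lt.ne' (Nat.dvd_one.mp h2)
  -- uniqueness of the `P`-invariant Sylow subgroup
  have huniq : ∀ (q : ℕ) [Fact q.Prime] (Q₁ Q₂ : Sylow q ↥N),
      P ≤ Subgroup.normalizer ((sylImg Q₁ : Subgroup G) : Set G) →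
      P ≤ Subgroup.normalizer ((sylImg Q₂ : Subgroup G) : Set G) → Q₁ = Q₂ := by
    intro q _ Q₁ Q₂ h1 h2
    obtain ⟨c, hc, hcq⟩ := invariant_sylow_conj hPp N ha Q₁ Q₂ h1 h2
    rw [hCN, Subgroup.mem_bot] at hc
    rw [hc, map_one, one_smul] at hcq
    exact sylImg_injective hcq
  -- existence of an `M`-invariant Sylow subgroup
  have hexM : ∀ (q : ℕ) [Fact q.Prime], ∃ Q : Sylow q ↥N,
      M ≤ Subgroup.normalizer ((sylImg Q : Subgroup G) : Set G) := by
    intro q _
    obtain ⟨Q, hQ⟩ := exists_invariant_sylow hPp N ha q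
    refine ⟨Q, fun m hm => ?_⟩
    rw [mem_normalizer_iff_smul]
    -- the conjugate Sylow subgroup
    set Q₂ : Sylow q ↥N := (MulAut.conjNormal m : MulAut ↥N) • Q with hQ₂
    have himg : sylImg Q₂ = MulAut.conj m • sylImg Q := by
      change ((Q₂ : Sylow q ↥N) : Subgroup ↥N).map N.subtype = _
      rw [hQ₂, Sylow.pointwise_smul_def, map_conjNormal_smul]
    have hQ₂P : P ≤ Subgroup.normalizer ((sylImg Q₂ : Subgroup G) : Set G) := by
      intro x hx
      rw [mem_normalizer_iff_smul, himg]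
      have hx' : m⁻¹ * x * m ∈ P := by
        have h1 : m⁻¹ ∈ Subgroup.normalizer (P : Set G) := Subgroup.inv_mem _ (hMP hm)
        have h2 := (Subgroup.mem_normalizer_iff.mp h1 x).mp hx
        simpa using h2
      have h3 : MulAut.conj (m⁻¹ * x * m) • sylImg Q = sylImg Q :=
        (mem_normalizer_iff_smul _ _).mp (hQ hx')
      have h4 : MulAut.conj x * MulAut.conj m = MulAut.conj m * MulAut.conj (m⁻¹ * x * m) := by
        rw [← map_mul, ← map_mul]
        congr 1
        group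
      rw [smul_smul, h4, mul_smul, h3]
    have := huniq q Q₂ Q hQ₂P hQ
    rw [← himg, this]
  refine ⟨ha, ?_, ?_⟩
  · intro q _
    obtain ⟨Q, hQ⟩ := hexM q
    refine ⟨Q, hQ, fun Q' hQ' => ?_⟩
    exact huniq q Q' Q (hPM.trans hQ') (hPM.trans hQ)
  · rintro ⟨q, r, hq, hr, hqr, hqN, hrN⟩ hco
    haveI : Fact q.Prime := ⟨hq⟩
    obtain ⟨Q, hQ⟩ := hexM q
    set Q' : Subgroup G := sylImg Q with hQ'
    have hQ'N : Q' ≤ N := sylImg_le Q
    have hcardQ' : Nat.card Q' = Nat.card (Q : Subgroup ↥N) :=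
      Nat.card_congr ((Q : Subgroup ↥N).equivMapOfInjective N.subtype N.subtype_injective).symm.toEquiv
    have hQ'ne : Q' ≠ ⊥ := by
      intro h
      rw [h, Subgroup.card_bot] at hcardQ'
      have h1 : q ∣ Nat.card (Q : Subgroup ↥N) := by
        rw [Sylow.card_eq_multiplicity]
        exact dvd_pow_self q ((Nat.factorization_def _ hq ▸ (hq.factorization_pos_of_dvd Nat.card_pos.ne' hqN).ne'))
      rw [← hcardQ'] at h1
      exact hq.one_lt.ne' (Nat.dvd_one.mp h1)
    have hnotle : ¬ Q' ≤ M := by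
      intro h
      apply hQ'ne
      rw [eq_bot_iff, ← hMN]
      exact le_inf h hQ'N
    have hsup : M ⊔ Q' = ⊤ := by
      apply hco.2
      rw [lt_iff_le_and_ne]
      refine ⟨le_sup_left, fun h => hnotle ?_⟩
      rw [h]; exact le_sup_right
    -- counting
    have h1 : Nat.card G ≤ Nat.card (M × Q') := by
      apply Nat.card_le_card_of_surjective (fun y : M × Q' => (y.1 : G) * (y.2 : G))
      intro g
      have hg : g ∈ ((M ⊔ Q' : Subgroup G) : Set G) := by rw [hsup]; trivial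
      rw [Subgroup.coe_mul_of_left_le_normalizer_right M Q' hQ] at hg
      obtain ⟨m, hm, d, hd, rfl⟩ := Set.mem_mul.mp hg
      exact ⟨⟨⟨m, hm⟩, ⟨d, hd⟩⟩, rfl⟩
    have h2 : Nat.card (M × N) ≤ Nat.card G := by
      apply Nat.card_le_card_of_injective (fun y : M × N => (y.1 : G) * (y.2 : G))
      rintro ⟨m₁, n₁⟩ ⟨m₂, n₂⟩ h
      have h3 : (m₂ : G)⁻¹ * m₁ = n₂ * (n₁ : G)⁻¹ := by
        have h' : (m₁ : G) * n₁ = m₂ * n₂ := h
        rw [inv_mul_eq_iff_eq_mul, ← mul_assoc, eq_mul_inv_iff_mul_eq]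
        exact h'
      have h4 : (m₂ : G)⁻¹ * m₁ ∈ M ⊓ N :=
        ⟨M.mul_mem (M.inv_mem m₂.2) m₁.2, h3 ▸ N.mul_mem n₂.2 (N.inv_mem n₁.2)⟩
      rw [hMN, Subgroup.mem_bot] at h4
      have h5 : (m₁ : G) = m₂ := by
        rw [inv_mul_eq_one] at h4; exact h4.symm
      have h6 : (n₁ : G) = n₂ := by
        rw [h4] at h3
        have := h3.symm
        rw [mul_inv_eq_one] at this
        exact this.symm
      exact Prod.ext (Subtype.ext h5) (Subtype.ext h6)
    rw [Nat.card_prod] at h1 h2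
    have hMpos : 0 < Nat.card M := Nat.card_pos
    have h3 : Nat.card N ≤ Nat.card Q' := Nat.le_of_mul_le_mul_left (h2.trans h1) hMpos
    have h4 : Q' = N := Subgroup.eq_of_le_of_card_ge hQ'N h3
    have h5 : Nat.card N = q ^ (Nat.card ↥N).factorization q := by
      have h6 : Nat.card Q' = q ^ (Nat.card ↥N).factorization q := by
        rw [hcardQ', Sylow.card_eq_multiplicity]
      rw [h4] at h6
      exact h6
    rw [h5] at hrN
    have := (Nat.prime_dvd_prime_iff_eq hr hq).mp (hr.dvd_of_dvd_pow hrN)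
    exact hqr this.symm

end Cfsg.Agent.S3749
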