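import Cfsg.Statements.S3750
import Cfsg.Agent.Lib.Helper66.Layer

set_option autoImplicit false
open Cfsg

namespace Cfsg.Agent.S3750

open Cfsg.Agent.Lib.Helper66 in
/-- Call a proper subgroup M of G primitive when M = N_G(N) for every non-trivial normal subgroup N of M. Let M be a primitive subgroup of the finite group G and N a normal subgroup of G with M ∩ F*(N) ≠ 1. Then F(G) = 1 and F*(N) = F*(G) = E(G); in particular every minimal normal subgroup of G is contained in N. -/
theorem result {G : Type*} [Group G] [Finite G] (M : Subgroup G) (hM : M ≠ ⊤) (hprim : ∀ N : Subgroup G, N ≤ M → M ≤ Subgroup.normalizer (N : Set G) → N ≠ ⊥ → Subgroup.normalizer (N : Set G) = M) (N : Subgroup G) [N.Normal] (hMF : M ⊓ (Cfsg.generalizedFittingSubgroup ↥N).map N.subtype ≠ ⊥) : Cfsg.fittingSubgroup G = ⊥ ∧ (Cfsg.generalizedFittingSubgroup ↥N).map N.subtype = Cfsg.generalizedFittingSubgroup G ∧ Cfsg.generalizedFittingSubgroup G = Cfsg.layer G ∧ ∀ K : Subgroup G, K.Normal → K ≠ ⊥ → (∀ K' : Subgroup G, K'.Normal → K' ≤ K → K' = ⊥ ∨ K' = K) → K ≤ N := by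
  have hP : IsPrim M := ⟨hM, hprim⟩
  set FN : Subgroup G := (Cfsg.generalizedFittingSubgroup ↥N).map N.subtype with hFN
  have hNn : N.Normal := inferInstance
  have hNsn : N.IsSubnormal := hNn.isSubnormal
  have hFNn : FN.Normal := ConjAct.normal_of_characteristic_of_normal
  have hFNle : FN ≤ N := Subgroup.map_subtype_le _
  set X := M ⊓ FN with hX
  have hXn : M ≤ Subgroup.normalizer (X : Set G) := by
    intro m hm
    rw [Subgroup.mem_normalizer_iff]
    intro h
    have h1 : h ∈ M ↔ m * h * m⁻¹ ∈ M := by
      constructor
      · intro hh; exact M.mul_mem (M.mul_mem hm hh) (M.inv_mem hm)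
      · intro hh
        have := M.mul_mem (M.mul_mem (M.inv_mem hm) hh) hm
        simpa [mul_assoc] using this
    have h2 : h ∈ FN ↔ m * h * m⁻¹ ∈ FN := by
      constructor
      · intro hh; exact hFNn.conj_mem h hh m
      · intro hh
        have := hFNn.conj_mem _ hh m⁻¹
        simpa [mul_assoc] using this
    simp only [hX, Subgroup.mem_inf, h1, h2]
  have hnX : Subgroup.normalizer (X : Set G) = M := hprim X inf_le_left hXn hMF
  have hFNeq : FN = (layer N).map N.subtype ⊔ (fittingSubgroup N).map N.subtype :=
    Subgroup.map_sup _ _ _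
  have hFitN : (fittingSubgroup N).map N.subtype ≤ fittingSubgroup G := map_fitting_le hNsn
  have hEN : (layer N).map N.subtype ≤ layer G := map_layer_le hNsn
  have hF : fittingSubgroup G = ⊥ := by
    by_contra hne
    obtain ⟨p, hp, hpne⟩ : ∃ p : ℕ, p.Prime ∧ pCore p G ≠ ⊥ := by
      by_contra hcon
      push Not at hcon
      apply hne
      rw [fitting_eq_iSup_pCore, eq_bot_iff]
      apply iSup_le
      intro q
      apply iSup_le
      intro hq
      rw [hcon q hq]
    have : Fact p.Prime := ⟨hp⟩
    set P := pCore p G with hPdef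
    set Z : Subgroup G := (Subgroup.center P).map P.subtype with hZ
    have hZn : Z.Normal := ConjAct.normal_of_characteristic_of_normal
    have hZne : Z ≠ ⊥ := by
      have hnt : Nontrivial P := (Subgroup.nontrivial_iff_ne_bot P).mpr hpne
      have hlt := (isPGroup_pCore (G := G) p).bot_lt_center
      intro h
      rw [hZ, Subgroup.map_eq_bot_iff_of_injective _ P.subtype_injective] at h
      exact hlt.ne' h
    have hZF : Z ≤ fittingSubgroup G := (Subgroup.map_subtype_le _).trans (pCore_le_fitting p)
    have hFNc : FN ≤ Subgroup.centralizer (Z : Set G) := by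
      rw [hFNeq]
      apply sup_le
      · exact (hEN.trans layer_le_centralizer_fitting).trans (Subgroup.centralizer_le hZF)
      · exact hFitN.trans (fitting_le_centralizer_center_pCore p)
    have hZX : Z ≤ Subgroup.centralizer (X : Set G) :=
      Subgroup.le_centralizer_iff.mp (inf_le_right.trans hFNc)
    have hZM : Z ≤ M := by
      rw [← hnX]
      exact hZX.trans (Subgroup.centralizer_le_normalizer _)
    exact hZne (hP.eq_bot_of_normal hZn hZM)
  have h3 : generalizedFittingSubgroup G = layer G := by
    show layer G ⊔ fittingSubgroup G = layer G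
    rw [hF, sup_bot_eq]
  have hXN : X ≤ N := inf_le_right.trans hFNle
  have hcentX : Subgroup.centralizer (N : Set G) ≤ M := by
    rw [← hnX]
    exact (Subgroup.centralizer_le hXN).trans (Subgroup.centralizer_le_normalizer _)
  have h2 : FN = generalizedFittingSubgroup G := by
    rw [h3]
    apply le_antisymm
    · rw [hFNeq]
      apply sup_le hEN
      rw [hF] at hFitN
      exact hFitN.trans bot_le
    · apply sSup_le
      intro L hL
      rcases comp_lemma hL.1 hNsn (isComponent_qs hL) with h | h
      · have hc := isComponent_subgroupOf hL h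
        have hLeq : L = (L.subgroupOf N).map N.subtype := (Subgroup.map_subgroupOf_eq_of_le h).symm
        rw [hLeq, hFNeq]
        exact le_sup_of_le_left (Subgroup.map_mono (le_sSup hc))
      · have hLc : L ≤ Subgroup.centralizer (N : Set G) :=
          Subgroup.commutator_eq_bot_iff_le_centralizer.mp h
        have := hP.eq_bot_of_subnormal hL.1 (hLc.trans hcentX)
        exact absurd this (isComponent_ne_bot hL)
  refine ⟨hF, h2, h3, ?_⟩
  intro K hK hKne hKmin
  have hKN : (K ⊓ N).Normal := inferInstance
  rcases hKmin (K ⊓ N) hKN inf_le_left with h | h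
  · exfalso
    have hdisj : Disjoint K N := disjoint_iff.mpr h
    have hKc : K ≤ Subgroup.centralizer (N : Set G) := by
      intro x hx
      rw [Subgroup.mem_centralizer_iff]
      intro y hy
      exact (Subgroup.commute_of_normal_of_disjoint K N hK hNn hdisj x y hx hy).symm.eq
    exact hKne (hP.eq_bot_of_normal hK (hKc.trans hcentX))
  · exact inf_eq_left.mp h

end Cfsg.Agent.S3750
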