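import Cfsg.Statements.S3751
import Mathlib

set_option autoImplicit false
open Cfsg

namespace Cfsg.Agent.S3751

variable {G : Type*} [Group G]

def IsPLoc (p : ℕ) (L : Subgroup G) : Prop :=
  ∃ T : Subgroup G, IsPGroup p T ∧ T ≠ ⊥ ∧ L = Subgroup.normalizer (T : Set G)

def IsMaxPLoc (p : ℕ) (M : Subgroup G) : Prop :=
  IsPLoc p M ∧ ∀ L : Subgroup G, IsPLoc p L → M ≤ L → L = M

def qq (p : ℕ) (M : Subgroup G) : Subgroup G := (Cfsg.pCore p ↥M).map M.subtype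

def CharP (p : ℕ) (M : Subgroup G) : Prop :=
  Subgroup.centralizer (Cfsg.pCore p ↥M : Set ↥M) ≤ Cfsg.pCore p ↥M

lemma pCore_isPGroup (H : Type*) [Group H] [Finite H] (p : ℕ) [Fact p.Prime] :
    IsPGroup p (Cfsg.pCore p H) := by
  obtain ⟨P⟩ : Nonempty (Sylow p H) := inferInstance
  apply IsPGroup.to_le P.2
  apply sSup_le
  rintro N ⟨hN, hNp⟩
  have := hN
  have h1 : IsPGroup p (N ⊔ (P : Subgroup H) : Subgroup H) :=
    IsPGroup.to_sup_of_normal_left hNp P.2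
  have h2 := P.is_maximal' h1 le_sup_right
  rw [← h2]
  exact le_sup_left

lemma qq_le (p : ℕ) (M : Subgroup G) : qq p M ≤ M := by
  rintro _ ⟨x, _, rfl⟩
  exact x.2

lemma qq_isPGroup [Finite G] (p : ℕ) [Fact p.Prime] (M : Subgroup G) : IsPGroup p (qq p M) :=
  (pCore_isPGroup (↥M) p).map M.subtype

lemma le_normalizer_qq (p : ℕ) (M : Subgroup G) :
    M ≤ Subgroup.normalizer (qq p M : Set G) := by
  intro m hm
  rw [Subgroup.mem_normalizer_iff]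
  intro n
  constructor
  · rintro ⟨x, hx, rfl⟩
    exact ⟨⟨m, hm⟩ * x * ⟨m, hm⟩⁻¹, (Cfsg.pCore_normal p ↥M).conj_mem x hx ⟨m, hm⟩, rfl⟩
  · rintro ⟨x, hx, hxe⟩
    refine ⟨⟨m, hm⟩⁻¹ * x * ⟨m, hm⟩, ?_, ?_⟩
    · have h1 := (Cfsg.pCore_normal p ↥M).conj_mem x hx ⟨m, hm⟩⁻¹
      simpa using h1
    · have h2 : (M.subtype x : G) = m * n * m⁻¹ := hxe
      show m⁻¹ * (M.subtype x : G) * m = n
      rw [h2]
      group

lemma charP_elim (p : ℕ) (M : Subgroup G) (h : CharP p M) (m : G) (hm : m ∈ M)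
    (hc : ∀ q ∈ qq p M, q * m = m * q) : m ∈ qq p M := by
  have h1 : (⟨m, hm⟩ : ↥M) ∈ Subgroup.centralizer (Cfsg.pCore p ↥M : Set ↥M) := by
    rw [Subgroup.mem_centralizer_iff]
    intro x hx
    apply Subtype.ext
    exact hc x ⟨x, hx, rfl⟩
  exact ⟨⟨m, hm⟩, h h1, rfl⟩

def opIn (p : ℕ) (A : Subgroup G) : Subgroup G :=
  sSup {N : Subgroup G | N ≤ A ∧ A ≤ Subgroup.normalizer (N : Set G) ∧ IsPGroup p N}

lemma le_opIn (p : ℕ) (A N : Subgroup G) (h1 : N ≤ A)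
    (h2 : A ≤ Subgroup.normalizer (N : Set G)) (h3 : IsPGroup p N) : N ≤ opIn p A :=
  le_sSup ⟨h1, h2, h3⟩

lemma exists_max_psub [Finite G] (p : ℕ) (A : Subgroup G) :
    ∃ P : Subgroup G, P ≤ A ∧ IsPGroup p P ∧
      ∀ R : Subgroup G, R ≤ A → IsPGroup p R → P ≤ R → R = P := by
  have : Nonempty {P : Subgroup G // P ≤ A ∧ IsPGroup p P} :=
    ⟨⟨⊥, bot_le, IsPGroup.of_bot⟩⟩
  obtain ⟨⟨P, hPA, hP⟩, hmax⟩ :=
    Finite.exists_max (fun P : {P : Subgroup G // P ≤ A ∧ IsPGroup p P} => Nat.card P.1)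
  refine ⟨P, hPA, hP, fun R hRA hR hPR => ?_⟩
  exact (Subgroup.eq_of_le_of_card_ge hPR (hmax ⟨R, hRA, hR⟩)).symm

lemma opIn_isPGroup [Finite G] (p : ℕ) [Fact p.Prime] (A : Subgroup G) :
    IsPGroup p (opIn p A) := by
  obtain ⟨P, hPA, hP, hmax⟩ := exists_max_psub p A
  apply IsPGroup.to_le hP
  apply sSup_le
  rintro N ⟨hNA, hAN, hN⟩
  have h1 : IsPGroup p (P ⊔ N : Subgroup G) :=
    IsPGroup.to_sup_of_normal_right' hP hN (hPA.trans hAN)
  have h2 := hmax (P ⊔ N) (sup_le hPA hNA) h1 le_sup_left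
  rw [← h2]
  exact le_sup_right

def cj (x : G) (H : Subgroup G) : Subgroup G := H.map (MulAut.conj x).toMonoidHom

lemma mem_cj (x y : G) (H : Subgroup G) : y ∈ cj x H ↔ x⁻¹ * y * x ∈ H := by
  unfold cj
  rw [Subgroup.mem_map_equiv, MulAut.conj_symm_apply]

lemma normalizer_cj (x : G) (T : Subgroup G) :
    Subgroup.normalizer (cj x T : Set G) = cj x (Subgroup.normalizer (T : Set G)) :=
  (Subgroup.map_equiv_normalizer_eq T (MulAut.conj x)).symm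

lemma cj_cj_inv (x : G) (H : Subgroup G) : cj x (cj x⁻¹ H) = H := by
  ext y
  simp only [mem_cj, inv_inv]
  constructor <;> intro h <;> simpa [mul_assoc] using h

lemma normalizer_le_normalizer_opIn (p : ℕ) (A : Subgroup G) :
    Subgroup.normalizer (A : Set G) ≤ Subgroup.normalizer (opIn p A : Set G) := by
  have key : ∀ g ∈ Subgroup.normalizer (A : Set G), ∀ n ∈ opIn p A, g * n * g⁻¹ ∈ opIn p A := by
    intro g hg
    have h1 : opIn p A ≤ (opIn p A).comap (MulAut.conj g).toMonoidHom := by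
      apply sSup_le
      rintro N ⟨hNA, hAN, hN⟩
      rw [← Subgroup.map_le_iff_le_comap]
      apply le_opIn p A
      · rintro _ ⟨n, hn, rfl⟩
        exact (Subgroup.mem_normalizer_iff.mp hg n).mp (hNA hn)
      · intro a ha
        have h2 : a ∈ cj g (Subgroup.normalizer (N : Set G)) := by
          rw [mem_cj]
          exact hAN ((Subgroup.mem_normalizer_iff''.mp hg a).mp ha)
        rw [← normalizer_cj] at h2
        exact h2
      · exact hN.map _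
    intro n hn
    exact h1 hn
  intro g hg
  rw [Subgroup.mem_normalizer_iff]
  intro n
  constructor
  · exact key g hg n
  · intro h
    have h1 := key g⁻¹ (Subgroup.inv_mem _ hg) _ h
    simpa [mul_assoc] using h1

lemma normalizer_eq_of_normal [Finite G] {p : ℕ} [Fact p.Prime] {M : Subgroup G}
    (hM : IsMaxPLoc p M) (hc : CharP p M) {A : Subgroup G} (hA : A ≠ ⊥) (hAM : A ≤ M)
    (hMA : M ≤ Subgroup.normalizer (A : Set G)) : Subgroup.normalizer (A : Set G) = M := by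
  have hB : opIn p A ≠ ⊥ := by
    intro hbot
    have h1 : A ⊓ qq p M ≤ opIn p A := by
      apply le_opIn p A _ inf_le_left ?_ ((qq_isPGroup p M).to_le inf_le_right)
      intro a ha
      rw [Subgroup.mem_normalizer_iff]
      intro n
      simp only [Subgroup.mem_inf]
      exact and_congr (Subgroup.mem_normalizer_iff.mp (Subgroup.le_normalizer ha) n)
        (Subgroup.mem_normalizer_iff.mp (le_normalizer_qq p M (hAM ha)) n)
    rw [hbot, le_bot_iff] at h1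
    apply hA
    rw [eq_bot_iff, ← h1]
    refine le_inf le_rfl ?_
    intro a ha
    apply charP_elim p M hc a (hAM ha)
    intro q hq
    have h2 : q * a * q⁻¹ * a⁻¹ ∈ A ⊓ qq p M := by
      constructor
      · exact A.mul_mem ((Subgroup.mem_normalizer_iff.mp (hMA (qq_le p M hq)) a).mp ha)
          (A.inv_mem ha)
      · have h3 : a * q⁻¹ * a⁻¹ ∈ qq p M :=
          (Subgroup.mem_normalizer_iff.mp (le_normalizer_qq p M (hAM ha)) q⁻¹).mp
            (Subgroup.inv_mem _ hq)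
        have h4 := (qq p M).mul_mem hq h3
        have h5 : q * (a * q⁻¹ * a⁻¹) = q * a * q⁻¹ * a⁻¹ := by group
        rw [← h5]
        exact h4
    rw [h1, Subgroup.mem_bot] at h2
    calc q * a = (q * a * q⁻¹ * a⁻¹) * (a * q) := by group
      _ = a * q := by rw [h2, one_mul]
  have hloc : IsPLoc p (Subgroup.normalizer (opIn p A : Set G)) :=
    ⟨opIn p A, opIn_isPGroup p A, hB, rfl⟩
  have h5 := hM.2 _ hloc (hMA.trans (normalizer_le_normalizer_opIn p A))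
  exact le_antisymm ((normalizer_le_normalizer_opIn p A).trans h5.le) hMA

lemma cj_isPLoc {p : ℕ} (x : G) {L : Subgroup G} (h : IsPLoc p L) : IsPLoc p (cj x L) := by
  obtain ⟨T, hT, hT1, rfl⟩ := h
  refine ⟨cj x T, hT.map _, ?_, (normalizer_cj x T).symm⟩
  intro hbot
  apply hT1
  unfold cj at hbot
  exact (Subgroup.map_eq_bot_iff_of_injective _ (MulEquiv.injective _)).mp hbot

lemma cj_isMaxPLoc {p : ℕ} (x : G) {M : Subgroup G} (h : IsMaxPLoc p M) :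
    IsMaxPLoc p (cj x M) := by
  refine ⟨cj_isPLoc x h.1, fun L hL hML => ?_⟩
  have h1 : M ≤ cj x⁻¹ L := by
    intro m hm
    rw [mem_cj]
    simp only [inv_inv]
    apply hML
    rw [mem_cj]
    simpa [mul_assoc] using hm
  have h2 := h.2 _ (cj_isPLoc x⁻¹ hL) h1
  rw [← h2, cj_cj_inv]

lemma exists_max_ploc [Finite G] {p : ℕ} {L : Subgroup G} (hL : IsPLoc p L) :
    ∃ M : Subgroup G, IsMaxPLoc p M ∧ L ≤ M := by
  have : Nonempty {M : Subgroup G // IsPLoc p M ∧ L ≤ M} := ⟨⟨L, hL, le_rfl⟩⟩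
  obtain ⟨⟨M, hM, hLM⟩, hmax⟩ :=
    Finite.exists_max (fun M : {M : Subgroup G // IsPLoc p M ∧ L ≤ M} => Nat.card M.1)
  refine ⟨M, ⟨hM, fun L' hL' hML' => ?_⟩, hLM⟩
  exact (Subgroup.eq_of_le_of_card_ge hML' (hmax ⟨L', hL', hLM.trans hML'⟩)).symm

lemma exists_lt_normalizer [Finite G] {p : ℕ} [Fact p.Prime] {S R : Subgroup G}
    (hR : IsPGroup p R) (hSR : S < R) :
    ∃ S' : Subgroup G, S < S' ∧ S' ≤ R ∧ S' ≤ Subgroup.normalizer (S : Set G) := by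
  refine ⟨R ⊓ Subgroup.normalizer (S : Set G), ?_, inf_le_left, inf_le_right⟩
  refine lt_of_le_of_ne (le_inf hSR.le Subgroup.le_normalizer) ?_
  intro heq
  have : Group.IsNilpotent ↥R := hR.isNilpotent
  have hnc := Group.normalizerCondition_of_isNilpotent (G := ↥R)
  have h1 : S.subgroupOf R < ⊤ := by
    rw [lt_top_iff_ne_top]
    intro h
    rw [Subgroup.subgroupOf_eq_top] at h
    exact absurd h (not_le_of_gt hSR)
  have h2 := hnc _ h1
  obtain ⟨x, hx, hxS⟩ := SetLike.exists_of_lt h2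
  apply hxS
  rw [Subgroup.mem_subgroupOf, heq, Subgroup.mem_inf]
  refine ⟨x.2, ?_⟩
  rw [Subgroup.mem_normalizer_iff]
  intro n
  rw [Subgroup.mem_normalizer_iff] at hx
  constructor
  · intro hn
    have h3 := (hx ⟨n, hSR.le hn⟩).mp (by rw [Subgroup.mem_subgroupOf]; exact hn)
    rw [Subgroup.mem_subgroupOf] at h3
    simpa using h3
  · intro hn
    have hnR : n ∈ R := by
      have h3 : (x : G)⁻¹ * ((x : G) * n * (x : G)⁻¹) * (x : G) ∈ R :=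
        R.mul_mem (R.mul_mem (R.inv_mem x.2) (hSR.le hn)) x.2
      simpa [mul_assoc] using h3
    have h4 := (hx ⟨n, hnR⟩).mpr (by rw [Subgroup.mem_subgroupOf]; simpa using hn)
    rw [Subgroup.mem_subgroupOf] at h4
    exact h4

lemma self_normalizing [Finite G] {p : ℕ} [Fact p.Prime]
    (hloc : ∀ L : Subgroup G, IsPLoc p L → CharP p L) {M : Subgroup G} (hM : IsMaxPLoc p M) :
    Subgroup.normalizer (M : Set G) = M := by
  apply normalizer_eq_of_normal hM (hloc M hM.1) ?_ le_rfl Subgroup.le_normalizer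
  obtain ⟨T, hT, hT1, rfl⟩ := hM.1
  intro hbot
  apply hT1
  rw [eq_bot_iff, ← hbot]
  exact Subgroup.le_normalizer

lemma cj_ne [Finite G] {p : ℕ} [Fact p.Prime]
    (hloc : ∀ L : Subgroup G, IsPLoc p L → CharP p L) {M : Subgroup G} (hM : IsMaxPLoc p M)
    {x : G} (hx : x ∉ M) : cj x M ≠ M := by
  intro heq
  apply hx
  rw [← self_normalizing hloc hM, Subgroup.mem_normalizer_iff]
  intro n
  have h1 := fun y => mem_cj x y M
  rw [heq] at h1
  rw [h1 (x * n * x⁻¹)]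
  simp [mul_assoc]

lemma stepA [Finite G] {p : ℕ} [Fact p.Prime] (S : Subgroup G) (hS : IsPGroup p S)
    (hS1 : S ≠ ⊥)
    (m2 : ∀ (N₁ N₂ R : Subgroup G), IsMaxPLoc p N₁ → IsMaxPLoc p N₂ → N₁ ≠ N₂ →
      IsPGroup p R → R ≤ N₁ → R ≤ N₂ → Nat.card R ≤ Nat.card S)
    (N N' : Subgroup G) (hN : IsMaxPLoc p N) (hSN : S ≤ N) (hSN' : S ≤ N')
    (hQ : ¬ qq p N ≤ N') :
    Subgroup.normalizer (S : Set G) ≤ N ∧ ∃ S' : Subgroup G, IsPGroup p S' ∧ S < S' ∧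
      S' ≤ N ∧ S' ≤ Subgroup.normalizer (S : Set G) := by
  have hR : IsPGroup p (S ⊔ qq p N : Subgroup G) :=
    IsPGroup.to_sup_of_normal_right' hS (qq_isPGroup p N) (hSN.trans (le_normalizer_qq p N))
  have hlt : S < S ⊔ qq p N := by
    refine lt_of_le_of_ne le_sup_left (fun heq => hQ ?_)
    calc qq p N ≤ S ⊔ qq p N := le_sup_right
      _ = S := heq.symm
      _ ≤ N' := hSN'
  obtain ⟨S', hlt', hS'R, hS'N⟩ := exists_lt_normalizer hR hlt
  have hS' : IsPGroup p S' := hR.to_le hS'R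
  have hS'N1 : S' ≤ N := hS'R.trans (sup_le hSN (qq_le p N))
  obtain ⟨M₃, hM₃, hle⟩ :=
    exists_max_ploc (p := p) (L := Subgroup.normalizer (S : Set G)) ⟨S, hS, hS1, rfl⟩
  have hM₃N : M₃ = N := by
    by_contra hne
    have h1 := m2 N M₃ S' hN hM₃ (Ne.symm hne) hS' hS'N1 (hS'N.trans hle)
    exact absurd (Subgroup.eq_of_le_of_card_ge hlt'.le h1) (ne_of_lt hlt')
  exact ⟨hM₃N ▸ hle, S', hS', hlt', hS'N1, hS'N⟩

lemma final [Finite G] {p : ℕ} [Fact p.Prime]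
    (hloc : ∀ L : Subgroup G, IsPLoc p L → CharP p L)
    (S : Subgroup G) (hS : IsPGroup p S) (hS1 : S ≠ ⊥)
    (m2 : ∀ (N₁ N₂ R : Subgroup G), IsMaxPLoc p N₁ → IsMaxPLoc p N₂ → N₁ ≠ N₂ →
      IsPGroup p R → R ≤ N₁ → R ≤ N₂ → Nat.card R ≤ Nat.card S)
    (N N' : Subgroup G) (hN : IsMaxPLoc p N) (hN' : IsMaxPLoc p N') (hne : N ≠ N')
    (hSN : S ≤ N) (hSN' : S ≤ N') (hQ : qq p N ≤ N') (hQ' : ¬ qq p N' ≤ N) :
    ∃ M₁ M₂ : Subgroup G, M₁ ≠ M₂ ∧ IsMaxPLoc p M₁ ∧ IsMaxPLoc p M₂ ∧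
      qq p M₁ ⊔ qq p M₂ ≤ M₁ ⊓ M₂ := by
  have m1 : ∀ R : Subgroup G, IsPGroup p R → S ≤ R → R ≤ N → R ≤ N' → R = S := by
    intro R hR hSR hRN hRN'
    exact (Subgroup.eq_of_le_of_card_ge hSR (m2 N N' R hN hN' hne hR hRN hRN')).symm
  obtain ⟨hNS, S', hS', hlt', hS'N', hS'NS⟩ := stepA S hS hS1 m2 N' N hN' hSN' hSN hQ'
  have c1 : ∀ R : Subgroup G, IsPGroup p R → S ≤ R → R ≤ N → R = S := by
    intro R hR hSR hRN
    by_contra hneq
    have hlt : S < R := lt_of_le_of_ne hSR (Ne.symm hneq)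
    obtain ⟨S'', hlt'', hS''R, hS''N⟩ := exists_lt_normalizer hR hlt
    have h1 := m1 S'' (hR.to_le hS''R) hlt''.le (hS''R.trans hRN) (hS''N.trans hNS)
    exact absurd h1 (ne_of_gt hlt'')
  obtain ⟨x, hxS', hxS⟩ := SetLike.exists_of_lt hlt'
  have hxN : x ∈ Subgroup.normalizer (S : Set G) := hS'NS hxS'
  have hxnot : x ∉ N := by
    intro hxN'
    have h1 := c1 (S' ⊓ N) (hS'.to_le inf_le_left) (le_inf hlt'.le hSN) inf_le_right
    apply hxS
    rw [← h1]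
    exact ⟨hxS', hxN'⟩
  have hcj : IsMaxPLoc p (cj x N) := cj_isMaxPLoc x hN
  have hcjne : cj x N ≠ N := cj_ne hloc hN hxnot
  have c4 : qq p N ≤ S := by
    have h1 : IsPGroup p (S ⊔ qq p N : Subgroup G) :=
      IsPGroup.to_sup_of_normal_right' hS (qq_isPGroup p N) (hSN.trans (le_normalizer_qq p N))
    have h2 := c1 _ h1 le_sup_left (sup_le hSN (qq_le p N))
    rw [← h2]
    exact le_sup_right
  have c5 : S ≤ cj x N := by
    intro s hs
    rw [mem_cj]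
    apply hSN
    exact (Subgroup.mem_normalizer_iff''.mp hxN s).mp hs
  have c6 : qq p (cj x N) ≤ S := by
    have h1 : IsPGroup p (S ⊔ qq p (cj x N) : Subgroup G) :=
      IsPGroup.to_sup_of_normal_right' hS (qq_isPGroup p _) (c5.trans (le_normalizer_qq p _))
    have h2 : S ⊔ qq p (cj x N) ≤ cj x N := sup_le c5 (qq_le p _)
    have h3 : cj x⁻¹ (S ⊔ qq p (cj x N)) = S := by
      apply c1
      · exact h1.map _
      · intro s hs
        rw [mem_cj]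
        simp only [inv_inv]
        exact Subgroup.mem_sup_left ((Subgroup.mem_normalizer_iff.mp hxN s).mp hs)
      · intro y hy
        rw [mem_cj] at hy
        simp only [inv_inv] at hy
        have h4 := h2 hy
        rw [mem_cj] at h4
        simpa [mul_assoc] using h4
    intro n hn
    have h4 : x⁻¹ * n * x ∈ cj x⁻¹ (S ⊔ qq p (cj x N)) := by
      rw [mem_cj]
      simp only [inv_inv]
      have h5 : x * (x⁻¹ * n * x) * x⁻¹ = n := by group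
      rw [h5]
      exact Subgroup.mem_sup_right hn
    rw [h3] at h4
    exact (Subgroup.mem_normalizer_iff''.mp hxN n).mpr h4
  exact ⟨N, cj x N, hcjne.symm, hN, hcj,
    sup_le (le_inf (qq_le p N) (c4.trans c5)) (le_inf (c6.trans hSN) (qq_le p _))⟩

lemma main [Finite G] {p : ℕ} [Fact p.Prime]
    (hloc : ∀ L : Subgroup G, IsPLoc p L → CharP p L)
    (M : Subgroup G) (hM : IsMaxPLoc p M) (g : G) (hg : g ∉ M)
    (hdvd : p ∣ Nat.card ↥(M ⊓ cj g M)) :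
    ∃ M₁ M₂ : Subgroup G, M₁ ≠ M₂ ∧ IsMaxPLoc p M₁ ∧ IsMaxPLoc p M₂ ∧
      qq p M₁ ⊔ qq p M₂ ≤ M₁ ⊓ M₂ := by
  classical
  have hp : p.Prime := Fact.out
  obtain ⟨s, hs⟩ := exists_prime_orderOf_dvd_card' (G := ↥(M ⊓ cj g M)) p hdvd
  have hS₀card : Nat.card (Subgroup.zpowers (s : G)) = p := by
    rw [Nat.card_zpowers, Subgroup.orderOf_coe, hs]
  have hS₀ : IsPGroup p (Subgroup.zpowers (s : G)) :=
    IsPGroup.of_card (n := 1) (by rw [hS₀card, pow_one])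
  have hS₀M : Subgroup.zpowers (s : G) ≤ M := by
    rw [Subgroup.zpowers_le]
    exact s.2.1
  have hS₀M' : Subgroup.zpowers (s : G) ≤ cj g M := by
    rw [Subgroup.zpowers_le]
    exact s.2.2
  have : Nonempty {t : Subgroup G × Subgroup G × Subgroup G //
      IsMaxPLoc p t.1 ∧ IsMaxPLoc p t.2.1 ∧ t.1 ≠ t.2.1 ∧ IsPGroup p t.2.2 ∧
        t.2.2 ≤ t.1 ∧ t.2.2 ≤ t.2.1} :=
    ⟨⟨(M, cj g M, Subgroup.zpowers (s : G)), hM, cj_isMaxPLoc g hM,
      (cj_ne hloc hM hg).symm, hS₀, hS₀M, hS₀M'⟩⟩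
  obtain ⟨⟨⟨M₁, M₂, S⟩, hM₁, hM₂, hne, hS, hSM₁, hSM₂⟩, hmax⟩ :=
    Finite.exists_max (fun t : {t : Subgroup G × Subgroup G × Subgroup G //
      IsMaxPLoc p t.1 ∧ IsMaxPLoc p t.2.1 ∧ t.1 ≠ t.2.1 ∧ IsPGroup p t.2.2 ∧
        t.2.2 ≤ t.1 ∧ t.2.2 ≤ t.2.1} => Nat.card t.1.2.2)
  simp only at hM₁ hM₂ hne hS hSM₁ hSM₂
  have m2 : ∀ (N₁ N₂ R : Subgroup G), IsMaxPLoc p N₁ → IsMaxPLoc p N₂ → N₁ ≠ N₂ →
      IsPGroup p R → R ≤ N₁ → R ≤ N₂ → Nat.card R ≤ Nat.card S :=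
    fun N₁ N₂ R h1 h2 h3 h4 h5 h6 => hmax ⟨(N₁, N₂, R), h1, h2, h3, h4, h5, h6⟩
  have hS1 : S ≠ ⊥ := by
    intro hbot
    have h1 := m2 M (cj g M) (Subgroup.zpowers (s : G)) hM (cj_isMaxPLoc g hM)
      (cj_ne hloc hM hg).symm hS₀ hS₀M hS₀M'
    rw [hbot, Subgroup.card_bot, hS₀card] at h1
    have h2 := hp.two_le
    omega
  by_cases h1 : qq p M₁ ≤ M₂ <;> by_cases h2 : qq p M₂ ≤ M₁
  · exact ⟨M₁, M₂, hne, hM₁, hM₂, sup_le (le_inf (qq_le _ _) h1) (le_inf h2 (qq_le _ _))⟩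
  · exact final hloc S hS hS1 m2 M₁ M₂ hM₁ hM₂ hne hSM₁ hSM₂ h1 h2
  · exact final hloc S hS hS1 m2 M₂ M₁ hM₂ hM₁ hne.symm hSM₂ hSM₁ h2 h1
  · obtain ⟨hN1, S', hS', hlt', hS'M₁, hS'NS⟩ := stepA S hS hS1 m2 M₁ M₂ hM₁ hSM₁ hSM₂ h1
    obtain ⟨hN2, _⟩ := stepA S hS hS1 m2 M₂ M₁ hM₂ hSM₂ hSM₁ h2
    have h3 := m2 M₁ M₂ S' hM₁ hM₂ hne hS' hS'M₁ (hS'NS.trans hN2)
    exact absurd (Subgroup.eq_of_le_of_card_ge hlt'.le h3) (ne_of_lt hlt')

/-- Two distinct subgroups M₁, M₂ of G form a primitive pair when, for {i, j} = {1, 2}, every non-trivial normal subgroup A of M_i contained in M₁ ∩ M₂ satisfies N_{M_j}(A) = M₁ ∩ M₂; the pair has characteristic p when moreover C_{M_i}(O_p(M_i)) ≤ O_p(M_i) for both i and O_p(M₁)O_p(M₂) ≤ M₁ ∩ M₂. Let G be a finite group, p a prime dividing its order, with O_p(G) = 1 and every p-local subgroup of characteristic p. Then either G has a primitive pair of characteristic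 p, or every maximal p-local subgroup M of G is strongly p-embedded in G: M is a proper subgroup, p divides its order, and for every g ∉ M the order of M ∩ gMg⁻¹ is prime to p. -/
theorem result {G : Type*} [Group G] [Finite G] {p : ℕ} [Fact p.Prime] (hloc : Cfsg.IsOfLocalCharacteristic p G) (hOp : Cfsg.pCore p G = ⊥) : (∃ M₁ M₂ : Subgroup G, M₁ ≠ M₂ ∧ (∀ A : Subgroup G, A ≠ ⊥ → A ≤ M₁ ⊓ M₂ → (M₁ ≤ Subgroup.normalizer (A : Set G) → M₂ ⊓ Subgroup.normalizer (A : Set G) = M₁ ⊓ M₂) ∧ (M₂ ≤ Subgroup.normalizer (A : Set G) → M₁ ⊓ Subgroup.normalizer (A : Set G) = M₁ ⊓ M₂)) ∧ Subgroup.centralizer (Cfsg.pCore p ↥M₁ : Set ↥M₁) ≤ Cfsg.pCore p ↥M₁ ∧ Subgroup.centralizer (Cfsg.pCore p ↥M₂ : Set ↥M₂) ≤ Cfsg.pCore p ↥M₂ ∧ (Cfsg.pCore p ↥M₁).map M₁.subtype ⊔ (Cfsg.pCore p ↥M₂).map M₂.subtype ≤ M₁ ⊓ M₂) ∨ (∀ M : Subgroup G, (∃ T : Subgroup G, IsPGroup p T ∧ T ≠ ⊥ ∧ M = Subgroup.normalizer (T : Set G))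 → (∀ L : Subgroup G, (∃ T : Subgroup G, IsPGroup p T ∧ T ≠ ⊥ ∧ L = Subgroup.normalizer (T : Set G)) → M ≤ L → L = M) → M ≠ ⊤ ∧ p ∣ Nat.card M ∧ ∀ g : G, g ∉ M → ¬ p ∣ Nat.card ↥(M ⊓ M.map (MulAut.conj g).toMonoidHom)) := by
  classical
  have hp : p.Prime := Fact.out
  have hlocP : ∀ L : Subgroup G, IsPLoc p L → CharP p L := by
    rintro L ⟨T, hT, hT1, rfl⟩
    exact hloc.2 T hT hT1
  refine or_iff_not_imp_right.mpr (fun hB => ?_)
  obtain ⟨M, hMloc, hMmax, hnot⟩ : ∃ M : Subgroup G,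
      (∃ T : Subgroup G, IsPGroup p T ∧ T ≠ ⊥ ∧ M = Subgroup.normalizer (T : Set G)) ∧
      (∀ L : Subgroup G, (∃ T : Subgroup G, IsPGroup p T ∧ T ≠ ⊥ ∧
        L = Subgroup.normalizer (T : Set G)) → M ≤ L → L = M) ∧
      ¬ (M ≠ ⊤ ∧ p ∣ Nat.card M ∧ ∀ g : G, g ∉ M →
        ¬ p ∣ Nat.card ↥(M ⊓ M.map (MulAut.conj g).toMonoidHom)) := by
    by_contra h
    apply hB
    intro M h1 h2
    by_contra h3
    exact h ⟨M, h1, h2, h3⟩
  have hM : IsMaxPLoc p M := ⟨hMloc, hMmax⟩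
  have hMtop : M ≠ ⊤ := by
    obtain ⟨T, hT, hT1, rfl⟩ := hMloc
    intro htop
    apply hT1
    have hTn : T.Normal := Subgroup.normalizer_eq_top_iff.mp htop
    rw [eq_bot_iff, ← hOp]
    exact le_sSup ⟨hTn, hT⟩
  have hpM : p ∣ Nat.card M := by
    obtain ⟨T, hT, hT1, rfl⟩ := hMloc
    obtain ⟨k, hk⟩ := IsPGroup.iff_card.mp hT
    have hk0 : k ≠ 0 := by
      rintro rfl
      rw [pow_zero] at hk
      exact hT1 (Subgroup.eq_bot_of_card_eq T hk)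
    have h1 : p ∣ Nat.card T := by
      rw [hk]
      exact dvd_pow_self p hk0
    exact h1.trans (Subgroup.card_dvd_of_le Subgroup.le_normalizer)
  obtain ⟨g, hg, hdvd⟩ : ∃ g : G, g ∉ M ∧
      p ∣ Nat.card ↥(M ⊓ M.map (MulAut.conj g).toMonoidHom) := by
    by_contra h
    apply hnot
    exact ⟨hMtop, hpM, fun g hg hd => h ⟨g, hg, hd⟩⟩
  obtain ⟨M₁, M₂, hne, hM₁, hM₂, hQ⟩ := main hlocP M hM g hg hdvd
  refine ⟨M₁, M₂, hne, ?_, hlocP M₁ hM₁.1, hlocP M₂ hM₂.1, hQ⟩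
  intro A hA hAle
  constructor
  · intro h
    rw [normalizer_eq_of_normal hM₁ (hlocP M₁ hM₁.1) hA (hAle.trans inf_le_left) h, inf_comm]
  · intro h
    rw [normalizer_eq_of_normal hM₂ (hlocP M₂ hM₂.1) hA (hAle.trans inf_le_right) h]

end Cfsg.Agent.S3751
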