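import Cfsg.Statements.S3752
import Cfsg.Agent.Lib.Helper29.Bender3

set_option autoImplicit false
open Cfsg
open Cfsg.Agent.Lib

namespace Cfsg.Agent.S3752

/-- Bender's Theorem on primitive pairs. Two distinct subgroups M₁, M₂ of G form a primitive pair when, for {i, j} = {1, 2}, every non-trivial normal subgroup A of M_i contained in M₁ ∩ M₂ satisfies N_{M_j}(A) = M₁ ∩ M₂; the pair has characteristic p when moreover C_{M_i}(O_p(M_i)) ≤ O_p(M_i) for both i and O_p(M₁)O_p(M₂) ≤ M₁ ∩ M₂. If (M₁, M₂) is a primitive pair of the finite group G with F*(M₁) ≤ M₂ and F*(M₂) ≤ M₁, then for some prime p the pair has characteristic p. -/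
theorem result {G : Type*} [Group G] [Finite G] (M₁ M₂ : Subgroup G) (hne : M₁ ≠ M₂) (hP : ∀ A : Subgroup G, A ≠ ⊥ → A ≤ M₁ ⊓ M₂ → (M₁ ≤ Subgroup.normalizer (A : Set G) → M₂ ⊓ Subgroup.normalizer (A : Set G) = M₁ ⊓ M₂) ∧ (M₂ ≤ Subgroup.normalizer (A : Set G) → M₁ ⊓ Subgroup.normalizer (A : Set G) = M₁ ⊓ M₂)) (h₁ : (Cfsg.generalizedFittingSubgroup ↥M₁).map M₁.subtype ≤ M₂) (h₂ : (Cfsg.generalizedFittingSubgroup ↥M₂).map M₂.subtype ≤ M₁) : ∃ p : ℕ, p.Prime ∧ Subgroup.centralizer (Cfsg.pCore p ↥M₁ : Set ↥M₁) ≤ Cfsg.pCore p ↥M₁ ∧ Subgroup.centralizer (Cfsg.pCore p ↥M₂ : Set ↥M₂) ≤ Cfsg.pCore p ↥M₂ ∧ (Cfsg.pCore p ↥M₁).map M₁.subtype ⊔ (Cfsg.pCore p ↥M₂).map M₂.subtype ≤ M₁ ⊓ M₂ := by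
  have hM : Helper29.PrimTo M₁ M₂ := by
    intro X hX hXI hn
    rw [(hP X hX hXI).1 hn]; exact inf_le_left
  have hN : Helper29.PrimTo M₂ M₁ := by
    intro X hX hXI hn
    have hXI' : X ≤ M₁ ⊓ M₂ := by rw [inf_comm]; exact hXI
    rw [(hP X hX hXI').2 hn]; exact inf_le_right
  obtain ⟨p, hp, hp1, hp2⟩ := Helper29.bender_prim_pair M₁ M₂ hM hN hne h₁ h₂
  have : Fact p.Prime := ⟨hp⟩
  have key : ∀ (M : Subgroup G), IsPGroup p ↥(generalizedFittingSubgroup ↥M) →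
      Subgroup.centralizer (pCore p ↥M : Set ↥M) ≤ pCore p ↥M := by
    intro M hM1
    have hle : generalizedFittingSubgroup ↥M ≤ pCore p ↥M :=
      Helper30.le_pCore_of_normal Helper30.genFitting_normal hM1
    have hge : pCore p ↥M ≤ generalizedFittingSubgroup ↥M :=
      (Helper30.pCore_le_fitting p).trans le_sup_right
    have heq := le_antisymm hle hge
    rw [← heq]; exact Helper30.centralizer_genFitting_le
  refine ⟨p, hp, key M₁ hp1, key M₂ hp2, ?_⟩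
  apply sup_le
  · apply le_inf (Subgroup.map_subtype_le _)
    exact (Subgroup.map_mono ((Helper30.pCore_le_fitting p).trans le_sup_right)).trans h₁
  · refine le_inf ?_ (Subgroup.map_subtype_le _)
    exact (Subgroup.map_mono ((Helper30.pCore_le_fitting p).trans le_sup_right)).trans h₂

end Cfsg.Agent.S3752
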