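import Cfsg.Statements.S3754
import Mathlib
import Cfsg.Agent.S3783
import Cfsg.Agent.Lib.Helper72.Frattini

set_option autoImplicit false
open Cfsg
open scoped Pointwise
open scoped commutatorElement

universe u

namespace Cfsg.Agent.S3754

/-! ### Stabilizers for an action by automorphisms -/

/-- the stabilizer of a point -/
def stab {A Q : Type*} [Group A] [Group Q] (ρ : A →* MulAut Q) (q : Q) : Subgroup A where
  carrier := {a | ρ a q = q}
  mul_mem' := by
    intro a b ha hb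
    have ha' : ρ a q = q := ha
    have hb' : ρ b q = q := hb
    show ρ (a * b) q = q
    rw [map_mul, MulAut.mul_apply, hb', ha']
  one_mem' := by
    show ρ 1 q = q
    rw [map_one]; rfl
  inv_mem' := by
    intro a ha
    have ha' : ρ a q = q := ha
    show ρ a⁻¹ q = q
    calc ρ a⁻¹ q = (ρ a)⁻¹ (ρ a q) := by rw [ha', map_inv]
      _ = q := MulAut.inv_apply_self _ _ _

theorem mem_stab {A Q : Type*} [Group A] [Group Q] (ρ : A →* MulAut Q) (q : Q) (a : A) :
    a ∈ stab ρ q ↔ ρ a q = q := Iff.rfl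

/-! ### The abelian case -/

section abelian

variable {V : Type*} [CommGroup V] {p : ℕ} [hp : Fact p.Prime]

/-- the norm over the powers of an automorphism -/
noncomputable def nrm (p : ℕ) [Fact p.Prime] (γ : MulAut V) (v : V) : V :=
  ∏ j : ZMod p, (γ ^ j.val) v

theorem nrm_fixed (γ : MulAut V) (hγ : γ ^ p = 1) (v : V) : γ (nrm p γ v) = nrm p γ v := by
  unfold nrm
  rw [map_prod]
  have h1 : ∀ j : ZMod p, γ ((γ ^ j.val) v) = (γ ^ (j + 1).val) v := by
    intro j
    have e : γ ^ (j + 1).val = γ ^ (j.val + 1) := by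
      rw [ZMod.val_add, ZMod.val_one, ← pow_eq_pow_mod _ hγ]
    rw [e, pow_succ', MulAut.mul_apply]
  simp_rw [h1]
  exact Fintype.prod_equiv (Equiv.addRight (1 : ZMod p)) _ _ (fun j => rfl)

theorem nrm_comm (γ δ : MulAut V) (hc : Commute δ γ) (v : V) :
    δ (nrm p γ v) = nrm p γ (δ v) := by
  unfold nrm
  rw [map_prod]
  apply Finset.prod_congr rfl
  intro j _
  have h1 : δ * γ ^ j.val = γ ^ j.val * δ := (hc.pow_right _).eq
  calc δ ((γ ^ j.val) v) = (δ * γ ^ j.val) v := rfl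
    _ = (γ ^ j.val * δ) v := by rw [h1]
    _ = (γ ^ j.val) (δ v) := rfl

/-- the norm identity for `C_p × C_p` -/
theorem nrm_identity (α β : MulAut V) (hc : Commute α β) (hβ : β ^ p = 1) (v : V) :
    (∏ i : ZMod p, nrm p (α * β ^ i.val) v) * nrm p β v = v ^ p * nrm p α (nrm p β v) := by
  have h1 : ∀ i j : ZMod p, ((α * β ^ i.val) ^ j.val) v = (α ^ j.val) ((β ^ (i.val * j.val)) v) := by
    intro i j
    rw [(hc.pow_right _).mul_pow, ← pow_mul]
    rfl
  have h2 : (∏ i : ZMod p, nrm p (α * β ^ i.val) v)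
      = ∏ j : ZMod p, (α ^ j.val) (∏ i : ZMod p, (β ^ (i.val * j.val)) v) := by
    unfold nrm
    simp_rw [h1]
    rw [Finset.prod_comm]
    apply Finset.prod_congr rfl
    intro j _
    rw [map_prod]
  have h3 : ∀ j : ZMod p, j ≠ 0 → (∏ i : ZMod p, (β ^ (i.val * j.val)) v) = nrm p β v := by
    intro j hj
    unfold nrm
    have h4 : ∀ i : ZMod p, (β ^ (i.val * j.val)) v = (β ^ (i * j).val) v := by
      intro i
      rw [ZMod.val_mul, ← pow_eq_pow_mod _ hβ]
    simp_rw [h4]
    exact Fintype.prod_equiv (Equiv.mulRight₀ j hj) _ _ (fun i => rfl)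
  have h5 : (∏ i : ZMod p, (β ^ (i.val * (0 : ZMod p).val)) v) = v ^ p := by
    simp only [ZMod.val_zero, mul_zero, pow_zero]
    rw [Finset.prod_const, Finset.card_univ, ZMod.card]
    rfl
  rw [h2, Fintype.prod_eq_mul_prod_compl (0 : ZMod p), h5]
  have h6 : nrm p α (nrm p β v)
      = nrm p β v * ∏ j ∈ ({0} : Finset (ZMod p))ᶜ, (α ^ j.val) (nrm p β v) := by
    conv_lhs => unfold nrm
    rw [Fintype.prod_eq_mul_prod_compl (0 : ZMod p)]
    simp only [ZMod.val_zero, pow_zero]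
    rfl
  have h7 : ∏ j ∈ ({0} : Finset (ZMod p))ᶜ, (α ^ j.val) (∏ i : ZMod p, (β ^ (i.val * j.val)) v)
      = ∏ j ∈ ({0} : Finset (ZMod p))ᶜ, (α ^ j.val) (nrm p β v) := by
    apply Finset.prod_congr rfl
    intro j hj
    rw [Finset.mem_compl, Finset.mem_singleton] at hj
    rw [h3 j hj]
  rw [h6, h7]
  simp only [ZMod.val_zero, pow_zero]
  have h8 : (1 : MulAut V) (v ^ p) = v ^ p := rfl
  rw [h8]
  exact mul_right_comm _ _ _ |>.trans (by rw [mul_assoc])


theorem abelian_case {A : Type*} [Group A] [Finite A] [Finite V]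
    (hA : IsPGroup p A) (hV : (Nat.card V).Coprime p)
    (ρ : A →* MulAut V) (hc : ∀ a b : A, ρ a * ρ b = ρ b * ρ a) (hpow : ∀ a : A, ρ a ^ p = 1)
    (hnt : ∃ a, ρ a ≠ 1) : ∃ v : V, (stab ρ v).index = p := by
  by_contra hno
  push Not at hno
  have hne : {v : V | stab ρ v ≠ ⊤}.Nonempty := by
    obtain ⟨a, ha⟩ := hnt
    by_contra hemp
    rw [Set.not_nonempty_iff_eq_empty] at hemp
    apply ha
    ext v
    have h1 : v ∉ {v : V | stab ρ v ≠ ⊤} := by rw [hemp]; exact Set.notMem_empty v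
    simp only [Set.mem_setOf_eq, not_not] at h1
    have h2 : a ∈ stab ρ v := by rw [h1]; trivial
    exact h2
  obtain ⟨v, hv, hmax⟩ :=
    Set.exists_max_image _ (fun v => Nat.card (stab ρ v)) (Set.toFinite _) hne
  have hvtop : stab ρ v ≠ ⊤ := hv
  have key : ∀ w : V, stab ρ v ≤ stab ρ w → (∃ g, g ∈ stab ρ w ∧ g ∉ stab ρ v) →
      ∀ a, ρ a w = w := by
    intro w hle ⟨g, hg, hgv⟩
    by_contra hcon
    push Not at hcon
    obtain ⟨a, ha⟩ := hcon
    have hw : w ∈ {v : V | stab ρ v ≠ ⊤} := by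
      intro htop
      apply ha
      have h1 : a ∈ stab ρ w := by rw [htop]; trivial
      exact h1
    have h1 : Nat.card (stab ρ w) ≤ Nat.card (stab ρ v) := hmax w hw
    have h2 : stab ρ v = stab ρ w := Subgroup.eq_of_le_of_card_ge hle h1
    exact hgv (h2 ▸ hg)
  obtain ⟨b, hb⟩ : ∃ b, b ∉ stab ρ v := by
    by_contra hcon
    push Not at hcon
    exact hvtop (eq_top_iff.2 fun x _ => hcon x)
  obtain ⟨a, ha⟩ : ∃ a, ∀ i : ZMod p, b ^ i.val * a ∉ stab ρ v := by
    by_contra hcon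
    push Not at hcon
    apply hno v
    have hsurj : Function.Surjective
        (fun i : ZMod p => (QuotientGroup.mk ((b ^ i.val)⁻¹) : A ⧸ stab ρ v)) := by
      intro x
      obtain ⟨a, rfl⟩ := QuotientGroup.mk_surjective x
      obtain ⟨i, hi⟩ := hcon a
      refine ⟨i, QuotientGroup.eq.2 ?_⟩
      rw [inv_inv]; exact hi
    have hle : (stab ρ v).index ≤ p := by
      have h1 := Nat.card_le_card_of_surjective _ hsurj
      rw [Nat.card_zmod] at h1
      exact h1
    have hdvd : (stab ρ v).index ∣ Nat.card A := Subgroup.index_dvd_card _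
    obtain ⟨n, hn⟩ := IsPGroup.iff_card.1 hA
    rw [hn] at hdvd
    obtain ⟨m, hm, hidx⟩ := (Nat.dvd_prime_pow hp.out).1 hdvd
    have hm1 : m ≠ 0 := by
      rintro rfl
      rw [pow_zero] at hidx
      exact hvtop (Subgroup.index_eq_one.1 hidx)
    have hm2 : m ≤ 1 := by
      by_contra h
      push Not at h
      have h1 : p ^ 2 ≤ p ^ m := Nat.pow_le_pow_right hp.out.pos h
      rw [← hidx] at h1
      have h2 := hp.out.one_lt
      nlinarith
    have hm3 : m = 1 := by omega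
    rw [hidx, hm3, pow_one]
  have hαβ : Commute (ρ a) (ρ b) := hc a b
  have hid := nrm_identity (p := p) (ρ a) (ρ b) hαβ (hpow b) v
  have hCfix : ∀ c ∈ stab ρ v, ∀ γ : MulAut V, Commute (ρ c) γ →
      ρ c (nrm p γ v) = nrm p γ v := by
    intro c hcC γ hγ
    rw [nrm_comm γ (ρ c) hγ]
    congr 1
  have f1 : ∀ i : ZMod p, ∀ g : A,
      ρ g (nrm p (ρ a * ρ b ^ i.val) v) = nrm p (ρ a * ρ b ^ i.val) v := by
    intro i
    have e : ρ a * ρ b ^ i.val = ρ (b ^ i.val * a) := by
      rw [map_mul, map_pow]; exact (hαβ.pow_right _).eq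
    rw [e]
    apply key
    · intro c hcC
      exact hCfix c hcC _ (hc c _)
    · exact ⟨b ^ i.val * a, nrm_fixed _ (hpow _) v, ha i⟩
  have f2 : ∀ g : A, ρ g (nrm p (ρ b) v) = nrm p (ρ b) v := by
    apply key
    · intro c hcC
      exact hCfix c hcC _ (hc c _)
    · exact ⟨b, nrm_fixed _ (hpow b) v, hb⟩
  have f3 : ∀ g : A, ρ g (nrm p (ρ a) (nrm p (ρ b) v)) = nrm p (ρ a) (nrm p (ρ b) v) := by
    intro g
    rw [nrm_comm (ρ a) (ρ g) (hc g a), f2 g]
  apply hvtop
  rw [eq_top_iff]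
  intro g _
  show ρ g v = v
  have h1 : ρ g (v ^ p * nrm p (ρ a) (nrm p (ρ b) v)) = v ^ p * nrm p (ρ a) (nrm p (ρ b) v) := by
    rw [← hid, map_mul, map_prod, f2 g]
    congr 1
    exact Finset.prod_congr rfl (fun i _ => f1 i g)
  rw [map_mul, f3 g, mul_left_inj, map_pow] at h1
  exact (powCoprime hV).injective h1

end abelian


/-! ### Restriction and abelianization of an action -/

/-- restriction of an action to an invariant subgroup -/
def res {A Q : Type*} [Group A] [Group Q] (ρ : A →* MulAut Q) (S : Subgroup Q)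
    (hS : ∀ a : A, ∀ s ∈ S, ρ a s ∈ S) : A →* MulAut S where
  toFun a :=
    { toFun := fun s => ⟨ρ a s, hS a s s.2⟩
      invFun := fun s => ⟨ρ a⁻¹ s, hS a⁻¹ s s.2⟩
      left_inv := by
        intro s
        apply Subtype.ext
        show ρ a⁻¹ (ρ a s) = s
        rw [map_inv]; exact MulAut.inv_apply_self _ _ _
      right_inv := by
        intro s
        apply Subtype.ext
        show ρ a (ρ a⁻¹ s) = s
        rw [map_inv]; exact MulAut.apply_inv_self _ _ _
      map_mul' := by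
        intro s t
        apply Subtype.ext
        show ρ a (s * t) = ρ a s * ρ a t
        exact map_mul _ _ _ }
  map_one' := by
    apply MulEquiv.ext
    intro s
    apply Subtype.ext
    show ρ 1 s = s
    rw [map_one]; rfl
  map_mul' := by
    intro a b
    apply MulEquiv.ext
    intro s
    apply Subtype.ext
    show ρ (a * b) s = ρ a (ρ b s)
    rw [map_mul]; rfl

theorem res_apply {A Q : Type*} [Group A] [Group Q] (ρ : A →* MulAut Q) (S : Subgroup Q)
    (hS : ∀ a : A, ∀ s ∈ S, ρ a s ∈ S) (a : A) (s : S) :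
    ((res ρ S hS a s : S) : Q) = ρ a s := rfl

/-- the induced action on the abelianization -/
noncomputable def ab {A Q : Type*} [Group A] [Group Q] (ρ : A →* MulAut Q) :
    A →* MulAut (Abelianization Q) where
  toFun a := (ρ a).abelianizationCongr
  map_one' := by
    apply MulEquiv.ext
    intro v
    obtain ⟨r, rfl⟩ := Cfsg.Agent.S3783.of_surj v
    rw [abelianizationCongr_of, map_one]; rfl
  map_mul' := by
    intro g h
    apply MulEquiv.ext
    intro v
    obtain ⟨r, rfl⟩ := Cfsg.Agent.S3783.of_surj v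
    rw [abelianizationCongr_of, map_mul, MulAut.mul_apply, MulAut.mul_apply,
      abelianizationCongr_of, abelianizationCongr_of]

theorem ab_of {A Q : Type*} [Group A] [Group Q] (ρ : A →* MulAut Q) (a : A) (q : Q) :
    ab ρ a (Abelianization.of q) = Abelianization.of (ρ a q) :=
  abelianizationCongr_of _ _

theorem ab_congr {A Q : Type*} [Group A] [Group Q] (ρ : A →* MulAut Q) (a b : A)
    (h : ρ a = ρ b) : ab ρ a = ab ρ b := by
  show (ρ a).abelianizationCongr = (ρ b).abelianizationCongr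
  rw [h]

/-! ### The orbit of length `p` -/

theorem exists_stab_index {p : ℕ} [hp : Fact p.Prime] {A : Type*} [Group A] [Finite A]
    (hA : IsPGroup p A) :
    ∀ (n : ℕ) (Q : Type u) [Group Q] [Finite Q], Nat.card Q = n → (Nat.card Q).Coprime p →
      ∀ ρ : A →* MulAut Q, (∀ a b : A, ρ a * ρ b = ρ b * ρ a) → (∀ a : A, ρ a ^ p = 1) →
        (∃ a, ρ a ≠ 1) → ∃ q : Q, (stab ρ q).index = p := by
  intro n
  induction n using Nat.strong_induction_on with
  | _ n ih =>
  intro Q _ _ hn hcop ρ hc hpow hnt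
  have hinj : ∀ x : Q, x ^ p = 1 → x = 1 := fun x hx =>
    (powCoprime hcop).injective (by show x ^ p = 1 ^ p; rw [hx, one_pow])
  by_cases hab : ∃ a, ab ρ a ≠ 1
  · -- the action on the abelianization is nontrivial
    have hcopab : (Nat.card (Abelianization Q)).Coprime p :=
      Nat.Coprime.coprime_dvd_left (Subgroup.card_quotient_dvd_card _) hcop
    have hc' : ∀ a b : A, ab ρ a * ab ρ b = ab ρ b * ab ρ a := by
      intro a b
      rw [← map_mul, ← map_mul]
      exact ab_congr ρ _ _ (by rw [map_mul, map_mul, hc])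
    have hpow' : ∀ a : A, ab ρ a ^ p = 1 := by
      intro a
      rw [← map_pow, ← (ab ρ).map_one]
      exact ab_congr ρ _ _ (by rw [map_pow, hpow, map_one])
    obtain ⟨vbar, hvbar⟩ := abelian_case hA hcopab (ab ρ) hc' hpow' hab
    obtain ⟨q₀, hq₀⟩ := Cfsg.Agent.S3783.of_surj vbar
    have hB : IsPGroup p (stab (ab ρ) vbar) := hA.to_subgroup _
    have hFinv : ∀ b ∈ stab (ab ρ) vbar, ∀ q ∈ {q : Q | Abelianization.of q = vbar},
        ρ b q ∈ {q : Q | Abelianization.of q = vbar} := by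
      intro b hb q hq
      show Abelianization.of (ρ b q) = vbar
      rw [← ab_of, show Abelianization.of q = vbar from hq]; exact hb
    letI : MulAction (stab (ab ρ) vbar) {q : Q | Abelianization.of q = vbar} :=
      { smul := fun b f => ⟨ρ b.1 f.1, hFinv b.1 b.2 f.1 f.2⟩
        one_smul := by
          intro f
          apply Subtype.ext
          show ρ (1 : A) f.1 = f.1
          rw [map_one]; rfl
        mul_smul := by
          intro b c f
          apply Subtype.ext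
          show ρ (b.1 * c.1) f.1 = ρ b.1 (ρ c.1 f.1)
          rw [map_mul]; rfl }
    have hcardF : ¬ p ∣ Nat.card {q : Q | Abelianization.of q = vbar} := by
      have e : {q : Q | Abelianization.of q = vbar} ≃ (commutator Q) :=
        { toFun := fun f => ⟨q₀⁻¹ * f.1, by
            rw [← Abelianization.ker_of, MonoidHom.mem_ker, map_mul, map_inv,
              show Abelianization.of f.1 = vbar from f.2, hq₀, inv_mul_cancel]⟩
          invFun := fun k => ⟨q₀ * k.1, by
            have hk : Abelianization.of k.1 = 1 := by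
              rw [← MonoidHom.mem_ker, Abelianization.ker_of]; exact k.2
            show Abelianization.of (q₀ * k.1) = vbar
            rw [map_mul, hq₀, hk, mul_one]⟩
          left_inv := by
            intro f
            apply Subtype.ext
            show q₀ * (q₀⁻¹ * f.1) = f.1
            rw [mul_inv_cancel_left]
          right_inv := by
            intro k
            apply Subtype.ext
            show q₀⁻¹ * (q₀ * k.1) = k.1
            rw [inv_mul_cancel_left] }
      rw [Nat.card_congr e]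
      intro hdvd
      exact (Nat.Prime.coprime_iff_not_dvd hp.out).1 hcop.symm
        (hdvd.trans (Subgroup.card_subgroup_dvd_card _))
    obtain ⟨f, hf⟩ := hB.nonempty_fixed_point_of_prime_not_dvd_card
      {q : Q | Abelianization.of q = vbar} hcardF
    refine ⟨f.1, ?_⟩
    have hst : stab ρ f.1 = stab (ab ρ) vbar := by
      ext a
      constructor
      · intro ha
        show ab ρ a vbar = vbar
        have h1 : Abelianization.of f.1 = vbar := f.2
        rw [← h1, ab_of, show ρ a f.1 = f.1 from ha]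
      · intro ha
        exact congrArg Subtype.val (hf ⟨a, ha⟩)
    rw [hst]; exact hvbar
  · push Not at hab
    by_cases hB : ∃ S : Subgroup Q, S ≠ ⊤ ∧ ∃ hS : (∀ a : A, ∀ s ∈ S, ρ a s ∈ S),
        ∃ a, ∃ s ∈ S, ρ a s ≠ s
    · obtain ⟨S, hStop, hS, a, s, hs, has⟩ := hB
      have hlt : Nat.card S < n := by
        rw [← hn]
        apply lt_of_le_of_ne (Subgroup.card_le_card_group S)
        intro h
        exact hStop ((Subgroup.card_eq_iff_eq_top S).1 h)
      have hcopS : (Nat.card S).Coprime p :=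
        Nat.Coprime.coprime_dvd_left (Subgroup.card_subgroup_dvd_card S) hcop
      obtain ⟨q, hq⟩ := ih (Nat.card S) hlt S rfl hcopS (res ρ S hS)
        (fun a b => by
          apply MulEquiv.ext
          intro t
          apply Subtype.ext
          show ρ a (ρ b t) = ρ b (ρ a t)
          have h1 := hc a b
          calc ρ a (ρ b t) = (ρ a * ρ b) t := rfl
            _ = (ρ b * ρ a) t := by rw [h1]
            _ = ρ b (ρ a t) := rfl)
        (fun a => by
          rw [← map_pow]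
          apply MulEquiv.ext
          intro t
          apply Subtype.ext
          show ρ (a ^ p) t = t
          rw [map_pow, hpow]; rfl)
        ⟨a, fun h => has (by
          have h1 : ((res ρ S hS a ⟨s, hs⟩ : S) : Q) = s := by rw [h]; rfl
          exact h1)⟩
      refine ⟨q.1, ?_⟩
      have hst : stab ρ q.1 = stab (res ρ S hS) q := by
        ext x
        exact ⟨fun h => Subtype.ext h, fun h => congrArg Subtype.val h⟩
      rw [hst]; exact hq
    · exfalso
      push Not at hB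
      obtain ⟨a, ha⟩ := hnt
      apply ha
      by_cases hcomm : commutator Q = ⊤
      · -- perfect: use invariant Sylow subgroups
        have hnontriv : Nontrivial Q := by
          by_contra hnt'
          rw [not_nontrivial_iff_subsingleton] at hnt'
          apply ha
          ext q
          exact Subsingleton.elim _ _
        have hfix : MonoidHom.eqLocus (ρ a).toMonoidHom (MonoidHom.id Q) = ⊤ := by
          apply Subgroup.eq_top_of_card_eq
          apply Nat.dvd_antisymm (Subgroup.card_subgroup_dvd_card _)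
          have hQ0 : Nat.card Q ≠ 0 := Nat.card_pos.ne'
          have hF0 : Nat.card (MonoidHom.eqLocus (ρ a).toMonoidHom (MonoidHom.id Q)) ≠ 0 :=
            Nat.card_pos.ne'
          rw [← Nat.factorization_le_iff_dvd hQ0 hF0]
          intro ℓ
          by_cases hℓ : ℓ.Prime
          · haveI : Fact ℓ.Prime := ⟨hℓ⟩
            letI : MulAction A (Sylow ℓ Q) := MulAction.compHom (Sylow ℓ Q) ρ
            have hcard : ¬ p ∣ Nat.card (Sylow ℓ Q) := by
              obtain ⟨Q₀⟩ : Nonempty (Sylow ℓ Q) := inferInstance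
              intro h
              exact (Nat.Prime.coprime_iff_not_dvd hp.out).1 hcop.symm
                (h.trans ((Sylow.card_dvd_index Q₀).trans (Subgroup.index_dvd_card _)))
            obtain ⟨S, hS⟩ := hA.nonempty_fixed_point_of_prime_not_dvd_card (Sylow ℓ Q) hcard
            have hSinv : ∀ x : A, ∀ s ∈ (S : Subgroup Q), ρ x s ∈ (S : Subgroup Q) := by
              intro x s hs
              have h1 : (ρ x) • S = S := hS x
              have h2 : (ρ x) • s ∈ (ρ x) • (S : Subgroup Q) :=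
                Subgroup.smul_mem_pointwise_smul _ _ _ hs
              rw [← Sylow.pointwise_smul_def, h1] at h2
              exact h2
            have hStop : (S : Subgroup Q) ≠ ⊤ := by
              intro htop
              have hQℓ : IsPGroup ℓ Q := by
                have h1 := S.isPGroup'
                rw [htop] at h1
                exact IsPGroup.of_surjective h1 (Subgroup.topEquiv : (⊤ : Subgroup Q) ≃* Q).toMonoidHom
                  (Subgroup.topEquiv : (⊤ : Subgroup Q) ≃* Q).surjective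
              haveI : Group.IsNilpotent Q := hQℓ.isNilpotent
              exact (Group.IsSolvable.commutator_lt_top_of_nontrivial Q).ne hcomm
            have hSfix := hB (S : Subgroup Q) hStop hSinv a
            have hle : (S : Subgroup Q) ≤ MonoidHom.eqLocus (ρ a).toMonoidHom (MonoidHom.id Q) := by
              intro s hs
              exact hSfix s hs
            have h3 := Subgroup.card_dvd_of_le hle
            rw [S.card_eq_multiplicity] at h3
            exact (Nat.Prime.pow_dvd_iff_le_factorization hℓ hF0).1 h3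
          · rw [Nat.factorization_eq_zero_of_not_prime _ hℓ]
            exact Nat.zero_le _
        ext q
        have h1 : q ∈ MonoidHom.eqLocus (ρ a).toMonoidHom (MonoidHom.id Q) := by
          rw [hfix]; trivial
        exact h1
      · -- the derived subgroup is proper, invariant, hence fixed pointwise
        have hSinv : ∀ x : A, ∀ s ∈ commutator Q, ρ x s ∈ commutator Q := by
          intro x s hs
          exact (Subgroup.characteristic_iff_le_comap.1 inferInstance (ρ x)) hs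
        have hSfix := hB (commutator Q) hcomm hSinv a
        ext q
        show ρ a q = q
        obtain ⟨c, hcdef⟩ : ∃ c, c = ρ a q * q⁻¹ := ⟨_, rfl⟩
        have hcmem : c ∈ commutator Q := by
          rw [← Abelianization.ker_of, MonoidHom.mem_ker, hcdef, map_mul, map_inv, ← ab_of, hab a]
          exact mul_inv_cancel _
        have hcfix : ρ a c = c := hSfix c hcmem
        have hq : ρ a q = c * q := by rw [hcdef, inv_mul_cancel_right]
        have hiter : ∀ i : ℕ, (ρ a ^ i) q = c ^ i * q := by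
          intro i
          induction i with
          | zero => simp
          | succ i ih' =>
            rw [pow_succ', MulAut.mul_apply, ih', map_mul, map_pow, hcfix, hq, pow_succ, mul_assoc]
        have h1 := hiter p
        rw [hpow] at h1
        have h2 : c ^ p = 1 := by
          have h3 : q = c ^ p * q := h1
          exact (mul_eq_right.1 h3.symm)
        rw [hq, hinj c h2, one_mul]


/-! ### General lemmas -/

/-- a `p'`-element of `T A`, `A` a `p`-group normalizing `T`, lies in `T` -/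
theorem mem_of_coprime_of_mem_sup {M : Type*} [Group M] {p : ℕ} [Fact p.Prime]
    (T A : Subgroup M) (hA : IsPGroup p A) (hnorm : ∀ a ∈ A, ∀ t ∈ T, a * t * a⁻¹ ∈ T)
    (g : M) (hg : g ∈ T ⊔ A) (hcop : (orderOf g).Coprime p) : g ∈ T := by
  have hdecomp : ∀ w ∈ T ⊔ A, ∃ t ∈ T, ∃ a ∈ A, w = t * a := by
    have hle : A ≤ Subgroup.normalizer (T : Set M) := by
      intro a ha
      rw [Subgroup.mem_normalizer_iff]
      intro t
      constructor
      · exact hnorm a ha t
      · intro h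
        have h1 := hnorm a⁻¹ (A.inv_mem ha) _ h
        have e : a⁻¹ * (a * t * a⁻¹) * a⁻¹⁻¹ = t := by group
        rwa [e] at h1
    intro w hw
    have h1 : w ∈ ((T ⊔ A : Subgroup M) : Set M) := hw
    rw [Subgroup.coe_mul_of_right_le_normalizer_left T A hle] at h1
    obtain ⟨t, ht, a, ha, rfl⟩ := Set.mem_mul.1 h1
    exact ⟨t, ht, a, ha, rfl⟩
  have hpowd : ∀ t ∈ T, ∀ a ∈ A, ∀ n : ℕ, ∃ t' ∈ T, (t * a) ^ n = t' * a ^ n := by
    intro t ht a ha n
    induction n with
    | zero => exact ⟨1, T.one_mem, by simp⟩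
    | succ n ih =>
      obtain ⟨t', ht', h⟩ := ih
      refine ⟨t' * (a ^ n * t * (a ^ n)⁻¹), T.mul_mem ht' (hnorm _ (A.pow_mem ha n) t ht), ?_⟩
      rw [pow_succ, h, pow_succ]; group
  obtain ⟨t, ht, a, ha, rfl⟩ := hdecomp g hg
  obtain ⟨k, hk⟩ := hA ⟨a, ha⟩
  have hk' : a ^ p ^ k = 1 := congrArg Subtype.val hk
  obtain ⟨t', ht', h⟩ := hpowd t ht a ha (p ^ k)
  rw [hk', mul_one] at h
  obtain ⟨m, hm⟩ := exists_pow_eq_self_of_coprime (x := t * a) (n := p ^ k)
    (Nat.Coprime.pow_left k hcop.symm)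
  rw [← hm, h]; exact T.pow_mem ht' m

/-- `O^p(L)` inside the ambient group -/
theorem pres_map {M : Type*} [Group M] (p : ℕ) (L : Subgroup M) :
    (Cfsg.pResidual p ↥L).map L.subtype =
      Subgroup.closure {g : M | g ∈ L ∧ (orderOf g).Coprime p} := by
  unfold Cfsg.pResidual
  rw [MonoidHom.map_closure]
  congr 1
  ext g
  constructor
  · rintro ⟨x, hx, rfl⟩
    refine ⟨x.2, ?_⟩
    rw [Subgroup.coe_subtype, Subgroup.orderOf_coe]; exact hx
  · rintro ⟨hgL, hg⟩
    refine ⟨⟨g, hgL⟩, ?_, rfl⟩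
    show Nat.Coprime (orderOf (⟨g, hgL⟩ : L)) p
    rw [← Subgroup.orderOf_coe]; exact hg

/-- a `p`-subgroup of `L` normalized by `L` lies in `O_p(L)` -/
theorem le_pcore_map {M : Type*} [Group M] {p : ℕ} (L R : Subgroup M) (hRL : R ≤ L)
    (hR : IsPGroup p R) (hnorm : ∀ l ∈ L, ∀ r ∈ R, l * r * l⁻¹ ∈ R) :
    R ≤ (Cfsg.pCore p ↥L).map L.subtype := by
  have hn : (R.subgroupOf L).Normal := by
    constructor
    intro x hx l
    rw [Subgroup.mem_subgroupOf] at hx ⊢
    exact hnorm l l.2 x hx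
  have hp : IsPGroup p (R.subgroupOf L) := hR.comap_subtype
  have hle : R.subgroupOf L ≤ Cfsg.pCore p ↥L := le_sSup ⟨hn, hp⟩
  intro r hr
  exact ⟨⟨r, hRL hr⟩, hle (Subgroup.mem_subgroupOf.2 hr), rfl⟩

theorem pcore_map_props {M : Type*} [Group M] [Finite M] {p : ℕ} [Fact p.Prime] (L : Subgroup M)
    (z : M) (hz : z ∈ (Cfsg.pCore p ↥L).map L.subtype) :
    z ∈ L ∧ (∃ k : ℕ, z ^ p ^ k = 1) ∧
      ∀ l ∈ L, l * z * l⁻¹ ∈ (Cfsg.pCore p ↥L).map L.subtype := by
  obtain ⟨w, hw, rfl⟩ := hz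
  refine ⟨w.2, ?_, ?_⟩
  · obtain ⟨k, hk⟩ := (Cfsg.Agent.Lib.Helper40.pCore_isPGroup' (S := ↥L) p) ⟨w, hw⟩
    refine ⟨k, ?_⟩
    have h1 : w ^ p ^ k = 1 := congrArg Subtype.val hk
    have h2 : ((w ^ p ^ k : L) : M) = 1 := by rw [h1]; rfl
    exact h2
  · intro l hl
    have hn : (Cfsg.pCore p ↥L).Normal := Cfsg.Agent.Lib.Helper40.pCore_normal' p
    exact ⟨⟨l, hl⟩ * w * ⟨l, hl⟩⁻¹, hn.conj_mem w hw ⟨l, hl⟩, rfl⟩

/-- a `p`-element of a `p'`-subgroup is trivial -/
theorem eq_one_of_mem_of_pow {H : Type*} [Group H] [Finite H] {p : ℕ} [hp : Fact p.Prime]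
    (K : Subgroup H) (hK : (Nat.card K).Coprime p) (z : H) (hz : z ∈ K) (k : ℕ)
    (hzk : z ^ p ^ k = 1) : z = 1 := by
  have h1 : orderOf z ∣ Nat.card K := by
    have h2 := orderOf_dvd_natCard (⟨z, hz⟩ : K)
    rwa [← Subgroup.orderOf_coe] at h2
  have h3 : orderOf z ∣ p ^ k := orderOf_dvd_of_pow_eq_one hzk
  have h4 : (orderOf z).Coprime (p ^ k) :=
    Nat.Coprime.pow_right k (Nat.Coprime.coprime_dvd_left h1 hK)
  exact orderOf_eq_one_iff.1 (Nat.Coprime.eq_one_of_dvd h4 h3)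


/-! ### The main construction -/

section main

variable {M : Type*} [Group M] {p : ℕ}

/-- the elements of `A` whose image modulo `N` commutes with the image of `x` -/
def St (N A : Subgroup M) [N.Normal] (x : M) : Subgroup M :=
  A ⊓ (Subgroup.centralizer {QuotientGroup.mk' N x}).comap (QuotientGroup.mk' N)

theorem mem_St (N A : Subgroup M) [N.Normal] (x b : M) :
    b ∈ St N A x ↔ b ∈ A ∧ QuotientGroup.mk' N b * QuotientGroup.mk' N x =
      QuotientGroup.mk' N x * QuotientGroup.mk' N b := by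
  unfold St
  rw [Subgroup.mem_inf, Subgroup.mem_comap, Subgroup.mem_centralizer_iff]
  constructor
  · rintro ⟨h1, h2⟩
    exact ⟨h1, (h2 _ rfl).symm⟩
  · rintro ⟨h1, h2⟩
    refine ⟨h1, ?_⟩
    intro h hh
    rw [Set.mem_singleton_iff] at hh
    rw [hh]; exact h2.symm

theorem St_le (N A : Subgroup M) [N.Normal] (x : M) : St N A x ≤ A := inf_le_left

/-- the image of `St` is central in the image of `L = ⟨A, A^x⟩` -/
theorem central_St (N A : Subgroup M) [N.Normal]
    (hAab : ∀ a ∈ A, ∀ b ∈ A, QuotientGroup.mk' N a * QuotientGroup.mk' N b =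
      QuotientGroup.mk' N b * QuotientGroup.mk' N a) (x : M) :
    ∀ b ∈ St N A x, ∀ l ∈ A ⊔ A.map (MulAut.conj x).toMonoidHom,
      QuotientGroup.mk' N b * QuotientGroup.mk' N l =
        QuotientGroup.mk' N l * QuotientGroup.mk' N b := by
  intro b hb
  obtain ⟨hbA, hbx⟩ := (mem_St N A x b).1 hb
  have hle : A ⊔ A.map (MulAut.conj x).toMonoidHom ≤
      (Subgroup.centralizer {QuotientGroup.mk' N b}).comap (QuotientGroup.mk' N) := by
    rw [sup_le_iff]
    constructor
    · intro a ha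
      rw [Subgroup.mem_comap, Subgroup.mem_centralizer_iff]
      intro h hh
      rw [Set.mem_singleton_iff] at hh
      rw [hh]; exact hAab b hbA a ha
    · rintro _ ⟨a, ha, rfl⟩
      rw [Subgroup.mem_comap, Subgroup.mem_centralizer_iff]
      intro h hh
      rw [Set.mem_singleton_iff] at hh
      rw [hh]
      have e : (MulAut.conj x).toMonoidHom a = x * a * x⁻¹ := rfl
      rw [e, map_mul, map_mul, map_inv]
      have c1 : Commute (QuotientGroup.mk' N b) (QuotientGroup.mk' N x) := hbx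
      have c2 : Commute (QuotientGroup.mk' N b) (QuotientGroup.mk' N a) := hAab b hbA a ha
      exact ((c1.mul_right c2).mul_right c1.inv_right).eq
  intro l hl
  have h1 := hle hl
  rw [Subgroup.mem_comap, Subgroup.mem_centralizer_iff] at h1
  exact h1 _ rfl

theorem comm_mem_N (N A : Subgroup M) [N.Normal]
    (hAab : ∀ a ∈ A, ∀ b ∈ A, QuotientGroup.mk' N a * QuotientGroup.mk' N b =
      QuotientGroup.mk' N b * QuotientGroup.mk' N a) (x : M) :
    ∀ b ∈ St N A x, ∀ l ∈ A ⊔ A.map (MulAut.conj x).toMonoidHom,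
      l * b * l⁻¹ * b⁻¹ ∈ N := by
  intro b hb l hl
  have h1 := central_St N A hAab x b hb l hl
  rw [← QuotientGroup.eq_one_iff, ← QuotientGroup.mk'_apply, map_mul, map_mul, map_mul, map_inv,
    map_inv, ← h1, mul_inv_cancel_right, mul_inv_cancel]

theorem St_le_pcore [Finite M] [Fact p.Prime] (N A : Subgroup M) [N.Normal] (hN : IsPGroup p N)
    (hA : IsPGroup p A)
    (hAab : ∀ a ∈ A, ∀ b ∈ A, QuotientGroup.mk' N a * QuotientGroup.mk' N b =
      QuotientGroup.mk' N b * QuotientGroup.mk' N a) (x : M) :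
    St N A x ≤ (Cfsg.pCore p ↥(A ⊔ A.map (MulAut.conj x).toMonoidHom)).map
      (A ⊔ A.map (MulAut.conj x).toMonoidHom).subtype := by
  obtain ⟨L, hL⟩ : ∃ L, L = A ⊔ A.map (MulAut.conj x).toMonoidHom := ⟨_, rfl⟩
  rw [← hL]
  have hAL : A ≤ L := by rw [hL]; exact le_sup_left
  have hSt : St N A x ≤ L := (St_le N A x).trans hAL
  have hle : St N A x ≤ (L ⊓ N) ⊔ St N A x := le_sup_right
  refine hle.trans (le_pcore_map L _ (sup_le inf_le_left hSt) ?_ ?_)
  · have h1 : IsPGroup p (N ⊔ A : Subgroup M) := IsPGroup.to_sup_of_normal_left hN hA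
    exact h1.to_le (sup_le (inf_le_right.trans le_sup_left) ((St_le N A x).trans le_sup_right))
  · intro l hl
    have hcm : (L ⊓ N) ⊔ St N A x ≤
        ((L ⊓ N) ⊔ St N A x).comap (MulAut.conj l).toMonoidHom := by
      rw [sup_le_iff]
      constructor
      · intro n hn
        rw [Subgroup.mem_comap]
        apply Subgroup.mem_sup_left
        have e : (MulAut.conj l).toMonoidHom n = l * n * l⁻¹ := rfl
        rw [e]
        exact ⟨L.mul_mem (L.mul_mem hl hn.1) (L.inv_mem hl),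
          ‹N.Normal›.conj_mem n hn.2 l⟩
      · intro b hb
        rw [Subgroup.mem_comap]
        have e : (MulAut.conj l).toMonoidHom b = (l * b * l⁻¹ * b⁻¹) * b := by
          show l * b * l⁻¹ = (l * b * l⁻¹ * b⁻¹) * b
          group
        rw [e]
        apply Subgroup.mul_mem
        · apply Subgroup.mem_sup_left
          refine ⟨?_, comm_mem_N N A hAab x b hb l (hL ▸ hl)⟩
          exact L.mul_mem (L.mul_mem (L.mul_mem hl (hSt hb)) (L.inv_mem hl)) (L.inv_mem (hSt hb))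
        · exact Subgroup.mem_sup_right hb
    intro r hr
    exact hcm hr

theorem pcore_inf_le_St [Finite M] [Fact p.Prime] (N A : Subgroup M) [N.Normal]
    (Kb : Subgroup (M ⧸ N)) [Kb.Normal] (hKb : (Nat.card Kb).Coprime p) (x : M)
    (hxK : QuotientGroup.mk' N x ∈ Kb)
    (hxL : x ∈ A ⊔ A.map (MulAut.conj x).toMonoidHom) :
    A ⊓ (Cfsg.pCore p ↥(A ⊔ A.map (MulAut.conj x).toMonoidHom)).map
      (A ⊔ A.map (MulAut.conj x).toMonoidHom).subtype ≤ St N A x := by
  rintro c ⟨hcA, hcO⟩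
  rw [mem_St]
  refine ⟨hcA, ?_⟩
  have hcO' : c ∈ (Cfsg.pCore p ↥(A ⊔ A.map (MulAut.conj x).toMonoidHom)).map
      (A ⊔ A.map (MulAut.conj x).toMonoidHom).subtype := hcO
  have hci := Subgroup.inv_mem _ hcO'
  obtain ⟨-, -, hconj⟩ := pcore_map_props _ c⁻¹ hci
  have hd : c * (x * c⁻¹ * x⁻¹) ∈ (Cfsg.pCore p ↥(A ⊔ A.map (MulAut.conj x).toMonoidHom)).map
      (A ⊔ A.map (MulAut.conj x).toMonoidHom).subtype := Subgroup.mul_mem _ hcO' (hconj x hxL)
  obtain ⟨-, ⟨k, hk⟩, -⟩ := pcore_map_props _ _ hd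
  have hdK : QuotientGroup.mk' N (c * (x * c⁻¹ * x⁻¹)) ∈ Kb := by
    have e : QuotientGroup.mk' N (c * (x * c⁻¹ * x⁻¹)) =
        (QuotientGroup.mk' N c * QuotientGroup.mk' N x * (QuotientGroup.mk' N c)⁻¹) *
          (QuotientGroup.mk' N x)⁻¹ := by
      rw [map_mul, map_mul, map_mul, map_inv, map_inv]; group
    rw [e]
    exact Kb.mul_mem (‹Kb.Normal›.conj_mem _ hxK _) (Kb.inv_mem hxK)
  have h1 := eq_one_of_mem_of_pow Kb hKb _ hdK k (by rw [← map_pow, hk, map_one])
  rw [map_mul, map_mul, map_mul, map_inv, map_inv] at h1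
  calc QuotientGroup.mk' N c * QuotientGroup.mk' N x
      = (QuotientGroup.mk' N c * (QuotientGroup.mk' N x * (QuotientGroup.mk' N c)⁻¹ *
          (QuotientGroup.mk' N x)⁻¹)) * (QuotientGroup.mk' N x * QuotientGroup.mk' N c) := by group
    _ = QuotientGroup.mk' N x * QuotientGroup.mk' N c := by rw [h1, one_mul]


theorem res_le_K [Fact p.Prime] (N A : Subgroup M) [N.Normal] (hA : IsPGroup p A)
    (Kb : Subgroup (M ⧸ N)) [Kb.Normal] (x : M) (hxK : QuotientGroup.mk' N x ∈ Kb) :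
    Subgroup.closure {g : M | g ∈ A ⊔ A.map (MulAut.conj x).toMonoidHom ∧ (orderOf g).Coprime p}
      ≤ Kb.comap (QuotientGroup.mk' N) := by
  rw [Subgroup.closure_le]
  rintro g ⟨hgL, hg⟩
  have hKn : (Kb.comap (QuotientGroup.mk' N)).Normal := inferInstance
  have hxK' : x ∈ Kb.comap (QuotientGroup.mk' N) := hxK
  have hle : A ⊔ A.map (MulAut.conj x).toMonoidHom ≤ Kb.comap (QuotientGroup.mk' N) ⊔ A := by
    rw [sup_le_iff]
    refine ⟨le_sup_right, ?_⟩
    rintro _ ⟨a, ha, rfl⟩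
    have e : (MulAut.conj x).toMonoidHom a = (x * (a * x⁻¹ * a⁻¹)) * a := by
      show x * a * x⁻¹ = (x * (a * x⁻¹ * a⁻¹)) * a
      group
    rw [e]
    apply Subgroup.mul_mem _ (Subgroup.mem_sup_left ?_) (Subgroup.mem_sup_right ha)
    exact Subgroup.mul_mem _ hxK' (hKn.conj_mem _ (Subgroup.inv_mem _ hxK') a)
  exact mem_of_coprime_of_mem_sup _ A hA (fun a _ t ht => hKn.conj_mem t ht a) g (hle hgL) hg

theorem comm_eq [Fact p.Prime] (A : Subgroup M) (hA : IsPGroup p A) (x : M)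
    (hx : x ∈ Subgroup.closure
      {g : M | g ∈ A ⊔ A.map (MulAut.conj x).toMonoidHom ∧ (orderOf g).Coprime p}) :
    ⁅Subgroup.closure
      {g : M | g ∈ A ⊔ A.map (MulAut.conj x).toMonoidHom ∧ (orderOf g).Coprime p}, A⁆ =
    Subgroup.closure
      {g : M | g ∈ A ⊔ A.map (MulAut.conj x).toMonoidHom ∧ (orderOf g).Coprime p} := by
  obtain ⟨L, hL⟩ : ∃ L, L = A ⊔ A.map (MulAut.conj x).toMonoidHom := ⟨_, rfl⟩
  rw [← hL] at hx ⊢
  obtain ⟨Y, hY⟩ : ∃ Y, Y = Subgroup.closure {g : M | g ∈ L ∧ (orderOf g).Coprime p} := ⟨_, rfl⟩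
  rw [← hY] at hx ⊢
  have hAL : A ≤ L := by rw [hL]; exact le_sup_left
  have hYn : ∀ l ∈ L, ∀ y ∈ Y, l * y * l⁻¹ ∈ Y := by
    intro l hl y hy
    have hle : Y ≤ Y.comap (MulAut.conj l).toMonoidHom := by
      rw [hY, Subgroup.closure_le]
      rintro g ⟨hgL, hg⟩
      show (MulAut.conj l).toMonoidHom g ∈ Subgroup.closure _
      apply Subgroup.subset_closure
      refine ⟨L.mul_mem (L.mul_mem hl hgL) (L.inv_mem hl), ?_⟩
      have h1 : orderOf ((MulAut.conj l) g) = orderOf g := MulEquiv.orderOf_eq _ _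
      show (orderOf ((MulAut.conj l) g)).Coprime p
      rw [h1]; exact hg
    exact hle hy
  apply le_antisymm
  · rw [Subgroup.commutator_le]
    intro y hy a ha
    rw [commutatorElement_def]
    have h1 := hYn a (hAL ha) y⁻¹ (Y.inv_mem hy)
    have e : y * a * y⁻¹ * a⁻¹ = y * (a * y⁻¹ * a⁻¹) := by group
    rw [e]; exact Y.mul_mem hy h1
  · have hTn : ∀ a ∈ A, ∀ t ∈ ⁅Y, A⁆, a * t * a⁻¹ ∈ ⁅Y, A⁆ := by
      intro a ha t ht
      have h1 : (⁅Y, A⁆).map (MulAut.conj a).toMonoidHom ≤ ⁅Y, A⁆ := by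
        rw [Subgroup.map_commutator]
        apply Subgroup.commutator_mono
        · rintro _ ⟨y, hy, rfl⟩
          exact hYn a (hAL ha) y hy
        · rintro _ ⟨b, hb, rfl⟩
          exact A.mul_mem (A.mul_mem ha hb) (A.inv_mem ha)
      exact h1 ⟨t, ht, rfl⟩
    have hLle : L ≤ ⁅Y, A⁆ ⊔ A := by
      rw [hL, sup_le_iff]
      refine ⟨le_sup_right, ?_⟩
      rintro _ ⟨a, ha, rfl⟩
      have e : (MulAut.conj x).toMonoidHom a = ⁅x, a⁆ * a := by
        show x * a * x⁻¹ = ⁅x, a⁆ * a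
        rw [commutatorElement_def]; group
      rw [e]
      exact Subgroup.mul_mem _
        (Subgroup.mem_sup_left (Subgroup.commutator_mem_commutator hx ha))
        (Subgroup.mem_sup_right ha)
    have h2 : Subgroup.closure {g : M | g ∈ L ∧ (orderOf g).Coprime p} ≤ ⁅Y, A⁆ := by
      rw [Subgroup.closure_le]
      rintro g ⟨hgL, hg⟩
      exact mem_of_coprime_of_mem_sup _ A hA hTn g (hLle hgL) hg
    exact hY.le.trans h2

theorem comm_of_comm_pow {H : Type*} [Group H] [Finite H] [hp : Fact p.Prime]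
    (Kb : Subgroup H) [hKn : Kb.Normal] (hKb : (Nat.card Kb).Coprime p) (ab xb : H)
    (hxb : xb ∈ Kb) (hab : ab ^ p = 1) (e : ℕ)
    (h1 : ab * (ab * xb * ab⁻¹ * xb⁻¹) ^ p ^ e = (ab * xb * ab⁻¹ * xb⁻¹) ^ p ^ e * ab) :
    ab * xb = xb * ab := by
  obtain ⟨cb, hcb⟩ : ∃ cb, cb = ab * xb * ab⁻¹ * xb⁻¹ := ⟨_, rfl⟩
  rw [← hcb] at h1
  have hcK : cb ∈ Kb := by
    rw [hcb]; exact Kb.mul_mem (hKn.conj_mem _ hxb _) (Kb.inv_mem hxb)
  have hco : (p ^ e).Coprime (orderOf cb) := by
    apply Nat.Coprime.pow_left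
    have h2 : orderOf cb ∣ Nat.card Kb := by
      have h3 := orderOf_dvd_natCard (⟨cb, hcK⟩ : Kb)
      rwa [← Subgroup.orderOf_coe] at h3
    exact (Nat.Coprime.coprime_dvd_left h2 hKb).symm
  obtain ⟨m, hm⟩ := exists_pow_eq_self_of_coprime hco
  have h4 : Commute ab cb := by
    rw [← hm]; exact Commute.pow_right (show Commute ab (cb ^ p ^ e) from h1) m
  have hax : ab * xb * ab⁻¹ = cb * xb := by rw [hcb]; group
  have hiter : ∀ i : ℕ, ab ^ i * xb * (ab ^ i)⁻¹ = cb ^ i * xb := by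
    intro i
    induction i with
    | zero => simp
    | succ i ih =>
      have e1 : ab ^ (i + 1) * xb * (ab ^ (i + 1))⁻¹ = ab * (ab ^ i * xb * (ab ^ i)⁻¹) * ab⁻¹ := by
        rw [pow_succ']; group
      have e2 : ab * (cb ^ i * xb) * ab⁻¹ = (ab * cb ^ i * ab⁻¹) * (ab * xb * ab⁻¹) := by group
      rw [e1, ih, e2, hax, (h4.pow_right i).eq, mul_inv_cancel_right, pow_succ, mul_assoc]
  have h5 := hiter p
  rw [hab, one_mul, inv_one, mul_one] at h5
  have h6 : cb ^ p = 1 := mul_eq_right.1 h5.symm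
  have h7 := eq_one_of_mem_of_pow Kb hKb cb hcK 1 (by rw [pow_one]; exact h6)
  rw [h7, one_mul] at hax
  calc ab * xb = (ab * xb * ab⁻¹) * ab := by group
    _ = xb * ab := by rw [hax]

theorem descent [Finite M] [hp : Fact p.Prime] (N A : Subgroup M) [N.Normal]
    (hAab : ∀ a ∈ A, ∀ b ∈ A, QuotientGroup.mk' N a * QuotientGroup.mk' N b =
      QuotientGroup.mk' N b * QuotientGroup.mk' N a)
    (hApow : ∀ a ∈ A, QuotientGroup.mk' N a ^ p = 1)
    (Kb : Subgroup (M ⧸ N)) [Kb.Normal] (hKb : (Nat.card Kb).Coprime p) (x : M)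
    (hxK : QuotientGroup.mk' N x ∈ Kb) (hidx : (St N A x).relIndex A = p) :
    ∃ x₁ : M, QuotientGroup.mk' N x₁ ∈ Kb ∧ (St N A x₁).relIndex A = p ∧
      x₁ ∈ A ⊔ A.map (MulAut.conj x).toMonoidHom ∧ (orderOf x₁).Coprime p := by
  have hpp := hp.out
  obtain ⟨a, haA, haS⟩ : ∃ a ∈ A, a ∉ St N A x := by
    by_contra hcon
    push Not at hcon
    have h1 : (St N A x).relIndex A = 1 := Subgroup.relIndex_eq_one.2 (fun a ha => hcon a ha)
    rw [hidx] at h1
    exact hpp.one_lt.ne' h1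
  obtain ⟨e, r, hr, hcard⟩ :=
    Nat.exists_eq_pow_mul_and_not_dvd (Nat.card_pos (α := M)).ne' p hpp.ne_one
  have hcb : QuotientGroup.mk' N (a * x * a⁻¹ * x⁻¹) =
      QuotientGroup.mk' N a * QuotientGroup.mk' N x * (QuotientGroup.mk' N a)⁻¹ *
        (QuotientGroup.mk' N x)⁻¹ := by
    rw [map_mul, map_mul, map_mul, map_inv, map_inv]
  have hcK : QuotientGroup.mk' N (a * x * a⁻¹ * x⁻¹) ∈ Kb := by
    rw [hcb]; exact Kb.mul_mem (‹Kb.Normal›.conj_mem _ hxK _) (Kb.inv_mem hxK)
  refine ⟨(a * x * a⁻¹ * x⁻¹) ^ p ^ e, ?_, ?_, ?_, ?_⟩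
  · rw [map_pow]; exact Kb.pow_mem hcK _
  · have hle : St N A x ≤ St N A ((a * x * a⁻¹ * x⁻¹) ^ p ^ e) := by
      intro b hb
      obtain ⟨hbA, hbx⟩ := (mem_St N A x b).1 hb
      rw [mem_St]
      refine ⟨hbA, ?_⟩
      rw [map_pow, hcb]
      have c1 : Commute (QuotientGroup.mk' N b) (QuotientGroup.mk' N x) := hbx
      have c2 : Commute (QuotientGroup.mk' N b) (QuotientGroup.mk' N a) := hAab b hbA a haA
      exact ((((c2.mul_right c1).mul_right c2.inv_right).mul_right c1.inv_right).pow_right _).eq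
    have hna : a ∉ St N A ((a * x * a⁻¹ * x⁻¹) ^ p ^ e) := by
      intro h
      obtain ⟨-, h1⟩ := (mem_St N A _ a).1 h
      rw [map_pow, hcb] at h1
      apply haS
      rw [mem_St]
      exact ⟨haA, comm_of_comm_pow Kb hKb _ _ hxK (hApow a haA) e h1⟩
    have hdvd := Subgroup.relIndex_dvd_of_le_left A hle
    rw [hidx] at hdvd
    rcases (Nat.dvd_prime hpp).1 hdvd with h | h
    · exact absurd (Subgroup.relIndex_eq_one.1 h haA) hna
    · exact h
  · apply Subgroup.pow_mem
    have e1 : a * x * a⁻¹ * x⁻¹ = a * (x * a⁻¹ * x⁻¹) := by group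
    rw [e1]
    exact Subgroup.mul_mem _ (Subgroup.mem_sup_left haA)
      (Subgroup.mem_sup_right ⟨a⁻¹, A.inv_mem haA, rfl⟩)
  · have h1 : ((a * x * a⁻¹ * x⁻¹) ^ p ^ e) ^ r = 1 := by
      rw [← pow_mul, ← hcard]; exact pow_card_eq_one'
    have h2 : orderOf ((a * x * a⁻¹ * x⁻¹) ^ p ^ e) ∣ r := orderOf_dvd_of_pow_eq_one h1
    exact Nat.Coprime.coprime_dvd_left h2 ((Nat.Prime.coprime_iff_not_dvd hpp).2 hr).symm

end main

/-- Let M be a finite p-soluble group and A a p-subgroup of M with Φ(A) ≤ O_p(M) but A ≰ O_p(M). Then there is x ∈ O_{p,p'}(M) such that L = ⟨A, xAx⁻¹⟩ satisfies: x ∈ O^p(L) and O^p(L) ≤ O_{p,p'}(M); [O^p(L), A] = O^p(L); A ∩ O_p(L) has index p in A; and [A ∩ O_p(L), L] ≤ O_p(M). Here O^p(L) is the subgroup generated by the p'-elements of L and O_{p,p'}(M) the preimage of O_{p'}(M/O_p(M)). -/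
theorem result {M : Type*} [Group M] [Finite M] {p : ℕ} [Fact p.Prime] (hM : Cfsg.IsPSolvable p M) (A : Subgroup M) (hA : IsPGroup p A) (hΦ : (frattini ↥A).map A.subtype ≤ Cfsg.pCore p M) (hnot : ¬ A ≤ Cfsg.pCore p M) : ∃ x ∈ (Cfsg.pPrimeCore p (M ⧸ Cfsg.pCore p M)).comap (QuotientGroup.mk' (Cfsg.pCore p M)), x ∈ (Cfsg.pResidual p ↥(A ⊔ A.map (MulAut.conj x).toMonoidHom)).map (A ⊔ A.map (MulAut.conj x).toMonoidHom).subtype ∧ (Cfsg.pResidual p ↥(A ⊔ A.map (MulAut.conj x).toMonoidHom)).map (A ⊔ A.map (MulAut.conj x).toMonoidHom).subtype ≤ (Cfsg.pPrimeCore p (M ⧸ Cfsg.pCore p M)).comap (QuotientGroup.mk' (Cfsg.pCore p M)) ∧ ⁅(Cfsg.pResidual p ↥(A ⊔ A.map (MulAut.conj x).toMonoidHom)).map (A ⊔ A.map (MulAut.conj x).toMonoidHom).subtype, A⁆ = (Cfsg.pResidual p ↥(A ⊔ A.map (MulAut.conj x).toMonoidHom)).map (A ⊔ A.map (MulAut.conj x).toMonoidHom).subtype ∧ (A ⊓ (Cfsg.pCore p ↥(A ⊔ A.map (MulAut.conj x).toMonoidHom)).map (A ⊔ A.map (MulAut.conj x).toMonoidHom).subtype).relIndex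 A = p ∧ ⁅A ⊓ (Cfsg.pCore p ↥(A ⊔ A.map (MulAut.conj x).toMonoidHom)).map (A ⊔ A.map (MulAut.conj x).toMonoidHom).subtype, A ⊔ A.map (MulAut.conj x).toMonoidHom⁆ ≤ Cfsg.pCore p M := by
  have hp : p.Prime := Fact.out
  have hN : IsPGroup p (Cfsg.pCore p M) := Cfsg.Agent.Lib.Helper40.pCore_isPGroup' p
  have hKb : (Nat.card (Cfsg.pPrimeCore p (M ⧸ Cfsg.pCore p M))).Coprime p :=
    Cfsg.Agent.Lib.Helper81.pPrimeCore_coprime p
  -- the image of `A` is elementary abelian
  have hAab : ∀ a ∈ A, ∀ b ∈ A, QuotientGroup.mk' (Cfsg.pCore p M) a *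
      QuotientGroup.mk' (Cfsg.pCore p M) b =
      QuotientGroup.mk' (Cfsg.pCore p M) b * QuotientGroup.mk' (Cfsg.pCore p M) a := by
    intro a ha b hb
    have h1 := Cfsg.Agent.Lib.Helper72.comm_mem_frattini hA ⟨a, ha⟩ ⟨b, hb⟩
    have h2 : a * b * a⁻¹ * b⁻¹ ∈ Cfsg.pCore p M := hΦ ⟨_, h1, rfl⟩
    rw [← QuotientGroup.eq_one_iff, ← QuotientGroup.mk'_apply, map_mul, map_mul, map_mul,
      map_inv, map_inv] at h2
    calc QuotientGroup.mk' (Cfsg.pCore p M) a * QuotientGroup.mk' (Cfsg.pCore p M) b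
        = (QuotientGroup.mk' (Cfsg.pCore p M) a * QuotientGroup.mk' (Cfsg.pCore p M) b *
            (QuotientGroup.mk' (Cfsg.pCore p M) a)⁻¹ * (QuotientGroup.mk' (Cfsg.pCore p M) b)⁻¹) *
            (QuotientGroup.mk' (Cfsg.pCore p M) b * QuotientGroup.mk' (Cfsg.pCore p M) a) := by
          group
      _ = QuotientGroup.mk' (Cfsg.pCore p M) b * QuotientGroup.mk' (Cfsg.pCore p M) a := by
          rw [h2, one_mul]
  have hApow : ∀ a ∈ A, QuotientGroup.mk' (Cfsg.pCore p M) a ^ p = 1 := by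
    intro a ha
    have h1 := Cfsg.Agent.Lib.Helper72.pow_mem_frattini hA ⟨a, ha⟩
    have h2 : a ^ p ∈ Cfsg.pCore p M := hΦ ⟨_, h1, rfl⟩
    rw [← map_pow]
    exact (QuotientGroup.eq_one_iff _).2 h2
  -- the action of `A` on `O_{p'}(M / O_p(M))`
  obtain ⟨ρ, hρ⟩ : ∃ ρ : ↥A →* MulAut ↥(Cfsg.pPrimeCore p (M ⧸ Cfsg.pCore p M)),
      ρ = (MulAut.conjNormal (H := Cfsg.pPrimeCore p (M ⧸ Cfsg.pCore p M))).comp
        ((QuotientGroup.mk' (Cfsg.pCore p M)).comp A.subtype) := ⟨_, rfl⟩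
  have hρa : ∀ (a : ↥A) (k : ↥(Cfsg.pPrimeCore p (M ⧸ Cfsg.pCore p M))),
      ((ρ a k : ↥(Cfsg.pPrimeCore p (M ⧸ Cfsg.pCore p M))) : M ⧸ Cfsg.pCore p M) =
        QuotientGroup.mk' (Cfsg.pCore p M) (a : M) * (k : M ⧸ Cfsg.pCore p M) *
          (QuotientGroup.mk' (Cfsg.pCore p M) (a : M))⁻¹ := by
    intro a k
    rw [hρ]
    exact MulAut.conjNormal_apply _ _
  have hc : ∀ a b : ↥A, ρ a * ρ b = ρ b * ρ a := by
    intro a b
    apply MulEquiv.ext
    intro k
    apply Subtype.ext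
    rw [MulAut.mul_apply, MulAut.mul_apply, hρa, hρa, hρa, hρa]
    have h1 := hAab a a.2 b b.2
    have c1 : Commute (QuotientGroup.mk' (Cfsg.pCore p M) (a : M))
        (QuotientGroup.mk' (Cfsg.pCore p M) (b : M)) := h1
    calc QuotientGroup.mk' (Cfsg.pCore p M) (a : M) *
          (QuotientGroup.mk' (Cfsg.pCore p M) (b : M) * (k : M ⧸ Cfsg.pCore p M) *
            (QuotientGroup.mk' (Cfsg.pCore p M) (b : M))⁻¹) *
          (QuotientGroup.mk' (Cfsg.pCore p M) (a : M))⁻¹
        = (QuotientGroup.mk' (Cfsg.pCore p M) (a : M) *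
            QuotientGroup.mk' (Cfsg.pCore p M) (b : M)) * (k : M ⧸ Cfsg.pCore p M) *
          (QuotientGroup.mk' (Cfsg.pCore p M) (a : M) *
            QuotientGroup.mk' (Cfsg.pCore p M) (b : M))⁻¹ := by group
      _ = (QuotientGroup.mk' (Cfsg.pCore p M) (b : M) *
            QuotientGroup.mk' (Cfsg.pCore p M) (a : M)) * (k : M ⧸ Cfsg.pCore p M) *
          (QuotientGroup.mk' (Cfsg.pCore p M) (b : M) *
            QuotientGroup.mk' (Cfsg.pCore p M) (a : M))⁻¹ := by rw [h1]
      _ = _ := by group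
  have hpow : ∀ a : ↥A, ρ a ^ p = 1 := by
    intro a
    rw [← map_pow]
    apply MulEquiv.ext
    intro k
    apply Subtype.ext
    rw [hρa]
    have h1 : QuotientGroup.mk' (Cfsg.pCore p M) ((a ^ p : ↥A) : M) = 1 := by
      rw [Subgroup.coe_pow, map_pow]; exact hApow a a.2
    rw [h1, one_mul, inv_one, mul_one]
    rfl
  have hnt : ∃ a, ρ a ≠ 1 := by
    by_contra hcon
    push Not at hcon
    apply hnot
    intro a ha
    have hcent : QuotientGroup.mk' (Cfsg.pCore p M) a ∈
        Subgroup.centralizer ((Cfsg.pPrimeCore p (M ⧸ Cfsg.pCore p M) : Subgroup _) : Set _) := by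
      rw [Subgroup.mem_centralizer_iff]
      intro k hk
      have h1 := hρa ⟨a, ha⟩ ⟨k, hk⟩
      rw [hcon] at h1
      have h2 : k = QuotientGroup.mk' (Cfsg.pCore p M) a * k *
          (QuotientGroup.mk' (Cfsg.pCore p M) a)⁻¹ := h1
      calc k * QuotientGroup.mk' (Cfsg.pCore p M) a
          = (QuotientGroup.mk' (Cfsg.pCore p M) a * k *
              (QuotientGroup.mk' (Cfsg.pCore p M) a)⁻¹) *
              QuotientGroup.mk' (Cfsg.pCore p M) a := by rw [← h2]
        _ = QuotientGroup.mk' (Cfsg.pCore p M) a * k := by group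
    have hKC := Cfsg.Agent.S3783.cent_pPrimeCore_le
      (Cfsg.Agent.Lib.Helper75.Fratt.isPSolvable_quotient (Cfsg.pCore p M) hM)
      (Cfsg.Agent.S3783.pCore_quot_bot p)
    obtain ⟨k, hk⟩ := hA ⟨a, ha⟩
    have hk' : a ^ p ^ k = 1 := congrArg Subtype.val hk
    have h3 := eq_one_of_mem_of_pow _ hKb _ (hKC hcent) k (by rw [← map_pow, hk', map_one])
    exact (QuotientGroup.eq_one_iff a).1 h3
  obtain ⟨q, hq⟩ := exists_stab_index hA _ ↥(Cfsg.pPrimeCore p (M ⧸ Cfsg.pCore p M)) rfl hKb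
    ρ hc hpow hnt
  obtain ⟨y, hy⟩ := QuotientGroup.mk'_surjective (Cfsg.pCore p M) (q : M ⧸ Cfsg.pCore p M)
  have hyK : QuotientGroup.mk' (Cfsg.pCore p M) y ∈ Cfsg.pPrimeCore p (M ⧸ Cfsg.pCore p M) := by
    rw [hy]; exact q.2
  have hyidx : (St (Cfsg.pCore p M) A y).relIndex A = p := by
    have h1 : (St (Cfsg.pCore p M) A y).subgroupOf A = stab ρ q := by
      ext a
      rw [Subgroup.mem_subgroupOf, mem_St, mem_stab]
      constructor
      · rintro ⟨-, h⟩
        apply Subtype.ext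
        rw [hρa, ← hy, h, mul_inv_cancel_right]
      · intro h
        refine ⟨a.2, ?_⟩
        have h2 := congrArg Subtype.val h
        rw [hρa, ← hy] at h2
        calc QuotientGroup.mk' (Cfsg.pCore p M) (a : M) * QuotientGroup.mk' (Cfsg.pCore p M) y
            = (QuotientGroup.mk' (Cfsg.pCore p M) (a : M) * QuotientGroup.mk' (Cfsg.pCore p M) y *
                (QuotientGroup.mk' (Cfsg.pCore p M) (a : M))⁻¹) *
                QuotientGroup.mk' (Cfsg.pCore p M) (a : M) := by group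
          _ = QuotientGroup.mk' (Cfsg.pCore p M) y *
                QuotientGroup.mk' (Cfsg.pCore p M) (a : M) := by rw [h2]
    unfold Subgroup.relIndex
    rw [h1]; exact hq
  -- choose `x` with `⟨A, A^x⟩` minimal
  obtain ⟨x₀, ⟨hx₀K, hx₀idx⟩, hmin⟩ := Set.exists_min_image
    {x : M | QuotientGroup.mk' (Cfsg.pCore p M) x ∈ Cfsg.pPrimeCore p (M ⧸ Cfsg.pCore p M) ∧
      (St (Cfsg.pCore p M) A x).relIndex A = p}
    (fun x => Nat.card ↥(A ⊔ A.map (MulAut.conj x).toMonoidHom)) (Set.toFinite _)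
    ⟨y, hyK, hyidx⟩
  obtain ⟨x, hxK, hxidx, hxL₀, hxcop⟩ := descent (Cfsg.pCore p M) A hAab hApow
    (Cfsg.pPrimeCore p (M ⧸ Cfsg.pCore p M)) hKb x₀ hx₀K hx₀idx
  have hLle : A ⊔ A.map (MulAut.conj x).toMonoidHom ≤ A ⊔ A.map (MulAut.conj x₀).toMonoidHom := by
    rw [sup_le_iff]
    refine ⟨le_sup_left, ?_⟩
    rintro _ ⟨a, ha, rfl⟩
    exact Subgroup.mul_mem _ (Subgroup.mul_mem _ hxL₀ (Subgroup.mem_sup_left ha))
      (Subgroup.inv_mem _ hxL₀)
  have hLeq : A ⊔ A.map (MulAut.conj x).toMonoidHom = A ⊔ A.map (MulAut.conj x₀).toMonoidHom :=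
    Subgroup.eq_of_le_of_card_ge hLle (hmin x ⟨hxK, hxidx⟩)
  have hxL : x ∈ A ⊔ A.map (MulAut.conj x).toMonoidHom := by rw [hLeq]; exact hxL₀
  have hxres : x ∈ Subgroup.closure
      {g : M | g ∈ A ⊔ A.map (MulAut.conj x).toMonoidHom ∧ (orderOf g).Coprime p} :=
    Subgroup.subset_closure ⟨hxL, hxcop⟩
  have hSteq : A ⊓ (Cfsg.pCore p ↥(A ⊔ A.map (MulAut.conj x).toMonoidHom)).map
      (A ⊔ A.map (MulAut.conj x).toMonoidHom).subtype = St (Cfsg.pCore p M) A x :=
    le_antisymm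
      (pcore_inf_le_St (Cfsg.pCore p M) A (Cfsg.pPrimeCore p (M ⧸ Cfsg.pCore p M)) hKb x hxK hxL)
      (le_inf (St_le _ A x) (St_le_pcore (Cfsg.pCore p M) A hN hA hAab x))
  refine ⟨x, hxK, ?_, ?_, ?_, ?_, ?_⟩
  · rw [pres_map]; exact hxres
  · rw [pres_map]
    exact res_le_K (Cfsg.pCore p M) A hA (Cfsg.pPrimeCore p (M ⧸ Cfsg.pCore p M)) x hxK
  · rw [pres_map]
    exact comm_eq A hA x hxres
  · rw [hSteq]; exact hxidx
  · rw [hSteq, Subgroup.commutator_le]
    intro b hb l hl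
    have h1 := comm_mem_N (Cfsg.pCore p M) A hAab x b hb l hl
    rw [commutatorElement_def]
    have h2 := Subgroup.inv_mem _ h1
    have e : (l * b * l⁻¹ * b⁻¹)⁻¹ = b * l * b⁻¹ * l⁻¹ := by group
    rwa [e] at h2

end Cfsg.Agent.S3754
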