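import Cfsg.Statements.S3755
import Cfsg.Agent.Lib.Helper14.Bender1
import Cfsg.Agent.Lib.Helper2.NPC

set_option autoImplicit false
open Cfsg

namespace Cfsg.Agent.S3755

open Cfsg.Agent.Lib.Helper14

/-- Let M and V be subgroups of a finite group with V an elementary abelian 2-group, M normalizing V and acting faithfully on it (M ∩ C(V) = 1), and C_M(O_{2'}(M)) ≤ O_{2'}(M). If some elementary abelian 2-subgroup A of M satisfies |V : C_V(A)| < |A|², then M has a section isomorphic to the symmetric group of degree 3. -/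
theorem result {X : Type*} [Group X] [Finite X] (M V : Subgroup X) (hV : Cfsg.IsElementaryAbelian 2 V) (hMV : M ≤ Subgroup.normalizer (V : Set X)) (hfaith : M ⊓ Subgroup.centralizer (V : Set X) = ⊥) (hcon : Subgroup.centralizer (Cfsg.pPrimeCore 2 ↥M : Set ↥M) ≤ Cfsg.pPrimeCore 2 ↥M) (A : Subgroup X) (hAM : A ≤ M) (hA : Cfsg.IsElementaryAbelian 2 A) (hsmall : (V ⊓ Subgroup.centralizer (A : Set X)).relIndex V < Nat.card A ^ 2) : Cfsg.Involves (Equiv.Perm (Fin 3)) ↥M := by
  have hF2 : Fact (Nat.Prime 2) := ⟨Nat.prime_two⟩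
  by_contra hno
  have S := FFSetup.of_hyp (p := 2) V M hV hMV hfaith hcon
  have hno' : ∀ a ∈ M, ∀ y ∈ M, a ≠ 1 → a ^ 2 = 1 → orderOf y = 3 → a * y * a⁻¹ = y⁻¹ →
      False := by
    intro a ha y hy ha1 ha2 hy3 hinv
    apply hno
    obtain ⟨f, hf⟩ := exists_surj_perm3 (G := ↥M) ⟨a, ha⟩ ⟨y, hy⟩
      (fun h => ha1 (congrArg Subtype.val h)) (Subtype.ext ha2)
      (by rw [Subgroup.orderOf_mk]; exact hy3) (Subtype.ext hinv)
    exact Cfsg.Agent.Lib.Helper2.involves_iff_exists_surj.mpr ⟨_, f, hf⟩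
  have hb := S.small_offender_bound hno' (Nat.card A) A rfl hAM (ea_comm hA) hA.2
  exact absurd hb (not_le.mpr hsmall)

end Cfsg.Agent.S3755
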