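import Cfsg.Statements.S3760
import Mathlib

set_option autoImplicit false
open Cfsg

namespace Cfsg.Agent.S3760

/-- Let the group G act transitively on a set X, let x ∈ X with stabilizer H = G_x, and let K ≤ H. Then N_G(K) acts transitively on the set of fixed points of K if and only if every G-conjugate of K contained in H is already an H-conjugate of K. -/
theorem result {G : Type*} [Group G] {X : Type*} [MulAction G X] (htrans : ∀ a b : X, ∃ g : G, g • a = b) (x : X) (K : Subgroup G) (hK : K ≤ MulAction.stabilizer G x) : (∀ a b : X, (∀ k ∈ K, k • a = a) → (∀ k ∈ K, k • b = b) → ∃ g ∈ Subgroup.normalizer (K : Set G), g • a = b) ↔ ∀ g : G, K.map (MulAut.conj g).toMonoidHom ≤ MulAction.stabilizer G x → ∃ h ∈ MulAction.stabilizer G x, K.map (MulAut.conj g).toMonoidHom = K.map (MulAut.conj h).toMonoidHom := by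
  constructor
  · intro hN g hg
    have h1 : ∀ k ∈ K, k • (g⁻¹ • x) = g⁻¹ • x := by
      intro k hk
      have h3 : g * k * g⁻¹ ∈ MulAction.stabilizer G x := hg ⟨k, hk, by simp⟩
      rw [MulAction.mem_stabilizer_iff] at h3
      calc k • (g⁻¹ • x) = g⁻¹ • ((g * k * g⁻¹) • x) := by simp [mul_smul]
        _ = g⁻¹ • x := by rw [h3]
    have h2 : ∀ k ∈ K, k • x = x := fun k hk => hK hk
    obtain ⟨n, hn, hnx⟩ := hN x (g⁻¹ • x) h2 h1
    refine ⟨g * n, ?_, ?_⟩
    · rw [MulAction.mem_stabilizer_iff, mul_smul, hnx, smul_inv_smul]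
    · ext y
      simp only [Subgroup.mem_map, MulEquiv.coe_toMonoidHom, MulAut.conj_apply]
      constructor
      · rintro ⟨k, hk, rfl⟩
        exact ⟨n⁻¹ * k * n, (Subgroup.mem_normalizer_iff''.mp hn k).mp hk, by group⟩
      · rintro ⟨k, hk, rfl⟩
        exact ⟨n * k * n⁻¹, (Subgroup.mem_normalizer_iff.mp hn k).mp hk, by group⟩
  · intro hF a b ha hb
    have key : ∀ c : X, (∀ k ∈ K, k • c = c) →
        ∃ n ∈ Subgroup.normalizer (K : Set G), n • x = c := by
      intro c hc
      obtain ⟨g, rfl⟩ := htrans x c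
      have hg : K.map (MulAut.conj g⁻¹).toMonoidHom ≤ MulAction.stabilizer G x := by
        rintro y ⟨k, hk, rfl⟩
        simp only [MulEquiv.coe_toMonoidHom, MulAut.conj_apply, MulAction.mem_stabilizer_iff,
          inv_inv]
        rw [mul_smul, mul_smul, hc k hk, inv_smul_smul]
      obtain ⟨h, hh, hEq⟩ := hF g⁻¹ hg
      refine ⟨g * h, ?_, ?_⟩
      · rw [Subgroup.mem_normalizer_iff]
        intro k
        constructor
        · intro hk
          have h4 : h * k * h⁻¹ ∈ K.map (MulAut.conj g⁻¹).toMonoidHom := by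
            rw [hEq]; exact ⟨k, hk, by simp⟩
          obtain ⟨k', hk', hk'e⟩ := h4
          simp only [MulEquiv.coe_toMonoidHom, MulAut.conj_apply, inv_inv] at hk'e
          have h5 : g * h * k * (g * h)⁻¹ = k' := by
            calc g * h * k * (g * h)⁻¹ = g * (h * k * h⁻¹) * g⁻¹ := by group
              _ = g * (g⁻¹ * k' * g) * g⁻¹ := by rw [hk'e]
              _ = k' := by group
          rw [h5]; exact hk'
        · intro hk
          have h4 : h * k * h⁻¹ ∈ K.map (MulAut.conj h).toMonoidHom := by
            rw [← hEq]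
            refine ⟨g * h * k * (g * h)⁻¹, hk, ?_⟩
            simp only [MulEquiv.coe_toMonoidHom, MulAut.conj_apply, inv_inv]
            group
          obtain ⟨k', hk', hk'e⟩ := h4
          simp only [MulEquiv.coe_toMonoidHom, MulAut.conj_apply] at hk'e
          have h5 : k' = k := by
            have h6 := congrArg (fun t => h⁻¹ * t * h) hk'e
            beta_reduce at h6
            calc k' = h⁻¹ * (h * k' * h⁻¹) * h := by group
              _ = h⁻¹ * (h * k * h⁻¹) * h := h6
              _ = k := by group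
          rw [← h5]; exact hk'
      · rw [mul_smul, MulAction.mem_stabilizer_iff.mp hh]
    obtain ⟨n₁, hn₁, rfl⟩ := key a ha
    obtain ⟨n₂, hn₂, rfl⟩ := key b hb
    exact ⟨n₂ * n₁⁻¹, Subgroup.mul_mem _ hn₂ (Subgroup.inv_mem _ hn₁), by
      rw [mul_smul, inv_smul_smul]⟩

end Cfsg.Agent.S3760
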