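import Cfsg.Statements.S3763
import Cfsg.Agent.Lib.Helper3.Extra3
import Mathlib

set_option autoImplicit false
open Cfsg

namespace Cfsg.Agent.S3763

open Cfsg.Agent.Lib.Helper3.Extra Cfsg.Agent.S0099 Cfsg.Agent.Lib.Helper3.Extra2 Cfsg.Agent.S4416
  Cfsg.Agent.Lib.Helper3.Extra3

/-- Let E be an extraspecial 2-group of order 2^(2n+1). Then the largest elementary abelian subgroups of E have order 2^n or 2^(n+1); and two extraspecial 2-groups of the same order whose largest elementary abelian subgroups have the same order are isomorphic. -/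
theorem result {E : Type*} [Group E] [Finite E] (hE : Cfsg.IsExtraspecial 2 E) (n : ℕ) (hn : Nat.card E = 2 ^ (2 * n + 1)) : ((Cfsg.PRankLE 2 n E ∧ ¬ Cfsg.PRankLE 2 (n - 1) E) ∨ (Cfsg.PRankLE 2 (n + 1) E ∧ ¬ Cfsg.PRankLE 2 n E)) ∧ ∀ (E' : Type*) [Group E'] [Finite E'], Cfsg.IsExtraspecial 2 E' → Nat.card E' = Nat.card E → (∀ k : ℕ, Cfsg.PRankLE 2 k E ↔ Cfsg.PRankLE 2 k E') → Nonempty (E ≃* E') := by
  obtain ⟨m, hm1, hmc, hmi⟩ := orderCount _ E rfl hE
  have hmn : m = n := by
    have h3 : 2 ^ (2 * m + 1) = 2 ^ (2 * n + 1) := by rw [← hmc, hn]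
    have h4 := Nat.pow_right_injective (le_refl 2) h3
    omega
  subst hmn
  obtain ⟨hp, hmn⟩ := rank_main _ E rfl hE m hmc
  have hpos : 0 < 2 ^ m := by positivity
  constructor
  · rcases hmi with hi | hi
    · right
      exact ⟨(hp hi _).mpr (le_refl _), fun h => by have := (hp hi _).mp h; omega⟩
    · left
      exact ⟨(hmn hi _).mpr (le_refl _), fun h => by have := (hmn hi _).mp h; omega⟩
  · intro E' _ _ hE' hc hprof
    obtain ⟨m', hm'1, hm'c, hm'i⟩ := orderCount _ E' rfl hE'
    have hmm : m' = m := by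
      have h3 : 2 ^ (2 * m' + 1) = 2 ^ (2 * m + 1) := by rw [← hm'c, hc, hmc]
      have h4 := Nat.pow_right_injective (le_refl 2) h3
      omega
    subst hmm
    obtain ⟨hp', hmn'⟩ := rank_main _ E' rfl hE' m' hm'c
    apply uniq _ E E' rfl hE hE' hc
    rcases hmi with hi | hi <;> rcases hm'i with hi' | hi'
    · rw [hi, hi']
    · exfalso
      have h1 := (hmn' hi' m').mpr (le_refl _)
      have h2 := (hp hi m').mp ((hprof m').mpr h1)
      omega
    · exfalso
      have h1 := (hmn hi m').mpr (le_refl _)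
      have h2 := (hp' hi' m').mp ((hprof m').mp h1)
      omega
    · rw [hi, hi']

end Cfsg.Agent.S3763
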