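import Cfsg.Statements.S3767
import Cfsg.Agent.Lib.Helper67.ExtraGlue

set_option autoImplicit false
open Cfsg

namespace Cfsg.Agent.S3767

open Cfsg.Agent.Lib.Helper67

/-- left regular representation on complex functions -/
noncomputable def regRep (G : Type*) [Group G] : G →* Module.End ℂ (G → ℂ) where
  toFun g := LinearMap.funLeft ℂ ℂ (fun a => g⁻¹ * a)
  map_one' := by
    apply LinearMap.ext; intro f; funext a
    simp [LinearMap.funLeft_apply]
  map_mul' := by
    intro g g'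
    apply LinearMap.ext; intro f; funext a
    simp [LinearMap.funLeft_apply, mul_assoc]

theorem regRep_apply {G : Type*} [Group G] (g : G) (f : G → ℂ) (a : G) :
    regRep G g f a = f (g⁻¹ * a) := rfl

/-- Let P be an extraspecial p-group of order p^(2n+1) and H a cyclic group of order h prime to p acting on P (inside a common finite group: H normalizes P) so that C_P(x) = Z(P) for every non-identity x ∈ H. Then h divides p^n + 1 or h divides p^n − 1. -/
theorem result {G : Type*} [Group G] [Finite G] {p : ℕ} [Fact p.Prime] (P H : Subgroup G) (hP : Cfsg.IsExtraspecial p ↥P) (n : ℕ) (hn : Nat.card P = p ^ (2 * n + 1)) (hH : IsCyclic H) (hcop : (Nat.card H).Coprime p) (hHP : H ≤ Subgroup.normalizer (P : Set G)) (hfix : ∀ x ∈ H, x ≠ 1 → P ⊓ Subgroup.centralizer {x} = (Subgroup.center ↥P).map P.subtype) : Nat.card H ∣ p ^ n + 1 ∨ Nat.card H ∣ p ^ n - 1 := by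
  classical
  obtain ⟨⟨hPp, hfrat, hcomm⟩, hcard⟩ := hP
  have hpp : p.Prime := Fact.out
  by_cases hh1 : Nat.card H = 1
  · left; rw [hh1]; exact one_dvd _
  have hh2 : 2 ≤ Nat.card H := by
    have : 0 < Nat.card H := Nat.card_pos
    omega
  obtain ⟨x₀, hx₀⟩ := hH.exists_generator
  have hxH : (x₀ : G) ∈ H := x₀.2
  have hord : orderOf (x₀ : G) = Nat.card H := by
    rw [Subgroup.orderOf_coe, orderOf_eq_card_of_forall_mem_zpowers hx₀]
  have hxh : (x₀ : G) ^ Nat.card H = 1 := by rw [← hord]; exact pow_orderOf_eq_one _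
  have hpow1 : ∀ i : ℕ, ¬ Nat.card H ∣ i → (x₀ : G) ^ i ≠ 1 := by
    intro i hi hc
    apply hi
    rw [← hord]; exact orderOf_dvd_of_pow_eq_one hc
  have hx1 : (x₀ : G) ≠ 1 := by
    have h1 := hpow1 1 (by intro hc; have := Nat.le_of_dvd one_pos hc; omega)
    simpa using h1
  have hZx : ∀ z ∈ (Subgroup.center P).map P.subtype, (x₀ : G) * z = z * (x₀ : G) := by
    intro z hz
    rw [← hfix _ hxH hx1] at hz
    exact Subgroup.mem_centralizer_iff.1 hz.2 _ (Set.mem_singleton _)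
  have hfix' : ∀ i : ℕ, ¬ Nat.card H ∣ i → ∀ g ∈ P, (x₀ : G) ^ i * g = g * (x₀ : G) ^ i →
      g ∈ (Subgroup.center P).map P.subtype := by
    intro i hi g hg hc
    rw [← hfix ((x₀ : G) ^ i) (H.pow_mem hxH i) (hpow1 i hi)]
    refine ⟨hg, ?_⟩
    show g ∈ Subgroup.centralizer {(x₀ : G) ^ i}
    rw [Subgroup.mem_centralizer_iff]
    intro y hy
    rw [Set.mem_singleton_iff] at hy
    rw [hy]; exact hc
  obtain ⟨hZP, hZc, hfree, hnc, hcardZ⟩ :=
    extra_hyps P hcomm hcard (x₀ : G) (Nat.card H) hcop hxh hZx hfix'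
  have hxP : ∀ g ∈ P, (x₀ : G) * g * (x₀ : G)⁻¹ ∈ P := by
    intro g hg
    exact (Subgroup.mem_normalizer_iff.1 (hHP hxH) g).1 hg
  have hex : ∃ z₀ ∈ (Subgroup.center P).map P.subtype, ∃ f₀ ∈ (⊤ : Submodule ℂ (G → ℂ)),
      regRep G z₀ f₀ ≠ f₀ := by
    have hZne : (Subgroup.center P).map P.subtype ≠ ⊥ := by
      intro hc
      have h1 := Subgroup.card_eq_one.2 hc
      rw [hcardZ] at h1
      exact hpp.one_lt.ne' h1
    obtain ⟨z₀, hz₀⟩ := (Subgroup.ne_bot_iff_exists_ne_one).1 hZne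
    refine ⟨(z₀ : G), z₀.2, Pi.single 1 1, Submodule.mem_top, ?_⟩
    intro hc
    have h1 := congrFun hc 1
    rw [regRep_apply, mul_one, Pi.single_eq_same, Pi.single_eq_of_ne] at h1
    · exact zero_ne_one h1
    · intro h2
      apply hz₀
      apply Subtype.ext
      rw [inv_eq_one] at h2
      exact h2
  obtain ⟨n₀, ι, hι, μ, h1, h2, h3, h4, h5⟩ := exists_rep_data' (K := ℂ) (regRep G) ⊤ P
    ((Subgroup.center P).map P.subtype) (x₀ : G) (Nat.card H) p
    (fun g _ w _ => Submodule.mem_top) (fun w _ => Submodule.mem_top)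
    (Nat.cast_ne_zero.2 Nat.card_pos.ne') hpp hcardZ (Nat.cast_ne_zero.2 hpp.ne_zero)
    hex hZP hZc hZx hxP hh2 (Nat.cast_ne_zero.2 (by omega)) hxh hfree hnc
  -- numerics
  have hn₀ : n₀ = p ^ n := by
    have e1 : n₀ ^ 2 * p = (p ^ n) ^ 2 * p := by rw [h1, hn]; ring
    have e2 : n₀ ^ 2 = (p ^ n) ^ 2 := Nat.eq_of_mul_eq_mul_right hpp.pos e1
    exact Nat.pow_left_injective (by norm_num : (2 : ℕ) ≠ 0) e2
  set R := Polynomial.nthRootsFinset (Nat.card H) (1 : ℂ) with hR
  have hRmem : ∀ i, μ i ∈ R := fun i => (Polynomial.mem_nthRootsFinset (by omega) 1).2 (h3 i)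
  have hRcard : R.card ≤ Nat.card H :=
    (Multiset.toFinset_card_le _).trans (Polynomial.card_nthRoots _ _)
  have hconv := pairs_convex μ R hRmem (n₀ / Nat.card H)
  rw [h2] at hconv
  have hconv' : (2 * (n₀ / Nat.card H) + 1) * n₀
      ≤ Nat.card {p : ι × ι // μ p.1 = μ p.2}
        + Nat.card H * ((n₀ / Nat.card H) * (n₀ / Nat.card H + 1)) :=
    hconv.trans (Nat.add_le_add_left (Nat.mul_le_mul_right _ hRcard) _)
  have hres := residue_cases n₀ (Nat.card H) _ _ (n₀ / Nat.card H) (n₀ % Nat.card H)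
    (by omega) (Nat.div_add_mod' n₀ (Nat.card H)).symm le_rfl hconv' h5
  have hdm := Nat.div_add_mod' n₀ (Nat.card H)
  have hlt : n₀ % Nat.card H < Nat.card H := Nat.mod_lt _ (by omega)
  rcases hres with hc | hc | hc
  · exfalso
    apply hh1
    have h6 : Nat.card H ∣ p ^ n := by
      rw [← hn₀]; exact Nat.dvd_of_mod_eq_zero hc
    exact Nat.Coprime.eq_one_of_dvd (Nat.Coprime.pow_right n hcop) h6
  · right
    rw [← hn₀]
    exact Dvd.intro_left (n₀ / Nat.card H) (by omega)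
  · left
    rw [← hn₀]
    refine Dvd.intro_left (n₀ / Nat.card H + 1) ?_
    have : (n₀ / Nat.card H + 1) * Nat.card H = n₀ / Nat.card H * Nat.card H + Nat.card H := by
      ring
    omega

end Cfsg.Agent.S3767
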