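import Cfsg.Statements.S3768
import Mathlib

set_option autoImplicit false
open Cfsg

namespace Cfsg.Agent.S3768

open scoped Pointwise

theorem mem_cj {G : Type*} [Group G] (R : Subgroup G) (g x : G) :
    x ∈ MulAut.conj g • R ↔ g⁻¹ * x * g ∈ R := by
  rw [Subgroup.mem_pointwise_smul_iff_inv_smul_mem, MulAut.smul_def, MulAut.conj_inv_apply]

theorem fp_of {G : Type*} [Group G] (R : Subgroup G) (hR : Cfsg.IsFrobeniusComplement R) :
    ∀ x g, x ∈ R → g⁻¹ * x * g ∈ R → x ≠ 1 → g ∈ R := by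
  intro x g hx hxg hx1
  by_contra hg
  have h := hR.2.2 g hg
  have hm : x ∈ R ⊓ MulAut.conj g • R := ⟨hx, (mem_cj R g x).2 hxg⟩
  rw [h] at hm
  exact hx1 (Subgroup.mem_bot.1 hm)

theorem cardC {G : Type*} [Group G] [Finite G] (R : Subgroup G)
    (hfp : ∀ x g, x ∈ R → g⁻¹ * x * g ∈ R → x ≠ 1 → g ∈ R) (N : Subgroup G) [N.Normal] :
    Nat.card {x : G // x ∈ N ∧ x ≠ 1 ∧ ∃ g, g⁻¹ * x * g ∈ R}
      = R.index * (Nat.card ↥(N ⊓ R) - 1) := by
  classical
  have e : ((G ⧸ R) × {m : ↥(N ⊓ R) // m ≠ 1}) ≃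
      {x : G // x ∈ N ∧ x ≠ 1 ∧ ∃ g, g⁻¹ * x * g ∈ R} := by
    refine Equiv.ofBijective
      (fun p => ⟨p.1.out * (p.2.1 : G) * p.1.out⁻¹, ?_, ?_, ?_⟩) ⟨?_, ?_⟩
    · exact ‹N.Normal›.conj_mem _ p.2.1.2.1 _
    · intro h
      apply p.2.2
      have : (p.2.1 : G) = 1 := by
        have h2 : p.1.out⁻¹ * (p.1.out * (p.2.1 : G) * p.1.out⁻¹) * p.1.out = (p.2.1 : G) := by group
        rw [h] at h2
        rw [← h2]; group
      exact Subtype.ext this
    · refine ⟨p.1.out, ?_⟩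
      have h2 : p.1.out⁻¹ * (p.1.out * (p.2.1 : G) * p.1.out⁻¹) * p.1.out = (p.2.1 : G) := by group
      rw [h2]
      exact p.2.1.2.2
    · rintro ⟨q, m, hm⟩ ⟨q', m', hm'⟩ h
      have h1 : q.out * (m : G) * q.out⁻¹ = q'.out * (m' : G) * q'.out⁻¹ := by
        simpa using congrArg Subtype.val h
      have hm1 : (m : G) ≠ 1 := fun h => hm (Subtype.ext h)
      have hm1' : (m' : G) ≠ 1 := fun h => hm' (Subtype.ext h)
      have h2 : (q'.out⁻¹ * q.out)⁻¹ * (m' : G) * (q'.out⁻¹ * q.out) = (m : G) := by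
        have : (m : G) = q.out⁻¹ * (q.out * (m : G) * q.out⁻¹) * q.out := by group
        rw [this, h1]; group
      have h3 : q'.out⁻¹ * q.out ∈ R := by
        apply hfp (m' : G) _ m'.2.2 _ hm1'
        rw [h2]; exact m.2.2
      have hq : q' = q := by
        rw [← QuotientGroup.out_eq' q, ← QuotientGroup.out_eq' q']
        exact QuotientGroup.eq.2 h3
      subst hq
      have h4 : (m : G) = (m' : G) := by
        have := h1
        simpa using this
      have h5 : m = m' := Subtype.ext h4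
      subst h5
      rfl
    · rintro ⟨x, hxN, hx1, g, hg⟩
      obtain ⟨r, hr⟩ := QuotientGroup.mk_out_eq_mul R g
      set q : G ⧸ R := QuotientGroup.mk g with hq
      have hmR : q.out⁻¹ * x * q.out ∈ R := by
        rw [hr]
        have : (g * (r : G))⁻¹ * x * (g * (r : G)) = (r : G)⁻¹ * (g⁻¹ * x * g) * (r : G) := by group
        rw [this]
        exact R.mul_mem (R.mul_mem (R.inv_mem r.2) hg) r.2
      have hmN : q.out⁻¹ * x * q.out ∈ N := by
        have := ‹N.Normal›.conj_mem x hxN q.out⁻¹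
        simpa using this
      have hm1 : (⟨q.out⁻¹ * x * q.out, hmN, hmR⟩ : ↥(N ⊓ R)) ≠ 1 := by
        intro h
        apply hx1
        have h' : q.out⁻¹ * x * q.out = 1 := congrArg Subtype.val h
        have : x = q.out * (q.out⁻¹ * x * q.out) * q.out⁻¹ := by group
        rw [this, h']; group
      refine ⟨(q, ⟨⟨q.out⁻¹ * x * q.out, hmN, hmR⟩, hm1⟩), ?_⟩
      apply Subtype.ext
      show q.out * (q.out⁻¹ * x * q.out) * q.out⁻¹ = x
      group
  rw [← Nat.card_congr e, Nat.card_prod]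
  congr 1
  have : Nat.card {m : ↥(N ⊓ R) // m ≠ 1} + 1 = Nat.card ↥(N ⊓ R) := by
    have := Nat.card_congr (Equiv.sumCompl (fun m : ↥(N ⊓ R) => m = 1))
    rw [Nat.card_sum] at this
    rw [← this]
    simp
    ring
  omega

theorem inj_surj {G : Type*} [Group G] [Finite G] (R N : Subgroup G) [N.Normal]
    (hfp : ∀ x g, x ∈ R → g⁻¹ * x * g ∈ R → x ≠ 1 → g ∈ R) (hNR : N ⊓ R = ⊥)
    (r : G) (hr : r ∈ R) (hr1 : r ≠ 1) (n : G) (hn : n ∈ N) :
    ∃ a ∈ N, a⁻¹ * (r * n) * a = r := by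
  have hmem : ∀ a : ↥N, r⁻¹ * (a : G) * r * (a : G)⁻¹ ∈ N := by
    intro a
    have h1 : r⁻¹ * (a : G) * r ∈ N := by
      have := ‹N.Normal›.conj_mem (a : G) a.2 r⁻¹
      simpa using this
    exact N.mul_mem h1 (N.inv_mem a.2)
  let f : ↥N → ↥N := fun a => ⟨r⁻¹ * (a : G) * r * (a : G)⁻¹, hmem a⟩
  have hinj : Function.Injective f := by
    intro a b hab
    have h1 : r⁻¹ * (a : G) * r * (a : G)⁻¹ = r⁻¹ * (b : G) * r * (b : G)⁻¹ :=
      congrArg Subtype.val hab
    have h3 : (a : G) * r * (a : G)⁻¹ = (b : G) * r * (b : G)⁻¹ := by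
      have := congrArg (fun t => r * t) h1
      simpa [mul_assoc] using this
    have h2 : ((a : G)⁻¹ * (b : G))⁻¹ * r * ((a : G)⁻¹ * (b : G)) = r := by
      calc ((a : G)⁻¹ * (b : G))⁻¹ * r * ((a : G)⁻¹ * (b : G))
          = (b : G)⁻¹ * ((a : G) * r * (a : G)⁻¹) * (b : G) := by group
        _ = (b : G)⁻¹ * ((b : G) * r * (b : G)⁻¹) * (b : G) := by rw [h3]
        _ = r := by group
    have h4 : (a : G)⁻¹ * (b : G) ∈ R := hfp r _ hr (by rw [h2]; exact hr) hr1
    have h5 : (a : G)⁻¹ * (b : G) ∈ N ⊓ R := ⟨N.mul_mem (N.inv_mem a.2) b.2, h4⟩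
    rw [hNR, Subgroup.mem_bot, inv_mul_eq_one] at h5
    exact Subtype.ext h5
  obtain ⟨a, ha⟩ := (Finite.injective_iff_surjective.1 hinj) ⟨n, hn⟩
  have ha' : r⁻¹ * (a : G) * r * (a : G)⁻¹ = n := congrArg Subtype.val ha
  refine ⟨a, a.2, ?_⟩
  rw [← ha']
  group

theorem arith (m a c d nN nR nG cn cc cu : ℕ) (hm : 2 ≤ m) (ha : 0 < a) (_hc : 0 < c)
    (hd : 0 < d) (e1 : m * a = nR) (e23 : nN * a = nR * c) (e6 : nR * (c * d) = nG)
    (h1 : cn = c * d * (m - 1)) (h2 : cc = c * d * (nR - 1)) (h3 : cu + cn = cc + nN)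
    (h6 : cn < nN) : cu = nG := by
  obtain ⟨m', rfl⟩ : ∃ m', m = m' + 2 := ⟨m - 2, by omega⟩
  have hN : nN = (m' + 2) * c := by
    have : nN * a = (m' + 2) * c * a := by rw [e23, ← e1]; ring
    exact Nat.eq_of_mul_eq_mul_right ha this
  have hd1 : d = 1 := by
    by_contra hne
    have hd2 : 2 ≤ d := by omega
    have h7 : c * d * (m' + 2 - 1) < (m' + 2) * c := by rw [← h1, ← hN]; exact h6
    have h8 : c * 2 * (m' + 1) ≤ c * d * (m' + 2 - 1) := by
      have : m' + 2 - 1 = m' + 1 := by omega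
      rw [this]
      exact Nat.mul_le_mul_right _ (Nat.mul_le_mul_left _ hd2)
    have h9 : (m' + 2) * c ≤ c * 2 * (m' + 1) := by nlinarith
    omega
  subst hd1
  have hR : nR = (m' + 2) * a := e1.symm
  have hR1 : 1 ≤ nR := by rw [hR]; nlinarith
  obtain ⟨nR', rfl⟩ : ∃ k, nR = k + 1 := ⟨nR - 1, by omega⟩
  have e1' : m' + 2 - 1 = m' + 1 := by omega
  have e2' : nR' + 1 - 1 = nR' := by omega
  rw [e1'] at h1
  rw [e2'] at h2
  subst h1 h2 hN
  rw [← e6]
  have : cu + c * 1 * (m' + 1) = c * 1 * nR' + (m' + 2) * c := h3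
  nlinarith

theorem inf_eq_bot {G : Type*} [Group G] [Finite G] (R : Subgroup G)
    (hfp : ∀ x g, x ∈ R → g⁻¹ * x * g ∈ R → x ≠ 1 → g ∈ R) (N : Subgroup G) [N.Normal]
    (hKN : ∃ x, x ∉ N ∧ (x = 1 ∨ ∀ g, g⁻¹ * x * g ∉ R)) : N ⊓ R = ⊥ := by
  by_contra hM
  have hM2 : 2 ≤ Nat.card ↥(N ⊓ R) := by
    have : Nontrivial ↥(N ⊓ R) := (Subgroup.nontrivial_iff_ne_bot _).2 hM
    exact Finite.one_lt_card
  let C : Set G := {x | x ≠ 1 ∧ ∃ g, g⁻¹ * x * g ∈ R}
  let CN : Set G := {x | x ∈ N ∧ x ≠ 1 ∧ ∃ g, g⁻¹ * x * g ∈ R}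
  have h1 : CN.ncard = R.index * (Nat.card ↥(N ⊓ R) - 1) := by
    rw [← _root_.Nat.card_coe_set_eq]
    exact cardC R hfp N
  have h2 : C.ncard = R.index * (Nat.card R - 1) := by
    have h := cardC R hfp (⊤ : Subgroup G)
    rw [top_inf_eq] at h
    rw [← h, ← _root_.Nat.card_coe_set_eq]
    apply Nat.card_congr
    exact Equiv.subtypeEquivRight (fun x => by simp [C])
  have h3 : (C ∪ (N : Set G)).ncard + (C ∩ (N : Set G)).ncard = C.ncard + (N : Set G).ncard :=
    Set.ncard_union_add_ncard_inter C N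
  have h4 : C ∩ (N : Set G) = CN := by
    ext x
    simp only [C, CN, Set.mem_inter_iff, Set.mem_ofPred_eq, SetLike.mem_coe]
    tauto
  have h5 : (N : Set G).ncard = Nat.card N := by
    rw [← _root_.Nat.card_coe_set_eq]; rfl
  have h6 : CN.ncard < (N : Set G).ncard := by
    apply Set.ncard_lt_ncard _ (Set.toFinite _)
    constructor
    · intro x hx; exact hx.1
    · intro h
      have := h (N.one_mem)
      exact this.2.1 rfl
  have e1 : Nat.card ↥(N ⊓ R) * (N ⊓ R).relIndex R = Nat.card R := by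
    have := Subgroup.relIndex_mul_relIndex ⊥ (N ⊓ R) R bot_le inf_le_right
    rwa [Subgroup.relIndex_bot_left, Subgroup.relIndex_bot_left] at this
  have e2 : Nat.card N * N.relIndex (R ⊔ N) = Nat.card ↥(R ⊔ N) := by
    have := Subgroup.relIndex_mul_relIndex ⊥ N (R ⊔ N) bot_le le_sup_right
    rwa [Subgroup.relIndex_bot_left, Subgroup.relIndex_bot_left] at this
  have e3 : Nat.card R * R.relIndex (R ⊔ N) = Nat.card ↥(R ⊔ N) := by
    have := Subgroup.relIndex_mul_relIndex ⊥ R (R ⊔ N) bot_le le_sup_left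
    rwa [Subgroup.relIndex_bot_left, Subgroup.relIndex_bot_left] at this
  have e4 : N.relIndex (R ⊔ N) = (N ⊓ R).relIndex R := by
    rw [Subgroup.relIndex_sup_right, Subgroup.inf_relIndex_right]
  have e5 : R.relIndex (R ⊔ N) * (R ⊔ N).index = R.index :=
    Subgroup.relIndex_mul_index le_sup_left
  have e6 : Nat.card R * R.index = Nat.card G := Subgroup.card_mul_index R
  have pR : 0 < Nat.card R := Nat.card_pos
  have pRN : 0 < Nat.card ↥(R ⊔ N) := Nat.card_pos
  have pG : 0 < Nat.card G := Nat.card_pos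
  have pa : 0 < (N ⊓ R).relIndex R := by
    rcases Nat.eq_zero_or_pos ((N ⊓ R).relIndex R) with h | h
    · rw [h] at e1; omega
    · exact h
  have pc : 0 < R.relIndex (R ⊔ N) := by
    rcases Nat.eq_zero_or_pos (R.relIndex (R ⊔ N)) with h | h
    · rw [h] at e3; omega
    · exact h
  have pd : 0 < (R ⊔ N).index := by
    rcases Nat.eq_zero_or_pos ((R ⊔ N).index) with h | h
    · rw [h] at e5; rw [← e5] at e6; simp at e6; omega
    · exact h
  have hU : (C ∪ (N : Set G)).ncard = Nat.card G := by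
    rw [h4] at h3
    rw [h5] at h3 h6
    rw [← e5] at h1 h2 e6
    rw [e4] at e2
    exact arith _ _ _ _ _ _ _ _ _ _ hM2 pa pc pd e1 (e2.trans e3.symm) e6 h1 h2 h3 h6
  have hU' := (Set.eq_univ_iff_ncard _).2 hU
  obtain ⟨x, hxN, hx⟩ := hKN
  have hxU : x ∈ C ∪ (N : Set G) := by rw [hU']; trivial
  rcases hxU with hxC | hxN'
  · rcases hx with h | h
    · exact hxC.1 h
    · obtain ⟨g, hg⟩ := hxC.2
      exact h g hg
  · exact hxN hxN'

theorem mem_map_mk {G : Type*} [Group G] (R N : Subgroup G) [N.Normal] (y : G) :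
    (QuotientGroup.mk' N y) ∈ R.map (QuotientGroup.mk' N) ↔ ∃ r ∈ R, r⁻¹ * y ∈ N := by
  rw [Subgroup.mem_map]
  constructor
  · rintro ⟨r, hr, h⟩
    exact ⟨r, hr, QuotientGroup.eq.1 h⟩
  · rintro ⟨r, hr, h⟩
    exact ⟨r, hr, QuotientGroup.eq.2 h⟩

/-- Let G be a finite Frobenius group with Frobenius complement R and Frobenius kernel K (the identity together with the elements in no conjugate of R), and let N be a normal subgroup of G not containing K. Then G/N is a Frobenius group with Frobenius complement RN/N whose Frobenius kernel is the image of K. -/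
theorem result {G : Type*} [Group G] [Finite G] (R : Subgroup G) (hR : Cfsg.IsFrobeniusComplement R) (N : Subgroup G) [N.Normal] (hKN : ¬ Cfsg.frobeniusKernel R ⊆ N) : Cfsg.IsFrobeniusComplement (R.map (QuotientGroup.mk' N)) ∧ Cfsg.frobeniusKernel (R.map (QuotientGroup.mk' N)) = QuotientGroup.mk' N '' Cfsg.frobeniusKernel R := by
  have hfp := fp_of R hR
  have hNR : N ⊓ R = ⊥ := by
    apply inf_eq_bot R hfp N
    obtain ⟨x, hxK, hxN⟩ := Set.not_subset.1 hKN
    refine ⟨x, hxN, ?_⟩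
    rcases hxK with h | h
    · exact Or.inl h
    · exact Or.inr (fun g hg => h g ((mem_cj R g x).2 hg))
  have key := inj_surj R N hfp hNR
  have key2 : ∀ y : G, y ∉ N → ∀ r ∈ R, r⁻¹ * y ∈ N → ∃ a ∈ N, a⁻¹ * y * a ∈ R := by
    intro y hy r hr hry
    have hr1 : r ≠ 1 := by
      rintro rfl
      simp at hry
      exact hy hry
    obtain ⟨a, ha, h⟩ := key r hr hr1 (r⁻¹ * y) hry
    refine ⟨a, ha, ?_⟩
    have : r * (r⁻¹ * y) = y := by group
    rw [this] at h
    rw [h]; exact hr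
  have conjN : ∀ (x g : G), x ∉ N → g⁻¹ * x * g ∉ N := by
    intro x g hx h
    apply hx
    have := ‹N.Normal›.conj_mem _ h g
    simpa [mul_assoc] using this
  refine ⟨⟨?_, ?_, ?_⟩, ?_⟩
  · intro h
    apply hR.1
    rw [Subgroup.eq_bot_iff_forall]
    intro r hr
    have h1 : QuotientGroup.mk' N r ∈ R.map (QuotientGroup.mk' N) :=
      Subgroup.mem_map_of_mem _ hr
    rw [h, Subgroup.mem_bot] at h1
    have h2 : r ∈ N := (QuotientGroup.eq_one_iff r).1 h1
    have h3 : r ∈ N ⊓ R := ⟨h2, hr⟩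
    rw [hNR] at h3
    exact Subgroup.mem_bot.1 h3
  · intro h
    obtain ⟨k, hkK, hkN⟩ := Set.not_subset.1 hKN
    have h1 : QuotientGroup.mk' N k ∈ R.map (QuotientGroup.mk' N) := by rw [h]; trivial
    obtain ⟨r, hr, hrk⟩ := (mem_map_mk R N k).1 h1
    obtain ⟨a, -, ha⟩ := key2 k hkN r hr hrk
    rcases hkK with h | h
    · exact hkN (h ▸ N.one_mem)
    · exact h a ((mem_cj R a k).2 ha)
  · intro q hq
    obtain ⟨g, rfl⟩ := QuotientGroup.mk'_surjective N q
    rw [Subgroup.eq_bot_iff_forall]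
    intro y hy
    have hy1 : y ∈ R.map (QuotientGroup.mk' N) := hy.1
    have hy2 : y ∈ MulAut.conj ((QuotientGroup.mk' N) g) • R.map (QuotientGroup.mk' N) := hy.2
    obtain ⟨r, hr, rfl⟩ := Subgroup.mem_map.1 hy1
    rw [mem_cj, ← map_inv, ← map_mul, ← map_mul] at hy2
    obtain ⟨r', hr', hrx'⟩ := (mem_map_mk R N _).1 hy2
    by_contra hne
    have hrN : r ∉ N := fun h => hne ((QuotientGroup.eq_one_iff r).2 h)
    have hr1 : r ≠ 1 := by
      rintro rfl
      exact hrN N.one_mem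
    obtain ⟨a, haN, ha⟩ := key2 _ (conjN r g hrN) r' hr' hrx'
    have hga : g * a ∈ R := by
      apply hfp r _ hr _ hr1
      have : (g * a)⁻¹ * r * (g * a) = a⁻¹ * (g⁻¹ * r * g) * a := by group
      rw [this]; exact ha
    apply hq
    refine (mem_map_mk R N g).2 ⟨g * a, hga, ?_⟩
    have : (g * a)⁻¹ * g = a⁻¹ := by group
    rw [this]
    exact N.inv_mem haN
  · ext q
    obtain ⟨x, rfl⟩ := QuotientGroup.mk'_surjective N q
    constructor
    · rintro (h | h)
      · exact ⟨1, Or.inl rfl, by rw [h]; exact map_one _⟩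
      · refine ⟨x, Or.inr ?_, rfl⟩
        intro g hg
        apply h (QuotientGroup.mk' N g)
        rw [mem_cj] at hg ⊢
        rw [← map_inv, ← map_mul, ← map_mul]
        exact Subgroup.mem_map_of_mem _ hg
    · rintro ⟨k, hk, hkx⟩
      rw [← hkx]
      by_cases hkN : k ∈ N
      · exact Or.inl ((QuotientGroup.eq_one_iff k).2 hkN)
      · right
        intro q' hq'
        obtain ⟨g, rfl⟩ := QuotientGroup.mk'_surjective N q'
        rw [mem_cj, ← map_inv, ← map_mul, ← map_mul] at hq'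
        obtain ⟨r, hr, hrk⟩ := (mem_map_mk R N _).1 hq'
        obtain ⟨a, haN, ha⟩ := key2 _ (conjN k g hkN) r hr hrk
        rcases hk with h | h
        · exact hkN (h ▸ N.one_mem)
        · apply h (g * a)
          rw [mem_cj]
          have : (g * a)⁻¹ * k * (g * a) = a⁻¹ * (g⁻¹ * k * g) * a := by group
          rw [this]; exact ha

end Cfsg.Agent.S3768
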