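import Cfsg.Statements.S3770
import Cfsg.Agent.S3764
import Cfsg.Agent.S3768
import Cfsg.Agent.S0042
import Cfsg.Agent.Lib.Helper67.FrobRep

set_option autoImplicit false
open Cfsg

namespace Cfsg.Agent.S3770

open Cfsg.Agent.Lib.Helper67
open Cfsg.Agent.S3764 (conjRep conjRep_apply addSub exists_additive)
open scoped Pointwise

/-- the orbit product of `a ∈ V` under an element `x` of finite order normalizing the
commutative subgroup `V` -/
theorem orbit_prod {X : Type*} [Group X] (K : Type*) [Field K] (V : Subgroup X)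
    (hVcomm : ∀ a ∈ V, ∀ b ∈ V, a * b = b * a) (x : X) (r : ℕ) (hxr : x ^ r = 1)
    (hxV : ∀ i : ℕ, ∀ a, a ∈ V → (x ^ i)⁻¹ * a * x ^ i ∈ V) (a : X) (ha : a ∈ V) :
    ∃ P ∈ V, x * P = P * x ∧
      ∀ f ∈ addSub K V, (∀ b, f (x⁻¹ * b * x) = f b) → f P = (r : K) * f a := by
  let t : ℕ → X := fun k => (x ^ k)⁻¹ * a * x ^ k
  have ht : ∀ k, t k ∈ V := fun k => hxV k a ha
  let Pm : ℕ → X := fun m => Nat.rec 1 (fun k acc => acc * t k) m
  have hPm0 : Pm 0 = 1 := rfl
  have hPmS : ∀ m, Pm (m + 1) = Pm m * t m := fun m => rfl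
  have hPmV : ∀ m, Pm m ∈ V := by
    intro m
    induction m with
    | zero => rw [hPm0]; exact V.one_mem
    | succ m ih => rw [hPmS]; exact V.mul_mem ih (ht m)
  have hPmc : ∀ m, a * (x⁻¹ * Pm m * x) = Pm (m + 1) := by
    intro m
    induction m with
    | zero =>
      rw [hPmS, hPm0]
      simp [t]
    | succ m ih =>
      have e : a * (x⁻¹ * Pm (m + 1) * x)
          = (a * (x⁻¹ * Pm m * x)) * (x⁻¹ * t m * x) := by
        rw [hPmS m]; group
      have e2 : x⁻¹ * t m * x = t (m + 1) := by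
        simp only [t]; rw [pow_succ]; group
      rw [e, ih, e2, ← hPmS (m + 1)]
  have htr : t r = a := by simp [t, hxr]
  have hfixP : x * Pm r = Pm r * x := by
    have h1 := hPmc r
    rw [hPmS, htr, hVcomm _ (hPmV r) a ha] at h1
    have h2 : x⁻¹ * Pm r * x = Pm r := mul_left_cancel h1
    calc x * Pm r = x * (x⁻¹ * Pm r * x) := by rw [h2]
      _ = Pm r * x := by group
  refine ⟨Pm r, hPmV r, hfixP, ?_⟩
  intro f hf hinv
  have hw1 : f 1 = 0 := by
    have h1 := hf.2 1 V.one_mem 1 V.one_mem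
    rw [mul_one] at h1
    have h2 : f 1 + f 1 = f 1 + 0 := by rw [← h1, add_zero]
    exact add_left_cancel h2
  have htw : ∀ k, f (t k) = f a := by
    intro k
    induction k with
    | zero => simp [t]
    | succ k ih =>
      have e : t (k + 1) = x⁻¹ * t k * x := by
        simp only [t]; rw [pow_succ]; group
      rw [e, hinv, ih]
  have hPmw : ∀ m, f (Pm m) = (m : K) * f a := by
    intro m
    induction m with
    | zero => rw [hPm0, hw1]; simp
    | succ m ih =>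
      rw [hPmS, hf.2 _ (hPmV m) _ (ht m), ih, htw]
      push_cast; ring
  exact hPmw r

theorem addSub_pow {X : Type*} [Group X] {K : Type*} [Field K] (V : Subgroup X)
    (f : X → K) (hf : f ∈ addSub K V) (c : X) (hc : c ∈ V) (n : ℕ) :
    f (c ^ n) = (n : K) * f c := by
  have hw1 : f 1 = 0 := by
    have h1 := hf.2 1 V.one_mem 1 V.one_mem
    rw [mul_one] at h1
    have h2 : f 1 + f 1 = f 1 + 0 := by rw [← h1, add_zero]
    exact add_left_cancel h2
  induction n with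
  | zero => rw [pow_zero, hw1]; simp
  | succ n ih =>
    rw [pow_succ, hf.2 _ (V.pow_mem hc n) _ hc, ih]
    push_cast; ring

theorem addSub_inv {X : Type*} [Group X] {K : Type*} [Field K] (V : Subgroup X)
    (g : X) (hg : g ∈ Subgroup.normalizer (V : Set X)) (w : X → K) (hw : w ∈ addSub K V) :
    conjRep K X g w ∈ addSub K V := by
  have hnormV : ∀ a, (g⁻¹ * a * g ∈ V ↔ a ∈ V) := by
    intro a
    have h1 := Subgroup.mem_normalizer_iff.1 (Subgroup.inv_mem _ hg) a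
    rw [inv_inv] at h1
    exact h1.symm
  refine ⟨fun a ha => ?_, fun a ha b hb => ?_⟩
  · rw [conjRep_apply]; exact hw.1 _ (fun hc => ha ((hnormV a).1 hc))
  · rw [conjRep_apply, conjRep_apply, conjRep_apply]
    have e : g⁻¹ * (a * b) * g = (g⁻¹ * a * g) * (g⁻¹ * b * g) := by group
    rw [e]
    exact hw.2 _ ((hnormV a).2 ha) _ ((hnormV b).2 hb)

/-- Let G and V be subgroups of a finite group with G a Frobenius group with complement R of prime order and kernel K, G normalizing V, and V an elementary abelian ℓ-group for a prime ℓ not dividing the order of G. If C_V(R) has order ℓ, then the derived subgroup of K centralizes V. -/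
theorem result {X : Type*} [Group X] [Finite X] (G : Subgroup X) (V : Subgroup X) {ℓ : ℕ} (hℓ : ℓ.Prime) (hV : Cfsg.IsElementaryAbelian ℓ V) (hℓG : ¬ ℓ ∣ Nat.card G) (hGV : G ≤ Subgroup.normalizer (V : Set X)) (R : Subgroup ↥G) (hR : Cfsg.IsFrobeniusComplement R) (hRp : (Nat.card R).Prime) (hCV : Nat.card ↥(V ⊓ Subgroup.centralizer ((R.map G.subtype : Subgroup X) : Set X)) = ℓ) : ⁅Subgroup.closure (Subtype.val '' Cfsg.frobeniusKernel R), Subgroup.closure (Subtype.val '' Cfsg.frobeniusKernel R)⁆ ≤ Subgroup.centralizer (V : Set X) := by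
  classical
  obtain ⟨hVc, hVexp⟩ := hV
  have hVcomm : ∀ a ∈ V, ∀ b ∈ V, a * b = b * a := by
    intro a ha b hb
    exact congrArg Subtype.val (hVc.is_comm.comm ⟨a, ha⟩ ⟨b, hb⟩)
  haveI : Fact ℓ.Prime := ⟨hℓ⟩
  obtain ⟨N, hNset, hNnorm, hNnil⟩ := Cfsg.Agent.S0042.result R hR
  have hKeq : Subgroup.closure (Subtype.val '' Cfsg.frobeniusKernel R) = N.map G.subtype := by
    rw [← hNset]
    have h1 : (Subtype.val '' (N : Set ↥G)) = ((N.map G.subtype : Subgroup X) : Set X) := by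
      rw [Subgroup.coe_map]; rfl
    rw [h1, Subgroup.closure_eq]
  rw [hKeq]
  -- the generator of `R`
  set r := Nat.card R with hr_def
  haveI : Fact r.Prime := ⟨hRp⟩
  haveI : IsCyclic R := isCyclic_of_prime_card hr_def.symm
  obtain ⟨x₀, hx₀⟩ := IsCyclic.exists_generator (α := R)
  have hxR : (x₀ : ↥G) ∈ R := x₀.2
  have hord : orderOf (x₀ : ↥G) = r := by
    rw [Subgroup.orderOf_coe, orderOf_eq_card_of_forall_mem_zpowers hx₀]
  have hxr : (x₀ : ↥G) ^ r = 1 := by rw [← hord]; exact pow_orderOf_eq_one _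
  have hRpow : ∀ y ∈ R, ∃ j : ℤ, (x₀ : ↥G) ^ j = y := by
    intro y hy
    obtain ⟨j, hj⟩ := Subgroup.mem_zpowers_iff.1 (hx₀ ⟨y, hy⟩)
    refine ⟨j, ?_⟩
    have h1 := congrArg Subtype.val hj
    simpa using h1
  -- `x` acts without fixed points on `N`
  have hfpf : ∀ i : ℕ, ¬ r ∣ i → ∀ g ∈ N, (x₀ : ↥G) ^ i * g = g * (x₀ : ↥G) ^ i → g = 1 := by
    intro i hi g hg hcomm
    by_contra hg1
    have hy1 : (x₀ : ↥G) ^ i ≠ 1 := by
      intro hc
      apply hi
      rw [← hord]; exact orderOf_dvd_of_pow_eq_one hc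
    have hyR : (x₀ : ↥G) ^ i ∈ R := R.pow_mem hxR i
    have hgR : g ∈ R := by
      apply Cfsg.Agent.S3768.fp_of R hR _ g hyR _ hy1
      have e : g⁻¹ * (x₀ : ↥G) ^ i * g = (x₀ : ↥G) ^ i := by
        rw [mul_assoc, hcomm]; group
      rw [e]; exact hyR
    have hgK : g ∈ Cfsg.frobeniusKernel R := by rw [← hNset]; exact hg
    rcases hgK with h1 | h1
    · exact hg1 h1
    · apply h1 1
      rw [Cfsg.Agent.S3768.mem_cj]
      simpa using hgR
  -- the field
  let k := AlgebraicClosure (ZMod ℓ)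
  haveI : CharP k ℓ := charP_of_injective_algebraMap (algebraMap (ZMod ℓ) k).injective ℓ
  have hcast : ∀ m : ℕ, m ∣ Nat.card G → (m : k) ≠ 0 := by
    intro m hm hc
    exact hℓG (((CharP.cast_eq_zero_iff k ℓ m).1 hc).trans hm)
  have hKk : (Nat.card N : k) ≠ 0 := hcast _ (Subgroup.card_subgroup_dvd_card N)
  have hrk : (r : k) ≠ 0 := hcast _ (Subgroup.card_subgroup_dvd_card R)
  -- the representation
  let ρ : ↥G →* Module.End k (X → k) := (conjRep k X).comp G.subtype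
  have hρ : ∀ (g : ↥G) (f : X → k) (a : X), ρ g f a = f ((g : X)⁻¹ * a * (g : X)) :=
    fun g f a => rfl
  have hWinv : ∀ g : ↥G, ∀ w ∈ addSub k V, ρ g w ∈ addSub k V :=
    fun g w hw => addSub_inv V (g : X) (hGV g.2) w hw
  have hFInv : FInv ρ N (x₀ : ↥G) (addSub k V) :=
    ⟨fun g _ w hw => hWinv g w hw, fun w hw => hWinv _ w hw⟩
  -- the fixed points of `R` on `V`
  set C := V ⊓ Subgroup.centralizer ((R.map G.subtype : Subgroup X) : Set X) with hC
  haveI : IsCyclic C := isCyclic_of_prime_card hCV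
  obtain ⟨c₀, hc₀⟩ := IsCyclic.exists_generator (α := C)
  have hc₀V : (c₀ : X) ∈ V := c₀.2.1
  have hCpow : ∀ y ∈ C, ∃ n : ℕ, (c₀ : X) ^ n = y := by
    intro y hy
    have h1 : (⟨y, hy⟩ : C) ∈ Submonoid.powers c₀ := mem_powers_iff_mem_zpowers.2 (hc₀ ⟨y, hy⟩)
    obtain ⟨n, hn⟩ := (Submonoid.mem_powers_iff _ _).1 h1
    refine ⟨n, ?_⟩
    have h2 := congrArg Subtype.val hn
    simpa using h2
  have hxV : ∀ i : ℕ, ∀ a, a ∈ V → (((x₀ : ↥G) : X) ^ i)⁻¹ * a * ((x₀ : ↥G) : X) ^ i ∈ V := by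
    intro i a ha
    have h0 : ((x₀ : ↥G) : X) ^ i ∈ Subgroup.normalizer (V : Set X) :=
      Subgroup.pow_mem _ (hGV (x₀ : ↥G).2) i
    have h1 := Subgroup.mem_normalizer_iff.1 (Subgroup.inv_mem _ h0) a
    rw [inv_inv] at h1
    exact h1.1 ha
  have hcentR : ∀ P : X, ((x₀ : ↥G) : X) * P = P * ((x₀ : ↥G) : X) →
      P ∈ Subgroup.centralizer ((R.map G.subtype : Subgroup X) : Set X) := by
    intro P hP
    rw [Subgroup.mem_centralizer_iff]
    rintro y ⟨y', hy', rfl⟩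
    obtain ⟨j, rfl⟩ := hRpow y' hy'
    have h1 : G.subtype ((x₀ : ↥G) ^ j) = ((x₀ : ↥G) : X) ^ j := by simp
    rw [h1]
    exact ((show Commute ((x₀ : ↥G) : X) P from hP).zpow_left j).eq
  -- an invariant additive function vanishing at the generator of `C` vanishes
  have hkey : ∀ f ∈ addSub k V, ρ (x₀ : ↥G) f = f → f (c₀ : X) = 0 → f = 0 := by
    intro f hf hfx hfc
    have hinv : ∀ b : X, f (((x₀ : ↥G) : X)⁻¹ * b * ((x₀ : ↥G) : X)) = f b := by
      intro b
      have h1 := congrFun hfx b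
      rw [hρ] at h1
      exact h1
    funext a
    by_cases ha : a ∈ V
    · obtain ⟨P, hPV, hPx, hPf⟩ := orbit_prod k V hVcomm ((x₀ : ↥G) : X) r
        (by have h1 := congrArg Subtype.val hxr; simpa using h1) hxV a ha
      have hPC : P ∈ C := ⟨hPV, hcentR P hPx⟩
      obtain ⟨n, hn⟩ := hCpow P hPC
      have h1 := hPf f hf hinv
      rw [← hn, addSub_pow V f hf _ hc₀V n, hfc, mul_zero] at h1
      rcases mul_eq_zero.1 h1.symm with h2 | h2
      · exact absurd h2 hrk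
      · exact h2
    · exact hf.1 a ha
  have hfix : ∀ v ∈ addSub k V, ∀ w ∈ addSub k V, ρ (x₀ : ↥G) v = v → ρ (x₀ : ↥G) w = w →
      ∃ a b : k, (a ≠ 0 ∨ b ≠ 0) ∧ a • v + b • w = 0 := by
    intro v hv w hw hxv hxw
    by_cases hvc : v (c₀ : X) = 0
    · refine ⟨1, 0, Or.inl one_ne_zero, ?_⟩
      rw [hkey v hv hxv hvc]; simp
    · refine ⟨w (c₀ : X), -v (c₀ : X), Or.inr (neg_ne_zero.2 hvc), ?_⟩
      apply hkey
      · exact (addSub k V).add_mem ((addSub k V).smul_mem _ hv) ((addSub k V).smul_mem _ hw)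
      · rw [map_add, map_smul, map_smul, hxv, hxw]
      · simp only [Pi.add_apply, Pi.smul_apply, smul_eq_mul]; ring
  have hmain := frob_comm_trivial ρ N (x₀ : ↥G) r hRp hxr
    (fun g hg => hNnorm.conj_mem g hg _) hfpf hNnil hKk hrk (addSub k V) hFInv hfix
  -- conclusion
  rw [Subgroup.commutator_le]
  rintro g₁ ⟨n₁, hn₁, rfl⟩ g₂ ⟨n₂, hn₂, rfl⟩
  rw [commutatorElement_def, Subgroup.mem_centralizer_iff]
  intro v hv
  by_contra hne
  set c : ↥G := n₁ * n₂ * n₁⁻¹ * n₂⁻¹ with hc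
  have hcX : G.subtype n₁ * G.subtype n₂ * (G.subtype n₁)⁻¹ * (G.subtype n₂)⁻¹ = (c : X) := by
    simp [hc]
  rw [hcX] at hne
  have hcN : (c : X) ∈ Subgroup.normalizer (V : Set X) := hGV c.2
  have hu : (c : X)⁻¹ * v * (c : X) * v⁻¹ ∈ V := by
    have h1 := Subgroup.mem_normalizer_iff.1 (Subgroup.inv_mem _ hcN) v
    rw [inv_inv] at h1
    exact V.mul_mem (h1.1 hv) (V.inv_mem hv)
  have hu1 : (c : X)⁻¹ * v * (c : X) * v⁻¹ ≠ 1 := by
    intro h1
    apply hne
    calc v * (c : X) = (c : X) * ((c : X)⁻¹ * v * (c : X) * v⁻¹) * v := by group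
      _ = (c : X) * v := by rw [h1, mul_one]
  obtain ⟨f₀, hf₀, hf₀u⟩ := exists_additive k V hVcomm hVexp _ hu hu1
  have h1 := congrFun (hmain n₁ hn₁ n₂ hn₂ f₀ hf₀) v
  rw [hρ] at h1
  have e : (c : X)⁻¹ * v * (c : X) = ((c : X)⁻¹ * v * (c : X) * v⁻¹) * v := by group
  rw [← hc, e, hf₀.2 _ hu _ hv] at h1
  exact hf₀u (by simpa using h1)

end Cfsg.Agent.S3770
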