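import Cfsg.Statements.S3772
import Mathlib

set_option autoImplicit false
open Cfsg

namespace Cfsg.Agent.S3772

open scoped commutatorElement Pointwise

theorem sq_mem_coatom {G : Type*} [Group G] [Finite G] (hG : IsPGroup 2 G) (M : Subgroup G)
    (hM : IsCoatom M) (x : G) : x ^ 2 ∈ M := by
  have : Fact (Nat.Prime 2) := ⟨Nat.prime_two⟩
  have := hG.isNilpotent
  have hnorm : M.Normal :=
    Subgroup.NormalizerCondition.normal_of_coatom M Group.normalizerCondition_of_isNilpotent hM
  by_contra hx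
  have hlt : M < M ⊔ Subgroup.zpowers (x ^ 2) := by
    refine lt_of_le_of_ne le_sup_left ?_
    intro h
    apply hx
    rw [h]
    exact (le_sup_right : Subgroup.zpowers (x ^ 2) ≤ _) (Subgroup.mem_zpowers _)
  have htop := hM.2 _ hlt
  have hxm : x ∈ ((M ⊔ Subgroup.zpowers (x ^ 2) : Subgroup G) : Set G) := by
    rw [htop]; trivial
  rw [Subgroup.normal_mul, Set.mem_mul] at hxm
  obtain ⟨m, hm, y, hy, hmy⟩ := hxm
  obtain ⟨n, hn⟩ := Subgroup.mem_zpowers_iff.1 hy
  obtain ⟨k, hk⟩ := hG x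
  have hm' : m = x ^ (1 - 2 * n) := by
    have : m = x * y⁻¹ := by rw [← hmy]; group
    rw [this, ← hn, zpow_sub, zpow_one, zpow_mul]
    norm_cast
  have hcop : IsCoprime (1 - 2 * n) ((2 : ℤ) ^ k) :=
    IsCoprime.pow_right ⟨1, n, by ring⟩
  obtain ⟨a, b, hab⟩ := hcop
  have hx1 : x = m ^ a := by
    have h1 : x ^ ((2 : ℤ) ^ k) = 1 := by
      have : ((2 : ℤ) ^ k) = ((2 ^ k : ℕ) : ℤ) := by norm_cast
      rw [this, zpow_natCast, hk]
    calc x = x ^ (1 : ℤ) := (zpow_one x).symm
      _ = x ^ (a * (1 - 2 * n) + b * 2 ^ k) := by rw [hab]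
      _ = (x ^ (1 - 2 * n)) ^ a * (x ^ ((2 : ℤ) ^ k)) ^ b := by
        rw [zpow_add, ← zpow_mul, ← zpow_mul, mul_comm a, mul_comm b]
      _ = m ^ a := by rw [h1, one_zpow, mul_one, hm']
  apply hx
  have hxM : x ∈ M := by rw [hx1]; exact M.zpow_mem hm a
  exact M.pow_mem hxM 2

theorem sq_mem_frattini {G : Type*} [Group G] [Finite G] (hG : IsPGroup 2 G) (x : G) :
    x ^ 2 ∈ frattini G := by
  unfold frattini Order.radical
  rw [Subgroup.mem_iInf]
  intro M
  rw [Subgroup.mem_iInf]
  intro hM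
  exact sq_mem_coatom hG M hM x

theorem comm_mem_frattini {G : Type*} [Group G] [Finite G] (hG : IsPGroup 2 G) (x y : G) :
    ⁅x, y⁆ ∈ frattini G := by
  have h : ⁅x, y⁆ = (x * y) ^ 2 * (y⁻¹ * x⁻¹ * y) ^ 2 * (y⁻¹) ^ 2 := by
    rw [commutatorElement_def]; simp only [pow_two]; group
  rw [h]
  exact (frattini G).mul_mem ((frattini G).mul_mem (sq_mem_frattini hG _) (sq_mem_frattini hG _))
    (sq_mem_frattini hG _)

theorem frattini_bot_of_exp_two {G : Type*} [Group G] [Finite G] (h2 : ∀ x : G, x ^ 2 = 1) :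
    frattini G = ⊥ := by
  rw [Subgroup.eq_bot_iff_forall]
  intro z hz
  by_contra hz1
  have hcomm : ∀ a b : G, a * b = b * a := by
    intro a b
    have h1 := h2 (a * b)
    have ha := h2 a
    have hb := h2 b
    have : a * b = (a * b)⁻¹ := by rw [eq_inv_iff_mul_eq_one, ← sq]; exact h1
    rw [this, mul_inv_rev]
    have ha' : a⁻¹ = a := by rw [inv_eq_iff_mul_eq_one, ← sq]; exact ha
    have hb' : b⁻¹ = b := by rw [inv_eq_iff_mul_eq_one, ← sq]; exact hb
    rw [ha', hb']
  obtain ⟨M, hMz, hMmax⟩ : ∃ M : Subgroup G, z ∉ M ∧ ∀ K : Subgroup G, z ∉ K → M ≤ K → K = M := by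
    have hne : ({H : Subgroup G | z ∉ H}).Nonempty := ⟨⊥, fun h => hz1 (Subgroup.mem_bot.1 h)⟩
    obtain ⟨M, hM⟩ := Set.Finite.exists_maximal (Set.toFinite {H : Subgroup G | z ∉ H}) hne
    exact ⟨M, hM.1, fun K hK hMK => le_antisymm (hM.2 hK hMK) hMK⟩
  have htop : M ⊔ frattini G = ⊤ := by
    rw [eq_top_iff]
    intro y _
    by_cases hy : y ∈ M
    · exact (le_sup_left : M ≤ _) hy
    · have hzy : z ∈ M ⊔ Subgroup.zpowers y := by
        by_contra hzy
        have := hMmax _ hzy le_sup_left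
        apply hy
        rw [← this]
        exact (le_sup_right : Subgroup.zpowers y ≤ _) (Subgroup.mem_zpowers y)
      have : (Subgroup.zpowers y).Normal := ⟨fun n hn g => by
        rw [hcomm g n, mul_assoc, mul_inv_cancel, mul_one]; exact hn⟩
      have hzy' : z ∈ ((M ⊔ Subgroup.zpowers y : Subgroup G) : Set G) := hzy
      rw [Subgroup.mul_normal, Set.mem_mul] at hzy'
      obtain ⟨m, hm, w, hw, hmw⟩ := hzy'
      obtain ⟨n, hn⟩ := Subgroup.mem_zpowers_iff.1 hw
      have hw' : w = 1 ∨ w = y := by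
        rcases Int.emod_two_eq_zero_or_one n with h | h
        · left
          rw [← hn, ← Int.mul_ediv_add_emod n 2, h, add_zero, zpow_mul]
          have : y ^ (2 : ℤ) = 1 := by exact_mod_cast h2 y
          rw [this, one_zpow]
        · right
          rw [← hn, ← Int.mul_ediv_add_emod n 2, h, zpow_add, zpow_mul, zpow_one]
          have : y ^ (2 : ℤ) = 1 := by exact_mod_cast h2 y
          rw [this, one_zpow, one_mul]
      rcases hw' with rfl | rfl
      · exfalso
        apply hMz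
        rw [← hmw, mul_one]; exact hm
      · have : w = m⁻¹ * z := by rw [← hmw]; group
        rw [this]
        exact Subgroup.mul_mem _ ((le_sup_left : M ≤ _) (M.inv_mem hm))
          ((le_sup_right : frattini G ≤ _) hz)
  have := frattini_nongenerating htop
  apply hMz
  rw [this]; trivial

theorem sum_zero_of_mul {H : Type*} [Group H] [Fintype H] (f : H → ℤ)
    (g : H) (hg : ∀ x, f (g * x) = - f x) : ∑ x, f x = 0 := by
  have h1 : ∑ x, f x = ∑ x, f (g * x) := (Equiv.sum_comp (Equiv.mulLeft g) f).symm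
  have h2 : ∑ x, f (g * x) = - ∑ x, f x := by
    simp_rw [hg]
    rw [Finset.sum_neg_distrib]
  linarith

theorem char_sum {G : Type*} [Group G] [Fintype G] [DecidableEq G] (Φ : Subgroup G) (z : G)
    (hz1 : z ≠ 1) (hΦ : ∀ a ∈ Φ, a = 1 ∨ a = z) (hsq : ∀ x : G, x ^ 2 ∈ Φ)
    (hcomm : ∀ x y : G, ⁅x, y⁆ ∈ Φ) :
    (∑ x : G, (if x ^ 2 = 1 then (1 : ℤ) else -1)) = 0 ∨
    (∑ x : G, (if x ^ 2 = 1 then (1 : ℤ) else -1)) ^ 2
      = (Nat.card G : ℤ) * (Nat.card (Subgroup.center G) : ℤ) := by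
  classical
  set ε : G → ℤ := fun a => if a = 1 then (1 : ℤ) else -1 with hε
  have hε1 : ε 1 = 1 := by simp [hε]
  have hεz : ε z = -1 := by simp [hε, hz1]
  have hε_sq : ∀ a, ε a * ε a = 1 := by
    intro a
    by_cases h : a = 1 <;> simp [hε, h]
  have hzz : z * z = 1 := by
    rcases hΦ _ (hsq z) with h | h
    · rw [← sq]; exact h
    · exfalso
      apply hz1
      have : z * z = z * 1 := by rw [← sq, h, mul_one]
      exact mul_left_cancel this
  have hcent : ∀ a ∈ Φ, ∀ g : G, g * a = a * g := by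
    intro a ha g
    rcases hΦ a ha with rfl | rfl
    · simp
    · rcases hΦ _ (hcomm g a) with h | h
      · exact (commutatorElement_eq_one_iff_commute.1 h).eq
      · exfalso
        apply hz1
        rw [commutatorElement_def] at h
        have h2 : g * a * g⁻¹ = a * a := by
          have : g * a * g⁻¹ = g * a * g⁻¹ * a⁻¹ * a := by group
          rw [this, h]
        rw [hzz] at h2
        have : a = g⁻¹ * (g * a * g⁻¹) * g := by group
        rw [this, h2]; group
  have hε_mul : ∀ a ∈ Φ, ∀ b ∈ Φ, ε (a * b) = ε a * ε b := by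
    intro a ha b hb
    rcases hΦ a ha with rfl | rfl
    · simp [hε1]
    · rcases hΦ b hb with rfl | rfl
      · simp [hε1]
      · rw [hzz, hε1, hεz]; norm_num
  set χ : G → ℤ := fun x => ε (x ^ 2) with hχ
  have key : ∀ x w, χ x * χ (x * w) = χ w * ε ⁅x⁻¹, w⁆ := by
    intro x w
    have h1 : (x * w) ^ 2 = x ^ 2 * (⁅x⁻¹, w⁆ * w ^ 2) := by
      rw [commutatorElement_def]; simp only [pow_two]; group
    have h2 : χ (x * w) = ε (x ^ 2) * (ε ⁅x⁻¹, w⁆ * ε (w ^ 2)) := by
      show ε ((x * w) ^ 2) = _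
      rw [h1, hε_mul _ (hsq x) _ (Φ.mul_mem (hcomm _ _) (hsq w)),
        hε_mul _ (hcomm _ _) _ (hsq w)]
    rw [h2]
    show ε (x ^ 2) * (ε (x ^ 2) * (ε ⁅x⁻¹, w⁆ * ε (w ^ 2))) = ε (w ^ 2) * ε ⁅x⁻¹, w⁆
    rw [← mul_assoc, hε_sq]; ring
  have inner : ∀ w, ∑ x : G, ε ⁅x⁻¹, w⁆
      = if w ∈ Subgroup.center G then (Nat.card G : ℤ) else 0 := by
    intro w
    split_ifs with hw
    · have : ∀ x : G, ε ⁅x⁻¹, w⁆ = 1 := by
        intro x
        have : ⁅x⁻¹, w⁆ = 1 := by
          rw [commutatorElement_eq_one_iff_commute]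
          exact (Subgroup.mem_center_iff.1 hw x⁻¹)
        rw [this, hε1]
      simp [this, Nat.card_eq_fintype_card]
    · rw [Subgroup.mem_center_iff] at hw
      push Not at hw
      obtain ⟨g, hg⟩ := hw
      apply sum_zero_of_mul (fun x => ε ⁅x⁻¹, w⁆) g⁻¹
      intro x
      have h1 : ⁅(g⁻¹ * x)⁻¹, w⁆ = ⁅g, w⁆ * ⁅x⁻¹, w⁆ := by
        have hc := hcent _ (hcomm g w) x⁻¹
        have : ⁅(g⁻¹ * x)⁻¹, w⁆ = x⁻¹ * ⁅g, w⁆ * x * ⁅x⁻¹, w⁆ := by
          simp only [commutatorElement_def]; group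
        rw [this, hc]; group
      have h2 : ⁅g, w⁆ = z := by
        rcases hΦ _ (hcomm g w) with h | h
        · exact absurd (commutatorElement_eq_one_iff_commute.1 h).eq hg
        · exact h
      show ε ⁅(g⁻¹ * x)⁻¹, w⁆ = - ε ⁅x⁻¹, w⁆
      rw [h1, hε_mul _ (hcomm _ _) _ (hcomm _ _), h2, hεz]; ring
  have hT : (∑ x : G, χ x) ^ 2
      = ∑ w : G, χ w * (if w ∈ Subgroup.center G then (Nat.card G : ℤ) else 0) := by
    rw [sq, Finset.sum_mul_sum]
    have : ∀ x : G, ∑ y : G, χ x * χ y = ∑ w : G, χ w * ε ⁅x⁻¹, w⁆ := by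
      intro x
      rw [← Equiv.sum_comp (Equiv.mulLeft x) (fun y => χ x * χ y)]
      exact Finset.sum_congr rfl (fun w _ => key x w)
    simp_rw [this]
    rw [Finset.sum_comm]
    exact Finset.sum_congr rfl (fun w _ => by rw [← Finset.mul_sum, inner])
  show (∑ x : G, χ x) = 0 ∨ (∑ x : G, χ x) ^ 2
      = (Nat.card G : ℤ) * (Nat.card (Subgroup.center G) : ℤ)
  set F : G → ℤ := fun w => if w ∈ Subgroup.center G then χ w else 0 with hF
  have hT2 : (∑ x : G, χ x) ^ 2 = (Nat.card G : ℤ) * ∑ w : G, F w := by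
    rw [hT, Finset.mul_sum]
    apply Finset.sum_congr rfl
    intro w _
    simp only [hF]
    split_ifs <;> ring
  by_cases hex : ∃ a ∈ Subgroup.center G, χ a = -1
  · left
    obtain ⟨a, ha, hχa⟩ := hex
    have hFz : ∑ w : G, F w = 0 := by
      apply sum_zero_of_mul F a
      intro w
      simp only [hF]
      by_cases hw : w ∈ Subgroup.center G
      · rw [if_pos hw, if_pos (Subgroup.mul_mem _ ha hw)]
        have h1 : (a * w) ^ 2 = a ^ 2 * w ^ 2 := by
          have hc : Commute a w := (Subgroup.mem_center_iff.1 ha w).symm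
          exact hc.mul_pow 2
        show ε ((a * w) ^ 2) = - ε (w ^ 2)
        rw [h1, hε_mul _ (hsq a) _ (hsq w)]
        have : ε (a ^ 2) = -1 := hχa
        rw [this]; ring
      · have hw' : a * w ∉ Subgroup.center G := by
          intro h
          apply hw
          have := Subgroup.mul_mem _ (Subgroup.inv_mem _ ha) h
          simpa using this
        rw [if_neg hw, if_neg hw']; ring
    rw [hFz, mul_zero] at hT2
    exact pow_eq_zero_iff (two_ne_zero) |>.1 hT2
  · right
    push Not at hex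
    have hF1 : ∀ w : G, F w = if w ∈ Subgroup.center G then 1 else 0 := by
      intro w
      simp only [hF]
      split_ifs with hw
      · have h := hex w hw
        show ε (w ^ 2) = 1
        have h' : ε (w ^ 2) ≠ -1 := h
        simp only [hε] at h' ⊢
        split_ifs at h' ⊢ with h3
        · rfl
        · exact absurd rfl h'
      · rfl
    rw [hT2]
    congr 1
    simp_rw [hF1]
    rw [Finset.sum_boole]
    congr 1
    exact (Nat.subtype_card _ (by simp)).symm

theorem central_of {G : Type*} [Group G] (Φ : Subgroup G) (z : G)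
    (hz1 : z ≠ 1) (hΦ : ∀ a ∈ Φ, a = 1 ∨ a = z) (hsq : ∀ x : G, x ^ 2 ∈ Φ)
    (hcomm : ∀ x y : G, ⁅x, y⁆ ∈ Φ) : ∀ a ∈ Φ, ∀ g : G, g * a = a * g := by
  have hzz : z * z = 1 := by
    rcases hΦ _ (hsq z) with h | h
    · rw [← sq]; exact h
    · exfalso
      apply hz1
      have : z * z = z * 1 := by rw [← sq, h, mul_one]
      exact mul_left_cancel this
  intro a ha g
  rcases hΦ a ha with rfl | rfl
  · simp
  · rcases hΦ _ (hcomm g a) with h | h
    · exact (commutatorElement_eq_one_iff_commute.1 h).eq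
    · exfalso
      apply hz1
      rw [commutatorElement_def] at h
      have h2 : g * a * g⁻¹ = a * a := by
        have : g * a * g⁻¹ = g * a * g⁻¹ * a⁻¹ * a := by group
        rw [this, h]
      rw [hzz] at h2
      have : a = g⁻¹ * (g * a * g⁻¹) * g := by group
      rw [this, h2]; group

theorem arith1 (j d c : ℕ) (hc : 1 ≤ c)
    (h : (2 * (j : ℤ) - 2 ^ (d + 1)) ^ 2 = 2 ^ (d + 1) * 2 ^ c) :
    ∃ s, s + s + 1 = d + c ∧ (j = 2 ^ d + 2 ^ s ∨ j + 2 ^ s = 2 ^ d) := by
  obtain ⟨c', rfl⟩ : ∃ c', c = c' + 1 := ⟨c - 1, by omega⟩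
  have h1 : ((j : ℤ) - 2 ^ d) ^ 2 = 2 ^ (d + c') := by
    have e1 : (2 * (j : ℤ) - 2 ^ (d + 1)) = 2 * ((j : ℤ) - 2 ^ d) := by ring
    rw [e1] at h
    have e2 : (2 * ((j : ℤ) - 2 ^ d)) ^ 2 = 4 * ((j : ℤ) - 2 ^ d) ^ 2 := by ring
    have e3 : (2 : ℤ) ^ (d + 1) * 2 ^ (c' + 1) = 4 * 2 ^ (d + c') := by ring
    linarith
  have h2 : Int.natAbs ((j : ℤ) - 2 ^ d) * Int.natAbs ((j : ℤ) - 2 ^ d) = 2 ^ (d + c') := by
    have : ((Int.natAbs ((j : ℤ) - 2 ^ d) : ℤ)) * (Int.natAbs ((j : ℤ) - 2 ^ d) : ℤ)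
        = 2 ^ (d + c') := by
      rw [Int.natAbs_mul_self', ← sq, h1]
    exact_mod_cast this
  obtain ⟨s, hs, hns⟩ := (Nat.dvd_prime_pow Nat.prime_two).1 (Dvd.intro _ h2)
  rw [hns, ← pow_add] at h2
  have h3 : s + s = d + c' := Nat.pow_right_injective (le_refl 2) h2
  refine ⟨s, by omega, ?_⟩
  rcases Int.natAbs_eq ((j : ℤ) - 2 ^ d) with h | h
  · left
    rw [hns] at h
    have : (j : ℤ) = 2 ^ d + 2 ^ s := by push_cast at h; linarith
    exact_mod_cast this
  · right
    rw [hns] at h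
    have : (j : ℤ) + 2 ^ s = 2 ^ d := by push_cast at h; linarith
    exact_mod_cast this

theorem arith2 (j r Z : ℕ) (hj : j = 2 ^ (2 * r) + 2 ^ r ∨ j + 2 ^ r = 2 ^ (2 * r))
    (h : (2 * (j : ℤ) - 2 ^ (2 * r + 1)) = 0 ∨
      (2 * (j : ℤ) - 2 ^ (2 * r + 1)) ^ 2 = 2 ^ (2 * r + 1) * (Z : ℤ)) : Z = 2 := by
  have ha : (0 : ℤ) < 2 ^ r := by positivity
  have e1 : (2 : ℤ) ^ (2 * r) = (2 ^ r) ^ 2 := by rw [← pow_mul, mul_comm]
  have e2 : (2 : ℤ) ^ (2 * r + 1) = 2 * (2 ^ r) ^ 2 := by rw [pow_succ, e1]; ring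
  have hT : (2 * (j : ℤ) - 2 ^ (2 * r + 1)) ^ 2 = 4 * (2 ^ r) ^ 2 ∧
      (2 * (j : ℤ) - 2 ^ (2 * r + 1)) ≠ 0 := by
    rcases hj with hj | hj
    · have hj' : (j : ℤ) = (2 ^ r) ^ 2 + 2 ^ r := by
        rw [← e1]; exact_mod_cast hj
      rw [e2, hj']
      constructor
      · ring
      · intro h0
        have : (2 : ℤ) * 2 ^ r = 0 := by linarith
        linarith
    · have hj' : (j : ℤ) + 2 ^ r = (2 ^ r) ^ 2 := by
        rw [← e1]; exact_mod_cast hj
      have hj'' : (j : ℤ) = (2 ^ r) ^ 2 - 2 ^ r := by linarith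
      rw [e2, hj'']
      constructor
      · ring
      · intro h0
        have : (2 : ℤ) * 2 ^ r = 0 := by linarith
        linarith
  rcases h with h | h
  · exact absurd h hT.2
  · rw [hT.1, e2] at h
    have hpos : (0 : ℤ) < 2 * (2 ^ r) ^ 2 := by positivity
    have : (2 * (2 ^ r) ^ 2 : ℤ) * 2 = 2 * (2 ^ r) ^ 2 * (Z : ℤ) := by linarith
    have := mul_left_cancel₀ (ne_of_gt hpos) this
    exact_mod_cast this.symm

/-- Let G be a finite 2-group whose Frattini subgroup Φ(G) has order 2, with |G : Φ(G)| = 2^d, and let j be the number of elements x of G with x² = 1. Then j = 2^d, or j = 2^d + 2^(d−r) or j = 2^d − 2^(d−r) for some positive integer r with 2r ≤ d. Moreover if d = 2r and j is 2^d + 2^r or 2^d − 2^r, then G is extraspecial. -/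
theorem result {G : Type*} [Group G] [Finite G] (hG : IsPGroup 2 G) (hΦ : Nat.card (frattini G) = 2) (d : ℕ) (hd : (frattini G).index = 2 ^ d) : (Nat.card {x : G // x ^ 2 = 1} = 2 ^ d ∨ ∃ r : ℕ, 1 ≤ r ∧ 2 * r ≤ d ∧ (Nat.card {x : G // x ^ 2 = 1} = 2 ^ d + 2 ^ (d - r) ∨ Nat.card {x : G // x ^ 2 = 1} + 2 ^ (d - r) = 2 ^ d)) ∧ (∀ r : ℕ, d = 2 * r → (Nat.card {x : G // x ^ 2 = 1} = 2 ^ d + 2 ^ r ∨ Nat.card {x : G // x ^ 2 = 1} + 2 ^ r = 2 ^ d) → Cfsg.IsExtraspecial 2 G) := by
  classical
  haveI : Fintype G := Fintype.ofFinite G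
  have hsq := sq_mem_frattini hG
  have hcomm := comm_mem_frattini hG
  obtain ⟨z, hz⟩ := (Nat.card_eq_two_iff' (1 : ↥(frattini G))).1 hΦ
  have hz1 : (z : G) ≠ 1 := fun h => hz.1 (Subtype.ext h)
  have hΦ' : ∀ a ∈ frattini G, a = 1 ∨ a = (z : G) := by
    intro a ha
    by_cases h : a = 1
    · exact Or.inl h
    · right
      have := hz.2 ⟨a, ha⟩ (fun h' => h (congrArg Subtype.val h'))
      exact congrArg Subtype.val this
  have hcs := char_sum (frattini G) (z : G) hz1 hΦ' hsq hcomm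
  have hcent := central_of (frattini G) (z : G) hz1 hΦ' hsq hcomm
  set j := Nat.card {x : G // x ^ 2 = 1} with hj
  have hjf : j = (Finset.filter (fun x : G => x ^ 2 = 1) Finset.univ).card :=
    Nat.subtype_card _ (by simp)
  have hT : (∑ x : G, (if x ^ 2 = 1 then (1 : ℤ) else -1))
      = 2 * (j : ℤ) - (Nat.card G : ℤ) := by
    have h1 : ∀ x : G, (if x ^ 2 = 1 then (1 : ℤ) else -1)
        = 2 * (if x ^ 2 = 1 then (1 : ℤ) else 0) - 1 := by
      intro x; split_ifs <;> norm_num
    simp_rw [h1]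
    rw [Finset.sum_sub_distrib, ← Finset.mul_sum, Finset.sum_boole]
    simp only [Finset.sum_const, Finset.card_univ, nsmul_eq_mul, mul_one]
    rw [hjf, Nat.card_eq_fintype_card]
  have hGc : Nat.card G = 2 ^ (d + 1) := by
    rw [← Subgroup.card_mul_index (frattini G), hΦ, hd]; ring
  rw [hT, hGc] at hcs
  push_cast at hcs
  have hΦZ : frattini G ≤ Subgroup.center G := by
    intro a ha
    rw [Subgroup.mem_center_iff]
    intro g
    exact hcent a ha g
  obtain ⟨c, hc, hZc⟩ : ∃ c ≤ d + 1, Nat.card (Subgroup.center G) = 2 ^ c := by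
    have := Subgroup.card_subgroup_dvd_card (Subgroup.center G)
    rw [hGc] at this
    exact (Nat.dvd_prime_pow Nat.prime_two).1 this
  have hc1 : 1 ≤ c := by
    have h2 : Nat.card (frattini G) ≤ Nat.card (Subgroup.center G) := Subgroup.card_le_of_le hΦZ
    rw [hΦ, hZc] at h2
    by_contra h0
    have : c = 0 := by omega
    rw [this] at h2
    norm_num at h2
  have hnonab : Subgroup.center G ≠ ⊤ → c + 1 ≤ d := by
    intro hne
    by_contra hcd
    have hcd' : c = d ∨ c = d + 1 := by omega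
    rcases hcd' with rfl | rfl
    · have hidx : (Subgroup.center G).index = 2 := by
        have := Subgroup.card_mul_index (Subgroup.center G)
        rw [hZc, hGc, pow_succ] at this
        exact Nat.eq_of_mul_eq_mul_left (by positivity) this
      haveI : Fact (Nat.Prime 2) := ⟨Nat.prime_two⟩
      haveI : IsCyclic (G ⧸ Subgroup.center G) := isCyclic_of_prime_card (p := 2) hidx
      apply hne
      rw [eq_top_iff]
      intro a _
      rw [Subgroup.mem_center_iff]
      intro g
      exact commutative_of_cyclic_center_quotient (QuotientGroup.mk' (Subgroup.center G))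
        (by rw [QuotientGroup.ker_mk']) g a
    · apply hne
      exact Subgroup.eq_top_of_card_eq _ (by rw [hZc, hGc])
  constructor
  · rcases hcs with h0 | hsq2
    · left
      have : (j : ℤ) = 2 ^ d := by
        rw [pow_succ] at h0; linarith
      exact_mod_cast this
    · right
      rw [hZc] at hsq2
      push_cast at hsq2
      obtain ⟨s, hs, hjs⟩ := arith1 j d c hc1 hsq2
      by_cases hZ : Subgroup.center G = ⊤
      · exfalso
        have hcd : c = d + 1 := by
          have h1 : Nat.card (Subgroup.center G) = Nat.card G := by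
            rw [hZ]; exact Subgroup.card_top
          rw [hZc, hGc] at h1
          exact Nat.pow_right_injective (le_refl 2) h1
        have hsd : s = d := by omega
        subst hsd
        rcases hjs with hj1 | hj1
        · have hall : ∀ x : G, x ^ 2 = 1 := by
            have h1 : (Finset.filter (fun x : G => x ^ 2 = 1) Finset.univ).card
                = (Finset.univ : Finset G).card := by
              rw [← hjf, hj1, Finset.card_univ, ← Nat.card_eq_fintype_card, hGc]; ring
            intro x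
            exact (Finset.card_filter_eq_iff.1 h1) x (Finset.mem_univ x)
          have := frattini_bot_of_exp_two hall
          rw [this] at hΦ
          simp at hΦ
        · have hpos : 0 < j := by
            haveI : Nonempty {x : G // x ^ 2 = 1} := ⟨⟨1, one_pow 2⟩⟩
            exact Nat.card_pos
          omega
      · have hcd := hnonab hZ
        refine ⟨d - s, by omega, by omega, ?_⟩
        have : d - (d - s) = s := by omega
        rw [this]
        exact hjs
  · intro r hdr hjr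
    subst hdr
    have hZ2 : Nat.card (Subgroup.center G) = 2 := arith2 j r _ hjr hcs
    have hFZ : frattini G = Subgroup.center G :=
      Subgroup.eq_of_le_of_card_ge hΦZ (by rw [hΦ, hZ2])
    have hCF : commutator G ≤ frattini G := by
      rw [commutator_def, Subgroup.commutator_le]
      intro a _ b _
      exact hcomm a b
    have hCne : commutator G ≠ ⊥ := by
      intro hbot
      have hZtop : Subgroup.center G = ⊤ := by
        rw [eq_top_iff]
        intro a _
        rw [Subgroup.mem_center_iff]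
        intro g
        have : ⁅g, a⁆ ∈ commutator G := by
          rw [commutator_def]
          exact Subgroup.commutator_mem_commutator (Subgroup.mem_top g) (Subgroup.mem_top a)
        rw [hbot, Subgroup.mem_bot] at this
        exact (commutatorElement_eq_one_iff_commute.1 this).eq
      have hFtop : frattini G = ⊤ := by rw [hFZ, hZtop]
      have h1 : (⊥ : Subgroup G) ⊔ frattini G = ⊤ := by rw [hFtop]; simp
      have h2 := frattini_nongenerating h1
      have h3 : Nat.card (frattini G) = 1 := by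
        rw [hFtop, ← h2]; simp
      omega
    have hC2 : Nat.card (frattini G) ≤ Nat.card (commutator G) := by
      rw [hΦ]
      haveI : Nontrivial (commutator G) := (Subgroup.nontrivial_iff_ne_bot _).2 hCne
      exact Finite.one_lt_card
    have hCF' : commutator G = frattini G := Subgroup.eq_of_le_of_card_ge hCF hC2
    exact ⟨⟨hG, hFZ, by rw [hCF', hFZ]⟩, hZ2⟩

end Cfsg.Agent.S3772
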