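import Cfsg.Statements.S3774
import Mathlib

set_option autoImplicit false
open Cfsg

namespace Cfsg.Agent.S3774

/-- Let G be a nontrivial finite 2-group whose automorphism group permutes the involutions of G transitively. Then every involution of G is central, so that the involutions together with 1 form the subgroup Ω₁(Z(G)), and if this subgroup has order q then |G| is a power of q. -/
theorem result {G : Type*} [Group G] [Finite G] [Nontrivial G] (hG : IsPGroup 2 G) (htrans : ∀ x y : G, x ≠ 1 → x ^ 2 = 1 → y ≠ 1 → y ^ 2 = 1 → ∃ a : MulAut G, a x = y) : (∀ x : G, x ^ 2 = 1 → x ∈ Subgroup.center G) ∧ ∃ m : ℕ, Nat.card G = Nat.card {z : G // z ^ 2 = 1} ^ m := by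
  classical
  haveI : Fact (Nat.Prime 2) := ⟨Nat.prime_two⟩
  haveI := Fintype.ofFinite G
  obtain ⟨z₀, hz₀c, hz₀1, hz₀2⟩ : ∃ z : G, z ∈ Subgroup.center G ∧ z ≠ 1 ∧ z ^ 2 = 1 := by
    haveI := hG.center_nontrivial
    obtain ⟨⟨z, hz⟩, hz1⟩ := exists_ne (1 : Subgroup.center G)
    have hz1' : z ≠ 1 := fun h => hz1 (Subtype.ext h)
    obtain ⟨k, hk⟩ := (IsPGroup.iff_orderOf.mp hG) z
    have hk0 : k ≠ 0 := by
      rintro rfl
      rw [pow_zero, orderOf_eq_one_iff] at hk
      exact hz1' hk
    obtain ⟨j, rfl⟩ := Nat.exists_eq_succ_of_ne_zero hk0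
    refine ⟨z ^ 2 ^ j, Subgroup.pow_mem _ hz _, ?_, ?_⟩
    · intro h
      have h1 := orderOf_dvd_of_pow_eq_one h
      rw [hk] at h1
      have h2 := Nat.le_of_dvd (by positivity) h1
      rw [pow_succ] at h2
      have h3 : 0 < 2 ^ j := by positivity
      omega
    · rw [← pow_mul, ← pow_succ, ← hk, pow_orderOf_eq_one]
  have hcentral : ∀ x : G, x ^ 2 = 1 → x ∈ Subgroup.center G := by
    intro x hx
    by_cases hx1 : x = 1
    · rw [hx1]; exact Subgroup.one_mem _
    obtain ⟨a, rfl⟩ := htrans z₀ x hz₀1 hz₀2 hx1 hx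
    rw [Subgroup.mem_center_iff] at hz₀c ⊢
    intro g
    have h1 := congrArg a (hz₀c (a.symm g))
    simpa using h1
  refine ⟨hcentral, ?_⟩
  let N : Subgroup G :=
    { carrier := {z | z ^ 2 = 1}
      mul_mem' := by
        intro a b ha hb
        have hac := hcentral a ha
        rw [Subgroup.mem_center_iff] at hac
        have hcomm : Commute a b := (hac b).symm
        show (a * b) ^ 2 = 1
        rw [hcomm.mul_pow, show a ^ 2 = 1 from ha, show b ^ 2 = 1 from hb, one_mul]
      one_mem' := by simp
      inv_mem' := by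
        intro a ha
        show a⁻¹ ^ 2 = 1
        rw [inv_pow, show a ^ 2 = 1 from ha, inv_one] }
  have hNcard : Nat.card {z : G // z ^ 2 = 1} = Nat.card N := rfl
  obtain ⟨n, hn⟩ := (IsPGroup.iff_card.mp (hG.to_subgroup N))
  obtain ⟨m, hm⟩ := (IsPGroup.iff_card.mp hG)
  have hdiv : (2 ^ n - 1) ∣ (2 ^ m - 1) := by
    let r : G → G := fun x => x ^ (orderOf x / 2)
    have hr : ∀ x : G, x ≠ 1 → r x ≠ 1 ∧ (r x) ^ 2 = 1 := by
      intro x hx
      obtain ⟨k, hk⟩ := (IsPGroup.iff_orderOf.mp hG) x
      have hk0 : k ≠ 0 := by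
        rintro rfl
        rw [pow_zero, orderOf_eq_one_iff] at hk
        exact hx hk
      obtain ⟨j, rfl⟩ := Nat.exists_eq_succ_of_ne_zero hk0
      have hhalf : orderOf x / 2 = 2 ^ j := by rw [hk, pow_succ]; simp
      constructor
      · intro h
        have h1 : orderOf x ∣ orderOf x / 2 := orderOf_dvd_of_pow_eq_one h
        rw [hhalf, hk] at h1
        have h2 := Nat.le_of_dvd (by positivity) h1
        rw [pow_succ] at h2
        have h3 : 0 < 2 ^ j := by positivity
        omega
      · show (x ^ (orderOf x / 2)) ^ 2 = 1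
        rw [← pow_mul, hhalf, ← pow_succ, ← hk, pow_orderOf_eq_one]
    have hra : ∀ (a : MulAut G) (x : G), r (a x) = a (r x) := by
      intro a x
      show (a x) ^ (orderOf (a x) / 2) = a (x ^ (orderOf x / 2))
      rw [map_pow, MulEquiv.orderOf_eq]
    let s : Finset G := Finset.univ.filter (fun x => x ≠ 1)
    let t : Finset G := Finset.univ.filter (fun x => x ≠ 1 ∧ x ^ 2 = 1)
    have hst : ∀ x ∈ s, r x ∈ t := by
      intro x hx
      simp only [s, t, Finset.mem_filter, Finset.mem_univ, true_and] at hx ⊢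
      exact hr x hx
    have hcount := Finset.card_eq_sum_card_fiberwise hst
    have hfib : ∀ b ∈ t, (s.filter (fun a => r a = b)).card =
        (s.filter (fun a => r a = z₀)).card := by
      intro b hb
      simp only [t, Finset.mem_filter, Finset.mem_univ, true_and] at hb
      have aux : ∀ u v : G, u ≠ 1 → u ^ 2 = 1 → v ≠ 1 → v ^ 2 = 1 →
          (s.filter (fun a => r a = u)).card ≤ (s.filter (fun a => r a = v)).card := by
        intro u v hu1 hu2 hv1 hv2
        obtain ⟨a, rfl⟩ := htrans u v hu1 hu2 hv1 hv2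
        apply Finset.card_le_card_of_injOn (fun x => a x)
        · intro x hx
          simp only [s, Finset.coe_filter, Finset.mem_filter, Finset.mem_univ, true_and,
            Set.mem_setOf_eq] at hx ⊢
          refine ⟨?_, ?_⟩
          · intro h
            apply hx.1
            simpa using h
          · rw [hra, hx.2]
        · intro x _ y _ h
          exact a.injective h
      exact le_antisymm (aux b z₀ hb.1 hb.2 hz₀1 hz₀2) (aux z₀ b hz₀1 hz₀2 hb.1 hb.2)
    rw [Finset.sum_const_nat hfib] at hcount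
    have hs : s.card = 2 ^ m - 1 := by
      have h1 : s = Finset.univ.erase 1 := by
        ext x
        simp [s]
      rw [h1, Finset.card_erase_of_mem (Finset.mem_univ _), Finset.card_univ,
        ← Nat.card_eq_fintype_card, hm]
    have ht : t.card = 2 ^ n - 1 := by
      have h1 : t = (Finset.univ.filter (fun x : G => x ^ 2 = 1)).erase 1 := by
        ext x
        simp [t]
      rw [h1, Finset.card_erase_of_mem (by simp), ← Fintype.card_subtype,
        ← Nat.card_eq_fintype_card, hNcard, hn]
    rw [hs, ht] at hcount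
    exact ⟨_, hcount⟩
  have hnm : n ∣ m := by
    have h1 := Nat.pow_sub_one_gcd_pow_sub_one 2 n m
    rw [Nat.gcd_eq_left hdiv] at h1
    have h2 : 2 ^ n = 2 ^ Nat.gcd n m := by
      have h3 := Nat.one_le_two_pow (n := n)
      have h4 := Nat.one_le_two_pow (n := Nat.gcd n m)
      omega
    have h3 := Nat.pow_right_injective (le_refl 2) h2
    rw [h3]
    exact Nat.gcd_dvd_right n m
  obtain ⟨k, rfl⟩ := hnm
  exact ⟨k, by rw [hNcard, hn, hm, pow_mul]⟩

end Cfsg.Agent.S3774
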