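import Cfsg.Statements.S3775
import Mathlib

set_option autoImplicit false
open Cfsg

namespace Cfsg.Agent.S3775

section core

variable {A : Type*} [CommGroup A]

/-- invariance of a subgroup under the group `X` of automorphisms -/
def Inv (X : Subgroup (MulAut A)) (B : Subgroup A) : Prop :=
  ∀ x ∈ X, B.map (x : MulAut A).toMonoidHom = B

theorem inv_mem {X : Subgroup (MulAut A)} {B : Subgroup A} (h : Inv X B) {x : MulAut A}
    (hx : x ∈ X) {b : A} (hb : b ∈ B) : x b ∈ B := by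
  have : x b ∈ B.map x.toMonoidHom := ⟨b, hb, rfl⟩
  rw [h x hx] at this
  exact this

theorem inv_of_mem {X : Subgroup (MulAut A)} {B : Subgroup A}
    (h : ∀ x ∈ X, ∀ b ∈ B, x b ∈ B) : Inv X B := by
  intro x hx
  apply le_antisymm
  · rintro _ ⟨b, hb, rfl⟩
    exact h x hx b hb
  · intro b hb
    refine ⟨x⁻¹ b, h x⁻¹ (X.inv_mem hx) b hb, ?_⟩
    simp

/-- `Q` is homocyclic of exponent `p^(k+1)` (or trivial) -/
def Hk (p k : ℕ) (Q : Subgroup A) : Prop :=
  ∀ q ∈ Q, q ^ p ^ k = 1 → ∃ q₁ ∈ Q, q = q₁ ^ p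

theorem hk_root (p k : ℕ) (Q : Subgroup A) (hQ : Hk p k Q) :
    ∀ j, j ≤ k → ∀ a ∈ Q, a ^ p ^ (k + 1 - j) = 1 → ∃ b ∈ Q, a = b ^ p ^ j := by
  intro j
  induction j with
  | zero =>
    intro _ a ha _
    exact ⟨a, ha, by simp⟩
  | succ j ih =>
    intro hj a ha h1
    have h2 : a ^ p ^ k = 1 := by
      have : k = (k + 1 - (j + 1)) + j := by omega
      rw [this, pow_add, pow_mul, h1, one_pow]
    obtain ⟨a₁, ha₁, rfl⟩ := hQ a ha h2
    have h3 : a₁ ^ p ^ (k + 1 - j) = 1 := by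
      have : k + 1 - j = (k + 1 - (j + 1)) + 1 := by omega
      rw [this, pow_succ', pow_mul]
      exact h1
    obtain ⟨b, hb, rfl⟩ := ih (by omega) a₁ ha₁ h3
    exact ⟨b, hb, by rw [← pow_mul, ← pow_succ]⟩

theorem coprime_comb (p : ℕ) (hp : p.Prime) (n : ℤ) (hpn : ¬ (p : ℤ) ∣ n) :
    ∃ s t : ℤ, s * n + t * (p : ℤ) = 1 := by
  have hcop : IsCoprime (p : ℤ) n := (Nat.prime_iff_prime_int.1 hp).coprime_iff_not_dvd.2 hpn
  obtain ⟨t, s, hst⟩ := hcop
  exact ⟨s, t, by rw [← hst]; ring⟩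

/-- a homocyclic subgroup of maximal exponent is a direct factor -/
theorem exists_compl [Finite A] (p k : ℕ) (hp : p.Prime) (hexp : ∀ a : A, a ^ p ^ (k + 1) = 1)
    (Q : Subgroup A) (hQ : Hk p k Q) : ∃ C : Subgroup A, Q ⊓ C = ⊥ ∧ Q ⊔ C = ⊤ := by
  classical
  obtain ⟨C, hC⟩ := Set.Finite.exists_maximal (Set.toFinite {C : Subgroup A | Q ⊓ C = ⊥})
    ⟨⊥, by simp⟩
  have hC1 : Q ⊓ C = ⊥ := hC.1
  refine ⟨C, hC1, ?_⟩
  by_contra hne
  have hex0 : ∃ a, a ∉ Q ⊔ C := by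
    by_contra h
    push Not at h
    exact hne (eq_top_iff.2 (fun a _ => h a))
  obtain ⟨a₀, ha₀⟩ := hex0
  have hex : ∃ n, a₀ ^ p ^ n ∈ Q ⊔ C := ⟨k + 1, by rw [hexp]; exact one_mem _⟩
  have hk1 : a₀ ^ p ^ (Nat.find hex) ∈ Q ⊔ C := Nat.find_spec hex
  have hk0 : Nat.find hex ≠ 0 := by
    intro h0
    rw [h0, pow_zero, pow_one] at hk1
    exact ha₀ hk1
  obtain ⟨j, hj⟩ := Nat.exists_eq_succ_of_ne_zero hk0
  have hj1 : a₀ ^ p ^ j ∉ Q ⊔ C := Nat.find_min hex (by omega)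
  have hap : (a₀ ^ p ^ j) ^ p ∈ Q ⊔ C := by
    rw [← pow_mul, ← pow_succ, ← Nat.succ_eq_add_one, ← hj]
    exact hk1
  generalize a₀ ^ p ^ j = a at hj1 hap
  obtain ⟨q, hq, c, hc, hqc⟩ := Subgroup.mem_sup.1 hap
  have h1 : q ^ p ^ k * c ^ p ^ k = 1 := by
    rw [← mul_pow, hqc, ← pow_mul, ← pow_succ', hexp]
  have h2 : q ^ p ^ k ∈ Q ⊓ C := by
    refine ⟨Q.pow_mem hq _, ?_⟩
    rw [eq_inv_of_mul_eq_one_left h1]
    exact C.inv_mem (C.pow_mem hc _)
  rw [hC1, Subgroup.mem_bot] at h2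
  obtain ⟨q₁, hq₁, rfl⟩ := hQ q hq h2
  have ha'p : (a * q₁⁻¹) ^ p = c := by
    rw [mul_pow, inv_pow, ← hqc]
    rw [mul_comm (q₁ ^ p) c, mul_assoc, mul_inv_cancel, mul_one]
  have ha'n : a * q₁⁻¹ ∉ Q ⊔ C := by
    intro h
    apply hj1
    have : a = (a * q₁⁻¹) * q₁ := by group
    rw [this]
    exact Subgroup.mul_mem _ h (Subgroup.mem_sup_left hq₁)
  generalize a * q₁⁻¹ = a' at ha'p ha'n
  have hlt : ¬ (C ⊔ Subgroup.zpowers a' ≤ C) := by
    intro hle
    apply ha'n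
    exact Subgroup.mem_sup_right (hle (Subgroup.mem_sup_right (Subgroup.mem_zpowers a')))
  have hnot : ¬ Q ⊓ (C ⊔ Subgroup.zpowers a') = ⊥ := by
    intro h
    exact hlt (hC.2 (show (C ⊔ Subgroup.zpowers a') ∈ {C : Subgroup A | Q ⊓ C = ⊥} from h)
      le_sup_left)
  obtain ⟨y, hy, hy1⟩ : ∃ y ∈ Q ⊓ (C ⊔ Subgroup.zpowers a'), y ≠ 1 := by
    by_contra h
    push Not at h
    exact hnot (eq_bot_iff.2 (fun y hy => by rw [Subgroup.mem_bot]; exact h y hy))
  obtain ⟨c₁, hc₁, z, hz, hyz⟩ := Subgroup.mem_sup.1 hy.2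
  obtain ⟨n, rfl⟩ := Subgroup.mem_zpowers_iff.1 hz
  by_cases hpn : (p : ℤ) ∣ n
  · obtain ⟨m, rfl⟩ := hpn
    have h3 : a' ^ ((p : ℤ) * m) ∈ C := by
      rw [zpow_mul, zpow_natCast, ha'p]
      exact C.zpow_mem hc m
    have h4 : y ∈ Q ⊓ C := ⟨hy.1, by rw [← hyz]; exact C.mul_mem hc₁ h3⟩
    rw [hC1, Subgroup.mem_bot] at h4
    exact hy1 h4
  · obtain ⟨s, t, hst⟩ := coprime_comb p hp n hpn
    have h3 : a' = (a' ^ n) ^ s * (a' ^ p) ^ t := by
      rw [← zpow_natCast a' p, ← zpow_mul, ← zpow_mul, ← zpow_add, mul_comm n s,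
        mul_comm (p : ℤ) t, hst, zpow_one]
    apply ha'n
    rw [h3]
    have h5 : a' ^ n ∈ Q ⊔ C := by
      have : a' ^ n = c₁⁻¹ * y := by rw [← hyz]; group
      rw [this]
      exact Subgroup.mul_mem _ (Subgroup.mem_sup_right (C.inv_mem hc₁))
        (Subgroup.mem_sup_left hy.1)
    have h6 : a' ^ p ∈ Q ⊔ C := by rw [ha'p]; exact Subgroup.mem_sup_right hc
    exact Subgroup.mul_mem _ (Subgroup.zpow_mem _ h5 s) (Subgroup.zpow_mem _ h6 t)

/-- a maximal homocyclic subgroup of `D` contains all `p^k`-th powers of `D` -/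
theorem pow_mem_of_max (p k : ℕ) (hp : p.Prime) (hexp : ∀ a : A, a ^ p ^ (k + 1) = 1)
    (D Q : Subgroup A) (hQD : Q ≤ D) (hQ : Hk p k Q)
    (hmax : ∀ Q' : Subgroup A, Q' ≤ D → Hk p k Q' → Q ≤ Q' → Q' ≤ Q) :
    ∀ d ∈ D, d ^ p ^ k ∈ Q := by
  intro d hd
  by_contra hdQ
  have h1 : Hk p k (Q ⊔ Subgroup.zpowers d) := by
    intro y hy hy1
    obtain ⟨q, hq, z, hz, rfl⟩ := Subgroup.mem_sup.1 hy
    obtain ⟨n, rfl⟩ := Subgroup.mem_zpowers_iff.1 hz
    have h2 : (d ^ n) ^ p ^ k = (q ^ p ^ k)⁻¹ := by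
      rw [mul_pow] at hy1
      exact eq_inv_of_mul_eq_one_right hy1
    have hpn : (p : ℤ) ∣ n := by
      by_contra hpn
      obtain ⟨s, t, hst⟩ := coprime_comb p hp n hpn
      apply hdQ
      have h3 : d ^ p ^ k = ((d ^ n) ^ p ^ k) ^ s := by
        have e1 : (d ^ p ^ k) ^ (t * (p : ℤ)) = 1 := by
          rw [mul_comm, zpow_mul, zpow_natCast, ← pow_mul, ← pow_succ, hexp, one_zpow]
        have e2 : ((d ^ n) ^ p ^ k) ^ s = (d ^ p ^ k) ^ (s * n) := by
          rw [← zpow_natCast (d ^ n), ← zpow_mul, ← zpow_natCast d (p ^ k), ← zpow_mul,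
            ← zpow_mul]
          congr 1
          ring
        rw [e2]
        have e3 : (d ^ p ^ k) ^ (s * n) = (d ^ p ^ k) ^ (s * n) * (d ^ p ^ k) ^ (t * (p : ℤ)) := by
          rw [e1, mul_one]
        rw [e3, ← zpow_add, hst, zpow_one]
      rw [h3, h2]
      exact Q.zpow_mem (Q.inv_mem (Q.pow_mem hq _)) s
    obtain ⟨m, rfl⟩ := hpn
    have h3 : q ^ p ^ k = 1 := by
      have e1 : (d ^ ((p : ℤ) * m)) ^ p ^ k = 1 := by
        rw [← zpow_natCast (d ^ ((p : ℤ) * m)), ← zpow_mul]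
        have : (p : ℤ) * m * ((p ^ k : ℕ) : ℤ) = ((p ^ (k + 1) : ℕ) : ℤ) * m := by
          push_cast
          ring
        rw [this, zpow_mul, zpow_natCast, hexp, one_zpow]
      rw [e1] at h2
      exact inv_eq_one.1 h2.symm
    obtain ⟨q₁, hq₁, rfl⟩ := hQ q hq h3
    refine ⟨q₁ * d ^ m, Subgroup.mul_mem _ (Subgroup.mem_sup_left hq₁)
      (Subgroup.mem_sup_right (Subgroup.zpow_mem_zpowers d m)), ?_⟩
    rw [mul_pow, ← zpow_natCast (d ^ m) p, ← zpow_mul, mul_comm m (p : ℤ)]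
  have h2 : Q ⊔ Subgroup.zpowers d ≤ Q :=
    hmax _ (sup_le hQD (by rw [Subgroup.zpowers_le]; exact hd)) h1 le_sup_left
  apply hdQ
  exact Q.pow_mem (h2 (Subgroup.mem_sup_right (Subgroup.mem_zpowers d))) _

/-- projection onto a direct factor -/
theorem exists_proj (Q C : Subgroup A) (h1 : Q ⊓ C = ⊥) (h2 : Q ⊔ C = ⊤) :
    ∃ f₀ : A →* A, (∀ a, f₀ a ∈ Q) ∧ (∀ q ∈ Q, f₀ q = q) := by
  let φ : ↥Q × ↥C →* A := MonoidHom.coprod Q.subtype C.subtype
  have hφ : ∀ z : ↥Q × ↥C, φ z = (z.1 : A) * (z.2 : A) := fun z => rfl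
  have hinj : Function.Injective φ := by
    rw [injective_iff_map_eq_one]
    rintro ⟨q, c⟩ h
    have h' : (q : A) * (c : A) = 1 := h
    have hq : (q : A) ∈ Q ⊓ C := by
      refine ⟨q.2, ?_⟩
      rw [eq_inv_of_mul_eq_one_left h']
      exact C.inv_mem c.2
    rw [h1, Subgroup.mem_bot] at hq
    have hc : (c : A) = 1 := by rw [hq, one_mul] at h'; exact h'
    have hq' : q = 1 := Subtype.ext hq
    have hc' : c = 1 := Subtype.ext hc
    rw [hq', hc']
    rfl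
  have hsurj : Function.Surjective φ := by
    intro a
    have : a ∈ Q ⊔ C := by rw [h2]; exact Subgroup.mem_top a
    obtain ⟨q, hq, c, hc, rfl⟩ := Subgroup.mem_sup.1 this
    exact ⟨(⟨q, hq⟩, ⟨c, hc⟩), rfl⟩
  let e : ↥Q × ↥C ≃* A := MulEquiv.ofBijective φ ⟨hinj, hsurj⟩
  refine ⟨Q.subtype.comp ((MonoidHom.fst ↥Q ↥C).comp e.symm.toMonoidHom), ?_, ?_⟩
  · intro a
    exact (e.symm a).1.2
  · intro q hq
    have : e.symm q = (⟨q, hq⟩, 1) := by
      rw [MulEquiv.symm_apply_eq]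
      show q = φ (⟨q, hq⟩, 1)
      rw [hφ]
      simp
    show ((e.symm q).1 : A) = q
    rw [this]

theorem exists_idem {S : Type*} [Finite S] (f : S → S) :
    ∃ m, 0 < m ∧ ∀ a, f^[m] (f^[m] a) = f^[m] a := by
  obtain ⟨i, j, hij, h⟩ := Finite.exists_ne_map_eq_of_infinite (fun n : ℕ => f^[n])
  have key : ∀ i j : ℕ, i < j → f^[i] = f^[j] → ∃ m, 0 < m ∧ ∀ a, f^[m] (f^[m] a) = f^[m] a := by
    intro i j hlt h
    have hb : ∀ n, i ≤ n → f^[n + (j - i)] = f^[n] := by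
      intro n hn
      have e1 : n + (j - i) = (n - i) + j := by omega
      have e2 : n = (n - i) + i := by omega
      rw [e1, Function.iterate_add, ← h, ← Function.iterate_add, ← e2]
    have ht : ∀ t n, i ≤ n → f^[n + t * (j - i)] = f^[n] := by
      intro t
      induction t with
      | zero => intro n _; simp
      | succ t ih =>
        intro n hn
        have e1 : n + (t + 1) * (j - i) = (n + t * (j - i)) + (j - i) := by ring
        rw [e1, hb _ (by omega), ih n hn]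
    refine ⟨(i + 1) * (j - i), Nat.mul_pos (Nat.succ_pos i) (by omega), fun a => ?_⟩
    rw [← Function.iterate_add_apply]
    have hge : i ≤ (i + 1) * (j - i) := by
      have : 1 ≤ j - i := by omega
      nlinarith
    rw [ht (i + 1) _ hge]
  rcases lt_or_gt_of_ne hij with hlt | hlt
  · exact key i j hlt h
  · exact key j i hlt h.symm

variable (X : Subgroup (MulAut A)) [Fintype ↥X]

/-- the averaged endomorphism -/
def avg (N' : ℕ) (f₀ : A →* A) : A →* A :=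
  MonoidHom.mk' (fun a => (∏ x : ↥X, (x : MulAut A) (f₀ ((x : MulAut A)⁻¹ a))) ^ N')
    (by
      intro a b
      simp only [map_mul, Finset.prod_mul_distrib, mul_pow])

theorem avg_apply (N' : ℕ) (f₀ : A →* A) (a : A) :
    avg X N' f₀ a = (∏ x : ↥X, (x : MulAut A) (f₀ ((x : MulAut A)⁻¹ a))) ^ N' := rfl

theorem avg_equiv (N' : ℕ) (f₀ : A →* A) (y : MulAut A) (hy : y ∈ X) (a : A) :
    avg X N' f₀ (y a) = y (avg X N' f₀ a) := by
  rw [avg_apply, avg_apply, map_pow, map_prod]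
  congr 1
  rw [← Equiv.prod_comp (Equiv.mulLeft (⟨y, hy⟩ : ↥X))]
  apply Finset.prod_congr rfl
  intro x _
  simp [mul_inv_rev, MulAut.mul_apply]

theorem avg_mem (N' : ℕ) (f₀ : A →* A) (T S : Subgroup A)
    (hT : ∀ x ∈ X, ∀ t ∈ T, x t ∈ T) (hS : ∀ x ∈ X, ∀ s ∈ S, x s ∈ S)
    (h : ∀ t ∈ T, f₀ t ∈ S) : ∀ t ∈ T, avg X N' f₀ t ∈ S := by
  intro t ht
  rw [avg_apply]
  apply S.pow_mem
  apply Subgroup.prod_mem
  intro x _
  exact hS x x.2 _ (h _ (hT _ (X.inv_mem x.2) t ht))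

theorem avg_fix (N' : ℕ) (hN : ∀ a : A, (a ^ Fintype.card ↥X) ^ N' = a) (f₀ : A →* A) (v : A)
    (hv : ∀ x ∈ X, f₀ (x v) = x v) : avg X N' f₀ v = v := by
  rw [avg_apply]
  have h1 : ∀ x : ↥X, (x : MulAut A) (f₀ ((x : MulAut A)⁻¹ v)) = v := by
    intro x
    rw [hv _ (X.inv_mem x.2)]
    simp
  rw [Finset.prod_congr rfl (fun x _ => h1 x), Finset.prod_const, Finset.card_univ]
  exact hN v

theorem step1 [Finite A] (p k N' : ℕ) (hp : p.Prime)
    (hexp : ∀ a : A, a ^ p ^ (k + 1) = 1)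
    (hN : ∀ a : A, (a ^ Fintype.card ↥X) ^ N' = a)
    (hi : ∀ B C : Subgroup A, Inv X B → Inv X C → B ⊓ C = ⊥ → B ⊔ C = ⊤ → B = ⊥ ∨ C = ⊥)
    (D : Subgroup A) (hD : Inv X D) (d : A) (hd : d ∈ D) (hd1 : d ^ p ^ k ≠ 1) :
    D = ⊤ ∧ ∀ a : A, a ^ p = 1 → ∃ b : A, a = b ^ p ^ k := by
  classical
  obtain ⟨Q, hQ⟩ := Set.Finite.exists_maximal
    (Set.toFinite {Q : Subgroup A | Q ≤ D ∧ Hk p k Q})
    ⟨⊥, bot_le, fun q hq _ => ⟨1, Subgroup.one_mem _, by rw [Subgroup.mem_bot.1 hq, one_pow]⟩⟩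
  have hQD : Q ≤ D := hQ.1.1
  have hQH : Hk p k Q := hQ.1.2
  have hpow : ∀ d ∈ D, d ^ p ^ k ∈ Q :=
    pow_mem_of_max p k hp hexp D Q hQD hQH (fun Q' h1 h2 h3 => hQ.2 ⟨h1, h2⟩ h3)
  obtain ⟨C, hC1, hC2⟩ := exists_compl p k hp hexp Q hQH
  obtain ⟨f₀, hf1, hf2⟩ := exists_proj Q C hC1 hC2
  set f := avg X N' f₀ with hf
  have hfeq : ∀ y ∈ X, ∀ a, f (y a) = y (f a) := fun y hy a => avg_equiv X N' f₀ y hy a
  have hfix : ∀ d ∈ D, f (d ^ p ^ k) = d ^ p ^ k := by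
    intro d hd
    apply avg_fix X N' hN
    intro x hx
    apply hf2
    rw [map_pow]
    exact hpow _ (inv_mem hD hx hd)
  have hfD : ∀ a, f a ∈ D := by
    intro a
    exact avg_mem X N' f₀ ⊤ D (fun _ _ _ _ => Subgroup.mem_top _)
      (fun x hx s hs => inv_mem hD hx hs) (fun t _ => hQD (hf1 t)) a (Subgroup.mem_top a)
  have hfO : ∀ a, a ^ p = 1 → ∃ b, f a = b ^ p ^ k := by
    intro a ha
    have h1 : f a ∈ (powMonoidHom (p ^ k) : A →* A).range := by
      refine avg_mem X N' f₀ (powMonoidHom p : A →* A).ker (powMonoidHom (p ^ k) : A →* A).range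
        ?_ ?_ ?_ a ?_
      · intro x _ t ht
        rw [MonoidHom.mem_ker, powMonoidHom_apply] at ht ⊢
        rw [← map_pow, ht, map_one]
      · rintro x _ _ ⟨b, rfl⟩
        exact ⟨x b, by simp⟩
      · intro t ht
        rw [MonoidHom.mem_ker, powMonoidHom_apply] at ht
        have h1 : (f₀ t) ^ p = 1 := by rw [← map_pow, ht, map_one]
        have h2 : (f₀ t) ^ p ^ (k + 1 - k) = 1 := by
          have : k + 1 - k = 1 := by omega
          rw [this, pow_one]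
          exact h1
        obtain ⟨b, -, hb⟩ := hk_root p k Q hQH k le_rfl (f₀ t) (hf1 t) h2
        exact ⟨b, by rw [powMonoidHom_apply, hb]⟩
      · rw [MonoidHom.mem_ker, powMonoidHom_apply]
        exact ha
    obtain ⟨b, hb⟩ := h1
    exact ⟨b, by rw [← hb, powMonoidHom_apply]⟩
  have hinj : Function.Injective f := by
    obtain ⟨m, hm0, hm⟩ := exists_idem (f : A → A)
    have hiter : ∀ n : ℕ, ∃ ε : A →* A, ∀ a, ε a = f^[n] a := by
      intro n
      induction n with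
      | zero => exact ⟨MonoidHom.id A, fun a => rfl⟩
      | succ n ih =>
        obtain ⟨ε, hε⟩ := ih
        exact ⟨ε.comp f, fun a => by
          rw [MonoidHom.comp_apply, hε, Function.iterate_succ_apply]⟩
    obtain ⟨ε, hεa⟩ := hiter m
    have hitereq : ∀ n : ℕ, ∀ y ∈ X, ∀ a, f^[n] (y a) = y (f^[n] a) := by
      intro n
      induction n with
      | zero => intro y _ a; rfl
      | succ n ih =>
        intro y hy a
        rw [Function.iterate_succ_apply, Function.iterate_succ_apply, hfeq y hy, ih y hy]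
    have hεeq : ∀ y ∈ X, ∀ a, ε (y a) = y (ε a) := by
      intro y hy a
      rw [hεa, hεa, hitereq m y hy]
    have hεε : ∀ a, ε (ε a) = ε a := by
      intro a
      rw [hεa, hεa, hm]
    have h1 : Inv X ε.ker := inv_of_mem (fun x hx b hb => by
      rw [MonoidHom.mem_ker] at hb ⊢
      rw [hεeq x hx, hb, map_one])
    have h2 : Inv X ε.range := inv_of_mem (by
      rintro x hx _ ⟨b, rfl⟩
      exact ⟨x b, hεeq x hx b⟩)
    have h3 : ε.ker ⊓ ε.range = ⊥ := by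
      rw [eq_bot_iff]
      rintro y ⟨hy1, ⟨z, rfl⟩⟩
      have hy1' : ε z ∈ ε.ker := hy1
      rw [MonoidHom.mem_ker, hεε] at hy1'
      rw [Subgroup.mem_bot]
      exact hy1'
    have h4 : ε.ker ⊔ ε.range = ⊤ := by
      rw [eq_top_iff]
      intro a _
      have : a = (a * (ε a)⁻¹) * ε a := by group
      rw [this]
      refine Subgroup.mul_mem _ (Subgroup.mem_sup_left ?_) (Subgroup.mem_sup_right ⟨a, rfl⟩)
      rw [MonoidHom.mem_ker, map_mul, map_inv, hεε, mul_inv_cancel]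
    rcases hi _ _ h1 h2 h3 h4 with h | h
    · have hεinj : Function.Injective ε := (MonoidHom.ker_eq_bot_iff ε).1 h
      intro a b hab
      apply hεinj
      rw [hεa, hεa]
      obtain ⟨m', rfl⟩ := Nat.exists_eq_succ_of_ne_zero hm0.ne'
      rw [Function.iterate_succ_apply, Function.iterate_succ_apply, hab]
    · exfalso
      apply hd1
      have h5 : ε (d ^ p ^ k) ∈ ε.range := ⟨_, rfl⟩
      rw [h, Subgroup.mem_bot, hεa] at h5
      have hfixm : f^[m] (d ^ p ^ k) = d ^ p ^ k := Function.iterate_fixed (hfix d hd) m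
      rw [hfixm] at h5
      exact h5
  have hsurj : Function.Surjective f := Finite.surjective_of_injective hinj
  refine ⟨?_, ?_⟩
  · rw [eq_top_iff]
    intro a _
    obtain ⟨a', rfl⟩ := hsurj a
    exact hfD a'
  · intro a ha
    obtain ⟨a', rfl⟩ := hsurj a
    have h1 : a' ^ p = 1 := hinj (by rw [map_pow, ha, map_one])
    exact hfO a' h1

theorem iii_ii [Finite A] (X : Subgroup (MulAut A)) (p : ℕ) (hA : IsPGroup p A) [Fact p.Prime]
    (h3 : ∀ B : Subgroup A, Inv X B → (∀ b ∈ B, b ^ p = 1) →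
      B = ⊥ ∨ ∀ a : A, a ∈ B ↔ a ^ p = 1) :
    ∀ B : Subgroup A, Inv X B → ∃ i : ℕ, ∀ a : A, a ∈ B ↔ a ^ p ^ i = 1 := by
  classical
  have key : ∀ i : ℕ, ∀ B : Subgroup A, Inv X B → (∀ b ∈ B, b ^ p ^ i = 1) →
      ∃ j : ℕ, ∀ a : A, a ∈ B ↔ a ^ p ^ j = 1 := by
    intro i
    induction i with
    | zero =>
      intro B _ hB
      refine ⟨0, fun a => ?_⟩
      simp only [pow_zero, pow_one] at hB ⊢
      exact ⟨hB a, fun h => h ▸ B.one_mem⟩
    | succ i ih =>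
      intro B hBinv hB
      by_cases hbot : B = ⊥
      · refine ⟨0, fun a => ?_⟩
        rw [hbot, Subgroup.mem_bot]
        simp
      · set Bp := B.map (powMonoidHom p : A →* A) with hBp
        have hBpinv : Inv X Bp := inv_of_mem (by
          rintro x hx _ ⟨b, hb, rfl⟩
          exact ⟨x b, inv_mem hBinv hx hb, by simp⟩)
        have hBp' : ∀ b ∈ Bp, b ^ p ^ i = 1 := by
          rintro _ ⟨b, hb, rfl⟩
          show (b ^ p) ^ p ^ i = 1
          rw [← pow_mul, ← pow_succ']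
          exact hB b hb
        obtain ⟨j, hj⟩ := ih Bp hBpinv hBp'
        set B₁ := B ⊓ (powMonoidHom p : A →* A).ker with hB₁
        have hB₁mem : ∀ a, a ∈ B₁ ↔ a ∈ B ∧ a ^ p = 1 := fun a => by
          rw [hB₁, Subgroup.mem_inf, MonoidHom.mem_ker, powMonoidHom_apply]
        have hB₁inv : Inv X B₁ := inv_of_mem (fun x hx b hb => by
          rw [hB₁mem] at hb ⊢
          refine ⟨inv_mem hBinv hx hb.1, ?_⟩
          rw [← map_pow, hb.2, map_one])
        have hB₁ne : B₁ ≠ ⊥ := by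
          obtain ⟨b, hb, hb1⟩ : ∃ b ∈ B, b ≠ 1 := by
            by_contra h
            push Not at h
            exact hbot (eq_bot_iff.2 (fun y hy => by rw [Subgroup.mem_bot]; exact h y hy))
          have hex : ∃ n, b ^ p ^ n = 1 := ⟨i + 1, hB b hb⟩
          have hn1 : b ^ p ^ (Nat.find hex) = 1 := Nat.find_spec hex
          have hn0 : Nat.find hex ≠ 0 := by
            intro h0
            rw [h0, pow_zero, pow_one] at hn1
            exact hb1 hn1
          obtain ⟨n', hn'⟩ := Nat.exists_eq_succ_of_ne_zero hn0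
          have hmin : b ^ p ^ n' ≠ 1 := Nat.find_min hex (by omega)
          intro hbot'
          apply hmin
          have : b ^ p ^ n' ∈ B₁ := by
            rw [hB₁mem]
            refine ⟨B.pow_mem hb _, ?_⟩
            rw [← pow_mul, ← pow_succ, ← Nat.succ_eq_add_one, ← hn']
            exact hn1
          rw [hbot', Subgroup.mem_bot] at this
          exact this
        have hO : ∀ a : A, a ^ p = 1 → a ∈ B := by
          rcases h3 B₁ hB₁inv (fun b hb => ((hB₁mem b).1 hb).2) with h | h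
          · exact absurd h hB₁ne
          · intro a ha
            exact ((hB₁mem a).1 ((h a).2 ha)).1
        refine ⟨j + 1, fun a => ⟨fun ha => ?_, fun ha => ?_⟩⟩
        · have h1 : a ^ p ∈ Bp := ⟨a, ha, rfl⟩
          have h2 := (hj _).1 h1
          rw [← pow_mul, ← pow_succ'] at h2
          exact h2
        · have h1 : (a ^ p) ^ p ^ j = 1 := by
            rw [← pow_mul, ← pow_succ']
            exact ha
          obtain ⟨b, hb, hbp⟩ := (hj _).2 h1
          have hbp' : b ^ p = a ^ p := hbp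
          have h2 : (a * b⁻¹) ^ p = 1 := by
            rw [mul_pow, inv_pow, hbp', mul_inv_cancel]
          have h3' := hO _ h2
          have : a = (a * b⁻¹) * b := by group
          rw [this]
          exact B.mul_mem h3' hb
  intro B hB
  obtain ⟨n, hn⟩ := IsPGroup.iff_card.1 hA
  exact key n B hB (fun b _ => by rw [← hn]; exact pow_card_eq_one')

theorem ii_i (X : Subgroup (MulAut A)) (p : ℕ)
    (h2 : ∀ B : Subgroup A, Inv X B → ∃ i : ℕ, ∀ a : A, a ∈ B ↔ a ^ p ^ i = 1) :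
    ¬ ∃ B C : Subgroup A, B ≠ ⊥ ∧ C ≠ ⊥ ∧ Inv X B ∧ Inv X C ∧ B ⊓ C = ⊥ ∧ B ⊔ C = ⊤ := by
  rintro ⟨B, C, hB, hC, hBi, hCi, hBC, -⟩
  obtain ⟨i, hi⟩ := h2 B hBi
  obtain ⟨j, hj⟩ := h2 C hCi
  have key : ∀ (B C : Subgroup A) (i j : ℕ), (∀ a : A, a ∈ B ↔ a ^ p ^ i = 1) →
      (∀ a : A, a ∈ C ↔ a ^ p ^ j = 1) → i ≤ j → B ≤ C := by
    intro B C i j hi hj hij a ha
    rw [hj]
    have h1 := (hi a).1 ha
    have : j = i + (j - i) := by omega
    rw [this, pow_add, pow_mul, h1, one_pow]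
  rcases le_total i j with hij | hij
  · apply hB
    rw [eq_bot_iff, ← hBC]
    exact le_inf le_rfl (key B C i j hi hj hij)
  · apply hC
    rw [eq_bot_iff, ← hBC]
    exact le_inf (key C B j i hj hi hij) le_rfl

theorem ii_iii (X : Subgroup (MulAut A)) (p : ℕ)
    (h2 : ∀ B : Subgroup A, Inv X B → ∃ i : ℕ, ∀ a : A, a ∈ B ↔ a ^ p ^ i = 1) :
    ∀ B : Subgroup A, Inv X B → (∀ b ∈ B, b ^ p = 1) →
      B = ⊥ ∨ ∀ a : A, a ∈ B ↔ a ^ p = 1 := by
  intro B hB hBp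
  obtain ⟨i, hi⟩ := h2 B hB
  rcases Nat.eq_zero_or_pos i with h0 | hpos
  · left
    rw [eq_bot_iff]
    intro a ha
    have := (hi a).1 ha
    rw [h0, pow_zero, pow_one] at this
    rw [Subgroup.mem_bot]
    exact this
  · right
    intro a
    refine ⟨hBp a, fun ha => ?_⟩
    rw [hi]
    obtain ⟨i', rfl⟩ := Nat.exists_eq_succ_of_ne_zero hpos.ne'
    rw [pow_succ', pow_mul, ha, one_pow]

theorem i_iii [Finite A] (X : Subgroup (MulAut A)) (p : ℕ) [Fact p.Prime] (hA : IsPGroup p A)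
    (hX : (Nat.card X).Coprime p)
    (h1 : ¬ ∃ B C : Subgroup A, B ≠ ⊥ ∧ C ≠ ⊥ ∧ Inv X B ∧ Inv X C ∧ B ⊓ C = ⊥ ∧ B ⊔ C = ⊤) :
    ∀ B : Subgroup A, Inv X B → (∀ b ∈ B, b ^ p = 1) →
      B = ⊥ ∨ ∀ a : A, a ∈ B ↔ a ^ p = 1 := by
  classical
  have hp : p.Prime := Fact.out
  haveI : Finite (MulAut A) := Finite.of_injective (fun x : MulAut A => (x : A → A))
    DFunLike.coe_injective
  haveI : Fintype ↥X := Fintype.ofFinite _
  have hi : ∀ B C : Subgroup A, Inv X B → Inv X C → B ⊓ C = ⊥ → B ⊔ C = ⊤ → B = ⊥ ∨ C = ⊥ := by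
    intro B C hB hC hBC hBC'
    by_contra hcon
    push Not at hcon
    exact h1 ⟨B, C, hcon.1, hcon.2, hB, hC, hBC, hBC'⟩
  obtain ⟨n, hn⟩ := IsPGroup.iff_card.1 hA
  -- the inverse of |X| modulo |A|
  have hN : ∃ N' : ℕ, ∀ a : A, (a ^ Fintype.card ↥X) ^ N' = a := by
    have hcop : (Fintype.card ↥X).Coprime (Nat.card A) := by
      rw [← Nat.card_eq_fintype_card, hn]
      exact Nat.Coprime.pow_right n hX
    by_cases hA1 : Nat.card A = 1
    · refine ⟨0, fun a => ?_⟩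
      haveI : Subsingleton A := (Nat.card_eq_one_iff_unique.1 hA1).1
      exact Subsingleton.elim _ _
    · have hA2 : 1 < Nat.card A := by
        have : Nat.card A ≠ 0 := Nat.card_pos.ne'
        omega
      obtain ⟨m, -, hm⟩ := Nat.exists_mul_mod_eq_one_of_coprime hcop hA2
      refine ⟨m, fun a => ?_⟩
      rw [← pow_mul, ← pow_mod_natCard, hm, pow_one]
  obtain ⟨N', hN'⟩ := hN
  intro B hB hBp
  by_cases hbot : B = ⊥
  · exact Or.inl hbot
  right
  obtain ⟨b₀, hb₀, hb₀1⟩ : ∃ b ∈ B, b ≠ 1 := by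
    by_contra h
    push Not at h
    exact hbot (eq_bot_iff.2 (fun y hy => by rw [Subgroup.mem_bot]; exact h y hy))
  have hex : ∃ e, ∀ a : A, a ^ p ^ e = 1 := ⟨n, fun a => by rw [← hn]; exact pow_card_eq_one'⟩
  have he1 : ∀ a : A, a ^ p ^ (Nat.find hex) = 1 := Nat.find_spec hex
  have he0 : Nat.find hex ≠ 0 := by
    intro h0
    have := he1 b₀
    rw [h0, pow_zero, pow_one] at this
    exact hb₀1 this
  obtain ⟨k, hk⟩ := Nat.exists_eq_succ_of_ne_zero he0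
  have hexp : ∀ a : A, a ^ p ^ (k + 1) = 1 := by
    intro a
    have := he1 a
    rw [hk] at this
    exact this
  have hmin : ¬ ∀ a : A, a ^ p ^ k = 1 := Nat.find_min hex (by omega)
  push Not at hmin
  obtain ⟨a₀, ha₀⟩ := hmin
  have htop : Inv X (⊤ : Subgroup A) := inv_of_mem (fun _ _ _ _ => Subgroup.mem_top _)
  have hroot := (step1 X p k N' hp hexp hN' hi ⊤ htop a₀ (Subgroup.mem_top _) ha₀).2
  set D := B.comap (powMonoidHom (p ^ k) : A →* A) with hD
  have hDinv : Inv X D := inv_of_mem (fun x hx d hd => by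
    rw [hD, Subgroup.mem_comap, powMonoidHom_apply] at hd ⊢
    rw [← map_pow]
    exact inv_mem hB hx hd)
  obtain ⟨d₀, hd₀⟩ := hroot b₀ (hBp b₀ hb₀)
  have hd₀D : d₀ ∈ D := by
    rw [hD, Subgroup.mem_comap, powMonoidHom_apply, ← hd₀]
    exact hb₀
  have hDtop := (step1 X p k N' hp hexp hN' hi D hDinv d₀ hd₀D (by rw [← hd₀]; exact hb₀1)).1
  intro a
  refine ⟨hBp a, fun ha => ?_⟩
  obtain ⟨b', hb'⟩ := hroot a ha
  have : b' ∈ D := by rw [hDtop]; exact Subgroup.mem_top _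
  rw [hD, Subgroup.mem_comap, powMonoidHom_apply, ← hb'] at this
  exact this

end core

/-- Let A be a finite abelian p-group and X a group of automorphisms of A of order prime to p. Call a subgroup of A invariant when every element of X maps it onto itself. Then the following are equivalent: (i) A is not the direct product of two nontrivial invariant subgroups; (ii) every invariant subgroup of A is one of the subgroups Ω_i(A) = {a : a^(p^i) = 1}; (iii) the subgroup Ω₁(A) of elements of order dividing p has no invariant subgroups other than 1 and itself. -/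
theorem result {A : Type*} [CommGroup A] [Finite A] {p : ℕ} [Fact p.Prime] (hA : IsPGroup p A) (X : Subgroup (MulAut A)) (hX : (Nat.card X).Coprime p) : ((¬ ∃ B C : Subgroup A, B ≠ ⊥ ∧ C ≠ ⊥ ∧ (∀ x ∈ X, B.map x.toMonoidHom = B) ∧ (∀ x ∈ X, C.map x.toMonoidHom = C) ∧ B ⊓ C = ⊥ ∧ B ⊔ C = ⊤) ↔ (∀ B : Subgroup A, (∀ x ∈ X, B.map x.toMonoidHom = B) → ∃ i : ℕ, ∀ a : A, a ∈ B ↔ a ^ p ^ i = 1)) ∧ ((∀ B : Subgroup A, (∀ x ∈ X, B.map x.toMonoidHom = B) → ∃ i : ℕ, ∀ a : A, a ∈ B ↔ a ^ p ^ i = 1) ↔ (∀ B : Subgroup A, (∀ x ∈ X, B.map x.toMonoidHom = B) → (∀ b ∈ B, b ^ p = 1) → B = ⊥ ∨ ∀ a : A, a ∈ B ↔ a ^ p = 1)) := by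
  refine ⟨⟨fun h1 => ?_, fun h2 => ?_⟩, ⟨fun h2 => ?_, fun h3 => ?_⟩⟩
  · exact iii_ii X p hA (i_iii X p hA hX h1)
  · exact ii_i X p h2
  · exact ii_iii X p h2
  · exact iii_ii X p hA h3

end Cfsg.Agent.S3775
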