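import Cfsg.Statements.S3778
import Mathlib

set_option autoImplicit false
open Cfsg
open scoped commutatorElement

namespace Cfsg.Agent.S3778

variable {G : Type*} [Group G]

lemma comm_top_le_iff (H X : Subgroup G) [X.Normal] :
    ⁅H, (⊤ : Subgroup G)⁆ ≤ X ↔
      H ≤ (Subgroup.center (G ⧸ X)).comap (QuotientGroup.mk' X) := by
  rw [← Subgroup.map_le_iff_le_comap, ← Subgroup.commutator_top_right_eq_bot_iff_le_center,
    ← Subgroup.map_top_of_surjective (QuotientGroup.mk' X) (QuotientGroup.mk'_surjective X),
    ← Subgroup.map_commutator, Subgroup.map_eq_bot_iff, QuotientGroup.ker_mk']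

lemma sup_comm_lt [Finite G] {p : ℕ} [Fact p.Prime] (hG : IsPGroup p G)
    (A B : Subgroup G) [A.Normal] [B.Normal] (hBA : B < A) : ⁅A, ⊤⁆ ⊔ B < A := by
  have hle : ⁅A, ⊤⁆ ⊔ B ≤ A := sup_le (Subgroup.commutator_le_left A ⊤) hBA.le
  refine lt_of_le_of_ne hle ?_
  intro heq
  have hnil : Group.IsNilpotent G := hG.isNilpotent
  obtain ⟨c, hc⟩ := Subgroup.nilpotent_iff_lowerCentralSeries.mp hnil
  have key : ∀ k : ℕ, A ≤ (⊤ : Subgroup G).lowerCentralSeries k ⊔ B := by
    intro k
    induction k with
    | zero => simp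
    | succ k ih =>
      have h1 : ⁅A, ⊤⁆ ≤ (⊤ : Subgroup G).lowerCentralSeries (k + 1) ⊔ B := by
        refine (Subgroup.commutator_mono ih le_rfl).trans ?_
        rw [comm_top_le_iff]
        apply sup_le
        · rw [← comm_top_le_iff]
          exact le_sup_left
        · rw [← comm_top_le_iff]
          exact (Subgroup.commutator_le_left B ⊤).trans le_sup_right
      calc A = ⁅A, ⊤⁆ ⊔ B := heq.symm
        _ ≤ (⊤ : Subgroup G).lowerCentralSeries (k + 1) ⊔ B := sup_le h1 le_sup_right
  have h2 := key c
  rw [hc, bot_sup_eq] at h2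
  exact absurd h2 (not_le_of_gt hBA)

lemma card_mul_le_of_lt [Finite G] {p : ℕ} [Fact p.Prime] (hG : IsPGroup p G)
    {H K : Subgroup G} (h : H < K) : Nat.card H * p ≤ Nat.card K := by
  obtain ⟨a, ha⟩ := IsPGroup.iff_card.mp (hG.to_subgroup H)
  obtain ⟨b, hb⟩ := IsPGroup.iff_card.mp (hG.to_subgroup K)
  have hlt : Nat.card H < Nat.card K := by
    by_contra hcon
    push Not at hcon
    exact absurd (Subgroup.eq_of_le_of_card_ge h.le hcon) (ne_of_lt h)
  rw [ha, hb] at hlt ⊢
  have hp : 1 < p := (Fact.out : p.Prime).one_lt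
  have hab : a < b := (Nat.pow_lt_pow_iff_right hp).mp hlt
  rw [← pow_succ]
  exact Nat.pow_le_pow_right (by omega) hab

/-- elements centralizing `K` modulo the normal subgroup `X` -/
def cent (K X : Subgroup G) [X.Normal] : Subgroup G :=
  (Subgroup.centralizer ((K.map (QuotientGroup.mk' X) : Subgroup (G ⧸ X)) : Set (G ⧸ X))).comap
    (QuotientGroup.mk' X)

lemma mem_cent (K X : Subgroup G) [X.Normal] (x : G) :
    x ∈ cent K X ↔ ∀ g ∈ K, ⁅x, g⁆ ∈ X := by
  unfold cent
  rw [Subgroup.mem_comap, Subgroup.mem_centralizer_iff]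
  constructor
  · intro h g hg
    have h1 := h (QuotientGroup.mk' X g) (Subgroup.mem_map_of_mem _ hg)
    rw [← QuotientGroup.eq_one_iff, ← QuotientGroup.mk'_apply, map_commutatorElement,
      commutatorElement_eq_one_iff_mul_comm]
    exact h1.symm
  · rintro h _ ⟨g, hg, rfl⟩
    have h1 := h g hg
    rw [← QuotientGroup.eq_one_iff, ← QuotientGroup.mk'_apply, map_commutatorElement,
      commutatorElement_eq_one_iff_mul_comm] at h1
    exact h1.symm

/-- elements commuting with `x` modulo the normal subgroup `X` -/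
def ee (X : Subgroup G) [X.Normal] (x : G) : Subgroup G :=
  (Subgroup.centralizer ({QuotientGroup.mk' X x} : Set (G ⧸ X))).comap (QuotientGroup.mk' X)

lemma mem_ee (X : Subgroup G) [X.Normal] (x g : G) :
    g ∈ ee X x ↔ ⁅x, g⁆ ∈ X := by
  unfold ee
  rw [Subgroup.mem_comap, Subgroup.mem_centralizer_iff]
  simp only [Set.mem_singleton_iff, forall_eq]
  rw [← QuotientGroup.eq_one_iff, ← QuotientGroup.mk'_apply, map_commutatorElement,
    commutatorElement_eq_one_iff_mul_comm]

lemma main [Finite G] {p : ℕ} [Fact p.Prime] (hG : IsPGroup p G) (b : ℕ)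
    (hb : ∀ x : G, (Subgroup.centralizer ({x} : Set G)).index ≤ p ^ b) (c : ℕ)
    (hc : (⊤ : Subgroup G).lowerCentralSeries c = ⊥)
    (hmin : ∀ k < c, (⊤ : Subgroup G).lowerCentralSeries k ≠ ⊥) (hc2 : 2 ≤ c) :
    (c - 1) * (p - 1) < b * p := by
  classical
  haveI := Fintype.ofFinite G
  have hp : 1 < p := (Fact.out : p.Prime).one_lt
  set L : ℕ → Subgroup G := fun k => (⊤ : Subgroup G).lowerCentralSeries k with hL
  have hLsucc : ∀ k, L (k + 1) = ⁅L k, ⊤⁆ := fun k => rfl
  have hLlt : ∀ k < c, L (k + 1) < L k := by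
    intro k hk
    have h1 := sup_comm_lt hG (L k) ⊥ (bot_lt_iff_ne_bot.mpr (hmin k hk))
    rw [sup_bot_eq] at h1
    exact h1
  let H : ℕ → Subgroup G := fun i => cent (L i) (L (i + 2))
  have hHlt : ∀ i < c - 1, Nat.card (H i) * p ≤ Nat.card G := by
    intro i hi
    have h1 : H i < ⊤ := by
      rw [lt_top_iff_ne_top]
      intro htop
      have h2 : L (i + 1) ≤ L (i + 2) := by
        rw [hLsucc i, Subgroup.commutator_le]
        intro g₁ hg₁ g₂ _
        have h3 : g₂ ∈ H i := by rw [htop]; exact Subgroup.mem_top _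
        have h4 := (mem_cent (L i) (L (i + 2)) g₂).mp h3 g₁ hg₁
        rw [← commutatorElement_inv]
        exact Subgroup.inv_mem _ h4
      exact absurd h2 (not_le_of_gt (hLlt (i + 1) (by omega)))
    have h5 := card_mul_le_of_lt hG h1
    rwa [Subgroup.card_top] at h5
  have hchain : ∀ x : G, ((Finset.range (c - 1)).filter (fun i => x ∉ H i)).card ≤ b := by
    intro x
    let E : ℕ → Subgroup G := fun k => ee (L k) x
    have hEanti : ∀ k, E (k + 1) ≤ E k := by
      intro k g hg
      rw [mem_ee] at hg ⊢
      exact (Subgroup.lowerCentralSeries_antitone ⊤ (Nat.le_succ k)) hg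
    have hElt : ∀ i, x ∉ H i → E (i + 2) < E (i + 1) := by
      intro i hx
      rw [mem_cent] at hx
      push Not at hx
      obtain ⟨g, hg, hgx⟩ := hx
      refine lt_of_le_of_ne (hEanti (i + 1)) ?_
      intro heq
      have h1 : g ∈ E (i + 1) := by
        rw [mem_ee, hLsucc i, ← commutatorElement_inv]
        exact Subgroup.inv_mem _ (Subgroup.commutator_mem_commutator hg (Subgroup.mem_top x))
      rw [← heq, mem_ee] at h1
      exact hgx h1
    have hind : ∀ i ≤ c - 1, Nat.card (E (i + 1)) *
        p ^ ((Finset.range i).filter (fun i' => x ∉ H i')).card ≤ Nat.card G := by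
      intro i
      induction i with
      | zero =>
        intro _
        simpa using Subgroup.card_le_card_group (E 1)
      | succ i ih =>
        intro hi
        have h1 := ih (by omega)
        rw [Finset.range_add_one, Finset.filter_insert]
        by_cases hx : x ∈ H i
        · rw [if_neg (not_not.mpr hx)]
          refine le_trans ?_ h1
          exact Nat.mul_le_mul_right _ (Subgroup.card_le_of_le (hEanti (i + 1)))
        · rw [if_pos hx, Finset.card_insert_of_notMem (by simp), pow_succ]
          have h2 := card_mul_le_of_lt hG (hElt i hx)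
          calc Nat.card (E (i + 1 + 1)) * (p ^ _ * p)
              = (Nat.card (E (i + 2)) * p) * p ^ _ := by ring
            _ ≤ Nat.card (E (i + 1)) * p ^ _ := Nat.mul_le_mul_right _ h2
            _ ≤ Nat.card G := h1
    have h1 := hind (c - 1) le_rfl
    have hEc : E (c - 1 + 1) = Subgroup.centralizer ({x} : Set G) := by
      ext g
      have h2 : c - 1 + 1 = c := by omega
      rw [h2]
      show g ∈ ee (L c) x ↔ _
      rw [mem_ee, hL]
      simp only
      rw [hc, Subgroup.mem_bot, commutatorElement_eq_one_iff_mul_comm,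
        Subgroup.mem_centralizer_iff]
      simp only [Set.mem_singleton_iff, forall_eq]
    rw [hEc] at h1
    have h3 := Subgroup.card_mul_index (Subgroup.centralizer ({x} : Set G))
    have h4 : 0 < Nat.card (Subgroup.centralizer ({x} : Set G)) := Nat.card_pos
    have h5 : p ^ ((Finset.range (c - 1)).filter (fun i' => x ∉ H i')).card ≤ p ^ b := by
      have h6 : Nat.card (Subgroup.centralizer ({x} : Set G)) *
          p ^ ((Finset.range (c - 1)).filter (fun i' => x ∉ H i')).card ≤
          Nat.card (Subgroup.centralizer ({x} : Set G)) * p ^ b := by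
        calc _ ≤ Nat.card G := h1
          _ = _ := h3.symm
          _ ≤ _ := Nat.mul_le_mul_left _ (hb x)
      exact Nat.le_of_mul_le_mul_left h6 h4
    exact (Nat.pow_le_pow_iff_right hp).mp h5
  have havg : ∃ x : G, p * ((Finset.range (c - 1)).filter (fun i => x ∈ H i)).card < c - 1 := by
    by_contra hall
    push Not at hall
    have hsum : ∑ x : G, ((Finset.range (c - 1)).filter (fun i => x ∈ H i)).card =
        ∑ i ∈ Finset.range (c - 1), Nat.card (H i) := by
      simp_rw [Finset.card_filter]
      rw [Finset.sum_comm]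
      apply Finset.sum_congr rfl
      intro i _
      rw [← Finset.card_filter, Nat.card_eq_fintype_card, Fintype.card_subtype]
    have hle : p * ∑ x : G, ((Finset.range (c - 1)).filter (fun i => x ∈ H i)).card ≤
        (c - 1) * Nat.card G := by
      rw [hsum, Finset.mul_sum]
      calc ∑ i ∈ Finset.range (c - 1), p * Nat.card (H i)
          ≤ ∑ i ∈ Finset.range (c - 1), Nat.card G := by
            apply Finset.sum_le_sum
            intro i hi
            rw [mul_comm]
            exact hHlt i (Finset.mem_range.mp hi)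
        _ = (c - 1) * Nat.card G := by simp
    have hlt : ∑ _x : G, (c - 1) <
        ∑ x : G, p * ((Finset.range (c - 1)).filter (fun i => x ∈ H i)).card := by
      apply Finset.sum_lt_sum
      · intro x _
        exact hall x
      · refine ⟨1, Finset.mem_univ _, ?_⟩
        have h1 : (Finset.range (c - 1)).filter (fun i => (1 : G) ∈ H i) = Finset.range (c - 1) := by
          apply Finset.filter_true_of_mem
          intro i _
          exact Subgroup.one_mem _
        rw [h1, Finset.card_range]
        have h2 : 1 ≤ c - 1 := by omega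
        nlinarith
    rw [← Finset.mul_sum] at hlt
    have h3 : ∑ _x : G, (c - 1) = (c - 1) * Nat.card G := by
      simp [Nat.card_eq_fintype_card, mul_comm]
    rw [h3] at hlt
    exact absurd hle (not_le_of_gt hlt)
  obtain ⟨x, hx⟩ := havg
  have ht := hchain x
  have hsplit := Finset.card_filter_add_card_filter_not (s := Finset.range (c - 1))
    (fun i => x ∈ H i)
  rw [Finset.card_range] at hsplit
  set n := ((Finset.range (c - 1)).filter (fun i => x ∈ H i)).card with hn
  set t := ((Finset.range (c - 1)).filter (fun i => x ∉ H i)).card with ht'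
  obtain ⟨p', rfl⟩ : ∃ p', p = p' + 1 := ⟨p - 1, by omega⟩
  rw [← hsplit]
  simp only [Nat.add_sub_cancel]
  rw [← hsplit] at hx
  nlinarith

/-- If G is a finite p-group in which every conjugacy class has at most p^b elements (every element has centralizer of index at most p^b), then G is abelian when b = 0, and when b ≥ 1 its nilpotency class c satisfies (c − 1)(p − 1) < bp, that is c < bp/(p − 1) + 1, and hence c ≤ 2b. -/
theorem result {G : Type*} [Group G] [Finite G] {p : ℕ} [Fact p.Prime] (hG : IsPGroup p G) (b : ℕ) (hb : ∀ x : G, (Subgroup.centralizer ({x} : Set G)).index ≤ p ^ b) : ∃ c : ℕ, (⊤ : Subgroup G).lowerCentralSeries c = ⊥ ∧ (b ≠ 0 → (c - 1) * (p - 1) < b * p ∧ c ≤ 2 * b) ∧ (b = 0 → c ≤ 1) := by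
  classical
  have hnil : Group.IsNilpotent G := hG.isNilpotent
  have hex := Subgroup.nilpotent_iff_lowerCentralSeries.mp hnil
  have hc : (⊤ : Subgroup G).lowerCentralSeries (Nat.find hex) = ⊥ := Nat.find_spec hex
  have hmin : ∀ k < Nat.find hex, (⊤ : Subgroup G).lowerCentralSeries k ≠ ⊥ :=
    fun k hk => Nat.find_min hex hk
  have hp : 1 < p := (Fact.out : p.Prime).one_lt
  have hmain := main hG b hb (Nat.find hex) hc hmin
  generalize Nat.find hex = c at hc hmin hmain
  refine ⟨c, hc, ?_, ?_⟩
  · intro hb0
    by_cases hc2 : 2 ≤ c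
    · have h1 := hmain hc2
      refine ⟨h1, ?_⟩
      by_contra hcon
      push Not at hcon
      obtain ⟨p', rfl⟩ : ∃ p', p = p' + 1 := ⟨p - 1, by omega⟩
      obtain ⟨c', rfl⟩ : ∃ c', c = c' + 1 := ⟨c - 1, by omega⟩
      simp only [Nat.add_sub_cancel] at h1
      have h2 : 2 * b ≤ c' := by omega
      have h3 : 1 ≤ p' := by omega
      nlinarith
    · have h1 : c - 1 = 0 := by omega
      rw [h1, zero_mul]
      refine ⟨?_, by omega⟩
      have h2 : 0 < b := Nat.pos_of_ne_zero hb0
      positivity
  · intro hb0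
    by_contra hcon
    push Not at hcon
    have h1 := hmain (by omega)
    rw [hb0, zero_mul] at h1
    exact absurd h1 (Nat.not_lt_zero _)

end Cfsg.Agent.S3778
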