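import Cfsg.Statements.S3779
import Cfsg.Agent.S0033
import Cfsg.Agent.Lib.Helper68.LieGrB
import Cfsg.Agent.Lib.Helper68.LieExt

set_option autoImplicit false
set_option maxHeartbeats 400000

open Cfsg

namespace Cfsg.Agent.S3779

open Cfsg.Agent.Lib.Helper68.LieGr Cfsg.Agent.Lib.Helper68.LieFam Cfsg.Agent.Lib.Helper68.LieExt

section aux

variable {G : Type*} [Group G] [Finite G]

/-- the Lie algebra endomorphism induced by a group automorphism -/
noncomputable def phiLie (α : G ≃* G) : LG G →ₗ⁅ℤ⁆ LG G :=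
  { phiLin α with
    map_lie' := fun {x y} => phiL_lie α x y }

theorem phiLie_apply (α : G ≃* G) (x : LG G) : phiLie α x = phiL α x := rfl

theorem phiLie_iter (α : G ≃* G) (k : ℕ) (x : LG G) :
    (⇑(phiLie α))^[k] x = (⇑(phiL α))^[k] x := by
  induction k with
  | zero => rfl
  | succ k ih => rw [Function.iterate_succ_apply', Function.iterate_succ_apply', ih, phiLie_apply]

theorem phiLie_pow (α : G ≃* G) {p : ℕ} (hpow : (⇑α)^[p] = id) (x : LG G) :
    (⇑(phiLie α))^[p] x = x := by
  rw [phiLie_iter]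
  exact phiL_iter_eq α p hpow x

theorem phiLie_sum (α : G ≃* G) {p : ℕ} (hpow : (⇑α)^[p] = id)
    (hfpf : ∀ g : G, α g = g → g = 1) (x : LG G) :
    ∑ k ∈ Finset.range p, (⇑(phiLie α))^[k] x = 0 := by
  have h := congrArg (fun f : Module.End ℤ (LG G) => f x) (phiLin_sum α hfpf hpow)
  simp only [LinearMap.sum_apply, LinearMap.zero_apply] at h
  rw [← h]
  apply Finset.sum_congr rfl
  intro k _
  rw [phiLie_iter, phiLin_pow_apply]

theorem class_general {p : ℕ} [Fact p.Prime] (α : G ≃* G) (hpow : (⇑α)^[p] = id)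
    (hfpf : ∀ g : G, α g = g → g = 1) (hnil : Group.IsNilpotent G) :
    (⊤ : Subgroup G).lowerCentralSeries
      (Finset.sum (Finset.range (2 ^ (p - 1) - 1)) (fun i => (p - 1) ^ i)) = ⊥ := by
  apply lc_eq_bot_of_lb hnil
  intro v l hlen
  exact class_bound (R := ℤ) (A := AddMonoidAlgebra ℤ (ZMod p)) (phiLie α)
    (fun j => AddMonoidAlgebra.single j (1 : ℤ)) (coe1 ℤ p) (single_mul ℤ p) (single_zero' ℤ p)
    (coe1_single ℤ p) (phiLie_pow α hpow) (phiLie_sum α hpow hfpf) (Nat.card G)
    (fun x => card_smul x) (coprime_card α hfpf hpow) v l hlen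

theorem class_three_grp (α : G ≃* G) (hpow : (⇑α)^[3] = id)
    (hfpf : ∀ g : G, α g = g → g = 1) (hnil : Group.IsNilpotent G) :
    (⊤ : Subgroup G).lowerCentralSeries 2 = ⊥ := by
  haveI : Fact (Nat.Prime 3) := ⟨Nat.prime_three⟩
  apply lc_eq_bot_of_lb hnil
  intro v l hlen
  exact class_three (R := ℤ) (A := AddMonoidAlgebra ℤ (ZMod 3)) (phiLie α)
    (fun j => AddMonoidAlgebra.single j (1 : ℤ)) (coe1 ℤ 3) (single_mul ℤ 3) (single_zero' ℤ 3)
    (coe1_single ℤ 3) (phiLie_pow α hpow) (phiLie_sum α hpow hfpf) (Nat.card G)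
    (fun x => card_smul x) (coprime_card α hfpf hpow) v l hlen

end aux

/-- Let G be a finite group with an automorphism of prime order p fixing only the identity. Then G is nilpotent; if p = 2 then G is abelian, if p = 3 then G has class at most 2, and in general the class of G is at most ξ = 1 + (p−1) + (p−1)² + ⋯ + (p−1)^(n−1) with n = 2^(p−1) − 1 (the Higman–Kreknin–Kostrikin bound). -/
theorem result {G : Type*} [Group G] [Finite G] {p : ℕ} (hp : p.Prime) (α : MulAut G) (hα : orderOf α = p) (hfpf : ∀ g : G, α g = g → g = 1) : (p = 2 → (⊤ : Subgroup G).lowerCentralSeries 1 = ⊥) ∧ (p = 3 → (⊤ : Subgroup G).lowerCentralSeries 2 = ⊥) ∧ (⊤ : Subgroup G).lowerCentralSeries (Finset.sum (Finset.range (2 ^ (p - 1) - 1)) (fun i => (p - 1) ^ i)) = ⊥ := by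
  haveI : Fact p.Prime := ⟨hp⟩
  have hit : ∀ (n : ℕ) (x : G), (α ^ n) x = (⇑α)^[n] x := by
    intro n
    induction n with
    | zero => intro x; rfl
    | succ n ih =>
      intro x
      rw [pow_succ', MulAut.mul_apply, ih, Function.iterate_succ_apply']
  have hpow : (⇑α)^[p] = id := by
    funext x
    rw [← hit, ← hα, pow_orderOf_eq_one]
    rfl
  have hnil : Group.IsNilpotent G :=
    Cfsg.Agent.S0033.result α (fun g hg => hfpf g hg) p hp hα
  have h3 := class_general α hpow hfpf hnil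
  refine ⟨?_, ?_, h3⟩
  · intro h2
    subst h2
    simpa using h3
  · intro h3'
    subst h3'
    exact class_three_grp α hpow hfpf hnil

end Cfsg.Agent.S3779
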