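import Cfsg.Statements.S3780
import Mathlib

set_option autoImplicit false
open Cfsg

namespace Cfsg.Agent.S3780

lemma add_key {A : Type*} [AddCommGroup A] [Finite A] {p : ℕ} (hp : p.Prime)
    (a : AddMonoid.End A) (ha : a ^ p = 1) :
    Nat.card {x : A // p • x = 0} ≤ Nat.card {x : A // a x = x} ^ p := by
  set ν : AddMonoid.End A := a - 1 with hν
  have hνp : ∀ x : A, p • x = 0 → (ν ^ p) x = 0 := by
    intro x hx
    obtain ⟨r, hr⟩ := (Commute.one_left ν).exists_add_pow_prime_eq hp
    have h1 : (1 : AddMonoid.End A) + ν = a := by rw [hν]; abel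
    rw [h1, ha, one_pow] at hr
    have h3 : ν ^ p + (p : AddMonoid.End A) * 1 * ν * r = 0 := by
      have h4 : (1 : AddMonoid.End A) + (ν ^ p + (p : AddMonoid.End A) * 1 * ν * r) = 1 + 0 := by
        rw [add_zero, ← add_assoc]; exact hr.symm
      exact add_left_cancel h4
    have h2 : ν ^ p = -((p : AddMonoid.End A) * (ν * r)) := by
      rw [eq_neg_iff_add_eq_zero, ← h3]
      simp [mul_assoc]
    rw [h2]
    have h5 : ((p : AddMonoid.End A) * (ν * r)) x = 0 := by
      show (p : AddMonoid.End A) ((ν * r) x) = 0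
      rw [AddMonoid.End.natCast_apply, ← map_nsmul, hx, map_zero]
    show -(((p : AddMonoid.End A) * (ν * r)) x) = 0
    rw [h5, neg_zero]
  let F : AddSubgroup A := AddMonoidHom.ker (ν : A →+ A)
  let U : AddSubgroup A := AddMonoidHom.ker (nsmulAddMonoidHom p : A →+ A)
  let K : ℕ → AddSubgroup A := fun k => U ⊓ AddMonoidHom.ker ((ν ^ k : AddMonoid.End A) : A →+ A)
  have hstep : ∀ k, Nat.card (K (k + 1)) ≤ Nat.card (K k) * Nat.card F := by
    intro k
    set f : A →+ A := (ν ^ k : AddMonoid.End A) with hf
    have h1 : Nat.card (K (k + 1)) =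
        Nat.card (f.ker ⊓ K (k + 1) : AddSubgroup A) * Nat.card ((K (k + 1)).map f) := by
      rw [← AddSubgroup.relIndex_ker, ← AddSubgroup.inf_relIndex_right,
        ← AddSubgroup.relIndex_bot_left, ← AddSubgroup.relIndex_bot_left,
        AddSubgroup.relIndex_mul_relIndex _ _ _ bot_le inf_le_right]
    rw [h1]
    apply Nat.mul_le_mul
    · apply AddSubgroup.card_le_of_le
      intro x hx
      exact ⟨hx.2.1, hx.1⟩
    · apply AddSubgroup.card_le_of_le
      rintro y ⟨x, hx, rfl⟩
      have h2 : (ν ^ (k + 1)) x = 0 := hx.2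
      rw [pow_succ'] at h2
      exact h2
  have hK : ∀ k, Nat.card (K k) ≤ Nat.card F ^ k := by
    intro k
    induction k with
    | zero =>
      have h1 : K 0 = ⊥ := by
        ext x
        constructor
        · rintro ⟨_, h⟩
          exact h
        · intro h
          rw [AddSubgroup.mem_bot] at h
          rw [h]
          exact zero_mem _
      rw [h1]; simp
    | succ k ih =>
      calc Nat.card (K (k + 1)) ≤ Nat.card (K k) * Nat.card F := hstep k
        _ ≤ Nat.card F ^ k * Nat.card F := Nat.mul_le_mul_right _ ih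
        _ = Nat.card F ^ (k + 1) := (pow_succ _ _).symm
  have hKp : K p = U := by
    apply le_antisymm inf_le_left
    intro x hx
    exact ⟨hx, hνp x hx⟩
  have hU : Nat.card {x : A // p • x = 0} = Nat.card U :=
    Nat.card_congr (Equiv.subtypeEquivRight (fun x => by simp [U, AddMonoidHom.mem_ker]))
  have hF : Nat.card {x : A // a x = x} = Nat.card F :=
    Nat.card_congr (Equiv.subtypeEquivRight (fun x => by
      show a x = x ↔ a x - x = 0
      rw [sub_eq_zero]))
  rw [hU, hF, ← hKp]
  exact hK p


lemma card_mul_le_of_lt {G : Type*} [Group G] [Finite G] {p : ℕ} [Fact p.Prime]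
    (hG : IsPGroup p G) {H K : Subgroup G} (h : H < K) : Nat.card H * p ≤ Nat.card K := by
  obtain ⟨a, ha⟩ := IsPGroup.iff_card.mp (hG.to_subgroup H)
  obtain ⟨b, hb⟩ := IsPGroup.iff_card.mp (hG.to_subgroup K)
  have hlt : Nat.card H < Nat.card K := by
    by_contra hcon
    push Not at hcon
    exact absurd (Subgroup.eq_of_le_of_card_ge h.le hcon) (ne_of_lt h)
  rw [ha, hb] at hlt ⊢
  have hp : 1 < p := (Fact.out : p.Prime).one_lt
  have hab : a < b := (Nat.pow_lt_pow_iff_right hp).mp hlt
  rw [← pow_succ]
  exact Nat.pow_le_pow_right (by omega) hab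

lemma exists_gen {Q : Type*} [Group Q] [Finite Q] {p : ℕ} [Fact p.Prime] (hQ : IsPGroup p Q)
    (d : ℕ) (hd : Nat.card Q ≤ p ^ d) :
    ∃ S : Finset Q, S.card ≤ d ∧ Subgroup.closure (S : Set Q) = ⊤ := by
  classical
  have key : ∀ k : ℕ, ∃ S : Finset Q, S.card ≤ k ∧
      (Subgroup.closure (S : Set Q) = ⊤ ∨ p ^ k ≤ Nat.card (Subgroup.closure (S : Set Q))) := by
    intro k
    induction k with
    | zero => exact ⟨∅, by simp, Or.inr (by simp)⟩
    | succ k ih =>
      obtain ⟨S, hS, h⟩ := ih
      rcases h with h | h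
      · exact ⟨S, by omega, Or.inl h⟩
      · by_cases htop : Subgroup.closure (S : Set Q) = ⊤
        · exact ⟨S, by omega, Or.inl htop⟩
        · obtain ⟨x, hx⟩ : ∃ x, x ∉ Subgroup.closure (S : Set Q) := by
            by_contra hcon
            push Not at hcon
            exact htop (eq_top_iff.mpr fun x _ => hcon x)
          refine ⟨insert x S, (Finset.card_insert_le x S).trans (by omega), Or.inr ?_⟩
          have hlt : Subgroup.closure (S : Set Q) <
              Subgroup.closure ((insert x S : Finset Q) : Set Q) := by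
            refine lt_of_le_of_ne (Subgroup.closure_mono (by simp)) ?_
            intro heq
            apply hx
            rw [heq]
            exact Subgroup.subset_closure (by simp)
          have h2 := card_mul_le_of_lt hQ hlt
          calc p ^ (k + 1) = p ^ k * p := pow_succ _ _
            _ ≤ Nat.card (Subgroup.closure (S : Set Q)) * p := Nat.mul_le_mul_right _ h
            _ ≤ _ := h2
  obtain ⟨S, hS, h⟩ := key d
  refine ⟨S, hS, ?_⟩
  rcases h with h | h
  · exact h
  · exact Subgroup.eq_top_of_card_eq _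
      (le_antisymm (Subgroup.card_le_card_group _) (hd.trans h))

lemma eq_top_of_sup_pow {V : Type*} [CommGroup V] [Finite V] {p : ℕ} [Fact p.Prime]
    (H : Subgroup V) (h : ∀ v : V, ∃ x ∈ H, ∃ w : V, v = x * w ^ p) (hV : IsPGroup p V) :
    H = ⊤ := by
  have key : ∀ k : ℕ, ∀ v : V, ∃ x ∈ H, ∃ w : V, v = x * w ^ (p ^ k) := by
    intro k
    induction k with
    | zero => intro v; exact ⟨1, H.one_mem, v, by simp⟩
    | succ k ih =>
      intro v
      obtain ⟨x, hx, w, rfl⟩ := ih v
      obtain ⟨y, hy, w', rfl⟩ := h w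
      refine ⟨x * y ^ (p ^ k), H.mul_mem hx (H.pow_mem hy _), w', ?_⟩
      rw [mul_pow, ← pow_mul, mul_assoc, pow_succ']
  rw [eq_top_iff]
  intro v _
  obtain ⟨m, hm⟩ := IsPGroup.iff_card.mp hV
  obtain ⟨x, hx, w, rfl⟩ := key m v
  rw [← hm, pow_card_eq_one', mul_one]
  exact hx

/-- Let V be a finite abelian p-group and α an automorphism of V of order p whose fixed-point subgroup has order p^n. Then V can be generated by pn elements: some subset of V with at most pn elements generates V. -/
theorem result {V : Type*} [CommGroup V] [Finite V] {p : ℕ} [Fact p.Prime] (hV : IsPGroup p V) (α : MulAut V) (hα : orderOf α = p) (n : ℕ) (hfix : Nat.card {v : V // α v = v} = p ^ n) : ∃ S : Finset V, S.card ≤ p * n ∧ Subgroup.closure (S : Set V) = ⊤ := by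
  classical
  have hp : p.Prime := Fact.out
  let a : AddMonoid.End (Additive V) := MonoidHom.toAdditive α.toMonoidHom
  have hapow : ∀ k : ℕ, ∀ x : Additive V, (a ^ k) x = Additive.ofMul ((α ^ k) x.toMul) := by
    intro k
    induction k with
    | zero => intro x; rfl
    | succ k ih =>
      intro x
      rw [pow_succ, pow_succ]
      show (a ^ k) (a x) = _
      rw [ih]
      rfl
  have ha : a ^ p = 1 := by
    have h2 : ∀ x : Additive V, (a ^ p) x = (1 : AddMonoid.End (Additive V)) x := by
      intro x
      rw [hapow, ← hα, pow_orderOf_eq_one]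
      rfl
    exact DFunLike.ext _ _ h2
  have h1 := add_key hp a ha
  have hU : Nat.card {x : Additive V // p • x = 0} =
      Nat.card (powMonoidHom p : V →* V).ker :=
    Nat.card_congr (Equiv.subtypeEquiv Additive.toMul (fun x => by
      rw [MonoidHom.mem_ker, powMonoidHom_apply]
      exact Iff.rfl))
  have hF : Nat.card {x : Additive V // a x = x} = Nat.card {v : V // α v = v} :=
    Nat.card_congr (Equiv.subtypeEquiv Additive.toMul (fun x => Iff.rfl))
  rw [hU, hF, hfix, ← pow_mul] at h1
  set f : V →* V := powMonoidHom p with hf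
  have hidx : f.range.index = Nat.card f.ker := by
    have e1 := Subgroup.card_mul_index f.ker
    have e2 := Subgroup.card_mul_index f.range
    rw [Subgroup.index_ker] at e1
    have hpos : 0 < Nat.card f.range := Nat.card_pos
    apply Nat.eq_of_mul_eq_mul_left hpos
    rw [e2, ← e1, mul_comm]
  have hQ : IsPGroup p (V ⧸ f.range) := hV.to_quotient f.range
  have hQcard : Nat.card (V ⧸ f.range) ≤ p ^ (p * n) := by
    rw [← Subgroup.index_eq_card, hidx, mul_comm]
    exact h1
  obtain ⟨S', hS', hgen⟩ := exists_gen hQ (p * n) hQcard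
  refine ⟨S'.image Quotient.out, Finset.card_image_le.trans hS', ?_⟩
  apply eq_top_of_sup_pow (p := p) _ _ hV
  intro v
  have hv : (QuotientGroup.mk' f.range v) ∈
      (Subgroup.closure ((S'.image Quotient.out : Finset V) : Set V)).map
        (QuotientGroup.mk' f.range) := by
    rw [MonoidHom.map_closure]
    have himg : (QuotientGroup.mk' f.range) '' ((S'.image Quotient.out : Finset V) : Set V) =
        (S' : Set (V ⧸ f.range)) := by
      ext q
      simp only [Finset.coe_image, Set.mem_image, Finset.mem_coe, exists_exists_and_eq_and,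
        QuotientGroup.mk'_apply]
      constructor
      · rintro ⟨q', hq', rfl⟩
        rw [QuotientGroup.out_eq']
        exact hq'
      · intro hq
        exact ⟨q, hq, QuotientGroup.out_eq' q⟩
    rw [himg, hgen]
    exact Subgroup.mem_top _
  obtain ⟨x, hx, hxv⟩ := hv
  have hmem : x⁻¹ * v ∈ f.range := QuotientGroup.eq.mp hxv
  obtain ⟨w, hw⟩ := hmem
  refine ⟨x, hx, w, ?_⟩
  rw [show w ^ p = x⁻¹ * v from hw]
  group

end Cfsg.Agent.S3780
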