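import Cfsg.Statements.S3781
import Mathlib

set_option autoImplicit false
open Cfsg

namespace Cfsg.Agent.S3781

variable {G : Type*} [Group G]

lemma three_le (A B C N : Subgroup G) [N.Normal]
    (h1 : ⁅⁅B, C⁆, A⁆ ≤ N) (h2 : ⁅⁅C, A⁆, B⁆ ≤ N) : ⁅⁅A, B⁆, C⁆ ≤ N := by
  have key : ∀ X Y Z : Subgroup G, ⁅⁅X, Y⁆, Z⁆ ≤ N ↔
      ⁅⁅X.map (QuotientGroup.mk' N), Y.map (QuotientGroup.mk' N)⁆,
        Z.map (QuotientGroup.mk' N)⁆ = ⊥ := by
    intro X Y Z
    rw [← Subgroup.map_commutator, ← Subgroup.map_commutator, Subgroup.map_eq_bot_iff,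
      QuotientGroup.ker_mk']
  rw [key] at h1 h2 ⊢
  exact Subgroup.commutator_commutator_eq_bot_of_rotate h1 h2

/-- iterated commutator with the whole group -/
def dd (M : Subgroup G) : ℕ → Subgroup G
  | 0 => M
  | j + 1 => ⁅dd M j, ⊤⁆

lemma dd_zero (M : Subgroup G) : dd M 0 = M := rfl

lemma dd_succ (M : Subgroup G) (j : ℕ) : dd M (j + 1) = ⁅dd M j, ⊤⁆ := rfl

instance dd_normal (M : Subgroup G) [M.Normal] (j : ℕ) : (dd M j).Normal := by
  induction j with
  | zero => simpa [dd_zero]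
  | succ j ih => rw [dd_succ]; infer_instance

lemma dd_shift (M : Subgroup G) (j : ℕ) : dd (dd M 1) j = dd M (j + 1) := by
  induction j with
  | zero => rfl
  | succ j ih => rw [dd_succ, ih, ← dd_succ]

lemma dd_mono {M M' : Subgroup G} (h : M ≤ M') (j : ℕ) : dd M j ≤ dd M' j := by
  induction j with
  | zero => exact h
  | succ j ih => rw [dd_succ, dd_succ]; exact Subgroup.commutator_mono ih le_rfl

lemma dd_le (M : Subgroup G) [M.Normal] (j : ℕ) : dd M j ≤ M := by
  induction j with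
  | zero => exact le_rfl
  | succ j ih =>
    rw [dd_succ]
    exact (Subgroup.commutator_mono ih le_rfl).trans (Subgroup.commutator_le_left M ⊤)

lemma comm_lcs_le (j : ℕ) : ∀ (M : Subgroup G) [M.Normal],
    ⁅M, (⊤ : Subgroup G).lowerCentralSeries j⁆ ≤ dd M (j + 1) := by
  induction j with
  | zero => intro M _; exact le_rfl
  | succ j ih =>
    intro M _
    rw [Subgroup.lowerCentralSeries_succ, Subgroup.commutator_comm]
    apply three_le
    · rw [Subgroup.commutator_comm ⊤ M]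
      have h := ih (dd M 1)
      rw [dd_shift] at h
      exact h
    · have h := ih M
      rw [dd_succ M (j + 1)]
      exact Subgroup.commutator_mono h le_rfl

lemma comm_top_le_iff (H X : Subgroup G) [X.Normal] :
    ⁅H, (⊤ : Subgroup G)⁆ ≤ X ↔
      H ≤ (Subgroup.center (G ⧸ X)).comap (QuotientGroup.mk' X) := by
  rw [← Subgroup.map_le_iff_le_comap, ← Subgroup.commutator_top_right_eq_bot_iff_le_center,
    ← Subgroup.map_top_of_surjective (QuotientGroup.mk' X) (QuotientGroup.mk'_surjective X),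
    ← Subgroup.map_commutator, Subgroup.map_eq_bot_iff, QuotientGroup.ker_mk']

lemma sup_comm_lt [Finite G] {p : ℕ} [Fact p.Prime] (hG : IsPGroup p G)
    (A B : Subgroup G) [A.Normal] [B.Normal] (hBA : B < A) : ⁅A, ⊤⁆ ⊔ B < A := by
  have hle : ⁅A, ⊤⁆ ⊔ B ≤ A := sup_le (Subgroup.commutator_le_left A ⊤) hBA.le
  refine lt_of_le_of_ne hle ?_
  intro heq
  have hnil : Group.IsNilpotent G := hG.isNilpotent
  obtain ⟨c, hc⟩ := Subgroup.nilpotent_iff_lowerCentralSeries.mp hnil
  have key : ∀ k : ℕ, A ≤ (⊤ : Subgroup G).lowerCentralSeries k ⊔ B := by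
    intro k
    induction k with
    | zero => simp
    | succ k ih =>
      have h1 : ⁅A, ⊤⁆ ≤ (⊤ : Subgroup G).lowerCentralSeries (k + 1) ⊔ B := by
        refine (Subgroup.commutator_mono ih le_rfl).trans ?_
        rw [comm_top_le_iff]
        apply sup_le
        · rw [← comm_top_le_iff]
          exact le_sup_left
        · rw [← comm_top_le_iff]
          exact (Subgroup.commutator_le_left B ⊤).trans le_sup_right
      calc A = ⁅A, ⊤⁆ ⊔ B := heq.symm
        _ ≤ (⊤ : Subgroup G).lowerCentralSeries (k + 1) ⊔ B := sup_le h1 le_sup_right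
  have h2 := key c
  rw [hc, bot_sup_eq] at h2
  exact absurd h2 (not_le_of_gt hBA)

lemma card_mul_le_of_lt [Finite G] {p : ℕ} [Fact p.Prime] (hG : IsPGroup p G)
    {H K : Subgroup G} (h : H < K) : Nat.card H * p ≤ Nat.card K := by
  obtain ⟨a, ha⟩ := IsPGroup.iff_card.mp (hG.to_subgroup H)
  obtain ⟨b, hb⟩ := IsPGroup.iff_card.mp (hG.to_subgroup K)
  have hlt : Nat.card H < Nat.card K := by
    by_contra hcon
    push Not at hcon
    exact absurd (Subgroup.eq_of_le_of_card_ge h.le hcon) (ne_of_lt h)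
  rw [ha, hb] at hlt ⊢
  have hp : 1 < p := (Fact.out : p.Prime).one_lt
  have hab : a < b := (Nat.pow_lt_pow_iff_right hp).mp hlt
  rw [← pow_succ]
  exact Nat.pow_le_pow_right (by omega) hab

lemma dd_le_of_card [Finite G] {p : ℕ} [Fact p.Prime] (hG : IsPGroup p G) (a : ℕ) :
    ∀ (A B : Subgroup G) [A.Normal] [B.Normal], B ≤ A →
      Nat.card A ≤ p ^ a * Nat.card B → dd A a ≤ B := by
  induction a with
  | zero =>
    intro A B _ _ hBA hcard
    rw [pow_zero, one_mul] at hcard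
    rw [dd_zero]
    exact (Subgroup.eq_of_le_of_card_ge hBA hcard).ge
  | succ a ih =>
    intro A B _ _ hBA hcard
    by_cases hAB : A ≤ B
    · exact (dd_le A (a + 1)).trans hAB
    have hlt : B < A := lt_of_le_not_ge hBA hAB
    have h1 := sup_comm_lt hG A B hlt
    have h2 := card_mul_le_of_lt hG h1
    have hp : 0 < p := (Fact.out : p.Prime).pos
    have h3 : Nat.card (⁅A, ⊤⁆ ⊔ B : Subgroup G) ≤ p ^ a * Nat.card B := by
      rw [pow_succ] at hcard
      have h4 : Nat.card (⁅A, ⊤⁆ ⊔ B : Subgroup G) * p ≤ p ^ a * Nat.card B * p := by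
        calc Nat.card (⁅A, ⊤⁆ ⊔ B : Subgroup G) * p ≤ Nat.card A := h2
          _ ≤ p ^ a * p * Nat.card B := hcard
          _ = p ^ a * Nat.card B * p := by ring
      exact Nat.le_of_mul_le_mul_right h4 hp
    have h5 := ih (⁅A, ⊤⁆ ⊔ B) B le_sup_right h3
    rw [← dd_shift]
    exact (dd_mono (show dd A 1 ≤ ⁅A, ⊤⁆ ⊔ B from le_sup_left) a).trans h5

/-- Let G be a finite p-group and n ≥ 1, and write γ_1(G) = G, γ_{k+1}(G) = [γ_k(G), G], and likewise γ_k(N) for a subgroup N. Let N be a normal subgroup of G contained in γ_n(G). If i > 1 and γ_{i+1}(N) ≠ 1, then |γ_i(N) : γ_{i+1}(N)| ≥ p^n. -/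
theorem result {G : Type*} [Group G] [Finite G] {p : ℕ} [Fact p.Prime] (hG : IsPGroup p G) (n : ℕ) (hn : 1 ≤ n) (N : Subgroup G) [N.Normal] (hN : N ≤ (⊤ : Subgroup G).lowerCentralSeries (n - 1)) (i : ℕ) (hi : 1 < i) (hne : N.lowerCentralSeries i ≠ ⊥) : p ^ n ≤ (N.lowerCentralSeries i).relIndex (N.lowerCentralSeries (i - 1)) := by
  obtain ⟨i', rfl⟩ : ∃ i', i = i' + 1 := ⟨i - 1, by omega⟩
  simp only [Nat.add_sub_cancel] at *
  set A := N.lowerCentralSeries i' with hA
  set B := N.lowerCentralSeries (i' + 1) with hB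
  have hBA : B ≤ A := Subgroup.lowerCentralSeries_antitone N (Nat.le_succ i')
  have hBdef : B = ⁅A, N⁆ := rfl
  by_contra hcon
  push Not at hcon
  have hp : 1 < p := (Fact.out : p.Prime).one_lt
  have hcard : Nat.card A = Nat.card B * B.relIndex A := by
    rw [← Subgroup.relIndex_bot_left, ← Subgroup.relIndex_bot_left,
      Subgroup.relIndex_mul_relIndex ⊥ B A bot_le hBA]
  obtain ⟨x, hx⟩ := IsPGroup.iff_card.mp (hG.to_subgroup A)
  obtain ⟨y, hy⟩ := IsPGroup.iff_card.mp (hG.to_subgroup B)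
  have hyx : y ≤ x := by
    have h1 := Subgroup.card_le_of_le hBA
    rw [hx, hy] at h1
    exact (Nat.pow_le_pow_iff_right hp).mp h1
  have hrel : B.relIndex A = p ^ (x - y) := by
    have h1 : p ^ y * B.relIndex A = p ^ y * p ^ (x - y) := by
      rw [← pow_add, ← hy, ← hcard, hx]
      congr 1
      omega
    exact Nat.eq_of_mul_eq_mul_left (by positivity) h1
  rw [hrel] at hcon
  have ha : x - y < n := (Nat.pow_lt_pow_iff_right hp).mp hcon
  have h1 : dd A (x - y) ≤ B := by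
    apply dd_le_of_card hG (x - y) A B hBA
    rw [hcard, hrel, mul_comm]
  have h2 : ⁅A, (⊤ : Subgroup G).lowerCentralSeries (x - y)⁆ ≤ ⁅B, ⊤⁆ := by
    refine (comm_lcs_le (x - y) A).trans ?_
    rw [dd_succ]
    exact Subgroup.commutator_mono h1 le_rfl
  have h3 : N ≤ (⊤ : Subgroup G).lowerCentralSeries (x - y) :=
    hN.trans (Subgroup.lowerCentralSeries_antitone ⊤ (by omega))
  have h4 : B ≤ ⁅B, ⊤⁆ := by
    rw [hBdef]
    exact (Subgroup.commutator_mono le_rfl h3).trans h2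
  have h5 : ⁅B, ⊤⁆ ⊔ ⊥ < B := sup_comm_lt hG B ⊥ (bot_lt_iff_ne_bot.mpr hne)
  rw [sup_bot_eq] at h5
  exact absurd h4 (not_le_of_gt h5)

end Cfsg.Agent.S3781
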