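import Cfsg.Statements.S3784
import Mathlib

set_option autoImplicit false
open Cfsg

namespace Cfsg.Agent.S3784

lemma odd_factor_add (x : ℕ) (hx : Odd x) (j : ℕ) :
    ∃ S, Odd S ∧ x ^ (2 * j + 1) + 1 = (x + 1) * S := by
  obtain ⟨k, rfl⟩ := hx
  induction j with
  | zero => exact ⟨1, odd_one, by ring⟩
  | succ j ih =>
    obtain ⟨S, ⟨s, rfl⟩, hS⟩ := ih
    refine ⟨2 * (4 * k * k * s + 4 * k * s + s + 2 * k * k + k) + 1, ⟨_, rfl⟩, ?_⟩
    have h1 : (2 * k + 1) ^ (2 * (j + 1) + 1) =
        (2 * k + 1) ^ (2 * j + 1) * ((2 * k + 1) * (2 * k + 1)) := by ring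
    rw [h1]
    generalize (2 * k + 1) ^ (2 * j + 1) = y at hS ⊢
    have h2 : (y + 1) * ((2 * k + 1) * (2 * k + 1)) =
        (2 * k + 1 + 1) * (2 * s + 1) * ((2 * k + 1) * (2 * k + 1)) := by rw [hS]
    nlinarith [h2]

lemma odd_factor_sub (y : ℕ) (hy : Even y) (j : ℕ) :
    ∃ S, Odd S ∧ (y + 1) ^ (2 * j + 1) = y * S + 1 := by
  obtain ⟨k, rfl⟩ := hy
  induction j with
  | zero => exact ⟨1, odd_one, by ring⟩
  | succ j ih =>
    obtain ⟨S, ⟨s, rfl⟩, hS⟩ := ih
    refine ⟨2 * (s * ((k + k + 1) * (k + k + 1)) + 2 * k * k + 3 * k + 1) + 1, ⟨_, rfl⟩, ?_⟩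
    have h1 : (k + k + 1) ^ (2 * (j + 1) + 1) =
        (k + k + 1) ^ (2 * j + 1) * ((k + k + 1) * (k + k + 1)) := by ring
    rw [h1, hS]
    ring

lemma odd_dvd_two_pow (S n : ℕ) (hS : Odd S) (h : S ∣ 2 ^ n) : S = 1 := by
  obtain ⟨e, _, rfl⟩ := (Nat.dvd_prime_pow Nat.prime_two).mp h
  rcases Nat.eq_zero_or_pos e with rfl | he
  · rfl
  · exfalso
    have h1 : Even (2 ^ e) := (Nat.even_pow).mpr ⟨even_two, by omega⟩
    exact (Nat.not_even_iff_odd.mpr hS) h1

/-- Let p, q be primes and a, b positive integers with p^a = q^b + 1. Then either p = 2, b = 1, a is prime and q = 2^a − 1; or q = 2, a = 1, b is a power of 2 and p = 2^b + 1; or p^a = 9 and q^b = 8. -/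
theorem result (p q a b : ℕ) (hp : p.Prime) (hq : q.Prime) (ha : 1 ≤ a) (hb : 1 ≤ b) (h : p ^ a = q ^ b + 1) : (p = 2 ∧ b = 1 ∧ a.Prime ∧ q + 1 = 2 ^ a) ∨ (q = 2 ∧ a = 1 ∧ (∃ m : ℕ, b = 2 ^ m) ∧ p = 2 ^ b + 1) ∨ (p ^ a = 9 ∧ q ^ b = 8) := by
  rcases hp.eq_two_or_odd' with rfl | hpo
  · left
    have hqo : Odd q := by
      rcases hq.eq_two_or_odd' with rfl | hqo
      · exfalso
        obtain ⟨a', rfl⟩ : ∃ a', a = a' + 1 := ⟨a - 1, by omega⟩
        obtain ⟨b', rfl⟩ : ∃ b', b = b' + 1 := ⟨b - 1, by omega⟩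
        rw [pow_succ, pow_succ] at h
        omega
      · exact hqo
    have hq3 : 3 ≤ q := by
      have h1 := hq.two_le
      obtain ⟨k, rfl⟩ := hqo
      omega
    have hb1 : b = 1 := by
      rcases Nat.even_or_odd b with ⟨k, rfl⟩ | ⟨j, rfl⟩
      · exfalso
        have hk : 1 ≤ k := by omega
        have hodd : Odd (q ^ k) := hqo.pow
        obtain ⟨t, ht⟩ := hodd
        have h1 : q ^ (k + k) = (2 * t + 1) * (2 * t + 1) := by rw [pow_add, ht]
        rw [h1] at h
        have h3 : 3 ≤ q ^ k := le_trans hq3 (Nat.le_self_pow (by omega) q)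
        have ht1 : 1 ≤ t := by omega
        have ha2 : 2 ≤ a := by
          by_contra hlt
          have h4 : a = 1 := by omega
          subst h4
          nlinarith
        obtain ⟨a', rfl⟩ : ∃ a', a = a' + 2 := ⟨a - 2, by omega⟩
        rw [pow_add] at h
        have h5 : 2 ^ a' * 4 = 4 * (t * t) + 4 * t + 2 := by
          have h6 : (2 : ℕ) ^ 2 = 4 := by norm_num
          rw [h6] at h
          rw [h]
          ring
        omega
      · obtain ⟨S, hSodd, hS⟩ := odd_factor_add q hqo j
        rw [← h] at hS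
        have hSdvd : S ∣ 2 ^ a := ⟨q + 1, by rw [hS]; ring⟩
        have hS1 := odd_dvd_two_pow S a hSodd hSdvd
        subst hS1
        rw [mul_one] at hS
        have h2 : q ^ (2 * j + 1) = q ^ 1 := by
          rw [pow_one]
          omega
        have h3 := Nat.pow_right_injective hq.two_le h2
        omega
    subst hb1
    rw [pow_one] at h
    refine ⟨rfl, rfl, ?_, h.symm⟩
    have ha1 : a ≠ 1 := by
      rintro rfl
      rw [pow_one] at h
      omega
    have hP : (2 ^ a - 1).Prime := by
      have h1 : 2 ^ a - 1 = q := by omega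
      rw [h1]
      exact hq
    exact (Nat.prime_of_pow_sub_one_prime ha1 hP).2
  · rcases hq.eq_two_or_odd' with rfl | hqo
    · right
      have hp3 : 3 ≤ p := by
        have h1 := hp.two_le
        obtain ⟨k, rfl⟩ := hpo
        omega
      have key : a = 1 ∨ (p ^ a = 9 ∧ 2 ^ b = 8) := by
        rcases Nat.even_or_odd a with ⟨k, rfl⟩ | ⟨j, rfl⟩
        · right
          have hk : 1 ≤ k := by omega
          have hodd : Odd (p ^ k) := hpo.pow
          obtain ⟨t, ht⟩ := hodd
          have h1 : p ^ (k + k) = (2 * t + 1) * (2 * t + 1) := by rw [pow_add, ht]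
          rw [h1] at h ⊢
          have h2 : (2 * t) * (2 * t + 2) = 2 ^ b := by nlinarith
          have hd1 : 2 * t ∣ 2 ^ b := ⟨2 * t + 2, h2.symm⟩
          have hd2 : 2 * t + 2 ∣ 2 ^ b := ⟨2 * t, by rw [← h2]; ring⟩
          obtain ⟨c, hc, hc'⟩ := (Nat.dvd_prime_pow Nat.prime_two).mp hd1
          obtain ⟨d, hd, hd'⟩ := (Nat.dvd_prime_pow Nat.prime_two).mp hd2
          have h3 : 2 ^ c + 2 = 2 ^ d := by omega
          have hc1 : c = 1 := by
            rcases Nat.lt_or_ge c 2 with hlt | hge
            · interval_cases c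
              · exfalso
                rcases Nat.eq_zero_or_pos d with rfl | hdpos
                · simp at h3
                · obtain ⟨d', rfl⟩ : ∃ d', d = d' + 1 := ⟨d - 1, by omega⟩
                  rw [pow_succ] at h3
                  omega
              · rfl
            · exfalso
              obtain ⟨c', rfl⟩ : ∃ c', c = c' + 2 := ⟨c - 2, by omega⟩
              rcases Nat.lt_or_ge d 2 with hlt | hge2
              · have h4 : 0 < 2 ^ c' := by positivity
                rw [pow_add] at h3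
                interval_cases d <;> omega
              · obtain ⟨d', rfl⟩ : ∃ d', d = d' + 2 := ⟨d - 2, by omega⟩
                rw [pow_add, pow_add] at h3
                omega
          subst hc1
          have ht1 : t = 1 := by omega
          subst ht1
          constructor
          · norm_num
          · omega
        · left
          obtain ⟨y, rfl⟩ : ∃ y, p = y + 1 := ⟨p - 1, by omega⟩
          have hy : Even y := by
            rcases hpo with ⟨m, hm⟩
            exact ⟨m, by omega⟩
          obtain ⟨S, hSodd, hS⟩ := odd_factor_sub y hy j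
          have hSdvd : S ∣ 2 ^ b := ⟨y, by rw [hS] at h; linarith⟩
          have hS1 := odd_dvd_two_pow S b hSodd hSdvd
          subst hS1
          rw [mul_one] at hS
          have h2 : (y + 1) ^ (2 * j + 1) = (y + 1) ^ 1 := by rw [pow_one]; exact hS
          have h3 := Nat.pow_right_injective hp.two_le h2
          omega
      rcases key with rfl | hk
      · left
        rw [pow_one] at h
        refine ⟨rfl, rfl, ?_, h⟩
        have hb0 : b ≠ 0 := by omega
        exact Nat.pow_of_pow_add_prime (by norm_num) hb0 (h ▸ hp)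
      · right
        exact hk
    · exfalso
      have h1 : Odd (p ^ a) := hpo.pow
      have h2 : Odd (q ^ b) := hqo.pow
      rcases h1 with ⟨u, hu⟩
      rcases h2 with ⟨v, hv⟩
      omega

end Cfsg.Agent.S3784
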