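import Cfsg.Statements.S3787
import Cfsg.Agent.Lib.Helper17.WrAsm

set_option autoImplicit false
open Cfsg

namespace Cfsg.Agent.S3787

/-- Let G be a finite p-soluble group, p an odd prime not of the form 2^k + 1, and suppose the wreath product C_p ≀ C_p (of order p^(p+1)) is not involved in a Sylow p-subgroup of G: no section of a Sylow p-subgroup is isomorphic to it. Then G has p-length at most 1. -/
theorem result {G : Type*} [Group G] [Finite G] {p : ℕ} [Fact p.Prime] (hp2 : p ≠ 2) (hnf : (¬ ∃ k : ℕ, p = 2 ^ k + 1)) (hG : Cfsg.IsPSolvable p G) (P : Sylow p G) (hwr : ∀ (W : Type) [Group W] [Finite W], (∃ (B : Subgroup W) (t : W), B.Normal ∧ IsMulCommutative B ∧ (∀ b ∈ B, b ^ p = 1) ∧ Nat.card B = p ^ p ∧ orderOf t = p ∧ t ∉ B ∧ Nat.card W = p ^ (p + 1) ∧ Nat.card ↥(B ⊓ Subgroup.centralizer ({t} : Set W)) = p) → ¬ Cfsg.Involves W ↥(P : Subgroup G)) : Cfsg.PLengthLE p 1 G := by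
  exact Cfsg.Agent.Lib.Helper17.s3787_main hp2 hnf hG P (fun W _ _ hW => hwr W hW)

end Cfsg.Agent.S3787
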