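import Cfsg.Statements.S3788
import Mathlib
import Cfsg.Agent.S3783
import Cfsg.Agent.Lib.Helper2.S4Sec
import Cfsg.Agent.Lib.Helper72.Frattini

set_option autoImplicit false
open Cfsg

namespace Cfsg.Agent.S3788

/-- if `a v a⁻¹ = c v` with `c` commuting with `a`, then `a^i v a^{-i} = c^i v`. -/
theorem conj_pow_comm {X : Type*} [Group X] (a v c : X) (hc : a * v * a⁻¹ = c * v)
    (hac : a * c = c * a) : ∀ i : ℕ, a ^ i * v * (a ^ i)⁻¹ = c ^ i * v := by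
  intro i
  induction i with
  | zero => simp
  | succ i ih =>
    have e1 : a ^ (i + 1) * v * (a ^ (i + 1))⁻¹ = a * (a ^ i * v * (a ^ i)⁻¹) * a⁻¹ := by
      rw [pow_succ']; group
    have e2 : a * c ^ i = c ^ i * a := ((show Commute a c from hac).pow_right i).eq
    rw [e1, ih]
    calc a * (c ^ i * v) * a⁻¹ = (a * c ^ i) * v * a⁻¹ := by group
      _ = c ^ i * (a * v * a⁻¹) := by rw [e2]; group
      _ = c ^ (i + 1) * v := by rw [hc, pow_succ]; group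

/-- the norm formula: `(w a)^n = c^{n(n-1)/2} w^n a^n` when `a w a⁻¹ = c w` and `c` commutes with
`a` and `w`. -/
theorem norm_pow {X : Type*} [Group X] (a w c : X) (haw : a * w * a⁻¹ = c * w)
    (hac : a * c = c * a) (hwc : w * c = c * w) :
    ∀ n : ℕ, (w * a) ^ n = c ^ (∑ i ∈ Finset.range n, i) * w ^ n * a ^ n := by
  intro n
  induction n with
  | zero => simp
  | succ n ih =>
    have h1 := conj_pow_comm a w c haw hac n
    have h2 : a ^ n * w = c ^ n * w * a ^ n := by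
      calc a ^ n * w = (a ^ n * w * (a ^ n)⁻¹) * a ^ n := by group
        _ = c ^ n * w * a ^ n := by rw [h1]
    have h3 : w ^ n * c ^ n = c ^ n * w ^ n := ((show Commute w c from hwc).pow_pow n n).eq
    rw [pow_succ, ih, Finset.sum_range_succ, pow_add, pow_succ w, pow_succ a]
    calc c ^ (∑ i ∈ Finset.range n, i) * w ^ n * a ^ n * (w * a)
        = c ^ (∑ i ∈ Finset.range n, i) * w ^ n * (a ^ n * w) * a := by group
      _ = c ^ (∑ i ∈ Finset.range n, i) * (w ^ n * c ^ n) * w * a ^ n * a := by rw [h2]; group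
      _ = c ^ (∑ i ∈ Finset.range n, i) * c ^ n * (w ^ n * w) * (a ^ n * a) := by rw [h3]; group

/-- for an abelian subgroup `V` stable under conjugation by `g`, the commutator map
`v ↦ g v g⁻¹ v⁻¹` is a homomorphism. -/
def commHom {X : Type*} [Group X] (V : Subgroup X)
    (hVab : ∀ v ∈ V, ∀ w ∈ V, v * w = w * v) (g : X) (hg : ∀ v ∈ V, g * v * g⁻¹ ∈ V) : V →* X :=
  MonoidHom.mk' (fun v => g * (v : X) * g⁻¹ * (v : X)⁻¹) (by
    intro u v
    have h1 := hVab _ (V.mul_mem (hg v v.2) (V.inv_mem v.2)) _ (V.inv_mem u.2)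
    simp only [Subgroup.coe_mul]
    calc g * ((u : X) * (v : X)) * g⁻¹ * ((u : X) * (v : X))⁻¹
        = g * (u : X) * g⁻¹ * ((g * (v : X) * g⁻¹ * (v : X)⁻¹) * (u : X)⁻¹) := by
          group
      _ = g * (u : X) * g⁻¹ * ((u : X)⁻¹ * (g * (v : X) * g⁻¹ * (v : X)⁻¹)) := by
          rw [h1]
      _ = _ := by group)

theorem commHom_apply {X : Type*} [Group X] (V : Subgroup X)
    (hVab : ∀ v ∈ V, ∀ w ∈ V, v * w = w * v) (g : X) (hg : ∀ v ∈ V, g * v * g⁻¹ ∈ V) (v : V) :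
    commHom V hVab g hg v = g * (v : X) * g⁻¹ * (v : X)⁻¹ := rfl

theorem commHom_mem {X : Type*} [Group X] (V : Subgroup X)
    (hVab : ∀ v ∈ V, ∀ w ∈ V, v * w = w * v) (g : X) (hg : ∀ v ∈ V, g * v * g⁻¹ ∈ V) (v : V) :
    commHom V hVab g hg v ∈ V := V.mul_mem (hg v v.2) (V.inv_mem v.2)

/-- a commutator `g v g⁻¹ v⁻¹` commuting with `g` is killed by any `M` with `g^M` central on `v`. -/
theorem comm_pow_eq_one {X : Type*} [Group X] (g v : X) (M : ℕ)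
    (hcomm : g * (g * v * g⁻¹ * v⁻¹) = (g * v * g⁻¹ * v⁻¹) * g)
    (hM : g ^ M * v = v * g ^ M) : (g * v * g⁻¹ * v⁻¹) ^ M = 1 := by
  have h1 := conj_pow_comm g v (g * v * g⁻¹ * v⁻¹) (by group) hcomm M
  have h2 : g ^ M * v * (g ^ M)⁻¹ = v := by rw [hM]; group
  rw [h2] at h1
  exact (mul_eq_right.1 h1.symm)

theorem eq_one_of_pgroup_coprime {X : Type*} [Group X] {p : ℕ} (V : Subgroup X)
    (hVp : IsPGroup p V) (u : X) (hu : u ∈ V) (M : ℕ) (hM : M.Coprime p) (huM : u ^ M = 1) :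
    u = 1 := by
  obtain ⟨j, hj⟩ := hVp ⟨u, hu⟩
  have hj' : u ^ p ^ j = 1 := by simpa using congrArg Subtype.val hj
  have h1 := pow_gcd_eq_one.2 ⟨huM, hj'⟩
  have h2 : Nat.gcd M (p ^ j) = 1 := Nat.Coprime.pow_right _ hM
  rw [h2, pow_one] at h1
  exact h1

theorem mem_zpowers_sq {X : Type*} [Group X] (d x : X) (hd : d ^ 2 = 1)
    (hx : x ∈ Subgroup.zpowers d) : x = 1 ∨ x = d := by
  obtain ⟨k, rfl⟩ := Subgroup.mem_zpowers_iff.1 hx
  have hd' : d ^ (2 : ℤ) = 1 := by rw [← hd]; norm_cast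
  rcases Int.emod_two_eq_zero_or_one k with h | h
  · left
    have : k = 2 * (k / 2) := by omega
    rw [this, zpow_mul, hd', one_zpow]
  · right
    have : k = 2 * (k / 2) + 1 := by omega
    rw [this, zpow_add, zpow_mul, hd', one_zpow, one_mul, zpow_one]

/-- **Central element lemma.** Let `V` be an abelian normal self-centralizing `p`-subgroup of `X`,
`T` a subgroup of `X ⧸ V` with `T = [T, ā]` and `z̄ ∈ Z(T)` a `p'`-element commuting with `ā`.
If `z` commutes with all the commutators `[a, v]`, `v ∈ V`, then `z ∈ V`. -/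
theorem lemB {X : Type*} [Group X] (p : ℕ)
    (V : Subgroup X) [hVn : V.Normal] (hVp : IsPGroup p V)
    (hVab : ∀ v ∈ V, ∀ w ∈ V, v * w = w * v)
    (hC : Subgroup.centralizer (V : Set X) ≤ V)
    (a z : X) (T : Subgroup (X ⧸ V))
    (haz : (a : X ⧸ V) * (z : X ⧸ V) = (z : X ⧸ V) * (a : X ⧸ V))
    (hzT : ∀ t ∈ T, t * (z : X ⧸ V) = (z : X ⧸ V) * t)
    (hzmem : (z : X ⧸ V) ∈ T)
    (hT : T ≤ Subgroup.closure {x | ∃ t ∈ T, x = (a : X ⧸ V) * t * (a : X ⧸ V)⁻¹ * t⁻¹})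
    (M : ℕ) (hM : M.Coprime p) (hzM : z ^ M ∈ V)
    (hfixc : ∀ v ∈ V, z * (a * v * a⁻¹ * v⁻¹) = (a * v * a⁻¹ * v⁻¹) * z) :
    z ∈ V := by
  have hconj : ∀ g : X, ∀ v ∈ V, g * v * g⁻¹ ∈ V := fun g v hv => hVn.conj_mem v hv g
  have h1 : ∀ v ∈ V, z * (z * v * z⁻¹ * v⁻¹) = (z * v * z⁻¹ * v⁻¹) * z →
      z * v * z⁻¹ * v⁻¹ = 1 := by
    intro v hv hcomm
    have h := comm_pow_eq_one z v M hcomm (hVab _ hzM _ hv)
    exact eq_one_of_pgroup_coprime V hVp _ (V.mul_mem (hconj z v hv) (V.inv_mem hv)) M hM h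
  have h2 : ∀ g : X, (g : X ⧸ V) * (z : X ⧸ V) = (z : X ⧸ V) * (g : X ⧸ V) → ∀ v ∈ V,
      g * (z * v * z⁻¹ * v⁻¹) * g⁻¹ = z * (g * v * g⁻¹) * z⁻¹ * (g * v * g⁻¹)⁻¹ := by
    intro g hg v hv
    have hw : g * z * g⁻¹ * z⁻¹ ∈ V := by
      rw [← QuotientGroup.eq_one_iff]
      simp only [QuotientGroup.mk_mul, QuotientGroup.mk_inv]
      rw [hg]; group
    set w := g * z * g⁻¹ * z⁻¹ with hwdef
    have e1 : g * z = w * z * g := by rw [hwdef]; group
    have e2 : z⁻¹ * g⁻¹ = g⁻¹ * z⁻¹ * w⁻¹ := by rw [hwdef]; group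
    have hcomm := hVab _ hw _ (hconj z _ (hconj g v hv))
    calc g * (z * v * z⁻¹ * v⁻¹) * g⁻¹ = (g * z) * v * (z⁻¹ * g⁻¹) * (g * v⁻¹ * g⁻¹) := by group
      _ = (w * z * g) * v * (g⁻¹ * z⁻¹ * w⁻¹) * (g * v⁻¹ * g⁻¹) := by rw [e1, e2]
      _ = (w * (z * (g * v * g⁻¹) * z⁻¹)) * w⁻¹ * (g * v * g⁻¹)⁻¹ := by group
      _ = ((z * (g * v * g⁻¹) * z⁻¹) * w) * w⁻¹ * (g * v * g⁻¹)⁻¹ := by rw [hcomm]
      _ = _ := by group
  have h3 : ∀ v ∈ V, a * (z * v * z⁻¹ * v⁻¹) * a⁻¹ = z * v * z⁻¹ * v⁻¹ := by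
    intro v hv
    rw [h2 a haz v hv]
    set c := a * v * a⁻¹ * v⁻¹ with hcdef
    have hcV : c ∈ V := V.mul_mem (hconj a v hv) (V.inv_mem hv)
    have e1 : a * v * a⁻¹ = c * v := by rw [hcdef]; group
    have hzc : z * c = c * z := hfixc v hv
    have hκV : z * v * z⁻¹ * v⁻¹ ∈ V := V.mul_mem (hconj z v hv) (V.inv_mem hv)
    have hcκ := hVab _ hcV _ hκV
    rw [e1]
    calc z * (c * v) * z⁻¹ * (c * v)⁻¹ = (z * c) * v * z⁻¹ * v⁻¹ * c⁻¹ := by group
      _ = (c * z) * v * z⁻¹ * v⁻¹ * c⁻¹ := by rw [hzc]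
      _ = (c * (z * v * z⁻¹ * v⁻¹)) * c⁻¹ := by group
      _ = ((z * v * z⁻¹ * v⁻¹) * c) * c⁻¹ := by rw [hcκ]
      _ = _ := by group
  set U : Set X := {u | ∃ v ∈ V, u = z * v * z⁻¹ * v⁻¹} with hU
  have hUV : ∀ u ∈ U, u ∈ V := by
    rintro u ⟨v, hv, rfl⟩
    exact V.mul_mem (hconj z v hv) (V.inv_mem hv)
  have hVF : V ≤ Subgroup.centralizer U := by
    intro v hv
    rw [Subgroup.mem_centralizer_iff]
    intro u hu
    exact hVab _ (hUV u hu) _ hv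
  have haF : a ∈ Subgroup.centralizer U := by
    rw [Subgroup.mem_centralizer_iff]
    rintro u ⟨v, hv, rfl⟩
    have h := h3 v hv
    calc z * v * z⁻¹ * v⁻¹ * a = (a * (z * v * z⁻¹ * v⁻¹) * a⁻¹) * a := by rw [h]
      _ = a * (z * v * z⁻¹ * v⁻¹) := by group
  have hnorm : ∀ g : X, (g : X ⧸ V) * (z : X ⧸ V) = (z : X ⧸ V) * (g : X ⧸ V) →
      ∀ u ∈ U, g * u * g⁻¹ ∈ U := by
    rintro g hg u ⟨v, hv, rfl⟩
    exact ⟨g * v * g⁻¹, hconj g v hv, h2 g hg v hv⟩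
  have hTF : T ≤ (Subgroup.centralizer U).map (QuotientGroup.mk' V) := by
    refine hT.trans ((Subgroup.closure_le _).2 ?_)
    rintro x ⟨t, ht, rfl⟩
    obtain ⟨g, rfl⟩ := QuotientGroup.mk_surjective t
    have hg : ((g⁻¹ : X) : X ⧸ V) * (z : X ⧸ V) = (z : X ⧸ V) * ((g⁻¹ : X) : X ⧸ V) := by
      rw [QuotientGroup.mk_inv]
      exact hzT _ (T.inv_mem ht)
    have hgF : g * a⁻¹ * g⁻¹ ∈ Subgroup.centralizer U := by
      rw [Subgroup.mem_centralizer_iff]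
      intro u hu
      have hu' : g⁻¹ * u * g ∈ U := by simpa using hnorm g⁻¹ hg u hu
      have h4 := Subgroup.mem_centralizer_iff.1 haF _ hu'
      have h5 : a⁻¹ * (g⁻¹ * u * g) = (g⁻¹ * u * g) * a⁻¹ := by
        calc a⁻¹ * (g⁻¹ * u * g) = a⁻¹ * ((g⁻¹ * u * g) * a) * a⁻¹ := by group
          _ = a⁻¹ * (a * (g⁻¹ * u * g)) * a⁻¹ := by rw [h4]
          _ = _ := by group
      calc u * (g * a⁻¹ * g⁻¹) = g * ((g⁻¹ * u * g) * a⁻¹) * g⁻¹ := by group
        _ = g * (a⁻¹ * (g⁻¹ * u * g)) * g⁻¹ := by rw [h5]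
        _ = _ := by group
    refine ⟨a * (g * a⁻¹ * g⁻¹), Subgroup.mul_mem _ haF hgF, ?_⟩
    simp only [QuotientGroup.mk'_apply, QuotientGroup.mk_mul, QuotientGroup.mk_inv]
    group
  obtain ⟨f, hf, hfz⟩ := hTF hzmem
  have hzF : z ∈ Subgroup.centralizer U := by
    have h4 : f⁻¹ * z ∈ V := by
      rw [← QuotientGroup.eq]; exact hfz
    have h5 : z = f * (f⁻¹ * z) := by group
    rw [h5]
    exact Subgroup.mul_mem _ hf (hVF h4)
  apply hC
  rw [Subgroup.mem_centralizer_iff]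
  intro v hv
  have h4 := Subgroup.mem_centralizer_iff.1 hzF _ ⟨v, hv, rfl⟩
  have h5 := h1 v hv h4.symm
  have h6 : z * v * z⁻¹ = v := mul_inv_eq_one.1 h5
  calc v * z = (z * v * z⁻¹) * z := by rw [h6]
    _ = z * v := by group

theorem eq_one_of_sq_odd {X : Type*} [Group X] (r : X) (m : ℕ) (hr : r ^ 2 = 1) (hm : Odd m)
    (hrm : r ^ m = 1) : r = 1 := by
  obtain ⟨k, rfl⟩ := hm
  rwa [pow_succ, pow_mul, hr, one_pow, one_mul] at hrm

theorem two_pow_eq_four (j : ℕ) (h1 : 3 ≤ 2 ^ j) (h2 : 2 ^ j ≤ 4) : 2 ^ j = 4 := by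
  have hj3 : j < 3 := by
    by_contra hcon
    have := Nat.pow_le_pow_right (show 0 < 2 by norm_num) (show 3 ≤ j by omega)
    omega
  interval_cases j <;> omega

/-- **The case `p = 2`.** A "transvection" `a` on the elementary abelian self-centralizing normal
`2`-subgroup `V` that inverts an element of odd order modulo `V` produces a section `S₄`. -/
theorem two_case {X : Type*} [Group X] [Finite X]
    (V : Subgroup X) [hVn : V.Normal]
    (hVab : ∀ v ∈ V, ∀ w ∈ V, v * w = w * v) (hVexp : ∀ v ∈ V, v ^ 2 = 1)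
    (hC : Subgroup.centralizer (V : Set X) ≤ V)
    (a d : X) (hdV : d ∈ V) (ha2 : a ^ 2 ∈ V)
    (hcd : ∀ v ∈ V, a * v * a⁻¹ * v⁻¹ = 1 ∨ a * v * a⁻¹ * v⁻¹ = d)
    (y₀ : X) (hy₀V : y₀ ∉ V) (M : ℕ) (hMo : Odd M) (hy₀M : y₀ ^ M ∈ V)
    (hinv : a * y₀ * a⁻¹ * y₀ ∈ V) :
    Involves (Equiv.Perm (Fin 4)) X := by
  classical
  have hconj : ∀ g : X, ∀ v ∈ V, g * v * g⁻¹ ∈ V := fun g v hv => hVn.conj_mem v hv g
  have hconj' : ∀ g : X, ∀ v ∈ V, g⁻¹ * v * g ∈ V := fun g v hv => by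
    simpa using hVn.conj_mem v hv g⁻¹
  have hd2 : d ^ 2 = 1 := hVexp d hdV
  have hdinv : d⁻¹ = d := by
    rw [inv_eq_iff_mul_eq_one, ← pow_two, hd2]
  -- Step A: an odd order element
  obtain ⟨k, m, hmo, hkm⟩ := Nat.exists_eq_two_pow_mul_odd (orderOf_pos y₀).ne'
  have hnotV : ∀ i : ℕ, y₀ ^ 2 ^ i ∉ V := by
    intro i hi
    apply hy₀V
    rw [← QuotientGroup.eq_one_iff] at hi hy₀M ⊢
    rw [QuotientGroup.mk_pow] at hi hy₀M
    have h1 := pow_gcd_eq_one.2 ⟨hi, hy₀M⟩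
    have h2 : Nat.gcd (2 ^ i) M = 1 :=
      Nat.Coprime.pow_left _ (Nat.coprime_two_left.2 hMo)
    rwa [h2, pow_one] at h1
  set y := y₀ ^ 2 ^ k with hydef
  have hym : y ^ m = 1 := by
    rw [hydef, ← pow_mul, ← hkm, pow_orderOf_eq_one]
  have hyV : y ∉ V := hnotV k
  have hy2V : y ^ 2 ∉ V := by
    have : y ^ 2 = y₀ ^ 2 ^ (k + 1) := by rw [hydef, ← pow_mul, ← pow_succ]
    rw [this]; exact hnotV (k + 1)
  have hinvy : y * (a * y * a⁻¹) ∈ V := by
    rw [← QuotientGroup.eq_one_iff] at hinv ⊢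
    have h1 : (a : X ⧸ V) * (y₀ : X ⧸ V) * (a : X ⧸ V)⁻¹ = (y₀ : X ⧸ V)⁻¹ := by
      simp only [QuotientGroup.mk_mul, QuotientGroup.mk_inv] at hinv
      exact eq_inv_of_mul_eq_one_left hinv
    simp only [QuotientGroup.mk_mul, QuotientGroup.mk_inv, hydef, QuotientGroup.mk_pow]
    rw [← _root_.conj_pow, h1, inv_pow, mul_inv_cancel]
  -- Step B: replace `a` by `t = u₀⁻¹ a` inverting `y`
  have hone : ∀ v ∈ V, y * (y * v * y⁻¹ * v⁻¹) = (y * v * y⁻¹ * v⁻¹) * y →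
      y * v * y⁻¹ * v⁻¹ = 1 := by
    intro v hv hcomm
    have h := comm_pow_eq_one y v m hcomm (by rw [hym, one_mul, mul_one])
    exact eq_one_of_sq_odd _ m (hVexp _ (V.mul_mem (hconj y v hv) (V.inv_mem hv))) hmo h
  set κ := commHom V hVab y (hconj y) with hκdef
  have hκ : ∀ v : V, κ v = y * (v : X) * y⁻¹ * (v : X)⁻¹ := fun v => rfl
  have hκV : ∀ v : V, κ v ∈ V := fun v => commHom_mem V hVab y (hconj y) v
  have hRV : ∀ r ∈ κ.range, r ∈ V := by rintro _ ⟨v, rfl⟩; exact hκV v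
  have hκker : ∀ r : X, ∀ hr : r ∈ V, r ∈ κ.range → κ ⟨r, hr⟩ = 1 → r = 1 := by
    intro r hr hrR h1
    obtain ⟨v, hv⟩ := hrR
    rw [hκ] at h1
    have h2 : y * r * y⁻¹ = r := mul_inv_eq_one.1 h1
    have h3 : y * r = r * y := by
      calc y * r = (y * r * y⁻¹) * y := by group
        _ = r * y := by rw [h2]
    rw [← hv, hκ] at h3 ⊢
    exact hone v v.2 h3
  let φ : κ.range → κ.range := fun r => ⟨κ ⟨r, hRV r r.2⟩, ⟨_, rfl⟩⟩
  have hφinj : Function.Injective φ := by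
    intro r₁ r₂ h12
    have h1 : κ ⟨r₁, hRV r₁ r₁.2⟩ = κ ⟨r₂, hRV r₂ r₂.2⟩ := congrArg Subtype.val h12
    have h2 : κ (⟨r₁, hRV r₁ r₁.2⟩ * ⟨r₂, hRV r₂ r₂.2⟩⁻¹) = 1 := by
      rw [map_mul, map_inv, h1, mul_inv_cancel]
    have h3 := hκker ((r₁ : X) * (r₂ : X)⁻¹) (V.mul_mem (hRV r₁ r₁.2) (V.inv_mem (hRV r₂ r₂.2)))
      (κ.range.mul_mem r₁.2 (κ.range.inv_mem r₂.2)) h2
    exact Subtype.ext (mul_inv_eq_one.1 h3)
  have hφsurj : Function.Surjective φ := Finite.injective_iff_surjective.1 hφinj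
  set w := y * (a * y * a⁻¹) with hwdef
  obtain ⟨r, hr⟩ := hφsurj ⟨κ ⟨w, hinvy⟩, ⟨_, rfl⟩⟩
  have hr' : κ ⟨r, hRV r r.2⟩ = κ ⟨w, hinvy⟩ := congrArg Subtype.val hr
  obtain ⟨u₀, hu₀⟩ := r.2
  set f := w * (r : X)⁻¹ with hfdef
  have hfV : f ∈ V := V.mul_mem hinvy (V.inv_mem (hRV r r.2))
  have hfy : y * f = f * y := by
    have h1 : κ ⟨f, hfV⟩ = 1 := by
      have : (⟨f, hfV⟩ : V) = ⟨w, hinvy⟩ * ⟨r, hRV r r.2⟩⁻¹ := rfl
      rw [this, map_mul, map_inv, hr', mul_inv_cancel]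
    rw [hκ] at h1
    have h2 : y * f * y⁻¹ = f := mul_inv_eq_one.1 h1
    calc y * f = (y * f * y⁻¹) * y := by group
      _ = f * y := by rw [h2]
  have hay : a * y * a⁻¹ = f * ((u₀ : X) * y⁻¹ * (u₀ : X)⁻¹) := by
    have h1 : (r : X) = y * (u₀ : X) * y⁻¹ * (u₀ : X)⁻¹ := by rw [← hu₀, hκ]
    have h2 : a * y * a⁻¹ = y⁻¹ * (f * (r : X)) := by rw [hfdef, hwdef]; group
    have h3 : y⁻¹ * f = f * y⁻¹ := by
      calc y⁻¹ * f = y⁻¹ * (f * y) * y⁻¹ := by group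
        _ = y⁻¹ * (y * f) * y⁻¹ := by rw [hfy]
        _ = f * y⁻¹ := by group
    rw [h2, h1]
    calc y⁻¹ * (f * (y * (u₀ : X) * y⁻¹ * (u₀ : X)⁻¹))
        = (y⁻¹ * f) * y * (u₀ : X) * y⁻¹ * (u₀ : X)⁻¹ := by group
      _ = (f * y⁻¹) * y * (u₀ : X) * y⁻¹ * (u₀ : X)⁻¹ := by rw [h3]
      _ = _ := by group
  have hf1 : f = 1 := by
    have hcomm : Commute f ((u₀ : X) * y⁻¹ * (u₀ : X)⁻¹) := by
      have c1 : Commute f (u₀ : X) := hVab _ hfV _ u₀.2
      have c2 : Commute f y := hfy.symm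
      exact (c1.mul_right c2.inv_right).mul_right c1.inv_right
    have h1 : (a * y * a⁻¹) ^ m = 1 := by rw [_root_.conj_pow, hym]; group
    rw [hay, hcomm.mul_pow, _root_.conj_pow, inv_pow, hym] at h1
    have h2 : f ^ m = 1 := by simpa using h1
    exact eq_one_of_sq_odd f m (hVexp f hfV) hmo h2
  set t := (u₀ : X)⁻¹ * a with htdef
  have hty : t * y * t⁻¹ = y⁻¹ := by
    rw [htdef]
    calc (u₀ : X)⁻¹ * a * y * ((u₀ : X)⁻¹ * a)⁻¹
        = (u₀ : X)⁻¹ * (a * y * a⁻¹) * (u₀ : X) := by group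
      _ = y⁻¹ := by rw [hay, hf1]; group
  -- Step C: properties of `t`
  have htc : ∀ v ∈ V, t * v * t⁻¹ * v⁻¹ = 1 ∨ t * v * t⁻¹ * v⁻¹ = d := by
    intro v hv
    have h1 : t * v * t⁻¹ * v⁻¹ = a * v * a⁻¹ * v⁻¹ := by
      have hc := hVab _ (V.inv_mem u₀.2) _ (hconj a v hv)
      rw [htdef]
      calc (u₀ : X)⁻¹ * a * v * ((u₀ : X)⁻¹ * a)⁻¹ * v⁻¹
          = ((u₀ : X)⁻¹ * (a * v * a⁻¹)) * (u₀ : X) * v⁻¹ := by group
        _ = ((a * v * a⁻¹) * (u₀ : X)⁻¹) * (u₀ : X) * v⁻¹ := by rw [hc]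
        _ = _ := by group
    rw [h1]; exact hcd v hv
  have htc' : ∀ v ∈ V, t⁻¹ * v * t * v⁻¹ = 1 ∨ t⁻¹ * v * t * v⁻¹ = d := by
    intro v hv
    have hv' : t⁻¹ * v * t ∈ V := hconj' t v hv
    have h1 : t * (t⁻¹ * v * t) * t⁻¹ * (t⁻¹ * v * t)⁻¹ = (t⁻¹ * v * t * v⁻¹)⁻¹ := by group
    rcases htc _ hv' with h | h
    · left; rw [h1] at h; exact inv_eq_one.1 h
    · right; rw [h1] at h; rw [← hdinv, ← h, inv_inv]
  have ht2V : t ^ 2 ∈ V := by
    have h1 : t ^ 2 = (u₀ : X)⁻¹ * (a * (u₀ : X)⁻¹ * a⁻¹) * a ^ 2 := by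
      rw [htdef, pow_two, pow_two]; group
    rw [h1]
    exact V.mul_mem (V.mul_mem (V.inv_mem u₀.2) (hconj a _ (V.inv_mem u₀.2))) ha2
  have hy2 : y ^ 2 = t * y⁻¹ * t⁻¹ * y := by
    have h1 : t * y⁻¹ * t⁻¹ = y := by
      have : t * y⁻¹ * t⁻¹ = (t * y * t⁻¹)⁻¹ := by group
      rw [this, hty, inv_inv]
    rw [h1, pow_two]
  have hty2 : t * y ^ 2 * t⁻¹ = (y ^ 2)⁻¹ := by
    rw [← _root_.conj_pow, hty, inv_pow]
  -- Step D: the four-group `E = [V, y²]`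
  set κ₂ := commHom V hVab (y ^ 2) (hconj (y ^ 2)) with hκ₂def
  have hκ₂ : ∀ v : V, κ₂ v = y ^ 2 * (v : X) * (y ^ 2)⁻¹ * (v : X)⁻¹ := fun v => rfl
  set E := κ₂.range with hEdef
  have hEV : ∀ e ∈ E, e ∈ V := by
    rintro _ ⟨v, rfl⟩; exact commHom_mem V hVab (y ^ 2) (hconj (y ^ 2)) v
  have hfix : ∀ e ∈ E, e * y ^ 2 = y ^ 2 * e → e = 1 := by
    rintro _ ⟨v, rfl⟩ hcomm
    rw [hκ₂] at hcomm ⊢
    have h := comm_pow_eq_one (y ^ 2) v m hcomm.symm
      (by rw [← pow_mul, mul_comm, pow_mul, hym, one_pow, one_mul, mul_one])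
    exact eq_one_of_sq_odd _ m (hVexp _ (V.mul_mem (hconj (y ^ 2) v v.2) (V.inv_mem v.2))) hmo h
  have hE1 : E ≠ ⊥ := by
    intro hbot
    apply hy2V; apply hC
    rw [Subgroup.mem_centralizer_iff]
    intro v hv
    have h1 : κ₂ ⟨v, hv⟩ ∈ E := ⟨_, rfl⟩
    rw [hbot, Subgroup.mem_bot, hκ₂] at h1
    have h2 : y ^ 2 * v * (y ^ 2)⁻¹ = v := mul_inv_eq_one.1 h1
    calc v * y ^ 2 = (y ^ 2 * v * (y ^ 2)⁻¹) * y ^ 2 := by rw [h2]
      _ = y ^ 2 * v := by group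
  have hyN : ∀ e ∈ E, y * e * y⁻¹ ∈ E := by
    rintro _ ⟨v, rfl⟩
    refine ⟨⟨y * v * y⁻¹, hconj y v v.2⟩, ?_⟩
    rw [hκ₂, hκ₂]
    show y ^ 2 * (y * (v : X) * y⁻¹) * (y ^ 2)⁻¹ * (y * (v : X) * y⁻¹)⁻¹ = _
    group
  have hy2N : ∀ e ∈ E, y ^ 2 * e * (y ^ 2)⁻¹ ∈ E := by
    intro e he
    have h1 := hyN _ (hyN e he)
    have h2 : y * (y * e * y⁻¹) * y⁻¹ = y ^ 2 * e * (y ^ 2)⁻¹ := by rw [pow_two]; group
    rwa [h2] at h1
  have htN : ∀ e ∈ E, t * e * t⁻¹ ∈ E := by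
    rintro _ ⟨v, rfl⟩
    have hx : (y ^ 2)⁻¹ * (t * (v : X) * t⁻¹) * y ^ 2 ∈ V := hconj' _ _ (hconj t v v.2)
    have h1 : t * κ₂ v * t⁻¹ = (κ₂ ⟨_, hx⟩)⁻¹ := by
      rw [hκ₂, hκ₂]
      show _ = (y ^ 2 * ((y ^ 2)⁻¹ * (t * (v : X) * t⁻¹) * y ^ 2) * (y ^ 2)⁻¹
        * ((y ^ 2)⁻¹ * (t * (v : X) * t⁻¹) * y ^ 2)⁻¹)⁻¹
      have h3 : t * (y ^ 2 * (v : X) * (y ^ 2)⁻¹ * (v : X)⁻¹) * t⁻¹
          = (t * y ^ 2 * t⁻¹) * (t * (v : X) * t⁻¹) * (t * y ^ 2 * t⁻¹)⁻¹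
            * (t * (v : X) * t⁻¹)⁻¹ := by group
      rw [h3, hty2]; group
    rw [h1]
    exact E.inv_mem ⟨_, rfl⟩
  have hE4 : ∀ e ∈ E, e = 1 ∨ e = d ∨ e = y⁻¹ * d * y ∨ e = d * (y⁻¹ * d * y) := by
    rintro _ ⟨v, rfl⟩
    rw [hκ₂]
    have hv₁ : y * (v : X) * y⁻¹ ∈ V := hconj y v v.2
    have hv₂ : y⁻¹ * (t⁻¹ * (y * (v : X) * y⁻¹) * t) * y ∈ V := hconj' y _ (hconj' t _ hv₁)
    have key : y ^ 2 * (v : X) * (y ^ 2)⁻¹ * (v : X)⁻¹
        = (t * (y⁻¹ * (t⁻¹ * (y * (v : X) * y⁻¹) * t) * y) * t⁻¹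
            * (y⁻¹ * (t⁻¹ * (y * (v : X) * y⁻¹) * t) * y)⁻¹)
          * (y⁻¹ * (t⁻¹ * (y * (v : X) * y⁻¹) * t * (y * (v : X) * y⁻¹)⁻¹) * y) := by
      rw [hy2]; group
    rw [key]
    rcases htc _ hv₂ with h2 | h2 <;> rcases htc' _ hv₁ with h1 | h1 <;> rw [h2, h1]
    · left; group
    · right; right; left; group
    · right; left; group
    · right; right; right; rfl
  have hcard : Nat.card E = 4 := by
    obtain ⟨⟨e, he⟩, hne⟩ := (Subgroup.ne_bot_iff_exists_ne_one).1 hE1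
    have he1 : e ≠ 1 := fun h => hne (Subtype.ext h)
    set e' := y ^ 2 * e * (y ^ 2)⁻¹ with he'def
    have he'E : e' ∈ E := hy2N e he
    have he'1 : e' ≠ 1 := by
      intro h
      apply he1
      have : e = (y ^ 2)⁻¹ * e' * y ^ 2 := by rw [he'def]; group
      rw [this, h]; group
    have he'e : e' ≠ e := by
      intro h
      apply he1
      apply hfix e he
      calc e * y ^ 2 = e' * y ^ 2 := by rw [h]
        _ = y ^ 2 * e := by rw [he'def]; group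
    have h5 : Nat.card E = (E : Set X).ncard := (Nat.card_coe_set_eq (E : Set X))
    have hlow : 3 ≤ Nat.card E := by
      have hsub : ({1, e, e'} : Set X) ⊆ (E : Set X) := by
        intro x hx
        rcases hx with rfl | rfl | rfl
        · exact E.one_mem
        · exact he
        · exact he'E
      have h3 : ({1, e, e'} : Set X).ncard = 3 :=
        Set.ncard_eq_three.2 ⟨1, e, e', Ne.symm he1, Ne.symm he'1, Ne.symm he'e, rfl⟩
      have h4 := Set.ncard_le_ncard hsub (Set.toFinite _)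
      rw [h3] at h4
      rw [h5]; exact h4
    have hup : Nat.card E ≤ 4 := by
      have hsub : (E : Set X) ⊆
          ((({1, d, y⁻¹ * d * y, d * (y⁻¹ * d * y)} : Finset X)) : Set X) := by
        intro x hx
        have := hE4 x hx
        simp only [Finset.coe_insert, Finset.coe_singleton, Set.mem_insert_iff,
          Set.mem_singleton_iff]
        exact this
      have h4 := Set.ncard_le_ncard hsub (Set.toFinite _)
      rw [Set.ncard_coe_finset] at h4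
      rw [h5]; exact h4.trans Finset.card_le_four
    have hE2 : IsPGroup 2 E := by
      intro g
      refine ⟨1, Subtype.ext ?_⟩
      simpa using hVexp _ (hEV g g.2)
    haveI : Fact (Nat.Prime 2) := ⟨Nat.prime_two⟩
    obtain ⟨j, hj⟩ := IsPGroup.iff_card.1 hE2
    rw [hj] at hlow hup ⊢
    exact two_pow_eq_four j hlow hup
  have hodd : (orderOf (y ^ 2)).Coprime 2 := by
    have h1 : orderOf (y ^ 2) ∣ m :=
      orderOf_dvd_of_pow_eq_one (by rw [← pow_mul, mul_comm, pow_mul, hym, one_pow])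
    exact Nat.Coprime.coprime_dvd_left h1 (Nat.coprime_two_right.2 hmo)
  have hyNn : y ^ 2 ∈ Subgroup.normalizer (E : Set X) :=
    Subgroup.mem_normalizer_fintype (fun n hn => hy2N n hn)
  have htNn : t ∈ Subgroup.normalizer (E : Set X) :=
    Subgroup.mem_normalizer_fintype (fun n hn => htN n hn)
  have htz : t ∈ Subgroup.normalizer (Subgroup.zpowers (y ^ 2) : Set X) := by
    apply Subgroup.mem_normalizer_fintype
    intro n hn
    obtain ⟨i, rfl⟩ := Subgroup.mem_zpowers_iff.1 hn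
    have h1 : t * (y ^ 2) ^ i * t⁻¹ = ((y ^ 2) ^ i)⁻¹ := by
      rw [← conj_zpow, hty2, inv_zpow]
    rw [h1]
    exact Subgroup.inv_mem _ (Subgroup.zpow_mem_zpowers _ _)
  have ht2C : t ^ 2 ∈ Subgroup.centralizer (E : Set X) := by
    rw [Subgroup.mem_centralizer_iff]
    intro e he
    exact hVab _ (hEV e he) _ ht2V
  have htn : t ∉ Subgroup.centralizer (E : Set X) := by
    intro htC
    apply hE1
    rw [eq_bot_iff]
    intro e he
    rw [Subgroup.mem_bot]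
    apply hfix e he
    have h1 : (y * e * y⁻¹) * t = t * (y * e * y⁻¹) :=
      Subgroup.mem_centralizer_iff.1 htC _ (hyN e he)
    have h2 : e * t = t * e := Subgroup.mem_centralizer_iff.1 htC _ he
    have h3 : t⁻¹ * (y * e * y⁻¹) * t = y * e * y⁻¹ := by
      calc t⁻¹ * (y * e * y⁻¹) * t = t⁻¹ * ((y * e * y⁻¹) * t) := by group
        _ = t⁻¹ * (t * (y * e * y⁻¹)) := by rw [h1]
        _ = _ := by group
    have h4 : t * e * t⁻¹ = e := by
      calc t * e * t⁻¹ = (t * e) * t⁻¹ := by group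
        _ = (e * t) * t⁻¹ := by rw [h2]
        _ = e := by group
    have h5 : y ^ 2 * e * (y ^ 2)⁻¹ = e := by
      have e1 : y ^ 2 * e * (y ^ 2)⁻¹ = t * (y⁻¹ * (t⁻¹ * (y * e * y⁻¹) * t) * y) * t⁻¹ := by
        rw [hy2]; group
      rw [e1, h3]
      have e2 : y⁻¹ * (y * e * y⁻¹) * y = e := by group
      rw [e2, h4]
    calc e * y ^ 2 = (y ^ 2 * e * (y ^ 2)⁻¹) * y ^ 2 := by rw [h5]
      _ = y ^ 2 * e := by group
  exact Cfsg.Agent.Lib.Helper2.involves_S4 E (y ^ 2) t hcard hyNn htNn htz hodd hfix ht2C htn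

/-- **The core.** `V` an elementary abelian self-centralizing normal `p`-subgroup of `X` with
`O_p(X/V) = 1` and `X/V` `p`-solvable; if all commutators `[a, v]`, `v ∈ V`, are powers of `a`
(and `p` is odd or `S₄` is not involved in `X`), then `a ∈ V`. -/
theorem core {X : Type*} [Group X] [Finite X] (p : ℕ) [Fact p.Prime]
    (V : Subgroup X) [hVn : V.Normal] (hVp : IsPGroup p V)
    (hVab : ∀ v ∈ V, ∀ w ∈ V, v * w = w * v) (hVexp : ∀ v ∈ V, v ^ p = 1)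
    (hC : Subgroup.centralizer (V : Set X) ≤ V)
    (hH1 : pCore p (X ⧸ V) = ⊥) (hHsep : IsPSolvable p (X ⧸ V))
    (a : X) (hVa : ∀ v ∈ V, a * v * a⁻¹ * v⁻¹ ∈ Subgroup.zpowers a)
    (h : p ≠ 2 ∨ ¬ Involves (Equiv.Perm (Fin 4)) X) : a ∈ V := by
  classical
  have hp : p.Prime := Fact.out
  by_contra haV
  have hconj : ∀ g : X, ∀ v ∈ V, g * v * g⁻¹ ∈ V := fun g v hv => hVn.conj_mem v hv g
  have hcV : ∀ v ∈ V, a * v * a⁻¹ * v⁻¹ ∈ V := fun v hv =>
    V.mul_mem (hconj a v hv) (V.inv_mem hv)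
  have hca : ∀ v ∈ V, a * (a * v * a⁻¹ * v⁻¹) = (a * v * a⁻¹ * v⁻¹) * a := by
    intro v hv
    obtain ⟨k, hk⟩ := Subgroup.mem_zpowers_iff.1 (hVa v hv)
    rw [← hk]
    exact ((Commute.refl a).zpow_right k).eq
  have hconjc : ∀ v : X, a * v * a⁻¹ = (a * v * a⁻¹ * v⁻¹) * v := by intro v; group
  have hapC : a ^ p ∈ Subgroup.centralizer (V : Set X) := by
    rw [Subgroup.mem_centralizer_iff]
    intro v hv
    have h1 := conj_pow_comm a v _ (hconjc v) (hca v hv) p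
    rw [hVexp _ (hcV v hv), one_mul] at h1
    calc v * a ^ p = (a ^ p * v * (a ^ p)⁻¹) * a ^ p := by rw [h1]
      _ = a ^ p * v := by group
  have hapV : a ^ p ∈ V := hC hapC
  have hcd : ∀ v ∈ V, a * v * a⁻¹ * v⁻¹ ∈ Subgroup.zpowers (a ^ p) := by
    intro v hv
    obtain ⟨k, hk⟩ := Subgroup.mem_zpowers_iff.1 (hVa v hv)
    by_cases hpk : (p : ℤ) ∣ k
    · obtain ⟨j, rfl⟩ := hpk
      rw [← hk, zpow_mul, zpow_natCast]
      exact Subgroup.zpow_mem_zpowers _ _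
    · exfalso
      have hcop : IsCoprime (p : ℤ) k :=
        (Nat.prime_iff_prime_int.1 hp).irreducible.coprime_iff_not_dvd.2 hpk
      obtain ⟨s, t, hst⟩ := hcop
      apply haV
      have e : a = (a ^ p) ^ s * (a ^ k) ^ t := by
        rw [← zpow_natCast a p, ← zpow_mul, ← zpow_mul, ← zpow_add]
        have : (p : ℤ) * s + k * t = 1 := by linarith
        rw [this, zpow_one]
      rw [e]
      exact V.mul_mem (V.zpow_mem hapV s) (V.zpow_mem (by rw [hk]; exact hcV v hv) t)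
  have hd1 : a ^ p ≠ 1 := by
    intro h1
    apply haV; apply hC
    rw [Subgroup.mem_centralizer_iff]
    intro v hv
    have h2 := hcd v hv
    rw [h1, Subgroup.zpowers_one_eq_bot, Subgroup.mem_bot] at h2
    have h3 : a * v * a⁻¹ = v := mul_inv_eq_one.1 h2
    calc v * a = (a * v * a⁻¹) * a := by rw [h3]
      _ = a * v := by group
  have hnorm : ∀ w ∈ V,
      (w * a) ^ p = (a * w * a⁻¹ * w⁻¹) ^ (∑ i ∈ Finset.range p, i) * a ^ p := by
    intro w hw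
    have hwc : w * (a * w * a⁻¹ * w⁻¹) = (a * w * a⁻¹ * w⁻¹) * w := hVab _ hw _ (hcV w hw)
    rw [norm_pow a w _ (hconjc w) (hca w hw) hwc p, hVexp w hw, mul_one]
  have hnorm_odd : p ≠ 2 → ∀ w ∈ V, (w * a) ^ p = a ^ p := by
    intro hp2 w hw
    rw [hnorm w hw]
    obtain ⟨k, hk⟩ := hp.odd_of_ne_two hp2
    have hsum : ∑ i ∈ Finset.range p, i = p * k := by
      have h1 := Finset.sum_range_id_mul_two p
      have h2 : p - 1 = 2 * k := by omega
      rw [h2] at h1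
      have h3 : (∑ i ∈ Finset.range p, i) * 2 = (p * k) * 2 := by rw [h1]; ring
      exact Nat.eq_of_mul_eq_mul_right (by norm_num) h3
    rw [hsum, pow_mul, hVexp _ (hcV w hw), one_pow, one_mul]
  have hzd : ∀ z : X, (a : X ⧸ V) * (z : X ⧸ V) = (z : X ⧸ V) * (a : X ⧸ V) →
      z * a ^ p = a ^ p * z := by
    intro z hz
    have hw : z * a * z⁻¹ * a⁻¹ ∈ V := by
      rw [← QuotientGroup.eq_one_iff]
      simp only [QuotientGroup.mk_mul, QuotientGroup.mk_inv]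
      rw [← hz]; group
    have h1 : z * a ^ p * z⁻¹ = ((z * a * z⁻¹ * a⁻¹) * a) ^ p := by
      rw [← _root_.conj_pow]; congr 1; group
    have h2 : ((z * a * z⁻¹ * a⁻¹) * a) ^ p = a ^ p := by
      by_cases hp2 : p = 2
      · have h3 := hnorm _ hw
        have h4 : (a ^ p) ^ 2 = 1 := by
          have := hVexp _ hapV
          rwa [hp2] at this ⊢
        have h5 := mem_zpowers_sq (a ^ p) _ h4 (hcd _ hw)
        have hs : ∑ i ∈ Finset.range p, i = 1 := by rw [hp2]; decide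
        rw [hs, pow_one] at h3
        rcases h5 with h5 | h5
        · rw [h3, h5, one_mul]
        · exfalso
          rw [h5, ← pow_two, h4] at h3
          rw [h3] at h1
          apply hd1
          have : a ^ p = z⁻¹ * (z * a ^ p * z⁻¹) * z := by group
          rw [this, h1]; group
      · exact hnorm_odd hp2 _ hw
    calc z * a ^ p = (z * a ^ p * z⁻¹) * z := by group
      _ = a ^ p * z := by rw [h1, h2]
  -- the quotient `X ⧸ V`
  have hab1 : (a : X ⧸ V) ≠ 1 := fun h1 => haV ((QuotientGroup.eq_one_iff a).1 h1)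
  have habp : (a : X ⧸ V) ^ p = 1 := by
    rw [← QuotientGroup.mk_pow]; exact (QuotientGroup.eq_one_iff _).2 hapV
  have hKC := Cfsg.Agent.S3783.cent_pPrimeCore_le hHsep hH1
  haveI hKn : (pPrimeCore p (X ⧸ V)).Normal := Cfsg.Agent.Lib.Helper81.pPrimeCore_normal p
  have hKc : (Nat.card (pPrimeCore p (X ⧸ V))).Coprime p :=
    Cfsg.Agent.Lib.Helper81.pPrimeCore_coprime p
  set K := pPrimeCore p (X ⧸ V) with hKdef
  set ab : X ⧸ V := (a : X ⧸ V) with habdef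
  have habK : ab ∉ K := by
    intro h1
    have h2 : orderOf ab = p := orderOf_eq_prime habp hab1
    have h3 : orderOf ab ∣ Nat.card K := by
      have := orderOf_dvd_natCard (⟨ab, h1⟩ : K)
      rwa [Subgroup.orderOf_mk] at this
    rw [h2] at h3
    exact (Nat.Prime.coprime_iff_not_dvd hp).1 hKc.symm h3
  have habC : ab ∉ Subgroup.centralizer (K : Set (X ⧸ V)) := fun h => habK (hKC h)
  obtain ⟨q, hq, S, hSK, hScard, hSinv, s, hs, hsy⟩ : ∃ q : ℕ, q.Prime ∧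
      ∃ S : Subgroup (X ⧸ V), S ≤ K ∧
      Nat.card S = q ^ (Nat.card K).factorization q ∧ (∀ s ∈ S, ab * s * ab⁻¹ ∈ S) ∧
      ∃ s ∈ S, ab * s ≠ s * ab := by
    by_contra hcon
    push Not at hcon
    apply habC
    have hdvd : Nat.card K ∣
        Nat.card (K ⊓ Subgroup.centralizer ({ab} : Set (X ⧸ V)) : Subgroup (X ⧸ V)) := by
      rw [← Nat.factorization_prime_le_iff_dvd Nat.card_pos.ne' Nat.card_pos.ne']
      intro q hq
      haveI := Fact.mk hq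
      obtain ⟨S, hSK, hScard, hSinv⟩ :=
        Cfsg.Agent.S3783.inv_sylow p K hKc ab ⟨1, by rw [pow_one]; exact habp⟩ q
      have hcen := hcon q hq S hSK hScard hSinv
      have hSle : S ≤ K ⊓ Subgroup.centralizer ({ab} : Set (X ⧸ V)) := by
        intro s hs
        refine ⟨hSK hs, ?_⟩
        show s ∈ Subgroup.centralizer ({ab} : Set (X ⧸ V))
        rw [Subgroup.mem_centralizer_iff]
        intro h hh
        rw [Set.mem_singleton_iff] at hh
        rw [hh]; exact hcen s hs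
      have h1 := Subgroup.card_dvd_of_le hSle
      rw [hScard] at h1
      exact (hq.pow_dvd_iff_le_factorization Nat.card_pos.ne').1 h1
    have heq : K ⊓ Subgroup.centralizer ({ab} : Set (X ⧸ V)) = K := by
      apply Subgroup.eq_of_le_of_card_ge inf_le_left
      exact Nat.le_of_dvd Nat.card_pos hdvd
    rw [Subgroup.mem_centralizer_iff]
    intro h hh
    have h1 : h ∈ K ⊓ Subgroup.centralizer ({ab} : Set (X ⧸ V)) := by rw [heq]; exact hh
    have h2 := Subgroup.mem_centralizer_iff.1 h1.2 ab rfl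
    exact h2.symm
  haveI : Fact q.Prime := ⟨hq⟩
  have hSq : IsPGroup q S := IsPGroup.of_card hScard
  have hqp : q ≠ p := by
    intro hqp
    have h0 : (Nat.card K).factorization q = 0 := by
      rw [hqp]
      exact Nat.factorization_eq_zero_of_not_dvd ((Nat.Prime.coprime_iff_not_dvd hp).1 hKc.symm)
    rw [h0, pow_zero] at hScard
    have h1 : s = 1 := by
      have h2 := Subgroup.card_eq_one.1 hScard
      rw [h2] at hs; exact Subgroup.mem_bot.1 hs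
    apply hsy; rw [h1]; simp
  have hpq : Nat.Coprime q p := (Nat.coprime_primes hq hp).2 hqp
  -- a minimal invariant subgroup not centralized by `ab`
  have hex : ∃ n : ℕ, ∃ T : Subgroup (X ⧸ V), (T ≤ S ∧ (∀ t ∈ T, ab * t * ab⁻¹ ∈ T) ∧
      ∃ t ∈ T, ab * t ≠ t * ab) ∧ Nat.card T = n :=
    ⟨_, S, ⟨le_refl S, hSinv, s, hs, hsy⟩, rfl⟩
  obtain ⟨T, ⟨hTS, hTinv, hTnc⟩, hTn⟩ := Nat.find_spec hex
  have hTmin : ∀ T' : Subgroup (X ⧸ V), T' ≤ S → (∀ t ∈ T', ab * t * ab⁻¹ ∈ T') →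
      Nat.card T' < Nat.card T → ∀ t ∈ T', ab * t = t * ab := by
    intro T' h1 h2 h3 t ht
    by_contra hne
    have := Nat.find_min' hex ⟨T', ⟨h1, h2, t, ht, hne⟩, rfl⟩
    omega
  have hTq : IsPGroup q T := hSq.to_le hTS
  have hT1 : T ≠ ⊥ := by
    intro hbot
    obtain ⟨t, ht, hne⟩ := hTnc
    rw [hbot, Subgroup.mem_bot] at ht
    apply hne; rw [ht]; simp
  have hqel : ∀ c ∈ T, c ^ p = 1 → c = 1 := fun c hc hcp =>
    eq_one_of_pgroup_coprime T hTq c hc p hpq.symm hcp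
  set T₁ := Subgroup.closure {x | ∃ t ∈ T, x = ab * t * ab⁻¹ * t⁻¹} with hT₁def
  have hT₁T : T₁ ≤ T := by
    rw [hT₁def, Subgroup.closure_le]
    rintro x ⟨t, ht, rfl⟩
    exact T.mul_mem (hTinv t ht) (T.inv_mem ht)
  have hT₁inv : ∀ u ∈ T₁, ab * u * ab⁻¹ ∈ T₁ := by
    intro u hu
    induction hu using Subgroup.closure_induction with
    | mem x hx =>
      obtain ⟨t, ht, rfl⟩ := hx
      apply Subgroup.subset_closure
      exact ⟨ab * t * ab⁻¹, hTinv t ht, by group⟩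
    | one => simp
    | mul x y _ _ hx hy =>
      have : ab * (x * y) * ab⁻¹ = (ab * x * ab⁻¹) * (ab * y * ab⁻¹) := by group
      rw [this]; exact Subgroup.mul_mem _ hx hy
    | inv x _ hx =>
      have : ab * x⁻¹ * ab⁻¹ = (ab * x * ab⁻¹)⁻¹ := by group
      rw [this]; exact Subgroup.inv_mem _ hx
  have hTT₁ : T ≤ T₁ := by
    by_contra hnot
    have hlt : Nat.card T₁ < Nat.card T := by
      by_contra hge
      push Not at hge
      exact hnot (Subgroup.eq_of_le_of_card_ge hT₁T hge).ge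
    have hcen := hTmin T₁ (hT₁T.trans hTS) hT₁inv hlt
    obtain ⟨t, ht, hne⟩ := hTnc
    apply hne
    have hc : ab * t * ab⁻¹ * t⁻¹ ∈ T₁ := Subgroup.subset_closure ⟨t, ht, rfl⟩
    have h1 := comm_pow_eq_one ab t p (hcen _ hc) (by rw [habp, one_mul, mul_one])
    have h2 := hqel _ (hT₁T hc) h1
    have h3 : ab * t * ab⁻¹ = t := mul_inv_eq_one.1 h2
    calc ab * t = (ab * t * ab⁻¹) * ab := by group
      _ = t * ab := by rw [h3]
  by_cases hTab : ∀ x ∈ T, ∀ y ∈ T, x * y = y * x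
  · -- `T` abelian: `ab` acts fixed-point-freely
    have hfpf1 : ∀ t ∈ T, ab * t = t * ab → t = 1 := by
      set φ := commHom T hTab ab hTinv with hφdef
      have hφ : ∀ t : T, φ t = ab * (t : X ⧸ V) * ab⁻¹ * (t : X ⧸ V)⁻¹ := fun t => rfl
      have hφT : ∀ t : T, φ t ∈ T := fun t => commHom_mem T hTab ab hTinv t
      have hTle : T ≤ φ.range := by
        refine hTT₁.trans ((Subgroup.closure_le _).2 ?_)
        rintro x ⟨t, ht, rfl⟩
        exact ⟨⟨t, ht⟩, rfl⟩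
      let ψ : T → T := fun t => ⟨φ t, hφT t⟩
      have hψsurj : Function.Surjective ψ := by
        intro t
        obtain ⟨t', ht'⟩ := hTle t.2
        exact ⟨t', Subtype.ext ht'⟩
      have hψinj := Finite.injective_iff_surjective.2 hψsurj
      intro t ht hcomm
      have h1 : ψ ⟨t, ht⟩ = ψ 1 := by
        apply Subtype.ext
        show φ ⟨t, ht⟩ = φ 1
        rw [map_one, hφ]
        show ab * t * ab⁻¹ * t⁻¹ = 1
        rw [hcomm]; group
      have h2 := hψinj h1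
      exact congrArg Subtype.val h2
    by_cases hp2 : p = 2
    · have hS4 : ¬ Involves (Equiv.Perm (Fin 4)) X := h.resolve_left (fun h => h hp2)
      apply hS4
      have hVexp2 : ∀ v ∈ V, v ^ 2 = 1 := by
        intro v hv; have := hVexp v hv; rwa [hp2] at this
      have hapV2 : a ^ 2 ∈ V := by have := hapV; rwa [hp2] at this
      have hcd2 : ∀ v ∈ V, a * v * a⁻¹ * v⁻¹ ∈ Subgroup.zpowers (a ^ 2) := by
        intro v hv; have := hcd v hv; rwa [hp2] at this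
      have habp2 : ab ^ 2 = 1 := by have := habp; rwa [hp2] at this
      have hq2 : q ≠ 2 := by rw [← hp2]; exact hqp
      have hinvT : ∀ t ∈ T, ab * t * ab⁻¹ = t⁻¹ := by
        intro t ht
        have h1 : ab * (t * (ab * t * ab⁻¹)) = (t * (ab * t * ab⁻¹)) * ab := by
          have hc := hTab _ ht _ (hTinv t ht)
          have hab2 : ab * ab = 1 := by rw [← pow_two]; exact habp2
          calc ab * (t * (ab * t * ab⁻¹))
              = (ab * t * ab⁻¹) * (ab * ab) * t * (ab * ab)⁻¹ * ab := by group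
            _ = ((ab * t * ab⁻¹) * t) * ab := by rw [hab2]; group
            _ = _ := by rw [hc]
        have h2 := hfpf1 _ (T.mul_mem ht (hTinv t ht)) h1
        exact eq_inv_of_mul_eq_one_right h2
      obtain ⟨⟨tb, htb⟩, htb1⟩ := (Subgroup.ne_bot_iff_exists_ne_one).1 hT1
      have htb1' : tb ≠ 1 := fun h => htb1 (Subtype.ext h)
      obtain ⟨y₀, rfl⟩ := QuotientGroup.mk_surjective tb
      obtain ⟨j, hj⟩ := hTq ⟨_, htb⟩
      have hj' : (y₀ : X ⧸ V) ^ q ^ j = 1 := by simpa using congrArg Subtype.val hj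
      have hqodd : Odd (q ^ j) := (hq.odd_of_ne_two hq2).pow
      refine two_case V hVab hVexp2 hC a (a ^ 2) hapV2 hapV2 ?_ y₀ ?_ (q ^ j) hqodd ?_ ?_
      · intro v hv
        exact mem_zpowers_sq (a ^ 2) _ (hVexp2 _ hapV2) (hcd2 v hv)
      · intro h1; exact htb1' ((QuotientGroup.eq_one_iff y₀).2 h1)
      · rw [← QuotientGroup.eq_one_iff, QuotientGroup.mk_pow]; exact hj'
      · rw [← QuotientGroup.eq_one_iff]
        simp only [QuotientGroup.mk_mul, QuotientGroup.mk_inv]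
        rw [hinvT _ htb, inv_mul_cancel]
    · have hfpf : ∀ i, 0 < i → i < p → ∀ u ∈ T, ab ^ i * u = u * ab ^ i → u = 1 := by
        intro i hi0 hi u hu hcomm
        apply hfpf1 u hu
        have hc1 : Commute u (ab ^ i) := hcomm.symm
        have hgcd : Nat.gcd i p = 1 := by
          rw [Nat.gcd_comm]
          exact (hp.coprime_iff_not_dvd).2 (Nat.not_dvd_of_pos_of_lt hi0 hi)
        have h1 : (ab ^ i) ^ (Nat.gcdA i p) = ab := by
          have h2 : ((1 : ℕ) : ℤ) = (i : ℤ) * Nat.gcdA i p + (p : ℤ) * Nat.gcdB i p := by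
            rw [← hgcd]; exact Nat.gcd_eq_gcd_ab i p
          have h3 : (i : ℤ) * Nat.gcdA i p = 1 - (p : ℤ) * Nat.gcdB i p := by
            push_cast at h2; linarith
          rw [← zpow_natCast ab i, ← zpow_mul, h3, zpow_sub, zpow_one, zpow_mul, zpow_natCast,
            habp, one_zpow, inv_one, mul_one]
        have hc2 : Commute u ab := by
          rw [← h1]; exact hc1.zpow_right _
        exact hc2.eq.symm
      obtain ⟨v, hv, hne⟩ :=
        Cfsg.Agent.S3783.raise p V hVp hC q hqp T hTq hT1 a p hp.pos hTinv hfpf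
      exact hne (hnorm_odd hp2 v hv)
  · -- `T` nonabelian: a central element fixed by `ab`
    set Z := T ⊓ Subgroup.centralizer (T : Set (X ⧸ V)) with hZdef
    have hZT : Z ≤ T := inf_le_left
    have hTinv' : ∀ t ∈ T, ab⁻¹ * t * ab ∈ T := by
      intro t ht
      have h1 := Cfsg.Agent.S3783.conj_pow_mem T ab hTinv (p - 1) t ht
      have h2 : ab ^ (p - 1) = ab⁻¹ := by
        rw [eq_inv_iff_mul_eq_one, ← pow_succ, Nat.sub_add_cancel hp.pos, habp]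
      rwa [h2, inv_inv] at h1
    have hZinv : ∀ t ∈ Z, ab * t * ab⁻¹ ∈ Z := by
      intro t ht
      refine ⟨hTinv t ht.1, ?_⟩
      show ab * t * ab⁻¹ ∈ Subgroup.centralizer (T : Set (X ⧸ V))
      rw [Subgroup.mem_centralizer_iff]
      intro u hu
      have h1 := Subgroup.mem_centralizer_iff.1 ht.2 _ (hTinv' u hu)
      calc u * (ab * t * ab⁻¹) = ab * ((ab⁻¹ * u * ab) * t) * ab⁻¹ := by group
        _ = ab * (t * (ab⁻¹ * u * ab)) * ab⁻¹ := by rw [h1]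
        _ = _ := by group
    have hZlt : Nat.card Z < Nat.card T := by
      by_contra hge
      push Not at hge
      have hZeq : Z = T := Subgroup.eq_of_le_of_card_ge hZT hge
      apply hTab
      intro x hx y hy
      have hx' : x ∈ Z := by rw [hZeq]; exact hx
      exact (Subgroup.mem_centralizer_iff.1 hx'.2 y hy).symm
    have hZcen := hTmin Z (hZT.trans hTS) hZinv hZlt
    haveI : Nontrivial T := (Subgroup.nontrivial_iff_ne_bot T).2 hT1
    haveI := hTq.center_nontrivial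
    obtain ⟨zc, hzc⟩ := exists_ne (1 : Subgroup.center T)
    have hzcT : ∀ u ∈ T, u * ((zc : T) : X ⧸ V) = ((zc : T) : X ⧸ V) * u := by
      intro u hu
      have := Subgroup.mem_center_iff.1 zc.2 ⟨u, hu⟩
      exact congrArg Subtype.val this
    have hzc1 : ((zc : T) : X ⧸ V) ≠ 1 := by
      intro h1
      apply hzc
      apply Subtype.ext; apply Subtype.ext
      exact h1
    have hzcZ : ((zc : T) : X ⧸ V) ∈ Z := by
      refine ⟨(zc : T).2, ?_⟩
      show ((zc : T) : X ⧸ V) ∈ Subgroup.centralizer (T : Set (X ⧸ V))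
      rw [Subgroup.mem_centralizer_iff]
      intro u hu
      exact hzcT u hu
    obtain ⟨z, hz⟩ := QuotientGroup.mk_surjective ((zc : T) : X ⧸ V)
    rw [← hz] at hzcT hzc1 hzcZ
    obtain ⟨j, hj⟩ := hTq ⟨_, hzcZ.1⟩
    have hj' : (z : X ⧸ V) ^ q ^ j = 1 := by simpa using congrArg Subtype.val hj
    have haz : (a : X ⧸ V) * (z : X ⧸ V) = (z : X ⧸ V) * (a : X ⧸ V) := hZcen _ hzcZ
    have hzV : z ∈ V := by
      refine lemB p V hVp hVab hC a z T haz hzcT hzcZ.1 hTT₁ (q ^ j)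
        (Nat.Coprime.pow_left j hpq) ?_ ?_
      · rw [← QuotientGroup.eq_one_iff, QuotientGroup.mk_pow]; exact hj'
      · intro v hv
        obtain ⟨k, hk⟩ := Subgroup.mem_zpowers_iff.1 (hcd v hv)
        rw [← hk]
        exact ((show Commute z (a ^ p) from hzd z haz).zpow_right k).eq
    exact hzc1 ((QuotientGroup.eq_one_iff z).2 hzV)

/-- Let G be a finite p-soluble group, P a Sylow p-subgroup of G and A a cyclic normal subgroup of P. If p is odd, or if no section of G is isomorphic to the symmetric group of degree 4, then A ≤ O_{p',p}(G). -/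
theorem result {G : Type*} [Group G] [Finite G] {p : ℕ} [Fact p.Prime] (hG : Cfsg.IsPSolvable p G) (P : Sylow p G) (A : Subgroup G) (hAP : A ≤ (P : Subgroup G)) (hAn : (P : Subgroup G) ≤ Subgroup.normalizer (A : Set G)) (hA : IsCyclic A) (h : p ≠ 2 ∨ ¬ Cfsg.Involves (Equiv.Perm (Fin 4)) G) : A ≤ Cfsg.pPrimePCore p G := by
  classical
  have hp : p.Prime := Fact.out
  haveI hNn : (pPrimeCore p G).Normal := Cfsg.Agent.Lib.Helper81.pPrimeCore_normal p
  set N := pPrimeCore p G with hNdef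
  have hG₁ : IsPSolvable p (G ⧸ N) := Cfsg.Agent.Lib.Helper75.Fratt.isPSolvable_quotient N hG
  have hN₁ : pPrimeCore p (G ⧸ N) = ⊥ :=
    Cfsg.Agent.Lib.Helper75.Fratt.pPrimeCore_quotient_eq_bot' p
  haveI hQn : (pCore p (G ⧸ N)).Normal := Cfsg.Agent.Lib.Helper40.pCore_normal' p
  have hQp : IsPGroup p (pCore p (G ⧸ N)) := Cfsg.Agent.Lib.Helper40.pCore_isPGroup' p
  have hQC : Subgroup.centralizer (pCore p (G ⧸ N) : Set (G ⧸ N)) ≤ pCore p (G ⧸ N) :=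
    Cfsg.Agent.Lib.Helper40.centralizer_pCore_le hG₁ hN₁
  set Q := pCore p (G ⧸ N) with hQdef
  set Φ : Subgroup (G ⧸ N) := (frattini ↥Q).map Q.subtype with hΦdef
  haveI hΦn : Φ.Normal := ConjAct.normal_of_characteristic_of_normal
  have hΦQ : Φ ≤ Q := Subgroup.map_subtype_le _
  have hΦp : IsPGroup p Φ := hQp.to_le hΦQ
  set π₁ : G →* G ⧸ N := QuotientGroup.mk' N with hπ₁
  set π₂ : G ⧸ N →* (G ⧸ N) ⧸ Φ := QuotientGroup.mk' Φ with hπ₂
  have hπ₂s : Function.Surjective π₂ := QuotientGroup.mk'_surjective Φ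
  have hπ₂one : ∀ x : G ⧸ N, π₂ x = 1 ↔ x ∈ Φ := fun x => QuotientGroup.eq_one_iff x
  have hX : IsPSolvable p ((G ⧸ N) ⧸ Φ) :=
    Cfsg.Agent.Lib.Helper75.Fratt.isPSolvable_quotient Φ hG₁
  haveI hVn : (pCore p ((G ⧸ N) ⧸ Φ)).Normal := Cfsg.Agent.Lib.Helper40.pCore_normal' p
  have hVp : IsPGroup p (pCore p ((G ⧸ N) ⧸ Φ)) := Cfsg.Agent.Lib.Helper40.pCore_isPGroup' p
  have hH1 : pCore p (((G ⧸ N) ⧸ Φ) ⧸ pCore p ((G ⧸ N) ⧸ Φ)) = ⊥ :=
    Cfsg.Agent.S3783.pCore_quot_bot p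
  have hHsep : IsPSolvable p (((G ⧸ N) ⧸ Φ) ⧸ pCore p ((G ⧸ N) ⧸ Φ)) :=
    Cfsg.Agent.Lib.Helper75.Fratt.isPSolvable_quotient _ hX
  have hQV : Q.map π₂ ≤ pCore p ((G ⧸ N) ⧸ Φ) := by
    show Q.map π₂ ≤ sSup {M : Subgroup ((G ⧸ N) ⧸ Φ) | M.Normal ∧ IsPGroup p M}
    exact le_sSup ⟨hQn.map π₂ hπ₂s, hQp.map π₂⟩
  have hVQ : pCore p ((G ⧸ N) ⧸ Φ) ≤ Q.map π₂ := by
    have h1 : (pCore p ((G ⧸ N) ⧸ Φ)).comap π₂ ≤ Q := by
      show _ ≤ sSup {M : Subgroup (G ⧸ N) | M.Normal ∧ IsPGroup p M}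
      refine le_sSup ⟨hVn.comap π₂, ?_⟩
      apply hVp.comap_of_ker_isPGroup π₂
      rw [hπ₂, QuotientGroup.ker_mk']; exact hΦp
    intro v hv
    obtain ⟨g, rfl⟩ := hπ₂s v
    exact ⟨g, h1 hv, rfl⟩
  set V := pCore p ((G ⧸ N) ⧸ Φ) with hVdef
  have hVab : ∀ v ∈ V, ∀ w ∈ V, v * w = w * v := by
    intro v hv w hw
    obtain ⟨x, hx, rfl⟩ := hVQ hv
    obtain ⟨y, hy, rfl⟩ := hVQ hw
    have h1 : x * y * x⁻¹ * y⁻¹ ∈ Φ :=
      ⟨_, Cfsg.Agent.Lib.Helper72.comm_mem_frattini hQp ⟨x, hx⟩ ⟨y, hy⟩, rfl⟩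
    have h2 : π₂ (x * y * x⁻¹ * y⁻¹) = 1 := (hπ₂one _).2 h1
    rw [map_mul, map_mul, map_mul, map_inv, map_inv] at h2
    calc π₂ x * π₂ y = (π₂ x * π₂ y * (π₂ x)⁻¹ * (π₂ y)⁻¹) * π₂ y * π₂ x := by group
      _ = π₂ y * π₂ x := by rw [h2, one_mul]
  have hVexp : ∀ v ∈ V, v ^ p = 1 := by
    intro v hv
    obtain ⟨x, hx, rfl⟩ := hVQ hv
    have h1 : x ^ p ∈ Φ := ⟨_, Cfsg.Agent.Lib.Helper72.pow_mem_frattini hQp ⟨x, hx⟩, rfl⟩
    rw [← map_pow]
    exact (hπ₂one _).2 h1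
  have hC : Subgroup.centralizer (V : Set ((G ⧸ N) ⧸ Φ)) ≤ V := by
    set C := (Subgroup.centralizer (V : Set ((G ⧸ N) ⧸ Φ))).comap π₂ with hCdef
    haveI hCn : C.Normal := (Subgroup.normal_centralizer).comap π₂
    have hCact : ∀ c ∈ C, ∀ x ∈ Q, c * x * c⁻¹ * x⁻¹ ∈ Φ := by
      intro c hc x hx
      rw [← hπ₂one]
      have h1 : π₂ x ∈ V := hQV ⟨x, hx, rfl⟩
      have h2 := Subgroup.mem_centralizer_iff.1 hc _ h1
      rw [map_mul, map_mul, map_mul, map_inv, map_inv, ← h2]; group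
    have hCp : IsPGroup p C := by
      have hcard : Nat.card C = p ^ (Nat.card C).primeFactorsList.length := by
        apply Nat.eq_prime_pow_of_unique_prime_dvd Nat.card_pos.ne'
        intro q hq hqd
        by_contra hqp
        haveI : Fact q.Prime := ⟨hq⟩
        obtain ⟨c, hc⟩ := exists_prime_orderOf_dvd_card' q hqd
        have hcq : (c : G ⧸ N) ^ q ^ 1 = 1 := by
          rw [pow_one, ← hc, ← Subgroup.orderOf_coe, pow_orderOf_eq_one]
        have h1 : (c : G ⧸ N) ∈ Subgroup.centralizer (Q : Set (G ⧸ N)) :=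
          Cfsg.Agent.Lib.Helper75.Fratt.mem_centralizer_of_frattini (fun h => hqp h.symm) Q hQp
            (c : G ⧸ N) 1 hcq (hCact c c.2)
        have h2 : (c : G ⧸ N) ∈ Q := hQC h1
        have hcop : Nat.Coprime q p := (Nat.coprime_primes hq hp).2 hqp
        have h3 : (c : G ⧸ N) = 1 :=
          eq_one_of_pgroup_coprime Q hQp _ h2 q hcop (by rw [← pow_one q]; exact hcq)
        have h4 : orderOf c = 1 := by
          rw [orderOf_eq_one_iff]; exact Subtype.ext h3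
        rw [h4] at hc
        exact hq.one_lt.ne hc
      exact IsPGroup.of_card hcard
    have hCQ : C ≤ Q := by
      show C ≤ sSup {M : Subgroup (G ⧸ N) | M.Normal ∧ IsPGroup p M}
      exact le_sSup ⟨hCn, hCp⟩
    intro g hg
    obtain ⟨c, rfl⟩ := hπ₂s g
    exact hQV ⟨c, hCQ hg, rfl⟩
  have hπ₁s : Function.Surjective π₁ := QuotientGroup.mk'_surjective N
  have hQP : Q ≤ (P : Subgroup G).map π₁ := by
    have h0 : ((P.mapSurjective hπ₁s : Sylow p (G ⧸ N)) : Subgroup (G ⧸ N))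
        = (P : Subgroup G).map π₁ := Sylow.coe_mapSurjective hπ₁s P
    have h1 : IsPGroup p (Q ⊔ ((P.mapSurjective hπ₁s : Sylow p (G ⧸ N)) : Subgroup (G ⧸ N))
        : Subgroup (G ⧸ N)) :=
      IsPGroup.to_sup_of_normal_left hQp (P.mapSurjective hπ₁s).isPGroup'
    have h2 := (P.mapSurjective hπ₁s).is_maximal' h1 le_sup_right
    rw [← h0, ← h2]
    exact le_sup_left
  obtain ⟨g, hg⟩ := hA.exists_generator
  set a : G := (g : G) with hadef
  have hAa : ∀ x ∈ A, ∃ k : ℤ, a ^ k = x := by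
    intro x hx
    obtain ⟨k, hk⟩ := Subgroup.mem_zpowers_iff.1 (hg ⟨x, hx⟩)
    exact ⟨k, by rw [hadef, ← Subgroup.coe_zpow, hk]⟩
  have haA : a ∈ A := g.2
  have hVa : ∀ v ∈ V,
      π₂ (π₁ a) * v * (π₂ (π₁ a))⁻¹ * v⁻¹ ∈ Subgroup.zpowers (π₂ (π₁ a)) := by
    intro v hv
    obtain ⟨x₁, hx₁, rfl⟩ := hVQ hv
    obtain ⟨x, hx, rfl⟩ := hQP hx₁
    have hxN := hAn hx
    have h1 : x * a⁻¹ * x⁻¹ ∈ A := (Subgroup.mem_normalizer_iff.1 hxN a⁻¹).1 (A.inv_mem haA)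
    have h2 : a * x * a⁻¹ * x⁻¹ ∈ A := by
      have : a * x * a⁻¹ * x⁻¹ = a * (x * a⁻¹ * x⁻¹) := by group
      rw [this]; exact A.mul_mem haA h1
    obtain ⟨k, hk⟩ := hAa _ h2
    rw [Subgroup.mem_zpowers_iff]
    refine ⟨k, ?_⟩
    rw [← map_zpow, ← map_zpow, hk]
    simp only [map_mul, map_inv]
  have h' : p ≠ 2 ∨ ¬ Involves (Equiv.Perm (Fin 4)) ((G ⧸ N) ⧸ Φ) :=
    h.imp id (fun hn hX => hn (Cfsg.Agent.Lib.Helper2.involves_of_quotient N
      (Cfsg.Agent.Lib.Helper2.involves_of_quotient Φ hX)))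
  have haV := core p V hVp hVab hVexp hC hH1 hHsep (π₂ (π₁ a)) hVa h'
  have haQ : π₁ a ∈ Q := by
    obtain ⟨x, hx, hxa⟩ := hVQ haV
    have h1 : x⁻¹ * π₁ a ∈ Φ := QuotientGroup.eq.1 hxa
    have h2 : π₁ a = x * (x⁻¹ * π₁ a) := by group
    rw [h2]; exact Q.mul_mem hx (hΦQ h1)
  intro x hx
  obtain ⟨k, hk⟩ := hAa x hx
  show π₁ x ∈ Q
  rw [← hk, map_zpow]
  exact Q.zpow_mem haQ k

end Cfsg.Agent.S3788
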