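import Cfsg.Statements.S3791
import Mathlib

set_option autoImplicit false
open Cfsg

namespace Cfsg.Agent.S3791

open scoped Pointwise

section core
variable {G : Type*} [Group G]

/-- every element of `M` has a power with exponent in `E` lying in `U` -/
def IsStep (E : Set ℕ) (U M : Subgroup G) : Prop := ∀ x ∈ M, ∃ n ∈ E, x ^ n ∈ U

/-- the largest normal subgroup `M` with `IsStep E U M` -/
def Rad (E : Set ℕ) (U : Subgroup G) : Subgroup G :=
  sSup {M : Subgroup G | M.Normal ∧ IsStep E U M}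

def EP (p : ℕ) : Set ℕ := {n | n.Coprime p}
def EQ (p : ℕ) : Set ℕ := {n | ∃ k, n = p ^ k}

theorem EP_one (p : ℕ) : 1 ∈ EP p := Nat.coprime_one_left p
theorem EP_mul (p : ℕ) : ∀ a ∈ EP p, ∀ b ∈ EP p, a * b ∈ EP p :=
  fun _ ha _ hb => Nat.Coprime.mul_left ha hb
theorem EQ_one (p : ℕ) : 1 ∈ EQ p := ⟨0, (pow_zero p).symm⟩
theorem EQ_mul (p : ℕ) : ∀ a ∈ EQ p, ∀ b ∈ EQ p, a * b ∈ EQ p := by
  rintro a ⟨k, rfl⟩ b ⟨j, rfl⟩
  exact ⟨k + j, (pow_add p k j).symm⟩

theorem pow_mul_mem (N : Subgroup G) [hN : N.Normal] (a b : G) (hb : b ∈ N) (n : ℕ) :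
    (a ^ n)⁻¹ * (a * b) ^ n ∈ N := by
  have h : ((QuotientGroup.mk' N) ((a ^ n)⁻¹ * (a * b) ^ n)) = 1 := by
    have hb' : QuotientGroup.mk' N b = 1 := (QuotientGroup.eq_one_iff b).2 hb
    simp [map_mul, map_pow, map_inv, hb']
  exact (QuotientGroup.eq_one_iff _).1 h

theorem isStep_sup (E : Set ℕ) (hmul : ∀ a ∈ E, ∀ b ∈ E, a * b ∈ E) (U M₁ M₂ : Subgroup G)
    [hU : U.Normal] [M₂.Normal] (h₁ : IsStep E U M₁) (h₂ : IsStep E U M₂) :
    IsStep E U (M₁ ⊔ M₂) := by
  intro x hx
  have hx' : x ∈ ((M₁ ⊔ M₂ : Subgroup G) : Set G) := hx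
  rw [Subgroup.mul_normal, Set.mem_mul] at hx'
  obtain ⟨m₁, hm₁, m₂, hm₂, rfl⟩ := hx'
  obtain ⟨n₁, hn₁, hu₁⟩ := h₁ m₁ hm₁
  have hm'M : (m₁ ^ n₁)⁻¹ * (m₁ * m₂) ^ n₁ ∈ M₂ := pow_mul_mem M₂ m₁ m₂ hm₂ n₁
  obtain ⟨n₂, hn₂, hu₂⟩ := h₂ _ hm'M
  refine ⟨n₁ * n₂, hmul _ hn₁ _ hn₂, ?_⟩
  generalize hm' : (m₁ ^ n₁)⁻¹ * (m₁ * m₂) ^ n₁ = m' at hm'M hu₂
  have hy : (m₁ * m₂) ^ n₁ = m' * (m'⁻¹ * m₁ ^ n₁ * m') := by rw [← hm']; group
  have hu' : m'⁻¹ * m₁ ^ n₁ * m' ∈ U := by
    have := hU.conj_mem _ hu₁ m'⁻¹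
    simpa using this
  have h3 := pow_mul_mem U m' _ hu' n₂
  rw [pow_mul, hy]
  have : (m' * (m'⁻¹ * m₁ ^ n₁ * m')) ^ n₂
      = m' ^ n₂ * ((m' ^ n₂)⁻¹ * (m' * (m'⁻¹ * m₁ ^ n₁ * m')) ^ n₂) := by group
  rw [this]
  exact U.mul_mem hu₂ h3

theorem rad_spec [Finite G] (E : Set ℕ) (h1 : 1 ∈ E) (hmul : ∀ a ∈ E, ∀ b ∈ E, a * b ∈ E)
    (U : Subgroup G) [U.Normal] :
    (Rad E U).Normal ∧ IsStep E U (Rad E U) ∧ U ≤ Rad E U ∧
      ∀ M : Subgroup G, M.Normal → IsStep E U M → M ≤ Rad E U := by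
  let S : Set (Subgroup G) := {M | M.Normal ∧ IsStep E U M}
  have hU : U ∈ S := ⟨inferInstance, fun x hx => ⟨1, h1, by simpa using hx⟩⟩
  obtain ⟨M₀, hM₀⟩ := Set.Finite.exists_maximal (Set.toFinite S) ⟨U, hU⟩
  have hle : ∀ X ∈ S, X ≤ M₀ := by
    intro X hX
    have hXn : X.Normal := hX.1
    have hMn : M₀.Normal := hM₀.1.1
    have h1 : M₀ ⊔ X ∈ S := ⟨inferInstance, isStep_sup E hmul U M₀ X hM₀.1.2 hX.2⟩
    exact le_sup_right.trans (hM₀.2 h1 le_sup_left)
  have heq : Rad E U = M₀ := le_antisymm (sSup_le hle) (le_sSup hM₀.1)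
  rw [heq]
  exact ⟨hM₀.1.1, hM₀.1.2, hle U hU, fun M hMn hMs => hle M ⟨hMn, hMs⟩⟩

theorem pPrimeCore_eq_rad (Q : Type*) [Group Q] [Finite Q] (p : ℕ) (hp : p.Prime) :
    pPrimeCore p Q = Rad (EP p) (⊥ : Subgroup Q) := by
  unfold pPrimeCore Rad
  congr 1
  ext N
  constructor
  · rintro ⟨hn, hc⟩
    refine ⟨hn, fun x hx => ⟨Nat.card N, hc, ?_⟩⟩
    rw [Subgroup.mem_bot]
    have := pow_card_eq_one' (G := N) (x := ⟨x, hx⟩)
    exact congrArg Subtype.val this
  · rintro ⟨hn, hs⟩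
    refine ⟨hn, ?_⟩
    by_contra hc
    have hdvd : p ∣ Nat.card N := by
      by_contra h
      exact hc ((Nat.Prime.coprime_iff_not_dvd hp).2 h).symm
    haveI : Fact p.Prime := ⟨hp⟩
    obtain ⟨x, hx⟩ := exists_prime_orderOf_dvd_card' (G := N) p hdvd
    obtain ⟨n, hn', hxn⟩ := hs x x.2
    rw [Subgroup.mem_bot] at hxn
    have h2 : orderOf (x : Q) ∣ n := orderOf_dvd_of_pow_eq_one hxn
    rw [Subgroup.orderOf_coe, hx] at h2
    exact (Nat.Prime.coprime_iff_not_dvd hp).1 (Nat.Coprime.symm hn') h2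

theorem pCore_eq_rad (Q : Type*) [Group Q] (p : ℕ) :
    pCore p Q = Rad (EQ p) (⊥ : Subgroup Q) := by
  unfold pCore Rad
  congr 1
  ext N
  constructor
  · rintro ⟨hn, hg⟩
    refine ⟨hn, fun x hx => ?_⟩
    obtain ⟨k, hk⟩ := hg ⟨x, hx⟩
    exact ⟨p ^ k, ⟨k, rfl⟩, by rw [Subgroup.mem_bot]; exact congrArg Subtype.val hk⟩
  · rintro ⟨hn, hs⟩
    refine ⟨hn, fun g => ?_⟩
    obtain ⟨n, ⟨k, rfl⟩, hx⟩ := hs g g.2
    exact ⟨k, Subtype.ext (by rw [Subgroup.mem_bot] at hx; simpa using hx)⟩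

theorem comap_rad [Finite G] (E : Set ℕ) (h1 : 1 ∈ E) (hmul : ∀ a ∈ E, ∀ b ∈ E, a * b ∈ E)
    (U : Subgroup G) [U.Normal] :
    (Rad E (⊥ : Subgroup (G ⧸ U))).comap (QuotientGroup.mk' U) = Rad E U := by
  obtain ⟨hQn, hQs, -, hQmax⟩ := rad_spec E h1 hmul (⊥ : Subgroup (G ⧸ U))
  obtain ⟨hGn, hGs, -, hGmax⟩ := rad_spec E h1 hmul U
  apply le_antisymm
  · apply hGmax
    · exact hQn.comap _
    · intro x hx
      obtain ⟨n, hn, hxn⟩ := hQs _ (Subgroup.mem_comap.1 hx)
      refine ⟨n, hn, ?_⟩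
      rw [Subgroup.mem_bot, ← map_pow] at hxn
      exact (QuotientGroup.eq_one_iff _).1 hxn
  · rw [← Subgroup.map_le_iff_le_comap]
    apply hQmax
    · exact hGn.map _ (QuotientGroup.mk'_surjective U)
    · rintro y ⟨x, hx, rfl⟩
      obtain ⟨n, hn, hxn⟩ := hGs x hx
      refine ⟨n, hn, ?_⟩
      rw [Subgroup.mem_bot, ← map_pow]
      exact (QuotientGroup.eq_one_iff _).2 hxn

/-- the upper `p`-series over `K` -/
def V (p : ℕ) (K : Subgroup G) : ℕ → Subgroup G
  | 0 => K
  | n + 1 => if Even n then Rad (EP p) (V p K n) else Rad (EQ p) (V p K n)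

theorem V_normal [Finite G] (p : ℕ) (K : Subgroup G) [hK : K.Normal] : ∀ n, (V p K n).Normal := by
  intro n
  induction n with
  | zero => exact hK
  | succ n ih =>
    show (if Even n then Rad (EP p) (V p K n) else Rad (EQ p) (V p K n)).Normal
    split_ifs
    · exact (rad_spec (EP p) (EP_one p) (EP_mul p) (V p K n)).1
    · exact (rad_spec (EQ p) (EQ_one p) (EQ_mul p) (V p K n)).1

theorem upper_eq [Finite G] (p : ℕ) (hp : p.Prime) :
    ∀ n, (upperPSeries p G n).1 = V p (⊥ : Subgroup G) n := by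
  intro n
  induction n with
  | zero => rfl
  | succ n ih =>
    by_cases hn : Even n
    · have h1 : (upperPSeries p G (n + 1)).1 =
          (pPrimeCore p (G ⧸ (upperPSeries p G n).1)).comap (QuotientGroup.mk' _) := by
        have h0 : upperPSeries p G (n + 1) =
            (if Even n then
              ⟨(pPrimeCore p (G ⧸ (upperPSeries p G n).1)).comap (QuotientGroup.mk' _), inferInstance⟩
            else
              ⟨(pCore p (G ⧸ (upperPSeries p G n).1)).comap (QuotientGroup.mk' _), inferInstance⟩) :=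
          rfl
        rw [h0, if_pos hn]
      rw [h1, pPrimeCore_eq_rad _ p hp, comap_rad (EP p) (EP_one p) (EP_mul p), ih]
      show _ = if Even n then _ else _
      rw [if_pos hn]
    · have h1 : (upperPSeries p G (n + 1)).1 =
          (pCore p (G ⧸ (upperPSeries p G n).1)).comap (QuotientGroup.mk' _) := by
        have h0 : upperPSeries p G (n + 1) =
            (if Even n then
              ⟨(pPrimeCore p (G ⧸ (upperPSeries p G n).1)).comap (QuotientGroup.mk' _), inferInstance⟩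
            else
              ⟨(pCore p (G ⧸ (upperPSeries p G n).1)).comap (QuotientGroup.mk' _), inferInstance⟩) :=
          rfl
        rw [h0, if_neg hn]
      rw [h1, pCore_eq_rad _ p, comap_rad (EQ p) (EQ_one p) (EQ_mul p), ih]
      show _ = if Even n then _ else _
      rw [if_neg hn]

theorem rad_mono [Finite G] (E : Set ℕ) (h1 : 1 ∈ E) (hmul : ∀ a ∈ E, ∀ b ∈ E, a * b ∈ E)
    (U U' : Subgroup G) [U.Normal] [U'.Normal] (h : U ≤ U') : Rad E U ≤ Rad E U' := by
  obtain ⟨hn, hs, -, -⟩ := rad_spec E h1 hmul U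
  obtain ⟨-, -, -, hmax⟩ := rad_spec E h1 hmul U'
  apply hmax _ hn
  intro x hx
  obtain ⟨n, hn', hxn⟩ := hs x hx
  exact ⟨n, hn', h hxn⟩

theorem V_mono [Finite G] (p : ℕ) (K K' : Subgroup G) [K.Normal] [K'.Normal] (h : K ≤ K') :
    ∀ n, V p K n ≤ V p K' n := by
  intro n
  induction n with
  | zero => exact h
  | succ n ih =>
    have h1 := V_normal p K n
    have h2 := V_normal p K' n
    show (if Even n then Rad (EP p) (V p K n) else Rad (EQ p) (V p K n)) ≤
      (if Even n then Rad (EP p) (V p K' n) else Rad (EQ p) (V p K' n))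
    split_ifs
    · exact rad_mono (EP p) (EP_one p) (EP_mul p) _ _ ih
    · exact rad_mono (EQ p) (EQ_one p) (EQ_mul p) _ _ ih

theorem even_add_two (n : ℕ) : Even (n + 2) ↔ Even n := by
  simp only [Nat.even_iff]; omega

theorem V_shift (p : ℕ) (K : Subgroup G) (hK : Rad (EP p) K = K) :
    ∀ n, V p K (n + 2) = V p (Rad (EQ p) K) n := by
  intro n
  induction n with
  | zero =>
    show (if Even 1 then Rad (EP p) (V p K 1) else Rad (EQ p) (V p K 1)) = Rad (EQ p) K
    have h1 : V p K 1 = K := by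
      show (if Even 0 then Rad (EP p) K else Rad (EQ p) K) = K
      rw [if_pos (by decide), hK]
    rw [if_neg (by decide), h1]
  | succ n ih =>
    show (if Even (n + 2) then Rad (EP p) (V p K (n + 2)) else Rad (EQ p) (V p K (n + 2))) =
      (if Even n then Rad (EP p) (V p (Rad (EQ p) K) n) else Rad (EQ p) (V p (Rad (EQ p) K) n))
    rw [ih]
    by_cases hn : Even n
    · rw [if_pos hn, if_pos ((even_add_two n).2 hn)]
    · rw [if_neg hn, if_neg (fun h => hn ((even_add_two n).1 h))]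

theorem V_stuck (p : ℕ) (K : Subgroup G) (hK : Rad (EP p) K = K) (hK' : Rad (EQ p) K = K) :
    ∀ n, V p K n = K := by
  intro n
  induction n with
  | zero => rfl
  | succ n ih =>
    show (if Even n then Rad (EP p) (V p K n) else Rad (EQ p) (V p K n)) = K
    rw [ih]
    split_ifs
    · exact hK
    · exact hK'

theorem mem_of_forall_mem_rad [Finite G] (r : ℕ) (q : Fin r → ℕ) (hq : ∀ i, (q i).Prime)
    (hcover : ∀ s : ℕ, s.Prime → s ∣ Nat.card G → ∃ i, q i = s) (K : Subgroup G) [K.Normal]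
    (x : G) (hx : ∀ i, x ∈ Rad (EP (q i)) K) : x ∈ K := by
  rw [← QuotientGroup.eq_one_iff (N := K), ← orderOf_eq_one_iff]
  by_contra ho
  obtain ⟨s, hs, hso⟩ := Nat.exists_prime_and_dvd ho
  have h1 : orderOf ((x : G ⧸ K)) ∣ Nat.card G :=
    (orderOf_dvd_natCard _).trans (Subgroup.card_quotient_dvd_card K)
  obtain ⟨i, hi⟩ := hcover s hs (hso.trans h1)
  obtain ⟨-, hstep, -, -⟩ := rad_spec (EP (q i)) (EP_one _) (EP_mul _) K
  obtain ⟨n, hn, hxn⟩ := hstep x (hx i)
  have h2 : orderOf ((x : G ⧸ K)) ∣ n := by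
    apply orderOf_dvd_of_pow_eq_one
    rw [← QuotientGroup.mk_pow]
    exact (QuotientGroup.eq_one_iff _).2 hxn
  have h3 : q i ∣ n := by rw [hi]; exact hso.trans h2
  have h4 : (q i).Coprime n := Nat.Coprime.symm hn
  exact ((Nat.Prime.coprime_iff_not_dvd (hq i)).1 h4) h3

/-- derived series of a subgroup, inside the ambient group -/
def dser (H : Subgroup G) : ℕ → Subgroup G
  | 0 => H
  | n + 1 => ⁅dser H n, dser H n⁆

theorem dser_mono (H H' : Subgroup G) (h : H ≤ H') : ∀ n, dser H n ≤ dser H' n := by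
  intro n
  induction n with
  | zero => exact h
  | succ n ih => exact Subgroup.commutator_mono ih ih

theorem dser_add (H : Subgroup G) (a : ℕ) : ∀ b, dser H (a + b) = dser (dser H a) b := by
  intro b
  induction b with
  | zero => rfl
  | succ b ih =>
    show ⁅dser H (a + b), dser H (a + b)⁆ = ⁅dser (dser H a) b, dser (dser H a) b⁆
    rw [ih]

theorem derivedSeries_eq_dser : ∀ n, derivedSeries G n = dser (⊤ : Subgroup G) n := by
  intro n
  induction n with
  | zero => rfl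
  | succ n ih =>
    show ⁅derivedSeries G n, derivedSeries G n⁆ = ⁅dser (⊤ : Subgroup G) n, dser (⊤ : Subgroup G) n⁆
    rw [ih]

theorem dser_subtype (P : Subgroup G) : ∀ n, (derivedSeries ↥P n).map P.subtype = dser P n := by
  intro n
  induction n with
  | zero =>
    show (⊤ : Subgroup ↥P).map P.subtype = P
    rw [← MonoidHom.range_eq_map, Subgroup.range_subtype]
  | succ n ih =>
    show (⁅derivedSeries ↥P n, derivedSeries ↥P n⁆).map P.subtype = ⁅dser P n, dser P n⁆
    rw [Subgroup.map_commutator, ih]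

theorem comm_sup_le (A K : Subgroup G) [K.Normal] : ⁅A ⊔ K, A ⊔ K⁆ ≤ ⁅A, A⁆ ⊔ K := by
  have h1 : (A ⊔ K).map (QuotientGroup.mk' K) = A.map (QuotientGroup.mk' K) := by
    rw [Subgroup.map_sup]
    have : K.map (QuotientGroup.mk' K) = ⊥ := by
      rw [eq_bot_iff, Subgroup.map_le_iff_le_comap]
      intro x hx
      rw [Subgroup.mem_comap, Subgroup.mem_bot]
      exact (QuotientGroup.eq_one_iff x).2 hx
    rw [this, sup_bot_eq]
  have h2 : (⁅A ⊔ K, A ⊔ K⁆).map (QuotientGroup.mk' K) = (⁅A, A⁆).map (QuotientGroup.mk' K) := by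
    rw [Subgroup.map_commutator, Subgroup.map_commutator, h1]
  have h3 : ⁅A ⊔ K, A ⊔ K⁆ ≤ ((⁅A, A⁆).map (QuotientGroup.mk' K)).comap (QuotientGroup.mk' K) := by
    rw [← Subgroup.map_le_iff_le_comap, h2]
  rw [Subgroup.comap_map_eq, QuotientGroup.ker_mk'] at h3
  exact h3

theorem dser_sup_le (T K : Subgroup G) [K.Normal] : ∀ n, dser (T ⊔ K) n ≤ dser T n ⊔ K := by
  intro n
  induction n with
  | zero => exact le_rfl
  | succ n ih =>
    show ⁅dser (T ⊔ K) n, dser (T ⊔ K) n⁆ ≤ ⁅dser T n, dser T n⁆ ⊔ K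
    exact (Subgroup.commutator_mono ih ih).trans (comm_sup_le _ K)

theorem sylow_cover [Finite G] (p : ℕ) (hp : p.Prime) (K M : Subgroup G) [K.Normal]
    (hKM : K ≤ M) (hstep : IsStep (EQ p) K M) :
    ∃ S : Sylow p G, M ≤ (S : Subgroup G) ⊓ M ⊔ K := by
  haveI : Fact p.Prime := ⟨hp⟩
  obtain ⟨T⟩ : Nonempty (Sylow p ↥M) := inferInstance
  have hT' : IsPGroup p ↥((T : Subgroup ↥M).map M.subtype) :=
    T.isPGroup'.map M.subtype
  obtain ⟨S, hS⟩ := hT'.exists_le_sylow
  refine ⟨S, ?_⟩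
  have hK'n : (K.subgroupOf M).Normal := inferInstance
  have hpq : IsPGroup p (↥M ⧸ K.subgroupOf M) := by
    intro y
    obtain ⟨m, rfl⟩ := QuotientGroup.mk_surjective y
    obtain ⟨n, ⟨k, rfl⟩, hk⟩ := hstep (m : G) m.2
    refine ⟨k, ?_⟩
    rw [← QuotientGroup.mk_pow]
    apply (QuotientGroup.eq_one_iff _).2
    rw [Subgroup.mem_subgroupOf]
    simpa using hk
  obtain ⟨k, hk⟩ := IsPGroup.iff_card.1 hpq
  have hidx : (K.subgroupOf M).index = p ^ k := by rw [Subgroup.index_eq_card, hk]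
  have h1 : ((T : Subgroup ↥M) ⊔ K.subgroupOf M).index ∣ p ^ k := by
    rw [← hidx]; exact Subgroup.index_dvd_of_le le_sup_right
  have h2 : ((T : Subgroup ↥M) ⊔ K.subgroupOf M).index ∣ (T : Subgroup ↥M).index :=
    Subgroup.index_dvd_of_le le_sup_left
  obtain ⟨j, -, hj⟩ := (Nat.dvd_prime_pow hp).1 h1
  have hj0 : j = 0 := by
    by_contra hne
    have : p ∣ (T : Subgroup ↥M).index := by
      refine Dvd.dvd.trans ?_ h2
      rw [hj]
      exact dvd_pow_self p hne
    exact T.not_dvd_index this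
  rw [hj0, pow_zero, Subgroup.index_eq_one] at hj
  have h3 : ((T : Subgroup ↥M) ⊔ K.subgroupOf M).map M.subtype = M := by
    rw [hj, ← MonoidHom.range_eq_map, Subgroup.range_subtype]
  rw [Subgroup.map_sup, Subgroup.map_subgroupOf_eq_of_le hKM] at h3
  have h4 : (T : Subgroup ↥M).map M.subtype ≤ (S : Subgroup G) ⊓ M :=
    le_inf hS (Subgroup.map_subtype_le _)
  calc M = (T : Subgroup ↥M).map M.subtype ⊔ K := h3.symm
    _ ≤ (S : Subgroup G) ⊓ M ⊔ K := sup_le_sup_right h4 K

theorem main [Finite G] (r : ℕ) (q : Fin r → ℕ) (hq : ∀ i, (q i).Prime)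
    (hcover : ∀ s : ℕ, s.Prime → s ∣ Nat.card G → ∃ i, q i = s) (d : Fin r → ℕ)
    (hE : ∀ i, ∀ K M : Subgroup G, K.Normal → M.Normal → K ≤ M → IsStep (EQ (q i)) K M →
      dser M (d i) ≤ K) :
    ∀ (m : ℕ) (K : Subgroup G) (l : Fin r → ℕ), K.Normal → K.index = m →
      (∀ i, V (q i) K (2 * l i + 1) = ⊤) → dser (⊤ : Subgroup G) (∑ i, d i * l i) ≤ K := by
  intro m
  induction m using Nat.strong_induction_on with
  | _ m ih =>
    intro K l hKn hm hV
    have hKn' : K.Normal := hKn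
    suffices h : ∀ i, dser (⊤ : Subgroup G) (∑ i, d i * l i) ≤ Rad (EP (q i)) K by
      intro x hx
      exact mem_of_forall_mem_rad r q hq hcover K x (fun i => h i hx)
    intro i
    obtain ⟨hNn, hNs, hKN, hNmax⟩ := rad_spec (EP (q i)) (EP_one _) (EP_mul _) K
    by_cases hN : Rad (EP (q i)) K = K
    · obtain ⟨hPn, hPs, hKP, hPmax⟩ := rad_spec (EQ (q i)) (EQ_one _) (EQ_mul _) K
      by_cases hP : Rad (EQ (q i)) K = K
      · have h1 := V_stuck (q i) K hN hP (2 * l i + 1)
        rw [hV i] at h1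
        rw [hN, ← h1]
        exact le_top
      · have hl : 1 ≤ l i := by
          by_contra h0
          have h0' : l i = 0 := by omega
          have h1 := hV i
          rw [h0'] at h1
          have h2 : V (q i) K 1 = K := by
            show (if Even 0 then Rad (EP (q i)) K else Rad (EQ (q i)) K) = K
            rw [if_pos (by decide), hN]
          have h3 : K = ⊤ := by
            rw [← h2]; exact h1
          apply hP
          exact le_antisymm (by rw [h3]; exact le_top) hKP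
        have hlt : (Rad (EQ (q i)) K).index < m := by
          rw [← hm]
          exact Subgroup.index_strictAnti (lt_of_le_of_ne hKP (Ne.symm hP))
        classical
        have hV' : ∀ j, V (q j) (Rad (EQ (q i)) K)
            (2 * Function.update l i (l i - 1) j + 1) = ⊤ := by
          intro j
          by_cases hji : j = i
          · subst hji
            rw [Function.update_self, ← V_shift (q j) K hN]
            have : 2 * (l j - 1) + 1 + 2 = 2 * l j + 1 := by omega
            rw [this]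
            exact hV j
          · rw [Function.update_of_ne hji, eq_top_iff, ← hV j]
            exact V_mono (q j) K _ hKP _
        have h5 := ih _ hlt (Rad (EQ (q i)) K) (Function.update l i (l i - 1)) hPn rfl hV'
        have hsum : ∑ j, d j * l j
            = ∑ j, d j * Function.update l i (l i - 1) j + d i := by
          have hj : ∀ j, d j * l j = d j * Function.update l i (l i - 1) j
              + (if j = i then d i else 0) := by
            intro j
            by_cases hji : j = i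
            · subst hji
              rw [Function.update_self, if_pos rfl]
              obtain ⟨t, ht⟩ : ∃ t, l j = t + 1 := ⟨l j - 1, by omega⟩
              rw [ht, Nat.add_sub_cancel]
              ring
            · rw [Function.update_of_ne hji, if_neg hji, add_zero]
          rw [Finset.sum_congr rfl (fun j _ => hj j), Finset.sum_add_distrib,
            Finset.sum_ite_eq']
          simp
        rw [hsum, dser_add, hN]
        exact (dser_mono _ _ h5 _).trans (hE i K _ hKn hPn hKP hPs)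
    · have hlt : (Rad (EP (q i)) K).index < m := by
        rw [← hm]
        exact Subgroup.index_strictAnti (lt_of_le_of_ne hKN (Ne.symm hN))
      have hV' : ∀ j, V (q j) (Rad (EP (q i)) K) (2 * l j + 1) = ⊤ := by
        intro j
        rw [eq_top_iff, ← hV j]
        exact V_mono (q j) K _ hKN _
      exact ih _ hlt (Rad (EP (q i)) K) l hNn rfl hV'

end core

/-- The Hall–Higman bound on derived length: let G be a finite solvable group, let p₁, …, p_r be distinct primes that include every prime dividing the order of G, and suppose that for each i the Sylow p_i-subgroups of G have derived length at most d_i and G has p_i-length at most l_i. Then G has derived length at most Σ d_i l_i. -/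
theorem result {G : Type*} [Group G] [Finite G] (hG : Group.IsSolvable G) (r : ℕ) (q : Fin r → ℕ) (hq : ∀ i, (q i).Prime) (hinj : Function.Injective q) (hcover : ∀ s : ℕ, s.Prime → s ∣ Nat.card G → ∃ i, q i = s) (d l : Fin r → ℕ) (hd : ∀ i, ∀ P : Subgroup G, (haveI := Fact.mk (hq i); ∃ S : Sylow (q i) G, (S : Subgroup G) = P) → derivedSeries ↥P (d i) = ⊥) (hl : ∀ i, Cfsg.PLengthLE (q i) (l i) G) : derivedSeries G (Finset.univ.sum fun i => d i * l i) = ⊥ := by
  have hE : ∀ i, ∀ K M : Subgroup G, K.Normal → M.Normal → K ≤ M → IsStep (EQ (q i)) K M →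
      dser M (d i) ≤ K := by
    intro i K M hKn hMn hKM hstep
    have hKn' : K.Normal := hKn
    obtain ⟨S, hS⟩ := sylow_cover (q i) (hq i) K M hKM hstep
    have h1 : derivedSeries ↥(S : Subgroup G) (d i) = ⊥ := hd i (S : Subgroup G) ⟨S, rfl⟩
    have h2 : dser (S : Subgroup G) (d i) = ⊥ := by
      rw [← dser_subtype, h1, Subgroup.map_bot]
    have h3 : dser ((S : Subgroup G) ⊓ M) (d i) = ⊥ := by
      rw [eq_bot_iff, ← h2]
      exact dser_mono _ _ inf_le_left _
    calc dser M (d i) ≤ dser ((S : Subgroup G) ⊓ M ⊔ K) (d i) := dser_mono _ _ hS _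
      _ ≤ dser ((S : Subgroup G) ⊓ M) (d i) ⊔ K := dser_sup_le _ K _
      _ = K := by rw [h3, bot_sup_eq]
  have hV : ∀ i, V (q i) (⊥ : Subgroup G) (2 * l i + 1) = ⊤ := by
    intro i
    rw [← upper_eq (q i) (hq i)]
    exact hl i
  have hmain := main r q hq hcover d hE _ ⊥ l inferInstance rfl hV
  rw [derivedSeries_eq_dser, eq_bot_iff]
  exact hmain

end Cfsg.Agent.S3791
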