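import Cfsg.Statements.S3795
import Cfsg.Agent.Lib.Helper26.Gross2Main
import Cfsg.Agent.Lib.Helper26.Gross2Card2
import Cfsg.Agent.Lib.Helper40.Gross2TOWER
import Cfsg.Agent.Lib.Helper75.Gross2L2
import Cfsg.Agent.Lib.Helper97.Gross2SETUP
import Cfsg.Agent.Lib.Helper97.Gross2LE2
import Cfsg.Agent.Lib.Helper49.Gross2K1

set_option autoImplicit false
open Cfsg

namespace Cfsg.Agent.S3795

/-- Gross's Theorem: let G be a finite solvable group with an automorphism σ of order 2^n, n > 1, fixing only the identity. Then G has Fitting height at most 2n − 2: G has Fitting height at most m when there is a chain of normal subgroups 1 = F₀ ≤ F₁ ≤ ⋯ ≤ F_m = G with each F_{i+1}/F_i nilpotent. -/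
theorem result {G : Type*} [Group G] [Finite G] (hG : Group.IsSolvable G) (σ : MulAut G) (n : ℕ) (hn : 1 < n) (hσ : orderOf σ = 2 ^ n) (hfpf : ∀ g : G, σ g = g → g = 1) : ∃ F : Fin ((2 * n - 2) + 1) → Subgroup G, F 0 = ⊥ ∧ F (Fin.last (2 * n - 2)) = ⊤ ∧ Monotone F ∧ (∀ i, (F i).Normal) ∧ ∀ i : Fin (2 * n - 2), ∃ k : ℕ, (F i.succ).lowerCentralSeries k ≤ F i.castSucc :=
  Cfsg.Agent.Lib.Helper26.Gross2.gross2_main_of_aut3
    (Cfsg.Agent.Lib.Helper26.Gross2.gross2_aut3_of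
      Cfsg.Agent.Lib.Helper97.Gross2SETUP.gross2_setup
      Cfsg.Agent.Lib.Helper97.Gross2LE2.gross2_le2
      Cfsg.Agent.Lib.Helper26.Gross2.gross2_card2_of_core
      Cfsg.Agent.Lib.Helper26.Gross2.gross2_tower
      Cfsg.Agent.Lib.Helper49.Gross2K1.gross2_k1
      Cfsg.Agent.Lib.Helper75.Gross2L2.gross2_l2) hG σ n hn hσ hfpf

end Cfsg.Agent.S3795
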