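import Cfsg.Statements.S3796
import Cfsg.Agent.Lib.Helper12.Ward8

set_option autoImplicit false
open Cfsg

namespace Cfsg.Agent.S3796

/-- Ward's Theorem: let G be a finite solvable group and A an elementary abelian group of automorphisms of G of order p² (p a prime) with no non-identity common fixed point. Then G has Fitting height at most 2: G has Fitting height at most m when there is a chain of normal subgroups 1 = F₀ ≤ F₁ ≤ ⋯ ≤ F_m = G with each F_{i+1}/F_i nilpotent. -/
theorem result {G : Type*} [Group G] [Finite G] (hG : Group.IsSolvable G) {p : ℕ} (hp : p.Prime) (A : Subgroup (MulAut G)) (hA : Cfsg.IsElementaryAbelian p A) (hcard : Nat.card A = p ^ 2) (hfpf : ∀ g : G, (∀ a ∈ A, a g = g) → g = 1) : ∃ F : Fin (2 + 1) → Subgroup G, F 0 = ⊥ ∧ F (Fin.last 2) = ⊤ ∧ Monotone F ∧ (∀ i, (F i).Normal) ∧ ∀ i : Fin 2, ∃ k : ℕ, (F i.succ).lowerCentralSeries k ≤ F i.castSucc := by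
  haveI := hG
  haveI : Finite ↥A := Nat.finite_of_card_ne_zero (by rw [hcard]; exact pow_ne_zero 2 hp.ne_zero)
  haveI : Finite (G ⋊[A.subtype] ↥A) := Finite.of_equiv _ SemidirectProduct.equivProd.symm
  have hι : Function.Injective (SemidirectProduct.inl : G →* G ⋊[A.subtype] ↥A) :=
    SemidirectProduct.inl_injective
  have hκ : Function.Injective (SemidirectProduct.inr : ↥A →* G ⋊[A.subtype] ↥A) :=
    SemidirectProduct.inr_injective
  have hsolv : Group.IsSolvable ↥(SemidirectProduct.inl : G →* G ⋊[A.subtype] ↥A).range :=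
    Group.isSolvable_of_surjective
      (f := (SemidirectProduct.inl : G →* G ⋊[A.subtype] ↥A).rangeRestrict)
      (MonoidHom.rangeRestrict_surjective _)
  have helem : Cfsg.IsElementaryAbelian p
      (SemidirectProduct.inr : ↥A →* G ⋊[A.subtype] ↥A).range := by
    refine ⟨⟨⟨?_⟩⟩, ?_⟩
    · rintro ⟨_, a, rfl⟩ ⟨_, b, rfl⟩
      apply Subtype.ext
      show (SemidirectProduct.inr a : G ⋊[A.subtype] ↥A) * SemidirectProduct.inr b =
        SemidirectProduct.inr b * SemidirectProduct.inr a
      rw [← map_mul, ← map_mul]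
      congr 1
      exact hA.1.is_comm.comm a b
    · rintro _ ⟨a, rfl⟩
      rw [← map_pow]
      have h1 : a ^ p = 1 := Subtype.ext (hA.2 a a.2)
      rw [h1, map_one]
  have hcard' : Nat.card (SemidirectProduct.inr : ↥A →* G ⋊[A.subtype] ↥A).range = p ^ 2 := by
    rw [← hcard]
    exact Nat.card_congr (MonoidHom.ofInjective hκ).toEquiv.symm
  have hnorm : (SemidirectProduct.inr : ↥A →* G ⋊[A.subtype] ↥A).range ≤
      Subgroup.normalizer (((SemidirectProduct.inl : G →* G ⋊[A.subtype] ↥A).range :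
        Subgroup (G ⋊[A.subtype] ↥A)) : Set (G ⋊[A.subtype] ↥A)) := by
    have hn : ((SemidirectProduct.inl : G →* G ⋊[A.subtype] ↥A).range).Normal := by
      rw [SemidirectProduct.range_inl_eq_ker_rightHom]; infer_instance
    rw [Subgroup.normalizer_eq_top_iff.mpr hn]
    exact le_top
  have hfix : ∀ g ∈ (SemidirectProduct.inl : G →* G ⋊[A.subtype] ↥A).range,
      (∀ x ∈ (SemidirectProduct.inr : ↥A →* G ⋊[A.subtype] ↥A).range, x * g = g * x) →
      g = 1 := by
    rintro _ ⟨g, rfl⟩ hc
    have hg : g = 1 := by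
      apply hfpf g
      intro a ha
      have h1 := hc (SemidirectProduct.inr ⟨a, ha⟩) ⟨⟨a, ha⟩, rfl⟩
      have h2 := SemidirectProduct.inl_aut (φ := A.subtype) ⟨a, ha⟩ g
      rw [h1, mul_assoc, ← map_mul, mul_inv_cancel, map_one, mul_one] at h2
      exact hι h2
    rw [hg, map_one]
  obtain ⟨k, m, hkm⟩ := Lib.Helper12.Ward.ward_internal p hp _ (G ⋊[A.subtype] ↥A) _ _ rfl
    hsolv helem hcard' hnorm hfix
  have e : (SemidirectProduct.inl : G →* G ⋊[A.subtype] ↥A).range =
      (⊤ : Subgroup G).map SemidirectProduct.inl := MonoidHom.range_eq_map _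
  rw [e, ← Subgroup.map_lowerCentralSeries, ← Subgroup.map_lowerCentralSeries] at hkm
  have h0 : ((⊤ : Subgroup G).lowerCentralSeries k).lowerCentralSeries m = ⊥ :=
    (Subgroup.map_eq_bot_iff_of_injective _ hι).mp hkm
  refine ⟨![⊥, (⊤ : Subgroup G).lowerCentralSeries k, ⊤], rfl, rfl, ?_, ?_, ?_⟩
  · rw [Fin.monotone_iff_le_succ]
    intro i
    fin_cases i
    · exact bot_le
    · exact le_top
  · intro i
    fin_cases i
    · show (⊥ : Subgroup G).Normal
      infer_instance
    · show ((⊤ : Subgroup G).lowerCentralSeries k).Normal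
      exact Subgroup.normal_of_characteristic _
    · show (⊤ : Subgroup G).Normal
      infer_instance
  · intro i
    fin_cases i
    · exact ⟨m, h0.le⟩
    · exact ⟨k, le_rfl⟩

end Cfsg.Agent.S3796
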