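import Cfsg.Statements.S3797
import Cfsg.Agent.Lib.Helper18.TLGlue

set_option autoImplicit false
open Cfsg

namespace Cfsg.Agent.S3797

/-- Let G be a finite solvable group of even order whose Sylow 2-subgroups contain more than one involution, and suppose all involutions of G are conjugate. Then G has 2-length at most 1, and a Sylow 2-subgroup S of G is either homocyclic (a direct product of cyclic groups of one common order) or a non-abelian 2-group with more than one involution admitting a solvable group of automorphisms transitive on its involutions. -/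
theorem result {G : Type*} [Group G] [Finite G] (hG : Group.IsSolvable G) (heven : Even (Nat.card G)) (S : Sylow 2 G) (htwo : ∃ x y : G, x ∈ (S : Subgroup G) ∧ y ∈ (S : Subgroup G) ∧ x ≠ y ∧ x ≠ 1 ∧ x ^ 2 = 1 ∧ y ≠ 1 ∧ y ^ 2 = 1) (hconj : ∀ x y : G, x ≠ 1 → x ^ 2 = 1 → y ≠ 1 → y ^ 2 = 1 → IsConj x y) : Cfsg.PLengthLE 2 1 G ∧ ((∃ m r : ℕ, Nonempty (↥(S : Subgroup G) ≃* (Fin r → Multiplicative (ZMod (2 ^ m))))) ∨ (¬ IsMulCommutative (S : Subgroup G) ∧ ∃ Y : Subgroup (MulAut ↥(S : Subgroup G)), Group.IsSolvable Y ∧ ∀ x y : ↥(S : Subgroup G), x ≠ 1 → x ^ 2 = 1 → y ≠ 1 → y ^ 2 = 1 → ∃ a ∈ Y, a x = y)) := by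
  have htwo' := Cfsg.Agent.Lib.Helper18.TL.comm_invs S htwo
  have hPL := Cfsg.Agent.Lib.Helper18.TL.main_ind (Nat.card G) G rfl hG hconj htwo'
  have hpl := Cfsg.Agent.Lib.Helper18.TL.plength_of_PL_top hPL
  refine ⟨hpl, ?_⟩
  have hf := Cfsg.Agent.Lib.Helper18.TL.fusion hpl S hconj
  obtain ⟨Y, hYs, hYt⟩ := Cfsg.Agent.Lib.Helper18.TL.exists_Y hG S hf
  by_cases hab : IsMulCommutative (S : Subgroup G)
  · left
    refine Cfsg.Agent.Lib.Helper18.TL.homocyclic S.isPGroup' (fun a b => ?_)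
      (fun x y hx hx2 hy hy2 => ?_)
    · exact hab.is_comm.comm a b
    · obtain ⟨a, -, ha⟩ := hYt x y hx hx2 hy hy2
      exact ⟨a, ha⟩
  · right
    exact ⟨hab, Y, hYs, hYt⟩

end Cfsg.Agent.S3797
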