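import Cfsg.Statements.S3798
import Cfsg.Agent.Lib.Helper14.Gy2

set_option autoImplicit false
open Cfsg

namespace Cfsg.Agent.S3798

/-- The Gaschütz–Yen Theorem: let G be a finite p-soluble group, p an odd prime dividing its order, such that the automorphism group of G permutes the subgroups of G of order p transitively. Then G has p-length at most 1. -/
theorem result {G : Type*} [Group G] [Finite G] {p : ℕ} [Fact p.Prime] (hp : p ≠ 2) (hdvd : p ∣ Nat.card G) (hG : Cfsg.IsPSolvable p G) (htrans : ∀ U V : Subgroup G, Nat.card U = p → Nat.card V = p → ∃ a : MulAut G, U.map a.toMonoidHom = V) : Cfsg.PLengthLE p 1 G := by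
  exact Cfsg.Agent.Lib.Helper14.Gy.gy_main hp hG htrans

end Cfsg.Agent.S3798
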