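import Cfsg.Statements.S3950
import Cfsg.Agent.Lib.Helper70.StemTools

set_option autoImplicit false
open Cfsg
open scoped commutatorElement

namespace Cfsg.Agent.S3950

open Cfsg.Agent.Lib.Helper70

/-- A finite product of cyclic groups of pairwise coprime orders is cyclic. -/
theorem isCyclic_pi {ι : Type} [Fintype ι] (n : ι → ℕ) (hcop : Pairwise (Function.onFun Nat.Coprime n)) :
    IsCyclic ((i : ι) → Multiplicative (ZMod (n i))) := by
  let f : Multiplicative (ZMod (∏ i, n i)) →* ((i : ι) → Multiplicative (ZMod (n i))) :=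
    { toFun := fun x i => Multiplicative.ofAdd (ZMod.prodEquivPi n hcop (Multiplicative.toAdd x) i)
      map_one' := by
        funext i
        simp
      map_mul' := by
        intro x y
        funext i
        show Multiplicative.ofAdd (ZMod.prodEquivPi n hcop (Multiplicative.toAdd (x * y)) i) =
          Multiplicative.ofAdd (ZMod.prodEquivPi n hcop (Multiplicative.toAdd x) i) *
            Multiplicative.ofAdd (ZMod.prodEquivPi n hcop (Multiplicative.toAdd y) i)
        rw [toAdd_mul, map_add, Pi.add_apply, ofAdd_add] }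
  apply isCyclic_of_surjective f
  intro y
  obtain ⟨x, hx⟩ := (ZMod.prodEquivPi n hcop).surjective (fun i => Multiplicative.toAdd (y i))
  refine ⟨Multiplicative.ofAdd x, ?_⟩
  funext i
  show Multiplicative.ofAdd (ZMod.prodEquivPi n hcop x i) = y i
  rw [hx]; rfl

/-- the biadditive map built from two additive characters -/
def beta {G : Type*} [CommGroup G] (p : ℕ) (φ ψ : G →* Multiplicative (ZMod p)) : BiAdd G (ZMod p) where
  toFun g h := Multiplicative.toAdd (φ g) * Multiplicative.toAdd (ψ h)
  map_mul_left g g' h := by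
    rw [map_mul, toAdd_mul, add_mul]
  map_mul_right g h h' := by
    rw [map_mul, toAdd_mul, mul_add]

/-- A finite abelian group has trivial Schur multiplier if and only if it is cyclic. -/
theorem result {G : Type*} [CommGroup G] [Finite G] : Cfsg.HasCyclicSchurMultiplier G 1 ↔ IsCyclic G := by
  rw [hasCyclicSchurMultiplier_one_iff]
  constructor
  · intro h
    by_contra hnc
    obtain ⟨ι, _, n, hn, ⟨e⟩⟩ := CommGroup.equiv_prod_multiplicative_zmod_of_finite G
    have hex : ∃ i j, i ≠ j ∧ ¬ Nat.Coprime (n i) (n j) := by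
      by_contra hcon
      push Not at hcon
      apply hnc
      have hc : IsCyclic ((i : ι) → Multiplicative (ZMod (n i))) := isCyclic_pi n (fun i j hij => hcon i j hij)
      exact isCyclic_of_surjective e.symm e.symm.surjective
    obtain ⟨i, j, hij, hnot⟩ := hex
    obtain ⟨p, hp, hpi, hpj⟩ := Nat.Prime.not_coprime_iff_dvd.mp hnot
    have : Fact p.Prime := ⟨hp⟩
    let φ : G →* Multiplicative (ZMod p) :=
      (AddMonoidHom.toMultiplicative (ZMod.castHom hpi (ZMod p)).toAddMonoidHom).comp
        ((Pi.evalMonoidHom (fun i => Multiplicative (ZMod (n i))) i).comp e.toMonoidHom)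
    let ψ : G →* Multiplicative (ZMod p) :=
      (AddMonoidHom.toMultiplicative (ZMod.castHom hpj (ZMod p)).toAddMonoidHom).comp
        ((Pi.evalMonoidHom (fun i => Multiplicative (ZMod (n i))) j).comp e.toMonoidHom)
    classical
    let g : G := e.symm (Pi.mulSingle i (Multiplicative.ofAdd 1))
    let k : G := e.symm (Pi.mulSingle j (Multiplicative.ofAdd 1))
    have hφg : Multiplicative.toAdd (φ g) = 1 := by
      show ZMod.castHom hpi (ZMod p) (Multiplicative.toAdd (e (e.symm (Pi.mulSingle i (Multiplicative.ofAdd 1))) i)) = 1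
      rw [MulEquiv.apply_symm_apply, Pi.mulSingle_eq_same, toAdd_ofAdd, map_one]
    have hψk : Multiplicative.toAdd (ψ k) = 1 := by
      show ZMod.castHom hpj (ZMod p) (Multiplicative.toAdd (e (e.symm (Pi.mulSingle j (Multiplicative.ofAdd 1))) j)) = 1
      rw [MulEquiv.apply_symm_apply, Pi.mulSingle_eq_same, toAdd_ofAdd, map_one]
    have hφk : Multiplicative.toAdd (φ k) = 0 := by
      show ZMod.castHom hpi (ZMod p) (Multiplicative.toAdd (e (e.symm (Pi.mulSingle j (Multiplicative.ofAdd 1))) i)) = 0
      rw [MulEquiv.apply_symm_apply, Pi.mulSingle_eq_of_ne hij, toAdd_one, map_zero]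
    have hstem : Cfsg.IsStemExtension (BExt.proj (beta p φ ψ)) := by
      apply BExt.isStemExtension_proj_zmod p (beta p φ ψ) g k
      show Multiplicative.toAdd (φ g) * Multiplicative.toAdd (ψ k) - Multiplicative.toAdd (φ k) * Multiplicative.toAdd (ψ g) = 1
      rw [hφg, hψk, hφk, zero_mul, mul_one, sub_zero]
    have hker := h (BExt (beta p φ ψ)) (BExt.proj (beta p φ ψ)) hstem
    have hmem : (⟨1, 1⟩ : BExt (beta p φ ψ)) ∈ (BExt.proj (beta p φ ψ)).ker := rfl
    rw [hker, Subgroup.mem_bot] at hmem
    have h01 : (1 : ZMod p) = 0 := congrArg BExt.z hmem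
    exact one_ne_zero h01
  · intro hc Γ _ _ σ hσ
    obtain ⟨hsurj, hcen, hcomm⟩ := hσ
    have hab : ∀ a b : Γ, a * b = b * a :=
      (MonoidHom.isMulCommutative_of_isCyclic_of_ker_le_center σ hcen).is_comm.comm
    rw [eq_bot_iff]
    refine hcomm.trans ?_
    rw [commutator_eq_closure, Subgroup.closure_le]
    rintro _ ⟨a, b, rfl⟩
    rw [SetLike.mem_coe, Subgroup.mem_bot, commutatorElement_def, hab a b]
    group

end Cfsg.Agent.S3950
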