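import Cfsg.Statements.S3951
import Cfsg.Agent.Lib.Helper70.StemTools

set_option autoImplicit false
open Cfsg
open scoped commutatorElement

namespace Cfsg.Agent.S3951

open Cfsg.Agent.Lib.Helper70

/-- the biadditive map `((a, b), (c, d)) ↦ a * d` -/
noncomputable def beta (m n : ℕ) (hnm : n ∣ m) : BiAdd (Multiplicative (ZMod m × ZMod n)) (ZMod n) where
  toFun g h := ZMod.castHom hnm (ZMod n) (Multiplicative.toAdd g).1 * (Multiplicative.toAdd h).2
  map_mul_left g g' h := by
    simp only [toAdd_mul, Prod.fst_add, map_add, add_mul]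
  map_mul_right g h h' := by
    simp only [toAdd_mul, Prod.snd_add, mul_add]

theorem closure_gens (m n : ℕ) [NeZero m] [NeZero n] :
    Subgroup.closure ({Multiplicative.ofAdd ((1 : ZMod m), (0 : ZMod n)), Multiplicative.ofAdd ((0 : ZMod m), (1 : ZMod n))} :
      Set (Multiplicative (ZMod m × ZMod n))) = ⊤ := by
  rw [eq_top_iff]
  intro g _
  have hg : g = (Multiplicative.ofAdd ((1 : ZMod m), (0 : ZMod n))) ^ (Multiplicative.toAdd g).1.val *
      (Multiplicative.ofAdd ((0 : ZMod m), (1 : ZMod n))) ^ (Multiplicative.toAdd g).2.val := by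
    rw [← ofAdd_nsmul, ← ofAdd_nsmul, ← ofAdd_add]
    have h2 : Multiplicative.toAdd g = (Multiplicative.toAdd g).1.val • ((1 : ZMod m), (0 : ZMod n)) +
        (Multiplicative.toAdd g).2.val • ((0 : ZMod m), (1 : ZMod n)) := by
      ext
      · simp
      · simp
    exact congrArg Multiplicative.ofAdd h2
  rw [hg]
  exact Subgroup.mul_mem _ (Subgroup.pow_mem _ (Subgroup.subset_closure (by simp)) _)
    (Subgroup.pow_mem _ (Subgroup.subset_closure (by simp)) _)

/-- For positive integers `m` and `n` with `n` dividing `m`, the Schur multiplier of the abelian group `ZMod m × ZMod n` (written multiplicatively) is cyclic of order `n`. In particular the elementary abelian group of order `p ^ 2` has multiplier of order `p`. -/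
theorem result (m n : ℕ) [NeZero m] [NeZero n] (hnm : n ∣ m) : Cfsg.HasCyclicSchurMultiplier (Multiplicative (ZMod m × ZMod n)) n := by
  refine ⟨?_, ?_⟩
  · refine ⟨BExt (beta m n hnm), inferInstance, inferInstance, BExt.proj (beta m n hnm), ?_, ⟨BExt.kerEquiv (beta m n hnm)⟩⟩
    apply BExt.isStemExtension_proj_zmod n (beta m n hnm) (Multiplicative.ofAdd ((1 : ZMod m), (0 : ZMod n)))
      (Multiplicative.ofAdd ((0 : ZMod m), (1 : ZMod n)))
    show ZMod.castHom hnm (ZMod n) 1 * 1 - ZMod.castHom hnm (ZMod n) 0 * 0 = 1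
    rw [map_one, map_zero, mul_one, mul_zero, sub_zero]
  · intro Γ _ _ σ hσ
    obtain ⟨hsurj, hcen, hcomm⟩ := hσ
    obtain ⟨x, hx⟩ := hsurj (Multiplicative.ofAdd ((1 : ZMod m), (0 : ZMod n)))
    obtain ⟨y, hy⟩ := hsurj (Multiplicative.ofAdd ((0 : ZMod m), (1 : ZMod n)))
    have hgen : Subgroup.closure (({x, y} : Set Γ) ∪ (σ.ker : Set Γ)) = ⊤ := by
      apply closure_union_ker_eq_top
      rw [hx, hy]; exact closure_gens m n
    have hck : ⁅x, y⁆ ∈ σ.ker := by
      rw [MonoidHom.mem_ker, map_commutatorElement, commutatorElement_def]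
      rw [mul_comm (σ x) (σ y)]; group
    have hcc : ⁅x, y⁆ ∈ Subgroup.center Γ := hcen hck
    have hnormal : (Subgroup.zpowers ⁅x, y⁆).Normal :=
      normal_of_le_center _ (by rw [Subgroup.zpowers_le]; exact hcc)
    have hle := commutator_le_of_gen σ.ker hcen x y hgen (Subgroup.zpowers ⁅x, y⁆) (Subgroup.mem_zpowers _)
    have hpow : ⁅x, y⁆ ^ n = 1 := by
      apply central_commutator_pow_eq_one x y hcc n
      have : y ^ n ∈ σ.ker := by
        rw [MonoidHom.mem_ker, map_pow, hy, ← ofAdd_nsmul]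
        apply congrArg Multiplicative.ofAdd
        ext <;> simp
      exact Subgroup.mem_center_iff.mp (hcen this) x
    apply surj_ker_of_le_zpowers σ ⁅x, y⁆ n 1 n (hcomm.trans hle) hpow ?_ (by omega)
    rw [orderOf_eq_one_iff]
    exact hck

end Cfsg.Agent.S3951
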