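import Cfsg.Statements.S3952
import Cfsg.Agent.Lib.Helper70.MonomialRep2

set_option autoImplicit false
open Cfsg

namespace Cfsg.Agent.S3952

open Cfsg.Agent.Lib.Helper70

/-- If `A` is the Schur multiplier of the finite group `Q`, then the square of the exponent of `A` divides the order of `Q`. -/
theorem result {Q : Type*} [Group Q] [Finite Q] {A : Type*} [CommGroup A] (hA : Cfsg.HasSchurMultiplier Q A) : Monoid.exponent A ^ 2 ∣ Nat.card Q := by
  classical
  obtain ⟨⟨Γ, _, _, σ, ⟨hσs, hσc, hσk⟩, ⟨e⟩⟩, -⟩ := hA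
  let _ : CommGroup σ.ker :=
    { (inferInstance : Group σ.ker) with
      mul_comm := fun a b => Subtype.ext (Subgroup.mem_center_iff.mp (hσc b.2) a) }
  have hne : NeZero ((Monoid.exponent σ.ker : ℕ) : ℂ) :=
    ⟨Nat.cast_ne_zero.mpr Monoid.exponent_ne_zero_of_finite⟩
  obtain ⟨e'⟩ := CommGroup.monoidHom_mulEquiv_of_hasEnoughRootsOfUnity σ.ker ℂ
  have hex : Monoid.exponent (σ.ker →* ℂˣ) = Monoid.exponent A := by
    rw [Monoid.exponent_eq_of_mulEquiv e', Monoid.exponent_eq_of_mulEquiv e]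
  have hfin : Finite (σ.ker →* ℂˣ) := Finite.of_equiv _ e'.symm.toEquiv
  have hexists : Monoid.ExponentExists (σ.ker →* ℂˣ) := by
    refine ⟨Nat.card (σ.ker →* ℂˣ), Nat.card_pos, fun g => ?_⟩
    exact pow_card_eq_one'
  obtain ⟨lam, hlam⟩ := Monoid.exists_orderOf_eq_exponent (G := σ.ker →* ℂˣ) hexists
  obtain ⟨n, ⟨eq⟩⟩ := Finite.exists_equiv_fin Q
  choose s hs using hσs
  have ht : Function.Bijective (fun i => σ (s (eq.symm i))) := by
    have : (fun i => σ (s (eq.symm i))) = eq.symm := by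
      funext i
      exact hs _
    rw [this]
    exact eq.symm.bijective
  obtain ⟨N, d, ρ, hsum, hρ⟩ := exists_blocks σ hσc lam (fun i => s (eq.symm i)) ht
  have hn : Nat.card Q = n := by
    rw [Nat.card_congr eq, Nat.card_fin]
  rw [hn, hsum]
  apply Finset.dvd_sum
  intro i _
  apply pow_dvd_pow_of_dvd
  rw [← hex, ← hlam]
  apply orderOf_dvd_of_pow_eq_one
  ext z
  have h1 : (Matrix.GeneralLinearGroup.det.comp (ρ i)) (z : Γ) = 1 :=
    Abelianization.commutator_subset_ker (Matrix.GeneralLinearGroup.det.comp (ρ i)) (hσk z.2)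
  have h2 : ((Matrix.GeneralLinearGroup.det (ρ i (z : Γ)) : ℂˣ) : ℂ) = ((lam z : ℂˣ) : ℂ) ^ d i := by
    show Matrix.det ((ρ i (z : Γ) : GL (Fin (d i)) ℂ) : Matrix (Fin (d i)) (Fin (d i)) ℂ) = _
    rw [hρ i z z.2, Matrix.det_smul, Matrix.det_one, mul_one, Fintype.card_fin]
  have h3 : ((Matrix.GeneralLinearGroup.det (ρ i (z : Γ)) : ℂˣ) : ℂ) = 1 := by
    have : Matrix.GeneralLinearGroup.det (ρ i (z : Γ)) = 1 := h1
    rw [this]
    rfl
  show (((lam ^ d i) z : ℂˣ) : ℂ) = ((1 : ℂˣ) : ℂ)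
  rw [MonoidHom.pow_apply, Units.val_pow_eq_pow_val, ← h2, h3]
  rfl

end Cfsg.Agent.S3952
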