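import Cfsg.Statements.S3954
import Cfsg.Agent.Lib.Helper70.SchurTransfer

set_option autoImplicit false
open Cfsg

namespace Cfsg.Agent.S3954

open Cfsg.Agent.Lib.Helper70

/-- Let `U` be a subgroup of index `m` in the finite group `G`, let `A` be the Schur multiplier of `G` and `B` that of `U`. Then the subgroup of `m`-th powers of `A` is isomorphic to a subgroup of `B`. -/
theorem result {G : Type*} [Group G] [Finite G] (U : Subgroup G) {A B : Type*} [CommGroup A] [CommGroup B] (hA : Cfsg.HasSchurMultiplier G A) (hB : Cfsg.HasSchurMultiplier U B) : ∃ C : Subgroup B, Nonempty ((powMonoidHom U.index : A →* A).range ≃* C) := by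
  classical
  obtain ⟨⟨Γ, _, _, σ, ⟨hσs, hσc, hσk⟩, ⟨e⟩⟩, -⟩ := hA
  have hBfin : Finite B := by
    obtain ⟨⟨Γ₂, _, _, σ₂, -, ⟨e₂⟩⟩, -⟩ := hB
    exact Finite.of_equiv _ e₂.toEquiv
  have hidx : (U.comap σ).index = U.index := Subgroup.index_comap_of_surjective U hσs
  have hσUs : Function.Surjective (σ.subgroupComap U) :=
    σ.subgroupComap_surjective_of_surjective U hσs
  have hkerU : ∀ x : U.comap σ, x ∈ (σ.subgroupComap U).ker ↔ (x : Γ) ∈ σ.ker := by
    intro x
    rw [MonoidHom.mem_ker, MonoidHom.mem_ker]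
    constructor
    · intro h
      exact congrArg Subtype.val h
    · intro h
      exact Subtype.ext h
  have hσUc : (σ.subgroupComap U).ker ≤ Subgroup.center (U.comap σ) := by
    intro x hx
    rw [Subgroup.mem_center_iff]
    intro y
    apply Subtype.ext
    exact Subgroup.mem_center_iff.mp (hσc ((hkerU x).mp hx)) y
  obtain ⟨φ, hφ, h1, h2⟩ := CE.exists_lift_mult (stdPres U) (stdPres_surjective U)
    (σ.subgroupComap U) hσUs hσUc
  obtain ⟨eB⟩ := CE.nonempty_equiv_mult (stdPres U) (stdPres_surjective U) hB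
  let _ : CommGroup ((σ.subgroupComap U).ker ⊓ commutator (U.comap σ) : Subgroup (U.comap σ)) :=
    { (inferInstance : Group ((σ.subgroupComap U).ker ⊓ commutator (U.comap σ) : Subgroup (U.comap σ))) with
      mul_comm := fun a b => Subtype.ext (Subgroup.mem_center_iff.mp (hσUc b.2.1) a) }
  have hπ : Function.Surjective (((φ.comp (CE.mult (stdPres U)).subtype).codRestrict
      ((σ.subgroupComap U).ker ⊓ commutator (U.comap σ)) (fun m => h1 m m.2)).comp eB.toMonoidHom) := by
    rintro ⟨d, hd⟩
    obtain ⟨m, hm, rfl⟩ := h2 d hd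
    refine ⟨eB.symm ⟨m, hm⟩, ?_⟩
    apply Subtype.ext
    show φ ((eB (eB.symm ⟨m, hm⟩) : CE.mult (stdPres U)) : CE (stdPres U)) = φ m
    rw [MulEquiv.apply_symm_apply]
  obtain ⟨f, hf⟩ := exists_injective_of_surjective_finite_comm _ hπ
  -- the inclusion of `ker σ` into `ΓU`
  have hj : ∀ k : σ.ker, (σ.ker.subtype k) ∈ U.comap σ := by
    intro k
    show σ (k : Γ) ∈ U
    rw [MonoidHom.mem_ker.mp k.2]
    exact U.one_mem
  have hι : ∀ a : (powMonoidHom U.index : A →* A).range,
      ((σ.ker.subtype.codRestrict (U.comap σ) hj).comp e.symm.toMonoidHom).comp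
        ((powMonoidHom U.index : A →* A).range.subtype) a ∈
        (σ.subgroupComap U).ker ⊓ commutator (U.comap σ) := by
    rintro ⟨a, b, rfl⟩
    refine ⟨(hkerU _).mpr ?_, ?_⟩
    · exact (e.symm _).2
    · have hz : ((e.symm b : σ.ker) : Γ) ∈ σ.ker := (e.symm b).2
      have hpow : ((e.symm b : σ.ker) : Γ) ^ (U.comap σ).index ∈ U.comap σ := by
        show σ _ ∈ U
        rw [map_pow, MonoidHom.mem_ker.mp hz, one_pow]
        exact U.one_mem
      have := pow_index_mem_commutator_of_central (U.comap σ) (hσc hz) (hσk hz) hpow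
      have heq : (((σ.ker.subtype.codRestrict (U.comap σ) hj).comp e.symm.toMonoidHom).comp
          ((powMonoidHom U.index : A →* A).range.subtype)) ⟨(powMonoidHom U.index) b, ⟨b, rfl⟩⟩ =
          (⟨((e.symm b : σ.ker) : Γ) ^ (U.comap σ).index, hpow⟩ : U.comap σ) := by
        apply Subtype.ext
        show ((e.symm (b ^ U.index) : σ.ker) : Γ) = ((e.symm b : σ.ker) : Γ) ^ (U.comap σ).index
        rw [hidx, map_pow]
        rfl
      exact heq ▸ this
  have hinj : Function.Injective ((((σ.ker.subtype.codRestrict (U.comap σ) hj).comp e.symm.toMonoidHom).comp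
        ((powMonoidHom U.index : A →* A).range.subtype)).codRestrict
        ((σ.subgroupComap U).ker ⊓ commutator (U.comap σ)) hι) := by
    intro a a' h
    have h' := congrArg (fun d : ((σ.subgroupComap U).ker ⊓ commutator (U.comap σ) : Subgroup (U.comap σ)) =>
      ((d : U.comap σ) : Γ)) h
    have h'' : ((e.symm (a : A) : σ.ker) : Γ) = ((e.symm (a' : A) : σ.ker) : Γ) := h'
    exact Subtype.ext (e.symm.injective (Subtype.ext h''))
  have hfinj : Function.Injective (f.comp ((((σ.ker.subtype.codRestrict (U.comap σ) hj).comp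
        e.symm.toMonoidHom).comp ((powMonoidHom U.index : A →* A).range.subtype)).codRestrict
        ((σ.subgroupComap U).ker ⊓ commutator (U.comap σ)) hι)) := hf.comp hinj
  exact ⟨_, ⟨MonoidHom.ofInjective hfinj⟩⟩

end Cfsg.Agent.S3954
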