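import Cfsg.Statements.S3955
import Cfsg.Agent.Lib.Helper70.SchurCE3

set_option autoImplicit false
open Cfsg

namespace Cfsg.Agent.S3955

open Cfsg.Agent.Lib.Helper70

theorem center_divisible (n : ℕ) (z : GL (Fin n) ℂ) (hz : z ∈ Subgroup.center (GL (Fin n) ℂ)) (m : ℕ)
    (hm : 0 < m) : ∃ w ∈ Subgroup.center (GL (Fin n) ℂ), w ^ m = z := by
  rw [Matrix.GeneralLinearGroup.center_eq_range_scalar] at hz ⊢
  obtain ⟨c, rfl⟩ := hz
  obtain ⟨d, hd⟩ := IsAlgClosed.exists_pow_nat_eq (c : ℂ) hm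
  have hd0 : d ≠ 0 := by
    rintro rfl
    rw [zero_pow hm.ne'] at hd
    exact c.ne_zero hd.symm
  refine ⟨Matrix.GeneralLinearGroup.scalar (Fin n) (Units.mk0 d hd0), ⟨_, rfl⟩, ?_⟩
  rw [← map_pow]
  congr 1
  apply Units.ext
  simp [hd]

/-- Let `Q` be a finite group with Schur multiplier `A`, and let `σ : Γ →* Q` be a finite stem extension whose kernel is isomorphic to `A` (a Schur covering group of `Q`). Then every homomorphism `γ` from `Q` to the quotient of `GL n ℂ` by its centre lifts along `σ`: there is a homomorphism `ρ : Γ →* GL n ℂ` which, followed by the quotient map, equals `γ ∘ σ`. -/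
theorem result {Q : Type*} [Group Q] [Finite Q] {A : Type*} [CommGroup A] (hA : Cfsg.HasSchurMultiplier Q A) {Γ : Type*} [Group Γ] [Finite Γ] (σ : Γ →* Q) (hσ : Cfsg.IsStemExtension σ) (hk : Nonempty (σ.ker ≃* A)) (n : ℕ) (γ : Q →* (GL (Fin n) ℂ ⧸ Subgroup.center (GL (Fin n) ℂ))) : ∃ ρ : Γ →* GL (Fin n) ℂ, (QuotientGroup.mk' (Subgroup.center (GL (Fin n) ℂ))).comp ρ = γ.comp σ := by
  have hq : Function.Surjective (QuotientGroup.mk' (Subgroup.center (GL (Fin n) ℂ))) :=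
    QuotientGroup.mk'_surjective _
  have hqker : (QuotientGroup.mk' (Subgroup.center (GL (Fin n) ℂ))).ker ≤ Subgroup.center (GL (Fin n) ℂ) := by
    rw [QuotientGroup.ker_mk']
  have hξ := pb.fst_surjective γ (QuotientGroup.mk' (Subgroup.center (GL (Fin n) ℂ))) hq
  have hξker := pb.ker_fst_le_center γ (QuotientGroup.mk' (Subgroup.center (GL (Fin n) ℂ))) hqker
  have hdisj := pb.commutator_inf_ker_fst_eq_bot hA σ hσ hk
    (pb.fst γ (QuotientGroup.mk' (Subgroup.center (GL (Fin n) ℂ)))) hξ hξker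
  have hpr := pb.fst_surjective σ (pb.fst γ (QuotientGroup.mk' (Subgroup.center (GL (Fin n) ℂ)))) hξ
  -- the matrix component
  have key : ∀ y : pb σ (pb.fst γ (QuotientGroup.mk' (Subgroup.center (GL (Fin n) ℂ)))),
      QuotientGroup.mk' (Subgroup.center (GL (Fin n) ℂ))
        (((pb.snd γ (QuotientGroup.mk' (Subgroup.center (GL (Fin n) ℂ)))).comp
          (pb.snd σ (pb.fst γ (QuotientGroup.mk' (Subgroup.center (GL (Fin n) ℂ)))))) y) =
      γ (σ (pb.fst σ (pb.fst γ (QuotientGroup.mk' (Subgroup.center (GL (Fin n) ℂ)))) y)) := by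
    intro y
    have h1 := pb.comm_apply σ (pb.fst γ (QuotientGroup.mk' (Subgroup.center (GL (Fin n) ℂ)))) y
    have h2 := pb.comm_apply γ (QuotientGroup.mk' (Subgroup.center (GL (Fin n) ℂ)))
      (pb.snd σ (pb.fst γ (QuotientGroup.mk' (Subgroup.center (GL (Fin n) ℂ)))) y)
    rw [MonoidHom.comp_apply]
    exact h2.symm.trans (congrArg γ h1.symm)
  obtain ⟨ρ, hρ⟩ := exists_lift_of_disjoint
    (pb.fst σ (pb.fst γ (QuotientGroup.mk' (Subgroup.center (GL (Fin n) ℂ))))) hpr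
    ((pb.snd γ (QuotientGroup.mk' (Subgroup.center (GL (Fin n) ℂ)))).comp
      (pb.snd σ (pb.fst γ (QuotientGroup.mk' (Subgroup.center (GL (Fin n) ℂ))))))
    (Subgroup.center (GL (Fin n) ℂ)) le_rfl (center_divisible n)
    (by
      intro y hy
      have h3 := key y
      rw [MonoidHom.mem_ker.mp hy, map_one, map_one] at h3
      exact (QuotientGroup.eq_one_iff _).mp h3)
    hdisj
  refine ⟨ρ, ?_⟩
  ext g
  obtain ⟨y, rfl⟩ := hpr g
  obtain ⟨z, hz, hyz⟩ := hρ y
  show QuotientGroup.mk' (Subgroup.center (GL (Fin n) ℂ)) (ρ (pb.fst σ _ y)) = γ (σ (pb.fst σ _ y))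
  have hz1 : QuotientGroup.mk' (Subgroup.center (GL (Fin n) ℂ)) z = 1 :=
    (QuotientGroup.eq_one_iff z).mpr hz
  rw [hyz, map_mul, hz1, mul_one]
  exact key y

end Cfsg.Agent.S3955
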