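import Cfsg.Statements.S3956
import Cfsg.Agent.Lib.Helper70.MonomialRep

set_option autoImplicit false
universe u v
open Cfsg

namespace Cfsg.Agent.S3956

open Cfsg.Agent.Lib.Helper70
open scoped commutatorElement IsMulCommutative

/-- Let `σ : Γ →* Q` be a finite stem extension of the finite group `Q` such that every homomorphism from `Q` to the quotient of `GL n ℂ` by its centre, for every `n`, lifts along `σ` to a homomorphism `Γ →* GL n ℂ`. Then `σ` is a Schur covering group of `Q`: for every finite stem extension `τ : Δ →* Q` with `Δ` in the same universe as `Q`, the kernel of `τ` is a homomorphic image of the kernel of `σ`. -/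
theorem result {Q : Type u} [Group Q] [Finite Q] {Γ : Type v} [Group Γ] [Finite Γ] (σ : Γ →* Q) (hσ : Cfsg.IsStemExtension σ) (hlift : ∀ (n : ℕ) (γ : Q →* (GL (Fin n) ℂ ⧸ Subgroup.center (GL (Fin n) ℂ))), ∃ ρ : Γ →* GL (Fin n) ℂ, (QuotientGroup.mk' (Subgroup.center (GL (Fin n) ℂ))).comp ρ = γ.comp σ) (Δ : Type u) [Group Δ] [Finite Δ] (τ : Δ →* Q) (hτ : Cfsg.IsStemExtension τ) : ∃ π : σ.ker →* τ.ker, Function.Surjective π := by
  obtain ⟨hσs, hσc, hσk⟩ := hσ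
  obtain ⟨hτs, hτc, hτk⟩ := hτ
  apply exists_surj_ker_of_disjoint σ τ (pb.fst σ τ) (pb.snd σ τ) (pb.fst_surjective σ τ hτs)
    (pb.snd_surjective σ τ hσs) (pb.comm σ τ) hσk hτk
  rw [eq_bot_iff]
  rintro y ⟨hy1, hy2⟩
  rw [Subgroup.mem_bot]
  by_contra hne
  have hg : (y : Γ × Δ).1 = 1 := hy2
  have hl : (y : Γ × Δ).2 ∈ τ.ker := by
    have := pb.comm_apply σ τ y
    rw [hg, map_one] at this
    exact this.symm
  have hl1 : (y : Γ × Δ).2 ≠ 1 := by
    intro h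
    apply hne
    exact Subtype.ext (Prod.ext hg h)
  have hcen : (⟨(y : Γ × Δ).2, hτc hl⟩ : Subgroup.center Δ) ≠ 1 := by
    intro h
    exact hl1 (congrArg Subtype.val h)
  have : NeZero ((Monoid.exponent (Subgroup.center Δ) : ℕ) : ℂ) :=
    ⟨Nat.cast_ne_zero.mpr Monoid.exponent_ne_zero_of_finite⟩
  obtain ⟨lam, hlam⟩ := CommGroup.exists_apply_ne_one_of_hasEnoughRootsOfUnity (Subgroup.center Δ) ℂ hcen
  obtain ⟨n, R, hn, hR⟩ := exists_rep_of_central_character τ hτs hτc lam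
  have hker : τ.ker ≤ ((QuotientGroup.mk' (Subgroup.center (GL (Fin n) ℂ))).comp R).ker := by
    intro z hz
    rw [MonoidHom.mem_ker, MonoidHom.comp_apply, hR z hz]
    apply (QuotientGroup.eq_one_iff _).mpr
    rw [Matrix.GeneralLinearGroup.center_eq_range_scalar]
    exact ⟨_, rfl⟩
  have hγ : ∀ d, (MonoidHom.liftOfSurjective τ hτs
      ⟨(QuotientGroup.mk' (Subgroup.center (GL (Fin n) ℂ))).comp R, hker⟩) (τ d) =
      QuotientGroup.mk' (Subgroup.center (GL (Fin n) ℂ)) (R d) := by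
    intro d
    exact MonoidHom.liftOfRightInverse_comp_apply _ _ _ _ d
  obtain ⟨ρ, hρ⟩ := hlift n (MonoidHom.liftOfSurjective τ hτs
      ⟨(QuotientGroup.mk' (Subgroup.center (GL (Fin n) ℂ))).comp R, hker⟩)
  have hfg : ∀ w : pb σ τ, ∃ c ∈ Subgroup.center (GL (Fin n) ℂ),
      R (w : Γ × Δ).2 = ρ (w : Γ × Δ).1 * c := by
    intro w
    refine ⟨(ρ (w : Γ × Δ).1)⁻¹ * R (w : Γ × Δ).2, ?_, by group⟩
    have h1 : QuotientGroup.mk' (Subgroup.center (GL (Fin n) ℂ)) (ρ (w : Γ × Δ).1) = _ :=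
      DFunLike.congr_fun hρ _
    rw [MonoidHom.comp_apply, pb.comm_apply σ τ w, hγ] at h1
    apply (QuotientGroup.eq_one_iff _).mp
    show QuotientGroup.mk' (Subgroup.center (GL (Fin n) ℂ)) ((ρ (w : Γ × Δ).1)⁻¹ * R (w : Γ × Δ).2) = 1
    rw [map_mul, map_inv, h1, inv_mul_cancel]
  have hle : commutator (pb σ τ) ≤ ((R.comp (pb.snd σ τ)).eqLocus (ρ.comp (pb.fst σ τ))) := by
    rw [commutator_eq_closure, Subgroup.closure_le]
    rintro _ ⟨a, b, rfl⟩
    show (R.comp (pb.snd σ τ)) ⁅a, b⁆ = (ρ.comp (pb.fst σ τ)) ⁅a, b⁆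
    rw [map_commutatorElement, map_commutatorElement]
    obtain ⟨ca, hca, ha⟩ := hfg a
    obtain ⟨cb, hcb, hb⟩ := hfg b
    show ⁅R (a : Γ × Δ).2, R (b : Γ × Δ).2⁆ = ⁅ρ (a : Γ × Δ).1, ρ (b : Γ × Δ).1⁆
    rw [ha, hb, commutatorElement_mul_central _ _ _ _ hca hcb]
  have h2 : R (y : Γ × Δ).2 = ρ (y : Γ × Δ).1 := hle hy1
  rw [hg, map_one, hR _ hl] at h2
  apply hlam
  apply Units.ext
  have h3 := congrArg (fun M : GL (Fin n) ℂ => (M : Matrix (Fin n) (Fin n) ℂ) ⟨0, hn⟩ ⟨0, hn⟩) h2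
  simpa using h3

end Cfsg.Agent.S3956
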