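import Cfsg.Statements.S3957
import Cfsg.Agent.Lib.Helper70.SchurCE2

set_option autoImplicit false
universe u v
open Cfsg

namespace Cfsg.Agent.S3957

open Cfsg.Agent.Lib.Helper70

/-- Let `Q` be a finite group with Schur multiplier `A` and let `τ : Δ →* Q` be a finite stem extension, `Δ` in the universe of `Q`. Then there is a finite stem extension `σ : Γ →* Q` with kernel isomorphic to `A` (a Schur covering group) and a surjective homomorphism `β : Γ →* Δ` with `τ ∘ β = σ`. -/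
theorem result {Q : Type u} [Group Q] [Finite Q] {A : Type v} [CommGroup A] (hA : Cfsg.HasSchurMultiplier Q A) {Δ : Type u} [Group Δ] [Finite Δ] (τ : Δ →* Q) (hτ : Cfsg.IsStemExtension τ) : ∃ (Γ : Type u) (_ : Group Γ) (_ : Finite Γ) (σ : Γ →* Q), Cfsg.IsStemExtension σ ∧ Nonempty (σ.ker ≃* A) ∧ ∃ β : Γ →* Δ, Function.Surjective β ∧ τ.comp β = σ := by
  have hp := stdPres_surjective Q
  obtain ⟨e⟩ := CE.nonempty_equiv_mult (stdPres Q) hp hA
  obtain ⟨Γ, i1, i2, σ, h1, ⟨e2⟩, h3⟩ := CE.exists_schur_cover_over (stdPres Q) hp τ hτ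
  exact ⟨Γ, i1, i2, σ, h1, ⟨e2.trans e.symm⟩, h3⟩

end Cfsg.Agent.S3957
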