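import Cfsg.Statements.S3959
import Cfsg.Agent.Lib.Helper70.SchurProd

set_option autoImplicit false
universe u v w
open Cfsg

namespace Cfsg.Agent.S3959

open Cfsg.Agent.Lib.Helper70

/-- Let `Q₁` and `Q₂` be finite groups with Schur multipliers `A` and `B`. Then the Schur multiplier of `Q₁ × Q₂` is isomorphic to `A × B × (Q₁ᵃᵇ ⊗ Q₂ᵃᵇ)`, the last factor being the tensor product over the integers of the commutator quotients, written multiplicatively. -/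
theorem result {Q₁ : Type u} {Q₂ : Type v} [Group Q₁] [Group Q₂] [Finite Q₁] [Finite Q₂] {A B : Type w} [CommGroup A] [CommGroup B] (hA : Cfsg.HasSchurMultiplier Q₁ A) (hB : Cfsg.HasSchurMultiplier Q₂ B) : Cfsg.HasSchurMultiplier (Q₁ × Q₂) (A × B × Multiplicative (TensorProduct ℤ (Additive (Abelianization Q₁)) (Additive (Abelianization Q₂)))) := by
  obtain ⟨Γ₁, _, _, σ₁, ⟨h₁s, h₁c, h₁k⟩, ⟨e₁⟩⟩ := hA.1
  obtain ⟨Γ₂, _, _, σ₂, ⟨h₂s, h₂c, h₂k⟩, ⟨e₂⟩⟩ := hB.1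
  have hfin : Finite (TensorProduct ℤ (Additive (Abelianization Q₁)) (Additive (Abelianization Q₂))) :=
    finite_tensor _ _
  refine ⟨⟨BExt (prodBiAdd σ₁ σ₂), inferInstance, inferInstance, prodProj σ₁ σ₂,
    ⟨prodProj_surjective σ₁ σ₂ h₁s h₂s, ker_prodProj_le_center σ₁ σ₂ h₁c h₂c,
      ker_prodProj_le_commutator σ₁ σ₂ h₁s h₂s h₁k h₂k⟩, ⟨prodKerEquiv σ₁ σ₂ e₁ e₂⟩⟩, ?_⟩
  intro Δ _ _ τ hτ
  exact exists_surj_of_prod_stem hA hB τ hτ

end Cfsg.Agent.S3959
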