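import Cfsg.Statements.S3960
import Cfsg.Agent.Lib.Helper70.SchurCE

set_option autoImplicit false
universe u
open Cfsg
open scoped commutatorElement

namespace Cfsg.Agent.S3960

open Cfsg.Agent.Lib.Helper70

/-- A finite perfect group `Q` has a universal central extension: a finite perfect group `G` in the universe of `Q` and a surjective homomorphism `π : G →* Q` with central kernel such that for every group `X` in that universe and every surjective homomorphism `ξ : X →* Q` with central kernel there is exactly one homomorphism `η : G →* X` with `ξ ∘ η = π`. -/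
theorem result {Q : Type u} [Group Q] [Finite Q] (hQ : Group.IsPerfect Q) : ∃ (G : Type u) (_ : Group G) (_ : Finite G) (π : G →* Q), Group.IsPerfect G ∧ Function.Surjective π ∧ π.ker ≤ Subgroup.center G ∧ ∀ (X : Type u) [Group X] (ξ : X →* Q), Function.Surjective ξ → ξ.ker ≤ Subgroup.center X → ∃! η : G →* X, ξ.comp η = π := by
  have hp := stdPres_surjective Q
  have hperf := CE.isPerfect_commutator (stdPres Q) hQ hp
  refine ⟨commutator (CE (stdPres Q)), inferInstance, CE.finite_commutator (stdPres Q) hp, CE.projC (stdPres Q),
    hperf, CE.projC_surjective (stdPres Q) hQ hp, CE.ker_projC_le_center (stdPres Q), ?_⟩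
  intro X _ ξ hξ hker
  obtain ⟨η, hη⟩ := CE.exists_liftC (stdPres Q) (MonoidHom.id Q) ξ hξ hker
  refine ⟨η, hη, ?_⟩
  intro η' hη'
  apply hom_eq_of_perfect hperf
  intro g
  apply hker
  rw [MonoidHom.mem_ker, map_mul, map_inv]
  have h1 : ξ (η' g) = CE.projC (stdPres Q) g := DFunLike.congr_fun hη' g
  have h2 : ξ (η g) = CE.projC (stdPres Q) g := DFunLike.congr_fun hη g
  rw [h1, h2, mul_inv_cancel]

end Cfsg.Agent.S3960
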