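import Cfsg.Statements.S3961
import Cfsg.Agent.Lib.Helper70.SchurCE
import Cfsg.Agent.Lib.Helper70.StemTools

set_option autoImplicit false
universe u v
open Cfsg
open scoped commutatorElement

namespace Cfsg.Agent.S3961

open Cfsg.Agent.Lib.Helper70

/-- Let `π : G →* Q` be a surjective homomorphism with central kernel from a finite perfect group `G` (a perfect cover of `Q`). Then `π` is universal, in the sense that every surjective homomorphism `ξ : X →* Q` with central kernel from a group `X` in the universe of `G` admits a homomorphism `η : G →* X` with `ξ ∘ η = π`, if and only if `G` has trivial Schur multiplier. -/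
theorem result {G : Type u} {Q : Type v} [Group G] [Group Q] [Finite G] (hG : Group.IsPerfect G) (π : G →* Q) (hπ : Function.Surjective π) (hker : π.ker ≤ Subgroup.center G) : (∀ (X : Type u) [Group X] (ξ : X →* Q), Function.Surjective ξ → ξ.ker ≤ Subgroup.center X → ∃ η : G →* X, ξ.comp η = π) ↔ Cfsg.HasCyclicSchurMultiplier G 1 := by
  rw [hasCyclicSchurMultiplier_one_iff]
  constructor
  · intro h Δ _ _ τ hτ
    have hΔ : Group.IsPerfect Δ := isPerfect_of_stem hG τ hτ
    obtain ⟨hsurj, hcen, hcomm⟩ := hτ
    have hξker : (π.comp τ).ker ≤ Subgroup.center Δ := by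
      intro x hx
      apply mem_center_of_commutators_central hΔ
      intro y
      apply hcen
      rw [MonoidHom.mem_ker, map_commutatorElement, commutatorElement_def]
      have hx' : τ x ∈ Subgroup.center G := hker hx
      have := Subgroup.mem_center_iff.mp hx' (τ y)
      rw [← this]; group
    obtain ⟨η, hη⟩ := h Δ (π.comp τ) (hπ.comp hsurj) hξker
    have hτη : τ.comp η = MonoidHom.id G := by
      apply hom_eq_of_perfect hG
      intro g
      apply hker
      rw [MonoidHom.mem_ker, map_mul, map_inv]
      have : π (τ (η g)) = π g := DFunLike.congr_fun hη g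
      show π (τ (η g)) * (π g)⁻¹ = 1
      rw [this, mul_inv_cancel]
    have hτη' : ∀ g, τ (η g) = g := fun g => DFunLike.congr_fun hτη g
    rw [eq_bot_iff]
    intro k hk
    have h1 : commutator Δ ≤ ⁅η.range, η.range⁆ := by
      apply commutator_le_of_central_supplement
      intro x
      refine ⟨η (τ x), ⟨τ x, rfl⟩, (η (τ x))⁻¹ * x, ?_, by group⟩
      apply hcen
      rw [MonoidHom.mem_ker, map_mul, map_inv, hτη', inv_mul_cancel]
    have h2 : ⁅η.range, η.range⁆ ≤ η.range := by
      rw [Subgroup.commutator_le]
      intro a ha b hb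
      rw [commutatorElement_def]
      exact Subgroup.mul_mem _ (Subgroup.mul_mem _ (Subgroup.mul_mem _ ha hb) (Subgroup.inv_mem _ ha))
        (Subgroup.inv_mem _ hb)
    obtain ⟨g, rfl⟩ := h2 (h1 (hcomm hk))
    rw [MonoidHom.mem_ker, hτη'] at hk
    rw [hk, map_one, Subgroup.mem_bot]
  · intro h X _ ξ hξ hξker
    have hp := stdPres_surjective G
    have hfin : Finite (commutator (CE (stdPres G))) := CE.finite_commutator (stdPres G) hp
    have hker0 := h (commutator (CE (stdPres G))) (CE.projC (stdPres G)) (CE.isStemExtension_projC (stdPres G) hG hp)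
    have hinj : Function.Injective (CE.projC (stdPres G)) := (MonoidHom.ker_eq_bot_iff _).mp hker0
    let e : commutator (CE (stdPres G)) ≃* G :=
      MulEquiv.ofBijective (CE.projC (stdPres G)) ⟨hinj, CE.projC_surjective (stdPres G) hG hp⟩
    obtain ⟨η, hη⟩ := CE.exists_liftC (stdPres G) π ξ hξ hξker
    refine ⟨η.comp e.symm.toMonoidHom, ?_⟩
    ext g
    have h1 : ξ (η (e.symm g)) = π (CE.projC (stdPres G) (e.symm g)) := DFunLike.congr_fun hη (e.symm g)
    have h2 : CE.projC (stdPres G) (e.symm g) = g := e.apply_symm_apply g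
    show ξ (η (e.symm g)) = π g
    rw [h1, h2]

end Cfsg.Agent.S3961
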