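import Cfsg.Statements.S3962
import Mathlib

set_option autoImplicit false
open Cfsg
open scoped commutatorElement

namespace Cfsg.Agent.S3962

/-- If `G` is perfect and every commutator `g h g⁻¹ h⁻¹` (`g` fixed) is central, then `g` is central. -/
theorem central_of_comm_central {G : Type*} [Group G] (hG : Group.IsPerfect G) (g : G)
    (hc : ∀ h : G, g * h * g⁻¹ * h⁻¹ ∈ Subgroup.center G) : g ∈ Subgroup.center G := by
  let c : G →* G := MonoidHom.mk' (fun h => g * h * g⁻¹ * h⁻¹) (by
    intro a b
    show g * (a * b) * g⁻¹ * (a * b)⁻¹ = (g * a * g⁻¹ * a⁻¹) * (g * b * g⁻¹ * b⁻¹)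
    have : g * (a * b) * g⁻¹ * (a * b)⁻¹ = g * a * g⁻¹ * a⁻¹ * (a * (g * b * g⁻¹ * b⁻¹) * a⁻¹) := by
      group
    rw [this]
    have h2 : a * (g * b * g⁻¹ * b⁻¹) * a⁻¹ = g * b * g⁻¹ * b⁻¹ := by
      have := Subgroup.mem_center_iff.mp (hc b) a
      rw [this]; group
    rw [h2])
  have hcapp : ∀ h, c h = g * h * g⁻¹ * h⁻¹ := fun h => rfl
  have hker : c.ker = ⊤ := by
    have h1 : commutator G ≤ c.ker := by
      rw [commutator_eq_closure, Subgroup.closure_le]
      rintro x ⟨p, q, rfl⟩
      show ⁅p, q⁆ ∈ c.ker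
      rw [MonoidHom.mem_ker, map_commutatorElement, commutatorElement_def]
      have hp : c p ∈ Subgroup.center G := hc p
      have := Subgroup.mem_center_iff.mp hp (c q)
      rw [← this]; group
    rw [hG.commutator_eq_top] at h1
    exact top_le_iff.mp h1
  rw [Subgroup.mem_center_iff]
  intro h
  have hh : h ∈ c.ker := by rw [hker]; trivial
  rw [MonoidHom.mem_ker, hcapp] at hh
  have : g * h = (g * h * g⁻¹ * h⁻¹) * (h * g) := by group
  rw [this, hh, one_mul]

/-- Let `G` be a perfect group and `π : G →* Q` a surjective homomorphism whose kernel is central. Then `π` maps the centre of `G` onto the centre of `Q`. Taking `π` to be the map to `G ⧸ Z(G)` shows that the central quotient of a perfect group has trivial centre. -/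
theorem result {G Q : Type*} [Group G] [Group Q] (hG : Group.IsPerfect G) (π : G →* Q) (hπ : Function.Surjective π) (hker : π.ker ≤ Subgroup.center G) : (Subgroup.center G).map π = Subgroup.center Q := by
  apply le_antisymm
  · rintro _ ⟨z, hz, rfl⟩
    rw [Subgroup.mem_center_iff]
    intro q
    obtain ⟨h, rfl⟩ := hπ q
    rw [← map_mul, ← map_mul, Subgroup.mem_center_iff.mp hz h]
  · intro q hq
    obtain ⟨g, rfl⟩ := hπ q
    refine ⟨g, ?_, rfl⟩
    apply central_of_comm_central hG
    intro h
    apply hker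
    rw [MonoidHom.mem_ker]
    have := Subgroup.mem_center_iff.mp hq (π h)
    simp only [map_mul, map_inv]
    rw [← this]
    group

end Cfsg.Agent.S3962
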