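import Cfsg.Statements.S3964
import Cfsg.Agent.Lib.Helper70.StemTools

set_option autoImplicit false
open Cfsg
open scoped commutatorElement

namespace Cfsg.Agent.S3964

open Cfsg.Agent.Lib.Helper70 DihedralGroup

theorem closure_gens (n : ℕ) : Subgroup.closure ({r 1, sr 0} : Set (DihedralGroup n)) = ⊤ := by
  rw [eq_top_iff]
  rintro (i | i) -
  · have h : (r i : DihedralGroup n) = (r 1) ^ (i.cast : ℤ) := by
      rw [r_one_zpow, ZMod.intCast_cast, ZMod.cast_id', id]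
    rw [h]
    exact Subgroup.zpow_mem _ (Subgroup.subset_closure (by simp)) _
  · have h : (sr i : DihedralGroup n) = sr 0 * (r 1) ^ (i.cast : ℤ) := by
      rw [r_one_zpow, ZMod.intCast_cast, ZMod.cast_id', id, sr_mul_r, zero_add]
    rw [h]
    exact Subgroup.mul_mem _ (Subgroup.subset_closure (by simp))
      (Subgroup.zpow_mem _ (Subgroup.subset_closure (by simp)) _)

/-- For odd `n` the dihedral group of order `2 n` has trivial Schur multiplier. -/
theorem result (n : ℕ) (hn : Odd n) : Cfsg.HasCyclicSchurMultiplier (DihedralGroup n) 1 := by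
  have : NeZero n := ⟨hn.pos.ne'⟩
  rw [hasCyclicSchurMultiplier_one_iff]
  intro Γ _ _ σ hσ
  obtain ⟨hsurj, hcen, hcomm⟩ := hσ
  obtain ⟨ρ, hρ⟩ := hsurj (r 1)
  obtain ⟨ξ, hξ⟩ := hsurj (sr 0)
  have hgen : Subgroup.closure (({ρ, ξ} : Set Γ) ∪ (σ.ker : Set Γ)) = ⊤ := by
    apply closure_union_ker_eq_top
    rw [hρ, hξ]; exact closure_gens n
  have h2 : ξ * ρ * ξ⁻¹ * ρ ∈ σ.ker := by
    rw [MonoidHom.mem_ker]
    simp [hρ, hξ]
  have h3 : Commute (ξ * ξ) ρ := by
    have : ξ * ξ ∈ σ.ker := by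
      rw [MonoidHom.mem_ker]
      simp [hξ]
    exact (Subgroup.mem_center_iff.mp (hcen this) ρ).symm
  have hle := commutator_le_zpowers_of_dihedral_type σ.ker hcen ρ ξ hgen h2 h3
  have hpow : ⁅ρ, ξ⁆ ^ n = 1 := by
    apply dihedral_type_pow_eq_one σ.ker hcen ρ ξ h2 n
    have : ρ ^ n ∈ σ.ker := by
      rw [MonoidHom.mem_ker, map_pow, hρ, r_one_pow_n]
    exact Subgroup.mem_center_iff.mp (hcen this) ξ
  apply ker_eq_bot_of_le_zpowers σ ⁅ρ, ξ⁆ n (hcomm.trans hle) hpow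
  have hc : σ ⁅ρ, ξ⁆ = (r 1) ^ 2 := by
    rw [map_commutatorElement, hρ, hξ, commutatorElement_def]
    simp [pow_two]
  rw [hc, orderOf_pow, orderOf_r_one]
  have : Nat.gcd n 2 = 1 := Nat.coprime_two_right.mpr hn
  rw [this, Nat.div_one]

end Cfsg.Agent.S3964
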