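import Cfsg.Statements.S3966
import Mathlib

set_option autoImplicit false
open Cfsg
open scoped commutatorElement

namespace Cfsg.Agent.S3966

/-- reduction `ZMod (2n) → ZMod n` -/
noncomputable def red (n : ℕ) : ZMod (2 * n) →+* ZMod n :=
  ZMod.castHom (Dvd.intro_left 2 rfl : n ∣ 2 * n) (ZMod n)

theorem red_n (n : ℕ) : red n (n : ZMod (2 * n)) = 0 := by
  rw [map_natCast]; exact ZMod.natCast_self n

/-- the map from the dicyclic group to the dihedral group -/
noncomputable def sigmaFun (n : ℕ) : QuaternionGroup n → DihedralGroup n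
  | QuaternionGroup.a i => DihedralGroup.r (red n i)
  | QuaternionGroup.xa i => DihedralGroup.sr (red n i)

noncomputable def sigma (n : ℕ) : QuaternionGroup n →* DihedralGroup n :=
  MonoidHom.mk' (sigmaFun n) (by
    rintro (i | i) (j | j)
    · show sigmaFun n (QuaternionGroup.a (i + j)) = _
      simp [sigmaFun]
    · show sigmaFun n (QuaternionGroup.xa (j - i)) = _
      simp [sigmaFun]
    · show sigmaFun n (QuaternionGroup.xa (i + j)) = _
      simp [sigmaFun]
    · show sigmaFun n (QuaternionGroup.a (n + j - i)) = _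
      simp [sigmaFun])

theorem sigma_a (n : ℕ) (i : ZMod (2 * n)) : sigma n (QuaternionGroup.a i) = DihedralGroup.r (red n i) := rfl
theorem sigma_xa (n : ℕ) (i : ZMod (2 * n)) : sigma n (QuaternionGroup.xa i) = DihedralGroup.sr (red n i) := rfl

theorem sigma_surj (n : ℕ) : Function.Surjective (sigma n) := by
  rintro (k | k)
  · obtain ⟨i, rfl⟩ := ZMod.ringHom_surjective (red n) k
    exact ⟨QuaternionGroup.a i, rfl⟩
  · obtain ⟨i, rfl⟩ := ZMod.ringHom_surjective (red n) k
    exact ⟨QuaternionGroup.xa i, rfl⟩

theorem mem_ker_iff (n : ℕ) [NeZero n] (x : QuaternionGroup n) :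
    x ∈ (sigma n).ker ↔ ∃ k : ℕ, x = QuaternionGroup.a ((n * k : ℕ) : ZMod (2 * n)) := by
  rw [MonoidHom.mem_ker]
  constructor
  · intro h
    rcases x with i | i
    · rw [sigma_a, DihedralGroup.one_def] at h
      have h0 : red n i = 0 := by
        injection h
      have h1 : ((i.val : ℕ) : ZMod n) = 0 := by
        rw [← h0, red, ZMod.castHom_apply, ZMod.natCast_val]
      obtain ⟨k, hk⟩ := (ZMod.natCast_eq_zero_iff _ _).mp h1
      refine ⟨k, ?_⟩
      rw [← hk, ZMod.natCast_val, ZMod.cast_id', id]
    · rw [sigma_xa, DihedralGroup.one_def] at h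
      cases h
  · rintro ⟨k, rfl⟩
    rw [sigma_a, map_natCast, DihedralGroup.one_def]
    congr 1
    rw [Nat.cast_mul, ZMod.natCast_self, zero_mul]

/-- For even `n ≥ 2` the dicyclic group of order `4 n` is a stem extension of the dihedral group of order `2 n` with kernel of order `2`: there is a surjective homomorphism `QuaternionGroup n →* DihedralGroup n` whose kernel is central, lies in the commutator subgroup and has two elements. Together with the order of the multiplier this exhibits the dicyclic group as a Schur covering group of the dihedral group. -/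
theorem result (n : ℕ) [NeZero n] (hn : Even n) : ∃ σ : QuaternionGroup n →* DihedralGroup n, Cfsg.IsStemExtension σ ∧ Nat.card σ.ker = 2 := by
  refine ⟨sigma n, ⟨sigma_surj n, ?_, ?_⟩, ?_⟩
  · -- central
    intro x hx
    obtain ⟨k, rfl⟩ := (mem_ker_iff n x).mp hx
    rw [Subgroup.mem_center_iff]
    have h2 : (((n * k : ℕ) : ZMod (2 * n))) + ((n * k : ℕ) : ZMod (2 * n)) = 0 := by
      rw [← Nat.cast_add, ZMod.natCast_eq_zero_iff]
      exact ⟨k, by ring⟩
    rintro (j | j)
    · simp [add_comm]
    · simp only [QuaternionGroup.xa_mul_a, QuaternionGroup.a_mul_xa]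
      congr 1
      have : (((n * k : ℕ) : ZMod (2 * n))) = - ((n * k : ℕ) : ZMod (2 * n)) := eq_neg_of_add_eq_zero_left h2
      rw [sub_eq_add_neg, ← this]
  · -- in the commutator subgroup
    intro x hx
    obtain ⟨k, rfl⟩ := (mem_ker_iff n x).mp hx
    obtain ⟨m, hm⟩ := hn
    have hcomm : ∀ j : ZMod (2 * n), (QuaternionGroup.a (j + j) : QuaternionGroup n) ∈ commutator (QuaternionGroup n) := by
      intro j
      have h1 : ⁅(QuaternionGroup.a j : QuaternionGroup n), QuaternionGroup.xa 0⁆ = QuaternionGroup.a (j + j) := by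
        rw [commutatorElement_def]
        have hinv1 : (QuaternionGroup.a j : QuaternionGroup n)⁻¹ = QuaternionGroup.a (-j) := rfl
        have hinv2 : (QuaternionGroup.xa 0 : QuaternionGroup n)⁻¹ = QuaternionGroup.xa (n + 0) := rfl
        rw [hinv1, hinv2]
        simp only [QuaternionGroup.a_mul_xa, QuaternionGroup.xa_mul_a, QuaternionGroup.xa_mul_xa]
        congr 1
        have h2n : ((n : ZMod (2 * n)) + n) = 0 := by
          rw [← Nat.cast_add, ZMod.natCast_eq_zero_iff]
          exact ⟨1, by ring⟩
        linear_combination h2n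
      rw [← h1]
      exact Subgroup.commutator_mem_commutator (Subgroup.mem_top _) (Subgroup.mem_top _)
    have : ((n * k : ℕ) : ZMod (2 * n)) = ((m * k : ℕ) : ZMod (2 * n)) + ((m * k : ℕ) : ZMod (2 * n)) := by
      rw [← Nat.cast_add]; congr 1; rw [hm]; ring
    rw [this]
    exact hcomm _
  · -- the kernel has two elements
    have h1 := Subgroup.card_mul_index (sigma n).ker
    rw [Subgroup.index_ker, MonoidHom.range_eq_top.mpr (sigma_surj n)] at h1
    have h2 : Nat.card (⊤ : Subgroup (DihedralGroup n)) = 2 * n := by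
      rw [Subgroup.card_top, DihedralGroup.nat_card]
    have h3 : Nat.card (QuaternionGroup n) = 4 * n := by
      rw [Nat.card_eq_fintype_card, QuaternionGroup.card]
    rw [h2, h3] at h1
    have hn0 : 0 < n := Nat.pos_of_ne_zero (NeZero.ne n)
    have : Nat.card (sigma n).ker * (2 * n) = 2 * (2 * n) := by rw [h1]; ring
    exact Nat.eq_of_mul_eq_mul_right (by omega) this

end Cfsg.Agent.S3966
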