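import Cfsg.Statements.S3965
import Cfsg.Agent.Lib.Helper70.StemTools
import Cfsg.Agent.S3964
import Cfsg.Agent.S3966

set_option autoImplicit false
open Cfsg
open scoped commutatorElement

namespace Cfsg.Agent.S3965

open Cfsg.Agent.Lib.Helper70 DihedralGroup

/-- For even `n ≥ 2` the dihedral group of order `2 n` has Schur multiplier cyclic of order `2`. -/
theorem result (n : ℕ) [NeZero n] (hn : Even n) : Cfsg.HasCyclicSchurMultiplier (DihedralGroup n) 2 := by
  refine ⟨?_, ?_⟩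
  · obtain ⟨σ, hσ, hcard⟩ := Cfsg.Agent.S3966.result n hn
    have : Fact (Nat.Prime 2) := ⟨Nat.prime_two⟩
    refine ⟨QuaternionGroup n, inferInstance, inferInstance, σ, hσ, ⟨mulEquivOfPrimeCardEq (p := 2) hcard ?_⟩⟩
    rw [Nat.card_eq_fintype_card, Fintype.card_multiplicative, ZMod.card]
  · intro Γ _ _ σ hσ
    obtain ⟨hsurj, hcen, hcomm⟩ := hσ
    obtain ⟨ρ, hρ⟩ := hsurj (r 1)
    obtain ⟨ξ, hξ⟩ := hsurj (sr 0)
    have hgen : Subgroup.closure (({ρ, ξ} : Set Γ) ∪ (σ.ker : Set Γ)) = ⊤ := by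
      apply closure_union_ker_eq_top
      rw [hρ, hξ]; exact Cfsg.Agent.S3964.closure_gens n
    have h2 : ξ * ρ * ξ⁻¹ * ρ ∈ σ.ker := by
      rw [MonoidHom.mem_ker]
      simp [hρ, hξ]
    have h3 : Commute (ξ * ξ) ρ := by
      have : ξ * ξ ∈ σ.ker := by
        rw [MonoidHom.mem_ker]
        simp [hξ]
      exact (Subgroup.mem_center_iff.mp (hcen this) ρ).symm
    have hle := commutator_le_zpowers_of_dihedral_type σ.ker hcen ρ ξ hgen h2 h3
    have hpow : ⁅ρ, ξ⁆ ^ n = 1 := by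
      apply dihedral_type_pow_eq_one σ.ker hcen ρ ξ h2 n
      have : ρ ^ n ∈ σ.ker := by
        rw [MonoidHom.mem_ker, map_pow, hρ, r_one_pow_n]
      exact Subgroup.mem_center_iff.mp (hcen this) ξ
    obtain ⟨m, hm⟩ := hn
    apply surj_ker_of_le_zpowers σ ⁅ρ, ξ⁆ n m 2 (hcomm.trans hle) hpow ?_ (by omega)
    have hc : σ ⁅ρ, ξ⁆ = (r 1) ^ 2 := by
      rw [map_commutatorElement, hρ, hξ, commutatorElement_def]
      simp [pow_two]
    rw [hc, orderOf_pow, orderOf_r_one]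
    have h2' : Nat.gcd n 2 = 2 := Nat.gcd_eq_right ⟨m, by omega⟩
    rw [h2']
    omega

end Cfsg.Agent.S3965
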