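import Cfsg.Statements.S3968
import Cfsg.Agent.Lib.Helper4.CharClosure
import Cfsg.Agent.Lib.Helper80.Schur

set_option autoImplicit false
open Cfsg

namespace Cfsg.Agent.S3968

open Cfsg.Agent.Lib.Helper4 Cfsg.Agent.Lib.Helper80
open scoped ComplexConjugate

/-- Let `p` be a prime and `G` a finite group with a faithful irreducible complex character of degree `p` (so `G` is an irreducible linear group in `p` variables). If `p ^ 2` divides the order of `G`, then the centre of `G` is nontrivial. -/
theorem result {G : Type*} [Group G] [Finite G] (p : ℕ) (hp : p.Prime) (χ : Cfsg.IrrCharacter G) (hdeg : χ.1 1 = p) (hfaith : ∀ g : G, χ.1 g = χ.1 1 → g = 1) (hdiv : p ^ 2 ∣ Nat.card G) : Subgroup.center G ≠ ⊥ := by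
  classical
  have : Fact p.Prime := ⟨hp⟩
  let _ : Fintype G := Fintype.ofFinite G
  obtain ⟨n, ρ, hρ, hχ⟩ := χ.2
  have hd : Module.finrank ℂ (Fin n → ℂ) = n := by simp
  have hn : n = p := by
    have h1 : (χ : G → ℂ) 1 = (n : ℂ) := by rw [← hχ, Representation.char_one, hd]
    rw [hdeg] at h1
    exact_mod_cast h1.symm
  -- Step A: elements with character value of maximal norm are central
  have hA : ∀ z : G, ‖(χ : G → ℂ) z‖ = (p : ℝ) → z ∈ Subgroup.center G := by
    intro z hz
    have h1 : ‖ρ.character z‖ = (Module.finrank ℂ (Fin n → ℂ) : ℝ) := by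
      rw [hχ, hd, hn]
      exact hz
    obtain ⟨ω, hω⟩ := (norm_char_eq_iff ρ z).1 h1
    rw [Subgroup.mem_center_iff]
    intro g
    have h2 : ρ (z * g) = ρ (g * z) := by
      rw [map_mul, map_mul, hω]
      ext v
      simp
    have h3 : ρ ((g * z)⁻¹ * (z * g)) = 1 := by
      rw [map_mul, h2, ← map_mul, inv_mul_cancel, map_one]
    have h4 : (χ : G → ℂ) ((g * z)⁻¹ * (z * g)) = (χ : G → ℂ) 1 := by
      rw [← hχ]
      show LinearMap.trace ℂ _ (ρ ((g * z)⁻¹ * (z * g))) = LinearMap.trace ℂ _ (ρ 1)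
      rw [h3, map_one ρ]
    have h5 := hfaith _ h4
    calc g * z = (g * z) * ((g * z)⁻¹ * (z * g)) := by rw [h5, mul_one]
      _ = z * g := by group
  -- Step B: a Sylow p-subgroup
  obtain ⟨P⟩ : Nonempty (Sylow p G) := inferInstance
  have hPcard : p ^ 2 ∣ Nat.card P := by
    rw [Sylow.card_eq_multiplicity]
    apply pow_dvd_pow
    exact (hp.pow_dvd_iff_le_factorization (Nat.card_pos.ne')).1 hdiv
  have hPnt : Nontrivial P := by
    rw [← Finite.one_lt_card_iff_nontrivial]
    have h1 : p ^ 2 ≤ Nat.card P := Nat.le_of_dvd Nat.card_pos hPcard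
    have h2 := hp.one_lt
    nlinarith
  have hZnt : Nontrivial (Subgroup.center P) := IsPGroup.center_nontrivial P.isPGroup'
  have hcop : ∀ z : P, z ∈ Subgroup.center P →
      Nat.Coprime p ((Finset.univ.filter (fun x : G => IsConj x (z : G))).card) := by
    intro z hz
    rw [card_conj_class]
    have hle : (P : Subgroup G) ≤ Subgroup.centralizer {(z : G)} := by
      intro x hx
      rw [Subgroup.mem_centralizer_iff]
      intro y hy
      rw [Set.mem_singleton_iff] at hy
      subst hy
      have h1 := Subgroup.mem_center_iff.1 hz ⟨x, hx⟩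
      exact (congrArg Subtype.val h1).symm
    have hdvd := Subgroup.index_dvd_of_le hle
    have hnd : ¬ p ∣ (P : Subgroup G).index := P.not_dvd_index
    exact (Nat.Prime.coprime_iff_not_dvd hp).2 (fun h => hnd (h.trans hdvd))
  have hB : ∀ z : P, z ∈ Subgroup.center P →
      (χ : G → ℂ) z = 0 ∨ ‖(χ : G → ℂ) z‖ = (p : ℝ) := by
    intro z hz
    have h1 := char_eq_zero_or_norm_eq ρ (z : G) (by rw [hd, hn]; exact hcop z hz)
    rw [hχ, hd, hn] at h1
    exact h1
  by_cases hex : ∃ z : P, z ∈ Subgroup.center P ∧ z ≠ 1 ∧ ‖(χ : G → ℂ) z‖ = (p : ℝ)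
  · obtain ⟨z, hz, hz1, hzn⟩ := hex
    intro hbot
    have h1 := hA z hzn
    rw [hbot, Subgroup.mem_bot] at h1
    exact hz1 (Subtype.ext h1)
  · push Not at hex
    exfalso
    have hzero : ∀ z : P, z ∈ Subgroup.center P → z ≠ 1 → (χ : G → ℂ) z = 0 := by
      intro z hz hz1
      rcases hB z hz with h | h
      · exact h
      · exact absurd h (hex z hz hz1)
    let _ : Fintype P := Fintype.ofFinite P
    have : Finite (IrrCharacter P) := irr_finite
    let _ : Fintype (IrrCharacter P) := Fintype.ofFinite _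
    have hres : IsCharacter P (fun h : P => (χ : G → ℂ) h) :=
      isCharacter_restrict (P : Subgroup G) _ (isCharacter_of_irr χ)
    obtain ⟨m, hm⟩ := exists_decomp_of_isCharacter _ hres
    have hmz : ∀ z : P, (χ : G → ℂ) z = ∑ ψ : IrrCharacter P, (m ψ : ℂ) * (ψ : P → ℂ) z := by
      intro z
      have h2 := congrFun hm z
      simp only [Finset.sum_apply, Pi.smul_apply, smul_eq_mul] at h2
      exact h2
    have hsum : ∑ ψ : IrrCharacter P, m ψ * irrDeg ψ = p := by
      have h1 := hmz 1
      rw [show ((1 : P) : G) = 1 from rfl, hdeg] at h1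
      have h2 : (p : ℂ) = ((∑ ψ : IrrCharacter P, m ψ * irrDeg ψ : ℕ) : ℂ) := by
        rw [h1]
        push_cast
        refine Finset.sum_congr rfl fun ψ _ => ?_
        rw [irrDeg_spec]
      exact_mod_cast h2.symm
    by_cases hlin : ∀ ψ : IrrCharacter P, m ψ ≠ 0 → irrDeg ψ = 1
    · have hcomm : ∀ x y : P, x * y = y * x := by
        intro x y
        have h1 : (χ : G → ℂ) ((x * y * x⁻¹ * y⁻¹ : P) : G) = (χ : G → ℂ) 1 := by
          rw [hmz, hdeg]
          have h3 : ∀ ψ : IrrCharacter P,
              (m ψ : ℂ) * (ψ : P → ℂ) (x * y * x⁻¹ * y⁻¹) = ((m ψ * irrDeg ψ : ℕ) : ℂ) := by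
            intro ψ
            by_cases h0 : m ψ = 0
            · simp [h0]
            · have h1ψ : (ψ : P → ℂ) 1 = 1 := by
                rw [irrDeg_spec, hlin ψ h0]
                simp
              have hmul := irr_mul_of_one ψ h1ψ
              have e1 : (ψ : P → ℂ) x * (ψ : P → ℂ) x⁻¹ = 1 := by
                rw [← hmul, mul_inv_cancel, h1ψ]
              have e2 : (ψ : P → ℂ) y * (ψ : P → ℂ) y⁻¹ = 1 := by
                rw [← hmul, mul_inv_cancel, h1ψ]
              have e3 : (ψ : P → ℂ) (x * y * x⁻¹ * y⁻¹) = 1 := by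
                rw [hmul, hmul, hmul]
                calc (ψ : P → ℂ) x * (ψ : P → ℂ) y * (ψ : P → ℂ) x⁻¹ * (ψ : P → ℂ) y⁻¹
                    = ((ψ : P → ℂ) x * (ψ : P → ℂ) x⁻¹) *
                      ((ψ : P → ℂ) y * (ψ : P → ℂ) y⁻¹) := by ring
                  _ = 1 := by rw [e1, e2, mul_one]
              rw [e3, hlin ψ h0]
              simp
          rw [Finset.sum_congr rfl (fun ψ _ => h3 ψ), ← Nat.cast_sum, hsum]
        have h4 := hfaith _ h1
        have h5 : x * y * x⁻¹ * y⁻¹ = 1 := Subtype.ext h4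
        calc x * y = (x * y * x⁻¹ * y⁻¹) * (y * x) := by group
          _ = y * x := by rw [h5, one_mul]
      have hz0 : ∀ z : P, z ≠ 1 → (χ : G → ℂ) z = 0 := fun z hz =>
        hzero z (Subgroup.mem_center_iff.2 (fun g => hcomm g z)) hz
      obtain ⟨k, hk⟩ := classInner_isCharacter_nat _ hres (trivIrr : IrrCharacter P)
      have h6 : classInner (fun h : P => (χ : G → ℂ) h) ((trivIrr : IrrCharacter P) : P → ℂ) =
          (Nat.card P : ℂ)⁻¹ * p := by
        unfold classInner
        congr 1
        rw [Finset.sum_eq_single (1 : P)]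
        · show (χ : G → ℂ) ((1 : P) : G) * _ = _
          rw [trivIrr_apply, map_one, mul_one]
          exact hdeg
        · intro z _ hz
          show (χ : G → ℂ) (z : G) * _ = 0
          rw [hz0 z hz, zero_mul]
        · intro h
          exact absurd (Finset.mem_univ _) h
      rw [h6] at hk
      have hPpos : (Nat.card P : ℂ) ≠ 0 := card_ne_zero_complex
      have h7 : (p : ℂ) = k * Nat.card P := by
        rw [← hk]
        field_simp
      have h8 : p = k * Nat.card P := by exact_mod_cast h7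
      have h9 : p ^ 2 ∣ p := hPcard.trans (Dvd.intro_left k h8.symm)
      have h10 := Nat.le_of_dvd hp.pos h9
      nlinarith [hp.one_lt]
    · push Not at hlin
      obtain ⟨ψ, hmψ, hdegψ⟩ := hlin
      have hdvd : irrDeg ψ ∣ Nat.card P := irrDeg_dvd ψ
      have hpd : p ∣ irrDeg ψ := by
        rw [Sylow.card_eq_multiplicity] at hdvd
        obtain ⟨j, hj, hj2⟩ := (Nat.dvd_prime_pow hp).1 hdvd
        rw [hj2]
        rcases Nat.eq_zero_or_pos j with h0 | h0
        · rw [h0, pow_zero] at hj2
          exact absurd hj2 hdegψ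
        · exact dvd_pow_self p h0.ne'
      have hge : p ≤ irrDeg ψ := Nat.le_of_dvd (irrDeg_pos ψ) hpd
      have hle : m ψ * irrDeg ψ ≤ p := by
        have h1 := Finset.single_le_sum (f := fun ψ => m ψ * irrDeg ψ) (fun _ _ => Nat.zero_le _)
          (Finset.mem_univ ψ)
        rw [hsum] at h1
        exact h1
      have hm1 : m ψ = 1 := by
        have h1 : 1 ≤ m ψ := Nat.pos_of_ne_zero hmψ
        by_contra hne
        have h2 : 2 ≤ m ψ := by omega
        have h3 : 2 * irrDeg ψ ≤ m ψ * irrDeg ψ := Nat.mul_le_mul_right _ h2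
        have h4 := irrDeg_pos ψ
        omega
      have hdp : irrDeg ψ = p := by
        rw [hm1, one_mul] at hle
        omega
      have hothers : ∀ ψ' : IrrCharacter P, ψ' ≠ ψ → m ψ' = 0 := by
        intro ψ' hne
        by_contra h0
        have h1 : m ψ * irrDeg ψ + m ψ' * irrDeg ψ' ≤ p := by
          have h2 := Finset.sum_le_sum_of_subset (f := fun ψ => m ψ * irrDeg ψ)
            (Finset.subset_univ ({ψ, ψ'} : Finset (IrrCharacter P)))
          rw [Finset.sum_pair hne.symm, hsum] at h2
          exact h2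
        have h2 : 0 < m ψ' * irrDeg ψ' := Nat.mul_pos (Nat.pos_of_ne_zero h0) (irrDeg_pos ψ')
        rw [hm1, one_mul, hdp] at h1
        omega
      have hχψ : ∀ z : P, (χ : G → ℂ) z = (ψ : P → ℂ) z := by
        intro z
        rw [hmz, Finset.sum_eq_single ψ]
        · rw [hm1]
          simp
        · intro ψ' _ hne
          rw [hothers ψ' hne]
          simp
        · intro h
          exact absurd (Finset.mem_univ _) h
      obtain ⟨z, hz1⟩ := exists_ne (1 : Subgroup.center P)
      have hzc : (z : P) ∈ Subgroup.center P := z.2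
      have hz1' : (z : P) ≠ 1 := fun h => hz1 (Subtype.ext h)
      have h0 := hzero z hzc hz1'
      rw [hχψ] at h0
      obtain ⟨n', ρ', hρ', hψ⟩ := ψ.2
      obtain ⟨c, hc⟩ := central_scalar ρ' (z : P) hzc
      have h3 : ‖ρ'.character (z : P)‖ = (Module.finrank ℂ (Fin n' → ℂ) : ℝ) :=
        (norm_char_eq_iff ρ' z).2 ⟨c, hc⟩
      rw [hψ, h0, norm_zero] at h3
      have h4 := finrank_pos_of_irreducible ρ'
      have h5 : (Module.finrank ℂ (Fin n' → ℂ) : ℝ) ≠ 0 := by exact_mod_cast h4.ne'
      exact h5 h3.symm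

end Cfsg.Agent.S3968
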