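-- Statement S3969: abelian Sylow p-subgroup with rank d and |G| coprime to ∏ (p^i - 1) ⇒ normal p-complement.
import Cfsg.Statements.S3969
import Mathlib

set_option autoImplicit false
open Cfsg

namespace Cfsg.Agent.S3969

/-- An automorphism of `p'`-order of an abelian `p`-group that fixes every element of order
dividing `p` is trivial. -/
lemma aut_trivial {P : Type*} [CommGroup P] {p : ℕ} [Fact p.Prime] (hP : IsPGroup p P)
    (ψ : MulAut P) (q : ℕ) (hq : Nat.Coprime q p) (hψ : ψ ^ q = 1)
    (hV : ∀ x : P, x ^ p = 1 → ψ x = x) : ψ = 1 := by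
  have key : ∀ n : ℕ, ∀ x : P, x ^ (p ^ n) = 1 → ψ x = x := by
    intro n
    induction n with
    | zero => intro x hx; rw [pow_zero, pow_one] at hx; rw [hx, map_one]
    | succ n ih =>
      intro x hx
      have h1 : ψ (x ^ p) = x ^ p := ih (x ^ p) (by rw [← pow_mul, ← pow_succ']; exact hx)
      obtain ⟨y, hy⟩ : ∃ y, y = ψ x * x⁻¹ := ⟨_, rfl⟩
      have hyp : y ^ p = 1 := by
        rw [hy, mul_pow, inv_pow, ← map_pow, h1, mul_inv_cancel]
      have hyfix : ψ y = y := hV y hyp
      have hx' : ψ x = x * y := by rw [hy, mul_comm x, inv_mul_cancel_right]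
      have hk : ∀ k : ℕ, (ψ ^ k) x = x * y ^ k := by
        intro k
        induction k with
        | zero => simp
        | succ k ihk =>
          rw [pow_succ', MulAut.mul_apply, ihk, map_mul, map_pow, hyfix, hx', mul_assoc, ← pow_succ']
      have hyq : y ^ q = 1 := by
        have := hk q
        rw [hψ, MulAut.one_apply] at this
        exact (mul_eq_left.mp this.symm)
      have hy1 : y = 1 := by
        have h1 := orderOf_dvd_of_pow_eq_one hyp
        have h2 := orderOf_dvd_of_pow_eq_one hyq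
        have : orderOf y = 1 := Nat.eq_one_of_dvd_coprimes hq h2 h1
        exact orderOf_eq_one_iff.mp this
      rw [hx', hy1, mul_one]
  ext x
  obtain ⟨n, hn⟩ := hP x
  rw [MulAut.one_apply]
  exact key n x hn

/-- The number of elements of order dividing `p` in a finite abelian group divides `p ^ rank`. -/
lemma card_ker_dvd {P : Type*} [CommGroup P] [Finite P] (p : ℕ) :
    Nat.card (powMonoidHom p : P →* P).ker ∣ p ^ Group.rank P := by
  obtain ⟨R, hR⟩ : ∃ R : Subgroup P, R = (powMonoidHom p : P →* P).range := ⟨_, rfl⟩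
  have h1 : Nat.card (P ⧸ R) ∣ p ^ Group.rank (P ⧸ R) := by
    apply card_dvd_exponent_pow_rank'
    intro g
    obtain ⟨x, rfl⟩ := QuotientGroup.mk_surjective g
    rw [← QuotientGroup.mk_pow, QuotientGroup.eq_one_iff, hR]
    exact ⟨x, rfl⟩
  have h2 : Group.rank (P ⧸ R) ≤ Group.rank P :=
    Group.rank_le_of_surjective (QuotientGroup.mk' R) (QuotientGroup.mk'_surjective R)
  have h3 : Nat.card (powMonoidHom p : P →* P).ker = Nat.card (P ⧸ R) := by
    have e1 := Subgroup.card_mul_index (powMonoidHom p : P →* P).ker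
    have e2 := Subgroup.card_mul_index R
    rw [Subgroup.index_ker, ← hR] at e1
    have e3 : R.index = Nat.card (P ⧸ R) := rfl
    rw [e3] at e2
    have hpos : 0 < Nat.card R := Nat.card_pos
    have : Nat.card (powMonoidHom p : P →* P).ker * Nat.card R = Nat.card (P ⧸ R) * Nat.card R := by
      rw [e1, mul_comm, e2]
    exact Nat.eq_of_mul_eq_mul_right hpos this
  rw [h3]
  exact h1.trans (pow_dvd_pow p h2)

/-- An automorphism of an abelian `p`-group of rank `d` whose order is coprime to `p` and to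
`∏ (p^i - 1)` is trivial. -/
lemma aut_eq_one {P : Type*} [CommGroup P] [Finite P] {p : ℕ} [Fact p.Prime] (hP : IsPGroup p P)
    (d : ℕ) (hd : Nat.card (powMonoidHom p : P →* P).ker ∣ p ^ d)
    (φ : MulAut P) (m : ℕ) (hm : φ ^ m = 1) (hmp : Nat.Coprime m p)
    (hcop : Nat.Coprime m (∏ i ∈ Finset.Icc 1 d, (p ^ i - 1))) : φ = 1 := by
  classical
  have hp : p.Prime := Fact.out
  by_contra hne
  have hm0 : m ≠ 0 := by
    rintro rfl
    rw [Nat.coprime_zero_left] at hmp
    exact hp.one_lt.ne' hmp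
  have ho : orderOf φ ∣ m := orderOf_dvd_of_pow_eq_one hm
  have ho0 : orderOf φ ≠ 0 := fun h => hm0 (by rw [h] at ho; exact Nat.eq_zero_of_zero_dvd ho)
  have ho1 : orderOf φ ≠ 1 := fun h => hne (orderOf_eq_one_iff.mp h)
  obtain ⟨q, hqp, hqo⟩ := Nat.exists_prime_and_dvd ho1
  have : Fact q.Prime := ⟨hqp⟩
  obtain ⟨ψ, hψ⟩ : ∃ ψ : MulAut P, ψ = φ ^ (orderOf φ / q) := ⟨_, rfl⟩
  have hψo : orderOf ψ = q := by rw [hψ]; exact orderOf_pow_orderOf_div ho0 hqo
  have hψq : ψ ^ q = 1 := by rw [← hψo]; exact pow_orderOf_eq_one ψ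
  have hqm : q ∣ m := hqo.trans ho
  have hqcop : Nat.Coprime q p := Nat.Coprime.coprime_dvd_left hqm hmp
  -- V = Ω₁(P)
  obtain ⟨V, hV⟩ : ∃ V : Subgroup P, V = (powMonoidHom p : P →* P).ker := ⟨_, rfl⟩
  have hmemV : ∀ x : P, x ∈ V ↔ x ^ p = 1 := by
    intro x; rw [hV, MonoidHom.mem_ker]; rfl
  have hψV : ∀ x : P, x ∈ V → ψ x ∈ V := by
    intro x hx
    rw [hmemV] at hx ⊢
    rw [← map_pow, hx, map_one]
  -- the fixed points
  let W : Subgroup V :=
    { carrier := {x | ψ (x : P) = x}
      mul_mem' := by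
        intro a b ha hb
        simp only [Set.mem_ofPred_eq] at ha hb ⊢
        rw [Subgroup.coe_mul, map_mul, ha, hb]
      one_mem' := by simp
      inv_mem' := by
        intro a ha
        simp only [Set.mem_ofPred_eq] at ha ⊢
        rw [Subgroup.coe_inv, map_inv, ha] }
  let f : Function.End V := fun x => ⟨ψ (x : P), hψV x x.2⟩
  have hfk : ∀ k : ℕ, ∀ x : V, ((f ^ k) x : P) = (ψ ^ k) (x : P) := by
    intro k
    induction k with
    | zero => intro x; rw [pow_zero, pow_zero]; rfl
    | succ k ih =>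
      intro x
      rw [pow_succ, pow_succ]
      show (((f ^ k) (f x) : V) : P) = (ψ ^ k) (ψ (x : P))
      rw [ih]
  have hfq : f ^ q ^ 1 = 1 := by
    funext x
    apply Subtype.ext
    rw [pow_one, hfk, hψq]
    rfl
  haveI : Fintype V := Fintype.ofFinite V
  have hmod := Equiv.Perm.card_fixedPoints_modEq (p := q) (n := 1) hfq
  have hfix : Function.fixedPoints f = (W : Set V) := by
    ext x
    show f x = x ↔ ψ (x : P) = x
    constructor
    · intro h; exact congrArg Subtype.val h
    · intro h; exact Subtype.ext h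
  have hcardfix : Nat.card (Function.fixedPoints f) = Nat.card W :=
    Nat.card_congr (Equiv.setCongr hfix)
  rw [← Nat.card_eq_fintype_card, ← Nat.card_eq_fintype_card, hcardfix] at hmod
  have hVp : IsPGroup p V := hP.to_subgroup V
  have hWp : IsPGroup p W := hVp.to_subgroup W
  obtain ⟨e, he⟩ := hVp.exists_card_eq
  obtain ⟨m', hm'⟩ := hWp.exists_card_eq
  have hle : m' ≤ e := by
    have := Subgroup.card_subgroup_dvd_card W
    rw [he, hm'] at this
    exact (Nat.pow_dvd_pow_iff_le_right hp.one_lt).mp this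
  have hed : e ≤ d := by
    rw [← hV, he] at hd
    exact (Nat.pow_dvd_pow_iff_le_right hp.one_lt).mp hd
  rw [he, hm'] at hmod
  have hdvd : q ∣ p ^ e - p ^ m' :=
    (Nat.modEq_iff_dvd' (Nat.pow_le_pow_right hp.pos hle)).mp hmod.symm
  have hfac : p ^ e - p ^ m' = p ^ m' * (p ^ (e - m') - 1) := by
    rw [Nat.mul_sub, ← pow_add, Nat.add_sub_cancel' hle, mul_one]
  rw [hfac] at hdvd
  have hdvd2 : q ∣ p ^ (e - m') - 1 :=
    (Nat.Coprime.pow_right m' hqcop).dvd_of_dvd_mul_left hdvd
  by_cases hem : e = m'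
  · -- W = ⊤, so ψ is trivial on V
    have hWtop : W = ⊤ := Subgroup.eq_top_of_card_eq W (by rw [hm', he, hem])
    have hψ1 : ψ = 1 := by
      apply aut_trivial hP ψ q hqcop hψq
      intro x hx
      have hxV : x ∈ V := (hmemV x).mpr hx
      have : (⟨x, hxV⟩ : V) ∈ W := by rw [hWtop]; exact Subgroup.mem_top _
      exact this
    rw [hψ1, orderOf_one] at hψo
    exact hqp.one_lt.ne hψo
  · have hmem : e - m' ∈ Finset.Icc 1 d := by
      rw [Finset.mem_Icc]; omega
    have h1 : q ∣ ∏ i ∈ Finset.Icc 1 d, (p ^ i - 1) :=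
      hdvd2.trans (Finset.dvd_prod_of_mem _ hmem)
    have : q ∣ 1 := by
      have := Nat.dvd_gcd hqm h1
      rwa [hcop] at this
    exact hqp.one_lt.ne' (Nat.dvd_one.mp this)

/-- Conjugation by an element of the normalizer, as an automorphism of the subgroup. -/
def conjAut {G : Type*} [Group G] (P : Subgroup G) (g : G) (hg : g ∈ Subgroup.normalizer (P : Set G)) :
    MulAut P where
  toFun x := ⟨g * x * g⁻¹, (Subgroup.mem_normalizer_iff.mp hg x).mp x.2⟩
  invFun x := ⟨g⁻¹ * x * g, by
    have := (Subgroup.mem_normalizer_iff.mp (Subgroup.inv_mem _ hg) x).mp x.2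
    rwa [inv_inv] at this⟩
  left_inv x := by apply Subtype.ext; simp [mul_assoc]
  right_inv x := by apply Subtype.ext; simp [mul_assoc]
  map_mul' x y := by apply Subtype.ext; simp [mul_assoc]

lemma conjAut_pow {G : Type*} [Group G] (P : Subgroup G) (g : G)
    (hg : g ∈ Subgroup.normalizer (P : Set G)) (k : ℕ) (x : P) :
    (((conjAut P g hg) ^ k) x : G) = g ^ k * x * (g ^ k)⁻¹ := by
  induction k generalizing x with
  | zero => simp
  | succ k ih =>
    rw [pow_succ, MulAut.mul_apply, ih]
    show g ^ k * (g * x * g⁻¹) * (g ^ k)⁻¹ = g ^ (k + 1) * x * (g ^ (k + 1))⁻¹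
    rw [pow_succ, mul_inv_rev]
    simp only [mul_assoc]

theorem result {G : Type*} [Group G] [Finite G] (p : ℕ) [Fact p.Prime] (P : Sylow p G) (hab : IsMulCommutative (P : Subgroup G)) (hcop : Nat.Coprime (Nat.card G) (∏ i ∈ Finset.Icc 1 (Group.rank (P : Subgroup G)), (p ^ i - 1))) : Cfsg.HasNormalPComplement p G := by
  have hp : p.Prime := Fact.out
  letI : CommGroup (P : Subgroup G) :=
    { (inferInstance : Group (P : Subgroup G)) with mul_comm := fun a b => mul_comm' a b }
  have hNC : Subgroup.normalizer ((P : Subgroup G) : Set G) ≤ Subgroup.centralizer ((P : Subgroup G) : Set G) := by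
    intro g hg
    -- the p'-part of the order of g
    have hog : orderOf g ≠ 0 := (orderOf_pos g).ne'
    obtain ⟨k, m, hpm, hkm⟩ := Nat.exists_eq_pow_mul_and_not_dvd hog p hp.ne_one
    have hmG : m ∣ Nat.card G := (Dvd.intro_left _ hkm.symm).trans (orderOf_dvd_natCard g)
    have hmp : Nat.Coprime m p := ((Nat.Prime.coprime_iff_not_dvd hp).mpr hpm).symm
    -- g ^ m ∈ P
    have hgm : g ^ m ∈ (P : Subgroup G) := by
      have hpg : IsPGroup p (Subgroup.zpowers (g ^ m)) := by
        apply IsPGroup.of_card (n := k)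
        rw [Nat.card_zpowers, orderOf_pow' g (by rintro rfl; exact hpm (dvd_zero p)), hkm,
          Nat.gcd_eq_right (Dvd.intro_left _ rfl)]
        exact Nat.mul_div_cancel _ (Nat.pos_of_ne_zero (by rintro rfl; exact hpm (dvd_zero p)))
      have h1 := hpg.inf_normalizer_sylow P
      have h2 : g ^ m ∈ Subgroup.zpowers (g ^ m) ⊓ Subgroup.normalizer ((P : Subgroup G) : Set G) :=
        ⟨Subgroup.mem_zpowers _, Subgroup.pow_mem _ hg m⟩
      exact (h1.le h2).2
    have hφm : (conjAut (P : Subgroup G) g hg) ^ m = 1 := by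
      ext x
      rw [conjAut_pow, MulAut.one_apply]
      have : (⟨g ^ m, hgm⟩ : (P : Subgroup G)) * x = x * ⟨g ^ m, hgm⟩ := mul_comm _ _
      have h3 : g ^ m * (x : G) = (x : G) * g ^ m := congrArg Subtype.val this
      rw [h3, mul_inv_cancel_right]
    have hφ : conjAut (P : Subgroup G) g hg = 1 :=
      aut_eq_one P.2 (Group.rank (P : Subgroup G)) (card_ker_dvd p) _ m hφm hmp
        (Nat.Coprime.coprime_dvd_left hmG hcop)
    rw [Subgroup.mem_centralizer_iff]
    intro x hx
    have := congrArg (fun φ : MulAut (P : Subgroup G) => ((φ ⟨x, hx⟩ : (P : Subgroup G)) : G)) hφ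
    simp only [MulAut.one_apply] at this
    have h4 : g * x * g⁻¹ = x := this
    calc x * g = (g * x * g⁻¹) * g := by rw [h4]
      _ = g * x := by group
  exact ⟨P, (MonoidHom.transferSylow P hNC).ker, inferInstance,
    MonoidHom.ker_transferSylow_isComplement' P hNC⟩

end Cfsg.Agent.S3969
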