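-- Statement S3970: Sylow subgroups abelian of rank ≤ 2 for all but the largest prime, 12 ∤ |G| ⇒ solvable.
import Cfsg.Statements.S3970
import Cfsg.Agent.S3969
import Mathlib

set_option autoImplicit false
open Cfsg

namespace Cfsg.Agent.S3970

universe u

/-- A group of order dividing `2` has rank at most `1`. -/
lemma rank_le_one_of_card {P : Type*} [Group P] [Finite P] (h : Nat.card P ∣ 2) :
    Group.rank P ≤ 1 := by
  have h2 : Nat.card P = 1 ∨ Nat.card P = 2 := (Nat.dvd_prime Nat.prime_two).mp h
  rcases h2 with h1 | h2
  · haveI : Subsingleton P := (Nat.card_eq_one_iff_unique.mp h1).1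
    rw [Group.rank_eq_zero]; exact Nat.zero_le 1
  · haveI : Fact (Nat.Prime 2) := ⟨Nat.prime_two⟩
    haveI : IsCyclic P := isCyclic_of_prime_card h2
    obtain ⟨g, hg⟩ := IsCyclic.exists_generator (α := P)
    have hcl : Subgroup.closure (({g} : Finset P) : Set P) = ⊤ := by
      rw [Finset.coe_singleton, ← Subgroup.zpowers_eq_closure]
      exact (Subgroup.eq_top_iff' _).mpr hg
    have := Group.rank_le hcl
    simpa using this

theorem main : ∀ n : ℕ, ∀ (G : Type u) [Group G] [Finite G], Nat.card G = n →
    (∀ p : ℕ, p.Prime → p ∣ Nat.card G → (∃ q : ℕ, q.Prime ∧ q ∣ Nat.card G ∧ p < q) →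
      ∀ P : Sylow p G, IsMulCommutative (P : Subgroup G) ∧ Group.rank (P : Subgroup G) ≤ 2) →
    ¬ 12 ∣ Nat.card G → Group.IsSolvable G := by
  intro n
  induction n using Nat.strong_induction_on with
  | _ n ih =>
  intro G _ _ hn h h12
  by_cases h1 : Nat.card G = 1
  · haveI : Subsingleton G := (Nat.card_eq_one_iff_unique.mp h1).1
    infer_instance
  obtain ⟨p, hp⟩ : ∃ p, p = (Nat.card G).minFac := ⟨_, rfl⟩
  have hpp : p.Prime := by rw [hp]; exact Nat.minFac_prime h1
  have hpdvd : p ∣ Nat.card G := by rw [hp]; exact Nat.minFac_dvd _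
  haveI : Fact p.Prime := ⟨hpp⟩
  have hmin : ∀ q : ℕ, q.Prime → q ∣ Nat.card G → p ≤ q := by
    intro q hq hqd; rw [hp]; exact Nat.minFac_le_of_dvd hq.two_le hqd
  by_cases hlarge : ∃ q : ℕ, q.Prime ∧ q ∣ Nat.card G ∧ p < q
  · -- Sylow p-subgroup abelian of rank ≤ 2
    obtain ⟨P⟩ : Nonempty (Sylow p G) := inferInstance
    obtain ⟨hab, hrank⟩ := h p hpp hpdvd hlarge P
    have hcop : Nat.Coprime (Nat.card G)
        (∏ i ∈ Finset.Icc 1 (Group.rank (P : Subgroup G)), (p ^ i - 1)) := by
      by_contra hnc
      obtain ⟨q, hq, hqG, hqprod⟩ := Nat.Prime.not_coprime_iff_dvd.mp hnc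
      obtain ⟨i, hi, hqi⟩ := (Nat.Prime.prime hq).exists_mem_finset_dvd hqprod
      rw [Finset.mem_Icc] at hi
      have hpq := hmin q hq hqG
      have hno1 : ¬ q ∣ p - 1 := by
        intro hd
        have h2le := hpp.two_le
        have := Nat.le_of_dvd (by omega) hd
        omega
      have hi2 : i = 1 ∨ i = 2 := by omega
      rcases hi2 with rfl | rfl
      · rw [pow_one] at hqi; exact hno1 hqi
      · have hfac : p ^ 2 - 1 = (p - 1) * (p + 1) := by
          have := hpp.two_le
          obtain ⟨k, rfl⟩ : ∃ k, p = k + 1 := ⟨p - 1, by omega⟩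
          simp only [Nat.add_sub_cancel]
          have : (k + 1) ^ 2 = k * (k + 1 + 1) + 1 := by ring
          rw [this, Nat.add_sub_cancel]
        rw [hfac] at hqi
        rcases (Nat.Prime.dvd_mul hq).mp hqi with hd | hd
        · exact hno1 hd
        · have hle := Nat.le_of_dvd (by omega) hd
          have hne : q ≠ p := by
            rintro rfl
            have : q ∣ 1 := (Nat.dvd_add_right (dvd_refl q)).mp hd
            exact hq.one_lt.ne' (Nat.dvd_one.mp this)
          have hq1 : q = p + 1 := by omega
          -- p and p+1 both prime: p = 2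
          have hp2 : p = 2 := by
            rcases Nat.Prime.eq_two_or_odd hpp with h2 | hodd
            · exact h2
            · rcases Nat.Prime.eq_two_or_odd hq with h2 | hodd'
              · have := hpp.two_le; omega
              · omega
          subst hq1
          -- 4 ∤ |G|
          have h3 : 3 ∣ Nat.card G := by rw [hp2] at hqG; exact hqG
          have h4 : ¬ 4 ∣ Nat.card G := by
            intro h4
            apply h12
            have : Nat.Coprime 4 3 := by norm_num
            exact this.mul_dvd_of_dvd_of_dvd h4 h3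
          have hP2 : Nat.card (P : Subgroup G) ∣ 2 := by
            obtain ⟨k, hk⟩ := P.2.exists_card_eq
            have hdvd : Nat.card (P : Subgroup G) ∣ Nat.card G := Subgroup.card_subgroup_dvd_card _
            rw [hk, hp2] at hdvd
            rw [hk, hp2]
            have hk1 : k ≤ 1 := by
              by_contra hk2
              push Not at hk2
              exact h4 ((pow_dvd_pow 2 hk2).trans hdvd)
            exact pow_dvd_pow 2 hk1
          have := rank_le_one_of_card hP2
          omega
    obtain ⟨P', N, hN, hcompl⟩ := Cfsg.Agent.S3969.result p P hab hcop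
    haveI := hN
    have hcardmul : Nat.card N * Nat.card (P' : Subgroup G) = Nat.card G := hcompl.card_mul_card
    have hNidx : (P' : Subgroup G).index = Nat.card N := hcompl.index_eq_card
    have hpN : ¬ p ∣ Nat.card N := by rw [← hNidx]; exact P'.not_dvd_index
    obtain ⟨k, hk⟩ := P'.2.exists_card_eq
    -- G ⧸ N is a p-group
    have hquot : Group.IsSolvable (G ⧸ N) := by
      have hc : Nat.card (G ⧸ N) = p ^ k := by
        have : N.index = Nat.card (P' : Subgroup G) := hcompl.symm.index_eq_card
        rw [← hk, ← this]; rfl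
      have : IsPGroup p (G ⧸ N) := IsPGroup.of_card hc
      haveI := this.isNilpotent
      infer_instance
    -- N is solvable by induction
    have hNlt : Nat.card N < n := by
      rw [← hn, ← hcardmul]
      have hk0 : 1 < Nat.card (P' : Subgroup G) := by
        by_contra hle
        have h1' : Nat.card (P' : Subgroup G) = 1 := by
          have : 0 < Nat.card (P' : Subgroup G) := Nat.card_pos
          omega
        rw [h1', mul_one] at hcardmul
        exact hpN (hcardmul ▸ hpdvd)
      have hNpos : 0 < Nat.card N := Nat.card_pos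
      nlinarith
    have hNdvd : Nat.card N ∣ Nat.card G := Subgroup.card_subgroup_dvd_card N
    have hNsolv : Group.IsSolvable N := by
      apply ih (Nat.card N) hNlt N rfl
      · intro r hr hrN hex R
        haveI : Fact r.Prime := ⟨hr⟩
        have hrp : r ≠ p := by rintro rfl; exact hpN hrN
        have hfact : (Nat.card G).factorization r = (Nat.card N).factorization r := by
          rw [← hcardmul, hk, Nat.factorization_mul Nat.card_pos.ne' (pow_ne_zero _ hpp.ne_zero)]
          rw [Nat.Prime.factorization_pow hpp]
          simp [Finsupp.single_apply, hrp.symm]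
        have hcardQ : Nat.card (R.map N.subtype : Subgroup G) = r ^ (Nat.card G).factorization r := by
          rw [Subgroup.card_map_of_injective N.subtype_injective, hfact]
          exact R.card_eq_multiplicity
        obtain ⟨q, hq, hqN, hrq⟩ := hex
        obtain ⟨hQab, hQrank⟩ := h r hr (hrN.trans hNdvd) ⟨q, hq, hqN.trans hNdvd, hrq⟩
          (Sylow.ofCard _ hcardQ)
        rw [Sylow.coe_ofCard] at hQab hQrank
        have e : (R : Subgroup N) ≃* ((R : Subgroup N).map N.subtype : Subgroup G) :=
          Subgroup.equivMapOfInjective _ _ N.subtype_injective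
        refine ⟨⟨⟨fun a b => ?_⟩⟩, ?_⟩
        · apply e.injective
          rw [map_mul, map_mul]
          exact mul_comm' _ _
        · rw [Group.rank_congr e]; exact hQrank
      · intro h12'
        exact h12 (h12'.trans hNdvd)
    haveI := hquot
    haveI := hNsolv
    exact solvable_of_ker_le_range N.subtype (QuotientGroup.mk' N) (by simp)
  · -- G is a p-group
    have hpow : Nat.card G = p ^ (Nat.card G).primeFactorsList.length := by
      apply Nat.eq_prime_pow_of_unique_prime_dvd Nat.card_pos.ne'
      intro d hd hdG
      by_contra hne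
      have := hmin d hd hdG
      exact hlarge ⟨d, hd, hdG, lt_of_le_of_ne this (Ne.symm hne)⟩
    have : IsPGroup p G := IsPGroup.of_card hpow
    haveI := this.isNilpotent
    infer_instance

theorem result {G : Type*} [Group G] [Finite G] (h : ∀ p : ℕ, p.Prime → p ∣ Nat.card G → (∃ q : ℕ, q.Prime ∧ q ∣ Nat.card G ∧ p < q) → ∀ P : Sylow p G, IsMulCommutative (P : Subgroup G) ∧ Group.rank (P : Subgroup G) ≤ 2) (h12 : ¬ 12 ∣ Nat.card G) : Group.IsSolvable G :=
  main (Nat.card G) G rfl h h12

end Cfsg.Agent.S3970
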