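-- Statement S3971: |G| = 2^a n, n odd, 3 ∤ n, element of order 2^(a-1) ⇒ normal subgroup of order n.
import Cfsg.Statements.S3971
import Cfsg.Agent.S3969
import Cfsg.Agent.Lib.Helper2.Frob
import Cfsg.Agent.Lib.Helper72.Frattini
import Mathlib

set_option autoImplicit false
open Cfsg

namespace Cfsg.Agent.S3971

/-- Fixed point congruence for an automorphism of prime order on an invariant subgroup. -/
lemma card_fix_modEq {P : Type*} [Group P] [Finite P] (ψ : MulAut P) (q : ℕ) [Fact q.Prime]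
    (hψ : ψ ^ q = 1) (H F : Subgroup P) (hH : ∀ x ∈ H, ψ x ∈ H)
    (hF : ∀ x, x ∈ F ↔ x ∈ H ∧ ψ x = x) : Nat.card H ≡ Nat.card F [MOD q] := by
  classical
  let f : Function.End H := fun x => ⟨ψ (x : P), hH x x.2⟩
  have hfk : ∀ k : ℕ, ∀ x : H, ((f ^ k) x : P) = (ψ ^ k) (x : P) := by
    intro k
    induction k with
    | zero => intro x; rw [pow_zero, pow_zero]; rfl
    | succ k ih =>
      intro x
      rw [pow_succ, pow_succ]
      show (((f ^ k) (f x) : H) : P) = (ψ ^ k) (ψ (x : P))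
      rw [ih]
  have hfq : f ^ q ^ 1 = 1 := by
    funext x
    apply Subtype.ext
    rw [pow_one, hfk, hψ]
    rfl
  haveI : Fintype H := Fintype.ofFinite H
  have hmod := Equiv.Perm.card_fixedPoints_modEq (p := q) (n := 1) hfq
  have hcard : Nat.card (Function.fixedPoints f) = Nat.card F := by
    apply Nat.card_congr
    exact
      { toFun := fun x => ⟨(x.1 : P), (hF _).mpr ⟨x.1.2, congrArg Subtype.val x.2⟩⟩
        invFun := fun y => ⟨⟨y.1, ((hF _).mp y.2).1⟩, Subtype.ext ((hF _).mp y.2).2⟩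
        left_inv := fun x => rfl
        right_inv := fun y => rfl }
  rw [← Nat.card_eq_fintype_card, ← Nat.card_eq_fintype_card, hcard] at hmod
  exact hmod

/-- Core induction: an automorphism of prime order `q ≥ 5` of a finite 2-group fixes pointwise every
invariant subgroup having a cyclic subgroup of index at most 2. -/
lemma core {P : Type*} [Group P] [Finite P] (hP : IsPGroup 2 P) (ψ : MulAut P) (q : ℕ)
    [Fact q.Prime] (hq2 : q ≠ 2) (hq3 : q ≠ 3) (hψ : ψ ^ q = 1) :
    ∀ k : ℕ, ∀ H : Subgroup P, Nat.card H = k → (∀ x ∈ H, ψ x ∈ H) →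
      (∃ c ∈ H, Nat.card H ≤ 2 * orderOf c) → ∀ x ∈ H, ψ x = x := by
  intro k
  induction k using Nat.strong_induction_on with
  | _ k ih =>
  intro H hk hinv hex
  obtain ⟨c, hcH, hc⟩ := hex
  by_cases hbot : H = ⊥
  · intro x hx; rw [hbot, Subgroup.mem_bot] at hx; rw [hx, map_one]
  -- the subgroup generated by squares
  obtain ⟨H2, hH2⟩ : ∃ H2 : Subgroup P, H2 = Subgroup.closure {z | ∃ x ∈ H, z = x ^ 2} := ⟨_, rfl⟩
  have hH2le : H2 ≤ H := by
    rw [hH2, Subgroup.closure_le]; rintro z ⟨x, hx, rfl⟩; exact H.pow_mem hx 2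
  have hsq : ∀ x ∈ H, x ^ 2 ∈ H2 := fun x hx => by
    rw [hH2]; exact Subgroup.subset_closure ⟨x, hx, rfl⟩
  have hH2inv : ∀ x ∈ H2, ψ x ∈ H2 := by
    intro x hx
    rw [hH2] at hx
    induction hx using Subgroup.closure_induction with
    | mem z hz => obtain ⟨x, hx, rfl⟩ := hz; rw [map_pow]; exact hsq _ (hinv x hx)
    | one => rw [map_one]; exact H2.one_mem
    | mul a b _ _ ha hb => rw [map_mul]; exact H2.mul_mem ha hb
    | inv a _ ha => rw [map_inv]; exact H2.inv_mem ha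
  haveI : Nontrivial H := (Subgroup.nontrivial_iff_ne_bot H).mpr hbot
  have h2card : 2 * Nat.card H2 ≤ Nat.card H := by
    obtain ⟨M, hM⟩ : ∃ M : Subgroup H, IsCoatom M := by
      rcases eq_top_or_exists_le_coatom (⊥ : Subgroup H) with h | ⟨M, hM, _⟩
      · exact absurd h bot_ne_top
      · exact ⟨M, hM⟩
    have hpow := (Cfsg.Agent.Lib.Helper72.pow_mem_and_comm_mem_of_isCoatom (hP.to_subgroup H) hM).1
    have hle : H2 ≤ M.map H.subtype := by
      rw [hH2, Subgroup.closure_le]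
      rintro z ⟨x, hx, rfl⟩
      exact ⟨(⟨x, hx⟩ : H) ^ 2, hpow ⟨x, hx⟩, rfl⟩
    have h1 : Nat.card H2 ≤ Nat.card M := by
      have := Subgroup.card_le_of_le hle
      rwa [Subgroup.card_map_of_injective H.subtype_injective] at this
    have h2 : 2 ≤ M.index := by
      have h0 : M.index ≠ 0 := Subgroup.index_ne_zero_of_finite
      have h1' : M.index ≠ 1 := fun h => hM.1 (Subgroup.index_eq_one.mp h)
      omega
    have h3 := Subgroup.card_mul_index M
    nlinarith
  have hc2 : orderOf c ≤ 2 * orderOf (c ^ 2) := by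
    have hpos : 0 < orderOf (c ^ 2) := orderOf_pos _
    apply Nat.le_of_dvd (by omega)
    apply orderOf_dvd_of_pow_eq_one
    rw [pow_mul]; exact pow_orderOf_eq_one _
  have hlt : Nat.card H2 < k := by
    have : 0 < Nat.card H2 := Nat.card_pos
    omega
  have hfix2 : ∀ x ∈ H2, ψ x = x := by
    apply ih (Nat.card H2) hlt H2 rfl hH2inv
    refine ⟨c ^ 2, hsq c hcH, ?_⟩
    omega
  -- the fixed subgroup
  let F : Subgroup P :=
    { carrier := {x | x ∈ H ∧ ψ x = x}
      mul_mem' := by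
        rintro a b ⟨ha, ha'⟩ ⟨hb, hb'⟩
        exact ⟨H.mul_mem ha hb, by rw [map_mul, ha', hb']⟩
      one_mem' := ⟨H.one_mem, map_one ψ⟩
      inv_mem' := by
        rintro a ⟨ha, ha'⟩
        exact ⟨H.inv_mem ha, by rw [map_inv, ha']⟩ }
  have hFmem : ∀ x, x ∈ F ↔ x ∈ H ∧ ψ x = x := fun x => Iff.rfl
  have hFH : F ≤ H := fun x hx => hx.1
  have hH2F : H2 ≤ F := fun x hx => ⟨hH2le hx, hfix2 x hx⟩
  have hmod := card_fix_modEq ψ q hψ H F hinv hFmem
  have hcF : Nat.card H ≤ 4 * Nat.card F := by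
    have h1 : orderOf (c ^ 2) ≤ Nat.card H2 := by
      rw [← Nat.card_zpowers]
      exact Subgroup.card_le_of_le (by rw [Subgroup.zpowers_le]; exact hsq c hcH)
    have h2 := Subgroup.card_le_of_le hH2F
    omega
  obtain ⟨e, he⟩ := (hP.to_subgroup H).exists_card_eq
  obtain ⟨f, hf⟩ := (hP.to_subgroup F).exists_card_eq
  have hfe : f ≤ e := by
    have := Subgroup.card_dvd_of_le hFH
    rw [he, hf] at this
    exact (Nat.pow_dvd_pow_iff_le_right (by norm_num)).mp this
  rw [he, hf] at hmod hcF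
  have hdvd : q ∣ 2 ^ e - 2 ^ f :=
    (Nat.modEq_iff_dvd' (Nat.pow_le_pow_right (by norm_num) hfe)).mp hmod.symm
  have hfac : 2 ^ e - 2 ^ f = 2 ^ f * (2 ^ (e - f) - 1) := by
    rw [Nat.mul_sub, ← pow_add, Nat.add_sub_cancel' hfe, mul_one]
  rw [hfac] at hdvd
  have hq : q.Prime := Fact.out
  have hqcop : Nat.Coprime q 2 := (Nat.coprime_primes hq Nat.prime_two).mpr hq2
  have hdvd2 : q ∣ 2 ^ (e - f) - 1 := (Nat.Coprime.pow_right f hqcop).dvd_of_dvd_mul_left hdvd
  have hef : e - f ≤ 2 := by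
    by_contra hgt
    push Not at hgt
    have h1 : 2 ^ e = 2 ^ f * 2 ^ (e - f) := by rw [← pow_add, Nat.add_sub_cancel' hfe]
    have h8 : 8 ≤ 2 ^ (e - f) := by
      calc 8 = 2 ^ 3 := by norm_num
        _ ≤ 2 ^ (e - f) := Nat.pow_le_pow_right (by norm_num) hgt
    have hpos : 0 < 2 ^ f := by positivity
    nlinarith
  have hef0 : e = f := by
    by_contra hne
    have h12 : e - f = 1 ∨ e - f = 2 := by omega
    rcases h12 with h | h
    · rw [h] at hdvd2
      have : q ∣ 1 := by simpa using hdvd2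
      exact hq.one_lt.ne' (Nat.dvd_one.mp this)
    · rw [h] at hdvd2
      have : q ∣ 3 := by simpa using hdvd2
      exact hq3 ((Nat.prime_dvd_prime_iff_eq hq Nat.prime_three).mp this)
  have hFeq : F = H := Subgroup.eq_of_le_of_card_ge hFH (by rw [he, hf, hef0])
  intro x hx
  rw [← hFeq] at hx
  exact hx.2

/-- An automorphism of order coprime to 6 of a 2-group with a cyclic subgroup of index ≤ 2 is
trivial. -/
lemma aut_trivial {P : Type*} [Group P] [Finite P] (hP : IsPGroup 2 P) (c : P)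
    (hc : Nat.card P ≤ 2 * orderOf c) (φ : MulAut P) (m : ℕ) (hm : φ ^ m = 1)
    (hm2 : Nat.Coprime m 2) (hm3 : Nat.Coprime m 3) : φ = 1 := by
  by_contra hne
  have hm0 : m ≠ 0 := by
    rintro rfl
    rw [Nat.coprime_zero_left] at hm2
    exact absurd hm2 (by norm_num)
  have ho : orderOf φ ∣ m := orderOf_dvd_of_pow_eq_one hm
  have ho0 : orderOf φ ≠ 0 := fun h => hm0 (by rw [h] at ho; exact Nat.eq_zero_of_zero_dvd ho)
  have ho1 : orderOf φ ≠ 1 := fun h => hne (orderOf_eq_one_iff.mp h)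
  obtain ⟨q, hqp, hqo⟩ := Nat.exists_prime_and_dvd ho1
  have : Fact q.Prime := ⟨hqp⟩
  obtain ⟨ψ, hψ⟩ : ∃ ψ : MulAut P, ψ = φ ^ (orderOf φ / q) := ⟨_, rfl⟩
  have hψo : orderOf ψ = q := by rw [hψ]; exact orderOf_pow_orderOf_div ho0 hqo
  have hψq : ψ ^ q = 1 := by rw [← hψo]; exact pow_orderOf_eq_one ψ
  have hqm : q ∣ m := hqo.trans ho
  have hq2 : q ≠ 2 := by
    rintro rfl; exact absurd (Nat.Coprime.coprime_dvd_left hqm hm2) (by decide)
  have hq3 : q ≠ 3 := by
    rintro rfl; exact absurd (Nat.Coprime.coprime_dvd_left hqm hm3) (by decide)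
  have hfix := core hP ψ q hq2 hq3 hψq (Nat.card (⊤ : Subgroup P)) ⊤ rfl
    (fun x _ => Subgroup.mem_top _) ⟨c, Subgroup.mem_top _, by rw [Subgroup.card_top]; exact hc⟩
  have h1 : ψ = 1 := by
    ext x; exact hfix x (Subgroup.mem_top _)
  rw [h1, orderOf_one] at hψo
  exact hqp.one_lt.ne hψo

theorem result {G : Type*} [Group G] [Finite G] (a n : ℕ) (hG : Nat.card G = 2 ^ a * n) (hn : Odd n) (h3 : ¬ 3 ∣ n) (hx : ∃ x : G, orderOf x = 2 ^ (a - 1)) : ∃ N : Subgroup G, N.Normal ∧ Nat.card N = n := by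
  obtain ⟨x, hx⟩ := hx
  have hXp : IsPGroup 2 (Subgroup.zpowers x) :=
    IsPGroup.of_card (n := a - 1) (by rw [Nat.card_zpowers, hx])
  obtain ⟨S, hXS⟩ := hXp.exists_le_sylow
  have hn0 : n ≠ 0 := by rintro rfl; simp at hn
  have hn2 : ¬ 2 ∣ n := by rw [Nat.two_dvd_ne_zero]; exact Nat.odd_iff.mp hn
  have hcardS : Nat.card (S : Subgroup G) = 2 ^ a := by
    rw [S.card_eq_multiplicity, hG]
    congr 1
    rw [Nat.factorization_mul (by positivity) hn0, Nat.Prime.factorization_pow Nat.prime_two]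
    have : n.factorization 2 = 0 := Nat.factorization_eq_zero_of_not_dvd hn2
    simp [this]
  have hS2 : Nat.card (S : Subgroup G) ≤ 2 * orderOf x := by
    rw [hcardS, hx]
    rcases Nat.eq_zero_or_pos a with rfl | ha
    · norm_num
    · have : 2 ^ a = 2 * 2 ^ (a - 1) := by rw [← pow_succ']; congr 1; omega
      omega
  have hFrob : Cfsg.Agent.Lib.Helper2.FrobCond S := by
    intro Q hQS y hy hyodd
    obtain ⟨X, hX⟩ : ∃ X : Subgroup G, X = Subgroup.zpowers x := ⟨_, rfl⟩
    have hXS' : X ≤ (S : Subgroup G) := hX ▸ hXS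
    have hcardX : Nat.card X = orderOf x := by rw [hX, Nat.card_zpowers]
    have hrelS : Nat.card X * X.relIndex (S : Subgroup G) = Nat.card (S : Subgroup G) := by
      have h2 := Subgroup.relIndex_mul_relIndex (⊥ : Subgroup G) X (S : Subgroup G) bot_le hXS'
      rwa [Subgroup.relIndex_bot_left, Subgroup.relIndex_bot_left] at h2
    have hXpos : 0 < Nat.card X := Nat.card_pos
    have hSpos : 0 < Nat.card (S : Subgroup G) := Nat.card_pos
    have hrel : X.relIndex Q ≤ 2 := by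
      have h1 : X.relIndex (S : Subgroup G) ≤ 2 := by
        by_contra hgt; push Not at hgt; nlinarith
      have hne : X.relIndex (S : Subgroup G) ≠ 0 := by
        intro h0; rw [h0, mul_zero] at hrelS; omega
      exact (Subgroup.relIndex_le_of_le_right hQS hne).trans h1
    have hcardQ : Nat.card Q ≤ 2 * Nat.card (X ⊓ Q : Subgroup G) := by
      have h2 := Subgroup.relIndex_mul_relIndex (⊥ : Subgroup G) (X ⊓ Q) Q bot_le inf_le_right
      rw [Subgroup.relIndex_bot_left, Subgroup.relIndex_bot_left, Subgroup.inf_relIndex_right] at h2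
      rw [← h2]
      nlinarith [Nat.card_pos (α := (X ⊓ Q : Subgroup G))]
    haveI : IsCyclic X := by rw [hX]; infer_instance
    haveI : IsCyclic (X ⊓ Q : Subgroup G) := Subgroup.isCyclic_of_le (inf_le_left : X ⊓ Q ≤ X)
    obtain ⟨g, hg⟩ := IsCyclic.exists_generator (α := (X ⊓ Q : Subgroup G))
    have hgord : orderOf (g : G) = Nat.card (X ⊓ Q : Subgroup G) := by
      rw [Subgroup.orderOf_coe]; exact orderOf_eq_card_of_forall_mem_zpowers hg
    have hgQ : (g : G) ∈ Q := g.2.2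
    have hQp : IsPGroup 2 Q := S.2.to_le hQS
    obtain ⟨φ, hφ⟩ : ∃ φ : MulAut Q, φ = Cfsg.Agent.S3969.conjAut Q y hy := ⟨_, rfl⟩
    have hφm : φ ^ orderOf y = 1 := by
      ext z
      rw [hφ, Cfsg.Agent.S3969.conjAut_pow, pow_orderOf_eq_one]; simp
    have hm3 : Nat.Coprime (orderOf y) 3 := by
      have hdvd : orderOf y ∣ 2 ^ a * n := hG ▸ orderOf_dvd_natCard y
      have hdn : orderOf y ∣ n := (Nat.Coprime.pow_right a hyodd).dvd_of_dvd_mul_left hdvd
      rw [Nat.coprime_comm, Nat.Prime.coprime_iff_not_dvd Nat.prime_three]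
      exact fun h => h3 (h.trans hdn)
    have hφ1 : φ = 1 :=
      aut_trivial hQp ⟨g, hgQ⟩ (by rw [Subgroup.orderOf_mk]; omega) φ (orderOf y) hφm hyodd hm3
    rw [Subgroup.mem_centralizer_iff]
    intro z hz
    have := congrArg (fun ψ : MulAut Q => ((ψ ⟨z, hz⟩ : Q) : G)) hφ1
    simp only [MulAut.one_apply] at this
    rw [hφ] at this
    have h4 : y * z * y⁻¹ = z := this
    calc z * y = (y * z * y⁻¹) * y := by rw [h4]
      _ = y * z := by group
  have hcompl := Cfsg.Agent.Lib.Helper2.isComplement'_pResidual_of_frobCond S hFrob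
  refine ⟨Cfsg.pResidual 2 G, Cfsg.Agent.Lib.Helper2.pResidual_normal 2, ?_⟩
  have h1 := hcompl.card_mul_card
  rw [hcardS, hG, mul_comm] at h1
  exact Nat.eq_of_mul_eq_mul_left (by positivity) h1

end Cfsg.Agent.S3971
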