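import Cfsg.Statements.S3973
import Cfsg.Agent.Lib.Helper70.SchurPres

set_option autoImplicit false
open Cfsg

namespace Cfsg.Agent.S3973

open Cfsg.Agent.Lib.Helper70

/-- If a finite group is presented by `n` generators and a finite set of `r` relators, then its Schur multiplier can be generated by `r - n` elements. In particular a finite group with a presentation having as many relators as generators has trivial Schur multiplier. -/
theorem result (n : ℕ) (rels : Finset (FreeGroup (Fin n))) [Finite (PresentedGroup (rels : Set (FreeGroup (Fin n))))] {A : Type*} [CommGroup A] [Finite A] (hA : Cfsg.HasSchurMultiplier (PresentedGroup (rels : Set (FreeGroup (Fin n)))) A) : Group.rank A ≤ rels.card - n := by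
  classical
  have hp : Function.Surjective (PresentedGroup.mk (rels : Set (FreeGroup (Fin n)))) :=
    PresentedGroup.mk_surjective _
  have hker : (PresentedGroup.mk (rels : Set (FreeGroup (Fin n)))).ker =
      Subgroup.normalClosure (rels : Set (FreeGroup (Fin n))) := by
    ext x
    rw [MonoidHom.mem_ker]
    exact QuotientGroup.eq_one_iff x
  obtain ⟨eA⟩ := CE.nonempty_equiv_mult (PresentedGroup.mk (rels : Set (FreeGroup (Fin n)))) hp hA
  obtain ⟨d, hd, Θ, hΘ⟩ := CE.exists_hom_range_eq_mult
    (PresentedGroup.mk (rels : Set (FreeGroup (Fin n)))) hp rels hker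
  have hrank : Module.finrank ℤ (Additive (Abelianization (FreeGroup (Fin n)))) = n := by
    have := (FreeAbelianGroup.equivFinsupp (Fin n)).toIntLinearEquiv.finrank_eq
    rw [Module.finrank_finsupp_self, Fintype.card_fin] at this
    exact this
  rw [hrank] at hd
  subst hd
  have hfm : Finite (CE.mult (PresentedGroup.mk (rels : Set (FreeGroup (Fin n))))) :=
    Finite.of_equiv _ eA.toEquiv
  rw [Group.rank_congr eA, ← Subgroup.rank_congr hΘ]
  exact Group.rank_range_le.trans (rank_multiplicative_pi_int_le _)

end Cfsg.Agent.S3973
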