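import Cfsg.Statements.S3974
import Cfsg.Agent.Lib.Helper70.SchurUnique

set_option autoImplicit false
universe u v
open Cfsg

namespace Cfsg.Agent.S3974

open Cfsg.Agent.Lib.Helper70

theorem pow_card_ab_mem_commutator {Q : Type u} [Group Q] [Finite Q] {Γ : Type u} [Group Γ] (σ : Γ →* Q)
    (hs : Function.Surjective σ) (hk : σ.ker ≤ commutator Γ) (g : Γ) :
    g ^ Nat.card (Abelianization Q) ∈ commutator Γ := by
  have h1 : σ g ^ Nat.card (Abelianization Q) ∈ commutator Q := by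
    rw [← Abelianization.ker_of, MonoidHom.mem_ker, map_pow]
    exact pow_card_eq_one'
  rw [← map_commutator_of_surjective σ hs, ← map_pow] at h1
  obtain ⟨c, hc, hcg⟩ := h1
  have hker : c⁻¹ * g ^ Nat.card (Abelianization Q) ∈ σ.ker := by
    rw [MonoidHom.mem_ker, map_mul, map_inv, hcg, inv_mul_cancel]
  have hdec : g ^ Nat.card (Abelianization Q) = c * (c⁻¹ * g ^ Nat.card (Abelianization Q)) := by group
  rw [hdec]
  exact Subgroup.mul_mem _ hc (hk hker)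

/-- Let `Q` be a finite group with Schur multiplier `A`. Any two Schur covering groups of `Q` (finite stem extensions `σ₁ : Γ₁ →* Q`, `σ₂ : Γ₂ →* Q` with kernels isomorphic to `A`, `Γ₁, Γ₂` in the universe of `Q`) are isomorphic over `Q` — there is a group isomorphism `e : Γ₁ ≃* Γ₂` with `σ₂ ∘ e = σ₁` — if and only if the order of the commutator quotient of `Q` is coprime to the order of `A`. In particular a finite perfect group has a unique Schur covering group up to isomorphism over it. -/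
theorem result {Q : Type u} [Group Q] [Finite Q] {A : Type v} [CommGroup A] (hA : Cfsg.HasSchurMultiplier Q A) : (∀ (Γ₁ Γ₂ : Type u) [Group Γ₁] [Finite Γ₁] [Group Γ₂] [Finite Γ₂] (σ₁ : Γ₁ →* Q) (σ₂ : Γ₂ →* Q), Cfsg.IsStemExtension σ₁ → Cfsg.IsStemExtension σ₂ → Nonempty (σ₁.ker ≃* A) → Nonempty (σ₂.ker ≃* A) → ∃ e : Γ₁ ≃* Γ₂, σ₂.comp e.toMonoidHom = σ₁) ↔ Nat.Coprime (Nat.card (Abelianization Q)) (Nat.card A) := by
  constructor
  · intro h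
    by_contra hcop
    obtain ⟨ℓ, hℓ, hℓ1, hℓ2⟩ := Nat.Prime.not_coprime_iff_dvd.mp hcop
    obtain ⟨Γ, _, _, σ, hσ, ⟨e⟩⟩ := hA.1
    obtain ⟨m, hℓm, hm, ψ, q₀, hq₀, hq₀m⟩ := exists_cyclic_factor Q ℓ hℓ hℓ1
    have hK : ℓ ∣ Nat.card σ.ker := by
      rw [Nat.card_congr e.toEquiv]
      exact hℓ2
    obtain ⟨k₀, hk₀⟩ := exists_not_pow σ.ker ℓ m hℓ hK hℓm
    obtain ⟨Γ₂, _, _, σ₂, hσ₂, ⟨e₂⟩, hno⟩ := exists_twisted_cover σ hσ m hm ψ q₀ hq₀ hq₀m (k₀ : Γ) k₀.2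
      (by
        intro k hk heq
        exact hk₀ ⟨k, hk⟩ (Subtype.ext heq))
    exact hno (h Γ Γ₂ σ σ₂ hσ hσ₂ ⟨e⟩ ⟨e₂.trans e⟩)
  · intro hcop Γ₁ Γ₂ _ _ _ _ σ₁ σ₂ hσ₁ hσ₂ hk₁ hk₂
    obtain ⟨e₁⟩ := hk₁
    obtain ⟨e₂⟩ := hk₂
    have hσ₁' := hσ₁
    have hσ₂' := hσ₂
    obtain ⟨h₁s, h₁c, h₁k⟩ := hσ₁
    obtain ⟨h₂s, h₂c, h₂k⟩ := hσ₂
    have hd₁ : commutator (pb σ₁ σ₂) ⊓ (pb.fst σ₁ σ₂).ker = ⊥ :=
      pb.commutator_inf_ker_fst_eq_bot hA σ₁ hσ₁' ⟨e₁⟩ σ₂ h₂s h₂c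
    have hd₂ : commutator (pb σ₁ σ₂) ⊓ (pb.snd σ₁ σ₂).ker = ⊥ :=
      pb.commutator_inf_ker_snd_eq_bot hA σ₂ hσ₂' ⟨e₂⟩ σ₁ h₁s h₁c
    have ha₁ : ∀ y ∈ (pb.fst σ₁ σ₂).ker, y ^ Nat.card A = 1 := by
      intro y hy
      have hy1 : (y : Γ₁ × Γ₂).1 = 1 := hy
      have hy2 : (y : Γ₁ × Γ₂).2 ∈ σ₂.ker := by
        have := pb.comm_apply σ₁ σ₂ y
        rw [hy1, map_one] at this
        exact this.symm
      have h3 : (⟨(y : Γ₁ × Γ₂).2, hy2⟩ : σ₂.ker) ^ Nat.card A = 1 := by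
        rw [← Nat.card_congr e₂.toEquiv]
        exact pow_card_eq_one'
      apply Subtype.ext
      apply Prod.ext
      · show ((y : Γ₁ × Γ₂).1) ^ Nat.card A = 1
        rw [hy1, one_pow]
      · exact congrArg Subtype.val h3
    have ha₂ : ∀ y ∈ (pb.snd σ₁ σ₂).ker, y ^ Nat.card A = 1 := by
      intro y hy
      have hy2 : (y : Γ₁ × Γ₂).2 = 1 := hy
      have hy1 : (y : Γ₁ × Γ₂).1 ∈ σ₁.ker := by
        have := pb.comm_apply σ₁ σ₂ y
        rw [hy2, map_one] at this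
        exact this
      have h3 : (⟨(y : Γ₁ × Γ₂).1, hy1⟩ : σ₁.ker) ^ Nat.card A = 1 := by
        rw [← Nat.card_congr e₁.toEquiv]
        exact pow_card_eq_one'
      apply Subtype.ext
      apply Prod.ext
      · exact congrArg Subtype.val h3
      · show ((y : Γ₁ × Γ₂).2) ^ Nat.card A = 1
        rw [hy2, one_pow]
    have hc₂ : (pb.snd σ₁ σ₂).ker ≤ Subgroup.center (pb σ₁ σ₂) := by
      intro y hy
      have hy2 : (y : Γ₁ × Γ₂).2 = 1 := hy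
      have hy1 : (y : Γ₁ × Γ₂).1 ∈ σ₁.ker := by
        have := pb.comm_apply σ₁ σ₂ y
        rw [hy2, map_one] at this
        exact this
      exact pb.mem_center_of σ₁ σ₂ y (h₁c hy1) (by rw [hy2]; exact Subgroup.one_mem _)
    have hB₁ := bijective_comp_Sb (pb.fst σ₁ σ₂) (pb.fst_surjective σ₁ σ₂ h₂s)
      (pb.ker_fst_le_center σ₁ σ₂ h₂c) hd₁ (Nat.card A) (Nat.card (Abelianization Q)) hcop.symm ha₁
      (pow_card_ab_mem_commutator σ₁ h₁s h₁k)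
    have hB₂ := bijective_comp_Sb (pb.snd σ₁ σ₂) (pb.snd_surjective σ₁ σ₂ h₁s)
      hc₂ hd₂ (Nat.card A) (Nat.card (Abelianization Q)) hcop.symm ha₂
      (pow_card_ab_mem_commutator σ₂ h₂s h₂k)
    refine ⟨(MulEquiv.ofBijective _ hB₁).symm.trans (MulEquiv.ofBijective _ hB₂), ?_⟩
    ext g
    obtain ⟨y, rfl⟩ := hB₁.surjective g
    have hsymm : (MulEquiv.ofBijective _ hB₁).symm
        (((pb.fst σ₁ σ₂).comp (Sb (pb σ₁ σ₂) (Nat.card (Abelianization Q))).subtype) y) = y :=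
      (MulEquiv.ofBijective _ hB₁).symm_apply_apply y
    show σ₂ ((MulEquiv.ofBijective _ hB₂) ((MulEquiv.ofBijective _ hB₁).symm
      (((pb.fst σ₁ σ₂).comp (Sb (pb σ₁ σ₂) (Nat.card (Abelianization Q))).subtype) y))) = σ₁ _
    rw [hsymm]
    exact (pb.comm_apply σ₁ σ₂ (y : pb σ₁ σ₂)).symm

end Cfsg.Agent.S3974
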