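import Cfsg.Statements.S3976
import Mathlib
import Cfsg.Agent.S3975

set_option autoImplicit false
open Cfsg

namespace Cfsg.Agent.S3976

open scoped Pointwise

/-- Let `p` be a prime and `G` a group of order `p ^ m`. For every `s ≤ m` the number of normal subgroups of `G` of order `p ^ s` is congruent to `1` modulo `p`. -/
theorem result {G : Type*} [Group G] [Finite G] (p m s : ℕ) (hp : p.Prime) (hG : Nat.card G = p ^ m) (hs : s ≤ m) : Nat.card {H : Subgroup G // H.Normal ∧ Nat.card H = p ^ s} ≡ 1 [MOD p] := by
  have := Fact.mk hp
  have hPG : IsPGroup p G := IsPGroup.of_card hG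
  let act : MulAction G {H : Subgroup G // Nat.card H = p ^ s} :=
    { smul := fun g H => ⟨MulAut.conj g • H.1, by
        have h1 : Nat.card (MulAut.conj g • H.1 : Subgroup G) = Nat.card H.1 :=
          Subgroup.card_map_of_injective (K := H.1) (f := (MulAut.conj g).toMonoidHom)
            (MulAut.conj g).injective
        rw [h1]; exact H.2⟩
      one_smul := fun H => Subtype.ext (by
        change MulAut.conj (1 : G) • H.1 = H.1
        rw [map_one, one_smul])
      mul_smul := fun g h H => Subtype.ext (by
        change MulAut.conj (g * h) • H.1 = MulAut.conj g • (MulAut.conj h • H.1)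
        rw [map_mul, mul_smul]) }
  have hsmul : ∀ (g : G) (H : {H : Subgroup G // Nat.card H = p ^ s}),
      ((g • H : {H : Subgroup G // Nat.card H = p ^ s}) : Subgroup G) = MulAut.conj g • H.1 :=
    fun g H => rfl
  have h1 := hPG.card_modEq_card_fixedPoints {H : Subgroup G // Nat.card H = p ^ s}
  have h2 : Nat.card {H : Subgroup G // Nat.card H = p ^ s} ≡ 1 [MOD p] :=
    Cfsg.Agent.S3975.result p s hp (hG ▸ pow_dvd_pow p hs)
  have h3 : Nat.card (MulAction.fixedPoints G {H : Subgroup G // Nat.card H = p ^ s}) =
      Nat.card {H : Subgroup G // H.Normal ∧ Nat.card H = p ^ s} := by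
    apply Nat.card_congr
    exact
      { toFun := fun H => ⟨H.1.1, ⟨Subgroup.Normal.of_conjugate_fixed (fun g => by
            have := H.2 g
            rw [← hsmul, this]), H.1.2⟩⟩
        invFun := fun H => ⟨⟨H.1, H.2.2⟩, fun g => Subtype.ext (by
            rw [hsmul]
            have := H.2.1
            exact Subgroup.Normal.conj_smul_eq_self g H.1)⟩
        left_inv := fun H => rfl
        right_inv := fun H => rfl }
  rw [← h3]
  exact h1.symm.trans h2

end Cfsg.Agent.S3976
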