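import Cfsg.Statements.S3978
import Mathlib
import Cfsg.Agent.S3955
import Cfsg.Agent.S3956
import Cfsg.Agent.Lib.Helper70.StemTools

set_option autoImplicit false
open Cfsg

namespace Cfsg.Agent.S3978

theorem isStem_id (Q : Type*) [Group Q] : Cfsg.IsStemExtension (MonoidHom.id Q) :=
  ⟨Function.surjective_id, by rw [MonoidHom.ker_id]; exact bot_le,
    by rw [MonoidHom.ker_id]; exact bot_le⟩

/-- A finite group `Q` has trivial Schur multiplier if and only if, for every `n`, every homomorphism from `Q` to the projective general linear group (the quotient of `GL n ℂ` by its centre) lifts to a homomorphism into `GL n ℂ`. -/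
theorem result {Q : Type*} [Group Q] [Finite Q] : Cfsg.HasCyclicSchurMultiplier Q 1 ↔ ∀ (n : ℕ) (γ : Q →* (GL (Fin n) ℂ ⧸ Subgroup.center (GL (Fin n) ℂ))), ∃ ρ : Q →* GL (Fin n) ℂ, (QuotientGroup.mk' (Subgroup.center (GL (Fin n) ℂ))).comp ρ = γ := by
  constructor
  · intro hA n γ
    obtain ⟨ρ, hρ⟩ := Cfsg.Agent.S3955.result hA (MonoidHom.id Q) (isStem_id Q)
      (by rw [MonoidHom.ker_id]; exact ⟨MulEquiv.ofUnique⟩) n γ
    exact ⟨ρ, by rw [hρ, MonoidHom.comp_id]⟩
  · intro h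
    rw [Cfsg.Agent.Lib.Helper70.hasCyclicSchurMultiplier_one_iff]
    intro Γ _ _ σ hσ
    obtain ⟨π, hπ⟩ := Cfsg.Agent.S3956.result (MonoidHom.id Q) (isStem_id Q)
      (fun n γ => by
        obtain ⟨ρ, hρ⟩ := h n γ
        exact ⟨ρ, by rw [hρ, MonoidHom.comp_id]⟩) Γ σ hσ
    rw [eq_bot_iff]
    intro x hx
    obtain ⟨a, ha⟩ := hπ ⟨x, hx⟩
    have h1 : a = 1 := by
      apply Subtype.ext
      have h2 : (MonoidHom.id Q) (a : Q) = 1 := MonoidHom.mem_ker.mp a.2
      exact h2
    rw [h1, map_one] at ha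
    rw [Subgroup.mem_bot]
    exact (congrArg Subtype.val ha).symm

end Cfsg.Agent.S3978
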