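import Cfsg.Statements.S3979
import Mathlib

set_option autoImplicit false
open Cfsg

namespace Cfsg.Agent.S3979

/-- A finite cyclic group has trivial Schur multiplier: every finite stem extension of it is an isomorphism, said through `HasCyclicSchurMultiplier G 1`. -/
theorem result {G : Type*} [Group G] [Finite G] [IsCyclic G] : Cfsg.HasCyclicSchurMultiplier G 1 := by
  refine ⟨⟨G, inferInstance, inferInstance, MonoidHom.id G, ⟨Function.surjective_id, ?_, ?_⟩, ?_⟩, ?_⟩
  · rw [MonoidHom.ker_id]; exact bot_le
  · rw [MonoidHom.ker_id]; exact bot_le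
  · have h1 : Subsingleton (MonoidHom.id G).ker := by
      rw [MonoidHom.ker_id]; infer_instance
    have h2 : Subsingleton (Multiplicative (ZMod 1)) := by
      change Subsingleton (Fin 1); infer_instance
    exact ⟨{ toFun := fun _ => 1, invFun := fun _ => 1,
             left_inv := fun _ => Subsingleton.elim _ _,
             right_inv := fun _ => Subsingleton.elim _ _,
             map_mul' := fun _ _ => Subsingleton.elim _ _ }⟩
  · intro Γ _ _ σ hσ
    obtain ⟨hsurj, hcen, hcomm⟩ := hσ
    have hab : ∀ a b : Γ, a * b = b * a :=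
      (σ.isMulCommutative_of_isCyclic_of_ker_le_center hcen).is_comm.comm
    have hc : commutator Γ = ⊥ := by
      rw [commutator_eq_bot_iff_center_eq_top, Subgroup.eq_top_iff']
      intro a
      rw [Subgroup.mem_center_iff]
      intro b
      exact hab b a
    have hker : σ.ker = ⊥ := by
      rw [hc] at hcomm; exact le_bot_iff.mp hcomm
    refine ⟨1, ?_⟩
    intro x
    refine ⟨1, ?_⟩
    have : (x : Γ) ∈ (⊥ : Subgroup Γ) := hker ▸ x.2
    rw [Subgroup.mem_bot] at this
    ext
    simp [this]

end Cfsg.Agent.S3979
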