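import Cfsg.Statements.S3980
import Mathlib
import Cfsg.Agent.S3959

set_option autoImplicit false
universe u v w
open Cfsg

namespace Cfsg.Agent.S3980

theorem hasSchurMultiplier_congr {G : Type*} [Group G] {A : Type*} {A' : Type*} [CommGroup A]
    [CommGroup A'] (e : A ≃* A') (h : Cfsg.HasSchurMultiplier G A) :
    Cfsg.HasSchurMultiplier G A' := by
  obtain ⟨⟨Γ, hΓ, hfin, σ, hσ, ⟨f⟩⟩, h2⟩ := h
  refine ⟨⟨Γ, hΓ, hfin, σ, hσ, ⟨f.trans e⟩⟩, ?_⟩
  intro Γ' _ _ σ' hσ'
  obtain ⟨π, hπ⟩ := h2 Γ' σ' hσ'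
  exact ⟨π.comp e.symm.toMonoidHom, hπ.comp e.symm.surjective⟩

open scoped TensorProduct in
theorem tensor_subsingleton (M N : Type*) [AddCommGroup M] [AddCommGroup N] (a b : ℕ)
    (hab : Nat.Coprime a b) (hM : ∀ m : M, a • m = 0) (hN : ∀ n : N, b • n = 0) :
    Subsingleton (M ⊗[ℤ] N) := by
  have key : ∀ z : M ⊗[ℤ] N, z = 0 := by
    intro z
    induction z using TensorProduct.induction_on with
    | zero => rfl
    | tmul m n =>
      have hb : ((a : ℤ) * Nat.gcdA a b + (b : ℤ) * Nat.gcdB a b) = 1 := by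
        have h1 := Nat.gcd_eq_gcd_ab a b
        rw [hab] at h1
        exact_mod_cast h1.symm
      have h1 : ((a : ℤ) * Nat.gcdA a b) • (m ⊗ₜ[ℤ] n) = 0 := by
        rw [TensorProduct.smul_tmul', mul_comm, mul_smul, natCast_zsmul, hM, smul_zero,
          TensorProduct.zero_tmul]
      have h2 : ((b : ℤ) * Nat.gcdB a b) • (m ⊗ₜ[ℤ] n) = 0 := by
        rw [← TensorProduct.tmul_smul, mul_comm, mul_smul, natCast_zsmul, hN, smul_zero,
          TensorProduct.tmul_zero]
      calc m ⊗ₜ[ℤ] n = (1 : ℤ) • (m ⊗ₜ[ℤ] n) := (one_smul _ _).symm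
        _ = ((a : ℤ) * Nat.gcdA a b + (b : ℤ) * Nat.gcdB a b) • (m ⊗ₜ[ℤ] n) := by rw [hb]
        _ = 0 := by rw [add_smul, h1, h2, add_zero]
    | add x y hx hy => rw [hx, hy, add_zero]
  exact ⟨fun x y => by rw [key x, key y]⟩

theorem additive_card_nsmul (X : Type*) [CommGroup X] [Finite X] (m : Additive X) :
    Nat.card X • m = 0 := by
  have h := pow_card_eq_one' (G := X) (x := Additive.toMul m)
  exact congrArg Additive.ofMul h

/-- Let `Q₁` and `Q₂` be finite groups whose commutator quotients have coprime orders, with Schur multipliers `A` and `B`. Then the Schur multiplier of `Q₁ × Q₂` is isomorphic to `A × B`. -/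
theorem result {Q₁ : Type u} {Q₂ : Type v} [Group Q₁] [Group Q₂] [Finite Q₁] [Finite Q₂] {A B : Type w} [CommGroup A] [CommGroup B] (hA : Cfsg.HasSchurMultiplier Q₁ A) (hB : Cfsg.HasSchurMultiplier Q₂ B) (hcop : Nat.Coprime (Nat.card (Abelianization Q₁)) (Nat.card (Abelianization Q₂))) : Cfsg.HasSchurMultiplier (Q₁ × Q₂) (A × B) := by
  have h := Cfsg.Agent.S3959.result hA hB
  have hsub : Subsingleton (TensorProduct ℤ (Additive (Abelianization Q₁))
      (Additive (Abelianization Q₂))) :=
    tensor_subsingleton _ _ _ _ hcop (additive_card_nsmul (Abelianization Q₁))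
      (additive_card_nsmul (Abelianization Q₂))
  have huniq : Unique (Multiplicative (TensorProduct ℤ (Additive (Abelianization Q₁))
      (Additive (Abelianization Q₂)))) :=
    ⟨⟨1⟩, fun x => by
      have h1 : Multiplicative.toAdd x = Multiplicative.toAdd 1 := Subsingleton.elim _ _
      exact Multiplicative.toAdd.injective h1⟩
  exact hasSchurMultiplier_congr
    ((MulEquiv.prodAssoc (M := A) (N := B)
      (P := Multiplicative (TensorProduct ℤ (Additive (Abelianization Q₁))
        (Additive (Abelianization Q₂))))).symm.trans MulEquiv.prodUnique) h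

end Cfsg.Agent.S3980
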