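import Cfsg.Statements.S4002
import Mathlib

set_option autoImplicit false
open Cfsg

namespace Cfsg.Agent.S4002


open Finset in
theorem prod_conj_eq_one {F V : Type*} [Group F] [Fintype F] [DecidableEq F] [CommGroup V]
    (φ : F →* MulAut V) (H : Subgroup F) [DecidablePred (· ∈ H)] (h₀ : F) (hh₀ : h₀ ∈ H)
    (hfix : ∀ w : V, φ h₀ w = w → w = 1) (v : V) :
    ∏ g ∈ Finset.univ.filter (· ∈ H), φ g v = 1 := by
  apply hfix
  rw [map_prod]
  refine Finset.prod_nbij' (fun g => h₀ * g) (fun g => h₀⁻¹ * g) ?_ ?_ ?_ ?_ ?_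
  · intro g hg
    simp only [Finset.mem_filter, Finset.mem_univ, true_and] at hg ⊢
    exact H.mul_mem hh₀ hg
  · intro g hg
    simp only [Finset.mem_filter, Finset.mem_univ, true_and] at hg ⊢
    exact H.mul_mem (H.inv_mem hh₀) hg
  · intro g _; simp
  · intro g _; simp
  · intro g _; simp [map_mul]

theorem norm_partition {F V : Type*} [Group F] [Finite F] [CommGroup V] (φ : F →* MulAut V)
    (hprime : ∀ f : F, f ≠ 1 → (orderOf f).Prime)
    (hfpf : ∀ f : F, f ≠ 1 → ∀ w : V, φ f w = w → w = 1) (hF : Nontrivial F) :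
    ∃ t : Finset (Subgroup F), (∀ C ∈ t, ∃ f : F, f ≠ 1 ∧ C = Subgroup.zpowers f) ∧
      (∀ f : F, f ≠ 1 → Subgroup.zpowers f ∈ t) ∧
      (∑ C ∈ t, (Nat.card C - 1) = Nat.card F - 1) ∧ ∀ v : V, v ^ t.card = v := by
  classical
  have : Fintype F := Fintype.ofFinite F
  obtain ⟨f₀, hf₀⟩ := exists_ne (1 : F)
  obtain ⟨s, hs⟩ : ∃ s : Finset F, s = Finset.univ.filter (· ≠ 1) := ⟨_, rfl⟩
  obtain ⟨t, ht⟩ : ∃ t : Finset (Subgroup F), t = s.image Subgroup.zpowers := ⟨_, rfl⟩
  have hmem_s : ∀ g : F, g ∈ s ↔ g ≠ 1 := by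
    intro g; rw [hs]; simp
  have hmem_t : ∀ C, C ∈ t ↔ ∃ f : F, f ≠ 1 ∧ C = Subgroup.zpowers f := by
    intro C; rw [ht, Finset.mem_image]
    constructor
    · rintro ⟨f, hf, rfl⟩; exact ⟨f, (hmem_s f).mp hf, rfl⟩
    · rintro ⟨f, hf, rfl⟩; exact ⟨f, (hmem_s f).mpr hf, rfl⟩
  have hmaps : ∀ x ∈ s, Subgroup.zpowers x ∈ t := by
    intro x hx; rw [ht]; exact Finset.mem_image_of_mem _ hx
  have hfib : ∀ C ∈ t, s.filter (fun g => Subgroup.zpowers g = C)
      = (Finset.univ.filter (· ∈ C)).erase 1 := by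
    intro C hC
    obtain ⟨f', hf', rfl⟩ := (hmem_t C).mp hC
    ext g
    simp only [Finset.mem_filter, Finset.mem_erase, Finset.mem_univ, true_and, hmem_s]
    constructor
    · rintro ⟨hg1, hg2⟩
      refine ⟨hg1, ?_⟩
      rw [← hg2]; exact Subgroup.mem_zpowers g
    · rintro ⟨hg1, hg2⟩
      refine ⟨hg1, ?_⟩
      have hle : Subgroup.zpowers g ≤ Subgroup.zpowers f' := Subgroup.zpowers_le.mpr hg2
      apply Subgroup.eq_of_le_of_card_ge hle
      rw [Nat.card_zpowers, Nat.card_zpowers]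
      have hd : orderOf g ∣ orderOf f' := by
        have := Subgroup.card_dvd_of_le hle
        rwa [Nat.card_zpowers, Nat.card_zpowers] at this
      have h1 : orderOf g ≠ 1 := by
        rw [Ne, orderOf_eq_one_iff]; exact hg1
      rcases (Nat.dvd_prime (hprime f' hf')).mp hd with h | h
      · exact absurd h h1
      · exact h.ge
  have hN1 : ∀ (H : Subgroup F) (h₀ : F), h₀ ∈ H → h₀ ≠ 1 → ∀ v : V,
      ∏ g ∈ Finset.univ.filter (· ∈ H), φ g v = 1 := by
    intro H h₀ hh₀ hne v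
    exact prod_conj_eq_one φ H h₀ hh₀ (hfpf h₀ hne) v
  have hcardC : ∀ C : Subgroup F, (Finset.univ.filter (· ∈ C)).card = Nat.card C := by
    intro C
    rw [Nat.card_eq_fintype_card, Fintype.card_subtype]
  refine ⟨t, fun C hC => (hmem_t C).mp hC, fun f hf => (hmem_t _).mpr ⟨f, hf, rfl⟩, ?_, ?_⟩
  · have h1 : s.card = Nat.card F - 1 := by
      rw [hs, Finset.filter_ne', Finset.card_erase_of_mem (Finset.mem_univ _), Finset.card_univ,
        Nat.card_eq_fintype_card]
    rw [← h1, Finset.card_eq_sum_card_fiberwise hmaps]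
    apply Finset.sum_congr rfl
    intro C hC
    rw [hfib C hC, Finset.card_erase_of_mem (by simp [C.one_mem]), hcardC]
  · intro v
    have hall : ∏ g ∈ (Finset.univ : Finset F), φ g v = 1 := by
      have := hN1 ⊤ f₀ (Subgroup.mem_top _) hf₀ v
      simpa using this
    have hs' : s = (Finset.univ : Finset F).erase 1 := by
      rw [hs, Finset.filter_ne']
    have h2 : v * ∏ g ∈ s, φ g v = 1 := by
      rw [hs', ← hall, ← Finset.mul_prod_erase _ _ (Finset.mem_univ (1 : F))]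
      simp
    have h3 : ∏ g ∈ s, φ g v = (v⁻¹) ^ t.card := by
      rw [← Finset.prod_fiberwise_of_maps_to hmaps, ← Finset.prod_const]
      apply Finset.prod_congr rfl
      intro C hC
      rw [hfib C hC]
      obtain ⟨f', hf', rfl⟩ := (hmem_t C).mp hC
      have h4 := hN1 (Subgroup.zpowers f') f' (Subgroup.mem_zpowers f') hf' v
      rw [← Finset.mul_prod_erase _ _ (show (1 : F) ∈ Finset.univ.filter (· ∈ Subgroup.zpowers f')
        by simp)] at h4
      simp only [map_one, MulAut.one_apply] at h4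
      exact eq_inv_of_mul_eq_one_right h4
    rw [h3, inv_pow] at h2
    exact (mul_inv_eq_one.mp h2).symm


theorem np_sub {G : Type*} [Group G] [Finite G] (V : Subgroup G) [V.Normal]
    (hVab : ∀ a ∈ V, ∀ b ∈ V, a * b = b * a) (F : Subgroup G) (hF : F ≠ ⊥)
    (hprime : ∀ f ∈ F, f ≠ 1 → (orderOf f).Prime)
    (hfpf : ∀ f ∈ F, f ≠ 1 → ∀ v ∈ V, f * v = v * f → v = 1) :
    ∃ t : Finset (Subgroup F), (∀ C ∈ t, ∃ f : F, f ≠ 1 ∧ C = Subgroup.zpowers f) ∧
      (∀ f : F, f ≠ 1 → Subgroup.zpowers f ∈ t) ∧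
      (∑ C ∈ t, (Nat.card C - 1) = Nat.card F - 1) ∧ ∀ v ∈ V, v ^ t.card = v := by
  let _ : CommGroup ↥V :=
    { (inferInstance : Group ↥V) with mul_comm := fun a b => Subtype.ext (hVab a a.2 b b.2) }
  have hnt : Nontrivial ↥F := (Subgroup.nontrivial_iff_ne_bot F).mpr hF
  obtain ⟨t, h1, h2, h3, h4⟩ := norm_partition (F := ↥F) (V := ↥V)
    ((MulAut.conjNormal (H := V)).comp F.subtype)
    (fun f hf => by
      have := hprime f f.2 (fun h => hf (Subtype.ext h))
      rwa [Subgroup.orderOf_coe] at this)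
    (fun f hf w hw => by
      have h5 := hfpf f f.2 (fun h => hf (Subtype.ext h)) w w.2 (by
        have h6 := congrArg Subtype.val hw
        simp only [MonoidHom.comp_apply, Subgroup.coe_subtype, MulAut.conjNormal_apply] at h6
        calc (f : G) * (w : G) = ((f : G) * (w : G) * (f : G)⁻¹) * (f : G) := by group
          _ = (w : G) * (f : G) := by rw [h6])
      exact Subtype.ext h5) hnt
  refine ⟨t, h1, h2, h3, ?_⟩
  intro v hv
  have := congrArg Subtype.val (h4 ⟨v, hv⟩)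
  simpa using this


theorem dvd_prime_mul_prime {q r d : ℕ} (hq : q.Prime) (hr : r.Prime) (hd : d ∣ q * r) :
    d = 1 ∨ d = q ∨ d = r ∨ d = q * r := by
  obtain ⟨d₁, d₂, h1, h2, rfl⟩ := (Nat.dvd_mul).mp hd
  rcases (Nat.dvd_prime hq).mp h1 with rfl | rfl <;> rcases (Nat.dvd_prime hr).mp h2 with rfl | rfl
  · left; rfl
  · right; right; left; rw [one_mul]
  · right; left; rw [mul_one]
  · right; right; right; rfl

/-- `Ω₁(Z(Q))` as a subgroup of the ambient group. -/
def omegaZ {G : Type*} [Group G] (Q : Subgroup G) (q : ℕ) : Subgroup G where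
  carrier := {a | a ∈ Q ∧ a ^ q = 1 ∧ ∀ x ∈ Q, a * x = x * a}
  mul_mem' := by
    rintro a b ⟨ha1, ha2, ha3⟩ ⟨hb1, hb2, hb3⟩
    refine ⟨Q.mul_mem ha1 hb1, ?_, ?_⟩
    · rw [(show Commute a b from ha3 b hb1).mul_pow, ha2, hb2, one_mul]
    · intro x hx
      rw [mul_assoc, hb3 x hx, ← mul_assoc, ha3 x hx, mul_assoc]
  one_mem' := ⟨Q.one_mem, one_pow _, fun x _ => by rw [one_mul, mul_one]⟩
  inv_mem' := by
    rintro a ⟨ha1, ha2, ha3⟩
    refine ⟨Q.inv_mem ha1, by rw [inv_pow, ha2, inv_one], ?_⟩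
    intro x hx
    have := ha3 x hx
    calc a⁻¹ * x = a⁻¹ * (x * a) * a⁻¹ := by group
      _ = a⁻¹ * (a * x) * a⁻¹ := by rw [this]
      _ = x * a⁻¹ := by group

theorem mem_omegaZ {G : Type*} [Group G] (Q : Subgroup G) (q : ℕ) (a : G) :
    a ∈ omegaZ Q q ↔ a ∈ Q ∧ a ^ q = 1 ∧ ∀ x ∈ Q, a * x = x * a := Iff.rfl

open scoped Pointwise in
theorem config {G : Type*} [Group G] [Finite G] (V : Subgroup G) [V.Normal]
    (hVab : ∀ a ∈ V, ∀ b ∈ V, a * b = b * a) (hV : V ≠ ⊥) (q r : ℕ) (hq : q.Prime) (hr : r.Prime)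
    (hqr : q ≠ r)
    (hfpf : ∀ k : G, orderOf k = q ∨ orderOf k = r → ∀ v ∈ V, k * v = v * k → v = 1)
    (hVq : ∀ v ∈ V, v ^ q = 1 → v = 1)
    (Q : Subgroup G) (hQ : IsPGroup q Q) (hQ1 : Q ≠ ⊥) (z : G) (hz : orderOf z = r)
    (hzQ : ∀ x, x ∈ Q ↔ z * x * z⁻¹ ∈ Q) :
    ∃ k : G, orderOf k = q * r := by
  classical
  have : Fact q.Prime := ⟨hq⟩
  by_contra hno
  have key : ∀ n : ℕ, n = q + 1 → (∀ v ∈ V, v ^ n = v) → False := by
    intro n hn hv
    apply hV
    rw [eq_bot_iff]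
    intro v hvV
    rw [Subgroup.mem_bot]
    apply hVq v hvV
    have := hv v hvV
    rw [hn, pow_succ] at this
    exact mul_eq_right.mp this
  obtain ⟨A, hA⟩ : ∃ A : Subgroup G, A = omegaZ Q q := ⟨_, rfl⟩
  have hmemA : ∀ a, a ∈ A ↔ a ∈ Q ∧ a ^ q = 1 ∧ ∀ x ∈ Q, a * x = x * a := by
    intro a; rw [hA]; exact mem_omegaZ Q q a
  have hAQ : A ≤ Q := fun a ha => ((hmemA a).mp ha).1
  have hAq : ∀ a ∈ A, a ^ q = 1 := fun a ha => ((hmemA a).mp ha).2.1
  -- a central element of order q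
  have hQnt : Nontrivial ↥Q := (Subgroup.nontrivial_iff_ne_bot Q).mpr hQ1
  obtain ⟨a₀, ha₀A, ha₀⟩ : ∃ a₀ ∈ A, a₀ ≠ 1 := by
    have hZnt : Nontrivial (Subgroup.center ↥Q) := hQ.center_nontrivial
    have hZ : IsPGroup q (Subgroup.center ↥Q) := hQ.to_subgroup _
    obtain ⟨k, hk⟩ := IsPGroup.iff_card.mp hZ
    have hk0 : k ≠ 0 := by
      rintro rfl
      rw [pow_zero] at hk
      have := Finite.one_lt_card (α := Subgroup.center ↥Q)
      omega
    have hdvd : q ∣ Nat.card (Subgroup.center ↥Q) := by rw [hk]; exact dvd_pow_self q hk0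
    obtain ⟨c, hc⟩ := exists_prime_orderOf_dvd_card' q hdvd
    have hc' : orderOf (((c : ↥Q) : G)) = q := by
      rw [Subgroup.orderOf_coe, Subgroup.orderOf_coe]; exact hc
    refine ⟨((c : ↥Q) : G), ?_, ?_⟩
    · rw [hmemA]
      refine ⟨(c : ↥Q).2, by rw [← hc']; exact pow_orderOf_eq_one _, ?_⟩
      intro x hx
      have := (Subgroup.mem_center_iff.mp c.2) ⟨x, hx⟩
      have h2 := congrArg Subtype.val this
      simpa using h2.symm
    · intro h
      rw [h, orderOf_one] at hc'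
      exact hq.one_lt.ne hc'
  have hAne : A ≠ ⊥ := by
    intro h
    rw [h, Subgroup.mem_bot] at ha₀A
    exact ha₀ ha₀A
  have hzA : z ∈ Subgroup.normalizer (A : Set G) := by
    rw [Subgroup.mem_normalizer_iff]
    intro a
    constructor
    · intro ha
      obtain ⟨ha1, ha2, ha3⟩ := (hmemA a).mp ha
      rw [hmemA]
      refine ⟨(hzQ a).mp ha1, by rw [conj_pow, ha2, mul_one, mul_inv_cancel], ?_⟩
      intro x hx
      have hy : z⁻¹ * x * z ∈ Q := by
        rw [hzQ]
        have : z * (z⁻¹ * x * z) * z⁻¹ = x := by group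
        rw [this]; exact hx
      have h := ha3 _ hy
      calc z * a * z⁻¹ * x = z * (a * (z⁻¹ * x * z)) * z⁻¹ := by group
        _ = z * ((z⁻¹ * x * z) * a) * z⁻¹ := by rw [h]
        _ = x * (z * a * z⁻¹) := by group
    · intro ha
      obtain ⟨ha1, ha2, ha3⟩ := (hmemA _).mp ha
      rw [hmemA]
      refine ⟨(hzQ a).mpr ha1, ?_, ?_⟩
      · rw [conj_pow] at ha2
        have : a ^ q = z⁻¹ * (z * a ^ q * z⁻¹) * z := by group
        rw [this, ha2]; group
      · intro x hx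
        have h := ha3 _ ((hzQ x).mp hx)
        calc a * x = z⁻¹ * ((z * a * z⁻¹) * (z * x * z⁻¹)) * z := by group
          _ = z⁻¹ * ((z * x * z⁻¹) * (z * a * z⁻¹)) * z := by rw [h]
          _ = x * a := by group
  have hAp : IsPGroup q ↥A := hQ.to_le hAQ
  obtain ⟨k, hk⟩ := IsPGroup.iff_card.mp hAp
  have hk0 : k ≠ 0 := by
    rintro rfl
    rw [pow_zero] at hk
    exact hAne ((Subgroup.card_eq_one).mp hk)
  by_cases hk2 : 2 ≤ k
  · -- an elementary abelian subgroup of order q^2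
    obtain ⟨E₀, hE₀⟩ := Sylow.exists_subgroup_card_pow_prime q (G := ↥A) (n := 2)
      (by rw [hk]; exact pow_dvd_pow q hk2)
    obtain ⟨E, hE⟩ : ∃ E : Subgroup G, E = E₀.map A.subtype := ⟨_, rfl⟩
    have hEcard : Nat.card E = q ^ 2 := by
      rw [hE, Subgroup.card_map_of_injective A.subtype_injective]; exact hE₀
    have hEA : E ≤ A := by rw [hE]; exact Subgroup.map_subtype_le E₀
    have hEne : E ≠ ⊥ := by
      intro h
      rw [h, Subgroup.card_bot] at hEcard
      have := hq.one_lt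
      nlinarith
    have hEord : ∀ f ∈ E, f ≠ 1 → orderOf f = q :=
      fun f hf hf1 => orderOf_eq_prime (hAq f (hEA hf)) hf1
    obtain ⟨t, h1, h2, h3, h4⟩ := np_sub V hVab E hEne
      (fun f hf hf1 => by rw [hEord f hf hf1]; exact hq)
      (fun f hf hf1 v hv hcomm => hfpf f (Or.inl (hEord f hf hf1)) v hv hcomm)
    refine key t.card ?_ h4
    have h5 : ∀ C ∈ t, Nat.card C - 1 = q - 1 := by
      intro C hC
      obtain ⟨f, hf1, rfl⟩ := h1 C hC
      rw [Nat.card_zpowers, ← Subgroup.orderOf_coe, hEord f f.2 (fun h => hf1 (Subtype.ext h))]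
    rw [Finset.sum_congr rfl h5, Finset.sum_const, smul_eq_mul, hEcard] at h3
    obtain ⟨m, rfl⟩ : ∃ m, q = m + 1 := ⟨q - 1, by have := hq.one_lt; omega⟩
    have hm : 0 < m := by have := hq.one_lt; omega
    have h6 : (m + 1) ^ 2 - 1 = (m + 2) * m := Nat.sub_eq_of_eq_add (by ring)
    rw [h6, Nat.add_sub_cancel] at h3
    exact Nat.eq_of_mul_eq_mul_right hm h3
  · have hk1 : k = 1 := by omega
    rw [hk1, pow_one] at hk
    obtain ⟨Z, hZ⟩ : ∃ Z : Subgroup G, Z = Subgroup.zpowers z := ⟨_, rfl⟩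
    have hZcard : Nat.card Z = r := by rw [hZ, Nat.card_zpowers, hz]
    have hZn : Z ≤ Subgroup.normalizer (A : Set G) := by
      rw [hZ]; exact Subgroup.zpowers_le.mpr hzA
    obtain ⟨F, hF⟩ : ∃ F : Subgroup G, F = A ⊔ Z := ⟨_, rfl⟩
    have hFset : (F : Set G) = (A : Set G) * (Z : Set G) := by
      rw [hF]; exact Subgroup.coe_mul_of_right_le_normalizer_left A Z hZn
    have hAF : A ≤ F := by rw [hF]; exact le_sup_left
    have hZF : Z ≤ F := by rw [hF]; exact le_sup_right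
    have hcop : Nat.Coprime q r := (Nat.coprime_primes hq hr).mpr hqr
    have hFcard : Nat.card F = q * r := by
      apply Nat.le_antisymm
      · have h1 : Nat.card F = Nat.card ((F : Set G)) := rfl
        rw [h1, hFset]
        calc Nat.card ((A : Set G) * (Z : Set G) : Set G)
            ≤ Nat.card (A : Set G) * Nat.card (Z : Set G) := Set.natCard_mul_le
          _ = q * r := by rw [← hk, ← hZcard]; rfl
      · apply Nat.le_of_dvd Nat.card_pos
        exact Nat.Coprime.mul_dvd_of_dvd_of_dvd hcop (hk ▸ Subgroup.card_dvd_of_le hAF)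
          (hZcard ▸ Subgroup.card_dvd_of_le hZF)
    have hFord : ∀ f ∈ F, f ≠ 1 → orderOf f = q ∨ orderOf f = r := by
      intro f hf hf1
      have hd : orderOf f ∣ q * r := by
        have := orderOf_dvd_natCard (⟨f, hf⟩ : F)
        rwa [Subgroup.orderOf_mk, hFcard] at this
      rcases dvd_prime_mul_prime hq hr hd with h | h | h | h
      · exact absurd (orderOf_eq_one_iff.mp h) hf1
      · exact Or.inl h
      · exact Or.inr h
      · exact absurd ⟨f, h⟩ hno
    have hinf : A ⊓ Z = ⊥ :=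
      (Subgroup.disjoint_of_coprime_natCard (by rw [hk, hZcard]; exact hcop)).eq_bot
    have hqA : ∀ f ∈ F, f ^ q = 1 → f ∈ A := by
      intro f hf hfq
      have hf' : f ∈ (A : Set G) * (Z : Set G) := by rw [← hFset]; exact hf
      obtain ⟨a, ha, w, hw, rfl⟩ := Set.mem_mul.mp hf'
      have hpow : ∀ n : ℕ, ∃ a' ∈ A, (a * w) ^ n = a' * w ^ n := by
        intro n
        induction n with
        | zero => exact ⟨1, A.one_mem, by simp⟩
        | succ n ih =>
          obtain ⟨a', ha', h⟩ := ih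
          refine ⟨a' * (w ^ n * a * (w ^ n)⁻¹), A.mul_mem ha' ?_, ?_⟩
          · exact (Subgroup.mem_normalizer_iff.mp (hZn (Z.pow_mem hw n)) a).mp ha
          · rw [pow_succ, h, pow_succ]; group
      obtain ⟨a', ha', h⟩ := hpow q
      rw [hfq] at h
      have hwq : w ^ q ∈ A ⊓ Z := by
        refine ⟨?_, Z.pow_mem hw q⟩
        have : w ^ q = a'⁻¹ := by
          calc w ^ q = a'⁻¹ * (a' * w ^ q) := by group
            _ = a'⁻¹ := by rw [← h, mul_one]
        rw [this]; exact A.inv_mem ha'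
      rw [hinf, Subgroup.mem_bot] at hwq
      have hwr : w ^ r = 1 := by
        have := orderOf_dvd_natCard (⟨w, hw⟩ : Z)
        rw [Subgroup.orderOf_mk, hZcard] at this
        exact orderOf_dvd_iff_pow_eq_one.mp this
      have hw1 : w = 1 := by
        have h1 : orderOf w ∣ q := orderOf_dvd_of_pow_eq_one hwq
        have h2 : orderOf w ∣ r := orderOf_dvd_of_pow_eq_one hwr
        have h3 := Nat.dvd_gcd h1 h2
        rw [hcop, Nat.dvd_one] at h3
        exact orderOf_eq_one_iff.mp h3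
      rw [hw1, mul_one]; exact ha
    have hFne : F ≠ ⊥ := by
      intro h
      rw [h, Subgroup.card_bot] at hFcard
      have := hq.one_lt
      have := hr.one_lt
      nlinarith
    obtain ⟨t, h1, h2, h3, h4⟩ := np_sub V hVab F hFne
      (fun f hf hf1 => by rcases hFord f hf hf1 with h | h <;> rw [h] <;> assumption)
      (fun f hf hf1 v hv hcomm => hfpf f (hFord f hf hf1) v hv hcomm)
    refine key t.card ?_ h4
    obtain ⟨A', hA'⟩ : ∃ A' : Subgroup F, A' = A.subgroupOf F := ⟨_, rfl⟩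
    have hA'card : Nat.card A' = q := by
      rw [hA', ← hk]; exact Nat.card_congr (Subgroup.subgroupOfEquivOfLe hAF).toEquiv
    have hCt : ∀ C ∈ t, C = A' ∨ Nat.card C = r := by
      intro C hC
      obtain ⟨f, hf1, rfl⟩ := h1 C hC
      have hf1' : (f : G) ≠ 1 := fun h => hf1 (Subtype.ext h)
      rcases hFord f f.2 hf1' with h | h
      · left
        apply Subgroup.eq_of_le_of_card_ge
        · rw [Subgroup.zpowers_le, hA', Subgroup.mem_subgroupOf]
          exact hqA f f.2 (by rw [← h]; exact pow_orderOf_eq_one _)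
        · rw [hA'card, Nat.card_zpowers, ← Subgroup.orderOf_coe, h]
      · right
        rw [Nat.card_zpowers, ← Subgroup.orderOf_coe, h]
    have hA't : A' ∈ t := by
      have hf1 : (⟨a₀, hAF ha₀A⟩ : F) ≠ 1 := fun h => ha₀ (congrArg Subtype.val h)
      have h5 := h2 ⟨a₀, hAF ha₀A⟩ hf1
      have h6 : Subgroup.zpowers (⟨a₀, hAF ha₀A⟩ : F) = A' := by
        apply Subgroup.eq_of_le_of_card_ge
        · rw [Subgroup.zpowers_le, hA', Subgroup.mem_subgroupOf]
          exact ha₀A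
        · rw [hA'card, Nat.card_zpowers, Subgroup.orderOf_mk,
            orderOf_eq_prime (hAq a₀ ha₀A) ha₀]
      rw [← h6]; exact h5
    rw [← Finset.add_sum_erase t _ hA't, hA'card, hFcard] at h3
    have h5 : ∀ C ∈ t.erase A', Nat.card C - 1 = r - 1 := by
      intro C hC
      obtain ⟨hne, hC'⟩ := Finset.mem_erase.mp hC
      rcases hCt C hC' with h | h
      · exact absurd h hne
      · rw [h]
    rw [Finset.sum_congr rfl h5, Finset.sum_const, smul_eq_mul, Finset.card_erase_of_mem hA't]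
      at h3
    have htpos : 0 < t.card := Finset.card_pos.mpr ⟨A', hA't⟩
    obtain ⟨a, rfl⟩ : ∃ a, q = a + 1 := ⟨q - 1, by have := hq.one_lt; omega⟩
    obtain ⟨b, rfl⟩ : ∃ b, r = b + 1 := ⟨r - 1, by have := hr.one_lt; omega⟩
    have hb : 0 < b := by have := hr.one_lt; omega
    obtain ⟨T, hT⟩ : ∃ T, t.card = T + 1 := ⟨t.card - 1, by omega⟩
    rw [hT] at h3 ⊢
    simp only [Nat.add_sub_cancel] at h3
    have h6 : (a + 1) * (b + 1) - 1 = a + (a + 1) * b := Nat.sub_eq_of_eq_add (by ring)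
    rw [h6] at h3
    have h7 : T * b = (a + 1) * b := Nat.add_left_cancel h3
    have h8 := Nat.eq_of_mul_eq_mul_right hb h7
    omega


theorem exists_normal_prime_index {K : Type*} [Group K] [Finite K] [Group.IsSolvable K]
    [Nontrivial K] : ∃ N : Subgroup K, N.Normal ∧ N.index.Prime := by
  have hlt := Group.IsSolvable.commutator_lt_top_of_nontrivial K
  have hA1 : Nat.card (Abelianization K) ≠ 1 := by
    intro h
    have h2 : (commutator K).index = 1 := h
    rw [Subgroup.index_eq_one] at h2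
    exact hlt.ne h2
  obtain ⟨ℓ, hℓ, hℓA⟩ := Nat.exists_prime_and_dvd hA1
  have : Fact ℓ.Prime := ⟨hℓ⟩
  obtain ⟨x, hx⟩ := exists_prime_orderOf_dvd_card' ℓ hℓA
  obtain ⟨f, hf⟩ : ∃ f : Abelianization K →* Abelianization K, f = powMonoidHom ℓ := ⟨_, rfl⟩
  have hfx : f x = 1 := by rw [hf, powMonoidHom_apply, ← hx]; exact pow_orderOf_eq_one x
  have hninj : ¬ Function.Injective f := by
    intro hinj
    have h1 : x = 1 := hinj (by rw [hfx, map_one])
    rw [h1, orderOf_one] at hx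
    exact hℓ.one_lt.ne hx
  have hnsurj : ¬ Function.Surjective f := fun h => hninj (Finite.injective_iff_surjective.mpr h)
  obtain ⟨R, hR⟩ : ∃ R : Subgroup (Abelianization K), R = f.range := ⟨_, rfl⟩
  have hRtop : R ≠ ⊤ := by
    rw [hR]; intro h; exact hnsurj (MonoidHom.range_eq_top.mp h)
  have hp : IsPGroup ℓ (Abelianization K ⧸ R) := by
    intro g
    obtain ⟨a, rfl⟩ := QuotientGroup.mk_surjective g
    refine ⟨1, ?_⟩
    rw [pow_one, ← QuotientGroup.mk_pow, QuotientGroup.eq_one_iff, hR]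
    exact ⟨a, by rw [hf, powMonoidHom_apply]⟩
  obtain ⟨j, hj⟩ := IsPGroup.iff_card.mp hp
  have hj0 : j ≠ 0 := by
    rintro rfl
    rw [pow_zero] at hj
    have h2 : R.index = 1 := hj
    rw [Subgroup.index_eq_one] at h2
    exact hRtop h2
  obtain ⟨H', hH'⟩ := Sylow.exists_subgroup_card_pow_prime ℓ (G := Abelianization K ⧸ R)
    (n := j - 1) (by rw [hj]; exact pow_dvd_pow ℓ (by omega))
  have hidx : H'.index = ℓ := by
    have h1 := Subgroup.card_mul_index H'
    rw [hH', hj] at h1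
    have h2 : ℓ ^ j = ℓ ^ (j - 1) * ℓ := by
      rw [← pow_succ]; congr 1; omega
    rw [h2] at h1
    exact Nat.eq_of_mul_eq_mul_left (pow_pos hℓ.pos _) h1
  obtain ⟨φ, hφ⟩ : ∃ φ : K →* Abelianization K ⧸ R,
      φ = (QuotientGroup.mk' R).comp Abelianization.of := ⟨_, rfl⟩
  have hφs : Function.Surjective φ := by
    rw [hφ]
    exact (QuotientGroup.mk'_surjective R).comp (QuotientGroup.mk_surjective)
  refine ⟨H'.comap φ, Subgroup.Normal.comap inferInstance φ, ?_⟩
  rw [Subgroup.index_comap_of_surjective H' hφs, hidx]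
  exact hℓ

theorem frattini_config {K : Type*} [Group K] [Finite K] (N : Subgroup K) [N.Normal] (q r : ℕ)
    (hq : q.Prime) (hr : r.Prime) (hqr : q ≠ r) (hN : N.index = r) (hqK : q ∣ Nat.card K) :
    ∃ Q : Subgroup K, IsPGroup q Q ∧ Q ≠ ⊥ ∧
      ∃ z : K, orderOf z = r ∧ z ∈ Subgroup.normalizer (Q : Set K) := by
  have : Fact q.Prime := ⟨hq⟩
  have : Fact r.Prime := ⟨hr⟩
  have hqN : q ∣ Nat.card N := by
    have h1 := Subgroup.card_mul_index N
    rw [hN] at h1
    rw [← h1] at hqK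
    rcases (Nat.Prime.dvd_mul hq).mp hqK with h | h
    · exact h
    · exact absurd ((Nat.prime_dvd_prime_iff_eq hq hr).mp h) hqr
  obtain ⟨P⟩ : Nonempty (Sylow q N) := inferInstance
  have hfrat := Sylow.normalizer_sup_eq_top P
  obtain ⟨Q, hQ⟩ : ∃ Q : Subgroup K, Q = (P : Subgroup N).map N.subtype := ⟨_, rfl⟩
  have hPne : (P : Subgroup N) ≠ ⊥ := P.ne_bot_of_dvd_card hqN
  have hQne : Q ≠ ⊥ := by
    rw [hQ]; intro h
    exact hPne ((Subgroup.map_eq_bot_iff_of_injective _ N.subtype_injective).mp h)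
  have hQp : IsPGroup q Q := by rw [hQ]; exact P.isPGroup'.map _
  obtain ⟨M, hM⟩ : ∃ M : Subgroup K, M = Subgroup.normalizer (Q : Set K) := ⟨_, rfl⟩
  have hsup : M ⊔ N = ⊤ := by rw [hM, hQ]; exact hfrat
  have hrM : r ∣ Nat.card M := by
    have h1 : N.relIndex (M ⊔ N) = N.relIndex M := Subgroup.relIndex_sup_right M N
    rw [hsup, Subgroup.relIndex_top_right, hN] at h1
    rw [h1]; exact Subgroup.relIndex_dvd_card N M
  obtain ⟨z, hz⟩ := exists_prime_orderOf_dvd_card' r hrM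
  refine ⟨Q, hQp, hQne, (z : K), by rw [Subgroup.orderOf_coe]; exact hz, ?_⟩
  rw [← hM]; exact z.2

theorem claimB {G : Type*} [Group G] [Finite G] (V : Subgroup G) [V.Normal]
    (hVab : ∀ a ∈ V, ∀ b ∈ V, a * b = b * a) (hV : V ≠ ⊥) (q r : ℕ) (hq : q.Prime) (hr : r.Prime)
    (hqr : q ≠ r)
    (hfpf : ∀ k : G, orderOf k = q ∨ orderOf k = r → ∀ v ∈ V, k * v = v * k → v = 1)
    (hVq : ∀ v ∈ V, v ^ q = 1 → v = 1) (hVr : ∀ v ∈ V, v ^ r = 1 → v = 1) :
    ∀ (n : ℕ) (K : Subgroup G), Nat.card K = n → Group.IsSolvable K → q ∣ Nat.card K →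
      r ∣ Nat.card K → ∃ k : G, orderOf k = q * r := by
  intro n
  induction n using Nat.strong_induction_on with
  | _ n ih =>
    intro K hKn hKs hqK hrK
    have hKnt : Nontrivial K := by
      rw [← Finite.one_lt_card_iff_nontrivial]
      exact lt_of_lt_of_le hq.one_lt (Nat.le_of_dvd Nat.card_pos hqK)
    obtain ⟨N, hNn, hNp⟩ := exists_normal_prime_index (K := ↥K)
    obtain ⟨ℓ, hℓ⟩ : ∃ ℓ, ℓ = N.index := ⟨_, rfl⟩
    rw [← hℓ] at hNp
    have hnorm : ∀ (Q : Subgroup K) (z : K), z ∈ Subgroup.normalizer (Q : Set K) →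
        ∀ x : G, x ∈ Q.map K.subtype ↔ (z : G) * x * (z : G)⁻¹ ∈ Q.map K.subtype := by
      intro Q z hz x
      have h1 : (z : G) ∈ Subgroup.normalizer ((Q.map K.subtype : Subgroup G) : Set G) :=
        Subgroup.le_normalizer_map K.subtype (Subgroup.mem_map_of_mem K.subtype hz)
      exact Subgroup.mem_normalizer_iff.mp h1 x
    by_cases h1 : ℓ = r
    · obtain ⟨Q, hQp, hQne, z, hz, hzQ⟩ :=
        frattini_config N q r hq hr hqr (by rw [← hℓ, h1]) hqK
      exact config V hVab hV q r hq hr hqr hfpf hVq (Q.map K.subtype) (hQp.map _)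
        (fun h => hQne ((Subgroup.map_eq_bot_iff_of_injective _ K.subtype_injective).mp h))
        (z : G) (by rw [Subgroup.orderOf_coe]; exact hz) (hnorm Q z hzQ)
    · by_cases h2 : ℓ = q
      · obtain ⟨Q, hQp, hQne, z, hz, hzQ⟩ :=
          frattini_config N r q hr hq hqr.symm (by rw [← hℓ, h2]) hrK
        obtain ⟨k, hk⟩ := config V hVab hV r q hr hq hqr.symm (fun k hk => hfpf k hk.symm) hVr
          (Q.map K.subtype) (hQp.map _)
          (fun h => hQne ((Subgroup.map_eq_bot_iff_of_injective _ K.subtype_injective).mp h))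
          (z : G) (by rw [Subgroup.orderOf_coe]; exact hz) (hnorm Q z hzQ)
        exact ⟨k, by rw [hk, mul_comm]⟩
      · have hcard : Nat.card N * ℓ = Nat.card K := by rw [hℓ]; exact Subgroup.card_mul_index N
        have hdiv : ∀ x : ℕ, x.Prime → x ∣ Nat.card K → x ≠ ℓ → x ∣ Nat.card N := by
          intro x hx hxK hxℓ
          rw [← hcard] at hxK
          rcases (Nat.Prime.dvd_mul hx).mp hxK with h | h
          · exact h
          · exact absurd ((Nat.prime_dvd_prime_iff_eq hx hNp).mp h) hxℓ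
        obtain ⟨K', hK'⟩ : ∃ K' : Subgroup G, K' = N.map K.subtype := ⟨_, rfl⟩
        have hK'card : Nat.card K' = Nat.card N := by
          rw [hK']; exact Subgroup.card_map_of_injective K.subtype_injective
        have hlt : Nat.card K' < n := by
          rw [hK'card, ← hKn, ← hcard]
          have h3 : 0 < Nat.card N := Nat.card_pos
          have h4 := hNp.one_lt
          nlinarith
        have hle : K' ≤ K := by rw [hK']; exact Subgroup.map_subtype_le N
        have hK's : Group.IsSolvable K' :=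
          Group.isSolvable_of_isSolvable_injective (Subgroup.inclusion_injective hle)
        exact ih _ hlt K' rfl hK's (hK'card ▸ hdiv q hq hqK (fun h => h2 h.symm))
          (hK'card ▸ hdiv r hr hrK (fun h => h1 h.symm))

theorem final_step {G : Type*} [Group G] [Finite G] [Group.IsSolvable G] (V : Subgroup G)
    [V.Normal] (hVab : ∀ a ∈ V, ∀ b ∈ V, a * b = b * a) (hV : V ≠ ⊥) (ℓ q r : ℕ) (hℓ : ℓ.Prime)
    (hq : q.Prime) (hr : r.Prime) (hℓq : ℓ ≠ q) (hℓr : ℓ ≠ r) (hqr : q ≠ r)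
    (hVℓ : ∀ v ∈ V, v ^ ℓ = 1) (hidx : ¬ ℓ ∣ V.index) (hqi : q ∣ V.index) (hri : r ∣ V.index) :
    ∃ k : G, orderOf k = ℓ * q ∨ orderOf k = ℓ * r ∨ orderOf k = q * r := by
  have : Fact ℓ.Prime := ⟨hℓ⟩
  by_cases hc : ∃ k : G, (orderOf k = q ∨ orderOf k = r) ∧ ∃ v ∈ V, k * v = v * k ∧ v ≠ 1
  · obtain ⟨k, hk, v, hv, hcomm, hv1⟩ := hc
    have hov : orderOf v = ℓ := orderOf_eq_prime (hVℓ v hv) hv1
    have hcop : Nat.Coprime (orderOf v) (orderOf k) := by
      rw [hov]
      rcases hk with h | h <;> rw [h]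
      · exact (Nat.coprime_primes hℓ hq).mpr hℓq
      · exact (Nat.coprime_primes hℓ hr).mpr hℓr
    have h1 := (show Commute v k from hcomm.symm).orderOf_mul_eq_mul_orderOf_of_coprime hcop
    refine ⟨v * k, ?_⟩
    rw [h1, hov]
    rcases hk with h | h
    · left; rw [h]
    · right; left; rw [h]
  · have hfpf : ∀ k : G, orderOf k = q ∨ orderOf k = r → ∀ v ∈ V, k * v = v * k → v = 1 := by
      intro k hk v hv hcomm
      by_contra hv1
      exact hc ⟨k, hk, v, hv, hcomm, hv1⟩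
    have hVp : IsPGroup ℓ V := by
      intro v
      refine ⟨1, ?_⟩
      rw [pow_one]
      exact Subtype.ext (by simpa using hVℓ v v.2)
    obtain ⟨j, hj⟩ := IsPGroup.iff_card.mp hVp
    have hcop : Nat.Coprime (Nat.card V) V.index := by
      rw [hj]; exact Nat.Coprime.pow_left j ((Nat.Prime.coprime_iff_not_dvd hℓ).mpr hidx)
    obtain ⟨K, hK⟩ := Subgroup.exists_right_complement'_of_coprime hcop
    have hKcard : Nat.card K = V.index := (hK.symm.index_eq_card).symm
    have hVx : ∀ x : ℕ, x.Prime → ℓ ≠ x → ∀ v ∈ V, v ^ x = 1 → v = 1 := by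
      intro x hx hℓx v hv hvx
      have h1 : orderOf v ∣ x := orderOf_dvd_of_pow_eq_one hvx
      have h2 : orderOf v ∣ ℓ := orderOf_dvd_of_pow_eq_one (hVℓ v hv)
      have h3 := Nat.dvd_gcd h1 h2
      rw [(Nat.coprime_primes hx hℓ).mpr hℓx.symm, Nat.dvd_one] at h3
      exact orderOf_eq_one_iff.mp h3
    obtain ⟨k, hk⟩ := claimB V hVab hV q r hq hr hqr hfpf (hVx q hq hℓq) (hVx r hr hℓr) _ K rfl
      inferInstance (hKcard ▸ hqi) (hKcard ▸ hri)
    exact ⟨k, Or.inr (Or.inr hk)⟩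

theorem exists_normal_abelian {G : Type*} [Group G] [Group.IsSolvable G] [Nontrivial G] :
    ∃ A : Subgroup G, A.Normal ∧ (∀ a ∈ A, ∀ b ∈ A, a * b = b * a) ∧ A ≠ ⊥ := by
  classical
  have hex : ∃ n : ℕ, derivedSeries G n = ⊥ := Group.IsSolvable.solvable
  have hm : derivedSeries G (Nat.find hex) = ⊥ := Nat.find_spec hex
  have hm0 : Nat.find hex ≠ 0 := by
    intro h
    rw [h, derivedSeries_zero] at hm
    exact top_ne_bot hm
  obtain ⟨j, hj⟩ := Nat.exists_eq_succ_of_ne_zero hm0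
  refine ⟨derivedSeries G j, derivedSeries_normal G j, ?_, ?_⟩
  · intro a ha b hb
    have h1 : ⁅derivedSeries G j, derivedSeries G j⁆ = ⊥ := by
      rw [← derivedSeries_succ, ← Nat.succ_eq_add_one, ← hj]; exact hm
    have hle := Subgroup.commutator_eq_bot_iff_le_centralizer.mp h1
    exact ((Subgroup.mem_centralizer_iff.mp (hle ha)) b hb).symm
  · intro h
    exact Nat.find_min hex (by omega : j < Nat.find hex) h

/-- `Ω₁` of an abelian subgroup. -/
def omegaSub {G : Type*} [Group G] (A : Subgroup G) (hA : ∀ a ∈ A, ∀ b ∈ A, a * b = b * a)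
    (ℓ : ℕ) : Subgroup G where
  carrier := {a | a ∈ A ∧ a ^ ℓ = 1}
  mul_mem' := by
    rintro a b ⟨ha1, ha2⟩ ⟨hb1, hb2⟩
    exact ⟨A.mul_mem ha1 hb1, by
      rw [(show Commute a b from hA a ha1 b hb1).mul_pow, ha2, hb2, one_mul]⟩
  one_mem' := ⟨A.one_mem, one_pow _⟩
  inv_mem' := by
    rintro a ⟨ha1, ha2⟩
    exact ⟨A.inv_mem ha1, by rw [inv_pow, ha2, inv_one]⟩

theorem mem_omegaSub {G : Type*} [Group G] (A : Subgroup G)
    (hA : ∀ a ∈ A, ∀ b ∈ A, a * b = b * a) (ℓ : ℕ) (a : G) :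
    a ∈ omegaSub A hA ℓ ↔ a ∈ A ∧ a ^ ℓ = 1 := Iff.rfl

theorem lift_order {G : Type*} [Group G] [Finite G] (V : Subgroup G) [V.Normal] (x : G ⧸ V) :
    ∃ g : G, orderOf g = orderOf x := by
  obtain ⟨g, rfl⟩ := QuotientGroup.mk_surjective x
  have hd : orderOf (QuotientGroup.mk g : G ⧸ V) ∣ orderOf g :=
    orderOf_map_dvd (QuotientGroup.mk' V) g
  exact ⟨g ^ (orderOf g / orderOf (QuotientGroup.mk g : G ⧸ V)),
    orderOf_pow_orderOf_div (orderOf_pos g).ne' hd⟩

universe u

theorem three_primes_aux (p q r : ℕ) (hp : p.Prime) (hq : q.Prime) (hr : r.Prime) (hpq : p ≠ q)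
    (hpr : p ≠ r) (hqr : q ≠ r) :
    ∀ (n : ℕ) (G : Type u) [Group G] [Finite G] [Group.IsSolvable G], Nat.card G = n →
      p ∣ n → q ∣ n → r ∣ n →
      ∃ g : G, orderOf g = p * q ∨ orderOf g = p * r ∨ orderOf g = q * r := by
  intro n
  induction n using Nat.strong_induction_on with
  | _ n ih =>
    intro G _ _ _ hn hpn hqn hrn
    have hGnt : Nontrivial G := by
      rw [← Finite.one_lt_card_iff_nontrivial, hn]
      exact lt_of_lt_of_le hp.one_lt (Nat.le_of_dvd (hn ▸ Nat.card_pos) hpn)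
    obtain ⟨A, hAn, hAab, hAne⟩ := exists_normal_abelian (G := G)
    have hA1 : Nat.card A ≠ 1 := fun h => hAne (Subgroup.card_eq_one.mp h)
    obtain ⟨ℓ, hℓ, hℓA⟩ := Nat.exists_prime_and_dvd hA1
    have : Fact ℓ.Prime := ⟨hℓ⟩
    obtain ⟨V, hVdef⟩ : ∃ V : Subgroup G, V = omegaSub A hAab ℓ := ⟨_, rfl⟩
    have hmemV : ∀ a, a ∈ V ↔ a ∈ A ∧ a ^ ℓ = 1 := by
      intro a; rw [hVdef]; exact mem_omegaSub A hAab ℓ a
    have hVn : V.Normal := ⟨fun a ha g => by
      rw [hmemV] at ha ⊢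
      exact ⟨hAn.conj_mem a ha.1 g, by rw [conj_pow, ha.2, mul_one, mul_inv_cancel]⟩⟩
    have hVab : ∀ a ∈ V, ∀ b ∈ V, a * b = b * a :=
      fun a ha b hb => hAab a ((hmemV a).mp ha).1 b ((hmemV b).mp hb).1
    have hVℓ : ∀ v ∈ V, v ^ ℓ = 1 := fun v hv => ((hmemV v).mp hv).2
    have hVne : V ≠ ⊥ := by
      obtain ⟨x, hx⟩ := exists_prime_orderOf_dvd_card' ℓ hℓA
      intro h
      have h1 : (x : G) ∈ V := (hmemV _).mpr ⟨x.2, by
        rw [← hx, ← Subgroup.orderOf_coe]; exact pow_orderOf_eq_one _⟩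
      rw [h, Subgroup.mem_bot] at h1
      have h2 : x = 1 := Subtype.ext h1
      rw [h2, orderOf_one] at hx
      exact hℓ.one_lt.ne hx
    have hVp : IsPGroup ℓ V := by
      intro v
      refine ⟨1, ?_⟩
      rw [pow_one]
      exact Subtype.ext (by simpa using hVℓ v v.2)
    obtain ⟨j, hj⟩ := IsPGroup.iff_card.mp hVp
    have hcard : Nat.card V * V.index = n := by rw [← hn]; exact Subgroup.card_mul_index V
    have hdiv : ∀ x : ℕ, x.Prime → x ∣ n → x ≠ ℓ → x ∣ V.index := by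
      intro x hx hxn hxℓ
      rw [← hcard, hj] at hxn
      rcases (Nat.Prime.dvd_mul hx).mp hxn with h | h
      · exact absurd ((Nat.prime_dvd_prime_iff_eq hx hℓ).mp (hx.dvd_of_dvd_pow h)) hxℓ
      · exact h
    by_cases hc : p ∣ V.index ∧ q ∣ V.index ∧ r ∣ V.index
    · have hlt : V.index < n := by
        rw [← hcard]
        have h1 : 1 < Nat.card V := V.one_lt_card_iff_ne_bot.mpr hVne
        have h2 : 0 < V.index := Nat.pos_of_ne_zero (fun h => by
          rw [h, mul_zero] at hcard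
          have := hn ▸ (Nat.card_pos (α := G))
          omega)
        nlinarith
      obtain ⟨x, hx⟩ := ih V.index hlt (G ⧸ V) rfl hc.1 hc.2.1 hc.2.2
      obtain ⟨g, hg⟩ := lift_order V x
      exact ⟨g, by rw [hg]; exact hx⟩
    · by_cases hpi : p ∣ V.index
      · by_cases hqi : q ∣ V.index
        · have hri : ¬ r ∣ V.index := fun h => hc ⟨hpi, hqi, h⟩
          have hrℓ : r = ℓ := by
            by_contra h; exact hri (hdiv r hr hrn h)
          subst hrℓ
          obtain ⟨k, hk⟩ := final_step V hVab hVne r p q hr hp hq hpr.symm hqr.symm hpq hVℓ hri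
            hpi hqi
          refine ⟨k, ?_⟩
          rcases hk with h | h | h
          · right; left; rw [h, mul_comm]
          · right; right; rw [h, mul_comm]
          · left; exact h
        · have hqℓ : q = ℓ := by
            by_contra h; exact hqi (hdiv q hq hqn h)
          subst hqℓ
          have hri : r ∣ V.index := hdiv r hr hrn hqr.symm
          obtain ⟨k, hk⟩ := final_step V hVab hVne q p r hq hp hr hpq.symm hqr hpr hVℓ hqi
            hpi hri
          refine ⟨k, ?_⟩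
          rcases hk with h | h | h
          · left; rw [h, mul_comm]
          · right; right; exact h
          · right; left; exact h
      · have hpℓ : p = ℓ := by
          by_contra h; exact hpi (hdiv p hp hpn h)
        subst hpℓ
        exact final_step V hVab hVne p q r hp hq hr hpq hpr hqr hVℓ hpi
          (hdiv q hq hqn hpq.symm) (hdiv r hr hrn hpr.symm)

/-- **Lucido's three primes lemma**: a finite solvable group whose order is divisible by three
distinct primes `p, q, r` has an element whose order is the product of two of them. -/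
theorem three_primes {G : Type u} [Group G] [Finite G] [Group.IsSolvable G] {p q r : ℕ}
    (hp : p.Prime) (hq : q.Prime) (hr : r.Prime) (hpq : p ≠ q) (hpr : p ≠ r) (hqr : q ≠ r)
    (hpG : p ∣ Nat.card G) (hqG : q ∣ Nat.card G) (hrG : r ∣ Nat.card G) :
    ∃ g : G, orderOf g = p * q ∨ orderOf g = p * r ∨ orderOf g = q * r :=
  three_primes_aux p q r hp hq hr hpq hpr hqr (Nat.card G) G rfl hpG hqG hrG

theorem primes_exist (n : ℕ) (hn : 7 ≤ n) :
    ∃ p q r : ℕ, p.Prime ∧ q.Prime ∧ r.Prime ∧ p < q ∧ q < r ∧ r ≤ n ∧ n < p * q := by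
  by_cases h1 : n ≤ 10
  · exact ⟨3, 5, 7, by norm_num, by norm_num, by norm_num, by norm_num, by norm_num, hn, by omega⟩
  · by_cases h2 : n ≤ 34
    · exact ⟨5, 7, 11, by norm_num, by norm_num, by norm_num, by norm_num, by norm_num,
        by omega, by omega⟩
    · obtain ⟨m, hm⟩ : ∃ m, m = n / 8 := ⟨_, rfl⟩
      have hm4 : 4 ≤ m := by omega
      have hm8 : 8 * m ≤ n := by omega
      have hn8 : n < 8 * m + 8 := by omega
      obtain ⟨p, hp, hp1, hp2⟩ := Nat.exists_prime_lt_and_le_two_mul m (by omega)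
      obtain ⟨q, hq, hq1, hq2⟩ := Nat.exists_prime_lt_and_le_two_mul (2 * m) (by omega)
      obtain ⟨r, hr, hr1, hr2⟩ := Nat.exists_prime_lt_and_le_two_mul (4 * m) (by omega)
      refine ⟨p, q, r, hp, hq, hr, by omega, by omega, by omega, ?_⟩
      nlinarith


/-- If the set of element orders of a finite group G is {1, 2, …, n} with n ≥ 7, then G is not solvable. -/
theorem result {G : Type*} [Group G] [Finite G] (n : ℕ) (hn : 7 ≤ n) (h : Set.range (orderOf : G → ℕ) = {k : ℕ | 1 ≤ k ∧ k ≤ n}) : ¬ Group.IsSolvable G := by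
  intro hs
  obtain ⟨p, q, r, hp, hq, hr, hpq, hqr, hrn, hpqn⟩ := primes_exist n hn
  have hmem : ∀ k, 1 ≤ k → k ≤ n → ∃ g : G, orderOf g = k := by
    intro k h1 h2
    have h3 : k ∈ Set.range (orderOf : G → ℕ) := by rw [h]; exact ⟨h1, h2⟩
    exact h3
  have hle : ∀ g : G, orderOf g ≤ n := by
    intro g
    have h3 : orderOf g ∈ Set.range (orderOf : G → ℕ) := ⟨g, rfl⟩
    rw [h] at h3
    exact h3.2
  have hdvd : ∀ k, 1 ≤ k → k ≤ n → k ∣ Nat.card G := by
    intro k h1 h2
    obtain ⟨g, rfl⟩ := hmem k h1 h2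
    exact orderOf_dvd_natCard g
  have hp1 := hp.one_lt
  obtain ⟨g, hg⟩ := three_primes hp hq hr hpq.ne (hpq.trans hqr).ne hqr.ne
    (hdvd p (by omega) (by omega)) (hdvd q (by omega) (by omega)) (hdvd r (by omega) hrn)
  have h4 := hle g
  rcases hg with h1 | h1 | h1 <;> rw [h1] at h4
  · omega
  · nlinarith
  · nlinarith

end Cfsg.Agent.S4002
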