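import Cfsg.Statements.S3992
import Mathlib
import Cfsg.Agent.S4002
import Cfsg.Agent.Lib.Helper4.Burnside

set_option autoImplicit false
open Cfsg

namespace Cfsg.Agent.S3992

universe u

theorem not_isPrimePow_mul {p q : ℕ} (hp : p.Prime) (hq : q.Prime) (hpq : p ≠ q) :
    ¬ IsPrimePow (p * q) := by
  intro h
  obtain ⟨x, -, hx⟩ := isPrimePow_iff_unique_prime_dvd.mp h
  exact hpq ((hx p ⟨hp, dvd_mul_right p q⟩).trans (hx q ⟨hq, dvd_mul_left q p⟩).symm)

theorem pgroup_solvable {X : Type*} [Group X] [Finite X] {p : ℕ} (hp : p.Prime)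
    (h : IsPGroup p X) : Group.IsSolvable X := by
  have := Fact.mk hp
  have := h.isNilpotent
  infer_instance

theorem solvable_comap {G : Type*} [Group G] (R : Subgroup G) [R.Normal]
    (hRs : Group.IsSolvable ↥R) (N : Subgroup (G ⧸ R)) (hNs : Group.IsSolvable ↥N) :
    Group.IsSolvable ↥(N.comap (QuotientGroup.mk' R)) := by
  have hRN : R ≤ N.comap (QuotientGroup.mk' R) := by
    intro x hx
    rw [Subgroup.mem_comap]
    have h1 : QuotientGroup.mk' R x = 1 := (QuotientGroup.eq_one_iff x).mpr hx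
    rw [h1]; exact N.one_mem
  refine Group.isSolvable_of_ker_le_range (Subgroup.inclusion hRN)
    ((QuotientGroup.mk' R).subgroupComap N) ?_
  intro x hx
  rw [MonoidHom.mem_ker] at hx
  have h1 : (QuotientGroup.mk' R) (x : G) = 1 := congrArg Subtype.val hx
  have h2 : (x : G) ∈ R := (QuotientGroup.eq_one_iff _).mp h1
  exact ⟨⟨x, h2⟩, Subtype.ext rfl⟩

theorem radical_quotient {G : Type*} [Group G] (R : Subgroup G) [R.Normal]
    (hRs : Group.IsSolvable ↥R)
    (hRmax : ∀ N : Subgroup G, N.Normal → Group.IsSolvable ↥N → N ≤ R) (N : Subgroup (G ⧸ R))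
    (hN : N.Normal) (hNs : Group.IsSolvable ↥N) : N = ⊥ := by
  have hle := hRmax (N.comap (QuotientGroup.mk' R)) (hN.comap _) (solvable_comap R hRs N hNs)
  rw [eq_bot_iff]
  intro y hy
  obtain ⟨x, rfl⟩ := QuotientGroup.mk_surjective y
  have h1 : x ∈ N.comap (QuotientGroup.mk' R) := hy
  rw [Subgroup.mem_bot]
  exact (QuotientGroup.eq_one_iff x).mpr (hle h1)

theorem eppo_quot {G : Type*} [Group G] [Finite G]
    (hpp : ∀ g : G, g ≠ 1 → IsPrimePow (orderOf g)) (R : Subgroup G) [R.Normal] (x : G ⧸ R)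
    (hx : x ≠ 1) : IsPrimePow (orderOf x) := by
  obtain ⟨g, hg⟩ := Cfsg.Agent.S4002.lift_order R x
  rw [← hg]
  apply hpp
  rintro rfl
  rw [orderOf_one] at hg
  exact hx (orderOf_eq_one_iff.mp hg.symm)

theorem eppo_sub {X : Type*} [Group X] (hpp : ∀ g : X, g ≠ 1 → IsPrimePow (orderOf g))
    (M : Subgroup X) (x : ↥M) (hx : x ≠ 1) : IsPrimePow (orderOf x) := by
  rw [← Subgroup.orderOf_coe]
  exact hpp _ (fun h => hx (Subtype.ext h))

theorem comm_pgroup {X : Type*} [Group X] [Finite X]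
    (hpp : ∀ g : X, g ≠ 1 → IsPrimePow (orderOf g)) (A B : Subgroup X) (hB : B ≠ ⊥)
    (hcomm : ∀ a ∈ A, ∀ b ∈ B, a * b = b * a) : ∃ p : ℕ, p.Prime ∧ IsPGroup p A := by
  have hB1 : Nat.card B ≠ 1 := fun h => hB (Subgroup.card_eq_one.mp h)
  obtain ⟨p, hp, hpB⟩ := Nat.exists_prime_and_dvd hB1
  have : Fact p.Prime := ⟨hp⟩
  obtain ⟨y, hy⟩ := exists_prime_orderOf_dvd_card' p hpB
  refine ⟨p, hp, ?_⟩
  have hA : ∀ q : ℕ, q.Prime → q ∣ Nat.card A → q = p := by
    intro q hq hqA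
    by_contra hne
    have : Fact q.Prime := ⟨hq⟩
    obtain ⟨x, hx⟩ := exists_prime_orderOf_dvd_card' q hqA
    have hc : Commute (x : X) (y : X) := hcomm x x.2 y y.2
    have hox : orderOf (x : X) = q := by rw [Subgroup.orderOf_coe]; exact hx
    have hoy : orderOf (y : X) = p := by rw [Subgroup.orderOf_coe]; exact hy
    have ho : orderOf ((x : X) * (y : X)) = q * p := by
      rw [hc.orderOf_mul_eq_mul_orderOf_of_coprime
        (by rw [hox, hoy]; exact (Nat.coprime_primes hq hp).mpr hne), hox, hoy]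
    have h1 : (x : X) * (y : X) ≠ 1 := by
      intro h
      rw [h, orderOf_one] at ho
      have := hq.one_lt
      have := hp.one_lt
      nlinarith
    have h2 := hpp _ h1
    rw [ho] at h2
    exact not_isPrimePow_mul hq hp hne h2
  have hcard : Nat.card A ≠ 0 := Nat.card_pos.ne'
  exact IsPGroup.of_card (Nat.eq_prime_pow_of_unique_prime_dvd hcard (fun {q} hq hqA => hA q hq hqA))

theorem exists_min_card {X : Type*} [Group X] (P : Subgroup X → Prop) (h : ∃ N, P N) :
    ∃ M, P M ∧ ∀ N, P N → Nat.card M ≤ Nat.card N := by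
  classical
  have hex : ∃ n, ∃ N, P N ∧ Nat.card N = n := by
    obtain ⟨N, hN⟩ := h
    exact ⟨_, N, hN, rfl⟩
  obtain ⟨M, hM, hMc⟩ := Nat.find_spec hex
  exact ⟨M, hM, fun N hN => by rw [hMc]; exact Nat.find_min' hex ⟨N, hN, rfl⟩⟩

open scoped Pointwise in
theorem op_invariant {M : Type*} [Group M] [Finite M] (p : ℕ) [Fact p.Prime] (α : MulAut M)
    (x : M) (hx : x ∈ ⨅ P : Sylow p M, (P : Subgroup M)) :
    α x ∈ ⨅ P : Sylow p M, (P : Subgroup M) := by
  rw [Subgroup.mem_iInf] at hx ⊢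
  intro P
  have h1 := hx (α⁻¹ • P)
  rw [Sylow.pointwise_smul_def, Subgroup.mem_pointwise_smul_iff_inv_smul_mem, inv_inv] at h1
  exact h1

/-- In a finite group all of whose nonidentity elements have prime power order and which has no
nontrivial solvable normal subgroup, a normal subgroup has no nontrivial normal `p`-subgroup. -/
theorem no_normal_pgroup {X : Type*} [Group X] [Finite X]
    (hrad : ∀ N : Subgroup X, N.Normal → Group.IsSolvable ↥N → N = ⊥) (M : Subgroup X)
    [M.Normal] (K : Subgroup ↥M) (hK : K.Normal) (p : ℕ) (hp : p.Prime) (hKp : IsPGroup p K) :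
    K = ⊥ := by
  have : Fact p.Prime := ⟨hp⟩
  obtain ⟨O, hO⟩ : ∃ O : Subgroup ↥M, O = ⨅ P : Sylow p ↥M, (P : Subgroup ↥M) := ⟨_, rfl⟩
  have hKO : K ≤ O := by
    rw [hO]; exact le_iInf (fun P => hKp.le_sylow_of_normal P)
  have hOp : IsPGroup p O := by
    obtain ⟨P⟩ : Nonempty (Sylow p ↥M) := inferInstance
    exact P.isPGroup'.to_le (by rw [hO]; exact iInf_le _ P)
  have hOn : (O.map M.subtype).Normal := by
    constructor
    intro x hx g
    obtain ⟨y, hy, rfl⟩ := Subgroup.mem_map.mp hx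
    refine Subgroup.mem_map.mpr ⟨MulAut.conjNormal g y, ?_, ?_⟩
    · rw [hO] at hy ⊢
      exact op_invariant p (MulAut.conjNormal g) y hy
    · simp [MulAut.conjNormal_apply]
  have hOs : Group.IsSolvable ↥(O.map M.subtype) := pgroup_solvable hp (hOp.map _)
  have hObot := hrad _ hOn hOs
  have hO' : O = ⊥ := (Subgroup.map_eq_bot_iff_of_injective _ M.subtype_injective).mp hObot
  rw [hO'] at hKO
  exact le_bot_iff.mp hKO

theorem min_normal_simple {X : Type*} [Group X] [Finite X] [Nontrivial X]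
    (hpp : ∀ g : X, g ≠ 1 → IsPrimePow (orderOf g))
    (hrad : ∀ N : Subgroup X, N.Normal → Group.IsSolvable ↥N → N = ⊥) :
    ∃ M : Subgroup X, M.Normal ∧ IsSimpleGroup ↥M ∧ ¬ IsMulCommutative ↥M ∧
      ∀ N : Subgroup X, N.Normal → N ≠ ⊥ → M ≤ N := by
  obtain ⟨M, ⟨hMn, hMne⟩, hMmin⟩ := exists_min_card (fun N : Subgroup X => N.Normal ∧ N ≠ ⊥)
    ⟨⊤, inferInstance, top_ne_bot⟩
  have hMnt : Nontrivial ↥M := (Subgroup.nontrivial_iff_ne_bot M).mpr hMne
  have hMns : ¬ Group.IsSolvable ↥M := fun h => hMne (hrad M hMn h)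
  have hle : ∀ N : Subgroup X, N.Normal → N ≠ ⊥ → M ≤ N := by
    intro N hNn hNne
    by_contra hcon
    have hinf : M ⊓ N = ⊥ := by
      by_contra hne
      have h1 := hMmin (M ⊓ N) ⟨Subgroup.normal_inf_normal M N, hne⟩
      have h2 : M ⊓ N = M := Subgroup.eq_of_le_of_card_ge inf_le_left h1
      exact hcon (h2 ▸ inf_le_right)
    have hcomm : ∀ a ∈ M, ∀ b ∈ N, a * b = b * a := fun a ha b hb =>
      Subgroup.commute_of_normal_of_disjoint M N hMn hNn (disjoint_iff.mpr hinf) a b ha hb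
    obtain ⟨p, hp, hMp⟩ := comm_pgroup hpp M N hNne hcomm
    exact hMns (pgroup_solvable hp hMp)
  refine ⟨M, hMn, ?_, ?_, hle⟩
  · refine ⟨?_⟩
    intro H hHn
    by_contra hcon
    rw [not_or] at hcon
    obtain ⟨hHbot, hHtop⟩ := hcon
    obtain ⟨K₁, ⟨hK₁n, hK₁ne⟩, hK₁min⟩ :=
      exists_min_card (fun N : Subgroup ↥M => N.Normal ∧ N ≠ ⊥) ⟨H, hHn, hHbot⟩
    have hK₁H : Nat.card K₁ ≤ Nat.card H := hK₁min H ⟨hHn, hHbot⟩
    have hHlt : Nat.card H < Nat.card ↥M := by
      by_contra h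
      rw [not_lt] at h
      exact hHtop (Subgroup.eq_top_of_le_card H h)
    -- K₁ is not a p-group
    have hK₁p : ∀ p : ℕ, p.Prime → ¬ IsPGroup p K₁ := fun p hp h =>
      hK₁ne (no_normal_pgroup hrad M K₁ hK₁n p hp h)
    -- K₁ is not normal in X
    obtain ⟨K, hK⟩ : ∃ K : Subgroup X, K = K₁.map M.subtype := ⟨_, rfl⟩
    have hKcard : Nat.card K = Nat.card K₁ := by
      rw [hK]; exact Subgroup.card_map_of_injective M.subtype_injective
    have hKne : K ≠ ⊥ := by
      rw [hK]; intro h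
      exact hK₁ne ((Subgroup.map_eq_bot_iff_of_injective _ M.subtype_injective).mp h)
    have hKnn : ¬ K.Normal := by
      intro h
      have := hMmin K ⟨h, hKne⟩
      omega
    have hex : ∃ g : X, ∃ x ∈ K, g * x * g⁻¹ ∉ K := by
      by_contra h
      apply hKnn
      constructor
      intro x hx g
      by_contra h2
      exact h ⟨g, x, hx, h2⟩
    obtain ⟨g, x, hxK, hgx⟩ := hex
    obtain ⟨x₁, hx₁, rfl⟩ : ∃ x₁ ∈ K₁, M.subtype x₁ = x := by
      rw [hK] at hxK; exact Subgroup.mem_map.mp hxK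
    obtain ⟨α, hα⟩ : ∃ α : MulAut ↥M, α = MulAut.conjNormal g := ⟨_, rfl⟩
    obtain ⟨K₂, hK₂⟩ : ∃ K₂ : Subgroup ↥M, K₂ = K₁.map α.toMonoidHom := ⟨_, rfl⟩
    have hK₂n : K₂.Normal := by
      rw [hK₂]; exact hK₁n.map _ α.surjective
    have hK₂card : Nat.card K₂ = Nat.card K₁ := by
      rw [hK₂]; exact Subgroup.card_map_of_injective α.injective
    have hK₂ne : K₂ ≠ ⊥ := by
      intro h
      rw [h, Subgroup.card_bot] at hK₂card
      exact hK₁ne (Subgroup.card_eq_one.mp hK₂card.symm)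
    have hinf : K₁ ⊓ K₂ = ⊥ := by
      by_contra hne
      have h1 := hK₁min (K₁ ⊓ K₂) ⟨Subgroup.normal_inf_normal K₁ K₂, hne⟩
      have h2 : K₁ ⊓ K₂ = K₁ := Subgroup.eq_of_le_of_card_ge inf_le_left h1
      have h3 : K₁ ≤ K₂ := h2 ▸ inf_le_right
      have h4 : K₁ = K₂ := Subgroup.eq_of_le_of_card_ge h3 hK₂card.le
      apply hgx
      have h5 : α x₁ ∈ K₁ := by
        rw [h4, hK₂]; exact Subgroup.mem_map_of_mem _ hx₁
      rw [hK]
      refine Subgroup.mem_map.mpr ⟨α x₁, h5, ?_⟩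
      rw [hα]; simp [MulAut.conjNormal_apply]
    have hcomm : ∀ a ∈ K₁, ∀ b ∈ K₂, a * b = b * a := fun a ha b hb =>
      Subgroup.commute_of_normal_of_disjoint K₁ K₂ hK₁n hK₂n (disjoint_iff.mpr hinf) a b ha hb
    obtain ⟨p, hp, hp'⟩ := comm_pgroup (eppo_sub hpp M) K₁ K₂ hK₂ne hcomm
    exact hK₁p p hp hp'
  · intro h
    exact hMns (Group.isSolvable_of_comm (fun a b => mul_comm' a b))

theorem solvable_two_primes {G : Type u} [Group G] [Finite G]
    (hpp : ∀ g : G, g ≠ 1 → IsPrimePow (orderOf g)) (H : Subgroup G)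
    (hH : Group.IsSolvable ↥H) : (Nat.card ↥H).primeFactors.card ≤ 2 := by
  by_contra hcon
  have h3 : 2 < (Nat.card ↥H).primeFactors.card := by omega
  obtain ⟨p, hp, q, hq, r, hr, hpq, hpr, hqr⟩ := Finset.two_lt_card.mp h3
  obtain ⟨g, hg⟩ := Cfsg.Agent.S4002.three_primes (Nat.prime_of_mem_primeFactors hp)
    (Nat.prime_of_mem_primeFactors hq) (Nat.prime_of_mem_primeFactors hr) hpq hpr hqr
    (Nat.dvd_of_mem_primeFactors hp) (Nat.dvd_of_mem_primeFactors hq)
    (Nat.dvd_of_mem_primeFactors hr)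
  have key : ∀ a b : ℕ, a.Prime → b.Prime → a ≠ b → orderOf g = a * b → False := by
    intro a b ha hb hab ho
    have h1 : (g : G) ≠ 1 := by
      intro h
      have h2 : g = 1 := Subtype.ext h
      rw [h2, orderOf_one] at ho
      have := ha.one_lt
      have := hb.one_lt
      nlinarith
    have h2 := hpp (g : G) h1
    rw [Subgroup.orderOf_coe, ho] at h2
    exact not_isPrimePow_mul ha hb hab h2
  rcases hg with h | h | h
  · exact key p q (Nat.prime_of_mem_primeFactors hp) (Nat.prime_of_mem_primeFactors hq) hpq h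
  · exact key p r (Nat.prime_of_mem_primeFactors hp) (Nat.prime_of_mem_primeFactors hr) hpr h
  · exact key q r (Nat.prime_of_mem_primeFactors hq) (Nat.prime_of_mem_primeFactors hr) hqr h

theorem card_eq_two_prime_pows {n p q : ℕ} (hn : n ≠ 0) (hp : p.Prime) (hq : q.Prime)
    (h : ∀ r : ℕ, r.Prime → r ∣ n → r = p ∨ r = q) : ∃ a b : ℕ, n = p ^ a * q ^ b := by
  obtain ⟨a, m, hm, rfl⟩ := Nat.exists_eq_pow_mul_and_not_dvd hn p hp.ne_one
  have hm0 : m ≠ 0 := by rintro rfl; simp at hn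
  obtain ⟨b, m', hm', rfl⟩ := Nat.exists_eq_pow_mul_and_not_dvd hm0 q hq.ne_one
  have h1 : m' = 1 := by
    rw [Nat.eq_one_iff_not_exists_prime_dvd]
    intro r hr hrm
    rcases h r hr (Dvd.dvd.mul_left (Dvd.dvd.mul_left hrm _) _) with rfl | rfl
    · exact hm (Dvd.dvd.mul_left hrm _)
    · exact hm' hrm
  exact ⟨a, b, by rw [h1, mul_one]⟩

theorem radical_pgroup {G : Type u} [Group G] [Finite G] (hns : ¬ Group.IsSolvable G)
    (hpp : ∀ g : G, g ≠ 1 → IsPrimePow (orderOf g)) (R : Subgroup G) [R.Normal]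
    (hRs : Group.IsSolvable ↥R) : ∃ p : ℕ, p.Prime ∧ IsPGroup p ↥R := by
  have key : ∀ p q : ℕ, p.Prime → q.Prime → p ≠ q → p ∣ Nat.card R → q ∣ Nat.card R → False := by
    intro p q hp hq hpq hpR hqR
    have h3 : ∃ r : ℕ, r.Prime ∧ r ∣ Nat.card G ∧ r ≠ p ∧ r ≠ q := by
      by_contra hno
      apply hns
      obtain ⟨a, b, hab⟩ := card_eq_two_prime_pows (Nat.card_pos (α := G)).ne' hp hq (by
        intro r hr hrG
        by_contra h
        rw [not_or] at h
        exact hno ⟨r, hr, hrG, h.1, h.2⟩)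
      exact Cfsg.Agent.Lib.Helper4.burnside p q a b hp hq hab
    obtain ⟨r, hr, hrG, hrp, hrq⟩ := h3
    have : Fact r.Prime := ⟨hr⟩
    obtain ⟨z, hz⟩ := exists_prime_orderOf_dvd_card' r hrG
    obtain ⟨H, hH⟩ : ∃ H : Subgroup G, H = (Subgroup.zpowers (QuotientGroup.mk' R z)).comap
        (QuotientGroup.mk' R) := ⟨_, rfl⟩
    have hHs : Group.IsSolvable ↥H := by
      rw [hH]
      exact solvable_comap R hRs _ (Group.isSolvable_of_comm (fun a b => mul_comm' a b))
    have hRH : R ≤ H := by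
      rw [hH]
      intro x hx
      rw [Subgroup.mem_comap]
      have h1 : QuotientGroup.mk' R x = 1 := (QuotientGroup.eq_one_iff x).mpr hx
      rw [h1]; exact Subgroup.one_mem _
    have hzH : z ∈ H := by
      rw [hH, Subgroup.mem_comap]; exact Subgroup.mem_zpowers _
    have hpH : p ∣ Nat.card H := hpR.trans (Subgroup.card_dvd_of_le hRH)
    have hqH : q ∣ Nat.card H := hqR.trans (Subgroup.card_dvd_of_le hRH)
    have hrH : r ∣ Nat.card H := by
      have h1 := orderOf_dvd_natCard (⟨z, hzH⟩ : H)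
      rwa [Subgroup.orderOf_mk, hz] at h1
    have h5 := solvable_two_primes hpp H hHs
    have hH0 : Nat.card H ≠ 0 := Nat.card_pos.ne'
    have h6 : ({p, q, r} : Finset ℕ) ⊆ (Nat.card H).primeFactors := by
      intro x hx
      simp only [Finset.mem_insert, Finset.mem_singleton] at hx
      rcases hx with rfl | rfl | rfl
      · exact Nat.mem_primeFactors.mpr ⟨hp, hpH, hH0⟩
      · exact Nat.mem_primeFactors.mpr ⟨hq, hqH, hH0⟩
      · exact Nat.mem_primeFactors.mpr ⟨hr, hrH, hH0⟩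
    have h7 : ({p, q, r} : Finset ℕ).card = 3 := by
      rw [Finset.card_insert_of_notMem (by simp [hpq, hrp.symm]),
        Finset.card_insert_of_notMem (by simp [hrq.symm]), Finset.card_singleton]
    have h8 := Finset.card_le_card h6
    omega
  by_cases h1 : Nat.card R = 1
  · exact ⟨2, Nat.prime_two, IsPGroup.of_card (n := 0) (by rw [h1, pow_zero])⟩
  · obtain ⟨p, hp, hpR⟩ := Nat.exists_prime_and_dvd h1
    refine ⟨p, hp, ?_⟩
    have hcard : Nat.card R ≠ 0 := Nat.card_pos.ne'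
    exact IsPGroup.of_card (Nat.eq_prime_pow_of_unique_prime_dvd hcard (fun {q} hq hqR => by
      by_contra hne
      exact key q p hq hp hne hqR hpR))

/-- Let G be a finite non-solvable group in which every element has prime-power order, and let R be its largest solvable normal subgroup. Then R is a p-group for some prime p; G/R has a non-abelian simple normal subgroup contained in every nontrivial normal subgroup of G/R (its unique minimal normal subgroup); and the order of every solvable subgroup of G has at most two prime divisors. -/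
theorem result {G : Type*} [Group G] [Finite G] (hns : ¬ Group.IsSolvable G) (hpp : ∀ g : G, g ≠ 1 → IsPrimePow (orderOf g))
    (R : Subgroup G) [R.Normal] (hRs : Group.IsSolvable ↥R) (hRmax : ∀ N : Subgroup G, N.Normal → Group.IsSolvable ↥N → N ≤ R) :
    (∃ p : ℕ, p.Prime ∧ IsPGroup p ↥R) ∧
      (∃ M : Subgroup (G ⧸ R), M.Normal ∧ IsSimpleGroup ↥M ∧ ¬ IsMulCommutative ↥M ∧
        ∀ N : Subgroup (G ⧸ R), N.Normal → N ≠ ⊥ → M ≤ N) ∧
      ∀ H : Subgroup G, Group.IsSolvable ↥H → (Nat.card ↥H).primeFactors.card ≤ 2 := by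
  refine ⟨radical_pgroup hns hpp R hRs, ?_, fun H hH => solvable_two_primes hpp H hH⟩
  have hnt : Nontrivial (G ⧸ R) := by
    by_contra h
    rw [not_nontrivial_iff_subsingleton] at h
    exact hns ((Group.isSolvable_iff_subgroup_quotient R).mpr ⟨hRs, inferInstance⟩)
  exact min_normal_simple (eppo_quot hpp R) (radical_quotient R hRs hRmax)

end Cfsg.Agent.S3992
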