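import Cfsg.Statements.S3994
import Mathlib
import Cfsg.Agent.S3993

set_option autoImplicit false
open Cfsg

namespace Cfsg.Agent.S3994

/-- Splitting the elements of a group of exponent dividing `a * b` (`a`, `b` coprime) into
an `a`-part and a `b`-part, for a property of the order depending only on the `a`-part. -/
theorem card_eq_sum_of_coprime {G : Type*} [Group G] [Fintype G] [DecidableEq G] (a b : ℕ)
    (hab : Nat.Coprime a b) (hN : ∀ g : G, g ^ (a * b) = 1) (P : ℕ → Prop) [DecidablePred P]
    (hP : ∀ d c : ℕ, d ∣ a → c ∣ b → (P (d * c) ↔ P d)) :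
    (Finset.univ.filter (fun g : G => P (orderOf g))).card =
      ∑ y ∈ Finset.univ.filter (fun y : G => y ^ a = 1 ∧ P (orderOf y)),
        (Finset.univ.filter (fun z : G => z * y = y * z ∧ z ^ b = 1)).card := by
  obtain ⟨u, hu1, hu0⟩ := Nat.chineseRemainder hab 1 0
  obtain ⟨v, hv0, hv1⟩ := Nat.chineseRemainder hab 0 1
  have hbu : b ∣ u := (Nat.modEq_zero_iff_dvd).mp hu0
  have hav : a ∣ v := (Nat.modEq_zero_iff_dvd).mp hv0
  have huv : u + v ≡ 1 [MOD a * b] := by
    apply (Nat.modEq_and_modEq_iff_modEq_mul hab).mp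
    exact ⟨by simpa using hu1.add hv0, by simpa using hu0.add hv1⟩
  have hgu : ∀ g : G, (g ^ u) ^ a = 1 := by
    intro g
    obtain ⟨t, rfl⟩ := hbu
    rw [← pow_mul, show b * t * a = (a * b) * t by ring, pow_mul, hN, one_pow]
  have hgv : ∀ g : G, (g ^ v) ^ b = 1 := by
    intro g
    obtain ⟨t, rfl⟩ := hav
    rw [← pow_mul, show a * t * b = (a * b) * t by ring, pow_mul, hN, one_pow]
  have hguv : ∀ g : G, g ^ u * g ^ v = g := by
    intro g
    rw [← pow_add]
    conv_rhs => rw [← pow_one g]
    rw [pow_eq_pow_iff_modEq]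
    exact huv.of_dvd (orderOf_dvd_of_pow_eq_one (hN g))
  -- order of a product of commuting elements with orders dividing a and b
  have hord : ∀ y z : G, Commute y z → y ^ a = 1 → z ^ b = 1 →
      orderOf (y * z) = orderOf y * orderOf z := by
    intro y z hc hy hz
    apply hc.orderOf_mul_eq_mul_orderOf_of_coprime
    exact Nat.Coprime.coprime_dvd_left (orderOf_dvd_of_pow_eq_one hy)
      (Nat.Coprime.coprime_dvd_right (orderOf_dvd_of_pow_eq_one hz) hab)
  have hPg : ∀ g : G, P (orderOf g) ↔ P (orderOf (g ^ u)) := by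
    intro g
    have hc : Commute (g ^ u) (g ^ v) := (Commute.refl g).pow_pow u v
    have h1 := hord (g ^ u) (g ^ v) hc (hgu g) (hgv g)
    rw [hguv g] at h1
    rw [h1]
    exact hP _ _ (orderOf_dvd_of_pow_eq_one (hgu g)) (orderOf_dvd_of_pow_eq_one (hgv g))
  rw [Finset.card_eq_sum_card_fiberwise (f := fun g : G => g ^ u)
    (t := Finset.univ.filter (fun y : G => y ^ a = 1 ∧ P (orderOf y)))]
  · apply Finset.sum_congr rfl
    intro y hy
    rw [Finset.mem_filter] at hy
    obtain ⟨hya, hyP⟩ := hy.2
    apply Finset.card_nbij' (fun g => g ^ v) (fun z => y * z)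
    · intro g hg
      simp only [Finset.coe_filter, Finset.mem_filter, Finset.mem_univ, true_and,
        Set.mem_ofPred_eq] at hg ⊢
      obtain ⟨hg1, rfl⟩ := hg
      exact ⟨((Commute.refl g).pow_pow v u).eq, hgv g⟩
    · intro z hz
      simp only [Finset.coe_filter, Finset.mem_filter, Finset.mem_univ, true_and,
        Set.mem_ofPred_eq] at hz ⊢
      obtain ⟨hzy, hzb⟩ := hz
      have hc : Commute y z := hzy.symm
      have hyu : y ^ u = y := by
        conv_rhs => rw [← pow_one y]
        rw [pow_eq_pow_iff_modEq]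
        exact hu1.of_dvd (orderOf_dvd_of_pow_eq_one hya)
      have hzu : z ^ u = 1 := by
        obtain ⟨t, rfl⟩ := hbu
        rw [pow_mul, hzb, one_pow]
      refine ⟨?_, ?_⟩
      · rw [hord y z hc hya hzb]
        exact (hP _ _ (orderOf_dvd_of_pow_eq_one hya) (orderOf_dvd_of_pow_eq_one hzb)).mpr hyP
      · rw [hc.mul_pow, hyu, hzu, mul_one]
    · intro g hg
      simp only [Finset.coe_filter, Finset.mem_filter, Finset.mem_univ, true_and,
        Set.mem_ofPred_eq] at hg
      obtain ⟨hg1, rfl⟩ := hg
      exact hguv g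
    · intro z hz
      simp only [Finset.coe_filter, Finset.mem_univ, true_and, Set.mem_ofPred_eq] at hz
      obtain ⟨hzy, hzb⟩ := hz
      have hc : Commute y z := hzy.symm
      change (y * z) ^ v = z
      have hyv : y ^ v = 1 := by
        obtain ⟨t, rfl⟩ := hav
        rw [pow_mul, hya, one_pow]
      have hzv : z ^ v = z := by
        conv_rhs => rw [← pow_one z]
        rw [pow_eq_pow_iff_modEq]
        exact hv1.of_dvd (orderOf_dvd_of_pow_eq_one hzb)
      rw [hc.mul_pow, hyv, hzv, one_mul]
  · intro g hg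
    simp only [Finset.coe_filter, Finset.mem_univ, true_and, Set.mem_ofPred_eq] at hg ⊢
    exact ⟨hgu g, (hPg g).mp hg⟩

/-- Let G be a finite group and n a positive integer. The number of elements of G whose order is divisible by n is either 0 or divisible by the largest divisor of the order of G that is coprime to n. -/
theorem result {G : Type*} [Group G] [Finite G] (n : ℕ) (hn : 0 < n) :
    Nat.card {g : G // n ∣ orderOf g} = 0 ∨
      (Nat.card G / Nat.gcd (Nat.card G) (n ^ Nat.card G)) ∣ Nat.card {g : G // n ∣ orderOf g} := by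
  right
  classical
  have := Fintype.ofFinite G
  set N := Nat.card G with hNdef
  have hNpos : 0 < N := Nat.card_pos
  set a := Nat.gcd N (n ^ N) with ha
  have haN : a ∣ N := Nat.gcd_dvd_left _ _
  have hapos : 0 < a := Nat.gcd_pos_of_pos_left _ hNpos
  obtain ⟨b, hb⟩ := haN
  have hbdef : N / a = b := by rw [hb, Nat.mul_div_cancel_left _ hapos]
  rw [hbdef]
  -- primes dividing n do not divide b
  have hqb : ∀ q : ℕ, q.Prime → q ∣ n → ¬ q ∣ b := by
    intro q hq hqn hqb
    have h1 : q ^ (N.factorization q) ∣ N := Nat.ordProj_dvd N q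
    have h2 : q ^ (N.factorization q) ∣ n ^ N :=
      (pow_dvd_pow q (Nat.factorization_lt q hNpos.ne').le).trans (pow_dvd_pow_of_dvd hqn N)
    have h3 : q ^ (N.factorization q) ∣ a := Nat.dvd_gcd h1 h2
    have h4 : q ^ (N.factorization q + 1) ∣ N := by
      have h5 : q ^ (N.factorization q) * q ∣ a * b := Nat.mul_dvd_mul h3 hqb
      rw [← hb, ← pow_succ] at h5
      exact h5
    exact Nat.pow_succ_factorization_not_dvd hNpos.ne' hq h4
  have hnb : Nat.Coprime n b := by
    apply Nat.Coprime.symm
    apply Nat.coprime_of_dvd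
    intro q hq hqb' hqn
    exact hqb q hq hqn hqb'
  have hab : Nat.Coprime a b := by
    apply Nat.Coprime.symm
    apply Nat.coprime_of_dvd
    intro q hq hqb' hqa
    have : q ∣ n ^ N := hqa.trans (Nat.gcd_dvd_right _ _)
    exact hqb q hq (hq.dvd_of_dvd_pow this) hqb'
  have hpow : ∀ g : G, g ^ (a * b) = 1 := by
    intro g; rw [← hb]; exact pow_card_eq_one'
  have hcnt : Nat.card {g : G // n ∣ orderOf g} =
      (Finset.univ.filter (fun g : G => n ∣ orderOf g)).card := Nat.subtype_card _ (by simp)
  rw [hcnt, card_eq_sum_of_coprime a b hab hpow (fun d => n ∣ d) (fun d c _ hc =>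
    (Nat.Coprime.dvd_mul_right (Nat.Coprime.coprime_dvd_right hc hnb)))]
  apply Cfsg.Agent.S3993.dvd_sum_of_conj_invariant
  · intro g y hy
    simp only [Finset.mem_filter, Finset.mem_univ, true_and] at hy ⊢
    have ho : orderOf (g * y * g⁻¹) = orderOf y := (MulAut.conj g).orderOf_eq y
    refine ⟨?_, ho ▸ hy.2⟩
    rw [← orderOf_dvd_iff_pow_eq_one, ho, orderOf_dvd_iff_pow_eq_one]
    exact hy.1
  · intro g y
    apply Finset.card_nbij' (fun z => g⁻¹ * z * g) (fun z => g * z * g⁻¹)
    · intro z hz
      simp only [Finset.coe_filter, Finset.mem_univ, true_and, Set.mem_ofPred_eq] at hz ⊢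
      obtain ⟨hz1, hz2⟩ := hz
      refine ⟨?_, ?_⟩
      · calc g⁻¹ * z * g * y = g⁻¹ * (z * (g * y * g⁻¹)) * g := by group
          _ = g⁻¹ * (g * y * g⁻¹ * z) * g := by rw [hz1]
          _ = y * (g⁻¹ * z * g) := by group
      · have := map_pow (MulAut.conj g⁻¹) z b
        simp only [MulAut.conj_apply, inv_inv] at this
        rw [← this, hz2]; group
    · intro z hz
      simp only [Finset.coe_filter, Finset.mem_univ, true_and, Set.mem_ofPred_eq] at hz ⊢
      obtain ⟨hz1, hz2⟩ := hz
      refine ⟨?_, ?_⟩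
      · calc g * z * g⁻¹ * (g * y * g⁻¹) = g * (z * y) * g⁻¹ := by group
          _ = g * (y * z) * g⁻¹ := by rw [hz1]
          _ = g * y * g⁻¹ * (g * z * g⁻¹) := by group
      · have := map_pow (MulAut.conj g) z b
        simp only [MulAut.conj_apply] at this
        rw [← this, hz2]; group
    · intro z _; group
    · intro z _; group
  · intro y hy
    obtain ⟨C, hCdef⟩ : ∃ C : Subgroup G, C = Subgroup.centralizer ({y} : Set G) := ⟨_, rfl⟩
    have hCmem : ∀ c : G, c ∈ C ↔ y * c = c * y := by
      intro c; rw [hCdef]; exact Cfsg.Agent.S3993.mem_centralizer_singleton y c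
    rw [← hCdef]
    have hfy : (Finset.univ.filter (fun z : G => z * y = y * z ∧ z ^ b = 1)).card =
        Nat.card {c : C // c ^ b = 1} := by
      rw [← Nat.subtype_card (p := fun z : G => z * y = y * z ∧ z ^ b = 1) _ (by simp)]
      apply Nat.card_congr
      exact
        { toFun := fun z => ⟨⟨z.1, (hCmem z.1).mpr z.2.1.symm⟩, by
              apply Subtype.ext
              simpa using z.2.2⟩
          invFun := fun c => ⟨c.1.1, ((hCmem c.1.1).mp c.1.2).symm, by
              have := congrArg Subtype.val c.2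
              simpa using this⟩
          left_inv := fun z => rfl
          right_inv := fun c => rfl }
    rw [hfy]
    have hd := Cfsg.Agent.S3993.result (G := C) (Nat.gcd b (Nat.card C)) (Nat.gcd_dvd_right _ _)
    have hcongr : Nat.card {c : C // c ^ Nat.gcd b (Nat.card C) = 1} =
        Nat.card {c : C // c ^ b = 1} := by
      apply Nat.card_congr
      apply Equiv.subtypeEquivRight
      intro q
      rw [← orderOf_dvd_iff_pow_eq_one, ← orderOf_dvd_iff_pow_eq_one, Nat.dvd_gcd_iff]
      exact ⟨fun h => h.1, fun h => ⟨h, orderOf_dvd_natCard q⟩⟩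
    rw [hcongr] at hd
    have hCG : C.index * Nat.card C = N := by
      rw [mul_comm, Subgroup.card_mul_index]
    have h1 : b ∣ C.index * Nat.card C := by
      rw [hCG, hb]; exact Dvd.intro_left _ rfl
    have h3 : b ∣ C.index * Nat.gcd b (Nat.card C) := by
      rw [← Nat.gcd_mul_left]
      exact Nat.dvd_gcd (Dvd.intro_left _ rfl) h1
    exact h3.trans (Nat.mul_dvd_mul_left _ hd)

end Cfsg.Agent.S3994
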