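import Cfsg.Statements.S3997
import Mathlib

set_option autoImplicit false
open Cfsg

namespace Cfsg.Agent.S3997

/-- An order-preserving bijection between two finite groups with the same order type. -/
theorem exists_orderOf_equiv {G H : Type*} [Group G] [Finite G] [Group H] [Finite H]
    (hT : ∀ m : ℕ, Nat.card {g : G // orderOf g = m} = Nat.card {h : H // orderOf h = m}) :
    ∃ e : G ≃ H, ∀ g : G, orderOf (e g) = orderOf g := by
  have hF : ∀ m : ℕ, Nonempty ({g : G // orderOf g = m} ≃ {h : H // orderOf h = m}) := fun m =>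
    Finite.card_eq.mp (hT m)
  let F : ∀ m : ℕ, {g : G // orderOf g = m} ≃ {h : H // orderOf h = m} := fun m =>
    Classical.choice (hF m)
  refine ⟨(Equiv.sigmaFiberEquiv (orderOf : G → ℕ)).symm.trans
    ((Equiv.sigmaCongrRight F).trans (Equiv.sigmaFiberEquiv (orderOf : H → ℕ))), ?_⟩
  intro g
  simp only [Equiv.trans_apply, Equiv.sigmaFiberEquiv, Equiv.coe_fn_symm_mk, Equiv.sigmaCongrRight_apply,
    Equiv.coe_fn_mk]
  exact (F (orderOf g) ⟨g, rfl⟩).2

/-- In a finite group with a normal Sylow `p`-subgroup, the `p`-elements are exactly its elements. -/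
theorem pElements_eq_of_normal {G : Type*} [Group G] [Finite G] (p : ℕ) [Fact p.Prime]
    (P : Sylow p G) (hP : (P : Subgroup G).Normal) :
    {g : G | ∃ k : ℕ, orderOf g = p ^ k} = (P : Set G) := by
  ext g
  constructor
  · rintro ⟨k, hk⟩
    have hz : IsPGroup p (Subgroup.zpowers g) := by
      rw [IsPGroup.iff_card, Nat.card_zpowers]
      exact ⟨k, hk⟩
    obtain ⟨Q, hQ⟩ := hz.exists_le_sylow
    have := Sylow.unique_of_normal P hP
    have hQP : Q = P := Subsingleton.elim _ _
    rw [hQP] at hQ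
    exact hQ (Subgroup.mem_zpowers g)
  · intro hg
    obtain ⟨k, hk⟩ := (IsPGroup.iff_orderOf.mp P.isPGroup') ⟨g, hg⟩
    exact ⟨k, by rw [← hk, Subgroup.orderOf_mk]⟩

/-- Let G and H be finite groups with the same order type: for every m they have the same number of elements of order m. If G is nilpotent then so is H. -/
theorem result {G H : Type*} [Group G] [Finite G] [Group H] [Finite H] (hT : (∀ m : ℕ, Nat.card {g : G // orderOf g = m} = Nat.card {h : H // orderOf h = m})) (hG : Group.IsNilpotent G) :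
    Group.IsNilpotent H := by
  obtain ⟨e, he⟩ := exists_orderOf_equiv hT
  have hcard : Nat.card G = Nat.card H := Nat.card_congr e
  refine (Group.isNilpotent_of_finite_tfae.out 0 3 rfl rfl).mpr ?_
  intro p hp P
  -- a Sylow p-subgroup of G, normal by nilpotency
  obtain ⟨PG⟩ : Nonempty (Sylow p G) := inferInstance
  have hPG : (PG : Subgroup G).Normal :=
    (Group.isNilpotent_of_finite_tfae.out 0 3 rfl rfl).mp hG p hp PG
  have hTG := pElements_eq_of_normal p PG hPG
  -- the p-elements of H
  have hTH : {h : H | ∃ k : ℕ, orderOf h = p ^ k} = e '' {g : G | ∃ k : ℕ, orderOf g = p ^ k} := by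
    ext h
    constructor
    · rintro ⟨k, hk⟩
      refine ⟨e.symm h, ⟨k, ?_⟩, e.apply_symm_apply h⟩
      rw [← he, e.apply_symm_apply, hk]
    · rintro ⟨g, ⟨k, hk⟩, rfl⟩
      exact ⟨k, by rw [he, hk]⟩
  have hsub : (P : Set H) ⊆ {h : H | ∃ k : ℕ, orderOf h = p ^ k} := by
    intro h hh
    obtain ⟨k, hk⟩ := (IsPGroup.iff_orderOf.mp P.isPGroup') ⟨h, hh⟩
    exact ⟨k, by rw [← hk, Subgroup.orderOf_mk]⟩
  have hncard : Set.ncard {h : H | ∃ k : ℕ, orderOf h = p ^ k} = Set.ncard (P : Set H) := by
    rw [hTH, Set.ncard_image_of_injective _ e.injective, hTG]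
    change Nat.card PG = Nat.card P
    rw [Sylow.card_eq_multiplicity, Sylow.card_eq_multiplicity, hcard]
  have heq : (P : Set H) = {h : H | ∃ k : ℕ, orderOf h = p ^ k} :=
    Set.eq_of_subset_of_ncard_le hsub hncard.le (Set.toFinite _)
  constructor
  intro n hn g
  have hn' : n ∈ (P : Set H) := hn
  rw [heq] at hn'
  obtain ⟨k, hk⟩ := hn'
  have : g * n * g⁻¹ ∈ (P : Set H) := by
    rw [heq]
    exact ⟨k, by rw [← hk]; exact (MulAut.conj g).orderOf_eq n⟩
  exact this

end Cfsg.Agent.S3997
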