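import Cfsg.Statements.S3998
import Mathlib

set_option autoImplicit false
open Cfsg

namespace Cfsg.Agent.S3998

universe u v

/-- Elements whose order has only prime factors `≥ b`. -/
def bigSet (b : ℕ) (X : Type u) [Group X] : Set X :=
  {x | ∀ q : ℕ, q.Prime → q ∣ orderOf x → b ≤ q}

/-- A normal subgroup whose order has only prime factors `≥ b` and whose index has only prime
factors `< b`. -/
def IsTower {X : Type u} [Group X] (b : ℕ) (M : Subgroup X) : Prop :=
  M.Normal ∧ (∀ q : ℕ, q.Prime → q ∣ Nat.card M → b ≤ q) ∧ (∀ q : ℕ, q.Prime → q ∣ M.index → q < b)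

/-- An order-preserving bijection between two finite groups with the same order type. -/
theorem exists_orderOf_equiv {G : Type u} {H : Type v} [Group G] [Finite G] [Group H] [Finite H]
    (hT : ∀ m : ℕ, Nat.card {g : G // orderOf g = m} = Nat.card {h : H // orderOf h = m}) :
    ∃ e : G ≃ H, ∀ g : G, orderOf (e g) = orderOf g := by
  have hF : ∀ m : ℕ, Nonempty ({g : G // orderOf g = m} ≃ {h : H // orderOf h = m}) := fun m =>
    Finite.card_eq.mp (hT m)
  let F : ∀ m : ℕ, {g : G // orderOf g = m} ≃ {h : H // orderOf h = m} := fun m =>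
    Classical.choice (hF m)
  refine ⟨(Equiv.sigmaFiberEquiv (orderOf : G → ℕ)).symm.trans
    ((Equiv.sigmaCongrRight F).trans (Equiv.sigmaFiberEquiv (orderOf : H → ℕ))), ?_⟩
  intro g
  simp only [Equiv.trans_apply, Equiv.sigmaFiberEquiv, Equiv.coe_fn_symm_mk,
    Equiv.sigmaCongrRight_apply, Equiv.coe_fn_mk]
  exact (F (orderOf g) ⟨g, rfl⟩).2

theorem IsTower.mem_iff {X : Type u} [Group X] [Finite X] {b : ℕ} {M : Subgroup X}
    (hM : IsTower b M) (x : X) : x ∈ M ↔ x ∈ bigSet b X := by
  obtain ⟨hn, h1, h2⟩ := hM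
  constructor
  · intro hx q hq hqx
    apply h1 q hq
    have : orderOf x ∣ Nat.card M := by
      have := orderOf_dvd_natCard (⟨x, hx⟩ : M)
      rwa [Subgroup.orderOf_mk] at this
    exact hqx.trans this
  · intro hx
    have := hn
    by_contra hxM
    have hne : (QuotientGroup.mk x : X ⧸ M) ≠ 1 := by
      rwa [Ne, QuotientGroup.eq_one_iff]
    have hord : orderOf (QuotientGroup.mk x : X ⧸ M) ≠ 1 := by
      rwa [Ne, orderOf_eq_one_iff]
    obtain ⟨q, hq, hqd⟩ := Nat.exists_prime_and_dvd hord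
    have hd1 : orderOf (QuotientGroup.mk x : X ⧸ M) ∣ orderOf x := by
      apply orderOf_dvd_of_pow_eq_one
      rw [← QuotientGroup.mk_pow, pow_orderOf_eq_one]; rfl
    have hd2 : orderOf (QuotientGroup.mk x : X ⧸ M) ∣ M.index := by
      rw [Subgroup.index_eq_card]
      exact orderOf_dvd_natCard _
    have h3 := hx q hq (hqd.trans hd1)
    have h4 := h2 q hq (hqd.trans hd2)
    omega

theorem normal_of_coe_eq_bigSet {X : Type u} [Group X] {b : ℕ} {L : Subgroup X}
    (h : ∀ x, x ∈ L ↔ x ∈ bigSet b X) : L.Normal := by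
  constructor
  intro n hn g
  rw [h] at hn ⊢
  intro q hq hqd
  apply hn q hq
  have : orderOf (g * n * g⁻¹) = orderOf n := (MulAut.conj g).orderOf_eq n
  rwa [this] at hqd

theorem card_sup_sylow {X : Type u} [Group X] [Finite X] {p : ℕ} [Fact p.Prime] {N : Subgroup X}
    [N.Normal] (P : Sylow p X) :
    Nat.card (N ⊔ (P : Subgroup X) : Subgroup X) = Nat.card N * N.relIndex P := by
  rw [← Subgroup.relIndex_sup_left (P : Subgroup X) N, ← Subgroup.relIndex_bot_left,
    ← Subgroup.relIndex_bot_left]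
  exact (Subgroup.relIndex_mul_relIndex _ _ _ bot_le le_sup_left).symm

theorem sup_sylow_primes {X : Type u} [Group X] [Finite X] {p : ℕ} [hp : Fact p.Prime]
    {N : Subgroup X} (hN : IsTower (p + 1) N) (P : Sylow p X) :
    ∀ q : ℕ, q.Prime → q ∣ Nat.card (N ⊔ (P : Subgroup X) : Subgroup X) → p ≤ q := by
  obtain ⟨hn, h1, h2⟩ := hN
  have := hn
  intro q hq hqd
  rw [card_sup_sylow (N := N) P] at hqd
  rcases (Nat.Prime.dvd_mul hq).mp hqd with h | h
  · have := h1 q hq h; omega
  · have h' : q ∣ Nat.card P := h.trans (Subgroup.relIndex_dvd_card _ _)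
    rw [Sylow.card_eq_multiplicity] at h'
    have := (Nat.prime_dvd_prime_iff_eq hq hp.out).mp (hq.dvd_of_dvd_pow h')
    omega

theorem sup_sylow_subset {X : Type u} [Group X] [Finite X] {p : ℕ} [hp : Fact p.Prime]
    {N : Subgroup X} (hN : IsTower (p + 1) N) (P : Sylow p X) :
    ((N ⊔ (P : Subgroup X) : Subgroup X) : Set X) ⊆ bigSet p X := by
  intro x hx q hq hqx
  apply sup_sylow_primes hN P q hq
  have : orderOf x ∣ Nat.card (N ⊔ (P : Subgroup X) : Subgroup X) := by
    have := orderOf_dvd_natCard (⟨x, hx⟩ : (N ⊔ (P : Subgroup X) : Subgroup X))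
    rwa [Subgroup.orderOf_mk] at this
  exact hqx.trans this

theorem tower_step {X : Type u} [Group X] [Finite X] {p : ℕ} [hp : Fact p.Prime] {N : Subgroup X}
    (hN : IsTower (p + 1) N) (P : Sylow p X)
    (hsub : bigSet p X ⊆ ((N ⊔ (P : Subgroup X) : Subgroup X) : Set X)) :
    IsTower p (N ⊔ (P : Subgroup X)) := by
  have hmem : ∀ x, x ∈ (N ⊔ (P : Subgroup X) : Subgroup X) ↔ x ∈ bigSet p X := by
    intro x
    exact ⟨fun hx => sup_sylow_subset hN P hx, fun hx => hsub hx⟩
  refine ⟨normal_of_coe_eq_bigSet hmem, sup_sylow_primes hN P, ?_⟩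
  obtain ⟨hn, h1, h2⟩ := hN
  intro q hq hqd
  have hlt : q < p + 1 := h2 q hq (hqd.trans (Subgroup.index_dvd_of_le le_sup_left))
  have hne : q ≠ p := by
    rintro rfl
    exact P.not_dvd_index (hqd.trans (Subgroup.index_dvd_of_le le_sup_right))
  omega

theorem tower_step_not_prime {X : Type u} [Group X] {b : ℕ} {N : Subgroup X} (hb : ¬ b.Prime)
    (hN : IsTower (b + 1) N) : IsTower b N := by
  obtain ⟨hn, h1, h2⟩ := hN
  refine ⟨hn, fun q hq hqd => by have := h1 q hq hqd; omega, fun q hq hqd => ?_⟩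
  have h3 := h2 q hq hqd
  have : q ≠ b := by rintro rfl; exact hb hq
  omega

theorem tower_base {X : Type u} [Group X] [Finite X] :
    IsTower (Nat.card X + 1) (⊥ : Subgroup X) := by
  refine ⟨inferInstance, fun q hq hqd => ?_, fun q hq hqd => ?_⟩
  · rw [Subgroup.card_bot] at hqd
    exact absurd (Nat.dvd_one.mp hqd) hq.ne_one
  · rw [Subgroup.index_bot] at hqd
    have := Nat.le_of_dvd Nat.card_pos hqd
    omega

theorem supersolvable_of_surjective {X : Type u} {Y : Type v} [Group X] [Group Y] (f : X →* Y)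
    (hf : Function.Surjective f) (hX : IsSupersolvable X) : IsSupersolvable Y := by
  obtain ⟨n, H, h0, hl, hnorm, hstep⟩ := hX
  refine ⟨n, fun i => (H i).map f, ?_, ?_, ?_, ?_⟩
  · simp [h0]
  · simp only [hl]
    exact Subgroup.map_top_of_surjective f hf
  · intro i
    exact Subgroup.Normal.map (hnorm i) f hf
  · intro i
    obtain ⟨g, hg⟩ := hstep i
    refine ⟨f g, ?_⟩
    simp only [hg, Subgroup.map_sup, MonoidHom.map_zpowers]

theorem exists_normal_prime_card {X : Type u} [Group X] [Finite X] [Nontrivial X]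
    (hX : IsSupersolvable X) :
    ∃ (N : Subgroup X) (q : ℕ), N.Normal ∧ q.Prime ∧ Nat.card N = q := by
  obtain ⟨n, H, h0, hl, hnorm, hstep⟩ := hX
  have hex : ∃ i : Fin n, H i.castSucc = ⊥ ∧ H i.succ ≠ ⊥ := by
    by_contra hcon
    push Not at hcon
    have hall : ∀ i : Fin (n + 1), H i = ⊥ := by
      intro i
      induction i using Fin.induction with
      | zero => exact h0
      | succ i ih => exact hcon i ih
    have := hall (Fin.last n)
    rw [hl] at this
    exact top_ne_bot this
  obtain ⟨i, hi0, hi1⟩ := hex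
  obtain ⟨g, hg⟩ := hstep i
  rw [hi0, bot_sup_eq] at hg
  have hgne : g ≠ 1 := by
    rintro rfl
    apply hi1
    rw [hg]; simp
  have hnz : (Subgroup.zpowers g).Normal := hg ▸ hnorm i.succ
  have hm1 : orderOf g ≠ 1 := by rwa [Ne, orderOf_eq_one_iff]
  have hqp : (orderOf g).minFac.Prime := Nat.minFac_prime hm1
  have hqd : (orderOf g).minFac ∣ orderOf g := Nat.minFac_dvd _
  have hzord : orderOf (g ^ (orderOf g / (orderOf g).minFac)) = (orderOf g).minFac :=
    orderOf_pow_orderOf_div (orderOf_pos g).ne' hqd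
  refine ⟨Subgroup.zpowers (g ^ (orderOf g / (orderOf g).minFac)), (orderOf g).minFac, ?_, hqp, ?_⟩
  · constructor
    intro y hy x
    obtain ⟨k, rfl⟩ := Subgroup.mem_zpowers_iff.mp hy
    have hconj : x * g * x⁻¹ ∈ Subgroup.zpowers g := hnz.conj_mem g (Subgroup.mem_zpowers g) x
    obtain ⟨j, hj⟩ := Subgroup.mem_zpowers_iff.mp hconj
    have h1 : x * g ^ (orderOf g / (orderOf g).minFac) * x⁻¹
        = (g ^ (orderOf g / (orderOf g).minFac)) ^ j := by
      rw [← conj_pow, ← hj, ← zpow_natCast, ← zpow_natCast, ← zpow_mul, ← zpow_mul, mul_comm]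
    rw [← conj_zpow, h1]
    exact Subgroup.zpow_mem _ (Subgroup.zpow_mem _ (Subgroup.mem_zpowers _) j) k
  · rw [Nat.card_zpowers, hzord]

theorem commute_of_prime_card {X : Type u} [Group X] {N : Subgroup X} [hN : N.Normal] {p q : ℕ}
    (hp : p.Prime) (hq : q.Prime) (hqp : q < p) (hcard : Nat.card N = q) (y : X) {k : ℕ}
    (hy : y ^ p ^ k = 1) (z : X) (hz : z ∈ N) : y * z = z * y := by
  have : Finite N := Nat.finite_of_card_ne_zero (by rw [hcard]; exact hq.ne_zero)
  have : Fact q.Prime := ⟨hq⟩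
  have : IsCyclic N := isCyclic_of_prime_card (p := q) hcard
  have h1 : (MulAut.conjNormal y : MulAut N) ^ p ^ k = 1 := by
    rw [← map_pow, hy, map_one]
  have h2 : orderOf (MulAut.conjNormal y : MulAut N) ∣ p ^ k := orderOf_dvd_of_pow_eq_one h1
  have h3 : orderOf (MulAut.conjNormal y : MulAut N) ∣ q - 1 := by
    have := orderOf_dvd_natCard (MulAut.conjNormal y : MulAut N)
    rwa [IsCyclic.card_mulAut, hcard, Nat.totient_prime hq] at this
  have h4 : orderOf (MulAut.conjNormal y : MulAut N) = 1 := by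
    obtain ⟨j, hj, hj'⟩ := (Nat.dvd_prime_pow hp).mp h2
    rcases Nat.eq_zero_or_pos j with rfl | hjpos
    · simpa using hj'
    · exfalso
      have h5 : p ∣ q - 1 := (dvd_pow_self p hjpos.ne').trans (hj' ▸ h3)
      have := Nat.le_of_dvd (by have := hq.two_le; omega) h5
      omega
  have h5 : (MulAut.conjNormal y : MulAut N) = 1 := orderOf_eq_one_iff.mp h4
  have h6 := congrArg (fun ψ : MulAut N => ((ψ ⟨z, hz⟩ : N) : X)) h5
  simp only [MulAut.conjNormal_apply, MulAut.one_apply] at h6
  calc y * z = (y * z * y⁻¹) * y := by group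
    _ = z * y := by rw [h6]

/-- In a finite supersolvable group whose order has no prime factor above `p`, every `p`-element
lies in every Sylow `p`-subgroup. -/
theorem pElt_mem_sylow : ∀ (n : ℕ) (X : Type u) [Group X] [Finite X], Nat.card X = n →
    IsSupersolvable X → ∀ (p : ℕ) [Fact p.Prime], (∀ q : ℕ, q.Prime → q ∣ Nat.card X → q ≤ p) →
    ∀ (P : Sylow p X) (x : X) (k : ℕ), x ^ p ^ k = 1 → x ∈ P := by
  intro n
  induction n using Nat.strong_induction_on with
  | _ n ih =>
  intro X _ _ hn hX p hp hle P x k hx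
  rcases subsingleton_or_nontrivial X with hs | hnt
  · have : x = 1 := Subsingleton.elim _ _
    rw [this]; exact one_mem _
  obtain ⟨N, q, hNn, hq, hNq⟩ := exists_normal_prime_card hX
  have := hNn
  have hcardQ : Nat.card (X ⧸ N) * q = n := by
    rw [← hn, ← hNq, ← Subgroup.index_eq_card, mul_comm, Subgroup.card_mul_index]
  have hlt : Nat.card (X ⧸ N) < n := by
    have hpos : 0 < Nat.card (X ⧸ N) := Nat.card_pos
    have := hq.two_le
    nlinarith
  have hXq : IsSupersolvable (X ⧸ N) :=
    supersolvable_of_surjective (QuotientGroup.mk' N) (QuotientGroup.mk'_surjective N) hX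
  have hleq : ∀ r : ℕ, r.Prime → r ∣ Nat.card (X ⧸ N) → r ≤ p := by
    intro r hr hrd
    apply hle r hr
    rw [hn, ← hcardQ]; exact hrd.mul_right q
  have hmem := ih _ hlt (X ⧸ N) rfl hXq p hleq
    (P.mapSurjective (QuotientGroup.mk'_surjective N)) (QuotientGroup.mk' N x) k
    (by rw [← map_pow, hx, map_one])
  have hmem' : QuotientGroup.mk' N x ∈ (P : Subgroup X).map (QuotientGroup.mk' N) := by
    rw [← Sylow.coe_mapSurjective (QuotientGroup.mk'_surjective N)]; exact hmem
  obtain ⟨y, hyP, hyx⟩ := hmem'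
  have hzN : y⁻¹ * x ∈ N := by
    rw [← QuotientGroup.eq]; exact hyx
  have hxyz : x = y * (y⁻¹ * x) := by group
  by_cases hqp : q = p
  · have hNp : IsPGroup p N := IsPGroup.of_card (n := 1) (by rw [hNq, hqp, pow_one])
    have hsup : IsPGroup p (N ⊔ (P : Subgroup X) : Subgroup X) :=
      IsPGroup.to_sup_of_normal_left hNp P.isPGroup'
    have hmax := P.is_maximal' hsup le_sup_right
    have hNP : N ≤ (P : Subgroup X) := by rw [← hmax]; exact le_sup_left
    rw [hxyz]; exact mul_mem hyP (hNP hzN)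
  · have hqlt : q < p :=
      lt_of_le_of_ne (hle q hq (by rw [← hNq]; exact Subgroup.card_subgroup_dvd_card N)) hqp
    obtain ⟨m, hm⟩ : ∃ m, y ^ p ^ m = 1 := by
      obtain ⟨m, hm⟩ := P.isPGroup' ⟨y, hyP⟩
      exact ⟨m, by simpa [Subtype.ext_iff] using hm⟩
    have hcomm : Commute y (y⁻¹ * x) :=
      commute_of_prime_card hp.out hq hqlt hNq y hm (y⁻¹ * x) hzN
    have hzpow : (y⁻¹ * x) ^ p ^ (k + m) = 1 := by
      have h1 : x ^ p ^ (k + m) = 1 := by rw [pow_add, pow_mul, hx, one_pow]
      have h2 : y ^ p ^ (k + m) = 1 := by rw [pow_add, mul_comm, pow_mul, hm, one_pow]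
      have h3 : x ^ p ^ (k + m) = y ^ p ^ (k + m) * (y⁻¹ * x) ^ p ^ (k + m) := by
        rw [← hcomm.mul_pow, ← hxyz]
      rw [h1, h2, one_mul] at h3
      exact h3.symm
    have hzord : orderOf (y⁻¹ * x) ∣ p ^ (k + m) := orderOf_dvd_of_pow_eq_one hzpow
    have hzord2 : orderOf (y⁻¹ * x) ∣ q := by
      have := orderOf_dvd_natCard (⟨y⁻¹ * x, hzN⟩ : N)
      rwa [Subgroup.orderOf_mk, hNq] at this
    have hcop : Nat.Coprime (p ^ (k + m)) q :=
      Nat.Coprime.pow_left _ ((Nat.coprime_primes hp.out hq).mpr (Ne.symm hqp))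
    have hz1 : orderOf (y⁻¹ * x) = 1 := Nat.eq_one_of_dvd_coprimes hcop hzord hzord2
    have hz1' : y⁻¹ * x = 1 := orderOf_eq_one_iff.mp hz1
    rw [hxyz, hz1', mul_one]; exact hyP

theorem tower_supersolvable {G : Type u} [Group G] [Finite G] (hG : IsSupersolvable G) :
    ∀ (k b : ℕ), b + k = Nat.card G + 1 → ∃ M : Subgroup G, IsTower b M := by
  intro k
  induction k with
  | zero =>
    intro b hb
    exact ⟨⊥, by rw [show b = Nat.card G + 1 by omega]; exact tower_base⟩
  | succ k ih =>
    intro b hb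
    obtain ⟨N, hN⟩ := ih (b + 1) (by omega)
    by_cases hbp : b.Prime
    · have : Fact b.Prime := ⟨hbp⟩
      obtain ⟨P⟩ : Nonempty (Sylow b G) := inferInstance
      refine ⟨N ⊔ (P : Subgroup G), tower_step hN P ?_⟩
      intro x hx
      have := hN.1
      have hXq : IsSupersolvable (G ⧸ N) :=
        supersolvable_of_surjective _ (QuotientGroup.mk'_surjective N) hG
      have hleq : ∀ r : ℕ, r.Prime → r ∣ Nat.card (G ⧸ N) → r ≤ b := by
        intro r hr hrd
        rw [← Subgroup.index_eq_card] at hrd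
        have := hN.2.2 r hr hrd; omega
      have hpow : ∃ j, (QuotientGroup.mk' N x) ^ b ^ j = 1 := by
        have hd1 : orderOf (QuotientGroup.mk' N x) ∣ orderOf x := by
          apply orderOf_dvd_of_pow_eq_one
          rw [← map_pow, pow_orderOf_eq_one, map_one]
        have hd2 : orderOf (QuotientGroup.mk' N x) ∣ Nat.card (G ⧸ N) := orderOf_dvd_natCard _
        have hall : ∀ {r : ℕ}, r.Prime → r ∣ orderOf (QuotientGroup.mk' N x) → r = b := by
          intro r hr hrd
          have h1 := hx r hr (hrd.trans hd1)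
          have h2 := hleq r hr (hrd.trans hd2)
          omega
        have h3 := Nat.eq_prime_pow_of_unique_prime_dvd (orderOf_pos (QuotientGroup.mk' N x)).ne' hall
        exact ⟨_, by rw [← h3]; exact pow_orderOf_eq_one _⟩
      obtain ⟨j, hj⟩ := hpow
      have hmem := pElt_mem_sylow _ (G ⧸ N) rfl hXq b hleq
        (P.mapSurjective (QuotientGroup.mk'_surjective N)) _ j hj
      have hmem' : QuotientGroup.mk' N x ∈ (P : Subgroup G).map (QuotientGroup.mk' N) := by
        rw [← Sylow.coe_mapSurjective (QuotientGroup.mk'_surjective N)]; exact hmem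
      obtain ⟨y, hyP, hyx⟩ := hmem'
      have hzN : y⁻¹ * x ∈ N := by
        rw [← QuotientGroup.eq]; exact hyx
      have hxyz : x = (y⁻¹ * x) * ((y⁻¹ * x)⁻¹ * y * (y⁻¹ * x)) := by group
      have hnorm : (y⁻¹ * x) * ((y⁻¹ * x)⁻¹ * y * (y⁻¹ * x)) ∈ (N ⊔ (P : Subgroup G) : Subgroup G) := by
        have h1 : x = y * (y⁻¹ * x) := by group
        rw [← hxyz, h1]
        exact mul_mem (Subgroup.mem_sup_right hyP) (Subgroup.mem_sup_left hzN)
      rw [hxyz]; exact hnorm
    · exact ⟨N, tower_step_not_prime hbp hN⟩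

theorem card_tower_le {X : Type u} [Group X] [Finite X] {p : ℕ} (hp : p.Prime) {N M : Subgroup X}
    (hN : IsTower (p + 1) N) (hM : IsTower p M) :
    Nat.card M ≤ Nat.card N * p ^ (Nat.card X).factorization p := by
  have hNM : N ≤ M := by
    intro x hx
    rw [hM.mem_iff]
    have h1 := (hN.mem_iff x).mp hx
    intro q hq hqd
    have := h1 q hq hqd; omega
  have hcard : Nat.card N * N.relIndex M = Nat.card M := by
    rw [← Subgroup.relIndex_bot_left, ← Subgroup.relIndex_bot_left]
    exact Subgroup.relIndex_mul_relIndex _ _ _ bot_le hNM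
  have hr1 : N.relIndex M ∣ N.index := Subgroup.relIndex_dvd_index_of_le hNM
  have hr2 : N.relIndex M ∣ Nat.card M := Subgroup.relIndex_dvd_card _ _
  have hr0 : N.relIndex M ≠ 0 := by
    intro h0
    rw [h0, mul_zero] at hcard
    exact (Nat.card_pos (α := M)).ne' hcard.symm
  have hall : ∀ {q : ℕ}, q.Prime → q ∣ N.relIndex M → q = p := by
    intro q hq hqd
    have h1 := hN.2.2 q hq (hqd.trans hr1)
    have h2 := hM.2.1 q hq (hqd.trans hr2)
    omega
  have hrpow := Nat.eq_prime_pow_of_unique_prime_dvd hr0 hall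
  have hrX : N.relIndex M ∣ Nat.card X := hr1.trans (Subgroup.index_dvd_card N)
  have hle : N.relIndex M ≤ p ^ (Nat.card X).factorization p := by
    rw [hrpow] at hrX ⊢
    exact Nat.pow_le_pow_right hp.pos
      ((hp.pow_dvd_iff_le_factorization Nat.card_pos.ne').mp hrX)
  calc Nat.card M = Nat.card N * N.relIndex M := hcard.symm
    _ ≤ _ := Nat.mul_le_mul_left _ hle

theorem solvable_sup_sylow {X : Type u} [Group X] [Finite X] {p : ℕ} [hp : Fact p.Prime]
    {N : Subgroup X} [N.Normal] (hN : Group.IsSolvable N) (P : Sylow p X) :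
    Group.IsSolvable (N ⊔ (P : Subgroup X) : Subgroup X) := by
  have hNL : N ≤ N ⊔ (P : Subgroup X) := le_sup_left
  have hQ : IsPGroup p ((N ⊔ (P : Subgroup X) : Subgroup X) ⧸
      N.subgroupOf (N ⊔ (P : Subgroup X))) := by
    have h1 : Nat.card ((N ⊔ (P : Subgroup X) : Subgroup X) ⧸
        N.subgroupOf (N ⊔ (P : Subgroup X))) = N.relIndex P := by
      rw [← Subgroup.index_eq_card]
      exact Subgroup.relIndex_sup_left (P : Subgroup X) N
    have h2 : N.relIndex P ∣ p ^ (Nat.card X).factorization p := by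
      rw [← Sylow.card_eq_multiplicity]; exact Subgroup.relIndex_dvd_card _ _
    obtain ⟨j, -, hj⟩ := (Nat.dvd_prime_pow hp.out).mp h2
    exact IsPGroup.of_card (h1.trans hj)
  have hsolv : Group.IsSolvable ((N ⊔ (P : Subgroup X) : Subgroup X) ⧸
      N.subgroupOf (N ⊔ (P : Subgroup X))) := by
    have := hQ.isNilpotent
    infer_instance
  refine Group.isSolvable_of_ker_le_range (Subgroup.inclusion hNL)
    (QuotientGroup.mk' (N.subgroupOf (N ⊔ (P : Subgroup X)))) ?_
  rw [QuotientGroup.ker_mk']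
  intro x hx
  exact ⟨⟨x.1, hx⟩, rfl⟩

theorem tower_of_equiv {G : Type u} {H : Type v} [Group G] [Finite G] [Group H] [Finite H]
    (e : G ≃ H) (he : ∀ g, orderOf (e g) = orderOf g)
    (hG : ∀ b : ℕ, b ≤ Nat.card G + 1 → ∃ M : Subgroup G, IsTower b M) :
    ∀ (k b : ℕ), b + k = Nat.card H + 1 → ∃ M : Subgroup H, IsTower b M ∧ Group.IsSolvable M := by
  have hcard : Nat.card G = Nat.card H := Nat.card_congr e
  have hbig : ∀ b : ℕ, bigSet b H = e '' bigSet b G := by
    intro b
    ext h
    constructor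
    · intro hh
      refine ⟨e.symm h, ?_, e.apply_symm_apply h⟩
      intro q hq hqd
      apply hh q hq
      rwa [← he, e.apply_symm_apply] at hqd
    · rintro ⟨g, hg, rfl⟩
      intro q hq hqd
      apply hg q hq
      rwa [he] at hqd
  have hncard : ∀ b : ℕ, (bigSet b H).ncard = (bigSet b G).ncard := by
    intro b
    rw [hbig, Set.ncard_image_of_injective _ e.injective]
  have hcoe : ∀ {X : Type v} [Group X] [Finite X] {b : ℕ} {M : Subgroup X}, IsTower b M →
      Nat.card M = (bigSet b X).ncard := by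
    intro X _ _ b M hM
    rw [← Nat.card_coe_set_eq]
    have : (M : Set X) = bigSet b X := by ext x; exact hM.mem_iff x
    rw [← this]; rfl
  have hcoe' : ∀ {X : Type u} [Group X] [Finite X] {b : ℕ} {M : Subgroup X}, IsTower b M →
      Nat.card M = (bigSet b X).ncard := by
    intro X _ _ b M hM
    rw [← Nat.card_coe_set_eq]
    have : (M : Set X) = bigSet b X := by ext x; exact hM.mem_iff x
    rw [← this]; rfl
  intro k
  induction k with
  | zero =>
    intro b hb
    refine ⟨⊥, by rw [show b = Nat.card H + 1 by omega]; exact tower_base, ?_⟩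
    infer_instance
  | succ k ih =>
    intro b hb
    obtain ⟨N, hN, hNs⟩ := ih (b + 1) (by omega)
    by_cases hbp : b.Prime
    · have : Fact b.Prime := ⟨hbp⟩
      obtain ⟨P⟩ : Nonempty (Sylow b H) := inferInstance
      have := hN.1
      obtain ⟨MG, hMG⟩ := hG b (by omega)
      obtain ⟨NG, hNG⟩ := hG (b + 1) (by omega)
      have hsubL := sup_sylow_subset hN P
      have hcardL : Nat.card (N ⊔ (P : Subgroup H) : Subgroup H)
          = Nat.card N * b ^ (Nat.card H).factorization b := by
        rw [card_sup_sylow (N := N) P]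
        congr 1
        have hcop : Nat.Coprime (Nat.card N) (Nat.card P) := by
          rw [Sylow.card_eq_multiplicity]
          apply Nat.Coprime.pow_right
          rw [Nat.coprime_comm, Nat.Prime.coprime_iff_not_dvd hbp]
          intro hd
          have := hN.2.1 b hbp hd
          omega
        have hinf : N ⊓ (P : Subgroup H) = ⊥ :=
          disjoint_iff.mp (Subgroup.disjoint_of_coprime_natCard hcop)
        rw [← Subgroup.inf_relIndex_right, hinf, Subgroup.relIndex_bot_left,
          Sylow.card_eq_multiplicity]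
      have hle : (bigSet b H).ncard ≤ Nat.card (N ⊔ (P : Subgroup H) : Subgroup H) := by
        rw [hcardL, hncard, ← hcoe' hMG, hcoe hN, hncard, ← hcoe' hNG, ← hcard]
        exact card_tower_le hbp hNG hMG
      have heq : ((N ⊔ (P : Subgroup H) : Subgroup H) : Set H) = bigSet b H := by
        apply Set.eq_of_subset_of_ncard_le hsubL _ (Set.toFinite _)
        rw [← Nat.card_coe_set_eq]; exact hle
      exact ⟨N ⊔ (P : Subgroup H), tower_step hN P heq.symm.subset, solvable_sup_sylow hNs P⟩
    · exact ⟨N, tower_step_not_prime hbp hN, hNs⟩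

/-- Let G and H be finite groups with the same order type (for every m the same number of elements of order m). If G is supersolvable then H is solvable. -/
theorem result {G H : Type*} [Group G] [Finite G] [Group H] [Finite H] (hT : (∀ m : ℕ, Nat.card {g : G // orderOf g = m} = Nat.card {h : H // orderOf h = m})) (hG : Cfsg.IsSupersolvable G) :
    Group.IsSolvable H := by
  obtain ⟨e, he⟩ := exists_orderOf_equiv hT
  have hGt : ∀ b, b ≤ Nat.card G + 1 → ∃ M : Subgroup G, IsTower b M := fun b hb =>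
    tower_supersolvable hG (Nat.card G + 1 - b) b (by omega)
  obtain ⟨M, hM, hMs⟩ := tower_of_equiv e he hGt (Nat.card H + 1) 0 (by omega)
  have htop : M = ⊤ := by
    have : M.index = 1 := by
      by_contra h
      obtain ⟨q, hq, hqd⟩ := Nat.exists_prime_and_dvd h
      exact absurd (hM.2.2 q hq hqd) (Nat.not_lt_zero q)
    exact Subgroup.index_eq_one.mp this
  subst htop
  exact Group.isSolvable_of_surjective (f := (⊤ : Subgroup H).subtype)
    (by intro x; exact ⟨⟨x, trivial⟩, rfl⟩)

end Cfsg.Agent.S3998
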