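import Cfsg.Statements.S4005
import Mathlib

set_option autoImplicit false
open Cfsg

namespace Cfsg.Agent.S4005

/-- No commuting pair (involution, element of order three). -/
theorem no6 {G : Type*} [Group G] (h23 : ∀ g : G, g ^ 2 = 1 ∨ g ^ 3 = 1) (a b : G)
    (hab : a * b = b * a) (ha : a ^ 2 = 1) (ha1 : a ≠ 1) (hb : b ^ 3 = 1) (hb1 : b ≠ 1) :
    False := by
  have hc : Commute a b := hab
  rcases h23 (a * b) with h' | h'
  · rw [hc.mul_pow, ha, one_mul] at h'
    apply hb1
    calc b = b ^ 3 * (b ^ 2)⁻¹ := by group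
      _ = 1 := by rw [hb, h', inv_one, mul_one]
  · rw [hc.mul_pow, hb, mul_one] at h'
    apply ha1
    calc a = a ^ 3 * (a ^ 2)⁻¹ := by group
      _ = 1 := by rw [h', ha, inv_one, mul_one]

/-- An involution with a commuting partner involution cannot invert an element of order 3. -/
theorem noinv {G : Type*} [Group G] (h23 : ∀ g : G, g ^ 2 = 1 ∨ g ^ 3 = 1) (s t x : G)
    (hs : s ^ 2 = 1) (ht : t ^ 2 = 1) (hs1 : s ≠ 1) (ht1 : t ≠ 1) (hst : s ≠ t)
    (hcomm : s * t = t * s) (hx : x ^ 3 = 1) (hx1 : x ≠ 1) (hinv : t * x * t = x⁻¹) : False := by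
  have hsinv : s⁻¹ = s := inv_eq_of_mul_eq_one_left (by rw [← pow_two]; exact hs)
  have htinv : t⁻¹ = t := inv_eq_of_mul_eq_one_left (by rw [← pow_two]; exact ht)
  have hss : s * s = 1 := by rw [← pow_two]; exact hs
  have hx3' : x * x * x = 1 := by rw [← hx, pow_succ, pow_two]
  have hx2 : x * x = x⁻¹ := by
    calc x * x = (x * x * x) * x⁻¹ := by group
      _ = x⁻¹ := by rw [hx3', one_mul]
  have hxx' : x⁻¹ * x⁻¹ = x := by
    calc x⁻¹ * x⁻¹ = (x * x * x)⁻¹ * x := by group
      _ = x := by rw [hx3', inv_one, one_mul]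
  have hsx : s * x ≠ x * s := fun h => no6 h23 s x h hs hs1 hx hx1
  have hsx2 : (s * x) ^ 2 ≠ 1 := by
    intro h2
    have h2' : s * x * (s * x) = 1 := by rw [← pow_two]; exact h2
    have e : s * x * s = x⁻¹ := by
      calc s * x * s = (s * x * (s * x)) * x⁻¹ := by group
        _ = x⁻¹ := by rw [h2', one_mul]
    have e' : s * x⁻¹ * s = x := by
      calc s * x⁻¹ * s = s⁻¹ * x⁻¹ * s⁻¹ := by rw [hsinv]
        _ = (s * x * s)⁻¹ := by group
        _ = x := by rw [e, inv_inv]
    have hc : (s * t) * x = x * (s * t) := by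
      calc (s * t) * x = s * (t * x * t) * t⁻¹ := by group
        _ = s * x⁻¹ * t := by rw [hinv, htinv]
        _ = (s * x⁻¹ * s) * s⁻¹ * t := by group
        _ = x * (s * t) := by rw [e', hsinv, mul_assoc]
    have hst2 : (s * t) ^ 2 = 1 := by
      rw [(show Commute s t from hcomm).mul_pow, hs, ht, one_mul]
    have hst1 : s * t ≠ 1 := by
      intro h
      apply hst
      rw [eq_inv_of_mul_eq_one_left h, htinv]
    exact no6 h23 (s * t) x hc hst2 hst1 hx hx1
  have h3 : (s * x) ^ 3 = 1 := (h23 (s * x)).resolve_left hsx2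
  have h3' : s * x * (s * x) * (s * x) = 1 := by rw [← h3, pow_succ, pow_two]
  have e1 : x * s * x = s * x⁻¹ * s := by
    calc x * s * x = (s * x * s)⁻¹ * (s * x * (s * x) * (s * x)) := by group
      _ = s⁻¹ * x⁻¹ * s⁻¹ := by rw [h3', mul_one]; group
      _ = s * x⁻¹ * s := by rw [hsinv]
  have e1' : x⁻¹ * s * x⁻¹ = s * x * s := by
    calc x⁻¹ * s * x⁻¹ = x⁻¹ * s⁻¹ * x⁻¹ := by rw [hsinv]
      _ = (x * s * x)⁻¹ := by group
      _ = (s * x⁻¹ * s)⁻¹ := by rw [e1]
      _ = s⁻¹ * x * s⁻¹ := by group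
      _ = s * x * s := by rw [hsinv]
  obtain ⟨u, hudef⟩ : ∃ u, u = x⁻¹ * s * x := ⟨_, rfl⟩
  have hsu : s * u = x * s * x⁻¹ := by
    calc s * u = (s * x⁻¹ * s) * x := by rw [hudef]; group
      _ = (x * s * x) * x := by rw [e1]
      _ = x * s * (x * x) := by group
      _ = x * s * x⁻¹ := by rw [hx2]
  have hus : u * s = x * s * x⁻¹ := by
    calc u * s = x⁻¹ * (s * x * s) := by rw [hudef]; group
      _ = x⁻¹ * (x⁻¹ * s * x⁻¹) := by rw [e1']
      _ = (x⁻¹ * x⁻¹) * s * x⁻¹ := by group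
      _ = x * s * x⁻¹ := by rw [hxx']
  have hu2 : u ^ 2 = 1 := by
    calc u ^ 2 = x⁻¹ * (s * s) * x := by rw [hudef, pow_two]; group
      _ = 1 := by rw [hss]; group
  have huinv : u⁻¹ = u := inv_eq_of_mul_eq_one_left (by rw [← pow_two]; exact hu2)
  have htut : t * u * t = x * s * x⁻¹ := by
    have hx' : t * x * t⁻¹ = x⁻¹ := by rw [htinv]; exact hinv
    have hs' : t * s * t⁻¹ = s := by rw [← hcomm]; group
    calc t * u * t = t * (x⁻¹ * s * x) * t⁻¹ := by rw [htinv, hudef]
      _ = (t * x * t⁻¹)⁻¹ * (t * s * t⁻¹) * (t * x * t⁻¹) := by group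
      _ = x * s * x⁻¹ := by rw [hx', hs', inv_inv]
  have hne : t * u * t ≠ u := by
    intro h
    rw [htut, hudef] at h
    have h1 : x⁻¹ * s = s * x⁻¹ := by
      calc x⁻¹ * s = (x * x) * s := by rw [hx2]
        _ = x * (x * s * x⁻¹) * x := by group
        _ = x * (x⁻¹ * s * x) * x := by rw [h]
        _ = s * (x * x) := by group
        _ = s * x⁻¹ := by rw [hx2]
    apply hsx
    calc s * x = x * (x⁻¹ * s) * x := by group
      _ = x * (s * x⁻¹) * x := by rw [h1]
      _ = x * s := by group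
  have htu2 : (t * u) ^ 2 ≠ 1 := by
    intro h
    apply hne
    have h' : t * u * (t * u) = 1 := by rw [← pow_two]; exact h
    calc t * u * t = (t * u * (t * u)) * u⁻¹ := by group
      _ = u := by rw [h', one_mul, huinv]
  have htu3 : (t * u) ^ 3 = 1 := (h23 _).resolve_left htu2
  have htu1 : t * u ≠ 1 := by
    intro h
    apply htu2
    rw [h, one_pow]
  have hcs : s * (t * u) = (t * u) * s := by
    calc s * (t * u) = (s * t) * u := by group
      _ = (t * s) * u := by rw [hcomm]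
      _ = t * (s * u) := by group
      _ = t * (u * s) := by rw [hsu, hus]
      _ = t * u * s := by group
  exact no6 h23 s (t * u) hcs hs hs1 htu3 htu1

/-- A finite group whose set of element orders is exactly {1, 2, 3} has either a normal elementary abelian 3-subgroup of index 2 or a normal elementary abelian 2-subgroup of index 3. -/
theorem result {G : Type*} [Group G] [Finite G] (h : Set.range (orderOf : G → ℕ) = {k : ℕ | 1 ≤ k ∧ k ≤ 3}) :
    (∃ N : Subgroup G, N.Normal ∧ Cfsg.IsElementaryAbelian 3 N ∧ N.index = 2) ∨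
      (∃ N : Subgroup G, N.Normal ∧ Cfsg.IsElementaryAbelian 2 N ∧ N.index = 3) := by
  have hord : ∀ g : G, orderOf g = 1 ∨ orderOf g = 2 ∨ orderOf g = 3 := by
    intro g
    have hmem : orderOf g ∈ Set.range (orderOf : G → ℕ) := ⟨g, rfl⟩
    rw [h] at hmem
    obtain ⟨h1, h2⟩ := hmem
    omega
  have h23 : ∀ g : G, g ^ 2 = 1 ∨ g ^ 3 = 1 := by
    intro g
    rcases hord g with h' | h' | h'
    · left; rw [orderOf_eq_one_iff] at h'; rw [h', one_pow]
    · left; rw [← h']; exact pow_orderOf_eq_one g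
    · right; rw [← h']; exact pow_orderOf_eq_one g
  obtain ⟨t₀, ht₀⟩ : ∃ t : G, orderOf t = 2 := by
    have hmem : (2 : ℕ) ∈ Set.range (orderOf : G → ℕ) := by
      rw [h]; exact ⟨by norm_num, by norm_num⟩
    exact hmem
  obtain ⟨x₀, hx₀⟩ : ∃ x : G, orderOf x = 3 := by
    have hmem : (3 : ℕ) ∈ Set.range (orderOf : G → ℕ) := by
      rw [h]; exact ⟨by norm_num, by norm_num⟩
    exact hmem
  have ht₀2 : t₀ ^ 2 = 1 := by rw [← ht₀]; exact pow_orderOf_eq_one t₀
  have ht₀1 : t₀ ≠ 1 := by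
    intro h'; rw [h', orderOf_one] at ht₀; omega
  have ht₀inv : t₀⁻¹ = t₀ := inv_eq_of_mul_eq_one_left (by rw [← pow_two]; exact ht₀2)
  have hx₀3 : x₀ ^ 3 = 1 := by rw [← hx₀]; exact pow_orderOf_eq_one x₀
  have hx₀1 : x₀ ≠ 1 := by
    intro h'; rw [h', orderOf_one] at hx₀; omega
  have h2el : ∀ (S : Subgroup G), IsPGroup 2 S → ∀ a ∈ S, a ^ 2 = 1 := by
    intro S hS a ha
    obtain ⟨k, hk⟩ := (IsPGroup.iff_orderOf.1 hS) ⟨a, ha⟩
    rw [Subgroup.orderOf_mk] at hk
    rcases hord a with h' | h' | h'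
    · rw [orderOf_eq_one_iff] at h'; rw [h', one_pow]
    · rw [← h']; exact pow_orderOf_eq_one a
    · exfalso
      rw [h'] at hk
      rcases k with _ | k
      · simp at hk
      · have : 2 ∣ 3 := by rw [hk]; exact dvd_pow_self 2 (Nat.succ_ne_zero k)
        omega
  have h3el : ∀ (S : Subgroup G), IsPGroup 3 S → ∀ a ∈ S, a ^ 3 = 1 := by
    intro S hS a ha
    obtain ⟨k, hk⟩ := (IsPGroup.iff_orderOf.1 hS) ⟨a, ha⟩
    rw [Subgroup.orderOf_mk] at hk
    rcases hord a with h' | h' | h'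
    · rw [orderOf_eq_one_iff] at h'; rw [h', one_pow]
    · exfalso
      rw [h'] at hk
      rcases k with _ | k
      · simp at hk
      · have : 3 ∣ 2 := by rw [hk]; exact dvd_pow_self 3 (Nat.succ_ne_zero k)
        omega
    · rw [← h']; exact pow_orderOf_eq_one a
  obtain ⟨T⟩ : Nonempty (Sylow 2 G) := inferInstance
  have hcardT : Nat.card T = 2 ^ (Nat.card G).factorization 2 := T.card_eq_multiplicity
  have h2G : 2 ∣ Nat.card G := by rw [← ht₀]; exact orderOf_dvd_natCard t₀
  have hfac : 1 ≤ (Nat.card G).factorization 2 :=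
    (Nat.Prime.dvd_iff_one_le_factorization Nat.prime_two (Nat.card_pos.ne')).1 h2G
  by_cases hT2 : (Nat.card G).factorization 2 = 1
  · -- Sylow 2-subgroups of order 2
    left
    have hcardT2 : Nat.card T = 2 := by rw [hcardT, hT2, pow_one]
    obtain ⟨t', ht'1, ht'u⟩ := (Nat.card_eq_two_iff' (1 : T)).1 hcardT2
    obtain ⟨t, htdef⟩ : ∃ t : G, t = (t' : G) := ⟨_, rfl⟩
    have htT : t ∈ (T : Subgroup G) := htdef ▸ t'.2
    have ht1 : t ≠ 1 := by
      intro h'
      apply ht'1
      apply Subtype.ext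
      rw [← htdef]
      exact h'
    have hTel : ∀ a ∈ (T : Subgroup G), a = 1 ∨ a = t := by
      intro a ha
      by_cases ha1 : a = 1
      · left; exact ha1
      · right
        have h' := ht'u ⟨a, ha⟩ (by intro h'; apply ha1; exact congrArg Subtype.val h')
        rw [htdef, ← h']
    have ht2 : t ^ 2 = 1 := h2el _ T.2 t htT
    have htt : t * t = 1 := by rw [← pow_two]; exact ht2
    have htinv : t⁻¹ = t := inv_eq_of_mul_eq_one_left htt
    have hP : Subgroup.normalizer ((T : Subgroup G) : Set G)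
        ≤ Subgroup.centralizer ((T : Subgroup G) : Set G) := by
      intro g hg
      rw [Subgroup.mem_centralizer_iff]
      intro a ha
      rcases hTel a ha with h' | h'
      · rw [h', one_mul, mul_one]
      · rw [h']
        have h1 := (Subgroup.mem_normalizer_iff.1 hg t).1 htT
        rcases hTel _ h1 with h2 | h2
        · exfalso
          apply ht1
          calc t = g⁻¹ * (g * t * g⁻¹) * g := by group
            _ = 1 := by rw [h2]; group
        · calc t * g = (g * t * g⁻¹) * g := by rw [h2]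
            _ = g * t := by group
    obtain ⟨N, hNdef⟩ : ∃ N : Subgroup G, N = (MonoidHom.transferSylow T hP).ker := ⟨_, rfl⟩
    have hcompl : Subgroup.IsComplement' N (T : Subgroup G) :=
      hNdef ▸ MonoidHom.ker_transferSylow_isComplement' T hP
    have hNn : N.Normal := hNdef ▸ MonoidHom.normal_ker _
    have hNidx : N.index = 2 := by rw [hcompl.symm.index_eq_card, hcardT2]
    have hNodd : ¬ 2 ∣ Nat.card N := hNdef ▸ MonoidHom.not_dvd_card_ker_transferSylow T hP
    have hN3 : ∀ n ∈ N, n ^ 3 = 1 := by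
      intro n hn
      rcases h23 n with h2 | h3
      · have hd1 : orderOf n ∣ 2 := orderOf_dvd_of_pow_eq_one h2
        have hd2 : orderOf n ∣ Nat.card N := by
          have h' := orderOf_dvd_natCard (⟨n, hn⟩ : N)
          rwa [Subgroup.orderOf_mk] at h'
        have h1 : orderOf n = 1 := by
          rcases (Nat.dvd_prime Nat.prime_two).1 hd1 with h' | h'
          · exact h'
          · exfalso; exact hNodd (h' ▸ hd2)
        rw [orderOf_eq_one_iff] at h1
        rw [h1, one_pow]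
      · exact h3
    have htN : ∀ n ∈ N, t * n * t⁻¹ ∈ N := fun n hn => hNn.conj_mem n hn t
    have hfpf : ∀ c ∈ N, t * c = c * t → c = 1 := by
      intro c hc hcomm
      by_contra hc1
      exact no6 h23 t c hcomm ht2 ht1 (hN3 c hc) hc1
    have hinvN : ∀ z ∈ N, t * z * t⁻¹ = z⁻¹ := by
      let f : N → N := fun x =>
        ⟨x.1⁻¹ * (t * x.1 * t⁻¹), N.mul_mem (N.inv_mem x.2) (htN x.1 x.2)⟩
      have hf : Function.Injective f := by
        intro a b hab
        have h' : a.1⁻¹ * (t * a.1 * t⁻¹) = b.1⁻¹ * (t * b.1 * t⁻¹) := congrArg Subtype.val hab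
        have hc : t * (b.1 * a.1⁻¹) = (b.1 * a.1⁻¹) * t := by
          have h'' : b.1 * (a.1⁻¹ * (t * a.1 * t⁻¹)) * (t * a.1⁻¹)
              = b.1 * (b.1⁻¹ * (t * b.1 * t⁻¹)) * (t * a.1⁻¹) := by rw [h']
          have e1 : b.1 * (a.1⁻¹ * (t * a.1 * t⁻¹)) * (t * a.1⁻¹) = b.1 * a.1⁻¹ * t := by group
          have e2 : b.1 * (b.1⁻¹ * (t * b.1 * t⁻¹)) * (t * a.1⁻¹) = t * (b.1 * a.1⁻¹) := by
            group
          rw [e1, e2] at h''
          exact h''.symm
        have h1 := hfpf _ (N.mul_mem b.2 (N.inv_mem a.2)) hc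
        exact Subtype.ext (mul_inv_eq_one.1 h1).symm
      have hsurj := Finite.injective_iff_surjective.1 hf
      intro z hz
      obtain ⟨x, hx⟩ := hsurj ⟨z, hz⟩
      have hx' : x.1⁻¹ * (t * x.1 * t⁻¹) = z := congrArg Subtype.val hx
      rw [← hx']
      have e : t * (x.1⁻¹ * (t * x.1 * t⁻¹)) * t⁻¹
          = t * x.1⁻¹ * ((t * t) * t⁻¹ * x.1 * (t * t)⁻¹) := by group
      rw [e, htt]
      group
    refine ⟨N, hNn, ⟨⟨⟨fun a b => Subtype.ext ?_⟩⟩, hN3⟩, hNidx⟩
    show a.1 * b.1 = b.1 * a.1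
    have h1 := hinvN (a.1 * b.1) (N.mul_mem a.2 b.2)
    have h2 := hinvN a.1 a.2
    have h3 := hinvN b.1 b.2
    have h4 : a.1⁻¹ * b.1⁻¹ = b.1⁻¹ * a.1⁻¹ := by
      calc a.1⁻¹ * b.1⁻¹ = (t * a.1 * t⁻¹) * (t * b.1 * t⁻¹) := by rw [h2, h3]
        _ = t * (a.1 * b.1) * t⁻¹ := by group
        _ = (a.1 * b.1)⁻¹ := h1
        _ = b.1⁻¹ * a.1⁻¹ := by group
    calc a.1 * b.1 = (b.1⁻¹ * a.1⁻¹)⁻¹ := by group
      _ = (a.1⁻¹ * b.1⁻¹)⁻¹ := by rw [h4]
      _ = b.1 * a.1 := by group
  · -- Sylow 2-subgroups of order at least 4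
    right
    have hfac2 : 2 ≤ (Nat.card G).factorization 2 := by omega
    have hcard4 : ∀ T' : Sylow 2 G, 4 ≤ Nat.card T' := by
      intro T'
      rw [T'.card_eq_multiplicity]
      calc 4 = 2 ^ 2 := by norm_num
        _ ≤ 2 ^ (Nat.card G).factorization 2 := Nat.pow_le_pow_right (by norm_num) hfac2
    have hpartner : ∀ t : G, t ^ 2 = 1 → ∃ s : G, s ^ 2 = 1 ∧ s ≠ 1 ∧ s ≠ t ∧ s * t = t * s := by
      intro t ht
      have hzp : IsPGroup 2 (Subgroup.zpowers t) := by
        rintro ⟨a, ha⟩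
        obtain ⟨k, rfl⟩ := Subgroup.mem_zpowers_iff.1 ha
        refine ⟨1, Subtype.ext ?_⟩
        simp only [Subgroup.coe_pow, Subgroup.coe_one, pow_one]
        rw [← zpow_natCast, ← zpow_mul, mul_comm, zpow_mul, zpow_natCast, ht, one_zpow]
      obtain ⟨T', hT'⟩ := hzp.exists_le_sylow
      have htT' : t ∈ (T' : Subgroup G) := hT' (Subgroup.mem_zpowers t)
      obtain ⟨s, hsT', hs1, hst⟩ : ∃ s ∈ (T' : Subgroup G), s ≠ 1 ∧ s ≠ t := by
        by_contra hcon
        have hsub : ((T' : Subgroup G) : Set G) ⊆ {1, t} := by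
          intro a ha
          by_contra hna
          simp only [Set.mem_insert_iff, Set.mem_singleton_iff, not_or] at hna
          exact hcon ⟨a, ha, hna.1, hna.2⟩
        have h1 := Set.ncard_le_ncard hsub (Set.toFinite _)
        have h2 : ({1, t} : Set G).ncard ≤ 2 := by
          calc ({1, t} : Set G).ncard ≤ ({t} : Set G).ncard + 1 := Set.ncard_insert_le _ _
            _ = 2 := by rw [Set.ncard_singleton]
        have h3 : Nat.card T' = ((T' : Subgroup G) : Set G).ncard := rfl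
        have h4 := hcard4 T'
        omega
      have hs2 : s ^ 2 = 1 := h2el _ T'.2 s hsT'
      refine ⟨s, hs2, hs1, hst, ?_⟩
      have hst2 : (s * t) ^ 2 = 1 := h2el _ T'.2 _ (Subgroup.mul_mem _ hsT' htT')
      have hst2' : s * t * (s * t) = 1 := by rw [← pow_two]; exact hst2
      calc s * t = (s * t * (s * t)) * (t⁻¹ * s⁻¹) := by group
        _ = t⁻¹ * s⁻¹ := by rw [hst2', one_mul]
        _ = t * s := by
            rw [inv_eq_of_mul_eq_one_left (show t * t = 1 by rw [← pow_two]; exact ht),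
              inv_eq_of_mul_eq_one_left (show s * s = 1 by rw [← pow_two]; exact hs2)]
    have hnoinv : ∀ t x : G, t ^ 2 = 1 → t ≠ 1 → x ^ 3 = 1 → x ≠ 1 → t * x * t ≠ x⁻¹ := by
      intro t x ht ht1 hx hx1 hinv
      obtain ⟨s, hs2, hs1, hst, hcomm⟩ := hpartner t ht
      exact noinv h23 s t x hs2 ht hs1 ht1 hst hcomm hx hx1 hinv
    have hcommI : ∀ a b : G, a ^ 2 = 1 → b ^ 2 = 1 → a * b = b * a := by
      intro a b ha hb
      have hainv : a⁻¹ = a := inv_eq_of_mul_eq_one_left (by rw [← pow_two]; exact ha)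
      have hbinv : b⁻¹ = b := inv_eq_of_mul_eq_one_left (by rw [← pow_two]; exact hb)
      by_cases hb1 : b = 1
      · rw [hb1, mul_one, one_mul]
      by_cases h2 : (a * b) ^ 2 = 1
      · have h2' : a * b * (a * b) = 1 := by rw [← pow_two]; exact h2
        calc a * b = (a * b * (a * b)) * (b⁻¹ * a⁻¹) := by group
          _ = b * a := by rw [h2', one_mul, hainv, hbinv]
      · exfalso
        have h3 : (a * b) ^ 3 = 1 := (h23 _).resolve_left h2
        have hab1 : a * b ≠ 1 := by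
          intro h'; apply h2; rw [h', one_pow]
        apply hnoinv b (a * b) hb hb1 h3 hab1
        have hbb : b * b = 1 := by rw [← pow_two]; exact hb
        calc b * (a * b) * b = b * a * (b * b) := by group
          _ = b⁻¹ * a⁻¹ := by rw [hbb, mul_one, hainv, hbinv]
          _ = (a * b)⁻¹ := by group
    let T₀ : Subgroup G :=
      { carrier := {g | g ^ 2 = 1}
        mul_mem' := fun {a b} ha hb => by
          show (a * b) ^ 2 = 1
          rw [(show Commute a b from hcommI a b ha hb).mul_pow, show a ^ 2 = 1 from ha,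
            show b ^ 2 = 1 from hb, one_mul]
        one_mem' := one_pow 2
        inv_mem' := fun {a} ha => by
          show a⁻¹ ^ 2 = 1
          rw [inv_pow, show a ^ 2 = 1 from ha, inv_one] }
    have hT₀mem : ∀ g : G, g ∈ T₀ ↔ g ^ 2 = 1 := fun g => Iff.rfl
    have hT₀n : T₀.Normal := ⟨fun a ha g => by
      rw [hT₀mem] at ha ⊢
      rw [conj_pow, ha]; group⟩
    refine ⟨T₀, hT₀n, ⟨⟨⟨fun a b => Subtype.ext (hcommI a.1 b.1 a.2 b.2)⟩⟩, fun a ha => ha⟩, ?_⟩
    have hQ3 : IsPGroup 3 (G ⧸ T₀) := by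
      intro q
      obtain ⟨g, rfl⟩ := QuotientGroup.mk_surjective q
      rcases h23 g with h2 | h3
      · refine ⟨0, ?_⟩
        rw [pow_zero, pow_one, QuotientGroup.eq_one_iff]
        exact h2
      · refine ⟨1, ?_⟩
        rw [pow_one, ← QuotientGroup.mk_pow, h3]
        rfl
    have hfact3 : Fact (Nat.Prime 3) := ⟨Nat.prime_three⟩
    obtain ⟨c, hc⟩ := IsPGroup.iff_card.1 hQ3
    have hidx : T₀.index = 3 ^ c := by rw [Subgroup.index_eq_card, hc]
    have hc0 : c ≠ 0 := by
      rintro rfl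
      rw [pow_zero, Subgroup.index_eq_one] at hidx
      have hmem : x₀ ∈ T₀ := hidx ▸ Subgroup.mem_top x₀
      rw [hT₀mem] at hmem
      apply hx₀1
      calc x₀ = x₀ ^ 3 * (x₀ ^ 2)⁻¹ := by group
        _ = 1 := by rw [hx₀3, hmem, inv_one, mul_one]
    have hc2 : c < 2 := by
      by_contra hc2
      have hc2' : 2 ≤ c := by omega
      obtain ⟨P⟩ : Nonempty (Sylow 3 G) := inferInstance
      have hP9 : 9 ≤ Nat.card P := by
        rw [P.card_eq_multiplicity]
        have hdvd : 3 ^ c ∣ Nat.card G := hidx ▸ Subgroup.index_dvd_card T₀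
        have hle := (Nat.Prime.pow_dvd_iff_le_factorization Nat.prime_three
          (Nat.card_pos.ne')).1 hdvd
        calc 9 = 3 ^ 2 := by norm_num
          _ ≤ 3 ^ (Nat.card G).factorization 3 :=
            Nat.pow_le_pow_right (by norm_num) (by omega)
      have hPnt : Nontrivial P := by
        rw [← Finite.one_lt_card_iff_nontrivial]; omega
      have hcn := P.2.center_nontrivial
      obtain ⟨z', hz'⟩ := exists_ne (1 : Subgroup.center P)
      obtain ⟨z, hzdef⟩ : ∃ z : G, z = ((z' : P) : G) := ⟨_, rfl⟩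
      have hzP : z ∈ (P : Subgroup G) := hzdef ▸ (z' : P).2
      have hz1 : z ≠ 1 := by
        intro h'
        apply hz'
        ext
        rw [hzdef] at h'
        simpa using h'
      have hzc : ∀ a ∈ (P : Subgroup G), a * z = z * a := by
        intro a ha
        have h1 := Subgroup.mem_center_iff.1 z'.2 ⟨a, ha⟩
        have h2 := congrArg Subtype.val h1
        rw [hzdef]
        simpa using h2
      have hz3 : z ^ 3 = 1 := h3el _ P.2 z hzP
      obtain ⟨y, hyP, hy1, hyz, hyz2⟩ : ∃ y ∈ (P : Subgroup G), y ≠ 1 ∧ y ≠ z ∧ y ≠ z⁻¹ := by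
        by_contra hcon
        have hsub : ((P : Subgroup G) : Set G) ⊆ {1, z, z⁻¹} := by
          intro a ha
          by_contra hna
          simp only [Set.mem_insert_iff, Set.mem_singleton_iff, not_or] at hna
          exact hcon ⟨a, ha, hna.1, hna.2.1, hna.2.2⟩
        have h1 := Set.ncard_le_ncard hsub (Set.toFinite _)
        have h2 : ({1, z, z⁻¹} : Set G).ncard ≤ 3 := by
          calc ({1, z, z⁻¹} : Set G).ncard ≤ ({z, z⁻¹} : Set G).ncard + 1 :=
                Set.ncard_insert_le _ _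
            _ ≤ (({z⁻¹} : Set G).ncard + 1) + 1 :=
                Nat.add_le_add_right (Set.ncard_insert_le _ _) 1
            _ = 3 := by rw [Set.ncard_singleton]
        have h3 : Nat.card P = ((P : Subgroup G) : Set G).ncard := rfl
        omega
      have hy3 : y ^ 3 = 1 := h3el _ P.2 y hyP
      have hyzc : y * z = z * y := hzc y hyP
      have hR : ∀ g u : G, g ^ 3 = 1 → g ≠ 1 → u ^ 2 = 1 → u ≠ 1 →
          (g * g) * u * (g * g)⁻¹ = (g * u * g⁻¹) * u := by
        intro g u hg hg1 hu hu1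
        have huinv : u⁻¹ = u := inv_eq_of_mul_eq_one_left (by rw [← pow_two]; exact hu)
        have hgu3 : (g * u) ^ 3 = 1 := by
          rcases h23 (g * u) with h2 | h3
          · exfalso
            apply hnoinv u g hu hu1 hg hg1
            have h2' : g * u * (g * u) = 1 := by rw [← pow_two]; exact h2
            calc u * g * u = g⁻¹ * (g * u * (g * u)) := by group
              _ = g⁻¹ := by rw [h2', mul_one]
          · exact h3
        have hgu3' : g * u * (g * u) * (g * u) = 1 := by rw [← hgu3, pow_succ, pow_two]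
        have hg' : g * g * g = 1 := by rw [← hg, pow_succ, pow_two]
        have e : g * u * g = u * g⁻¹ * u := by
          calc g * u * g = (g * u * (g * u) * (g * u)) * (u⁻¹ * g⁻¹ * u⁻¹) := by group
            _ = u⁻¹ * g⁻¹ * u⁻¹ := by rw [hgu3', one_mul]
            _ = u * g⁻¹ * u := by rw [huinv]
        calc (g * g) * u * (g * g)⁻¹ = g * (g * u * g) * (g * g * g)⁻¹ := by group
          _ = g * (u * g⁻¹ * u) := by rw [e, hg', inv_one, mul_one]
          _ = (g * u * g⁻¹) * u := by group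
      have hzy1 : z * y ≠ 1 := by
        intro h'
        exact hyz2 (eq_inv_of_mul_eq_one_right h')
      have hzy3 : (z * y) ^ 3 = 1 := by
        rw [(show Commute z y from hyzc.symm).mul_pow, hz3, hy3, one_mul]
      have hcy2 : (y * t₀ * y⁻¹) ^ 2 = 1 := by rw [conj_pow, ht₀2]; group
      have hcy1 : y * t₀ * y⁻¹ ≠ 1 := by
        intro h'
        apply ht₀1
        calc t₀ = y⁻¹ * (y * t₀ * y⁻¹) * y := by group
          _ = 1 := by rw [h']; group
      have E1 := hR (z * y) t₀ hzy3 hzy1 ht₀2 ht₀1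
      have E2 := hR y t₀ hy3 hy1 ht₀2 ht₀1
      have E3 := hR z (y * t₀ * y⁻¹) hz3 hz1 hcy2 hcy1
      have E4 := hR z t₀ hz3 hz1 ht₀2 ht₀1
      have E5 : (z * y) * (z * y) * t₀ * ((z * y) * (z * y))⁻¹
          = (z * z) * ((y * y) * t₀ * (y * y)⁻¹) * (z * z)⁻¹ := by
        have h' : (z * y) * (z * y) = (z * z) * (y * y) := by
          calc (z * y) * (z * y) = z * (y * z) * y := by group
            _ = z * (z * y) * y := by rw [hyzc]
            _ = (z * z) * (y * y) := by group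
        rw [h']; group
      have E6 : (z * z) * ((y * y) * t₀ * (y * y)⁻¹) * (z * z)⁻¹
          = ((z * y) * t₀ * (z * y)⁻¹) * (((y * t₀ * y⁻¹) * (z * t₀ * z⁻¹)) * t₀) := by
        rw [E2]
        calc (z * z) * ((y * t₀ * y⁻¹) * t₀) * (z * z)⁻¹
            = ((z * z) * (y * t₀ * y⁻¹) * (z * z)⁻¹) * ((z * z) * t₀ * (z * z)⁻¹) := by group
          _ = ((z * (y * t₀ * y⁻¹) * z⁻¹) * (y * t₀ * y⁻¹)) * ((z * t₀ * z⁻¹) * t₀) := by
              rw [E3, E4]
          _ = ((z * y) * t₀ * (z * y)⁻¹) * (((y * t₀ * y⁻¹) * (z * t₀ * z⁻¹)) * t₀) := by group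
      have E7 : (y * t₀ * y⁻¹) * (z * t₀ * z⁻¹) = 1 := by
        have h' := E1.symm.trans (E5.trans E6)
        have h'' : ((z * y) * t₀ * (z * y)⁻¹) * (1 * t₀)
            = ((z * y) * t₀ * (z * y)⁻¹) * (((y * t₀ * y⁻¹) * (z * t₀ * z⁻¹)) * t₀) := by
          rw [one_mul]; exact h'
        exact (mul_right_cancel (mul_left_cancel h'')).symm
      have hw : t₀ * (z⁻¹ * y) = (z⁻¹ * y) * t₀ := by
        have h1 : y * t₀ * y⁻¹ = z * t₀ * z⁻¹ := by
          rw [eq_inv_of_mul_eq_one_left E7]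
          calc (z * t₀ * z⁻¹)⁻¹ = z * t₀⁻¹ * z⁻¹ := by group
            _ = z * t₀ * z⁻¹ := by rw [ht₀inv]
        calc t₀ * (z⁻¹ * y) = z⁻¹ * (z * t₀ * z⁻¹) * y := by group
          _ = z⁻¹ * (y * t₀ * y⁻¹) * y := by rw [h1]
          _ = (z⁻¹ * y) * t₀ := by group
      have hw1 : z⁻¹ * y ≠ 1 := by
        intro h'
        apply hyz
        calc y = z * (z⁻¹ * y) := by group
          _ = z := by rw [h', mul_one]
      have hw3 : (z⁻¹ * y) ^ 3 = 1 := by
        have hcz : Commute z⁻¹ y := (show Commute z y from hyzc.symm).inv_left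
        rw [hcz.mul_pow, inv_pow, hz3, hy3, inv_one, one_mul]
      exact no6 h23 t₀ (z⁻¹ * y) hw ht₀2 ht₀1 hw3 hw1
    have hc1 : c = 1 := by omega
    rw [hidx, hc1, pow_one]

end Cfsg.Agent.S4005
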