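import Cfsg.Statements.S4006
import Mathlib
import Cfsg.Agent.Lib.Helper78.E4d
import Cfsg.Agent.S0144

set_option autoImplicit false
open Cfsg
set_option linter.style.haveILetI false

namespace Cfsg.Agent.S4006

open Cfsg.Agent.Lib.Helper78.E4 in
/-- A finite group whose set of element orders is exactly {1, 2, 3, 4} has a normal subgroup N such that either N is a 2-group of exponent 4 and nilpotency class at most 2 with G/N of order 3, or N is an elementary abelian 2-group with G/N isomorphic to the symmetric group of degree 3, or N is an elementary abelian 3-group with G/N cyclic of order 4 or quaternion of order 8. -/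
theorem result {G : Type*} [Group G] [Finite G] (h : Set.range (orderOf : G → ℕ) = {k : ℕ | 1 ≤ k ∧ k ≤ 4}) :
    ∃ (N : Subgroup G) (_ : N.Normal),
      (IsPGroup 2 ↥N ∧ Monoid.exponent ↥N = 4 ∧ Group.nilpotencyClass ↥N ≤ 2 ∧ N.index = 3) ∨
      (Cfsg.IsElementaryAbelian 2 N ∧ Nonempty (G ⧸ N ≃* Equiv.Perm (Fin 3))) ∨
      (Cfsg.IsElementaryAbelian 3 N ∧ ((IsCyclic (G ⧸ N) ∧ N.index = 4) ∨ Nonempty (G ⧸ N ≃* QuaternionGroup 2))) := by
  have ho : ∀ g : G, g ^ 4 = 1 ∨ g ^ 3 = 1 := by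
    intro g
    have hg : orderOf g ∈ {k : ℕ | 1 ≤ k ∧ k ≤ 4} := h ▸ Set.mem_range_self g
    obtain ⟨h1, h2⟩ := hg
    have hc : orderOf g = 1 ∨ orderOf g = 2 ∨ orderOf g = 3 ∨ orderOf g = 4 := by omega
    rcases hc with hk | hk | hk | hk
    · left; exact orderOf_dvd_iff_pow_eq_one.mp (by rw [hk]; norm_num)
    · left; exact orderOf_dvd_iff_pow_eq_one.mp (by rw [hk]; norm_num)
    · right; exact orderOf_dvd_iff_pow_eq_one.mp (by rw [hk])
    · left; exact orderOf_dvd_iff_pow_eq_one.mp (by rw [hk])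
  obtain ⟨x3, hx3⟩ : (3 : ℕ) ∈ Set.range (orderOf : G → ℕ) := by
    rw [h]; exact ⟨by norm_num, by norm_num⟩
  obtain ⟨x4, hx4⟩ : (4 : ℕ) ∈ Set.range (orderOf : G → ℕ) := by
    rw [h]; exact ⟨by norm_num, by norm_num⟩
  -- the order of G
  have hprime : ∀ {q : ℕ}, q.Prime → q ∣ Nat.card G → q = 2 ∨ q = 3 := by
    intro q hq hqG
    haveI := Fact.mk hq
    obtain ⟨g, hg⟩ := exists_prime_orderOf_dvd_card' q hqG
    rcases ho g with h4 | h3
    · left
      have h1 : q ∣ 4 := hg ▸ orderOf_dvd_of_pow_eq_one h4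
      have h2 : q ∣ 2 := by
        have : (4 : ℕ) = 2 ^ 2 := by norm_num
        rw [this] at h1
        exact hq.dvd_of_dvd_pow h1
      exact (Nat.prime_dvd_prime_iff_eq hq Nat.prime_two).mp h2
    · right
      have h1 : q ∣ 3 := hg ▸ orderOf_dvd_of_pow_eq_one h3
      exact (Nat.prime_dvd_prime_iff_eq hq (by norm_num)).mp h1
  have hcard : ∃ k j : ℕ, Nat.card G = 2 ^ k * 3 ^ j := by
    obtain ⟨k, m, hm, hkm⟩ := Nat.exists_eq_two_pow_mul_odd (Nat.card_pos (α := G)).ne'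
    have hm0 : m ≠ 0 := by
      rintro rfl
      exact absurd hm (by decide)
    have hpm : ∀ {q : ℕ}, q.Prime → q ∣ m → q = 3 := by
      intro q hq hqm
      rcases hprime hq (hkm ▸ Dvd.dvd.mul_left hqm _) with h2 | h3
      · exfalso
        rw [h2] at hqm
        exact (Nat.not_even_iff_odd.mpr hm) (even_iff_two_dvd.mpr hqm)
      · exact h3
    have := Nat.eq_prime_pow_of_unique_prime_dvd hm0 hpm
    exact ⟨k, _, by rw [hkm, ← this]⟩
  obtain ⟨k, j, hkj⟩ := hcard
  haveI hsolv : Group.IsSolvable G :=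
    Cfsg.Agent.S0144.result 2 3 k j Nat.prime_two (by norm_num) hkj
  -- an abelian normal subgroup
  have hx31 : x3 ≠ 1 := by
    intro hx
    rw [hx, orderOf_one] at hx3
    norm_num at hx3
  haveI : Nontrivial G := ⟨⟨x3, 1, hx31⟩⟩
  obtain ⟨A, hAn, hAc, hA⟩ : ∃ A : Subgroup G, A.Normal ∧ IsMulCommutative A ∧ A ≠ ⊥ := by
    have hex : ∃ n, derivedSeries G n = ⊥ := hsolv.solvable
    classical
    have hfind := Nat.find_spec hex
    have hne0 : Nat.find hex ≠ 0 := by
      intro h0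
      rw [h0, derivedSeries_zero] at hfind
      exact top_ne_bot hfind
    obtain ⟨m, hm⟩ := Nat.exists_eq_succ_of_ne_zero hne0
    refine ⟨derivedSeries G m, derivedSeries_normal G m, ?_, ?_⟩
    · rw [hm, derivedSeries_succ] at hfind
      rw [← Subgroup.le_centralizer_iff_isMulCommutative]
      exact Subgroup.commutator_eq_bot_iff_le_centralizer.mp hfind
    · exact Nat.find_min hex (by omega)
  haveI := hAn
  haveI := hAc
  have hAcomm : ∀ v ∈ A, ∀ w ∈ A, Commute v w := by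
    intro v hv w hw
    have := IsMulCommutative.is_comm.comm (⟨v, hv⟩ : A) ⟨w, hw⟩
    exact congrArg Subtype.val this
  by_cases hex : ∃ v ∈ A, v ≠ 1 ∧ v ^ 3 = 1
  · -- case B
    obtain ⟨v, hvA, hv1, hv3⟩ := hex
    have hA3 : ∀ x ∈ A, x ^ 3 = 1 := by
      intro x hx
      rcases ho x with h4 | h3
      · by_cases hx1 : x = 1
        · rw [hx1, one_pow]
        · exact absurd (hAcomm x hx v hvA) (fun hc => no6 ho hx1 h4 hv1 hv3 hc)
      · exact h3
    obtain ⟨N, hN, h1, h2⟩ := caseB ho x4 hx4 A hA hA3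
    exact ⟨N, hN, Or.inr (Or.inr ⟨h1, h2⟩)⟩
  · -- case A
    have hA4 : ∀ x ∈ A, x ^ 4 = 1 := by
      intro x hx
      rcases ho x with h4 | h3
      · exact h4
      · by_cases hx1 : x = 1
        · rw [hx1, one_pow]
        · exact absurd ⟨x, hx, hx1, h3⟩ hex
    haveI : Fact (Nat.Prime 3) := ⟨by norm_num⟩
    haveI : Fact (Nat.Prime 2) := ⟨by norm_num⟩
    obtain ⟨P⟩ : Nonempty (Sylow 3 G) := inferInstance
    have hP : (P : Subgroup G) ≠ ⊥ :=
      P.ne_bot_of_dvd_card (hx3 ▸ orderOf_dvd_natCard x3)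
    obtain ⟨a, ha1, ha3, hPa⟩ := sylow3_eq_zpowers ho A hA hA4 P hP
    obtain ⟨T⟩ : Nonempty (Sylow 2 G) := inferInstance
    have hidx : ∀ T' : Sylow 2 G, (T' : Subgroup G).index = 3 :=
      fun T' => sylow2_index ho P a ha1 ha3 hPa T'
    by_cases hTn : (T : Subgroup G).Normal
    · exact ⟨T, hTn, Or.inl (caseA_normal ho x4 hx4 a ha1 ha3 T hTn (hidx T))⟩
    · obtain ⟨N, hN, h1, h2⟩ := caseA_s3 ho a ha1 ha3 P hPa T hTn hidx
      exact ⟨N, hN, Or.inr (Or.inl ⟨h1, h2⟩)⟩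

end Cfsg.Agent.S4006
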