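import Cfsg.Statements.S4198
import Mathlib

set_option autoImplicit false
open Cfsg

namespace Cfsg.Agent.S4198

open Equiv Equiv.Perm

/-! ### Partition count -/

/-- smallest element of a multiset of naturals -/
noncomputable def mn (s : Multiset ℕ) : ℕ := sInf {a | a ∈ s}

theorem mn_mem {s : Multiset ℕ} (h : s ≠ 0) : mn s ∈ s := by
  obtain ⟨a, ha⟩ := Multiset.exists_mem_of_ne_zero h
  exact Nat.sInf_mem (s := {a | a ∈ s}) ⟨a, ha⟩

theorem mn_le {s : Multiset ℕ} {a : ℕ} (h : a ∈ s) : mn s ≤ a :=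
  Nat.sInf_le (s := {a | a ∈ s}) h

theorem parts_ne_zero {n : ℕ} (π : Nat.Partition (n + 1)) : π.parts ≠ 0 := by
  intro h0
  have := π.parts_sum
  rw [h0] at this
  simp at this

noncomputable def f1 (n : ℕ) (π : {π : Nat.Partition (n + 1) // 1 ∈ π.parts}) : Nat.Partition n :=
  ⟨π.1.parts.erase 1, fun {i} hi => π.1.parts_pos (Multiset.mem_of_mem_erase hi), by
    have h1 := Multiset.sum_erase π.2
    have h2 := π.1.parts_sum
    omega⟩

theorem f1_inj (n : ℕ) : Function.Injective (f1 n) := by
  rintro ⟨π, h⟩ ⟨ρ, h'⟩ e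
  have e' : π.parts.erase 1 = ρ.parts.erase 1 := congrArg Nat.Partition.parts e
  apply Subtype.ext
  apply Nat.Partition.ext
  rw [← Multiset.cons_erase h, ← Multiset.cons_erase h', e']

theorem two_le_mn {n : ℕ} (π : Nat.Partition (n + 1)) (h : ¬ 1 ∈ π.parts) : 2 ≤ mn π.parts := by
  have h1 := mn_mem (parts_ne_zero π)
  have h2 := π.parts_pos h1
  by_contra hc
  have : mn π.parts = 1 := by omega
  rw [this] at h1
  exact h h1

noncomputable def f2 (n : ℕ) (π : {π : Nat.Partition (n + 1) // ¬ 1 ∈ π.parts}) : Nat.Partition n :=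
  ⟨π.1.parts.erase (mn π.1.parts) + {mn π.1.parts - 1}, fun {i} hi => by
    rcases Multiset.mem_add.mp hi with hi | hi
    · exact π.1.parts_pos (Multiset.mem_of_mem_erase hi)
    · have := two_le_mn π.1 π.2
      rw [Multiset.mem_singleton] at hi
      omega, by
    have h1 := Multiset.sum_erase (mn_mem (parts_ne_zero π.1))
    have h2 := π.1.parts_sum
    have := two_le_mn π.1 π.2
    rw [Multiset.sum_add, Multiset.sum_singleton]
    omega⟩

theorem f2_inj (n : ℕ) : Function.Injective (f2 n) := by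
  rintro ⟨π, h⟩ ⟨ρ, h'⟩ e
  have e' : π.parts.erase (mn π.parts) + {mn π.parts - 1}
      = ρ.parts.erase (mn ρ.parts) + {mn ρ.parts - 1} := congrArg Nat.Partition.parts e
  have ha := two_le_mn π h
  have hb := two_le_mn ρ h'
  have hma := mn_mem (parts_ne_zero π)
  have hmb := mn_mem (parts_ne_zero ρ)
  have k1 : mn π.parts - 1 ∈ ρ.parts.erase (mn ρ.parts) + {mn ρ.parts - 1} := by
    rw [← e']; exact Multiset.mem_add.mpr (Or.inr (Multiset.mem_singleton_self _))
  have k2 : mn ρ.parts - 1 ∈ π.parts.erase (mn π.parts) + {mn π.parts - 1} := by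
    rw [e']; exact Multiset.mem_add.mpr (Or.inr (Multiset.mem_singleton_self _))
  have hab : mn π.parts = mn ρ.parts := by
    rcases Multiset.mem_add.mp k1 with k1 | k1
    · have := mn_le (Multiset.mem_of_mem_erase k1)
      rcases Multiset.mem_add.mp k2 with k2 | k2
      · have := mn_le (Multiset.mem_of_mem_erase k2)
        omega
      · rw [Multiset.mem_singleton] at k2; omega
    · rw [Multiset.mem_singleton] at k1; omega
  rw [← hab] at e'
  have e2 : π.parts.erase (mn π.parts) = ρ.parts.erase (mn π.parts) := add_right_cancel e'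
  apply Subtype.ext
  apply Nat.Partition.ext
  have hmb' : mn π.parts ∈ ρ.parts := by rw [hab]; exact hmb
  rw [← Multiset.cons_erase hma, ← Multiset.cons_erase hmb', e2]

theorem card_succ_le (n : ℕ) :
    Fintype.card (Nat.Partition (n + 1)) ≤ 2 * Fintype.card (Nat.Partition n) := by
  classical
  rw [← Fintype.card_congr (Equiv.sumCompl (fun π : Nat.Partition (n + 1) => 1 ∈ π.parts)),
    Fintype.card_sum]
  have h1 := Fintype.card_le_of_injective _ (f1_inj n)
  have h2 := Fintype.card_le_of_injective _ (f2_inj n)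
  omega

/-- the counting vector of a partition of 5 -/
def cnt (π : Nat.Partition 5) : ℕ × ℕ × ℕ × ℕ × ℕ :=
  (π.parts.count 1, π.parts.count 2, π.parts.count 3, π.parts.count 4, π.parts.count 5)

theorem cnt_inj : Function.Injective cnt := by
  intro π ρ e
  simp only [cnt, Prod.mk.injEq] at e
  obtain ⟨e1, e2, e3, e4, e5⟩ := e
  apply Nat.Partition.ext
  ext a
  have key : ∀ σ : Nat.Partition 5, a ∈ σ.parts → 1 ≤ a ∧ a ≤ 5 := by
    intro σ ha
    refine ⟨σ.parts_pos ha, ?_⟩
    have := Multiset.le_sum_of_mem ha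
    rw [σ.parts_sum] at this
    exact this
  by_cases ha : 1 ≤ a ∧ a ≤ 5
  · obtain ⟨h1, h5⟩ := ha
    interval_cases a <;> assumption
  · rw [Multiset.count_eq_zero_of_notMem (fun h => ha (key π h)),
      Multiset.count_eq_zero_of_notMem (fun h => ha (key ρ h))]

theorem cnt_mem (π : Nat.Partition 5) :
    cnt π ∈ ((Finset.range 6 ×ˢ Finset.range 3 ×ˢ Finset.range 2 ×ˢ Finset.range 2 ×ˢ
      Finset.range 2).filter (fun c : ℕ × ℕ × ℕ × ℕ × ℕ =>
        c.1 + 2 * c.2.1 + 3 * c.2.2.1 + 4 * c.2.2.2.1 + 5 * c.2.2.2.2 = 5)) := by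
  have hsub : π.parts.toFinset ⊆ Finset.Icc 1 5 := by
    intro a ha
    rw [Multiset.mem_toFinset] at ha
    rw [Finset.mem_Icc]
    refine ⟨π.parts_pos ha, ?_⟩
    have := Multiset.le_sum_of_mem ha
    rw [π.parts_sum] at this
    exact this
  have hs := Finset.sum_multiset_count_of_subset π.parts (Finset.Icc 1 5) hsub
  rw [π.parts_sum] at hs
  have hI : Finset.Icc 1 5 = ({1, 2, 3, 4, 5} : Finset ℕ) := by decide
  rw [hI] at hs
  simp only [Finset.sum_insert, Finset.mem_insert, Finset.mem_singleton, Finset.sum_singleton,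
    smul_eq_mul] at hs
  norm_num at hs
  simp only [cnt, Finset.mem_filter, Finset.mem_product, Finset.mem_range]
  omega

theorem card_five : Fintype.card (Nat.Partition 5) ≤ 8 := by
  classical
  have h := Finset.card_le_card_of_injOn (s := (Finset.univ : Finset (Nat.Partition 5))) cnt
    (fun π _ => cnt_mem π) (cnt_inj.injOn)
  rw [Finset.card_univ] at h
  refine h.trans ?_
  decide

theorem card_le_pow (k : ℕ) : Fintype.card (Nat.Partition (k + 5)) ≤ 2 ^ (k + 3) := by
  induction k with
  | zero => simpa using card_five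
  | succ k ih =>
    have := card_succ_le (k + 5)
    have e : k + 1 + 5 = k + 5 + 1 := by ring
    rw [e]
    calc Fintype.card (Nat.Partition (k + 5 + 1)) ≤ 2 * Fintype.card (Nat.Partition (k + 5)) := this
      _ ≤ 2 * 2 ^ (k + 3) := by omega
      _ = 2 ^ (k + 1 + 3) := by ring

theorem classes_le (n : ℕ) :
    Nat.card (ConjClasses (Equiv.Perm (Fin n))) ≤ Fintype.card (Nat.Partition n) := by
  classical
  have h : Nat.card (ConjClasses (Equiv.Perm (Fin n)))
      ≤ Nat.card (Nat.Partition (Fintype.card (Fin n))) := by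
    apply Nat.card_le_card_of_injective
      (fun c : ConjClasses (Equiv.Perm (Fin n)) => (Quotient.out c).partition)
    intro c d e
    have := (Equiv.Perm.partition_eq_of_isConj).mpr e
    rw [← ConjClasses.mk_eq_mk_iff_isConj] at this
    have hc : ConjClasses.mk (Quotient.out c) = c := Quotient.out_eq c
    have hd : ConjClasses.mk (Quotient.out d) = d := Quotient.out_eq d
    rw [← hc, ← hd, this]
  rw [Nat.card_eq_fintype_card] at h
  convert h using 2 <;> simp

/-! ### Alternating versus symmetric -/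

/-- the modified cycle type: one part decreased by one -/
noncomputable def theta (m : Multiset ℕ) : Multiset ℕ := by
  classical
  exact if h : m = 0 then 0 else
    m.erase (Classical.choose (Multiset.exists_mem_of_ne_zero h)) +
      {Classical.choose (Multiset.exists_mem_of_ne_zero h) - 1}

theorem theta_spec {m : Multiset ℕ} (h : m ≠ 0) : ∃ a ∈ m, theta m = m.erase a + {a - 1} := by
  classical
  refine ⟨Classical.choose (Multiset.exists_mem_of_ne_zero h),
    Classical.choose_spec (Multiset.exists_mem_of_ne_zero h), ?_⟩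
  unfold theta
  rw [dif_neg h]

theorem theta_inj {m m' : Multiset ℕ} (h : m ≠ 0) (h' : m' ≠ 0) (ho : ∀ c ∈ m, Odd c)
    (ho' : ∀ c ∈ m', Odd c) (e : theta m = theta m') : m = m' := by
  obtain ⟨a, ha, ea⟩ := theta_spec h
  obtain ⟨a', ha', ea'⟩ := theta_spec h'
  rw [ea, ea'] at e
  have k1 : a - 1 ∈ m'.erase a' + {a' - 1} := by
    rw [← e]; exact Multiset.mem_add.mpr (Or.inr (Multiset.mem_singleton_self _))
  have hoa := ho a ha
  have hoa' := ho' a' ha'
  have haa : a = a' := by
    rcases Multiset.mem_add.mp k1 with k1 | k1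
    · have := ho' _ (Multiset.mem_of_mem_erase k1)
      obtain ⟨u, hu⟩ := hoa
      obtain ⟨v, hv⟩ := this
      omega
    · rw [Multiset.mem_singleton] at k1
      obtain ⟨u, hu⟩ := hoa
      obtain ⟨v, hv⟩ := hoa'
      omega
  rw [← haa] at e
  have e2 : m.erase a = m'.erase a := add_right_cancel e
  have ha2 : a ∈ m' := by rw [haa]; exact ha'
  rw [← Multiset.cons_erase ha, ← Multiset.cons_erase ha2, e2]

variable {n : ℕ}

/-- chosen representative of the class of `g` -/
noncomputable def rep (g : Equiv.Perm (Fin n)) : Equiv.Perm (Fin n) :=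
  Quotient.out (ConjClasses.mk g)

theorem rep_conj (g : Equiv.Perm (Fin n)) : ∃ a : Equiv.Perm (Fin n), a * rep g * a⁻¹ = g := by
  have : ConjClasses.mk (rep g) = ConjClasses.mk g := Quotient.out_eq _
  rw [ConjClasses.mk_eq_mk_iff_isConj] at this
  exact isConj_iff.mp this

theorem rep_eq {g g' : Equiv.Perm (Fin n)} (h : g.cycleType = g'.cycleType) : rep g = rep g' := by
  unfold rep
  rw [ConjClasses.mk_eq_mk_iff_isConj.mpr (Equiv.Perm.isConj_iff_cycleType_eq.mpr h)]

/-- `g` is conjugate to its representative by an even permutation -/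
def First (g : Equiv.Perm (Fin n)) : Prop :=
  ∃ u : Equiv.Perm (Fin n), Equiv.Perm.sign u = 1 ∧ u * rep g * u⁻¹ = g

theorem odd_of_not_first {g : Equiv.Perm (Fin n)} (h : ¬ First g) {a : Equiv.Perm (Fin n)}
    (ha : a * rep g * a⁻¹ = g) : Equiv.Perm.sign a = -1 := by
  rcases Int.units_eq_one_or (Equiv.Perm.sign a) with h1 | h1
  · exact absurd ⟨a, h1, ha⟩ h
  · exact h1

theorem centralizer_le_of_not_first {g : Equiv.Perm (Fin n)} (h : ¬ First g) :
    Subgroup.centralizer {g} ≤ alternatingGroup (Fin n) := by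
  intro u hu
  rw [Equiv.Perm.mem_alternatingGroup]
  rcases Int.units_eq_one_or (Equiv.Perm.sign u) with h1 | h1
  · exact h1
  · exfalso
    obtain ⟨a, ha⟩ := rep_conj g
    have hsa := odd_of_not_first h ha
    apply h
    refine ⟨u * a, by rw [Equiv.Perm.sign_mul, h1, hsa]; simp, ?_⟩
    have hc : u * g = g * u := by
      have := Subgroup.mem_centralizer_iff.mp hu g (Set.mem_singleton g)
      exact this.symm
    have e1 : u * a * rep g * (u * a)⁻¹ = u * (a * rep g * a⁻¹) * u⁻¹ := by group
    rw [e1, ha, hc, mul_assoc, mul_inv_cancel, mul_one]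

/-- a permutation with prescribed cycle type (if any) -/
noncomputable def gtype (n : ℕ) (m : Multiset ℕ) : Equiv.Perm (Fin n) := by
  classical
  exact if h : ∃ g : Equiv.Perm (Fin n), g.cycleType = m then Classical.choose h else 1

theorem gtype_spec {m : Multiset ℕ} (h : ∃ g : Equiv.Perm (Fin n), g.cycleType = m) :
    (gtype n m).cycleType = m := by
  classical
  unfold gtype
  rw [dif_pos h]
  exact Classical.choose_spec h

/-- facts about a non-first even permutation -/
theorem not_first_facts (hn : 5 ≤ n) {g : Equiv.Perm (Fin n)} (h : ¬ First g) :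
    g.cycleType ≠ 0 ∧ (∀ c ∈ g.cycleType, Odd c) ∧ n ≤ g.cycleType.sum + 1 ∧
    (gtype n (theta g.cycleType)).cycleType = theta g.cycleType ∧
    ∀ a ∈ g.cycleType, theta g.cycleType = g.cycleType.erase a + {a - 1} →
      (theta g.cycleType).sum + 1 = g.cycleType.sum ∧
      Multiset.card (theta g.cycleType) = Multiset.card g.cycleType := by
  have hc := (Equiv.Perm.centralizer_le_alternating_iff).mp (centralizer_le_of_not_first h)
  obtain ⟨ho, hcard, -⟩ := hc
  rw [Fintype.card_fin] at hcard
  have hne : g.cycleType ≠ 0 := by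
    intro h0
    rw [h0] at hcard
    simp at hcard
    omega
  have hfacts : ∀ a ∈ g.cycleType, theta g.cycleType = g.cycleType.erase a + {a - 1} →
      (theta g.cycleType).sum + 1 = g.cycleType.sum ∧
      Multiset.card (theta g.cycleType) = Multiset.card g.cycleType := by
    intro a ha ea
    have h2 := Equiv.Perm.two_le_of_mem_cycleType ha
    have h1 := Multiset.sum_erase ha
    have h3 := Multiset.card_erase_add_one ha
    rw [ea, Multiset.sum_add, Multiset.sum_singleton, Multiset.card_add, Multiset.card_singleton]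
    omega
  refine ⟨hne, ho, hcard, ?_, hfacts⟩
  apply gtype_spec
  rw [Equiv.Perm.exists_with_cycleType_iff, Fintype.card_fin]
  obtain ⟨a, ha, ea⟩ := theta_spec hne
  have hsum := (hfacts a ha ea).1
  have hle : g.cycleType.sum ≤ n := by
    have := (Equiv.Perm.exists_with_cycleType_iff (Fin n) (m := g.cycleType)).mp ⟨g, rfl⟩
    rw [Fintype.card_fin] at this
    exact this.1
  refine ⟨by omega, ?_⟩
  intro b hb
  rw [ea] at hb
  rcases Multiset.mem_add.mp hb with hb | hb
  · exact Equiv.Perm.two_le_of_mem_cycleType (Multiset.mem_of_mem_erase hb)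
  · rw [Multiset.mem_singleton] at hb
    have h2 := Equiv.Perm.two_le_of_mem_cycleType ha
    obtain ⟨u, hu⟩ := ho a ha
    omega

theorem sign_gtype_theta (hn : 5 ≤ n) {g : Equiv.Perm (Fin n)} (hg : Equiv.Perm.sign g = 1)
    (h : ¬ First g) : Equiv.Perm.sign (gtype n (theta g.cycleType)) = -1 := by
  obtain ⟨hne, ho, hcard, hct, hfacts⟩ := not_first_facts hn h
  obtain ⟨a, ha, ea⟩ := theta_spec hne
  obtain ⟨hs, hc⟩ := hfacts a ha ea
  rw [Equiv.Perm.sign_of_cycleType] at hg ⊢
  rw [hct]
  have hev : Even (g.cycleType.sum + Multiset.card g.cycleType) := by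
    rcases Nat.even_or_odd (g.cycleType.sum + Multiset.card g.cycleType) with h1 | h1
    · exact h1
    · rw [h1.neg_one_pow] at hg
      exact absurd hg (by decide)
  have hodd : Odd ((theta g.cycleType).sum + Multiset.card (theta g.cycleType)) := by
    obtain ⟨k, hk⟩ := hev
    refine ⟨k - 1, ?_⟩
    omega
  exact hodd.neg_one_pow

/-- the injection from classes of the alternating group to classes of the symmetric group -/
noncomputable def psi (n : ℕ) (c : ConjClasses (alternatingGroup (Fin n))) :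
    ConjClasses (Equiv.Perm (Fin n)) := by
  classical
  exact if First ((Quotient.out c : alternatingGroup (Fin n)) : Equiv.Perm (Fin n)) then
    ConjClasses.mk ((Quotient.out c : alternatingGroup (Fin n)) : Equiv.Perm (Fin n))
  else ConjClasses.mk (gtype n (theta
    ((Quotient.out c : alternatingGroup (Fin n)) : Equiv.Perm (Fin n)).cycleType))

theorem conj_in_alt {x y : alternatingGroup (Fin n)} {u : Equiv.Perm (Fin n)}
    (hu : Equiv.Perm.sign u = 1) (h : u * (x : Equiv.Perm (Fin n)) * u⁻¹ = y) : IsConj x y := by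
  rw [isConj_iff]
  refine ⟨⟨u, Equiv.Perm.mem_alternatingGroup.mpr hu⟩, ?_⟩
  apply Subtype.ext
  simpa using h

theorem psi_inj (hn : 5 ≤ n) : Function.Injective (psi n) := by
  classical
  intro c c' e
  have hc : ConjClasses.mk (Quotient.out c) = c := Quotient.out_eq c
  have hc' : ConjClasses.mk (Quotient.out c') = c' := Quotient.out_eq c'
  rw [← hc, ← hc', ConjClasses.mk_eq_mk_iff_isConj]
  obtain ⟨x, hx⟩ : ∃ x, x = Quotient.out c := ⟨_, rfl⟩
  obtain ⟨x', hx'⟩ : ∃ x', x' = Quotient.out c' := ⟨_, rfl⟩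
  have hsx : Equiv.Perm.sign (x : Equiv.Perm (Fin n)) = 1 := Equiv.Perm.mem_alternatingGroup.mp x.2
  have hsx' : Equiv.Perm.sign (x' : Equiv.Perm (Fin n)) = 1 :=
    Equiv.Perm.mem_alternatingGroup.mp x'.2
  unfold psi at e
  rw [← hx, ← hx'] at e ⊢
  by_cases h1 : First (x : Equiv.Perm (Fin n)) <;> by_cases h2 : First (x' : Equiv.Perm (Fin n))
  · rw [if_pos h1, if_pos h2, ConjClasses.mk_eq_mk_iff_isConj,
      Equiv.Perm.isConj_iff_cycleType_eq] at e
    have hr := rep_eq e
    obtain ⟨u, hu, hu2⟩ := h1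
    obtain ⟨u', hu', hu2'⟩ := h2
    apply conj_in_alt (u := u' * u⁻¹)
    · rw [Equiv.Perm.sign_mul, Equiv.Perm.sign_inv, hu, hu']; simp
    · rw [← hu2, ← hu2', hr]; group
  · exfalso
    rw [if_pos h1, if_neg h2, ConjClasses.mk_eq_mk_iff_isConj,
      Equiv.Perm.isConj_iff_cycleType_eq] at e
    have := sign_gtype_theta hn hsx' h2
    rw [Equiv.Perm.sign_of_cycleType, ← e, ← Equiv.Perm.sign_of_cycleType, hsx] at this
    exact absurd this (by decide)
  · exfalso
    rw [if_neg h1, if_pos h2, ConjClasses.mk_eq_mk_iff_isConj,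
      Equiv.Perm.isConj_iff_cycleType_eq] at e
    have := sign_gtype_theta hn hsx h1
    rw [Equiv.Perm.sign_of_cycleType, e, ← Equiv.Perm.sign_of_cycleType, hsx'] at this
    exact absurd this (by decide)
  · rw [if_neg h1, if_neg h2, ConjClasses.mk_eq_mk_iff_isConj,
      Equiv.Perm.isConj_iff_cycleType_eq] at e
    obtain ⟨hne, ho, -, hct, -⟩ := not_first_facts hn h1
    obtain ⟨hne', ho', -, hct', -⟩ := not_first_facts hn h2
    rw [hct, hct'] at e
    have hr := rep_eq (theta_inj hne hne' ho ho' e)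
    obtain ⟨a, ha⟩ := rep_conj (x : Equiv.Perm (Fin n))
    obtain ⟨a', ha'⟩ := rep_conj (x' : Equiv.Perm (Fin n))
    have hsa := odd_of_not_first h1 ha
    have hsa' := odd_of_not_first h2 ha'
    apply conj_in_alt (u := a' * a⁻¹)
    · rw [Equiv.Perm.sign_mul, Equiv.Perm.sign_inv, hsa, hsa']; simp
    · rw [← ha', ← hr]
      conv_lhs => rw [← ha]
      group

theorem psi_not_surj (hn : 5 ≤ n) : ¬ Function.Surjective (psi n) := by
  classical
  intro hsurj
  have hex : ∃ g : Equiv.Perm (Fin n), g.cycleType = {2} := by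
    rw [Equiv.Perm.exists_with_cycleType_iff, Fintype.card_fin]
    simp
    omega
  have h2 := gtype_spec hex
  obtain ⟨c, hc⟩ := hsurj (ConjClasses.mk (gtype n {2}))
  obtain ⟨x, hx⟩ : ∃ x, x = Quotient.out c := ⟨_, rfl⟩
  have hsx : Equiv.Perm.sign (x : Equiv.Perm (Fin n)) = 1 := Equiv.Perm.mem_alternatingGroup.mp x.2
  unfold psi at hc
  rw [← hx] at hc
  by_cases h1 : First (x : Equiv.Perm (Fin n))
  · rw [if_pos h1, ConjClasses.mk_eq_mk_iff_isConj, Equiv.Perm.isConj_iff_cycleType_eq, h2] at hc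
    rw [Equiv.Perm.sign_of_cycleType, hc] at hsx
    exact absurd hsx (by decide)
  · rw [if_neg h1, ConjClasses.mk_eq_mk_iff_isConj, Equiv.Perm.isConj_iff_cycleType_eq, h2] at hc
    obtain ⟨hne, ho, hcard, hct, hfacts⟩ := not_first_facts hn h1
    obtain ⟨a, ha, ea⟩ := theta_spec hne
    obtain ⟨hs, hcd⟩ := hfacts a ha ea
    rw [hct] at hc
    rw [hc] at hs
    simp at hs
    omega

theorem result (n : ℕ) (hn : 5 ≤ n) : Nat.card (ConjClasses (alternatingGroup (Fin n))) < Nat.card (ConjClasses (Equiv.Perm (Fin n))) ∧ Nat.card (ConjClasses (Equiv.Perm (Fin n))) ≤ 2 ^ (n - 2) := by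
  classical
  constructor
  · haveI : Fintype (ConjClasses (alternatingGroup (Fin n))) := Fintype.ofFinite _
    haveI : Fintype (ConjClasses (Equiv.Perm (Fin n))) := Fintype.ofFinite _
    rw [Nat.card_eq_fintype_card, Nat.card_eq_fintype_card]
    exact Fintype.card_lt_of_injective_not_surjective (psi n) (psi_inj hn) (psi_not_surj hn)
  · obtain ⟨k, rfl⟩ : ∃ k, n = k + 5 := ⟨n - 5, by omega⟩
    refine (classes_le (k + 5)).trans ?_
    have := card_le_pow k
    have e : k + 5 - 2 = k + 3 := by omega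
    rw [e]
    exact this

end Cfsg.Agent.S4198
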