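import Cfsg.Statements.S4200
import Mathlib

set_option autoImplicit false
open Cfsg

namespace Cfsg.Agent.S4200

theorem key {X : Type*} [Group X] [Finite X] (Y : Subgroup X) (a : X) :
    Nat.card {b : X // a * b = b * a} ≤ Y.index * Nat.card {y : Y // a * (y : X) = (y : X) * a} ∧
    ((∃ g : X, ∀ c : X, a * c = c * a → c⁻¹ * g ∉ Y) →
      Nat.card {b : X // a * b = b * a} <
        Y.index * Nat.card {y : Y // a * (y : X) = (y : X) * a}) := by
  classical
  let r : X ⧸ Y → X := fun q =>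
    if h : ∃ c : X, a * c = c * a ∧ (c : X ⧸ Y) = q then h.choose else 1
  have hr1 : ∀ q, a * r q = r q * a := by
    intro q
    by_cases h : ∃ c : X, a * c = c * a ∧ (c : X ⧸ Y) = q
    · simp only [r, dif_pos h]; exact h.choose_spec.1
    · simp only [r, dif_neg h]; simp
  have hr2 : ∀ c : X, a * c = c * a → ((r (c : X ⧸ Y) : X) : X ⧸ Y) = (c : X ⧸ Y) := by
    intro c hc
    have h : ∃ c' : X, a * c' = c' * a ∧ (c' : X ⧸ Y) = (c : X ⧸ Y) := ⟨c, hc, rfl⟩
    simp only [r, dif_pos h]; exact h.choose_spec.2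
  have hmem : ∀ b : {b : X // a * b = b * a}, (r (b.1 : X ⧸ Y))⁻¹ * b.1 ∈ Y := fun b =>
    QuotientGroup.eq.mp (hr2 b.1 b.2)
  have hcomm : ∀ b : {b : X // a * b = b * a},
      a * ((r (b.1 : X ⧸ Y))⁻¹ * b.1) = ((r (b.1 : X ⧸ Y))⁻¹ * b.1) * a := fun b =>
    ((show Commute a (r (b.1 : X ⧸ Y)) from hr1 _).inv_right.mul_right
      (show Commute a b.1 from b.2))
  let f : {b : X // a * b = b * a} → (X ⧸ Y) × {y : Y // a * (y : X) = (y : X) * a} :=
    fun b => ((b.1 : X ⧸ Y), ⟨⟨(r (b.1 : X ⧸ Y))⁻¹ * b.1, hmem b⟩, hcomm b⟩)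
  have hf : Function.Injective f := by
    intro b b' h
    simp only [f, Prod.mk.injEq, Subtype.mk.injEq] at h
    obtain ⟨h1, h2⟩ := h
    rw [h1] at h2
    exact Subtype.ext (mul_left_cancel h2)
  refine ⟨?_, ?_⟩
  · have := Nat.card_le_card_of_injective f hf
    rwa [Nat.card_prod] at this
  · rintro ⟨g, hg⟩
    have : Fintype {b : X // a * b = b * a} := Fintype.ofFinite _
    have : Fintype ((X ⧸ Y) × {y : Y // a * (y : X) = (y : X) * a}) := Fintype.ofFinite _
    have hnot : (((g : X ⧸ Y)), (⟨1, by simp⟩ : {y : Y // a * (y : X) = (y : X) * a})) ∉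
        Set.range f := by
      rintro ⟨b, hb⟩
      simp only [f, Prod.mk.injEq] at hb
      exact hg b.1 b.2 (QuotientGroup.eq.mp hb.1)
    have := Fintype.card_lt_of_injective_of_notMem f hf hnot
    rwa [← Nat.card_eq_fintype_card, ← Nat.card_eq_fintype_card, Nat.card_prod] at this

/-- Let Y be a subgroup of the finite group X, of index m. Then the numbers of conjugacy classes satisfy k(Y) ≤ m·k(X) and k(X) ≤ m·k(Y), and the second inequality is strict unless Y is normal in X. -/
theorem result {X : Type*} [Group X] [Finite X] (Y : Subgroup X) : Nat.card (ConjClasses Y) ≤ Y.index * Nat.card (ConjClasses X) ∧ Nat.card (ConjClasses X) ≤ Y.index * Nat.card (ConjClasses Y) ∧ (¬ Y.Normal → Nat.card (ConjClasses X) < Y.index * Nat.card (ConjClasses Y)) := by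
  classical
  have : Fintype X := Fintype.ofFinite X
  have : Fintype Y := Fintype.ofFinite Y
  set m := Y.index with hm
  have hXY : Nat.card X = Nat.card Y * m := (Subgroup.card_mul_index Y).symm
  have hYpos : 0 < Nat.card Y := Nat.card_pos
  have hmpos : 0 < m := Nat.pos_of_ne_zero (Subgroup.index_ne_zero_of_finite)
  have hA : Nat.card {p : X × X // p.1 * p.2 = p.2 * p.1} =
      Nat.card (ConjClasses X) * Nat.card X := by
    rw [← card_comm_eq_card_conjClasses_mul_card]
    rfl
  have hD : Nat.card {p : Y × Y // (p.1 : X) * (p.2 : X) = (p.2 : X) * (p.1 : X)} =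
      Nat.card (ConjClasses Y) * Nat.card Y := by
    rw [← card_comm_eq_card_conjClasses_mul_card]
    exact Nat.card_congr (Equiv.subtypeEquivRight (fun p => by
      simp [Commute, SemiconjBy, Subtype.ext_iff]))
  have hAs : Nat.card {p : X × X // p.1 * p.2 = p.2 * p.1} =
      ∑ a : X, Nat.card {b : X // a * b = b * a} := by
    rw [Nat.card_congr (Equiv.subtypeProdEquivSigmaSubtype (fun a b : X => a * b = b * a)),
      Nat.card_sigma]
  have hBs1 : Nat.card {p : X × Y // p.1 * (p.2 : X) = (p.2 : X) * p.1} =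
      ∑ a : X, Nat.card {y : Y // a * (y : X) = (y : X) * a} := by
    rw [Nat.card_congr (Equiv.subtypeProdEquivSigmaSubtype
      (fun (a : X) (y : Y) => a * (y : X) = (y : X) * a)), Nat.card_sigma]
  have hBs2 : Nat.card {p : X × Y // p.1 * (p.2 : X) = (p.2 : X) * p.1} =
      ∑ y : Y, Nat.card {b : X // (y : X) * b = b * (y : X)} := by
    have e : {p : X × Y // p.1 * (p.2 : X) = (p.2 : X) * p.1} ≃
        {p : Y × X // (p.1 : X) * p.2 = p.2 * (p.1 : X)} :=
      (Equiv.prodComm X Y).subtypeEquiv (fun p => by simp [eq_comm])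
    rw [Nat.card_congr e, Nat.card_congr (Equiv.subtypeProdEquivSigmaSubtype
      (fun (y : Y) (b : X) => (y : X) * b = b * (y : X))), Nat.card_sigma]
  have hDs : Nat.card {p : Y × Y // (p.1 : X) * (p.2 : X) = (p.2 : X) * (p.1 : X)} =
      ∑ y : Y, Nat.card {y' : Y // (y : X) * (y' : X) = (y' : X) * (y : X)} := by
    rw [Nat.card_congr (Equiv.subtypeProdEquivSigmaSubtype
      (fun (y y' : Y) => (y : X) * (y' : X) = (y' : X) * (y : X))), Nat.card_sigma]
  have hAB : Nat.card {p : X × X // p.1 * p.2 = p.2 * p.1} ≤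
      m * Nat.card {p : X × Y // p.1 * (p.2 : X) = (p.2 : X) * p.1} := by
    rw [hAs, hBs1, Finset.mul_sum]
    exact Finset.sum_le_sum (fun a _ => (key Y a).1)
  have hBD : Nat.card {p : X × Y // p.1 * (p.2 : X) = (p.2 : X) * p.1} ≤
      m * Nat.card {p : Y × Y // (p.1 : X) * (p.2 : X) = (p.2 : X) * (p.1 : X)} := by
    rw [hBs2, hDs, Finset.mul_sum]
    exact Finset.sum_le_sum (fun y _ => (key Y (y : X)).1)
  have hDA : Nat.card {p : Y × Y // (p.1 : X) * (p.2 : X) = (p.2 : X) * (p.1 : X)} ≤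
      Nat.card {p : X × X // p.1 * p.2 = p.2 * p.1} := by
    apply Nat.card_le_card_of_injective
      (fun p : {p : Y × Y // (p.1 : X) * (p.2 : X) = (p.2 : X) * (p.1 : X)} =>
        (⟨((p.1.1 : X), (p.1.2 : X)), p.2⟩ : {p : X × X // p.1 * p.2 = p.2 * p.1}))
    intro p q h
    simp only [Subtype.mk.injEq, Prod.mk.injEq] at h
    exact Subtype.ext (Prod.ext (Subtype.ext h.1) (Subtype.ext h.2))
  refine ⟨?_, ?_, ?_⟩
  · have h1 : Nat.card (ConjClasses Y) * Nat.card Y ≤
        Nat.card (ConjClasses X) * (Nat.card Y * m) := by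
      rw [← hXY, ← hA, ← hD]; exact hDA
    have h2 : Nat.card (ConjClasses Y) * Nat.card Y ≤
        (m * Nat.card (ConjClasses X)) * Nat.card Y := by
      calc _ ≤ _ := h1
        _ = _ := by ring
    exact Nat.le_of_mul_le_mul_right h2 hYpos
  · have h1 : Nat.card (ConjClasses X) * (Nat.card Y * m) ≤
        m * (m * (Nat.card (ConjClasses Y) * Nat.card Y)) := by
      rw [← hXY, ← hA, ← hD]
      exact hAB.trans (Nat.mul_le_mul_left m hBD)
    have h2 : Nat.card (ConjClasses X) * (Nat.card Y * m) ≤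
        (m * Nat.card (ConjClasses Y)) * (Nat.card Y * m) := by
      calc _ ≤ _ := h1
        _ = _ := by ring
    exact Nat.le_of_mul_le_mul_right h2 (Nat.mul_pos hYpos hmpos)
  · intro hn
    obtain ⟨y, hy, g, hg⟩ : ∃ y ∈ Y, ∃ g : X, g⁻¹ * y * g ∉ Y := by
      by_contra hcon
      push Not at hcon
      apply hn
      refine ⟨fun n hn' g => ?_⟩
      have := hcon n hn' g⁻¹
      simpa using this
    have hBD' : Nat.card {p : X × Y // p.1 * (p.2 : X) = (p.2 : X) * p.1} <
        m * Nat.card {p : Y × Y // (p.1 : X) * (p.2 : X) = (p.2 : X) * (p.1 : X)} := by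
      rw [hBs2, hDs, Finset.mul_sum]
      apply Finset.sum_lt_sum (fun (y : Y) _ => (key Y (y : X)).1)
      refine ⟨⟨y, hy⟩, Finset.mem_univ _, (key Y y).2 ⟨g, ?_⟩⟩
      intro c hc hcg
      apply hg
      have h3 : c * y * c⁻¹ = y := by rw [← hc, mul_inv_cancel_right]
      have h4 : g⁻¹ * y * g = (c⁻¹ * g)⁻¹ * y * (c⁻¹ * g) := by
        calc g⁻¹ * y * g = g⁻¹ * (c * y * c⁻¹) * g := by rw [h3]
          _ = _ := by group
      rw [h4]
      exact Y.mul_mem (Y.mul_mem (Y.inv_mem hcg) hy) hcg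
    have h1 : Nat.card (ConjClasses X) * (Nat.card Y * m) <
        m * (m * (Nat.card (ConjClasses Y) * Nat.card Y)) := by
      rw [← hXY, ← hA, ← hD]
      exact lt_of_le_of_lt hAB (Nat.mul_lt_mul_of_pos_left hBD' hmpos)
    have h2 : Nat.card (ConjClasses X) * (Nat.card Y * m) <
        (m * Nat.card (ConjClasses Y)) * (Nat.card Y * m) := by
      calc _ < _ := h1
        _ = _ := by ring
    exact Nat.lt_of_mul_lt_mul_right h2

end Cfsg.Agent.S4200
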