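import Cfsg.Statements.S4201
import Mathlib

set_option autoImplicit false
open Cfsg

namespace Cfsg.Agent.S4201

/-- If N is a normal subgroup of the finite group X then k(X) ≤ k(N)·k(X ⧸ N), where k denotes the number of conjugacy classes. -/
theorem result {X : Type*} [Group X] [Finite X] (N : Subgroup X) [N.Normal] : Nat.card (ConjClasses X) ≤ Nat.card (ConjClasses N) * Nat.card (ConjClasses (X ⧸ N)) := by
  classical
  let ρ : X → X ⧸ N → X := fun x q =>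
    if h : ∃ c : X, Commute x c ∧ (c : X ⧸ N) = q then h.choose else 1
  have hρ1 : ∀ x q, Commute x (ρ x q) := by
    intro x q
    by_cases h : ∃ c : X, Commute x c ∧ (c : X ⧸ N) = q
    · simp only [ρ, dif_pos h]; exact h.choose_spec.1
    · simp only [ρ, dif_neg h]; exact Commute.one_right x
  have hρ2 : ∀ x c : X, Commute x c → ((ρ x (c : X ⧸ N) : X) : X ⧸ N) = (c : X ⧸ N) := by
    intro x c hc
    have h : ∃ c' : X, Commute x c' ∧ (c' : X ⧸ N) = (c : X ⧸ N) := ⟨c, hc, rfl⟩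
    simp only [ρ, dif_pos h]; exact h.choose_spec.2
  have hn_mem : ∀ a b : X, Commute a b → (ρ a (b : X ⧸ N))⁻¹ * b ∈ N := fun a b h =>
    QuotientGroup.eq.mp (hρ2 a b h)
  have hn_comm : ∀ a b : X, Commute a b → Commute a ((ρ a (b : X ⧸ N))⁻¹ * b) := fun a b h =>
    (hρ1 a _).inv_right.mul_right h
  let Φ : {p : X × X // Commute p.1 p.2} →
      {p : N × N // Commute p.1 p.2} × {p : (X ⧸ N) × (X ⧸ N) // Commute p.1 p.2} :=
    fun p =>
      (⟨(⟨(ρ p.1.1 (p.1.2 : X ⧸ N))⁻¹ * p.1.2, hn_mem p.1.1 p.1.2 p.2⟩,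
         ⟨(ρ ((ρ p.1.1 (p.1.2 : X ⧸ N))⁻¹ * p.1.2) (p.1.1 : X ⧸ N))⁻¹ * p.1.1,
           hn_mem _ p.1.1 (hn_comm p.1.1 p.1.2 p.2).symm⟩),
         Subtype.ext (hn_comm _ p.1.1 (hn_comm p.1.1 p.1.2 p.2).symm).eq⟩,
       ⟨((p.1.1 : X ⧸ N), (p.1.2 : X ⧸ N)), p.2.map (QuotientGroup.mk' N)⟩)
  have hΦ : Function.Injective Φ := by
    rintro ⟨⟨a, b⟩, h⟩ ⟨⟨a', b'⟩, h'⟩ heq
    have hn : (ρ a (b : X ⧸ N))⁻¹ * b = (ρ a' (b' : X ⧸ N))⁻¹ * b' :=
      congrArg (fun z => (z.1.1.1 : X)) heq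
    have hn' : (ρ ((ρ a (b : X ⧸ N))⁻¹ * b) (a : X ⧸ N))⁻¹ * a =
        (ρ ((ρ a' (b' : X ⧸ N))⁻¹ * b') (a' : X ⧸ N))⁻¹ * a' :=
      congrArg (fun z => (z.1.1.2 : X)) heq
    have hqa : (a : X ⧸ N) = (a' : X ⧸ N) := congrArg (fun z => z.2.1.1) heq
    have hqb : (b : X ⧸ N) = (b' : X ⧸ N) := congrArg (fun z => z.2.1.2) heq
    rw [hn, hqa] at hn'
    have haa : a = a' := mul_left_cancel hn'
    subst haa
    rw [hqb] at hn
    have hbb : b = b' := mul_left_cancel hn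
    subst hbb
    rfl
  have h1 := Nat.card_le_card_of_injective Φ hΦ
  rw [Nat.card_prod, card_comm_eq_card_conjClasses_mul_card,
    card_comm_eq_card_conjClasses_mul_card, card_comm_eq_card_conjClasses_mul_card] at h1
  have h2 : Nat.card X = Nat.card (X ⧸ N) * Nat.card N :=
    Subgroup.card_eq_card_quotient_mul_card_subgroup N
  have h3 : Nat.card (ConjClasses X) * Nat.card X ≤
      (Nat.card (ConjClasses N) * Nat.card (ConjClasses (X ⧸ N))) * Nat.card X := by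
    calc _ ≤ _ := h1
      _ = _ := by rw [h2]; ring
  exact Nat.le_of_mul_le_mul_right h3 Nat.card_pos

end Cfsg.Agent.S4201
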