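import Cfsg.Statements.S4203
import Mathlib

set_option autoImplicit false
open Cfsg
open scoped commutatorElement

namespace Cfsg.Agent.S4203

universe u

theorem perm4_a : ∀ a b : Equiv.Perm (Fin 4), Equiv.Perm.sign a = 1 → Equiv.Perm.sign b = 1 →
    ⁅a, b⁆ * (Equiv.swap 0 1 * Equiv.swap 2 3) = (Equiv.swap 0 1 * Equiv.swap 2 3) * ⁅a, b⁆ := by
  decide +kernel

theorem perm4_b : ∀ a b : Equiv.Perm (Fin 4), Equiv.Perm.sign a = 1 →
    a * (Equiv.swap 0 1 * Equiv.swap 2 3) = (Equiv.swap 0 1 * Equiv.swap 2 3) * a →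
    Equiv.Perm.sign b = 1 →
    b * (Equiv.swap 0 1 * Equiv.swap 2 3) = (Equiv.swap 0 1 * Equiv.swap 2 3) * b →
    a * b = b * a := by
  decide +kernel

theorem solvable_perm4 : Group.IsSolvable (Equiv.Perm (Fin 4)) := by
  let τ : Equiv.Perm (Fin 4) := Equiv.swap 0 1 * Equiv.swap 2 3
  let A : Subgroup (Equiv.Perm (Fin 4)) := (Equiv.Perm.sign (α := Fin 4)).ker
  let V : Subgroup (Equiv.Perm (Fin 4)) := A ⊓ Subgroup.centralizer {τ}
  refine ⟨⟨3, ?_⟩⟩
  have h1 : derivedSeries (Equiv.Perm (Fin 4)) 1 ≤ A := by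
    rw [derivedSeries_one]
    exact Abelianization.commutator_subset_ker _
  have h2 : derivedSeries (Equiv.Perm (Fin 4)) 2 ≤ V := by
    rw [derivedSeries_succ]
    refine (Subgroup.commutator_mono h1 h1).trans ?_
    rw [Subgroup.commutator_le]
    intro a ha b hb
    refine ⟨?_, ?_⟩
    · exact Subgroup.commutator_le_self A (Subgroup.commutator_mem_commutator ha hb)
    · show ⁅a, b⁆ ∈ Subgroup.centralizer {τ}
      rw [Subgroup.mem_centralizer_iff]
      intro h hh
      rw [Set.mem_singleton_iff] at hh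
      subst hh
      exact (perm4_a a b (MonoidHom.mem_ker.mp ha) (MonoidHom.mem_ker.mp hb)).symm
  rw [derivedSeries_succ, eq_bot_iff]
  refine (Subgroup.commutator_mono h2 h2).trans ?_
  rw [Subgroup.commutator_le]
  intro a ha b hb
  rw [Subgroup.mem_bot, commutatorElement_eq_one_iff_mul_comm]
  exact perm4_b a b (MonoidHom.mem_ker.mp ha.1)
    ((Subgroup.mem_centralizer_iff.mp ha.2 τ rfl).symm) (MonoidHom.mem_ker.mp hb.1)
    ((Subgroup.mem_centralizer_iff.mp hb.2 τ rfl).symm)

theorem solvable_perm_of_card4 {Ω : Type*} (h : Nat.card Ω = 4) :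
    Group.IsSolvable (Equiv.Perm Ω) := by
  haveI : Finite Ω := Nat.finite_of_card_ne_zero (by omega)
  haveI : Fintype Ω := Fintype.ofFinite Ω
  have e : Ω ≃ Fin 4 := Fintype.equivFinOfCardEq (by rw [← Nat.card_eq_fintype_card]; exact h)
  haveI := solvable_perm4
  exact Group.isSolvable_of_isSolvable_injective (f := (e.permCongrHom).toMonoidHom)
    (e.permCongrHom).injective

theorem perfect_le_ker {G X : Type*} [Group G] [Group X] [Group.IsSolvable X] (S : Subgroup G)
    (hS : ⁅S, S⁆ = S) (φ : G →* X) : S ≤ φ.ker := by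
  by_contra hne
  have h1 : S.map φ ≠ ⊥ := by
    intro h; apply hne; rwa [← Subgroup.map_eq_bot_iff]
  have h2 := Group.IsSolvable.commutator_lt_of_ne_bot h1
  rw [← Subgroup.map_commutator, hS] at h2
  exact lt_irrefl _ h2

theorem perfect_solvable_eq_bot {G : Type*} [Group G] (S : Subgroup G) (hS : ⁅S, S⁆ = S)
    [Group.IsSolvable S] : S = ⊥ := by
  by_contra hne
  haveI : Nontrivial S := (Subgroup.nontrivial_iff_ne_bot S).mpr hne
  have h := Group.IsSolvable.commutator_lt_top_of_nontrivial S
  have h2 : ⁅S, S⁆ < S := by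
    rw [← S.range_subtype, MonoidHom.range_eq_map, ← Subgroup.map_commutator,
      Subgroup.map_subtype_lt_map_subtype]
    exact h
  exact h2.ne hS

theorem coatom_comap {G : Type*} [Group G] (N : Subgroup G) [N.Normal]
    (Mb : Subgroup (G ⧸ N)) (h : IsCoatom Mb) :
    IsCoatom (Mb.comap (QuotientGroup.mk' N)) := by
  have hsurj := QuotientGroup.mk'_surjective N
  refine ⟨?_, ?_⟩
  · intro htop
    apply h.1
    rw [← Subgroup.map_comap_eq_self_of_surjective hsurj Mb, htop, ← MonoidHom.range_eq_map,
      MonoidHom.range_eq_top.mpr hsurj]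
  · intro L hL
    have h1 : Mb < L.map (QuotientGroup.mk' N) := by
      refine lt_of_le_of_ne ?_ ?_
      · rw [← Subgroup.map_comap_eq_self_of_surjective hsurj Mb]
        exact Subgroup.map_mono hL.le
      · intro heq
        apply hL.not_ge
        rw [heq]; exact Subgroup.le_comap_map _ _
    have h2 := h.2 _ h1
    have h3 : N ≤ L := by
      have : N ≤ Mb.comap (QuotientGroup.mk' N) := by
        intro x hx
        rw [Subgroup.mem_comap]
        have : QuotientGroup.mk' N x = 1 := (QuotientGroup.eq_one_iff x).mpr hx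
        rw [this]; exact Mb.one_mem
      exact this.trans hL.le
    have h4 := Subgroup.comap_map_eq (QuotientGroup.mk' N) L
    rw [h2, Subgroup.comap_top, QuotientGroup.ker_mk', sup_of_le_left h3] at h4
    exact h4.symm

theorem relIndex_of_sup_top {G : Type*} [Group G] [Finite G] (L K : Subgroup G) [K.Normal]
    (h : L ⊔ K = ⊤) : L.relIndex K = L.index := by
  have h1 : (K ⊓ L).relIndex L * L.relIndex (L ⊔ K) = (K ⊓ L).relIndex (L ⊔ K) :=
    Subgroup.relIndex_mul_relIndex _ _ _ inf_le_right le_sup_left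
  have h2 : (K ⊓ L).relIndex K * K.relIndex (L ⊔ K) = (K ⊓ L).relIndex (L ⊔ K) :=
    Subgroup.relIndex_mul_relIndex _ _ _ inf_le_left le_sup_right
  rw [Subgroup.inf_relIndex_right] at h1
  rw [Subgroup.inf_relIndex_left, Subgroup.relIndex_sup_right] at h2
  have h3 : K.relIndex L * L.relIndex (L ⊔ K) = K.relIndex L * L.relIndex K := by
    rw [h1, ← h2, mul_comm]
  have h4 : L.relIndex (L ⊔ K) = L.relIndex K :=
    Nat.eq_of_mul_eq_mul_left
      (Nat.pos_of_dvd_of_pos (Subgroup.relIndex_dvd_card K L) Nat.card_pos) h3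
  rw [← h4, h, Subgroup.relIndex_top_right]

theorem nt (p q r : ℕ) (hp : p.Prime) (hq : q.Prime) (hqp : q ≤ p) (hr : r = q ∨ r = q ^ 2)
    (hmod : r ≡ 1 [MOD p]) : r = 4 := by
  have hp2 := hp.two_le
  have hq2 := hq.two_le
  have h1p : 1 % p = 1 := Nat.mod_eq_of_lt (by omega)
  unfold Nat.ModEq at hmod
  rw [h1p] at hmod
  rcases hr with rfl | rfl
  · exfalso
    rcases hqp.lt_or_eq with hlt | rfl
    · rw [Nat.mod_eq_of_lt hlt] at hmod; omega
    · rw [Nat.mod_self] at hmod; omega
  · rcases hqp.lt_or_eq with hlt | rfl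
    · have hq1 : 1 ≤ q ^ 2 := Nat.one_le_pow _ _ (by omega)
      have h1 : p ∣ q ^ 2 - 1 := by
        have : (q ^ 2 - 1) % p = 0 := by
          have h5 : q ^ 2 = (q ^ 2 - 1) + 1 := by omega
          have h6 : q ^ 2 % p = ((q ^ 2 - 1) % p + 1 % p) % p := by
            conv_lhs => rw [h5]
            exact Nat.add_mod _ _ _
          rw [hmod, h1p] at h6
          by_contra hne
          have hlt2 : (q ^ 2 - 1) % p < p := Nat.mod_lt _ (by omega)
          by_cases hcase : (q ^ 2 - 1) % p + 1 < p
          · rw [Nat.mod_eq_of_lt hcase] at h6; omega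
          · have : (q ^ 2 - 1) % p + 1 = p := by omega
            rw [this, Nat.mod_self] at h6; omega
        exact Nat.dvd_of_mod_eq_zero this
      have h2 : q ^ 2 - 1 = (q - 1) * (q + 1) := by
        obtain ⟨t, rfl⟩ : ∃ t, q = t + 1 := ⟨q - 1, by omega⟩
        simp only [Nat.add_sub_cancel]
        have : (t + 1) ^ 2 = t * (t + 1 + 1) + 1 := by ring
        rw [this, Nat.add_sub_cancel]
      rw [h2] at h1
      rcases (hp.dvd_mul).mp h1 with h | h
      · have := Nat.le_of_dvd (by omega) h; omega
      · have := Nat.le_of_dvd (by omega) h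
        have hpq : p = q + 1 := by omega
        have hq2' : q = 2 := by
          rcases hq.eq_two_or_odd with h2 | hodd
          · exact h2
          · rcases hp.eq_two_or_odd with h2' | hodd'
            · omega
            · omega
        subst hq2'; norm_num
    · exfalso
      have : q ^ 2 % q = 0 := by
        rw [pow_two]; exact Nat.mul_mod_right q q
      omega

theorem aux : ∀ (n : ℕ) (G : Type u) [Group G] [Finite G], Nat.card G = n →
    (∀ M : Subgroup G, IsCoatom M → ∃ p : ℕ, p.Prime ∧ (M.index = p ∨ M.index = p ^ 2)) →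
    Group.IsSolvable G := by
  intro n
  induction n using Nat.strong_induction_on with
  | _ n ih =>
  intro G _ _ hn h
  by_contra hns
  rw [Group.isSolvable_iff_commutator_lt] at hns
  push Not at hns
  obtain ⟨H, hH, hHc⟩ := hns
  have hHperf : ⁅H, H⁆ = H := by
    by_contra hne
    exact hHc (lt_of_le_of_ne (Subgroup.commutator_le_self H) hne)
  set S := Subgroup.normalClosure (H : Set G) with hS
  have hHS : H ≤ S := Subgroup.le_normalClosure
  have hSne : S ≠ ⊥ := fun h0 => hH (le_bot_iff.mp (h0 ▸ hHS))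
  have hSperf : ⁅S, S⁆ = S := by
    apply le_antisymm (Subgroup.commutator_le_self S)
    apply Subgroup.normalClosure_le_normal
    intro x hx
    have hx' : x ∈ ⁅H, H⁆ := by rw [hHperf]; exact hx
    exact Subgroup.commutator_mono hHS hHS hx'
  have hScard : 1 < Nat.card S := (Subgroup.one_lt_card_iff_ne_bot _).mpr hSne
  have hpf : (Nat.card S).primeFactors.Nonempty := Nat.nonempty_primeFactors.mpr hScard
  set p := (Nat.card S).primeFactors.max' hpf with hp
  have hpmem : p ∈ (Nat.card S).primeFactors := Finset.max'_mem _ _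
  have hpprime : p.Prime := Nat.prime_of_mem_primeFactors hpmem
  have hpdvd : p ∣ Nat.card S := Nat.dvd_of_mem_primeFactors hpmem
  have hpmax : ∀ q, q.Prime → q ∣ Nat.card S → q ≤ p := fun q hq hqd =>
    Finset.le_max' _ q (Nat.mem_primeFactors.mpr ⟨hq, hqd, Nat.card_pos.ne'⟩)
  haveI : Fact p.Prime := ⟨hpprime⟩
  obtain ⟨P⟩ : Nonempty (Sylow p S) := inferInstance
  set P' : Subgroup G := (P : Subgroup S).map S.subtype with hP'
  have hfrat : Subgroup.normalizer (P' : Set G) ⊔ S = ⊤ := Sylow.normalizer_sup_eq_top P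
  have hP'ne : P' ≠ ⊥ := by
    intro h0
    exact P.ne_bot_of_dvd_card hpdvd
      ((Subgroup.map_eq_bot_iff_of_injective _ S.subtype_injective).mp h0)
  by_cases hnorm : P'.Normal
  · have hquot : Group.IsSolvable (G ⧸ P') := by
      apply ih (Nat.card (G ⧸ P')) ?_ (G ⧸ P') rfl ?_
      · rw [← hn, Subgroup.card_eq_card_quotient_mul_card_subgroup P']
        have h1 : 1 < Nat.card P' := (Subgroup.one_lt_card_iff_ne_bot _).mpr hP'ne
        have h2 : 0 < Nat.card (G ⧸ P') := Nat.card_pos
        nlinarith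
      · intro Mb hMb
        obtain ⟨q, hq, hidx⟩ := h _ (coatom_comap P' Mb hMb)
        refine ⟨q, hq, ?_⟩
        rwa [Subgroup.index_comap_of_surjective _ (QuotientGroup.mk'_surjective P')] at hidx
    have h1 : S ≤ P' := by
      have := perfect_le_ker S hSperf (QuotientGroup.mk' P')
      rwa [QuotientGroup.ker_mk'] at this
    have hPg : IsPGroup p P' := P.2.map S.subtype
    haveI : Group.IsNilpotent P' := hPg.isNilpotent
    haveI : Group.IsSolvable S :=
      Group.isSolvable_of_isSolvable_injective (Subgroup.inclusion_injective h1)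
    exact hSne (perfect_solvable_eq_bot S hSperf)
  · have hNtop : Subgroup.normalizer (P' : Set G) ≠ ⊤ := fun h0 =>
      hnorm (Subgroup.normalizer_eq_top_iff.mp h0)
    obtain ⟨M, hM, hNM⟩ := (eq_top_or_exists_le_coatom _).resolve_left hNtop
    have hMS : M ⊔ S = ⊤ := by
      apply top_le_iff.mp; rw [← hfrat]; exact sup_le_sup_right hNM S
    have hSM : ¬ S ≤ M := fun hle => hM.1 (by rw [← hMS]; exact (sup_of_le_left hle).symm)
    obtain ⟨q, hq, hidx⟩ := h M hM
    have hrel : M.relIndex S = M.index := relIndex_of_sup_top M S hMS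
    have hmod : M.index ≡ 1 [MOD p] := by
      rw [← hrel]
      set T : Subgroup S := M.subgroupOf S with hT
      set NS : Subgroup S := Subgroup.normalizer ((P : Subgroup S) : Set S) with hNS
      have hNST : NS ≤ T := by
        have h1 : NS.map S.subtype ≤ Subgroup.normalizer (P' : Set G) :=
          Subgroup.le_normalizer_map S.subtype
        exact Subgroup.map_le_iff_le_comap.mp (h1.trans hNM)
      have hPT : (P : Subgroup S) ≤ T := Subgroup.le_normalizer.trans hNST
      have e1 : Nat.card (Sylow p S) = NS.index := Sylow.card_eq_index_normalizer P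
      have e2 : Nat.card (Sylow p T) = NS.relIndex T := by
        rw [Sylow.card_eq_index_normalizer (P.subtype hPT)]
        have hc : ((P.subtype hPT : Sylow p T) : Set T) =
            (((P : Subgroup S).subgroupOf T : Subgroup T) : Set T) := rfl
        rw [hc, ← Subgroup.subgroupOf_normalizer_eq hPT]
        rfl
      have e3 : NS.relIndex T * T.index = NS.index := Subgroup.relIndex_mul_index hNST
      have m1 : Nat.card (Sylow p S) ≡ 1 [MOD p] := card_sylow_modEq_one p S
      have m2 : Nat.card (Sylow p T) ≡ 1 [MOD p] := card_sylow_modEq_one p T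
      rw [e1, ← e3] at m1
      rw [e2] at m2
      have m3 : NS.relIndex T * T.index ≡ 1 * T.index [MOD p] := Nat.ModEq.mul_right _ m2
      rw [one_mul] at m3
      exact m3.symm.trans m1
    have hqS : q ∣ Nat.card S := by
      have h1 : M.index ∣ Nat.card S := hrel ▸ Subgroup.relIndex_dvd_card M S
      rcases hidx with h2 | h2
      · rw [h2] at h1; exact h1
      · rw [h2] at h1; exact (dvd_pow_self q two_ne_zero).trans h1
    have hr4 : M.index = 4 := nt p q M.index hpprime hq (hpmax q hq hqS) hidx hmod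
    haveI : Group.IsSolvable (Equiv.Perm (G ⧸ M)) := solvable_perm_of_card4 hr4
    have h1 := perfect_le_ker S hSperf (MulAction.toPermHom G (G ⧸ M))
    rw [← Subgroup.normalCore_eq_ker] at h1
    exact hSM (h1.trans (Subgroup.normalCore_le M))

/-- A finite group in which every maximal subgroup has index a prime or the square of a prime is solvable. -/
theorem result {G : Type*} [Group G] [Finite G] (h : ∀ M : Subgroup G, IsCoatom M → ∃ p : ℕ, p.Prime ∧ (M.index = p ∨ M.index = p ^ 2)) : Group.IsSolvable G := by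
  exact aux (Nat.card G) G rfl h

end Cfsg.Agent.S4203
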