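import Cfsg.Statements.S4204
import Mathlib

set_option autoImplicit false
open Cfsg

namespace Cfsg.Agent.S4204

section

variable {G : Type*} [Group G]

theorem comm_le_iff (N : Subgroup G) [N.Normal] (X Y : Subgroup G) :
    ⁅X, Y⁆ ≤ N ↔ X.map (QuotientGroup.mk' N) ≤
      Subgroup.centralizer ((Y.map (QuotientGroup.mk' N) : Subgroup (G ⧸ N)) : Set (G ⧸ N)) := by
  have key : ∀ Z : Subgroup G, Z ≤ N ↔ Z.map (QuotientGroup.mk' N) = ⊥ := by
    intro Z
    rw [← le_bot_iff, Subgroup.map_le_iff_le_comap]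
    have : (⊥ : Subgroup (G ⧸ N)).comap (QuotientGroup.mk' N) = N := by
      ext x; simp
    rw [this]
  rw [key, Subgroup.map_commutator, Subgroup.commutator_eq_bot_iff_le_centralizer]

theorem iSup_comm_le {ι : Sort*} (X : ι → Subgroup G) (Y N : Subgroup G) [N.Normal]
    (h : ∀ i, ⁅X i, Y⁆ ≤ N) : ⁅⨆ i, X i, Y⁆ ≤ N := by
  rw [comm_le_iff, Subgroup.map_iSup]
  exact iSup_le fun i => (comm_le_iff N (X i) Y).mp (h i)

theorem comm_sup_le (X Y₁ Y₂ N : Subgroup G) [N.Normal]
    (h1 : ⁅X, Y₁⁆ ≤ N) (h2 : ⁅X, Y₂⁆ ≤ N) : ⁅X, Y₁ ⊔ Y₂⁆ ≤ N := by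
  rw [Subgroup.commutator_comm] at h1 h2 ⊢
  rw [comm_le_iff] at h1 h2 ⊢
  rw [Subgroup.map_sup]
  exact sup_le h1 h2

/-- shifted lower central series, with term `0` the whole group -/
def ser (H : Subgroup G) : ℕ → Subgroup G
  | 0 => ⊤
  | (i + 1) => H.lowerCentralSeries i

instance ser_normal (H : Subgroup G) [H.Normal] (i : ℕ) : (ser H i).Normal := by
  cases i with
  | zero => exact Subgroup.normal_top
  | succ i => exact Subgroup.lowerCentralSeries_normal H i

theorem comm_ser_le (H : Subgroup G) [H.Normal] (i : ℕ) : ⁅ser H i, H⁆ ≤ ser H (i + 1) := by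
  cases i with
  | zero =>
    show ⁅(⊤ : Subgroup G), H⁆ ≤ H.lowerCentralSeries 0
    exact Subgroup.commutator_le_right _ _
  | succ i => exact le_rfl

/-- the target subgroup -/
def tgt (H K : Subgroup G) (n : ℕ) : Subgroup G :=
  ⨆ (i : ℕ) (j : ℕ) (_ : i + j = n + 1), ser H i ⊓ ser K j

instance tgt_normal (H K : Subgroup G) [H.Normal] [K.Normal] (n : ℕ) : (tgt H K n).Normal := by
  unfold tgt
  infer_instance

theorem le_tgt (H K : Subgroup G) (n i j : ℕ) (h : i + j = n + 1) :
    ser H i ⊓ ser K j ≤ tgt H K n := by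
  unfold tgt
  exact le_iSup_of_le i (le_iSup_of_le j (le_iSup_of_le h le_rfl))

theorem lcs_le_tgt (H K : Subgroup G) [H.Normal] [K.Normal] (n : ℕ) :
    (H ⊔ K).lowerCentralSeries n ≤ tgt H K n := by
  induction n with
  | zero =>
    rw [Subgroup.lowerCentralSeries_zero]
    apply sup_le
    · refine le_trans ?_ (le_tgt H K 0 1 0 rfl)
      show H ≤ H.lowerCentralSeries 0 ⊓ ⊤
      simp
    · refine le_trans ?_ (le_tgt H K 0 0 1 rfl)
      show K ≤ ⊤ ⊓ K.lowerCentralSeries 0
      simp
  | succ n ih =>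
    rw [Subgroup.lowerCentralSeries_succ]
    refine le_trans (Subgroup.commutator_mono ih le_rfl) ?_
    unfold tgt
    apply iSup_comm_le
    intro i
    apply iSup_comm_le
    intro j
    apply iSup_comm_le
    intro hij
    apply comm_sup_le
    · refine le_trans ?_ (le_tgt H K (n + 1) (i + 1) j (by omega))
      apply le_inf
      · exact le_trans (Subgroup.commutator_mono inf_le_left le_rfl) (comm_ser_le H i)
      · exact le_trans (Subgroup.commutator_mono inf_le_right le_rfl)
          (Subgroup.commutator_le_left _ _)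
    · refine le_trans ?_ (le_tgt H K (n + 1) i (j + 1) (by omega))
      apply le_inf
      · exact le_trans (Subgroup.commutator_mono inf_le_left le_rfl)
          (Subgroup.commutator_le_left _ _)
      · exact le_trans (Subgroup.commutator_mono inf_le_right le_rfl) (comm_ser_le K j)

end

/-- If `H` and `K` are normal subgroups of a finite group with `H` nilpotent of class at most `c` and `K` nilpotent of class at most `d` (the terms with index `c`, respectively `d`, of their lower central series are trivial, indices starting at `0`), then `HK` is nilpotent of class at most `c + d`. -/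
theorem result {G : Type*} [Group G] [Finite G] (H K : Subgroup G) [H.Normal] [K.Normal] (c d : ℕ) (hH : H.lowerCentralSeries c = ⊥) (hK : K.lowerCentralSeries d = ⊥) : (H ⊔ K).lowerCentralSeries (c + d) = ⊥ := by
  rw [eq_bot_iff]
  refine le_trans (lcs_le_tgt H K (c + d)) ?_
  unfold tgt
  refine iSup_le fun i => iSup_le fun j => iSup_le fun hij => ?_
  by_cases hi : c + 1 ≤ i
  · refine le_trans inf_le_left ?_
    obtain ⟨i', rfl⟩ : ∃ i', i = i' + 1 := ⟨i - 1, by omega⟩
    show H.lowerCentralSeries i' ≤ ⊥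
    rw [← hH]
    exact H.lowerCentralSeries_antitone (by omega)
  · refine le_trans inf_le_right ?_
    obtain ⟨j', rfl⟩ : ∃ j', j = j' + 1 := ⟨j - 1, by omega⟩
    show K.lowerCentralSeries j' ≤ ⊥
    rw [← hK]
    exact K.lowerCentralSeries_antitone (by omega)

end Cfsg.Agent.S4204
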