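import Cfsg.Statements.S4209
import Cfsg.Agent.Lib.Helper69.RegClass

set_option autoImplicit false
open Cfsg

namespace Cfsg.Agent.S4209

/-- A finite `p`-group of nilpotency class less than `p` (the term of index `p - 1` of the lower central series of the whole group, indexed from `0`, is trivial) is a regular `p`-group. -/
theorem result {G : Type*} [Group G] [Finite G] {p : ℕ} [Fact p.Prime] (hG : IsPGroup p G) (hcl : (⊤ : Subgroup G).lowerCentralSeries (p - 1) = ⊥) : Cfsg.IsRegularPGroup p G :=
  Cfsg.Agent.Lib.Helper69.RegClass.isRegular_of_class_lt hG hcl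

end Cfsg.Agent.S4209
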