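import Cfsg.Statements.S4211
import Mathlib

set_option autoImplicit false
open Cfsg

namespace Cfsg.Agent.S4211

variable {G : Type*} [Group G]

/-- if `c = [a,b]` commutes with `a` and `b`, then `[a^n,b] = c^n`. -/
theorem pow_comm_aux (a b c : G) (hc : a * b = c * b * a) (hca : Commute c a)
    (n : ℕ) : a ^ n * b = c ^ n * b * a ^ n := by
  induction n with
  | zero => simp
  | succ n ih =>
    calc a ^ (n + 1) * b = a * (a ^ n * b) := by rw [pow_succ']; group
      _ = a * (c ^ n * b * a ^ n) := by rw [ih]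
      _ = (a * c ^ n) * b * a ^ n := by group
      _ = (c ^ n * a) * b * a ^ n := by rw [(hca.pow_left n).eq]
      _ = c ^ n * (a * b) * a ^ n := by group
      _ = c ^ n * (c * b * a) * a ^ n := by rw [hc]
      _ = c ^ (n + 1) * b * a ^ (n + 1) := by rw [pow_succ, pow_succ']; group

theorem pow_mul_comm_aux (x y z : G) (h : y * x = x * y * z) (hzy : Commute z y)
    (n : ℕ) : y ^ n * x = x * y ^ n * z ^ n := by
  induction n with
  | zero => simp
  | succ n ih =>
    calc y ^ (n + 1) * x = y * (y ^ n * x) := by rw [pow_succ']; group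
      _ = y * (x * y ^ n * z ^ n) := by rw [ih]
      _ = (y * x) * y ^ n * z ^ n := by group
      _ = x * y * (z * y ^ n) * z ^ n := by rw [h]; group
      _ = x * y * (y ^ n * z) * z ^ n := by rw [(hzy.pow_right n).eq]
      _ = x * y ^ (n + 1) * z ^ (n + 1) := by rw [pow_succ', pow_succ']; group

/-- power of a product in class 2. -/
theorem mul_pow_class2 (x y z : G) (h : y * x = x * y * z) (hzx : Commute z x) (hzy : Commute z y)
    (n : ℕ) : (x * y) ^ n = x ^ n * y ^ n * z ^ (∑ i ∈ Finset.range n, i) := by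
  induction n with
  | zero => simp
  | succ n ih =>
    have h1 := pow_mul_comm_aux x y z h hzy n
    set T := ∑ i ∈ Finset.range n, i with hT
    have hzTx : Commute (z ^ T) x := hzx.pow_left T
    have hzTy : Commute (z ^ T) y := hzy.pow_left T
    have hzny : Commute (z ^ n) y := hzy.pow_left n
    calc (x * y) ^ (n + 1) = (x * y) ^ n * (x * y) := pow_succ _ _
      _ = x ^ n * y ^ n * z ^ T * (x * y) := by rw [ih]
      _ = x ^ n * y ^ n * (z ^ T * x) * y := by group
      _ = x ^ n * y ^ n * (x * z ^ T) * y := by rw [hzTx.eq]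
      _ = x ^ n * (y ^ n * x) * (z ^ T * y) := by group
      _ = x ^ n * (x * y ^ n * z ^ n) * (y * z ^ T) := by rw [h1, hzTy.eq]
      _ = x ^ n * x * y ^ n * (z ^ n * y) * z ^ T := by group
      _ = x ^ n * x * y ^ n * (y * z ^ n) * z ^ T := by rw [hzny.eq]
      _ = (x ^ n * x) * (y ^ n * y) * (z ^ n * z ^ T) := by
          simp only [mul_assoc]
      _ = x ^ (n + 1) * y ^ (n + 1) * z ^ (∑ i ∈ Finset.range (n + 1), i) := by
          rw [Finset.sum_range_succ, ← hT, ← pow_add, add_comm, ← pow_succ, ← pow_succ]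

/-- arithmetic: if `p ∤ C(p^β', 2)` then `p = 2` and `β' = 1`. -/
theorem arith_aux (p β' T : ℕ) (hp : p.Prime) (hT : T * 2 = p ^ β' * (p ^ β' - 1)) (hpT : ¬ p ∣ T) :
    p = 2 ∧ β' = 1 := by
  rcases Nat.eq_zero_or_pos β' with rfl | hpos
  · exfalso
    simp at hT
    subst hT
    exact hpT (dvd_zero p)
  obtain ⟨β'', rfl⟩ : ∃ β'', β' = β'' + 1 := ⟨β' - 1, by omega⟩
  have hp2 : p = 2 := by
    by_contra hne
    apply hpT
    have h1 : p ∣ T * 2 := by
      rw [hT, pow_succ]
      exact Dvd.dvd.mul_right (Dvd.intro_left _ rfl) _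
    rcases (Nat.Prime.dvd_mul hp).mp h1 with h | h
    · exact h
    · exact absurd ((Nat.prime_dvd_prime_iff_eq hp Nat.prime_two).mp h) hne
  subst hp2
  refine ⟨rfl, ?_⟩
  by_contra hne
  obtain ⟨β3, rfl⟩ : ∃ β3, β'' = β3 + 1 := ⟨β'' - 1, by omega⟩
  apply hpT
  have h2 : (2 : ℕ) ^ (β3 + 1 + 1) = 2 * (2 * 2 ^ β3) := by ring
  rw [h2] at hT
  have h3 : T = (2 * 2 ^ β3) * (2 * (2 * 2 ^ β3) - 1) := by
    have : T * 2 = ((2 * 2 ^ β3) * (2 * (2 * 2 ^ β3) - 1)) * 2 := by rw [hT]; ring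
    exact Nat.eq_of_mul_eq_mul_right (by norm_num) this
  rw [h3, mul_assoc]
  exact Dvd.intro _ rfl

section minimal
variable {H : Type*} [Group H] [Finite H]

omit [Finite H] in
theorem comm_mem_zpowers (hn : ∀ K : Subgroup H, K.Normal) (a b : H) :
    a * b * a⁻¹ * b⁻¹ ∈ Subgroup.zpowers a ∧ a * b * a⁻¹ * b⁻¹ ∈ Subgroup.zpowers b := by
  constructor
  · have h1 : b * a⁻¹ * b⁻¹ ∈ Subgroup.zpowers a :=
      (hn (Subgroup.zpowers a)).conj_mem a⁻¹ (inv_mem (Subgroup.mem_zpowers a)) b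
    have h2 := mul_mem (Subgroup.mem_zpowers a) h1
    convert h2 using 1; group
  · have h1 : a * b * a⁻¹ ∈ Subgroup.zpowers b :=
      (hn (Subgroup.zpowers b)).conj_mem b (Subgroup.mem_zpowers b) a
    exact mul_mem h1 (inv_mem (Subgroup.mem_zpowers b))

omit [Finite H] in
theorem comm_commute (hn : ∀ K : Subgroup H, K.Normal) (a b : H) :
    Commute (a * b * a⁻¹ * b⁻¹) a ∧ Commute (a * b * a⁻¹ * b⁻¹) b := by
  obtain ⟨h1, h2⟩ := comm_mem_zpowers hn a b
  constructor
  · obtain ⟨k, hk⟩ := Subgroup.mem_zpowers_iff.mp h1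
    rw [← hk]
    exact (Commute.refl a).zpow_left k
  · obtain ⟨k, hk⟩ := Subgroup.mem_zpowers_iff.mp h2
    rw [← hk]
    exact (Commute.refl b).zpow_left k

/-- for a pair with `a` of minimal order not commuting with `b`, the commutator has prime
order `p` for each prime `p ∣ o(a)`. -/
theorem prime_order (hn : ∀ K : Subgroup H, K.Normal) (a b : H) (hab : a * b ≠ b * a)
    (hmin : ∀ a' : H, orderOf a' < orderOf a → a' * b = b * a') (p : ℕ) (hp : p.Prime)
    (hpa : p ∣ orderOf a) : orderOf (a * b * a⁻¹ * b⁻¹) = p := by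
  obtain ⟨hca, hcb⟩ := comm_commute hn a b
  set c := a * b * a⁻¹ * b⁻¹ with hc
  have hc1 : c ≠ 1 := by
    intro h
    apply hab
    have : a * b = c * b * a := by rw [hc]; group
    rw [this, h, one_mul]
  have hapos : 0 < orderOf a := orderOf_pos a
  have h1 : orderOf (a ^ p) < orderOf a := by
    rw [orderOf_pow_of_dvd hp.ne_zero hpa]
    exact Nat.div_lt_self hapos hp.one_lt
  have h2 := hmin _ h1
  have h3 := pow_comm_aux a b c (by rw [hc]; group) hca p
  rw [h2] at h3
  have h4 : c ^ p = 1 := by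
    have : 1 * (b * a ^ p) = c ^ p * (b * a ^ p) := by rw [one_mul, ← mul_assoc]; exact h3
    exact (mul_right_cancel this).symm
  have h5 := orderOf_dvd_of_pow_eq_one h4
  rcases (Nat.dvd_prime hp).mp h5 with h | h
  · exact absurd (orderOf_eq_one_iff.mp h) hc1
  · exact h

theorem order_four (hn : ∀ K : Subgroup H, K.Normal) (a b : H) (hab : a * b ≠ b * a)
    (hmin : ∀ a' b' : H, a' * b' ≠ b' * a' → orderOf a + orderOf b ≤ orderOf a' + orderOf b')
    (hle : orderOf b ≤ orderOf a) :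
    orderOf a = 4 ∧ orderOf b = 4 ∧ orderOf (a * b * a⁻¹ * b⁻¹) = 2 := by
  classical
  obtain ⟨hca, hcb⟩ := comm_commute hn a b
  obtain ⟨hcza, hczb⟩ := comm_mem_zpowers hn a b
  have hmina : ∀ a' : H, orderOf a' < orderOf a → a' * b = b * a' := by
    intro a' h
    by_contra hne
    have := hmin a' b hne
    omega
  have hminb : ∀ b' : H, orderOf b' < orderOf b → b' * a = a * b' := by
    intro b' h
    by_contra hne
    have := hmin a b' (fun h' => hne h'.symm)
    omega
  have hpa := prime_order hn a b hab hmina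
  have hpb := prime_order hn b a (fun h => hab h.symm) hminb
  have hinv : b * a * b⁻¹ * a⁻¹ = (a * b * a⁻¹ * b⁻¹)⁻¹ := by group
  rw [hinv, orderOf_inv] at hpb
  set c := a * b * a⁻¹ * b⁻¹ with hc
  have hab' : a * b = c * b * a := by rw [hc]; group
  have hc1 : c ≠ 1 := by
    intro h
    apply hab
    rw [hab', h, one_mul]
  have ha1 : orderOf a ≠ 1 := by
    intro h
    rw [orderOf_eq_one_iff] at h
    apply hab; rw [h]; simp
  have hb1 : orderOf b ≠ 1 := by
    intro h
    rw [orderOf_eq_one_iff] at h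
    apply hab; rw [h]; simp
  -- the prime
  obtain ⟨p, hpdef⟩ : ∃ p, p = (orderOf a).minFac := ⟨_, rfl⟩
  have hp : p.Prime := by rw [hpdef]; exact Nat.minFac_prime ha1
  have hoc : orderOf c = p := hpa p hp (by rw [hpdef]; exact Nat.minFac_dvd _)
  have hoa : orderOf a = p ^ (orderOf a).primeFactorsList.length :=
    Nat.eq_prime_pow_of_unique_prime_dvd (orderOf_pos a).ne'
      (fun {d} hd hda => by rw [← hoc, hpa d hd hda])
  have hob : orderOf b = p ^ (orderOf b).primeFactorsList.length :=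
    Nat.eq_prime_pow_of_unique_prime_dvd (orderOf_pos b).ne'
      (fun {d} hd hdb => by rw [← hoc, hpb d hd hdb])
  obtain ⟨α, hα⟩ : ∃ α, orderOf a = p ^ α := ⟨_, hoa⟩
  obtain ⟨β, hβ⟩ : ∃ β, orderOf b = p ^ β := ⟨_, hob⟩
  clear hoa hob
  have hα0 : α ≠ 0 := by rintro rfl; exact ha1 (by simpa using hα)
  have hβ0 : β ≠ 0 := by rintro rfl; exact hb1 (by simpa using hβ)
  obtain ⟨α', rfl⟩ : ∃ α', α = α' + 1 := ⟨α - 1, by omega⟩
  obtain ⟨β', rfl⟩ : ∃ β', β = β' + 1 := ⟨β - 1, by omega⟩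
  have hβα : β' ≤ α' := by
    rw [hα, hβ] at hle
    have := (Nat.pow_le_pow_iff_right hp.one_lt).mp hle
    omega
  -- exponents
  obtain ⟨r, hr⟩ : ∃ r : ℕ, a ^ r = c := by
    have := hcza
    rw [← mem_powers_iff_mem_zpowers] at this
    exact this
  obtain ⟨s, hs⟩ : ∃ s : ℕ, b ^ s = c := by
    have := hczb
    rw [← mem_powers_iff_mem_zpowers] at this
    exact this
  have hcp : c ^ p = 1 := by rw [← hoc]; exact pow_orderOf_eq_one c
  have h1 : p ^ α' ∣ r := by
    have : p ^ (α' + 1) ∣ r * p := by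
      rw [← hα]; apply orderOf_dvd_of_pow_eq_one; rw [pow_mul, hr, hcp]
    rw [pow_succ] at this
    exact Nat.dvd_of_mul_dvd_mul_right hp.pos this
  obtain ⟨r', rfl⟩ := h1
  have h2 : p ^ β' ∣ s := by
    have : p ^ (β' + 1) ∣ s * p := by
      rw [← hβ]; apply orderOf_dvd_of_pow_eq_one; rw [pow_mul, hs, hcp]
    rw [pow_succ] at this
    exact Nat.dvd_of_mul_dvd_mul_right hp.pos this
  obtain ⟨s', rfl⟩ := h2
  have hbpow : b ^ (p ^ (β' + 1)) = 1 := by rw [← hβ]; exact pow_orderOf_eq_one b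
  have hs' : ¬ p ∣ s' := by
    rintro ⟨s'', rfl⟩
    apply hc1
    rw [← hs, ← mul_assoc, ← pow_succ, pow_mul, hbpow, one_pow]
  obtain ⟨u, -, hu⟩ := Nat.exists_mul_mod_eq_one_of_coprime
    ((Nat.Prime.coprime_iff_not_dvd hp).mpr hs').symm hp.one_lt
  have hbn : b ^ (p ^ β') = c ^ u := by
    rw [← hs, ← pow_mul]
    have h3 : p ^ β' * s' * u = p ^ (β' + 1) * (s' * u / p) + p ^ β' := by
      have := Nat.div_add_mod (s' * u) p
      rw [hu] at this
      calc p ^ β' * s' * u = p ^ β' * (s' * u) := by ring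
        _ = p ^ β' * (p * (s' * u / p) + 1) := by rw [this]
        _ = _ := by ring
    rw [h3, pow_add, pow_mul, hbpow, one_pow, one_mul]
  -- w
  obtain ⟨k, hk⟩ : ∃ k : ℕ, k = p ^ (α' - β') * r' * u := ⟨_, rfl⟩
  obtain ⟨w, hw⟩ : ∃ w : H, w = a ^ k := ⟨_, rfl⟩
  have hwn : w ^ (p ^ β') = b ^ (p ^ β') := by
    rw [hbn, ← hr, hw, ← pow_mul, ← pow_mul]
    congr 1
    rw [hk]
    have : p ^ α' = p ^ (α' - β') * p ^ β' := by rw [← pow_add, Nat.sub_add_cancel hβα]
    rw [this]; ring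
  have hwb : w * b = c ^ k * b * w := by rw [hw]; exact pow_comm_aux a b c hab' hca k
  have hcw : Commute c w := by rw [hw]; exact hca.pow_right k
  have hwa : Commute w a := by rw [hw]; exact (Commute.refl a).pow_left k
  obtain ⟨z, hz⟩ : ∃ z : H, z = (c ^ k)⁻¹ := ⟨_, rfl⟩
  have hzb : Commute z b := by rw [hz]; exact (hcb.pow_left k).inv_left
  have hzw : Commute z w⁻¹ := by rw [hz]; exact ((hcw.pow_left k).inv_left).inv_right
  have hrel : w⁻¹ * b = b * w⁻¹ * z := by
    have h3 : b * w⁻¹ = w⁻¹ * c ^ k * b := by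
      have : w⁻¹ * (w * b) * w⁻¹ = w⁻¹ * (c ^ k * b * w) * w⁻¹ := by rw [hwb]
      calc b * w⁻¹ = w⁻¹ * (w * b) * w⁻¹ := by group
        _ = w⁻¹ * (c ^ k * b * w) * w⁻¹ := this
        _ = w⁻¹ * c ^ k * b := by group
    have h4 : w⁻¹ * c ^ k = c ^ k * w⁻¹ := ((hcw.pow_left k).inv_right).eq.symm
    rw [h4] at h3
    calc w⁻¹ * b = (c ^ k)⁻¹ * (c ^ k * w⁻¹ * b) := by group
      _ = (c ^ k)⁻¹ * (b * w⁻¹) := by rw [h3]
      _ = z * (b * w⁻¹) := by rw [hz]
      _ = (z * b) * w⁻¹ := by group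
      _ = (b * z) * w⁻¹ := by rw [hzb.eq]
      _ = b * (z * w⁻¹) := by group
      _ = b * (w⁻¹ * z) := by rw [hzw.eq]
      _ = b * w⁻¹ * z := by group
  have hpow := mul_pow_class2 b w⁻¹ z hrel hzb hzw (p ^ β')
  rw [inv_pow, hwn, mul_inv_cancel, one_mul] at hpow
  have hne : (b * w⁻¹) ^ (p ^ β') ≠ 1 := by
    intro h
    have h5 : orderOf (b * w⁻¹) ≤ p ^ β' := orderOf_le_of_pow_eq_one (pow_pos hp.pos _) h
    have h6 : p ^ β' < p ^ (β' + 1) := Nat.pow_lt_pow_right hp.one_lt (by omega)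
    have h7 : a * (b * w⁻¹) ≠ (b * w⁻¹) * a := by
      intro h'
      apply hab
      have h8 : w⁻¹ * a = a * w⁻¹ := (hwa.inv_left).eq
      have : a * b * w⁻¹ = b * a * w⁻¹ := by
        calc a * b * w⁻¹ = a * (b * w⁻¹) := by group
          _ = b * w⁻¹ * a := h'
          _ = b * (w⁻¹ * a) := by group
          _ = b * (a * w⁻¹) := by rw [h8]
          _ = b * a * w⁻¹ := by group
      exact mul_right_cancel this
    have := hmin a (b * w⁻¹) h7
    omega
  rw [hpow] at hne
  have hzp : z ^ p = 1 := by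
    rw [hz, inv_pow, ← pow_mul, mul_comm, pow_mul, hcp, one_pow, inv_one]
  have hpT : ¬ p ∣ ∑ i ∈ Finset.range (p ^ β'), i := by
    rintro ⟨t, ht⟩
    apply hne
    rw [ht, pow_mul, hzp, one_pow]
  obtain ⟨hp2, hβ1⟩ := arith_aux p β' _ hp (Finset.sum_range_id_mul_two _) hpT
  subst hp2
  subst hβ1
  have hαβ : α' = 1 := by
    by_contra hne'
    apply hne
    have : 2 ∣ k := by
      rw [hk]
      have : 2 ∣ 2 ^ (α' - 1) := dvd_pow_self 2 (by omega)
      exact Dvd.dvd.mul_right (Dvd.dvd.mul_right this _) _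
    obtain ⟨k', hk'⟩ := this
    rw [hz, hk', pow_mul, hcp]; simp
  subst hαβ
  exact ⟨by rw [hα]; norm_num, by rw [hβ]; norm_num, hoc⟩

theorem exists_quat_pair (hn : ∀ K : Subgroup H, K.Normal) (hna : ∃ x y : H, x * y ≠ y * x) :
    ∃ a b : H, a * b * a⁻¹ * b⁻¹ = a * a ∧ b * b = a * a ∧ a * a ≠ 1 ∧
      (a * a) * (a * a) = 1 := by
  classical
  have hex : ∃ n, ∃ a b : H, a * b ≠ b * a ∧ orderOf a + orderOf b = n := by
    obtain ⟨x, y, hxy⟩ := hna
    exact ⟨_, x, y, hxy, rfl⟩
  obtain ⟨a, b, hab, hsum⟩ := Nat.find_spec hex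
  have hmin : ∀ a' b' : H, a' * b' ≠ b' * a' →
      orderOf a + orderOf b ≤ orderOf a' + orderOf b' := by
    intro a' b' h
    rw [hsum]
    exact Nat.find_min' hex ⟨a', b', h, rfl⟩
  have key : orderOf a = 4 ∧ orderOf b = 4 ∧ orderOf (a * b * a⁻¹ * b⁻¹) = 2 := by
    rcases le_total (orderOf b) (orderOf a) with hle | hle
    · exact order_four hn a b hab hmin hle
    · have hmin' : ∀ a' b' : H, a' * b' ≠ b' * a' →
          orderOf b + orderOf a ≤ orderOf a' + orderOf b' := by
        intro a' b' h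
        have := hmin a' b' h
        omega
      obtain ⟨h1, h2, h3⟩ := order_four hn b a (fun h => hab h.symm) hmin' hle
      have hinv : b * a * b⁻¹ * a⁻¹ = (a * b * a⁻¹ * b⁻¹)⁻¹ := by group
      rw [hinv, orderOf_inv] at h3
      exact ⟨h2, h1, h3⟩
  obtain ⟨hoa, hob, hoc⟩ := key
  obtain ⟨hcza, hczb⟩ := comm_mem_zpowers hn a b
  have haux : ∀ x c : H, orderOf x = 4 → orderOf c = 2 → c ∈ Subgroup.zpowers x →
      c = x * x := by
    intro x c hx hc hcx
    rw [← mem_powers_iff_mem_zpowers] at hcx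
    obtain ⟨r, hr⟩ := hcx
    have hr' : x ^ r = c := hr
    subst hr'
    have hx4 : x ^ 4 = 1 := by rw [← hx]; exact pow_orderOf_eq_one x
    have hmod := pow_eq_pow_mod r hx4
    have hlt : r % 4 < 4 := Nat.mod_lt _ (by norm_num)
    rw [hmod] at hc ⊢
    have hcc : (x ^ (r % 4)) ^ 2 = 1 := by rw [← hc]; exact pow_orderOf_eq_one _
    interval_cases (r % 4)
    · simp at hc
    · rw [pow_one] at hc; omega
    · rw [pow_two]
    · exfalso
      rw [← pow_mul] at hcc
      have : orderOf x ∣ 6 := orderOf_dvd_of_pow_eq_one hcc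
      rw [hx] at this
      omega
  have hca := haux a _ hoa hoc hcza
  have hcb := haux b _ hob hoc hczb
  refine ⟨a, b, hca, by rw [← hcb, hca], ?_, ?_⟩
  · intro h
    have : orderOf a ∣ 2 := orderOf_dvd_of_pow_eq_one (by rw [pow_two]; exact h)
    rw [hoa] at this; omega
  · have : a ^ 4 = 1 := by rw [← hoa]; exact pow_orderOf_eq_one a
    calc a * a * (a * a) = a ^ 4 := by simp only [pow_succ, pow_zero, one_mul, mul_assoc]
      _ = 1 := this

end minimal

/-- the quaternion relations give an injective homomorphism from `Q₈`. -/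
theorem quat_hom (x y c : G) (hc2 : c * c = 1) (hx : x * x = c) (hy : y * y = c)
    (hcomm : x * y * x⁻¹ * y⁻¹ = c) (hc1 : c ≠ 1) :
    ∃ F : QuaternionGroup 2 →* G, Function.Injective F ∧ x ∈ F.range ∧ y ∈ F.range ∧
      ∀ g ∈ F.range, (∃ k : ℕ, g = x ^ k) ∨ (∃ k : ℕ, g = y * x ^ k) := by
  have hx4 : x ^ (2 * 2) = 1 := by
    rw [pow_mul, pow_two, pow_two, hx, hc2]
  have hcy : c * y = y * c := by rw [← hy, mul_assoc]
  have hcx : c * x = x * c := by rw [← hx, mul_assoc]
  have hxy : x * y = y * x⁻¹ := by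
    have h1 : x * y = c * y * x := by rw [← hcomm]; group
    have h2 : x⁻¹ = x * x * x := by
      rw [inv_eq_iff_eq_inv, eq_comm, inv_eq_iff_mul_eq_one]
      calc x * x * x * x = (x * x) * (x * x) := by group
        _ = 1 := by rw [hx, hc2]
    rw [h1, hcy, h2, ← hx]; group
  have hpy : ∀ k : ℕ, x ^ k * y = y * (x ^ k)⁻¹ := by
    intro k
    induction k with
    | zero => simp
    | succ k ih =>
      calc x ^ (k + 1) * y = x * (x ^ k * y) := by rw [pow_succ']; group
        _ = x * y * (x ^ k)⁻¹ := by rw [ih]; group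
        _ = y * (x ^ k * x)⁻¹ := by rw [hxy]; group
        _ = y * (x ^ (k + 1))⁻¹ := by rw [pow_succ]
  let e : ZMod (2 * 2) → G := fun i => x ^ i.val
  have he_add : ∀ i j, e (i + j) = e i * e j := by
    intro i j
    show x ^ (i + j).val = x ^ i.val * x ^ j.val
    rw [ZMod.val_add, ← pow_add, ← pow_eq_pow_mod _ hx4]
  have he_comm : ∀ i j, e i * e j = e j * e i := by
    intro i j
    rw [← he_add, ← he_add, add_comm]
  have he_sub : ∀ i j, e (j - i) = (e i)⁻¹ * e j := by
    intro i j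
    have := he_add (j - i) i
    rw [sub_add_cancel] at this
    rw [this, he_comm]; group
  have he_y : ∀ i, e i * y = y * (e i)⁻¹ := fun i => hpy i.val
  have he2 : e ((2 : ℕ) : ZMod (2 * 2)) = c := by
    show x ^ (((2 : ℕ) : ZMod (2 * 2))).val = c
    rw [ZMod.val_natCast]
    norm_num
    rw [pow_two, hx]
  have hce : ∀ i, c * (e i)⁻¹ = (e i)⁻¹ * c := by
    intro i
    have h1 : Commute c (x ^ i.val) := (show Commute c x from hcx).pow_right _
    exact h1.inv_right.eq
  let f : QuaternionGroup 2 → G := fun q =>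
    match q with
    | QuaternionGroup.a i => e i
    | QuaternionGroup.xa i => y * e i
  have hf : ∀ u v, f (u * v) = f u * f v := by
    rintro (i | i) (j | j)
    · show e (i + j) = e i * e j
      exact he_add i j
    · show y * e (j - i) = e i * (y * e j)
      rw [he_sub, ← mul_assoc (e i), he_y]; group
    · show y * e (i + j) = y * e i * e j
      rw [he_add]; group
    · show e (((2 : ℕ) : ZMod (2 * 2)) + j - i) = y * e i * (y * e j)
      rw [he_sub, he_add, he2]
      have : y * e i * (y * e j) = y * (e i * y) * e j := by group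
      rw [this, he_y, ← hy]
      calc (e i)⁻¹ * (y * y * e j) = (y * y) * ((e i)⁻¹ * e j) := by
            rw [hy, ← mul_assoc, ← hce]; group
        _ = y * (y * (e i)⁻¹) * e j := by group
  let F : QuaternionGroup 2 →* G := MonoidHom.mk' f hf
  have hxc : x ≠ 1 := by
    rintro rfl
    apply hc1; rw [← hx, one_mul]
  refine ⟨F, ?_, ⟨QuaternionGroup.a 1, ?_⟩, ⟨QuaternionGroup.xa 0, ?_⟩, ?_⟩
  · rw [injective_iff_map_eq_one]
    rintro (i | i) hq
    · have h : x ^ i.val = 1 := hq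
      have hlt : i.val < 2 * 2 := ZMod.val_lt i
      have ho : orderOf x = 2 ^ (1 + 1) := by
        have : Fact (Nat.Prime 2) := ⟨Nat.prime_two⟩
        apply orderOf_eq_prime_pow
        · rw [pow_one, pow_two, hx]; exact hc1
        · exact hx4
      have h4 : orderOf x ∣ i.val := orderOf_dvd_of_pow_eq_one h
      rw [ho] at h4
      have hi0 : i.val = 0 := by
        obtain ⟨d, hd⟩ := h4
        rcases Nat.eq_zero_or_pos d with rfl | hd0
        · simpa using hd
        · exfalso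
          have : 2 ^ (1 + 1) * 1 ≤ 2 ^ (1 + 1) * d := Nat.mul_le_mul_left _ hd0
          omega
      have hi : i = 0 := (ZMod.val_eq_zero i).mp hi0
      rw [hi]; rfl
    · exfalso
      have h : y * x ^ i.val = 1 := hq
      have hyx : y = (x ^ i.val)⁻¹ := eq_inv_of_mul_eq_one_left h
      apply hc1
      rw [← hcomm, hyx]
      have h1 : Commute x (x ^ i.val)⁻¹ := ((Commute.refl x).pow_right _).inv_right
      rw [h1.eq]; group
  · show x ^ ((1 : ZMod (2 * 2))).val = x
    have : ((1 : ZMod (2 * 2))).val = 1 := rfl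
    rw [this, pow_one]
  · show y * x ^ ((0 : ZMod (2 * 2))).val = y
    have : ((0 : ZMod (2 * 2))).val = 0 := rfl
    rw [this, pow_zero, mul_one]
  · rintro _ ⟨(i | i), rfl⟩
    · left; exact ⟨i.val, rfl⟩
    · right; exact ⟨i.val, rfl⟩

/-- A finite non-abelian group in which every subgroup is normal is the internal direct product of a subgroup isomorphic to the quaternion group of order `8`, an elementary abelian `2`-subgroup and an abelian subgroup of odd order. -/
theorem result {G : Type*} [Group G] [Finite G] (hna : ¬ IsMulCommutative G) (hn : ∀ H : Subgroup G, H.Normal) : ∃ Q E A : Subgroup G, Nonempty (Q ≃* QuaternionGroup 2) ∧ Cfsg.IsElementaryAbelian 2 E ∧ IsMulCommutative A ∧ Odd (Nat.card A) ∧ E ⊓ A = ⊥ ∧ Q ⊓ (E ⊔ A) = ⊥ ∧ Q ⊔ (E ⊔ A) = ⊤ := by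
  classical
  have hna' : ∃ x y : G, x * y ≠ y * x := by
    by_contra h
    push Not at h
    exact hna ⟨⟨h⟩⟩
  obtain ⟨a, b, hcomm, hbb, haa1, ha4⟩ := exists_quat_pair hn hna'
  obtain ⟨c, hc⟩ : ∃ c : G, c = a * a := ⟨_, rfl⟩
  rw [← hc] at hcomm hbb haa1 ha4
  obtain ⟨F, hFinj, haQ, hbQ, hQ⟩ := quat_hom a b c ha4 hc.symm hbb hcomm haa1
  obtain ⟨Q, hQdef⟩ : ∃ Q : Subgroup G, Q = F.range := ⟨_, rfl⟩
  rw [← hQdef] at haQ hbQ hQ
  -- basic relations
  have hab : a * b ≠ b * a := by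
    intro h
    apply haa1
    rw [← hcomm, h]; group
  have hcQ : c ∈ Q := by rw [hc]; exact mul_mem haQ haQ
  have hca : c * a = a * c := by rw [hc, mul_assoc]
  have hcb : c * b = b * c := by rw [← hbb, mul_assoc]
  have hainv : a⁻¹ = c * a :=
    inv_eq_of_mul_eq_one_left (show c * a * a = 1 by rw [mul_assoc, ← hc, ha4])
  have hbinv : b⁻¹ = c * b :=
    inv_eq_of_mul_eq_one_left (show c * b * b = 1 by rw [mul_assoc, hbb, ha4])
  have hab' : a * b = c * b * a := by rw [← hcomm]; group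
  have h_ab_inv : a * b⁻¹ = b * a := by
    calc a * b⁻¹ = (a * c) * b := by rw [hbinv]; group
      _ = (c * a) * b := by rw [hca]
      _ = c * (a * b) := by group
      _ = c * (c * b * a) := by rw [hab']
      _ = (c * c) * b * a := by group
      _ = b * a := by rw [ha4, one_mul]
  have h_ba_inv : b * a⁻¹ = a * b := by
    calc b * a⁻¹ = (b * c) * a := by rw [hainv]; group
      _ = (c * b) * a := by rw [hcb]
      _ = a * b := hab'.symm
  have ha4' : a ^ 4 = 1 := by
    calc a ^ 4 = a * a * (a * a) := by simp only [pow_succ, pow_zero, one_mul, mul_assoc]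
      _ = 1 := by rw [← hc, ha4]
  -- the centralizer of Q
  obtain ⟨C, hCdef⟩ : ∃ C : Subgroup G, C = Subgroup.centralizer {a, b} := ⟨_, rfl⟩
  have hC : ∀ x, x ∈ C ↔ x * a = a * x ∧ x * b = b * x := by
    intro x
    rw [hCdef, Subgroup.mem_centralizer_iff]
    constructor
    · intro h
      exact ⟨(h a (by simp)).symm, (h b (by simp)).symm⟩
    · rintro ⟨h1, h2⟩ y hy
      rcases hy with rfl | rfl
      · exact h1.symm
      · exact h2.symm
  have hconj : ∀ x : G, x * x ≠ 1 → (x * x) * (x * x) = 1 → ∀ g : G,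
      g * x = x * g ∨ g * x = x⁻¹ * g := by
    intro x hx2 hx4 g
    have h1 : g * x * g⁻¹ ∈ Subgroup.zpowers x :=
      (hn (Subgroup.zpowers x)).conj_mem x (Subgroup.mem_zpowers x) g
    rw [← mem_powers_iff_mem_zpowers] at h1
    obtain ⟨r, hr⟩ := h1
    have hr' : x ^ r = g * x * g⁻¹ := hr
    have hx4' : x ^ 4 = 1 := by
      calc x ^ 4 = x * x * (x * x) := by simp only [pow_succ, pow_zero, one_mul, mul_assoc]
        _ = 1 := hx4
    rw [pow_eq_pow_mod r hx4'] at hr'
    have hlt : r % 4 < 4 := Nat.mod_lt _ (by norm_num)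
    interval_cases (r % 4)
    · exfalso; apply hx2
      have h2 : g * x * g⁻¹ = 1 := by rw [← hr', pow_zero]
      have : x = 1 := conj_eq_one_iff.mp h2
      rw [this, one_mul]
    · left
      rw [pow_one] at hr'
      calc g * x = (g * x * g⁻¹) * g := by group
        _ = x * g := by rw [← hr']
    · exfalso; apply hx2
      have h2 : g * (x * x) * g⁻¹ = 1 := by
        calc g * (x * x) * g⁻¹ = (g * x * g⁻¹) * (g * x * g⁻¹) := by group
          _ = x ^ 2 * x ^ 2 := by rw [hr']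
          _ = 1 := by rw [← pow_add]; exact hx4'
      exact conj_eq_one_iff.mp h2
    · right
      have h3 : x ^ 3 = x⁻¹ := by
        rw [eq_inv_iff_mul_eq_one, ← pow_succ]; exact hx4'
      rw [h3] at hr'
      rw [hr']; group
  have hQC : ∀ g : G, ∃ q ∈ Q, q * g ∈ C := by
    intro g
    have hb2 : b * b ≠ 1 := by rw [hbb]; exact haa1
    have hb4 : (b * b) * (b * b) = 1 := by rw [hbb]; exact ha4
    have ha2 : a * a ≠ 1 := by rw [← hc]; exact haa1
    have ha4'' : (a * a) * (a * a) = 1 := by rw [← hc]; exact ha4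
    rcases hconj a ha2 ha4'' g with h1 | h1 <;> rcases hconj b hb2 hb4 g with h2 | h2
    · exact ⟨1, one_mem Q, by rw [one_mul, hC]; exact ⟨h1, h2⟩⟩
    · refine ⟨a, haQ, ?_⟩
      rw [hC]
      constructor
      · rw [mul_assoc, h1]
      · calc a * g * b = a * (g * b) := by group
          _ = a * (b⁻¹ * g) := by rw [h2]
          _ = (a * b⁻¹) * g := by group
          _ = (b * a) * g := by rw [h_ab_inv]
          _ = b * (a * g) := by group
    · refine ⟨b, hbQ, ?_⟩
      rw [hC]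
      constructor
      · calc b * g * a = b * (g * a) := by group
          _ = b * (a⁻¹ * g) := by rw [h1]
          _ = (b * a⁻¹) * g := by group
          _ = (a * b) * g := by rw [h_ba_inv]
          _ = a * (b * g) := by group
      · rw [mul_assoc, h2]
    · refine ⟨b * a, mul_mem hbQ haQ, ?_⟩
      rw [hC]
      constructor
      · calc b * a * g * a = b * a * (g * a) := by group
          _ = b * a * (a⁻¹ * g) := by rw [h1]
          _ = b * g := by group
          _ = ((c * c) * b) * g := by rw [ha4, one_mul]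
          _ = (c * (c * b)) * g := by group
          _ = (c * (b * c)) * g := by rw [hcb]
          _ = (c * b * a * a) * g := by rw [hc]; group
          _ = (a * b * a) * g := by rw [← hab']
          _ = a * (b * a * g) := by group
      · calc b * a * g * b = b * a * (g * b) := by group
          _ = b * a * (b⁻¹ * g) := by rw [h2]
          _ = b * (a * b⁻¹) * g := by group
          _ = b * (b * a) * g := by rw [h_ab_inv]
          _ = b * (b * a * g) := by group
  have haC : a ∉ C := fun h => hab ((hC a).mp h).2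
  -- no element of order 4 in C
  have hC4 : ∀ x ∈ C, x ^ 4 = 1 → x ^ 2 = 1 := by
    intro x hxC hx4
    obtain ⟨hxa, hxb⟩ := (hC x).mp hxC
    have hcomm_ax : Commute a x := hxa.symm
    have hy4 : (a * x) ^ 4 = 1 := by
      rw [hcomm_ax.mul_pow, hx4, mul_one, ha4']
    have hmem : c ∈ Subgroup.zpowers (a * x) := by
      have h1 : b * (a * x) * b⁻¹ ∈ Subgroup.zpowers (a * x) :=
        (hn _).conj_mem _ (Subgroup.mem_zpowers _) b
      have h2 := mul_mem h1 (inv_mem (Subgroup.mem_zpowers (a * x)))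
      have h3 : x * b⁻¹ * x⁻¹ = b⁻¹ := by
        have : Commute x b⁻¹ := (show Commute x b from hxb).inv_right
        rw [this.eq]; group
      have h4 : c = b * (a * x) * b⁻¹ * (a * x)⁻¹ := by
        calc c = c⁻¹ := (inv_eq_of_mul_eq_one_left ha4).symm
          _ = b * a * b⁻¹ * a⁻¹ := by rw [← hcomm]; group
          _ = b * a * (x * b⁻¹ * x⁻¹) * a⁻¹ := by rw [h3]
          _ = b * (a * x) * b⁻¹ * (a * x)⁻¹ := by group
      rw [h4]; exact h2
    rw [← mem_powers_iff_mem_zpowers] at hmem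
    obtain ⟨r, hr⟩ := hmem
    have hr' : (a * x) ^ r = c := hr
    rw [pow_eq_pow_mod r hy4, hcomm_ax.mul_pow] at hr'
    have hlt : r % 4 < 4 := Nat.mod_lt _ (by norm_num)
    interval_cases (r % 4)
    · exfalso; apply haa1; rw [← hr']; simp
    · exfalso; apply haC
      rw [pow_one, pow_one, hc] at hr'
      have : x = a := mul_left_cancel hr'
      rw [← this]; exact hxC
    · have : a ^ 2 * x ^ 2 = a ^ 2 * 1 := by rw [hr', mul_one, pow_two, hc]
      exact mul_left_cancel this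
    · exfalso; apply haC
      have h1 : a ^ 2 * (a * x ^ 3) = a ^ 2 * 1 := by
        rw [mul_one, ← mul_assoc, ← pow_succ, hr', pow_two, hc]
      have h2 : a * x ^ 3 = 1 := mul_left_cancel h1
      have h3 : a = (x ^ 3)⁻¹ := eq_inv_of_mul_eq_one_left h2
      rw [h3]; exact inv_mem (pow_mem hxC 3)
  -- C is abelian
  have hCab : ∀ x ∈ C, ∀ y ∈ C, x * y = y * x := by
    intro x hx y hy
    by_contra hne
    have hnC : ∀ K : Subgroup ↥C, K.Normal := by
      intro K
      rw [← Subgroup.comap_map_eq_self_of_injective C.subtype_injective K]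
      exact (hn _).comap _
    obtain ⟨a', b', -, -, h3, h4⟩ := exists_quat_pair hnC
      ⟨⟨x, hx⟩, ⟨y, hy⟩, fun h => hne (congrArg Subtype.val h)⟩
    apply h3
    have h5 : (a' : G) ^ 4 = 1 := by
      have := congrArg Subtype.val h4
      calc (a' : G) ^ 4 = (a' : G) * a' * (a' * a') := by
            simp only [pow_succ, pow_zero, one_mul, mul_assoc]
        _ = 1 := this
    have h6 := hC4 a' a'.2 h5
    ext
    rw [pow_two] at h6
    exact h6
  -- exponent of C
  obtain ⟨e, m, hmodd, hem⟩ := Nat.exists_eq_two_pow_mul_odd (Nat.card_pos (α := G)).ne'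
  have hpow2 : ∀ j : ℕ, ∀ y ∈ C, y ^ (2 ^ j) = 1 → y ^ 2 = 1 := by
    intro j
    induction j with
    | zero => intro y _ hy; rw [pow_zero, pow_one] at hy; rw [hy, one_pow]
    | succ j ih =>
      intro y hyC hy
      rcases Nat.eq_zero_or_pos j with rfl | hj
      · simpa using hy
      · obtain ⟨j', rfl⟩ : ∃ j', j = j' + 1 := ⟨j - 1, by omega⟩
        apply ih y hyC
        have h1 : (y ^ (2 ^ j')) ^ 4 = 1 := by
          rw [← pow_mul, ← hy]; congr 1; ring
        have h2 := hC4 _ (pow_mem hyC _) h1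
        rw [← pow_mul] at h2
        have h3 : 2 ^ (j' + 1) = 2 ^ j' * 2 := pow_succ 2 j'
        rw [h3]; exact h2
  have hCm : ∀ x ∈ C, x ^ (m * 2) = 1 := by
    intro x hx
    rw [pow_mul]
    apply hpow2 e _ (pow_mem hx m)
    rw [← pow_mul, mul_comm, ← hem]
    exact pow_card_eq_one'
  have hodd1 : ∀ x : G, x ^ 2 = 1 → x ^ m = 1 → x = 1 := by
    intro x h2 hm
    obtain ⟨j, rfl⟩ := hmodd
    rw [pow_succ, pow_mul, h2, one_pow, one_mul] at hm
    exact hm
  obtain ⟨T, hT⟩ : ∃ T : Subgroup G, ∀ x, x ∈ T ↔ x ∈ C ∧ x ^ 2 = 1 :=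
    ⟨{ carrier := {x | x ∈ C ∧ x ^ 2 = 1}
       mul_mem' := by
         rintro x y ⟨hx, hx2⟩ ⟨hy, hy2⟩
         refine ⟨mul_mem hx hy, ?_⟩
         have : Commute x y := hCab x hx y hy
         rw [this.mul_pow, hx2, hy2, one_mul]
       one_mem' := ⟨one_mem C, one_pow 2⟩
       inv_mem' := by
         rintro x ⟨hx, hx2⟩
         exact ⟨inv_mem hx, by rw [inv_pow, hx2, inv_one]⟩ }, fun x => Iff.rfl⟩
  obtain ⟨A, hA⟩ : ∃ A : Subgroup G, ∀ x, x ∈ A ↔ x ∈ C ∧ x ^ m = 1 :=
    ⟨{ carrier := {x | x ∈ C ∧ x ^ m = 1}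
       mul_mem' := by
         rintro x y ⟨hx, hx2⟩ ⟨hy, hy2⟩
         refine ⟨mul_mem hx hy, ?_⟩
         have : Commute x y := hCab x hx y hy
         rw [this.mul_pow, hx2, hy2, one_mul]
       one_mem' := ⟨one_mem C, one_pow m⟩
       inv_mem' := by
         rintro x ⟨hx, hx2⟩
         exact ⟨inv_mem hx, by rw [inv_pow, hx2, inv_one]⟩ }, fun x => Iff.rfl⟩
  have hdec : ∀ x ∈ C, ∃ t ∈ T, ∃ α ∈ A, x = t * α := by
    intro x hx
    obtain ⟨j, hj⟩ := hmodd
    refine ⟨x ^ m, (hT _).mpr ⟨pow_mem hx m, by rw [← pow_mul]; exact hCm x hx⟩,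
      (x ^ (2 * j))⁻¹, (hA _).mpr ⟨inv_mem (pow_mem hx _), ?_⟩, ?_⟩
    · rw [inv_pow, inv_eq_one, ← pow_mul]
      have : 2 * j * m = (m * 2) * j := by ring
      rw [this, pow_mul, hCm x hx, one_pow]
    · rw [hj, pow_succ', mul_inv_cancel_right]
  -- the complement E of ⟨c⟩ in T
  have hcT : c ∈ T := (hT c).mpr ⟨(hC c).mpr ⟨hca, hcb⟩, by rw [pow_two]; exact ha4⟩
  obtain ⟨E, -, hEmax⟩ := Finite.exists_le_maximal (p := fun K : Subgroup G => K ≤ T ∧ c ∉ K)
    (a := ⊥) ⟨bot_le, by rw [Subgroup.mem_bot]; exact haa1⟩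
  obtain ⟨⟨hET, hcE⟩, hEmax'⟩ := hEmax
  have hEt : ∀ t ∈ T, t ∈ E ∨ c * t ∈ E := by
    intro t ht
    by_contra hcon
    push Not at hcon
    obtain ⟨htE, hctE⟩ := hcon
    have htt : t ^ 2 = 1 := ((hT t).mp ht).2
    have hK : ¬ (E ⊔ Subgroup.zpowers t ≤ T ∧ c ∉ E ⊔ Subgroup.zpowers t) := by
      intro hK
      have := hEmax' hK le_sup_left
      exact htE (this (Subgroup.mem_sup_right (Subgroup.mem_zpowers t)))
    have hKT : E ⊔ Subgroup.zpowers t ≤ T :=
      sup_le hET (by rw [Subgroup.zpowers_le]; exact ht)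
    have hcK : c ∈ E ⊔ Subgroup.zpowers t := by
      by_contra h; exact hK ⟨hKT, h⟩
    have := hn (Subgroup.zpowers t)
    rw [← SetLike.mem_coe, Subgroup.mul_normal] at hcK
    obtain ⟨e', he, z, hz, hez⟩ := Set.mem_mul.mp hcK
    rw [SetLike.mem_coe, ← mem_powers_iff_mem_zpowers] at hz
    obtain ⟨r, hr⟩ := hz
    have hr' : t ^ r = z := hr
    rw [pow_eq_pow_mod r htt] at hr'
    rcases Nat.mod_two_eq_zero_or_one r with h0 | h1
    · rw [h0, pow_zero] at hr'
      rw [← hr', mul_one] at hez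
      rw [← hez] at hcE
      exact hcE he
    · rw [h1, pow_one] at hr'
      rw [← hr'] at hez
      apply hctE
      rw [← hez, mul_assoc, ← pow_two, htt, mul_one]
      exact he
  have hEC : E ≤ C := fun x hx => ((hT x).mp (hET hx)).1
  have hAC : A ≤ C := fun x hx => ((hA x).mp hx).1
  have hEAC : E ⊔ A ≤ C := sup_le hEC hAC
  have hcEA : c ∉ E ⊔ A := by
    intro h
    have := hn A
    rw [← SetLike.mem_coe, Subgroup.mul_normal] at h
    obtain ⟨e', he, α, hα, heα⟩ := Set.mem_mul.mp h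
    have hαT : α ∈ T := by
      have : α = e'⁻¹ * c := by rw [← heα]; group
      rw [this]; exact mul_mem (inv_mem (hET he)) hcT
    have hα1 : α = 1 := hodd1 α ((hT α).mp hαT).2 ((hA α).mp hα).2
    rw [hα1, mul_one] at heα
    rw [← heα] at hcE
    exact hcE he
  refine ⟨Q, E, A, ⟨?_⟩, ⟨⟨⟨fun x y => ?_⟩⟩, fun x hx => ((hT x).mp (hET hx)).2⟩,
    ⟨⟨fun x y => ?_⟩⟩, ?_, ?_, ?_, ?_⟩
  · rw [hQdef]; exact (MonoidHom.ofInjective hFinj).symm
  · exact Subtype.ext (hCab x.1 (hEC x.2) y.1 (hEC y.2))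
  · exact Subtype.ext (hCab x.1 (hAC x.2) y.1 (hAC y.2))
  · by_contra hodd
    rw [Nat.not_odd_iff_even] at hodd
    have : Fact (Nat.Prime 2) := ⟨Nat.prime_two⟩
    obtain ⟨x, hx⟩ := exists_prime_orderOf_dvd_card' (G := ↥A) 2 hodd.two_dvd
    have h1 : (x : G) ^ 2 = 1 := by
      have := pow_orderOf_eq_one x
      rw [hx] at this
      exact_mod_cast congrArg Subtype.val this
    have h2 := hodd1 x.1 h1 ((hA x.1).mp x.2).2
    have h3 : x = 1 := Subtype.ext h2
    rw [h3, orderOf_one] at hx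
    omega
  · rw [Subgroup.eq_bot_iff_forall]
    rintro x ⟨hxE, hxA⟩
    exact hodd1 x ((hT x).mp (hET hxE)).2 ((hA x).mp hxA).2
  · rw [Subgroup.eq_bot_iff_forall]
    rintro x ⟨hxQ, hxEA⟩
    have hxC : x ∈ C := hEAC hxEA
    obtain ⟨hxa, hxb⟩ := (hC x).mp hxC
    rcases hQ x hxQ with ⟨k, rfl⟩ | ⟨k, rfl⟩
    · rw [pow_eq_pow_mod k ha4'] at hxb hxEA ⊢
      have hlt : k % 4 < 4 := Nat.mod_lt _ (by norm_num)
      interval_cases (k % 4)
      · simp
      · exfalso; rw [pow_one] at hxb; exact hab hxb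
      · exfalso; apply hcEA; rw [hc, ← pow_two]; exact hxEA
      · exfalso
        have h3 : a ^ 3 = a⁻¹ := by
          rw [eq_inv_iff_mul_eq_one, ← pow_succ]; exact ha4'
        rw [h3] at hxb
        have : Commute a⁻¹ b := hxb
        exact hab (Commute.inv_left_iff.mp this).eq
    · exfalso
      have h1 : (b * a) * a ^ k = (a * b) * a ^ k := by
        calc (b * a) * a ^ k = b * (a * a ^ k) := by group
          _ = b * (a ^ k * a) := by rw [← pow_succ, ← pow_succ']
          _ = b * a ^ k * a := by group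
          _ = a * (b * a ^ k) := hxa
          _ = (a * b) * a ^ k := by group
      exact hab (mul_right_cancel h1).symm
  · rw [eq_top_iff]
    intro g _
    obtain ⟨q, hq, hqg⟩ := hQC g
    obtain ⟨t, ht, α, hα, htα⟩ := hdec _ hqg
    have hg : g = q⁻¹ * (t * α) := by rw [← htα]; group
    rcases hEt t ht with h | h
    · rw [hg]
      exact Subgroup.mul_mem_sup (inv_mem hq) (Subgroup.mul_mem_sup h hα)
    · have : g = (q⁻¹ * c) * ((c * t) * α) := by
        rw [hg]
        calc q⁻¹ * (t * α) = q⁻¹ * ((c * c) * t * α) := by rw [ha4, one_mul]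
          _ = _ := by group
      rw [this]
      exact Subgroup.mul_mem_sup (mul_mem (inv_mem hq) hcQ) (Subgroup.mul_mem_sup h hα)

end Cfsg.Agent.S4211
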