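import Cfsg.Statements.S4213
import Cfsg.Agent.S3993
import Cfsg.Agent.S4212
import Mathlib

set_option autoImplicit false
open Cfsg

namespace Cfsg.Agent.S4213

universe u

theorem normal_of_set {G : Type*} [Group G] (n : ℕ) (H : Subgroup G)
    (h : (H : Set G) = {x : G | x ^ n = 1}) : H.Normal := by
  constructor
  intro x hx g
  have hx' : x ∈ (H : Set G) := hx
  rw [h] at hx'
  have hx'' : x ^ n = 1 := hx'
  have h2 : g * x * g⁻¹ ∈ (H : Set G) := by
    rw [h]
    show (g * x * g⁻¹) ^ n = 1
    rw [conj_pow, hx'', mul_one, mul_inv_cancel]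
  exact h2

/-- a nontrivial finite solvable group has a nontrivial normal subgroup of prime exponent -/
theorem exists_normal_exp_p (G : Type*) [Group G] [Finite G] [Group.IsSolvable G] [Nontrivial G] :
    ∃ (p : ℕ) (K : Subgroup G), p.Prime ∧ K.Normal ∧ K ≠ ⊥ ∧ ∀ x ∈ K, x ^ p = 1 := by
  classical
  have hsol : ∃ n, derivedSeries G n = ⊥ := Group.IsSolvable.solvable
  have hn₀ : derivedSeries G (Nat.find hsol) = ⊥ := Nat.find_spec hsol
  have hne : Nat.find hsol ≠ 0 := by
    intro h0
    rw [h0, derivedSeries_zero] at hn₀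
    exact top_ne_bot hn₀
  obtain ⟨m, hm⟩ := Nat.exists_eq_succ_of_ne_zero hne
  have hA : derivedSeries G m ≠ ⊥ := Nat.find_min hsol (by omega)
  have hAA : ⁅derivedSeries G m, derivedSeries G m⁆ = ⊥ := by
    rw [← derivedSeries_succ, ← Nat.succ_eq_add_one, ← hm]; exact hn₀
  obtain ⟨A, hAdef⟩ : ∃ A : Subgroup G, A = derivedSeries G m := ⟨_, rfl⟩
  have hAn : A.Normal := hAdef ▸ derivedSeries_normal G m
  rw [← hAdef] at hA hAA
  have comm : ∀ a ∈ A, ∀ b ∈ A, a * b = b * a := by
    intro a ha b hb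
    have h1 := Subgroup.commutator_mem_commutator ha hb
    rw [hAA, Subgroup.mem_bot, commutatorElement_eq_one_iff_mul_comm] at h1
    exact h1
  have hcard : Nat.card A ≠ 1 := by
    have := (Subgroup.one_lt_card_iff_ne_bot A).mpr hA
    omega
  obtain ⟨p, hp, hpd⟩ := Nat.exists_prime_and_dvd hcard
  have : Fact p.Prime := ⟨hp⟩
  obtain ⟨a, ha⟩ := exists_prime_orderOf_dvd_card' p hpd
  let K : Subgroup G :=
    { carrier := {x | x ∈ A ∧ x ^ p = 1}
      one_mem' := ⟨one_mem A, one_pow p⟩
      mul_mem' := by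
        rintro x y ⟨hx, hx'⟩ ⟨hy, hy'⟩
        refine ⟨mul_mem hx hy, ?_⟩
        have hc : Commute x y := comm x hx y hy
        rw [hc.mul_pow, hx', hy', one_mul]
      inv_mem' := by
        rintro x ⟨hx, hx'⟩
        exact ⟨inv_mem hx, by rw [inv_pow, hx', inv_one]⟩ }
  refine ⟨p, K, hp, ?_, ?_, ?_⟩
  · constructor
    rintro x ⟨hx, hx'⟩ g
    exact ⟨hAn.conj_mem x hx g, by rw [conj_pow, hx', mul_one, mul_inv_cancel]⟩
  · intro hbot
    have hmem : (a : G) ∈ K := by
      refine ⟨a.2, ?_⟩
      have h1 : a ^ p = 1 := by rw [← ha, pow_orderOf_eq_one]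
      have h2 := congrArg Subtype.val h1
      simpa using h2
    rw [hbot, Subgroup.mem_bot] at hmem
    have h3 : a = 1 := Subtype.ext hmem
    rw [h3, orderOf_one] at ha
    exact hp.one_lt.ne ha
  · rintro x ⟨-, hx'⟩
    exact hx'


theorem card_sol_pos {G : Type*} [Group G] [Finite G] (m : ℕ) :
    0 < Nat.card {x : G // x ^ m = 1} := by
  have : Nonempty {x : G // x ^ m = 1} := ⟨⟨1, one_pow m⟩⟩
  exact Nat.card_pos

theorem card_le_of_imp {G : Type*} [Finite G] (P Q : G → Prop) (h : ∀ x, P x → Q x) :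
    Nat.card {x : G // P x} ≤ Nat.card {x : G // Q x} :=
  Nat.card_le_card_of_injective (fun x => (⟨x.1, h x.1 x.2⟩ : {x : G // Q x}))
    (fun a b hab => Subtype.ext (by simpa using congrArg Subtype.val hab))

theorem set_eq_of_imp_of_card {G : Type*} [Finite G] (P Q : G → Prop) (h : ∀ x, P x → Q x)
    (hc : Nat.card {x : G // Q x} ≤ Nat.card {x : G // P x}) : {x : G | P x} = {x : G | Q x} := by
  apply Set.eq_of_subset_of_ncard_le (fun x hx => h x hx) _ (Set.toFinite _)
  show ({x : G | Q x} : Set G).ncard ≤ ({x : G | P x} : Set G).ncard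
  rw [← Nat.card_coe_set_eq, ← Nat.card_coe_set_eq]
  exact hc

theorem aux (N : ℕ) : ∀ (G : Type u) [Group G] [Finite G] [Group.IsSolvable G], Nat.card G = N →
    ∀ n : ℕ, n ∣ N → Nat.card {x : G // x ^ n = 1} = n →
    ∃ H : Subgroup G, (H : Set G) = {x : G | x ^ n = 1} := by
  induction N using Nat.strong_induction_on with
  | _ N IH =>
  intro G _ _ _ hG n hn hcount
  by_cases htriv : Subsingleton G
  · refine ⟨⊤, ?_⟩
    ext x
    simp only [Subgroup.coe_top, Set.mem_univ, Set.mem_ofPred_eq, true_iff]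
    rw [Subsingleton.elim x 1, one_pow]
  · have hnt : Nontrivial G := not_subsingleton_iff_nontrivial.mp htriv
    obtain ⟨p, K, hp, hKn, hKbot, hKexp⟩ := exists_normal_exp_p G
    have hNpos : 0 < N := hG ▸ Nat.card_pos
    have hn0 : n ≠ 0 := by
      rintro rfl
      rw [zero_dvd_iff] at hn
      omega
    have hKp : IsPGroup p K := fun x => ⟨1, by rw [pow_one]; exact Subtype.ext (hKexp x.1 x.2)⟩
    have : Fact p.Prime := ⟨hp⟩
    obtain ⟨i, hi⟩ := IsPGroup.iff_card.mp hKp
    have hi1 : 1 ≤ i := by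
      rcases Nat.eq_zero_or_pos i with rfl | h
      · rw [pow_zero] at hi
        have := (Subgroup.one_lt_card_iff_ne_bot K).mpr hKbot
        omega
      · exact h
    have hcardQ : p ^ i * Nat.card (G ⧸ K) = N := by
      rw [← hi, ← Subgroup.index_eq_card, Subgroup.card_mul_index, hG]
    have hQpos : 0 < Nat.card (G ⧸ K) := Nat.card_pos
    have hpi2 : 2 ≤ p ^ i := by
      calc 2 ≤ p := hp.two_le
        _ = p ^ 1 := (pow_one p).symm
        _ ≤ p ^ i := Nat.pow_le_pow_right hp.pos hi1
    have hQlt : Nat.card (G ⧸ K) < N := by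
      rw [← hcardQ]
      nlinarith
    have hπ : ∀ (x : G) (m : ℕ), ((x : G ⧸ K)) ^ m = 1 ↔ x ^ m ∈ K := by
      intro x m
      rw [← QuotientGroup.mk_pow]
      exact QuotientGroup.eq_one_iff _
    have hpre : ∀ m : ℕ, Nat.card {x : G // x ^ m ∈ K} =
        p ^ i * Nat.card {y : G ⧸ K // y ^ m = 1} := by
      intro m
      have h1 := QuotientGroup.card_preimage_mk K {y : G ⧸ K | y ^ m = 1}
      rw [hi] at h1
      refine (Nat.card_congr ?_).trans h1
      apply Equiv.subtypeEquivRight
      intro x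
      exact (hπ x m).symm
    obtain ⟨j, hj⟩ : ∃ j, j = n.factorization p := ⟨_, rfl⟩
    have hpj : p ^ j ∣ n := hj ▸ Nat.ordProj_dvd n p
    have hcases : i ≤ j ∨ j = 0 ∨ (1 ≤ j ∧ j < i) := by omega
    rcases hcases with hA | hB1 | hB2
    · -- Case A
      obtain ⟨nb, hnb⟩ : p ^ i ∣ n := (pow_dvd_pow p hA).trans hpj
      have hsub : ∀ x : G, x ^ nb ∈ K → x ^ n = 1 := by
        intro x hx
        obtain ⟨i', rfl⟩ : ∃ i', i = i' + 1 := ⟨i - 1, by omega⟩
        rw [hnb, mul_comm, pow_mul, pow_succ', pow_mul, hKexp _ hx, one_pow]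
      have hnbQ : nb ∣ Nat.card (G ⧸ K) := by
        rw [← hcardQ, hnb] at hn
        exact Nat.dvd_of_mul_dvd_mul_left (pow_pos hp.pos i) hn
      have hfrob := Cfsg.Agent.S3993.result (G := G ⧸ K) nb hnbQ
      have hle := card_le_of_imp (fun x : G => x ^ nb ∈ K) (fun x => x ^ n = 1) hsub
      rw [hpre, hcount, hnb] at hle
      have hle' : Nat.card {y : G ⧸ K // y ^ nb = 1} ≤ nb :=
        Nat.le_of_mul_le_mul_left hle (pow_pos hp.pos i)
      have hpos := card_sol_pos (G := G ⧸ K) nb
      have heq : Nat.card {y : G ⧸ K // y ^ nb = 1} = nb :=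
        Nat.le_antisymm hle' (Nat.le_of_dvd hpos hfrob)
      obtain ⟨Hb, hHb⟩ := IH _ hQlt (G ⧸ K) rfl nb hnbQ heq
      refine ⟨Hb.comap (QuotientGroup.mk' K), ?_⟩
      have hset := set_eq_of_imp_of_card (fun x : G => x ^ nb ∈ K) (fun x => x ^ n = 1) hsub
        (by rw [hpre, hcount, heq, hnb])
      rw [← hset]
      ext x
      rw [Subgroup.coe_comap, Set.mem_preimage]
      have h1 : (QuotientGroup.mk' K x) ∈ (Hb : Set (G ⧸ K)) ↔ (x : G ⧸ K) ^ nb = 1 := by
        rw [hHb]; rfl
      rw [h1, hπ]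
      rfl
    · -- Case B1: p does not divide n
      have hpn : ¬ p ∣ n := by
        rw [hj, Nat.factorization_eq_zero_iff] at hB1
        rcases hB1 with h | h | h
        · exact absurd hp h
        · exact h
        · exact absurd h hn0
      have hcop : Nat.Coprime n p := (Nat.Prime.coprime_iff_not_dvd hp).mpr hpn |>.symm
      have hcopi : Nat.Coprime n (p ^ i) := hcop.pow_right i
      have hnQ : n ∣ Nat.card (G ⧸ K) := by
        rw [← hcardQ] at hn
        exact hcopi.dvd_of_dvd_mul_left hn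
      have hfrob := Cfsg.Agent.S3993.result (G := G ⧸ K) n hnQ
      have hpos := card_sol_pos (G := G ⧸ K) n
      -- lifting
      have hlift : ∀ y : G ⧸ K, y ^ n = 1 → ∃ x : G, x ^ n = 1 ∧ (x : G ⧸ K) = y := by
        intro y hy
        obtain ⟨x₀, rfl⟩ := QuotientGroup.mk'_surjective K y
        have hy' : (x₀ : G ⧸ K) ^ n = 1 := hy
        have hx₀ : x₀ ^ n ∈ K := (hπ x₀ n).mp hy'
        obtain ⟨s, hs1, hs0⟩ := Nat.chineseRemainder hcop 1 0
        obtain ⟨s', hs'⟩ := (Nat.modEq_zero_iff_dvd).mp hs0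
        refine ⟨x₀ ^ s, ?_, ?_⟩
        · rw [← pow_mul, mul_comm, pow_mul, hs', pow_mul, hKexp _ hx₀, one_pow]
        · rw [QuotientGroup.mk_pow]
          have h1 : s ≡ 1 [MOD orderOf (x₀ : G ⧸ K)] :=
            hs1.of_dvd (orderOf_dvd_of_pow_eq_one hy')
          exact (pow_eq_pow_iff_modEq.mpr h1).trans (pow_one _)
      have hsurj : Function.Surjective
          (fun x : {x : G // x ^ n = 1} => (⟨(x.1 : G ⧸ K), by
            rw [← QuotientGroup.mk_pow, x.2]; rfl⟩ : {y : G ⧸ K // y ^ n = 1})) := by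
        rintro ⟨y, hy⟩
        obtain ⟨x, hx, hxy⟩ := hlift y hy
        exact ⟨⟨x, hx⟩, Subtype.ext hxy⟩
      have hle := Nat.card_le_card_of_surjective _ hsurj
      rw [hcount] at hle
      have heq : Nat.card {y : G ⧸ K // y ^ n = 1} = n :=
        Nat.le_antisymm hle (Nat.le_of_dvd hpos hfrob)
      obtain ⟨Hb, hHb⟩ := IH _ hQlt (G ⧸ K) rfl n hnQ heq
      have hHbcard : Nat.card Hb = n := by
        rw [← heq]
        have : Nat.card Hb = Nat.card ((Hb : Set (G ⧸ K))) := rfl
        rw [this, hHb]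
        rfl
      obtain ⟨H, hH⟩ : ∃ H : Subgroup G, H = Hb.comap (QuotientGroup.mk' K) := ⟨_, rfl⟩
      have hKH : K ≤ H := by
        intro k hk
        rw [hH, Subgroup.mem_comap]
        have : QuotientGroup.mk' K k = 1 := (QuotientGroup.eq_one_iff k).mpr hk
        rw [this]
        exact one_mem _
      have hHcard : Nat.card H = p ^ i * n := by
        have h1 := QuotientGroup.card_preimage_mk K (Hb : Set (G ⧸ K))
        rw [hi] at h1
        have h2 : Nat.card (Hb : Set (G ⧸ K)) = n := hHbcard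
        rw [h2] at h1
        rw [← h1, hH]
        rfl
      have hLH : ∀ x : G, x ^ n = 1 → x ∈ H := by
        intro x hx
        rw [hH, Subgroup.mem_comap]
        have h1 : (QuotientGroup.mk' K x) ∈ (Hb : Set (G ⧸ K)) := by
          rw [hHb]
          show (x : G ⧸ K) ^ n = 1
          rw [← QuotientGroup.mk_pow, hx]; rfl
        exact h1
      -- Schur-Zassenhaus inside H
      have hNcard : Nat.card (K.subgroupOf H) = p ^ i := by
        rw [← hi]
        exact Nat.card_congr (Subgroup.subgroupOfEquivOfLe hKH).toEquiv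
      have hNidx : (K.subgroupOf H).index = n := by
        have h1 := Subgroup.card_mul_index (K.subgroupOf H)
        rw [hNcard, hHcard] at h1
        exact Nat.eq_of_mul_eq_mul_left (pow_pos hp.pos i) h1
      have hcopN : (Nat.card (K.subgroupOf H)).Coprime (K.subgroupOf H).index := by
        rw [hNcard, hNidx]; exact hcopi.symm
      obtain ⟨T', hT'⟩ := Subgroup.exists_right_complement'_of_coprime hcopN
      have hT'card : Nat.card T' = n := by
        have h1 := hT'.card_mul_card
        rw [hNcard, hHcard] at h1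
        exact Nat.eq_of_mul_eq_mul_left (pow_pos hp.pos i) h1
      refine ⟨T'.map H.subtype, ?_⟩
      have hTsub : ∀ x : G, x ∈ T'.map H.subtype → x ^ n = 1 := by
        rintro x ⟨t, ht, rfl⟩
        have h1 : (⟨t, ht⟩ : T') ^ n = 1 := by rw [← hT'card]; exact pow_card_eq_one'
        have h2 : t ^ n = 1 := by
          have := congrArg Subtype.val h1
          simpa using this
        have h3 := congrArg Subtype.val h2
        simpa using h3
      have hTcard : Nat.card (T'.map H.subtype) = n := by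
        rw [Subgroup.card_map_of_injective H.subtype_injective, hT'card]
      have hset := set_eq_of_imp_of_card (fun x : G => x ∈ T'.map H.subtype)
        (fun x => x ^ n = 1) hTsub (by
          rw [hcount]
          exact hTcard.symm.le)
      exact hset
    · -- Case B2: impossible
      exfalso
      obtain ⟨hj1, hji⟩ := hB2
      have hpn : p ∣ n := (dvd_pow_self p (by omega)).trans hpj
      obtain ⟨m, hm⟩ := hpn
      have hsub : ∀ x : G, x ^ m ∈ K → x ^ n = 1 := by
        intro x hx
        rw [hm, mul_comm, pow_mul, hKexp _ hx]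
      have hle := card_le_of_imp (fun x : G => x ^ m ∈ K) (fun x => x ^ n = 1) hsub
      rw [hpre, hcount] at hle
      have hcen := Cfsg.Agent.S4212.central (G := G ⧸ K) 1 (fun g => by rw [mul_one, one_mul]) m
      have hpos := card_sol_pos (G := G ⧸ K) m
      have hd := Nat.le_of_dvd hpos hcen
      have h1 : p ^ i * Nat.gcd m (Nat.card (G ⧸ K)) ≤ n :=
        (Nat.mul_le_mul_left _ hd).trans hle
      rw [← Nat.gcd_mul_left, hcardQ] at h1
      have h2 : n * p ∣ Nat.gcd (p ^ i * m) N := by
        apply Nat.dvd_gcd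
        · obtain ⟨i', rfl⟩ : ∃ i', i = i' + 2 := ⟨i - 2, by omega⟩
          rw [hm]
          exact ⟨p ^ i', by ring⟩
        · have h3 : p ^ (j + 1) ∣ N := by
            rw [← hcardQ]
            exact (pow_dvd_pow p (by omega)).trans (dvd_mul_right _ _)
          have h4 : n / p ^ j ∣ N := (Nat.div_dvd_of_dvd hpj).trans hn
          have h5 : Nat.Coprime (p ^ (j + 1)) (n / p ^ j) := by
            rw [hj]
            exact (Nat.coprime_ordCompl hp hn0).pow_left _
          have h6 := h5.mul_dvd_of_dvd_of_dvd h3 h4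
          have h7 : n * p = p ^ (j + 1) * (n / p ^ j) := by
            have h8 : p ^ j * (n / p ^ j) = n := Nat.mul_div_cancel' hpj
            calc n * p = (p ^ j * (n / p ^ j)) * p := by rw [h8]
              _ = p ^ (j + 1) * (n / p ^ j) := by ring
          rw [h7]
          exact h6
      have h9 : 0 < Nat.gcd (p ^ i * m) N := Nat.gcd_pos_of_pos_right _ hNpos
      have h10 := Nat.le_of_dvd h9 h2
      have h11 : n * p ≤ n := h10.trans h1
      have h12 : 2 ≤ p := hp.two_le
      have h13 : 0 < n := Nat.pos_of_ne_zero hn0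
      nlinarith

/-- If `G` is a finite solvable group and `n` divides the order of `G` and exactly `n` elements `x` of `G` satisfy `x^n = 1`, then these elements form a normal subgroup. -/
theorem result {G : Type*} [Group G] [Finite G] [Group.IsSolvable G] (n : ℕ) (hn : n ∣ Nat.card G) (hcount : Nat.card {x : G // x ^ n = 1} = n) : ∃ H : Subgroup G, H.Normal ∧ (H : Set G) = {x : G | x ^ n = 1} := by
  obtain ⟨H, hH⟩ := aux (Nat.card G) G rfl n hn hcount
  exact ⟨H, normal_of_set n H hH, hH⟩

end Cfsg.Agent.S4213
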