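import Mathlib
import Cfsg.Statements.S4214
import Cfsg.Agent.Lib.Helper1.Hall
import Cfsg.Agent.Lib.Helper32.Coprime
import Cfsg.Agent.Lib.Helper75.Pronormal

set_option autoImplicit false
open Cfsg
open scoped commutatorElement Pointwise

namespace Cfsg.Agent.S4214

open Cfsg.Agent.Lib

universe u

/-- the property required of each factor -/
def Good (G : Type*) [Group G] (m x : ℕ) : Prop :=
  (∃ q e : ℕ, q.Prime ∧ x = q ^ e) ∧
  (∃ K L : Subgroup G, K.Normal ∧ L.Normal ∧ K < L ∧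
    (∀ M : Subgroup G, M.Normal → K ≤ M → M ≤ L → M = K ∨ M = L) ∧ x ∣ K.relIndex L) ∧
  (∃ q : ℕ, q.Prime ∧ q ∣ m ∧ x ≡ 1 [MOD q])

/-- products of good factors -/
def GoodProd (G : Type*) [Group G] (m c : ℕ) : Prop :=
  ∃ l : List ℕ, l.prod = c ∧ ∀ x ∈ l, Good G m x

theorem goodProd_one (G : Type*) [Group G] (m : ℕ) : GoodProd G m 1 :=
  ⟨[], List.prod_nil, by simp⟩

theorem GoodProd.mul {G : Type*} [Group G] {m a b : ℕ} (ha : GoodProd G m a)
    (hb : GoodProd G m b) : GoodProd G m (a * b) := by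
  obtain ⟨l₁, h1, h1'⟩ := ha
  obtain ⟨l₂, h2, h2'⟩ := hb
  refine ⟨l₁ ++ l₂, by rw [List.prod_append, h1, h2], fun x hx => ?_⟩
  rcases List.mem_append.mp hx with h | h
  · exact h1' x h
  · exact h2' x h

/-- transfer of a good factor from a quotient -/
theorem good_of_quotient {G : Type*} [Group G] (N : Subgroup G) [N.Normal] {m' m x : ℕ}
    (hm : m' ∣ m) (h : Good (G ⧸ N) m' x) : Good G m x := by
  obtain ⟨h1, ⟨K, L, hKn, hLn, hKL, hmid, hx⟩, ⟨q, hq, hqm, hxq⟩⟩ := h
  have hsurj := QuotientGroup.mk'_surjective N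
  refine ⟨h1, ⟨K.comap (QuotientGroup.mk' N), L.comap (QuotientGroup.mk' N), hKn.comap _,
    hLn.comap _, ?_, ?_, ?_⟩, ⟨q, hq, hqm.trans hm, hxq⟩⟩
  · exact (Subgroup.comap_lt_comap_of_surjective hsurj).mpr hKL
  · intro M hMn hKM hML
    have hNM : N ≤ M := by
      refine le_trans ?_ hKM
      have := (QuotientGroup.mk' N).ker_le_comap K
      rwa [QuotientGroup.ker_mk'] at this
    have hMeq : (M.map (QuotientGroup.mk' N)).comap (QuotientGroup.mk' N) = M := by
      rw [QuotientGroup.comap_map_mk']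
      exact sup_eq_right.mpr hNM
    have hMn' : (M.map (QuotientGroup.mk' N)).Normal := hMn.map _ hsurj
    have h1' : K ≤ M.map (QuotientGroup.mk' N) := by
      rw [← Subgroup.map_comap_eq_self_of_surjective hsurj K]
      exact Subgroup.map_mono hKM
    have h2' : M.map (QuotientGroup.mk' N) ≤ L := by
      rw [← Subgroup.map_comap_eq_self_of_surjective hsurj L]
      exact Subgroup.map_mono hML
    rcases hmid _ hMn' h1' h2' with h | h
    · left
      rw [← hMeq, h]
    · right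
      rw [← hMeq, h]
  · rw [Subgroup.relIndex_comap, Subgroup.map_comap_eq_self_of_surjective hsurj]
    exact hx

theorem goodProd_of_quotient {G : Type*} [Group G] (N : Subgroup G) [N.Normal] {m' m c : ℕ}
    (hm : m' ∣ m) (h : GoodProd (G ⧸ N) m' c) : GoodProd G m c := by
  obtain ⟨l, h1, h2⟩ := h
  exact ⟨l, h1, fun x hx => good_of_quotient N hm (h2 x hx)⟩

/-- `g` normalizes `H` iff conjugation by `g` fixes `H` -/
theorem mem_normalizer_iff_smul {G : Type u} [Group G] (g : G) (H : Subgroup G) :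
    g ∈ Subgroup.normalizer (H : Set G) ↔ MulAut.conj g • H = H :=
  Helper1.mem_normalizer_iff_conj_smul g H

/-- the number of Hall subgroups of order `m` is the index of the normalizer of one of them -/
theorem card_hall_eq_index {G : Type u} [Group G] [Finite G] [Group.IsSolvable G] (m n : ℕ)
    (hG : Nat.card G = m * n) (hmn : m.Coprime n) (H₀ : Subgroup G) (hH₀ : Nat.card H₀ = m) :
    Nat.card {H : Subgroup G // Nat.card H = m} = (Subgroup.normalizer (H₀ : Set G)).index := by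
  let _inst : MulAction G (Subgroup G) :=
    MulAction.compHom (Subgroup G) (MulAut.conj : G →* MulAut G)
  have hsmul : ∀ (g : G) (H : Subgroup G), g • H = MulAut.conj g • H := fun g H => rfl
  have horb : MulAction.orbit G H₀ = {H : Subgroup G | Nat.card H = m} := by
    ext H
    constructor
    · rintro ⟨g, rfl⟩
      show Nat.card (g • H₀ : Subgroup G) = m
      rw [hsmul, Helper1.card_conj_smul, hH₀]
    · intro hH
      obtain ⟨g, hg⟩ := Helper1.hall_conj m n hG hmn H₀ H hH₀ hH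
      exact ⟨g, hg⟩
  have hstab : MulAction.stabilizer G H₀ = Subgroup.normalizer (H₀ : Set G) := by
    ext g
    rw [MulAction.mem_stabilizer_iff, hsmul, mem_normalizer_iff_smul]
  rw [← hstab, MulAction.index_stabilizer, horb]
  rfl

/-- cardinality of a preimage under the quotient map -/
theorem card_comap_mk {G : Type*} [Group G] [Finite G] (N : Subgroup G) [N.Normal]
    (K : Subgroup (G ⧸ N)) :
    Nat.card (K.comap (QuotientGroup.mk' N)) = Nat.card K * Nat.card N := by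
  have h1 : (K.comap (QuotientGroup.mk' N)).index = K.index :=
    Subgroup.index_comap_of_surjective K (QuotientGroup.mk'_surjective N)
  have h2 := Subgroup.card_mul_index (K.comap (QuotientGroup.mk' N))
  have h3 := Subgroup.card_mul_index K
  have h4 := Subgroup.card_eq_card_quotient_mul_card_subgroup N
  have hpos : 0 < K.index := Nat.pos_of_ne_zero Subgroup.index_ne_zero_of_finite
  rw [h1] at h2
  have h5 : Nat.card (K.comap (QuotientGroup.mk' N)) * K.index =
      Nat.card K * Nat.card N * K.index := by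
    rw [h2, h4, ← h3]; ring
  exact Nat.eq_of_mul_eq_mul_right hpos h5

/-- second isomorphism theorem, index form -/
theorem relIndex_sup_eq {G : Type*} [Group G] [Finite G] (H K : Subgroup G) [K.Normal] :
    H.relIndex (H ⊔ K) = (H ⊓ K).relIndex K := by
  have ha := Helper75.Pron.relIndex_mul_card_inf H (H ⊔ K)
  rw [inf_eq_left.mpr le_sup_left] at ha
  have hb := Helper75.Pron.relIndex_mul_card_inf K (H ⊔ K)
  rw [inf_eq_left.mpr le_sup_right] at hb
  have hc : K.relIndex (H ⊔ K) = K.relIndex H := Subgroup.relIndex_sup_right H K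
  have hd := Helper75.Pron.relIndex_mul_card_inf K H
  have he := Helper75.Pron.relIndex_mul_card_inf (H ⊓ K) K
  rw [inf_eq_left.mpr inf_le_right] at he
  rw [inf_comm] at hd
  rw [hc] at hb
  have hpos : 0 < K.relIndex H * Nat.card (H ⊓ K : Subgroup G) := by
    rw [hd]; exact Nat.card_pos
  have key : H.relIndex (H ⊔ K) * (K.relIndex H * Nat.card (H ⊓ K : Subgroup G)) =
      (H ⊓ K).relIndex K * (K.relIndex H * Nat.card (H ⊓ K : Subgroup G)) := by
    calc H.relIndex (H ⊔ K) * (K.relIndex H * Nat.card (H ⊓ K : Subgroup G))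
        = H.relIndex (H ⊔ K) * Nat.card H := by rw [hd]
      _ = Nat.card (H ⊔ K : Subgroup G) := ha
      _ = K.relIndex H * Nat.card K := hb.symm
      _ = K.relIndex H * ((H ⊓ K).relIndex K * Nat.card (H ⊓ K : Subgroup G)) := by rw [he]
      _ = (H ⊓ K).relIndex K * (K.relIndex H * Nat.card (H ⊓ K : Subgroup G)) := by ring
  exact Nat.eq_of_mul_eq_mul_right hpos key

/-- a conjugation of order dividing `r` modulo the centralizer: fixed point congruence -/
theorem card_modEq_card_fix {G : Type*} [Group G] [Finite G] {r : ℕ} (hr : r.Prime)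
    (U : Subgroup G) (h : G) (hU : ∀ u ∈ U, h * u * h⁻¹ ∈ U)
    (hr' : ∀ u ∈ U, h ^ r * u = u * h ^ r) :
    Nat.card U ≡ Nat.card (U ⊓ Subgroup.centralizer ({h} : Set G) : Subgroup G) [MOD r] := by
  classical
  have : Fact r.Prime := ⟨hr⟩
  let _instF : Fintype U := Fintype.ofFinite U
  let f : Function.End U := fun u => ⟨h * u * h⁻¹, hU u u.2⟩
  have key : ∀ j : ℕ, ∀ u : U, (((f ^ j : Function.End U) u : U) : G) = h ^ j * u * (h ^ j)⁻¹ := by
    intro j
    induction j with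
    | zero =>
      intro u
      rw [pow_zero, pow_zero]
      show (u : G) = 1 * u * 1⁻¹
      group
    | succ j ih =>
      intro u
      rw [pow_succ]
      show (((f ^ j : Function.End U) (f u) : U) : G) = _
      rw [ih]
      show h ^ j * (h * u * h⁻¹) * (h ^ j)⁻¹ = _
      rw [pow_succ]; group
  have hf : f ^ r ^ 1 = 1 := by
    rw [pow_one]
    funext u
    apply Subtype.ext
    rw [key r u]
    show h ^ r * u * (h ^ r)⁻¹ = u
    rw [hr' u u.2]; group
  have hmod := Equiv.Perm.card_fixedPoints_modEq (f := f) (p := r) (n := 1) hf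
  rw [← Nat.card_eq_fintype_card, ← Nat.card_eq_fintype_card] at hmod
  have heq : Nat.card (Function.fixedPoints f) =
      Nat.card (U ⊓ Subgroup.centralizer ({h} : Set G) : Subgroup G) := by
    refine Nat.card_congr ⟨fun a => ⟨a.1.1, a.1.2, ?_⟩, fun b => ⟨⟨b.1, b.2.1⟩, ?_⟩, ?_, ?_⟩
    · refine Subgroup.mem_centralizer_iff.mpr fun x hx => ?_
      rw [Set.mem_singleton_iff] at hx
      subst hx
      have h1 : (f a.1 : U) = a.1 := a.2
      have h2 : x * (a.1 : G) * x⁻¹ = a.1 := congrArg Subtype.val h1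
      calc x * (a.1 : G) = (x * (a.1 : G) * x⁻¹) * x := by group
        _ = a.1 * x := by rw [h2]
    · show f ⟨b.1, b.2.1⟩ = ⟨b.1, b.2.1⟩
      apply Subtype.ext
      show h * b.1 * h⁻¹ = b.1
      have := Subgroup.mem_centralizer_iff.mp b.2.2 h rfl
      rw [this]; group
    · intro a
      rfl
    · intro b
      rfl
  rw [heq] at hmod
  exact hmod

/-- the factorization of the index of the fixed points of a coprime solvable group acting on a
`q`-group -/
theorem coprime_fix_factor {G : Type u} [Group G] [Finite G] {q : ℕ} (hq : q.Prime) :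
    ∀ k : ℕ, ∀ H : Subgroup G, Nat.card H = k → Group.IsSolvable H → (Nat.card H).Coprime q →
    ∀ V : Subgroup G, IsPGroup q V → H ≤ Subgroup.normalizer (V : Set G) →
    ∃ l : List ℕ, l.prod = (V ⊓ Subgroup.centralizer (H : Set G)).relIndex V ∧
      ∀ x ∈ l, (∃ e : ℕ, x = q ^ e) ∧ x ∣ Nat.card V ∧
        ∃ r : ℕ, r.Prime ∧ r ∣ Nat.card H ∧ x ≡ 1 [MOD r] := by
  intro k
  induction k using Nat.strong_induction_on with
  | _ k ih =>
  intro H hHk hsol hcop V hV hHV
  have : Fact q.Prime := ⟨hq⟩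
  by_cases hbot : H = ⊥
  · refine ⟨[], ?_, by simp⟩
    rw [hbot]
    have h1 : Subgroup.centralizer ((⊥ : Subgroup G) : Set G) = ⊤ := by
      rw [Subgroup.centralizer_eq_top_iff_subset]
      intro x hx
      have hx1 : x = 1 := hx
      rw [hx1]
      exact Subgroup.one_mem _
    rw [h1, inf_top_eq, Subgroup.relIndex_self, List.prod_nil]
  obtain ⟨B, r, hr, hBH, hBcard, hBn, hBpow, hBmax⟩ :=
    Helper32.exists_normal_prime_index_sub H hbot hsol
  have hBpos : 0 < Nat.card B := Nat.card_pos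
  have hBlt : Nat.card B < k := by
    rw [← hHk, ← hBcard]
    have := hr.one_lt
    nlinarith
  have hBdvd : Nat.card B ∣ Nat.card H := Dvd.intro _ hBcard
  have hrdvd : r ∣ Nat.card H := Dvd.intro_left _ hBcard
  have hBsol : Group.IsSolvable B := Helper1.isSolvable_of_le' hBH hsol
  obtain ⟨l₁, hl₁, hl₁'⟩ := ih (Nat.card B) hBlt B rfl hBsol
    (Nat.Coprime.coprime_dvd_left hBdvd hcop) V hV (hBH.trans hHV)
  obtain ⟨h, hhH, hhB⟩ : ∃ h ∈ H, h ∉ B := by
    by_contra hcon
    push Not at hcon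
    have h0 : H ≤ B := hcon
    have h1 : Nat.card H ≤ Nat.card B := Subgroup.card_le_of_le h0
    rw [← hBcard] at h1
    have := hr.one_lt
    nlinarith
  obtain ⟨U, hU⟩ : ∃ U : Subgroup G, U = V ⊓ Subgroup.centralizer (B : Set G) := ⟨_, rfl⟩
  have hUnorm : ∀ u ∈ U, h * u * h⁻¹ ∈ U := by
    intro u hu
    rw [hU] at hu ⊢
    have hu := Subgroup.mem_inf.mp hu
    refine Subgroup.mem_inf.mpr ⟨?_, ?_⟩
    · have h0 := hHV hhH
      rw [Subgroup.mem_normalizer_iff] at h0
      exact (h0 u).mp hu.1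
    · rw [Subgroup.mem_centralizer_iff]
      intro y hy
      have h1 : h⁻¹ * y * h ∈ B := by
        have h0 := hBn h⁻¹ (H.inv_mem hhH) y hy
        simpa using h0
      have h2 : h⁻¹ * y * h * u = u * (h⁻¹ * y * h) :=
        Subgroup.mem_centralizer_iff.mp hu.2 _ h1
      calc y * (h * u * h⁻¹) = h * ((h⁻¹ * y * h) * u) * h⁻¹ := by group
        _ = h * (u * (h⁻¹ * y * h)) * h⁻¹ := by rw [h2]
        _ = h * u * h⁻¹ * y := by group
  have hUpow : ∀ u ∈ U, h ^ r * u = u * h ^ r := by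
    intro u hu
    rw [hU] at hu
    exact Subgroup.mem_centralizer_iff.mp (Subgroup.mem_inf.mp hu).2 _ (hBpow h hhH)
  have hmod := card_modEq_card_fix hr U h hUnorm hUpow
  obtain ⟨F, hF⟩ : ∃ F : Subgroup G, F = V ⊓ Subgroup.centralizer (H : Set G) := ⟨_, rfl⟩
  have hfix : U ⊓ Subgroup.centralizer ({h} : Set G) = F := by
    rw [hU, hF]
    apply le_antisymm
    · intro x hx
      obtain ⟨hx1, hxh⟩ := Subgroup.mem_inf.mp hx
      obtain ⟨hxV, hxB⟩ := Subgroup.mem_inf.mp hx1
      refine Subgroup.mem_inf.mpr ⟨hxV, ?_⟩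
      have hS : H ⊓ Subgroup.centralizer ({x} : Set G) = H := by
        refine hBmax _ ?_ inf_le_left ⟨h, Subgroup.mem_inf.mpr ⟨hhH, ?_⟩, hhB⟩
        · intro b hb
          refine Subgroup.mem_inf.mpr ⟨hBH hb, ?_⟩
          rw [Subgroup.mem_centralizer_iff]
          intro y hy
          rw [Set.mem_singleton_iff] at hy
          subst hy
          exact (Subgroup.mem_centralizer_iff.mp hxB b hb).symm
        · rw [Subgroup.mem_centralizer_iff]
          intro y hy
          rw [Set.mem_singleton_iff] at hy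
          subst hy
          exact (Subgroup.mem_centralizer_iff.mp hxh h rfl).symm
      rw [Subgroup.mem_centralizer_iff]
      intro y hy
      have h0 : y ∈ H ⊓ Subgroup.centralizer ({x} : Set G) := by rw [hS]; exact hy
      exact (Subgroup.mem_centralizer_iff.mp (Subgroup.mem_inf.mp h0).2 x rfl).symm
    · intro x hx
      obtain ⟨hxV, hxH⟩ := Subgroup.mem_inf.mp hx
      refine Subgroup.mem_inf.mpr ⟨Subgroup.mem_inf.mpr ⟨hxV, ?_⟩, ?_⟩
      · rw [Subgroup.mem_centralizer_iff]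
        intro y hy
        exact Subgroup.mem_centralizer_iff.mp hxH y (hBH hy)
      · rw [Subgroup.mem_centralizer_iff]
        intro y hy
        rw [Set.mem_singleton_iff] at hy
        subst hy
        exact Subgroup.mem_centralizer_iff.mp hxH y hhH
  rw [hfix] at hmod
  have hFU : F ≤ U := by rw [← hfix]; exact inf_le_left
  have hUV : U ≤ V := by rw [hU]; exact inf_le_left
  have h1 : F.relIndex U * Nat.card F = Nat.card U := by
    have h0 := Helper75.Pron.relIndex_mul_card_inf F U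
    rwa [inf_eq_left.mpr hFU] at h0
  have h2 : F.relIndex U * U.relIndex V = F.relIndex V :=
    Subgroup.relIndex_mul_relIndex F U V hFU hUV
  obtain ⟨a, ha⟩ := IsPGroup.iff_card.mp (hV.to_le (hFU.trans hUV))
  obtain ⟨b, hb⟩ := IsPGroup.iff_card.mp (hV.to_le hUV)
  have hrq : Nat.Coprime r q := Nat.Coprime.coprime_dvd_left hrdvd hcop
  have hxdvdU : F.relIndex U ∣ Nat.card U := Dvd.intro _ h1
  obtain ⟨e, -, he⟩ := (Nat.dvd_prime_pow hq).mp (hb ▸ hxdvdU)
  have hxmod : F.relIndex U ≡ 1 [MOD r] := by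
    have h3 : F.relIndex U * Nat.card F ≡ 1 * Nat.card F [MOD r] := by
      rw [h1, one_mul]; exact hmod
    refine Nat.ModEq.cancel_right_of_coprime ?_ h3
    rw [ha]
    exact Nat.Coprime.pow_right a hrq
  refine ⟨F.relIndex U :: l₁, ?_, ?_⟩
  · rw [List.prod_cons, hl₁, ← hU, ← hF]
    exact h2
  · intro x hx
    rcases List.mem_cons.mp hx with rfl | hx
    · exact ⟨⟨e, he⟩, hxdvdU.trans (Subgroup.card_dvd_of_le hUV), r, hr, hrdvd, hxmod⟩
    · obtain ⟨h4, h5, r', hr', hr'B, h6⟩ := hl₁' x hx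
      exact ⟨h4, h5, r', hr', hr'B.trans hBdvd, h6⟩

theorem mem_normalizer_of_forall {G : Type*} [Group G] (K : Subgroup G) (g : G)
    (h1 : ∀ y ∈ K, g * y * g⁻¹ ∈ K) (h2 : ∀ y ∈ K, g⁻¹ * y * g ∈ K) :
    g ∈ Subgroup.normalizer (K : Set G) := by
  rw [Subgroup.mem_normalizer_iff]
  intro y
  constructor
  · exact h1 y
  · intro hy
    have h3 := h2 _ hy
    simpa [mul_assoc] using h3

/-- conjugacy of Hall subgroups inside an overgroup -/
theorem conj_in_overgroup {G : Type u} [Group G] [Finite G] [Group.IsSolvable G] (m n : ℕ)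
    (hG : Nat.card G = m * n) (hmn : m.Coprime n) (X H K : Subgroup G) (hH : H ≤ X) (hK : K ≤ X)
    (hHc : Nat.card H = m) (hKc : Nat.card K = m) : ∃ l ∈ X, MulAut.conj l • H = K := by
  have hmpos : 0 < m := by rw [← hHc]; exact Nat.card_pos
  obtain ⟨n', hn'⟩ : m ∣ Nat.card X := hHc ▸ Subgroup.card_dvd_of_le hH
  have hn'n : n' ∣ n := by
    have h1 : m * n' ∣ m * n := by
      rw [← hn', ← hG]; exact Subgroup.card_subgroup_dvd_card X
    exact Nat.dvd_of_mul_dvd_mul_left hmpos h1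
  have hmn' : m.Coprime n' := Nat.Coprime.coprime_dvd_right hn'n hmn
  obtain ⟨l, hl⟩ := Helper1.hall_conj m n' hn' hmn' (H.subgroupOf X) (K.subgroupOf X)
    (by rw [Helper1.card_subgroupOf_of_le hH]; exact hHc)
    (by rw [Helper1.card_subgroupOf_of_le hK]; exact hKc)
  exact ⟨l, l.2, Helper1.conj_of_subgroupOf hH hK l hl⟩

theorem main : ∀ N : ℕ, ∀ (G : Type u) [Group G] [Finite G] [Group.IsSolvable G],
    Nat.card G = N → ∀ m n : ℕ, Nat.card G = m * n → m.Coprime n →
    GoodProd G m (Nat.card {H : Subgroup G // Nat.card H = m}) := by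
  intro N
  induction N using Nat.strong_induction_on with
  | _ N ih =>
  intro G _ _ _ hN m n hG hmn
  classical
  obtain ⟨H₀, hH₀⟩ := Helper1.hall_exists m n hG hmn
  rw [card_hall_eq_index m n hG hmn H₀ hH₀]
  by_cases hidx : (Subgroup.normalizer (H₀ : Set G)).index = 1
  · rw [hidx]; exact goodProd_one G m
  have hnt : Nontrivial G := by
    by_contra hcon
    rw [not_nontrivial_iff_subsingleton] at hcon
    apply hidx
    rw [Subgroup.index_eq_one]
    exact Subsingleton.elim _ _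
  obtain ⟨q, P, hq, hPn, hPp, hP1⟩ := Helper1.exists_normal_pgroup (G := G)
  have hex : ∃ c : ℕ, ∃ M : Subgroup G, M.Normal ∧ M ≠ ⊥ ∧ M ≤ P ∧ Nat.card M = c :=
    ⟨_, P, hPn, hP1, le_rfl, rfl⟩
  obtain ⟨N₀, hN₀n, hN₀1, hN₀P, hN₀c⟩ := Nat.find_spec hex
  have hN₀min : ∀ M : Subgroup G, M.Normal → ⊥ ≤ M → M ≤ N₀ → M = ⊥ ∨ M = N₀ := by
    intro M hMn _ hMN
    by_cases hM : M = ⊥
    · exact Or.inl hM
    · right
      apply Subgroup.eq_of_le_of_card_ge hMN
      rw [hN₀c]
      exact Nat.find_min' hex ⟨M, hMn, hM, hMN.trans hN₀P, rfl⟩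
  have hN₀p : IsPGroup q N₀ := hPp.to_le hN₀P
  have hπ := QuotientGroup.mk'_surjective N₀
  obtain ⟨m₁, n₁, hG', hm₁, hn₁, hcase⟩ := Helper1.quotient_hall_arith hq hG hmn N₀ hN₀p
  have hmn₁ : m₁.Coprime n₁ := Nat.Coprime.of_dvd hm₁ hn₁ hmn
  obtain ⟨Hb, hHb⟩ : ∃ Hb : Subgroup (G ⧸ N₀), Hb = H₀.map (QuotientGroup.mk' N₀) := ⟨_, rfl⟩
  have hHbc : Nat.card Hb = m₁ := by
    rw [hHb]
    exact Helper1.card_map_hall hG hmn (QuotientGroup.mk' N₀) hπ hG' hm₁ hn₁ hH₀
  have hIH : GoodProd (G ⧸ N₀) m₁ (Subgroup.normalizer (Hb : Set (G ⧸ N₀))).index := by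
    have h0 := ih (Nat.card (G ⧸ N₀)) (hN ▸ Helper1.card_quotient_lt hN₀1) (G ⧸ N₀) rfl
      m₁ n₁ hG' hmn₁
    rwa [card_hall_eq_index m₁ n₁ hG' hmn₁ Hb hHbc] at h0
  have hIH' : GoodProd G m (Subgroup.normalizer (Hb : Set (G ⧸ N₀))).index :=
    goodProd_of_quotient N₀ hm₁ hIH
  obtain ⟨NH, hNH⟩ : ∃ NH : Subgroup G, NH = Subgroup.normalizer (H₀ : Set G) := ⟨_, rfl⟩
  obtain ⟨T, hT⟩ : ∃ T : Subgroup G,
    T = (Subgroup.normalizer (Hb : Set (G ⧸ N₀))).comap (QuotientGroup.mk' N₀) := ⟨_, rfl⟩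
  have hTidx : T.index = (Subgroup.normalizer (Hb : Set (G ⧸ N₀))).index := by
    rw [hT]; exact Subgroup.index_comap_of_surjective _ hπ
  have hNHT : NH ≤ T := by
    have key : ∀ g ∈ NH, ∀ y ∈ Hb,
        (QuotientGroup.mk' N₀ g) * y * (QuotientGroup.mk' N₀ g)⁻¹ ∈ Hb := by
      intro g hg y hy
      rw [hHb] at hy ⊢
      obtain ⟨h, hh, rfl⟩ := hy
      refine ⟨g * h * g⁻¹, ?_, by simp⟩
      rw [hNH] at hg
      exact (Subgroup.mem_normalizer_iff.mp hg h).mp hh
    intro g hg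
    rw [hT, Subgroup.mem_comap]
    apply mem_normalizer_of_forall
    · exact key g hg
    · intro y hy
      have h0 := key g⁻¹ (NH.inv_mem hg) y hy
      simpa using h0
  have hN₀T : N₀ ≤ T := by
    intro x hx
    rw [hT, Subgroup.mem_comap]
    have h0 : QuotientGroup.mk' N₀ x = 1 := (QuotientGroup.eq_one_iff x).mpr hx
    rw [h0]; exact Subgroup.one_mem _
  have hTle : T ≤ NH ⊔ N₀ := by
    intro g hg
    rw [hT, Subgroup.mem_comap] at hg
    have h1 : MulAut.conj g • H₀ ≤ N₀ ⊔ H₀ := by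
      intro x hx
      rw [Helper1.mem_conj_smul_iff] at hx
      have h2 : QuotientGroup.mk' N₀ x ∈ Hb := by
        have h3 := (Subgroup.mem_normalizer_iff.mp hg (QuotientGroup.mk' N₀ (g⁻¹ * x * g))).mp
          (by rw [hHb]; exact ⟨_, hx, rfl⟩)
        have h4 : QuotientGroup.mk' N₀ g * QuotientGroup.mk' N₀ (g⁻¹ * x * g) *
            (QuotientGroup.mk' N₀ g)⁻¹ = QuotientGroup.mk' N₀ x := by
          rw [← map_inv, ← map_mul, ← map_mul]; congr 1; group
        rwa [h4] at h3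
      have h5 : x ∈ Hb.comap (QuotientGroup.mk' N₀) := h2
      rwa [hHb, QuotientGroup.comap_map_mk'] at h5
    obtain ⟨l, hl, hlc⟩ := conj_in_overgroup m n hG hmn (N₀ ⊔ H₀) (MulAut.conj g • H₀) H₀ h1
      le_sup_right (by rw [Helper1.card_conj_smul, hH₀]) hH₀
    have h6 : l * g ∈ NH := by
      rw [hNH, mem_normalizer_iff_smul, map_mul, mul_smul]; exact hlc
    have h7 : l ∈ NH ⊔ N₀ := by
      have h0 : N₀ ⊔ H₀ ≤ NH ⊔ N₀ :=
        sup_le le_sup_right (le_trans (hNH ▸ Subgroup.le_normalizer) le_sup_left)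
      exact h0 hl
    have h8 : g = l⁻¹ * (l * g) := by group
    rw [h8]
    exact Subgroup.mul_mem _ (Subgroup.inv_mem _ h7) (Subgroup.mem_sup_left h6)
  have hTeq : T = NH ⊔ N₀ := le_antisymm hTle (sup_le hNHT hN₀T)
  have hidxeq : NH.index =
      (NH ⊓ N₀).relIndex N₀ * (Subgroup.normalizer (Hb : Set (G ⧸ N₀))).index := by
    rw [← hTidx, ← relIndex_sup_eq NH N₀, ← hTeq]
    exact (Subgroup.relIndex_mul_index hNHT).symm
  rw [← hNH, hidxeq]
  refine GoodProd.mul ?_ hIH'
  rcases hcase with ⟨hm, hn⟩ | ⟨hm, hn⟩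
  · have hcop : (Nat.card N₀).Coprime n :=
      Nat.Coprime.coprime_dvd_left (Dvd.intro_left _ hm) hmn
    obtain ⟨H, hHc, hN₀H⟩ := Helper1.hall_dominance m n hG hmn N₀ hcop
    obtain ⟨g, hg⟩ := Helper1.hall_conj m n hG hmn H H₀ hHc hH₀
    have hN₀H₀ : N₀ ≤ H₀ := by rw [← hg]; exact Helper1.conj_smul_le_of_le_normal hN₀H g
    have h0 : NH ⊓ N₀ = N₀ := inf_eq_right.mpr (hN₀H₀.trans (hNH ▸ Subgroup.le_normalizer))
    rw [h0, Subgroup.relIndex_self]
    exact goodProd_one G m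
  · have hcop : (Nat.card H₀).Coprime (Nat.card N₀) := by
      rw [hH₀]; exact Nat.Coprime.coprime_dvd_right (Dvd.intro_left _ hn) hmn
    have hinf : N₀ ⊓ H₀ = ⊥ := Helper1.inf_eq_bot_of_coprime_card hcop.symm
    have heq : NH ⊓ N₀ = N₀ ⊓ Subgroup.centralizer (H₀ : Set G) := by
      apply le_antisymm
      · intro x hx
        obtain ⟨hxN, hxN₀⟩ := Subgroup.mem_inf.mp hx
        refine Subgroup.mem_inf.mpr ⟨hxN₀, ?_⟩
        rw [Subgroup.mem_centralizer_iff]
        intro h hh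
        have h1 : x * h * x⁻¹ * h⁻¹ ∈ N₀ ⊓ H₀ := by
          refine Subgroup.mem_inf.mpr ⟨?_, ?_⟩
          · have h0 : x * (h * x⁻¹ * h⁻¹) ∈ N₀ :=
              N₀.mul_mem hxN₀ (hN₀n.conj_mem _ (N₀.inv_mem hxN₀) h)
            simpa [mul_assoc] using h0
          · rw [hNH] at hxN
            exact H₀.mul_mem ((Subgroup.mem_normalizer_iff.mp hxN h).mp hh) (H₀.inv_mem hh)
        rw [hinf, Subgroup.mem_bot] at h1
        calc h * x = (x * h * x⁻¹ * h⁻¹)⁻¹ * (x * h) := by group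
          _ = x * h := by rw [h1]; group
      · intro x hx
        obtain ⟨hxN₀, hxC⟩ := Subgroup.mem_inf.mp hx
        refine Subgroup.mem_inf.mpr ⟨?_, hxN₀⟩
        rw [hNH]
        exact Subgroup.centralizer_le_normalizer _ hxC
    rw [heq]
    have hq' : (Nat.card H₀).Coprime q := by
      have : Fact q.Prime := ⟨hq⟩
      obtain ⟨a, ha⟩ := IsPGroup.iff_card.mp hN₀p
      have ha0 : a ≠ 0 := by
        rintro rfl
        rw [pow_zero] at ha
        exact hN₀1 (Subgroup.card_eq_one.mp ha)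
      exact Nat.Coprime.coprime_dvd_right (ha ▸ dvd_pow_self q ha0) hcop
    obtain ⟨l, hl, hl'⟩ := coprime_fix_factor hq (Nat.card H₀) H₀ rfl inferInstance hq' N₀ hN₀p
      (by rw [Subgroup.normalizer_eq_top]; exact le_top)
    refine ⟨l, hl, fun x hx => ?_⟩
    obtain ⟨⟨e, he⟩, hdvd, r, hr, hrH, hxr⟩ := hl' x hx
    refine ⟨⟨q, e, hq, he⟩, ⟨⊥, N₀, inferInstance, hN₀n, bot_lt_iff_ne_bot.mpr hN₀1, hN₀min, ?_⟩,
      ⟨r, hr, hH₀ ▸ hrH, hxr⟩⟩
    rw [Subgroup.relIndex_bot_left]; exact hdvd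

/-- Let `G` be a finite solvable group of order `mn` with `gcd(m, n) = 1`. Then the number of subgroups of order `m` is a product of natural numbers each of which is a power of a prime, divides the order of some chief factor of `G` (a quotient `L/K` of normal subgroups `K < L` of `G` with no normal subgroup of `G` strictly between them), and is congruent to `1` modulo some prime divisor of `m`. -/
theorem result {G : Type*} [Group G] [Finite G] [Group.IsSolvable G] (m n : ℕ) (hG : Nat.card G = m * n) (hmn : Nat.Coprime m n) : ∃ (k : ℕ) (f : Fin k → ℕ), Nat.card {H : Subgroup G // Nat.card H = m} = ∏ i, f i ∧ ∀ i, (∃ q e : ℕ, q.Prime ∧ f i = q ^ e) ∧ (∃ K L : Subgroup G, K.Normal ∧ L.Normal ∧ K < L ∧ (∀ M : Subgroup G, M.Normal → K ≤ M → M ≤ L → M = K ∨ M = L) ∧ f i ∣ K.relIndex L) ∧ (∃ q : ℕ, q.Prime ∧ q ∣ m ∧ f i ≡ 1 [MOD q]) := by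
  obtain ⟨l, hl, hl'⟩ := main _ G rfl m n hG hmn
  refine ⟨l.length, fun i => l[i.1], ?_, fun i => ?_⟩
  · rw [← hl]; exact (Fin.prod_univ_getElem l).symm
  · exact hl' _ (List.getElem_mem _)

end Cfsg.Agent.S4214
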