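import Cfsg.Statements.S4216
import Cfsg.Agent.Lib.Helper75.Alperin

set_option autoImplicit false
open Cfsg
open scoped Pointwise commutatorElement
open Cfsg.Agent.Lib.Helper75

namespace Cfsg.Agent.S4216

lemma exists_conj_le_of_sylowOf {G : Type*} [Group G] [Finite G] {p : ℕ} [Fact p.Prime]
    {N A S : Subgroup G} (hA : IsPGroup p A) (hAN : A ≤ N) (hS : IsPGroup p S) (hSN : S ≤ N)
    (hidx : ¬ p ∣ S.relIndex N) : ∃ n ∈ N, MulAut.conj n • A ≤ S := by
  obtain ⟨T, hTp, hAT, hTN, hTidx⟩ := exists_sylowOf hA hAN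
  obtain ⟨n, hn, hnT⟩ := exists_conj_eq_of_sylowOf hTp hS hTN hSN hTidx hidx
  refine ⟨n, ?_, ?_⟩
  · have : Subgroup.closure {z : G | z ∈ N ∧ ∃ k : ℕ, orderOf z = p ^ k} ≤ N := by
      rw [Subgroup.closure_le]
      rintro z ⟨hz, -⟩
      exact hz
    exact this hn
  · rw [← hnT]
    exact Subgroup.pointwise_smul_le_pointwise_smul_iff.mpr hAT

/-- Grün's first Theorem: if `P` is a Sylow `p`-subgroup of the finite group `G`, then `P ∩ G'` is the subgroup generated by `P ∩ N_G(P)'` together with the subgroups `P ∩ z P' z⁻¹` for all `z ∈ G`, where `'` denotes the derived subgroup and `N_G(P)` the normalizer of `P`. -/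
theorem result {G : Type*} [Group G] [Finite G] {p : ℕ} [Fact p.Prime] (P : Sylow p G) : (P : Subgroup G) ⊓ commutator G = ((P : Subgroup G) ⊓ ⁅Subgroup.normalizer ((P : Subgroup G) : Set G), Subgroup.normalizer ((P : Subgroup G) : Set G)⁆) ⊔ ⨆ z : G, (P : Subgroup G) ⊓ (⁅(P : Subgroup G), (P : Subgroup G)⁆).map (MulAut.conj z).toMonoidHom := by
  apply le_antisymm
  · rw [inf_comm, Subgroup.commutator_inf_eq_focalSubgroup, Subgroup.focalSubgroup_def,
      Subgroup.closure_le]
    rintro g ⟨hgP, x, hxP, u, rfl⟩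
    have hxu : u * x * u⁻¹ ∈ (P : Subgroup G) := by
      have h1 : u * x * u⁻¹ = (x⁻¹ * ⁅x, u⁆)⁻¹ := by
        simp only [commutatorElement_def]; group
      rw [h1]
      exact inv_mem (mul_mem (inv_mem hxP) hgP)
    have hB : Subgroup.zpowers x ≤ (P : Subgroup G) := (Subgroup.zpowers_le).mpr hxP
    have hBu : MulAut.conj u • Subgroup.zpowers x ≤ (P : Subgroup G) := by
      rw [Subgroup.pointwise_smul_subset_iff, Subgroup.zpowers_le,
        Subgroup.mem_inv_pointwise_smul_iff]
      simpa [MulAut.smul_def] using hxu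
    obtain ⟨c, y, hc, hy, rfl⟩ := alperin_fusion P _ u hB hBu
    have h1 : ⁅x, y * c⁆ = ⁅x, c⁆ * ⁅c * x * c⁻¹, y⁆ := by
      simp only [commutatorElement_def]; group
    rw [h1]
    apply mul_mem
    · apply hc.commutator_mem _ _ x (Subgroup.mem_zpowers x)
      intro Q hQ z hz hzp b hb
      apply Subgroup.mem_sup_right
      obtain ⟨k, hk⟩ := hzp
      have hzP : IsPGroup p (Subgroup.zpowers z) := by
        apply IsPGroup.of_card (n := k)
        rw [Nat.card_zpowers, hk]
      obtain ⟨n, hn, hnz⟩ := exists_conj_le_of_sylowOf hzP ((Subgroup.zpowers_le).mpr hz)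
        (P.2.to_le (inf_le_left : (P : Subgroup G) ⊓ Subgroup.normalizer
          (((P : Subgroup G) ⊓ (Q : Subgroup G) : Subgroup G) : Set G) ≤ P)) inf_le_right hQ.1
      have ht : n * z * n⁻¹ ∈ (P : Subgroup G) := by
        have : n * z * n⁻¹ ∈ MulAut.conj n • Subgroup.zpowers z := by
          rw [Subgroup.mem_pointwise_smul_iff_inv_smul_mem]
          simp [MulAut.smul_def, mul_assoc]
        exact (hnz this).1
      have hnb : n * b * n⁻¹ ∈ (P : Subgroup G) :=
        (((Subgroup.mem_normalizer_iff).mp hn b).mp hb).1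
      refine Subgroup.mem_iSup_of_mem n⁻¹ ⟨?_, ?_⟩
      · have h2 : z * b⁻¹ * z⁻¹ ∈ (P : Subgroup G) :=
          (((Subgroup.mem_normalizer_iff).mp hz b⁻¹).mp (inv_mem hb)).1
        have h3 : ⁅b, z⁆ = b * (z * b⁻¹ * z⁻¹) := by
          simp only [commutatorElement_def]; group
        rw [h3]
        exact mul_mem hb.1 h2
      · refine ⟨⁅n * b * n⁻¹, n * z * n⁻¹⁆, Subgroup.commutator_mem_commutator hnb ht, ?_⟩
        simp only [commutatorElement_def, MulEquiv.coe_toMonoidHom, MulAut.conj_apply]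
        group
    · apply Subgroup.mem_sup_left
      have hx' : c * x * c⁻¹ ∈ (P : Subgroup G) := by
        apply hc.conj_le
        rw [Subgroup.mem_pointwise_smul_iff_inv_smul_mem]
        simp [MulAut.smul_def, mul_assoc]
      refine ⟨?_, Subgroup.commutator_mem_commutator (Subgroup.le_normalizer hx') hy⟩
      have h2 : y * (c * x * c⁻¹)⁻¹ * y⁻¹ ∈ (P : Subgroup G) :=
        ((Subgroup.mem_normalizer_iff).mp hy _).mp (inv_mem hx')
      have h3 : ⁅c * x * c⁻¹, y⁆ = (c * x * c⁻¹) * (y * (c * x * c⁻¹)⁻¹ * y⁻¹) := by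
        simp only [commutatorElement_def]; group
      rw [h3]
      exact mul_mem hx' h2
  · have hcomm : ∀ A B : Subgroup G, ⁅A, B⁆ ≤ commutator G := by
      intro A B
      rw [commutator_def]
      exact Subgroup.commutator_mono le_top le_top
    apply sup_le
    · exact inf_le_inf_left _ (hcomm _ _)
    · refine iSup_le fun z => inf_le_inf_left _ ?_
      rw [Subgroup.map_commutator]
      exact hcomm _ _

end Cfsg.Agent.S4216
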