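import Cfsg.Statements.S4217
import Mathlib

set_option autoImplicit false
open Cfsg
open scoped Pointwise IsMulCommutative

namespace Cfsg.Agent.S4217

variable {G : Type*} [Group G]

/-- crossed homomorphisms `G → A` restricting to the `m`-th power map on `A` -/
def CH (A : Subgroup G) [A.Normal] (m : ℕ) : Prop :=
  ∃ φ : G → ↥A, (∀ g h, φ (g * h) = MulAut.conjNormal g (φ h) * φ g) ∧ ∀ a : ↥A, φ (a : G) = a ^ m

theorem ch_gcd (A : Subgroup G) [A.Normal] [IsMulCommutative ↥A] {m₁ m₂ : ℕ}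
    (h₁ : CH A m₁) (h₂ : CH A m₂) : CH A (Nat.gcd m₁ m₂) := by
  obtain ⟨φ₁, h1c, h1a⟩ := h₁
  obtain ⟨φ₂, h2c, h2a⟩ := h₂
  refine ⟨fun g => φ₁ g ^ (Nat.gcdA m₁ m₂) * φ₂ g ^ (Nat.gcdB m₁ m₂), ?_, ?_⟩
  · intro g h
    simp only [h1c, h2c, mul_zpow, map_mul, map_zpow]
    exact mul_mul_mul_comm _ _ _ _
  · intro a
    simp only [h1a, h2a]
    rw [← zpow_natCast, ← zpow_natCast, ← zpow_mul, ← zpow_mul, ← zpow_add, ← zpow_natCast,
      Nat.gcd_eq_gcd_ab]

theorem complement_of_ch_one (A : Subgroup G) [A.Normal] [IsMulCommutative ↥A] (h : CH A 1) :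
    ∃ K : Subgroup G, K.IsComplement' A := by
  obtain ⟨φ, hc, ha⟩ := h
  have h1 : φ 1 = 1 := by
    have := hc 1 1
    simp at this
    exact this
  let K : Subgroup G :=
    { carrier := {g | φ g = 1}
      one_mem' := h1
      mul_mem' := by
        intro g h hg hh
        change φ g = 1 at hg
        change φ h = 1 at hh
        change φ (g * h) = 1
        rw [hc, hg, hh]; simp
      inv_mem' := by
        intro g hg
        change φ g = 1 at hg
        change φ g⁻¹ = 1
        have := hc g⁻¹ g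
        rw [inv_mul_cancel, h1, hg] at this
        simpa using this.symm }
  refine ⟨K, Subgroup.isComplement'_of_disjoint_and_mul_eq_univ ?_ ?_⟩
  · rw [Subgroup.disjoint_def]
    intro x hxK hxA
    have h2 : φ x = 1 := hxK
    have h3 := ha ⟨x, hxA⟩
    simp only [pow_one] at h3
    rw [h2] at h3
    exact (congrArg Subtype.val h3).symm
  · apply Set.eq_univ_of_forall
    intro g
    -- b := g⁻¹ (φ g)⁻¹ g ∈ A
    have hb : g⁻¹ * ((φ g : G))⁻¹ * g ∈ A := by
      have := Subgroup.Normal.conj_mem (inferInstance : A.Normal) _ (A.inv_mem (φ g).2) g⁻¹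
      simpa using this
    refine Set.mem_mul.mpr ⟨g * (g⁻¹ * ((φ g : G))⁻¹ * g), ?_, (g⁻¹ * ((φ g : G))⁻¹ * g)⁻¹,
      A.inv_mem hb, by group⟩
    show φ (g * (g⁻¹ * ((φ g : G))⁻¹ * g)) = 1
    have h4 := hc g (⟨_, hb⟩ : ↥A)
    rw [h4, ha]
    apply Subtype.ext
    simp only [pow_one, Subgroup.coe_mul, MulAut.conjNormal_apply, Subgroup.coe_one]
    group

section construction

variable (A : Subgroup G) [A.Normal] (S : Subgroup (G ⧸ A)) (K : Subgroup G)

/-- a section of `S` with values in the complement -/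
noncomputable def tau (hK : ∀ s ∈ S, ∃ k ∈ K, (QuotientGroup.mk' A) k = s) (z : G ⧸ A) : G :=
  open Classical in if h : z ∈ S then Classical.choose (hK z h) else 1

variable {A S K}
variable (hK : ∀ s ∈ S, ∃ k ∈ K, (QuotientGroup.mk' A) k = s)

theorem tau_mem {z : G ⧸ A} (hz : z ∈ S) : tau A S K hK z ∈ K := by
  unfold tau; rw [dif_pos hz]; exact (Classical.choose_spec (hK z hz)).1

theorem tau_pi {z : G ⧸ A} (hz : z ∈ S) : (QuotientGroup.mk' A) (tau A S K hK z) = z := by
  unfold tau; rw [dif_pos hz]; exact (Classical.choose_spec (hK z hz)).2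

theorem eq_of_pi_eq (hKA : K ⊓ A = ⊥) {k k' : G} (hk : k ∈ K) (hk' : k' ∈ K)
    (h : (QuotientGroup.mk' A) k = (QuotientGroup.mk' A) k') : k = k' := by
  have h1 : k⁻¹ * k' ∈ A := by
    rw [← QuotientGroup.eq_one_iff, ← QuotientGroup.mk'_apply, map_mul, map_inv, h]
    exact inv_mul_cancel _
  have h2 : k⁻¹ * k' ∈ K ⊓ A := ⟨K.mul_mem (K.inv_mem hk) hk', h1⟩
  rw [hKA, Subgroup.mem_bot] at h2
  exact inv_mul_eq_one.mp h2

theorem tau_mul (hKA : K ⊓ A = ⊥) {z w : G ⧸ A} (hz : z ∈ S) (hw : w ∈ S) :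
    tau A S K hK (z * w) = tau A S K hK z * tau A S K hK w := by
  apply eq_of_pi_eq hKA (tau_mem hK (S.mul_mem hz hw)) (K.mul_mem (tau_mem hK hz) (tau_mem hK hw))
  rw [map_mul, tau_pi hK (S.mul_mem hz hw), tau_pi hK hz, tau_pi hK hw]

theorem tau_one (hKA : K ⊓ A = ⊥) : tau A S K hK 1 = 1 := by
  apply eq_of_pi_eq hKA (tau_mem hK S.one_mem) K.one_mem
  rw [tau_pi hK S.one_mem, map_one]

/-- the "difference" of two elements in the same coset of the preimage of `S` -/
noncomputable def delta (x y : G) : G :=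
  x * (tau A S K hK (((QuotientGroup.mk' A) y)⁻¹ * (QuotientGroup.mk' A) x))⁻¹ * y⁻¹

def Rel (A : Subgroup G) [A.Normal] (S : Subgroup (G ⧸ A)) (x y : G) : Prop :=
  ((QuotientGroup.mk' A) y)⁻¹ * (QuotientGroup.mk' A) x ∈ S

theorem delta_mem {x y : G} (h : Rel A S x y) : delta hK x y ∈ A := by
  rw [← QuotientGroup.eq_one_iff, ← QuotientGroup.mk'_apply]
  unfold delta
  rw [map_mul, map_mul, map_inv, map_inv, tau_pi hK h]
  group

theorem delta_trans (hKA : K ⊓ A = ⊥) {x y w : G} (h1 : Rel A S x y) (h2 : Rel A S y w) :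
    delta hK x y * delta hK y w = delta hK x w := by
  unfold delta
  have e : ((QuotientGroup.mk' A) w)⁻¹ * (QuotientGroup.mk' A) x =
      (((QuotientGroup.mk' A) w)⁻¹ * (QuotientGroup.mk' A) y) *
        (((QuotientGroup.mk' A) y)⁻¹ * (QuotientGroup.mk' A) x) := by group
  rw [e, tau_mul hK hKA h2 h1]
  group

theorem rel_trans {x y w : G} (h1 : Rel A S x y) (h2 : Rel A S y w) : Rel A S x w := by
  unfold Rel at *
  have e : ((QuotientGroup.mk' A) w)⁻¹ * (QuotientGroup.mk' A) x =
      (((QuotientGroup.mk' A) w)⁻¹ * (QuotientGroup.mk' A) y) *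
        (((QuotientGroup.mk' A) y)⁻¹ * (QuotientGroup.mk' A) x) := by group
  rw [e]
  exact S.mul_mem h2 h1

theorem rel_mul_left (g : G) {x y : G} (h : Rel A S x y) : Rel A S (g * x) (g * y) := by
  unfold Rel at *
  have e : ((QuotientGroup.mk' A) (g * y))⁻¹ * (QuotientGroup.mk' A) (g * x) =
      ((QuotientGroup.mk' A) y)⁻¹ * (QuotientGroup.mk' A) x := by
    rw [map_mul, map_mul]; group
  rw [e]; exact h

theorem delta_mul_left (g x y : G) : delta hK (g * x) (g * y) = g * delta hK x y * g⁻¹ := by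
  unfold delta
  have e : ((QuotientGroup.mk' A) (g * y))⁻¹ * (QuotientGroup.mk' A) (g * x) =
      ((QuotientGroup.mk' A) y)⁻¹ * (QuotientGroup.mk' A) x := by
    rw [map_mul, map_mul]; group
  rw [e]
  group

theorem delta_A_mul {a : G} (ha : a ∈ A) (x y : G) : delta hK (a * x) y = a * delta hK x y := by
  unfold delta
  have e : (QuotientGroup.mk' A) (a * x) = (QuotientGroup.mk' A) x := by
    rw [map_mul]
    have : (QuotientGroup.mk' A) a = 1 := by
      rw [QuotientGroup.mk'_apply, QuotientGroup.eq_one_iff]; exact ha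
    rw [this, one_mul]
  rw [e]
  group

theorem delta_self (hKA : K ⊓ A = ⊥) (x : G) : delta hK x x = 1 := by
  unfold delta
  rw [inv_mul_cancel, tau_one hK hKA]
  group

/-- the `A`-valued difference -/
noncomputable def deltaA (x y : G) : ↥A :=
  open Classical in if h : delta hK x y ∈ A then ⟨delta hK x y, h⟩ else 1

theorem deltaA_coe {x y : G} (h : Rel A S x y) : (deltaA hK x y : G) = delta hK x y := by
  unfold deltaA; rw [dif_pos (delta_mem hK h)]

include hK in
theorem ch_of_splitting [Finite G] [IsMulCommutative ↥A] (hKA : K ⊓ A = ⊥) : CH A S.index := by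
  classical
  have : Fintype ((G ⧸ A) ⧸ S) := Fintype.ofFinite _
  set π := QuotientGroup.mk' A with hπ
  -- coset representatives
  have hsurj : Function.Surjective (fun g : G => ((π g : G ⧸ A) : (G ⧸ A) ⧸ S)) := by
    intro c
    obtain ⟨z, rfl⟩ := QuotientGroup.mk_surjective c
    obtain ⟨g, rfl⟩ := QuotientGroup.mk'_surjective A z
    exact ⟨g, rfl⟩
  set r : (G ⧸ A) ⧸ S → G := Function.surjInv hsurj with hr
  have hr' : ∀ c, ((π (r c) : G ⧸ A) : (G ⧸ A) ⧸ S) = c := fun c => Function.surjInv_eq hsurj c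
  have hrel : ∀ (g : G) (c : (G ⧸ A) ⧸ S), Rel A S (g * r c) (r (π g • c)) := by
    intro g c
    unfold Rel
    rw [← QuotientGroup.eq]
    rw [hr' (π g • c), map_mul]
    conv_lhs => rw [← hr' c]
    rfl
  refine ⟨fun g => ∏ c : (G ⧸ A) ⧸ S, deltaA hK (g * r c) (r (π g • c)), ?_, ?_⟩
  · intro g h
    have step : ∀ c : (G ⧸ A) ⧸ S, deltaA hK (g * h * r c) (r (π (g * h) • c)) =
        MulAut.conjNormal g (deltaA hK (h * r c) (r (π h • c))) *
          deltaA hK (g * r (π h • c)) (r (π g • (π h • c))) := by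
      intro c
      have r1 : Rel A S (g * (h * r c)) (g * r (π h • c)) := rel_mul_left g (hrel h c)
      have r2 : Rel A S (g * r (π h • c)) (r (π g • (π h • c))) := hrel g (π h • c)
      have e1 : π (g * h) • c = π g • (π h • c) := by rw [map_mul, mul_smul]
      apply Subtype.ext
      rw [Subgroup.coe_mul, MulAut.conjNormal_apply, deltaA_coe hK (hrel h c), deltaA_coe hK r2,
        e1, mul_assoc g h (r c), deltaA_coe hK (rel_trans r1 r2), ← delta_trans hK hKA r1 r2,
        delta_mul_left]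
    simp only [step]
    rw [Finset.prod_mul_distrib, map_prod]
    congr 1
    exact Equiv.prod_comp (MulAction.toPerm (π h)) (fun c' => deltaA hK (g * r c') (r (π g • c')))
  · intro a
    have hπa : π (a : G) = 1 := by
      rw [hπ, QuotientGroup.mk'_apply, QuotientGroup.eq_one_iff]; exact a.2
    have step : ∀ c : (G ⧸ A) ⧸ S, deltaA hK ((a : G) * r c) (r (π (a : G) • c)) = a := by
      intro c
      apply Subtype.ext
      rw [deltaA_coe hK (hrel (a : G) c), hπa, one_smul, delta_A_mul hK a.2, delta_self hK hKA,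
        mul_one]
    simp only [step]
    rw [Finset.prod_const, Finset.card_univ, Subgroup.index, Nat.card_eq_fintype_card]

end construction

/-- Let `A` be an abelian normal subgroup of the finite group `G`. Then `A` has a complement in `G` if and only if, for every prime `p` dividing the index of `A`, there are a Sylow `p`-subgroup `S` of `G/A` and a subgroup `K` of `G` with `K ∩ A = 1` and `KA` equal to the preimage of `S` (that is, `A` has a complement in the preimage of a Sylow `p`-subgroup of `G/A`). -/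
theorem result {G : Type*} [Group G] [Finite G] (A : Subgroup G) [A.Normal] (hA : IsMulCommutative A) : (∃ K : Subgroup G, K.IsComplement' A) ↔ ∀ p : ℕ, p.Prime → p ∣ A.index → ∃ (S : Sylow p (G ⧸ A)) (K : Subgroup G), K ⊓ A = ⊥ ∧ K ⊔ A = (S : Subgroup (G ⧸ A)).comap (QuotientGroup.mk' A) := by
  have := hA
  constructor
  · rintro ⟨K, hK⟩ p hp _
    have : Fact p.Prime := ⟨hp⟩
    have hsup := hK.sup_eq_top
    have hdisj : K ⊓ A = ⊥ := disjoint_iff.mp hK.disjoint
    set f : K →* G ⧸ A := (QuotientGroup.mk' A).comp K.subtype with hf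
    have hfs : Function.Surjective f := by
      intro z
      obtain ⟨g, rfl⟩ := QuotientGroup.mk'_surjective A z
      have hg : g ∈ ((K ⊔ A : Subgroup G) : Set G) := by rw [hsup]; trivial
      rw [Subgroup.mul_normal] at hg
      obtain ⟨k, hk, a, ha, rfl⟩ := Set.mem_mul.mp hg
      refine ⟨⟨k, hk⟩, ?_⟩
      simp only [hf, MonoidHom.comp_apply, Subgroup.coe_subtype, map_mul]
      have : (QuotientGroup.mk' A) a = 1 := by
        rw [QuotientGroup.mk'_apply, QuotientGroup.eq_one_iff]; exact ha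
      rw [this, mul_one]
    obtain ⟨Q⟩ : Nonempty (Sylow p K) := inferInstance
    refine ⟨Q.mapSurjective hfs, (Q : Subgroup K).map K.subtype, ?_, ?_⟩
    · apply le_antisymm _ bot_le
      rw [← hdisj]
      exact inf_le_inf_right A (Subgroup.map_subtype_le _)
    · have e : ((Q.mapSurjective hfs : Sylow p (G ⧸ A)) : Subgroup (G ⧸ A)) =
          ((Q : Subgroup K).map K.subtype).map (QuotientGroup.mk' A) := by
        rw [Subgroup.map_map]; rfl
      rw [e, Subgroup.comap_map_eq, QuotientGroup.ker_mk']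
  · intro h
    by_cases hidx : A.index = 1
    · rw [Subgroup.index_eq_one] at hidx
      subst hidx
      exact ⟨⊥, Subgroup.isComplement'_bot_top⟩
    have hkey : ∀ p : ℕ, p.Prime → p ∣ A.index → ∃ S : Sylow p (G ⧸ A),
        CH A (S : Subgroup (G ⧸ A)).index := by
      intro p hp hpd
      obtain ⟨S, K, hK1, hK2⟩ := h p hp hpd
      refine ⟨S, ch_of_splitting (K := K) ?_ hK1⟩
      intro s hs
      obtain ⟨g, rfl⟩ := QuotientGroup.mk'_surjective A s
      have hg : g ∈ ((K ⊔ A : Subgroup G) : Set G) := by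
        rw [hK2]; exact hs
      rw [Subgroup.mul_normal] at hg
      obtain ⟨k, hk, a, ha, rfl⟩ := Set.mem_mul.mp hg
      refine ⟨k, hk, ?_⟩
      rw [map_mul]
      have : (QuotientGroup.mk' A) a = 1 := by
        rw [QuotientGroup.mk'_apply, QuotientGroup.eq_one_iff]; exact ha
      rw [this, mul_one]
    obtain ⟨p₀, hp₀, hp₀d⟩ := Nat.exists_prime_and_dvd hidx
    have hex : ∃ m, 0 < m ∧ CH A m := by
      obtain ⟨S, hS⟩ := hkey p₀ hp₀ hp₀d
      exact ⟨_, Nat.pos_of_ne_zero Subgroup.index_ne_zero_of_finite, hS⟩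
    classical
    set d := Nat.find hex with hd
    have hd1 : 0 < d := (Nat.find_spec hex).1
    have hd2 : CH A d := (Nat.find_spec hex).2
    have hdvd : ∀ m, CH A m → d ∣ m := by
      intro m hm
      have h1 : CH A (Nat.gcd d m) := ch_gcd A hd2 hm
      have h2 : 0 < Nat.gcd d m := Nat.gcd_pos_of_pos_left m hd1
      have h3 : d ≤ Nat.gcd d m := Nat.find_min' hex ⟨h2, h1⟩
      have h4 : Nat.gcd d m ∣ d := Nat.gcd_dvd_left d m
      have h5 : Nat.gcd d m = d := le_antisymm (Nat.le_of_dvd hd1 h4) h3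
      rw [← h5]; exact Nat.gcd_dvd_right d m
    by_cases hd' : d = 1
    · rw [hd'] at hd2
      exact complement_of_ch_one A hd2
    exfalso
    obtain ⟨r, hr, hrd⟩ := Nat.exists_prime_and_dvd hd'
    obtain ⟨S₀, hS₀⟩ := hkey p₀ hp₀ hp₀d
    have h1 : r ∣ (S₀ : Subgroup (G ⧸ A)).index := hrd.trans (hdvd _ hS₀)
    have h2 : r ∣ A.index := by
      have : (S₀ : Subgroup (G ⧸ A)).index ∣ Nat.card (G ⧸ A) := Subgroup.index_dvd_card _
      exact h1.trans this
    have : Fact r.Prime := ⟨hr⟩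
    obtain ⟨S, hS⟩ := hkey r hr h2
    exact S.not_dvd_index (hrd.trans (hdvd _ hS))

end Cfsg.Agent.S4217
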