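import Cfsg.Statements.S4218
import Cfsg.Agent.Lib.Helper75.FrattiniAct
import Cfsg.Agent.Lib.Helper40.HallHigman

set_option autoImplicit false
open Cfsg
open scoped commutatorElement

namespace Cfsg.Agent.S4218

open Cfsg.Agent.Lib.Helper75.Fratt

/-- the preimage of the Frattini subgroup, computed in `G / O_{p'}(G)` -/
theorem mem_F_iff {G : Type*} [Group G] {p : ℕ} (y : G) :
    y ∈ ((frattini (↥(Cfsg.pPrimePCore p G) ⧸ (Cfsg.pPrimeCore p G).subgroupOf (Cfsg.pPrimePCore p G))).comap (QuotientGroup.mk' ((Cfsg.pPrimeCore p G).subgroupOf (Cfsg.pPrimePCore p G)))).map (Cfsg.pPrimePCore p G).subtype ↔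
      (QuotientGroup.mk' (pPrimeCore p G)) y ∈
        (frattini ↥(pCore p (G ⧸ pPrimeCore p G))).map (pCore p (G ⧸ pPrimeCore p G)).subtype := by
  set N₀ := pPrimeCore p G with hN₀
  set π := QuotientGroup.mk' N₀ with hπ
  set Pb := pCore p (G ⧸ N₀) with hPb
  have hP₁ : pPrimePCore p G = Pb.comap π := rfl
  set P₁ := pPrimePCore p G with hP₁def
  set ρ := QuotientGroup.mk' (N₀.subgroupOf P₁) with hρ
  -- the restriction of π
  let π' : ↥P₁ →* ↥Pb :=
    { toFun := fun x => ⟨π x.1, x.2⟩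
      map_one' := by apply Subtype.ext; simp
      map_mul' := fun a b => by apply Subtype.ext; simp }
  have hπ'val : ∀ x : ↥P₁, (π' x : G ⧸ N₀) = π x.1 := fun x => rfl
  have hker : ∀ x : ↥P₁, x ∈ N₀.subgroupOf P₁ → π' x = 1 := by
    intro x hx
    apply Subtype.ext
    rw [hπ'val]
    exact (QuotientGroup.eq_one_iff x.1).mpr hx
  let θ : (↥P₁ ⧸ N₀.subgroupOf P₁) →* ↥Pb := QuotientGroup.lift (N₀.subgroupOf P₁) π' hker
  have hθρ : ∀ x : ↥P₁, θ (ρ x) = π' x := fun x => rfl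
  have hθbij : Function.Bijective θ := by
    constructor
    · rw [injective_iff_map_eq_one]
      intro q hq
      obtain ⟨x, rfl⟩ := QuotientGroup.mk'_surjective (N₀.subgroupOf P₁) q
      have h1 : π' x = 1 := hq
      have h2 : π x.1 = 1 := by rw [← hπ'val, h1]; rfl
      exact (QuotientGroup.eq_one_iff x).mpr ((QuotientGroup.eq_one_iff x.1).mp h2)
    · intro z
      obtain ⟨g, hg⟩ := QuotientGroup.mk'_surjective N₀ z.1
      have hgP : g ∈ P₁ := by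
        rw [hP₁, Subgroup.mem_comap, hg]; exact z.2
      exact ⟨ρ ⟨g, hgP⟩, Subtype.ext hg⟩
  have hfr := frattini_comap_equiv (MulEquiv.ofBijective θ hθbij)
  have hfr' : ∀ x : ↥P₁, ρ x ∈ frattini (↥P₁ ⧸ N₀.subgroupOf P₁) ↔ π' x ∈ frattini ↥Pb := by
    intro x
    rw [← hfr]
    rfl
  constructor
  · rintro ⟨x, hx, rfl⟩
    have hx' : ρ x ∈ frattini (↥P₁ ⧸ N₀.subgroupOf P₁) := hx
    rw [hfr'] at hx'
    exact ⟨π' x, hx', rfl⟩
  · rintro ⟨z, hz, hzy⟩
    have hyP : y ∈ P₁ := by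
      rw [hP₁, Subgroup.mem_comap, ← hzy]; exact z.2
    refine ⟨⟨y, hyP⟩, ?_, rfl⟩
    show ρ ⟨y, hyP⟩ ∈ frattini (↥P₁ ⧸ N₀.subgroupOf P₁)
    rw [hfr']
    have : π' ⟨y, hyP⟩ = z := Subtype.ext hzy.symm
    rw [this]; exact hz

/-- Let `G` be a finite `p`-solvable group, `N₀ = O_{p'}(G)`, `P₁ = O_{p',p}(G)`, and let `F ≤ P₁` be the preimage of the Frattini subgroup of `P₁/N₀`. Then an element `g` of `G` induces the identity on `P₁/F` by conjugation (that is, `g x g⁻¹ x⁻¹ ∈ F` for all `x ∈ P₁`) if and only if `g ∈ P₁`: the group `G/P₁` acts faithfully on `P₁/F`. -/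
theorem result {G : Type*} [Group G] [Finite G] {p : ℕ} [Fact p.Prime] (hG : Cfsg.IsPSolvable p G) (g : G) : (∀ x ∈ Cfsg.pPrimePCore p G, g * x * g⁻¹ * x⁻¹ ∈ ((frattini (↥(Cfsg.pPrimePCore p G) ⧸ (Cfsg.pPrimeCore p G).subgroupOf (Cfsg.pPrimePCore p G))).comap (QuotientGroup.mk' ((Cfsg.pPrimeCore p G).subgroupOf (Cfsg.pPrimePCore p G)))).map (Cfsg.pPrimePCore p G).subtype) ↔ g ∈ Cfsg.pPrimePCore p G := by
  simp only [mem_F_iff]
  set N₀ := pPrimeCore p G with hN₀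
  set π := QuotientGroup.mk' N₀ with hπ
  set Pb := pCore p (G ⧸ N₀) with hPb
  have hP₁ : pPrimePCore p G = Pb.comap π := rfl
  have hPbp : IsPGroup p Pb := Cfsg.Agent.Lib.Helper40.pCore_isPGroup' p
  set Φ := (frattini ↥Pb).map Pb.subtype with hΦ
  have hΦn : Φ.Normal := inferInstance
  have hΦP : Φ ≤ Pb := Subgroup.map_subtype_le _
  rw [hP₁]
  constructor
  · intro h
    rw [Subgroup.mem_comap]
    -- the centralizer of Pb/Φ
    have hcond : ∀ xb ∈ Pb, π g * xb * (π g)⁻¹ * xb⁻¹ ∈ Φ := by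
      intro xb hxb
      obtain ⟨x, rfl⟩ := QuotientGroup.mk'_surjective N₀ xb
      have := h x (by rw [Subgroup.mem_comap]; exact hxb)
      rwa [map_mul, map_mul, map_mul, map_inv, map_inv] at this
    let C : Subgroup (G ⧸ N₀) :=
      { carrier := {c | ∀ xb ∈ Pb, c * xb * c⁻¹ * xb⁻¹ ∈ Φ}
        one_mem' := by
          intro xb _
          have : (1 : G ⧸ N₀) * xb * 1⁻¹ * xb⁻¹ = 1 := by group
          rw [this]; exact Φ.one_mem
        mul_mem' := by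
          intro c₁ c₂ h₁ h₂ xb hxb
          have e : c₁ * c₂ * xb * (c₁ * c₂)⁻¹ * xb⁻¹ =
              c₁ * (c₂ * xb * c₂⁻¹ * xb⁻¹) * c₁⁻¹ * (c₁ * xb * c₁⁻¹ * xb⁻¹) := by group
          rw [e]
          exact Φ.mul_mem (hΦn.conj_mem _ (h₂ xb hxb) c₁) (h₁ xb hxb)
        inv_mem' := by
          intro c h₁ xb hxb
          have e : c⁻¹ * xb * c⁻¹⁻¹ * xb⁻¹ = c⁻¹ * (c * xb * c⁻¹ * xb⁻¹)⁻¹ * c⁻¹⁻¹ := by group
          rw [e]
          exact hΦn.conj_mem _ (Φ.inv_mem (h₁ xb hxb)) c⁻¹ }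
    have hCn : C.Normal := by
      constructor
      intro c hc d xb hxb
      have hxb' : d⁻¹ * xb * d⁻¹⁻¹ ∈ Pb := (inferInstance : Pb.Normal).conj_mem _ hxb d⁻¹
      have e : d * c * d⁻¹ * xb * (d * c * d⁻¹)⁻¹ * xb⁻¹ =
          d * (c * (d⁻¹ * xb * d⁻¹⁻¹) * c⁻¹ * (d⁻¹ * xb * d⁻¹⁻¹)⁻¹) * d⁻¹ := by group
      rw [e]
      exact hΦn.conj_mem _ (hc _ hxb') d
    have hgC : π g ∈ C := hcond
    have hCp : IsPGroup p C := by
      by_contra hcon
      have hex : ∃ q : ℕ, q.Prime ∧ q ∣ Nat.card C ∧ q ≠ p := by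
        by_contra hno
        push Not at hno
        apply hcon
        have := Nat.eq_prime_pow_of_unique_prime_dvd (p := p) (n := Nat.card C) Nat.card_pos.ne'
          (fun {d} hd hdvd => hno d hd hdvd)
        exact IsPGroup.of_card this
      obtain ⟨q, hq, hqd, hqp⟩ := hex
      have : Fact q.Prime := ⟨hq⟩
      obtain ⟨c, hc⟩ := exists_prime_orderOf_dvd_card' q hqd
      have hc1 : (c : G ⧸ N₀) ^ q ^ 1 = 1 := by
        rw [pow_one, ← Subgroup.coe_pow, ← hc, pow_orderOf_eq_one]; rfl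
      have hcent := mem_centralizer_of_frattini (Ne.symm hqp) Pb hPbp (c : G ⧸ N₀) 1 hc1 c.2
      have hHH := Cfsg.Agent.Lib.Helper40.centralizer_pCore_le
        (isPSolvable_quotient N₀ hG) (pPrimeCore_quotient_eq_bot' p) hcent
      obtain ⟨m, hm⟩ := (IsPGroup.iff_orderOf.mp hPbp) ⟨(c : G ⧸ N₀), hHH⟩
      have h2 : orderOf (c : G ⧸ N₀) = q := by rw [Subgroup.orderOf_coe, hc]
      have h3 : orderOf (⟨(c : G ⧸ N₀), hHH⟩ : ↥Pb) = q := by
        rw [← Subgroup.orderOf_coe]; exact h2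
      rw [h3] at hm
      have : q ∣ p ^ m := by rw [← hm]
      exact hqp ((Nat.prime_dvd_prime_iff_eq hq Fact.out).mp (hq.dvd_of_dvd_pow this))
    have hle : C ≤ pCore p (G ⧸ N₀) := le_sSup ⟨hCn, hCp⟩
    exact hle hgC
  · intro hg x hx
    rw [Subgroup.mem_comap] at hg hx
    rw [map_mul, map_mul, map_mul, map_inv, map_inv]
    have h1 : ⁅(⟨π g, hg⟩ : ↥Pb), (⟨π x, hx⟩ : ↥Pb)⁆ ∈ frattini ↥Pb :=
      commutator_le_frattini hPbp
        (Subgroup.commutator_mem_commutator (Subgroup.mem_top _) (Subgroup.mem_top _))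
    have h2 := Subgroup.mem_map_of_mem Pb.subtype h1
    exact h2

end Cfsg.Agent.S4218
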