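import Cfsg.Statements.S4219
import Mathlib

set_option autoImplicit false
open Cfsg
open scoped Pointwise

namespace Cfsg.Agent.S4219

/-- Let a finite group `G` act `t`-fold transitively on a finite set, let `H` be the stabilizer of `t` distinct points and `P` a Sylow `p`-subgroup of `H`. Then the normalizer of `P` in `G` is `t`-fold transitive on the fixed points of `P`: any `t` distinct fixed points of `P` can be carried to any other `t` distinct fixed points of `P` by an element normalizing `P`. -/
theorem result {G : Type*} [Group G] [Finite G] {α : Type*} [Fintype α] [MulAction G α] {t : ℕ} (hG : MulAction.IsMultiplyPretransitive G α t) (x : Fin t ↪ α) {p : ℕ} [Fact p.Prime] (P : Sylow p (MulAction.stabilizer G x)) (a b : Fin t ↪ α) (ha : ∀ i, a i ∈ MulAction.fixedPoints ((P : Subgroup (MulAction.stabilizer G x)).map (MulAction.stabilizer G x).subtype) α) (hb : ∀ i, b i ∈ MulAction.fixedPoints ((P : Subgroup (MulAction.stabilizer G x)).map (MulAction.stabilizer G x).subtype) α) : ∃ g ∈ Subgroup.normalizer ((((P : Subgroup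 (MulAction.stabilizer G x)).map (MulAction.stabilizer G x).subtype) : Subgroup G) : Set G), g • a = b := by
  classical
  have hQcard0 : Nat.card ((P : Subgroup (MulAction.stabilizer G x)).map (MulAction.stabilizer G x).subtype)
      = p ^ (Nat.card (MulAction.stabilizer G x)).factorization p := by
    rw [← P.card_eq_multiplicity]
    exact Nat.card_congr ((P : Subgroup (MulAction.stabilizer G x)).equivMapOfInjective
      (MulAction.stabilizer G x).subtype (MulAction.stabilizer G x).subtype_injective).toEquiv.symm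
  generalize hQ : ((P : Subgroup (MulAction.stabilizer G x)).map (MulAction.stabilizer G x).subtype) = Q
    at ha hb hQcard0 ⊢
  have hQa : Q ≤ MulAction.stabilizer G a := by
    intro q hq
    rw [MulAction.mem_stabilizer_iff]
    ext i
    exact ha i ⟨q, hq⟩
  have hQb : Q ≤ MulAction.stabilizer G b := by
    intro q hq
    rw [MulAction.mem_stabilizer_iff]
    ext i
    exact hb i ⟨q, hq⟩
  have : MulAction.IsPretransitive G (Fin t ↪ α) := hG
  obtain ⟨g0, hg0⟩ := MulAction.exists_smul_eq G a b
  obtain ⟨g1, hg1⟩ := MulAction.exists_smul_eq G x b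
  set Hb := MulAction.stabilizer G b with hHb
  have hcard : Nat.card Hb = Nat.card (MulAction.stabilizer G x) :=
    (Nat.card_congr (MulAction.stabilizerEquivStabilizer hg1.symm).toEquiv).symm
  have hQcard : Nat.card Q = p ^ (Nat.card Hb).factorization p := by
    rw [hcard, hQcard0]
  set Q' : Subgroup G := Q.map (MulAut.conj g0).toMonoidHom with hQ'
  have hQ'b : Q' ≤ Hb := by
    rintro _ ⟨q, hq, rfl⟩
    rw [MulAction.mem_stabilizer_iff]
    have h1 : q • a = a := hQa hq
    simp only [MulEquiv.coe_toMonoidHom, MulAut.conj_apply]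
    rw [mul_smul, mul_smul, ← hg0, inv_smul_smul, h1]
  have hQ'card : Nat.card Q' = Nat.card Q :=
    Nat.card_congr (Q.equivMapOfInjective _ (MulAut.conj g0).injective).toEquiv.symm
  have key : ∀ R : Subgroup G, R ≤ Hb → Nat.card R = Nat.card Q →
      ∃ S : Sylow p Hb, (S : Subgroup Hb) = R.subgroupOf Hb := by
    intro R hR hRc
    have : Nat.card (R.subgroupOf Hb) = p ^ (Nat.card Hb).factorization p := by
      rw [← hQcard, ← hRc]
      exact Nat.card_congr (Subgroup.subgroupOfEquivOfLe hR).toEquiv
    exact ⟨Sylow.ofCard _ this, Sylow.coe_ofCard _ this⟩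
  obtain ⟨S1, hS1⟩ := key Q hQb rfl
  obtain ⟨S2, hS2⟩ := key Q' hQ'b hQ'card
  obtain ⟨h, hh⟩ := MulAction.exists_smul_eq Hb S2 S1
  have hconj : ∀ y : G, y ∈ Q ↔ (h : G)⁻¹ * y * (h : G) ∈ Q' := by
    intro y
    constructor
    · intro hy
      have hyb : y ∈ Hb := hQb hy
      have h1 : (⟨y, hyb⟩ : Hb) ∈ (S1 : Subgroup Hb) := by
        rw [hS1, Subgroup.mem_subgroupOf]; exact hy
      rw [← hh, Sylow.coe_subgroup_smul, Subgroup.mem_pointwise_smul_iff_inv_smul_mem, hS2,
        Subgroup.mem_subgroupOf] at h1
      simpa [MulAut.smul_def] using h1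
    · intro hy
      have hyb : (h : G)⁻¹ * y * (h : G) ∈ Hb := hQ'b hy
      have hyb' : y ∈ Hb := by
        have := Hb.mul_mem (Hb.mul_mem h.2 hyb) (Hb.inv_mem h.2)
        simpa [mul_assoc] using this
      have h1 : (⟨y, hyb'⟩ : Hb) ∈ (S1 : Subgroup Hb) := by
        rw [← hh, Sylow.coe_subgroup_smul, Subgroup.mem_pointwise_smul_iff_inv_smul_mem, hS2,
          Subgroup.mem_subgroupOf]
        simpa [MulAut.smul_def] using hy
      rw [hS1, Subgroup.mem_subgroupOf] at h1
      exact h1
  refine ⟨(h : G) * g0, ?_, ?_⟩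
  · rw [Subgroup.mem_normalizer_iff]
    intro y
    rw [hconj ((h : G) * g0 * y * ((h : G) * g0)⁻¹)]
    have : (h : G)⁻¹ * ((h : G) * g0 * y * ((h : G) * g0)⁻¹) * (h : G) = g0 * y * g0⁻¹ := by group
    rw [this, hQ']
    constructor
    · intro hy
      exact ⟨y, hy, by simp⟩
    · rintro ⟨z, hz, hzy⟩
      have : z = y := by
        simpa using hzy
      rw [← this]; exact hz
  · rw [mul_smul, hg0]
    exact h.2

end Cfsg.Agent.S4219
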