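import Cfsg.Statements.S4220
import Cfsg.Agent.Lib.Helper75.Miller6
import Cfsg.Agent.Lib.Helper75.Miller7

set_option autoImplicit false
open Cfsg

namespace Cfsg.Agent.S4220

open Cfsg.Agent.Lib.Helper75.Miller in
/-- Let `n = kp + r` with `p` prime, `1 ≤ k < p` and `r > k`, excluding the case `k = 1, r = 2`. Then a permutation group of degree `n` that is `(r + 1)`-fold transitive contains the alternating group. -/
theorem result {α : Type*} [Fintype α] [DecidableEq α] (G : Subgroup (Equiv.Perm α)) {k p r : ℕ} (hp : p.Prime) (hn : Fintype.card α = k * p + r) (hk : 1 ≤ k) (hpk : k < p) (hrk : k < r) (hex : ¬ (k = 1 ∧ r = 2)) (hG : MulAction.IsMultiplyPretransitive G α (r + 1)) : alternatingGroup α ≤ G := by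
  have hr3 : 3 ≤ r := by
    by_contra h
    apply hex
    omega
  obtain ⟨Δ, -, hΔ⟩ := Finset.exists_subset_card_eq (s := (Finset.univ : Finset α)) (n := r)
    (by rw [Finset.card_univ, hn]; omega)
  have : Fact p.Prime := ⟨hp⟩
  obtain ⟨S⟩ : Nonempty (Sylow p (Cfsg.Agent.S0713.fixG G Δ)) := inferInstance
  obtain ⟨c, hcG, hcp, hck, hcr⟩ : ∃ c : Cfg α, c.G = G ∧ c.p = p ∧ c.k = k ∧ c.r = r :=
    ⟨{ G := G, p := p, k := k, r := r, hp := hp, hcard := hn, hk := hk, hkp := hpk, hr3 := hr3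
       htr := hG, Δ := Δ, hΔ := hΔ
       P := (S : Subgroup (Cfsg.Agent.S0713.fixG G Δ)).map (Cfsg.Agent.S0713.fixG G Δ).subtype
       hP := Cfsg.Agent.Lib.Helper75.Pron.sylIn_of_sylow S }, rfl, rfl, rfl, rfl⟩
  rw [← hcG]
  by_cases hk1 : k = 1
  · exact c.k_one (hck.trans hk1)
  by_cases h33 : p = 3 ∧ r = 3
  · have hk2 : k = 2 := by omega
    have h9 : Fintype.card α = 9 := by rw [hn, hk2, h33.1, h33.2]
    exact alt_le_of_nine c.G c.four_trans h9
  · exact c.generic (by rw [hck, hcr]; exact hrk) (by rw [hck]; omega)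
      (by rw [hcp, hcr]; exact h33)

end Cfsg.Agent.S4220
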