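import Cfsg.Statements.S4223
import Mathlib

set_option autoImplicit false
open Cfsg

namespace Cfsg.Agent.S4223

universe u v

/-- positive idempotent power in a finite monoid -/
theorem exists_idem_pow {M : Type*} [Monoid M] [Finite M] (a : M) :
    ∃ k, 0 < k ∧ a ^ k * a ^ k = a ^ k := by
  obtain ⟨i, j, hij, h⟩ := Finite.exists_ne_map_eq_of_infinite (fun n : ℕ => a ^ (n + 1))
  wlog hlt : i < j generalizing i j
  · exact this j i hij.symm h.symm (lt_of_le_of_ne (not_lt.mp hlt) hij.symm)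
  have h : a ^ (i + 1) = a ^ (j + 1) := h
  set s := i + 1 with hs
  obtain ⟨p, hp⟩ : ∃ p, j + 1 = s + p := ⟨j - i, by omega⟩
  have hp0 : 0 < p := by omega
  have hsp : a ^ (s + p) = a ^ s := by rw [← hp]; exact h.symm
  have h1 : ∀ t, a ^ (s + t * p) = a ^ s := by
    intro t
    induction t with
    | zero => simp
    | succ t ih =>
      have e : s + (t + 1) * p = t * p + (s + p) := by ring
      rw [e, pow_add, hsp, ← pow_add, add_comm, ih]
  refine ⟨s * p, Nat.mul_pos (by omega) hp0, ?_⟩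
  obtain ⟨w, hw⟩ : ∃ w, s * p = s + w := ⟨s * p - s, by
    have : s ≤ s * p := Nat.le_mul_of_pos_right s hp0
    omega⟩
  rw [← pow_add]
  have e : s * p + s * p = (s + s * p) + w := by omega
  rw [e, pow_add, h1 s, ← pow_add, ← hw]

/-- normal endomorphisms -/
def IsNormalEnd {X : Type*} [Group X] (φ : X →* X) : Prop :=
  ∀ g x, φ (g * x * g⁻¹) = g * φ x * g⁻¹

/-- directly indecomposable -/
def Indec (X : Type*) [Group X] : Prop :=
  ∀ H K : Subgroup X, H.Normal → K.Normal → H ⊓ K = ⊥ → H ⊔ K = ⊤ → H = ⊥ ∨ K = ⊥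

theorem iterate_normal {X : Type*} [Group X] {φ : X →* X} (hφ : IsNormalEnd φ) (k : ℕ) :
    ∀ g x, φ^[k] (g * x * g⁻¹) = g * φ^[k] x * g⁻¹ := by
  induction k with
  | zero => intro g x; rfl
  | succ k ih =>
    intro g x
    rw [Function.iterate_succ_apply', Function.iterate_succ_apply', ih, hφ]

/-- Fitting's lemma -/
theorem fitting {X : Type*} [Group X] [Finite X] (hX : Indec X) (φ : X →* X)
    (hφ : IsNormalEnd φ) : Function.Injective φ ∨ ∃ k : ℕ, ∀ a, φ^[k] a = 1 := by
  have : Finite (Monoid.End X) :=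
    Finite.of_injective (fun f : Monoid.End X => (f : X → X)) DFunLike.coe_injective
  obtain ⟨k, hk, hidem⟩ := exists_idem_pow (M := Monoid.End X) φ
  set ψ : X →* X := (HPow.hPow (α := Monoid.End X) φ k : Monoid.End X) with hψ
  have hψc : ∀ x, ψ x = φ^[k] x := fun x => rfl
  have hψψ : ∀ x, ψ (ψ x) = ψ x := by
    intro x
    have := congrArg (fun f : Monoid.End X => f x) hidem
    exact this
  have hK : (ψ.range).Normal := by
    constructor
    rintro _ ⟨y, rfl⟩ g
    refine ⟨g * y * g⁻¹, ?_⟩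
    rw [hψc, hψc, iterate_normal hφ]
  have h1 : ψ.ker ⊓ ψ.range = ⊥ := by
    rw [eq_bot_iff]
    intro y hy
    obtain ⟨hy1, hy2⟩ := Subgroup.mem_inf.mp hy
    obtain ⟨x, rfl⟩ := hy2
    rw [MonoidHom.mem_ker, hψψ] at hy1
    rw [hy1]; exact Subgroup.one_mem _
  have h2 : ψ.ker ⊔ ψ.range = ⊤ := by
    rw [eq_top_iff]
    intro x _
    have e : x = (x * (ψ x)⁻¹) * ψ x := by group
    rw [e]
    refine Subgroup.mul_mem _ (Subgroup.mem_sup_left ?_) (Subgroup.mem_sup_right ⟨x, rfl⟩)
    rw [MonoidHom.mem_ker, map_mul, map_inv, hψψ, mul_inv_cancel]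
  rcases hX ψ.ker ψ.range inferInstance hK h1 h2 with h | h
  · left
    have hinj : Function.Injective ψ := (MonoidHom.ker_eq_bot_iff ψ).mp h
    have hinj' : Function.Injective (φ^[k]) := hinj
    obtain ⟨k', rfl⟩ : ∃ k', k = k' + 1 := ⟨k - 1, by omega⟩
    rw [Function.iterate_succ] at hinj'
    exact Function.Injective.of_comp hinj'
  · right
    refine ⟨k, fun a => ?_⟩
    have : ψ a ∈ ψ.range := ⟨a, rfl⟩
    rw [h, Subgroup.mem_bot] at this
    exact this

section exchange

variable {I : Type*} {J : Type*} [DecidableEq I] [DecidableEq J]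
  {A : I → Type u} {B : J → Type v} [∀ i, Group (A i)] [∀ j, Group (B j)]
  (e : (∀ i, A i) ≃* (∀ j, B j)) (i₀ : I)

def iotaA : A i₀ →* (∀ j, B j) := e.toMonoidHom.comp (MonoidHom.mulSingle A i₀)

def piA : (∀ j, B j) →* A i₀ := (Pi.evalMonoidHom A i₀).comp e.symm.toMonoidHom

omit [DecidableEq J] in
theorem piA_iotaA (a : A i₀) : piA e i₀ (iotaA e i₀ a) = a := by
  simp [piA, iotaA]

/-- projection onto the coordinates in `T` -/
def eps (T : Finset J) : (∀ j, B j) →* (∀ j, B j) where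
  toFun y := fun j => if j ∈ T then y j else 1
  map_one' := by funext j; simp
  map_mul' y z := by funext j; by_cases h : j ∈ T <;> simp [h]

theorem eps_apply (T : Finset J) (y : ∀ j, B j) (j : J) :
    eps T y j = if j ∈ T then y j else 1 := rfl

theorem eps_conj (T : Finset J) (h y : ∀ j, B j) : eps T (h * y * h⁻¹) = h * eps T y * h⁻¹ := by
  funext j
  by_cases hj : j ∈ T <;> simp [eps_apply, hj]

theorem eps_insert {T : Finset J} {j : J} (hj : j ∉ T) (y : ∀ j, B j) :
    eps (insert j T) y = eps {j} y * eps T y := by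
  funext k
  by_cases hk : k = j
  · subst hk; simp [eps_apply, hj]
  · by_cases hk' : k ∈ T <;> simp [eps_apply, hk, hk']

theorem eps_univ [Fintype J] (y : ∀ j, B j) : eps Finset.univ y = y := by
  funext k; simp [eps_apply]

theorem eps_empty (y : ∀ j, B j) : eps (∅ : Finset J) y = 1 := by
  funext k; simp [eps_apply]

theorem eps_singleton (j : J) (y : ∀ j, B j) : eps {j} y = Pi.mulSingle j (y j) := by
  funext k
  by_cases hk : k = j
  · subst hk; simp [eps_apply]
  · simp [eps_apply, hk]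

def Theta (T : Finset J) : A i₀ →* A i₀ := (piA e i₀).comp ((eps T).comp (iotaA e i₀))

theorem Theta_apply (T : Finset J) (a : A i₀) :
    Theta e i₀ T a = piA e i₀ (eps T (iotaA e i₀ a)) := rfl

theorem Theta_normal (T : Finset J) : IsNormalEnd (Theta e i₀ T) := by
  intro g x
  have e1 : iotaA e i₀ (g * x * g⁻¹) = iotaA e i₀ g * iotaA e i₀ x * (iotaA e i₀ g)⁻¹ := by
    rw [map_mul, map_mul, map_inv]
  rw [Theta_apply, Theta_apply, e1, eps_conj, map_mul, map_mul, map_inv, piA_iotaA]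

theorem Theta_insert {T : Finset J} {j : J} (hj : j ∉ T) (a : A i₀) :
    Theta e i₀ (insert j T) a = Theta e i₀ {j} a * Theta e i₀ T a := by
  rw [Theta_apply, Theta_apply, Theta_apply, eps_insert hj, map_mul]

theorem Theta_univ [Fintype J] (a : A i₀) : Theta e i₀ Finset.univ a = a := by
  rw [Theta_apply, eps_univ, piA_iotaA]

theorem Theta_empty (a : A i₀) : Theta e i₀ ∅ a = 1 := by
  rw [Theta_apply, eps_empty, map_one]

theorem exists_inj [Finite (A i₀)] [Nontrivial (A i₀)] (hA : Indec (A i₀)) :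
    ∀ T : Finset J, Function.Injective (Theta e i₀ T) →
      ∃ j ∈ T, Function.Injective (Theta e i₀ {j}) := by
  intro T
  induction T using Finset.induction_on with
  | empty =>
    intro hinj
    exfalso
    obtain ⟨a, ha⟩ := exists_ne (1 : A i₀)
    apply ha
    apply hinj
    rw [Theta_empty, Theta_empty]
  | insert j T hj ih =>
    intro hinj
    have hsurj : Function.Surjective (Theta e i₀ (insert j T)) :=
      Finite.injective_iff_surjective.mp hinj
    set αe : A i₀ ≃* A i₀ := MulEquiv.ofBijective (Theta e i₀ (insert j T)) ⟨hinj, hsurj⟩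
      with hαe
    have hαe_apply : ∀ a, αe a = Theta e i₀ (insert j T) a := fun a => rfl
    have hαn : ∀ g x, αe.symm (g * x * g⁻¹) = g * αe.symm x * g⁻¹ := by
      intro g x
      rw [MulEquiv.symm_apply_eq, hαe_apply, Theta_normal e i₀ (insert j T) g (αe.symm x),
        ← hαe_apply, MulEquiv.apply_symm_apply]
    set φ : A i₀ →* A i₀ := (Theta e i₀ {j}).comp αe.symm.toMonoidHom with hφ
    have hφ_apply : ∀ x, φ x = Theta e i₀ {j} (αe.symm x) := fun x => rfl
    have hφn : IsNormalEnd φ := by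
      intro g x
      rw [hφ_apply, hφ_apply, hαn, Theta_normal]
    rcases fitting hA φ hφn with h | ⟨k, hk⟩
    · refine ⟨j, Finset.mem_insert_self j T, ?_⟩
      intro a b hab
      apply αe.injective
      apply h
      rw [hφ_apply, hφ_apply, MulEquiv.symm_apply_apply, MulEquiv.symm_apply_apply]
      exact hab
    · have hsum : ∀ x, φ x * Theta e i₀ T (αe.symm x) = x := by
        intro x
        rw [hφ_apply, ← Theta_insert e i₀ hj, ← hαe_apply, MulEquiv.apply_symm_apply]
      have hT : Function.Injective (Theta e i₀ T) := by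
        rw [injective_iff_map_eq_one]
        intro a ha
        have h1 := hsum (αe a)
        rw [MulEquiv.symm_apply_apply, ha, mul_one] at h1
        have h2 : φ^[k] (αe a) = αe a := Function.iterate_fixed h1 k
        rw [hk] at h2
        have h3 : αe a = αe 1 := by rw [← h2, map_one]
        exact αe.injective h3
      obtain ⟨j', hj', hinj'⟩ := ih hT
      exact ⟨j', Finset.mem_insert_of_mem hj', hinj'⟩

def fA (j₀ : J) : A i₀ →* B j₀ := (Pi.evalMonoidHom B j₀).comp (iotaA e i₀)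

def gB (j₀ : J) : B j₀ →* A i₀ := (piA e i₀).comp (MonoidHom.mulSingle B j₀)

theorem Theta_singleton (j₀ : J) (a : A i₀) : Theta e i₀ {j₀} a = gB e i₀ j₀ (fA e i₀ j₀ a) := by
  rw [Theta_apply, eps_singleton]
  rfl

theorem gB_bijective [Finite (A i₀)] [Nontrivial (A i₀)] (j₀ : J) (hB : Indec (B j₀))
    (hinj : Function.Injective (Theta e i₀ {j₀})) : Function.Bijective (gB e i₀ j₀) := by
  have hsurj : Function.Surjective (Theta e i₀ {j₀}) := Finite.injective_iff_surjective.mp hinj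
  have hN : ((fA e i₀ j₀).range).Normal := by
    constructor
    rintro _ ⟨a, rfl⟩ b
    set w := e.symm (Pi.mulSingle j₀ b) with hw
    refine ⟨w i₀ * a * (w i₀)⁻¹, ?_⟩
    have h1 : Pi.mulSingle i₀ (w i₀ * a * (w i₀)⁻¹) = w * Pi.mulSingle i₀ a * w⁻¹ := by
      funext i
      by_cases hi : i = i₀
      · subst hi; simp
      · simp [Pi.mulSingle_eq_of_ne hi]
    show (e (Pi.mulSingle i₀ (w i₀ * a * (w i₀)⁻¹))) j₀ = b * (e (Pi.mulSingle i₀ a)) j₀ * b⁻¹
    rw [h1, map_mul, map_mul, map_inv, hw, MulEquiv.apply_symm_apply]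
    simp
  have h1 : (fA e i₀ j₀).range ⊓ (gB e i₀ j₀).ker = ⊥ := by
    rw [eq_bot_iff]
    intro y hy
    obtain ⟨hy1, hy2⟩ := Subgroup.mem_inf.mp hy
    obtain ⟨a, rfl⟩ := hy1
    rw [MonoidHom.mem_ker, ← Theta_singleton] at hy2
    have : a = 1 := hinj (by rw [hy2, map_one])
    rw [this, map_one]; exact Subgroup.one_mem _
  have h2 : (fA e i₀ j₀).range ⊔ (gB e i₀ j₀).ker = ⊤ := by
    rw [eq_top_iff]
    intro y _
    obtain ⟨a, ha⟩ := hsurj (gB e i₀ j₀ y)
    rw [Theta_singleton] at ha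
    have e1 : y = fA e i₀ j₀ a * ((fA e i₀ j₀ a)⁻¹ * y) := by group
    rw [e1]
    refine Subgroup.mul_mem _ (Subgroup.mem_sup_left ⟨a, rfl⟩) (Subgroup.mem_sup_right ?_)
    rw [MonoidHom.mem_ker, map_mul, map_inv, ha, inv_mul_cancel]
  rcases hB _ _ hN inferInstance h1 h2 with h | h
  · exfalso
    obtain ⟨a, ha⟩ := exists_ne (1 : A i₀)
    apply ha
    apply hinj
    have : fA e i₀ j₀ a ∈ (fA e i₀ j₀).range := ⟨a, rfl⟩
    rw [h, Subgroup.mem_bot] at this
    rw [Theta_singleton, this, map_one, map_one]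
  · refine ⟨(MonoidHom.ker_eq_bot_iff _).mp h, fun a => ?_⟩
    obtain ⟨a', ha'⟩ := hsurj a
    exact ⟨fA e i₀ j₀ a', by rw [← Theta_singleton]; exact ha'⟩

/-- extension by `1` -/
def extP {I : Type*} [DecidableEq I] (A : I → Type u) [∀ i, Group (A i)] (i₀ : I) :
    (∀ i : {i // i ≠ i₀}, A i) →* (∀ i, A i) where
  toFun x := fun i => if h : i = i₀ then 1 else x ⟨i, h⟩
  map_one' := by funext i; by_cases h : i = i₀ <;> simp [h]
  map_mul' x y := by funext i; by_cases h : i = i₀ <;> simp [h]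

/-- restriction -/
def resP {I : Type*} (A : I → Type u) [∀ i, Group (A i)] (i₀ : I) :
    (∀ i, A i) →* (∀ i : {i // i ≠ i₀}, A i) where
  toFun y := fun i => y i.1
  map_one' := rfl
  map_mul' _ _ := rfl

theorem extP_same (x : ∀ i : {i // i ≠ i₀}, A i) : extP A i₀ x i₀ = 1 := by
  simp [extP]

theorem extP_ne (x : ∀ i : {i // i ≠ i₀}, A i) {i : I} (h : i ≠ i₀) :
    extP A i₀ x i = x ⟨i, h⟩ := by
  simp [extP, h]

theorem resP_extP (x : ∀ i : {i // i ≠ i₀}, A i) : resP A i₀ (extP A i₀ x) = x := by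
  funext i
  show extP A i₀ x i.1 = x i
  rw [extP_ne i₀ x i.2]

theorem extP_resP {y : ∀ i, A i} (hy : y i₀ = 1) : extP A i₀ (resP A i₀ y) = y := by
  funext i
  by_cases h : i = i₀
  · subst h; rw [extP_same, hy]
  · rw [extP_ne i₀ _ h]; rfl

def Psi (j₀ : J) : (∀ i : {i // i ≠ i₀}, A i) →* (∀ j : {j // j ≠ j₀}, B j) :=
  (resP B j₀).comp (e.toMonoidHom.comp (extP A i₀))

omit [DecidableEq J] in
theorem Psi_apply (j₀ : J) (x : ∀ i : {i // i ≠ i₀}, A i) :
    Psi e i₀ j₀ x = resP B j₀ (e (extP A i₀ x)) := rfl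

theorem Psi_bijective (j₀ : J) (hg : Function.Bijective (gB e i₀ j₀)) :
    Function.Bijective (Psi e i₀ j₀) := by
  constructor
  · rw [injective_iff_map_eq_one]
    intro x hx
    rw [Psi_apply] at hx
    set y := e (extP A i₀ x) with hy
    have hy1 : ∀ j, j ≠ j₀ → y j = 1 := by
      intro j hj
      have := congrFun hx ⟨j, hj⟩
      exact this
    have hy2 : y = Pi.mulSingle j₀ (y j₀) := by
      funext j
      by_cases hj : j = j₀
      · subst hj; simp
      · rw [hy1 j hj, Pi.mulSingle_eq_of_ne hj]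
    have hy3 : gB e i₀ j₀ (y j₀) = 1 := by
      show (e.symm (Pi.mulSingle j₀ (y j₀))) i₀ = 1
      rw [← hy2, hy, MulEquiv.symm_apply_apply, extP_same]
    have hy4 : y j₀ = 1 := hg.1 (by rw [hy3, map_one])
    have hy5 : y = 1 := by rw [hy2, hy4]; simp
    have hx1 : extP A i₀ x = 1 := e.injective (by rw [← hy, hy5, map_one])
    have := congrArg (resP A i₀) hx1
    rwa [resP_extP, map_one] at this
  · intro z
    set y := extP B j₀ z with hy
    obtain ⟨b, hb⟩ := hg.2 ((e.symm y) i₀)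
    set y' := y * (Pi.mulSingle j₀ b)⁻¹ with hy'
    have h1 : (e.symm y') i₀ = 1 := by
      rw [hy', map_mul, map_inv]
      show (e.symm y) i₀ * ((e.symm (Pi.mulSingle j₀ b)) i₀)⁻¹ = 1
      have : (e.symm (Pi.mulSingle j₀ b)) i₀ = gB e i₀ j₀ b := rfl
      rw [this, hb, mul_inv_cancel]
    refine ⟨resP A i₀ (e.symm y'), ?_⟩
    rw [Psi_apply, extP_resP i₀ h1, MulEquiv.apply_symm_apply, hy', map_mul, map_inv, hy,
      resP_extP]
    have h2 : resP B j₀ (Pi.mulSingle j₀ b) = 1 := by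
      funext j
      show Pi.mulSingle j₀ b j.1 = 1
      exact Pi.mulSingle_eq_of_ne j.2 b
    rw [h2, inv_one, mul_one]

end exchange

theorem krs_aux : ∀ (k : ℕ) (I J : Type) [Fintype I] [DecidableEq I] [Fintype J] [DecidableEq J]
    (A : I → Type u) (B : J → Type v) [∀ i, Group (A i)] [∀ j, Group (B j)]
    [∀ i, Finite (A i)] [∀ j, Finite (B j)]
    (_hA : ∀ i, Nontrivial (A i) ∧ Indec (A i)) (_hB : ∀ j, Nontrivial (B j) ∧ Indec (B j))
    (_e : (∀ i, A i) ≃* (∀ j, B j)), Fintype.card I = k →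
    ∃ σ : I ≃ J, ∀ i, Nonempty (A i ≃* B (σ i)) := by
  intro k
  induction k with
  | zero =>
    intro I J _ _ _ _ A B _ _ _ _ hA hB e hk
    have hI : IsEmpty I := Fintype.card_eq_zero_iff.mp hk
    have hJ : IsEmpty J := by
      by_contra hne
      rw [not_isEmpty_iff] at hne
      obtain ⟨j⟩ := hne
      have := (hB j).1
      obtain ⟨b, hb⟩ := exists_ne (1 : B j)
      apply hb
      have h1 : e.symm (Pi.mulSingle j b) = e.symm 1 := Subsingleton.elim _ _
      have h2 := e.symm.injective h1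
      have := congrFun h2 j
      simpa using this
    exact ⟨Equiv.equivOfIsEmpty I J, fun i => isEmptyElim i⟩
  | succ k ih =>
    intro I J _ _ _ _ A B _ _ _ _ hA hB e hk
    have hpos : 0 < Fintype.card I := by omega
    obtain ⟨i₀⟩ := Fintype.card_pos_iff.mp hpos
    have := (hA i₀).1
    obtain ⟨j₀, -, hj₀⟩ := exists_inj e i₀ (hA i₀).2 Finset.univ (by
      intro a b hab; rwa [Theta_univ, Theta_univ] at hab)
    have hg := gB_bijective e i₀ j₀ (hB j₀).2 hj₀
    have hΨ := Psi_bijective e i₀ j₀ hg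
    have hcard : Fintype.card {i // i ≠ i₀} = k := by
      have := Fintype.card_congr (Equiv.optionSubtypeNe i₀)
      rw [Fintype.card_option] at this
      omega
    obtain ⟨σ', hσ'⟩ := ih {i // i ≠ i₀} {j // j ≠ j₀} (fun i => A i.1) (fun j => B j.1)
      (fun i => hA i.1) (fun j => hB j.1) (MulEquiv.ofBijective (Psi e i₀ j₀) hΨ) hcard
    refine ⟨(Equiv.optionSubtypeNe i₀).symm.trans
      ((Equiv.optionCongr σ').trans (Equiv.optionSubtypeNe j₀)), ?_⟩
    intro i
    by_cases hi : i = i₀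
    · subst hi
      have hσ : ((Equiv.optionSubtypeNe i).symm.trans
          ((Equiv.optionCongr σ').trans (Equiv.optionSubtypeNe j₀))) i = j₀ := by
        simp
      rw [hσ]
      exact ⟨(MulEquiv.ofBijective (gB e i j₀) hg).symm⟩
    · have hσ : ((Equiv.optionSubtypeNe i₀).symm.trans
          ((Equiv.optionCongr σ').trans (Equiv.optionSubtypeNe j₀))) i = (σ' ⟨i, hi⟩).1 := by
        simp [Equiv.optionSubtypeNe_symm_of_ne hi]
      rw [hσ]
      exact hσ' ⟨i, hi⟩

/-- If a finite group is isomorphic both to a direct product of `m` directly indecomposable nontrivial groups and to a direct product of `n` such groups (a group is directly indecomposable when it is not the internal direct product of two nontrivial normal subgroups), then `m = n` and the factors are isomorphic in pairs after a suitable matching. -/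
theorem result {m n : ℕ} {A : Fin m → Type*} {B : Fin n → Type*} [∀ i, Group (A i)] [∀ j, Group (B j)] [∀ i, Finite (A i)] [∀ j, Finite (B j)] (hA : ∀ i, Nontrivial (A i) ∧ ∀ H K : Subgroup (A i), H.Normal → K.Normal → H ⊓ K = ⊥ → H ⊔ K = ⊤ → H = ⊥ ∨ K = ⊥) (hB : ∀ j, Nontrivial (B j) ∧ ∀ H K : Subgroup (B j), H.Normal → K.Normal → H ⊓ K = ⊥ → H ⊔ K = ⊤ → H = ⊥ ∨ K = ⊥) (e : ((i : Fin m) → A i) ≃* ((j : Fin n) → B j)) : ∃ σ : Fin m ≃ Fin n, ∀ i, Nonempty (A i ≃* B (σ i)) :=
  krs_aux m (Fin m) (Fin n) A B hA hB e (by simp)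

end Cfsg.Agent.S4223
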