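import Cfsg.Statements.S4226
import Cfsg.Agent.Lib.Helper42.Sec10
import Cfsg.Agent.Lib.Helper2.Tate2
import Cfsg.Agent.Lib.Helper30.PType

set_option autoImplicit false
open Cfsg

namespace Cfsg.Agent.S4226

open Cfsg.Agent.Lib.Helper42 Cfsg.Agent.Lib.Helper2 Cfsg.Agent.Lib.Helper30

universe u

/-- the identity functor `Q ↦ Q` -/
def topF : ∀ (Q : Type u) [Group Q], Subgroup Q := fun Q _ => ⊤

theorem isCharPFunctor_topF (p : ℕ) : Cfsg.IsCharPFunctor.{u} p topF := by
  refine ⟨?_, ?_⟩
  · intro Q _ _ _ hnt h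
    have h1 : (⊤ : Subgroup Q) = ⊥ := h
    obtain ⟨x, hx⟩ := exists_ne (1 : Q)
    have h2 : x ∈ (⊤ : Subgroup Q) := Subgroup.mem_top x
    rw [h1, Subgroup.mem_bot] at h2
    exact hx h2
  · intro Q R _ _ _ _ φ
    show (⊤ : Subgroup Q).map φ.toMonoidHom = ⊤
    rw [← MonoidHom.range_eq_map]
    exact MonoidHom.range_eq_top.2 φ.surjective

theorem inducedFunctor_topF {X : Type u} [Group X] (T : Subgroup X) :
    Cfsg.inducedFunctor (G := X) topF T = T := by
  show (⊤ : Subgroup T).map T.subtype = T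
  rw [← MonoidHom.range_eq_map, Subgroup.range_subtype]

theorem iterCommutator_le_lcs {X : Type*} [Group X] {U Z T : Subgroup X} (hU : U ≤ T)
    (hZ : Z ≤ T) (n : ℕ) : Cfsg.iterCommutator U Z n ≤ T.lowerCentralSeries n := by
  induction n with
  | zero => exact hU
  | succ n ih => exact Subgroup.commutator_mono ih hZ

theorem normal_pGroup_le_sylow {X : Type*} [Group X] [Finite X] {p : ℕ} [Fact p.Prime]
    (T : Sylow p X) {N : Subgroup X} (hN : N.Normal) (hp : IsPGroup p N) :
    N ≤ (T : Subgroup X) := by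
  obtain ⟨Q, hQ⟩ := hp.exists_le_sylow
  obtain ⟨g, hg⟩ := MulAction.exists_smul_eq X Q T
  intro x hx
  rw [← hg, coe_smul_sylow, mem_cj]
  apply hQ
  have := hN.conj_mem x hx g⁻¹
  simpa using this

theorem lcs_section {G : Type u} [Group G] [Finite G] {p : ℕ} [Fact p.Prime] (P : Sylow p G)
    {c : ℕ} (hcl : (P : Subgroup G).lowerCentralSeries c = ⊥) (K R : Subgroup G)
    [hR : (R.subgroupOf K).Normal] (T : Subgroup (↥K ⧸ R.subgroupOf K)) (hT : IsPGroup p T) :
    T.lowerCentralSeries c = ⊥ := by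
  let π : ↥K →* ↥K ⧸ R.subgroupOf K := QuotientGroup.mk' (R.subgroupOf K)
  have hπ : Function.Surjective π := QuotientGroup.mk'_surjective _
  let T₁ : Subgroup ↥K := T.comap π
  let π₁ : ↥T₁ →* ↥T := π.subgroupComap T
  have hπ₁ : Function.Surjective π₁ := π.subgroupComap_surjective_of_surjective T hπ
  obtain ⟨S₁⟩ : Nonempty (Sylow p ↥T₁) := inferInstance
  have h1 : IsSylIn p ((S₁ : Subgroup ↥T₁).map π₁) ⊤ :=
    isSylIn_map_of_surjective π₁ hπ₁ (sylow_isSylIn S₁)
  have h2 : (S₁ : Subgroup ↥T₁).map π₁ = ⊤ := by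
    have hidx := h1.2.2
    rw [Subgroup.relIndex_top_right] at hidx
    obtain ⟨k, hk⟩ := hT.index ((S₁ : Subgroup ↥T₁).map π₁)
    rw [← Subgroup.index_eq_one]
    cases k with
    | zero => simpa using hk
    | succ k => exact absurd (hk ▸ dvd_pow_self p (Nat.succ_ne_zero k)) hidx
  let S : Subgroup ↥K := (S₁ : Subgroup ↥T₁).map T₁.subtype
  have h3 : S.map π = T := by
    have h31 : S.map π = ((S₁ : Subgroup ↥T₁).map π₁).map T.subtype := by
      rw [Subgroup.map_map, Subgroup.map_map]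
      rfl
    rw [h31, h2, ← MonoidHom.range_eq_map, Subgroup.range_subtype]
  have hSp : IsPGroup p (S.map K.subtype) := (S₁.isPGroup'.map _).map _
  obtain ⟨g, hg⟩ := exists_conj_le_sylow P hSp
  have h4 : (S.map K.subtype).lowerCentralSeries c = ⊥ := by
    have h5 : (cj g (S.map K.subtype)).lowerCentralSeries c ≤
        (P : Subgroup G).lowerCentralSeries c := Subgroup.lowerCentralSeries_mono c hg
    rw [hcl, le_bot_iff, ← Subgroup.map_lowerCentralSeries] at h5
    exact (Subgroup.map_eq_bot_iff_of_injective _ (MulAut.conj g).injective).1 h5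
  have h6 : S.lowerCentralSeries c = ⊥ := by
    rw [← Subgroup.map_lowerCentralSeries] at h4
    exact (Subgroup.map_eq_bot_iff_of_injective _ K.subtype_injective).1 h4
  rw [← h3, ← Subgroup.map_lowerCentralSeries, h6, Subgroup.map_bot]

theorem hypE_topF {G : Type u} [Group G] [Finite G] {p : ℕ} [Fact p.Prime] (P : Sylow p G)
    (hcl : (P : Subgroup G).lowerCentralSeries (p - 1) = ⊥) (K R : Subgroup G)
    [hR : (R.subgroupOf K).Normal] : HypE p topF (↥K ⧸ R.subgroupOf K) := by
  intro T hT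
  rw [inducedFunctor_topF] at hT
  have hpT : Cfsg.pCore p (↥K ⧸ R.subgroupOf K) ≤ (T : Subgroup (↥K ⧸ R.subgroupOf K)) :=
    normal_pGroup_le_sylow T (pCore_normal p _) (pCore_isPGroup p)
  have hg : ∃ g, g ∈ (T : Subgroup (↥K ⧸ R.subgroupOf K)) ∧
      g ∉ Cfsg.pCore p (↥K ⧸ R.subgroupOf K) := by
    by_contra hcon
    apply hT
    have hle : (T : Subgroup (↥K ⧸ R.subgroupOf K)) ≤ Cfsg.pCore p (↥K ⧸ R.subgroupOf K) := by
      intro g hg
      by_contra hgn
      exact hcon ⟨g, hg, hgn⟩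
    have heq : (T : Subgroup (↥K ⧸ R.subgroupOf K)) = Cfsg.pCore p (↥K ⧸ R.subgroupOf K) :=
      le_antisymm hle hpT
    rw [heq]
    exact pCore_normal p _
  obtain ⟨g, hgT, hgP⟩ := hg
  refine ⟨g, hgT, hgP, fun U V _ hUP => ?_⟩
  have h1 := iterCommutator_le_lcs (hUP.trans hpT) ((Subgroup.zpowers_le).2 hgT) (p - 1)
  rw [lcs_section P hcl K R T T.isPGroup'] at h1
  exact h1.trans bot_le

/-- Let `P` be a Sylow `p`-subgroup of the finite group `G` with nilpotency class less than `p` (the term of index `p - 1` of the lower central series of `P`, indexed from `0`, is trivial), and let `N` be its normalizer. Then `O^p(N) = O^p(G) ∩ N`, where `O^p` denotes the subgroup generated by the elements of order prime to `p`; so the largest `p`-factor groups of `G` and of `N` are isomorphic. -/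
theorem result {G : Type*} [Group G] [Finite G] {p : ℕ} [Fact p.Prime] (P : Sylow p G) (hcl : (P : Subgroup G).lowerCentralSeries (p - 1) = ⊥) : Cfsg.pResidualOf p (Subgroup.normalizer ((P : Subgroup G) : Set G)) = Cfsg.pResidual p G ⊓ Subgroup.normalizer ((P : Subgroup G) : Set G) := by
  have hTr := tr_of_sections_E (isCharPFunctor_topF p)
    (fun K R _ _ => hypE_topF P hcl K R) G (IsSec.refl G)
  obtain ⟨T, -, hTp, hTi, hTeq⟩ := controlsTransferIn_of_tr hTr
  rw [inducedFunctor_topF, top_inf_eq] at hTeq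
  rw [Subgroup.relIndex_top_right] at hTi
  let T' : Sylow p G := IsPGroup.toSylow hTp hTi
  obtain ⟨g, hg⟩ := MulAction.exists_smul_eq G T' P
  have hgT : cj g T = (P : Subgroup G) := by
    rw [← hg, coe_smul_sylow]
    rfl
  have hPN : (P : Subgroup G) ≤ Subgroup.normalizer ((P : Subgroup G) : Set G) :=
    Subgroup.le_normalizer
  have hyp : (P : Subgroup G) ⊓ commutator G ≤
      ⁅Subgroup.normalizer ((P : Subgroup G) : Set G),
        Subgroup.normalizer ((P : Subgroup G) : Set G)⁆ := by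
    have h1 := congrArg (cj g) hTeq
    rw [cj_inf, cj_inf, hgT] at h1
    have h2 : cj g ⁅(⊤ : Subgroup G), (⊤ : Subgroup G)⁆ = commutator G := by
      show (⁅(⊤ : Subgroup G), (⊤ : Subgroup G)⁆).map (MulAut.conj g).toMonoidHom = commutator G
      rw [Subgroup.map_commutator, ← MonoidHom.range_eq_map,
        MonoidHom.range_eq_top.2 (MulAut.conj g).surjective]
      rfl
    have h3 : cj g ⁅Subgroup.normalizer ((T : Subgroup G) : Set G),
        Subgroup.normalizer ((T : Subgroup G) : Set G)⁆ =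
        ⁅Subgroup.normalizer ((P : Subgroup G) : Set G),
          Subgroup.normalizer ((P : Subgroup G) : Set G)⁆ := by
      show (⁅Subgroup.normalizer ((T : Subgroup G) : Set G),
        Subgroup.normalizer ((T : Subgroup G) : Set G)⁆).map (MulAut.conj g).toMonoidHom = _
      rw [Subgroup.map_commutator]
      have h4 := normalizer_cj g T
      rw [hgT] at h4
      rw [h4]
    rw [h2, h3] at h1
    rw [h1]
    exact inf_le_right
  have hT := tate_general P _ hPN hyp
  unfold Cfsg.pResidualOf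
  apply le_antisymm
  · rintro x ⟨y, hy, rfl⟩
    exact ⟨pResidual_le_subgroupOf p _ hy, y.2⟩
  · rintro x ⟨hxK, hxN⟩
    have h1 : (⟨x, hxN⟩ : Subgroup.normalizer ((P : Subgroup G) : Set G)) ∈
        (Cfsg.pResidual p G).subgroupOf (Subgroup.normalizer ((P : Subgroup G) : Set G)) := hxK
    exact ⟨⟨x, hxN⟩, hT h1, rfl⟩

end Cfsg.Agent.S4226
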