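import Mathlib
import Cfsg.Statements.S4227
import Cfsg.Agent.S0635
import Cfsg.Agent.Lib.Helper4.Burnside
import Cfsg.Agent.Lib.Helper34.PLen2
import Cfsg.Agent.Lib.Helper75.FrattiniAct
import Cfsg.Agent.Lib.Helper75.PSolvOfSolv
import Cfsg.Agent.Lib.Helper40.HallHigman

set_option autoImplicit false
open Cfsg
open scoped commutatorElement

namespace Cfsg.Agent.S4227

open Cfsg.Agent.Lib

universe u

/-! ### elements of groups of exponent dividing `6` -/

theorem sq_eq_one_of_two_pow {X : Type*} [Group X] (x : X) (k : ℕ) (hk : x ^ 2 ^ k = 1)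
    (h6 : x ^ 6 = 1) : x ^ 2 = 1 := by
  have h1 : orderOf x ∣ 2 ^ k := orderOf_dvd_of_pow_eq_one hk
  have h2 : orderOf x ∣ 6 := orderOf_dvd_of_pow_eq_one h6
  obtain ⟨j, -, hj⟩ := (Nat.dvd_prime_pow Nat.prime_two).mp h1
  rw [hj] at h2
  have hj1 : j ≤ 1 := by
    by_contra hcon
    push Not at hcon
    have h3 : 2 ^ 2 ∣ 2 ^ j := pow_dvd_pow 2 hcon
    have h4 : 2 ^ 2 ∣ 6 := h3.trans h2
    omega
  apply orderOf_dvd_iff_pow_eq_one.mp
  rw [hj]
  have := pow_dvd_pow 2 hj1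
  simpa using this

theorem cube_eq_one_of_three_pow {X : Type*} [Group X] (x : X) (k : ℕ) (hk : x ^ 3 ^ k = 1)
    (h6 : x ^ 6 = 1) : x ^ 3 = 1 := by
  have h1 : orderOf x ∣ 3 ^ k := orderOf_dvd_of_pow_eq_one hk
  have h2 : orderOf x ∣ 6 := orderOf_dvd_of_pow_eq_one h6
  obtain ⟨j, -, hj⟩ := (Nat.dvd_prime_pow Nat.prime_three).mp h1
  rw [hj] at h2
  have hj1 : j ≤ 1 := by
    by_contra hcon
    push Not at hcon
    have h3 : 3 ^ 2 ∣ 3 ^ j := pow_dvd_pow 3 hcon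
    have h4 : 3 ^ 2 ∣ 6 := h3.trans h2
    omega
  apply orderOf_dvd_iff_pow_eq_one.mp
  rw [hj]
  have := pow_dvd_pow 3 hj1
  simpa using this

theorem eq_one_of_two_three {X : Type*} [Group X] (x : X) (h2 : x ^ 2 = 1) (h3 : x ^ 3 = 1) :
    x = 1 := by
  calc x = x ^ 3 * (x ^ 2)⁻¹ := by group
    _ = 1 := by rw [h2, h3]; simp

theorem comm_of_sq {X : Type*} [Group X] (x y : X) (hx : x * x = 1) (hy : y * y = 1)
    (hxy : x * y * (x * y) = 1) : x * y = y * x := by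
  have hx' : x⁻¹ = x := inv_eq_of_mul_eq_one_right hx
  have hy' : y⁻¹ = y := inv_eq_of_mul_eq_one_right hy
  have h3 : (x * y)⁻¹ = x * y := inv_eq_of_mul_eq_one_right hxy
  rw [mul_inv_rev, hx', hy'] at h3
  exact h3.symm

theorem card_eq_of_exp6 {G : Type*} [Group G] [Finite G] (h : ∀ x : G, x ^ 6 = 1) :
    ∃ a b : ℕ, Nat.card G = 2 ^ a * 3 ^ b := by
  have hprime : ∀ r : ℕ, r.Prime → r ∣ Nat.card G → r = 2 ∨ r = 3 := by
    intro r hr hdvd
    have : Fact r.Prime := ⟨hr⟩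
    obtain ⟨x, hx⟩ := exists_prime_orderOf_dvd_card' r hdvd
    have h6 : r ∣ 6 := hx ▸ orderOf_dvd_of_pow_eq_one (h x)
    have hle : r ≤ 6 := Nat.le_of_dvd (by norm_num) h6
    interval_cases r <;> first | exact Or.inl rfl | exact Or.inr rfl | (exfalso; revert hr h6; norm_num)
  obtain ⟨a, m, hm, hn⟩ := Nat.exists_eq_two_pow_mul_odd (Nat.card_pos (α := G)).ne'
  have hm0 : m ≠ 0 := by
    rintro rfl
    simp at hm
  obtain ⟨b, m', hm', hm''⟩ := Nat.exists_eq_pow_mul_and_not_dvd hm0 3 (by norm_num)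
  refine ⟨a, b, ?_⟩
  have hm1 : m' = 1 := by
    by_contra hne
    obtain ⟨r, hr, hrm⟩ := Nat.exists_prime_and_dvd hne
    have h0 : r ∣ m := hm'' ▸ Dvd.dvd.mul_left hrm _
    have h1 : r ∣ Nat.card G := by rw [hn]; exact Dvd.dvd.mul_left h0 _
    rcases hprime r hr h1 with rfl | rfl
    · exact (Nat.not_even_iff_odd.mpr hm) (even_iff_two_dvd.mpr h0)
    · exact hm' hrm
  rw [hn, hm'', hm1, mul_one]

theorem solvable_of_exp6 {G : Type*} [Group G] [Finite G] (h : ∀ x : G, x ^ 6 = 1) :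
    Group.IsSolvable G := by
  obtain ⟨a, b, hab⟩ := card_eq_of_exp6 h
  exact Helper4.burnside 2 3 a b Nat.prime_two Nat.prime_three hab

/-! ### the `2`-length -/

theorem twoLength {G : Type u} [Group G] [Finite G] (h : ∀ x : G, x ^ 6 = 1) :
    PLengthLE 2 1 G := by
  have hsol := solvable_of_exp6 h
  have : Fact (Nat.Prime 2) := ⟨Nat.prime_two⟩
  have hps : IsPSolvable 2 G := Helper75.PSS.isPSolvable_of_isSolvable 2 Nat.prime_two G
  obtain ⟨S⟩ : Nonempty (Sylow 2 G) := inferInstance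
  have h1 := Cfsg.Agent.S0635.result hps S
  have hsq : ∀ x : ↥(S : Subgroup G), x * x = 1 := by
    intro x
    obtain ⟨k, hk⟩ := S.isPGroup' x
    have h6 : x ^ 6 = 1 := Subtype.ext (by simpa using h x.1)
    have := sq_eq_one_of_two_pow x k hk h6
    rwa [pow_two] at this
  have hcomm : ∀ x y : ↥(S : Subgroup G), x * y = y * x := fun x y =>
    comm_of_sq x y (hsq x) (hsq y) (hsq (x * y))
  have hnil : Group.IsNilpotent ↥(S : Subgroup G) := S.isPGroup'.isNilpotent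
  have hclass : Group.nilpotencyClass ↥(S : Subgroup G) ≤ 1 := by
    rw [← Subgroup.upperCentralSeries_eq_top_iff_nilpotencyClass_le,
      Subgroup.upperCentralSeries_one, eq_top_iff]
    intro x _
    rw [Subgroup.mem_center_iff]
    intro y
    exact hcomm y x
  have key : ∀ c : ℕ, c ≤ 1 → PLengthLE 2 c G → PLengthLE 2 1 G := by
    intro c hc hpl
    interval_cases c
    · unfold PLengthLE at hpl ⊢
      have h2 := Helper34.upperPSeries_le_succ (G := G) 2 1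
      have h3 := Helper34.upperPSeries_le_succ (G := G) 2 2
      have hpl' : (upperPSeries 2 G 1).1 = ⊤ := hpl
      show (upperPSeries 2 G 3).1 = ⊤
      rw [hpl'] at h2
      exact top_le_iff.mp (h2.trans h3)
    · exact hpl
  exact key _ hclass h1

/-! ### the key lemma on an `A₄`-action -/

theorem lemmaB {V : Type*} [Group V] (hc : ∀ a b : V, a * b = b * a)
    (hinv : ∀ v : V, v * v = 1 → v = 1) (α₁ α₂ ν : MulAut V)
    (h1 : α₁ * α₁ = 1) (h2 : α₂ * α₂ = 1) (h12 : α₁ * α₂ = α₂ * α₁)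
    (hν1 : α₁ * ν = ν * α₂) (hν2 : α₂ * ν = ν * (α₁ * α₂))
    (hq : ∀ v : V, v * ν v * ν (ν v) = 1) : α₁ = 1 := by
  have e1 : ∀ v, α₁ (α₁ v) = v := fun v => by
    have := congrArg (fun f : MulAut V => f v) h1
    simpa using this
  have e2 : ∀ v, α₂ (α₂ v) = v := fun v => by
    have := congrArg (fun f : MulAut V => f v) h2
    simpa using this
  have e12 : ∀ v, α₁ (α₂ v) = α₂ (α₁ v) := fun v => by
    have := congrArg (fun f : MulAut V => f v) h12
    simpa using this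
  have eν1 : ∀ v, α₁ (ν v) = ν (α₂ v) := fun v => by
    have := congrArg (fun f : MulAut V => f v) hν1
    simpa using this
  have eν2 : ∀ v, α₂ (ν v) = ν (α₁ (α₂ v)) := fun v => by
    have := congrArg (fun f : MulAut V => f v) hν2
    simpa using this
  have kill : ∀ (γ : MulAut V) (v : V), γ v = v → γ (ν v) = (ν v)⁻¹ →
      γ (ν (ν v)) = (ν (ν v))⁻¹ → v = 1 := by
    intro γ v h0 h1' h2'
    have h := hq v
    have h' : v * (ν v)⁻¹ * (ν (ν v))⁻¹ = 1 := by
      have h3 := congrArg γ h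
      rw [map_mul, map_mul, map_one, h0, h1', h2'] at h3
      exact h3
    have hAB : ν v * ν (ν v) = v⁻¹ := by
      rw [mul_assoc] at h
      exact eq_inv_of_mul_eq_one_right h
    have hAB' : (ν v)⁻¹ * (ν (ν v))⁻¹ = v⁻¹ := by
      rw [mul_assoc] at h'
      exact eq_inv_of_mul_eq_one_right h'
    have hvv : v = v⁻¹ := by
      calc v = (ν v * ν (ν v))⁻¹ := by rw [hAB, inv_inv]
        _ = (ν (ν v))⁻¹ * (ν v)⁻¹ := mul_inv_rev _ _
        _ = (ν v)⁻¹ * (ν (ν v))⁻¹ := hc _ _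
        _ = v⁻¹ := hAB'
    apply hinv
    nth_rewrite 1 [hvv]
    exact inv_mul_cancel v
  by_contra hne
  have hex : ∃ u, α₁ u ≠ u := by
    by_contra hcon
    push Not at hcon
    apply hne
    ext u
    exact hcon u
  obtain ⟨u, hu⟩ := hex
  obtain ⟨w, hw⟩ : ∃ w : V, w = u⁻¹ * α₁ u := ⟨_, rfl⟩
  have hw1 : w ≠ 1 := by
    intro h0
    rw [hw, inv_mul_eq_one] at h0
    exact hu h0.symm
  have hα₁w : α₁ w = w⁻¹ := by
    rw [hw, map_mul, map_inv, e1, mul_inv_rev, inv_inv]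
  by_cases hcase : α₂ w = w⁻¹
  · -- `α₁ α₂` fixes `w`
    apply hw1
    have hf : α₁ (α₂ w) = w := by rw [hcase, map_inv, hα₁w, inv_inv]
    have hf1 : α₁ (α₂ (ν w)) = (ν w)⁻¹ := by
      rw [eν2, hf, eν1, hcase, map_inv]
    refine kill (α₁ * α₂) w hf ?_ ?_
    · exact hf1
    · show α₁ (α₂ (ν (ν w))) = (ν (ν w))⁻¹
      rw [eν2, hf1, eν1, map_inv, eν2, hf, map_inv]
  · obtain ⟨v, hv⟩ : ∃ v : V, v = w * α₂ w := ⟨_, rfl⟩
    have hv1 : v ≠ 1 := by
      intro h0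
      apply hcase
      rw [hv] at h0
      exact (eq_inv_of_mul_eq_one_right h0)
    apply hv1
    have hf : α₂ v = v := by
      rw [hv, map_mul, e2]
      exact hc _ _
    have hg : α₁ v = v⁻¹ := by
      rw [hv, map_mul, e12, hα₁w, map_inv, mul_inv_rev]
      exact hc _ _
    have hf1 : α₂ (ν v) = (ν v)⁻¹ := by
      rw [eν2, hf, hg, map_inv]
    refine kill α₂ v hf hf1 ?_
    rw [eν2, hf1, map_inv, eν1, hf, map_inv]

/-! ### the action on the Frattini quotient -/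

/-- the conjugation action of `H` on the Frattini quotient of a normal subgroup -/
noncomputable def psi {H : Type*} [Group H] (P : Subgroup H) [P.Normal] :
    H →* MulAut (↥P ⧸ frattini ↥P) where
  toFun h := QuotientGroup.congr (frattini ↥P) (frattini ↥P) (MulAut.conjNormal h)
    ((Subgroup.characteristic_iff_map_eq.mp inferInstance) (MulAut.conjNormal h))
  map_one' := by
    ext x
    induction x using QuotientGroup.induction_on with
    | H x => simp
  map_mul' := by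
    intro a b
    ext x
    induction x using QuotientGroup.induction_on with
    | H x =>
      rw [MulAut.mul_apply]
      show (QuotientGroup.mk (MulAut.conjNormal (a * b) x) : ↥P ⧸ frattini ↥P) =
        QuotientGroup.mk (MulAut.conjNormal a (MulAut.conjNormal b x))
      rw [map_mul, MulAut.mul_apply]

theorem psi_mk {H : Type*} [Group H] (P : Subgroup H) [P.Normal] (h : H) (x : ↥P) :
    psi P h (QuotientGroup.mk x) = QuotientGroup.mk (MulAut.conjNormal h x) := rfl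

theorem psi_eq_one_of_mem {H : Type*} [Group H] [Finite H] (P : Subgroup H) [P.Normal]
    {p : ℕ} [Fact p.Prime] (hP : IsPGroup p P) (z : H) (hz : z ∈ P) : psi P z = 1 := by
  ext v
  induction v using QuotientGroup.induction_on with
  | H x =>
    rw [psi_mk, MulAut.one_apply, QuotientGroup.eq_iff_div_mem]
    apply Helper75.Fratt.commutator_le_frattini hP
    have h1 : (MulAut.conjNormal z x) / x = ⁅(⟨z, hz⟩ : ↥P), x⁆ := by
      apply Subtype.ext
      rw [commutatorElement_def]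
      simp [MulAut.conjNormal_apply, div_eq_mul_inv]
    rw [h1, commutator_def]
    exact Subgroup.commutator_mem_commutator (Subgroup.mem_top _) (Subgroup.mem_top _)

theorem psi_congr {H : Type*} [Group H] [Finite H] (P : Subgroup H) [P.Normal]
    {p : ℕ} [Fact p.Prime] (hP : IsPGroup p P) (a b : H)
    (hab : (a : H ⧸ P) = (b : H ⧸ P)) : psi P a = psi P b := by
  have h1 : a⁻¹ * b ∈ P := QuotientGroup.eq.mp hab
  have h2 : b = a * (a⁻¹ * b) := by group
  rw [h2, map_mul, psi_eq_one_of_mem P hP _ h1, mul_one]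

/-! ### the `3`-length -/

theorem mem_pCore_of_cube {H : Type u} [Group H] [Finite H] (h6 : ∀ x : H, x ^ 6 = 1)
    (hred : pPrimeCore 3 H = ⊥) (g : H) (hg : g ^ 3 = 1) : g ∈ pCore 3 H := by
  have hsol : Group.IsSolvable H := solvable_of_exp6 h6
  have hF2 : Fact (Nat.Prime 2) := ⟨Nat.prime_two⟩
  have hF3 : Fact (Nat.Prime 3) := ⟨Nat.prime_three⟩
  have hps3 : IsPSolvable 3 H := Helper75.PSS.isPSolvable_of_isSolvable 3 Nat.prime_three H
  have hps2 : IsPSolvable 2 H := Helper75.PSS.isPSolvable_of_isSolvable 2 Nat.prime_two H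
  obtain ⟨P, hPdef⟩ : ∃ P : Subgroup H, P = pCore 3 H := ⟨_, rfl⟩
  have hPn : P.Normal := hPdef ▸ Helper40.pCore_normal' 3
  have hPp : IsPGroup 3 P := hPdef ▸ Helper40.pCore_isPGroup' 3
  have hCP : Subgroup.centralizer (P : Set H) ≤ P := by
    rw [hPdef]; exact Helper40.centralizer_pCore_le hps3 hred
  rw [← hPdef]
  by_contra hgP
  have h6' : ∀ x : H ⧸ P, x ^ 6 = 1 := by
    intro x
    induction x using QuotientGroup.induction_on with
    | H x => rw [← QuotientGroup.mk_pow, h6, QuotientGroup.mk_one]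
  have hπ := QuotientGroup.mk'_surjective P
  have hP3 : ∀ x ∈ P, x ^ 3 = 1 := by
    intro x hx
    obtain ⟨k, hk⟩ := hPp ⟨x, hx⟩
    have hk' : x ^ 3 ^ k = 1 := by simpa using congrArg Subtype.val hk
    exact cube_eq_one_of_three_pow x k hk' (h6 x)
  have hc1 : pCore 3 (H ⧸ P) = ⊥ := by
    rw [eq_bot_iff]
    intro r hr
    obtain ⟨x, rfl⟩ := hπ r
    have hRp : IsPGroup 3 ↥(pCore 3 (H ⧸ P)) := Helper40.pCore_isPGroup' 3
    have hRn : (pCore 3 (H ⧸ P)).Normal := Helper40.pCore_normal' 3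
    have hcomap : (pCore 3 (H ⧸ P)).comap (QuotientGroup.mk' P) ≤ pCore 3 H := by
      apply Helper30.le_pCore_of_normal (hRn.comap _)
      intro y
      refine ⟨2, ?_⟩
      apply Subtype.ext
      obtain ⟨k, hk⟩ := hRp ⟨QuotientGroup.mk' P y.1, y.2⟩
      have hk' : (QuotientGroup.mk' P y.1) ^ 3 ^ k = 1 := by simpa using congrArg Subtype.val hk
      have h3 : (QuotientGroup.mk' P y.1) ^ 3 = 1 := cube_eq_one_of_three_pow _ k hk' (h6' _)
      have h4 : y.1 ^ 3 ∈ P := by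
        rw [← QuotientGroup.eq_one_iff, QuotientGroup.mk_pow]
        exact h3
      have h5 := hP3 _ h4
      rw [Subgroup.coe_pow, Subgroup.coe_one, show (3 : ℕ) ^ 2 = 3 * 3 by norm_num, pow_mul]
      exact h5
    have hx : x ∈ P := by rw [hPdef]; exact hcomap hr
    rw [Subgroup.mem_bot]
    exact (QuotientGroup.eq_one_iff x).mpr hx
  have hc2 : pPrimeCore 2 (H ⧸ P) = ⊥ := by
    rw [eq_bot_iff, ← hc1]
    unfold pPrimeCore
    apply sSup_le
    rintro N ⟨hNn, hNc⟩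
    apply Helper30.le_pCore_of_normal hNn
    intro y
    refine ⟨1, ?_⟩
    rw [pow_one]
    have h1 : orderOf y ∣ Nat.card N := orderOf_dvd_natCard y
    have h2 : orderOf y ∣ 2 * 3 := orderOf_dvd_of_pow_eq_one
      (Subtype.ext (by rw [Subgroup.coe_pow, Subgroup.coe_one]; exact h6' y.1))
    have h3 : (orderOf y).Coprime 2 := Nat.Coprime.coprime_dvd_left h1 hNc
    exact orderOf_dvd_iff_pow_eq_one.mp (h3.dvd_of_dvd_mul_left h2)
  have hps2' : IsPSolvable 2 (H ⧸ P) := Helper75.Fratt.isPSolvable_quotient P hps2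
  have hCQ := Helper40.centralizer_pCore_le hps2' hc2
  obtain ⟨Q, hQdef⟩ : ∃ Q : Subgroup (H ⧸ P), Q = pCore 2 (H ⧸ P) := ⟨_, rfl⟩
  rw [← hQdef] at hCQ
  have hQn : Q.Normal := hQdef ▸ Helper40.pCore_normal' 2
  have hQp : IsPGroup 2 Q := hQdef ▸ Helper40.pCore_isPGroup' 2
  have hQ2 : ∀ x ∈ Q, x * x = 1 := by
    intro x hx
    obtain ⟨k, hk⟩ := hQp ⟨x, hx⟩
    have hk' : x ^ 2 ^ k = 1 := by simpa using congrArg Subtype.val hk
    have := sq_eq_one_of_two_pow x k hk' (h6' x)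
    rwa [pow_two] at this
  have hQc : ∀ x ∈ Q, ∀ y ∈ Q, x * y = y * x := fun x hx y hy =>
    comm_of_sq x y (hQ2 x hx) (hQ2 y hy) (hQ2 _ (Q.mul_mem hx hy))
  obtain ⟨gb, hgb⟩ : ∃ gb : H ⧸ P, gb = (g : H ⧸ P) := ⟨_, rfl⟩
  have hgb1 : gb ≠ 1 := by
    rw [hgb]
    intro h0
    exact hgP ((QuotientGroup.eq_one_iff g).mp h0)
  have hgb3 : gb ^ 3 = 1 := by rw [hgb, ← QuotientGroup.mk_pow, hg, QuotientGroup.mk_one]
  have hgbQ : gb ∉ Q := by
    intro h0
    have h1 := hQ2 gb h0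
    exact hgb1 (eq_one_of_two_three gb (by rw [pow_two]; exact h1) hgb3)
  have hgbC : gb ∉ Subgroup.centralizer (Q : Set (H ⧸ P)) := fun h0 => hgbQ (hCQ h0)
  obtain ⟨a, haQ, hane⟩ : ∃ a ∈ Q, a * gb ≠ gb * a := by
    by_contra hcon
    push Not at hcon
    exact hgbC (Subgroup.mem_centralizer_iff.mpr fun a ha => hcon a ha)
  obtain ⟨a₁, ha₁⟩ : ∃ a₁ : H ⧸ P, a₁ = gb⁻¹ * a * gb := ⟨_, rfl⟩
  obtain ⟨a₂, ha₂⟩ : ∃ a₂ : H ⧸ P, a₂ = gb⁻¹ * a₁ * gb := ⟨_, rfl⟩
  have hconjQ : ∀ x ∈ Q, gb⁻¹ * x * gb ∈ Q := by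
    intro x hx
    have h0 := hQn.conj_mem x hx gb⁻¹
    rwa [inv_inv] at h0
  have ha₁Q : a₁ ∈ Q := ha₁ ▸ hconjQ a haQ
  have ha₂Q : a₂ ∈ Q := ha₂ ▸ hconjQ a₁ ha₁Q
  have ha₃ : gb⁻¹ * a₂ * gb = a := by
    rw [ha₂, ha₁]
    have hgi : gb⁻¹ * gb⁻¹ * gb⁻¹ = 1 := by
      have h0 : (gb⁻¹) ^ 3 = 1 := by rw [inv_pow, hgb3, inv_one]
      rw [pow_succ, pow_two] at h0
      exact h0
    have hg3 : gb * gb * gb = 1 := by
      have h0 := hgb3
      rw [pow_succ, pow_two] at h0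
      exact h0
    calc gb⁻¹ * (gb⁻¹ * (gb⁻¹ * a * gb) * gb) * gb
        = (gb⁻¹ * gb⁻¹ * gb⁻¹) * a * (gb * gb * gb) := by simp only [mul_assoc]
      _ = a := by rw [hgi, hg3, one_mul, mul_one]
  obtain ⟨b₁, hb₁⟩ : ∃ b₁ : H ⧸ P, b₁ = a * a₁ := ⟨_, rfl⟩
  obtain ⟨b₂, hb₂⟩ : ∃ b₂ : H ⧸ P, b₂ = a₁ * a₂ := ⟨_, rfl⟩
  have hb₁Q : b₁ ∈ Q := hb₁ ▸ Q.mul_mem haQ ha₁Q
  have hb₂Q : b₂ ∈ Q := hb₂ ▸ Q.mul_mem ha₁Q ha₂Q
  have hb₁ne : b₁ ≠ 1 := by
    intro h0
    rw [hb₁] at h0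
    have h1 : a₁ = a⁻¹ := eq_inv_of_mul_eq_one_right h0
    have h2 : a⁻¹ = a := inv_eq_of_mul_eq_one_right (hQ2 a haQ)
    rw [h2, ha₁] at h1
    apply hane
    calc a * gb = gb * (gb⁻¹ * a * gb) := by group
      _ = gb * a := by rw [h1]
  have hb12 : gb⁻¹ * b₁ * gb = b₂ := by
    rw [hb₁, hb₂, ha₂, ha₁]; group
  have hb23 : gb⁻¹ * b₂ * gb = b₁ * b₂ := by
    have h1 : gb⁻¹ * b₂ * gb = (gb⁻¹ * a₁ * gb) * (gb⁻¹ * a₂ * gb) := by rw [hb₂]; group
    rw [h1, ← ha₂, ha₃, hb₁, hb₂]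
    have h2 : a₁ * a₁ = 1 := hQ2 a₁ ha₁Q
    calc a₂ * a = a * a₂ := hQc a₂ ha₂Q a haQ
      _ = a * (a₁ * a₁) * a₂ := by rw [h2, mul_one]
      _ = a * a₁ * (a₁ * a₂) := by group
  obtain ⟨c₁', hc₁'⟩ := hπ b₁
  obtain ⟨c₂, hc₂'⟩ := hπ b₂
  have hc₂ : (c₂ : H ⧸ P) = b₂ := hc₂'
  obtain ⟨c₁, hc₁def⟩ : ∃ c₁ : H, c₁ = c₁' ^ 3 := ⟨_, rfl⟩
  have hc₁ : (c₁ : H ⧸ P) = b₁ := by
    have h0 : (c₁' : H ⧸ P) = b₁ := hc₁'
    rw [hc₁def, QuotientGroup.mk_pow, h0]
    have h2 := hQ2 b₁ hb₁Q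
    rw [pow_succ, pow_two, h2, one_mul]
  have hc₁sq : c₁ * c₁ = 1 := by
    rw [hc₁def]
    rw [← pow_add]
    exact h6 c₁'
  have hVp : IsPGroup 3 (↥P ⧸ frattini ↥P) := hPp.to_quotient _
  have hVinv : ∀ v : ↥P ⧸ frattini ↥P, v * v = 1 → v = 1 := by
    intro v hv
    obtain ⟨k, hk⟩ := hVp v
    have h1 : orderOf v ∣ 2 := orderOf_dvd_of_pow_eq_one (by rw [pow_two]; exact hv)
    have h2 : orderOf v ∣ 3 ^ k := orderOf_dvd_of_pow_eq_one hk
    have h3 : orderOf v = 1 :=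
      Nat.eq_one_of_dvd_coprimes (Nat.Coprime.pow_right k (by norm_num)) h1 h2
    exact orderOf_eq_one_iff.mp h3
  have hVc : ∀ a b : ↥P ⧸ frattini ↥P, a * b = b * a := by
    intro a b
    induction a using QuotientGroup.induction_on with
    | H x =>
    induction b using QuotientGroup.induction_on with
    | H y =>
    rw [← QuotientGroup.mk_mul, ← QuotientGroup.mk_mul, QuotientGroup.eq_iff_div_mem]
    apply Helper75.Fratt.commutator_le_frattini hPp
    have h1 : x * y / (y * x) = ⁅x, y⁆ := by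
      rw [commutatorElement_def, div_eq_mul_inv, mul_inv_rev]
      simp only [mul_assoc]
    rw [h1, commutator_def]
    exact Subgroup.commutator_mem_commutator (Subgroup.mem_top _) (Subgroup.mem_top _)
  have hr1 : psi P c₁ * psi P c₁ = 1 := by rw [← map_mul, hc₁sq, map_one]
  have hr2 : psi P c₂ * psi P c₂ = 1 := by
    rw [← map_mul, ← map_one (psi P)]
    apply psi_congr P hPp
    rw [QuotientGroup.mk_mul, QuotientGroup.mk_one, hc₂]
    exact hQ2 b₂ hb₂Q
  have hr12 : psi P c₁ * psi P c₂ = psi P c₂ * psi P c₁ := by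
    rw [← map_mul, ← map_mul]
    apply psi_congr P hPp
    rw [QuotientGroup.mk_mul, QuotientGroup.mk_mul, hc₁, hc₂]
    exact hQc b₁ hb₁Q b₂ hb₂Q
  have hrν1 : psi P c₁ * psi P g = psi P g * psi P c₂ := by
    rw [← map_mul, ← map_mul]
    apply psi_congr P hPp
    rw [QuotientGroup.mk_mul, QuotientGroup.mk_mul, hc₁, hc₂, ← hgb, ← hb12]
    group
  have hrν2 : psi P c₂ * psi P g = psi P g * (psi P c₁ * psi P c₂) := by
    rw [← map_mul, ← map_mul, ← map_mul]
    apply psi_congr P hPp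
    rw [QuotientGroup.mk_mul, QuotientGroup.mk_mul, QuotientGroup.mk_mul, hc₁, hc₂, ← hgb,
      ← hb23]
    group
  have hrq : ∀ v : ↥P ⧸ frattini ↥P, v * psi P g v * psi P g (psi P g v) = 1 := by
    intro v
    induction v using QuotientGroup.induction_on with
    | H x =>
    rw [psi_mk, psi_mk, ← QuotientGroup.mk_mul, ← QuotientGroup.mk_mul]
    have h1 : x * MulAut.conjNormal g x * MulAut.conjNormal g (MulAut.conjNormal g x) = 1 := by
      apply Subtype.ext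
      rw [Subgroup.coe_mul, Subgroup.coe_mul, MulAut.conjNormal_apply, MulAut.conjNormal_apply,
        MulAut.conjNormal_apply, Subgroup.coe_one]
      have hy : ((x : H) * g) ^ 3 = 1 := by
        have h2 : (((x : H) * g) ^ 3) ∈ P := by
          rw [← QuotientGroup.eq_one_iff, QuotientGroup.mk_pow, QuotientGroup.mk_mul,
            (QuotientGroup.eq_one_iff (x : H)).mpr x.2, one_mul, ← hgb]
          exact hgb3
        have h3 := hP3 _ h2
        have h4 : (((x : H) * g) ^ 3) ^ 2 = 1 := by rw [← pow_mul]; exact h6 _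
        exact eq_one_of_two_three _ h4 h3
      have hy' : (x : H) * g * ((x : H) * g) * ((x : H) * g) = 1 := by
        rw [pow_succ, pow_two] at hy
        exact hy
      have hg' : g * g * g = 1 := by
        have h0 := hg
        rw [pow_succ, pow_two] at h0
        exact h0
      calc (x : H) * (g * x * g⁻¹) * (g * (g * x * g⁻¹) * g⁻¹)
          = ((x : H) * g * ((x : H) * g) * ((x : H) * g)) * (g * g * g)⁻¹ := by group
        _ = 1 := by rw [hy', hg']; simp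
    rw [h1, QuotientGroup.mk_one]
  have hα : psi P c₁ = 1 :=
    lemmaB hVc hVinv (psi P c₁) (psi P c₂) (psi P g) hr1 hr2 hr12 hrν1 hrν2 hrq
  have hcent : c₁ ∈ Subgroup.centralizer (P : Set H) := by
    refine Helper75.Fratt.mem_centralizer_of_frattini (p := 3) (q := 2) (by norm_num) P hPp c₁ 1
      (by rw [pow_one, pow_two]; exact hc₁sq) ?_
    intro x hx
    have h1 : psi P c₁ (QuotientGroup.mk ⟨x, hx⟩) = QuotientGroup.mk ⟨x, hx⟩ := by
      rw [hα]; rfl
    rw [psi_mk, QuotientGroup.eq_iff_div_mem] at h1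
    refine ⟨_, h1, ?_⟩
    simp [MulAut.conjNormal_apply, div_eq_mul_inv]
  have hfin : (c₁ : H ⧸ P) = 1 := (QuotientGroup.eq_one_iff c₁).mpr (hCP hcent)
  exact hb₁ne (hc₁ ▸ hfin)

theorem threeLength {G : Type u} [Group G] [Finite G] (h : ∀ x : G, x ^ 6 = 1) :
    PLengthLE 3 1 G := by
  have hF3 : Fact (Nat.Prime 3) := ⟨Nat.prime_three⟩
  set K := (upperPSeries 3 G 1).1 with hK
  set L := (upperPSeries 3 G 2).1 with hL
  have hKn : K.Normal := (upperPSeries 3 G 1).2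
  have hLn : L.Normal := (upperPSeries 3 G 2).2
  have hLdef : L = (pCore 3 (G ⧸ K)).comap (QuotientGroup.mk' K) :=
    Helper34.upperPSeries_succ_odd 3 1 (by decide)
  have h3 : (upperPSeries 3 G 3).1 = (pPrimeCore 3 (G ⧸ L)).comap (QuotientGroup.mk' L) :=
    Helper34.upperPSeries_succ_even 3 2 (by decide)
  have hKeq : K = pPrimeCore 3 G := Helper34.upperPSeries_one_eq 3
  have hred : pPrimeCore 3 (G ⧸ K) = ⊥ := Helper34.pPrimeCore_quotient_eq_bot' 3 K hKeq
  have h6K : ∀ x : G ⧸ K, x ^ 6 = 1 := by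
    intro x
    induction x using QuotientGroup.induction_on with
    | H x => rw [← QuotientGroup.mk_pow, h, QuotientGroup.mk_one]
  have hkey : ∀ y : G, y ^ 3 = 1 → y ∈ L := by
    intro y hy
    rw [hLdef, Subgroup.mem_comap]
    apply mem_pCore_of_cube h6K hred
    show ((y : G ⧸ K)) ^ 3 = 1
    rw [← QuotientGroup.mk_pow, hy, QuotientGroup.mk_one]
  have hcop : (Nat.card (G ⧸ L)).Coprime 3 := by
    rw [Nat.coprime_comm, Nat.Prime.coprime_iff_not_dvd Nat.prime_three]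
    intro hdvd
    obtain ⟨xb, hxb⟩ := exists_prime_orderOf_dvd_card' 3 hdvd
    obtain ⟨x, rfl⟩ := QuotientGroup.mk_surjective xb
    have hx3 : ((x : G ⧸ L)) ^ 3 = 1 := by rw [← hxb]; exact pow_orderOf_eq_one _
    have hy : (x ^ 4) ^ 3 = 1 := by
      rw [← pow_mul]
      calc x ^ (4 * 3) = (x ^ 6) ^ 2 := by rw [← pow_mul]
        _ = 1 := by rw [h, one_pow]
    have hyL := hkey _ hy
    have h1 : ((x ^ 4 : G) : G ⧸ L) = 1 := (QuotientGroup.eq_one_iff _).mpr hyL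
    rw [QuotientGroup.mk_pow] at h1
    have h2 : (x : G ⧸ L) = 1 := by
      have h0 : (x : G ⧸ L) ^ 4 = (x : G ⧸ L) ^ 3 * x := pow_succ _ 3
      rw [h0, hx3, one_mul] at h1
      exact h1
    rw [h2, orderOf_one] at hxb
    norm_num at hxb
  show (upperPSeries 3 G 3).1 = ⊤
  rw [h3]
  have htop : pPrimeCore 3 (G ⧸ L) = ⊤ := by
    rw [eq_top_iff]
    unfold pPrimeCore
    apply le_sSup
    refine ⟨inferInstance, ?_⟩
    rw [Subgroup.card_top]; exact hcop
  rw [htop, Subgroup.comap_top]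

/-- A finite group in which every element has order dividing `6` has `2`-length at most `1` and `3`-length at most `1`. -/
theorem result {G : Type*} [Group G] [Finite G] (h : ∀ x : G, x ^ 6 = 1) : Cfsg.PLengthLE 2 1 G ∧ Cfsg.PLengthLE 3 1 G := by
  exact ⟨twoLength h, threeLength h⟩

end Cfsg.Agent.S4227
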