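import Cfsg.Statements.S4275
import Mathlib

set_option autoImplicit false
open Cfsg

namespace Cfsg.Agent.S4275

/-- Let G be a transitive group of permutations of a finite set Ω, let o ∈ Ω, and let α be an automorphism of G. Then α is induced by conjugation by a permutation of Ω normalizing G if and only if the image under α of the stabilizer of o fixes some point of Ω. -/
theorem result {Ω : Type*} [Fintype Ω] (G : Subgroup (Equiv.Perm Ω)) (htr : MulAction.IsPretransitive G Ω) (o : Ω) (α : G ≃* G) : (∃ σ : Equiv.Perm Ω, σ ∈ Subgroup.normalizer (G : Set (Equiv.Perm Ω)) ∧ ∀ g : G, ((α g : G) : Equiv.Perm Ω) = σ * (g : Equiv.Perm Ω) * σ⁻¹) ↔ ∃ ω : Ω, ∀ g ∈ (MulAction.stabilizer G o).map α.toMonoidHom, g • ω = ω := by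
  classical
  constructor
  · rintro ⟨σ, -, hσ⟩
    refine ⟨σ o, ?_⟩
    rintro g ⟨h, hh, rfl⟩
    have hh' : (h : Equiv.Perm Ω) o = o := hh
    show ((α h : G) : Equiv.Perm Ω) (σ o) = σ o
    rw [hσ h]
    simp [hh']
  · rintro ⟨ω, hω⟩
    -- choose for each point a group element moving o to it
    have hex : ∀ x : Ω, ∃ h : G, h • o = x := fun x => MulAction.exists_smul_eq G o x
    choose c hc using hex
    let f : Ω → Ω := fun x => (α (c x)) • ω
    have hf : ∀ h : G, f (h • o) = (α h) • ω := by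
      intro h
      show (α (c (h • o))) • ω = (α h) • ω
      have h1 : (c (h • o))⁻¹ * h ∈ MulAction.stabilizer G o := by
        rw [MulAction.mem_stabilizer_iff, mul_smul, inv_smul_eq_iff, hc]
      have h2 := hω (α ((c (h • o))⁻¹ * h)) ⟨_, h1, rfl⟩
      rw [map_mul, map_inv, mul_smul, inv_smul_eq_iff] at h2
      exact h2.symm
    have hequiv : ∀ (h : G) (x : Ω), f (h • x) = (α h) • f x := by
      intro h x
      obtain ⟨k, rfl⟩ := MulAction.exists_smul_eq G o x
      rw [← mul_smul, hf, hf, map_mul, mul_smul]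
    have hsurj : Function.Surjective f := by
      intro y
      obtain ⟨k, rfl⟩ := MulAction.exists_smul_eq G ω y
      refine ⟨(α.symm k) • o, ?_⟩
      rw [hf, MulEquiv.apply_symm_apply]
    have hbij : Function.Bijective f := Finite.surjective_iff_bijective.mp hsurj
    let σ : Equiv.Perm Ω := Equiv.ofBijective f hbij
    have hσ : ∀ g : G, ((α g : G) : Equiv.Perm Ω) = σ * (g : Equiv.Perm Ω) * σ⁻¹ := by
      intro g
      ext x
      obtain ⟨y, rfl⟩ := σ.surjective x
      have h0 : σ⁻¹ (σ y) = y := by simp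
      rw [Equiv.Perm.mul_apply, Equiv.Perm.mul_apply, h0]
      have := hequiv g y
      exact this.symm
    refine ⟨σ, ?_, hσ⟩
    rw [Subgroup.mem_normalizer_iff]
    intro h
    constructor
    · intro hh
      have := hσ ⟨h, hh⟩
      rw [← this]
      exact (α ⟨h, hh⟩).2
    · intro hh
      have h1 := hσ (α.symm ⟨σ * h * σ⁻¹, hh⟩)
      rw [MulEquiv.apply_symm_apply] at h1
      have h2 : h = ((α.symm ⟨σ * h * σ⁻¹, hh⟩ : G) : Equiv.Perm Ω) := by
        have h3 : σ⁻¹ * (σ * h * σ⁻¹) * σ = σ⁻¹ * (σ * ((α.symm ⟨σ * h * σ⁻¹, hh⟩ : G) : Equiv.Perm Ω) * σ⁻¹) * σ := by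
          rw [← h1]
        simpa [mul_assoc] using h3
      rw [h2]
      exact (α.symm ⟨σ * h * σ⁻¹, hh⟩).2

end Cfsg.Agent.S4275
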