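-- Statement S4276: doubly transitive group, automorphism of odd order with an orbit of
-- coprime length is permutational.
import Cfsg.Statements.S4276
import Mathlib
import Cfsg.Agent.S4275

set_option autoImplicit false
open Cfsg

namespace Cfsg.Agent.S4276


section Orb

open Classical

variable {Γ Ω : Type*} [Group Γ] [Fintype Γ] [MulAction Γ Ω] [Fintype Ω]

/-- number of fixed points -/
noncomputable def fixN (Ω : Type*) [Fintype Ω] {Γ : Type*} [Group Γ] [MulAction Γ Ω] (g : Γ) : ℕ :=
  (Finset.univ.filter (fun x : Ω => g • x = x)).card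

omit [Fintype Γ] in
theorem fixN_conj (c g : Γ) : fixN Ω (c * g * c⁻¹) = fixN Ω g := by
  unfold fixN
  apply Finset.card_bij (fun x _ => c⁻¹ • x)
  · intro x hx
    simp only [Finset.mem_filter, Finset.mem_univ, true_and] at hx ⊢
    calc g • c⁻¹ • x = c⁻¹ • ((c * g * c⁻¹) • x) := by simp [mul_smul]
      _ = c⁻¹ • x := by rw [hx]
  · intro x _ y _ hxy
    exact smul_left_cancel _ hxy
  · intro y hy
    simp only [Finset.mem_filter, Finset.mem_univ, true_and] at hy
    refine ⟨c • y, ?_, by simp⟩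
    simp only [Finset.mem_filter, Finset.mem_univ, true_and]
    rw [← mul_smul, inv_mul_cancel_right, mul_smul, hy]

theorem burnside_sub (K : Subgroup Γ) :
    ∑ g : Γ, (if g ∈ K then fixN Ω g else 0)
      = Nat.card (Quotient (MulAction.orbitRel K Ω)) * Nat.card K := by
  haveI : Fintype (Quotient (MulAction.orbitRel K Ω)) := Fintype.ofFinite _
  have hb := MulAction.sum_card_fixedBy_eq_card_orbits_mul_card_group K Ω
  rw [Nat.card_eq_fintype_card, Nat.card_eq_fintype_card, ← hb]
  rw [← Finset.sum_filter]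
  rw [Finset.sum_subtype (Finset.univ.filter (· ∈ K)) (p := (· ∈ K)) (by simp)]
  apply Finset.sum_congr rfl
  intro k _
  unfold fixN
  exact (Fintype.card_of_subtype _ (fun x => by
    simp [MulAction.mem_fixedBy, Subgroup.smul_def])).symm

theorem sum_fixN_mul [MulAction.IsPretransitive Γ Ω] (o : Ω) (W : Γ → ℕ)
    (hW : ∀ c g, W (c * g * c⁻¹) = W g) :
    ∑ g : Γ, fixN Ω g * W g
      = Fintype.card Ω * ∑ g : Γ, (if g • o = o then W g else 0) := by
  have h1 : ∀ g : Γ, fixN Ω g * W g = ∑ x : Ω, (if g • x = x then W g else 0) := by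
    intro g
    unfold fixN
    rw [Finset.card_filter, Finset.sum_mul]
    apply Finset.sum_congr rfl
    intro x _
    split_ifs <;> simp
  simp only [h1]
  rw [Finset.sum_comm]
  have h2 : ∀ x : Ω, ∑ g : Γ, (if g • x = x then W g else 0)
      = ∑ g : Γ, (if g • o = o then W g else 0) := by
    intro x
    obtain ⟨c, rfl⟩ := MulAction.exists_smul_eq Γ o x
    rw [← Equiv.sum_comp (MulAut.conj c).toEquiv (fun g => if g • c • o = c • o then W g else 0)]
    apply Finset.sum_congr rfl
    intro g _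
    have h3 : (c * g * c⁻¹) • c • o = c • o ↔ g • o = o := by
      rw [← mul_smul, inv_mul_cancel_right, mul_smul, smul_left_cancel_iff]
    simp only [MulEquiv.toEquiv_eq_coe, EquivLike.coe_coe, MulAut.conj_apply, hW, h3]
  simp only [h2]
  rw [Finset.sum_const, Finset.card_univ, smul_eq_mul]

omit [Fintype Γ] [Fintype Ω] in
theorem two_trans_exists [h2 : MulAction.IsMultiplyPretransitive Γ Ω 2] (a b c d : Ω)
    (hab : a ≠ b) (hcd : c ≠ d) : ∃ g : Γ, g • a = c ∧ g • b = d :=
  MulAction.is_two_pretransitive_iff.mp h2 hab hcd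

omit [Fintype Γ] in
theorem card_orbits_stab_le [MulAction.IsMultiplyPretransitive Γ Ω 2] (o : Ω) :
    Nat.card (Quotient (MulAction.orbitRel (MulAction.stabilizer Γ o) Ω)) ≤ 2 := by
  let x1 : Ω := if h : ∃ x, x ≠ o then h.choose else o
  let φ : Bool → Quotient (MulAction.orbitRel (MulAction.stabilizer Γ o) Ω) :=
    fun b => if b then Quotient.mk _ o else Quotient.mk _ x1
  have hφ : Function.Surjective φ := by
    intro q
    induction q using Quotient.inductionOn with
    | _ x =>
      by_cases hx : x = o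
      · exact ⟨true, by simp [φ, hx]⟩
      · have hex : ∃ x, x ≠ o := ⟨x, hx⟩
        have hx1 : x1 ≠ o := by
          simp only [x1, dif_pos hex]; exact hex.choose_spec
        obtain ⟨g, hg1, hg2⟩ := two_trans_exists (Γ := Γ) o x1 o x (Ne.symm hx1) (Ne.symm hx)
        refine ⟨false, ?_⟩
        simp only [φ, Bool.false_eq_true, if_false]
        apply Quotient.sound
        show x1 ∈ MulAction.orbit (MulAction.stabilizer Γ o) x
        refine ⟨⟨g⁻¹, ?_⟩, ?_⟩
        · rw [MulAction.mem_stabilizer_iff, inv_smul_eq_iff, hg1]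
        · show g⁻¹ • x = x1
          rw [inv_smul_eq_iff, hg2]
  have h1 := Nat.card_le_card_of_surjective φ hφ
  simpa using h1

theorem card_orbits_map_le [MulAction.IsMultiplyPretransitive Γ Ω 2] (o : Ω) (β : MulAut Γ) :
    Nat.card (Quotient (MulAction.orbitRel ((MulAction.stabilizer Γ o).map β.toMonoidHom) Ω))
      ≤ 2 := by
  haveI : MulAction.IsPretransitive Γ Ω := MulAction.isPretransitive_of_is_two_pretransitive
  have hW : ∀ c g : Γ, fixN Ω (β (c * g * c⁻¹)) = fixN Ω (β g) := by
    intro c g; rw [map_mul, map_mul, map_inv, fixN_conj]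
  have e1 := sum_fixN_mul o (fun g => fixN Ω (β g)) hW
  have e2 := sum_fixN_mul o (fun g : Γ => fixN Ω g) fixN_conj
  have e3 : ∑ g : Γ, fixN Ω (β g) * fixN Ω (β g) = ∑ g : Γ, fixN Ω g * fixN Ω g :=
    Equiv.sum_comp β.toEquiv (fun g => fixN Ω g * fixN Ω g)
  have e4 : 2 * ∑ g : Γ, fixN Ω g * fixN Ω (β g)
      ≤ ∑ g : Γ, fixN Ω g * fixN Ω g + ∑ g : Γ, fixN Ω (β g) * fixN Ω (β g) := by
    rw [Finset.mul_sum, ← Finset.sum_add_distrib]
    apply Finset.sum_le_sum
    intro g _
    have := two_mul_le_add_sq (fixN Ω g) (fixN Ω (β g))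
    nlinarith [this]
  have e5 : ∑ g : Γ, (if g • o = o then fixN Ω g else 0)
      = Nat.card (Quotient (MulAction.orbitRel (MulAction.stabilizer Γ o) Ω))
        * Nat.card (MulAction.stabilizer Γ o) :=
    burnside_sub (Ω := Ω) (MulAction.stabilizer Γ o)
  have e6 := burnside_sub (Ω := Ω) ((MulAction.stabilizer Γ o).map β.toMonoidHom)
  have e7 : ∑ g : Γ, (if g ∈ (MulAction.stabilizer Γ o).map β.toMonoidHom then fixN Ω g else 0)
      = ∑ g : Γ, (if g • o = o then fixN Ω (β g) else 0) := by
    rw [← Equiv.sum_comp β.toEquiv]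
    apply Finset.sum_congr rfl
    intro g _
    have h1 : β g ∈ (MulAction.stabilizer Γ o).map β.toMonoidHom ↔ g • o = o := by
      rw [← MulAction.mem_stabilizer_iff]
      exact Subgroup.mem_map_iff_mem β.injective
    simp only [MulEquiv.toEquiv_eq_coe, EquivLike.coe_coe, h1]
  have e8 : Nat.card ((MulAction.stabilizer Γ o).map β.toMonoidHom)
      = Nat.card (MulAction.stabilizer Γ o) :=
    Subgroup.card_map_of_injective β.injective
  have e9 := card_orbits_stab_le (Γ := Γ) o
  have hn : 0 < Fintype.card Ω := Fintype.card_pos_iff.mpr ⟨o⟩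
  have hS : 0 < Nat.card (MulAction.stabilizer Γ o) := Nat.card_pos
  rw [e7, e8] at e6
  rw [e3, e1, e2, e5, e6] at e4
  -- 2 * (n * (q * s)) ≤ n * (q0 * s) + n * (q0 * s)
  have h1 : Nat.card (Quotient (MulAction.orbitRel ((MulAction.stabilizer Γ o).map β.toMonoidHom) Ω))
        * Nat.card (MulAction.stabilizer Γ o)
      ≤ Nat.card (Quotient (MulAction.orbitRel (MulAction.stabilizer Γ o) Ω))
        * Nat.card (MulAction.stabilizer Γ o) := by
    have h2 : Fintype.card Ω * (2 * (Nat.card (Quotient (MulAction.orbitRel ((MulAction.stabilizer Γ o).map β.toMonoidHom) Ω))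
        * Nat.card (MulAction.stabilizer Γ o)))
      ≤ Fintype.card Ω * (2 * (Nat.card (Quotient (MulAction.orbitRel (MulAction.stabilizer Γ o) Ω))
        * Nat.card (MulAction.stabilizer Γ o))) := by
      calc _ = 2 * (Fintype.card Ω * (Nat.card (Quotient (MulAction.orbitRel ((MulAction.stabilizer Γ o).map β.toMonoidHom) Ω))
        * Nat.card (MulAction.stabilizer Γ o))) := by ring
        _ ≤ _ := e4
        _ = _ := by ring
    have h3 := Nat.le_of_mul_le_mul_left h2 hn
    omega
  have h4 := Nat.le_of_mul_le_mul_right h1 hS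
  omega

theorem orbit_trichotomy [MulAction.IsMultiplyPretransitive Γ Ω 2] (o : Ω) (β : MulAut Γ)
    (x0 x1 x : Ω)
    (h01 : x1 ∉ MulAction.orbit ((MulAction.stabilizer Γ o).map β.toMonoidHom) x0) :
    x ∈ MulAction.orbit ((MulAction.stabilizer Γ o).map β.toMonoidHom) x0
      ∨ x ∈ MulAction.orbit ((MulAction.stabilizer Γ o).map β.toMonoidHom) x1 := by
  by_contra hcon
  push Not at hcon
  obtain ⟨hx0, hx1⟩ := hcon
  haveI : Fintype (Quotient (MulAction.orbitRel
    ((MulAction.stabilizer Γ o).map β.toMonoidHom) Ω)) := Fintype.ofFinite _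
  have h3 : 2 < Fintype.card (Quotient (MulAction.orbitRel
      ((MulAction.stabilizer Γ o).map β.toMonoidHom) Ω)) := by
    rw [Fintype.two_lt_card_iff]
    refine ⟨Quotient.mk _ x0, Quotient.mk _ x1, Quotient.mk _ x, ?_, ?_, ?_⟩
    · intro h; exact h01 (Quotient.exact h.symm)
    · intro h; exact hx0 (Quotient.exact h.symm)
    · intro h; exact hx1 (Quotient.exact h.symm)
  have h4 := card_orbits_map_le (Ω := Ω) o β
  rw [Nat.card_eq_fintype_card] at h4
  omega

end Orb



section Rel

open Classical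

variable {Γ Ω : Type*} [Group Γ] [MulAction Γ Ω] [Fintype Ω]

/-- indicator of the twisted relation: `x = β h • ω`, `y = h • o` for a common `h` -/
noncomputable def rel (β : MulAut Γ) (ω o x y : Ω) : ℤ :=
  if ∃ h : Γ, x = β h • ω ∧ y = h • o then 1 else 0

omit [Fintype Ω] in
theorem rel_mul_self (β : MulAut Γ) (ω o x y : Ω) :
    rel β ω o x y * rel β ω o x y = rel β ω o x y := by
  unfold rel; split_ifs <;> simp

omit [Fintype Ω] in
theorem rel_smul (β : MulAut Γ) (ω o x y : Ω) (h : Γ) :
    rel β ω o (β h • x) (h • y) = rel β ω o x y := by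
  unfold rel
  have h1 : (∃ h' : Γ, β h • x = β h' • ω ∧ h • y = h' • o)
      ↔ (∃ h' : Γ, x = β h' • ω ∧ y = h' • o) := by
    constructor
    · rintro ⟨h', h1, h2⟩
      refine ⟨h⁻¹ * h', ?_, ?_⟩
      · rw [map_mul, map_inv, mul_smul, ← h1, inv_smul_smul]
      · rw [mul_smul, ← h2, inv_smul_smul]
    · rintro ⟨h', rfl, rfl⟩
      exact ⟨h * h', by rw [map_mul, mul_smul], by rw [mul_smul]⟩
  simp only [h1]

theorem rel_rowsum_base (β : MulAut Γ) (ω o : Ω) :
    ∑ x, rel β ω o x o
      = (Nat.card (MulAction.orbit ((MulAction.stabilizer Γ o).map β.toMonoidHom) ω) : ℤ) := by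
  have hmem : ∀ x, (∃ h : Γ, x = β h • ω ∧ o = h • o)
      ↔ x ∈ MulAction.orbit ((MulAction.stabilizer Γ o).map β.toMonoidHom) ω := by
    intro x
    constructor
    · rintro ⟨h, rfl, h2⟩
      exact ⟨⟨β h, Subgroup.mem_map_of_mem _ (MulAction.mem_stabilizer_iff.mpr h2.symm)⟩, rfl⟩
    · rintro ⟨⟨t, ht⟩, rfl⟩
      obtain ⟨s, hs, rfl⟩ := Subgroup.mem_map.mp ht
      exact ⟨s, rfl, (MulAction.mem_stabilizer_iff.mp hs).symm⟩
  simp only [rel, hmem]
  rw [Finset.sum_boole]
  congr 1
  rw [Nat.card_eq_fintype_card, Fintype.card_subtype]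

theorem rel_rowsum [MulAction.IsPretransitive Γ Ω] (β : MulAut Γ) (ω o y : Ω) :
    ∑ x, rel β ω o x y = ∑ x, rel β ω o x o := by
  obtain ⟨h, rfl⟩ := MulAction.exists_smul_eq Γ o y
  rw [← Equiv.sum_comp (MulAction.toPerm (β h)) (fun x => rel β ω o x (h • o))]
  apply Finset.sum_congr rfl
  intro x _
  rw [MulAction.toPerm_apply, rel_smul]

theorem rel_colsum_const [MulAction.IsPretransitive Γ Ω] (β : MulAut Γ) (ω o x x' : Ω) :
    ∑ y, rel β ω o x' y = ∑ y, rel β ω o x y := by
  obtain ⟨g, rfl⟩ := MulAction.exists_smul_eq Γ x x'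
  obtain ⟨h, rfl⟩ := β.surjective g
  rw [← Equiv.sum_comp (MulAction.toPerm h) (fun y => rel β ω o (β h • x) y)]
  apply Finset.sum_congr rfl
  intro y _
  rw [MulAction.toPerm_apply, rel_smul]

theorem rel_colsum [MulAction.IsPretransitive Γ Ω] (β : MulAut Γ) (ω o x : Ω) :
    ∑ y, rel β ω o x y = ∑ x', rel β ω o x' o := by
  have h1 : ∑ x', ∑ y, rel β ω o x' y = ∑ y, ∑ x', rel β ω o x' y := Finset.sum_comm
  have h2 : ∑ x', ∑ y, rel β ω o x' y = (Fintype.card Ω : ℤ) * ∑ y, rel β ω o x y := by
    rw [Finset.sum_congr rfl (fun x' _ => rel_colsum_const β ω o x x')]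
    simp [Finset.sum_const, Finset.card_univ]
  have h3 : ∑ y, ∑ x', rel β ω o x' y = (Fintype.card Ω : ℤ) * ∑ x', rel β ω o x' o := by
    rw [Finset.sum_congr rfl (fun y _ => rel_rowsum β ω o y)]
    simp [Finset.sum_const, Finset.card_univ]
  have hn : (Fintype.card Ω : ℤ) ≠ 0 := by
    have : Nonempty Ω := ⟨o⟩
    exact_mod_cast Fintype.card_ne_zero
  exact mul_left_cancel₀ hn (h2.symm.trans (h1.trans h3))

/-- the number of common "points" of two "blocks" -/
noncomputable def lam (β : MulAut Γ) (ω o y y' : Ω) : ℤ :=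
  ∑ x, rel β ω o x y * rel β ω o x y'

theorem lam_smul (β : MulAut Γ) (ω o y y' : Ω) (h : Γ) :
    lam β ω o (h • y) (h • y') = lam β ω o y y' := by
  unfold lam
  rw [← Equiv.sum_comp (MulAction.toPerm (β h))
    (fun x => rel β ω o x (h • y) * rel β ω o x (h • y'))]
  apply Finset.sum_congr rfl
  intro x _
  rw [MulAction.toPerm_apply, rel_smul, rel_smul]

theorem lam_const [h2 : MulAction.IsMultiplyPretransitive Γ Ω 2] (β : MulAut Γ) (ω o : Ω)
    (y y' z z' : Ω) (h : y ≠ y') (h' : z ≠ z') : lam β ω o y y' = lam β ω o z z' := by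
  obtain ⟨g, rfl, rfl⟩ := MulAction.is_two_pretransitive_iff.mp h2 h h'
  rw [lam_smul]

theorem lam_self [MulAction.IsPretransitive Γ Ω] (β : MulAut Γ) (ω o y : Ω) :
    lam β ω o y y = ∑ x, rel β ω o x o := by
  unfold lam
  simp only [rel_mul_self]
  exact rel_rowsum β ω o y

theorem lam_sum [MulAction.IsPretransitive Γ Ω] (β : MulAut Γ) (ω o y : Ω) :
    ∑ y', lam β ω o y y' = (∑ x, rel β ω o x o) * (∑ x, rel β ω o x o) := by
  unfold lam
  rw [Finset.sum_comm]
  simp only [← Finset.mul_sum, rel_colsum β ω o]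
  rw [← Finset.sum_mul, rel_rowsum]

theorem lam_eq [MulAction.IsMultiplyPretransitive Γ Ω 2] [MulAction.IsPretransitive Γ Ω]
    (β : MulAut Γ) (ω o y y' : Ω) (h : y ≠ y') :
    lam β ω o y y' * ((Fintype.card Ω : ℤ) - 1)
      = (∑ x, rel β ω o x o) * ((∑ x, rel β ω o x o) - 1) := by
  have h1 := Finset.add_sum_erase Finset.univ (fun y'' => lam β ω o y y'') (Finset.mem_univ y)
  have h2 : ∑ y'' ∈ Finset.univ.erase y, lam β ω o y y''
      = ((Fintype.card Ω : ℤ) - 1) * lam β ω o y y' := by
    rw [Finset.sum_congr rfl (fun y'' hy'' =>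
      lam_const β ω o y y'' y y' (Finset.ne_of_mem_erase hy'').symm h)]
    rw [Finset.sum_const, Finset.card_erase_of_mem (Finset.mem_univ y), Finset.card_univ,
      nsmul_eq_mul, Nat.cast_sub (Fintype.card_pos_iff.mpr ⟨y⟩)]
    simp
  rw [h2, lam_sum, lam_self] at h1
  linear_combination h1

/-- number of two-step paths from `x` to `o` -/
noncomputable def pathCount (β : MulAut Γ) (ω o x : Ω) : ℤ :=
  ∑ y, rel β ω o x y * rel β ω o y o

theorem pathCount_smul (β : MulAut Γ) (ω o x : Ω) (s : Γ) (hs : s • o = o) :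
    pathCount β ω o (β (β s) • x) = pathCount β ω o x := by
  unfold pathCount
  rw [← Equiv.sum_comp (MulAction.toPerm (β s))
    (fun y => rel β ω o (β (β s) • x) y * rel β ω o y o)]
  apply Finset.sum_congr rfl
  intro y _
  rw [MulAction.toPerm_apply, rel_smul]
  have h1 : rel β ω o (β s • y) o = rel β ω o (β s • y) (s • o) := by rw [hs]
  rw [h1, rel_smul]

theorem pathCount_sum [MulAction.IsPretransitive Γ Ω] (β : MulAut Γ) (ω o : Ω) :
    ∑ x, pathCount β ω o x = (∑ x, rel β ω o x o) * (∑ x, rel β ω o x o) := by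
  unfold pathCount
  rw [Finset.sum_comm]
  simp only [← Finset.sum_mul, rel_rowsum β ω o]
  rw [← Finset.mul_sum]

theorem pathCount_sq_sum [MulAction.IsMultiplyPretransitive Γ Ω 2] [MulAction.IsPretransitive Γ Ω]
    (β : MulAut Γ) (ω o y0 y1 : Ω) (h01 : y0 ≠ y1) :
    ∑ x, pathCount β ω o x * pathCount β ω o x
      = (∑ x, rel β ω o x o) * (∑ x, rel β ω o x o)
        + (∑ x, rel β ω o x o) * ((∑ x, rel β ω o x o) - 1) * lam β ω o y0 y1 := by
  set K := ∑ x, rel β ω o x o with hK
  set L := lam β ω o y0 y1 with hL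
  have s1 : ∀ x, pathCount β ω o x * pathCount β ω o x
      = ∑ y, ∑ y', (rel β ω o y o * rel β ω o y' o) * (rel β ω o x y * rel β ω o x y') := by
    intro x
    unfold pathCount
    rw [Finset.sum_mul_sum]
    apply Finset.sum_congr rfl
    intro y _
    apply Finset.sum_congr rfl
    intro y' _
    ring
  have s2 : ∑ x, ∑ y, ∑ y', (rel β ω o y o * rel β ω o y' o) * (rel β ω o x y * rel β ω o x y')
      = ∑ y, ∑ y', (rel β ω o y o * rel β ω o y' o) * lam β ω o y y' := by
    rw [Finset.sum_comm]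
    apply Finset.sum_congr rfl
    intro y _
    rw [Finset.sum_comm]
    apply Finset.sum_congr rfl
    intro y' _
    rw [← Finset.mul_sum]
    rfl
  have s3 : ∀ y, ∑ y', (rel β ω o y o * rel β ω o y' o) * lam β ω o y y'
      = rel β ω o y o * (K + L * K - L) := by
    intro y
    have h1 := Finset.add_sum_erase Finset.univ
      (fun y' => (rel β ω o y o * rel β ω o y' o) * lam β ω o y y') (Finset.mem_univ y)
    have h2 : ∑ y' ∈ Finset.univ.erase y, (rel β ω o y o * rel β ω o y' o) * lam β ω o y y'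
        = rel β ω o y o * L * ∑ y' ∈ Finset.univ.erase y, rel β ω o y' o := by
      rw [Finset.mul_sum]
      apply Finset.sum_congr rfl
      intro y' hy'
      rw [lam_const β ω o y y' y0 y1 (Finset.ne_of_mem_erase hy').symm h01]
      ring
    have h3 := Finset.add_sum_erase Finset.univ (fun y' => rel β ω o y' o) (Finset.mem_univ y)
    have h4 : ∑ y' ∈ Finset.univ.erase y, rel β ω o y' o = K - rel β ω o y o := by
      rw [hK]; linarith
    rw [h2, h4, lam_self] at h1
    rw [← h1]
    have h5 := rel_mul_self β ω o y o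
    linear_combination (K - L) * h5
  rw [Finset.sum_congr rfl (fun x _ => s1 x), s2, Finset.sum_congr rfl (fun y _ => s3 y),
    ← Finset.sum_mul]
  ring

end Rel

theorem arith (N k a μ ν lam lam2 : ℤ) (hN : 2 ≤ N) (hk : IsCoprime k N) (ha1 : 1 ≤ a)
    (haN : a ≤ N - 1)
    (hlam : lam * (N - 1) = k * (k - 1)) (hlam2 : lam2 * (N - 1) = a * (a - 1))
    (hM1 : a * μ + (N - a) * ν = k * k)
    (hM2 : a * (μ * μ) + (N - a) * (ν * ν) = k * k + k * (k - 1) * lam) :
    a = 1 ∨ a = N - 1 := by
  set t := μ - ν with ht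
  set q := k - lam with hq
  set q2 := a - lam2 with hq2
  have hN1 : N - 1 ≠ 0 := by omega
  have e1 : (N - 1) * q = k * (N - k) := by rw [hq]; linear_combination -hlam
  have e2 : (N - 1) * q2 = a * (N - a) := by rw [hq2]; linear_combination -hlam2
  have eC : N * ν = k * k - t * a := by rw [ht]; linear_combination hM1
  have eE : q2 * (t * t) = q * q := by
    have h1 : a * (N - a) * (t * t) = N * (k * k + k * (k - 1) * lam) - (k * k) * (k * k) := by
      rw [ht]; linear_combination N * hM2 - (a * μ + (N - a) * ν + k * k) * hM1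
    have h2 : (N - 1) * (N - 1) * (q2 * (t * t)) = (N - 1) * (N - 1) * (q * q) := by
      linear_combination (N - 1) * (t * t) * e2 + (N - 1) * h1 + N * k * (k - 1) * hlam
        - ((N - 1) * q + k * (N - k)) * e1
    exact mul_left_cancel₀ (mul_ne_zero hN1 hN1) h2
  have htN : IsCoprime t N := by
    have h1 : IsCoprime (k * k) N := hk.mul_left hk
    have h2 : k * k = t * a + N * ν := by linear_combination -eC
    rw [h2] at h1
    have h3 : IsCoprime (t * a) N := IsCoprime.of_add_mul_left_left h1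
    exact IsCoprime.of_mul_left_left h3
  have ht0 : t ≠ 0 := by
    intro h0
    rw [h0] at htN
    have h1 := isCoprime_zero_left.mp htN
    rcases Int.isUnit_iff.mp h1 with h | h <;> omega
  have hdvd : t ∣ q := by
    have h1 : t ^ 2 ∣ q ^ 2 := ⟨q2, by linear_combination -eE⟩
    exact (Int.pow_dvd_pow_iff (by norm_num)).mp h1
  obtain ⟨c, hc⟩ := hdvd
  have hq2c : q2 = c * c := by
    have h1 : t * t * q2 = t * t * (c * c) := by rw [hc] at eE; linear_combination eE
    exact mul_left_cancel₀ (mul_ne_zero ht0 ht0) h1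
  have hcong : N ∣ c - a := by
    have h1 : N ∣ t * (c - a) := ⟨ν + q - k, by linear_combination -hc - e1 - eC⟩
    exact (IsCoprime.symm htN).dvd_of_dvd_mul_left h1
  obtain ⟨w, hw⟩ := hcong
  have e3 : (N - 1) * (c * c) = a * (N - a) := by rw [← hq2c]; exact e2
  have hc2 : c * c ≤ N - 1 := by
    have h1 : a * (N - a) ≤ (N - 1) * (N - 1) := by nlinarith
    have h2 : (N - 1) * (c * c) ≤ (N - 1) * (N - 1) := by rw [e3]; exact h1
    exact le_of_mul_le_mul_left h2 (by omega)
  have hcl : -N < c := by nlinarith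
  have hcu : c < N := by nlinarith
  have hw' : w = 0 ∨ w = -1 := by
    have h1 : N * w < N * 1 := by rw [← hw]; omega
    have h2 : N * (-2) < N * w := by rw [← hw]; omega
    have h3 : w < 1 := lt_of_mul_lt_mul_left h1 (by omega)
    have h4 : -2 < w := lt_of_mul_lt_mul_left h2 (by omega)
    omega
  rcases hw' with rfl | rfl
  · left
    have hca : c = a := by linarith
    rw [hca] at e3
    have h5 : a * (N * (a - 1)) = 0 := by linear_combination e3
    rcases mul_eq_zero.mp h5 with h | h
    · omega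
    · rcases mul_eq_zero.mp h with h | h <;> omega
  · right
    have hca : c = a - N := by linarith
    rw [hca] at e3
    have h5 : (N - a) * (N * (N - a - 1)) = 0 := by linear_combination e3
    rcases mul_eq_zero.mp h5 with h | h
    · omega
    · rcases mul_eq_zero.mp h with h | h <;> omega


section Main

open Classical

variable {Γ Ω : Type*} [Group Γ] [Fintype Γ] [MulAction Γ Ω] [Fintype Ω]

/-- Key step: if `β(Γ_o)` has an orbit of length coprime to `|Ω|`, then `β²(Γ_o)` fixes a point. -/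
theorem exists_fixed_sq [MulAction.IsMultiplyPretransitive Γ Ω 2] (hn : 2 ≤ Fintype.card Ω)
    (β : MulAut Γ) (o ω : Ω)
    (hk : (Nat.card (MulAction.orbit ((MulAction.stabilizer Γ o).map β.toMonoidHom) ω)).Coprime
      (Fintype.card Ω)) :
    ∃ x : Ω, ∀ g ∈ (MulAction.stabilizer Γ o).map (β * β).toMonoidHom, g • x = x := by
  haveI : MulAction.IsPretransitive Γ Ω := MulAction.isPretransitive_of_is_two_pretransitive
  set k := Nat.card (MulAction.orbit ((MulAction.stabilizer Γ o).map β.toMonoidHom) ω) with hkdef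
  set n := Fintype.card Ω with hndef
  have hK : ∑ x, rel β ω o x o = (k : ℤ) := rel_rowsum_base β ω o
  have hf : ∀ x x' : Ω,
      x' ∈ MulAction.orbit ((MulAction.stabilizer Γ o).map (β * β).toMonoidHom) x →
      pathCount β ω o x' = pathCount β ω o x := by
    rintro x _ ⟨⟨t, ht⟩, rfl⟩
    obtain ⟨s, hs, rfl⟩ := Subgroup.mem_map.mp ht
    exact pathCount_smul β ω o x s (MulAction.mem_stabilizer_iff.mp hs)
  have hB := orbit_trichotomy (Γ := Γ) (Ω := Ω) o (β * β)
  by_cases hall : ∀ x, x ∈ MulAction.orbit ((MulAction.stabilizer Γ o).map (β * β).toMonoidHom) o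
  · exfalso
    have h1 : ∑ x, pathCount β ω o x = (n : ℤ) * pathCount β ω o o := by
      rw [Finset.sum_congr rfl (fun x _ => hf o x (hall x))]
      simp [Finset.sum_const, Finset.card_univ, hndef]
    rw [pathCount_sum, hK] at h1
    have h2 : (n : ℤ) ∣ ((k * k : ℕ) : ℤ) := ⟨_, by push_cast; exact h1⟩
    have h3 : n ∣ k * k := Int.natCast_dvd_natCast.mp h2
    have h4 : n ∣ k := (Nat.Coprime.symm hk).dvd_of_dvd_mul_left h3
    have h5 : n ∣ 1 := by
      have h6 := Nat.dvd_gcd h4 (dvd_refl n)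
      rwa [Nat.Coprime.gcd_eq_one hk] at h6
    have h7 := Nat.le_of_dvd one_pos h5
    omega
  · push Not at hall
    obtain ⟨x1, hx1⟩ := hall
    set Δ := Finset.univ.filter
      (fun x => x ∈ MulAction.orbit ((MulAction.stabilizer Γ o).map (β * β).toMonoidHom) o) with hΔ
    set Δ' := Finset.univ.filter
      (fun x => ¬ x ∈ MulAction.orbit ((MulAction.stabilizer Γ o).map (β * β).toMonoidHom) o)
      with hΔ'
    have hab : Δ.card + Δ'.card = n := by
      rw [hΔ, hΔ', Finset.card_filter_add_card_filter_not, Finset.card_univ]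
    have hoΔ : o ∈ Δ := by
      simp only [hΔ, Finset.mem_filter, Finset.mem_univ, true_and]
      exact MulAction.mem_orbit_self o
    have hx1Δ' : x1 ∈ Δ' := by
      simp only [hΔ', Finset.mem_filter, Finset.mem_univ, true_and]
      exact hx1
    have ha1 : 1 ≤ Δ.card := Finset.card_pos.mpr ⟨o, hoΔ⟩
    have hb1 : 1 ≤ Δ'.card := Finset.card_pos.mpr ⟨x1, hx1Δ'⟩
    have hox1 : o ≠ x1 := by
      rintro rfl; exact hx1 (MulAction.mem_orbit_self _)
    have hμ : ∀ x ∈ Δ, pathCount β ω o x = pathCount β ω o o := by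
      intro x hx
      simp only [hΔ, Finset.mem_filter, Finset.mem_univ, true_and] at hx
      exact hf o x hx
    have hν : ∀ x ∈ Δ', pathCount β ω o x = pathCount β ω o x1 := by
      intro x hx
      simp only [hΔ', Finset.mem_filter, Finset.mem_univ, true_and] at hx
      rcases hB o x1 x hx1 with h | h
      · exact absurd h hx
      · exact hf x1 x h
    have hsum : ∀ F : Ω → ℤ, (∀ x ∈ Δ, F x = F o) → (∀ x ∈ Δ', F x = F x1) →
        ∑ x, F x = (Δ.card : ℤ) * F o + (Δ'.card : ℤ) * F x1 := by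
      intro F h1 h2
      rw [← Finset.sum_filter_add_sum_filter_not Finset.univ
        (fun x => x ∈ MulAction.orbit ((MulAction.stabilizer Γ o).map (β * β).toMonoidHom) o) F]
      rw [Finset.sum_congr rfl h1, Finset.sum_congr rfl h2]
      simp [Finset.sum_const]
    have hM1 : (Δ.card : ℤ) * pathCount β ω o o + (Δ'.card : ℤ) * pathCount β ω o x1
        = k * k := by
      rw [← hsum (pathCount β ω o) hμ hν, pathCount_sum, hK]
    have hM2 : (Δ.card : ℤ) * (pathCount β ω o o * pathCount β ω o o)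
        + (Δ'.card : ℤ) * (pathCount β ω o x1 * pathCount β ω o x1)
        = k * k + k * (k - 1) * lam β ω o o x1 := by
      rw [← hsum (fun x => pathCount β ω o x * pathCount β ω o x)
        (fun x hx => by rw [hμ x hx]) (fun x hx => by rw [hν x hx]),
        pathCount_sq_sum β ω o o x1 hox1, hK]
    have hlam : lam β ω o o x1 * ((n : ℤ) - 1) = k * (k - 1) := by
      rw [lam_eq β ω o o x1 hox1, hK]
    have hK2 : ∑ x, rel (β * β) o o x o = (Δ.card : ℤ) := by
      rw [rel_rowsum_base (β * β) o o]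
      congr 1
      rw [Nat.card_eq_fintype_card, Fintype.card_subtype]
    have hlam2 : lam (β * β) o o o x1 * ((n : ℤ) - 1) = (Δ.card : ℤ) * ((Δ.card : ℤ) - 1) := by
      rw [lam_eq (β * β) o o o x1 hox1, hK2]
    have habZ : (Δ.card : ℤ) + (Δ'.card : ℤ) = (n : ℤ) := by exact_mod_cast hab
    have hb1Z : (1 : ℤ) ≤ (Δ'.card : ℤ) := by exact_mod_cast hb1
    have hbZ : (n : ℤ) - (Δ.card : ℤ) = (Δ'.card : ℤ) := by linarith
    have harith := arith (n : ℤ) k Δ.card (pathCount β ω o o) (pathCount β ω o x1)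
      (lam β ω o o x1) (lam (β * β) o o o x1) (by exact_mod_cast hn)
      (Nat.isCoprime_iff_coprime.mpr hk) (by exact_mod_cast ha1) (by linarith) hlam hlam2
      (by rw [hbZ]; exact hM1) (by rw [hbZ]; exact hM2)
    rcases harith with h | h
    · refine ⟨o, fun g hg => ?_⟩
      have h1 : g • o ∈ Δ := by
        simp only [hΔ, Finset.mem_filter, Finset.mem_univ, true_and]
        exact ⟨⟨g, hg⟩, rfl⟩
      have h2 : Δ.card ≤ 1 := by
        have h3 : Δ.card = 1 := by exact_mod_cast h
        omega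
      exact Finset.card_le_one.mp h2 _ h1 _ hoΔ
    · refine ⟨x1, fun g hg => ?_⟩
      have h1 : g • x1 ∈ Δ' := by
        simp only [hΔ', Finset.mem_filter, Finset.mem_univ, true_and]
        intro hcon
        apply hx1
        have h3 : x1 = (⟨g, hg⟩ : (MulAction.stabilizer Γ o).map (β * β).toMonoidHom)⁻¹
            • ((⟨g, hg⟩ : (MulAction.stabilizer Γ o).map (β * β).toMonoidHom) • x1) := by
          rw [inv_smul_smul]
        rw [h3]
        exact MulAction.mem_orbit_of_mem_orbit _ hcon
      have h2 : Δ'.card ≤ 1 := by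
        have h3 : (Δ'.card : ℤ) = 1 := by linarith
        have h4 : Δ'.card = 1 := by exact_mod_cast h3
        omega
      exact Finset.card_le_one.mp h2 _ h1 _ hx1Δ'

end Main

section Final

open Classical

/-- powers of a permutational automorphism are permutational -/
theorem perm_pow {Ω : Type*} (G : Subgroup (Equiv.Perm Ω)) (γ : MulAut G)
    (h : ∃ σ : Equiv.Perm Ω, σ ∈ Subgroup.normalizer (G : Set (Equiv.Perm Ω)) ∧
      ∀ g : G, ((γ g : G) : Equiv.Perm Ω) = σ * (g : Equiv.Perm Ω) * σ⁻¹) (j : ℕ) :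
    ∃ σ : Equiv.Perm Ω, σ ∈ Subgroup.normalizer (G : Set (Equiv.Perm Ω)) ∧
      ∀ g : G, (((γ ^ j) g : G) : Equiv.Perm Ω) = σ * (g : Equiv.Perm Ω) * σ⁻¹ := by
  obtain ⟨σ, hσ, hσg⟩ := h
  induction j with
  | zero => exact ⟨1, one_mem _, fun g => by simp⟩
  | succ j ih =>
    obtain ⟨τ, hτ, hτg⟩ := ih
    refine ⟨τ * σ, mul_mem hτ hσ, fun g => ?_⟩
    rw [pow_succ, MulAut.mul_apply, hτg, hσg]
    group

/-- Let G be a doubly transitive group of permutations of a finite set Ω of size n, let o ∈ Ω, and let α be an automorphism of G of odd order. Suppose that the image under α of the stabilizer of o has an orbit on Ω whose length k is coprime to n. Then α is induced by conjugation by a permutation of Ω normalizing G, and k = 1 or k = n − 1. -/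
theorem result {Ω : Type*} [Fintype Ω] (G : Subgroup (Equiv.Perm Ω)) (h2 : MulAction.IsMultiplyPretransitive G Ω 2) (o : Ω) (α : MulAut G) (hα : Odd (orderOf α)) (ω : Ω) (hk : (Nat.card (MulAction.orbit ((MulAction.stabilizer G o).map α.toMonoidHom) ω)).Coprime (Fintype.card Ω)) : (∃ σ : Equiv.Perm Ω, σ ∈ Subgroup.normalizer (G : Set (Equiv.Perm Ω)) ∧ ∀ g : G, ((α g : G) : Equiv.Perm Ω) = σ * (g : Equiv.Perm Ω) * σ⁻¹) ∧ (Nat.card (MulAction.orbit ((MulAction.stabilizer G o).map α.toMonoidHom) ω) = 1 ∨ Nat.card (MulAction.orbit ((MulAction.stabilizer G o).map α.toMonoidHom) ω) = Fintype.card Ω - 1) := by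
  haveI : Fintype G := Fintype.ofFinite G
  haveI := h2
  have htr : MulAction.IsPretransitive G Ω := MulAction.isPretransitive_of_is_two_pretransitive
  by_cases hn : 2 ≤ Fintype.card Ω
  · obtain ⟨x, hx⟩ := exists_fixed_sq (Γ := G) hn α o ω hk
    have hsq := (Cfsg.Agent.S4275.result G htr o (α * α)).mpr ⟨x, hx⟩
    obtain ⟨i, hi⟩ := hα
    have hpow : (α * α) ^ (i + 1) = α := by
      rw [← pow_two, ← pow_mul]
      have h1 : 2 * (i + 1) = orderOf α + 1 := by omega
      rw [h1, pow_succ, pow_orderOf_eq_one, one_mul]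
    have hperm := perm_pow G (α * α) hsq (i + 1)
    rw [hpow] at hperm
    refine ⟨hperm, ?_⟩
    obtain ⟨ω0, hω0⟩ := (Cfsg.Agent.S4275.result G htr o α).mp hperm
    set H := (MulAction.stabilizer G o).map α.toMonoidHom with hH
    have hle : H ≤ MulAction.stabilizer G ω0 :=
      fun g hg => MulAction.mem_stabilizer_iff.mpr (hω0 g hg)
    have hcard : Nat.card (MulAction.stabilizer G ω0) ≤ Nat.card H := by
      obtain ⟨c, rfl⟩ := MulAction.exists_smul_eq G o ω0
      rw [MulAction.stabilizer_smul_eq_stabilizer_map_conj,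
        Subgroup.card_map_of_injective (MulAut.conj c).injective, hH,
        Subgroup.card_map_of_injective α.injective]
    have hHeq : H = MulAction.stabilizer G ω0 := Subgroup.eq_of_le_of_card_ge hle hcard
    by_cases hω : ω = ω0
    · left
      have h1 : MulAction.orbit H ω = {ω0} := by
        ext y
        constructor
        · rintro ⟨⟨g, hg⟩, rfl⟩
          rw [hω]
          exact hω0 g hg
        · intro hy
          rw [Set.mem_singleton_iff] at hy
          rw [hy, hω]
          exact MulAction.mem_orbit_self _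
      rw [h1, Nat.card_coe_set_eq, Set.ncard_singleton]
    · right
      have h1 : MulAction.orbit H ω = {ω0}ᶜ := by
        ext y
        constructor
        · rintro ⟨⟨g, hg⟩, rfl⟩
          intro hy
          have h3 : g • ω = g • ω0 := by rw [hω0 g hg]; exact hy
          exact hω (smul_left_cancel g h3)
        · intro hy
          have hy' : y ≠ ω0 := hy
          obtain ⟨g, hg1, hg2⟩ :=
            two_trans_exists (Γ := G) ω0 ω ω0 y (Ne.symm hω) (Ne.symm hy')
          have hgH : g ∈ H := by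
            rw [hHeq]; exact MulAction.mem_stabilizer_iff.mpr hg1
          exact ⟨⟨g, hgH⟩, hg2⟩
      rw [h1, Nat.card_coe_set_eq, Set.ncard_compl, Set.ncard_singleton,
        Nat.card_eq_fintype_card]
  · have hsub : Subsingleton Ω := by
      rw [← Fintype.card_le_one_iff_subsingleton]; omega
    refine ⟨⟨1, one_mem _, fun g => Subsingleton.elim _ _⟩, Or.inl ?_⟩
    rw [Nat.card_eq_one_iff_unique]
    exact ⟨inferInstance, ⟨⟨ω, MulAction.mem_orbit_self _⟩⟩⟩

end Final

end Cfsg.Agent.S4276
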