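import Cfsg.Statements.S4278
import Cfsg.Agent.Lib.Helper25.InvG2Odd

set_option autoImplicit false
open Cfsg

namespace Cfsg.Agent.S4278

/-- In the Chevalley group of type G₂ over a finite field of odd order, any two involutions are conjugate. -/
theorem result {F : Type*} [Field F] [Fintype F] (hF : Odd (Fintype.card F)) (s t : ↥(Cfsg.Lie.chevG2.group F)) (hs : orderOf s = 2) (ht : orderOf t = 2) : IsConj s t := by
  have hodd : Fintype.card F % 2 = 1 := Nat.odd_iff.1 hF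
  have key : ∀ x : ↥(Cfsg.Lie.chevG2.group F), orderOf x = 2 →
      Cfsg.Agent.Lib.Helper25.ConjM Cfsg.Lie.chevG2
        ((x : GL Cfsg.Lie.chevG2.Idx F) : Matrix Cfsg.Lie.chevG2.Idx Cfsg.Lie.chevG2.Idx F)
        (Cfsg.Agent.Lib.Helper25.nWordMat F Cfsg.Lie.chevG2 [0, 1, 0, 1, 0, 1]) := by
    intro x hx
    have h2 : x ^ 2 = 1 := by
      rw [← hx]
      exact pow_orderOf_eq_one x
    have h2' : (x : GL Cfsg.Lie.chevG2.Idx F) * (x : GL Cfsg.Lie.chevG2.Idx F) = 1 := by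
      have := congrArg Subtype.val h2
      simpa [pow_two] using this
    have h1 : (x : GL Cfsg.Lie.chevG2.Idx F) ≠ 1 := by
      intro h
      have : x = 1 := Subtype.ext h
      rw [this, orderOf_one] at hx
      omega
    exact Cfsg.Agent.Lib.Helper25.g2odd_main hodd _ x.2 h2' h1
  obtain ⟨a, ha, ea⟩ := key s hs
  obtain ⟨b, hb, eb⟩ := key t ht
  have e1 : a * (s : GL Cfsg.Lie.chevG2.Idx F) * a⁻¹ = b * (t : GL Cfsg.Lie.chevG2.Idx F) * b⁻¹ := by
    apply Units.ext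
    rw [Units.val_mul, Units.val_mul, Units.val_mul, Units.val_mul, ea, eb, Matrix.mul_assoc,
      Matrix.mul_assoc, ← Units.val_mul, ← Units.val_mul, mul_inv_cancel, mul_inv_cancel]
  have e2 : (b⁻¹ * a) * (s : GL Cfsg.Lie.chevG2.Idx F) * (b⁻¹ * a)⁻¹ =
      (t : GL Cfsg.Lie.chevG2.Idx F) := by
    have : (b⁻¹ * a) * (s : GL Cfsg.Lie.chevG2.Idx F) * (b⁻¹ * a)⁻¹ =
        b⁻¹ * (a * (s : GL Cfsg.Lie.chevG2.Idx F) * a⁻¹) * b := by group
    rw [this, e1]
    group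
  rw [isConj_iff]
  exact ⟨⟨b⁻¹ * a, mul_mem (inv_mem hb) ha⟩, Subtype.ext e2⟩

end Cfsg.Agent.S4278
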