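import Cfsg.Statements.S4279
import Cfsg.Agent.S4278
import Cfsg.Agent.Lib.Helper25.G2cMain

set_option autoImplicit false
open Cfsg

namespace Cfsg.Agent.S4279

/-- In the Chevalley group G of type G₂ over a finite field F of odd order q, the centralizer of an involution t has order q²(q² − 1)² and contains two elementwise commuting subgroups, each isomorphic to SL(2, F), which meet exactly in the subgroup generated by t and whose join has index 2 in the centralizer. -/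
theorem result {F : Type*} [Field F] [Fintype F] (hF : Odd (Fintype.card F)) (t : ↥(Cfsg.Lie.chevG2.group F)) (ht : orderOf t = 2) : Nat.card (Subgroup.centralizer ({t} : Set ↥(Cfsg.Lie.chevG2.group F))) = Fintype.card F ^ 2 * (Fintype.card F ^ 2 - 1) ^ 2 ∧ ∃ L₁ L₂ : Subgroup ↥(Cfsg.Lie.chevG2.group F), Nonempty (L₁ ≃* Matrix.SpecialLinearGroup (Fin 2) F) ∧ Nonempty (L₂ ≃* Matrix.SpecialLinearGroup (Fin 2) F) ∧ (∀ x ∈ L₁, ∀ y ∈ L₂, x * y = y * x) ∧ L₁ ⊓ L₂ = Subgroup.zpowers t ∧ L₁ ⊔ L₂ ≤ Subgroup.centralizer ({t} : Set ↥(Cfsg.Lie.chevG2.group F)) ∧ (L₁ ⊔ L₂).relIndex (Subgroup.centralizer ({t} : Set ↥(Cfsg.Lie.chevG2.group F))) = 2 := by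
  have hodd : Fintype.card F % 2 = 1 := Nat.odd_iff.1 hF
  have h2F : (2 : F) ≠ 0 := Cfsg.Agent.Lib.Helper25.G2c.two_ne_zero_of_odd hodd
  have hconj := Cfsg.Agent.S4278.result hF
    (⟨Cfsg.Agent.Lib.Helper25.G2c.tau F, Cfsg.Agent.Lib.Helper25.G2c.tau_mem F⟩ :
      ↥(Cfsg.Lie.chevG2.group F)) t (Cfsg.Agent.Lib.Helper25.G2c.tau_orderOf h2F) ht
  exact Cfsg.Agent.Lib.Helper25.G2c.cent_transport _ t hconj _ 2
    (Cfsg.Agent.Lib.Helper25.G2c.main_tau h2F)

end Cfsg.Agent.S4279
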