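-- Statement S4283: central quotient Frobenius with abelian preimages gives class sizes 1, [G:K], [G:H], coprime.
import Cfsg.Statements.S4283
import Mathlib
import Cfsg.Agent.S0034

set_option autoImplicit false
open Cfsg

namespace Cfsg.Agent.S4283

open scoped Pointwise

theorem mk_mem_map {G : Type*} [Group G] {Z H : Subgroup G} [Z.Normal] (hZH : Z ≤ H) (g : G) :
    QuotientGroup.mk' Z g ∈ H.map (QuotientGroup.mk' Z) ↔ g ∈ H := by
  constructor
  · rintro ⟨h, hh, he⟩
    have h1 : h⁻¹ * g ∈ Z := by
      rw [← QuotientGroup.eq]; exact he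
    have h2 := H.mul_mem hh (hZH h1)
    simpa using h2
  · intro hg; exact ⟨g, hg, rfl⟩

theorem conj_mem_center_iff {G : Type*} [Group G] (x y : G) :
    y⁻¹ * x * y ∈ Subgroup.center G ↔ x ∈ Subgroup.center G := by
  constructor
  · intro h
    have h1 := (inferInstance : (Subgroup.center G).Normal).conj_mem _ h y
    simpa [mul_assoc] using h1
  · intro h
    have h1 := (inferInstance : (Subgroup.center G).Normal).conj_mem _ h y⁻¹
    simpa [mul_assoc] using h1

theorem index_centralizer_conj {G : Type*} [Group G] (x y : G) :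
    (Subgroup.centralizer ({x} : Set G)).index
      = (Subgroup.centralizer ({y⁻¹ * x * y} : Set G)).index := by
  have h1 : Subgroup.centralizer ({y⁻¹ * x * y} : Set G)
      = (Subgroup.centralizer ({x} : Set G)).comap (MulAut.conj y).toMonoidHom := by
    ext c
    simp only [Subgroup.mem_comap, Subgroup.mem_centralizer_iff, Set.mem_singleton_iff, forall_eq,
      MulEquiv.coe_toMonoidHom, MulAut.conj_apply]
    constructor
    · intro h
      have h2 : x * (y * c * y⁻¹) = y * (y⁻¹ * x * y * c) * y⁻¹ := by group
      rw [h2, h]; group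
    · intro h
      have h2 : y⁻¹ * x * y * c = y⁻¹ * (x * (y * c * y⁻¹)) * y := by group
      rw [h2, h]; group
  rw [h1, Subgroup.index_comap_of_surjective _ (MulAut.conj y).surjective]

theorem centralizer_of_mem_H {G : Type*} [Group G] (H : Subgroup G)
    (hZH : Subgroup.center G ≤ H) (hH : IsMulCommutative H)
    (hFrob : Cfsg.IsFrobeniusComplement (H.map (QuotientGroup.mk' (Subgroup.center G))))
    (g : G) (hg : g ∈ H) (hgZ : g ∉ Subgroup.center G) :
    Subgroup.centralizer ({g} : Set G) = H := by
  apply le_antisymm
  · intro c hc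
    rw [Subgroup.mem_centralizer_iff] at hc
    have hc' : g * c = c * g := hc g rfl
    by_contra hcH
    have h1 : QuotientGroup.mk' (Subgroup.center G) c
        ∉ H.map (QuotientGroup.mk' (Subgroup.center G)) := by
      rw [mk_mem_map hZH]; exact hcH
    have h2 := Cfsg.Agent.S0034.ti_of_frob _ hFrob _ h1
      (QuotientGroup.mk' (Subgroup.center G) g) ((mk_mem_map hZH g).mpr hg) (by
        rw [← map_inv, ← map_mul, ← map_mul, mk_mem_map hZH]
        have h3 : c⁻¹ * g * c = g := by
          rw [mul_assoc, hc', ← mul_assoc, inv_mul_cancel, one_mul]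
        rw [h3]; exact hg)
    exact hgZ ((QuotientGroup.eq_one_iff g).mp h2)
  · intro h hh
    rw [Subgroup.mem_centralizer_iff]
    intro x hx
    rw [Set.mem_singleton_iff] at hx
    subst hx
    exact congrArg Subtype.val (hH.is_comm.comm ⟨x, hg⟩ ⟨h, hh⟩)

/-- Let G be a finite group with centre Z and let K, H be abelian subgroups of G containing Z such that G/Z is a Frobenius group with complement H/Z and kernel K/Z. Then the conjugacy class sizes of G are exactly 1, [G : K] and [G : H], and these two indices are coprime. (This is the converse half of the characterization of finite groups whose conjugacy class sizes are exactly 1, m and n with m and n coprime.) -/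
theorem result {G : Type*} [Group G] [Finite G] (K H : Subgroup G) (hZK : Subgroup.center G ≤ K) (hZH : Subgroup.center G ≤ H) (hK : IsMulCommutative K) (hH : IsMulCommutative H) (hFrob : Cfsg.IsFrobeniusComplement (H.map (QuotientGroup.mk' (Subgroup.center G)))) (hker : Cfsg.frobeniusKernel (H.map (QuotientGroup.mk' (Subgroup.center G))) = (K.map (QuotientGroup.mk' (Subgroup.center G)) : Set (G ⧸ Subgroup.center G))) : Set.range (fun x : G => (Subgroup.centralizer ({x} : Set G)).index) = ({1, K.index, H.index} : Set ℕ) ∧ K.index.Coprime H.index := by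
  classical
  set Z := Subgroup.center G with hZ
  set π := QuotientGroup.mk' Z with hπ
  have hπs : Function.Surjective π := QuotientGroup.mk'_surjective Z
  have hmemH : ∀ g, π g ∈ H.map π ↔ g ∈ H := mk_mem_map hZH
  have hmemK : ∀ g, π g ∈ K.map π ↔ g ∈ K := mk_mem_map hZK
  have hone : ∀ g, π g = 1 ↔ g ∈ Z := fun g => QuotientGroup.eq_one_iff g
  have hcH : ∀ g ∈ H, g ∉ Z → Subgroup.centralizer ({g} : Set G) = H :=
    centralizer_of_mem_H H hZH hH hFrob
  have hcK : ∀ g ∈ K, g ∉ Z → Subgroup.centralizer ({g} : Set G) = K := by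
    intro g hg hgZ
    apply le_antisymm
    · intro c hc
      rw [Subgroup.mem_centralizer_iff] at hc
      have hc' : g * c = c * g := hc g rfl
      have hck : π c ∈ Cfsg.frobeniusKernel (H.map π) := by
        by_contra hnot
        simp only [Cfsg.frobeniusKernel, Set.mem_ofPred_eq, not_or, not_forall, not_not] at hnot
        obtain ⟨hc1, x, hx⟩ := hnot
        obtain ⟨y, rfl⟩ := hπs x
        rw [Cfsg.Agent.S0034.mem_conj_smul, ← map_inv, ← map_mul, ← map_mul, hmemH] at hx
        have hcZ : y⁻¹ * c * y ∉ Z := by
          intro h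
          exact hc1 ((hone c).mpr ((conj_mem_center_iff c y).mp h))
        have h3 := hcH _ hx hcZ
        have h4 : y⁻¹ * g * y ∈ Subgroup.centralizer ({y⁻¹ * c * y} : Set G) := by
          rw [Subgroup.mem_centralizer_iff]
          intro z hz
          rw [Set.mem_singleton_iff] at hz
          subst hz
          calc y⁻¹ * c * y * (y⁻¹ * g * y) = y⁻¹ * (c * g) * y := by group
            _ = y⁻¹ * (g * c) * y := by rw [hc']
            _ = y⁻¹ * g * y * (y⁻¹ * c * y) := by group
        rw [h3] at h4
        have h5 : π g ∈ Cfsg.frobeniusKernel (H.map π) := by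
          rw [hker]; exact (hmemK g).mpr hg
        rcases h5 with h5 | h5
        · exact hgZ ((hone g).mp h5)
        · apply h5 (π y)
          rw [Cfsg.Agent.S0034.mem_conj_smul, ← map_inv, ← map_mul, ← map_mul, hmemH]
          exact h4
      rw [hker] at hck
      exact (hmemK c).mp hck
    · intro k hk
      rw [Subgroup.mem_centralizer_iff]
      intro x hx
      rw [Set.mem_singleton_iff] at hx
      subst hx
      exact congrArg Subtype.val (hK.is_comm.comm ⟨x, hg⟩ ⟨k, hk⟩)
  have hidx : ∀ x : G, (Subgroup.centralizer ({x} : Set G)).index = 1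
      ∨ (Subgroup.centralizer ({x} : Set G)).index = K.index
      ∨ (Subgroup.centralizer ({x} : Set G)).index = H.index := by
    intro x
    by_cases hxZ : x ∈ Z
    · left
      have h1 : Subgroup.centralizer ({x} : Set G) = ⊤ := by
        rw [Subgroup.centralizer_eq_top_iff_subset]
        intro z hz
        rw [Set.mem_singleton_iff] at hz
        subst hz
        exact hxZ
      rw [h1, Subgroup.index_top]
    · by_cases hxk : π x ∈ Cfsg.frobeniusKernel (H.map π)
      · right; left
        rw [hker] at hxk
        rw [hcK x ((hmemK x).mp hxk) hxZ]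
      · right; right
        simp only [Cfsg.frobeniusKernel, Set.mem_ofPred_eq, not_or, not_forall, not_not] at hxk
        obtain ⟨hx1, w, hw⟩ := hxk
        obtain ⟨y, rfl⟩ := hπs w
        rw [Cfsg.Agent.S0034.mem_conj_smul, ← map_inv, ← map_mul, ← map_mul, hmemH] at hw
        have hxZ' : y⁻¹ * x * y ∉ Z := fun h => hxZ ((conj_mem_center_iff x y).mp h)
        rw [← hcH _ hw hxZ']
        exact index_centralizer_conj x y
  have hHne : ∃ h ∈ H, h ∉ Z := by
    by_contra hno
    push Not at hno
    apply hFrob.1
    rw [eq_bot_iff]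
    rintro _ ⟨h, hh, rfl⟩
    rw [Subgroup.mem_bot]
    exact (hone h).mpr (hno h hh)
  have hcard : Nat.card (Cfsg.frobeniusKernel (H.map π)) = (H.map π).index :=
    Cfsg.Agent.S0034.kernel_card _ hFrob
  have hKne : ∃ k ∈ K, k ∉ Z := by
    by_contra hno
    push Not at hno
    have hsub : Cfsg.frobeniusKernel (H.map π) = {1} := by
      rw [hker]; ext z; constructor
      · rintro ⟨k, hk, rfl⟩
        exact Set.mem_singleton_iff.mpr ((hone k).mpr (hno k hk))
      · intro hz
        rw [Set.mem_singleton_iff] at hz
        subst hz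
        exact Subgroup.one_mem _
    rw [hsub] at hcard
    rw [Nat.card_unique] at hcard
    exact hFrob.2.1 (Subgroup.index_eq_one.mp hcard.symm)
  refine ⟨?_, ?_⟩
  · ext n
    simp only [Set.mem_range, Set.mem_insert_iff, Set.mem_singleton_iff]
    constructor
    · rintro ⟨x, rfl⟩
      exact hidx x
    · rintro (rfl | rfl | rfl)
      · refine ⟨1, ?_⟩
        have h1 : Subgroup.centralizer ({1} : Set G) = ⊤ := by
          rw [Subgroup.centralizer_eq_top_iff_subset]
          intro z hz
          rw [Set.mem_singleton_iff] at hz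
          subst hz
          exact Subgroup.one_mem _
        rw [h1, Subgroup.index_top]
      · obtain ⟨k, hk, hkZ⟩ := hKne
        exact ⟨k, by rw [hcK k hk hkZ]⟩
      · obtain ⟨h, hh, hhZ⟩ := hHne
        exact ⟨h, by rw [hcH h hh hhZ]⟩
  · have hKi : (K.map π).index = K.index :=
      Subgroup.index_map_eq _ hπs (by rw [QuotientGroup.ker_mk']; exact hZK)
    have hHi : (H.map π).index = H.index :=
      Subgroup.index_map_eq _ hπs (by rw [QuotientGroup.ker_mk']; exact hZH)
    have hmod := Cfsg.Agent.S0034.index_mod _ hFrob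
    have hKcard : Nat.card (K.map π) = (H.map π).index := by
      rw [← hcard, hker]; rfl
    have h1 : (K.map π).index * Nat.card (K.map π) = Nat.card (G ⧸ Z) := Subgroup.index_mul_card _
    have h2 : (H.map π).index * Nat.card (H.map π) = Nat.card (G ⧸ Z) := Subgroup.index_mul_card _
    have h3 : (K.map π).index = Nat.card (H.map π) := by
      have hpos : 0 < (H.map π).index := Nat.pos_of_ne_zero Subgroup.index_ne_zero_of_finite
      rw [hKcard, ← h2, mul_comm] at h1
      exact Nat.eq_of_mul_eq_mul_left hpos h1
    rw [← hKi, ← hHi, h3]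
    rw [Nat.coprime_iff_gcd_eq_one, Nat.gcd_rec, hmod, ← Nat.gcd_rec, Nat.gcd_one_right]

end Cfsg.Agent.S4283
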