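import Mathlib
import Cfsg.Statements.S4292
import Cfsg.Agent.Lib.Helper64.FrobLift
import Cfsg.Agent.Lib.Helper64.FrobLift2
import Cfsg.Agent.S0040

set_option autoImplicit false
open Cfsg

namespace Cfsg.Agent.S4292

open Cfsg.Agent.Lib.Helper64.FrobLift

/-- transport of "is a Frobenius complement" along an isomorphism -/
theorem frobc_congr {X : Type*} {Y : Type*} [Group X] [Group Y] (e : X ≃* Y)
    (h : ∃ (L : Type) (_ : Group L) (_ : Finite L) (H : Subgroup L),
      Cfsg.IsFrobeniusComplement H ∧ Nonempty (X ≃* H)) :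
    ∃ (L : Type) (_ : Group L) (_ : Finite L) (H : Subgroup L),
      Cfsg.IsFrobeniusComplement H ∧ Nonempty (Y ≃* H) := by
  obtain ⟨L, i1, i2, H, hH, ⟨f⟩⟩ := h
  exact ⟨L, i1, i2, H, hH, ⟨e.symm.trans f⟩⟩

theorem conj_inv_ne_one {X : Type*} [Group X] :
    ∀ a ∈ {x : X | x ≠ 1}, ∀ g : X, g⁻¹ * a * g ∈ {x : X | x ≠ 1} := by
  intro a ha g h
  apply ha
  have h2 : a = g * (g⁻¹ * a * g) * g⁻¹ := by group
  rw [h2, h]
  group

/-- the product of two Frobenius complements of coprime orders is a Frobenius complement -/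
theorem prod_frobc {L₁ L₂ : Type} [Group L₁] [Finite L₁] [Group L₂] [Finite L₂]
    (H₁ : Subgroup L₁) (H₂ : Subgroup L₂) (h₁ : Cfsg.IsFrobeniusComplement H₁)
    (h₂ : Cfsg.IsFrobeniusComplement H₂) (hcop : (Nat.card H₁).Coprime (Nat.card H₂)) :
    ∃ (L : Type) (_ : Group L) (_ : Finite L) (H : Subgroup L),
      Cfsg.IsFrobeniusComplement H ∧ Nonempty ((H₁ × H₂) ≃* H) := by
  obtain ⟨p₁, hp₁, hd₁, h1₁⟩ := exists_prime_one_notMem H₁ h₁
  obtain ⟨p₂, hp₂, hd₂, h1₂⟩ := exists_prime_one_notMem H₂ h₂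
  obtain ⟨r, hr1, hr⟩ := Nat.exists_infinite_primes (Nat.card H₁ * Nat.card H₂ + 1)
  have := Fact.mk hr
  have := Fact.mk hp₁
  have := Fact.mk hp₂
  have hc1 : 0 < Nat.card H₁ := Nat.card_pos
  have hc2 : 0 < Nat.card H₂ := Nat.card_pos
  have hrA : ¬ r ∣ Nat.card H₁ := by
    intro h
    have := Nat.le_of_dvd hc1 h
    nlinarith
  have hrB : ¬ r ∣ Nat.card H₂ := by
    intro h
    have := Nat.le_of_dvd hc2 h
    nlinarith
  have hA := one_notMem_zmod (T := {h : H₁ | h ≠ 1}) conj_inv_ne_one p₁ hd₁ h1₁ r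
  have hB := one_notMem_zmod (T := {h : H₂ | h ≠ 1}) conj_inv_ne_one p₂ hd₂ h1₂ r
  have hP := one_notMem_prod r hrA hrB hA hB
  have : Nontrivial H₁ := (Subgroup.nontrivial_iff_ne_bot _).mpr h₁.1
  apply exists_frob_of_one_notMem r ?_ {x : H₁ × H₂ | x ≠ 1 ∧ (x.1 = 1 ∨ x.2 = 1)} ?_ ?_ hP
  · rw [Nat.card_prod]
    intro h
    rcases (Nat.Prime.dvd_mul hr).mp h with h | h
    · exact hrA h
    · exact hrB h
  · rintro ⟨a, b⟩ ⟨hne, hab⟩ ⟨g, h⟩
    refine ⟨?_, ?_⟩
    · exact conj_inv_ne_one (a, b) hne (g, h)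
    · rcases hab with ha | hb
      · left
        simp only at ha
        simp [ha]
      · right
        simp only at hb
        simp [hb]
  · rintro ⟨a, b⟩ hne
    by_cases ha : a = 1
    · exact ⟨1, by simpa using hne, Or.inl (by simpa using ha)⟩
    · refine ⟨orderOf b, ?_, Or.inr ?_⟩
      · intro h
        have h1 : a ^ orderOf b = 1 := by simpa using congrArg Prod.fst h
        have h2 : orderOf a ∣ orderOf b := orderOf_dvd_of_pow_eq_one h1
        have h3 : orderOf a ∣ Nat.card H₁ := orderOf_dvd_natCard a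
        have h4 : orderOf b ∣ Nat.card H₂ := orderOf_dvd_natCard b
        have h5 : orderOf a ∣ 1 := by
          rw [← hcop]
          exact Nat.dvd_gcd h3 (h2.trans h4)
        exact ha (orderOf_eq_one_iff.mp (Nat.dvd_one.mp h5))
      · simp [pow_orderOf_eq_one]

/-- a group embedded in a Frobenius complement is a Frobenius complement -/
theorem frobc_of_embed {X : Type*} [Group X] [Finite X] [Nontrivial X] {L : Type} [Group L]
    [Finite L] (H : Subgroup L) (hH : Cfsg.IsFrobeniusComplement H)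
    (f : X →* L) (hf : Function.Injective f) (hfH : ∀ x, f x ∈ H) :
    ∃ (L : Type) (_ : Group L) (_ : Finite L) (H : Subgroup L),
      Cfsg.IsFrobeniusComplement H ∧ Nonempty (X ≃* H) := by
  obtain ⟨N, hNn, hNnil, hNnt, hcop, hfpf⟩ := frob_kernel_data H hH
  apply Cfsg.Agent.Lib.Helper76.exists_frobenius_of_action (V := N)
    ((MulAut.conjNormal (H := N)).comp f)
  intro x hx w hw
  have h1 : f x ≠ 1 := fun h => hx (hf (by rw [h, map_one]))
  have h2 := congrArg (Subtype.val) hw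
  rw [MonoidHom.comp_apply, MulAut.conjNormal_apply] at h2
  have h3 := hfpf (f x) (hfH x) h1 (w : L) w.2 (mul_inv_eq_iff_eq_mul.mp h2)
  exact Subtype.ext h3

theorem coprime_of_frobc {A B : Type*} [Group A] [Finite A] [Group B] [Finite B] {L : Type}
    [Group L] [Finite L] (H : Subgroup L) (hH : Cfsg.IsFrobeniusComplement H)
    (e : (A × B) ≃* H) : (Nat.card A).Coprime (Nat.card B) := by
  obtain ⟨N, hNn, hNnil, hNnt, hcop, hfpf⟩ := frob_kernel_data H hH
  by_contra hnc
  obtain ⟨q, hq, hqA, hqB⟩ := Nat.Prime.not_coprime_iff_dvd.mp hnc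
  have := Fact.mk hq
  obtain ⟨a, ha⟩ := exists_prime_orderOf_dvd_card' q hqA
  obtain ⟨b, hb⟩ := exists_prime_orderOf_dvd_card' q hqB
  let F : A × B →* L := H.subtype.comp e.toMonoidHom
  have hF : Function.Injective F := H.subtype_injective.comp e.injective
  have hFH : ∀ z, F z ∈ H := fun z => (e z).2
  have hxy : Commute (F (a, 1)) (F (1, b)) := by
    show F (a, 1) * F (1, b) = F (1, b) * F (a, 1)
    rw [← map_mul, ← map_mul]
    simp
  have hcomm : ∀ u ∈ ({F (a, 1), F (1, b)} : Set L), ∀ v ∈ ({F (a, 1), F (1, b)} : Set L),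
      u * v = v * u := by
    intro u hu v hv
    rcases hu with rfl | rfl <;> rcases hv with rfl | rfl
    · rfl
    · exact hxy
    · exact hxy.symm
    · rfl
  let E : Subgroup L := Subgroup.closure {F (a, 1), F (1, b)}
  have hEc : IsMulCommutative E := Subgroup.isMulCommutative_closure hcomm
  have hEH : E ≤ H := (Subgroup.closure_le H).mpr (by
    rintro u (rfl | rfl)
    · exact hFH _
    · exact hFH _)
  have hNbot : N ≠ ⊥ := (Subgroup.nontrivial_iff_ne_bot N).mp hNnt
  have hfpf' : ∀ h ∈ H, h ≠ 1 → N ⊓ Subgroup.centralizer {h} = ⊥ := by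
    intro h hh h1
    rw [eq_bot_iff]
    rintro n ⟨hn, hnc⟩
    have h2 := Subgroup.mem_centralizer_iff.mp hnc h rfl
    exact Subgroup.mem_bot.mpr (hfpf h hh h1 n hn h2)
  have hcyc : IsCyclic E := Cfsg.Agent.S0040.isCyclic_of_fpf N H hNbot hfpf' E hEH
  classical
  let _ : Fintype E := Fintype.ofFinite E
  have hle := IsCyclic.card_pow_eq_one_le (α := E) (n := q) hq.pos
  let xE : E := ⟨F (a, 1), Subgroup.subset_closure (by simp)⟩
  let yE : E := ⟨F (1, b), Subgroup.subset_closure (by simp)⟩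
  have hxq : F (a, 1) ^ q = 1 := by
    rw [← map_pow, Prod.pow_mk, ← ha, pow_orderOf_eq_one, one_pow]
    exact map_one F
  have hyq : F (1, b) ^ q = 1 := by
    rw [← map_pow, Prod.pow_mk, ← hb, pow_orderOf_eq_one, one_pow]
    exact map_one F
  have hpow : ∀ i j : ℕ, F (a, 1) ^ i * F (1, b) ^ j = F (a ^ i, b ^ j) := by
    intro i j
    rw [← map_pow, ← map_pow, ← map_mul]
    simp
  have hcard : q * q ≤ (Finset.univ.filter (fun g : E => g ^ q = 1)).card := by
    have h3 := Finset.card_le_card_of_injOn (s := (Finset.univ : Finset (Fin q × Fin q)))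
      (t := Finset.univ.filter (fun g : E => g ^ q = 1))
      (fun ij => xE ^ (ij.1 : ℕ) * yE ^ (ij.2 : ℕ)) ?_ ?_
    · simpa using h3
    · intro ij _
      simp only [Finset.coe_filter, Finset.mem_univ, true_and, Set.mem_ofPred_eq]
      apply Subtype.ext
      show (F (a, 1) ^ (ij.1 : ℕ) * F (1, b) ^ (ij.2 : ℕ)) ^ q = 1
      rw [(hxy.pow_pow _ _).mul_pow, ← pow_mul, ← pow_mul, mul_comm _ q, mul_comm _ q, pow_mul,
        pow_mul, hxq, hyq, one_pow, one_pow, one_mul]
    · intro ij _ ij' _ h4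
      have h5 : F (a, 1) ^ (ij.1 : ℕ) * F (1, b) ^ (ij.2 : ℕ)
          = F (a, 1) ^ (ij'.1 : ℕ) * F (1, b) ^ (ij'.2 : ℕ) := congrArg Subtype.val h4
      rw [hpow, hpow] at h5
      have h6 := hF h5
      rw [Prod.mk.injEq] at h6
      have h7 : (ij.1 : ℕ) = ij'.1 :=
        pow_injOn_Iio_orderOf (by rw [ha]; exact ij.1.2) (by rw [ha]; exact ij'.1.2) h6.1
      have h8 : (ij.2 : ℕ) = ij'.2 :=
        pow_injOn_Iio_orderOf (by rw [hb]; exact ij.2.2) (by rw [hb]; exact ij'.2.2) h6.2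
      exact Prod.ext (Fin.ext h7) (Fin.ext h8)
  have h9 : q * q ≤ q := hcard.trans hle
  nlinarith [hq.one_lt]

/-- Let A and B be nontrivial finite groups. Then the direct product A × B occurs as a Frobenius complement if and only if A and B both occur as Frobenius complements and the orders of A and B are coprime. -/
theorem result {A B : Type*} [Group A] [Finite A] [Nontrivial A] [Group B] [Finite B] [Nontrivial B] :
    (∃ (L : Type) (_ : Group L) (_ : Finite L) (H : Subgroup L), Cfsg.IsFrobeniusComplement H ∧ Nonempty ((A × B) ≃* H)) ↔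
    ((∃ (L : Type) (_ : Group L) (_ : Finite L) (H : Subgroup L), Cfsg.IsFrobeniusComplement H ∧ Nonempty (A ≃* H)) ∧
     (∃ (L : Type) (_ : Group L) (_ : Finite L) (H : Subgroup L), Cfsg.IsFrobeniusComplement H ∧ Nonempty (B ≃* H)) ∧
     (Nat.card A).Coprime (Nat.card B)) := by
  constructor
  · rintro ⟨L, i1, i2, H, hH, ⟨e⟩⟩
    refine ⟨?_, ?_, coprime_of_frobc H hH e⟩
    · refine frobc_of_embed H hH (H.subtype.comp (e.toMonoidHom.comp (MonoidHom.inl A B)))
        ?_ (fun x => (e (x, 1)).2)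
      intro x y hxy
      have h1 := e.injective (H.subtype_injective hxy)
      exact (Prod.mk.injEq _ _ _ _ ▸ h1).1
    · refine frobc_of_embed H hH (H.subtype.comp (e.toMonoidHom.comp (MonoidHom.inr A B)))
        ?_ (fun x => (e (1, x)).2)
      intro x y hxy
      have h1 := e.injective (H.subtype_injective hxy)
      exact (Prod.mk.injEq _ _ _ _ ▸ h1).2
  · rintro ⟨⟨L₁, i1, i2, H₁, hH₁, ⟨e₁⟩⟩, ⟨L₂, j1, j2, H₂, hH₂, ⟨e₂⟩⟩, hcop⟩
    have hcop' : (Nat.card H₁).Coprime (Nat.card H₂) := by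
      rwa [← Nat.card_congr e₁.toEquiv, ← Nat.card_congr e₂.toEquiv]
    exact frobc_congr (MulEquiv.prodCongr e₁ e₂).symm (prod_frobc H₁ H₂ hH₁ hH₂ hcop')

end Cfsg.Agent.S4292
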