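import Cfsg.Statements.S4293
import Cfsg.Agent.Lib.Helper76.FrobAction

set_option autoImplicit false
open Cfsg

namespace Cfsg.Agent.S4293

theorem sum_id {R : Type*} [Ring R] (x : R) (m : ℕ) :
    (∑ i ∈ Finset.range m, (i : R) * x ^ i) * (x - 1)
      = (m : R) * x ^ m - x * ∑ i ∈ Finset.range m, x ^ i := by
  induction m with
  | zero => simp
  | succ m ih =>
    rw [Finset.sum_range_succ, Finset.sum_range_succ, add_mul, ih]
    have e1 : x * x ^ m = x ^ m * x := (pow_succ' x m).symm.trans (pow_succ x m)
    push_cast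
    rw [mul_sub, mul_one, mul_add, e1, pow_succ, add_mul, one_mul, mul_assoc]
    abel

/-- A nontrivial finite subgroup of the multiplicative group of a division ring occurs as a Frobenius complement of some finite Frobenius group. -/
theorem result {D : Type*} [DivisionRing D] (H : Subgroup Dˣ) [Finite H] (hH : H ≠ ⊥) :
    ∃ (L : Type) (_ : Group L) (_ : Finite L) (C : Subgroup L), Cfsg.IsFrobeniusComplement C ∧ Nonempty (H ≃* C) := by
  classical
  have hnt : Nontrivial H := (Subgroup.nontrivial_iff_ne_bot H).mpr hH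
  have hfinH := Fintype.ofFinite H
  let ι : H →* D := (Units.coeHom D).comp H.subtype
  have hι : Function.Injective ι := fun a b hab => Subtype.ext (Units.ext hab)
  let S : Subring D := Subring.closure (Set.range ι)
  have hιS : ∀ h : H, ι h ∈ S := fun h => Subring.subset_closure ⟨h, rfl⟩
  let ιS : H →* S :=
    { toFun := fun h => ⟨ι h, hιS h⟩
      map_one' := Subtype.ext (map_one ι)
      map_mul' := fun a b => Subtype.ext (map_mul ι a b) }
  have hιS_inj : Function.Injective ιS := fun a b hab => hι (congrArg Subtype.val hab)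
  set n := Nat.card H with hn
  have hn_pos : 0 < n := Nat.card_pos
  have hpow : ∀ h : H, (ιS h) ^ n = 1 := fun h => by
    rw [← map_pow, hn, pow_card_eq_one', map_one]
  let N : Submodule ℤ D := Submodule.span ℤ (Set.range ι)
  have hSN : ∀ x : D, x ∈ S ↔ x ∈ N := by
    intro x
    show x ∈ Subring.closure (Set.range ι) ↔ x ∈ Submodule.span ℤ (Set.range ι)
    rw [Subring.mem_closure_iff, ← Submodule.mem_toAddSubgroup,
      Submodule.span_int_eq_addSubgroupClosure]
    have : (Submonoid.closure (Set.range ι) : Set D) = Set.range ι := by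
      rw [← MonoidHom.coe_mrange, Submonoid.closure_eq]
    rw [this]
  have hne1 : ∀ h : H, h ≠ 1 → ιS h - 1 ≠ 0 := fun h hh =>
    sub_ne_zero.mpr (fun e => hh (hιS_inj (e.trans (map_one ιS).symm)))
  obtain ⟨p, hp, ha, hb⟩ : ∃ p : ℕ, p.Prime ∧ (∀ s : S, (p : S) * s ≠ 1) ∧
      (∀ h : H, h ≠ 1 → ∀ s t : S, (ιS h - 1) * s = (p : S) * t → ∃ t' : S, s = (p : S) * t') := by
    rcases CharP.exists D with ⟨q, hq⟩
    rcases CharP.char_is_prime_or_zero D q with hqp | hq0
    · have hqS : (q : S) = 0 := Subtype.ext (by push_cast; exact CharP.cast_eq_zero D q)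
      refine ⟨q, hqp, ?_, ?_⟩
      · intro s; rw [hqS, zero_mul]; exact zero_ne_one
      · intro h hh s t hst
        rw [hqS, zero_mul] at hst
        refine ⟨0, ?_⟩
        rw [mul_zero]
        exact (mul_eq_zero.mp hst).resolve_left (hne1 h hh)
    · subst hq0
      have hcz : CharZero D := CharP.charP_to_charZero D
      obtain ⟨p, hnp, hp⟩ := Nat.exists_infinite_primes (n + 1)
      refine ⟨p, hp, ?_, ?_⟩
      · intro s hs
        have hle : N ≤ (Ideal.span {(p : ℤ)}) • N := by
          intro x hx
          have hxS : x ∈ S := (hSN x).mpr hx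
          have h1 : x = (p : ℤ) • ((s : D) * x) := by
            have h2 : ((p : S) * s : S) * ⟨x, hxS⟩ = ⟨x, hxS⟩ := by rw [hs, one_mul]
            have h3 := congrArg Subtype.val h2
            simp only [Subring.coe_mul, Subring.coe_natCast] at h3
            rw [zsmul_eq_mul, Int.cast_natCast, ← mul_assoc]
            exact h3.symm
          rw [h1]
          apply Submodule.smul_mem_smul (Ideal.mem_span_singleton_self _)
          exact (hSN _).mp (S.mul_mem s.2 hxS)
        obtain ⟨r, hr1, hr2⟩ := Submodule.exists_sub_one_mem_and_smul_eq_zero_of_fg_of_le_smul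
          (Ideal.span {(p : ℤ)}) N (Submodule.fg_span (Set.finite_range ι)) hle
        have h1N : (1 : D) ∈ N := (hSN 1).mp S.one_mem
        have hr0 := hr2 1 h1N
        rw [zsmul_eq_mul, mul_one, Int.cast_eq_zero] at hr0
        rw [hr0, zero_sub, Ideal.mem_span_singleton] at hr1
        have : (p : ℤ) ∣ 1 := (dvd_neg.mp hr1)
        have hp1 : p ∣ 1 := by exact_mod_cast this
        exact hp.one_lt.ne' (Nat.dvd_one.mp hp1)
      · intro h hh s t hst
        set x := ιS h with hx
        set r : S := ∑ i ∈ Finset.range n, (i : S) * x ^ i with hr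
        have hgeom : ∑ i ∈ Finset.range n, x ^ i = 0 := by
          have h1 : (∑ i ∈ Finset.range n, x ^ i) * (x - 1) = 0 := by
            rw [geom_sum_mul, hpow, sub_self]
          exact (mul_eq_zero.mp h1).resolve_right (hne1 h hh)
        have hrn : r * (x - 1) = (n : S) := by
          rw [hr, sum_id, hgeom, mul_zero, sub_zero, hpow, mul_one]
        have hns : (n : S) * s = (p : S) * (r * t) := by
          rw [← hrn, mul_assoc, hst, ← mul_assoc, ← mul_assoc, (Nat.cast_commute p r).eq]
        have hcop : Nat.Coprime n p := by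
          rw [Nat.coprime_comm]
          exact (Nat.Prime.coprime_iff_not_dvd hp).mpr (fun hd => by
            have := Nat.le_of_dvd hn_pos hd; omega)
        have hbez : (n : ℤ) * Int.gcdA n p + (p : ℤ) * Int.gcdB n p = 1 := by
          have := Int.gcd_eq_gcd_ab (n : ℤ) (p : ℤ)
          rw [← this]
          have : Int.gcd (n : ℤ) (p : ℤ) = 1 := by
            rw [Int.gcd_natCast_natCast]; exact hcop
          rw [this]; rfl
        set A : S := ((Int.gcdA n p : ℤ) : S) with hA
        set B : S := ((Int.gcdB n p : ℤ) : S) with hB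
        have hbezS : (n : S) * A + (p : S) * B = 1 := by
          have := congrArg (fun z : ℤ => (z : S)) hbez
          simpa using this
        refine ⟨A * (r * t) + B * s, ?_⟩
        calc s = ((n : S) * A + (p : S) * B) * s := by rw [hbezS, one_mul]
          _ = A * ((n : S) * s) + (p : S) * (B * s) := by
            rw [add_mul, (Nat.cast_commute n A).eq, mul_assoc, mul_assoc]
          _ = (p : S) * (A * (r * t) + B * s) := by
            rw [hns, mul_add, ← mul_assoc A, ← (Nat.cast_commute p A).eq, mul_assoc]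
  let I : Ideal S := Ideal.span {(p : S)}
  have hmemI : ∀ s : S, s ∈ I ↔ ∃ t : S, s = (p : S) * t := by
    intro s
    rw [Ideal.mem_span_singleton']
    constructor
    · rintro ⟨c, rfl⟩; exact ⟨c, (Nat.cast_commute p c).eq.symm⟩
    · rintro ⟨t, rfl⟩; exact ⟨t, (Nat.cast_commute p t).eq.symm⟩
  have htwo : I.IsTwoSided := ⟨fun {a} b ha => by
    rw [hmemI] at ha ⊢
    obtain ⟨t, rfl⟩ := ha
    exact ⟨t * b, by rw [mul_assoc]⟩⟩
  have hntR : Nontrivial (S ⧸ I) := by
    rw [Ideal.Quotient.nontrivial_iff]
    intro htop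
    have : (1 : S) ∈ I := by rw [htop]; trivial
    rw [hmemI] at this
    obtain ⟨t, ht⟩ := this
    exact ha t ht.symm
  have hfinR : Finite (S ⧸ I) := by
    have hfg : AddGroup.FG (S ⧸ I) := by
      rw [AddGroup.fg_iff]
      refine ⟨Set.range (fun h : H => (Ideal.Quotient.mk I (ιS h) : S ⧸ I)), ?_, Set.finite_range _⟩
      rw [eq_top_iff]
      intro r _
      obtain ⟨s, rfl⟩ := Ideal.Quotient.mk_surjective r
      have hs : (s : D) ∈ N := (hSN _).mp s.2
      obtain ⟨c, hc⟩ := (Submodule.mem_span_range_iff_exists_fun ℤ).mp hs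
      have hs' : s = ∑ h : H, c h • ιS h := by
        apply Subtype.ext
        rw [← hc]
        simp [ιS]
      rw [hs', map_sum]
      apply AddSubgroup.sum_mem
      intro h _
      rw [map_zsmul]
      exact AddSubgroup.zsmul_mem _ (AddSubgroup.subset_closure (Set.mem_range_self h)) _
    apply AddCommGroup.finite_of_fg_isAddTorsion
    intro r
    rw [isOfFinAddOrder_iff_nsmul_eq_zero]
    refine ⟨p, hp.pos, ?_⟩
    obtain ⟨s, rfl⟩ := Ideal.Quotient.mk_surjective r
    rw [← map_nsmul, Ideal.Quotient.eq_zero_iff_mem, hmemI]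
    exact ⟨s, by rw [nsmul_eq_mul]⟩
  let ψ : H →* (S ⧸ I)ˣ := ((Ideal.Quotient.mk I).toMonoidHom.comp ιS).toHomUnits
  apply Cfsg.Agent.Lib.Helper76.exists_frobenius_of_units_hom ψ
  intro h hh r hr
  obtain ⟨s, rfl⟩ := Ideal.Quotient.mk_surjective r
  have h1 : (ψ h : S ⧸ I) = Ideal.Quotient.mk I (ιS h) := rfl
  rw [h1, ← map_mul] at hr
  have h2 : Ideal.Quotient.mk I ((ιS h - 1) * s) = 0 := by
    rw [sub_mul, one_mul, map_sub, hr, sub_self]
  rw [Ideal.Quotient.eq_zero_iff_mem, hmemI] at h2 ⊢
  obtain ⟨t, ht⟩ := h2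
  exact hb h hh s t ht

end Cfsg.Agent.S4293
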