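import Cfsg.Statements.S4296
import Mathlib
import Cfsg.Agent.S0037
import Cfsg.Agent.S0040

set_option autoImplicit false
open Cfsg

namespace Cfsg.Agent.S4296

universe u

/-- Elementary abelian case: a finite commutative group of odd exponent `q` with endomorphisms
`α`, `β` such that `α² = β² = inversion` and `αβ = (βα)⁻¹` has square order, given `x, y` with
`q ∣ x² + y² + 1`. -/
theorem isSquare_card_of_exponent {A : Type u} [CommGroup A] [Finite A] (q x y : ℕ)
    (hq : Odd q) (hxy : q ∣ x * x + y * y + 1) (hA : ∀ k : A, k ^ q = 1)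
    (α β : A →* A) (hα : ∀ k, α (α k) = k⁻¹) (hβ : ∀ k, β (β k) = k⁻¹)
    (hαβ : ∀ k, α (β k) = (β (α k))⁻¹) : IsSquare (Nat.card A) := by
  classical
  -- the operator `u = α^x β^y`
  obtain ⟨u, hu⟩ : ∃ u : A →* A, ∀ k, u k = α k ^ x * β k ^ y :=
    ⟨(powMonoidHom x).comp α * (powMonoidHom y).comp β, fun k => rfl⟩
  have hβα : ∀ k, β (α k) = (α (β k))⁻¹ := fun k => by rw [hαβ, inv_inv]
  have hpow : ∀ k : A, (k ^ (x * x + y * y))⁻¹ = k := by
    intro k
    apply inv_eq_of_mul_eq_one_left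
    rw [← pow_succ']
    obtain ⟨c, hc⟩ := hxy
    rw [hc, pow_mul, hA, one_pow]
  have huu : ∀ k, u (u k) = k := by
    intro k
    rw [hu (u k), hu k, map_mul, map_mul, map_pow, map_pow, map_pow, map_pow, hα, hβ, hαβ k]
    have e1 : ((k⁻¹) ^ x * ((β (α k))⁻¹) ^ y) ^ x =
        (k ^ (x * x))⁻¹ * ((β (α k)) ^ (y * x))⁻¹ := by
      rw [mul_pow, ← pow_mul, ← pow_mul, inv_pow, inv_pow]
    have e2 : ((β (α k)) ^ x * (k⁻¹) ^ y) ^ y = (β (α k)) ^ (y * x) * (k ^ (y * y))⁻¹ := by
      rw [mul_pow, ← pow_mul, ← pow_mul, inv_pow, mul_comm x y]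
    rw [e1, e2, mul_assoc, inv_mul_cancel_left, ← mul_inv, ← pow_add]
    exact hpow k
  -- the twisting operator `γ = αβ`
  have hγu : ∀ k, α (β (u k)) = β k ^ x * (α k ^ y)⁻¹ := by
    intro k
    rw [hu k, map_mul, map_mul, map_pow, map_pow, map_pow, map_pow, hβα k, map_inv, hα, inv_inv,
      hβ, map_inv, inv_pow]
  have huγ : ∀ k, u (α (β k)) = (α (β (u k)))⁻¹ := by
    intro k
    rw [hγu, hu, hα, hβα (β k), hβ, map_inv, inv_inv, mul_inv, inv_inv, inv_pow]
  have hγγ : ∀ k, α (β (α (β k))) = k⁻¹ := by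
    intro k
    rw [hβα (β k), hβ, map_inv, hα, inv_inv]
  have hγinj : Function.Injective (fun k => α (β k)) := by
    intro k k' h
    have h1 : α (β (α (β k))) = α (β (α (β k'))) := congrArg (fun z => α (β z)) h
    rw [hγγ, hγγ] at h1
    exact inv_injective h1
  -- the two eigen-subgroups
  obtain ⟨ρ, hρ⟩ : ∃ ρ : A →* A, ∀ k, ρ k = k * u k := ⟨MonoidHom.id A * u, fun k => rfl⟩
  obtain ⟨σ, hσ⟩ : ∃ σ : A →* A, ∀ k, σ k = k⁻¹ * u k :=
    ⟨(MonoidHom.id A)⁻¹ * u, fun k => rfl⟩
  have hker : ∀ k, k ∈ ρ.ker ↔ u k = k⁻¹ := by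
    intro k
    rw [MonoidHom.mem_ker, hρ, mul_eq_one_iff_eq_inv']
  have hkerσ : ∀ k, k ∈ σ.ker ↔ u k = k := by
    intro k
    rw [MonoidHom.mem_ker, hσ, inv_mul_eq_one, eq_comm]
  have hrange : ρ.range = σ.ker := by
    ext a
    rw [hkerσ]
    constructor
    · rintro ⟨k, rfl⟩
      rw [hρ, map_mul, huu, mul_comm]
    · intro ha
      obtain ⟨h, hh⟩ := hq
      refine ⟨a ^ (h + 1), ?_⟩
      rw [hρ, map_pow, ha, ← pow_add]
      have : h + 1 + (h + 1) = q + 1 := by omega
      rw [this, pow_succ, hA, one_mul]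
  have hcard : Nat.card ρ.ker * Nat.card σ.ker = Nat.card A := by
    rw [← hrange, ← Subgroup.index_ker, Subgroup.card_mul_index]
  have hle1 : Nat.card σ.ker ≤ Nat.card ρ.ker := by
    apply Nat.card_le_card_of_injective
      (fun k : σ.ker => (⟨α (β k), by
        rw [hker, huγ, (hkerσ _).mp k.2]⟩ : ρ.ker))
    intro k k' h
    exact Subtype.ext (hγinj (congrArg Subtype.val h))
  have hle2 : Nat.card ρ.ker ≤ Nat.card σ.ker := by
    apply Nat.card_le_card_of_injective
      (fun k : ρ.ker => (⟨α (β k), by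
        rw [hkerσ, huγ, (hker _).mp k.2, map_inv, map_inv, inv_inv]⟩ : σ.ker))
    intro k k' h
    exact Subtype.ext (hγinj (congrArg Subtype.val h))
  have heq : Nat.card ρ.ker = Nat.card σ.ker := le_antisymm hle2 hle1
  exact ⟨Nat.card σ.ker, by rw [← hcard, heq]⟩

/-- A finite commutative group of odd order with endomorphisms `α`, `β` such that
`α² = β² = inversion` and `αβ = (βα)⁻¹` (a fixed-point-free action of `Q₈`) has square order. -/
theorem isSquare_card_of_quaternion : ∀ (n : ℕ) (K : Type u) [CommGroup K] [Finite K]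
    (α β : K →* K), Nat.card K = n → Odd (Nat.card K) → (∀ k, α (α k) = k⁻¹) →
    (∀ k, β (β k) = k⁻¹) → (∀ k, α (β k) = (β (α k))⁻¹) → IsSquare (Nat.card K) := by
  intro n
  induction n using Nat.strong_induction_on with
  | _ n ih =>
    intro K _ _ α β hn hodd hα hβ hαβ
    by_cases h1 : Nat.card K = 1
    · rw [h1]; exact ⟨1, rfl⟩
    · obtain ⟨q, hq, hqdvd⟩ := Nat.exists_prime_and_dvd h1
      have hqodd : Odd q := hodd.of_dvd_nat hqdvd
      have hqf : Fact q.Prime := ⟨hq⟩
      obtain ⟨a, b, hab⟩ := CharP.sq_add_sq (ZMod q) q (-1)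
      have hxy : q ∣ a * a + b * b + 1 := by
        rw [← ZMod.natCast_eq_zero_iff]
        push_cast
        have h2 : ((a : ZMod q)) ^ 2 + (b : ZMod q) ^ 2 = -1 := by simpa using hab
        linear_combination h2
      obtain ⟨π, hπ⟩ : ∃ π : K →* K, ∀ k, π k = k ^ q := ⟨powMonoidHom q, fun k => rfl⟩
      have hcard : Nat.card π.ker * Nat.card π.range = Nat.card K := by
        rw [← Subgroup.index_ker, Subgroup.card_mul_index]
      have hmemker : ∀ k : K, k ∈ π.ker ↔ k ^ q = 1 := by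
        intro k; rw [MonoidHom.mem_ker, hπ]
      have hkerα : ∀ k : π.ker, α.comp π.ker.subtype k ∈ π.ker := by
        intro k
        show α (k : K) ∈ π.ker
        rw [hmemker, ← map_pow, (hmemker _).mp k.2, map_one]
      have hkerβ : ∀ k : π.ker, β.comp π.ker.subtype k ∈ π.ker := by
        intro k
        show β (k : K) ∈ π.ker
        rw [hmemker, ← map_pow, (hmemker _).mp k.2, map_one]
      have hranα : ∀ k : π.range, α.comp π.range.subtype k ∈ π.range := by
        intro k
        obtain ⟨c, hc⟩ := k.2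
        refine ⟨α c, ?_⟩
        show π (α c) = α (k : K)
        rw [hπ, ← map_pow, ← hπ, hc]
      have hranβ : ∀ k : π.range, β.comp π.range.subtype k ∈ π.range := by
        intro k
        obtain ⟨c, hc⟩ := k.2
        refine ⟨β c, ?_⟩
        show π (β c) = β (k : K)
        rw [hπ, ← map_pow, ← hπ, hc]
      have hsq1 : IsSquare (Nat.card π.ker) :=
        isSquare_card_of_exponent q a b hqodd hxy
          (fun k => Subtype.ext ((hmemker _).mp k.2))
          ((α.comp π.ker.subtype).codRestrict π.ker hkerα)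
          ((β.comp π.ker.subtype).codRestrict π.ker hkerβ)
          (fun k => Subtype.ext (hα k)) (fun k => Subtype.ext (hβ k))
          (fun k => Subtype.ext (hαβ k))
      have hkerne : 1 < Nat.card π.ker := by
        obtain ⟨x, hx⟩ := exists_prime_orderOf_dvd_card' q hqdvd
        rw [Subgroup.one_lt_card_iff_ne_bot]
        intro hbot
        have hxk : x ∈ π.ker := by
          rw [hmemker, ← hx]; exact pow_orderOf_eq_one x
        rw [hbot, Subgroup.mem_bot] at hxk
        rw [hxk, orderOf_one] at hx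
        exact hq.one_lt.ne hx
      have hranpos : 0 < Nat.card π.range := Nat.card_pos
      have hlt : Nat.card π.range < n := by
        rw [← hn, ← hcard]
        nlinarith
      have hsq2 : IsSquare (Nat.card π.range) :=
        ih (Nat.card π.range) hlt π.range
          ((α.comp π.range.subtype).codRestrict π.range hranα)
          ((β.comp π.range.subtype).codRestrict π.range hranβ) rfl
          (hodd.of_dvd_nat (Dvd.intro_left _ hcard))
          (fun k => Subtype.ext (hα k)) (fun k => Subtype.ext (hβ k))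
          (fun k => Subtype.ext (hαβ k))
      rw [← hcard]
      exact hsq1.mul hsq2

/-- The same for a group that happens to be commutative. -/
theorem isSquare_card_of_quaternion' {K : Type u} [Group K] [Finite K]
    (hcomm : ∀ x y : K, x * y = y * x) (α β : K →* K) (hodd : Odd (Nat.card K))
    (hα : ∀ k, α (α k) = k⁻¹) (hβ : ∀ k, β (β k) = k⁻¹) (hαβ : ∀ k, α (β k) = (β (α k))⁻¹) :
    IsSquare (Nat.card K) := by
  let _ : CommGroup K := { ‹Group K› with mul_comm := hcomm }
  exact isSquare_card_of_quaternion _ K α β rfl hodd hα hβ hαβ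

/-- A quaternion pair in `QuaternionGroup (2 * k)`. -/
theorem quat_elements (n k : ℕ) (hk : 0 < k) (hn : n = 2 * k) :
    ∃ A B : QuaternionGroup n, A * A ≠ 1 ∧ (A * A) * (A * A) = 1 ∧ B * B = A * A ∧
      A * (B * A) = B := by
  subst hn
  refine ⟨QuaternionGroup.a (k : ZMod (2 * (2 * k))), QuaternionGroup.xa 0, ?_, ?_, ?_, ?_⟩
  · rw [QuaternionGroup.a_mul_a, QuaternionGroup.one_def]
    intro h
    have h1 : ((k : ZMod (2 * (2 * k))) + (k : ZMod (2 * (2 * k)))) = 0 :=
      QuaternionGroup.a.inj h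
    have h2 : ((k + k : ℕ) : ZMod (2 * (2 * k))) = 0 := by push_cast; exact h1
    rw [ZMod.natCast_eq_zero_iff] at h2
    have := Nat.le_of_dvd (by omega) h2
    omega
  · rw [QuaternionGroup.a_mul_a, QuaternionGroup.a_mul_a, QuaternionGroup.one_def]
    congr 1
    have h2 : ((2 * (2 * k) : ℕ) : ZMod (2 * (2 * k))) = 0 := ZMod.natCast_self _
    push_cast at h2
    rw [← h2]; ring
  · rw [QuaternionGroup.xa_mul_xa, QuaternionGroup.a_mul_a]
    congr 1
    push_cast; ring
  · rw [QuaternionGroup.xa_mul_a, QuaternionGroup.a_mul_xa]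
    congr 1
    ring

open scoped Pointwise in
/-- A Frobenius complement containing a quaternion pair has kernel of odd square order. -/
theorem kernel_odd_square {L : Type u} [Group L] [Finite L] (H : Subgroup L)
    (hF : Cfsg.IsFrobeniusComplement H) (a b : L) (ha : a ∈ H)
    (hz1 : a * a ≠ 1) (hz2 : (a * a) * (a * a) = 1) (hab : b * b = a * a)
    (hconj : a * (b * a) = b) :
    Odd (Nat.card (Cfsg.frobeniusKernel H)) ∧ IsSquare (Nat.card (Cfsg.frobeniusKernel H)) := by
  classical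
  obtain ⟨N, hNn, hc, hN1, hmem, hfpf⟩ := Cfsg.Agent.S0037.frob_data H hF
  have hset : Cfsg.frobeniusKernel H = (N : Set L) := by
    ext x
    rw [SetLike.mem_coe, hmem]
    show (x = 1 ∨ ∀ g : L, x ∉ MulAut.conj g • H) ↔ _
    apply or_congr Iff.rfl
    apply forall_congr'
    intro g
    rw [Subgroup.mem_pointwise_smul_iff_inv_smul_mem]
    have : (MulAut.conj g)⁻¹ • x = g⁻¹ * x * g := by
      rw [MulAut.smul_def, MulAut.conj_inv_apply]
    rw [this]
  have hcardeq : Nat.card (Cfsg.frobeniusKernel H) = Nat.card ↥N := by rw [hset]; rfl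
  rw [hcardeq]
  obtain ⟨z, hz⟩ : ∃ z : L, z = a * a := ⟨_, rfl⟩
  rw [← hz] at hz1 hz2 hab
  have hzH : z ∈ H := by rw [hz]; exact mul_mem ha ha
  have hzinv : z⁻¹ = z := inv_eq_of_mul_eq_one_left hz2
  have hfz := hfpf z hzH hz1
  have hcz : ∀ c ∈ N, z * c = c * z → c = 1 := by
    intro c hc hzc
    have : c ∈ N ⊓ Subgroup.centralizer {z} := by
      refine Subgroup.mem_inf.mpr ⟨hc, ?_⟩
      rw [Subgroup.mem_centralizer_iff]
      intro h hh
      rw [Set.mem_singleton_iff] at hh
      rw [hh]; exact hzc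
    rw [hfz] at this
    exact Subgroup.mem_bot.mp this
  -- `z` inverts `N`
  have hinv : ∀ k ∈ N, z * k * z⁻¹ = k⁻¹ := by
    have hinj : Function.Injective (fun k : ↥N =>
        (⟨(k : L)⁻¹ * (z * k * z⁻¹), mul_mem (inv_mem k.2) (hNn.conj_mem k k.2 z)⟩ : ↥N)) := by
      intro k k' h
      have h1 : (k : L)⁻¹ * (z * k * z⁻¹) = (k' : L)⁻¹ * (z * k' * z⁻¹) :=
        congrArg Subtype.val h
      have h2 : z * ((k' : L) * (k : L)⁻¹) = (k' : L) * (k : L)⁻¹ * z := by
        have h3 : (k' : L) * (k : L)⁻¹ = z * ((k' : L) * (k : L)⁻¹) * z⁻¹ := by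
          calc (k' : L) * (k : L)⁻¹
              = (k' : L) * ((k : L)⁻¹ * (z * k * z⁻¹)) * (z * (k : L)⁻¹ * z⁻¹) := by group
            _ = (k' : L) * ((k' : L)⁻¹ * (z * k' * z⁻¹)) * (z * (k : L)⁻¹ * z⁻¹) := by rw [h1]
            _ = z * ((k' : L) * (k : L)⁻¹) * z⁻¹ := by group
        calc z * ((k' : L) * (k : L)⁻¹) = z * ((k' : L) * (k : L)⁻¹) * z⁻¹ * z := by group
          _ = (k' : L) * (k : L)⁻¹ * z := by rw [← h3]
      have h4 := hcz _ (mul_mem k'.2 (inv_mem k.2)) h2
      rw [mul_inv_eq_one] at h4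
      exact Subtype.ext h4.symm
    have hsurj := Finite.injective_iff_surjective.mp hinj
    intro n hn
    obtain ⟨k, hk⟩ := hsurj ⟨n, hn⟩
    have hk' : (k : L)⁻¹ * (z * k * z⁻¹) = n := congrArg Subtype.val hk
    rw [← hk']
    have hzz : z⁻¹ * z⁻¹ = 1 := by rw [hzinv]; exact hz2
    calc z * ((k : L)⁻¹ * (z * k * z⁻¹)) * z⁻¹ = z * (k : L)⁻¹ * z * k * (z⁻¹ * z⁻¹) := by group
      _ = z * (k : L)⁻¹ * z * k := by rw [hzz, mul_one]
      _ = z * (k : L)⁻¹ * z⁻¹ * k := by rw [hzinv]
      _ = ((k : L)⁻¹ * (z * k * z⁻¹))⁻¹ := by group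
  have hinv' : ∀ k ∈ N, z⁻¹ * k * z = k⁻¹ := by
    intro k hk
    have h1 := hinv k hk
    rw [hzinv] at h1 ⊢
    exact h1
  have hcomm : ∀ x y : ↥N, x * y = y * x := by
    intro x y
    apply Subtype.ext
    show (x : L) * (y : L) = (y : L) * (x : L)
    have h1 := hinv ((x : L) * (y : L)) (mul_mem x.2 y.2)
    have h2 : z * ((x : L) * (y : L)) * z⁻¹ = (z * x * z⁻¹) * (z * y * z⁻¹) := by group
    rw [h2, hinv x x.2, hinv y y.2, mul_inv_rev] at h1
    have h3 := congrArg (fun t => t⁻¹) h1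
    simp only [mul_inv_rev, inv_inv] at h3
    exact h3.symm
  have hodd : Odd (Nat.card ↥N) := by
    by_contra hne
    rw [Nat.not_odd_iff_even] at hne
    obtain ⟨t, ht⟩ := exists_prime_orderOf_dvd_card' (G := ↥N) 2 hne.two_dvd
    have ht2 : (t : L) * (t : L) = 1 := by
      have := pow_orderOf_eq_one t
      rw [ht, pow_two] at this
      exact congrArg Subtype.val this
    have htinv : (t : L)⁻¹ = t := inv_eq_of_mul_eq_one_left ht2
    have h1 := hinv t t.2
    rw [htinv] at h1
    have h2 : z * (t : L) = (t : L) * z := by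
      calc z * (t : L) = z * t * z⁻¹ * z := by group
        _ = (t : L) * z := by rw [h1]
    have h3 := hcz t t.2 h2
    have h4 : t = 1 := Subtype.ext h3
    rw [h4, orderOf_one] at ht
    omega
  refine ⟨hodd, ?_⟩
  have hab0 : a * b = b * a⁻¹ := by
    calc a * b = a * (b * a) * a⁻¹ := by group
      _ = b * a⁻¹ := by rw [hconj]
  have hNn' : N.Normal := hNn
  apply isSquare_card_of_quaternion' hcomm (MulAut.conjNormal a : MulAut ↥N).toMonoidHom
    (MulAut.conjNormal b : MulAut ↥N).toMonoidHom hodd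
  · intro k
    apply Subtype.ext
    show a * (a * (k : L) * a⁻¹) * a⁻¹ = (k : L)⁻¹
    rw [← hinv k k.2, hz]
    group
  · intro k
    apply Subtype.ext
    show b * (b * (k : L) * b⁻¹) * b⁻¹ = (k : L)⁻¹
    rw [← hinv k k.2, ← hab]
    group
  · intro k
    apply Subtype.ext
    show a * (b * (k : L) * b⁻¹) * a⁻¹ = (b * (a * (k : L) * a⁻¹) * b⁻¹)⁻¹
    calc a * (b * (k : L) * b⁻¹) * a⁻¹ = (a * b) * k * (a * b)⁻¹ := by group
      _ = (b * a⁻¹) * k * (b * a⁻¹)⁻¹ := by rw [hab0]
      _ = b * a * ((a * a)⁻¹ * k * (a * a)) * a⁻¹ * b⁻¹ := by group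
      _ = b * a * (k : L)⁻¹ * a⁻¹ * b⁻¹ := by rw [← hz, hinv' k k.2]
      _ = (b * (a * (k : L) * a⁻¹) * b⁻¹)⁻¹ := by group

theorem aux {L : Type u} [Group L] [Finite L] (H : Subgroup L)
    (hF : Cfsg.IsFrobeniusComplement H)
    (hZ : ∃ (p : ℕ) (_ : Fact p.Prime) (P : Sylow p H), ¬ IsCyclic P) :
    Odd (Nat.card (Cfsg.frobeniusKernel H)) ∧ IsSquare (Nat.card (Cfsg.frobeniusKernel H)) := by
  obtain ⟨p, hp, P, hP⟩ := hZ
  obtain ⟨N, hNn, hc, hN1, hmem, hfpf⟩ := Cfsg.Agent.S0037.frob_data H hF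
  have hNn' : N.Normal := hNn
  rcases Cfsg.Agent.S0040.result N H hc hN1 hfpf p P with h | ⟨n, ⟨e⟩⟩
  · exact absurd h hP
  · rcases Nat.eq_zero_or_pos n with h0 | hpos
    · exfalso
      subst h0
      apply hP
      have hcyc : IsCyclic (QuaternionGroup (2 ^ 0)) :=
        QuaternionGroup.quaternionGroup_one_isCyclic
      exact isCyclic_of_surjective e.symm.toMonoidHom e.symm.surjective
    · obtain ⟨A, B, h1, h2, h3, h4⟩ := quat_elements (2 ^ n) (2 ^ (n - 1)) (by positivity)
        (by rw [← pow_succ']; congr 1; omega)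
      obtain ⟨φ, hφ⟩ : ∃ φ : QuaternionGroup (2 ^ n) →* L,
          ∀ x, φ x = (((e.symm x : ↥(P : Subgroup ↥H)) : ↥H) : L) :=
        ⟨H.subtype.comp ((P : Subgroup ↥H).subtype.comp e.symm.toMonoidHom), fun x => rfl⟩
      have hφinj : Function.Injective φ := by
        intro x y hxy
        rw [hφ, hφ] at hxy
        exact e.symm.injective (Subtype.ext (Subtype.ext hxy))
      apply kernel_odd_square H hF (φ A) (φ B) ?_ ?_ ?_ ?_ ?_
      · rw [hφ]; exact ((e.symm A : ↥(P : Subgroup ↥H)) : ↥H).2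
      · rw [← map_mul]
        intro h
        exact h1 (hφinj (by rw [h, map_one]))
      · rw [← map_mul, ← map_mul, h2, map_one]
      · rw [← map_mul, ← map_mul, h3]
      · rw [← map_mul, ← map_mul, h4]

/-- Let H be a Frobenius complement in a finite group, and suppose some Sylow subgroup of H is not cyclic. Then the number of elements of the Frobenius kernel (the identity together with the elements lying in no conjugate of H) is an odd perfect square. -/
theorem result {L : Type*} [Group L] [Finite L] (H : Subgroup L) (hF : Cfsg.IsFrobeniusComplement H)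
    (hZ : ∃ (p : ℕ) (_ : Fact p.Prime) (P : Sylow p H), ¬ IsCyclic P) :
    Odd (Nat.card (Cfsg.frobeniusKernel H)) ∧ IsSquare (Nat.card (Cfsg.frobeniusKernel H)) := by
  exact aux H hF hZ

end Cfsg.Agent.S4296
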