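import Cfsg.Statements.S4295
import Mathlib
import Cfsg.Agent.S4296
import Cfsg.Agent.Lib.Helper76.FrobAction

set_option autoImplicit false
open Cfsg

namespace Cfsg.Agent.S4295

universe u

/-- Quaternion data: a finite abelian group of order `n * n` with operators `I`, `J` such that
`I² = J² = -1` and `IJ = -JI`. -/
theorem exists_quat_data : ∀ n : ℕ, Odd n →
    ∃ (V : Type) (_ : AddCommGroup V) (_ : Finite V) (I J : V →+ V),
      Nat.card V = n * n ∧ (∀ v, I (I v) = -v) ∧ (∀ v, J (J v) = -v) ∧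
        (∀ v, I (J v) = -(J (I v))) := by
  intro n
  induction n using Nat.recOnMul with
  | zero => intro h; exact absurd h (by decide)
  | one =>
    intro _
    exact ⟨PUnit, inferInstance, inferInstance, 0, 0, by simp, fun v => rfl, fun v => rfl,
      fun v => rfl⟩
  | prime p hp =>
    intro _
    have hpf : Fact p.Prime := ⟨hp⟩
    obtain ⟨x, y, hxy⟩ := ZMod.sq_add_sq p (-1)
    refine ⟨ZMod p × ZMod p, inferInstance, inferInstance,
      AddMonoidHom.mk' (fun v => (x * v.1 + y * v.2, y * v.1 - x * v.2))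
        (fun v w => by ext <;> simp <;> ring),
      AddMonoidHom.mk' (fun v => (-v.2, v.1)) (fun v w => by ext <;> simp; ring),
      ?_, ?_, ?_, ?_⟩
    · rw [Nat.card_prod, Nat.card_zmod]
    · intro v
      ext
      · show x * (x * v.1 + y * v.2) + y * (y * v.1 - x * v.2) = -v.1
        linear_combination v.1 * hxy
      · show y * (x * v.1 + y * v.2) - x * (y * v.1 - x * v.2) = -v.2
        linear_combination v.2 * hxy
    · intro v
      ext <;> simp
    · intro v
      ext
      · show x * (-v.2) + y * v.1 = -(-(y * v.1 - x * v.2))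
        ring
      · show y * (-v.2) - x * v.1 = -(x * v.1 + y * v.2)
        ring
  | mul a b iha ihb =>
    intro hab
    have ha : Odd a := by
      rcases Nat.even_or_odd a with h | h
      · exact absurd (h.mul_right b) (Nat.not_even_iff_odd.mpr hab)
      · exact h
    have hb : Odd b := by
      rcases Nat.even_or_odd b with h | h
      · exact absurd (h.mul_left a) (Nat.not_even_iff_odd.mpr hab)
      · exact h
    obtain ⟨V₁, i₁, f₁, I₁, J₁, hc₁, hI₁, hJ₁, hIJ₁⟩ := iha ha
    obtain ⟨V₂, i₂, f₂, I₂, J₂, hc₂, hI₂, hJ₂, hIJ₂⟩ := ihb hb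
    refine ⟨V₁ × V₂, inferInstance, inferInstance, I₁.prodMap I₂, J₁.prodMap J₂, ?_, ?_, ?_, ?_⟩
    · rw [Nat.card_prod, hc₁, hc₂]; ring
    · intro v
      ext
      · exact hI₁ v.1
      · exact hI₂ v.2
    · intro v
      ext
      · exact hJ₁ v.1
      · exact hJ₂ v.2
    · intro v
      ext
      · exact hIJ₁ v.1
      · exact hIJ₂ v.2

/-- A homomorphism from `Q₈` determined by a quaternion triple. -/
theorem exists_quat_hom {Γ : Type u} [Group Γ] (I J Z : Γ) (h1 : I * I = Z) (h2 : J * J = Z)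
    (h3 : I * J = Z * (J * I)) (hZI : Z * I = I * Z) (hZJ : Z * J = J * Z) (hZZ : Z * Z = 1) :
    ∃ f : QuaternionGroup 2 →* Γ, f (QuaternionGroup.a 2) = Z := by
  have hI4 : I ^ 4 = 1 := by
    calc I ^ 4 = I ^ 2 * I ^ 2 := by rw [← pow_add]
      _ = 1 := by rw [pow_two, h1, hZZ]
  have hZinv : Z⁻¹ = Z := inv_eq_of_mul_eq_one_left hZZ
  have hIinv : I⁻¹ = Z * I := by
    apply inv_eq_of_mul_eq_one_left
    rw [mul_assoc, h1, hZZ]
  have hsc : SemiconjBy J I⁻¹ I := by
    show J * I⁻¹ = I * J
    rw [hIinv, ← mul_assoc, ← hZJ, mul_assoc, h3]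
  obtain ⟨ψ, hψ⟩ : ∃ ψ : ZMod (2 * 2) → Γ, ∀ i, ψ i = I ^ i.val := ⟨fun i => I ^ i.val, fun i => rfl⟩
  have hP1 : ∀ i j, ψ (i + j) = ψ i * ψ j := by
    intro i j
    rw [hψ, hψ, hψ, ZMod.val_add, ← pow_add]
    exact (pow_eq_pow_mod _ hI4).symm
  have hP5 : ∀ i, ψ i * J = J * (ψ i)⁻¹ := by
    intro i
    rw [hψ, ← inv_pow]
    exact ((hsc.pow_right i.val).eq).symm
  have hP3 : ∀ i j, ψ (j - i) = (ψ i)⁻¹ * ψ j := by
    intro i j
    rw [eq_inv_mul_iff_mul_eq, ← hP1, add_sub_cancel]
  have hψ2 : ψ ((2 : ℕ) : ZMod (2 * 2)) = Z := by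
    rw [hψ, ← h1]
    show I ^ 2 = I * I
    rw [pow_two]
  refine ⟨MonoidHom.mk' (fun q => match q with
    | QuaternionGroup.a i => ψ i
    | QuaternionGroup.xa i => J * ψ i) ?_, ?_⟩
  · rintro (i | i) (j | j)
    · show ψ (i + j) = ψ i * ψ j
      exact hP1 i j
    · show J * ψ (j - i) = ψ i * (J * ψ j)
      rw [hP3, ← mul_assoc (ψ i), hP5, mul_assoc]
    · show J * ψ (i + j) = J * ψ i * ψ j
      rw [hP1, mul_assoc]
    · show ψ (((2 : ℕ) : ZMod (2 * 2)) + j - i) = J * ψ i * (J * ψ j)
      rw [add_sub_assoc, hP1, hψ2, hP3, mul_assoc J, ← mul_assoc (ψ i), hP5, ← h2]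
      group
  · show ψ 2 = Z
    exact hψ2

open scoped Pointwise in
/-- The Frobenius kernel has `|L| / |H|` elements and is nontrivial. -/
theorem kernel_card {L : Type u} [Group L] [Finite L] (H : Subgroup L)
    (hF : Cfsg.IsFrobeniusComplement H) :
    Nat.card (Cfsg.frobeniusKernel H) * Nat.card H = Nat.card L ∧
      1 < Nat.card (Cfsg.frobeniusKernel H) := by
  classical
  obtain ⟨N, hNn, hc, hN1, hmem, hfpf⟩ := Cfsg.Agent.S0037.frob_data H hF
  have hset : Cfsg.frobeniusKernel H = (N : Set L) := by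
    ext x
    rw [SetLike.mem_coe, hmem]
    show (x = 1 ∨ ∀ g : L, x ∉ MulAut.conj g • H) ↔ _
    apply or_congr Iff.rfl
    apply forall_congr'
    intro g
    rw [Subgroup.mem_pointwise_smul_iff_inv_smul_mem]
    have : (MulAut.conj g)⁻¹ • x = g⁻¹ * x * g := by
      rw [MulAut.smul_def, MulAut.conj_inv_apply]
    rw [this]
  have hcardeq : Nat.card (Cfsg.frobeniusKernel H) = Nat.card ↥N := by rw [hset]; rfl
  rw [hcardeq]
  exact ⟨hc.card_mul_card, N.one_lt_card_iff_ne_bot.mpr hN1⟩

theorem quat_two_cases : ∀ h : QuaternionGroup 2, h ≠ 1 →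
    h = QuaternionGroup.a 2 ∨ h * h = QuaternionGroup.a 2 := by
  decide

theorem forward (m : ℕ) (L : Type) [Group L] [Finite L] (H : Subgroup L)
    (hF : Cfsg.IsFrobeniusComplement H) (e : H ≃* QuaternionGroup 2)
    (hm : Nat.card (Cfsg.frobeniusKernel H) = m) : Odd m ∧ IsSquare m ∧ 1 < m := by
  obtain ⟨A, B, hA1, hA2, hAB, hABA⟩ := Cfsg.Agent.S4296.quat_elements 2 1 Nat.one_pos rfl
  have key := Cfsg.Agent.S4296.kernel_odd_square H hF (e.symm A : L) (e.symm B : L)
    (e.symm A).2 ?_ ?_ ?_ ?_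
  · rw [hm] at key
    have h2 := (kernel_card H hF).2
    rw [hm] at h2
    exact ⟨key.1, key.2, h2⟩
  · intro h
    apply hA1
    have h1 : e.symm (A * A) = 1 := by
      apply Subtype.ext
      rw [map_mul]
      exact h
    exact (MulEquiv.map_eq_one_iff e.symm).mp h1
  · have h1 : e.symm ((A * A) * (A * A)) = 1 := by rw [hA2, map_one]
    have h2 := congrArg Subtype.val h1
    simpa using h2
  · have h1 : e.symm (B * B) = e.symm (A * A) := by rw [hAB]
    have h2 := congrArg Subtype.val h1
    simpa using h2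
  · have h1 : e.symm (A * (B * A)) = e.symm B := by rw [hABA]
    have h2 := congrArg Subtype.val h1
    simpa using h2

theorem backward (k : ℕ) (hk : Odd k) (hk1 : 1 < k) :
    ∃ (L : Type) (_ : Group L) (_ : Finite L) (H : Subgroup L), Cfsg.IsFrobeniusComplement H ∧
        Nonempty (H ≃* QuaternionGroup 2) ∧ Nat.card (Cfsg.frobeniusKernel H) = k * k := by
  obtain ⟨V, iV, fV, I, J, hcard, hI, hJ, hIJ⟩ := exists_quat_data k hk
  let Iadd : V ≃+ V :=
    { toFun := I
      invFun := fun v => -(I v)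
      left_inv := fun v => by simp [hI]
      right_inv := fun v => by simp [hI]
      map_add' := I.map_add }
  let Jadd : V ≃+ V :=
    { toFun := J
      invFun := fun v => -(J v)
      left_inv := fun v => by simp [hJ]
      right_inv := fun v => by simp [hJ]
      map_add' := J.map_add }
  let Ia : MulAut (Multiplicative V) := AddEquiv.toMultiplicative Iadd
  let Ja : MulAut (Multiplicative V) := AddEquiv.toMultiplicative Jadd
  let Za : MulAut (Multiplicative V) := MulEquiv.inv (Multiplicative V)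
  have hIa : ∀ w, Ia w = Multiplicative.ofAdd (I (Multiplicative.toAdd w)) := fun w => rfl
  have hJa : ∀ w, Ja w = Multiplicative.ofAdd (J (Multiplicative.toAdd w)) := fun w => rfl
  have hZa : ∀ w, Za w = w⁻¹ := fun w => rfl
  have r1 : Ia * Ia = Za := by
    ext w
    rw [MulAut.mul_apply, hIa, hIa, hZa]
    simp [hI]
  have r2 : Ja * Ja = Za := by
    ext w
    rw [MulAut.mul_apply, hJa, hJa, hZa]
    simp [hJ]
  have r3 : Ia * Ja = Za * (Ja * Ia) := by
    ext w
    rw [MulAut.mul_apply, MulAut.mul_apply, MulAut.mul_apply, hIa, hJa, hZa, hJa, hIa]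
    simp [hIJ]
  have r4 : Za * Ia = Ia * Za := by
    apply MulEquiv.ext
    intro w
    rw [MulAut.mul_apply, MulAut.mul_apply, hZa, hZa]
    exact (map_inv Ia w).symm
  have r5 : Za * Ja = Ja * Za := by
    apply MulEquiv.ext
    intro w
    rw [MulAut.mul_apply, MulAut.mul_apply, hZa, hZa]
    exact (map_inv Ja w).symm
  have r6 : Za * Za = 1 := by
    ext w
    rw [MulAut.mul_apply, hZa, hZa, inv_inv]
    rfl
  obtain ⟨φ, hφ⟩ := exists_quat_hom Ia Ja Za r1 r2 r3 r4 r5 r6
  have hcardW : Nat.card (Multiplicative V) = k * k := hcard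
  have hoddW : Odd (Nat.card (Multiplicative V)) := by rw [hcardW]; exact hk.mul hk
  have hinvW : ∀ w : Multiplicative V, w⁻¹ = w → w = 1 := by
    intro w hw
    have h2 : w ^ 2 = 1 := by
      rw [pow_two]
      nth_rewrite 1 [← hw]
      exact inv_mul_cancel w
    have h3 : orderOf w ∣ 2 := orderOf_dvd_of_pow_eq_one h2
    have h4 : orderOf w ∣ Nat.card (Multiplicative V) := orderOf_dvd_natCard w
    have h5 : orderOf w ≠ 2 := by
      intro h
      rw [h] at h4
      exact (Nat.not_even_iff_odd.mpr hoddW) (even_iff_two_dvd.mpr h4)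
    have h6 : orderOf w = 1 := by
      rcases (Nat.dvd_prime Nat.prime_two).mp h3 with h | h
      · exact h
      · exact absurd h h5
    exact orderOf_eq_one_iff.mp h6
  have hfree : ∀ h : QuaternionGroup 2, h ≠ 1 → ∀ w : Multiplicative V, φ h w = w → w = 1 := by
    intro h hh w hw
    rcases quat_two_cases h hh with h1 | h1
    · rw [h1, hφ, hZa] at hw
      exact hinvW w hw
    · have h2 : φ (h * h) w = w := by
        rw [map_mul, MulAut.mul_apply, hw, hw]
      rw [h1, hφ, hZa] at h2
      exact hinvW w h2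
  have hntW : Nontrivial (Multiplicative V) := by
    apply Finite.one_lt_card_iff_nontrivial.mp
    rw [hcardW]
    nlinarith
  have hfin : Finite (Multiplicative V ⋊[φ] QuaternionGroup 2) :=
    Finite.of_equiv _ SemidirectProduct.equivProd.symm
  have hF := Cfsg.Agent.Lib.Helper76.isFrobeniusComplement_inr_range φ hfree
  refine ⟨Multiplicative V ⋊[φ] QuaternionGroup 2, inferInstance, hfin,
    (SemidirectProduct.inr : QuaternionGroup 2 →* Multiplicative V ⋊[φ] QuaternionGroup 2).range,
    hF, ⟨(MonoidHom.ofInjective SemidirectProduct.inr_injective).symm⟩, ?_⟩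
  have h1 := (kernel_card _ hF).1
  have h2 : Nat.card (SemidirectProduct.inr :
      QuaternionGroup 2 →* Multiplicative V ⋊[φ] QuaternionGroup 2).range = 8 := by
    rw [← Nat.card_congr (MonoidHom.ofInjective
      (SemidirectProduct.inr_injective (N := Multiplicative V) (φ := φ))).toEquiv,
      Nat.card_eq_fintype_card, QuaternionGroup.card]
  have h3 : Nat.card (Multiplicative V ⋊[φ] QuaternionGroup 2) = k * k * 8 := by
    rw [Nat.card_congr SemidirectProduct.equivProd, Nat.card_prod, hcardW,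
      Nat.card_eq_fintype_card, QuaternionGroup.card]
  rw [h2, h3] at h1
  exact Nat.eq_of_mul_eq_mul_right (by norm_num) h1

theorem aux (m : ℕ) :
    (∃ (L : Type) (_ : Group L) (_ : Finite L) (H : Subgroup L), Cfsg.IsFrobeniusComplement H ∧
        Nonempty (H ≃* QuaternionGroup 2) ∧ Nat.card (Cfsg.frobeniusKernel H) = m) ↔
    (Odd m ∧ IsSquare m ∧ 1 < m) := by
  constructor
  · rintro ⟨L, iL, fL, H, hF, ⟨e⟩, hm⟩
    exact forward m L H hF e hm
  · rintro ⟨hodd, ⟨k, rfl⟩, h1⟩
    have hk : Odd k := by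
      rcases Nat.even_or_odd k with h | h
      · exact absurd (h.mul_right k) (Nat.not_even_iff_odd.mpr hodd)
      · exact h
    have hk1 : 1 < k := by
      by_contra hle
      have : k ≤ 1 := Nat.le_of_not_lt hle
      have : k * k ≤ 1 := by nlinarith
      omega
    exact backward k hk hk1

/-- For a natural number m the following are equivalent: (a) some finite group has a Frobenius complement isomorphic to the quaternion group of order 8 whose Frobenius kernel (the identity together with the elements lying in no conjugate of the complement) has exactly m elements; (b) m is an odd perfect square greater than 1. -/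
theorem result (m : ℕ) :
    (∃ (L : Type) (_ : Group L) (_ : Finite L) (H : Subgroup L), Cfsg.IsFrobeniusComplement H ∧
        Nonempty (H ≃* QuaternionGroup 2) ∧ Nat.card (Cfsg.frobeniusKernel H) = m) ↔
    (Odd m ∧ IsSquare m ∧ 1 < m) := by
  exact aux m

end Cfsg.Agent.S4295
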