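import Cfsg.Statements.S4297
import Cfsg.Agent.S4293

set_option autoImplicit false
open Cfsg

namespace Cfsg.Agent.S4297

open Quaternion

/-- the quaternion unit `j` -/
noncomputable def J : ℍ[ℝ] := ⟨0, 0, 1, 0⟩

@[simp] theorem J_re : J.re = 0 := rfl
@[simp] theorem J_imI : J.imI = 0 := rfl
@[simp] theorem J_imJ : J.imJ = 1 := rfl
@[simp] theorem J_imK : J.imK = 0 := rfl

theorem J_mul_J : J * J = -1 := by
  ext <;> simp

theorem coe_mul_J (z : ℂ) : (z : ℍ[ℝ]) * J = J * ((starRingEnd ℂ z : ℂ) : ℍ[ℝ]) := by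
  ext <;> simp

theorem coe_neg' (z : ℂ) : ((-z : ℂ) : ℍ[ℝ]) = -(z : ℍ[ℝ]) := by
  ext <;> simp

theorem coe_inj {z w : ℂ} (h : (z : ℍ[ℝ]) = (w : ℍ[ℝ])) : z = w := by
  apply Complex.ext
  · have := congrArg QuaternionAlgebra.re h
    simpa using this
  · have := congrArg QuaternionAlgebra.imI h
    simpa using this

section
variable {n : ℕ} [NeZero n]

noncomputable def e (i : ZMod (2 * n)) : ℂ := ZMod.stdAddChar i

theorem e_add (i j : ZMod (2 * n)) : e (i + j) = e i * e j := by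
  unfold e; exact AddChar.map_add_eq_mul _ _ _

theorem e_zero : e (0 : ZMod (2 * n)) = 1 := by
  unfold e; exact AddChar.map_zero_eq_one _

theorem e_norm (i : ZMod (2 * n)) : ‖e i‖ = 1 := by
  unfold e
  rw [ZMod.stdAddChar_apply]
  exact Circle.norm_coe _

theorem e_neg (i : ZMod (2 * n)) : e (-i) = starRingEnd ℂ (e i) := by
  rw [← Complex.inv_eq_conj (e_norm i)]
  unfold e
  exact AddChar.map_neg_eq_inv _ _

theorem e_n : e ((n : ℕ) : ZMod (2 * n)) = -1 := by
  unfold e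
  have h := ZMod.stdAddChar_coe (N := 2 * n) (n : ℤ)
  have h2 : (((n : ℤ) : ZMod (2 * n))) = ((n : ℕ) : ZMod (2 * n)) := by simp
  rw [h2] at h
  rw [h]
  have hn : (n : ℂ) ≠ 0 := Nat.cast_ne_zero.mpr (NeZero.ne n)
  have : 2 * (Real.pi : ℂ) * Complex.I * ((n : ℤ) : ℂ) / ((2 * n : ℕ) : ℂ) = Real.pi * Complex.I := by
    push_cast
    field_simp
  rw [this, Complex.exp_pi_mul_I]

theorem e_inj {i j : ZMod (2 * n)} (h : e i = e j) : i = j :=
  ZMod.injective_stdAddChar h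

noncomputable def f : QuaternionGroup n → ℍ[ℝ]
  | QuaternionGroup.a i => (e i : ℍ[ℝ])
  | QuaternionGroup.xa i => J * (e i : ℍ[ℝ])

theorem f_mul (x y : QuaternionGroup n) : f (x * y) = f x * f y := by
  rcases x with i | i <;> rcases y with j | j
  · show ((e (i + j) : ℂ) : ℍ[ℝ]) = (e i : ℍ[ℝ]) * (e j : ℍ[ℝ])
    rw [e_add, Quaternion.coeComplex_mul]
  · show J * ((e (j - i) : ℂ) : ℍ[ℝ]) = (e i : ℍ[ℝ]) * (J * (e j : ℍ[ℝ]))
    rw [← mul_assoc, coe_mul_J, ← e_neg, mul_assoc, ← Quaternion.coeComplex_mul, ← e_add,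
      neg_add_eq_sub]
  · show J * ((e (i + j) : ℂ) : ℍ[ℝ]) = J * (e i : ℍ[ℝ]) * (e j : ℍ[ℝ])
    rw [e_add, Quaternion.coeComplex_mul, mul_assoc]
  · show ((e ((n : ZMod (2 * n)) + j - i) : ℂ) : ℍ[ℝ]) = J * (e i : ℍ[ℝ]) * (J * (e j : ℍ[ℝ]))
    have h1 : J * (e i : ℍ[ℝ]) * (J * (e j : ℍ[ℝ])) = J * ((e i : ℍ[ℝ]) * J) * (e j : ℍ[ℝ]) := by
      simp only [mul_assoc]
    rw [h1, coe_mul_J, ← mul_assoc, J_mul_J, ← e_neg, mul_assoc, ← Quaternion.coeComplex_mul,
      ← e_add, neg_add_eq_sub, add_sub_assoc, e_add, e_n]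
    rw [neg_one_mul, coe_neg']
    simp

noncomputable def fHom : QuaternionGroup n →* ℍ[ℝ] where
  toFun := f
  map_one' := by
    show ((e (0 : ZMod (2 * n)) : ℂ) : ℍ[ℝ]) = 1
    rw [e_zero]; simp
  map_mul' := f_mul

theorem f_injective : Function.Injective (f : QuaternionGroup n → ℍ[ℝ]) := by
  intro x y h
  rcases x with i | i <;> rcases y with j | j
  · exact congrArg _ (e_inj (coe_inj h))
  · exfalso
    have h' : (e i : ℍ[ℝ]) = J * (e j : ℍ[ℝ]) := h
    have h1 := congrArg QuaternionAlgebra.re h'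
    have h2 := congrArg QuaternionAlgebra.imI h'
    simp at h1 h2
    have h0 : e i = 0 := Complex.ext h1 h2
    have := e_norm i
    rw [h0, norm_zero] at this
    exact zero_ne_one this
  · exfalso
    have h' : J * (e i : ℍ[ℝ]) = (e j : ℍ[ℝ]) := h
    have h1 := congrArg QuaternionAlgebra.re h'
    have h2 := congrArg QuaternionAlgebra.imI h'
    simp at h1 h2
    have h0 : e j = 0 := Complex.ext h1.symm h2.symm
    have := e_norm j
    rw [h0, norm_zero] at this
    exact zero_ne_one this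
  · have h' : J * (e i : ℍ[ℝ]) = J * (e j : ℍ[ℝ]) := h
    have h2 : J * (J * (e i : ℍ[ℝ])) = J * (J * (e j : ℍ[ℝ])) := by rw [h']
    rw [← mul_assoc, ← mul_assoc, J_mul_J] at h2
    have h3 : (e i : ℍ[ℝ]) = (e j : ℍ[ℝ]) := by simpa using h2
    exact congrArg _ (e_inj (coe_inj h3))

end

/-- For every n ≥ 2 the dicyclic group of order 4n (generated by an element a of order 2n and an element x with x² = aⁿ and x a x⁻¹ = a⁻¹) occurs as a Frobenius complement of some finite Frobenius group. -/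
theorem result (n : ℕ) (hn : 2 ≤ n) :
    ∃ (L : Type) (_ : Group L) (_ : Finite L) (H : Subgroup L), Cfsg.IsFrobeniusComplement H ∧ Nonempty (H ≃* QuaternionGroup n) := by
  have hne : NeZero n := ⟨by omega⟩
  let F : QuaternionGroup n →* (ℍ[ℝ])ˣ := (fHom (n := n)).toHomUnits
  have hF : Function.Injective F := by
    intro x y h
    apply f_injective
    have := congrArg (fun u : (ℍ[ℝ])ˣ => (u : ℍ[ℝ])) h
    exact this
  let E : QuaternionGroup n ≃* F.range := MonoidHom.ofInjective hF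
  have hfin : Finite F.range := Finite.of_equiv _ E.toEquiv
  have hbot : F.range ≠ ⊥ := by
    intro hb
    have h1 : F (QuaternionGroup.xa 0) ∈ F.range := ⟨_, rfl⟩
    rw [hb, Subgroup.mem_bot] at h1
    have h2 : F (QuaternionGroup.xa 0) = F 1 := by rw [h1, map_one]
    have h3 := hF h2
    rw [QuaternionGroup.one_def] at h3
    cases h3
  obtain ⟨L, hL1, hL2, C, hC, ⟨g⟩⟩ := Cfsg.Agent.S4293.result F.range hbot
  exact ⟨L, hL1, hL2, C, hC, ⟨g.symm.trans E.symm⟩⟩

end Cfsg.Agent.S4297
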