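import Cfsg.Statements.S4298
import Cfsg.Agent.Lib.Helper76.FrobAction

set_option autoImplicit false
open Cfsg

namespace Cfsg.Agent.S4298

def tbl (a b c d : ZMod 3) : ZMod 5 × ZMod 5 × ZMod 5 × ZMod 5 :=
  match a.val, b.val, c.val, d.val with
  | 0, 1, 2, 0 => (0, 1, 4, 0)
  | 0, 1, 2, 1 => (4, 1, 2, 2)
  | 0, 1, 2, 2 => (1, 3, 4, 3)
  | 0, 2, 1, 0 => (0, 4, 1, 0)
  | 0, 2, 1, 1 => (4, 2, 1, 2)
  | 0, 2, 1, 2 => (1, 4, 3, 3)
  | 1, 0, 0, 1 => (1, 0, 0, 1)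
  | 1, 0, 1, 1 => (1, 1, 2, 3)
  | 1, 0, 2, 1 => (3, 4, 3, 1)
  | 1, 1, 0, 1 => (1, 2, 1, 3)
  | 1, 1, 1, 2 => (2, 0, 0, 3)
  | 1, 1, 2, 0 => (2, 3, 4, 4)
  | 1, 2, 0, 1 => (3, 3, 4, 1)
  | 1, 2, 1, 0 => (2, 4, 3, 4)
  | 1, 2, 2, 2 => (0, 3, 3, 0)
  | 2, 0, 0, 2 => (4, 0, 0, 4)
  | 2, 0, 1, 2 => (2, 1, 2, 4)
  | 2, 0, 2, 2 => (4, 4, 3, 2)
  | 2, 1, 0, 2 => (2, 2, 1, 4)
  | 2, 1, 1, 1 => (0, 2, 2, 0)
  | 2, 1, 2, 0 => (3, 1, 2, 1)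
  | 2, 2, 0, 2 => (4, 3, 4, 2)
  | 2, 2, 1, 0 => (3, 2, 1, 1)
  | 2, 2, 2, 1 => (3, 0, 0, 2)
  | _, _, _, _ => (1, 0, 0, 1)

def mul4 (x y : ZMod 5 × ZMod 5 × ZMod 5 × ZMod 5) : ZMod 5 × ZMod 5 × ZMod 5 × ZMod 5 :=
  (x.1 * y.1 + x.2.1 * y.2.2.1, x.1 * y.2.1 + x.2.1 * y.2.2.2,
   x.2.2.1 * y.1 + x.2.2.2 * y.2.2.1, x.2.2.1 * y.2.1 + x.2.2.2 * y.2.2.2)

set_option maxRecDepth 100000 in
theorem tbl_mul : ∀ a b c d e f g h : ZMod 3, a * d - b * c = 1 → e * h - f * g = 1 →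
    tbl (a * e + b * g) (a * f + b * h) (c * e + d * g) (c * f + d * h)
      = mul4 (tbl a b c d) (tbl e f g h) := by
  decide

set_option maxRecDepth 100000 in
theorem tbl_free : ∀ a b c d : ZMod 3, a * d - b * c = 1 → ¬ (a = 1 ∧ b = 0 ∧ c = 0 ∧ d = 1) →
    ((tbl a b c d).1 - 1) * ((tbl a b c d).2.2.2 - 1) - (tbl a b c d).2.1 * (tbl a b c d).2.2.1 ≠ 0 := by
  decide

def toMat (x : ZMod 5 × ZMod 5 × ZMod 5 × ZMod 5) : Matrix (Fin 2) (Fin 2) (ZMod 5) :=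
  !![x.1, x.2.1; x.2.2.1, x.2.2.2]

theorem toMat_mul4 (x y : ZMod 5 × ZMod 5 × ZMod 5 × ZMod 5) :
    toMat (mul4 x y) = toMat x * toMat y := by
  ext i j
  fin_cases i <;> fin_cases j <;> simp [toMat, mul4, Matrix.mul_apply, Fin.sum_univ_two]

def psi0 : Matrix.SpecialLinearGroup (Fin 2) (ZMod 3) →* Matrix (Fin 2) (Fin 2) (ZMod 5) where
  toFun A := toMat (tbl (A.1 0 0) (A.1 0 1) (A.1 1 0) (A.1 1 1))
  map_one' := by
    have : tbl 1 0 0 1 = (1, 0, 0, 1) := by decide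
    simp only [Matrix.SpecialLinearGroup.coe_one, Matrix.one_apply_eq, ne_eq, zero_ne_one,
      not_false_eq_true, Matrix.one_apply_ne, one_ne_zero, this]
    ext i j
    fin_cases i <;> fin_cases j <;> simp [toMat]
  map_mul' A B := by
    have hA : A.1 0 0 * A.1 1 1 - A.1 0 1 * A.1 1 0 = 1 := by
      rw [← Matrix.det_fin_two]; exact A.2
    have hB : B.1 0 0 * B.1 1 1 - B.1 0 1 * B.1 1 0 = 1 := by
      rw [← Matrix.det_fin_two]; exact B.2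
    rw [← toMat_mul4, ← tbl_mul _ _ _ _ _ _ _ _ hA hB]
    simp [Matrix.SpecialLinearGroup.coe_mul, Matrix.mul_apply, Fin.sum_univ_two]

/-- The group SL(2,3) of order 24 (the binary tetrahedral group) occurs as a Frobenius complement of some finite Frobenius group. -/
theorem result :
    ∃ (L : Type) (_ : Group L) (_ : Finite L) (H : Subgroup L), Cfsg.IsFrobeniusComplement H ∧ Nonempty (H ≃* Matrix.SpecialLinearGroup (Fin 2) (ZMod 3)) := by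
  have hp5 : Fact (Nat.Prime 5) := ⟨by norm_num⟩
  have hnt : Nontrivial (Matrix.SpecialLinearGroup (Fin 2) (ZMod 3)) := by
    refine ⟨⟨1, -1, ?_⟩⟩
    intro h
    have h2 := congrArg (fun A : Matrix.SpecialLinearGroup (Fin 2) (ZMod 3) => A.1 0 0) h
    simp at h2
    revert h2
    decide
  obtain ⟨L, hL1, hL2, H, hH, ⟨f⟩⟩ :=
    Cfsg.Agent.Lib.Helper76.exists_frobenius_of_units_hom (R := Matrix (Fin 2) (Fin 2) (ZMod 5))
      psi0.toHomUnits (by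
    intro h hh r hr
    rw [MonoidHom.coe_toHomUnits] at hr
    have hdet : h.1 0 0 * h.1 1 1 - h.1 0 1 * h.1 1 0 = 1 := by
      rw [← Matrix.det_fin_two]; exact h.2
    have hne : ¬ (h.1 0 0 = 1 ∧ h.1 0 1 = 0 ∧ h.1 1 0 = 0 ∧ h.1 1 1 = 1) := by
      rintro ⟨h1, h2, h3, h4⟩
      apply hh
      apply Subtype.ext
      ext i j
      fin_cases i <;> fin_cases j <;> simp [h1, h2, h3, h4]
    have hfree := tbl_free _ _ _ _ hdet hne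
    set x := tbl (h.1 0 0) (h.1 0 1) (h.1 1 0) (h.1 1 1) with hx
    have hN : (psi0 h - 1).det ≠ 0 := by
      have : (psi0 h - 1).det = (x.1 - 1) * (x.2.2.2 - 1) - x.2.1 * x.2.2.1 := by
        rw [Matrix.det_fin_two]
        show (toMat x - 1) 0 0 * (toMat x - 1) 1 1 - (toMat x - 1) 0 1 * (toMat x - 1) 1 0 = _
        simp [toMat]
      rw [this]; exact hfree
    have hunit : IsUnit (psi0 h - 1) := by
      rw [Matrix.isUnit_iff_isUnit_det]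
      exact isUnit_iff_ne_zero.mpr hN
    have h0 : (psi0 h - 1) * r = 0 := by rw [sub_mul, hr, one_mul, sub_self]
    exact (IsUnit.mul_right_eq_zero hunit).mp h0)
  exact ⟨L, hL1, hL2, H, hH, ⟨f.symm⟩⟩

end Cfsg.Agent.S4298
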