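import Cfsg.Statements.S4299
import Cfsg.Agent.Lib.Helper76.FrobAction

set_option autoImplicit false
open Cfsg

namespace Cfsg.Agent.S4299

/-- Every nontrivial finite cyclic group occurs as a Frobenius complement of some finite Frobenius group. -/
theorem result {C : Type*} [Group C] [Finite C] [IsCyclic C] [Nontrivial C] :
    ∃ (L : Type) (_ : Group L) (_ : Finite L) (H : Subgroup L), Cfsg.IsFrobeniusComplement H ∧ Nonempty (C ≃* H) := by
  classical
  have hn0 : Nat.card C ≠ 0 := Nat.card_pos.ne'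
  obtain ⟨p, hp, -, hmod⟩ := Nat.exists_prime_gt_modEq_one (k := Nat.card C) 0 hn0
  have : Fact p.Prime := ⟨hp⟩
  have hdvd : Nat.card C ∣ p - 1 := (Nat.modEq_iff_dvd' hp.one_lt.le).mp hmod.symm
  obtain ⟨g, hg⟩ := IsCyclic.exists_generator (α := (ZMod p)ˣ)
  have hord : orderOf g = p - 1 := by
    rw [orderOf_eq_card_of_forall_mem_zpowers hg, Nat.card_eq_fintype_card, ZMod.card_units]
  have hord0 : orderOf g ≠ 0 := by
    rw [hord]; have := hp.one_lt; omega
  have hu : orderOf (g ^ (orderOf g / Nat.card C)) = Nat.card C :=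
    orderOf_pow_orderOf_div hord0 (hord ▸ hdvd)
  set u := g ^ (orderOf g / Nat.card C) with hu_def
  have hcard : Nat.card C = Nat.card (Subgroup.zpowers u) := by
    rw [Nat.card_zpowers, hu]
  let e : C ≃* Subgroup.zpowers u := mulEquivOfCyclicCardEq hcard
  let ψ : C →* (ZMod p)ˣ := (Subgroup.zpowers u).subtype.comp e.toMonoidHom
  have hψ : Function.Injective ψ := by
    intro a b hab
    apply e.injective
    exact Subtype.ext hab
  obtain ⟨L, hL1, hL2, H, hH, ⟨f⟩⟩ := Cfsg.Agent.Lib.Helper76.exists_frobenius_of_units_hom ψ (by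
    intro h hh r hr
    have h1 : ((ψ h : ZMod p) - 1) * r = 0 := by rw [sub_mul, hr, one_mul, sub_self]
    rcases mul_eq_zero.mp h1 with h2 | h2
    · exfalso
      apply hh
      apply hψ
      rw [map_one]
      apply Units.ext
      rw [Units.val_one]
      exact sub_eq_zero.mp h2
    · exact h2)
  exact ⟨L, hL1, hL2, H, hH, ⟨f⟩⟩

end Cfsg.Agent.S4299
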