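import Cfsg.Statements.S4300
import Mathlib

set_option autoImplicit false
open Cfsg

namespace Cfsg.Agent.S4300

/-- Let G act faithfully and primitively on a set X, and suppose the stabilizer of some point is a simple group. Then either G is simple, or G has a normal subgroup, neither trivial nor the whole group, that acts regularly on X (transitively with trivial point stabilizers). -/
theorem result {G : Type*} [Group G] {X : Type*} [MulAction G X] [FaithfulSMul G X]
    (hprim : MulAction.IsPreprimitive G X) (x : X) (hsimple : IsSimpleGroup (MulAction.stabilizer G x)) :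
    IsSimpleGroup G ∨ ∃ N : Subgroup G, N.Normal ∧ N ≠ ⊥ ∧ N ≠ ⊤ ∧
      MulAction.IsPretransitive N X ∧ ∀ y : X, MulAction.stabilizer N y = ⊥ := by
  classical
  by_cases hG : IsSimpleGroup G
  · exact Or.inl hG
  right
  have hnt : Nontrivial G := by
    obtain ⟨a, b, hab⟩ := hsimple.toNontrivial
    exact ⟨⟨a.1, b.1, fun h => hab (Subtype.ext h)⟩⟩
  have : ∃ N : Subgroup G, N.Normal ∧ N ≠ ⊥ ∧ N ≠ ⊤ := by
    by_contra hcon
    apply hG
    refine ⟨fun N hN => ?_⟩
    by_contra h2
    push Not at h2
    exact hcon ⟨N, hN, h2.1, h2.2⟩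
  obtain ⟨N, hN, hNbot, hNtop⟩ := this
  have hfix : MulAction.fixedPoints N X ≠ Set.univ := by
    intro h
    apply hNbot
    rw [Subgroup.eq_bot_iff_forall]
    intro n hn
    apply FaithfulSMul.eq_of_smul_eq_smul (α := X)
    intro y
    have hy : y ∈ MulAction.fixedPoints N X := by rw [h]; trivial
    have := hy ⟨n, hn⟩
    simpa using this
  have htr : MulAction.IsPretransitive N X :=
    MulAction.IsQuasiPreprimitive.isPretransitive_of_normal hfix
  have hGtr : MulAction.IsPretransitive G X := hprim.toIsPretransitive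
  refine ⟨N, hN, hNbot, hNtop, htr, ?_⟩
  have hnorm : (N.subgroupOf (MulAction.stabilizer G x)).Normal := hN.subgroupOf _
  rcases hsimple.eq_bot_or_eq_top_of_normal _ hnorm with hb | ht
  · intro y
    rw [Subgroup.eq_bot_iff_forall]
    rintro ⟨n, hn⟩ hny
    obtain ⟨g, rfl⟩ := MulAction.exists_smul_eq G x y
    have h1 : g⁻¹ * n * g ∈ MulAction.stabilizer G x := by
      rw [MulAction.mem_stabilizer_iff]
      have h2 : n • g • x = g • x := hny
      rw [mul_smul, mul_smul, h2, inv_smul_smul]
    have h3 : g⁻¹ * n * g ∈ N := by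
      have := hN.conj_mem n hn g⁻¹
      simpa using this
    have h4 : (⟨g⁻¹ * n * g, h1⟩ : MulAction.stabilizer G x) ∈
        N.subgroupOf (MulAction.stabilizer G x) := by
      rw [Subgroup.mem_subgroupOf]; exact h3
    rw [hb, Subgroup.mem_bot] at h4
    have h5 : g⁻¹ * n * g = 1 := congrArg Subtype.val h4
    have h6 : n = 1 := by
      have : n = g * (g⁻¹ * n * g) * g⁻¹ := by group
      rw [this, h5]; group
    exact Subtype.ext h6
  · exfalso
    apply hNtop
    rw [Subgroup.eq_top_iff']
    intro g
    obtain ⟨⟨n, hn⟩, hng⟩ := MulAction.exists_smul_eq N x (g • x)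
    have hng' : n • x = g • x := hng
    have h1 : n⁻¹ * g ∈ MulAction.stabilizer G x := by
      rw [MulAction.mem_stabilizer_iff, mul_smul, ← hng', inv_smul_smul]
    have h2 : n⁻¹ * g ∈ N := by
      have : (⟨n⁻¹ * g, h1⟩ : MulAction.stabilizer G x) ∈
          N.subgroupOf (MulAction.stabilizer G x) := by rw [ht]; trivial
      rwa [Subgroup.mem_subgroupOf] at this
    have : g = n * (n⁻¹ * g) := by group
    rw [this]
    exact N.mul_mem hn h2

end Cfsg.Agent.S4300
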