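-- Statement S4301: one-point extension criterion (Witt).
import Cfsg.Statements.S4301
import Mathlib

set_option autoImplicit false
open Cfsg

namespace Cfsg.Agent.S4301

/-- `2`-transitivity on the points of `X` extracted from `k`-transitivity, `2 ≤ k`. -/
theorem two_trans {X : Type*} (G : Subgroup (Equiv.Perm (Option X)))
    (k : ℕ) (hk : 2 ≤ k) (hkX : Nonempty (Fin k ↪ X))
    (htrans : ∀ a b : Fin k ↪ X, ∃ f ∈ G, ∀ i, f (some (a i)) = some (b i))
    (a b c d : X) (hab : a ≠ b) (hcd : c ≠ d) :
    ∃ f ∈ G, f (some a) = some c ∧ f (some b) = some d := by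
  obtain ⟨e⟩ := hkX
  have hcard : (k : ENat) ≤ ENat.card X := by
    have h1 := ENat.card_le_card_of_injective e.injective
    simpa using h1
  have hsurj := Fin.Embedding.restrictSurjective_of_le_ENatCard hk hcard
  obtain ⟨u, hu⟩ := hsurj (Function.Embedding.embFinTwo hab)
  obtain ⟨v, hv⟩ := hsurj (Function.Embedding.embFinTwo hcd)
  obtain ⟨f, hf, hfi⟩ := htrans u v
  have hu0 : u (Fin.castLE hk 0) = a := by
    have h1 := congrArg (fun w => w 0) hu
    simp at h1
    exact h1
  have hu1 : u (Fin.castLE hk 1) = b := by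
    have h1 := congrArg (fun w => w 1) hu
    simp at h1
    exact h1
  have hv0 : v (Fin.castLE hk 0) = c := by
    have h1 := congrArg (fun w => w 0) hv
    simp at h1
    exact h1
  have hv1 : v (Fin.castLE hk 1) = d := by
    have h1 := congrArg (fun w => w 1) hv
    simp at h1
    exact h1
  refine ⟨f, hf, ?_, ?_⟩
  · rw [← hu0, hfi, hv0]
  · rw [← hu1, hfi, hv1]

/-- The double coset description `G ∪ G h G`. -/
def P {X : Type*} (G : Subgroup (Equiv.Perm (Option X))) (h : Equiv.Perm (Option X))
    (f : Equiv.Perm (Option X)) : Prop :=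
  f ∈ G ∨ ∃ a ∈ G, ∃ b ∈ G, f = a * h * b

theorem P_mul_right {X : Type*} (G : Subgroup (Equiv.Perm (Option X))) (h : Equiv.Perm (Option X))
    (f c : Equiv.Perm (Option X)) (hf : P G h f) (hc : c ∈ G) : P G h (f * c) := by
  rcases hf with hf | ⟨a, ha, b, hb, rfl⟩
  · exact Or.inl (mul_mem hf hc)
  · exact Or.inr ⟨a, ha, b * c, mul_mem hb hc, by group⟩

theorem P_mul_left {X : Type*} (G : Subgroup (Equiv.Perm (Option X))) (h : Equiv.Perm (Option X))
    (f c : Equiv.Perm (Option X)) (hf : P G h f) (hc : c ∈ G) : P G h (c * f) := by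
  rcases hf with hf | ⟨a, ha, b, hb, rfl⟩
  · exact Or.inl (mul_mem hc hf)
  · exact Or.inr ⟨c * a, mul_mem hc ha, b, hb, by group⟩

/-- One-point extension of a multiply transitive group. Let X be a set and G a group of permutations of Option X (the set X with one extra point ∗ = none) all of whose elements fix ∗, such that G is k-transitive on the points of X for some k ≥ 2, X having at least k points. Suppose a permutation h of Option X and an element g of G satisfy: h interchanges ∗ with a point x of X and fixes a point y of X; g interchanges x and y; (g h)³ and h² lie in G; and for every f in G fixing x, the product h f h lies in G and fixes x. Then an element of the group generated by G and h fixes ∗ exactly when it lies in G, and that group acts (k+1)-transitively on Option X. -/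
theorem result {X : Type*} (G : Subgroup (Equiv.Perm (Option X))) (hfix : ∀ f ∈ G, f none = none)
    (k : ℕ) (hk : 2 ≤ k) (hkX : Nonempty (Fin k ↪ X))
    (htrans : ∀ a b : Fin k ↪ X, ∃ f ∈ G, ∀ i, f (some (a i)) = some (b i))
    (h g : Equiv.Perm (Option X)) (hg : g ∈ G) (x y : X)
    (h1 : h none = some x) (h2 : h (some x) = none) (h3 : h (some y) = some y)
    (h4 : g (some x) = some y) (h5 : g (some y) = some x)
    (h6 : (g * h) ^ 3 ∈ G) (h7 : h ^ 2 ∈ G)
    (h8 : ∀ f ∈ G, f (some x) = some x → h * f * h ∈ G ∧ (h * f * h) (some x) = some x) :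
    (∀ f ∈ Subgroup.closure ((G : Set (Equiv.Perm (Option X))) ∪ {h}), f none = none ↔ f ∈ G) ∧
      MulAction.IsMultiplyPretransitive (Subgroup.closure ((G : Set (Equiv.Perm (Option X))) ∪ {h})) (Option X) (k + 1) := by
  classical
  have hxy : x ≠ y := by
    intro hxy
    subst hxy
    rw [h2] at h3
    exact Option.some_ne_none x h3.symm
  have hs : h * h ∈ G := by rw [← pow_two]; exact h7
  have h6' : g * h * (g * h) * (g * h) ∈ G := by rw [← pow_two, ← pow_succ]; exact h6
  -- the key claim: `h G h ⊆ G ∪ G h G`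
  have key : ∀ a ∈ G, P G h (h * a * h) := by
    intro a ha
    by_cases hax : a (some x) = some x
    · exact Or.inl (h8 a ha hax).1
    · have hne : a (some x) ≠ none := by
        intro hc
        have h9 := a.injective (hc.trans (hfix a ha).symm)
        exact Option.some_ne_none x h9
      obtain ⟨z, hz⟩ := Option.ne_none_iff_exists'.mp hne
      have hzx : x ≠ z := by
        intro hc
        subst hc
        exact hax hz
      obtain ⟨b, hb, hb1, hb2⟩ := two_trans G k hk hkX htrans x z x y hzx hxy
      have hbi : b⁻¹ (some x) = some x := by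
        rw [Equiv.Perm.inv_eq_iff_eq, hb1]
      have hc1 : (g⁻¹ * b * a) (some x) = some x := by
        rw [Equiv.Perm.mul_apply, Equiv.Perm.mul_apply, hz, hb2, Equiv.Perm.inv_eq_iff_eq, h4]
      have hcG : g⁻¹ * b * a ∈ G := mul_mem (mul_mem (inv_mem hg) hb) ha
      have e1 : h * a * h = (h * b⁻¹ * h) * (h * h)⁻¹ * g⁻¹ * (g * h * (g * h) * (g * h)) * (h * h)⁻¹ * h
          * (g⁻¹ * (h * h)⁻¹ * (h * (g⁻¹ * b * a) * h)) := by group
      rw [e1]
      refine Or.inr ⟨_, ?_, _, ?_, rfl⟩
      · exact mul_mem (mul_mem (mul_mem (mul_mem (h8 _ (inv_mem hb) hbi).1 (inv_mem hs))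
          (inv_mem hg)) h6') (inv_mem hs)
      · exact mul_mem (mul_mem (inv_mem hg) (inv_mem hs)) (h8 _ hcG hc1).1
  have hmulh : ∀ f, P G h f → P G h (h * f) := by
    intro f hf
    rcases hf with hf | ⟨a, ha, b, hb, rfl⟩
    · exact Or.inr ⟨1, one_mem _, f, hf, by group⟩
    · have e1 : h * (a * h * b) = (h * a * h) * b := by group
      rw [e1]
      exact P_mul_right G h _ b (key a ha) hb
  have hP : ∀ f ∈ Subgroup.closure ((G : Set (Equiv.Perm (Option X))) ∪ {h}), P G h f := by
    intro f hf
    induction hf using Subgroup.closure_induction_left with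
    | one => exact Or.inl (one_mem _)
    | mul_left u hu v hv ih =>
      rcases hu with hu | hu
      · exact P_mul_left G h v u ih hu
      · rw [Set.mem_singleton_iff] at hu
        subst hu
        exact hmulh v ih
    | inv_mul_cancel u hu v hv ih =>
      rcases hu with hu | hu
      · exact P_mul_left G h v u⁻¹ ih (inv_mem hu)
      · rw [Set.mem_singleton_iff] at hu
        subst hu
        have e1 : u⁻¹ * v = (u * u)⁻¹ * (u * v) := by group
        rw [e1]
        exact P_mul_left G u _ _ (hmulh v ih) (inv_mem hs)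
  have hGM : ∀ f ∈ G, f ∈ Subgroup.closure ((G : Set (Equiv.Perm (Option X))) ∪ {h}) :=
    fun f hf => Subgroup.subset_closure (Or.inl hf)
  have hhM : h ∈ Subgroup.closure ((G : Set (Equiv.Perm (Option X))) ∪ {h}) :=
    Subgroup.subset_closure (Or.inr rfl)
  refine ⟨?_, ?_⟩
  · intro f hf
    constructor
    · intro hfn
      rcases hP f hf with hf' | ⟨a, ha, b, hb, rfl⟩
      · exact hf'
      · exfalso
        rw [Equiv.Perm.mul_apply, Equiv.Perm.mul_apply, hfix b hb, h1] at hfn
        have h9 := a.injective (hfn.trans (hfix a ha).symm)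
        exact Option.some_ne_none x h9
    · exact hfix f
  · rw [MulAction.isMultiplyPretransitive_iff]
    have htr : ∀ p : Option X, ∃ m ∈ Subgroup.closure ((G : Set (Equiv.Perm (Option X))) ∪ {h}),
        m p = none := by
      intro p
      cases p with
      | none => exact ⟨1, one_mem _, rfl⟩
      | some z =>
        by_cases hzx : z = x
        · subst hzx; exact ⟨h, hhM, h2⟩
        · obtain ⟨f, hf, hf1, hf2⟩ := two_trans G k hk hkX htrans z x x z hzx (Ne.symm hzx)
          exact ⟨h * f, mul_mem hhM (hGM f hf), by rw [Equiv.Perm.mul_apply, hf1, h2]⟩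
    have hnorm : ∀ a : Fin (k + 1) ↪ Option X,
        ∃ m ∈ Subgroup.closure ((G : Set (Equiv.Perm (Option X))) ∪ {h}), ∃ a' : Fin k ↪ X,
          (∀ i : Fin k, m (a i.castSucc) = some (a' i)) ∧ m (a (Fin.last k)) = none := by
      intro a
      obtain ⟨m, hm, hm0⟩ := htr (a (Fin.last k))
      have hne : ∀ i : Fin k, ∃ z, m (a i.castSucc) = some z := by
        intro i
        rw [← Option.ne_none_iff_exists']
        intro hc
        have h9 := a.injective (m.injective (hc.trans hm0.symm))
        exact (Fin.castSucc_lt_last i).ne h9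
      choose a' ha' using hne
      refine ⟨m, hm, ⟨a', ?_⟩, ha', hm0⟩
      intro i j hij
      have h9 : m (a i.castSucc) = m (a j.castSucc) := by rw [ha', ha', hij]
      exact Fin.castSucc_injective _ (a.injective (m.injective h9))
    intro a b
    obtain ⟨ma, hma, a', ha', ha0⟩ := hnorm a
    obtain ⟨mb, hmb, b', hb', hb0⟩ := hnorm b
    obtain ⟨f, hf, hfi⟩ := htrans a' b'
    refine ⟨⟨mb⁻¹ * f * ma, mul_mem (mul_mem (inv_mem hmb) (hGM f hf)) hma⟩, ?_⟩
    ext i : 1
    show (mb⁻¹ * f * ma) (a i) = b i
    rw [Equiv.Perm.mul_apply, Equiv.Perm.mul_apply, Equiv.Perm.inv_eq_iff_eq]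
    rcases Fin.eq_castSucc_or_eq_last i with ⟨j, rfl⟩ | rfl
    · rw [ha', hfi, hb']
    · rw [ha0, hfix f hf, hb0]

end Cfsg.Agent.S4301
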