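import Cfsg.Statements.S4309
import Mathlib

set_option autoImplicit false
open Cfsg

namespace Cfsg.Agent.S4309

theorem relIndex_normal_dvd_index {G : Type*} [Group G] [Finite G]
    (H A : Subgroup G) [A.Normal] : H.relIndex A ∣ H.index := by
  have h1 : Nat.card (H ⊓ A : Subgroup G) * H.relIndex A = Nat.card A := by
    rw [← Subgroup.inf_relIndex_right, ← Subgroup.relIndex_bot_left, ← Subgroup.relIndex_bot_left]
    exact Subgroup.relIndex_mul_relIndex _ _ _ bot_le inf_le_right
  have h2 : Nat.card (H ⊓ A : Subgroup G) * A.relIndex H = Nat.card H := by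
    rw [← Subgroup.inf_relIndex_left, ← Subgroup.relIndex_bot_left, ← Subgroup.relIndex_bot_left]
    exact Subgroup.relIndex_mul_relIndex _ _ _ bot_le inf_le_left
  have h3 : Nat.card A * A.relIndex H = Nat.card (H ⊔ A : Subgroup G) := by
    rw [← Subgroup.relIndex_sup_right, ← Subgroup.relIndex_bot_left, ← Subgroup.relIndex_bot_left]
    exact Subgroup.relIndex_mul_relIndex _ _ _ bot_le le_sup_right
  have h4 : Nat.card H * H.relIndex (H ⊔ A) = Nat.card (H ⊔ A : Subgroup G) := by
    rw [← Subgroup.relIndex_bot_left, ← Subgroup.relIndex_bot_left]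
    exact Subgroup.relIndex_mul_relIndex _ _ _ bot_le le_sup_left
  have h5 : H.relIndex (H ⊔ A) = H.relIndex A := by
    have hpos : 0 < Nat.card (H ⊓ A : Subgroup G) * A.relIndex H := by
      rw [h2]; exact Nat.card_pos
    have : Nat.card (H ⊓ A : Subgroup G) * A.relIndex H * H.relIndex (H ⊔ A)
        = Nat.card (H ⊓ A : Subgroup G) * A.relIndex H * H.relIndex A := by
      calc Nat.card (H ⊓ A : Subgroup G) * A.relIndex H * H.relIndex (H ⊔ A)
          = Nat.card H * H.relIndex (H ⊔ A) := by rw [h2]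
        _ = Nat.card A * A.relIndex H := by rw [h4, h3]
        _ = Nat.card (H ⊓ A : Subgroup G) * H.relIndex A * A.relIndex H := by rw [h1]
        _ = Nat.card (H ⊓ A : Subgroup G) * A.relIndex H * H.relIndex A := by ring
    exact Nat.eq_of_mul_eq_mul_left hpos this
  rw [← h5]
  exact Subgroup.relIndex_dvd_index_of_le le_sup_left

/-- Let `π` be a set of primes, `G` a finite group with a Hall `π`-subgroup `H` (every prime divisor of the order of `H` lies in `π` and no prime of `π` divides its index), and `A` a normal subgroup of `G`. Then `H ∩ A` is a Hall `π`-subgroup of `A` and the image of `H` in `G/A` is a Hall `π`-subgroup of `G/A`. -/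
theorem result {G : Type*} [Group G] [Finite G] (π : Set ℕ)
    (H A : Subgroup G) [A.Normal] (hH : Cfsg.IsPiHall π H) :
    Cfsg.IsPiHall π ((H ⊓ A).subgroupOf A) ∧ Cfsg.IsPiHall π (H.map (QuotientGroup.mk' A)) := by
  obtain ⟨h1, h2⟩ := hH
  refine ⟨⟨fun p hp hdvd => h1 p hp ?_, fun p hp hpπ hdvd => h2 p hp hpπ ?_⟩,
    ⟨fun p hp hdvd => h1 p hp ?_, fun p hp hpπ hdvd => h2 p hp hpπ ?_⟩⟩
  · have e : Nat.card ((H ⊓ A).subgroupOf A) = Nat.card (H ⊓ A : Subgroup G) :=
      Nat.card_congr (Subgroup.subgroupOfEquivOfLe inf_le_right).toEquiv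
    rw [e] at hdvd
    exact hdvd.trans (Subgroup.card_dvd_of_le inf_le_left)
  · have e : ((H ⊓ A).subgroupOf A).index = H.relIndex A := by
      rw [← Subgroup.inf_relIndex_right]; rfl
    rw [e] at hdvd
    exact hdvd.trans (relIndex_normal_dvd_index H A)
  · exact hdvd.trans (Subgroup.card_map_dvd _ _)
  · rw [Subgroup.index_map, QuotientGroup.ker_mk'] at hdvd
    have hs : (QuotientGroup.mk' A).range = ⊤ :=
      MonoidHom.range_eq_top.mpr (QuotientGroup.mk'_surjective A)
    rw [hs, Subgroup.index_top, mul_one] at hdvd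
    exact hdvd.trans (Subgroup.index_dvd_of_le le_sup_left)

end Cfsg.Agent.S4309
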