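import Cfsg.Statements.S4314

set_option autoImplicit false
open Cfsg

namespace Cfsg.Agent.S4314

variable {G : Type*} [Group G]

theorem comm_mem_of_index (N : Subgroup G) [N.Normal] (hN : N.index = 1 ∨ N.index.Prime)
    (a b : G) : a * b * a⁻¹ * b⁻¹ ∈ N := by
  rcases hN with h1 | hp
  · rw [Subgroup.index_eq_one] at h1
    rw [h1]; trivial
  · haveI : Fact N.index.Prime := ⟨hp⟩
    haveI : IsCyclic (G ⧸ N) :=
      isCyclic_of_prime_card (p := N.index) (Subgroup.index_eq_card N).symm
    rw [← QuotientGroup.eq_one_iff]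
    have hc : ∀ u v : G ⧸ N, u * v = v * u := fun u v => mul_comm' u v
    simp only [QuotientGroup.mk_mul, QuotientGroup.mk_inv]
    rw [hc (a : G ⧸ N) (b : G ⧸ N)]
    simp

theorem caseA
    (h : ∀ x : G, (Subgroup.centralizer ({x} : Set G)).index = 1 ∨
      ((Subgroup.centralizer ({x} : Set G)).index).Prime)
    (hn : ∀ x : G, (Subgroup.centralizer ({x} : Set G)).Normal) :
    Subgroup.upperCentralSeries G 2 = ⊤ := by
  rw [eq_top_iff]
  intro a _
  rw [show (2:ℕ) = 1 + 1 from rfl, Subgroup.mem_upperCentralSeries_succ_iff]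
  intro b
  rw [Subgroup.upperCentralSeries_one, Subgroup.mem_center_iff]
  intro c
  haveI := hn c
  have := comm_mem_of_index _ (h c) a b
  rw [Subgroup.mem_centralizer_iff] at this
  exact this c rfl


theorem caseB [Finite G]
    (h : ∀ x : G, (Subgroup.centralizer ({x} : Set G)).index = 1 ∨
      ((Subgroup.centralizer ({x} : Set G)).index).Prime)
    (x : G) (hx : ¬ (Subgroup.centralizer ({x} : Set G)).Normal) :
    ∃ p q : ℕ, p.Prime ∧ q.Prime ∧ p ≠ q ∧ Nat.card (G ⧸ Subgroup.center G) = p * q ∧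
      ¬ IsMulCommutative (G ⧸ Subgroup.center G) := by
  classical
  have hmemcent : ∀ a g : G, g ∈ Subgroup.centralizer ({a} : Set G) ↔ a * g = g * a := by
    intro a g
    rw [Subgroup.mem_centralizer_iff]; simp
  set C := Subgroup.centralizer ({x} : Set G) with hCdef
  have hmemC : ∀ g : G, g ∈ C ↔ x * g = g * x := fun g => hmemcent x g
  have hCne : C ≠ ⊤ := fun e => hx (e ▸ (inferInstance : (⊤ : Subgroup G).Normal))
  have hp : C.index.Prime := by
    rcases h x with h1 | h2
    · exact absurd (Subgroup.index_eq_one.1 h1) hCne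
    · exact h2
  set p := C.index with hpdef
  haveI : Fact p.Prime := ⟨hp⟩
  -- maximality of C
  have hmax : ∀ H : Subgroup G, C ≤ H → H = C ∨ H = ⊤ := by
    intro H hH
    have e := Subgroup.relIndex_mul_index hH
    have hd : H.index ∣ p := Dvd.intro_left _ e
    rcases (Nat.dvd_prime hp).1 hd with h1 | h2
    · right; exact Subgroup.index_eq_one.1 h1
    · left
      rw [h2] at e
      have h1 : C.relIndex H = 1 := by
        have hp0 : 0 < p := hp.pos
        have : C.relIndex H * p = 1 * p := by rw [one_mul]; exact e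
        exact Nat.eq_of_mul_eq_mul_right hp0 this
      exact le_antisymm (Subgroup.relIndex_eq_one.1 h1) hH
  have hnorm : Subgroup.normalizer (C : Set G) = C := by
    rcases hmax _ Subgroup.le_normalizer with h1 | h2
    · exact h1
    · exact absurd (Subgroup.normalizer_eq_top_iff.1 h2) hx
  set K := C.normalCore with hKdef
  have hKC : K ≤ C := Subgroup.normalCore_le C
  have hKne : K ≠ C := fun e => hx (e ▸ (inferInstance : K.Normal))
  have hKmem : ∀ k ∈ K, ∀ b : G, b * k * b⁻¹ ∈ C := fun k hk b => hk b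
  -- a p-element outside C
  obtain ⟨y, hyP, hyC⟩ : ∃ y : G, (∃ k : ℕ, y ^ p ^ k = 1) ∧ y ∉ C := by
    let P : Sylow p G := default
    by_contra hcon
    push Not at hcon
    have hPC : (P : Subgroup G) ≤ C := by
      intro z hz
      by_contra hzC
      obtain ⟨k, hk⟩ := P.isPGroup' ⟨z, hz⟩
      exact hzC (hcon z ⟨k, by simpa using congrArg Subtype.val hk⟩)
    exact P.not_dvd_index (Subgroup.index_dvd_of_le hPC)
  have hY : IsPGroup p (Subgroup.zpowers y) := by
    obtain ⟨k, hk⟩ := hyP
    rintro ⟨z, hz⟩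
    obtain ⟨n, rfl⟩ := Subgroup.mem_zpowers_iff.1 hz
    refine ⟨k, ?_⟩
    ext
    simp only [Subgroup.coe_pow, Subgroup.coe_one]
    rw [← zpow_natCast, ← zpow_mul, mul_comm, zpow_mul, zpow_natCast, hk, one_zpow]
  set D := Subgroup.centralizer ({y} : Set G) with hDdef
  have hmemD : ∀ g : G, g ∈ D ↔ y * g = g * y := fun g => hmemcent y g
  have hYD : Subgroup.zpowers y ≤ D := (Subgroup.zpowers_le).2 ((hmemD y).2 rfl)
  have hDne : D ≠ ⊤ := by
    intro e
    have : x ∈ D := e ▸ Subgroup.mem_top x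
    exact hyC ((hmemC y).2 ((hmemD x).1 this).symm)
  have hr : D.index.Prime := by
    rcases h y with h1 | h2
    · exact absurd (Subgroup.index_eq_one.1 h1) hDne
    · exact h2
  set r := D.index with hrdef
  have hrelle : ∀ H : Subgroup G, C.relIndex H ≤ p := by
    intro H
    have := Subgroup.relIndex_le_of_le_right (H := C) (le_top : H ≤ ⊤)
      (by rw [Subgroup.relIndex_top_right]; exact hp.ne_zero)
    rwa [Subgroup.relIndex_top_right] at this
  have hrelY : C.relIndex (Subgroup.zpowers y) = p := by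
    have h1 : C.relIndex (Subgroup.zpowers y) ≠ 1 :=
      fun e => hyC (Subgroup.relIndex_eq_one.1 e (Subgroup.mem_zpowers y))
    obtain ⟨n, hn⟩ := hY.index (C.subgroupOf (Subgroup.zpowers y))
    have h2 := hrelle (Subgroup.zpowers y)
    change C.relIndex (Subgroup.zpowers y) = p ^ n at hn
    rw [hn] at h1 h2 ⊢
    rcases n with _ | _ | n
    · simp at h1
    · simp
    · exfalso
      have : p ^ 1 < p ^ (n + 1 + 1) := Nat.pow_lt_pow_right hp.one_lt (by omega)
      rw [pow_one] at this
      omega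
  -- transitivity of ⟨y⟩ on cosets of C
  have htrans : ∀ g : G, ∃ z ∈ Subgroup.zpowers y, z⁻¹ * g ∈ C := by
    have hstab : MulAction.stabilizer (Subgroup.zpowers y) (((1 : G) : G ⧸ C)) =
        C.subgroupOf (Subgroup.zpowers y) := by
      ext ⟨z, hz⟩
      rw [MulAction.mem_stabilizer_iff, Subgroup.mem_subgroupOf]
      change ((z * 1 : G) : G ⧸ C) = ((1 : G) : G ⧸ C) ↔ z ∈ C
      rw [QuotientGroup.eq]
      simp
    have horb : MulAction.orbit (Subgroup.zpowers y) (((1 : G) : G ⧸ C)) = Set.univ := by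
      rw [Set.eq_univ_iff_ncard, ← MulAction.index_stabilizer, hstab, ← Subgroup.index_eq_card]
      exact hrelY
    intro g
    have hg : ((g : G) : G ⧸ C) ∈ MulAction.orbit (Subgroup.zpowers y) (((1 : G) : G ⧸ C)) :=
      horb ▸ Set.mem_univ _
    obtain ⟨⟨z, hz⟩, hzg⟩ := hg
    refine ⟨z, hz, ?_⟩
    change ((z * 1 : G) : G ⧸ C) = ((g : G) : G ⧸ C) at hzg
    rw [QuotientGroup.eq] at hzg
    simpa using hzg
  -- D ⊓ C ≤ K
  have hDCK : D ⊓ C ≤ K := by
    intro d hd b
    obtain ⟨z, hz, hzb⟩ := htrans b⁻¹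
    have hzd : z * d = d * z := by
      have hle : Subgroup.zpowers y ≤ Subgroup.centralizer ({d} : Set G) :=
        (Subgroup.zpowers_le).2 ((hmemcent d y).2 ((hmemD d).1 hd.1).symm)
      exact ((hmemcent d z).1 (hle hz)).symm
    have e : z⁻¹ * d * z = d := by rw [mul_assoc, ← hzd, inv_mul_cancel_left]
    have e2 : b * d * b⁻¹ = (z⁻¹ * b⁻¹)⁻¹ * (z⁻¹ * d * z) * (z⁻¹ * b⁻¹) := by group
    rw [e2, e]
    exact C.mul_mem (C.mul_mem (C.inv_mem hzb) hd.2) hzb
  have hrelD : C.relIndex D = p := by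
    have h2 := hrelle D
    have h1 : C.relIndex (Subgroup.zpowers y) ≤ C.relIndex D :=
      Subgroup.relIndex_le_of_le_right hYD
        (Subgroup.index_ne_zero_of_finite : (C.subgroupOf D).index ≠ 0)
    omega
  have hDCidx : (D ⊓ C).index = p * r := by
    have := Subgroup.relIndex_mul_index (inf_le_left : D ⊓ C ≤ D)
    rw [Subgroup.inf_relIndex_left, hrelD] at this
    exact this.symm
  have hKidx1 : K.relIndex C * p = K.index := Subgroup.relIndex_mul_index hKC
  have hKidx2 : (D ⊓ C).relIndex K * K.index = p * r := by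
    rw [Subgroup.relIndex_mul_index hDCK, hDCidx]
  have hKrel_ne : K.relIndex C ≠ 1 :=
    fun e => hKne (le_antisymm hKC (Subgroup.relIndex_eq_one.1 e))
  have hprod : (D ⊓ C).relIndex K * K.relIndex C = r := by
    have hp0 : 0 < p := hp.pos
    have : (D ⊓ C).relIndex K * K.relIndex C * p = r * p := by
      rw [mul_assoc, hKidx1, hKidx2, mul_comm]
    exact Nat.eq_of_mul_eq_mul_right hp0 this
  have hKrelC : K.relIndex C = r := by
    have hd : K.relIndex C ∣ r := Dvd.intro_left _ hprod
    rcases (Nat.dvd_prime hr).1 hd with h1 | h2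
    · exact absurd h1 hKrel_ne
    · exact h2
  have hKD : K ≤ D := by
    have h1 : (D ⊓ C).relIndex K = 1 := by
      rw [hKrelC] at hprod
      have hr0 : 0 < r := hr.pos
      have : (D ⊓ C).relIndex K * r = 1 * r := by rw [one_mul]; exact hprod
      exact Nat.eq_of_mul_eq_mul_right hr0 this
    exact (Subgroup.relIndex_eq_one.1 h1).trans inf_le_left
  have hKidx : K.index = r * p := by rw [← hKidx1, hKrelC]
  have hxC : x ∈ C := (hmemC x).2 rfl
  have hxK : x ∉ K := by
    intro hxK
    exact hyC ((hmemC y).2 ((hmemD x).1 (hKD hxK)).symm)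
  -- normal closure of x
  set N := Subgroup.normalClosure ({x} : Set G) with hNdef
  have hxN : x ∈ N := Subgroup.subset_normalClosure (Set.mem_singleton x)
  have hNK : N ⊔ K = ⊤ := by
    have hCle : C ≤ N ⊔ K := by
      have hM1 : K ≤ (N ⊔ K) ⊓ C := le_inf le_sup_right hKC
      have hM2 : (N ⊔ K) ⊓ C ≤ C := inf_le_right
      have e := Subgroup.relIndex_mul_relIndex _ _ _ hM1 hM2
      rw [hKrelC] at e
      have hd : K.relIndex ((N ⊔ K) ⊓ C) ∣ r := Dvd.intro _ e
      rcases (Nat.dvd_prime hr).1 hd with h1 | h2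
      · exfalso
        exact hxK (Subgroup.relIndex_eq_one.1 h1 ⟨Subgroup.mem_sup_left hxN, hxC⟩)
      · rw [h2] at e
        have h1 : ((N ⊔ K) ⊓ C).relIndex C = 1 := by
          have hr0 : 0 < r := hr.pos
          have : r * ((N ⊔ K) ⊓ C).relIndex C = r * 1 := by rw [mul_one]; exact e
          exact Nat.eq_of_mul_eq_mul_left hr0 this
        exact (Subgroup.relIndex_eq_one.1 h1).trans inf_le_left
    rcases hmax _ hCle with h1 | h2
    · exact absurd (h1 ▸ (inferInstance : (N ⊔ K).Normal)) hx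
    · exact h2
  have hdecomp : ∀ g : G, ∃ n ∈ N, ∃ k ∈ K, g = n * k := by
    intro g
    have hg : g ∈ N ⊔ K := hNK ▸ Subgroup.mem_top g
    rw [← SetLike.mem_coe, Subgroup.mul_normal] at hg
    obtain ⟨n, hn, k, hk, rfl⟩ := Set.mem_mul.1 hg
    exact ⟨n, hn, k, hk, rfl⟩
  -- K centralizes N
  have hcomm : ∀ n ∈ N, ∀ k ∈ K, n * k = k * n := by
    intro n hn k hk
    have hle : N ≤ Subgroup.centralizer ({k} : Set G) := by
      rw [hNdef, Subgroup.normalClosure]
      rw [Subgroup.closure_le]
      intro a ha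
      rw [Group.mem_conjugatesOfSet_iff] at ha
      obtain ⟨b, hb, hba⟩ := ha
      rw [Set.mem_singleton_iff] at hb
      subst hb
      obtain ⟨c, rfl⟩ := isConj_iff.1 hba
      rw [SetLike.mem_coe, hmemcent]
      have h1 := (hmemC _).1 (hKmem k hk c⁻¹)
      rw [inv_inv] at h1
      -- h1 : b * (c⁻¹ * k * c) = c⁻¹ * k * c * b
      calc k * (c * b * c⁻¹) = c * (c⁻¹ * k * c * b) * c⁻¹ := by group
        _ = c * (b * (c⁻¹ * k * c)) * c⁻¹ := by rw [h1]
        _ = c * b * c⁻¹ * k := by group
    exact ((hmemcent k n).1 (hle hn)).symm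
  -- N ⊓ K is central
  have hcentral : ∀ z ∈ N, z ∈ K → ∀ g : G, g * z = z * g := by
    intro z hzN hzK g
    obtain ⟨n, hn, k, hk, rfl⟩ := hdecomp g
    have e1 : n * z = z * n := hcomm n hn z hzK
    have e2 : z * k = k * z := hcomm z hzN k hk
    calc n * k * z = n * (k * z) := by group
      _ = n * (z * k) := by rw [e2]
      _ = (n * z) * k := by group
      _ = (z * n) * k := by rw [e1]
      _ = z * (n * k) := by group
  -- K is central
  have hKcenter : K ≤ Subgroup.center G := by
    intro k hk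
    by_contra hkZ
    set E := Subgroup.centralizer ({k} : Set G) with hEdef
    have hEne : E ≠ ⊤ := by
      intro e
      apply hkZ
      rw [Subgroup.mem_center_iff]
      intro g
      have : g ∈ E := e ▸ Subgroup.mem_top g
      exact ((hmemcent k g).1 this).symm
    have hyE : y ∈ E := (hmemcent k y).2 ((hmemD k).1 (hKD hk)).symm
    have hCE : ¬ C ≤ E := by
      intro hle
      rcases hmax E hle with h1 | h2
      · exact hyC (h1 ▸ hyE)
      · exact hEne h2
    set F := Subgroup.centralizer ({x * k} : Set G) with hFdef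
    have hFle : F ≤ C ⊓ E := by
      intro g hg
      have hg' := (hmemcent (x * k) g).1 hg
      obtain ⟨n, hn, k', hk', rfl⟩ := hdecomp g
      have hk'x : x * k' = k' * x := (hmemC k').1 (hKC hk')
      have hkx : x * k = k * x := (hmemC k).1 (hKC hk)
      have hnk : n * k = k * n := hcomm n hn k hk
      have hnk' : n * k' = k' * n := hcomm n hn k' hk'
      -- z = x⁻¹ n⁻¹ x n = k' k k'⁻¹ k⁻¹
      have hz : x⁻¹ * n⁻¹ * x * n = k' * k * k'⁻¹ * k⁻¹ := by
        have e1 : x * n * (k * k') = n * x * (k' * k) := by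
          calc x * n * (k * k') = x * (n * k) * k' := by group
            _ = x * (k * n) * k' := by rw [hnk]
            _ = x * k * (n * k') := by group
            _ = n * k' * (x * k) := hg'
            _ = n * (k' * x) * k := by group
            _ = n * (x * k') * k := by rw [hk'x]
            _ = n * x * (k' * k) := by group
        calc x⁻¹ * n⁻¹ * x * n = (n * x)⁻¹ * (x * n * (k * k')) * (k * k')⁻¹ := by group
          _ = (n * x)⁻¹ * (n * x * (k' * k)) * (k * k')⁻¹ := by rw [e1]
          _ = k' * k * k'⁻¹ * k⁻¹ := by group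
      have hzN : x⁻¹ * n⁻¹ * x * n ∈ N := by
        have hN' : N.Normal := Subgroup.normalClosure_normal
        have h1 : n⁻¹ * x * n⁻¹⁻¹ ∈ N := hN'.conj_mem x hxN n⁻¹
        rw [inv_inv] at h1
        have : x⁻¹ * n⁻¹ * x * n = x⁻¹ * (n⁻¹ * x * n) := by group
        rw [this]
        exact N.mul_mem (N.inv_mem hxN) h1
      have hzK : x⁻¹ * n⁻¹ * x * n ∈ K := by
        rw [hz]
        exact K.mul_mem (K.mul_mem (K.mul_mem hk' hk) (K.inv_mem hk')) (K.inv_mem hk)
      have hzc := hcentral _ hzN hzK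
      -- n normalizes C
      have hnC : n ∈ C := by
        rw [← hnorm, Subgroup.mem_normalizer_iff]
        intro c
        rw [hmemC, hmemC]
        have key : x * (n * c * n⁻¹) = n * (x * (x⁻¹ * n⁻¹ * x * n)) * c * n⁻¹ := by group
        have key2 : n * c * n⁻¹ * x = n * c * (x * (x⁻¹ * n⁻¹ * x * n)) * n⁻¹ := by group
        constructor
        · intro hc
          rw [key, key2]
          have : x * (x⁻¹ * n⁻¹ * x * n) * c = c * (x * (x⁻¹ * n⁻¹ * x * n)) := by
            calc x * (x⁻¹ * n⁻¹ * x * n) * c = x * ((x⁻¹ * n⁻¹ * x * n) * c) := by group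
              _ = x * (c * (x⁻¹ * n⁻¹ * x * n)) := by rw [hzc c]
              _ = (x * c) * (x⁻¹ * n⁻¹ * x * n) := by group
              _ = (c * x) * (x⁻¹ * n⁻¹ * x * n) := by rw [hc]
              _ = c * (x * (x⁻¹ * n⁻¹ * x * n)) := by group
          calc n * (x * (x⁻¹ * n⁻¹ * x * n)) * c * n⁻¹
              = n * (x * (x⁻¹ * n⁻¹ * x * n) * c) * n⁻¹ := by group
            _ = n * (c * (x * (x⁻¹ * n⁻¹ * x * n))) * n⁻¹ := by rw [this]
            _ = n * c * (x * (x⁻¹ * n⁻¹ * x * n)) * n⁻¹ := by group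
        · intro hc
          rw [key, key2] at hc
          have h3 : x * (x⁻¹ * n⁻¹ * x * n) * c = c * (x * (x⁻¹ * n⁻¹ * x * n)) := by
            have this : n⁻¹ * (n * (x * (x⁻¹ * n⁻¹ * x * n)) * c * n⁻¹) * n =
                n⁻¹ * (n * c * (x * (x⁻¹ * n⁻¹ * x * n)) * n⁻¹) * n := by rw [hc]
            calc x * (x⁻¹ * n⁻¹ * x * n) * c
                = n⁻¹ * (n * (x * (x⁻¹ * n⁻¹ * x * n)) * c * n⁻¹) * n := by group
              _ = n⁻¹ * (n * c * (x * (x⁻¹ * n⁻¹ * x * n)) * n⁻¹) * n := this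
              _ = c * (x * (x⁻¹ * n⁻¹ * x * n)) := by group
          have h4 : (x * c) * (x⁻¹ * n⁻¹ * x * n) = (c * x) * (x⁻¹ * n⁻¹ * x * n) := by
            calc (x * c) * (x⁻¹ * n⁻¹ * x * n) = x * (c * (x⁻¹ * n⁻¹ * x * n)) := by group
              _ = x * ((x⁻¹ * n⁻¹ * x * n) * c) := by rw [hzc c]
              _ = x * (x⁻¹ * n⁻¹ * x * n) * c := by group
              _ = c * (x * (x⁻¹ * n⁻¹ * x * n)) := h3
              _ = (c * x) * (x⁻¹ * n⁻¹ * x * n) := by group
          exact mul_right_cancel h4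
      have hxn : x * n = n * x := (hmemC n).1 hnC
      have hz1 : k' * k * k'⁻¹ * k⁻¹ = 1 := by
        rw [← hz]
        calc x⁻¹ * n⁻¹ * x * n = x⁻¹ * n⁻¹ * (x * n) := by group
          _ = x⁻¹ * n⁻¹ * (n * x) := by rw [hxn]
          _ = 1 := by group
      have hk'k : k * k' = k' * k := by
        calc k * k' = (k' * k * k'⁻¹ * k⁻¹)⁻¹ * (k' * k) := by group
          _ = k' * k := by rw [hz1]; group
      refine ⟨C.mul_mem hnC (hKC hk'), ?_⟩
      apply (hmemcent k (n * k')).2
      calc k * (n * k') = (k * n) * k' := by group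
        _ = (n * k) * k' := by rw [hnk]
        _ = n * (k * k') := by group
        _ = n * (k' * k) := by rw [hk'k]
        _ = n * k' * k := by group
    have hFC : F ≤ C := hFle.trans inf_le_left
    have hFrel : F.relIndex C ≠ 1 := by
      intro e
      exact hCE ((Subgroup.relIndex_eq_one.1 e).trans (hFle.trans inf_le_right))
    have hFidx : F.relIndex C * p = F.index := Subgroup.relIndex_mul_index hFC
    rcases h (x * k) with h1 | h2
    · rw [← hFdef, ← hFidx] at h1
      have := Nat.eq_one_of_mul_eq_one_right h1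
      exact hFrel this
    · rw [← hFdef, ← hFidx] at h2
      rcases Nat.prime_mul_iff.1 h2 with ⟨_, h4⟩ | ⟨_, h4⟩
      · exact hp.one_lt.ne' h4
      · exact hFrel h4
  have hKeq : Subgroup.center G = K :=
    le_antisymm (Subgroup.normal_le_normalCore.2 (Subgroup.center_le_centralizer _)) hKcenter
  have hcard : Nat.card (G ⧸ Subgroup.center G) = p * r := by
    rw [← Subgroup.index_eq_card, hKeq, hKidx, mul_comm]
  have hnc : ¬ IsMulCommutative (G ⧸ Subgroup.center G) := by
    intro hc
    apply hx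
    refine ⟨fun c hc' g => ?_⟩
    have h1 : g * c * g⁻¹ * c⁻¹ ∈ Subgroup.center G := by
      rw [← QuotientGroup.eq_one_iff]
      simp only [QuotientGroup.mk_mul, QuotientGroup.mk_inv]
      rw [mul_comm' (g : G ⧸ Subgroup.center G) (c : G ⧸ Subgroup.center G)]
      simp
    have h2 : g * c * g⁻¹ * c⁻¹ ∈ C := (hKeq ▸ hKC) h1
    have : g * c * g⁻¹ = g * c * g⁻¹ * c⁻¹ * c := by group
    rw [this]
    exact C.mul_mem h2 hc'
  refine ⟨p, r, hp, hr, ?_, hcard, hnc⟩
  intro hpr
  apply hnc
  rw [← hpr] at hcard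
  exact IsPGroup.isMulCommutative_of_card_eq_prime_sq (p := p) (G := G ⧸ Subgroup.center G)
    (by rw [hcard, sq])


/-- Let `G` be a finite group every conjugacy class of which has size 1 or a prime. Then either `G` is nilpotent of class at most 2, or `G/Z(G)` is a non-abelian group of order `pq` for distinct primes `p, q` (a Frobenius group of order `pq`). -/
theorem result {G : Type*} [Group G] [Finite G]
    (h : ∀ x : G, (Subgroup.centralizer ({x} : Set G)).index = 1 ∨ ((Subgroup.centralizer ({x} : Set G)).index).Prime) :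
    Subgroup.upperCentralSeries G 2 = ⊤ ∨
      ∃ p q : ℕ, p.Prime ∧ q.Prime ∧ p ≠ q ∧ Nat.card (G ⧸ Subgroup.center G) = p * q ∧ ¬ IsMulCommutative (G ⧸ Subgroup.center G) := by
  by_cases hn : ∀ x : G, (Subgroup.centralizer ({x} : Set G)).Normal
  · exact Or.inl (caseA h hn)
  · push Not at hn
    obtain ⟨x, hx⟩ := hn
    exact Or.inr (caseB h x hx)

end Cfsg.Agent.S4314
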