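import Cfsg.Statements.S4320
-- import your own Cfsg.Agent.* helpers here

set_option autoImplicit false
open Cfsg

namespace Cfsg.Agent.S4320




section ringpart

variable {Q : Type*} [CommGroup Q]

/-- augmentation -/
noncomputable def aug (Q : Type*) [CommGroup Q] : MonoidAlgebra ℤ Q →ₐ[ℤ] ℤ :=
  MonoidAlgebra.lift ℤ ℤ Q (1 : Q →* ℤ)

theorem aug_of (x : Q) : aug Q (MonoidAlgebra.of ℤ Q x) = 1 := by
  simp [aug]

/-- the norm element -/
noncomputable def nrm (Q : Type*) [CommGroup Q] [Fintype Q] : MonoidAlgebra ℤ Q :=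
  ∑ x : Q, MonoidAlgebra.of ℤ Q x

theorem aug_nrm [Fintype Q] : aug Q (nrm Q) = Fintype.card Q := by
  rw [nrm, map_sum]
  simp only [aug_of]
  simp

theorem coeff_nrm [Fintype Q] (y : Q) : (nrm Q).coeff y = 1 := by
  classical
  rw [nrm, MonoidAlgebra.coeff_sum]
  simp [MonoidAlgebra.of, Finsupp.single_apply]

theorem eq_smul_nrm [Fintype Q] (μ : MonoidAlgebra ℤ Q)
    (h : ∀ x : Q, μ * (MonoidAlgebra.of ℤ Q x - 1) = 0) : μ = (μ.coeff 1) • nrm Q := by
  classical
  have h1 : ∀ y : Q, μ.coeff y = μ.coeff 1 := by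
    intro y
    have h2 := h y
    rw [mul_sub, mul_one, sub_eq_zero] at h2
    have h3 : (μ * MonoidAlgebra.of ℤ Q y).coeff y = μ.coeff y := by rw [h2]
    rw [show MonoidAlgebra.of ℤ Q y = MonoidAlgebra.single y (1 : ℤ) from rfl,
      MonoidAlgebra.coeff_mul_single_apply] at h3
    rw [← h3]
    simp
  ext y
  rw [MonoidAlgebra.coeff_smul, Finsupp.smul_apply, coeff_nrm, h1 y]
  simp

variable {B : Type*} [AddCommGroup B]

/-- translation representation of `Q` on functions `Q → B` -/
noncomputable def trl (Q B : Type*) [CommGroup Q] [AddCommGroup B] : Q →* Module.End ℤ (Q → B) where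
  toFun x := LinearMap.funLeft ℤ B (fun q => x⁻¹ * q)
  map_one' := by
    apply LinearMap.ext
    intro f
    funext q
    simp [LinearMap.funLeft_apply]
  map_mul' x y := by
    apply LinearMap.ext
    intro f
    funext q
    simp only [Module.End.mul_apply, LinearMap.funLeft_apply]
    rw [mul_inv_rev, mul_assoc]

/-- the action of the group ring on functions -/
noncomputable def act (Q B : Type*) [CommGroup Q] [AddCommGroup B] :
    MonoidAlgebra ℤ Q →ₐ[ℤ] Module.End ℤ (Q → B) :=
  MonoidAlgebra.lift ℤ _ Q (trl Q B)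

theorem act_of (x : Q) (f : Q → B) (q : Q) :
    act Q B (MonoidAlgebra.of ℤ Q x) f q = f (x⁻¹ * q) := by
  rw [act, MonoidAlgebra.lift_of]
  rfl

theorem act_nrm [Fintype Q] (f : Q → B) (q : Q) : act Q B (nrm Q) f q = ∑ y, f y := by
  rw [nrm, map_sum, LinearMap.sum_apply, Finset.sum_apply]
  simp only [act_of]
  exact Fintype.sum_equiv ((Equiv.inv Q).trans (Equiv.mulRight q)) _ _ (fun x => rfl)

end ringpart

/-- the determinant trick for modules -/
theorem det_trick {R : Type*} [CommRing R] {M : Type*} [AddCommGroup M]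
    (Θ : R →+* Module.End ℤ M) {ι : Type*} [Fintype ι] [DecidableEq ι] (B : Matrix ι ι R)
    (δ : ι → M) (h : ∀ k, ∑ i, Θ (B k i) (δ i) = 0) (j : ι) : Θ B.det (δ j) = 0 := by
  have key : ∑ i, Θ ((B.adjugate * B) j i) (δ i) = 0 := by
    simp only [Matrix.mul_apply, map_sum, map_mul, LinearMap.sum_apply, Module.End.mul_apply]
    rw [Finset.sum_comm]
    apply Finset.sum_eq_zero
    intro k _
    rw [← map_sum, h k, map_zero]
  rw [Matrix.adjugate_mul] at key
  rw [← key]
  symm
  rw [Finset.sum_eq_single j]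
  · simp
  · intro i _ hij
    simp [Ne.symm hij]
  · intro hj
    exact absurd (Finset.mem_univ j) hj

/-- the determinant trick for vectors -/
theorem det_trick_vec {R : Type*} [CommRing R] {ι : Type*} [Fintype ι] [DecidableEq ι]
    (B : Matrix ι ι R) (v : ι → R) (h : ∀ k, ∑ i, B k i * v i = 0) (j : ι) : B.det * v j = 0 := by
  have h1 : B.mulVec v = 0 := by
    funext k
    exact h k
  have h2 := congrArg (B.adjugate.mulVec) h1
  rw [Matrix.mulVec_mulVec, Matrix.adjugate_mul, Matrix.smul_mulVec, Matrix.one_mulVec,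
    Matrix.mulVec_zero] at h2
  have h3 := congrFun h2 j
  simpa using h3

theorem card_sup_zpowers {Q : Type*} [CommGroup Q] [Finite Q] (K : Subgroup Q) (y : Q) :
    Nat.card ↥(K ⊔ Subgroup.zpowers y) = Nat.card K * orderOf (QuotientGroup.mk y : Q ⧸ K) := by
  have h1 := Subgroup.relIndex_mul_relIndex (⊥ : Subgroup Q) K (K ⊔ Subgroup.zpowers y) bot_le
    le_sup_left
  rw [Subgroup.relIndex_bot_left, Subgroup.relIndex_bot_left] at h1
  rw [← h1]
  congr 1
  have h2 := Subgroup.relIndex_ker (K ⊔ Subgroup.zpowers y) (QuotientGroup.mk' K)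
  rw [QuotientGroup.ker_mk'] at h2
  rw [h2, Subgroup.map_sup, MonoidHom.map_zpowers]
  have h3 : Subgroup.map (QuotientGroup.mk' K) K = ⊥ := by
    rw [Subgroup.map_eq_bot_iff, QuotientGroup.ker_mk']
  rw [h3, bot_sup_eq, Nat.card_zpowers]
  rfl





section grp

variable {G : Type*} [Group G]

theorem of_surj : Function.Surjective (Abelianization.of : G →* Abelianization G) :=
  QuotientGroup.mk_surjective

/-- a section of `G → G^ab` -/
noncomputable def sec (q : Abelianization G) : G := Function.surjInv of_surj q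

theorem of_sec (q : Abelianization G) : Abelianization.of (sec q) = q :=
  Function.surjInv_eq of_surj q

theorem coc_mem (g : G) (q : Abelianization G) :
    (sec q)⁻¹ * g * sec ((Abelianization.of g)⁻¹ * q) ∈ commutator G := by
  rw [← Abelianization.ker_of, MonoidHom.mem_ker, map_mul, map_mul, map_inv, of_sec, of_sec]
  group

/-- the Kaloujnine–Krasner cocycle -/
noncomputable def coc (g : G) (q : Abelianization G) : ↥(commutator G) :=
  ⟨(sec q)⁻¹ * g * sec ((Abelianization.of g)⁻¹ * q), coc_mem g q⟩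

theorem coc_mul (g h : G) (q : Abelianization G) :
    coc (g * h) q = coc g q * coc h ((Abelianization.of g)⁻¹ * q) := by
  apply Subtype.ext
  show (sec q)⁻¹ * (g * h) * sec ((Abelianization.of (g * h))⁻¹ * q) =
    ((sec q)⁻¹ * g * sec ((Abelianization.of g)⁻¹ * q)) *
    ((sec ((Abelianization.of g)⁻¹ * q))⁻¹ * h *
      sec ((Abelianization.of h)⁻¹ * ((Abelianization.of g)⁻¹ * q)))
  have h1 : (Abelianization.of (g * h))⁻¹ * q =
      (Abelianization.of h)⁻¹ * ((Abelianization.of g)⁻¹ * q) := by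
    rw [map_mul, mul_inv_rev, mul_assoc]
  rw [h1]
  group

theorem coc_one (q : Abelianization G) : coc (1 : G) q = 1 := by
  apply Subtype.ext
  show (sec q)⁻¹ * 1 * sec ((Abelianization.of (1 : G))⁻¹ * q) = 1
  rw [map_one, inv_one, one_mul, mul_one, inv_mul_cancel]

variable [Finite G]

/-- the section as a function on `G ⧸ commutator G` -/
noncomputable def sec' (q : G ⧸ commutator G) : G := sec q

theorem mk_sec' (q : G ⧸ commutator G) : ((sec' q : G) : G ⧸ commutator G) = q := of_sec q

theorem smul_eq_aux (g : G) (q : Abelianization G) :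
    (g⁻¹ • (show G ⧸ commutator G from q) : G ⧸ commutator G) = (Abelianization.of g)⁻¹ * q := by
  induction q using QuotientGroup.induction_on with
  | H x => rfl

theorem transfer_eq (g : G) :
    letI : Fintype (Abelianization G) := (commutator G).fintypeQuotientOfFiniteIndex
    MonoidHom.transfer (Abelianization.of : ↥(commutator G) →* Abelianization ↥(commutator G)) g =
      ∏ q : Abelianization G, Abelianization.of (coc g q) := by
  rw [MonoidHom.transfer_def _
    ⟨Set.range (sec' (G := G)), Subgroup.isComplement_range_left mk_sec'⟩ g]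
  unfold Subgroup.leftTransversals.diff
  dsimp only
  refine Finset.prod_congr rfl ?_
  intro q _
  congr 1
  apply Subtype.ext
  dsimp only
  rw [Subgroup.smul_apply_eq_smul_apply_inv_smul,
    Subgroup.IsComplement.leftQuotientEquiv_apply mk_sec',
    Subgroup.IsComplement.leftQuotientEquiv_apply mk_sec']
  show (sec q)⁻¹ * (g * sec (g⁻¹ • q)) = _
  rw [smul_eq_aux g q, ← mul_assoc]
  rfl

end grp


section rel

variable {G : Type*} [Group G]

/-- the crossed homomorphism `G → (G^ab → G'^ab)` -/
noncomputable def dd (g : G) : Abelianization G → Additive (Abelianization ↥(commutator G)) :=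
  fun q => Additive.ofMul (Abelianization.of (coc g q))

/-- the image of `g` in the group ring of `G^ab` -/
noncomputable def ofq (g : G) : MonoidAlgebra ℤ (Abelianization G) :=
  MonoidAlgebra.of ℤ (Abelianization G) (Abelianization.of g)

theorem ofq_mul (g h : G) : ofq (g * h) = ofq g * ofq h := by
  rw [ofq, ofq, ofq, map_mul, map_mul]

theorem ofq_one : ofq (1 : G) = 1 := by
  rw [ofq, map_one, map_one]

theorem aug_ofq (g : G) : aug (Abelianization G) (ofq g) = 1 := aug_of _

theorem dd_mul (g h : G) :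
    dd (g * h) = dd g + act (Abelianization G) (Additive (Abelianization ↥(commutator G)))
      (ofq g) (dd h) := by
  funext q
  rw [Pi.add_apply, ofq, act_of]
  show Additive.ofMul (Abelianization.of (coc (g * h) q)) =
    Additive.ofMul (Abelianization.of (coc g q)) +
      Additive.ofMul (Abelianization.of (coc h ((Abelianization.of g)⁻¹ * q)))
  rw [coc_mul, map_mul]
  rfl

theorem dd_one : dd (1 : G) = 0 := by
  funext q
  show Additive.ofMul (Abelianization.of (coc (1 : G) q)) = 0
  rw [coc_one, map_one]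
  rfl

theorem dd_inv (g : G) :
    dd g⁻¹ = -(act (Abelianization G) (Additive (Abelianization ↥(commutator G)))
      (ofq g⁻¹) (dd g)) := by
  have h := dd_mul g⁻¹ g
  rw [inv_mul_cancel, dd_one] at h
  exact eq_neg_of_add_eq_zero_left h.symm

variable {n : ℕ} (τ : Fin n → G)

/-- the relation predicate: `ρ` is a vector of Fox derivatives of a word representing `g`, with
exponent sums `lam` -/
def Rel (ρ : Fin n → MonoidAlgebra ℤ (Abelianization G)) (lam : Fin n → ℤ) (g : G) : Prop :=
  (∑ i, act (Abelianization G) (Additive (Abelianization ↥(commutator G))) (ρ i) (dd (τ i)) = dd g) ∧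
  (∑ i, ρ i * (ofq (τ i) - 1) = ofq g - 1) ∧ (∀ i, aug (Abelianization G) (ρ i) = lam i)

theorem rel_one : Rel τ 0 0 1 := by
  refine ⟨?_, ?_, ?_⟩
  · simp [dd_one]
  · simp [ofq_one]
  · intro i; simp

theorem rel_gen (k : Fin n) : Rel τ (Pi.single k 1) (Pi.single k 1) (τ k) := by
  classical
  refine ⟨?_, ?_, ?_⟩
  · rw [Finset.sum_eq_single k]
    · simp
    · intro i _ hik
      simp [hik]
    · intro hk
      exact absurd (Finset.mem_univ k) hk
  · rw [Finset.sum_eq_single k]
    · simp
    · intro i _ hik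
      simp [hik]
    · intro hk
      exact absurd (Finset.mem_univ k) hk
  · intro i
    by_cases hik : i = k
    · subst hik; simp
    · simp [hik]

theorem rel_mul {ρ ρ' : Fin n → MonoidAlgebra ℤ (Abelianization G)} {l l' : Fin n → ℤ} {g g' : G}
    (h : Rel τ ρ l g) (h' : Rel τ ρ' l' g') :
    Rel τ (fun i => ρ i + ofq g * ρ' i) (l + l') (g * g') := by
  obtain ⟨h1, h2, h3⟩ := h
  obtain ⟨h1', h2', h3'⟩ := h'
  refine ⟨?_, ?_, ?_⟩
  · simp only [map_add, map_mul, LinearMap.add_apply, Module.End.mul_apply,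
      Finset.sum_add_distrib]
    rw [← map_sum, h1, h1', dd_mul]
  · have : ∀ i, (ρ i + ofq g * ρ' i) * (ofq (τ i) - 1) =
        ρ i * (ofq (τ i) - 1) + ofq g * (ρ' i * (ofq (τ i) - 1)) := by
      intro i; ring
    simp only [this, Finset.sum_add_distrib]
    rw [← Finset.mul_sum, h2, h2', ofq_mul]
    ring
  · intro i
    rw [map_add, map_mul, aug_ofq, h3, h3']
    simp

theorem rel_inv {ρ : Fin n → MonoidAlgebra ℤ (Abelianization G)} {l : Fin n → ℤ} {g : G}
    (h : Rel τ ρ l g) : Rel τ (fun i => -(ofq g⁻¹ * ρ i)) (-l) g⁻¹ := by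
  obtain ⟨h1, h2, h3⟩ := h
  refine ⟨?_, ?_, ?_⟩
  · simp only [map_neg, map_mul, LinearMap.neg_apply, Module.End.mul_apply,
      Finset.sum_neg_distrib]
    rw [← map_sum, h1, dd_inv]
  · have : ∀ i, -(ofq g⁻¹ * ρ i) * (ofq (τ i) - 1) = -(ofq g⁻¹ * (ρ i * (ofq (τ i) - 1))) := by
      intro i; ring
    simp only [this, Finset.sum_neg_distrib]
    rw [← Finset.mul_sum, h2]
    have h4 : ofq g⁻¹ * ofq g = 1 := by rw [← ofq_mul, inv_mul_cancel, ofq_one]
    calc -(ofq g⁻¹ * (ofq g - 1)) = -(ofq g⁻¹ * ofq g) + ofq g⁻¹ := by ring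
      _ = ofq g⁻¹ - 1 := by rw [h4]; ring
  · intro i
    rw [map_neg, map_mul, aug_ofq, h3]
    simp

end rel

section rows

variable {G : Type*} [Group G] {n : ℕ} (τ : Fin n → G)

/-- the subgroup generated by the first `m` generators -/
def Gm (m : ℕ) : Subgroup G := Subgroup.closure {g | ∃ i : Fin n, i.val < m ∧ τ i = g}

/-- its image in the abelianization -/
def Qm (m : ℕ) : Subgroup (Abelianization G) := (Gm τ m).map Abelianization.of

/-- the relative orders -/
noncomputable def ee (k : Fin n) : ℕ :=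
  orderOf (QuotientGroup.mk (Abelianization.of (τ k)) : Abelianization G ⧸ Qm τ k.val)

theorem exists_rel_of_mem_Gm (m : ℕ) {g : G} (hg : g ∈ Gm τ m) :
    ∃ ρ l, Rel τ ρ l g ∧ ∀ i : Fin n, m ≤ i.val → ρ i = 0 := by
  classical
  unfold Gm at hg
  induction hg using Subgroup.closure_induction with
  | mem x hx =>
    obtain ⟨i, hi, rfl⟩ := hx
    refine ⟨_, _, rel_gen τ i, ?_⟩
    intro j hj
    have : j ≠ i := by
      intro h; rw [h] at hj; omega
    simp [this]
  | one => exact ⟨_, _, rel_one τ, fun i _ => rfl⟩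
  | mul x y _ _ hx hy =>
    obtain ⟨ρ, l, h, h0⟩ := hx
    obtain ⟨ρ', l', h', h0'⟩ := hy
    refine ⟨_, _, rel_mul τ h h', ?_⟩
    intro i hi
    simp [h0 i hi, h0' i hi]
  | inv x _ hx =>
    obtain ⟨ρ, l, h, h0⟩ := hx
    refine ⟨_, _, rel_inv τ h, ?_⟩
    intro i hi
    simp [h0 i hi]

theorem exists_rel (hτ : Function.Surjective τ) (g : G) : ∃ ρ l, Rel τ ρ l g := by
  obtain ⟨i, rfl⟩ := hτ g
  exact ⟨_, _, rel_gen τ i⟩

theorem exists_rel_of_mem_commutator (hτ : Function.Surjective τ) {g : G}
    (hg : g ∈ commutator G) : ∃ ρ, Rel τ ρ 0 g := by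
  rw [commutator_def, Subgroup.commutator_def] at hg
  induction hg using Subgroup.closure_induction with
  | mem x hx =>
    obtain ⟨a, -, b, -, rfl⟩ := hx
    obtain ⟨ρa, la, ha⟩ := exists_rel τ hτ a
    obtain ⟨ρb, lb, hb⟩ := exists_rel τ hτ b
    have h := rel_mul τ (rel_mul τ (rel_mul τ ha hb) (rel_inv τ ha)) (rel_inv τ hb)
    have hl : la + lb + -la + -lb = 0 := by
      funext i
      simp only [Pi.add_apply, Pi.neg_apply, Pi.zero_apply]
      ring
    rw [hl] at h
    exact ⟨_, h⟩
  | one => exact ⟨_, rel_one τ⟩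
  | mul x y _ _ hx hy =>
    obtain ⟨ρ, h⟩ := hx
    obtain ⟨ρ', h'⟩ := hy
    have h2 := rel_mul τ h h'
    rw [add_zero] at h2
    exact ⟨_, h2⟩
  | inv x _ hx =>
    obtain ⟨ρ, h⟩ := hx
    have h2 := rel_inv τ h
    rw [neg_zero] at h2
    exact ⟨_, h2⟩

theorem exists_rel_pow (k : Fin n) (e : ℕ) :
    ∃ ρ, Rel τ ρ (Pi.single k (e : ℤ)) (τ k ^ e) ∧ ∀ i, i ≠ k → ρ i = 0 := by
  classical
  induction e with
  | zero =>
    refine ⟨0, ?_, fun i _ => rfl⟩
    have h := rel_one τ
    rw [pow_zero]
    have h0 : (Pi.single k ((0 : ℕ) : ℤ) : Fin n → ℤ) = 0 := by simp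
    rw [h0]
    exact h
  | succ e ih =>
    obtain ⟨ρ, h, h0⟩ := ih
    have h2 := rel_mul τ h (rel_gen τ k)
    have hl : (Pi.single k (e : ℤ) + Pi.single k 1 : Fin n → ℤ) = Pi.single k ((e + 1 : ℕ) : ℤ) := by
      rw [← Pi.single_add]
      norm_num
    rw [hl, ← pow_succ] at h2
    refine ⟨_, h2, ?_⟩
    intro i hi
    simp [h0 i hi, hi]

/-- the triangular relators -/
theorem exists_row (hτ : Function.Surjective τ) (k : Fin n) :
    ∃ ρ : Fin n → MonoidAlgebra ℤ (Abelianization G),
      (∑ i, act (Abelianization G) (Additive (Abelianization ↥(commutator G))) (ρ i) (dd (τ i)) = 0) ∧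
      (∑ i, ρ i * (ofq (τ i) - 1) = 0) ∧ aug (Abelianization G) (ρ k) = (ee τ k : ℤ) ∧
      ∀ i, k < i → aug (Abelianization G) (ρ i) = 0 := by
  classical
  have hmem : (Abelianization.of (τ k)) ^ ee τ k ∈ Qm τ k.val := by
    rw [← QuotientGroup.eq_one_iff (N := Qm τ k.val), QuotientGroup.mk_pow]
    exact pow_orderOf_eq_one _
  obtain ⟨u, hu, hu2⟩ := hmem
  have hh : τ k ^ ee τ k * u⁻¹ ∈ commutator G := by
    rw [← Abelianization.ker_of, MonoidHom.mem_ker, map_mul, map_inv, map_pow, hu2]
    exact mul_inv_cancel _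
  obtain ⟨ρx, hx, hx0⟩ := exists_rel_pow τ k (ee τ k)
  obtain ⟨ρu, lu, hu3, hu0⟩ := exists_rel_of_mem_Gm τ k.val hu
  obtain ⟨ρh, hh2⟩ := exists_rel_of_mem_commutator τ hτ hh
  have h := rel_mul τ hx (rel_mul τ (rel_inv τ hu3) (rel_inv τ hh2))
  have hone : τ k ^ ee τ k * (u⁻¹ * (τ k ^ ee τ k * u⁻¹)⁻¹) = 1 := by group
  rw [hone] at h
  have key : ∀ (ρ : Fin n → MonoidAlgebra ℤ (Abelianization G)) (l : Fin n → ℤ),
      Rel τ ρ l 1 → l k = (ee τ k : ℤ) → (∀ i, k < i → l i = 0) →
      (∑ i, act (Abelianization G) (Additive (Abelianization ↥(commutator G))) (ρ i) (dd (τ i)) = 0) ∧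
      (∑ i, ρ i * (ofq (τ i) - 1) = 0) ∧ aug (Abelianization G) (ρ k) = (ee τ k : ℤ) ∧
      ∀ i, k < i → aug (Abelianization G) (ρ i) = 0 := by
    intro ρ l hr hk hi
    obtain ⟨h1, h2, h3⟩ := hr
    refine ⟨?_, ?_, ?_, ?_⟩
    · rw [h1, dd_one]
    · rw [h2, ofq_one, sub_self]
    · rw [h3 k, hk]
    · intro i hik
      rw [h3 i, hi i hik]
  refine ⟨_, key _ _ h ?_ ?_⟩
  · have e1 := hu3.2.2 k
    rw [hu0 k (le_refl _), map_zero] at e1
    simp [← e1]
  · intro i hi
    have e1 := hu3.2.2 i
    rw [hu0 i (le_of_lt hi), map_zero] at e1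
    have hik : i ≠ k := ne_of_gt hi
    simp [← e1, hik]

theorem card_Qm [Finite G] (m : ℕ) (hm : m ≤ n) :
    Nat.card (Qm τ m) = ∏ k ∈ Finset.univ.filter (fun k : Fin n => k.val < m), ee τ k := by
  classical
  induction m with
  | zero =>
    have h0 : Gm τ 0 = ⊥ := by
      unfold Gm
      rw [Subgroup.closure_eq_bot_iff]
      rintro g ⟨i, hi, -⟩
      omega
    unfold Qm
    rw [h0, Subgroup.map_bot]
    simp
  | succ m ih =>
    have hmn : m < n := hm
    have ih' := ih (le_of_lt hmn)
    have hG : Gm τ (m + 1) = Gm τ m ⊔ Subgroup.zpowers (τ ⟨m, hmn⟩) := by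
      unfold Gm
      rw [Subgroup.zpowers_eq_closure, ← Subgroup.closure_union]
      congr 1
      ext g
      constructor
      · rintro ⟨i, hi, rfl⟩
        by_cases him : i.val < m
        · left; exact ⟨i, him, rfl⟩
        · right
          have : i = ⟨m, hmn⟩ := Fin.ext (by simp; omega)
          rw [this]; rfl
      · rintro (⟨i, hi, rfl⟩ | hg)
        · exact ⟨i, by omega, rfl⟩
        · rw [Set.mem_singleton_iff] at hg
          exact ⟨⟨m, hmn⟩, by simp, hg.symm⟩
    have hQ : Qm τ (m + 1) = Qm τ m ⊔ Subgroup.zpowers (Abelianization.of (τ ⟨m, hmn⟩)) := by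
      unfold Qm
      rw [hG, Subgroup.map_sup, MonoidHom.map_zpowers]
    have hfilter : Finset.univ.filter (fun k : Fin n => k.val < m + 1) =
        insert (⟨m, hmn⟩ : Fin n) (Finset.univ.filter (fun k : Fin n => k.val < m)) := by
      ext k
      simp only [Finset.mem_filter, Finset.mem_univ, true_and, Finset.mem_insert]
      constructor
      · intro h
        by_cases hk : k.val < m
        · right; exact hk
        · left; exact Fin.ext (by simp; omega)
      · rintro (h | h)
        · rw [h]; simp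
        · omega
    have hnot : (⟨m, hmn⟩ : Fin n) ∉ Finset.univ.filter (fun k : Fin n => k.val < m) := by
      simp
    rw [hfilter, Finset.prod_insert hnot, hQ, card_sup_zpowers, ih', mul_comm]
    rfl

theorem prod_ee [Finite G] (hτ : Function.Surjective τ) : ∏ k, ee τ k = Nat.card (Abelianization G) := by
  classical
  have h := card_Qm τ n (le_refl n)
  have h1 : Finset.univ.filter (fun k : Fin n => k.val < n) = Finset.univ := by
    ext k; simp
  rw [h1] at h
  rw [← h]
  have h2 : Gm τ n = ⊤ := by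
    rw [eq_top_iff]
    intro g _
    obtain ⟨i, rfl⟩ := hτ g
    exact Subgroup.subset_closure ⟨i, i.2, rfl⟩
  have h3 : Qm τ n = ⊤ := by
    unfold Qm
    rw [h2, ← MonoidHom.range_eq_map, MonoidHom.range_eq_top]
    exact of_surj
  rw [h3, Subgroup.card_top]

end rows

/-- The Principal Ideal Theorem of class field theory in its group-theoretic form: for every finite group `G`, the transfer homomorphism from `G` into the abelianization `G'/G''` of its derived subgroup `G'` is the trivial homomorphism. -/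
theorem result {G : Type*} [Group G] [Finite G] :
    MonoidHom.transfer (Abelianization.of : ↥(commutator G) →* Abelianization ↥(commutator G)) =
      (1 : G →* Abelianization ↥(commutator G)) := by
  classical
  let _inst : Fintype (Abelianization G) := (commutator G).fintypeQuotientOfFiniteIndex
  let τ : Fin (Nat.card G) → G := (Finite.equivFin G).symm
  have hτ : Function.Surjective τ := (Finite.equivFin G).symm.surjective
  choose row h1 h2 h3 h4 using fun k => exists_row τ hτ k
  let B : Matrix (Fin (Nat.card G)) (Fin (Nat.card G)) (MonoidAlgebra ℤ (Abelianization G)) :=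
    Matrix.of row
  -- the determinant is the norm element
  have hann : ∀ x : Abelianization G, B.det * (MonoidAlgebra.of ℤ (Abelianization G) x - 1) = 0 := by
    intro x
    obtain ⟨g, rfl⟩ := of_surj x
    obtain ⟨j, rfl⟩ := hτ g
    exact det_trick_vec B (fun i => ofq (τ i) - 1) h2 j
  have hdet1 := eq_smul_nrm B.det hann
  have haug : aug (Abelianization G) B.det = (Nat.card (Abelianization G) : ℤ) := by
    rw [AlgHom.map_det, AlgHom.mapMatrix_apply]
    rw [Matrix.det_of_isLowerTriangular]
    · have h5 : ∀ k, (B.map (aug (Abelianization G))) k k = (ee τ k : ℤ) := fun k => h3 k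
      simp only [h5]
      rw [← Nat.cast_prod, prod_ee τ hτ]
    · intro i j hij
      exact h4 i j hij
  have hc : B.det.coeff 1 = 1 := by
    have hcard : Nat.card (Abelianization G) = Fintype.card (Abelianization G) :=
      Nat.card_eq_fintype_card
    rw [hdet1, map_zsmul, aug_nrm, smul_eq_mul, hcard] at haug
    have hpos : (0 : ℤ) < (Fintype.card (Abelianization G) : ℤ) := by
      exact_mod_cast Fintype.card_pos
    have h6 : (B.det.coeff 1 - 1) * (Fintype.card (Abelianization G) : ℤ) = 0 := by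
      rw [sub_mul, one_mul, haug, sub_self]
    rcases mul_eq_zero.mp h6 with h7 | h7
    · exact sub_eq_zero.mp h7
    · exact absurd h7 hpos.ne'
  have hdet : B.det = nrm (Abelianization G) := by
    rw [hdet1, hc, one_smul]
  -- conclusion
  ext g
  obtain ⟨j, rfl⟩ := hτ g
  have h8 := det_trick
    ((act (Abelianization G) (Additive (Abelianization ↥(commutator G)))) :
      MonoidAlgebra ℤ (Abelianization G) →+* _) B (fun i => dd (τ i)) h1 j
  rw [hdet] at h8
  have h9 := congrFun h8 1
  have h10 : act (Abelianization G) (Additive (Abelianization ↥(commutator G)))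
      (nrm (Abelianization G)) (dd (τ j)) 1 = ∑ y, dd (τ j) y := act_nrm _ _
  have h11 : ∑ y, dd (τ j) y = 0 := h10.symm.trans h9
  rw [transfer_eq, MonoidHom.one_apply]
  have h12 : Additive.ofMul (∏ q : Abelianization G, Abelianization.of (coc (τ j) q)) = 0 := by
    rw [ofMul_prod]
    exact h11
  exact h12

end Cfsg.Agent.S4320
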