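import Cfsg.Statements.S4421
import Mathlib

set_option autoImplicit false
open Cfsg

namespace Cfsg.Agent.S4421

theorem result {G : Type*} [Group G] [Finite G] (A S H : Subgroup G)
    (hAS : A ≤ S) (hSH : S ≤ H)
    (h1 : ∀ g : G, A.map (MulAut.conj g).toMonoidHom ≤ S → ∃ s ∈ S, A.map (MulAut.conj g).toMonoidHom = A.map (MulAut.conj s).toMonoidHom)
    (h2 : ∀ g : G, S.map (MulAut.conj g).toMonoidHom ≤ H → ∃ y ∈ H, S.map (MulAut.conj g).toMonoidHom = S.map (MulAut.conj y).toMonoidHom)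
    (h3 : ∀ x ∈ Subgroup.normalizer (A : Set G), S.map (MulAut.conj x).toMonoidHom ≤ H) :
    ∀ x ∈ Subgroup.normalizer (A : Set G), ∃ y ∈ H ⊓ Subgroup.normalizer (A : Set G),
      ∃ z ∈ Subgroup.normalizer (S : Set G) ⊓ Subgroup.normalizer (A : Set G), x = y * z := by
  intro x hx
  have hmap : ∀ (K : Subgroup G) (g h : G), K.map (MulAut.conj (g * h)).toMonoidHom
      = (K.map (MulAut.conj h).toMonoidHom).map (MulAut.conj g).toMonoidHom := by
    intro K g h
    rw [Subgroup.map_map]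
    congr 1
    ext a
    simp [mul_assoc]
  have hone : ∀ (K : Subgroup G), K.map (MulAut.conj (1 : G)).toMonoidHom = K := by
    intro K
    ext a
    simp
  have hnorm : ∀ (K : Subgroup G) (g : G), g ∈ Subgroup.normalizer (K : Set G) ↔
      K.map (MulAut.conj g).toMonoidHom = K :=
    fun K g => Subgroup.mem_normalizer_iff_map_conj_eq
  obtain ⟨y, hyH, hy⟩ := h2 x (h3 x hx)
  have hxA := (hnorm A x).1 hx
  -- n = y⁻¹ * x normalizes S
  have hn : S.map (MulAut.conj (y⁻¹ * x)).toMonoidHom = S := by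
    rw [hmap, hy, ← hmap, inv_mul_cancel, hone]
  have hnA : A.map (MulAut.conj (y⁻¹ * x)).toMonoidHom ≤ S := by
    calc A.map (MulAut.conj (y⁻¹ * x)).toMonoidHom ≤ S.map (MulAut.conj (y⁻¹ * x)).toMonoidHom :=
          Subgroup.map_mono hAS
      _ = S := hn
  obtain ⟨s, hsS, hs⟩ := h1 _ hnA
  have hsn : S.map (MulAut.conj s).toMonoidHom = S :=
    (hnorm S s).1 (Subgroup.le_normalizer hsS)
  refine ⟨y * s, ⟨H.mul_mem hyH (hSH hsS), ?_⟩, s⁻¹ * (y⁻¹ * x), ⟨?_, ?_⟩, by group⟩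
  · refine (hnorm _ _).2 ?_
    rw [hmap, ← hs, ← hmap, mul_inv_cancel_left, hxA]
  · refine (hnorm _ _).2 ?_
    rw [hmap, hn]
    exact (hnorm S s⁻¹).1 (Subgroup.le_normalizer (S.inv_mem hsS))
  · refine (hnorm _ _).2 ?_
    rw [hmap, hs, ← hmap, inv_mul_cancel, hone]

end Cfsg.Agent.S4421
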