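import Cfsg.Statements.S4422
-- import your own Cfsg.Agent.* helpers here

set_option autoImplicit false
open Cfsg

namespace Cfsg.Agent.S4422

theorem prime_case (q e p : ℕ) (hq : 2 ≤ q) (he : 1 ≤ e) (hp : p.Prime)
    (hm : p ∣ q ^ e - 1) (hcop : ∀ i : ℕ, 1 ≤ i → i < e → ¬ p ∣ (q ^ i - 1)) :
    p % e = 1 % e := by
  haveI := Fact.mk hp
  have hqe : 1 ≤ q ^ e := Nat.one_le_pow _ _ (by omega)
  have h1 : ((q : ZMod p)) ^ e = 1 := by
    have : ((q ^ e - 1 : ℕ) : ZMod p) = 0 := (ZMod.natCast_eq_zero_iff _ _).2 hm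
    rw [Nat.cast_sub hqe] at this
    push_cast at this
    exact sub_eq_zero.1 this
  have hq0 : (q : ZMod p) ≠ 0 := by
    intro h
    rw [h, zero_pow (by omega)] at h1
    exact zero_ne_one h1
  have hord : orderOf (q : ZMod p) = e := by
    have hdvd : orderOf (q : ZMod p) ∣ e := orderOf_dvd_of_pow_eq_one h1
    have hpos : 0 < orderOf (q : ZMod p) := Nat.pos_of_dvd_of_pos hdvd (by omega)
    by_contra hne
    have hlt : orderOf (q : ZMod p) < e := lt_of_le_of_ne (Nat.le_of_dvd (by omega) hdvd) hne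
    apply hcop _ hpos hlt
    have h2 : (q : ZMod p) ^ orderOf (q : ZMod p) = 1 := pow_orderOf_eq_one _
    have hqd : 1 ≤ q ^ orderOf (q : ZMod p) := Nat.one_le_pow _ _ (by omega)
    rw [← ZMod.natCast_eq_zero_iff, Nat.cast_sub hqd]
    push_cast
    rw [h2, sub_self]
  have h3 : (q : ZMod p) ^ (p - 1) = 1 := ZMod.pow_card_sub_one_eq_one hq0
  have h4 : e ∣ p - 1 := hord ▸ orderOf_dvd_of_pow_eq_one h3
  have hp1 : 1 ≤ p := hp.one_lt.le
  have : (p - 1) % e = 0 := Nat.mod_eq_zero_of_dvd h4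
  have h5 : p = (p - 1) + 1 := by omega
  rw [h5, Nat.add_mod, this]
  simp

theorem result (q e m : ℕ) (hq : 2 ≤ q) (he : 1 ≤ e)
    (hm : m ∣ q ^ e - 1) (hcop : ∀ i : ℕ, 1 ≤ i → i < e → Nat.Coprime m (q ^ i - 1)) :
    m % e = 1 % e := by
  have hqe : 2 ≤ q ^ e := by
    calc 2 ≤ q := hq
      _ = q ^ 1 := (pow_one q).symm
      _ ≤ q ^ e := Nat.pow_le_pow_right (by omega) he
  have hm0 : m ≠ 0 := by
    rintro rfl
    have := Nat.eq_zero_of_zero_dvd hm
    omega
  have key : ∀ n : ℕ, n ≠ 0 → (∀ p : ℕ, p.Prime → p ∣ n → p % e = 1 % e) → n % e = 1 % e := by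
    intro n
    induction n using Nat.recOnMul with
    | zero => intro h; exact absurd rfl h
    | one => intro _ _; rfl
    | prime p hp => intro _ h; exact h p hp dvd_rfl
    | mul a b iha ihb =>
      intro hab h
      have ha : a ≠ 0 := fun h0 => hab (by simp [h0])
      have hb : b ≠ 0 := fun h0 => hab (by simp [h0])
      have h1 := iha ha (fun p hp hpa => h p hp (Dvd.dvd.mul_right hpa b))
      have h2 := ihb hb (fun p hp hpb => h p hp (Dvd.dvd.mul_left hpb a))
      rw [Nat.mul_mod, h1, h2, ← Nat.mul_mod]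
  apply key m hm0
  intro p hp hpm
  apply prime_case q e p hq he hp (hpm.trans hm)
  intro i hi hie hpi
  have := hcop i hi hie
  have h1 : p ∣ Nat.gcd m (q ^ i - 1) := Nat.dvd_gcd hpm hpi
  rw [this] at h1
  exact hp.one_lt.ne' (Nat.dvd_one.1 h1)

end Cfsg.Agent.S4422
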