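import Cfsg.Statements.S4423
import Mathlib

set_option autoImplicit false
open Cfsg

namespace Cfsg.Agent.S4423

open Polynomial Finset



/-- value of the `e`-th cyclotomic polynomial at `q`, as a natural number -/
noncomputable def cyc (e q : ℕ) : ℕ := ((cyclotomic e ℤ).eval (q : ℤ)).toNat

theorem cyc_cast (e q : ℕ) (hq : 2 ≤ q) :
    ((cyc e q : ℕ) : ℤ) = (cyclotomic e ℤ).eval (q : ℤ) := by
  unfold cyc
  apply Int.toNat_of_nonneg
  have h1 : (1 : ℤ) < (q : ℤ) := by exact_mod_cast hq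
  exact (Polynomial.cyclotomic_pos' e h1).le

theorem cyc_pos (e q : ℕ) (hq : 2 ≤ q) : 0 < cyc e q := by
  have h1 : (1 : ℤ) < (q : ℤ) := by exact_mod_cast hq
  have := Polynomial.cyclotomic_pos' e h1
  rw [← cyc_cast e q hq] at this
  exact_mod_cast this

theorem cyc_dvd (e q : ℕ) (hq : 2 ≤ q) : cyc e q ∣ q ^ e - 1 := by
  have h1 : (cyclotomic e ℤ).eval (q : ℤ) ∣ (X ^ e - 1 : ℤ[X]).eval (q : ℤ) :=
    Polynomial.eval_dvd (cyclotomic.dvd_X_pow_sub_one e ℤ)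
  rw [← cyc_cast e q hq] at h1
  have h2 : (X ^ e - 1 : ℤ[X]).eval (q : ℤ) = ((q ^ e - 1 : ℕ) : ℤ) := by
    have : 1 ≤ q ^ e := Nat.one_le_pow _ _ (by omega)
    simp [Nat.cast_sub this]
  rw [h2] at h1
  exact_mod_cast h1

theorem cyc_dvd_geom (e q s : ℕ) (hq : 2 ≤ q) (hs : s.Prime) (hse : s ∣ e) (he : 0 < e) :
    cyc e q ∣ ∑ j ∈ range s, (q ^ (e / s)) ^ j := by
  set d := e / s with hd
  have hds : d * s = e := Nat.div_mul_cancel hse
  have hdpos : 0 < d := by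
    rcases Nat.eq_zero_or_pos d with h | h
    · rw [h] at hds; omega
    · exact h
  have hmem : d ∈ e.properDivisors := by
    rw [Nat.mem_properDivisors]
    refine ⟨⟨s, by rw [← hds]⟩, ?_⟩
    have := hs.two_le
    nlinarith
  have h1 := X_pow_sub_one_mul_cyclotomic_dvd_X_pow_sub_one_of_dvd ℤ hmem
  have h2 := Polynomial.eval_dvd (x := (q : ℤ)) h1
  simp only [eval_mul, eval_sub, eval_pow, eval_X, eval_one] at h2
  rw [← cyc_cast e q hq] at h2
  have h3 : ((q : ℤ) ^ e - 1) = ((q : ℤ) ^ d - 1) * ∑ j ∈ range s, ((q : ℤ) ^ d) ^ j := by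
    rw [mul_geom_sum, ← pow_mul, hds]
  rw [h3] at h2
  have h4 : ((q : ℤ) ^ d - 1) ≠ 0 := by
    have : (1 : ℤ) < (q : ℤ) ^ d := one_lt_pow₀ (by exact_mod_cast hq) hdpos.ne'
    omega
  have h5 := (mul_dvd_mul_iff_left h4).mp h2
  exact_mod_cast h5

theorem not_dvd_of_prime_dvd_cyc (e q s : ℕ) (hq : 2 ≤ q) (hs : s.Prime)
    (hsc : s ∣ cyc e q) (hse : ¬ s ∣ e) (i : ℕ) (hi1 : 1 ≤ i) (hie : i < e) :
    ¬ s ∣ q ^ i - 1 := by
  have hF : Fact s.Prime := Fact.mk hs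
  have hroot : IsRoot (cyclotomic e (ZMod s)) ((q : ℕ) : ZMod s) := by
    rw [IsRoot.def, ← map_cyclotomic_int e (ZMod s)]
    rw [eval_natCast_map, ← cyc_cast e q hq]
    simp only [eq_intCast, Int.cast_natCast]
    exact (ZMod.natCast_eq_zero_iff _ _).mpr hsc
  have hNZ : NeZero (e : ZMod s) := NeZero.of_not_dvd (ZMod s) hse
  have hord : e = orderOf (q : ZMod s) := (isRoot_cyclotomic_iff.mp hroot).eq_orderOf
  intro hdvd
  have h1 : ((q ^ i - 1 : ℕ) : ZMod s) = 0 := (ZMod.natCast_eq_zero_iff _ _).mpr hdvd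
  have h2 : ((q : ZMod s)) ^ i = 1 := by
    have : 1 ≤ q ^ i := Nat.one_le_pow _ _ (by omega)
    rw [Nat.cast_sub this] at h1
    push_cast at h1
    exact sub_eq_zero.mp h1
  have h3 := orderOf_dvd_of_pow_eq_one h2
  rw [← hord] at h3
  have := Nat.le_of_dvd (by omega) h3
  omega

theorem not_sq_dvd_cyc (e q s : ℕ) (hq : 2 ≤ q) (he : 3 ≤ e) (hs : s.Prime) (hse : s ∣ e) :
    ¬ s ^ 2 ∣ cyc e q := by
  intro h
  have hsc : s ∣ cyc e q := dvd_trans (dvd_pow_self s two_ne_zero) h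
  have hG := cyc_dvd_geom e q s hq hs hse (by omega)
  have hds : e / s * s = e := Nat.div_mul_cancel hse
  have hF : Fact s.Prime := Fact.mk hs
  have hqe : ((q : ZMod s)) ^ e = 1 := by
    have h1 : ((q ^ e - 1 : ℕ) : ZMod s) = 0 :=
      (ZMod.natCast_eq_zero_iff _ _).mpr (dvd_trans hsc (cyc_dvd e q hq))
    have : 1 ≤ q ^ e := Nat.one_le_pow _ _ (by omega)
    rw [Nat.cast_sub this] at h1
    push_cast at h1
    exact sub_eq_zero.mp h1
  have hy : ((q : ZMod s)) ^ (e / s) = 1 := by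
    have h2 := hqe
    rw [← hds, pow_mul, ZMod.pow_card] at h2
    exact h2
  have hsy : s ∣ q ^ (e / s) - 1 := by
    rw [← ZMod.natCast_eq_zero_iff]
    have : 1 ≤ q ^ (e / s) := Nat.one_le_pow _ _ (by omega)
    rw [Nat.cast_sub this]
    push_cast
    rw [hy, sub_self]
  obtain ⟨b, hb⟩ := hsy
  have hyb : q ^ (e / s) = 1 + s * b := by
    have : 1 ≤ q ^ (e / s) := Nat.one_le_pow _ _ (by omega)
    omega
  rcases hs.eq_two_or_odd' with h2 | hodd
  · subst h2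
    -- q is odd
    have hqodd : Odd q := by
      rw [← ZMod.natCast_eq_one_iff_odd]
      have h3 := hqe
      by_contra hne
      have h0 : (q : ZMod 2) = 0 := by
        rcases Nat.even_or_odd q with he' | ho
        · exact (ZMod.natCast_eq_zero_iff_even).mpr he'
        · exact absurd ((ZMod.natCast_eq_one_iff_odd).mpr ho) hne
      rw [h0, zero_pow (by omega)] at h3
      exact zero_ne_one h3
    by_cases h4 : 2 ∣ e / 2
    · obtain ⟨c, hc⟩ := h4
      have hsq : q ^ (e / 2) = (q ^ c) ^ 2 := by rw [hc, ← pow_mul, mul_comm]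
      have hodd2 : Odd (q ^ c) := hqodd.pow
      have hm4 : (q ^ c) ^ 2 % 4 = 1 := by
        obtain ⟨t, ht⟩ := hodd2
        rw [ht]
        have : (2 * t + 1) ^ 2 = 4 * (t * t + t) + 1 := by ring
        rw [this]
        omega
      have h5 : (4 : ℕ) ∣ ∑ j ∈ range 2, (q ^ (e / 2)) ^ j := dvd_trans (by simpa using h) hG
      rw [Finset.sum_range_succ, Finset.sum_range_one, hsq, pow_zero, pow_one] at h5
      omega
    · -- e / 2 is odd and at least 3
      have hd2 : e / 2 ≠ 1 := by omega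
      obtain ⟨s', hs', hs'd⟩ := Nat.exists_prime_and_dvd hd2
      have hs'odd : Odd s' := by
        rcases hs'.eq_two_or_odd' with h6 | h6
        · exact absurd (h6 ▸ hs'd) h4
        · exact h6
      have hs'e : s' ∣ e := dvd_trans hs'd (Nat.div_dvd_of_dvd hse)
      have hG' := cyc_dvd_geom e q s' hq hs' hs'e (by omega)
      have h7 : (2 : ℕ) ∣ ∑ j ∈ range s', (q ^ (e / s')) ^ j := dvd_trans hsc hG'
      rw [← ZMod.natCast_eq_zero_iff] at h7
      push_cast at h7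
      rw [(ZMod.natCast_eq_one_iff_odd).mpr hqodd] at h7
      simp only [one_pow, Finset.sum_const, Finset.card_range, nsmul_eq_mul, mul_one] at h7
      rw [(ZMod.natCast_eq_one_iff_odd).mpr hs'odd] at h7
      exact one_ne_zero h7
  · have key := odd_sq_dvd_geom_sum₂_sub (R := ℤ) (a := 1) (b := (b : ℤ)) hodd
    simp only [one_pow, mul_one] at key
    have h8 : ((s : ℤ)) ^ 2 ∣ ∑ i ∈ range s, ((1 : ℤ) + s * b) ^ i := by
      have h9 : (s ^ 2 : ℕ) ∣ ∑ j ∈ range s, (q ^ (e / s)) ^ j := dvd_trans h hG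
      rw [hyb] at h9
      have h10 : (((s ^ 2 : ℕ) : ℤ)) ∣ ((∑ j ∈ range s, (1 + s * b) ^ j : ℕ) : ℤ) :=
        Int.natCast_dvd_natCast.mpr h9
      push_cast at h10
      exact h10
    have h11 : ((s : ℤ)) ^ 2 ∣ (s : ℤ) := by
      have := dvd_sub h8 key
      simpa using this
    have h12 : (s ^ 2 : ℕ) ∣ s := by exact_mod_cast h11
    have h13 := Nat.le_of_dvd hs.pos h12
    have := hs.two_le
    nlinarith

/-- the primitive part candidate -/
noncomputable def m0 (e q : ℕ) : ℕ := cyc e q / Nat.gcd (cyc e q) e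

theorem m0_mul (e q : ℕ) : m0 e q * Nat.gcd (cyc e q) e = cyc e q :=
  Nat.div_mul_cancel (Nat.gcd_dvd_left _ _)

theorem m0_dvd_cyc (e q : ℕ) : m0 e q ∣ cyc e q := Dvd.intro _ (m0_mul e q)

theorem m0_coprime_e (e q : ℕ) (hq : 2 ≤ q) (he : 3 ≤ e) : Nat.Coprime (m0 e q) e := by
  apply Nat.coprime_of_dvd
  intro s hs hsm hse
  have h1 : s ∣ cyc e q := dvd_trans hsm (m0_dvd_cyc e q)
  have h2 : s ∣ Nat.gcd (cyc e q) e := Nat.dvd_gcd h1 hse
  have h3 : s ^ 2 ∣ cyc e q := by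
    have := mul_dvd_mul hsm h2
    rw [m0_mul] at this
    rwa [sq]
  exact not_sq_dvd_cyc e q s hq he hs hse h3

theorem m0_coprime (e q : ℕ) (hq : 2 ≤ q) (he : 3 ≤ e) (i : ℕ) (hi1 : 1 ≤ i) (hie : i < e) :
    Nat.Coprime (m0 e q) (q ^ i - 1) := by
  apply Nat.coprime_of_dvd
  intro s hs hsm hsq
  have hsc : s ∣ cyc e q := dvd_trans hsm (m0_dvd_cyc e q)
  have hse : ¬ s ∣ e := by
    intro hse
    have h1 := Nat.dvd_gcd hsm hse
    rw [Nat.Coprime.gcd_eq_one (m0_coprime_e e q hq he)] at h1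
    exact hs.one_lt.ne' (Nat.dvd_one.mp h1)
  exact not_dvd_of_prime_dvd_cyc e q s hq hs hsc hse i hi1 hie hsq

theorem cyc_le_m0_mul (e q : ℕ) (he : 3 ≤ e) : cyc e q ≤ m0 e q * e := by
  have h1 : Nat.gcd (cyc e q) e ≤ e := Nat.le_of_dvd (by omega) (Nat.gcd_dvd_right _ _)
  calc cyc e q = m0 e q * Nat.gcd (cyc e q) e := (m0_mul e q).symm
    _ ≤ m0 e q * e := Nat.mul_le_mul_left _ h1

theorem zpow_sum_aux {ι : Type*} (s : Finset ι) (c : ℚ) (hc : c ≠ 0) (f : ι → ℤ) :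
    ∏ i ∈ s, c ^ f i = c ^ ∑ i ∈ s, f i := by
  classical
  induction s using Finset.induction_on with
  | empty => simp
  | insert a s ha ih => rw [Finset.prod_insert ha, Finset.sum_insert ha, ih, zpow_add₀ hc]

theorem cyc_moebius (q : ℕ) (hq : 2 ≤ q) (n : ℕ) (hn : 0 < n) :
    ∏ x ∈ n.divisorsAntidiagonal,
      ((q : ℚ) ^ x.2 - 1) ^ (ArithmeticFunction.moebius x.1) = (cyc n q : ℚ) := by
  have hf : ∀ n : ℕ, 0 < n → (fun n => (cyc n q : ℚ)) n ≠ 0 := by
    intro n _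
    show ((cyc n q : ℕ) : ℚ) ≠ 0
    exact_mod_cast (cyc_pos n q hq).ne'
  have hg : ∀ n : ℕ, 0 < n → (fun n : ℕ => (q : ℚ) ^ n - 1) n ≠ 0 := by
    intro n hn
    have h2 : (1 : ℚ) < (q : ℚ) := by exact_mod_cast hq
    have : (1 : ℚ) < (q : ℚ) ^ n := one_lt_pow₀ h2 hn.ne'
    show (q : ℚ) ^ n - 1 ≠ 0
    linarith
  have hprod : ∀ n > 0, ∏ i ∈ n.divisors, (fun n => (cyc n q : ℚ)) i
      = (fun n : ℕ => (q : ℚ) ^ n - 1) n := by
    intro n hn
    have h1 := prod_cyclotomic_eq_X_pow_sub_one hn ℤ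
    have h2 := congrArg (Polynomial.eval (q : ℤ)) h1
    rw [Polynomial.eval_prod] at h2
    simp only [eval_sub, eval_pow, eval_X, eval_one] at h2
    have h3 : ∏ i ∈ n.divisors, ((cyc i q : ℕ) : ℤ) = (q : ℤ) ^ n - 1 := by
      rw [← h2]
      apply Finset.prod_congr rfl
      intro i _
      exact cyc_cast i q hq
    have h4 := congrArg (fun z : ℤ => (z : ℚ)) h3
    push_cast at h4
    exact h4
  exact (ArithmeticFunction.prod_eq_iff_prod_pow_moebius_eq_of_nonzero hf hg).mp hprod n hn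

theorem totient_moebius (n : ℕ) (hn : 0 < n) :
    ∑ x ∈ n.divisorsAntidiagonal, (ArithmeticFunction.moebius x.1 : ℤ) * (x.2 : ℤ)
      = (Nat.totient n : ℤ) := by
  have hsum : ∀ n > 0, ∑ i ∈ n.divisors, (fun n => (Nat.totient n : ℤ)) i
      = (fun n : ℕ => (n : ℤ)) n := by
    intro n _
    have := Nat.sum_totient n
    show ∑ i ∈ n.divisors, ((Nat.totient i : ℕ) : ℤ) = (n : ℤ)
    exact_mod_cast this
  exact (ArithmeticFunction.sum_eq_iff_sum_mul_moebius_eq.mp hsum) n hn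

theorem prod_half_bound (n : ℕ) (hn : 1 ≤ n) :
    (1 / 4 : ℚ) + (1 / 2) ^ (n + 1) ≤ ∏ b ∈ Finset.Icc 1 n, (1 - (1 / 2 : ℚ) ^ b) := by
  induction n, hn using Nat.le_induction with
  | base => norm_num
  | succ n hn ih =>
    rw [Finset.prod_Icc_succ_top (by omega)]
    have hx : (0 : ℚ) < (1 / 2) ^ (n + 1) := by positivity
    have hx1 : (1 / 2 : ℚ) ^ (n + 1) ≤ 1 / 4 := by
      calc (1 / 2 : ℚ) ^ (n + 1) ≤ (1 / 2) ^ 2 :=
            pow_le_pow_of_le_one (by norm_num) (by norm_num) (by omega)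
        _ = 1 / 4 := by norm_num
    have h2 : (1 / 2 : ℚ) ^ (n + 1 + 1) = (1 / 2) ^ (n + 1) / 2 := by
      rw [pow_succ]; ring
    calc (1 / 4 : ℚ) + (1 / 2) ^ (n + 1 + 1) = 1 / 4 + (1 / 2) ^ (n + 1) / 2 := by rw [h2]
      _ ≤ (1 / 4 + (1 / 2) ^ (n + 1)) * (1 - (1 / 2) ^ (n + 1)) := by nlinarith
      _ ≤ _ := mul_le_mul_of_nonneg_right ih (by linarith)

theorem prod_subset_le {s t : Finset ℕ} (h : s ⊆ t) (f : ℕ → ℚ) (h0 : ∀ i ∈ t, 0 ≤ f i)
    (h1 : ∀ i ∈ t, f i ≤ 1) : ∏ i ∈ t, f i ≤ ∏ i ∈ s, f i := by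
  rw [← Finset.prod_sdiff h]
  have hA : ∏ i ∈ t \ s, f i ≤ 1 :=
    Finset.prod_le_one (fun i hi => h0 i (Finset.mem_sdiff.mp hi).1)
      (fun i hi => h1 i (Finset.mem_sdiff.mp hi).1)
  have hB : 0 ≤ ∏ i ∈ s, f i := Finset.prod_nonneg (fun i hi => h0 i (h hi))
  calc (∏ i ∈ t \ s, f i) * ∏ i ∈ s, f i ≤ 1 * ∏ i ∈ s, f i :=
        mul_le_mul_of_nonneg_right hA hB
    _ = _ := one_mul _

theorem quarter_le_prod (q : ℕ) (hq : 2 ≤ q) (n : ℕ) (hn : 0 < n) :
    (1 / 4 : ℚ) ≤ ∏ x ∈ n.divisorsAntidiagonal, (1 - ((q : ℚ) ^ x.2)⁻¹) := by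
  have hq2 : (2 : ℚ) ≤ (q : ℚ) := by exact_mod_cast hq
  have e1 : ∏ x ∈ n.divisorsAntidiagonal, (1 - ((q : ℚ) ^ x.2)⁻¹)
      = ∏ b ∈ n.divisors, (1 - ((q : ℚ) ^ b)⁻¹) :=
    Nat.prod_divisorsAntidiagonal' (fun _ b => (1 - ((q : ℚ) ^ b)⁻¹))
  rw [e1]
  have hhalf0 : ∀ b : ℕ, 1 ≤ b → (0 : ℚ) ≤ 1 - (1 / 2 : ℚ) ^ b := by
    intro b hb
    have : (1 / 2 : ℚ) ^ b ≤ 1 := pow_le_one₀ (by norm_num) (by norm_num)
    linarith
  have hhalf1 : ∀ b : ℕ, (1 : ℚ) - (1 / 2 : ℚ) ^ b ≤ 1 := by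
    intro b
    have : (0 : ℚ) < (1 / 2 : ℚ) ^ b := by positivity
    linarith
  have e2 : ∏ b ∈ n.divisors, (1 - (1 / 2 : ℚ) ^ b) ≤ ∏ b ∈ n.divisors, (1 - ((q : ℚ) ^ b)⁻¹) := by
    apply Finset.prod_le_prod
    · intro b hb
      exact hhalf0 b (Nat.pos_of_mem_divisors hb)
    · intro b _
      have h1 : ((q : ℚ) ^ b)⁻¹ ≤ (1 / 2 : ℚ) ^ b := by
        rw [one_div, inv_pow]
        apply inv_anti₀ (by positivity)
        exact pow_le_pow_left₀ (by norm_num) hq2 b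
      linarith
  have e3 : ∏ b ∈ Finset.Icc 1 n, (1 - (1 / 2 : ℚ) ^ b) ≤ ∏ b ∈ n.divisors, (1 - (1 / 2 : ℚ) ^ b) := by
    apply prod_subset_le
    · intro b hb
      rw [Finset.mem_Icc]
      exact ⟨Nat.pos_of_mem_divisors hb, Nat.divisor_le hb⟩
    · intro b hb
      exact hhalf0 b (Finset.mem_Icc.mp hb).1
    · intro b _
      exact hhalf1 b
  have e4 := prod_half_bound n hn
  have e5 : (0 : ℚ) < (1 / 2) ^ (n + 1) := by positivity
  linarith

theorem pow_totient_le (q : ℕ) (hq : 2 ≤ q) (n : ℕ) (hn : 0 < n) :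
    q ^ Nat.totient n ≤ 4 * cyc n q := by
  have hq2 : (2 : ℚ) ≤ (q : ℚ) := by exact_mod_cast hq
  have hq0 : (0 : ℚ) < (q : ℚ) := by linarith
  have hterm : ∀ x ∈ n.divisorsAntidiagonal,
      (q : ℚ) ^ ((ArithmeticFunction.moebius x.1 : ℤ) * (x.2 : ℤ)) * (1 - ((q : ℚ) ^ x.2)⁻¹)
        ≤ ((q : ℚ) ^ x.2 - 1) ^ (ArithmeticFunction.moebius x.1) := by
    intro x hx
    have hb : 0 < x.2 := by
      rw [Nat.mem_divisorsAntidiagonal] at hx
      rcases Nat.eq_zero_or_pos x.2 with h | h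
      · rw [h, mul_zero] at hx; exact absurd hx.1.symm hx.2
      · exact h
    have hqb : (1 : ℚ) < (q : ℚ) ^ x.2 := one_lt_pow₀ (by linarith) hb.ne'
    rw [zpow_mul', zpow_natCast]
    generalize (q : ℚ) ^ x.2 = Q at hqb ⊢
    have hQ0 : (0 : ℚ) < Q := by linarith
    have ht0 : (0 : ℚ) < Q⁻¹ := inv_pos.mpr hQ0
    have ht1 : Q⁻¹ < 1 := inv_lt_one_of_one_lt₀ hqb
    have htQ : Q⁻¹ * Q = 1 := inv_mul_cancel₀ hQ0.ne'
    rcases ArithmeticFunction.moebius_eq_or x.1 with h | h | h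
    · rw [h, zpow_zero, zpow_zero, one_mul]
      linarith
    · rw [h, zpow_one, zpow_one]
      have : Q * (1 - Q⁻¹) = Q - 1 := by linear_combination -htQ
      rw [this]
    · rw [h, zpow_neg_one, zpow_neg_one, ← one_div (Q - 1), le_div_iff₀ (by linarith)]
      have : Q⁻¹ * (1 - Q⁻¹) * (Q - 1) = (1 - Q⁻¹) ^ 2 := by
        linear_combination (1 - Q⁻¹) * htQ
      rw [this]
      nlinarith
  have h1 : ∏ x ∈ n.divisorsAntidiagonal,
      ((q : ℚ) ^ ((ArithmeticFunction.moebius x.1 : ℤ) * (x.2 : ℤ)) * (1 - ((q : ℚ) ^ x.2)⁻¹))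
        ≤ (cyc n q : ℚ) := by
    rw [← cyc_moebius q hq n hn]
    apply Finset.prod_le_prod
    · intro x _
      apply mul_nonneg (zpow_nonneg hq0.le _)
      have : ((q : ℚ) ^ x.2)⁻¹ ≤ 1 := inv_le_one_of_one_le₀ (one_le_pow₀ (by linarith))
      linarith
    · exact hterm
  rw [Finset.prod_mul_distrib, zpow_sum_aux _ _ hq0.ne', totient_moebius n hn, zpow_natCast] at h1
  have h2 := quarter_le_prod q hq n hn
  have h3 : (q : ℚ) ^ Nat.totient n * (1 / 4) ≤ (cyc n q : ℚ) :=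
    le_trans (mul_le_mul_of_nonneg_left h2 (by positivity)) h1
  have h4 : ((q ^ Nat.totient n : ℕ) : ℚ) ≤ ((4 * cyc n q : ℕ) : ℚ) := by
    push_cast; linarith
  exact_mod_cast h4




theorem totient_sq_bound (n : ℕ) :
    (Odd n → n ≤ Nat.totient n ^ 2) ∧ (0 < n → n ≤ 2 * Nat.totient n ^ 2) := by
  induction n using Nat.recOnPrimeCoprime with
  | zero => simp
  | prime_pow p k hp =>
    rcases Nat.eq_zero_or_pos k with hk | hk
    · subst hk; simp
    · obtain ⟨j, rfl⟩ : ∃ j, k = j + 1 := ⟨k - 1, by omega⟩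
      rw [Nat.totient_prime_pow hp hk, Nat.add_sub_cancel]
      have hp2 := hp.two_le
      have hpj : 1 ≤ p ^ j := Nat.one_le_pow _ _ (by omega)
      have hodd : 3 ≤ p → p ^ (j + 1) ≤ (p ^ j * (p - 1)) ^ 2 := by
        intro h3
        obtain ⟨r, rfl⟩ : ∃ r, p = r + 1 := ⟨p - 1, by omega⟩
        rw [Nat.add_sub_cancel, mul_pow, pow_succ]
        have h4 : r + 1 ≤ r ^ 2 := by nlinarith
        have h5 : (r + 1) ^ j ≤ ((r + 1) ^ j) ^ 2 := by nlinarith
        exact Nat.mul_le_mul h5 h4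
      constructor
      · intro ho
        apply hodd
        have hpodd : Odd p := by
          rcases Nat.even_or_odd p with he | ho'
          · exact absurd (he.pow_of_ne_zero (by omega)) (Nat.not_even_iff_odd.mpr ho)
          · exact ho'
        rcases hpodd with ⟨t, ht⟩
        omega
      · intro _
        rcases Nat.lt_or_ge p 3 with h3 | h3
        · have : p = 2 := by omega
          subst this
          have : (2 ^ j * (2 - 1)) ^ 2 = 2 ^ j * 2 ^ j := by ring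
          rw [this, pow_succ]
          nlinarith
        · have := hodd h3
          omega
  | coprime a b ha hb hab iha ihb =>
    rw [Nat.totient_mul hab, mul_pow]
    constructor
    · intro ho
      rw [Nat.odd_mul] at ho
      exact Nat.mul_le_mul (iha.1 ho.1) (ihb.1 ho.2)
    · intro _
      rcases Nat.even_or_odd a with he | ho
      · have hbo : Odd b := by
          rcases Nat.even_or_odd b with he' | ho'
          · exfalso
            have h2 : 2 ∣ Nat.gcd a b := Nat.dvd_gcd he.two_dvd he'.two_dvd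
            rw [Nat.Coprime.gcd_eq_one hab] at h2
            omega
          · exact ho'
        have h1 := iha.2 (by omega)
        have h2 := ihb.1 hbo
        calc a * b ≤ (2 * Nat.totient a ^ 2) * Nat.totient b ^ 2 := Nat.mul_le_mul h1 h2
          _ = 2 * (Nat.totient a ^ 2 * Nat.totient b ^ 2) := by ring
      · have h1 := iha.1 ho
        have h2 := ihb.2 (by omega)
        calc a * b ≤ Nat.totient a ^ 2 * (2 * Nat.totient b ^ 2) := Nat.mul_le_mul h1 h2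
          _ = 2 * (Nat.totient a ^ 2 * Nat.totient b ^ 2) := by ring

theorem two_pow_bound (k : ℕ) (hk : 24 ≤ k) : 48 * k ^ 4 + 8 * k ^ 2 ≤ 2 ^ k := by
  induction k, hk using Nat.le_induction with
  | base => norm_num
  | succ k hk ih =>
    rw [pow_succ 2 k]
    have ha : k ^ 2 ≤ k ^ 3 := Nat.pow_le_pow_right (by omega) (by omega)
    have hb : k ≤ k ^ 3 := by
      calc k = k ^ 1 := (pow_one k).symm
        _ ≤ k ^ 3 := Nat.pow_le_pow_right (by omega) (by omega)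
    have hc : 1 ≤ k ^ 3 := Nat.one_le_pow _ _ (by omega)
    have hd : 24 * k ^ 3 ≤ k ^ 4 := by
      have : k ^ 4 = k * k ^ 3 := by ring
      rw [this]
      exact Nat.mul_le_mul_right _ hk
    have h1 : (k + 1) ^ 4 ≤ 2 * k ^ 4 := by
      have : (k + 1) ^ 4 = k ^ 4 + 4 * k ^ 3 + 6 * k ^ 2 + 4 * k + 1 := by ring
      rw [this]
      omega
    have h2 : (k + 1) ^ 2 ≤ 2 * k ^ 2 := by nlinarith
    omega

/-- a kernel-friendly totient -/
def totAux (e : ℕ) : ℕ → ℕ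
  | 0 => 0
  | (k+1) => totAux e k + if Nat.gcd e k = 1 then 1 else 0

theorem totAux_eq (e k : ℕ) :
    totAux e k = ((Finset.range k).filter (fun a => e.Coprime a)).card := by
  induction k with
  | zero => simp [totAux]
  | succ k ih =>
    rw [totAux, ih, Finset.range_add_one, Finset.filter_insert]
    by_cases h : Nat.gcd e k = 1
    · have hc : e.Coprime k := h
      rw [if_pos h, if_pos hc, Finset.card_insert_of_notMem]
      simp
    · have hc : ¬ e.Coprime k := h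
      rw [if_neg h, if_neg hc, add_zero]

theorem totAux_self (e : ℕ) : totAux e e = Nat.totient e := by
  rw [totAux_eq, Nat.totient_eq_card_coprime]

def q0 (e : ℕ) : ℕ :=
  if e < 43 then
    match e with
    | 3 => 11 | 4 => 15 | 5 => 5 | 6 => 22 | 7 => 3 | 8 => 6 | 9 => 4 | 10 => 6 | 11 => 3
    | 12 => 7 | 14 => 4 | 15 => 3 | 16 => 3 | 18 => 4 | 20 => 3 | 21 => 3 | 22 => 3 | 24 => 4
    | 26 => 3 | 28 => 3 | 30 => 4 | 36 => 3 | 42 => 3
    | _ => 2
  else 2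

theorem q0_large (e : ℕ) (he : 43 ≤ e) : q0 e = 2 := by
  unfold q0
  rw [if_neg (by omega)]

theorem q0_le (e : ℕ) : q0 e ≤ 22 := by
  unfold q0
  split_ifs with h
  · interval_cases e <;> simp
  · omega

theorem table1 : ∀ e : ℕ, e < 1153 → 67 ≤ e → 24 ≤ totAux e e := by
  decide +kernel

theorem table2 : ∀ e : ℕ, e < 67 → 3 ≤ e → 12 * e ^ 2 + 4 * e ≤ (q0 e) ^ (totAux e e) := by
  decide +kernel

/-- explicit primitive divisors for the small pairs -/
def wit (q e : ℕ) : ℕ :=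
  match q, e with
  | 3, 3 => 13 | 5, 3 => 31 | 6, 3 => 43 | 7, 3 => 19 | 8, 3 => 73 | 9, 3 => 91 | 10, 3 => 37
  | 4, 4 => 17 | 5, 4 => 13 | 6, 4 => 37 | 7, 4 => 25 | 8, 4 => 65 | 9, 4 => 41 | 10, 4 => 101
  | 11, 4 => 61 | 12, 4 => 145 | 13, 4 => 85 | 14, 4 => 197 | 2, 5 => 31 | 3, 5 => 121
  | 4, 5 => 341 | 6, 6 => 31 | 7, 6 => 43 | 8, 6 => 19 | 9, 6 => 73 | 10, 6 => 91 | 11, 6 => 37
  | 12, 6 => 133 | 13, 6 => 157 | 14, 6 => 61 | 15, 6 => 211 | 16, 6 => 241 | 17, 6 => 91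
  | 18, 6 => 307 | 19, 6 => 343 | 20, 6 => 127 | 21, 6 => 421 | 2, 7 => 127 | 3, 8 => 41
  | 4, 8 => 257 | 5, 8 => 313 | 2, 9 => 73 | 3, 9 => 757 | 3, 10 => 61 | 4, 10 => 41
  | 5, 10 => 521 | 2, 11 => 2047 | 3, 12 => 73 | 4, 12 => 241 | 5, 12 => 601 | 6, 12 => 1261
  | 2, 14 => 43 | 3, 14 => 547 | 2, 15 => 151 | 2, 16 => 257 | 3, 18 => 703 | 2, 21 => 337
  | 2, 22 => 683 | 2, 24 => 241 | 3, 24 => 6481 | 2, 26 => 2731 | 2, 28 => 3277 | 2, 30 => 331
  | 3, 30 => 8401 | 2, 36 => 4033 | 2, 42 => 5419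
  | _, _ => 0

set_option synthInstance.maxSize 8192 in
set_option synthInstance.maxHeartbeats 800000 in
theorem table3 : ∀ e : ℕ, e < 43 → ∀ q : ℕ, q < 22 → (3 ≤ e ∧ 2 ≤ q ∧ q < q0 e ∧
    (q, e) ∉ [(2, 6), (2, 4), (2, 10), (2, 12), (2, 18), (3, 4), (3, 6), (5, 6), (2, 3), (2, 8), (2, 20), (4, 3), (4, 6)]) →
    (wit q e ∣ q ^ e - 1 ∧ (∀ i : ℕ, i < e → 1 ≤ i → Nat.Coprime (wit q e) (q ^ i - 1)) ∧
      3 * e + 1 ≤ wit q e) := by
  decide +kernel

/-- the product of `q ^ i - 1` for `1 ≤ i ≤ k` -/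
def prodAux (q : ℕ) : ℕ → ℕ
  | 0 => 1
  | (k+1) => prodAux q k * (q ^ (k+1) - 1)

theorem coprime_prodAux (m q : ℕ) (k : ℕ)
    (h : ∀ i, 1 ≤ i → i ≤ k → Nat.Coprime m (q ^ i - 1)) :
    Nat.Coprime m (prodAux q k) := by
  induction k with
  | zero => simp [prodAux]
  | succ k ih =>
    rw [prodAux]
    exact Nat.Coprime.mul_right (ih (fun i h1 h2 => h i h1 (by omega))) (h (k+1) (by omega) le_rfl)

/-- the primitive parts of the exceptional pairs -/
def bval (q e : ℕ) : ℕ :=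
  match q, e with
  | 2, 6 => 1 | 2, 4 => 5 | 2, 10 => 11 | 2, 12 => 13 | 2, 18 => 19 | 3, 4 => 5 | 3, 6 => 7
  | 5, 6 => 7 | 2, 3 => 7 | 2, 8 => 17 | 2, 20 => 41 | 4, 3 => 7 | 4, 6 => 13
  | _, _ => 0

theorem table4 : ∀ p ∈ ([(2, 6), (2, 4), (2, 10), (2, 12), (2, 18), (3, 4), (3, 6), (5, 6), (2, 3), (2, 8), (2, 20), (4, 3), (4, 6)] : List (ℕ × ℕ)),
    0 < bval p.1 p.2 ∧ bval p.1 p.2 ∣ p.1 ^ p.2 - 1 ∧
      (p.1 ^ p.2 - 1) / bval p.1 p.2 ∣ prodAux p.1 (p.2 - 1) ∧ bval p.1 p.2 ≤ 2 * p.2 + 1 := by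
  decide +kernel

theorem part2_general (q e m B : ℕ) (hB0 : 0 < B) (hB : B ∣ q ^ e - 1)
    (hC : (q ^ e - 1) / B ∣ prodAux q (e - 1))
    (hm : m ∣ q ^ e - 1) (hcop : ∀ i : ℕ, 1 ≤ i → i < e → Nat.Coprime m (q ^ i - 1)) :
    m ≤ B := by
  have h1 : Nat.Coprime m (prodAux q (e - 1)) :=
    coprime_prodAux m q (e - 1) (fun i h1 h2 => hcop i h1 (by omega))
  have h2 : Nat.Coprime m ((q ^ e - 1) / B) := Nat.Coprime.coprime_dvd_right hC h1
  have h3 : m ∣ B * ((q ^ e - 1) / B) := by rw [Nat.mul_div_cancel' hB]; exact hm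
  have h4 : m ∣ B := Nat.Coprime.dvd_of_dvd_mul_right h2 h3
  exact Nat.le_of_dvd hB0 h4

theorem main_general (q e : ℕ) (hq : 2 ≤ q) (he : 3 ≤ e)
    (h : 12 * e ^ 2 + 4 * e ≤ q ^ Nat.totient e) :
    ∃ m : ℕ, m ∣ q ^ e - 1 ∧ (∀ i : ℕ, 1 ≤ i → i < e → Nat.Coprime m (q ^ i - 1)) ∧
      3 * e + 1 ≤ m := by
  refine ⟨m0 e q, dvd_trans (m0_dvd_cyc e q) (cyc_dvd e q hq), m0_coprime e q hq he, ?_⟩
  have h1 := pow_totient_le q hq e (by omega)
  have h2 := cyc_le_m0_mul e q he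
  by_contra hlt
  push Not at hlt
  have h3 : m0 e q ≤ 3 * e := by omega
  have h4 := Nat.mul_le_mul_right e h3
  nlinarith

theorem big_or_small (q e : ℕ) (hq : 2 ≤ q) (he : 3 ≤ e) :
    12 * e ^ 2 + 4 * e ≤ q ^ Nat.totient e ∨ (e < 43 ∧ q < q0 e) := by
  rcases Nat.lt_or_ge e 67 with h67 | h67
  · rcases Nat.lt_or_ge q (q0 e) with hlt | hge
    · right
      refine ⟨?_, hlt⟩
      by_contra h43
      rw [q0_large e (by omega)] at hlt
      omega
    · left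
      have h1 := table2 e h67 he
      rw [totAux_self] at h1
      exact le_trans h1 (Nat.pow_le_pow_left hge _)
  · left
    have hT := (totient_sq_bound e).2 (by omega)
    have hφ : 24 ≤ Nat.totient e := by
      rcases Nat.lt_or_ge e 1153 with h | h
      · have := table1 e h h67
        rwa [totAux_self] at this
      · by_contra hlt
        push Not at hlt
        have h23 : Nat.totient e ≤ 23 := by omega
        have : Nat.totient e ^ 2 ≤ 23 ^ 2 := Nat.pow_le_pow_left h23 2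
        omega
    have h2 : 2 ^ Nat.totient e ≤ q ^ Nat.totient e := Nat.pow_le_pow_left hq _
    have h3 := two_pow_bound _ hφ
    have h5 : e ^ 2 ≤ (2 * Nat.totient e ^ 2) ^ 2 := Nat.pow_le_pow_left hT 2
    have h6 : (2 * Nat.totient e ^ 2) ^ 2 = 4 * Nat.totient e ^ 4 := by ring
    omega

/-- Size of the primitive part of `q^e - 1`. For a prime power `q` and `e ≥ 3`, call a divisor of `q^e - 1` primitive when it is coprime to `q^i - 1` for every `1 ≤ i < e`; the primitive part is the largest primitive divisor. Apart from thirteen exceptional pairs, the primitive part is at least `3e + 1`: there is a primitive divisor `m ≥ 3e + 1` unless `(q, e)` is `(2, 6)` (where every primitive divisor is 1), one of `(2,4), (2,10), (2,12), (2,18), (3,4), (3,6), (5,6)` (where the primitive part is exactly `e + 1`), or one of `(2,3), (2,8), (2,20), (4,3), (4,6)` (where it is exactly `2e + 1`). The statement asserts the existence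 of a primitive divisor `m ≥ 3e + 1` outside the thirteen pairs, and that every primitive divisor is at most `2e + 1` for the thirteen pairs. -/
theorem result (q e : ℕ) (hq : IsPrimePow q) (he : 3 ≤ e) :
    ((q, e) ∉ [(2, 6), (2, 4), (2, 10), (2, 12), (2, 18), (3, 4), (3, 6), (5, 6), (2, 3), (2, 8), (2, 20), (4, 3), (4, 6)] →
      ∃ m : ℕ, m ∣ q ^ e - 1 ∧ (∀ i : ℕ, 1 ≤ i → i < e → Nat.Coprime m (q ^ i - 1)) ∧ 3 * e + 1 ≤ m) ∧
    ((q, e) ∈ [(2, 6), (2, 4), (2, 10), (2, 12), (2, 18), (3, 4), (3, 6), (5, 6), (2, 3), (2, 8), (2, 20), (4, 3), (4, 6)] →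
      ∀ m : ℕ, m ∣ q ^ e - 1 → (∀ i : ℕ, 1 ≤ i → i < e → Nat.Coprime m (q ^ i - 1)) → m ≤ 2 * e + 1) := by
  have hq2 : 2 ≤ q := hq.two_le
  constructor
  · intro hnot
    rcases big_or_small q e hq2 he with h | ⟨h43, hlt⟩
    · exact main_general q e hq2 he h
    · have hq22 : q < 22 := lt_of_lt_of_le hlt (q0_le e)
      obtain ⟨h1, h2, h3⟩ := table3 e h43 q hq22 ⟨he, hq2, hlt, hnot⟩
      exact ⟨wit q e, h1, fun i hi1 hie => h2 i hie hi1, h3⟩
  · intro hmem m hm hcop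
    obtain ⟨hB0, hB, hC, hle⟩ := table4 (q, e) hmem
    exact le_trans (part2_general q e m _ hB0 hB hC hm hcop) hle

end Cfsg.Agent.S4423
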