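import Cfsg.Statements.S4424
import Cfsg.Agent.Lib.Helper84.PReg4

set_option autoImplicit false
open Cfsg

namespace Cfsg.Agent.S4424

/-- Let χ be an irreducible character of the finite group G lying in the p-block B (relative to a maximal ideal M of the algebraic integers containing p), and let p^a be the p-part of the order of G. Then the class function that equals p^a · χ on the p-regular elements and vanishes on the p-singular elements is an integer combination of the irreducible characters in B: there are integers a_ψ, zero for ψ outside B, with that function equal to Σ a_ψ ψ. -/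
theorem result {G : Type*} [Group G] [Finite G] (p : ℕ) [Fact p.Prime] (M : Ideal Cfsg.AlgInt) (hM : Cfsg.IsPModular p M) (B : Set (Cfsg.IrrCharacter G)) (hB : Cfsg.IsPBlock M B) (χ : Cfsg.IrrCharacter G) (hχ : χ ∈ B) : ∃ a : Cfsg.IrrCharacter G → ℤ, (∀ ψ, ψ ∉ B → a ψ = 0) ∧ (fun x : G => if p ∣ orderOf x then (0 : ℂ) else ((p ^ (Nat.card G).factorization p : ℕ) : ℂ) * (χ : G → ℂ) x) = fun x => ∑ᶠ ψ : Cfsg.IrrCharacter G, (a ψ : ℂ) * (ψ : G → ℂ) x :=
  Cfsg.Agent.Lib.Helper84.preg_block p M hM B hB χ hχ

end Cfsg.Agent.S4424
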