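import Cfsg.Statements.S4427
import Cfsg.Agent.Lib.Helper74.FCMain

set_option autoImplicit false
open Cfsg

namespace Cfsg.Agent.S4427

/-- Let G be a finite group of order p^a · q^b · r^c with p, q, r distinct primes, and suppose that G has exactly q^b · r^c elements of order not divisible by p. Then G has a normal p-complement: a normal subgroup of order q^b · r^c. -/
theorem result {G : Type*} [Group G] [Finite G] (p q r a b c : ℕ) (hp : p.Prime) (hq : q.Prime) (hr : r.Prime) (hpq : p ≠ q) (hpr : p ≠ r) (hqr : q ≠ r) (hG : Nat.card G = p ^ a * q ^ b * r ^ c) (hcount : Nat.card {g : G // ¬ p ∣ orderOf g} = q ^ b * r ^ c) : ∃ N : Subgroup G, N.Normal ∧ Nat.card N = q ^ b * r ^ c := by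
  classical
  have : Fintype G := Fintype.ofFinite G
  have : Fact p.Prime := ⟨hp⟩
  have : Fact q.Prime := ⟨hq⟩
  have : Fact r.Prime := ⟨hr⟩
  obtain ⟨Q, hQ⟩ := Sylow.exists_subgroup_card_pow_prime (G := G) q (n := b)
    (by rw [hG]; exact Dvd.dvd.mul_right (Dvd.intro_left _ rfl) _)
  obtain ⟨R, hR⟩ := Sylow.exists_subgroup_card_pow_prime (G := G) r (n := c)
    (by rw [hG]; exact Dvd.intro_left _ rfl)
  have hpQ : ¬ p ∣ Nat.card Q := by
    rw [hQ]
    intro h
    exact hpq ((Nat.prime_dvd_prime_iff_eq hp hq).1 (hp.dvd_of_dvd_pow h))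
  have hpR : ¬ p ∣ Nat.card R := by
    rw [hR]
    intro h
    exact hpr ((Nat.prime_dvd_prime_iff_eq hp hr).1 (hp.dvd_of_dvd_pow h))
  have hcop : (Nat.card Q).Coprime (Nat.card R) := by
    rw [hQ, hR]
    exact Nat.Coprime.pow _ _ ((Nat.coprime_primes hq hr).2 hqr)
  have hG' : Fintype.card G = p ^ a * (Nat.card Q * Nat.card R) := by
    rw [← Nat.card_eq_fintype_card, hG, hQ, hR, mul_assoc]
  have hL : Nat.card {g : G // ¬ p ∣ orderOf g} = Nat.card Q * Nat.card R := by
    rw [hcount, hQ, hR]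
  obtain ⟨N, hN, hcard⟩ := Cfsg.Agent.Lib.Helper74.FC.main_fc p Q R a hpQ hpR hcop hG' hL
  exact ⟨N, hN, by rw [hcard, hQ, hR]⟩

end Cfsg.Agent.S4427
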