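import Cfsg.Statements.S4428
import Mathlib
import Cfsg.Agent.Lib.Helper22.HeightZero
import Cfsg.Agent.Lib.Helper22.IndBlock
import Cfsg.Agent.Lib.Helper81.CentralDefect
import Cfsg.Agent.Lib.Helper80.GenDec
import Cfsg.Agent.S0937

set_option autoImplicit false
open Cfsg

namespace Cfsg.Agent.S4428

open Cfsg.Agent.Lib.Helper4 Cfsg.Agent.Lib.Helper21 Cfsg.Agent.Lib.Helper22
open Cfsg.Agent.Lib.Helper79 (blockOf_eq_of_mem isPBlock_blockOf sameBlock_symm')
open scoped ComplexConjugate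

theorem result {G : Type*} [Group G] [Finite G] (p : ℕ) [Fact p.Prime] (M : Ideal Cfsg.AlgInt) (hM : Cfsg.IsPModular p M) (B : Set (Cfsg.IrrCharacter G)) (hB : Cfsg.IsPBlock M B) (χ : Cfsg.IrrCharacter G) (hχ : χ ∈ B) (h0 : Cfsg.blockHeight p B (χ : G → ℂ) = 0) (x : G) (hx : ∃ k : ℕ, orderOf x = p ^ k) (b : Set (Cfsg.IrrCharacter (Subgroup.centralizer ({x} : Set G)))) (hb : Cfsg.IsInducedBlock M (Subgroup.centralizer ({x} : Set G)) b B) : ∃ y : Subgroup.centralizer ({x} : Set G), ¬ p ∣ orderOf y ∧ Cfsg.blockPart b (fun c : Subgroup.centralizer ({x} : Set G) => (χ : G → ℂ) (x * (c : G))) y ≠ 0 := by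
  classical
  letI := Fintype.ofFinite G
  letI : Fintype (Subgroup.centralizer ({x} : Set G)) := Fintype.ofFinite _
  haveI := irr_finite (G := Subgroup.centralizer ({x} : Set G))
  letI := Fintype.ofFinite (IrrCharacter (Subgroup.centralizer ({x} : Set G)))
  have hp : p.Prime := Fact.out
  have hBeq : B = blockOf M (χ : G → ℂ) := blockOf_eq_of_mem hM hb.2.1 hχ
  have h0' : blockHeight p (blockOf M (χ : G → ℂ)) (χ : G → ℂ) = 0 := by
    rw [← hBeq]
    exact h0
  have kf := omega_ureg_self_not_locIdeal hM χ h0'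
  have haL : IsLocClass M (ureg p (χ : G → ℂ)) := isLocClass_ureg hM χ
  set φ : Subgroup.centralizer ({x} : Set G) → ℂ := fun h => (χ : G → ℂ) h with hφ
  have hφc : IsCharacter (Subgroup.centralizer ({x} : Set G)) φ :=
    isCharacter_restrict _ _ (isCharacter_of_irr χ)
  have hres' : (fun h : Subgroup.centralizer ({x} : Set G) => ureg p (χ : G → ℂ) (h : G)) =
      ureg p φ := by
    funext h
    simp only [ureg_apply, Subgroup.orderOf_coe, hφ]
  obtain ⟨ξ₀, hξ₀b, hξ₀0⟩ := exists_height_zero (p := p) hM b hb.1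
  have hbeq : b = blockOf M (ξ₀ : Subgroup.centralizer ({x} : Set G) → ℂ) :=
    blockOf_eq_of_mem hM hb.1 hξ₀b
  have key : MemLocalIdeal M (omega (ξ₀ : Subgroup.centralizer ({x} : Set G) → ℂ) (ureg p φ) -
      omega (χ : G → ℂ) (ureg p (χ : G → ℂ))) := by
    have h1 := omega_indFun_sub_locIdeal hM _ b B hb ξ₀ hξ₀b χ hχ _ haL.1 haL.2
    rwa [omega_indFun_res _ _ _ haL.1, hres'] at h1
  have hnot : ¬ MemLocalIdeal M
      (omega (ξ₀ : Subgroup.centralizer ({x} : Set G) → ℂ) (ureg p φ)) := by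
    intro h
    apply kf
    have := locIdeal_sub hM h key
    simpa using this
  obtain ⟨m, hm⟩ := exists_decomp_of_isCharacter φ hφc
  -- `x` as a central element of its centralizer
  have hxC : x ∈ Subgroup.centralizer ({x} : Set G) := by
    rw [Subgroup.mem_centralizer_iff]
    intro h hh
    rw [Set.mem_singleton_iff.mp hh]
  have hxcen : (⟨x, hxC⟩ : Subgroup.centralizer ({x} : Set G)) ∈
      Subgroup.center (Subgroup.centralizer ({x} : Set G)) := by
    rw [Subgroup.mem_center_iff]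
    intro c
    apply Subtype.ext
    have hc2 : (c : G) ∈ Subgroup.centralizer ({x} : Set G) := c.2
    have h1 := Subgroup.mem_centralizer_iff.mp hc2 x rfl
    exact h1.symm
  set xC : Subgroup.centralizer ({x} : Set G) := ⟨x, hxC⟩ with hxCdef
  set ε : IrrCharacter (Subgroup.centralizer ({x} : Set G)) → ℂ :=
    fun ψ => (ψ : Subgroup.centralizer ({x} : Set G) → ℂ) xC /
      (ψ : Subgroup.centralizer ({x} : Set G) → ℂ) 1 with hε
  have hεmul : ∀ (ψ : IrrCharacter (Subgroup.centralizer ({x} : Set G)))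
      (c : Subgroup.centralizer ({x} : Set G)),
      (ψ : Subgroup.centralizer ({x} : Set G) → ℂ) (xC * c) =
        ε ψ * (ψ : Subgroup.centralizer ({x} : Set G) → ℂ) c := by
    intro ψ c
    have h1 := Cfsg.Agent.Lib.Helper81.irr_mul_central ψ c xC hxcen
    have hne := irr_one_ne_zero ψ
    have hcomm : c * xC = xC * c := Subgroup.mem_center_iff.mp hxcen c
    rw [hcomm] at h1
    simp only [hε]
    field_simp
    linear_combination -h1
  have hεpow : ∀ ψ : IrrCharacter (Subgroup.centralizer ({x} : Set G)),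
      ∃ k : ℕ, ε ψ ^ (p ^ k) = 1 := by
    obtain ⟨k, hk⟩ := hx
    intro ψ
    refine ⟨k, ?_⟩
    have hpow : ∀ n : ℕ, ε ψ ^ n =
        (ψ : Subgroup.centralizer ({x} : Set G) → ℂ) (xC ^ n) /
          (ψ : Subgroup.centralizer ({x} : Set G) → ℂ) 1 := by
      intro n
      induction n with
      | zero => simp [div_self (irr_one_ne_zero ψ)]
      | succ n ih =>
        rw [pow_succ, ih, pow_succ', hεmul ψ (xC ^ n)]
        ring
    rw [hpow]
    have h1 : xC ^ (p ^ k) = 1 := by
      apply Subtype.ext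
      show x ^ (p ^ k) = 1
      rw [← hk]; exact pow_orderOf_eq_one x
    rw [h1, div_self (irr_one_ne_zero ψ)]
  have hεJ : ∀ ψ : IrrCharacter (Subgroup.centralizer ({x} : Set G)),
      MemLocalIdeal M (ε ψ - 1) := fun ψ => by
    obtain ⟨k, hk⟩ := hεpow ψ
    exact locIdeal_ppow_root hM _ k hk
  set ϑ : Subgroup.centralizer ({x} : Set G) → ℂ :=
    fun c => (χ : G → ℂ) (x * (c : G)) with hϑ
  have hϑeq : ϑ = ∑ ψ : IrrCharacter (Subgroup.centralizer ({x} : Set G)),
      ((m ψ : ℂ) * ε ψ) • (ψ : Subgroup.centralizer ({x} : Set G) → ℂ) := by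
    funext c
    have h1 : ϑ c = φ (xC * c) := rfl
    rw [h1, hm]
    simp only [Finset.sum_apply, Pi.smul_apply, smul_eq_mul]
    refine Finset.sum_congr rfl fun ψ _ => ?_
    rw [hεmul]; ring
  by_contra hcon
  push Not at hcon
  apply hnot
  have hbp : ∀ y : Subgroup.centralizer ({x} : Set G), blockPart b ϑ y =
      ∑ ψ : IrrCharacter (Subgroup.centralizer ({x} : Set G)),
        if ψ ∈ b then (m ψ : ℂ) * ε ψ * (ψ : Subgroup.centralizer ({x} : Set G) → ℂ) y
        else 0 := by
    intro y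
    rw [Cfsg.Agent.Lib.Helper80.GenDec.blockPart_eq]
    refine Finset.sum_congr rfl fun ψ _ => ?_
    split_ifs with h
    · congr 1
      rw [hϑeq]
      exact classInner_sum_irr (fun ψ => (m ψ : ℂ) * ε ψ) ψ
    · rfl
  have hzero : ∑ y : Subgroup.centralizer ({x} : Set G),
      ureg p (ξ₀ : Subgroup.centralizer ({x} : Set G) → ℂ) y * blockPart b ϑ y = 0 := by
    refine Finset.sum_eq_zero fun y _ => ?_
    by_cases hy : p ∣ orderOf y
    · rw [ureg_apply, if_pos hy, zero_mul]
    · rw [hcon y hy, mul_zero]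
  have hexp : ∑ y : Subgroup.centralizer ({x} : Set G),
      ureg p (ξ₀ : Subgroup.centralizer ({x} : Set G) → ℂ) y * blockPart b ϑ y =
      (ξ₀ : Subgroup.centralizer ({x} : Set G) → ℂ) 1 *
        ∑ ψ : IrrCharacter (Subgroup.centralizer ({x} : Set G)),
          if ψ ∈ b then (m ψ : ℂ) * ε ψ *
            omega (ξ₀ : Subgroup.centralizer ({x} : Set G) → ℂ)
              (ureg p (ψ : Subgroup.centralizer ({x} : Set G) → ℂ)) else 0 := by
    simp only [hbp, Finset.mul_sum]
    rw [Finset.sum_comm]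
    refine Finset.sum_congr rfl fun ψ _ => ?_
    split_ifs with h
    · have h3 := omega_ureg_comm (p := p) ξ₀ ψ
      have h4 : ∑ y : Subgroup.centralizer ({x} : Set G),
          ureg p (ξ₀ : Subgroup.centralizer ({x} : Set G) → ℂ) y *
            ((m ψ : ℂ) * ε ψ * (ψ : Subgroup.centralizer ({x} : Set G) → ℂ) y) =
          (m ψ : ℂ) * ε ψ * ((ψ : Subgroup.centralizer ({x} : Set G) → ℂ) 1 *
            omega (ψ : Subgroup.centralizer ({x} : Set G) → ℂ)
              (ureg p (ξ₀ : Subgroup.centralizer ({x} : Set G) → ℂ))) := by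
        rw [omega_def, mul_div_cancel₀ _ (irr_one_ne_zero ψ), Finset.mul_sum]
        refine Finset.sum_congr rfl fun y _ => ?_
        ring
      rw [h4, h3]; ring
    · simp
  rw [hexp] at hzero
  have hsum0 : ∑ ψ : IrrCharacter (Subgroup.centralizer ({x} : Set G)),
      (if ψ ∈ b then (m ψ : ℂ) * ε ψ *
        omega (ξ₀ : Subgroup.centralizer ({x} : Set G) → ℂ)
          (ureg p (ψ : Subgroup.centralizer ({x} : Set G) → ℂ)) else 0) = 0 := by
    rcases mul_eq_zero.mp hzero with h | h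
    · exact absurd h (irr_one_ne_zero ξ₀)
    · exact h
  rw [hm, Cfsg.Agent.S0937.omega_ureg_decomp]
  have hrew : ∑ ψ : IrrCharacter (Subgroup.centralizer ({x} : Set G)), (m ψ : ℂ) *
        omega (ξ₀ : Subgroup.centralizer ({x} : Set G) → ℂ)
          (ureg p (ψ : Subgroup.centralizer ({x} : Set G) → ℂ)) =
      ∑ ψ : IrrCharacter (Subgroup.centralizer ({x} : Set G)), ((m ψ : ℂ) *
        omega (ξ₀ : Subgroup.centralizer ({x} : Set G) → ℂ)
          (ureg p (ψ : Subgroup.centralizer ({x} : Set G) → ℂ)) -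
        if ψ ∈ b then (m ψ : ℂ) * ε ψ *
          omega (ξ₀ : Subgroup.centralizer ({x} : Set G) → ℂ)
            (ureg p (ψ : Subgroup.centralizer ({x} : Set G) → ℂ)) else 0) := by
    rw [Finset.sum_sub_distrib, hsum0, sub_zero]
  rw [hrew]
  refine locIdeal_sum hM _ _ fun ψ _ => ?_
  split_ifs with h
  · have e : (m ψ : ℂ) * omega (ξ₀ : Subgroup.centralizer ({x} : Set G) → ℂ)
          (ureg p (ψ : Subgroup.centralizer ({x} : Set G) → ℂ)) -
        (m ψ : ℂ) * ε ψ * omega (ξ₀ : Subgroup.centralizer ({x} : Set G) → ℂ)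
          (ureg p (ψ : Subgroup.centralizer ({x} : Set G) → ℂ)) =
        -((ε ψ - 1) * ((m ψ : ℂ) * omega (ξ₀ : Subgroup.centralizer ({x} : Set G) → ℂ)
          (ureg p (ψ : Subgroup.centralizer ({x} : Set G) → ℂ)))) := by ring
    rw [e]
    exact locIdeal_neg (locIdeal_mul_right hM (hεJ ψ) (locRing_mul hM (locRing_natCast hM _)
      (omega_locRing hM ξ₀ (isLocClass_ureg hM ψ))))
  · rw [sub_zero]
    have h1 : ξ₀ ∉ blockOf M (ψ : Subgroup.centralizer ({x} : Set G) → ℂ) := by
      intro h'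
      apply h
      rw [hbeq]
      exact sameBlock_symm' hM h'
    rw [omega_ureg_eq_zero hM ψ ξ₀ h1, mul_zero]
    exact locIdeal_zero hM

end Cfsg.Agent.S4428
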