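import Cfsg.Statements.S4432
import Mathlib
import Cfsg.Agent.Lib.Helper33.CoverGU

set_option autoImplicit false
open Cfsg

namespace Cfsg.Agent.S4432

open Cfsg.Agent.Lib Cfsg.Agent.Lib.Helper4 Cfsg.Agent.Lib.Helper21 Cfsg.Agent.Lib.Helper22 Cfsg.Agent.Lib.Helper20 Cfsg.Agent.Lib.Helper33
open scoped ComplexConjugate

/-- Let N be a normal subgroup of the finite group G, b a block of N and B a block of G (relative to a maximal ideal M of the algebraic integers containing p) such that B covers b: some member of B has a constituent in b on restriction to N. Then every θ ∈ b is a constituent of the restriction of some χ ∈ B. -/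
theorem result {G : Type*} [Group G] [Fintype G] (p : ℕ) [Fact p.Prime] (M : Ideal Cfsg.AlgInt) (hM : Cfsg.IsPModular p M) (N : Subgroup G) [hN : N.Normal] [Fintype N] (B : Set (Cfsg.IrrCharacter G)) (hB : Cfsg.IsPBlock M B) (b : Set (Cfsg.IrrCharacter N)) (hb : Cfsg.IsPBlock M b) (hcov : (∃ χ ∈ B, ∃ θ ∈ b, Cfsg.classInner (fun n : N => (χ : G → ℂ) n) (θ : N → ℂ) ≠ 0)) (θ : Cfsg.IrrCharacter N) (hθ : θ ∈ b) : ∃ χ ∈ B, Cfsg.classInner (fun n : N => (χ : G → ℂ) n) (θ : N → ℂ) ≠ 0 := by
  classical
  by_contra hcon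
  push Not at hcon
  apply cover_unit N hM b hb B hB hcov
  intro w u hu hul hus θ' hθ'
  -- the orbit of θ
  set O : Set (IrrCharacter N) := {φ | ∃ g : G, φ = irrConjFun N θ g} with hO
  have hOst : ∀ φ ∈ O, ∀ g : G, irrConjFun N φ g ∈ O := by
    rintro φ ⟨h, rfl⟩ g
    exact ⟨h * g, irrConjFun_irrConjFun N θ h g⟩
  have hθO : θ ∈ O := ⟨1, (irrConjFun_one N θ).symm⟩
  have hεcf : IsClassFunction G (bG N O) :=
    isClassFunction_extendByZero N _ (blockCoeff_conj_invariant N O hOst)
  have hBcf := blockCoeff_isClassFunction B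
  have hε0 : conv (bG N O) (blockCoeff B) = 0 := by
    refine eq_zero_of_omega_eq_zero _ (conv_isClassFunction hεcf hBcf) (fun ψ => ?_)
    rw [omega_conv ψ _ _ hεcf hBcf, omega_blockCoeff]
    by_cases hψ : ψ ∈ B
    · rw [omega_def, sum_bG_mul_irr_eq_zero N O ψ, zero_div, zero_mul]
      rintro φ ⟨g, rfl⟩
      rw [irrConjFun_coe, classInner_res_conjFun N (isClassFunction_irr ψ) _ g]
      exact hcon ψ hψ
    · rw [if_neg hψ, mul_zero]
  -- the element y = i_w * u
  set t := trunc N w (blockCoeff B) with ht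
  have hBinv : NInv N (blockCoeff B) := fun n _ g => hBcf g n
  have hbGinv : NInv N (bG N b) := ext_nInv N (blockCoeff_isClassFunction b)
  have hbGloc : ∀ g, MemLocalRing M (bG N b g) := bG_loc N hM b (osima hM b hb)
  have hcinv : NInv N (conv (bG N b) t) := nInv_conv N hbGinv (trunc_nInv N w hBinv)
  have hcloc : ∀ g, MemLocalRing M (conv (bG N b) t g) :=
    fun g => conv_locRing hM hbGloc (trunc_loc N hM w (osima hM B hB)) g
  have hcsupp : SuppOn N w (conv (bG N b) t) := by
    have := suppOn_conv N (ext_suppOn N (blockCoeff b)) (trunc_suppOn N w (blockCoeff B))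
    rwa [one_mul] at this
  have hysupp : SuppOn N 1 (conv (conv (bG N b) t) u) := by
    have := suppOn_conv N hcsupp hus
    rwa [mul_inv_cancel] at this
  have hyinv : NInv N (conv (conv (bG N b) t) u) := nInv_conv N hcinv hu
  have hyloc : ∀ g, MemLocalRing M (conv (conv (bG N b) t) u g) :=
    fun g => conv_locRing hM hcloc hul g
  have hfcf : IsClassFunction N (resF N (conv (conv (bG N b) t) u)) :=
    resF_isClassFunction N hyinv
  -- ε kills y
  have h1 : conv (bG N O) (conv (conv (bG N b) t) u) = 0 := by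
    have h2 : conv (bG N O) t = 0 := by
      have h3 : conv (bG N O) t = trunc N w (conv (bG N O) (blockCoeff B)) :=
        conv_ext_trunc N (blockCoeff O) (blockCoeff B) w
      rw [h3, hε0, trunc_zero]
    rw [← conv_assoc, ← conv_assoc, conv_comm_of_isClassFunction (bG N O) (bG N b) hεcf,
      conv_assoc (bG N b), h2, conv_zero_right, conv_zero_left]
  have h4 : conv (blockCoeff O) (resF N (conv (conv (bG N b) t) u)) = 0 := by
    have h5 : conv (bG N O) (extendByZero N (resF N (conv (conv (bG N b) t) u))) = 0 := by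
      rw [ext_resF N hysupp]
      exact h1
    have h6 := congrArg (resF N) h5
    have h6' : resF N (conv (bG N O) (extendByZero N (resF N (conv (conv (bG N b) t) u)))) =
        conv (blockCoeff O) (resF N (conv (conv (bG N b) t) u)) := resF_conv_ext N _ _
    rw [h6'] at h6
    exact h6
  have h7 : omega (θ : N → ℂ) (resF N (conv (conv (bG N b) t) u)) = 0 := by
    have h8 := congrArg (omega (θ : N → ℂ)) h4
    rw [omega_conv θ _ _ (blockCoeff_isClassFunction O) hfcf, omega_blockCoeff, if_pos hθO,
      one_mul] at h8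
    rw [h8]
    simp [omega_def]
  obtain ⟨θ₀, rfl⟩ := hb
  have hsame : SameBlock M (θ' : N → ℂ) (θ : N → ℂ) :=
    sameBlock_trans hM (sameBlock_symm hθ') hθ
  have h9 := omega_sub_locIdeal hM _ hfcf (fun n => hyloc n) θ' θ hsame
  rw [h7, sub_zero] at h9
  exact h9

end Cfsg.Agent.S4432
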