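import Cfsg.Statements.S4433
import Mathlib
import Cfsg.Agent.Lib.Helper22.Cover
import Cfsg.Agent.Lib.Helper22.IndDefect
import Cfsg.Agent.Lib.Helper83.Quot
import Cfsg.Agent.Lib.Helper85.QuotBlock
import Cfsg.Agent.S0906
import Cfsg.Agent.S0911

set_option autoImplicit false
open Cfsg

namespace Cfsg.Agent.S4433

open Cfsg.Agent.Lib Cfsg.Agent.Lib.Helper4 Cfsg.Agent.Lib.Helper21 Cfsg.Agent.Lib.Helper22 Cfsg.Agent.Lib.Helper20
open scoped ComplexConjugate

/-- Let N be a normal subgroup of the finite group G and write Ḡ = G/N; fix a maximal ideal M of the algebraic integers containing p. Let B̄ be a block of Ḡ contained in the block B of G, in the sense that the inflation of every member of B̄ lies in B, and let D̄ be a defect group of B̄. Then B has a defect group P whose image in Ḡ contains D̄. -/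
theorem result {G : Type*} [Group G] [Finite G] (p : ℕ) [Fact p.Prime] (M : Ideal Cfsg.AlgInt) (hM : Cfsg.IsPModular p M) (N : Subgroup G) [N.Normal] (Bbar : Set (Cfsg.IrrCharacter (G ⧸ N))) (hBbar : Cfsg.IsPBlock M Bbar) (B : Set (Cfsg.IrrCharacter G)) (hB : Cfsg.IsPBlock M B) (hsub : ∀ χ ∈ Bbar, ∀ ψ : Cfsg.IrrCharacter G, (ψ : G → ℂ) = (χ : G ⧸ N → ℂ) ∘ QuotientGroup.mk → ψ ∈ B) (Dbar : Subgroup (G ⧸ N)) (hDbar : Cfsg.IsDefectGroup p M Bbar Dbar) : ∃ P : Subgroup G, Cfsg.IsDefectGroup p M B P ∧ Dbar ≤ P.map (QuotientGroup.mk' N) := by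
  classical
  let _ := Fintype.ofFinite G
  have hp : p.Prime := Fact.out
  obtain ⟨χb, rfl⟩ := hBbar
  have hχb : χb ∈ blockOf M (χb : G ⧸ N → ℂ) := mem_blockOf_self hM χb
  have hψ : Helper83.inflate N χb ∈ B := hsub χb hχb (Helper83.inflate N χb) rfl
  obtain ⟨g, hg⟩ := S0906.result p M hM B hB
  have hcc := hg.2.2 _ hψ
  have hinf : centralChar (Helper83.inflate N χb : G → ℂ) g =
      (((Subgroup.centralizer ({g} : Set G)).relIndex (Helper85.preCent N g) : ℕ) : ℂ) *
        centralChar (χb : G ⧸ N → ℂ) (g : G ⧸ N) :=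
    Helper85.centralChar_inflate_eq N (χb : G ⧸ N → ℂ) g
  rw [hinf] at hcc
  have hr : ¬ p ∣ (Subgroup.centralizer ({g} : Set G)).relIndex (Helper85.preCent N g) := by
    intro hdvd
    exact hcc (locIdeal_mul_right hM ((locIdeal_natCast_iff hM _).mpr hdvd)
      (centralChar_locRing hM χb _))
  have hcb : ¬ MemLocalIdeal M (centralChar (χb : G ⧸ N → ℂ) (g : G ⧸ N)) := by
    intro h
    exact hcc (locIdeal_mul_left hM (locRing_natCast hM _) h)
  obtain ⟨g0, hg0, Pb, rfl⟩ := hDbar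
  obtain ⟨P0⟩ : Nonempty (Sylow p (Subgroup.centralizer ({g} : Set G))) := inferInstance
  set C := Subgroup.centralizer ({g} : Set G) with hC
  set Cb := Subgroup.centralizer ({(g : G ⧸ N)} : Set (G ⧸ N)) with hCb
  obtain ⟨xb, Qb, hQ⟩ :=
    (S0911.result p M hM _ ⟨χb, rfl⟩ g0 hg0 Pb (g : G ⧸ N)).2 ⟨χb, hχb, hcb⟩
  set P := (P0 : Subgroup C).map C.subtype with hP
  have hPdef : IsDefectGroup p M B P := ⟨g, hg, P0, rfl⟩
  have hPC : P ≤ C := by
    rw [hP]; exact Subgroup.map_subtype_le _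
  have hCC : C ≤ Helper85.preCent N g := Helper85.centralizer_le_preCent N g
  have hPp : IsPGroup p P := by
    rw [hP]; exact P0.2.map _
  have hmapC : (Helper85.preCent N g).map (QuotientGroup.mk' N) = Cb := by
    unfold Helper85.preCent
    exact Subgroup.map_comap_eq_self_of_surjective (QuotientGroup.mk'_surjective N) _
  have hPbC : P.map (QuotientGroup.mk' N) ≤ Cb := by
    rw [← hmapC]; exact Subgroup.map_mono (hPC.trans hCC)
  have hidx : ¬ p ∣ (P.map (QuotientGroup.mk' N)).relIndex Cb := by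
    have h1 : P.relIndex C = (P0 : Subgroup C).index := by
      rw [hP]; unfold Subgroup.relIndex Subgroup.subgroupOf
      rw [Subgroup.comap_map_eq_self_of_injective C.subtype_injective]
    have h2 : P.relIndex C * C.relIndex (Helper85.preCent N g) =
        P.relIndex (Helper85.preCent N g) := Subgroup.relIndex_mul_relIndex _ _ _ hPC hCC
    have h3 : ¬ p ∣ P.relIndex (Helper85.preCent N g) := by
      rw [← h2, h1]
      exact hp.not_dvd_mul (Sylow.not_dvd_index P0) hr
    have h4 : (P.map (QuotientGroup.mk' N)).relIndex Cb =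
        ((P.map (QuotientGroup.mk' N)).comap (QuotientGroup.mk' N)).relIndex
          (Helper85.preCent N g) := by
      rw [Subgroup.relIndex_comap, hmapC]
    rw [h4]
    intro hdvd
    exact h3 (hdvd.trans (Subgroup.relIndex_dvd_of_le_left _ (Subgroup.le_comap_map _ _)))
  have hSp : IsPGroup p ((P.map (QuotientGroup.mk' N)).subgroupOf Cb) :=
    (hPp.map _).comap_subtype
  obtain ⟨c, hc⟩ := MulAction.exists_smul_eq Cb Qb (hSp.toSylow hidx)
  obtain ⟨t, ht⟩ := QuotientGroup.mk_surjective (((c : G ⧸ N) * xb)⁻¹)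
  refine ⟨P.map (MulAut.conj t).toMonoidHom, isDefectGroup_conj B P t hPdef, ?_⟩
  intro d hd
  have h1 : xb * d * xb⁻¹ ∈ (Qb : Subgroup Cb).map Cb.subtype := hQ ⟨d, hd, rfl⟩
  obtain ⟨e, he, hee⟩ := h1
  have h2 : c * e * c⁻¹ ∈ ((hSp.toSylow hidx : Sylow p Cb) : Subgroup Cb) := by
    rw [← hc, Sylow.coe_subgroup_smul]
    have := Subgroup.smul_mem_pointwise_smul e (MulAut.conj c) (Qb : Subgroup Cb) he
    simpa [MulAut.smul_def, MulAut.conj_apply] using this
  have h3 : ((c * e * c⁻¹ : Cb) : G ⧸ N) ∈ P.map (QuotientGroup.mk' N) := by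
    have := (IsPGroup.mem_toSylow hSp hidx).mp h2
    exact Subgroup.mem_subgroupOf.mp this
  obtain ⟨y, hy, hye⟩ := h3
  refine ⟨t * y * t⁻¹, ⟨y, hy, by simp [MulAut.conj_apply]⟩, ?_⟩
  have hye' : (y : G ⧸ N) = (c : G ⧸ N) * (xb * d * xb⁻¹) * (c : G ⧸ N)⁻¹ := by
    rw [← hee]
    exact hye
  show ((t * y * t⁻¹ : G) : G ⧸ N) = d
  rw [QuotientGroup.mk_mul, QuotientGroup.mk_mul, QuotientGroup.mk_inv, ht, hye']
  group

end Cfsg.Agent.S4433
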