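import Cfsg.Statements.S4434
import Mathlib
import Cfsg.Agent.S0906
import Cfsg.Agent.Lib.Helper85.QuotBlock
import Cfsg.Agent.Lib.Helper81.BlockReg
import Cfsg.Agent.Lib.Helper81.NormalP
import Cfsg.Agent.Lib.Helper81.BrMax2
import Cfsg.Agent.Lib.Helper81.CentralDefect
import Cfsg.Agent.Lib.Helper81.RelDefect
import Cfsg.Agent.Lib.Helper84.Fong
import Cfsg.Agent.Lib.Helper22.Cover
import Cfsg.Agent.Lib.Helper22.IndDefect
import Cfsg.Agent.Lib.Helper22.Defect
import Cfsg.Agent.Lib.Helper83.Quot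
import Cfsg.Agent.Lib.Helper79.Blk2
-- import your own Cfsg.Agent.* helpers here

set_option autoImplicit false
open Cfsg

namespace Cfsg.Agent.S4434

open Cfsg.Agent.Lib.Helper4 Cfsg.Agent.Lib.Helper21 Cfsg.Agent.Lib.Helper22 Cfsg.Agent.Lib.Helper85
open scoped ComplexConjugate

section Main

variable {G : Type*} [Group G] [Fintype G] {p : ℕ} [Fact p.Prime] {M : Ideal AlgInt}

open Classical in
theorem sum_irr_coset (N : Subgroup G) [N.Normal] [Fintype N] (χ : IrrCharacter G) (g : G) :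
    ∑ n : N, (χ : G → ℂ) (g * n) =
      if (∀ u ∈ N, (χ : G → ℂ) u = (χ : G → ℂ) 1) then (Nat.card N : ℂ) * (χ : G → ℂ) g
      else 0 := by
  split_ifs with h
  · obtain ⟨ψ, hψ⟩ := Cfsg.Agent.Lib.Helper83.exists_inflate_eq N χ h
    have h1 : ∀ n : N, (χ : G → ℂ) (g * n) = (χ : G → ℂ) g := by
      intro n
      rw [← hψ, Cfsg.Agent.Lib.Helper83.inflate_apply, Cfsg.Agent.Lib.Helper83.inflate_apply,
        QuotientGroup.mk_mul, (QuotientGroup.eq_one_iff (n : G)).mpr n.2, mul_one]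
    rw [Finset.sum_congr rfl (fun n _ => h1 n), Finset.sum_const, Finset.card_univ, nsmul_eq_mul,
      Nat.card_eq_fintype_card]
  · push Not at h
    obtain ⟨x, hxN, hx1⟩ := h
    exact Cfsg.Agent.Lib.Helper83.irr_sum_normal_eq_zero (N := N) χ.2 x hxN hx1 g

open Classical in
/-- The idempotent coefficients of the characters of `G ⧸ N` inflating into `B` are the fibre
sums of the idempotent coefficients of `B`. -/
theorem blockCoeff_deflate (N : Subgroup G) [N.Normal] [Fintype N] [Fintype (G ⧸ N)]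
    [Fintype (IrrCharacter G)] [Fintype (IrrCharacter (G ⧸ N))]
    (B : Set (IrrCharacter G)) (g : G) :
    blockCoeff {χ : IrrCharacter (G ⧸ N) | Cfsg.Agent.Lib.Helper83.inflate N χ ∈ B}
        (g : G ⧸ N) = ∑ n : N, blockCoeff B (g * n) := by
  have hcard : (Nat.card G : ℂ) = (Nat.card (G ⧸ N) : ℂ) * (Nat.card N : ℂ) := by
    exact_mod_cast Subgroup.card_eq_card_quotient_mul_card_subgroup N
  have hG0 : (Nat.card G : ℂ) ≠ 0 := card_ne_zero G
  have hN0 : (Nat.card N : ℂ) ≠ 0 := card_ne_zero N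
  have hQ0 : (Nat.card (G ⧸ N) : ℂ) ≠ 0 := card_ne_zero _
  have hR : ∑ n : N, blockCoeff B (g * n) = (Nat.card G : ℂ)⁻¹ * ((Nat.card N : ℂ) *
      ∑ χ : IrrCharacter G, (if χ ∈ B ∧ (∀ u ∈ N, (χ : G → ℂ) u = (χ : G → ℂ) 1) then
        (χ : G → ℂ) 1 * conj ((χ : G → ℂ) g) else 0)) := by
    simp_rw [blockCoeff_eq_sum]
    rw [← Finset.mul_sum, Finset.sum_comm]
    congr 1
    rw [Finset.mul_sum]
    refine Finset.sum_congr rfl fun χ _ => ?_
    rw [← Finset.mul_sum, ← Finset.mul_sum, ← map_sum, sum_irr_coset N χ g]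
    by_cases h1 : χ ∈ B
    · by_cases h2 : (∀ u ∈ N, (χ : G → ℂ) u = (χ : G → ℂ) 1)
      · have h12 : χ ∈ B ∧ (∀ u ∈ N, (χ : G → ℂ) u = (χ : G → ℂ) 1) := ⟨h1, h2⟩
        rw [if_pos h1, if_pos h2, if_pos h12, map_mul, Complex.conj_natCast]
        ring
      · have h12 : ¬ (χ ∈ B ∧ (∀ u ∈ N, (χ : G → ℂ) u = (χ : G → ℂ) 1)) := fun h => h2 h.2
        rw [if_neg h2, if_neg h12, map_zero, mul_zero, mul_zero, mul_zero]
    · have h12 : ¬ (χ ∈ B ∧ (∀ u ∈ N, (χ : G → ℂ) u = (χ : G → ℂ) 1)) := fun h => h1 h.1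
      rw [if_neg h1, if_neg h12, zero_mul, mul_zero]
  rw [hR, Cfsg.Agent.Lib.Helper81.sum_inflate_reindex N B
    (fun θ => (θ : G → ℂ) 1 * conj ((θ : G → ℂ) g)), blockCoeff_eq_sum]
  rw [hcard, mul_inv, mul_assoc, ← mul_assoc _ (Nat.card N : ℂ), inv_mul_cancel₀ hN0, one_mul]
  congr 1
  refine Finset.sum_congr rfl fun χ _ => ?_
  simp only [Set.mem_ofPred_eq, Cfsg.Agent.Lib.Helper83.inflate_apply, QuotientGroup.mk_one]
  split_ifs <;> simp

theorem sum_blockCoeff_coset (hM : IsPModular p M) (N : Subgroup G) [N.Normal] [Fintype N]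
    (hN : IsPGroup p N) (B : Set (IrrCharacter G)) (hB : IsPBlock M B) (x : G)
    (hx : ¬ p ∣ orderOf x) (hxN : x ∈ Subgroup.centralizer (N : Set G)) :
    ∑ n : N, blockCoeff B (x * n) = blockCoeff B x := by
  classical
  rw [Finset.sum_eq_single (1 : N)]
  · rw [Subgroup.coe_one, mul_one]
  · intro n _ hn1
    by_contra hne
    have hreg := pRegular_of_blockCoeff_ne_zero hM B hB (x * n) hne
    obtain ⟨k, hk⟩ := hN n
    have hk' : (n : G) ^ p ^ k = 1 := by
      have := congrArg (fun z : N => (z : G)) hk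
      simpa using this
    have hn1' : (n : G) ≠ 1 := fun h => hn1 (Subtype.ext h)
    have hc : Commute (n : G) x := Subgroup.mem_centralizer_iff.mp hxN n n.2
    have hsing := Cfsg.Agent.Lib.Helper81.singular_of_ppart_ne_one p (n : G) x hc hn1' k hk' hx
    rw [hc.eq] at hsing
    exact hreg hsing
  · intro h
    exact absurd (Finset.mem_univ _) h

omit [Fintype G] [Fact p.Prime] in
theorem map_conj_mk (N : Subgroup G) [N.Normal] (P : Subgroup G) (t : G) :
    (P.map (MulAut.conj t).toMonoidHom).map (QuotientGroup.mk' N) =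
      (P.map (QuotientGroup.mk' N)).map (MulAut.conj (t : G ⧸ N)).toMonoidHom := by
  rw [Subgroup.map_map, Subgroup.map_map]
  congr 1

end Main

/-- Let N be a normal p-subgroup of the finite group G and write Ḡ = G/N; fix a maximal ideal M of the algebraic integers containing p. Then every block B of G contains a block B̄ of Ḡ (the inflation of every member of B̄ lies in B) whose defect groups are exactly the images in Ḡ of the defect groups of B. -/
theorem result {G : Type*} [Group G] [Finite G] (p : ℕ) [Fact p.Prime] (M : Ideal Cfsg.AlgInt) (hM : Cfsg.IsPModular p M) (N : Subgroup G) [N.Normal] (hN : IsPGroup p N) (B : Set (Cfsg.IrrCharacter G)) (hB : Cfsg.IsPBlock M B) : ∃ Bbar : Set (Cfsg.IrrCharacter (G ⧸ N)), Cfsg.IsPBlock M Bbar ∧ (∀ χ ∈ Bbar, ∀ ψ : Cfsg.IrrCharacter G, (ψ : G → ℂ) = (χ : G ⧸ N → ℂ) ∘ QuotientGroup.mk → ψ ∈ B) ∧ ∀ Dbar : Subgroup (G ⧸ N), Cfsg.IsDefectGroup p M Bbar Dbar ↔ ∃ P : Subgroup G, Cfsg.IsDefectGroup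 p M B P ∧ Dbar = P.map (QuotientGroup.mk' N) := by
  classical
  have hp : p.Prime := Fact.out
  letI := Fintype.ofFinite G
  letI := Fintype.ofFinite N
  letI := Fintype.ofFinite (G ⧸ N)
  haveI := irr_finite (G := G)
  letI := Fintype.ofFinite (IrrCharacter G)
  haveI := irr_finite (G := G ⧸ N)
  letI := Fintype.ofFinite (IrrCharacter (G ⧸ N))
  obtain ⟨x, hx1, hx2, hx3⟩ := Cfsg.Agent.S0906.result p M hM B hB
  have hB' : IsPBlock M B := hB
  obtain ⟨χ₀, hχ₀⟩ := hB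
  have hχ₀B : χ₀ ∈ B := by
    rw [hχ₀]
    exact mem_blockOf_self hM χ₀
  have hxreg : ¬ p ∣ orderOf x := pRegular_of_blockCoeff_ne_zero hM B hB' x (by
    intro h0
    apply hx2
    rw [h0]
    exact locIdeal_zero hM)
  have hxN : x ∈ Subgroup.centralizer (N : Set G) := by
    by_contra hc
    exact hx3 χ₀ hχ₀B
      (Cfsg.Agent.Lib.Helper81.centralChar_locIdeal_of_not_mem_centralizer hM N hN x hc χ₀)
  have hpre : preCent N x ≤ Subgroup.centralizer ({x} : Set G) :=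
    preCent_le_centralizer p N hN x (orderOf_pos x) hxreg hxN
  have hrel : (Subgroup.centralizer ({x} : Set G)).relIndex (preCent N x) = 1 :=
    Subgroup.relIndex_eq_one.mpr hpre
  obtain ⟨B', hB'def⟩ : ∃ B' : Set (IrrCharacter (G ⧸ N)),
      B' = {χ | Cfsg.Agent.Lib.Helper83.inflate N χ ∈ B} := ⟨_, rfl⟩
  have hmemB' : ∀ φ : IrrCharacter (G ⧸ N), φ ∈ B' ↔ Cfsg.Agent.Lib.Helper83.inflate N φ ∈ B := by
    intro φ
    rw [hB'def]
    rfl
  have hsat : ∀ φ ∈ B', blockOf M (φ : G ⧸ N → ℂ) ⊆ B' := by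
    intro φ hφ ψ hψ
    have h1 : SameBlock M ((φ : G ⧸ N → ℂ) ∘ (QuotientGroup.mk : G → G ⧸ N))
        ((ψ : G ⧸ N → ℂ) ∘ (QuotientGroup.mk : G → G ⧸ N)) :=
      Cfsg.Agent.Lib.Helper81.sameBlock_inflate hM N _ _ hψ
    have h2 : SameBlock M (χ₀ : G → ℂ) (Cfsg.Agent.Lib.Helper83.inflate N φ : G → ℂ) := by
      have h3 : Cfsg.Agent.Lib.Helper83.inflate N φ ∈ B := (hmemB' φ).mp hφ
      rw [hχ₀] at h3
      exact h3
    rw [hmemB', hχ₀]
    exact sameBlock_trans hM h2 h1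
  have hcoef : blockCoeff B' (x : G ⧸ N) = blockCoeff B x := by
    rw [hB'def, blockCoeff_deflate N B x, sum_blockCoeff_coset hM N hN B hB' x hxreg hxN]
  obtain ⟨S, hS, hsum⟩ :=
    Cfsg.Agent.Lib.Helper84.blockCoeff_saturated_sum hM B' hsat (x : G ⧸ N)
  have hex : ∃ c ∈ S, ¬ MemLocalIdeal M (blockCoeff c (x : G ⧸ N)) := by
    by_contra hcon
    push Not at hcon
    apply hx2
    rw [← hcoef, hsum]
    exact locIdeal_sum hM S _ hcon
  obtain ⟨Bbar, hBbarS, hBbar2⟩ := hex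
  obtain ⟨φ₀, hφ₀, hBbar⟩ := hS Bbar hBbarS
  have hBbarP : IsPBlock M Bbar := ⟨φ₀, hBbar⟩
  have hBbar_sub : Bbar ⊆ B' := by
    rw [hBbar]
    exact hsat φ₀ hφ₀
  have hdc : IsDefectClass M Bbar (x : G ⧸ N) := by
    refine ⟨?_, hBbar2, ?_⟩
    · refine blockCoeff_locRing_of_saturated hM Bbar ?_ _
      intro φ hφ
      rw [hBbar] at hφ ⊢
      exact (blockOf_eq_of_sameBlock hM hφ).subset
    · intro χ hχ hloc
      have hinf : Cfsg.Agent.Lib.Helper83.inflate N χ ∈ B := (hmemB' χ).mp (hBbar_sub hχ)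
      apply hx3 _ hinf
      have h1 := centralChar_inflate_eq N (χ : G ⧸ N → ℂ) x
      rw [hrel, Nat.cast_one, one_mul] at h1
      show MemLocalIdeal M
        (centralChar ((χ : G ⧸ N → ℂ) ∘ (QuotientGroup.mk : G → G ⧸ N)) x)
      rw [h1]
      exact hloc
  obtain ⟨S₀⟩ : Nonempty (Sylow p (Subgroup.centralizer ({x} : Set G))) := inferInstance
  obtain ⟨P₀, hP₀⟩ : ∃ P₀ : Subgroup G, P₀ = (S₀ : Subgroup _).map
      (Subgroup.centralizer ({x} : Set G)).subtype := ⟨_, rfl⟩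
  have hP₀D : IsDefectGroup p M B P₀ := ⟨x, ⟨hx1, hx2, hx3⟩, S₀, hP₀⟩
  let φ : Subgroup.centralizer ({x} : Set G) →*
      Subgroup.centralizer ({(x : G ⧸ N)} : Set (G ⧸ N)) :=
    ((QuotientGroup.mk' N).comp (Subgroup.centralizer ({x} : Set G)).subtype).codRestrict _
      (fun c => centralizer_le_preCent N x c.2)
  have hφsurj : Function.Surjective φ := by
    rintro ⟨c, hc⟩
    obtain ⟨g, rfl⟩ := QuotientGroup.mk_surjective c
    exact ⟨⟨g, hpre hc⟩, Subtype.ext rfl⟩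
  have hmapeq : ((S₀.mapSurjective hφsurj : Sylow p _) : Subgroup _).map
      (Subgroup.centralizer ({(x : G ⧸ N)} : Set (G ⧸ N))).subtype =
      P₀.map (QuotientGroup.mk' N) := by
    rw [Sylow.coe_mapSurjective, hP₀, Subgroup.map_map, Subgroup.map_map]
    rfl
  have hQD : IsDefectGroup p M Bbar (P₀.map (QuotientGroup.mk' N)) :=
    ⟨(x : G ⧸ N), hdc, S₀.mapSurjective hφsurj, hmapeq.symm⟩
  refine ⟨Bbar, hBbarP, ?_, ?_⟩
  · intro χ hχ ψ hψ
    have hinf : Cfsg.Agent.Lib.Helper83.inflate N χ ∈ B := (hmemB' χ).mp (hBbar_sub hχ)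
    have h1 : ψ = Cfsg.Agent.Lib.Helper83.inflate N χ := Subtype.ext hψ
    rw [h1]
    exact hinf
  · intro Dbar
    constructor
    · intro hDbar
      obtain ⟨t, ht⟩ :=
        Cfsg.Agent.Lib.Helper81.defectGroup_conj hM Bbar hBbarP _ Dbar hQD hDbar
      obtain ⟨g, rfl⟩ := QuotientGroup.mk_surjective t
      refine ⟨P₀.map (MulAut.conj g).toMonoidHom, isDefectGroup_conj B P₀ g hP₀D, ?_⟩
      rw [map_conj_mk, ht]
    · rintro ⟨P, hP, rfl⟩
      obtain ⟨t, ht⟩ := Cfsg.Agent.Lib.Helper81.defectGroup_conj hM B hB' P₀ P hP₀D hP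
      rw [← ht, map_conj_mk]
      exact isDefectGroup_conj Bbar _ _ hQD

end Cfsg.Agent.S4434
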