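import Cfsg.Statements.S4436
import Mathlib
import Cfsg.Agent.S4435
import Cfsg.Agent.S0917
import Cfsg.Agent.S0908

set_option autoImplicit false
open Cfsg
open scoped ComplexConjugate

namespace Cfsg.Agent.S4436

open Cfsg.Agent.Lib Cfsg.Agent.Lib.Helper4 Cfsg.Agent.Lib.Helper21 Cfsg.Agent.Lib.Helper22
  Cfsg.Agent.Lib.Helper20 Cfsg.Agent.Lib.Helper33

section Aux

variable {G : Type*} [Group G] [Fintype G]

/-- The degree of a character induced from an irreducible character. -/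
theorem charDegree_ind (T : Subgroup G) (ψ : IrrCharacter T) :
    charDegree (indFun T (ψ : T → ℂ)) = T.index * charDegree (ψ : T → ℂ) := by
  unfold charDegree
  rw [Helper35.indFun_one_eq, (Helper83.irr_degree ψ.2).2]
  have h1 : ((T.index : ℂ) * ((charDegree (ψ : T → ℂ) : ℕ) : ℂ)).re =
      ((T.index * charDegree (ψ : T → ℂ) : ℕ) : ℝ) := by
    rw [← Nat.cast_mul, Complex.natCast_re]
  have h2 : (((charDegree (ψ : T → ℂ) : ℕ) : ℂ)).re = ((charDegree (ψ : T → ℂ) : ℕ) : ℝ) :=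
    Complex.natCast_re _
  rw [h1, h2, Nat.floor_natCast, Nat.floor_natCast]

theorem factorization_charDegree_ind (p : ℕ) (T : Subgroup G) (ψ : IrrCharacter T) :
    (charDegree (indFun T (ψ : T → ℂ))).factorization p =
      T.index.factorization p + (charDegree (ψ : T → ℂ)).factorization p := by
  have hidx : T.index ≠ 0 := Subgroup.index_ne_zero_of_finite
  have hd : charDegree (ψ : T → ℂ) ≠ 0 := (Helper83.irr_degree ψ.2).1.ne'
  rw [charDegree_ind, Nat.factorization_mul hidx hd]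
  rfl

/-- The sets of `p`-adic valuations of the degrees in `B` and `B'`. -/
theorem sInf_image_eq (p : ℕ) (T : Subgroup G) (B' : Set (IrrCharacter T))
    (B : Set (IrrCharacter G)) (hne : B'.Nonempty)
    (hirr : ∀ ψ ∈ B', IsIrrCharacter G (indFun T (ψ : T → ℂ)))
    (hB : ∀ χ : IrrCharacter G, χ ∈ B ↔ ∃ ψ ∈ B', (χ : G → ℂ) = indFun T (ψ : T → ℂ)) :
    sInf ((fun χ : IrrCharacter G => (charDegree (χ : G → ℂ)).factorization p) '' B) =
      T.index.factorization p +
        sInf ((fun ψ : IrrCharacter T => (charDegree (ψ : T → ℂ)).factorization p) '' B') := by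
  set S := (fun χ : IrrCharacter G => (charDegree (χ : G → ℂ)).factorization p) '' B with hS
  set S' := (fun ψ : IrrCharacter T => (charDegree (ψ : T → ℂ)).factorization p) '' B' with hS'
  have hS'ne : S'.Nonempty := hne.image _
  have hmem : ∀ k, k ∈ S ↔ ∃ k' ∈ S', k = T.index.factorization p + k' := by
    intro k
    constructor
    · rintro ⟨χ, hχ, rfl⟩
      obtain ⟨ψ, hψ, hχψ⟩ := (hB χ).mp hχ
      refine ⟨_, ⟨ψ, hψ, rfl⟩, ?_⟩
      simp only
      rw [hχψ, factorization_charDegree_ind]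
    · rintro ⟨k', ⟨ψ, hψ, rfl⟩, rfl⟩
      refine ⟨⟨indFun T (ψ : T → ℂ), hirr ψ hψ⟩, (hB _).mpr ⟨ψ, hψ, rfl⟩, ?_⟩
      simp only
      rw [factorization_charDegree_ind]
  have hSne : S.Nonempty := by
    obtain ⟨k', hk'⟩ := hS'ne
    exact ⟨_, (hmem _).mpr ⟨k', hk', rfl⟩⟩
  apply le_antisymm
  · exact Nat.sInf_le ((hmem _).mpr ⟨_, Nat.sInf_mem hS'ne, rfl⟩)
  · obtain ⟨k', hk', hk⟩ := (hmem _).mp (Nat.sInf_mem hSne)
    rw [hk]
    exact Nat.add_le_add_left (Nat.sInf_le hk') _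

end Aux

/-- Let N be a normal subgroup of the finite group G, b a block of N (relative to a maximal ideal M of the algebraic integers containing p), T the stabilizer of b in G, N ≤ T, and B′ a block of T covering b (some member of B′ has a constituent in b on restriction to N) that induces the block B of G. Then every defect group of B′ is a defect group of B, and for every ψ ∈ B′ the induced character ψ^G is an irreducible character of G lying in B with the same height as ψ. -/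
theorem result {G : Type*} [Group G] [Fintype G] (p : ℕ) [Fact p.Prime] (M : Ideal Cfsg.AlgInt) (hM : Cfsg.IsPModular p M) (N : Subgroup G) [hN : N.Normal] [Fintype N] (b : Set (Cfsg.IrrCharacter N)) (hb : Cfsg.IsPBlock M b) (T : Subgroup G) [Fintype T] (hT : ∀ g : G, g ∈ T ↔ ∀ θ ∈ b, ∀ θ' : Cfsg.IrrCharacter N, (∀ n : N, (θ' : N → ℂ) n = (θ : N → ℂ) ⟨g * n * g⁻¹, hN.conj_mem n n.2 g⟩) → θ' ∈ b) (hNT : N ≤ T) (B' : Set (Cfsg.IrrCharacter T)) (hB' : Cfsg.IsPBlock M B') (hcov : (∃ ψ ∈ B', ∃ θ ∈ b, Cfsg.classInner (fun n : N => (ψ : T → ℂ) ⟨(n : G), hNT n.2⟩) (θ : N → ℂ) ≠ 0)) (B : Set (Cfsg.IrrCharacter G)) (hind : Cfsg.IsInducedBlock M T B' B) : (∀ D : Subgroup T, Cfsg.IsDefectGroup p M B' D → Cfsg.IsDefectGroup p M B (D.map T.subtype)) ∧ ∀ ψ ∈ B', ∃ χ ∈ B, (χ : G → ℂ) = Cfsg.indFun T (ψ : T → ℂ) ∧ Cfsg.blockHeight p B (χ : G → ℂ) = Cfsg.blockHeight p B' (ψ : T → ℂ) := by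
  classical
  have hB : IsPBlock M B := hind.2.1
  obtain ⟨ψ₀, hψ₀, hov₀⟩ := hcov
  obtain ⟨B₀, hind₀, -, hirr, hiff₀⟩ := (Cfsg.Agent.S4435.result p M hM N b hb T hT hNT).1 B' hB'
    ⟨ψ₀, hψ₀, hov₀⟩
  have hBB₀ : B = B₀ := Cfsg.Agent.S4435.inducedBlock_unique hM T hind hind₀ ψ₀ hψ₀
  have hiff : ∀ χ : IrrCharacter G, χ ∈ B ↔ ∃ ψ ∈ B', (χ : G → ℂ) = indFun T (ψ : T → ℂ) := by
    rw [hBB₀]
    exact hiff₀
  have hsInf := sInf_image_eq p T B' B ⟨ψ₀, hψ₀⟩ hirr hiff
  refine ⟨fun D hD => ?_, fun ψ hψ => ?_⟩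
  · obtain ⟨E, hE, hDE⟩ := Cfsg.Agent.S0917.result p M hM T B' hB' B hB hind D hD
    have hcE := Cfsg.Agent.S0908.result p M hM B hB E hE
    have hcD := Cfsg.Agent.S0908.result p M hM B' hB' D hD
    have hdef : blockDefect p B = blockDefect p B' := by
      unfold blockDefect
      rw [hsInf, ← Subgroup.card_mul_index T,
        Nat.factorization_mul (Nat.card_pos (α := T)).ne' Subgroup.index_ne_zero_of_finite]
      simp only [Finsupp.coe_add, Pi.add_apply]
      omega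
    have hcard : Nat.card E ≤ Nat.card (D.map T.subtype) := by
      rw [Subgroup.card_map_of_injective T.subtype_injective, hcE, hcD, hdef]
    have heq : D.map T.subtype = E := Subgroup.eq_of_le_of_card_ge hDE hcard
    rw [heq]
    exact hE
  · refine ⟨⟨indFun T (ψ : T → ℂ), hirr ψ hψ⟩, (hiff _).mpr ⟨ψ, hψ, rfl⟩, rfl, ?_⟩
    unfold blockHeight
    rw [hsInf, factorization_charDegree_ind]
    omega

end Cfsg.Agent.S4436
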