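import Cfsg.Statements.S4492
import Mathlib
import Cfsg.Agent.Lib.Helper33.Fong
import Cfsg.Agent.Lib.Helper40.HallHigman
import Cfsg.Agent.Lib.Helper30.Cores
import Cfsg.Agent.S0629
import Cfsg.Agent.S4438
import Cfsg.Agent.S0965
import Cfsg.Agent.S0911

set_option autoImplicit false
open Cfsg

namespace Cfsg.Agent.S4492

open Cfsg.Agent.Lib Cfsg.Agent.Lib.Helper4 Cfsg.Agent.Lib.Helper21 Cfsg.Agent.Lib.Helper22 Cfsg.Agent.Lib.Helper20 Cfsg.Agent.Lib.Helper33
open scoped ComplexConjugate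

/-- Let G be a finite p-solvable group, N = O_{p'}(G) its largest normal subgroup of order prime to p, and θ an irreducible character of N invariant under conjugation by G; fix a maximal ideal M of the algebraic integers containing p. Then the irreducible characters of G lying over θ (those whose restriction to N contains θ) form a single p-block of G, and the defect groups of that block are exactly the Sylow p-subgroups of G. -/
theorem result {G : Type*} [Group G] [Fintype G] (p : ℕ) [Fact p.Prime] (M : Ideal Cfsg.AlgInt) (hM : Cfsg.IsPModular p M) (hsolv : Cfsg.IsPSolvable p G) (N : Subgroup G) [hN : N.Normal] [Fintype N] (hNdef : N = Cfsg.pPrimeCore p G) (θ : Cfsg.IrrCharacter N) (hinv : ∀ (g : G) (n : N), (θ : N → ℂ) ⟨g * n * g⁻¹, hN.conj_mem n n.2 g⟩ = (θ : N → ℂ) n) : ∃ B : Set (Cfsg.IrrCharacter G), Cfsg.IsPBlock M B ∧ (∀ χ : Cfsg.IrrCharacter G, χ ∈ B ↔ Cfsg.classInner (fun n : N => (χ : G → ℂ) n) (θ : N → ℂ) ≠ 0) ∧ (∀ P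 : Sylow p G, Cfsg.IsDefectGroup p M B (P : Subgroup G)) ∧ ∀ D : Subgroup G, Cfsg.IsDefectGroup p M B D → ∃ P : Sylow p G, D = (P : Subgroup G) := by
  classical
  have hp : p.Prime := Fact.out
  have hpN : ¬ p ∣ Nat.card N := by
    have h1 : (Nat.card N).Coprime p := by
      subst hNdef
      exact Helper81.pPrimeCore_coprime p
    exact fun h => (Nat.Prime.coprime_iff_not_dvd hp).mp h1.symm h
  have hsolvQ : IsPSolvable p (G ⧸ N) := Cfsg.Agent.S0629.isPSolvable_of_surjective p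
    (QuotientGroup.mk' N) (QuotientGroup.mk'_surjective N) hsolv
  have hcoreQ : pPrimeCore p (G ⧸ N) = ⊥ := by
    subst hNdef
    exact Helper30.pPrimeCore_quotient_eq_bot p
  have hHH := Helper40.centralizer_pCore_le hsolvQ hcoreQ
  have hOp : IsPGroup p (pCore p (G ⧸ N)) := Helper40.pCore_isPGroup' p
  have hOn : (pCore p (G ⧸ N)).Normal := Helper40.pCore_normal' p
  -- the preimage `L` of `O_p(G / N)`
  set L : Subgroup G := (pCore p (G ⧸ N)).comap (QuotientGroup.mk' N) with hLdef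
  have hLn : L.Normal := hOn.comap _
  have : Fintype L := Fintype.ofFinite _
  have hNL : N ≤ L := by
    intro n hn
    rw [hLdef, Subgroup.mem_comap]
    have h1 : (QuotientGroup.mk' N) n = 1 := (QuotientGroup.eq_one_iff n).mpr hn
    rw [h1]
    exact one_mem _
  have hreg : ∀ l : L, ¬ p ∣ orderOf l → (l : G) ∈ N := by
    intro l hl
    have h1 : (QuotientGroup.mk' N) (l : G) ∈ pCore p (G ⧸ N) := l.2
    obtain ⟨k, hk⟩ := (IsPGroup.iff_orderOf.mp hOp) ⟨_, h1⟩
    rw [Subgroup.orderOf_mk] at hk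
    have h2 : orderOf ((QuotientGroup.mk' N) (l : G)) ∣ orderOf (l : G) := orderOf_map_dvd _ _
    rw [Subgroup.orderOf_coe, hk] at h2
    have hk0 : k = 0 := by
      by_contra hk0
      exact hl (dvd_trans (dvd_pow_self p hk0) h2)
    rw [hk0, pow_zero, orderOf_eq_one_iff] at hk
    exact (QuotientGroup.eq_one_iff (l : G)).mp hk
  have hθcf : IsClassFunction G (bG N ({θ} : Set (IrrCharacter N))) :=
    bG_singleton_isClassFunction N θ hinv
  have hEloc : ∀ g, MemLocalRing M (bG N ({θ} : Set (IrrCharacter N)) g) :=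
    bG_loc N hM {θ} (blockCoeff_singleton_locRing hM hpN θ)
  have hE1 : ¬ MemLocalIdeal M (bG N ({θ} : Set (IrrCharacter N)) 1) := by
    have h2 : bG N ({θ} : Set (IrrCharacter N)) ((1 : N) : G) =
        blockCoeff ({θ} : Set (IrrCharacter N)) 1 := Helper46.extendByZero_coe N _ 1
    rw [OneMemClass.coe_one] at h2
    rw [h2]
    exact blockCoeff_singleton_one_not_locIdeal hM hpN θ
  -- the level of `L`
  have hLkey : ∀ ξ : IrrCharacter L, classInner (resN N L hNL (ξ : L → ℂ)) (θ : N → ℂ) ≠ 0 →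
      ∀ l : L, blockCoeff (blockOf M (ξ : L → ℂ)) l =
        bG N ({θ} : Set (IrrCharacter N)) (l : G) := by
    intro ξ hξ l
    have h1 := congrFun (ext_blockCoeff_eq_bG N hM hpN L hNL hreg θ hθcf ξ hξ) (l : G)
    rw [Helper46.extendByZero_coe] at h1
    exact h1
  have hLuniq : ∀ ξ ξ' : IrrCharacter L,
      classInner (resN N L hNL (ξ : L → ℂ)) (θ : N → ℂ) ≠ 0 →
      classInner (resN N L hNL (ξ' : L → ℂ)) (θ : N → ℂ) ≠ 0 →
      blockOf M (ξ' : L → ℂ) = blockOf M (ξ : L → ℂ) := by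
    intro ξ ξ' hξ hξ'
    have h1 : blockCoeff (blockOf M (ξ : L → ℂ)) = blockCoeff (blockOf M (ξ' : L → ℂ)) := by
      funext l
      rw [hLkey ξ hξ l, hLkey ξ' hξ' l]
    have h2 := omega_blockCoeff (blockOf M (ξ : L → ℂ)) ξ'
    rw [h1, omega_blockCoeff, if_pos (mem_blockOf_self hM ξ')] at h2
    have h3 : ξ' ∈ blockOf M (ξ : L → ℂ) := by
      by_contra h
      rw [if_neg h] at h2
      exact one_ne_zero h2
    exact blockOf_eq_of_sameBlock hM h3
  have hLdefect : ∀ ξ : IrrCharacter L,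
      classInner (resN N L hNL (ξ : L → ℂ)) (θ : N → ℂ) ≠ 0 → ∀ S : Sylow p L,
      IsDefectGroup p M (blockOf M (ξ : L → ℂ)) (S : Subgroup L) := by
    intro ξ hξ S
    refine sylow_isDefectGroup_of_unit_one hM _ ⟨ξ, rfl⟩ ?_ S
    rw [hLkey ξ hξ 1, OneMemClass.coe_one]
    exact hE1
  -- the level of `G`
  obtain ⟨χ₀, hχ₀⟩ := Cfsg.Agent.S0965.exists_irr_over N θ
  have hξex : ∀ χ : IrrCharacter G,
      classInner (fun n : N => (χ : G → ℂ) n) (θ : N → ℂ) ≠ 0 →
      ∃ ξ : IrrCharacter L, classInner (fun t : L => (χ : G → ℂ) t) (ξ : L → ℂ) ≠ 0 ∧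
        classInner (resN N L hNL (ξ : L → ℂ)) (θ : N → ℂ) ≠ 0 := by
    intro χ hχ
    have := irr_finite (G := L)
    let _ := Fintype.ofFinite (IrrCharacter L)
    rw [classInner_res_expansion N L hNL _ (isClassFunction_irr χ)] at hχ
    obtain ⟨ξ, -, hξ⟩ := Finset.exists_ne_zero_of_sum_ne_zero hχ
    exact ⟨ξ, left_ne_zero_of_mul hξ, right_ne_zero_of_mul hξ⟩
  -- blocks over `θ` are regular with respect to `L`
  have hregB : ∀ χ : IrrCharacter G,
      classInner (fun n : N => (χ : G → ℂ) n) (θ : N → ℂ) ≠ 0 →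
      ∀ χ' ∈ blockOf M (χ : G → ℂ), ∀ g : G, g ∉ L →
      MemLocalIdeal M (centralChar (χ' : G → ℂ) g) := by
    intro χ hχ χ' hχ' g hg
    by_contra hcc
    obtain ⟨ξ, hξ1, hξ2⟩ := hξex χ hχ
    obtain ⟨S⟩ : Nonempty (Sylow p L) := inferInstance
    have hS := hLdefect ξ hξ2 S
    have hQ : IsDefectGroup p M (blockOf M (ξ : L → ℂ))
        (((S : Subgroup L).map L.subtype).subgroupOf L) := by
      have h1 : ((S : Subgroup L).map L.subtype).subgroupOf L = (S : Subgroup L) :=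
        Subgroup.comap_map_eq_self_of_injective (Subgroup.subtype_injective L) _
      rw [h1]
      exact hS
    have hQL : (S : Subgroup L).map L.subtype ≤ L := by
      rintro _ ⟨s, -, rfl⟩
      exact s.2
    obtain ⟨P', hP', hP'L⟩ := Cfsg.Agent.S4438.result p M hM L (blockOf M (ξ : L → ℂ)) ⟨ξ, rfl⟩
      _ hQL hQ (blockOf M (χ : G → ℂ)) ⟨χ, rfl⟩
      ⟨χ, mem_blockOf_self hM χ, ξ, mem_blockOf_self hM ξ, hξ1⟩
    obtain ⟨g₀, hg₀, P₀, hP₀⟩ := hP'
    obtain ⟨x, S', hS'⟩ := (Cfsg.Agent.S0911.result p M hM (blockOf M (χ : G → ℂ)) ⟨χ, rfl⟩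
      g₀ hg₀ P₀ g).2 ⟨χ', hχ', hcc⟩
    rw [← hP₀] at hS'
    apply hg
    have hcent : (QuotientGroup.mk' N) g ∈
        Subgroup.centralizer (pCore p (G ⧸ N) : Set (G ⧸ N)) := by
      rw [Subgroup.mem_centralizer_iff]
      intro y hy
      have hy' : ((QuotientGroup.mk' N) x)⁻¹ * y * ((QuotientGroup.mk' N) x) ∈
          pCore p (G ⧸ N) := by
        have h1 := hOn.conj_mem y hy ((QuotientGroup.mk' N) x)⁻¹
        rwa [inv_inv] at h1
      obtain ⟨s, hs, hsy⟩ := sylow_maps_onto N (pCore p (G ⧸ N)) hOp S _ hy'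
      have hsP' : (s : G) ∈ P' := by
        have h1 : (s : G) ∈ (S : Subgroup L).map L.subtype := Subgroup.mem_map.mpr ⟨s, hs, rfl⟩
        rw [← hP'L] at h1
        exact h1.1
      have h1 : (MulAut.conj x).toMonoidHom (s : G) ∈ P'.map (MulAut.conj x).toMonoidHom :=
        Subgroup.mem_map_of_mem _ hsP'
      obtain ⟨z, -, hz⟩ := hS' h1
      have h3 : g * (x * (s : G) * x⁻¹) = (x * (s : G) * x⁻¹) * g := by
        have h4 := Subgroup.mem_centralizer_iff.mp z.2 g (Set.mem_singleton g)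
        have hz' : (z : G) = x * (s : G) * x⁻¹ := by
          simpa [MulAut.conj_apply] using hz
        rw [hz'] at h4
        exact h4
      have hy2 : y = (QuotientGroup.mk' N) (x * (s : G) * x⁻¹) := by
        rw [map_mul, map_mul, map_inv, hsy]
        group
      rw [hy2, ← map_mul, ← map_mul, h3]
    exact hHH hcent
  -- uniqueness of the block over `θ`
  have huniq : ∀ χ χ' : IrrCharacter G,
      classInner (fun n : N => (χ : G → ℂ) n) (θ : N → ℂ) ≠ 0 →
      classInner (fun n : N => (χ' : G → ℂ) n) (θ : N → ℂ) ≠ 0 →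
      SameBlock M (χ : G → ℂ) (χ' : G → ℂ) := by
    intro χ χ' hχ hχ' g
    obtain ⟨ξ, hξ1, hξ2⟩ := hξex χ hχ
    obtain ⟨ξ', hξ'1, hξ'2⟩ := hξex χ' hχ'
    by_cases hg : g ∈ L
    · have h1 := (Cfsg.Agent.S0965.result p M hM L (blockOf M (χ : G → ℂ)) ⟨χ, rfl⟩
        (blockOf M (ξ : L → ℂ)) ⟨ξ, rfl⟩).mp
        ⟨χ, mem_blockOf_self hM χ, ξ, mem_blockOf_self hM ξ, hξ1⟩ χ (mem_blockOf_self hM χ) ξ
        (mem_blockOf_self hM ξ) ⟨g, hg⟩
      have hb : blockOf M (ξ' : L → ℂ) = blockOf M (ξ : L → ℂ) := hLuniq ξ ξ' hξ2 hξ'2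
      have h2 := (Cfsg.Agent.S0965.result p M hM L (blockOf M (χ' : G → ℂ)) ⟨χ', rfl⟩
        (blockOf M (ξ : L → ℂ)) ⟨ξ, rfl⟩).mp
        ⟨χ', mem_blockOf_self hM χ', ξ', by rw [← hb]; exact mem_blockOf_self hM ξ', hξ'1⟩ χ'
        (mem_blockOf_self hM χ') ξ (mem_blockOf_self hM ξ) ⟨g, hg⟩
      have h3 := locIdeal_sub hM h1 h2
      have e : centralChar (χ : G → ℂ) g - inducedCentralChar L (ξ : L → ℂ) g -
          (centralChar (χ' : G → ℂ) g - inducedCentralChar L (ξ : L → ℂ) g) =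
          centralChar (χ : G → ℂ) g - centralChar (χ' : G → ℂ) g := by ring
      rw [← e]
      exact h3
    · exact locIdeal_sub hM (hregB χ hχ χ (mem_blockOf_self hM χ) g hg)
        (hregB χ' hχ' χ' (mem_blockOf_self hM χ') g hg)
  have hmem : ∀ χ : IrrCharacter G, χ ∈ blockOf M (χ₀ : G → ℂ) ↔
      classInner (fun n : N => (χ : G → ℂ) n) (θ : N → ℂ) ≠ 0 := by
    intro χ
    constructor
    · intro hχ
      have h1 := omega_sub_locIdeal hM _ hθcf hEloc χ₀ χ hχ
      rw [omega_bG_singleton N θ hθcf χ₀, if_pos hχ₀, omega_bG_singleton N θ hθcf χ] at h1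
      by_contra h
      rw [if_neg (not_not.mpr h), sub_zero] at h1
      exact locIdeal_one_not hM h1
    · intro hχ
      exact huniq χ₀ χ hχ₀ hχ
  have hBE : blockCoeff (blockOf M (χ₀ : G → ℂ)) = bG N ({θ} : Set (IrrCharacter N)) := by
    refine Helper22.eq_of_omega_eq _ _ (blockCoeff_isClassFunction _) hθcf (fun χ => ?_)
    rw [omega_blockCoeff, omega_bG_singleton N θ hθcf χ]
    by_cases hχ : χ ∈ blockOf M (χ₀ : G → ℂ)
    · rw [if_pos hχ, if_pos ((hmem χ).mp hχ)]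
    · rw [if_neg hχ, if_neg (fun h => hχ ((hmem χ).mpr h))]
  have hB1 : ¬ MemLocalIdeal M (blockCoeff (blockOf M (χ₀ : G → ℂ)) 1) := by
    rw [hBE]
    exact hE1
  exact ⟨blockOf M (χ₀ : G → ℂ), ⟨χ₀, rfl⟩, hmem,
    fun P => sylow_isDefectGroup_of_unit_one hM _ ⟨χ₀, rfl⟩ hB1 P,
    fun D hD => defectGroup_eq_sylow_of_unit_one hM _ ⟨χ₀, rfl⟩ hB1 D hD⟩

end Cfsg.Agent.S4492
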