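import Cfsg.Statements.S4439
import Mathlib
import Cfsg.Agent.Lib.Helper4.FongHt3
import Cfsg.Agent.S4492
import Cfsg.Agent.S4435
import Cfsg.Agent.S4436
import Cfsg.Agent.S4494
import Cfsg.Agent.S0931
import Cfsg.Agent.Lib.Helper81.BrMax2
import Cfsg.Agent.Lib.Helper14.SL2Solv3
import Cfsg.Agent.Lib.Helper22.Cover
import Cfsg.Agent.Lib.Helper20.Ito

set_option autoImplicit false
open Cfsg

namespace Cfsg.Agent.S4439

open Cfsg.Agent.Lib Cfsg.Agent.Lib.Helper4

universe u

/-- a block is the block of each of its members -/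
theorem block_eq_blockOf {K : Type*} [Group K] {p : ℕ} {M : Ideal AlgInt} (hM : IsPModular p M)
    {B : Set (IrrCharacter K)} (hB : IsPBlock M B) {χ : IrrCharacter K} (hχ : χ ∈ B) :
    B = blockOf M (χ : K → ℂ) := by
  obtain ⟨χ₁, rfl⟩ := hB
  exact (Helper22.blockOf_eq_of_sameBlock hM hχ).symm

theorem block_nonempty {K : Type*} [Group K] {p : ℕ} {M : Ideal AlgInt} (hM : IsPModular p M)
    {B : Set (IrrCharacter K)} (hB : IsPBlock M B) : ∃ χ : IrrCharacter K, χ ∈ B := by
  obtain ⟨χ₁, rfl⟩ := hB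
  exact ⟨χ₁, Helper22.mem_blockOf_self hM χ₁⟩

/-- a block induces at most one block -/
theorem induced_unique {G : Type*} [Group G] {p : ℕ} {M : Ideal AlgInt} (hM : IsPModular p M)
    (T : Subgroup G) (B' : Set (IrrCharacter T)) (B B₁ : Set (IrrCharacter G))
    (h : IsInducedBlock M T B' B) (h₁ : IsInducedBlock M T B' B₁) : B = B₁ := by
  obtain ⟨hB', hB, hc⟩ := h
  obtain ⟨-, hB₁, hc₁⟩ := h₁
  obtain ⟨ξ, hξ⟩ := block_nonempty hM hB'
  obtain ⟨χ, hχB⟩ := block_nonempty hM hB
  obtain ⟨χ₁, hχ₁B⟩ := block_nonempty hM hB₁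
  have hs : SameBlock M (χ : G → ℂ) (χ₁ : G → ℂ) := by
    intro g
    have a := hc ξ hξ χ hχB g
    have b := hc₁ ξ hξ χ₁ hχ₁B g
    have := Helper21.locIdeal_sub hM b a
    convert this using 1
    ring
  rw [block_eq_blockOf hM hB hχB, block_eq_blockOf hM hB₁ hχ₁B]
  exact (Helper22.blockOf_eq_of_sameBlock hM hs).symm

theorem center_index_eq_of_equiv {H K : Type*} [Group H] [Group K] (e : H ≃* K) :
    (Subgroup.center H).index = (Subgroup.center K).index := by
  have h1 : (Subgroup.center H).map e.toMonoidHom = Subgroup.center K := by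
    ext z
    constructor
    · rintro ⟨w, hw, rfl⟩
      have hw' : w ∈ Subgroup.center H := hw
      rw [Subgroup.mem_center_iff] at hw' ⊢
      intro k
      obtain ⟨h, rfl⟩ := e.surjective k
      show e h * e w = e w * e h
      rw [← map_mul, ← map_mul, hw' h]
    · intro hz
      refine ⟨e.symm z, ?_, by simp⟩
      rw [Subgroup.mem_center_iff] at hz
      show e.symm z ∈ Subgroup.center H
      rw [Subgroup.mem_center_iff]
      intro h
      apply e.injective
      rw [map_mul, map_mul, e.apply_symm_apply]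
      exact hz (e h)
  rw [← h1]
  exact (Subgroup.index_map_equiv (Subgroup.center H) e).symm

/-- the blocks of a `p'`-group are singletons -/
theorem block_subsingleton_of_coprime {K : Type*} [Group K] [Finite K] (p : ℕ) [Fact p.Prime]
    (M : Ideal AlgInt) (hM : IsPModular p M) (hK : (Nat.card K).Coprime p)
    (b : Set (IrrCharacter K)) (hb : IsPBlock M b) {θ₁ θ₂ : IrrCharacter K} (h1 : θ₁ ∈ b)
    (h2 : θ₂ ∈ b) : θ₁ = θ₂ := by
  classical
  have hp : p.Prime := Fact.out
  have h := Cfsg.Agent.S4494.result p M hM b hb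
  have hKp : ¬ p ∣ Nat.card K := fun hd => hp.one_lt.ne' (Nat.Coprime.eq_one_of_dvd hK.symm hd)
  have hd : blockDefect p b = 0 := by
    unfold blockDefect
    rw [Nat.factorization_eq_zero_of_not_dvd hKp, Nat.zero_sub]
  rw [hd] at h
  let _ : Fintype K := Fintype.ofFinite K
  have := irr_finite (G := K)
  have hfin : Finite b := Finite.of_injective (fun x : b => (x : IrrCharacter K))
    Subtype.coe_injective
  have hle : Nat.card b ≤ 1 := by
    simp only [mul_zero, pow_zero] at h
    omega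
  have hsub : Subsingleton b := Finite.card_le_one_iff_subsingleton.mp hle
  exact congrArg Subtype.val (hsub.elim ⟨θ₁, h1⟩ ⟨θ₂, h2⟩)

theorem aux (p : ℕ) [Fact p.Prime] (M : Ideal AlgInt) (hM : IsPModular p M) (n : ℕ) :
    ∀ (G : Type u) [Group G] [Finite G], Nat.card G ≤ n → IsPSolvable p G →
    ∀ (B : Set (IrrCharacter G)), IsPBlock M B → ∀ (P : Subgroup G), IsDefectGroup p M B P →
    ∀ χ : IrrCharacter G, χ ∈ B →
      blockHeight p B (χ : G → ℂ) ≤ ((Subgroup.center P).index).factorization p := by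
  induction n with
  | zero =>
    intro G _ _ hcard
    have := Nat.card_pos (α := G)
    omega
  | succ n ih =>
    intro G _ _ hcard hsolv B hB P hP χ hχ
    classical
    let _ : Fintype G := Fintype.ofFinite G
    have hNn : (pPrimeCore p G).Normal := Helper81.pPrimeCore_normal p
    let _ : Fintype (pPrimeCore p G) := Fintype.ofFinite _
    have hNc : (Nat.card (pPrimeCore p G)).Coprime p := Helper81.pPrimeCore_coprime p
    obtain ⟨θ₀, hθ₀, hcon⟩ := Helper20.exists_constituent (pPrimeCore p G) χ.2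
    obtain ⟨θ, hθdef⟩ : ∃ θ : IrrCharacter (pPrimeCore p G),
        (θ : pPrimeCore p G → ℂ) = θ₀ := ⟨⟨θ₀, hθ₀⟩, rfl⟩
    rw [← hθdef] at hcon
    have hb : IsPBlock M (blockOf M (θ : pPrimeCore p G → ℂ)) := ⟨θ, rfl⟩
    have hθb : θ ∈ blockOf M (θ : pPrimeCore p G → ℂ) := Helper22.mem_blockOf_self hM θ
    have hbsing : ∀ θ₁ ∈ blockOf M (θ : pPrimeCore p G → ℂ), θ₁ = θ :=
      fun θ₁ h1 => block_subsingleton_of_coprime p M hM hNc _ hb h1 hθb
    have hT : ∀ g : G, g ∈ Helper20.inertia (pPrimeCore p G) (θ : pPrimeCore p G → ℂ) ↔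
        ∀ θ₁ ∈ blockOf M (θ : pPrimeCore p G → ℂ), ∀ θ' : IrrCharacter (pPrimeCore p G),
          (∀ n : pPrimeCore p G, (θ' : pPrimeCore p G → ℂ) n =
            (θ₁ : pPrimeCore p G → ℂ) ⟨g * n * g⁻¹, hNn.conj_mem n n.2 g⟩) →
          θ' ∈ blockOf M (θ : pPrimeCore p G → ℂ) := by
      intro g
      rw [Helper20.mem_inertia]
      constructor
      · intro hg θ₁ h1 θ' h'
        rw [hbsing θ₁ h1] at h'
        have hθ' : θ' = θ := by
          apply Subtype.ext
          funext n
          rw [h' n, ← Helper20.conjFun_apply (pPrimeCore p G) (θ : pPrimeCore p G → ℂ) g n, hg]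
        rw [hθ']; exact hθb
      · intro h
        have h1 := h θ hθb (Helper22.irrConjFun (pPrimeCore p G) θ g) (fun n => rfl)
        have h2 := hbsing _ h1
        exact congrArg (fun t : IrrCharacter (pPrimeCore p G) => (t : pPrimeCore p G → ℂ)) h2
    have hNT : pPrimeCore p G ≤ Helper20.inertia (pPrimeCore p G) (θ : pPrimeCore p G → ℂ) :=
      Helper20.le_inertia (pPrimeCore p G)
        (Helper35.isClassFunction_of_isCharacter (Helper35.isChar_of_irr θ.2))
    by_cases hTtop : Helper20.inertia (pPrimeCore p G) (θ : pPrimeCore p G → ℂ) = ⊤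
    · have hinv : ∀ (g : G) (n : pPrimeCore p G),
          (θ : pPrimeCore p G → ℂ) ⟨g * n * g⁻¹, hNn.conj_mem n n.2 g⟩ =
            (θ : pPrimeCore p G → ℂ) n := by
        intro g n
        have hg : g ∈ Helper20.inertia (pPrimeCore p G) (θ : pPrimeCore p G → ℂ) := by
          rw [hTtop]; exact Subgroup.mem_top g
        rw [Helper20.mem_inertia] at hg
        exact congrFun hg n
      obtain ⟨B₂, hB₂, hmem, -, hdef⟩ :=
        Cfsg.Agent.S4492.result p M hM hsolv (pPrimeCore p G) rfl θ hinv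
      have hχB₂ : χ ∈ B₂ := (hmem χ).mpr hcon
      have hBB₂ : B = B₂ := by
        rw [block_eq_blockOf hM hB hχ, block_eq_blockOf hM hB₂ hχB₂]
      obtain ⟨S, hS⟩ := hdef P (hBB₂ ▸ hP)
      have h1 := fong_degree_bound p hsolv (pPrimeCore p G) rfl θ hinv χ hcon S
      rw [hS]
      unfold blockHeight
      exact (Nat.sub_le _ _).trans h1
    · set T := Helper20.inertia (pPrimeCore p G) (θ : pPrimeCore p G → ℂ) with hTdef
      let _ : Fintype T := Fintype.ofFinite T
      have hTlt : Nat.card T < Nat.card G := by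
        have h1 : Nat.card T ∣ Nat.card G := Subgroup.card_subgroup_dvd_card T
        have h2 : Nat.card T ≠ Nat.card G := fun h => hTtop (Subgroup.eq_top_of_card_eq T h)
        exact lt_of_le_of_ne (Nat.le_of_dvd Nat.card_pos h1) h2
      obtain ⟨hFR1, -, hFR3⟩ := Cfsg.Agent.S4435.result p M hM (pPrimeCore p G) _ hb T hT hNT
      obtain ⟨B', hB', hcov', hind⟩ := hFR3 B hB ⟨χ, hχ, θ, hθb, hcon⟩
      obtain ⟨B₁, hind₁, -, -, hmem₁⟩ := hFR1 B' hB' hcov'
      have hBB₁ : B = B₁ := induced_unique hM T B' B B₁ hind hind₁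
      obtain ⟨ψ, hψ, hχψ⟩ := (hmem₁ χ).mp (hBB₁ ▸ hχ)
      obtain ⟨hdefmap, hht⟩ :=
        Cfsg.Agent.S4436.result p M hM (pPrimeCore p G) _ hb T hT hNT B' hB' hcov' B hind
      obtain ⟨χ', hχ', hχ'eq, hheq⟩ := hht ψ hψ
      have hχχ' : χ' = χ := Subtype.ext (hχ'eq.trans hχψ.symm)
      rw [hχχ'] at hheq
      obtain ⟨D', hD'⟩ := Cfsg.Agent.S0931.exists_defectGroup p M hM B' hB'
      have hD₁ := hdefmap D' hD'
      obtain ⟨x, hx⟩ := Helper81.defectGroup_conj hM B hB (D'.map T.subtype) P hD₁ hP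
      have hIH := ih T (by omega) (Helper14.isPSolvable_subgroup hsolv T) B' hB' D' hD' ψ hψ
      rw [hheq]
      have e1 : D' ≃* D'.map T.subtype := D'.equivMapOfInjective T.subtype T.subtype_injective
      have e2 : D'.map T.subtype ≃* (D'.map T.subtype).map (MulAut.conj x).toMonoidHom :=
        (D'.map T.subtype).equivMapOfInjective _ (MulAut.conj x).injective
      have e3 : (D'.map T.subtype).map (MulAut.conj x).toMonoidHom ≃* P :=
        MulEquiv.subgroupCongr hx
      rw [← center_index_eq_of_equiv ((e1.trans e2).trans e3)]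
      exact hIH

/-- Let G be a finite p-solvable group and B a p-block of G with defect group P (relative to a maximal ideal M of the algebraic integers containing p). Then the height of every irreducible character in B is at most the exponent of p in the index of the centre of P in P. -/
theorem result {G : Type*} [Group G] [Finite G] (p : ℕ) [Fact p.Prime] (M : Ideal Cfsg.AlgInt) (hM : Cfsg.IsPModular p M) (hsolv : Cfsg.IsPSolvable p G) (B : Set (Cfsg.IrrCharacter G)) (hB : Cfsg.IsPBlock M B) (P : Subgroup G) (hP : Cfsg.IsDefectGroup p M B P) (χ : Cfsg.IrrCharacter G) (hχ : χ ∈ B) : Cfsg.blockHeight p B (χ : G → ℂ) ≤ ((Subgroup.center P).index).factorization p := by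
  exact aux p M hM (Nat.card G) G le_rfl hsolv B hB P hP χ hχ

end Cfsg.Agent.S4439
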