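import Cfsg.Statements.S4440
import Mathlib
import Cfsg.Agent.Lib.Helper4.KO7
import Cfsg.Agent.S4492
import Cfsg.Agent.S4435
import Cfsg.Agent.S4439
import Cfsg.Agent.Lib.Helper81.BrMax2
import Cfsg.Agent.Lib.Helper14.SL2Solv3
import Cfsg.Agent.Lib.Helper22.Cover
import Cfsg.Agent.Lib.Helper20.Ito

set_option autoImplicit false
open Cfsg

namespace Cfsg.Agent.S4440

open Cfsg.Agent.Lib Cfsg.Agent.Lib.Helper4

universe u

theorem aux (p : ℕ) [Fact p.Prime] (M : Ideal AlgInt) (hM : IsPModular p M) (n : ℕ) :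
    ∀ (G : Type u) [Group G] [Finite G], Nat.card G ≤ n → IsPSolvable p G →
    ∀ (U : Set (IrrCharacter G)), KO.Vanishes p U →
    ∀ χ : IrrCharacter G, χ ∈ U → ∀ ψ : IrrCharacter G,
      SameBlock M (χ : G → ℂ) (ψ : G → ℂ) → ψ ∈ U := by
  induction n with
  | zero =>
    intro G _ _ hcard
    have := Nat.card_pos (α := G)
    omega
  | succ n ih =>
    intro G _ _ hcard hsolv U hU χ hχ ψ hψ
    classical
    let _ : Fintype G := Fintype.ofFinite G
    have hNn : (pPrimeCore p G).Normal := Helper81.pPrimeCore_normal p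
    let _ : Fintype (pPrimeCore p G) := Fintype.ofFinite _
    have hNc : (Nat.card (pPrimeCore p G)).Coprime p := Helper81.pPrimeCore_coprime p
    obtain ⟨θ₀, hθ₀, hcon⟩ := Helper20.exists_constituent (pPrimeCore p G) χ.2
    obtain ⟨θ, hθdef⟩ : ∃ θ : IrrCharacter (pPrimeCore p G),
        (θ : pPrimeCore p G → ℂ) = θ₀ := ⟨⟨θ₀, hθ₀⟩, rfl⟩
    rw [← hθdef] at hcon
    have hb : IsPBlock M (blockOf M (θ : pPrimeCore p G → ℂ)) := ⟨θ, rfl⟩
    have hθb : θ ∈ blockOf M (θ : pPrimeCore p G → ℂ) := Helper22.mem_blockOf_self hM θ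
    have hbsing : ∀ θ₁ ∈ blockOf M (θ : pPrimeCore p G → ℂ), θ₁ = θ :=
      fun θ₁ h1 => Cfsg.Agent.S4439.block_subsingleton_of_coprime p M hM hNc _ hb h1 hθb
    have hT : ∀ g : G, g ∈ Helper20.inertia (pPrimeCore p G) (θ : pPrimeCore p G → ℂ) ↔
        ∀ θ₁ ∈ blockOf M (θ : pPrimeCore p G → ℂ), ∀ θ' : IrrCharacter (pPrimeCore p G),
          (∀ n : pPrimeCore p G, (θ' : pPrimeCore p G → ℂ) n =
            (θ₁ : pPrimeCore p G → ℂ) ⟨g * n * g⁻¹, hNn.conj_mem n n.2 g⟩) →
          θ' ∈ blockOf M (θ : pPrimeCore p G → ℂ) := by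
      intro g
      rw [Helper20.mem_inertia]
      constructor
      · intro hg θ₁ h1 θ' h'
        rw [hbsing θ₁ h1] at h'
        have hθ' : θ' = θ := by
          apply Subtype.ext
          funext n
          rw [h' n, ← Helper20.conjFun_apply (pPrimeCore p G) (θ : pPrimeCore p G → ℂ) g n, hg]
        rw [hθ']; exact hθb
      · intro h
        have h1 := h θ hθb (Helper22.irrConjFun (pPrimeCore p G) θ g) (fun n => rfl)
        have h2 := hbsing _ h1
        exact congrArg (fun t : IrrCharacter (pPrimeCore p G) => (t : pPrimeCore p G → ℂ)) h2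
    have hNT : pPrimeCore p G ≤ Helper20.inertia (pPrimeCore p G) (θ : pPrimeCore p G → ℂ) :=
      Helper20.le_inertia (pPrimeCore p G)
        (Helper35.isClassFunction_of_isCharacter (Helper35.isChar_of_irr θ.2))
    have hψB : ψ ∈ blockOf M (χ : G → ℂ) := hψ
    have hχB : χ ∈ blockOf M (χ : G → ℂ) := Helper22.mem_blockOf_self hM χ
    by_cases hTtop : Helper20.inertia (pPrimeCore p G) (θ : pPrimeCore p G → ℂ) = ⊤
    · have hinv : ∀ (g : G) (n : pPrimeCore p G),
          (θ : pPrimeCore p G → ℂ) ⟨g * n * g⁻¹, hNn.conj_mem n n.2 g⟩ =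
            (θ : pPrimeCore p G → ℂ) n := by
        intro g n
        have hg : g ∈ Helper20.inertia (pPrimeCore p G) (θ : pPrimeCore p G → ℂ) := by
          rw [hTtop]; exact Subgroup.mem_top g
        rw [Helper20.mem_inertia] at hg
        exact congrFun hg n
      obtain ⟨B₂, hB₂, hmem, -, -⟩ :=
        Cfsg.Agent.S4492.result p M hM hsolv (pPrimeCore p G) rfl θ hinv
      have hχB₂ : χ ∈ B₂ := (hmem χ).mpr hcon
      have hB₂eq : B₂ = blockOf M (χ : G → ℂ) := Cfsg.Agent.S4439.block_eq_blockOf hM hB₂ hχB₂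
      have hψB₂ : ψ ∈ B₂ := by rw [hB₂eq]; exact hψB
      have hψcon := (hmem ψ).mp hψB₂
      exact KO.invariant_case p hsolv (pPrimeCore p G) rfl θ hinv U hU χ hχ hcon ψ hψcon
    · set T := Helper20.inertia (pPrimeCore p G) (θ : pPrimeCore p G → ℂ) with hTdef
      let _ : Fintype T := Fintype.ofFinite T
      have hTlt : Nat.card T < Nat.card G := by
        have h1 : Nat.card T ∣ Nat.card G := Subgroup.card_subgroup_dvd_card T
        have h2 : Nat.card T ≠ Nat.card G := fun h => hTtop (Subgroup.eq_top_of_card_eq T h)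
        exact lt_of_le_of_ne (Nat.le_of_dvd Nat.card_pos h1) h2
      have hbeq : blockOf M (θ : pPrimeCore p G → ℂ) = {θ} :=
        Set.eq_singleton_iff_unique_mem.mpr ⟨hθb, hbsing⟩
      have hst0 : Helper33.IsStab (pPrimeCore p G) T (blockOf M (θ : pPrimeCore p G → ℂ)) :=
        Cfsg.Agent.S4435.isStab_of_block hM (pPrimeCore p G) _ hb T hT
      have hst : Helper33.IsStab (pPrimeCore p G) T ({θ} : Set (IrrCharacter (pPrimeCore p G))) := by
        rw [← hbeq]; exact hst0
      obtain ⟨hFR1, -, hFR3⟩ := Cfsg.Agent.S4435.result p M hM (pPrimeCore p G) _ hb T hT hNT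
      obtain ⟨B', hB', hcov', hind⟩ :=
        hFR3 (blockOf M (χ : G → ℂ)) ⟨χ, rfl⟩ ⟨χ, hχB, θ, hθb, hcon⟩
      obtain ⟨B₁, hind₁, -, -, hmem₁⟩ := hFR1 B' hB' hcov'
      have hBB₁ : blockOf M (χ : G → ℂ) = B₁ :=
        Cfsg.Agent.S4439.induced_unique hM T B' _ B₁ hind hind₁
      obtain ⟨α, hα, hχα⟩ := (hmem₁ χ).mp (hBB₁ ▸ hχB)
      obtain ⟨α', hα', hψα'⟩ := (hmem₁ ψ).mp (hBB₁ ▸ hψB)
      have hov : ∀ β ∈ B', Helper33.OverB (pPrimeCore p G) T hNT
          ({θ} : Set (IrrCharacter (pPrimeCore p G))) (β : T → ℂ) := by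
        intro β hβ
        have h1 := Cfsg.Agent.S4435.over_of_mem (pPrimeCore p G) T hNT hM hst0 hb B' hB' hcov' β hβ
        rw [hbeq] at h1
        exact h1
      have hUT := KO.vanishes_cliffSet (pPrimeCore p G) T hNT θ hst hNc hU
      have hαU : α ∈ KO.cliffSet (pPrimeCore p G) T hNT θ hst U := by
        refine ⟨hov α hα, ?_⟩
        have h1 : KO.indMap (pPrimeCore p G) T hNT θ hst α = χ :=
          Subtype.ext ((KO.indMap_coe (pPrimeCore p G) T hNT θ hst α (hov α hα)).trans hχα.symm)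
        rw [h1]; exact hχ
      have hsame : SameBlock M (α : T → ℂ) (α' : T → ℂ) := by
        have h1 := Cfsg.Agent.S4439.block_eq_blockOf hM hB' hα
        rw [h1] at hα'
        exact hα'
      have hα'U := ih T (by omega) (Helper14.isPSolvable_subgroup hsolv T) _ hUT α hαU α' hsame
      have h1 : KO.indMap (pPrimeCore p G) T hNT θ hst α' = ψ :=
        Subtype.ext ((KO.indMap_coe (pPrimeCore p G) T hNT θ hst α' (hov α' hα')).trans hψα'.symm)
      rw [← h1]; exact hα'U.2

/-- Let G be a finite p-solvable group and fix a maximal ideal M of the algebraic integers containing p. Let U be a set of irreducible characters of G such that the class function Σ_{χ ∈ U} χ(1)·χ vanishes at every p-singular element of G. Then U is a union of p-blocks: if χ ∈ U and ψ lies in the same block as χ, then ψ ∈ U. -/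
theorem result {G : Type*} [Group G] [Finite G] (p : ℕ) [Fact p.Prime] (M : Ideal Cfsg.AlgInt) (hM : Cfsg.IsPModular p M) (hsolv : Cfsg.IsPSolvable p G) (U : Set (Cfsg.IrrCharacter G)) (hU : ∀ x : G, p ∣ orderOf x → ∑ᶠ χ ∈ U, (χ : G → ℂ) 1 * (χ : G → ℂ) x = 0) (χ : Cfsg.IrrCharacter G) (hχ : χ ∈ U) (ψ : Cfsg.IrrCharacter G) (hψ : Cfsg.SameBlock M (χ : G → ℂ) (ψ : G → ℂ)) : ψ ∈ U := by
  exact aux p M hM (Nat.card G) G le_rfl hsolv U hU χ hχ ψ hψ

end Cfsg.Agent.S4440
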