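import Cfsg.Statements.S4443
import Cfsg.Agent.Lib.Helper82.Robinson
import Cfsg.Agent.Lib.Helper82.RankExt
import Cfsg.Agent.Lib.Helper82.ResField

set_option autoImplicit false
open Cfsg

namespace Cfsg.Agent.S4443

open Cfsg.Agent.Lib.Helper82 Cfsg.Agent.Lib.Helper21 Cfsg.Agent.Lib.Helper22

open scoped Classical in
/-- The rank over `ZMod p` of a natural-number matrix which, modulo the local ideal, factors
as `U * V` with one-sided inverses. -/
theorem rank_of_res {p : ℕ} [Fact p.Prime] {M : Ideal AlgInt} (hM : IsPModular p M)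
    {F : Type} [Field F] (res : ℂ → F)
    (hadd : ∀ x y, MemLocalRing M x → MemLocalRing M y → res (x + y) = res x + res y)
    (hmul : ∀ x y, MemLocalRing M x → MemLocalRing M y → res (x * y) = res x * res y)
    (hone : res 1 = 1) (hzero : ∀ x, MemLocalRing M x → (res x = 0 ↔ MemLocalIdeal M x))
    {ι β : Type*} [Fintype ι] [Fintype β] (Z : ι → ι → ℕ)
    (U : ι → β → ℂ) (V : β → ι → ℂ) (X : β → ι → ℂ) (Y : ι → β → ℂ)
    (hU : ∀ i b, MemLocalRing M (U i b)) (hV : ∀ b j, MemLocalRing M (V b j))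
    (hX : ∀ b i, MemLocalRing M (X b i)) (hY : ∀ j b, MemLocalRing M (Y j b))
    (h1 : ∀ i j, MemLocalIdeal M ((Z i j : ℂ) - ∑ b, U i b * V b j))
    (h2 : ∀ b b', MemLocalIdeal M (∑ i, X b i * U i b' - (if b = b' then 1 else 0)))
    (h3 : ∀ b b', MemLocalIdeal M (∑ j, V b j * Y j b' - (if b = b' then 1 else 0))) :
    (Matrix.of fun i j : ι => ((Z i j : ℕ) : ZMod p)).rank = Fintype.card β := by
  have hp : p.Prime := Fact.out
  haveI : CharP F p := (CharP.charP_iff_prime_eq_zero hp).mpr (by
    rw [← res_natCast res hM hadd hone hzero p]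
    exact (hzero _ (locRing_natCast hM p)).mpr ((locIdeal_natCast_iff hM p).mpr dvd_rfl))
  have hδ : ∀ b b' : β, res (if b = b' then (1 : ℂ) else 0) = if b = b' then (1 : F) else 0 := by
    intro b b'
    split_ifs
    · exact hone
    · exact res_zero res hM hzero
  have hδR : ∀ b b' : β, MemLocalRing M (if b = b' then (1 : ℂ) else 0) := by
    intro b b'
    split_ifs
    · exact locRing_one hM
    · exact locRing_zero hM
  apply rank_eq_card_of_factor (ZMod.castHom (dvd_refl p) F) _
    (Matrix.of fun i b => res (U i b)) (Matrix.of fun b j => res (V b j))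
    (Matrix.of fun b i => res (X b i)) (Matrix.of fun j b => res (Y j b))
  · ext i j
    rw [Matrix.map_apply, Matrix.of_apply, map_natCast, Matrix.mul_apply]
    simp only [Matrix.of_apply]
    rw [← res_natCast res hM hadd hone hzero (Z i j)]
    have e1 : res (∑ b, U i b * V b j) = ∑ b, res (U i b) * res (V b j) := by
      rw [res_sum res hM hadd hzero _ _ (fun b _ => locRing_mul hM (hU i b) (hV b j))]
      exact Finset.sum_congr rfl fun b _ => hmul _ _ (hU i b) (hV b j)
    rw [← e1]
    exact res_eq_of_sub res hM hadd hzero (locRing_natCast hM _)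
      (locRing_sum hM _ _ fun b _ => locRing_mul hM (hU i b) (hV b j)) (h1 i j)
  · ext b b'
    rw [Matrix.mul_apply, Matrix.one_apply]
    simp only [Matrix.of_apply]
    have e1 : res (∑ i, X b i * U i b') = ∑ i, res (X b i) * res (U i b') := by
      rw [res_sum res hM hadd hzero _ _ (fun i _ => locRing_mul hM (hX b i) (hU i b'))]
      exact Finset.sum_congr rfl fun i _ => hmul _ _ (hX b i) (hU i b')
    rw [← e1, ← hδ b b']
    exact res_eq_of_sub res hM hadd hzero
      (locRing_sum hM _ _ fun i _ => locRing_mul hM (hX b i) (hU i b')) (hδR b b') (h2 b b')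
  · ext b b'
    rw [Matrix.mul_apply, Matrix.one_apply]
    simp only [Matrix.of_apply]
    have e1 : res (∑ j, V b j * Y j b') = ∑ j, res (V b j) * res (Y j b') := by
      rw [res_sum res hM hadd hzero _ _ (fun j _ => locRing_mul hM (hV b j) (hY j b'))]
      exact Finset.sum_congr rfl fun j _ => hmul _ _ (hV b j) (hY j b')
    rw [← e1, ← hδ b b']
    exact res_eq_of_sub res hM hadd hzero
      (locRing_sum hM _ _ fun j _ => locRing_mul hM (hV b j) (hY j b')) (hδR b b') (h3 b b')

/-- Let D be a normal p-subgroup of the finite group G, of order p^d, let p^a be the p-part of the order of G, and fix a Sylow p-subgroup S and a maximal ideal M of the algebraic integers containing p. Index by a finite type ι (via an injective map K) exactly the conjugacy classes of p-regular elements x of G for which D is a Sylow p-subgroup of C_G(x). For classes K_i, K_j let ω(i, j) be the number of pairs (y, z) ∈ K_i × K_j with z y⁻¹ ∈ S; this number is divisible by p^(a−d). Then the number of p-blocks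 of G having D as a defect group equals the rank over ℤ/pℤ of the matrix with (i, j) entry ω(i, j)/p^(a−d) reduced modulo p. -/
theorem result {G : Type*} [Group G] [Finite G] (p : ℕ) [Fact p.Prime] (M : Ideal Cfsg.AlgInt) (hM : Cfsg.IsPModular p M) (D : Subgroup G) [D.Normal] (hD : IsPGroup p D) (S : Sylow p G) {ι : Type*} [Fintype ι] [DecidableEq ι] (K : ι → ConjClasses G) (hKinj : Function.Injective K) (hK : ∀ C : ConjClasses G, (∃ i, K i = C) ↔ ∃ x ∈ C.carrier, ¬ p ∣ orderOf x ∧ ∃ Q : Sylow p (Subgroup.centralizer ({x} : Set G)), (Q : Subgroup (Subgroup.centralizer ({x} : Set G))).map (Subgroup.centralizer ({x} : Set G)).subtype = D) : Nat.card {B : Set (Cfsg.IrrCharacter G) // Cfsg.IsPBlock M B ∧ Cfsg.IsDefectGroup p M B D} = (Matrix.of fun i j : ι => ((Nat.card {yz : G × G // yz.1 ∈ (K i).carrier ∧ yz.2 ∈ (K j).carrier ∧ yz.2 * yz.1⁻¹ ∈ (S : Subgroup G)} / p ^ ((Nat.card G).factorization p - (Nat.card D).factorization p) : ℕ) : ZMod p)).rank := by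
  classical
  cases nonempty_fintype G
  haveI := Cfsg.Agent.Lib.Helper4.irr_finite (G := G)
  letI := Fintype.ofFinite (IrrCharacter G)
  have hp : p.Prime := Fact.out
  choose x hx using fun i : ι => (hK (K i)).mp ⟨i, rfl⟩
  have hxK : ∀ i, ConjClasses.mk (x i) = K i := fun i =>
    ConjClasses.mem_carrier_iff_mk_eq.mp (hx i).1
  have hx2 : ∀ i, IsSylowOf p (Subgroup.centralizer ({x i} : Set G)) D := fun i => (hx i).2.2
  have hx3 : ∀ i j, IsConj (x i) (x j) → i = j := fun i j h =>
    hKinj (by rw [← hxK i, ← hxK j]; exact ConjClasses.mk_eq_mk_iff_isConj.mpr h)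
  have hx4 : ∀ g : G, ¬ p ∣ orderOf g →
      IsSylowOf p (Subgroup.centralizer ({g} : Set G)) D → ∃ i, IsConj g (x i) := by
    intro g hg hsyl
    obtain ⟨i, hi⟩ := (hK (ConjClasses.mk g)).mpr ⟨g, ConjClasses.mem_carrier_mk, hg, hsyl⟩
    exact ⟨i, ConjClasses.mk_eq_mk_iff_isConj.mp (by rw [hxK i, hi])⟩
  haveI : Finite {B : Set (IrrCharacter G) // IsPBlock M B ∧ IsDefectGroup p M B D} :=
    inferInstance
  letI : Fintype {B : Set (IrrCharacter G) // IsPBlock M B ∧ IsDefectGroup p M B D} :=
    Fintype.ofFinite _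
  obtain ⟨U, V, X, Y, hU, hV, hX, hY, h1, h2, h3⟩ := robinson_core hM D hD S x hx2 hx3 hx4
    (fun b : {B : Set (IrrCharacter G) // IsPBlock M B ∧ IsDefectGroup p M B D} => b.1)
    Subtype.val_injective
    (fun B => ⟨fun ⟨b, hb⟩ => hb ▸ b.2, fun h => ⟨⟨B, h⟩, rfl⟩⟩)
  obtain ⟨F, instF, res, hadd, hmul, hone, hzero⟩ := exists_residue_field hM
  have hcard : ∀ i j, Nat.card {yz : G × G // yz.1 ∈ (K i).carrier ∧ yz.2 ∈ (K j).carrier ∧
      yz.2 * yz.1⁻¹ ∈ (S : Subgroup G)} = Nat.card {yz : G × G //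
      IsConj (x i) yz.1 ∧ IsConj (x j) yz.2 ∧ yz.2 * yz.1⁻¹ ∈ (S : Subgroup G)} := by
    intro i j
    refine Nat.card_congr (Equiv.subtypeEquivRight fun yz => ?_)
    rw [ConjClasses.mem_carrier_iff_mk_eq, ConjClasses.mem_carrier_iff_mk_eq, ← hxK i, ← hxK j,
      ConjClasses.mk_eq_mk_iff_isConj, ConjClasses.mk_eq_mk_iff_isConj, isConj_comm,
      isConj_comm (g := yz.2)]
  have hmat : (Matrix.of fun i j : ι => ((Nat.card {yz : G × G // yz.1 ∈ (K i).carrier ∧
      yz.2 ∈ (K j).carrier ∧ yz.2 * yz.1⁻¹ ∈ (S : Subgroup G)} /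
        p ^ ((Nat.card G).factorization p - (Nat.card D).factorization p) : ℕ) : ZMod p)) =
      (Matrix.of fun i j : ι => ((Nat.card {yz : G × G //
        IsConj (x i) yz.1 ∧ IsConj (x j) yz.2 ∧ yz.2 * yz.1⁻¹ ∈ (S : Subgroup G)} /
        p ^ ((Nat.card G).factorization p - (Nat.card D).factorization p) : ℕ) : ZMod p)) := by
    ext i j
    rw [Matrix.of_apply, Matrix.of_apply, hcard i j]
  rw [hmat, Nat.card_eq_fintype_card]
  exact (@rank_of_res p _ M hM F instF res hadd hmul hone hzero ι _ _ _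
    (fun i j => Nat.card {yz : G × G //
        IsConj (x i) yz.1 ∧ IsConj (x j) yz.2 ∧ yz.2 * yz.1⁻¹ ∈ (S : Subgroup G)} /
        p ^ ((Nat.card G).factorization p - (Nat.card D).factorization p))
    U V X Y hU hV hX hY h1 h2 h3).symm

end Cfsg.Agent.S4443
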