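import Cfsg.Statements.S4445
import Mathlib
import Cfsg.Agent.Lib.Helper5.GlCount

set_option autoImplicit false
open Cfsg

namespace Cfsg.Agent.S4445

/-- Inside a finite group Γ let the solvable subgroup S normalise G with the orders of G and S coprime. Then the number of S-invariant irreducible characters of G (χ(s g s⁻¹) = χ(g) for all s ∈ S, g ∈ G) equals the number of conjugacy classes of G mapped to themselves by conjugation by every element of S. -/
theorem result {Γ : Type*} [Group Γ] [Fintype Γ] (G S : Subgroup Γ) [Fintype G] (hnorm : ∀ s ∈ S, ∀ g ∈ G, s * g * s⁻¹ ∈ G) (hcop : (Nat.card G).Coprime (Nat.card S)) (hsolv : Group.IsSolvable S) : Nat.card {χ : Cfsg.IrrCharacter G // (∀ s ∈ S, ∀ g g' : G, (g' : Γ) = s * g * s⁻¹ → (χ : G → ℂ) g' = (χ : G → ℂ) g)} = Nat.card {K : ConjClasses G // ∀ s ∈ S, ∀ g g' : G, (g' : Γ) = s * g * s⁻¹ → ConjClasses.mk g = K → ConjClasses.mk g' = K} := by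
  classical
  let φ : S →* MulAut G :=
    Lib.Helper5.resAut ((MulAut.conj).comp S.subtype) G (fun w b hb => hnorm w w.2 b hb)
  have hφ : ∀ (s : S) (g : G), ((φ s g : G) : Γ) = s * g * (s : Γ)⁻¹ := fun s g => rfl
  haveI := hsolv
  have hcop' : (Fintype.card G).Coprime (Nat.card S) := by
    rwa [Nat.card_eq_fintype_card] at hcop
  have main := Lib.Helper5.gl_count φ hcop'
  have e1 : Nat.card {χ : Cfsg.IrrCharacter G // (∀ s ∈ S, ∀ g g' : G, (g' : Γ) = s * g * s⁻¹ →
        (χ : G → ℂ) g' = (χ : G → ℂ) g)} =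
      Nat.card {χ : IrrCharacter G // ∀ (s : S) g, (χ : G → ℂ) (φ s g) = (χ : G → ℂ) g} :=
    Nat.card_congr (Equiv.subtypeEquivRight (fun χ =>
      ⟨fun h s g => h s s.2 g (φ s g) (hφ s g), fun h s hs g g' hg' => by
        have h1 : g' = φ ⟨s, hs⟩ g := Subtype.ext (hg'.trans (hφ ⟨s, hs⟩ g).symm)
        rw [h1]
        exact h ⟨s, hs⟩ g⟩))
  have e2 : Nat.card {K : ConjClasses G // ∀ s ∈ S, ∀ g g' : G, (g' : Γ) = s * g * s⁻¹ →
        ConjClasses.mk g = K → ConjClasses.mk g' = K} =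
      Nat.card {K : ConjClasses G //
        ∀ (s : S) g, ConjClasses.mk g = K → ConjClasses.mk (φ s g) = K} :=
    Nat.card_congr (Equiv.subtypeEquivRight (fun K =>
      ⟨fun h s g hg => h s s.2 g (φ s g) (hφ s g) hg, fun h s hs g g' hg' hg => by
        have h1 : g' = φ ⟨s, hs⟩ g := Subtype.ext (hg'.trans (hφ ⟨s, hs⟩ g).symm)
        rw [h1]
        exact h ⟨s, hs⟩ g hg⟩))
  rw [e1, e2]
  exact main

end Cfsg.Agent.S4445
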