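import Cfsg.Statements.S4446
import Cfsg.Agent.Lib.Helper83.Glaub3

set_option autoImplicit false
open Cfsg

namespace Cfsg.Agent.S4446

open Cfsg.Agent.Lib Cfsg.Agent.Lib.Helper83

/-- Let the finite group Γ be generated by a normal subgroup G and a cyclic subgroup S of coprime orders, C = G ⊓ C(S), and let χ be an S-invariant irreducible character of G with canonical extension χ̂ to Γ (the extension whose determinantal order is coprime to the order of S). Then there are exactly one irreducible character β of C and one sign ε such that χ̂(c s) = ε β(c) for every c ∈ C and every generator s of S; this β is a constituent of the restriction of χ to C; distinct S-invariant χ give distinct β; and every irreducible character of C arises in this way. -/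
theorem result {Γ : Type*} [Group Γ] [Fintype Γ] (G S : Subgroup Γ) [Fintype G] (hnorm : ∀ s ∈ S, ∀ g ∈ G, s * g * s⁻¹ ∈ G) (hcop : (Nat.card G).Coprime (Nat.card S)) (htop : G ⊔ S = ⊤) (hcyc : IsCyclic S) (C : Subgroup Γ) [Fintype C] (hC : C = G ⊓ Subgroup.centralizer (S : Set Γ)) (hCG : C ≤ G) : (∀ (χ : Cfsg.IrrCharacter G) (χh : Cfsg.IrrCharacter Γ), (∀ s ∈ S, ∀ g g' : G, (g' : Γ) = s * g * s⁻¹ → (χ : G → ℂ) g' = (χ : G → ℂ) g) → (∀ g : G, (χh : Γ → ℂ) g = (χ : G → ℂ) g) → (Cfsg.detOrder (χh : Γ → ℂ)).Coprime (Nat.card S) → (∃! βε : Cfsg.IrrCharacter C × ℤ, (βε.2 = 1 ∨ βε.2 = -1) ∧ ∀ c : C, ∀ s : Γ, Subgroup.zpowers s = S → (χh : Γ → ℂ) ((c : Γ) * s) = (βε.2 : ℂ) * (βε.1 : C → ℂ) c) ∧ ∀ β : Cfsg.IrrCharacter C, ∀ ε : ℤ, (ε = 1 ∨ ε = -1) → (∀ c : C, ∀ s : Γ, Subgroup.zpowers s = S → (χh : Γ → ℂ) ((c : Γ) * s) = (ε : ℂ) * (β : C → ℂ) c) → Cfsg.classInner (fun c : C => (χ : G → ℂ) ⟨c, hCG c.2⟩) (β : C →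 ℂ) ≠ 0) ∧ (∀ (χ χ' : Cfsg.IrrCharacter G) (χh χh' : Cfsg.IrrCharacter Γ), (∀ s ∈ S, ∀ g g' : G, (g' : Γ) = s * g * s⁻¹ → (χ : G → ℂ) g' = (χ : G → ℂ) g) → (∀ s ∈ S, ∀ g g' : G, (g' : Γ) = s * g * s⁻¹ → (χ' : G → ℂ) g' = (χ' : G → ℂ) g) → (∀ g : G, (χh : Γ → ℂ) g = (χ : G → ℂ) g) → (∀ g : G, (χh' : Γ → ℂ) g = (χ' : G → ℂ) g) → (Cfsg.detOrder (χh : Γ → ℂ)).Coprime (Nat.card S) → (Cfsg.detOrder (χh' : Γ → ℂ)).Coprime (Nat.card S) → ∀ β : Cfsg.IrrCharacter C, ∀ ε ε' : ℤ, (ε = 1 ∨ ε = -1) → (ε' = 1 ∨ ε' = -1) → (∀ c : C, ∀ s : Γ, Subgroup.zpowers s = S → (χh : Γ → ℂ) ((c : Γ) * s) = (ε : ℂ) * (β : C → ℂ) c) → (∀ c : C, ∀ s : Γ, Subgroup.zpowers s = S → (χh' : Γ → ℂ) ((c : Γ) * s) = (ε' : ℂ) * (β : C → ℂ) c) → χ = χ') ∧ (∀ β : Cfsg.IrrCharacter C, ∃ (χ : Cfsg.IrrCharacter G) (χh : Cfsg.IrrCharacter Γ) (ε : ℤ), (∀ s ∈ S, ∀ g g' : G, (g' : Γ) = s * g * s⁻¹ → (χ : G → ℂ) g' = (χ : G → ℂ) g) ∧ (∀ g : G, (χh : Γ →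 ℂ) g = (χ : G → ℂ) g) ∧ (Cfsg.detOrder (χh : Γ → ℂ)).Coprime (Nat.card S) ∧ (ε = 1 ∨ ε = -1) ∧ ∀ c : C, ∀ s : Γ, Subgroup.zpowers s = S → (χh : Γ → ℂ) ((c : Γ) * s) = (ε : ℂ) * (β : C → ℂ) c) := by
  classical
  obtain ⟨s₀, hs₀⟩ : ∃ s₀ : Γ, Subgroup.zpowers s₀ = S := by
    obtain ⟨t, ht⟩ := hcyc.exists_generator
    refine ⟨(t : Γ), ?_⟩
    ext x
    constructor
    · intro hx
      obtain ⟨i, rfl⟩ := Subgroup.mem_zpowers_iff.mp hx
      exact S.zpow_mem t.2 i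
    · intro hx
      obtain ⟨i, hi⟩ := Subgroup.mem_zpowers_iff.mp (ht ⟨x, hx⟩)
      rw [Subgroup.mem_zpowers_iff]
      refine ⟨i, ?_⟩
      have h1 := congrArg (Subtype.val : S → Γ) hi
      rw [Subgroup.coe_zpow] at h1
      exact h1
  have hset : GSetup G C s₀ := gsetup_of G S C hnorm hcop htop hC s₀ hs₀
  have hGn : G.Normal := hset.normal
  have hord : orderOf s₀ = Nat.card S := by rw [← hs₀, Nat.card_zpowers]
  have hεne : ∀ ε : ℤ, (ε = 1 ∨ ε = -1) → (ε : ℂ) ≠ 0 := by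
    intro ε hε
    rcases hε with rfl | rfl <;> simp
  refine ⟨?_, ?_, ?_⟩
  · intro χ χh hinv hext hdet
    have hres : IsIrrCharacter G (fun g : G => (χh : Γ → ℂ) g) := by
      have h4 : (fun g : G => (χh : Γ → ℂ) g) = (χ : G → ℂ) := funext hext
      rw [h4]
      exact χ.2
    rw [← hord] at hdet
    obtain ⟨β, ε, hε, hval⟩ := hset.key_exists χh.2 hres hdet
    constructor
    · refine ⟨(β, ε), ⟨hε, fun c s hs => hval c s (hs.trans hs₀.symm)⟩, ?_⟩
      rintro ⟨β', ε'⟩ ⟨hε', hval'⟩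
      have h1 := hval 1 s₀ rfl
      have h2 := hval' 1 s₀ hs₀
      obtain ⟨hd, hd1⟩ := irr_degree β.2
      obtain ⟨hd', hd1'⟩ := irr_degree β'.2
      have h3 : (ε : ℂ) * (charDegree (β : C → ℂ) : ℂ) =
          (ε' : ℂ) * (charDegree (β' : C → ℂ) : ℂ) := by
        rw [← hd1, ← hd1', ← h1]
        exact h2
      have h4 : ε * (charDegree (β : C → ℂ) : ℤ) = ε' * (charDegree (β' : C → ℂ) : ℤ) := by
        exact_mod_cast h3
      have hdz : (0 : ℤ) < (charDegree (β : C → ℂ) : ℤ) := by exact_mod_cast hd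
      have hdz' : (0 : ℤ) < (charDegree (β' : C → ℂ) : ℤ) := by exact_mod_cast hd'
      have hεε' : ε' = ε := by
        rcases hε with rfl | rfl <;> rcases hε' with rfl | rfl
        · rfl
        · exfalso
          omega
        · exfalso
          omega
        · rfl
      subst hεε'
      have hββ' : β' = β := by
        apply Subtype.ext
        funext c
        have h5 := hval c s₀ rfl
        have h6 := hval' c s₀ hs₀
        rw [h5] at h6
        exact (mul_left_cancel₀ (hεne _ hε) h6).symm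
      rw [hββ']
    · intro β' ε' hε' hval'
      have h1 := hset.key_inner (Helper35.isChar_of_irr χh.2) β'.2 (ε' : ℂ) (hεne ε' hε')
        (fun c => hval' c s₀ hs₀)
      have h2 : (fun c : C => (χh : Γ → ℂ) (c : Γ)) =
          (fun c : C => (χ : G → ℂ) ⟨c, hCG c.2⟩) := by
        funext c
        exact hext ⟨c, hCG c.2⟩
      rw [h2] at h1
      exact h1
  · intro χ χ' χh χh' hinv hinv' hext hext' hdet hdet' β ε ε' hε hε' hval hval'
    have hres : IsIrrCharacter G (fun g : G => (χh : Γ → ℂ) g) := by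
      have h4 : (fun g : G => (χh : Γ → ℂ) g) = (χ : G → ℂ) := funext hext
      rw [h4]
      exact χ.2
    have hres' : IsIrrCharacter G (fun g : G => (χh' : Γ → ℂ) g) := by
      have h4 : (fun g : G => (χh' : Γ → ℂ) g) = (χ' : G → ℂ) := funext hext'
      rw [h4]
      exact χ'.2
    have h5 := hset.key_inj χh.2 χh'.2 hres hres' β.2 (ε : ℂ) (ε' : ℂ) (hεne ε hε) (hεne ε' hε')
      (fun c => hval c s₀ hs₀) (fun c => hval' c s₀ hs₀)
    apply Subtype.ext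
    funext g
    rw [← hext g, ← hext' g]
    exact congrFun h5 g
  · intro β
    obtain ⟨χh, ε, h1, h2, h3, hε, hval⟩ := hset.key_surj β
    refine ⟨⟨fun g : G => χh g, h2⟩, ⟨χh, h1⟩, ε, ?_, fun g => rfl, ?_, hε, ?_⟩
    · intro s hs g g' hgg'
      show χh g' = χh g
      rw [hgg']
      exact irr_classFunction h1 _ _
    · rw [← hord]
      exact h3
    · intro c s hs
      exact hval c s (hs.trans hs₀.symm)

end Cfsg.Agent.S4446
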