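import Cfsg.Statements.S4447
import Cfsg.Agent.Lib.Helper86.GlaubRel
import Cfsg.Agent.Lib.Helper20.CliffordRel
import Cfsg.Agent.Lib.Helper83.Cop2
import Cfsg.Agent.Lib.Helper1.SZ

set_option autoImplicit false
open Cfsg

namespace Cfsg.Agent.S4447

open Cfsg.Agent.Lib in
/-- conjugation by an element normalizing `N`, as an automorphism of `N` -/
def cjN {Γ : Type*} [Group Γ] (N : Subgroup Γ) (x : Γ) (hx : ∀ n, n ∈ N ↔ x * n * x⁻¹ ∈ N) :
    N ≃* N where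
  toFun n := ⟨x * n * x⁻¹, (hx n).1 n.2⟩
  invFun n := ⟨x⁻¹ * n * x, by
    rw [hx]
    have h1 : x * (x⁻¹ * (n : Γ) * x) * x⁻¹ = n := by group
    rw [h1]
    exact n.2⟩
  left_inv n := by
    apply Subtype.ext
    show x⁻¹ * (x * (n : Γ) * x⁻¹) * x = n
    group
  right_inv n := by
    apply Subtype.ext
    show x * (x⁻¹ * (n : Γ) * x) * x⁻¹ = n
    group
  map_mul' a b := by
    apply Subtype.ext
    show x * ((a : Γ) * b) * x⁻¹ = (x * a * x⁻¹) * (x * b * x⁻¹)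
    group

theorem cjN_coe {Γ : Type*} [Group Γ] (N : Subgroup Γ) (x : Γ)
    (hx : ∀ n, n ∈ N ↔ x * n * x⁻¹ ∈ N) (n : N) : ((cjN N x hx n : N) : Γ) = x * n * x⁻¹ := rfl

/-- Inside a finite group Γ let S normalise G and also normalise a normal subgroup N of G, with the order of S coprime to the index of N in G and S or G/N solvable. Then for every S-invariant irreducible character χ of G, the restriction of χ to N has an S-invariant irreducible constituent. -/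
theorem result {Γ : Type*} [Group Γ] [Fintype Γ] (G S N : Subgroup Γ) [Fintype G] [Fintype N] (hnorm : ∀ s ∈ S, ∀ g ∈ G, s * g * s⁻¹ ∈ G) (hNG : N ≤ G) [hNn : (N.subgroupOf G).Normal] (hNS : ∀ s ∈ S, ∀ n ∈ N, s * n * s⁻¹ ∈ N) (hcop : (N.relIndex G).Coprime (Nat.card S)) (hsolv : Group.IsSolvable S ∨ Group.IsSolvable (G ⧸ N.subgroupOf G)) (χ : Cfsg.IrrCharacter G) (hinv : (∀ s ∈ S, ∀ g g' : G, (g' : Γ) = s * g * s⁻¹ → (χ : G → ℂ) g' = (χ : G → ℂ) g)) : ∃ θ : Cfsg.IrrCharacter N, Cfsg.classInner (fun n : N => (χ : G → ℂ) ⟨n, hNG n.2⟩) (θ : N → ℂ) ≠ 0 ∧ (∀ s ∈ S, ∀ g g' : N, (g' : Γ) = s * g * s⁻¹ → (θ : N → ℂ) g' = (θ : N → ℂ) g) := by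
  classical
  obtain ⟨Γ₁, hΓ₁⟩ : ∃ Γ₁ : Subgroup Γ,
      Γ₁ = Subgroup.normalizer (G : Set Γ) ⊓ Subgroup.normalizer (N : Set Γ) := ⟨_, rfl⟩
  have hmemΓ₁ : ∀ x, x ∈ Γ₁ ↔
      (∀ g, g ∈ G ↔ x * g * x⁻¹ ∈ G) ∧ (∀ n, n ∈ N ↔ x * n * x⁻¹ ∈ N) := by
    intro x
    rw [hΓ₁, Subgroup.mem_inf, Subgroup.mem_normalizer_iff, Subgroup.mem_normalizer_iff]
  have hGΓ₁ : G ≤ Γ₁ := by
    rw [hΓ₁]
    exact le_inf Subgroup.le_normalizer ((Subgroup.normal_subgroupOf_iff_le_normalizer hNG).mp hNn)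
  have hNΓ₁ : N ≤ Γ₁ := hNG.trans hGΓ₁
  have hSΓ₁ : S ≤ Γ₁ := by
    intro s hs
    rw [hmemΓ₁]
    refine ⟨fun g => ⟨fun hg => hnorm s hs g hg, fun hg => ?_⟩,
      fun n => ⟨fun hn => hNS s hs n hn, fun hn => ?_⟩⟩
    · have h1 := hnorm s⁻¹ (S.inv_mem hs) _ hg
      have h2 : s⁻¹ * (s * g * s⁻¹) * s⁻¹⁻¹ = g := by group
      rwa [h2] at h1
    · have h1 := hNS s⁻¹ (S.inv_mem hs) _ hn
      have h2 : s⁻¹ * (s * n * s⁻¹) * s⁻¹⁻¹ = n := by group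
      rwa [h2] at h1
  have hnN : ∀ u : Γ₁, ∀ n, n ∈ N ↔ (u : Γ) * n * (u : Γ)⁻¹ ∈ N := fun u => ((hmemΓ₁ u).mp u.2).2
  have hnN' : ∀ u : Γ₁, ∀ n, n ∈ N ↔ (u : Γ)⁻¹ * n * (u : Γ)⁻¹⁻¹ ∈ N :=
    fun u => ((hmemΓ₁ _).mp (Γ₁.inv_mem u.2)).2
  -- the subgroups of `Γ₁`
  obtain ⟨K, hK⟩ : ∃ K : Subgroup Γ₁, K = G.subgroupOf Γ₁ := ⟨_, rfl⟩
  obtain ⟨N₀, hN₀⟩ : ∃ N₀ : Subgroup Γ₁, N₀ = N.subgroupOf Γ₁ := ⟨_, rfl⟩
  obtain ⟨A, hA⟩ : ∃ A : Subgroup Γ₁, A = S.subgroupOf Γ₁ := ⟨_, rfl⟩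
  have hKn : K.Normal := by
    rw [hK]
    exact Subgroup.normal_subgroupOf_of_le_normalizer (hΓ₁ ▸ inf_le_left)
  have hN₀n : N₀.Normal := by
    rw [hN₀]
    exact Subgroup.normal_subgroupOf_of_le_normalizer (hΓ₁ ▸ inf_le_right)
  have hmemK : ∀ u : Γ₁, u ∈ K ↔ (u : Γ) ∈ G := fun u => by rw [hK]; exact Subgroup.mem_subgroupOf
  have hmemN₀ : ∀ u : Γ₁, u ∈ N₀ ↔ (u : Γ) ∈ N := fun u => by rw [hN₀]; exact Subgroup.mem_subgroupOf
  have hN₀K : N₀ ≤ K := fun u hu => (hmemK u).mpr (hNG ((hmemN₀ u).mp hu))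
  have hmemA : ∀ u : Γ₁, u ∈ A ↔ (u : Γ) ∈ S := fun u => by rw [hA]; exact Subgroup.mem_subgroupOf
  have hcardA : Nat.card A = Nat.card S := by
    rw [hA]
    exact Lib.Helper1.card_subgroupOf_of_le hSΓ₁
  have hrel : N₀.relIndex K = N.relIndex G := by
    rw [hN₀, hK]
    exact Subgroup.relIndex_subgroupOf hGΓ₁
  have hcop' : (Nat.card A).Coprime (N₀.relIndex K) := by
    rw [hcardA, hrel]
    exact hcop.symm
  -- solvability
  have hsolv' : Group.IsSolvable A ∨ Group.IsSolvable (K.map (QuotientGroup.mk' N₀)) := by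
    rcases hsolv with hs | hs
    · left
      rw [hA]
      exact Lib.Helper1.isSolvable_subgroupOf S Γ₁
    · right
      let f : G →* (K.map (QuotientGroup.mk' N₀)) :=
        { toFun := fun g => ⟨QuotientGroup.mk' N₀ ⟨(g : Γ), hGΓ₁ g.2⟩,
            Subgroup.mem_map_of_mem _ ((hmemK _).mpr g.2)⟩
          map_one' := by
            apply Subtype.ext
            exact (QuotientGroup.mk' N₀).map_one
          map_mul' := fun a b => by
            apply Subtype.ext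
            exact (QuotientGroup.mk' N₀).map_mul ⟨(a : Γ), hGΓ₁ a.2⟩ ⟨(b : Γ), hGΓ₁ b.2⟩ }
      have hfker : N.subgroupOf G ≤ f.ker := by
        intro g hg
        rw [MonoidHom.mem_ker]
        apply Subtype.ext
        show QuotientGroup.mk' N₀ ⟨(g : Γ), hGΓ₁ g.2⟩ = 1
        rw [QuotientGroup.mk'_apply, QuotientGroup.eq_one_iff, hmemN₀]
        exact Subgroup.mem_subgroupOf.mp hg
      have hfs : Function.Surjective (QuotientGroup.lift (N.subgroupOf G) f hfker) := by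
        rintro ⟨_, ⟨k, hk, rfl⟩⟩
        refine ⟨QuotientGroup.mk ⟨(k : Γ), (hmemK k).mp hk⟩, ?_⟩
        rw [QuotientGroup.lift_mk]
        rfl
      exact Group.isSolvable_of_surjective hfs
  -- the action on the irreducible characters of `N`
  let act : Γ₁ → Cfsg.IrrCharacter N → Cfsg.IrrCharacter N := fun u θ =>
    ⟨fun n => (θ : N → ℂ) (cjN N (u : Γ)⁻¹ (hnN' u) n),
      Lib.Helper20.irr_comp_surjective (cjN N (u : Γ)⁻¹ (hnN' u)).toMonoidHom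
        (cjN N (u : Γ)⁻¹ (hnN' u)).surjective θ.2⟩
  have hact : ∀ (u : Γ₁) (θ : Cfsg.IrrCharacter N) (n : N),
      (act u θ : N → ℂ) n = (θ : N → ℂ) ⟨(u : Γ)⁻¹ * n * (u : Γ), by
        have h1 := (hnN' u n).mp n.2
        rwa [inv_inv] at h1⟩ := by
    intro u θ n
    refine congrArg (θ : N → ℂ) (Subtype.ext ?_)
    exact congrArg (fun z => (u : Γ)⁻¹ * (n : Γ) * z) (inv_inv (u : Γ))
  have act_mul : ∀ g h t, act (g * h) t = act g (act h t) := by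
    intro g h t
    apply Subtype.ext
    funext n
    rw [hact, hact, hact]
    refine congrArg (t : N → ℂ) (Subtype.ext ?_)
    show ((g : Γ) * (h : Γ))⁻¹ * n * ((g : Γ) * (h : Γ)) = (h : Γ)⁻¹ * ((g : Γ)⁻¹ * n * g) * h
    group
  obtain ⟨ψ, hψ⟩ : ∃ ψ : N → ℂ, ψ = fun n : N => (χ : G → ℂ) ⟨n, hNG n.2⟩ := ⟨_, rfl⟩
  have hψchar : Cfsg.IsCharacter N ψ := by
    rw [hψ]
    exact Lib.Helper83.isCharacter_res_le hNG (Lib.Helper35.isChar_of_irr χ.2)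
  have hχcf : Cfsg.IsClassFunction G (χ : G → ℂ) :=
    Lib.Helper35.isClassFunction_of_isCharacter (Lib.Helper35.isChar_of_irr χ.2)
  -- invariance of the inner product
  have hinner : ∀ (u : Γ₁), (∀ n : N, ψ (cjN N (u : Γ)⁻¹ (hnN' u) n) = ψ n) →
      ∀ θ : Cfsg.IrrCharacter N, Cfsg.classInner ψ (act u θ : N → ℂ) =
        Cfsg.classInner ψ (θ : N → ℂ) := by
    intro u hu θ
    have h1 := Lib.Helper20.classInner_comp_equiv (cjN N (u : Γ)⁻¹ (hnN' u)) ψ (θ : N → ℂ)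
    rw [← h1]
    congr 1
    funext n
    exact (hu n).symm
  let T : Set (Cfsg.IrrCharacter N) := {θ | Cfsg.classInner ψ (θ : N → ℂ) ≠ 0}
  have hTA : ∀ a ∈ A, ∀ t ∈ T, act a t ∈ T := by
    intro a ha t ht
    show Cfsg.classInner ψ (act a t : N → ℂ) ≠ 0
    rw [hinner a ?_ t]
    · exact ht
    · intro n
      rw [hψ]
      refine hinv (a : Γ)⁻¹ (S.inv_mem ((hmemA a).mp ha)) _ _ ?_
      rw [cjN_coe]
  have hTK : ∀ k ∈ K, ∀ t ∈ T, act k t ∈ T := by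
    intro k hk t ht
    show Cfsg.classInner ψ (act k t : N → ℂ) ≠ 0
    rw [hinner k ?_ t]
    · exact ht
    · intro n
      rw [hψ]
      have h1 := hχcf ⟨(n : Γ), hNG n.2⟩ ⟨(k : Γ), (hmemK k).mp hk⟩⁻¹
      exact Eq.trans (congrArg (χ : G → ℂ) (Subtype.ext rfl)) h1
  have hfix : ∀ n ∈ N₀, ∀ t ∈ T, act n t = t := by
    intro n hn t _
    apply Subtype.ext
    funext m
    have htcf : Cfsg.IsClassFunction N (t : N → ℂ) :=
      Lib.Helper35.isClassFunction_of_isCharacter (Lib.Helper35.isChar_of_irr t.2)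
    have h1 := htcf m ⟨(n : Γ), (hmemN₀ n).mp hn⟩⁻¹
    exact Eq.trans (congrArg (t : N → ℂ) (Subtype.ext rfl)) h1
  have hne : T.Nonempty := by
    have h1 : ψ 1 ≠ 0 := by
      rw [hψ]
      exact Lib.Helper83.irr_one_ne_zero χ.2
    obtain ⟨φ, hφ, hφ1⟩ := Lib.Helper20.exists_constituent_of_char hψchar h1
    exact ⟨⟨φ, hφ⟩, hφ1⟩
  -- transitivity: Clifford
  have htr : ∀ s ∈ T, ∀ t ∈ T, ∃ k ∈ K, act k s = t := by
    intro θ hθ μ hμ
    let H : Subgroup G := N.subgroupOf G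
    let _ : Fintype H := Fintype.ofFinite _
    let e₀ : H ≃* N := Subgroup.subgroupOfEquivOfLe hNG
    have he₀ : ∀ h₀ : H, ((e₀ h₀ : N) : Γ) = ((h₀ : G) : Γ) :=
      fun h₀ => Subgroup.subgroupOfEquivOfLe_apply_coe hNG h₀
    have hθ₀ : Cfsg.IsIrrCharacter H (fun h₀ => (θ : N → ℂ) (e₀ h₀)) :=
      Lib.Helper20.irr_comp_surjective e₀.toMonoidHom e₀.surjective θ.2
    have hμ₀ : Cfsg.IsIrrCharacter H (fun h₀ => (μ : N → ℂ) (e₀ h₀)) :=
      Lib.Helper20.irr_comp_surjective e₀.toMonoidHom e₀.surjective μ.2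
    have hres : (fun h₀ : H => (χ : G → ℂ) (h₀ : G)) = fun h₀ : H => ψ (e₀ h₀) := by
      funext h₀
      rw [hψ]
      simp only
      congr 1
    have hin : ∀ α : N → ℂ, Cfsg.classInner (fun h₀ : H => (χ : G → ℂ) (h₀ : G))
        (fun h₀ => α (e₀ h₀)) = Cfsg.classInner ψ α := by
      intro α
      rw [hres]
      exact Lib.Helper20.classInner_comp_equiv e₀ ψ α
    obtain ⟨x, hx⟩ := Lib.Helper20.clifford_conj H hθ₀ χ.2 (by rw [hin]; exact hθ) hμ₀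
      (by rw [hin]; exact hμ)
    refine ⟨⟨(x : Γ), hGΓ₁ x.2⟩⁻¹, K.inv_mem ((hmemK _).mpr x.2), ?_⟩
    apply Subtype.ext
    funext n
    have h1 := congrFun hx (e₀.symm n)
    simp only [Lib.Helper20.conjFun_apply] at h1
    rw [MulEquiv.apply_symm_apply] at h1
    rw [h1, hact]
    refine congrArg (θ : N → ℂ) (Subtype.ext ?_)
    rw [he₀]
    have h2 : (((e₀.symm n : H) : G) : Γ) = n := by
      rw [← he₀, MulEquiv.apply_symm_apply]
    show ((x : Γ)⁻¹)⁻¹ * (n : Γ) * (x : Γ)⁻¹ = (x : Γ) * (((e₀.symm n : H) : G) : Γ) * (x : Γ)⁻¹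
    rw [h2, inv_inv]
  obtain ⟨θ, hθT, hθfix⟩ := Lib.Helper86.glauberman_rel act act_mul N₀ K A hN₀K hcop' hsolv' T hTA
    hTK htr hfix hne
  refine ⟨θ, ?_, ?_⟩
  · have h1 : Cfsg.classInner ψ (θ : N → ℂ) ≠ 0 := hθT
    rwa [hψ] at h1
  · intro s hs g g' hgg'
    have h1 := hθfix ⟨s, hSΓ₁ hs⟩ ((hmemA _).mpr hs)
    have h2 : (act ⟨s, hSΓ₁ hs⟩ θ : N → ℂ) g' = (θ : N → ℂ) g' := by rw [h1]
    rw [hact] at h2
    rw [← h2]
    refine congrArg (θ : N → ℂ) (Subtype.ext ?_)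
    show s⁻¹ * (g' : Γ) * s = (g : Γ)
    rw [hgg']
    group

end Cfsg.Agent.S4447
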