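import Cfsg.Statements.S4449
import Mathlib
import Cfsg.Agent.Lib.Helper5.GlRes

set_option autoImplicit false
open Cfsg

namespace Cfsg.Agent.S4449

/-- Inside a finite group Γ let the solvable subgroup S normalise G with the orders of G and S coprime, and let N be a normal subgroup of G normalised by S. Then for every S-invariant irreducible character ϑ of N, the induced character ϑ^G has an S-invariant irreducible constituent. -/
theorem result {Γ : Type*} [Group Γ] [Fintype Γ] (G S N : Subgroup Γ) [Fintype G] [Fintype N] (hnorm : ∀ s ∈ S, ∀ g ∈ G, s * g * s⁻¹ ∈ G) (hNG : N ≤ G) (hNnormal : ∀ g ∈ G, ∀ n ∈ N, g * n * g⁻¹ ∈ N) (hNS : ∀ s ∈ S, ∀ n ∈ N, s * n * s⁻¹ ∈ N) (hcop : (Nat.card G).Coprime (Nat.card S)) (hsolv : Group.IsSolvable S) (θ : Cfsg.IrrCharacter N) (hinv : (∀ s ∈ S, ∀ g g' : N, (g' : Γ) = s * g * s⁻¹ → (θ : N → ℂ) g' = (θ : N → ℂ) g)) : ∃ χ : Cfsg.IrrCharacter G, Cfsg.classInner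 (fun n : N => (χ : G → ℂ) ⟨n, hNG n.2⟩) (θ : N → ℂ) ≠ 0 ∧ (∀ s ∈ S, ∀ g g' : G, (g' : Γ) = s * g * s⁻¹ → (χ : G → ℂ) g' = (χ : G → ℂ) g) := by
  classical
  haveI := hsolv
  let φ : S →* MulAut G :=
    Lib.Helper5.resAut ((MulAut.conj).comp S.subtype) G (fun w b hb => hnorm w w.2 b hb)
  have hφ : ∀ (s : S) (g : G), ((φ s g : G) : Γ) = s * g * (s : Γ)⁻¹ := fun s g => rfl
  obtain ⟨N', hN'mem⟩ : ∃ N' : Subgroup G, ∀ g : G, g ∈ N' ↔ (g : Γ) ∈ N :=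
    ⟨N.subgroupOf G, fun g => Subgroup.mem_subgroupOf⟩
  have hN'n : N'.Normal := by
    constructor
    intro n hn g
    rw [hN'mem] at hn ⊢
    exact hNnormal g g.2 n hn
  haveI := hN'n
  letI : Fintype N' := Fintype.ofFinite N'
  have hN'inv : ∀ (x : S), ∀ n ∈ N', φ x n ∈ N' := by
    intro x n hn
    rw [hN'mem] at hn ⊢
    rw [hφ]
    exact hNS x x.2 n hn
  obtain ⟨φN, hφN⟩ : ∃ φN : S →* MulAut N', ∀ (x : S) (n : N'), ((φN x n : N') : G) = φ x n :=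
    ⟨Lib.Helper5.resAut φ N' hN'inv, fun x n => rfl⟩
  let e : N' ≃* N :=
    { toFun := fun n => ⟨((n : G) : Γ), (hN'mem n).mp n.2⟩
      invFun := fun n => ⟨⟨(n : Γ), hNG n.2⟩, (hN'mem _).mpr n.2⟩
      left_inv := fun n => rfl
      right_inv := fun n => rfl
      map_mul' := fun a b => rfl }
  have he : ∀ n : N', ((e n : N) : Γ) = ((n : G) : Γ) := fun n => rfl
  let θ' : IrrCharacter N' := ⟨fun n => (θ : N → ℂ) (e n), Lib.Helper4.isIrrCharacter_comp_equiv e θ⟩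
  have hθ' : ∀ x n, (θ' : N' → ℂ) (φN x n) = (θ' : N' → ℂ) n := by
    intro x n
    change (θ : N → ℂ) (e (φN x n)) = (θ : N → ℂ) (e n)
    apply hinv x x.2 (e n) (e (φN x n))
    rw [he, he, hφN, hφ]
  have hcop' : (Fintype.card G).Coprime (Nat.card S) := by
    rwa [Nat.card_eq_fintype_card] at hcop
  obtain ⟨χ, hχ, hne⟩ := Lib.Helper5.gl_over N' φ φN hφN hcop' θ' hθ'
  refine ⟨χ, ?_, ?_⟩
  · have h1 := Lib.Helper20.classInner_comp_equiv e (fun n : N => (χ : G → ℂ) ⟨n, hNG n.2⟩)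
      (θ : N → ℂ)
    rw [← h1]
    exact hne
  · intro s hs g g' hg'
    have h1 : g' = φ ⟨s, hs⟩ g := Subtype.ext (hg'.trans (hφ ⟨s, hs⟩ g).symm)
    rw [h1]
    exact hχ ⟨s, hs⟩ g

end Cfsg.Agent.S4449
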