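import Cfsg.Statements.S4451
import Cfsg.Agent.Lib.Helper83.Glaub4
import Cfsg.Agent.Lib.Helper83.Glaub5

set_option autoImplicit false
open Cfsg

namespace Cfsg.Agent.S4451

open Cfsg.Agent.Lib Cfsg.Agent.Lib.Helper83

/-- Let the finite group Γ be generated by a normal subgroup G and a cyclic subgroup S of coprime orders such that every non-identity element of S has the same centraliser C = G ⊓ C(S) in G. Let χ be an S-invariant irreducible character of G, χ̂ its canonical extension to Γ (determinantal order coprime to the order of S), and β the irreducible character of C with χ̂(c s) = ε₀ β(c) for c ∈ C and generators s of S (ε₀ = ±1). Then there are a sign ε = ±1, which may differ from ε₀, and a linear character μ of S with μ² = 1, such that: (a) χ̂(c x) = ε β(c) μ(x) for all c ∈ C and all x ∈ S other than 1; (b) the restriction of χ to C equals |S|·ϑ + ε β for some character ϑ of C or ϑ = 0; (c) |S| divides χ(1) − ε β(1). -/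
theorem result {Γ : Type*} [Group Γ] [Fintype Γ] (G S : Subgroup Γ) [Fintype G] (hnorm : ∀ s ∈ S, ∀ g ∈ G, s * g * s⁻¹ ∈ G) (hcop : (Nat.card G).Coprime (Nat.card S)) (htop : G ⊔ S = ⊤) (hcyc : IsCyclic S) (C : Subgroup Γ) [Fintype C] (hC : C = G ⊓ Subgroup.centralizer (S : Set Γ)) (hCG : C ≤ G) (hfpf : ∀ x ∈ S, x ≠ 1 → G ⊓ Subgroup.centralizer ({x} : Set Γ) = C) (χ : Cfsg.IrrCharacter G) (hinv : (∀ s ∈ S, ∀ g g' : G, (g' : Γ) = s * g * s⁻¹ → (χ : G → ℂ) g' = (χ : G → ℂ) g)) (χh : Cfsg.IrrCharacter Γ) (hext : (∀ g : G, (χh : Γ → ℂ) g = (χ : G → ℂ) g)) (hdet : (Cfsg.detOrder (χh : Γ → ℂ)).Coprime (Nat.card S)) (β : Cfsg.IrrCharacter C) (ε₀ : ℤ) (hε₀ : ε₀ = 1 ∨ ε₀ = -1) (hβ : ∀ c : C, ∀ s : Γ, Subgroup.zpowers s = S → (χh : Γ → ℂ) ((c : Γ) * s) = (ε₀ : ℂ) * (β : C → ℂ) c) : ∃ ε : ℤ, (ε = 1 ∨ ε = -1) ∧ (∃ μ : S → ℂ, Cfsg.IsCharacter S μ ∧ μ 1 = 1 ∧ (∀ x : S, μ x * μ x = 1) ∧ ∀ c : C, ∀ x : S, x ≠ 1 → (χh : Γ → ℂ) ((c : Γ) * x) = (ε : ℂ) * (β : C → ℂ)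 c * μ x) ∧ (∃ ϑ : C → ℂ, Cfsg.IsCharacter C ϑ ∧ (fun c : C => (χ : G → ℂ) ⟨c, hCG c.2⟩) = fun c => (Nat.card S : ℂ) * ϑ c + (ε : ℂ) * (β : C → ℂ) c) ∧ (Nat.card S : ℤ) ∣ (Cfsg.charDegree (χ : G → ℂ) : ℤ) - ε * (Cfsg.charDegree (β : C → ℂ) : ℤ) := by
  classical
  obtain ⟨s₀, hs₀⟩ : ∃ s₀ : Γ, Subgroup.zpowers s₀ = S := by
    obtain ⟨t, ht⟩ := hcyc.exists_generator
    refine ⟨(t : Γ), ?_⟩
    ext x
    constructor
    · intro hx
      obtain ⟨i, rfl⟩ := Subgroup.mem_zpowers_iff.mp hx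
      exact S.zpow_mem t.2 i
    · intro hx
      obtain ⟨i, hi⟩ := Subgroup.mem_zpowers_iff.mp (ht ⟨x, hx⟩)
      rw [Subgroup.mem_zpowers_iff]
      refine ⟨i, ?_⟩
      have h1 := congrArg (Subtype.val : S → Γ) hi
      rw [Subgroup.coe_zpow] at h1
      exact h1
  have hset : GSetup G C s₀ := gsetup_of G S C hnorm hcop htop hC s₀ hs₀
  have hGn : G.Normal := hset.normal
  have hord : orderOf s₀ = Nat.card S := by rw [← hs₀, Nat.card_zpowers]
  have hres : IsIrrCharacter G (fun g : G => (χh : Γ → ℂ) g) := by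
    have h4 : (fun g : G => (χh : Γ → ℂ) g) = (χ : G → ℂ) := funext hext
    rw [h4]
    exact χ.2
  have hdet' : (detOrder (χh : Γ → ℂ)).Coprime (orderOf s₀) := by
    rw [hord]
    exact hdet
  have hεne : ∀ ε : ℤ, (ε = 1 ∨ ε = -1) → (ε : ℂ) ≠ 0 := by
    intro ε hε
    rcases hε with rfl | rfl <;> simp
  have hIrrC := Helper4.irr_finite (G := C)
  let _ : Fintype (IrrCharacter C) := Fintype.ofFinite _
  have hχhc : IsCharacter Γ (χh : Γ → ℂ) := Helper35.isChar_of_irr χh.2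
  have hcomm : ∀ c ∈ C, ∀ t ∈ S, c * t = t * c := by
    intro c hc t ht
    rw [hC, Subgroup.mem_inf, Subgroup.mem_centralizer_iff] at hc
    exact (hc.2 t ht).symm
  have hcross : ∀ β' : IrrCharacter C, IsCharacter S (fun t : S => (Nat.card C : ℂ)⁻¹ *
      ∑ c : C, (χh : Γ → ℂ) ((c : Γ) * t) * (starRingEnd ℂ) ((β' : C → ℂ) c)) :=
    fun β' => cross_isCharacter C S hcomm hχhc (Helper35.isChar_of_irr β'.2)
  have hcross1 : ∀ β' : IrrCharacter C, (Nat.card C : ℂ)⁻¹ *
      ∑ c : C, (χh : Γ → ℂ) ((c : Γ) * ((1 : S) : Γ)) * (starRingEnd ℂ) ((β' : C → ℂ) c) =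
      classInner (fun c : C => (χ : G → ℂ) ⟨c, hCG c.2⟩) (β' : C → ℂ) := by
    intro β'
    unfold classInner
    congr 1
    apply Finset.sum_congr rfl
    intro c _
    rw [Subgroup.coe_one, mul_one, hext ⟨c, hCG c.2⟩]
  by_cases hn1 : Nat.card S = 1
  · have hS1 : ∀ x : S, x = 1 := by
      intro x
      have h1 := (Nat.card_eq_one_iff_unique.mp hn1).1
      exact h1.elim x 1
    have hs₀1 : s₀ = 1 := by
      have h1 : (⟨s₀, by rw [← hs₀]; exact Subgroup.mem_zpowers s₀⟩ : S) = 1 := hS1 _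
      exact congrArg Subtype.val h1
    refine ⟨ε₀, hε₀, ⟨fun _ => 1, Helper35.isCharacter_one, rfl, fun x => by simp,
      fun c x hx => absurd (hS1 x) hx⟩, ⟨0, Helper35.isCharacter_zero, ?_⟩, ?_⟩
    · funext c
      have h1 := hβ c s₀ hs₀
      rw [hs₀1, mul_one, hext ⟨c, hCG c.2⟩] at h1
      rw [h1, hn1]
      simp
    · rw [hn1]
      simp
  · have hn2 : 2 ≤ Nat.card S := by
      have h1 := Nat.card_pos (α := S)
      omega
    have hkey : ∀ x : S, x ≠ 1 → ∃ (βx : IrrCharacter C) (εx : ℤ), (εx = 1 ∨ εx = -1) ∧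
        ∀ c : C, (χh : Γ → ℂ) ((c : Γ) * (x : Γ)) = (εx : ℂ) * (βx : C → ℂ) c := by
      intro x hx
      have hxΓ : (x : Γ) ≠ 1 := fun h => hx (Subtype.ext h)
      have hxz : (x : Γ) ∈ Subgroup.zpowers s₀ := by
        rw [hs₀]
        exact x.2
      have hpre : GPre G C (x : Γ) := by
        refine ⟨hGn, ?_, ?_⟩
        · exact Nat.Coprime.coprime_dvd_right (orderOf_dvd_of_mem_zpowers hxz) hset.cop
        · intro y
          rw [← hfpf x x.2 hxΓ, Subgroup.mem_inf, Subgroup.mem_centralizer_iff]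
          simp only [Set.mem_singleton_iff, forall_eq]
          constructor
          · rintro ⟨h1, h2⟩
            exact ⟨h1, h2.symm⟩
          · rintro ⟨h1, h2⟩
            exact ⟨h1, h2.symm⟩
      apply hpre.key_general χh.2 hres
      intro k hk c hc
      exact hset.gal_pow_of_mem χh.2 hres hdet' hxz k hk (hpre.le hc) (hpre.comm hc)
    have hnonempty : Nonempty (IrrCharacter C) := ⟨β⟩
    choose! βf εf hεf hvalf using hkey
    have hψx : ∀ (β' : IrrCharacter C) (x : S), x ≠ 1 → (Nat.card C : ℂ)⁻¹ *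
        ∑ c : C, (χh : Γ → ℂ) ((c : Γ) * x) * (starRingEnd ℂ) ((β' : C → ℂ) c) =
        if βf x = β' then (εf x : ℂ) else 0 := by
      intro β' x hx
      have h1 := Helper4.classInner_irr (βf x) β'
      unfold classInner at h1
      simp only [hvalf x hx, mul_assoc]
      rw [← Finset.mul_sum, mul_left_comm, h1]
      split_ifs <;> simp
    let _ : Fintype S := Fintype.ofFinite S
    have hvalZ : ∀ y : S, y ≠ 1 →
        (Nat.card C : ℂ)⁻¹ * ∑ c : C, (χh : Γ → ℂ) ((c : Γ) * y) *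
          (starRingEnd ℂ) ((β : C → ℂ) c) = 0 ∨
        (Nat.card C : ℂ)⁻¹ * ∑ c : C, (χh : Γ → ℂ) ((c : Γ) * y) *
          (starRingEnd ℂ) ((β : C → ℂ) c) = 1 ∨
        (Nat.card C : ℂ)⁻¹ * ∑ c : C, (χh : Γ → ℂ) ((c : Γ) * y) *
          (starRingEnd ℂ) ((β : C → ℂ) c) = -1 := by
      intro y hy
      rw [hψx β y hy]
      by_cases h : βf y = β
      · rw [if_pos h]
        rcases hεf y hy with h1 | h1
        · right; left
          rw [h1]
          simp
        · right; right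
          rw [h1]
          simp
      · left
        rw [if_neg h]
    have hs₀S : s₀ ∈ S := by
      rw [← hs₀]
      exact Subgroup.mem_zpowers s₀
    have hs₀ne : (⟨s₀, hs₀S⟩ : S) ≠ 1 := by
      intro h
      have h1 : s₀ = 1 := congrArg Subtype.val h
      rw [h1, orderOf_one] at hord
      omega
    have hneZ : ∃ y : S, y ≠ 1 ∧ (Nat.card C : ℂ)⁻¹ * ∑ c : C, (χh : Γ → ℂ) ((c : Γ) * y) *
        (starRingEnd ℂ) ((β : C → ℂ) c) ≠ 0 := by
      refine ⟨⟨s₀, hs₀S⟩, hs₀ne, ?_⟩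
      have h1 := Helper4.classInner_irr β β
      rw [if_pos rfl] at h1
      unfold classInner at h1
      have h2 : ∀ c : C, (χh : Γ → ℂ) ((c : Γ) * ((⟨s₀, hs₀S⟩ : S) : Γ)) =
          (ε₀ : ℂ) * (β : C → ℂ) c := fun c => hβ c s₀ hs₀
      simp only [h2, mul_assoc]
      rw [← Finset.mul_sum, mul_left_comm, h1, mul_one]
      exact hεne ε₀ hε₀
    obtain ⟨ε, m, μ, hε, hμirr, hμ1, hμsq, hμval, hμone⟩ :=
      abelian_pm_char _ (hcross β) hvalZ hneZ
    have hμne : ∀ x : S, μ x ≠ 0 := by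
      intro x h0
      have h1 := hμsq x
      rw [h0, mul_zero] at h1
      exact zero_ne_one h1
    have hβf : ∀ x : S, x ≠ 1 → βf x = β ∧ (εf x : ℂ) = (ε : ℂ) * μ x := by
      intro x hx
      have h1 := hμval x hx
      rw [hψx β x hx] at h1
      by_cases h : βf x = β
      · rw [if_pos h] at h1
        exact ⟨h, h1⟩
      · rw [if_neg h] at h1
        exact absurd h1.symm (mul_ne_zero (hεne ε hε) (hμne x))
    -- multiplicities of the other constituents
    have hmult : ∀ β' : IrrCharacter C, β' ≠ β → ∃ k : ℕ,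
        classInner (fun c : C => (χ : G → ℂ) ⟨c, hCG c.2⟩) (β' : C → ℂ) =
          (Nat.card S : ℂ) * (k : ℂ) := by
      intro β' hβ'
      obtain ⟨k, hk⟩ := Helper35.classInner_char_nat (hcross β') (Helper35.isCharacter_one (G := S))
      refine ⟨k, ?_⟩
      rw [← hcross1 β']
      unfold classInner at hk
      rw [Finset.sum_eq_single (1 : S)] at hk
      · simp only [Pi.one_apply, map_one, mul_one] at hk
        have hS0 : (Nat.card S : ℂ) ≠ 0 := by exact_mod_cast Nat.card_pos.ne'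
        rw [← hk]
        field_simp
      · intro b _ hb
        simp only [Pi.one_apply, map_one, mul_one]
        rw [hψx β' b hb, if_neg]
        rw [(hβf b hb).1]
        exact fun h => hβ' h.symm
      · intro hh
        exact absurd (Finset.mem_univ _) hh
    choose! kf hkf using hmult
    have hmultβ : classInner (fun c : C => (χ : G → ℂ) ⟨c, hCG c.2⟩) (β : C → ℂ) =
        (Nat.card S : ℂ) * (m : ℂ) + (ε : ℂ) := by
      rw [← hcross1 β, hμone]
      ring
    have hcfχ : IsClassFunction C (fun c : C => (χ : G → ℂ) ⟨c, hCG c.2⟩) :=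
      Helper35.isClassFunction_of_isCharacter
        (isCharacter_comp_hom (Subgroup.inclusion hCG) (Helper35.isChar_of_irr χ.2))
    have hexp := Helper4.classFunction_expansion _ hcfχ
    have hcoef : ∀ β' : IrrCharacter C,
        classInner (fun c : C => (χ : G → ℂ) ⟨c, hCG c.2⟩) (β' : C → ℂ) =
          (Nat.card S : ℂ) * ((if β' = β then m else kf β' : ℕ) : ℂ) +
            (if β' = β then (ε : ℂ) else 0) := by
      intro β'
      by_cases h : β' = β
      · rw [if_pos h, if_pos h, h]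
        exact hmultβ
      · rw [if_neg h, if_neg h, add_zero]
        exact hkf β' h
    have hb : (fun c : C => (χ : G → ℂ) ⟨c, hCG c.2⟩) = fun c =>
        (Nat.card S : ℂ) * (∑ β' : IrrCharacter C,
          ((if β' = β then m else kf β' : ℕ) : ℂ) • (β' : C → ℂ)) c +
          (ε : ℂ) * (β : C → ℂ) c := by
      funext c
      have h1 := congrFun hexp c
      rw [h1]
      simp only [Finset.sum_apply, Pi.smul_apply, smul_eq_mul, hcoef]
      rw [Finset.mul_sum]
      simp only [add_mul, Finset.sum_add_distrib, ite_mul, zero_mul, Finset.sum_ite_eq',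
        Finset.mem_univ, if_true, mul_assoc]
    refine ⟨ε, hε, ⟨μ, Helper35.isChar_of_irr hμirr, hμ1, hμsq, ?_⟩,
      ⟨_, Helper4.isCharacter_sum_nat_irr (fun β' => if β' = β then m else kf β'), hb⟩, ?_⟩
    · intro c x hx
      rw [hvalf x hx, (hβf x hx).1, (hβf x hx).2]
      ring
    · have h1 := congrFun hb 1
      simp only [Finset.sum_apply, Pi.smul_apply, smul_eq_mul] at h1
      have hχ1 : (χ : G → ℂ) ⟨((1 : C) : Γ), hCG (1 : C).2⟩ = (charDegree (χ : G → ℂ) : ℂ) := by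
        have h2 : (⟨((1 : C) : Γ), hCG (1 : C).2⟩ : G) = 1 := Subtype.ext rfl
        rw [h2]
        exact (irr_degree χ.2).2
      have hβdeg : ∀ β' : IrrCharacter C, (β' : C → ℂ) 1 = (charDegree (β' : C → ℂ) : ℂ) :=
        fun β' => (irr_degree β'.2).2
      rw [hχ1] at h1
      simp only [hβdeg] at h1
      refine ⟨((∑ β' : IrrCharacter C,
        (if β' = β then m else kf β') * charDegree (β' : C → ℂ) : ℕ) : ℤ), ?_⟩
      have h2 : ((charDegree (χ : G → ℂ) : ℤ) : ℂ) = (((Nat.card S : ℤ) *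
          ((∑ β' : IrrCharacter C, (if β' = β then m else kf β') * charDegree (β' : C → ℂ) : ℕ) : ℤ)
          + ε * (charDegree (β : C → ℂ) : ℤ) : ℤ) : ℂ) := by
        push_cast at h1 ⊢
        exact h1
      have h3 := Int.cast_injective h2
      rw [h3]
      ring

end Cfsg.Agent.S4451
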