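import Cfsg.Statements.S4452
import Mathlib
import Cfsg.Agent.Lib.Helper5.GlDeg

set_option autoImplicit false
open Cfsg

namespace Cfsg.Agent.S4452

/-- Let the finite group G be the product of a normal subgroup K and a solvable subgroup H of coprime orders, and let N = N_G(H). Then the number of irreducible characters of G of degree coprime to the order of H equals the number of irreducible characters of N of degree coprime to the order of H. (The two sets are in fact in a canonical bijection; only the equality of their sizes is stated here.) -/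
theorem result {G : Type*} [Group G] [Finite G] (K H : Subgroup G) [K.Normal] (hKH : K ⊔ H = ⊤) (hcop : (Nat.card K).Coprime (Nat.card H)) (hsolv : Group.IsSolvable H) : Nat.card {χ : Cfsg.IrrCharacter G // (Cfsg.charDegree (χ : G → ℂ)).Coprime (Nat.card H)} = Nat.card {η : Cfsg.IrrCharacter (Subgroup.normalizer (H : Set G)) // (Cfsg.charDegree (η : Subgroup.normalizer (H : Set G) → ℂ)).Coprime (Nat.card H)} := by
  classical
  haveI := hsolv
  letI : Fintype G := Fintype.ofFinite G
  letI : Fintype K := Fintype.ofFinite K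
  have hKn : K.Normal := inferInstance
  have hint : K ⊓ H = ⊥ := Lib.Helper1.inf_eq_bot_of_coprime_card hcop
  have hdecomp : ∀ g : G, ∃ k ∈ K, ∃ h ∈ H, g = k * h := by
    intro g
    have hg : g ∈ ((K ⊔ H : Subgroup G) : Set G) := by
      rw [hKH]
      exact Set.mem_univ g
    rw [Subgroup.normal_mul] at hg
    obtain ⟨k, hk, h, hh, rfl⟩ := Set.mem_mul.mp hg
    exact ⟨k, hk, h, hh, rfl⟩
  -- elements of `K` normalizing `H` centralize `H`
  have hZ : ∀ k ∈ K, k ∈ Subgroup.normalizer (H : Set G) → ∀ h ∈ H, h * k * h⁻¹ = k := by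
    intro k hk hkN h hh
    have h1 : k * h⁻¹ * k⁻¹ ∈ H := (Subgroup.mem_normalizer_iff.mp hkN h⁻¹).mp (H.inv_mem hh)
    have h2 : h * k * h⁻¹ * k⁻¹ ∈ K ⊓ H := by
      refine ⟨K.mul_mem (hKn.conj_mem k hk h) (K.inv_mem hk), ?_⟩
      have h3 : h * k * h⁻¹ * k⁻¹ = h * (k * h⁻¹ * k⁻¹) := by group
      rw [h3]
      exact H.mul_mem hh h1
    rw [hint, Subgroup.mem_bot] at h2
    calc h * k * h⁻¹ = h * k * h⁻¹ * k⁻¹ * k := by group
      _ = k := by rw [h2, one_mul]
  set N : Subgroup G := Subgroup.normalizer (H : Set G) with hNdef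
  have hHN : H ≤ N := Subgroup.le_normalizer
  letI : Fintype N := Fintype.ofFinite N
  obtain ⟨K', hK'mem⟩ : ∃ K' : Subgroup N, ∀ n : N, n ∈ K' ↔ (n : G) ∈ K :=
    ⟨K.subgroupOf N, fun n => Subgroup.mem_subgroupOf⟩
  obtain ⟨H', hH'mem⟩ : ∃ H' : Subgroup N, ∀ n : N, n ∈ H' ↔ (n : G) ∈ H :=
    ⟨H.subgroupOf N, fun n => Subgroup.mem_subgroupOf⟩
  have hK'n : K'.Normal := by
    constructor
    intro n hn g
    rw [hK'mem] at hn ⊢
    exact hKn.conj_mem _ hn _
  haveI := hK'n
  letI : Fintype K' := Fintype.ofFinite K'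
  have hdecompN : ∀ n : N, ∃ c ∈ K', ∃ h ∈ H', n = c * h := by
    intro n
    obtain ⟨k, hk, h, hh, hnkh⟩ := hdecomp (n : G)
    have hkN : k ∈ N := by
      have h1 : k = (n : G) * h⁻¹ := by
        rw [hnkh]
        group
      rw [h1]
      exact N.mul_mem n.2 (N.inv_mem (hHN hh))
    exact ⟨⟨k, hkN⟩, (hK'mem _).mpr hk, ⟨h, hHN hh⟩, (hH'mem _).mpr hh, Subtype.ext hnkh⟩
  have hK'H' : K' ⊔ H' = ⊤ := by
    rw [eq_top_iff]
    intro n _
    obtain ⟨c, hc, h, hh, rfl⟩ := hdecompN n
    exact Subgroup.mul_mem_sup hc hh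
  let eH : H' ≃* H :=
    { toFun := fun h => ⟨((h : N) : G), (hH'mem _).mp h.2⟩
      invFun := fun h => ⟨⟨(h : G), hHN h.2⟩, (hH'mem _).mpr h.2⟩
      left_inv := fun h => rfl
      right_inv := fun h => rfl
      map_mul' := fun a b => rfl }
  have hcardH' : Nat.card H' = Nat.card H := Nat.card_congr eH.toEquiv
  let jK : K' →* K :=
    { toFun := fun c => ⟨((c : N) : G), (hK'mem _).mp c.2⟩
      map_one' := rfl
      map_mul' := fun a b => rfl }
  have hjK : Function.Injective jK := by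
    intro a b hab
    apply Subtype.ext
    apply Subtype.ext
    have h1 := congrArg Subtype.val hab
    exact h1
  have hcardK' : Nat.card K' ∣ Nat.card K := Subgroup.card_dvd_of_injective jK hjK
  have hcop' : (Nat.card K').Coprime (Nat.card H') := by
    rw [hcardH']
    exact Nat.Coprime.coprime_dvd_left hcardK' hcop
  have hint' : K' ⊓ H' = ⊥ := Lib.Helper1.inf_eq_bot_of_coprime_card hcop'
  -- the counting formulas
  have A1 := Lib.Helper5.deg_count K H hKH hcop
  have A2 := Lib.Helper5.deg_count K' H' hK'H' hcop'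
  rw [hcardH'] at A2
  have L1 := Lib.Helper5.lin_count K H hKH hint
  have L2 := Lib.Helper5.lin_count K' H' hK'H' hint'
  have L3 := Lib.Helper5.lin_card_congr eH
  -- invariant characters of `K`
  let φ : H →* MulAut K :=
    Lib.Helper5.resAut ((MulAut.conj).comp H.subtype) K (fun w b hb => hKn.conj_mem b hb w)
  have hφ : ∀ (s : H) (k : K), ((φ s k : K) : G) = s * k * (s : G)⁻¹ := fun s k => rfl
  have hfixK : ∀ k : K, k ∈ jK.range ↔ ∀ s : H, φ s k = k := by
    intro k
    constructor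
    · rintro ⟨c, rfl⟩ s
      apply Subtype.ext
      rw [hφ]
      exact hZ _ ((hK'mem c).mp c.2) (c : N).2 s s.2
    · intro h
      have hkC : (k : G) ∈ Subgroup.centralizer (H : Set G) := by
        rw [Subgroup.mem_centralizer_iff]
        intro y hy
        have h1 := congrArg Subtype.val (h ⟨y, hy⟩)
        rw [hφ] at h1
        change y * (k : G) * y⁻¹ = (k : G) at h1
        calc y * (k : G) = y * (k : G) * y⁻¹ * y := by group
          _ = (k : G) * y := by rw [h1]
      have hkN : (k : G) ∈ N := Subgroup.centralizer_le_normalizer (H : Set G) hkC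
      exact ⟨⟨⟨(k : G), hkN⟩, (hK'mem _).mpr k.2⟩, Subtype.ext rfl⟩
  have hcopK : (Fintype.card K).Coprime (Nat.card H) := by
    rwa [Nat.card_eq_fintype_card] at hcop
  have B1' := Lib.Helper5.gl_count_fix φ hcopK jK hjK hfixK
  have B1 : Nat.card {θ : IrrCharacter K // ∀ (g : G) (k : K),
      (θ : K → ℂ) ⟨g * k * g⁻¹, hKn.conj_mem (k : G) k.2 g⟩ = (θ : K → ℂ) k} =
      Nat.card (IrrCharacter K') := by
    rw [← B1']
    apply Nat.card_congr
    apply Equiv.subtypeEquivRight
    intro θ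
    constructor
    · intro h s k
      exact h (s : G) k
    · intro h g k
      obtain ⟨k₀, hk₀, x, hx, rfl⟩ := hdecomp g
      have h1 : (⟨k₀ * x * (k : G) * (k₀ * x)⁻¹, hKn.conj_mem (k : G) k.2 (k₀ * x)⟩ : K) =
          (⟨k₀, hk₀⟩ : K) * φ ⟨x, hx⟩ k * (⟨k₀, hk₀⟩ : K)⁻¹ := by
        apply Subtype.ext
        change k₀ * x * (k : G) * (k₀ * x)⁻¹ = k₀ * (x * (k : G) * x⁻¹) * k₀⁻¹
        group
      rw [h1, Lib.Helper83.irr_classFunction θ.2, h]
  have B2 : Nat.card {θ : IrrCharacter K' // ∀ (g : N) (k : K'),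
      (θ : K' → ℂ) ⟨g * k * g⁻¹, hK'n.conj_mem (k : N) k.2 g⟩ = (θ : K' → ℂ) k} =
      Nat.card (IrrCharacter K') := by
    apply Nat.card_congr
    apply Equiv.subtypeUnivEquiv
    intro θ g k
    obtain ⟨c, hc, x, hx, rfl⟩ := hdecompN g
    have h1 : (⟨c * x * (k : N) * (c * x)⁻¹, hK'n.conj_mem (k : N) k.2 (c * x)⟩ : K') =
        (⟨c, hc⟩ : K') * k * (⟨c, hc⟩ : K')⁻¹ := by
      apply Subtype.ext
      apply Subtype.ext
      change (c : G) * (x : G) * ((k : N) : G) * ((c : G) * (x : G))⁻¹ =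
        (c : G) * ((k : N) : G) * (c : G)⁻¹
      have h2 : (x : G) * ((k : N) : G) * (x : G)⁻¹ = ((k : N) : G) :=
        hZ _ ((hK'mem _).mp k.2) (k : N).2 _ ((hH'mem x).mp hx)
      calc (c : G) * (x : G) * ((k : N) : G) * ((c : G) * (x : G))⁻¹ =
          (c : G) * ((x : G) * ((k : N) : G) * (x : G)⁻¹) * (c : G)⁻¹ := by group
        _ = (c : G) * ((k : N) : G) * (c : G)⁻¹ := by rw [h2]
    rw [h1, Lib.Helper83.irr_classFunction θ.2]
  rw [A1, B1, L1, ← L3, ← L2, ← B2, ← A2]

end Cfsg.Agent.S4452
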