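import Cfsg.Statements.S4454
-- import your own Cfsg.Agent.* helpers here
import Cfsg.Agent.Lib.Helper83.FrobCyc
import Cfsg.Agent.Lib.Helper20.NormalInd

set_option autoImplicit false
open Cfsg

namespace Cfsg.Agent.S4454

/-- Let N ≤ G be normal subgroups of the finite group Γ with Γ/G cyclic and Γ/N a Frobenius group with kernel G/N: G ≠ Γ, N ≠ G, and no element of Γ outside G fixes a non-identity coset of N in G under conjugation. Let ϑ be an irreducible character of N invariant under conjugation by Γ and suppose ϑ is fully ramified in G: the character of G induced from ϑ equals e·χ for an irreducible character χ of G and a natural number e. Then the index of G in Γ divides e − 1 or e + 1. -/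
theorem result {Γ : Type*} [Group Γ] [Fintype Γ] (G N : Subgroup Γ) [hG : G.Normal] [hN : N.Normal] [Fintype G] [Fintype N] (hNG : N ≤ G) (hGlt : G ≠ ⊤) (hNlt : N ≠ G) (hcyc : IsCyclic (Γ ⧸ G)) (hfrob : ∀ x : Γ, x ∉ G → ∀ g : Γ, g ∈ G → x * g * x⁻¹ * g⁻¹ ∈ N → g ∈ N) (θ : Cfsg.IrrCharacter N) (hinv : ∀ (x : Γ) (n : N), (θ : N → ℂ) ⟨x * n * x⁻¹, hN.conj_mem n n.2 x⟩ = (θ : N → ℂ) n) (χ : Cfsg.IrrCharacter G) (e : ℕ) (hram : Cfsg.indFun (N.subgroupOf G) (fun n : N.subgroupOf G => (θ : N → ℂ) ⟨(n : G), n.2⟩) = fun g => (e : ℂ) * (χ : G → ℂ) g) : (G.index : ℤ) ∣ (e : ℤ) - 1 ∨ (G.index : ℤ) ∣ (e : ℤ) + 1 := by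
  classical
  -- the restriction of `θ` to the copy of `N` inside `G`
  have hN₀ : (N.subgroupOf G).Normal := hN.subgroupOf G
  let _ : Fintype (N.subgroupOf G) := Fintype.ofFinite _
  have hθ₀irr : IsIrrCharacter (N.subgroupOf G)
      (fun n : N.subgroupOf G => (θ : N → ℂ) ⟨(n : G), n.2⟩) :=
    Lib.Helper20.irr_comp_surjective (Subgroup.subgroupOfEquivOfLe hNG).toMonoidHom
      (Subgroup.subgroupOfEquivOfLe hNG).surjective θ.2
  have hθ₀inv : ∀ (g : G) (n : N.subgroupOf G),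
      (fun n : N.subgroupOf G => (θ : N → ℂ) ⟨(n : G), n.2⟩)
        ⟨g * n * g⁻¹, hN₀.conj_mem n n.2 g⟩ =
      (fun n : N.subgroupOf G => (θ : N → ℂ) ⟨(n : G), n.2⟩) n := by
    intro g n
    exact hinv (g : Γ) ⟨((n : G) : Γ), n.2⟩
  have hind_mem : ∀ n : N.subgroupOf G, (e : ℂ) * (χ : G → ℂ) n =
      ((N.subgroupOf G).index : ℂ) * (θ : N → ℂ) ⟨((n : G) : Γ), n.2⟩ := by
    intro n
    have h1 := Lib.Helper20.indFun_normal_of_invariant (N.subgroupOf G)
      (fun n : N.subgroupOf G => (θ : N → ℂ) ⟨(n : G), n.2⟩) hθ₀inv n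
    rw [hram] at h1
    exact h1
  have hind_not : ∀ g : G, g ∉ N.subgroupOf G → (e : ℂ) * (χ : G → ℂ) g = 0 := by
    intro g hg
    have h1 := Lib.Helper20.indFun_normal_of_not_mem (N.subgroupOf G)
      (fun n : N.subgroupOf G => (θ : N → ℂ) ⟨(n : G), n.2⟩) g hg
    rw [hram] at h1
    exact h1
  have hidx0 : ((N.subgroupOf G).index : ℂ) ≠ 0 := by
    exact_mod_cast (Subgroup.index_ne_zero_of_finite (H := N.subgroupOf G))
  have he0 : (e : ℂ) ≠ 0 := by
    intro h0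
    have h1 := hind_mem 1
    rw [h0, zero_mul] at h1
    have h2 : (θ : N → ℂ) 1 ≠ 0 := Lib.Helper83.irr_one_ne_zero θ.2
    rcases mul_eq_zero.mp h1.symm with h3 | h3
    · exact hidx0 h3
    · exact h2 h3
  have hχoff : ∀ g : G, (g : Γ) ∉ N → (χ : G → ℂ) g = 0 := fun g hg =>
    (mul_eq_zero.mp (hind_not g hg)).resolve_left he0
  have hcfχ : IsClassFunction G (χ : G → ℂ) :=
    Lib.Helper35.isClassFunction_of_isCharacter (Lib.Helper35.isChar_of_irr χ.2)
  have hχN : ∀ n : N.subgroupOf G, (χ : G → ℂ) n = (e : ℂ) * (θ : N → ℂ) ⟨((n : G) : Γ), n.2⟩ := by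
    have h1 : ∀ n : N.subgroupOf G, (χ : G → ℂ) n =
        (((N.subgroupOf G).index : ℂ) / e) * (θ : N → ℂ) ⟨((n : G) : Γ), n.2⟩ := by
      intro n
      have h := hind_mem n
      field_simp
      linear_combination h
    have h2 := Lib.Helper35.frobenius_reciprocity' (N.subgroupOf G)
      (fun n : N.subgroupOf G => (θ : N → ℂ) ⟨(n : G), n.2⟩) (χ : G → ℂ) hcfχ
    rw [hram] at h2
    have h3 : classInner (χ : G → ℂ) (fun g => (e : ℂ) * (χ : G → ℂ) g) = e := by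
      rw [Lib.Helper4.classInner_conj_symm]
      have h4 : (fun g => (e : ℂ) * (χ : G → ℂ) g) = (e : ℂ) • (χ : G → ℂ) := rfl
      rw [h4, Lib.Helper83.classInner_smul_left, Lib.Helper35.classInner_irr' χ.2 χ.2, if_pos rfl]
      simp
    have h4 : Lib.Helper35.res (N.subgroupOf G) (χ : G → ℂ) =
        (((N.subgroupOf G).index : ℂ) / e) •
          (fun n : N.subgroupOf G => (θ : N → ℂ) ⟨(n : G), n.2⟩) := funext h1
    rw [h3, h4, Lib.Helper83.classInner_smul_left, Lib.Helper35.classInner_irr' hθ₀irr hθ₀irr,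
      if_pos rfl, mul_one] at h2
    intro n
    rw [h1 n, ← h2]
  -- `χ` is invariant in `Γ`
  have hχinv : ∀ (y : Γ) (g : G), (χ : G → ℂ) ⟨y * g * y⁻¹, hG.conj_mem (g : Γ) g.2 y⟩ =
      (χ : G → ℂ) g := by
    intro y g
    by_cases hg : (g : Γ) ∈ N
    · have h1 := hχN ⟨g, hg⟩
      have h2 := hχN ⟨⟨y * g * y⁻¹, hG.conj_mem (g : Γ) g.2 y⟩, hN.conj_mem _ hg y⟩
      rw [h1, h2]
      congr 1
      exact hinv y ⟨(g : Γ), hg⟩
    · rw [hχoff g hg]
      apply hχoff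
      intro hmem
      apply hg
      have h1 := hN.conj_mem _ hmem y⁻¹
      have h2 : y⁻¹ * (y * (g : Γ) * y⁻¹) * y⁻¹⁻¹ = (g : Γ) := by group
      rw [← h2]
      exact h1
  obtain ⟨χh, hχh, hχhG⟩ := Lib.Helper83.cyclic_extension G (χ : G → ℂ) χ.2 hχinv
  have hχhirrG : IsIrrCharacter G (fun g : G => χh g) := by
    rw [show (fun g : G => χh g) = (χ : G → ℂ) from funext hχhG]
    exact χ.2
  -- the cyclic quotient
  have hne : NeZero (Nat.card (Γ ⧸ G)) := ⟨Nat.card_pos.ne'⟩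
  let ν : Γ →* Multiplicative (ZMod (Nat.card (Γ ⧸ G))) :=
    (zmodCyclicMulEquiv hcyc).symm.toMonoidHom.comp (QuotientGroup.mk' G)
  have hνsurj : Function.Surjective ν :=
    (zmodCyclicMulEquiv hcyc).symm.surjective.comp (QuotientGroup.mk'_surjective G)
  have hνker : ∀ y : Γ, ν y = 1 ↔ y ∈ G := by
    intro y
    show (zmodCyclicMulEquiv hcyc).symm (y : Γ ⧸ G) = 1 ↔ y ∈ G
    rw [MulEquiv.map_eq_one_iff, QuotientGroup.eq_one_iff]
  obtain ⟨x, hx⟩ := hνsurj (Multiplicative.ofAdd 1)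
  have hm1 : Nat.card (Γ ⧸ G) ≠ 1 := by
    intro h1
    apply hGlt
    exact Subgroup.index_eq_one.mp h1
  have hxG : x ∉ G := by
    intro hxG
    have h1 := (hνker x).mpr hxG
    rw [hx] at h1
    have h2 : ((1 : ℕ) : ZMod (Nat.card (Γ ⧸ G))) = 0 := by
      have h3 : (1 : ZMod (Nat.card (Γ ⧸ G))) = 0 := Multiplicative.ofAdd.injective h1
      rw [Nat.cast_one]
      exact h3
    rw [ZMod.natCast_eq_zero_iff] at h2
    exact hm1 (Nat.dvd_one.mp h2)
  have hxmG : x ^ Nat.card (Γ ⧸ G) ∈ G := by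
    apply (QuotientGroup.eq_one_iff _).mp
    rw [QuotientGroup.mk_pow]
    exact pow_card_eq_one'
  have hxmN : x ^ Nat.card (Γ ⧸ G) ∈ N := by
    apply hfrob x hxG _ hxmG
    have h1 : x * x ^ Nat.card (Γ ⧸ G) * x⁻¹ * (x ^ Nat.card (Γ ⧸ G))⁻¹ = 1 := by group
    rw [h1]
    exact N.one_mem
  have hνzpow : ∀ k : ℤ, ν (x ^ k) = Multiplicative.ofAdd ((k : ℤ) : ZMod (Nat.card (Γ ⧸ G))) := by
    intro k
    rw [map_zpow, hx, ← ofAdd_zsmul]
    simp
  -- the subgroup `U`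
  let U : Subgroup Γ := Subgroup.zpowers x ⊔ N
  have hNU : N ≤ U := le_sup_right
  have hxU : x ∈ U := (le_sup_left : Subgroup.zpowers x ≤ U) (Subgroup.mem_zpowers x)
  have hUmem : ∀ u ∈ U, ∃ k : ℤ, ∃ n ∈ N, u = x ^ k * n := by
    intro u hu
    have h1 : u ∈ ((Subgroup.zpowers x ⊔ N : Subgroup Γ) : Set Γ) := hu
    rw [Subgroup.mul_normal] at h1
    obtain ⟨a, ⟨k, rfl⟩, n, hn, rfl⟩ := h1
    exact ⟨k, n, hn, rfl⟩
  have hUG : ∀ u ∈ U, u ∈ G → u ∈ N := by
    intro u hu huG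
    obtain ⟨k, n, hn, rfl⟩ := hUmem u hu
    have h1 : x ^ k ∈ G := by
      have h2 := G.mul_mem huG (G.inv_mem (hNG hn))
      rwa [mul_inv_cancel_right] at h2
    have h2 := (hνker _).mpr h1
    rw [hνzpow] at h2
    have h3 : ((k : ℤ) : ZMod (Nat.card (Γ ⧸ G))) = 0 := Multiplicative.ofAdd.injective h2
    rw [ZMod.intCast_zmod_eq_zero_iff_dvd] at h3
    obtain ⟨j, rfl⟩ := h3
    apply N.mul_mem _ hn
    rw [zpow_mul, zpow_natCast]
    exact N.zpow_mem hxmN j
  let _ : Fintype U := Fintype.ofFinite _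
  let _ : Fintype (N.subgroupOf U) := Fintype.ofFinite _
  have hN₁ : (N.subgroupOf U).Normal := hN.subgroupOf U
  let νU : U →* Multiplicative (ZMod (Nat.card (Γ ⧸ G))) := ν.comp U.subtype
  have hνUsurj : Function.Surjective νU := by
    intro y
    refine ⟨(⟨x, hxU⟩ : U) ^ (Multiplicative.toAdd y).val, ?_⟩
    show ν (((⟨x, hxU⟩ : U) ^ (Multiplicative.toAdd y).val : U) : Γ) = y
    rw [Subgroup.coe_pow, ← zpow_natCast, hνzpow]
    simp
  have hνUker : νU.ker = N.subgroupOf U := by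
    ext u
    rw [MonoidHom.mem_ker, Subgroup.mem_subgroupOf]
    show ν (u : Γ) = 1 ↔ _
    rw [hνker]
    exact ⟨fun h => hUG _ u.2 h, fun h => hNG h⟩
  -- the extension of `θ` to `U`
  have hθ₁irr : IsIrrCharacter (N.subgroupOf U)
      (fun n : N.subgroupOf U => (θ : N → ℂ) ⟨((n : U) : Γ), n.2⟩) :=
    Lib.Helper20.irr_comp_surjective (Subgroup.subgroupOfEquivOfLe hNU).toMonoidHom
      (Subgroup.subgroupOfEquivOfLe hNU).surjective θ.2
  have hcycU : IsCyclic (U ⧸ N.subgroupOf U) := by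
    have hle : N.subgroupOf U ≤ νU.ker := by rw [hνUker]
    have hinj : Function.Injective (QuotientGroup.lift (N.subgroupOf U) νU hle) := by
      rw [injective_iff_map_eq_one]
      intro a ha
      induction a using QuotientGroup.induction_on with
      | H u =>
        have h1 : νU u = 1 := ha
        have h2 : u ∈ νU.ker := h1
        rw [hνUker] at h2
        exact (QuotientGroup.eq_one_iff u).mpr h2
    exact isCyclic_of_injective _ hinj
  obtain ⟨θh, hθh, hθhN⟩ := Lib.Helper83.cyclic_extension (N.subgroupOf U)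
    (fun n : N.subgroupOf U => (θ : N → ℂ) ⟨((n : U) : Γ), n.2⟩) hθ₁irr
    (fun u n => hinv (u : Γ) ⟨((n : U) : Γ), n.2⟩)
  have hθhNirr : IsIrrCharacter (N.subgroupOf U) (fun n : N.subgroupOf U => θh n) := by
    rw [show (fun n : N.subgroupOf U => θh n) =
      (fun n : N.subgroupOf U => (θ : N → ℂ) ⟨((n : U) : Γ), n.2⟩) from funext hθhN]
    exact hθ₁irr
  -- the character `χh` on `U`
  have hψ : IsCharacter U (fun u : U => χh (u : Γ)) :=
    Lib.Helper20.isCharacter_comp U.subtype (Lib.Helper35.isChar_of_irr hχh)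
  have h1 : ∀ n : N.subgroupOf U, (fun u : U => χh (u : Γ)) n = e * θh n := by
    intro n
    have h2 : ((n : U) : Γ) ∈ N := n.2
    have h3 := hχhG ⟨((n : U) : Γ), hNG h2⟩
    have h4 := hχN ⟨⟨((n : U) : Γ), hNG h2⟩, h2⟩
    show χh ((n : U) : Γ) = e * θh n
    rw [hθhN n]
    exact h3.trans h4
  have hcfχh : IsClassFunction Γ χh :=
    Lib.Helper35.isClassFunction_of_isCharacter (Lib.Helper35.isChar_of_irr hχh)
  have hcardN : (Nat.card N : ℂ) ≠ 0 := by
    exact_mod_cast (Nat.card_pos (α := N)).ne'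
  have hcardG : (Nat.card G : ℂ) ≠ 0 := by
    exact_mod_cast (Nat.card_pos (α := G)).ne'
  have h2 : ∀ u : U, u ∉ N.subgroupOf U →
      ∑ n : N.subgroupOf U, (fun u : U => χh (u : Γ)) ((n : U) * u) *
        (starRingEnd ℂ) ((fun u : U => χh (u : Γ)) ((n : U) * u)) =
      (Nat.card (N.subgroupOf U) : ℂ) := by
    intro u hu
    have huN : (u : Γ) ∉ N := hu
    have huG : (u : Γ) ∉ G := fun h => huN (hUG _ u.2 h)
    have h3 := Lib.Helper83.frob_coset_sum G N hNG (u : Γ) (hfrob (u : Γ) huG)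
      (fun y => χh y * (starRingEnd ℂ) (χh y)) (fun a b => by
        show χh (a * b * a⁻¹) * (starRingEnd ℂ) (χh (a * b * a⁻¹)) = χh b * (starRingEnd ℂ) (χh b)
        rw [hcfχh b a])
    have h4 := congrFun (S0868.eta_self G hχh hχhirrG) (u : Γ)
    unfold S0868.eta at h4
    rw [inv_mul_eq_one₀ hcardG] at h4
    rw [← h4] at h3
    have h5 : ∑ n : N, χh ((n : Γ) * (u : Γ)) * (starRingEnd ℂ) (χh ((n : Γ) * (u : Γ))) =
        (Nat.card N : ℂ) := by
      have h6 := mul_left_cancel₀ hcardG (h3.symm.trans (mul_comm _ _))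
      exact h6
    rw [Nat.card_congr (Subgroup.subgroupOfEquivOfLe hNU).toEquiv, ← h5]
    exact Equiv.sum_comp (Subgroup.subgroupOfEquivOfLe hNU).toEquiv
      (fun n : N => χh ((n : Γ) * (u : Γ)) * (starRingEnd ℂ) (χh ((n : Γ) * (u : Γ))))
  have hfin := Lib.Helper83.cyc_mult (Nat.card (Γ ⧸ G)) νU hνUsurj (N.subgroupOf U) hνUker θh hθh
    hθhNirr (fun u : U => χh (u : Γ)) hψ e h1 h2
  exact hfin

end Cfsg.Agent.S4454
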