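import Cfsg.Statements.S4458
import Cfsg.Agent.Lib.Helper66.TwoDegChar

set_option autoImplicit false
open Cfsg

namespace Cfsg.Agent.S4458

/-- If a finite group has exactly two irreducible character degrees, 1 and m with m ≠ 1, then its commutator subgroup is abelian. -/
theorem result {G : Type*} [Group G] [Finite G] (m : ℕ) (hcd : ∀ χ : Cfsg.IrrCharacter G, Cfsg.charDegree (χ : G → ℂ) = 1 ∨ Cfsg.charDegree (χ : G → ℂ) = m) (hm : ∃ χ : Cfsg.IrrCharacter G, Cfsg.charDegree (χ : G → ℂ) = m) (hm1 : m ≠ 1) : ∀ a ∈ commutator G, ∀ b ∈ commutator G, a * b = b * a := by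
  rcases Cfsg.Agent.Lib.Helper66.two_degree_structure m hcd hm hm1 with
    ⟨A, hn, hi, hab⟩ | ⟨p, e, L, P, hp, hme, hLn, hLc, ⟨k, hk⟩, hPn, hPp, hinf, hsup⟩
  · have hle := Cfsg.Agent.Lib.Helper66.commutator_le_of_index_eq m hcd A hi
    intro a ha b hb
    exact hab a (hle ha) b (hle hb)
  · haveI := hLn
    haveI : Fact p.Prime := ⟨hp⟩
    have hq : IsPGroup p (G ⧸ L) := IsPGroup.of_card (n := k) (by rw [← Subgroup.index_eq_card, hk])
    haveI : Group.IsNilpotent (G ⧸ L) := hq.isNilpotent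
    haveI : Group.IsNilpotent G := by
      apply Subgroup.isNilpotent_of_ker_le_center (QuotientGroup.mk' L)
      rw [QuotientGroup.ker_mk']
      intro l hl
      rw [Subgroup.mem_center_iff]
      intro x
      exact (hLc l hl x).symm
    exact Cfsg.Agent.Lib.Helper66.commutator_abelian_of_nilpotent m hcd

end Cfsg.Agent.S4458
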