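import Cfsg.Statements.S4459
import Cfsg.Agent.S4457
import Cfsg.Agent.Lib.Helper68.TwoDegD
import Cfsg.Agent.Lib.Helper83.Quot
import Cfsg.Agent.Lib.Helper5.CharInt

set_option autoImplicit false

namespace Cfsg.Agent.S4459

open Cfsg Cfsg.Agent.Lib

/-- An abelian normal subgroup of index `p` forces the degrees `1` and `p`. -/
theorem rev_a {G : Type*} [Group G] [Finite G] (hG : ∃ a b : G, a * b ≠ b * a) (p : ℕ)
    (hp : p.Prime) (A : Subgroup G) (hAn : A.Normal) (hAab : ∀ a ∈ A, ∀ b ∈ A, a * b = b * a)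
    (hAidx : A.index = p) :
    (∀ χ : IrrCharacter G, charDegree (χ : G → ℂ) = 1 ∨ charDegree (χ : G → ℂ) = p) ∧
      ∃ χ : IrrCharacter G, charDegree (χ : G → ℂ) = p := by
  cases nonempty_fintype G
  have h1 : ∀ χ : IrrCharacter G, charDegree (χ : G → ℂ) = 1 ∨ charDegree (χ : G → ℂ) = p := by
    intro χ
    have h2 := Helper20.ito A hAab χ.2
    rw [hAidx] at h2
    exact (Nat.dvd_prime hp).mp h2
  refine ⟨h1, ?_⟩
  obtain ⟨χ, hχ⟩ := Helper68.exists_nonlinear hG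
  exact ⟨χ, (h1 χ).resolve_left hχ⟩

/-- A centre of index `p ^ 3` forces the degrees `1` and `p`. -/
theorem rev_b {G : Type*} [Group G] [Finite G] (hG : ∃ a b : G, a * b ≠ b * a) (p : ℕ)
    (hp : p.Prime) (hZ : (Subgroup.center G).index = p ^ 3) :
    (∀ χ : IrrCharacter G, charDegree (χ : G → ℂ) = 1 ∨ charDegree (χ : G → ℂ) = p) ∧
      ∃ χ : IrrCharacter G, charDegree (χ : G → ℂ) = p := by
  have h1 : ∀ χ : IrrCharacter G, charDegree (χ : G → ℂ) = 1 ∨ charDegree (χ : G → ℂ) = p := by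
    intro χ
    have hdvd : charDegree (χ : G → ℂ) ∣ p ^ 3 := by
      obtain ⟨n, ρ, hρ, hχ⟩ := χ.2
      haveI := hρ
      have h2 := Helper5.finrank_dvd_index_center ρ
      have h3 : (charDegree (χ : G → ℂ) : ℂ) = (Module.finrank ℂ (Fin n → ℂ) : ℂ) := by
        rw [← (Helper83.irr_degree χ.2).2, ← hχ, Representation.char_one]
      have h4 : charDegree (χ : G → ℂ) = Module.finrank ℂ (Fin n → ℂ) := by exact_mod_cast h3
      rw [h4, ← hZ]
      exact h2
    obtain ⟨k, -, hk⟩ := (Nat.dvd_prime_pow hp).mp hdvd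
    have h5 := Helper83.degree_sq_mul_card_le χ (Subgroup.center G) le_rfl
    have h6 := (Subgroup.center G).card_mul_index
    rw [hZ] at h6
    rw [← h6, hk, mul_comm] at h5
    have h7 : (p ^ k) ^ 2 ≤ p ^ 3 := Nat.le_of_mul_le_mul_left h5 Nat.card_pos
    rw [← pow_mul] at h7
    have h8 : k * 2 ≤ 3 := (Nat.pow_le_pow_iff_right hp.one_lt).mp h7
    have h9 : k = 0 ∨ k = 1 := by omega
    rcases h9 with rfl | rfl
    · left
      rw [hk, pow_zero]
    · right
      rw [hk, pow_one]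
  refine ⟨h1, ?_⟩
  obtain ⟨χ, hχ⟩ := Helper68.exists_nonlinear hG
  exact ⟨χ, (h1 χ).resolve_left hχ⟩

/-- The forward direction, from the structure theorem for two character degrees. -/
theorem fwd {G : Type*} [Group G] [Finite G] (hG : ∃ a b : G, a * b ≠ b * a) (p : ℕ)
    (hp : p.Prime)
    (hcd : ∀ χ : IrrCharacter G, charDegree (χ : G → ℂ) = 1 ∨ charDegree (χ : G → ℂ) = p)
    (hstruct : (∃ A : Subgroup G, A.Normal ∧ (∀ a ∈ A, ∀ b ∈ A, a * b = b * a) ∧ A.index = p) ∨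
      ∃ q e : ℕ, q.Prime ∧ p = q ^ e ∧ ∃ P A : Subgroup G, P.Normal ∧ A.Normal ∧ IsPGroup q P ∧
        (∀ a ∈ A, ∀ b ∈ A, a * b = b * a) ∧ P ⊓ A = ⊥ ∧ P ⊔ A = ⊤) :
    (∃ A : Subgroup G, A.Normal ∧ (∀ a ∈ A, ∀ b ∈ A, a * b = b * a) ∧ A.index = p) ∨
      (Subgroup.center G).index = p ^ 3 := by
  rcases hstruct with h | ⟨q, e, hq, hpq, P, A, hPn, hAn, hPp, hAab, hPA, hPAtop⟩
  · exact Or.inl h
  have hqp : p = q := by
    have he : e ≠ 0 := by
      rintro rfl
      rw [pow_zero] at hpq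
      exact hp.one_lt.ne' hpq
    have h1 : q ∣ p := by
      rw [hpq]
      exact dvd_pow_self q he
    exact ((Nat.prime_dvd_prime_iff_eq hq hp).mp h1).symm
  subst hqp
  haveI := hPn
  haveI := hAn
  -- decomposition of elements
  have hdec : ∀ g : G, ∃ x ∈ P, ∃ a ∈ A, x * a = g := by
    intro g
    have h1 : g ∈ (↑(P ⊔ A) : Set G) := by
      rw [hPAtop]
      exact Set.mem_univ g
    rw [Subgroup.mul_normal] at h1
    exact Set.mem_mul.mp h1
  -- commutators lie in P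
  have hcomP : ∀ g h : G, g * h * g⁻¹ * h⁻¹ ∈ P := by
    intro g h
    obtain ⟨x, hx, a, ha, rfl⟩ := hdec g
    obtain ⟨y, hy, b, hb, rfl⟩ := hdec h
    rw [← QuotientGroup.eq_one_iff]
    have hx1 : ((x : G) : G ⧸ P) = 1 := (QuotientGroup.eq_one_iff x).mpr hx
    have hy1 : ((y : G) : G ⧸ P) = 1 := (QuotientGroup.eq_one_iff y).mpr hy
    have hab : ((a * b : G) : G ⧸ P) = ((b * a : G) : G ⧸ P) := by rw [hAab a ha b hb]
    simp only [QuotientGroup.mk_mul, QuotientGroup.mk_inv, hx1, hy1, one_mul] at hab ⊢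
    rw [hab]
    group
  have hcomone : ∀ g h : G, g * h * g⁻¹ * h⁻¹ ∈ A → g * h = h * g := by
    intro g h hA
    have h1 : g * h * g⁻¹ * h⁻¹ ∈ P ⊓ A := ⟨hcomP g h, hA⟩
    rw [hPA, Subgroup.mem_bot] at h1
    calc g * h = (g * h * g⁻¹ * h⁻¹) * h * g := by group
      _ = h * g := by rw [h1, one_mul]
  have hmkcomm : ∀ g h : G, ((g : G) : G ⧸ A) * (h : G ⧸ A) = (h : G ⧸ A) * (g : G ⧸ A) →
      g * h = h * g := by
    intro g h hc
    apply hcomone
    rw [← QuotientGroup.eq_one_iff]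
    simp only [QuotientGroup.mk_mul, QuotientGroup.mk_inv]
    rw [hc]
    group
  -- the quotient
  have hQp : IsPGroup p (G ⧸ A) := by
    intro x
    obtain ⟨g, rfl⟩ := QuotientGroup.mk_surjective x
    obtain ⟨y, hy, a, ha, rfl⟩ := hdec g
    obtain ⟨k, hk⟩ := hPp ⟨y, hy⟩
    refine ⟨k, ?_⟩
    have ha1 : ((a : G) : G ⧸ A) = 1 := (QuotientGroup.eq_one_iff a).mpr ha
    have hk' : y ^ p ^ k = 1 := by
      have := congrArg Subtype.val hk
      simpa using this
    rw [QuotientGroup.mk_mul, ha1, mul_one, ← QuotientGroup.mk_pow, hk']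
    rfl
  have hQcd : ∀ χ : IrrCharacter (G ⧸ A),
      charDegree (χ : G ⧸ A → ℂ) = 1 ∨ charDegree (χ : G ⧸ A → ℂ) = p := by
    intro χ
    have h1 := hcd (Helper83.inflate A χ)
    rw [Helper83.charDegree_inflate] at h1
    exact h1
  have hQnab : ∃ a b : G ⧸ A, a * b ≠ b * a := by
    by_contra hc
    push_neg at hc
    obtain ⟨a, b, hab⟩ := hG
    exact hab (hmkcomm a b (hc _ _))
  rcases Helper68.pgroup_main p hp hQp hQcd hQnab with ⟨B, hBab, hBidx⟩ | hcen
  · left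
    have hBn : B.Normal := by
      apply Subgroup.normal_of_index_eq_minFac_card
      haveI : Fact p.Prime := ⟨hp⟩
      obtain ⟨n, hn⟩ := (IsPGroup.iff_card (p := p) (G := G ⧸ A)).mp hQp
      have hn0 : n ≠ 0 := by
        rintro rfl
        rw [pow_zero] at hn
        obtain ⟨a, b, hab⟩ := hQnab
        haveI : Subsingleton (G ⧸ A) := (Nat.card_eq_one_iff_unique.mp hn).1
        exact hab (Subsingleton.elim _ _)
      rw [hBidx, hn, hp.pow_minFac hn0]
    refine ⟨B.comap (QuotientGroup.mk' A), hBn.comap _, ?_, ?_⟩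
    · intro a ha b hb
      apply hmkcomm
      exact hBab _ ha _ hb
    · rw [Subgroup.index_comap_of_surjective B (QuotientGroup.mk'_surjective A), hBidx]
  · right
    have hceq : Subgroup.center G = (Subgroup.center (G ⧸ A)).comap (QuotientGroup.mk' A) := by
      ext x
      rw [Subgroup.mem_comap, Subgroup.mem_center_iff, Subgroup.mem_center_iff]
      constructor
      · intro hx y
        obtain ⟨g, rfl⟩ := QuotientGroup.mk_surjective y
        show ((g : G) : G ⧸ A) * (x : G ⧸ A) = (x : G ⧸ A) * (g : G ⧸ A)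
        rw [← QuotientGroup.mk_mul, ← QuotientGroup.mk_mul, hx g]
      · intro hx g
        exact hmkcomm g x (hx (g : G ⧸ A))
    rw [hceq, Subgroup.index_comap_of_surjective _ (QuotientGroup.mk'_surjective A), hcen]

theorem result {G : Type*} [Group G] [Finite G] (hG : ∃ a b : G, a * b ≠ b * a) (p : ℕ) (hp : p.Prime) : ((∀ χ : Cfsg.IrrCharacter G, Cfsg.charDegree (χ : G → ℂ) = 1 ∨ Cfsg.charDegree (χ : G → ℂ) = p) ∧ ∃ χ : Cfsg.IrrCharacter G, Cfsg.charDegree (χ : G → ℂ) = p) ↔ ((∃ A : Subgroup G, A.Normal ∧ (∀ a ∈ A, ∀ b ∈ A, a * b = b * a) ∧ A.index = p) ∨ (Subgroup.center G).index = p ^ 3) := by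
  constructor
  · rintro ⟨hcd, hex⟩
    apply fwd hG p hp hcd
    exact Cfsg.Agent.S4457.result p hcd hex hp.one_lt.ne'
  · rintro (⟨A, hAn, hAab, hAidx⟩ | hZ)
    · exact rev_a hG p hp A hAn hAab hAidx
    · exact rev_b hG p hp hZ

end Cfsg.Agent.S4459
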