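import Cfsg.Statements.S4461
import Cfsg.Agent.Lib.Helper66.Broline

set_option autoImplicit false
open Cfsg

namespace Cfsg.Agent.S4461

/-- Let χ be an irreducible character of the finite group G and K its kernel (the elements where χ takes the value χ(1)). Suppose either that K is not contained in the Fitting subgroup F(G), or that K = F(G) with G/K solvable and K ≠ G. Then there is an irreducible character ψ of G with ψ(1) > χ(1) whose kernel is properly contained in K. -/
theorem result {G : Type*} [Group G] [Finite G] (χ : Cfsg.IrrCharacter G) (K : Subgroup G) [K.Normal] (hK : (∀ g : G, g ∈ K ↔ (χ : G → ℂ) g = (χ : G → ℂ) 1)) (h : ¬ K ≤ Cfsg.fittingSubgroup G ∨ (K = Cfsg.fittingSubgroup G ∧ Group.IsSolvable (G ⧸ K) ∧ K ≠ ⊤)) : ∃ ψ : Cfsg.IrrCharacter G, Cfsg.charDegree (χ : G → ℂ) < Cfsg.charDegree (ψ : G → ℂ) ∧ ∃ L : Subgroup G, (∀ g : G, g ∈ L ↔ (ψ : G → ℂ) g = (ψ : G → ℂ) 1) ∧ L < K := by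
  exact Cfsg.Agent.Lib.Helper66.broline χ K hK h

end Cfsg.Agent.S4461
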