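import Cfsg.Statements.S4464
-- import your own Cfsg.Agent.* helpers here
import Cfsg.Agent.Lib.Helper20.PermChar
import Cfsg.Agent.Lib.Helper20.ExtPrime
import Cfsg.Agent.Lib.Helper4.CharDecomp
import Cfsg.Agent.Lib.Helper4.IndFun
import Cfsg.Agent.Lib.Helper35.Ind
import Cfsg.Agent.Lib.Helper66.TwoDegChar
import Cfsg.Agent.Lib.Helper83.Codeg
import Cfsg.Agent.Lib.Helper83.IrrBasic
import Cfsg.Agent.Lib.Helper5.CharInd

set_option autoImplicit false
open Cfsg

namespace Cfsg.Agent.S4464

open Cfsg.Agent.Lib MulAction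
open scoped ComplexConjugate

/-- Irreducible character degrees of a subgroup are bounded by those of the group. -/
theorem exists_degree_ge {G : Type*} [Group G] [Finite G] (H : Subgroup G) (ψ : IrrCharacter H) :
    ∃ χ : IrrCharacter G, charDegree (ψ : H → ℂ) ≤ charDegree (χ : G → ℂ) := by
  classical
  letI : Fintype G := Fintype.ofFinite G
  letI : Fintype H := Fintype.ofFinite H
  have := Helper4.irr_finite (G := H)
  letI : Fintype (IrrCharacter H) := Fintype.ofFinite _
  obtain ⟨χ, hχ, hne⟩ := Helper20.exists_irr_over H ψ.2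
  refine ⟨⟨χ, hχ⟩, ?_⟩
  obtain ⟨b, hb⟩ := Helper4.exists_decomp_of_isCharacter (Helper35.res H χ)
      (Helper35.isCharacter_res H (Helper35.isChar_of_irr hχ))
  have hbψ : classInner (fun h : H => χ h) ψ.1 = (b ψ : ℂ) := by
    have h0 : (fun h : H => χ h) = Helper35.res H χ := rfl
    rw [h0, hb]
    exact Helper4.classInner_sum_irr (fun η => (b η : ℂ)) ψ
  have hb1 : 1 ≤ b ψ := by
    rcases Nat.eq_zero_or_pos (b ψ) with h | h
    · rw [h, Nat.cast_zero] at hbψ
      exact absurd hbψ hne
    · exact h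
  have hdeg : charDegree χ = ∑ η : IrrCharacter H, b η * charDegree η.1 := by
    have h1 := congrFun hb 1
    simp only [Helper35.res_apply, Finset.sum_apply, Pi.smul_apply, smul_eq_mul] at h1
    rw [OneMemClass.coe_one, (Helper83.irr_degree hχ).2] at h1
    have h2 : ∀ η : IrrCharacter H, (b η : ℂ) * η.1 1 = ((b η * charDegree η.1 : ℕ) : ℂ) := by
      intro η
      rw [(Helper83.irr_degree η.2).2]
      push_cast
      ring
    rw [Finset.sum_congr rfl (fun η _ => h2 η), ← Nat.cast_sum] at h1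
    exact_mod_cast h1
  calc charDegree ψ.1 ≤ b ψ * charDegree ψ.1 := Nat.le_mul_of_pos_left _ hb1
    _ ≤ ∑ η : IrrCharacter H, b η * charDegree η.1 :=
        Finset.single_le_sum (f := fun η => b η * charDegree η.1) (fun _ _ => Nat.zero_le _)
          (Finset.mem_univ ψ)
    _ = charDegree χ := hdeg.symm

/-- If all irreducible character degrees are less than `p`, Sylow `p`-subgroups are abelian. -/
theorem sylow_comm {G : Type*} [Group G] [Finite G] (p : ℕ) (hp : p.Prime)
    (hb : ∀ χ : Cfsg.IrrCharacter G, Cfsg.charDegree (χ : G → ℂ) < p) (P : Sylow p G) :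
    ∀ x ∈ (P : Subgroup G), ∀ y ∈ (P : Subgroup G), x * y = y * x := by
  haveI : Fact p.Prime := ⟨hp⟩
  have hlin : ∀ ψ : IrrCharacter (P : Subgroup G), charDegree ψ.1 = 1 := by
    intro ψ
    obtain ⟨χ, hχ⟩ := exists_degree_ge (P : Subgroup G) ψ
    have hlt : charDegree ψ.1 < p := lt_of_le_of_lt hχ (hb χ)
    have hdvd := Helper83.irr_degree_dvd_card ψ
    obtain ⟨n, hn⟩ := IsPGroup.iff_card.mp P.isPGroup'
    rw [hn] at hdvd
    obtain ⟨k, -, hk⟩ := (Nat.dvd_prime_pow hp).mp hdvd
    rcases Nat.eq_zero_or_pos k with h0 | h0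
    · rw [hk, h0, pow_zero]
    · exfalso
      have : p ≤ p ^ k := Nat.le_self_pow (by omega) p
      omega
  have hc := Helper66.comm_of_all_linear hlin
  intro x hx y hy
  have := hc ⟨x, hx⟩ ⟨y, hy⟩
  exact congrArg Subtype.val this

/-- Orbit counting: a `p`-group acting with exactly one fixed point. -/
theorem orbit_count {G : Type*} [Group G] [Finite G] (p : ℕ) (hp : p.Prime) (P : Sylow p G)
    [Fintype (orbitRel.Quotient (P : Subgroup G) (Sylow p G))] :
    p * (Fintype.card (orbitRel.Quotient (P : Subgroup G) (Sylow p G)) - 1) + 1 ≤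
      Nat.card (Sylow p G) := by
  classical
  haveI : Fact p.Prime := ⟨hp⟩
  have e := selfEquivSigmaOrbits' (P : Subgroup G) (Sylow p G)
  rw [Nat.card_congr e, Nat.card_sigma]
  obtain ⟨ω₀, hω₀⟩ : ∃ ω₀ : orbitRel.Quotient (P : Subgroup G) (Sylow p G),
      ω₀ = Quotient.mk'' P := ⟨_, rfl⟩
  have hge : ∀ ω : orbitRel.Quotient (P : Subgroup G) (Sylow p G),
      (if ω = ω₀ then 1 else p) ≤ Nat.card ω.orbit := by
    intro ω
    have hne : Nonempty ω.orbit := (orbitRel.Quotient.nonempty_orbit ω).to_subtype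
    split_ifs with h
    · exact Nat.card_pos
    · have horb : ω.orbit = orbit (P : Subgroup G) ω.out :=
        orbitRel.Quotient.orbit_eq_orbit_out ω Quotient.out_eq'
      rw [horb]
      obtain ⟨n, hn⟩ := IsPGroup.card_orbit (P.isPGroup') (ω.out : Sylow p G)
      rw [hn]
      rcases Nat.eq_zero_or_pos n with h0 | h0
      · exfalso
        rw [h0, pow_zero] at hn
        letI : Fintype (orbit (P : Subgroup G) (ω.out : Sylow p G)) := Fintype.ofFinite _
        have hfix : (ω.out : Sylow p G) ∈ fixedPoints (P : Subgroup G) (Sylow p G) := by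
          rw [mem_fixedPoints_iff_card_orbit_eq_one, ← Nat.card_eq_fintype_card]
          exact hn
        have hle := (P.isPGroup'.sylow_mem_fixedPoints_iff).mp hfix
        have heq : (ω.out : Sylow p G) = P := Sylow.ext (P.3 (ω.out : Sylow p G).2 hle)
        apply h
        rw [hω₀]
        exact (Quotient.out_eq' ω).symm.trans
          (congrArg (Quotient.mk'' : Sylow p G → orbitRel.Quotient (P : Subgroup G) (Sylow p G))
            heq)
      · exact Nat.le_self_pow (by omega) p
  calc p * (Fintype.card (orbitRel.Quotient (P : Subgroup G) (Sylow p G)) - 1) + 1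
      = ∑ ω : orbitRel.Quotient (P : Subgroup G) (Sylow p G), (if ω = ω₀ then 1 else p) := by
        rw [← Finset.add_sum_erase Finset.univ _ (Finset.mem_univ ω₀), if_pos rfl]
        rw [Finset.sum_congr rfl (fun ω hω => if_neg (Finset.ne_of_mem_erase hω))]
        rw [Finset.sum_const, Finset.card_erase_of_mem (Finset.mem_univ _), Finset.card_univ,
          smul_eq_mul]
        ring
    _ ≤ ∑ ω : orbitRel.Quotient (P : Subgroup G) (Sylow p G), Nat.card ω.orbit :=
        Finset.sum_le_sum (fun ω _ => hge ω)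

/-- If all irreducible character degrees are less than `p`, Sylow `p`-subgroups are normal. -/
theorem sylow_normal {G : Type*} [Group G] [Finite G] (p : ℕ) (hp : p.Prime)
    (hb : ∀ χ : Cfsg.IrrCharacter G, Cfsg.charDegree (χ : G → ℂ) < p) (P : Sylow p G) :
    (P : Subgroup G).Normal := by
  classical
  haveI : Fact p.Prime := ⟨hp⟩
  letI : Fintype G := Fintype.ofFinite G
  have := Helper4.irr_finite (G := G)
  letI : Fintype (IrrCharacter G) := Fintype.ofFinite _
  letI : Fintype (Sylow p G) := Fintype.ofFinite _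
  obtain ⟨N, hN⟩ : ∃ N : Subgroup G, N = stabilizer G P := ⟨_, rfl⟩
  letI : Fintype N := Fintype.ofFinite N
  letI : Fintype (orbitRel.Quotient N (Sylow p G)) := Fintype.ofFinite _
  letI : Fintype (orbitRel.Quotient (P : Subgroup G) (Sylow p G)) := Fintype.ofFinite _
  obtain ⟨π, hπ⟩ : ∃ π : G → ℂ, π = indFun N (fun _ => 1) := ⟨_, rfl⟩
  -- values of π
  have hπval : ∀ x : G, π x = (Nat.card {Q : Sylow p G // x • Q = Q} : ℂ) := by
    intro x
    rw [hπ, hN, ← Helper20.card_fixed_in_orbit P x]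
    congr 1
    apply Nat.card_congr
    exact (Equiv.subtypeEquivRight (fun Q => by
      constructor
      · intro h; exact h.2
      · intro h; exact ⟨by rw [Sylow.orbit_eq_top]; trivial, h⟩))
  have hπcf : IsClassFunction G π := by rw [hπ]; exact Helper35.isClassFunction_indFun N _
  have hchar : IsCharacter G π := by
    rw [hπ]
    exact Helper35.isCharacter_indFun N (Helper35.isChar_of_irr (Helper5.isIrrCharacter_one N))
  obtain ⟨m, hm⟩ := Helper4.exists_decomp_of_isCharacter π hchar
  -- the principal character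
  obtain ⟨χ₁, hχ₁⟩ : ∃ χ₁ : IrrCharacter G, χ₁.1 = fun _ => 1 :=
    ⟨⟨fun _ => 1, Helper5.isIrrCharacter_one G⟩, rfl⟩
  have hcardN : (Nat.card N : ℂ) ≠ 0 := Helper20.card_subgroup_ne_zero N
  have hm1 : m χ₁ = 1 := by
    have h1 : classInner π χ₁.1 = (m χ₁ : ℂ) := by
      conv_lhs => rw [hm]
      exact Helper4.classInner_sum_irr (fun η => (m η : ℂ)) χ₁
    have h2 : classInner π χ₁.1 = 1 := by
      rw [hπ, Helper4.frobenius_reciprocity N _ _
        (Helper35.isClassFunction_of_isCharacter (Helper35.isChar_of_irr χ₁.2)), hχ₁]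
      simp only [classInner, map_one, mul_one, Finset.sum_const, Finset.card_univ, nsmul_eq_mul]
      rw [← Nat.card_eq_fintype_card, inv_mul_cancel₀ hcardN]
    rw [h2] at h1
    exact_mod_cast h1.symm
  have hf1 : charDegree χ₁.1 = 1 := by
    have h := (Helper83.irr_degree χ₁.2).2
    rw [hχ₁] at h
    have h' : ((1 : ℕ) : ℂ) = (charDegree χ₁.1 : ℂ) := by rw [hχ₁]; simpa using h
    exact_mod_cast h'.symm
  -- the norm of π
  have hinner : classInner π π = (Fintype.card (orbitRel.Quotient N (Sylow p G)) : ℂ) := by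
    conv_lhs => rw [hπ]
    rw [Helper4.frobenius_reciprocity N _ _ (by rw [← hπ]; exact hπcf), ← hπ]
    simp only [classInner, one_mul]
    have hB := sum_card_fixedBy_eq_card_orbits_mul_card_group N (Sylow p G)
    have hsum : ∑ h : N, conj (π h) = ((∑ h : N, Fintype.card (fixedBy (Sylow p G) h) : ℕ) : ℂ) := by
      rw [Nat.cast_sum]
      apply Finset.sum_congr rfl
      intro h _
      rw [hπval, Complex.conj_natCast, Nat.card_eq_fintype_card]
      congr 1
    rw [hsum, hB, Nat.cast_mul, ← Nat.card_eq_fintype_card (α := N), mul_comm, mul_assoc,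
      mul_inv_cancel₀ hcardN, mul_one]
  have hsq : ∑ χ : IrrCharacter G, m χ ^ 2 = Fintype.card (orbitRel.Quotient N (Sylow p G)) := by
    have h1 : classInner π π = ∑ χ : IrrCharacter G, (m χ : ℂ) * conj (m χ : ℂ) := by
      conv_lhs => rw [hm]
      exact Helper4.classInner_sum_sum_irr _ _
    rw [hinner] at h1
    have h2 : ((Fintype.card (orbitRel.Quotient N (Sylow p G)) : ℕ) : ℂ) =
        ((∑ χ : IrrCharacter G, m χ ^ 2 : ℕ) : ℂ) := by
      rw [h1, Nat.cast_sum]
      apply Finset.sum_congr rfl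
      intro χ _
      rw [Complex.conj_natCast]
      push_cast
      ring
    exact_mod_cast h2.symm
  -- the degree of π
  have hdeg : ∑ χ : IrrCharacter G, m χ * charDegree χ.1 = Nat.card (Sylow p G) := by
    have h1 := congrFun hm 1
    rw [hπval] at h1
    simp only [Finset.sum_apply, Pi.smul_apply, smul_eq_mul] at h1
    have h2 : ∀ η : IrrCharacter G, (m η : ℂ) * η.1 1 = ((m η * charDegree η.1 : ℕ) : ℂ) := by
      intro η
      rw [(Helper83.irr_degree η.2).2]
      push_cast
      ring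
    rw [Finset.sum_congr rfl (fun η _ => h2 η), ← Nat.cast_sum] at h1
    have h3 : Nat.card {Q : Sylow p G // (1 : G) • Q = Q} = Nat.card (Sylow p G) :=
      Nat.card_congr (Equiv.subtypeUnivEquiv (fun Q => one_smul G Q))
    rw [h3] at h1
    exact_mod_cast h1.symm
  -- comparing the orbit counts of `N` and `P`
  have hPN : (P : Subgroup G) ≤ N := by
    rw [hN, Sylow.stabilizer_eq_normalizer]
    exact Subgroup.le_normalizer
  have hle : Fintype.card (orbitRel.Quotient N (Sylow p G)) ≤
      Fintype.card (orbitRel.Quotient (P : Subgroup G) (Sylow p G)) := by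
    apply Fintype.card_le_of_surjective
      (Quotient.map' (s₁ := orbitRel (P : Subgroup G) (Sylow p G))
        (s₂ := orbitRel N (Sylow p G)) id (by
          intro a b hab
          rw [orbitRel_apply] at hab ⊢
          obtain ⟨u, hu⟩ := hab
          exact ⟨⟨u.1, hPN u.2⟩, hu⟩))
    intro ω
    induction ω using Quotient.inductionOn' with
    | h a => exact ⟨Quotient.mk'' a, rfl⟩
  have horb := orbit_count p hp P
  -- arithmetic
  obtain ⟨r, hr⟩ : ∃ r, r = Fintype.card (orbitRel.Quotient N (Sylow p G)) := ⟨_, rfl⟩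
  obtain ⟨r', hr'⟩ : ∃ r', r' = Fintype.card (orbitRel.Quotient (P : Subgroup G) (Sylow p G)) :=
    ⟨_, rfl⟩
  obtain ⟨s, hs⟩ : ∃ s, s = Nat.card (Sylow p G) := ⟨_, rfl⟩
  rw [← hr] at hsq hle
  rw [← hr'] at hle horb
  rw [← hs] at hdeg horb
  have hsplit1 : ∑ χ : IrrCharacter G, m χ * charDegree χ.1 =
      1 + ∑ χ ∈ Finset.univ.erase χ₁, m χ * charDegree χ.1 := by
    rw [← Finset.add_sum_erase Finset.univ _ (Finset.mem_univ χ₁), hm1, hf1]
  have hsplit2 : ∑ χ : IrrCharacter G, m χ ^ 2 = 1 + ∑ χ ∈ Finset.univ.erase χ₁, m χ ^ 2 := by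
    rw [← Finset.add_sum_erase Finset.univ _ (Finset.mem_univ χ₁), hm1]
    norm_num
  have hbound : ∑ χ ∈ Finset.univ.erase χ₁, m χ * charDegree χ.1 ≤
      (p - 1) * ∑ χ ∈ Finset.univ.erase χ₁, m χ ^ 2 := by
    rw [Finset.mul_sum]
    apply Finset.sum_le_sum
    intro χ _
    have h1 : charDegree χ.1 ≤ p - 1 := by have := hb χ; omega
    have h2 : m χ ≤ m χ ^ 2 := by
      rw [pow_two]
      rcases Nat.eq_zero_or_pos (m χ) with h | h
      · rw [h]; exact Nat.zero_le _
      · exact Nat.le_mul_of_pos_left _ h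
    calc m χ * charDegree χ.1 ≤ m χ ^ 2 * (p - 1) := Nat.mul_le_mul h2 h1
      _ = (p - 1) * m χ ^ 2 := Nat.mul_comm _ _
  have hs1 : s = 1 := by
    obtain ⟨t, ht⟩ : ∃ t, t = ∑ χ ∈ Finset.univ.erase χ₁, m χ ^ 2 := ⟨_, rfl⟩
    rw [← ht] at hsplit2 hbound
    have hr1 : r = 1 + t := by rw [← hsq, hsplit2]
    have hs2 : s ≤ 1 + (p - 1) * t := by
      rw [← hdeg, hsplit1]
      omega
    have h3 : p * (r' - 1) + 1 ≤ s := horb
    have h4 : p * t ≤ p * (r' - 1) := Nat.mul_le_mul_left _ (by omega)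
    have h5 : p * t ≤ (p - 1) * t := by omega
    obtain ⟨q, rfl⟩ : ∃ q, p = q + 1 := ⟨p - 1, by have := hp.pos; omega⟩
    rw [Nat.add_sub_cancel, Nat.add_mul, one_mul] at h5
    have ht0 : t = 0 := by omega
    rw [ht0, Nat.mul_zero] at hs2
    have hpos : 0 < s := by rw [hs]; exact Nat.card_pos
    omega
  rw [hs] at hs1
  haveI : Subsingleton (Sylow p G) := (Nat.card_eq_one_iff_unique.mp hs1).1
  exact Sylow.normal_of_subsingleton P

/-- Let p be a prime and G a finite group all of whose irreducible character degrees are less than p. Then G has a normal abelian Sylow p-subgroup. -/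
theorem result {G : Type*} [Group G] [Finite G] (p : ℕ) (hp : p.Prime) (hb : ∀ χ : Cfsg.IrrCharacter G, Cfsg.charDegree (χ : G → ℂ) < p) : ∃ P : Subgroup G, P.Normal ∧ (∀ x ∈ P, ∀ y ∈ P, x * y = y * x) ∧ IsPGroup p P ∧ ¬ p ∣ P.index := by
  haveI : Fact p.Prime := ⟨hp⟩
  obtain ⟨P⟩ : Nonempty (Sylow p G) := inferInstance
  exact ⟨P, sylow_normal p hp hb P, sylow_comm p hp hb P, P.isPGroup', P.not_dvd_index⟩

end Cfsg.Agent.S4464
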