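import Cfsg.Statements.S4476
import Cfsg.Agent.Lib.Helper4.CharInt
import Cfsg.Agent.Lib.Helper79.FSCount

set_option autoImplicit false
open Cfsg

namespace Cfsg.Agent.S4476

open Cfsg.Agent.Lib.Helper4 Cfsg.Agent.Lib.Helper79

/-- Sum over the group of the inverse class sizes is the number of classes. -/
theorem sum_inv_class {G : Type*} [Group G] [Fintype G] :
    ∑ g : G, ((Subgroup.centralizer ({g} : Set G)).index : ℚ)⁻¹ = (Nat.card (ConjClasses G) : ℚ) := by
  classical
  haveI : Fintype (ConjClasses G) := Fintype.ofFinite _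
  have h := sum_class_div (G := G) (fun _ => (1 : ℂ)) (fun _ _ => rfl)
  simp only [one_mul, Finset.sum_const, Finset.card_univ, nsmul_eq_mul, mul_one] at h
  have h2 : ((∑ g : G, ((Subgroup.centralizer ({g} : Set G)).index : ℚ)⁻¹ : ℚ) : ℂ)
      = ((Nat.card (ConjClasses G) : ℚ) : ℂ) := by
    push_cast
    rw [Nat.card_eq_fintype_card, ← h]
    refine Finset.sum_congr rfl fun g _ => ?_
    rw [card_conj_class]
  exact_mod_cast h2

theorem index_centralizer_one {G : Type*} [Group G] :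
    (Subgroup.centralizer ({1} : Set G)).index = 1 := by
  have : Subgroup.centralizer ({1} : Set G) = ⊤ := by
    rw [Subgroup.centralizer_eq_top_iff_subset]
    intro x hx
    rw [Set.mem_singleton_iff.mp hx]
    exact Subgroup.one_mem _
  rw [this, Subgroup.index_top]

/-- Let G be a finite group of even order g with exactly t involutions, and put α = (g − 1)/t (a rational number). Then (a) some non-identity element x of G has at most α² conjugates; and (b) some non-principal real-valued irreducible character of G has degree at most α. -/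
theorem result {G : Type*} [Group G] [Fintype G] (heven : Even (Nat.card G)) (t : ℕ) (ht : Nat.card {x : G // orderOf x = 2} = t) : (∃ x : G, x ≠ 1 ∧ ((Subgroup.centralizer ({x} : Set G)).index : ℚ) ≤ (((Nat.card G : ℚ) - 1) / t) ^ 2) ∧ ∃ χ : Cfsg.IrrCharacter G, (χ : G → ℂ) ≠ (fun _ => 1) ∧ (∀ g : G, ((χ : G → ℂ) g).im = 0) ∧ (Cfsg.charDegree (χ : G → ℂ) : ℚ) ≤ ((Nat.card G : ℚ) - 1) / t := by
  classical
  have hfin := irr_finite (G := G)
  letI : Fintype (Cfsg.IrrCharacter G) := Fintype.ofFinite _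
  -- basic numerical facts
  have hN2 : 2 ≤ Nat.card G := by
    have hpos : 0 < Nat.card G := Nat.card_pos
    obtain ⟨m, hm⟩ := heven
    omega
  have ht1 : 1 ≤ t := by
    haveI : Fact (Nat.Prime 2) := ⟨Nat.prime_two⟩
    obtain ⟨x, hx⟩ := exists_prime_orderOf_dvd_card' (G := G) 2 (even_iff_two_dvd.1 heven)
    rw [← ht]
    haveI : Nonempty {x : G // orderOf x = 2} := ⟨⟨x, hx⟩⟩
    exact Nat.card_pos
  have hNq : (2 : ℚ) ≤ (Nat.card G : ℚ) := by exact_mod_cast hN2
  have htq : (1 : ℚ) ≤ (t : ℚ) := by exact_mod_cast ht1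
  set α : ℚ := ((Nat.card G : ℚ) - 1) / t with hα
  have hαpos : 0 < α := by
    rw [hα]; apply div_pos <;> linarith
  have htα : (t : ℚ) * α = (Nat.card G : ℚ) - 1 := by
    rw [hα]; field_simp
  -- Frobenius–Schur count
  have hFS := one_add_card_involutions (G := G)
  rw [ht] at hFS
  have hmem : oneIrr G ∈ (Finset.univ : Finset (Cfsg.IrrCharacter G)) := Finset.mem_univ _
  have hFS' : (t : ℤ) = ∑ χ ∈ Finset.univ.erase (oneIrr G),
      fsSign χ * (Cfsg.charDegree (χ : G → ℂ) : ℤ) := by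
    rw [← Finset.add_sum_erase _ _ hmem, fsSign_oneIrr, charDegree_oneIrr] at hFS
    push_cast at hFS
    linarith
  have hFSq : (t : ℚ) = ∑ χ ∈ Finset.univ.erase (oneIrr G),
      (fsSign χ : ℚ) * (Cfsg.charDegree (χ : G → ℂ) : ℚ) := by
    have := congrArg (fun z : ℤ => (z : ℚ)) hFS'
    push_cast at this
    exact this
  -- sum of squares
  have hsq : ∑ χ : Cfsg.IrrCharacter G, (Cfsg.charDegree (χ : G → ℂ) : ℚ) ^ 2
      = (Nat.card G : ℚ) := by
    have h := sum_sq_irr (G := G)
    have h2 : ((∑ χ : Cfsg.IrrCharacter G, (Cfsg.charDegree (χ : G → ℂ) : ℚ) ^ 2 : ℚ) : ℂ)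
        = ((Nat.card G : ℚ) : ℂ) := by
      push_cast
      rw [← h]
      refine Finset.sum_congr rfl fun χ _ => ?_
      rw [irr_one_eq_charDegree]
    exact_mod_cast h2
  have hsq' : ∑ χ ∈ Finset.univ.erase (oneIrr G), (Cfsg.charDegree (χ : G → ℂ) : ℚ) ^ 2
      = (Nat.card G : ℚ) - 1 := by
    rw [← Finset.add_sum_erase _ _ hmem, charDegree_oneIrr] at hsq
    push_cast at hsq
    linarith
  have hdpos : ∀ χ : Cfsg.IrrCharacter G, (0 : ℚ) < (Cfsg.charDegree (χ : G → ℂ) : ℚ) := by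
    intro χ
    exact_mod_cast charDegree_pos χ
  have hεle : ∀ χ : Cfsg.IrrCharacter G, (fsSign χ : ℚ) ≤ 1 := by
    intro χ
    exact_mod_cast fsSign_le_one χ
  refine ⟨?_, ?_⟩
  · -- part (a)
    by_contra ha
    push Not at ha
    -- number of classes
    have hk : ∑ g : G, ((Subgroup.centralizer ({g} : Set G)).index : ℚ)⁻¹
        = (Fintype.card (Cfsg.IrrCharacter G) : ℚ) := by
      rw [sum_inv_class, ← card_irr, Nat.card_eq_fintype_card]
    have hk' : ∑ g ∈ Finset.univ.erase (1 : G), ((Subgroup.centralizer ({g} : Set G)).index : ℚ)⁻¹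
        = (Fintype.card (Cfsg.IrrCharacter G) : ℚ) - 1 := by
      rw [← Finset.add_sum_erase _ _ (Finset.mem_univ (1 : G)), index_centralizer_one] at hk
      push_cast at hk
      linarith
    have hne : (Finset.univ.erase (1 : G)).Nonempty := by
      rw [← Finset.card_pos, Finset.card_erase_of_mem (Finset.mem_univ _), Finset.card_univ,
        ← Nat.card_eq_fintype_card]
      omega
    have hlt : ∑ g ∈ Finset.univ.erase (1 : G), ((Subgroup.centralizer ({g} : Set G)).index : ℚ)⁻¹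
        < ∑ g ∈ Finset.univ.erase (1 : G), (α ^ 2)⁻¹ := by
      apply Finset.sum_lt_sum_of_nonempty hne
      intro g hg
      have hg1 : g ≠ 1 := Finset.ne_of_mem_erase hg
      have := ha g hg1
      exact inv_strictAnti₀ (by positivity) this
    have hcardG : ((Finset.univ.erase (1 : G)).card : ℚ) = (Nat.card G : ℚ) - 1 := by
      rw [Finset.card_erase_of_mem (Finset.mem_univ _), Finset.card_univ,
        Nat.cast_sub Fintype.card_pos, Nat.card_eq_fintype_card]
      simp
    rw [hk', Finset.sum_const, nsmul_eq_mul, hcardG] at hlt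
    -- Cauchy–Schwarz
    have hCS := sq_sum_le_card_mul_sum_sq (s := Finset.univ.erase (oneIrr G))
      (f := fun χ : Cfsg.IrrCharacter G => (Cfsg.charDegree (χ : G → ℂ) : ℚ))
    rw [hsq', Finset.card_erase_of_mem hmem, Finset.card_univ] at hCS
    have hcast2 : ((Fintype.card (Cfsg.IrrCharacter G) - 1 : ℕ) : ℚ)
        = (Fintype.card (Cfsg.IrrCharacter G) : ℚ) - 1 := by
      have : 1 ≤ Fintype.card (Cfsg.IrrCharacter G) := Fintype.card_pos_iff.2 ⟨oneIrr G⟩
      rw [Nat.cast_sub this]; simp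
    rw [hcast2] at hCS
    have htle : (t : ℚ) ≤ ∑ χ ∈ Finset.univ.erase (oneIrr G),
        (Cfsg.charDegree (χ : G → ℂ) : ℚ) := by
      rw [hFSq]
      apply Finset.sum_le_sum
      intro χ _
      have := hεle χ
      have := hdpos χ
      nlinarith
    have ht2 : (t : ℚ) ^ 2 ≤ ((Fintype.card (Cfsg.IrrCharacter G) : ℚ) - 1)
        * ((Nat.card G : ℚ) - 1) := by
      refine le_trans ?_ hCS
      apply pow_le_pow_left₀ (by linarith) htle
    -- contradiction
    have hα2 : α ^ 2 * (t : ℚ) ^ 2 = ((Nat.card G : ℚ) - 1) ^ 2 := by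
      rw [← htα]; ring
    have hN1 : (0 : ℚ) < (Nat.card G : ℚ) - 1 := by linarith
    have h1 : ((Fintype.card (Cfsg.IrrCharacter G) : ℚ) - 1) * α ^ 2 < (Nat.card G : ℚ) - 1 := by
      have h2 : (0 : ℚ) < α ^ 2 := by positivity
      have h3 := mul_lt_mul_of_pos_right hlt h2
      have h4 : ((Nat.card G : ℚ) - 1) * (α ^ 2)⁻¹ * α ^ 2 = (Nat.card G : ℚ) - 1 := by
        field_simp
      rw [h4] at h3
      exact h3
    have h5 : ((Fintype.card (Cfsg.IrrCharacter G) : ℚ) - 1) * α ^ 2 * (t : ℚ) ^ 2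
        < ((Nat.card G : ℚ) - 1) * (t : ℚ) ^ 2 := by
      apply mul_lt_mul_of_pos_right h1
      positivity
    have h6 : ((Fintype.card (Cfsg.IrrCharacter G) : ℚ) - 1) * α ^ 2 * (t : ℚ) ^ 2
        = ((Fintype.card (Cfsg.IrrCharacter G) : ℚ) - 1) * ((Nat.card G : ℚ) - 1) ^ 2 := by
      rw [mul_assoc, hα2]
    rw [h6] at h5
    have h7 : ((Fintype.card (Cfsg.IrrCharacter G) : ℚ) - 1) * ((Nat.card G : ℚ) - 1)
        < (t : ℚ) ^ 2 := by
      have h8 : ((Fintype.card (Cfsg.IrrCharacter G) : ℚ) - 1) * ((Nat.card G : ℚ) - 1)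
          * ((Nat.card G : ℚ) - 1) < (t : ℚ) ^ 2 * ((Nat.card G : ℚ) - 1) := by
        nlinarith
      exact lt_of_mul_lt_mul_right h8 hN1.le
    linarith
  · -- part (b)
    by_contra hb
    push Not at hb
    have hterm : ∀ χ ∈ Finset.univ.erase (oneIrr G),
        (fsSign χ : ℚ) * (Cfsg.charDegree (χ : G → ℂ) : ℚ) * α
          ≤ (Cfsg.charDegree (χ : G → ℂ) : ℚ) ^ 2 ∧
        (fsSign χ = 1 → (fsSign χ : ℚ) * (Cfsg.charDegree (χ : G → ℂ) : ℚ) * α
          < (Cfsg.charDegree (χ : G → ℂ) : ℚ) ^ 2) := by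
      intro χ hχ
      have hχ1 : χ ≠ oneIrr G := Finset.ne_of_mem_erase hχ
      have hχ1' : (χ : G → ℂ) ≠ (fun _ => 1) := by
        intro h
        exact hχ1 (Subtype.ext h)
      have hd := hdpos χ
      rcases fsSign_cases χ with h | h | h
      · rw [h]
        refine ⟨by rw [Int.cast_zero, zero_mul, zero_mul]; positivity, fun h' => by simp at h'⟩
      · have hreal := (fsSign_ne_zero_iff χ).1 (by rw [h]; norm_num)
        have hlt := hb χ hχ1' hreal
        rw [h]
        have : (Cfsg.charDegree (χ : G → ℂ) : ℚ) * α < (Cfsg.charDegree (χ : G → ℂ) : ℚ) ^ 2 := by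
          rw [sq]; exact mul_lt_mul_of_pos_left hlt hd
        refine ⟨by push_cast; linarith, fun _ => by push_cast; linarith⟩
      · rw [h]
        refine ⟨by push_cast; nlinarith, fun h' => by norm_num at h'⟩
    have hex : ∃ χ ∈ Finset.univ.erase (oneIrr G), fsSign χ = 1 := by
      by_contra hcon
      push Not at hcon
      have : ∑ χ ∈ Finset.univ.erase (oneIrr G),
          (fsSign χ : ℚ) * (Cfsg.charDegree (χ : G → ℂ) : ℚ) ≤ 0 := by
        apply Finset.sum_nonpos
        intro χ hχ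
        have hd := hdpos χ
        rcases fsSign_cases χ with h | h | h
        · rw [h]; simp
        · exact absurd h (hcon χ hχ)
        · rw [h]; push_cast; linarith
      linarith
    obtain ⟨χ₀, hχ₀, hε₀⟩ := hex
    have hlt : ∑ χ ∈ Finset.univ.erase (oneIrr G),
        (fsSign χ : ℚ) * (Cfsg.charDegree (χ : G → ℂ) : ℚ) * α
        < ∑ χ ∈ Finset.univ.erase (oneIrr G), (Cfsg.charDegree (χ : G → ℂ) : ℚ) ^ 2 :=
      Finset.sum_lt_sum (fun χ hχ => (hterm χ hχ).1) ⟨χ₀, hχ₀, (hterm χ₀ hχ₀).2 hε₀⟩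
    rw [← Finset.sum_mul, ← hFSq, htα, hsq'] at hlt
    exact lt_irrefl _ hlt

end Cfsg.Agent.S4476
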