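import Cfsg.Statements.S4477
import Cfsg.Agent.Lib.Helper79.AFT3

set_option autoImplicit false
open Cfsg

namespace Cfsg.Agent.S4477

/-- Let G be a finite 2-group whose number of involutions is congruent to 1 modulo 4. Then G is cyclic or its commutator subgroup has index 4. -/
theorem result {G : Type*} [Group G] [Finite G] (hG : IsPGroup 2 G) (ht : Nat.card {x : G // orderOf x = 2} % 4 = 1) : IsCyclic G ∨ (commutator G).index = 4 := by
  classical
  by_cases hc : IsCyclic G
  · exact Or.inl hc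
  right
  haveI : Fintype G := Fintype.ofFinite G
  have hfin : Finite (IrrCharacter G) := Cfsg.Agent.Lib.Helper4.irr_finite (G := G)
  letI : Fintype (IrrCharacter G) := Fintype.ofFinite _
  haveI : Fact (Nat.Prime 2) := ⟨Nat.prime_two⟩
  obtain ⟨n, hn⟩ := IsPGroup.iff_card.1 hG
  obtain ⟨k, hk2, hk⟩ := Cfsg.Agent.Lib.Helper79.card_real_linear hG hc
  have hmod := Cfsg.Agent.Lib.Helper79.real_count_mod_four (G := G) hn
  have hR1card : (Finset.univ.filter (fun χ : IrrCharacter G =>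
      charDegree (χ : G → ℂ) = 1 ∧ ∀ g : G, ((χ : G → ℂ) g).im = 0)).card = 2 ^ k := by
    rw [← hk, Nat.card_eq_fintype_card, Fintype.card_subtype]
  have h4 : (4 : ℕ) ∣ 2 ^ k := by
    obtain ⟨j, rfl⟩ := Nat.exists_eq_add_of_le hk2
    exact ⟨2 ^ j, by ring⟩
  have hR1z : (((2 ^ k : ℕ) : ℕ) : ZMod 4) = 0 := (ZMod.natCast_eq_zero_iff _ _).2 h4
  have hlhs : ((1 + Nat.card {x : G // orderOf x = 2} : ℕ) : ZMod 4) = 2 := by
    have h1 : (1 + Nat.card {x : G // orderOf x = 2}) % 4 = 2 := by omega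
    rw [← ZMod.natCast_mod, h1]
    rfl
  rw [hlhs, hR1card, hR1z, zero_add] at hmod
  have hodd : Odd (Finset.univ.filter (fun χ : IrrCharacter G =>
      charDegree (χ : G → ℂ) = 2 ∧ ∀ g : G, ((χ : G → ℂ) g).im = 0)).card := by
    by_contra hev
    rw [Nat.not_odd_iff_even] at hev
    obtain ⟨m, hm⟩ := hev
    rw [hm] at hmod
    push_cast at hmod
    have h5 : (2 : ZMod 4) * ((m : ZMod 4) + m) = 4 * m := by ring
    rw [h5] at hmod
    have h40 : (4 : ZMod 4) = 0 := by decide
    rw [h40, zero_mul] at hmod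
    exact absurd hmod (by decide)
  have hev := Cfsg.Agent.Lib.Helper79.even_card_moved (G := G) hn 2
  obtain ⟨χ₀, hχ₀, hχ₀fix⟩ : ∃ χ₀ : IrrCharacter G,
      (charDegree (χ₀ : G → ℂ) = 2 ∧ ∀ g : G, ((χ₀ : G → ℂ) g).im = 0) ∧
        ∀ lam : G →* ℂˣ, Cfsg.Agent.Lib.Helper79.twist lam χ₀ = χ₀ := by
    by_contra hcon
    push Not at hcon
    have heq : (Finset.univ.filter (fun χ : IrrCharacter G =>
        charDegree (χ : G → ℂ) = 2 ∧ ∀ g : G, ((χ : G → ℂ) g).im = 0))
        = Finset.univ.filter (fun χ : IrrCharacter G =>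
          (charDegree (χ : G → ℂ) = 2 ∧ ∀ g : G, ((χ : G → ℂ) g).im = 0) ∧
            ∃ lam : G →* ℂˣ, Cfsg.Agent.Lib.Helper79.twist lam χ ≠ χ) := by
      ext χ
      simp only [Finset.mem_filter, Finset.mem_univ, true_and]
      constructor
      · intro h
        exact ⟨h, hcon χ h⟩
      · intro h
        exact h.1
    rw [← heq] at hev
    exact (Nat.not_even_iff_odd.2 hodd) hev
  have hzero := Cfsg.Agent.Lib.Helper79.eq_zero_of_twist_fixed χ₀ hχ₀fix
  have hnorm := Cfsg.Agent.Lib.Helper4.classInner_irr χ₀ χ₀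
  rw [if_pos rfl, Cfsg.classInner,
    inv_mul_eq_iff_eq_mul₀ Cfsg.Agent.Lib.Helper4.card_ne_zero_complex, mul_one] at hnorm
  have hsumR : ∑ g : G, ‖(χ₀ : G → ℂ) g‖ ^ 2 = (Nat.card G : ℝ) := by
    have h1 : ((∑ g : G, ‖(χ₀ : G → ℂ) g‖ ^ 2 : ℝ) : ℂ) = ((Nat.card G : ℝ) : ℂ) := by
      push_cast
      rw [← hnorm]
      apply Finset.sum_congr rfl
      intro g _
      rw [Complex.mul_conj']
    exact_mod_cast h1
  have hbound : ∀ g : G, ‖(χ₀ : G → ℂ) g‖ ^ 2 ≤ if g ∈ commutator G then (4 : ℝ) else 0 := by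
    intro g
    by_cases hg : g ∈ commutator G
    · rw [if_pos hg]
      have h1 := Cfsg.Agent.Lib.Helper83.irr_norm_le χ₀.2 g
      rw [hχ₀.1] at h1
      have h2 : (0 : ℝ) ≤ ‖(χ₀ : G → ℂ) g‖ := norm_nonneg _
      push_cast at h1
      nlinarith
    · rw [if_neg hg, hzero g hg]
      simp
  have hle : (Nat.card G : ℝ) ≤ 4 * (Nat.card (commutator G) : ℝ) := by
    rw [← hsumR]
    refine (Finset.sum_le_sum (fun g _ => hbound g)).trans ?_
    rw [Finset.sum_ite, Finset.sum_const, Finset.sum_const, smul_zero, add_zero, nsmul_eq_mul,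
      mul_comm]
    have h1 : Nat.card (commutator G)
        = (Finset.univ.filter (fun g : G => g ∈ commutator G)).card := by
      rw [Nat.card_eq_fintype_card, Fintype.card_subtype]
    rw [h1]
  have hle' : Nat.card G ≤ 4 * Nat.card (commutator G) := by exact_mod_cast hle
  have hidx := (commutator G).card_mul_index
  have hpos : 0 < Nat.card (commutator G) := Nat.card_pos
  have hup : (commutator G).index ≤ 4 := by
    rw [← hidx, mul_comm] at hle'
    exact Nat.le_of_mul_le_mul_right hle' hpos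
  have hlow : 4 ≤ (commutator G).index := by
    rw [← Cfsg.Agent.Lib.Helper83.card_linear', Nat.card_eq_fintype_card, Fintype.card_subtype]
    have h1 : (Finset.univ.filter (fun χ : IrrCharacter G =>
        charDegree (χ : G → ℂ) = 1 ∧ ∀ g : G, ((χ : G → ℂ) g).im = 0)).card
        ≤ (Finset.univ.filter (fun χ : IrrCharacter G => charDegree (χ : G → ℂ) = 1)).card := by
      apply Finset.card_le_card
      intro χ hχ
      rw [Finset.mem_filter] at hχ ⊢
      exact ⟨hχ.1, hχ.2.1⟩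
    rw [hR1card] at h1
    exact (Nat.le_of_dvd (by positivity) h4).trans h1
  omega

end Cfsg.Agent.S4477
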