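import Cfsg.Statements.S4478
import Cfsg.Agent.Lib.Helper79.DefZero
import Cfsg.Agent.Lib.Helper79.FSCount

set_option autoImplicit false
open Cfsg

namespace Cfsg.Agent.S4478

/-- Let G be a finite group of even order and χ an irreducible character of G whose degree x is divisible by the full power of 2 dividing the order of G and, for every odd prime p such that G has an element of order 2p, by the full power of p dividing the order of G. Then all involutions of G are conjugate, the centralizer of every involution has order exactly x with x coprime to its index, and the Frobenius–Schur indicator of χ equals 1. -/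
theorem result {G : Type*} [Group G] [Fintype G] (heven : Even (Nat.card G)) (χ : Cfsg.IrrCharacter G) (h2 : 2 ^ (Nat.card G).factorization 2 ∣ Cfsg.charDegree (χ : G → ℂ)) (hp : ∀ p : ℕ, p.Prime → p ≠ 2 → (∃ g : G, orderOf g = 2 * p) → p ^ (Nat.card G).factorization p ∣ Cfsg.charDegree (χ : G → ℂ)) : (∀ s t : G, orderOf s = 2 → orderOf t = 2 → IsConj s t) ∧ (∀ s : G, orderOf s = 2 → Nat.card (Subgroup.centralizer ({s} : Set G)) = Cfsg.charDegree (χ : G → ℂ) ∧ (Nat.card (Subgroup.centralizer ({s} : Set G))).Coprime (Subgroup.centralizer ({s} : Set G)).index) ∧ (Nat.card G : ℂ)⁻¹ * ∑ g : G, (χ : G → ℂ) (g * g) = 1 := by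
  classical
  haveI hfin : Finite (IrrCharacter G) := Cfsg.Agent.Lib.Helper4.irr_finite (G := G)
  letI : Fintype (IrrCharacter G) := Fintype.ofFinite _
  haveI : Fact (Nat.Prime 2) := ⟨Nat.prime_two⟩
  have hpos := (Cfsg.Agent.Lib.Helper83.irr_degree χ.2).1
  have hχ1 := (Cfsg.Agent.Lib.Helper83.irr_degree χ.2).2
  have hvan2 : ∀ y : G, 2 ∣ orderOf y → (χ : G → ℂ) y = 0 :=
    fun y hy => Cfsg.Agent.Lib.Helper79.irr_eq_zero_of_defect_zero 2 χ h2 y hy
  have hvanp : ∀ q : ℕ, q.Prime → q ≠ 2 → (∃ g : G, orderOf g = 2 * q) →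
      ∀ y : G, q ∣ orderOf y → (χ : G → ℂ) y = 0 := by
    intro q hq hq2 hex y hy
    haveI : Fact q.Prime := ⟨hq⟩
    exact Cfsg.Agent.Lib.Helper79.irr_eq_zero_of_defect_zero q χ (hp q hq hq2 hex) y hy
  have hmk : ∀ (s h : G) (q : ℕ), orderOf s = 2 → Commute s h → q.Prime → q ≠ 2 →
      q ∣ orderOf h → ∃ g : G, orderOf g = 2 * q := by
    intro s h q hs hc hq hq2 hqh
    have h1 : orderOf (h ^ (orderOf h / q)) = q :=
      orderOf_pow_orderOf_div (orderOf_pos h).ne' hqh
    refine ⟨s * h ^ (orderOf h / q), ?_⟩
    rw [(hc.pow_right _).orderOf_mul_eq_mul_orderOf_of_coprime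
      (by rw [hs, h1]; exact (Nat.coprime_primes Nat.prime_two hq).2 (Ne.symm hq2)), hs, h1]
  have hkey : ∀ h : G, h ≠ 1 → (χ : G → ℂ) h ≠ 0 →
      (Finset.univ.filter (fun g : G => g * g = h)).card = 1 := by
    intro h hne hχh
    have hodd : Odd (orderOf h) := by
      rw [← Nat.not_even_iff_odd, even_iff_two_dvd]
      intro h2'
      exact hχh (hvan2 h h2')
    have hnoinv : ∀ s : G, orderOf s = 2 → ¬ Commute s h := by
      intro s hs hc
      have hne1 : orderOf h ≠ 1 := fun h1 => hne (orderOf_eq_one_iff.1 h1)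
      obtain ⟨q, hq, hqh⟩ := Nat.exists_prime_and_dvd hne1
      have hq2 : q ≠ 2 := by
        rintro rfl
        exact (Nat.not_even_iff_odd.2 hodd) (even_iff_two_dvd.2 hqh)
      exact hχh (hvanp q hq hq2 (hmk s h q hs hc hq hq2 hqh) h hqh)
    have hset : Finset.univ.filter (fun g : G => g * g = h) = {h ^ ((orderOf h + 1) / 2)} := by
      ext g
      simp only [Finset.mem_filter, Finset.mem_univ, true_and, Finset.mem_singleton]
      exact Cfsg.Agent.Lib.Helper79.sqrt_unique_of_odd h hodd hnoinv g
    rw [hset, Finset.card_singleton]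
  have hc1 : (Finset.univ.filter (fun g : G => g * g = 1)).card
      = 1 + (Finset.univ.filter (fun g : G => orderOf g = 2)).card := by
    have h1 : Finset.univ.filter (fun h : G => h * h = 1)
        = insert 1 (Finset.univ.filter (fun h : G => orderOf h = 2)) := by
      ext h
      simp only [Finset.mem_filter, Finset.mem_univ, true_and, Finset.mem_insert]
      rw [orderOf_eq_prime_iff, sq]
      constructor
      · intro hh
        by_cases h1 : h = 1
        · left; exact h1
        · right; exact ⟨hh, h1⟩
      · rintro (rfl | ⟨hh, -⟩)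
        · simp
        · exact hh
    rw [h1, Finset.card_insert_of_notMem (by simp), add_comm]
  obtain ⟨s₀, hs₀⟩ := exists_prime_orderOf_dvd_card' (G := G) 2 (even_iff_two_dvd.1 heven)
  have htpos : 0 < (Finset.univ.filter (fun g : G => orderOf g = 2)).card :=
    Finset.card_pos.2 ⟨s₀, Finset.mem_filter.2 ⟨Finset.mem_univ _, hs₀⟩⟩
  have hG2 : 2 ∣ charDegree (χ : G → ℂ) := by
    have h3 : 0 < (Nat.card G).factorization 2 :=
      Nat.Prime.factorization_pos_of_dvd Nat.prime_two Nat.card_pos.ne'
        (even_iff_two_dvd.1 heven)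
    exact (dvd_pow_self 2 h3.ne').trans h2
  have hχne : χ ≠ Cfsg.Agent.Lib.Helper79.oneIrr G := by
    intro h
    rw [h, Cfsg.Agent.Lib.Helper79.charDegree_oneIrr] at hG2
    omega
  have hsum0 : ∑ h : G, (χ : G → ℂ) h = 0 := by
    have h := Cfsg.Agent.Lib.Helper4.classInner_irr χ (Cfsg.Agent.Lib.Helper79.oneIrr G)
    rw [if_neg hχne, Cfsg.classInner] at h
    rcases mul_eq_zero.1 h with h3 | h3
    · exact absurd (inv_eq_zero.1 h3) Cfsg.Agent.Lib.Helper4.card_ne_zero_complex
    · simpa [Cfsg.Agent.Lib.Helper79.oneIrr_apply] using h3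
  have hmain : ∑ g : G, (χ : G → ℂ) (g * g)
      = ((Finset.univ.filter (fun g : G => orderOf g = 2)).card : ℂ) *
          (charDegree (χ : G → ℂ) : ℂ) := by
    have h1 : ∑ g : G, (χ : G → ℂ) (g * g) = ∑ h : G,
        ((Finset.univ.filter (fun g : G => g * g = h)).card : ℂ) * (χ : G → ℂ) h := by
      rw [← Finset.sum_fiberwise Finset.univ (fun g : G => g * g)
        (fun g => (χ : G → ℂ) (g * g))]
      apply Finset.sum_congr rfl
      intro h _
      rw [Finset.sum_congr rfl (g := fun _ => (χ : G → ℂ) h)
        (fun g hg => by rw [(Finset.mem_filter.1 hg).2]), Finset.sum_const, nsmul_eq_mul]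
    rw [h1]
    have h2' : ∀ h : G, ((Finset.univ.filter (fun g : G => g * g = h)).card : ℂ) *
        (χ : G → ℂ) h = (χ : G → ℂ) h +
          (if h = 1 then ((Finset.univ.filter (fun g : G => orderOf g = 2)).card : ℂ) *
            (charDegree (χ : G → ℂ) : ℂ) else 0) := by
      intro h
      by_cases h1' : h = 1
      · subst h1'
        rw [hc1, if_pos rfl, hχ1]
        push_cast
        ring
      · rw [if_neg h1', add_zero]
        by_cases hz : (χ : G → ℂ) h = 0
        · rw [hz, mul_zero]
        · rw [hkey h h1' hz]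
          simp
    simp only [h2']
    rw [Finset.sum_add_distrib, hsum0, zero_add, Finset.sum_ite_eq']
    simp
  have hfs := Cfsg.Agent.Lib.Helper79.fsSign_spec χ
  have hZ : ((Finset.univ.filter (fun g : G => orderOf g = 2)).card : ℤ) *
      (charDegree (χ : G → ℂ) : ℤ) = Cfsg.Agent.Lib.Helper79.fsSign χ * (Nat.card G : ℤ) := by
    have h3 : ((Finset.univ.filter (fun g : G => orderOf g = 2)).card : ℂ) *
        (charDegree (χ : G → ℂ) : ℂ)
        = (Cfsg.Agent.Lib.Helper79.fsSign χ : ℂ) * (Nat.card G : ℂ) := by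
      rw [← hfs, Cfsg.Agent.Lib.Helper79.fsInd, hmain]
      field_simp [Cfsg.Agent.Lib.Helper4.card_ne_zero_complex (G := G)]
    exact_mod_cast h3
  have hGpos : (0 : ℤ) < (Nat.card G : ℤ) := by exact_mod_cast Nat.card_pos
  have hlhs : (0 : ℤ) < ((Finset.univ.filter (fun g : G => orderOf g = 2)).card : ℤ) *
      (charDegree (χ : G → ℂ) : ℤ) := by
    have h4 : (0 : ℤ) < ((Finset.univ.filter (fun g : G => orderOf g = 2)).card : ℤ) := by
      exact_mod_cast htpos
    have h5 : (0 : ℤ) < (charDegree (χ : G → ℂ) : ℤ) := by exact_mod_cast hpos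
    exact mul_pos h4 h5
  have hsign : Cfsg.Agent.Lib.Helper79.fsSign χ = 1 := by
    rcases Cfsg.Agent.Lib.Helper79.fsSign_cases χ with h | h | h
    · rw [h, zero_mul] at hZ
      omega
    · exact h
    · rw [h] at hZ
      omega
  have hcard : (Finset.univ.filter (fun g : G => orderOf g = 2)).card * charDegree (χ : G → ℂ)
      = Nat.card G := by
    rw [hsign, one_mul] at hZ
    exact_mod_cast hZ
  have hfull : ∀ s : G, orderOf s = 2 → ∀ q : ℕ, q.Prime →
      q ∣ Nat.card (Subgroup.centralizer ({s} : Set G)) →
      q ^ (Nat.card G).factorization q ∣ charDegree (χ : G → ℂ) := by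
    intro s hs q hq hqd
    by_cases hq2 : q = 2
    · subst hq2
      exact h2
    · haveI : Fact q.Prime := ⟨hq⟩
      obtain ⟨u, hu⟩ := exists_prime_orderOf_dvd_card' q hqd
      have hu' : orderOf (u : G) = q := by rw [Subgroup.orderOf_coe]; exact hu
      have hcomm : Commute s (u : G) := by
        have h6 := Subgroup.mem_centralizer_iff.1 u.2 s (Set.mem_singleton s)
        exact h6
      exact hp q hq hq2 (hmk s u q hs hcomm hq hq2 (by rw [hu']))
  have hCdvd : ∀ s : G, orderOf s = 2 →
      Nat.card (Subgroup.centralizer ({s} : Set G)) ∣ charDegree (χ : G → ℂ) := by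
    intro s hs
    rw [← Nat.factorization_prime_le_iff_dvd Nat.card_pos.ne' hpos.ne']
    intro q hq
    by_cases hqd : q ∣ Nat.card (Subgroup.centralizer ({s} : Set G))
    · have h7 := (hq.pow_dvd_iff_le_factorization hpos.ne').1 (hfull s hs q hq hqd)
      have h8 : (Nat.card (Subgroup.centralizer ({s} : Set G))).factorization q
          ≤ (Nat.card G).factorization q :=
        (Nat.factorization_le_iff_dvd Nat.card_pos.ne' Nat.card_pos.ne').2
          (Subgroup.card_subgroup_dvd_card _) q
      exact h8.trans h7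
    · rw [Nat.factorization_eq_zero_of_not_dvd hqd]
      exact Nat.zero_le _
  have hstruct : ∀ s : G, orderOf s = 2 →
      Nat.card (Subgroup.centralizer ({s} : Set G)) = charDegree (χ : G → ℂ) ∧
      Finset.univ.filter (fun x : G => IsConj x s)
        = Finset.univ.filter (fun g : G => orderOf g = 2) := by
    intro s hs
    have hsub : Finset.univ.filter (fun x : G => IsConj x s)
        ⊆ Finset.univ.filter (fun g : G => orderOf g = 2) := by
      intro x hx
      rw [Finset.mem_filter] at hx ⊢
      refine ⟨Finset.mem_univ _, ?_⟩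
      obtain ⟨c, hc⟩ := isConj_iff.1 hx.2
      rw [← hs, ← hc]
      have := (MulAut.conj c).orderOf_eq x
      simpa using this.symm
    have hle := Finset.card_le_card hsub
    rw [Cfsg.Agent.Lib.Helper4.card_conj_class s] at hle
    have hmul := Subgroup.index_mul_card (Subgroup.centralizer ({s} : Set G))
    have hCle := Nat.le_of_dvd hpos (hCdvd s hs)
    have hCpos : 0 < Nat.card (Subgroup.centralizer ({s} : Set G)) := Nat.card_pos
    have hidxpos : 0 < (Subgroup.centralizer ({s} : Set G)).index :=
      Nat.pos_of_ne_zero Subgroup.index_ne_zero_of_finite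
    have hCeq : Nat.card (Subgroup.centralizer ({s} : Set G)) = charDegree (χ : G → ℂ) := by
      by_contra hne
      have hlt : Nat.card (Subgroup.centralizer ({s} : Set G)) < charDegree (χ : G → ℂ) :=
        lt_of_le_of_ne hCle hne
      have h9 : (Subgroup.centralizer ({s} : Set G)).index *
          Nat.card (Subgroup.centralizer ({s} : Set G))
          < (Finset.univ.filter (fun g : G => orderOf g = 2)).card *
            charDegree (χ : G → ℂ) :=
        calc (Subgroup.centralizer ({s} : Set G)).index *
              Nat.card (Subgroup.centralizer ({s} : Set G))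
            < (Subgroup.centralizer ({s} : Set G)).index * charDegree (χ : G → ℂ) :=
              Nat.mul_lt_mul_of_pos_left hlt hidxpos
          _ ≤ (Finset.univ.filter (fun g : G => orderOf g = 2)).card *
              charDegree (χ : G → ℂ) := Nat.mul_le_mul_right _ hle
      rw [hmul, hcard] at h9
      exact lt_irrefl _ h9
    refine ⟨hCeq, ?_⟩
    apply Finset.eq_of_subset_of_card_le hsub
    rw [Cfsg.Agent.Lib.Helper4.card_conj_class s]
    have h10 : (Subgroup.centralizer ({s} : Set G)).index * charDegree (χ : G → ℂ)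
        = (Finset.univ.filter (fun g : G => orderOf g = 2)).card * charDegree (χ : G → ℂ) := by
      rw [← hCeq, hmul, hCeq, hcard]
    exact (Nat.eq_of_mul_eq_mul_right hpos h10).ge
  refine ⟨?_, ?_, ?_⟩
  · intro s t hs ht
    have h11 : s ∈ Finset.univ.filter (fun x : G => IsConj x t) := by
      rw [(hstruct t ht).2]
      exact Finset.mem_filter.2 ⟨Finset.mem_univ _, hs⟩
    exact (Finset.mem_filter.1 h11).2
  · intro s hs
    refine ⟨(hstruct s hs).1, ?_⟩
    apply Nat.coprime_of_dvd
    intro q hq hqC hqI
    have h12 := (hq.pow_dvd_iff_le_factorization hpos.ne').1 (hfull s hs q hq hqC)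
    rw [← (hstruct s hs).1] at h12
    have hmul := Subgroup.index_mul_card (Subgroup.centralizer ({s} : Set G))
    have h13 : (Nat.card G).factorization q
        = (Subgroup.centralizer ({s} : Set G)).index.factorization q +
          (Nat.card (Subgroup.centralizer ({s} : Set G))).factorization q := by
      rw [← hmul, Nat.factorization_mul Subgroup.index_ne_zero_of_finite Nat.card_pos.ne']
      rfl
    have h14 : 0 < (Subgroup.centralizer ({s} : Set G)).index.factorization q :=
      Nat.Prime.factorization_pos_of_dvd hq Subgroup.index_ne_zero_of_finite hqI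
    omega
  · have h15 : Cfsg.Agent.Lib.Helper79.fsInd (χ : G → ℂ) = 1 := by
      rw [hfs, hsign]
      simp
    exact h15

end Cfsg.Agent.S4478
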