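import Cfsg.Statements.S4482
import Mathlib
import Cfsg.Agent.Lib.Helper5.DihK
import Cfsg.Agent.Lib.Helper1.DihMu
import Cfsg.Agent.Lib.Helper1.DihPsi

set_option autoImplicit false
open Cfsg

namespace Cfsg.Agent.S4482

/-- An order formula for groups with dihedral Sylow 2-subgroups and one class of involutions. Let G be a finite group whose Sylow 2-subgroup P = ⟨σ, τ⟩ is dihedral of order 2^n ≥ 8 (σ of order 2^(n−1), τ an involution inverting σ), let J be the central involution σ^(2^(n−2)), and suppose J, τ and στ are conjugate in G. Fix M over 2 and let χ₁ be an irreducible character in the principal 2-block taking one constant value δ₁ = ±1 at every non-identity power of σ, with χ₁ ≠ 1. Then, with x₁ = χ₁(1) and c(·) denoting orders of centralizers, x₁ ≠ δ₁ and #G · (x₁ − δ₁)² = 2·x₁(x₁ + δ₁)·c(J)³·(1/c(J, τ) + 1/c(J, στ))², where c(J, y) is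 the order of the joint centralizer of J and y. -/
theorem result {G : Type*} [Group G] [Finite G] (M : Ideal Cfsg.AlgInt) (hM : Cfsg.IsPModular 2 M) (n : ℕ) (hn : 3 ≤ n) (P : Sylow 2 G) (σ τ : G) (hσ : σ ∈ (P : Subgroup G)) (hτ : τ ∈ (P : Subgroup G)) (hσo : orderOf σ = 2 ^ (n - 1)) (hτo : orderOf τ = 2) (hrel : τ * σ * τ⁻¹ = σ⁻¹) (hgen : Subgroup.closure ({σ, τ} : Set G) = (P : Subgroup G)) (hconj : IsConj (σ ^ (2 ^ (n - 2))) τ ∧ IsConj (σ ^ (2 ^ (n - 2))) (σ * τ)) (χ₁ : Cfsg.IrrCharacter G) (hχ₁ : χ₁ ∈ Cfsg.principalBlock M G) (h1 : (χ₁ : G → ℂ) ≠ (fun _ => 1)) (δ₁ : ℤ) (hδ₁ : δ₁ = 1 ∨ δ₁ = -1) (hval : ∀ l : ℕ, 0 < l → l < 2 ^ (n - 1) → (χ₁ : G → ℂ) (σ ^ l) = δ₁) : (Cfsg.charDegree (χ₁ : G → ℂ) : ℤ) ≠ δ₁ ∧ (Nat.card G : ℚ) * ((Cfsg.charDegree (χ₁ : G → ℂ) : ℚ) - δ₁) ^ 2 = 2 * (Cfsg.charDegree (χ₁ : G → ℂ) : ℚ) * ((Cfsg.charDegree (χ₁ : G → ℂ)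 : ℚ) + δ₁) * (Nat.card (Subgroup.centralizer ({σ ^ (2 ^ (n - 2))} : Set G)) : ℚ) ^ 3 * (1 / (Nat.card (Subgroup.centralizer ({σ ^ (2 ^ (n - 2)), τ} : Set G)) : ℚ) + 1 / (Nat.card (Subgroup.centralizer ({σ ^ (2 ^ (n - 2)), σ * τ} : Set G)) : ℚ)) ^ 2 := by
  classical
  have := Fintype.ofFinite G
  have hm3 : 3 ≤ 2 ^ (n - 1) := by
    obtain ⟨n', rfl⟩ : ∃ n', n = n' + 3 := ⟨n - 3, by omega⟩
    have e1 : n' + 3 - 1 = n' + 2 := by omega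
    rw [e1, pow_add]
    have : 1 ≤ 2 ^ n' := Nat.one_le_two_pow
    omega
  have hP : Nonempty (↥(P : Subgroup G) ≃* DihedralGroup (2 ^ (n - 1))) :=
    Cfsg.Agent.Lib.Helper1.dih_iso_gens _ hm3 (P : Subgroup G) σ τ hσo hτo hrel hgen
  obtain ⟨ζ, hζ⟩ : ∃ ζ : ℂ, IsPrimitiveRoot ζ (2 ^ (n - 1)) :=
    ⟨_, Complex.isPrimitiveRoot_exp _ (by positivity)⟩
  obtain ⟨ψ, hψB, hψval, hψodd⟩ := Cfsg.Agent.Lib.Helper1.dih_psi M hM n hn P hP σ hσ hσo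
    ζ hζ χ₁ hχ₁ h1 δ₁ hδ₁ hval
  have hall := Cfsg.Agent.Lib.Helper1.dih_invol_conj n hn P σ τ hσo hτo hrel hgen hconj
  have hJo : orderOf (σ ^ (2 ^ (n - 2))) = 2 := Cfsg.Agent.Lib.Helper1.dih_J_order n hn σ hσo
  have hI := Cfsg.Agent.Lib.Helper1.dih_card_invol _ hall hJo
  have hμ := Cfsg.Agent.Lib.Helper1.dih_mu n hn P σ τ hσ hτ hσo hτo hrel hgen
  refine Cfsg.Agent.Lib.Helper5.dh_order_formula M hM n hn P σ τ hσ hσo hτo hrel hgen χ₁ hχ₁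
    δ₁ hδ₁ hval ζ hζ ψ hψB hψval hψodd hall hI (fun χ => ?_) hμ
  convert Cfsg.Agent.Lib.Helper1.dih_double_sum _ hall χ

end Cfsg.Agent.S4482
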