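import Cfsg.Statements.S4483
import Cfsg.Agent.Lib.Helper79.PReg
import Cfsg.Agent.Lib.Helper79.Blk6
import Cfsg.Agent.Lib.Helper4.CharSimple

set_option autoImplicit false
open Cfsg

namespace Cfsg.Agent.S4483


open Cfsg.Agent.Lib.Helper4 Cfsg.Agent.Lib.Helper21 Cfsg.Agent.Lib.Helper22
  Cfsg.Agent.Lib.Helper79
open scoped ComplexConjugate

section Aux

variable {G : Type*} [Group G] [Fintype G]

/-- Parseval's identity for class functions. -/
theorem parseval [Fintype (IrrCharacter G)] (θ : G → ℂ) (hθ : IsClassFunction G θ) :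
    ∑ χ : IrrCharacter G, classInner θ (χ : G → ℂ) * conj (classInner θ (χ : G → ℂ))
      = classInner θ θ := by
  have h := classFunction_expansion θ hθ
  have h1 : classInner θ θ
      = classInner (∑ χ : IrrCharacter G, classInner θ (χ : G → ℂ) • (χ : G → ℂ)) θ := by
    rw [← h]
  rw [h1, Cfsg.Agent.Lib.Helper35.classInner_sum_left]
  apply Finset.sum_congr rfl
  intro χ _
  rw [Cfsg.Agent.Lib.Helper35.classInner_smul_left, classInner_conj_symm (χ : G → ℂ) θ]

/-- A real-valued irreducible character of odd degree is not orthogonal to the indicator of the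
elements of odd order. -/
theorem inner_pReg_ne_zero {M : Ideal AlgInt} (hM : IsPModular 2 M) (χ : IrrCharacter G)
    (hreal : ∀ g : G, ((χ : G → ℂ) g).im = 0) (hodd : Odd (charDegree (χ : G → ℂ))) :
    classInner (pRegInd 2 G) (χ : G → ℂ) ≠ 0 := by
  classical
  intro h0
  unfold classInner at h0
  have hG : (Nat.card G : ℂ) ≠ 0 := card_ne_zero_complex
  have hsum : ∑ g : G, pRegInd 2 G g * conj ((χ : G → ℂ) g) = 0 := by
    rcases mul_eq_zero.1 h0 with h | h
    · exact absurd (inv_eq_zero.1 h) hG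
    · exact h
  have hconj : ∀ g : G, conj ((χ : G → ℂ) g) = (χ : G → ℂ) g :=
    fun g => Complex.conj_eq_iff_im.2 (hreal g)
  have hsum2 : ∑ g ∈ Finset.univ.filter (fun g : G => ¬ 2 ∣ orderOf g), (χ : G → ℂ) g = 0 := by
    have h5 : ∑ g ∈ Finset.univ.filter (fun g : G => ¬ 2 ∣ orderOf g), (χ : G → ℂ) g
        = ∑ g : G, pRegInd 2 G g * conj ((χ : G → ℂ) g) := by
      rw [Finset.sum_filter]
      apply Finset.sum_congr rfl
      intro g _
      unfold pRegInd
      rw [hconj]
      split_ifs <;> simp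
    rw [h5, hsum]
  have h1mem : (1 : G) ∈ Finset.univ.filter (fun g : G => ¬ 2 ∣ orderOf g) := by
    simp
  rw [← Finset.add_sum_erase _ _ h1mem] at hsum2
  have hmem : MemLocalIdeal M
      (∑ g ∈ (Finset.univ.filter (fun g : G => ¬ 2 ∣ orderOf g)).erase 1, (χ : G → ℂ) g) := by
    rw [← mem_locIdealAddSubgroup hM]
    apply sum_mem_of_involution (locIdealAddSubgroup hM) _ _ (fun g : G => g⁻¹)
    · intro g hg
      rw [Finset.mem_erase, Finset.mem_filter] at hg ⊢
      refine ⟨inv_ne_one.2 hg.1, Finset.mem_univ _, ?_⟩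
      rw [orderOf_inv]
      exact hg.2.2
    · intro g _
      exact inv_inv g
    · intro g _
      rw [mem_locIdealAddSubgroup, irr_inv, hconj]
      have h2 : (χ : G → ℂ) g + (χ : G → ℂ) g = ((2 : ℕ) : ℂ) * (χ : G → ℂ) g := by
        push_cast
        ring
      rw [h2]
      exact locIdeal_mul_right hM ((locIdeal_natCast_iff hM 2).2 dvd_rfl)
        (locRing_of_isIntegral hM (irr_isIntegral χ g))
    · intro g hg hfix
      exfalso
      rw [Finset.mem_erase, Finset.mem_filter] at hg
      have hsq : g ^ 2 = 1 := by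
        have h3 : g * g = g⁻¹ * g := by rw [hfix]
        rw [pow_two, h3, inv_mul_cancel]
      have hdvd : orderOf g ∣ 2 := orderOf_dvd_of_pow_eq_one hsq
      rcases (Nat.dvd_prime Nat.prime_two).1 hdvd with h | h
      · exact hg.1 (orderOf_eq_one_iff.1 h)
      · exact hg.2.2 (by rw [h])
  have hdeg := (Cfsg.Agent.Lib.Helper83.irr_degree χ.2).2
  have h1 : (χ : G → ℂ) 1
      = - ∑ g ∈ (Finset.univ.filter (fun g : G => ¬ 2 ∣ orderOf g)).erase 1, (χ : G → ℂ) g :=
    eq_neg_of_add_eq_zero_left hsum2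
  have h2 : MemLocalIdeal M ((charDegree (χ : G → ℂ) : ℕ) : ℂ) := by
    rw [← hdeg, h1]
    exact locIdeal_neg hmem
  have h3 := (locIdeal_natCast_iff hM _).1 h2
  exact (Nat.not_even_iff_odd.2 hodd) (even_iff_two_dvd.2 h3)

/-- A real-valued irreducible character of odd degree lies in the principal `2`-block. -/
theorem first_half {M : Ideal AlgInt} (hM : IsPModular 2 M) (χ : IrrCharacter G)
    (hreal : ∀ g : G, ((χ : G → ℂ) g).im = 0) (hodd : Odd (charDegree (χ : G → ℂ))) :
    χ ∈ principalBlock M G := by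
  have hB : IsPBlock M (blockOf M (χ : G → ℂ)) := isPBlock_blockOf χ
  have hχB : χ ∈ blockOf M (χ : G → ℂ) := mem_blockOf_self hM χ
  have hdef : blockDefect 2 (blockOf M (χ : G → ℂ)) = (Nat.card G).factorization 2 := by
    unfold blockDefect
    have h0 : (charDegree (χ : G → ℂ)).factorization 2 = 0 := by
      apply Nat.factorization_eq_zero_of_not_dvd
      rw [← even_iff_two_dvd, Nat.not_even_iff_odd]
      exact hodd
    have h1 : sInf ((fun χ : IrrCharacter G => (charDegree (χ : G → ℂ)).factorization 2) ''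
        blockOf M (χ : G → ℂ)) ≤ (charDegree (χ : G → ℂ)).factorization 2 :=
      Nat.sInf_le ⟨χ, hχB, rfl⟩
    omega
  have hconjχ : irrConj χ = χ := (irrConj_eq_self_iff χ).2 hreal
  have hfwd : ∀ ψ : IrrCharacter G, ψ ∈ blockOf M (χ : G → ℂ) →
      irrConj ψ ∈ blockOf M (χ : G → ℂ) := by
    intro ψ hψ
    show SameBlock M (χ : G → ℂ) (irrConj ψ : G → ℂ)
    intro g
    have h1 : MemLocalIdeal M (centralChar (χ : G → ℂ) g⁻¹ - centralChar (ψ : G → ℂ) g⁻¹) :=
      hψ g⁻¹
    rw [centralChar_inv, centralChar_inv, hconjχ] at h1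
    exact h1
  have hreal' : ∀ ψ : IrrCharacter G,
      irrConj ψ ∈ blockOf M (χ : G → ℂ) ↔ ψ ∈ blockOf M (χ : G → ℂ) := by
    intro ψ
    constructor
    · intro h
      have h2 := hfwd _ h
      rwa [irrConj_irrConj] at h2
    · exact hfwd ψ
  have hτ := real_two_block_full_defect hM _ hB hdef hreal'
  have h2 : SameBlock M ((Cfsg.Agent.Lib.Helper83.trivIrr G : IrrCharacter G) : G → ℂ)
      (χ : G → ℂ) := sameBlock_symm' hM hτ
  have h3 : ((Cfsg.Agent.Lib.Helper83.trivIrr G : IrrCharacter G) : G → ℂ) = fun _ => 1 := by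
    funext g
    exact Cfsg.Agent.Lib.Helper83.trivIrr_apply g
  rw [h3] at h2
  exact h2

end Aux

/-- Let G be a finite group of order 2^n·g₀ with g₀ odd, and M a maximal ideal of the algebraic integers containing 2. Every real-valued irreducible character of G of odd degree lies in the principal 2-block; consequently G has at most 2^(2n) real-valued irreducible characters of odd degree. -/
theorem result {G : Type*} [Group G] [Finite G] (M : Ideal Cfsg.AlgInt) (hM : Cfsg.IsPModular 2 M) : (∀ χ : Cfsg.IrrCharacter G, (∀ g : G, ((χ : G → ℂ) g).im = 0) → Odd (Cfsg.charDegree (χ : G → ℂ)) → χ ∈ Cfsg.principalBlock M G) ∧ Nat.card {χ : Cfsg.IrrCharacter G // (∀ g : G, ((χ : G → ℂ) g).im = 0) ∧ Odd (Cfsg.charDegree (χ : G → ℂ))} ≤ 2 ^ (2 * (Nat.card G).factorization 2) := by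
  classical
  letI := Fintype.ofFinite G
  haveI : Fact (Nat.Prime 2) := ⟨Nat.prime_two⟩
  haveI := irr_finite (G := G)
  letI : Fintype (IrrCharacter G) := Fintype.ofFinite _
  constructor
  · intro χ hreal hodd
    exact first_half hM χ hreal hodd
  · have hint : ∀ χ : IrrCharacter G, ∃ k : ℤ,
        (((2 : ℕ) : ℂ) ^ (Nat.card G).factorization 2) * classInner (pRegInd 2 G) (χ : G → ℂ)
          = k :=
      fun χ => pReg_inner_int 2 (χ : G → ℂ) (Cfsg.Agent.Lib.Helper35.isChar_of_irr χ.2)
    choose k hk using hint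
    have h2n : (((2 : ℕ) : ℂ) ^ (Nat.card G).factorization 2) ≠ 0 := by
      apply pow_ne_zero
      norm_num
    have hpars := parseval (pRegInd 2 G) (pRegInd_isClassFunction 2)
    have hsumk : ((∑ χ : IrrCharacter G, (k χ) ^ 2 : ℤ) : ℂ)
        = (((2 : ℕ) : ℂ) ^ (Nat.card G).factorization 2) ^ 2
          * classInner (pRegInd 2 G) (pRegInd 2 G) := by
      rw [← hpars, Finset.mul_sum]
      push_cast
      apply Finset.sum_congr rfl
      intro χ _
      have hc : classInner (pRegInd 2 G) (χ : G → ℂ)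
          = (k χ : ℂ) / (((2 : ℕ) : ℂ) ^ (Nat.card G).factorization 2) := by
        rw [← hk χ]
        field_simp
      have hcc : conj (classInner (pRegInd 2 G) (χ : G → ℂ))
          = classInner (pRegInd 2 G) (χ : G → ℂ) := by
        rw [hc, map_div₀, map_pow, map_natCast, map_intCast]
      rw [hcc, ← hk χ]
      push_cast
      ring
    have hθθ : classInner (pRegInd 2 G) (pRegInd 2 G) = (Nat.card G : ℂ)⁻¹ *
        ((Finset.univ.filter (fun g : G => ¬ 2 ∣ orderOf g)).card : ℂ) := by
      unfold classInner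
      congr 1
      rw [Finset.card_eq_sum_ones, Finset.sum_filter]
      push_cast
      apply Finset.sum_congr rfl
      intro g _
      unfold pRegInd
      split_ifs <;> simp
    have hGc : (Nat.card G : ℂ) ≠ 0 := card_ne_zero_complex
    have hle : (∑ χ : IrrCharacter G, (k χ) ^ 2 : ℤ) ≤ 2 ^ (2 * (Nat.card G).factorization 2) := by
      have h1 : ((∑ χ : IrrCharacter G, (k χ) ^ 2 : ℤ) : ℂ) * (Nat.card G : ℂ)
          = (((2 : ℤ) ^ (2 * (Nat.card G).factorization 2)
            * ((Finset.univ.filter (fun g : G => ¬ 2 ∣ orderOf g)).card : ℤ) : ℤ) : ℂ) := by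
        rw [hsumk, hθθ]
        push_cast
        field_simp
        ring
      have h2 : (∑ χ : IrrCharacter G, (k χ) ^ 2 : ℤ) * (Nat.card G : ℤ)
          = (2 : ℤ) ^ (2 * (Nat.card G).factorization 2)
            * ((Finset.univ.filter (fun g : G => ¬ 2 ∣ orderOf g)).card : ℤ) := by
        exact_mod_cast h1
      have h3 : ((Finset.univ.filter (fun g : G => ¬ 2 ∣ orderOf g)).card : ℤ) ≤ Nat.card G := by
        rw [Nat.card_eq_fintype_card]
        exact_mod_cast Finset.card_le_univ _
      have hGpos : (0 : ℤ) < Nat.card G := by exact_mod_cast Nat.card_pos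
      by_contra hcon
      push_neg at hcon
      have h4 := mul_lt_mul_of_pos_right hcon hGpos
      have h5 : (2 : ℤ) ^ (2 * (Nat.card G).factorization 2)
            * ((Finset.univ.filter (fun g : G => ¬ 2 ∣ orderOf g)).card : ℤ)
          ≤ (2 : ℤ) ^ (2 * (Nat.card G).factorization 2) * (Nat.card G : ℤ) :=
        mul_le_mul_of_nonneg_left h3 (by positivity)
      linarith
    have hsub : Finset.univ.filter (fun χ : IrrCharacter G =>
          (∀ g : G, ((χ : G → ℂ) g).im = 0) ∧ Odd (Cfsg.charDegree (χ : G → ℂ)))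
        ⊆ Finset.univ.filter (fun χ : IrrCharacter G => k χ ≠ 0) := by
      intro χ hχ
      rw [Finset.mem_filter] at hχ ⊢
      refine ⟨Finset.mem_univ _, fun hk0 => ?_⟩
      have h1 := hk χ
      rw [hk0] at h1
      have h2 := inner_pReg_ne_zero hM χ hχ.2.1 hχ.2.2
      rw [Int.cast_zero] at h1
      rcases mul_eq_zero.1 h1 with h | h
      · exact h2n h
      · exact h2 h
    have h4 : ((Finset.univ.filter (fun χ : IrrCharacter G => k χ ≠ 0)).card : ℤ)
        ≤ ∑ χ : IrrCharacter G, (k χ) ^ 2 := by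
      rw [Finset.card_eq_sum_ones]
      push_cast
      calc ∑ χ ∈ Finset.univ.filter (fun χ : IrrCharacter G => k χ ≠ 0), (1 : ℤ)
          ≤ ∑ χ ∈ Finset.univ.filter (fun χ : IrrCharacter G => k χ ≠ 0), (k χ) ^ 2 := by
            apply Finset.sum_le_sum
            intro χ hχ
            have hne := (Finset.mem_filter.1 hχ).2
            have h5 : 1 ≤ |k χ| := Int.one_le_abs hne
            have h6 : (k χ) ^ 2 = |k χ| ^ 2 := (sq_abs _).symm
            rw [h6]
            nlinarith [abs_nonneg (k χ)]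
        _ ≤ ∑ χ : IrrCharacter G, (k χ) ^ 2 :=
            Finset.sum_le_sum_of_subset_of_nonneg (Finset.filter_subset _ _)
              (fun _ _ _ => sq_nonneg _)
    rw [Nat.card_eq_fintype_card, Fintype.card_subtype]
    have h7 : ((Finset.univ.filter (fun χ : IrrCharacter G =>
          (∀ g : G, ((χ : G → ℂ) g).im = 0) ∧ Odd (Cfsg.charDegree (χ : G → ℂ)))).card : ℤ)
        ≤ 2 ^ (2 * (Nat.card G).factorization 2) :=
      (Int.ofNat_le.2 (Finset.card_le_card hsub)).trans (h4.trans hle)
    exact_mod_cast h7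

end Cfsg.Agent.S4483
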