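import Cfsg.Statements.S4488
import Mathlib
import Cfsg.Agent.Lib.Helper80.EV
import Cfsg.Agent.Lib.Helper5.CharInt
import Cfsg.Agent.Lib.Helper4.BrSpan
import Cfsg.Agent.Lib.Helper4.CharDecomp
import Cfsg.Agent.Lib.Helper4.CharSimple
-- import your own Cfsg.Agent.* helpers here

set_option autoImplicit false
open Cfsg

namespace Cfsg.Agent.S4488

open Finset Polynomial

theorem galois_inv_aux {G : Type*} [Group G] {V : Type*} [AddCommGroup V] [Module ℂ V]
    [FiniteDimensional ℂ V] (ρ : Representation ℂ G V) (p : ℕ) (hp : p.Prime) (r : ℕ) (hr : 0 < r)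
    (hpr : ¬ p ∣ r) (x : G)
    (hrat : ρ.character x ∈
      IntermediateField.adjoin ℚ ({Complex.exp (2 * Real.pi * Complex.I / r)} : Set ℂ))
    (c : ℕ) (hx : x ^ (p ^ c) = 1) (u : ℕ) (hu : ¬ p ∣ u)
    (K : Type) [Field K] [Algebra ℚ K] [NeZero (r * p ^ c)]
    [IsCyclotomicExtension {r * p ^ c} ℚ K] :
    ρ.character (x ^ u) = ρ.character x := by
  set q := p ^ c with hq
  have hq0 : 0 < q := pow_pos hp.pos c
  set N := r * q with hNdef
  have hN : 0 < N := Nat.mul_pos hr hq0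
  let z : K := IsCyclotomicExtension.zeta N ℚ K
  have hz : IsPrimitiveRoot z N := IsCyclotomicExtension.zeta_spec N ℚ K
  haveI : FiniteDimensional ℚ K := IsCyclotomicExtension.finiteDimensional {N} ℚ K
  let φ : K →ₐ[ℚ] ℂ := IsAlgClosed.lift
  have hφ : Function.Injective φ := φ.injective
  have hω : IsPrimitiveRoot (φ z) N := hz.map_of_injective hφ
  have hωr : IsPrimitiveRoot (φ z ^ r) q := hω.pow hN hNdef
  have hωq : IsPrimitiveRoot (φ z ^ q) r := hω.pow hN (by rw [hNdef, mul_comm])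
  obtain ⟨m, hm⟩ := Cfsg.Agent.Lib.Helper80.character_pow_eq ρ x q hq0 hx (φ z ^ r) hωr
  have hK : ∀ k : ℕ, ρ.character (x ^ k) =
      φ (∑ j ∈ range q, (m j : K) * ((z ^ r) ^ j) ^ k) := by
    intro k
    rw [hm k, map_sum]
    refine Finset.sum_congr rfl fun j _ => ?_
    simp only [map_mul, map_natCast, map_pow]
  have hco : Nat.Coprime r q :=
    Nat.Coprime.pow_right c ((Nat.Prime.coprime_iff_not_dvd hp).mpr hpr).symm
  obtain ⟨v, hv1, hvu⟩ := Nat.chineseRemainder hco 1 u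
  have hvr : Nat.Coprime v r := by
    have := hv1.gcd_eq
    rw [Nat.Coprime, this]; simp
  have hvq : Nat.Coprime v q := by
    have h1 := hvu.gcd_eq
    have h2 : Nat.Coprime u q :=
      Nat.Coprime.pow_right c ((Nat.Prime.coprime_iff_not_dvd hp).mpr hu).symm
    rw [Nat.Coprime, h1]; exact h2
  have hvN : Nat.Coprime v N := Nat.Coprime.mul_right hvr hvq
  have hzv : IsPrimitiveRoot (z ^ v) N := hz.pow_of_coprime v hvN
  let σ : K ≃ₐ[ℚ] K :=
    IsCyclotomicExtension.fromZetaAut hzv (Polynomial.cyclotomic.irreducible_rat hN)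
  have hσ : σ z = z ^ v :=
    IsCyclotomicExtension.fromZetaAut_spec hzv (Polynomial.cyclotomic.irreducible_rat hN)
  have hσq : σ (z ^ q) = z ^ q := by
    rw [map_pow, hσ, ← pow_mul, mul_comm, pow_mul]
    have h1 : (z ^ q) ^ r = 1 := by rw [← pow_mul, mul_comm, ← hNdef]; exact hz.pow_eq_one
    have h2 : (z ^ q) ^ v = (z ^ q) ^ 1 := by
      rw [pow_eq_pow_mod v h1, pow_eq_pow_mod 1 h1]
      congr 1
    rw [h2, pow_one]
  have he : IsPrimitiveRoot (Complex.exp (2 * Real.pi * Complex.I / r)) r :=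
    Complex.isPrimitiveRoot_exp r hr.ne'
  haveI : NeZero r := ⟨hr.ne'⟩
  obtain ⟨i, _, hi⟩ := hωq.eq_pow_of_pow_eq_one he.pow_eq_one
  have hint : IsIntegral ℚ (Complex.exp (2 * Real.pi * Complex.I / r)) :=
    (he.isIntegral hr).tower_top
  rw [← IntermediateField.mem_toSubalgebra,
    IntermediateField.adjoin_simple_toSubalgebra_of_isAlgebraic hint.isAlgebraic,
    Algebra.adjoin_singleton_eq_range_aeval] at hrat
  obtain ⟨Q, hQ'⟩ := hrat
  have hQ : aeval (Complex.exp (2 * Real.pi * Complex.I / r)) Q = ρ.character x := hQ'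
  set w : K := aeval ((z ^ q) ^ i) Q with hw
  have hφw : φ w = ρ.character x := by
    rw [← hQ, hw, ← Polynomial.aeval_algHom_apply, map_pow, map_pow, hi]
  have hσw : σ w = w := by
    have h := Polynomial.aeval_algHom_apply (σ : K →ₐ[ℚ] K) ((z ^ q) ^ i) Q
    have h2 : (σ : K →ₐ[ℚ] K) ((z ^ q) ^ i) = (z ^ q) ^ i := by
      show σ ((z ^ q) ^ i) = (z ^ q) ^ i
      rw [map_pow, hσq]
    rw [h2] at h
    exact h.symm
  have h1 : ρ.character x = φ (∑ j ∈ range q, (m j : K) * ((z ^ r) ^ j) ^ 1) := by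
    have := hK 1; rwa [pow_one] at this
  have hww : w = ∑ j ∈ range q, (m j : K) * ((z ^ r) ^ j) ^ 1 := hφ (hφw.trans h1)
  have hσw' : σ (∑ j ∈ range q, (m j : K) * ((z ^ r) ^ j) ^ 1) =
      ∑ j ∈ range q, (m j : K) * ((z ^ r) ^ j) ^ v := by
    rw [map_sum]
    refine Finset.sum_congr rfl fun j _ => ?_
    rw [map_mul, map_natCast, map_pow, map_pow, map_pow, hσ]
    congr 1
    rw [pow_one]; ring
  have h2 : ρ.character (x ^ v) = ρ.character x := by
    rw [hK v, ← hσw', ← hww, hσw, hφw]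
  have h3 : x ^ v = x ^ u :=
    pow_eq_pow_iff_modEq.mpr (Nat.ModEq.of_dvd (orderOf_dvd_of_pow_eq_one hx) hvu)
  rw [← h3, h2]

theorem galois_inv {G : Type*} [Group G] {V : Type*} [AddCommGroup V] [Module ℂ V]
    [FiniteDimensional ℂ V] (ρ : Representation ℂ G V) (p : ℕ) (hp : p.Prime) (r : ℕ) (hr : 0 < r)
    (hpr : ¬ p ∣ r) (x : G)
    (hrat : ρ.character x ∈
      IntermediateField.adjoin ℚ ({Complex.exp (2 * Real.pi * Complex.I / r)} : Set ℂ))
    (c : ℕ) (hx : x ^ (p ^ c) = 1) (u : ℕ) (hu : ¬ p ∣ u) :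
    ρ.character (x ^ u) = ρ.character x := by
  haveI : NeZero (r * p ^ c) := ⟨(Nat.mul_pos hr (pow_pos hp.pos c)).ne'⟩
  haveI : NeZero ((r * p ^ c : ℕ) : ℚ) :=
    ⟨by exact_mod_cast (Nat.mul_pos hr (pow_pos hp.pos c)).ne'⟩
  haveI : IsCyclotomicExtension {r * p ^ c} ℚ (CyclotomicField (r * p ^ c) ℚ) :=
    CyclotomicField.isCyclotomicExtension (r * p ^ c) ℚ
  exact galois_inv_aux ρ p hp r hr hpr x hrat c hx u hu (CyclotomicField (r * p ^ c) ℚ)

theorem geom_root_sum (y : ℂ) (q : ℕ) (hy : y ^ q = 1) :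
    ∑ k ∈ range q, y ^ k = if y = 1 then (q : ℂ) else 0 := by
  split_ifs with h
  · subst h; simp
  · rw [geom_sum_eq h, hy, sub_self, zero_div]

theorem sum_range_mul_blocks (f : ℕ → ℂ) (p t : ℕ) :
    ∑ k ∈ range (t * p), f k = ∑ k' ∈ range t, ∑ i ∈ range p, f (k' * p + i) := by
  induction t with
  | zero => simp
  | succ t ih =>
    rw [Nat.succ_mul, Finset.sum_range_add, ih, Finset.sum_range_succ]

theorem block_sum (f : ℕ → ℂ) (c : ℂ) (p : ℕ) (hp : 0 < p)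
    (h : ∀ i, 0 < i → i < p → f i = c) :
    ∑ i ∈ range p, f i = f 0 + ((p - 1 : ℕ) : ℂ) * c := by
  obtain ⟨p', rfl⟩ : ∃ p', p = p' + 1 := ⟨p - 1, (Nat.sub_add_cancel hp).symm⟩
  rw [Finset.sum_range_succ', add_comm]
  congr 1
  rw [Finset.sum_congr rfl (fun i hi => h (i + 1) (Nat.succ_pos i)
    (Nat.succ_lt_succ (Finset.mem_range.mp hi)))]
  simp

theorem pvalue {G : Type*} [Group G] [Finite G] {V : Type*} [AddCommGroup V] [Module ℂ V]
    [FiniteDimensional ℂ V] (ρ : Representation ℂ G V) (p : ℕ) (hp : p.Prime) (r : ℕ) (hr : 0 < r)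
    (hpr : ¬ p ∣ r)
    (hrat : ∀ g : G, ρ.character g ∈
      IntermediateField.adjoin ℚ ({Complex.exp (2 * Real.pi * Complex.I / r)} : Set ℂ))
    (n₀ : ℕ) (hn₀ : ρ.character 1 = n₀)
    (x : G) (a : ℕ) (hx : x ^ (p ^ (a + 1)) = 1) :
    ∃ z : ℤ, ρ.character x = z ∧ -((n₀ / (p - 1) : ℕ) : ℤ) ≤ z ∧ z ≤ n₀ := by
  have hqq : p ^ (a + 1) = p ^ a * p := pow_succ p a
  set q₁ := p ^ a with hq₁
  have hq₁0 : 0 < q₁ := pow_pos hp.pos a
  set q := p ^ (a + 1) with hq
  have hq0 : 0 < q := pow_pos hp.pos _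
  have hζ : IsPrimitiveRoot (Complex.exp (2 * Real.pi * Complex.I / q)) q :=
    Complex.isPrimitiveRoot_exp q hq0.ne'
  set ζ := Complex.exp (2 * Real.pi * Complex.I / q) with hζdef
  obtain ⟨m, hm⟩ := Cfsg.Agent.Lib.Helper80.character_pow_eq ρ x q hq0 hx ζ hζ
  have hS0 : ∑ j ∈ range q, m j = n₀ := by
    have h := hm 0
    rw [pow_zero, hn₀] at h
    simp only [pow_zero, mul_one] at h
    exact_mod_cast h.symm
  have hS1 : ∑ k ∈ range q, ρ.character (x ^ k) = (q : ℂ) * m 0 := by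
    simp_rw [hm]
    rw [Finset.sum_comm]
    simp_rw [← Finset.mul_sum]
    rw [Finset.sum_eq_single 0]
    · simp
      ring
    · intro j hj hj0
      have hjq : j < q := Finset.mem_range.mp hj
      have h1 : ζ ^ j ≠ 1 := hζ.pow_ne_one_of_pos_of_lt hj0 hjq
      have h2 : (ζ ^ j) ^ q = 1 := by
        rw [← pow_mul, mul_comm, pow_mul, hζ.pow_eq_one, one_pow]
      rw [geom_root_sum _ q h2, if_neg h1, mul_zero]
    · intro h; exact absurd (Finset.mem_range.mpr hq0) h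
  set B₁ := ∑ j ∈ range q, (if (ζ ^ j) ^ p = 1 then m j else 0) with hB₁
  have hS2 : ∑ k ∈ range q₁, ρ.character (x ^ (k * p)) = (q₁ : ℂ) * B₁ := by
    simp_rw [hm]
    rw [Finset.sum_comm]
    simp_rw [← Finset.mul_sum]
    rw [hB₁, Nat.cast_sum, Finset.mul_sum]
    refine Finset.sum_congr rfl fun j _ => ?_
    have h2 : ((ζ ^ j) ^ p) ^ q₁ = 1 := by
      rw [← pow_mul, ← pow_mul, mul_comm p q₁, ← hqq, mul_comm, pow_mul, hζ.pow_eq_one, one_pow]
    have h3 : ∀ k : ℕ, (ζ ^ j) ^ (k * p) = ((ζ ^ j) ^ p) ^ k := fun k => by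
      rw [mul_comm, pow_mul]
    simp_rw [h3]
    rw [geom_root_sum _ q₁ h2]
    split_ifs <;> simp [mul_comm]
  have hGal : ∑ k ∈ range q, ρ.character (x ^ k) =
      ∑ k ∈ range q₁, ρ.character (x ^ (k * p)) +
        (q₁ : ℂ) * (((p - 1 : ℕ) : ℂ) * ρ.character x) := by
    rw [hqq, sum_range_mul_blocks]
    have hblock : ∀ k', ∑ i ∈ range p, ρ.character (x ^ (k' * p + i)) =
        ρ.character (x ^ (k' * p)) + ((p - 1 : ℕ) : ℂ) * ρ.character x := by
      intro k'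
      have := block_sum (fun i => ρ.character (x ^ (k' * p + i))) (ρ.character x) p hp.pos
        (fun i hi0 hip => galois_inv ρ p hp r hr hpr x (hrat x) (a + 1) hx (k' * p + i)
          (fun hdvd => by
            have h1 : p ∣ i := (Nat.dvd_add_right (dvd_mul_left p k')).mp hdvd
            exact absurd (Nat.le_of_dvd hi0 h1) (not_le.mpr hip)))
      simpa using this
    simp_rw [hblock]
    rw [Finset.sum_add_distrib, Finset.sum_const, Finset.card_range, nsmul_eq_mul]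
  have hkey : ((p - 1 : ℕ) : ℂ) * ρ.character x = (p : ℂ) * m 0 - B₁ := by
    have h := hGal
    rw [hS1, hS2] at h
    have hq₁ne : (q₁ : ℂ) ≠ 0 := by exact_mod_cast hq₁0.ne'
    have hqc : (q : ℂ) = q₁ * p := by rw [hqq]; push_cast; ring
    rw [hqc] at h
    apply mul_left_cancel₀ hq₁ne
    linear_combination (-1 : ℂ) * h
  have hD0 : 0 < p - 1 := by have := hp.two_le; omega
  have hDp0 : ((p - 1 : ℕ) : ℤ) = (p : ℤ) - 1 := Nat.cast_pred hp.pos
  obtain ⟨D, hDdef⟩ : ∃ D, p - 1 = D := ⟨_, rfl⟩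
  rw [hDdef] at hkey hD0 hDp0 ⊢
  have hDc : (D : ℂ) ≠ 0 := by exact_mod_cast hD0.ne'
  have hint : IsIntegral ℤ (ρ.character x) := Cfsg.Agent.Lib.Helper5.char_isIntegral ρ x
  set y : ℚ := ((p : ℚ) * m 0 - B₁) / (D : ℚ) with hy
  have hy' : ρ.character x = algebraMap ℚ ℂ y := by
    rw [hy]
    simp only [eq_ratCast]
    push_cast
    rw [eq_div_iff hDc, mul_comm]
    exact hkey
  rw [hy'] at hint
  have hint2 : IsIntegral ℤ y := (isIntegral_algebraMap_iff (algebraMap ℚ ℂ).injective).mp hint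
  obtain ⟨z, hz⟩ := IsIntegrallyClosed.isIntegral_iff.mp hint2
  have hzc : ρ.character x = (z : ℂ) := by
    rw [hy', ← hz]; simp
  have hDz : (D : ℤ) * z = (p : ℤ) * m 0 - B₁ := by
    have h := hkey
    rw [hzc] at h
    exact_mod_cast h
  have hm0B : m 0 ≤ B₁ := by
    rw [hB₁]
    have h0 : 0 ∈ range q := Finset.mem_range.mpr hq0
    have := Finset.single_le_sum (f := fun j => if (ζ ^ j) ^ p = 1 then m j else 0)
      (fun j _ => Nat.zero_le _) h0
    simpa using this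
  have hBn : B₁ ≤ n₀ := by
    rw [hB₁, ← hS0]
    apply Finset.sum_le_sum
    intro j _
    split_ifs <;> simp
  have hm0B' : (m 0 : ℤ) ≤ B₁ := by exact_mod_cast hm0B
  have hBn' : (B₁ : ℤ) ≤ n₀ := by exact_mod_cast hBn
  have hDpos : (0 : ℤ) < D := by exact_mod_cast hD0
  refine ⟨z, hzc, ?_, ?_⟩
  · rw [Int.natCast_ediv, neg_le]
    apply Int.le_ediv_of_mul_le hDpos
    have h0 : (0 : ℤ) ≤ (p : ℤ) * m 0 := by positivity
    have h1 : -z * (D : ℤ) = B₁ - (p : ℤ) * m 0 := by linarith [hDz]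
    rw [h1]; linarith
  · have h1 : (D : ℤ) * z ≤ (D : ℤ) * m 0 := by
      rw [hDz, hDp0]; linarith
    have h2 : z ≤ m 0 := le_of_mul_le_mul_left h1 hDpos
    linarith

theorem sum_prod_dvd {P : Type*} [Group P] [Fintype P] (ψ : P → ℂ) (hψ : IsCharacter P ψ)
    (s : Finset ℤ) :
    ∀ i : ℕ, ∃ Z : ℤ,
      ∑ x : P, (∏ v ∈ s, (ψ x - (v : ℂ))) * ψ x ^ i = (Nat.card P : ℂ) * Z := by
  classical
  induction s using Finset.induction_on with
  | empty =>
    intro i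
    simp only [Finset.prod_empty, one_mul]
    rcases Nat.eq_zero_or_pos i with rfl | hi
    · refine ⟨1, ?_⟩
      simp [Nat.card_eq_fintype_card]
    · have hfin : Finite (IrrCharacter P) := Cfsg.Agent.Lib.Helper4.irr_finite
      let _ : Fintype (IrrCharacter P) := Fintype.ofFinite _
      obtain ⟨k, hk⟩ := Cfsg.Agent.Lib.Helper4.classInner_isCharacter_nat (ψ ^ i)
        (Cfsg.Agent.Lib.Helper4.isCharacter_pow ψ hψ i hi) Cfsg.Agent.Lib.Helper4.trivIrr
      refine ⟨k, ?_⟩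
      unfold classInner at hk
      have hne : (Nat.card P : ℂ) ≠ 0 := by exact_mod_cast Nat.card_pos.ne'
      have h2 : ∑ g : P, (ψ ^ i) g *
          (starRingEnd ℂ) ((Cfsg.Agent.Lib.Helper4.trivIrr : IrrCharacter P).1 g) =
          ∑ x : P, ψ x ^ i := by
        refine Finset.sum_congr rfl fun g _ => ?_
        rw [Cfsg.Agent.Lib.Helper4.trivIrr_apply, map_one, mul_one, Pi.pow_apply]
      rw [h2] at hk
      rw [Int.cast_natCast, ← hk, mul_inv_cancel_left₀ hne]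
  | insert v s hv ih =>
    intro i
    obtain ⟨Z₁, hZ₁⟩ := ih (i + 1)
    obtain ⟨Z₂, hZ₂⟩ := ih i
    refine ⟨Z₁ - v * Z₂, ?_⟩
    have : ∀ x : P, (∏ w ∈ insert v s, (ψ x - (w : ℂ))) * ψ x ^ i =
        (∏ w ∈ s, (ψ x - (w : ℂ))) * ψ x ^ (i + 1) -
          v * ((∏ w ∈ s, (ψ x - (w : ℂ))) * ψ x ^ i) := by
      intro x
      rw [Finset.prod_insert hv]; ring
    simp_rw [this]
    rw [Finset.sum_sub_distrib, ← Finset.mul_sum, hZ₁, hZ₂]
    push_cast; ring

theorem legendre_sum (p : ℕ) [hp : Fact p.Prime] (n₀ : ℕ) :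
    padicValNat p (n₀ + n₀ / (p - 1)).factorial =
      ∑ i ∈ Finset.range (n₀ + 1), n₀ / ((p - 1) * p ^ i) := by
  have hp2 : 2 ≤ p := hp.out.two_le
  obtain ⟨d, rfl⟩ : ∃ d, p = d + 1 := ⟨p - 1, by omega⟩
  rw [Nat.add_sub_cancel]
  have hd : 0 < d := by omega
  set m := n₀ / d with hm
  have hm_le : m ≤ n₀ := Nat.div_le_self _ _
  have hlog : Nat.log (d + 1) (n₀ + m) < n₀ + 2 := by
    rcases Nat.eq_zero_or_pos (n₀ + m) with h0 | h0
    · rw [h0]; simp
    · apply Nat.log_lt_of_lt_pow h0.ne'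
      calc n₀ + m ≤ 2 * n₀ := by omega
        _ < 2 * 2 ^ n₀ := by have := Nat.lt_two_pow_self (n := n₀); omega
        _ = 2 ^ (n₀ + 1) := by ring
        _ ≤ (d + 1) ^ (n₀ + 1) := Nat.pow_le_pow_left hp2 _
        _ ≤ (d + 1) ^ (n₀ + 2) := Nat.pow_le_pow_right (by omega) (by omega)
  rw [padicValNat_factorial hlog, Finset.sum_Ico_eq_sum_range]
  have h21 : n₀ + 2 - 1 = n₀ + 1 := by omega
  rw [h21]
  refine Finset.sum_congr rfl fun i _ => ?_
  have hMp : (n₀ + m) / (d + 1) = m := by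
    have h1 : d * m + n₀ % d = n₀ := Nat.div_add_mod n₀ d
    have h2 : n₀ % d < d := Nat.mod_lt _ hd
    have h3 : n₀ + m = (d + 1) * m + n₀ % d := by
      rw [add_mul, one_mul]; omega
    rw [h3, Nat.mul_add_div (by omega), Nat.div_eq_of_lt (by omega), add_zero]
  rw [pow_add, pow_one, ← Nat.div_div_eq_div_mul, hMp, ← Nat.div_div_eq_div_mul]

/-- Let the finite group G have a faithful p-rational character χ of degree n (all values of χ lie in the field generated over ℚ by a root of unity of order prime to p), and let p^a be the order of a Sylow p-subgroup of G. Then a ≤ Σ_{i ≥ 0} ⌊n / ((p − 1)·p^i)⌋ (a finite sum; the terms vanish once (p − 1)p^i > n). -/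
theorem result {G : Type*} [Group G] [Finite G] (p : ℕ) (hp : p.Prime) (χ : G → ℂ) (hχ : Cfsg.IsCharacter G χ) (hfaith : ∀ g : G, χ g = χ 1 → g = 1) (hrat : (∃ r : ℕ, 0 < r ∧ ¬ p ∣ r ∧ ∀ g : G, χ g ∈ IntermediateField.adjoin ℚ ({Complex.exp (2 * Real.pi * Complex.I / r)} : Set ℂ))) (n : ℕ) (hn : Cfsg.charDegree χ = n) : (Nat.card G).factorization p ≤ ∑ i ∈ Finset.range (n + 1), n / ((p - 1) * p ^ i) := by
  classical
  obtain ⟨r, hr, hpr, hrat⟩ := hrat
  obtain ⟨n₀, ρ, rfl⟩ := hχ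
  have hχ1 : ρ.character 1 = (n₀ : ℂ) := by
    rw [Representation.char_one]; simp
  have hdeg : n₀ = n := by
    rw [← hn, charDegree, hχ1]; simp
  subst hdeg
  haveI : Fact p.Prime := ⟨hp⟩
  obtain ⟨a, ha⟩ : ∃ a, (Nat.card G).factorization p = a := ⟨_, rfl⟩
  obtain ⟨P, hP⟩ : ∃ P : Subgroup G, Nat.card P = p ^ a :=
    ⟨(default : Sylow p G).1, by rw [← ha]; exact Sylow.card_eq_multiplicity _⟩
  rw [ha]
  rcases Nat.eq_zero_or_pos a with ha0 | ha0
  · rw [ha0]; exact Nat.zero_le _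
  obtain ⟨a', ha'⟩ : ∃ a', a = a' + 1 := ⟨a - 1, (Nat.sub_add_cancel ha0).symm⟩
  obtain ⟨m, hm⟩ : ∃ m, n₀ / (p - 1) = m := ⟨_, rfl⟩
  have hval : ∀ x : P, (x : G) ≠ 1 →
      ∃ z : ℤ, ρ.character (x : G) = z ∧ -(m : ℤ) ≤ z ∧ z ≤ (n₀ : ℤ) - 1 := by
    intro x hx1
    have hxq : (x : G) ^ (p ^ (a' + 1)) = 1 := by
      rw [← ha', ← hP]
      have h := pow_card_eq_one' (G := P) (x := x)
      have h2 : ((x ^ Nat.card P : P) : G) = ((1 : P) : G) := congrArg Subtype.val h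
      rw [SubmonoidClass.coe_pow, OneMemClass.coe_one] at h2
      exact h2
    obtain ⟨z, hz, hz1, hz2⟩ := pvalue ρ p hp r hr hpr hrat n₀ hχ1 (x : G) a' hxq
    rw [hm] at hz1
    refine ⟨z, hz, hz1, ?_⟩
    have hne : z ≠ n₀ := by
      intro h
      apply hx1
      apply hfaith
      rw [hz, hχ1, h]; simp
    omega
  let s : Finset ℤ := (Finset.range (n₀ + m)).image (fun k : ℕ => (n₀ : ℤ) - 1 - k)
  letI : Fintype P := Fintype.ofFinite P
  obtain ⟨Z, hZ⟩ := sum_prod_dvd (fun x : P => ρ.character (x : G))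
    (Cfsg.Agent.Lib.Helper4.isCharacter_restrict P _ ⟨n₀, ρ, rfl⟩) s 0
  simp only [pow_zero, mul_one] at hZ
  have hsum : ∑ x : P, ∏ v ∈ s, (ρ.character (x : G) - (v : ℂ)) =
      ∏ v ∈ s, ((n₀ : ℂ) - (v : ℂ)) := by
    rw [Finset.sum_eq_single (1 : P)]
    · rw [OneMemClass.coe_one, hχ1]
    · intro x _ hx1
      have hx1' : (x : G) ≠ 1 := fun h => hx1 (Subtype.ext h)
      obtain ⟨z, hz, hz1, hz2⟩ := hval x hx1'
      apply Finset.prod_eq_zero (i := z)
      · rw [Finset.mem_image]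
        refine ⟨(n₀ - 1 - z).toNat, ?_, ?_⟩
        · rw [Finset.mem_range]; omega
        · rw [Int.toNat_of_nonneg (by omega)]; ring
      · rw [hz, sub_self]
    · intro h; exact absurd (Finset.mem_univ _) h
  have hprod : ∏ v ∈ s, ((n₀ : ℤ) - v) = ((n₀ + m).factorial : ℤ) := by
    rw [Finset.prod_image]
    · rw [← Finset.prod_range_add_one_eq_factorial]
      push_cast
      refine Finset.prod_congr rfl fun k _ => ?_
      ring
    · intro k₁ _ k₂ _ h
      have h' : (k₁ : ℤ) = k₂ := by linarith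
      exact_mod_cast h'
  have hdvd : p ^ a ∣ (n₀ + m).factorial := by
    have h1 : ((p ^ a : ℕ) : ℤ) * Z = ((n₀ + m).factorial : ℤ) := by
      rw [← hprod]
      have h2 : ((Nat.card P : ℂ)) * Z = ∏ v ∈ s, ((n₀ : ℂ) - (v : ℂ)) := by rw [← hZ, hsum]
      rw [hP] at h2
      exact_mod_cast h2
    exact Int.natCast_dvd_natCast.mp ⟨Z, h1.symm⟩
  have hle : a ≤ padicValNat p (n₀ + m).factorial :=
    (padicValNat_dvd_iff_le (Nat.factorial_ne_zero _)).mp hdvd
  rw [← hm, legendre_sum] at hle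
  exact hle

end Cfsg.Agent.S4488
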