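import Cfsg.Statements.S4490
import Cfsg.Agent.Lib.Helper79.Blk6
import Cfsg.Agent.S0908

set_option autoImplicit false
open Cfsg

namespace Cfsg.Agent.S4490

/-- Let G be a finite group and M a maximal ideal of the algebraic integers containing 2. Every 2-block B of G whose defect groups are the Sylow 2-subgroups of G (a block of full defect) and which is not the principal block is different from its complex-conjugate block, the block formed by the complex conjugates of the members of B. -/
theorem result {G : Type*} [Group G] [Finite G] (M : Ideal Cfsg.AlgInt) (hM : Cfsg.IsPModular 2 M) (B : Set (Cfsg.IrrCharacter G)) (hB : Cfsg.IsPBlock M B) (P : Sylow 2 G) (hfull : Cfsg.IsDefectGroup 2 M B (P : Subgroup G)) (hnp : B ≠ Cfsg.principalBlock M G) : {ψ : Cfsg.IrrCharacter G | ∃ χ ∈ B, (ψ : G → ℂ) = fun g => (starRingEnd ℂ) ((χ : G → ℂ) g)} ≠ B := by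
  classical
  letI := Fintype.ofFinite G
  haveI : Fact (Nat.Prime 2) := ⟨Nat.prime_two⟩
  intro heq
  have hcard := Cfsg.Agent.S0908.result 2 M hM B hB (P : Subgroup G) hfull
  have hP : Nat.card (P : Subgroup G) = 2 ^ (Nat.card G).factorization 2 := P.card_eq_multiplicity
  rw [hP] at hcard
  have hdef : blockDefect 2 B = (Nat.card G).factorization 2 :=
    (Nat.pow_right_injective (le_refl 2) hcard).symm
  have hfwd : ∀ χ : IrrCharacter G, χ ∈ B → Cfsg.Agent.Lib.Helper4.irrConj χ ∈ B := by
    intro χ hχ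
    have h1 : Cfsg.Agent.Lib.Helper4.irrConj χ ∈ {ψ : Cfsg.IrrCharacter G | ∃ χ ∈ B,
        (ψ : G → ℂ) = fun g => (starRingEnd ℂ) ((χ : G → ℂ) g)} := ⟨χ, hχ, rfl⟩
    rw [heq] at h1
    exact h1
  have hreal : ∀ χ : IrrCharacter G, Cfsg.Agent.Lib.Helper4.irrConj χ ∈ B ↔ χ ∈ B := by
    intro χ
    constructor
    · intro h
      have h2 := hfwd _ h
      rwa [Cfsg.Agent.Lib.Helper4.irrConj_irrConj] at h2
    · exact hfwd χ
  have hτ := Cfsg.Agent.Lib.Helper79.real_two_block_full_defect hM B hB hdef hreal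
  apply hnp
  have h9 : B = blockOf M (Cfsg.Agent.Lib.Helper83.trivIrr G : G → ℂ) :=
    Cfsg.Agent.Lib.Helper79.blockOf_eq_of_mem hM hB hτ
  exact h9

end Cfsg.Agent.S4490
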