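import Cfsg.Statements.S4495
import Cfsg.Agent.Lib.Helper79.SelfCent2

set_option autoImplicit false
open Cfsg

namespace Cfsg.Agent.S4495

/-- Let the finite group G contain an element x of prime order p with C_G(x) = ⟨x⟩, and let t be the number of conjugacy classes of elements of order p. If t ≠ p − 1 then the commutator subgroup has index at most (p − 1)/t; if t = p − 1 it has index exactly p. -/
theorem result {G : Type*} [Group G] [Finite G] (p : ℕ) (hp : p.Prime) (x : G) (hx : orderOf x = p) (hC : Subgroup.centralizer ({x} : Set G) = Subgroup.zpowers x) (t : ℕ) (ht : Nat.card {C : ConjClasses G // ∃ g ∈ C.carrier, orderOf g = p} = t) : (t ≠ p - 1 → (commutator G).index * t ≤ p - 1) ∧ (t = p - 1 → (commutator G).index = p) := by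
  have hcount := Cfsg.Agent.Lib.Helper79.card_classes_mul_relIndex hp hx hC
  rw [ht] at hcount
  have hp2 := hp.two_le
  constructor
  · intro hne
    have he1 : (Subgroup.zpowers x).relIndex (Subgroup.normalizer (Subgroup.zpowers x : Set G)) ≠ 1 := by
      intro h
      rw [h, mul_one] at hcount
      exact hne hcount
    have hdvd := Cfsg.Agent.Lib.Helper79.index_commutator_dvd_relIndex hp hx hC he1
    have hepos : 0 < (Subgroup.zpowers x).relIndex (Subgroup.normalizer (Subgroup.zpowers x : Set G)) := by
      rcases Nat.eq_zero_or_pos ((Subgroup.zpowers x).relIndex (Subgroup.normalizer (Subgroup.zpowers x : Set G))) with h | h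
      · rw [h, mul_zero] at hcount
        omega
      · exact h
    have hle := Nat.le_of_dvd hepos hdvd
    calc (commutator G).index * t
        ≤ (Subgroup.zpowers x).relIndex (Subgroup.normalizer (Subgroup.zpowers x : Set G)) * t :=
          Nat.mul_le_mul_right t hle
      _ = p - 1 := by rw [mul_comm]; exact hcount
  · intro heq
    have he1 : (Subgroup.zpowers x).relIndex (Subgroup.normalizer (Subgroup.zpowers x : Set G)) = 1 := by
      rw [heq] at hcount
      have hpos : 0 < p - 1 := by omega
      exact Nat.eq_of_mul_eq_mul_left hpos (by rw [hcount, mul_one])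
    obtain ⟨K, hKn, hKi, hKc, hK⟩ := Cfsg.Agent.Lib.Helper79.exists_normal_complement hp hx hC he1
    rw [hK]
    exact hKi

end Cfsg.Agent.S4495
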