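import Cfsg.Statements.S4498
import Cfsg.Agent.Lib.Helper79.Blk2
import Cfsg.Agent.S0907

set_option autoImplicit false
open Cfsg

namespace Cfsg.Agent.S4498

/-- Let p and q be distinct primes dividing the order of the finite group G, and suppose G has no element of order p·q. Fix maximal ideals M_p over p and M_q over q of the algebraic integers. Then the principal p-block and the principal q-block of G have a non-principal irreducible character in common. -/
theorem result {G : Type*} [Group G] [Finite G] (p q : ℕ) [Fact p.Prime] [Fact q.Prime] (hpq : p ≠ q) (hp : p ∣ Nat.card G) (hq : q ∣ Nat.card G) (hno : ∀ g : G, orderOf g ≠ p * q) (Mp Mq : Ideal Cfsg.AlgInt) (hMp : Cfsg.IsPModular p Mp) (hMq : Cfsg.IsPModular q Mq) : ∃ χ : Cfsg.IrrCharacter G, (χ : G → ℂ) ≠ (fun _ => 1) ∧ χ ∈ Cfsg.principalBlock Mp G ∧ χ ∈ Cfsg.principalBlock Mq G := by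
  classical
  letI := Fintype.ofFinite G
  haveI hfin : Finite (IrrCharacter G) := Cfsg.Agent.Lib.Helper4.irr_finite (G := G)
  letI : Fintype (IrrCharacter G) := Fintype.ofFinite _
  obtain ⟨x, hx⟩ := exists_prime_orderOf_dvd_card' p hp
  obtain ⟨y, hy⟩ := exists_prime_orderOf_dvd_card' q hq
  have hpp : p.Prime := Fact.out
  have hqp : q.Prime := Fact.out
  have htp := Cfsg.Agent.Lib.Helper79.trivIrr_mem_principalBlock (G := G) hMp
  have htq := Cfsg.Agent.Lib.Helper79.trivIrr_mem_principalBlock (G := G) hMq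
  by_contra hcon
  push Not at hcon
  have hθ : ∀ g : G, ¬ p ∣ orderOf g →
      ∑ χ ∈ Finset.univ.filter (· ∈ principalBlock Mp G),
        (χ : G → ℂ) g * (starRingEnd ℂ) ((χ : G → ℂ) x) = 0 := by
    intro g hg
    have h := Cfsg.Agent.S0907.result p Mp hMp (principalBlock Mp G)
      Cfsg.Agent.Lib.Helper79.isPBlock_principalBlock g x hg (by rw [hx])
    rwa [Cfsg.Agent.Lib.Helper79.finsum_mem_eq_sum_filter_univ] at h
  have hη : ∀ g : G, ¬ q ∣ orderOf g →
      ∑ ψ ∈ Finset.univ.filter (· ∈ principalBlock Mq G),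
        (ψ : G → ℂ) g * (starRingEnd ℂ) ((ψ : G → ℂ) y) = 0 := by
    intro g hg
    have h := Cfsg.Agent.S0907.result q Mq hMq (principalBlock Mq G)
      Cfsg.Agent.Lib.Helper79.isPBlock_principalBlock g y hg (by rw [hy])
    rwa [Cfsg.Agent.Lib.Helper79.finsum_mem_eq_sum_filter_univ] at h
  have hprod : ∀ g : G,
      (∑ χ ∈ Finset.univ.filter (· ∈ principalBlock Mp G),
        (χ : G → ℂ) g * (starRingEnd ℂ) ((χ : G → ℂ) x)) *
      (starRingEnd ℂ) (∑ ψ ∈ Finset.univ.filter (· ∈ principalBlock Mq G),
        (ψ : G → ℂ) g * (starRingEnd ℂ) ((ψ : G → ℂ) y)) = 0 := by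
    intro g
    by_cases h1 : p ∣ orderOf g
    · by_cases h2 : q ∣ orderOf g
      · exfalso
        have hcop : Nat.Coprime p q := (Nat.coprime_primes hpp hqp).2 hpq
        have hdvd : p * q ∣ orderOf g := hcop.mul_dvd_of_dvd_of_dvd h1 h2
        exact hno _ (orderOf_pow_orderOf_div (orderOf_pos g).ne' hdvd)
      · rw [hη g h2]; simp
    · rw [hθ g h1]; simp
  have horth : ∀ χ ψ : IrrCharacter G,
      ∑ g : G, (χ : G → ℂ) g * (starRingEnd ℂ) ((ψ : G → ℂ) g)
        = (Nat.card G : ℂ) * (if χ = ψ then 1 else 0) := by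
    intro χ ψ
    have h := Cfsg.Agent.Lib.Helper4.classInner_irr χ ψ
    rw [Cfsg.classInner, inv_mul_eq_iff_eq_mul₀ Cfsg.Agent.Lib.Helper4.card_ne_zero_complex] at h
    exact h
  have hexp : ∑ g : G,
      (∑ χ ∈ Finset.univ.filter (· ∈ principalBlock Mp G),
        (χ : G → ℂ) g * (starRingEnd ℂ) ((χ : G → ℂ) x)) *
      (starRingEnd ℂ) (∑ ψ ∈ Finset.univ.filter (· ∈ principalBlock Mq G),
        (ψ : G → ℂ) g * (starRingEnd ℂ) ((ψ : G → ℂ) y))
      = (Nat.card G : ℂ) *
        ∑ χ ∈ (Finset.univ.filter (· ∈ principalBlock Mp G)).filter (· ∈ principalBlock Mq G),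
          (starRingEnd ℂ) ((χ : G → ℂ) x) * (χ : G → ℂ) y := by
    calc ∑ g : G,
        (∑ χ ∈ Finset.univ.filter (· ∈ principalBlock Mp G),
          (χ : G → ℂ) g * (starRingEnd ℂ) ((χ : G → ℂ) x)) *
        (starRingEnd ℂ) (∑ ψ ∈ Finset.univ.filter (· ∈ principalBlock Mq G),
          (ψ : G → ℂ) g * (starRingEnd ℂ) ((ψ : G → ℂ) y))
        = ∑ g : G, ∑ χ ∈ Finset.univ.filter (· ∈ principalBlock Mp G),
            ∑ ψ ∈ Finset.univ.filter (· ∈ principalBlock Mq G),
              ((starRingEnd ℂ) ((χ : G → ℂ) x) * (ψ : G → ℂ) y) *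
                ((χ : G → ℂ) g * (starRingEnd ℂ) ((ψ : G → ℂ) g)) := by
          apply Finset.sum_congr rfl
          intro g _
          rw [map_sum, Finset.sum_mul_sum]
          apply Finset.sum_congr rfl
          intro χ _
          apply Finset.sum_congr rfl
          intro ψ _
          simp only [map_mul, Complex.conj_conj]
          ring
      _ = ∑ χ ∈ Finset.univ.filter (· ∈ principalBlock Mp G),
            ∑ ψ ∈ Finset.univ.filter (· ∈ principalBlock Mq G),
              ((starRingEnd ℂ) ((χ : G → ℂ) x) * (ψ : G → ℂ) y) *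
                ∑ g : G, ((χ : G → ℂ) g * (starRingEnd ℂ) ((ψ : G → ℂ) g)) := by
          rw [Finset.sum_comm]
          apply Finset.sum_congr rfl
          intro χ _
          rw [Finset.sum_comm]
          apply Finset.sum_congr rfl
          intro ψ _
          rw [Finset.mul_sum]
      _ = ∑ χ ∈ Finset.univ.filter (· ∈ principalBlock Mp G),
            ∑ ψ ∈ Finset.univ.filter (· ∈ principalBlock Mq G),
              (if χ = ψ then (Nat.card G : ℂ) *
                ((starRingEnd ℂ) ((χ : G → ℂ) x) * (χ : G → ℂ) y) else 0) := by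
          apply Finset.sum_congr rfl
          intro χ _
          apply Finset.sum_congr rfl
          intro ψ _
          rw [horth]
          by_cases h : χ = ψ
          · subst h; simp only [if_true]; ring
          · simp only [if_neg h]; ring
      _ = ∑ χ ∈ Finset.univ.filter (· ∈ principalBlock Mp G),
            (if χ ∈ principalBlock Mq G then (Nat.card G : ℂ) *
                ((starRingEnd ℂ) ((χ : G → ℂ) x) * (χ : G → ℂ) y) else 0) := by
          apply Finset.sum_congr rfl
          intro χ _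
          rw [Finset.sum_ite_eq]
          simp only [Finset.mem_filter, Finset.mem_univ, true_and]
      _ = _ := by
          rw [← Finset.sum_filter, Finset.mul_sum]
  have hfilter : (Finset.univ.filter (· ∈ principalBlock Mp G)).filter (· ∈ principalBlock Mq G)
      = {Cfsg.Agent.Lib.Helper83.trivIrr G} := by
    ext χ
    simp only [Finset.mem_filter, Finset.mem_univ, true_and, Finset.mem_singleton]
    constructor
    · rintro ⟨h1, h2⟩
      by_contra hne
      have hne' : (χ : G → ℂ) ≠ fun _ => 1 := by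
        intro h
        apply hne
        apply Subtype.ext
        exact h
      exact hcon χ hne' h1 h2
    · rintro rfl
      exact ⟨htp, htq⟩
  rw [Finset.sum_eq_zero (fun g _ => hprod g), hfilter, Finset.sum_singleton] at hexp
  simp only [Cfsg.Agent.Lib.Helper83.trivIrr_apply, map_one, mul_one] at hexp
  exact Cfsg.Agent.Lib.Helper4.card_ne_zero_complex (G := G) hexp.symm

end Cfsg.Agent.S4498
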