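import Cfsg.Statements.S4500
import Cfsg.Agent.Lib.Helper4.Contrib3
import Cfsg.Agent.Lib.Helper4.Burnside
import Cfsg.Agent.Lib.Helper4.CharLinear
import Cfsg.Agent.Lib.Helper82.PQ
import Cfsg.Agent.Lib.Helper83.Linear

set_option autoImplicit false
open Cfsg

namespace Cfsg.Agent.S4500

open Cfsg Cfsg.Agent.Lib.Helper4 Cfsg.Agent.Lib.Helper84 in
open scoped ComplexConjugate in
theorem key {G : Type*} [Group G] [Finite G] (p q r a b c : ℕ) (hp : p.Prime) (hq : q.Prime)
    (hr : r.Prime) (hpq : p ≠ q) (hpr : p ≠ r) (ha : a ≤ 2) (ha1 : 1 ≤ a)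
    (hG : Nat.card G = p ^ a * q ^ b * r ^ c) :
    ∃ χ : IrrCharacter G, (χ : G → ℂ) ≠ (fun _ => 1) ∧
      ∃ k : ℕ, charDegree (χ : G → ℂ) = q ^ k := by
  classical
  haveI : Fact p.Prime := ⟨hp⟩
  let _ : Fintype G := Fintype.ofFinite G
  have := irr_finite (G := G)
  let _ : Fintype (IrrCharacter G) := Fintype.ofFinite _
  obtain ⟨M, hM⟩ := Cfsg.Agent.Lib.Helper82.exists_isPModular p
  set τ := Cfsg.Agent.Lib.Helper83.trivIrr G with hτ
  set B := blockOf M (τ : G → ℂ) with hBdef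
  have hB : IsPBlock M B := Cfsg.Agent.Lib.Helper79.isPBlock_blockOf τ
  have hτB : τ ∈ B := Cfsg.Agent.Lib.Helper79.mem_blockOf_self hM τ
  have hfac : (Nat.card G).factorization p ≤ 2 := by
    have h1 : p ^ (Nat.card G).factorization p ∣ p ^ a * (q ^ b * r ^ c) := by
      have h0 := Nat.ordProj_dvd (Nat.card G) p
      rw [← mul_assoc, ← hG]
      exact h0
    have hcop : (p ^ (Nat.card G).factorization p).Coprime (q ^ b * r ^ c) := by
      apply Nat.Coprime.pow_left
      apply Nat.Coprime.mul_right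
      · exact Nat.Coprime.pow_right _ ((Nat.coprime_primes hp hq).mpr hpq)
      · exact Nat.Coprime.pow_right _ ((Nat.coprime_primes hp hr).mpr hpr)
    have h2 := hcop.dvd_of_dvd_mul_right h1
    have h3 := (Nat.pow_dvd_pow_iff_le_right hp.one_lt).mp h2
    omega
  have hτdeg : charDegree (τ : G → ℂ) = 1 := by
    have h := (Cfsg.Agent.Lib.Helper83.irr_degree τ.2).2
    have h1 : (τ : G → ℂ) 1 = 1 := rfl
    rw [h1] at h
    exact_mod_cast h.symm
  have hc1 : ∀ χ ∈ B, ¬ p ∣ charDegree (χ : G → ℂ) := by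
    intro χ hχ hdvd
    obtain ⟨hpos, -⟩ := Cfsg.Agent.Lib.Helper83.irr_degree χ.2
    have h1 : 1 ≤ (charDegree (χ : G → ℂ)).factorization p :=
      (hp.dvd_iff_one_le_factorization hpos.ne').mp hdvd
    have h2 : (charDegree (τ : G → ℂ)).factorization p <
        (charDegree (χ : G → ℂ)).factorization p := by
      rw [hτdeg, Nat.factorization_one]
      exact h1
    have := pos_height_bound p M hM B hB χ τ hχ hτB h2
    omega
  have hpN : p ∣ Nat.card G := by
    rw [hG, mul_assoc]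
    exact Dvd.dvd.mul_right (dvd_pow_self p (by omega)) _
  obtain ⟨u, hu⟩ := exists_prime_orderOf_dvd_card' p hpN
  have h1 : ¬ p ∣ orderOf (1 : G) := by rw [orderOf_one]; exact hp.not_dvd_one
  have horth := Cfsg.Agent.Lib.Helper22.weak_block_orth hM B hB 1 u h1 (by rw [hu])
  rw [Cfsg.Agent.Lib.Helper79.finsum_mem_eq_sum_filter_univ] at horth
  set Bf := Finset.univ.filter (fun θ : IrrCharacter G => θ ∈ B) with hBf
  have hτBf : τ ∈ Bf := by
    rw [hBf, Finset.mem_filter]; exact ⟨Finset.mem_univ _, hτB⟩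
  rw [← Finset.add_sum_erase _ _ hτBf] at horth
  have hτ1 : (τ : G → ℂ) 1 * conj ((τ : G → ℂ) u) = 1 := by
    show (1 : ℂ) * conj (1 : ℂ) = 1
    simp
  rw [hτ1] at horth
  by_contra hcon
  push Not at hcon
  have hrdvd : ∀ χ ∈ Bf.erase τ, r ∣ charDegree (χ : G → ℂ) := by
    intro χ hχ
    have hχB : χ ∈ B := by
      have := Finset.mem_of_mem_erase hχ
      rw [hBf, Finset.mem_filter] at this
      exact this.2
    have hχne : χ ≠ τ := Finset.ne_of_mem_erase hχ
    by_contra hrn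
    have hne1 : (χ : G → ℂ) ≠ (fun _ => 1) := by
      intro h
      apply hχne
      exact Subtype.ext h
    have hdN : charDegree (χ : G → ℂ) ∣ Nat.card G :=
      Cfsg.Agent.Lib.Helper83.irr_degree_dvd_card χ
    rw [hG] at hdN
    have hcr : (charDegree (χ : G → ℂ)).Coprime (r ^ c) :=
      Nat.Coprime.pow_right _ ((Nat.Prime.coprime_iff_not_dvd hr).mpr hrn).symm
    have h2 := hcr.dvd_of_dvd_mul_right hdN
    have hcp : (charDegree (χ : G → ℂ)).Coprime (p ^ a) :=
      Nat.Coprime.pow_right _ ((Nat.Prime.coprime_iff_not_dvd hp).mpr (hc1 χ hχB)).symm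
    have h3 := hcp.dvd_of_dvd_mul_left h2
    obtain ⟨i, -, hi⟩ := (Nat.dvd_prime_pow hq).mp h3
    exact hcon χ hne1 i hi
  have hsum : ∑ χ ∈ Bf.erase τ, (χ : G → ℂ) 1 * conj ((χ : G → ℂ) u) =
      (r : ℂ) * ∑ χ ∈ Bf.erase τ, ((charDegree (χ : G → ℂ) / r : ℕ) : ℂ) *
        conj ((χ : G → ℂ) u) := by
    rw [Finset.mul_sum]
    apply Finset.sum_congr rfl
    intro χ hχ
    rw [(Cfsg.Agent.Lib.Helper83.irr_degree χ.2).2]
    have h4 := Nat.mul_div_cancel' (hrdvd χ hχ)
    have h5 : (charDegree (χ : G → ℂ) : ℂ) =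
        (r : ℂ) * ((charDegree (χ : G → ℂ) / r : ℕ) : ℂ) := by
      rw [← Nat.cast_mul, h4]
    rw [h5]
    ring
  rw [hsum] at horth
  set z := ∑ χ ∈ Bf.erase τ, ((charDegree (χ : G → ℂ) / r : ℕ) : ℂ) *
    conj ((χ : G → ℂ) u) with hz
  have hzint : IsIntegral ℤ z := by
    apply IsIntegral.sum
    intro χ _
    exact IsIntegral.mul (isIntegral_natCast _)
      (map_isIntegral_int (starRingEnd ℂ) (irr_isIntegral χ _))
  have hrc : (r : ℂ) ≠ 0 := by exact_mod_cast hr.ne_zero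
  have h6 : ((1 : ℕ) : ℂ) / (r : ℂ) = -z := by
    field_simp
    push_cast
    linear_combination horth
  have h7 := dvd_of_isIntegral_div 1 r hr.ne_zero (by rw [h6]; exact hzint.neg)
  exact hr.one_lt.ne' (Nat.dvd_one.mp h7)

open Cfsg Cfsg.Agent.Lib.Helper4 in
theorem lin_case {G : Type*} [Group G] [Finite G] [Nontrivial G] (hsol : Group.IsSolvable G) :
    ∃ χ : IrrCharacter G, (χ : G → ℂ) ≠ (fun _ => 1) ∧ charDegree (χ : G → ℂ) = 1 := by
  classical
  let _ : Fintype G := Fintype.ofFinite G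
  have hlt : commutator G < ⊤ := Group.IsSolvable.commutator_lt_top_of_nontrivial G
  have hidx : (commutator G).index ≠ 1 := fun h => hlt.ne (Subgroup.index_eq_one.mp h)
  have hidx0 : (commutator G).index ≠ 0 := Subgroup.index_ne_zero_of_finite
  have hcard := card_linear (G := G)
  have := irr_finite (G := G)
  have h2 : 1 < Nat.card {χ : IrrCharacter G // (χ : G → ℂ) 1 = 1} := by
    rw [hcard]; omega
  have hnt : Nontrivial {χ : IrrCharacter G // (χ : G → ℂ) 1 = 1} :=
    Finite.one_lt_card_iff_nontrivial.mp h2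
  obtain ⟨χ, hχ⟩ := exists_ne (⟨Cfsg.Agent.Lib.Helper83.trivIrr G, rfl⟩ :
    {χ : IrrCharacter G // (χ : G → ℂ) 1 = 1})
  refine ⟨χ.1, ?_, ?_⟩
  · intro h
    apply hχ
    apply Subtype.ext
    apply Subtype.ext
    exact h
  · have h := (Cfsg.Agent.Lib.Helper83.irr_degree χ.1.2).2
    rw [χ.2] at h
    exact_mod_cast h.symm

/-- Let G be a non-trivial finite group of order p^a · q^b · r^c with p, q, r distinct primes and a ≤ 2. Then G has a non-principal irreducible character whose degree is a power of q, and a non-principal irreducible character whose degree is a power of r; the power may be the zeroth, so a non-principal linear character serves for both. -/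
theorem result {G : Type*} [Group G] [Finite G] [Nontrivial G] (p q r a b c : ℕ) (hp : p.Prime) (hq : q.Prime) (hr : r.Prime) (hpq : p ≠ q) (hpr : p ≠ r) (hqr : q ≠ r) (ha : a ≤ 2) (hG : Nat.card G = p ^ a * q ^ b * r ^ c) : (∃ χ : Cfsg.IrrCharacter G, (χ : G → ℂ) ≠ (fun _ => 1) ∧ ∃ k : ℕ, Cfsg.charDegree (χ : G → ℂ) = q ^ k) ∧ ∃ χ : Cfsg.IrrCharacter G, (χ : G → ℂ) ≠ (fun _ => 1) ∧ ∃ k : ℕ, Cfsg.charDegree (χ : G → ℂ) = r ^ k := by
  rcases Nat.eq_zero_or_pos a with ha0 | ha1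
  · subst ha0
    rw [pow_zero, one_mul] at hG
    have hsol : Group.IsSolvable G := Cfsg.Agent.Lib.Helper4.burnside q r b c hq hr hG
    obtain ⟨χ, hχ, hdeg⟩ := lin_case (G := G) hsol
    exact ⟨⟨χ, hχ, 0, by rw [hdeg, pow_zero]⟩, ⟨χ, hχ, 0, by rw [hdeg, pow_zero]⟩⟩
  · refine ⟨key p q r a b c hp hq hr hpq hpr ha ha1 hG, ?_⟩
    have hG' : Nat.card G = p ^ a * r ^ c * q ^ b := by rw [hG]; ring
    exact key p r q a c b hp hr hq hpr hpq ha ha1 hG'

end Cfsg.Agent.S4500
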