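import Cfsg.Statements.S4502
import Cfsg.Agent.Lib.Helper79.DGMcK
import Cfsg.Agent.Lib.Helper22.TG8

set_option autoImplicit false
open Cfsg

namespace Cfsg.Agent.S4502

/-- Let G be a finite group whose order is divisible by the prime p exactly once, and let P be a Sylow p-subgroup. Then the number of irreducible characters of G of degree not divisible by p equals the number of conjugacy classes of the normalizer of P. -/
theorem result {G : Type*} [Group G] [Finite G] (p : ℕ) [Fact p.Prime] (hdiv : p ∣ Nat.card G) (hsq : ¬ p ^ 2 ∣ Nat.card G) (P : Sylow p G) : Nat.card {χ : Cfsg.IrrCharacter G // ¬ p ∣ Cfsg.charDegree (χ : G → ℂ)} = Nat.card (ConjClasses (Subgroup.normalizer ((P : Subgroup G) : Set G))) := by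
  exact Cfsg.Agent.Lib.Helper79.DG.s4502_of (fun G _ _ p _ M hM z hz hp2 K hK θ χ hsmt s hs hs0 => Cfsg.Agent.Lib.Helper22.TG.thompson_gen p M hM z hz hp2 K hK θ χ hsmt s hs hs0) p hdiv hsq P

end Cfsg.Agent.S4502
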