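import Cfsg.Statements.S4506
import Cfsg.Agent.Lib.Helper4.Contrib3
import Cfsg.Agent.Lib.Helper4.Eigen
import Cfsg.Agent.Lib.Helper83.Linear

set_option autoImplicit false
open Cfsg

namespace Cfsg.Agent.S4506

open Cfsg Cfsg.Agent.Lib.Helper4 in
/-- automorphisms fixing the `|G|_{p'}`-th roots of unity fix character values at `p`-regular
elements -/
theorem gal_fix {G : Type*} [Group G] [Finite G] (p : ℕ) (hp : p.Prime) (χ : IrrCharacter G)
    (σ : ℂ ≃+* ℂ)
    (hσ : σ (Complex.exp (2 * Real.pi * Complex.I /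
      ((Nat.card G / p ^ (Nat.card G).factorization p) : ℕ))) =
      Complex.exp (2 * Real.pi * Complex.I /
        ((Nat.card G / p ^ (Nat.card G).factorization p) : ℕ)))
    (x : G) (hx : ¬ p ∣ orderOf x) : σ ((χ : G → ℂ) x) = (χ : G → ℂ) x := by
  let _ : Fintype G := Fintype.ofFinite G
  obtain ⟨n, ρ, -, hχ⟩ := χ.2
  rw [← hχ]
  obtain ⟨ι, hι, hd, v, μ, h1, h2, -, -⟩ := exists_eigenbasis_rep ρ x
  rw [Representation.character, trace_eq_sum_of_eigenbasis v (ρ x) μ h1, map_sum]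
  apply Finset.sum_congr rfl
  intro i _
  set g' := Nat.card G / p ^ (Nat.card G).factorization p with hg'
  have hg'pos : 0 < g' := Cfsg.Agent.Lib.Helper4.card_pprime_pos (G := G) p
  have hdvd : orderOf x ∣ g' := by
    have h3 : orderOf x ∣ Nat.card G := orderOf_dvd_natCard x
    rw [← Cfsg.Agent.Lib.Helper4.card_split (G := G) p] at h3
    have hcop : (orderOf x).Coprime (p ^ (Nat.card G).factorization p) :=
      Nat.Coprime.pow_right _ ((Nat.Prime.coprime_iff_not_dvd hp).mpr hx).symm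
    exact hcop.dvd_of_dvd_mul_left h3
  have h4 : μ i ^ g' = 1 := by
    obtain ⟨c, hc⟩ := hdvd
    rw [hc, pow_mul, h2 i, one_pow]
  haveI : NeZero g' := ⟨hg'pos.ne'⟩
  obtain ⟨k, -, hk⟩ := (Complex.isPrimitiveRoot_exp g' hg'pos.ne').eq_pow_of_pow_eq_one h4
  rw [← hk, map_pow, hσ]

/-- Let G be a finite group, p a prime, p^a the p-part of the order of G and g′ its p′-part. Call two irreducible characters p-conjugate when one is obtained from the other by applying a field automorphism of ℂ that fixes the g′-th roots of unity, and let r be the number of characters p-conjugate to the irreducible character χ (χ included). Then the exponent of p in r·χ(1) is at most a; and if p^a divides r·χ(1) then p^a already divides χ(1). -/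
theorem result {G : Type*} [Group G] [Finite G] (p : ℕ) (hp : p.Prime) (χ : Cfsg.IrrCharacter G) (r : ℕ) (hr : Nat.card {ψ : Cfsg.IrrCharacter G // ∃ σ : ℂ ≃+* ℂ, σ (Complex.exp (2 * Real.pi * Complex.I / ((Nat.card G / p ^ (Nat.card G).factorization p) : ℕ))) = Complex.exp (2 * Real.pi * Complex.I / ((Nat.card G / p ^ (Nat.card G).factorization p) : ℕ)) ∧ (ψ : G → ℂ) = fun g => σ ((χ : G → ℂ) g)} = r) : (r * Cfsg.charDegree (χ : G → ℂ)).factorization p ≤ (Nat.card G).factorization p ∧ (p ^ (Nat.card G).factorization p ∣ r * Cfsg.charDegree (χ : G → ℂ) → p ^ (Nat.card G).factorization p ∣ Cfsg.charDegree (χ : G → ℂ)) := by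
  classical
  haveI : Fact p.Prime := ⟨hp⟩
  let _ : Fintype G := Fintype.ofFinite G
  have := Cfsg.Agent.Lib.Helper4.irr_finite (G := G)
  let _ : Fintype (Cfsg.IrrCharacter G) := Fintype.ofFinite _
  set ζ := Complex.exp (2 * Real.pi * Complex.I /
      ((Nat.card G / p ^ (Nat.card G).factorization p) : ℕ)) with hζ
  set a := (Nat.card G).factorization p with ha
  set R := Finset.univ.filter (fun ψ : Cfsg.IrrCharacter G =>
    ∃ σ : ℂ ≃+* ℂ, σ ζ = ζ ∧ (ψ : G → ℂ) = fun g => σ ((χ : G → ℂ) g)) with hR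
  have hcard : R.card = r := by
    rw [← hr, Nat.card_eq_fintype_card, Fintype.card_subtype]
  have hχR : χ ∈ R := by
    rw [hR, Finset.mem_filter]
    exact ⟨Finset.mem_univ _, RingEquiv.refl ℂ, rfl, rfl⟩
  have hrpos : 0 < r := by
    rw [← hcard]; exact Finset.card_pos.mpr ⟨χ, hχR⟩
  obtain ⟨hdpos, hd1⟩ := Cfsg.Agent.Lib.Helper83.irr_degree χ.2
  set κ := Cfsg.Agent.Lib.Helper4.ctr p χ χ with hκ
  -- (G3)
  have hG3 : ∀ ψ ∈ R, Cfsg.Agent.Lib.Helper4.ctr p χ ψ = κ := by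
    intro ψ hψ
    rw [hR, Finset.mem_filter] at hψ
    obtain ⟨-, σ, hσ, hψσ⟩ := hψ
    have h1 := Cfsg.Agent.Lib.Helper4.ctr_mul p χ ψ
    have h2 := Cfsg.Agent.Lib.Helper4.ctr_mul p χ χ
    have h3 : ∑ g : G, (if p ∣ orderOf g then (0 : ℂ)
        else (χ : G → ℂ) g * (starRingEnd ℂ) ((ψ : G → ℂ) g)) =
        ∑ g : G, (if p ∣ orderOf g then (0 : ℂ)
        else (χ : G → ℂ) g * (starRingEnd ℂ) ((χ : G → ℂ) g)) := by
      apply Finset.sum_congr rfl
      intro g _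
      by_cases hg : p ∣ orderOf g
      · rw [if_pos hg, if_pos hg]
      · rw [if_neg hg, if_neg hg, hψσ]
        show (χ : G → ℂ) g * (starRingEnd ℂ) (σ ((χ : G → ℂ) g)) = _
        rw [gal_fix p hp χ σ hσ g hg]
    rw [h3, ← h2] at h1
    have hm : ((Nat.card G / p ^ (Nat.card G).factorization p : ℕ) : ℂ) ≠ 0 := by
      exact_mod_cast (Cfsg.Agent.Lib.Helper4.card_pprime_pos (G := G) p).ne'
    have h4 := mul_right_cancel₀ hm h1
    exact_mod_cast h4
  have hκpos : 0 < κ := Cfsg.Agent.Lib.Helper4.ctr_self_pos p χ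
  set ν := (Cfsg.charDegree (χ : G → ℂ)).factorization p with hν
  have hκge : ((p ^ ν : ℕ) : ℤ) ≤ κ :=
    Int.le_of_dvd hκpos (Cfsg.Agent.Lib.Helper4.ctr_dvd_left p χ χ)
  have hpars := Cfsg.Agent.Lib.Helper4.ctr_parseval p χ
  have hsumR : ∑ θ ∈ R, Cfsg.Agent.Lib.Helper4.ctr p χ θ ^ 2 = (r : ℤ) * κ ^ 2 := by
    rw [Finset.sum_congr rfl (fun θ hθ => by rw [hG3 θ hθ]), Finset.sum_const, hcard,
      nsmul_eq_mul]
  have hsplit : ∑ θ : Cfsg.IrrCharacter G, Cfsg.Agent.Lib.Helper4.ctr p χ θ ^ 2 =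
      ∑ θ ∈ R, Cfsg.Agent.Lib.Helper4.ctr p χ θ ^ 2 +
        ∑ θ ∈ Finset.univ.filter (fun θ => θ ∉ R), Cfsg.Agent.Lib.Helper4.ctr p χ θ ^ 2 := by
    rw [← Finset.sum_filter_add_sum_filter_not Finset.univ (fun θ => θ ∈ R)]
    congr 1
    apply Finset.sum_congr _ (fun _ _ => rfl)
    ext θ
    simp
  have hrest : (0 : ℤ) ≤ ∑ θ ∈ Finset.univ.filter (fun θ => θ ∉ R),
      Cfsg.Agent.Lib.Helper4.ctr p χ θ ^ 2 := Finset.sum_nonneg (fun θ _ => sq_nonneg _)
  have hrκ : (r : ℤ) * κ ≤ ((p ^ a : ℕ) : ℤ) := by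
    have h1 : (r : ℤ) * κ ^ 2 ≤ ((p ^ a : ℕ) : ℤ) * κ := by
      rw [← hpars, hsplit, hsumR]; linarith
    have h2 : ((r : ℤ) * κ) * κ ≤ ((p ^ a : ℕ) : ℤ) * κ := by
      rw [sq] at h1; linarith
    exact le_of_mul_le_mul_right h2 hκpos
  have hfac : (r * Cfsg.charDegree (χ : G → ℂ)).factorization p = r.factorization p + ν := by
    rw [Nat.factorization_mul hrpos.ne' hdpos.ne']
    rfl
  have hrp : p ^ r.factorization p ≤ r := Nat.ordProj_le p hrpos.ne'
  have hchain : ((p ^ (r.factorization p + ν) : ℕ) : ℤ) ≤ (r : ℤ) * κ := by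
    have h1 : ((p ^ (r.factorization p + ν) : ℕ) : ℤ) =
        ((p ^ r.factorization p : ℕ) : ℤ) * ((p ^ ν : ℕ) : ℤ) := by
      rw [← Nat.cast_mul, ← pow_add]
    rw [h1]
    have h2 : ((p ^ r.factorization p : ℕ) : ℤ) ≤ (r : ℤ) := by exact_mod_cast hrp
    have h3 : (0 : ℤ) ≤ ((p ^ ν : ℕ) : ℤ) := by positivity
    have h4 : (0 : ℤ) ≤ (r : ℤ) := by positivity
    nlinarith
  have hpart1 : r.factorization p + ν ≤ a := by
    have h1 : ((p ^ (r.factorization p + ν) : ℕ) : ℤ) ≤ ((p ^ a : ℕ) : ℤ) := le_trans hchain hrκ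
    have h2 : p ^ (r.factorization p + ν) ≤ p ^ a := by exact_mod_cast h1
    exact (Nat.pow_le_pow_iff_right hp.one_lt).mp h2
  refine ⟨by rw [hfac]; exact hpart1, ?_⟩
  intro hdvd
  have hge : a ≤ r.factorization p + ν := by
    rw [← hfac]
    exact (hp.pow_dvd_iff_le_factorization (Nat.mul_ne_zero hrpos.ne' hdpos.ne')).mp hdvd
  have heq : r.factorization p + ν = a := le_antisymm hpart1 hge
  have hrκeq : (r : ℤ) * κ = ((p ^ a : ℕ) : ℤ) := by
    apply le_antisymm hrκ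
    rw [← heq]
    exact hchain
  -- contributions outside R vanish
  have hzero : ∀ θ : Cfsg.IrrCharacter G, θ ∉ R → Cfsg.Agent.Lib.Helper4.ctr p χ θ = 0 := by
    have h1 : ∑ θ ∈ Finset.univ.filter (fun θ => θ ∉ R),
        Cfsg.Agent.Lib.Helper4.ctr p χ θ ^ 2 = 0 := by
      have h2 : ((p ^ a : ℕ) : ℤ) * κ = (r : ℤ) * κ ^ 2 := by
        rw [← hrκeq]; ring
      rw [hsplit, hsumR] at hpars
      linarith
    intro θ hθ
    have h3 := (Finset.sum_eq_zero_iff_of_nonneg (fun θ _ => sq_nonneg _)).mp h1 θ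
      (by rw [Finset.mem_filter]; exact ⟨Finset.mem_univ _, hθ⟩)
    exact pow_eq_zero_iff (two_ne_zero) |>.mp h3
  -- the sum of the conjugates vanishes on p-singular elements
  have hκc : (κ : ℂ) ≠ 0 := by exact_mod_cast hκpos.ne'
  have hvan : ∀ u : G, p ∣ orderOf u → ∑ ψ ∈ R, (ψ : G → ℂ) u = 0 := by
    intro u hu
    have h1 := Cfsg.Agent.Lib.Helper4.ptil_expansion p χ u
    have h2 : Cfsg.Agent.Lib.Helper84.ptil p (χ : G → ℂ) u = 0 := if_pos hu
    rw [h2] at h1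
    have h3 : ∑ θ : Cfsg.IrrCharacter G, (Cfsg.Agent.Lib.Helper4.ctr p χ θ : ℂ) *
        (θ : G → ℂ) u = (κ : ℂ) * ∑ ψ ∈ R, (ψ : G → ℂ) u := by
      rw [Finset.mul_sum, hR, Finset.sum_filter]
      apply Finset.sum_congr rfl
      intro θ _
      by_cases hθ : θ ∈ R
      · rw [hR, Finset.mem_filter] at hθ
        rw [if_pos hθ.2, hG3 θ (by rw [hR, Finset.mem_filter]; exact hθ)]
      · have hθ' : ¬ ∃ σ : ℂ ≃+* ℂ, σ ζ = ζ ∧ (θ : G → ℂ) = fun g => σ ((χ : G → ℂ) g) := by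
          intro h
          apply hθ
          rw [hR, Finset.mem_filter]
          exact ⟨Finset.mem_univ _, h⟩
        rw [if_neg hθ', hzero θ hθ]
        simp
    rw [h3] at h1
    rcases mul_eq_zero.mp h1.symm with h4 | h4
    · exact absurd h4 hκc
    · exact h4
  -- Sylow subgroup
  obtain ⟨P⟩ : Nonempty (Sylow p G) := inferInstance
  let _ : Fintype (P : Subgroup G) := Fintype.ofFinite _
  have hPcard : Nat.card (P : Subgroup G) = p ^ a := Sylow.card_eq_multiplicity P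
  obtain ⟨m, hm⟩ := Cfsg.Agent.Lib.Helper35.classInner_char_nat
    (Cfsg.Agent.Lib.Helper35.isCharacter_res (P : Subgroup G)
      (Cfsg.Agent.Lib.Helper35.isChar_of_irr χ.2))
    (Cfsg.Agent.Lib.Helper35.isChar_of_irr
      (Cfsg.Agent.Lib.Helper83.isIrr_one (G := (P : Subgroup G))))
  have hPc : (Nat.card (P : Subgroup G) : ℂ) ≠ 0 := by
    rw [hPcard]; exact_mod_cast (pow_pos hp.pos a).ne'
  have hsumχ : ∑ u : (P : Subgroup G), (χ : G → ℂ) u = ((p ^ a : ℕ) : ℂ) * (m : ℂ) := by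
    unfold Cfsg.classInner at hm
    have h1 : ∑ u : (P : Subgroup G), Cfsg.Agent.Lib.Helper35.res (P : Subgroup G)
        (χ : G → ℂ) u * (starRingEnd ℂ) ((fun _ => (1 : ℂ)) u) =
        ∑ u : (P : Subgroup G), (χ : G → ℂ) u := by
      apply Finset.sum_congr rfl
      intro u _
      simp
    rw [h1] at hm
    rw [← hPcard]
    field_simp at hm
    exact hm
  have hsumψ : ∀ ψ ∈ R, ∑ u : (P : Subgroup G), (ψ : G → ℂ) u =
      ((p ^ a : ℕ) : ℂ) * (m : ℂ) := by
    intro ψ hψ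
    rw [hR, Finset.mem_filter] at hψ
    obtain ⟨-, σ, hσ, hψσ⟩ := hψ
    rw [hψσ]
    show ∑ u : (P : Subgroup G), σ ((χ : G → ℂ) u) = _
    rw [← map_sum, hsumχ, map_mul, map_natCast, map_natCast]
  have hψ1 : ∀ ψ ∈ R, (ψ : G → ℂ) 1 = (Cfsg.charDegree (χ : G → ℂ) : ℂ) := by
    intro ψ hψ
    rw [hR, Finset.mem_filter] at hψ
    obtain ⟨-, σ, hσ, hψσ⟩ := hψ
    rw [hψσ]
    show σ ((χ : G → ℂ) 1) = _
    rw [hd1, map_natCast]
  have htot : ∑ u : (P : Subgroup G), ∑ ψ ∈ R, (ψ : G → ℂ) u =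
      (r : ℂ) * (Cfsg.charDegree (χ : G → ℂ) : ℂ) := by
    rw [Finset.sum_eq_single (1 : (P : Subgroup G))]
    · rw [Finset.sum_congr rfl (fun ψ hψ => by
        show (ψ : G → ℂ) ((1 : (P : Subgroup G)) : G) = (Cfsg.charDegree (χ : G → ℂ) : ℂ)
        rw [Subgroup.coe_one]; exact hψ1 ψ hψ), Finset.sum_const, hcard, nsmul_eq_mul]
    · intro u _ hu
      apply hvan
      have hu1 : (u : G) ≠ 1 := fun h => hu (Subtype.ext h)
      have hpg : IsPGroup p (P : Subgroup G) := P.isPGroup'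
      obtain ⟨k, hk⟩ := hpg u
      have hk' : (u : G) ^ p ^ k = 1 := by
        have := congrArg (Subtype.val) hk
        simpa using this
      obtain ⟨j, -, hj⟩ := (Nat.dvd_prime_pow hp).mp (orderOf_dvd_of_pow_eq_one hk')
      rcases Nat.eq_zero_or_pos j with hj0 | hj0
      · rw [hj0, pow_zero] at hj
        exact absurd (orderOf_eq_one_iff.mp hj) hu1
      · rw [hj]
        exact dvd_pow_self p hj0.ne'
    · intro h; exact absurd (Finset.mem_univ _) h
  rw [Finset.sum_comm, Finset.sum_congr rfl hsumψ, Finset.sum_const, hcard, nsmul_eq_mul] at htot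
  have hrc : (r : ℂ) ≠ 0 := by exact_mod_cast hrpos.ne'
  have hfin : (Cfsg.charDegree (χ : G → ℂ) : ℂ) = ((p ^ a : ℕ) : ℂ) * (m : ℂ) :=
    (mul_left_cancel₀ hrc htot).symm
  have hfin' : Cfsg.charDegree (χ : G → ℂ) = p ^ a * m := by exact_mod_cast hfin
  exact ⟨m, hfin'⟩

end Cfsg.Agent.S4506
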