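import Mathlib
import Cfsg.Statements.S4508
import Cfsg.Agent.Lib.Helper20.PM1c
import Cfsg.Agent.Lib.Helper20.PM1d
import Cfsg.Agent.Lib.Helper20.PM1e

set_option autoImplicit false
open Cfsg

namespace Cfsg.Agent.S4508

/-- Let the finite group G contain an element x of prime order p with C_G(x) = ⟨x⟩, and let t be the number of conjugacy classes of elements of order p. If G has an irreducible character of degree p − 1, then t is even or the commutator subgroup has even index. -/
theorem result {G : Type*} [Group G] [Finite G] (p : ℕ) (hp : p.Prime) (x : G) (hx : orderOf x = p) (hC : Subgroup.centralizer ({x} : Set G) = Subgroup.zpowers x) (t : ℕ) (ht : Nat.card {C : ConjClasses G // ∃ g ∈ C.carrier, orderOf g = p} = t) (χ : Cfsg.IrrCharacter G) (hχ : Cfsg.charDegree (χ : G → ℂ) + 1 = p) : Even t ∨ Even (commutator G).index := by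
  classical
  have : Fact p.Prime := ⟨hp⟩
  have : Fintype G := Fintype.ofFinite G
  have hte := Cfsg.Agent.Lib.Helper79.card_classes_mul_relIndex hp hx hC
  rw [ht] at hte
  obtain ⟨e, he⟩ : ∃ e : ℕ, e = (Subgroup.zpowers x).relIndex
    (Subgroup.normalizer (Subgroup.zpowers x : Set G)) := ⟨_, rfl⟩
  rw [← he] at hte
  by_cases ht2 : Even t
  · exact Or.inl ht2
  right
  have htodd : Odd t := Nat.not_even_iff_odd.1 ht2
  by_cases hp2 : p = 2
  · have he1 : e = 1 := by
      rw [hp2] at hte
      exact Nat.eq_one_of_mul_eq_one_left hte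
    obtain ⟨K, -, hKi, -, hKc⟩ :=
      Cfsg.Agent.Lib.Helper79.exists_normal_complement hp hx hC (he ▸ he1)
    rw [hKc, hKi, hp2]
    exact even_two
  · have hp1 : p - 1 ≠ 0 := by
      have := hp.two_le
      omega
    obtain ⟨k, u, hu, hku⟩ := Nat.exists_eq_two_pow_mul_odd hp1
    have hk1 : 1 ≤ k := by
      by_contra hk0
      have hk0' : k = 0 := by omega
      subst hk0'
      rw [pow_zero, one_mul] at hku
      have hpodd : Odd p := hp.odd_of_ne_two hp2
      rw [← hku] at hu
      obtain ⟨a, ha⟩ := hpodd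
      obtain ⟨b, hb⟩ := hu
      omega
    have hdvd : 2 ^ k ∣ e := by
      have h1 : 2 ^ k ∣ t * e := by
        rw [hte, hku]
        exact dvd_mul_right _ _
      have h2 : Nat.Coprime (2 ^ k) t :=
        Nat.Coprime.pow_left k (Nat.coprime_two_left.2 htodd)
      exact h2.dvd_of_dvd_mul_left h1
    have he2 : 2 ≤ e := by
      have h1 : 2 ∣ e := dvd_trans (dvd_pow_self 2 (by omega)) hdvd
      have h2 : e ≠ 0 := by
        rintro rfl
        rw [mul_zero] at hte
        exact hp1 hte.symm
      exact Nat.le_of_dvd (Nat.pos_of_ne_zero h2) h1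
    obtain ⟨y, hyN, hyord, hy⟩ :=
      Cfsg.Agent.Lib.Helper20.pm1_exists_two_elt hx hC hp2 k (he ▸ hdvd)
    obtain ⟨n, ρ, hirr, hρ⟩ := χ.2
    have hdeg : Module.finrank ℂ (Fin n → ℂ) + 1 = p := by
      rw [← hχ]
      congr 1
      unfold charDegree
      rw [← hρ, Representation.char_one]
      simp
    have hvan : ∀ j : ℕ, y ^ j ≠ 1 → ρ.character (y ^ j) = 0 := by
      intro j hj
      exact Cfsg.Agent.Lib.Helper20.pm1_vanish hx hC (he ▸ he2) ρ hdeg
        (Subgroup.pow_mem _ hyN j) (hy j hj)
    have hdim : Module.finrank ℂ (Fin n → ℂ) = 2 ^ k * u := by omega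
    have hdet := Cfsg.Agent.Lib.Helper20.pm1_det ρ y k u hk1 hyord hdim hu hvan
    obtain ⟨f, hf⟩ := Cfsg.Agent.Lib.Helper20.exists_detHom (χ : G → ℂ)
    have hfy : f y = -1 := by
      apply Units.ext
      rw [hf, ← hρ, Cfsg.Agent.Lib.Helper20.detChar_eq, hdet]
      simp
    have h1 : orderOf (f y) = 2 := by
      rw [hfy, orderOf_eq_prime_iff]
      refine ⟨by simp, ?_⟩
      intro h
      have h2 := congrArg (fun z : ℂˣ => (z : ℂ)) h
      simp only [Units.val_neg, Units.val_one] at h2
      norm_num at h2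
    have h2 : 2 ∣ f.ker.index := by
      rw [Subgroup.index_ker, ← h1]
      have hmem : f y ∈ f.range := ⟨y, rfl⟩
      have h3 : orderOf (⟨f y, hmem⟩ : f.range) ∣ Nat.card f.range := orderOf_dvd_natCard _
      rwa [Subgroup.orderOf_mk] at h3
    have h3 : commutator G ≤ f.ker := Abelianization.commutator_subset_ker f
    exact even_iff_two_dvd.2 (dvd_trans h2 (Subgroup.index_dvd_of_le h3))

end Cfsg.Agent.S4508
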