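import Cfsg.Statements.S4509
import Mathlib
-- import your own Cfsg.Agent.* helpers here

set_option autoImplicit false
open Cfsg

namespace Cfsg.Agent.S4509


open Subgroup
open scoped commutatorElement

/-- a nontrivial element of a cyclic subgroup of prime order generates it -/
theorem gen_of_mem {G : Type*} [Group G] (p : ℕ) [Fact p.Prime] (x z : G) (hx : orderOf x = p)
    (hz : z ∈ zpowers x) (hz1 : z ≠ 1) : x ∈ zpowers z := by
  have hcard : Nat.card (zpowers x) = p := by rw [Nat.card_zpowers, hx]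
  have h1 : (⟨z, hz⟩ : zpowers x) ≠ 1 := fun h => hz1 (by simpa using congrArg Subtype.val h)
  have h2 := mem_zpowers_of_prime_card (G := zpowers x) hcard (g := ⟨z, hz⟩)
    (g' := ⟨x, mem_zpowers x⟩) h1
  obtain ⟨k, hk⟩ := mem_zpowers_iff.1 h2
  exact mem_zpowers_iff.2 ⟨k, by simpa using congrArg Subtype.val hk⟩

theorem x_ne_one {G : Type*} [Group G] (p : ℕ) [hp : Fact p.Prime] (x : G) (hx : orderOf x = p) :
    x ≠ 1 := by
  intro h
  rw [h, orderOf_one] at hx
  exact hp.out.one_lt.ne hx

theorem zp_comm {G : Type*} [Group G] (x a b : G) (ha : a ∈ zpowers x) (hb : b ∈ zpowers x) :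
    a * b = b * a := by
  obtain ⟨i, rfl⟩ := mem_zpowers_iff.1 ha
  obtain ⟨j, rfl⟩ := mem_zpowers_iff.1 hb
  rw [← zpow_add, ← zpow_add, add_comm]

/-- (A) `zpowers x` is a Sylow `p`-subgroup. -/
theorem exists_sylow {G : Type*} [Group G] [Finite G] (p : ℕ) [Fact p.Prime] (x : G)
    (hx : orderOf x = p) (hC : centralizer ({x} : Set G) = zpowers x) :
    ∃ P : Sylow p G, (P : Subgroup G) = zpowers x := by
  have hpg : IsPGroup p (zpowers x) :=
    IsPGroup.of_card (n := 1) (by rw [Nat.card_zpowers, hx, pow_one])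
  obtain ⟨P, hP⟩ := hpg.exists_le_sylow
  refine ⟨P, le_antisymm ?_ hP⟩
  have hxP : x ∈ (P : Subgroup G) := hP (mem_zpowers x)
  have hx1 := x_ne_one p x hx
  have : Nontrivial P := ⟨⟨⟨x, hxP⟩, 1, fun h => hx1 (by simpa using congrArg Subtype.val h)⟩⟩
  have := P.isPGroup'.center_nontrivial
  obtain ⟨z, hz1⟩ := exists_ne (1 : center P)
  have hzc : ∀ y : P, y * (z : P) = (z : P) * y := fun y => (mem_center_iff.1 z.2 y)
  have hzx : ((z : P) : G) ∈ zpowers x := by
    rw [← hC, mem_centralizer_iff]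
    intro y hy
    rw [Set.mem_singleton_iff] at hy
    subst hy
    have := hzc ⟨y, hxP⟩
    simpa using congrArg Subtype.val this
  have hz1' : ((z : P) : G) ≠ 1 := fun h => hz1 (by
    apply Subtype.ext; apply Subtype.ext; simpa using h)
  have hxz := gen_of_mem p x _ hx hzx hz1'
  obtain ⟨k, hk⟩ := mem_zpowers_iff.1 hxz
  intro y hy
  rw [← hC, mem_centralizer_iff]
  intro w hw
  rw [Set.mem_singleton_iff] at hw
  subst hw
  have h3 : (⟨y, hy⟩ : P) * (z : P) ^ k = (z : P) ^ k * ⟨y, hy⟩ := by
    have : Commute (⟨y, hy⟩ : P) (z : P) := hzc ⟨y, hy⟩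
    exact (this.zpow_right k)
  have h4 : y * ((z : P) : G) ^ k = ((z : P) : G) ^ k * y := by
    have := congrArg Subtype.val h3
    simpa using this
  rw [hk] at h4
  exact h4.symm

theorem mem_cent {G : Type*} [Group G] (x y : G) (h : y * x = x * y) :
    y ∈ centralizer ({x} : Set G) := by
  rw [mem_centralizer_iff]
  intro w hw
  rw [Set.mem_singleton_iff] at hw
  subst hw
  exact h.symm

/-- (L1) the commutator subgroup is a normal complement in the self-normalizing case -/
theorem comm_compl {H : Type*} [Group H] [Finite H] (p : ℕ) [Fact p.Prime] (x : H)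
    (hx : orderOf x = p) (hC : centralizer ({x} : Set H) = zpowers x)
    (hN : ∀ y : H, y * x * y⁻¹ ∈ zpowers x → y ∈ zpowers x) :
    Nat.card (commutator H) * p = Nat.card H ∧ (commutator H).index = p := by
  obtain ⟨P, hP⟩ := exists_sylow p x hx hC
  have hxP : x ∈ (P : Subgroup H) := hP ▸ mem_zpowers x
  have hNC : normalizer (P : Set H) ≤ centralizer (P : Set H) := by
    intro y hy
    have h1 : y * x * y⁻¹ ∈ (P : Subgroup H) := (mem_normalizer_iff.1 hy x).1 hxP
    have h2 : y ∈ zpowers x := hN y (hP ▸ h1)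
    rw [mem_centralizer_iff]
    intro w hw
    have hw' : w ∈ zpowers x := by rw [← hP]; exact hw
    exact zp_comm x w y hw' h2
  set f := MonoidHom.transferSylow P hNC with hf
  set K := f.ker with hK
  have hcompl : IsComplement' K P := MonoidHom.ker_transferSylow_isComplement' P hNC
  have hcardP : Nat.card (P : Subgroup H) = p := by rw [hP, Nat.card_zpowers, hx]
  have h1 : commutator H ≤ K := by
    rw [_root_.commutator_def, Subgroup.commutator_le]
    intro a _ b _
    rw [hK, MonoidHom.mem_ker, map_commutatorElement, commutatorElement_eq_one_iff_commute]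
    apply Subtype.ext
    have ha : ((f a : P) : H) ∈ zpowers x := by rw [← hP]; exact (f a).2
    have hb : ((f b : P) : H) ∈ zpowers x := by rw [← hP]; exact (f b).2
    simpa using zp_comm x _ _ ha hb
  have hdisj : ∀ y : H, y ∈ K → y ∈ zpowers x → y = 1 := by
    intro y hyK hyx
    exact Subgroup.disjoint_def.1 hcompl.disjoint hyK (by rw [hP]; exact hyx)
  have h2 : K ≤ commutator H := by
    let φ : K → K := fun k => ⟨⁅(k : H), x⁆, by
      have : ⁅(k : H), x⁆ = (k : H) * (x * (k : H)⁻¹ * x⁻¹) := by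
        rw [commutatorElement_def]; group
      rw [this]
      exact K.mul_mem k.2 (Subgroup.Normal.conj_mem inferInstance _ (K.inv_mem k.2) x)⟩
    have hinj : Function.Injective φ := by
      intro k k' hkk
      have h3 : ⁅(k : H), x⁆ = ⁅(k' : H), x⁆ := congrArg Subtype.val hkk
      have h4 : ((k' : H)⁻¹ * k) * x = x * ((k' : H)⁻¹ * k) := by
        rw [commutatorElement_def, commutatorElement_def] at h3
        have h5 : (k : H) * x * (k : H)⁻¹ = (k' : H) * x * (k' : H)⁻¹ := by
          have := congrArg (· * x) h3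
          simpa using this
        calc ((k' : H)⁻¹ * k) * x = (k' : H)⁻¹ * ((k : H) * x * (k : H)⁻¹) * k := by group
          _ = (k' : H)⁻¹ * ((k' : H) * x * (k' : H)⁻¹) * k := by rw [h5]
          _ = x * ((k' : H)⁻¹ * k) := by group
      have h6 : (k' : H)⁻¹ * k ∈ zpowers x := by
        rw [← hC]; exact mem_cent x _ h4
      have h7 := hdisj _ (K.mul_mem (K.inv_mem k'.2) k.2) h6
      apply Subtype.ext
      have : (k : H) = (k' : H) := by
        calc (k : H) = (k' : H) * ((k' : H)⁻¹ * k) := by group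
          _ = k' := by rw [h7, mul_one]
      exact this
    have hsurj : Function.Surjective φ := Finite.injective_iff_surjective.1 hinj
    intro k hk
    obtain ⟨k', hk'⟩ := hsurj ⟨k, hk⟩
    have h8 : ⁅(k' : H), x⁆ = k := congrArg Subtype.val hk'
    rw [← h8, _root_.commutator_def]
    exact Subgroup.commutator_mem_commutator (Subgroup.mem_top _) (Subgroup.mem_top _)
  have hKeq : commutator H = K := le_antisymm h1 h2
  constructor
  · rw [hKeq, ← hcardP]; exact hcompl.card_mul_card
  · rw [hKeq, hcompl.symm.index_eq_card, hcardP]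

theorem card_ne_one (α : Type*) [Group α] [Finite α] :
    Nat.card {y : α // y ≠ 1} = Nat.card α - 1 := by
  classical
  have := Fintype.ofFinite α
  rw [Nat.card_eq_fintype_card, Nat.card_eq_fintype_card, Fintype.card_subtype_compl,
    Fintype.card_subtype_eq]

theorem card_lt_of_surj_not_inj {α β : Type*} [Finite α] (f : α → β)
    (hs : Function.Surjective f) (hi : ¬ Function.Injective f) : Nat.card β < Nat.card α := by
  classical
  have := Fintype.ofFinite α
  have : Finite β := Finite.of_surjective f hs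
  have := Fintype.ofFinite β
  rw [Nat.card_eq_fintype_card, Nat.card_eq_fintype_card]
  exact Fintype.card_lt_of_surjective_not_injective f hs hi

theorem order_of_mem {G : Type*} [Group G] (p : ℕ) [hp : Fact p.Prime] (x y : G)
    (hx : orderOf x = p) (hy : y ∈ zpowers x) (hy1 : y ≠ 1) : orderOf y = p := by
  have h1 : orderOf y ∣ p := hx ▸ orderOf_dvd_of_mem_zpowers hy
  rcases (Nat.dvd_prime hp.out).1 h1 with h | h
  · exact absurd (orderOf_eq_one_iff.1 h) hy1
  · exact h

/-- the map from nontrivial elements of `zpowers x` to classes of elements of order `p` -/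
def clsMap {G : Type*} [Group G] (p : ℕ) [Fact p.Prime] (x : G) (hx : orderOf x = p) :
    {y : zpowers x // y ≠ 1} → {C : ConjClasses G // ∃ g ∈ C.carrier, orderOf g = p} :=
  fun y => ⟨ConjClasses.mk (y.1 : G), (y.1 : G), ConjClasses.mem_carrier_mk,
    order_of_mem p x _ hx y.1.2 (fun h => y.2 (Subtype.ext h))⟩

theorem clsMap_surj {G : Type*} [Group G] [Finite G] (p : ℕ) [Fact p.Prime] (x : G)
    (hx : orderOf x = p) (hC : centralizer ({x} : Set G) = zpowers x) :
    Function.Surjective (clsMap p x hx) := by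
  obtain ⟨P, hP⟩ := exists_sylow p x hx hC
  rintro ⟨C, g, hg, hgo⟩
  have hpg : IsPGroup p (zpowers g) :=
    IsPGroup.of_card (n := 1) (by rw [Nat.card_zpowers, hgo, pow_one])
  obtain ⟨Q, hQ⟩ := hpg.exists_le_sylow
  obtain ⟨h, hh⟩ := MulAction.exists_smul_eq G Q P
  have h1 : h * g * h⁻¹ ∈ (P : Subgroup G) := by
    rw [← hh, Sylow.smul_def, Sylow.pointwise_smul_def, Subgroup.mem_smul_pointwise_iff_exists]
    exact ⟨g, hQ (mem_zpowers g), by simp [MulAut.smul_def]⟩
  rw [hP] at h1
  have hg1 : g ≠ 1 := x_ne_one p g hgo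
  have h2 : h * g * h⁻¹ ≠ 1 := by
    intro h3
    apply hg1
    calc g = h⁻¹ * (h * g * h⁻¹) * h := by group
      _ = 1 := by rw [h3]; group
  refine ⟨⟨⟨h * g * h⁻¹, h1⟩, fun h3 => h2 (congrArg Subtype.val h3)⟩, ?_⟩
  apply Subtype.ext
  show ConjClasses.mk (h * g * h⁻¹) = C
  rw [← ConjClasses.mem_carrier_iff_mk_eq.1 hg, ConjClasses.mk_eq_mk_iff_isConj, isConj_comm,
    isConj_iff]
  exact ⟨h, rfl⟩

theorem clsMap_inj {G : Type*} [Group G] (p : ℕ) [Fact p.Prime] (x : G)
    (hx : orderOf x = p)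
    (hN : ∀ y : G, y * x * y⁻¹ ∈ zpowers x → y ∈ zpowers x) :
    Function.Injective (clsMap p x hx) := by
  rintro ⟨⟨y, hy⟩, hy1⟩ ⟨⟨y', hy'⟩, hy1'⟩ h
  have h1 : ConjClasses.mk y = ConjClasses.mk y' := congrArg Subtype.val h
  rw [ConjClasses.mk_eq_mk_iff_isConj, isConj_iff] at h1
  obtain ⟨c, hc⟩ := h1
  have hy1'' : y ≠ 1 := fun h3 => hy1 (Subtype.ext h3)
  obtain ⟨k, hk⟩ := mem_zpowers_iff.1 (gen_of_mem p x y hx hy hy1'')
  have h2 : c * x * c⁻¹ ∈ zpowers x := by
    have h6 : c * x * c⁻¹ = y' ^ k := by rw [← hk, ← conj_zpow, hc]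
    rw [h6]
    exact (zpowers x).zpow_mem hy' k
  have h3 : c ∈ zpowers x := hN c h2
  have h4 : c * y = y * c := zp_comm x c y h3 hy
  have h5 : y = y' := by
    rw [← hc, h4]; group
  apply Subtype.ext; apply Subtype.ext; exact h5

theorem clsMap_not_inj {G : Type*} [Group G] (p : ℕ) [Fact p.Prime] (x : G)
    (hx : orderOf x = p) (hC : centralizer ({x} : Set G) = zpowers x)
    (hN : ∃ y : G, y * x * y⁻¹ ∈ zpowers x ∧ y ∉ zpowers x) :
    ¬ Function.Injective (clsMap p x hx) := by
  obtain ⟨y, hy, hyn⟩ := hN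
  intro hinj
  have hx1 := x_ne_one p x hx
  have h2 : y * x * y⁻¹ ≠ 1 := by
    intro h3
    apply hx1
    calc x = y⁻¹ * (y * x * y⁻¹) * y := by group
      _ = 1 := by rw [h3]; group
  have h3 : clsMap p x hx ⟨⟨x, mem_zpowers x⟩, fun h => hx1 (congrArg Subtype.val h)⟩ =
      clsMap p x hx ⟨⟨y * x * y⁻¹, hy⟩, fun h => h2 (congrArg Subtype.val h)⟩ := by
    apply Subtype.ext
    show ConjClasses.mk x = ConjClasses.mk (y * x * y⁻¹)
    rw [ConjClasses.mk_eq_mk_iff_isConj, isConj_iff]
    exact ⟨y, rfl⟩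
  have h4 := hinj h3
  have h5 : x = y * x * y⁻¹ := congrArg (fun z => ((z.1 : zpowers x) : G)) h4
  apply hyn
  rw [← hC]
  apply mem_cent
  calc y * x = (y * x * y⁻¹) * y := by group
    _ = x * y := by rw [← h5]

/-- (C) the number of classes of elements of order `p` -/
theorem class_count {G : Type*} [Group G] [Finite G] (p : ℕ) [Fact p.Prime] (x : G)
    (hx : orderOf x = p) (hC : centralizer ({x} : Set G) = zpowers x) :
    ((∀ y : G, y * x * y⁻¹ ∈ zpowers x → y ∈ zpowers x) →
      Nat.card {C : ConjClasses G // ∃ g ∈ C.carrier, orderOf g = p} = p - 1) ∧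
    ((∃ y : G, y * x * y⁻¹ ∈ zpowers x ∧ y ∉ zpowers x) →
      Nat.card {C : ConjClasses G // ∃ g ∈ C.carrier, orderOf g = p} < p - 1) := by
  have hT : Nat.card {y : zpowers x // y ≠ 1} = p - 1 := by
    rw [card_ne_one, Nat.card_zpowers, hx]
  constructor
  · intro hN
    rw [← hT]
    exact (Nat.card_congr (Equiv.ofBijective _ ⟨clsMap_inj p x hx hN, clsMap_surj p x hx hC⟩)).symm
  · intro hN
    rw [← hT]
    exact card_lt_of_surj_not_inj _ (clsMap_surj p x hx hC) (clsMap_not_inj p x hx hC hN)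

/-- (B) the number of subgroups of order `p` is the index of the normalizer -/
theorem sylow_count {G : Type*} [Group G] [Finite G] (p : ℕ) [Fact p.Prime] (P : Sylow p G)
    (hP : Nat.card (P : Subgroup G) = p) :
    Nat.card {H : Subgroup G // Nat.card H = p} = (normalizer ((P : Subgroup G) : Set G)).index := by
  have hfac : p ^ (Nat.card G).factorization p = p := by rw [← P.card_eq_multiplicity, hP]
  let e : {H : Subgroup G // Nat.card H = p} ≃ Sylow p G :=
    { toFun := fun H => Sylow.ofCard H.1 (by rw [H.2, hfac])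
      invFun := fun Q => ⟨Q.1, by rw [Q.card_eq_multiplicity, hfac]⟩
      left_inv := fun H => by apply Subtype.ext; rfl
      right_inv := fun Q => by apply Sylow.ext; rfl }
  rw [Nat.card_congr e]
  exact P.card_eq_index_normalizer

theorem conj_comm {G : Type*} [Group G] (x a b : G) (i j : ℤ) (ha : a * x * a⁻¹ = x ^ i)
    (hb : b * x * b⁻¹ = x ^ j) : (a * b) * x * (a * b)⁻¹ = (b * a) * x * (b * a)⁻¹ := by
  have h1 : (a * b) * x * (a * b)⁻¹ = a * (b * x * b⁻¹) * a⁻¹ := by group
  have h2 : (b * a) * x * (b * a)⁻¹ = b * (a * x * a⁻¹) * b⁻¹ := by group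
  rw [h1, h2, ha, hb, ← conj_zpow, ← conj_zpow, ha, hb, ← zpow_mul, ← zpow_mul, mul_comm]

/-- (E2) commutators of elements normalizing `zpowers x` centralize `x` -/
theorem comm_norm {G : Type*} [Group G] (x a b : G)
    (ha : a ∈ normalizer ((zpowers x : Subgroup G) : Set G))
    (hb : b ∈ normalizer ((zpowers x : Subgroup G) : Set G)) :
    ⁅a, b⁆ ∈ centralizer ({x} : Set G) := by
  have ha' := (normalizer ((zpowers x : Subgroup G) : Set G)).inv_mem ha
  have hb' := (normalizer ((zpowers x : Subgroup G) : Set G)).inv_mem hb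
  have h1 : a⁻¹ * x * a⁻¹⁻¹ ∈ zpowers x := (mem_normalizer_iff.1 ha' x).1 (mem_zpowers x)
  have h2 : b⁻¹ * x * b⁻¹⁻¹ ∈ zpowers x := (mem_normalizer_iff.1 hb' x).1 (mem_zpowers x)
  obtain ⟨i, hi⟩ := mem_zpowers_iff.1 h1
  obtain ⟨j, hj⟩ := mem_zpowers_iff.1 h2
  have h3 := conj_comm x a⁻¹ b⁻¹ i j hi.symm hj.symm
  apply mem_cent
  have h4 : ⁅a, b⁆ = (b⁻¹ * a⁻¹)⁻¹ * (a⁻¹ * b⁻¹) := by
    rw [commutatorElement_def]; group
  rw [h4]
  calc (b⁻¹ * a⁻¹)⁻¹ * (a⁻¹ * b⁻¹) * x
      = (b⁻¹ * a⁻¹)⁻¹ * ((a⁻¹ * b⁻¹) * x * (a⁻¹ * b⁻¹)⁻¹) * (a⁻¹ * b⁻¹) := by group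
    _ = (b⁻¹ * a⁻¹)⁻¹ * ((b⁻¹ * a⁻¹) * x * (b⁻¹ * a⁻¹)⁻¹) * (a⁻¹ * b⁻¹) := by rw [h3]
    _ = x * ((b⁻¹ * a⁻¹)⁻¹ * (a⁻¹ * b⁻¹)) := by group

/-- commutators modulo a normal subgroup -/
theorem comm_mod {G : Type*} [Group G] (S : Subgroup G) [S.Normal] (a b a' b' : G)
    (ha : a⁻¹ * a' ∈ S) (hb : b⁻¹ * b' ∈ S) : ⁅a, b⁆⁻¹ * ⁅a', b'⁆ ∈ S := by
  rw [← QuotientGroup.eq] at ha hb ⊢
  have h1 : ((⁅a, b⁆ : G) : G ⧸ S) = ⁅(a : G ⧸ S), (b : G ⧸ S)⁆ :=
    map_commutatorElement (QuotientGroup.mk' S) a b
  have h2 : ((⁅a', b'⁆ : G) : G ⧸ S) = ⁅(a' : G ⧸ S), (b' : G ⧸ S)⁆ :=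
    map_commutatorElement (QuotientGroup.mk' S) a' b'
  rw [h1, h2, ha, hb]

/-- Let the finite group G contain an element x of prime order p with C_G(x) = ⟨x⟩; let t be the number of conjugacy classes of elements of order p and 1 + n·p the number of subgroups of order p. Then G has a normal subgroup of order 1 + n·p if and only if either t = p − 1, or t < p − 1 and G″ ≠ G′. Moreover, if t = p − 1 then G′ has order 1 + n·p and G/G′ is cyclic of order p; and if t < p − 1 and G″ ≠ G′ then G″ has order 1 + n·p and G′ has order p·(1 + n·p). -/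
theorem result {G : Type*} [Group G] [Finite G] (p : ℕ) (hp : p.Prime) (x : G) (hx : orderOf x = p) (hC : Subgroup.centralizer ({x} : Set G) = Subgroup.zpowers x) (t : ℕ) (ht : Nat.card {C : ConjClasses G // ∃ g ∈ C.carrier, orderOf g = p} = t) (n : ℕ) (hn : Nat.card {H : Subgroup G // Nat.card H = p} = 1 + n * p) : ((∃ S : Subgroup G, S.Normal ∧ Nat.card S = 1 + n * p) ↔ (t = p - 1 ∨ (t < p - 1 ∧ derivedSeries G 2 ≠ derivedSeries G 1))) ∧ (t = p - 1 → Nat.card (commutator G) = 1 + n * p ∧ IsCyclic (G ⧸ commutator G) ∧ (commutator G).index = p) ∧ (t < p - 1 → derivedSeries G 2 ≠ derivedSeries G 1 → Nat.card (derivedSeries G 2) = 1 + n * p ∧ Nat.card (commutator G) = p * (1 + n * p)) := by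
  classical
  have : Fact p.Prime := ⟨hp⟩
  obtain ⟨P, hP⟩ := exists_sylow p x hx hC
  have hcardP : Nat.card (P : Subgroup G) = p := by rw [hP, Nat.card_zpowers, hx]
  have hcardx : Nat.card (zpowers x) = p := by rw [Nat.card_zpowers, hx]
  set Nm : Subgroup G := normalizer ((P : Subgroup G) : Set G) with hNm
  have hidx : Nm.index = 1 + n * p := by rw [← hn]; exact (sylow_count p P hcardP).symm
  obtain ⟨hc1, hc2⟩ := class_count p x hx hC
  rw [ht] at hc1 hc2
  have hM1 : derivedSeries G 1 = commutator G := derivedSeries_one G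
  have hD : derivedSeries G 2 = ⁅commutator G, commutator G⁆ := by
    rw [show (2 : ℕ) = 1 + 1 from rfl, derivedSeries_succ, hM1]
  have hx1 := x_ne_one p x hx
  have hNmx : ∀ y ∈ Nm, y * x * y⁻¹ ∈ zpowers x := by
    intro y hy
    rw [← hP]
    exact (mem_normalizer_iff.1 hy x).1 (hP ▸ mem_zpowers x)
  have hNmz : ∀ y ∈ Nm, y ∈ normalizer ((zpowers x : Subgroup G) : Set G) := by
    intro y hy
    rw [← hP]; exact hy
  have hPNm : (P : Subgroup G) ≤ Nm := le_normalizer
  by_cases hN : ∀ y : G, y * x * y⁻¹ ∈ zpowers x → y ∈ zpowers x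
  · -- the self-normalizing case
    have ht1 : t = p - 1 := hc1 hN
    obtain ⟨hcard, hindex⟩ := comm_compl p x hx hC hN
    have hNmP : Nm = (P : Subgroup G) := by
      apply le_antisymm _ hPNm
      intro y hy
      rw [hP]
      exact hN y (hNmx y hy)
    have hcardNm : Nat.card Nm = p := by rw [hNmP, hcardP]
    have hcardM : Nat.card (commutator G) = 1 + n * p := by
      have h1 : Nat.card Nm * Nm.index = Nat.card G := Nm.card_mul_index
      rw [hcardNm, hidx, ← hcard, mul_comm] at h1
      exact (Nat.eq_of_mul_eq_mul_right hp.pos h1).symm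
    refine ⟨⟨fun _ => Or.inl ht1, fun _ => ⟨commutator G, inferInstance, hcardM⟩⟩, ?_, ?_⟩
    · intro _
      refine ⟨hcardM, ?_, hindex⟩
      have : Nat.card (G ⧸ commutator G) = p := by
        rw [← Subgroup.index_eq_card]; exact hindex
      exact isCyclic_of_prime_card this
    · intro h; omega
  · -- the other case
    push Not at hN
    obtain ⟨y₀, hy₀, hy₀n⟩ := hN
    have htlt : t < p - 1 := hc2 ⟨y₀, hy₀, hy₀n⟩
    -- a nontrivial commutator in zpowers x
    have hcomm : ∀ y : G, y * x * y⁻¹ ∈ zpowers x → y ∉ zpowers x →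
        ⁅y, x⁆ ∈ zpowers x ∧ ⁅y, x⁆ ≠ 1 := by
      intro y hy hyn
      constructor
      · rw [commutatorElement_def]
        exact (zpowers x).mul_mem hy ((zpowers x).inv_mem (mem_zpowers x))
      · intro h
        rw [commutatorElement_eq_one_iff_mul_comm] at h
        exact hyn (hC ▸ mem_cent x y h)
    have hxM : x ∈ commutator G := by
      obtain ⟨h1, h2⟩ := hcomm y₀ hy₀ hy₀n
      have h3 : ⁅y₀, x⁆ ∈ commutator G := by
        rw [_root_.commutator_def]
        exact Subgroup.commutator_mem_commutator (Subgroup.mem_top _) (Subgroup.mem_top _)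
      exact (zpowers_le.2 h3) (gen_of_mem p x _ hx h1 h2)
    have hcn : ∀ a ∈ Nm, ∀ b ∈ Nm, ⁅a, b⁆ ∈ zpowers x := by
      intro a ha b hb
      rw [← hC]
      exact comm_norm x a b (hNmz a ha) (hNmz b hb)
    -- the main claim in this case
    have hQ : derivedSeries G 2 ≠ derivedSeries G 1 →
        Nat.card (derivedSeries G 2) = 1 + n * p ∧ Nat.card (commutator G) = p * (1 + n * p) := by
      intro hne
      have hDn : (derivedSeries G 2).Normal := derivedSeries_normal G 2
      -- Step a
      have hxD : x ∉ derivedSeries G 2 := by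
        intro hxD
        have hPD : (P : Subgroup G) ≤ derivedSeries G 2 := by
          rw [hP]; exact zpowers_le.2 hxD
        have hsup : Nm ⊔ derivedSeries G 2 = ⊤ := Sylow.normalizer_sup_eq_top' P hPD
        have hMD : commutator G ≤ derivedSeries G 2 := by
          rw [_root_.commutator_def, Subgroup.commutator_le]
          intro a _ b _
          have ha : a ∈ Nm ⊔ derivedSeries G 2 := hsup ▸ Subgroup.mem_top a
          have hb : b ∈ Nm ⊔ derivedSeries G 2 := hsup ▸ Subgroup.mem_top b
          rw [Subgroup.mem_sup_of_normal_right] at ha hb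
          obtain ⟨n₁, hn₁, d₁, hd₁, rfl⟩ := ha
          obtain ⟨n₂, hn₂, d₂, hd₂, rfl⟩ := hb
          have h1 := comm_mod (derivedSeries G 2) n₁ n₂ (n₁ * d₁) (n₂ * d₂)
            (by simpa using hd₁) (by simpa using hd₂)
          have h2 : ⁅n₁, n₂⁆ ∈ derivedSeries G 2 := (zpowers_le.2 hxD) (hcn n₁ hn₁ n₂ hn₂)
          have h3 := (derivedSeries G 2).mul_mem h2 h1
          rw [mul_inv_cancel_left] at h3
          exact h3
        apply hne
        rw [hM1]
        exact le_antisymm (hM1 ▸ derivedSeries_antitone G (by norm_num : 1 ≤ 2)) hMD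
      -- Step b
      set M : Subgroup G := commutator G with hM
      let x' : M := ⟨x, hxM⟩
      have hx' : orderOf x' = p := by rw [Subgroup.orderOf_mk]; exact hx
      have hlift : ∀ y : M, (y : G) ∈ zpowers x → y ∈ zpowers x' := by
        intro y hy
        obtain ⟨k, hk⟩ := mem_zpowers_iff.1 hy
        exact mem_zpowers_iff.2 ⟨k, Subtype.ext (by simpa using hk)⟩
      have hdown : ∀ y : M, y ∈ zpowers x' → (y : G) ∈ zpowers x := by
        intro y hy
        obtain ⟨k, hk⟩ := mem_zpowers_iff.1 hy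
        exact mem_zpowers_iff.2 ⟨k, by simpa using congrArg Subtype.val hk⟩
      have hC' : centralizer ({x'} : Set M) = zpowers x' := by
        ext y
        constructor
        · intro hy
          rw [mem_centralizer_iff] at hy
          have h1 := hy x' (Set.mem_singleton _)
          have h2 : x * (y : G) = (y : G) * x := by simpa using congrArg Subtype.val h1
          exact hlift y (hC ▸ mem_cent x _ h2.symm)
        · intro hy
          apply mem_cent
          exact zp_comm x' y x' hy (mem_zpowers x')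
      have hN' : ∀ y : M, y * x' * y⁻¹ ∈ zpowers x' → y ∈ zpowers x' := by
        intro y hy
        by_contra hyn
        have h1 : (y : G) * x * (y : G)⁻¹ ∈ zpowers x := by simpa using hdown _ hy
        have h2 : (y : G) ∉ zpowers x := fun h => hyn (hlift y h)
        obtain ⟨h3, h4⟩ := hcomm y h1 h2
        have h5 : ⁅(y : G), x⁆ ∈ derivedSeries G 2 := by
          rw [hD]
          exact Subgroup.commutator_mem_commutator y.2 hxM
        exact hxD ((zpowers_le.2 h5) (gen_of_mem p x _ hx h3 h4))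
      -- Step c
      obtain ⟨hcard', -⟩ := comm_compl p x' hx' hC' hN'
      have hmap : (commutator M).map M.subtype = derivedSeries G 2 := by
        rw [hD, _root_.commutator_def, Subgroup.map_commutator, ← MonoidHom.range_eq_map,
          Subgroup.range_subtype]
      have hcardD : Nat.card (derivedSeries G 2) = Nat.card (commutator M) := by
        rw [← hmap]
        exact Subgroup.card_map_of_injective M.subtype_injective
      -- Step d
      have hPM : (P : Subgroup G) ≤ M := by rw [hP]; exact zpowers_le.2 hxM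
      have hMN : M ⊓ Nm = (P : Subgroup G) := by
        apply le_antisymm
        · rintro y ⟨hyM, hyN⟩
          rw [hP]
          have h1 : (⟨y, hyM⟩ : M) * x' * (⟨y, hyM⟩ : M)⁻¹ ∈ zpowers x' :=
            hlift _ (by simpa using hNmx y hyN)
          exact hdown _ (hN' ⟨y, hyM⟩ h1)
        · exact le_inf hPM hPNm
      have hsup : Nm ⊔ M = ⊤ := Sylow.normalizer_sup_eq_top' P hPM
      have h1 : M.relIndex Nm = M.index := by
        rw [← Subgroup.relIndex_sup_right Nm M, hsup, Subgroup.relIndex_top_right]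
      have h2 : (P : Subgroup G).relIndex Nm = M.relIndex Nm := by
        rw [← hMN]; exact Subgroup.inf_relIndex_right M Nm
      have h3 : (P : Subgroup G).relIndex Nm * Nm.index = (P : Subgroup G).index :=
        Subgroup.relIndex_mul_index hPNm
      rw [h2, h1] at h3
      have h4 : Nat.card M * M.index = Nat.card G := M.card_mul_index
      have h5 : Nat.card (P : Subgroup G) * (P : Subgroup G).index = Nat.card G :=
        Subgroup.card_mul_index _
      rw [hcardP, ← h3] at h5
      have h6 : Nat.card M = p * Nm.index := by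
        have hpos : 0 < M.index := Nat.pos_of_ne_zero (Subgroup.index_ne_zero_of_finite)
        apply Nat.eq_of_mul_eq_mul_right hpos
        rw [h4, ← h5]; ring
      rw [hidx] at h6
      refine ⟨?_, h6⟩
      rw [hcardD]
      rw [h6, mul_comm] at hcard'
      exact Nat.eq_of_mul_eq_mul_left hp.pos hcard'
    refine ⟨⟨?_, ?_⟩, fun h => by omega, fun _ => hQ⟩
    · -- a normal subgroup of that order forces G'' ≠ G'
      rintro ⟨S, hSn, hScard⟩
      refine Or.inr ⟨htlt, ?_⟩
      have hcop : Nat.Coprime (Nat.card S) (Nat.card (zpowers x)) := by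
        rw [hScard, hcardx]
        exact (Nat.coprime_add_mul_right_left 1 p n).2 (Nat.coprime_one_left p)
      have hSx : ∀ y : G, y ∈ S → y ∈ zpowers x → y = 1 := by
        intro y hyS hyx
        exact Subgroup.disjoint_def.1 (Subgroup.disjoint_of_coprime_natCard hcop) hyS hyx
      have hdisj : Disjoint S Nm := by
        rw [Subgroup.disjoint_def]
        intro y hyS hyN
        have h1 : ⁅y, x⁆ ∈ S := by
          have : ⁅y, x⁆ = y * (x * y⁻¹ * x⁻¹) := by rw [commutatorElement_def]; group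
          rw [this]
          exact S.mul_mem hyS (hSn.conj_mem _ (S.inv_mem hyS) x)
        have h2 : ⁅y, x⁆ ∈ zpowers x := by
          rw [commutatorElement_def]
          exact (zpowers x).mul_mem (hNmx y hyN) ((zpowers x).inv_mem (mem_zpowers x))
        have h3 := hSx _ h1 h2
        rw [commutatorElement_eq_one_iff_mul_comm] at h3
        exact hSx y hyS (hC ▸ mem_cent x y h3)
      have hcompl : IsComplement' S Nm := by
        apply isComplement'_of_card_mul_and_disjoint _ hdisj
        rw [hScard, ← hidx, mul_comm]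
        exact Nm.card_mul_index
      have hsup : Nm ⊔ S = ⊤ := by rw [sup_comm]; exact hcompl.sup_eq_top
      have hMle : commutator G ≤ zpowers x ⊔ S := by
        rw [_root_.commutator_def, Subgroup.commutator_le]
        intro a _ b _
        have ha : a ∈ Nm ⊔ S := hsup ▸ Subgroup.mem_top a
        have hb : b ∈ Nm ⊔ S := hsup ▸ Subgroup.mem_top b
        rw [Subgroup.mem_sup_of_normal_right] at ha hb
        obtain ⟨n₁, hn₁, d₁, hd₁, rfl⟩ := ha
        obtain ⟨n₂, hn₂, d₂, hd₂, rfl⟩ := hb
        have h1 := comm_mod S n₁ n₂ (n₁ * d₁) (n₂ * d₂) (by simpa using hd₁) (by simpa using hd₂)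
        have h3 := Subgroup.mul_mem_sup (hcn n₁ hn₁ n₂ hn₂) h1
        rw [mul_inv_cancel_left] at h3
        exact h3
      have hDS : derivedSeries G 2 ≤ S := by
        rw [hD, Subgroup.commutator_le]
        intro u hu v hv
        have hu' := hMle hu
        have hv' := hMle hv
        rw [Subgroup.mem_sup_of_normal_right] at hu' hv'
        obtain ⟨z₁, hz₁, s₁, hs₁, rfl⟩ := hu'
        obtain ⟨z₂, hz₂, s₂, hs₂, rfl⟩ := hv'
        have h1 := comm_mod S z₁ z₂ (z₁ * s₁) (z₂ * s₂) (by simpa using hs₁) (by simpa using hs₂)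
        have h2 : ⁅z₁, z₂⁆ = 1 := by
          rw [commutatorElement_eq_one_iff_mul_comm]
          exact zp_comm x z₁ z₂ hz₁ hz₂
        rw [h2] at h1
        simpa using h1
      intro heq
      have hxD : x ∈ derivedSeries G 2 := by rw [heq, hM1]; exact hxM
      exact hx1 (hSx x (hDS hxD) (mem_zpowers x))
    · rintro (h | ⟨-, hne⟩)
      · omega
      · exact ⟨derivedSeries G 2, derivedSeries_normal G 2, (hQ hne).1⟩

end Cfsg.Agent.S4509
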