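import Cfsg.Statements.S4512
-- import your own Cfsg.Agent.* helpers here
import Mathlib
import Cfsg.Agent.S0948
import Cfsg.Agent.Lib.Helper79.Klein9
import Cfsg.Agent.Lib.Helper81.RegPart

set_option autoImplicit false
open Cfsg

namespace Cfsg.Agent.S4512

open Cfsg.Agent.Lib.Helper4 Cfsg.Agent.Lib.Helper5 Cfsg.Agent.Lib.Helper79
  Cfsg.Agent.Lib.Helper81 Cfsg.Agent.Lib.Helper83

/-- If G is a finite group with a Sylow 2-subgroup that is a Klein four-group and a single conjugacy class of involutions, then its principal 2-block (relative to a maximal ideal M of the algebraic integers containing 2) has 2-regular rank 3: the restrictions of its irreducible characters to the elements of odd order span a space of dimension 3 (it has three irreducible Brauer characters). -/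
theorem result {G : Type*} [Group G] [Finite G] (M : Ideal Cfsg.AlgInt) (hM : Cfsg.IsPModular 2 M) (P : Sylow 2 G)
    (hP : Nat.card P = 4) (hexp : ∀ x : P, x * x = 1)
    (hone : ∀ s t : G, orderOf s = 2 → orderOf t = 2 → IsConj s t) :
    Cfsg.blockRank 2 (Cfsg.principalBlock M G) = 3 := by
  classical
  letI := Fintype.ofFinite G
  have hexp' : ∀ x ∈ (P : Subgroup G), x * x = 1 := by
    intro x hx
    exact congrArg Subtype.val (hexp ⟨x, hx⟩)
  have hKlein : IsKleinFour (P : Subgroup G) := by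
    refine ⟨hP, ?_⟩
    have h1 : Monoid.exponent (P : Subgroup G) ∣ 2 :=
      Monoid.exponent_dvd_of_forall_pow_eq_one (fun x => by rw [pow_two]; exact hexp x)
    have h2 : Monoid.exponent (P : Subgroup G) ≠ 1 := by
      intro h
      have h3 : Subsingleton (P : Subgroup G) := Monoid.exp_eq_one_iff.mp h
      have h4 : Nat.card (P : Subgroup G) = 1 := Nat.card_eq_one_iff_unique.mpr ⟨h3, ⟨1⟩⟩
      rw [hP] at h4
      omega
    rcases (Nat.dvd_prime Nat.prime_two).mp h1 with h | h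
    · exact absurd h h2
    · exact h
  obtain ⟨ζ₂, ζ₃, ζ₄, ε, hε, h2ne, h3ne, h23, h24, h34, hB, hinv, -, -, -, hrel⟩ :=
    Cfsg.Agent.S0948.result M hM P hKlein hone
  -- an involution
  obtain ⟨z, -, hzP, -, hz1, -, -⟩ := klein_exists P hKlein
  have hzo : orderOf z = 2 := klein_orderOf P hKlein z hzP hz1
  have hεε : (ε : ℂ) * (ε : ℂ) = 1 := by
    rcases hε with h | h <;> rw [h] <;> norm_num
  -- the four characters
  have hχ₀B : Cfsg.Agent.Lib.Helper83.trivIrr G ∈ principalBlock M G := trivIrr_mem_principalBlock hM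
  have h2B : ζ₂ ∈ principalBlock M G := by rw [hB]; exact Or.inr (Or.inl rfl)
  have h3B : ζ₃ ∈ principalBlock M G := by rw [hB]; exact Or.inr (Or.inr (Or.inl rfl))
  have h4B : ζ₄ ∈ principalBlock M G := by rw [hB]; exact Or.inr (Or.inr (Or.inr rfl))
  have h02 : Cfsg.Agent.Lib.Helper83.trivIrr G ≠ ζ₂ := fun h => h2ne (by rw [← h]; rfl)
  have h03 : Cfsg.Agent.Lib.Helper83.trivIrr G ≠ ζ₃ := fun h => h3ne (by rw [← h]; rfl)
  have h04 : Cfsg.Agent.Lib.Helper83.trivIrr G ≠ ζ₄ := by
    intro h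
    have h5 := (hinv z hzo).2.2
    rw [← h, Cfsg.Agent.Lib.Helper83.trivIrr_apply] at h5
    norm_num at h5
  -- values at 2-singular elements
  have hsing : ∀ g : G, 2 ∣ orderOf g →
      (ζ₂ : G → ℂ) g = 1 ∧ (ζ₃ : G → ℂ) g = (ε : ℂ) ∧ (ζ₄ : G → ℂ) g = -1 := by
    intro g hg
    obtain ⟨z₂, hz₂, e₂⟩ := principal_singular_value hM P hP hexp' ζ₂ h2B g hg
    obtain ⟨z₃, hz₃, e₃⟩ := principal_singular_value hM P hP hexp' ζ₃ h3B g hg
    obtain ⟨z₄, hz₄, e₄⟩ := principal_singular_value hM P hP hexp' ζ₄ h4B g hg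
    exact ⟨e₂.trans (hinv z₂ hz₂).1, e₃.trans (hinv z₃ hz₃).2.1, e₄.trans (hinv z₄ hz₄).2.2⟩
  have hreg : ∀ g : G, ¬ 2 ∣ orderOf g →
      1 + (ζ₂ : G → ℂ) g + (ε : ℂ) * (ζ₃ : G → ℂ) g - (ζ₄ : G → ℂ) g = 0 := by
    intro g hg
    refine hrel g ?_
    rw [← Nat.not_even_iff_odd, even_iff_two_dvd]
    exact hg
  -- the relation among the restrictions
  have hv4 : pRegularPart 2 (ζ₄ : G → ℂ) = pRegularPart 2 (Cfsg.Agent.Lib.Helper83.trivIrr G : G → ℂ) +
      pRegularPart 2 (ζ₂ : G → ℂ) + (ε : ℂ) • pRegularPart 2 (ζ₃ : G → ℂ) := by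
    funext g
    by_cases hg : 2 ∣ orderOf g
    · simp [pRegularPart_of_sing _ hg]
    · simp only [Pi.add_apply, Pi.smul_apply, smul_eq_mul, pRegularPart_of_reg _ hg,
        Cfsg.Agent.Lib.Helper83.trivIrr_apply]
      linear_combination -(hreg g hg)
  -- the spanning family
  let w : Fin 3 → (G → ℂ) := ![pRegularPart 2 (Cfsg.Agent.Lib.Helper83.trivIrr G : G → ℂ), pRegularPart 2 (ζ₂ : G → ℂ),
    pRegularPart 2 (ζ₃ : G → ℂ)]
  have hspan : Submodule.span ℂ ((fun χ : IrrCharacter G => pRegularPart 2 (χ : G → ℂ)) ''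
      principalBlock M G) = Submodule.span ℂ (Set.range w) := by
    apply le_antisymm
    · refine Submodule.span_le.mpr ?_
      rintro _ ⟨χ, hχ, rfl⟩
      rw [hB] at hχ
      have hw0 : pRegularPart 2 (Cfsg.Agent.Lib.Helper83.trivIrr G : G → ℂ) ∈ Submodule.span ℂ (Set.range w) :=
        Submodule.subset_span ⟨0, rfl⟩
      have hw1 : pRegularPart 2 (ζ₂ : G → ℂ) ∈ Submodule.span ℂ (Set.range w) :=
        Submodule.subset_span ⟨1, rfl⟩
      have hw2 : pRegularPart 2 (ζ₃ : G → ℂ) ∈ Submodule.span ℂ (Set.range w) :=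
        Submodule.subset_span ⟨2, rfl⟩
      rcases hχ with h | h | h | h
      · have h' : (χ : G → ℂ) = (Cfsg.Agent.Lib.Helper83.trivIrr G : G → ℂ) := h
        show pRegularPart 2 (χ : G → ℂ) ∈ _
        rw [h']
        exact hw0
      · show pRegularPart 2 (χ : G → ℂ) ∈ _
        rw [h]; exact hw1
      · show pRegularPart 2 (χ : G → ℂ) ∈ _
        rw [h]; exact hw2
      · show pRegularPart 2 (χ : G → ℂ) ∈ _
        rw [h, hv4]
        exact Submodule.add_mem _ (Submodule.add_mem _ hw0 hw1) (Submodule.smul_mem _ _ hw2)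
    · refine Submodule.span_le.mpr ?_
      rintro _ ⟨i, rfl⟩
      fin_cases i
      · exact Submodule.subset_span ⟨Cfsg.Agent.Lib.Helper83.trivIrr G, hχ₀B, rfl⟩
      · exact Submodule.subset_span ⟨ζ₂, h2B, rfl⟩
      · exact Submodule.subset_span ⟨ζ₃, h3B, rfl⟩
  -- linear independence
  have hli : LinearIndependent ℂ w := by
    rw [Fintype.linearIndependent_iff]
    intro a ha
    have hg : ∀ g : G, a 0 * pRegularPart 2 (Cfsg.Agent.Lib.Helper83.trivIrr G : G → ℂ) g +
        a 1 * pRegularPart 2 (ζ₂ : G → ℂ) g + a 2 * pRegularPart 2 (ζ₃ : G → ℂ) g = 0 := by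
      intro g
      have h := congrFun ha g
      simpa [w, Fin.sum_univ_three] using h
    set c : ℂ := a 0 + a 1 + (ε : ℂ) * a 2 with hc
    have hF : ∀ g : G, (4 * a 0 - c) * (Cfsg.Agent.Lib.Helper83.trivIrr G : G → ℂ) g + (4 * a 1 - c) * (ζ₂ : G → ℂ) g +
        (4 * a 2 - c * (ε : ℂ)) * (ζ₃ : G → ℂ) g + c * (ζ₄ : G → ℂ) g = 0 := by
      intro g
      by_cases hgs : 2 ∣ orderOf g
      · obtain ⟨e₂, e₃, e₄⟩ := hsing g hgs
        rw [e₂, e₃, e₄, Cfsg.Agent.Lib.Helper83.trivIrr_apply, hc]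
        linear_combination (-(a 0 + a 1 + (ε : ℂ) * a 2)) * hεε
      · have h1 := hg g
        rw [pRegularPart_of_reg _ hgs, pRegularPart_of_reg _ hgs, pRegularPart_of_reg _ hgs] at h1
        have h2 := hreg g hgs
        rw [Cfsg.Agent.Lib.Helper83.trivIrr_apply] at h1 ⊢
        linear_combination 4 * h1 - c * h2
    have hF0 : ∀ ψ : IrrCharacter G,
        (4 * a 0 - c) * classInner (Cfsg.Agent.Lib.Helper83.trivIrr G : G → ℂ) (ψ : G → ℂ) +
        (4 * a 1 - c) * classInner (ζ₂ : G → ℂ) (ψ : G → ℂ) +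
        (4 * a 2 - c * (ε : ℂ)) * classInner (ζ₃ : G → ℂ) (ψ : G → ℂ) +
        c * classInner (ζ₄ : G → ℂ) (ψ : G → ℂ) = 0 := by
      intro ψ
      rw [← classInner_lin4]
      have h0 : (fun g => (4 * a 0 - c) * (Cfsg.Agent.Lib.Helper83.trivIrr G : G → ℂ) g + (4 * a 1 - c) * (ζ₂ : G → ℂ) g +
        (4 * a 2 - c * (ε : ℂ)) * (ζ₃ : G → ℂ) g + c * (ζ₄ : G → ℂ) g) = fun _ => 0 :=
        funext hF
      rw [h0]
      simp [classInner]
    have hc0 : c = 0 := by
      have h := hF0 ζ₄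
      rw [classInner_irr, classInner_irr, classInner_irr, classInner_irr, if_neg h04, if_neg h24,
        if_neg h34, if_pos rfl] at h
      simpa using h
    have ha0 : a 0 = 0 := by
      have h := hF0 (Cfsg.Agent.Lib.Helper83.trivIrr G)
      rw [classInner_irr, classInner_irr, classInner_irr, classInner_irr, if_pos rfl,
        if_neg (Ne.symm h02), if_neg (Ne.symm h03), if_neg (Ne.symm h04), hc0] at h
      simpa using h
    have ha1 : a 1 = 0 := by
      have h := hF0 ζ₂
      rw [classInner_irr, classInner_irr, classInner_irr, classInner_irr, if_neg h02,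
        if_pos rfl, if_neg (Ne.symm h23), if_neg (Ne.symm h24), hc0] at h
      simpa using h
    have ha2 : a 2 = 0 := by
      have h := hF0 ζ₃
      rw [classInner_irr, classInner_irr, classInner_irr, classInner_irr, if_neg h03,
        if_neg h23, if_pos rfl, if_neg (Ne.symm h34), hc0] at h
      simpa using h
    intro i
    fin_cases i
    · exact ha0
    · exact ha1
    · exact ha2
  unfold blockRank
  rw [hspan, finrank_span_eq_card hli]
  rfl

end Cfsg.Agent.S4512
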