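import Cfsg.Statements.S4633
import Mathlib
import Cfsg.Agent.Lib.Helper22.Cover
import Cfsg.Agent.Lib.Helper84.Stab
import Cfsg.Agent.Lib.Helper30.Cores
import Cfsg.Agent.S0906
import Cfsg.Agent.S0908
import Cfsg.Agent.S0912
import Cfsg.Agent.S0917
import Cfsg.Agent.S4437

set_option autoImplicit false
open Cfsg

namespace Cfsg.Agent.S4633

open Cfsg.Agent.Lib Cfsg.Agent.Lib.Helper4 Cfsg.Agent.Lib.Helper21 Cfsg.Agent.Lib.Helper22 Cfsg.Agent.Lib.Helper20
open scoped ComplexConjugate

theorem aut_trivial_of_fix {P : Type*} [Group P] [Finite P] [IsCyclic P] (p a : ℕ) [Fact p.Prime]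
    (hcard : Nat.card P = p ^ a) (σ : MulAut P) (m : ℕ) (hm : σ ^ m = 1) (hmp : Nat.Coprime m p)
    (x : P) (hx1 : x ≠ 1) (hx : σ x = x) : σ = 1 := by
  have hp : p.Prime := Fact.out
  obtain ⟨g, hg⟩ := IsCyclic.exists_generator (α := P)
  have hog : orderOf g = p ^ a := by
    rw [← hcard]
    exact orderOf_eq_card_of_forall_mem_zpowers hg
  have hog0 : 0 < orderOf g := orderOf_pos g
  -- σ g = g ^ k
  obtain ⟨k, hk⟩ : ∃ k : ℕ, σ g = g ^ k := by
    obtain ⟨z, hz⟩ := Subgroup.mem_zpowers_iff.mp (hg (σ g))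
    refine ⟨(z % (orderOf g : ℤ)).toNat, ?_⟩
    rw [← hz, ← zpow_natCast, Int.toNat_of_nonneg (Int.emod_nonneg _ (by exact_mod_cast hog0.ne')),
      zpow_mod_orderOf]
  have hall : ∀ y : P, σ y = y ^ k := by
    intro y
    obtain ⟨z, rfl⟩ := Subgroup.mem_zpowers_iff.mp (hg y)
    rw [map_zpow, hk, ← zpow_natCast, ← zpow_natCast, ← zpow_mul, ← zpow_mul, mul_comm]
  have hpow : ∀ (j : ℕ) (y : P), (σ ^ j) y = y ^ (k ^ j) := by
    intro j
    induction j with
    | zero => intro y; simp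
    | succ j ih =>
      intro y
      rw [pow_succ, MulAut.mul_apply, hall, ih, ← pow_mul, pow_succ, mul_comm]
  -- k ≡ 1 mod p
  have hxk : x ^ k = x ^ 1 := by rw [pow_one, ← hall, hx]
  have hk1 : k ≡ 1 [MOD orderOf x] := pow_eq_pow_iff_modEq.mp hxk
  have hpx : p ∣ orderOf x := by
    have h1 : orderOf x ∣ p ^ a := by
      rw [← hcard]; exact orderOf_dvd_natCard x
    obtain ⟨i, -, hi⟩ := (Nat.dvd_prime_pow hp).mp h1
    rw [hi]
    have hi0 : i ≠ 0 := by
      rintro rfl
      rw [pow_zero, orderOf_eq_one_iff] at hi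
      exact hx1 hi
    exact dvd_pow_self p hi0
  have hkp : k ≡ 1 [MOD p] := hk1.of_dvd hpx
  have ha0 : a ≠ 0 := by
    rintro rfl
    rw [pow_zero] at hcard
    have : Subsingleton P := (Nat.card_eq_one_iff_unique.mp hcard).1
    exact hx1 (Subsingleton.elim x 1)
  have hdvd : ((p : ℤ)) ∣ (k : ℤ) - 1 := by
    have := (Int.natCast_modEq_iff.mpr hkp).symm.dvd
    simpa using this
  have hdvd2 := dvd_sub_pow_of_dvd_sub hdvd (a - 1)
  rw [Nat.sub_add_cancel (Nat.pos_of_ne_zero ha0), one_pow] at hdvd2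
  have hmod : k ^ p ^ (a - 1) ≡ 1 [MOD p ^ a] := by
    apply Int.natCast_modEq_iff.mp
    push_cast
    exact (Int.modEq_iff_dvd.mpr hdvd2).symm
  have hσp : σ ^ (p ^ (a - 1)) = 1 := by
    ext y
    rw [hpow, MulAut.one_apply]
    have h1 : orderOf y ∣ p ^ a := by
      rw [← hcard]; exact orderOf_dvd_natCard y
    have h2 : y ^ (k ^ p ^ (a - 1)) = y ^ 1 := pow_eq_pow_iff_modEq.mpr (hmod.of_dvd h1)
    rw [h2, pow_one]
  have h1 : orderOf σ ∣ p ^ (a - 1) := orderOf_dvd_of_pow_eq_one hσp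
  have h2 : orderOf σ ∣ m := orderOf_dvd_of_pow_eq_one hm
  have h3 : orderOf σ ∣ 1 := by
    have hc : Nat.Coprime (p ^ (a - 1)) m := Nat.Coprime.pow_left _ hmp.symm
    rw [← hc.gcd_eq_one]
    exact Nat.dvd_gcd h1 h2
  exact orderOf_eq_one_iff.mp (Nat.dvd_one.mp h3)

theorem ker_unitsMap_pow (p a m : ℕ) [Fact p.Prime] (ha : 0 < a) (hm : m = p ^ a) (h : p ∣ m)
    (u : (ZMod m)ˣ) (hu : ZMod.unitsMap h u = 1) : u ^ (p ^ (a - 1)) = 1 := by
  have hp : p.Prime := Fact.out
  subst hm
  have : NeZero (p ^ a) := ⟨pow_ne_zero _ hp.ne_zero⟩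
  have hsurj := ZMod.unitsMap_surjective h
  have h1 : Nat.card (ZMod.unitsMap h).ker * Nat.card (ZMod.unitsMap h).range =
      Nat.card (ZMod (p ^ a))ˣ := by
    rw [← Subgroup.index_ker]
    exact Subgroup.card_mul_index _
  have h2 : Nat.card (ZMod.unitsMap h).range = p - 1 := by
    rw [MonoidHom.range_eq_top.mpr hsurj, Subgroup.card_top, Nat.card_eq_fintype_card,
      ZMod.card_units]
  have h3 : Nat.card (ZMod (p ^ a))ˣ = p ^ (a - 1) * (p - 1) := by
    rw [Nat.card_eq_fintype_card, ZMod.card_units_eq_totient, Nat.totient_prime_pow hp ha]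
  rw [h2, h3] at h1
  have h4 : Nat.card (ZMod.unitsMap h).ker = p ^ (a - 1) :=
    Nat.eq_of_mul_eq_mul_right (Nat.sub_pos_of_lt hp.one_lt) h1
  have h5 : (⟨u, hu⟩ : (ZMod.unitsMap h).ker) ^ Nat.card (ZMod.unitsMap h).ker = 1 :=
    pow_card_eq_one'
  rw [h4] at h5
  have := congrArg (fun z : (ZMod.unitsMap h).ker => (z : (ZMod (p ^ a))ˣ)) h5
  simpa using this


/-- Let B be a block of the finite group G relative to a maximal ideal M of the algebraic integers containing the prime p, with a nontrivial cyclic defect group P. Let c be a block of C_G(P) inducing B and T the stabilizer of c in N_G(P) (the elements of N_G(P) conjugating c to itself); T contains C_G(P). Then T/C_G(P) is cyclic of order dividing p − 1, and it acts freely on the non-identity elements of P: an element of T fixing some non-identity element of P under conjugation lies in C_G(P). -/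
theorem result {G : Type*} [Group G] [Finite G] (p : ℕ) [Fact p.Prime] (M : Ideal Cfsg.AlgInt) (hM : Cfsg.IsPModular p M) (B : Set (Cfsg.IrrCharacter G)) (hB : Cfsg.IsPBlock M B) (P : Subgroup G) (hPD : Cfsg.IsDefectGroup p M B P) (hP1 : P ≠ ⊥) (hcyc : IsCyclic P) (c : Set (Cfsg.IrrCharacter (Subgroup.centralizer (P : Set G)))) (hc : Cfsg.IsInducedBlock M (Subgroup.centralizer (P : Set G)) c B) (T : Subgroup G) (hT : ∀ g : G, g ∈ T ↔ (g ∈ Subgroup.normalizer (P : Set G) ∧ Cfsg.StabilizesBlock (Subgroup.centralizer (P : Set G)) c g)) [hn : ((Subgroup.centralizer (P : Set G)).subgroupOf T).Normal] : IsCyclic (T ⧸ (Subgroup.centralizer (P : Set G)).subgroupOf T) ∧ (Subgroup.centralizer (P : Set G)).relIndex T ∣ p - 1 ∧ ∀ g ∈ T, ∀ x ∈ P, x ≠ 1 → g * x * g⁻¹ = x → g ∈ Subgroup.centralizer (P : Set G) := by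
  classical
  have hp : p.Prime := Fact.out
  let _ := Fintype.ofFinite G
  obtain ⟨hcb, -, -⟩ := id hc
  have hPp : IsPGroup p P := by
    obtain ⟨g, -, S, hS⟩ := hPD
    rw [hS]
    exact S.2.map _
  have hPcomm : ∀ x ∈ P, ∀ y ∈ P, x * y = y * x := by
    intro x hx y hy
    obtain ⟨g, hg⟩ := IsCyclic.exists_generator (α := P)
    obtain ⟨i, hi⟩ := Subgroup.mem_zpowers_iff.mp (hg ⟨x, hx⟩)
    obtain ⟨j, hj⟩ := Subgroup.mem_zpowers_iff.mp (hg ⟨y, hy⟩)
    have h1 : (⟨x, hx⟩ : P) * ⟨y, hy⟩ = ⟨y, hy⟩ * ⟨x, hx⟩ := by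
      rw [← hi, ← hj, zpow_mul_comm]
    exact congrArg Subtype.val h1
  have hPC : P ≤ Subgroup.centralizer (P : Set G) := fun x hx =>
    Subgroup.mem_centralizer_iff.mpr (fun y hy => hPcomm y hy x hx)
  -- the defect group of `c`
  obtain ⟨gc, hgc⟩ := Cfsg.Agent.S0906.result p M hM c hcb
  obtain ⟨Sc⟩ : Nonempty (Sylow p (Subgroup.centralizer
      ({gc} : Set ↥(Subgroup.centralizer (P : Set G))))) := inferInstance
  have hDc : IsDefectGroup p M c ((Sc : Subgroup _).map
      (Subgroup.centralizer ({gc} : Set ↥(Subgroup.centralizer (P : Set G)))).subtype) :=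
    ⟨gc, hgc, Sc, rfl⟩
  generalize ((Sc : Subgroup _).map
      (Subgroup.centralizer ({gc} : Set ↥(Subgroup.centralizer (P : Set G)))).subtype) = Dc at hDc
  have hPn : (P.subgroupOf (Subgroup.centralizer (P : Set G))).Normal := by
    constructor
    intro x hx y
    rw [Subgroup.mem_subgroupOf] at hx ⊢
    have h1 := Subgroup.mem_centralizer_iff.mp y.2 (x : G) hx
    have h2 : ((y * x * y⁻¹ : ↥(Subgroup.centralizer (P : Set G))) : G) = (x : G) := by
      show (y : G) * (x : G) * (y : G)⁻¹ = (x : G)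
      rw [← h1]
      group
    rw [h2]
    exact hx
  have hPpc : IsPGroup p (P.subgroupOf (Subgroup.centralizer (P : Set G))) := hPp.comap_subtype
  have h1 : P.subgroupOf (Subgroup.centralizer (P : Set G)) ≤ Dc :=
    (Helper30.le_pCore_of_normal hPn hPpc).trans
      (Cfsg.Agent.S0912.result p M hM c hcb Dc hDc)
  obtain ⟨E, hE, hDE⟩ := Cfsg.Agent.S0917.result p M hM _ c hcb B hB hc Dc hDc
  have hcardE : Nat.card E = Nat.card P := by
    rw [Cfsg.Agent.S0908.result p M hM B hB E hE, Cfsg.Agent.S0908.result p M hM B hB P hPD]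
  have hPE : P ≤ E := by
    intro x hx
    apply hDE
    exact ⟨⟨x, hPC hx⟩, h1 (Subgroup.mem_subgroupOf.mpr hx), rfl⟩
  have hEP : E = P := (Subgroup.eq_of_le_of_card_ge hPE (le_of_eq hcardE)).symm
  have hcP : IsDefectGroup p M c (P.subgroupOf (Subgroup.centralizer (P : Set G))) := by
    have h2 : Dc = P.subgroupOf (Subgroup.centralizer (P : Set G)) := by
      apply le_antisymm
      · intro x hx
        have h3 : ((Subgroup.centralizer (P : Set G)).subtype x) ∈ E := hDE ⟨x, hx, rfl⟩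
        rw [hEP] at h3
        exact Subgroup.mem_subgroupOf.mpr h3
      · exact h1
    rw [← h2]
    exact hDc
  -- normalizer acts on the centralizer
  have hNC : ∀ g ∈ Subgroup.normalizer (P : Set G), ∀ x ∈ Subgroup.centralizer (P : Set G),
      g * x * g⁻¹ ∈ Subgroup.centralizer (P : Set G) := by
    intro g hg x hx
    rw [Subgroup.mem_centralizer_iff]
    intro y hy
    have hy' : g⁻¹ * y * g ∈ P := by
      rw [Subgroup.mem_normalizer_iff.mp hg]
      have e : g * (g⁻¹ * y * g) * g⁻¹ = y := by group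
      rw [e]
      exact hy
    have h1 := Subgroup.mem_centralizer_iff.mp hx _ hy'
    calc y * (g * x * g⁻¹) = g * ((g⁻¹ * y * g) * x) * g⁻¹ := by group
      _ = g * (x * (g⁻¹ * y * g)) * g⁻¹ := by rw [h1]
      _ = g * x * g⁻¹ * y := by group
  have hNC' : ∀ g ∈ Subgroup.normalizer (P : Set G), ∀ x ∈ Subgroup.centralizer (P : Set G),
      g⁻¹ * x * g ∈ Subgroup.centralizer (P : Set G) := by
    intro g hg x hx
    have h1 := hNC g⁻¹ (inv_mem hg) x hx
    rwa [inv_inv] at h1
  have hT' : ∀ g : G, g ∈ T ↔ (g ∈ Subgroup.normalizer (P : Set G) ∧ ∀ θ ∈ c,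
      ∀ θ' : IrrCharacter ↥(Subgroup.centralizer (P : Set G)),
      (∀ h h' : ↥(Subgroup.centralizer (P : Set G)), (h' : G) = g * h * g⁻¹ →
        (θ' : ↥(Subgroup.centralizer (P : Set G)) → ℂ) h' =
          (θ : ↥(Subgroup.centralizer (P : Set G)) → ℂ) h) → θ' ∈ c) := by
    intro g
    rw [hT g]
    constructor
    · rintro ⟨hg, -, hst⟩
      refine ⟨hg, fun θ hθ θ' hθ' => ?_⟩
      obtain ⟨χ', hχ', hconj⟩ := hst θ hθ
      have h2 : θ' = χ' := by
        apply Subtype.ext
        funext k'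
        have hk : g⁻¹ * (k' : G) * g ∈ Subgroup.centralizer (P : Set G) := hNC' g hg k' k'.2
        have e : (k' : G) = g * ((⟨g⁻¹ * (k' : G) * g, hk⟩ :
            ↥(Subgroup.centralizer (P : Set G))) : G) * g⁻¹ := by
          show (k' : G) = g * (g⁻¹ * (k' : G) * g) * g⁻¹
          group
        rw [hθ' ⟨_, hk⟩ k' e, hconj ⟨_, hk⟩ k' e]
      rw [h2]
      exact hχ'
    · rintro ⟨hg, hst⟩
      refine ⟨hg, ?_, fun χ hχ => ?_⟩
      · rw [Subgroup.mem_normalizer_iff]
        intro x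
        constructor
        · exact hNC g hg x
        · intro hx
          have h2 := hNC' g hg _ hx
          have e : g⁻¹ * (g * x * g⁻¹) * g = x := by group
          rwa [e] at h2
      · obtain ⟨e, he⟩ : ∃ e : ↥(Subgroup.centralizer (P : Set G)) ≃*
            ↥(Subgroup.centralizer (P : Set G)), ∀ x, ((e x : ↥(Subgroup.centralizer (P : Set G))) : G) =
              g⁻¹ * (x : G) * g :=
          ⟨Helper84.conjEquiv (Subgroup.centralizer (P : Set G)) g⁻¹
            (fun x hx => by have h3 := hNC' g hg x hx; rwa [inv_inv])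
            (fun x hx => by have h3 := hNC g hg x hx; rwa [inv_inv]),
            fun x => by rw [Helper84.conjEquiv_apply_coe, inv_inv]⟩
        have hconj : ∀ h h' : ↥(Subgroup.centralizer (P : Set G)), (h' : G) = g * h * g⁻¹ →
            (Helper84.trIrr e χ : ↥(Subgroup.centralizer (P : Set G)) → ℂ) h' =
              (χ : ↥(Subgroup.centralizer (P : Set G)) → ℂ) h := by
          intro h h' hh
          rw [Helper84.trIrr_apply]
          have e2 : e h' = h := by
            apply Subtype.ext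
            rw [he, hh]
            group
          rw [e2]
        exact ⟨_, hst χ hχ _ hconj, hconj⟩
  have hHeq : Subgroup.centralizer (P : Set G) = P ⊔ Subgroup.centralizer (P : Set G) :=
    (sup_eq_right.mpr hPC).symm
  let _ : Fintype ↥(Subgroup.centralizer (P : Set G)) := Fintype.ofFinite _
  have hrel : ¬ p ∣ (Subgroup.centralizer (P : Set G)).relIndex T :=
    (Cfsg.Agent.S4437.result p M hM P hPp (Subgroup.centralizer (P : Set G)) hHeq c hcb hcP B hc
      T hT').mp hPD
  -- group theory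
  have hTN : T ≤ Subgroup.normalizer (P : Set G) := fun t ht => ((hT t).mp ht).1
  have hCT : Subgroup.centralizer (P : Set G) ≤ T := by
    intro x hx
    rw [hT]
    refine ⟨Subgroup.centralizer_le_normalizer _ hx, Subgroup.le_normalizer hx,
      fun χ hχ => ⟨χ, hχ, ?_⟩⟩
    intro k k' hk
    have e : k' = ⟨x, hx⟩ * k * (⟨x, hx⟩ : ↥(Subgroup.centralizer (P : Set G)))⁻¹ :=
      Subtype.ext (by rw [hk]; rfl)
    rw [e]
    exact isClassFunction_irr χ k ⟨x, hx⟩
  have hPT : P ≤ T := hPC.trans hCT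
  have hP'n : (P.subgroupOf T).Normal := by
    constructor
    intro x hx t
    rw [Subgroup.mem_subgroupOf] at hx ⊢
    exact (Subgroup.mem_normalizer_iff.mp (hTN t.2) (x : G)).mp hx
  have hker : ∀ t : ↥T, (MulAut.conjNormal t : MulAut ↥(P.subgroupOf T)) = 1 ↔
      (t : G) ∈ Subgroup.centralizer (P : Set G) := by
    intro t
    constructor
    · intro ht
      rw [Subgroup.mem_centralizer_iff]
      intro y hy
      have h1 := congrArg (fun σ : MulAut ↥(P.subgroupOf T) =>
        (((σ ⟨⟨y, hPT hy⟩, Subgroup.mem_subgroupOf.mpr hy⟩ : ↥(P.subgroupOf T)) : ↥T) : G)) ht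
      have h2 : (t : G) * y * (t : G)⁻¹ = y := h1
      calc y * (t : G) = ((t : G) * y * (t : G)⁻¹) * (t : G) := by rw [h2]
        _ = (t : G) * y := by group
    · intro ht
      ext y
      have hy : ((y : ↥T) : G) ∈ P := Subgroup.mem_subgroupOf.mp y.2
      have h1 := Subgroup.mem_centralizer_iff.mp ht _ hy
      show (t : G) * ((y : ↥T) : G) * (t : G)⁻¹ = ((y : ↥T) : G)
      rw [← h1]
      group
  have hcycP' : IsCyclic ↥(P.subgroupOf T) :=
    (Subgroup.subgroupOfEquivOfLe hPT).isCyclic.mpr hcyc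
  have hcardP' : Nat.card ↥(P.subgroupOf T) = Nat.card P :=
    Nat.card_congr (Subgroup.subgroupOfEquivOfLe hPT).toEquiv
  obtain ⟨a, ha⟩ := IsPGroup.iff_card.mp hPp
  have ha0 : 0 < a := by
    rcases Nat.eq_zero_or_pos a with h | h
    · exfalso
      rw [h, pow_zero] at ha
      exact hP1 (Subgroup.card_eq_one.mp ha)
    · exact h
  have hm' : Nat.card ↥(P.subgroupOf T) = p ^ a := hcardP'.trans ha
  have hdvd : p ∣ Nat.card ↥(P.subgroupOf T) := by
    rw [hm']
    exact dvd_pow_self p ha0.ne'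
  have hcop : Nat.Coprime ((Subgroup.centralizer (P : Set G)).relIndex T) p :=
    ((Nat.Prime.coprime_iff_not_dvd hp).mpr hrel).symm
  have hfr : ∀ t : ↥T, (MulAut.conjNormal t : MulAut ↥(P.subgroupOf T)) ^
      ((Subgroup.centralizer (P : Set G)).relIndex T) = 1 := by
    intro t
    have h1 : ((t : ↥T ⧸ (Subgroup.centralizer (P : Set G)).subgroupOf T)) ^
        Nat.card (↥T ⧸ (Subgroup.centralizer (P : Set G)).subgroupOf T) = 1 := pow_card_eq_one'
    rw [← QuotientGroup.mk_pow, QuotientGroup.eq_one_iff, Subgroup.mem_subgroupOf] at h1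
    have h2 := (hker (t ^ Nat.card (↥T ⧸ (Subgroup.centralizer (P : Set G)).subgroupOf T))).mpr h1
    rw [map_pow] at h2
    exact h2
  have hkerρ : ∀ t : ↥T, ZMod.unitsMap hdvd (IsCyclic.mulAutMulEquiv ↥(P.subgroupOf T)
      (MulAut.conjNormal t)) = 1 → (t : G) ∈ Subgroup.centralizer (P : Set G) := by
    intro t ht
    have hu := ker_unitsMap_pow p a _ ha0 hm' hdvd _ ht
    rw [← map_pow] at hu
    have hu' : (MulAut.conjNormal t : MulAut ↥(P.subgroupOf T)) ^ (p ^ (a - 1)) = 1 :=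
      (MulEquiv.map_eq_one_iff _).mp hu
    have h1 : orderOf (MulAut.conjNormal t : MulAut ↥(P.subgroupOf T)) ∣ p ^ (a - 1) :=
      orderOf_dvd_of_pow_eq_one hu'
    have h2 : orderOf (MulAut.conjNormal t : MulAut ↥(P.subgroupOf T)) ∣
        (Subgroup.centralizer (P : Set G)).relIndex T := orderOf_dvd_of_pow_eq_one (hfr t)
    have h3 : orderOf (MulAut.conjNormal t : MulAut ↥(P.subgroupOf T)) ∣ 1 := by
      have hc : Nat.Coprime (p ^ (a - 1)) ((Subgroup.centralizer (P : Set G)).relIndex T) :=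
        Nat.Coprime.pow_left _ hcop.symm
      rw [← hc.gcd_eq_one]
      exact Nat.dvd_gcd h1 h2
    exact (hker t).mp (orderOf_eq_one_iff.mp (Nat.dvd_one.mp h3))
  have hle : (Subgroup.centralizer (P : Set G)).subgroupOf T ≤
      ((ZMod.unitsMap hdvd).comp ((IsCyclic.mulAutMulEquiv ↥(P.subgroupOf T)).toMonoidHom.comp
        (MulAut.conjNormal : ↥T →* MulAut ↥(P.subgroupOf T)))).ker := by
    intro t ht
    rw [MonoidHom.mem_ker]
    have h1 := (hker t).mpr (Subgroup.mem_subgroupOf.mp ht)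
    show ZMod.unitsMap hdvd (IsCyclic.mulAutMulEquiv ↥(P.subgroupOf T) (MulAut.conjNormal t)) = 1
    rw [h1, map_one, map_one]
  have hinj : Function.Injective (QuotientGroup.lift
      ((Subgroup.centralizer (P : Set G)).subgroupOf T) _ hle) := by
    rw [injective_iff_map_eq_one]
    intro q hq
    obtain ⟨t, rfl⟩ := QuotientGroup.mk_surjective q
    rw [QuotientGroup.lift_mk] at hq
    rw [QuotientGroup.eq_one_iff, Subgroup.mem_subgroupOf]
    exact hkerρ t hq
  refine ⟨isCyclic_of_injective _ hinj, ?_, ?_⟩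
  · have h1 := Subgroup.card_dvd_of_injective _ hinj
    rw [Nat.card_eq_fintype_card (α := (ZMod p)ˣ), ZMod.card_units] at h1
    exact h1
  · intro g hg x hx hx1 hgx
    have h1 : (MulAut.conjNormal (⟨g, hg⟩ : ↥T) : MulAut ↥(P.subgroupOf T)) = 1 := by
      refine aut_trivial_of_fix p a hm' _ _ (hfr ⟨g, hg⟩) hcop
        ⟨⟨x, hPT hx⟩, Subgroup.mem_subgroupOf.mpr hx⟩ ?_ ?_
      · intro h
        apply hx1
        have h2 := congrArg (fun z : ↥(P.subgroupOf T) => ((z : ↥T) : G)) h
        exact h2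
      · apply Subtype.ext
        apply Subtype.ext
        exact hgx
    exact (hker ⟨g, hg⟩).mp h1

end Cfsg.Agent.S4633
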