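import Cfsg.Statements.S4636
import Mathlib

set_option autoImplicit false
open scoped Pointwise
open Cfsg

namespace Cfsg.Agent.S4636

theorem eq_of_card_eq_of_isCyclic {C : Type*} [Group C] [Finite C] [IsCyclic C]
    (H K : Subgroup C) (h : Nat.card H = Nat.card K) : H = K := by
  classical
  have := Fintype.ofFinite C
  set n := Nat.card H with hn
  have hn0 : 0 < n := Nat.card_pos
  have hle := IsCyclic.card_pow_eq_one_le (α := C) hn0
  have key : ∀ L : Subgroup C, Nat.card L = n →
      (Finset.univ.filter fun a : C => a ∈ L) = Finset.univ.filter fun a : C => a ^ n = 1 := by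
    intro L hL
    apply Finset.eq_of_subset_of_card_le
    · intro a ha
      simp only [Finset.mem_filter, Finset.mem_univ, true_and] at ha ⊢
      have := pow_card_eq_one' (G := L) (x := ⟨a, ha⟩)
      rw [hL] at this
      have h2 := congrArg Subtype.val this
      simpa using h2
    · refine hle.trans ?_
      rw [← hL, Nat.card_eq_fintype_card, Fintype.card_subtype]
  have h1 := key H rfl
  have h2 := key K h.symm
  ext a
  have := congrArg (fun s => a ∈ s) (h1.trans h2.symm)
  simpa using this

theorem eq_of_le_cyclic {G : Type*} [Group G] [Finite G] (P : Subgroup G) (hcyc : IsCyclic P)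
    (Z Z' : Subgroup G) (hZ : Z ≤ P) (hZ' : Z' ≤ P) (h : Nat.card Z = Nat.card Z') : Z = Z' := by
  have h1 : Z.subgroupOf P = Z'.subgroupOf P := by
    apply eq_of_card_eq_of_isCyclic
    rw [Nat.card_congr (Subgroup.subgroupOfEquivOfLe hZ).toEquiv,
      Nat.card_congr (Subgroup.subgroupOfEquivOfLe hZ').toEquiv, h]
  rw [Subgroup.subgroupOf_inj] at h1
  rwa [inf_eq_left.mpr hZ, inf_eq_left.mpr hZ'] at h1

theorem le_of_ne_bot {G : Type*} [Group G] [Finite G] (p : ℕ) [Fact p.Prime] (P : Subgroup G)
    (hP : IsPGroup p P) (hcyc : IsCyclic P) (Z : Subgroup G) (hZ : Z ≤ P) (hZcard : Nat.card Z = p)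
    (R : Subgroup G) (hR : R ≤ P) (hR1 : R ≠ ⊥) : Z ≤ R := by
  have hRp : IsPGroup p R := hP.to_le hR
  have hdvd : p ∣ Nat.card R := by
    obtain ⟨k, hk⟩ := hRp.exists_card_eq
    rcases k with _ | k
    · exfalso; apply hR1
      rw [pow_zero] at hk
      exact Subgroup.eq_bot_of_card_eq R hk
    · rw [hk]; exact dvd_pow_self p (Nat.succ_ne_zero k)
  obtain ⟨x, hx⟩ := exists_prime_orderOf_dvd_card' (G := R) p hdvd
  have hZ'le : Subgroup.zpowers (x : G) ≤ R := by
    rw [Subgroup.zpowers_le]; exact x.2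
  have hcard : Nat.card (Subgroup.zpowers (x : G)) = p := by
    rw [Nat.card_zpowers, Subgroup.orderOf_coe, hx]
  have := eq_of_le_cyclic P hcyc Z (Subgroup.zpowers (x : G)) hZ (hZ'le.trans hR)
    (hZcard.trans hcard.symm)
  rw [this]; exact hZ'le

theorem card_smul {G : Type*} [Group G] (g : G) (Z : Subgroup G) :
    Nat.card (MulAut.conj g • Z : Subgroup G) = Nat.card Z := by
  exact Nat.card_congr (Subgroup.equivSMul (MulAut.conj g) Z).toEquiv.symm

theorem mem_normalizer_of_smul_eq {G : Type*} [Group G] (g : G) (Z : Subgroup G)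
    (h : MulAut.conj g • Z = Z) : g ∈ Subgroup.normalizer (Z : Set G) := by
  rw [Subgroup.mem_normalizer_iff_map_conj_eq]
  exact h

/-- Let P be a nontrivial cyclic p-subgroup of the finite group G and Z its subgroup of order p. For every x outside N_G(Z), P meets its conjugate xPx⁻¹ trivially; consequently N_G(Q) ≤ N_G(Z) for every nontrivial subgroup Q of P. -/
theorem result {G : Type*} [Group G] [Finite G] (p : ℕ) [Fact p.Prime] (P : Subgroup G) (hP : IsPGroup p P) (hP1 : P ≠ ⊥) (hcyc : IsCyclic P) (Z : Subgroup G) (hZ : Z ≤ P) (hZcard : Nat.card Z = p) : (∀ x : G, x ∉ Subgroup.normalizer (Z : Set G) → P ⊓ MulAut.conj x • P = ⊥) ∧ ∀ Q : Subgroup G, Q ≤ P → Q ≠ ⊥ → Subgroup.normalizer (Q : Set G) ≤ Subgroup.normalizer (Z : Set G) := by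
  constructor
  · intro x hx
    by_contra hne
    apply hx
    apply mem_normalizer_of_smul_eq
    set R := P ⊓ MulAut.conj x • P with hRdef
    have h1 : Z ≤ R := le_of_ne_bot p P hP hcyc Z hZ hZcard R inf_le_left hne
    have hR' : (MulAut.conj x)⁻¹ • R ≤ P := by
      intro y hy
      rw [Subgroup.mem_pointwise_smul_iff_inv_smul_mem, inv_inv] at hy
      have := hy.2
      exact Subgroup.smul_mem_pointwise_smul_iff.mp this
    have hR'1 : (MulAut.conj x)⁻¹ • R ≠ ⊥ := by
      intro h
      apply hne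
      have := congrArg (fun S => MulAut.conj x • S) h
      simpa using this
    have h2 : Z ≤ (MulAut.conj x)⁻¹ • R :=
      le_of_ne_bot p P hP hcyc Z hZ hZcard _ hR' hR'1
    have h3 : MulAut.conj x • Z ≤ R := by
      intro y hy
      rw [Subgroup.mem_pointwise_smul_iff_inv_smul_mem] at hy
      have := h2 hy
      rw [Subgroup.mem_pointwise_smul_iff_inv_smul_mem, inv_inv] at this
      simpa [mul_assoc] using this
    exact eq_of_le_cyclic P hcyc _ _ (h3.trans inf_le_left) hZ ((card_smul x Z))
  · intro Q hQ hQ1 g hg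
    apply mem_normalizer_of_smul_eq
    have h1 : Z ≤ Q := le_of_ne_bot p P hP hcyc Z hZ hZcard Q hQ hQ1
    have h2 : MulAut.conj g • Q = Q := by
      rw [Subgroup.mem_normalizer_iff_map_conj_eq] at hg
      exact hg
    have h3 : MulAut.conj g • Z ≤ Q := by
      rw [← h2]
      exact Subgroup.pointwise_smul_le_pointwise_smul_iff.mpr h1
    exact eq_of_le_cyclic P hcyc _ _ (h3.trans hQ) hZ ((card_smul g Z))

end Cfsg.Agent.S4636
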