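import Cfsg.Statements.S4637
import Mathlib
import Cfsg.Agent.Lib.Helper33.KleinPair
import Cfsg.Agent.Lib.Helper33.KleinT
import Cfsg.Agent.Lib.Helper22.IndCent2
import Cfsg.Agent.S4511

set_option autoImplicit false
open Cfsg

namespace Cfsg.Agent.S4637

open Cfsg.Agent.Lib Cfsg.Agent.Lib.Helper4 Cfsg.Agent.Lib.Helper21 Cfsg.Agent.Lib.Helper22
open Cfsg.Agent.Lib.Helper81 Cfsg.Agent.Lib.Helper33.Klein

set_option linter.style.haveILetI false

/-- Let B be a block of the finite group G relative to a maximal ideal M of the algebraic integers containing 2, with a Klein four defect group P. Let c be a block of C_G(P) inducing B, T the stabilizer of c in N_G(P) and e the index of C_G(P) in T (the inertial index). Then e is 1 or 3, B contains exactly four irreducible characters, and the 2-regular rank of B (its number of irreducible Brauer characters) equals e. -/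
theorem result {G : Type*} [Group G] [Finite G] (M : Ideal Cfsg.AlgInt) (hM : Cfsg.IsPModular 2 M) (B : Set (Cfsg.IrrCharacter G)) (hB : Cfsg.IsPBlock M B) (P : Subgroup G) (hPD : Cfsg.IsDefectGroup 2 M B P) (hV : IsKleinFour P) (c : Set (Cfsg.IrrCharacter (Subgroup.centralizer (P : Set G)))) (hc : Cfsg.IsInducedBlock M (Subgroup.centralizer (P : Set G)) c B) (T : Subgroup G) (hT : ∀ g : G, g ∈ T ↔ (g ∈ Subgroup.normalizer (P : Set G) ∧ Cfsg.StabilizesBlock (Subgroup.centralizer (P : Set G)) c g)) (e : ℕ) (he : (Subgroup.centralizer (P : Set G)).relIndex T = e) : (e = 1 ∨ e = 3) ∧ Nat.card B = 4 ∧ Cfsg.blockRank 2 B = e := by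
  classical
  haveI : Fact (Nat.Prime 2) := ⟨Nat.prime_two⟩
  letI : Fintype G := Fintype.ofFinite G
  -- facts on `P`
  have hcard : Nat.card P = 4 := hV.card_four
  have hexp : ∀ x ∈ P, x * x = 1 := by
    intro x hx
    have h1 : (⟨x, hx⟩ : P) ^ 2 = 1 := by
      have h := Monoid.pow_exponent_eq_one (⟨x, hx⟩ : P)
      rwa [hV.exponent_two] at h
    have h2 := congrArg Subtype.val h1
    rw [pow_two] at h2
    exact h2
  have hab : ∀ x ∈ P, ∀ y ∈ P, x * y = y * x := by
    intro x hx y hy
    have e1 : x = x⁻¹ := eq_inv_of_mul_eq_one_left (hexp x hx)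
    have e2 : y = y⁻¹ := eq_inv_of_mul_eq_one_left (hexp y hy)
    have e3 : x * y = (x * y)⁻¹ := eq_inv_of_mul_eq_one_left (hexp (x * y) (mul_mem hx hy))
    rw [e3, mul_inv_rev, ← e1, ← e2]
  -- the inertial quotient
  obtain ⟨hodd, hTN, hCT⟩ := inertial_facts 2 M hM B hB P hPD hab c hc T hT
  obtain ⟨hcases, htrans⟩ := klein_inertial P hcard T hTN hodd
  rw [he] at hcases htrans
  -- the maximal pair
  have hPp : IsPGroup 2 P := isDefectGroup_isPGroup B P hPD
  have hpair : IsBrauerPairOf 2 M B P c :=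
    (isBrauerPairOf_iff_isInducedBlock hM P hPp c B).mpr hc
  have hmax : IsMaximalBrauerPair 2 M B P c :=
    isMaximalBrauerPair_of_defectGroup hM B P c hpair hPD
  -- the defect and `k(B)`
  have hdB : blockDefect 2 B = 2 := by
    have h1 := Cfsg.Agent.Lib.Helper82.card_defectGroup hM B hB P hPD
    rw [hcard] at h1
    have h2 : (2 : ℕ) ^ 2 = 2 ^ blockDefect 2 B := by rw [← h1]; norm_num
    exact (Nat.pow_right_injective (le_refl 2) h2).symm
  have hk : Nat.card B = 4 := card_eq_four_of_defect_two hM B hB hdB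
  refine ⟨hcases, hk, ?_⟩
  have hTfix : ∀ t : G, conjPair t (⟨P, c⟩ : BrauerPairIdx G) = ⟨P, c⟩ ↔ t ∈ T := fun t => by
    rw [conjPair_eq_self_iff, hT]
  have hsub : ∀ y ∈ P, ∃ f : Set (IrrCharacter (Subgroup.centralizer
      ((Subgroup.zpowers y : Subgroup G) : Set G))),
      IsPBlock M f ∧ SubpairLE 2 M (Subgroup.zpowers y) f P c := fun y hy =>
    exists_subpairLE hM P (Subgroup.zpowers y) c hmax.1.1 (Subgroup.zpowers_le.mpr hy)
  have hinvo : ∀ y ∈ P, y ≠ 1 → orderOf y = 2 := fun y hy hy1 =>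
    orderOf_eq_prime (by rw [pow_two]; exact hexp y hy) hy1
  -- the summands of Brauer's count
  obtain ⟨F, hF⟩ : ∃ F : G → ℕ, ∀ x : G, F x =
      ∑ᶠ b ∈ {b : Set (IrrCharacter ↥(Subgroup.centralizer ({x} : Set G))) |
        IsInducedBlock M (Subgroup.centralizer ({x} : Set G)) b B}, blockRank 2 b :=
    ⟨_, fun _ => rfl⟩
  have hF' : ∀ x : G, F x =
      ∑ᶠ f ∈ {f : Set (IrrCharacter ↥(Subgroup.centralizer
        ((Subgroup.zpowers x : Subgroup G) : Set G))) |
        IsInducedBlock M (Subgroup.centralizer ((Subgroup.zpowers x : Subgroup G) : Set G)) f B},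
        blockRank 2 f := fun x =>
    (hF x).trans (finsum_induced_congr _ _ (centralizer_singleton_eq x) B)
  have hF1 : F 1 = blockRank 2 B := by
    rw [hF]
    exact finsum_induced_top hM _ (fun g => by
      rw [Subgroup.mem_centralizer_iff]
      intro y hy
      rw [Set.mem_singleton_iff.mp hy, mul_one, one_mul]) B hB
  have hpos := blockRank_pos hM B hB
  have hcountX : ∀ X : Finset G, (∀ x ∈ X, ∃ k : ℕ, orderOf x = 2 ^ k) →
      (∀ g : G, (∃ k : ℕ, orderOf g = 2 ^ k) → ∃! x, x ∈ X ∧ IsConj g x) →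
      4 = ∑ x ∈ X, F x := by
    intro X hX hXrep
    rw [← hk, Cfsg.Agent.S4511.result 2 M hM B hB X hX hXrep]
    exact Finset.sum_congr rfl (fun x _ => (hF x).symm)
  rcases hcases with h1 | h3
  · -- trivial inertial quotient
    rw [h1]
    have hTC : T ≤ Subgroup.centralizer (P : Set G) :=
      Subgroup.relIndex_eq_one.mp (he.trans h1)
    obtain ⟨X, hYX, hX, hXrep⟩ := exists_reps 2 ({1} : Finset G)
      (by
        intro y hy
        rw [Finset.mem_singleton] at hy
        exact ⟨0, by rw [hy]; simp⟩)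
      (by
        intro y hy y' hy' _
        rw [Finset.mem_singleton] at hy hy'
        rw [hy, hy'])
    have hcount := hcountX X hX hXrep
    have h1X : (1 : G) ∈ X := hYX (Finset.mem_singleton_self 1)
    rw [← Finset.add_sum_erase X _ h1X, hF1] at hcount
    -- the nonidentity elements of `P`
    obtain ⟨ys, hysdef⟩ : ∃ ys : Finset G,
        ys = (Finset.univ.filter (fun y : G => y ∈ P)).erase 1 := ⟨_, rfl⟩
    have hysmem : ∀ y : G, y ∈ ys ↔ y ≠ 1 ∧ y ∈ P := by
      intro y
      rw [hysdef, Finset.mem_erase, Finset.mem_filter]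
      simp
    have hys : ys.card = 3 := by
      have h2 : (Finset.univ.filter (fun y : G => y ∈ P)).card = 4 := by
        rw [← hcard, Nat.card_eq_fintype_card]
        exact (Fintype.card_of_subtype _ (fun x => by simp)).symm
      rw [hysdef, Finset.card_erase_of_mem (by simp), h2]
    have hρex : ∀ y : G, ∃ x : G, y ∈ ys → (x ∈ X.erase 1 ∧ IsConj y x) := by
      intro y
      by_cases hy : y ∈ ys
      · obtain ⟨hy1, hyP⟩ := (hysmem y).mp hy
        obtain ⟨x, ⟨hx, hc⟩, -⟩ := hXrep y ⟨1, by rw [pow_one]; exact hinvo y hyP hy1⟩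
        refine ⟨x, fun _ => ⟨Finset.mem_erase.mpr ⟨?_, hx⟩, hc⟩⟩
        rintro rfl
        exact hy1 (isConj_one_left.mp hc)
      · exact ⟨1, fun h => absurd h hy⟩
    choose ρ hρ using hρex
    have hge : 3 ≤ ∑ x ∈ X.erase 1, F x := by
      rw [← hys, Finset.card_eq_sum_card_fiberwise (f := ρ) (t := X.erase 1)
        (fun y hy => (hρ y hy).1)]
      refine Finset.sum_le_sum fun x _ => ?_
      rw [hF' x]
      refine count_le_finsum (ys.filter (fun y => ρ y = x)) _
        (fun y f' => ∃ g : G, g * y * g⁻¹ = x ∧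
          ∃ f : Set (IrrCharacter (Subgroup.centralizer
            ((Subgroup.zpowers y : Subgroup G) : Set G))),
            SubpairLE 2 M (Subgroup.zpowers y) f P c ∧
            (⟨Subgroup.zpowers x, f'⟩ : BrauerPairIdx G) =
              conjPair g ⟨Subgroup.zpowers y, f⟩) ?_ ?_ _ ?_
      · intro y hy
        obtain ⟨hyys, hyx⟩ := Finset.mem_filter.mp hy
        obtain ⟨hy1, hyP⟩ := (hysmem y).mp hyys
        have hc : IsConj y x := by rw [← hyx]; exact (hρ y hyys).2
        obtain ⟨g, hg⟩ := isConj_iff.mp hc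
        obtain ⟨f, hf, hle⟩ := hsub y hyP
        have hpf : IsBrauerPairOf 2 M B (Subgroup.zpowers y) f :=
          (brauerPairOf_iff_of_subpairLE hM _ P f c hle B hB).mp hmax.1
        obtain ⟨f', hf', hfeq⟩ := exists_conj_pair B y g x hg f hpf
        exact ⟨f', (isBrauerPairOf_iff_isInducedBlock hM _ hf'.1.1 f' B).mp hf',
          g, hg, f, hle, hfeq⟩
      · rintro y hy y' hy' f' ⟨g, hg, f, hle, h⟩ ⟨g', hg', f'', hle', h'⟩
        obtain ⟨hyys, -⟩ := Finset.mem_filter.mp hy
        obtain ⟨hy'ys, -⟩ := Finset.mem_filter.mp hy'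
        obtain ⟨-, hyP⟩ := (hysmem y).mp hyys
        obtain ⟨t, ht, hty⟩ := involution_fusion hM B P c hmax hab y y' f hle f''
          (isPBlock_of_subpairLE hle' hmax.1.1.2) hle' g g' x hg hg' (h.symm.trans h')
        have htC := hTC ((hTfix t).mp ht)
        have h2 := Subgroup.mem_centralizer_iff.mp htC y hyP
        rw [← hty, ← h2]
        group
      · intro f hf
        exact blockRank_pos hM f hf.1
    omega
  · -- inertial quotient of order three
    rw [h3]
    have hP1 : ∃ y ∈ P, y ≠ 1 := by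
      by_contra hcon
      push Not at hcon
      have h2 : Nat.card P ≤ 1 := by
        rw [Finite.card_le_one_iff_subsingleton]
        exact ⟨fun a b => Subtype.ext (by rw [hcon a a.2, hcon b b.2])⟩
      omega
    obtain ⟨y₁, hy₁P, hy₁1⟩ := hP1
    have hy₁o : ∃ k : ℕ, orderOf y₁ = 2 ^ k := ⟨1, by rw [pow_one]; exact hinvo y₁ hy₁P hy₁1⟩
    obtain ⟨X, hYX, hX, hXrep⟩ := exists_reps 2 ({1, y₁} : Finset G)
      (by
        intro y hy
        simp only [Finset.mem_insert, Finset.mem_singleton] at hy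
        rcases hy with rfl | rfl
        · exact ⟨0, by simp⟩
        · exact hy₁o)
      (by
        intro y hy y' hy' hc
        simp only [Finset.mem_insert, Finset.mem_singleton] at hy hy'
        rcases hy with rfl | rfl <;> rcases hy' with rfl | rfl
        · rfl
        · exact (isConj_one_right.mp hc).symm
        · exact isConj_one_left.mp hc
        · rfl)
    have hcount := hcountX X hX hXrep
    have h1X : (1 : G) ∈ X := hYX (by simp)
    have hy₁X : y₁ ∈ X.erase 1 := Finset.mem_erase.mpr ⟨hy₁1, hYX (by simp)⟩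
    -- the base pair
    obtain ⟨f₁, hf₁, hle₁⟩ := hsub y₁ hy₁P
    have hrank : blockRank 2 f₁ = 1 :=
      rank_one_below hM B P c hmax hab hcard y₁ hy₁P hy₁1 (hexp y₁ hy₁P) f₁ hf₁ hle₁
    have hpf₁ : IsBrauerPairOf 2 M B (Subgroup.zpowers y₁) f₁ :=
      (brauerPairOf_iff_of_subpairLE hM _ P f₁ c hle₁ B hB).mp hmax.1
    have hkey : ∀ x : G, x ≠ 1 → (∃ k : ℕ, orderOf x = 2 ^ k) →
        ∀ f' : Set (IrrCharacter ↥(Subgroup.centralizer
          ((Subgroup.zpowers x : Subgroup G) : Set G))),
        IsInducedBlock M (Subgroup.centralizer ((Subgroup.zpowers x : Subgroup G) : Set G)) f' B →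
        ∃ h : G, h * x * h⁻¹ = y₁ ∧
          conjPair h (⟨Subgroup.zpowers x, f'⟩ : BrauerPairIdx G) = ⟨Subgroup.zpowers y₁, f₁⟩ := by
      intro x hx1 hxo f' hf'
      have hxp : IsPGroup 2 (Subgroup.zpowers x) := by
        obtain ⟨k, hk⟩ := hxo
        apply IsPGroup.of_card (n := k)
        rw [Nat.card_zpowers, hk]
      have hpair' := (isBrauerPairOf_iff_isInducedBlock hM _ hxp f' B).mpr hf'
      obtain ⟨g, hgP, hg⟩ := conj_to_base hM B P c hmax x f' hpair'
      have hg1 : g * x * g⁻¹ ≠ 1 := fun h => hx1 (conj_eq_one_iff.mp h)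
      obtain ⟨t, htT, ht⟩ := htrans h3 (g * x * g⁻¹) hgP y₁ hy₁P hg1 hy₁1
      exact ⟨t * g, by rw [← ht]; group, hg t ((hTfix t).mpr htT) y₁ ht f₁ hle₁⟩
    have hFy₁ : F y₁ = 1 := by
      rw [hF' y₁]
      have hset : {f : Set (IrrCharacter ↥(Subgroup.centralizer
          ((Subgroup.zpowers y₁ : Subgroup G) : Set G))) |
          IsInducedBlock M (Subgroup.centralizer ((Subgroup.zpowers y₁ : Subgroup G) : Set G))
            f B} = {f₁} := by
        ext f'
        rw [Set.mem_singleton_iff]
        constructor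
        · intro hf'
          obtain ⟨h, hh, hconj⟩ := hkey y₁ hy₁1 hy₁o f' hf'
          have hhC : h ∈ Subgroup.centralizer ((Subgroup.zpowers y₁ : Subgroup G) : Set G) := by
            rw [← centralizer_singleton_eq, Subgroup.mem_centralizer_iff]
            intro z hz
            rw [Set.mem_singleton_iff.mp hz]
            calc y₁ * h = (h * y₁ * h⁻¹) * h := by rw [hh]
              _ = h * y₁ := by group
          exact eq_of_centralizes _ f' f₁ h hhC hconj
        · rintro rfl
          exact (isBrauerPairOf_iff_isInducedBlock hM _ hpf₁.1.1 f' B).mp hpf₁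
      rw [hset, finsum_mem_singleton, hrank]
    have hFother : ∀ x ∈ (X.erase 1).erase y₁, F x = 0 := by
      intro x hx
      obtain ⟨hxy, hx'⟩ := Finset.mem_erase.mp hx
      obtain ⟨hx1, hxX⟩ := Finset.mem_erase.mp hx'
      rw [hF' x]
      have hset : {f : Set (IrrCharacter ↥(Subgroup.centralizer
          ((Subgroup.zpowers x : Subgroup G) : Set G))) |
          IsInducedBlock M (Subgroup.centralizer ((Subgroup.zpowers x : Subgroup G) : Set G))
            f B} = ∅ := by
        rw [Set.eq_empty_iff_forall_notMem]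
        intro f' hf'
        obtain ⟨h, hh, -⟩ := hkey x hx1 (hX x hxX) f' hf'
        obtain ⟨x₀, -, huniq⟩ := hXrep x (hX x hxX)
        have e1 := huniq x ⟨hxX, IsConj.refl x⟩
        have e2 := huniq y₁ ⟨Finset.mem_of_mem_erase hy₁X, isConj_iff.mpr ⟨h, hh⟩⟩
        exact hxy (e1.trans e2.symm)
      rw [hset, finsum_mem_empty]
    rw [← Finset.add_sum_erase X _ h1X, ← Finset.add_sum_erase (X.erase 1) _ hy₁X, hF1, hFy₁,
      Finset.sum_eq_zero hFother] at hcount
    omega

end Cfsg.Agent.S4637
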