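import Cfsg.Statements.S4642
import Mathlib
import Cfsg.Agent.Lib.Helper33.PTypeE

set_option autoImplicit false
open Cfsg

namespace Cfsg.Agent.S4642

open Cfsg.Agent.Lib Cfsg.Agent.Lib.Helper4 Cfsg.Agent.Lib.Helper21 Cfsg.Agent.Lib.Helper22 Cfsg.Agent.Lib.Helper20 Cfsg.Agent.Lib.Helper33
open scoped ComplexConjugate


/-- Let G be a finite group, p a prime, M a maximal ideal of the algebraic integers containing p, K the largest normal subgroup of G of order prime to p, and L the preimage in G of the largest normal p-subgroup of G/K. Let Q be a Sylow p-subgroup of L and suppose C_G(Q) ≤ L. Let θ be an irreducible character of K invariant under conjugation by every element of G, and let B be the set of irreducible characters of G whose restriction to K contains θ. Then B is a block of G, every Sylow p-subgroup of G is a defect group of B, and B is of principal type: for every p-subgroup R of G exactly one block of C_G(R) induces B. -/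
theorem result {G : Type*} [Group G] [Fintype G] (p : ℕ) [Fact p.Prime] (M : Ideal Cfsg.AlgInt) (hM : Cfsg.IsPModular p M) (K : Subgroup G) (hK : K = Cfsg.pPrimeCore p G) [Fintype K] (L : Subgroup G) (hL : L = Cfsg.pPrimePCore p G) (Q : Subgroup G) (hQL : Q ≤ L) (hQp : IsPGroup p Q) (hQS : ¬ p ∣ Q.relIndex L) (hCQ : Subgroup.centralizer (Q : Set G) ≤ L) (θ : Cfsg.IrrCharacter K) (hθ : ∀ g : G, Cfsg.IsConjCharOf K g (θ : K → ℂ) (θ : K → ℂ)) (B : Set (Cfsg.IrrCharacter G)) (hBdef : ∀ χ : Cfsg.IrrCharacter G, χ ∈ B ↔ Cfsg.classInner (fun k : K => (χ : G → ℂ) k) (θ : K → ℂ) ≠ 0) : Cfsg.IsPBlock M B ∧ (∀ S : Sylow p G, Cfsg.IsDefectGroup p M B S) ∧ ∀ R : Subgroup G, IsPGroup p R → ∃! f : Set (Cfsg.IrrCharacter (Subgroup.centralizer (R : Set G))), Cfsg.IsInducedBlock M (Subgroup.centralizer (R : Set G)) f B := by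
  classical
  have hp : p.Prime := Fact.out
  have hKn : K.Normal := by
    rw [hK]
    infer_instance
  have hpK : ¬ p ∣ Nat.card K := by
    have h1 : (Nat.card K).Coprime p := by
      rw [hK]
      exact Helper81.pPrimeCore_coprime p
    exact fun h => (Nat.Prime.coprime_iff_not_dvd hp).mp h1.symm h
  have hG : IsPConstrained p G := by
    subst hL
    exact isPConstrained_of_sylow_centralizer p Q hQL hQp hQS hCQ
  have hinv : ∀ (g : G) (n : K),
      (θ : K → ℂ) ⟨g * n * g⁻¹, hKn.conj_mem n n.2 g⟩ = (θ : K → ℂ) n := by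
    intro g n
    exact hθ g n ⟨g * n * g⁻¹, hKn.conj_mem n n.2 g⟩ rfl
  obtain ⟨χ₀, hmem, hBE, hB1⟩ := fong_block_constrained p M hM hG K hK θ hinv
  have hB : B = blockOf M (χ₀ : G → ℂ) := by
    ext χ
    rw [hBdef, hmem]
  have hBblock : IsPBlock M B := ⟨χ₀, hB⟩
  have hB1' : ¬ MemLocalIdeal M (blockCoeff B 1) := by
    rw [hB]
    exact hB1
  have hBE' : blockCoeff B = bG K ({θ} : Set (IrrCharacter K)) := by
    rw [hB]
    exact hBE
  refine ⟨hBblock, fun S => sylow_isDefectGroup_of_unit_one hM B hBblock hB1' S, ?_⟩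
  intro R hR
  generalize hH : Subgroup.centralizer (R : Set G) = H
  have hCH : Subgroup.centralizer (R : Set G) ≤ H := hH.le
  have hHC : H ≤ Subgroup.centralizer (R : Set G) := hH.ge
  have : Fintype H := Fintype.ofFinite _
  have : Fintype ↥(K.subgroupOf H) := Fintype.ofFinite _
  have hNn : (K.subgroupOf H).Normal := inferInstance
  have hGH : IsPConstrained p ↥H := by
    subst hH
    exact (Cfsg.Agent.S0631.result hG R hR).2
  have hNdef : K.subgroupOf H = pPrimeCore p ↥H := by
    rw [hK]
    exact pPrimeCore_centralizer_eq hG R hR H hCH hHC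
  obtain ⟨η, hηinv, hηcong⟩ := brauer_correspondent hM K hpK θ hinv R H hR hCH hHC
  obtain ⟨ξ₀, hmemH, -, -⟩ :=
    fong_block_constrained p M hM hGH (K.subgroupOf H) hNdef η hηinv
  -- the Brauer image of the idempotent
  have hHN : H ≤ Subgroup.normalizer (R : Set G) :=
    hHC.trans (Subgroup.centralizer_le_normalizer _)
  have hEcf : IsClassFunction G (blockCoeff B) := blockCoeff_isClassFunction B
  have hεcf : IsClassFunction H (brRes R H (blockCoeff B)) :=
    brRes_isClassFunction R H hHN hEcf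
  have hεapp : ∀ h : H, brRes R H (blockCoeff B) h =
      bG K ({θ} : Set (IrrCharacter K)) (h : G) := by
    intro h
    rw [brRes_apply, if_pos (hHC h.2), hBE']
  have hεN : ∀ h : H, h ∉ K.subgroupOf H → brRes R H (blockCoeff B) h = 0 := by
    intro h hh
    rw [hεapp]
    exact Helper46.extendByZero_of_not_mem K _ (fun hc => hh (Subgroup.mem_subgroupOf.mpr hc))
  have hεcong : ∀ k : ↥(K.subgroupOf H), MemLocalIdeal M
      (brRes R H (blockCoeff B) (k : H) -
        blockCoeff ({η} : Set (IrrCharacter ↥(K.subgroupOf H))) k) := by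
    intro k
    rw [hεapp]
    exact hηcong k
  have hkey : ∀ ξ : IrrCharacter H, MemLocalIdeal M
      (omega (ξ : H → ℂ) (brRes R H (blockCoeff B)) -
        if classInner (fun n : ↥(K.subgroupOf H) => (ξ : H → ℂ) n)
          (η : ↥(K.subgroupOf H) → ℂ) ≠ 0 then 1 else 0) :=
    fun ξ => omega_congr_idempotent hM (K.subgroupOf H) η hηinv _ hεcf hεN hεcong ξ
  refine ⟨blockOf M (ξ₀ : H → ℂ), ?_, ?_⟩
  · -- existence
    show IsInducedBlock M H (blockOf M (ξ₀ : H → ℂ)) B
    apply induced_of_omega_brRes hM R H hR hCH hHC B hBblock ξ₀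
    intro hc
    have h1 := hkey ξ₀
    rw [if_pos ((hmemH ξ₀).mp (mem_blockOf_self hM ξ₀))] at h1
    have h2 := locIdeal_sub hM hc h1
    rw [sub_sub_cancel] at h2
    exact locIdeal_one_not hM h2
  · -- uniqueness
    intro f hf
    obtain ⟨ξ', hξ'⟩ := hf.1
    have hξ'f : ξ' ∈ f := by
      rw [hξ']
      exact mem_blockOf_self hM ξ'
    have h1 := omega_brRes_of_induced hM R H hR hCH hHC f B hf ξ' hξ'f
    have h2 := hkey ξ'
    have hover : classInner (fun n : ↥(K.subgroupOf H) => (ξ' : H → ℂ) n)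
        (η : ↥(K.subgroupOf H) → ℂ) ≠ 0 := by
      by_contra hn
      rw [if_neg (not_not.mpr hn), sub_zero] at h2
      have h3 := locIdeal_sub hM h2 h1
      rw [sub_sub_cancel] at h3
      exact locIdeal_one_not hM h3
    have h4 : ξ' ∈ blockOf M (ξ₀ : H → ℂ) := (hmemH ξ').mpr hover
    rw [hξ']
    exact blockOf_eq_of_sameBlock hM h4

end Cfsg.Agent.S4642
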