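import Cfsg.Statements.S4650
import Cfsg.Agent.Lib.Helper81.BrIn
import Cfsg.Agent.Lib.Helper81.BrMax2
import Cfsg.Agent.S0908

set_option autoImplicit false
open Cfsg

namespace Cfsg.Agent.S4650

/-- Let B be a block of the finite group G relative to a maximal ideal M of the algebraic integers containing the prime p, with a nontrivial commutative defect group P; let c be a block of C_G(P) inducing B and T the stabilizer of c in N_G(P). Then T/C_G(P) acts freely on the non-identity elements of P (an element of T fixing a non-identity element of P under conjugation lies in C_G(P)) if and only if, for every nontrivial subgroup Q of P, the block of C_G(Q) induced by c inside C_G(Q) is a nilpotent block of C_G(Q). -/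
theorem result {G : Type*} [Group G] [Finite G] (p : ℕ) [Fact p.Prime] (M : Ideal Cfsg.AlgInt) (hM : Cfsg.IsPModular p M) (B : Set (Cfsg.IrrCharacter G)) (hB : Cfsg.IsPBlock M B) (P : Subgroup G) (hPD : Cfsg.IsDefectGroup p M B P) (hPab : ∀ x ∈ P, ∀ y ∈ P, x * y = y * x) (hP1 : P ≠ ⊥) (c : Set (Cfsg.IrrCharacter (Subgroup.centralizer (P : Set G)))) (hc : Cfsg.IsInducedBlock M (Subgroup.centralizer (P : Set G)) c B) (T : Subgroup G) (hT : ∀ g : G, g ∈ T ↔ (g ∈ Subgroup.normalizer (P : Set G) ∧ Cfsg.StabilizesBlock (Subgroup.centralizer (P : Set G)) c g)) : (∀ g ∈ T, ∀ x ∈ P, x ≠ 1 → g * x * g⁻¹ = x → g ∈ Subgroup.centralizer (P : Set G)) ↔ ∀ Q : Subgroup G, Q ≤ P → Q ≠ ⊥ → ∀ f : Set (Cfsg.IrrCharacter (Subgroup.centralizer (Q : Set G))), Cfsg.IsInducedBlockIn M (Subgroup.centralizer (Q : Set G)) (Subgroup.centralizer (P : Set G)) c f → Cfsg.IsNilpotentBlock p M f := by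
  classical
  letI : Fintype G := Fintype.ofFinite G
  have hP : IsPGroup p P := Cfsg.Agent.Lib.Helper22.isDefectGroup_isPGroup B P hPD
  have hpair : IsBrauerPairOf p M B P c :=
    (Cfsg.Agent.Lib.Helper81.isBrauerPairOf_iff_isInducedBlock hM P hP c B).mpr hc
  obtain ⟨R, g, hmaxR, hle⟩ := Cfsg.Agent.Lib.Helper81.exists_maximal_above B P c hpair
  have hR : IsDefectGroup p M B R := Cfsg.Agent.Lib.Helper81.isDefectGroup_of_maximal hM B R g hmaxR
  have hcard : Nat.card R ≤ Nat.card P := by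
    rw [Cfsg.Agent.S0908.result p M hM B hB R hR, Cfsg.Agent.S0908.result p M hM B hB P hPD]
  have hmax : IsMaximalBrauerPair p M B P c :=
    Cfsg.Agent.Lib.Helper81.isMaximal_of_card hM B R g hmaxR ⟨P, c⟩ hpair hcard
  have key := fun Q hQP f hf =>
    Cfsg.Agent.Lib.Helper81.nilpotent_iff_of_abelian hM B P c hmax hPab Q hQP f hf
  constructor
  · intro hfree Q hQP hQ1 f hf
    rw [key Q hQP f hf]
    intro g hgN hgs hgQ
    obtain ⟨⟨x, hxQ⟩, hx1⟩ := (Subgroup.ne_bot_iff_exists_ne_one (H := Q)).mp hQ1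
    have hx1' : (x : G) ≠ 1 := fun h => hx1 (Subtype.ext h)
    refine hfree g ((hT g).mpr ⟨hgN, hgs⟩) x (hQP hxQ) hx1' ?_
    have h1 := Subgroup.mem_centralizer_iff.mp hgQ x hxQ
    rw [← h1]
    group
  · intro hnil g hgT x hxP hx1 hgx
    obtain ⟨hgN, hgs⟩ := (hT g).mp hgT
    have hQP : Subgroup.zpowers x ≤ P := (Subgroup.zpowers_le).mpr hxP
    have hPQ : P ≤ Subgroup.centralizer (Subgroup.zpowers x : Set G) := by
      intro y hy
      rw [Subgroup.mem_centralizer_iff]
      intro q hq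
      exact hPab q (hQP hq) y hy
    obtain ⟨f, hf⟩ := Cfsg.Agent.Lib.Helper81.exists_isInducedBlockIn hM (Subgroup.zpowers x) P
      hP hPQ hQP c hpair.1.2
    have hQ1 : Subgroup.zpowers x ≠ ⊥ := by
      rw [Ne, Subgroup.zpowers_eq_bot]
      exact hx1
    refine (key _ hQP f hf).mp (hnil _ hQP hQ1 f hf) g hgN hgs ?_
    rw [Subgroup.mem_centralizer_iff]
    intro y hy
    obtain ⟨k, rfl⟩ := Subgroup.mem_zpowers_iff.mp hy
    have hc : Commute g x := by
      show g * x = x * g
      have e : g * x = g * x * g⁻¹ * g := by group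
      rw [e, hgx]
    exact (hc.zpow_right k).eq.symm

end Cfsg.Agent.S4650
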