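import Cfsg.Statements.S4651
-- import your own Cfsg.Agent.* helpers here
import Cfsg.Agent.Lib.Helper79.KRb
import Cfsg.Agent.Lib.Helper79.KRc

set_option autoImplicit false
open Cfsg

namespace Cfsg.Agent.S4651

open Cfsg.Agent.Lib.Helper79

/-- An alternating-sum identity over chains of p-subgroups (the character-count form behind the chain reformulation of Alperin's weight conjecture, which holds unconditionally for the difference k − l). Let b be a block of the finite group G relative to a maximal ideal M of the algebraic integers containing the prime p. Consider the nonempty chains s = {Q_0 < Q_1 < ⋯ < Q_m} of nontrivial p-subgroups of G in which every member is normal in the largest member; let N_G(s) be the intersection of the normalizers of the members (the stabilizer of the chain), and let b_s be the set of irreducible characters of N_G(s) lying in blocks of N_G(s) that induce b. Then #G · (k(b) − l(b)) equals the sum over all such chains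 s of (−1)^m · #N_G(s) · (k(b_s) − l(b_s)), where k counts irreducible characters and l is the p-regular rank; equivalently, k(b) − l(b) is the alternating sum of k(b_s) − l(b_s) over representatives of the conjugacy classes of such chains. -/
theorem result {G : Type*} [Group G] [Finite G] (p : ℕ) [Fact p.Prime] (M : Ideal Cfsg.AlgInt) (hM : Cfsg.IsPModular p M) (b : Set (Cfsg.IrrCharacter G)) (hb : Cfsg.IsPBlock M b) : (Nat.card G : ℤ) * ((Nat.card b : ℤ) - (Cfsg.blockRank p b : ℤ)) = ∑ᶠ s ∈ {s : Finset (Subgroup G) | s.Nonempty ∧ (∀ Q ∈ s, ∀ R ∈ s, Q ≤ R ∨ R ≤ Q) ∧ (∀ Q ∈ s, Q ≠ ⊥ ∧ IsPGroup p Q) ∧ ∃ T ∈ s, ∀ Q ∈ s, Q ≤ T ∧ T ≤ Subgroup.normalizer ((Q : Subgroup G) : Set G)}, (-1 : ℤ) ^ (s.card - 1) * (Nat.card (((⨅ Q ∈ s, Subgroup.normalizer ((Q : Subgroup G) : Set G) : Subgroup G))) : ℤ) * ((Nat.card {ψ : Cfsg.IrrCharacter (((⨅ Q ∈ s, Subgroup.normalizer ((Q : Subgroup G) : Set G) : Subgroup G))) | ∃ β : Set (Cfsg.IrrCharacter (((⨅ Q ∈ s, Subgroup.normalizer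 ((Q : Subgroup G) : Set G) : Subgroup G)))), ψ ∈ β ∧ Cfsg.IsInducedBlock M (((⨅ Q ∈ s, Subgroup.normalizer ((Q : Subgroup G) : Set G) : Subgroup G))) β b} : ℤ) - (Cfsg.blockRank p {ψ : Cfsg.IrrCharacter (((⨅ Q ∈ s, Subgroup.normalizer ((Q : Subgroup G) : Set G) : Subgroup G))) | ∃ β : Set (Cfsg.IrrCharacter (((⨅ Q ∈ s, Subgroup.normalizer ((Q : Subgroup G) : Set G) : Subgroup G)))), ψ ∈ β ∧ Cfsg.IsInducedBlock M (((⨅ Q ∈ s, Subgroup.normalizer ((Q : Subgroup G) : Set G) : Subgroup G))) β b} : ℤ)) := by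
  classical
  letI : Fintype G := Fintype.ofFinite G
  have hset : {s : Finset (Subgroup G) | s.Nonempty ∧ (∀ Q ∈ s, ∀ R ∈ s, Q ≤ R ∨ R ≤ Q) ∧
      (∀ Q ∈ s, Q ≠ ⊥ ∧ IsPGroup p Q) ∧
      ∃ T ∈ s, ∀ Q ∈ s, Q ≤ T ∧ T ≤ Subgroup.normalizer ((Q : Subgroup G) : Set G)} =
      {s : Finset (Subgroup G) | s.Nonempty ∧ krNC p s} := by
    ext s
    constructor
    · rintro ⟨hne, hc, hp, T, hT, hTQ⟩
      exact ⟨hne, hc, hp, fun Q hQ R hR => (hTQ R hR).1.trans (hTQ Q hQ).2⟩
    · rintro ⟨hne, hc, hp, hn⟩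
      have hT := kr_chain_sup_mem s hc hne
      exact ⟨hne, hc, hp, s.sup id, hT, fun Q hQ =>
        ⟨Finset.le_sup (f := id) hQ, hn Q hQ _ hT⟩⟩
  rw [hset]
  have hsummand : ∀ s : Finset (Subgroup G),
      (-1 : ℤ) ^ (s.card - 1) * (Nat.card (((⨅ Q ∈ s, Subgroup.normalizer ((Q : Subgroup G) : Set G) : Subgroup G))) : ℤ) * ((Nat.card {ψ : Cfsg.IrrCharacter (((⨅ Q ∈ s, Subgroup.normalizer ((Q : Subgroup G) : Set G) : Subgroup G))) | ∃ β : Set (Cfsg.IrrCharacter (((⨅ Q ∈ s, Subgroup.normalizer ((Q : Subgroup G) : Set G) : Subgroup G)))), ψ ∈ β ∧ Cfsg.IsInducedBlock M (((⨅ Q ∈ s, Subgroup.normalizer ((Q : Subgroup G) : Set G) : Subgroup G))) β b} : ℤ) - (Cfsg.blockRank p {ψ : Cfsg.IrrCharacter (((⨅ Q ∈ s, Subgroup.normalizer ((Q : Subgroup G) : Set G) : Subgroup G))) | ∃ β : Set (Cfsg.IrrCharacter (((⨅ Q ∈ s, Subgroup.normalizer ((Q : Subgroup G) : Set G) : Subgroup G)))), ψ ∈ β ∧ Cfsg.IsInducedBlock M (((⨅ Q ∈ s, Subgroup.normalizer ((Q : Subgroup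 G) : Set G) : Subgroup G))) β b} : ℤ)) =
      (-1 : ℤ) ^ (s.card - 1) * krF p M b (krN s) := by
    intro s
    rw [mul_assoc]
    rfl
  rw [finsum_mem_congr rfl (fun s _ => hsummand s)]
  have h0 := kr_chain_sum p (krPhi p M b) (G := G)
  have h1 : ∑ᶠ s ∈ {s : Finset (Subgroup G) | krNC p s},
      (-1 : ℤ) ^ s.card * krF p M b (krN s) = 0 := by
    rw [← h0]
    refine finsum_mem_congr rfl fun s _ => ?_
    rw [kr_F_eq hM b (krN s)]
  have h2 : {s : Finset (Subgroup G) | krNC p s} =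
      insert ∅ {s : Finset (Subgroup G) | s.Nonempty ∧ krNC p s} := by
    ext s
    simp only [Set.mem_insert_iff, Set.mem_ofPred_eq]
    constructor
    · intro hs
      rcases s.eq_empty_or_nonempty with h | h
      · exact Or.inl h
      · exact Or.inr ⟨h, hs⟩
    · rintro (rfl | ⟨-, hs⟩)
      · exact ⟨by simp, by simp, by simp⟩
      · exact hs
  have hnot : (∅ : Finset (Subgroup G)) ∉ {s : Finset (Subgroup G) | s.Nonempty ∧ krNC p s} := by
    rintro ⟨h, -⟩
    exact Finset.not_nonempty_empty h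
  rw [h2, finsum_mem_insert _ hnot (Set.toFinite _)] at h1
  have h3 : ∑ᶠ s ∈ {s : Finset (Subgroup G) | s.Nonempty ∧ krNC p s},
      (-1 : ℤ) ^ s.card * krF p M b (krN s) =
      -∑ᶠ s ∈ {s : Finset (Subgroup G) | s.Nonempty ∧ krNC p s},
        (-1 : ℤ) ^ (s.card - 1) * krF p M b (krN s) := by
    rw [← finsum_mem_neg_distrib _ (Set.toFinite _)]
    refine finsum_mem_congr rfl fun s hs => ?_
    have hc : s.card = (s.card - 1) + 1 := by
      have := Finset.card_pos.mpr hs.1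
      omega
    rw [hc, pow_succ, Nat.add_sub_cancel]
    ring
  have h4 : krN (∅ : Finset (Subgroup G)) = ⊤ := by
    unfold krN
    simp
  rw [h3, Finset.card_empty, pow_zero, one_mul, h4, kr_F_top hM b hb] at h1
  linarith

end Cfsg.Agent.S4651
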