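import Cfsg.Statements.S4652
import Mathlib
import Cfsg.Agent.Lib.Helper21.Osima
import Cfsg.Agent.Lib.Helper4.CharSimple
import Cfsg.Agent.Lib.Helper22.SylowAux
import Cfsg.Agent.Lib.Helper81.PSolv

set_option autoImplicit false
open Cfsg

namespace Cfsg.Agent.S4652

open Cfsg.Agent.Lib.Helper21 Cfsg.Agent.Lib.Helper4

theorem principalBlock_isPBlock {G : Type*} [Group G] (M : Ideal Cfsg.AlgInt) :
    Cfsg.IsPBlock M (Cfsg.principalBlock M G) := ⟨trivIrr, rfl⟩

theorem trivIrr_mem {G : Type*} [Group G] {p : ℕ} {M : Ideal Cfsg.AlgInt}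
    (hM : Cfsg.IsPModular p M) : (trivIrr : Cfsg.IrrCharacter G) ∈ Cfsg.principalBlock M G := by
  intro g
  have : Cfsg.centralChar (fun _ : G => (1 : ℂ)) g -
      Cfsg.centralChar ((trivIrr : Cfsg.IrrCharacter G) : G → ℂ) g = 0 := sub_self _
  rw [this]
  exact locIdeal_zero hM

theorem centralChar_one {G : Type*} [Group G] (g : G) :
    Cfsg.centralChar (fun _ : G => (1 : ℂ)) g =
      ((Subgroup.centralizer ({g} : Set G)).index : ℂ) := by
  simp [Cfsg.centralChar]

theorem index_centralizer_conj {G : Type*} [Group G] [Finite G] (c t : G) :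
    (Subgroup.centralizer ({t * c * t⁻¹} : Set G)).index =
      (Subgroup.centralizer ({c} : Set G)).index := by
  have h1 := Subgroup.card_mul_index (Subgroup.centralizer ({t * c * t⁻¹} : Set G))
  have h2 := Subgroup.card_mul_index (Subgroup.centralizer ({c} : Set G))
  rw [Cfsg.Agent.Lib.Helper22.card_centralizer_conj, ← h2] at h1
  exact Nat.eq_of_mul_eq_mul_left Nat.card_pos h1

theorem isDefectClass_of {G : Type*} [Group G] [Fintype G] {p : ℕ} {M : Ideal Cfsg.AlgInt}
    (hM : Cfsg.IsPModular p M) (g : G)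
    (h1 : ¬ p ∣ (Subgroup.centralizer ({g} : Set G)).index)
    (h2 : ¬ Cfsg.MemLocalIdeal M (Cfsg.blockCoeff (Cfsg.principalBlock M G) g)) :
    Cfsg.IsDefectClass M (Cfsg.principalBlock M G) g := by
  refine ⟨osima hM _ (principalBlock_isPBlock M) g, h2, fun χ hχ hcon => ?_⟩
  have h3 := locIdeal_add hM (hχ g) hcon
  rw [sub_add_cancel, centralChar_one, locIdeal_natCast_iff hM] at h3
  exact h1 h3

theorem exists_defect_class {G : Type*} [Group G] [Fintype G] {p : ℕ} {M : Ideal Cfsg.AlgInt}
    (hM : Cfsg.IsPModular p M) :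
    ∃ g : G, ¬ p ∣ (Subgroup.centralizer ({g} : Set G)).index ∧
      ¬ Cfsg.MemLocalIdeal M (Cfsg.blockCoeff (Cfsg.principalBlock M G) g) := by
  classical
  by_contra hcon
  push Not at hcon
  have h := omega_locIdeal_of_forall hM (Cfsg.blockCoeff (Cfsg.principalBlock M G))
    (blockCoeff_isClassFunction _) trivIrr (fun g => ?_)
  · rw [omega_blockCoeff, if_pos (trivIrr_mem hM)] at h
    exact locIdeal_one_not hM h
  · by_cases hg : p ∣ (Subgroup.centralizer ({g} : Set G)).index
    · refine locIdeal_mul_left hM (osima hM _ (principalBlock_isPBlock M) g) ?_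
      have : Cfsg.centralChar ((trivIrr : Cfsg.IrrCharacter G) : G → ℂ) g =
          ((Subgroup.centralizer ({g} : Set G)).index : ℂ) := centralChar_one g
      rw [this]
      exact (locIdeal_natCast_iff hM _).mpr hg
    · exact locIdeal_mul_right hM (hcon g hg) (centralChar_locRing hM trivIrr g)

/-- Fix a prime p and a maximal ideal M of the algebraic integers containing p. The defect groups of the principal p-block of a finite group G are exactly the Sylow p-subgroups of G: a subgroup D is a defect group of the principal block if and only if D is a Sylow p-subgroup. -/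
theorem result {G : Type*} [Group G] [Fintype G] (p : ℕ) [Fact p.Prime] (M : Ideal Cfsg.AlgInt) (hM : Cfsg.IsPModular p M) (D : Subgroup G) : Cfsg.IsDefectGroup p M (Cfsg.principalBlock M G) D ↔ ∃ S : Sylow p G, (S : Subgroup G) = D := by
  constructor
  · rintro ⟨g, hg, P, rfl⟩
    have h1 : ¬ p ∣ (Subgroup.centralizer ({g} : Set G)).index := by
      intro h
      apply hg.2.2 trivIrr (trivIrr_mem hM)
      have : Cfsg.centralChar ((trivIrr : Cfsg.IrrCharacter G) : G → ℂ) g =
          ((Subgroup.centralizer ({g} : Set G)).index : ℂ) := centralChar_one g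
      rw [this]
      exact (locIdeal_natCast_iff hM _).mpr h
    have hp : IsPGroup p ((P : Subgroup (Subgroup.centralizer ({g} : Set G))).map
        (Subgroup.centralizer ({g} : Set G)).subtype) := P.2.map _
    have hidx : ¬ p ∣ ((P : Subgroup (Subgroup.centralizer ({g} : Set G))).map
        (Subgroup.centralizer ({g} : Set G)).subtype).index := by
      rw [Subgroup.index_map_subtype]
      exact Nat.Prime.not_dvd_mul Fact.out P.not_dvd_index h1
    exact ⟨hp.toSylow hidx, rfl⟩
  · rintro ⟨S, rfl⟩
    obtain ⟨g, hg1, hg2⟩ := exists_defect_class (G := G) hM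
    obtain ⟨S', hS'⟩ := Cfsg.Agent.Lib.Helper81.exists_sylow_le_of_not_dvd_index p _ hg1
    obtain ⟨x, hx⟩ := MulAction.exists_smul_eq G S' S
    have hg1' : ¬ p ∣ (Subgroup.centralizer ({x * g * x⁻¹} : Set G)).index := by
      rw [index_centralizer_conj]; exact hg1
    have hg2' : ¬ Cfsg.MemLocalIdeal M (Cfsg.blockCoeff (Cfsg.principalBlock M G) (x * g * x⁻¹)) := by
      rw [blockCoeff_isClassFunction _ g x]; exact hg2
    have hle : (S : Subgroup G) ≤ Subgroup.centralizer ({x * g * x⁻¹} : Set G) := by
      intro y hy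
      rw [← hx, Sylow.smul_def, Sylow.pointwise_smul_def,
        Subgroup.mem_pointwise_smul_iff_inv_smul_mem] at hy
      have h1 : x⁻¹ * y * x ∈ (S' : Subgroup G) := by simpa [MulAut.smul_def] using hy
      rw [Cfsg.Agent.Lib.Helper22.mem_centralizer_conj_iff]
      exact hS' h1
    refine ⟨x * g * x⁻¹, isDefectClass_of hM _ hg1' hg2', S.subtype hle, ?_⟩
    rw [Sylow.coe_subtype, Subgroup.subgroupOf_map_subtype, inf_of_le_left hle]

end Cfsg.Agent.S4652
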