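import Cfsg.Statements.S4657
import Mathlib
import Cfsg.Agent.Lib.Helper22.BrauerHom
import Cfsg.Agent.Lib.Helper79.Blk2

set_option autoImplicit false
open Cfsg

namespace Cfsg.Agent.S4657

open Cfsg.Agent.Lib.Helper4 Cfsg.Agent.Lib.Helper21 Cfsg.Agent.Lib.Helper22

theorem brauerOmega_eq {G : Type*} [Group G] (P : Subgroup G)
    [Fintype (Subgroup.centralizer (P : Set G))] (β : G → ℂ)
    (ξ : Subgroup.centralizer (P : Set G) → ℂ) :
    Cfsg.brauerOmega P β ξ = omega ξ (brRes P (Subgroup.centralizer (P : Set G)) β) := by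
  classical
  unfold Cfsg.brauerOmega
  rw [finsum_eq_sum_of_fintype, omega_def, Finset.sum_div]
  refine Finset.sum_congr rfl fun x _ => ?_
  rw [brRes_apply, if_pos x.2]

/-- Fix a prime p and a maximal ideal M of the algebraic integers containing p. Every Brauer pair (P, e) of the finite group G is a Brauer pair of exactly one p-block B of G. -/
theorem result {G : Type*} [Group G] [Fintype G] (p : ℕ) [Fact p.Prime] (M : Ideal Cfsg.AlgInt) (hM : Cfsg.IsPModular p M) (P : Subgroup G) (e : Set (Cfsg.IrrCharacter (Subgroup.centralizer (P : Set G)))) (hPe : Cfsg.IsBrauerPair p M P e) : ∃! B : Set (Cfsg.IrrCharacter G), Cfsg.IsBrauerPairOf p M B P e := by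
  classical
  let _ : Fintype (Subgroup.centralizer (P : Set G)) := Fintype.ofFinite _
  obtain ⟨hPp, ξ₀, he⟩ := hPe
  obtain ⟨χ₀, hχ₀⟩ := exists_irr_brauer hM P (Subgroup.centralizer (P : Set G)) hPp le_rfl
    (Subgroup.centralizer_le_normalizer _) ξ₀
  have hξ₀e : ξ₀ ∈ e := by
    rw [he]
    exact Cfsg.Agent.Lib.Helper79.mem_blockOf_self hM ξ₀
  have key : ∀ B' : Set (IrrCharacter G), IsPBlock M B' → ∀ ξ ∈ e, MemLocalIdeal M
      (brauerOmega P (blockCoeff B') (ξ : Subgroup.centralizer (P : Set G) → ℂ) -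
        (if χ₀ ∈ B' then 1 else 0)) := by
    intro B' hB' ξ hξ
    rw [brauerOmega_eq]
    have hloc := isLocClass_blockCoeff hM B' hB'
    have hlocC := isLocClass_brRes hM P (Subgroup.centralizer (P : Set G))
      (Subgroup.centralizer_le_normalizer _) hloc
    have h1 := hχ₀ _ hloc
    rw [omega_blockCoeff] at h1
    have hsame : SameBlock M (ξ : Subgroup.centralizer (P : Set G) → ℂ)
        (ξ₀ : Subgroup.centralizer (P : Set G) → ℂ) := by
      rw [he] at hξ
      exact Cfsg.Agent.Lib.Helper79.sameBlock_symm' hM hξ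
    have h2 := omega_sub_locIdeal hM _ hlocC.1 hlocC.2 ξ ξ₀ hsame
    have h3 := locIdeal_add hM h2 h1
    rwa [sub_add_sub_cancel] at h3
  refine ⟨blockOf M (χ₀ : G → ℂ), ⟨⟨hPp, ξ₀, he⟩, Cfsg.Agent.Lib.Helper79.isPBlock_blockOf χ₀,
    fun ξ hξ => ?_⟩, ?_⟩
  · have h1 := key _ (Cfsg.Agent.Lib.Helper79.isPBlock_blockOf χ₀) ξ hξ
    rwa [if_pos (Cfsg.Agent.Lib.Helper79.mem_blockOf_self hM χ₀)] at h1
  · rintro B' ⟨-, hB', h⟩
    apply Cfsg.Agent.Lib.Helper79.blockOf_eq_of_mem hM hB'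
    by_contra hcon
    have h1 := key B' hB' ξ₀ hξ₀e
    rw [if_neg hcon, sub_zero] at h1
    have h2 := h ξ₀ hξ₀e
    have h3 := locIdeal_sub hM h1 h2
    rw [sub_sub_cancel] at h3
    exact locIdeal_one_not hM h3

end Cfsg.Agent.S4657
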