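import Cfsg.Statements.S4658
import Cfsg.Agent.Lib.Helper81.BrSub

set_option autoImplicit false
open Cfsg

namespace Cfsg.Agent.S4658

/-- Fix a prime p and a maximal ideal M of the algebraic integers containing p. Let (Q, f) ≤ (P, e) be Brauer pairs of the finite group G and B a p-block of G. Then (P, e) is a Brauer pair of B if and only if (Q, f) is. -/
theorem result {G : Type*} [Group G] [Fintype G] (p : ℕ) [Fact p.Prime] (M : Ideal Cfsg.AlgInt) (hM : Cfsg.IsPModular p M) (P Q : Subgroup G) (e : Set (Cfsg.IrrCharacter (Subgroup.centralizer (P : Set G)))) (f : Set (Cfsg.IrrCharacter (Subgroup.centralizer (Q : Set G)))) (hPe : Cfsg.IsBrauerPair p M P e) (hQf : Cfsg.IsBrauerPair p M Q f) (hle : Cfsg.SubpairLE p M Q f P e) (B : Set (Cfsg.IrrCharacter G)) (hB : Cfsg.IsPBlock M B) : Cfsg.IsBrauerPairOf p M B P e ↔ Cfsg.IsBrauerPairOf p M B Q f := by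
  exact Cfsg.Agent.Lib.Helper81.brauerPairOf_iff_of_subpairLE hM Q P f e hle B hB

end Cfsg.Agent.S4658
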