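import Cfsg.Statements.S4664
import Mathlib
import Cfsg.Agent.Lib.Helper22.Defect
import Cfsg.Agent.Lib.Helper80.EV

set_option autoImplicit false
open Cfsg

namespace Cfsg.Agent.S4664

open Cfsg.Agent.Lib.Helper4 Cfsg.Agent.Lib.Helper21 Cfsg.Agent.Lib.Helper22

theorem conj_irr_mem {G : Type*} [Group G] [Fintype G] (m : ℕ) (hm : 0 < m) (g : G)
    (hg : g ^ m = 1) (χ : Cfsg.IrrCharacter G) :
    (starRingEnd ℂ) ((χ : G → ℂ) g) ∈ IntermediateField.adjoin ℚ
      ({Complex.exp (2 * Real.pi * Complex.I / (m : ℂ))} : Set ℂ) := by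
  set η := Complex.exp (2 * Real.pi * Complex.I / (m : ℂ)) with hη
  have hprim : IsPrimitiveRoot η m := Complex.isPrimitiveRoot_exp m hm.ne'
  have hηmem : η ∈ IntermediateField.adjoin ℚ ({η} : Set ℂ) :=
    IntermediateField.subset_adjoin ℚ _ (Set.mem_singleton η)
  obtain ⟨n, ρ, hρ, hχ⟩ := χ.2
  obtain ⟨c, hc⟩ := Cfsg.Agent.Lib.Helper80.character_pow_eq ρ g m hm hg η hprim
  have hinv : g⁻¹ = g ^ (m - 1) := by
    have h1 : g ^ (m - 1) * g = 1 := by
      rw [← pow_succ, Nat.sub_add_cancel hm, hg]
    exact inv_eq_of_mul_eq_one_left h1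
  rw [← irr_inv χ g, hinv, ← hχ, hc (m - 1)]
  refine sum_mem fun j _ => ?_
  exact mul_mem (natCast_mem _ _) (pow_mem (pow_mem hηmem _) _)

/-- Fix a prime p and a maximal ideal M of the algebraic integers containing p, and let B be a p-block of the finite group G. Let m be the p'-part of the order of G and η = exp(2πi/m). Then every coefficient of the idempotent of B lies in the cyclotomic field ℚ(η). -/
theorem result {G : Type*} [Group G] [Fintype G] (p : ℕ) [Fact p.Prime] (M : Ideal Cfsg.AlgInt) (hM : Cfsg.IsPModular p M) (B : Set (Cfsg.IrrCharacter G)) (hB : Cfsg.IsPBlock M B) (g : G) : Cfsg.blockCoeff B g ∈ IntermediateField.adjoin ℚ ({Complex.exp (2 * Real.pi * Complex.I / ((Nat.card G / p ^ (Nat.card G).factorization p : ℕ) : ℂ))} : Set ℂ) := by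
  classical
  set m := Nat.card G / p ^ (Nat.card G).factorization p with hm
  have hp : p.Prime := Fact.out
  have hcard : p ^ (Nat.card G).factorization p * m = Nat.card G :=
    Nat.ordProj_mul_ordCompl_eq_self (Nat.card G) p
  have hm0 : 0 < m := by
    rcases Nat.eq_zero_or_pos m with h | h
    · rw [h, mul_zero] at hcard
      exact absurd hcard.symm Nat.card_pos.ne'
    · exact h
  by_cases hg : p ∣ orderOf g
  · have h0 : Cfsg.blockCoeff B g = 0 := by
      by_contra hne
      exact pRegular_of_blockCoeff_ne_zero hM B hB g hne hg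
    rw [h0]
    exact zero_mem _
  · have hgm : g ^ m = 1 := by
      rw [← orderOf_dvd_iff_pow_eq_one]
      have h1 : orderOf g ∣ p ^ (Nat.card G).factorization p * m := by
        rw [hcard]
        exact orderOf_dvd_natCard g
      have hcop : Nat.Coprime (orderOf g) (p ^ (Nat.card G).factorization p) :=
        Nat.Coprime.pow_right _ ((Nat.Prime.coprime_iff_not_dvd hp).mpr hg).symm
      exact hcop.dvd_of_dvd_mul_left h1
    unfold Cfsg.blockCoeff
    refine mul_mem ?_ ?_
    · exact inv_mem (natCast_mem _ _)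
    · have := irr_finite (G := G)
      let _ := Fintype.ofFinite (IrrCharacter G)
      rw [finsum_mem_def, finsum_eq_sum_of_fintype]
      refine sum_mem fun χ _ => ?_
      by_cases hχ : χ ∈ B
      · rw [Set.indicator_of_mem hχ]
        refine mul_mem ?_ (conj_irr_mem m hm0 g hgm χ)
        obtain ⟨n, -, hn⟩ := irr_one_nat χ
        rw [hn]
        exact natCast_mem _ _
      · rw [Set.indicator_of_notMem hχ]
        exact zero_mem _

end Cfsg.Agent.S4664
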