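import Cfsg.Statements.S4665
import Mathlib
import Cfsg.Agent.Lib.Helper82.CharCore

set_option autoImplicit false
open Cfsg

namespace Cfsg.Agent.S4665

/-- Fix a prime p, a maximal ideal M of the algebraic integers containing p, and a p-block B of the finite group G, and let p^a be the p-part of the order of G. Let χ be an integer combination of the irreducible characters in B. If the function that agrees with χ on p-regular elements and vanishes on p-singular elements is again an integer combination of the irreducible characters in B, then p^a divides χ(1). -/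
theorem result {G : Type*} [Group G] [Fintype G] (p : ℕ) [Fact p.Prime] (M : Ideal Cfsg.AlgInt) (hM : Cfsg.IsPModular p M) (B : Set (Cfsg.IrrCharacter G)) (hB : Cfsg.IsPBlock M B) (χ : G → ℂ) (hχ : (∃ n : Cfsg.IrrCharacter G → ℤ, ∀ g : G, χ g = ∑ᶠ ψ ∈ B, (n ψ : ℂ) * (ψ : G → ℂ) g)) (h0 : (∃ n : Cfsg.IrrCharacter G → ℤ, ∀ g : G, Cfsg.pRegularPart p χ g = ∑ᶠ ψ ∈ B, (n ψ : ℂ) * (ψ : G → ℂ) g)) : ∃ k : ℤ, χ 1 = (p ^ (Nat.card G).factorization p : ℂ) * k := by
  classical
  obtain ⟨n, hn⟩ := h0
  have := Cfsg.Agent.Lib.Helper82.finite_irrCharacter G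
  let _ := Fintype.ofFinite (IrrCharacter G)
  obtain ⟨P⟩ : Nonempty (Sylow p G) := inferInstance
  have hcard : Nat.card P = p ^ (Nat.card G).factorization p := Sylow.card_eq_multiplicity P
  choose m hm using fun ψ : IrrCharacter G =>
    Cfsg.Agent.Lib.Helper82.irr_sum_subgroup_eq (P : Subgroup G) ψ
  have h1 : ∑ t : G, (if t ∈ (P : Subgroup G) then pRegularPart p χ t else 0) = χ 1 := by
    rw [Finset.sum_eq_single 1]
    · have hp1 : p ≠ 1 := (Fact.out : p.Prime).ne_one
      simp [pRegularPart, IsPRegular, hp1]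
    · intro t _ ht
      split_ifs with h
      · simp only [pRegularPart]
        rw [if_neg]
        intro hreg
        apply ht
        obtain ⟨k, hk⟩ := (IsPGroup.iff_orderOf.mp P.isPGroup') ⟨t, h⟩
        rw [Subgroup.orderOf_mk] at hk
        unfold IsPRegular at hreg
        rw [hk] at hreg
        cases k with
        | zero => simpa using hk
        | succ k => exact absurd (dvd_pow_self p (Nat.succ_ne_zero k)) hreg
      · rfl
    · simp
  have h2 : ∀ t : G, pRegularPart p χ t
      = ∑ ψ : IrrCharacter G, (if ψ ∈ B then (n ψ : ℂ) * (ψ : G → ℂ) t else 0) := by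
    intro t
    rw [hn t, finsum_mem_def, finsum_eq_sum_of_fintype]
    refine Finset.sum_congr rfl fun ψ _ => ?_
    by_cases hψ : ψ ∈ B <;> simp [hψ]
  refine ⟨∑ ψ : IrrCharacter G, (if ψ ∈ B then n ψ * (m ψ : ℤ) else 0), ?_⟩
  rw [← h1]
  have h3 : ∑ t : G, (if t ∈ (P : Subgroup G) then pRegularPart p χ t else 0)
      = ∑ ψ : IrrCharacter G, ∑ t : G,
          (if ψ ∈ B then (n ψ : ℂ) * (if t ∈ (P : Subgroup G) then (ψ : G → ℂ) t else 0) else 0) := by
    rw [Finset.sum_comm]
    refine Finset.sum_congr rfl fun t _ => ?_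
    rw [h2 t]
    by_cases ht : t ∈ (P : Subgroup G)
    · simp [ht]
    · simp [ht]
  rw [h3]
  push_cast
  rw [Finset.mul_sum]
  refine Finset.sum_congr rfl fun ψ _ => ?_
  by_cases hψ : ψ ∈ B
  · simp only [hψ, if_true]
    rw [← Finset.mul_sum, hm ψ, hcard]
    push_cast
    ring
  · simp [hψ]

end Cfsg.Agent.S4665
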