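import Cfsg.Statements.S4666
import Cfsg.Agent.Lib.Helper84.PReg5

set_option autoImplicit false
open Cfsg

namespace Cfsg.Agent.S4666

/-- Fix a prime p and a maximal ideal M of the algebraic integers containing p, and a p-block B of the finite group G of defect d. For every integer combination χ of the irreducible characters in B, p^d times the function that agrees with χ on p-regular elements and vanishes elsewhere is again an integer combination of the irreducible characters in B. -/
theorem result {G : Type*} [Group G] [Fintype G] (p : ℕ) [Fact p.Prime] (M : Ideal Cfsg.AlgInt) (hM : Cfsg.IsPModular p M) (B : Set (Cfsg.IrrCharacter G)) (hB : Cfsg.IsPBlock M B) (χ : G → ℂ) (hχ : (∃ n : Cfsg.IrrCharacter G → ℤ, ∀ g : G, χ g = ∑ᶠ ψ ∈ B, (n ψ : ℂ) * (ψ : G → ℂ) g)) : (∃ n : Cfsg.IrrCharacter G → ℤ, ∀ g : G, (p ^ Cfsg.blockDefect p B : ℂ) * Cfsg.pRegularPart p χ g = ∑ᶠ ψ ∈ B, (n ψ : ℂ) * (ψ : G → ℂ) g) :=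
  Cfsg.Agent.Lib.Helper84.preg_defect_span p M hM B hB χ hχ

end Cfsg.Agent.S4666
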