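import Cfsg.Statements.S4667
import Mathlib
import Cfsg.Agent.Lib.Helper81.RegPart

set_option autoImplicit false
open Cfsg

namespace Cfsg.Agent.S4667

/-- Fix a prime p and a maximal ideal M of the algebraic integers containing p, and a p-block B of the finite group G. The p-regular rank of B (the number of irreducible Brauer characters in B) times the order of G equals the sum over the p-regular elements x of G of Σ_{χ ∈ B} χ(x) χ(x⁻¹) (written with the restriction of χ to p-regular elements, which vanishes at p-singular x). -/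
theorem result {G : Type*} [Group G] [Fintype G] (p : ℕ) [Fact p.Prime] (M : Ideal Cfsg.AlgInt) (hM : Cfsg.IsPModular p M) (B : Set (Cfsg.IrrCharacter G)) (hB : Cfsg.IsPBlock M B) : (Nat.card G : ℂ) * (Cfsg.blockRank p B : ℂ) = ∑ x : G, ∑ᶠ χ ∈ B, Cfsg.pRegularPart p (χ : G → ℂ) x * (χ : G → ℂ) x⁻¹ := by
  classical
  have := Cfsg.Agent.Lib.Helper4.irr_finite (G := G)
  let _ := Fintype.ofFinite (IrrCharacter G)
  have hG : (Nat.card G : ℂ) ≠ 0 := Cfsg.Agent.Lib.Helper4.card_ne_zero_complex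
  rw [Cfsg.Agent.Lib.Helper81.blockRank_eq_sum hM B hB, Finset.mul_sum]
  have h1 : ∀ x : G, ∑ᶠ χ ∈ B, Cfsg.pRegularPart p (χ : G → ℂ) x * (χ : G → ℂ) x⁻¹ =
      ∑ χ : IrrCharacter G, (if χ ∈ B then
        Cfsg.pRegularPart p (χ : G → ℂ) x * (starRingEnd ℂ) ((χ : G → ℂ) x) else 0) := by
    intro x
    rw [finsum_mem_def, finsum_eq_sum_of_fintype]
    refine Finset.sum_congr rfl fun χ _ => ?_
    by_cases hχ : χ ∈ B
    · simp [hχ, Cfsg.Agent.Lib.Helper4.irr_inv]
    · simp [hχ]
  simp only [h1]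
  rw [Finset.sum_comm]
  refine Finset.sum_congr rfl fun χ _ => ?_
  by_cases hχ : χ ∈ B
  · simp only [hχ, if_true, Cfsg.classInner]
    rw [← mul_assoc, mul_inv_cancel₀ hG, one_mul]
  · simp [hχ]

end Cfsg.Agent.S4667
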