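import Cfsg.Statements.S4668
import Mathlib
import Cfsg.Agent.Lib.Helper81.NormalP
import Cfsg.Agent.Lib.Helper81.OsimaSupp
import Cfsg.Agent.Lib.Helper22.Defect
import Cfsg.Agent.Lib.Helper30.AxB

set_option autoImplicit false
open Cfsg

namespace Cfsg.Agent.S4668

/-- Fix a prime p and a maximal ideal M of the algebraic integers containing p. Let Q₀ < Q₁ < ⋯ < Q_m be a strictly increasing chain of p-subgroups of the finite group G and N the intersection of their normalizers. Then every block idempotent of N is supported on C_G(Q_m): for every p-block E of N, the idempotent coefficient of E vanishes at every element of N outside C_G(Q_m). -/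
theorem result {G : Type*} [Group G] [Fintype G] (p : ℕ) [Fact p.Prime] (M : Ideal Cfsg.AlgInt) (hM : Cfsg.IsPModular p M) (m : ℕ) (Q : Fin (m + 1) → Subgroup G) (hQ : StrictMono Q) (hQp : ∀ i, IsPGroup p (Q i)) (N : Subgroup G) (hN : ∀ g : G, g ∈ N ↔ ∀ i, g ∈ Subgroup.normalizer (Q i : Set G)) (E : Set (Cfsg.IrrCharacter N)) (hE : Cfsg.IsPBlock M E) (n : N) (hn : (n : G) ∉ Subgroup.centralizer (Q (Fin.last m) : Set G)) : Cfsg.blockCoeff E n = 0 := by
  classical
  let _ : Fintype N := Fintype.ofFinite N
  have hp : p.Prime := Fact.out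
  by_contra hne
  -- `n` is `p`-regular
  have hreg : ¬ p ∣ orderOf n :=
    Cfsg.Agent.Lib.Helper22.pRegular_of_blockCoeff_ne_zero hM E hE n hne
  have hcop : (orderOf (n : G)).Coprime p := by
    rw [Subgroup.orderOf_coe]
    exact ((Nat.Prime.coprime_iff_not_dvd hp).mpr hreg).symm
  have hmono : Monotone Q := hQ.monotone
  -- the normal `p`-subgroup `R = Q_m ∩ N` of `N`
  let R : Subgroup N := (Q (Fin.last m)).subgroupOf N
  have hRn : R.Normal := by
    constructor
    intro x hx g
    have hx' : (x : G) ∈ Q (Fin.last m) := hx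
    show ((g * x * g⁻¹ : N) : G) ∈ Q (Fin.last m)
    have hg := (hN g).mp g.2 (Fin.last m)
    rw [Subgroup.mem_normalizer_iff] at hg
    have := (hg (x : G)).mp hx'
    simpa using this
  have hRp : IsPGroup p R := (hQp (Fin.last m)).comap_subtype
  have hnR : n ∈ Subgroup.centralizer (R : Set N) := by
    by_contra hcon
    exact hne (Cfsg.Agent.Lib.Helper81.blockCoeff_eq_zero_of_not_mem
      (Subgroup.centralizer (R : Set N)) hM
      (fun g hg χ => Cfsg.Agent.Lib.Helper81.centralChar_locIdeal_of_not_mem_centralizer hM R hRp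
        g hg χ) E hE n hcon)
  have hcomm : ∀ q : G, q ∈ N → q ∈ Q (Fin.last m) → Commute (n : G) q := by
    intro q hqN hqQ
    have h1 := (Subgroup.mem_centralizer_iff.mp hnR) ⟨q, hqN⟩ hqQ
    have h2 := congrArg (Subtype.val : N → G) h1
    simp only [Subgroup.coe_mul] at h2
    exact h2.symm
  have hnN : ∀ i, (n : G) ∈ Subgroup.normalizer (Q i : Set G) := (hN n).mp n.2
  have key : ∀ i : Fin (m + 1), ∀ q ∈ Q i, Commute (n : G) q := by
    intro i
    induction i using Fin.induction with
    | zero =>
      intro q hq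
      refine hcomm q ((hN q).mpr fun j => ?_) (hmono (Fin.le_last 0) hq)
      exact Subgroup.le_normalizer (hmono (Fin.zero_le j) hq)
    | succ i ih =>
      refine Cfsg.Agent.Lib.Helper30.thompson_AxB p (hQp i.succ) (hQp i.castSucc) ?_ (hnN i.succ)
        hcop ih ?_
      · exact (hmono (Fin.castSucc_lt_succ (i := i)).le).trans Subgroup.le_normalizer
      · intro q hq
        refine hcomm q ((hN q).mpr fun j => ?_) (hmono (Fin.le_last _) hq.1)
        by_cases hj : j ≤ i.castSucc
        · exact Subgroup.centralizer_le_normalizer _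
            (Subgroup.centralizer_le (hmono hj) hq.2)
        · have hj' : i.succ ≤ j := by
            rw [not_le] at hj
            exact Fin.castSucc_lt_iff_succ_le.mp hj
          exact Subgroup.le_normalizer (hmono hj' hq.1)
  apply hn
  rw [Subgroup.mem_centralizer_iff]
  intro q hq
  exact (key (Fin.last m) q hq).eq.symm

end Cfsg.Agent.S4668
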