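import Cfsg.Statements.S4671
import Cfsg.Agent.Lib.Helper84.FRDefect

set_option autoImplicit false
set_option linter.style.haveILetI false
open Cfsg

namespace Cfsg.Agent.S4671

/-- Fix a prime p and a maximal ideal M of the algebraic integers containing p. Let N be a normal subgroup of the finite group G, B a p-block of G and P a defect group of B. Then there is a p-block c of N, stable under conjugation by P and covered by B (some member of B has a constituent in c on restriction to N), such that P ∩ N is a defect group of c. -/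
theorem result {G : Type*} [Group G] [Fintype G] (p : ℕ) [Fact p.Prime] (M : Ideal Cfsg.AlgInt) (hM : Cfsg.IsPModular p M) (N : Subgroup G) [N.Normal] [Fintype N] (B : Set (Cfsg.IrrCharacter G)) (hB : Cfsg.IsPBlock M B) (P : Subgroup G) (hP : Cfsg.IsDefectGroup p M B P) : ∃ c : Set (Cfsg.IrrCharacter N), Cfsg.IsPBlock M c ∧ (∀ x ∈ P, Cfsg.StabilizesBlock N c x) ∧ (∃ χ ∈ B, ∃ θ ∈ c, Cfsg.classInner (fun n : N => (χ : G → ℂ) n) (θ : N → ℂ) ≠ 0) ∧ Cfsg.IsDefectGroup p M c ((P ⊓ N).subgroupOf N) := by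
  classical
  have hN : N.Normal := inferInstance
  obtain ⟨χ, hχ⟩ := Cfsg.Agent.Lib.Helper22.exists_mem_of_isPBlock hM hB
  obtain ⟨θf, hθirr, hθcon⟩ := Cfsg.Agent.Lib.Helper20.exists_constituent N χ.2
  obtain ⟨θ, hθdef⟩ : ∃ θ : Cfsg.IrrCharacter N, θ = ⟨θf, hθirr⟩ := ⟨_, rfl⟩
  have hθcon' : Cfsg.classInner (fun n : N => (χ : G → ℂ) n) (θ : N → ℂ) ≠ 0 := by
    rw [hθdef]
    exact hθcon
  obtain ⟨b, hbdef⟩ : ∃ b : Set (Cfsg.IrrCharacter N), b = Cfsg.blockOf M (θ : N → ℂ) :=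
    ⟨_, rfl⟩
  have hθb : θ ∈ b := by
    rw [hbdef]
    exact Cfsg.Agent.Lib.Helper22.mem_blockOf_self hM θ
  have hb : Cfsg.IsPBlock M b := ⟨θ, hbdef⟩
  have hcov : ∃ χ ∈ B, ∃ θ' ∈ b,
      Cfsg.classInner (fun n : N => (χ : G → ℂ) n) (θ' : N → ℂ) ≠ 0 :=
    ⟨χ, hχ, θ, hθb, hθcon'⟩
  obtain ⟨T, hTdef⟩ : ∃ T : Subgroup G, T = Cfsg.Agent.Lib.Helper81.blockStabilizer N b :=
    ⟨_, rfl⟩
  letI : Fintype T := Fintype.ofFinite _
  have hNT : N ≤ T := by
    intro n hn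
    rw [hTdef]
    exact Cfsg.Agent.Lib.Helper81.stabilizesBlock_of_mem N b hn
  have hT : ∀ g : G, g ∈ T ↔ ∀ θ ∈ b, ∀ θ' : Cfsg.IrrCharacter N,
      (∀ n : N, (θ' : N → ℂ) n = (θ : N → ℂ) ⟨g * n * g⁻¹, hN.conj_mem n n.2 g⟩) → θ' ∈ b := by
    intro g
    rw [hTdef]
    exact Cfsg.Agent.Lib.Helper84.blockStabilizer_hT N b g
  obtain ⟨-, -, h3⟩ := Cfsg.Agent.S4435.result p M hM N b hb T hT hNT
  obtain ⟨B', hB', hcov', hind⟩ := h3 B hB hcov
  obtain ⟨y, hy⟩ := Cfsg.Agent.S0906.result p M hM b hb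
  obtain ⟨S⟩ : Nonempty (Sylow p (Subgroup.centralizer ({y} : Set ↥N))) := inferInstance
  obtain ⟨R₀, hR₀def⟩ : ∃ R₀ : Subgroup ↥N,
      R₀ = (S : Subgroup (Subgroup.centralizer ({y} : Set ↥N))).map
        (Subgroup.centralizer ({y} : Set ↥N)).subtype := ⟨_, rfl⟩
  have hR₀ : Cfsg.IsDefectGroup p M b R₀ := ⟨y, hy, S, hR₀def⟩
  have hRN : R₀.map N.subtype ≤ N := Subgroup.map_subtype_le R₀
  have hRsub : (R₀.map N.subtype).subgroupOf N = R₀ :=
    Subgroup.comap_map_eq_self_of_injective N.subtype_injective R₀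
  have hR₀' : Cfsg.IsDefectGroup p M b ((R₀.map N.subtype).subgroupOf N) := by
    rw [hRsub]
    exact hR₀
  obtain ⟨D, hDT, hDB', hDN⟩ := Cfsg.Agent.Lib.Helper84.knorr_over hM N T hNT B' hB' b hb
    (R₀.map N.subtype) hRN hR₀' hcov'
  have hDB : Cfsg.IsDefectGroup p M B D := by
    have h := Cfsg.Agent.Lib.Helper84.fr_defectGroup hM N b hb T hT hNT B' hB' hcov' B hind
      (D.subgroupOf T) hDB'
    rwa [Subgroup.map_subgroupOf_eq_of_le hDT] at h
  obtain ⟨t, ht⟩ := Cfsg.Agent.Lib.Helper81.defectGroup_conj hM B hB D P hDB hP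
  have hnorm : ∀ x : G, x ∈ Subgroup.normalizer (N : Set G) := by
    intro x
    rw [Subgroup.mem_normalizer_iff]
    intro n
    exact ⟨fun h => hN.conj_mem n h x, fun h => by simpa [mul_assoc] using hN.conj_mem _ h x⁻¹⟩
  refine ⟨Cfsg.Agent.Lib.Helper81.conjSet N t (hnorm t) b,
    Cfsg.Agent.Lib.Helper81.isPBlock_conjSet N t (hnorm t) hb, ?_, ?_, ?_⟩
  · intro x hx
    rw [Cfsg.Agent.Lib.Helper81.stabilizesBlock_iff]
    refine ⟨hnorm x, ?_⟩
    have hyD : t⁻¹ * x * t ∈ D := by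
      rw [← ht, Subgroup.mem_map_equiv, MulAut.conj_symm_apply] at hx
      exact hx
    have hyT : t⁻¹ * x * t ∈ T := hDT hyD
    rw [hTdef, Cfsg.Agent.Lib.Helper81.mem_blockStabilizer,
      Cfsg.Agent.Lib.Helper81.stabilizesBlock_iff] at hyT
    obtain ⟨_, hsub⟩ := hyT
    rw [← Cfsg.Agent.Lib.Helper81.conjSet_mul N x t (hnorm x) (hnorm t),
      Cfsg.Agent.Lib.Helper81.conjSet_congr N (show x * t = t * (t⁻¹ * x * t) by group) _
        (Subgroup.mul_mem _ (hnorm t) (hnorm _)),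
      Cfsg.Agent.Lib.Helper81.conjSet_mul N t _ (hnorm t) (hnorm _)]
    exact Cfsg.Agent.Lib.Helper81.conjSet_mono N t (hnorm t) hsub
  · refine ⟨χ, hχ, Cfsg.Agent.Lib.Helper81.irrMap
      (Cfsg.Agent.Lib.Helper81.normConj N t (hnorm t)) θ, ⟨θ, hθb, rfl⟩, ?_⟩
    have h1 := Cfsg.Agent.Lib.Helper20.classInner_comp_equiv
      (Cfsg.Agent.Lib.Helper81.normConj N t (hnorm t)) (fun n : N => (χ : G → ℂ) n)
      (Cfsg.Agent.Lib.Helper81.irrMap (Cfsg.Agent.Lib.Helper81.normConj N t (hnorm t)) θ :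
        N → ℂ)
    rw [← h1]
    have e1 : (fun a : N => (fun n : N => (χ : G → ℂ) n)
        (Cfsg.Agent.Lib.Helper81.normConj N t (hnorm t) a)) =
        fun n : N => (χ : G → ℂ) n := by
      funext a
      exact Cfsg.Agent.Lib.Helper4.isClassFunction_irr χ (a : G) t
    have e2 : (fun a : N => (Cfsg.Agent.Lib.Helper81.irrMap
        (Cfsg.Agent.Lib.Helper81.normConj N t (hnorm t)) θ : N → ℂ)
        (Cfsg.Agent.Lib.Helper81.normConj N t (hnorm t) a)) = (θ : N → ℂ) := by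
      funext a
      exact Cfsg.Agent.Lib.Helper81.irrMap_apply_apply _ θ a
    rw [e1, e2]
    exact hθcon'
  · have h1 := Cfsg.Agent.Lib.Helper22.isDefectGroup_image_irrMap (M := M) (p := p)
      (Cfsg.Agent.Lib.Helper81.normConj N t (hnorm t)) b _ hR₀'
    have e1 : ((R₀.map N.subtype).subgroupOf N).map
        (Cfsg.Agent.Lib.Helper81.normConj N t (hnorm t)).toMonoidHom =
        (P ⊓ N).subgroupOf N := by
      ext z
      have hzN : t⁻¹ * (z : G) * t ∈ N ↔ (z : G) ∈ N :=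
        ⟨fun _ => z.2, fun _ => by simpa using hN.conj_mem _ z.2 t⁻¹⟩
      rw [Subgroup.mem_map_equiv, Subgroup.mem_subgroupOf, Subgroup.mem_subgroupOf,
        Cfsg.Agent.Lib.Helper81.normConj_symm_apply, ← hDN, Subgroup.mem_inf, Subgroup.mem_inf,
        ← ht, Subgroup.mem_map_equiv, MulAut.conj_symm_apply, hzN]
    rw [e1] at h1
    exact h1

end Cfsg.Agent.S4671
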