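import Cfsg.Statements.S4673
import Cfsg.Agent.Lib.Helper84.StabDefect

set_option autoImplicit false
set_option linter.style.haveILetI false
open Cfsg

namespace Cfsg.Agent.S4673

/-- Fix a prime p and a maximal ideal M of the algebraic integers containing p. Let N ≤ L be normal subgroups of the finite group G with L/N a p-group, let B be a p-block of G covering the p-block c of N (some member of B has a constituent in c on restriction to N), and suppose that N contains a defect group of B. Then the stabilizer T of c in G satisfies T ∩ L = N. -/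
theorem result {G : Type*} [Group G] [Fintype G] (p : ℕ) [Fact p.Prime] (M : Ideal Cfsg.AlgInt) (hM : Cfsg.IsPModular p M) (N L : Subgroup G) [N.Normal] [L.Normal] [Fintype N] (hNL : N ≤ L) (hLN : ∃ k : ℕ, (N.subgroupOf L).index = p ^ k) (B : Set (Cfsg.IrrCharacter G)) (hB : Cfsg.IsPBlock M B) (c : Set (Cfsg.IrrCharacter N)) (hc : Cfsg.IsPBlock M c) (hcov : (∃ χ ∈ B, ∃ θ ∈ c, Cfsg.classInner (fun n : N => (χ : G → ℂ) n) (θ : N → ℂ) ≠ 0)) (hD : ∃ D : Subgroup G, Cfsg.IsDefectGroup p M B D ∧ D ≤ N) (T : Subgroup G) (hT : ∀ x : G, x ∈ T ↔ Cfsg.StabilizesBlock N c x) : T ⊓ L = N := by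
  classical
  have hN : N.Normal := inferInstance
  have hTeq : T = Cfsg.Agent.Lib.Helper81.blockStabilizer N c :=
    Subgroup.ext fun x => (hT x).trans (Cfsg.Agent.Lib.Helper81.mem_blockStabilizer N c x).symm
  have hNT : N ≤ T := fun n hn =>
    (hT n).mpr (Cfsg.Agent.Lib.Helper81.stabilizesBlock_of_mem N c hn)
  apply le_antisymm
  · letI : Fintype T := Fintype.ofFinite _
    have hT' : ∀ g : G, g ∈ T ↔ ∀ θ ∈ c, ∀ θ' : Cfsg.IrrCharacter N,
        (∀ n : N, (θ' : N → ℂ) n = (θ : N → ℂ) ⟨g * n * g⁻¹, hN.conj_mem n n.2 g⟩) →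
          θ' ∈ c := by
      intro g
      rw [hTeq]
      exact Cfsg.Agent.Lib.Helper84.blockStabilizer_hT N c g
    obtain ⟨-, -, h3⟩ := Cfsg.Agent.S4435.result p M hM N c hc T hT' hNT
    obtain ⟨B', hB', hcov', hind⟩ := h3 B hB hcov
    obtain ⟨D, hDB, hDN⟩ := hD
    obtain ⟨y, hy⟩ := Cfsg.Agent.S0906.result p M hM B' hB'
    obtain ⟨S⟩ : Nonempty (Sylow p (Subgroup.centralizer ({y} : Set ↥T))) := inferInstance
    obtain ⟨DT, hDTdef⟩ : ∃ DT : Subgroup ↥T,
        DT = (S : Subgroup (Subgroup.centralizer ({y} : Set ↥T))).map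
          (Subgroup.centralizer ({y} : Set ↥T)).subtype := ⟨_, rfl⟩
    have hDT : Cfsg.IsDefectGroup p M B' DT := ⟨y, hy, S, hDTdef⟩
    have hDTB := Cfsg.Agent.Lib.Helper84.fr_defectGroup hM N c hc T hT' hNT B' hB' hcov' B hind
      DT hDT
    obtain ⟨x, hx⟩ := Cfsg.Agent.Lib.Helper81.defectGroup_conj hM B hB D (DT.map T.subtype)
      hDB hDTB
    have hDTN : DT ≤ N.subgroupOf T := by
      intro z hz
      rw [Subgroup.mem_subgroupOf]
      have h1 : (z : G) ∈ DT.map T.subtype := ⟨z, hz, rfl⟩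
      rw [← hx, Subgroup.mem_map_equiv, MulAut.conj_symm_apply] at h1
      have h2 := hN.conj_mem _ (hDN h1) x
      have e : x * (x⁻¹ * (z : G) * x) * x⁻¹ = z := by group
      rwa [e] at h2
    letI : Fintype ↥(N.subgroupOf T) := Fintype.ofFinite _
    have hNL' : N.subgroupOf T ≤ L.subgroupOf T := fun z hz =>
      Subgroup.mem_subgroupOf.mpr (hNL (Subgroup.mem_subgroupOf.mp hz))
    have hidx' : ∃ k : ℕ, ((N.subgroupOf T).subgroupOf (L.subgroupOf T)).index = p ^ k := by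
      obtain ⟨k, hk⟩ := hLN
      have e2 : (N.subgroupOf T).relIndex (L.subgroupOf T) = N.relIndex (L ⊓ T) := by
        rw [← Subgroup.inf_subgroupOf_right L T, Subgroup.relIndex_subgroupOf inf_le_right]
      have e3 : N.relIndex (L ⊓ T) ∣ p ^ k := by
        have h4 := Subgroup.relIndex_mul_relIndex N (L ⊓ T) L (le_inf hNL hNT) inf_le_left
        have h5 : N.relIndex L = p ^ k := hk
        rw [← h5, ← h4]
        exact Dvd.intro _ rfl
      obtain ⟨j, -, hj⟩ := (Nat.dvd_prime_pow (Fact.out : p.Prime)).mp e3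
      exact ⟨j, e2.trans hj⟩
    have hc' : Cfsg.IsPBlock M (Cfsg.Agent.Lib.Helper81.irrMap
        (Subgroup.subgroupOfEquivOfLe hNT).symm '' c) :=
      Cfsg.Agent.Lib.Helper81.isPBlock_image_irrMap _ hc
    have hst' : ∀ x ∈ L.subgroupOf T, Cfsg.StabilizesBlock (N.subgroupOf T)
        (Cfsg.Agent.Lib.Helper81.irrMap (Subgroup.subgroupOfEquivOfLe hNT).symm '' c) x :=
      fun x _ => Cfsg.Agent.Lib.Helper84.stabilizes_sub N T hNT c x ((hT x).mp x.2)
    have hcovT : ∃ ψ ∈ B', ∃ θ' ∈ Cfsg.Agent.Lib.Helper81.irrMap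
        (Subgroup.subgroupOfEquivOfLe hNT).symm '' c,
        Cfsg.classInner (fun n : ↥(N.subgroupOf T) => (ψ : T → ℂ) n)
          (θ' : ↥(N.subgroupOf T) → ℂ) ≠ 0 := by
      obtain ⟨ψ, hψ, θ, hθ, hcon⟩ := hcov'
      refine ⟨ψ, hψ, _, ⟨θ, hθ, rfl⟩, ?_⟩
      have h1 := Cfsg.Agent.Lib.Helper84.classInner_subgroupOf T N hNT (ψ : T → ℂ) θ
      have e2 : (Cfsg.Agent.Lib.Helper81.irrMap (Subgroup.subgroupOfEquivOfLe hNT).symm θ :
          ↥(N.subgroupOf T) → ℂ) =
          (Cfsg.Agent.Lib.Helper84.trIrr (Subgroup.subgroupOfEquivOfLe hNT) θ :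
            ↥(N.subgroupOf T) → ℂ) := by
        funext z
        rfl
      rw [e2, h1]
      exact hcon
    have hle := Cfsg.Agent.Lib.Helper84.stable_defect_in hM (N.subgroupOf T) (L.subgroupOf T)
      hNL' hidx' _ hc' hst' B' hB' hcovT DT hDT hDTN
    intro z hz
    have h1 : (⟨z, (Subgroup.mem_inf.mp hz).1⟩ : T) ∈ L.subgroupOf T :=
      Subgroup.mem_subgroupOf.mpr (Subgroup.mem_inf.mp hz).2
    exact Subgroup.mem_subgroupOf.mp (hle h1)
  · exact le_inf hNT hNL

end Cfsg.Agent.S4673
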