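import Cfsg.Statements.S4678
import Cfsg.Agent.Lib.Helper81.BrFus

set_option autoImplicit false
open Cfsg

namespace Cfsg.Agent.S4678

/-- Fix a prime p and a maximal ideal M of the algebraic integers containing p, a p-block B of the finite group G with maximal Brauer pair (P, e), its fusion system F on P, and a Brauer pair (Q, f) ≤ (P, e). Then Q is fully centralized in F if and only if C_P(Q) is a defect group of f as a block of C_G(Q). -/
theorem result {G : Type*} [Group G] [Fintype G] (p : ℕ) [Fact p.Prime] (M : Ideal Cfsg.AlgInt) (hM : Cfsg.IsPModular p M) (B : Set (Cfsg.IrrCharacter G)) (P : Subgroup G) (e : Set (Cfsg.IrrCharacter (Subgroup.centralizer (P : Set G)))) (hmax : Cfsg.IsMaximalBrauerPair p M B P e) (F : Cfsg.FusionSystem P) (hF : Cfsg.IsBlockFusionSystemOn p M B P e F) (Q : Subgroup G) (f : Set (Cfsg.IrrCharacter (Subgroup.centralizer (Q : Set G)))) (hQP : Q ≤ P) (hf : Cfsg.IsPBlock M f) (hle : Cfsg.SubpairLE p M Q f P e) : F.IsFullyCentralized Q ↔ Cfsg.IsDefectGroup p M f ((P ⊓ Subgroup.centralizer (Q :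 Set G)).subgroupOf (Subgroup.centralizer (Q : Set G))) := by
  exact Cfsg.Agent.Lib.Helper81.isFullyCentralized_iff hM B P e hmax F hF Q f hQP hf hle

end Cfsg.Agent.S4678
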