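import Cfsg.Statements.S4682
import Cfsg.Agent.Lib.Helper81.BrAb

set_option autoImplicit false
open Cfsg

namespace Cfsg.Agent.S4682

/-- Fix a prime p and a maximal ideal M of the algebraic integers containing p, a p-block B of the finite group G with maximal Brauer pair (P, e), P abelian, and a Brauer pair (Q, f) ≤ (P, e). Let T_Q be the stabilizer of f in N_G(Q) and T_P the stabilizer of e in N_G(P). Then every element of T_Q is a product of an element of T_P and an element of C_G(Q); and the index of C_G(Q) in T_Q equals the index of T_P ∩ C_G(Q) in T_P ∩ N_G(Q). -/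
theorem result {G : Type*} [Group G] [Fintype G] (p : ℕ) [Fact p.Prime] (M : Ideal Cfsg.AlgInt) (hM : Cfsg.IsPModular p M) (B : Set (Cfsg.IrrCharacter G)) (P : Subgroup G) (e : Set (Cfsg.IrrCharacter (Subgroup.centralizer (P : Set G)))) (hmax : Cfsg.IsMaximalBrauerPair p M B P e) (hab : ∀ x ∈ P, ∀ y ∈ P, x * y = y * x) (Q : Subgroup G) (f : Set (Cfsg.IrrCharacter (Subgroup.centralizer (Q : Set G)))) (hQP : Q ≤ P) (hf : Cfsg.IsPBlock M f) (hle : Cfsg.SubpairLE p M Q f P e) (TQ : Subgroup G) (hTQ : ∀ y : G, y ∈ TQ ↔ y ∈ Subgroup.normalizer (Q : Set G) ∧ Cfsg.StabilizesBlock (Subgroup.centralizer (Q : Set G)) f y) (TP : Subgroup G) (hTP : ∀ y : G, y ∈ TP ↔ y ∈ Subgroup.normalizer (P : Set G) ∧ Cfsg.StabilizesBlock (Subgroup.centralizer (P : Set G)) e y) : (∀ x ∈ TQ, ∃ y ∈ TP, ∃ c ∈ Subgroup.centralizer (Q : Set G), x = y * c) ∧ ((Subgroup.centralizer (Q : Set G)).subgroupOf TQ).index = ((TP ⊓ Subgroup.centralizer (Q : Set G)).subgroupOf (TP ⊓ Subgroup.normalizer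 (Q : Set G))).index := by
  classical
  have hPe := hmax.1.1
  have part1 : ∀ x ∈ TQ, ∃ y ∈ TP, ∃ c ∈ Subgroup.centralizer (Q : Set G), x = y * c := by
    intro x hx
    obtain ⟨hxN, hxs⟩ := (hTQ x).mp hx
    obtain ⟨y, hy, c, hc, hxy⟩ := Cfsg.Agent.Lib.Helper81.stab_factor_of_abelian hM B P e hmax
      hab Q f hf hle x hxN hxs
    exact ⟨y, (hTP y).mpr ((Cfsg.Agent.Lib.Helper81.conjPair_eq_self_iff P e y).mp hy), c, hc,
      hxy⟩
  refine ⟨part1, ?_⟩
  have hCN : Subgroup.centralizer (Q : Set G) ≤ Subgroup.normalizer (Q : Set G) :=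
    Subgroup.centralizer_le_normalizer _
  have hCTQ : Subgroup.centralizer (Q : Set G) ≤ TQ := fun c hc =>
    (hTQ c).mpr ⟨hCN hc, Cfsg.Agent.Lib.Helper81.stabilizesBlock_of_mem _ f hc⟩
  have hTQN : TQ ≤ Subgroup.normalizer (Q : Set G) := fun t ht => ((hTQ t).mp ht).1
  have hA : TP ⊓ Subgroup.normalizer (Q : Set G) ≤ TQ := by
    intro y hy
    have h1 := (Cfsg.Agent.Lib.Helper81.conjPair_eq_self_iff P e y).mpr ((hTP y).mp hy.1)
    have h2 := Cfsg.Agent.Lib.Helper81.conjPair_eq_self_of_le hM Q P f e hPe hf hle y h1 hy.2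
    exact (hTQ y).mpr ((Cfsg.Agent.Lib.Helper81.conjPair_eq_self_iff Q f y).mp h2)
  have hTQeq : TQ = (TP ⊓ Subgroup.normalizer (Q : Set G)) ⊔ Subgroup.centralizer (Q : Set G) := by
    apply le_antisymm
    · intro x hx
      obtain ⟨y, hy, c, hc, rfl⟩ := part1 x hx
      have hyTQ : y ∈ TQ := by
        have h := TQ.mul_mem hx (TQ.inv_mem (hCTQ hc))
        simpa using h
      exact Subgroup.mul_mem _ (Subgroup.mem_sup_left ⟨hy, hTQN hyTQ⟩)
        (Subgroup.mem_sup_right hc)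
    · exact sup_le hA hCTQ
  have hAN : TP ⊓ Subgroup.normalizer (Q : Set G) ≤
      Subgroup.normalizer ((Subgroup.centralizer (Q : Set G) : Subgroup G) : Set G) :=
    inf_le_right.trans (Cfsg.Agent.Lib.Helper81.normalizer_le_normalizer_centralizer Q)
  show (Subgroup.centralizer (Q : Set G)).relIndex TQ =
    (TP ⊓ Subgroup.centralizer (Q : Set G)).relIndex (TP ⊓ Subgroup.normalizer (Q : Set G))
  rw [hTQeq, Cfsg.Agent.Lib.Helper81.relIndex_sup_of_le_normalizer _ _ hAN]
  have e1 : TP ⊓ Subgroup.centralizer (Q : Set G) =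
      Subgroup.centralizer (Q : Set G) ⊓ (TP ⊓ Subgroup.normalizer (Q : Set G)) := by
    rw [inf_comm (Subgroup.centralizer (Q : Set G)), inf_assoc, inf_eq_right.mpr hCN]
  rw [e1, Subgroup.inf_relIndex_right]

end Cfsg.Agent.S4682
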