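import Cfsg.Statements.S4683
import Cfsg.Agent.Lib.Helper80.Contrib
import Cfsg.Agent.Lib.Helper81.BrPair

set_option autoImplicit false
open Cfsg

namespace Cfsg.Agent.S4683

/-- Fix a prime p and a maximal ideal M of the algebraic integers containing p, a p-block B of the finite group G, a p-element u and a p-block e of C = C_G(u) such that (⟨u⟩, e) is a Brauer pair of B (a Brauer element of B). For χ ∈ B let χ_u be the e-part of the class function c ↦ χ(u c) on C and χ_u' the e-part of c ↦ χ(u⁻¹ c). Then the sum over χ ∈ B and over the p-regular elements s of C of χ_u(s)·χ_u'(s⁻¹) equals the order of C times the p-regular rank of e (the number of irreducible Brauer characters of e). -/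
theorem result {G : Type*} [Group G] [Fintype G] (p : ℕ) [Fact p.Prime] (M : Ideal Cfsg.AlgInt) (hM : Cfsg.IsPModular p M) (B : Set (Cfsg.IrrCharacter G)) (u : G) (hu : ∃ k : ℕ, orderOf u = p ^ k) (e : Set (Cfsg.IrrCharacter (Subgroup.centralizer (Subgroup.zpowers u : Set G)))) (hBe : Cfsg.IsBrauerPairOf p M B (Subgroup.zpowers u) e) : ∑ᶠ χ ∈ B, ∑ᶠ s : Subgroup.centralizer (Subgroup.zpowers u : Set G), Cfsg.pRegularPart p (Cfsg.blockPart e (fun c : Subgroup.centralizer (Subgroup.zpowers u : Set G) => (χ : G → ℂ) (u * c))) s * Cfsg.blockPart e (fun c : Subgroup.centralizer (Subgroup.zpowers u : Set G) => (χ : G → ℂ) (u⁻¹ * c)) s⁻¹ = (Nat.card (Subgroup.centralizer (Subgroup.zpowers u : Set G)) : ℂ) * (Cfsg.blockRank p e : ℂ) := by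
  have hQ : IsPGroup p (Subgroup.zpowers u) := by
    obtain ⟨k, hk⟩ := hu
    exact IsPGroup.of_card (n := k) (by rw [Nat.card_zpowers, hk])
  have hind : IsInducedBlock M (Subgroup.centralizer (Subgroup.zpowers u : Set G)) e B :=
    (Cfsg.Agent.Lib.Helper81.isBrauerPairOf_iff_isInducedBlock hM (Subgroup.zpowers u) hQ e B).mp
      hBe
  have hcent : ∀ h ∈ Subgroup.centralizer (Subgroup.zpowers u : Set G), h * u = u * h := by
    intro h hh
    exact ((Subgroup.mem_centralizer_iff.mp hh) u (Subgroup.mem_zpowers u)).symm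
  have huH : u ∈ Subgroup.centralizer (Subgroup.zpowers u : Set G) := by
    rw [Subgroup.mem_centralizer_iff]
    intro g hg
    obtain ⟨i, rfl⟩ := Subgroup.mem_zpowers_iff.mp hg
    exact ((Commute.refl u).zpow_left i).eq
  have hCH : Subgroup.centralizer ({u} : Set G) ≤
      Subgroup.centralizer (Subgroup.zpowers u : Set G) := by
    intro w hw
    rw [Subgroup.mem_centralizer_iff]
    intro g hg
    obtain ⟨i, rfl⟩ := Subgroup.mem_zpowers_iff.mp hg
    have h1 : Commute u w := by
      have := (Subgroup.mem_centralizer_iff.mp hw) u (Set.mem_singleton u)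
      exact this
    exact (h1.zpow_left i).eq
  exact Cfsg.Agent.Lib.Helper80.Contrib.contrib_trace hM
    (Subgroup.centralizer (Subgroup.zpowers u : Set G)) u hu huH hcent hCH e B hind

end Cfsg.Agent.S4683
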