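import Cfsg.Statements.S4686
import Cfsg.Agent.Lib.Helper81.BrNil2

set_option autoImplicit false
open Cfsg

namespace Cfsg.Agent.S4686

/-- A `p`-regular element normalizing `Q` and acting on `Q` as an element of `p`-power order
centralizes `Q`. -/
theorem mem_centralizer_of_reg {G : Type*} [Group G] [Finite G] (p : ℕ) [Fact p.Prime]
    (Q : Subgroup G) (x g : G) (hxN : x ∈ Subgroup.normalizer (Q : Set G))
    (hreg : Cfsg.IsPRegular p x) (j : ℕ) (hg : g ^ (p ^ j) = 1)
    (h : ∀ u ∈ Q, x * u * x⁻¹ = g * u * g⁻¹) : x ∈ Subgroup.centralizer (Q : Set G) := by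
  have hp : p.Prime := Fact.out
  have hpow : ∀ k : ℕ, ∀ u ∈ Q, x ^ k * u * (x ^ k)⁻¹ = g ^ k * u * (g ^ k)⁻¹ := by
    intro k
    induction k with
    | zero => intro u _; simp
    | succ k ih =>
      intro u hu
      have hu' : x * u * x⁻¹ ∈ Q := (Subgroup.mem_normalizer_iff.mp hxN u).mp hu
      have h1 := ih (x * u * x⁻¹) hu'
      rw [h u hu] at h1
      calc x ^ (k + 1) * u * (x ^ (k + 1))⁻¹ = x ^ k * (x * u * x⁻¹) * (x ^ k)⁻¹ := by
            rw [pow_succ]; group
        _ = x ^ k * (g * u * g⁻¹) * (x ^ k)⁻¹ := by rw [h u hu]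
        _ = g ^ k * (g * u * g⁻¹) * (g ^ k)⁻¹ := h1
        _ = g ^ (k + 1) * u * (g ^ (k + 1))⁻¹ := by rw [pow_succ]; group
  have h1 : x ^ (p ^ j) ∈ Subgroup.centralizer (Q : Set G) := by
    rw [Subgroup.mem_centralizer_iff]
    intro u hu
    have h2 := hpow (p ^ j) u hu
    rw [hg] at h2
    have h3 : x ^ p ^ j * u * (x ^ p ^ j)⁻¹ = u := by simpa using h2
    calc u * x ^ p ^ j = (x ^ p ^ j * u * (x ^ p ^ j)⁻¹) * x ^ p ^ j := by rw [h3]
      _ = x ^ p ^ j * u := by group
  have h2 : x ^ orderOf x ∈ Subgroup.centralizer (Q : Set G) := by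
    rw [pow_orderOf_eq_one]
    exact Subgroup.one_mem _
  have hcop : Nat.Coprime (p ^ j) (orderOf x) :=
    Nat.Coprime.pow_left j ((Nat.Prime.coprime_iff_not_dvd hp).mpr hreg)
  exact Cfsg.Agent.Lib.Helper81.mem_of_pow_mem_of_coprime _ x _ _ hcop h1 h2

/-- Fix a prime p and a maximal ideal M of the algebraic integers containing p, a p-block B of the finite group G with maximal Brauer pair (P, e) and fusion system F on P. Then B is nilpotent (for every Brauer pair (Q, f) of B the stabilizer of f in N_G(Q) is C_G(Q) extended by a p-group) if and only if F is the inner fusion system of P: its maps from each subgroup of P are exactly the conjugations by elements of P. -/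
theorem result {G : Type*} [Group G] [Fintype G] (p : ℕ) [Fact p.Prime] (M : Ideal Cfsg.AlgInt) (hM : Cfsg.IsPModular p M) (B : Set (Cfsg.IrrCharacter G)) (P : Subgroup G) (e : Set (Cfsg.IrrCharacter (Subgroup.centralizer (P : Set G)))) (hmax : Cfsg.IsMaximalBrauerPair p M B P e) (F : Cfsg.FusionSystem P) (hF : Cfsg.IsBlockFusionSystemOn p M B P e F) : Cfsg.IsNilpotentBlock p M B ↔ ∀ Q : Subgroup G, F.Hom Q = (Cfsg.innerFusionSystem P).Hom Q := by
  classical
  have hPe := hmax.1.1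
  constructor
  · intro hnil Q
    ext φ
    constructor
    · intro hφ
      obtain ⟨hQP, g, hg, -, f, hle, hle'⟩ := (hF.2 Q φ).mp hφ
      obtain ⟨u, hu, huq⟩ := Cfsg.Agent.Lib.Helper81.nilpotent_conj hM B P e hmax hnil Q f hle g hle'
      exact ⟨hQP, u, hu, fun x => by rw [hg x, huq x x.2]⟩
    · rintro ⟨hQP, g, hg, hφ⟩
      have h1 : φ = Cfsg.conjHom Q g := MonoidHom.ext fun x => hφ x
      rw [h1]
      exact F.conj_mem hQP hg
  · intro h
    apply Cfsg.Agent.Lib.Helper81.isNilpotentBlock_of_le hM B P e hmax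
    intro Q f hle x hxN hxs hreg
    have hQP : Q ≤ P := Cfsg.Agent.Lib.Helper81.reflTransGen_le _ _ hle
    have hfix : Cfsg.Agent.Lib.Helper81.conjPair x (⟨Q, f⟩ : Cfsg.BrauerPairIdx G) = ⟨Q, f⟩ :=
      (Cfsg.Agent.Lib.Helper81.conjPair_eq_self_iff Q f x).mpr ⟨hxN, hxs⟩
    have hmem : Cfsg.conjHom Q x ∈ F.Hom Q := by
      rw [hF.2 Q (Cfsg.conjHom Q x)]
      refine ⟨hQP, x, fun u => rfl, ?_, f, hle, ?_⟩
      · rw [Cfsg.Agent.Lib.Helper81.conj_map_eq_of_mem_normalizer Q x hxN]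
        exact hQP
      · show Relation.ReflTransGen (Cfsg.NormalSubpairRel p M)
          (Cfsg.Agent.Lib.Helper81.conjPair x (⟨Q, f⟩ : Cfsg.BrauerPairIdx G)) ⟨P, e⟩
        rw [hfix]
        exact hle
    rw [h Q] at hmem
    obtain ⟨-, g, hg, hgx⟩ := hmem
    obtain ⟨j, hj⟩ := hPe.1 ⟨g, hg⟩
    have hj' : g ^ (p ^ j) = 1 := by
      have h1 := congrArg (Subtype.val : P → G) hj
      simpa using h1
    exact mem_centralizer_of_reg p Q x g hxN hreg j hj' (fun u hu => hgx ⟨u, hu⟩)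

end Cfsg.Agent.S4686
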