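import Cfsg.Statements.S4688
import Cfsg.Agent.Lib.Helper81.BrNil2

set_option autoImplicit false
open Cfsg

namespace Cfsg.Agent.S4688

/-- Fix a prime p and a maximal ideal M of the algebraic integers containing p, and a nilpotent p-block B of the finite group G with maximal Brauer pair (P, e). Then for every Brauer pair (Q, f) of B, f is a nilpotent block of C_G(Q); and if moreover (Q, f) ≤ (P, e), then C_P(Q) is a defect group of f as a block of C_G(Q). -/
theorem result {G : Type*} [Group G] [Fintype G] (p : ℕ) [Fact p.Prime] (M : Ideal Cfsg.AlgInt) (hM : Cfsg.IsPModular p M) (B : Set (Cfsg.IrrCharacter G)) (P : Subgroup G) (e : Set (Cfsg.IrrCharacter (Subgroup.centralizer (P : Set G)))) (hmax : Cfsg.IsMaximalBrauerPair p M B P e) (hnil : Cfsg.IsNilpotentBlock p M B) (Q : Subgroup G) (f : Set (Cfsg.IrrCharacter (Subgroup.centralizer (Q : Set G)))) (hQf : Cfsg.IsBrauerPairOf p M B Q f) : Cfsg.IsNilpotentBlock p M f ∧ (Cfsg.SubpairLE p M Q f P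 e → Cfsg.IsDefectGroup p M f ((P ⊓ Subgroup.centralizer (Q : Set G)).subgroupOf (Subgroup.centralizer (Q : Set G)))) := by
  classical
  letI : Fintype (Subgroup.centralizer (Q : Set G)) := Fintype.ofFinite _
  have hPe := hmax.1.1
  have hB := hmax.1.2.1
  have hQ := hQf.1.1
  have hf := hQf.1.2
  have hHN : Subgroup.centralizer (Q : Set G) ≤ Subgroup.normalizer (Q : Set G) :=
    Subgroup.centralizer_le_normalizer _
  have hHstab : ∀ h ∈ Subgroup.centralizer (Q : Set G),
      Cfsg.StabilizesBlock (Subgroup.centralizer (Q : Set G)) f h :=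
    fun h hh => Cfsg.Agent.Lib.Helper81.stabilizesBlock_of_mem _ f hh
  have hβ : ∀ h : Subgroup.centralizer (Q : Set G), Cfsg.blockCoeff f h =
      Cfsg.subgroupBlockCoeff (Subgroup.centralizer (Q : Set G)) f (h : G) :=
    fun h => (Cfsg.Agent.Lib.Helper81.subgroupBlockCoeff_mem _ f h.2).symm
  have hcent : ∀ D : Subgroup (Subgroup.centralizer (Q : Set G)),
      Cfsg.Agent.Lib.Helper81.HCent Q (Subgroup.centralizer (Q : Set G)) D := fun D h _ => h.2
  refine ⟨⟨hf, ?_⟩, ?_⟩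
  · intro D u hDu x hxN hxs hreg
    have hrel := Cfsg.Agent.Lib.Helper81.normalSubpair_upBlock Q f hQ hf _ le_rfl hHN hHstab f hβ
      D (hcent D) u hDu
    have hsB := (Cfsg.Agent.Lib.Helper81.brauerPairOf_iff_of_normalSubpair hM Q _ f _ hrel B
      hB).mpr hQf
    have hxN' := Cfsg.Agent.Lib.Helper81.mem_normalizer_sup_map hHN D x hxN
    have hxs' := (Cfsg.Agent.Lib.Helper81.stabilizesBlock_upBlock_iff Q _ le_rfl hHN D (hcent D)
      u x hxN).mpr hxs
    have hreg' : Cfsg.IsPRegular p (x : G) := by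
      unfold Cfsg.IsPRegular at hreg ⊢
      rwa [Subgroup.orderOf_coe]
    have h1 := hnil.2 _ _ hsB (x : G) hxN' hxs' hreg'
    rw [Subgroup.mem_centralizer_iff]
    intro d hd
    apply Subtype.ext
    have h2 := Subgroup.mem_centralizer_iff.mp h1 (d : G)
      ((le_sup_right : D.map (Subgroup.centralizer (Q : Set G)).subtype ≤ _) ⟨d, hd, rfl⟩)
    exact h2
  · intro hle
    obtain ⟨D, hD, hDle⟩ := Cfsg.Agent.Lib.Helper81.exists_defectGroup_ge_cent hM P Q e f hPe hf
      hle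
    obtain ⟨D', u', hmax'⟩ := Cfsg.Agent.Lib.Helper81.exists_maximalBrauerPair hM f hf
    have hD' : Cfsg.IsDefectGroup p M f D' :=
      Cfsg.Agent.Lib.Helper81.isDefectGroup_of_maximal hM f D' u' hmax'
    have hrel : Cfsg.NormalSubpairRel p M ⟨Q, f⟩
        (Cfsg.Agent.Lib.Helper81.upPair Q _ le_rfl ⟨D', u'⟩ (hcent D')) :=
      Cfsg.Agent.Lib.Helper81.normalSubpairRel_upPair Q f hQ hf _ le_rfl hHN hHstab f hβ
        ⟨D', u'⟩ (hcent D') hmax'.1
    obtain ⟨s, hs⟩ : ∃ s : Cfsg.BrauerPairIdx G,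
        s = Cfsg.Agent.Lib.Helper81.upPair Q _ le_rfl ⟨D', u'⟩ (hcent D') := ⟨_, rfl⟩
    rw [← hs] at hrel
    have hsB : Cfsg.IsBrauerPairOf p M B s.1 s.2 :=
      (Cfsg.Agent.Lib.Helper81.brauerPairOf_iff_of_normalSubpair hM Q _ f _ hrel B hB).mpr hQf
    obtain ⟨y, hy⟩ := Cfsg.Agent.Lib.Helper81.exists_conj_subpairLE_maximal hM B P s.1 e s.2 hmax
      hsB
    have hy' : Relation.ReflTransGen (Cfsg.NormalSubpairRel p M)
        (Cfsg.Agent.Lib.Helper81.conjPair y s) ⟨P, e⟩ := hy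
    have hyQ : Relation.ReflTransGen (Cfsg.NormalSubpairRel p M)
        (Cfsg.Agent.Lib.Helper81.conjPair y ⟨Q, f⟩) ⟨P, e⟩ :=
      (Cfsg.Agent.Lib.Helper81.reflTransGen_conjPair y _ _
        (Relation.ReflTransGen.single hrel)).trans hy'
    obtain ⟨w, hw, hwq⟩ := Cfsg.Agent.Lib.Helper81.nilpotent_conj hM B P e hmax hnil Q f hle y hyQ
    have hcC : w⁻¹ * y ∈ Subgroup.centralizer (Q : Set G) := by
      rw [Subgroup.mem_centralizer_iff]
      intro q hq
      have h1 := hwq q hq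
      calc q * (w⁻¹ * y) = w⁻¹ * (w * q * w⁻¹) * y := by group
        _ = w⁻¹ * (y * q * y⁻¹) * y := by rw [h1]
        _ = w⁻¹ * y * q := by group
    have hcs : Relation.ReflTransGen (Cfsg.NormalSubpairRel p M)
        (Cfsg.Agent.Lib.Helper81.conjPair (w⁻¹ * y) s) ⟨P, e⟩ := by
      have h1 := Cfsg.Agent.Lib.Helper81.reflTransGen_conjPair w⁻¹ _ _ hy'
      rwa [Cfsg.Agent.Lib.Helper81.conjPair_mul,
        Cfsg.Agent.Lib.Helper81.conjPair_eq_self_of_mem P e w⁻¹ (P.inv_mem hw)] at h1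
    have hsP : s.1.map (MulAut.conj (w⁻¹ * y)).toMonoidHom ≤ P :=
      Cfsg.Agent.Lib.Helper81.reflTransGen_le _ _ hcs
    have hDP : (D'.map (Subgroup.centralizer (Q : Set G)).subtype).map
        (MulAut.conj (w⁻¹ * y)).toMonoidHom ≤ P ⊓ Subgroup.centralizer (Q : Set G) := by
      rintro _ ⟨_, ⟨d, hd, rfl⟩, rfl⟩
      refine ⟨hsP ⟨(d : G), ?_, rfl⟩, ?_⟩
      · rw [hs]
        exact (le_sup_right : D'.map (Subgroup.centralizer (Q : Set G)).subtype ≤ _) ⟨d, hd, rfl⟩
      · exact Subgroup.mul_mem _ (Subgroup.mul_mem _ hcC d.2) (Subgroup.inv_mem _ hcC)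
    have hc1 := Cfsg.Agent.S0908.result p M hM f hf D hD
    have hc2 := Cfsg.Agent.S0908.result p M hM f hf D' hD'
    have hc3 : Nat.card D' ≤ Nat.card ↥(P ⊓ Subgroup.centralizer (Q : Set G)) := by
      have h1 := Subgroup.card_le_of_le hDP
      rw [Cfsg.Agent.Lib.Helper22.card_conj_map,
        Subgroup.card_map_of_injective (Subgroup.subtype_injective _)] at h1
      exact h1
    have hge : Nat.card D ≤ Nat.card ((P ⊓ Subgroup.centralizer (Q : Set G)).subgroupOf
        (Subgroup.centralizer (Q : Set G))) := by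
      rw [Cfsg.Agent.Lib.Helper81.card_subgroupOf_of_le inf_le_right, hc1, ← hc2]
      exact hc3
    rw [Subgroup.eq_of_le_of_card_ge hDle hge]
    exact hD

end Cfsg.Agent.S4688
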