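import Cfsg.Statements.S4694
import Mathlib
import Cfsg.Agent.Lib.Helper22.Cover
import Cfsg.Agent.Lib.Helper84.Stab
import Cfsg.Agent.Lib.Helper83.Quot
import Cfsg.Agent.Lib.Helper83.Codeg
import Cfsg.Agent.Lib.Helper20.Clifford
import Cfsg.Agent.Lib.Helper30.Cores
import Cfsg.Agent.S0906
import Cfsg.Agent.S0912
import Cfsg.Agent.S0969

set_option autoImplicit false
open Cfsg

namespace Cfsg.Agent.S4694


open Cfsg.Agent.Lib Cfsg.Agent.Lib.Helper4 Cfsg.Agent.Lib.Helper21 Cfsg.Agent.Lib.Helper22 Cfsg.Agent.Lib.Helper20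
open scoped ComplexConjugate

theorem sum_sylow_conj {Γ : Type*} [Group Γ] [Finite Γ] (p : ℕ) [Fact p.Prime] (N : Subgroup Γ)
    [hN : N.Normal] (S : Sylow p N) [Fintype (S : Subgroup N)] (η : N → ℂ)
    (hη : IsClassFunction N η) (x : Γ) :
    ∑ s : (S : Subgroup N), Helper20.conjFun N η x (s : N) =
      ∑ s : (S : Subgroup N), η (s : N) := by
  classical
  obtain ⟨c, hc⟩ := MulAction.exists_smul_eq N ((MulAut.conjNormal x : MulAut N) • S) S
  have hmem : ∀ s : (S : Subgroup N),
      c * (MulAut.conjNormal x : MulAut N) (s : N) * c⁻¹ ∈ (S : Subgroup N) := by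
    intro s
    have h1 : (MulAut.conjNormal x : MulAut N) (s : N) ∈
        (((MulAut.conjNormal x : MulAut N) • S : Sylow p N) : Subgroup N) := by
      rw [Sylow.pointwise_smul_def]
      exact Subgroup.smul_mem_pointwise_smul (s : N) _ (S : Subgroup N) s.2
    have h2 := Subgroup.smul_mem_pointwise_smul _ (MulAut.conj c)
      (((MulAut.conjNormal x : MulAut N) • S : Sylow p N) : Subgroup N) h1
    rw [← Sylow.pointwise_smul_def, ← Sylow.smul_def, hc] at h2
    have h3 : MulAut.conj c • (MulAut.conjNormal x : MulAut N) (s : N) =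
        c * (MulAut.conjNormal x : MulAut N) (s : N) * c⁻¹ := rfl
    rw [h3] at h2
    exact h2
  let f : ↥(S : Subgroup N) → ↥(S : Subgroup N) :=
    fun s => ⟨c * (MulAut.conjNormal x : MulAut N) (s : N) * c⁻¹, hmem s⟩
  have hinj : Function.Injective f := by
    intro s t hst
    have h1 := congrArg (fun z : (S : Subgroup N) => (z : N)) hst
    have h2 : (MulAut.conjNormal x : MulAut N) (s : N) = (MulAut.conjNormal x : MulAut N) (t : N) := by
      have h3 : c * (MulAut.conjNormal x : MulAut N) (s : N) * c⁻¹ =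
          c * (MulAut.conjNormal x : MulAut N) (t : N) * c⁻¹ := h1
      exact mul_left_cancel (mul_right_cancel h3)
    exact Subtype.ext ((MulAut.conjNormal x : MulAut N).injective h2)
  have hbij : Function.Bijective f := Finite.injective_iff_bijective.mp hinj
  have h1 : ∑ s : (S : Subgroup N), η ((f s : (S : Subgroup N)) : N) =
      ∑ s : (S : Subgroup N), η (s : N) :=
    Function.Bijective.sum_comp hbij (fun s : (S : Subgroup N) => η (s : N))
  rw [← h1]
  apply Finset.sum_congr rfl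
  intro s _
  show Helper20.conjFun N η x (s : N) = η (c * (MulAut.conjNormal x : MulAut N) (s : N) * c⁻¹)
  rw [hη, Helper20.conjFun_eq_comp]

theorem defect_zero_constituent {Γ : Type*} [Group Γ] [Fintype Γ] (p : ℕ) [Fact p.Prime]
    (M : Ideal AlgInt) (hM : IsPModular p M) (N : Subgroup Γ) [hN : N.Normal] [Fintype N]
    (ψ : IrrCharacter Γ)
    (hdeg : (charDegree (ψ : Γ → ℂ)).factorization p = (Nat.card Γ).factorization p)
    (η : IrrCharacter N) (hη : classInner (fun n : N => (ψ : Γ → ℂ) n) (η : N → ℂ) ≠ 0) :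
    (charDegree (η : N → ℂ)).factorization p = (Nat.card N).factorization p := by
  classical
  have hp : p.Prime := Fact.out
  have := irr_finite (G := N)
  let _ : Fintype (IrrCharacter N) := Fintype.ofFinite _
  -- vanishing on nonidentity p-elements
  have hvan : ∀ g : Γ, g ≠ 1 → (∃ k : ℕ, orderOf g = p ^ k) → (ψ : Γ → ℂ) g = 0 := by
    intro g hg1 hk
    refine (Cfsg.Agent.S0969.result p M hM ⊥ IsPGroup.of_bot bot_le ψ
      (by rw [Subgroup.index_bot]; exact hdeg)).2 g g ⟨1, mul_one g, Commute.one_right g, hk, ?_⟩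
      (by simpa using hg1)
    rw [orderOf_one]
    exact hp.not_dvd_one
  obtain ⟨S⟩ : Nonempty (Sylow p N) := inferInstance
  let _ : Fintype (S : Subgroup N) := Fintype.ofFinite _
  -- decomposition of the restriction
  obtain ⟨m, hm⟩ := Helper4.exists_decomp_of_isCharacter (Helper35.res N (ψ : Γ → ℂ))
    (Helper35.isCharacter_res N (Helper35.isChar_of_irr ψ.2))
  have hmη : m η ≠ 0 := by
    intro h0
    apply hη
    have h1 : classInner (Helper35.res N (ψ : Γ → ℂ)) (η : N → ℂ) = (m η : ℂ) := by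
      rw [hm]
      exact Helper4.classInner_sum_irr _ η
    have h2 : classInner (fun n : N => (ψ : Γ → ℂ) n) (η : N → ℂ) = (m η : ℂ) := h1
    rw [h2, h0, Nat.cast_zero]
  have hconj : ∀ μ : IrrCharacter N, m μ ≠ 0 →
      (∑ s : (S : Subgroup N), (μ : N → ℂ) (s : N) = ∑ s : (S : Subgroup N), (η : N → ℂ) (s : N)) ∧
        (μ : N → ℂ) 1 = (η : N → ℂ) 1 := by
    intro μ hμ
    have h1 : classInner (fun n : N => (ψ : Γ → ℂ) n) (μ : N → ℂ) ≠ 0 := by
      have h2 : classInner (Helper35.res N (ψ : Γ → ℂ)) (μ : N → ℂ) = (m μ : ℂ) := by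
        rw [hm]
        exact Helper4.classInner_sum_irr _ μ
      have h3 : classInner (fun n : N => (ψ : Γ → ℂ) n) (μ : N → ℂ) = (m μ : ℂ) := h2
      rw [h3]
      exact_mod_cast hμ
    obtain ⟨x, hx⟩ := Helper20.clifford_conj N η.2 ψ.2 hη μ.2 h1
    rw [hx]
    refine ⟨sum_sylow_conj p N S _ (isClassFunction_irr η) x, ?_⟩
    rw [Helper20.conjFun_eq_comp]
    simp
  -- the two evaluations
  have hψS : ∑ s : (S : Subgroup N), (ψ : Γ → ℂ) ((s : N) : Γ) = (ψ : Γ → ℂ) 1 := by
    have h0 : ∀ s ∈ (Finset.univ : Finset (S : Subgroup N)), s ≠ 1 →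
        (ψ : Γ → ℂ) ((s : N) : Γ) = 0 := by
      intro s _ hs1
      apply hvan
      · intro h
        apply hs1
        apply Subtype.ext
        apply Subtype.ext
        exact h
      · obtain ⟨k, hk⟩ := (IsPGroup.iff_orderOf.mp S.2) s
        exact ⟨k, by rw [← hk, Subgroup.orderOf_coe, Subgroup.orderOf_coe]⟩
    rw [Finset.sum_eq_single_of_mem (1 : (S : Subgroup N)) (Finset.mem_univ _) h0]
    rfl
  have hval : ∀ n : N, (ψ : Γ → ℂ) (n : Γ) = ∑ μ : IrrCharacter N, (m μ : ℂ) * (μ : N → ℂ) n := by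
    intro n
    have h1 := congrFun hm n
    simp only [Helper35.res_apply, Finset.sum_apply, Pi.smul_apply, smul_eq_mul] at h1
    exact h1
  have hsum1 : (ψ : Γ → ℂ) 1 =
      (∑ μ : IrrCharacter N, (m μ : ℂ)) * ∑ s : (S : Subgroup N), (η : N → ℂ) (s : N) := by
    rw [← hψS]
    simp only [hval]
    rw [Finset.sum_comm, Finset.sum_mul]
    apply Finset.sum_congr rfl
    intro μ _
    rw [← Finset.mul_sum]
    by_cases hμ : m μ = 0
    · rw [hμ, Nat.cast_zero, zero_mul, zero_mul]
    · rw [(hconj μ hμ).1]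
  have hsum2 : (ψ : Γ → ℂ) 1 = (∑ μ : IrrCharacter N, (m μ : ℂ)) * (η : N → ℂ) 1 := by
    have h1 := hval 1
    rw [show (((1 : N) : Γ)) = 1 from rfl] at h1
    rw [h1, Finset.sum_mul]
    apply Finset.sum_congr rfl
    intro μ _
    by_cases hμ : m μ = 0
    · rw [hμ, Nat.cast_zero, zero_mul, zero_mul]
    · rw [(hconj μ hμ).2]
  have hm0 : (∑ μ : IrrCharacter N, (m μ : ℂ)) ≠ 0 := by
    intro h0
    rw [h0, zero_mul] at hsum2
    exact (Helper83.irr_degree ψ.2).1.ne' (by
      have h2 := (Helper83.irr_degree ψ.2).2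
      rw [hsum2] at h2
      exact_mod_cast h2.symm)
  have hA : ∑ s : (S : Subgroup N), (η : N → ℂ) (s : N) = (η : N → ℂ) 1 :=
    mul_left_cancel₀ hm0 (hsum1.symm.trans hsum2)
  -- integrality
  obtain ⟨n, hn⟩ := Helper4.classInner_isCharacter_isCharacter_nat
    (Helper35.res (S : Subgroup N) (η : N → ℂ)) (1 : ↥(S : Subgroup N) → ℂ)
    (Helper35.isCharacter_res (S : Subgroup N) (Helper35.isChar_of_irr η.2))
    Helper35.isCharacter_one
  have hn' : (η : N → ℂ) 1 = (n : ℂ) * (Nat.card (S : Subgroup N) : ℂ) := by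
    have hS0 : (Nat.card (S : Subgroup N) : ℂ) ≠ 0 := by exact_mod_cast (Nat.card_pos (α := (S : Subgroup N))).ne'
    unfold classInner at hn
    simp only [Helper35.res_apply, Pi.one_apply, map_one, mul_one] at hn
    rw [hA] at hn
    rw [← hn]
    field_simp
  have hd := Helper83.irr_degree η.2
  have hdvd : Nat.card (S : Subgroup N) ∣ charDegree (η : N → ℂ) := by
    refine ⟨n, ?_⟩
    have h1 : ((charDegree (η : N → ℂ) : ℕ) : ℂ) = ((Nat.card (S : Subgroup N) * n : ℕ) : ℂ) := by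
      rw [← hd.2, hn']
      push_cast
      ring
    exact_mod_cast h1
  have hcardS : Nat.card (S : Subgroup N) = p ^ (Nat.card N).factorization p := Sylow.card_eq_multiplicity S
  rw [hcardS] at hdvd
  have h1 : (Nat.card N).factorization p ≤ (charDegree (η : N → ℂ)).factorization p :=
    (Nat.Prime.pow_dvd_iff_le_factorization hp hd.1.ne').mp hdvd
  have h2 : (charDegree (η : N → ℂ)).factorization p ≤ (Nat.card N).factorization p :=
    (Nat.factorization_le_iff_dvd hd.1.ne' (Nat.card_pos (α := N)).ne').mpr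
      (Helper83.irr_degree_dvd_card η) p
  exact le_antisymm h2 h1


/-- Fix a prime p and a maximal ideal M of the algebraic integers containing p, a p-block B of the finite group G and a Brauer pair (Q, e) of B. Let T be the stabilizer of e in N_G(Q) and suppose that (Q, e) carries a weight: the block of T whose idempotent is that of e contains an irreducible character χ that is constant on the cosets of Q and whose degree has p-part equal to the p-part of the index of Q in T. Then Z(Q) is a defect group of e as a block of C_G(Q), and Q is the largest normal p-subgroup of T: every p-subgroup of T normalized by T lies in Q. -/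
theorem result {G : Type*} [Group G] [Fintype G] (p : ℕ) [Fact p.Prime] (M : Ideal Cfsg.AlgInt) (hM : Cfsg.IsPModular p M) (B : Set (Cfsg.IrrCharacter G)) (Q : Subgroup G) (e : Set (Cfsg.IrrCharacter (Subgroup.centralizer (Q : Set G)))) (hQe : Cfsg.IsBrauerPairOf p M B Q e) (T : Subgroup G) (hT : ∀ y : G, y ∈ T ↔ y ∈ Subgroup.normalizer (Q : Set G) ∧ Cfsg.StabilizesBlock (Subgroup.centralizer (Q : Set G)) e y) (F' : Set (Cfsg.IrrCharacter T)) (hF' : Cfsg.IsPBlock M F') (hF'e : ∀ t : T, Cfsg.blockCoeff F' t = Cfsg.subgroupBlockCoeff (Subgroup.centralizer (Q : Set G)) e (t : G)) (χ : Cfsg.IrrCharacter T) (hχ : χ ∈ F') (hχQ : ∀ q : G, q ∈ Q → ∀ t : T, ∀ t' : T, (t' : G) = q * (t : G) → (χ : T → ℂ) t' = (χ : T → ℂ) t) (hdeg : (Cfsg.charDegree (χ : T → ℂ)).factorization p + (Nat.card Q).factorization p = (Nat.card T).factorization p) : Cfsg.IsDefectGroup p M e ((Q ⊓ Subgroup.centralizer (Q : Set G)).subgroupOf (Subgroup.centralizer (Q : Set G))) ∧ ∀ R : Subgroup G,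 R ≤ T → IsPGroup p R → (∀ t ∈ T, t ∈ Subgroup.normalizer (R : Set G)) → R ≤ Q := by
  classical
  have hp : p.Prime := Fact.out
  obtain ⟨⟨hQp, heb⟩, -, -⟩ := hQe
  let _ : Fintype ↥T := Fintype.ofFinite _
  let _ : Fintype ↥(Subgroup.centralizer (Q : Set G)) := Fintype.ofFinite _
  have hTN : T ≤ Subgroup.normalizer (Q : Set G) := fun t ht => ((hT t).mp ht).1
  have hCT : Subgroup.centralizer (Q : Set G) ≤ T := by
    intro x hx
    rw [hT]
    refine ⟨Subgroup.centralizer_le_normalizer _ hx, Subgroup.le_normalizer hx,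
      fun ξ hξ => ⟨ξ, hξ, ?_⟩⟩
    intro k k' hk
    have e1 : k' = ⟨x, hx⟩ * k * (⟨x, hx⟩ : ↥(Subgroup.centralizer (Q : Set G)))⁻¹ :=
      Subtype.ext (by rw [hk]; rfl)
    rw [e1]
    exact isClassFunction_irr ξ k ⟨x, hx⟩
  have hQT : Q ≤ T := by
    intro q hq
    rw [hT]
    refine ⟨Subgroup.le_normalizer hq, ?_, fun ξ hξ => ⟨ξ, hξ, ?_⟩⟩
    · rw [Subgroup.mem_normalizer_iff]
      intro h
      constructor
      · intro hh
        have h1 := Subgroup.mem_centralizer_iff.mp hh q hq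
        have e1 : q * h * q⁻¹ = h := by rw [h1]; group
        rw [e1]
        exact hh
      · intro hh
        have h1 := Subgroup.mem_centralizer_iff.mp hh q hq
        have e1 : q * h * q⁻¹ = h := by
          have h2 : q * (q * h * q⁻¹) = q * h := by rw [h1]; group
          exact mul_left_cancel h2
        rw [e1] at hh
        exact hh
    · intro k k' hk
      have h1 := Subgroup.mem_centralizer_iff.mp k.2 q hq
      have e1 : k' = k := Subtype.ext (by rw [hk, h1]; group)
      rw [e1]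
  have hNC : ∀ g ∈ Subgroup.normalizer (Q : Set G), ∀ x ∈ Subgroup.centralizer (Q : Set G),
      g * x * g⁻¹ ∈ Subgroup.centralizer (Q : Set G) := by
    intro g hg x hx
    rw [Subgroup.mem_centralizer_iff]
    intro y hy
    have hy' : g⁻¹ * y * g ∈ Q := by
      rw [Subgroup.mem_normalizer_iff.mp hg]
      have e1 : g * (g⁻¹ * y * g) * g⁻¹ = y := by group
      rw [e1]
      exact hy
    have h1 := Subgroup.mem_centralizer_iff.mp hx _ hy'
    calc y * (g * x * g⁻¹) = g * ((g⁻¹ * y * g) * x) * g⁻¹ := by group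
      _ = g * (x * (g⁻¹ * y * g)) * g⁻¹ := by rw [h1]
      _ = g * x * g⁻¹ * y := by group
  have hQ'n : (Q.subgroupOf T).Normal := by
    constructor
    intro x hx t
    rw [Subgroup.mem_subgroupOf] at hx ⊢
    exact (Subgroup.mem_normalizer_iff.mp (hTN t.2) (x : G)).mp hx
  have hχN : ∀ x ∈ Q.subgroupOf T, (χ : ↥T → ℂ) x = (χ : ↥T → ℂ) 1 := by
    intro x hx
    exact hχQ (x : G) (Subgroup.mem_subgroupOf.mp hx) 1 x (by simp)
  obtain ⟨ψ, hψ⟩ := Helper83.exists_inflate_eq (Q.subgroupOf T) χ hχN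
  have hψval : ∀ t : ↥T, (χ : ↥T → ℂ) t =
      (ψ : ↥T ⧸ Q.subgroupOf T → ℂ) (t : ↥T ⧸ Q.subgroupOf T) := by
    intro t
    rw [← hψ]
    rfl
  have hdegψ : (charDegree (ψ : ↥T ⧸ Q.subgroupOf T → ℂ)).factorization p =
      (Nat.card (↥T ⧸ Q.subgroupOf T)).factorization p := by
    have h1 : charDegree (ψ : ↥T ⧸ Q.subgroupOf T → ℂ) = charDegree (χ : ↥T → ℂ) := by
      rw [← hψ, Helper83.charDegree_inflate]
    have h2 : Nat.card ↥T = Nat.card (↥T ⧸ Q.subgroupOf T) * Nat.card ↥(Q.subgroupOf T) :=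
      Subgroup.card_eq_card_quotient_mul_card_subgroup _
    have h3 : Nat.card ↥(Q.subgroupOf T) = Nat.card Q :=
      Nat.card_congr (Subgroup.subgroupOfEquivOfLe hQT).toEquiv
    rw [h3] at h2
    have h4 : (Nat.card ↥T).factorization p =
        (Nat.card (↥T ⧸ Q.subgroupOf T)).factorization p + (Nat.card Q).factorization p := by
      rw [h2, Nat.factorization_mul Nat.card_pos.ne' Nat.card_pos.ne']
      rfl
    rw [h1]
    omega
  have hcore : pCore p (↥T ⧸ Q.subgroupOf T) = ⊥ := by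
    have h1 := (Cfsg.Agent.S0969.result p M hM ⊥ IsPGroup.of_bot bot_le ψ
      (by rw [Subgroup.index_bot]; exact hdegψ)).1
    exact le_bot_iff.mp (Cfsg.Agent.S0912.result p M hM _ ⟨ψ, rfl⟩ ⊥ h1)
  have part2 : ∀ R : Subgroup G, R ≤ T → IsPGroup p R →
      (∀ t ∈ T, t ∈ Subgroup.normalizer (R : Set G)) → R ≤ Q := by
    intro R hRT hRp hRn r hr
    have hR'n : (R.subgroupOf T).Normal := by
      constructor
      intro x hx t
      rw [Subgroup.mem_subgroupOf] at hx ⊢
      exact (Subgroup.mem_normalizer_iff.mp (hRn t t.2) (x : G)).mp hx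
    have hR'p : IsPGroup p (R.subgroupOf T) := hRp.comap_subtype
    have hmapn : ((R.subgroupOf T).map (QuotientGroup.mk' (Q.subgroupOf T))).Normal :=
      hR'n.map _ (QuotientGroup.mk'_surjective _)
    have hle := Helper30.le_pCore_of_normal hmapn (hR'p.map _)
    rw [hcore] at hle
    have h1 : (QuotientGroup.mk' (Q.subgroupOf T)) ⟨r, hRT hr⟩ ∈
        (R.subgroupOf T).map (QuotientGroup.mk' (Q.subgroupOf T)) :=
      Subgroup.mem_map_of_mem _ (Subgroup.mem_subgroupOf.mpr hr)
    have h2 := Subgroup.mem_bot.mp (hle h1)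
    have h3 := (QuotientGroup.eq_one_iff _).mp h2
    exact Subgroup.mem_subgroupOf.mp h3
  refine ⟨?_, part2⟩
  -- the image of the centralizer in the quotient
  have hC'n : ((Subgroup.centralizer (Q : Set G)).subgroupOf T).Normal := by
    constructor
    intro x hx t
    rw [Subgroup.mem_subgroupOf] at hx ⊢
    exact hNC t (hTN t.2) x hx
  have hCbn : (((Subgroup.centralizer (Q : Set G)).subgroupOf T).map
      (QuotientGroup.mk' (Q.subgroupOf T))).Normal := hC'n.map _ (QuotientGroup.mk'_surjective _)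
  generalize hCbar : ((Subgroup.centralizer (Q : Set G)).subgroupOf T).map
      (QuotientGroup.mk' (Q.subgroupOf T)) = Cbar at hCbn
  let _ : Fintype ↥Cbar := Fintype.ofFinite _
  have hmemC : ∀ c : ↥(Subgroup.centralizer (Q : Set G)),
      ((QuotientGroup.mk' (Q.subgroupOf T)).comp (Subgroup.inclusion hCT)) c ∈ Cbar := by
    intro c
    rw [← hCbar]
    exact Subgroup.mem_map_of_mem _ (Subgroup.mem_subgroupOf.mpr c.2)
  obtain ⟨π, hπval⟩ : ∃ π : ↥(Subgroup.centralizer (Q : Set G)) →* ↥Cbar,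
      ∀ c, ((π c : ↥Cbar) : ↥T ⧸ Q.subgroupOf T) =
        ((⟨c, hCT c.2⟩ : ↥T) : ↥T ⧸ Q.subgroupOf T) :=
    ⟨((QuotientGroup.mk' (Q.subgroupOf T)).comp (Subgroup.inclusion hCT)).codRestrict Cbar hmemC,
      fun c => rfl⟩
  have hπsurj : Function.Surjective π := by
    rintro ⟨y, hy⟩
    rw [← hCbar] at hy
    obtain ⟨t, ht, rfl⟩ := hy
    refine ⟨⟨(t : G), Subgroup.mem_subgroupOf.mp ht⟩, Subtype.ext ?_⟩
    rw [hπval]
    rfl
  have hπker : π.ker = (Q ⊓ Subgroup.centralizer (Q : Set G)).subgroupOf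
      (Subgroup.centralizer (Q : Set G)) := by
    ext c
    rw [MonoidHom.mem_ker, Subgroup.mem_subgroupOf, Subgroup.mem_inf]
    constructor
    · intro h
      have h1 := congrArg (fun z : ↥Cbar => (z : ↥T ⧸ Q.subgroupOf T)) h
      have h2 : ((⟨c, hCT c.2⟩ : ↥T) : ↥T ⧸ Q.subgroupOf T) = 1 := by
        rw [← hπval]
        exact h1
      rw [QuotientGroup.eq_one_iff, Subgroup.mem_subgroupOf] at h2
      exact ⟨h2, c.2⟩
    · rintro ⟨h, -⟩
      apply Subtype.ext
      rw [hπval]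
      show ((⟨c, hCT c.2⟩ : ↥T) : ↥T ⧸ Q.subgroupOf T) = 1
      rw [QuotientGroup.eq_one_iff, Subgroup.mem_subgroupOf]
      exact h
  have := irr_finite (G := ↥Cbar)
  let _ : Fintype (IrrCharacter ↥Cbar) := Fintype.ofFinite _
  obtain ⟨m, hm⟩ := Helper4.exists_decomp_of_isCharacter
    (Helper35.res Cbar (ψ : ↥T ⧸ Q.subgroupOf T → ℂ))
    (Helper35.isCharacter_res Cbar (Helper35.isChar_of_irr ψ.2))
  have hχ1 : (χ : ↥T → ℂ) 1 ≠ 0 := Helper4.irr_one_ne_zero χ
  have hω : ∑ t : ↥T, blockCoeff F' t * (χ : ↥T → ℂ) t = (χ : ↥T → ℂ) 1 := by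
    have h1 := omega_blockCoeff F' χ
    rw [if_pos hχ] at h1
    unfold omega at h1
    rw [div_eq_one_iff_eq hχ1] at h1
    exact h1
  have hsumC : ∑ c : ↥(Subgroup.centralizer (Q : Set G)),
      blockCoeff e c * (χ : ↥T → ℂ) ⟨c, hCT c.2⟩ =
      ∑ t : ↥T, blockCoeff F' t * (χ : ↥T → ℂ) t := by
    apply Fintype.sum_of_injective
      (fun c : ↥(Subgroup.centralizer (Q : Set G)) => (⟨c, hCT c.2⟩ : ↥T))
    · intro a b hab
      exact Subtype.ext (congrArg (fun z : ↥T => (z : G)) hab)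
    · intro t ht
      have htC : (t : G) ∉ Subgroup.centralizer (Q : Set G) := fun h => ht ⟨⟨t, h⟩, rfl⟩
      rw [hF'e t]
      unfold subgroupBlockCoeff
      rw [dif_neg htC, zero_mul]
    · intro c
      rw [hF'e]
      unfold subgroupBlockCoeff
      rw [dif_pos c.2]
  have hχπ : ∀ c : ↥(Subgroup.centralizer (Q : Set G)), (χ : ↥T → ℂ) ⟨c, hCT c.2⟩ =
      ∑ η : IrrCharacter ↥Cbar, (m η : ℂ) * (η : ↥Cbar → ℂ) (π c) := by
    intro c
    rw [hψval, ← hπval]
    have h1 := congrFun hm (π c)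
    simp only [Helper35.res_apply, Finset.sum_apply, Pi.smul_apply, smul_eq_mul] at h1
    exact h1
  obtain ⟨η, hmη, hηsum⟩ : ∃ η : IrrCharacter ↥Cbar, m η ≠ 0 ∧
      ∑ c : ↥(Subgroup.centralizer (Q : Set G)),
        blockCoeff e c * (η : ↥Cbar → ℂ) (π c) ≠ 0 := by
    by_contra hcon
    push Not at hcon
    apply hχ1
    rw [← hω, ← hsumC]
    simp only [hχπ]
    have h1 : ∀ c : ↥(Subgroup.centralizer (Q : Set G)),
        blockCoeff e c * ∑ η : IrrCharacter ↥Cbar, (m η : ℂ) * (η : ↥Cbar → ℂ) (π c) =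
        ∑ η : IrrCharacter ↥Cbar, (m η : ℂ) * (blockCoeff e c * (η : ↥Cbar → ℂ) (π c)) := by
      intro c
      rw [Finset.mul_sum]
      apply Finset.sum_congr rfl
      intro η _
      ring
    simp only [h1]
    rw [Finset.sum_comm]
    apply Finset.sum_eq_zero
    intro η _
    rw [← Finset.mul_sum]
    by_cases h : m η = 0
    · rw [h, Nat.cast_zero, zero_mul]
    · rw [hcon η h, mul_zero]
  obtain ⟨θ, hθval⟩ : ∃ θ : IrrCharacter ↥(Subgroup.centralizer (Q : Set G)),
      ∀ c, (θ : ↥(Subgroup.centralizer (Q : Set G)) → ℂ) c = (η : ↥Cbar → ℂ) (π c) :=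
    ⟨⟨fun c => (η : ↥Cbar → ℂ) (π c), Helper20.irr_comp_surjective π hπsurj η.2⟩, fun c => rfl⟩
  have hθe : θ ∈ e := by
    by_contra hne
    have h1 := omega_blockCoeff e θ
    rw [if_neg hne] at h1
    unfold omega at h1
    rw [div_eq_zero_iff] at h1
    rcases h1 with h1 | h1
    · apply hηsum
      rw [← h1]
      apply Finset.sum_congr rfl
      intro c _
      rw [hθval]
    · exact Helper4.irr_one_ne_zero θ h1
  have hinner : classInner (fun n : ↥Cbar => (ψ : ↥T ⧸ Q.subgroupOf T → ℂ) n)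
      (η : ↥Cbar → ℂ) ≠ 0 := by
    have h1 : classInner (Helper35.res Cbar (ψ : ↥T ⧸ Q.subgroupOf T → ℂ)) (η : ↥Cbar → ℂ) =
        (m η : ℂ) := by
      rw [hm]
      exact Helper4.classInner_sum_irr _ η
    have h2 : classInner (fun n : ↥Cbar => (ψ : ↥T ⧸ Q.subgroupOf T → ℂ) n) (η : ↥Cbar → ℂ) =
        (m η : ℂ) := h1
    rw [h2]
    exact_mod_cast hmη
  let _ : Fintype (↥T ⧸ Q.subgroupOf T) := Fintype.ofFinite _
  have hdegη := defect_zero_constituent p M hM Cbar ψ hdegψ η hinner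
  have hdegθ : charDegree (θ : ↥(Subgroup.centralizer (Q : Set G)) → ℂ) =
      charDegree (η : ↥Cbar → ℂ) := by
    unfold charDegree
    rw [hθval, map_one]
  have hcard : ((Q ⊓ Subgroup.centralizer (Q : Set G)).subgroupOf
      (Subgroup.centralizer (Q : Set G))).index = Nat.card ↥Cbar := by
    rw [← hπker, Subgroup.index_ker, MonoidHom.range_eq_top.mpr hπsurj, Subgroup.card_top]
  have hZp : IsPGroup p ((Q ⊓ Subgroup.centralizer (Q : Set G)).subgroupOf
      (Subgroup.centralizer (Q : Set G))) := (hQp.to_le inf_le_left).comap_subtype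
  have hZc : (Q ⊓ Subgroup.centralizer (Q : Set G)).subgroupOf
      (Subgroup.centralizer (Q : Set G)) ≤ Subgroup.center ↥(Subgroup.centralizer (Q : Set G)) := by
    intro z hz
    rw [Subgroup.mem_center_iff]
    intro c
    have hzQ : (z : G) ∈ Q := (Subgroup.mem_inf.mp (Subgroup.mem_subgroupOf.mp hz)).1
    apply Subtype.ext
    exact (Subgroup.mem_centralizer_iff.mp c.2 (z : G) hzQ).symm
  have hdef := (Cfsg.Agent.S0969.result p M hM _ hZp hZc θ
    (by rw [hdegθ, hdegη, hcard])).1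
  have hblock : blockOf M (θ : ↥(Subgroup.centralizer (Q : Set G)) → ℂ) = e := by
    obtain ⟨θ₀, rfl⟩ := heb
    exact blockOf_eq_of_sameBlock hM hθe
  rw [hblock] at hdef
  exact hdef

end Cfsg.Agent.S4694
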