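import Cfsg.Statements.S4702
import Cfsg.Agent.Lib.Helper23.Sharp3c

set_option autoImplicit false
open Cfsg

namespace Cfsg.Agent.S4702

/-- Let G be a triply transitive permutation group on a finite set of odd size m ≥ 3 in which only the identity fixes three or more points. Then m = 2^a + 1 for some a ≥ 1 and G is isomorphic to SL(2, 2^a). -/
theorem result {α : Type*} [Fintype α] [DecidableEq α] (hm : 3 ≤ Fintype.card α) (hodd : Odd (Fintype.card α)) (G : Subgroup (Equiv.Perm α)) (h3 : MulAction.IsMultiplyPretransitive G α 3) (hfix : ∀ g : G, 3 ≤ Nat.card (MulAction.fixedBy α g) → g = 1) : ∃ a : ℕ, 1 ≤ a ∧ Fintype.card α = 2 ^ a + 1 ∧ ∃ (F : Type) (_ : Field F) (_ : Fintype F), Fintype.card F = 2 ^ a ∧ Nonempty (G ≃* Matrix.SpecialLinearGroup (Fin 2) F) := by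
  have hS : Cfsg.Agent.Lib.Helper23.Sharp3 G α := by
    apply Cfsg.Agent.Lib.Helper23.sharp3_of_pretransitive h3
    intro g a b c hab hac hbc ha hb hc
    apply hfix
    have hsub : ({a, b, c} : Set α) ⊆ MulAction.fixedBy α g := by
      intro x hx
      rcases hx with hx | hx | hx
      · rw [hx]
        exact ha
      · rw [hx]
        exact hb
      · have hx' : x = c := hx
        rw [hx']
        exact hc
    have h3' : ({a, b, c} : Set α).ncard = 3 :=
      Set.ncard_eq_three.mpr ⟨a, b, c, hab, hac, hbc, rfl⟩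
    rw [Nat.card_coe_set_eq, ← h3']
    exact Set.ncard_le_ncard hsub (Set.toFinite _)
  obtain ⟨a, ha, hcard, F, instF, instFin, hF, hchar, ⟨e⟩⟩ :=
    Cfsg.Agent.Lib.Helper23.sharp3_psl2_galois hS hodd hm
  have := hchar
  obtain ⟨e2⟩ := Cfsg.Agent.Lib.Helper23.psl_iso_sl_char2 F
  exact ⟨a, ha, hcard, F, instF, instFin, hF, ⟨e.trans e2⟩⟩

end Cfsg.Agent.S4702
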