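import Cfsg.Statements.S4708
import Mathlib
import Cfsg.Agent.Lib.Helper82.ResMult

set_option autoImplicit false
open Cfsg

namespace Cfsg.Agent.S4708

open Cfsg.Agent.Lib.Helper4 Cfsg.Agent.Lib.Helper21 Cfsg.Agent.Lib.Helper22
open Cfsg.Agent.Lib.Helper79 Cfsg.Agent.Lib.Helper82

theorem sum_sq_le_sq_sum {ι : Type*} (s : Finset ι) (a : ι → ℕ) :
    ∑ i ∈ s, a i ^ 2 ≤ (∑ i ∈ s, a i) ^ 2 := by
  rw [sq, Finset.sum_mul]
  refine Finset.sum_le_sum fun i hi => ?_
  rw [sq]
  exact Nat.mul_le_mul_left _ (Finset.single_le_sum (fun j _ => Nat.zero_le (a j)) hi)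

theorem lower {G : Type*} [Group G] [Fintype G] (p : ℕ) [Fact p.Prime] (M : Ideal Cfsg.AlgInt)
    (hM : Cfsg.IsPModular p M) (H : Subgroup G) [Fintype H] [Fintype (IrrCharacter G)]
    [Fintype (IrrCharacter H)] [DecidablePred (· ∈ principalBlock M G)]
    [DecidablePred (· ∈ principalBlock M H)] [DecidableEq (IrrCharacter G)] :
    ∑ θ ∈ Finset.univ.filter (· ∈ principalBlock M H), charDegree (θ : H → ℂ) ^ 2 ≤
      ∑ χ ∈ Finset.univ.filter (· ∈ principalBlock M G), charDegree (χ : G → ℂ) ^ 2 := by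
  classical
  have hex : ∀ θ : IrrCharacter H, ∃ χ : IrrCharacter G, θ ∈ principalBlock M H →
      χ ∈ principalBlock M G ∧ resMult H χ θ ≠ 0 := by
    intro θ
    by_cases hθ : θ ∈ principalBlock M H
    · obtain ⟨χ, hχ, hm⟩ := exists_over_principal H hM θ hθ
      exact ⟨χ, fun _ => ⟨hχ, hm⟩⟩
    · exact ⟨Cfsg.Agent.Lib.Helper83.trivIrr G, fun h => absurd h hθ⟩
  choose f hf using hex
  have hmaps : ∀ θ ∈ Finset.univ.filter (· ∈ principalBlock M H),
      f θ ∈ Finset.univ.filter (· ∈ principalBlock M G) := by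
    intro θ hθ
    exact Finset.mem_filter.mpr ⟨Finset.mem_univ _, (hf θ (Finset.mem_filter.mp hθ).2).1⟩
  rw [← Finset.sum_fiberwise_of_maps_to hmaps]
  refine Finset.sum_le_sum fun χ _ => ?_
  refine le_trans (sum_sq_le_sq_sum _ _) ?_
  refine Nat.pow_le_pow_left ?_ 2
  rw [degree_eq_sum_resMult H χ]
  refine le_trans ?_ (Finset.sum_le_sum_of_subset (Finset.subset_univ
    ((Finset.univ.filter (· ∈ principalBlock M H)).filter (fun θ => f θ = χ))))
  refine Finset.sum_le_sum fun θ hθ => ?_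
  have h1 := Finset.mem_filter.mp hθ
  have h2 := (hf θ (Finset.mem_filter.mp h1.1).2).2
  rw [h1.2] at h2
  exact Nat.le_mul_of_pos_left _ (Nat.pos_of_ne_zero h2)

theorem upper {G : Type*} [Group G] [Fintype G] (p : ℕ) [Fact p.Prime] (M : Ideal Cfsg.AlgInt)
    (hM : Cfsg.IsPModular p M) (H : Subgroup G) [H.Normal] [Fintype H] [Fintype (IrrCharacter G)]
    [Fintype (IrrCharacter H)] [DecidablePred (· ∈ principalBlock M G)]
    [DecidablePred (· ∈ principalBlock M H)] :
    ∑ χ ∈ Finset.univ.filter (· ∈ principalBlock M G), charDegree (χ : G → ℂ) ^ 2 ≤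
      H.index * ∑ θ ∈ Finset.univ.filter (· ∈ principalBlock M H), charDegree (θ : H → ℂ) ^ 2 := by
  classical
  have h1 : H.index * ∑ θ ∈ Finset.univ.filter (· ∈ principalBlock M H),
      charDegree (θ : H → ℂ) ^ 2 = ∑ χ : IrrCharacter G, charDegree (χ : G → ℂ) *
        ∑ θ ∈ Finset.univ.filter (· ∈ principalBlock M H),
          resMult H χ θ * charDegree (θ : H → ℂ) := by
    rw [Finset.mul_sum]
    have e1 : ∀ θ : IrrCharacter H, H.index * charDegree (θ : H → ℂ) ^ 2 =
        ∑ χ : IrrCharacter G, charDegree (χ : G → ℂ) *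
          (resMult H χ θ * charDegree (θ : H → ℂ)) := by
      intro θ
      rw [sq, ← mul_assoc, index_mul_degree_eq_sum H θ, Finset.sum_mul]
      exact Finset.sum_congr rfl fun χ _ => by ring
    rw [Finset.sum_congr rfl (fun θ _ => e1 θ), Finset.sum_comm]
    exact Finset.sum_congr rfl fun χ _ => (Finset.mul_sum _ _ _).symm
  rw [h1, Finset.sum_filter]
  refine Finset.sum_le_sum fun χ _ => ?_
  by_cases hχ : χ ∈ principalBlock M G
  · rw [if_pos hχ, sq]
    refine Nat.mul_le_mul_left _ ?_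
    rw [degree_eq_sum_resMult H χ, Finset.sum_filter]
    refine Finset.sum_le_sum fun θ _ => ?_
    by_cases hθ : θ ∈ principalBlock M H
    · rw [if_pos hθ]
    · rw [if_neg hθ]
      have h2 : resMult H χ θ = 0 := by
        by_contra h3
        exact hθ (mem_principal_of_resMult H hM χ hχ θ h3)
      rw [h2, zero_mul]
  · rw [if_neg hχ]
    exact Nat.zero_le _

/-- Let p be a prime, M a maximal ideal of the algebraic integers containing p, G a finite group and H a normal subgroup. Write λ(X) for the sum of the squares of the degrees of the irreducible characters in the principal p-block of a group X. Then λ(H) ≤ λ(G) ≤ [G : H]·λ(H). -/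
theorem result {G : Type*} [Group G] [Finite G] (p : ℕ) [Fact p.Prime] (M : Ideal Cfsg.AlgInt) (hM : Cfsg.IsPModular p M) (H : Subgroup G) [H.Normal] : (∑ᶠ θ ∈ Cfsg.principalBlock M H, Cfsg.charDegree (θ : H → ℂ) ^ 2) ≤ (∑ᶠ χ ∈ Cfsg.principalBlock M G, Cfsg.charDegree (χ : G → ℂ) ^ 2) ∧ (∑ᶠ χ ∈ Cfsg.principalBlock M G, Cfsg.charDegree (χ : G → ℂ) ^ 2) ≤ H.index * ∑ᶠ θ ∈ Cfsg.principalBlock M H, Cfsg.charDegree (θ : H → ℂ) ^ 2 := by
  classical
  letI := Fintype.ofFinite G
  letI : Fintype H := Fintype.ofFinite H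
  haveI := Cfsg.Agent.Lib.Helper4.irr_finite (G := G)
  haveI := Cfsg.Agent.Lib.Helper4.irr_finite (G := H)
  letI := Fintype.ofFinite (IrrCharacter G)
  letI := Fintype.ofFinite (IrrCharacter H)
  rw [finsum_mem_eq_sum_filter_univ, finsum_mem_eq_sum_filter_univ]
  exact ⟨lower p M hM H, upper p M hM H⟩

end Cfsg.Agent.S4708
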