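-- S4709 (helper1): Brauer's theorem on the principal block for an abelian Sylow p-subgroup with
-- Frobenius action of N/C; consequence of the column lemma S4720 (see Lib/Helper1/BrauerAb*.lean).
import Cfsg.Statements.S4709
import Cfsg.Agent.Lib.Helper1.BrauerAbAsm

set_option autoImplicit false
open Cfsg

namespace Cfsg.Agent.S4709

/-- Let p be a prime, M a maximal ideal of the algebraic integers containing p, and G a finite group with a nontrivial abelian Sylow p-subgroup P; put N = N_G(P), C = C_G(P). Suppose N/C is cyclic of order m with 1 < m < #P − 1 (C has index m in N and N is generated by C and one element), and C_G(y) ∩ N = C for every non-identity y ∈ P. Put r = (#P − 1)/m. Then there is s ≤ m such that the principal p-block is the disjoint union of a set X of s characters containing the principal character and a set Y of r characters, with integers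 a_χ ≠ 0 (χ ∈ X), d and a sign δ = ±1, such that: every χ ∈ X takes the value a_χ at every element whose p-part is a non-identity element of P; there is a map ζ from the non-principal linear characters ψ of P onto Y, constant on N-conjugacy classes, with ζ_ψ(z) = d + δ·Σ ψ'(y) for every z whose p-part y is a non-identity element of P, the sum running over the N-conjugates ψ' of ψ; (d − δ)^2 + (r − 1) d^2 + Σ_{χ ∈ X} a_χ^2 = m + 1; all members of Y agree on p-regular elements; and (r d − δ) η(g) + Σ_{χ ∈ X} a_χ χ(g) = 0 for every η ∈ Y and every p-regular g. -/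
theorem result {G : Type*} [Group G] [Finite G] (p : ℕ) [Fact p.Prime] (M : Ideal Cfsg.AlgInt) (hM : Cfsg.IsPModular p M) (P : Sylow p G) (hab : IsMulCommutative P) (hP1 : Nat.card P ≠ 1) (m : ℕ) (hm1 : 1 < m) (hm2 : m + 1 < Nat.card P) (hCN : (Subgroup.centralizer ((P : Subgroup G) : Set G)).relIndex (Subgroup.normalizer ((P : Subgroup G) : Set G)) = m) (hcyc : ∃ g : G, g ∈ Subgroup.normalizer ((P : Subgroup G) : Set G) ∧ Subgroup.centralizer ((P : Subgroup G) : Set G) ⊔ Subgroup.zpowers g = Subgroup.normalizer ((P : Subgroup G) : Set G)) (hfrob : ∀ y : G, y ∈ (P : Subgroup G) → y ≠ 1 → Subgroup.centralizer ({y} : Set G) ⊓ Subgroup.normalizer ((P : Subgroup G) : Set G) = Subgroup.centralizer ((P : Subgroup G) : Set G)) : ∃ (s : ℕ) (X Y : Set (Cfsg.IrrCharacter G)), s ≤ m ∧ Cfsg.principalBlock M G = X ∪ Y ∧ Disjoint X Y ∧ Nat.card X = s ∧ Nat.card Y = (Nat.card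 P - 1) / m ∧ (∃ χ₁ ∈ X, (χ₁ : G → ℂ) = fun _ => 1) ∧ ∃ (a : Cfsg.IrrCharacter G → ℤ) (d δ : ℤ) (ζ : (↥(P : Subgroup G) →* ℂˣ) → Cfsg.IrrCharacter G), (δ = 1 ∨ δ = -1) ∧ (∀ χ ∈ X, a χ ≠ 0 ∧ ∀ z y : G, Cfsg.IsPPart p z y → y ∈ (P : Subgroup G) → y ≠ 1 → (χ : G → ℂ) z = (a χ : ℂ)) ∧ (∀ ψ : ↥(P : Subgroup G) →* ℂˣ, ψ ≠ 1 → ζ ψ ∈ Y) ∧ (∀ η ∈ Y, ∃ ψ : ↥(P : Subgroup G) →* ℂˣ, ψ ≠ 1 ∧ ζ ψ = η) ∧ (∀ ψ ψ' : ↥(P : Subgroup G) →* ℂˣ, ψ ≠ 1 → (∃ n : G, n ∈ Subgroup.normalizer ((P : Subgroup G) : Set G) ∧ ∀ w w' : ↥(P : Subgroup G), (w' : G) = n * w * n⁻¹ → ψ' w' = ψ w) → ζ ψ' = ζ ψ) ∧ (∀ ψ : ↥(P : Subgroup G) →* ℂˣ, ψ ≠ 1 → ∀ (z : G) (y : ↥(P : Subgroup G)), Cfsg.IsPPart p z (y : G) → (y : G) ≠ 1 → (ζ ψ : G → ℂ) z = (d : ℂ) + (δ : ℂ) * ∑ᶠ ψ' ∈ {ψ' : ↥(P : Subgroup G) →* ℂˣ | ∃ n : G, n ∈ Subgroup.normalizer ((P : Subgroup G) : Set G) ∧ ∀ w w' : ↥(P : Subgroup G), (w' : G)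 = n * w * n⁻¹ → ψ' w' = ψ w}, ((ψ' y : ℂˣ) : ℂ)) ∧ ((d - δ) ^ 2 + ((Nat.card P - 1) / m - 1 : ℤ) * d ^ 2 + ∑ᶠ χ ∈ X, a χ ^ 2 = (m : ℤ) + 1) ∧ (∀ η ∈ Y, ∀ η' ∈ Y, ∀ g : G, ¬ p ∣ orderOf g → (η : G → ℂ) g = (η' : G → ℂ) g) ∧ (∀ η ∈ Y, ∀ g : G, ¬ p ∣ orderOf g → ((((Nat.card P - 1) / m : ℕ) : ℂ) * d - δ) * (η : G → ℂ) g + ∑ᶠ χ ∈ X, (a χ : ℂ) * (χ : G → ℂ) g = 0) := by
  classical
  have hp : p.Prime := Fact.out
  let _ : Fintype G := Fintype.ofFinite G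
  have hirr := Cfsg.Agent.Lib.Helper4.irr_finite (G := G)
  let _ : Fintype (IrrCharacter G) := Fintype.ofFinite _
  let _ : Fintype (↥(P : Subgroup G) →* ℂˣ) := Fintype.ofFinite _
  obtain ⟨ε, d, D, Θ, hε, hΘB, hcoef, hDnB, hΘiff, hDΘ, hDsq, hT⟩ :=
    Cfsg.Agent.Lib.Helper1.bab_struct hM P hab hP1 m hm2 hCN hfrob
  have hε2 : ε ^ 2 = 1 := by rcases hε with h | h <;> rw [h] <;> norm_num
  have hε0 : (ε : ℂ) ≠ 0 := by
    rcases hε with h | h <;> rw [h] <;> norm_num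
  obtain ⟨Yf, hYf⟩ : ∃ Yf : Finset (IrrCharacter G), Yf =
      (Finset.univ.filter (fun ψ : ↥(P : Subgroup G) →* ℂˣ => ψ ≠ 1)).image Θ := ⟨_, rfl⟩
  obtain ⟨Bf, hBf⟩ : ∃ Bf : Finset (IrrCharacter G), Bf =
      Finset.univ.filter (fun χ => χ ∈ principalBlock M G) := ⟨_, rfl⟩
  have hmemY : ∀ χ, χ ∈ Yf ↔ ∃ ψ : ↥(P : Subgroup G) →* ℂˣ, ψ ≠ 1 ∧ Θ ψ = χ := by
    intro χ
    rw [hYf]
    simp
  have hmemB : ∀ χ, χ ∈ Bf ↔ χ ∈ principalBlock M G := by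
    intro χ
    rw [hBf]
    simp
  have hYB : Yf ⊆ Bf := by
    intro χ hχ
    obtain ⟨ψ, hψ, rfl⟩ := (hmemY χ).mp hχ
    exact (hmemB _).mpr (hΘB ψ hψ)
  have hcardY : Yf.card * m = Nat.card ↥(P : Subgroup G) - 1 := by
    rw [hYf]
    exact Cfsg.Agent.Lib.Helper1.bab_card_image P hab hfrob m hCN Θ hΘiff
  have hm0 : 0 < m := by omega
  have hY2 : 2 ≤ Yf.card := by
    by_contra h
    have h1 : Yf.card ≤ 1 := by omega
    have h2 : Yf.card * m ≤ 1 * m := Nat.mul_le_mul_right m h1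
    omega
  have hYdiv : (Nat.card ↥(P : Subgroup G) - 1) / m = Yf.card := by
    rw [← hcardY]
    exact Nat.mul_div_cancel _ hm0
  have hDY : ∀ χ ∈ Yf, D χ = -d := by
    intro χ hχ
    obtain ⟨ψ, hψ, rfl⟩ := (hmemY χ).mp hχ
    exact hDΘ ψ hψ
  obtain ⟨y0, hy0P, hy01⟩ : ∃ y0 : G, y0 ∈ (P : Subgroup G) ∧ y0 ≠ 1 := by
    by_contra hcon
    apply hP1
    have hbot : (P : Subgroup G) = ⊥ := by
      rw [Subgroup.eq_bot_iff_forall]
      intro x hx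
      by_contra hx1
      exact hcon ⟨x, hx, hx1⟩
    rw [hbot]
    exact Subgroup.card_bot
  have hXval : ∀ χ ∈ Bf \ Yf, ∀ y : ↥(P : Subgroup G), y ≠ 1 →
      (χ : G → ℂ) (y : G) = ((-D χ : ℤ) : ℂ) := by
    intro χ hχ y hy
    obtain ⟨hχB, hχY⟩ := Finset.mem_sdiff.mp hχ
    have := hab
    rw [Cfsg.Agent.Lib.Helper1.bab_value_X (P : Subgroup G) (χ : G → ℂ) (D χ : ℂ) ?_ y hy]
    · push_cast
      rfl
    · intro ψ hψ
      rw [hcoef ψ hψ χ ((hmemB χ).mp hχB),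
        if_neg (fun h => hχY ((hmemY χ).mpr ⟨ψ, hψ, h.symm⟩))]
      simp
  have hXne : ∀ χ ∈ Bf \ Yf, D χ ≠ 0 := by
    intro χ hχ h0
    have h1 := hXval χ hχ ⟨y0, hy0P⟩ (fun h => hy01 (congrArg Subtype.val h))
    rw [h0] at h1
    exact Cfsg.Agent.Lib.Helper1.bab_ne_zero hM P hab χ
      ((hmemB χ).mp (Finset.mem_sdiff.mp hχ).1) y0 hy0P (by simpa using h1)
  have hYval : ∀ ψ : ↥(P : Subgroup G) →* ℂˣ, ψ ≠ 1 → ∀ y : ↥(P : Subgroup G), y ≠ 1 →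
      (Θ ψ : G → ℂ) (y : G) = (d : ℂ) + (ε : ℂ) * ∑ᶠ ψ' ∈ {ψ' : ↥(P : Subgroup G) →* ℂˣ |
        ∃ n : G, n ∈ Subgroup.normalizer ((P : Subgroup G) : Set G) ∧
          ∀ w w' : ↥(P : Subgroup G), (w' : G) = n * w * n⁻¹ → ψ' w' = ψ w},
        ((ψ' y : ℂˣ) : ℂ) := by
    intro ψ hψ y hy
    refine Cfsg.Agent.Lib.Helper1.bab_value_Y P hab (Θ ψ : G → ℂ) (d : ℂ) (ε : ℂ) ψ hψ ?_ y hy
    intro ψ'' hψ''
    rw [hcoef ψ'' hψ'' (Θ ψ) (hΘB ψ hψ), hDΘ ψ hψ]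
    by_cases hR : Cfsg.Agent.Lib.Helper1.babRel P ψ ψ''
    · rw [if_pos hR, if_pos ((hΘiff ψ hψ ψ'' hψ'').mpr hR)]
      push_cast
      rfl
    · rw [if_neg hR, if_neg (fun h => hR ((hΘiff ψ hψ ψ'' hψ'').mp h))]
      push_cast
      rfl
  have hreg : ∀ ψ : ↥(P : Subgroup G) →* ℂˣ, ψ ≠ 1 → ∀ ψ' : ↥(P : Subgroup G) →* ℂˣ,
      ψ' ≠ 1 → ∀ g : G, ¬ p ∣ orderOf g → (Θ ψ : G → ℂ) g = (Θ ψ' : G → ℂ) g := by
    intro ψ hψ ψ' hψ' g hg
    have h1 := hT ψ hψ g hg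
    have h2 := hT ψ' hψ' g hg
    have h3 : (ε : ℂ) * (starRingEnd ℂ) ((Θ ψ : G → ℂ) g) =
        (ε : ℂ) * (starRingEnd ℂ) ((Θ ψ' : G → ℂ) g) := by linear_combination h1 - h2
    exact (starRingEnd ℂ).injective (mul_left_cancel₀ hε0 h3)
  have hX2 : ∑ χ ∈ Bf \ Yf, D χ ^ 2 = (m : ℤ) + 2 * ε * d - (Yf.card : ℤ) * d ^ 2 := by
    have h1 := Cfsg.Agent.Lib.Helper1.bab_sum_split Bf Yf hYB (fun χ => D χ ^ 2) (by
      intro χ hχ
      show D χ ^ 2 = 0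
      rw [hDnB χ (fun h => hχ ((hmemB χ).mpr h))]
      norm_num)
    have h2 : ∑ χ ∈ Yf, D χ ^ 2 = (Yf.card : ℤ) * d ^ 2 := by
      rw [Finset.sum_congr rfl (fun χ hχ => by rw [hDY χ hχ]), Finset.sum_const, nsmul_eq_mul]
      ring
    rw [hDsq, h2] at h1
    linarith
  have hPZ : (Nat.card ↥(P : Subgroup G) : ℤ) - 1 = (Yf.card : ℤ) * (m : ℤ) := by
    have hpos : 1 ≤ Nat.card ↥(P : Subgroup G) := Nat.card_pos
    have h1 := hcardY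
    zify [hpos] at h1
    linarith
  refine ⟨(Bf \ Yf).card, ↑(Bf \ Yf), ↑Yf, ?_, ?_, ?_, ?_, ?_, ?_, fun χ => -D χ, d, ε, Θ, hε,
    ?_, ?_, ?_, ?_, ?_, ?_, ?_, ?_⟩
  · -- s ≤ m
    have h1 : ((Bf \ Yf).card : ℤ) ≤ ∑ χ ∈ Bf \ Yf, D χ ^ 2 := by
      rw [Finset.card_eq_sum_ones, Nat.cast_sum]
      apply Finset.sum_le_sum
      intro χ hχ
      have h0 := hXne χ hχ
      have h2 : 0 < D χ ^ 2 := by positivity
      push_cast
      omega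
    have key : ε * d ≤ d ^ 2 := by
      rcases hε with rfl | rfl
      · rcases le_or_gt d 0 with h | h <;> nlinarith
      · rcases le_or_gt 0 d with h | h <;> nlinarith
    have hY2' : (2 : ℤ) ≤ (Yf.card : ℤ) := by exact_mod_cast hY2
    have h3 : ((Bf \ Yf).card : ℤ) ≤ (m : ℤ) := by
      rw [hX2] at h1
      nlinarith [sq_nonneg d]
    exact_mod_cast h3
  · -- B = X ∪ Y
    ext χ
    simp only [Set.mem_union, Finset.mem_coe, Finset.mem_sdiff]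
    constructor
    · intro h
      by_cases hY : χ ∈ Yf
      · exact Or.inr hY
      · exact Or.inl ⟨(hmemB χ).mpr h, hY⟩
    · rintro (⟨h, -⟩ | h)
      · exact (hmemB χ).mp h
      · exact (hmemB χ).mp (hYB h)
  · rw [Finset.disjoint_coe]
    exact Finset.sdiff_disjoint
  · rw [Nat.card_coe_set_eq, Set.ncard_coe_finset]
  · rw [Nat.card_coe_set_eq, Set.ncard_coe_finset, hYdiv]
  · -- the trivial character
    refine ⟨Cfsg.Agent.Lib.Helper83.trivIrr G, ?_, rfl⟩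
    have hB1 : Cfsg.Agent.Lib.Helper83.trivIrr G ∈ principalBlock M G :=
      Cfsg.Agent.Lib.Helper79.trivIrr_mem_principalBlock hM
    rw [Finset.mem_coe, Finset.mem_sdiff]
    refine ⟨(hmemB _).mpr hB1, ?_⟩
    intro hY
    obtain ⟨ψ0, hψ0, hΘ0⟩ := (hmemY _).mp hY
    obtain ⟨ψ1, hψ1, hnR⟩ :=
      Cfsg.Agent.Lib.Helper1.bab_exists_not_rel P hab hfrob m hm2 hCN ψ0 hψ0
    have e0 : Cfsg.Agent.Lib.Helper1.babCoef (P : Subgroup G)
        ((Cfsg.Agent.Lib.Helper83.trivIrr G : IrrCharacter G) : G → ℂ) ψ0 = -1 :=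
      Cfsg.Agent.Lib.Helper1.babCoef_triv (P : Subgroup G) ψ0 hψ0
    have e1 : Cfsg.Agent.Lib.Helper1.babCoef (P : Subgroup G)
        ((Cfsg.Agent.Lib.Helper83.trivIrr G : IrrCharacter G) : G → ℂ) ψ1 = -1 :=
      Cfsg.Agent.Lib.Helper1.babCoef_triv (P : Subgroup G) ψ1 hψ1
    have h0 := hcoef ψ0 hψ0 _ hB1
    have h1 := hcoef ψ1 hψ1 _ hB1
    rw [e0, if_pos hΘ0.symm] at h0
    rw [e1, if_neg (fun h => hnR ((hΘiff ψ1 hψ1 ψ0 hψ0).mp (by rw [hΘ0]; exact h.symm)))] at h1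
    apply hε0
    linear_combination h1 - h0
  · -- values on X
    intro χ hχ
    rw [Finset.mem_coe] at hχ
    refine ⟨neg_ne_zero.mpr (hXne χ hχ), ?_⟩
    intro z y hz hyP hy1
    rw [Cfsg.Agent.Lib.Helper1.bab_section hM P hab hfrob χ
      ((hmemB χ).mp (Finset.mem_sdiff.mp hχ).1) z y hz hyP hy1]
    exact hXval χ hχ ⟨y, hyP⟩ (fun h => hy1 (congrArg Subtype.val h))
  · intro ψ hψ
    exact Finset.mem_coe.mpr ((hmemY _).mpr ⟨ψ, hψ, rfl⟩)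
  · intro η hη
    exact (hmemY η).mp (Finset.mem_coe.mp hη)
  · intro ψ ψ' hψ hrel
    have hR : Cfsg.Agent.Lib.Helper1.babRel P ψ ψ' :=
      (Cfsg.Agent.Lib.Helper1.bab_rel_iff P ψ ψ').mp hrel
    have hψ' := Cfsg.Agent.Lib.Helper1.babRel_ne_one P hR hψ
    exact ((hΘiff ψ hψ ψ' hψ').mpr hR).symm
  · intro ψ hψ z y hz hy1
    rw [Cfsg.Agent.Lib.Helper1.bab_section hM P hab hfrob (Θ ψ) (hΘB ψ hψ) z (y : G) hz y.2 hy1]
    exact hYval ψ hψ y (fun h => hy1 (by rw [h]; rfl))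
  · -- the Gram relation
    rw [finsum_mem_coe_finset, hPZ, Int.mul_ediv_cancel _ (by exact_mod_cast hm0.ne')]
    have h1 : ∑ χ ∈ Bf \ Yf, (fun χ => -D χ) χ ^ 2 = ∑ χ ∈ Bf \ Yf, D χ ^ 2 :=
      Finset.sum_congr rfl (fun χ _ => by simp)
    rw [h1, hX2]
    linear_combination hε2
  · intro η hη η' hη' g hg
    obtain ⟨ψ, hψ, rfl⟩ := (hmemY η).mp (Finset.mem_coe.mp hη)
    obtain ⟨ψ', hψ', rfl⟩ := (hmemY η').mp (Finset.mem_coe.mp hη')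
    exact hreg ψ hψ ψ' hψ' g hg
  · intro η hη g hg
    obtain ⟨ψ, hψ, rfl⟩ := (hmemY η).mp (Finset.mem_coe.mp hη)
    have h1 := hT ψ hψ g hg
    have h2 := Cfsg.Agent.Lib.Helper1.bab_sum_split Bf Yf hYB
      (fun χ => (D χ : ℂ) * (starRingEnd ℂ) ((χ : G → ℂ) g)) (by
        intro χ hχ
        show (D χ : ℂ) * (starRingEnd ℂ) ((χ : G → ℂ) g) = 0
        rw [hDnB χ (fun h => hχ ((hmemB χ).mpr h))]
        simp)
    have h3 : ∑ χ ∈ Yf, (D χ : ℂ) * (starRingEnd ℂ) ((χ : G → ℂ) g) =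
        ∑ χ ∈ Yf, (-(d : ℂ)) * (starRingEnd ℂ) ((Θ ψ : G → ℂ) g) := by
      refine Finset.sum_congr rfl (fun χ hχ => ?_)
      obtain ⟨ψ', hψ', rfl⟩ := (hmemY χ).mp hχ
      rw [hDΘ ψ' hψ', hreg ψ' hψ' ψ hψ g hg]
      push_cast
      rfl
    rw [h2, h3, Finset.sum_const, nsmul_eq_mul] at h1
    have h4 := congrArg (starRingEnd ℂ) h1
    simp only [map_add, map_mul, map_sum, map_neg, map_natCast, map_intCast, Complex.conj_conj,
      map_zero] at h4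
    rw [finsum_mem_coe_finset, hYdiv]
    have h5 : ∑ χ ∈ Bf \ Yf, (((fun χ => -D χ) χ : ℤ) : ℂ) * (χ : G → ℂ) g =
        - ∑ χ ∈ Bf \ Yf, (D χ : ℂ) * (χ : G → ℂ) g := by
      rw [← Finset.sum_neg_distrib]
      refine Finset.sum_congr rfl fun χ _ => ?_
      push_cast
      ring
    rw [h5]
    linear_combination -h4

end Cfsg.Agent.S4709
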