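import Cfsg.Statements.S4711
import Cfsg.Agent.Lib.Helper68.PLenBlockB
import Cfsg.Agent.Lib.Helper68.PLenBlockC
import Cfsg.Agent.Lib.Helper82.PrimeQuot
import Cfsg.Agent.Lib.Helper34.PLen
import Cfsg.Agent.Lib.Helper4.NormalPC
import Cfsg.Agent.Lib.Helper20.Clifford

set_option autoImplicit false
open Cfsg

namespace Cfsg.Agent.S4711

open Cfsg.Agent.Lib Cfsg.Agent.Lib.Helper68

/-- Let p be a prime, M a maximal ideal of the algebraic integers containing p, G a finite group, P a Sylow p-subgroup and N = N_G(P). Then G has p-length 1 (G = O_{p',p,p'}(G)) if and only if every irreducible character in the principal p-block of G restricts to an irreducible character of N. -/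
theorem result {G : Type*} [Group G] [Finite G] (p : ℕ) [Fact p.Prime] (M : Ideal Cfsg.AlgInt) (hM : Cfsg.IsPModular p M) (P : Sylow p G) : Cfsg.PLengthLE p 1 G ↔ ∀ χ ∈ Cfsg.principalBlock M G, Cfsg.IsIrrCharacter ↥(Subgroup.normalizer ((P : Subgroup G) : Set G)) (fun n : ↥(Subgroup.normalizer ((P : Subgroup G) : Set G)) => (χ : G → ℂ) n) := by 
  classical
  cases nonempty_fintype G
  constructor
  · intro hpl χ hχ
    set U : Subgroup G := (upperPSeries p G 1).1 with hU
    haveI : U.Normal := (upperPSeries p G 1).2
    letI : Fintype (G ⧸ U) := Fintype.ofFinite _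
    have hcop : (Nat.card U).Coprime p := Helper34.card_upperPSeries_one_coprime p
    have hsup : U ⊔ Subgroup.normalizer ((P : Subgroup G) : Set G) = ⊤ :=
      Helper34.plength_one_sup_normalizer p hpl P
    obtain ⟨ψ, -, hψ⟩ := (Helper82.principal_bijOn_inflate hM U hcop).surjOn hχ
    set f : ↥(Subgroup.normalizer ((P : Subgroup G) : Set G)) →* G ⧸ U :=
      (QuotientGroup.mk' U).comp (Subgroup.normalizer ((P : Subgroup G) : Set G)).subtype with hf
    have hsurj : Function.Surjective f := by
      intro q
      obtain ⟨g, rfl⟩ := QuotientGroup.mk_surjective q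
      have hg : g ∈ ((U ⊔ Subgroup.normalizer ((P : Subgroup G) : Set G) : Subgroup G) : Set G) := by
        rw [hsup]; exact Set.mem_univ g
      rw [Subgroup.normal_mul] at hg
      obtain ⟨u, hu, n, hn, rfl⟩ := Set.mem_mul.mp hg
      refine ⟨⟨n, hn⟩, ?_⟩
      show (QuotientGroup.mk n : G ⧸ U) = QuotientGroup.mk (u * n)
      rw [QuotientGroup.eq]
      have : n⁻¹ * (u * n) = n⁻¹ * u * n := by group
      rw [this]
      have := (inferInstance : U.Normal).conj_mem u hu n⁻¹
      rwa [inv_inv] at this
    have hirr := Helper20.irr_comp_surjective f hsurj ψ.2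
    have heq : (fun n : ↥(Subgroup.normalizer ((P : Subgroup G) : Set G)) => (χ : G → ℂ) n) =
        fun a => (ψ : G ⧸ U → ℂ) (f a) := by
      funext n
      rw [← hψ]
      rfl
    rw [heq]
    exact hirr
  · intro hres
    set K : Subgroup G := Subgroup.normalClosure ((P : Subgroup G) : Set G) with hK
    have hPK : (P : Subgroup G) ≤ K := Subgroup.le_normalClosure
    have hKmin : ∀ L : Subgroup G, L.Normal → (P : Subgroup G) ≤ L → K ≤ L :=
      fun L hL hPL => Subgroup.normalClosure_le_normal hPL
    letI : Fintype K := Fintype.ofFinite _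
    letI : Fintype ((P : Subgroup G).subgroupOf K) := Fintype.ofFinite _
    apply plength_one_of_npc p P K hPK
    apply Helper4.npc_of_extend p (P.subtype hPK)
    intro l _
    obtain ⟨f, hf⟩ := exists_extension hM P hres K hPK hKmin l
    exact ⟨f, hf⟩

end Cfsg.Agent.S4711
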