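import Cfsg.Statements.S4714
import Cfsg.Agent.Lib.Helper79.NormDef4

set_option autoImplicit false
open Cfsg

namespace Cfsg.Agent.S4714

/-- Let p be a prime, M a maximal ideal of the algebraic integers containing p, D a p-subgroup of the finite group G with G = D·C_G(D), and B a p-block with defect group D. Let χ be a member of B having D in its kernel (there is exactly one, the canonical character of B). Then the irreducible characters in B are exactly the functions θ on G for which there is an irreducible character ζ of D such that θ(yx) = ζ(y)χ(x) whenever y ∈ D, x has order prime to p and x commutes with y, and θ(z) = 0 whenever the p-part of z does not lie in D. -/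
theorem result {G : Type*} [Group G] [Finite G] (p : ℕ) [Fact p.Prime] (M : Ideal Cfsg.AlgInt) (hM : Cfsg.IsPModular p M) (D : Subgroup G) (hD : IsPGroup p D) (hG : D ⊔ Subgroup.centralizer (D : Set G) = ⊤) (B : Set (Cfsg.IrrCharacter G)) (hB : Cfsg.IsPBlock M B) (hBD : Cfsg.IsDefectGroup p M B D) (χ : Cfsg.IrrCharacter G) (hχ : χ ∈ B) (hχD : ∀ y ∈ D, (χ : G → ℂ) y = (χ : G → ℂ) 1) : (∀ θ : Cfsg.IrrCharacter G, θ ∈ B ↔ ∃ ζ : Cfsg.IrrCharacter D, (∀ (y : D) (x : G), ¬ p ∣ orderOf x → Commute (y : G) x → (θ : G → ℂ) ((y : G) * x) = (ζ : D → ℂ) y * (χ : G → ℂ) x) ∧ (∀ z : G, (∀ y : G, Cfsg.IsPPart p z y → y ∉ D) → (θ : G → ℂ) z = 0)) ∧ ∀ ζ : Cfsg.IrrCharacter D, ∃ θ ∈ B, (∀ (y : D) (x : G), ¬ p ∣ orderOf x → Commute (y : G) x → (θ : G → ℂ) ((y : G) * x) = (ζ : D → ℂ) y * (χ : G → ℂ) x) ∧ (∀ z : G, (∀ y : G, Cfsg.IsPPart p z y → y ∉ D) → (θ : G → ℂ) z = 0) := by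
  classical
  letI := Fintype.ofFinite G
  have hp : p.Prime := Fact.out
  haveI hDn : D.Normal := Cfsg.Agent.Lib.Helper79.normal_of_sup_centralizer D hG
  have hDC := Cfsg.Agent.Lib.Helper79.factor_of_sup_centralizer D hG
  have hC := Cfsg.Agent.Lib.Helper79.index_centralizer_of_factor D hD hDC
  have hsurj := fun ζ => Cfsg.Agent.Lib.Helper79.block_desc_surjective hM B hB D hD hBD hDC hC
    χ hχ hχD ζ
  have hvan : ∀ θ ∈ B, ∀ z : G, (∀ y : G, Cfsg.IsPPart p z y → y ∉ D) →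
      (θ : G → ℂ) z = 0 := by
    intro θ hθ z hz
    obtain ⟨u, hu⟩ := Cfsg.Agent.Lib.Helper22.exists_isPPart hp z
    exact Cfsg.Agent.Lib.Helper79.block_vanish_of_ppart hM B hB D hD hBD θ hθ z u hu (hz u hu)
  have key : ∀ ζ : Cfsg.IrrCharacter D, ∃ θ ∈ B, (∀ (y : D) (x : G), ¬ p ∣ orderOf x →
      Commute (y : G) x → (θ : G → ℂ) ((y : G) * x) = (ζ : D → ℂ) y * (χ : G → ℂ) x) ∧
      (∀ z : G, (∀ y : G, Cfsg.IsPPart p z y → y ∉ D) → (θ : G → ℂ) z = 0) := by
    intro ζ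
    obtain ⟨θ, hθ, h⟩ := hsurj ζ
    exact ⟨θ, hθ, fun y x hx _ => h y x hx, hvan θ hθ⟩
  refine ⟨fun θ => ⟨fun hθ => ?_, ?_⟩, key⟩
  · obtain ⟨ζ, -, h⟩ := Cfsg.Agent.Lib.Helper79.block_description hM B hB D hD hBD hDC hC χ hχ
      hχD θ hθ
    exact ⟨ζ, fun y x hx _ => h y x hx, hvan θ hθ⟩
  · rintro ⟨ζ, h1, h2⟩
    obtain ⟨θ', hθ', h1', h2'⟩ := key ζ
    have heq : θ = θ' := by
      apply Subtype.ext
      funext z
      obtain ⟨u, hu⟩ := Cfsg.Agent.Lib.Helper22.exists_isPPart hp z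
      by_cases huD : u ∈ D
      · obtain ⟨w, hw, hc, -, hwreg⟩ := hu
        rw [← hw]
        exact (h1 ⟨u, huD⟩ w hwreg hc).trans (h1' ⟨u, huD⟩ w hwreg hc).symm
      · have hall : ∀ y : G, Cfsg.IsPPart p z y → y ∉ D := by
          intro y hy
          rw [Cfsg.Agent.Lib.Helper22.isPPart_unique hp hy hu]
          exact huD
        rw [h2 z hall, h2' z hall]
    rw [heq]
    exact hθ'

end Cfsg.Agent.S4714
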