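import Cfsg.Statements.S4715
import Cfsg.Agent.Lib.Helper4.HB3
import Cfsg.Agent.Lib.Helper57.HtPairsA
import Cfsg.Agent.Lib.Helper16.HtPairsB
import Cfsg.Agent.S0908
import Cfsg.Agent.Lib.Helper81.BrMaxChar

set_option autoImplicit false
open Cfsg

namespace Cfsg.Agent.S4715

/-- Let p be a prime, M a maximal ideal of the algebraic integers containing p, B a p-block of the finite group G with defect group D of order p^d, H = D·C_G(D), b a block of H inducing B, T the stabilizer of b in N_G(D) and e = [T : H] the inertial index of B; let n be the integer with p^n ≤ e < p^(n+1) and p^c the order of the centre of D. Then every irreducible character in B has height h with h + c ≤ n + d. -/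
theorem result {G : Type*} [Group G] [Finite G] (p : ℕ) [Fact p.Prime] (M : Ideal Cfsg.AlgInt) (hM : Cfsg.IsPModular p M) (B : Set (Cfsg.IrrCharacter G)) (hB : Cfsg.IsPBlock M B) (D : Subgroup G) (hBD : Cfsg.IsDefectGroup p M B D) (d : ℕ) (hDd : Nat.card D = p ^ d) (H : Subgroup G) (hH : H = D ⊔ Subgroup.centralizer (D : Set G)) (b : Set (Cfsg.IrrCharacter H)) (hind : Cfsg.IsInducedBlock M H b B) (T : Subgroup G) (hT : ∀ g : G, g ∈ T ↔ (g ∈ Subgroup.normalizer (D : Set G) ∧ ∀ θ ∈ b, ∀ θ' : Cfsg.IrrCharacter H, (∀ h h' : H, (h' : G) = g * h * g⁻¹ → (θ' : H → ℂ) h' = (θ : H → ℂ) h) → θ' ∈ b)) (e : ℕ) (he : H.relIndex T = e) (n : ℕ) (hn : p ^ n ≤ e ∧ e < p ^ (n + 1)) (c : ℕ) (hc : Nat.card (Subgroup.center D) = p ^ c) : ∀ χ ∈ B, Cfsg.blockHeight p B (χ : G → ℂ) + c ≤ n + d := by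
  classical
  let _ : Fintype G := Fintype.ofFinite G
  intro χ hχ
  have hp : p.Prime := Fact.out
  subst hH
  obtain ⟨β, hmax, hstab⟩ := Cfsg.Agent.Lib.HtPairs.exists_maximal_pair_of_root p M hM B hB D hBD
    (D ⊔ Subgroup.centralizer (D : Set G)) rfl b hind T hT
  obtain ⟨f, hf1, hf2⟩ := Cfsg.Agent.Lib.HtPairs.central_subsections p M hM B D β hmax
  have hdB : Cfsg.blockDefect p B = d := by
    have h1 := Cfsg.Agent.S0908.result p M hM B hB D hBD
    rw [hDd] at h1
    exact (Nat.pow_right_injective hp.two_le h1).symm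
  have hHZ : ∀ h ∈ D ⊔ Subgroup.centralizer (D : Set G), ∀ y ∈ D,
      (∀ x ∈ D, x * y = y * x) → h * y * h⁻¹ = y := by
    intro h hh y hy hyc
    obtain ⟨q, hq, c', hc', rfl⟩ := Cfsg.Agent.Lib.Helper81.mem_sup_centralizer D h hh
    have h1 : q * y = y * q := hyc q hq
    have h2 : y * c' = c' * y := Subgroup.mem_centralizer_iff.mp hc' y hy
    calc q * c' * y * (q * c')⁻¹ = q * (c' * y) * c'⁻¹ * q⁻¹ := by group
      _ = q * (y * c') * c'⁻¹ * q⁻¹ := by rw [h2]
      _ = (q * y) * q⁻¹ := by group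
      _ = y * q * q⁻¹ := by rw [h1]
      _ = y := by group
  have hn' : (D ⊔ Subgroup.centralizer (D : Set G)).relIndex T < p ^ (n + 1) := by
    rw [he]
    exact hn.2
  exact Cfsg.Agent.Lib.Helper4.HtBound.height_bound_core p M hM B D d hDd hdB
    (D ⊔ Subgroup.centralizer (D : Set G)) T hHZ c hc f hf1
    (fun Q Q' h1 h2 h3 h4 g hg hex => by
      obtain ⟨t, ht, htq⟩ := hf2 Q Q' h1 h2 h3 h4 g hg hex
      exact ⟨t, hstab t ht, htq⟩) n hn' χ hχ

end Cfsg.Agent.S4715
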