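import Cfsg.Statements.S4716
import Cfsg.Agent.Lib.Helper80.Major

set_option autoImplicit false
open Cfsg

namespace Cfsg.Agent.S4716

/-- Let p be a prime, M a maximal ideal of the algebraic integers containing p, and B a p-block of defect d of the finite group G all of whose irreducible characters have height zero. Let y be a p-element, C = C_G(y), and b a block of C inducing B and having the same defect d (a major subsection). Then k(B)^2 ≤ p^(2d)·l(b), where k(B) is the number of irreducible characters in B and l(b) the p-regular rank of b (its number of irreducible Brauer characters); in particular (y = 1) k(B)^2 ≤ p^(2d)·l(B). -/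
theorem result {G : Type*} [Group G] [Finite G] (p : ℕ) [Fact p.Prime] (M : Ideal Cfsg.AlgInt) (hM : Cfsg.IsPModular p M) (B : Set (Cfsg.IrrCharacter G)) (hB : Cfsg.IsPBlock M B) (d : ℕ) (hd : Cfsg.blockDefect p B = d) (hh : ∀ χ ∈ B, Cfsg.blockHeight p B (χ : G → ℂ) = 0) (y : G) (hy : ∃ k : ℕ, orderOf y = p ^ k) (b : Set (Cfsg.IrrCharacter ↥(Subgroup.centralizer ({y} : Set G)))) (hind : Cfsg.IsInducedBlock M (Subgroup.centralizer ({y} : Set G)) b B) (hbd : Cfsg.blockDefect p b = d) : Nat.card B ^ 2 ≤ p ^ (2 * d) * Cfsg.blockRank p b := by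
  classical
  let _ : Fintype G := Fintype.ofFinite G
  let _ : Fintype (Subgroup.centralizer ({y} : Set G)) := Fintype.ofFinite _
  have h1 := Cfsg.Agent.Lib.Helper4.irr_finite (G := G)
  have h2 := Cfsg.Agent.Lib.Helper4.irr_finite (G := Subgroup.centralizer ({y} : Set G))
  let _ : Fintype (Cfsg.IrrCharacter G) := Fintype.ofFinite _
  let _ : Fintype (Cfsg.IrrCharacter (Subgroup.centralizer ({y} : Set G))) := Fintype.ofFinite _
  obtain ⟨n, hn⟩ := hy
  have hyC : y ∈ Subgroup.centralizer ({y} : Set G) := by
    rw [Subgroup.mem_centralizer_iff]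
    intro h hh
    rw [Set.mem_singleton_iff.mp hh]
  have hcen : (⟨y, hyC⟩ : Subgroup.centralizer ({y} : Set G)) ∈
      Subgroup.center (Subgroup.centralizer ({y} : Set G)) := by
    rw [Subgroup.mem_center_iff]
    intro c
    apply Subtype.ext
    have hc2 : (c : G) ∈ Subgroup.centralizer ({y} : Set G) := c.2
    have h3 := Subgroup.mem_centralizer_iff.mp hc2 y rfl
    exact h3.symm
  have key := Cfsg.Agent.Lib.Helper80.Major.card_sq_le (Subgroup.centralizer ({y} : Set G)) hM
    ⟨y, hyC⟩ hcen n hn (le_refl _) b B hind hh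
  rw [hbd] at key
  exact key

end Cfsg.Agent.S4716
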