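import Cfsg.Statements.S4719
import Cfsg.Agent.Lib.Helper82.DCBlock

set_option autoImplicit false
universe u
open Cfsg

namespace Cfsg.Agent.S4719

open Cfsg.Agent.Lib.Helper82.DCBlock

/-- a bound valid for all Sylow orders `2 ^ a'` with `a' ≤ a` -/
theorem bound_le (a : ℕ) : ∃ N : ℕ, ∀ a' ≤ a, DCBound.{u} a' N := by
  induction a with
  | zero =>
    obtain ⟨N, hN⟩ := dc_step.{u} 0 0 (fun a' ha' => absurd ha' (Nat.not_lt_zero _))
    refine ⟨N, ?_⟩
    intro a' ha'
    obtain rfl : a' = 0 := Nat.le_zero.mp ha'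
    exact hN
  | succ a ih =>
    obtain ⟨N₀, hN₀⟩ := ih
    obtain ⟨N₁, hN₁⟩ := dc_step.{u} (a + 1) N₀ (fun a' ha' => hN₀ a' (by omega))
    refine ⟨max N₀ N₁, ?_⟩
    intro a' ha'
    rcases Nat.lt_or_ge a' (a + 1) with h | h
    · intro G _ _ M r P hM hP hblocks hE
      exact (hN₀ a' (by omega) G M r P hM hP hblocks hE).trans (le_max_left _ _)
    · obtain rfl : a' = a + 1 := by omega
      intro G _ _ M r P hM hP hblocks hE
      exact (hN₁ G M r P hM hP hblocks hE).trans (le_max_right _ _)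

/-- For every natural number a there is a bound N with the following property. Let G be a finite group with Sylow 2-subgroups of order 2^a and r ≥ 0 such that G has no non-principal 2-block (relative to a maximal ideal of the algebraic integers containing 2) of defect ≥ r, and suppose a Sylow 2-subgroup of G contains an elementary abelian subgroup of order 2^(r+1). Then the order of G is at most N. -/
theorem result (a : ℕ) : ∃ N : ℕ, ∀ (G : Type u) [Group G] [Finite G] (M : Ideal Cfsg.AlgInt) (r : ℕ) (P : Sylow 2 G), Cfsg.IsPModular 2 M → Nat.card P = 2 ^ a → (∀ B : Set (Cfsg.IrrCharacter G), Cfsg.IsPBlock M B → B ≠ Cfsg.principalBlock M G → Cfsg.blockDefect 2 B < r) → (∃ E : Subgroup G, E ≤ (P : Subgroup G) ∧ IsMulCommutative E ∧ (∀ x ∈ E, x * x = 1) ∧ Nat.card E = 2 ^ (r + 1)) → Nat.card G ≤ N := by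
  obtain ⟨N, hN⟩ := bound_le.{u} a
  exact ⟨N, hN a le_rfl⟩

end Cfsg.Agent.S4719
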