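-- S4721 (helper1): Brauer's theorem on the principal block for an abelian Sylow p-subgroup with
-- Frobenius action of N/C of order 3 (see Lib/Helper1/BrauerAb3*.lean).
import Cfsg.Statements.S4721
import Cfsg.Agent.Lib.Helper1.BrauerAb3Two
import Cfsg.Agent.Lib.Helper1.BrauerAb3Odd

set_option autoImplicit false
open Cfsg

namespace Cfsg.Agent.S4721

theorem card_three_filter {α : Type*} [Fintype α] [DecidableEq α] (c₁ c₂ c₃ : α)
    (h23 : c₂ ≠ c₃) (Q : α → Prop) [DecidablePred Q] (hQ1 : ¬ Q c₁) :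
    (Finset.univ.filter (fun x => (x = c₁ ∨ x = c₂ ∨ x = c₃) ∧ Q x)).card =
      (if Q c₂ then 1 else 0) + (if Q c₃ then 1 else 0) := by
  have h : Finset.univ.filter (fun x => (x = c₁ ∨ x = c₂ ∨ x = c₃) ∧ Q x) =
      ({c₂, c₃} : Finset α).filter Q := by
    ext x
    simp only [Finset.mem_filter, Finset.mem_univ, true_and, Finset.mem_insert,
      Finset.mem_singleton]
    constructor
    · rintro ⟨h1 | h1 | h1, h2⟩
      · rw [h1] at h2
        exact absurd h2 hQ1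
      · exact ⟨Or.inl h1, h2⟩
      · exact ⟨Or.inr h1, h2⟩
    · rintro ⟨h1 | h1, h2⟩
      · exact ⟨Or.inr (Or.inl h1), h2⟩
      · exact ⟨Or.inr (Or.inr h1), h2⟩
  rw [h, Finset.filter_insert, Finset.filter_singleton]
  by_cases h2 : Q c₂ <;> by_cases h3 : Q c₃ <;> simp [h2, h3, h23]

/-- Let p be a prime, M a maximal ideal of the algebraic integers containing p, and G a finite group with a nontrivial abelian Sylow p-subgroup P, N = N_G(P), C = C_G(P), such that N/C is cyclic of order 3, #P > 4, and C_G(y) ∩ N = C for every non-identity y ∈ P. Then the principal p-block is the disjoint union of a set X of exactly 3 characters containing the principal character and a set Y of (#P − 1)/3 characters, with signs a_χ = ±1 (χ ∈ X, a = 1 at the principal character) and δ = ±1 such that every χ ∈ X takes the value a_χ at every element whose p-part is a non-identity element of P, and there is a map ζ from the non-principal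 linear characters of P onto Y, constant on N-conjugacy classes, with ζ_ψ(z) = δ·Σ ψ'(y) over the N-orbit of ψ, for z with p-part y ≠ 1 in P. If moreover G has an involution lying in no proper normal subgroup of G, then exactly two of the three numbers −δ and a_χ (χ ∈ X non-principal) equal −1, and the product of the degrees of the two non-principal members of X and of any member of Y is a perfect square. -/
theorem result {G : Type*} [Group G] [Finite G] (p : ℕ) [Fact p.Prime] (M : Ideal Cfsg.AlgInt) (hM : Cfsg.IsPModular p M) (P : Sylow p G) (hab : IsMulCommutative P) (hP1 : Nat.card P ≠ 1) (hCN : (Subgroup.centralizer ((P : Subgroup G) : Set G)).relIndex (Subgroup.normalizer ((P : Subgroup G) : Set G)) = 3) (hcyc : ∃ g : G, g ∈ Subgroup.normalizer ((P : Subgroup G) : Set G) ∧ Subgroup.centralizer ((P : Subgroup G) : Set G) ⊔ Subgroup.zpowers g = Subgroup.normalizer ((P : Subgroup G) : Set G)) (hm2 : 3 + 1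 < Nat.card P) (hfrob : ∀ y : G, y ∈ (P : Subgroup G) → y ≠ 1 → Subgroup.centralizer ({y} : Set G) ⊓ Subgroup.normalizer ((P : Subgroup G) : Set G) = Subgroup.centralizer ((P : Subgroup G) : Set G)) : ∃ (X Y : Set (Cfsg.IrrCharacter G)), Cfsg.principalBlock M G = X ∪ Y ∧ Disjoint X Y ∧ Nat.card X = 3 ∧ Nat.card Y = (Nat.card P - 1) / 3 ∧ (∃ χ₁ ∈ X, (χ₁ : G → ℂ) = fun _ => 1) ∧ ∃ (a : Cfsg.IrrCharacter G → ℤ) (δ : ℤ) (ζ : (↥(P : Subgroup G) →* ℂˣ) → Cfsg.IrrCharacter G), (δ = 1 ∨ δ = -1) ∧ (∀ χ ∈ X, (a χ = 1 ∨ a χ = -1) ∧ ∀ z y : G, Cfsg.IsPPart p z y → y ∈ (P : Subgroup G) → y ≠ 1 → (χ : G → ℂ) z = (a χ : ℂ)) ∧ (∀ ψ : ↥(P : Subgroup G) →* ℂˣ, ψ ≠ 1 → ζ ψ ∈ Y) ∧ (∀ η ∈ Y, ∃ ψ : ↥(P : Subgroup G) →* ℂˣ, ψ ≠ 1 ∧ ζ ψ = η) ∧ (∀ ψ ψ' : ↥(P : Subgroup G) →* ℂˣ, ψ ≠ 1 → (∃ n : G, n ∈ Subgroup.normalizer ((P : Subgroup G) : Set G) ∧ ∀ w w' : ↥(P : Subgroup G), (w' : G) = n * w * n⁻¹ → ψ' w' = ψ w) → ζ ψ' = ζ ψ) ∧ (∀ ψ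 : ↥(P : Subgroup G) →* ℂˣ, ψ ≠ 1 → ∀ (z : G) (y : ↥(P : Subgroup G)), Cfsg.IsPPart p z (y : G) → (y : G) ≠ 1 → (ζ ψ : G → ℂ) z = (δ : ℂ) * ∑ᶠ ψ' ∈ {ψ' : ↥(P : Subgroup G) →* ℂˣ | ∃ n : G, n ∈ Subgroup.normalizer ((P : Subgroup G) : Set G) ∧ ∀ w w' : ↥(P : Subgroup G), (w' : G) = n * w * n⁻¹ → ψ' w' = ψ w}, ((ψ' y : ℂˣ) : ℂ)) ∧ ((∃ t : G, orderOf t = 2 ∧ ∀ K : Subgroup G, K.Normal → t ∈ K → K = ⊤) → Nat.card {χ : Cfsg.IrrCharacter G // χ ∈ X ∧ (χ : G → ℂ) ≠ (fun _ => 1) ∧ a χ = -1} + (if δ = 1 then 1 else 0) = 2 ∧ ∀ η ∈ Y, IsSquare (Cfsg.charDegree (η : G → ℂ) * ∏ᶠ χ ∈ {χ : Cfsg.IrrCharacter G | χ ∈ X ∧ (χ : G → ℂ) ≠ fun _ => 1}, Cfsg.charDegree (χ : G → ℂ))) := by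
  classical
  have hp : p.Prime := Fact.out
  let _ : Fintype G := Fintype.ofFinite G
  have hirr := Cfsg.Agent.Lib.Helper4.irr_finite (G := G)
  let _ : Fintype (IrrCharacter G) := Fintype.ofFinite _
  let _ : Fintype (↥(P : Subgroup G) →* ℂˣ) := Fintype.ofFinite _
  obtain ⟨ε, a₂, a₃, Θ, χ₂, χ₃, hε, ha₂, ha₃, hne23, hne2, hne3, hχ₂B, hχ₃B, hΘB, hΘne, hBsub,
    hΘiff, hv2, hv3, hYval, hexp, hdeg⟩ :=
    Cfsg.Agent.Lib.Helper1.bab3_pack hM P hab hP1 hm2 hCN hfrob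
  have hB1 : Cfsg.Agent.Lib.Helper83.trivIrr G ∈ principalBlock M G :=
    Cfsg.Agent.Lib.Helper79.trivIrr_mem_principalBlock hM
  have e1 : ∀ x : G,
      ((Cfsg.Agent.Lib.Helper83.trivIrr G : IrrCharacter G) : G → ℂ) x = 1 := fun _ => rfl
  obtain ⟨Yf, hYf⟩ : ∃ Yf : Finset (IrrCharacter G), Yf =
      (Finset.univ.filter (fun ψ : ↥(P : Subgroup G) →* ℂˣ => ψ ≠ 1)).image Θ := ⟨_, rfl⟩
  obtain ⟨Xf, hXf⟩ : ∃ Xf : Finset (IrrCharacter G), Xf =
      {Cfsg.Agent.Lib.Helper83.trivIrr G, χ₂, χ₃} := ⟨_, rfl⟩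
  have hmemY : ∀ χ, χ ∈ Yf ↔ ∃ ψ : ↥(P : Subgroup G) →* ℂˣ, ψ ≠ 1 ∧ Θ ψ = χ := by
    intro χ
    rw [hYf]
    simp
  have hmemX : ∀ χ, χ ∈ Xf ↔ χ = Cfsg.Agent.Lib.Helper83.trivIrr G ∨ χ = χ₂ ∨ χ = χ₃ := by
    intro χ
    rw [hXf]
    simp
  have hcardY : Yf.card * 3 = Nat.card ↥(P : Subgroup G) - 1 := by
    rw [hYf]
    exact Cfsg.Agent.Lib.Helper1.bab_card_image P hab hfrob 3 hCN Θ hΘiff
  obtain ⟨a, ha⟩ : ∃ a : IrrCharacter G → ℤ,
      a = fun χ => if χ = χ₂ then a₂ else if χ = χ₃ then a₃ else 1 := ⟨_, rfl⟩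
  have ha1 : a (Cfsg.Agent.Lib.Helper83.trivIrr G) = 1 := by
    rw [ha]
    simp only [if_neg hne2.symm, if_neg hne3.symm]
  have haχ₂ : a χ₂ = a₂ := by
    rw [ha]
    simp only [if_true]
  have haχ₃ : a χ₃ = a₃ := by
    rw [ha]
    simp only [if_neg hne23.symm, if_true]
  have hfun2 : (χ₂ : G → ℂ) ≠ (fun _ => 1) := fun h => hne2 (Subtype.ext h)
  have hfun3 : (χ₃ : G → ℂ) ≠ (fun _ => 1) := fun h => hne3 (Subtype.ext h)
  refine ⟨↑Xf, ↑Yf, ?_, ?_, ?_, ?_, ?_, a, ε, Θ, hε, ?_, ?_, ?_, ?_, ?_, ?_⟩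
  · -- B = X ∪ Y
    ext χ
    simp only [Set.mem_union, Finset.mem_coe]
    constructor
    · intro h
      rcases hBsub χ h with h1 | h1 | h1 | h1
      · exact Or.inl ((hmemX χ).mpr (Or.inl h1))
      · exact Or.inl ((hmemX χ).mpr (Or.inr (Or.inl h1)))
      · exact Or.inl ((hmemX χ).mpr (Or.inr (Or.inr h1)))
      · exact Or.inr ((hmemY χ).mpr h1)
    · rintro (h | h)
      · rcases (hmemX χ).mp h with h1 | h1 | h1
        · rw [h1]; exact hB1
        · rw [h1]; exact hχ₂B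
        · rw [h1]; exact hχ₃B
      · obtain ⟨ψ, hψ, rfl⟩ := (hmemY χ).mp h
        exact hΘB ψ hψ
  · rw [Finset.disjoint_coe, Finset.disjoint_left]
    intro χ hX hY
    obtain ⟨ψ, hψ, rfl⟩ := (hmemY χ).mp hY
    rcases (hmemX _).mp hX with h1 | h1 | h1
    · exact (hΘne ψ hψ).1 h1
    · exact (hΘne ψ hψ).2.1 h1
    · exact (hΘne ψ hψ).2.2 h1
  · rw [Nat.card_coe_set_eq, Set.ncard_coe_finset, hXf]
    exact Finset.card_eq_three.mpr ⟨_, _, _, hne2.symm, hne3.symm, hne23, rfl⟩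
  · rw [Nat.card_coe_set_eq, Set.ncard_coe_finset, ← hcardY]
    exact (Nat.mul_div_cancel _ (by norm_num)).symm
  · exact ⟨Cfsg.Agent.Lib.Helper83.trivIrr G, Finset.mem_coe.mpr ((hmemX _).mpr (Or.inl rfl)),
      rfl⟩
  · -- values on X
    intro χ hχ
    rcases (hmemX χ).mp (Finset.mem_coe.mp hχ) with h1 | h1 | h1
    · rw [h1, ha1]
      refine ⟨Or.inl rfl, ?_⟩
      intro z y _ _ _
      rw [e1]
      norm_num
    · rw [h1, haχ₂]
      refine ⟨ha₂, ?_⟩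
      intro z y hz hyP hy1
      rw [Cfsg.Agent.Lib.Helper1.bab_section hM P hab hfrob χ₂ hχ₂B z y hz hyP hy1]
      exact hv2 ⟨y, hyP⟩ (fun h => hy1 (congrArg Subtype.val h))
    · rw [h1, haχ₃]
      refine ⟨ha₃, ?_⟩
      intro z y hz hyP hy1
      rw [Cfsg.Agent.Lib.Helper1.bab_section hM P hab hfrob χ₃ hχ₃B z y hz hyP hy1]
      exact hv3 ⟨y, hyP⟩ (fun h => hy1 (congrArg Subtype.val h))
  · intro ψ hψ
    exact Finset.mem_coe.mpr ((hmemY _).mpr ⟨ψ, hψ, rfl⟩)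
  · intro η hη
    exact (hmemY η).mp (Finset.mem_coe.mp hη)
  · intro ψ ψ' hψ hrel
    have hR : Cfsg.Agent.Lib.Helper1.babRel P ψ ψ' :=
      (Cfsg.Agent.Lib.Helper1.bab_rel_iff P ψ ψ').mp hrel
    have hψ' := Cfsg.Agent.Lib.Helper1.babRel_ne_one P hR hψ
    exact ((hΘiff ψ hψ ψ' hψ').mpr hR).symm
  · intro ψ hψ z y hz hy1
    rw [Cfsg.Agent.Lib.Helper1.bab_section hM P hab hfrob (Θ ψ) (hΘB ψ hψ) z (y : G) hz y.2 hy1]
    exact hYval ψ hψ y (fun h => hy1 (by rw [h]; rfl))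
  · -- the involution relations
    rintro ⟨t, ht, htK⟩
    by_cases hp2 : p = 2
    · exfalso
      subst hp2
      obtain ⟨χ, hχne, -, hχP⟩ :=
        Cfsg.Agent.Lib.Helper1.bab3_two_linear hM P hab hP1 hm2 hCN hfrob
      have ht2 : t * t = 1 := by
        have := pow_orderOf_eq_one t
        rwa [ht, sq] at this
      have hpg : IsPGroup 2 ↥(Subgroup.zpowers t) := by
        rintro ⟨g, hg⟩
        obtain ⟨i, rfl⟩ := Subgroup.mem_zpowers_iff.mp hg
        refine ⟨1, ?_⟩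
        apply Subtype.ext
        show ((t ^ i) ^ 2 ^ 1 : G) = 1
        rw [pow_one, ← zpow_natCast, ← zpow_mul, mul_comm, zpow_mul, zpow_natCast, sq, ht2,
          one_zpow]
      obtain ⟨Q, hQ⟩ := hpg.exists_le_sylow
      obtain ⟨g, hg⟩ := MulAction.exists_smul_eq G P Q
      have htQ : t ∈ (Q : Subgroup G) := hQ (Subgroup.mem_zpowers t)
      rw [← hg, Sylow.coe_subgroup_smul, Subgroup.mem_pointwise_smul_iff_inv_smul_mem,
        MulAut.smul_def, MulAut.conj_inv_apply] at htQ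
      have h1 := hχP _ htQ
      have h2 : (χ : G → ℂ) (g⁻¹ * t * g) = (χ : G → ℂ) t := by
        have := Cfsg.Agent.Lib.Helper4.irr_conj_apply χ t g⁻¹
        rwa [inv_inv] at this
      rw [h2] at h1
      apply hχne
      rw [← Cfsg.Agent.Lib.Helper83.irrKer_eq_top_iff]
      apply htK _ (Cfsg.Agent.Lib.Helper83.irrKer_normal χ)
      rw [Cfsg.Agent.Lib.Helper83.mem_irrKer, h1, hχP 1 (one_mem _)]
    · have hodd := fun (ψ : ↥(P : Subgroup G) →* ℂˣ) (hψ : ψ ≠ 1) =>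
        Cfsg.Agent.Lib.Helper1.bab3_odd hM P hab hCN hp2 ε a₂ a₃ χ₂ χ₃ (Θ ψ) ψ hε ha₂ ha₃ hne2
          hne3 (hΘne ψ hψ).1 (hexp ψ hψ) t ht htK
      constructor
      · obtain ⟨ψ0, hψ0⟩ : ∃ ψ0 : ↥(P : Subgroup G) →* ℂˣ, ψ0 ≠ 1 := by
          by_contra hcon
          push Not at hcon
          have h1 : Nat.card (↥(P : Subgroup G) →* ℂˣ) = 1 := by
            rw [Nat.card_eq_one_iff_unique]
            exact ⟨⟨fun a b => by rw [hcon a, hcon b]⟩, ⟨1⟩⟩
          have := hab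
          rw [Cfsg.Agent.Lib.Helper1.bab_card_hom] at h1
          exact hP1 h1
        have hcount := (hodd ψ0 hψ0).1
        rw [Nat.card_eq_fintype_card, Fintype.card_subtype]
        have hfil : Finset.univ.filter (fun χ : IrrCharacter G => χ ∈ (↑Xf : Set (IrrCharacter G)) ∧
            (χ : G → ℂ) ≠ (fun _ => 1) ∧ a χ = -1) =
            Finset.univ.filter (fun χ : IrrCharacter G =>
              (χ = Cfsg.Agent.Lib.Helper83.trivIrr G ∨ χ = χ₂ ∨ χ = χ₃) ∧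
              ((χ : G → ℂ) ≠ (fun _ => 1) ∧ a χ = -1)) := by
          ext χ
          simp only [Finset.mem_filter, Finset.mem_univ, true_and, Finset.mem_coe, hmemX]
        rw [hfil, card_three_filter _ _ _ hne23 _ (fun h => h.1 rfl)]
        have hc2 : (if ((χ₂ : G → ℂ) ≠ (fun _ => 1) ∧ a χ₂ = -1) then 1 else 0) =
            (if a₂ = -1 then 1 else 0) := by
          rw [haχ₂]
          by_cases h : a₂ = -1
          · rw [if_pos h, if_pos ⟨hfun2, h⟩]
          · rw [if_neg h, if_neg (fun h' => h h'.2)]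
        have hc3 : (if ((χ₃ : G → ℂ) ≠ (fun _ => 1) ∧ a χ₃ = -1) then 1 else 0) =
            (if a₃ = -1 then 1 else 0) := by
          rw [haχ₃]
          by_cases h : a₃ = -1
          · rw [if_pos h, if_pos ⟨hfun3, h⟩]
          · rw [if_neg h, if_neg (fun h' => h h'.2)]
        rw [hc2, hc3]
        exact hcount
      · intro η hη
        obtain ⟨ψ, hψ, rfl⟩ := (hmemY η).mp (Finset.mem_coe.mp hη)
        have hset : {χ : IrrCharacter G | χ ∈ (↑Xf : Set (IrrCharacter G)) ∧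
            (χ : G → ℂ) ≠ fun _ => 1} = ↑({χ₂, χ₃} : Finset (IrrCharacter G)) := by
          ext χ
          simp only [Set.mem_ofPred_eq, Finset.mem_coe, hmemX, Finset.mem_insert,
            Finset.mem_singleton]
          constructor
          · rintro ⟨h1 | h1 | h1, h2⟩
            · exfalso
              apply h2
              rw [h1]
              rfl
            · exact Or.inl h1
            · exact Or.inr h1
          · rintro (h1 | h1)
            · rw [h1]; exact ⟨Or.inr (Or.inl rfl), hfun2⟩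
            · rw [h1]; exact ⟨Or.inr (Or.inr rfl), hfun3⟩
        rw [hset, finprod_mem_coe_finset, Finset.prod_pair hne23]
        exact (hodd ψ hψ).2

end Cfsg.Agent.S4721
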