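import Cfsg.Statements.S4725
import Mathlib
import Cfsg.Agent.Lib.Helper22.IndBlock
import Cfsg.Agent.Lib.Helper4.CharClosure
import Cfsg.Agent.Lib.Helper79.Blk2
import Cfsg.Agent.Lib.Helper82.CharCore

set_option autoImplicit false
open Cfsg
open scoped ComplexConjugate

namespace Cfsg.Agent.S4725

open Cfsg.Agent.Lib.Helper4 Cfsg.Agent.Lib.Helper21 Cfsg.Agent.Lib.Helper22
open Cfsg.Agent.Lib.Helper79 Cfsg.Agent.Lib.Helper82

/-- The value of an induced function at the identity. -/
theorem indFun_one {G : Type*} [Group G] [Fintype G] (H : Subgroup G) (θ : H → ℂ) :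
    indFun H θ 1 = (H.index : ℂ) * θ 1 := by
  classical
  rw [indFun_apply]
  have h1 : ∀ x : G, extendByZero H θ (x⁻¹ * 1 * x) = θ 1 := by
    intro x
    have : x⁻¹ * 1 * x = ((1 : H) : G) := by simp
    rw [this, extendByZero_apply_mem]
  rw [Finset.sum_congr rfl (fun x _ => h1 x), Finset.sum_const, Finset.card_univ, nsmul_eq_mul]
  have h2 : (H.index : ℂ) * (Nat.card H : ℂ) = (Fintype.card G : ℂ) := by
    rw [← Nat.cast_mul, Subgroup.index_mul_card, Nat.card_eq_fintype_card]
  have h3 : (Nat.card H : ℂ) ≠ 0 := by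
    exact_mod_cast (Nat.card_pos (α := H)).ne'
  rw [← h2]
  field_simp

/-- Let p be a prime, M a maximal ideal of the algebraic integers containing p, H a subgroup of the finite group G, and b a p-block of H inducing the p-block B of G, with b and B of the same defect. Then for every height-zero ζ ∈ b there is a height-zero χ ∈ B whose multiplicity in the character induced from ζ is not divisible by p. -/
theorem result {G : Type*} [Group G] [Fintype G] (p : ℕ) [Fact p.Prime] (M : Ideal Cfsg.AlgInt) (hM : Cfsg.IsPModular p M) (H : Subgroup G) (b : Set (Cfsg.IrrCharacter ↥H)) (B : Set (Cfsg.IrrCharacter G)) (hind : Cfsg.IsInducedBlock M H b B) (hdef : Cfsg.blockDefect p b = Cfsg.blockDefect p B) (ζ : Cfsg.IrrCharacter ↥H) (hζ : ζ ∈ b) (hζ0 : Cfsg.blockHeight p b (ζ : ↥H → ℂ) = 0) : ∃ χ ∈ B, Cfsg.blockHeight p B (χ : G → ℂ) = 0 ∧ ∃ a : ℕ, Cfsg.classInner (Cfsg.indFun H (ζ : ↥H → ℂ)) (χ : G → ℂ) = (a : ℂ) ∧ ¬ p ∣ a := by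
  classical
  have hp : p.Prime := Fact.out
  have := irr_finite (G := G)
  have := Fintype.ofFinite (IrrCharacter G)
  have hB : IsPBlock M B := hind.2.1
  obtain ⟨χ₀, hχ₀⟩ := hB
  have hχ₀B : χ₀ ∈ B := by
    rw [hχ₀]
    exact sameBlock_rfl hM _
  have hecf : IsClassFunction G (blockCoeff B) := blockCoeff_isClassFunction B
  have h1 := omega_indFun_sub_locIdeal hM H b B hind ζ hζ χ₀ hχ₀B (blockCoeff B) hecf
    (osima hM B ⟨χ₀, hχ₀⟩)
  rw [omega_blockCoeff B χ₀, if_pos hχ₀B] at h1
  have hchar := isCharacter_indFun H (ζ : H → ℂ) (isCharacter_of_irr ζ)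
  choose a ha using classInner_isCharacter_nat (indFun H (ζ : H → ℂ)) hchar
  by_contra hcon
  push Not at hcon
  have hdiv : ∀ χ ∈ B, blockHeight p B (χ : G → ℂ) = 0 → p ∣ a χ :=
    fun χ hχ h0 => hcon χ hχ h0 (a χ) (ha χ)
  -- the two minimal exponents
  obtain ⟨mB, hmB⟩ : ∃ m, m = sInf ((fun χ : IrrCharacter G =>
      (charDegree (χ : G → ℂ)).factorization p) '' B) := ⟨_, rfl⟩
  obtain ⟨mb, hmb⟩ : ∃ m, m = sInf ((fun χ : IrrCharacter H =>
      (charDegree (χ : H → ℂ)).factorization p) '' b) := ⟨_, rfl⟩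
  have hmB_le : ∀ χ ∈ B, mB ≤ (charDegree (χ : G → ℂ)).factorization p := by
    intro χ hχ
    rw [hmB]
    exact Nat.sInf_le ⟨χ, hχ, rfl⟩
  have hmb_le : ∀ χ ∈ b, mb ≤ (charDegree (χ : H → ℂ)).factorization p := by
    intro χ hχ
    rw [hmb]
    exact Nat.sInf_le ⟨χ, hχ, rfl⟩
  have hht : ∀ χ : IrrCharacter G, blockHeight p B (χ : G → ℂ) =
      (charDegree (χ : G → ℂ)).factorization p - mB := by
    intro χ; rw [hmB]; rfl
  have hζv : (charDegree (ζ : H → ℂ)).factorization p = mb := by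
    have h2 : (charDegree (ζ : H → ℂ)).factorization p - mb = 0 := by
      rw [hmb]; exact hζ0
    have h3 := hmb_le ζ hζ
    omega
  have hdefb : blockDefect p b = (Nat.card H).factorization p - mb := by
    rw [hmb]; rfl
  have hdefB : blockDefect p B = (Nat.card G).factorization p - mB := by
    rw [hmB]; rfl
  have hcardH : (Nat.card H) ≠ 0 := (Nat.card_pos (α := H)).ne'
  have hcardG : (Nat.card G) ≠ 0 := (Nat.card_pos (α := G)).ne'
  have hidx : H.index ≠ 0 := by
    intro h0
    have := Subgroup.index_mul_card H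
    rw [h0, zero_mul] at this
    exact hcardG this.symm
  have hvG : (Nat.card G).factorization p =
      H.index.factorization p + (Nat.card H).factorization p := by
    rw [← Subgroup.index_mul_card H, Nat.factorization_mul hidx hcardH]
    rfl
  have hmb_card : mb ≤ (Nat.card H).factorization p := by
    rw [← hζv]
    exact (Nat.factorization_le_iff_dvd (irr_charDegree ζ).2 hcardH).mpr
      (irr_degree_dvd_card ζ) p
  have hmB_card : mB ≤ (Nat.card G).factorization p := by
    refine le_trans (hmB_le χ₀ hχ₀B) ?_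
    exact (Nat.factorization_le_iff_dvd (irr_charDegree χ₀).2 hcardG).mpr
      (irr_degree_dvd_card χ₀) p
  -- the denominator
  have hDne : H.index * charDegree (ζ : H → ℂ) ≠ 0 :=
    Nat.mul_ne_zero hidx (irr_charDegree ζ).2
  have hDv : (H.index * charDegree (ζ : H → ℂ)).factorization p = mB := by
    rw [Nat.factorization_mul hidx (irr_charDegree ζ).2]
    change H.index.factorization p + (charDegree (ζ : H → ℂ)).factorization p = mB
    rw [hζv]
    rw [hdefb, hdefB] at hdef
    omega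
  -- the numerator
  have hNdvd : p ^ (mB + 1) ∣ ∑ χ ∈ Finset.univ.filter (· ∈ B),
      a χ * charDegree (χ : G → ℂ) := by
    refine Finset.dvd_sum fun χ hχ => ?_
    have hχB : χ ∈ B := (Finset.mem_filter.mp hχ).2
    by_cases h0 : blockHeight p B (χ : G → ℂ) = 0
    · have h2 := hdiv χ hχB h0
      have h3 : p ^ mB ∣ charDegree (χ : G → ℂ) := by
        have h4 := hmB_le χ hχB
        exact (pow_dvd_pow p h4).trans (Nat.ordProj_dvd _ _)
      rw [pow_succ, mul_comm]
      exact mul_dvd_mul h2 h3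
    · rw [hht] at h0
      have h4 : mB + 1 ≤ (charDegree (χ : G → ℂ)).factorization p := by omega
      exact ((pow_dvd_pow p h4).trans (Nat.ordProj_dvd _ _)).mul_left _
  obtain ⟨s, hs⟩ := hNdvd
  obtain ⟨t, ht, hDt⟩ : ∃ t, ¬ p ∣ t ∧ H.index * charDegree (ζ : H → ℂ) = p ^ mB * t := by
    refine ⟨(H.index * charDegree (ζ : H → ℂ)) / p ^ mB, ?_, ?_⟩
    · rw [← hDv]
      exact Nat.not_dvd_ordCompl hp hDne
    · rw [← hDv]
      exact (Nat.ordProj_mul_ordCompl_eq_self _ _).symm
  -- the key identity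
  have hIcf := isClassFunction_indFun H (ζ : H → ℂ)
  have h2 : ∑ g, blockCoeff B g * indFun H (ζ : H → ℂ) g =
      ((∑ χ ∈ Finset.univ.filter (· ∈ B), a χ * charDegree (χ : G → ℂ) : ℕ) : ℂ) := by
    rw [sum_mul_expansion _ _ hIcf, Nat.cast_sum, Finset.sum_filter]
    refine Finset.sum_congr rfl fun χ _ => ?_
    rw [omega_blockCoeff]
    by_cases hχ : χ ∈ B
    · rw [if_pos hχ, if_pos hχ, ha χ, one_mul, Nat.cast_mul, (irr_charDegree χ).1]
    · rw [if_neg hχ, if_neg hχ, zero_mul, mul_zero]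
  have h3 : omega (indFun H (ζ : H → ℂ)) (blockCoeff B) = (p : ℂ) * ((s : ℂ) * (t : ℂ)⁻¹) := by
    rw [omega_def, h2, hs, indFun_one, ← (irr_charDegree ζ).1, ← Nat.cast_mul, hDt]
    have htne : (t : ℂ) ≠ 0 := by
      intro h0
      have : t = 0 := by exact_mod_cast h0
      exact ht (this ▸ dvd_zero p)
    have hpne : (p : ℂ) ≠ 0 := by exact_mod_cast hp.ne_zero
    push_cast
    field_simp
    ring
  have h4 : MemLocalIdeal M (omega (indFun H (ζ : H → ℂ)) (blockCoeff B)) := by
    rw [h3]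
    refine locIdeal_mul_right hM ((locIdeal_natCast_iff hM p).mpr dvd_rfl) ?_
    exact locRing_mul hM (locRing_natCast hM s) (locRing_inv_natCast hM ht)
  have h5 := locIdeal_sub hM h4 h1
  rw [sub_sub_cancel] at h5
  exact locIdeal_one_not hM h5

end Cfsg.Agent.S4725
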