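import Cfsg.Statements.S4726
import Mathlib
import Cfsg.Agent.Lib.Helper22.IndCent

set_option autoImplicit false
open Cfsg

namespace Cfsg.Agent.S4726

/-- Let p be a prime, M a maximal ideal of the algebraic integers containing p, H a subgroup of the finite group G and b a p-block of H with defect group D₀ such that C_G(D₀) ≤ H. Then b induces a block of G, and for every block B of G induced by b there is a defect group D of B with Z(D) ≤ Z(D₀) ≤ D₀ ≤ D (as subgroups of G). In particular, if the defect groups of B are abelian then D₀ is a defect group of B. -/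
theorem result {G : Type*} [Group G] [Finite G] (p : ℕ) [Fact p.Prime] (M : Ideal Cfsg.AlgInt) (hM : Cfsg.IsPModular p M) (H : Subgroup G) (b : Set (Cfsg.IrrCharacter ↥H)) (hb : Cfsg.IsPBlock M b) (D₀ : Subgroup ↥H) (hD₀ : Cfsg.IsDefectGroup p M b D₀) (hC : Subgroup.centralizer ((D₀.map H.subtype : Subgroup G) : Set G) ≤ H) : Cfsg.InducedBlockDefined M H b ∧ ∀ B : Set (Cfsg.IrrCharacter G), Cfsg.IsInducedBlock M H b B → (∃ D : Subgroup G, Cfsg.IsDefectGroup p M B D ∧ (Subgroup.center ↥D).map D.subtype ≤ ((Subgroup.center ↥D₀).map D₀.subtype).map H.subtype ∧ ((Subgroup.center ↥D₀).map D₀.subtype).map H.subtype ≤ D₀.map H.subtype ∧ D₀.map H.subtype ≤ D) ∧ (∀ D : Subgroup G, Cfsg.IsDefectGroup p M B D → IsMulCommutative ↥D → Cfsg.IsDefectGroup p M B (D₀.map H.subtype)) := by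
  classical
  letI : Fintype G := Fintype.ofFinite G
  obtain ⟨h1, h2⟩ := Cfsg.Agent.Lib.Helper22.exists_defectGroup_of_induced hM H b hb D₀ hD₀ hC
  refine ⟨h1, fun B hB => ?_⟩
  obtain ⟨P, hP, hDP, hcent⟩ := h2 B hB
  have hPD : ∀ y ∈ P, (∀ z ∈ P, z * y = y * z) → y ∈ D₀.map H.subtype := by
    intro y hy hyz
    refine hcent y hy ?_
    rw [Subgroup.mem_centralizer_iff]
    intro d hd
    exact hyz d (hDP hd)
  constructor
  · refine ⟨P, hP, ?_, ?_, hDP⟩
    · rintro _ ⟨⟨y, hy⟩, hyc, rfl⟩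
      have hyc' : ∀ z ∈ P, z * y = y * z := by
        intro z hz
        have h3 := Subgroup.mem_center_iff.mp hyc ⟨z, hz⟩
        exact congrArg Subtype.val h3
      obtain ⟨d, hd, hdy⟩ := hPD y hy hyc'
      refine ⟨d, ⟨⟨d, hd⟩, ?_, rfl⟩, hdy⟩
      rw [SetLike.mem_coe, Subgroup.mem_center_iff]
      intro d'
      apply Subtype.ext
      apply Subtype.ext
      have h4 := hyc' ((d' : H) : G) (hDP ⟨d', d'.2, rfl⟩)
      have h5 : (d : G) = y := hdy
      rw [← h5] at h4
      exact h4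
    · exact Subgroup.map_mono (Subgroup.map_subtype_le _)
  · intro D hD hcomm
    obtain ⟨x, hx⟩ := Cfsg.Agent.Lib.Helper81.defectGroup_conj hM B hB.2.1 D P hD hP
    have hPcomm : ∀ y ∈ P, ∀ z ∈ P, z * y = y * z := by
      intro y hy z hz
      rw [← hx] at hy hz
      obtain ⟨y', hy', rfl⟩ := hy
      obtain ⟨z', hz', rfl⟩ := hz
      have h3 := hcomm.is_comm.comm (⟨z', hz'⟩ : D) ⟨y', hy'⟩
      have h4 : z' * y' = y' * z' := congrArg Subtype.val h3
      show x * z' * x⁻¹ * (x * y' * x⁻¹) = x * y' * x⁻¹ * (x * z' * x⁻¹)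
      calc x * z' * x⁻¹ * (x * y' * x⁻¹) = x * (z' * y') * x⁻¹ := by group
        _ = x * (y' * z') * x⁻¹ := by rw [h4]
        _ = x * y' * x⁻¹ * (x * z' * x⁻¹) := by group
    have hPle : P ≤ D₀.map H.subtype := fun y hy => hPD y hy (hPcomm y hy)
    have hEq : D₀.map H.subtype = P := le_antisymm hDP hPle
    rw [hEq]
    exact hP

end Cfsg.Agent.S4726
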