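import Cfsg.Statements.S4734
import Mathlib
import Cfsg.Agent.Lib.Helper22.BlockKer2

set_option autoImplicit false
open Cfsg

namespace Cfsg.Agent.S4734

/-- Let p be a prime, π a set of primes containing p, M a maximal ideal of the algebraic integers containing p, B a p-block of the finite group G with defect group D, and B₁ the block of N_G(D) with defect group D inducing B. Write O_π'(X) for the largest normal subgroup of X whose order has no prime divisor in π, and suppose every element of O_π'(N_G(D)) lies in the kernel of every member of B₁. Let G₀ be a subgroup and B₀ a block of G₀ with defect group D₀ such that C_G(D₀) ≤ G₀ and B₀ induces B. Then every element of O_π'(G₀) lies in the kernel of every member of B₀. -/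
theorem result {G : Type*} [Group G] [Finite G] (p : ℕ) [Fact p.Prime] (M : Ideal Cfsg.AlgInt) (hM : Cfsg.IsPModular p M) (π : Set ℕ) (hpπ : p ∈ π) (B : Set (Cfsg.IrrCharacter G)) (hB : Cfsg.IsPBlock M B) (D : Subgroup G) (hBD : Cfsg.IsDefectGroup p M B D) (B₁ : Set (Cfsg.IrrCharacter ↥(Subgroup.normalizer (D : Set G)))) (hB₁ : Cfsg.IsInducedBlock M (Subgroup.normalizer (D : Set G)) B₁ B) (hB₁D : Cfsg.IsDefectGroup p M B₁ (D.subgroupOf (Subgroup.normalizer (D : Set G)))) (hker : ∀ n : ↥(Subgroup.normalizer (D : Set G)), n ∈ Cfsg.piCore {q | q ∉ π} ↥(Subgroup.normalizer (D : Set G)) → n ∈ Cfsg.blockKer B₁) (G₀ : Subgroup G) (B₀ : Set (Cfsg.IrrCharacter ↥G₀)) (hB₀ : Cfsg.IsInducedBlock M G₀ B₀ B) (D₀ : Subgroup ↥G₀) (hD₀ : Cfsg.IsDefectGroup p M B₀ D₀) (hC : Subgroup.centralizer ((D₀.map G₀.subtype : Subgroup G) : Set G) ≤ G₀) : ∀ x : ↥G₀, x ∈ Cfsg.piCore {q | q ∉ π} ↥G₀ → x ∈ Cfsg.blockKer B₀ := by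
  classical
  letI : Fintype G := Fintype.ofFinite G
  have hE : (D.subgroupOf (Subgroup.normalizer (D : Set G))).map
      (Subgroup.normalizer (D : Set G)).subtype = D :=
    Subgroup.map_subgroupOf_eq_of_le Subgroup.le_normalizer
  have hC₁ : Subgroup.centralizer (((D.subgroupOf (Subgroup.normalizer (D : Set G))).map
      (Subgroup.normalizer (D : Set G)).subtype : Subgroup G) : Set G) ≤
      Subgroup.normalizer (D : Set G) := by
    rw [hE]; exact Subgroup.centralizer_le_normalizer (D : Set G)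
  have hHN : Subgroup.normalizer (D : Set G) ≤ Subgroup.normalizer
      (((D.subgroupOf (Subgroup.normalizer (D : Set G))).map
      (Subgroup.normalizer (D : Set G)).subtype : Subgroup G) : Set G) := by
    rw [hE]
  have hBD' : Cfsg.IsDefectGroup p M B ((D.subgroupOf (Subgroup.normalizer (D : Set G))).map
      (Subgroup.normalizer (D : Set G)).subtype) := by
    rw [hE]; exact hBD
  obtain ⟨f₁, hmax₁, hmaxB⟩ := Cfsg.Agent.Lib.Helper22.top_pair hM B _ B₁ hB₁ _ hB₁D hC₁ hBD'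
  letI : Fintype (Subgroup.normalizer (D : Set G)) := Fintype.ofFinite _
  have hind₁ := (Cfsg.Agent.Lib.Helper81.isBrauerPairOf_iff_isInducedBlock hM _ hmax₁.1.1.1 f₁
    B₁).mp hmax₁.1
  have hKDtop := Cfsg.Agent.Lib.Helper22.kd_top hM π hpπ _ B₁ _ hC₁ hHN f₁ hind₁ hker
  letI : Fintype G₀ := Fintype.ofFinite _
  obtain ⟨f₀, hmax₀⟩ := Cfsg.Agent.Lib.Helper22.exists_maximalBrauerPair_at hM B₀ hB₀.1 D₀ hD₀
  have hind₀ := (Cfsg.Agent.Lib.Helper81.isBrauerPairOf_iff_isInducedBlock hM D₀ hmax₀.1.1.1 f₀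
    B₀).mp hmax₀.1
  have hpairB := Cfsg.Agent.Lib.Helper22.isBrauerPairOf_centMap hM G₀ B₀ B hB₀ D₀ hC f₀ hmax₀.1
  obtain ⟨x, hx⟩ := Cfsg.Agent.Lib.Helper81.exists_conj_subpairLE_maximal hM B _ _ _ _ hmaxB
    hpairB
  have hKDx := Cfsg.Agent.Lib.Helper22.kd_of_le hM π hpπ ⟨_, _⟩ ⟨_, _⟩ hx hKDtop
  have hKD := Cfsg.Agent.Lib.Helper22.kd_of_conj π _ x _ hKDx
  exact Cfsg.Agent.Lib.Helper22.ker_bottom_of_kd hM π hpπ G₀ B₀ D₀ hC f₀ hind₀ hKD

end Cfsg.Agent.S4734
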