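import Cfsg.Statements.S4727
import Mathlib
import Cfsg.Agent.Lib.Helper22.BlockKer2
import Cfsg.Agent.Lib.Helper22.BlockPart
import Cfsg.Agent.Lib.Helper81.BrNorm
import Cfsg.Agent.Lib.Helper81.BrNormal
import Cfsg.Agent.S4734
import Cfsg.Agent.S0923

set_option autoImplicit false
open Cfsg

namespace Cfsg.Agent.S4727

/-- Let p be a prime, π a set of primes containing p, M a maximal ideal of the algebraic integers containing p, and B a p-block of the finite group G with defect group D; let B₁ be the block of N_G(D) with defect group D that induces B (the Brauer correspondent of B). Suppose every element of O_π'(N_G(D)), the largest normal subgroup of N_G(D) whose order has no prime divisor in π, lies in the kernel of every member of B₁. If y is a p-element whose centralizer C has a normal Hall π'-subgroup (every element of C whose order has no prime divisor in π lies in O_π'(C)), then χ(y x) = χ(y) for every χ ∈ B and every x ∈ C whose order has no prime divisor in π. -/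
theorem result {G : Type*} [Group G] [Finite G] (p : ℕ) [Fact p.Prime] (M : Ideal Cfsg.AlgInt) (hM : Cfsg.IsPModular p M) (π : Set ℕ) (hpπ : p ∈ π) (B : Set (Cfsg.IrrCharacter G)) (hB : Cfsg.IsPBlock M B) (D : Subgroup G) (hBD : Cfsg.IsDefectGroup p M B D) (B₁ : Set (Cfsg.IrrCharacter ↥(Subgroup.normalizer (D : Set G)))) (hB₁ : Cfsg.IsInducedBlock M (Subgroup.normalizer (D : Set G)) B₁ B) (hB₁D : Cfsg.IsDefectGroup p M B₁ (D.subgroupOf (Subgroup.normalizer (D : Set G)))) (hker : ∀ n : ↥(Subgroup.normalizer (D : Set G)), n ∈ Cfsg.piCore {q | q ∉ π} ↥(Subgroup.normalizer (D : Set G)) → n ∈ Cfsg.blockKer B₁) (y : G) (hy : ∃ k : ℕ, orderOf y = p ^ k) (hC : ∀ x : ↥(Subgroup.centralizer ({y} : Set G)), (∀ q : ℕ, q.Prime → q ∣ orderOf x → q ∉ π) → x ∈ Cfsg.piCore {q | q ∉ π} ↥(Subgroup.centralizer ({y} : Set G))) : ∀ χ ∈ B, ∀ x : G, x ∈ Subgroup.centralizer ({y} : Set G) → (∀ q : ℕ, q.Prime → q ∣ orderOf x → q ∉ π) → (χ : G → ℂ) (y * x) = (χ : G → ℂ) y := by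
  classical
  letI : Fintype G := Fintype.ofFinite G
  have hp : p.Prime := Fact.out
  intro χ hχ x hx hxπ
  letI : Fintype (Subgroup.centralizer ({y} : Set G)) := Fintype.ofFinite _
  haveI := Cfsg.Agent.Lib.Helper4.irr_finite (G := Subgroup.centralizer ({y} : Set G))
  letI : Fintype (Cfsg.IrrCharacter (Subgroup.centralizer ({y} : Set G))) := Fintype.ofFinite _
  have hyC : y ∈ Subgroup.centralizer ({y} : Set G) := by
    rw [Subgroup.mem_centralizer_iff]
    intro h hh
    rw [Set.mem_singleton_iff.mp hh]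
  set ϑ : Subgroup.centralizer ({y} : Set G) → ℂ := fun c => (χ : G → ℂ) (y * (c : G)) with hϑ
  have hϑcf : Cfsg.IsClassFunction (Subgroup.centralizer ({y} : Set G)) ϑ := by
    intro g k
    show (χ : G → ℂ) (y * ((k * g * k⁻¹ : Subgroup.centralizer ({y} : Set G)) : G)) =
      (χ : G → ℂ) (y * (g : G))
    have hk : y * (k : G) = (k : G) * y :=
      Subgroup.mem_centralizer_iff.mp k.2 y (Set.mem_singleton y)
    have e : y * ((k * g * k⁻¹ : Subgroup.centralizer ({y} : Set G)) : G) =
        (k : G) * (y * (g : G)) * (k : G)⁻¹ := by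
      simp only [Subgroup.coe_mul, Subgroup.coe_inv]
      rw [← mul_assoc, ← mul_assoc, hk, mul_assoc (k : G) y]
    rw [e]
    exact Cfsg.Agent.Lib.Helper4.isClassFunction_irr χ _ _
  -- expansion of ϑ through the block idempotents
  have hexp : ∀ c : Subgroup.centralizer ({y} : Set G), ϑ c =
      ∑ f : Set (Cfsg.IrrCharacter (Subgroup.centralizer ({y} : Set G))),
        (if Cfsg.IsPBlock M f then Cfsg.blockPart f ϑ c else 0) := by
    intro c
    have h1 : ∀ f : Set (Cfsg.IrrCharacter (Subgroup.centralizer ({y} : Set G))),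
        Cfsg.blockPart f ϑ c = ∑ k : Subgroup.centralizer ({y} : Set G),
          Cfsg.blockCoeff f k * ϑ (k * c) := by
      intro f
      rw [Cfsg.Agent.Lib.Helper22.blockPart_eq_sum f ϑ hϑcf c]
    have h2 : ϑ c = ∑ k : Subgroup.centralizer ({y} : Set G),
        (if k = 1 then (1 : ℂ) else 0) * ϑ (k * c) := by
      simp [ite_mul]
    rw [h2]
    have h3 : ∀ k : Subgroup.centralizer ({y} : Set G), (if k = 1 then (1 : ℂ) else 0) =
        ∑ f : Set (Cfsg.IrrCharacter (Subgroup.centralizer ({y} : Set G))),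
          (if Cfsg.IsPBlock M f then Cfsg.blockCoeff f k else 0) :=
      fun k => by
        rw [Cfsg.Agent.Lib.Helper81.sum_blocks_blockCoeff hM k]
        congr 1
    rw [Finset.sum_congr rfl (fun k _ => by rw [h3 k, Finset.sum_mul])]
    rw [Finset.sum_comm]
    refine Finset.sum_congr rfl fun f _ => ?_
    by_cases hf : Cfsg.IsPBlock M f
    · simp only [if_pos hf]
      rw [h1 f]
    · simp only [if_neg hf, zero_mul, Finset.sum_const_zero]
  have hxreg : ¬ p ∣ orderOf (⟨x, hx⟩ : Subgroup.centralizer ({y} : Set G)) := by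
    intro hdvd
    rw [Subgroup.orderOf_mk] at hdvd
    exact hxπ p hp hdvd hpπ
  have h1reg : ¬ p ∣ orderOf (1 : Subgroup.centralizer ({y} : Set G)) := by
    rw [orderOf_one]
    exact hp.one_lt.ne' ∘ Nat.dvd_one.mp
  have hxcore : (⟨x, hx⟩ : Subgroup.centralizer ({y} : Set G)) ∈
      Cfsg.piCore {q | q ∉ π} (Subgroup.centralizer ({y} : Set G)) :=
    hC ⟨x, hx⟩ (fun q hq hdvd => hxπ q hq (by rwa [Subgroup.orderOf_mk] at hdvd))
  have hterm : ∀ f : Set (Cfsg.IrrCharacter (Subgroup.centralizer ({y} : Set G))),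
      Cfsg.IsPBlock M f → Cfsg.blockPart f ϑ ⟨x, hx⟩ = Cfsg.blockPart f ϑ 1 := by
    intro f hf
    by_cases hind : Cfsg.IsInducedBlock M (Subgroup.centralizer ({y} : Set G)) f B
    · obtain ⟨P, u, hmax⟩ := Cfsg.Agent.Lib.Helper81.exists_maximalBrauerPair hM f hf
      have hP := Cfsg.Agent.Lib.Helper81.isDefectGroup_of_maximal hM f P u hmax
      -- the central p-subgroup generated by y
      haveI hNn : (Subgroup.zpowers (⟨y, hyC⟩ : Subgroup.centralizer ({y} : Set G))).Normal := by
        constructor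
        intro n hn g
        obtain ⟨k, rfl⟩ := Subgroup.mem_zpowers_iff.mp hn
        have hg : g * (⟨y, hyC⟩ : Subgroup.centralizer ({y} : Set G)) =
            (⟨y, hyC⟩ : Subgroup.centralizer ({y} : Set G)) * g := by
          apply Subtype.ext
          exact (Subgroup.mem_centralizer_iff.mp g.2 y (Set.mem_singleton y)).symm
        have hcomm : Commute g ((⟨y, hyC⟩ : Subgroup.centralizer ({y} : Set G)) ^ k) :=
          (show Commute g (⟨y, hyC⟩ : Subgroup.centralizer ({y} : Set G)) from hg).zpow_right k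
        rw [hcomm.eq, mul_inv_cancel_right]
        exact Subgroup.zpow_mem_zpowers _ k
      have hNp : IsPGroup p (Subgroup.zpowers (⟨y, hyC⟩ : Subgroup.centralizer ({y} : Set G))) := by
        obtain ⟨k, hk⟩ := hy
        refine IsPGroup.of_card (n := k) ?_
        rw [Nat.card_zpowers, Subgroup.orderOf_mk, hk]
      have hNP := Cfsg.Agent.Lib.Helper81.normal_le_defectGroup hM _ hNp f hf P hP
      have hyP : y ∈ P.map (Subgroup.centralizer ({y} : Set G)).subtype :=
        ⟨⟨y, hyC⟩, hNP (Subgroup.mem_zpowers _), rfl⟩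
      have hC' : Subgroup.centralizer ((P.map (Subgroup.centralizer ({y} : Set G)).subtype :
          Subgroup G) : Set G) ≤ Subgroup.centralizer ({y} : Set G) :=
        Subgroup.centralizer_le (Set.singleton_subset_iff.mpr hyP)
      have hkerf := Cfsg.Agent.S4734.result p M hM π hpπ B hB D hBD B₁ hB₁ hB₁D hker
        (Subgroup.centralizer ({y} : Set G)) f hind P hP hC' ⟨x, hx⟩ hxcore
      unfold Cfsg.blockPart
      refine finsum_mem_congr rfl fun ξ hξ => ?_
      rw [hkerf ξ hξ]
    · rw [Cfsg.Agent.S0923.result p M hM y hy B hB χ hχ f hf hind ⟨x, hx⟩ hxreg,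
        Cfsg.Agent.S0923.result p M hM y hy B hB χ hχ f hf hind 1 h1reg]
  have e1 := hexp ⟨x, hx⟩
  have e2 := hexp 1
  have e3 : ϑ ⟨x, hx⟩ = ϑ 1 := by
    rw [e1, e2]
    refine Finset.sum_congr rfl fun f _ => ?_
    by_cases hf : Cfsg.IsPBlock M f
    · rw [if_pos hf, if_pos hf, hterm f hf]
    · rw [if_neg hf, if_neg hf]
  have e4 : ϑ 1 = (χ : G → ℂ) y := by
    show (χ : G → ℂ) (y * ((1 : Subgroup.centralizer ({y} : Set G)) : G)) = _
    rw [Subgroup.coe_one, mul_one]
  rw [← e4, ← e3]

end Cfsg.Agent.S4727
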