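import Cfsg.Statements.S4728
import Mathlib
import Cfsg.Agent.Lib.Helper22.BlockKer2
import Cfsg.Agent.Lib.Helper81.BrNorm
import Cfsg.Agent.S4655

set_option autoImplicit false
open Cfsg

namespace Cfsg.Agent.S4728

/-- Let p be a prime, π a set of primes containing p, M a maximal ideal of the algebraic integers containing p, B a p-block of the finite group G with defect group D, and B₁ the block of N_G(D) with defect group D inducing B. Let D₀ be a p-subgroup, H₀ = D₀·C_G(D₀), and b a block of H₀ inducing B. Write O_π'(X) for the largest normal subgroup of X whose order has no prime divisor in π. Suppose that O_π'(C_G(D₀)) is a normal Hall π'-subgroup of C_G(D₀) (it contains every element of C_G(D₀) whose order has no prime divisor in π) and that every element of it lies in the kernel of every member of b. Then every element of O_π'(N_G(D)) lies in the kernel of every member of B₁. -/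
theorem result {G : Type*} [Group G] [Finite G] (p : ℕ) [Fact p.Prime] (M : Ideal Cfsg.AlgInt) (hM : Cfsg.IsPModular p M) (π : Set ℕ) (hpπ : p ∈ π) (B : Set (Cfsg.IrrCharacter G)) (hB : Cfsg.IsPBlock M B) (D : Subgroup G) (hBD : Cfsg.IsDefectGroup p M B D) (B₁ : Set (Cfsg.IrrCharacter ↥(Subgroup.normalizer (D : Set G)))) (hB₁ : Cfsg.IsInducedBlock M (Subgroup.normalizer (D : Set G)) B₁ B) (hB₁D : Cfsg.IsDefectGroup p M B₁ (D.subgroupOf (Subgroup.normalizer (D : Set G)))) (D₀ : Subgroup G) (hD₀ : IsPGroup p D₀) (H₀ : Subgroup G) (hH₀ : H₀ = D₀ ⊔ Subgroup.centralizer (D₀ : Set G)) (b : Set (Cfsg.IrrCharacter ↥H₀)) (hb : Cfsg.IsInducedBlock M H₀ b B) (hcompl : ∀ x : ↥(Subgroup.centralizer (D₀ : Set G)), (∀ q : ℕ, q.Prime → q ∣ orderOf x → q ∉ π) → x ∈ Cfsg.piCore {q | q ∉ π} ↥(Subgroup.centralizer (D₀ : Set G))) (hkerb : ∀ x : ↥(Subgroup.centralizer (D₀ : Set G)), x ∈ Cfsg.piCore {q | q ∉ π} ↥(Subgroup.centralizer (D₀ : Set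 G)) → ∀ θ ∈ b, ∀ h : ↥H₀, (h : G) = (x : G) → (θ : ↥H₀ → ℂ) h = (θ : ↥H₀ → ℂ) 1) : ∀ n : ↥(Subgroup.normalizer (D : Set G)), n ∈ Cfsg.piCore {q | q ∉ π} ↥(Subgroup.normalizer (D : Set G)) → n ∈ Cfsg.blockKer B₁ := by
  classical
  letI : Fintype G := Fintype.ofFinite G
  have hD₀H : D₀ ≤ H₀ := le_sup_left.trans (le_of_eq hH₀.symm)
  obtain ⟨D₀', hE₀⟩ : ∃ D₀' : Subgroup H₀, D₀'.map H₀.subtype = D₀ :=
    ⟨D₀.subgroupOf H₀, Subgroup.map_subgroupOf_eq_of_le hD₀H⟩
  subst hE₀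
  have hC₀ : Subgroup.centralizer ((D₀'.map H₀.subtype : Subgroup G) : Set G) ≤ H₀ :=
    le_sup_right.trans (le_of_eq hH₀.symm)
  have hHN₀ : H₀ ≤ Subgroup.normalizer ((D₀'.map H₀.subtype : Subgroup G) : Set G) :=
    (le_of_eq hH₀).trans (sup_le Subgroup.le_normalizer (Subgroup.centralizer_le_normalizer _))
  have hcm : (D₀'.map H₀.subtype).subgroupOf H₀ = D₀' :=
    Subgroup.comap_map_eq_self_of_injective H₀.subtype_injective D₀'
  haveI hD₀'n : D₀'.Normal := by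
    rw [← hcm]
    exact (Subgroup.normal_subgroupOf_iff_le_normalizer (Subgroup.map_subtype_le D₀')).mpr hHN₀
  have hD₀'p : IsPGroup p D₀' := by
    rw [← hcm]
    exact hD₀.comap_of_injective H₀.subtype H₀.subtype_injective
  letI : Fintype H₀ := Fintype.ofFinite _
  obtain ⟨P, u, hmax⟩ := Cfsg.Agent.Lib.Helper81.exists_maximalBrauerPair hM b hb.1
  have hP := Cfsg.Agent.Lib.Helper81.isDefectGroup_of_maximal hM b P u hmax
  have hD₀'P : D₀' ≤ P := Cfsg.Agent.Lib.Helper81.normal_le_defectGroup hM D₀' hD₀'p b hb.1 P hP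
  obtain ⟨f', ⟨hf', hle'⟩, -⟩ := Cfsg.Agent.S4655.result p M hM P D₀' u hmax.1.1 hD₀'P
  have hpair' := (Cfsg.Agent.Lib.Helper81.brauerPairOf_iff_of_subpairLE hM D₀' P f' u hle' b
    hb.1).mp hmax.1
  have hind' := (Cfsg.Agent.Lib.Helper81.isBrauerPairOf_iff_isInducedBlock hM D₀' hD₀'p f'
    b).mp hpair'
  have hpairB := Cfsg.Agent.Lib.Helper22.isBrauerPairOf_centMap hM H₀ b B hb D₀' hC₀ f' hpair'
  have hHall : Cfsg.Agent.Lib.Helper22.HallC π (D₀'.map H₀.subtype) := by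
    intro c hc hcπ
    have h1 := hcompl ⟨c, hc⟩ (by
      intro q hq hdvd
      rw [Subgroup.orderOf_mk] at hdvd
      exact hcπ q hq hdvd)
    exact ⟨⟨c, hc⟩, h1, rfl⟩
  have hKU := Cfsg.Agent.Lib.Helper22.ku_bottom hM π hpπ H₀ b D₀' hC₀ hHN₀ f' hind' hHall (by
    intro θ hθ h hh
    obtain ⟨x', hx', hx'eq⟩ := hh
    exact hkerb x' hx' θ hθ h hx'eq.symm)
  obtain ⟨P₁, e₁, hmax₁, hle₁⟩ := Cfsg.Agent.Lib.Helper81.exists_maximal_above B _ _ hpairB
  have hKU₁ := (Cfsg.Agent.Lib.Helper22.ku_of_le hM π hpπ ⟨_, _⟩ ⟨_, _⟩ hle₁ hKU hHall).1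
  have hE : (D.subgroupOf (Subgroup.normalizer (D : Set G))).map
      (Subgroup.normalizer (D : Set G)).subtype = D :=
    Subgroup.map_subgroupOf_eq_of_le Subgroup.le_normalizer
  have hC₁ : Subgroup.centralizer (((D.subgroupOf (Subgroup.normalizer (D : Set G))).map
      (Subgroup.normalizer (D : Set G)).subtype : Subgroup G) : Set G) ≤
      Subgroup.normalizer (D : Set G) := by
    rw [hE]; exact Subgroup.centralizer_le_normalizer (D : Set G)
  have hBD' : Cfsg.IsDefectGroup p M B ((D.subgroupOf (Subgroup.normalizer (D : Set G))).map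
      (Subgroup.normalizer (D : Set G)).subtype) := by
    rw [hE]; exact hBD
  obtain ⟨f₁, hmaxN, hmaxB⟩ := Cfsg.Agent.Lib.Helper22.top_pair hM B _ B₁ hB₁ _ hB₁D hC₁ hBD'
  letI : Fintype (Subgroup.normalizer (D : Set G)) := Fintype.ofFinite _
  have hind₁ := (Cfsg.Agent.Lib.Helper81.isBrauerPairOf_iff_isInducedBlock hM _ hmaxN.1.1.1 f₁
    B₁).mp hmaxN.1
  obtain ⟨x, hx⟩ := Cfsg.Agent.Lib.Helper81.exists_conj_subpairLE_maximal hM B P₁ _ e₁ _ hmax₁
    hmaxB.1
  have hP₁ := Cfsg.Agent.Lib.Helper81.isDefectGroup_of_maximal hM B P₁ e₁ hmax₁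
  have hcard : Nat.card P₁ ≤ Nat.card ((((D.subgroupOf (Subgroup.normalizer (D : Set G))).map
      (Subgroup.normalizer (D : Set G)).subtype).map (MulAut.conj x).toMonoidHom : Subgroup G)) := by
    rw [Cfsg.Agent.Lib.Helper22.card_conj_map]
    exact Cfsg.Agent.Lib.Helper22.card_defectGroup_le hM B hB _ P₁ hBD' hP₁
  have hle := Cfsg.Agent.Lib.Helper81.reflTransGen_le _ _ hx
  have hEq := Subgroup.eq_of_le_of_card_ge hle hcard
  have heq := Cfsg.Agent.Lib.Helper81.reflTransGen_eq_of_fst_eq hM _ _ hx hEq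
  have key : ∀ c : Cfsg.BrauerPairIdx G, c = ⟨P₁, e₁⟩ →
      Cfsg.Agent.Lib.Helper22.KU1 π c.1 c.2 := by
    rintro _ rfl
    exact hKU₁
  have hKUx := key _ heq
  have hKUtop := Cfsg.Agent.Lib.Helper22.ku_of_conj π _ x _ hKUx
  exact Cfsg.Agent.Lib.Helper22.ker_top_of_ku hM π hpπ _ B₁ _ hC₁ f₁ hind₁ hKUtop

end Cfsg.Agent.S4728
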