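import Mathlib
import Cfsg.Statements.S4730
import Cfsg.Agent.Lib.Helper82.Vanish

set_option autoImplicit false
open Cfsg

namespace Cfsg.Agent.S4730

open Cfsg.Agent.Lib.Helper82 in
/-- Let p be a prime, M a maximal ideal of the algebraic integers containing p, and G a finite group with trivial centre, Sylow p-subgroup P of order p^a and centre Z(P) of order p^b. If χ is a faithful irreducible character of G whose degree is a power of p, then the p-block of χ has defect at most a − b; in particular, if P is abelian then χ lies in a block of defect zero. -/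
theorem result {G : Type*} [Group G] [Finite G] (p : ℕ) [Fact p.Prime] (M : Ideal Cfsg.AlgInt) (hM : Cfsg.IsPModular p M) (hZ : Subgroup.center G = ⊥) (P : Sylow p G) (a b : ℕ) (ha : Nat.card P = p ^ a) (hb : Nat.card (Subgroup.center ↥(P : Subgroup G)) = p ^ b) (χ : Cfsg.IrrCharacter G) (hfaith : ∀ g : G, (χ : G → ℂ) g = (χ : G → ℂ) 1 → g = 1) (n : ℕ) (hdeg : Cfsg.charDegree (χ : G → ℂ) = p ^ n) : Cfsg.blockDefect p (Cfsg.blockOf M (χ : G → ℂ)) ≤ a - b ∧ (IsMulCommutative ↥(P : Subgroup G) → Cfsg.blockDefect p (Cfsg.blockOf M (χ : G → ℂ)) = 0) := by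
  classical
  have hp : p.Prime := Fact.out
  cases nonempty_fintype G
  have hmax := hM.2.1
  -- the centre of `P` inside `G`
  set Z : Subgroup G := (Subgroup.center (P : Subgroup G)).map (P : Subgroup G).subtype with hZdef
  have hZcard : Nat.card Z = p ^ b := by
    rw [hZdef, Subgroup.card_map_of_injective (Subgroup.subtype_injective _)]
    exact hb
  have hZP : ∀ z ∈ Z, ∀ u ∈ (P : Subgroup G), u * z = z * u := by
    rintro _ ⟨x, hx, rfl⟩ u hu
    have := Subgroup.mem_center_iff.mp hx ⟨u, hu⟩
    exact congrArg Subtype.val this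
  have hidx : ∀ z ∈ Z, ¬ p ∣ (Subgroup.centralizer ({z} : Set G)).index := by
    intro z hz hdvd
    have hle : (P : Subgroup G) ≤ Subgroup.centralizer ({z} : Set G) := by
      intro u hu
      rw [Subgroup.mem_centralizer_iff]
      intro h hh
      rw [Set.mem_singleton_iff] at hh
      subst hh
      exact (hZP h hz u hu).symm
    have h1 : (Subgroup.centralizer ({z} : Set G)).index ∣ (P : Subgroup G).index :=
      Subgroup.index_dvd_of_le hle
    exact P.not_dvd_index (hdvd.trans h1)
  have hvan : ∀ z ∈ Z, z ≠ 1 → (χ : G → ℂ) z = 0 := by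
    intro z hz hz1
    apply irr_vanish_of_coprime hZ χ hfaith z hz1
    rw [hdeg]
    exact Nat.Coprime.pow_left n ((Nat.Prime.coprime_iff_not_dvd hp).mpr (hidx z hz))
  have key : ∀ ψ : IrrCharacter G, ψ ∈ blockOf M (χ : G → ℂ) →
      b ≤ (charDegree (ψ : G → ℂ)).factorization p := by
    intro ψ hψ
    by_contra hlt
    rw [not_le] at hlt
    obtain ⟨hd1, hd0⟩ := irr_charDegree ψ
    have hψ1 : (ψ : G → ℂ) 1 ≠ 0 := irr_one_ne_zero ψ
    obtain ⟨m, hm⟩ := irr_sum_subgroup_eq Z ψ
    have hloc : ∀ t : G, t ≠ 1 →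
        MemLocalIdeal M (if t ∈ Z then (ψ : G → ℂ) t / (ψ : G → ℂ) 1 else 0) := by
      intro t ht1
      split_ifs with htZ
      · have h1 := hψ t
        have h2 : centralChar (χ : G → ℂ) t = 0 := by
          unfold centralChar
          rw [hvan t htZ ht1]
          simp
        rw [h2, zero_sub] at h1
        have h3 := memLocalIdeal_neg h1
        rw [neg_neg] at h3
        have h4 := memLocalIdeal_div_natCast hM h3 (hidx t htZ)
        have hne : ((Subgroup.centralizer ({t} : Set G)).index : ℂ) ≠ 0 := by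
          have : (Subgroup.centralizer ({t} : Set G)).index ≠ 0 := Subgroup.index_ne_zero_of_finite
          exact_mod_cast this
        have h5 : centralChar (ψ : G → ℂ) t / ((Subgroup.centralizer ({t} : Set G)).index : ℂ)
            = (ψ : G → ℂ) t / (ψ : G → ℂ) 1 := by
          unfold centralChar
          field_simp
        rwa [h5] at h4
      · exact memLocalIdeal_zero hmax
    have hsum : ∑ t : G, (if t ∈ Z then (ψ : G → ℂ) t / (ψ : G → ℂ) 1 else 0)
        = (p : ℂ) ^ b * (m : ℂ) / (ψ : G → ℂ) 1 := by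
      have h1 : ∑ t : G, (if t ∈ Z then (ψ : G → ℂ) t / (ψ : G → ℂ) 1 else 0)
          = (∑ t : G, (if t ∈ Z then (ψ : G → ℂ) t else 0)) / (ψ : G → ℂ) 1 := by
        rw [Finset.sum_div]
        refine Finset.sum_congr rfl fun t _ => ?_
        split_ifs <;> simp
      rw [h1, hm, hZcard]
      push_cast
      ring
    have hsplit := Finset.add_sum_erase Finset.univ
      (fun t : G => if t ∈ Z then (ψ : G → ℂ) t / (ψ : G → ℂ) 1 else 0) (Finset.mem_univ 1)
    simp only [Z.one_mem, if_true, div_self hψ1] at hsplit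
    have hrest : MemLocalIdeal M (∑ t ∈ Finset.univ.erase (1 : G),
        (if t ∈ Z then (ψ : G → ℂ) t / (ψ : G → ℂ) 1 else 0)) :=
      memLocalIdeal_sum hmax _ _ (fun t ht => hloc t (Finset.ne_of_mem_erase ht))
    have htot : MemLocalIdeal M ((p : ℂ) ^ b * (m : ℂ) / (ψ : G → ℂ) 1) := by
      obtain ⟨e, r, hr, her⟩ := Nat.exists_eq_pow_mul_and_not_dvd hd0 p hp.ne_one
      have he : e < b := by
        have h1 : p ^ e ∣ charDegree (ψ : G → ℂ) := by rw [her]; exact dvd_mul_right _ _
        have := (hp.pow_dvd_iff_le_factorization hd0).mp h1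
        omega
      have hr0 : (r : ℂ) ≠ 0 := by
        intro h0
        have : r = 0 := by exact_mod_cast h0
        exact hr (this ▸ dvd_zero p)
      have hp0 : (p : ℂ) ≠ 0 := by exact_mod_cast hp.ne_zero
      have h2 := memLocalIdeal_mul_right hmax (memLocalIdeal_p hM)
        (memLocalRing_natCast_div hM (p ^ (b - e - 1) * m) hr)
      have h3 : (p : ℂ) * (((p ^ (b - e - 1) * m : ℕ) : ℂ) / (r : ℂ))
          = (p : ℂ) ^ b * (m : ℂ) / (ψ : G → ℂ) 1 := by
        rw [← hd1, her]
        push_cast
        have hpow : (p : ℂ) ^ b = (p : ℂ) * (p : ℂ) ^ e * (p : ℂ) ^ (b - e - 1) := by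
          rw [← pow_succ', ← pow_add]; congr 1; omega
        rw [hpow]
        field_simp
      rwa [h3] at h2
    apply not_memLocalIdeal_one hmax
    have h4 := memLocalIdeal_sub hmax htot hrest
    rw [← hsum, ← hsplit] at h4
    simpa using h4
  have hG : (Nat.card G).factorization p = a := by
    have h1 := Sylow.card_eq_multiplicity P
    rw [ha] at h1
    exact (Nat.pow_right_injective hp.two_le h1).symm
  have hχB : χ ∈ blockOf M (χ : G → ℂ) := by
    intro g
    rw [sub_self]
    exact memLocalIdeal_zero hmax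
  have hinf : b ≤ sInf ((fun ψ : IrrCharacter G => (charDegree (ψ : G → ℂ)).factorization p) ''
      blockOf M (χ : G → ℂ)) := by
    apply le_csInf
    · exact ⟨_, χ, hχB, rfl⟩
    · rintro _ ⟨ψ, hψ, rfl⟩
      exact key ψ hψ
  have hmain : blockDefect p (blockOf M (χ : G → ℂ)) ≤ a - b := by
    unfold blockDefect
    rw [hG]
    exact Nat.sub_le_sub_left hinf a
  refine ⟨hmain, fun hcomm => ?_⟩
  have hab : a = b := by
    have htop : Subgroup.center (P : Subgroup G) = ⊤ := by
      rw [eq_top_iff]
      intro x _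
      rw [Subgroup.mem_center_iff]
      intro y
      exact hcomm.is_comm.comm y x
    rw [htop, Subgroup.card_top, ha] at hb
    exact Nat.pow_right_injective hp.two_le hb
  rw [hab, Nat.sub_self] at hmain
  exact Nat.le_zero.mp hmain

end Cfsg.Agent.S4730
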