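import Cfsg.Statements.S4731
import Cfsg.Agent.Lib.Helper22.WeakOrth
import Cfsg.Agent.Lib.Helper79.Blk2
import Cfsg.Agent.Lib.Helper82.CharCore

set_option autoImplicit false
open Cfsg

namespace Cfsg.Agent.S4731

open Cfsg.Agent.Lib.Helper21 Cfsg.Agent.Lib.Helper22 Cfsg.Agent.Lib.Helper79
  Cfsg.Agent.Lib.Helper82
open scoped ComplexConjugate

/-- Let p ≠ q be primes, M_p and M_q maximal ideals of the algebraic integers containing p and q respectively, and G a finite group with no element of order pq; let q^b be the q-part of the order of G. For a p-block B_p (relative to M_p), a q-block B_q (relative to M_q) and a p-singular element y, the sum of χ(1)χ(y) over the irreducible characters χ lying in both B_p and B_q is q^b times an algebraic integer. -/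
theorem result {G : Type*} [Group G] [Finite G] (p q : ℕ) [Fact p.Prime] [Fact q.Prime] (hpq : p ≠ q) (Mp Mq : Ideal Cfsg.AlgInt) (hMp : Cfsg.IsPModular p Mp) (hMq : Cfsg.IsPModular q Mq) (hno : ∀ g : G, orderOf g ≠ p * q) (b : ℕ) (hb : (Nat.card G).factorization q = b) (Bp : Set (Cfsg.IrrCharacter G)) (hBp : Cfsg.IsPBlock Mp Bp) (Bq : Set (Cfsg.IrrCharacter G)) (hBq : Cfsg.IsPBlock Mq Bq) (y : G) (hy : p ∣ orderOf y) : ∃ ω : Cfsg.AlgInt, ∑ᶠ χ ∈ Bp ∩ Bq, (Cfsg.charDegree (χ : G → ℂ) : ℂ) * (χ : G → ℂ) y = (q : ℂ) ^ b * (ω : ℂ) := by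
  classical
  cases nonempty_fintype G
  haveI := finite_irrCharacter G
  letI := Fintype.ofFinite (IrrCharacter G)
  have hp : p.Prime := Fact.out
  have hq : q.Prime := Fact.out
  have hG : (Nat.card G : ℂ) ≠ 0 := by exact_mod_cast Nat.card_pos.ne'
  -- no element of order divisible by pq
  have hno' : ∀ g : G, q ∣ orderOf g → ¬ p ∣ orderOf g := by
    intro g hqg hpg
    have hdvd : p * q ∣ orderOf g :=
      Nat.Coprime.mul_dvd_of_dvd_of_dvd ((Nat.coprime_primes hp hq).mpr hpq) hpg hqg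
    obtain ⟨c, hc⟩ := hdvd
    have hpos : 0 < orderOf g := orderOf_pos g
    have hc0 : c ≠ 0 := by
      rintro rfl
      rw [mul_zero] at hc
      omega
    have : orderOf (g ^ c) = p * q := by
      rw [orderOf_pow_of_dvd hc0 (Dvd.intro_left _ hc.symm), hc]
      exact Nat.mul_div_cancel _ (Nat.pos_of_ne_zero hc0)
    exact hno _ this
  -- the class function Θ
  obtain ⟨Θ, hΘdef⟩ : ∃ Θ : G → ℂ, Θ = fun g =>
      ∑ χ ∈ Finset.univ.filter (· ∈ Bp), (χ : G → ℂ) y * (χ : G → ℂ) g := ⟨_, rfl⟩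
  have hΘ : ∀ g, q ∣ orderOf g → Θ g = 0 := by
    intro g hqg
    have h1 := weak_block_orth hMp Bp hBp g y⁻¹ (hno' g hqg) (by rw [orderOf_inv]; exact hy)
    rw [finsum_mem_eq_sum_filter_univ] at h1
    rw [hΘdef]
    show ∑ χ ∈ Finset.univ.filter (· ∈ Bp), (χ : G → ℂ) y * (χ : G → ℂ) g = 0
    rw [← h1]
    refine Finset.sum_congr rfl fun χ _ => ?_
    rw [← Cfsg.Agent.Lib.Helper82.irr_inv, inv_inv, mul_comm]
  have hproj : ∀ χ : IrrCharacter G, (if χ ∈ Bp then (χ : G → ℂ) y else 0) =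
      (Nat.card G : ℂ)⁻¹ * ∑ g, Θ g * conj ((χ : G → ℂ) g) := by
    intro χ
    have h1 : (Nat.card G : ℂ)⁻¹ * ∑ g, Θ g * conj ((χ : G → ℂ) g) =
        ∑ χ' ∈ Finset.univ.filter (· ∈ Bp),
          (χ' : G → ℂ) y * classInner (χ' : G → ℂ) (χ : G → ℂ) := by
      rw [hΘdef]
      simp only [classInner, Finset.sum_mul, Finset.mul_sum]
      rw [Finset.sum_comm]
      refine Finset.sum_congr rfl fun χ' _ => Finset.sum_congr rfl fun g _ => by ring
    rw [h1]
    simp only [Cfsg.Agent.Lib.Helper4.classInner_irr, mul_ite, mul_one, mul_zero]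
    rw [Finset.sum_ite_eq']
    simp
  -- the key vanishing
  have hT : ∀ t : G, q ∣ orderOf t →
      ∑ χ ∈ Finset.univ.filter (· ∈ Bp ∩ Bq), (χ : G → ℂ) t * (χ : G → ℂ) y = 0 := by
    intro t hqt
    have h1 : ∑ χ ∈ Finset.univ.filter (· ∈ Bp ∩ Bq), (χ : G → ℂ) t * (χ : G → ℂ) y =
        ∑ χ ∈ Finset.univ.filter (· ∈ Bq),
          (χ : G → ℂ) t * (if χ ∈ Bp then (χ : G → ℂ) y else 0) := by
      rw [Finset.sum_filter, Finset.sum_filter]
      refine Finset.sum_congr rfl fun χ _ => ?_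
      by_cases h1 : χ ∈ Bp <;> by_cases h2 : χ ∈ Bq <;> simp [h1, h2]
    rw [h1]
    simp only [hproj]
    have h2 : ∑ χ ∈ Finset.univ.filter (· ∈ Bq), (χ : G → ℂ) t *
          ((Nat.card G : ℂ)⁻¹ * ∑ g, Θ g * conj ((χ : G → ℂ) g)) =
        (Nat.card G : ℂ)⁻¹ * ∑ g, Θ g *
          ∑ χ ∈ Finset.univ.filter (· ∈ Bq), (χ : G → ℂ) t * conj ((χ : G → ℂ) g) := by
      simp only [Finset.mul_sum]
      rw [Finset.sum_comm]
      refine Finset.sum_congr rfl fun g _ => Finset.sum_congr rfl fun χ _ => by ring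
    rw [h2, Finset.sum_eq_zero, mul_zero]
    intro g _
    by_cases hqg : q ∣ orderOf g
    · rw [hΘ g hqg, zero_mul]
    · have h3 := weak_block_orth hMq Bq hBq g t hqg hqt
      rw [finsum_mem_eq_sum_filter_univ] at h3
      have h4 := congrArg conj h3
      rw [map_sum, map_zero] at h4
      have : ∑ χ ∈ Finset.univ.filter (· ∈ Bq),
          (χ : G → ℂ) t * conj ((χ : G → ℂ) g) = 0 := by
        rw [← h4]
        refine Finset.sum_congr rfl fun χ _ => ?_
        simp [mul_comm]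
      rw [this, mul_zero]
  -- a Sylow q-subgroup
  obtain ⟨Q⟩ : Nonempty (Sylow q G) := inferInstance
  have hQcard : Nat.card (Q : Subgroup G) = q ^ b := by rw [Q.card_eq_multiplicity, hb]
  choose m hm using fun χ : IrrCharacter G => irr_sum_subgroup_eq (Q : Subgroup G) χ
  have hint : IsIntegral ℤ (∑ χ ∈ Finset.univ.filter (· ∈ Bp ∩ Bq),
      (m χ : ℂ) * (χ : G → ℂ) y) := by
    refine IsIntegral.sum _ fun χ _ => IsIntegral.mul ?_ (irr_isIntegral χ y)
    have h := isIntegral_algebraMap (R := ℤ) (A := ℂ) (x := (m χ : ℤ))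
    simpa using h
  refine ⟨⟨_, hint⟩, ?_⟩
  rw [finsum_mem_eq_sum_filter_univ]
  show _ = (q : ℂ) ^ b * ∑ χ ∈ Finset.univ.filter (· ∈ Bp ∩ Bq), (m χ : ℂ) * (χ : G → ℂ) y
  have h1 : (q : ℂ) ^ b * ∑ χ ∈ Finset.univ.filter (· ∈ Bp ∩ Bq), (m χ : ℂ) * (χ : G → ℂ) y =
      ∑ t : G, if t ∈ (Q : Subgroup G) then
        ∑ χ ∈ Finset.univ.filter (· ∈ Bp ∩ Bq), (χ : G → ℂ) t * (χ : G → ℂ) y else 0 := by
    rw [Finset.mul_sum]
    have hχ : ∀ χ : IrrCharacter G, (q : ℂ) ^ b * ((m χ : ℂ) * (χ : G → ℂ) y) =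
        ∑ t : G, if t ∈ (Q : Subgroup G) then (χ : G → ℂ) t * (χ : G → ℂ) y else 0 := by
      intro χ
      have h := hm χ
      rw [hQcard] at h
      push_cast at h
      rw [← mul_assoc, ← h, Finset.sum_mul]
      refine Finset.sum_congr rfl fun t _ => ?_
      split_ifs <;> simp
    rw [Finset.sum_congr rfl (fun χ _ => hχ χ), Finset.sum_comm]
    refine Finset.sum_congr rfl fun t _ => ?_
    split_ifs with h
    · rfl
    · simp
  rw [h1]
  symm
  rw [Finset.sum_eq_single (1 : G)]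
  · rw [if_pos (one_mem _)]
    refine Finset.sum_congr rfl fun χ _ => ?_
    rw [(irr_charDegree χ).1]
  · intro t _ ht
    split_ifs with htQ
    · apply hT
      obtain ⟨k, hk⟩ := (IsPGroup.iff_orderOf.mp Q.isPGroup') ⟨t, htQ⟩
      have hk' : orderOf t = q ^ k := by
        rw [← hk]; exact Subgroup.orderOf_coe (⟨t, htQ⟩ : (Q : Subgroup G))
      rw [hk']
      cases k with
      | zero =>
        exfalso; apply ht; rw [pow_zero] at hk'; exact orderOf_eq_one_iff.mp hk'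
      | succ k => exact dvd_pow_self q (Nat.succ_ne_zero k)
    · rfl
  · intro h; exact absurd (Finset.mem_univ _) h

end Cfsg.Agent.S4731
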