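import Cfsg.Statements.S4735
import Cfsg.Agent.Lib.Helper82.GalPrin
import Cfsg.Agent.Lib.Helper82.PrimeQuot
import Cfsg.Agent.Lib.Helper82.Major
import Cfsg.Agent.Lib.Helper81.PSolv2
import Cfsg.Agent.Lib.Helper83.Ortho
import Cfsg.Agent.Lib.Helper83.Linear
import Cfsg.Agent.S4691

set_option autoImplicit false
open Cfsg

namespace Cfsg.Agent.S4735

open Cfsg.Agent.Lib.Helper82 Cfsg.Agent.Lib.Helper83
open scoped ComplexConjugate

/-- Let p be a prime, M a maximal ideal of the algebraic integers containing p, G a finite group, H = O_p'(G) and Ḡ = G/H. For x ∈ G write λ(G, x) for the sum of |χ(x)|^2 over the irreducible characters χ in the principal p-block of G. Then λ(G, x) is a positive integer, λ(G, x) = λ(Ḡ, x̄) where x̄ is the image of x, and λ(G, x) ≤ #C_Ḡ(x̄). Moreover λ(G, 1) = [G : H] if and only if the principal block is the only p-block of Ḡ. -/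
theorem result {G : Type*} [Group G] [Finite G] (p : ℕ) [Fact p.Prime] (M : Ideal Cfsg.AlgInt) (hM : Cfsg.IsPModular p M) (x : G) : (∃ n : ℕ, 0 < n ∧ ∑ᶠ χ ∈ Cfsg.principalBlock M G, Complex.normSq ((χ : G → ℂ) x) = n) ∧ ∑ᶠ χ ∈ Cfsg.principalBlock M G, Complex.normSq ((χ : G → ℂ) x) = ∑ᶠ ψ ∈ Cfsg.principalBlock M (G ⧸ Cfsg.pPrimeCore p G), Complex.normSq ((ψ : G ⧸ Cfsg.pPrimeCore p G → ℂ) (QuotientGroup.mk x)) ∧ ∑ᶠ χ ∈ Cfsg.principalBlock M G, Complex.normSq ((χ : G → ℂ) x) ≤ (Nat.card ↥(Subgroup.centralizer ({(QuotientGroup.mk x : G ⧸ Cfsg.pPrimeCore p G)} : Set (G ⧸ Cfsg.pPrimeCore p G))) : ℝ) ∧ ((∑ᶠ χ ∈ Cfsg.principalBlock M G, Cfsg.charDegree (χ : G → ℂ) ^ 2) = (Cfsg.pPrimeCore p G).index ↔ ∀ B : Set (Cfsg.IrrCharacter (G ⧸ Cfsg.pPrimeCore p G)), Cfsg.IsPBlock M B → B = Cfsg.principalBlock M (G ⧸ Cfsg.pPrimeCore p G)) := by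
  classical
  cases nonempty_fintype G
  have hp : p.Prime := Fact.out
  have hNc : (Nat.card (pPrimeCore p G)).Coprime p :=
    Cfsg.Agent.Lib.Helper81.pPrimeCore_coprime p
  letI : Fintype (G ⧸ pPrimeCore p G) := Fintype.ofFinite _
  haveI := Cfsg.Agent.Lib.Helper4.irr_finite (G := G)
  letI := Fintype.ofFinite (IrrCharacter G)
  haveI := Cfsg.Agent.Lib.Helper4.irr_finite (G := G ⧸ pPrimeCore p G)
  letI := Fintype.ofFinite (IrrCharacter (G ⧸ pPrimeCore p G))
  have hbij := principal_bijOn_inflate hM (pPrimeCore p G) hNc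
  have h2 : ∑ᶠ χ ∈ principalBlock M G, Complex.normSq ((χ : G → ℂ) x) =
      ∑ᶠ ψ ∈ principalBlock M (G ⧸ pPrimeCore p G),
        Complex.normSq ((ψ : G ⧸ pPrimeCore p G → ℂ) (QuotientGroup.mk x)) := by
    symm
    exact finsum_mem_eq_of_bijOn (inflate (pPrimeCore p G)) hbij (fun ψ _ => rfl)
  have hfs : ∑ᶠ χ ∈ principalBlock M G, Complex.normSq ((χ : G → ℂ) x) =
      ∑ χ : IrrCharacter G,
        (if χ ∈ principalBlock M G then Complex.normSq ((χ : G → ℂ) x) else 0) := by
    rw [finsum_mem_def, finsum_eq_sum_of_fintype]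
    refine Finset.sum_congr rfl fun χ _ => ?_
    by_cases h : χ ∈ principalBlock M G
    · rw [Set.indicator_of_mem h, if_pos h]
    · rw [Set.indicator_of_notMem h, if_neg h]
  have h1 : ∃ n : ℕ, 0 < n ∧
      ∑ᶠ χ ∈ principalBlock M G, Complex.normSq ((χ : G → ℂ) x) = n := by
    obtain ⟨z, hz⟩ := galStable_sum_int (principalBlock M G)
      (fun u hu χ => principal_galConj_iff hM u hu χ) x x⁻¹
    have hz' : ((∑ χ : IrrCharacter G,
        (if χ ∈ principalBlock M G then Complex.normSq ((χ : G → ℂ) x) else 0) : ℝ) : ℂ) =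
        (z : ℂ) := by
      rw [← hz]
      push_cast
      refine Finset.sum_congr rfl fun χ _ => ?_
      split_ifs
      · rw [Cfsg.Agent.Lib.Helper82.irr_inv χ x, Complex.mul_conj]
      · rfl
    have hz'' : (∑ χ : IrrCharacter G,
        (if χ ∈ principalBlock M G then Complex.normSq ((χ : G → ℂ) x) else 0) : ℝ) =
        (z : ℝ) := by
      have h3 : ((z : ℝ) : ℂ) = (z : ℂ) := by push_cast; rfl
      rw [← h3] at hz'
      exact Complex.ofReal_injective hz'
    have hpos : (1 : ℝ) ≤ ∑ χ : IrrCharacter G,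
        (if χ ∈ principalBlock M G then Complex.normSq ((χ : G → ℂ) x) else 0) := by
      have h := Finset.single_le_sum (f := fun χ : IrrCharacter G =>
          if χ ∈ principalBlock M G then Complex.normSq ((χ : G → ℂ) x) else 0)
        (fun χ _ => by
          show (0 : ℝ) ≤ if χ ∈ principalBlock M G then Complex.normSq ((χ : G → ℂ) x) else 0
          split_ifs
          · exact Complex.normSq_nonneg _
          · exact le_refl _) (Finset.mem_univ (trivIrr G))
      simp only [if_pos (Cfsg.Agent.S4691.trivIrr_mem_principal hM), trivIrr_apply,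
        map_one] at h
      exact h
    rw [hz''] at hpos
    have hz1 : (1 : ℤ) ≤ z := by exact_mod_cast hpos
    refine ⟨z.toNat, by omega, ?_⟩
    rw [hfs, hz'']
    have h4 : ((z.toNat : ℤ)) = z := Int.toNat_of_nonneg (by omega)
    exact_mod_cast h4.symm
  refine ⟨h1, h2, ?_, ?_⟩
  · rw [h2]
    have hco := column_orthogonality_conj (G := G ⧸ pPrimeCore p G)
      (IsConj.refl (QuotientGroup.mk x : G ⧸ pPrimeCore p G))
    have hre : ∑ ψ : IrrCharacter (G ⧸ pPrimeCore p G),
        Complex.normSq ((ψ : G ⧸ pPrimeCore p G → ℂ) (QuotientGroup.mk x)) =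
        (Nat.card (Subgroup.centralizer
          ({(QuotientGroup.mk x : G ⧸ pPrimeCore p G)} : Set (G ⧸ pPrimeCore p G))) : ℝ) := by
      have h5 : ((∑ ψ : IrrCharacter (G ⧸ pPrimeCore p G),
          Complex.normSq ((ψ : G ⧸ pPrimeCore p G → ℂ) (QuotientGroup.mk x)) : ℝ) : ℂ) =
          ((Nat.card (Subgroup.centralizer
            ({(QuotientGroup.mk x : G ⧸ pPrimeCore p G)} : Set (G ⧸ pPrimeCore p G))) : ℝ) : ℂ) := by
        push_cast
        rw [← hco]
        refine Finset.sum_congr rfl fun ψ _ => ?_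
        rw [Complex.mul_conj]
      exact Complex.ofReal_injective h5
    rw [← hre, finsum_mem_def, finsum_eq_sum_of_fintype]
    refine Finset.sum_le_sum fun ψ _ => ?_
    by_cases h : ψ ∈ principalBlock M (G ⧸ pPrimeCore p G)
    · rw [Set.indicator_of_mem h]
    · rw [Set.indicator_of_notMem h]
      exact Complex.normSq_nonneg _
  · have h4 : ∑ᶠ χ ∈ principalBlock M G, charDegree (χ : G → ℂ) ^ 2 =
        ∑ᶠ ψ ∈ principalBlock M (G ⧸ pPrimeCore p G),
          charDegree (ψ : G ⧸ pPrimeCore p G → ℂ) ^ 2 := by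
      symm
      exact finsum_mem_eq_of_bijOn (inflate (pPrimeCore p G)) hbij
        (fun ψ _ => by rw [charDegree_inflate])
    have hall := sum_charDegree_sq (G := G ⧸ pPrimeCore p G)
    have hidx : (pPrimeCore p G).index = Nat.card (G ⧸ pPrimeCore p G) := rfl
    rw [h4, hidx, ← hall, finsum_mem_def, finsum_eq_sum_of_fintype]
    constructor
    · intro heq B hB
      have hmem : ∀ ψ : IrrCharacter (G ⧸ pPrimeCore p G),
          ψ ∈ principalBlock M (G ⧸ pPrimeCore p G) := by
        by_contra hcon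
        push Not at hcon
        obtain ⟨ψ₀, hψ₀⟩ := hcon
        have hlt : ∑ ψ : IrrCharacter (G ⧸ pPrimeCore p G),
            Set.indicator (principalBlock M (G ⧸ pPrimeCore p G))
              (fun ψ => charDegree (ψ : G ⧸ pPrimeCore p G → ℂ) ^ 2) ψ <
            ∑ ψ : IrrCharacter (G ⧸ pPrimeCore p G),
              charDegree (ψ : G ⧸ pPrimeCore p G → ℂ) ^ 2 := by
          refine Finset.sum_lt_sum (fun ψ _ => ?_) ⟨ψ₀, Finset.mem_univ _, ?_⟩
          · by_cases h : ψ ∈ principalBlock M (G ⧸ pPrimeCore p G)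
            · rw [Set.indicator_of_mem h]
            · rw [Set.indicator_of_notMem h]
              exact Nat.zero_le _
          · rw [Set.indicator_of_notMem hψ₀]
            exact pow_pos (Nat.pos_of_ne_zero (irr_charDegree ψ₀).2) 2
        exact absurd heq (ne_of_lt hlt)
      obtain ⟨χ, rfl⟩ := hB
      exact block_eq_of_mem hM ⟨χ, rfl⟩ (Cfsg.Agent.S4691.principal_isPBlock M) χ
        (Cfsg.Agent.Lib.Helper79.mem_blockOf_self hM χ) (hmem χ)
    · intro hall'
      refine Finset.sum_congr rfl fun ψ _ => ?_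
      have hψ : ψ ∈ principalBlock M (G ⧸ pPrimeCore p G) := by
        have h6 := hall' (blockOf M (ψ : G ⧸ pPrimeCore p G → ℂ)) ⟨ψ, rfl⟩
        rw [← h6]
        exact Cfsg.Agent.Lib.Helper79.mem_blockOf_self hM ψ
      rw [Set.indicator_of_mem hψ]

end Cfsg.Agent.S4735
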