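import Cfsg.Statements.S4955
import Mathlib
import Cfsg.Agent.Lib.Helper85.Burnside
import Cfsg.Agent.Lib.Helper85.Ito
import Cfsg.Agent.Lib.Helper21.Loc2
import Cfsg.Agent.Lib.Helper82.PQ
import Cfsg.Agent.Lib.Helper83.Quot
import Cfsg.Agent.Lib.Helper4.CharExp2
-- import your own Cfsg.Agent.* helpers here

set_option autoImplicit false
open Cfsg

namespace Cfsg.Agent.S4955

open Cfsg.Agent.Lib Cfsg.Agent.Lib.Helper85
open scoped ComplexConjugate

/-- A character value at a `p`-element is congruent to the degree modulo the local ideal. -/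
theorem char_pelt_cong {G : Type*} [Group G] [Finite G] {W : Type*} [AddCommGroup W]
    [Module ℂ W] [FiniteDimensional ℂ W] (ρ : Representation ℂ G W) {p : ℕ} {M : Ideal AlgInt}
    (hM : IsPModular p M) (g : G) (j : ℕ) (hg : g ^ (p ^ j) = 1) :
    MemLocalIdeal M (ρ.character g - (Module.finrank ℂ W : ℂ)) := by
  classical
  obtain ⟨ι, hι, hdec, v, μ, hv, hμ, -, -⟩ := Helper4.exists_eigenbasis_rep ρ g
  have h1 : ρ.character g = ∑ i, μ i := Helper4.trace_eq_sum_of_eigenbasis v (ρ g) μ hv
  have h2 : (Module.finrank ℂ W : ℂ) = ∑ i : ι, (1 : ℂ) := by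
    rw [Module.finrank_eq_card_basis v]; simp
  rw [h1, h2, ← Finset.sum_sub_distrib]
  apply Helper21.locIdeal_sum hM
  intro i _
  apply Helper21.locIdeal_ppow_root hM _ j
  obtain ⟨c, hc⟩ := orderOf_dvd_of_pow_eq_one hg
  rw [hc, pow_mul, hμ i, one_pow]

theorem irr_pelt_ne_zero {G : Type*} [Group G] [Finite G] {p : ℕ} [hp : Fact p.Prime] {χ : G → ℂ}
    (hχ : IsIrrCharacter G χ) (hdeg : ¬ p ∣ charDegree χ) (g : G) (j : ℕ)
    (hg : g ^ (p ^ j) = 1) : χ g ≠ 0 := by
  obtain ⟨hpos, h1⟩ := Helper83.irr_degree hχ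
  obtain ⟨n, ρ, hρ, rfl⟩ := hχ
  obtain ⟨M, hM⟩ := Helper82.exists_isPModular p
  have hn : ρ.character 1 = (n : ℂ) := by
    rw [Representation.char_one]; simp
  have hd : charDegree ρ.character = n := by
    rw [hn] at h1
    exact_mod_cast h1.symm
  have hc := char_pelt_cong ρ hM g j hg
  intro h0
  rw [h0, zero_sub] at hc
  have hc2 := Helper21.locIdeal_neg hc
  rw [neg_neg] at hc2
  have hfr : Module.finrank ℂ (Fin n → ℂ) = n := by simp
  rw [hfr, Helper21.locIdeal_natCast_iff hM] at hc2
  rw [hd] at hdeg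
  exact hdeg hc2

theorem sum_sq_ge {G : Type*} [Group G] [Finite G] {χ : G → ℂ} (hχ : IsIrrCharacter G χ)
    (g : G) (hne : χ g ≠ 0) :
    ((expSet (Nat.card G)).card : ℝ) ≤ ∑ k ∈ expSet (Nat.card G), ‖χ (g ^ k)‖ ^ 2 := by
  obtain ⟨n, ρ, hρ, rfl⟩ := hχ
  have h := prod_norm_char ρ g hne
  apply card_le_sum_of_one_le_prod _ _ (fun i _ => sq_nonneg _)
  rw [Finset.prod_pow]
  exact one_le_pow₀ h

theorem col_sq {G : Type*} [Group G] [Fintype G] [Fintype (IrrCharacter G)] (g : G) :
    ∑ χ : IrrCharacter G, ‖(χ : G → ℂ) g‖ ^ 2 =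
      (Nat.card (Subgroup.centralizer ({g} : Set G)) : ℝ) := by
  have h := Helper4.col_orth g g
  rw [if_pos (IsConj.refl g)] at h
  have h2 : ((∑ χ : IrrCharacter G, ‖(χ : G → ℂ) g‖ ^ 2 : ℝ) : ℂ) =
      ((Nat.card (Subgroup.centralizer ({g} : Set G)) : ℕ) : ℂ) := by
    rw [← h]
    push_cast
    apply Finset.sum_congr rfl
    intro χ _
    rw [Complex.mul_conj, Complex.normSq_eq_norm_sq]
    push_cast
    rfl
  exact_mod_cast h2

theorem centralizer_pow_eq {G : Type*} [Group G] [Finite G] (g : G) (k : ℕ)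
    (hk : Nat.Coprime (Nat.card G) k) :
    Subgroup.centralizer ({g ^ k} : Set G) = Subgroup.centralizer ({g} : Set G) := by
  have hk' : Nat.Coprime k (orderOf g) :=
    (Nat.Coprime.coprime_dvd_left (orderOf_dvd_natCard g) hk).symm
  obtain ⟨m, hm⟩ := exists_pow_eq_self_of_coprime hk'
  ext x
  simp only [Subgroup.mem_centralizer_iff, Set.mem_singleton_iff, forall_eq]
  constructor
  · intro h
    have h2 : Commute (g ^ k) x := h
    have h3 := h2.pow_left m
    rw [hm] at h3
    exact h3
  · intro h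
    have h2 : Commute g x := h
    exact h2.pow_left k

theorem card_conj_congr {A B : Type*} [Group A] [Group B] [Finite A] (e : A ≃* B) :
    Nat.card (ConjClasses A) = Nat.card (ConjClasses B) := by
  have : Finite B := Finite.of_equiv A e.toEquiv
  apply le_antisymm
  · exact Nat.card_le_card_of_surjective (ConjClasses.map e.symm.toMonoidHom)
      (ConjClasses.map_surjective e.symm.surjective)
  · exact Nat.card_le_card_of_surjective (ConjClasses.map e.toMonoidHom)
      (ConjClasses.map_surjective e.surjective)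

/-- A complement of a normal subgroup is isomorphic to the quotient. -/
theorem complement_equiv {X : Type*} [Group X] (V : Subgroup X) [V.Normal] (G : Subgroup X)
    (hGV : Subgroup.IsComplement' V G) : Nonempty (G ≃* X ⧸ V) := by
  let f : G →* X ⧸ V := (QuotientGroup.mk' V).comp G.subtype
  have hinj : Function.Injective f := by
    rw [injective_iff_map_eq_one]
    intro g hg
    have h1 : (g : X) ∈ V := (QuotientGroup.eq_one_iff (g : X)).mp hg
    have h2 : (g : X) ∈ V ⊓ G := ⟨h1, g.2⟩
    rw [hGV.disjoint.eq_bot, Subgroup.mem_bot] at h2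
    exact Subtype.ext h2
  have hsurj : Function.Surjective f := by
    intro q
    obtain ⟨x, rfl⟩ := QuotientGroup.mk_surjective q
    obtain ⟨⟨a, g⟩, h⟩ := hGV.2 x
    refine ⟨g, ?_⟩
    show ((g : X) : X ⧸ V) = (x : X ⧸ V)
    rw [QuotientGroup.eq]
    have h' : (a : X) * (g : X) = x := h
    rw [← h']
    have hc := (inferInstance : V.Normal).conj_mem (a : X) a.2 (g : X)⁻¹
    simpa [mul_assoc] using hc
  exact ⟨MulEquiv.ofBijective f ⟨hinj, hsurj⟩⟩

theorem card_centralizer_complement {X : Type*} [Group X] [Finite X] (V : Subgroup X)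
    (hab : ∀ a ∈ V, ∀ b ∈ V, a * b = b * a) (G : Subgroup X)
    (hGV : Subgroup.IsComplement' V G) (v : X) (hv : v ∈ V) :
    Nat.card ↥(G ⊓ Subgroup.centralizer ({v} : Set X)) * Nat.card V =
      Nat.card (Subgroup.centralizer ({v} : Set X)) := by
  have hVC : V ≤ Subgroup.centralizer ({v} : Set X) := by
    intro a ha
    rw [Subgroup.mem_centralizer_iff]
    intro h hh
    rw [Set.mem_singleton_iff] at hh
    rw [hh]
    exact hab v hv a ha
  let f : V × ↥(G ⊓ Subgroup.centralizer ({v} : Set X)) → ↥(Subgroup.centralizer ({v} : Set X)) :=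
    fun x => ⟨(x.1 : X) * (x.2 : X), mul_mem (hVC x.1.2) x.2.2.2⟩
  have hf : Function.Bijective f := by
    constructor
    · intro x y hxy
      have h1 : (x.1 : X) * (x.2 : X) = (y.1 : X) * (y.2 : X) := congrArg Subtype.val hxy
      have h2 := hGV.1 (a₁ := (x.1, ⟨(x.2 : X), x.2.2.1⟩)) (a₂ := (y.1, ⟨(y.2 : X), y.2.2.1⟩)) h1
      have h3 := congrArg Prod.fst h2
      have h4 := congrArg (fun z => ((Prod.snd z : G) : X)) h2
      exact Prod.ext h3 (Subtype.ext h4)
    · intro c
      obtain ⟨⟨a, g⟩, h⟩ := hGV.2 (c : X)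
      have h' : (a : X) * (g : X) = c := h
      have hg : (g : X) ∈ Subgroup.centralizer ({v} : Set X) := by
        have : (g : X) = (a : X)⁻¹ * c := by rw [← h']; simp
        rw [this]
        exact mul_mem (inv_mem (hVC a.2)) c.2
      exact ⟨(a, ⟨(g : X), g.2, hg⟩), Subtype.ext h'⟩
  rw [← Nat.card_congr (Equiv.ofBijective f hf), Nat.card_prod, mul_comm]

/-- Let X be a finite group with an abelian normal Sylow p-subgroup V (a normal p-subgroup of index prime to p in which any two elements commute), and let G be a complement to V in X. Then for every v in V, writing C for the centralizer of v in G, the number k(X) of conjugacy classes of X satisfies k(X) ≤ (order of C)·(order of V) − ((order of G) − k(G)); the statement is written with the subtracted term moved to the left. In particular, if some v in V is centralized by no nonidentity element of G, then k(X) is at most the order of V. -/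
theorem result {X : Type*} [Group X] [Finite X] (p : ℕ) [Fact p.Prime] (V : Subgroup X) [V.Normal] (hVp : IsPGroup p V) (hidx : ¬ p ∣ V.index) (hab : ∀ a ∈ V, ∀ b ∈ V, a * b = b * a) (G : Subgroup X) (hGV : Subgroup.IsComplement' V G) (v : X) (hv : v ∈ V) : Nat.card (ConjClasses X) + Nat.card G ≤ Nat.card ↥(G ⊓ Subgroup.centralizer ({v} : Set X)) * Nat.card V + Nat.card (ConjClasses G) := by
  classical
  let _ : Fintype X := Fintype.ofFinite X
  have := Helper4.irr_finite (G := X)
  let _ : Fintype (IrrCharacter X) := Fintype.ofFinite _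
  have := Helper4.irr_finite (G := X ⧸ V)
  let _ : Fintype (IrrCharacter (X ⧸ V)) := Fintype.ofFinite _
  let _ : Fintype (X ⧸ V) := Fintype.ofFinite _
  rw [card_centralizer_complement V hab G hGV v hv]
  set U := expSet (Nat.card X) with hU
  have hUpos : 0 < U.card := card_expSet_pos Nat.card_pos
  -- v is a p-element
  obtain ⟨j, hj⟩ := hVp ⟨v, hv⟩
  have hvj : v ^ (p ^ j) = 1 := by
    have := congrArg Subtype.val hj
    simpa using this
  have hvkj : ∀ k : ℕ, (v ^ k) ^ (p ^ j) = 1 := by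
    intro k
    rw [← pow_mul, mul_comm, pow_mul, hvj, one_pow]
  -- lower bound function
  let P : IrrCharacter X → Prop := fun χ => ∀ x ∈ V, (χ : X → ℂ) x = (χ : X → ℂ) 1
  let lb : IrrCharacter X → ℝ := fun χ => if P χ then (charDegree (χ : X → ℂ) : ℝ) ^ 2 else 1
  have hlb : ∀ χ : IrrCharacter X, (U.card : ℝ) * lb χ ≤ ∑ k ∈ U, ‖(χ : X → ℂ) (v ^ k)‖ ^ 2 := by
    intro χ
    by_cases hP : P χ
    · have h1 : ∀ k ∈ U, ‖(χ : X → ℂ) (v ^ k)‖ ^ 2 = (charDegree (χ : X → ℂ) : ℝ) ^ 2 := by
        intro k _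
        rw [hP (v ^ k) (pow_mem hv k), (Helper83.irr_degree χ.2).2]
        simp
      rw [Finset.sum_congr rfl h1, Finset.sum_const, nsmul_eq_mul]
      simp only [lb, if_pos hP]
      exact le_refl _
    · simp only [lb, if_neg hP, mul_one]
      apply sum_sq_ge χ.2
      have hd : ¬ p ∣ charDegree (χ : X → ℂ) := by
        intro hdvd
        exact hidx (hdvd.trans (ito_char V hab χ.2))
      have := irr_pelt_ne_zero χ.2 hd v j hvj
      exact this
  have hcol : ∑ χ : IrrCharacter X, ∑ k ∈ U, ‖(χ : X → ℂ) (v ^ k)‖ ^ 2 =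
      (U.card : ℝ) * (Nat.card (Subgroup.centralizer ({v} : Set X)) : ℝ) := by
    rw [Finset.sum_comm]
    have h1 : ∀ k ∈ U, ∑ χ : IrrCharacter X, ‖(χ : X → ℂ) (v ^ k)‖ ^ 2 =
        (Nat.card (Subgroup.centralizer ({v} : Set X)) : ℝ) := by
      intro k hk
      rw [col_sq (v ^ k), centralizer_pow_eq v k (mem_expSet.mp hk).2]
    rw [Finset.sum_congr rfl h1, Finset.sum_const, nsmul_eq_mul]
  have hmain : ∑ χ : IrrCharacter X, lb χ ≤
      (Nat.card (Subgroup.centralizer ({v} : Set X)) : ℝ) := by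
    have h1 : ∑ χ : IrrCharacter X, (U.card : ℝ) * lb χ ≤
        (U.card : ℝ) * (Nat.card (Subgroup.centralizer ({v} : Set X)) : ℝ) := by
      rw [← hcol]
      exact Finset.sum_le_sum (fun χ _ => hlb χ)
    rw [← Finset.mul_sum] at h1
    have hUpos' : (0 : ℝ) < (U.card : ℝ) := by exact_mod_cast hUpos
    exact le_of_mul_le_mul_left h1 hUpos'
  -- evaluate the sum of lb
  have hsplit : ∑ χ : IrrCharacter X, lb χ =
      ∑ χ ∈ Finset.univ.filter P, (charDegree (χ : X → ℂ) : ℝ) ^ 2 +
        ((Finset.univ.filter (fun χ => ¬ P χ)).card : ℝ) := by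
    simp only [lb]
    rw [Finset.sum_ite, Finset.sum_const, nsmul_eq_mul, mul_one]
  have hA : ∑ χ ∈ Finset.univ.filter P, (charDegree (χ : X → ℂ) : ℝ) ^ 2 = (Nat.card G : ℝ) := by
    have h1 : ∑ χ ∈ Finset.univ.filter P, (charDegree (χ : X → ℂ) : ℝ) ^ 2 =
        ∑ χ : {χ : IrrCharacter X // P χ}, (charDegree ((χ : IrrCharacter X) : X → ℂ) : ℝ) ^ 2 := by
      rw [Finset.sum_subtype (Finset.univ.filter P) (p := P) (by simp)]
    rw [h1, ← Equiv.sum_comp (Helper83.inflateEquiv V)]
    have h2 : ∀ ψ : IrrCharacter (X ⧸ V),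
        (charDegree (((Helper83.inflateEquiv V ψ : {χ : IrrCharacter X // P χ}) :
          IrrCharacter X) : X → ℂ) : ℝ) ^ 2 = (charDegree (ψ : X ⧸ V → ℂ) : ℝ) ^ 2 := by
      intro ψ
      have : ((Helper83.inflateEquiv V ψ : {χ : IrrCharacter X // P χ}) : IrrCharacter X) =
          Helper83.inflate V ψ := rfl
      rw [this, Helper83.charDegree_inflate]
    rw [Finset.sum_congr rfl (fun ψ _ => h2 ψ)]
    have h3 := Helper4.sum_sq_irr (G := X ⧸ V)
    have h4 : ((∑ ψ : IrrCharacter (X ⧸ V), (charDegree (ψ : X ⧸ V → ℂ) : ℝ) ^ 2 : ℝ) : ℂ) =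
        ((Nat.card G : ℝ) : ℂ) := by
      push_cast
      rw [← hGV.symm.index_eq_card, Subgroup.index, ← h3]
      apply Finset.sum_congr rfl
      intro ψ _
      rw [(Helper83.irr_degree ψ.2).2]
    exact_mod_cast h4
  have hB : (Finset.univ.filter (fun χ : IrrCharacter X => ¬ P χ)).card + Nat.card (ConjClasses G) =
      Nat.card (ConjClasses X) := by
    have h1 : (Finset.univ.filter P).card + (Finset.univ.filter (fun χ : IrrCharacter X => ¬ P χ)).card
        = Fintype.card (IrrCharacter X) := by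
      rw [Finset.card_filter_add_card_filter_not]
      rfl
    have h2 : (Finset.univ.filter P).card = Nat.card (ConjClasses G) := by
      obtain ⟨e⟩ := complement_equiv V G hGV
      rw [card_conj_congr e, ← Helper4.card_irr, Nat.card_congr (Helper83.inflateEquiv V),
        Nat.card_eq_fintype_card, Fintype.card_subtype]
    rw [← Helper4.card_irr (G := X), Nat.card_eq_fintype_card (α := IrrCharacter X), ← h1, h2,
      add_comm]
  rw [hsplit, hA] at hmain
  have hfin : (Nat.card (ConjClasses X) + Nat.card G : ℝ) ≤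
      (Nat.card (Subgroup.centralizer ({v} : Set X)) : ℝ) + Nat.card (ConjClasses G) := by
    rw [← hB]
    push_cast
    linarith
  exact_mod_cast hfin

end Cfsg.Agent.S4955
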