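import Cfsg.Statements.S4956
import Mathlib
-- import your own Cfsg.Agent.* helpers here

set_option autoImplicit false
open Cfsg

namespace Cfsg.Agent.S4956


theorem nsmul_eq_zero_of_coprime {A : Type*} [AddCommGroup A] [Finite A] (k : ℕ)
    (hk : k.Coprime (Nat.card A)) (u : A) (hu : k • u = 0) : u = 0 := by
  have h1 : addOrderOf u ∣ k := addOrderOf_dvd_of_nsmul_eq_zero hu
  have h2 : addOrderOf u ∣ Nat.card A := addOrderOf_dvd_natCard u
  have h3 : addOrderOf u = 1 := Nat.eq_one_of_dvd_coprimes hk h1 h2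
  exact AddMonoid.addOrderOf_eq_one_iff.1 h3

theorem exists_nsmul_eq_of_coprime {A : Type*} [AddCommGroup A] [Finite A] (k : ℕ)
    (hk : k.Coprime (Nat.card A)) (u : A) : ∃ u' : A, k • u' = u := by
  have hinj : Function.Injective (fun x : A => k • x) := by
    intro x y hxy
    have : k • (x - y) = 0 := by
      rw [smul_sub]; exact sub_eq_zero.2 hxy
    exact sub_eq_zero.1 (nsmul_eq_zero_of_coprime k hk _ this)
  exact (Finite.injective_iff_surjective.1 hinj) u

theorem count_aux {A : Type*} [AddCommGroup A] [Finite A] (a b : AddMonoid.End A)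
    (hab : Commute a b) (m n : ℕ) (ha : a ^ m = 1) (hb : b ^ n = 1)
    (hm : (m * n).Coprime (Nat.card A)) :
    Nat.card {p : A × A // p.1 + a p.2 = p.2 + b p.1} =
      Nat.card A * Nat.card {u : A // a u = u ∧ b u = u} := by
  classical
  set Sa : AddMonoid.End A := ∑ i ∈ Finset.range m, a ^ i with hSa
  set Sb : AddMonoid.End A := ∑ j ∈ Finset.range n, b ^ j with hSb
  set Ta : AddMonoid.End A := ∑ i ∈ Finset.range m, ∑ k ∈ Finset.range i, a ^ k with hTa
  set Tb : AddMonoid.End A := ∑ j ∈ Finset.range n, ∑ k ∈ Finset.range j, b ^ k with hTb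
  have hSa1 : Sa * (1 - a) = 0 := by
    rw [hSa, geom_sum_mul_neg, ha, sub_self]
  have hSa2 : (1 - a) * Sa = 0 := by
    rw [hSa, mul_neg_geom_sum, ha, sub_self]
  have hSb1 : Sb * (1 - b) = 0 := by
    rw [hSb, geom_sum_mul_neg, hb, sub_self]
  have hSb2 : (1 - b) * Sb = 0 := by
    rw [hSb, mul_neg_geom_sum, hb, sub_self]
  have hcSb : Commute (1 - a) Sb := by
    apply Commute.sum_right
    intro j _
    exact ((Commute.one_left _).sub_left (hab.pow_right j))
  have hcSa : Commute (1 - b) Sa := by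
    apply Commute.sum_right
    intro j _
    exact ((Commute.one_left _).sub_left (hab.symm.pow_right j))
  have hTa' : (m : AddMonoid.End A) - Sa = (1 - a) * Ta := by
    rw [hTa, hSa, Finset.mul_sum]
    simp_rw [mul_neg_geom_sum]
    rw [Finset.sum_sub_distrib]
    simp
  have hTb' : (n : AddMonoid.End A) - Sb = (1 - b) * Tb := by
    rw [hTb, hSb, Finset.mul_sum]
    simp_rw [mul_neg_geom_sum]
    rw [Finset.sum_sub_distrib]
    simp
  set N : AddMonoid.End A := Sa * Sb with hN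
  have hN1 : N * (1 - a) = 0 := by
    rw [hN, mul_assoc, ← hcSb.eq, ← mul_assoc, hSa1, zero_mul]
  have hN2 : N * (1 - b) = 0 := by
    rw [hN, mul_assoc, hSb1, mul_zero]
  have hN3 : (1 - a) * N = 0 := by
    rw [hN, ← mul_assoc, hSa2, zero_mul]
  have hN4 : (1 - b) * N = 0 := by
    rw [hN, ← mul_assoc, hcSa.eq, mul_assoc, hSb2, mul_zero]
  have hN5 : ((m * n : ℕ) : AddMonoid.End A) = N + (1 - a) * (Ta * Sb) + (1 - b) * (m * Tb) := by
    have e1 : Sa = (m : AddMonoid.End A) - (1 - a) * Ta := by rw [← hTa']; abel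
    have e2 : Sb = (n : AddMonoid.End A) - (1 - b) * Tb := by rw [← hTb']; abel
    have e3 : (m : AddMonoid.End A) * ((1 - b) * Tb) = (1 - b) * (m * Tb) := by
      rw [← mul_assoc, (Nat.cast_commute m (1 - b)).eq, mul_assoc]
    calc ((m * n : ℕ) : AddMonoid.End A) = (m : AddMonoid.End A) * n := by push_cast; rfl
      _ = (m : AddMonoid.End A) * (Sb + (1 - b) * Tb) := by rw [← hTb']; abel_nf
      _ = (m : AddMonoid.End A) * Sb + (1 - b) * (m * Tb) := by rw [mul_add, e3]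
      _ = (Sa + (1 - a) * Ta) * Sb + (1 - b) * (m * Tb) := by rw [← hTa']; abel_nf
      _ = N + (1 - a) * (Ta * Sb) + (1 - b) * (m * Tb) := by rw [add_mul, mul_assoc]
  -- evaluation facts
  have hfixa : ∀ u : A, a u = u → ∀ i : ℕ, (a ^ i) u = u := by
    intro u hu i
    induction i with
    | zero => rfl
    | succ i ih => rw [pow_succ]; show (a ^ i) (a u) = u; rw [hu, ih]
  have hfixb : ∀ u : A, b u = u → ∀ i : ℕ, (b ^ i) u = u := by
    intro u hu i
    induction i with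
    | zero => rfl
    | succ i ih => rw [pow_succ]; show (b ^ i) (b u) = u; rw [hu, ih]
  have hSau : ∀ u : A, a u = u → Sa u = m • u := by
    intro u hu
    rw [hSa]
    have : (∑ i ∈ Finset.range m, a ^ i) u = ∑ i ∈ Finset.range m, (a ^ i) u :=
      map_sum (AddMonoidHom.eval u) _ _
    rw [this, Finset.sum_congr rfl (fun i _ => hfixa u hu i)]
    simp
  have hSbu : ∀ u : A, b u = u → Sb u = n • u := by
    intro u hu
    rw [hSb]
    have : (∑ i ∈ Finset.range n, b ^ i) u = ∑ i ∈ Finset.range n, (b ^ i) u :=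
      map_sum (AddMonoidHom.eval u) _ _
    rw [this, Finset.sum_congr rfl (fun i _ => hfixb u hu i)]
    simp
  have hNu : ∀ u : A, a u = u → b u = u → N u = (m * n) • u := by
    intro u hua hub
    show Sa (Sb u) = _
    rw [hSbu u hub, map_nsmul, hSau u hua, ← mul_nsmul, mul_comm]
  -- the hom f
  let f : A × A →+ A := ((1 - b : AddMonoid.End A) : A →+ A).comp (AddMonoidHom.fst A A) -
    ((1 - a : AddMonoid.End A) : A →+ A).comp (AddMonoidHom.snd A A)
  have hf : ∀ p : A × A, f p = (p.1 - b p.1) - (p.2 - a p.2) := fun p => rfl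
  let C : AddSubgroup A := ((1 - a : AddMonoid.End A) : A →+ A).ker ⊓
    ((1 - b : AddMonoid.End A) : A →+ A).ker
  have hC : ∀ u : A, u ∈ C ↔ a u = u ∧ b u = u := by
    intro u
    show (u - a u = 0 ∧ u - b u = 0) ↔ _
    rw [sub_eq_zero, sub_eq_zero]
    constructor
    · rintro ⟨h1, h2⟩; exact ⟨h1.symm, h2.symm⟩
    · rintro ⟨h1, h2⟩; exact ⟨h1.symm, h2.symm⟩
  have hK : Nat.card {p : A × A // p.1 + a p.2 = p.2 + b p.1} = Nat.card f.ker := by
    apply Nat.card_congr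
    apply Equiv.subtypeEquivRight
    intro p
    rw [AddMonoidHom.mem_ker, hf, sub_eq_zero, sub_eq_sub_iff_add_eq_add]
  have hCc : Nat.card {u : A // a u = u ∧ b u = u} = Nat.card C := by
    apply Nat.card_congr
    apply Equiv.subtypeEquivRight
    intro u
    exact (hC u).symm
  have hNf : ∀ p : A × A, N (f p) = 0 := by
    intro p
    rw [hf, map_sub]
    have h1 : N (p.1 - b p.1) = (N * (1 - b)) p.1 := rfl
    have h2 : N (p.2 - a p.2) = (N * (1 - a)) p.2 := rfl
    rw [h1, h2, hN1, hN2]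
    show (0 : A) - 0 = 0
    rw [sub_zero]
  have hNC : ∀ u : A, N u ∈ C := by
    intro u
    rw [hC]
    constructor
    · have : N u - a (N u) = ((1 - a) * N) u := rfl
      rw [hN3] at this
      exact (sub_eq_zero.1 this).symm
    · have : N u - b (N u) = ((1 - b) * N) u := rfl
      rw [hN4] at this
      exact (sub_eq_zero.1 this).symm
  have hdecomp : ∀ u : A, (m * n) • u = N u + f ((m * Tb : AddMonoid.End A) u, - (Ta * Sb : AddMonoid.End A) u) := by
    intro u
    have h0 : (((m * n : ℕ) : AddMonoid.End A)) u = (m * n) • u := rfl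
    rw [← h0, hN5, hf]
    show N u + ((1 - a) * (Ta * Sb)) u + ((1 - b) * (m * Tb)) u = _
    have h1 : ((1 - a) * (Ta * Sb)) u = (Ta * Sb) u - a ((Ta * Sb) u) := rfl
    have h2 : ((1 - b) * (m * Tb)) u = ((m * Tb : AddMonoid.End A) u) - b ((m * Tb : AddMonoid.End A) u) := rfl
    rw [h1, h2]
    simp only [map_neg]
    abel
  have hcompl : AddSubgroup.IsComplement (f.range : Set A) (C : Set A) := by
    constructor
    · rintro ⟨⟨r, hr⟩, ⟨c, hc⟩⟩ ⟨⟨r', hr'⟩, ⟨c', hc'⟩⟩ h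
      simp only at h
      have hd : r - r' = c' - c := by
        rw [sub_eq_sub_iff_add_eq_add]; rw [h]; abel
      have hdR : r - r' ∈ f.range := f.range.sub_mem hr hr'
      have hdC : r - r' ∈ C := by rw [hd]; exact C.sub_mem hc' hc
      obtain ⟨p, hp⟩ := hdR
      have h1 : N (r - r') = 0 := by rw [← hp]; exact hNf p
      have h2 : N (r - r') = (m * n) • (r - r') := hNu _ ((hC _).1 hdC).1 ((hC _).1 hdC).2
      have h3 : r - r' = 0 := nsmul_eq_zero_of_coprime (m * n) hm _ (by rw [← h2, h1])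
      have h4 : r = r' := sub_eq_zero.1 h3
      have h5 : c = c' := by
        rw [h3] at hd
        exact (sub_eq_zero.1 hd.symm).symm
      subst h4; subst h5; rfl
    · intro u
      obtain ⟨u', hu'⟩ := exists_nsmul_eq_of_coprime (m * n) hm u
      refine ⟨(⟨f ((m * Tb : AddMonoid.End A) u', - (Ta * Sb : AddMonoid.End A) u'), ⟨_, rfl⟩⟩,
        ⟨N u', hNC u'⟩), ?_⟩
      show f _ + N u' = u
      rw [← hu', hdecomp u']; abel
  have h2 : Nat.card f.range * Nat.card C = Nat.card A := hcompl.card_mul_card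
  have h1 : Nat.card f.ker * Nat.card f.range = Nat.card A * Nat.card A := by
    rw [← AddSubgroup.index_ker, AddSubgroup.card_mul_index, Nat.card_prod]
  rw [hK, hCc]
  have hpos : 0 < Nat.card f.range := Nat.card_pos
  have h3 : Nat.card f.ker * Nat.card f.range = (Nat.card A * Nat.card C) * Nat.card f.range := by
    rw [h1]; nth_rewrite 2 [← h2]; ring
  exact Nat.eq_of_mul_eq_mul_right hpos h3

theorem fiber_count {X : Type*} [Group X] [Finite X] (V : Subgroup X) [V.Normal]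
    (hab : ∀ a ∈ V, ∀ b ∈ V, a * b = b * a) (G : Subgroup X)
    (hcop : (Nat.card V).Coprime (Nat.card G)) (g h : X) (hg : g ∈ G) (hh : h ∈ G)
    (hgh : g * h = h * g) :
    Nat.card {vw : ↥V × ↥V // (vw.1 : X) * (g * vw.2 * g⁻¹) = vw.2 * (h * vw.1 * h⁻¹)} =
      Nat.card ↥V * Nat.card {u : ↥V // g * u * g⁻¹ = (u : X) ∧ h * u * h⁻¹ = (u : X)} := by
  classical
  let _ : CommGroup ↥V :=
    { (inferInstance : Group ↥V) with mul_comm := fun x y => Subtype.ext (hab x x.2 y y.2) }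
  let θ : X →* AddMonoid.End (Additive ↥V) :=
    { toFun := fun x => MonoidHom.toAdditive ((MulAut.conjNormal x : ↥V ≃* ↥V) : ↥V →* ↥V)
      map_one' := by
        rw [map_one]; rfl
      map_mul' := by
        intro x y
        rw [map_mul]; rfl }
  have hθ : ∀ (x : X) (u : ↥V), ((Additive.toMul (θ x (Additive.ofMul u)) : ↥V) : X) = x * u * x⁻¹ := by
    intro x u
    rfl
  have hc : Commute (θ g) (θ h) := by
    rw [Commute, SemiconjBy, ← map_mul, ← map_mul, hgh]
  have h1 : (θ g) ^ (orderOf g) = 1 := by rw [← map_pow, pow_orderOf_eq_one, map_one]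
  have h2 : (θ h) ^ (orderOf h) = 1 := by rw [← map_pow, pow_orderOf_eq_one, map_one]
  have h3 : (orderOf g * orderOf h).Coprime (Nat.card (Additive ↥V)) := by
    have e : Nat.card (Additive ↥V) = Nat.card ↥V := rfl
    rw [e]
    apply Nat.Coprime.mul_left
    · exact (Nat.Coprime.coprime_dvd_left (G.orderOf_dvd_natCard hg) hcop.symm)
    · exact (Nat.Coprime.coprime_dvd_left (G.orderOf_dvd_natCard hh) hcop.symm)
  have key := count_aux (θ g) (θ h) hc (orderOf g) (orderOf h) h1 h2 h3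
  have e1 : Nat.card {vw : ↥V × ↥V // (vw.1 : X) * (g * vw.2 * g⁻¹) = vw.2 * (h * vw.1 * h⁻¹)} =
      Nat.card {p : Additive ↥V × Additive ↥V // p.1 + θ g p.2 = p.2 + θ h p.1} := by
    apply Nat.card_congr
    refine Equiv.subtypeEquiv (Equiv.prodCongr Additive.ofMul Additive.ofMul) ?_
    rintro ⟨v, w⟩
    constructor
    · intro hvw
      apply Additive.toMul.injective
      apply Subtype.ext
      exact hvw
    · intro hvw
      have := congrArg (fun z : Additive ↥V => ((Additive.toMul z : ↥V) : X)) hvw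
      exact this
  have e2 : Nat.card {u : ↥V // g * u * g⁻¹ = (u : X) ∧ h * u * h⁻¹ = (u : X)} =
      Nat.card {u : Additive ↥V // θ g u = u ∧ θ h u = u} := by
    apply Nat.card_congr
    refine Equiv.subtypeEquiv Additive.ofMul ?_
    intro u
    constructor
    · rintro ⟨hu1, hu2⟩
      exact ⟨Additive.toMul.injective (Subtype.ext hu1), Additive.toMul.injective (Subtype.ext hu2)⟩
    · rintro ⟨hu1, hu2⟩
      exact ⟨congrArg (fun z : Additive ↥V => ((Additive.toMul z : ↥V) : X)) hu1,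
        congrArg (fun z : Additive ↥V => ((Additive.toMul z : ↥V) : X)) hu2⟩
  rw [e1, e2, key]
  rfl

/-- number of commuting pairs of `G` centralising `u` -/
noncomputable def M {X : Type*} [Group X] (G : Subgroup X) (u : X) : ℕ :=
  Nat.card {gh : ↥G × ↥G // Commute gh.1 gh.2 ∧ (gh.1 : X) * u * (gh.1 : X)⁻¹ = u ∧
    (gh.2 : X) * u * (gh.2 : X)⁻¹ = u}

theorem total_count {X : Type*} [Group X] [Finite X] (V : Subgroup X) [V.Normal]
    (hab : ∀ a ∈ V, ∀ b ∈ V, a * b = b * a) (G : Subgroup X)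
    (hGV : Subgroup.IsComplement' V G)
    (hcop : (Nat.card V).Coprime (Nat.card G)) :
    Nat.card {p : X × X // Commute p.1 p.2} =
      Nat.card ↥V * ∑ᶠ u : ↥V, M G (u : X) := by
  classical
  have : Fintype ↥G := Fintype.ofFinite _
  have : Fintype ↥V := Fintype.ofFinite _
  have hinj : ∀ (v v' : ↥V) (g g' : ↥G), (v : X) * g = v' * g' → v = v' ∧ g = g' := by
    intro v v' g g' h
    have := hGV.1 (a₁ := (v, g)) (a₂ := (v', g')) h
    exact ⟨congrArg Prod.fst this, congrArg Prod.snd this⟩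
  let e : (↥G × ↥G) × (↥V × ↥V) ≃ X × X :=
    Equiv.ofBijective (fun t => ((t.2.1 : X) * t.1.1, (t.2.2 : X) * t.1.2)) (by
      constructor
      · rintro ⟨⟨g, h⟩, ⟨v, w⟩⟩ ⟨⟨g', h'⟩, ⟨v', w'⟩⟩ hh
        simp only [Prod.mk.injEq] at hh
        obtain ⟨h1, h2⟩ := hinj _ _ _ _ hh.1
        obtain ⟨h3, h4⟩ := hinj _ _ _ _ hh.2
        subst h1; subst h2; subst h3; subst h4; rfl
      · rintro ⟨x, y⟩
        obtain ⟨⟨v, g⟩, hvg⟩ := hGV.2 x
        obtain ⟨⟨w, h⟩, hwh⟩ := hGV.2 y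
        exact ⟨⟨⟨g, h⟩, ⟨v, w⟩⟩, Prod.ext hvg hwh⟩)
  have s1 : Nat.card {p : X × X // Commute p.1 p.2} =
      Nat.card {t : (↥G × ↥G) × (↥V × ↥V) //
        Commute ((t.2.1 : X) * t.1.1) ((t.2.2 : X) * t.1.2)} := by
    apply Nat.card_congr
    exact (Equiv.subtypeEquiv e (fun t => Iff.rfl)).symm
  have s2 : Nat.card {t : (↥G × ↥G) × (↥V × ↥V) //
        Commute ((t.2.1 : X) * t.1.1) ((t.2.2 : X) * t.1.2)} =
      ∑ gh : ↥G × ↥G, Nat.card {vw : ↥V × ↥V //
        Commute ((vw.1 : X) * gh.1) ((vw.2 : X) * gh.2)} := by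
    rw [← Nat.card_sigma]
    apply Nat.card_congr
    exact Equiv.subtypeProdEquivSigmaSubtype
      (fun (gh : ↥G × ↥G) (vw : ↥V × ↥V) => Commute ((vw.1 : X) * gh.1) ((vw.2 : X) * gh.2))
  have s3 : ∀ gh : ↥G × ↥G, Nat.card {vw : ↥V × ↥V //
        Commute ((vw.1 : X) * gh.1) ((vw.2 : X) * gh.2)} =
      Nat.card ↥V * Nat.card {u : ↥V // Commute gh.1 gh.2 ∧
        (gh.1 : X) * u * (gh.1 : X)⁻¹ = u ∧ (gh.2 : X) * u * (gh.2 : X)⁻¹ = u} := by
    rintro ⟨g, h⟩
    by_cases hc : Commute g h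
    · have hc' : (g : X) * h = h * g := by
        have := congrArg (Subtype.val) hc.eq
        simpa using this
      have key := fiber_count V hab G hcop (g : X) (h : X) g.2 h.2 hc'
      have e1 : Nat.card {vw : ↥V × ↥V // Commute ((vw.1 : X) * g) ((vw.2 : X) * h)} =
          Nat.card {vw : ↥V × ↥V //
            (vw.1 : X) * ((g : X) * vw.2 * (g : X)⁻¹) = vw.2 * ((h : X) * vw.1 * (h : X)⁻¹)} := by
        apply Nat.card_congr
        apply Equiv.subtypeEquivRight
        rintro ⟨v, w⟩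
        show (v : X) * g * (w * h) = w * h * (v * g) ↔ _
        have a1 : (v : X) * g * (w * h) = (v : X) * ((g : X) * w * (g : X)⁻¹) * (g * h) := by group
        have a2 : (w : X) * h * (v * g) = (w : X) * ((h : X) * v * (h : X)⁻¹) * (g * h) := by
          rw [hc']; group
        rw [a1, a2, mul_left_inj]
      have e2 : Nat.card {u : ↥V // Commute g h ∧
          (g : X) * u * (g : X)⁻¹ = u ∧ (h : X) * u * (h : X)⁻¹ = u} =
          Nat.card {u : ↥V // (g : X) * u * (g : X)⁻¹ = (u : X) ∧ (h : X) * u * (h : X)⁻¹ = (u : X)} := by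
        apply Nat.card_congr
        apply Equiv.subtypeEquivRight
        intro u
        exact ⟨fun hu => hu.2, fun hu => ⟨hc, hu⟩⟩
      rw [e1, e2, key]
    · have e1 : IsEmpty {vw : ↥V × ↥V // Commute ((vw.1 : X) * g) ((vw.2 : X) * h)} := by
        constructor
        rintro ⟨⟨v, w⟩, hvw⟩
        apply hc
        have hvw' : (v : X) * g * (w * h) = w * h * (v * g) := hvw
        have a1 : (v : X) * g * (w * h) = (v : X) * ((g : X) * w * (g : X)⁻¹) * (g * h) := by group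
        have a2 : (w : X) * h * (v * g) = (w : X) * ((h : X) * v * (h : X)⁻¹) * (h * g) := by group
        rw [a1, a2] at hvw'
        have m1 : (g : X) * w * (g : X)⁻¹ ∈ V := ‹V.Normal›.conj_mem _ w.2 _
        have m2 : (h : X) * v * (h : X)⁻¹ ∈ V := ‹V.Normal›.conj_mem _ v.2 _
        have := (hinj (v * ⟨_, m1⟩) (w * ⟨_, m2⟩) (g * h) (h * g) hvw').2
        exact this
      have e2 : IsEmpty {u : ↥V // Commute g h ∧
          (g : X) * u * (g : X)⁻¹ = u ∧ (h : X) * u * (h : X)⁻¹ = u} := by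
        constructor
        rintro ⟨u, hu⟩
        exact hc hu.1
      have z1 : Nat.card {vw : ↥V × ↥V // Commute ((vw.1 : X) * g) ((vw.2 : X) * h)} = 0 :=
        Nat.card_of_isEmpty
      have z2 : Nat.card {u : ↥V // Commute g h ∧
          (g : X) * u * (g : X)⁻¹ = u ∧ (h : X) * u * (h : X)⁻¹ = u} = 0 := Nat.card_of_isEmpty
      show Nat.card {vw : ↥V × ↥V // Commute ((vw.1 : X) * g) ((vw.2 : X) * h)} =
        Nat.card ↥V * Nat.card {u : ↥V // Commute g h ∧
          (g : X) * u * (g : X)⁻¹ = u ∧ (h : X) * u * (h : X)⁻¹ = u}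
      rw [z1, z2, mul_zero]
  have s4 : ∑ gh : ↥G × ↥G, Nat.card {u : ↥V // Commute gh.1 gh.2 ∧
        (gh.1 : X) * u * (gh.1 : X)⁻¹ = u ∧ (gh.2 : X) * u * (gh.2 : X)⁻¹ = u} =
      ∑ u : ↥V, M G (u : X) := by
    rw [← Nat.card_sigma]
    unfold M
    rw [← Nat.card_sigma]
    apply Nat.card_congr
    refine (Equiv.subtypeProdEquivSigmaSubtype
      (fun (gh : ↥G × ↥G) (u : ↥V) => Commute gh.1 gh.2 ∧
        (gh.1 : X) * u * (gh.1 : X)⁻¹ = u ∧ (gh.2 : X) * u * (gh.2 : X)⁻¹ = u)).symm.trans ?_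
    refine Equiv.trans ?_ (Equiv.subtypeProdEquivSigmaSubtype
      (fun (u : ↥V) (gh : ↥G × ↥G) => Commute gh.1 gh.2 ∧
        (gh.1 : X) * u * (gh.1 : X)⁻¹ = u ∧ (gh.2 : X) * u * (gh.2 : X)⁻¹ = u))
    exact Equiv.subtypeEquiv (Equiv.prodComm _ _) (fun t => Iff.rfl)
  rw [s1, s2, Finset.sum_congr rfl (fun gh _ => s3 gh), ← Finset.mul_sum, s4, finsum_eq_sum_of_fintype]

theorem M_eq {X : Type*} [Group X] [Finite X] (G : Subgroup X) (u : X) :
    M G u = Nat.card (ConjClasses ↥(G ⊓ Subgroup.centralizer ({u} : Set X))) *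
      Nat.card ↥(G ⊓ Subgroup.centralizer ({u} : Set X)) := by
  rw [← card_comm_eq_card_conjClasses_mul_card]
  unfold M
  symm
  have hmem : ∀ c : X, c ∈ G ⊓ Subgroup.centralizer ({u} : Set X) ↔ (c ∈ G ∧ c * u * c⁻¹ = u) := by
    intro c
    rw [Subgroup.mem_inf, Subgroup.mem_centralizer_iff]
    constructor
    · rintro ⟨h1, h2⟩
      refine ⟨h1, ?_⟩
      have := h2 u rfl
      rw [← this]; group
    · rintro ⟨h1, h2⟩
      refine ⟨h1, ?_⟩
      intro x hx
      rw [Set.mem_singleton_iff] at hx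
      subst hx
      nth_rewrite 1 [← h2]; group
  apply Nat.card_eq_of_bijective
    (fun cd : {cd : ↥(G ⊓ Subgroup.centralizer ({u} : Set X)) ×
        ↥(G ⊓ Subgroup.centralizer ({u} : Set X)) // Commute cd.1 cd.2} =>
      (⟨(⟨cd.1.1.1, ((hmem _).1 cd.1.1.2).1⟩, ⟨cd.1.2.1, ((hmem _).1 cd.1.2.2).1⟩),
        by
          refine ⟨?_, ((hmem _).1 cd.1.1.2).2, ((hmem _).1 cd.1.2.2).2⟩
          have := congrArg Subtype.val cd.2.eq
          exact Subtype.ext this⟩ :
        {gh : ↥G × ↥G // Commute gh.1 gh.2 ∧ (gh.1 : X) * u * (gh.1 : X)⁻¹ = u ∧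
          (gh.2 : X) * u * (gh.2 : X)⁻¹ = u}))
  constructor
  · rintro ⟨⟨⟨c, hc⟩, ⟨d, hd⟩⟩, hcd⟩ ⟨⟨⟨c', hc'⟩, ⟨d', hd'⟩⟩, hcd'⟩ h
    simp only [Subtype.mk.injEq, Prod.mk.injEq] at h
    obtain ⟨h1, h2⟩ := h
    subst h1; subst h2; rfl
  · rintro ⟨⟨⟨g, hg⟩, ⟨h, hh⟩⟩, hc, hgu, hhu⟩
    refine ⟨⟨(⟨g, (hmem _).2 ⟨hg, hgu⟩⟩, ⟨h, (hmem _).2 ⟨hh, hhu⟩⟩), ?_⟩, rfl⟩
    have := congrArg Subtype.val hc.eq
    exact Subtype.ext this

theorem M_conj {X : Type*} [Group X] (G : Subgroup X) (u x : X) (hx : x ∈ G) :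
    M G (x * u * x⁻¹) = M G u := by
  unfold M
  symm
  apply Nat.card_congr
  refine Equiv.subtypeEquiv (Equiv.prodCongr (MulAut.conj (⟨x, hx⟩ : ↥G)).toEquiv
    (MulAut.conj (⟨x, hx⟩ : ↥G)).toEquiv) ?_
  rintro ⟨⟨g, hg⟩, ⟨h, hh⟩⟩
  show (Commute (⟨g, hg⟩ : ↥G) ⟨h, hh⟩ ∧ g * u * g⁻¹ = u ∧ h * u * h⁻¹ = u) ↔
    (Commute ((⟨x, hx⟩ : ↥G) * ⟨g, hg⟩ * (⟨x, hx⟩ : ↥G)⁻¹) ((⟨x, hx⟩ : ↥G) * ⟨h, hh⟩ * (⟨x, hx⟩ : ↥G)⁻¹) ∧
      (x * g * x⁻¹) * (x * u * x⁻¹) * (x * g * x⁻¹)⁻¹ = x * u * x⁻¹ ∧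
      (x * h * x⁻¹) * (x * u * x⁻¹) * (x * h * x⁻¹)⁻¹ = x * u * x⁻¹)
  have e1 : (x * g * x⁻¹) * (x * u * x⁻¹) * (x * g * x⁻¹)⁻¹ = x * (g * u * g⁻¹) * x⁻¹ := by group
  have e2 : (x * h * x⁻¹) * (x * u * x⁻¹) * (x * h * x⁻¹)⁻¹ = x * (h * u * h⁻¹) * x⁻¹ := by group
  rw [e1, e2]
  constructor
  · rintro ⟨h1, h2, h3⟩
    refine ⟨?_, by rw [h2], by rw [h3]⟩
    have h1' : g * h = h * g := congrArg Subtype.val h1.eq
    apply Subtype.ext
    show x * g * x⁻¹ * (x * h * x⁻¹) = x * h * x⁻¹ * (x * g * x⁻¹)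
    have a1 : x * g * x⁻¹ * (x * h * x⁻¹) = x * (g * h) * x⁻¹ := by group
    have a2 : x * h * x⁻¹ * (x * g * x⁻¹) = x * (h * g) * x⁻¹ := by group
    rw [a1, a2, h1']
  · rintro ⟨h1, h2, h3⟩
    refine ⟨?_, ?_, ?_⟩
    · have h1' : x * g * x⁻¹ * (x * h * x⁻¹) = x * h * x⁻¹ * (x * g * x⁻¹) :=
        congrArg Subtype.val h1.eq
      have a1 : x * g * x⁻¹ * (x * h * x⁻¹) = x * (g * h) * x⁻¹ := by group
      have a2 : x * h * x⁻¹ * (x * g * x⁻¹) = x * (h * g) * x⁻¹ := by group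
      rw [a1, a2] at h1'
      apply Subtype.ext
      show g * h = h * g
      exact mul_left_cancel (mul_right_cancel h1')
    · exact mul_left_cancel (mul_right_cancel h2)
    · exact mul_left_cancel (mul_right_cancel h3)

theorem orbit_count {X : Type*} [Group X] [Finite X] (V : Subgroup X) [V.Normal] (G : Subgroup X)
    (r : ↥V → X) (s : X) (hs : s ∈ V)
    (h1 : ∀ x ∈ G, ∀ u : ↥V, (u : X) = x⁻¹ * s * x → r u = s)
    (h2 : ∀ u : ↥V, r u = s → ∃ x ∈ G, x * u * x⁻¹ = s) :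
    Nat.card {u : ↥V // r u = s} * Nat.card ↥(G ⊓ Subgroup.centralizer ({s} : Set X)) =
      Nat.card ↥G := by
  classical
  have : Fintype {u : ↥V // r u = s} := Fintype.ofFinite _
  let q : ↥G → {u : ↥V // r u = s} := fun x =>
    ⟨⟨(x : X)⁻¹ * s * x, by
        have := ‹V.Normal›.conj_mem s hs (x : X)⁻¹
        rwa [inv_inv] at this⟩, h1 x x.2 _ rfl⟩
  have hq : Function.Surjective q := by
    rintro ⟨u, hu⟩
    obtain ⟨x, hx, hxu⟩ := h2 u hu
    refine ⟨⟨x, hx⟩, ?_⟩
    apply Subtype.ext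
    apply Subtype.ext
    show x⁻¹ * s * x = u
    rw [← hxu]; group
  have hmem : ∀ c : X, c ∈ G ⊓ Subgroup.centralizer ({s} : Set X) ↔ (c ∈ G ∧ s * c = c * s) := by
    intro c
    rw [Subgroup.mem_inf, Subgroup.mem_centralizer_iff]
    constructor
    · rintro ⟨h1, h2⟩
      exact ⟨h1, h2 s rfl⟩
    · rintro ⟨h1, h2⟩
      refine ⟨h1, ?_⟩
      intro x hx
      rw [Set.mem_singleton_iff] at hx
      subst hx
      exact h2
  have hfib : ∀ y : {u : ↥V // r u = s}, Nat.card {x : ↥G // q x = y} =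
      Nat.card ↥(G ⊓ Subgroup.centralizer ({s} : Set X)) := by
    intro y
    obtain ⟨x0, hx0⟩ := hq y
    symm
    apply Nat.card_eq_of_bijective
      (fun c : ↥(G ⊓ Subgroup.centralizer ({s} : Set X)) =>
        (⟨⟨(c : X) * x0, G.mul_mem ((hmem _).1 c.2).1 x0.2⟩, by
          rw [← hx0]
          apply Subtype.ext
          apply Subtype.ext
          show ((c : X) * x0)⁻¹ * s * ((c : X) * x0) = (x0 : X)⁻¹ * s * x0
          have hc := ((hmem _).1 c.2).2
          calc ((c : X) * x0)⁻¹ * s * ((c : X) * x0) = (x0 : X)⁻¹ * ((c : X)⁻¹ * (s * c)) * x0 := by group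
            _ = (x0 : X)⁻¹ * s * x0 := by rw [hc]; group⟩ : {x : ↥G // q x = y}))
    constructor
    · rintro ⟨c, hc⟩ ⟨c', hc'⟩ h
      have h' : c * (x0 : X) = c' * x0 := congrArg (fun z : {x : ↥G // q x = y} => ((z : ↥G) : X)) h
      have : c = c' := mul_right_cancel h'
      subst this; rfl
    · rintro ⟨⟨x, hx⟩, hxy⟩
      have hxy' : x⁻¹ * s * x = (x0 : X)⁻¹ * s * x0 := by
        have := congrArg (fun z : {u : ↥V // r u = s} => ((z : ↥V) : X)) (hxy.trans hx0.symm)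
        exact this
      have hcomm : s * (x * (x0 : X)⁻¹) = (x * (x0 : X)⁻¹) * s := by
        calc s * (x * (x0 : X)⁻¹) = x * (x⁻¹ * s * x) * (x0 : X)⁻¹ := by group
          _ = x * ((x0 : X)⁻¹ * s * x0) * (x0 : X)⁻¹ := by rw [hxy']
          _ = (x * (x0 : X)⁻¹) * s := by group
      refine ⟨⟨x * (x0 : X)⁻¹, (hmem _).2 ⟨G.mul_mem hx (G.inv_mem x0.2), hcomm⟩⟩, ?_⟩
      apply Subtype.ext
      apply Subtype.ext
      show x * (x0 : X)⁻¹ * x0 = x
      group
  have e : Nat.card ↥G = ∑ y : {u : ↥V // r u = s}, Nat.card {x : ↥G // q x = y} := by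
    rw [← Nat.card_sigma]
    exact Nat.card_congr (Equiv.sigmaFiberEquiv q).symm
  rw [e, Finset.sum_congr rfl (fun y _ => hfib y), Finset.sum_const, Finset.card_univ,
    smul_eq_mul, Nat.card_eq_fintype_card]

/-- Let X be a finite group, V an abelian normal subgroup of X (any two elements of V commute) and G a complement to V in X whose order is coprime to that of V. Let S be a set of representatives of the orbits of G on V under conjugation: S lies in V and every element of V is conjugate under G to exactly one member of S. Then the number of conjugacy classes of X equals the sum, over s in S, of the number of conjugacy classes of the centralizer of s in G. -/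
theorem result {X : Type*} [Group X] [Finite X] (V : Subgroup X) [V.Normal] (hab : ∀ a ∈ V, ∀ b ∈ V, a * b = b * a) (G : Subgroup X) (hGV : Subgroup.IsComplement' V G) (hcop : (Nat.card V).Coprime (Nat.card G)) (S : Finset X) (hSV : ∀ s ∈ S, s ∈ V) (hrep : ∀ v ∈ V, ∃! s, s ∈ S ∧ ∃ g ∈ G, g * v * g⁻¹ = s) : Nat.card (ConjClasses X) = ∑ s ∈ S, Nat.card (ConjClasses ↥(G ⊓ Subgroup.centralizer ({s} : Set X))) := by
  classical
  have : Fintype ↥V := Fintype.ofFinite _
  choose r hr using fun u : ↥V => (hrep u u.2).exists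
  have hruniq : ∀ (u : ↥V) (s : X), s ∈ S → (∃ g ∈ G, g * (u : X) * g⁻¹ = s) → r u = s := by
    intro u s hs hg
    exact (hrep u u.2).unique ⟨(hr u).1, (hr u).2⟩ ⟨hs, hg⟩
  have htot := total_count V hab G hGV hcop
  rw [card_comm_eq_card_conjClasses_mul_card, finsum_eq_sum_of_fintype] at htot
  have hsum : ∑ u : ↥V, M G (u : X) = Nat.card ↥G *
      ∑ s ∈ S, Nat.card (ConjClasses ↥(G ⊓ Subgroup.centralizer ({s} : Set X))) := by
    have hfw := Finset.sum_fiberwise_of_maps_to (s := (Finset.univ : Finset ↥V)) (t := S)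
      (g := r) (fun u _ => (hr u).1) (fun u => M G (u : X))
    rw [← hfw, Finset.mul_sum]
    apply Finset.sum_congr rfl
    intro s hs
    have h1 : ∀ u ∈ Finset.univ.filter (fun u : ↥V => r u = s), M G (u : X) = M G s := by
      intro u hu
      rw [Finset.mem_filter] at hu
      obtain ⟨g, hg, hgu⟩ := (hr u).2
      rw [← hu.2, ← hgu, M_conj G _ g hg]
    rw [Finset.sum_congr rfl h1, Finset.sum_const, smul_eq_mul, M_eq]
    have horb := orbit_count V G r s (hSV s hs) (by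
        intro x hx u hu
        apply hruniq u s hs
        refine ⟨x, hx, ?_⟩
        rw [hu]; group) (by
        intro u hu
        obtain ⟨g, hg, hgu⟩ := (hr u).2
        exact ⟨g, hg, by rw [hgu, hu]⟩)
    have hcard : (Finset.univ.filter (fun u : ↥V => r u = s)).card =
        Nat.card {u : ↥V // r u = s} := by
      rw [Nat.card_eq_fintype_card, Fintype.card_subtype]
    rw [hcard, ← horb]
    ring
  rw [hsum] at htot
  have hX : Nat.card X = Nat.card ↥V * Nat.card ↥G := hGV.card_mul_card.symm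
  rw [hX] at htot
  have hpos : 0 < Nat.card ↥V * Nat.card ↥G := Nat.mul_pos Nat.card_pos Nat.card_pos
  apply Nat.eq_of_mul_eq_mul_right hpos
  rw [htot]; ring

end Cfsg.Agent.S4956
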