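import Cfsg.Statements.S4958
import Mathlib
import Cfsg.Agent.Lib.Helper85.KnorrChain
import Cfsg.Agent.Lib.Helper85.KnorrCore
import Cfsg.Agent.Lib.Helper85.Ito
import Cfsg.Agent.S4955
-- import your own Cfsg.Agent.* helpers here

set_option autoImplicit false
open Cfsg

namespace Cfsg.Agent.S4958

open Cfsg.Agent.Lib Cfsg.Agent.Lib.Helper85
open scoped ComplexConjugate

universe u

theorem centralizer_mul_eq {X : Type*} [Group X] (c y : X) (hcy : Commute c y) (m p : ℕ)
    (hc : c ^ m = 1) (hy : y ^ p = 1) (hcop : Nat.Coprime m p) :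
    Subgroup.centralizer ({c * y} : Set X) =
      Subgroup.centralizer {c} ⊓ Subgroup.centralizer {y} := by
  ext x
  simp only [Subgroup.mem_inf, Subgroup.mem_centralizer_singleton_iff]
  constructor
  · intro h
    have hx : Commute x (c * y) := h
    have hb : (m : ℤ) * Nat.gcdA m p + (p : ℤ) * Nat.gcdB m p = 1 := by
      have := Nat.gcd_eq_gcd_ab m p
      rw [hcop.gcd_eq_one] at this
      rw [← this]
      simp
    have h1 : (c * y) ^ ((m : ℤ) * Nat.gcdA m p) = y := by
      rw [hcy.mul_zpow, zpow_mul, zpow_natCast, hc, one_zpow, one_mul]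
      have h3 : (m : ℤ) * Nat.gcdA m p = 1 - (p : ℤ) * Nat.gcdB m p := by linarith
      rw [h3, zpow_sub, zpow_one, zpow_mul, zpow_natCast, hy, one_zpow, inv_one, mul_one]
    have h2 : (c * y) ^ ((p : ℤ) * Nat.gcdB m p) = c := by
      rw [hcy.mul_zpow, zpow_mul y, zpow_natCast, hy, one_zpow, mul_one]
      have h3 : (p : ℤ) * Nat.gcdB m p = 1 - (m : ℤ) * Nat.gcdA m p := by linarith
      rw [h3, zpow_sub, zpow_one, zpow_mul, zpow_natCast, hc, one_zpow, inv_one, mul_one]
    have e1 := hx.zpow_right ((p : ℤ) * Nat.gcdB m p)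
    have e2 := hx.zpow_right ((m : ℤ) * Nat.gcdA m p)
    rw [h2] at e1
    rw [h1] at e2
    exact ⟨e1.eq, e2.eq⟩
  · rintro ⟨h1, h2⟩
    rw [← mul_assoc, h1, mul_assoc, h2, mul_assoc]

theorem centralizer_eq_of_mem_zpowers {X : Type*} [Group X] (p : ℕ) [Fact p.Prime] (v : X)
    (hvp : orderOf v = p) (y : X) (hy : y ∈ Subgroup.zpowers v) (hy1 : y ≠ 1) :
    Subgroup.centralizer ({y} : Set X) = Subgroup.centralizer {v} := by
  obtain ⟨k, rfl⟩ := Subgroup.mem_zpowers_iff.mp hy
  have hcard : Nat.card ↥(Subgroup.zpowers v) = p := by rw [Nat.card_zpowers, hvp]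
  have hg1 : (⟨v ^ k, hy⟩ : ↥(Subgroup.zpowers v)) ≠ 1 := by
    intro h
    exact hy1 (congrArg Subtype.val h)
  have hmem := mem_zpowers_of_prime_card (G := ↥(Subgroup.zpowers v)) hcard
    (g' := ⟨v, Subgroup.mem_zpowers v⟩) hg1
  obtain ⟨j, hj⟩ := Subgroup.mem_zpowers_iff.mp hmem
  have hj' : (v ^ k) ^ j = v := by
    have := congrArg Subtype.val hj
    simpa using this
  ext x
  simp only [Subgroup.mem_centralizer_singleton_iff]
  constructor
  · intro h
    have hx : Commute x (v ^ k) := h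
    have e := hx.zpow_right j
    rw [hj'] at e
    exact e.eq
  · intro h
    have hx : Commute x v := h
    exact (hx.zpow_right k).eq

theorem card_centralizer_split {X : Type*} [Group X] [Finite X] (V : Subgroup X)
    [hVn : V.Normal] (hVab : ∀ a ∈ V, ∀ b ∈ V, a * b = b * a) (G : Subgroup X)
    (hGV : Subgroup.IsComplement' V G) (v : X) (hv : v ∈ V) (Cs : Subgroup X)
    (hCs : Cs = G ⊓ Subgroup.centralizer ({v} : Set X))
    (hab : ∀ a ∈ Cs, ∀ b ∈ Cs, a * b = b * a) (c : X) (hc : c ∈ Cs) :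
    Nat.card ↥(Subgroup.centralizer ({c} : Set X) ⊓ Subgroup.centralizer ({v} : Set X)) =
      Nat.card ↥(V ⊓ Subgroup.centralizer ({c} : Set X)) * Nat.card ↥Cs := by
  have hCsG : ∀ x ∈ Cs, x ∈ G := fun x hx => by rw [hCs] at hx; exact hx.1
  have hCsv : ∀ x ∈ Cs, x * v = v * x := fun x hx => by
    rw [hCs] at hx
    exact Subgroup.mem_centralizer_singleton_iff.mp hx.2
  let f : ↥(V ⊓ Subgroup.centralizer ({c} : Set X)) × ↥Cs →
      ↥(Subgroup.centralizer ({c} : Set X) ⊓ Subgroup.centralizer ({v} : Set X)) :=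
    fun z => ⟨(z.1 : X) * (z.2 : X), by
      have hu1 : (z.1 : X) * c = c * (z.1 : X) := Subgroup.mem_centralizer_singleton_iff.mp z.1.2.2
      have hu2 : (z.1 : X) * v = v * (z.1 : X) := hVab _ z.1.2.1 v hv
      have hg1 : (z.2 : X) * c = c * (z.2 : X) := hab _ z.2.2 c hc
      have hg2 : (z.2 : X) * v = v * (z.2 : X) := hCsv _ z.2.2
      exact ⟨Subgroup.mem_centralizer_singleton_iff.mpr
          (by rw [mul_assoc, hg1, ← mul_assoc, hu1, mul_assoc]),
        Subgroup.mem_centralizer_singleton_iff.mpr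
          (by rw [mul_assoc, hg2, ← mul_assoc, hu2, mul_assoc])⟩⟩
  have hf : Function.Bijective f := by
    constructor
    · intro z z' hzz'
      have h1 : (z.1 : X) * (z.2 : X) = (z'.1 : X) * (z'.2 : X) := congrArg Subtype.val hzz'
      have h2 := hGV.1 (a₁ := (⟨(z.1 : X), z.1.2.1⟩, ⟨(z.2 : X), hCsG _ z.2.2⟩))
        (a₂ := (⟨(z'.1 : X), z'.1.2.1⟩, ⟨(z'.2 : X), hCsG _ z'.2.2⟩)) h1
      have h3 := congrArg (fun t => ((Prod.fst t : V) : X)) h2
      have h4 := congrArg (fun t => ((Prod.snd t : G) : X)) h2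
      exact Prod.ext (Subtype.ext h3) (Subtype.ext h4)
    · intro x
      have hx1 : (x : X) * c = c * (x : X) := Subgroup.mem_centralizer_singleton_iff.mp x.2.1
      have hx2 : (x : X) * v = v * (x : X) := Subgroup.mem_centralizer_singleton_iff.mp x.2.2
      obtain ⟨⟨a, g⟩, h⟩ := hGV.2 (x : X)
      have h' : (a : X) * (g : X) = x := h
      have hav : (a : X) * v = v * (a : X) := hVab _ a.2 v hv
      have hgv : (g : X) * v = v * (g : X) := by
        have e : (g : X) = (a : X)⁻¹ * x := by rw [← h']; simp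
        have c1 : Commute (a : X) v := hav
        have c2 : Commute (x : X) v := hx2
        have c3 : Commute ((a : X)⁻¹ * x) v := (c1.inv_left).mul_left c2
        rw [e]
        exact c3.eq
      have hgCs : (g : X) ∈ Cs := by
        rw [hCs]
        exact ⟨g.2, Subgroup.mem_centralizer_singleton_iff.mpr hgv⟩
      have hgc : (g : X) * c = c * (g : X) := hab _ hgCs c hc
      have hac : (a : X) * c = c * (a : X) := by
        have e1 : (a : X) * ((g : X) * c) = (c * (a : X) * c⁻¹) * (c * (g : X)) := by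
          rw [← mul_assoc, h', hx1, ← h']
          group
        have h2 := hGV.1 (a₁ := (a, ⟨(g : X) * c, G.mul_mem g.2 (hCsG c hc)⟩))
          (a₂ := (⟨c * (a : X) * c⁻¹, hVn.conj_mem _ a.2 c⟩,
            ⟨c * (g : X), G.mul_mem (hCsG c hc) g.2⟩)) e1
        have h3 := congrArg (fun t => ((Prod.fst t : V) : X)) h2
        have h4 : (a : X) = c * (a : X) * c⁻¹ := h3
        calc (a : X) * c = c * (a : X) * c⁻¹ * c := by rw [← h4]
          _ = c * (a : X) := by group
      refine ⟨(⟨(a : X), a.2, Subgroup.mem_centralizer_singleton_iff.mpr hac⟩,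
        ⟨(g : X), hgCs⟩), Subtype.ext h'⟩
  rw [← Nat.card_congr (Equiv.ofBijective f hf), Nat.card_prod]

open scoped IsMulCommutative in
theorem card_fx_eq {X : Type u} [Group X] [Finite X] (V : Subgroup X) [V.Normal]
    [IsMulCommutative ↥V] (Cs : Subgroup X) [IsMulCommutative ↥Cs] (c : ↥Cs) :
    Nat.card ↥(Knorr.fx ((MulAut.conjNormal (H := V)).comp Cs.subtype) c) =
      Nat.card ↥(V ⊓ Subgroup.centralizer ({(c : X)} : Set X)) := by
  have hα : ∀ u : ↥V, ((((MulAut.conjNormal (H := V)).comp Cs.subtype) c u : ↥V) : X) =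
      (c : X) * u * (c : X)⁻¹ := fun u => MulAut.conjNormal_apply _ _
  apply Nat.card_congr
  refine
    { toFun := fun u => ⟨((u : ↥V) : X), Subgroup.mem_inf.mpr ⟨(u : ↥V).2,
        Subgroup.mem_centralizer_singleton_iff.mpr ?_⟩⟩
      invFun := fun u => ⟨⟨(u : X), u.2.1⟩, ?_⟩
      left_inv := fun _ => rfl
      right_inv := fun _ => rfl }
  · have h1 := congrArg Subtype.val ((Knorr.mem_fx _ c (u : ↥V)).mp u.2)
    rw [hα] at h1
    calc ((u : ↥V) : X) * (c : X) = (c : X) * ((u : ↥V) : X) * (c : X)⁻¹ * (c : X) := by rw [h1]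
      _ = (c : X) * ((u : ↥V) : X) := by group
  · rw [Knorr.mem_fx]
    apply Subtype.ext
    rw [hα]
    have h1 : (u : X) * (c : X) = (c : X) * (u : X) :=
      Subgroup.mem_centralizer_singleton_iff.mp u.2.2
    show (c : X) * (u : X) * (c : X)⁻¹ = (u : X)
    rw [← h1, mul_inv_cancel_right]

open scoped IsMulCommutative in
theorem knorr_main {X : Type u} [Group X] [Finite X] (p : ℕ) [hp : Fact p.Prime] (V : Subgroup X)
    [hVn : V.Normal] (hVexp : ∀ v ∈ V, v ^ p = 1) (hidx : ¬ p ∣ V.index)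
    (hself : Subgroup.centralizer (V : Set X) = V) (G : Subgroup X)
    (hGV : Subgroup.IsComplement' V G) (v : X) (hv : v ∈ V) (Cs : Subgroup X)
    (hCs : Cs = G ⊓ Subgroup.centralizer ({v} : Set X))
    (hab : ∀ a ∈ Cs, ∀ b ∈ Cs, a * b = b * a) :
    Nat.card (ConjClasses X) ≤ Nat.card V := by
  classical
  have hVab : ∀ a ∈ V, ∀ b ∈ V, a * b = b * a := by
    intro a ha b hb
    have hb' : b ∈ Subgroup.centralizer (V : Set X) := by rw [hself]; exact hb
    exact hb' a ha
  have hCsG : ∀ x ∈ Cs, x ∈ G := fun x hx => by rw [hCs] at hx; exact hx.1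
  have hCsv : ∀ x ∈ Cs, x * v = v * x := fun x hx => by
    rw [hCs] at hx
    exact Subgroup.mem_centralizer_singleton_iff.mp hx.2
  let _ : Fintype X := Fintype.ofFinite X
  have hfinI := Helper4.irr_finite (G := X)
  let _ : Fintype (IrrCharacter X) := Fintype.ofFinite _
  haveI : IsMulCommutative ↥Cs := ⟨⟨fun a b => Subtype.ext (hab a a.2 b b.2)⟩⟩
  haveI : IsMulCommutative ↥V := ⟨⟨fun a b => Subtype.ext (hVab a a.2 b b.2)⟩⟩
  let _ : Fintype ↥Cs := Fintype.ofFinite _
  -- coprimality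
  have hcardG : Nat.card G = V.index := hGV.symm.index_eq_card.symm
  have hcopG : Nat.Coprime (Nat.card G) p := by
    rw [hcardG]
    exact ((Nat.Prime.coprime_iff_not_dvd hp.out).mpr hidx).symm
  have hcopC : Nat.Coprime (Nat.card Cs) p :=
    Nat.Coprime.coprime_dvd_left (Subgroup.card_dvd_of_le (fun x hx => hCsG x hx)) hcopG
  -- the action
  let α : ↥Cs →* MulAut ↥V := (MulAut.conjNormal (H := V)).comp Cs.subtype
  have hα : ∀ (c : ↥Cs) (u : ↥V), ((α c u : ↥V) : X) = (c : X) * u * (c : X)⁻¹ :=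
    fun c u => MulAut.conjNormal_apply _ _
  have hfaith : ∀ c : ↥Cs, (∀ u : ↥V, α c u = u) → c = 1 := by
    intro c hc
    have h1 : (c : X) ∈ Subgroup.centralizer (V : Set X) := by
      rw [Subgroup.mem_centralizer_iff]
      intro u hu
      have h2 := congrArg Subtype.val (hc ⟨u, hu⟩)
      rw [hα] at h2
      have h3 : (c : X) * u * (c : X)⁻¹ = u := h2
      calc u * (c : X) = (c : X) * u * (c : X)⁻¹ * (c : X) := by rw [h3]
        _ = (c : X) * u := by group
    rw [hself] at h1
    have h2 : (c : X) ∈ V ⊓ G := ⟨h1, hCsG _ c.2⟩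
    rw [hGV.disjoint.eq_bot, Subgroup.mem_bot] at h2
    exact Subtype.ext h2
  have hT := Knorr.tprop_of_faithful α p
    (fun a => Subtype.ext (by simpa using hVexp a a.2)) hcopC hfaith
  have hfx : ∀ c : ↥Cs, Nat.card ↥(Knorr.fx α c) =
      Nat.card ↥(V ⊓ Subgroup.centralizer ({(c : X)} : Set X)) := fun c => card_fx_eq V Cs c
  set w : ↥Cs → ℝ := fun c => (Nat.card V : ℝ) / (Nat.card ↥(Knorr.fx α c) : ℝ) with hw
  have hw0 : ∀ c, 0 ≤ w c := fun c => by positivity
  have hN : (0 : ℝ) < (Nat.card ↥Cs : ℝ) := by exact_mod_cast (Nat.card_pos (α := ↥Cs))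
  -- the weight times the number of fixed points
  have hwmul : ∀ c : ↥Cs, w c * ((Nat.card ↥(V ⊓ Subgroup.centralizer ({(c : X)} : Set X)) *
      Nat.card ↥Cs : ℕ) : ℝ) = (Nat.card V : ℝ) * (Nat.card ↥Cs : ℝ) := by
    intro c
    have hpos : (0 : ℝ) < (Nat.card ↥(Knorr.fx α c) : ℝ) := by
      exact_mod_cast (Nat.card_pos (α := ↥(Knorr.fx α c)))
    rw [hw, ← hfx c]
    push_cast
    field_simp
  -- nonvanishing
  have hχv : ∀ χ : IrrCharacter X, ∀ y ∈ V, (χ : X → ℂ) y ≠ 0 := by
    intro χ y hy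
    have hd : ¬ p ∣ charDegree (χ : X → ℂ) :=
      fun hdvd => hidx (hdvd.trans (ito_char V hVab χ.2))
    exact Cfsg.Agent.S4955.irr_pelt_ne_zero χ.2 hd y 1 (by rw [pow_one]; exact hVexp y hy)
  rw [← Helper4.card_irr, Nat.card_eq_fintype_card]
  by_cases hv1 : v = 1
  · -- the case v = 1
    have hcent1 : Subgroup.centralizer ({v} : Set X) = ⊤ := by
      rw [hv1]
      ext x
      simp [Subgroup.mem_centralizer_singleton_iff]
    have hper : ∀ χ : IrrCharacter X, (Nat.card ↥Cs : ℝ) ^ 2 ≤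
        ∑ c : ↥Cs, w c * ‖(χ : X → ℂ) (c : X)‖ ^ 2 := by
      intro χ
      exact Knorr.char_sum_ge Cs.subtype hT (Helper35.isChar_of_irr χ.2) (hχv χ 1 V.one_mem)
    have hsum : ∑ χ : IrrCharacter X, ∑ c : ↥Cs, w c * ‖(χ : X → ℂ) (c : X)‖ ^ 2 =
        (Nat.card ↥Cs : ℝ) ^ 2 * (Nat.card V : ℝ) := by
      rw [Finset.sum_comm]
      have h1 : ∀ c : ↥Cs, ∑ χ : IrrCharacter X, w c * ‖(χ : X → ℂ) (c : X)‖ ^ 2 =
          (Nat.card V : ℝ) * (Nat.card ↥Cs : ℝ) := by
        intro c
        rw [← Finset.mul_sum, Cfsg.Agent.S4955.col_sq]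
        have h2 := card_centralizer_split V hVab G hGV v hv Cs hCs hab (c : X) c.2
        rw [hcent1, inf_top_eq] at h2
        rw [h2]
        exact hwmul c
      rw [Finset.sum_congr rfl (fun c _ => h1 c), Finset.sum_const, Finset.card_univ,
        nsmul_eq_mul, ← Nat.card_eq_fintype_card]
      ring
    have hle : (Fintype.card (IrrCharacter X) : ℝ) * (Nat.card ↥Cs : ℝ) ^ 2 ≤
        (Nat.card ↥Cs : ℝ) ^ 2 * (Nat.card V : ℝ) := by
      rw [← hsum]
      calc (Fintype.card (IrrCharacter X) : ℝ) * (Nat.card ↥Cs : ℝ) ^ 2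
          = ∑ χ : IrrCharacter X, (Nat.card ↥Cs : ℝ) ^ 2 := by
            rw [Finset.sum_const, Finset.card_univ, nsmul_eq_mul]
        _ ≤ _ := Finset.sum_le_sum (fun χ _ => hper χ)
    have hfin : (Fintype.card (IrrCharacter X) : ℝ) ≤ (Nat.card V : ℝ) := by
      have hN2 : (0 : ℝ) < (Nat.card ↥Cs : ℝ) ^ 2 := by positivity
      rw [mul_comm ((Nat.card ↥Cs : ℝ) ^ 2)] at hle
      exact le_of_mul_le_mul_right hle hN2
    exact_mod_cast hfin
  · -- the case v ≠ 1
    have hvp : orderOf v = p := orderOf_eq_prime (hVexp v hv) hv1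
    let _ : Fintype ↥(Subgroup.zpowers v) := Fintype.ofFinite _
    let _ : Fintype (↥(Subgroup.zpowers v) →* ℂˣ) := @Fintype.ofFinite _ AbF.dual_finite
    have hcardZ : Nat.card ↥(Subgroup.zpowers v) = p := by rw [Nat.card_zpowers, hvp]
    have hZV : ∀ y ∈ Subgroup.zpowers v, y ∈ V := by
      intro y hy
      obtain ⟨k, rfl⟩ := Subgroup.mem_zpowers_iff.mp hy
      exact V.zpow_mem hv k
    have comm : ∀ (c : ↥Cs) (y : ↥(Subgroup.zpowers v)),
        Commute (Cs.subtype c) ((Subgroup.zpowers v).subtype y) := by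
      intro c y
      obtain ⟨k, hk⟩ := Subgroup.mem_zpowers_iff.mp y.2
      have h1 : Commute (c : X) v := hCsv _ c.2
      show Commute (c : X) (y : X)
      rw [← hk]
      exact h1.zpow_right k
    have hper : ∀ χ : IrrCharacter X,
        ((Nat.card ↥(Subgroup.zpowers v) : ℝ) - 1) * (Nat.card ↥Cs : ℝ) ^ 2 ≤
        ∑ c : ↥Cs, ∑ y : ↥(Subgroup.zpowers v),
          (if y = 1 then 0 else w c * ‖(χ : X → ℂ) ((c : X) * (y : X))‖ ^ 2) := by
      intro χ
      have key := Knorr.char_sum_ge_ne Cs.subtype (Subgroup.zpowers v).subtype comm hw0 hT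
        (Helper35.isChar_of_irr χ.2) ⟨v, Subgroup.mem_zpowers v⟩
        (by intro h; exact hv1 (congrArg Subtype.val h)) (hχv χ v hv)
      refine le_trans key (le_of_eq ?_)
      apply Finset.sum_congr rfl
      intro c _
      apply Finset.sum_congr rfl
      intro y _
      by_cases hy : y = 1
      · rw [if_pos hy, if_pos hy]
      · rw [if_neg hy, if_neg hy]
        rfl
    have hsum : ∑ χ : IrrCharacter X, ∑ c : ↥Cs, ∑ y : ↥(Subgroup.zpowers v),
        (if y = 1 then 0 else w c * ‖(χ : X → ℂ) ((c : X) * (y : X))‖ ^ 2) =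
        ((Nat.card ↥(Subgroup.zpowers v) : ℝ) - 1) * (Nat.card ↥Cs : ℝ) ^ 2 *
          (Nat.card V : ℝ) := by
      rw [Finset.sum_comm]
      have h1 : ∀ c : ↥Cs, ∑ χ : IrrCharacter X, ∑ y : ↥(Subgroup.zpowers v),
          (if y = 1 then 0 else w c * ‖(χ : X → ℂ) ((c : X) * (y : X))‖ ^ 2) =
          ((Nat.card ↥(Subgroup.zpowers v) : ℝ) - 1) *
            ((Nat.card V : ℝ) * (Nat.card ↥Cs : ℝ)) := by
        intro c
        rw [Finset.sum_comm]
        have h2 : ∀ y : ↥(Subgroup.zpowers v), ∑ χ : IrrCharacter X,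
            (if y = 1 then 0 else w c * ‖(χ : X → ℂ) ((c : X) * (y : X))‖ ^ 2) =
            (Nat.card V : ℝ) * (Nat.card ↥Cs : ℝ) -
              (if y = 1 then (Nat.card V : ℝ) * (Nat.card ↥Cs : ℝ) else 0) := by
          intro y
          by_cases hy1 : y = 1
          · simp [hy1]
          · simp only [if_neg hy1, sub_zero]
            rw [← Finset.mul_sum, Cfsg.Agent.S4955.col_sq]
            have hyX : (y : X) ≠ 1 := fun h => hy1 (Subtype.ext h)
            have hcG : (c : X) ^ Nat.card G = 1 := by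
              have := pow_card_eq_one' (G := ↥G) (x := ⟨(c : X), hCsG _ c.2⟩)
              exact congrArg Subtype.val this
            have h3 := centralizer_mul_eq (c : X) (y : X) (comm c y) (Nat.card G) p hcG
              (hVexp _ (hZV _ y.2)) hcopG
            rw [centralizer_eq_of_mem_zpowers p v hvp (y : X) y.2 hyX] at h3
            rw [h3, card_centralizer_split V hVab G hGV v hv Cs hCs hab (c : X) c.2]
            exact hwmul c
        rw [Finset.sum_congr rfl (fun y _ => h2 y), Finset.sum_sub_distrib, Finset.sum_const,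
          Finset.card_univ, nsmul_eq_mul, Finset.sum_ite_eq', if_pos (Finset.mem_univ _),
          ← Nat.card_eq_fintype_card]
        ring
      rw [Finset.sum_congr rfl (fun c _ => h1 c), Finset.sum_const, Finset.card_univ,
        nsmul_eq_mul, ← Nat.card_eq_fintype_card]
      ring
    have hp1 : (0 : ℝ) < (Nat.card ↥(Subgroup.zpowers v) : ℝ) - 1 := by
      rw [hcardZ]
      have : (1 : ℝ) < (p : ℝ) := by exact_mod_cast hp.out.one_lt
      linarith
    have hle : (Fintype.card (IrrCharacter X) : ℝ) *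
        (((Nat.card ↥(Subgroup.zpowers v) : ℝ) - 1) * (Nat.card ↥Cs : ℝ) ^ 2) ≤
        ((Nat.card ↥(Subgroup.zpowers v) : ℝ) - 1) * (Nat.card ↥Cs : ℝ) ^ 2 *
          (Nat.card V : ℝ) := by
      rw [← hsum]
      calc (Fintype.card (IrrCharacter X) : ℝ) *
            (((Nat.card ↥(Subgroup.zpowers v) : ℝ) - 1) * (Nat.card ↥Cs : ℝ) ^ 2)
          = ∑ χ : IrrCharacter X,
              ((Nat.card ↥(Subgroup.zpowers v) : ℝ) - 1) * (Nat.card ↥Cs : ℝ) ^ 2 := by
            rw [Finset.sum_const, Finset.card_univ, nsmul_eq_mul]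
        _ ≤ _ := Finset.sum_le_sum (fun χ _ => hper χ)
    have hfin : (Fintype.card (IrrCharacter X) : ℝ) ≤ (Nat.card V : ℝ) := by
      have hK : (0 : ℝ) < ((Nat.card ↥(Subgroup.zpowers v) : ℝ) - 1) *
          (Nat.card ↥Cs : ℝ) ^ 2 := by positivity
      rw [mul_comm (((Nat.card ↥(Subgroup.zpowers v) : ℝ) - 1) * (Nat.card ↥Cs : ℝ) ^ 2)]
        at hle
      exact le_of_mul_le_mul_right hle hK
    exact_mod_cast hfin

/-- Let X be a finite group and V a normal subgroup of X in which every element has order dividing the prime p, whose index in X is prime to p and which is its own centralizer in X; so V is an elementary abelian normal Sylow p-subgroup, and any complement G to V in X is a group of order prime to p acting faithfully on the vector space V by conjugation (the coprime linear setting of the k(GV) problem). Let G be a complement to V in X and suppose that for some v in V the centralizer of v in G is abelian. Then the number of conjugacy classes of X is at most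 the order of V (the abelian-stabilizer criterion for the k(GV) problem). -/
theorem result {X : Type*} [Group X] [Finite X] (p : ℕ) [Fact p.Prime] (V : Subgroup X) [V.Normal] (hVexp : ∀ v ∈ V, v ^ p = 1) (hidx : ¬ p ∣ V.index) (hself : Subgroup.centralizer (V : Set X) = V) (G : Subgroup X) (hGV : Subgroup.IsComplement' V G) (v : X) (hv : v ∈ V) (hab : ∀ a ∈ G ⊓ Subgroup.centralizer ({v} : Set X), ∀ b ∈ G ⊓ Subgroup.centralizer ({v} : Set X), a * b = b * a) : Nat.card (ConjClasses X) ≤ Nat.card V := by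
  exact knorr_main p V hVexp hidx hself G hGV v hv _ rfl hab

end Cfsg.Agent.S4958
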