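import Cfsg.Statements.S4964
import Mathlib
import Cfsg.Agent.Lib.Helper85.QuotBlock
import Cfsg.Agent.Lib.Helper81.BlockReg
import Cfsg.Agent.Lib.Helper81.NormalP
import Cfsg.Agent.Lib.Helper83.Quot
-- import your own Cfsg.Agent.* helpers here

set_option autoImplicit false
open Cfsg

namespace Cfsg.Agent.S4964

open Cfsg.Agent.Lib.Helper4 Cfsg.Agent.Lib.Helper21 Cfsg.Agent.Lib.Helper22 Cfsg.Agent.Lib.Helper85

/-- Let D be a normal p-subgroup of the finite group G, let D′ be its commutator subgroup (normal in G), and fix a maximal ideal M of the algebraic integers containing p. Then (i) two irreducible characters of G ⧸ D′ lie in the same p-block if and only if their inflations to G do, and (ii) every p-block of G contains the inflation of some irreducible character of G ⧸ D′; so inflation induces a bijection between the p-blocks of G ⧸ D′ and the p-blocks of G. -/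
theorem result {G : Type*} [Group G] [Finite G] (p : ℕ) [Fact p.Prime] (M : Ideal Cfsg.AlgInt) (hM : Cfsg.IsPModular p M) (D : Subgroup G) [D.Normal] (hD : IsPGroup p D) : (∀ χ ψ : Cfsg.IrrCharacter (G ⧸ ⁅D, D⁆), Cfsg.SameBlock M (χ : G ⧸ ⁅D, D⁆ → ℂ) (ψ : G ⧸ ⁅D, D⁆ → ℂ) ↔ Cfsg.SameBlock M ((χ : G ⧸ ⁅D, D⁆ → ℂ) ∘ QuotientGroup.mk) ((ψ : G ⧸ ⁅D, D⁆ → ℂ) ∘ QuotientGroup.mk)) ∧ ∀ B : Set (Cfsg.IrrCharacter G), Cfsg.IsPBlock M B → ∃ χ : Cfsg.IrrCharacter (G ⧸ ⁅D, D⁆), ∃ θ ∈ B, (θ : G → ℂ) = (χ : G ⧸ ⁅D, D⁆ → ℂ) ∘ QuotientGroup.mk := by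
  classical
  have hp : p.Prime := Fact.out
  letI := Fintype.ofFinite G
  letI := Fintype.ofFinite (G ⧸ ⁅D, D⁆)
  have hNle : ⁅D, D⁆ ≤ D := Subgroup.commutator_le_left D D
  have hN : IsPGroup p (⁅D, D⁆ : Subgroup G) := hD.to_le hNle
  refine ⟨fun χ ψ => ⟨fun h => Cfsg.Agent.Lib.Helper81.sameBlock_inflate hM ⁅D, D⁆ _ _ h, fun h => ?_⟩,
    fun B hB => ?_⟩
  · -- the converse
    have hDbar : IsPGroup p (D.map (QuotientGroup.mk' ⁅D, D⁆) : Subgroup (G ⧸ ⁅D, D⁆)) :=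
      hD.map _
    haveI hDn : (D.map (QuotientGroup.mk' ⁅D, D⁆) : Subgroup (G ⧸ ⁅D, D⁆)).Normal :=
      Subgroup.Normal.map inferInstance _ (QuotientGroup.mk'_surjective _)
    refine Cfsg.Agent.Lib.Helper81.sameBlock_of_regular hM χ ψ ?_
    intro y hy
    by_cases hc : y ∈ Subgroup.centralizer
        ((D.map (QuotientGroup.mk' ⁅D, D⁆) : Subgroup (G ⧸ ⁅D, D⁆)) : Set (G ⧸ ⁅D, D⁆))
    · obtain ⟨x, rfl, hx⟩ := exists_pRegular_lift p ⁅D, D⁆ hN y hy
      have hxD : x ∈ Subgroup.centralizer (D : Set G) := mem_centralizer_of_derived p D hD x hx hc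
      have hxN : x ∈ Subgroup.centralizer ((⁅D, D⁆ : Subgroup G) : Set G) :=
        Subgroup.centralizer_le (by exact_mod_cast hNle) hxD
      have hrel : (Subgroup.centralizer ({x} : Set G)).relIndex (preCent ⁅D, D⁆ x) = 1 :=
        Subgroup.relIndex_eq_one.mpr
          (preCent_le_centralizer p ⁅D, D⁆ hN x (orderOf_pos x) hx hxN)
      have h1 := h x
      rw [centralChar_inflate_eq, centralChar_inflate_eq, hrel] at h1
      simpa using h1
    · exact locIdeal_sub hM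
        (Cfsg.Agent.Lib.Helper81.centralChar_locIdeal_of_not_mem_centralizer hM _ hDbar y hc χ)
        (Cfsg.Agent.Lib.Helper81.centralChar_locIdeal_of_not_mem_centralizer hM _ hDbar y hc ψ)
  · obtain ⟨θ, hθ, hker⟩ := Cfsg.Agent.Lib.Helper81.exists_mem_block_ker hM ⁅D, D⁆ hN B hB
    obtain ⟨χ, hχ⟩ := Cfsg.Agent.Lib.Helper83.exists_inflate_eq ⁅D, D⁆ θ hker
    refine ⟨χ, θ, hθ, ?_⟩
    rw [← hχ]
    rfl

end Cfsg.Agent.S4964
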