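import Cfsg.Statements.S4965
import Mathlib
-- import your own Cfsg.Agent.* helpers here

set_option autoImplicit false
open Cfsg

namespace Cfsg.Agent.S4965

/-- Let X be a finite group with an abelian normal subgroup V (any two elements of V commute), and let φ be the action of X ⧸ V on V induced by conjugation (well defined because V is abelian; the hypothesis hφ says that the class of x acts as conjugation by x). Then X has at most as many conjugacy classes as the semidirect product of V by X ⧸ V formed with this action: the split extension has the largest class number among extensions with the given action. -/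
theorem result {X : Type*} [Group X] [Finite X] (V : Subgroup X) [V.Normal] (hab : ∀ a ∈ V, ∀ b ∈ V, a * b = b * a) (φ : X ⧸ V →* MulAut ↥V) (hφ : ∀ (x : X) (v : ↥V), ((φ (QuotientGroup.mk x) v : ↥V) : X) = x * v * x⁻¹) : Nat.card (ConjClasses X) ≤ Nat.card (ConjClasses (SemidirectProduct ↥V (X ⧸ V) φ)) := by
  classical
  have hfinS : Finite (SemidirectProduct ↥V (X ⧸ V) φ) :=
    Finite.of_equiv _ (SemidirectProduct.equivProd (φ := φ)).symm
  have hcardS : Nat.card (SemidirectProduct ↥V (X ⧸ V) φ) = Nat.card X := by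
    rw [SemidirectProduct.card, Subgroup.card_eq_card_quotient_mul_card_subgroup V, mul_comm]
  -- base points
  have hbase : ∀ gh : (X ⧸ V) × (X ⧸ V), ∃ b : X × X,
      (∃ p : X × X, Commute p.1 p.2 ∧ (QuotientGroup.mk p.1 : X ⧸ V) = gh.1 ∧
        (QuotientGroup.mk p.2 : X ⧸ V) = gh.2) →
      (Commute b.1 b.2 ∧ (QuotientGroup.mk b.1 : X ⧸ V) = gh.1 ∧
        (QuotientGroup.mk b.2 : X ⧸ V) = gh.2) := by
    intro gh
    by_cases h : ∃ p : X × X, Commute p.1 p.2 ∧ (QuotientGroup.mk p.1 : X ⧸ V) = gh.1 ∧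
        (QuotientGroup.mk p.2 : X ⧸ V) = gh.2
    · obtain ⟨p, hp⟩ := h
      exact ⟨p, fun _ => hp⟩
    · exact ⟨(1, 1), fun h' => absurd h' h⟩
  choose base hbase' using hbase
  have hb : ∀ x y : X, x * y = y * x →
      (base (QuotientGroup.mk x, QuotientGroup.mk y)).1 * (base (QuotientGroup.mk x, QuotientGroup.mk y)).2
        = (base (QuotientGroup.mk x, QuotientGroup.mk y)).2 * (base (QuotientGroup.mk x, QuotientGroup.mk y)).1 ∧
      (QuotientGroup.mk (base (QuotientGroup.mk x, QuotientGroup.mk y)).1 : X ⧸ V)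
        = QuotientGroup.mk x ∧
      (QuotientGroup.mk (base (QuotientGroup.mk x, QuotientGroup.mk y)).2 : X ⧸ V)
        = QuotientGroup.mk y := by
    intro x y hp
    exact hbase' (QuotientGroup.mk x, QuotientGroup.mk y) ⟨(x, y), hp, rfl, rfl⟩
  have hmem : ∀ x x0 : X, (QuotientGroup.mk x0 : X ⧸ V) = QuotientGroup.mk x → x * x0⁻¹ ∈ V := by
    intro x x0 h
    have h1 : (QuotientGroup.mk (x * x0⁻¹) : X ⧸ V) = 1 := by
      rw [QuotientGroup.mk_mul, QuotientGroup.mk_inv, h, mul_inv_cancel]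
    exact (QuotientGroup.eq_one_iff _).1 h1
  -- key commutation
  have key : ∀ (x y x0 y0 : X) (hx : x * x0⁻¹ ∈ V) (hy : y * y0⁻¹ ∈ V), x * y = y * x →
      x0 * y0 = y0 * x0 → (QuotientGroup.mk x0 : X ⧸ V) = QuotientGroup.mk x →
      (QuotientGroup.mk y0 : X ⧸ V) = QuotientGroup.mk y →
      (⟨⟨x * x0⁻¹, hx⟩, QuotientGroup.mk x⟩ : SemidirectProduct ↥V (X ⧸ V) φ) *
        ⟨⟨y * y0⁻¹, hy⟩, QuotientGroup.mk y⟩ =
      ⟨⟨y * y0⁻¹, hy⟩, QuotientGroup.mk y⟩ * ⟨⟨x * x0⁻¹, hx⟩, QuotientGroup.mk x⟩ := by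
    intro x y x0 y0 hx hy hxy hc0 e1 e2
    refine SemidirectProduct.ext ?_ ?_
    · rw [SemidirectProduct.mul_left, SemidirectProduct.mul_left]
      apply Subtype.ext
      rw [Subgroup.coe_mul, Subgroup.coe_mul]
      show x * x0⁻¹ * ((φ (QuotientGroup.mk x) ⟨y * y0⁻¹, hy⟩ : ↥V) : X)
        = y * y0⁻¹ * ((φ (QuotientGroup.mk y) ⟨x * x0⁻¹, hx⟩ : ↥V) : X)
      rw [← e1, ← e2, hφ, hφ]
      have h3 : y0⁻¹ * x0⁻¹ = x0⁻¹ * y0⁻¹ := by
        rw [← mul_inv_rev, ← mul_inv_rev, hc0]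
      show x * x0⁻¹ * (x0 * (y * y0⁻¹) * x0⁻¹) = y * y0⁻¹ * (y0 * (x * x0⁻¹) * y0⁻¹)
      calc x * x0⁻¹ * (x0 * (y * y0⁻¹) * x0⁻¹) = x * y * (y0⁻¹ * x0⁻¹) := by group
        _ = y * x * (x0⁻¹ * y0⁻¹) := by rw [hxy, h3]
        _ = y * y0⁻¹ * (y0 * (x * x0⁻¹) * y0⁻¹) := by group
    · rw [SemidirectProduct.mul_right, SemidirectProduct.mul_right]
      show (QuotientGroup.mk x : X ⧸ V) * QuotientGroup.mk y = QuotientGroup.mk y * QuotientGroup.mk x
      rw [← QuotientGroup.mk_mul, ← QuotientGroup.mk_mul, hxy]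
  -- the injection
  let F : {p : X × X // Commute p.1 p.2} →
      {q : (SemidirectProduct ↥V (X ⧸ V) φ) × (SemidirectProduct ↥V (X ⧸ V) φ) // Commute q.1 q.2} :=
    fun p =>
    ⟨(⟨⟨p.1.1 * (base (QuotientGroup.mk p.1.1, QuotientGroup.mk p.1.2)).1⁻¹,
          hmem _ _ (hb p.1.1 p.1.2 p.2).2.1⟩, QuotientGroup.mk p.1.1⟩,
      ⟨⟨p.1.2 * (base (QuotientGroup.mk p.1.1, QuotientGroup.mk p.1.2)).2⁻¹,
          hmem _ _ (hb p.1.1 p.1.2 p.2).2.2⟩, QuotientGroup.mk p.1.2⟩),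
      key _ _ _ _ _ _ p.2 (hb p.1.1 p.1.2 p.2).1 (hb p.1.1 p.1.2 p.2).2.1 (hb p.1.1 p.1.2 p.2).2.2⟩
  have hF : Function.Injective F := by
    rintro ⟨⟨x, y⟩, hxy⟩ ⟨⟨x', y'⟩, hxy'⟩ h
    have h1 : (QuotientGroup.mk x : X ⧸ V) = QuotientGroup.mk x' :=
      congrArg (fun q : {q : (SemidirectProduct ↥V (X ⧸ V) φ) × (SemidirectProduct ↥V (X ⧸ V) φ) //
        Commute q.1 q.2} => q.1.1.right) h
    have h2 : (QuotientGroup.mk y : X ⧸ V) = QuotientGroup.mk y' :=
      congrArg (fun q : {q : (SemidirectProduct ↥V (X ⧸ V) φ) × (SemidirectProduct ↥V (X ⧸ V) φ) //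
        Commute q.1 q.2} => q.1.2.right) h
    have h3 : x * (base (QuotientGroup.mk x, QuotientGroup.mk y)).1⁻¹ =
        x' * (base (QuotientGroup.mk x', QuotientGroup.mk y')).1⁻¹ :=
      congrArg (fun q : {q : (SemidirectProduct ↥V (X ⧸ V) φ) × (SemidirectProduct ↥V (X ⧸ V) φ) //
        Commute q.1 q.2} => (q.1.1.left : X)) h
    have h4 : y * (base (QuotientGroup.mk x, QuotientGroup.mk y)).2⁻¹ =
        y' * (base (QuotientGroup.mk x', QuotientGroup.mk y')).2⁻¹ :=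
      congrArg (fun q : {q : (SemidirectProduct ↥V (X ⧸ V) φ) × (SemidirectProduct ↥V (X ⧸ V) φ) //
        Commute q.1 q.2} => (q.1.2.left : X)) h
    rw [← h1, ← h2] at h3 h4
    have hx : x = x' := mul_right_cancel h3
    have hy : y = y' := mul_right_cancel h4
    subst hx; subst hy; rfl
  have hle := Nat.card_le_card_of_injective F hF
  rw [card_comm_eq_card_conjClasses_mul_card, card_comm_eq_card_conjClasses_mul_card, hcardS] at hle
  exact Nat.le_of_mul_le_mul_right hle Nat.card_pos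


end Cfsg.Agent.S4965
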