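import Cfsg.Statements.S4966
import Mathlib
-- import your own Cfsg.Agent.* helpers here

set_option autoImplicit false
open Cfsg

namespace Cfsg.Agent.S4966

universe v

section Two

variable {F : Type*} [Field F] {G : Type*} [Group G] {V : Type v} [AddCommGroup V] [Module F V]

/-- left perp -/
def perpL (B : LinearMap.BilinForm F V) (P : Submodule F V) : Submodule F V where
  carrier := {u | ∀ p ∈ P, B u p = 0}
  add_mem' := by
    intro a b ha hb p hp
    rw [map_add, LinearMap.add_apply, ha p hp, hb p hp, add_zero]
  zero_mem' := by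
    intro p _
    simp
  smul_mem' := by
    intro c a ha p hp
    rw [map_smul, LinearMap.smul_apply, ha p hp, smul_zero]

theorem exists_inv_compl [Finite G] [NeZero (Nat.card G : F)] (ρ : Representation F G V)
    (L : Submodule F V) (hL : ∀ g, ∀ x ∈ L, ρ g x ∈ L) :
    ∃ X : Submodule F V, (∀ g, ∀ x ∈ X, ρ g x ∈ X) ∧ IsCompl L X := by
  obtain ⟨S', hS'⟩ := exists_isCompl (⟨L, fun g v hv => hL g v hv⟩ : Subrepresentation ρ)
  refine ⟨S'.toSubmodule, fun g x hx => S'.apply_mem_toSubmodule g hx, ?_, ?_⟩
  · rw [disjoint_iff]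
    have := congrArg Subrepresentation.toSubmodule (disjoint_iff.mp hS'.1)
    exact this
  · rw [codisjoint_iff]
    have := congrArg Subrepresentation.toSubmodule (codisjoint_iff.mp hS'.2)
    exact this

theorem proj_equiv (ρ : Representation F G V) (P Y : Submodule F V) (h : IsCompl P Y)
    (hP : ∀ g, ∀ x ∈ P, ρ g x ∈ P) (hY : ∀ g, ∀ x ∈ Y, ρ g x ∈ Y) (g : G) (x : V) :
    P.projection Y h (ρ g x) = ρ g (P.projection Y h x) := by
  have hx := Submodule.projection_add_projection_eq_self h x
  have h1 : ρ g x = ρ g (P.projection Y h x) + ρ g (Y.projection P h.symm x) := by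
    rw [← map_add, hx]
  conv_lhs => rw [h1]
  rw [map_add, Submodule.projection_apply_of_mem_left h
      (hP g _ (Submodule.projection_apply_mem h x)),
    Submodule.projection_apply_of_mem_right h
      (hY g _ (Submodule.projection_apply_mem h.symm x)), add_zero]

end Two

theorem alt_exists {F : Type*} [Field F] [CharP F 2] {G : Type*} [Group G] [Fintype G]
    (hG : (Fintype.card G : F) ≠ 0) :
    ∀ (n : ℕ) (V : Type v) [AddCommGroup V] [Module F V] [FiniteDimensional F V]
      (ρ : Representation F G V) (B : LinearMap.BilinForm F V),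
      Module.finrank F V = n →
      (∀ (g : G) (x y : V), B (ρ g x) (ρ g y) = B x y) →
      (∀ x : V, (∀ y : V, B x y = 0) → x = 0) →
      (∀ x : V, (∀ g : G, ρ g x = x) → x = 0) →
      ∃ A : LinearMap.BilinForm F V, (∀ x : V, A x x = 0) ∧
        (∀ (g : G) (x y : V), A (ρ g x) (ρ g y) = A x y) ∧
        (∀ x : V, (∀ y : V, A x y = 0) → x = 0) := by
  intro n
  induction n using Nat.strong_induction_on with
  | _ n ih =>
  intro V _ _ _ ρ B hn hinv hnd hfix
  classical
  haveI : NeZero (Nat.card G : F) := ⟨by rwa [Nat.card_eq_fintype_card]⟩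
  have h2 : (2 : F) = 0 := CharTwo.two_eq_zero
  have hinv' : ∀ (g : G) (x y : V), B (ρ g x) y = B x (ρ g⁻¹ y) := by
    intro g x y
    have := hinv g x (ρ g⁻¹ y)
    rw [← this, ← Module.End.mul_apply, ← map_mul, mul_inv_cancel, map_one, Module.End.one_apply]
  have hinv'' : ∀ (g : G) (x y : V), B x (ρ g y) = B (ρ g⁻¹ x) y := by
    intro g x y
    have := hinv' g⁻¹ x y
    rw [inv_inv] at this
    exact this.symm
  have hperp_inv : ∀ P : Submodule F V, (∀ g, ∀ x ∈ P, ρ g x ∈ P) →
      ∀ g, ∀ x ∈ perpL B P, ρ g x ∈ perpL B P := by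
    intro P hP g x hx p hp
    rw [hinv']
    exact hx _ (hP g⁻¹ p hp)
  set K₀ : Submodule F V := LinearMap.ker (B - B.flip) with hK₀
  have hK₀mem : ∀ x, x ∈ K₀ ↔ ∀ y, B x y = B y x := by
    intro x
    rw [hK₀, LinearMap.mem_ker]
    constructor
    · intro h y
      have := congrArg (fun f : V →ₗ[F] F => f y) h
      simpa [sub_eq_zero] using this
    · intro h
      ext y
      simp [h y]
  by_cases hK : K₀ = ⊥
  · refine ⟨B + B.flip, ?_, ?_, ?_⟩
    · intro x
      simp only [LinearMap.add_apply, LinearMap.BilinForm.flip_apply]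
      exact CharTwo.add_self_eq_zero _
    · intro g x y
      simp only [LinearMap.add_apply, LinearMap.BilinForm.flip_apply, hinv]
    · intro x hx
      have : x ∈ K₀ := (hK₀mem x).2 (fun y => by
        have := hx y
        simp only [LinearMap.add_apply, LinearMap.BilinForm.flip_apply] at this
        exact CharTwo.add_eq_zero.1 this)
      rw [hK] at this
      exact (Submodule.mem_bot F).1 this
  · have hK₀inv : ∀ g, ∀ x ∈ K₀, ρ g x ∈ K₀ := by
      intro g x hx
      rw [hK₀mem] at hx ⊢
      intro y
      rw [hinv' g x y, hx, hinv'' g y x]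
    have hQ : ∀ x ∈ K₀, B x x = 0 := by
      intro x hx
      have hadd : ∀ a ∈ K₀, ∀ y, B (a + y) (a + y) = B a a + B y y := by
        intro a ha y
        have := (hK₀mem a).1 ha y
        simp only [map_add, LinearMap.add_apply]
        rw [← this]
        linear_combination (B a y) * h2
      have hsum : ∀ s : Finset G, B (∑ g ∈ s, ρ g x) (∑ g ∈ s, ρ g x) =
          ∑ g ∈ s, B (ρ g x) (ρ g x) := by
        intro s
        induction s using Finset.induction_on with
        | empty => simp
        | insert a s ha ih =>
          rw [Finset.sum_insert ha, Finset.sum_insert ha, hadd _ (hK₀inv a x hx), ih]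
      have hfixed : ∑ g : G, ρ g x = 0 := by
        apply hfix
        intro h
        rw [map_sum]
        exact Fintype.sum_equiv (Equiv.mulLeft h) _ _ (fun g => by simp [map_mul])
      have := hsum Finset.univ
      rw [hfixed] at this
      simp only [hinv, Finset.sum_const, Finset.card_univ, map_zero, nsmul_eq_mul] at this
      rcases mul_eq_zero.1 this.symm with h | h
      · exact absurd h hG
      · exact h
    have hPA : ∃ (P : Submodule F V) (A' : LinearMap.BilinForm F V), P ≠ ⊥ ∧
        (∀ g, ∀ p ∈ P, ρ g p ∈ P) ∧ (∀ x ∈ P, (∀ y ∈ P, B x y = 0) → x = 0) ∧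
        (∀ p ∈ P, A' p p = 0) ∧ (∀ g, ∀ p ∈ P, ∀ q ∈ P, A' (ρ g p) (ρ g q) = A' p q) ∧
        (∀ p ∈ P, (∀ q ∈ P, A' p q = 0) → p = 0) := by
      set R₀ : Submodule F V := K₀ ⊓ perpL B K₀ with hR₀
      by_cases hR : R₀ = ⊥
      · have hnd0 : ∀ x ∈ K₀, (∀ y ∈ K₀, B x y = 0) → x = 0 := by
          intro x hx h
          have : x ∈ R₀ := Submodule.mem_inf.2 ⟨hx, h⟩
          rw [hR] at this
          exact (Submodule.mem_bot F).1 this
        exact ⟨K₀, B, hK, hK₀inv, hnd0, hQ, fun g p _ q _ => hinv g p q, hnd0⟩
      · have hR₀K : R₀ ≤ K₀ := inf_le_left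
        have hR₀inv : ∀ g, ∀ x ∈ R₀, ρ g x ∈ R₀ := fun g x hx =>
          Submodule.mem_inf.2 ⟨hK₀inv g x (Submodule.mem_inf.1 hx).1,
            hperp_inv K₀ hK₀inv g x (Submodule.mem_inf.1 hx).2⟩
        have hR₀iso : ∀ r ∈ R₀, ∀ r' ∈ R₀, B r r' = 0 := fun r hr r' hr' =>
          (Submodule.mem_inf.1 hr).2 r' (hR₀K hr')
        have hR₀sym : ∀ r ∈ R₀, ∀ y, B r y = B y r := fun r hr => (hK₀mem r).1 (hR₀K hr)
        set L : Submodule F V := perpL B R₀ with hL
        have hLinv := hperp_inv R₀ hR₀inv
        obtain ⟨X, hXinv, hc⟩ := exists_inv_compl ρ L hLinv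
        have hR₀L : R₀ ≤ L := fun r hr r' hr' => hR₀iso r hr r' hr'
        set π : V →ₗ[F] V := X.projection L hc.symm with hπ
        have hπX : ∀ x, π x ∈ X := fun x => Submodule.projection_apply_mem hc.symm x
        have hπL : ∀ x, x - π x ∈ L := by
          intro x
          have := Submodule.projection_add_projection_eq_self hc.symm x
          have e : x - π x = L.projection X hc x := by
            rw [hπ]
            exact sub_eq_of_eq_add' this.symm
          rw [e]
          exact Submodule.projection_apply_mem hc x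
        have hπ_of_X : ∀ x ∈ X, π x = x := fun x hx =>
          Submodule.projection_apply_of_mem_left hc.symm hx
        have hπ_of_L : ∀ x ∈ L, π x = 0 := fun x hx =>
          Submodule.projection_apply_of_mem_right hc.symm hx
        have hπg : ∀ g x, π (ρ g x) = ρ g (π x) := proj_equiv ρ X L hc.symm hXinv hLinv
        have hXL : ∀ x ∈ X, x ∈ L → x = 0 := by
          intro x hx hx'
          have : x ∈ L ⊓ X := Submodule.mem_inf.2 ⟨hx', hx⟩
          rw [hc.inf_eq_bot] at this
          exact (Submodule.mem_bot F).1 this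
        have hkey : ∀ r ∈ R₀, (∀ a ∈ X, B r a = 0) → r = 0 := by
          intro r hr h
          apply hnd
          intro u
          have hu : u = (u - π u) + π u := by abel
          rw [hu, map_add, h _ (hπX u), add_zero, hR₀sym r hr]
          exact hπL u r hr
        refine ⟨R₀ ⊔ X, (B.compl₁₂ (LinearMap.id - π) π) +
          (B.compl₁₂ (LinearMap.id - π) π).flip, ?_, ?_, ?_, ?_, ?_, ?_⟩
        · intro h
          exact hR (le_bot_iff.1 (h ▸ le_sup_left))
        · intro g p hp
          obtain ⟨r, hr, a, ha, rfl⟩ := Submodule.mem_sup.1 hp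
          rw [map_add]
          exact Submodule.add_mem _ (Submodule.mem_sup_left (hR₀inv g r hr))
            (Submodule.mem_sup_right (hXinv g a ha))
        · intro p hp h
          obtain ⟨r, hr, a, ha, rfl⟩ := Submodule.mem_sup.1 hp
          have ha0 : a = 0 := by
            apply hXL a ha
            intro r₂ hr₂
            have := h r₂ (Submodule.mem_sup_left hr₂)
            rw [map_add, LinearMap.add_apply, hR₀iso r hr r₂ hr₂, zero_add] at this
            exact this
          subst ha0
          rw [add_zero] at h ⊢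
          exact hkey r hr (fun a ha => h a (Submodule.mem_sup_right ha))
        · intro p _
          simp only [LinearMap.add_apply, LinearMap.flip_apply]
          exact CharTwo.add_self_eq_zero _
        · intro g p _ q _
          simp only [LinearMap.add_apply, LinearMap.flip_apply, LinearMap.compl₁₂_apply,
            LinearMap.sub_apply, LinearMap.id_apply, hπg, ← map_sub, hinv]
        · intro p hp h
          obtain ⟨r, hr, a, ha, rfl⟩ := Submodule.mem_sup.1 hp
          have hπp : π (r + a) = a := by
            rw [map_add, hπ_of_L r (hR₀L hr), hπ_of_X a ha, zero_add]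
          have ha0 : a = 0 := by
            apply hXL a ha
            intro r₂ hr₂
            have := h r₂ (Submodule.mem_sup_left hr₂)
            simp only [LinearMap.add_apply, LinearMap.flip_apply, LinearMap.compl₁₂_apply,
              LinearMap.sub_apply, LinearMap.id_apply, hπp, hπ_of_L r₂ (hR₀L hr₂)] at this
            simp only [map_zero, sub_zero, zero_add] at this
            rw [hR₀sym r₂ hr₂] at this
            exact this
          subst ha0
          rw [add_zero] at h hπp ⊢
          apply hkey r hr
          intro a ha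
          have := h a (Submodule.mem_sup_right ha)
          simp only [LinearMap.add_apply, LinearMap.flip_apply, LinearMap.compl₁₂_apply,
            LinearMap.sub_apply, LinearMap.id_apply, hπp, hπ_of_X a ha] at this
          simpa using this
    obtain ⟨P, A', hPne, hPinv, hPnd, hA'alt, hA'inv, hA'nd⟩ := hPA
    set Y : Submodule F V := perpL B P with hY
    have hYinv := hperp_inv P hPinv
    have hdisj : P ⊓ Y = ⊥ := by
      rw [eq_bot_iff]
      intro x hx
      obtain ⟨hx1, hx2⟩ := Submodule.mem_inf.1 hx
      exact (Submodule.mem_bot F).2 (hPnd x hx1 hx2)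
    have hsup : P ⊔ Y = ⊤ := by
      rw [eq_top_iff]
      intro u _
      set LP : ↥P →ₗ[F] Module.Dual F ↥P := B.compl₁₂ P.subtype P.subtype with hLP
      have hinj : Function.Injective LP := by
        rw [injective_iff_map_eq_zero]
        intro x hx
        apply Subtype.ext
        apply hPnd x x.2
        intro y hy
        have := congrArg (fun f : Module.Dual F ↥P => f ⟨y, hy⟩) hx
        simpa [hLP] using this
      have hsurj : Function.Surjective LP :=
        (LinearMap.injective_iff_surjective_of_finrank_eq_finrank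
          (Subspace.dual_finrank_eq).symm).1 hinj
      obtain ⟨p₀, hp₀⟩ := hsurj ((B u).comp P.subtype)
      have hu : u = (p₀ : V) + (u - p₀) := by abel
      rw [hu]
      refine Submodule.add_mem_sup p₀.2 ?_
      intro p hp
      have := congrArg (fun f : Module.Dual F ↥P => f ⟨p, hp⟩) hp₀
      simp only [hLP, LinearMap.compl₁₂_apply, Submodule.subtype_apply,
        LinearMap.comp_apply] at this
      rw [map_sub, LinearMap.sub_apply, this, sub_self]
    have hc : IsCompl P Y := ⟨disjoint_iff.2 hdisj, codisjoint_iff.2 hsup⟩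
    have hlt : Module.finrank F ↥Y < n := by
      have h1 := Submodule.finrank_add_eq_of_isCompl hc
      have h3 : 0 < Module.finrank F ↥P := by
        rw [Module.finrank_pos_iff]
        exact (Submodule.nontrivial_iff_ne_bot).2 hPne
      omega
    set ρY : Representation F G ↥Y := ρ.subrepresentation Y (fun g x hx => hYinv g x hx) with hρY
    set BY : LinearMap.BilinForm F ↥Y := B.compl₁₂ Y.subtype Y.subtype with hBY
    obtain ⟨AY, hAYalt, hAYinv, hAYnd⟩ := ih _ hlt ↥Y ρY BY rfl
      (by
        intro g x y
        simp [hBY, hρY, hinv])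
      (by
        intro y hy
        apply Subtype.ext
        apply hnd
        intro u
        have hu : u ∈ P ⊔ Y := by rw [hsup]; trivial
        obtain ⟨p, hp, y', hy', rfl⟩ := Submodule.mem_sup.1 hu
        rw [map_add, y.2 p hp, zero_add]
        exact hy ⟨y', hy'⟩)
      (by
        intro y hy
        apply Subtype.ext
        apply hfix
        intro g
        have := congrArg Subtype.val (hy g)
        simpa [hρY] using this)
    set πP : V →ₗ[F] V := P.projection Y hc with hπP
    set πY : V →ₗ[F] ↥Y := Y.projectionOnto P hc.symm with hπY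
    refine ⟨A'.compl₁₂ πP πP + AY.compl₁₂ πY πY, ?_, ?_, ?_⟩
    · intro x
      simp only [LinearMap.add_apply, LinearMap.compl₁₂_apply]
      rw [hA'alt _ (Submodule.projection_apply_mem hc x), hAYalt, add_zero]
    · intro g x y
      have e1 : ∀ z, πP (ρ g z) = ρ g (πP z) := proj_equiv ρ P Y hc hPinv hYinv g
      have e2 : ∀ z, πY (ρ g z) = ρY g (πY z) := by
        intro z
        apply Subtype.ext
        have := proj_equiv ρ Y P hc.symm hYinv hPinv g z
        simpa [hπY, hρY] using this
      simp only [LinearMap.add_apply, LinearMap.compl₁₂_apply, e1, e2]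
      rw [hA'inv g _ (Submodule.projection_apply_mem hc x) _
        (Submodule.projection_apply_mem hc y), hAYinv]
    · intro x hx
      have h1 : πP x = 0 := by
        apply hA'nd _ (Submodule.projection_apply_mem hc x)
        intro q hq
        have := hx q
        simp only [LinearMap.add_apply, LinearMap.compl₁₂_apply] at this
        have e1 : πP q = q := Submodule.projection_apply_of_mem_left hc hq
        have e2 : πY q = 0 := Submodule.projectionOnto_apply_of_mem_right hc.symm hq
        rw [e1, e2, map_zero, add_zero] at this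
        exact this
      have h3 : πY x = 0 := by
        apply hAYnd
        intro y
        have := hx (y : V)
        simp only [LinearMap.add_apply, LinearMap.compl₁₂_apply] at this
        have e1 : πP (y : V) = 0 := Submodule.projection_apply_of_mem_right hc y.2
        have e2 : πY (y : V) = y := Submodule.projectionOnto_apply_left hc.symm y
        rw [e1, e2, map_zero, zero_add] at this
        exact this
      have := Submodule.projection_add_projection_eq_self hc x
      rw [← this]
      have e3 : Y.projection P hc.symm x = ((πY x : ↥Y) : V) := rfl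
      rw [e3, h3]
      change πP x + 0 = 0
      rw [h1, add_zero]

theorem odd_case {F : Type*} [Field F] {G : Type*} [Group G] {V : Type*} [AddCommGroup V]
    [Module F V] [FiniteDimensional F V] (h2 : (2 : F) ≠ 0) (ρ : Representation F G V)
    (B : LinearMap.BilinForm F V) (hB : B.Nondegenerate)
    (hBinv : ∀ g : G, ∀ x y : V, B (ρ g x) (ρ g y) = B x y) :
    ∃ U W : Submodule F V, IsCompl U W ∧ (∀ g : G, ∀ u ∈ U, ρ g u ∈ U) ∧
      (∀ g : G, ∀ w ∈ W, ρ g w ∈ W) ∧
      (∀ x ∈ U, (∀ y ∈ U, B x y - B y x = 0) → x = 0) ∧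
      (∀ x ∈ W, (∀ y ∈ W, B x y + B y x = 0) → x = 0) := by
  classical
  have hBf : B.flip.Nondegenerate := hB.flip
  set β := B.flip.toDual hBf with hβ
  set T : V →ₗ[F] V := β.symm.toLinearMap ∘ₗ (B + B.flip) with hT
  have hT1 : ∀ x y, B y (T x) = B x y + B y x := by
    intro x y
    have h1 : β (T x) = (B + B.flip) x := by simp [hT]
    have h2 := congrArg (fun f : Module.Dual F V => f y) h1
    simp only [hβ, LinearMap.BilinForm.toDual_def, LinearMap.add_apply] at h2
    exact h2
  -- equivariance of T
  have hinv' : ∀ g : G, ∀ x y : V, B (ρ g x) y = B x (ρ g⁻¹ y) := by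
    intro g x y
    have := hBinv g x (ρ g⁻¹ y)
    rw [← this, ← Module.End.mul_apply, ← map_mul, mul_inv_cancel, map_one, Module.End.one_apply]
  have hinv'' : ∀ g : G, ∀ x y : V, B x (ρ g y) = B (ρ g⁻¹ x) y := by
    intro g x y
    have := hinv' g⁻¹ x y
    rw [inv_inv] at this
    exact this.symm
  have hTg : ∀ g : G, ∀ x : V, T (ρ g x) = ρ g (T x) := by
    intro g x
    have h : ∀ y, B y (T (ρ g x) - ρ g (T x)) = 0 := by
      intro y
      rw [map_sub, hT1, hinv'' g y (T x), hT1, hinv' g x y, hinv'' g y x]
      ring
    exact sub_eq_zero.1 (hB.2 _ h)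
  set σ : V →ₗ[F] V := T - 1 with hσ
  have hσ1 : ∀ x y, B x y = B y (σ x) := by
    intro x y
    rw [hσ, LinearMap.sub_apply, map_sub, hT1]
    simp
  have hσT : ∀ z, σ (T z) = T (σ z) := by
    intro z
    simp [hσ]
  have hspade : ∀ u z, B u (T z) = B z (T u) := by
    intro u z
    rw [hT1, hT1]; ring
  have hpow : ∀ n : ℕ, ∀ u z, B u ((T ^ n) z) = B ((T ^ n) u) ((σ ^ n) z) := by
    intro n
    induction n with
    | zero => intro u z; simp
    | succ n ih =>
      intro u z
      have e1 : (T ^ (n + 1)) z = T ((T ^ n) z) := by rw [pow_succ']; rfl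
      have e2 : (T ^ n) (σ z) = σ ((T ^ n) z) := by
        have : Commute (T ^ n) σ := by
          apply Commute.pow_left
          rw [hσ]
          exact (Commute.refl T).sub_right (Commute.one_right T)
        exact congrArg (fun f : V →ₗ[F] V => f z) this.eq
      rw [e1, hspade, hσ1 ((T ^ n) z) (T u), ← e2, ih (T u) (σ z)]
      have e3 : (T ^ (n + 1)) u = (T ^ n) (T u) := by rw [pow_succ]; rfl
      have e4 : (σ ^ (n + 1)) z = (σ ^ n) (σ z) := by rw [pow_succ]; rfl
      rw [e3, e4]
  obtain ⟨n, hn1, hn⟩ : ∃ n : ℕ, 1 ≤ n ∧ IsCompl (LinearMap.ker (T ^ n)) (LinearMap.range (T ^ n)) := by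
    have h := (Filter.eventually_ge_atTop 1).and (LinearMap.eventually_isCompl_ker_pow_range_pow T)
    obtain ⟨n, hn⟩ := h.exists
    exact ⟨n, hn.1, hn.2⟩
  have hTng : ∀ g : G, ∀ x : V, (T ^ n) (ρ g x) = ρ g ((T ^ n) x) := by
    intro g x
    have : Commute (T ^ n) (ρ g) := by
      apply Commute.pow_left
      exact LinearMap.ext (fun x => hTg g x)
    exact congrArg (fun f : V →ₗ[F] V => f x) this.eq
  have hUW : ∀ u ∈ LinearMap.ker (T ^ n), ∀ w ∈ LinearMap.range (T ^ n), B u w = 0 := by
    intro u hu w hw
    obtain ⟨z, rfl⟩ := hw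
    rw [hpow n u z, LinearMap.mem_ker.1 hu]
    simp
  have hWU : ∀ u ∈ LinearMap.ker (T ^ n), ∀ w ∈ LinearMap.range (T ^ n), B w u = 0 := by
    intro u hu w hw
    obtain ⟨z, rfl⟩ := hw
    rw [hσ1]
    have : σ ((T ^ n) z) = (T ^ n) (σ z) := by
      have : Commute (T ^ n) σ := by
        apply Commute.pow_left
        rw [hσ]
        exact (Commute.refl T).sub_right (Commute.one_right T)
      exact (congrArg (fun f : V →ₗ[F] V => f z) this.eq).symm
    rw [this, hpow n u (σ z), LinearMap.mem_ker.1 hu]
    simp
  have hdecomp : ∀ v : V, ∃ u ∈ LinearMap.ker (T ^ n), ∃ w ∈ LinearMap.range (T ^ n), u + w = v := by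
    intro v
    have : v ∈ LinearMap.ker (T ^ n) ⊔ LinearMap.range (T ^ n) := by
      rw [hn.sup_eq_top]; exact Submodule.mem_top
    obtain ⟨u, hu, w, hw, h⟩ := Submodule.mem_sup.1 this
    exact ⟨u, hu, w, hw, h⟩
  refine ⟨LinearMap.ker (T ^ n), LinearMap.range (T ^ n), hn, ?_, ?_, ?_, ?_⟩
  · intro g u hu
    rw [LinearMap.mem_ker] at hu ⊢
    rw [hTng, hu, map_zero]
  · intro g w hw
    obtain ⟨z, rfl⟩ := hw
    exact ⟨ρ g z, hTng g z⟩
  · intro x hx h
    -- (T - 2) x = 0
    have hTx : T x ∈ LinearMap.ker (T ^ n) := by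
      rw [LinearMap.mem_ker] at hx ⊢
      have : (T ^ n) (T x) = T ((T ^ n) x) := by
        rw [← Module.End.mul_apply, ← Module.End.mul_apply, ← pow_succ, ← pow_succ']
      rw [this, hx, map_zero]
    have hz : T x - (2 : F) • x = 0 := by
      apply hB.2
      intro y
      obtain ⟨u, hu, w, hw, rfl⟩ := hdecomp y
      have h1 : B w (T x - (2 : F) • x) = 0 :=
        hWU _ (Submodule.sub_mem _ hTx (Submodule.smul_mem _ _ hx)) w hw
      have h3 : B u (T x - (2 : F) • x) = 0 := by
        have := h u hu
        rw [map_sub, hT1, map_smul, smul_eq_mul]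
        linear_combination this
      rw [map_add, LinearMap.add_apply, h1, h3, add_zero]
    have hTx2 : T x = (2 : F) • x := sub_eq_zero.1 hz
    have hpow2 : ∀ k : ℕ, (T ^ k) x = (2 : F) ^ k • x := by
      intro k
      induction k with
      | zero => simp
      | succ k ih =>
        have : (T ^ (k + 1)) x = (T ^ k) (T x) := by rw [pow_succ]; rfl
        rw [this, hTx2, map_smul, ih, smul_smul, pow_succ, mul_comm]
    have := hpow2 n
    rw [LinearMap.mem_ker.1 hx] at this
    rcases smul_eq_zero.1 this.symm with h0 | h0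
    · exact absurd h0 (pow_ne_zero _ h2)
    · exact h0
  · intro x hx h
    have hTxW : T x ∈ LinearMap.range (T ^ n) := by
      obtain ⟨z, rfl⟩ := hx
      refine ⟨T z, ?_⟩
      rw [← Module.End.mul_apply, ← Module.End.mul_apply, ← pow_succ, ← pow_succ']
    have hz : T x = 0 := by
      apply hB.2
      intro y
      obtain ⟨u, hu, w, hw, rfl⟩ := hdecomp y
      have h1 : B u (T x) = 0 := hUW u hu _ hTxW
      have h3 : B w (T x) = 0 := by
        rw [hT1]
        exact h w hw
      rw [map_add, LinearMap.add_apply, h1, h3, add_zero]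
    have hxk : x ∈ LinearMap.ker (T ^ n) := by
      rw [LinearMap.mem_ker]
      obtain ⟨m, rfl⟩ : ∃ m, n = m + 1 := ⟨n - 1, by omega⟩
      have : (T ^ (m + 1)) x = (T ^ m) (T x) := by rw [pow_succ]; rfl
      rw [this, hz, map_zero]
    have : x ∈ LinearMap.ker (T ^ n) ⊓ LinearMap.range (T ^ n) := ⟨hxk, hx⟩
    rw [hn.inf_eq_bot] at this
    exact (Submodule.mem_bot F).1 this

/-- Let F be a finite field of characteristic p, G a finite group of order prime to p, and V a finite-dimensional representation of G over F carrying a nondegenerate G-invariant bilinear form (equivalently, V is self-dual). Then V is the direct sum of two G-invariant subspaces U and W such that U carries a G-invariant alternating bilinear form that is nondegenerate on U and W carries a G-invariant symmetric bilinear form that is nondegenerate on W; moreover when p = 2 the decomposition can be chosen with G acting trivially on W. -/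
theorem result {F : Type*} [Field F] [Fintype F] (p : ℕ) [Fact p.Prime] [CharP F p] {G : Type*} [Group G] [Finite G] (hcop : ¬ p ∣ Nat.card G) {V : Type*} [AddCommGroup V] [Module F V] [FiniteDimensional F V] (ρ : Representation F G V) (B : LinearMap.BilinForm F V) (hB : B.Nondegenerate) (hBinv : ∀ g : G, ∀ x y : V, B (ρ g x) (ρ g y) = B x y) : ∃ U W : Submodule F V, IsCompl U W ∧ (∀ g : G, ∀ u ∈ U, ρ g u ∈ U) ∧ (∀ g : G, ∀ w ∈ W, ρ g w ∈ W) ∧ (∃ A : LinearMap.BilinForm F V, (∀ x : V, A x x = 0) ∧ (∀ g : G, ∀ x ∈ U, ∀ y ∈ U, A (ρ g x) (ρ g y) = A x y) ∧ (∀ x ∈ U, (∀ y ∈ U, A x y = 0) → x = 0)) ∧ (∃ S : LinearMap.BilinForm F V, (∀ x y : V, S x y = S y x) ∧ (∀ g : G, ∀ x ∈ W, ∀ y ∈ W, S (ρ g x) (ρ g y) = S x y) ∧ (∀ x ∈ W, (∀ y ∈ W, S x y = 0) → x = 0)) ∧ (p = 2 → ∀ g : G, ∀ w ∈ W, ρ g w = w) := by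
  classical
  cases nonempty_fintype G
  by_cases hp : p = 2
  · subst hp
    have hG : (Fintype.card G : F) ≠ 0 := by
      intro h
      rw [CharP.cast_eq_zero_iff F 2] at h
      exact hcop (by rwa [Nat.card_eq_fintype_card])
    haveI : Invertible (Fintype.card G : F) := invertibleOfNonzero hG
    set W : Submodule F V := Representation.invariants ρ with hW
    set e : V →ₗ[F] V := Representation.averageMap ρ with he
    set U : Submodule F V := LinearMap.ker e with hU
    have hc : IsCompl W U := (Representation.isProj_averageMap ρ).isCompl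
    have he' : e = ⅟(Fintype.card G : F) • ∑ g : G, ρ g := by
      rw [he, Representation.averageMap, GroupAlgebra.average, map_smul, map_sum]
      simp only [Representation.asAlgebraHom_of]
    have hsum0 : ∀ x ∈ U, ∑ g : G, ρ g x = 0 := by
      intro x hx
      have h1 : e x = 0 := LinearMap.mem_ker.1 hx
      rw [he', LinearMap.smul_apply, LinearMap.sum_apply] at h1
      rcases smul_eq_zero.1 h1 with h | h
      · exact absurd h (Invertible.ne_zero (⅟(Fintype.card G : F)))
      · exact h
    have hUinv : ∀ g : G, ∀ u ∈ U, ρ g u ∈ U := by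
      intro g u hu
      rw [hU, LinearMap.mem_ker, he', LinearMap.smul_apply, LinearMap.sum_apply]
      have h1 : ∑ h : G, ρ h (ρ g u) = ∑ h : G, ρ h u :=
        Fintype.sum_equiv (Equiv.mulRight g) _ _ (fun h => by simp [map_mul])
      rw [h1, hsum0 u hu, smul_zero]
    have hWfix : ∀ g : G, ∀ w ∈ W, ρ g w = w := fun g w hw => hw g
    have hUW : ∀ x ∈ U, ∀ w ∈ W, B x w = 0 := by
      intro x hx w hw
      have h1 : B (∑ g : G, ρ g x) w = (Fintype.card G : F) * B x w := by
        rw [map_sum, LinearMap.sum_apply]
        have : ∀ g : G, B (ρ g x) w = B x w := by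
          intro g
          have := hBinv g x w
          rwa [hWfix g w hw] at this
        rw [Finset.sum_congr rfl (fun g _ => this g), Finset.sum_const, Finset.card_univ,
          nsmul_eq_mul]
      rw [hsum0 x hx, map_zero, LinearMap.zero_apply] at h1
      rcases mul_eq_zero.1 h1.symm with h | h
      · exact absurd h hG
      · exact h
    have hdec : ∀ v : V, ∃ w ∈ W, ∃ u ∈ U, w + u = v := by
      intro v
      have : v ∈ W ⊔ U := by rw [hc.sup_eq_top]; exact Submodule.mem_top
      exact Submodule.mem_sup.1 this
    have hUnd : ∀ x ∈ U, (∀ y ∈ U, B x y = 0) → x = 0 := by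
      intro x hx h
      apply hB.1
      intro v
      obtain ⟨w, hw, u, hu, rfl⟩ := hdec v
      rw [map_add, hUW x hx w hw, h u hu, add_zero]
    -- alternating form on U
    set ρU : Representation F G ↥U := ρ.subrepresentation U (fun g x hx => hUinv g x hx) with hρU
    set BU : LinearMap.BilinForm F ↥U := B.compl₁₂ U.subtype U.subtype with hBU
    obtain ⟨AU, hAUalt, hAUinv, hAUnd⟩ := alt_exists hG _ ↥U ρU BU rfl
      (by
        intro g x y
        simp [hBU, hρU, hBinv])
      (by
        intro y hy
        apply Subtype.ext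
        exact hUnd y y.2 (fun z hz => hy ⟨z, hz⟩))
      (by
        intro y hy
        apply Subtype.ext
        have h1 : (y : V) ∈ W := by
          intro g
          have := congrArg Subtype.val (hy g)
          simpa [hρU] using this
        have : (y : V) ∈ W ⊓ U := Submodule.mem_inf.2 ⟨h1, y.2⟩
        rw [hc.inf_eq_bot] at this
        exact (Submodule.mem_bot F).1 this)
    set πU : V →ₗ[F] ↥U := U.projectionOnto W hc.symm with hπU
    set πW : V →ₗ[F] ↥W := W.projectionOnto U hc with hπW
    have hπU_of : ∀ x (hx : x ∈ U), πU x = ⟨x, hx⟩ := fun x hx =>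
      Submodule.projectionOnto_apply_of_mem_left hc.symm hx
    have hπW_of : ∀ x (hx : x ∈ W), πW x = ⟨x, hx⟩ := fun x hx =>
      Submodule.projectionOnto_apply_of_mem_left hc hx
    -- symmetric form on W
    set b := Module.finBasis F ↥W with hb
    set φ : Fin (Module.finrank F ↥W) → (V →ₗ[F] F) := fun i => (b.coord i).comp πW with hφ
    set S : LinearMap.BilinForm F V := ∑ i, LinearMap.BilinForm.linMulLin (φ i) (φ i) with hS
    have hSapp : ∀ x y, S x y = ∑ i, φ i x * φ i y := by
      intro x y
      rw [hS, LinearMap.sum_apply, LinearMap.sum_apply]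
      rfl
    refine ⟨U, W, hc.symm, hUinv, fun g w hw => by rw [hWfix g w hw]; exact hw, ?_, ?_,
      fun _ => hWfix⟩
    · refine ⟨AU.compl₁₂ πU πU, ?_, ?_, ?_⟩
      · intro x
        simp only [LinearMap.compl₁₂_apply]
        exact hAUalt _
      · intro g x hx y hy
        simp only [LinearMap.compl₁₂_apply]
        have e1 : ∀ z (hz : z ∈ U), πU (ρ g z) = ρU g (πU z) := by
          intro z hz
          rw [hπU_of z hz, hπU_of _ (hUinv g z hz)]
          rfl
        rw [e1 x hx, e1 y hy, hAUinv]
      · intro x hx h
        have : (⟨x, hx⟩ : ↥U) = 0 := by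
          apply hAUnd
          intro y
          have := h y y.2
          simp only [LinearMap.compl₁₂_apply] at this
          rw [hπU_of x hx, hπU_of y y.2] at this
          exact this
        exact congrArg Subtype.val this
    · refine ⟨S, ?_, ?_, ?_⟩
      · intro x y
        rw [hSapp, hSapp]
        exact Finset.sum_congr rfl (fun i _ => mul_comm _ _)
      · intro g x hx y hy
        rw [hWfix g x hx, hWfix g y hy]
      · intro x hx h
        have h0 : ∀ j, φ j x = 0 := by
          intro j
          have := h (b j : V) (b j).2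
          rw [hSapp] at this
          have hδ : ∀ i, φ i (b j : V) = if i = j then 1 else 0 := by
            intro i
            simp only [hφ, LinearMap.comp_apply]
            rw [hπW_of _ (b j).2]
            simp [Module.Basis.coord_apply, Finsupp.single_apply, eq_comm]
          simp only [hδ, mul_ite, mul_one, mul_zero, Finset.sum_ite_eq', Finset.mem_univ,
            if_true] at this
          exact this
        have h1 : πW x = 0 := by
          apply b.repr.injective
          ext j
          have := h0 j
          simp only [hφ, LinearMap.comp_apply, Module.Basis.coord_apply] at this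
          simpa using this
        rw [hπW_of x hx] at h1
        exact congrArg Subtype.val h1
  · have h2 : (2 : F) ≠ 0 := by
      intro h
      have h' : ((2 : ℕ) : F) = 0 := by exact_mod_cast h
      rw [CharP.cast_eq_zero_iff F p] at h'
      have hp' : p.Prime := Fact.out
      exact hp ((Nat.prime_dvd_prime_iff_eq hp' Nat.prime_two).1 h')
    obtain ⟨U, W, hc, hU, hW, hA, hS⟩ := odd_case h2 ρ B hB hBinv
    refine ⟨U, W, hc, hU, hW, ⟨B - B.flip, ?_, ?_, ?_⟩, ⟨B + B.flip, ?_, ?_, ?_⟩,
      fun h => absurd h hp⟩
    · intro x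
      simp [LinearMap.BilinForm.flip_apply]
    · intro g x _ y _
      simp only [LinearMap.sub_apply, LinearMap.BilinForm.flip_apply, hBinv]
    · intro x hx h
      exact hA x hx (fun y hy => by
        have := h y hy
        simpa [LinearMap.BilinForm.flip_apply] using this)
    · intro x y
      simp only [LinearMap.add_apply, LinearMap.BilinForm.flip_apply]
      exact add_comm _ _
    · intro g x _ y _
      simp only [LinearMap.add_apply, LinearMap.BilinForm.flip_apply, hBinv]
    · intro x hx h
      exact hS x hx (fun y hy => by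
        have := h y hy
        simpa [LinearMap.BilinForm.flip_apply] using this)

end Cfsg.Agent.S4966
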