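import Cfsg.Statements.S4967
import Mathlib
-- import your own Cfsg.Agent.* helpers here

set_option autoImplicit false
open Cfsg

namespace Cfsg.Agent.S4967

open Polynomial

theorem cyclic_of_irr {F : Type*} [Field F] {H : Type*} [CommGroup H] [Finite H] {V : Type*}
    [AddCommGroup V] [Module F V] [Nontrivial V]
    (ρ : Representation F H V) (hfaith : Function.Injective ρ)
    (hirr : ∀ U : Submodule F V, (∀ h : H, ∀ u ∈ U, ρ h u ∈ U) → U = ⊥ ∨ U = ⊤) :
    IsCyclic H := by
  classical
  set A : Subalgebra F (Module.End F V) := Algebra.adjoin F (Set.range ρ) with hA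
  have hcomm : ∀ a ∈ Set.range ρ, ∀ b ∈ Set.range ρ, a * b = b * a := by
    rintro _ ⟨h, rfl⟩ _ ⟨k, rfl⟩
    rw [← map_mul, ← map_mul, mul_comm]
  letI : CommRing ↥A := Algebra.adjoinCommRingOfComm F hcomm
  have hinj : ∀ a : ↥A, a ≠ 0 → Function.Injective (a : Module.End F V) := by
    intro a ha
    have hker : ∀ h : H, ∀ u ∈ LinearMap.ker (a : Module.End F V),
        ρ h u ∈ LinearMap.ker (a : Module.End F V) := by
      intro h u hu
      rw [LinearMap.mem_ker] at hu ⊢
      have hc : (a : Module.End F V) * ρ h = ρ h * (a : Module.End F V) := by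
        have := mul_comm a (⟨ρ h, Algebra.subset_adjoin ⟨h, rfl⟩⟩ : ↥A)
        exact congrArg Subtype.val this
      have := congrArg (fun f : Module.End F V => f u) hc
      simp only [Module.End.mul_apply] at this
      rw [this, hu, map_zero]
    rcases hirr _ hker with h | h
    · exact LinearMap.ker_eq_bot.1 h
    · exfalso
      apply ha
      apply Subtype.ext
      exact LinearMap.ker_eq_top.1 h
  haveI : Nontrivial ↥A := ⟨⟨0, 1, fun h => by
    have h1 : (0 : Module.End F V) = 1 := congrArg Subtype.val h
    exact zero_ne_one h1⟩⟩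
  haveI : NoZeroDivisors ↥A := ⟨by
    intro a b hab
    by_contra hcon
    push Not at hcon
    apply hcon.2
    apply Subtype.ext
    ext v
    have h1 : (a : Module.End F V) ((b : Module.End F V) v) = 0 := by
      have := congrArg (fun f : ↥A => (f : Module.End F V) v) hab
      simpa using this
    exact hinj a hcon.1 (by rw [h1]; simp)⟩
  haveI : IsDomain ↥A := NoZeroDivisors.to_isDomain _
  let f : H →* ↥A :=
    { toFun := fun h => ⟨ρ h, Algebra.subset_adjoin ⟨h, rfl⟩⟩
      map_one' := by apply Subtype.ext; simp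
      map_mul' := by intro a b; apply Subtype.ext; simp }
  exact isCyclic_of_injective_ringHom f (fun a b hab => hfaith (congrArg Subtype.val hab))

theorem core {F : Type*} [Field F] [Fintype F] {V : Type*} [AddCommGroup V] [Module F V]
    [FiniteDimensional F V] [Nontrivial V] (T : Module.End F V) (m : ℕ) (hm : 0 < m)
    (hTm : T ^ m = 1) (hord : ∀ k : ℕ, T ^ k = 1 → m ∣ k)
    (hirr : ∀ U : Submodule F V, (∀ u ∈ U, T u ∈ U) → U = ⊥ ∨ U = ⊤) :
    ((∃ B : LinearMap.BilinForm F V, B.Nondegenerate ∧ ∀ x y : V, B (T x) (T y) = B x y) →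
      ∃ j : ℕ, j < Module.finrank F V ∧ (j = 0 ∨ 2 * j = Module.finrank F V) ∧
        m ∣ Fintype.card F ^ j + 1) ∧
    (∀ j : ℕ, 2 * j = Module.finrank F V → m ∣ Fintype.card F ^ j + 1 →
      ∃ B : LinearMap.BilinForm F V, B.Nondegenerate ∧ ∀ x y : V, B (T x) (T y) = B x y) := by
  classical
  have hTint : IsIntegral F T := LinearMap.isIntegral T
  set f := minpoly F T with hf
  have hfmonic : f.Monic := minpoly.monic hTint
  have hf0 : f ≠ 0 := hfmonic.ne_zero
  have hfT : aeval T f = 0 := minpoly.aeval F T
  have hcommT : ∀ g : F[X], aeval T g * T = T * aeval T g := by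
    intro g
    calc aeval T g * T = aeval T (g * X) := by rw [map_mul, aeval_X]
      _ = aeval T (X * g) := by rw [mul_comm]
      _ = T * aeval T g := by rw [map_mul, aeval_X]
  have hkerinv : ∀ g : F[X], LinearMap.ker (aeval T g) = ⊥ ∨ LinearMap.ker (aeval T g) = ⊤ := by
    intro g
    apply hirr
    intro u hu
    rw [LinearMap.mem_ker] at hu ⊢
    have := congrArg (fun ψ : Module.End F V => ψ u) (hcommT g)
    simp only [Module.End.mul_apply] at this
    rw [this, hu, map_zero]
  have hirrf : Irreducible f := by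
    rw [irreducible_iff]
    refine ⟨fun hu => ?_, fun a b hab => ?_⟩
    · have h1 : f = 1 := (Monic.isUnit_iff hfmonic).mp hu
      rw [h1, map_one] at hfT
      exact one_ne_zero hfT
    · have hprod : aeval T a * aeval T b = 0 := by rw [← map_mul, ← hab, hfT]
      have ha0 : a ≠ 0 := by rintro rfl; rw [zero_mul] at hab; exact hf0 hab
      have hb0 : b ≠ 0 := by rintro rfl; rw [mul_zero] at hab; exact hf0 hab
      rcases hkerinv a with h | h
      · left
        have hb : aeval T b = 0 := by
          ext v
          have := congrArg (fun ψ : Module.End F V => ψ v) hprod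
          simp only [Module.End.mul_apply, LinearMap.zero_apply] at this
          exact LinearMap.ker_eq_bot.1 h (by rw [this]; simp)
        obtain ⟨c, hc⟩ := minpoly.dvd F T hb
        rw [← hf, hab] at hc
        have h1 : b * 1 = b * (a * c) := by
          rw [mul_one]
          conv_lhs => rw [hc]
          rw [mul_comm a b, mul_assoc]
        exact IsUnit.of_mul_eq_one c (mul_left_cancel₀ hb0 h1).symm
      · right
        have ha : aeval T a = 0 := LinearMap.ker_eq_top.1 h
        obtain ⟨c, hc⟩ := minpoly.dvd F T ha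
        rw [← hf, hab] at hc
        have h1 : a * 1 = a * (b * c) := by
          rw [mul_one]
          conv_lhs => rw [hc]
          rw [mul_assoc]
        exact IsUnit.of_mul_eq_one c (mul_left_cancel₀ ha0 h1).symm
  haveI : Fact (Irreducible f) := ⟨hirrf⟩
  haveI : Module.Finite F (AdjoinRoot f) := (AdjoinRoot.powerBasis hf0).finite
  haveI : Finite (AdjoinRoot f) := (Module.finite_iff_finite (R := F)).mp inferInstance
  set ζ : AdjoinRoot f := AdjoinRoot.root f with hζ
  obtain ⟨φ, hφζ⟩ : ∃ φ : AdjoinRoot f →ₐ[F] Module.End F V, φ ζ = T := by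
    refine ⟨Ideal.Quotient.liftₐ (Ideal.span {f}) (aeval T) (by
      intro a ha
      obtain ⟨c, rfl⟩ := Ideal.mem_span_singleton.1 ha
      rw [map_mul, hfT, zero_mul]), ?_⟩
    show aeval T X = T
    exact aeval_X T
  have hφinj : Function.Injective φ := (φ : AdjoinRoot f →+* Module.End F V).injective
  have hζm : ζ ^ m = 1 := by
    apply hφinj
    rw [map_pow, hφζ, hTm, map_one]
  have hφunit : ∀ a : AdjoinRoot f, a ≠ 0 → ∀ v, φ a v = 0 → v = 0 := by
    intro a ha v hv
    have h1 : φ a⁻¹ * φ a = 1 := by rw [← map_mul, inv_mul_cancel₀ ha, map_one]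
    have := congrArg (fun ψ : Module.End F V => ψ v) h1
    simp only [Module.End.mul_apply, Module.End.one_apply] at this
    rw [← this, hv, map_zero]
  have hevsurj : ∀ x : V, x ≠ 0 → ∀ y : V, ∃ a : AdjoinRoot f, φ a x = y := by
    intro x hx
    set R : Submodule F V := LinearMap.range ((LinearMap.applyₗ x).comp φ.toLinearMap) with hR
    have hRinv : ∀ u ∈ R, T u ∈ R := by
      rintro _ ⟨a, rfl⟩
      refine ⟨ζ * a, ?_⟩
      simp [hφζ]
    rcases hirr R hRinv with h | h
    · exfalso
      have : x ∈ R := ⟨1, by simp⟩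
      rw [h] at this
      exact hx ((Submodule.mem_bot F).1 this)
    · intro y
      have : y ∈ R := by rw [h]; exact Submodule.mem_top
      obtain ⟨a, ha⟩ := this
      exact ⟨a, by simpa using ha⟩
  obtain ⟨v₀, hv₀⟩ := exists_ne (0 : V)
  set ev : AdjoinRoot f →ₗ[F] V := (LinearMap.applyₗ v₀).comp φ.toLinearMap with hev
  have hevapp : ∀ a, ev a = φ a v₀ := fun a => rfl
  have hevinj : Function.Injective ev := by
    rw [injective_iff_map_eq_zero]
    intro a ha
    by_contra h
    exact hv₀ (hφunit a h v₀ ha)
  have hevsur : Function.Surjective ev := fun y => hevsurj v₀ hv₀ y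
  set evE : AdjoinRoot f ≃ₗ[F] V := LinearEquiv.ofBijective ev ⟨hevinj, hevsur⟩ with hevE
  have hevEapp : ∀ a, evE a = φ a v₀ := fun a => rfl
  have hfin : Module.finrank F (AdjoinRoot f) = Module.finrank F V := evE.finrank_eq
  have hq : ∀ (k : ℕ) (a : AdjoinRoot f),
      (FiniteField.frobeniusAlgHom F (AdjoinRoot f) ^ k) a = a ^ (Fintype.card F ^ k) := by
    intro k a
    rw [AlgHom.coe_pow, FiniteField.coe_frobeniusAlgHom, pow_iterate]
  constructor
  · rintro ⟨B, hB, hBT⟩
    set Tinv : Module.End F V := T ^ (m - 1) with hTinv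
    have hTTinv : T * Tinv = 1 := by rw [hTinv, ← pow_succ', Nat.sub_add_cancel hm, hTm]
    have hadj1 : ∀ x y, B (Tinv x) y = B x (T y) := by
      intro x y
      rw [← hBT (Tinv x) y]
      have := congrArg (fun ψ : Module.End F V => ψ x) hTTinv
      simp only [Module.End.mul_apply, Module.End.one_apply] at this
      rw [this]
    have hadjpow : ∀ (k : ℕ) x y, B ((Tinv ^ k) x) y = B x ((T ^ k) y) := by
      intro k
      induction k with
      | zero => intro x y; simp
      | succ k ih =>
        intro x y
        have e1 : (Tinv ^ (k + 1)) x = Tinv ((Tinv ^ k) x) := by rw [pow_succ']; rfl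
        have e2 : (T ^ (k + 1)) y = (T ^ k) (T y) := by rw [pow_succ]; rfl
        rw [e1, e2, hadj1, ih]
    have hadjpoly : ∀ (g : F[X]) x y, B (aeval Tinv g x) y = B x (aeval T g y) := by
      intro g
      induction g using Polynomial.induction_on' with
      | add p q hp hq =>
        intro x y
        simp only [map_add, LinearMap.add_apply, hp, hq]
      | monomial n a =>
        intro x y
        simp only [aeval_monomial, Module.End.mul_apply, Module.algebraMap_end_apply, map_smul,
          LinearMap.smul_apply, hadjpow]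
    have hfTinv : aeval Tinv f = 0 := by
      ext x
      apply hB.1
      intro y
      rw [hadjpoly, hfT]
      simp
    set ζinv : AdjoinRoot f := ζ ^ (m - 1) with hζinv
    have hφζinv : φ ζinv = Tinv := by rw [hζinv, map_pow, hφζ]
    have hfζinv : aeval ζinv f = 0 := by
      apply hφinj
      rw [← aeval_algHom_apply, hφζinv, hfTinv, map_zero]
    have hζζinv : ζ * ζinv = 1 := by rw [hζinv, ← pow_succ', Nat.sub_add_cancel hm, hζm]
    obtain ⟨ψ, hψζ⟩ : ∃ ψ : AdjoinRoot f →ₐ[F] AdjoinRoot f, ψ ζ = ζinv := by
      refine ⟨Ideal.Quotient.liftₐ (Ideal.span {f}) (aeval ζinv) (by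
        intro a ha
        obtain ⟨c, rfl⟩ := Ideal.mem_span_singleton.1 ha
        rw [map_mul, hfζinv, zero_mul]), ?_⟩
      show aeval ζinv X = ζinv
      exact aeval_X ζinv
    obtain ⟨j0, hj0⟩ := (FiniteField.bijective_frobeniusAlgHom_pow F (AdjoinRoot f)).2 ψ
    obtain ⟨j, hjlt0, hj'⟩ : ∃ j : ℕ, j < Module.finrank F (AdjoinRoot f) ∧
        FiniteField.frobeniusAlgHom F (AdjoinRoot f) ^ j = ψ := ⟨j0.1, j0.2, hj0⟩
    have hjlt : j < Module.finrank F V := hfin ▸ hjlt0
    have h1 : ζ ^ (Fintype.card F ^ j) = ζinv := by rw [← hq, hj', hψζ]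
    have h2 : ζ ^ (Fintype.card F ^ j + 1) = 1 := by rw [pow_succ, h1, mul_comm, hζζinv]
    have h3 : T ^ (Fintype.card F ^ j + 1) = 1 := by rw [← hφζ, ← map_pow, h2, map_one]
    refine ⟨j, hjlt, ?_, hord _ h3⟩
    have hψψ : ψ (ψ ζ) = ζ := by
      have e1 : ψ (ψ ζ) * ψ ζ = 1 := by rw [← map_mul, hψζ, mul_comm, hζζinv, map_one]
      have e2 : ζ * ψ ζ = 1 := by rw [hψζ, hζζinv]
      calc ψ (ψ ζ) = ψ (ψ ζ) * (ζ * ψ ζ) := by rw [e2, mul_one]
        _ = (ψ (ψ ζ) * ψ ζ) * ζ := by ring
        _ = ζ := by rw [e1, one_mul]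
    have hpow2 : FiniteField.frobeniusAlgHom F (AdjoinRoot f) ^ (2 * j) = 1 := by
      apply AdjoinRoot.algHom_ext
      rw [two_mul, pow_add, hj', AlgHom.mul_apply, hψψ]
      rfl
    have hdvd : Module.finrank F (AdjoinRoot f) ∣ 2 * j := by
      rw [← FiniteField.orderOf_frobeniusAlgHom F (AdjoinRoot f)]
      exact orderOf_dvd_of_pow_eq_one hpow2
    rw [hfin] at hdvd
    obtain ⟨c, hc⟩ := hdvd
    have hc01 : c = 0 ∨ c = 1 := by
      rcases c with _ | _ | c
      · left; rfl
      · right; rfl
      · exfalso
        have : Module.finrank F V * 2 ≤ Module.finrank F V * (c + 1 + 1) :=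
          Nat.mul_le_mul_left _ (by omega)
        omega
    rcases hc01 with rfl | rfl
    · left; omega
    · right; omega
  · intro j hj hmj
    set ψ : AdjoinRoot f →ₐ[F] AdjoinRoot f := FiniteField.frobeniusAlgHom F (AdjoinRoot f) ^ j
      with hψ
    have hψζ : ψ ζ = ζ ^ (Fintype.card F ^ j) := hq j ζ
    have hζq : ψ ζ * ζ = 1 := by
      rw [hψζ, ← pow_succ]
      obtain ⟨c, hc⟩ := hmj
      rw [hc, pow_mul, hζm, one_pow]
    have hψinj : Function.Injective ψ := (ψ : AdjoinRoot f →+* AdjoinRoot f).injective
    have hψsurj : Function.Surjective ψ := Finite.injective_iff_surjective.1 hψinj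
    obtain ⟨l, hl⟩ := Module.Projective.exists_dual_ne_zero F hv₀
    set Bf : V →ₗ[F] V →ₗ[F] F :=
      (LinearMap.llcomp F V V F l).comp
        (φ.toLinearMap.comp (ψ.toLinearMap.comp evE.symm.toLinearMap)) with hBf
    have hBfapp : ∀ x y, Bf y x = l (φ (ψ (evE.symm y)) x) := fun x y => rfl
    refine ⟨Bf.flip, ?_, ?_⟩
    · apply LinearMap.BilinForm.Nondegenerate.ofSeparatingLeft
      intro x hx
      by_contra hx0
      apply hl
      obtain ⟨a, ha⟩ := hevsurj x hx0 v₀
      obtain ⟨a', rfl⟩ := hψsurj a
      have := hx (evE a')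
      rw [LinearMap.flip_apply, hBfapp, LinearEquiv.symm_apply_apply, ha] at this
      exact this
    · intro x y
      rw [LinearMap.flip_apply, LinearMap.flip_apply, hBfapp, hBfapp]
      have e1 : evE.symm (T y) = ζ * evE.symm y := by
        apply evE.injective
        rw [LinearEquiv.apply_symm_apply, hevEapp, map_mul, hφζ, Module.End.mul_apply,
          ← hevEapp, LinearEquiv.apply_symm_apply]
      rw [e1, map_mul, map_mul]
      have e2 : (φ (ψ ζ) * φ (ψ (evE.symm y))) * φ ζ = φ (ψ (evE.symm y)) := by
        rw [← map_mul, ← map_mul]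
        congr 1
        rw [mul_comm (ψ ζ), mul_assoc, hζq, mul_one]
      have := congrArg (fun χ : Module.End F V => χ x) e2
      rw [hφζ] at this
      simp only [Module.End.mul_apply] at this ⊢
      rw [this]

/-- Let F be a finite field with r elements and of characteristic p, H a finite abelian group of order prime to p, and V a faithful irreducible representation of H over F of dimension n (faithful: distinct elements act differently; irreducible: the only H-invariant subspaces are 0 and V). Call V self-dual when it carries a nondegenerate H-invariant bilinear form. If n = 1 and V is self-dual then H has order at most 2. If n ≥ 2 then V is self-dual if and only if n is even and the order of H divides r^(n/2) + 1. -/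
theorem result {F : Type*} [Field F] [Fintype F] (p : ℕ) [Fact p.Prime] [CharP F p] {H : Type*} [CommGroup H] [Finite H] (hcop : ¬ p ∣ Nat.card H) {V : Type*} [AddCommGroup V] [Module F V] [FiniteDimensional F V] (ρ : Representation F H V) (hfaith : Function.Injective ρ) (hirr : ∀ U : Submodule F V, (∀ h : H, ∀ u ∈ U, ρ h u ∈ U) → U = ⊥ ∨ U = ⊤) : (Module.finrank F V = 1 → (∃ B : LinearMap.BilinForm F V, B.Nondegenerate ∧ ∀ h : H, ∀ x y : V, B (ρ h x) (ρ h y) = B x y) → Nat.card H ≤ 2) ∧ (2 ≤ Module.finrank F V → ((∃ B : LinearMap.BilinForm F V, B.Nondegenerate ∧ ∀ h : H, ∀ x y : V, B (ρ h x) (ρ h y) = B x y) ↔ (Even (Module.finrank F V) ∧ Nat.card H ∣ Fintype.card F ^ (Module.finrank F V / 2) + 1))) := by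
  classical
  by_cases hV : Module.finrank F V = 0
  · exact ⟨fun h => by omega, fun h => by omega⟩
  haveI : Nontrivial V := Module.finrank_pos_iff.1 (Nat.pos_of_ne_zero hV)
  haveI : IsCyclic H := cyclic_of_irr ρ hfaith hirr
  obtain ⟨h₀, hh₀⟩ := IsCyclic.exists_generator (α := H)
  set T : Module.End F V := ρ h₀ with hT
  set m := Nat.card H with hm
  have hmpos : 0 < m := Nat.card_pos
  have hord0 : orderOf h₀ = m := orderOf_eq_card_of_forall_mem_zpowers hh₀
  have hTm : T ^ m = 1 := by rw [hT, ← map_pow, ← hord0, pow_orderOf_eq_one, map_one]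
  have hord : ∀ k : ℕ, T ^ k = 1 → m ∣ k := by
    intro k hk
    rw [hT, ← map_pow] at hk
    have h1 : h₀ ^ k = 1 := hfaith (by rw [hk, map_one])
    rw [← hord0]
    exact orderOf_dvd_of_pow_eq_one h1
  have hρpow : ∀ h : H, ∃ k : ℕ, ρ h = T ^ k := by
    intro h
    have h1 := hh₀ h
    rw [← mem_powers_iff_mem_zpowers] at h1
    obtain ⟨k, hk⟩ := h1
    exact ⟨k, by rw [← hk, map_pow]⟩
  have hirrT : ∀ U : Submodule F V, (∀ u ∈ U, T u ∈ U) → U = ⊥ ∨ U = ⊤ := by
    intro U hU
    apply hirr
    intro h u hu
    obtain ⟨k, hk⟩ := hρpow h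
    rw [hk]
    have hpow : ∀ k : ℕ, ∀ u ∈ U, (T ^ k) u ∈ U := by
      intro k
      induction k with
      | zero => intro u hu; simpa using hu
      | succ k ih =>
        intro u hu
        rw [pow_succ]
        exact ih _ (hU u hu)
    exact hpow k u hu
  have hforms : (∃ B : LinearMap.BilinForm F V, B.Nondegenerate ∧
      ∀ h : H, ∀ x y : V, B (ρ h x) (ρ h y) = B x y) ↔
      (∃ B : LinearMap.BilinForm F V, B.Nondegenerate ∧ ∀ x y : V, B (T x) (T y) = B x y) := by
    constructor
    · rintro ⟨B, hB, hBinv⟩
      exact ⟨B, hB, fun x y => hBinv h₀ x y⟩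
    · rintro ⟨B, hB, hBT⟩
      refine ⟨B, hB, fun h x y => ?_⟩
      obtain ⟨k, hk⟩ := hρpow h
      rw [hk]
      have hpow : ∀ k : ℕ, ∀ x y, B ((T ^ k) x) ((T ^ k) y) = B x y := by
        intro k
        induction k with
        | zero => intro x y; simp
        | succ k ih =>
          intro x y
          rw [pow_succ, Module.End.mul_apply, Module.End.mul_apply, ih, hBT]
      exact hpow k x y
  obtain ⟨hc1, hc2⟩ := core T m hmpos hTm hord hirrT
  rw [hforms]
  constructor
  · intro hn1 hex
    obtain ⟨j, hj, _, hdvd⟩ := hc1 hex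
    have hj0 : j = 0 := by omega
    subst hj0
    exact Nat.le_of_dvd (by norm_num) (by simpa using hdvd)
  · intro hn2
    constructor
    · intro hex
      obtain ⟨j, hj, hj2, hdvd⟩ := hc1 hex
      rcases hj2 with rfl | hj2
      · exfalso
        have hm2 : m ∣ 2 := by simpa using hdvd
        have hT2 : T ^ 2 = 1 := by
          obtain ⟨c, hc⟩ := hm2
          rw [hc, pow_mul, hTm, one_pow]
        -- T is ± 1
        have hscal : ∀ v : V, T v = v ∨ T v = -v := by
          have hkerinv : ∀ u ∈ LinearMap.ker (T - 1), T u ∈ LinearMap.ker (T - 1) := by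
            intro u hu
            rw [LinearMap.mem_ker] at hu ⊢
            have e : (T - 1) (T u) = T ((T - 1) u) := by simp
            rw [e, hu, map_zero]
          rcases hirrT _ hkerinv with h | h
          · intro v
            right
            have h1 : (T - 1) (T v + v) = 0 := by
              have h2 : T (T v) = v := by
                have := congrArg (fun ψ : Module.End F V => ψ v) hT2
                simpa [pow_two] using this
              simp only [LinearMap.sub_apply, map_add, h2, Module.End.one_apply]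
              abel
            have h3 := LinearMap.ker_eq_bot.1 h (by rw [h1, map_zero] : (T - 1) (T v + v) = (T - 1) 0)
            exact eq_neg_of_add_eq_zero_left h3
          · intro v
            left
            have : v ∈ LinearMap.ker (T - 1) := by rw [h]; exact Submodule.mem_top
            rw [LinearMap.mem_ker] at this
            simpa [sub_eq_zero] using this
        obtain ⟨v₀, hv₀⟩ := exists_ne (0 : V)
        have hspan : ∀ u ∈ Submodule.span F {v₀}, T u ∈ Submodule.span F {v₀} := by
          intro u hu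
          rcases hscal u with h | h
          · rw [h]; exact hu
          · rw [h]; exact Submodule.neg_mem _ hu
        rcases hirrT _ hspan with h | h
        · exact hv₀ ((Submodule.span_singleton_eq_bot).1 h)
        · have h1 : Module.finrank F (Submodule.span F {v₀}) = Module.finrank F V := by
            rw [h, finrank_top]
          have h2 : Module.finrank F (Submodule.span F {v₀}) = 1 := finrank_span_singleton hv₀
          omega
      · refine ⟨⟨j, by omega⟩, ?_⟩
        have : Module.finrank F V / 2 = j := by omega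
        rw [this]
        exact hdvd
    · rintro ⟨heven, hdvd⟩
      obtain ⟨j, hj⟩ := heven
      have : Module.finrank F V / 2 = j := by omega
      rw [this] at hdvd
      exact hc2 j (by omega) hdvd

end Cfsg.Agent.S4967
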