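import Cfsg.Statements.S5015
import Cfsg.Agent.Lib.Helper86.RankOne
open Cfsg.Agent.Lib.Helper86

set_option autoImplicit false
open Cfsg

namespace Cfsg.Agent.S5015

theorem exists_third {Ω : Type*} (hΩ : 3 ≤ ENat.card Ω) (α β : Ω) : ∃ γ : Ω, γ ≠ α ∧ γ ≠ β := by
  by_contra hcon
  push Not at hcon
  have hsub : (Set.univ : Set Ω) ⊆ {α, β} := by
    intro γ _
    by_cases h : γ = α
    · exact Or.inl h
    · exact Or.inr (hcon γ h)
  have h0 : ({α, β} : Set Ω).encard ≤ 2 := by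
    refine (Set.encard_insert_le {β} α).trans ?_
    rw [Set.encard_singleton]; norm_num
  have h1 : (Set.univ : Set Ω).encard ≤ 2 := (Set.encard_le_encard hsub).trans h0
  rw [Set.encard_univ] at h1
  have : (3 : ℕ∞) ≤ 2 := hΩ.trans h1
  exact absurd this (by decide)

theorem aux_same {Y Ω : Type*} [Group Y] [MulAction Y Ω] (α : Ω) (A : Subgroup Y)
    (hAn : ∀ y ∈ MulAction.stabilizer Y α, Cfsg.conjBy A y = A) {g g' : Y} (hgg : g • α = g' • α) :
    conjBy A g = conjBy A g' := by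
  have h1 : g'⁻¹ * g ∈ MulAction.stabilizer Y α := by
    rw [MulAction.mem_stabilizer_iff, mul_smul, hgg, inv_smul_smul]
  have h2 := hAn _ h1
  have e : g = g' * (g'⁻¹ * g) := by group
  rw [e, ← conjBy_conjBy, h2]

theorem aux_conj {Y Ω : Type*} [Group Y] [MulAction Y Ω] (α : Ω) (A : Subgroup Y)
    (hA : A ≤ MulAction.stabilizer Y α) (hAn : ∀ y ∈ MulAction.stabilizer Y α, Cfsg.conjBy A y = A)
    (hreg : ∀ β γ : Ω, β ≠ α → γ ≠ α → ∃! a : Y, a ∈ A ∧ a • β = γ) (g : Y) :
    conjBy A g ≤ MulAction.stabilizer Y (g • α) ∧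
    (∀ y ∈ MulAction.stabilizer Y (g • α), Cfsg.conjBy (conjBy A g) y = conjBy A g) ∧
    (∀ β γ : Ω, β ≠ g • α → γ ≠ g • α → ∃! a : Y, a ∈ conjBy A g ∧ a • β = γ) := by
  refine ⟨?_, ?_, ?_⟩
  · intro b hb
    rw [mem_conjBy] at hb
    have := hA hb
    rw [MulAction.mem_stabilizer_iff] at this ⊢
    have e : b = g * (g⁻¹ * b * g) * g⁻¹ := by group
    rw [e, mul_smul, mul_smul, inv_smul_smul, this]
  · intro y hy
    rw [MulAction.mem_stabilizer_iff] at hy
    rw [conjBy_conjBy]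
    apply aux_same α A hAn
    rw [mul_smul, hy]
  · intro β γ hβ hγ
    have hβ' : g⁻¹ • β ≠ α := by
      intro e; apply hβ; rw [← e, smul_inv_smul]
    have hγ' : g⁻¹ • γ ≠ α := by
      intro e; apply hγ; rw [← e, smul_inv_smul]
    obtain ⟨a, ⟨ha, haβ⟩, hu⟩ := hreg _ _ hβ' hγ'
    refine ⟨g * a * g⁻¹, ⟨conj_mem_conjBy ha g, ?_⟩, ?_⟩
    · rw [mul_smul, mul_smul, haβ, smul_inv_smul]
    · rintro b ⟨hb, hbβ⟩
      rw [mem_conjBy] at hb
      have := hu (g⁻¹ * b * g) ⟨hb, by rw [mul_smul, mul_smul, smul_inv_smul, hbβ]⟩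
      rw [← this]; group

theorem aux_cond {Y Ω : Type*} [Group Y] [MulAction Y Ω] (α : Ω) (A : Subgroup Y)
    (hA : A ≤ MulAction.stabilizer Y α) (hAn : ∀ y ∈ MulAction.stabilizer Y α, Cfsg.conjBy A y = A)
    (hreg : ∀ β γ : Ω, β ≠ α → γ ≠ α → ∃! a : Y, a ∈ A ∧ a • β = γ) (g : Y) (hg : g • α ≠ α) :
    RankOneCondition A (conjBy A g) := by
  obtain ⟨hB, hBn, hregB⟩ := aux_conj α A hA hAn hreg g
  intro a ha ha1
  have haα : a • α = α := MulAction.mem_stabilizer_iff.mp (hA ha)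
  have h1 : a⁻¹ • (g • α) ≠ g • α := by
    intro e
    obtain ⟨a₀, -, hu⟩ := hreg (g • α) (g • α) hg hg
    have e1 := hu a⁻¹ ⟨A.inv_mem ha, e⟩
    have e2 := hu 1 ⟨A.one_mem, one_smul _ _⟩
    exact ha1 (inv_eq_one.mp (e1.trans e2.symm))
  have h2 : a⁻¹ • (g • α) ≠ α := by
    intro e
    apply hg
    rw [inv_smul_eq_iff] at e
    rw [e, haα]
  obtain ⟨b', ⟨hb', hb'α⟩, -⟩ := hregB α (a⁻¹ • (g • α)) (fun e => hg e.symm) h1
  refine ⟨b'⁻¹, Subgroup.inv_mem _ hb', ?_, ?_⟩
  · intro e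
    rw [inv_eq_one] at e
    rw [e, one_smul] at hb'α
    exact h2 hb'α.symm
  · rw [inv_inv, conjBy_conjBy]
    apply aux_same α A hAn
    rw [hb'α, mul_smul]

/-- Let a group Y act doubly transitively on a set Ω with at least three points, and suppose that the stabilizer of a point α contains a nilpotent subgroup A, normalized by that stabilizer, which acts regularly on the points other than α. Then for any y in Y moving α, the subgroups A and y A y⁻¹ are the unipotent subgroups of a rank one group, and the normal closure of A in Y (the subgroup generated by all conjugates of A) is generated by A and y A y⁻¹ alone. -/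
theorem result {Y Ω : Type*} [Group Y] [MulAction Y Ω]
    (h2 : MulAction.IsMultiplyPretransitive Y Ω 2) (hΩ : 3 ≤ ENat.card Ω) (α : Ω) (A : Subgroup Y)
    (hA : A ≤ MulAction.stabilizer Y α) (hAn : ∀ y ∈ MulAction.stabilizer Y α, Cfsg.conjBy A y = A)
    (hnil : Group.IsNilpotent A) (hreg : ∀ β γ : Ω, β ≠ α → γ ≠ α → ∃! a : Y, a ∈ A ∧ a • β = γ)
    (y : Y) (hy : y ∉ MulAction.stabilizer Y α) :
    Cfsg.IsRankOnePair A (Cfsg.conjBy A y) ∧ Subgroup.normalClosure (A : Set Y) = A ⊔ Cfsg.conjBy A y := by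
  have hyα : y • α ≠ α := fun e => hy (MulAction.mem_stabilizer_iff.mpr e)
  obtain ⟨hB, hBn, hregB⟩ := aux_conj α A hA hAn hreg y
  obtain ⟨γ, hγα, hγβ⟩ := exists_third hΩ α (y • α)
  have hne : A ≠ conjBy A y := by
    intro e
    obtain ⟨a, ⟨ha, haβ⟩, -⟩ := hreg (y • α) γ hyα hγα
    rw [e] at ha
    have := hB ha
    rw [MulAction.mem_stabilizer_iff] at this
    exact hγβ (haβ.symm.trans this)
  have hback : conjBy (conjBy A y) y⁻¹ = A := conjBy_inv_cancel A y
  have hyβ : y⁻¹ • (y • α) ≠ y • α := by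
    rw [inv_smul_smul]; exact fun e => hyα e.symm
  have hcr := aux_cond (y • α) (conjBy A y) hB hBn hregB y⁻¹ hyβ
  rw [hback] at hcr
  refine ⟨⟨hne, hnil, ?_, aux_cond α A hA hAn hreg y hyα, hcr⟩, ?_⟩
  · exact Group.nilpotent_of_mulEquiv (A.equivMapOfInjective _ (MulAut.conj y).injective)
  · apply le_antisymm
    · -- every point is reached from α by an element of A ⊔ B
      have htrans : ∀ ω : Ω, ∃ x ∈ A ⊔ conjBy A y, x • α = ω := by
        have h1 : ∀ ω : Ω, ω ≠ y • α → ∃ x ∈ A ⊔ conjBy A y, x • α = ω := by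
          intro ω hω
          obtain ⟨b, ⟨hb, hbα⟩, -⟩ := hregB α ω (fun e => hyα e.symm) hω
          exact ⟨b, Subgroup.mem_sup_right hb, hbα⟩
        intro ω
        by_cases hω : ω = y • α
        · obtain ⟨x, hx, hxα⟩ := h1 γ hγβ
          obtain ⟨a, ⟨ha, haγ⟩, -⟩ := hreg γ (y • α) hγα hyα
          refine ⟨a * x, Subgroup.mul_mem _ (Subgroup.mem_sup_left ha) hx, ?_⟩
          rw [mul_smul, hxα, haγ, hω]
        · exact h1 ω hω
      rw [Subgroup.normalClosure, Subgroup.closure_le]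
      intro z hz
      rw [Group.mem_conjugatesOfSet_iff] at hz
      obtain ⟨a, ha, hconj⟩ := hz
      rw [isConj_iff] at hconj
      obtain ⟨g, rfl⟩ := hconj
      obtain ⟨x, hx, hxα⟩ := htrans (g • α)
      have h2 : conjBy A g = conjBy A x := aux_same α A hAn hxα.symm
      have h3 : g * a * g⁻¹ ∈ conjBy A g := conj_mem_conjBy ha g
      rw [h2] at h3
      exact conjBy_le_of_mem le_sup_left hx h3
    · refine sup_le Subgroup.le_normalClosure ?_
      intro z hz
      rw [mem_conjBy] at hz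
      have hn : (Subgroup.normalClosure (A : Set Y)).Normal := Subgroup.normalClosure_normal
      have := hn.conj_mem _ (Subgroup.le_normalClosure hz) y
      simpa [mul_assoc] using this

end Cfsg.Agent.S5015
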