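import Cfsg.Statements.S5017
import Cfsg.Agent.Lib.Helper86.RankOne2
open Cfsg.Agent.Lib.Helper86

set_option autoImplicit false
open Cfsg

namespace Cfsg.Agent.S5017

/-- Let X be a rank one group with unipotent subgroups A and B and N a normal subgroup of X. Then either X = N A or N lies in the centre of X. Consequently a perfect rank one group is quasisimple. -/
theorem result {X : Type*} [Group X] {A B : Subgroup X} (h : Cfsg.IsRankOneGroup X A B) :
    (∀ N : Subgroup X, N.Normal → N ⊔ A = ⊤ ∨ N ≤ Subgroup.center X) ∧
    (Group.IsPerfect X → Cfsg.IsQuasisimple X) := by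
  refine ⟨fun N hN => rk1_normal_dichotomy h N hN, ?_⟩
  intro hperf
  refine ⟨hperf, ?_⟩
  have hnt : Nontrivial (X ⧸ Subgroup.center X) := by
    rw [QuotientGroup.nontrivial_iff]
    exact rk1_center_ne_top h.2
  refine { exists_pair_ne := hnt.exists_pair_ne, eq_bot_or_eq_top_of_normal := ?_ }
  intro H hH
  have hNn : (H.comap (QuotientGroup.mk' (Subgroup.center X))).Normal := hH.comap _
  rcases rk1_normal_dichotomy h _ hNn with hNA | hNZ
  · right
    have hsurj : Function.Surjective
        ((QuotientGroup.mk' (H.comap (QuotientGroup.mk' (Subgroup.center X)))).comp A.subtype) := by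
      rw [← MonoidHom.range_eq_top, MonoidHom.range_comp, Subgroup.range_subtype]
      have h1 := Subgroup.map_sup (H.comap (QuotientGroup.mk' (Subgroup.center X))) A
        (QuotientGroup.mk' (H.comap (QuotientGroup.mk' (Subgroup.center X))))
      rw [hNA, Subgroup.map_top_of_surjective _ (QuotientGroup.mk'_surjective _)] at h1
      rw [h1]
      simp
    have hnil : Group.IsNilpotent (X ⧸ H.comap (QuotientGroup.mk' (Subgroup.center X))) := by
      have := h.2.nilpotent_left
      exact Group.nilpotent_of_surjective _ hsurj
    have hsub : Subsingleton (X ⧸ H.comap (QuotientGroup.mk' (Subgroup.center X))) := by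
      by_contra hns
      rw [not_subsingleton_iff_nontrivial] at hns
      exact Group.IsPerfect.not_isNilpotent _ hnil
    have htop := QuotientGroup.subgroup_eq_top_of_subsingleton _ hsub
    rw [eq_top_iff]
    intro x _
    obtain ⟨y, rfl⟩ := QuotientGroup.mk_surjective x
    have : y ∈ H.comap (QuotientGroup.mk' (Subgroup.center X)) := by rw [htop]; trivial
    exact this
  · left
    rw [Subgroup.eq_bot_iff_forall]
    intro x hx
    obtain ⟨y, rfl⟩ := QuotientGroup.mk_surjective x
    have : y ∈ H.comap (QuotientGroup.mk' (Subgroup.center X)) := hx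
    exact (QuotientGroup.eq_one_iff y).mpr (hNZ this)

end Cfsg.Agent.S5017
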