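import Cfsg.Statements.S5018
import Cfsg.Agent.Lib.Helper86.RankOne2
open Cfsg.Agent.Lib.Helper86

set_option autoImplicit false
open Cfsg

namespace Cfsg.Agent.S5018

/-- A rank one group is not nilpotent, and its second centre equals its centre. -/
theorem result {X : Type*} [Group X] {A B : Subgroup X} (h : Cfsg.IsRankOneGroup X A B) :
    Subgroup.upperCentralSeries X 2 = Subgroup.center X ∧ ¬ Group.IsNilpotent X := by
  obtain ⟨htop, hp⟩ := h
  have hZ2 : Subgroup.upperCentralSeries X 2 ≤ Subgroup.center X := by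
    by_cases hNA : ∀ n ∈ Subgroup.upperCentralSeries X 2, conjBy A n = A
    · have hN' : ∀ n ∈ Subgroup.upperCentralSeries X 2, ∀ x ∈ A ⊔ B,
          x⁻¹ * n * x ∈ Subgroup.upperCentralSeries X 2 := by
        intro n hn x _
        have hnorm : (Subgroup.upperCentralSeries X 2).Normal := inferInstance
        have := hnorm.conj_mem n hn x⁻¹
        simpa using this
      intro n hn
      rw [Subgroup.mem_center_iff]
      intro g
      exact (rk1_normal_central hp hN' hNA n hn g (by rw [htop]; trivial)).symm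
    · exfalso
      push Not at hNA
      obtain ⟨n, hn, hnA⟩ := hNA
      have hC : conjBy A n ∈ unipotentSubgroups A B :=
        unip_conj_mem (unip_self_mem A B) (by rw [htop]; trivial)
      have hpair : IsRankOnePair (conjBy A n) A := rk1_pair_of_unip hp hC (unip_self_mem A B) hnA
      obtain ⟨c, hc, hc1⟩ := rk1_A_nontriv hpair
      apply hc1
      apply rk1_normA hpair hc
      have ha : n⁻¹ * c * n ∈ A := mem_conjBy.mp hc
      have hz : (n * (n⁻¹ * c * n) * n⁻¹ * (n⁻¹ * c * n)⁻¹) ∈ Subgroup.upperCentralSeries X 1 :=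
        Subgroup.mem_upperCentralSeries_succ_iff.mp hn _
      rw [Subgroup.upperCentralSeries_one, Subgroup.mem_center_iff] at hz
      have hc_eq : c = (n * (n⁻¹ * c * n) * n⁻¹ * (n⁻¹ * c * n)⁻¹) * (n⁻¹ * c * n) := by
        group
      have hcz : conjBy A (n * (n⁻¹ * c * n) * n⁻¹ * (n⁻¹ * c * n)⁻¹) = A := by
        ext x
        rw [mem_conjBy]
        have e : (n * (n⁻¹ * c * n) * n⁻¹ * (n⁻¹ * c * n)⁻¹)⁻¹ * x * (n * (n⁻¹ * c * n) * n⁻¹ * (n⁻¹ * c * n)⁻¹) = x := by
          rw [mul_assoc, hz x, ← mul_assoc, inv_mul_cancel, one_mul]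
        rw [e]
      rw [hc_eq, ← conjBy_conjBy, conjBy_of_mem ha, hcz]
  have heq : Subgroup.upperCentralSeries X 2 = Subgroup.center X := by
    apply le_antisymm hZ2
    rw [← Subgroup.upperCentralSeries_one]
    exact Subgroup.upperCentralSeries_mono X (by norm_num)
  refine ⟨heq, ?_⟩
  intro hnil
  have h12 : Subgroup.upperCentralSeries X 1 = Subgroup.upperCentralSeries X 2 := by
    rw [Subgroup.upperCentralSeries_one, heq]
  have := Subgroup.upperCentralSeries.eq_top (G := X) (a := 1) (b := 2) (by norm_num) h12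
  rw [Subgroup.upperCentralSeries_one] at this
  exact rk1_center_ne_top hp this

end Cfsg.Agent.S5018
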