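import Cfsg.Statements.S5020
import Cfsg.Agent.Lib.Helper86.Small
import Cfsg.Agent.Lib.Helper86.Quasi
import Cfsg.Agent.Lib.Helper86.RankOne2

set_option autoImplicit false
open Cfsg

namespace Cfsg.Agent.S5020

open Cfsg.Agent.Lib.Helper86

/-- Let X be a special rank one group with abelian unipotent subgroups A and B, and H = N(A) ∩ N(B) its diagonal subgroup. Then either A has at most three elements and X is isomorphic to SL₂(2), SL₂(3) or PSL₂(3); or X = X' A with the commutator subgroup X' quasisimple and the commutator subgroup ⁅A, H⁆ having more than three elements. -/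
theorem result {X : Type*} [Group X] {A B : Subgroup X} (h : Cfsg.IsRankOneGroup X A B)
    (hs : Cfsg.IsSpecialRankOnePair A B) (hab : Cfsg.HasAbelianUnipotents A B) :
    (ENat.card A ≤ 3 ∧ (Nonempty (X ≃* Matrix.SpecialLinearGroup (Fin 2) (ZMod 2)) ∨
        Nonempty (X ≃* Matrix.SpecialLinearGroup (Fin 2) (ZMod 3)) ∨
        Nonempty (X ≃* Matrix.ProjectiveSpecialLinearGroup (Fin 2) (ZMod 3)))) ∨
    (commutator X ⊔ A = ⊤ ∧ Cfsg.IsQuasisimple (commutator X) ∧
      3 < ENat.card ↥(⁅A, Cfsg.rankOneDiagonal A B⁆ : Subgroup X)) := by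
  have hA : ∀ x ∈ A, ∀ y ∈ A, x * y = y * x :=
    commutator_eq_bot_iff'.mp (Subgroup.commutator_self_eq_bot_iff.mpr hab.1)
  by_cases hcard : ENat.card A ≤ 3
  · left
    exact ⟨hcard, small_case h hs hcard⟩
  · right
    have h4 := four_of_card (not_le.mp hcard)
    have hperf : commutator X = ⊤ := by
      have hp := spart_perfect hs hA h4
      rw [h.1] at hp
      rw [commutator_def]
      exact hp
    refine ⟨by rw [hperf, top_sup_eq], ?_, ?_⟩
    · refine quasisimple_subgroup_of_dichotomy hperf hperf (rk1_center_ne_top h.2) ?_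
      intro N hN
      rcases rk1_normal_dichotomy h N hN with h1 | h1
      · right
        have h2 := hN.commutator_le_of_self_sup_commutative_eq_top h1 hab.1
        rw [hperf] at h2
        exact top_le_iff.mp h2
      · left
        exact h1
    · rw [spart_comm_diag_eq hs hA h4]
      exact not_le.mp hcard

end Cfsg.Agent.S5020
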