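import Cfsg.Statements.S5021
import Cfsg.Agent.Lib.Helper86.Spec2
open Cfsg.Agent.Lib.Helper86

set_option autoImplicit false
open Cfsg

namespace Cfsg.Agent.S5021

/-- In a special rank one group with abelian unipotent subgroups A and B, either A is an elementary abelian p-group for some prime p, or A is torsion-free and divisible (every element of A has an n-th root in A for every positive n). -/
theorem result {X : Type*} [Group X] {A B : Subgroup X} (h : Cfsg.IsRankOneGroup X A B)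
    (hs : Cfsg.IsSpecialRankOnePair A B) (hab : Cfsg.HasAbelianUnipotents A B) :
    (∃ p : ℕ, p.Prime ∧ Cfsg.IsElementaryAbelian p A) ∨
    ((∀ a ∈ A, a ≠ 1 → ¬ IsOfFinOrder a) ∧ ∀ a ∈ A, ∀ n : ℕ, 0 < n → ∃ c ∈ A, c ^ n = a) := by
  have hA : ∀ x ∈ A, ∀ y ∈ A, x * y = y * x :=
    commutator_eq_bot_iff'.mp (Subgroup.commutator_self_eq_bot_iff.mpr hab.1)
  have hB : ∀ x ∈ B, ∀ y ∈ B, x * y = y * x :=
    commutator_eq_bot_iff'.mp (Subgroup.commutator_self_eq_bot_iff.mpr hab.2)
  by_cases htf : ∀ a ∈ A, a ≠ 1 → ¬ IsOfFinOrder a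
  · right
    refine ⟨htf, ?_⟩
    intro a ha n hn
    by_cases ha1 : a = 1
    · exact ⟨1, A.one_mem, by rw [one_pow, ha1]⟩
    · have han : a ^ n ≠ 1 := by
        intro e
        exact htf a ha ha1 (isOfFinOrder_iff_pow_eq_one.mpr ⟨n, hn, e⟩)
      obtain ⟨γ, h1⟩ := spart_exists hs.1 ha ha1
      obtain ⟨γ', h2⟩ := spart_exists hs.1 (A.pow_mem ha n) han
      have hpow : γ' ^ n = γ := spart_pow hs hA hB n hn a γ γ' h1 h2
      have hN : conjBy A (a * γ * a) = B := spart_conjA h1
      have hc : (a * γ * a)⁻¹ * γ' * (a * γ * a) ∈ A := by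
        have h3 : γ' ∈ conjBy A (a * γ * a) := by rw [hN]; exact h2.2.2.1
        exact mem_conjBy.mp h3
      refine ⟨_, hc, ?_⟩
      have e1 : ((a * γ * a)⁻¹ * γ' * (a * γ * a)) ^ n =
          (a * γ * a)⁻¹ * γ' ^ n * (a * γ * a) := by
        have := conj_pow (a := (a * γ * a)⁻¹) (b := γ') (i := n)
        rwa [inv_inv] at this
      rw [e1, hpow]
      have e2 := braid_conj_left (spart_braid hs h1)
      calc (a * γ * a)⁻¹ * γ * (a * γ * a)
          = (a * γ * a)⁻¹ * ((a * γ * a) * a * (a * γ * a)⁻¹) * (a * γ * a) := by rw [e2]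
        _ = a := by group
  · left
    push Not at htf
    obtain ⟨a, ha, ha1, hfin⟩ := htf
    have hn0 : 0 < orderOf a := hfin.orderOf_pos
    have hn1 : orderOf a ≠ 1 := fun h1 => ha1 (orderOf_eq_one_iff.mp h1)
    have hpp : (orderOf a).minFac.Prime := Nat.minFac_prime hn1
    have hdvd : (orderOf a).minFac ∣ orderOf a := Nat.minFac_dvd _
    refine ⟨(orderOf a).minFac, hpp, hab.1, ?_⟩
    have ha₁ : a ^ (orderOf a / (orderOf a).minFac) ∈ A := A.pow_mem ha _
    have ha₁1 : a ^ (orderOf a / (orderOf a).minFac) ≠ 1 := by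
      intro h1
      have hd := orderOf_dvd_of_pow_eq_one h1
      have hlt : orderOf a / (orderOf a).minFac < orderOf a := Nat.div_lt_self hn0 hpp.one_lt
      have hpos : 0 < orderOf a / (orderOf a).minFac :=
        Nat.div_pos (Nat.minFac_le hn0) hpp.pos
      exact absurd (Nat.le_of_dvd hpos hd) (not_le.mpr hlt)
    have hp : (a ^ (orderOf a / (orderOf a).minFac)) ^ (orderOf a).minFac = 1 := by
      rw [← pow_mul, Nat.div_mul_cancel hdvd, pow_orderOf_eq_one]
    generalize a ^ (orderOf a / (orderOf a).minFac) = a₀ at ha₁ ha₁1 hp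
    generalize (orderOf a).minFac = p at hpp hp
    intro c hc
    by_contra hcp
    have hc1 : c ≠ 1 := by
      intro e
      rw [e, one_pow] at hcp
      exact hcp rfl
    have hmul : (a₀ * c) ^ p = c ^ p := by
      have hcm : Commute a₀ c := hA a₀ ha₁ c hc
      rw [hcm.mul_pow, hp, one_mul]
    have hac1 : a₀ * c ≠ 1 := by
      intro e
      rw [e, one_pow] at hmul
      exact hcp hmul.symm
    obtain ⟨γc, h1⟩ := spart_exists hs.1 hc hc1
    obtain ⟨γ₂, h2⟩ := spart_exists hs.1 (A.mul_mem ha₁ hc) hac1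
    obtain ⟨γp, h3⟩ := spart_exists hs.1 (A.pow_mem hc p) hcp
    have e1 : γp ^ p = γc := spart_pow hs hA hB p hpp.one_le c γc γp h1 h3
    have h3' : SPart A B ((a₀ * c) ^ p) γp := by rw [hmul]; exact h3
    have e2 : γp ^ p = γ₂ := spart_pow hs hA hB p hpp.one_le (a₀ * c) γ₂ γp h2 h3'
    have e3 : γc = γ₂ := e1.symm.trans e2
    rw [← e3] at h2
    have e4 : c = a₀ * c := spart_inj hs.1 h1 h2
    apply ha₁1
    calc a₀ = (a₀ * c) * c⁻¹ := by group
      _ = c * c⁻¹ := by rw [← e4]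
      _ = 1 := by group

end Cfsg.Agent.S5021
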