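import Cfsg.Statements.S5023
import Cfsg.Agent.Lib.Helper86.Quad2
open Cfsg.Agent.Lib.Helper86

set_option autoImplicit false
open Cfsg

namespace Cfsg.Agent.S5023

/-- Let X be a rank one group with unipotent subgroups A and B that acts faithfully on an abelian group V (written additively) with A acting quadratically: a' • (a • v − v) = a • v − v for all a, a' in A and v in V. Then A is either torsion-free or an elementary abelian p-group for some prime p. -/
theorem result {X : Type*} [Group X] {A B : Subgroup X} (h : Cfsg.IsRankOneGroup X A B)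
    {V : Type*} [AddCommGroup V] [DistribMulAction X V] (hf : ∀ x : X, (∀ v : V, x • v = v) → x = 1)
    (hq : ∀ a ∈ A, ∀ a' ∈ A, ∀ v : V, a' • (a • v - v) = a • v - v) :
    (∀ a ∈ A, a ≠ 1 → ¬ IsOfFinOrder a) ∨ ∃ p : ℕ, p.Prime ∧ Cfsg.IsElementaryAbelian p A := by
  obtain ⟨hAB, hrk⟩ := h
  have hQ : QuadOn V A := quadOn_of_forall hq
  have hX : ∃ x y : X, ∃ n : V, y • (x • n - n) ≠ x • n - n := by
    by_contra hcon
    push Not at hcon
    have hQtop : ∀ x y : X, (actEnd V y - 1) * (actEnd V x - 1) = 0 := by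
      intro x y
      ext n
      show y • (x • n - n) - (x • n - n) = 0
      rw [hcon x y n, sub_self]
    have hcomm : ∀ x y : X, x * y = y * x := fun x y =>
      commute_of_quad_faithful hf (hQtop y x) (hQtop x y)
    apply rk1_center_ne_top hrk
    rw [eq_top_iff]
    intro z _
    rw [Subgroup.mem_center_iff]
    intro g
    exact hcomm g z
  have hcommA : IsMulCommutative A := by
    rw [← Subgroup.commutator_self_eq_bot_iff, commutator_eq_bot_iff']
    intro a ha a' ha'
    exact commute_of_quad_faithful hf (hQ a' ha' a ha) (hQ a ha a' ha')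
  by_cases htf : ∀ a ∈ A, a ≠ 1 → ¬ IsOfFinOrder a
  · exact Or.inl htf
  · right
    push Not at htf
    obtain ⟨a, ha, ha1, hfin⟩ := htf
    have hn0 : 0 < orderOf a := hfin.orderOf_pos
    have hn1 : orderOf a ≠ 1 := fun h1 => ha1 (orderOf_eq_one_iff.mp h1)
    have hpp : (orderOf a).minFac.Prime := Nat.minFac_prime hn1
    have hdvd : (orderOf a).minFac ∣ orderOf a := Nat.minFac_dvd _
    refine ⟨(orderOf a).minFac, hpp, hcommA, ?_⟩
    have ha₁ : a ^ (orderOf a / (orderOf a).minFac) ∈ A := A.pow_mem ha _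
    have ha₁1 : a ^ (orderOf a / (orderOf a).minFac) ≠ 1 := by
      intro h1
      have hd := orderOf_dvd_of_pow_eq_one h1
      have hlt : orderOf a / (orderOf a).minFac < orderOf a := Nat.div_lt_self hn0 hpp.one_lt
      have hpos : 0 < orderOf a / (orderOf a).minFac :=
        Nat.div_pos (Nat.minFac_le hn0) hpp.pos
      exact absurd (Nat.le_of_dvd hpos hd) (not_le.mpr hlt)
    have hp : (a ^ (orderOf a / (orderOf a).minFac)) ^ (orderOf a).minFac = 1 := by
      rw [← pow_mul, Nat.div_mul_cancel hdvd, pow_orderOf_eq_one]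
    exact quad_exponent ⟨hAB, hrk⟩ hQ hX ha₁ ha₁1 hp

end Cfsg.Agent.S5023
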