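import Cfsg.Statements.S5024
import Cfsg.Agent.Lib.Helper86.RootSub2
open Cfsg.Agent.Lib.Helper86

set_option autoImplicit false
open Cfsg

namespace Cfsg.Agent.S5024

/-- Let S be a set of abstract root subgroups of G, A and C members of S, B a rank one partner of A in S and D a rank one partner of C in S. If the rank one group ⟨A, B⟩ is contained in ⟨C, D⟩ then the two coincide, and C and D are conjugates of A inside ⟨A, B⟩. -/
theorem result {G : Type*} [Group G] {S : Set (Subgroup G)} (hS : Cfsg.IsRootSubgroupSet S)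
    {A B C D : Subgroup G} (hA : A ∈ S) (hC : C ∈ S) (hB : B ∈ Cfsg.rankOnePartners S A) (hD : D ∈ Cfsg.rankOnePartners S C)
    (hle : A ⊔ B ≤ C ⊔ D) : A ⊔ B = C ⊔ D ∧ C ∈ Cfsg.unipotentSubgroups A B ∧ D ∈ Cfsg.unipotentSubgroups A B := by
  obtain ⟨hBS, hAB⟩ := hB
  obtain ⟨hDS, hCD⟩ := hD
  have hAΩ := root_mem_unip_of_le hS hA hAB hC hCD hle
  have hBΩ := root_mem_unip_of_le hS hBS (RankOnePair_symm hAB) hC hCD (by rw [sup_comm]; exact hle)
  have hsup := rk1_sup_of_unip hCD hAΩ hBΩ hAB.ne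
  have hΩ := rk1_unip_eq_of_unip hCD hAΩ hBΩ hAB.ne
  refine ⟨hsup, ?_, ?_⟩
  · rw [hΩ]; exact unip_self_mem C D
  · rw [hΩ]; exact rk1_B_mem_unip hCD

end Cfsg.Agent.S5024
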