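import Cfsg.Statements.S5026
import Cfsg.Agent.Lib.Helper86.RootSub2
open Cfsg.Agent.Lib.Helper86

set_option autoImplicit false
open Cfsg

namespace Cfsg.Agent.S5026

/-- Let S be a degenerate set of abstract root subgroups of G (a set of abstract transvection groups) and let a, b be commuting non-identity elements of members of S with a b ≠ 1. Then the members of S centralizing a b are exactly those centralizing both a and b. -/
theorem result {G : Type*} [Group G] {S : Set (Subgroup G)} (hS : Cfsg.IsRootSubgroupSet S) (hdeg : Cfsg.IsDegenerateRootSet S)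
    {a b : G} (ha : a ∈ Cfsg.rootElements S) (hb : b ∈ Cfsg.rootElements S) (hab : a * b = b * a) (hab1 : a * b ≠ 1) :
    Cfsg.centralizingMembers S (Subgroup.zpowers (a * b)) =
      Cfsg.centralizingMembers S (Subgroup.zpowers a) ∩ Cfsg.centralizingMembers S (Subgroup.zpowers b) := by
  obtain ⟨ha1, A, hA, haA⟩ := ha
  obtain ⟨hb1, B, hB, hbB⟩ := hb
  ext E
  simp only [centralizingMembers, Set.mem_ofPred_eq, Set.mem_inter_iff, le_cent_zpowers_iff]
  constructor
  swap
  · rintro ⟨⟨hE, hEa⟩, -, hEb⟩
    refine ⟨hE, fun e he => ?_⟩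
    rw [← mul_assoc, hEa e he, mul_assoc, hEb e he, mul_assoc]
  · rintro ⟨hE, hEab⟩
    suffices hEa : ∀ e ∈ E, e * a = a * e by
      refine ⟨⟨hE, hEa⟩, hE, fun e he => ?_⟩
      have h1 := hEab e he
      have h2 := hEa e he
      rw [← mul_assoc, h2, mul_assoc, mul_assoc] at h1
      exact mul_left_cancel h1
    by_contra hEa
    have hEb : ¬ ∀ e ∈ E, e * b = b * e := by
      intro hEb
      apply hEa
      intro e he
      have h1 := hEab e he
      have h2 := hEb e he
      rw [hab, ← mul_assoc, h2, mul_assoc, mul_assoc] at h1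
      exact mul_left_cancel h1
    have hEA : IsRankOnePair A E := by
      rcases hS.pair A hA E hE with h1 | h2 | h3
      · exfalso; apply hEa; intro e he
        exact ((commutator_eq_bot_iff'.mp h1) a haA e he).symm
      · exact h2
      · exact absurd h3 (hdeg A hA E hE)
    have hEB : IsRankOnePair B E := by
      rcases hS.pair B hB E hE with h1 | h2 | h3
      · exfalso; apply hEb; intro e he
        exact ((commutator_eq_bot_iff'.mp h1) b hbB e he).symm
      · exact h2
      · exact absurd h3 (hdeg B hB E hE)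
    obtain ⟨e, he, -, hee⟩ := hEA.cond_left a haA ha1
    obtain ⟨e₁, he₁, -, hee₁⟩ := hEB.cond_left b⁻¹ (B.inv_mem hbB) (by simpa using hb1)
    rw [inv_inv] at hee₁
    have hEab' : conjBy E (a * b) = E := conjBy_of_centralizes (fun x hx => (hEab x hx).symm)
    have h3 : conjBy E a⁻¹ = conjBy E b := by
      have h4 := hEab'
      rw [← conjBy_conjBy, conjBy_eq_iff] at h4
      exact h4.symm
    have hB_eq : B = conjBy A (e₁ * e⁻¹) := by
      rw [← conjBy_conjBy, hee, h3, ← hee₁, conjBy_cancel_inv]
    by_cases hx : e₁ * e⁻¹ = 1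
    · rw [hx, conjBy_one] at hB_eq
      rw [hB_eq] at hbB
      exact hab1 (rk1_normA hEA (A.mul_mem haA hbB) hEab')
    · have hpair : IsRankOnePair (conjBy A (e₁ * e⁻¹)) A :=
        rk1_conjA_pair hEA (E.mul_mem he₁ (E.inv_mem he)) hx
      rw [← hB_eq] at hpair
      rcases rk1_commuting_elts hpair hbB haA hab.symm with h | h
      · exact hb1 h
      · exact ha1 h

end Cfsg.Agent.S5026
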