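import Cfsg.Statements.S5027
import Cfsg.Agent.Lib.Helper86.RootSub2
open Cfsg.Agent.Lib.Helper86

set_option autoImplicit false
open Cfsg

namespace Cfsg.Agent.S5027

/-- Let S be a set of abstract root subgroups of G such that every member of S has a rank one partner in S (the graph of rank one pairs on S has no isolated vertex). Then the second centre of G equals its centre. -/
theorem result {G : Type*} [Group G] {S : Set (Subgroup G)} (hS : Cfsg.IsRootSubgroupSet S)
    (hF : ∀ A ∈ S, ¬ Cfsg.IsIsolatedIn (Cfsg.FAdj S) S A) : Subgroup.upperCentralSeries G 2 = Subgroup.center G := by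
  have hZ2 : Subgroup.upperCentralSeries G 2 ≤ Subgroup.center G := by
    intro z hz
    have hcomm : ∀ A ∈ S, ∀ a ∈ A, z * a = a * z := by
      intro A hA a ha
      by_contra hne
      obtain ⟨B, hB, hAB⟩ := partner_of_not_isolated (hF A hA) hA
      have ha1 : a ≠ 1 := by rintro rfl; simp at hne
      have hζ : z * a * z⁻¹ * a⁻¹ ∈ Subgroup.upperCentralSeries G 1 :=
        Subgroup.mem_upperCentralSeries_succ_iff.mp hz a
      rw [Subgroup.upperCentralSeries_one, Subgroup.mem_center_iff] at hζ
      have hζ1 : z * a * z⁻¹ * a⁻¹ ≠ 1 := by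
        intro e
        apply hne
        calc z * a = (z * a * z⁻¹ * a⁻¹) * (a * z) := by group
          _ = a * z := by rw [e, one_mul]
      refine root_central_translate hS hB hAB (z := z * a * z⁻¹ * a⁻¹) (fun x _ => (hζ x).symm) hζ1
        ha ha1 (hS.conj_mem A hA z) ?_
      have : z * a * z⁻¹ * a⁻¹ * a = z * a * z⁻¹ := by group
      rw [this]
      exact conj_mem_conjBy ha z
    rw [Subgroup.mem_center_iff]
    intro g
    have hle : (⨆ A ∈ S, A) ≤ Subgroup.centralizer ({z} : Set G) := by
      refine iSup₂_le ?_
      intro A hA a ha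
      rw [Subgroup.mem_centralizer_singleton_iff]
      exact (hcomm A hA a ha).symm
    rw [hS.generates] at hle
    have := hle (Subgroup.mem_top g)
    rw [Subgroup.mem_centralizer_singleton_iff] at this
    exact this
  apply le_antisymm hZ2
  rw [← Subgroup.upperCentralSeries_one]
  exact Subgroup.upperCentralSeries_mono G (by norm_num)

end Cfsg.Agent.S5027
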