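import Cfsg.Statements.S5029
import Cfsg.Agent.Lib.Helper86.RootSub3
open Cfsg.Agent.Lib.Helper86

set_option autoImplicit false
open Cfsg

namespace Cfsg.Agent.S5029

/-- Let S be a set of abstract root subgroups of G, A ∈ S having a rank one partner in S, and B ∈ S with C = ⁅A, B⁆ ∈ S. Then the members of S contained in AC are the conjugates of A by elements of B together with C, they partition AC, the members of S inside AC partition AC so that A is a line partner of C, and for every non-identity a ∈ A the map b ↦ a⁻¹ b⁻¹ a b is an isomorphism from B onto C. -/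
theorem result {G : Type*} [Group G] {S : Set (Subgroup G)} (hS : Cfsg.IsRootSubgroupSet S)
    {A B : Subgroup G} (hA : ¬ Cfsg.IsIsolatedIn (Cfsg.FAdj S) S A) (hAS : A ∈ S) (hB : B ∈ S) (hC : ⁅A, B⁆ ∈ S) :
    Cfsg.membersIn S (A ⊔ ⁅A, B⁆) = (fun b : G => Cfsg.conjBy A b) '' (B : Set G) ∪ {⁅A, B⁆} ∧
    Cfsg.IsSubgroupPartition (A ⊔ ⁅A, B⁆) (Cfsg.membersIn S (A ⊔ ⁅A, B⁆)) ∧
    A ∈ Cfsg.linePartners S ⁅A, B⁆ ∧
    ∀ a ∈ A, a ≠ 1 → ∃ φ : ↥B ≃* ↥⁅A, B⁆, ∀ b : ↥B, (φ b : G) = a⁻¹ * (b : G)⁻¹ * a * b := by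
  obtain ⟨E, hE, hAE⟩ := partner_of_not_isolated hA hAS
  have hcc : RootCommutatorCase S A B := root_cc_of_comm_mem hS hAS hB hC
  have hpart := cc_partition_line hS hAS hE hAE hcc
  refine ⟨cc_members_line hS hAS hE hAE hcc, hpart, ?_, ?_⟩
  · refine ⟨⟨hAS, ?_, ?_⟩, ?_⟩
    · intro hAC
      have h := cc_inf_eq_bot hS hE hAE hcc
      rw [← hAC, inf_idem] at h
      exact hS.ne_bot A hAS h
    · exact commutator_eq_bot_iff'.mpr (fun c hc a ha => hcc.2.1 c hc a (Subgroup.mem_sup_left ha))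
    · rw [sup_comm]; exact hpart
  · intro a ha ha1
    have hmem : ∀ b : ↥B, a⁻¹ * (b : G)⁻¹ * a * b ∈ ⁅A, B⁆ := by
      intro b
      have := comm_elt_mem (A := A) (B := B) (A.inv_mem ha) (B.inv_mem b.2)
      simpa using this
    have hmul : ∀ b b' : ↥B, a⁻¹ * ((b : G) * b')⁻¹ * a * (b * b') =
        (a⁻¹ * (b : G)⁻¹ * a * b) * (a⁻¹ * (b' : G)⁻¹ * a * b') := by
      intro b b'
      have h1 := cc_mul_right hcc (A.inv_mem ha) (B.inv_mem b'.2) (B.inv_mem b.2)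
      have h2 := hcc.2.1 _ (hmem b') (a⁻¹ * (b : G)⁻¹ * a * b)
        (Subgroup.commutator_le_sup A B (hmem b))
      calc a⁻¹ * ((b : G) * b')⁻¹ * a * (b * b')
          = a⁻¹ * ((b' : G)⁻¹ * (b : G)⁻¹) * a⁻¹⁻¹ * ((b' : G)⁻¹ * (b : G)⁻¹)⁻¹ := by group
        _ = (a⁻¹ * (b' : G)⁻¹ * a⁻¹⁻¹ * (b' : G)⁻¹⁻¹) * (a⁻¹ * (b : G)⁻¹ * a⁻¹⁻¹ * (b : G)⁻¹⁻¹) := h1
        _ = (a⁻¹ * (b' : G)⁻¹ * a * b') * (a⁻¹ * (b : G)⁻¹ * a * b) := by group
        _ = _ := h2
    let f : ↥B →* ↥⁅A, B⁆ :=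
      { toFun := fun b => ⟨a⁻¹ * (b : G)⁻¹ * a * b, hmem b⟩
        map_one' := by
          apply Subtype.ext
          simp
        map_mul' := fun b b' => by
          apply Subtype.ext
          exact hmul b b' }
    have hinj : Function.Injective f := by
      rw [injective_iff_map_eq_one]
      intro b hb
      have h1 : a⁻¹ * (b : G)⁻¹ * a * b = 1 := congrArg Subtype.val hb
      by_contra hb1
      have hb1' : (b : G) ≠ 1 := fun h => hb1 (Subtype.ext h)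
      apply cc_not_commute_elts hS hAS hE hAE hcc ha ha1 b.2 hb1'
      calc a * (b : G) = (b : G) * a * (a⁻¹ * (b : G)⁻¹ * a * b) := by group
        _ = (b : G) * a := by rw [h1, mul_one]
    have hsurj : Function.Surjective f := by
      intro c
      obtain ⟨b, hb, hbc⟩ := cc_surj_right hcc (A.inv_mem ha) (by simpa using ha1) c.2
      refine ⟨⟨b⁻¹, B.inv_mem hb⟩, ?_⟩
      apply Subtype.ext
      show a⁻¹ * (b⁻¹)⁻¹ * a * b⁻¹ = c
      rw [← hbc]; group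
    exact ⟨MulEquiv.ofBijective f ⟨hinj, hsurj⟩, fun b => rfl⟩

end Cfsg.Agent.S5029
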