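import Cfsg.Statements.S5030
import Cfsg.Agent.Lib.Helper86.RootSub7
open Cfsg.Agent.Lib.Helper86

set_option autoImplicit false
open Cfsg

namespace Cfsg.Agent.S5030

/-- Let S be a set of abstract root subgroups of G and A, B, C ∈ S with ⁅A, B⁆ ∈ S and ⁅B, C⁆ ∈ S, where A and C are different and commute. For a non-identity b ∈ B put X = ⟨A, b⁻¹ C b⟩ and Y = ⟨b⁻¹ A b, C⟩ and R = ⟨A, B, C⟩. Then X and Y are either both abelian or both nilpotent of class exactly two; X and Y commute elementwise; XY is normal in R with R = (XY) B; and R is nilpotent. -/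
theorem result {G : Type*} [Group G] {S : Set (Subgroup G)} (hS : Cfsg.IsRootSubgroupSet S)
    {A B C : Subgroup G} (hA : A ∈ S) (hB : B ∈ S) (hC : C ∈ S) (hAB : ⁅A, B⁆ ∈ S) (hBC : ⁅B, C⁆ ∈ S)
    (hAC : C ∈ Cfsg.commutingPartners S A)
    {b : G} (hb : b ∈ B) (hb1 : b ≠ 1) :
    ((IsMulCommutative ↥(A ⊔ Cfsg.conjBy C b⁻¹) ∧ IsMulCommutative ↥(Cfsg.conjBy A b⁻¹ ⊔ C)) ∨
      ((¬ IsMulCommutative ↥(A ⊔ Cfsg.conjBy C b⁻¹) ∧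
          ⁅⁅A ⊔ Cfsg.conjBy C b⁻¹, A ⊔ Cfsg.conjBy C b⁻¹⁆, A ⊔ Cfsg.conjBy C b⁻¹⁆ = ⊥) ∧
        (¬ IsMulCommutative ↥(Cfsg.conjBy A b⁻¹ ⊔ C) ∧
          ⁅⁅Cfsg.conjBy A b⁻¹ ⊔ C, Cfsg.conjBy A b⁻¹ ⊔ C⁆, Cfsg.conjBy A b⁻¹ ⊔ C⁆ = ⊥))) ∧
    ⁅A ⊔ Cfsg.conjBy C b⁻¹, Cfsg.conjBy A b⁻¹ ⊔ C⁆ = ⊥ ∧
    (∀ r ∈ A ⊔ B ⊔ C, Cfsg.conjBy ((A ⊔ Cfsg.conjBy C b⁻¹) ⊔ (Cfsg.conjBy A b⁻¹ ⊔ C)) r =
      (A ⊔ Cfsg.conjBy C b⁻¹) ⊔ (Cfsg.conjBy A b⁻¹ ⊔ C)) ∧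
    ((A ⊔ Cfsg.conjBy C b⁻¹) ⊔ (Cfsg.conjBy A b⁻¹ ⊔ C)) ⊔ B = A ⊔ B ⊔ C ∧
    Group.IsNilpotent ↥(A ⊔ B ⊔ C) := by
  obtain ⟨-, -, hAC0⟩ := hAC
  have hac : ∀ a ∈ A, ∀ c ∈ C, a * c = c * a := commutator_eq_bot_iff'.mp hAC0
  have hca : ∀ c ∈ C, ∀ a ∈ A, c * a = a * c := fun c hc a ha => (hac a ha c hc).symm
  have ccAB : RootCommutatorCase S A B := root_cc_of_comm_mem hS hA hB hAB
  have ccBC : RootCommutatorCase S B C := root_cc_of_comm_mem hS hB hC hBC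
  have ccCB : RootCommutatorCase S C B := cc_symm ccBC
  have ccBA : RootCommutatorCase S B A := cc_symm ccAB
  have eCB : ⁅C, B⁆ = ⁅B, C⁆ := Subgroup.commutator_comm C B
  have eBA : ⁅B, A⁆ = ⁅A, B⁆ := Subgroup.commutator_comm B A
  have hPA : ∀ p ∈ ⁅A, B⁆, ∀ a ∈ A, p * a = a * p := fun p hp a ha =>
    ccAB.2.1 p hp a (Subgroup.mem_sup_left ha)
  have hPB : ∀ p ∈ ⁅A, B⁆, ∀ b ∈ B, p * b = b * p := fun p hp b hb =>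
    ccAB.2.1 p hp b (Subgroup.mem_sup_right hb)
  have hQB : ∀ q ∈ ⁅B, C⁆, ∀ b ∈ B, q * b = b * q := fun q hq b hb =>
    ccBC.2.1 q hq b (Subgroup.mem_sup_left hb)
  have hQC : ∀ q ∈ ⁅B, C⁆, ∀ c ∈ C, q * c = c * q := fun q hq c hc =>
    ccBC.2.1 q hq c (Subgroup.mem_sup_right hc)
  have hbi : b⁻¹ ∈ B := B.inv_mem hb
  have hbi1 : b⁻¹ ≠ 1 := fun h => hb1 (inv_eq_one.mp h)
  obtain ⟨hZ, hZC, h3, hrep⟩ := cc_two_half hS hA hC ccBC hac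
  obtain ⟨hZ', hZ'A, h3', -⟩ := cc_two_half hS hC hA ccBA hca
  rw [eBA] at hZ' hZ'A h3'
  have hconj : ∀ b' ∈ B, b' ≠ 1 → conjBy ⁅A, ⁅B, C⁆⁆ b'⁻¹ = ⁅C, ⁅A, B⁆⁆ := by
    intro b' hb' hb'1
    have e1 : conjBy ⁅A, conjBy C b'⁆ b'⁻¹ = ⁅conjBy A b'⁻¹, conjBy (conjBy C b') b'⁻¹⁆ :=
      Subgroup.map_commutator _ _ _
    rw [conjBy_inv_cancel, h3 b' hb' hb'1, Subgroup.commutator_comm (conjBy A b'⁻¹) C,
      h3' b'⁻¹ (B.inv_mem hb') (fun h => hb'1 (inv_eq_one.mp h))] at e1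
    exact e1
  have hconj' : ∀ b' ∈ B, b' ≠ 1 → conjBy ⁅C, ⁅A, B⁆⁆ b' = ⁅A, ⁅B, C⁆⁆ := by
    intro b' hb' hb'1
    rw [← hconj b' hb' hb'1, conjBy_cancel_inv]
  have hPZ : ∀ p ∈ ⁅A, B⁆, ∀ z ∈ ⁅A, ⁅B, C⁆⁆, p * z = z * p := by
    intro p hp z hz
    have hz' : b⁻¹ * z * b⁻¹⁻¹ ∈ ⁅C, ⁅A, B⁆⁆ := by
      have := conj_mem_conjBy hz b⁻¹
      rwa [hconj b hb hb1] at this
    exact commute_of_conj_commute ((hZ' _ hz' p (Subgroup.mem_sup_right hp)).symm)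
      (hPB p hp b⁻¹ hbi)
  have hQZ' : ∀ q ∈ ⁅B, C⁆, ∀ z ∈ ⁅C, ⁅A, B⁆⁆, q * z = z * q := by
    intro q hq z hz
    have hz' : b * z * b⁻¹ ∈ ⁅A, ⁅B, C⁆⁆ := by
      have := conj_mem_conjBy hz b
      rwa [hconj' b hb hb1] at this
    exact commute_of_conj_commute ((hZ _ hz' q (Subgroup.mem_sup_right hq)).symm)
      (hQB q hq b hb)
  have hWle : ⁅⁅A, B⁆, ⁅B, C⁆⁆ ≤ ⁅A, B⁆ ⊔ ⁅B, C⁆ := Subgroup.commutator_le_sup _ _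
  have hWB : ∀ w ∈ ⁅⁅A, B⁆, ⁅B, C⁆⁆, ∀ b' ∈ B, w * b' = b' * w := by
    intro w hw b' hb'
    exact (commute_sup_of_commute (n := b') (fun p hp => (hPB p hp b' hb').symm)
      (fun q hq => (hQB q hq b' hb').symm) w (hWle hw)).symm
  have hWA0 : ⁅⁅⁅A, B⁆, ⁅B, C⁆⁆, A⁆ = ⊥ := by
    apply Subgroup.commutator_commutator_eq_bot_of_rotate
    · rw [Subgroup.commutator_comm ⁅B, C⁆ A, commutator_eq_bot_iff']
      intro z hz p hp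
      exact (hPZ p hp z hz).symm
    · have : ⁅A, ⁅A, B⁆⁆ = ⊥ :=
        commutator_eq_bot_iff'.mpr (fun a ha p hp => (hPA p hp a ha).symm)
      rw [this, Subgroup.commutator_bot_left]
  have hWA : ∀ w ∈ ⁅⁅A, B⁆, ⁅B, C⁆⁆, ∀ a ∈ A, w * a = a * w := commutator_eq_bot_iff'.mp hWA0
  have hWC0 : ⁅⁅⁅A, B⁆, ⁅B, C⁆⁆, C⁆ = ⊥ := by
    apply Subgroup.commutator_commutator_eq_bot_of_rotate
    · have : ⁅⁅B, C⁆, C⁆ = ⊥ := commutator_eq_bot_iff'.mpr hQC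
      rw [this, Subgroup.commutator_bot_left]
    · rw [commutator_eq_bot_iff']
      intro z hz q hq
      exact (hQZ' q hq z hz).symm
  have hWC : ∀ w ∈ ⁅⁅A, B⁆, ⁅B, C⁆⁆, ∀ c ∈ C, w * c = c * w := commutator_eq_bot_iff'.mp hWC0
  have hZB : ∀ z ∈ ⁅A, ⁅B, C⁆⁆, ∀ b' ∈ B, b' * z * b'⁻¹ * z⁻¹ ∈ ⁅⁅A, B⁆, ⁅B, C⁆⁆ := by
    intro z hz b' hb'
    obtain ⟨a, ha, q, hq, hzq⟩ := hrep z hz
    have hp : b' * a * b'⁻¹ * a⁻¹ ∈ ⁅A, B⁆ := comm_elt_mem' ha hb'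
    have hzp : Commute z (b' * a * b'⁻¹ * a⁻¹) := (hPZ _ hp z hz).symm
    have hzq' : Commute z q := hZ z hz q (Subgroup.mem_sup_right hq)
    have e1 : b' * q * b'⁻¹ = q := by
      have := hQB q hq b' hb'
      calc b' * q * b'⁻¹ = (b' * q) * b'⁻¹ := by group
        _ = (q * b') * b'⁻¹ := by rw [this]
        _ = q := by group
    have e2 : b' * z * b'⁻¹ =
        (b' * a * b'⁻¹ * a⁻¹) * z * q * (b' * a * b'⁻¹ * a⁻¹)⁻¹ * q⁻¹ := by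
      rw [hzq]
      calc b' * (a * q * a⁻¹ * q⁻¹) * b'⁻¹
          = (b' * a * b'⁻¹) * (b' * q * b'⁻¹) * (b' * a * b'⁻¹)⁻¹ * (b' * q * b'⁻¹)⁻¹ := by
            group
        _ = (b' * a * b'⁻¹) * q * (b' * a * b'⁻¹)⁻¹ * q⁻¹ := by rw [e1]
        _ = _ := by group
    have e3 : b' * z * b'⁻¹ * z⁻¹ =
        (b' * a * b'⁻¹ * a⁻¹) * q * (b' * a * b'⁻¹ * a⁻¹)⁻¹ * q⁻¹ := by
      have hc : Commute z ((b' * a * b'⁻¹ * a⁻¹) * q * (b' * a * b'⁻¹ * a⁻¹)⁻¹ * q⁻¹) :=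
        ((hzp.mul_right hzq').mul_right hzp.inv_right).mul_right hzq'.inv_right
      rw [e2]
      generalize b' * a * b'⁻¹ * a⁻¹ = p at hzp hc ⊢
      calc p * z * q * p⁻¹ * q⁻¹ * z⁻¹ = (p * z) * (q * p⁻¹ * q⁻¹) * z⁻¹ := by group
        _ = (z * p) * (q * p⁻¹ * q⁻¹) * z⁻¹ := by rw [hzp.eq]
        _ = (z * (p * q * p⁻¹ * q⁻¹)) * z⁻¹ := by group
        _ = ((p * q * p⁻¹ * q⁻¹) * z) * z⁻¹ := by rw [hc.eq]
        _ = p * q * p⁻¹ * q⁻¹ := by group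
    rw [e3]
    exact comm_elt_mem hp hq
  have hZ'le : ⁅C, ⁅A, B⁆⁆ ≤ ⁅A, ⁅B, C⁆⁆ ⊔ ⁅⁅A, B⁆, ⁅B, C⁆⁆ := by
    intro x hx
    rw [← hconj b hb hb1, mem_conjBy, inv_inv] at hx
    have h := hZB _ hx b⁻¹ hbi
    have e : x = (b⁻¹ * (b * x * b⁻¹) * b⁻¹⁻¹ * (b * x * b⁻¹)⁻¹) * (b * x * b⁻¹) := by group
    rw [e]
    exact Subgroup.mul_mem _ (Subgroup.mem_sup_right h) (Subgroup.mem_sup_left hx)
  have hAR : A ≤ A ⊔ B ⊔ C := le_sup_of_le_left le_sup_left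
  have hBR : B ≤ A ⊔ B ⊔ C := le_sup_of_le_left le_sup_right
  have hCR : C ≤ A ⊔ B ⊔ C := le_sup_right
  have hnil : Group.IsNilpotent ↥(A ⊔ B ⊔ C) := by
    have hPR : ⁅A, B⁆ ≤ A ⊔ B ⊔ C := (Subgroup.commutator_le_sup A B).trans le_sup_left
    have hQR : ⁅B, C⁆ ≤ A ⊔ B ⊔ C := (Subgroup.commutator_le_sup B C).trans (sup_le hBR hCR)
    have hZR : ⁅A, ⁅B, C⁆⁆ ≤ A ⊔ B ⊔ C :=
      (Subgroup.commutator_le_sup _ _).trans (sup_le hAR hQR)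
    have hWR : ⁅⁅A, B⁆, ⁅B, C⁆⁆ ≤ A ⊔ B ⊔ C := hWle.trans (sup_le hPR hQR)
    have h1 : ∀ x ∈ ⁅⁅A, B⁆, ⁅B, C⁆⁆, ∀ r ∈ A ⊔ B ⊔ C, x * r * x⁻¹ * r⁻¹ = 1 := by
      intro x hx r hr
      have := commute_sup_of_commute (n := x)
        (commute_sup_of_commute (n := x) (hWA x hx) (hWB x hx)) (hWC x hx) r hr
      rw [this]
      group
    have hN1 := normalized_of_comm_mem (N := ⊥) (K := ⁅⁅A, B⁆, ⁅B, C⁆⁆) (R := A ⊔ B ⊔ C) bot_le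
      (fun k hk r hr => Subgroup.mem_bot.mpr (h1 k hk r hr))
    have h2 : ∀ x ∈ ⁅A, ⁅B, C⁆⁆ ⊔ ⁅⁅A, B⁆, ⁅B, C⁆⁆, ∀ r ∈ A ⊔ B ⊔ C,
        x * r * x⁻¹ * r⁻¹ ∈ ⁅⁅A, B⁆, ⁅B, C⁆⁆ := by
      refine comm_mem_of_sup_left hN1 hZR hWR ?_ ?_
      · exact comm_mem_of_sup3_right hN1
          (fun z hz a ha => comm_mem_of_commute _ (hZ z hz a (Subgroup.mem_sup_left ha)))
          (fun z hz b' hb' => comm_mem_swap (hZB z hz b' hb'))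
          (fun z hz c hc => comm_mem_of_commute _ (hZC z hz c hc))
      · intro w hw r hr
        rw [h1 w hw r hr]
        exact Subgroup.one_mem _
    have hN2 := normalized_of_comm_mem (N := ⁅⁅A, B⁆, ⁅B, C⁆⁆)
      (K := ⁅A, ⁅B, C⁆⁆ ⊔ ⁅⁅A, B⁆, ⁅B, C⁆⁆) (R := A ⊔ B ⊔ C) le_sup_right h2
    have h3s : ∀ x ∈ (⁅A, B⁆ ⊔ ⁅B, C⁆) ⊔ (⁅A, ⁅B, C⁆⁆ ⊔ ⁅⁅A, B⁆, ⁅B, C⁆⁆), ∀ r ∈ A ⊔ B ⊔ C,
        x * r * x⁻¹ * r⁻¹ ∈ ⁅A, ⁅B, C⁆⁆ ⊔ ⁅⁅A, B⁆, ⁅B, C⁆⁆ := by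
      refine comm_mem_of_sup_left hN2 (sup_le hPR hQR) (sup_le hZR hWR) ?_ ?_
      · refine comm_mem_of_sup_left hN2 hPR hQR ?_ ?_
        · exact comm_mem_of_sup3_right hN2
            (fun p hp a ha => comm_mem_of_commute _ (hPA p hp a ha))
            (fun p hp b' hb' => comm_mem_of_commute _ (hPB p hp b' hb'))
            (fun p hp c hc => hZ'le (comm_elt_mem' hc hp))
        · exact comm_mem_of_sup3_right hN2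
            (fun q hq a ha => Subgroup.mem_sup_left (comm_elt_mem' ha hq))
            (fun q hq b' hb' => comm_mem_of_commute _ (hQB q hq b' hb'))
            (fun q hq c hc => comm_mem_of_commute _ (hQC q hq c hc))
      · intro x hx r hr
        exact Subgroup.mem_sup_right (h2 x hx r hr)
    have hN3 := normalized_of_comm_mem (N := ⁅A, ⁅B, C⁆⁆ ⊔ ⁅⁅A, B⁆, ⁅B, C⁆⁆)
      (K := (⁅A, B⁆ ⊔ ⁅B, C⁆) ⊔ (⁅A, ⁅B, C⁆⁆ ⊔ ⁅⁅A, B⁆, ⁅B, C⁆⁆)) (R := A ⊔ B ⊔ C)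
      le_sup_right h3s
    have h4 : ∀ x ∈ A ⊔ B ⊔ C, ∀ r ∈ A ⊔ B ⊔ C, x * r * x⁻¹ * r⁻¹ ∈
        (⁅A, B⁆ ⊔ ⁅B, C⁆) ⊔ (⁅A, ⁅B, C⁆⁆ ⊔ ⁅⁅A, B⁆, ⁅B, C⁆⁆) := by
      have hP3 : ⁅A, B⁆ ≤ (⁅A, B⁆ ⊔ ⁅B, C⁆) ⊔ (⁅A, ⁅B, C⁆⁆ ⊔ ⁅⁅A, B⁆, ⁅B, C⁆⁆) :=
        le_sup_of_le_left le_sup_left
      have hQ3 : ⁅B, C⁆ ≤ (⁅A, B⁆ ⊔ ⁅B, C⁆) ⊔ (⁅A, ⁅B, C⁆⁆ ⊔ ⁅⁅A, B⁆, ⁅B, C⁆⁆) :=
        le_sup_of_le_left le_sup_right
      refine comm_mem_of_sup_left hN3 (sup_le hAR hBR) hCR ?_ ?_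
      · refine comm_mem_of_sup_left hN3 hAR hBR ?_ ?_
        · exact comm_mem_of_sup3_right hN3
            (fun a ha a' ha' => comm_mem_of_commute _ (root_comm hS hA ha ha'))
            (fun a ha b' hb' => hP3 (comm_elt_mem ha hb'))
            (fun a ha c hc => comm_mem_of_commute _ (hac a ha c hc))
        · exact comm_mem_of_sup3_right hN3
            (fun b' hb' a ha => hP3 (comm_elt_mem' ha hb'))
            (fun b' hb' b'' hb'' => comm_mem_of_commute _ (root_comm hS hB hb' hb''))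
            (fun b' hb' c hc => hQ3 (comm_elt_mem hb' hc))
      · exact comm_mem_of_sup3_right hN3
          (fun c hc a ha => comm_mem_of_commute _ (hca c hc a ha))
          (fun c hc b' hb' => hQ3 (comm_elt_mem' hb' hc))
          (fun c hc c' hc' => comm_mem_of_commute _ (root_comm hS hC hc hc'))
    exact nilpotent_of_series4 h1 h2 h3s h4
  have hC'S : conjBy C b⁻¹ ∈ S := hS.conj_mem C hC b⁻¹
  have hA'S : conjBy A b⁻¹ ∈ S := hS.conj_mem A hA b⁻¹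
  have hXZ : ⁅A, conjBy C b⁻¹⁆ = ⁅A, ⁅B, C⁆⁆ := h3 b⁻¹ hbi hbi1
  have hYZ' : ⁅C, conjBy A b⁻¹⁆ = ⁅C, ⁅A, B⁆⁆ := h3' b⁻¹ hbi hbi1
  have hC'le : conjBy C b⁻¹ ≤ C ⊔ ⁅B, C⁆ := by
    have := cc_line_conj_le (A := C) (B := B) hbi
    rwa [eCB] at this
  have hA'le : conjBy A b⁻¹ ≤ A ⊔ ⁅A, B⁆ := cc_line_conj_le (A := A) (B := B) hbi
  have hZX : ∀ z ∈ ⁅A, conjBy C b⁻¹⁆, ∀ x ∈ A ⊔ conjBy C b⁻¹, z * x = x * z := by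
    intro z hz
    rw [hXZ] at hz
    refine commute_sup_of_commute (fun a ha => hZ z hz a (Subgroup.mem_sup_left ha)) ?_
    intro x hx
    exact commute_sup_of_commute (n := z) (hZC z hz)
      (fun q hq => hZ z hz q (Subgroup.mem_sup_right hq)) x (hC'le hx)
  have hZ'Y : ∀ z ∈ ⁅conjBy A b⁻¹, C⁆, ∀ x ∈ conjBy A b⁻¹ ⊔ C, z * x = x * z := by
    intro z hz
    rw [Subgroup.commutator_comm, hYZ'] at hz
    refine commute_sup_of_commute ?_ (fun c hc => hZ' z hz c (Subgroup.mem_sup_left hc))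
    intro x hx
    exact commute_sup_of_commute (n := z) (hZ'A z hz)
      (fun p hp => hZ' z hz p (Subgroup.mem_sup_right hp)) x (hA'le hx)
  have part1 : (IsMulCommutative ↥(A ⊔ conjBy C b⁻¹) ∧ IsMulCommutative ↥(conjBy A b⁻¹ ⊔ C)) ∨
      ((¬ IsMulCommutative ↥(A ⊔ conjBy C b⁻¹) ∧
          ⁅⁅A ⊔ conjBy C b⁻¹, A ⊔ conjBy C b⁻¹⁆, A ⊔ conjBy C b⁻¹⁆ = ⊥) ∧
        (¬ IsMulCommutative ↥(conjBy A b⁻¹ ⊔ C) ∧
          ⁅⁅conjBy A b⁻¹ ⊔ C, conjBy A b⁻¹ ⊔ C⁆, conjBy A b⁻¹ ⊔ C⁆ = ⊥)) := by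
    by_cases hZ0 : ⁅A, ⁅B, C⁆⁆ = ⊥
    · left
      have hZ'0 : ⁅C, ⁅A, B⁆⁆ = ⊥ := by
        rw [← hconj b hb hb1, hZ0]
        simp [conjBy]
      constructor
      · rw [← Subgroup.commutator_self_eq_bot_iff, commutator_eq_bot_iff']
        exact sup_commute_of_commute (fun x hx y hy => root_comm hS hA hx hy)
          (fun x hx y hy => root_comm hS hC'S hx hy)
          (commutator_eq_bot_iff'.mp (hXZ.trans hZ0))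
      · rw [← Subgroup.commutator_self_eq_bot_iff, commutator_eq_bot_iff']
        refine sup_commute_of_commute (fun x hx y hy => root_comm hS hA'S hx hy)
          (fun x hx y hy => root_comm hS hC hx hy) ?_
        have := commutator_eq_bot_iff'.mp (hYZ'.trans hZ'0)
        exact fun x hx y hy => (this y hy x hx).symm
    · right
      have hZ'0 : ⁅C, ⁅A, B⁆⁆ ≠ ⊥ := by
        intro h
        apply hZ0
        have := hconj b hb hb1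
        rw [h, conjBy_eq_iff] at this
        rw [this]
        simp [conjBy]
      refine ⟨⟨?_, class_two_sup (fun x hx y hy => root_comm hS hA hx hy)
        (fun x hx y hy => root_comm hS hC'S hx hy) hZX⟩,
        ⟨?_, class_two_sup (fun x hx y hy => root_comm hS hA'S hx hy)
        (fun x hx y hy => root_comm hS hC hx hy) hZ'Y⟩⟩
      · intro hcomm
        apply hZ0
        rw [← hXZ, eq_bot_iff]
        have h0 : ⁅A ⊔ conjBy C b⁻¹, A ⊔ conjBy C b⁻¹⁆ = ⊥ :=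
          Subgroup.commutator_self_eq_bot_iff.mpr hcomm
        rw [← h0]
        exact Subgroup.commutator_mono le_sup_left le_sup_right
      · intro hcomm
        apply hZ'0
        rw [← hYZ', eq_bot_iff]
        have h0 : ⁅conjBy A b⁻¹ ⊔ C, conjBy A b⁻¹ ⊔ C⁆ = ⊥ :=
          Subgroup.commutator_self_eq_bot_iff.mpr hcomm
        rw [← h0]
        exact Subgroup.commutator_mono le_sup_right le_sup_left
  have part2 : ⁅A ⊔ conjBy C b⁻¹, conjBy A b⁻¹ ⊔ C⁆ = ⊥ := by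
    rw [commutator_eq_bot_iff']
    have hAA' : ∀ a ∈ A, ∀ a' ∈ conjBy A b⁻¹, a * a' = a' * a := fun a ha a' ha' =>
      (root_cc_conj_commute hS hA ccBA hbi a' ha' a ha).symm
    have hC'C : ∀ c' ∈ conjBy C b⁻¹, ∀ c ∈ C, c' * c = c * c' := fun c' hc' c hc =>
      root_cc_conj_commute hS hC ccBC hbi c' hc' c hc
    have hC'A' : ∀ c' ∈ conjBy C b⁻¹, ∀ a' ∈ conjBy A b⁻¹, c' * a' = a' * c' := by
      intro c' hc' a' ha'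
      rw [mem_conjBy] at hc' ha'
      have := hac _ ha' _ hc'
      have e1 : c' * a' = b⁻¹ * ((b⁻¹⁻¹ * c' * b⁻¹) * (b⁻¹⁻¹ * a' * b⁻¹)) * b⁻¹⁻¹ := by group
      have e2 : a' * c' = b⁻¹ * ((b⁻¹⁻¹ * a' * b⁻¹) * (b⁻¹⁻¹ * c' * b⁻¹)) * b⁻¹⁻¹ := by group
      rw [e1, e2, this]
    have h1 : ∀ a ∈ A, ∀ y ∈ conjBy A b⁻¹ ⊔ C, a * y = y * a := fun a ha =>
      commute_sup_of_commute (hAA' a ha) (hac a ha)
    have h2 : ∀ c' ∈ conjBy C b⁻¹, ∀ y ∈ conjBy A b⁻¹ ⊔ C, c' * y = y * c' := fun c' hc' =>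
      commute_sup_of_commute (hC'A' c' hc') (hC'C c' hc')
    intro x hx y hy
    exact (commute_sup_of_commute (n := y) (fun a ha => (h1 a ha y hy).symm)
      (fun c' hc' => (h2 c' hc' y hy).symm) x hx).symm
  have hAM : A ≤ (A ⊔ conjBy C b⁻¹) ⊔ (conjBy A b⁻¹ ⊔ C) := le_sup_of_le_left le_sup_left
  have hC'M : conjBy C b⁻¹ ≤ (A ⊔ conjBy C b⁻¹) ⊔ (conjBy A b⁻¹ ⊔ C) :=
    le_sup_of_le_left le_sup_right
  have hA'M : conjBy A b⁻¹ ≤ (A ⊔ conjBy C b⁻¹) ⊔ (conjBy A b⁻¹ ⊔ C) :=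
    le_sup_of_le_right le_sup_left
  have hCM : C ≤ (A ⊔ conjBy C b⁻¹) ⊔ (conjBy A b⁻¹ ⊔ C) := le_sup_of_le_right le_sup_right
  have hPM : ⁅A, B⁆ ≤ (A ⊔ conjBy C b⁻¹) ⊔ (conjBy A b⁻¹ ⊔ C) := by
    intro p hp
    obtain ⟨a, ha, hae⟩ := cc_surj_left ccAB hbi hbi1 hp
    have e : p = a * (b⁻¹ * a⁻¹ * b⁻¹⁻¹) := by rw [← hae]; group
    rw [e]
    exact Subgroup.mul_mem _ (hAM ha) (hA'M (conj_mem_conjBy (A.inv_mem ha) b⁻¹))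
  have hQM : ⁅B, C⁆ ≤ (A ⊔ conjBy C b⁻¹) ⊔ (conjBy A b⁻¹ ⊔ C) := by
    intro q hq
    rw [← eCB] at hq
    obtain ⟨c, hc, hce⟩ := cc_surj_left ccCB hbi hbi1 hq
    have e : q = c * (b⁻¹ * c⁻¹ * b⁻¹⁻¹) := by rw [← hce]; group
    rw [e]
    exact Subgroup.mul_mem _ (hCM hc) (hC'M (conj_mem_conjBy (C.inv_mem hc) b⁻¹))
  have hBM : ∀ b' ∈ B, conjBy ((A ⊔ conjBy C b⁻¹) ⊔ (conjBy A b⁻¹ ⊔ C)) b' ≤
      (A ⊔ conjBy C b⁻¹) ⊔ (conjBy A b⁻¹ ⊔ C) := by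
    intro b' hb'
    have hAle : ∀ g ∈ B, conjBy A g ≤ (A ⊔ conjBy C b⁻¹) ⊔ (conjBy A b⁻¹ ⊔ C) := fun g hg =>
      (cc_line_conj_le (A := A) (B := B) hg).trans (sup_le hAM hPM)
    have hCle : ∀ g ∈ B, conjBy C g ≤ (A ⊔ conjBy C b⁻¹) ⊔ (conjBy A b⁻¹ ⊔ C) := fun g hg =>
      (cc_line_conj_le (A := C) (B := B) hg).trans (sup_le hCM (by rw [eCB]; exact hQM))
    rw [conjBy_sup, conjBy_sup, conjBy_sup, conjBy_conjBy, conjBy_conjBy]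
    exact sup_le (sup_le (hAle b' hb') (hCle _ (B.mul_mem hb' hbi)))
      (sup_le (hAle _ (B.mul_mem hb' hbi)) (hCle b' hb'))
  have part3 : ∀ r ∈ A ⊔ B ⊔ C, conjBy ((A ⊔ conjBy C b⁻¹) ⊔ (conjBy A b⁻¹ ⊔ C)) r =
      (A ⊔ conjBy C b⁻¹) ⊔ (conjBy A b⁻¹ ⊔ C) := by
    intro r hr
    refine conjBy_eq_of_mem_sup (K := A ⊔ B) (L := C) ?_ ?_ hr
    · intro k hk
      exact (conjBy_eq_of_mem_sup (K := A) (L := B)
        (fun a ha => (conjBy_of_mem (hAM ha)).le) hBM hk).le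
    · exact fun c hc => (conjBy_of_mem (hCM hc)).le
  have part4 : ((A ⊔ conjBy C b⁻¹) ⊔ (conjBy A b⁻¹ ⊔ C)) ⊔ B = A ⊔ B ⊔ C := by
    apply le_antisymm
    · exact sup_le (sup_le (sup_le hAR (conjBy_le_of_mem hCR (hBR hbi)))
        (sup_le (conjBy_le_of_mem hAR (hBR hbi)) hCR)) hBR
    · exact sup_le (sup_le (hAM.trans le_sup_left) le_sup_right) (hCM.trans le_sup_left)
  exact ⟨part1, part2, part3, part4, hnil⟩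

end Cfsg.Agent.S5030
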