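import Cfsg.Statements.S5031
import Cfsg.Agent.Lib.Helper86.RootSub4
open Cfsg.Agent.Lib.Helper86

set_option autoImplicit false
open Cfsg

namespace Cfsg.Agent.S5031

/-- Let S be a set of abstract root subgroups of G and let A, B ∈ S lie in different connected components of the graph of rank one pairs on S, each component having more than one member. Then B is not a line partner of A. -/
theorem result {G : Type*} [Group G] {S : Set (Subgroup G)} (hS : Cfsg.IsRootSubgroupSet S)
    {A B : Subgroup G} (hA : A ∈ S) (hB : B ∈ S)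
    (hne : Cfsg.componentOf (Cfsg.FAdj S) S A ≠ Cfsg.componentOf (Cfsg.FAdj S) S B)
    (hA2 : ∃ A' ∈ Cfsg.componentOf (Cfsg.FAdj S) S A, A' ≠ A) (hB2 : ∃ B' ∈ Cfsg.componentOf (Cfsg.FAdj S) S B, B' ≠ B) :
    B ∉ Cfsg.linePartners S A := by
  rintro ⟨⟨hBS, hBA, hcomm⟩, hpart⟩
  rw [commutator_eq_bot_iff'] at hcomm
  obtain ⟨E, hE, hAE⟩ := partner_of_comp_ne hA2
  obtain ⟨E', hE', hBE'⟩ := partner_of_comp_ne hB2
  obtain ⟨a, ha, ha1⟩ := rk1_A_nontriv hAE
  obtain ⟨b, hb, hb1⟩ := rk1_A_nontriv hBE'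
  have hab := hcomm a ha b hb
  have hab1 : a * b ≠ 1 := by
    intro h
    have ha_eq : a = b⁻¹ := eq_inv_of_mul_eq_one_left h
    rcases root_inf_eq_bot_or_eq hS hE hAE hBS with h' | h'
    · have : a ∈ A ⊓ B := Subgroup.mem_inf.mpr ⟨ha, by rw [ha_eq]; exact B.inv_mem hb⟩
      rw [h'] at this
      exact ha1 (Subgroup.mem_bot.mp this)
    · exact hBA h'.symm
  obtain ⟨F, ⟨hFS, -⟩, hF⟩ := hpart.2.1 (a * b)
    (Subgroup.mul_mem _ (Subgroup.mem_sup_left ha) (Subgroup.mem_sup_right hb)) hab1
  -- (F, E) is a rank one pair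
  have hFE : IsRankOnePair F E := by
    by_contra hn
    have hBE : ¬ IsRankOnePair B E := by
      intro hBE
      exact hne (comp_eq_of_frel ((frel_of_pair hA hE hAE).trans
        (frel_of_pair hE hBS (RankOnePair_symm hBE))))
    refine root_adj_line hAE (f := b) (c := a) (fun x hx => (hcomm x hx b hb).symm) ha ha1
      (root_conj_commute_of_not_rk1 hS hBS hE hBE hb) ?_
    rw [← hab]
    exact root_conj_commute_of_not_rk1 hS hFS hE hn hF
  have hFE' : IsRankOnePair F E' := by
    by_contra hn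
    have hAE' : ¬ IsRankOnePair A E' := by
      intro hAE'
      exact hne (comp_eq_of_frel ((frel_of_pair hA hE' hAE').trans
        (frel_of_pair hE' hBS (RankOnePair_symm hBE'))))
    refine root_adj_line hBE' (f := a) (c := b) (fun x hx => hcomm a ha x hx) hb hb1
      (root_conj_commute_of_not_rk1 hS hA hE' hAE' ha) ?_
    exact root_conj_commute_of_not_rk1 hS hFS hE' hn hF
  apply hne
  apply comp_eq_of_frel
  exact (((frel_of_pair hA hE hAE).trans (frel_of_pair hE hFS (RankOnePair_symm hFE))).trans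
    (frel_of_pair hFS hE' hFE')).trans (frel_of_pair hE' hBS (RankOnePair_symm hBE'))

end Cfsg.Agent.S5031
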