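import Cfsg.Statements.S5032
import Cfsg.Agent.Lib.Helper86.RootSub4
open Cfsg.Agent.Lib.Helper86

set_option autoImplicit false
open Cfsg

namespace Cfsg.Agent.S5032

/-- Let S be a set of abstract root subgroups of G with more than one member. Then the graph of rank one pairs on S is connected if and only if S is a single conjugacy class of G and some member of S has a rank one partner in S. -/
theorem result {G : Type*} [Group G] {S : Set (Subgroup G)} (hS : Cfsg.IsRootSubgroupSet S) (h2 : ∃ A ∈ S, ∃ B ∈ S, A ≠ B) :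
    Cfsg.IsConnectedFamily (Cfsg.FAdj S) S ↔
      (Cfsg.IsConjClassOfSubgroups S ∧ ∃ A ∈ S, ¬ Cfsg.IsIsolatedIn (Cfsg.FAdj S) S A) := by
  constructor
  · intro hconn
    refine ⟨⟨?_, ?_⟩, ?_⟩
    · obtain ⟨A, hA, -⟩ := h2
      exact ⟨A, hA⟩
    · intro A hA B hB
      have hrel := hconn A hA B hB
      induction hrel with
      | refl => exact ⟨1, (conjBy_one A).symm⟩
      | tail _ h2' ih =>
        rename_i B' B''
        obtain ⟨g, hg⟩ := ih (frel_mem hA ‹_›)
        obtain ⟨x, -, hx⟩ := rk1_B_mem_unip h2'.2.2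
        exact ⟨x * g, by rw [hx, hg, conjBy_conjBy]⟩
    · obtain ⟨A, hA, B, hB, hAB⟩ := h2
      obtain ⟨E, hE, hAE⟩ := partner_of_frel_ne (hconn A hA B hB) hAB.symm
      exact ⟨A, hA, fun h => (h.2 E).1 ⟨hA, hE, hAE⟩⟩
  · rintro ⟨⟨-, hconj⟩, A₀, hA₀, hniso⟩
    obtain ⟨E₀, hE₀, hAE₀⟩ := partner_of_not_isolated hniso hA₀
    have hpart : ∀ A ∈ S, ∃ E ∈ S, IsRankOnePair A E := by
      intro A hA
      obtain ⟨g, rfl⟩ := hconj A₀ hA₀ A hA
      exact ⟨conjBy E₀ g, hS.conj_mem E₀ hE₀ g, rk1_conj hAE₀ g⟩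
    have hind := iSup_conj_induction (S := S)
      (T := {A | A ∈ S ∧ Relation.ReflTransGen (FAdj S) A₀ A}) (by
        rintro B hB b hb A ⟨hA, hrel⟩
        exact ⟨hS.conj_mem A hA b, hrel.trans (frel_conj hS hpart hA hB hb)⟩)
    have hall : ∀ A ∈ S, Relation.ReflTransGen (FAdj S) A₀ A := by
      intro A hA
      obtain ⟨g, rfl⟩ := hconj A₀ hA₀ A hA
      exact (hind g (by rw [hS.generates]; trivial) A₀ ⟨hA₀, Relation.ReflTransGen.refl⟩).2
    intro A hA B hB
    exact (frel_symm (hall A hA)).trans (hall B hB)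

end Cfsg.Agent.S5032
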