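import Cfsg.Statements.S5033
import Cfsg.Agent.Lib.Helper86.Quasi
import Cfsg.Agent.S5032
open Cfsg.Agent.Lib.Helper86

set_option autoImplicit false
open Cfsg

namespace Cfsg.Agent.S5033

theorem comm_bot_conj {G : Type*} [Group G] {E A : Subgroup G} (g : G) :
    ⁅Cfsg.conjBy E g, Cfsg.conjBy A g⁆ = ⊥ ↔ ⁅E, A⁆ = ⊥ := by
  have h5 : Cfsg.conjBy ⁅E, A⁆ g = ⁅Cfsg.conjBy E g, Cfsg.conjBy A g⁆ :=
    Subgroup.map_commutator _ _ _
  rw [← h5]
  constructor
  · intro h
    have h6 : ⁅E, A⁆ = Cfsg.conjBy ⊥ g⁻¹ := conjBy_eq_iff.mp h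
    rw [h6]
    exact Subgroup.map_bot _
  · intro h
    rw [h]
    exact Subgroup.map_bot _

/-- Quasisimplicity criterion for groups generated by abstract root subgroups. Let S be a set of abstract root subgroups of G with more than one member such that: the graph of rank one pairs on S is connected; no two different members of S have the same set of commuting members of S; if S is degenerate then every member of S has more than three elements; and every rank one pair in S is special. Then for every A ∈ S one has G = G' A with A ∩ G' ≠ 1, and the commutator subgroup G' is quasisimple. Moreover G is perfect if S is non-degenerate, or if some rank one pair A, B in S generates a perfect group. -/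
theorem result {G : Type*} [Group G] {S : Set (Subgroup G)} (hS : Cfsg.IsRootSubgroupSet S) (h2 : ∃ A ∈ S, ∃ B ∈ S, A ≠ B)
    (h1 : Cfsg.IsConnectedFamily (Cfsg.FAdj S) S)
    (h2' : ∀ A ∈ S, ∀ C ∈ S, A ≠ C → Cfsg.centralizingMembers S A ≠ Cfsg.centralizingMembers S C)
    (h3 : Cfsg.IsDegenerateRootSet S → ∀ A ∈ S, 3 < ENat.card A)
    (h4 : ∀ A ∈ S, ∀ B ∈ Cfsg.rankOnePartners S A, Cfsg.IsSpecialRankOnePair A B) :
    (∀ A ∈ S, commutator G ⊔ A = ⊤ ∧ A ⊓ commutator G ≠ ⊥) ∧ Cfsg.IsQuasisimple ↥(commutator G) ∧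
    (Cfsg.IsNondegenerateRootSet S → commutator G = ⊤) ∧
    ((∃ A ∈ S, ∃ B ∈ Cfsg.rankOnePartners S A, Group.IsPerfect ↥(A ⊔ B)) → commutator G = ⊤) := by
  have hclass : IsConjClassOfSubgroups S := ((Cfsg.Agent.S5032.result hS h2).mp h1).1
  have hpart : ∀ A ∈ S, ∃ E ∈ S, IsRankOnePair A E := by
    intro A hA
    obtain ⟨A₀, hA₀, B₀, hB₀, hne⟩ := h2
    by_cases hAA₀ : A₀ = A
    · exact partner_of_frel_ne (h1 A hA B₀ hB₀) (by rw [← hAA₀]; exact Ne.symm hne)
    · exact partner_of_frel_ne (h1 A hA A₀ hA₀) hAA₀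
  have hab : ∀ A ∈ S, ∀ x ∈ A, ∀ y ∈ A, x * y = y * x :=
    fun A hA x hx y hy => root_comm hS hA hx hy
  -- commutator partners in the non-degenerate case
  have hccp : ¬ IsDegenerateRootSet S → ∀ F ∈ S, ∃ F₂, RootCommutatorCase S F F₂ := by
    intro hnd F hF
    unfold IsDegenerateRootSet at hnd
    push Not at hnd
    obtain ⟨A₁, hA₁, B₁, hB₁, hcc⟩ := hnd
    obtain ⟨g, hg⟩ := hclass.2 A₁ hA₁ F hF
    refine ⟨conjBy B₁ g, root_cc_of_comm_mem hS hF (hS.conj_mem B₁ hB₁ g) ?_⟩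
    have h5 : conjBy ⁅A₁, B₁⁆ g = ⁅conjBy A₁ g, conjBy B₁ g⁆ := Subgroup.map_commutator _ _ _
    rw [hg, ← h5]
    exact hS.conj_mem _ hcc.1 g
  -- G is perfect
  have hperf : commutator G = ⊤ := by
    rw [eq_top_iff, ← hS.generates]
    refine iSup₂_le ?_
    intro A hA
    by_cases hdeg : IsDegenerateRootSet S
    · obtain ⟨B, hB, hAB⟩ := hpart A hA
      have hs := h4 A hA B ⟨hB, hAB⟩
      have hp := spart_perfect hs (hab A hA) (four_of_card (h3 hdeg A hA))
      have h5 : ⁅A ⊔ B, A ⊔ B⁆ ≤ commutator G := by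
        rw [commutator_def]
        exact Subgroup.commutator_mono le_top le_top
      rw [hp] at h5
      exact le_sup_left.trans h5
    · unfold IsDegenerateRootSet at hdeg
      push Not at hdeg
      obtain ⟨A₁, hA₁, B₁, hB₁, hcc⟩ := hdeg
      obtain ⟨g, hg⟩ := hclass.2 _ hcc.1 A hA
      have h5 : conjBy ⁅A₁, B₁⁆ g = ⁅conjBy A₁ g, conjBy B₁ g⁆ := Subgroup.map_commutator _ _ _
      have h6 : A ≤ ⁅conjBy A₁ g, conjBy B₁ g⁆ := by rw [← h5, ← hg]
      refine h6.trans ?_
      rw [commutator_def]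
      exact Subgroup.commutator_mono le_top le_top
  -- normal subgroups
  have hN : ∀ N : Subgroup G, N.Normal → N ≤ Subgroup.center G ∨ N = ⊤ := by
    intro N hNn
    by_cases hcent : N ≤ Subgroup.center G
    · exact Or.inl hcent
    right
    have hmove : ∃ A ∈ S, ∃ n ∈ N, conjBy A n ≠ A := by
      by_contra hcon
      push Not at hcon
      exact hcent (central_of_normalizes hS hpart hNn hcon)
    obtain ⟨A, hA, n, hn, hAn⟩ := hmove
    have step1 : ∃ U ∈ S, ∃ V ∈ S, ⁅U, V⁆ ≠ ⊥ ∧ ∀ u ∈ U, ∀ v ∈ V, u * v * u⁻¹ * v⁻¹ ∈ N := by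
      by_cases hcomm : ⁅conjBy A n, A⁆ = ⊥
      · have hne := h2' A hA (conjBy A n) (hS.conj_mem A hA n) (Ne.symm hAn)
        have hex : ∃ E ∈ S, (⁅E, A⁆ = ⊥ ∧ ⁅E, conjBy A n⁆ ≠ ⊥) ∨
            (⁅E, conjBy A n⁆ = ⊥ ∧ ⁅E, A⁆ ≠ ⊥) := by
          by_contra hcon
          push Not at hcon
          apply hne
          ext E
          constructor
          · rintro ⟨hE, hEc⟩
            refine ⟨hE, ?_⟩
            rw [← Subgroup.commutator_eq_bot_iff_le_centralizer] at hEc ⊢
            exact (hcon E hE).1 hEc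
          · rintro ⟨hE, hEc⟩
            refine ⟨hE, ?_⟩
            rw [← Subgroup.commutator_eq_bot_iff_le_centralizer] at hEc ⊢
            exact (hcon E hE).2 hEc
        obtain ⟨E, hE, ⟨hE1, hE2⟩ | ⟨hE1, hE2⟩⟩ := hex
        · refine ⟨conjBy E n⁻¹, hS.conj_mem E hE n⁻¹, A, hA, ?_, ?_⟩
          · intro h0
            apply hE2
            have h7 := (comm_bot_conj (E := conjBy E n⁻¹) (A := A) n).mpr h0
            rwa [conjBy_cancel_inv] at h7
          · exact conj_comm_mem hNn (commutator_eq_bot_iff'.mp hE1) (N.inv_mem hn)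
        · refine ⟨E, hE, A, hA, hE2, ?_⟩
          have h7 : ⁅conjBy E n⁻¹, A⁆ = ⊥ := by
            have h8 := (comm_bot_conj (E := E) (A := conjBy A n) n⁻¹).mpr hE1
            rwa [conjBy_inv_cancel] at h8
          have h9 := conj_comm_mem hNn (commutator_eq_bot_iff'.mp h7) hn
          rwa [conjBy_cancel_inv] at h9
      · exact ⟨conjBy A n, hS.conj_mem A hA n, A, hA, hcomm, conj_comm_mem hNn (hab A hA) hn⟩
    obtain ⟨U, hU, V, hV, hUVne, hUVN⟩ := step1
    have step2 : ∃ M ∈ S, M ≤ N := by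
      rcases hS.pair U hU V hV with h0 | hrk | hcc
      · exact absurd h0 hUVne
      · have hXN : ⁅U ⊔ V, U ⊔ V⁆ ≤ N :=
          comm_sup_le_of_comm_mem hNn (hab U hU) (hab V hV) hUVN
        by_cases hdeg : IsDegenerateRootSet S
        · have hs := h4 U hU V ⟨hV, hrk⟩
          have hp := spart_perfect hs (hab U hU) (four_of_card (h3 hdeg U hU))
          rw [hp] at hXN
          exact ⟨U, hU, le_sup_left.trans hXN⟩
        · obtain ⟨U₂, hccU⟩ := hccp hdeg U hU
          obtain ⟨F, hF, w, hwF, hwN, hw1⟩ :=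
            normal_meets_member hS hpart hNn hU hV hrk hccU hXN
          obtain ⟨F₂, hccF⟩ := hccp hdeg F hF
          exact ⟨⁅F, F₂⁆, hccF.1, member_le_of_meets hNn hccF hwF hwN hw1⟩
      · refine ⟨⁅U, V⁆, hcc.1, ?_⟩
        rw [Subgroup.commutator_le]
        intro u hu v hv
        exact hUVN u hu v hv
    obtain ⟨M, hM, hMN⟩ := step2
    exact top_of_member_le hS hclass hNn hM hMN
  have hnc : Subgroup.center G ≠ ⊤ := by
    obtain ⟨A₀, hA₀, -⟩ := h2
    obtain ⟨B, hB, hAB⟩ := hpart A₀ hA₀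
    exact rk1_center_ne_top hAB
  refine ⟨fun A hA => ⟨by rw [hperf, top_sup_eq], ?_⟩,
    quasisimple_subgroup_of_dichotomy hperf hperf hnc hN, fun _ => hperf, fun _ => hperf⟩
  rw [hperf, inf_top_eq]
  exact hS.ne_bot A hA

end Cfsg.Agent.S5033
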