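import Cfsg.Statements.S5034
import Cfsg.Agent.Lib.Helper86.RootSub8
import Cfsg.Agent.Lib.Helper86.Quad3
open Cfsg.Agent.Lib.Helper86

set_option autoImplicit false
open Cfsg

namespace Cfsg.Agent.S5034

/-- Let S be a non-degenerate class of abstract root subgroups of G, A ∈ S and B a rank one partner of A. Then some line partner C of A has ⁅B, C⁆ ∈ S, and the rank one pair A, B is special. -/
theorem result {G : Type*} [Group G] {S : Set (Subgroup G)} (hS : Cfsg.IsRootSubgroupClass S) (hnd : Cfsg.IsNondegenerateRootSet S)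
    {A B : Subgroup G} (hA : A ∈ S) (hB : B ∈ Cfsg.rankOnePartners S A) :
    (∃ C ∈ Cfsg.linePartners S A, C ∈ Cfsg.commutatorPartners S B) ∧ Cfsg.IsSpecialRankOnePair A B := by
  obtain ⟨hSS, hne, hclass⟩ := hS
  obtain ⟨hBS, hAB⟩ := hB
  obtain ⟨-, -, ⟨A₁, hA₁, B₁, hB₁, ccA₁B₁⟩⟩ := hnd
  -- every member has a rank one partner
  have hpart : ∀ A' ∈ S, ∃ C ∈ S, IsRankOnePair A' C := by
    intro A' hA'
    obtain ⟨g, hg⟩ := hclass A hA A' hA'
    exact ⟨conjBy B g, hSS.conj_mem B hBS g, by rw [hg]; exact rk1_conj hAB g⟩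
  obtain ⟨g, hg⟩ := hclass A₁ hA₁ A hA
  have hB'S : conjBy B₁ g ∈ S := hSS.conj_mem B₁ hB₁ g
  have hcomm : ⁅A, conjBy B₁ g⁆ ∈ S := by
    have h1 : conjBy ⁅A₁, B₁⁆ g = ⁅conjBy A₁ g, conjBy B₁ g⁆ := Subgroup.map_commutator _ _ _
    rw [hg, ← h1]
    exact hSS.conj_mem _ ccA₁B₁.1 g
  have ccAB' : RootCommutatorCase S A (conjBy B₁ g) := root_cc_of_comm_mem hSS hA hB'S hcomm
  have hpartn := cc_partition_line hSS hA hBS hAB ccAB'
  have hab : ∀ x ∈ A ⊔ ⁅A, conjBy B₁ g⁆, ∀ y ∈ A ⊔ ⁅A, conjBy B₁ g⁆, x * y = y * x :=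
    sup_commute_of_commute (fun x hx y hy => root_comm hSS hA hx hy)
      (fun x hx y hy => root_comm hSS hcomm hx hy)
      (fun a ha c hc => (ccAB'.2.1 c hc a (Subgroup.mem_sup_left ha)).symm)
  have hinf : A ⊓ ⁅A, conjBy B₁ g⁆ = ⊥ := cc_inf_eq_bot hSS hBS hAB ccAB'
  have hneq : A ≠ ⁅A, conjBy B₁ g⁆ := by
    intro h
    rw [← h, inf_idem] at hinf
    exact hSS.ne_bot A hA hinf
  obtain ⟨D, hD, hDA, hADsup, ccBD, ccAE, hAE⟩ :=
    line_aux hSS hpart hpartn hab ⟨hA, le_sup_left⟩ ⟨hcomm, le_sup_right⟩ hneq rfl hBS hAB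
  have hAD0 : ⁅A, D⁆ = ⊥ := by
    rw [commutator_eq_bot_iff']
    intro a ha d hd
    exact hab a (Subgroup.mem_sup_left ha) d (hD.2 hd)
  refine ⟨⟨D, ⟨⟨hD.1, hDA, hAD0⟩, ?_⟩, ⟨hD.1, ccBD.1⟩⟩, ?_⟩
  · rw [hADsup]
    exact hpartn
  · obtain ⟨-, -, hNX, -⟩ := cc_chain_main hSS hD.1 hBS ccBD.1 hA (Subgroup.commutator_comm D B) hAE
    have hED : ∀ e ∈ ⁅B, D⁆, ∀ d ∈ D, e * d = d * e := fun e he d hd =>
      ccBD.2.1 e he d (Subgroup.mem_sup_right hd)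
    have hDE : ∀ d ∈ D, ∀ e ∈ ⁅B, D⁆, d * e = e * d := fun d hd e he => (hED e he d hd).symm
    have hDA' : ∀ d ∈ D, ∀ a ∈ A, d * a = a * d := fun d hd a ha =>
      hab d (hD.2 hd) a (Subgroup.mem_sup_left ha)
    have hNA : ⁅D ⊔ ⁅B, D⁆, A⁆ = D := by
      rw [sup_comm, commutator_sup_left_of_commute hED hDA', Subgroup.commutator_comm ⁅B, D⁆ A, hAE]
    apply special_of_conj_action (Nn := D ⊔ ⁅B, D⁆) hAB
    · exact sup_commute_of_commute (fun x hx y hy => root_comm hSS hD.1 hx hy)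
        (fun x hx y hy => root_comm hSS ccBD.1 hx hy) hDE
    · intro x hx n hn
      have h1 := conj_mem_conjBy (A := D ⊔ ⁅B, D⁆) hn x
      rwa [hNX x (by rwa [sup_comm])] at h1
    · intro a ha a' ha' n hn
      have h1 : a * n * a⁻¹ * n⁻¹ ∈ D := by
        have h2 := comm_elt_mem' (A := D ⊔ ⁅B, D⁆) (B := A) hn ha
        rwa [hNA] at h2
      have h3 := hDA' _ h1 a' ha'
      calc a' * (a * n * a⁻¹ * n⁻¹) * a'⁻¹ = (a * n * a⁻¹ * n⁻¹) * a' * a'⁻¹ := by rw [h3]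
        _ = a * n * a⁻¹ * n⁻¹ := by group
    · obtain ⟨a, ha, ha1⟩ := root_exists_ne_one hSS hA
      obtain ⟨d, hd, hd1⟩ := root_exists_ne_one hSS hD.1
      obtain ⟨b, hb, hb1⟩ := root_exists_ne_one hSS hBS
      obtain ⟨e, he, hed⟩ := cc_surj_right ccAE ha ha1 (c := d) (by rw [hAE]; exact hd)
      refine ⟨a, Subgroup.mem_sup_left ha, b, Subgroup.mem_sup_right hb, e,
        Subgroup.mem_sup_right he, ?_⟩
      rw [hed]
      intro h
      exact cc_not_commute_elts hSS hBS hA (RankOnePair_symm hAB) ccBD hb hb1 hd hd1 (by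
        calc b * d = b * d * b⁻¹ * b := by group
          _ = d * b := by rw [h])

end Cfsg.Agent.S5034
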