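import Cfsg.Statements.S5035
import Cfsg.Agent.Lib.Helper86.RootSub5
open Cfsg.Agent.Lib.Helper86

set_option autoImplicit false
open Cfsg

namespace Cfsg.Agent.S5035

/-- Let S be a set of abstract root subgroups of G whose graph of rank one pairs is connected, and f a homomorphism from G onto a group H. Then either the images of the members of S form a set of abstract root subgroups of H whose graph of rank one pairs is again connected, or H equals the image of a member of S. -/
theorem result {G H : Type*} [Group G] [Group H] {S : Set (Subgroup G)} (hS : Cfsg.IsRootSubgroupSet S)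
    (hc : Cfsg.IsConnectedFamily (Cfsg.FAdj S) S) (f : G →* H) (hf : Function.Surjective f) :
    (Cfsg.IsRootSubgroupSet ((fun A : Subgroup G => A.map f) '' S) ∧
      Cfsg.IsConnectedFamily (Cfsg.FAdj ((fun A : Subgroup G => A.map f) '' S)) ((fun A : Subgroup G => A.map f) '' S)) ∨
    ∃ A ∈ S, A.map f = ⊤ := by
  by_cases hker : ∃ A ∈ S, A ≤ f.ker
  · right
    obtain ⟨A, hA, hAk⟩ := hker
    refine ⟨A, hA, ?_⟩
    have hall : ∀ B ∈ S, B ≤ f.ker := by
      intro B hB
      have hrel := hc A hA B hB
      induction hrel with
      | refl => exact hAk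
      | tail _ h2 ih =>
        obtain ⟨x, -, hx⟩ := rk1_B_mem_unip h2.2.2
        rw [hx]
        intro y hy
        rw [mem_conjBy] at hy
        have h3 := MonoidHom.mem_ker.mp (ih h2.1 hy)
        rw [MonoidHom.mem_ker]
        have e : y = x * (x⁻¹ * y * x) * x⁻¹ := by group
        rw [e, map_mul, map_mul, h3]
        simp
    have htop : ∀ g : G, f g = 1 := by
      intro g
      have hle : (⨆ B ∈ S, B) ≤ f.ker := iSup₂_le hall
      rw [hS.generates] at hle
      exact MonoidHom.mem_ker.mp (hle (Subgroup.mem_top g))
    rw [eq_top_iff]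
    intro h _
    obtain ⟨g, rfl⟩ := hf h
    rw [htop g]; exact Subgroup.one_mem _
  · left
    push Not at hker
    have hS' : IsRootSubgroupSet ((fun A : Subgroup G => A.map f) '' S) := by
      refine ⟨?_, ?_, ?_, ?_, ?_⟩
      · rintro _ ⟨A, hA, rfl⟩
        have := hS.commutative A hA
        exact (inferInstance : IsMulCommutative (A.map f))
      · rintro _ ⟨A, hA, rfl⟩
        intro hbot
        exact hker A hA ((Subgroup.map_eq_bot_iff A).mp hbot)
      · rw [iSup_image]
        have h1 : (⨆ A ∈ S, A.map f) = (⨆ A ∈ S, A).map f := by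
          rw [Subgroup.map_iSup]
          congr 1
          funext A
          rw [Subgroup.map_iSup]
        rw [h1, hS.generates, Subgroup.map_top_of_surjective f hf]
      · rintro _ ⟨A, hA, rfl⟩ h
        obtain ⟨g, rfl⟩ := hf h
        exact ⟨conjBy A g, hS.conj_mem A hA g, map_conjBy f A g⟩
      · rintro _ ⟨A, hA, rfl⟩ _ ⟨B, hB, rfl⟩
        rcases hS.pair A hA B hB with h1 | h2 | h3
        · left
          show ⁅A.map f, B.map f⁆ = ⊥
          rw [← Subgroup.map_commutator, h1, Subgroup.map_bot]
        · rcases rk1_map_pair h2 (hS.commutative A hA) (hS.commutative B hB) f with h | h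
          · left
            show ⁅A.map f, B.map f⁆ = ⊥
            rw [h]
            have := hS.commutative B hB
            have hc' : IsMulCommutative (B.map f) := inferInstance
            exact Subgroup.commutator_self_eq_bot_iff.mpr hc'
          · right; left; exact h
        · right; right
          refine ⟨?_, ?_, ?_, ?_⟩
          · exact ⟨⁅A, B⁆, h3.1, Subgroup.map_commutator A B f⟩
          · intro c hc x hx
            have hc2 : c ∈ (⁅A, B⁆).map f := by
              rw [Subgroup.map_commutator]; exact hc
            have hx2 : x ∈ (A ⊔ B).map f := by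
              rw [Subgroup.map_sup]; exact hx
            obtain ⟨c₀, hc₀, rfl⟩ := hc2
            obtain ⟨x₀, hx₀, rfl⟩ := hx2
            rw [← map_mul, ← map_mul, h3.2.1 c₀ hc₀ x₀ hx₀]
          · rintro _ ⟨a, ha, rfl⟩ ha1
            have ha1' : a ≠ 1 := by rintro rfl; exact ha1 (map_one f)
            show Subgroup.closure ((fun b : H => f a * b * (f a)⁻¹ * b⁻¹) '' ((B.map f : Subgroup H) : Set H))
              = ⁅A.map f, B.map f⁆
            rw [← Subgroup.map_commutator, ← h3.2.2.1 a ha ha1', MonoidHom.map_closure]
            congr 1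
            rw [Subgroup.coe_map, Set.image_image, Set.image_image]
            congr 1
            funext b
            simp
          · rintro _ ⟨b, hb, rfl⟩ hb1
            have hb1' : b ≠ 1 := by rintro rfl; exact hb1 (map_one f)
            show Subgroup.closure ((fun a : H => a * f b * a⁻¹ * (f b)⁻¹) '' ((A.map f : Subgroup H) : Set H))
              = ⁅A.map f, B.map f⁆
            rw [← Subgroup.map_commutator, ← h3.2.2.2 b hb hb1', MonoidHom.map_closure]
            congr 1
            rw [Subgroup.coe_map, Set.image_image, Set.image_image]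
            congr 1
            funext a
            simp
    refine ⟨hS', ?_⟩
    rintro _ ⟨A, hA, rfl⟩ _ ⟨B, hB, rfl⟩
    have hrel := hc A hA B hB
    induction hrel with
    | refl => exact Relation.ReflTransGen.refl
    | tail _ h2 ih =>
      have ih' := ih h2.1
      rcases rk1_map_pair h2.2.2 (hS.commutative _ h2.1) (hS.commutative _ h2.2.1) f with h | h
      · show Relation.ReflTransGen _ (A.map f) (Subgroup.map f _)
        rw [← h]; exact ih'
      · exact ih'.tail ⟨⟨_, h2.1, rfl⟩, ⟨_, h2.2.1, rfl⟩, h⟩

end Cfsg.Agent.S5035
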