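import Cfsg.Statements.S5036
import Cfsg.Agent.Lib.Helper86.RootSub6
open Cfsg.Agent.Lib.Helper86

set_option autoImplicit false
open Cfsg

namespace Cfsg.Agent.S5036

/-- Let S be a set of abstract root subgroups of G, A, B ∈ S with C = ⁅A, B⁆ ∈ S, and D ∈ S with ⁅D, C⁆ = A. Put X = ⟨B, D⟩ and N = AC. Then B, D form a rank one pair; the conjugates of A under X are the conjugates of C under X, namely the conjugates of A by elements of B together with C, equally the conjugates of C by elements of D together with A, and they partition N; and the centralizer of N in X is central in X. -/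
theorem result {G : Type*} [Group G] {S : Set (Subgroup G)} (hS : Cfsg.IsRootSubgroupSet S)
    {A B D : Subgroup G} (hA : A ∈ S) (hB : B ∈ S) (hC : ⁅A, B⁆ ∈ S) (hD : D ∈ S) (hDC : ⁅D, ⁅A, B⁆⁆ = A) :
    Cfsg.IsRankOnePair B D ∧
    {E | ∃ x ∈ B ⊔ D, E = Cfsg.conjBy A x} = {E | ∃ x ∈ B ⊔ D, E = Cfsg.conjBy ⁅A, B⁆ x} ∧
    {E | ∃ x ∈ B ⊔ D, E = Cfsg.conjBy A x} = (fun b : G => Cfsg.conjBy A b) '' (B : Set G) ∪ {⁅A, B⁆} ∧
    {E | ∃ x ∈ B ⊔ D, E = Cfsg.conjBy A x} = (fun d : G => Cfsg.conjBy ⁅A, B⁆ d) '' (D : Set G) ∪ {A} ∧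
    Cfsg.IsSubgroupPartition (A ⊔ ⁅A, B⁆) {E | ∃ x ∈ B ⊔ D, E = Cfsg.conjBy A x} ∧
    ∀ x ∈ (B ⊔ D) ⊓ Subgroup.centralizer ((A ⊔ ⁅A, B⁆ : Subgroup G) : Set G), ∀ y ∈ B ⊔ D, x * y = y * x := by
  have h1 := cc_chain_main hS hA hB hC hD rfl hDC
  have h2 := cc_chain_main hS hC hD hA hB ((Subgroup.commutator_comm _ _).trans hDC)
    (Subgroup.commutator_comm _ _)
  obtain ⟨hrk, hinf, hNX, horbC⟩ := h1
  obtain ⟨-, -, -, horbA'⟩ := h2
  rw [sup_comm D B] at horbA'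
  have ccAB : RootCommutatorCase S A B := root_cc_of_comm_mem hS hA hB hC
  have ccDC : RootCommutatorCase S D ⁅A, B⁆ :=
    root_cc_of_comm_mem hS hD hC (by rw [hDC]; exact hA)
  have hCA : ∀ c ∈ ⁅A, B⁆, ∀ a ∈ A, c * a = a * c := fun c hc a ha =>
    ccAB.2.1 c hc a (Subgroup.mem_sup_left ha)
  have hAC : ∀ a ∈ A, ∀ c ∈ ⁅A, B⁆, a * c = c * a := fun a ha c hc => (hCA c hc a ha).symm
  have hCB : ∀ c ∈ ⁅A, B⁆, ∀ b ∈ B, c * b = b * c := fun c hc b hb =>
    ccAB.2.1 c hc b (Subgroup.mem_sup_right hb)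
  obtain ⟨a₀, ha₀, ha₀1⟩ := root_exists_ne_one hS hA
  -- A lies in the orbit of C
  have hAorb : A ∈ {E | ∃ x ∈ B ⊔ D, E = conjBy ⁅A, B⁆ x} := by
    rw [horbC]
    exact Or.inl ⟨1, B.one_mem, conjBy_one A⟩
  obtain ⟨x₀, hx₀, hAx₀⟩ := hAorb
  have hCx₀ : ⁅A, B⁆ = conjBy A x₀⁻¹ := conjBy_eq_iff.mp hAx₀.symm
  have horb : {E | ∃ x ∈ B ⊔ D, E = conjBy A x} = {E | ∃ x ∈ B ⊔ D, E = conjBy ⁅A, B⁆ x} := by
    ext E
    simp only [Set.mem_ofPred_eq]
    constructor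
    · rintro ⟨x, hx, rfl⟩
      refine ⟨x * x₀, Subgroup.mul_mem _ hx hx₀, ?_⟩
      rw [← conjBy_conjBy, ← hAx₀]
    · rintro ⟨x, hx, rfl⟩
      refine ⟨x * x₀⁻¹, Subgroup.mul_mem _ hx (Subgroup.inv_mem _ hx₀), ?_⟩
      rw [← conjBy_conjBy, ← hCx₀]
  have horbA : {E | ∃ x ∈ B ⊔ D, E = conjBy A x} =
      (fun b : G => conjBy A b) '' (B : Set G) ∪ {⁅A, B⁆} := horb.trans horbC
  have hAb : ∀ b ∈ B, b ≠ 1 → A ⊓ conjBy A b = ⊥ := by
    intro b hb hb1
    rw [eq_bot_iff]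
    intro x hx
    rw [Subgroup.mem_inf, mem_conjBy] at hx
    rw [Subgroup.mem_bot]
    have h3 : x * (b⁻¹ * x * b)⁻¹ ∈ A ⊓ ⁅A, B⁆ := by
      rw [Subgroup.mem_inf]
      refine ⟨A.mul_mem hx.1 (A.inv_mem hx.2), ?_⟩
      have := comm_elt_mem' (A := A) (B := B) hx.2 hb
      have e : b * (b⁻¹ * x * b) * b⁻¹ * (b⁻¹ * x * b)⁻¹ = x * (b⁻¹ * x * b)⁻¹ := by group
      rwa [e] at this
    rw [hinf, Subgroup.mem_bot] at h3
    by_contra hx1
    have h4 : b * x = x * b := by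
      have h5 : x = b⁻¹ * x * b := by
        calc x = (x * (b⁻¹ * x * b)⁻¹) * (b⁻¹ * x * b) := by group
          _ = b⁻¹ * x * b := by rw [h3, one_mul]
      calc b * x = b * (b⁻¹ * x * b) := by rw [← h5]
        _ = x * b := by group
    exact cc_not_commute_elts hS hB hD hrk (cc_symm ccAB) hb hb1 hx.1 hx1 h4
  refine ⟨hrk, horb, horbA, horb.trans (by rw [← horb]; exact horbA'), ?_, ?_⟩
  · rw [horbA]
    refine ⟨?_, ?_, ?_⟩
    · rintro E (⟨b, hb, rfl⟩ | rfl)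
      · exact cc_line_conj_le hb
      · exact le_sup_right
    · intro x hx hx1
      obtain ⟨a, ha, c, hc, rfl⟩ := mem_sup_of_commute hAC hx
      by_cases ha1 : a = 1
      · subst ha1
        rw [mul_one] at hx1 ⊢
        exact ⟨⁅A, B⁆, Or.inr rfl, hc⟩
      · obtain ⟨b, hb, hbe⟩ := cc_conj_surj ccAB ha ha1 hc
        refine ⟨conjBy A b, Or.inl ⟨b, hb, rfl⟩, ?_⟩
        rw [← hbe]
        exact conj_mem_conjBy ha b
    · have hbC : ∀ b ∈ B, conjBy A b ⊓ ⁅A, B⁆ = ⊥ := by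
        intro b hb
        rw [eq_bot_iff]
        intro x hx
        rw [Subgroup.mem_inf, mem_conjBy] at hx
        have e : b⁻¹ * x * b = x := by
          have := hCB x hx.2 b hb
          calc b⁻¹ * x * b = b⁻¹ * (x * b) := by group
            _ = b⁻¹ * (b * x) := by rw [this]
            _ = x := by group
        rw [e] at hx
        rw [← hinf]
        exact Subgroup.mem_inf.mpr hx
      rintro E (⟨b, hb, rfl⟩ | rfl) F (⟨b', hb', rfl⟩ | rfl) hne
      · have hbb : b⁻¹ * b' ≠ 1 := by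
          intro h
          apply hne
          have : b' = b := by
            calc b' = b * (b⁻¹ * b') := by group
              _ = b := by rw [h, mul_one]
          rw [this]
        rw [eq_bot_iff]
        intro x hx
        simp only [Subgroup.mem_inf, mem_conjBy] at hx
        have h3 : b⁻¹ * x * b ∈ A ⊓ conjBy A (b⁻¹ * b') := by
          rw [Subgroup.mem_inf, mem_conjBy]
          refine ⟨hx.1, ?_⟩
          have e : (b⁻¹ * b')⁻¹ * (b⁻¹ * x * b) * (b⁻¹ * b') = b'⁻¹ * x * b' := by group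
          rw [e]
          exact hx.2
        rw [hAb _ (B.mul_mem (B.inv_mem hb) hb') hbb, Subgroup.mem_bot] at h3
        rw [Subgroup.mem_bot]
        calc x = b * (b⁻¹ * x * b) * b⁻¹ := by group
          _ = 1 := by rw [h3]; group
      · exact hbC b hb
      · rw [inf_comm]
        exact hbC b' hb'
      · exact absurd rfl hne
  · -- the centralizer of N in X is central
    have hK : ∀ n ∈ (B ⊔ D) ⊓ Subgroup.centralizer ((A ⊔ ⁅A, B⁆ : Subgroup G) : Set G),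
        ∀ x ∈ B ⊔ D, x⁻¹ * n * x ∈
          (B ⊔ D) ⊓ Subgroup.centralizer ((A ⊔ ⁅A, B⁆ : Subgroup G) : Set G) := by
      intro n hn x hx
      rw [Subgroup.mem_inf] at hn ⊢
      refine ⟨Subgroup.mul_mem _ (Subgroup.mul_mem _ (Subgroup.inv_mem _ hx) hn.1) hx, ?_⟩
      rw [Subgroup.mem_centralizer_iff]
      intro m hm
      have hm' : x * m * x⁻¹ ∈ A ⊔ ⁅A, B⁆ := by
        have := conj_mem_conjBy (A := A ⊔ ⁅A, B⁆) hm x
        rwa [hNX x hx] at this
      have h3 := (Subgroup.mem_centralizer_iff.mp hn.2) _ hm'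
      calc m * (x⁻¹ * n * x) = x⁻¹ * ((x * m * x⁻¹) * n) * x := by group
        _ = x⁻¹ * (n * (x * m * x⁻¹)) * x := by rw [h3]
        _ = x⁻¹ * n * x * m := by group
    have hKB : ∀ n ∈ (B ⊔ D) ⊓ Subgroup.centralizer ((A ⊔ ⁅A, B⁆ : Subgroup G) : Set G),
        conjBy B n = B := by
      intro n hn
      by_contra hnB
      have hle := rk1_normal_transitive hrk hn (Subgroup.mem_inf.mp hn).1 hnB
      have hcent : (B ⊔ D) ⊓ Subgroup.centralizer ((A ⊔ ⁅A, B⁆ : Subgroup G) : Set G) ⊔ B ≤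
          Subgroup.centralizer ((⁅A, B⁆ : Subgroup G) : Set G) := by
        refine sup_le ?_ ?_
        · intro k hk
          rw [Subgroup.mem_inf] at hk
          exact Subgroup.centralizer_le (by exact_mod_cast (le_sup_right : ⁅A, B⁆ ≤ A ⊔ ⁅A, B⁆)) hk.2
        · intro b hb
          rw [Subgroup.mem_centralizer_iff]
          intro c hc
          exact hCB c hc b hb
      obtain ⟨d₀, hd₀, hd₀1⟩ := root_exists_ne_one hS hD
      have hd₀c : ∀ c ∈ ⁅A, B⁆, c * d₀ = d₀ * c := fun c hc =>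
        (Subgroup.mem_centralizer_iff.mp (hcent (hle (Subgroup.mem_sup_right hd₀)))) c hc
      obtain ⟨c, hc, hca⟩ := cc_surj_right ccDC hd₀ hd₀1 (c := a₀) (by rw [hDC]; exact ha₀)
      apply ha₀1
      rw [← hca, ← hd₀c c hc]
      group
    exact rk1_normal_central hrk hK hKB

end Cfsg.Agent.S5036
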