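import Cfsg.Statements.S5041
import Cfsg.Agent.Lib.Helper86.Line
import Cfsg.Agent.S5034
open Cfsg.Agent.Lib.Helper86

set_option autoImplicit false
open Cfsg

namespace Cfsg.Agent.S5041

/-- Let S be a non-degenerate class of abstract root subgroups of G. Then the graph on S joining A to its line partners, and the commuting graph on S, are both connected. -/
theorem result {G : Type*} [Group G] {S : Set (Subgroup G)} (hS : Cfsg.IsRootSubgroupClass S) (hnd : Cfsg.IsNondegenerateRootSet S) :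
    Cfsg.IsConnectedFamily (Cfsg.EAdj S S) S ∧ Cfsg.IsConnectedFamily (Cfsg.DAdj S) S := by
  have hS' := hS
  obtain ⟨hSS, hne, hclass⟩ := hS
  have hnd' := hnd
  obtain ⟨-, ⟨A₁, hA₁, B₁, hB₁, hA₁B₁⟩, -⟩ := hnd
  have hpart : ∀ A' ∈ S, ∃ C ∈ S, IsRankOnePair A' C := by
    intro A' hA'
    obtain ⟨g, hg⟩ := hclass A₁ hA₁ A' hA'
    exact ⟨conjBy B₁ g, hSS.conj_mem B₁ hB₁ g, by rw [hg]; exact rk1_conj hA₁B₁ g⟩
  have h34 : ∀ A ∈ S, ∀ B ∈ rankOnePartners S A,
      ∃ C ∈ linePartners S A, C ∈ commutatorPartners S B :=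
    fun A hA B hB => (Cfsg.Agent.S5034.result hS' hnd' hA hB).1
  have hE : IsConnectedFamily (EAdj S S) S := by
    intro A hA B hB
    obtain ⟨g, rfl⟩ := hclass A hA B hB
    exact erel_conj_all hSS hpart h34 hA g
  refine ⟨hE, ?_⟩
  intro A hA B hB
  have hmono : ∀ X Y : Subgroup G, EAdj S S X Y → DAdj S X Y :=
    fun X Y h => ⟨h.1, h.2.1, Ne.symm h.2.2.1.2.1, h.2.2.1.2.2⟩
  exact Relation.ReflTransGen.mono hmono _ _ (hE A hA B hB)

end Cfsg.Agent.S5041
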