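import Cfsg.Statements.S5042
import Cfsg.Agent.Lib.Helper86.Line2
import Cfsg.Agent.S5034
import Cfsg.Agent.S5041
open Cfsg.Agent.Lib.Helper86

set_option autoImplicit false
open Cfsg

namespace Cfsg.Agent.S5042

/-- Let S be a non-degenerate class of abstract root subgroups of G, A ∈ S and B a rank one partner of A. Then G is generated by the line partners of A together with B. -/
theorem result {G : Type*} [Group G] {S : Set (Subgroup G)} (hS : Cfsg.IsRootSubgroupClass S) (hnd : Cfsg.IsNondegenerateRootSet S)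
    {A B : Subgroup G} (hA : A ∈ S) (hB : B ∈ Cfsg.rankOnePartners S A) :
    (⨆ C ∈ Cfsg.linePartners S A, C) ⊔ B = ⊤ := by
  have hS' := hS
  have hnd' := hnd
  obtain ⟨hSS, hne, hclass⟩ := hS
  obtain ⟨hBS, hAB⟩ := hB
  obtain ⟨-, ⟨A₁, hA₁, B₁, hB₁, hA₁B₁⟩, -⟩ := hnd
  have hpart : ∀ A' ∈ S, ∃ C ∈ S, IsRankOnePair A' C := by
    intro A' hA'
    obtain ⟨g, hg⟩ := hclass A₁ hA₁ A' hA'
    exact ⟨conjBy B₁ g, hSS.conj_mem B₁ hB₁ g, by rw [hg]; exact rk1_conj hA₁B₁ g⟩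
  have hconn := (Cfsg.Agent.S5041.result hS' hnd').1
  have hRl : ∀ C ∈ linePartners S A, C ≤ (⨆ C ∈ linePartners S A, C) ⊔ B := fun C hC =>
    le_trans (le_biSup (fun E : Subgroup G => E) hC) le_sup_left
  have hBR : B ≤ (⨆ C ∈ linePartners S A, C) ⊔ B := le_sup_right
  obtain ⟨D₀, hD₀, -⟩ := (Cfsg.Agent.S5034.result hS' hnd' hA ⟨hBS, hAB⟩).1
  have hAR : A ≤ (⨆ C ∈ linePartners S A, C) ⊔ B := by
    obtain ⟨r, hr, h⟩ := linePartner_conj_mem hSS hpart hA hBS hAB hRl hBR hD₀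
    have h1 : A = conjBy D₀ r⁻¹ := by rw [h, conjBy_inv_cancel]
    exact h1.le.trans (conjBy_le_of_mem (hRl D₀ hD₀) (Subgroup.inv_mem _ hr))
  have hall : ∀ C, Relation.ReflTransGen (EAdj S S) A C →
      ∃ r ∈ (⨆ C ∈ linePartners S A, C) ⊔ B, C = conjBy A r := by
    intro C hC
    induction hC with
    | refl => exact ⟨1, Subgroup.one_mem _, (conjBy_one A).symm⟩
    | tail _ h2 ih =>
      obtain ⟨r, hr, rfl⟩ := ih
      have h3 := linePartners_conj hSS h2.2.2 r⁻¹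
      rw [conjBy_inv_cancel] at h3
      obtain ⟨r', hr', h4⟩ := linePartner_conj_mem hSS hpart hA hBS hAB hRl hBR h3
      exact ⟨r * r', Subgroup.mul_mem _ hr hr', by rw [← conjBy_conjBy, ← h4, conjBy_cancel_inv]⟩
  rw [eq_top_iff, ← hSS.generates]
  refine iSup₂_le ?_
  intro C hC
  obtain ⟨r, hr, rfl⟩ := hall C (hconn A hA C hC)
  exact conjBy_le_of_mem hAR hr

end Cfsg.Agent.S5042
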