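import Cfsg.Statements.S5040
import Cfsg.Agent.Lib.Helper86.WeakTI
import Cfsg.Agent.S5042
open Cfsg.Agent.Lib.Helper86

set_option autoImplicit false
open Cfsg

namespace Cfsg.Agent.S5040

/-- Let S be a non-degenerate class of abstract root subgroups of G and Δ a weak TI-subset of S. Then the members of Δ commute with one another elementwise. -/
theorem result {G : Type*} [Group G] {S : Set (Subgroup G)} (hS : Cfsg.IsRootSubgroupClass S) (hnd : Cfsg.IsNondegenerateRootSet S)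
    {Δ : Set (Subgroup G)} (hΔ : Cfsg.IsWeakTISubset S Δ) : Cfsg.IsAbelianFamily Δ := by
  have hS' := hS
  have hnd' := hnd
  have hΔ' := hΔ
  obtain ⟨hSS, hne, hclass⟩ := hS
  obtain ⟨hΔS, -, hΔne, -⟩ := hΔ
  obtain ⟨-, ⟨A₁, hA₁, B₁, hB₁, hA₁B₁⟩, -⟩ := hnd
  have hpart : ∀ A' ∈ S, ∃ C ∈ S, IsRankOnePair A' C := by
    intro A' hA'
    obtain ⟨g, hg⟩ := hclass A₁ hA₁ A' hA'
    exact ⟨conjBy B₁ g, hSS.conj_mem B₁ hB₁ g, by rw [hg]; exact rk1_conj hA₁B₁ g⟩
  -- a rank one pair inside Δ is impossible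
  have caseR : ∀ A ∈ Δ, ∀ B ∈ Δ, IsRankOnePair A B → False := by
    intro A hA B hB hAB
    have hAS := hΔS hA
    have hBS := hΔS hB
    have htop := Cfsg.Agent.S5042.result hS' hnd' hAS ⟨hBS, hAB⟩
    have hle : (⨆ C ∈ linePartners S A, C) ⊔ B ≤ stabFam Δ := by
      refine sup_le (iSup₂_le ?_) (weakTI_self_le hSS hΔ' hB)
      intro C hC
      exact weakTI_commute_le hΔ' hA hC.1.1
        (fun u hu e he => (commutator_eq_bot_iff'.mp hC.1.2.2 e he u hu).symm)
    rw [htop] at hle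
    apply hΔne
    apply Set.Subset.antisymm hΔS
    intro E hE
    obtain ⟨g, rfl⟩ := hclass A hAS E hE
    exact (hle (Subgroup.mem_top g)).1 A hA
  -- a pair in the commutator case inside Δ produces a rank one pair inside Δ
  have caseC : ∀ A ∈ Δ, ∀ B ∈ Δ, RootCommutatorCase S A B → False := by
    intro A hA B hB hcc
    have hAS := hΔS hA
    have hBS := hΔS hB
    have hBK := weakTI_self_le hSS hΔ' hB
    obtain ⟨EA, hEA, hAEA⟩ := hpart A hAS
    obtain ⟨P, hP, hFP⟩ := hpart _ hcc.1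
    have hpartn := cc_partition_line hSS hAS hEA hAEA hcc
    have hab : ∀ x ∈ A ⊔ ⁅A, B⁆, ∀ y ∈ A ⊔ ⁅A, B⁆, x * y = y * x :=
      sup_commute_of_commute (fun x hx y hy => root_comm hSS hAS hx hy)
        (fun x hx y hy => root_comm hSS hcc.1 hx hy)
        (fun a ha c hc => (hcc.2.1 c hc a (Subgroup.mem_sup_left ha)).symm)
    have hinf := cc_inf_eq_bot hSS hEA hAEA hcc
    have hneq : ⁅A, B⁆ ≠ A := by
      intro h
      rw [h, inf_idem] at hinf
      exact hSS.ne_bot A hAS hinf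
    obtain ⟨D', hD', hD'F, hFD'sup, ccPD', ccFE', hFE'⟩ :=
      line_aux hSS hpart hpartn hab ⟨hcc.1, le_sup_right⟩ ⟨hAS, le_sup_left⟩ hneq
        (sup_comm _ _) hP hFP
    have hD'Δ : ∃ b ∈ B, D' = conjBy A b := by
      rw [cc_members_line hSS hAS hEA hAEA hcc] at hD'
      rcases hD' with ⟨b, hb, rfl⟩ | h
      · exact ⟨b, hb, rfl⟩
      · exact absurd h hD'F
    obtain ⟨b, hb, rfl⟩ := hD'Δ
    have hD'mem : conjBy A b ∈ Δ := (hBK hb).1 A hA
    have hE'K : ⁅P, conjBy A b⁆ ≤ stabFam Δ := weakTI_commute_le hΔ' hD'mem ccPD'.1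
      (fun u hu e he => ccPD'.2.1 u hu e (Subgroup.mem_sup_right he))
    have hcomm1 : ⁅conjBy A b, B⁆ = ⁅A, B⁆ := by
      have h1 : conjBy ⁅A, B⁆ b = ⁅conjBy A b, conjBy B b⁆ := Subgroup.map_commutator _ _ _
      rw [conjBy_of_mem hb] at h1
      rw [← h1]
      exact conjBy_of_centralizes (fun x hx => (hcc.2.1 x hx b (Subgroup.mem_sup_right hb)).symm)
    obtain ⟨hrk, -, -, -⟩ := cc_chain_main hSS (hSS.conj_mem A hAS b) hBS hcc.1 ccPD'.1 hcomm1
      ((Subgroup.commutator_comm _ _).trans hFE')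
    have hE'Δ : ⁅P, conjBy A b⁆ ∈ Δ := by
      obtain ⟨x, hx, hxe⟩ := rk1_B_mem_unip hrk
      have hxK : x ∈ stabFam Δ := (sup_le hBK hE'K) hx
      rw [hxe]
      exact hxK.1 B hB
    exact caseR B hB _ hE'Δ hrk
  intro A hA B hB
  rcases hSS.pair A (hΔS hA) B (hΔS hB) with h1 | h2 | h3
  · exact commutator_eq_bot_iff'.mp h1
  · exact (caseR A hA B hB h2).elim
  · exact (caseC A hA B hB h3).elim

end Cfsg.Agent.S5040
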