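import Cfsg.Statements.S5045
import Mathlib
import Cfsg.Agent.Lib.Helper12.RootInv

set_option autoImplicit false
open Cfsg

namespace Cfsg.Agent.S5045

/-- Let G be a finite group generated by a set D of root involutions, and W the set of members of D whose product with every other member of D has even order or is trivial (the isolated vertices of the odd-order-product graph on D). Then W is conjugation-invariant and generates a normal 2-subgroup of G meeting D in exactly W; the commutator of two members of D lying in different connected components of that graph, each with more than one member, lies in the subgroup generated by W; and for a in such a component, every member of D commuting with a, different from a and with product with a in D, lies in that component or in W. -/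
theorem result {G : Type*} [Group G] [Finite G] {D : Set G} (hD : Cfsg.IsRootInvolutionSet D) :
    (∀ w ∈ {w | Cfsg.IsIsolatedElem (Cfsg.OddAdj D) D w}, ∀ g : G, g * w * g⁻¹ ∈ {w | Cfsg.IsIsolatedElem (Cfsg.OddAdj D) D w}) ∧
    (Subgroup.closure {w | Cfsg.IsIsolatedElem (Cfsg.OddAdj D) D w}).Normal ∧
    IsPGroup 2 ↥(Subgroup.closure {w | Cfsg.IsIsolatedElem (Cfsg.OddAdj D) D w}) ∧
    (Subgroup.closure {w | Cfsg.IsIsolatedElem (Cfsg.OddAdj D) D w} : Set G) ∩ D = {w | Cfsg.IsIsolatedElem (Cfsg.OddAdj D) D w} ∧
    (∀ a ∈ D, ∀ b ∈ D, (∃ a' ∈ Cfsg.elemComponentOf (Cfsg.OddAdj D) D a, a' ≠ a) →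
      (∃ b' ∈ Cfsg.elemComponentOf (Cfsg.OddAdj D) D b, b' ≠ b) →
      Cfsg.elemComponentOf (Cfsg.OddAdj D) D a ≠ Cfsg.elemComponentOf (Cfsg.OddAdj D) D b →
        a * b * a⁻¹ * b⁻¹ ∈ Subgroup.closure {w | Cfsg.IsIsolatedElem (Cfsg.OddAdj D) D w}) ∧
    (∀ a ∈ D, (∃ a' ∈ Cfsg.elemComponentOf (Cfsg.OddAdj D) D a, a' ≠ a) →
      Cfsg.productPartners D a ⊆ Cfsg.elemComponentOf (Cfsg.OddAdj D) D a ∪ {w | Cfsg.IsIsolatedElem (Cfsg.OddAdj D) D w}) := by
  classical
  have hWc : ∀ w ∈ {w | Cfsg.IsIsolatedElem (Cfsg.OddAdj D) D w}, ∀ g : G,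
      g * w * g⁻¹ ∈ {w | Cfsg.IsIsolatedElem (Cfsg.OddAdj D) D w} :=
    fun w hw g => Lib.Helper12.RootInv.isolated_conj hD hw g
  have hN : (Subgroup.closure {w | Cfsg.IsIsolatedElem (Cfsg.OddAdj D) D w}).Normal :=
    Lib.Helper12.RootInv.closure_normal_of_conj hWc
  have hN2 : IsPGroup 2 ↥(Subgroup.closure {w | Cfsg.IsIsolatedElem (Cfsg.OddAdj D) D w}) :=
    Lib.Helper12.RootInv.closure_isolated_isPGroup hD
  -- neighbour extraction
  have hnb : ∀ a : G, (∃ a' ∈ Cfsg.elemComponentOf (Cfsg.OddAdj D) D a, a' ≠ a) →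
      ∃ a'', Cfsg.OddAdj D a a'' := by
    rintro a ⟨a', ha', hne⟩
    rcases Relation.ReflTransGen.cases_head ha'.2 with h | ⟨c, hc, -⟩
    · exact absurd h.symm hne
    · exact ⟨c, hc⟩
  -- (3)
  have h3 : ∀ a ∈ D, (∃ a' ∈ Cfsg.elemComponentOf (Cfsg.OddAdj D) D a, a' ≠ a) →
      Cfsg.productPartners D a ⊆ Cfsg.elemComponentOf (Cfsg.OddAdj D) D a ∪
        {w | Cfsg.IsIsolatedElem (Cfsg.OddAdj D) D w} := by
    intro a ha hcomp c hc
    obtain ⟨a'', haa⟩ := hnb a hcomp
    obtain ⟨⟨hcD, hca, hcne⟩, hcaD⟩ := hc
    by_cases hiso : Cfsg.IsIsolatedElem (Cfsg.OddAdj D) D c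
    · exact Or.inr hiso
    · left
      have hex : ∃ e, Cfsg.OddAdj D c e := by
        by_contra hno
        apply hiso
        refine ⟨hcD, fun b => ⟨fun h => hno ⟨b, h⟩, fun h => hno ⟨b, Lib.Helper12.RootInv.oddAdj_symm h⟩⟩⟩
      obtain ⟨e, hce⟩ := hex
      exact ⟨hcD, Lib.Helper12.RootInv.partner_connected hD ha hcD hca.symm (hca ▸ hcaD) haa hce⟩
  refine ⟨hWc, hN, hN2, ?_, ?_, h3⟩
  · -- closure W ∩ D = W
    ext d
    constructor
    · rintro ⟨hdN, hdD⟩
      exact Lib.Helper12.RootInv.isolated_of_mem_normal_two hD hN hN2 hdD hdN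
    · intro hd
      exact ⟨Subgroup.subset_closure hd, hd.1⟩
  · -- commutators
    intro a ha b hb hca hcb hne
    have hainv := Lib.Helper12.RootInv.ri_inv hD ha
    have hbinv := Lib.Helper12.RootInv.ri_inv hD hb
    have ha2 := Lib.Helper12.RootInv.ri_sq hD ha
    have hb2 := Lib.Helper12.RootInv.ri_sq hD hb
    rcases hD.pair a ha b hb with h | h | ⟨h4, hcD⟩
    · have e : a * b * a⁻¹ * b⁻¹ = 1 := by
        rw [h, mul_assoc b a a⁻¹, mul_inv_cancel, mul_one, mul_inv_cancel]
      rw [e]; exact one_mem _
    · exfalso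
      apply hne
      by_cases hab : a = b
      · rw [hab]
      · exact Lib.Helper12.RootInv.comp_eq_of_rtg (Relation.ReflTransGen.single ⟨ha, hb, hab, h⟩)
    · have h4' : (a * b) ^ 4 = 1 := by rw [← h4]; exact pow_orderOf_eq_one _
      have hw : a * b * a * b * (a * b * a * b) = 1 := by
        have := h4'
        simpa only [pow_succ, pow_zero, one_mul, mul_assoc] using this
      have e : a * b * a⁻¹ * b⁻¹ = (a * b) ^ 2 := by
        rw [hainv, hbinv, pow_two]; simp only [mul_assoc]
      have hc2 : (a * b) ^ 2 = a * b * a * b := by rw [pow_two]; simp only [mul_assoc]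
      rw [e]
      rw [hc2] at hcD ⊢
      -- a b a b = b a b a
      have hsw : a * b * a * b = b * a * b * a := by
        have h1 : a * b * a * b = (a * b * a * b)⁻¹ := eq_inv_of_mul_eq_one_left hw
        rw [h1]
        simp only [mul_inv_rev, hainv, hbinv, mul_assoc]
      have hpa : a * b * a * b ∈ Cfsg.productPartners D a := by
        refine ⟨⟨hcD, ?_, ?_⟩, ?_⟩
        · calc a * b * a * b * a = a * (b * a * b * a) := by simp only [mul_assoc]
            _ = a * (a * b * a * b) := by rw [hsw]
        · intro hh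
          have h1 : a * (b * a * b) = a * 1 := by rw [mul_one]; simpa only [mul_assoc] using hh
          have h2 : b * a * b = 1 := mul_left_cancel h1
          have h3' : a = 1 := by
            have : b * (b * a * b) * b = b * 1 * b := by rw [h2]
            rw [mul_one, hb2] at this
            have e2 : b * (b * a * b) * b = (b * b) * a * (b * b) := by simp only [mul_assoc]
            rw [e2, hb2, one_mul, mul_one] at this
            exact this
          exact Lib.Helper12.RootInv.ri_ne_one hD ha h3'
        · have e2 : a * b * a * b * a = a * (b * a * b⁻¹) * a⁻¹ := by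
            rw [hainv, hbinv]; simp only [mul_assoc]
          rw [e2]
          exact hD.conj_mem _ (hD.conj_mem a ha b) a
      have hpb : a * b * a * b ∈ Cfsg.productPartners D b := by
        refine ⟨⟨hcD, ?_, ?_⟩, ?_⟩
        · calc a * b * a * b * b = b * a * b * a * b := by rw [hsw]
            _ = b * (a * b * a * b) := by simp only [mul_assoc]
        · intro hh
          have h1 : (a * b * a) * b = 1 * b := by rw [one_mul]; exact hh
          have h2 : a * b * a = 1 := mul_right_cancel h1
          have h3' : b = 1 := by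
            have : a * (a * b * a) * a = a * 1 * a := by rw [h2]
            rw [mul_one, ha2] at this
            have e2 : a * (a * b * a) * a = (a * a) * b * (a * a) := by simp only [mul_assoc]
            rw [e2, ha2, one_mul, mul_one] at this
            exact this
          exact Lib.Helper12.RootInv.ri_ne_one hD hb h3'
        · have e2 : a * b * a * b * b = a * b * a⁻¹ := by
            rw [hainv, mul_assoc (a * b * a) b b, hb2, mul_one]
          rw [e2]
          exact hD.conj_mem b hb a
      rcases h3 a ha hca hpa with h5 | h5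
      · rcases h3 b hb hcb hpb with h6 | h6
        · exfalso
          apply hne
          rw [Lib.Helper12.RootInv.comp_eq_of_rtg h5.2, Lib.Helper12.RootInv.comp_eq_of_rtg h6.2]
        · exact Subgroup.subset_closure h6
      · exact Subgroup.subset_closure h5

end Cfsg.Agent.S5045
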