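import Cfsg.Statements.S5047
import Cfsg.Agent.Lib.Helper42.RTMain
import Cfsg.Agent.Lib.Helper55.RTFROB
import Cfsg.Agent.Lib.Helper4.RTORD3
import Cfsg.Agent.Lib.Helper73.RTEXX

set_option autoImplicit false
open Cfsg

namespace Cfsg.Agent.S5047

/-- Let G be a finite group generated by a set D of root involutions whose odd-order-product graph is connected, a ∈ D, and b a member of D different from a, commuting with a, with ab ∈ D, but not having the same commuting members as a. Then some member x of D with bx of order 4 has ax of order 3. -/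
theorem result {G : Type*} [Group G] [Finite G] {D : Set G} (hD : Cfsg.IsRootInvolutionSet D)
    (hc : Cfsg.IsConnectedSet (Cfsg.OddAdj D) D) {a b : G} (ha : a ∈ D) (hb : b ∈ Cfsg.productPartners D a)
    (hbE : b ∉ Cfsg.sameCommutingClass D a) : ∃ x ∈ Cfsg.fourPartners D b, orderOf (a * x) = 3 := by
  refine Cfsg.Agent.Lib.Helper42.RT.main_of ?_ hD ?_ ?_ ha hb hbE
  · intro ρ N hN1 hN2 hcomm hsq m hm hρ
    exact Cfsg.Agent.Lib.Helper55.RT.frob_fix ρ N hN1 hN2 hcomm hsq hm hρ
  · intro a b ha hb hab habD hne
    exact Cfsg.Agent.Lib.Helper73.RT.exists_odd_four hD hc ha hb hab habD hne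
  · intro a b n x ha hb hn hx hab habD h1 h2
    exact Cfsg.Agent.Lib.Helper4.RT.order_three hD ha hb hn hx hab habD h1 h2

end Cfsg.Agent.S5047
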