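-- Statement S5048: root involutions, solvable radical and simplicity.
-- Elementary proof assembled from Lib/Helper42/RSMain plus five pieces
-- (helper73 RSCOMM, helper59 RSCORE / RSZNE, helper32 RSZLE / RSZSOLV).
import Cfsg.Statements.S5048
import Cfsg.Agent.Lib.Helper42.RSMain
import Cfsg.Agent.Lib.Helper73.RSCOMM
import Cfsg.Agent.Lib.Helper59.RSCORE
import Cfsg.Agent.Lib.Helper59.RSZNE
import Cfsg.Agent.Lib.Helper32.RSZLE
import Cfsg.Agent.Lib.Helper32.RSZSOLV

set_option autoImplicit false
open Cfsg

namespace Cfsg.Agent.S5048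

/-- Let G be a finite group generated by a set D of root involutions whose odd-order-product graph is connected, with some product of two different commuting members of D again in D. Then the largest solvable normal subgroup of G is the preimage of the centre of G/O₂(G), and the quotient of G by it is a simple group. -/
theorem result {G : Type*} [Group G] [Finite G] {D : Set G} (hD : Cfsg.IsRootInvolutionSet D)
    (hc : Cfsg.IsConnectedSet (Cfsg.OddAdj D) D) (hDD : (D ∩ Cfsg.commutingProducts D).Nonempty) :
    Cfsg.solvableRadical G = Cfsg.twoZCore G ∧ IsSimpleGroup (G ⧸ Cfsg.twoZCore G) := by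
  exact Cfsg.Agent.Lib.Helper42.RS.main_of hD hc hDD
    (fun N _ hpart hDN _ _ h₁ h₂ hN =>
      Cfsg.Agent.Lib.Helper73.RS.comm_of_mul_mem hD hpart N hDN h₁ h₂ hN)
    (fun N _ hcomm _ _ hd hn =>
      Cfsg.Agent.Lib.Helper59.RS.comm_mem_pCore hD N hcomm hd hn)
    (fun N h => Cfsg.Agent.Lib.Helper32.RS.le_twoZCore hD.generates N h)
    (fun h => Cfsg.Agent.Lib.Helper59.RS.not_mem_twoZCore hD h)
    Cfsg.Agent.Lib.Helper32.RS.twoZCore_isSolvable

end Cfsg.Agent.S5048
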