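import Cfsg.Statements.S5049
import Mathlib

set_option autoImplicit false
open Cfsg

namespace Cfsg.Agent.S5049

theorem inv_sq {G : Type*} [Group G] {D : Set G} (hD : IsRootInvolutionSet D) {d : G} (hd : d ∈ D) :
    d * d = 1 := by
  have := pow_orderOf_eq_one d
  rw [hD.orderOf_eq d hd, pow_two] at this
  exact this

theorem inv_eq_self {G : Type*} [Group G] {D : Set G} (hD : IsRootInvolutionSet D) {d : G}
    (hd : d ∈ D) : d⁻¹ = d :=
  (eq_inv_of_mul_eq_one_left (inv_sq hD hd)).symm

theorem odd_comm {G : Type*} [Group G] {D : Set G} (hD : IsOddTranspositionSet D) {x y : G}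
    (hx : x ∈ D) (hy : y ∈ D) {k : ℕ} (hk : (x * y) ^ (2 ^ k) = 1) : x * y = y * x := by
  rcases hD.1.pair x hx y hy with h | h | h
  · exact h
  · have h1 : orderOf (x * y) ∣ 2 ^ k := orderOf_dvd_of_pow_eq_one hk
    have h2 : orderOf (x * y) = 1 := by
      obtain ⟨j, -, hj⟩ := (Nat.dvd_prime_pow Nat.prime_two).mp h1
      rw [hj] at h
      rcases Nat.eq_zero_or_pos j with rfl | hjpos
      · simpa using hj
      · exfalso
        have : Even (2 ^ j) := (Nat.even_pow.mpr ⟨even_two, hjpos.ne'⟩)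
        exact (Nat.not_odd_iff_even.mpr this) h
    rw [orderOf_eq_one_iff] at h2
    have : y = x⁻¹ := eq_inv_of_mul_eq_one_right h2
    rw [this]; simp
  · exact absurd h.1 (hD.2 x hx y hy)

/-- Let G be a finite group generated by a set D of odd transpositions (root involutions with no product of order 4), Q = O₂(G), and for a ∈ D let Q_a be the commutator subgroup of Q with a. Then every member of D commuting with a centralizes Q_a; and for b ∈ D with ab of odd order greater than 1, the centralizer of ab in Q is the intersection of the centralizers of a and b in Q. -/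
theorem result {G : Type*} [Group G] [Finite G] {D : Set G} (hD : Cfsg.IsOddTranspositionSet D) {a : G} (ha : a ∈ D) :
    (∀ e ∈ Cfsg.commutingMembers D a, ∀ q ∈ ⁅Cfsg.pCore 2 G, Subgroup.zpowers a⁆, e * q = q * e) ∧
    (∀ b ∈ Cfsg.oddPartners D a,
      Cfsg.pCore 2 G ⊓ Subgroup.centralizer {a * b} = Cfsg.pCore 2 G ⊓ Subgroup.centralizer {a} ⊓ Subgroup.centralizer {b}) := by
  have hQn : (pCore 2 G).Normal := Subgroup.sSup_normal _ (fun _ h => h.1)
  have : Fact (Nat.Prime 2) := ⟨Nat.prime_two⟩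
  have hQp : IsPGroup 2 (pCore 2 G) := Sylow.sSup_of_normal _ (fun _ h => h.2) (fun _ h => h.1)
  have hpow : ∀ c ∈ pCore 2 G, ∃ k : ℕ, c ^ (2 ^ k) = 1 := by
    intro c hc
    obtain ⟨k, hk⟩ := hQp ⟨c, hc⟩
    refine ⟨k, ?_⟩
    have := congrArg Subtype.val hk
    simpa using this
  have hK2 : ∀ u : G, u * u = 1 → ∀ c ∈ pCore 2 G, ∃ k : ℕ, (u * c) ^ (2 ^ k) = 1 := by
    intro u hu c hc
    have hu' : u⁻¹ = u := (eq_inv_of_mul_eq_one_left hu).symm
    have h1 : (u * c) * (u * c) ∈ pCore 2 G := by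
      have h2 : u * c * u⁻¹ ∈ pCore 2 G := hQn.conj_mem c hc u
      have := (pCore 2 G).mul_mem h2 hc
      rw [hu'] at this
      simpa [mul_assoc] using this
    obtain ⟨k, hk⟩ := hpow _ h1
    refine ⟨k + 1, ?_⟩
    rw [pow_succ', pow_mul, pow_two]; exact hk
  refine ⟨?_, ?_⟩
  · rintro e ⟨heD, hea⟩ q hq
    have hle : ⁅pCore 2 G, Subgroup.zpowers a⁆ ≤ Subgroup.centralizer ({e} : Set G) := by
      rw [Subgroup.commutator_le]
      intro g₁ hg₁ g₂ hg₂
      have h1 : e * (g₁ * a * g₁⁻¹) = (g₁ * a * g₁⁻¹) * e := by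
        have hmem : g₁ * a * g₁⁻¹ ∈ D := hD.1.conj_mem a ha g₁
        have hu : (e * a) * (e * a) = 1 := by
          calc (e * a) * (e * a) = e * (a * e) * a := by group
            _ = e * (e * a) * a := by rw [hea]
            _ = (e * e) * (a * a) := by group
            _ = 1 := by rw [inv_sq hD.1 ha, inv_sq hD.1 heD, one_mul]
        have hc : a⁻¹ * g₁ * a * g₁⁻¹ ∈ pCore 2 G := by
          have := hQn.conj_mem g₁ hg₁ a⁻¹
          rw [inv_inv] at this
          exact (pCore 2 G).mul_mem this ((pCore 2 G).inv_mem hg₁)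
        obtain ⟨k, hk⟩ := hK2 (e * a) hu _ hc
        have e1 : e * a * (a⁻¹ * g₁ * a * g₁⁻¹) = e * (g₁ * a * g₁⁻¹) := by group
        rw [e1] at hk
        exact odd_comm hD heD hmem hk
      obtain ⟨n, rfl⟩ := Subgroup.mem_zpowers_iff.mp hg₂
      rw [Subgroup.mem_centralizer_singleton_iff]
      have h2 : Commute e (g₁ * a * g₁⁻¹) := h1
      have h3 : Commute e a := hea
      have h4 : g₁ * a ^ n * g₁⁻¹ = (g₁ * a * g₁⁻¹) ^ n := (conj_zpow).symm
      show g₁ * a ^ n * g₁⁻¹ * (a ^ n)⁻¹ * e = e * (g₁ * a ^ n * g₁⁻¹ * (a ^ n)⁻¹)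
      rw [h4]
      exact ((h2.zpow_right n).mul_right (h3.zpow_right n).inv_right).symm.eq
    have := hle hq
    rw [Subgroup.mem_centralizer_singleton_iff] at this
    exact this.symm
  · rintro b ⟨hbD, hba, hodd⟩
    apply le_antisymm
    · intro q hq
      rw [Subgroup.mem_inf] at hq
      obtain ⟨hqQ, hqab⟩ := hq
      rw [Subgroup.mem_centralizer_singleton_iff] at hqab
      rw [Subgroup.mem_inf, Subgroup.mem_inf, Subgroup.mem_centralizer_singleton_iff,
        Subgroup.mem_centralizer_singleton_iff]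
      have ha' : q * a * q⁻¹ ∈ D := hD.1.conj_mem a ha q
      have hb' : q * b * q⁻¹ ∈ D := hD.1.conj_mem b hbD q
      have hab' : (q * a * q⁻¹) * (q * b * q⁻¹) = a * b := by
        have : (q * a * q⁻¹) * (q * b * q⁻¹) = q * (a * b) * q⁻¹ := by group
        rw [this, hqab]; group
      have hcomm_conj : ∀ d ∈ D, d * (q * d * q⁻¹) = (q * d * q⁻¹) * d := by
        intro d hd
        have hc : d * q * d * q⁻¹ ∈ pCore 2 G := by
          have := hQn.conj_mem q hqQ d
          rw [inv_eq_self hD.1 hd] at this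
          exact (pCore 2 G).mul_mem this ((pCore 2 G).inv_mem hqQ)
        obtain ⟨k, hk⟩ := hpow _ hc
        have e1 : d * q * d * q⁻¹ = d * (q * d * q⁻¹) := by group
        rw [e1] at hk
        exact odd_comm hD hd (hD.1.conj_mem d hd q) hk
      have hca := hcomm_conj a ha
      have hcb := hcomm_conj b hbD
      have hc_eq : a * (q * a * q⁻¹) = b * (q * b * q⁻¹) := by
        have h1 : a * (q * a * q⁻¹) * (q * b * q⁻¹) = b := by
          rw [mul_assoc, hab', ← mul_assoc, inv_sq hD.1 ha, one_mul]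
        have h2 : a * (q * a * q⁻¹) = b * (q * b * q⁻¹)⁻¹ := eq_mul_inv_of_mul_eq h1
        rw [h2, inv_eq_self hD.1 hb']
      by_cases hc1 : a * (q * a * q⁻¹) = 1
      · have hqa : q * a = a * q := by
          have h1 : q * a * q⁻¹ = a⁻¹ := eq_inv_of_mul_eq_one_right hc1
          rw [inv_eq_self hD.1 ha] at h1
          exact mul_inv_eq_iff_eq_mul.mp h1
        have hqb : q * b = b * q := by
          have h0 : b * (q * b * q⁻¹) = 1 := by rw [← hc_eq, hc1]
          have h1 : q * b * q⁻¹ = b⁻¹ := eq_inv_of_mul_eq_one_right h0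
          rw [inv_eq_self hD.1 hbD] at h1
          exact mul_inv_eq_iff_eq_mul.mp h1
        exact ⟨⟨hqQ, hqa⟩, hqb⟩
      · exfalso
        have hcc : (a * (q * a * q⁻¹)) * (a * (q * a * q⁻¹)) = 1 := by
          calc (a * (q * a * q⁻¹)) * (a * (q * a * q⁻¹))
              = a * ((q * a * q⁻¹) * a) * (q * a * q⁻¹) := by group
            _ = a * (a * (q * a * q⁻¹)) * (q * a * q⁻¹) := by rw [hca]
            _ = (a * a) * ((q * a * q⁻¹) * (q * a * q⁻¹)) := by group
            _ = 1 := by rw [inv_sq hD.1 ha, inv_sq hD.1 ha', one_mul]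
        have hca_comm : Commute a (a * (q * a * q⁻¹)) := by
          show a * (a * (q * a * q⁻¹)) = a * (q * a * q⁻¹) * a
          rw [mul_assoc a (q * a * q⁻¹) a, ← hca]
        have hcb_comm : Commute b (a * (q * a * q⁻¹)) := by
          rw [hc_eq]
          show b * (b * (q * b * q⁻¹)) = b * (q * b * q⁻¹) * b
          rw [mul_assoc b (q * b * q⁻¹) b, ← hcb]
        have hcomm : Commute (a * b) (a * (q * a * q⁻¹)) := hca_comm.mul_left hcb_comm
        have hord_c : orderOf (a * (q * a * q⁻¹)) = 2 :=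
          orderOf_eq_prime (by rw [pow_two]; exact hcc) hc1
        have hab'_eq : a * (q * b * q⁻¹) = a * b * (a * (q * a * q⁻¹)) := by
          have : q * b * q⁻¹ = b * (a * (q * a * q⁻¹)) := by
            rw [hc_eq, ← mul_assoc b b, inv_sq hD.1 hbD, one_mul]
          rw [mul_assoc a b, ← this]
        have hord : orderOf (a * (q * b * q⁻¹)) = orderOf (a * b) * 2 := by
          rw [hab'_eq, ← hord_c]
          apply Commute.orderOf_mul_eq_mul_orderOf_of_coprime hcomm
          rw [hord_c]
          exact Nat.coprime_two_right.mpr hodd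
        rcases hD.1.pair a ha _ hb' with h | h | h
        · have h1 : (a * (q * b * q⁻¹)) ^ 2 = 1 := by
            rw [pow_two]
            calc (a * (q * b * q⁻¹)) * (a * (q * b * q⁻¹))
                = a * ((q * b * q⁻¹) * a) * (q * b * q⁻¹) := by group
              _ = a * (a * (q * b * q⁻¹)) * (q * b * q⁻¹) := by rw [h]
              _ = (a * a) * ((q * b * q⁻¹) * (q * b * q⁻¹)) := by group
              _ = 1 := by rw [inv_sq hD.1 ha, inv_sq hD.1 hb', one_mul]
          have h2 := orderOf_dvd_of_pow_eq_one h1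
          rw [hord] at h2
          have h3 : orderOf (a * b) = 1 := by
            have h4 : orderOf (a * b) * 2 ∣ 1 * 2 := by simpa using h2
            exact Nat.dvd_one.mp (Nat.dvd_of_mul_dvd_mul_right (by norm_num) h4)
          rw [orderOf_eq_one_iff] at h3
          apply hba
          have : b = a⁻¹ := eq_inv_of_mul_eq_one_right h3
          rw [this, inv_eq_self hD.1 ha]
        · rw [hord] at h
          exact (Nat.not_odd_iff_even.mpr (even_two.mul_left _)) h
        · exact hD.2 a ha _ hb' h.1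
    · intro q hq
      rw [Subgroup.mem_inf, Subgroup.mem_inf, Subgroup.mem_centralizer_singleton_iff,
        Subgroup.mem_centralizer_singleton_iff] at hq
      obtain ⟨⟨hqQ, hqa⟩, hqb⟩ := hq
      rw [Subgroup.mem_inf, Subgroup.mem_centralizer_singleton_iff]
      refine ⟨hqQ, ?_⟩
      rw [← mul_assoc, hqa, mul_assoc, hqb, mul_assoc]

end Cfsg.Agent.S5049
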