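import Cfsg.Statements.S5060
import Cfsg.Agent.Lib.Helper50.AlgGenD

set_option autoImplicit false
open Cfsg

namespace Cfsg.Agent.S5060

/-- Let k ⊆ K be fields with the characteristic of k not 2 and k not of order 3, and let α ∈ K be a non-zero element algebraic over k. Then the subgroup of SL₂(K) generated by the upper unitriangular matrices with entry c and the lower unitriangular matrices with entry cα, c ranging over k, is exactly the group of matrices of SL₂(K) with all entries in k(α). -/
theorem result {k K : Type*} [Field k] [Field K] [Algebra k K] (hk2 : ringChar k ≠ 2) (hk3 : Nat.card k ≠ 3)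
    (α : K) (hα : IsAlgebraic k α) (hα0 : α ≠ 0) :
    (Subgroup.closure ({g : Matrix.SpecialLinearGroup (Fin 2) K | ∃ c : k, (g : Matrix (Fin 2) (Fin 2) K) = !![1, algebraMap k K c; 0, 1]} ∪
        {g : Matrix.SpecialLinearGroup (Fin 2) K | ∃ c : k, (g : Matrix (Fin 2) (Fin 2) K) = !![1, 0; algebraMap k K c * α, 1]}) :
      Set (Matrix.SpecialLinearGroup (Fin 2) K)) =
    {g : Matrix.SpecialLinearGroup (Fin 2) K | ∀ i j : Fin 2, (g : Matrix (Fin 2) (Fin 2) K) i j ∈ IntermediateField.adjoin k ({α} : Set K)} := by
  exact Cfsg.Agent.Lib.Helper50.AG.genY_eq k hk2 hk3 α hα hα0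

end Cfsg.Agent.S5060
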