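import Cfsg.Statements.S5063
import Cfsg.Agent.Lib.Helper50.QxMain

set_option autoImplicit false
universe u
open Cfsg

namespace Cfsg.Agent.S5063

/-- Let k be a field of characteristic not 2 with k not of order 3, M a finite-dimensional k-vector space and G ≤ GL(M) such that (G, M) is a quadratic pair (M irreducible for G, and G generated by its quadratically acting elements σ whose scalar family 1 + c(σ − 1), c ∈ k, lies in G). Write 𝒬_d for the quadratic elements of G of minimal commutator rank, E(σ) for the subgroup generated by the members of 𝒬_d with the same fixed space and commutator space as σ, and Σ for the set of these subgroups. Then G is a central product of finitely many quasisimple normal subgroups G₁, …, G_s (pairwise commuting and together generating G), each generated by the quadratic elements of G it contains, and every quadratic element of G lies in one of them. -/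
theorem result {k : Type u} [Field k] (hk2 : ringChar k ≠ 2) (hk3 : Nat.card k ≠ 3)
    {M : Type u} [AddCommGroup M] [Module k M] [FiniteDimensional k M]
    {G : Subgroup (LinearMap.GeneralLinearGroup k M)} (hG : Cfsg.IsQuadraticPair G) :
    ∃ (s : ℕ) (Gi : Fin s → Subgroup (LinearMap.GeneralLinearGroup k M)),
      (∀ i, Gi i ≤ G ∧ ∀ g ∈ G, Cfsg.conjBy (Gi i) g = Gi i) ∧ (∀ i j, i ≠ j → ⁅Gi i, Gi j⁆ = ⊥) ∧ (⨆ i, Gi i) = G ∧
      (∀ i, Cfsg.IsQuasisimple ↥(Gi i) ∧ Subgroup.closure (Cfsg.quadraticElements G ∩ (Gi i : Set (LinearMap.GeneralLinearGroup k M))) = Gi i) ∧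
      Cfsg.quadraticElements G ⊆ ⋃ i, (Gi i : Set (LinearMap.GeneralLinearGroup k M)) := by
  exact Cfsg.Agent.Lib.Helper50.QX.main63 hk2 hk3 hG

end Cfsg.Agent.S5063
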