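import Cfsg.Statements.S5065
import Cfsg.Agent.Lib.Helper50.QsMain

set_option autoImplicit false
universe u
open Cfsg

namespace Cfsg.Agent.S5065

/-- Let k be a field of characteristic not 2 with k not of order 3, M a finite-dimensional k-vector space and G ≤ GL(M) such that (G, M) is a quadratic pair (M irreducible for G, and G generated by its quadratically acting elements σ whose scalar family 1 + c(σ − 1), c ∈ k, lies in G). Write 𝒬_d for the quadratic elements of G of minimal commutator rank, E(σ) for the subgroup generated by the members of 𝒬_d with the same fixed space and commutator space as σ, and Σ for the set of these subgroups. For σ, τ ∈ 𝒬_d put A = E(σ), B = E(τ) and X = ⟨A, B⟩. Then either X acts unipotently on M, or A and B are the unipotent subgroups of a special rank one group X; in the latter case X contains exactly one central involution acting as −1 on the commutator space [M, X] and trivially on the fixed space C_M(X), and M is the direct sum of C_M(X) and [M, X]. -/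
theorem result {k : Type u} [Field k] (hk2 : ringChar k ≠ 2) (hk3 : Nat.card k ≠ 3)
    {M : Type u} [AddCommGroup M] [Module k M] [FiniteDimensional k M]
    {G : Subgroup (LinearMap.GeneralLinearGroup k M)} (hG : Cfsg.IsQuadraticPair G)
    {σ τ : LinearMap.GeneralLinearGroup k M} (hσ : σ ∈ Cfsg.minimalQuadraticElements G) (hτ : τ ∈ Cfsg.minimalQuadraticElements G) :
    Cfsg.IsUnipotentOn (Cfsg.sameActionSubgroup G σ ⊔ Cfsg.sameActionSubgroup G τ) ∨
    (Cfsg.IsSpecialRankOnePair (Cfsg.sameActionSubgroup G σ) (Cfsg.sameActionSubgroup G τ) ∧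
      (∃! i : LinearMap.GeneralLinearGroup k M, i ∈ Cfsg.sameActionSubgroup G σ ⊔ Cfsg.sameActionSubgroup G τ ∧ i ≠ 1 ∧ i * i = 1 ∧
        (∀ x ∈ Cfsg.sameActionSubgroup G σ ⊔ Cfsg.sameActionSubgroup G τ, i * x = x * i) ∧
        (∀ m ∈ Cfsg.commutatorSubmodule (Cfsg.sameActionSubgroup G σ ⊔ Cfsg.sameActionSubgroup G τ), (i : M →ₗ[k] M) m = -m) ∧
        (∀ m ∈ Cfsg.fixedSubmodule (Cfsg.sameActionSubgroup G σ ⊔ Cfsg.sameActionSubgroup G τ), (i : M →ₗ[k] M) m = m)) ∧
      IsCompl (Cfsg.fixedSubmodule (Cfsg.sameActionSubgroup G σ ⊔ Cfsg.sameActionSubgroup G τ))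
        (Cfsg.commutatorSubmodule (Cfsg.sameActionSubgroup G σ ⊔ Cfsg.sameActionSubgroup G τ))) := by
  exact Cfsg.Agent.Lib.Helper50.QS.main hk2 hk3 hσ hτ

end Cfsg.Agent.S5065
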