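import Cfsg.Statements.S5067

set_option autoImplicit false
open Cfsg
open scoped commutatorElement

namespace Cfsg.Agent.S5067

/-- A subgroup containing the commutator subgroup is normal. -/
private theorem normal_of_commutator_le {P : Type*} [Group P] {H : Subgroup P}
    (h : ⁅(⊤ : Subgroup P), (⊤ : Subgroup P)⁆ ≤ H) : H.Normal := by
  refine ⟨fun n hn g => ?_⟩
  have h1 : ⁅g, n⁆ ∈ H := h (Subgroup.commutator_mem_commutator (Subgroup.mem_top g) (Subgroup.mem_top n))
  have h2 : g * n * g⁻¹ = ⁅g, n⁆ * n := by
    rw [commutatorElement_def]; group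
  rw [h2]
  exact H.mul_mem h1 hn

/-- The key estimate: the normal closure `N` of an abelian subgroup `E` satisfies `[N, N] ≤ γ₃(P)`. -/
private theorem comm_normalClosure_le {P : Type*} [Group P] {E : Subgroup P} (hE : IsMulCommutative ↥E) :
    ⁅Subgroup.normalClosure (E : Set P), Subgroup.normalClosure (E : Set P)⁆ ≤
      (⊤ : Subgroup P).lowerCentralSeries 2 := by
  classical
  set Z : Subgroup P := (⊤ : Subgroup P).lowerCentralSeries 2 with hZ
  have hZn : Z.Normal := by rw [hZ]; infer_instance
  set D : Subgroup P := ⁅(⊤ : Subgroup P), (⊤ : Subgroup P)⁆ with hD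
  have hZ' : Z = ⁅D, (⊤ : Subgroup P)⁆ := by
    rw [hZ, Subgroup.lowerCentralSeries_succ, Subgroup.lowerCentralSeries_succ,
      Subgroup.lowerCentralSeries_zero]
  -- the generating set
  set T : Set P := (E : Set P) ∪ (D : Set P) with hT
  have hcl : Subgroup.closure T = E ⊔ D := by
    rw [hT, Subgroup.closure_union, Subgroup.closure_eq, Subgroup.closure_eq]
  have hnorm : (E ⊔ D).Normal := normal_of_commutator_le (le_sup_right)
  have hN : Subgroup.normalClosure (E : Set P) ≤ Subgroup.closure T := by
    rw [hcl]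
    exact Subgroup.normalClosure_le_normal (fun x hx => (le_sup_left : E ≤ E ⊔ D) hx)
  -- pairwise commutators of T lie in Z
  have hTZ : ∀ x ∈ T, ∀ y ∈ T, ⁅x, y⁆ ∈ Z := by
    intro x hx y hy
    rcases hx with hx | hx <;> rcases hy with hy | hy
    · have : x * y = y * x := by
        have := hE.is_comm.comm (⟨x, hx⟩ : E) ⟨y, hy⟩
        exact congrArg Subtype.val this
      have h1 : ⁅x, y⁆ = 1 := by
        rw [commutatorElement_def, this]; group
      rw [h1]; exact Z.one_mem
    · rw [hZ', Subgroup.commutator_comm]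
      exact Subgroup.commutator_mem_commutator (Subgroup.mem_top x) hy
    · rw [hZ']
      exact Subgroup.commutator_mem_commutator hx (Subgroup.mem_top y)
    · rw [hZ']
      exact Subgroup.commutator_mem_commutator hx (Subgroup.mem_top y)
  -- pass to the quotient
  let π : P →* P ⧸ Z := QuotientGroup.mk' Z
  have hcomm : ∀ a ∈ π '' T, ∀ b ∈ π '' T, a * b = b * a := by
    rintro _ ⟨x, hx, rfl⟩ _ ⟨y, hy, rfl⟩
    have h1 : π ⁅x, y⁆ = 1 := (QuotientGroup.eq_one_iff _).2 (hTZ x hx y hy)
    have h2 : ⁅π x, π y⁆ = 1 := by rw [← map_commutatorElement]; exact h1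
    exact commutatorElement_eq_one_iff_mul_comm.1 h2
  have hcc : IsMulCommutative (Subgroup.closure (π '' T)) := Subgroup.isMulCommutative_closure hcomm
  rw [Subgroup.commutator_le]
  intro g₁ hg₁ g₂ hg₂
  have h1 : π g₁ ∈ Subgroup.closure (π '' T) := by
    rw [← MonoidHom.map_closure]; exact Subgroup.mem_map_of_mem _ (hN hg₁)
  have h2 : π g₂ ∈ Subgroup.closure (π '' T) := by
    rw [← MonoidHom.map_closure]; exact Subgroup.mem_map_of_mem _ (hN hg₂)
  have h3 : π g₁ * π g₂ = π g₂ * π g₁ := by
    have := hcc.is_comm.comm (⟨π g₁, h1⟩ : Subgroup.closure (π '' T)) ⟨π g₂, h2⟩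
    exact congrArg Subtype.val this
  have h4 : π ⁅g₁, g₂⁆ = 1 := by
    rw [map_commutatorElement]; exact commutatorElement_eq_one_iff_mul_comm.2 h3
  exact (QuotientGroup.eq_one_iff _).1 h4

private theorem lcs_normalClosure_le {P : Type*} [Group P] {E : Subgroup P} (hE : IsMulCommutative ↥E)
    (k : ℕ) :
    (Subgroup.normalClosure (E : Set P)).lowerCentralSeries (k + 1) ≤
      (⊤ : Subgroup P).lowerCentralSeries (k + 2) := by
  induction k with
  | zero =>
    rw [Subgroup.lowerCentralSeries_succ, Subgroup.lowerCentralSeries_zero]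
    exact comm_normalClosure_le hE
  | succ k ih =>
    rw [Subgroup.lowerCentralSeries_succ, Subgroup.lowerCentralSeries_succ _ (k + 2)]
    exact Subgroup.commutator_mono ih le_top

private theorem half {P : Type*} [Group P] [Group.IsNilpotent P]
    (hna : ¬ IsMulCommutative P) {E : Subgroup P} (hE : IsMulCommutative ↥E) :
    Group.nilpotencyClass ↥(Subgroup.normalClosure (E : Set P)) < Group.nilpotencyClass P := by
  have hc : 2 ≤ Group.nilpotencyClass P := by
    by_contra h
    exact hna (Group.IsNilpotent.nilpotencyClass_le_one_iff.1 (by omega))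
  obtain ⟨k, hk⟩ : ∃ k, Group.nilpotencyClass P = k + 2 := ⟨Group.nilpotencyClass P - 2, by omega⟩
  have h1 : (⊤ : Subgroup P).lowerCentralSeries (k + 2) = ⊥ :=
    Subgroup.lowerCentralSeries_eq_bot_iff_nilpotencyClass_le.2 hk.le
  have h2 : (Subgroup.normalClosure (E : Set P)).lowerCentralSeries (k + 1) = ⊥ :=
    le_bot_iff.1 (h1 ▸ lcs_normalClosure_le hE k)
  have h3 : (⊤ : Subgroup (Subgroup.normalClosure (E : Set P))).lowerCentralSeries (k + 1) = ⊥ := by
    rw [← Subgroup.map_subtype_inj, Subgroup.map_bot, Subgroup.top_subtype_lowerCentralSeries, h2]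
  have h4 := Subgroup.lowerCentralSeries_eq_bot_iff_nilpotencyClass_le.1 h3
  omega

/-- Let P be a non-abelian nilpotent p-group (every element of p-power order; P possibly infinite) generated by two abelian subgroups E and F. Then the normal closure of E in P, and likewise that of F, has nilpotency class strictly smaller than that of P. -/
theorem result {P : Type*} [Group P] {p : ℕ} [Fact p.Prime] (hP : IsPGroup p P) [Group.IsNilpotent P]
    (hna : ¬ IsMulCommutative P) {E F : Subgroup P} (hE : IsMulCommutative ↥E) (hF : IsMulCommutative ↥F) (hgen : E ⊔ F = ⊤) :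
    Group.nilpotencyClass ↥(Subgroup.normalClosure (E : Set P)) < Group.nilpotencyClass P ∧
    Group.nilpotencyClass ↥(Subgroup.normalClosure (F : Set P)) < Group.nilpotencyClass P :=
  ⟨half hna hE, half hna hF⟩

end Cfsg.Agent.S5067
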