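import Cfsg.Statements.S5068
import Cfsg.Agent.Lib.Helper50.QtMain

set_option autoImplicit false
universe u
open Cfsg

namespace Cfsg.Agent.S5068

/-- Let k be a field of characteristic not 2 with k not of order 3, M a finite-dimensional k-vector space and G ≤ GL(M) such that (G, M) is a quadratic pair (M irreducible for G, and G generated by its quadratically acting elements σ whose scalar family 1 + c(σ − 1), c ∈ k, lies in G). Write 𝒬_d for the quadratic elements of G of minimal commutator rank, E(σ) for the subgroup generated by the members of 𝒬_d with the same fixed space and commutator space as σ, and Σ for the set of these subgroups. Let E, F ∈ Σ generate a subgroup acting unipotently on M. Then either E and F commute elementwise, or L = ⁅E, F⁆ belongs to Σ, equals the subgroup generated by the commutators of e with F, and of E with f, for all non-identity e ∈ E, f ∈ F, the group ⟨E, F⟩ is nilpotent of class two, and ⟨E, F⟩ lies in U(L), the set of elements g of G normalizing L with (g − 1)M inside the fixed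 space of L, (g − 1) mapping that fixed space into the commutator space of L, and g acting trivially on the commutator space of L. -/
theorem result {k : Type u} [Field k] (hk2 : ringChar k ≠ 2) (hk3 : Nat.card k ≠ 3)
    {M : Type u} [AddCommGroup M] [Module k M] [FiniteDimensional k M]
    {G : Subgroup (LinearMap.GeneralLinearGroup k M)} (hG : Cfsg.IsQuadraticPair G)
    {E F : Subgroup (LinearMap.GeneralLinearGroup k M)} (hE : E ∈ Cfsg.quadraticRootSubgroups G) (hF : F ∈ Cfsg.quadraticRootSubgroups G)
    (hu : Cfsg.IsUnipotentOn (E ⊔ F)) :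
    ⁅E, F⁆ = ⊥ ∨
    (⁅E, F⁆ ∈ Cfsg.quadraticRootSubgroups G ∧
      (∀ e ∈ E, e ≠ 1 → Subgroup.closure ((fun f : LinearMap.GeneralLinearGroup k M => e * f * e⁻¹ * f⁻¹) '' (F : Set (LinearMap.GeneralLinearGroup k M))) = ⁅E, F⁆) ∧
      (∀ f ∈ F, f ≠ 1 → Subgroup.closure ((fun e : LinearMap.GeneralLinearGroup k M => e * f * e⁻¹ * f⁻¹) '' (E : Set (LinearMap.GeneralLinearGroup k M))) = ⁅E, F⁆) ∧
      ⁅E ⊔ F, E ⊔ F⁆ ≠ ⊥ ∧ ⁅⁅E ⊔ F, E ⊔ F⁆, E ⊔ F⁆ = ⊥ ∧
      ((E ⊔ F : Subgroup (LinearMap.GeneralLinearGroup k M)) : Set (LinearMap.GeneralLinearGroup k M)) ⊆ Cfsg.quadraticUnipotentCore G ⁅E, F⁆) := by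
  obtain ⟨σ, hσ, rfl⟩ := hE
  obtain ⟨τ, hτ, rfl⟩ := hF
  exact Cfsg.Agent.Lib.Helper50.QT.main68 hk2 hk3 hG hσ hτ hu

end Cfsg.Agent.S5068
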