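import Cfsg.Statements.S5070
import Cfsg.Agent.Lib.Helper87.SpRoot

set_option autoImplicit false
open Matrix
open Cfsg

namespace Cfsg.Agent.S5070

/-- Let F be a field, m a natural number and V = F^{2(m+1)} with the standard non-degenerate alternating form f(u, v) = uᵀ J v. For a non-zero vector p let T(p) be the group of symplectic transvections v ↦ v + c f(v, p) p, c ∈ F. Then the subgroups T(p), p ≠ 0, generate the symplectic group Sp_{2(m+1)}(F) and form a degenerate class of abstract F-root subgroups of it (any two of them either commute elementwise or are the unipotent subgroups of a rank one group that is an image of SL₂(F) with central kernel, never the commutator case), and their graph of rank one pairs is connected. -/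
theorem result (F : Type*) [Field F] (m : ℕ) :
    Cfsg.IsRootSubgroupClass {A : Subgroup ↥(Matrix.symplecticGroup (Fin (m + 1)) F) | ∃ p : Fin (m + 1) ⊕ Fin (m + 1) → F, p ≠ 0 ∧
        A = Subgroup.closure {g : ↥(Matrix.symplecticGroup (Fin (m + 1)) F) | ∃ c : F, ∀ v : Fin (m + 1) ⊕ Fin (m + 1) → F,
          (g : Matrix (Fin (m + 1) ⊕ Fin (m + 1)) (Fin (m + 1) ⊕ Fin (m + 1)) F) *ᵥ v =
            v + (c * (v ⬝ᵥ (Matrix.J (Fin (m + 1)) F *ᵥ p))) • p}} ∧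
    Cfsg.IsDegenerateRootSet {A : Subgroup ↥(Matrix.symplecticGroup (Fin (m + 1)) F) | ∃ p : Fin (m + 1) ⊕ Fin (m + 1) → F, p ≠ 0 ∧
        A = Subgroup.closure {g : ↥(Matrix.symplecticGroup (Fin (m + 1)) F) | ∃ c : F, ∀ v : Fin (m + 1) ⊕ Fin (m + 1) → F,
          (g : Matrix (Fin (m + 1) ⊕ Fin (m + 1)) (Fin (m + 1) ⊕ Fin (m + 1)) F) *ᵥ v =
            v + (c * (v ⬝ᵥ (Matrix.J (Fin (m + 1)) F *ᵥ p))) • p}} ∧
    Cfsg.IsKRootSubgroupSet F {A : Subgroup ↥(Matrix.symplecticGroup (Fin (m + 1)) F) | ∃ p : Fin (m + 1) ⊕ Fin (m + 1) → F, p ≠ 0 ∧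
        A = Subgroup.closure {g : ↥(Matrix.symplecticGroup (Fin (m + 1)) F) | ∃ c : F, ∀ v : Fin (m + 1) ⊕ Fin (m + 1) → F,
          (g : Matrix (Fin (m + 1) ⊕ Fin (m + 1)) (Fin (m + 1) ⊕ Fin (m + 1)) F) *ᵥ v =
            v + (c * (v ⬝ᵥ (Matrix.J (Fin (m + 1)) F *ᵥ p))) • p}} ∧
    Cfsg.IsConnectedFamily (Cfsg.FAdj {A : Subgroup ↥(Matrix.symplecticGroup (Fin (m + 1)) F) | ∃ p : Fin (m + 1) ⊕ Fin (m + 1) → F, p ≠ 0 ∧
        A = Subgroup.closure {g : ↥(Matrix.symplecticGroup (Fin (m + 1)) F) | ∃ c : F, ∀ v : Fin (m + 1) ⊕ Fin (m + 1) → F,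
          (g : Matrix (Fin (m + 1) ⊕ Fin (m + 1)) (Fin (m + 1) ⊕ Fin (m + 1)) F) *ᵥ v =
            v + (c * (v ⬝ᵥ (Matrix.J (Fin (m + 1)) F *ᵥ p))) • p}})
      {A : Subgroup ↥(Matrix.symplecticGroup (Fin (m + 1)) F) | ∃ p : Fin (m + 1) ⊕ Fin (m + 1) → F, p ≠ 0 ∧
        A = Subgroup.closure {g : ↥(Matrix.symplecticGroup (Fin (m + 1)) F) | ∃ c : F, ∀ v : Fin (m + 1) ⊕ Fin (m + 1) → F,
          (g : Matrix (Fin (m + 1) ⊕ Fin (m + 1)) (Fin (m + 1) ⊕ Fin (m + 1)) F) *ᵥ v =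
            v + (c * (v ⬝ᵥ (Matrix.J (Fin (m + 1)) F *ᵥ p))) • p}} :=
  Cfsg.Agent.Lib.Helper87.sp_root_statement F m

end Cfsg.Agent.S5070
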