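import Cfsg.Statements.S5078
import Cfsg.Agent.Lib.Helper87.FusionBasic

set_option autoImplicit false
open Cfsg

namespace Cfsg.Agent.S5078

open Cfsg.Agent.Lib.Helper87

/-- In any fusion system over a finite subgroup S, a receptive subgroup is fully centralized. -/
theorem result {Ω : Type*} [Group Ω] {S : Subgroup Ω} [Finite S] (F : Cfsg.FusionSystem S) (P : Subgroup Ω) (hP : F.IsReceptive P) : F.IsFullyCentralized P := by
  refine ⟨hP.1, ?_⟩
  intro Q hQ
  obtain ⟨e, he⟩ := (isConj_iff F).1 hQ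
  -- the inverse isomorphism Q → P
  have hes : IsIso F e.symm := he.symm
  have key := hP.2 Q _ hes hes.range_eq
  have hQN := le_extender F hes
  have hCN := centralizerIn_le_extender S Q (P.subtype.comp e.symm.toMonoidHom)
  generalize Cfsg.FusionSystem.extender S Q (P.subtype.comp e.symm.toMonoidHom) = N at key hQN hCN
  obtain ⟨χ, hχ, hχe⟩ := key
  have hmem : ∀ x : Cfsg.FusionSystem.centralizerIn S Q,
      χ ⟨x, hCN x.2⟩ ∈ Cfsg.FusionSystem.centralizerIn S P := by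
    intro x
    rw [mem_centralizerIn_iff]
    refine ⟨hom_mem F hχ _, ?_⟩
    intro y hy
    -- y = χ (e y)
    have h1 : χ ⟨(e ⟨y, hy⟩ : Ω), hQN (e ⟨y, hy⟩).2⟩ = y := by
      rw [hχe _ (e ⟨y, hy⟩).2 (hQN (e ⟨y, hy⟩).2)]
      simp
    have hxc : (x : Ω) ∈ Subgroup.centralizer (Q : Set Ω) := x.2.2
    have h2 := Subgroup.mem_centralizer_iff.1 hxc _ (e ⟨y, hy⟩).2
    have h3 : (⟨(e ⟨y, hy⟩ : Ω), hQN (e ⟨y, hy⟩).2⟩ : N) * ⟨x, hCN x.2⟩ =
        ⟨x, hCN x.2⟩ * ⟨(e ⟨y, hy⟩ : Ω), hQN (e ⟨y, hy⟩).2⟩ := Subtype.ext h2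
    have h4 := congrArg χ h3
    rw [map_mul, map_mul, h1] at h4
    exact h4
  have : Finite (Cfsg.FusionSystem.centralizerIn S P) := finite_of_le (centralizerIn_le S P)
  refine Nat.card_le_card_of_injective
    (fun x : Cfsg.FusionSystem.centralizerIn S Q =>
      (⟨χ ⟨x, hCN x.2⟩, hmem x⟩ : Cfsg.FusionSystem.centralizerIn S P)) ?_
  intro a b hab
  have h1 : χ ⟨a, hCN a.2⟩ = χ ⟨b, hCN b.2⟩ := congrArg Subtype.val hab
  have h2 := F.injective_of_mem hχ h1
  exact Subtype.ext (congrArg (fun t : N => (t : Ω)) h2)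

end Cfsg.Agent.S5078
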