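import Cfsg.Statements.S5085
import Mathlib

set_option autoImplicit false
open Cfsg

namespace Cfsg.Agent.S5085

variable {Ω : Type*} [Group Ω] {S : Subgroup Ω}

theorem restrict_mem (F : Cfsg.FusionSystem S) {P R : Subgroup Ω} {φ : P →* Ω} (hφ : φ ∈ F.Hom P)
    (h : R ≤ P) : φ.comp (Subgroup.inclusion h) ∈ F.Hom R := by
  have hPS : P ≤ S := (F.le_of_mem hφ).1
  have h1 : Cfsg.conjHom R 1 ∈ F.Hom R := F.conj_mem (h.trans hPS) S.one_mem
  have h2 : ∀ x : R, Cfsg.conjHom R 1 x ∈ P := by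
    intro x
    simp only [Cfsg.conjHom, MonoidHom.coe_comp, Function.comp_apply, Subgroup.coe_subtype,
      MulEquiv.coe_toMonoidHom, MulAut.conj_apply, one_mul, inv_one, mul_one]
    exact h x.2
  have h3 := F.comp_mem h1 hφ h2
  have h4 : φ.comp ((Cfsg.conjHom R 1).codRestrict P h2) = φ.comp (Subgroup.inclusion h) := by
    ext x
    simp only [MonoidHom.coe_comp, Function.comp_apply]
    congr 1
    apply Subtype.ext
    simp [Cfsg.conjHom]
  rw [h4] at h3
  exact h3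

theorem result {Ω : Type*} [Group Ω] {S : Subgroup Ω} (F : Cfsg.FusionSystem S) (Q U : Subgroup Ω) (hQ : F.IsNormal Q) (hUQ : U ≤ Q) (hU : (U.subgroupOf Q).Characteristic) : F.IsNormal U := by
  refine ⟨hUQ.trans hQ.1, ?_⟩
  intro P φ hφ
  obtain ⟨ψ, hψ, hψP, hψQ⟩ := hQ.2 P φ hφ
  have hle : P ⊔ U ≤ P ⊔ Q := sup_le_sup_left hUQ P
  have hQle : Q ≤ P ⊔ Q := le_sup_right
  refine ⟨ψ.comp (Subgroup.inclusion hle), restrict_mem F hψ hle, ?_, ?_⟩
  · intro x
    exact hψP x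
  · -- ψ restricted to Q is an automorphism of Q
    have hinj : Function.Injective ψ := F.injective_of_mem hψ
    have hmem : ∀ y : Ω, y ∈ Q ↔ ∃ x : Ω, ∃ hx : x ∈ Q, ψ ⟨x, hQle hx⟩ = y := by
      intro y
      constructor
      · intro hy
        have hy' : y ∈ (Q.subgroupOf (P ⊔ Q)).map ψ := by rw [hψQ]; exact hy
        obtain ⟨z, hz, hzy⟩ := hy'
        exact ⟨z, hz, hzy⟩
      · rintro ⟨x, hx, rfl⟩
        have : ψ ⟨x, hQle hx⟩ ∈ (Q.subgroupOf (P ⊔ Q)).map ψ := ⟨⟨x, hQle hx⟩, hx, rfl⟩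
        rw [hψQ] at this
        exact this
    let f : Q →* Q :=
      (ψ.comp (Subgroup.inclusion hQle)).codRestrict Q (fun x => (hmem _).2 ⟨x, x.2, rfl⟩)
    have hf : ∀ x : Q, ((f x : Q) : Ω) = ψ ⟨x, hQle x.2⟩ := fun x => rfl
    have hf_inj : Function.Injective f := by
      intro a b hab
      have h1 : ψ ⟨a, hQle a.2⟩ = ψ ⟨b, hQle b.2⟩ := by
        rw [← hf, ← hf, hab]
      have h2 := hinj h1
      apply Subtype.ext
      exact congrArg (fun t : ↥(P ⊔ Q) => (t : Ω)) h2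
    have hf_surj : Function.Surjective f := by
      intro y
      obtain ⟨x, hx, hxy⟩ := (hmem y).1 y.2
      refine ⟨⟨x, hx⟩, ?_⟩
      apply Subtype.ext
      rw [hf]
      exact hxy
    let α : MulAut Q := MulEquiv.ofBijective f ⟨hf_inj, hf_surj⟩
    have hα : ∀ x : Q, ((α x : Q) : Ω) = ψ ⟨x, hQle x.2⟩ := fun x => rfl
    have hchar : ∀ x : Q, α x ∈ U.subgroupOf Q ↔ x ∈ U.subgroupOf Q := by
      intro x
      have := (Subgroup.characteristic_iff_comap_eq.mp hU) α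
      constructor
      · intro hx
        rw [← this]
        exact hx
      · intro hx
        rw [← this] at hx
        exact hx
    ext y
    constructor
    · rintro ⟨z, hz, rfl⟩
      have hzU : (z : Ω) ∈ U := hz
      have hzQ : (z : Ω) ∈ Q := hUQ hzU
      have := (hchar ⟨z, hzQ⟩).2 hzU
      have h2 : ((α ⟨z, hzQ⟩ : Q) : Ω) ∈ U := this
      rw [hα] at h2
      exact h2
    · intro hy
      have hyQ : y ∈ Q := hUQ hy
      obtain ⟨x, hx⟩ := hf_surj ⟨y, hyQ⟩
      have hxy : ((α x : Q) : Ω) = y := congrArg Subtype.val hx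
      have hxU : x ∈ U.subgroupOf Q := by
        rw [← hchar x]
        show ((α x : Q) : Ω) ∈ U
        rw [hxy]
        exact hy
      have hxU' : (x : Ω) ∈ U := hxU
      refine ⟨⟨x, (le_sup_right : U ≤ P ⊔ U) hxU'⟩, hxU', ?_⟩
      rw [← hxy, hα]
      rfl

end Cfsg.Agent.S5085
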