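import Cfsg.Statements.S5089
import Cfsg.Agent.Lib.Helper87.Fusion9

set_option autoImplicit false
open Cfsg

namespace Cfsg.Agent.S5089

/-- A saturated fusion system over a finite p-group has a nontrivial subgroup that is normal in the system (O_p(F) ≠ 1) if and only if some nontrivial abelian subgroup is strongly closed in the system. -/
theorem result {Ω : Type*} [Group Ω] {S : Subgroup Ω} [Finite S] (p : ℕ) [Fact p.Prime] (hS : IsPGroup p S) (F : Cfsg.FusionSystem S) (hF : F.IsSaturated p) : F.core ≠ ⊥ ↔ ∃ Q : Subgroup Ω, Q ≠ ⊥ ∧ IsMulCommutative Q ∧ F.StronglyClosed Q :=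
  Cfsg.Agent.Lib.Helper87.core_ne_bot_iff p hS F hF

end Cfsg.Agent.S5089
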