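import Cfsg.Statements.S5104
import Mathlib

set_option autoImplicit false
open Cfsg

namespace Cfsg.Agent.S5104

theorem finite_of_le {Ω : Type*} [Group Ω] {S : Subgroup Ω} [Finite S] {K : Subgroup Ω} (h : K ≤ S) : Finite K :=
  Finite.of_injective (Subgroup.inclusion h) (Subgroup.inclusion_injective h)

/-- In a saturated fusion system over a finite p-group S, a fully centralized subgroup U with C_S(U) ≤ U is centric. -/
theorem result {Ω : Type*} [Group Ω] {S : Subgroup Ω} [Finite S] (p : ℕ) [Fact p.Prime] (hS : IsPGroup p S) (F : Cfsg.FusionSystem S) (hF : F.IsSaturated p) (U : Subgroup Ω) (hU : F.IsFullyCentralized U) (hC : Cfsg.FusionSystem.centralizerIn S U ≤ U) : F.IsCentric U := by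
  refine ⟨hU.1, ?_⟩
  rintro Q ⟨φ, hφ, rfl⟩
  have hQS : φ.range ≤ S := by
    rintro _ ⟨x, rfl⟩
    exact (F.le_of_mem hφ).2 x
  have hinj := F.injective_of_mem hφ
  -- centre of U
  have hCU : FusionSystem.centralizerIn S U = U ⊓ Subgroup.centralizer (U : Set Ω) := by
    apply le_antisymm
    · exact le_inf hC inf_le_right
    · exact inf_le_inf_right _ hU.1
  have hZQ : φ.range ⊓ Subgroup.centralizer (φ.range : Set Ω) ≤ FusionSystem.centralizerIn S φ.range :=
    inf_le_inf_right _ hQS
  have himg : φ.range ⊓ Subgroup.centralizer (φ.range : Set Ω) =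
      ((U ⊓ Subgroup.centralizer (U : Set Ω)).subgroupOf U).map φ := by
    ext y
    constructor
    · rintro ⟨⟨x, rfl⟩, hy⟩
      refine ⟨x, Subgroup.mem_subgroupOf.mpr ⟨x.2, ?_⟩, rfl⟩
      intro u hu
      have := hy (φ ⟨u, hu⟩) ⟨⟨u, hu⟩, rfl⟩
      rw [← map_mul, ← map_mul] at this
      have h2 := hinj this
      exact congrArg Subtype.val h2
    · rintro ⟨x, hx, rfl⟩
      have hx := Subgroup.mem_subgroupOf.mp hx
      refine ⟨⟨x, rfl⟩, ?_⟩
      rintro _ ⟨u, rfl⟩
      rw [← map_mul, ← map_mul]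
      congr 1
      apply Subtype.ext
      exact hx.2 u u.2
  have hcard1 : Nat.card ↥(((U ⊓ Subgroup.centralizer (U : Set Ω)).subgroupOf U).map φ) =
      Nat.card ↥(U ⊓ Subgroup.centralizer (U : Set Ω)) := by
    rw [Subgroup.card_map_of_injective hinj]
    exact Nat.card_congr (Subgroup.subgroupOfEquivOfLe inf_le_left).toEquiv
  have hle := hU.2 φ.range ⟨φ, hφ, rfl⟩
  rw [hCU, ← hcard1, ← himg] at hle
  have : Finite ↥(FusionSystem.centralizerIn S φ.range) := finite_of_le inf_le_left
  have heq := Subgroup.eq_of_le_of_card_ge hZQ hle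
  rw [← heq]
  exact inf_le_left

end Cfsg.Agent.S5104
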