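import Cfsg.Statements.S5106
import Cfsg.Agent.Lib.Helper88.FusExt

set_option autoImplicit false
open Cfsg

namespace Cfsg.Agent.S5106

open Cfsg.FusionSystem Cfsg.Agent.Lib.Helper90 Cfsg.Agent.Lib.Helper88

/-- The automorphisms in `Aut_F(P)` acting trivially modulo `R` and acting on `P ∩ R` as
conjugation by an element of `R`. -/
def bSub {Ω : Type*} [Group Ω] {S : Subgroup Ω} (F : FusionSystem S) (R P : Subgroup Ω) :
    Subgroup (MulAut P) where
  carrier := {κ | κ ∈ F.autGroup P ∧ (∀ x : P, (x : Ω)⁻¹ * ((κ x : P) : Ω) ∈ R) ∧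
    ∃ n ∈ R, ∀ z : P, (z : Ω) ∈ R → ((κ z : P) : Ω) = n * z * n⁻¹}
  mul_mem' := by
    rintro κ κ' ⟨h1, h2, n, hn, h3⟩ ⟨h1', h2', n', hn', h3'⟩
    refine ⟨(F.autGroup P).mul_mem h1 h1', fun x => ?_, n * n', R.mul_mem hn hn', fun z hz => ?_⟩
    · have e : (x : Ω)⁻¹ * (((κ * κ') x : P) : Ω) =
          ((x : Ω)⁻¹ * ((κ' x : P) : Ω)) * (((κ' x : P) : Ω)⁻¹ * ((κ (κ' x) : P) : Ω)) := by
        rw [MulAut.mul_apply]; group
      rw [e]
      exact R.mul_mem (h2' x) (h2 (κ' x))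
    · have hz' : ((κ' z : P) : Ω) ∈ R := by
        rw [h3' z hz]
        exact R.mul_mem (R.mul_mem hn' hz) (R.inv_mem hn')
      rw [MulAut.mul_apply, h3 _ hz', h3' z hz]
      group
  one_mem' := ⟨(F.autGroup P).one_mem, fun x => by simp, 1, R.one_mem, fun z _ => by simp⟩
  inv_mem' := by
    rintro κ ⟨h1, h2, n, hn, h3⟩
    refine ⟨(F.autGroup P).inv_mem h1, fun x => ?_, n⁻¹, R.inv_mem hn, fun z hz => ?_⟩
    · have h := h2 (κ⁻¹ x)
      have e : κ (κ⁻¹ x) = x := by simp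
      rw [e] at h
      have := R.inv_mem h
      simpa using this
    · have h := h2 (κ⁻¹ z)
      have e : κ (κ⁻¹ z) = z := by simp
      rw [e] at h
      have hw : ((κ⁻¹ z : P) : Ω) ∈ R := by
        have := R.mul_mem hz (R.inv_mem h)
        simpa using this
      have h4 := h3 _ hw
      rw [e] at h4
      rw [h4]; group

theorem mem_bSub {Ω : Type*} [Group Ω] {S : Subgroup Ω} (F : FusionSystem S) (R P : Subgroup Ω)
    (κ : MulAut P) : κ ∈ bSub F R P ↔ κ ∈ F.autGroup P ∧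
      (∀ x : P, (x : Ω)⁻¹ * ((κ x : P) : Ω) ∈ R) ∧
      ∃ n ∈ R, ∀ z : P, (z : Ω) ∈ R → ((κ z : P) : Ω) = n * z * n⁻¹ := Iff.rfl

/-- In a saturated fusion system over a finite p-group S, a subgroup R ≤ S is normal in the system if and only if every map of the system whose source is a subgroup of R is the restriction of an element of Aut_F(R). -/
theorem result {Ω : Type*} [Group Ω] {S : Subgroup Ω} [Finite S] (p : ℕ) [Fact p.Prime] (hS : IsPGroup p S) (F : Cfsg.FusionSystem S) (hF : F.IsSaturated p) (R : Subgroup Ω) (hRS : R ≤ S) : F.IsNormal R ↔ ∀ (P : Subgroup Ω) (hPR : P ≤ R) (φ : P →* Ω), φ ∈ F.Hom P → ∃ α ∈ F.autGroup R, ∀ x : P, ((α (Subgroup.inclusion hPR x) : R) : Ω) = φ x := by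
  have hRfin : Finite R := finite_of_le hRS
  constructor
  · intro hN P hPR φ hφ
    obtain ⟨f', hf', hf'P, hf'R⟩ := extQ_of_isNormal hN (mor_of_hom hφ)
    obtain ⟨α, hα, hαf⟩ := exists_aut_of_mor (hf'.restrict (le_sup_right : R ≤ P ⊔ R)) hf'R
    refine ⟨α, hα, fun x => ?_⟩
    rw [hαf]
    show f' (x : Ω) = φ x
    rw [hf'P x x.2, extFun_apply]
  · intro H
    -- function-level form of the hypothesis
    have H' : ∀ (P : Subgroup Ω) (hPR : P ≤ R) (f : Ω → Ω), Mor F P f →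
        ∃ α ∈ F.autGroup R, ∀ (x : Ω) (hx : x ∈ P), ((α ⟨x, hPR hx⟩ : R) : Ω) = f x := by
      intro P hPR f hf
      obtain ⟨φ, hφ, hφf⟩ := hf
      obtain ⟨α, hα, hαφ⟩ := H P hPR φ hφ
      refine ⟨α, hα, fun x hx => ?_⟩
      rw [← hφf ⟨x, hx⟩, ← hαφ ⟨x, hx⟩]
      rfl
    have hsc : F.StronglyClosed R := by
      refine ⟨hRS, fun P hPR φ hφ x => ?_⟩
      obtain ⟨α, -, hαφ⟩ := H P hPR φ hφ
      rw [← hαφ x]
      exact (α _).2
    obtain ⟨k, hk⟩ := IsPGroup.iff_card.mp hS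
    refine isNormal_of_normal_pSubgroups hS hF hsc (fun P => bSub F R P) ?_ ?_ ?_ ?_
    · -- p-group
      intro P hP
      rintro ⟨κ, hκ⟩
      refine ⟨k + k, ?_⟩
      apply Subtype.ext
      show κ ^ (p ^ (k + k)) = 1
      rw [pow_add, ← hk, pow_mul]
      obtain ⟨h1, h2, n, hn, h3⟩ := (mem_bSub F R P κ).mp hκ
      have hκN : κ ^ Nat.card S ∈ bSub F R P := (bSub F R P).pow_mem hκ _
      obtain ⟨-, h2', -⟩ := (mem_bSub F R P _).mp hκN
      have hfix : ∀ z : P, (z : Ω) ∈ R → (κ ^ Nat.card S) z = z := by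
        intro z hz
        apply Subtype.ext
        rw [aut_pow_conj' κ R n hn h3 (Nat.card S) z hz, pow_card_eq_one_of_mem (hRS hn)]
        simp
      ext x
      rw [aut_pow_fix (κ ^ Nat.card S) R (Nat.card S) x (h2' x) hfix
        (fun z _ => pow_card_eq_one_sub hP z)]
      rfl
    · intro P hP κ hκ
      exact hκ.1
    · -- normality
      intro P hP α hα κ hκ
      obtain ⟨h1, h2, n, hn, h3⟩ := (mem_bSub F R P κ).mp hκ
      have hαinv : α⁻¹ ∈ F.autGroup P := (F.autGroup P).inv_mem hα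
      have hmor : Mor F P (autFun P α) := (mem_autGroup_iff F hP α).mp hα
      obtain ⟨αh, hαh, hαhα⟩ := H' (P ⊓ R) inf_le_right _ (hmor.restrict inf_le_left)
      rw [mem_bSub]
      refine ⟨(F.autGroup P).mul_mem ((F.autGroup P).mul_mem hα h1) hαinv, fun x => ?_,
        ((αh ⟨n, hn⟩ : R) : Ω), (αh ⟨n, hn⟩).2, fun z hz => ?_⟩
      · have e : (x : Ω)⁻¹ * (((α * κ * α⁻¹) x : P) : Ω) =
            ((α ((α⁻¹ x)⁻¹ * κ (α⁻¹ x)) : P) : Ω) := by
          show (x : Ω)⁻¹ * ((α (κ (α⁻¹ x)) : P) : Ω) = _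
          rw [map_mul, map_inv]
          simp
        rw [e]
        exact sc_aut hsc hP hα _ (h2 _)
      · have hw : ((α⁻¹ z : P) : Ω) ∈ R := sc_aut hsc hP hαinv z hz
        have h4 := h3 _ hw
        have hκw : ((κ (α⁻¹ z) : P) : Ω) ∈ R := by
          rw [h4]
          exact R.mul_mem (R.mul_mem hn hw) (R.inv_mem hn)
        have h5 := hαhα _ ⟨(κ (α⁻¹ z)).2, hκw⟩
        rw [autFun_apply] at h5
        have h6 := hαhα _ ⟨(α⁻¹ z).2, hw⟩
        rw [autFun_apply] at h6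
        have h7 : α (α⁻¹ z) = z := by simp
        rw [h7] at h6
        show ((α (κ (α⁻¹ z)) : P) : Ω) = _
        rw [← h5, ← h6]
        have h8 : (⟨((κ (α⁻¹ z) : P) : Ω), hκw⟩ : R) = ⟨n, hn⟩ * ⟨((α⁻¹ z : P) : Ω), hw⟩ * ⟨n, hn⟩⁻¹ := by
          apply Subtype.ext
          rw [h4]
          rfl
        have h9 : (⟨((κ (α⁻¹ z) : P) : Ω), inf_le_right (a := P) ⟨(κ (α⁻¹ z)).2, hκw⟩⟩ : R) = ⟨((κ (α⁻¹ z) : P) : Ω), hκw⟩ := rfl
        rw [h9, h8, map_mul, map_mul, map_inv]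
        rfl
    · -- conjugations
      intro P hP a haR haN γ hγ
      obtain ⟨γ', hγ', hγ'a⟩ := exists_conjAut F hP (hRS haR) haN
      have e : γ = γ' := by
        ext x
        rw [hγ, hγ'a]
      rw [mem_bSub]
      refine ⟨e ▸ hγ', fun x => ?_, a, haR, fun z _ => hγ z⟩
      rw [hγ]
      have h1 : (x : Ω)⁻¹ * a * (x : Ω)⁻¹⁻¹ ∈ R := sc_conj hsc (S.inv_mem (hP x.2)) haR
      have e2 : (x : Ω)⁻¹ * (a * x * a⁻¹) = ((x : Ω)⁻¹ * a * (x : Ω)⁻¹⁻¹) * a⁻¹ := by group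
      rw [e2]
      exact R.mul_mem h1 (R.inv_mem haR)

end Cfsg.Agent.S5106
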