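import Cfsg.Statements.S5107
import Cfsg.Agent.Lib.Helper88.GrpSyl
import Cfsg.Agent.Lib.Helper88.FusExt

set_option autoImplicit false
open Cfsg

namespace Cfsg.Agent.S5107

open Cfsg.Agent.Lib.Helper88
open scoped commutatorElement

variable {G : Type*} [Group G]

/-- The elements normalizing `Q`, centralizing `Z` and acting trivially on `Q` modulo `Z`. -/
def stabSub (Q Z : Subgroup G) : Subgroup G where
  carrier := {k | k ∈ Subgroup.normalizer (Q : Set G) ∧ (∀ z ∈ Z, k * z * k⁻¹ = z) ∧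
    ∀ y ∈ Q, k * y * k⁻¹ * y⁻¹ ∈ Z}
  mul_mem' := by
    rintro k₁ k₂ ⟨h1, h2, h3⟩ ⟨h1', h2', h3'⟩
    refine ⟨Subgroup.mul_mem _ h1 h1', fun z hz => ?_, fun y hy => ?_⟩
    · have e : k₁ * k₂ * z * (k₁ * k₂)⁻¹ = k₁ * (k₂ * z * k₂⁻¹) * k₁⁻¹ := by group
      rw [e, h2' z hz, h2 z hz]
    · have hw := h3' y hy
      have e : k₁ * k₂ * y * (k₁ * k₂)⁻¹ * y⁻¹ =
          (k₁ * (k₂ * y * k₂⁻¹ * y⁻¹) * k₁⁻¹) * (k₁ * y * k₁⁻¹ * y⁻¹) := by group
      rw [e, h2 _ hw]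
      exact Z.mul_mem hw (h3 y hy)
  one_mem' := by
    refine ⟨Subgroup.one_mem _, fun z _ => by simp, fun y _ => ?_⟩
    simp
  inv_mem' := by
    rintro k ⟨h1, h2, h3⟩
    refine ⟨Subgroup.inv_mem _ h1, fun z hz => ?_, fun y hy => ?_⟩
    · conv_lhs => rw [← h2 z hz]
      group
    · have hy' : k⁻¹ * y * k ∈ Q := inv_conj_mem_of_mem_normalizer h1 hy
      have hw := h3 _ hy'
      have e : k⁻¹ * y * k⁻¹⁻¹ * y⁻¹ = (k * (k⁻¹ * y * k) * k⁻¹ * (k⁻¹ * y * k)⁻¹)⁻¹ := by group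
      rw [e]
      exact Z.inv_mem hw

theorem mem_stabSub {Q Z : Subgroup G} {k : G} : k ∈ stabSub Q Z ↔
    k ∈ Subgroup.normalizer (Q : Set G) ∧ (∀ z ∈ Z, k * z * k⁻¹ = z) ∧
      ∀ y ∈ Q, k * y * k⁻¹ * y⁻¹ ∈ Z := Iff.rfl

theorem stab_pow {Q Z : Subgroup G} {k : G} (hk : k ∈ stabSub Q Z) {y : G} (hy : y ∈ Q) (j : ℕ) :
    k ^ j * y * (k ^ j)⁻¹ = (k * y * k⁻¹ * y⁻¹) ^ j * y := by
  obtain ⟨h1, h2, h3⟩ := hk
  induction j with
  | zero => simp
  | succ j ih =>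
    have hw : (k * y * k⁻¹ * y⁻¹) ^ j ∈ Z := Z.pow_mem (h3 y hy) j
    have e : k ^ (j + 1) * y * (k ^ (j + 1))⁻¹ = k * (k ^ j * y * (k ^ j)⁻¹) * k⁻¹ := by
      rw [pow_succ']; group
    have e2 : k * ((k * y * k⁻¹ * y⁻¹) ^ j * y) * k⁻¹ =
        (k * (k * y * k⁻¹ * y⁻¹) ^ j * k⁻¹) * (k * y * k⁻¹ * y⁻¹) * y := by group
    rw [e, ih, e2, h2 _ hw, ← pow_succ]

variable [Finite G] {p : ℕ} [Fact p.Prime]

/-- Step 1: fusion in `S` is controlled by the normalizer of the strongly closed centre. -/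
theorem step1 (S : Sylow p G)
    (hZ : Cfsg.IsStronglyClosed ((S : Subgroup G) ⊓ Subgroup.centralizer ((S : Subgroup G) : Set G))
      (S : Subgroup G)) {P : Subgroup G} (hP : P ≤ (S : Subgroup G)) {g : G}
    (hg : ∀ x ∈ P, g * x * g⁻¹ ∈ (S : Subgroup G)) :
    ∃ n : G, n ∈ Subgroup.normalizer
        ((((S : Subgroup G) ⊓ Subgroup.centralizer ((S : Subgroup G) : Set G) : Subgroup G)) : Set G) ∧
      ∀ x ∈ P, n * x * n⁻¹ = g * x * g⁻¹ := by
  set Z : Subgroup G := (S : Subgroup G) ⊓ Subgroup.centralizer ((S : Subgroup G) : Set G) with hZdef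
  have hZp : IsPGroup p Z := S.isPGroup'.to_le inf_le_left
  have hZcomm : ∀ z ∈ Z, ∀ s ∈ (S : Subgroup G), s * z = z * s := fun z hz s hs =>
    Subgroup.mem_centralizer_iff.mp hz.2 s hs
  let C : Subgroup G := Subgroup.centralizer (P : Set G)
  have hZC : Z ≤ C := fun z hz =>
    Subgroup.mem_centralizer_iff.mpr (fun x hx => hZcomm z hz x (hP hx))
  let W : Subgroup G := Z.map (MulAut.conj g⁻¹).toMonoidHom
  have hWp : IsPGroup p W := hZp.map _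
  have hWC : W ≤ C := by
    rintro _ ⟨z, hz, rfl⟩
    refine Subgroup.mem_centralizer_iff.mpr (fun x hx => ?_)
    have h1 := hZcomm z hz _ (hg x hx)
    show x * (g⁻¹ * z * g⁻¹⁻¹) = (g⁻¹ * z * g⁻¹⁻¹) * x
    have e1 : x * (g⁻¹ * z * g⁻¹⁻¹) = g⁻¹ * (g * x * g⁻¹ * z) * g := by group
    have e2 : (g⁻¹ * z * g⁻¹⁻¹) * x = g⁻¹ * (z * (g * x * g⁻¹)) * g := by group
    rw [e1, e2, h1]
  obtain ⟨c, hc, T, hT, hZT, hWT⟩ := exists_common_pSubgroup C Z W hZp hWp hZC hWC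
  obtain ⟨h, hh⟩ := exists_conj_le_sylow S T hT
  have hhN : h ∈ Subgroup.normalizer (Z : Set G) :=
    mem_normalizer_of_conj_le Z (fun z hz => hZ.2 z hz h (hh z (hZT hz)))
  have haN : h * c * g⁻¹ ∈ Subgroup.normalizer (Z : Set G) := by
    apply mem_normalizer_of_conj_le Z
    intro z hz
    have h1 : c * (g⁻¹ * z * g⁻¹⁻¹) * c⁻¹ ∈ T := hWT _ ⟨z, hz, rfl⟩
    have h2 := hh _ h1
    have e : h * c * g⁻¹ * z * (h * c * g⁻¹)⁻¹ = h * (c * (g⁻¹ * z * g⁻¹⁻¹) * c⁻¹) * h⁻¹ := by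
      group
    have h3 : h * c * g⁻¹ * z * (h * c * g⁻¹)⁻¹ ∈ (S : Subgroup G) := by
      rw [e]
      exact h2
    exact hZ.2 z hz (h * c * g⁻¹) h3
  refine ⟨g * c⁻¹, ?_, fun x hx => ?_⟩
  · have e : g * c⁻¹ = (h⁻¹ * (h * c * g⁻¹))⁻¹ := by group
    rw [e]
    exact Subgroup.inv_mem _ (Subgroup.mul_mem _ (Subgroup.inv_mem _ hhN) haN)
  · have h1 : x * c = c * x := Subgroup.mem_centralizer_iff.mp hc x hx
    have e : g * c⁻¹ * x * (g * c⁻¹)⁻¹ = g * (c⁻¹ * (x * c)) * g⁻¹ := by group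
    rw [e, h1]
    group

/-- Steps 2 and 3: an element of the normalizer of the centre is replaced by an element of the
normalizer of `S`. -/
theorem step2 (S : Sylow p G)
    (hcl : ⁅(S : Subgroup G), (S : Subgroup G)⁆ ≤
      (S : Subgroup G) ⊓ Subgroup.centralizer ((S : Subgroup G) : Set G))
    {P : Subgroup G} (hP : P ≤ (S : Subgroup G)) {n : G}
    (hn : n ∈ Subgroup.normalizer
        ((((S : Subgroup G) ⊓ Subgroup.centralizer ((S : Subgroup G) : Set G) : Subgroup G)) : Set G))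
    (hnP : ∀ x ∈ P, n * x * n⁻¹ ∈ (S : Subgroup G)) :
    ∃ n₂ ∈ Subgroup.normalizer ((S : Subgroup G) : Set G), ∀ x ∈ P, n₂ * x * n₂⁻¹ = n * x * n⁻¹ := by
  set Z : Subgroup G := (S : Subgroup G) ⊓ Subgroup.centralizer ((S : Subgroup G) : Set G) with hZdef
  have hZS : Z ≤ (S : Subgroup G) := inf_le_left
  have hZcomm : ∀ z ∈ Z, ∀ s ∈ (S : Subgroup G), s * z = z * s := fun z hz s hs =>
    Subgroup.mem_centralizer_iff.mp hz.2 s hs
  have hZconj : ∀ z ∈ Z, ∀ s ∈ (S : Subgroup G), s * z * s⁻¹ = z := by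
    intro z hz s hs
    rw [hZcomm z hz s hs]
    group
  have hcomm : ∀ s ∈ (S : Subgroup G), ∀ y ∈ (S : Subgroup G), s * y * s⁻¹ * y⁻¹ ∈ Z := by
    intro s hs y hy
    have := hcl (Subgroup.commutator_mem_commutator hs hy)
    rwa [commutatorElement_def] at this
  set PZ : Subgroup G := P ⊔ Z with hPZ
  have hPZS : PZ ≤ (S : Subgroup G) := sup_le hP hZS
  set Q : Subgroup G := PZ.map (MulAut.conj n).toMonoidHom with hQ
  have hmemQ : ∀ y ∈ PZ, n * y * n⁻¹ ∈ Q := fun y hy => ⟨y, hy, rfl⟩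
  have hZQ : Z ≤ Q := by
    intro z hz
    have h1 : n⁻¹ * z * n ∈ Z := inv_conj_mem_of_mem_normalizer hn hz
    have e : z = n * (n⁻¹ * z * n) * n⁻¹ := by group
    rw [e]
    exact hmemQ _ (Subgroup.mem_sup_right h1)
  have hQS : Q ≤ (S : Subgroup G) := by
    rw [hQ, Subgroup.map_le_iff_le_comap]
    refine sup_le (fun x hx => ?_) (fun z hz => ?_)
    · exact hnP x hx
    · exact hZS (conj_mem_of_mem_normalizer' hn hz)
  -- normality in `S` of subgroups containing `Z`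
  have hnormal : ∀ R : Subgroup G, Z ≤ R → R ≤ (S : Subgroup G) →
      ∀ s ∈ (S : Subgroup G), ∀ y ∈ R, s * y * s⁻¹ ∈ R := by
    intro R hZR hRS s hs y hy
    have e : s * y * s⁻¹ = (s * y * s⁻¹ * y⁻¹) * y := by group
    rw [e]
    exact R.mul_mem (hZR (hcomm s hs y (hRS hy))) hy
  let H : Subgroup G := Subgroup.normalizer (Q : Set G) ⊓ Subgroup.normalizer (Z : Set G)
  have hSNZ : (S : Subgroup G) ≤ Subgroup.normalizer (Z : Set G) := fun s hs =>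
    mem_normalizer_of_conj_le Z (fun z hz => by rw [hZconj z hz s hs]; exact hz)
  have hSH : (S : Subgroup G) ≤ H := fun s hs =>
    ⟨mem_normalizer_of_conj_le Q (hnormal Q hZQ hQS s hs), hSNZ hs⟩
  let S₂ : Subgroup G := (S : Subgroup G).map (MulAut.conj n).toMonoidHom
  have hS₂p : IsPGroup p S₂ := S.isPGroup'.map _
  have hS₂H : S₂ ≤ H := by
    rintro _ ⟨s, hs, rfl⟩
    refine ⟨mem_normalizer_of_conj_le Q ?_,
      Subgroup.mul_mem _ (Subgroup.mul_mem _ hn (hSNZ hs)) (Subgroup.inv_mem _ hn)⟩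
    rintro _ ⟨y, hy, rfl⟩
    have h1 := hnormal PZ le_sup_right hPZS s hs y hy
    have e : (MulAut.conj n).toMonoidHom s * (MulAut.conj n).toMonoidHom y *
        ((MulAut.conj n).toMonoidHom s)⁻¹ = n * (s * y * s⁻¹) * n⁻¹ := by
      show n * s * n⁻¹ * (n * y * n⁻¹) * (n * s * n⁻¹)⁻¹ = _
      group
    rw [e]
    exact hmemQ _ h1
  obtain ⟨m, hmH, hm⟩ := exists_conj_le_sylow_in S H hSH S₂ hS₂p hS₂H
  have hmn : m * n ∈ Subgroup.normalizer ((S : Subgroup G) : Set G) := by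
    apply mem_normalizer_of_conj_le
    intro s hs
    have h1 := hm _ ⟨s, hs, rfl⟩
    have e : m * n * s * (m * n)⁻¹ = m * (MulAut.conj n).toMonoidHom s * m⁻¹ := by
      show _ = m * (n * s * n⁻¹) * m⁻¹
      group
    rw [e]
    exact h1
  -- the stability group
  let K : Subgroup G := stabSub Q Z
  have hKH : K ≤ H := by
    intro k hk
    obtain ⟨h1, h2, -⟩ := mem_stabSub.mp hk
    exact ⟨h1, mem_normalizer_of_conj_le Z (fun z hz => by rw [h2 z hz]; exact hz)⟩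
  have hSK : (S : Subgroup G) ≤ K := by
    intro s hs
    exact mem_stabSub.mpr ⟨(hSH hs).1, fun z hz => hZconj z hz s hs,
      fun y hy => hcomm s hs y (hQS hy)⟩
  have hHK : ∀ m ∈ H, ∀ k ∈ K, m * k * m⁻¹ ∈ K := by
    intro m hm k hk
    obtain ⟨h1, h2, h3⟩ := mem_stabSub.mp hk
    refine mem_stabSub.mpr ⟨Subgroup.mul_mem _ (Subgroup.mul_mem _ hm.1 h1)
      (Subgroup.inv_mem _ hm.1), fun z hz => ?_, fun y hy => ?_⟩
    · have hz' : m⁻¹ * z * m ∈ Z := inv_conj_mem_of_mem_normalizer hm.2 hz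
      have e : m * k * m⁻¹ * z * (m * k * m⁻¹)⁻¹ = m * (k * (m⁻¹ * z * m) * k⁻¹) * m⁻¹ := by
        group
      rw [e, h2 _ hz']
      group
    · have hy' : m⁻¹ * y * m ∈ Q := inv_conj_mem_of_mem_normalizer hm.1 hy
      have e : m * k * m⁻¹ * y * (m * k * m⁻¹)⁻¹ * y⁻¹ =
          m * (k * (m⁻¹ * y * m) * k⁻¹ * (m⁻¹ * y * m)⁻¹) * m⁻¹ := by group
      rw [e]
      exact conj_mem_of_mem_normalizer' hm.2 (h3 _ hy')
  obtain ⟨n₁, hn₁H, hn₁S, k, hk, hmk⟩ := frattini_in S H K hKH hSK hHK m hmH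
  -- `K = S C_K(Q)`
  let N : Subgroup G := K ⊓ Subgroup.centralizer (Q : Set G)
  have hKN : ∀ k ∈ K, ∀ c ∈ N, k * c * k⁻¹ ∈ N := by
    intro k hk c hc
    refine ⟨K.mul_mem (K.mul_mem hk hc.1) (K.inv_mem hk), ?_⟩
    show k * c * k⁻¹ ∈ Subgroup.centralizer (Q : Set G)
    rw [Subgroup.mem_centralizer_iff]
    intro y hy
    have hy' : k⁻¹ * y * k ∈ Q := inv_conj_mem_of_mem_normalizer (mem_stabSub.mp hk).1 hy
    have h1 : k⁻¹ * y * k * c = c * (k⁻¹ * y * k) := Subgroup.mem_centralizer_iff.mp hc.2 _ hy'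
    have e1 : y * (k * c * k⁻¹) = k * (k⁻¹ * y * k * c) * k⁻¹ := by group
    have e2 : k * c * k⁻¹ * y = k * (c * (k⁻¹ * y * k)) * k⁻¹ := by group
    rw [e1, e2, h1]
  obtain ⟨a, ha⟩ := IsPGroup.iff_card.mp S.isPGroup'
  have hpow : ∀ k ∈ K, ∃ j : ℕ, k ^ (p ^ j) ∈ N := by
    intro k hk
    refine ⟨a, K.pow_mem hk _, ?_⟩
    show k ^ (p ^ a) ∈ Subgroup.centralizer (Q : Set G)
    rw [Subgroup.mem_centralizer_iff]
    intro y hy
    have h1 := stab_pow hk hy (p ^ a)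
    have hw : k * y * k⁻¹ * y⁻¹ ∈ (S : Subgroup G) := hZS ((mem_stabSub.mp hk).2.2 y hy)
    have h2 : (k * y * k⁻¹ * y⁻¹) ^ (p ^ a) = 1 := by
      rw [← ha]
      exact pow_card_eq_one_of_mem hw
    rw [h2, one_mul] at h1
    have e : y * k ^ (p ^ a) = (k ^ (p ^ a) * y * (k ^ (p ^ a))⁻¹)⁻¹⁻¹ * k ^ (p ^ a) := by
      rw [h1]; group
    rw [e]
    group
  obtain ⟨s, hs, c, hc, hksc⟩ := sylow_mul_of_pQuot S K N hSK hKN hpow k hk
  have hcQ : ∀ y ∈ Q, c * y * c⁻¹ = y := by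
    intro y hy
    have h1 : y * c = c * y := Subgroup.mem_centralizer_iff.mp hc.2 y hy
    rw [← h1]
    group
  have hn' : n₁ * s ∈ Subgroup.normalizer ((S : Subgroup G) : Set G) :=
    Subgroup.mul_mem _ hn₁S (Subgroup.le_normalizer hs)
  refine ⟨(n₁ * s)⁻¹ * (m * n), Subgroup.mul_mem _ (Subgroup.inv_mem _ hn') hmn, fun x hx => ?_⟩
  have hxQ : n * x * n⁻¹ ∈ Q := hmemQ x (Subgroup.mem_sup_left hx)
  have e : (n₁ * s)⁻¹ * (m * n) * x * ((n₁ * s)⁻¹ * (m * n))⁻¹ =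
      (n₁ * s)⁻¹ * (m * (n * x * n⁻¹) * m⁻¹) * (n₁ * s) := by group
  have e2 : m * (n * x * n⁻¹) * m⁻¹ = (n₁ * s) * (c * (n * x * n⁻¹) * c⁻¹) * (n₁ * s)⁻¹ := by
    rw [hmk, hksc]; group
  rw [e, e2, hcQ _ hxQ]
  group

/-- If a Sylow p-subgroup S of a finite group G has nilpotency class at most two and its centre is strongly closed in S with respect to G, then every map of the fusion system of G on S is conjugation by an element of N_G(S), and S is the largest subgroup normal in that fusion system. -/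
theorem result {G : Type*} [Group G] [Finite G] (p : ℕ) [Fact p.Prime] (S : Sylow p G) (hcl : ⁅(S : Subgroup G), (S : Subgroup G)⁆ ≤ (S : Subgroup G) ⊓ Subgroup.centralizer ((S : Subgroup G) : Set G)) (hZ : Cfsg.IsStronglyClosed ((S : Subgroup G) ⊓ Subgroup.centralizer ((S : Subgroup G) : Set G)) (S : Subgroup G)) : (∀ (P : Subgroup G) (φ : P →* G), φ ∈ (Cfsg.groupFusionSystem (S : Subgroup G)).Hom P → ∃ g ∈ Subgroup.normalizer ((S : Subgroup G) : Set G), ∀ x : P, φ x = g * (x : G) * g⁻¹) ∧ (Cfsg.groupFusionSystem (S : Subgroup G)).core = S := by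
  have key : ∀ (P : Subgroup G) (φ : P →* G), φ ∈ (Cfsg.groupFusionSystem (S : Subgroup G)).Hom P →
      ∃ g ∈ Subgroup.normalizer ((S : Subgroup G) : Set G), ∀ x : P, φ x = g * (x : G) * g⁻¹ := by
    rintro P φ ⟨hP, hφS, g, hg⟩
    have hgP : ∀ x ∈ P, g * x * g⁻¹ ∈ (S : Subgroup G) := fun x hx => by
      rw [← hg ⟨x, hx⟩]; exact hφS _
    obtain ⟨n, hn, hnP⟩ := step1 S hZ hP hgP
    obtain ⟨n₂, hn₂, hn₂P⟩ := step2 S hcl hP hn (fun x hx => by rw [hnP x hx]; exact hgP x hx)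
    exact ⟨n₂, hn₂, fun x => by rw [hg, hn₂P x x.2, hnP x x.2]⟩
  refine ⟨key, ?_⟩
  apply le_antisymm
  · exact sSup_le (fun Q hQ => hQ.1)
  · apply le_sSup
    refine ⟨le_rfl, fun P φ hφ => ?_⟩
    obtain ⟨g, hgN, hg⟩ := key P φ hφ
    have hP : P ≤ (S : Subgroup G) := hφ.1
    have hPS : P ⊔ (S : Subgroup G) ≤ (S : Subgroup G) := sup_le hP le_rfl
    refine ⟨conjHom (P ⊔ (S : Subgroup G)) g, ⟨hPS, fun x => ?_, g, fun x => rfl⟩, fun x => ?_, ?_⟩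
    · exact conj_mem_of_mem_normalizer' hgN (hPS x.2)
    · rw [hg]
      rfl
    · ext y
      constructor
      · rintro ⟨x, hx, rfl⟩
        exact conj_mem_of_mem_normalizer' hgN (Subgroup.mem_subgroupOf.mp hx)
      · intro hy
        have hx : g⁻¹ * y * g ∈ (S : Subgroup G) := inv_conj_mem_of_mem_normalizer hgN hy
        refine ⟨⟨g⁻¹ * y * g, Subgroup.mem_sup_right hx⟩, Subgroup.mem_subgroupOf.mpr hx, ?_⟩
        show g * (g⁻¹ * y * g) * g⁻¹ = y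
        group

end Cfsg.Agent.S5107
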