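import Cfsg.Statements.S5111
import Cfsg.Agent.Lib.Helper88.FusSat

set_option autoImplicit false
open Cfsg

namespace Cfsg.Agent.S5111

open Cfsg.FusionSystem Cfsg.Agent.Lib.Helper90

/-- A fusion system over a finite p-group S is saturated if and only if the inner automorphisms of S form a Sylow p-subgroup of Aut_F(S) and every fully normalized subgroup of S is receptive. -/
theorem result {Ω : Type*} [Group Ω] {S : Subgroup Ω} [Finite S] (p : ℕ) [Fact p.Prime] (hS : IsPGroup p S) (F : Cfsg.FusionSystem S) : F.IsSaturated p ↔ (F.IsFullyAutomized p S ∧ ∀ P : Subgroup Ω, F.IsFullyNormalized P → F.IsReceptive P) := by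
  constructor
  · intro hF
    exact ⟨(top_fullyAutomized_receptive hF).1,
      fun P hP => (Cfsg.Agent.Lib.Helper91.fa_rec_of_fullyNormalized hS hF hP).2⟩
  · rintro ⟨hSfa, hrec⟩ P hP
    obtain ⟨Q, hconj, hQfn⟩ := Cfsg.Agent.Lib.Helper87.exists_fullyNormalized_conj F hP
    exact ⟨Q, hconj, Cfsg.Agent.Lib.Helper88.fa_of_fullyNormalized hS hSfa hrec Q hQfn,
      hrec Q hQfn⟩

end Cfsg.Agent.S5111
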