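import Cfsg.Statements.S5115
import Cfsg.Agent.Lib.Helper97.FCDefs
import Cfsg.Agent.Lib.Helper97.FCExtU
import Cfsg.Agent.Lib.Helper2.FCExtH
import Cfsg.Agent.Lib.Helper88.FCB2
import Cfsg.Agent.Lib.Helper92.FCIn
import Cfsg.Agent.Lib.Helper75.FCSylInf
import Cfsg.Agent.Lib.Helper46.FCOut
import Cfsg.Agent.Lib.Helper46.FCMap
import Cfsg.Agent.Lib.Helper12.FCNormal
import Cfsg.Agent.Lib.Helper1.FCStep
import Cfsg.Agent.Lib.Helper49.FCB1
import Cfsg.Agent.Lib.Helper34.FCB3
-- import your own Cfsg.Agent.* helpers here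

set_option autoImplicit false
open Cfsg

namespace Cfsg.Agent.S5115

open Cfsg.Agent.Lib.Helper97.FC in
/-- the assembled statement, in the form of the interface -/
theorem fin_all.{u} : FinStmt.{u} := by
  have hextu : ExtUStmt.{u} := extU Cfsg.Agent.Lib.Helper49.FC.fc_b1 Cfsg.Agent.Lib.Helper88.FC.fc_b2
    Cfsg.Agent.Lib.Helper34.FC.fc_b3 Cfsg.Agent.Lib.Helper75.FC.fc_sylinf
  have hcore : CoreStmt.{u} := core hextu Cfsg.Agent.Lib.Helper2.FC.fc_exth
  have hnorm : NormalStmt.{u} := Cfsg.Agent.Lib.Helper12.FC.fc_normal hcore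
  have hstep : StepStmt.{u} :=
    Cfsg.Agent.Lib.Helper1.FC.fc_step hnorm Cfsg.Agent.Lib.Helper46.FC.fc_map
  exact fin Cfsg.Agent.Lib.Helper92.FC.fc_in Cfsg.Agent.Lib.Helper46.FC.fc_out hnorm hstep

/-- If the 2-fusion system of a finite group G on a Sylow 2-subgroup S is constrained, then for every subnormal subgroup H of G the 2-fusion system of H on S ∩ H is constrained. -/
theorem result {G : Type*} [Group G] [Finite G] (S : Sylow 2 G) (hF : (Cfsg.groupFusionSystem (S : Subgroup G)).IsConstrained 2) (H : Subgroup G) (hH : H.IsSubnormal) : (Cfsg.groupFusionSystem ((S : Subgroup G).subgroupOf H)).IsConstrained 2 := by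
  exact fin_all G S hF H hH

end Cfsg.Agent.S5115
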