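import Cfsg.Statements.S5119
import Cfsg.Agent.Lib.Helper88.FusSat
import Cfsg.Agent.Lib.Helper90.Lift

set_option autoImplicit false
open Cfsg

namespace Cfsg.Agent.S5119

open Cfsg.FusionSystem Cfsg.Agent.Lib.Helper90

variable {Ω : Type*} [Group Ω] {S : Subgroup Ω} {F : FusionSystem S} {T : Subgroup Ω}
  {E : FusionSystem T}

/-- Strong invariance at the level of functions. -/
def SI (F : FusionSystem S) (E : FusionSystem T) : Prop :=
  ∀ (P Q : Subgroup Ω), P ≤ Q → Q ≤ T → ∀ f g : Ω → Ω, Mor E P f → (∀ x ∈ P, f x ∈ Q) →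
    Mor F Q g → Mor E (img P g) (g ∘ f ∘ invFn P g)

theorem img_eq_map {P Q : Subgroup Ω} (hPQ : P ≤ Q) (ψ : Q →* Ω) {g : Ω → Ω} (hg : Mor F Q g)
    (hψg : ∀ z : Q, ψ z = g z) : img P g = (P.subgroupOf Q).map ψ := by
  ext y
  rw [(hg.restrict hPQ).mem_img]
  constructor
  · rintro ⟨x, hx, rfl⟩
    exact ⟨⟨x, hPQ hx⟩, Subgroup.mem_subgroupOf.mpr hx, hψg _⟩
  · rintro ⟨z, hz, rfl⟩
    exact ⟨z, Subgroup.mem_subgroupOf.mp hz, (hψg z).symm⟩

theorem autFun_mul' {P : Subgroup Ω} (α₁ α₂ : MulAut P) {y : Ω} (hy : y ∈ P) :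
    autFun P (α₁ * α₂) y = autFun P α₁ (autFun P α₂ y) := by
  rw [autFun_apply' _ hy, autFun_apply' _ hy, autFun_apply]
  rfl

theorem si_aut (hT : T ≤ S) (hSI : SI F E) {P : Subgroup Ω} {f : Ω → Ω} (hf : Mor E P f)
    {α : MulAut T} (hα : α ∈ F.autGroup T) :
    Mor E (img P (autFun T α)) (autFun T α ∘ f ∘ invFn P (autFun T α)) :=
  hSI P T hf.le le_rfl f _ hf (fun _ hx => hf.mem hx) ((mem_autGroup_iff F hT α).mp hα)

/-- A map is good if, on the part of its source inside `T`, it is a map of `E` up to an element of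
`Aut_F(T)`. -/
def Good (F : FusionSystem S) (E : FusionSystem T) (P : Subgroup Ω) (f : Ω → Ω) : Prop :=
  ∃ α ∈ F.autGroup T, Mor E (P ⊓ T) (autFun T α ∘ f)

theorem conj_mor [Finite S] (hT : F.StronglyClosed T) (hSI : SI F E) {P : Subgroup Ω} (hP : P ≤ S)
    {κ ν : MulAut P} (hκ : Mor E (P ⊓ T) (autFun P κ)) (hν : ν ∈ F.autGroup P) :
    Mor E (P ⊓ T) (autFun P (ν * κ * ν⁻¹)) := by
  have hνm : Mor F P (autFun P ν) := (mem_autGroup_iff F hP ν).mp hν
  have hνinv : Mor F P (autFun P ν⁻¹) :=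
    (mem_autGroup_iff F hP ν⁻¹).mp ((F.autGroup P).inv_mem hν)
  have hνU : Mor F (P ⊓ T) (autFun P ν) := hνm.restrict inf_le_left
  have hmaps : ∀ (μ : MulAut P), Mor F P (autFun P μ) → ∀ x ∈ P ⊓ T, autFun P μ x ∈ P ⊓ T :=
    fun μ hμ x hx => ⟨autFun_mem μ hx.1,
      Cfsg.Agent.Lib.Helper88.sc_mor hT inf_le_right (hμ.restrict inf_le_left) x hx⟩
  have hκU : ∀ x ∈ P ⊓ T, autFun P κ x ∈ P ⊓ T := fun x hx => ⟨autFun_mem κ hx.1, hκ.mem hx⟩
  have h1 := hSI (P ⊓ T) (P ⊓ T) le_rfl inf_le_right (autFun P κ) (autFun P ν) hκ hκU hνU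
  have himg : img (P ⊓ T) (autFun P ν) = P ⊓ T := by
    ext y
    rw [hνU.mem_img]
    constructor
    · rintro ⟨x, hx, rfl⟩
      exact hmaps ν hνm x hx
    · intro hy
      exact ⟨autFun P ν⁻¹ y, hmaps ν⁻¹ hνinv y hy, autFun_inv_apply ν hy.1⟩
  rw [himg] at h1
  refine h1.congr (fun y hy => ?_)
  have hx := hmaps ν⁻¹ hνinv y hy
  have e : y = autFun P ν (autFun P ν⁻¹ y) := (autFun_inv_apply ν hy.1).symm
  show autFun P ν (autFun P κ (invFn (P ⊓ T) (autFun P ν) y)) = _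
  conv_lhs => rw [e, hνU.invFn_apply hx]
  rw [autFun_mul' _ _ hy.1, autFun_mul' _ _ (autFun_mem _ hy.1)]

/-- The automorphisms of `P` in the system whose restriction to `P ⊓ T` is a map of `E`, with
inverse. -/
def kSub (F : FusionSystem S) (E : FusionSystem T) (P : Subgroup Ω) : Subgroup (MulAut P) where
  carrier := {κ | κ ∈ F.autGroup P ∧ Mor E (P ⊓ T) (autFun P κ) ∧ Mor E (P ⊓ T) (autFun P κ⁻¹)}
  mul_mem' := by
    rintro κ₁ κ₂ ⟨h1, h2, h3⟩ ⟨h1', h2', h3'⟩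
    have hU : ∀ {μ : MulAut P}, Mor E (P ⊓ T) (autFun P μ) → ∀ x ∈ P ⊓ T, autFun P μ x ∈ P ⊓ T :=
      fun {μ} hμ x hx => ⟨autFun_mem μ hx.1, hμ.mem hx⟩
    refine ⟨(F.autGroup P).mul_mem h1 h1', ?_, ?_⟩
    · exact (h2'.comp h2 (hU h2')).congr (fun x hx => (autFun_mul' κ₁ κ₂ hx.1).symm)
    · rw [mul_inv_rev]
      exact (h3.comp h3' (hU h3)).congr (fun x hx => (autFun_mul' κ₂⁻¹ κ₁⁻¹ hx.1).symm)
  one_mem' := by
    have h1 : Mor E (P ⊓ T) (autFun P (1 : MulAut P)) :=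
      (mor_id E inf_le_right).congr (fun x hx => by rw [autFun_apply' _ hx.1]; rfl)
    refine ⟨(F.autGroup P).one_mem, h1, ?_⟩
    rw [inv_one]
    exact h1
  inv_mem' := by
    rintro κ ⟨h1, h2, h3⟩
    refine ⟨(F.autGroup P).inv_mem h1, h3, ?_⟩
    rw [inv_inv]
    exact h2

theorem mem_kSub {P : Subgroup Ω} {κ : MulAut P} : κ ∈ kSub F E P ↔
    κ ∈ F.autGroup P ∧ Mor E (P ⊓ T) (autFun P κ) ∧ Mor E (P ⊓ T) (autFun P κ⁻¹) := Iff.rfl

theorem good_of_SI [Finite S] {p : ℕ} [Fact p.Prime] (hS : IsPGroup p S) (hF : F.IsSaturated p)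
    (hT : F.StronglyClosed T) (hSI : SI F E) :
    ∀ (P : Subgroup Ω) (f : Ω → Ω), Mor F P f → Good F E P f := by
  have hTS : T ≤ S := hT.1
  have hTfin : Finite T := finite_of_le hTS
  have hmT : ∀ {P : Subgroup Ω} {f : Ω → Ω}, Mor F P f → ∀ x ∈ P ⊓ T, f x ∈ T :=
    fun {P f} hf x hx =>
      Cfsg.Agent.Lib.Helper88.sc_mor hT inf_le_right (hf.restrict inf_le_left) x hx
  have hαm : ∀ {α : MulAut T}, α ∈ F.autGroup T → Mor F T (autFun T α) :=
    fun {α} hα => (mem_autGroup_iff F hTS α).mp hα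
  have h_congr : ∀ (P : Subgroup Ω) (f g : Ω → Ω), Good F E P f → (∀ x ∈ P, f x = g x) →
      Good F E P g := by
    rintro P f g ⟨α, hα, h⟩ hfg
    exact ⟨α, hα, h.congr (fun x hx => by show autFun T α (f x) = autFun T α (g x); rw [hfg x hx.1])⟩
  have h_res : ∀ (P P₀ : Subgroup Ω) (f : Ω → Ω), Mor F P f → Good F E P f → P₀ ≤ P →
      Good F E P₀ f := by
    rintro P P₀ f - ⟨α, hα, h⟩ h0
    exact ⟨α, hα, h.restrict (inf_le_inf_right T h0)⟩
  have h_comp : ∀ (P Q : Subgroup Ω) (f g : Ω → Ω), Mor F P f → Mor F Q g → (∀ x ∈ P, f x ∈ Q) →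
      Good F E P f → Good F E Q g → Good F E P (g ∘ f) := by
    rintro P Q f g hf hg hfg ⟨α₁, hα₁, h₁⟩ ⟨α₂, hα₂, h₂⟩
    have hfU : Mor F (P ⊓ T) f := hf.restrict inf_le_left
    have hRle : img (P ⊓ T) f ≤ Q ⊓ T := by
      intro y hy
      obtain ⟨x, hx, rfl⟩ := hfU.mem_img.mp hy
      exact ⟨hfg x hx.1, hmT hf x hx⟩
    have hg₁R : Mor E (img (P ⊓ T) f) (autFun T α₂ ∘ g) := h₂.restrict hRle
    have hM := si_aut hTS hSI hg₁R hα₁
    have hα₁R : Mor F (img (P ⊓ T) f) (autFun T α₁) :=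
      (hαm hα₁).restrict (hRle.trans inf_le_right)
    refine ⟨α₁ * α₂, (F.autGroup T).mul_mem hα₁ hα₂, ?_⟩
    refine (h₁.comp hM ?_).congr ?_
    · intro x hx
      exact hα₁R.mem_img_of_mem (hfU.mem_img_of_mem hx)
    · intro x hx
      show autFun T α₁ (autFun T α₂ (g (invFn (img (P ⊓ T) f) (autFun T α₁)
        (autFun T α₁ (f x))))) = autFun T (α₁ * α₂) (g (f x))
      rw [hα₁R.invFn_apply (hfU.mem_img_of_mem hx),
        autFun_mul' α₁ α₂ (hmT hg (f x) (hRle (hfU.mem_img_of_mem hx)))]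
  have h_inv : ∀ (P : Subgroup Ω) (f : Ω → Ω), Mor F P f → Good F E P f →
      Good F E (img P f) (invFn P f) := by
    rintro P f hf ⟨α, hα, h₁⟩
    have hαinv : α⁻¹ ∈ F.autGroup T := (F.autGroup T).inv_mem hα
    have hfU : Mor F (P ⊓ T) f := hf.restrict inf_le_left
    have hM := si_aut hTS hSI h₁.inv hαinv
    have hP₁T : img (P ⊓ T) (autFun T α ∘ f) ≤ T := h₁.img_le
    have hαP₁ : Mor F (img (P ⊓ T) (autFun T α ∘ f)) (autFun T α⁻¹) :=
      (hαm hαinv).restrict hP₁T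
    have hback : ∀ x ∈ P ⊓ T, autFun T α⁻¹ ((autFun T α ∘ f) x) = f x :=
      fun x hx => autFun_inv_apply' α (hmT hf x hx)
    have himg : img (img (P ⊓ T) (autFun T α ∘ f)) (autFun T α⁻¹) = img P f ⊓ T := by
      ext y
      rw [hαP₁.mem_img]
      constructor
      · rintro ⟨z, hz, rfl⟩
        obtain ⟨x, hx, rfl⟩ := h₁.mem_img.mp hz
        rw [hback x hx]
        exact ⟨hf.mem_img_of_mem hx.1, hmT hf x hx⟩
      · rintro ⟨hy, hyT⟩
        obtain ⟨x, hx, rfl⟩ := hf.mem_img.mp hy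
        have hxT : x ∈ T := by
          have := hmT hf.inv (f x) ⟨hy, hyT⟩
          rwa [hf.invFn_apply hx] at this
        exact ⟨(autFun T α ∘ f) x, h₁.mem_img_of_mem ⟨hx, hxT⟩, hback x ⟨hx, hxT⟩⟩
    rw [himg] at hM
    refine ⟨α⁻¹, hαinv, hM.congr ?_⟩
    rintro y ⟨hy, hyT⟩
    obtain ⟨x, hx, rfl⟩ := hf.mem_img.mp hy
    have hxT : x ∈ T := by
      have := hmT hf.inv (f x) ⟨hy, hyT⟩
      rwa [hf.invFn_apply hx] at this
    show autFun T α⁻¹ (invFn (P ⊓ T) (autFun T α ∘ f)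
      (invFn (img (P ⊓ T) (autFun T α ∘ f)) (autFun T α⁻¹) (f x))) =
      autFun T α⁻¹ (invFn P f (f x))
    have e : f x = autFun T α⁻¹ ((autFun T α ∘ f) x) := (hback x ⟨hx, hxT⟩).symm
    conv_lhs => rw [e, hαP₁.invFn_apply (h₁.mem_img_of_mem ⟨hx, hxT⟩), h₁.invFn_apply ⟨hx, hxT⟩]
    rw [hf.invFn_apply hx]
  refine alperin_induction hS hF (Good F E) h_congr h_res h_comp h_inv ?_
  -- automorphisms
  intro P hfa hrec prem f hf hfP
  have hP : P ≤ S := hf.le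
  have : Finite P := finite_of_le hP
  by_cases hTP : T ≤ P
  · have hfT : Mor F T f := hf.restrict hTP
    have hfTT : ∀ x ∈ T, f x ∈ T := fun x hx =>
      Cfsg.Agent.Lib.Helper88.sc_mor hT le_rfl hfT x hx
    obtain ⟨α, hα, hαf⟩ := exists_aut_of_mor hfT hfTT
    refine ⟨α⁻¹, (F.autGroup T).inv_mem hα, ?_⟩
    rw [inf_eq_right.mpr hTP]
    refine (mor_id E le_rfl).congr (fun x hx => ?_)
    show id x = autFun T α⁻¹ (f x)
    rw [← hαf ⟨x, hx⟩, autFun_apply]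
    simp
  · obtain ⟨q, hq, hqN, hqP⟩ := exists_normalizing_not_mem hS hP hTS
      (fun s hs q hq => stronglyClosed_conj_mem hT hs hq) hTP
    have hqS : q ∈ S := hTS hq
    obtain ⟨β, hβF, hβ⟩ := exists_aut_of_mor (mor_conj F hP hqS)
      (fun y hy => conj_mem_of_mem_normalizer hqN hy)
    have hβS : β ∈ autInducedBy S P := (mem_autInducedBy_iff S P β).mpr ⟨q, hqS, hβ⟩
    have hβK : β ∈ kSub F E P := by
      refine ⟨hβF, ?_, ?_⟩
      · refine (mor_conj E inf_le_right hq).congr (fun x hx => ?_)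
        rw [autFun_apply' _ hx.1, hβ]
      · refine (mor_conj E inf_le_right (T.inv_mem hq)).congr (fun x hx => ?_)
        rw [autFun_apply' _ hx.1]
        have h1 : β ⟨q⁻¹ * x * q⁻¹⁻¹, by
            have := conj_mem_of_mem_normalizer (Subgroup.inv_mem _ hqN) hx.1
            exact this⟩ = ⟨x, hx.1⟩ := by
          apply Subtype.ext
          rw [hβ]
          group
        rw [← h1]
        simp
    obtain ⟨α, hα, hαf⟩ := exists_aut_of_mor hf hfP
    obtain ⟨-, R, hR⟩ := id hfa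
    let K : Subgroup (F.autGroup P) := (kSub F E P).subgroupOf (F.autGroup P)
    have hKn : K.Normal := by
      constructor
      intro n hn g
      have hn' : (n : MulAut P) ∈ kSub F E P := Subgroup.mem_subgroupOf.mp hn
      obtain ⟨h1, h2, h3⟩ := mem_kSub.mp hn'
      apply Subgroup.mem_subgroupOf.mpr
      show (g : MulAut P) * (n : MulAut P) * (g : MulAut P)⁻¹ ∈ kSub F E P
      refine ⟨(F.autGroup P).mul_mem ((F.autGroup P).mul_mem g.2 h1) ((F.autGroup P).inv_mem g.2),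
        conj_mor hT hSI hP h2 g.2, ?_⟩
      have e : ((g : MulAut P) * (n : MulAut P) * (g : MulAut P)⁻¹)⁻¹ =
          (g : MulAut P) * (n : MulAut P)⁻¹ * (g : MulAut P)⁻¹ := by group
      rw [e]
      exact conj_mor hT hSI hP h3 g.2
    obtain ⟨ν, κ, hνκ, hκ, hν⟩ := frattini_decomp R K ⟨α, hα⟩
    have hκK : (κ : MulAut P) ∈ kSub F E P := Subgroup.mem_subgroupOf.mp hκ
    have hκm : Mor F P (autFun P κ) := (mem_autGroup_iff F hP κ).mp κ.2
    have hνm : Mor F P (autFun P ν) := (mem_autGroup_iff F hP ν).mp ν.2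
    have gκ : Good F E P (autFun P κ) := by
      refine ⟨1, (F.autGroup T).one_mem, hκK.2.1.congr (fun x hx => ?_)⟩
      show autFun P κ x = autFun T 1 (autFun P κ x)
      rw [autFun_apply' (1 : MulAut T) (hκK.2.1.mem hx)]
      rfl
    have gν : Good F E P (autFun P ν) := by
      have hβmem : (⟨β, hβF⟩ : F.autGroup P) ∈ (R : Subgroup (F.autGroup P)) ⊓ K := by
        refine ⟨?_, Subgroup.mem_subgroupOf.mpr hβK⟩
        rw [hR]
        exact Subgroup.mem_subgroupOf.mpr hβS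
      have h1 := (hν _ hβmem).1
      rw [hR] at h1
      have h2 : (ν : MulAut P) * β * (ν : MulAut P)⁻¹ ∈ autInducedBy S P :=
        Subgroup.mem_subgroupOf.mp h1
      have hqE : q ∈ extFn S P (autFun P ν) := by
        refine Cfsg.Agent.Lib.Helper88.mem_extFn_of_aut hP ν.2 hqS hqN (fun γ hγ => ?_)
        have : γ = β := by
          ext x
          rw [hγ, hβ]
        rw [this]
        exact h2
      exact good_of_extFn (Good F E) h_congr h_res hrec hνm (fun x hx => autFun_mem _ hx)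
        prem hqE hqP
    have hcomp := h_comp P P _ _ hκm hνm (fun x hx => autFun_mem _ hx) gκ gν
    refine h_congr _ _ _ hcomp (fun x hx => ?_)
    show autFun P ν (autFun P κ x) = f x
    rw [← hαf ⟨x, hx⟩, autFun_apply' _ hx, autFun_apply]
    have h5 : α = (ν : MulAut P) * (κ : MulAut P) := congrArg Subtype.val hνκ
    rw [h5]
    rfl

/-- Let F be a saturated fusion system over a finite p-group S and E a subsystem of F over a subgroup T that is strongly closed in F. Then E is invariant in F (invariance under Aut_F(T) plus the Frattini condition) if and only if the strong invariance condition holds: for P ≤ Q ≤ T, every map φ of E from P into Q and every map ψ of F with source Q, the transported map ψ φ ψ⁻¹ on ψ(P) is a map of E. -/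
theorem result {Ω : Type*} [Group Ω] {S : Subgroup Ω} [Finite S] (p : ℕ) [Fact p.Prime] (hS : IsPGroup p S) (F : Cfsg.FusionSystem S) (hF : F.IsSaturated p) {T : Subgroup Ω} (E : Cfsg.FusionSystem T) (hE : E.IsSubsystemOf F) (hT : F.StronglyClosed T) : E.IsInvariantIn F ↔ ∀ (P Q : Subgroup Ω) (hPQ : P ≤ Q) (_ : Q ≤ T) (φ : P →* Ω) (_ : φ ∈ E.Hom P) (hφQ : ∀ x : P, φ x ∈ Q) (ψ : Q →* Ω) (_ : ψ ∈ F.Hom Q), ∃ χ ∈ E.Hom ((P.subgroupOf Q).map ψ), ∀ (x : P) (hx : ψ (Subgroup.inclusion hPQ x) ∈ (P.subgroupOf Q).map ψ), χ ⟨ψ (Subgroup.inclusion hPQ x), hx⟩ = ψ ⟨φ x, hφQ x⟩ := by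
  have hTS : T ≤ S := hT.1
  constructor
  · -- invariant implies strongly invariant
    intro hinv P Q hPQ hQT φ hφ hφQ ψ hψ
    have hf : Mor E P (extFun P φ) := mor_of_hom hφ
    have hg : Mor F Q (extFun Q ψ) := mor_of_hom hψ
    have hgP : Mor F P (extFun Q ψ) := hg.restrict hPQ
    have hfQ : ∀ x ∈ P, extFun P φ x ∈ Q := fun x hx => by
      rw [extFun_apply' P φ hx]; exact hφQ ⟨x, hx⟩
    obtain ⟨α, hα, g₀, hg₀, hgα⟩ := invariant_frattini hinv hQT hg
    have hg₀P : Mor E P g₀ := hg₀.restrict hPQ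
    have hαm : Mor F T (autFun T α) := (mem_autGroup_iff F hTS α).mp hα
    -- the map `g₀ ∘ f ∘ g₀⁻¹` of `E`
    have hh : Mor E (img P g₀) (g₀ ∘ extFun P φ ∘ invFn P g₀) :=
      (hg₀P.inv.comp hf (fun y hy => hg₀P.invFn_mem hy)).comp hg₀
        (fun y hy => hfQ _ (hg₀P.invFn_mem hy))
    have h1 := invariant_mor hinv hh hα
    have himg : img (img P g₀) (autFun T α) = img P (extFun Q ψ) := by
      rw [← Mor.img_comp (mor_of_subsystem hE hg₀P) hαm (fun x hx => hg₀P.mem hx)]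
      exact img_congr (fun x hx => (hgα x (hPQ hx)).symm)
    rw [himg] at h1
    have h2 : Mor E (img P (extFun Q ψ)) (extFun Q ψ ∘ extFun P φ ∘ invFn P (extFun Q ψ)) := by
      refine h1.congr ?_
      intro y hy
      obtain ⟨x, hx, rfl⟩ := hgP.mem_img.mp hy
      show autFun T α (g₀ (extFun P φ (invFn P g₀ (autFun T α⁻¹ (extFun Q ψ x))))) =
        extFun Q ψ (extFun P φ (invFn P (extFun Q ψ) (extFun Q ψ x)))
      rw [hgP.invFn_apply hx, hgα x (hPQ hx), autFun_inv_apply' α (hg₀P.mem hx),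
        hg₀P.invFn_apply hx, hgα _ (hfQ x hx)]
    rw [img_eq_map hPQ ψ hg (fun z => (extFun_apply Q ψ z).symm)] at h2
    obtain ⟨χ, hχ, hχf⟩ := h2
    refine ⟨χ, hχ, fun x hx => ?_⟩
    rw [hχf]
    show extFun Q ψ (extFun P φ (invFn P (extFun Q ψ) (ψ (Subgroup.inclusion hPQ x)))) = _
    have e : ψ (Subgroup.inclusion hPQ x) = extFun Q ψ (x : Ω) :=
      (extFun_apply' Q ψ (hPQ x.2)).symm
    rw [e, hgP.invFn_apply x.2, extFun_apply, extFun_apply' Q ψ (hφQ x)]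
  · -- strongly invariant implies invariant
    intro hSIL
    have hSI : SI F E := by
      intro P Q hPQ hQT f g hf hfQ hg
      obtain ⟨φ, hφ, hφf⟩ := id hf
      obtain ⟨ψ, hψ, hψg⟩ := id hg
      have hφQ : ∀ x : P, φ x ∈ Q := fun x => by rw [hφf]; exact hfQ x x.2
      obtain ⟨χ, hχ, hχψ⟩ := hSIL P Q hPQ hQT φ hφ hφQ ψ hψ
      have hgP : Mor F P g := hg.restrict hPQ
      have key : ∀ Q' : Subgroup Ω, Q' = (P.subgroupOf Q).map ψ →
          Mor E Q' (g ∘ f ∘ invFn P g) := by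
        intro Q' hQ'
        subst hQ'
        refine ⟨χ, hχ, ?_⟩
        rintro ⟨_, z, hz, rfl⟩
        have hzP : (z : Ω) ∈ P := Subgroup.mem_subgroupOf.mp hz
        have h1 := hχψ ⟨z, hzP⟩ ⟨z, hz, rfl⟩
        have e1 : g (f (invFn P g (ψ z))) = ψ ⟨φ ⟨z, hzP⟩, hφQ ⟨z, hzP⟩⟩ := by
          rw [hψg z, hgP.invFn_apply hzP, hψg]
          show g (f (z : Ω)) = g (φ ⟨z, hzP⟩)
          rw [hφf]
        show χ ⟨ψ z, _⟩ = g (f (invFn P g (ψ z)))
        rw [e1]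
        exact h1
      exact key _ (img_eq_map hPQ ψ hg hψg)
    refine ⟨hE, hT, ?_, ?_⟩
    · intro P hPT φ hφ α hα
      have hφT : ∀ x : P, φ x ∈ T := (E.le_of_mem hφ).2
      have hψ : T.subtype.comp α.toMonoidHom ∈ F.Hom T :=
        ((mem_autGroup_iff F hTS α).mp hα).hom _ (fun x => (autFun_apply α x).symm)
      obtain ⟨χ, hχ, h⟩ := hSIL P T hPT le_rfl φ hφ hφT _ hψ
      exact ⟨χ, hχ, fun x hφx hαx => h x hαx⟩
    · intro P hPT φ hφ
      obtain ⟨α, hα, h⟩ := good_of_SI hS hF hT hSI P (extFun P φ) (mor_of_hom hφ)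
      rw [inf_eq_left.mpr hPT] at h
      obtain ⟨φ₀, hφ₀, hφ₀f⟩ := h
      refine ⟨α⁻¹, (F.autGroup T).inv_mem hα, φ₀, hφ₀, fun x hx => ?_⟩
      have hφT : φ x ∈ T :=
        Cfsg.Agent.Lib.Helper88.sc_mor hT hPT (mor_of_hom hφ) x x.2 |> fun h => by
          rwa [extFun_apply] at h
      have e : (⟨φ₀ x, hx⟩ : T) = α ⟨φ x, hφT⟩ := by
        apply Subtype.ext
        show φ₀ x = _
        rw [hφ₀f]
        show autFun T α (extFun P φ x) = _
        rw [extFun_apply, autFun_apply' α hφT]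
      rw [e]
      simp

end Cfsg.Agent.S5119
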