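import Cfsg.Statements.S5121
import Cfsg.Agent.Lib.Helper30.NSubMain
import Cfsg.Agent.Lib.Helper34.NSubGU
import Cfsg.Agent.Lib.Helper91.SylCard

set_option autoImplicit false
open Cfsg

namespace Cfsg.Agent.S5121

open Cfsg.FusionSystem Cfsg.Agent.Lib.Helper90 Cfsg.Agent.Lib.Helper30
open Cfsg.Agent.Lib.Helper34 (nsub_gu)
open Cfsg.Agent.Lib.Helper91 (sylCard_exists sylCard_inf sylCard_of_sylow)

/-- Let G be a finite group with Sylow p-subgroup S and C_G(O_p(G)) ≤ O_p(G). For every subgroup T ≤ S and every normal subsystem E over T of the fusion system of G on S there is exactly one normal subgroup H of G containing T as a Sylow p-subgroup whose fusion system on T is E. -/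
theorem result {G : Type*} [Group G] [Finite G] (p : ℕ) [Fact p.Prime] (S : Sylow p G) (hG : Subgroup.centralizer ((Cfsg.pCore p G : Subgroup G) : Set G) ≤ Cfsg.pCore p G) (T : Subgroup G) (hTS : T ≤ S) (E : Cfsg.FusionSystem T) (hE : E.IsNormalIn (Cfsg.groupFusionSystem (S : Subgroup G)) p) : ∃ H : Subgroup G, (∃ hTH : T ≤ H, H.Normal ∧ (∃ R : Sylow p H, (R : Subgroup H) = T.subgroupOf H) ∧ ∀ P : Subgroup G, E.Hom P = (Cfsg.fusionSystemOfSubgroup H T hTH).Hom P) ∧ ∀ H' : Subgroup G, (∃ hTH' : T ≤ H', H'.Normal ∧ (∃ R : Sylow p H', (R : Subgroup H') = T.subgroupOf H') ∧ ∀ P : Subgroup G, E.Hom P = (Cfsg.fusionSystemOfSubgroup H' T hTH').Hom P) → H' = H := by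
  obtain ⟨H, hHn, hSH, hTH, hEH⟩ := nsub_exists p S hG T hTS E hE
  have hQn : (Cfsg.pCore p G).Normal := Subgroup.sSup_normal _ (fun _ h => h.1)
  have hQp : IsPGroup p (Cfsg.pCore p G) := Sylow.sSup_of_normal _ (fun _ h => h.2) (fun _ h => h.1)
  have hsylH : ∃ R : Sylow p H, (R : Subgroup H) = T.subgroupOf H := by
    apply sylCard_exists
    rw [← hSH]
    exact sylCard_inf (sylCard_of_sylow S) le_top (fun k _ n hn => hHn.conj_mem n hn k)
  refine ⟨H, ⟨hTH, hHn, hsylH, hEH⟩, ?_⟩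
  rintro H' ⟨hTH', hH'n, ⟨R, hR⟩, hEH'⟩
  have hSH' : (S : Subgroup G) ⊓ H' = T := by
    have h1 : IsPGroup p (((S : Subgroup G) ⊓ H').subgroupOf H') :=
      (S.isPGroup'.to_le inf_le_left).comap_subtype
    have h2 : (R : Subgroup H') ≤ ((S : Subgroup G) ⊓ H').subgroupOf H' := by
      rw [hR]
      intro x hx
      exact ⟨hTS hx, x.2⟩
    have h3 := R.is_maximal' h1 h2
    apply le_antisymm
    · intro x hx
      have h4 : (⟨x, hx.2⟩ : H') ∈ ((S : Subgroup G) ⊓ H').subgroupOf H' := hx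
      rw [h3, hR] at h4
      exact h4
    · exact le_inf hTS hTH'
  have key : ∀ (H₁ H₂ : Subgroup G) (h₁ : T ≤ H₁) (h₂ : T ≤ H₂),
      (∀ P : Subgroup G, E.Hom P = (Cfsg.fusionSystemOfSubgroup H₁ T h₁).Hom P) →
      (∀ P : Subgroup G, E.Hom P = (Cfsg.fusionSystemOfSubgroup H₂ T h₂).Hom P) →
      ∀ n ∈ H₁, n ∈ Subgroup.normalizer (T : Set G) →
        ∃ n' ∈ H₂, ∀ t ∈ T, n * t * n⁻¹ = n' * t * n'⁻¹ := by
    intro H₁ H₂ h₁ h₂ e₁ e₂ n hn hnT
    have hm : conjHom T n ∈ (Cfsg.fusionSystemOfSubgroup H₁ T h₁).Hom T :=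
      ⟨le_rfl, fun x => conj_mem_of_mem_normalizer hnT x.2, n, hn, fun _ => rfl⟩
    rw [← e₁ T, e₂ T] at hm
    obtain ⟨-, -, g, hg, hgx⟩ := hm
    exact ⟨g, hg, fun t ht => hgx ⟨t, ht⟩⟩
  exact le_antisymm
    (nsub_gu S (Cfsg.pCore p G) T H' H hQp hG hSH' hSH (key H' H hTH' hTH hEH' hEH))
    (nsub_gu S (Cfsg.pCore p G) T H H' hQp hG hSH hSH' (key H H' hTH hTH' hEH hEH'))

end Cfsg.Agent.S5121
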