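import Cfsg.Statements.S5122
import Mathlib

set_option autoImplicit false
open Cfsg

namespace Cfsg.Agent.S5122

section
variable {G : Type*} [Group G] [Finite G] {p : ℕ} [Fact p.Prime]

theorem sylow_conj_mem (S : Sylow p G)
    {K Q : Subgroup G} (hSK : (S : Subgroup G) ≤ K) (hQK : Q ≤ K) (hQ : IsPGroup p Q) :
    ∃ k ∈ K, ∀ x ∈ Q, k * x * k⁻¹ ∈ (S : Subgroup G) := by
  have hQ₁ : IsPGroup p (Q.subgroupOf K) := hQ.comap_subtype
  obtain ⟨R, hR⟩ := hQ₁.exists_le_sylow
  obtain ⟨k, hk⟩ := MulAction.exists_smul_eq K R (S.subtype hSK)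
  refine ⟨k, k.2, fun x hx => ?_⟩
  have hxR : (⟨x, hQK hx⟩ : K) ∈ (R : Subgroup K) := hR (Subgroup.mem_subgroupOf.mpr hx)
  have h1 := Subgroup.smul_mem_pointwise_smul _ (MulAut.conj k) (R : Subgroup K) hxR
  rw [← Sylow.coe_subgroup_smul, hk, Sylow.coe_subtype, Subgroup.mem_subgroupOf] at h1
  simpa using h1

theorem card_le_of_pgroup {A M : Subgroup G} (hA : IsPGroup p A) (hAM : A ≤ M) :
    Nat.card A ≤ p ^ (Nat.card M).factorization p := by
  obtain ⟨k, hk⟩ := IsPGroup.iff_card.mp hA
  have hdvd : p ^ k ∣ Nat.card M := hk ▸ Subgroup.card_dvd_of_le hAM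
  rw [hk]
  exact Nat.pow_le_pow_right (Fact.out : p.Prime).pos
    ((Nat.Prime.pow_dvd_iff_le_factorization Fact.out Nat.card_pos.ne').mp hdvd)

theorem exists_sylow_of_card {A M : Subgroup G} (hAM : A ≤ M)
    (h : Nat.card A = p ^ (Nat.card M).factorization p) :
    ∃ R : Sylow p M, (R : Subgroup M) = A.subgroupOf M := by
  have : Nat.card (A.subgroupOf M) = p ^ (Nat.card M).factorization p := by
    rw [← h]
    exact Nat.card_congr (Subgroup.subgroupOfEquivOfLe hAM).toEquiv
  exact ⟨Sylow.ofCard _ this, Sylow.coe_ofCard _ this⟩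

theorem card_of_sylow {A M : Subgroup G} (hAM : A ≤ M) (R : Sylow p M)
    (hR : (R : Subgroup M) = A.subgroupOf M) :
    Nat.card A = p ^ (Nat.card M).factorization p := by
  rw [← R.card_eq_multiplicity]
  have : Nat.card (A.subgroupOf M) = Nat.card A :=
    Nat.card_congr (Subgroup.subgroupOfEquivOfLe hAM).toEquiv
  rw [← this, ← hR]

theorem sylow_inf_normal {S₁ M N : Subgroup G} (hS₁M : S₁ ≤ M)
    (hS₁ : Nat.card S₁ = p ^ (Nat.card M).factorization p)
    (hNM : N ≤ M) (hnorm : ∀ m ∈ M, ∀ n ∈ N, m * n * m⁻¹ ∈ N) :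
    Nat.card ↥(S₁ ⊓ N) = p ^ (Nat.card N).factorization p := by
  obtain ⟨R, hR⟩ := exists_sylow_of_card hS₁M hS₁
  have hS₁p : IsPGroup p S₁ := IsPGroup.of_card hS₁
  apply le_antisymm
  · exact card_le_of_pgroup (hS₁p.to_le inf_le_left) inf_le_right
  · obtain ⟨T⟩ : Nonempty (Sylow p N) := inferInstance
    have hT'card : Nat.card ((T : Subgroup N).map N.subtype) = p ^ (Nat.card N).factorization p := by
      rw [← T.card_eq_multiplicity]
      exact Subgroup.card_map_of_injective (Subgroup.subtype_injective _)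
    have hT'N : (T : Subgroup N).map N.subtype ≤ N := Subgroup.map_subtype_le _
    have hT'p : IsPGroup p ((T : Subgroup N).map N.subtype) := IsPGroup.of_card hT'card
    obtain ⟨k, -, hk⟩ := sylow_conj_mem R (K := ⊤) le_top
      (Q := ((T : Subgroup N).map N.subtype).subgroupOf M) le_top hT'p.comap_subtype
    have hsub : ((T : Subgroup N).map N.subtype).map (MulAut.conj (k : G)).toMonoidHom ≤ S₁ ⊓ N := by
      rintro _ ⟨x, hx, rfl⟩
      have hxM : x ∈ M := hNM (hT'N hx)
      have h1 := hk ⟨x, hxM⟩ (Subgroup.mem_subgroupOf.mpr hx)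
      rw [hR] at h1
      exact ⟨Subgroup.mem_subgroupOf.mp h1, hnorm k k.2 x (hT'N hx)⟩
    calc p ^ (Nat.card N).factorization p = Nat.card ((T : Subgroup N).map N.subtype) := hT'card.symm
      _ = Nat.card (((T : Subgroup N).map N.subtype).map (MulAut.conj (k : G)).toMonoidHom) :=
          (Subgroup.card_map_of_injective (MulAut.conj (k : G)).injective).symm
      _ ≤ Nat.card ↥(S₁ ⊓ N) := Subgroup.card_le_of_le hsub

theorem part1 (S : Sylow p G) (P : Subgroup G) (hP : P ≤ S) :
    ∃ g : G, P.map (MulAut.conj g).toMonoidHom ≤ S ∧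
      Nat.card ↥((S : Subgroup G) ⊓ Subgroup.normalizer ((P.map (MulAut.conj g).toMonoidHom : Subgroup G) : Set G)) =
        p ^ (Nat.card (Subgroup.normalizer ((P.map (MulAut.conj g).toMonoidHom : Subgroup G) : Set G))).factorization p := by
  obtain ⟨T⟩ : Nonempty (Sylow p (Subgroup.normalizer (P : Set G))) := inferInstance
  have hT'card : Nat.card ((T : Subgroup (Subgroup.normalizer (P : Set G))).map (Subgroup.subtype _)) =
      p ^ (Nat.card (Subgroup.normalizer (P : Set G))).factorization p := by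
    rw [← T.card_eq_multiplicity]
    exact Subgroup.card_map_of_injective (Subgroup.subtype_injective _)
  have hT'p : IsPGroup p ((T : Subgroup (Subgroup.normalizer (P : Set G))).map (Subgroup.subtype _)) :=
    IsPGroup.of_card hT'card
  have hPp : IsPGroup p P := S.isPGroup'.to_le hP
  have hPT : P ≤ (T : Subgroup (Subgroup.normalizer (P : Set G))).map (Subgroup.subtype _) := by
    intro x hx
    have hPp' : IsPGroup p (P.subgroupOf (Subgroup.normalizer (P : Set G))) := hPp.comap_subtype
    have hnor : (P.subgroupOf (Subgroup.normalizer (P : Set G))).Normal := Subgroup.normal_in_normalizer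
    have h1 : P.subgroupOf (Subgroup.normalizer (P : Set G)) ≤ T :=
      IsPGroup.le_sylow_of_normal hPp' T
    exact ⟨⟨x, Subgroup.le_normalizer hx⟩, h1 (Subgroup.mem_subgroupOf.mpr hx), rfl⟩
  obtain ⟨g, -, hg⟩ := sylow_conj_mem S (K := ⊤) le_top le_top hT'p
  refine ⟨g, ?_, ?_⟩
  · rintro _ ⟨x, hx, rfl⟩
    exact hg x (hPT hx)
  · have hM' := Subgroup.map_equiv_normalizer_eq P (MulAut.conj g)
    have hcardM : Nat.card (Subgroup.normalizer ((P.map (MulAut.conj g).toMonoidHom : Subgroup G) : Set G)) =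
        Nat.card (Subgroup.normalizer (P : Set G)) := by
      rw [← hM']
      exact Subgroup.card_map_of_injective (MulAut.conj g).injective
    apply le_antisymm
    · exact card_le_of_pgroup (S.isPGroup'.to_le inf_le_left) inf_le_right
    · have hsub : ((T : Subgroup (Subgroup.normalizer (P : Set G))).map (Subgroup.subtype _)).map
          (MulAut.conj g).toMonoidHom ≤
          (S : Subgroup G) ⊓ Subgroup.normalizer ((P.map (MulAut.conj g).toMonoidHom : Subgroup G) : Set G) := by
        rintro _ ⟨x, hx, rfl⟩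
        refine ⟨hg x hx, ?_⟩
        rw [← hM']
        obtain ⟨y, -, rfl⟩ := hx
        exact ⟨y, y.2, rfl⟩
      calc p ^ (Nat.card (Subgroup.normalizer ((P.map (MulAut.conj g).toMonoidHom : Subgroup G) : Set G))).factorization p
          = Nat.card ((T : Subgroup (Subgroup.normalizer (P : Set G))).map (Subgroup.subtype _)) := by
            rw [hcardM, hT'card]
        _ = Nat.card (((T : Subgroup (Subgroup.normalizer (P : Set G))).map (Subgroup.subtype _)).map
              (MulAut.conj g).toMonoidHom) :=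
            (Subgroup.card_map_of_injective (MulAut.conj g).injective).symm
        _ ≤ _ := Subgroup.card_le_of_le hsub

theorem autInducedBy_eq (K Q : Subgroup G) :
    autInducedBy K Q = (K.subgroupOf (Subgroup.normalizer (Q : Set G))).map Q.normalizerMonoidHom := by
  apply le_antisymm
  · rw [autInducedBy, Subgroup.closure_le]
    rintro α ⟨g, hgK, hg⟩
    have hgN : g ∈ Subgroup.normalizer (Q : Set G) := by
      rw [Subgroup.mem_normalizer_iff]
      intro h
      constructor
      · intro hh
        rw [← hg ⟨h, hh⟩]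
        exact (α ⟨h, hh⟩).2
      · intro hh
        obtain ⟨y, hy⟩ := α.surjective ⟨g * h * g⁻¹, hh⟩
        have h2 := hg y
        rw [hy] at h2
        have h3 : h = y := by
          have : g * h * g⁻¹ = g * (y : G) * g⁻¹ := h2
          exact mul_left_cancel (mul_right_cancel this)
        rw [h3]
        exact y.2
    refine ⟨⟨g, hgN⟩, Subgroup.mem_subgroupOf.mpr hgK, ?_⟩
    ext x
    rw [hg x]
    rfl
  · rintro _ ⟨m, hm, rfl⟩
    apply Subgroup.subset_closure
    exact ⟨m, Subgroup.mem_subgroupOf.mp hm, fun x => rfl⟩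

end

/-- Let G be a finite group with Sylow p-subgroup S. Every subgroup P of S has a G-conjugate Q ≤ S such that N_S(Q) is a Sylow p-subgroup of N_G(Q); and for any Q ≤ S with that property, C_S(Q) is a Sylow p-subgroup of C_G(Q) and the automorphisms of Q induced by N_S(Q) form a Sylow p-subgroup of those induced by N_G(Q). -/
theorem result {G : Type*} [Group G] [Finite G] (p : ℕ) [Fact p.Prime] (S : Sylow p G) : (∀ P : Subgroup G, P ≤ S → ∃ g : G, P.map (MulAut.conj g).toMonoidHom ≤ S ∧ (∃ R : Sylow p ↥(Subgroup.normalizer ((P.map (MulAut.conj g).toMonoidHom : Subgroup G) : Set G)), (R : Subgroup ↥(Subgroup.normalizer ((P.map (MulAut.conj g).toMonoidHom : Subgroup G) : Set G))) = (Cfsg.FusionSystem.normalizerIn (S : Subgroup G) (P.map (MulAut.conj g).toMonoidHom)).subgroupOf (Subgroup.normalizer ((P.map (MulAut.conj g).toMonoidHom : Subgroup G) : Set G)))) ∧ ∀ Q : Subgroup G, Q ≤ S → (∃ R : Sylow p ↥(Subgroup.normalizer (Q : Set G)), (R : Subgroup ↥(Subgroup.normalizer (Q : Set G))) = (Cfsg.FusionSystem.normalizerIn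 (S : Subgroup G) Q).subgroupOf (Subgroup.normalizer (Q : Set G))) → (∃ R : Sylow p ↥(Subgroup.centralizer (Q : Set G)), (R : Subgroup ↥(Subgroup.centralizer (Q : Set G))) = (Cfsg.FusionSystem.centralizerIn (S : Subgroup G) Q).subgroupOf (Subgroup.centralizer (Q : Set G))) ∧ (∃ R : Sylow p ↥(Cfsg.autInducedBy ⊤ Q), (R : Subgroup ↥(Cfsg.autInducedBy ⊤ Q)) = (Cfsg.autInducedBy (S : Subgroup G) Q).subgroupOf (Cfsg.autInducedBy ⊤ Q)) := by
  constructor
  · intro P hP
    obtain ⟨g, hg1, hg2⟩ := part1 S P hP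
    exact ⟨g, hg1, exists_sylow_of_card inf_le_right hg2⟩
  · rintro Q hQ ⟨R, hR⟩
    have hcard := card_of_sylow (A := FusionSystem.normalizerIn (S : Subgroup G) Q) inf_le_right R hR
    have hCM : Subgroup.centralizer (Q : Set G) ≤ Subgroup.normalizer (Q : Set G) :=
      Subgroup.centralizer_le_normalizer _
    constructor
    · have hnorm : ∀ m ∈ Subgroup.normalizer (Q : Set G), ∀ n ∈ Subgroup.centralizer (Q : Set G),
          m * n * m⁻¹ ∈ Subgroup.centralizer (Q : Set G) := by
        intro m hm n hn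
        exact (Subgroup.normal_subgroupOf_iff hCM).mp
          (Subgroup.normal_subgroupOf_centralizer_normalizer (Q : Set G)) n m hn hm
      have h1 := sylow_inf_normal (S₁ := FusionSystem.normalizerIn (S : Subgroup G) Q) inf_le_right
        hcard hCM hnorm
      have h2 : FusionSystem.normalizerIn (S : Subgroup G) Q ⊓ Subgroup.centralizer (Q : Set G) =
          FusionSystem.centralizerIn (S : Subgroup G) Q := by
        show (S : Subgroup G) ⊓ Subgroup.normalizer (Q : Set G) ⊓ Subgroup.centralizer (Q : Set G) =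
          (S : Subgroup G) ⊓ Subgroup.centralizer (Q : Set G)
        rw [inf_assoc, inf_of_le_right hCM]
      rw [h2] at h1
      exact exists_sylow_of_card inf_le_right h1
    · have htop : autInducedBy ⊤ Q = Q.normalizerMonoidHom.range := by
        rw [autInducedBy_eq, Subgroup.top_subgroupOf, MonoidHom.range_eq_map]
      have hmem : ∀ m, Q.normalizerMonoidHom m ∈ autInducedBy ⊤ Q := by
        intro m
        rw [htop]
        exact ⟨m, rfl⟩
      have hsurj : Function.Surjective (Q.normalizerMonoidHom.codRestrict (autInducedBy ⊤ Q) hmem) := by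
        rintro ⟨α, hα⟩
        rw [htop] at hα
        obtain ⟨m, rfl⟩ := hα
        exact ⟨m, rfl⟩
      refine ⟨R.mapSurjective hsurj, ?_⟩
      rw [Sylow.coe_mapSurjective, hR, autInducedBy_eq (S : Subgroup G) Q]
      ext α
      constructor
      · rintro ⟨m, hm, rfl⟩
        refine Subgroup.mem_subgroupOf.mpr ⟨m, ?_, rfl⟩
        exact Subgroup.mem_subgroupOf.mpr (Subgroup.mem_subgroupOf.mp hm).1
      · intro hα
        obtain ⟨m, hm, hmα⟩ := Subgroup.mem_subgroupOf.mp hα
        refine ⟨m, ?_, Subtype.ext hmα⟩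
        exact Subgroup.mem_subgroupOf.mpr ⟨Subgroup.mem_subgroupOf.mp hm, m.2⟩

end Cfsg.Agent.S5122
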