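import Cfsg.Statements.S5123
import Mathlib

set_option autoImplicit false
open Cfsg

namespace Cfsg.Agent.S5123

theorem sylow_conj_mem {G : Type*} [Group G] [Finite G] {p : ℕ} [Fact p.Prime] (S : Sylow p G)
    {K Q : Subgroup G} (hSK : (S : Subgroup G) ≤ K) (hQK : Q ≤ K) (hQ : IsPGroup p Q) :
    ∃ k ∈ K, ∀ x ∈ Q, k * x * k⁻¹ ∈ (S : Subgroup G) := by
  have hQ₁ : IsPGroup p (Q.subgroupOf K) := hQ.comap_subtype
  obtain ⟨R, hR⟩ := hQ₁.exists_le_sylow
  obtain ⟨k, hk⟩ := MulAction.exists_smul_eq K R (S.subtype hSK)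
  refine ⟨k, k.2, fun x hx => ?_⟩
  have hxR : (⟨x, hQK hx⟩ : K) ∈ (R : Subgroup K) := hR (Subgroup.mem_subgroupOf.mpr hx)
  have h1 := Subgroup.smul_mem_pointwise_smul _ (MulAut.conj k) (R : Subgroup K) hxR
  rw [← Sylow.coe_subgroup_smul, hk, Sylow.coe_subtype, Subgroup.mem_subgroupOf] at h1
  simpa using h1

/-- Let G be a finite group with Sylow p-subgroup S, P, Q ≤ S and g ∈ G with gPg⁻¹ = Q, and suppose N_S(Q) is a Sylow p-subgroup of N_G(Q). Let N be the set of x ∈ N_S(P) with gxg⁻¹ ∈ N_S(Q)C_G(Q). Then some h ∈ C_G(Q) satisfies (hg)N(hg)⁻¹ ≤ S. -/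
theorem result {G : Type*} [Group G] [Finite G] (p : ℕ) [Fact p.Prime] (S : Sylow p G) (P Q : Subgroup G) (hP : P ≤ S) (hQ : Q ≤ S) (g : G) (hg : P.map (MulAut.conj g).toMonoidHom = Q) (hN : (∃ R : Sylow p ↥(Subgroup.normalizer (Q : Set G)), (R : Subgroup ↥(Subgroup.normalizer (Q : Set G))) = (Cfsg.FusionSystem.normalizerIn (S : Subgroup G) Q).subgroupOf (Subgroup.normalizer (Q : Set G)))) : ∃ h ∈ Subgroup.centralizer (Q : Set G), ((Cfsg.FusionSystem.normalizerIn (S : Subgroup G) P) ⊓ (Cfsg.FusionSystem.normalizerIn (S : Subgroup G) Q ⊔ Subgroup.centralizer (Q : Set G)).comap (MulAut.conj g).toMonoidHom).map (MulAut.conj (h * g)).toMonoidHom ≤ S := by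
  obtain ⟨R, hR⟩ := hN
  have hNSM : FusionSystem.normalizerIn (S : Subgroup G) Q ≤ Subgroup.normalizer (Q : Set G) :=
    inf_le_right
  have hCM : Subgroup.centralizer (Q : Set G) ≤ Subgroup.normalizer (Q : Set G) :=
    Subgroup.centralizer_le_normalizer _
  have hmapK : ((Cfsg.FusionSystem.normalizerIn (S : Subgroup G) P) ⊓
      (Cfsg.FusionSystem.normalizerIn (S : Subgroup G) Q ⊔
        Subgroup.centralizer (Q : Set G)).comap (MulAut.conj g).toMonoidHom).map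
          (MulAut.conj g).toMonoidHom ≤
      FusionSystem.normalizerIn (S : Subgroup G) Q ⊔ Subgroup.centralizer (Q : Set G) := by
    rintro _ ⟨x, hx, rfl⟩
    exact hx.2
  have hQ'p : IsPGroup p ((((Cfsg.FusionSystem.normalizerIn (S : Subgroup G) P) ⊓
      (Cfsg.FusionSystem.normalizerIn (S : Subgroup G) Q ⊔
        Subgroup.centralizer (Q : Set G)).comap (MulAut.conj g).toMonoidHom).map
          (MulAut.conj g).toMonoidHom).subgroupOf (Subgroup.normalizer (Q : Set G))) := by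
    apply IsPGroup.comap_subtype
    apply IsPGroup.map
    exact S.isPGroup'.to_le (inf_le_left.trans inf_le_left)
  have hQ'K : (((Cfsg.FusionSystem.normalizerIn (S : Subgroup G) P) ⊓
      (Cfsg.FusionSystem.normalizerIn (S : Subgroup G) Q ⊔
        Subgroup.centralizer (Q : Set G)).comap (MulAut.conj g).toMonoidHom).map
          (MulAut.conj g).toMonoidHom).subgroupOf (Subgroup.normalizer (Q : Set G)) ≤
      (R : Subgroup (Subgroup.normalizer (Q : Set G))) ⊔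
        (Subgroup.centralizer (Q : Set G)).subgroupOf (Subgroup.normalizer (Q : Set G)) := by
    rw [hR, ← Subgroup.subgroupOf_sup hNSM hCM]
    intro x hx
    exact hmapK hx
  obtain ⟨k, hk, hkQ⟩ := sylow_conj_mem R le_sup_left hQ'K hQ'p
  obtain ⟨r, hr, c, hc, rfl⟩ := Subgroup.mem_sup_of_normal_right.mp hk
  refine ⟨(c : G), hc, ?_⟩
  rintro _ ⟨x, hx, rfl⟩
  have hgx : g * x * g⁻¹ ∈ ((Cfsg.FusionSystem.normalizerIn (S : Subgroup G) P) ⊓
      (Cfsg.FusionSystem.normalizerIn (S : Subgroup G) Q ⊔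
        Subgroup.centralizer (Q : Set G)).comap (MulAut.conj g).toMonoidHom).map
          (MulAut.conj g).toMonoidHom := ⟨x, hx, rfl⟩
  have hgxM : g * x * g⁻¹ ∈ Subgroup.normalizer (Q : Set G) := (sup_le hNSM hCM) (hmapK hgx)
  have h1 := hkQ ⟨g * x * g⁻¹, hgxM⟩ (Subgroup.mem_subgroupOf.mpr hgx)
  have h2 : c * ⟨g * x * g⁻¹, hgxM⟩ * c⁻¹ ∈ (R : Subgroup (Subgroup.normalizer (Q : Set G))) := by
    have e : c * ⟨g * x * g⁻¹, hgxM⟩ * c⁻¹ =
        r⁻¹ * (r * c * ⟨g * x * g⁻¹, hgxM⟩ * (r * c)⁻¹) * r := by group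
    rw [e]
    exact mul_mem (mul_mem (inv_mem hr) h1) hr
  rw [hR] at h2
  have h3 := Subgroup.mem_subgroupOf.mp h2
  have h4 : ((c : G) * g) * x * ((c : G) * g)⁻¹ = (c : G) * (g * x * g⁻¹) * (c : G)⁻¹ := by group
  show ((c : G) * g) * x * ((c : G) * g)⁻¹ ∈ _
  rw [h4]
  exact h3.1

end Cfsg.Agent.S5123
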