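import Cfsg.Statements.S5128
import Cfsg.Agent.Lib.Helper88.FusExt
import Cfsg.Agent.Lib.Helper90.Lift

set_option autoImplicit false
open Cfsg

namespace Cfsg.Agent.S5128

open Cfsg.FusionSystem Cfsg.Agent.Lib.Helper90

/-- In a saturated fusion system over a finite p-group S, the product of two strongly closed subgroups is strongly closed. -/
theorem result {Ω : Type*} [Group Ω] {S : Subgroup Ω} [Finite S] (p : ℕ) [Fact p.Prime] (hS : IsPGroup p S) (F : Cfsg.FusionSystem S) (hF : F.IsSaturated p) (T₁ T₂ : Subgroup Ω) (h₁ : F.StronglyClosed T₁) (h₂ : F.StronglyClosed T₂) : F.StronglyClosed (T₁ ⊔ T₂) := by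
  refine ⟨sup_le h₁.1 h₂.1, fun R hR φ hφ x => ?_⟩
  obtain ⟨f', hf', hf'T⟩ := liftT_of_stronglyClosed hS hF h₂ R (extFun R φ) (mor_of_hom hφ)
  have hx := hf'T x x.2
  rw [extFun_apply] at hx
  obtain ⟨t₁, ht₁, t₂, ht₂, hxt⟩ := Cfsg.Agent.Lib.Helper88.sup_decomp (P := T₁) (R := T₂)
    (fun a ha n hn => by
      have := Cfsg.Agent.Lib.Helper88.sc_conj h₂ (S.inv_mem (h₁.1 ha)) hn
      simpa using this) (x : Ω) (hR x.2)
  have ht₂' : t₂ ∈ R ⊔ T₂ := Subgroup.mem_sup_right ht₂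
  have hx' : (x : Ω) ∈ R ⊔ T₂ := Subgroup.mem_sup_left x.2
  have ht₁' : t₁ ∈ R ⊔ T₂ := by
    have e : t₁ = x * t₂⁻¹ := by rw [hxt]; group
    rw [e]
    exact Subgroup.mul_mem _ hx' (Subgroup.inv_mem _ ht₂')
  have hf1 : f' t₁ ∈ T₁ :=
    Cfsg.Agent.Lib.Helper88.sc_mor h₁ (inf_le_right : (R ⊔ T₂) ⊓ T₁ ≤ T₁)
      (hf'.restrict inf_le_left) t₁ ⟨ht₁', ht₁⟩
  have hf2 : f' t₂ ∈ T₂ :=
    Cfsg.Agent.Lib.Helper88.sc_mor h₂ (le_refl T₂) (hf'.restrict le_sup_right) t₂ ht₂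
  have hfx : f' (x : Ω) ∈ T₁ ⊔ T₂ := by
    rw [hxt, hf'.map_mul ht₁' ht₂']
    exact Subgroup.mul_mem _ (Subgroup.mem_sup_left hf1) (Subgroup.mem_sup_right hf2)
  have e : φ x = (f' (x : Ω) * (φ x)⁻¹)⁻¹ * f' (x : Ω) := by group
  rw [e]
  exact Subgroup.mul_mem _ (Subgroup.inv_mem _ (Subgroup.mem_sup_right hx)) hfx

end Cfsg.Agent.S5128
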