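import Cfsg.Statements.S5147
import Cfsg.Agent.Lib.Helper97.FCDefs
import Cfsg.Agent.Lib.Helper97.FCExtU
import Cfsg.Agent.Lib.Helper97.FCQDefs
import Cfsg.Agent.Lib.Helper97.FCExtGen
import Cfsg.Agent.Lib.Helper35.FCQuot
import Cfsg.Agent.Lib.Helper2.FCExtH
import Cfsg.Agent.Lib.Helper88.FCB2
import Cfsg.Agent.Lib.Helper92.FCIn
import Cfsg.Agent.Lib.Helper75.FCSylInf
import Cfsg.Agent.Lib.Helper46.FCOut
import Cfsg.Agent.Lib.Helper46.FCMap
import Cfsg.Agent.Lib.Helper12.FCNormal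
import Cfsg.Agent.Lib.Helper1.FCStep
import Cfsg.Agent.Lib.Helper49.FCB1
import Cfsg.Agent.Lib.Helper34.FCB3
-- import your own Cfsg.Agent.* helpers here

set_option autoImplicit false
open Cfsg

namespace Cfsg.Agent.S5147

open Cfsg.Agent.Lib.Helper97.FC in
/-- the assembled statement, in the form of the interface -/
theorem fin2_all.{u} : Fin2Stmt.{u} := by
  have hextu : ExtUStmt.{u} := extU Cfsg.Agent.Lib.Helper49.FC.fc_b1 Cfsg.Agent.Lib.Helper88.FC.fc_b2
    Cfsg.Agent.Lib.Helper34.FC.fc_b3 Cfsg.Agent.Lib.Helper75.FC.fc_sylinf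
  have hcore : CoreStmt.{u} := core hextu Cfsg.Agent.Lib.Helper2.FC.fc_exth
  have hnorm : NormalStmt.{u} := Cfsg.Agent.Lib.Helper12.FC.fc_normal hcore
  have hstep : StepStmt.{u} :=
    Cfsg.Agent.Lib.Helper1.FC.fc_step hnorm Cfsg.Agent.Lib.Helper46.FC.fc_map
  have hsubn : SubnStmt.{u} := subn hnorm hstep
  have hextgen : ExtGenStmt.{u} := extGen Cfsg.Agent.Lib.Helper49.FC.fc_b1
    Cfsg.Agent.Lib.Helper34.FC.fc_b3 Cfsg.Agent.Lib.Helper75.FC.fc_sylinf
  have hquot : QuotStmt.{u} :=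
    Cfsg.Agent.Lib.Helper35.FC.fc_quot hextgen Cfsg.Agent.Lib.Helper88.FC.fc_b2
  exact fin2 Cfsg.Agent.Lib.Helper92.FC.fc_in Cfsg.Agent.Lib.Helper46.FC.fc_out hsubn hquot

/-- Let G be a finite group with Sylow 2-subgroup S whose 2-fusion system on S is constrained, and L a component of G (a subnormal quasisimple subgroup). Then the 2-fusion system of L/Z(L) on the image of S ∩ L is constrained. -/
theorem result {G : Type*} [Group G] [Finite G] (S : Sylow 2 G) (hF : (Cfsg.groupFusionSystem (S : Subgroup G)).IsConstrained 2) (L : Subgroup G) (hL : Cfsg.IsComponent L) : (Cfsg.groupFusionSystem (((S : Subgroup G).subgroupOf L).map (QuotientGroup.mk' (Subgroup.center L)))).IsConstrained 2 := by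
  exact fin2_all G S hF L hL

end Cfsg.Agent.S5147
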