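-- Statement S5160 (row 5160). The statement below is byte-identical to the frozen
-- statement Cfsg.CfsgFrozen.S5160 (Cfsg/Statements/S5160.lean).
import Cfsg.Statements.S5160
import Cfsg.Agent.Lib.Helper90.Normal
import Cfsg.Agent.Lib.Helper91.Centric
import Cfsg.Agent.Lib.Helper89.FusGroup

set_option autoImplicit false
open Cfsg

namespace Cfsg.Agent.S5160

open Cfsg.FusionSystem Cfsg.Agent.Lib.Helper90 Cfsg.Agent.Lib.Helper91

section

variable {Ω : Type*} [Group Ω] {S : Subgroup Ω}

/-- for `E` invariant in `F` over the same group, `Aut_E(R)` is normalized by `Aut_F(R)` -/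
theorem aut_conj_mem [Finite S] (F E : FusionSystem S) (hinv : E.IsInvariantIn F)
    {R : Subgroup Ω} (hR : R ≤ S) {γ c : MulAut R} (hγ : γ ∈ F.autGroup R)
    (hc : c ∈ E.autGroup R) : γ * c * γ⁻¹ ∈ E.autGroup R := by
  have hfinR : Finite R := finite_of_le hR
  have hγm : Mor F R (autFun R γ) := (mem_autGroup_iff F hR γ).mp hγ
  have hcm : Mor E R (autFun R c) := (mem_autGroup_iff E hR c).mp hc
  obtain ⟨α, hα, f₀, hf₀, hγf⟩ := invariant_frattini hinv hR hγm
  have hd : Mor E (img R f₀) (f₀ ∘ autFun R c ∘ invFn R f₀) := by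
    have h1 : Mor E (img R f₀) (autFun R c ∘ invFn R f₀) :=
      hf₀.inv.comp hcm (fun y hy => hf₀.invFn_mem hy)
    exact h1.comp hf₀ (fun y hy => autFun_mem c (hf₀.invFn_mem hy))
  have h2 := invariant_mor hinv hd hα
  have hαm : Mor F (img R f₀) (autFun S α) :=
    ((mem_autGroup_iff F le_rfl α).mp hα).restrict hf₀.img_le
  have himg : img (img R f₀) (autFun S α) = R := by
    ext y
    rw [hαm.mem_img]
    constructor
    · rintro ⟨z, hz, rfl⟩
      obtain ⟨x, hx, rfl⟩ := hf₀.mem_img.mp hz
      rw [← hγf x hx]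
      exact autFun_mem γ hx
    · intro hy
      refine ⟨f₀ (autFun R γ⁻¹ y), hf₀.mem_img_of_mem (autFun_mem _ hy), ?_⟩
      rw [← hγf _ (autFun_mem _ hy), autFun_apply' _ hy, autFun_apply]
      simp
  rw [himg] at h2
  rw [mem_autGroup_iff E hR]
  refine h2.congr ?_
  intro y hy
  have hxR : autFun R γ⁻¹ y ∈ R := autFun_mem _ hy
  have hyx : y = autFun S α (f₀ (autFun R γ⁻¹ y)) := by
    rw [← hγf _ hxR, autFun_apply' _ hy, autFun_apply]; simp
  have h3 : autFun S α⁻¹ y = f₀ (autFun R γ⁻¹ y) := by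
    have hf₀S : f₀ (autFun R γ⁻¹ y) ∈ S := hf₀.mem hxR
    conv_lhs => rw [hyx]
    rw [autFun_apply' _ hf₀S, autFun_apply]; simp
  show autFun S α (f₀ (autFun R c (invFn R f₀ (autFun S α⁻¹ y)))) = _
  rw [h3, hf₀.invFn_apply hxR, ← hγf _ (autFun_mem c hxR)]
  rw [autFun_apply' _ hy, autFun_apply, autFun_apply, autFun_apply' _ hy]
  rfl

/-- for `E` invariant in the saturated system `F` over the same group and `R` fully normalized,
`Aut_E(R)` contains every `p`-element of `Aut_F(R)` -/
theorem pElement_mem [Finite S] {p : ℕ} [Fact p.Prime] (hS : IsPGroup p S)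
    (F E : FusionSystem S) (hF : F.IsSaturated p) (hinv : E.IsInvariantIn F) {R : Subgroup Ω}
    (hfn : F.IsFullyNormalized R) {a : MulAut R} (ha : a ∈ F.autGroup R) (k : ℕ)
    (hak : a ^ p ^ k = 1) : a ∈ E.autGroup R := by
  have hR : R ≤ S := hfn.1
  have hfinR : Finite R := finite_of_le hR
  obtain ⟨⟨-, Sy, hSy⟩, -⟩ := fa_rec_of_fullyNormalized hS hF hfn
  have hB : IsPGroup p ((autInducedBy S R).subgroupOf (F.autGroup R)) := hSy ▸ Sy.isPGroup'
  have hidx : ¬ p ∣ ((autInducedBy S R).subgroupOf (F.autGroup R)).relIndex ⊤ := by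
    rw [Subgroup.relIndex_top_right, ← hSy]; exact Sy.not_dvd_index
  have hak' : (⟨a, ha⟩ : F.autGroup R) ^ p ^ k = 1 := Subtype.ext (by simpa using hak)
  have hA : IsPGroup p (Subgroup.zpowers (⟨a, ha⟩ : F.autGroup R)) := by
    rintro ⟨b, hb⟩
    obtain ⟨i, rfl⟩ := Subgroup.mem_zpowers_iff.mp hb
    refine ⟨k, ?_⟩
    apply Subtype.ext
    show ((⟨a, ha⟩ : F.autGroup R) ^ i) ^ p ^ k = 1
    rw [← zpow_natCast, ← zpow_mul, mul_comm, zpow_mul, zpow_natCast, hak', one_zpow]
  obtain ⟨m, -, hm⟩ := Cfsg.Agent.Lib.Helper89.sylow_conj_le ⊤ _ _ hB hidx le_top hA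
  have h1 := hm ⟨a, ha⟩ (Subgroup.mem_zpowers _)
  have h2 : (m : MulAut R) * a * (m : MulAut R)⁻¹ ∈ autInducedBy S R :=
    Subgroup.mem_subgroupOf.mp h1
  have h3 : (m : MulAut R) * a * (m : MulAut R)⁻¹ ∈ E.autGroup R :=
    autInducedBy_le_autGroup E hR h2
  have h4 := aut_conj_mem F E hinv hR (Subgroup.inv_mem _ m.2) h3
  have e : (m : MulAut R)⁻¹ * ((m : MulAut R) * a * (m : MulAut R)⁻¹) * ((m : MulAut R)⁻¹)⁻¹ = a := by
    group
  rw [e] at h4; exact h4

end

/-- Let G be a finite group with nontrivial Sylow p-subgroup S and F its fusion system on S. Suppose (a) no nontrivial proper subgroup of S is strongly closed in F, and (b) the automorphisms of S induced by G are generated by those induced, for R running over the fully normalized radical centric subgroups of F, by the subgroup of N_G(R) generated by its elements of p-power order. Then F is simple. -/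
theorem result {G : Type*} [Group G] [Finite G] (p : ℕ) [Fact p.Prime] (S : Sylow p G) (hS1 : (S : Subgroup G) ≠ ⊥) (ha : ∀ T : Subgroup G, (Cfsg.groupFusionSystem (S : Subgroup G)).StronglyClosed T → T = ⊥ ∨ T = (S : Subgroup G)) (hb : Cfsg.autInducedBy ⊤ (S : Subgroup G) = ⨆ (R : Subgroup G) (_ : (Cfsg.groupFusionSystem (S : Subgroup G)).IsFullyNormalized R ∧ (Cfsg.groupFusionSystem (S : Subgroup G)).IsRadical p R ∧ (Cfsg.groupFusionSystem (S : Subgroup G)).IsCentric R), Cfsg.autInducedBy (Subgroup.closure {g : G | g ∈ Subgroup.normalizer (R : Set G) ∧ ∃ k : ℕ, orderOf g = p ^ k}) (S : Subgroup G)) : (Cfsg.groupFusionSystem (S : Subgroup G)).IsSimple p := by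
  have hsat : (groupFusionSystem (S : Subgroup G)).IsSaturated p := Cfsg.Agent.Lib.Helper89.groupFusionSystem_isSaturated S
  have hSp : IsPGroup p (S : Subgroup G) := S.isPGroup'
  refine ⟨hsat, hS1, fun T E hE => ?_⟩
  have hinv : E.IsInvariantIn (groupFusionSystem (S : Subgroup G)) := hE.1.2.2
  have hEsat : E.IsSaturated p := hE.1.1
  rcases ha T hinv.2.1 with hT | hT
  · exact Or.inl hT
  · subst hT
    refine Or.inr ⟨rfl, fun P => Set.Subset.antisymm (hinv.1 P) ?_⟩
    have hsup : (⨆ (R : Subgroup G) (_ : (groupFusionSystem (S : Subgroup G)).IsFullyNormalized R ∧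
        (groupFusionSystem (S : Subgroup G)).IsRadical p R ∧
        (groupFusionSystem (S : Subgroup G)).IsCentric R),
        autInducedBy (Subgroup.closure {g : G | g ∈ Subgroup.normalizer (R : Set G) ∧
          ∃ k : ℕ, orderOf g = p ^ k}) (S : Subgroup G)) ≤ E.autGroup (S : Subgroup G) := by
      refine iSup_le fun R => iSup_le fun hR => ?_
      obtain ⟨hfn, -, hcen⟩ := hR
      have hRS : R ≤ (S : Subgroup G) := hfn.1
      have hfinR : Finite R := finite_of_le hRS
      have claim1 : ∀ g ∈ Subgroup.closure {g : G | g ∈ Subgroup.normalizer (R : Set G) ∧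
          ∃ k : ℕ, orderOf g = p ^ k},
          (∀ x ∈ R, g * x * g⁻¹ ∈ R) ∧ Mor E R (fun x => g * x * g⁻¹) := by
        intro g hg
        induction hg using Subgroup.closure_induction with
        | mem g hg =>
          obtain ⟨hgN, k, hk⟩ := hg
          have hgR : ∀ x ∈ R, g * x * g⁻¹ ∈ R := fun x hx =>
            (Subgroup.mem_normalizer_iff.mp hgN x).mp hx
          refine ⟨hgR, ?_⟩
          have haF : Cfsg.Agent.Lib.Helper89.conjAut R g hgN ∈
              (groupFusionSystem (S : Subgroup G)).autGroup R :=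
            (Cfsg.Agent.Lib.Helper89.gfs_mem_autGroup_iff _ hRS _).mpr ⟨g, fun x => rfl⟩
          have hpow : (Cfsg.Agent.Lib.Helper89.conjAut R g hgN) ^ p ^ k = 1 := by
            apply MulEquiv.ext
            intro x
            apply Subtype.ext
            rw [Cfsg.Agent.Lib.Helper89.pow_apply_of_conj _ g (fun x => rfl), ← hk,
              pow_orderOf_eq_one]
            simp
          have haE := pElement_mem hSp _ E hsat hinv hfn haF k hpow
          refine ((mem_autGroup_iff E hRS _).mp haE).congr ?_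
          intro x hx
          rw [autFun_apply' _ hx]
          rfl
        | one =>
          exact ⟨fun x hx => by simpa using hx, (mor_id E hRS).congr fun x hx => by simp⟩
        | mul a b _ _ iha ihb =>
          obtain ⟨haR, ham⟩ := iha
          obtain ⟨hbR, hbm⟩ := ihb
          refine ⟨fun x hx => ?_, (hbm.comp ham hbR).congr fun x hx => ?_⟩
          · have h5 := haR _ (hbR x hx)
            have e : a * b * x * (a * b)⁻¹ = a * (b * x * b⁻¹) * a⁻¹ := by group
            rw [e]; exact h5
          · show a * (b * x * b⁻¹) * a⁻¹ = a * b * x * (a * b)⁻¹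
            group
        | inv a _ iha =>
          obtain ⟨haR, ham⟩ := iha
          have himg : img R (fun x => a * x * a⁻¹) = R := ham.img_eq_self haR
          have hinvm := ham.inv
          rw [himg] at hinvm
          have hinvR : ∀ x ∈ R, a⁻¹ * x * a⁻¹⁻¹ ∈ R := by
            intro x hx
            have hx' : x ∈ img R (fun x => a * x * a⁻¹) := by rw [himg]; exact hx
            obtain ⟨y, hy, rfl⟩ := ham.mem_img.mp hx'
            have e : a⁻¹ * (a * y * a⁻¹) * a⁻¹⁻¹ = y := by group
            rw [e]; exact hy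
          refine ⟨hinvR, hinvm.congr fun x hx => ?_⟩
          have hx' : x ∈ img R (fun x => a * x * a⁻¹) := by rw [himg]; exact hx
          obtain ⟨y, hy, rfl⟩ := ham.mem_img.mp hx'
          rw [ham.invFn_apply hy]
          group
      intro α hα
      obtain ⟨g, hg, hgα⟩ := (mem_autInducedBy_iff _ _ α).mp hα
      obtain ⟨-, hgm⟩ := claim1 g hg
      have hαF : α ∈ (groupFusionSystem (S : Subgroup G)).autGroup (S : Subgroup G) :=
        (Cfsg.Agent.Lib.Helper89.gfs_mem_autGroup_iff _ le_rfl α).mpr ⟨g, hgα⟩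
      have hαm : Mor (groupFusionSystem (S : Subgroup G)) (S : Subgroup G)
          (autFun (S : Subgroup G) α) := (mem_autGroup_iff _ le_rfl α).mp hαF
      have hgm' : Mor E R (autFun (S : Subgroup G) α) := hgm.congr fun x hx => by
        rw [autFun_apply' _ (hRS hx), hgα]
      have h6 := mor_of_mor_on_centric hSp hsat hEsat hinv.1 hαm _ R rfl hRS hcen hgm'
      exact (mem_autGroup_iff E le_rfl α).mpr h6
    have key : (groupFusionSystem (S : Subgroup G)).autGroup (S : Subgroup G) ≤
        E.autGroup (S : Subgroup G) := by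
      intro α hα
      have hα' : α ∈ autInducedBy ⊤ (S : Subgroup G) := by
        obtain ⟨g, hg⟩ := (Cfsg.Agent.Lib.Helper89.gfs_mem_autGroup_iff _ le_rfl α).mp hα
        exact (mem_autInducedBy_iff ⊤ _ α).mpr ⟨g, Subgroup.mem_top g, hg⟩
      rw [hb] at hα'
      exact hsup hα'
    intro φ hφ
    have hP : P ≤ (S : Subgroup G) := hφ.1
    obtain ⟨α, hα, f₀, hf₀, hφf⟩ := invariant_frattini hinv hP (mor_of_hom hφ)
    have hαE : Mor E (S : Subgroup G) (autFun (S : Subgroup G) α) :=
      (mem_autGroup_iff E le_rfl α).mp (key hα)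
    have h1 : Mor E P (autFun (S : Subgroup G) α ∘ f₀) :=
      hf₀.comp hαE (fun x hx => hf₀.mem hx)
    have h2 : Mor E P (extFun P φ) := h1.congr fun x hx => (hφf x hx).symm
    exact h2.hom φ (fun x => (extFun_apply P φ x).symm)

end Cfsg.Agent.S5160
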