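import Cfsg.Statements.S5164

set_option autoImplicit false
open Cfsg

namespace Cfsg.Agent.S5164

open scoped commutatorElement

/-! ### `n < p²`: a `p`-group of permutations of `n` points is abelian -/

theorem comm_of_lt {n p : ℕ} [Fact p.Prime] (hnp : n < p ^ 2)
    (K : Subgroup (Equiv.Perm (Fin n))) (hK : IsPGroup p K) (g h : K) : g * h = h * g := by
  have hp : p.Prime := Fact.out
  have key : ∀ x : Fin n, ⁅g, h⁆ ∈ MulAction.stabilizer K x := by
    intro x
    obtain ⟨j, hj⟩ := hK.card_orbit x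
    have hidx : (MulAction.stabilizer K x).index = p ^ j := by
      rw [MulAction.index_stabilizer, ← hj, Nat.card_coe_set_eq]
    have hle : p ^ j ≤ n := by
      rw [← hj]
      calc Nat.card (MulAction.orbit K x) ≤ Nat.card (Fin n) :=
            Nat.card_le_card_of_injective Subtype.val Subtype.val_injective
        _ = n := Nat.card_fin n
    have hj1 : j ≤ 1 := by
      by_contra hj2
      have : p ^ 2 ≤ p ^ j := Nat.pow_le_pow_right hp.pos (by omega)
      omega
    interval_cases j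
    · have h1 : MulAction.stabilizer K x = ⊤ := Subgroup.index_eq_one.mp (by simpa using hidx)
      rw [h1]; exact Subgroup.mem_top _
    · have hnorm : (MulAction.stabilizer K x).Normal := by
        apply Subgroup.normal_of_index_eq_minFac_card
        obtain ⟨k, hk⟩ := IsPGroup.iff_card.mp hK
        have hk0 : k ≠ 0 := by
          rintro rfl
          have h2 : (MulAction.stabilizer K x).index ∣ Nat.card K := Subgroup.index_dvd_card _
          rw [hidx, hk] at h2
          simp at h2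
          exact hp.ne_one h2
        rw [hidx, hk, Nat.pow_minFac hk0, hp.minFac_eq, pow_one]
      have hcard : Nat.card (K ⧸ MulAction.stabilizer K x) = p := by
        rw [← Subgroup.index_eq_card, hidx, pow_one]
      have hcyc : IsCyclic (K ⧸ MulAction.stabilizer K x) := isCyclic_of_prime_card hcard
      have hcomm := Subgroup.Normal.quotient_commutative_iff_commutator_le.mp
        (IsCyclic.isMulCommutative (α := K ⧸ MulAction.stabilizer K x))
      exact hcomm (Subgroup.commutator_mem_commutator (Subgroup.mem_top g) (Subgroup.mem_top h))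
  have h1 : ⁅g, h⁆ = 1 := by
    apply Subtype.ext
    ext x
    have h2 := key x
    rw [MulAction.mem_stabilizer_iff] at h2
    have h3 : ((⁅g, h⁆ : K) : Equiv.Perm (Fin n)) x = x := h2
    rw [h3]; rfl
  exact (commutatorElement_eq_one_iff_commute.mp h1).eq

/-! ### `p² ≤ n`: a non-abelian `p`-group of even permutations -/

/-- permutations of `ZMod p × ZMod p` of the form `(i, j) ↦ (i + a, j + f i)` -/
def wr (p : ℕ) : Subgroup (Equiv.Perm (ZMod p × ZMod p)) where
  carrier := {σ | ∃ (a : ZMod p) (f : ZMod p → ZMod p),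
    ∀ x : ZMod p × ZMod p, σ x = (x.1 + a, x.2 + f x.1)}
  mul_mem' := by
    rintro σ τ ⟨a, f, hσ⟩ ⟨b, g, hτ⟩
    refine ⟨b + a, fun i => g i + f (i + b), fun x => ?_⟩
    rw [Equiv.Perm.mul_apply, hτ, hσ]
    ext <;> simp [add_assoc]
  one_mem' := ⟨0, fun _ => 0, fun x => by simp⟩
  inv_mem' := by
    rintro σ ⟨a, f, hσ⟩
    refine ⟨-a, fun i => - f (i - a), fun x => ?_⟩
    rw [Equiv.Perm.inv_eq_iff_eq, hσ]
    ext <;> simp [sub_eq_add_neg]

theorem wr_pow (p : ℕ) (σ : Equiv.Perm (ZMod p × ZMod p)) (a : ZMod p) (f : ZMod p → ZMod p)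
    (h : ∀ x : ZMod p × ZMod p, σ x = (x.1 + a, x.2 + f x.1)) (k : ℕ) :
    ∃ f' : ZMod p → ZMod p, ∀ x : ZMod p × ZMod p, (σ ^ k) x = (x.1 + k • a, x.2 + f' x.1) := by
  induction k with
  | zero => exact ⟨fun _ => 0, fun x => by simp⟩
  | succ k ih =>
    obtain ⟨f', hf'⟩ := ih
    refine ⟨fun i => f i + f' (i + a), fun x => ?_⟩
    rw [pow_succ, Equiv.Perm.mul_apply, h, hf']
    ext
    · simp
      ring
    · simp [add_assoc]

theorem wr_pow' (p : ℕ) (σ : Equiv.Perm (ZMod p × ZMod p)) (f : ZMod p → ZMod p)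
    (h : ∀ x : ZMod p × ZMod p, σ x = (x.1, x.2 + f x.1)) (k : ℕ) :
    ∀ x : ZMod p × ZMod p, (σ ^ k) x = (x.1, x.2 + k • f x.1) := by
  induction k with
  | zero => intro x; simp
  | succ k ih =>
    intro x
    rw [pow_succ, Equiv.Perm.mul_apply, h, ih]
    ext
    · simp
    · simp
      ring

theorem wr_pow_sq (p : ℕ) (σ : Equiv.Perm (ZMod p × ZMod p)) (hσ : σ ∈ wr p) :
    σ ^ p ^ 2 = 1 := by
  obtain ⟨a, f, h⟩ := hσ
  obtain ⟨f', hf'⟩ := wr_pow p σ a f h p
  have h1 : ∀ x : ZMod p × ZMod p, (σ ^ p) x = (x.1, x.2 + f' x.1) := by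
    intro x
    rw [hf']
    simp
  have h2 := wr_pow' p (σ ^ p) f' h1 p
  rw [pow_two, pow_mul]
  ext x
  · rw [h2]; simp
  · rw [h2]; simp

theorem wr_isPGroup (p : ℕ) : IsPGroup p (wr p) := by
  intro g
  refine ⟨2, Subtype.ext ?_⟩
  show ((g : Equiv.Perm (ZMod p × ZMod p))) ^ p ^ 2 = 1
  exact wr_pow_sq p _ g.2

/-- two non-commuting elements -/
theorem wr_not_comm (p : ℕ) [Fact p.Prime] : ∃ a b : wr p, a * b ≠ b * a := by
  refine ⟨⟨(Equiv.addRight (1 : ZMod p)).prodCongr (Equiv.refl _), 1, fun _ => 0, fun x => ?_⟩,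
    ⟨Equiv.prodShear (Equiv.refl _) (fun i => Equiv.addRight i), 0, fun i => i, fun x => ?_⟩, ?_⟩
  · ext <;> simp
  · ext <;> simp
  · intro h
    have h1 := congrArg (fun w : wr p => (w : Equiv.Perm (ZMod p × ZMod p)) (0, 0)) h
    simp at h1

theorem sign_eq_one_of_pow {α : Type*} [Fintype α] [DecidableEq α] (σ : Equiv.Perm α) {m : ℕ}
    (hm : Odd m) (h : σ ^ m = 1) : Equiv.Perm.sign σ = 1 := by
  have h1 : Equiv.Perm.sign σ ^ m = 1 := by rw [← map_pow, h, map_one]
  rcases Int.units_eq_one_or (Equiv.Perm.sign σ) with h2 | h2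
  · exact h2
  · rw [h2, Odd.neg_one_pow hm] at h1
    exact absurd h1 (by decide)

theorem sign_toPerm (u : ℤˣ) : Equiv.Perm.sign (MulAction.toPerm u : Equiv.Perm ℤˣ) = u := by
  revert u
  decide

theorem sign_viaEmbeddingHom {α β : Type*} [Fintype α] [DecidableEq α] [Fintype β] [DecidableEq β]
    (ι : α ↪ β) (e : Equiv.Perm α) :
    Equiv.Perm.sign (Equiv.Perm.viaEmbeddingHom ι e) = Equiv.Perm.sign e := by
  classical
  rw [Equiv.Perm.viaEmbeddingHom_apply]
  unfold Equiv.Perm.viaEmbedding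
  convert Equiv.Perm.sign_extendDomain e (Equiv.ofInjective ι.1 ι.2)

theorem exists_hom (n p : ℕ) (hn : 6 ≤ n) [Fact p.Prime] (hnp : p ^ 2 ≤ n) :
    ∃ f : wr p →* alternatingGroup (Fin n), Function.Injective f := by
  have hp : p.Prime := Fact.out
  have : NeZero p := ⟨hp.ne_zero⟩
  rcases hp.eq_two_or_odd' with h2 | hodd
  · subst h2
    have hcard : Fintype.card ((ZMod 2 × ZMod 2) ⊕ ℤˣ) ≤ Fintype.card (Fin n) := by
      simp
      omega
    obtain ⟨ι⟩ := Function.Embedding.nonempty_of_card_le hcard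
    let Ψ : Equiv.Perm (ZMod 2 × ZMod 2) →* Equiv.Perm ((ZMod 2 × ZMod 2) ⊕ ℤˣ) :=
      (Equiv.Perm.sumCongrHom (ZMod 2 × ZMod 2) ℤˣ).comp
        ((MonoidHom.id _).prod ((MulAction.toPermHom ℤˣ ℤˣ).comp Equiv.Perm.sign))
    have hΨ : Function.Injective Ψ := by
      intro σ τ hστ
      have h1 := Equiv.Perm.sumCongrHom_injective hστ
      exact congrArg Prod.fst h1
    have hsign : ∀ σ, Equiv.Perm.sign (Ψ σ) = 1 := by
      intro σ
      show Equiv.Perm.sign (Equiv.sumCongr σ (MulAction.toPerm (Equiv.Perm.sign σ))) = 1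
      rw [Equiv.Perm.sign_sumCongr, sign_toPerm, Int.units_mul_self]
    let f₀ : wr 2 →* Equiv.Perm (Fin n) :=
      (Equiv.Perm.viaEmbeddingHom ι).comp (Ψ.comp (wr 2).subtype)
    have hf₀ : ∀ w, f₀ w ∈ alternatingGroup (Fin n) := by
      intro w
      rw [Equiv.Perm.mem_alternatingGroup]
      show Equiv.Perm.sign (Equiv.Perm.viaEmbeddingHom ι (Ψ w)) = 1
      rw [sign_viaEmbeddingHom, hsign]
    refine ⟨f₀.codRestrict _ hf₀, ?_⟩
    intro a b hab
    have h1 : f₀ a = f₀ b := congrArg Subtype.val hab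
    exact Subtype.ext (hΨ (Equiv.Perm.viaEmbeddingHom_injective ι h1))
  · have hcard : Fintype.card (ZMod p × ZMod p) ≤ Fintype.card (Fin n) := by
      simp [ZMod.card]
      rw [← pow_two]; exact hnp
    obtain ⟨ι⟩ := Function.Embedding.nonempty_of_card_le hcard
    let f₀ : wr p →* Equiv.Perm (Fin n) := (Equiv.Perm.viaEmbeddingHom ι).comp (wr p).subtype
    have hf₀ : ∀ w, f₀ w ∈ alternatingGroup (Fin n) := by
      intro w
      rw [Equiv.Perm.mem_alternatingGroup]
      apply sign_eq_one_of_pow (f₀ w) (m := p ^ 2) hodd.pow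
      show (Equiv.Perm.viaEmbeddingHom ι (w : Equiv.Perm (ZMod p × ZMod p))) ^ p ^ 2 = 1
      rw [← map_pow, wr_pow_sq p _ w.2, map_one]
    refine ⟨f₀.codRestrict _ hf₀, ?_⟩
    intro a b hab
    have h1 : f₀ a = f₀ b := congrArg Subtype.val hab
    exact Subtype.ext (Equiv.Perm.viaEmbeddingHom_injective ι h1)

open scoped Pointwise in
/-- For n ≥ 6 and a prime p dividing |A_n|, a Sylow p-subgroup of A_n is abelian if and only if n < p^2. -/
theorem result (n p : ℕ) (hn : 6 ≤ n) [Fact p.Prime] (S : Sylow p (alternatingGroup (Fin n))) (hS : (S : Subgroup (alternatingGroup (Fin n))) ≠ ⊥) : IsMulCommutative S ↔ n < p ^ 2 := by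
  clear hS
  constructor
  · intro hcomm
    by_contra hnp
    have hnp : p ^ 2 ≤ n := not_lt.mp hnp
    obtain ⟨f, hf⟩ := exists_hom n p hn hnp
    obtain ⟨a, b, hab⟩ := wr_not_comm p
    have hP : IsPGroup p f.range :=
      (wr_isPGroup p).of_surjective f.rangeRestrict f.rangeRestrict_surjective
    obtain ⟨Q, hQ⟩ := hP.exists_le_sylow
    obtain ⟨m, hm⟩ := MulAction.exists_smul_eq (alternatingGroup (Fin n)) Q S
    have hmem : ∀ w : wr p, m * f w * m⁻¹ ∈ (S : Subgroup (alternatingGroup (Fin n))) := by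
      intro w
      have h1 : f w ∈ (Q : Subgroup (alternatingGroup (Fin n))) := hQ ⟨w, rfl⟩
      rw [← hm]
      have hcoe : ((m • Q : Sylow p (alternatingGroup (Fin n))) : Subgroup (alternatingGroup (Fin n)))
          = MulAut.conj m • (Q : Subgroup (alternatingGroup (Fin n))) := rfl
      rw [hcoe, Subgroup.mem_pointwise_smul_iff_inv_smul_mem]
      simpa [MulAut.smul_def, mul_assoc] using h1
    have h2 := hcomm.is_comm.comm (⟨_, hmem a⟩ : S) ⟨_, hmem b⟩
    have h3 : (m * f a * m⁻¹) * (m * f b * m⁻¹) = (m * f b * m⁻¹) * (m * f a * m⁻¹) :=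
      congrArg Subtype.val h2
    have h4 : f (a * b) = f (b * a) := by
      rw [map_mul, map_mul]
      have h5 : m * (f a * f b) * m⁻¹ = m * (f b * f a) * m⁻¹ := by
        have e1 : m * (f a * f b) * m⁻¹ = (m * f a * m⁻¹) * (m * f b * m⁻¹) := by group
        have e2 : m * (f b * f a) * m⁻¹ = (m * f b * m⁻¹) * (m * f a * m⁻¹) := by group
        rw [e1, e2, h3]
      exact mul_left_cancel (mul_right_cancel h5)
    exact hab (hf h4)
  · intro hnp
    refine ⟨⟨fun a b => ?_⟩⟩
    have hK : IsPGroup p ((S : Subgroup (alternatingGroup (Fin n))).map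
        (alternatingGroup (Fin n)).subtype) := S.2.map _
    have h1 := comm_of_lt hnp _ hK
      ⟨((a : alternatingGroup (Fin n)) : Equiv.Perm (Fin n)), ⟨a, a.2, rfl⟩⟩
      ⟨((b : alternatingGroup (Fin n)) : Equiv.Perm (Fin n)), ⟨b, b.2, rfl⟩⟩
    have h2 : ((a : alternatingGroup (Fin n)) : Equiv.Perm (Fin n)) * (b : alternatingGroup (Fin n))
        = (b : alternatingGroup (Fin n)) * (a : alternatingGroup (Fin n)) := congrArg Subtype.val h1
    exact Subtype.ext (Subtype.ext h2)

end Cfsg.Agent.S5164
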