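import Cfsg.Statements.S5166
import Cfsg.Agent.Lib.Helper89.TabMathieu

set_option autoImplicit false
set_option maxRecDepth 100000

namespace Cfsg.Agent.S5166

open Cfsg Cfsg.Agent.Lib.Helper9 Cfsg.Agent.Lib.Helper95 Cfsg.Agent.Lib.Helper89

/-! The `2`-fusion system of `M11`: explicit Sylow `2`-subgroup (semidihedral of order 16), data generated by computer, checked by the kernel. -/

/-- generators of a Sylow `2`-subgroup (tables) -/
def gens : List (List ℕ) :=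
  [[0, 6, 12, 9, 2, 22, 1, 10, 13, 4, 19, 17, 8, 16, 15, 7, 3, 14, 18, 21, 5, 11, 23, 20],
   [0, 6, 8, 12, 4, 23, 1, 11, 2, 16, 15, 7, 3, 13, 14, 10, 9, 21, 18, 19, 20, 17, 22, 5]]

/-- words in the generators, one for each element -/
def words : List (List ℕ) :=
  [[],
   [0],
   [1],
   [0, 0],
   [1, 0],
   [0, 1],
   [0, 0, 0],
   [1, 0, 0],
   [0, 1, 0],
   [0, 0, 1],
   [0, 0, 0, 0],
   [0, 1, 0, 0],
   [0, 0, 1, 0],
   [1, 0, 0, 1],
   [0, 0, 0, 0, 0],
   [1, 0, 0, 1, 0]]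

/-- the tables of all elements -/
def L : List (List ℕ) := tgElems gens words

/-- the central involution -/
def zT : List ℕ := [0, 1, 16, 12, 13, 5, 6, 11, 9, 8, 17, 7, 3, 4, 19, 21, 2, 10, 18, 14, 20, 15, 22, 23]

/-- the fusion certificate -/
def steps : List TStep :=
  [.mul 0 0,
   .fus 0 [0, 18, 4, 9, 12, 15, 2, 7, 6, 1, 14, 19, 8, 13, 22, 10, 3, 11, 16, 20, 21, 17, 5, 23],
   .fus 2 [0, 6, 12, 9, 2, 22, 1, 10, 13, 4, 19, 17, 8, 16, 15, 7, 3, 14, 18, 21, 5, 11, 23, 20],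
   .fus 2 [0, 6, 8, 12, 4, 23, 1, 11, 2, 16, 15, 7, 3, 13, 14, 10, 9, 21, 18, 19, 20, 17, 22, 5],
   .mul 0 3,
   .mul 2 3,
   .mul 3 2,
   .fus 6 [0, 6, 9, 16, 4, 23, 18, 7, 3, 12, 15, 11, 2, 13, 10, 14, 8, 21, 1, 17, 20, 19, 5, 22],
   .fus 8 [0, 6, 12, 9, 2, 22, 1, 10, 13, 4, 19, 17, 8, 16, 15, 7, 3, 14, 18, 21, 5, 11, 23, 20],
   .fus 8 [0, 6, 8, 12, 4, 23, 1, 11, 2, 16, 15, 7, 3, 13, 14, 10, 9, 21, 18, 19, 20, 17, 22, 5],
   .mul 0 8,
   .mul 2 8,
   .mul 8 2,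
   .mul 3 8,
   .mul 8 3]

theorem okL : tgOK gens L = true := by decide +kernel

theorem dataL : TgData gens L := tgData_of_ok gens words okL

theorem nodupL : L.Nodup := by decide +kernel

theorem cardP : Nat.card (tgGrp gens) = 2 ^ 4 := by
  rw [dataL.card nodupL]; decide +kernel

theorem isP : IsPGroup 2 (tgGrp gens) := IsPGroup.of_card cardP

theorem leH : tgGrp gens ≤ Spor.M11 :=
  tgGrp_le_of_check Spor.M11 inM11 inM11_sound (by decide +kernel)

theorem hB : ∀ T : Subgroup (Equiv.Perm GolayPt), T ≤ tgGrp gens → T ≠ ⊥ →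
    (∀ t ∈ T, ∀ g ∈ Spor.M11, g * t * g⁻¹ ∈ tgGrp gens → g * t * g⁻¹ ∈ T) → tgGrp gens ≤ T :=
  tg_noStronglyClosed dataL isP Spor.M11 leH inM11 inM11_sound zT (by decide +kernel) steps
    (by decide +kernel)

theorem hAL0 : ∀ a ∈ [idT], a ∈ L := by
  intro a ha
  rw [List.mem_singleton] at ha
  rw [ha]; exact dataL.one

theorem chain1 : chainStepOK [idT] (cenL L L) [0, 1, 16, 12, 13, 5, 6, 11, 9, 8, 17, 7, 3, 4, 19, 21, 2, 10, 18, 14, 20, 15, 22, 23] = true := by decide +kernel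

theorem chain2 : chainStepOK (cenL L L) (sqsL L L) [0, 1, 8, 4, 12, 23, 6, 19, 16, 2, 21, 14, 13, 3, 7, 10, 9, 15, 18, 11, 22, 17, 20, 5] = true := by decide +kernel

theorem chain3 : chainStepOK (sqsL L L) (cenL L (sqsL L L)) [0, 6, 3, 8, 16, 22, 1, 17, 4, 13, 14, 10, 9, 2, 21, 11, 12, 19, 18, 15, 5, 7, 23, 20] = true := by decide +kernel

theorem chain4 : chainStepOK (cenL L (sqsL L L)) L [0, 1, 3, 16, 8, 22, 6, 15, 13, 4, 19, 21, 2, 9, 10, 11, 12, 14, 18, 17, 23, 7, 5, 20] = true := by decide +kernel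

theorem hA : ∀ g ∈ Spor.M11, (∀ x ∈ tgGrp gens, g * x * g⁻¹ ∈ tgGrp gens) →
    (orderOf g).Coprime 2 → ∀ x ∈ tgGrp gens, g * x * g⁻¹ = x := by
  intro g _ hg hco
  have i0 := tgInv_of_normalizes dataL hg
  have h2 := tg_two_pow dataL isP
  have hm := pow_orderOf_eq_one g
  have c0 := tg_chain_start g
  have c1 := tg_chain_step dataL hm hco h2 hAL0 (cenL_sub L _) c0
    (tgInv_cen dataL i0 i0 (fun _ h => h)).1 chain1
  have c2 := tg_chain_step dataL hm hco h2 (cenL_sub L _) (sqsL_sub L _) c1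
    (tgInv_sqs dataL i0 i0 (fun _ h => h)).1 chain2
  have c3 := tg_chain_step dataL hm hco h2 (sqsL_sub L _) (cenL_sub L _) c2
    (tgInv_cen dataL i0 (tgInv_sqs dataL i0 i0 (fun _ h => h)) (sqsL_sub L _)).1 chain3
  have c4 := tg_chain_step dataL hm hco h2 (cenL_sub L _) (fun _ h => h) c3
    i0.1 chain4
  exact tg_centralize_of_all dataL c4

theorem hne : tgGrp gens ≠ ⊥ := by
  intro h
  have h1 := cardP
  rw [h, Subgroup.card_bot] at h1
  norm_num at h1

/-- The 2-fusion system of the Mathieu group M₁₁ (as the explicit permutation group carved out of the automorphism group of the binary Golay code) on a Sylow 2-subgroup is simple: saturated, over a nontrivial 2-group, with no normal subsystem other than the trivial one and itself. -/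
theorem result (S : Sylow 2 Cfsg.Spor.M11) : (Cfsg.groupFusionSystem (S : Subgroup Cfsg.Spor.M11)).IsSimple 2 :=
  gfs_isSimple_of_subgroup Spor.M11 2 (tgGrp gens) leH (by rw [cardP, fact_M11]) hne hA hB S

end Cfsg.Agent.S5166
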