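import Cfsg.Statements.S5167
import Cfsg.Agent.Lib.Helper89.TabMathieu

set_option autoImplicit false
set_option maxRecDepth 100000

namespace Cfsg.Agent.S5167

open Cfsg Cfsg.Agent.Lib.Helper9 Cfsg.Agent.Lib.Helper95 Cfsg.Agent.Lib.Helper89

/-! The `2`-fusion system of `M12`: explicit Sylow `2`-subgroup (order 64), data generated by computer, checked by the kernel. -/

/-- generators of a Sylow `2`-subgroup (tables) -/
def gens : List (List ℕ) :=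
  [[8, 12, 6, 3, 2, 14, 13, 21, 4, 16, 17, 5, 1, 9, 7, 11, 0, 20, 18, 15, 23, 22, 19, 10],
   [9, 3, 13, 1, 6, 7, 4, 5, 16, 0, 17, 14, 18, 2, 11, 22, 8, 10, 12, 21, 23, 19, 15, 20],
   [6, 1, 8, 18, 4, 7, 0, 5, 2, 9, 10, 21, 12, 16, 14, 22, 13, 23, 3, 19, 20, 11, 15, 17]]

/-- words in the generators, one for each element -/
def words : List (List ℕ) :=
  [[],
   [0],
   [1],
   [2],
   [0, 0],
   [1, 0],
   [2, 0],
   [0, 1],
   [2, 1],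
   [0, 2],
   [1, 2],
   [0, 0, 0],
   [1, 0, 0],
   [2, 0, 0],
   [0, 1, 0],
   [2, 1, 0],
   [1, 2, 0],
   [0, 0, 1],
   [1, 0, 1],
   [0, 2, 1],
   [1, 2, 1],
   [0, 0, 2],
   [1, 0, 2],
   [2, 0, 2],
   [0, 1, 2],
   [2, 1, 2],
   [0, 0, 0, 0],
   [1, 0, 0, 0],
   [2, 0, 0, 0],
   [0, 1, 0, 0],
   [2, 1, 0, 0],
   [1, 2, 0, 0],
   [0, 0, 1, 0],
   [1, 0, 1, 0],
   [0, 2, 1, 0],
   [1, 2, 1, 0],
   [0, 0, 0, 1],
   [1, 0, 0, 1],
   [2, 0, 0, 1],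
   [0, 1, 0, 1],
   [0, 1, 2, 1],
   [2, 1, 2, 1],
   [0, 0, 0, 2],
   [1, 0, 0, 2],
   [1, 0, 1, 2],
   [0, 2, 1, 2],
   [0, 0, 0, 0, 0],
   [1, 0, 0, 0, 0],
   [2, 0, 0, 0, 0],
   [0, 1, 0, 0, 0],
   [2, 1, 0, 0, 0],
   [1, 0, 1, 0, 0],
   [0, 2, 1, 0, 0],
   [1, 2, 1, 0, 0],
   [0, 1, 0, 1, 0],
   [0, 1, 2, 1, 0],
   [1, 2, 0, 0, 1],
   [1, 0, 1, 0, 1],
   [0, 2, 1, 2, 1],
   [0, 1, 0, 0, 2],
   [0, 1, 0, 0, 0, 0],
   [2, 1, 0, 0, 0, 0],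
   [1, 0, 1, 0, 0, 0],
   [0, 1, 2, 1, 0, 0]]

/-- the tables of all elements -/
def L : List (List ℕ) := tgElems gens words

/-- the central involution -/
def zT : List ℕ := [6, 1, 16, 3, 9, 22, 0, 15, 13, 4, 10, 21, 12, 8, 19, 7, 2, 17, 18, 14, 20, 11, 5, 23]

/-- the fusion certificate -/
def steps : List TStep :=
  [.mul 0 0,
   .fus 0 [3, 6, 9, 12, 16, 17, 18, 15, 2, 8, 10, 22, 1, 13, 19, 5, 4, 20, 0, 14, 21, 7, 23, 11],
   .fus 2 [8, 12, 6, 3, 2, 14, 13, 21, 4, 16, 17, 5, 1, 9, 7, 11, 0, 20, 18, 15, 23, 22, 19, 10],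
   .fus 2 [9, 3, 13, 1, 6, 7, 4, 5, 16, 0, 17, 14, 18, 2, 11, 22, 8, 10, 12, 21, 23, 19, 15, 20],
   .mul 0 2,
   .fus 3 [9, 3, 13, 1, 6, 7, 4, 5, 16, 0, 17, 14, 18, 2, 11, 22, 8, 10, 12, 21, 23, 19, 15, 20],
   .fus 3 [6, 1, 8, 18, 4, 7, 0, 5, 2, 9, 10, 21, 12, 16, 14, 22, 13, 23, 3, 19, 20, 11, 15, 17],
   .mul 2 3,
   .mul 3 2,
   .mul 0 4,
   .mul 2 4,
   .mul 3 4,
   .mul 4 3,
   .mul 4 5,
   .fus 6 [6, 1, 8, 18, 4, 7, 0, 5, 2, 9, 10, 21, 12, 16, 14, 22, 13, 23, 3, 19, 20, 11, 15, 17],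
   .fus 3 [13, 2, 18, 3, 8, 5, 4, 23, 0, 9, 17, 7, 16, 6, 15, 20, 1, 14, 12, 21, 10, 11, 22, 19],
   .fus 16 [8, 12, 6, 3, 2, 14, 13, 21, 4, 16, 17, 5, 1, 9, 7, 11, 0, 20, 18, 15, 23, 22, 19, 10],
   .fus 16 [9, 3, 13, 1, 6, 7, 4, 5, 16, 0, 17, 14, 18, 2, 11, 22, 8, 10, 12, 21, 23, 19, 15, 20],
   .mul 2 16,
   .mul 16 2,
   .mul 3 16,
   .mul 16 3,
   .mul 4 16,
   .mul 16 4,
   .mul 6 16,
   .mul 16 6,
   .mul 8 16,
   .mul 16 8,
   .mul 11 16,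
   .mul 12 16,
   .mul 16 12,
   .fus 28 [12, 18, 13, 16, 1, 15, 4, 21, 2, 8, 23, 11, 6, 9, 17, 19, 0, 5, 3, 7, 14, 20, 22, 10],
   .fus 32 [8, 12, 6, 3, 2, 14, 13, 21, 4, 16, 17, 5, 1, 9, 7, 11, 0, 20, 18, 15, 23, 22, 19, 10],
   .mul 0 32,
   .mul 2 32,
   .mul 32 2,
   .mul 3 32,
   .mul 32 3,
   .mul 4 32,
   .mul 32 4,
   .mul 6 32,
   .mul 32 6,
   .mul 8 32,
   .mul 11 32,
   .mul 32 11,
   .mul 12 32,
   .mul 13 32,
   .mul 16 32,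
   .mul 17 32,
   .mul 32 17,
   .mul 18 32,
   .mul 19 32,
   .mul 32 19,
   .mul 20 32,
   .mul 32 20,
   .mul 21 32,
   .mul 32 21,
   .mul 22 32,
   .mul 32 22,
   .mul 27 32,
   .mul 32 27,
   .mul 30 32,
   .mul 31 32]

theorem okL : tgOK gens L = true := by decide +kernel

theorem dataL : TgData gens L := tgData_of_ok gens words okL

theorem nodupL : L.Nodup := by decide +kernel

theorem cardP : Nat.card (tgGrp gens) = 2 ^ 6 := by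
  rw [dataL.card nodupL]; decide +kernel

theorem isP : IsPGroup 2 (tgGrp gens) := IsPGroup.of_card cardP

theorem leH : tgGrp gens ≤ Spor.M12 :=
  tgGrp_le_of_check Spor.M12 inM12 inM12_sound (by decide +kernel)

theorem hB : ∀ T : Subgroup (Equiv.Perm GolayPt), T ≤ tgGrp gens → T ≠ ⊥ →
    (∀ t ∈ T, ∀ g ∈ Spor.M12, g * t * g⁻¹ ∈ tgGrp gens → g * t * g⁻¹ ∈ T) → tgGrp gens ≤ T :=
  tg_noStronglyClosed dataL isP Spor.M12 leH inM12 inM12_sound zT (by decide +kernel) steps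
    (by decide +kernel)

theorem hAL0 : ∀ a ∈ [idT], a ∈ L := by
  intro a ha
  rw [List.mem_singleton] at ha
  rw [ha]; exact dataL.one

theorem chain1 : chainStepOK [idT] (cenL L L) [6, 1, 16, 3, 9, 22, 0, 15, 13, 4, 10, 21, 12, 8, 19, 7, 2, 17, 18, 14, 20, 11, 5, 23] = true := by decide +kernel

theorem chain2 : chainStepOK (cenL L L) (ordL 2 (sqsL L L)) [0, 12, 16, 18, 4, 22, 6, 15, 13, 9, 20, 11, 1, 8, 14, 7, 2, 23, 3, 19, 10, 21, 5, 17] = true := by decide +kernel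

theorem chain3 : chainStepOK (ordL 2 (sqsL L L)) (sqsL L L) [4, 1, 13, 3, 6, 7, 9, 22, 2, 0, 20, 14, 12, 16, 21, 5, 8, 23, 18, 11, 10, 19, 15, 17] = true := by decide +kernel

theorem chain4 : chainStepOK (sqsL L L) (cenL L (sqsL L L)) [0, 3, 13, 12, 4, 15, 6, 5, 2, 9, 23, 21, 18, 16, 19, 22, 8, 10, 1, 14, 17, 11, 7, 20] = true := by decide +kernel

theorem chain5 : chainStepOK (cenL L (sqsL L L)) (cenL L (ordL 2 (sqsL L L))) [0, 1, 13, 18, 9, 15, 6, 22, 16, 4, 10, 11, 12, 2, 19, 5, 8, 23, 3, 14, 20, 21, 7, 17] = true := by decide +kernel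

theorem chain6 : chainStepOK (cenL L (ordL 2 (sqsL L L))) L [2, 1, 4, 18, 13, 11, 16, 14, 0, 8, 17, 7, 12, 6, 22, 19, 9, 20, 3, 5, 23, 15, 21, 10] = true := by decide +kernel

theorem hA : ∀ g ∈ Spor.M12, (∀ x ∈ tgGrp gens, g * x * g⁻¹ ∈ tgGrp gens) →
    (orderOf g).Coprime 2 → ∀ x ∈ tgGrp gens, g * x * g⁻¹ = x := by
  intro g _ hg hco
  have i0 := tgInv_of_normalizes dataL hg
  have h2 := tg_two_pow dataL isP
  have hm := pow_orderOf_eq_one g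
  have c0 := tg_chain_start g
  have c1 := tg_chain_step dataL hm hco h2 hAL0 (cenL_sub L _) c0
    (tgInv_cen dataL i0 i0 (fun _ h => h)).1 chain1
  have c2 := tg_chain_step dataL hm hco h2 (cenL_sub L _) (ordL_sub 2 (sqsL_sub L _)) c1
    (tgInv_ord dataL 2 (tgInv_sqs dataL i0 i0 (fun _ h => h)) (sqsL_sub L _)).1 chain2
  have c3 := tg_chain_step dataL hm hco h2 (ordL_sub 2 (sqsL_sub L _)) (sqsL_sub L _) c2
    (tgInv_sqs dataL i0 i0 (fun _ h => h)).1 chain3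
  have c4 := tg_chain_step dataL hm hco h2 (sqsL_sub L _) (cenL_sub L _) c3
    (tgInv_cen dataL i0 (tgInv_sqs dataL i0 i0 (fun _ h => h)) (sqsL_sub L _)).1 chain4
  have c5 := tg_chain_step dataL hm hco h2 (cenL_sub L _) (cenL_sub L _) c4
    (tgInv_cen dataL i0 (tgInv_ord dataL 2 (tgInv_sqs dataL i0 i0 (fun _ h => h)) (sqsL_sub L _)) (ordL_sub 2 (sqsL_sub L _))).1 chain5
  have c6 := tg_chain_step dataL hm hco h2 (cenL_sub L _) (fun _ h => h) c5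
    i0.1 chain6
  exact tg_centralize_of_all dataL c6

theorem hne : tgGrp gens ≠ ⊥ := by
  intro h
  have h1 := cardP
  rw [h, Subgroup.card_bot] at h1
  norm_num at h1

/-- The 2-fusion system of the Mathieu group M₁₂ (as the explicit permutation group carved out of the automorphism group of the binary Golay code) on a Sylow 2-subgroup is simple: saturated, over a nontrivial 2-group, with no normal subsystem other than the trivial one and itself. -/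
theorem result (S : Sylow 2 Cfsg.Spor.M12) : (Cfsg.groupFusionSystem (S : Subgroup Cfsg.Spor.M12)).IsSimple 2 :=
  gfs_isSimple_of_subgroup Spor.M12 2 (tgGrp gens) leH (by rw [cardP, fact_M12]) hne hA hB S

end Cfsg.Agent.S5167
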