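import Cfsg.Statements.S5169
import Cfsg.Agent.Lib.Helper89.TabMathieu

set_option autoImplicit false
set_option maxRecDepth 100000

namespace Cfsg.Agent.S5169

open Cfsg Cfsg.Agent.Lib.Helper9 Cfsg.Agent.Lib.Helper95 Cfsg.Agent.Lib.Helper89

/-! The `2`-fusion system of `M23`: explicit Sylow `2`-subgroup (order 128, inside the point stabilizer `M22`), data generated by computer, checked by the kernel. -/

/-- generators of a Sylow `2`-subgroup (tables) -/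
def gens : List (List ℕ) :=
  [[0, 7, 9, 20, 21, 6, 16, 1, 19, 12, 22, 10, 4, 15, 8, 2, 14, 11, 13, 3, 5, 18, 17, 23],
   [0, 1, 16, 21, 13, 20, 18, 7, 14, 19, 10, 11, 15, 4, 8, 12, 2, 17, 6, 9, 5, 3, 22, 23],
   [0, 1, 8, 14, 21, 19, 15, 7, 6, 12, 11, 10, 3, 16, 9, 2, 20, 22, 13, 4, 18, 5, 17, 23]]

/-- words in the generators, one for each element -/
def words : List (List ℕ) :=
  [[],
   [0],
   [1],
   [2],
   [0, 0],
   [1, 0],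
   [2, 0],
   [0, 1],
   [2, 1],
   [0, 2],
   [1, 2],
   [2, 2],
   [0, 0, 0],
   [1, 0, 0],
   [2, 0, 0],
   [0, 1, 0],
   [2, 1, 0],
   [0, 2, 0],
   [1, 2, 0],
   [2, 2, 0],
   [0, 0, 1],
   [1, 0, 1],
   [2, 0, 1],
   [0, 2, 1],
   [1, 2, 1],
   [2, 2, 1],
   [1, 0, 2],
   [0, 1, 2],
   [2, 1, 2],
   [0, 2, 2],
   [2, 2, 2],
   [0, 0, 0, 0],
   [1, 0, 0, 0],
   [2, 0, 0, 0],
   [0, 1, 0, 0],
   [2, 1, 0, 0],
   [0, 2, 0, 0],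
   [1, 2, 0, 0],
   [2, 2, 0, 0],
   [0, 0, 1, 0],
   [1, 0, 1, 0],
   [2, 0, 1, 0],
   [0, 2, 1, 0],
   [1, 2, 1, 0],
   [2, 2, 1, 0],
   [1, 0, 2, 0],
   [0, 1, 2, 0],
   [2, 1, 2, 0],
   [0, 2, 2, 0],
   [2, 2, 2, 0],
   [0, 0, 0, 1],
   [2, 0, 0, 1],
   [0, 1, 0, 1],
   [2, 1, 0, 1],
   [0, 2, 0, 1],
   [1, 2, 0, 1],
   [2, 2, 0, 1],
   [1, 0, 2, 1],
   [0, 1, 2, 1],
   [2, 1, 2, 1],
   [0, 2, 2, 1],
   [0, 1, 0, 2],
   [2, 1, 0, 2],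
   [0, 0, 1, 2],
   [1, 0, 1, 2],
   [2, 0, 1, 2],
   [0, 2, 2, 2],
   [0, 0, 0, 0, 0],
   [1, 0, 0, 0, 0],
   [0, 1, 0, 0, 0],
   [2, 1, 0, 0, 0],
   [0, 2, 0, 0, 0],
   [1, 2, 0, 0, 0],
   [2, 2, 0, 0, 0],
   [1, 0, 1, 0, 0],
   [1, 2, 1, 0, 0],
   [1, 0, 2, 0, 0],
   [0, 1, 2, 0, 0],
   [2, 1, 2, 0, 0],
   [0, 2, 2, 0, 0],
   [2, 2, 2, 0, 0],
   [0, 0, 0, 1, 0],
   [2, 0, 0, 1, 0],
   [0, 1, 0, 1, 0],
   [2, 1, 0, 1, 0],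
   [0, 2, 0, 1, 0],
   [1, 2, 0, 1, 0],
   [2, 2, 0, 1, 0],
   [1, 0, 2, 1, 0],
   [0, 2, 2, 1, 0],
   [0, 1, 0, 2, 0],
   [1, 0, 1, 2, 0],
   [2, 0, 1, 2, 0],
   [1, 0, 0, 0, 1],
   [2, 0, 0, 0, 1],
   [0, 2, 0, 0, 1],
   [0, 0, 1, 0, 1],
   [2, 0, 1, 0, 1],
   [2, 2, 1, 0, 1],
   [2, 1, 2, 0, 1],
   [0, 2, 2, 0, 1],
   [2, 2, 2, 0, 1],
   [2, 0, 1, 2, 1],
   [1, 0, 1, 0, 2],
   [0, 2, 1, 0, 2],
   [0, 0, 0, 0, 0, 0],
   [1, 0, 0, 0, 0, 0],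
   [0, 1, 0, 0, 0, 0],
   [1, 0, 1, 0, 0, 0],
   [0, 1, 2, 0, 0, 0],
   [2, 1, 2, 0, 0, 0],
   [0, 1, 0, 1, 0, 0],
   [0, 1, 0, 2, 0, 0],
   [1, 0, 0, 0, 1, 0],
   [2, 0, 0, 0, 1, 0],
   [0, 2, 0, 0, 1, 0],
   [0, 0, 1, 0, 1, 0],
   [2, 0, 1, 0, 1, 0],
   [2, 1, 2, 0, 1, 0],
   [1, 0, 1, 0, 2, 0],
   [2, 2, 0, 0, 0, 1],
   [1, 0, 2, 0, 0, 1],
   [0, 2, 0, 1, 0, 1],
   [0, 2, 2, 1, 0, 1],
   [0, 1, 0, 0, 0, 0, 0],
   [1, 0, 1, 0, 0, 0, 0],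
   [2, 0, 1, 0, 1, 0, 0],
   [1, 0, 1, 0, 2, 0, 0]]

/-- the tables of all elements -/
def L : List (List ℕ) := tgElems gens words

/-- the central involution -/
def zT : List ℕ := [0, 1, 21, 16, 15, 8, 19, 7, 5, 18, 10, 11, 13, 12, 20, 4, 3, 17, 9, 6, 14, 2, 22, 23]

/-- the fusion certificate -/
def steps : List TStep :=
  [.mul 0 0,
   .fus 0 [0, 15, 12, 22, 17, 3, 19, 4, 16, 18, 7, 8, 13, 20, 21, 10, 11, 1, 9, 2, 6, 14, 5, 23],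
   .fus 2 [0, 7, 9, 20, 21, 6, 16, 1, 19, 12, 22, 10, 4, 15, 8, 2, 14, 11, 13, 3, 5, 18, 17, 23],
   .fus 2 [0, 1, 16, 21, 13, 20, 18, 7, 14, 19, 10, 11, 15, 4, 8, 12, 2, 17, 6, 9, 5, 3, 22, 23],
   .mul 0 2,
   .mul 2 3,
   .mul 2 4,
   .fus 2 [0, 17, 18, 15, 11, 1, 2, 7, 22, 9, 8, 12, 16, 6, 13, 10, 21, 19, 14, 20, 5, 4, 3, 23],
   .fus 8 [0, 7, 9, 20, 21, 6, 16, 1, 19, 12, 22, 10, 4, 15, 8, 2, 14, 11, 13, 3, 5, 18, 17, 23],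
   .fus 8 [0, 1, 8, 14, 21, 19, 15, 7, 6, 12, 11, 10, 3, 16, 9, 2, 20, 22, 13, 4, 18, 5, 17, 23],
   .mul 0 8,
   .mul 2 8,
   .mul 8 2,
   .mul 4 8,
   .mul 8 4,
   .mul 6 8,
   .fus 9 [0, 1, 8, 14, 21, 19, 15, 7, 6, 12, 11, 10, 3, 16, 9, 2, 20, 22, 13, 4, 18, 5, 17, 23],
   .mul 2 9,
   .mul 9 2,
   .mul 3 9,
   .mul 9 3,
   .mul 6 9,
   .mul 7 9,
   .mul 8 9,
   .mul 9 10,
   .mul 9 11,
   .mul 9 12,
   .mul 12 9,
   .mul 9 13,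
   .mul 13 9,
   .mul 9 16,
   .fus 3 [0, 8, 17, 2, 12, 6, 9, 5, 21, 13, 4, 1, 16, 3, 22, 14, 19, 15, 20, 18, 11, 10, 7, 23],
   .fus 32 [0, 7, 9, 20, 21, 6, 16, 1, 19, 12, 22, 10, 4, 15, 8, 2, 14, 11, 13, 3, 5, 18, 17, 23],
   .fus 32 [0, 1, 16, 21, 13, 20, 18, 7, 14, 19, 10, 11, 15, 4, 8, 12, 2, 17, 6, 9, 5, 3, 22, 23],
   .mul 0 32,
   .mul 2 32,
   .mul 3 32,
   .mul 32 3,
   .mul 5 32,
   .mul 6 32,
   .mul 32 6,
   .mul 8 32,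
   .mul 32 8,
   .mul 9 32,
   .mul 32 9,
   .mul 11 32,
   .mul 32 11,
   .mul 12 32,
   .mul 32 12,
   .mul 13 32,
   .mul 32 13,
   .mul 14 32,
   .mul 32 14,
   .mul 15 32,
   .mul 32 15,
   .mul 16 32,
   .mul 32 16,
   .mul 24 32,
   .mul 32 24,
   .mul 25 32,
   .mul 27 32,
   .mul 32 28,
   .mul 30 32,
   .fus 6 [0, 18, 15, 6, 22, 12, 21, 16, 17, 8, 3, 1, 13, 11, 10, 14, 4, 7, 19, 5, 20, 2, 9, 23],
   .fus 64 [0, 7, 9, 20, 21, 6, 16, 1, 19, 12, 22, 10, 4, 15, 8, 2, 14, 11, 13, 3, 5, 18, 17, 23],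
   .fus 64 [0, 1, 16, 21, 13, 20, 18, 7, 14, 19, 10, 11, 15, 4, 8, 12, 2, 17, 6, 9, 5, 3, 22, 23],
   .fus 64 [0, 1, 8, 14, 21, 19, 15, 7, 6, 12, 11, 10, 3, 16, 9, 2, 20, 22, 13, 4, 18, 5, 17, 23],
   .mul 3 64,
   .mul 4 64,
   .mul 5 64,
   .mul 6 64,
   .mul 8 64,
   .mul 64 8,
   .mul 9 64,
   .mul 64 9,
   .mul 11 64,
   .mul 64 11,
   .mul 12 64,
   .mul 64 12,
   .mul 13 64,
   .mul 64 13,
   .mul 18 64,
   .mul 64 18,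
   .mul 19 64,
   .mul 64 19,
   .mul 22 64,
   .mul 64 22,
   .mul 24 64,
   .mul 64 24,
   .mul 25 64,
   .mul 64 25,
   .mul 27 64,
   .mul 64 27,
   .mul 28 64,
   .mul 64 28,
   .mul 32 64,
   .mul 64 32,
   .mul 33 64,
   .mul 64 33,
   .mul 35 64,
   .mul 64 35,
   .mul 37 64,
   .mul 64 37,
   .mul 38 64,
   .mul 64 38,
   .mul 42 64,
   .mul 64 42,
   .mul 43 64,
   .mul 64 43,
   .mul 44 64,
   .mul 64 44,
   .mul 45 64,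
   .mul 64 45,
   .mul 46 64,
   .mul 64 46,
   .mul 47 64,
   .mul 64 47,
   .mul 49 64,
   .mul 64 49,
   .mul 50 64,
   .mul 64 50,
   .mul 58 64,
   .mul 64 58,
   .mul 59 64,
   .mul 64 59,
   .mul 60 64,
   .mul 64 60]

theorem okL : tgOK gens L = true := by decide +kernel

theorem dataL : TgData gens L := tgData_of_ok gens words okL

theorem nodupL : L.Nodup := by decide +kernel

theorem cardP : Nat.card (tgGrp gens) = 2 ^ 7 := by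
  rw [dataL.card nodupL]; decide +kernel

theorem isP : IsPGroup 2 (tgGrp gens) := IsPGroup.of_card cardP

theorem leH : tgGrp gens ≤ Spor.M23 :=
  tgGrp_le_of_check Spor.M23 inM23 inM23_sound (by decide +kernel)

theorem hB : ∀ T : Subgroup (Equiv.Perm GolayPt), T ≤ tgGrp gens → T ≠ ⊥ →
    (∀ t ∈ T, ∀ g ∈ Spor.M23, g * t * g⁻¹ ∈ tgGrp gens → g * t * g⁻¹ ∈ T) → tgGrp gens ≤ T :=
  tg_noStronglyClosed dataL isP Spor.M23 leH inM23 inM23_sound zT (by decide +kernel) steps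
    (by decide +kernel)

theorem hAL0 : ∀ a ∈ [idT], a ∈ L := by
  intro a ha
  rw [List.mem_singleton] at ha
  rw [ha]; exact dataL.one

theorem chain1 : chainStepOK [idT] (cenL L L) [0, 1, 21, 16, 15, 8, 19, 7, 5, 18, 10, 11, 13, 12, 20, 4, 3, 17, 9, 6, 14, 2, 22, 23] = true := by decide +kernel

theorem chain2 : chainStepOK (cenL L L) (cenL L (sqsL L L)) [0, 1, 6, 9, 5, 4, 2, 7, 15, 3, 10, 11, 14, 20, 12, 8, 18, 17, 16, 21, 13, 19, 22, 23] = true := by decide +kernel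

theorem chain3 : chainStepOK (cenL L (sqsL L L)) (cmsL L L (cenL L (difL (sqsL L L) (ordL 2 L)))) [0, 1, 12, 5, 18, 16, 14, 7, 3, 4, 17, 22, 21, 2, 19, 9, 8, 10, 15, 20, 6, 13, 11, 23] = true := by decide +kernel

theorem chain4 : chainStepOK (cmsL L L (cenL L (difL (sqsL L L) (ordL 2 L)))) (sqsL L L) [0, 1, 2, 9, 8, 15, 6, 7, 4, 3, 17, 22, 13, 12, 20, 5, 18, 10, 16, 19, 14, 21, 11, 23] = true := by decide +kernel

theorem chain5 : chainStepOK (sqsL L L) (prdL L (sqsL L L) (cenL L (difL (sqsL L L) (ordL 2 L)))) [0, 1, 3, 19, 13, 20, 9, 7, 14, 21, 22, 17, 5, 8, 4, 12, 6, 11, 2, 18, 15, 16, 10, 23] = true := by decide +kernel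

theorem chain6 : chainStepOK (prdL L (sqsL L L) (cenL L (difL (sqsL L L) (ordL 2 L)))) (cenL L (cenL L (sqsL L L))) [0, 1, 2, 16, 5, 4, 6, 7, 15, 18, 11, 10, 20, 14, 13, 8, 3, 22, 9, 19, 12, 21, 17, 23] = true := by decide +kernel

theorem chain7 : chainStepOK (cenL L (cenL L (sqsL L L))) L [0, 7, 2, 4, 3, 18, 19, 1, 9, 8, 10, 22, 12, 13, 20, 16, 15, 17, 5, 6, 14, 21, 11, 23] = true := by decide +kernel

theorem hA : ∀ g ∈ Spor.M23, (∀ x ∈ tgGrp gens, g * x * g⁻¹ ∈ tgGrp gens) →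
    (orderOf g).Coprime 2 → ∀ x ∈ tgGrp gens, g * x * g⁻¹ = x := by
  intro g _ hg hco
  have i0 := tgInv_of_normalizes dataL hg
  have h2 := tg_two_pow dataL isP
  have hm := pow_orderOf_eq_one g
  have c0 := tg_chain_start g
  have c1 := tg_chain_step dataL hm hco h2 hAL0 (cenL_sub L _) c0
    (tgInv_cen dataL i0 i0 (fun _ h => h)).1 chain1
  have c2 := tg_chain_step dataL hm hco h2 (cenL_sub L _) (cenL_sub L _) c1
    (tgInv_cen dataL i0 (tgInv_sqs dataL i0 i0 (fun _ h => h)) (sqsL_sub L _)).1 chain2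
  have c3 := tg_chain_step dataL hm hco h2 (cenL_sub L _) (cmsL_sub L _ _) c2
    (tgInv_cms dataL i0 i0 (tgInv_cen dataL i0 (tgInv_dif dataL (tgInv_sqs dataL i0 i0 (fun _ h => h)) (tgInv_ord dataL 2 i0 (fun _ h => h)) (sqsL_sub L _) (ordL_sub 2 (fun _ h => h))) (difL_sub _ (sqsL_sub L _))) (fun _ h => h) (cenL_sub L _)).1 chain3
  have c4 := tg_chain_step dataL hm hco h2 (cmsL_sub L _ _) (sqsL_sub L _) c3
    (tgInv_sqs dataL i0 i0 (fun _ h => h)).1 chain4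
  have c5 := tg_chain_step dataL hm hco h2 (sqsL_sub L _) (prdL_sub L _ _) c4
    (tgInv_prd dataL i0 (tgInv_sqs dataL i0 i0 (fun _ h => h)) (tgInv_cen dataL i0 (tgInv_dif dataL (tgInv_sqs dataL i0 i0 (fun _ h => h)) (tgInv_ord dataL 2 i0 (fun _ h => h)) (sqsL_sub L _) (ordL_sub 2 (fun _ h => h))) (difL_sub _ (sqsL_sub L _))) (sqsL_sub L _) (cenL_sub L _)).1 chain5
  have c6 := tg_chain_step dataL hm hco h2 (prdL_sub L _ _) (cenL_sub L _) c5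
    (tgInv_cen dataL i0 (tgInv_cen dataL i0 (tgInv_sqs dataL i0 i0 (fun _ h => h)) (sqsL_sub L _)) (cenL_sub L _)).1 chain6
  have c7 := tg_chain_step dataL hm hco h2 (cenL_sub L _) (fun _ h => h) c6
    i0.1 chain7
  exact tg_centralize_of_all dataL c7

theorem hne : tgGrp gens ≠ ⊥ := by
  intro h
  have h1 := cardP
  rw [h, Subgroup.card_bot] at h1
  norm_num at h1

/-- The 2-fusion system of the Mathieu group M₂₃ (as the explicit permutation group carved out of the automorphism group of the binary Golay code) on a Sylow 2-subgroup is simple: saturated, over a nontrivial 2-group, with no normal subsystem other than the trivial one and itself. -/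
theorem result (S : Sylow 2 Cfsg.Spor.M23) : (Cfsg.groupFusionSystem (S : Subgroup Cfsg.Spor.M23)).IsSimple 2 :=
  gfs_isSimple_of_subgroup Spor.M23 2 (tgGrp gens) leH (by rw [cardP, fact_M23]) hne hA hB S

end Cfsg.Agent.S5169
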