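import Cfsg.Statements.S5170
import Cfsg.Agent.Lib.Helper89.M24SylChain
import Cfsg.Agent.Lib.Helper89.M24SylFus

set_option autoImplicit false
open Cfsg

namespace Cfsg.Agent.S5170

open Cfsg.Agent.Lib.Helper89 Cfsg.Agent.Lib.Helper89.M24Syl

theorem hne : tgGrp gens ≠ ⊥ := by
  intro h
  have h1 := cardP
  rw [h, Subgroup.card_bot] at h1
  norm_num at h1

/-- The 2-fusion system of the Mathieu group M₂₄ (as the explicit permutation group of the 24 points preserving the binary Golay code) on a Sylow 2-subgroup is simple: saturated, over a nontrivial 2-group, with no normal subsystem other than the trivial one and itself. -/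
theorem result (S : Sylow 2 Cfsg.M24) : (Cfsg.groupFusionSystem (S : Subgroup Cfsg.M24)).IsSimple 2 := by
  exact gfs_isSimple_of_subgroup M24 2 (tgGrp gens) leM24 (by rw [cardP, fact_M24]) hne
    (fun g _ hg hco => centralize g hg hco) noStronglyClosed S

end Cfsg.Agent.S5170
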