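import Cfsg.Statements.S5345
import Mathlib

set_option autoImplicit false
open Cfsg

namespace Cfsg.Agent.S5345

open scoped Pointwise

theorem sq_eq_one_of_mem_closure {G : Type*} [Group G] {E : Set G}
    (hinv : ∀ a ∈ E, a ^ 2 = 1) (hcomm : ∀ a ∈ E, ∀ b ∈ E, a * b = b * a) :
    ∀ x ∈ Subgroup.closure E, x ^ 2 = 1 := by
  have hC : IsMulCommutative (Subgroup.closure E) := Subgroup.isMulCommutative_closure hcomm
  have hcomm' : ∀ x ∈ Subgroup.closure E, ∀ y ∈ Subgroup.closure E, x * y = y * x := by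
    intro x hx y hy
    have := isMulCommutative_iff.mp hC ⟨x, hx⟩ ⟨y, hy⟩
    exact congrArg Subtype.val this
  intro x hx
  induction hx using Subgroup.closure_induction with
  | mem x hx => exact hinv x hx
  | one => simp
  | mul x y hx hy ihx ihy =>
    have h := hcomm' x hx y hy
    calc (x * y) ^ 2 = x * (y * x) * y := by rw [pow_two]; group
      _ = x * (x * y) * y := by rw [h]
      _ = x ^ 2 * y ^ 2 := by rw [pow_two, pow_two]; group
      _ = 1 := by rw [ihx, ihy, one_mul]
  | inv x hx ih => rw [inv_pow, ih, inv_one]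

/-- Let D be a conjugation-invariant generating set of 3-transpositions of a finite group G and T a Sylow 2-subgroup of G. Then the members of D lying in T generate an abelian subgroup, and their number is the width of D (the largest number of pairwise commuting members of D). -/
theorem result {G : Type*} [Group G] [Finite G] {D : Set G} (hD : Cfsg.IsThreeTranspositionGroup D) (T : Sylow 2 G) : IsMulCommutative (Subgroup.closure {d : G | d ∈ D ∧ d ∈ T}) ∧ {d : G | d ∈ D ∧ d ∈ T}.ncard = Cfsg.commutingWidth D := by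
  obtain ⟨⟨hord, h23⟩, hconj, -⟩ := hD
  haveI : Fact (Nat.Prime 2) := ⟨Nat.prime_two⟩
  have hsq : ∀ d ∈ D, d ^ 2 = 1 := by
    intro d hd
    have := pow_orderOf_eq_one d
    rwa [hord d hd] at this
  have hcommT : ∀ a ∈ {d : G | d ∈ D ∧ d ∈ T}, ∀ b ∈ {d : G | d ∈ D ∧ d ∈ T}, a * b = b * a := by
    rintro a ⟨haD, haT⟩ b ⟨hbD, hbT⟩
    have habT : a * b ∈ (T : Subgroup G) := (T : Subgroup G).mul_mem haT hbT
    have h2 : (a * b) ^ 2 = 1 := by
      rcases h23 a haD b hbD with h | h
      · exact h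
      · obtain ⟨k, hk⟩ := T.2 ⟨a * b, habT⟩
        have hk' : (a * b) ^ 2 ^ k = 1 := by
          have := congrArg Subtype.val hk
          simpa using this
        have h1 : orderOf (a * b) ∣ 2 ^ k := orderOf_dvd_of_pow_eq_one hk'
        have h3 : orderOf (a * b) ∣ 3 := orderOf_dvd_of_pow_eq_one h
        have hcop : Nat.Coprime (2 ^ k) 3 := Nat.Coprime.pow_left k (by norm_num)
        have h1' : orderOf (a * b) = 1 := Nat.eq_one_of_dvd_coprimes hcop h1 h3
        rw [orderOf_eq_one_iff.mp h1', one_pow]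
    have ha2 := hsq a haD
    have hb2 := hsq b hbD
    have ha' : a⁻¹ = a := by
      rw [inv_eq_iff_mul_eq_one, ← pow_two]; exact ha2
    have hb' : b⁻¹ = b := by
      rw [inv_eq_iff_mul_eq_one, ← pow_two]; exact hb2
    have h4 : a * b = (a * b)⁻¹ := by
      rw [eq_comm, inv_eq_iff_mul_eq_one, ← pow_two]; exact h2
    rw [h4, mul_inv_rev, ha', hb']
  refine ⟨Subgroup.isMulCommutative_closure hcommT, ?_⟩
  unfold Cfsg.commutingWidth
  have hfin : {d : G | d ∈ D ∧ d ∈ T}.Finite := Set.toFinite _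
  have hmem : {d : G | d ∈ D ∧ d ∈ T}.ncard ∈ {n : ℕ | ∃ E : Set G, E ⊆ D ∧ E.Finite ∧ (∀ a ∈ E, ∀ b ∈ E, Commute a b) ∧ E.ncard = n} :=
    ⟨_, fun d hd => hd.1, hfin, fun a ha b hb => hcommT a ha b hb, rfl⟩
  have hub : ∀ n ∈ {n : ℕ | ∃ E : Set G, E ⊆ D ∧ E.Finite ∧ (∀ a ∈ E, ∀ b ∈ E, Commute a b) ∧ E.ncard = n},
      n ≤ {d : G | d ∈ D ∧ d ∈ T}.ncard := by
    rintro n ⟨E, hED, -, hEc, rfl⟩
    have hE2 : ∀ x ∈ Subgroup.closure E, x ^ 2 = 1 :=
      sq_eq_one_of_mem_closure (fun a ha => hsq a (hED ha)) (fun a ha b hb => hEc a ha b hb)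
    have hp : IsPGroup 2 (Subgroup.closure E) := by
      intro x
      refine ⟨1, ?_⟩
      apply Subtype.ext
      have := hE2 x x.2
      simpa using this
    obtain ⟨Q, hQ⟩ := hp.exists_le_sylow
    obtain ⟨g, hg⟩ := MulAction.exists_smul_eq G Q T
    have hconjT : ∀ e ∈ E, g * e * g⁻¹ ∈ (T : Subgroup G) := by
      intro e he
      have : MulAut.conj g • e ∈ MulAut.conj g • (Q : Subgroup G) :=
        Subgroup.smul_mem_pointwise_smul _ (MulAut.conj g) _ (hQ (Subgroup.subset_closure he))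
      rw [← Sylow.coe_subgroup_smul, hg] at this
      exact this
    refine Set.ncard_le_ncard_of_injOn (fun e => g * e * g⁻¹) ?_ ?_ hfin
    · intro e he
      exact ⟨hconj g e (hED he), hconjT e he⟩
    · intro a _ b _ hab
      exact mul_left_cancel (mul_right_cancel hab)
  exact le_antisymm (le_csSup ⟨_, hub⟩ hmem) (csSup_le ⟨_, hmem⟩ hub)

end Cfsg.Agent.S5345
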