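import Cfsg.Statements.S5347
import Mathlib

set_option autoImplicit false
open Cfsg

namespace Cfsg.Agent.S5347

/-- Let D be a conjugation-invariant generating set of 3-transpositions of a finite group G, p a prime bigger than 3, and P a p-subgroup of G. If a member d of D normalizes P then d centralizes P. -/
theorem result {G : Type*} [Group G] [Finite G] {D : Set G} (hD : Cfsg.IsThreeTranspositionGroup D) {p : ℕ} (hp : p.Prime) (hp3 : 3 < p) (P : Subgroup G) (hP : IsPGroup p P) {d : G} (hd : d ∈ D) (hnorm : d ∈ Subgroup.normalizer (P : Set G)) : ∀ x ∈ P, Commute d x := by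
  intro x hx
  obtain ⟨⟨hord, h23⟩, hconj, -⟩ := hD
  have hd2 : d * d = 1 := by
    have := pow_orderOf_eq_one d
    rw [hord d hd, pow_two] at this
    exact this
  have hdinv : d⁻¹ = d := inv_eq_of_mul_eq_one_left hd2
  have he : x * d * x⁻¹ ∈ D := hconj x d hd
  have hyP : d * (x * d * x⁻¹) ∈ P := by
    have h1 : d * x * d⁻¹ ∈ P := (Subgroup.mem_normalizer_iff.mp hnorm x).mp hx
    have h2 : d * (x * d * x⁻¹) = (d * x * d⁻¹) * x⁻¹ := by
      rw [hdinv]; group
    rw [h2]
    exact P.mul_mem h1 (P.inv_mem hx)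
  have hy1 : d * (x * d * x⁻¹) = 1 := by
    obtain ⟨k, hk⟩ := hP ⟨d * (x * d * x⁻¹), hyP⟩
    have hk' : (d * (x * d * x⁻¹)) ^ p ^ k = 1 := by
      have := congrArg Subtype.val hk
      simpa using this
    have hdvd : orderOf (d * (x * d * x⁻¹)) ∣ p ^ k := orderOf_dvd_of_pow_eq_one hk'
    obtain ⟨j, -, hj⟩ := (Nat.dvd_prime_pow hp).mp hdvd
    rcases h23 d hd _ he with h | h
    · have h2 : orderOf (d * (x * d * x⁻¹)) ∣ 2 := orderOf_dvd_of_pow_eq_one h
      rw [hj] at h2
      have hj0 : j = 0 := by
        by_contra hne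
        have : p ∣ 2 := dvd_trans (dvd_pow_self p hne) h2
        have := Nat.le_of_dvd (by norm_num) this
        omega
      rw [hj0, pow_zero] at hj
      exact orderOf_eq_one_iff.mp hj
    · have h2 : orderOf (d * (x * d * x⁻¹)) ∣ 3 := orderOf_dvd_of_pow_eq_one h
      rw [hj] at h2
      have hj0 : j = 0 := by
        by_contra hne
        have : p ∣ 3 := dvd_trans (dvd_pow_self p hne) h2
        have := Nat.le_of_dvd (by norm_num) this
        omega
      rw [hj0, pow_zero] at hj
      exact orderOf_eq_one_iff.mp hj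
  have h3 : x * d * x⁻¹ = d := by
    have : x * d * x⁻¹ = d⁻¹ := eq_inv_of_mul_eq_one_right hy1
    rw [this, hdinv]
  show d * x = x * d
  have : x * d = d * x := by
    calc x * d = x * d * x⁻¹ * x := by group
      _ = d * x := by rw [h3]
  exact this.symm

end Cfsg.Agent.S5347
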