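import Cfsg.Statements.S5355
import Cfsg.Agent.Lib.Helper56.TT3
import Mathlib

set_option autoImplicit false
open Cfsg
open Cfsg.Agent.Lib.Helper56
open scoped Pointwise commutatorElement

namespace Cfsg.Agent.S5355

/-- Let D be a conjugacy class of 3-transpositions generating the finite group G, with at least two members, and d a member of D. Suppose that every member of D commuting with d commutes with exactly the same members of D as d does, and that exactly one member of D other than d commutes with d. Then G is isomorphic to the symmetric group of degree 4. -/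
theorem result {G : Type*} [Group G] [Finite G] {D : Set G} (hD : Cfsg.IsThreeTranspositionClass D) (hD2 : ∃ a ∈ D, ∃ b ∈ D, a ≠ b) {d : G} (hd : d ∈ D) (hV : {y : G | y ∈ D ∧ Commute d y} = {v : G | v ∈ D ∧ ∀ e ∈ D, Commute v e ↔ Commute d e}) (hm : {y : G | y ∈ D ∧ Commute d y}.ncard = 2) : Nonempty (G ≃* Equiv.Perm (Fin 4)) := by
  exact tt_S4_main hD hD2 hd hV hm

end Cfsg.Agent.S5355
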