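import Cfsg.Statements.S5357
import Cfsg.Agent.Lib.Helper91.Refl3

set_option autoImplicit false
open Cfsg

namespace Cfsg.Agent.S5357

open Cfsg.Agent.Lib.Helper91 Matrix

section Grp

variable {G : Type*} [Group G] {a b : G}

theorem sq_of_comm (ha : a * a = 1) (hb : b * b = 1) (h : a * b = b * a) : (a * b) ^ 2 = 1 := by
  rw [pow_two]
  calc a * b * (a * b) = a * (b * a) * b := by group
    _ = a * (a * b) * b := by rw [h]
    _ = (a * a) * (b * b) := by group
    _ = 1 := by rw [ha, hb, one_mul]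

theorem cube_of_braid (ha : a * a = 1) (hb : b * b = 1) (h : a * b * a = b * a * b) :
    (a * b) ^ 3 = 1 := by
  calc (a * b) ^ 3 = (a * b * a) * (b * a * b) := by
        rw [pow_succ, pow_two]; simp only [mul_assoc]
    _ = (b * a * b) * (b * a * b) := by rw [h]
    _ = b * a * (b * b) * a * b := by group
    _ = b * (a * a) * b := by rw [hb]; group
    _ = 1 := by rw [ha, mul_one, hb]

theorem conj_of_braid (h : a * b * a = b * a * b) : IsConj a b := by
  rw [isConj_iff]
  refine ⟨a * b, ?_⟩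
  rw [mul_inv_eq_iff_eq_mul, h, mul_assoc]

end Grp

theorem z3_three : (3 : ZMod 3) = 0 := by decide

theorem z3_Qu : ∀ q a b c : ZMod 3, c ≠ 0 → q - c * (a * a + b * b) = -c →
    q + (c * a + 1) * (c * a + 1) * c + (c * a + 1) * a +
      (c * b + 1) * (c * b + 1) * c + (c * b + 1) * b = c := by decide

theorem z3_fu : ∀ a c : ZMod 3, c ≠ 0 → a + (c * a + 1) * (c + c) ≠ 0 := by decide

/-- two orthogonal centres of norm `c` are linked by a third one -/
theorem exists_link {n : ℕ} (hn : 4 ≤ n) (Q : QuadraticForm (ZMod 3) (Fin n → ZMod 3))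
    (hQ : (QuadraticMap.polarBilin Q).Nondegenerate) (c : ZMod 3) (hc : c ≠ 0)
    (v w : Fin n → ZMod 3) (hv : Q v = c) (hw : Q w = c)
    (hvw : QuadraticMap.polar (⇑Q) v w = 0) :
    ∃ u, Q u = c ∧ QuadraticMap.polar (⇑Q) v u ≠ 0 ∧ QuadraticMap.polar (⇑Q) w u ≠ 0 := by
  have h3 := z3_three
  have hwv : QuadraticMap.polar (⇑Q) w v = 0 := by rw [QuadraticMap.polar_comm]; exact hvw
  obtain ⟨t, ht⟩ := exists_value hn
    (fun t => Q t - c * (QuadraticMap.polar (⇑Q) t v * QuadraticMap.polar (⇑Q) t v +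
      QuadraticMap.polar (⇑Q) t w * QuadraticMap.polar (⇑Q) t w))
    (fun t s => QuadraticMap.polar (⇑Q) t s +
      c * (QuadraticMap.polar (⇑Q) t v * QuadraticMap.polar (⇑Q) s v +
        QuadraticMap.polar (⇑Q) t w * QuadraticMap.polar (⇑Q) s w))
    (by
      intro t s
      show Q (t + s) - c * (QuadraticMap.polar (⇑Q) (t + s) v * QuadraticMap.polar (⇑Q) (t + s) v +
        QuadraticMap.polar (⇑Q) (t + s) w * QuadraticMap.polar (⇑Q) (t + s) w) = _
      rw [QuadraticMap.map_add (⇑Q) t s, QuadraticMap.polar_add_left, QuadraticMap.polar_add_left]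
      linear_combination (-(c * (QuadraticMap.polar (⇑Q) t v * QuadraticMap.polar (⇑Q) s v +
        QuadraticMap.polar (⇑Q) t w * QuadraticMap.polar (⇑Q) s w))) * h3)
    (by
      intro t s
      show Q (t - s) - c * (QuadraticMap.polar (⇑Q) (t - s) v * QuadraticMap.polar (⇑Q) (t - s) v +
        QuadraticMap.polar (⇑Q) (t - s) w * QuadraticMap.polar (⇑Q) (t - s) w) = _
      have hsub : Q (t - s) = Q t + Q s - QuadraticMap.polar (⇑Q) t s := by
        rw [sub_eq_add_neg, QuadraticMap.map_add (⇑Q) t (-s), QuadraticMap.map_neg,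
          QuadraticMap.polar_neg_right]
        ring
      rw [hsub, QuadraticMap.polar_sub_left, QuadraticMap.polar_sub_left]
      linear_combination (c * (QuadraticMap.polar (⇑Q) t v * QuadraticMap.polar (⇑Q) s v +
        QuadraticMap.polar (⇑Q) t w * QuadraticMap.polar (⇑Q) s w)) * h3)
    v w
    (by
      intro t ht
      have h0 : t + (c * QuadraticMap.polar (⇑Q) t v) • v +
          (c * QuadraticMap.polar (⇑Q) t w) • w = 0 := by
        apply hQ.1
        intro s
        have := ht s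
        show QuadraticMap.polar (⇑Q) _ s = 0
        rw [QuadraticMap.polar_add_left, QuadraticMap.polar_add_left, QuadraticMap.polar_smul_left,
          QuadraticMap.polar_smul_left, QuadraticMap.polar_comm (⇑Q) v s,
          QuadraticMap.polar_comm (⇑Q) w s, smul_eq_mul, smul_eq_mul]
        linear_combination this
      refine ⟨-(c * QuadraticMap.polar (⇑Q) t v), -(c * QuadraticMap.polar (⇑Q) t w), ?_⟩
      rw [neg_smul, neg_smul]
      calc t = (t + (c * QuadraticMap.polar (⇑Q) t v) • v +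
            (c * QuadraticMap.polar (⇑Q) t w) • w) - (c * QuadraticMap.polar (⇑Q) t v) • v -
            (c * QuadraticMap.polar (⇑Q) t w) • w := by abel
        _ = 0 - (c * QuadraticMap.polar (⇑Q) t v) • v -
            (c * QuadraticMap.polar (⇑Q) t w) • w := by rw [h0]
        _ = _ := by abel)
    (-c) (neg_ne_zero.mpr hc)
  obtain ⟨a, ha⟩ : ∃ a, a = QuadraticMap.polar (⇑Q) t v := ⟨_, rfl⟩
  obtain ⟨b, hb⟩ : ∃ b, b = QuadraticMap.polar (⇑Q) t w := ⟨_, rfl⟩
  rw [← ha, ← hb] at ht
  refine ⟨t + (c * a + 1) • v + (c * b + 1) • w, ?_, ?_, ?_⟩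
  · rw [QuadraticMap.map_add (⇑Q) (t + (c * a + 1) • v), QuadraticMap.map_add (⇑Q) t,
      QuadraticMap.map_smul, QuadraticMap.map_smul, QuadraticMap.polar_smul_right,
      QuadraticMap.polar_smul_right, QuadraticMap.polar_add_left, QuadraticMap.polar_smul_left,
      hv, hw, hvw, ← ha, ← hb]
    simp only [smul_eq_mul, mul_zero, add_zero]
    exact z3_Qu (Q t) a b c hc ht
  · rw [QuadraticMap.polar_add_right, QuadraticMap.polar_add_right, QuadraticMap.polar_smul_right,
      QuadraticMap.polar_smul_right, hvw, QuadraticMap.polar_self, hv,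
      QuadraticMap.polar_comm (⇑Q) v t, ← ha]
    simp only [smul_eq_mul, mul_zero, add_zero, two_nsmul]
    exact z3_fu a c hc
  · rw [QuadraticMap.polar_add_right, QuadraticMap.polar_add_right, QuadraticMap.polar_smul_right,
      QuadraticMap.polar_smul_right, hwv, QuadraticMap.polar_self, hw,
      QuadraticMap.polar_comm (⇑Q) w t, ← hb]
    simp only [smul_eq_mul, mul_zero, add_zero, two_nsmul]
    exact z3_fu b c hc

/-- Let Q be a non-degenerate quadratic form on the n-dimensional coordinate space over the field with three elements, n ≥ 5, and c a non-zero scalar. In the subgroup of the isometry group of Q generated by the reflections in vectors v with Q(v) = c, these reflections form a single conjugacy class of 3-transpositions generating that subgroup. -/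
theorem result (n : ℕ) (hn : 5 ≤ n) (Q : QuadraticForm (ZMod 3) (Fin n → ZMod 3)) (hQ : (QuadraticMap.polarBilin Q).Nondegenerate) (c : ZMod 3) (hc : c ≠ 0) : Cfsg.IsThreeTranspositionClass {g : ↥(Cfsg.reflectionSubgroup (⇑Q) c) | (g : ↥(Cfsg.isometryGroup (ZMod 3) (⇑Q))) ∈ Cfsg.reflectionsOfNorm (⇑Q) c} := by
  classical
  have h2 : (2 : ZMod 3) ≠ 0 := by decide
  let μ : ↥(Cfsg.reflectionSubgroup (⇑Q) c) →* Matrix (Fin n) (Fin n) (ZMod 3) :=
    (Units.coeHom _).comp ((Cfsg.isometryGroup (ZMod 3) (⇑Q)).subtype.comp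
      (Cfsg.reflectionSubgroup (⇑Q) c).subtype)
  have hμ : Function.Injective μ := by
    intro x y hxy
    apply Subtype.ext
    apply Subtype.ext
    exact Units.ext hxy
  have hμiso : ∀ (g : ↥(Cfsg.reflectionSubgroup (⇑Q) c)) (x : Fin n → ZMod 3),
      Q (μ g *ᵥ x) = Q x :=
    fun g x => Cfsg.Agent.Lib.Helper18.isom_apply Q (g : ↥(Cfsg.isometryGroup (ZMod 3) (⇑Q))) x
  have hD : ∀ g : ↥(Cfsg.reflectionSubgroup (⇑Q) c),
      g ∈ {g : ↥(Cfsg.reflectionSubgroup (⇑Q) c) |
        (g : ↥(Cfsg.isometryGroup (ZMod 3) (⇑Q))) ∈ Cfsg.reflectionsOfNorm (⇑Q) c} ↔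
      ∃ v, Q v = c ∧ μ g = Cfsg.reflectionMatrix (⇑Q) v := fun g => Iff.rfl
  obtain ⟨D, hDdef⟩ : ∃ D : Set ↥(Cfsg.reflectionSubgroup (⇑Q) c), D =
      {g : ↥(Cfsg.reflectionSubgroup (⇑Q) c) |
        (g : ↥(Cfsg.isometryGroup (ZMod 3) (⇑Q))) ∈ Cfsg.reflectionsOfNorm (⇑Q) c} := ⟨_, rfl⟩
  rw [← hDdef] at hD ⊢
  -- elements
  have hmk : ∀ u, Q u = c → ∃ e ∈ D, μ e = Cfsg.reflectionMatrix (⇑Q) u := by
    intro u hu
    have hu0 : Q u ≠ 0 := by rw [hu]; exact hc
    refine ⟨⟨Cfsg.Agent.Lib.Helper18.reflElt Q u hu0, Subgroup.subset_closure ⟨u, hu, rfl⟩⟩,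
      (hD _).mpr ⟨u, hu, rfl⟩, rfl⟩
  have hsq : ∀ a ∈ D, a * a = 1 := by
    intro a ha
    obtain ⟨v, hv, hav⟩ := (hD a).mp ha
    apply hμ
    rw [map_mul, hav, refl_sq Q v (by rw [hv]; exact hc), map_one]
  have hne : ∀ a ∈ D, a ≠ 1 := by
    intro a ha h1
    obtain ⟨v, hv, hav⟩ := (hD a).mp ha
    rw [h1, map_one] at hav
    exact refl_ne_one h2 Q v (by rw [hv]; exact hc) hav.symm
  have hrel : ∀ a ∈ D, ∀ b ∈ D, a * b = b * a ∨ a * b * a = b * a * b := by
    intro a ha b hb
    obtain ⟨v, hv, hav⟩ := (hD a).mp ha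
    obtain ⟨w, hw, hbw⟩ := (hD b).mp hb
    by_cases hvw : QuadraticMap.polar (⇑Q) v w = 0
    · left
      apply hμ
      rw [map_mul, map_mul, hav, hbw]
      exact refl_comm Q v w (by rw [hv]; exact hc) hvw
    · right
      apply hμ
      rw [map_mul, map_mul, map_mul, map_mul, hav, hbw]
      exact refl_braid Q v w c hc hv hw hvw
  have hconj : ∀ a ∈ D, ∀ b ∈ D, IsConj a b := by
    intro a ha b hb
    obtain ⟨v, hv, hav⟩ := (hD a).mp ha
    obtain ⟨w, hw, hbw⟩ := (hD b).mp hb
    have hbr : ∀ (a b : ↥(Cfsg.reflectionSubgroup (⇑Q) c)) (v w : Fin n → ZMod 3), Q v = c →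
        Q w = c → μ a = Cfsg.reflectionMatrix (⇑Q) v → μ b = Cfsg.reflectionMatrix (⇑Q) w →
        QuadraticMap.polar (⇑Q) v w ≠ 0 → IsConj a b := by
      intro a b v w hv hw hav hbw hvw
      apply conj_of_braid
      apply hμ
      rw [map_mul, map_mul, map_mul, map_mul, hav, hbw]
      exact refl_braid Q v w c hc hv hw hvw
    by_cases hvw : QuadraticMap.polar (⇑Q) v w = 0
    · obtain ⟨u, hu, hvu, hwu⟩ := exists_link (by omega) Q hQ c hc v w hv hw hvw
      obtain ⟨e, -, heu⟩ := hmk u hu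
      have h1 := hbr a e v u hv hu hav heu hvu
      have h2 := hbr e b u w hu hw heu hbw (by rw [QuadraticMap.polar_comm]; exact hwu)
      exact h1.trans h2
    · exact hbr a b v w hv hw hav hbw hvw
  refine ⟨⟨fun d hd => ?_, fun d hd e he => ?_⟩, ?_, ?_⟩
  · exact orderOf_eq_prime (by rw [pow_two]; exact hsq d hd) (hne d hd)
  · rcases hrel d hd e he with h | h
    · exact Or.inl (sq_of_comm (hsq d hd) (hsq e he) h)
    · exact Or.inr (cube_of_braid (hsq d hd) (hsq e he) h)
  · -- a single class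
    obtain ⟨v₀, hv₀⟩ := exists_value (n := n) (by omega) (fun t => Q t)
      (fun t s => QuadraticMap.polar (⇑Q) t s)
      (fun t s => QuadraticMap.map_add (⇑Q) t s)
      (by
        intro t s
        show Q (t - s) = Q t + Q s - QuadraticMap.polar (⇑Q) t s
        rw [sub_eq_add_neg, QuadraticMap.map_add (⇑Q) t (-s), QuadraticMap.map_neg,
          QuadraticMap.polar_neg_right]
        ring)
      0 0
      (by
        intro t ht
        refine ⟨0, 0, ?_⟩
        rw [smul_zero, add_zero]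
        exact hQ.1 t ht)
      c hc
    obtain ⟨d, hd, hdv⟩ := hmk v₀ hv₀
    refine ⟨d, hd, ?_⟩
    ext g
    show g ∈ D ↔ IsConj d g
    constructor
    · intro hg
      exact hconj d hd g hg
    · intro hg
      obtain ⟨k, hk⟩ := isConj_iff.mp hg
      rw [hD]
      refine ⟨μ k *ᵥ v₀, by rw [hμiso k v₀]; exact hv₀, ?_⟩
      rw [← hk, map_mul, map_mul, hdv, refl_conj Q (μ k) (hμiso k) v₀, mul_assoc, ← map_mul,
        mul_inv_cancel, map_one, mul_one]
  · rw [hDdef]
    exact Subgroup.closure_closure_coe_preimage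

end Cfsg.Agent.S5357
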