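import Cfsg.Statements.S5358
import Mathlib

set_option autoImplicit false
open Cfsg

namespace Cfsg.Agent.S5358

open Matrix

theorem polarVec_dot {n : ℕ} (Q : QuadraticForm (ZMod 3) (Fin n → ZMod 3)) (w x : Fin n → ZMod 3) :
    Cfsg.polarVec (⇑Q) w ⬝ᵥ x = QuadraticMap.polar (⇑Q) w x := by
  have h := LinearMap.pi_apply_eq_sum_univ (QuadraticMap.polarBilin Q w) x
  rw [QuadraticMap.polarBilin_apply_apply] at h
  rw [h]
  unfold Cfsg.polarVec dotProduct
  refine Finset.sum_congr rfl fun j _ => ?_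
  rw [QuadraticMap.polarBilin_apply_apply, smul_eq_mul, mul_comm]
  have : (fun i => if j = i then (1 : ZMod 3) else 0) = Pi.single j 1 := by
    funext i
    simp [Pi.single_apply, eq_comm]
  rw [this]

theorem comm_aux {n : ℕ} (A B : Matrix (Fin n) (Fin n) (ZMod 3)) (a : ZMod 3) :
    (1 - a • A) * (1 - a • B) - (1 - a • B) * (1 - a • A) = (a * a) • (A * B) - (a * a) • (B * A) := by
  simp only [mul_sub, sub_mul, mul_one, one_mul, Matrix.smul_mul, Matrix.mul_smul, smul_smul]
  abel

/-- Let Q be a non-degenerate quadratic form on the n-dimensional coordinate space over the field with three elements and u, v vectors of the same non-zero norm Q(u) = Q(v) spanning different lines (v ≠ u and v ≠ −u). Then the reflection matrices of u and v commute if and only if u and v are orthogonal for the polar form of Q. -/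
theorem result (n : ℕ) (Q : QuadraticForm (ZMod 3) (Fin n → ZMod 3)) (hQ : (QuadraticMap.polarBilin Q).Nondegenerate) (u v : Fin n → ZMod 3) (hu : Q u ≠ 0) (huv : Q u = Q v) (h1 : v ≠ u) (h2 : v ≠ -u) : Commute (Cfsg.reflectionMatrix (⇑Q) u) (Cfsg.reflectionMatrix (⇑Q) v) ↔ QuadraticMap.polar (⇑Q) u v = 0 := by
  have hfuv : Cfsg.polarVec (⇑Q) u ⬝ᵥ v = QuadraticMap.polar (⇑Q) u v := polarVec_dot Q u v
  have hfvu : Cfsg.polarVec (⇑Q) v ⬝ᵥ u = QuadraticMap.polar (⇑Q) u v := by
    rw [polarVec_dot Q v u, QuadraticMap.polar_comm]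
  have hfuu : Cfsg.polarVec (⇑Q) u ⬝ᵥ u = 2 * Q u := by
    rw [polarVec_dot Q u u, QuadraticMap.polar_self]; simp [two_mul]
  set f := QuadraticMap.polar (⇑Q) u v with hf
  set c := Q u with hc
  have hAB : Matrix.vecMulVec u (Cfsg.polarVec (⇑Q) u) * Matrix.vecMulVec v (Cfsg.polarVec (⇑Q) v)
      = f • Matrix.vecMulVec u (Cfsg.polarVec (⇑Q) v) := by
    rw [Matrix.vecMulVec_mul_vecMulVec, hfuv]
    ext i j
    simp [Matrix.vecMulVec_apply]; ring
  have hBA : Matrix.vecMulVec v (Cfsg.polarVec (⇑Q) v) * Matrix.vecMulVec u (Cfsg.polarVec (⇑Q) u)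
      = f • Matrix.vecMulVec v (Cfsg.polarVec (⇑Q) u) := by
    rw [Matrix.vecMulVec_mul_vecMulVec, hfvu]
    ext i j
    simp [Matrix.vecMulVec_apply]; ring
  have hkey : Commute (Cfsg.reflectionMatrix (⇑Q) u) (Cfsg.reflectionMatrix (⇑Q) v) ↔
      f • Matrix.vecMulVec u (Cfsg.polarVec (⇑Q) v) = f • Matrix.vecMulVec v (Cfsg.polarVec (⇑Q) u) := by
    unfold Cfsg.reflectionMatrix
    rw [← huv, ← hAB, ← hBA]
    have hc2 : c⁻¹ * c⁻¹ ≠ 0 := mul_ne_zero (inv_ne_zero hu) (inv_ne_zero hu)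
    rw [Commute, SemiconjBy, ← sub_eq_zero, comm_aux, sub_eq_zero]
    constructor
    · intro h
      exact smul_right_injective _ hc2 h
    · intro h
      rw [h]
  rw [hkey]
  constructor
  · intro h
    by_contra hf0
    have h' : Matrix.vecMulVec u (Cfsg.polarVec (⇑Q) v) = Matrix.vecMulVec v (Cfsg.polarVec (⇑Q) u) :=
      smul_right_injective _ hf0 h
    have h3 : Matrix.vecMulVec u (Cfsg.polarVec (⇑Q) v) *ᵥ u = Matrix.vecMulVec v (Cfsg.polarVec (⇑Q) u) *ᵥ u := by
      rw [h']
    rw [Matrix.vecMulVec_mulVec, Matrix.vecMulVec_mulVec, hfvu, hfuu] at h3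
    rw [op_smul_eq_smul, op_smul_eq_smul] at h3
    have h4 : f • u = (2 * c) • v := h3
    have h5 : Q (f • u) = Q ((2 * c) • v) := by rw [h4]
    rw [QuadraticMap.map_smul, QuadraticMap.map_smul, ← huv] at h5
    have h6 : (f - 2 * c) * (f + 2 * c) = 0 := by
      have : f * f * c = 2 * c * (2 * c) * c := h5
      have h7 : f * f = 2 * c * (2 * c) := mul_right_cancel₀ hu this
      linear_combination h7
    have h2c : (2 : ZMod 3) * c ≠ 0 := mul_ne_zero (by decide) hu
    rcases mul_eq_zero.mp h6 with h8 | h8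
    · have h9 : f = 2 * c := sub_eq_zero.mp h8
      rw [h9] at h4
      exact h1 (smul_right_injective _ h2c h4).symm
    · have h9 : f = -(2 * c) := eq_neg_of_add_eq_zero_left h8
      rw [h9, neg_smul, ← smul_neg] at h4
      have := smul_right_injective _ h2c h4
      exact h2 this.symm
  · intro h
    rw [h, zero_smul, zero_smul]

end Cfsg.Agent.S5358
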