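import Cfsg.Statements.S5359
import Cfsg.Agent.Lib.Helper51.ReflClass

set_option autoImplicit false
open scoped MatrixGroups
open Cfsg

namespace Cfsg.Agent.S5359

theorem z3_sq : ∀ t : ZMod 3, t ≠ 0 → t ^ 2 = 1 := by decide

/-- Let Q be a non-degenerate quadratic form on the n-dimensional coordinate space over the field with three elements, n odd and at least 5, and c a non-zero scalar. Then the subgroup of the isometry group of Q generated by the reflections in vectors of norm c has index 2 in the isometry group. -/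
theorem result (n : ℕ) (hn : 5 ≤ n) (hodd : Odd n) (Q : QuadraticForm (ZMod 3) (Fin n → ZMod 3)) (hQ : (QuadraticMap.polarBilin Q).Nondegenerate) (c : ZMod 3) (hc : c ≠ 0) : (Cfsg.reflectionSubgroup (⇑Q) c).index = 2 := by
  have h2 : (2 : ZMod 3) ≠ 0 := by decide
  have hcase : Fintype.card (ZMod 3) ≠ 3 ∨
      (Fintype.card (Fin n) ≠ 3 ∧ Fintype.card (Fin n) ≠ 4) := by
    right
    rw [Fintype.card_fin]
    omega
  have hcard : 2 ≤ Fintype.card (Fin n) := by
    rw [Fintype.card_fin]
    omega
  have key := Cfsg.Agent.Lib.Helper51.index_Rc Q h2 hQ c hc hcase hcard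
  have e : Cfsg.Agent.Lib.Helper51.Rc Q c = Cfsg.reflectionSubgroup (⇑Q) c := by
    unfold Cfsg.Agent.Lib.Helper51.Rc Cfsg.reflectionSubgroup Cfsg.reflectionsOfNorm
    congr 1
    ext g
    constructor
    · rintro ⟨v, t, ht, hv, hg⟩
      exact ⟨v, by rw [hv, z3_sq t ht, mul_one], hg⟩
    · rintro ⟨v, hv, hg⟩
      exact ⟨v, 1, one_ne_zero, by rw [hv]; ring, hg⟩
  rw [← e]
  exact key

end Cfsg.Agent.S5359
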