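import Cfsg.Statements.S5363
import Mathlib

set_option autoImplicit false
open Cfsg

namespace Cfsg.Agent.S5363

theorem sq_one_of_order_two {G : Type*} [Group G] {d : G} (h : orderOf d = 2) : d * d = 1 := by
  have := pow_orderOf_eq_one d
  rw [h, pow_two] at this
  exact this

theorem sq_one_assoc {G : Type*} [Group G] {d : G} (h : d * d = 1) (w : G) : d * (d * w) = w := by
  rw [← mul_assoc, h, one_mul]

theorem inv_of_order_two {G : Type*} [Group G] {d : G} (h : orderOf d = 2) : d⁻¹ = d := by
  have := sq_one_of_order_two h
  exact inv_eq_of_mul_eq_one_left this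

theorem commute_of_sq {G : Type*} [Group G] {x y : G} (hx : x * x = 1) (hy : y * y = 1)
    (hxy : (x * y) * (x * y) = 1) : Commute x y := by
  have h1 : x * y = (x * y)⁻¹ := (inv_eq_of_mul_eq_one_left hxy).symm
  rw [mul_inv_rev, inv_eq_of_mul_eq_one_left hx, inv_eq_of_mul_eq_one_left hy] at h1
  exact h1

theorem sq_of_commute {G : Type*} [Group G] {x y : G} (hx : x * x = 1) (hy : y * y = 1)
    (hxy : Commute x y) : (x * y) ^ 2 = 1 := by
  rw [hxy.mul_pow, pow_two, pow_two, hx, hy, one_mul]

theorem mem_mul_pow {G : Type*} [Group G] {D : Set G} (hinv : ∀ d ∈ D, orderOf d = 2)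
    (hconj : ∀ g : G, ∀ d ∈ D, g * d * g⁻¹ ∈ D) (x y : G) (hx : x ∈ D) (hy : y ∈ D) :
    ∀ k : ℕ, x * (x * y) ^ k ∈ D ∧ x * (x * y) ^ (k + 1) ∈ D := by
  have hxx := sq_one_of_order_two (hinv x hx)
  have hyy := sq_one_of_order_two (hinv y hy)
  have hxi := inv_of_order_two (hinv x hx)
  have hyi := inv_of_order_two (hinv y hy)
  intro k
  induction k with
  | zero =>
    refine ⟨by simpa using hx, ?_⟩
    have : x * (x * y) ^ (0 + 1) = y := by
      rw [zero_add, pow_one, ← mul_assoc, hxx, one_mul]
    rw [this]; exact hy
  | succ k ih =>
    refine ⟨ih.2, ?_⟩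
    have h := hconj (y * x) _ ih.1
    have : x * (x * y) ^ (k + 1 + 1) = y * x * (x * (x * y) ^ k) * (y * x)⁻¹ := by
      rw [mul_inv_rev, hxi, hyi, pow_succ, pow_succ']
      simp only [mul_assoc, sq_one_assoc hxx]
    rw [this]; exact h

theorem result {G : Type*} [Group G] [Finite G] {D : Set G} (hinv : ∀ d ∈ D, orderOf d = 2) (hconj : ∀ g : G, ∀ d ∈ D, g * d * g⁻¹ ∈ D) : (∀ a ∈ D, ∀ b ∈ D, Odd (orderOf (a * b)) ∨ orderOf (a * b) = 2) ↔ ∀ a ∈ D, ∀ b ∈ D, b ≠ a → Commute a b → {y : G | y ∈ D ∧ Commute (a * b) y} = {y : G | y ∈ D ∧ Commute a y} ∩ {y : G | y ∈ D ∧ Commute b y} := by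
  constructor
  · intro h a ha b hb hne hab
    have haa := sq_one_of_order_two (hinv a ha)
    have hbb := sq_one_of_order_two (hinv b hb)
    ext y
    simp only [Set.mem_ofPred_eq, Set.mem_inter_iff]
    constructor
    · rintro ⟨hy, hc⟩
      have hyy := sq_one_of_order_two (hinv y hy)
      have key : Commute a y → (Commute a y ∧ Commute b y) := by
        intro hay
        refine ⟨hay, ?_⟩
        have hb' : b = a * (a * b) := by rw [← mul_assoc, haa, one_mul]
        rw [hb']
        exact hay.mul_left hc
      have key' : Commute b y → (Commute a y ∧ Commute b y) := by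
        intro hby
        refine ⟨?_, hby⟩
        have ha' : a = (a * b) * b := by rw [mul_assoc, hbb, mul_one]
        rw [ha']
        exact hc.mul_left hby
      have main : Commute a y ∧ Commute b y := by
        rcases h y hy a ha with hodd | h2
        · set n := orderOf (y * a) with hn
          have hcomm : Commute (y * a) (a * b) := by
            have h1 : Commute y (a * b) := hc.symm
            have h2 : Commute a (a * b) := (Commute.refl a).mul_right hab
            exact h1.mul_left h2
          have hyb : y * b = (y * a) * (a * b) := by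
            rw [mul_assoc, ← mul_assoc a a b, haa, one_mul]
          have habsq : (a * b) ^ 2 = 1 := sq_of_commute haa hbb hab
          have hpow : (y * b) ^ n = a * b := by
            rw [hyb, hcomm.mul_pow, pow_orderOf_eq_one, one_mul]
            obtain ⟨k, hk⟩ := hodd
            rw [hk, pow_succ, pow_mul, habsq, one_pow, one_mul]
          rcases h y hy b hb with hodd2 | h22
          · exfalso
            obtain ⟨m, hm⟩ := hodd2
            have h1 : ((y * b) ^ n) ^ (orderOf (y * b)) = 1 := by
              rw [← pow_mul, mul_comm, pow_mul, pow_orderOf_eq_one, one_pow]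
            rw [hpow, hm, pow_succ, pow_mul, habsq, one_pow, one_mul] at h1
            apply hne
            have h2 : b = a⁻¹ := (inv_eq_of_mul_eq_one_right h1).symm
            rw [h2, inv_of_order_two (hinv a ha)]
          · have hby : Commute b y := by
              have h1 : (y * b) * (y * b) = 1 := by
                have := pow_orderOf_eq_one (y * b)
                rwa [h22, pow_two] at this
              exact (commute_of_sq hyy hbb h1).symm
            exact key' hby
        · have hay : Commute a y := by
            have h1 : (y * a) * (y * a) = 1 := by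
              have := pow_orderOf_eq_one (y * a)
              rwa [h2, pow_two] at this
            exact (commute_of_sq hyy haa h1).symm
          exact key hay
      exact ⟨⟨hy, main.1⟩, hy, main.2⟩
    · rintro ⟨⟨hy, hay⟩, ⟨_, hby⟩⟩
      exact ⟨hy, hay.mul_left hby⟩
  · intro h a ha b hb
    have haa := sq_one_of_order_two (hinv a ha)
    have hbb := sq_one_of_order_two (hinv b hb)
    have hai := inv_of_order_two (hinv a ha)
    have hbi := inv_of_order_two (hinv b hb)
    rcases Nat.even_or_odd (orderOf (a * b)) with heven | hodd
    · right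
      obtain ⟨k, hk⟩ := heven
      have hpos : 0 < orderOf (a * b) := orderOf_pos (a * b)
      have hkpos : 0 < k := by omega
      set c := (a * b) ^ k with hc
      have hc1 : c ≠ 1 := by
        intro h1
        have := orderOf_dvd_of_pow_eq_one h1
        have := Nat.le_of_dvd hkpos this
        omega
      have hcc : c * c = 1 := by
        rw [hc, ← pow_add, ← hk, pow_orderOf_eq_one]
      have hci : c⁻¹ = c := inv_eq_of_mul_eq_one_left hcc
      have hba : b * a = (a * b)⁻¹ := by rw [mul_inv_rev, hai, hbi]
      have hca : Commute a c := by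
        have h1 : a * c * a⁻¹ = c⁻¹ := by
          rw [hc, ← conj_pow, ← inv_pow]
          congr 1
          rw [← hba, hai]
          simp only [mul_assoc, sq_one_assoc haa]
        rw [hci] at h1
        have : a * c = c * a := by
          calc a * c = a * c * a⁻¹ * a := by group
            _ = c * a := by rw [h1]
        exact this
      have hcb : Commute b c := by
        have h1 : b⁻¹ * c * b⁻¹⁻¹ = c⁻¹ := by
          rw [hc, ← conj_pow, ← inv_pow]
          congr 1
          rw [← hba, inv_inv, hbi]
          simp only [mul_assoc, hbb, mul_one]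
        rw [hci, inv_inv, hbi] at h1
        have : b * c = c * b := by
          calc b * c = b * c * b * b⁻¹ := by group
            _ = c * b := by rw [h1, hbi]
        exact this
      have hmem : a * c ∈ D := (mem_mul_pow hinv hconj a b ha hb k).1
      have hne : a * c ≠ a := by
        intro h1
        exact hc1 (by simpa using h1)
      have hcomm : Commute a (a * c) := (Commute.refl a).mul_right hca
      have hset := h a ha (a * c) hmem hne hcomm
      have hb_mem : b ∈ {y : G | y ∈ D ∧ Commute (a * (a * c)) y} := by
        refine ⟨hb, ?_⟩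
        rw [← mul_assoc, haa, one_mul]
        exact hcb.symm
      rw [hset] at hb_mem
      have hab : Commute a b := hb_mem.1.2
      have h2 : (a * b) ^ 2 = 1 := sq_of_commute haa hbb hab
      have hdvd := orderOf_dvd_of_pow_eq_one h2
      have hle := Nat.le_of_dvd (by norm_num) hdvd
      omega
    · left; exact hodd

end Cfsg.Agent.S5363
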