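import Cfsg.Statements.S5364
import Mathlib

set_option autoImplicit false
open Cfsg

namespace Cfsg.Agent.S5364

theorem sq_one_of_order_two {G : Type*} [Group G] {d : G} (h : orderOf d = 2) : d * d = 1 := by
  have := pow_orderOf_eq_one d
  rw [h, pow_two] at this
  exact this

theorem sq_one_assoc {G : Type*} [Group G] {d : G} (h : d * d = 1) (w : G) : d * (d * w) = w := by
  rw [← mul_assoc, h, one_mul]

theorem inv_of_order_two {G : Type*} [Group G] {d : G} (h : orderOf d = 2) : d⁻¹ = d := by
  have := sq_one_of_order_two h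
  exact inv_eq_of_mul_eq_one_left this

theorem mem_zpowers_two {G : Type*} [Group G] {t x : G} (ht : orderOf t = 2)
    (hx : x ∈ Subgroup.zpowers t) : x = 1 ∨ x = t := by
  obtain ⟨k, rfl⟩ := Subgroup.mem_zpowers_iff.mp hx
  have htt : t ^ (2 : ℤ) = 1 := by
    have := pow_orderOf_eq_one t
    rw [ht] at this
    exact_mod_cast this
  rcases Int.even_or_odd' k with ⟨m, rfl | rfl⟩
  · left; rw [zpow_mul, htt, one_zpow]
  · right; rw [zpow_add, zpow_mul, htt, one_zpow, one_mul, zpow_one]

theorem result {G : Type*} [Group G] [Finite G] {D : Set G} (hinv : ∀ d ∈ D, orderOf d = 2) (hconj : ∀ g : G, ∀ d ∈ D, g * d * g⁻¹ ∈ D) (t : G) (ht : orderOf t = 2) (htZ : t ∈ Subgroup.center G) (hDt : ∀ d ∈ D, d * t ∉ D) [(Subgroup.zpowers t).Normal] (himg : Cfsg.IsThreeTranspositionSet ((QuotientGroup.mk : G → G ⧸ Subgroup.zpowers t) '' D)) : Cfsg.IsThreeTranspositionSet D := by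
  refine ⟨hinv, ?_⟩
  intro d hd e he
  have hdd := sq_one_of_order_two (hinv d hd)
  have hee := sq_one_of_order_two (hinv e he)
  have hdi := inv_of_order_two (hinv d hd)
  have hei := inv_of_order_two (hinv e he)
  have htc : ∀ x : G, x * t = t * x := fun x => (Subgroup.mem_center_iff.mp htZ x)
  have h := himg.2 _ (Set.mem_image_of_mem _ hd) _ (Set.mem_image_of_mem _ he)
  rcases h with h2 | h3
  · left
    have h2' : ((d * e) ^ 2 : G) ∈ Subgroup.zpowers t := by
      rw [← QuotientGroup.eq_one_iff]
      simpa using h2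
    rcases mem_zpowers_two ht h2' with h1 | h1
    · exact h1
    · exfalso
      have hmem := hconj e d hd
      rw [hei] at hmem
      apply hDt d hd
      have : d * t = e * d * e := by
        rw [← h1, pow_two]
        simp only [mul_assoc, sq_one_assoc hdd]
      rw [this]; exact hmem
  · right
    have h3' : ((d * e) ^ 3 : G) ∈ Subgroup.zpowers t := by
      rw [← QuotientGroup.eq_one_iff]
      simpa using h3
    rcases mem_zpowers_two ht h3' with h1 | h1
    · exact h1
    · exfalso
      have hmem := hconj (d * e * d) e he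
      rw [mul_inv_rev, mul_inv_rev, hei, hdi] at hmem
      apply hDt d hd
      have : d * t = d * e * d * e * (d * (e * d)) := by
        rw [htc d, ← h1, pow_succ, pow_two]
        simp only [mul_assoc]
      rw [this]; exact hmem

end Cfsg.Agent.S5364
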