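import Cfsg.Statements.S5365
import Cfsg.Agent.Lib.Helper61.TT5Defs
import Cfsg.Agent.Lib.Helper61.TT5Basic
import Cfsg.Agent.Lib.Helper61.TT5NI
import Cfsg.Agent.Lib.Helper61.TT5AP
import Cfsg.Agent.Lib.Helper61.TT5M
import Cfsg.Agent.Lib.Helper61.TT5NoOutside
import Cfsg.Agent.Lib.Helper43.TT5P1
import Cfsg.Agent.Lib.Helper31.TT5P2
import Cfsg.Agent.Lib.Helper58.TT5P6b
import Cfsg.Agent.Lib.Helper58.TT5P8
import Cfsg.Agent.Lib.Helper32.TT5P7

set_option autoImplicit false
open Cfsg

namespace Cfsg.Agent.S5365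

open Cfsg.Agent.Lib.Helper61.TT5

/-- Let D be a non-empty conjugation-invariant set of involutions of a finite group G satisfying the 3-transposition order conditions, and suppose that for every d in D the members of D other than d commuting with d generate a subgroup isomorphic to the symmetric group of degree 3, and the largest normal 3-subgroup of the centralizer of d has order 3. Then the subgroup generated by D is isomorphic to the symmetric group of degree 5 or to the direct product of two symmetric groups of degree 3. -/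
theorem result {G : Type*} [Group G] [Finite G] {D : Set G} (hD : Cfsg.IsThreeTranspositionSet D) (hconj : ∀ g : G, ∀ d ∈ D, g * d * g⁻¹ ∈ D) (hne : D.Nonempty) (hloc : ∀ d ∈ D, Nonempty (↥(Subgroup.closure {y : G | y ∈ D ∧ y ≠ d ∧ Commute d y}) ≃* Equiv.Perm (Fin 3)) ∧ Nat.card (Cfsg.pCore 3 ↥(Subgroup.centralizer ({d} : Set G))) = 3) : Nonempty (↥(Subgroup.closure D) ≃* Equiv.Perm (Fin 5)) ∨ Nonempty (↥(Subgroup.closure D) ≃* Equiv.Perm (Fin 3) × Equiv.Perm (Fin 3)) := by
  have hT : TS D := Cfsg.Agent.Lib.Helper43.TT5.ts_of_hyp hD hconj (fun d hd => (hloc d hd).1)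
  have h2 : H2 D := Cfsg.Agent.Lib.Helper31.TT5.h2_of_hyp hT (fun d hd => (hloc d hd).2)
  have hNI : NIProp D := ni hT
  by_cases hinj : ∀ x ∈ D, ∀ y ∈ D, SameNb D x y → x = y
  · left
    exact Cfsg.Agent.Lib.Helper58.TT5.caseB hT hne hinj hNI Cfsg.Agent.Lib.Helper32.TT5.cox
  · right
    push Not at hinj
    obtain ⟨x, hx, y, hy, hN, hxy⟩ := hinj
    by_cases hall : ∀ z ∈ D, z = x ∨ z = y ∨ z = x * y * x ∨ Nb D x z
    · exact Cfsg.Agent.Lib.Helper58.TT5.s3s3 hT hx hy hxy hN hall
    · push Not at hall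
      obtain ⟨g, hg, h1, h2', h3, h4⟩ := hall
      exact (no_outside hT h2 hNI (exists_M hT hNI) el ap hx hy hxy hN hg h1 h2' h3 h4).elim

end Cfsg.Agent.S5365
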