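import Cfsg.Statements.S5366
import Mathlib

set_option autoImplicit false
open Cfsg

namespace Cfsg.Agent.S5366

open Cfsg.LineSystem

universe u

variable {X : Type u}

/-- `z` is the third point of the line through `x` and `y`. -/
def Third (L : Set (Set X)) (x y z : X) : Prop :=
  z ≠ x ∧ z ≠ y ∧ x ≠ y ∧ ({x, y, z} : Set X) ∈ L

theorem lineMap_spec_pos (L : Set (Set X)) (x y : X) (h : ∃ z, Third L x y z) :
    Third L x y (lineMap L x y) := by
  have h' : ∃ z : X, z ≠ x ∧ z ≠ y ∧ x ≠ y ∧ ({x, y, z} : Set X) ∈ L := h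
  unfold lineMap
  rw [dif_pos h']
  exact h'.choose_spec

theorem lineMap_neg (L : Set (Set X)) (x y : X) (h : ¬ ∃ z, Third L x y z) :
    lineMap L x y = y := by
  have h' : ¬ ∃ z : X, z ≠ x ∧ z ≠ y ∧ x ≠ y ∧ ({x, y, z} : Set X) ∈ L := h
  unfold lineMap
  rw [dif_neg h']

theorem third_unique {L : Set (Set X)} (hPL : IsPartialLinear L) {x y z z' : X}
    (h : Third L x y z) (h' : Third L x y z') : z = z' := by
  obtain ⟨hzx, hzy, hxy, hl⟩ := h
  obtain ⟨hzx', hzy', _, hl'⟩ := h'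
  have e := hPL _ hl _ hl' x y hxy (by simp) (by simp) (by simp) (by simp)
  have h1 : z' ∈ ({x, y, z} : Set X) := by rw [e]; simp
  simp only [Set.mem_insert_iff, Set.mem_singleton_iff] at h1
  rcases h1 with h1 | h1 | h1
  · exact absurd h1 hzx'
  · exact absurd h1 hzy'
  · exact h1.symm

theorem lineMap_eq {L : Set (Set X)} (hPL : IsPartialLinear L) {x y z : X} (h : Third L x y z) :
    lineMap L x y = z :=
  third_unique hPL (lineMap_spec_pos L x y ⟨z, h⟩) h

theorem third_swap23 {L : Set (Set X)} {x y z : X} (h : Third L x y z) : Third L x z y := by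
  obtain ⟨hzx, hzy, hxy, hl⟩ := h
  refine ⟨hxy.symm, hzy.symm, hzx.symm, ?_⟩
  have e : ({x, z, y} : Set X) = {x, y, z} := by rw [Set.pair_comm z y]
  rw [e]; exact hl

theorem third_swap12 {L : Set (Set X)} {x y z : X} (h : Third L x y z) : Third L y x z := by
  obtain ⟨hzx, hzy, hxy, hl⟩ := h
  refine ⟨hzy, hzx, hxy.symm, ?_⟩
  have e : ({y, x, z} : Set X) = {x, y, z} := Set.insert_comm y x {z}
  rw [e]; exact hl

theorem lineMap_self (L : Set (Set X)) (x : X) : lineMap L x x = x :=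
  lineMap_neg L x x (fun ⟨_, hz⟩ => hz.2.2.1 rfl)

theorem lineMap_invol {L : Set (Set X)} (hPL : IsPartialLinear L) (x : X) :
    Function.Involutive (lineMap L x) := by
  intro y
  by_cases h : ∃ z, Third L x y z
  · obtain ⟨z, hz⟩ := h
    rw [lineMap_eq hPL hz, lineMap_eq hPL (third_swap23 hz)]
  · rw [lineMap_neg L x y h, lineMap_neg L x y h]

theorem line_third_aux {L : Set (Set X)} {a b c x y z : X} (hl : ({a, b, c} : Set X) ∈ L)
    (e : ({x, y, z} : Set X) = {a, b, c}) (hzx : z ≠ x) (hzy : z ≠ y) (hxy : x ≠ y) :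
    ∃ z, Third L x y z ∧ ({a, b, c} : Set X) = {x, y, z} :=
  ⟨z, ⟨hzx, hzy, hxy, by rw [e]; exact hl⟩, e.symm⟩

theorem line_third {L : Set (Set X)} (h3 : ∀ l ∈ L, l.ncard = 3) {l : Set X} (hl : l ∈ L)
    {x y : X} (hx : x ∈ l) (hy : y ∈ l) (hxy : x ≠ y) : ∃ z, Third L x y z ∧ l = {x, y, z} := by
  obtain ⟨a, b, c, hab, hac, hbc, rfl⟩ := Set.ncard_eq_three.mp (h3 l hl)
  simp only [Set.mem_insert_iff, Set.mem_singleton_iff] at hx hy
  rcases hx with hx | hx | hx <;> rcases hy with hy | hy | hy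
  · exact absurd (hx.trans hy.symm) hxy
  · rw [hx, hy]
    exact line_third_aux hl rfl hac.symm hbc.symm hab
  · rw [hx, hy]
    exact line_third_aux hl (by ext t; simp only [Set.mem_insert_iff, Set.mem_singleton_iff]; tauto)
      hab.symm hbc hac
  · rw [hx, hy]
    exact line_third_aux hl (by ext t; simp only [Set.mem_insert_iff, Set.mem_singleton_iff]; tauto)
      hbc.symm hac.symm hab.symm
  · exact absurd (hx.trans hy.symm) hxy
  · rw [hx, hy]
    exact line_third_aux hl (by ext t; simp only [Set.mem_insert_iff, Set.mem_singleton_iff]; tauto)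
      hab hac hbc
  · rw [hx, hy]
    exact line_third_aux hl (by ext t; simp only [Set.mem_insert_iff, Set.mem_singleton_iff]; tauto)
      hbc hab.symm hac.symm
  · rw [hx, hy]
    exact line_third_aux hl (by ext t; simp only [Set.mem_insert_iff, Set.mem_singleton_iff]; tauto)
      hac hab hbc.symm
  · exact absurd (hx.trans hy.symm) hxy

theorem subset_span' (L : Set (Set X)) (S : Set X) : S ⊆ span L S :=
  fun _ hx _ hT => hT.1 hx

theorem span_isSubspace (L : Set (Set X)) (S : Set X) : IsSubspace L (span L S) := by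
  intro l hl x hx y hy hxy hxl hyl t ht T hT
  exact hT.2 l hl x (hx T hT) y (hy T hT) hxy hxl hyl ht

theorem third_mem {L : Set (Set X)} {π : Set X} (hπ : IsSubspace L π) {x y z : X}
    (h : Third L x y z) (hx : x ∈ π) (hy : y ∈ π) : z ∈ π :=
  hπ _ h.2.2.2 x hx y hy h.2.2.1 (by simp) (by simp) (by simp)

/-- The model property: the relational `t(p)` maps lines to lines. -/
def ModelProp {Y : Type} (M : Set (Set Y)) : Prop :=
  ∀ p : Y, ∀ k ∈ M, ∃ k' ∈ M, ∀ y ∈ k,
    (∀ z, Third M p y z → z ∈ k') ∧ ((¬ ∃ z, Third M p y z) → y ∈ k')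

theorem image_line_of_model {L : Set (Set X)} (hPL : IsPartialLinear L)
    (h3 : ∀ l ∈ L, l.ncard = 3) {π : Set X} (hπ : IsSubspace L π) {Y : Type} {M : Set (Set Y)}
    (hM : ModelProp M) (e : π ≃ Y) (he : IsIso (restrict L π) M e) {x : X} (hx : x ∈ π)
    {l : Set X} (hl : l ∈ L) (hlπ : l ⊆ π) : lineMap L x '' l ∈ L := by
  classical
  have T1 : ∀ u v w : π, Third L (u : X) v w → Third M (e u) (e v) (e w) := by
    rintro u v w ⟨hwu, hwv, huv, hline⟩
    refine ⟨fun h => hwu (congrArg Subtype.val (e.injective h)),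
      fun h => hwv (congrArg Subtype.val (e.injective h)),
      fun h => huv (congrArg Subtype.val (e.injective h)), ?_⟩
    have hsub : ({(u : X), (v : X), (w : X)} : Set X) ⊆ π := by
      intro t ht
      simp only [Set.mem_insert_iff, Set.mem_singleton_iff] at ht
      rcases ht with rfl | rfl | rfl
      · exact u.2
      · exact v.2
      · exact w.2
    have hk : ({t : π | (t : X) ∈ ({(u : X), (v : X), (w : X)} : Set X)} : Set π) ∈
        restrict L π := ⟨_, hline, hsub, rfl⟩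
    have hk' := (he _).mp hk
    have e1 : e '' {t : π | (t : X) ∈ ({(u : X), (v : X), (w : X)} : Set X)} =
        {e u, e v, e w} := by
      ext q
      constructor
      · rintro ⟨t, ht, rfl⟩
        have ht1 : (t : X) ∈ ({(u : X), (v : X), (w : X)} : Set X) := ht
        have ht' : (t : X) = u ∨ (t : X) = v ∨ (t : X) = w := by
          simpa only [Set.mem_insert_iff, Set.mem_singleton_iff] using ht1
        rcases ht' with h | h | h
        · rw [Subtype.ext h]; simp
        · rw [Subtype.ext h]; simp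
        · rw [Subtype.ext h]; simp
      · intro hq
        have hq' : q = e u ∨ q = e v ∨ q = e w := by
          simpa only [Set.mem_insert_iff, Set.mem_singleton_iff] using hq
        rcases hq' with rfl | rfl | rfl
        · exact ⟨u, by simp, rfl⟩
        · exact ⟨v, by simp, rfl⟩
        · exact ⟨w, by simp, rfl⟩
    rw [e1] at hk'
    exact hk'
  have T2 : ∀ (u v : π) (z' : Y), Third M (e u) (e v) z' → ∃ w : π, Third L (u : X) v w := by
    rintro u v z' ⟨hzu, hzv, huv, hline⟩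
    obtain ⟨w, hew⟩ : ∃ w : π, e w = z' := ⟨e.symm z', e.apply_symm_apply z'⟩
    have hwu : w ≠ u := fun h => hzu (by rw [← hew, h])
    have hwv : w ≠ v := fun h => hzv (by rw [← hew, h])
    have huv' : u ≠ v := fun h => huv (by rw [h])
    have e1 : e '' ({u, v, w} : Set π) = {e u, e v, z'} := by
      rw [Set.image_insert_eq, Set.image_pair, hew]
    have hk : ({u, v, w} : Set π) ∈ restrict L π := (he _).mpr (by rw [e1]; exact hline)
    obtain ⟨l₀, hl₀, _, hk₀⟩ := hk
    have hu : (u : X) ∈ l₀ := by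
      have h1 : u ∈ ({u, v, w} : Set π) := by simp
      rw [hk₀] at h1; exact h1
    have hv : (v : X) ∈ l₀ := by
      have h1 : v ∈ ({u, v, w} : Set π) := by simp
      rw [hk₀] at h1; exact h1
    have hw' : (w : X) ∈ l₀ := by
      have h1 : w ∈ ({u, v, w} : Set π) := by simp
      rw [hk₀] at h1; exact h1
    have huvX : (u : X) ≠ v := fun h => huv' (Subtype.ext h)
    obtain ⟨z, hz, hl₀eq⟩ := line_third h3 hl₀ hu hv huvX
    have hwz : (w : X) = z := by
      rw [hl₀eq] at hw'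
      simp only [Set.mem_insert_iff, Set.mem_singleton_iff] at hw'
      rcases hw' with h | h | h
      · exact absurd (Subtype.ext h) hwu
      · exact absurd (Subtype.ext h) hwv
      · exact h
    exact ⟨w, by rw [hwz]; exact hz⟩
  have hk : ({t : π | (t : X) ∈ l} : Set π) ∈ restrict L π := ⟨l, hl, hlπ, rfl⟩
  have hk' := (he _).mp hk
  obtain ⟨k', hk'M, hprop⟩ := hM (e ⟨x, hx⟩) _ hk'
  have hk'' : e.symm '' k' ∈ restrict L π :=
    (he _).mpr (by rw [Equiv.image_symm_image]; exact hk'M)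
  obtain ⟨l', hl', _, hkl'⟩ := hk''
  have hsub : lineMap L x '' l ⊆ l' := by
    rintro _ ⟨y, hy, rfl⟩
    have hyπ : y ∈ π := hlπ hy
    have hey : e ⟨y, hyπ⟩ ∈ e '' {t : π | (t : X) ∈ l} := ⟨⟨y, hyπ⟩, hy, rfl⟩
    obtain ⟨hp1, hp2⟩ := hprop _ hey
    by_cases h : ∃ z, Third L x y z
    · obtain ⟨z, hz⟩ := h
      rw [lineMap_eq hPL hz]
      have hzπ : z ∈ π := third_mem hπ hz hx hyπ
      have h1 := hp1 _ (T1 ⟨x, hx⟩ ⟨y, hyπ⟩ ⟨z, hzπ⟩ hz)
      have h2 : (⟨z, hzπ⟩ : π) ∈ e.symm '' k' := ⟨_, h1, e.symm_apply_apply _⟩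
      rw [hkl'] at h2
      exact h2
    · rw [lineMap_neg L x y h]
      have h1 : ¬ ∃ z', Third M (e ⟨x, hx⟩) (e ⟨y, hyπ⟩) z' := by
        rintro ⟨z', hz'⟩
        obtain ⟨w, hw⟩ := T2 ⟨x, hx⟩ ⟨y, hyπ⟩ z' hz'
        exact h ⟨w, hw⟩
      have h2 := hp2 h1
      have h3' : (⟨y, hyπ⟩ : π) ∈ e.symm '' k' := ⟨_, h2, e.symm_apply_apply _⟩
      rw [hkl'] at h3'
      exact h3'
  have hfin : l'.Finite := Set.finite_of_ncard_ne_zero (by rw [h3 l' hl']; norm_num)
  have hcard : l'.ncard ≤ (lineMap L x '' l).ncard := by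
    rw [Set.ncard_image_of_injective _ (lineMap_invol hPL x).injective, h3 l hl, h3 l' hl']
  rw [Set.eq_of_subset_of_ncard_le hsub hcard hfin]
  exact hl'

/-! ### The affine plane of order three -/

theorem zmod3_sum : ∀ c₁ c₂ c₃ : ZMod 3, c₁ ≠ c₂ → c₁ ≠ c₃ → c₂ ≠ c₃ → c₁ + c₂ + c₃ = 0 := by
  decide

theorem zmod3_a : ∀ a b : ZMod 3, -a - b = a → a = b := by decide
theorem zmod3_b : ∀ a b : ZMod 3, -a - b = b → a = b := by decide
theorem zmod3_c : ∀ a b : ZMod 3, -a - b = a + 2 * (b - a) := by decide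
theorem zmod3_d : ∀ a b : ZMod 3, a + b = -(a + b) - a + -b := by decide
theorem zmod3_e : ∀ c : ZMod 3, c = 0 ∨ c = 1 ∨ c = 2 := by decide
theorem zmod3_f : ∀ a b : ZMod 3, -a - (b) = -a - b := by decide

theorem affine_third {p y z : Fin 2 → ZMod 3} (h : Third affinePlaneThree p y z) :
    z = -p - y := by
  obtain ⟨hzp, hzy, hpy, v, w, hw, hl⟩ := h
  have hp : p ∈ ({p, y, z} : Set (Fin 2 → ZMod 3)) := by simp
  have hy : y ∈ ({p, y, z} : Set (Fin 2 → ZMod 3)) := by simp
  have hz : z ∈ ({p, y, z} : Set (Fin 2 → ZMod 3)) := by simp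
  rw [hl] at hp hy hz
  obtain ⟨c₁, hc₁⟩ := hp
  obtain ⟨c₂, hc₂⟩ := hy
  obtain ⟨c₃, hc₃⟩ := hz
  have h12 : c₁ ≠ c₂ := fun h => hpy (by rw [hc₁, hc₂, h])
  have h13 : c₁ ≠ c₃ := fun h => hzp (by rw [hc₁, hc₃, h])
  have h23 : c₂ ≠ c₃ := fun h => hzy (by rw [hc₂, hc₃, h])
  have hs := zmod3_sum c₁ c₂ c₃ h12 h13 h23
  have h3 : (3 : ZMod 3) = 0 := by decide
  rw [hc₁, hc₂, hc₃]
  funext i
  simp only [Pi.add_apply, Pi.sub_apply, Pi.neg_apply, Pi.smul_apply, smul_eq_mul]
  have e1 : v i + c₃ * w i - (-(v i + c₁ * w i) - (v i + c₂ * w i)) =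
      3 * v i + (c₁ + c₂ + c₃) * w i := by ring
  rw [hs, h3, zero_mul, zero_mul, add_zero] at e1
  exact sub_eq_zero.mp e1

theorem affine_third_exists {p y : Fin 2 → ZMod 3} (hne : p ≠ y) :
    Third affinePlaneThree p y (-p - y) := by
  refine ⟨?_, ?_, hne, p, y - p, sub_ne_zero.mpr hne.symm, ?_⟩
  · intro h
    apply hne
    funext i
    have h1 := congrFun h i
    simp only [Pi.sub_apply, Pi.neg_apply] at h1
    exact zmod3_a _ _ h1
  · intro h
    apply hne
    funext i
    have h1 := congrFun h i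
    simp only [Pi.sub_apply, Pi.neg_apply] at h1
    exact zmod3_b _ _ h1
  · ext t
    constructor
    · intro ht
      have ht' : t = p ∨ t = y ∨ t = -p - y := by
        simpa only [Set.mem_insert_iff, Set.mem_singleton_iff] using ht
      rcases ht' with rfl | rfl | rfl
      · exact ⟨0, by simp⟩
      · exact ⟨1, by simp⟩
      · refine ⟨2, ?_⟩
        funext i
        simp only [Pi.add_apply, Pi.sub_apply, Pi.neg_apply, Pi.smul_apply, smul_eq_mul]
        exact zmod3_c _ _
    · rintro ⟨c, rfl⟩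
      rcases zmod3_e c with rfl | rfl | rfl
      · simp
      · simp
      · have e1 : p + (2 : ZMod 3) • (y - p) = -p - y := by
          funext i
          simp only [Pi.add_apply, Pi.sub_apply, Pi.neg_apply, Pi.smul_apply, smul_eq_mul]
          exact (zmod3_c _ _).symm
        rw [e1]; simp

theorem modelProp_affine : ModelProp affinePlaneThree := by
  rintro p k ⟨v, w, hw, rfl⟩
  refine ⟨{x | ∃ c : ZMod 3, x = (-p - v) + c • (-w)}, ⟨-p - v, -w, neg_ne_zero.mpr hw, rfl⟩, ?_⟩
  rintro y ⟨c, rfl⟩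
  constructor
  · intro z hz
    rw [affine_third hz]
    refine ⟨c, ?_⟩
    funext i
    simp only [Pi.add_apply, Pi.sub_apply, Pi.neg_apply, Pi.smul_apply, smul_eq_mul]
    ring
  · intro hno
    have hpy : p = v + c • w := by
      by_contra hne
      exact hno ⟨-p - (v + c • w), affine_third_exists hne⟩
    refine ⟨c, ?_⟩
    rw [hpy]
    funext i
    simp only [Pi.add_apply, Pi.sub_apply, Pi.neg_apply, Pi.smul_apply, smul_eq_mul, mul_neg]
    exact zmod3_d _ _

/-! ### The dual affine plane of order two -/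

/-- Decidable form of `Third` in the dual affine plane. -/
def ThirdD (p y z : DualAffinePoint) : Prop :=
  z ≠ p ∧ z ≠ y ∧ p ≠ y ∧ ∃ i : Fin 4, i ∉ p.val ∧ i ∉ y.val ∧ i ∉ z.val

instance (p y z : DualAffinePoint) : Decidable (ThirdD p y z) := by
  unfold ThirdD; infer_instance

set_option synthInstance.maxSize 4096 in
set_option synthInstance.maxHeartbeats 400000 in
theorem dual_aux : ∀ (p y z : DualAffinePoint) (i : Fin 4), p ≠ y → z ≠ p → z ≠ y →
    i ∉ p.val → i ∉ y.val → i ∉ z.val → ∀ s : DualAffinePoint, i ∉ s.val →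
    s = p ∨ s = y ∨ s = z := by
  decide +kernel

theorem third_dual_iff (p y z : DualAffinePoint) :
    Third dualAffinePlaneTwo p y z ↔ ThirdD p y z := by
  constructor
  · rintro ⟨h1, h2, h3, i, hi⟩
    refine ⟨h1, h2, h3, i, ?_, ?_, ?_⟩
    · have h4 : p ∈ ({p, y, z} : Set DualAffinePoint) := by simp
      rw [hi] at h4; exact h4
    · have h4 : y ∈ ({p, y, z} : Set DualAffinePoint) := by simp
      rw [hi] at h4; exact h4
    · have h4 : z ∈ ({p, y, z} : Set DualAffinePoint) := by simp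
      rw [hi] at h4; exact h4
  · rintro ⟨h1, h2, h3, i, hp, hy, hz⟩
    refine ⟨h1, h2, h3, i, ?_⟩
    ext s
    constructor
    · intro hs
      have hs' : s = p ∨ s = y ∨ s = z := by
        simpa only [Set.mem_insert_iff, Set.mem_singleton_iff] using hs
      rcases hs' with rfl | rfl | rfl
      · exact hp
      · exact hy
      · exact hz
    · intro hs
      have hs' := dual_aux p y z i h3 h1 h2 hp hy hz s hs
      simpa only [Set.mem_insert_iff, Set.mem_singleton_iff] using hs'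

set_option synthInstance.maxSize 4096 in
set_option synthInstance.maxHeartbeats 400000 in
theorem dual_main : ∀ (p : DualAffinePoint) (i : Fin 4), ∃ j : Fin 4, ∀ y : DualAffinePoint,
    i ∉ y.val → (∀ z, ThirdD p y z → j ∉ z.val) ∧ ((¬ ∃ z, ThirdD p y z) → j ∉ y.val) := by
  decide +kernel

theorem modelProp_dual : ModelProp dualAffinePlaneTwo := by
  rintro p k ⟨i, rfl⟩
  obtain ⟨j, hj⟩ := dual_main p i
  refine ⟨{s | j ∉ s.val}, ⟨j, rfl⟩, ?_⟩
  intro y hy
  obtain ⟨h1, h2⟩ := hj y hy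
  constructor
  · intro z hz
    exact h1 z ((third_dual_iff p y z).mp hz)
  · intro hno
    exact h2 (fun ⟨z, hz⟩ => hno ⟨z, (third_dual_iff p y z).mpr hz⟩)

/-! ### Fischer spaces -/

theorem lineMap_image_mem {L : Set (Set X)} (hL : IsFischerSpace L) (x : X) {l : Set X}
    (hl : l ∈ L) : lineMap L x '' l ∈ L := by
  obtain ⟨hPL, h3, hplane⟩ := hL
  by_cases hx : x ∈ l
  · obtain ⟨a, b, c, hab, hac, hbc, hlabc⟩ := Set.ncard_eq_three.mp (h3 l hl)
    have hex : ∃ y ∈ l, y ≠ x := by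
      by_cases h : a = x
      · exact ⟨b, by rw [hlabc]; simp, fun hb => hab (h.trans hb.symm)⟩
      · exact ⟨a, by rw [hlabc]; simp, h⟩
    obtain ⟨y, hy, hyx⟩ := hex
    obtain ⟨z, hz, heq⟩ := line_third h3 hl hx hy (Ne.symm hyx)
    have e1 : lineMap L x '' l = l := by
      rw [heq, Set.image_insert_eq, Set.image_pair, lineMap_eq hPL hz,
        lineMap_eq hPL (third_swap23 hz), lineMap_self, Set.pair_comm]
    rw [e1]; exact hl
  · by_cases hcol : ∃ a ∈ l, ∃ a', Third L x a a'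
    · obtain ⟨a, ha, a', ha'⟩ := hcol
      have hmL : ({x, a, a'} : Set X) ∈ L := ha'.2.2.2
      have hne : l ≠ {x, a, a'} := fun h => hx (by rw [h]; simp)
      have hint : (l ∩ {x, a, a'}).Nonempty := ⟨a, ha, by simp⟩
      have hπ := span_isSubspace L (l ∪ {x, a, a'})
      have hsub := subset_span' L (l ∪ {x, a, a'})
      have hxπ : x ∈ span L (l ∪ {x, a, a'}) := hsub (Or.inr (by simp))
      have hlπ : l ⊆ span L (l ∪ {x, a, a'}) := fun t ht => hsub (Or.inl ht)
      rcases hplane l hl _ hmL hne hint with ⟨e, he⟩ | ⟨e, he⟩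
      · exact image_line_of_model hPL h3 hπ modelProp_dual e he hxπ hl hlπ
      · exact image_line_of_model hPL h3 hπ modelProp_affine e he hxπ hl hlπ
    · have e1 : lineMap L x '' l = l := by
        ext t
        constructor
        · rintro ⟨y, hy, rfl⟩
          rw [lineMap_neg L x y (fun ⟨z, hz⟩ => hcol ⟨y, hy, z, hz⟩)]; exact hy
        · intro ht
          exact ⟨t, ht, lineMap_neg L x t (fun ⟨z, hz⟩ => hcol ⟨t, ht, z, hz⟩)⟩
      rw [e1]; exact hl

/-- The permutation `t(x)`. -/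
noncomputable def tPerm (L : Set (Set X)) (hPL : IsPartialLinear L) (x : X) : Equiv.Perm X :=
  (lineMap_invol hPL x).toPerm

theorem tPerm_apply (L : Set (Set X)) (hPL : IsPartialLinear L) (x y : X) :
    tPerm L hPL x y = lineMap L x y := rfl

theorem tPerm_iso {L : Set (Set X)} (hL : IsFischerSpace L) (x : X) :
    IsIso L L (tPerm L hL.1 x) := by
  intro l
  constructor
  · intro hl
    exact lineMap_image_mem hL x hl
  · intro hl
    have h1 := lineMap_image_mem hL x hl
    have e1 : lineMap L x '' ((tPerm L hL.1 x) '' l) = l := by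
      rw [Set.image_image]
      have e2 : (fun y => lineMap L x ((tPerm L hL.1 x) y)) = id := by
        funext y
        exact lineMap_invol hL.1 x y
      rw [e2, Set.image_id]
    rw [e1] at h1
    exact h1

theorem third_iso {L : Set (Set X)} {τ : Equiv.Perm X} (hτ : IsIso L L τ) {x y z : X} :
    Third L x y z ↔ Third L (τ x) (τ y) (τ z) := by
  unfold Third
  rw [hτ {x, y, z}, Set.image_insert_eq, Set.image_pair]
  simp only [ne_eq, EmbeddingLike.apply_eq_iff_eq]

theorem lineMap_conj {L : Set (Set X)} (hPL : IsPartialLinear L) {τ : Equiv.Perm X}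
    (hτ : IsIso L L τ) (y w : X) : τ (lineMap L y w) = lineMap L (τ y) (τ w) := by
  by_cases h : ∃ z, Third L y w z
  · obtain ⟨z, hz⟩ := h
    rw [lineMap_eq hPL hz, lineMap_eq hPL ((third_iso hτ).mp hz)]
  · rw [lineMap_neg L y w h, lineMap_neg]
    rintro ⟨z', hz'⟩
    apply h
    refine ⟨τ.symm z', (third_iso hτ).mpr ?_⟩
    rw [Equiv.apply_symm_apply]; exact hz'

theorem tPerm_ne_one {L : Set (Set X)} (hL : IsFischerSpace L) (hnd : IsNondegenerate L) (x : X) :
    tPerm L hL.1 x ≠ 1 := by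
  obtain ⟨hPL, h3, _⟩ := hL
  obtain ⟨l, hl, hx⟩ := hnd x
  obtain ⟨a, b, c, hab, hac, hbc, hlabc⟩ := Set.ncard_eq_three.mp (h3 l hl)
  have hex : ∃ y ∈ l, y ≠ x := by
    by_cases h : a = x
    · exact ⟨b, by rw [hlabc]; simp, fun hb => hab (h.trans hb.symm)⟩
    · exact ⟨a, by rw [hlabc]; simp, h⟩
  obtain ⟨y, hy, hyx⟩ := hex
  obtain ⟨z, hz, _⟩ := line_third h3 hl hx hy (Ne.symm hyx)
  intro h
  have h1 : tPerm L hPL x y = y := by rw [h]; rfl
  rw [tPerm_apply, lineMap_eq hPL hz] at h1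
  exact hz.2.1 h1

theorem tPerm_sq {L : Set (Set X)} (hPL : IsPartialLinear L) (x : X) :
    tPerm L hPL x * tPerm L hPL x = 1 := by
  ext y
  exact lineMap_invol hPL x y

theorem tPerm_conj {L : Set (Set X)} (hL : IsFischerSpace L) (x y : X) :
    tPerm L hL.1 x * tPerm L hL.1 y * tPerm L hL.1 x = tPerm L hL.1 (lineMap L x y) := by
  ext w
  show tPerm L hL.1 x (lineMap L y (lineMap L x w)) = lineMap L (lineMap L x y) w
  rw [lineMap_conj hL.1 (tPerm_iso hL x), tPerm_apply, tPerm_apply, lineMap_invol hL.1 x w]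

theorem pow3_eq {G : Type*} [Group G] (a b : G) : (a * b) ^ 3 = (a * b * a) * (b * a * b) := by
  rw [pow_succ, pow_two]
  simp only [mul_assoc]

theorem pow2_eq {G : Type*} [Group G] (a b : G) : (a * b) ^ 2 = (a * b * a) * b := by
  rw [pow_two]
  simp only [mul_assoc]

theorem result {X : Type*} (L : Set (Set X)) (hL : Cfsg.IsFischerSpace L) (hnd : Cfsg.LineSystem.IsNondegenerate L) : (∀ x : X, ∃ σ : Equiv.Perm X, ⇑σ = Cfsg.LineSystem.lineMap L x ∧ orderOf σ = 2 ∧ Cfsg.LineSystem.IsIso L L σ) ∧ Cfsg.IsThreeTranspositionSet {σ : Equiv.Perm X | ∃ x : X, ⇑σ = Cfsg.LineSystem.lineMap L x} := by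
  have hPL := hL.1
  have hord : ∀ x : X, orderOf (tPerm L hPL x) = 2 := by
    intro x
    have : Fact (Nat.Prime 2) := ⟨Nat.prime_two⟩
    exact orderOf_eq_prime (by rw [pow_two]; exact tPerm_sq hPL x) (tPerm_ne_one hL hnd x)
  have hD : ∀ σ : Equiv.Perm X, (∃ x : X, ⇑σ = lineMap L x) → ∃ x, σ = tPerm L hPL x := by
    rintro σ ⟨x, hx⟩
    exact ⟨x, Equiv.ext (fun y => by rw [hx]; rfl)⟩
  refine ⟨fun x => ⟨tPerm L hPL x, rfl, hord x, tPerm_iso hL x⟩, ?_, ?_⟩
  · intro d hd
    obtain ⟨x, rfl⟩ := hD d hd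
    exact hord x
  · intro d hd e he
    obtain ⟨x, rfl⟩ := hD d hd
    obtain ⟨y, rfl⟩ := hD e he
    by_cases h : ∃ z, Third L x y z
    · right
      obtain ⟨z, hz⟩ := h
      have h1 : tPerm L hPL x * tPerm L hPL y * tPerm L hPL x = tPerm L hPL z := by
        rw [tPerm_conj hL x y, lineMap_eq hPL hz]
      have h2 : tPerm L hPL y * tPerm L hPL x * tPerm L hPL y = tPerm L hPL z := by
        rw [tPerm_conj hL y x, lineMap_eq hPL (third_swap12 hz)]
      rw [pow3_eq, h1, h2, tPerm_sq]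
    · left
      have h1 : tPerm L hPL x * tPerm L hPL y * tPerm L hPL x = tPerm L hPL y := by
        rw [tPerm_conj hL x y, lineMap_neg L x y h]
      rw [pow2_eq, h1, tPerm_sq]

end Cfsg.Agent.S5366
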