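import Cfsg.Statements.S5367
import Mathlib

set_option autoImplicit false
open Cfsg

namespace Cfsg.Agent.S5367

open Cfsg.LineSystem

/-! ### Generic facts on line systems -/

section Generic

variable {X : Type*}

theorem subset_span' (L : Set (Set X)) (S : Set X) : S ⊆ span L S :=
  fun _ hx _ hT => hT.1 hx

theorem span_isSubspace (L : Set (Set X)) (S : Set X) : IsSubspace L (span L S) := by
  intro l hl x hx y hy hxy hxl hyl t ht T hT
  exact hT.2 l hl x (hx T hT) y (hy T hT) hxy hxl hyl ht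

/-- A map from a model line system onto a subspace which matches lines is an isomorphism. -/
theorem iso_of_model {Y : Type*} {L : Set (Set X)} {M : Set (Set Y)}
    (hPL : IsPartialLinear L)
    (h3 : ∀ l ∈ L, ∃ x y, x ≠ y ∧ x ∈ l ∧ y ∈ l)
    (φ : Y → X) (hinj : Function.Injective φ)
    (h1 : ∀ k ∈ M, φ '' k ∈ L)
    (h2 : ∀ p q : Y, p ≠ q → (∀ k ∈ M, ¬ (p ∈ k ∧ q ∈ k)) → ∀ l ∈ L, ¬ (φ p ∈ l ∧ φ q ∈ l))
    (S : Set X) (hS : S ⊆ Set.range φ) (hspan : Set.range φ ⊆ span L S) :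
    Isomorphic (restrict L (span L S)) M := by
  have key : ∀ l ∈ L, ∀ p q : Y, p ≠ q → φ p ∈ l → φ q ∈ l → ∃ k ∈ M, l = φ '' k := by
    intro l hl p q hpq hp hq
    by_contra hcon
    push Not at hcon
    have hno : ∀ k ∈ M, ¬ (p ∈ k ∧ q ∈ k) := by
      rintro k hk ⟨hpk, hqk⟩
      exact hcon k hk (hPL l hl (φ '' k) (h1 k hk) (φ p) (φ q) (fun h => hpq (hinj h)) hp hq
        ⟨p, hpk, rfl⟩ ⟨q, hqk, rfl⟩)
    exact h2 p q hpq hno l hl ⟨hp, hq⟩
  have hsub : IsSubspace L (Set.range φ) := by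
    intro l hl x hx y hy hxy hxl hyl
    obtain ⟨p, rfl⟩ := hx
    obtain ⟨q, rfl⟩ := hy
    obtain ⟨k, hk, rfl⟩ := key l hl p q (fun h => hxy (by rw [h])) hxl hyl
    exact Set.image_subset_range φ k
  have hspan' : span L S ⊆ Set.range φ := fun x hx => hx (Set.range φ) ⟨hS, hsub⟩
  let ψ : Y → span L S := fun y => ⟨φ y, hspan ⟨y, rfl⟩⟩
  have hψ : Function.Bijective ψ := by
    refine ⟨fun y y' h => hinj (congrArg Subtype.val h), fun x => ?_⟩
    obtain ⟨y, hy⟩ := hspan' x.2
    exact ⟨y, Subtype.ext hy⟩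
  let E : Y ≃ span L S := Equiv.ofBijective ψ hψ
  have hE : ∀ y : Y, ((E y : span L S) : X) = φ y := fun y => rfl
  have he : ∀ x : span L S, φ (E.symm x) = x := fun x => by
    rw [← hE, Equiv.apply_symm_apply]
  refine ⟨E.symm, fun l' => ⟨?_, ?_⟩⟩
  · rintro ⟨l, hl, hlS, rfl⟩
    obtain ⟨x, y, hxy, hx, hy⟩ := h3 l hl
    obtain ⟨p, rfl⟩ := hspan' (hlS hx)
    obtain ⟨q, rfl⟩ := hspan' (hlS hy)
    obtain ⟨k, hk, rfl⟩ := key l hl p q (fun h => hxy (by rw [h])) hx hy
    have hk' : E.symm '' {x : span L S | (x : X) ∈ φ '' k} = k := by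
      ext y
      constructor
      · rintro ⟨x, ⟨y', hy', hy'x⟩, rfl⟩
        have h4 : E.symm x = y' := hinj (by rw [he, hy'x])
        rw [h4]; exact hy'
      · intro hy
        exact ⟨E y, ⟨y, hy, rfl⟩, E.symm_apply_apply y⟩
    rw [hk']; exact hk
  · intro hk
    refine ⟨φ '' (E.symm '' l'), h1 _ hk, ?_, ?_⟩
    · rintro _ ⟨_, ⟨x, _, rfl⟩, rfl⟩
      rw [he]; exact x.2
    · ext x
      constructor
      · intro hx
        exact ⟨E.symm x, ⟨x, hx, rfl⟩, he x⟩
      · rintro ⟨_, ⟨x', hx', rfl⟩, h⟩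
        have h4 : x' = x := Subtype.ext (by rw [← he x', h])
        rw [← h4]; exact hx'

end Generic

/-! ### The quandle of 3-transpositions -/

section TT

variable {G : Type*} [Group G] {D : Set G}

/-- The properties of a set of 3-transpositions that are used. -/
structure TT (D : Set G) : Prop where
  sq : ∀ d ∈ D, d * d = 1
  conj : ∀ d ∈ D, ∀ e ∈ D, d * e * d ∈ D
  braid : ∀ d ∈ D, ∀ e ∈ D, ¬ Commute d e → d * e * d = e * d * e

theorem tt_of (hD : IsThreeTranspositionGroup D) : TT D := by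
  obtain ⟨⟨ho, h23⟩, hc, -⟩ := hD
  have hsq : ∀ d ∈ D, d * d = 1 := fun d hd => by
    have h1 := pow_orderOf_eq_one d
    rw [ho d hd, pow_two] at h1
    exact h1
  have hinv : ∀ d ∈ D, d⁻¹ = d := fun d hd => inv_eq_of_mul_eq_one_right (hsq d hd)
  refine ⟨hsq, fun d hd e he => ?_, fun d hd e he hne => ?_⟩
  · have h1 := hc d e he
    rwa [hinv d hd] at h1
  · rcases h23 d hd e he with h | h
    · exfalso
      apply hne
      have h1 : d * e * (d * e) = 1 := by rwa [pow_two] at h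
      have h2 : d * e = (d * e)⁻¹ := eq_inv_of_mul_eq_one_left h1
      rw [mul_inv_rev, hinv d hd, hinv e he] at h2
      exact h2
    · have h1 : d * e * d * (e * d * e) = 1 := by
        rw [pow_succ, pow_two] at h
        simpa only [mul_assoc] using h
      have h2 : d * e * d = (e * d * e)⁻¹ := eq_inv_of_mul_eq_one_left h1
      rw [mul_inv_rev, mul_inv_rev, hinv d hd, hinv e he, ← mul_assoc] at h2
      exact h2

/-- Non-commuting points. -/
def NC (x y : D) : Prop := ¬ Commute x.1 y.1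

theorem nc_symm {x y : D} (hxy : NC x y) : NC y x := fun hc => hxy hc.symm

variable (h : TT D)
include h

theorem sq' (x : D) (g : G) : x.1 * (x.1 * g) = g := by
  rw [← mul_assoc, h.sq x.1 x.2, one_mul]

theorem sq'' (x : D) : x.1 * x.1 = 1 := h.sq x.1 x.2

/-- Conjugation of `y` by `x`. -/
def cj (x y : D) : D := ⟨x.1 * y.1 * x.1, h.conj x.1 x.2 y.1 y.2⟩

theorem cj_val (x y : D) : (cj h x y).1 = x.1 * y.1 * x.1 := rfl

theorem cj_cj (x y : D) : cj h x (cj h x y) = y :=
  Subtype.ext (by simp only [cj_val, mul_assoc, sq' h, sq'' h, mul_one])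

theorem cj_dist (x y z : D) : cj h x (cj h y z) = cj h (cj h x y) (cj h x z) :=
  Subtype.ext (by simp only [cj_val, mul_assoc, sq' h])

theorem cj_self (x : D) : cj h x x = x :=
  Subtype.ext (by simp only [cj_val, sq'' h, one_mul])

theorem cj_comm {x y : D} (hxy : NC x y) : cj h x y = cj h y x :=
  Subtype.ext (h.braid x.1 x.2 y.1 y.2 hxy)

theorem cj_of_commute {x y : D} (hc : Commute x.1 y.1) : cj h x y = y :=
  Subtype.ext (by rw [cj_val, hc.eq, mul_assoc, sq'' h, mul_one])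

theorem commute_cj_iff (x y z : D) : Commute (cj h x y).1 (cj h x z).1 ↔ Commute y.1 z.1 := by
  constructor
  · intro hc
    have h1 : x.1 * y.1 * x.1 * (x.1 * z.1 * x.1) = x.1 * z.1 * x.1 * (x.1 * y.1 * x.1) := hc
    simp only [mul_assoc, sq' h] at h1
    have h2 := mul_left_cancel h1
    rw [← mul_assoc, ← mul_assoc] at h2
    exact mul_right_cancel h2
  · intro hc
    have h0 : y.1 * z.1 = z.1 * y.1 := hc
    show x.1 * y.1 * x.1 * (x.1 * z.1 * x.1) = x.1 * z.1 * x.1 * (x.1 * y.1 * x.1)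
    simp only [mul_assoc, sq' h]
    rw [← mul_assoc y.1 z.1, h0, mul_assoc]

theorem nc_cj_iff (x y z : D) : NC (cj h x y) (cj h x z) ↔ NC y z :=
  not_congr (commute_cj_iff h x y z)

/-- `{x, y, z}` is a line with `z` the third point. -/
def Tri (x y z : D) : Prop := NC x y ∧ z = cj h x y

variable {h}

theorem Tri.swap12 {x y z : D} (t : Tri h x y z) : Tri h y x z :=
  ⟨nc_symm t.1, by rw [t.2, cj_comm h t.1]⟩

theorem Tri.swap23 {x y z : D} (t : Tri h x y z) : Tri h x z y := by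
  refine ⟨?_, by rw [t.2, cj_cj]⟩
  have h1 := (nc_cj_iff h x x y).2 t.1
  rw [cj_self] at h1
  rw [t.2]; exact h1

theorem Tri.conj {x y z : D} (t : Tri h x y z) (w : D) :
    Tri h (cj h w x) (cj h w y) (cj h w z) :=
  ⟨(nc_cj_iff h w x y).2 t.1, by rw [t.2, cj_dist]⟩

theorem Tri.ne12 {x y z : D} (t : Tri h x y z) : x ≠ y :=
  fun hxy => t.1 (by rw [hxy])

theorem Tri.ne13 {x y z : D} (t : Tri h x y z) : x ≠ z := t.swap23.ne12

theorem Tri.ne23 {x y z : D} (t : Tri h x y z) : y ≠ z := t.swap12.swap23.ne12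

variable (h)

theorem line_eq {x y : D} (hn : NC x y) :
    {z : D | (z : G) = x ∨ (z : G) = y ∨ (z : G) = (y : G) * (x : G) * (y : G)⁻¹} =
      ({x, y, cj h x y} : Set D) := by
  have hinv : (y : G)⁻¹ = y := inv_eq_of_mul_eq_one_right (sq'' h y)
  have hb : (y : G) * x * y = x * y * x := (h.braid x.1 x.2 y.1 y.2 hn).symm
  ext z
  simp only [Set.mem_ofPred_eq, Set.mem_insert_iff, Set.mem_singleton_iff, Subtype.ext_iff, cj_val,
    hinv, hb]

theorem mem_lines_iff (l : Set D) :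
    l ∈ threeTranspositionLines D ↔ ∃ x y z : D, Tri h x y z ∧ l = {x, y, z} := by
  constructor
  · rintro ⟨x, y, hn, rfl⟩
    exact ⟨x, y, cj h x y, ⟨hn, rfl⟩, line_eq h hn⟩
  · rintro ⟨x, y, z, ⟨hn, rfl⟩, rfl⟩
    exact ⟨x, y, hn, (line_eq h hn).symm⟩

theorem tri_of_mem {x y z p q : D} (t : Tri h x y z) (hpq : p ≠ q)
    (hp : p ∈ ({x, y, z} : Set D)) (hq : q ∈ ({x, y, z} : Set D)) :
    ∃ r, Tri h p q r ∧ ({x, y, z} : Set D) = {p, q, r} := by
  have hp' : p = x ∨ p = y ∨ p = z := by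
    simpa only [Set.mem_insert_iff, Set.mem_singleton_iff] using hp
  have hq' : q = x ∨ q = y ∨ q = z := by
    simpa only [Set.mem_insert_iff, Set.mem_singleton_iff] using hq
  rcases hp' with rfl | rfl | rfl <;> rcases hq' with rfl | rfl | rfl
  · exact absurd rfl hpq
  · exact ⟨z, t, rfl⟩
  · exact ⟨y, t.swap23, by
      ext s; simp only [Set.mem_insert_iff, Set.mem_singleton_iff]; tauto⟩
  · exact ⟨z, t.swap12, by
      ext s; simp only [Set.mem_insert_iff, Set.mem_singleton_iff]; tauto⟩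
  · exact absurd rfl hpq
  · exact ⟨x, t.swap12.swap23, by
      ext s; simp only [Set.mem_insert_iff, Set.mem_singleton_iff]; tauto⟩
  · exact ⟨y, t.swap23.swap12, by
      ext s; simp only [Set.mem_insert_iff, Set.mem_singleton_iff]; tauto⟩
  · exact ⟨x, t.swap12.swap23.swap12, by
      ext s; simp only [Set.mem_insert_iff, Set.mem_singleton_iff]; tauto⟩
  · exact absurd rfl hpq

theorem partialLinear : IsPartialLinear (threeTranspositionLines D) := by
  intro l hl m hm x y hxy hxl hyl hxm hym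
  obtain ⟨a, b, c, t, rfl⟩ := (mem_lines_iff h l).1 hl
  obtain ⟨a', b', c', t', rfl⟩ := (mem_lines_iff h m).1 hm
  obtain ⟨r, tr, e1⟩ := tri_of_mem h t hxy hxl hyl
  obtain ⟨r', tr', e2⟩ := tri_of_mem h t' hxy hxm hym
  rw [e1, e2, tr.2, tr'.2]

theorem ncard_three : ∀ l ∈ threeTranspositionLines D, l.ncard = 3 := by
  intro l hl
  obtain ⟨a, b, c, t, rfl⟩ := (mem_lines_iff h l).1 hl
  exact Set.ncard_eq_three.mpr ⟨a, b, c, t.ne12, t.ne13, t.ne23, rfl⟩

theorem tri_mem_line {x y z : D} (t : Tri h x y z) :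
    ({x, y, z} : Set D) ∈ threeTranspositionLines D :=
  (mem_lines_iff h _).2 ⟨x, y, z, t, rfl⟩

theorem tri_mem_subspace {π : Set D} (hπ : IsSubspace (threeTranspositionLines D) π)
    {x y z : D} (t : Tri h x y z) (hx : x ∈ π) (hy : y ∈ π) : z ∈ π :=
  hπ _ (tri_mem_line h t) x hx y hy t.ne12 (by simp) (by simp) (by simp)

/-- The model criterion specialised to 3-transposition lines. -/
theorem iso_of_tt_model {Y : Type*} {M : Set (Set Y)} (φ : Y → D)
    (h1 : ∀ k ∈ M, ∃ p q r : Y, k = {p, q, r} ∧ Tri h (φ p) (φ q) (φ r))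
    (h2 : ∀ p q : Y, p ≠ q → (∀ k ∈ M, ¬ (p ∈ k ∧ q ∈ k)) →
      φ p ≠ φ q ∧ Commute (φ p).1 (φ q).1)
    (S : Set D) (hS : S ⊆ Set.range φ)
    (hspan : Set.range φ ⊆ span (threeTranspositionLines D) S) :
    Isomorphic (restrict (threeTranspositionLines D) (span (threeTranspositionLines D) S)) M := by
  refine iso_of_model (partialLinear h) ?_ φ ?_ ?_ ?_ S hS hspan
  · intro l hl
    obtain ⟨a, b, c, t, rfl⟩ := (mem_lines_iff h l).1 hl
    exact ⟨a, b, t.ne12, by simp, by simp⟩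
  · intro p q hφ
    by_contra hpq
    by_cases hcol : ∃ k ∈ M, p ∈ k ∧ q ∈ k
    · obtain ⟨k, hk, hpk, hqk⟩ := hcol
      obtain ⟨p₀, q₀, r₀, rfl, t⟩ := h1 k hk
      have hp' : p = p₀ ∨ p = q₀ ∨ p = r₀ := by
        simpa only [Set.mem_insert_iff, Set.mem_singleton_iff] using hpk
      have hq' : q = p₀ ∨ q = q₀ ∨ q = r₀ := by
        simpa only [Set.mem_insert_iff, Set.mem_singleton_iff] using hqk
      rcases hp' with rfl | rfl | rfl <;> rcases hq' with rfl | rfl | rfl
      · exact hpq rfl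
      · exact t.ne12 hφ
      · exact t.ne13 hφ
      · exact t.ne12 hφ.symm
      · exact hpq rfl
      · exact t.ne23 hφ
      · exact t.ne13 hφ.symm
      · exact t.ne23 hφ.symm
      · exact hpq rfl
    · push Not at hcol
      exact (h2 p q hpq (fun k hk ⟨hp, hq⟩ => hcol k hk hp hq)).1 hφ
  · intro k hk
    obtain ⟨p, q, r, rfl, t⟩ := h1 k hk
    have himg : φ '' {p, q, r} = {φ p, φ q, φ r} := by
      simp only [Set.image_insert_eq, Set.image_singleton]
    rw [himg]
    exact tri_mem_line h t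
  · rintro p q hpq hno l hl ⟨hp, hq⟩
    obtain ⟨a, b, c, t, rfl⟩ := (mem_lines_iff h l).1 hl
    have hne : φ p ≠ φ q := (h2 p q hpq hno).1
    obtain ⟨r, tr, -⟩ := tri_of_mem h t hne hp hq
    exact tr.1 (h2 p q hpq hno).2

theorem tri_of_mem1 {x y z p : D} (t : Tri h x y z) (hp : p ∈ ({x, y, z} : Set D)) :
    ∃ q r, Tri h p q r ∧ ({x, y, z} : Set D) = {p, q, r} := by
  have hp' : p = x ∨ p = y ∨ p = z := by
    simpa only [Set.mem_insert_iff, Set.mem_singleton_iff] using hp
  rcases hp' with rfl | rfl | rfl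
  · exact ⟨y, z, t, rfl⟩
  · exact ⟨x, z, t.swap12, by
      ext s; simp only [Set.mem_insert_iff, Set.mem_singleton_iff]; tauto⟩
  · exact ⟨x, y, t.swap23.swap12, by
      ext s; simp only [Set.mem_insert_iff, Set.mem_singleton_iff]; tauto⟩

end TT

/-! ### The dual affine plane of order two -/

/-- The six points. -/
def P01 : DualAffinePoint := ⟨{0, 1}, rfl⟩
/-- The six points. -/
def P02 : DualAffinePoint := ⟨{0, 2}, rfl⟩
/-- The six points. -/
def P03 : DualAffinePoint := ⟨{0, 3}, rfl⟩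
/-- The six points. -/
def P12 : DualAffinePoint := ⟨{1, 2}, rfl⟩
/-- The six points. -/
def P13 : DualAffinePoint := ⟨{1, 3}, rfl⟩
/-- The six points. -/
def P23 : DualAffinePoint := ⟨{2, 3}, rfl⟩

theorem dual_cases : ∀ s : DualAffinePoint,
    s = P01 ∨ s = P02 ∨ s = P03 ∨ s = P12 ∨ s = P13 ∨ s = P23 := by decide

theorem dual_line0 : ∀ s : DualAffinePoint, (0 : Fin 4) ∉ s.1 ↔ s = P12 ∨ s = P13 ∨ s = P23 := by
  decide

theorem dual_line1 : ∀ s : DualAffinePoint, (1 : Fin 4) ∉ s.1 ↔ s = P02 ∨ s = P03 ∨ s = P23 := by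
  decide

theorem dual_line2 : ∀ s : DualAffinePoint, (2 : Fin 4) ∉ s.1 ↔ s = P01 ∨ s = P03 ∨ s = P13 := by
  decide

theorem dual_line3 : ∀ s : DualAffinePoint, (3 : Fin 4) ∉ s.1 ↔ s = P01 ∨ s = P02 ∨ s = P12 := by
  decide

set_option synthInstance.maxSize 4096 in
set_option synthInstance.maxHeartbeats 400000 in
theorem dual_noncol : ∀ p q : DualAffinePoint, p ≠ q → (∀ i : Fin 4, ¬ (i ∉ p.1 ∧ i ∉ q.1)) →
    (p = P01 ∧ q = P23) ∨ (p = P23 ∧ q = P01) ∨ (p = P02 ∧ q = P13) ∨ (p = P13 ∧ q = P02) ∨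
    (p = P03 ∧ q = P12) ∨ (p = P12 ∧ q = P03) := by
  decide +kernel

/-- The model map for the dual affine plane. -/
def dualMap {X : Type*} (a b c d e f : X) (s : DualAffinePoint) : X :=
  if (0 : Fin 4) ∈ s.1 then (if (1 : Fin 4) ∈ s.1 then b else if (2 : Fin 4) ∈ s.1 then c else f)
  else if (1 : Fin 4) ∈ s.1 then (if (2 : Fin 4) ∈ s.1 then a else e) else d

section CaseA

variable {G : Type*} [Group G] {D : Set G}

theorem plane_case_A (h : TT D) {a b c d e : D} (t1 : Tri h a b c) (t2 : Tri h a d e)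
    (hne : ({a, b, c} : Set D) ≠ {a, d, e}) (hc : Commute b.1 d.1) :
    Isomorphic (restrict (threeTranspositionLines D)
      (span (threeTranspositionLines D) ({a, b, c} ∪ {a, d, e}))) dualAffinePlaneTwo := by
  have hbd : b ≠ d := by
    rintro rfl
    apply hne
    rw [t1.2, t2.2]
  have hce : Commute c.1 e.1 := by
    rw [t1.2, t2.2]; exact (commute_cj_iff h a b d).2 hc
  have hce_ne : c ≠ e := by
    intro hce'
    apply hbd
    rw [t1.swap23.2, t2.swap23.2, hce']
  have hbe : NC b e := by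
    intro hbe
    have h1 : Commute b.1 (d.1 * e.1 * d.1) := (hc.mul_right hbe).mul_right hc
    have h2 : a = cj h d e := t2.swap12.swap23.2
    apply t1.1
    rw [h2]
    exact h1.symm
  have hcd : NC c d := by
    have h1 := (nc_cj_iff h a b e).2 hbe
    rw [← t1.2, ← t2.swap23.2] at h1
    exact h1
  obtain ⟨f, hf⟩ : ∃ f, f = cj h c d := ⟨_, rfl⟩
  have t3 : Tri h c d f := ⟨hcd, hf⟩
  have haf0 : Commute a.1 (cj h b e).1 := by
    have h1 : Commute (cj h b a).1 (cj h b (cj h b e)).1 := by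
      rw [cj_cj, ← t1.swap12.2]; exact hce
    exact (commute_cj_iff h b a (cj h b e)).1 h1
  have hf' : f = cj h b e := by
    have h1 : cj h a (cj h b e) = cj h c d := by
      rw [cj_dist, ← t1.2, ← t2.swap23.2]
    rw [hf, ← h1, cj_of_commute h haf0]
  have t4 : Tri h b e f := ⟨hbe, hf'⟩
  have haf : Commute a.1 f.1 := by rw [hf']; exact haf0
  have haf_ne : a ≠ f := by
    intro haf'
    apply hbd
    rw [t1.swap23.swap12.2, t3.swap23.2, haf']
  have hsub := subset_span' (threeTranspositionLines D) ({a, b, c} ∪ {a, d, e})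
  have hsp := span_isSubspace (threeTranspositionLines D) ({a, b, c} ∪ {a, d, e})
  have ha : a ∈ span (threeTranspositionLines D) ({a, b, c} ∪ {a, d, e}) :=
    hsub (Or.inl (by simp))
  have hb : b ∈ span (threeTranspositionLines D) ({a, b, c} ∪ {a, d, e}) :=
    hsub (Or.inl (by simp))
  have hc' : c ∈ span (threeTranspositionLines D) ({a, b, c} ∪ {a, d, e}) :=
    hsub (Or.inl (by simp))
  have hd : d ∈ span (threeTranspositionLines D) ({a, b, c} ∪ {a, d, e}) :=
    hsub (Or.inr (by simp))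
  have he : e ∈ span (threeTranspositionLines D) ({a, b, c} ∪ {a, d, e}) :=
    hsub (Or.inr (by simp))
  apply iso_of_tt_model h (dualMap a b c d e f)
  · rintro k ⟨i, rfl⟩
    fin_cases i
    · refine ⟨P12, P13, P23, ?_, t2.swap23⟩
      ext s
      simp only [Set.mem_insert_iff, Set.mem_singleton_iff]
      exact dual_line0 s
    · refine ⟨P02, P03, P23, ?_, t3.swap23⟩
      ext s
      simp only [Set.mem_insert_iff, Set.mem_singleton_iff]
      exact dual_line1 s
    · refine ⟨P01, P03, P13, ?_, t4.swap23⟩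
      ext s
      simp only [Set.mem_insert_iff, Set.mem_singleton_iff]
      exact dual_line2 s
    · refine ⟨P01, P02, P12, ?_, t1.swap12.swap23⟩
      ext s
      simp only [Set.mem_insert_iff, Set.mem_singleton_iff]
      exact dual_line3 s
  · intro p q hpq hno
    have hno' : ∀ i : Fin 4, ¬ (i ∉ p.1 ∧ i ∉ q.1) := fun i => hno _ ⟨i, rfl⟩
    rcases dual_noncol p q hpq hno' with ⟨rfl, rfl⟩ | ⟨rfl, rfl⟩ | ⟨rfl, rfl⟩ | ⟨rfl, rfl⟩ |
      ⟨rfl, rfl⟩ | ⟨rfl, rfl⟩
    · exact ⟨hbd, hc⟩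
    · exact ⟨hbd.symm, hc.symm⟩
    · exact ⟨hce_ne, hce⟩
    · exact ⟨hce_ne.symm, hce.symm⟩
    · exact ⟨haf_ne.symm, haf.symm⟩
    · exact ⟨haf_ne, haf⟩
  · rintro x (hx | hx)
    · have hx' : x = a ∨ x = b ∨ x = c := by
        simpa only [Set.mem_insert_iff, Set.mem_singleton_iff] using hx
      rcases hx' with rfl | rfl | rfl
      · exact ⟨P12, rfl⟩
      · exact ⟨P01, rfl⟩
      · exact ⟨P02, rfl⟩
    · have hx' : x = a ∨ x = d ∨ x = e := by
        simpa only [Set.mem_insert_iff, Set.mem_singleton_iff] using hx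
      rcases hx' with rfl | rfl | rfl
      · exact ⟨P12, rfl⟩
      · exact ⟨P23, rfl⟩
      · exact ⟨P13, rfl⟩
  · rintro _ ⟨s, rfl⟩
    rcases dual_cases s with rfl | rfl | rfl | rfl | rfl | rfl
    · exact hb
    · exact hc'
    · exact tri_mem_subspace h hsp t3 hc' hd
    · exact ha
    · exact he
    · exact hd

end CaseA

/-! ### The affine plane of order three -/

/-- Index pairs. -/
abbrev I3 : Type := ZMod 3 × ZMod 3

/-- The twelve lines of the plane, as triples of index pairs. -/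
def baseLines : List (I3 × I3 × I3) :=
  [((0,0),(1,0),(2,0)), ((0,0),(0,1),(0,2)), ((1,0),(0,1),(2,2)), ((1,0),(0,2),(2,1)),
   ((2,0),(0,1),(1,2)), ((2,0),(0,2),(1,1)), ((0,0),(2,2),(1,1)), ((0,0),(2,1),(1,2)),
   ((1,0),(1,2),(1,1)), ((2,0),(2,2),(2,1)), ((0,1),(2,1),(1,1)), ((0,2),(2,2),(1,2))]

/-- The six orderings of a triple. -/
def perms (t : I3 × I3 × I3) : List (I3 × I3 × I3) :=
  [(t.1, t.2.1, t.2.2), (t.1, t.2.2, t.2.1), (t.2.1, t.1, t.2.2), (t.2.1, t.2.2, t.1),
   (t.2.2, t.1, t.2.1), (t.2.2, t.2.1, t.1)]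

set_option synthInstance.maxSize 4096 in
set_option synthInstance.maxHeartbeats 400000 in
theorem affine_cover : ∀ i j i' j' : ZMod 3, (i, j) ≠ (i', j') →
    ∃ t ∈ baseLines, ((i, j), (i', j'), ((-i - i', -j - j') : I3)) ∈ perms t := by
  decide +kernel

theorem zmod3_e : ∀ c : ZMod 3, c = 0 ∨ c = 1 ∨ c = 2 := by decide

theorem zmod3_g : ∀ a b : ZMod 3, a + 2 * b = -a - (a + b) := by decide

/-- The model map for the affine plane, on index pairs. -/
def tbl9 {X : Type*} (a b c d e p11 p12 p21 p22 : X) (p : I3) : X :=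
  if p.1 = 0 then (if p.2 = 0 then a else if p.2 = 1 then d else e)
  else if p.1 = 1 then (if p.2 = 0 then b else if p.2 = 1 then p11 else p12)
  else (if p.2 = 0 then c else if p.2 = 1 then p21 else p22)

section CaseB

variable {G : Type*} [Group G] {D : Set G}

theorem tri_all (h : TT D) (T : I3 → D)
    (hb : ∀ t ∈ baseLines, Tri h (T t.1) (T t.2.1) (T t.2.2)) :
    ∀ i j i' j' : ZMod 3, (i, j) ≠ (i', j') →
      Tri h (T (i, j)) (T (i', j')) (T (-i - i', -j - j')) := by
  intro i j i' j' hne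
  obtain ⟨t, ht, hp⟩ := affine_cover i j i' j' hne
  have h0 := hb t ht
  simp only [perms, List.mem_cons, List.not_mem_nil, or_false, Prod.mk.injEq] at hp
  rcases hp with ⟨e1, e2, e3⟩ | ⟨e1, e2, e3⟩ | ⟨e1, e2, e3⟩ | ⟨e1, e2, e3⟩ | ⟨e1, e2, e3⟩ |
    ⟨e1, e2, e3⟩ <;> rw [e1, e2, e3]
  · exact h0
  · exact h0.swap23
  · exact h0.swap12
  · exact h0.swap12.swap23
  · exact h0.swap23.swap12
  · exact h0.swap12.swap23.swap12

theorem plane_case_B (h : TT D) {a b c d e : D} (t1 : Tri h a b c) (t2 : Tri h a d e)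
    (hbd : NC b d) (hbe : NC b e) (hcd : NC c d) (hce : NC c e) :
    Isomorphic (restrict (threeTranspositionLines D)
      (span (threeTranspositionLines D) ({a, b, c} ∪ {a, d, e}))) affinePlaneThree := by
  obtain ⟨p22, h22⟩ : ∃ p, p = cj h b d := ⟨_, rfl⟩
  obtain ⟨p21, h21⟩ : ∃ p, p = cj h b e := ⟨_, rfl⟩
  obtain ⟨p12, h12⟩ : ∃ p, p = cj h c d := ⟨_, rfl⟩
  obtain ⟨p11, h11⟩ : ∃ p, p = cj h c e := ⟨_, rfl⟩
  have t3 : Tri h b d p22 := ⟨hbd, h22⟩
  have t4 : Tri h b e p21 := ⟨hbe, h21⟩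
  have t5 : Tri h c d p12 := ⟨hcd, h12⟩
  have t6 : Tri h c e p11 := ⟨hce, h11⟩
  have t9 : Tri h b p12 p11 := by
    have h0 := t2.conj c
    rwa [← t1.swap23.swap12.2, ← h12, ← h11] at h0
  have t10 : Tri h c p22 p21 := by
    have h0 := t2.conj b
    rwa [← t1.swap12.2, ← h22, ← h21] at h0
  have t7 : Tri h a p22 p11 := by
    have h0 := t5.conj b
    rwa [← t1.swap12.swap23.2, ← h22, ← t9.2] at h0
  have t8 : Tri h a p21 p12 := by
    have h0 := t6.conj b
    rwa [← t1.swap12.swap23.2, ← h21, ← t9.swap23.2] at h0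
  have t11 : Tri h d p21 p11 := by
    have h0 := t1.conj e
    rwa [← t2.swap23.swap12.2, ← cj_comm h hbe, ← cj_comm h hce, ← h21, ← h11] at h0
  have t12 : Tri h e p22 p12 := by
    have h0 := t1.conj d
    rwa [← t2.swap12.2, ← cj_comm h hbd, ← cj_comm h hcd, ← h22, ← h12] at h0
  have hsub := subset_span' (threeTranspositionLines D) ({a, b, c} ∪ {a, d, e})
  have hsp := span_isSubspace (threeTranspositionLines D) ({a, b, c} ∪ {a, d, e})
  have ha : a ∈ span (threeTranspositionLines D) ({a, b, c} ∪ {a, d, e}) :=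
    hsub (Or.inl (by simp))
  have hb : b ∈ span (threeTranspositionLines D) ({a, b, c} ∪ {a, d, e}) :=
    hsub (Or.inl (by simp))
  have hc' : c ∈ span (threeTranspositionLines D) ({a, b, c} ∪ {a, d, e}) :=
    hsub (Or.inl (by simp))
  have hd : d ∈ span (threeTranspositionLines D) ({a, b, c} ∪ {a, d, e}) :=
    hsub (Or.inr (by simp))
  have he : e ∈ span (threeTranspositionLines D) ({a, b, c} ∪ {a, d, e}) :=
    hsub (Or.inr (by simp))
  have hbase : ∀ t ∈ baseLines, Tri h (tbl9 a b c d e p11 p12 p21 p22 t.1)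
      (tbl9 a b c d e p11 p12 p21 p22 t.2.1) (tbl9 a b c d e p11 p12 p21 p22 t.2.2) := by
    intro t ht
    simp only [baseLines, List.mem_cons, List.not_mem_nil, or_false] at ht
    rcases ht with rfl | rfl | rfl | rfl | rfl | rfl | rfl | rfl | rfl | rfl | rfl | rfl
    · exact t1
    · exact t2
    · exact t3
    · exact t4
    · exact t5
    · exact t6
    · exact t7
    · exact t8
    · exact t9
    · exact t10
    · exact t11
    · exact t12
  have hall := tri_all h (tbl9 a b c d e p11 p12 p21 p22) hbase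
  apply iso_of_tt_model h (fun v : Fin 2 → ZMod 3 => tbl9 a b c d e p11 p12 p21 p22 (v 0, v 1))
  · rintro k ⟨v, w, hw, rfl⟩
    refine ⟨v, v + w, -v - (v + w), ?_, ?_⟩
    · ext x
      simp only [Set.mem_ofPred_eq, Set.mem_insert_iff, Set.mem_singleton_iff]
      constructor
      · rintro ⟨c, rfl⟩
        rcases zmod3_e c with rfl | rfl | rfl
        · left; simp
        · right; left; simp
        · right; right
          funext i
          simp only [Pi.add_apply, Pi.smul_apply, Pi.sub_apply, Pi.neg_apply, smul_eq_mul]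
          exact zmod3_g (v i) (w i)
      · rintro (rfl | rfl | rfl)
        · exact ⟨0, by simp⟩
        · exact ⟨1, by simp⟩
        · refine ⟨2, ?_⟩
          funext i
          simp only [Pi.add_apply, Pi.smul_apply, Pi.sub_apply, Pi.neg_apply, smul_eq_mul]
          exact (zmod3_g (v i) (w i)).symm
    · have hne : (v 0, v 1) ≠ ((v + w) 0, (v + w) 1) := by
        intro heq
        apply hw
        have h0 := congrArg Prod.fst heq
        have h1 := congrArg Prod.snd heq
        simp only [Pi.add_apply, left_eq_add] at h0 h1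
        funext i
        fin_cases i
        · exact h0
        · exact h1
      exact hall (v 0) (v 1) ((v + w) 0) ((v + w) 1) hne
  · intro p q hpq hno
    exfalso
    exact hno {x | ∃ c : ZMod 3, x = p + c • (q - p)} ⟨p, q - p, sub_ne_zero.mpr hpq.symm, rfl⟩
      ⟨⟨0, by simp⟩, ⟨1, by simp⟩⟩
  · rintro x (hx | hx)
    · have hx' : x = a ∨ x = b ∨ x = c := by
        simpa only [Set.mem_insert_iff, Set.mem_singleton_iff] using hx
      rcases hx' with rfl | rfl | rfl
      · exact ⟨![0, 0], rfl⟩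
      · exact ⟨![1, 0], rfl⟩
      · exact ⟨![2, 0], rfl⟩
    · have hx' : x = a ∨ x = d ∨ x = e := by
        simpa only [Set.mem_insert_iff, Set.mem_singleton_iff] using hx
      rcases hx' with rfl | rfl | rfl
      · exact ⟨![0, 0], rfl⟩
      · exact ⟨![0, 1], rfl⟩
      · exact ⟨![0, 2], rfl⟩
  · rintro _ ⟨v, rfl⟩
    show tbl9 a b c d e p11 p12 p21 p22 (v 0, v 1) ∈ _
    generalize v 0 = i
    generalize v 1 = j
    rcases zmod3_e i with rfl | rfl | rfl <;> rcases zmod3_e j with rfl | rfl | rfl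
    · exact ha
    · exact hd
    · exact he
    · exact hb
    · exact tri_mem_subspace h hsp t6 hc' he
    · exact tri_mem_subspace h hsp t5 hc' hd
    · exact hc'
    · exact tri_mem_subspace h hsp t4 hb he
    · exact tri_mem_subspace h hsp t3 hb hd

end CaseB

/-- Let D be a conjugation-invariant generating set of 3-transpositions of a finite group G. Then the line system on D whose lines are the triples {x, y, y x y⁻¹} for non-commuting members x, y of D is a Fischer space: two points lie on at most one line, lines have three points, and two different meeting lines generate a subspace isomorphic to the dual affine plane of order two or to the affine plane of order three. -/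
theorem result {G : Type*} [Group G] [Finite G] {D : Set G} (hD : Cfsg.IsThreeTranspositionGroup D) : Cfsg.IsFischerSpace (Cfsg.threeTranspositionLines D) := by
  have h := tt_of hD
  refine ⟨partialLinear h, ncard_three h, ?_⟩
  rintro l hl m hm hlm ⟨a, hal, ham⟩
  obtain ⟨x, y, z, t, rfl⟩ := (mem_lines_iff h l).1 hl
  obtain ⟨x', y', z', t', rfl⟩ := (mem_lines_iff h m).1 hm
  obtain ⟨b, c, t1, e1⟩ := tri_of_mem1 h t hal
  obtain ⟨d, e, t2, e2⟩ := tri_of_mem1 h t' ham
  rw [e1, e2] at hlm ⊢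
  by_cases hA : ∃ b' ∈ ({a, b, c} : Set D), ∃ d' ∈ ({a, d, e} : Set D),
      b' ≠ a ∧ d' ≠ a ∧ Commute b'.1 d'.1
  · obtain ⟨b', hb', d', hd', hb'a, hd'a, hcomm⟩ := hA
    obtain ⟨c', t1', e1'⟩ := tri_of_mem h t1 (Ne.symm hb'a) (by simp) hb'
    obtain ⟨e', t2', e2'⟩ := tri_of_mem h t2 (Ne.symm hd'a) (by simp) hd'
    rw [e1', e2'] at hlm ⊢
    exact Or.inl (plane_case_A h t1' t2' hlm hcomm)
  · push Not at hA
    exact Or.inr (plane_case_B h t1 t2
      (hA b (by simp) d (by simp) t1.ne12.symm t2.ne12.symm)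
      (hA b (by simp) e (by simp) t1.ne12.symm t2.ne13.symm)
      (hA c (by simp) d (by simp) t1.ne13.symm t2.ne12.symm)
      (hA c (by simp) e (by simp) t1.ne13.symm t2.ne13.symm))

end Cfsg.Agent.S5367
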