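import Cfsg.Statements.S5393
import Mathlib
import Cfsg.Agent.Lib.Helper9.M24
import Cfsg.Agent.Lib.Helper10.GolayBasic

set_option autoImplicit false
open Cfsg

namespace Cfsg.Agent.S5393

open Cfsg.Agent.Lib.Helper9 Cfsg.Agent.Lib.Helper10

theorem shift_pow : shiftPerm ^ 23 = 1 := by decide +kernel

theorem shift_ne : shiftPerm ≠ 1 := by decide +kernel

theorem order_shift : orderOf shiftPerm = 23 := by
  have : Fact (Nat.Prime 23) := ⟨by norm_num⟩
  exact orderOf_eq_prime shift_pow shift_ne

theorem finrank_golay : Module.finrank (ZMod 2) golayCode = 12 := by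
  have h1 : Nat.card golayCode = 4096 := by
    rw [← ncard_golay]
    exact Nat.card_coe_set_eq _
  rw [Module.natCard_eq_pow_finrank (K := ZMod 2), Nat.card_zmod] at h1
  have h2 : (4096 : ℕ) = 2 ^ 12 := by norm_num
  rw [h2] at h1
  exact Nat.pow_right_injective (le_refl 2) h1

theorem zmod2_aux : ∀ a b : ZMod 2, a * a + (23 : ℕ) • (b * b) = 0 → a = b := by decide

theorem zmod2_cases : ∀ a : ZMod 2, a = 0 ∨ a = 1 := by decide

theorem one_mem_code : (fun _ : GolayPt => (1 : ZMod 2)) ∈ golayCode := by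
  unfold golayCode
  exact Submodule.subset_span (Set.mem_union_right _ rfl)

theorem shift_symm_some (x : ZMod 23) : shiftPerm.symm (some (x + 1)) = some x := by
  rw [Equiv.symm_apply_eq]
  rfl

theorem const_of_fixed (w : GolayPt → ZMod 2) (hw : w ∈ golayCode)
    (hfix : ∀ p, w (shiftPerm.symm p) = w p) : w = 0 ∨ w = fun _ => 1 := by
  have h1 : ∀ k : ℕ, w (some (k : ZMod 23)) = w (some 0) := by
    intro k
    induction k with
    | zero => rw [Nat.cast_zero]
    | succ n ih =>
      have h2 := hfix (some ((n : ZMod 23) + 1))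
      rw [shift_symm_some] at h2
      rw [Nat.cast_succ, ← h2, ih]
  have h2 : ∀ x : ZMod 23, w (some x) = w (some 0) := by
    intro x
    obtain ⟨k, rfl⟩ := ZMod.natCast_zmod_surjective x
    exact h1 k
  have h3 : dot2 w w = 0 := golay_orth hw hw
  have h4 : dot2 w w = w none * w none + (23 : ℕ) • (w (some 0) * w (some 0)) := by
    unfold dot2
    rw [Fintype.sum_option]
    have h5 : ∑ x : ZMod 23, w (some x) * w (some x) = (23 : ℕ) • (w (some 0) * w (some 0)) := by
      have h6 : ∀ x ∈ (Finset.univ : Finset (ZMod 23)),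
          w (some x) * w (some x) = w (some 0) * w (some 0) := fun x _ => by rw [h2 x]
      rw [Finset.sum_congr rfl h6, Finset.sum_const, Finset.card_univ, ZMod.card]
    rw [h5]
  rw [h4] at h3
  have h5 := zmod2_aux _ _ h3
  have h6 : w = fun _ => w none := by
    funext p
    cases p with
    | none => rfl
    | some x => rw [h2 x, ← h5]
  rcases zmod2_cases (w none) with h7 | h7
  · left; rw [h6, h7]; rfl
  · right; rw [h6, h7]

theorem card_mod (W : Submodule (ZMod 2) (GolayPt → ZMod 2))
    (h1 : (fun _ => (1 : ZMod 2)) ∈ W) (hW : W ≤ golayCode)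
    (hinv : ∀ σ ∈ M24, ∀ w ∈ W, (fun p => w (σ.symm p)) ∈ W) :
    Nat.card W ≡ 2 [MOD 23] := by
  classical
  have hZ : ∀ τ ∈ Subgroup.zpowers shiftPerm, τ ∈ M24 :=
    fun τ hτ => (Subgroup.zpowers_le.mpr shift_mem) hτ
  let _ : MulAction (Subgroup.zpowers shiftPerm) W :=
    { smul := fun τ w => ⟨fun p => (w : GolayPt → ZMod 2) ((τ : Equiv.Perm GolayPt).symm p),
        hinv τ (hZ τ τ.2) w w.2⟩
      one_smul := fun w => Subtype.ext (funext fun p => rfl)
      mul_smul := fun τ₁ τ₂ w => Subtype.ext (funext fun p => rfl) }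
  have hsmul : ∀ (τ : Subgroup.zpowers shiftPerm) (w : W) (p : GolayPt),
      ((τ • w : W) : GolayPt → ZMod 2) p =
        (w : GolayPt → ZMod 2) ((τ : Equiv.Perm GolayPt).symm p) := fun τ w p => rfl
  have : Fact (Nat.Prime 23) := ⟨by norm_num⟩
  have hp : IsPGroup 23 (Subgroup.zpowers shiftPerm) :=
    IsPGroup.of_card (n := 1) (by rw [Nat.card_zpowers, order_shift, pow_one])
  have hcong := hp.card_modEq_card_fixedPoints W
  have hne : (0 : W) ≠ ⟨fun _ => 1, h1⟩ := by
    intro h
    have h2 := congrFun (congrArg Subtype.val h) none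
    exact zero_ne_one h2
  have hfix : MulAction.fixedPoints (Subgroup.zpowers shiftPerm) W =
      {(0 : W), ⟨fun _ => 1, h1⟩} := by
    ext w
    rw [MulAction.mem_fixedPoints]
    constructor
    · intro hw
      have h2 : ∀ p, (w : GolayPt → ZMod 2) (shiftPerm.symm p) = (w : GolayPt → ZMod 2) p := by
        intro p
        have h3 := hw ⟨shiftPerm, Subgroup.mem_zpowers _⟩
        have h4 := congrFun (congrArg Subtype.val h3) p
        rw [hsmul] at h4
        exact h4
      rcases const_of_fixed w (hW w.2) h2 with h5 | h5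
      · left; exact Subtype.ext h5
      · right; exact Subtype.ext h5
    · rintro (rfl | rfl)
      · intro τ
        apply Subtype.ext
        funext p
        rw [hsmul]
        rfl
      · intro τ
        apply Subtype.ext
        funext p
        rw [hsmul]
  rw [hfix, Nat.card_coe_set_eq, Set.ncard_pair hne] at hcong
  exact hcong

theorem pow_aux : ∀ k : ℕ, 1 ≤ k → k ≤ 12 → 2 ^ k ≡ 2 [MOD 23] → k = 1 ∨ k = 12 := by
  intro k h1 h12 h
  interval_cases k <;> first | (left; rfl) | (right; rfl) | (exfalso; revert h; decide)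

theorem result : (fun _ : Cfsg.GolayPt => (1 : ZMod 2)) ∈ Cfsg.golayCode ∧ ∀ W : Submodule (ZMod 2) (Cfsg.GolayPt → ZMod 2), (fun _ => (1 : ZMod 2)) ∈ W → W ≤ Cfsg.golayCode → (∀ σ ∈ Cfsg.M24, ∀ w ∈ W, (fun p => w (σ.symm p)) ∈ W) → W = Submodule.span (ZMod 2) {fun _ => (1 : ZMod 2)} ∨ W = Cfsg.golayCode := by
  refine ⟨one_mem_code, ?_⟩
  intro W h1 hW hinv
  have hcong := card_mod W h1 hW hinv
  have hcard : Nat.card W = 2 ^ Module.finrank (ZMod 2) W := by
    rw [Module.natCard_eq_pow_finrank (K := ZMod 2), Nat.card_zmod]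
  have hne : (fun _ : GolayPt => (1 : ZMod 2)) ≠ 0 := by
    intro h
    have h2 := congrFun h none
    exact one_ne_zero h2
  have hspan : Submodule.span (ZMod 2) {fun _ : GolayPt => (1 : ZMod 2)} ≤ W := by
    rw [Submodule.span_le]
    intro x hx
    rw [Set.mem_singleton_iff.mp hx]
    exact h1
  have hk12 : Module.finrank (ZMod 2) W ≤ 12 := by
    rw [← finrank_golay]; exact Submodule.finrank_mono hW
  have hk1 : 1 ≤ Module.finrank (ZMod 2) W := by
    rw [← finrank_span_singleton (K := ZMod 2) hne]; exact Submodule.finrank_mono hspan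
  rw [hcard] at hcong
  rcases pow_aux _ hk1 hk12 hcong with hk | hk
  · left
    symm
    exact Submodule.eq_of_le_of_finrank_eq hspan (by rw [finrank_span_singleton hne, hk])
  · right
    exact Submodule.eq_of_le_of_finrank_eq hW (by rw [hk, finrank_golay])

end Cfsg.Agent.S5393
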