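import Cfsg.Statements.S5395
import Mathlib

set_option autoImplicit false
open Cfsg

namespace Cfsg.Agent.S5395

theorem comm_mem_center {E : Type*} [Group E] (h : commutator E = Subgroup.center E) (g x : E) :
    g * x * g⁻¹ * x⁻¹ ∈ Subgroup.center E := by
  rw [← h, commutator_def, ← commutatorElement_def]
  exact Subgroup.commutator_mem_commutator (Subgroup.mem_top g) (Subgroup.mem_top x)

/-- The hom `x ↦ [g, x]` into the centre. -/
noncomputable def commHom {E : Type*} [Group E] (h : commutator E = Subgroup.center E) (g : E) :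
    E →* Subgroup.center E :=
  MonoidHom.mk' (fun x => ⟨g * x * g⁻¹ * x⁻¹, comm_mem_center h g x⟩) (by
    intro x y
    apply Subtype.ext
    have hy := comm_mem_center h g y
    have hc : ∀ w : E, w * (g * y * g⁻¹ * y⁻¹) = (g * y * g⁻¹ * y⁻¹) * w :=
      fun w => Subgroup.mem_center_iff.mp hy w
    show g * (x * y) * g⁻¹ * (x * y)⁻¹ = (g * x * g⁻¹ * x⁻¹) * (g * y * g⁻¹ * y⁻¹)
    have e1 : g * (x * y) * g⁻¹ * (x * y)⁻¹ = g * x * g⁻¹ * (g * y * g⁻¹ * y⁻¹) * x⁻¹ := by group
    rw [e1, mul_assoc (g * x * g⁻¹), ← hc x⁻¹, ← mul_assoc])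

/-- The hom `x ↦ φ x * x⁻¹` into the centre. -/
noncomputable def autHom {E : Type*} [Group E] (φ : E ≃* E)
    (hφ : ∀ x : E, φ x * x⁻¹ ∈ Subgroup.center E) : E →* Subgroup.center E :=
  MonoidHom.mk' (fun x => ⟨φ x * x⁻¹, hφ x⟩) (by
    intro x y
    apply Subtype.ext
    have hy := hφ y
    have hc : ∀ w : E, w * (φ y * y⁻¹) = (φ y * y⁻¹) * w :=
      fun w => Subgroup.mem_center_iff.mp hy w
    show φ (x * y) * (x * y)⁻¹ = (φ x * x⁻¹) * (φ y * y⁻¹)
    rw [map_mul]
    have e1 : φ x * φ y * (x * y)⁻¹ = φ x * (φ y * y⁻¹) * x⁻¹ := by group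
    rw [e1, mul_assoc (φ x), ← hc x⁻¹, ← mul_assoc])

noncomputable def bigHom {E : Type*} [Group E] (h : commutator E = Subgroup.center E)
    (ι : Subgroup.center E →* ℂˣ) : E →* (E →* ℂˣ) :=
  MonoidHom.mk' (fun g => ι.comp (commHom h g)) (by
    intro a b
    ext x
    have hb := comm_mem_center h b x
    have hc : ∀ w : E, w * (b * x * b⁻¹ * x⁻¹) = (b * x * b⁻¹ * x⁻¹) * w :=
      fun w => Subgroup.mem_center_iff.mp hb w
    have e : commHom h (a * b) x = commHom h a x * commHom h b x := by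
      apply Subtype.ext
      show a * b * x * (a * b)⁻¹ * x⁻¹ = (a * x * a⁻¹ * x⁻¹) * (b * x * b⁻¹ * x⁻¹)
      have e1 : a * b * x * (a * b)⁻¹ * x⁻¹ = a * (b * x * b⁻¹ * x⁻¹) * (x * a⁻¹ * x⁻¹) := by group
      rw [e1, hc a, hc (a * x * a⁻¹ * x⁻¹)]
      group
    simp only [MonoidHom.coe_comp, Function.comp_apply, MonoidHom.mul_apply, e, map_mul])

theorem result {E : Type*} [Group E] [Finite E] (hE : Cfsg.IsExtraspecial 2 E) (φ : E ≃* E) (hφ : ∀ x : E, φ x * x⁻¹ ∈ Subgroup.center E) : ∃ g : E, ∀ x : E, φ x = g * x * g⁻¹ := by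
  have hcomm : commutator E = Subgroup.center E := hE.1.2.2
  have hZ2 : Nat.card (Subgroup.center E) = 2 := hE.2
  have : Fact (Nat.Prime 2) := ⟨Nat.prime_two⟩
  have hU : Nat.card ℤˣ = 2 := by simp
  let e0 : Subgroup.center E ≃* ℤˣ := mulEquivOfPrimeCardEq hZ2 hU
  let ι : Subgroup.center E →* ℂˣ := (Units.map (Int.castRingHom ℂ).toMonoidHom).comp e0.toMonoidHom
  have hι : Function.Injective ι := by
    have h1 : Function.Injective (Units.map (Int.castRingHom ℂ).toMonoidHom) :=
      Units.map_injective (by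
        intro a b hab
        exact Int.cast_injective hab)
    exact h1.comp e0.injective
  let Λ := bigHom hcomm ι
  have hker : Λ.ker = Subgroup.center E := by
    ext g
    rw [MonoidHom.mem_ker, Subgroup.mem_center_iff]
    constructor
    · intro hg x
      have h1 : Λ g x = 1 := by rw [hg]; rfl
      have h2 : ι (commHom hcomm g x) = 1 := h1
      have h3 : commHom hcomm g x = 1 := hι (by rw [h2, map_one])
      have h4 : g * x * g⁻¹ * x⁻¹ = 1 := congrArg Subtype.val h3
      have h5 : x * g = (g * x * g⁻¹ * x⁻¹)⁻¹ * (g * x) := by group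
      rw [h5, h4, inv_one, one_mul]
    · intro hg
      ext x
      have h3 : commHom hcomm g x = 1 := by
        apply Subtype.ext
        show g * x * g⁻¹ * x⁻¹ = 1
        rw [← hg x]; group
      show ((ι (commHom hcomm g x) : ℂˣ) : ℂ) = ((1 : ℂˣ) : ℂ)
      rw [h3, map_one]
  have hne : NeZero (Monoid.exponent (Abelianization E)) := ⟨Monoid.exponent_ne_zero_of_finite⟩
  have hcard1 : Nat.card (E →* ℂˣ) = (Subgroup.center E).index := by
    rw [Nat.card_congr (Abelianization.lift (G := E) (A := ℂˣ)),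
      CommGroup.card_monoidHom_of_hasEnoughRootsOfUnity]
    show Nat.card (E ⧸ commutator E) = _
    rw [hcomm]; rfl
  have hfin : Finite (E →* ℂˣ) := by
    apply Nat.finite_of_card_ne_zero
    rw [hcard1]
    exact Subgroup.index_ne_zero_of_finite
  have hcard2 : Nat.card Λ.range = (Subgroup.center E).index := by
    rw [← Nat.card_congr (QuotientGroup.quotientKerEquivRange Λ).toEquiv, hker]; rfl
  have htop : Λ.range = ⊤ := Subgroup.eq_top_of_card_eq _ (by rw [hcard1, hcard2])
  have hmem : ι.comp (autHom φ hφ) ∈ Λ.range := by rw [htop]; exact Subgroup.mem_top _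
  obtain ⟨g, hg⟩ := hmem
  refine ⟨g, fun x => ?_⟩
  have h1 : Λ g x = ι (autHom φ hφ x) := by rw [hg]; rfl
  have h2 : ι (commHom hcomm g x) = ι (autHom φ hφ x) := h1
  have h3 := congrArg Subtype.val (hι h2)
  have h4 : g * x * g⁻¹ * x⁻¹ = φ x * x⁻¹ := h3
  exact (mul_right_cancel h4).symm

end Cfsg.Agent.S5395
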