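-- Statement S5409: in a group of Monster type, Q and g Q g⁻¹ meet in a subgroup of order 2^13 when g z g⁻¹ lies in Q and is not z.
import Cfsg.Statements.S5409
import Cfsg.Agent.Lib.Helper92.MonsterMeet

set_option autoImplicit false
open Cfsg
open Cfsg.Agent.Lib.Helper92

namespace Cfsg.Agent.S5409

/-- Let G be a finite group of Monster type at the involution z with Q the extraspecial normal subgroup of order 2^25 of C = C_G(z) (so C/Q is identified with the first Conway group with Q modulo its centre the Leech lattice modulo 2, and z is not weakly closed in Q). Then for a conjugate s = g z g⁻¹ of z lying in Q and different from z, the intersection of Q with its conjugate g Q g⁻¹ (both regarded as subgroups of G) has order 2^13. -/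
theorem result {G : Type*} [Group G] [Finite G] (z : G) (Q : Subgroup (Subgroup.centralizer ({z} : Set G))) [Q.Normal] (hM : Cfsg.IsOfMonsterType z Q) (s : G) (hsQ : ∃ hsc : s ∈ Subgroup.centralizer ({z} : Set G), (⟨s, hsc⟩ : Subgroup.centralizer ({z} : Set G)) ∈ Q) (hs : IsConj z s) (hs1 : s ≠ z) (g : G) (hg : g * z * g⁻¹ = s) : Nat.card ↥((Q.map (Subgroup.centralizer ({z} : Set G)).subtype) ⊓ (Q.map (Subgroup.centralizer ({z} : Set G)).subtype).map (MulAut.conj g).toMonoidHom) = 2 ^ 13 := by
  obtain ⟨hS, e, ψ, hψ⟩ := hM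
  obtain ⟨ζ, hMS⟩ := ms_of_setting z Q hS e ψ hψ
  obtain ⟨hsc, hsQ'⟩ := hsQ
  obtain ⟨e', ψ', hD⟩ := hMS.exists_meetData ⟨⟨s, hsc⟩, hsQ'⟩ g hg hs1
  exact hD.card_eq

end Cfsg.Agent.S5409
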