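import Cfsg.Statements.S5420
import Mathlib

set_option autoImplicit false
open Cfsg

namespace Cfsg.Agent.S5420

theorem pCore_isPGroup {G : Type*} [Group G] (p : ℕ) [Fact p.Prime] : IsPGroup p (Cfsg.pCore p G) := by
  have H' := Classical.arbitrary (Sylow p G)
  refine H'.isPGroup'.to_le (sSup_le ?_)
  rintro N ⟨hN, hp⟩
  haveI := hN
  exact hp.le_sylow_of_normal H'

theorem card_two_pow {G : Type*} [Group G] [Finite G] {H : Subgroup G} (h : IsPGroup 2 H) :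
    ∃ n : ℕ, Nat.card H = 2 ^ n := by
  haveI : Fact (Nat.Prime 2) := ⟨Nat.prime_two⟩
  exact (IsPGroup.iff_card.mp h)

theorem inf_eq_bot_of_odd_of_two {G : Type*} [Group G] [Finite G] {K T : Subgroup G}
    (hK : Odd (Nat.card K)) (hT : IsPGroup 2 T) : K ⊓ T = ⊥ := by
  obtain ⟨n, hn⟩ := card_two_pow hT
  apply disjoint_iff.mp
  apply Subgroup.disjoint_of_coprime_natCard
  rw [hn]
  exact Nat.Coprime.pow_right n (Nat.coprime_two_right.mpr hK)

theorem isPGroup_of_subtype {G : Type*} [Group G] {Q : Subgroup G} (h : IsPGroup 2 ↥Q) :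
    IsPGroup 2 Q := h

theorem largeness {G : Type*} [Group G] [Finite G] (Q : Subgroup G)
    (hQ2 : IsPGroup 2 ↥Q)
    (hL2 : Subgroup.centralizer (Q : Set G) = ((Subgroup.center ↥Q).map Q.subtype))
    (hL3 : Subgroup.centralizer (((Subgroup.center ↥Q).map Q.subtype) : Set G) ≤ Subgroup.normalizer (Q : Set G))
    (K : Subgroup G) (hK : Odd (Nat.card K)) (hQK : Q ≤ Subgroup.normalizer (K : Set G))
    (hKZ : K ≤ Subgroup.centralizer (((Subgroup.center ↥Q).map Q.subtype) : Set G)) : K = ⊥ := by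
  have hKQ : K ⊓ Q = ⊥ := inf_eq_bot_of_odd_of_two hK hQ2
  have hKN : K ≤ Subgroup.normalizer (Q : Set G) := hKZ.trans hL3
  have hKC : K ≤ Subgroup.centralizer (Q : Set G) := by
    intro k hk
    rw [Subgroup.mem_centralizer_iff]
    intro q hq
    have hq' : q ∈ Q := hq
    have h1 : k * q * k⁻¹ * q⁻¹ ∈ K ⊓ Q := by
      constructor
      · have h2 : q * k⁻¹ * q⁻¹ ∈ K := ((Subgroup.mem_normalizer_iff.mp (hQK hq')) k⁻¹).mp (K.inv_mem hk)
        have h3 : k * q * k⁻¹ * q⁻¹ = k * (q * k⁻¹ * q⁻¹) := by group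
        rw [h3]
        exact K.mul_mem hk h2
      · have h2 : k * q * k⁻¹ ∈ Q := ((Subgroup.mem_normalizer_iff.mp (hKN hk)) q).mp hq'
        exact Q.mul_mem h2 (Q.inv_mem hq')
    rw [hKQ, Subgroup.mem_bot] at h1
    have h4 : k * q = q * k := by
      have h5 : k * q = (k * q * k⁻¹ * q⁻¹) * (q * k) := by group
      rw [h5, h1, one_mul]
    exact h4.symm
  rw [hL2] at hKC
  have hKleQ : K ≤ Q := hKC.trans (Subgroup.map_subtype_le _)
  rw [← hKQ]
  exact (inf_eq_left.mpr hKleQ).symm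

theorem result {G : Type*} [Group G] [Finite G] (Q : Subgroup G) (hL1 : Cfsg.IsExtraspecial 2 ↥Q) (hL2 : Subgroup.centralizer (Q : Set G) = ((Subgroup.center ↥Q).map Q.subtype)) (hL3 : Subgroup.centralizer (((Subgroup.center ↥Q).map Q.subtype) : Set G) ≤ Subgroup.normalizer (Q : Set G)) (hZ : ((Subgroup.center ↥Q).map Q.subtype) ≤ Cfsg.pCore 2 G) : Cfsg.IsLargeExtraspecial Q := by
  refine ⟨hL1, hL2, hL3, ?_⟩
  intro K hK hQK
  haveI : Fact (Nat.Prime 2) := ⟨Nat.prime_two⟩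
  have hQ2 : IsPGroup 2 ↥Q := hL1.1.1
  have hT : IsPGroup 2 (Cfsg.pCore 2 G) := pCore_isPGroup 2
  have hKT : K ⊓ Cfsg.pCore 2 G = ⊥ := inf_eq_bot_of_odd_of_two hK hT
  have hZQ : ((Subgroup.center ↥Q).map Q.subtype) ≤ Q := Subgroup.map_subtype_le _
  apply largeness Q hQ2 hL2 hL3 K hK hQK
  intro k hk
  rw [Subgroup.mem_centralizer_iff]
  intro z hz
  have hzQ : z ∈ Q := hZQ hz
  have hzT : z ∈ Cfsg.pCore 2 G := hZ hz
  have h1 : k * z * k⁻¹ * z⁻¹ ∈ K ⊓ Cfsg.pCore 2 G := by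
    constructor
    · have h2 : z * k⁻¹ * z⁻¹ ∈ K := ((Subgroup.mem_normalizer_iff.mp (hQK hzQ)) k⁻¹).mp (K.inv_mem hk)
      have h3 : k * z * k⁻¹ * z⁻¹ = k * (z * k⁻¹ * z⁻¹) := by group
      rw [h3]
      exact K.mul_mem hk h2
    · have hn : (Cfsg.pCore 2 G).Normal := inferInstance
      exact (Cfsg.pCore 2 G).mul_mem (hn.conj_mem z hzT k) ((Cfsg.pCore 2 G).inv_mem hzT)
  rw [hKT, Subgroup.mem_bot] at h1
  have h5 : k * z = (k * z * k⁻¹ * z⁻¹) * (z * k) := by group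
  rw [h5, h1, one_mul]

end Cfsg.Agent.S5420
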