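import Cfsg.Statements.S5422
import Cfsg.Agent.Lib.Helper92.LargeExtra2

set_option autoImplicit false
open Cfsg

namespace Cfsg.Agent.S5422

open Cfsg.Agent.Lib.Helper92

theorem result {G : Type*} [Group G] [Finite G] (Q : Subgroup G) (hL1 : Cfsg.IsExtraspecial 2 ↥Q) (hL2 : Subgroup.centralizer (Q : Set G) = ((Subgroup.center ↥Q).map Q.subtype)) (hL3 : Subgroup.centralizer (((Subgroup.center ↥Q).map Q.subtype) : Set G) ≤ Subgroup.normalizer (Q : Set G)) (w : ℕ) (hw : 2 ≤ w) (hcard : Nat.card ↥Q = 2 ^ (2 * w + 1)) (g : G) (hg : g ∉ Subgroup.normalizer (((Subgroup.center ↥Q).map Q.subtype) : Set G)) (hZg : (((Subgroup.center ↥Q).map Q.subtype)).map (MulAut.conj g).toMonoidHom ≤ Q) : ((Subgroup.center ↥Q).map Q.subtype) ≤ (Q).map (MulAut.conj g).toMonoidHom ∧ (Subgroup.centralizer ((((Subgroup.center ↥Q).map Q.subtype) ⊔ (((Subgroup.center ↥Q).map Q.subtype)).map (MulAut.conj g).toMonoidHom : Subgroup G) : Set G)).relIndex (Subgroup.normalizer ((((Subgroup.center ↥Q).map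 Q.subtype) ⊔ (((Subgroup.center ↥Q).map Q.subtype)).map (MulAut.conj g).toMonoidHom : Subgroup G) : Set G)) = 6 ∧ Cfsg.IsLargeExtraspecial Q := by
  obtain ⟨z, hES, hmemZ⟩ := esetting_of_extraspecial Q hL1 hL2 hL3
  have hcard32 : 32 ≤ Nat.card Q := by
    rw [hcard]
    calc 32 = 2 ^ 5 := by norm_num
      _ ≤ 2 ^ (2 * w + 1) := Nat.pow_le_pow_right (by norm_num) (by omega)
  have hP := hES.conj g
  have hsQ : g * z * g⁻¹ ∈ Q := hZg ⟨z, (hmemZ z).mpr (Or.inr rfl), rfl⟩
  have hsz : g * z * g⁻¹ ≠ z := by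
    intro h1
    apply hg
    rw [Subgroup.mem_normalizer_iff]
    intro x
    rw [hmemZ, hmemZ]
    constructor
    · rintro (rfl | rfl)
      · left; group
      · right; exact h1
    · rintro (h2 | h2)
      · left
        have : x = g⁻¹ * (g * x * g⁻¹) * g := by group
        rw [this, h2]; group
      · right
        have h3 : g⁻¹ * z * g = z := by
          nth_rewrite 1 [← h1]; group
        have : x = g⁻¹ * (g * x * g⁻¹) * g := by group
        rw [this, h2, h3]
  have hzP : z ∈ Q.map (MulAut.conj g).toMonoidHom := hES.center_mem_conj hcard32 hsQ hsz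
  refine ⟨?_, ?_, ?_⟩
  · intro x hx
    rcases (hmemZ x).mp hx with rfl | rfl
    · exact Subgroup.one_mem _
    · exact hzP
  · have hZeq : (Subgroup.center ↥Q).map Q.subtype = Subgroup.zpowers z := by
      ext x
      rw [hmemZ, hES.mem_zp]
    have hZgeq : ((Subgroup.center ↥Q).map Q.subtype).map (MulAut.conj g).toMonoidHom =
        Subgroup.zpowers (g * z * g⁻¹) := by
      ext x
      rw [mem_conj, hmemZ, hP.mem_zp]
      constructor
      · rintro (h1 | h1)
        · left
          have : x = g * (g⁻¹ * x * g) * g⁻¹ := by group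
          rw [this, h1]; group
        · right
          have : x = g * (g⁻¹ * x * g) * g⁻¹ := by group
          rw [this, h1]
      · rintro (rfl | rfl)
        · left; group
        · right; group
    rw [hZgeq, hZeq]
    obtain ⟨q, hqQ, hq⟩ := hES.exists_anti hsQ hP.z_ne hsz
    obtain ⟨p, hpP, hp⟩ := hP.exists_anti hzP hES.z_ne (Ne.symm hsz)
    exact relIndex_four hES.zz hP.zz (hES.central hsQ) hES.z_ne hP.z_ne (Ne.symm hsz)
      (hES.central hqQ).symm hq (hP.central hpP).symm hp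
  · refine ⟨hL1, hL2, hL3, ?_⟩
    intro K hK hQK
    have hQ2 : IsPGroup 2 ↥Q := hL1.1.1
    apply largeness Q hQ2 hL2 hL3 K hK hQK
    have hsZ : g * z * g⁻¹ ∉ (Subgroup.center ↥Q).map Q.subtype := by
      rw [hmemZ]
      push Not
      exact ⟨hP.z_ne, hsz⟩
    apply odd_le_centralizer_center Q hL1 hsQ hsZ hP.zz K hK hQK
    intro k hk hsk x hx
    rcases (hmemZ x).mp hx with rfl | rfl
    · simp
    · have hT : IsPGroup 2 (Q.map (MulAut.conj g).toMonoidHom) := hQ2.map _
      have hzK : x * k⁻¹ * x⁻¹ ∈ K :=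
        ((Subgroup.mem_normalizer_iff.mp (hQK hES.zQ)) k⁻¹).mp (K.inv_mem hk)
      have hkT : k * x * k⁻¹ ∈ Q.map (MulAut.conj g).toMonoidHom := hP.norm k hsk.symm x hzP
      exact (commute_of_odd_of_two hK hT hk hzP hzK hkT).symm

end Cfsg.Agent.S5422
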