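import Cfsg.Statements.S5424
import Cfsg.Agent.Lib.Helper95.TransvLarge

set_option autoImplicit false
open Cfsg

namespace Cfsg.Agent.S5424

open Cfsg.Agent.Lib.Helper95 Cfsg.Agent.Lib.Helper94 Matrix


/-- Let G be the special linear group of degree n + 2 over the field with two elements, n ≥ 2, let z be a transvection, and let Q be the largest normal 2-subgroup of the centralizer C of z. Then Q is extraspecial of order 2^(2n+1) with an elementary abelian subgroup of order 2^(n+1) (plus type), Q is a large extraspecial 2-subgroup of G, and C is the split extension of Q by the special linear group of degree n over the field with two elements. -/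
theorem result (n : ℕ) (hn : 2 ≤ n) (z : Matrix.SpecialLinearGroup (Fin (n + 2)) (ZMod 2)) (hz : (z : Matrix (Fin (n + 2)) (Fin (n + 2)) (ZMod 2)) = Matrix.transvection 0 1 1) (Q : Subgroup (Matrix.SpecialLinearGroup (Fin (n + 2)) (ZMod 2))) (hQ : Q = (Cfsg.pCore 2 ↥(Subgroup.centralizer ({z} : Set (Matrix.SpecialLinearGroup (Fin (n + 2)) (ZMod 2))))).map (Subgroup.centralizer ({z} : Set (Matrix.SpecialLinearGroup (Fin (n + 2)) (ZMod 2)))).subtype) : Cfsg.IsExtraspecial 2 ↥Q ∧ Nat.card ↥Q = 2 ^ (2 * n + 1) ∧ (∃ E : Subgroup (Matrix.SpecialLinearGroup (Fin (n + 2)) (ZMod 2)), E ≤ Q ∧ Cfsg.IsElementaryAbelian 2 E ∧ Nat.card ↥E = 2 ^ (n + 1)) ∧ Cfsg.IsLargeExtraspecial Q ∧ ∃ K : Subgroup (Matrix.SpecialLinearGroup (Fin (n + 2)) (ZMod 2)), K ≤ Subgroup.centralizer ({z} : Set (Matrix.SpecialLinearGroup (Fin (n + 2)) (ZMod 2))) ∧ Q ⊓ K = ⊥ ∧ Q ⊔ K = Subgroup.centralizer ({z} : Set (Matrix.SpecialLinearGroup (Fin (n + 2))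 (ZMod 2))) ∧ Nonempty (↥K ≃* Matrix.SpecialLinearGroup (Fin n) (ZMod 2)) := by
  classical
  have hzz : z = gs 0 0 1 1 := Subtype.ext (hz.trans gm_transvection.symm)
  subst hzz
  let k0 : Fin n := ⟨0, by omega⟩
  have hψz : ∀ l, dsHom n l * gs 0 0 1 1 = gs 0 0 1 1 * dsHom n l := by
    intro l
    rw [dsHom_apply, ds_mul_hs, hs_mul_ds, Matrix.mulVec_zero, Matrix.zero_vecMul]
  have hsurj : ∀ c : Matrix.SpecialLinearGroup (Fin (n + 2)) (ZMod 2),
      c * gs 0 0 1 1 = gs 0 0 1 1 * c → ∃ q ∈ heisQ n, ∃ l, c = q * dsHom n l := by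
    intro c hc
    obtain ⟨u, v, c', A, rfl⟩ := exists_gs_of_commute c hc
    exact ⟨gs (u ᵥ* (A⁻¹).1) v c' 1, ⟨_, _, _, rfl⟩, A, gs_eq_hs_mul_ds A u v c'⟩
  have hker : ∀ l, dsHom n l ∈ heisQ n → l = 1 := by
    rintro l ⟨u, v, c, h⟩
    exact (gs_inj h).2.2.2
  have hnorm : ∀ l, ∀ q ∈ heisQ n, dsHom n l * q * (dsHom n l)⁻¹ ∈ heisQ n := by
    rintro l _ ⟨u, v, c, rfl⟩
    exact ⟨_, _, _, ds_conj_hs l u v c⟩
  have hfaith : ∀ l, (∀ v ∈ heisQ n, dsHom n l * v * (dsHom n l)⁻¹ = v ∨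
      dsHom n l * v * (dsHom n l)⁻¹ = gs 0 0 1 1 * v) → l = 1 := by
    intro l hl
    have key : ∀ w : Fin n → ZMod 2, l.1 *ᵥ w = w := by
      intro w
      rcases hl (gs 0 w 0 1) ⟨_, _, _, rfl⟩ with h | h
      · rw [dsHom_apply, ds_conj_hs] at h
        exact (gs_inj h).2.1
      · rw [dsHom_apply, ds_conj_hs, hs_mul] at h
        exact (gs_inj h).2.1.trans (zero_add w)
    apply Subtype.ext
    ext i j
    have h1 := congrFun (key (Pi.single j 1)) i
    rw [Matrix.mulVec_single_one] at h1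
    show l.1 i j = (1 : Matrix (Fin n) (Fin n) (ZMod 2)) i j
    rw [Matrix.one_apply]
    rw [Pi.single_apply] at h1
    exact h1
  have hb1 : gs (Pi.single k0 1) 0 0 1 ≠ (1 : Matrix.SpecialLinearGroup (Fin (n + 2)) (ZMod 2)) := by
    intro h
    have h1 := congrFun (gs_inj (h.trans gs_one.symm)).1 k0
    rw [Pi.single_eq_same] at h1
    exact one_ne_zero h1
  have hbz : gs (Pi.single k0 1) 0 0 1 ≠ gs (0 : Fin n → ZMod 2) 0 1 1 := by
    intro h
    exact zero_ne_one (gs_inj h).2.2.1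
  have hbb : gs (Pi.single k0 1) 0 0 1 * gs (Pi.single k0 1) 0 0 1 =
      (1 : Matrix.SpecialLinearGroup (Fin (n + 2)) (ZMod 2)) := by
    rw [hs_mul, zvec_add_self, zmod2_add_self, dotProduct_zero, add_zero]
    exact gs_one
  have hzb : swapS k0 * gs 0 0 1 1 * (swapS k0)⁻¹ = gs (Pi.single k0 1) 0 0 1 := by
    rw [mul_inv_eq_iff_eq_mul]
    exact swap_mul_transvection k0
  have hbz' : swapS k0 * gs (Pi.single k0 1) 0 0 1 * (swapS k0)⁻¹ = gs 0 0 1 1 := by
    rw [mul_inv_eq_iff_eq_mul]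
    exact swap_mul_single k0
  obtain ⟨h1, h2, h3, h4, h5, h6, h7⟩ := large_of_data (gs 0 0 1 1) (heisQ n) (dsHom n)
    (2 * n + 1) (heis_extraAt n) (heis_na k0) (card_heisQ n) hψz hsurj hker hnorm
    (sl_no_normal_two hn) hfaith (gs (Pi.single k0 1) 0 0 1) (swapS k0) ⟨_, _, _, rfl⟩ hb1 hbz hbb
    hzb hbz'
  have hQ' : Q = heisQ n := hQ.trans h1
  subst hQ'
  exact ⟨h2, card_heisQ n, ⟨heisE n, heisE_le n, heisE_elem n, card_heisE n⟩, h3,
    (dsHom n).range, h4, h5, h6, ⟨(MonoidHom.ofInjective h7).symm⟩⟩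

end Cfsg.Agent.S5424
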