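import Cfsg.Statements.S5426
import Cfsg.Agent.Lib.Helper92.LargeExtra3
import Cfsg.Agent.Lib.Helper30.PType
import Cfsg.Agent.Lib.Helper12.TwoComp
import Cfsg.Agent.Lib.Helper72.Frattini

set_option autoImplicit false
open Cfsg

namespace Cfsg.Agent.S5426

open Cfsg.Agent.Lib.Helper92 Cfsg.Agent.Lib.Helper30

theorem nilp_of_comm' (K : Type*) [Group K] (h : ∀ a b : K, a * b = b * a) :
    Group.IsNilpotent K := by
  let _ : CommGroup K := { ‹Group K› with mul_comm := h }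
  exact CommGroup.isNilpotent

section Main

variable {G : Type*} [Group G] [Finite G]

/-- Every nontrivial normal subgroup contains `z`. -/
theorem z_mem_of_normal {Q : Subgroup G} {z : G} (hE : ESetting Q z)
    (hodd : ∀ K : Subgroup G, Odd (Nat.card K) → Q ≤ Subgroup.normalizer (K : Set G) → K = ⊥)
    (N : Subgroup G) (hNn : N.Normal) (hN : N ≠ ⊥) : z ∈ N := by
  by_contra hzN
  apply hN
  have hzinv : z⁻¹ = z := hE.zinv
  have hzz : z * z = 1 := hE.zz
  have hfix : ∀ n ∈ N, z * n = n * z → n = 1 := by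
    intro n hn hnz
    have hnQ : ∀ q ∈ Q, n * q = q * n := by
      intro q hq
      by_contra hne
      have h1 : n * q * n⁻¹ ∈ Q := hE.norm n hnz.symm q hq
      have h2 : n * q * n⁻¹ * q⁻¹ ∈ Q := Q.mul_mem h1 (Q.inv_mem hq)
      have h3 : n * q * n⁻¹ * q⁻¹ ∈ N := by
        have h4 : q * n⁻¹ * q⁻¹ ∈ N := hNn.conj_mem _ (N.inv_mem hn) q
        have h5 : n * q * n⁻¹ * q⁻¹ = n * (q * n⁻¹ * q⁻¹) := by group
        rw [h5]
        exact N.mul_mem hn h4
      have h6 : n * q * n⁻¹ * q⁻¹ ≠ 1 := by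
        intro h7
        apply hne
        have h8 : n * q = n * q * n⁻¹ * q⁻¹ * (q * n) := by group
        rw [h8, h7, one_mul]
      by_cases hcz : n * q * n⁻¹ * q⁻¹ = z
      · exact hzN (hcz ▸ h3)
      · obtain ⟨r, hr, hrc⟩ := hE.exists_anti h2 h6 hcz
        apply hzN
        have h7 : z = r * (n * q * n⁻¹ * q⁻¹) * r⁻¹ * (n * q * n⁻¹ * q⁻¹)⁻¹ := by
          rw [hrc]; group
        rw [h7]
        exact N.mul_mem (hNn.conj_mem _ h3 r) (N.inv_mem h3)
    rcases hE.cent n hnQ with h | h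
    · exact h
    · exact absurd (h ▸ hn) hzN
  have := hNn
  let φ : ↥N →* ↥N := (MulAut.conjNormal z : MulAut ↥N).toMonoidHom
  have hφ : ∀ n : ↥N, ((φ n : ↥N) : G) = z * n * z⁻¹ := fun n => MulAut.conjNormal_apply z n
  have hfpf : MonoidHom.FixedPointFree φ := by
    intro n hn
    have h1 : z * (n : G) * z⁻¹ = n := by rw [← hφ, hn]
    have h2 : z * (n : G) = n * z := by
      calc z * (n : G) = z * n * z⁻¹ * z := by group
        _ = n * z := by rw [h1]
    exact Subtype.ext (hfix n n.2 h2)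
  have hinv : Function.Involutive φ := by
    intro n
    apply Subtype.ext
    rw [hφ, hφ, hzinv]
    calc z * (z * (n : G) * z) * z = (z * z) * n * (z * z) := by group
      _ = n := by rw [hzz, one_mul, mul_one]
  have hodd' : Odd (Nat.card ↥N) := hfpf.odd_card_of_involutive hinv
  exact hodd N hodd' (fun q _ => mem_normalizer_of_conj_mem (fun v hv => hNn.conj_mem v hv q))

/-- No component is centralized by `z`. -/
theorem no_comp_cent {Q : Subgroup G} {z : G} (hE : ESetting Q z) (hQ2 : IsPGroup 2 Q)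
    {L : Subgroup G} (hL : IsComponent L) : ¬ ∀ x ∈ L, x * z = z * x := by
  intro hLz
  have : Fact (Nat.Prime 2) := ⟨Nat.prime_two⟩
  have hLC : L ≤ Subgroup.centralizer ({z} : Set G) := fun x hx =>
    Subgroup.mem_centralizer_iff.mpr (by rintro _ rfl; exact (hLz x hx).symm)
  have hQC : Q ≤ Subgroup.centralizer ({z} : Set G) := fun q hq =>
    Subgroup.mem_centralizer_iff.mpr (by rintro _ rfl; exact hE.central hq)
  have hcomp := isComponent_subgroupOf hL hLC
  have hQn : (Q.subgroupOf (Subgroup.centralizer ({z} : Set G))).Normal := by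
    apply Subgroup.normal_subgroupOf_of_le_normalizer
    intro c hc
    apply mem_normalizer_of_conj_mem
    intro q hq
    exact hE.norm c (Subgroup.mem_centralizer_iff.mp hc z rfl).symm q hq
  have hQnil : Group.IsNilpotent ↥(Q.subgroupOf (Subgroup.centralizer ({z} : Set G))) :=
    (hQ2.comap_subtype).isNilpotent
  have hQF := le_fitting_of_subnormal_nilpotent hQn.isSubnormal hQnil
  have hcomm := commute_of_commutator_eq_bot (comp_commutator_fitting hcomp)
  have hLQ : ∀ x ∈ L, ∀ q ∈ Q, x * q = q * x := by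
    intro x hx q hq
    have h1 := hcomm ⟨x, hLC hx⟩ (Subgroup.mem_subgroupOf.mpr hx) ⟨q, hQC hq⟩
      (hQF (Subgroup.mem_subgroupOf.mpr hq))
    exact congrArg Subtype.val h1
  have hLz' : ∀ x ∈ L, x = 1 ∨ x = z := fun x hx => hE.cent x (hLQ x hx)
  apply comp_not_solvable hL
  apply Group.isSolvable_of_comm
  rintro ⟨a, ha⟩ ⟨b, hb⟩
  apply Subtype.ext
  show a * b = b * a
  rcases hLz' a ha with rfl | rfl <;> rcases hLz' b hb with rfl | rfl <;> simp

/-- The case without components. -/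
theorem case_no_comp {Q : Subgroup G} {z : G} (hE : ESetting Q z)
    (hodd : ∀ K : Subgroup G, Odd (Nat.card K) → Q ≤ Subgroup.normalizer (K : Set G) → K = ⊥)
    (hlay : layer G = ⊥) :
    IsMulCommutative ↥(Subgroup.normalClosure ({z} : Set G)) ∧
      generalizedFittingSubgroup G = pCore 2 G := by
  have : Fact (Nat.Prime 2) := ⟨Nat.prime_two⟩
  have hO : pPrimeCore 2 G = ⊥ := by
    apply hodd
    · exact Nat.coprime_two_right.mp (pPrimeCore_coprime 2)
    · intro q _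
      exact mem_normalizer_of_conj_mem (fun v hv => (pPrimeCore_normal 2 G).conj_mem v hv q)
  have hF : generalizedFittingSubgroup G = pCore 2 G := genFitting_eq_pCore_of_cores 2 hO hlay
  refine ⟨?_, hF⟩
  have hT : IsPGroup 2 (pCore 2 G) := Cfsg.Agent.Lib.Helper30.pCore_isPGroup 2
  have hT1 : pCore 2 G ≠ ⊥ := by
    intro h
    have h1 := centralizer_genFitting_le (G := G)
    rw [hF, h] at h1
    have h2 : z ∈ (⊥ : Subgroup G) := h1 (by
      rw [Subgroup.mem_centralizer_iff]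
      intro x hx
      rw [Subgroup.mem_bot.mp hx]
      simp)
    exact hE.z_ne (Subgroup.mem_bot.mp h2)
  obtain ⟨t, htT, hto, htc⟩ := exists_central_orderOf_eq 2 hT hT1
  have hTn : (pCore 2 G).Normal := pCore_normal 2 G
  have hZn : (pCore 2 G ⊓ Subgroup.centralizer (pCore 2 G : Set G)).Normal := by
    refine ⟨fun n hn g => ?_⟩
    refine Subgroup.mem_inf.mpr ⟨hTn.conj_mem n (Subgroup.mem_inf.mp hn).1 g, ?_⟩
    apply conj_mem_centralizer _ (Subgroup.mem_inf.mp hn).2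
    rw [Subgroup.normalizer_eq_top]
    exact Subgroup.mem_top g
  have hZ1 : pCore 2 G ⊓ Subgroup.centralizer (pCore 2 G : Set G) ≠ ⊥ := by
    intro h
    have h1 : t ∈ pCore 2 G ⊓ Subgroup.centralizer (pCore 2 G : Set G) :=
      Subgroup.mem_inf.mpr ⟨htT, Subgroup.mem_centralizer_iff.mpr (fun x hx => htc x hx)⟩
    rw [h, Subgroup.mem_bot] at h1
    rw [h1, orderOf_one] at hto
    exact absurd hto (by norm_num)
  have hzZ := z_mem_of_normal hE hodd _ hZn hZ1
  have hM : Subgroup.normalClosure ({z} : Set G) ≤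
      pCore 2 G ⊓ Subgroup.centralizer (pCore 2 G : Set G) :=
    Subgroup.normalClosure_le_normal (Set.singleton_subset_iff.mpr hzZ)
  refine ⟨⟨fun a b => Subtype.ext ?_⟩⟩
  have ha := Subgroup.mem_inf.mp (hM a.2)
  have hb := Subgroup.mem_inf.mp (hM b.2)
  exact Subgroup.mem_centralizer_iff.mp hb.2 a ha.1

/-- With trivial Fitting subgroup, a component meets its centralizer trivially. -/
theorem comp_center_triv (hF : fittingSubgroup G = ⊥) {L : Subgroup G} (hL : IsComponent L) :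
    ∀ x ∈ L, x ∈ Subgroup.centralizer (L : Set G) → x = 1 := by
  intro x hx hxc
  have h1 : ((Subgroup.center ↥L).map L.subtype) ≤ fittingSubgroup G := by
    apply le_fitting_of_subnormal_nilpotent
    · exact (Subgroup.Normal.isSubnormal inferInstance).trans' hL.1
    · apply nilp_of_comm'
      rintro ⟨a, ha⟩ ⟨b, hb⟩
      apply Subtype.ext
      obtain ⟨a', ha', rfl⟩ := ha
      obtain ⟨b', hb', rfl⟩ := hb
      show (a' : G) * (b' : G) = (b' : G) * (a' : G)
      exact congrArg Subtype.val (Subgroup.mem_center_iff.mp hb' a')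
  have h2 : x ∈ (Subgroup.center ↥L).map L.subtype :=
    ⟨⟨x, hx⟩, Subgroup.mem_center_iff.mpr (fun g =>
      Subtype.ext (Subgroup.mem_centralizer_iff.mp hxc g g.2)), rfl⟩
  rw [hF] at h1
  exact Subgroup.mem_bot.mp (h1 h2)

theorem comp_simple (hF : fittingSubgroup G = ⊥) {L : Subgroup G} (hL : IsComponent L) :
    IsSimpleGroup ↥L := by
  have hc : Subgroup.center ↥L = ⊥ := by
    rw [eq_bot_iff]
    intro x hx
    have h1 := comp_center_triv hF hL x x.2 (Subgroup.mem_centralizer_iff.mpr (fun g hg =>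
      congrArg Subtype.val (Subgroup.mem_center_iff.mp hx ⟨g, hg⟩)))
    exact Subgroup.mem_bot.mpr (Subtype.ext h1)
  have hs : IsSimpleGroup (↥L ⧸ Subgroup.center ↥L) := hL.2.2
  have e : ↥L ⧸ Subgroup.center ↥L ≃* ↥L :=
    (QuotientGroup.quotientMulEquivOfEq hc).trans QuotientGroup.quotientBot
  exact (MulEquiv.isSimpleGroup_congr e).mp hs

omit [Finite G] in
/-- Uniqueness of the `L`-coordinate in `L × C(L)`. -/
theorem decomp_unique {L : Subgroup G}
    (htriv : ∀ x ∈ L, x ∈ Subgroup.centralizer (L : Set G) → x = 1)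
    {a a' b b' : G} (ha : a ∈ L) (ha' : a' ∈ L) (hb : b ∈ Subgroup.centralizer (L : Set G))
    (hb' : b' ∈ Subgroup.centralizer (L : Set G)) (h : a * b = a' * b') : a = a' := by
  have h1 : a'⁻¹ * a = b' * b⁻¹ := by
    calc a'⁻¹ * a = a'⁻¹ * (a * b) * b⁻¹ := by group
      _ = a'⁻¹ * (a' * b') * b⁻¹ := by rw [h]
      _ = b' * b⁻¹ := by group
  have h2 := htriv (a'⁻¹ * a) (L.mul_mem (L.inv_mem ha') ha)
    (h1 ▸ Subgroup.mul_mem _ hb' (Subgroup.inv_mem _ hb))
  calc a = a' * (a'⁻¹ * a) := by group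
    _ = a' := by rw [h2, mul_one]

omit [Finite G] in
/-- Elements of `N_Q(L)` fix the `L`-coordinate of `z`. -/
theorem fix_z1 {Q : Subgroup G} {z : G} (hE : ESetting Q z) {L : Subgroup G}
    (htriv : ∀ x ∈ L, x ∈ Subgroup.centralizer (L : Set G) → x = 1)
    {z₁ z' : G} (hz₁ : z₁ ∈ L) (hz' : z' ∈ Subgroup.centralizer (L : Set G)) (hzz : z = z₁ * z')
    {q : G} (hq : q ∈ Q) (hqn : q ∈ Subgroup.normalizer (L : Set G)) : q * z₁ * q⁻¹ = z₁ := by
  have h1 : q * z * q⁻¹ = z := by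
    rw [← hE.central hq]; group
  have h2 : (q * z₁ * q⁻¹) * (q * z' * q⁻¹) = z₁ * z' := by
    calc (q * z₁ * q⁻¹) * (q * z' * q⁻¹) = q * (z₁ * z') * q⁻¹ := by group
      _ = z₁ * z' := by rw [← hzz, h1]
  exact decomp_unique htriv (conj_mem_of_mem_normalizer hqn hz₁) hz₁
    (conj_mem_centralizer hqn hz') hz' h2

/-- A conjugate of a component `L` other than `L` centralizes `L`. -/
theorem conj_comp_cent {L : Subgroup G} (hL : IsComponent L) {q : G}
    (hq : q ∉ Subgroup.normalizer (L : Set G)) :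
    ∀ x ∈ L, q * x * q⁻¹ ∈ Subgroup.centralizer (L : Set G) := by
  intro x hx
  have hL' : IsComponent (L.map (MulAut.conj q).toMonoidHom) :=
    isComponent_map_equiv (MulAut.conj q) hL
  have hne : L.map (MulAut.conj q).toMonoidHom ≠ L := fun h =>
    hq (mem_normalizer_iff_map_conj.mpr h)
  have h1 := components_commute hL' hL hne
  rw [Subgroup.commutator_eq_bot_iff_le_centralizer] at h1
  exact h1 (conj_mem_map_conj q hx)

omit [Finite G] in
/-- For `x ∈ C_L(z₁)`, the element `x (u x⁻¹ u⁻¹)` lies in `Q`. -/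
theorem w_mem {Q : Subgroup G} {z : G} (hE : ESetting Q z) {L : Subgroup G} {z₁ z' u : G}
    (hz' : z' ∈ Subgroup.centralizer (L : Set G)) (hzz : z = z₁ * z') (hu : u ∈ Q)
    {x : G} (hx : x ∈ L) (hxz : x * z₁ = z₁ * x) : x * (u * x⁻¹ * u⁻¹) ∈ Q := by
  have h1 : x * z' = z' * x := Subgroup.mem_centralizer_iff.mp hz' x hx
  have h3 : x * z = z * x := by
    rw [hzz]
    calc x * (z₁ * z') = (x * z₁) * z' := by group
      _ = (z₁ * x) * z' := by rw [hxz]
      _ = z₁ * (x * z') := by group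
      _ = z₁ * (z' * x) := by rw [h1]
      _ = z₁ * z' * x := by group
  have h4 := hE.norm x h3 u hu
  have h5 : x * (u * x⁻¹ * u⁻¹) = (x * u * x⁻¹) * u⁻¹ := by group
  rw [h5]
  exact Q.mul_mem h4 (Q.inv_mem hu)

omit [Finite G] in
/-- If `Q` moves `L` to at least three further conjugates, `C_L(z₁) = ⟨z₁⟩`. -/
theorem small_cent {Q : Subgroup G} {z : G} (hE : ESetting Q z) {L : Subgroup G}
    (htriv : ∀ x ∈ L, x ∈ Subgroup.centralizer (L : Set G) → x = 1)
    {z₁ z' : G} (hz₁ : z₁ ∈ L) (hz' : z' ∈ Subgroup.centralizer (L : Set G)) (hzz : z = z₁ * z')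
    {u q : G} (hu : u ∈ Q) (hq : q ∈ Q)
    (hLu : ∀ x ∈ L, u * x * u⁻¹ ∈ Subgroup.centralizer (L : Set G))
    (hLq : ∀ x ∈ L, q * x * q⁻¹ ∈ Subgroup.centralizer (L : Set G))
    (hLqu : ∀ x ∈ L, (q * u) * x * (q * u)⁻¹ ∈ Subgroup.centralizer (L : Set G))
    {x : G} (hx : x ∈ L) (hxz : x * z₁ = z₁ * x) : x = 1 ∨ x = z₁ := by
  have hwQ := w_mem hE hz' hzz hu hx hxz
  have hA : u * x⁻¹ * u⁻¹ ∈ Subgroup.centralizer (L : Set G) := hLu x⁻¹ (L.inv_mem hx)
  have hconj : q * (x * (u * x⁻¹ * u⁻¹)) * q⁻¹ ∈ Subgroup.centralizer (L : Set G) := by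
    have e : q * (x * (u * x⁻¹ * u⁻¹)) * q⁻¹ = (q * x * q⁻¹) * ((q * u) * x⁻¹ * (q * u)⁻¹) := by
      group
    rw [e]
    exact Subgroup.mul_mem _ (hLq x hx) (hLqu x⁻¹ (L.inv_mem hx))
  rcases hE.comm _ hwQ q hq with h1 | h1
  · left
    have h2 : x * (u * x⁻¹ * u⁻¹) = q * (x * (u * x⁻¹ * u⁻¹)) * q⁻¹ := by rw [← h1]; group
    have h3 := Subgroup.mul_mem _ hconj (Subgroup.inv_mem _ hA)
    rw [← h2] at h3
    have e : x * (u * x⁻¹ * u⁻¹) * (u * x⁻¹ * u⁻¹)⁻¹ = x := by group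
    rw [e] at h3
    exact htriv x hx h3
  · right
    have h2 : x * (u * x⁻¹ * u⁻¹) = z₁ * (z' * (q * (x * (u * x⁻¹ * u⁻¹)) * q⁻¹)) := by
      calc x * (u * x⁻¹ * u⁻¹) = (x * (u * x⁻¹ * u⁻¹) * q) * q⁻¹ := by group
        _ = z * (q * (x * (u * x⁻¹ * u⁻¹))) * q⁻¹ := by rw [h1]
        _ = z₁ * (z' * (q * (x * (u * x⁻¹ * u⁻¹)) * q⁻¹)) := by rw [hzz]; group
    exact decomp_unique htriv hx hz₁ hA (Subgroup.mul_mem _ hz' hconj) h2

omit [Finite G] in
/-- If `Q = N_Q(L) ∪ N_Q(L) u⁻¹`, then `z = z₁ z₁^u`. -/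
theorem z_eq {Q : Subgroup G} {z : G} (hE : ESetting Q z) {L : Subgroup G}
    (htriv : ∀ x ∈ L, x ∈ Subgroup.centralizer (L : Set G) → x = 1)
    {z₁ z' : G} (hz₁ : z₁ ∈ L) (hz' : z' ∈ Subgroup.centralizer (L : Set G)) (hzz : z = z₁ * z')
    (hz₁1 : z₁ ≠ 1) {u : G} (hu : u ∈ Q)
    (hLu : ∀ x ∈ L, u * x * u⁻¹ ∈ Subgroup.centralizer (L : Set G))
    (hdich : ∀ q ∈ Q, q ∈ Subgroup.normalizer (L : Set G) ∨
      q * u ∈ Subgroup.normalizer (L : Set G)) :
    z = z₁ * (u * z₁ * u⁻¹) := by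
  have hzn : z ∈ Subgroup.normalizer (L : Set G) := by
    rw [hzz]
    exact Subgroup.mul_mem _ (Subgroup.le_normalizer hz₁)
      (Subgroup.centralizer_le_normalizer _ hz')
  have hzpn : Subgroup.zpowers z ≤ Subgroup.normalizer (L : Set G) := Subgroup.zpowers_le.mpr hzn
  have hz₁z' : z₁ * z' = z' * z₁ := Subgroup.mem_centralizer_iff.mp hz' z₁ hz₁
  have hz₁z : z₁ * z = z * z₁ := by
    rw [hzz]
    calc z₁ * (z₁ * z') = z₁ * (z' * z₁) := by rw [hz₁z']
      _ = z₁ * z' * z₁ := by group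
  have huz : u * z * u⁻¹ = z := by
    rw [← hE.central hu]; group
  obtain ⟨z₂, hz₂⟩ : ∃ z₂ : G, z₂ = u * z₁ * u⁻¹ := ⟨_, rfl⟩
  rw [← hz₂]
  have hz₂C : z₂ ∈ Subgroup.centralizer (L : Set G) := hz₂ ▸ hLu z₁ hz₁
  have hz₁z₂ : z₁ * z₂ = z₂ * z₁ := Subgroup.mem_centralizer_iff.mp hz₂C z₁ hz₁
  have hz₂z : z₂ * z = z * z₂ := by
    calc z₂ * z = (u * z₁ * u⁻¹) * (u * z * u⁻¹) := by rw [huz, hz₂]
      _ = u * (z₁ * z) * u⁻¹ := by group
      _ = u * (z * z₁) * u⁻¹ := by rw [hz₁z]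
      _ = (u * z * u⁻¹) * (u * z₁ * u⁻¹) := by group
      _ = z * z₂ := by rw [huz, hz₂]
  have hzp1 : ∀ e ∈ Subgroup.zpowers z, e * z₁ = z₁ * e := by
    intro e he
    rcases hE.mem_zp.mp he with rfl | rfl
    · simp
    · exact hz₁z.symm
  have huu : u * u ∈ Subgroup.zpowers z := hE.sq_mem hu
  have hb : u * z₂ * u⁻¹ = z₁ := by
    calc u * z₂ * u⁻¹ = (u * u) * z₁ * (u * u)⁻¹ := by rw [hz₂]; group
      _ = z₁ * (u * u) * (u * u)⁻¹ := by rw [hzp1 _ huu]
      _ = z₁ := by group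
  have hb' : u⁻¹ * z₁ * u = z₂ := by rw [← hb]; group
  have hc1 : ∀ q ∈ Q, q ∈ Subgroup.normalizer (L : Set G) → q * z₁ * q⁻¹ = z₁ :=
    fun q hq hqn => fix_z1 hE htriv hz₁ hz' hzz hq hqn
  have hc2 : ∀ q ∈ Q, q ∈ Subgroup.normalizer (L : Set G) → q * z₂ * q⁻¹ = z₂ := by
    intro q hq hqn
    have h1 : q⁻¹ * u⁻¹ * q⁻¹⁻¹ * u⁻¹⁻¹ ∈ Subgroup.zpowers z :=
      hE.comm_mem (Q.inv_mem hq) (Q.inv_mem hu)
    have h2 : u⁻¹ * q * u = q * (q⁻¹ * u⁻¹ * q⁻¹⁻¹ * u⁻¹⁻¹) := by group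
    have h3 : u⁻¹ * q * u ∈ Subgroup.normalizer (L : Set G) := by
      rw [h2]
      exact Subgroup.mul_mem _ hqn (hzpn h1)
    have h4 : u⁻¹ * q * u ∈ Q := Q.mul_mem (Q.mul_mem (Q.inv_mem hu) hq) hu
    have h5 := hc1 _ h4 h3
    calc q * z₂ * q⁻¹ = u * ((u⁻¹ * q * u) * z₁ * (u⁻¹ * q * u)⁻¹) * u⁻¹ := by rw [hz₂]; group
      _ = z₂ := by rw [h5, hz₂]
  have hcent : ∀ q ∈ Q, (z₁ * z₂) * q = q * (z₁ * z₂) := by
    intro q hq
    have key : q * (z₁ * z₂) * q⁻¹ = z₁ * z₂ := by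
      rcases hdich q hq with hqn | hqn
      · calc q * (z₁ * z₂) * q⁻¹ = (q * z₁ * q⁻¹) * (q * z₂ * q⁻¹) := by group
          _ = z₁ * z₂ := by rw [hc1 q hq hqn, hc2 q hq hqn]
      · have hr : q * u ∈ Q := Q.mul_mem hq hu
        have e1 : q * z₁ * q⁻¹ = (q * u) * z₂ * (q * u)⁻¹ := by rw [← hb']; group
        have e2 : q * z₂ * q⁻¹ = (q * u) * z₁ * (q * u)⁻¹ := by rw [hz₂]; group
        calc q * (z₁ * z₂) * q⁻¹ = (q * z₁ * q⁻¹) * (q * z₂ * q⁻¹) := by group
          _ = z₂ * z₁ := by rw [e1, e2, hc2 _ hr hqn, hc1 _ hr hqn]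
          _ = z₁ * z₂ := hz₁z₂.symm
    calc (z₁ * z₂) * q = (q * (z₁ * z₂) * q⁻¹) * q := by rw [key]
      _ = q * (z₁ * z₂) := by group
  rcases hE.cent (z₁ * z₂) hcent with h | h
  · exfalso
    apply hz₁1
    apply htriv z₁ hz₁
    have h1 : z₁ = z₂⁻¹ := eq_inv_of_mul_eq_one_left h
    rw [h1]
    exact Subgroup.inv_mem _ hz₂C
  · exact h.symm

omit [Finite G] in
theorem X_sq {Q : Subgroup G} {z : G} (hE : ESetting Q z) {L : Subgroup G}
    (htriv : ∀ x ∈ L, x ∈ Subgroup.centralizer (L : Set G) → x = 1)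
    {z₁ z' : G} (hz₁ : z₁ ∈ L) (hz' : z' ∈ Subgroup.centralizer (L : Set G)) (hzz : z = z₁ * z')
    {u : G} (hu : u ∈ Q)
    (hLu : ∀ x ∈ L, u * x * u⁻¹ ∈ Subgroup.centralizer (L : Set G))
    {x : G} (hx : x ∈ L) (hxz : x * z₁ = z₁ * x) : x * x = 1 ∨ x * x = z₁ := by
  have hw := w_mem hE hz' hzz hu hx hxz
  have hA : u * x⁻¹ * u⁻¹ ∈ Subgroup.centralizer (L : Set G) := hLu x⁻¹ (L.inv_mem hx)
  have h1 : x * (u * x⁻¹ * u⁻¹) = (u * x⁻¹ * u⁻¹) * x := Subgroup.mem_centralizer_iff.mp hA x hx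
  have h2 : (x * (u * x⁻¹ * u⁻¹)) * (x * (u * x⁻¹ * u⁻¹)) =
      (x * x) * ((u * x⁻¹ * u⁻¹) * (u * x⁻¹ * u⁻¹)) := by
    calc (x * (u * x⁻¹ * u⁻¹)) * (x * (u * x⁻¹ * u⁻¹))
        = x * ((u * x⁻¹ * u⁻¹) * x) * (u * x⁻¹ * u⁻¹) := by group
      _ = x * (x * (u * x⁻¹ * u⁻¹)) * (u * x⁻¹ * u⁻¹) := by rw [h1]
      _ = (x * x) * ((u * x⁻¹ * u⁻¹) * (u * x⁻¹ * u⁻¹)) := by group
  have hAA : (u * x⁻¹ * u⁻¹) * (u * x⁻¹ * u⁻¹) ∈ Subgroup.centralizer (L : Set G) :=
    Subgroup.mul_mem _ hA hA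
  have hxx : x * x ∈ L := L.mul_mem hx hx
  rcases hE.mem_zp.mp (hE.sq_mem hw) with h | h
  · left
    rw [h2] at h
    exact decomp_unique htriv hxx L.one_mem hAA (Subgroup.one_mem _) (by rw [h, one_mul])
  · right
    rw [h2, hzz] at h
    exact decomp_unique htriv hxx hz₁ hAA hz' h

omit [Finite G] in
theorem comm_identity {L : Subgroup G} {a b A B : G} (ha : a ∈ L) (hb : b ∈ L)
    (hA : A ∈ Subgroup.centralizer (L : Set G)) (hB : B ∈ Subgroup.centralizer (L : Set G)) :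
    (a * A) * (b * B) * (a * A)⁻¹ * (b * B)⁻¹ = (a * b * a⁻¹ * b⁻¹) * (A * B * A⁻¹ * B⁻¹) := by
  have h1 : A * b = b * A := (Subgroup.mem_centralizer_iff.mp hA b hb).symm
  have h2 : (A * B * A⁻¹) * a⁻¹ = a⁻¹ * (A * B * A⁻¹) :=
    (Subgroup.mem_centralizer_iff.mp (Subgroup.mul_mem _ (Subgroup.mul_mem _ hA hB)
      (Subgroup.inv_mem _ hA)) a⁻¹ (L.inv_mem ha)).symm
  have h3 : (A * B * A⁻¹ * B⁻¹) * b⁻¹ = b⁻¹ * (A * B * A⁻¹ * B⁻¹) :=
    (Subgroup.mem_centralizer_iff.mp (Subgroup.mul_mem _ (Subgroup.mul_mem _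
      (Subgroup.mul_mem _ hA hB) (Subgroup.inv_mem _ hA)) (Subgroup.inv_mem _ hB)) b⁻¹
      (L.inv_mem hb)).symm
  calc (a * A) * (b * B) * (a * A)⁻¹ * (b * B)⁻¹
      = a * (A * b) * B * A⁻¹ * a⁻¹ * B⁻¹ * b⁻¹ := by group
    _ = a * (b * A) * B * A⁻¹ * a⁻¹ * B⁻¹ * b⁻¹ := by rw [h1]
    _ = a * b * ((A * B * A⁻¹) * a⁻¹) * B⁻¹ * b⁻¹ := by group
    _ = a * b * (a⁻¹ * (A * B * A⁻¹)) * B⁻¹ * b⁻¹ := by rw [h2]
    _ = a * b * a⁻¹ * ((A * B * A⁻¹ * B⁻¹) * b⁻¹) := by group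
    _ = a * b * a⁻¹ * (b⁻¹ * (A * B * A⁻¹ * B⁻¹)) := by rw [h3]
    _ = (a * b * a⁻¹ * b⁻¹) * (A * B * A⁻¹ * B⁻¹) := by group

omit [Finite G] in
theorem X_comm {Q : Subgroup G} {z : G} (hE : ESetting Q z) {L : Subgroup G}
    (htriv : ∀ x ∈ L, x ∈ Subgroup.centralizer (L : Set G) → x = 1)
    {z₁ z' : G} (hz₁ : z₁ ∈ L) (hz' : z' ∈ Subgroup.centralizer (L : Set G)) (hzz : z = z₁ * z')
    {u : G} (hu : u ∈ Q)
    (hLu : ∀ x ∈ L, u * x * u⁻¹ ∈ Subgroup.centralizer (L : Set G))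
    {x y : G} (hx : x ∈ L) (hy : y ∈ L) (hxz : x * z₁ = z₁ * x) (hyz : y * z₁ = z₁ * y) :
    x * y * x⁻¹ * y⁻¹ = 1 ∨ x * y * x⁻¹ * y⁻¹ = z₁ := by
  have hwx := w_mem hE hz' hzz hu hx hxz
  have hwy := w_mem hE hz' hzz hu hy hyz
  have hA : u * x⁻¹ * u⁻¹ ∈ Subgroup.centralizer (L : Set G) := hLu x⁻¹ (L.inv_mem hx)
  have hB : u * y⁻¹ * u⁻¹ ∈ Subgroup.centralizer (L : Set G) := hLu y⁻¹ (L.inv_mem hy)
  have h2 := comm_identity hx hy hA hB
  have hL1 : x * y * x⁻¹ * y⁻¹ ∈ L :=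
    L.mul_mem (L.mul_mem (L.mul_mem hx hy) (L.inv_mem hx)) (L.inv_mem hy)
  have hC1 : (u * x⁻¹ * u⁻¹) * (u * y⁻¹ * u⁻¹) * (u * x⁻¹ * u⁻¹)⁻¹ * (u * y⁻¹ * u⁻¹)⁻¹ ∈
      Subgroup.centralizer (L : Set G) :=
    Subgroup.mul_mem _ (Subgroup.mul_mem _ (Subgroup.mul_mem _ hA hB) (Subgroup.inv_mem _ hA))
      (Subgroup.inv_mem _ hB)
  rcases hE.mem_zp.mp (hE.comm_mem hwx hwy) with h | h
  · left
    rw [h2] at h
    exact decomp_unique htriv hL1 L.one_mem hC1 (Subgroup.one_mem _) (by rw [h, one_mul])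
  · right
    rw [h2, hzz] at h
    exact decomp_unique htriv hL1 hz₁ hC1 hz' h

/-- A nonabelian simple group has no involution with centralizer of order two. -/
theorem no_small_cent {L : Subgroup G} (hLs : IsSimpleGroup ↥L) (hLna : ¬ IsMulCommutative ↥L)
    {z₁ : G} (hz₁ : z₁ ∈ L) (hz₁1 : z₁ ≠ 1) (hz₁sq : z₁ * z₁ = 1) :
    ¬ ∀ x ∈ L, x * z₁ = z₁ * x → x = 1 ∨ x = z₁ := by
  intro hsmall
  have : Fact (Nat.Prime 2) := ⟨Nat.prime_two⟩
  obtain ⟨t, ht⟩ : ∃ t : ↥L, t = ⟨z₁, hz₁⟩ := ⟨_, rfl⟩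
  have ht1 : t ≠ 1 := fun h => hz₁1 (by rw [ht] at h; exact congrArg Subtype.val h)
  have htt : t * t = 1 := by rw [ht]; exact Subtype.ext hz₁sq
  have hsm : ∀ x : ↥L, x * t = t * x → x = 1 ∨ x = t := by
    intro x hx
    rw [ht] at hx ⊢
    rcases hsmall x x.2 (congrArg Subtype.val hx) with h | h
    · left; exact Subtype.ext h
    · right; exact Subtype.ext h
  have hot : orderOf t = 2 := orderOf_eq_prime (by rw [pow_two]; exact htt) ht1
  have hzp : IsPGroup 2 (Subgroup.zpowers t) :=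
    IsPGroup.of_card (n := 1) (by rw [Nat.card_zpowers, hot, pow_one])
  obtain ⟨S, hS⟩ := IsPGroup.exists_le_sylow hzp
  have htS : t ∈ (S : Subgroup ↥L) := hS (Subgroup.mem_zpowers t)
  have hS1 : (S : Subgroup ↥L) ≠ ⊥ := fun h =>
    ht1 (by rw [h] at htS; exact Subgroup.mem_bot.mp htS)
  obtain ⟨c, hcS, hco, hcc⟩ := exists_central_orderOf_eq 2 S.2 hS1
  have hct : c = t := by
    rcases hsm c (hcc t htS).symm with h | h
    · rw [h, orderOf_one] at hco
      exact absurd hco (by norm_num)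
    · exact h
  have hSsm : ∀ s ∈ (S : Subgroup ↥L), s = 1 ∨ s = t := fun s hs =>
    hsm s (by rw [← hct]; exact hcc s hs)
  have hScard : Nat.card (S : Subgroup ↥L) = 2 := by
    rw [Nat.card_eq_two_iff' (1 : (S : Subgroup ↥L))]
    refine ⟨⟨t, htS⟩, fun h => ht1 (congrArg Subtype.val h), ?_⟩
    rintro ⟨s, hs⟩ hs1
    rcases hSsm s hs with h | h
    · exact absurd (Subtype.ext h) hs1
    · exact Subtype.ext h
  have hScyc : IsCyclic (S : Subgroup ↥L) := isCyclic_of_prime_card (p := 2) hScard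
  obtain ⟨N, hN, hNodd, k, hk⟩ :=
    Cfsg.Agent.Lib.Helper12.exists_normal_two_complement_of_isCyclic_sylow S hScyc
  rcases hLs.eq_bot_or_eq_top_of_normal N hN with h | h
  · apply hLna
    have hcard : Nat.card ↥L = 2 ^ k := by rw [← hk, h, Subgroup.index_bot]
    have hP : IsPGroup 2 ↥L := IsPGroup.of_card hcard
    have hsol : Group.IsSolvable ↥L := by
      have := hP.isNilpotent
      infer_instance
    have hcomm := IsSimpleGroup.comm_iff_isSolvable.mpr hsol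
    exact ⟨⟨hcomm⟩⟩
  · rw [h, Subgroup.card_top] at hNodd
    have h2 : orderOf t ∣ Nat.card ↥L := orderOf_dvd_natCard t
    rw [hot] at h2
    exact (Nat.not_even_iff_odd.mpr hNodd) (even_iff_two_dvd.mpr h2)

theorem relIndex_dvd_index_normal {H : Type*} [Group H] [Finite H] (P N : Subgroup H)
    [N.Normal] : P.relIndex N ∣ P.index := by
  have h1 : Nat.card ↥(N ⊔ P) = Nat.card N * N.relIndex P := by
    rw [card_eq_card_mul_relIndex (le_sup_left : N ≤ N ⊔ P), Subgroup.relIndex_sup_left]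
  have h2 : Nat.card P = Nat.card ↥(N ⊓ P) * N.relIndex P := by
    rw [card_eq_card_mul_relIndex (inf_le_right : N ⊓ P ≤ P), Subgroup.inf_relIndex_right]
  have h3 : Nat.card N = Nat.card ↥(N ⊓ P) * P.relIndex N := by
    rw [card_eq_card_mul_relIndex (inf_le_left : N ⊓ P ≤ N), Subgroup.inf_relIndex_left]
  have h4 : Nat.card ↥(N ⊔ P) = Nat.card P * P.relIndex (N ⊔ P) :=
    card_eq_card_mul_relIndex le_sup_right
  have h5 : P.relIndex (N ⊔ P) = P.relIndex N := by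
    have h6 : Nat.card P * P.relIndex (N ⊔ P) = Nat.card P * P.relIndex N := by
      rw [← h4, h1, h3, h2]; ring
    exact Nat.eq_of_mul_eq_mul_left Nat.card_pos h6
  rw [← h5]
  exact Subgroup.relIndex_dvd_index_of_le le_sup_right

theorem relIndex_dvd_relIndex_of_normal (P N A : Subgroup G) (hNA : N ≤ A)
    (hnorm : A ≤ Subgroup.normalizer (N : Set G)) : P.relIndex N ∣ P.relIndex A := by
  have hn : (N.subgroupOf A).Normal := (Subgroup.normal_subgroupOf_iff_le_normalizer hNA).mpr hnorm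
  have h := relIndex_dvd_index_normal (P.subgroupOf A) (N.subgroupOf A)
  rwa [Subgroup.relIndex_subgroupOf hNA] at h

theorem frattini_map_le {H : Type*} [Group H] [Finite H] {G' : Type*} [Group G']
    (R : Subgroup H) (f : H →* G') (t : G')
    (hc : ∀ x ∈ R, f x * t = t * f x)
    (hsq : ∀ x ∈ R, f x * f x ∈ Subgroup.zpowers t)
    (hcomm : ∀ x ∈ R, ∀ y ∈ R, f x * f y * (f x)⁻¹ * (f y)⁻¹ ∈ Subgroup.zpowers t) :
    (frattini ↥R).map (f.comp R.subtype) ≤ Subgroup.zpowers t := by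
  rw [Subgroup.map_le_iff_le_comap]
  have hn : ((Subgroup.zpowers t).comap (f.comp R.subtype)).Normal := by
    refine ⟨fun n hn g => ?_⟩
    rw [Subgroup.mem_comap] at hn ⊢
    rw [map_mul, map_mul, map_inv]
    obtain ⟨k, hk⟩ := Subgroup.mem_zpowers_iff.mp hn
    have h1 : Commute ((f.comp R.subtype) g) t := hc g g.2
    have h2 : (f.comp R.subtype) g * (f.comp R.subtype) n =
        (f.comp R.subtype) n * (f.comp R.subtype) g := by
      rw [← hk]
      exact (Commute.zpow_right h1 k).eq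
    have h3 : (f.comp R.subtype) g * (f.comp R.subtype) n * ((f.comp R.subtype) g)⁻¹ =
        (f.comp R.subtype) n := by rw [h2]; group
    rw [h3]
    exact hn
  exact Cfsg.Agent.Lib.Helper72.frattini_le_of_forall_pow_mem Nat.prime_two _
    (fun x => by
      rw [Subgroup.mem_comap, pow_two, map_mul]
      exact hsq x x.2)
    (fun x y => by
      rw [Subgroup.mem_comap]
      simp only [map_mul, map_inv]
      exact hcomm x x.2 y y.2)

/-- The Sylow and Frattini statements for `C_L(z₁)`. -/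
theorem sylow_part {Q : Subgroup G} {z : G} (hE : ESetting Q z) (hQ2 : IsPGroup 2 Q)
    {L : Subgroup G} (htriv : ∀ x ∈ L, x ∈ Subgroup.centralizer (L : Set G) → x = 1)
    {z₁ u : G} (hz₁ : z₁ ∈ L) (hz₁sq : z₁ * z₁ = 1) (hu : u ∈ Q)
    (hLu : ∀ x ∈ L, u * x * u⁻¹ ∈ Subgroup.centralizer (L : Set G))
    (hzz : z = z₁ * (u * z₁ * u⁻¹))
    (E : Subgroup G) (hEn : E.Normal) (hLE : L ≤ E)
    (hEL : E ≤ Subgroup.normalizer (L : Set G)) :
    ∃ R : Sylow 2 ↥L, (R : Subgroup ↥L) = (Subgroup.centralizer ({z₁} : Set G)).subgroupOf L ∧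
      (frattini ↥(R : Subgroup ↥L)).map ((L.subtype).comp (R : Subgroup ↥L).subtype) ≤
        Subgroup.zpowers z₁ := by
  have : Fact (Nat.Prime 2) := ⟨Nat.prime_two⟩
  have hz' : u * z₁ * u⁻¹ ∈ Subgroup.centralizer (L : Set G) := hLu z₁ hz₁
  have hmemX : ∀ x : ↥L, x ∈ (Subgroup.centralizer ({z₁} : Set G)).subgroupOf L ↔
      (x : G) * z₁ = z₁ * x := by
    intro x
    rw [Subgroup.mem_subgroupOf, Subgroup.mem_centralizer_iff]
    constructor
    · intro h
      exact (h z₁ rfl).symm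
    · rintro h _ rfl
      exact h.symm
  have hsq : ∀ x : ↥L, (x : G) * z₁ = z₁ * x → (x : G) * x = 1 ∨ (x : G) * x = z₁ :=
    fun x hx => X_sq hE htriv hz₁ hz' hzz hu hLu x.2 hx
  have hcm : ∀ x y : ↥L, (x : G) * z₁ = z₁ * x → (y : G) * z₁ = z₁ * y →
      (x : G) * y * (x : G)⁻¹ * (y : G)⁻¹ = 1 ∨ (x : G) * y * (x : G)⁻¹ * (y : G)⁻¹ = z₁ :=
    fun x y hx hy => X_comm hE htriv hz₁ hz' hzz hu hLu x.2 y.2 hx hy
  have hX2 : IsPGroup 2 ↥((Subgroup.centralizer ({z₁} : Set G)).subgroupOf L) := by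
    rintro ⟨x, hx⟩
    refine ⟨2, ?_⟩
    apply Subtype.ext
    apply Subtype.ext
    show (x : G) ^ (2 ^ 2) = 1
    have e : (x : G) ^ (2 ^ 2) = ((x : G) * x) * ((x : G) * x) := by
      rw [show (2 : ℕ) ^ 2 = 2 + 2 from rfl, pow_add, pow_two]
    rw [e]
    rcases hsq x ((hmemX x).mp hx) with h | h
    · rw [h, one_mul]
    · rw [h, hz₁sq]
  obtain ⟨T, hQT⟩ := IsPGroup.exists_le_sylow hQ2
  have hT1 : (T : Subgroup G) ≠ ⊥ := fun h =>
    hE.z_ne (by
      have h1 := hQT hE.zQ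
      rw [h] at h1
      exact Subgroup.mem_bot.mp h1)
  obtain ⟨c, hcT, hco, hcc⟩ := exists_central_orderOf_eq 2 T.2 hT1
  have hcz : c = z := by
    rcases hE.cent c (fun y hy => (hcc y (hQT hy)).symm) with h | h
    · rw [h, orderOf_one] at hco
      exact absurd hco (by norm_num)
    · exact h
  have hTz : ∀ x ∈ (T : Subgroup G), x * z = z * x := fun x hx => by
    rw [← hcz]
    exact hcc x hx
  have h1 : ¬ 2 ∣ (T : Subgroup G).index := T.not_dvd_index
  have h2 : (T : Subgroup G).relIndex E ∣ (T : Subgroup G).index := by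
    have := hEn
    exact relIndex_dvd_index_normal _ _
  have h3 : (T : Subgroup G).relIndex L ∣ (T : Subgroup G).relIndex E :=
    relIndex_dvd_relIndex_of_normal _ _ _ hLE hEL
  have h4 : (Subgroup.centralizer ({z₁} : Set G)).relIndex L ∣ (T : Subgroup G).relIndex L := by
    rw [← Subgroup.inf_relIndex_right (T : Subgroup G) L]
    apply Subgroup.relIndex_dvd_of_le_left
    intro x hx
    obtain ⟨hxT, hxL⟩ := Subgroup.mem_inf.mp hx
    rw [Subgroup.mem_centralizer_iff]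
    intro h hh
    rw [Set.mem_singleton_iff.mp hh]
    have e1 : Commute x z := hTz x hxT
    have e2 : Commute x (u * z₁ * u⁻¹) := Subgroup.mem_centralizer_iff.mp hz' x hxL
    have e3 : z * (u * z₁ * u⁻¹)⁻¹ = z₁ := by
      rw [hzz]; group
    have e4 : Commute x (z * (u * z₁ * u⁻¹)⁻¹) := e1.mul_right e2.inv_right
    rw [e3] at e4
    exact e4.eq.symm
  have hodd : ¬ 2 ∣ ((Subgroup.centralizer ({z₁} : Set G)).subgroupOf L).index := fun h =>
    h1 (h.trans (h4.trans (h3.trans h2)))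
  obtain ⟨R, hR⟩ := IsPGroup.exists_le_sylow hX2
  have hReq : (R : Subgroup ↥L) = (Subgroup.centralizer ({z₁} : Set G)).subgroupOf L := by
    apply le_antisymm _ hR
    rw [← Subgroup.relIndex_eq_one]
    have h5 : ((Subgroup.centralizer ({z₁} : Set G)).subgroupOf L).relIndex (R : Subgroup ↥L) ∣
        ((Subgroup.centralizer ({z₁} : Set G)).subgroupOf L).index :=
      Subgroup.relIndex_dvd_index_of_le hR
    obtain ⟨k, hk⟩ := IsPGroup.iff_card.mp R.2
    have h6 : ((Subgroup.centralizer ({z₁} : Set G)).subgroupOf L).relIndex (R : Subgroup ↥L) ∣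
        2 ^ k := by
      rw [← hk]
      exact Subgroup.relIndex_dvd_card _ _
    obtain ⟨j, -, hj⟩ := (Nat.dvd_prime_pow Nat.prime_two).mp h6
    rw [hj] at h5 ⊢
    rcases Nat.eq_zero_or_pos j with h0 | hpos
    · rw [h0, pow_zero]
    · exfalso
      exact hodd ((dvd_pow_self 2 hpos.ne').trans h5)
  refine ⟨R, hReq, ?_⟩
  apply frattini_map_le (R : Subgroup ↥L) L.subtype z₁
  · intro x hx
    rw [hReq] at hx
    exact (hmemX x).mp hx
  · intro x hx
    rw [hReq] at hx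
    rw [mem_zpowers_of_sq hz₁sq]
    exact hsq x ((hmemX x).mp hx)
  · intro x hx y hy
    rw [hReq] at hx hy
    rw [mem_zpowers_of_sq hz₁sq]
    exact hcm x y ((hmemX x).mp hx) ((hmemX y).mp hy)

omit [Finite G] in
/-- `Q` is not the full `O_2(C_G(z))` in the two-component case. -/
theorem core_ne {Q : Subgroup G} {z : G} (hE : ESetting Q z) {L : Subgroup G}
    (htriv : ∀ x ∈ L, x ∈ Subgroup.centralizer (L : Set G) → x = 1)
    {z₁ u : G} (hz₁ : z₁ ∈ L) (hz₁sq : z₁ * z₁ = 1) (hu : u ∈ Q)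
    (hLu : ∀ x ∈ L, u * x * u⁻¹ ∈ Subgroup.centralizer (L : Set G))
    (hzz : z = z₁ * (u * z₁ * u⁻¹))
    (hEn : (L ⊔ L.map (MulAut.conj u).toMonoidHom).Normal)
    (hsmall : ¬ ∀ x ∈ L, x * z₁ = z₁ * x → x = 1 ∨ x = z₁) :
    Q ≠ (Cfsg.pCore 2 ↥(Subgroup.centralizer ({z} : Set G))).map
      (Subgroup.centralizer ({z} : Set G)).subtype := by
  intro hQeq
  apply hsmall
  have : Fact (Nat.Prime 2) := ⟨Nat.prime_two⟩
  have hz' : u * z₁ * u⁻¹ ∈ Subgroup.centralizer (L : Set G) := hLu z₁ hz₁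
  have hL₂C : L.map (MulAut.conj u).toMonoidHom ≤ Subgroup.centralizer (L : Set G) := by
    rintro _ ⟨y, hy, rfl⟩
    have e : (MulAut.conj u).toMonoidHom y = u * y * u⁻¹ := by simp [MulAut.conj_apply]
    rw [e]
    exact hLu y hy
  have hcommLL₂ : ∀ a ∈ L, ∀ b ∈ L.map (MulAut.conj u).toMonoidHom, a * b = b * a :=
    fun a ha b hb => Subgroup.mem_centralizer_iff.mp (hL₂C hb) a ha
  have h4 : ∀ a ∈ L, a * z₁ = z₁ * a → (a * a) * (a * a) = 1 := by
    intro a ha haz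
    rcases X_sq hE htriv hz₁ hz' hzz hu hLu ha haz with h | h
    · rw [h, one_mul]
    · rw [h, hz₁sq]
  have hEC2 : IsPGroup 2 ↥((L ⊔ L.map (MulAut.conj u).toMonoidHom).subgroupOf
      (Subgroup.centralizer ({z} : Set G))) := by
    rintro ⟨⟨c, hcC⟩, hcE⟩
    refine ⟨2, ?_⟩
    apply Subtype.ext
    apply Subtype.ext
    show c ^ (2 ^ 2) = 1
    have hcE' : c ∈ L ⊔ L.map (MulAut.conj u).toMonoidHom := Subgroup.mem_subgroupOf.mp hcE
    obtain ⟨a, ha, b, hb, hcab⟩ := mem_sup_of_commute hcommLL₂ hcE'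
    have hcz : (a * b) * z = z * (a * b) := by
      rw [← hcab]
      exact (Subgroup.mem_centralizer_iff.mp hcC z rfl).symm
    rw [hcab]
    obtain ⟨b', hb', hbb'⟩ : ∃ b' ∈ L, b = u * b' * u⁻¹ := by
      obtain ⟨y, hy, rfl⟩ := hb
      exact ⟨y, hy, by simp [MulAut.conj_apply]⟩
    have hbC : b ∈ Subgroup.centralizer (L : Set G) := hL₂C hb
    have hbz₁ : b * z₁ = z₁ * b := (Subgroup.mem_centralizer_iff.mp hbC z₁ hz₁).symm
    have hconjC : b * (u * z₁ * u⁻¹) * b⁻¹ ∈ Subgroup.centralizer (L : Set G) :=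
      Subgroup.mul_mem _ (Subgroup.mul_mem _ hbC hz') (Subgroup.inv_mem _ hbC)
    have hca : (b * (u * z₁ * u⁻¹) * b⁻¹) * a⁻¹ = a⁻¹ * (b * (u * z₁ * u⁻¹) * b⁻¹) :=
      (Subgroup.mem_centralizer_iff.mp hconjC a⁻¹ (L.inv_mem ha)).symm
    have key : (a * z₁ * a⁻¹) * (b * (u * z₁ * u⁻¹) * b⁻¹) = z₁ * (u * z₁ * u⁻¹) := by
      calc (a * z₁ * a⁻¹) * (b * (u * z₁ * u⁻¹) * b⁻¹)
          = a * z₁ * (a⁻¹ * (b * (u * z₁ * u⁻¹) * b⁻¹)) := by group
        _ = a * z₁ * ((b * (u * z₁ * u⁻¹) * b⁻¹) * a⁻¹) := by rw [hca]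
        _ = a * (z₁ * b) * (u * z₁ * u⁻¹) * b⁻¹ * a⁻¹ := by group
        _ = a * (b * z₁) * (u * z₁ * u⁻¹) * b⁻¹ * a⁻¹ := by rw [hbz₁]
        _ = (a * b) * (z₁ * (u * z₁ * u⁻¹)) * (a * b)⁻¹ := by group
        _ = (a * b) * z * (a * b)⁻¹ := by rw [← hzz]
        _ = z * (a * b) * (a * b)⁻¹ := by rw [hcz]
        _ = z := by group
        _ = z₁ * (u * z₁ * u⁻¹) := hzz
    have ha1 : a * z₁ * a⁻¹ = z₁ :=
      decomp_unique htriv (L.mul_mem (L.mul_mem ha hz₁) (L.inv_mem ha)) hz₁ hconjC hz' key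
    have haz : a * z₁ = z₁ * a := by
      calc a * z₁ = (a * z₁ * a⁻¹) * a := by group
        _ = z₁ * a := by rw [ha1]
    have hb1 : b * (u * z₁ * u⁻¹) * b⁻¹ = u * z₁ * u⁻¹ := by
      rw [ha1] at key
      exact mul_left_cancel key
    have hb'z : b' * z₁ = z₁ * b' := by
      rw [hbb'] at hb1
      have e : b' * z₁ * b'⁻¹ =
          u⁻¹ * ((u * b' * u⁻¹) * (u * z₁ * u⁻¹) * (u * b' * u⁻¹)⁻¹) * u := by group
      calc b' * z₁ = (b' * z₁ * b'⁻¹) * b' := by group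
        _ = (u⁻¹ * ((u * b' * u⁻¹) * (u * z₁ * u⁻¹) * (u * b' * u⁻¹)⁻¹) * u) * b' := by rw [e]
        _ = (u⁻¹ * (u * z₁ * u⁻¹) * u) * b' := by rw [hb1]
        _ = z₁ * b' := by group
    have ha4 := h4 a ha haz
    have hb4 : (b * b) * (b * b) = 1 := by
      have h := h4 b' hb' hb'z
      rw [hbb']
      calc (u * b' * u⁻¹ * (u * b' * u⁻¹)) * (u * b' * u⁻¹ * (u * b' * u⁻¹))
          = u * ((b' * b') * (b' * b')) * u⁻¹ := by group
        _ = 1 := by rw [h]; group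
    have hab : Commute a b := hcommLL₂ a ha b hb
    have e : (a * b) ^ (2 ^ 2) = ((a * a) * (a * a)) * ((b * b) * (b * b)) := by
      rw [show (2 : ℕ) ^ 2 = 2 + 2 from rfl, hab.mul_pow, pow_add, pow_add, pow_two, pow_two]
    rw [e, ha4, hb4, one_mul]
  have hECn : ((L ⊔ L.map (MulAut.conj u).toMonoidHom).subgroupOf
      (Subgroup.centralizer ({z} : Set G))).Normal := by
    have := hEn
    exact Subgroup.normal_subgroupOf
  have hle := le_pCore_of_normal hECn hEC2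
  intro x hx hxz
  have hxz' : x * (u * z₁ * u⁻¹) = (u * z₁ * u⁻¹) * x :=
    Subgroup.mem_centralizer_iff.mp hz' x hx
  have hxzz : z * x = x * z := by
    rw [hzz]
    calc z₁ * (u * z₁ * u⁻¹) * x = z₁ * ((u * z₁ * u⁻¹) * x) := by group
      _ = z₁ * (x * (u * z₁ * u⁻¹)) := by rw [hxz']
      _ = (z₁ * x) * (u * z₁ * u⁻¹) := by group
      _ = (x * z₁) * (u * z₁ * u⁻¹) := by rw [hxz]
      _ = x * (z₁ * (u * z₁ * u⁻¹)) := by group
  have hxC : x ∈ Subgroup.centralizer ({z} : Set G) := by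
    rw [Subgroup.mem_centralizer_iff]
    intro h hh
    rw [Set.mem_singleton_iff.mp hh]
    exact hxzz
  have hxQ : x ∈ Q := by
    rw [hQeq]
    exact ⟨⟨x, hxC⟩, hle (Subgroup.mem_subgroupOf.mpr (Subgroup.mem_sup_left hx)), rfl⟩
  rcases hE.comm x hxQ u hu with h | h
  · left
    apply htriv x hx
    have e : u * x * u⁻¹ = x := by rw [← h]; group
    rw [← e]
    exact hLu x hx
  · right
    have e : x * 1 = z₁ * ((u * z₁ * u⁻¹) * (u * x * u⁻¹)) := by
      calc x * 1 = (x * u) * u⁻¹ := by group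
        _ = z * (u * x) * u⁻¹ := by rw [h]
        _ = z₁ * (u * z₁ * u⁻¹) * (u * x) * u⁻¹ := by rw [← hzz]
        _ = z₁ * ((u * z₁ * u⁻¹) * (u * x * u⁻¹)) := by group
    exact decomp_unique htriv hx hz₁ (Subgroup.one_mem _)
      (Subgroup.mul_mem _ hz' (hLu x hx)) e

/-- The structure lemma in intrinsic form. -/
theorem main {Q : Subgroup G} {z : G} (hE : ESetting Q z) (hQ2 : IsPGroup 2 Q)
    (hodd : ∀ K : Subgroup G, Odd (Nat.card K) → Q ≤ Subgroup.normalizer (K : Set G) → K = ⊥) :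
    (IsMulCommutative ↥(Subgroup.normalClosure ({z} : Set G)) ∧
        generalizedFittingSubgroup G = pCore 2 G) ∨
    (Subgroup.normalClosure ({z} : Set G) = generalizedFittingSubgroup G ∧
        IsSimpleGroup ↥(Subgroup.normalClosure ({z} : Set G)) ∧
        ¬ IsMulCommutative ↥(Subgroup.normalClosure ({z} : Set G))) ∨
    (Subgroup.normalClosure ({z} : Set G) = generalizedFittingSubgroup G ∧
      ∃ (L : Subgroup G) (u : G), u ∈ Q ∧ IsSimpleGroup ↥L ∧ ¬ IsMulCommutative ↥L ∧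
        L ⊓ (L).map (MulAut.conj u).toMonoidHom = ⊥ ∧
        (∀ x ∈ L, ∀ y ∈ (L).map (MulAut.conj u).toMonoidHom, x * y = y * x) ∧
        L ⊔ (L).map (MulAut.conj u).toMonoidHom = Subgroup.normalClosure ({z} : Set G) ∧
        ∃ z₁ ∈ L, z = z₁ * (u * z₁ * u⁻¹) ∧
          (∃ R : Sylow 2 ↥L, (R : Subgroup ↥L) =
              (Subgroup.centralizer ({z₁} : Set G)).subgroupOf L ∧
            (frattini ↥(R : Subgroup ↥L)).map ((L.subtype).comp (R : Subgroup ↥L).subtype) ≤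
              Subgroup.zpowers z₁) ∧
          Q ≠ (Cfsg.pCore 2 ↥(Subgroup.centralizer ({z} : Set G))).map
            (Subgroup.centralizer ({z} : Set G)).subtype) := by
  by_cases hlay : layer G = ⊥
  · left
    exact case_no_comp hE hodd hlay
  right
  obtain ⟨L, hL⟩ : ∃ L : Subgroup G, IsComponent L := by
    by_contra h
    push Not at h
    exact hlay (layer_eq_bot_iff.mpr h)
  have hFit : fittingSubgroup G = ⊥ := by
    by_contra h
    have hz := z_mem_of_normal hE hodd _ fitting_normal h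
    exact no_comp_cent hE hQ2 hL (fun x hx =>
      commute_of_commutator_eq_bot (comp_commutator_fitting hL) x hx z hz)
  have hGF : generalizedFittingSubgroup G = layer G := by
    unfold generalizedFittingSubgroup
    rw [hFit, sup_bot_eq]
  have hMn : (Subgroup.normalClosure ({z} : Set G)).Normal := Subgroup.normalClosure_normal
  have hzM : z ∈ Subgroup.normalClosure ({z} : Set G) :=
    Subgroup.subset_normalClosure (Set.mem_singleton z)
  have hM : Subgroup.normalClosure ({z} : Set G) = layer G := by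
    apply le_antisymm
    · have := layer_normal (G := G)
      exact Subgroup.normalClosure_le_normal
        (Set.singleton_subset_iff.mpr (z_mem_of_normal hE hodd _ layer_normal hlay))
    · apply sSup_le
      intro K hK
      rcases component_le_or_commutator_eq_bot hK hMn.isSubnormal with h | h
      · exact h
      · exfalso
        exact no_comp_cent hE hQ2 hK (fun x hx =>
          commute_of_commutator_eq_bot h x hx z hzM)
  have htriv := comp_center_triv hFit hL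
  have hLs := comp_simple hFit hL
  have hLna : ¬ IsMulCommutative ↥L := fun h =>
    comp_not_solvable hL (Group.isSolvable_of_comm (fun a b => h.is_comm.comm a b))
  have hcommLC : ∀ a ∈ L, ∀ b ∈ Subgroup.centralizer (L : Set G), a * b = b * a :=
    fun a ha b hb => Subgroup.mem_centralizer_iff.mp hb a ha
  have hzsup : z ∈ L ⊔ Subgroup.centralizer (L : Set G) := by
    have h1 : layer G ≤ L ⊔ Subgroup.centralizer (L : Set G) := by
      apply sSup_le
      intro K hK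
      by_cases hKL : K = L
      · rw [hKL]
        exact le_sup_left
      · have h2 := components_commute hK hL hKL
        rw [Subgroup.commutator_eq_bot_iff_le_centralizer] at h2
        exact h2.trans le_sup_right
    exact h1 (hM ▸ hzM)
  obtain ⟨z₁, hz₁, z', hz', hzz⟩ := mem_sup_of_commute hcommLC hzsup
  have hz₁1 : z₁ ≠ 1 := by
    intro h
    rw [h, one_mul] at hzz
    exact no_comp_cent hE hQ2 hL (fun x hx => by
      rw [hzz]
      exact Subgroup.mem_centralizer_iff.mp hz' x hx)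
  have hz₁sq : z₁ * z₁ = 1 := by
    have h1 : (z₁ * z₁) * (z' * z') = 1 * 1 := by
      have h2 : z₁ * z' = z' * z₁ := hcommLC z₁ hz₁ z' hz'
      calc (z₁ * z₁) * (z' * z') = z₁ * (z₁ * z') * z' := by group
        _ = z₁ * (z' * z₁) * z' := by rw [h2]
        _ = (z₁ * z') * (z₁ * z') := by group
        _ = 1 * 1 := by rw [← hzz, hE.zz, one_mul]
    exact decomp_unique htriv (L.mul_mem hz₁ hz₁) L.one_mem (Subgroup.mul_mem _ hz' hz')
      (Subgroup.one_mem _) h1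
  by_cases hzL : z ∈ L
  · left
    have hall : ∀ K : Subgroup G, IsComponent K → K = L := by
      intro K hK
      by_contra hne
      have h2 := components_commute hK hL hne
      exact no_comp_cent hE hQ2 hK (fun x hx =>
        commute_of_commutator_eq_bot h2 x hx z hzL)
    have hlayL : layer G = L :=
      le_antisymm (sSup_le (fun K hK => (hall K hK).le)) (comp_le_layer hL)
    have hML : Subgroup.normalClosure ({z} : Set G) = L := hM.trans hlayL
    rw [hML, hGF, hlayL]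
    exact ⟨rfl, hLs, hLna⟩
  right
  refine ⟨hM.trans hGF.symm, ?_⟩
  obtain ⟨u, hu, hun⟩ : ∃ u ∈ Q, u ∉ Subgroup.normalizer (L : Set G) := by
    by_contra h
    push Not at h
    have h1 : ∀ y ∈ Q, z₁ * y = y * z₁ := by
      intro y hy
      have h2 := fix_z1 hE htriv hz₁ hz' hzz hy (h y hy)
      calc z₁ * y = (y * z₁ * y⁻¹) * y := by rw [h2]
        _ = y * z₁ := by group
    rcases hE.cent z₁ h1 with h3 | h3
    · exact hz₁1 h3
    · exact hzL (h3 ▸ hz₁)
  have hLu := conj_comp_cent hL hun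
  by_cases hdich : ∀ q ∈ Q, q ∈ Subgroup.normalizer (L : Set G) ∨
      q * u ∈ Subgroup.normalizer (L : Set G)
  swap
  · exfalso
    push Not at hdich
    obtain ⟨q, hq, hq1, hq2⟩ := hdich
    exact no_small_cent hLs hLna hz₁ hz₁1 hz₁sq (fun x hx hxz =>
      small_cent hE htriv hz₁ hz' hzz hu hq hLu (conj_comp_cent hL hq1)
        (conj_comp_cent hL hq2) hx hxz)
  have hzeq := z_eq hE htriv hz₁ hz' hzz hz₁1 hu hLu hdich
  have hL₂ : IsComponent (L.map (MulAut.conj u).toMonoidHom) :=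
    isComponent_map_equiv (MulAut.conj u) hL
  have hL₂C : L.map (MulAut.conj u).toMonoidHom ≤ Subgroup.centralizer (L : Set G) := by
    rintro _ ⟨y, hy, rfl⟩
    have e : (MulAut.conj u).toMonoidHom y = u * y * u⁻¹ := by simp [MulAut.conj_apply]
    rw [e]
    exact hLu y hy
  have hz₂ : u * z₁ * u⁻¹ ∈ L.map (MulAut.conj u).toMonoidHom := conj_mem_map_conj u hz₁
  have hall : ∀ K : Subgroup G, IsComponent K →
      K = L ∨ K = L.map (MulAut.conj u).toMonoidHom := by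
    intro K hK
    by_contra hne
    push Not at hne
    have h1 := commute_of_commutator_eq_bot (components_commute hK hL hne.1)
    have h2 := commute_of_commutator_eq_bot (components_commute hK hL₂ hne.2)
    apply no_comp_cent hE hQ2 hK
    intro x hx
    rw [hzeq]
    calc x * (z₁ * (u * z₁ * u⁻¹)) = (x * z₁) * (u * z₁ * u⁻¹) := by group
      _ = (z₁ * x) * (u * z₁ * u⁻¹) := by rw [h1 x hx z₁ hz₁]
      _ = z₁ * (x * (u * z₁ * u⁻¹)) := by group
      _ = z₁ * ((u * z₁ * u⁻¹) * x) := by rw [h2 x hx _ hz₂]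
      _ = z₁ * (u * z₁ * u⁻¹) * x := by group
  have hlay2 : layer G = L ⊔ L.map (MulAut.conj u).toMonoidHom := by
    apply le_antisymm
    · apply sSup_le
      intro K hK
      rcases hall K hK with h | h
      · rw [h]
        exact le_sup_left
      · rw [h]
        exact le_sup_right
    · exact sup_le (comp_le_layer hL) (comp_le_layer hL₂)
  have hEL : layer G ≤ Subgroup.normalizer (L : Set G) := by
    rw [hlay2]
    exact sup_le Subgroup.le_normalizer (hL₂C.trans (Subgroup.centralizer_le_normalizer _))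
  refine ⟨L, u, hu, hLs, hLna, ?_, ?_, ?_, z₁, hz₁, hzeq, ?_, ?_⟩
  · rw [eq_bot_iff]
    intro x hx
    obtain ⟨hx1, hx2⟩ := Subgroup.mem_inf.mp hx
    exact Subgroup.mem_bot.mpr (htriv x hx1 (hL₂C hx2))
  · intro x hx y hy
    exact Subgroup.mem_centralizer_iff.mp (hL₂C hy) x hx
  · rw [hM, hlay2]
  · exact sylow_part hE hQ2 htriv hz₁ hz₁sq hu hLu hzeq (layer G) layer_normal
      (comp_le_layer hL) hEL
  · exact core_ne hE htriv hz₁ hz₁sq hu hLu hzeq (hlay2 ▸ layer_normal)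
      (no_small_cent hLs hLna hz₁ hz₁1 hz₁sq)

end Main

/-- Structure of a finite group G with a large extraspecial 2-subgroup Q. Let Z(Q) be generated by z and let M be the normal closure of z in G. Then one of the following holds: (1) Q is normal in G; (2) M is abelian and F*(G) = O₂(G); (3) M = F*(G) is a non-abelian simple group; or (4) M = F*(G) is the direct product of a non-abelian simple group L and its conjugate by some element u of Q, z = z₁ · z₁^u with z₁ in L, the centralizer of z₁ in L is a Sylow 2-subgroup of L whose Frattini subgroup lies in the subgroup generated by z₁, and Q is not the largest normal 2-subgroup of the centralizer of z. -/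
theorem result {G : Type*} [Group G] [Finite G] (Q : Subgroup G) (hQ : Cfsg.IsLargeExtraspecial Q) (z : G) (hz : ((Subgroup.center ↥Q).map Q.subtype) = Subgroup.zpowers z) (M : Subgroup G) (hM : M = Subgroup.normalClosure ({z} : Set G)) : Q.Normal ∨ (IsMulCommutative ↥M ∧ Cfsg.generalizedFittingSubgroup G = Cfsg.pCore 2 G) ∨ (M = Cfsg.generalizedFittingSubgroup G ∧ IsSimpleGroup ↥M ∧ ¬ IsMulCommutative ↥M) ∨ (M = Cfsg.generalizedFittingSubgroup G ∧ ∃ (L : Subgroup G) (u : G), u ∈ Q ∧ IsSimpleGroup ↥L ∧ ¬ IsMulCommutative ↥L ∧ L ⊓ (L).map (MulAut.conj u).toMonoidHom = ⊥ ∧ (∀ x ∈ L, ∀ y ∈ (L).map (MulAut.conj u).toMonoidHom, x * y = y * x) ∧ L ⊔ (L).map (MulAut.conj u).toMonoidHom = M ∧ ∃ z₁ ∈ L, z = z₁ * (u * z₁ * u⁻¹) ∧ (∃ R : Sylow 2 ↥L, (R : Subgroup ↥L) = (Subgroup.centralizer ({z₁} : Set G)).subgroupOf L ∧ (frattini ↥(R : Subgroup ↥L)).map ((L.subtype).comp (R : Subgroup ↥L).subtype) ≤ Subgroup.zpowers z₁) ∧ Q ≠ (Cfsg.pCore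 2 ↥(Subgroup.centralizer ({z} : Set G))).map (Subgroup.centralizer ({z} : Set G)).subtype) := by
  subst hM
  obtain ⟨hL1, hL2, hL3, hL4⟩ := hQ
  obtain ⟨z', hES, hmemZ⟩ := esetting_of_extraspecial Q hL1 hL2 hL3
  have hzz' : z = z' := by
    have h1 : z ∈ (Subgroup.center ↥Q).map Q.subtype := by
      rw [hz]
      exact Subgroup.mem_zpowers z
    have h2 : z' ∈ Subgroup.zpowers z := by
      rw [← hz]
      exact (hmemZ z').mpr (Or.inr rfl)
    rcases (hmemZ z).mp h1 with h3 | h3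
    · exfalso
      rw [h3, Subgroup.zpowers_one_eq_bot, Subgroup.mem_bot] at h2
      exact hES.z_ne h2
    · exact h3
  subst hzz'
  right
  exact main hES hL1.1.1 hL4

end Cfsg.Agent.S5426
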