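import Cfsg.Statements.S5427
import Cfsg.Agent.S5421
import Cfsg.Agent.S5422
import Cfsg.Agent.Lib.Helper30.Basic

set_option autoImplicit false
open Cfsg

namespace Cfsg.Agent.S5427

open Cfsg.Agent.Lib.Helper92

theorem nilp_of_comm (K : Type*) [Group K] (h : ∀ a b : K, a * b = b * a) :
    Group.IsNilpotent K := by
  letI : CommGroup K := { ‹Group K› with mul_comm := h }
  exact CommGroup.isNilpotent

/-- From `F*(C_G(z)) = Q` extraspecial: `z ∈ Q`, `Z(Q) = ⟨z⟩`, `C_G(Q) = Z(Q)` and `C_G(Z(Q))`
normalizes `Q`. -/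
theorem setup {G : Type*} [Group G] [Finite G] (z : G) (hz : orderOf z = 2) (Q : Subgroup G)
    (hQC : Q ≤ Subgroup.centralizer ({z} : Set G))
    (hF : (Cfsg.generalizedFittingSubgroup ↥(Subgroup.centralizer ({z} : Set G))).map
      (Subgroup.centralizer ({z} : Set G)).subtype = Q)
    (hQ : Cfsg.IsExtraspecial 2 ↥Q) :
    z ∈ Q ∧ (∀ x : G, x ∈ (Subgroup.center ↥Q).map Q.subtype ↔ x = 1 ∨ x = z) ∧
    Subgroup.centralizer (Q : Set G) = (Subgroup.center ↥Q).map Q.subtype ∧
    Subgroup.centralizer (((Subgroup.center ↥Q).map Q.subtype : Subgroup G) : Set G) ≤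
      Subgroup.normalizer (Q : Set G) := by
  have hz1 : z ≠ 1 := by
    intro h
    rw [h, orderOf_one] at hz
    exact absurd hz (by norm_num)
  have hcomm : ∀ q ∈ Q, z * q = q * z := by
    intro q hq
    have h1 := Subgroup.mem_centralizer_iff.mp (hQC hq) z rfl
    exact h1
  have hzC : z ∈ Subgroup.centralizer ({z} : Set G) :=
    Subgroup.mem_centralizer_iff.mpr (by rintro _ rfl; rfl)
  have hmemC : ∀ x : G, x * z = z * x → x ∈ Subgroup.centralizer ({z} : Set G) := by
    intro x hx
    exact Subgroup.mem_centralizer_iff.mpr (by rintro _ rfl; exact hx.symm)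
  -- `z ∈ Q`
  have hzQ : z ∈ Q := by
    rw [← hF]
    refine ⟨⟨z, hzC⟩, ?_, rfl⟩
    have h1 : (⟨z, hzC⟩ : ↥(Subgroup.centralizer ({z} : Set G))) ∈
        Subgroup.center ↥(Subgroup.centralizer ({z} : Set G)) := by
      rw [Subgroup.mem_center_iff]
      intro c
      apply Subtype.ext
      show (c : G) * z = z * c
      exact (Subgroup.mem_centralizer_iff.mp c.2 z rfl).symm
    have h2 : Subgroup.center ↥(Subgroup.centralizer ({z} : Set G)) ≤
        Cfsg.fittingSubgroup ↥(Subgroup.centralizer ({z} : Set G)) :=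
      le_sSup ⟨inferInstance, nilp_of_comm _ (fun a b =>
        Subtype.ext (Subgroup.mem_center_iff.mp b.2 a.1))⟩
    exact Cfsg.Agent.Lib.Helper30.fitting_le_genFitting (h2 h1)
  obtain ⟨z', hz'Z, hz'1, hz'z', hz'all, hz'c⟩ := extraspecial_center_gen Q hQ
  have hzZ : z ∈ (Subgroup.center ↥Q).map Q.subtype := by
    refine ⟨⟨z, hzQ⟩, Subgroup.mem_center_iff.mpr ?_, rfl⟩
    intro q
    apply Subtype.ext
    show (q : G) * z = z * q
    exact (hcomm q q.2).symm
  have hzz' : z = z' := by
    rcases hz'all z hzZ with h | h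
    · exact absurd h hz1
    · exact h
  subst hzz'
  have hmem : ∀ x : G, x ∈ (Subgroup.center ↥Q).map Q.subtype ↔ x = 1 ∨ x = z := by
    intro x
    constructor
    · exact hz'all x
    · rintro (rfl | rfl)
      · exact Subgroup.one_mem _
      · exact hzZ
  refine ⟨hzQ, hmem, ?_, ?_⟩
  · apply le_antisymm
    · intro x hx
      have hxQ : ∀ q ∈ Q, q * x = x * q := fun q hq => Subgroup.mem_centralizer_iff.mp hx q hq
      have hxC : x ∈ Subgroup.centralizer ({z} : Set G) := hmemC x (hxQ z hzQ).symm
      have h1 : (⟨x, hxC⟩ : ↥(Subgroup.centralizer ({z} : Set G))) ∈ Subgroup.centralizer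
          ((Cfsg.generalizedFittingSubgroup ↥(Subgroup.centralizer ({z} : Set G)) :
            Subgroup ↥(Subgroup.centralizer ({z} : Set G))) :
            Set ↥(Subgroup.centralizer ({z} : Set G))) := by
        rw [Subgroup.mem_centralizer_iff]
        intro f hf
        apply Subtype.ext
        show (f : G) * x = x * f
        apply hxQ
        rw [← hF]
        exact ⟨f, hf, rfl⟩
      have h2 := Cfsg.Agent.Lib.Helper30.centralizer_genFitting_le h1
      have hxQ' : x ∈ Q := by
        rw [← hF]
        exact ⟨_, h2, rfl⟩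
      refine ⟨⟨x, hxQ'⟩, Subgroup.mem_center_iff.mpr ?_, rfl⟩
      intro q
      apply Subtype.ext
      show (q : G) * x = x * q
      exact hxQ q q.2
    · rintro _ ⟨y, hy, rfl⟩
      rw [Subgroup.mem_centralizer_iff]
      intro q hq
      have h1 := Subgroup.mem_center_iff.mp hy ⟨q, hq⟩
      exact congrArg Subtype.val h1
  · intro x hx
    have hxz : z * x = x * z := Subgroup.mem_centralizer_iff.mp hx z hzZ
    have hxC : x ∈ Subgroup.centralizer ({z} : Set G) := hmemC x hxz.symm
    apply mem_normalizer_of_conj_mem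
    intro q hq
    rw [← hF] at hq ⊢
    obtain ⟨f, hf, rfl⟩ := hq
    have hn : (Cfsg.generalizedFittingSubgroup ↥(Subgroup.centralizer ({z} : Set G))).Normal :=
      Cfsg.Agent.Lib.Helper30.genFitting_normal
    exact ⟨⟨x, hxC⟩ * f * ⟨x, hxC⟩⁻¹, hn.conj_mem f hf ⟨x, hxC⟩, rfl⟩

/-- Simplicity from largeness when every normal subgroup containing `z` contains `C_G(z)`. -/
theorem simple_of_large {G : Type*} [Group G] [Finite G] (z : G) (hz : orderOf z = 2)
    (Q : Subgroup G) (hQC : Q ≤ Subgroup.centralizer ({z} : Set G))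
    (hzQ : z ∈ Q)
    (hmem : ∀ x : G, x ∈ (Subgroup.center ↥Q).map Q.subtype ↔ x = 1 ∨ x = z)
    (hL : Cfsg.IsLargeExtraspecial Q)
    (hN : ∀ N : Subgroup G, N.Normal → z ∈ N → Subgroup.centralizer ({z} : Set G) ≤ N) :
    IsSimpleGroup G := by
  have : Fact (Nat.Prime 2) := ⟨Nat.prime_two⟩
  obtain ⟨hL1, hL2, hL3, hL4⟩ := hL
  have hz1 : z ≠ 1 := by
    intro h
    rw [h, orderOf_one] at hz
    exact absurd hz (by norm_num)
  have hzz : z * z = 1 := by
    have h1 := pow_orderOf_eq_one z
    rwa [hz, pow_two] at h1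
  have hzinv : z⁻¹ = z := inv_eq_of_mul_eq_one_left hzz
  have hzZ : z ∈ (Subgroup.center ↥Q).map Q.subtype := (hmem z).2 (Or.inr rfl)
  have hmemC : ∀ x : G, x * z = z * x → x ∈ Subgroup.centralizer ({z} : Set G) := by
    intro x hx
    exact Subgroup.mem_centralizer_iff.mpr (by rintro _ rfl; exact hx.symm)
  have hnt : Nontrivial G := ⟨⟨z, 1, hz1⟩⟩
  refine { toNontrivial := hnt, eq_bot_or_eq_top_of_normal := ?_ }
  intro N hNn
  by_cases hzN : z ∈ N
  · right
    have hCN := hN N hNn hzN
    -- a Sylow 2-subgroup containing `Q`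
    obtain ⟨T, hQT⟩ := IsPGroup.exists_le_sylow (p := 2) (P := Q) hL1.1.1
    -- the centre of `T` is `⟨z⟩`
    have hTnt : Nontrivial ↥(T : Subgroup G) := ⟨⟨⟨z, hQT hzQ⟩, 1, fun h => hz1 (congrArg Subtype.val h)⟩⟩
    have hTcen : ∀ t : ↥(T : Subgroup G), t ∈ Subgroup.center ↥(T : Subgroup G) →
        (t : G) = 1 ∨ (t : G) = z := by
      intro t ht
      apply (hmem _).1
      rw [← hL2, Subgroup.mem_centralizer_iff]
      intro q hq
      have h1 := Subgroup.mem_center_iff.mp ht ⟨q, hQT hq⟩
      exact congrArg Subtype.val h1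
    obtain ⟨t, htc, ht1⟩ : ∃ t : ↥(T : Subgroup G), t ∈ Subgroup.center ↥(T : Subgroup G) ∧ t ≠ 1 := by
      have h1 := T.2.center_nontrivial
      obtain ⟨⟨t, ht⟩, ht1⟩ := exists_ne (1 : Subgroup.center ↥(T : Subgroup G))
      exact ⟨t, ht, fun h => ht1 (Subtype.ext h)⟩
    have htz : (t : G) = z := by
      rcases hTcen t htc with h | h
      · exact absurd (Subtype.ext h) ht1
      · exact h
    have hTC : (T : Subgroup G) ≤ Subgroup.centralizer ({z} : Set G) := by
      intro x hx
      apply hmemC
      have h1 := Subgroup.mem_center_iff.mp htc ⟨x, hx⟩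
      have h2 := congrArg Subtype.val h1
      rw [← htz]
      exact h2
    have hTN : (T : Subgroup G) ≤ N := hTC.trans hCN
    have hNT : Subgroup.normalizer ((T : Subgroup G) : Set G) ≤ N := by
      intro n hn
      apply hCN
      apply hmemC
      -- `n z n⁻¹` is central in `T`
      have h1 : n * z * n⁻¹ ∈ (T : Subgroup G) :=
        (Subgroup.mem_normalizer_iff.mp hn z).mp (hQT hzQ)
      have h2 : (⟨n * z * n⁻¹, h1⟩ : ↥(T : Subgroup G)) ∈ Subgroup.center ↥(T : Subgroup G) := by
        rw [Subgroup.mem_center_iff]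
        intro x
        apply Subtype.ext
        show (x : G) * (n * z * n⁻¹) = n * z * n⁻¹ * x
        have h3 : n⁻¹ * x * n ∈ (T : Subgroup G) := by
          have h4 := (Subgroup.mem_normalizer_iff.mp (Subgroup.inv_mem _ hn) (x : G)).mp x.2
          simpa using h4
        have h5 := Subgroup.mem_center_iff.mp htc ⟨n⁻¹ * x * n, h3⟩
        have h6 : n⁻¹ * x * n * z = z * (n⁻¹ * x * n) := by
          have h7 := congrArg Subtype.val h5
          rw [← htz]
          exact h7
        calc (x : G) * (n * z * n⁻¹) = n * (n⁻¹ * x * n * z) * n⁻¹ := by group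
          _ = n * (z * (n⁻¹ * x * n)) * n⁻¹ := by rw [h6]
          _ = n * z * n⁻¹ * x := by group
      rcases hTcen _ h2 with h3 | h3
      · exfalso
        apply hz1
        have h4 : n * z * n⁻¹ = 1 := h3
        have h5 : z = n⁻¹ * (n * z * n⁻¹) * n := by group
        rw [h5, h4]; group
      · have h4 : n * z * n⁻¹ = z := h3
        calc n * z = n * z * n⁻¹ * n := by group
          _ = z * n := by rw [h4]
    have hfr := Sylow.normalizer_sup_eq_top' T hTN
    apply top_le_iff.mp
    rw [← hfr]
    exact sup_le hNT le_rfl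
  · left
    -- `C_N(z) = 1`
    have hfix : ∀ n ∈ N, z * n = n * z → n = 1 := by
      intro n hn hnz
      have hnC : n ∈ Subgroup.centralizer ({z} : Set G) := hmemC n hnz.symm
      have hnZ : n ∈ Subgroup.centralizer (((Subgroup.center ↥Q).map Q.subtype : Subgroup G) : Set G) := by
        rw [Subgroup.mem_centralizer_iff]
        intro x hx
        rcases (hmem x).1 hx with rfl | rfl
        · simp
        · exact hnz
      have hnN := hL3 hnZ
      have hnQ : n ∈ Subgroup.centralizer (Q : Set G) := by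
        rw [Subgroup.mem_centralizer_iff]
        intro q hq
        by_contra hne
        -- the commutator `n q n⁻¹ q⁻¹` lies in `N ∩ Q`
        have h1 : n * q * n⁻¹ ∈ Q := (Subgroup.mem_normalizer_iff.mp hnN q).mp hq
        have h2 : n * q * n⁻¹ * q⁻¹ ∈ Q := Q.mul_mem h1 (Q.inv_mem hq)
        have h3 : n * q * n⁻¹ * q⁻¹ ∈ N := by
          have h4 : q * n⁻¹ * q⁻¹ ∈ N := hNn.conj_mem _ (N.inv_mem hn) q
          have h5 : n * q * n⁻¹ * q⁻¹ = n * (q * n⁻¹ * q⁻¹) := by group
          rw [h5]
          exact N.mul_mem hn h4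
        have h6 : n * q * n⁻¹ * q⁻¹ ≠ 1 := by
          intro h7
          apply hne
          have h8 : n * q = n * q * n⁻¹ * q⁻¹ * (q * n) := by group
          rw [h8, h7, one_mul]
        -- a nontrivial element of `N ∩ Q` forces `z ∈ N`
        set c := n * q * n⁻¹ * q⁻¹ with hc
        by_cases hcZ : c ∈ (Subgroup.center ↥Q).map Q.subtype
        · rcases (hmem c).1 hcZ with h7 | h7
          · exact h6 h7
          · exact hzN (h7 ▸ h3)
        · obtain ⟨r, hr, hrc⟩ := extraspecial_conj Q hL1 (fun x hx => (hmem x).1 hx)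
            (fun q hq => (Subgroup.mem_centralizer_iff.mp (hQC hq) z rfl).symm) h2 hcZ
          apply hzN
          have h7 : z = c⁻¹ * (r * c * r⁻¹) := by rw [hrc]; group
          rw [h7]
          exact N.mul_mem (N.inv_mem h3) (hNn.conj_mem c h3 r)
      rw [hL2] at hnQ
      rcases (hmem n).1 hnQ with h | h
      · exact h
      · exact absurd (h ▸ hn) hzN
    -- conjugation by `z` is a fixed-point-free involution of `N`
    let φ : ↥N →* ↥N := (MulAut.conjNormal z : MulAut ↥N).toMonoidHom
    have hφ : ∀ n : ↥N, ((φ n : ↥N) : G) = z * n * z⁻¹ := fun n => MulAut.conjNormal_apply z n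
    have hfpf : MonoidHom.FixedPointFree φ := by
      intro n hn
      have h1 : z * (n : G) * z⁻¹ = n := by rw [← hφ, hn]
      have h2 : z * (n : G) = n * z := by
        calc z * (n : G) = z * n * z⁻¹ * z := by group
          _ = n * z := by rw [h1]
      exact Subtype.ext (hfix n n.2 h2)
    have hinv : Function.Involutive φ := by
      intro n
      apply Subtype.ext
      rw [hφ, hφ, hzinv]
      calc z * (z * (n : G) * z) * z = (z * z) * n * (z * z) := by group
        _ = n := by rw [hzz, one_mul, mul_one]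
    have hodd : Odd (Nat.card ↥N) := hfpf.odd_card_of_involutive hinv
    exact hL4 N hodd (fun q _ => mem_normalizer_of_conj_mem (fun v hv => hNn.conj_mem v hv q))

/-- Let z be an involution of the finite group G whose centralizer C has generalized Fitting subgroup Q, an extraspecial 2-group of width at least 2 (order 2^(2w+1), w ≥ 2). Let K be a subgroup of G such that the subgroup U generated by the K-conjugates of z is abelian and C is generated by the C-conjugates of U. Suppose that either some K-conjugate of z other than z lies in Q, or some element u of U ∩ Q outside the subgroup generated by z has z in the largest normal 2-subgroup of its centralizer. Then G is simple and Q is a large extraspecial 2-subgroup of G. -/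
theorem result {G : Type*} [Group G] [Finite G] (z : G) (hz : orderOf z = 2) (Q : Subgroup G) (hQC : Q ≤ Subgroup.centralizer ({z} : Set G)) (hF : (Cfsg.generalizedFittingSubgroup ↥(Subgroup.centralizer ({z} : Set G))).map (Subgroup.centralizer ({z} : Set G)).subtype = Q) (hQ : Cfsg.IsExtraspecial 2 ↥Q) (w : ℕ) (hw : 2 ≤ w) (hcard : Nat.card ↥Q = 2 ^ (2 * w + 1)) (K U : Subgroup G) (hU : U = Subgroup.closure {x : G | ∃ k ∈ K, x = k * z * k⁻¹}) (hUab : IsMulCommutative ↥U) (hgen : Subgroup.closure {x : G | ∃ c ∈ Subgroup.centralizer ({z} : Set G), ∃ u ∈ U, x = c * u * c⁻¹} = Subgroup.centralizer ({z} : Set G)) (h3 : (∃ k ∈ K, k * z * k⁻¹ ∈ Q ∧ k * z * k⁻¹ ≠ z) ∨ ∃ u ∈ U ⊓ Q, u ∉ Subgroup.zpowers z ∧ (∃ hz' : z ∈ Subgroup.centralizer ({u} : Set G), (⟨z, hz'⟩ : ↥(Subgroup.centralizer ({u} : Set G))) ∈ Cfsg.pCore 2 ↥(Subgroup.centralizer ({u} : Set G)))) : IsSimpleGroup G ∧ Cfsg.IsLargeExtraspecial Q := by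
  obtain ⟨hzQ, hmem, hL2, hL3⟩ := setup z hz Q hQC hF hQ
  have hz1 : z ≠ 1 := by
    intro h
    rw [h, orderOf_one] at hz
    exact absurd hz (by norm_num)
  have hzz : z * z = 1 := by
    have h1 := pow_orderOf_eq_one z
    rwa [hz, pow_two] at h1
  have hlarge : Cfsg.IsLargeExtraspecial Q := by
    rcases h3 with ⟨k, -, hkQ, hkz⟩ | ⟨u, hu, huz, hz', hzO⟩
    · refine (Cfsg.Agent.S5422.result Q hQ hL2 hL3 w hw hcard k ?_ ?_).2.2
      · intro hk
        apply hkz
        have h1 : k * z * k⁻¹ ∈ (Subgroup.center ↥Q).map Q.subtype :=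
          (Subgroup.mem_normalizer_iff.mp hk z).mp ((hmem z).2 (Or.inr rfl))
        rcases (hmem _).1 h1 with h2 | h2
        · exfalso
          apply hz1
          have h5 : z = k⁻¹ * (k * z * k⁻¹) * k := by group
          rw [h5, h2]; group
        · exact h2
      · rintro _ ⟨x, hx, rfl⟩
        rcases (hmem x).1 hx with rfl | rfl
        · simp
        · simpa [MulAut.conj_apply] using hkQ
    · have huU : u ∈ U := hu.1
      have huQ : u ∈ Q := hu.2
      have hu1 : u ≠ 1 := fun h => huz (h ▸ Subgroup.one_mem _)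
      -- every element of `U` squares to one
      have hsq : ∀ x ∈ U, x * x = 1 := by
        intro x hx
        rw [hU] at hx
        induction hx using Subgroup.closure_induction with
        | mem y hy =>
          obtain ⟨k, -, rfl⟩ := hy
          calc k * z * k⁻¹ * (k * z * k⁻¹) = k * (z * z) * k⁻¹ := by group
            _ = 1 := by rw [hzz]; group
        | one => simp
        | mul a b ha hb iha ihb =>
          have hab : a * b = b * a := by
            have h1 := hUab.is_comm.comm ⟨a, hU ▸ ha⟩ ⟨b, hU ▸ hb⟩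
            exact congrArg Subtype.val h1
          calc a * b * (a * b) = a * (b * a) * b := by group
            _ = a * (a * b) * b := by rw [hab]
            _ = (a * a) * (b * b) := by group
            _ = 1 := by rw [iha, ihb, one_mul]
        | inv a ha iha =>
          calc a⁻¹ * a⁻¹ = (a * a)⁻¹ := by group
            _ = 1 := by rw [iha, inv_one]
      have huo : orderOf u = 2 := by
        apply orderOf_eq_prime
        · rw [pow_two]; exact hsq u huU
        · exact hu1
      refine Cfsg.Agent.S5421.result Q hQ hL2 hL3 u huQ ?_ huo ?_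
      · intro h
        rcases (hmem u).1 h with h1 | h1
        · exact hu1 h1
        · exact huz (h1 ▸ Subgroup.mem_zpowers z)
      · intro x hx
        rcases (hmem x).1 hx with rfl | rfl
        · exact Subgroup.one_mem _
        · exact ⟨⟨x, hz'⟩, hzO, rfl⟩
  refine ⟨simple_of_large z hz Q hQC hzQ hmem hlarge ?_, hlarge⟩
  intro N hNn hzN
  rw [← hgen, Subgroup.closure_le]
  rintro _ ⟨c, -, u, hu, rfl⟩
  apply hNn.conj_mem
  have hUN : U ≤ N := by
    rw [hU, Subgroup.closure_le]
    rintro _ ⟨k, -, rfl⟩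
    exact hNn.conj_mem z hzN k
  exact hUN hu

end Cfsg.Agent.S5427
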