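import Cfsg.Statements.S5434
import Mathlib
import Cfsg.Agent.S0057
import Cfsg.Agent.Lib.Helper94.LargeExtra
import Cfsg.Agent.Lib.Helper92.LargeExtra
import Cfsg.Agent.Lib.Helper72.Frattini

set_option autoImplicit false
open Cfsg

namespace Cfsg.Agent.S5434

open Cfsg.Agent.Lib.Helper94 Cfsg.Agent.Lib.Helper92 Cfsg.Agent.Lib.Helper72
open scoped commutatorElement

variable {G : Type*} [Group G]

theorem isExtraspecial_of_extraAt [Finite G] (R : Subgroup G) (z : G) (h : ExtraAt R z)
    (hne : ∃ u ∈ R, u ≠ 1 ∧ u ≠ z) : Cfsg.IsExtraspecial 2 ↥R := by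
  haveI : Fact (Nat.Prime 2) := ⟨Nat.prime_two⟩
  have hP : IsPGroup 2 ↥R := by
    intro u
    refine ⟨2, ?_⟩
    apply Subtype.ext
    have hu := h.sqmem u.1 u.2
    rw [Subgroup.coe_pow]
    have e : (u : G) ^ 2 ^ 2 = ((u : G) * u) * ((u : G) * u) := by
      norm_num [pow_succ, mul_assoc]
    rw [e]
    rcases hu with hu | hu
    · rw [hu, one_mul]; rfl
    · rw [hu, h.sq]; rfl
  obtain ⟨zR, hzR⟩ : ∃ zR : ↥R, (zR : G) = z := ⟨⟨z, h.mem⟩, rfl⟩
  have hzc : zR ∈ Subgroup.center ↥R := by
    rw [Subgroup.mem_center_iff]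
    intro u
    apply Subtype.ext
    rw [Subgroup.coe_mul, Subgroup.coe_mul, hzR]
    exact h.central u.1 u.2
  have hcen : ∀ w : ↥R, w ∈ Subgroup.center ↥R ↔ w = 1 ∨ w = zR := by
    intro w
    constructor
    · intro hw
      have := h.center w.1 w.2 (fun v hv => by
        have := Subgroup.mem_center_iff.1 hw ⟨v, hv⟩
        exact (congrArg Subtype.val this).symm)
      rcases this with h1 | h1
      · left; exact Subtype.ext h1
      · right; exact Subtype.ext (h1.trans hzR.symm)
    · rintro (rfl | rfl)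
      · exact Subgroup.one_mem _
      · exact hzc
  obtain ⟨u, huR, hu1, huz⟩ := hne
  have hnc : ∃ v ∈ R, u * v * u⁻¹ * v⁻¹ = z := by
    by_contra hcon
    push Not at hcon
    have : ∀ v ∈ R, u * v = v * u := by
      intro v hv
      rcases h.comm u huR v hv with h1 | h1
      · calc u * v = (u * v * u⁻¹ * v⁻¹) * (v * u) := by group
          _ = v * u := by rw [h1, one_mul]
      · exact absurd h1 (hcon v hv)
    rcases h.center u huR this with h1 | h1
    · exact hu1 h1
    · exact huz h1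
  obtain ⟨v, hvR, huv⟩ := hnc
  have e : (⟨u, huR⟩ : ↥R) * ⟨v, hvR⟩ * (⟨u, huR⟩ : ↥R)⁻¹ * (⟨v, hvR⟩ : ↥R)⁻¹ = zR :=
    Subtype.ext (huv.trans hzR.symm)
  have hzcomm : zR ∈ commutator ↥R := by
    rw [← e, commutator_def]
    exact Subgroup.commutator_mem_commutator (Subgroup.mem_top _) (Subgroup.mem_top _)
  have hzfr : zR ∈ frattini ↥R := by
    have := comm_mem_frattini hP (⟨u, huR⟩ : ↥R) (⟨v, hvR⟩ : ↥R)
    rwa [e] at this
  have hsq : ∀ x : ↥R, x ^ 2 ∈ Subgroup.center ↥R := by
    intro x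
    rw [hcen]
    rcases h.sqmem x.1 x.2 with h1 | h1
    · left; apply Subtype.ext; rw [Subgroup.coe_pow, pow_two]; exact h1
    · right; apply Subtype.ext; rw [Subgroup.coe_pow, pow_two, hzR]; exact h1
  have hcm : ∀ x y : ↥R, x * y * x⁻¹ * y⁻¹ ∈ Subgroup.center ↥R := by
    intro x y
    rw [hcen]
    rcases h.comm x.1 x.2 y.1 y.2 with h1 | h1
    · left; apply Subtype.ext; exact h1
    · right; apply Subtype.ext; exact h1.trans hzR.symm
  refine ⟨⟨hP, ?_, ?_⟩, ?_⟩
  · apply le_antisymm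
    · exact frattini_le_of_forall_pow_mem Nat.prime_two _ hsq hcm
    · intro w hw
      rcases (hcen w).1 hw with rfl | rfl
      · exact Subgroup.one_mem _
      · exact hzfr
  · apply le_antisymm
    · rw [commutator_def, Subgroup.commutator_le]
      intro x _ y _
      exact hcm x y
    · intro w hw
      rcases (hcen w).1 hw with rfl | rfl
      · exact Subgroup.one_mem _
      · exact hzcomm
  · rw [Nat.card_eq_two_iff]
    refine ⟨⟨1, Subgroup.one_mem _⟩, ⟨zR, hzc⟩, ?_, ?_⟩
    · intro heq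
      apply h.ne_one
      have := congrArg (fun t : Subgroup.center ↥R => ((t : ↥R) : G)) heq
      exact hzR.symm.trans this.symm
    · ext w
      simp only [Set.mem_insert_iff, Set.mem_singleton_iff, Set.mem_univ, iff_true]
      rcases (hcen w.1).1 w.2 with h1 | h1
      · left; exact Subtype.ext h1
      · right; exact Subtype.ext h1

theorem comm_aux {x q a z : G} (hxa : x * a = a * x) (hza : z * a = a * z) (hzq : z * q = q * z)
    (hxq : x * q * x⁻¹ * q⁻¹ = z) : x * (q * a * q⁻¹ * a⁻¹) = (q * a * q⁻¹ * a⁻¹) * x := by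
  have h1 : x * q * x⁻¹ = z * q := by
    calc x * q * x⁻¹ = (x * q * x⁻¹ * q⁻¹) * q := by group
      _ = z * q := by rw [hxq]
  have h2 : x * a * x⁻¹ = a := by rw [hxa]; group
  have hzq' : Commute z q := hzq
  have hza' : Commute z a := hza
  have h3 : Commute z (q * a * q⁻¹) := (hzq'.mul_right hza').mul_right hzq'.inv_right
  have h4 : x * (q * a * q⁻¹ * a⁻¹) * x⁻¹ = q * a * q⁻¹ * a⁻¹ := by
    calc x * (q * a * q⁻¹ * a⁻¹) * x⁻¹
        = (x * q * x⁻¹) * (x * a * x⁻¹) * (x * q * x⁻¹)⁻¹ * (x * a * x⁻¹)⁻¹ := by group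
      _ = (z * q) * a * (z * q)⁻¹ * a⁻¹ := by rw [h1, h2]
      _ = z * (q * a * q⁻¹) * z⁻¹ * a⁻¹ := by group
      _ = (q * a * q⁻¹) * z * z⁻¹ * a⁻¹ := by rw [h3.eq]
      _ = q * a * q⁻¹ * a⁻¹ := by group
  calc x * (q * a * q⁻¹ * a⁻¹) = (x * (q * a * q⁻¹ * a⁻¹) * x⁻¹) * x := by group
    _ = (q * a * q⁻¹ * a⁻¹) * x := by rw [h4]

theorem main [Finite G] (Q : Subgroup G) (hQ : Cfsg.IsLargeExtraspecial Q) (A : Subgroup G)
    (hA : A ≤ Subgroup.normalizer (Q : Set G)) (hAodd : Odd (Nat.card ↥A)) (hA1 : A ≠ ⊥)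
    (C D : Subgroup G) (hCdef : C = Q ⊓ Subgroup.centralizer (A : Set G)) (hD : D = ⁅Q, A⁆) :
    C ⊔ D = Q ∧ (∀ x ∈ C, ∀ y ∈ D, x * y = y * x) ∧ Cfsg.IsExtraspecial 2 ↥D ∧
      (C = ((Subgroup.center ↥Q).map Q.subtype) ∨ Cfsg.IsExtraspecial 2 ↥C) := by
  haveI : Fact (Nat.Prime 2) := ⟨Nat.prime_two⟩
  obtain ⟨hE, hCQ, hN, hodd⟩ := hQ
  obtain ⟨z, hzZ, hz1, hzz, hzall, hzc⟩ := extraspecial_center_gen Q hE
  have hzQ : z ∈ Q := Subgroup.map_subtype_le _ hzZ
  have hex : ExtraAt Q z := extraAt_of_isExtraspecial Q z hE hzQ hz1 hzz (fun u hu => hzc u hu)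
  have hAQ : ∀ a ∈ A, ∀ q ∈ Q, a * q * a⁻¹ ∈ Q := by
    intro a ha q hq
    exact (Subgroup.mem_normalizer_iff.1 (hA ha) q).1 hq
  have hAz : ∀ a ∈ A, a * z = z * a := by
    intro a ha
    have h1 : a * z * a⁻¹ ∈ Q := hAQ a ha z hzQ
    have h2 : ∀ v ∈ Q, a * z * a⁻¹ * v = v * (a * z * a⁻¹) := by
      intro v hv
      have hv' : a⁻¹ * v * a ∈ Q := by
        have := hAQ a⁻¹ (A.inv_mem ha) v hv
        simpa using this
      have := hzc _ hv'
      calc a * z * a⁻¹ * v = a * (z * (a⁻¹ * v * a)) * a⁻¹ := by group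
        _ = a * ((a⁻¹ * v * a) * z) * a⁻¹ := by rw [this]
        _ = v * (a * z * a⁻¹) := by group
    rcases hex.center _ h1 h2 with h3 | h3
    · exfalso; apply hz1
      calc z = a⁻¹ * (a * z * a⁻¹) * a := by group
        _ = 1 := by rw [h3]; group
    · calc a * z = (a * z * a⁻¹) * a := by group
        _ = z * a := by rw [h3]
  have hDQ : D ≤ Q := by
    rw [hD, Subgroup.commutator_le]
    intro q hq a ha
    have : ⁅q, a⁆ = q * (a * q⁻¹ * a⁻¹) := by rw [commutatorElement_def]; group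
    rw [this]
    exact Q.mul_mem hq (hAQ a ha _ (Q.inv_mem hq))
  have hconjD : ∀ a ∈ A, ∀ d ∈ D, a * d * a⁻¹ ∈ D := by
    intro a ha
    have hle : D ≤ D.comap (MulAut.conj a).toMonoidHom := by
      nth_rewrite 1 [hD]
      rw [Subgroup.commutator_le]
      intro q hq a' ha'
      rw [Subgroup.mem_comap]
      show (MulAut.conj a) ⁅q, a'⁆ ∈ D
      rw [map_commutatorElement, hD]
      apply Subgroup.commutator_mem_commutator
      · rw [MulAut.conj_apply]; exact hAQ a ha q hq
      · rw [MulAut.conj_apply]; exact A.mul_mem (A.mul_mem ha ha') (A.inv_mem ha)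
    intro d hd
    have := hle hd
    rw [Subgroup.mem_comap] at this
    exact this
  have hAD : A ≤ Subgroup.normalizer (D : Set G) := by
    intro a ha
    rw [Subgroup.mem_normalizer_iff]
    intro d
    constructor
    · exact hconjD a ha d
    · intro h
      have := hconjD a⁻¹ (A.inv_mem ha) _ h
      have e : a⁻¹ * (a * d * a⁻¹) * a⁻¹⁻¹ = d := by group
      rwa [e] at this
  have hPQ : IsPGroup 2 ↥Q := hE.1.1
  have hPD : IsPGroup 2 ↥D := hPQ.to_le hDQ
  have hcop : (Nat.card A).Coprime (Nat.card D) := by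
    obtain ⟨n, hn⟩ := IsPGroup.iff_card.1 hPD
    rw [hn]
    exact Nat.Coprime.pow_right n (Nat.coprime_two_right.mpr hAodd)
  have hsolv : Group.IsSolvable ↥D := by
    haveI : Group.IsNilpotent ↥D := hPD.isNilpotent
    infer_instance
  have hzC : z ∈ C := by
    rw [hCdef]
    have hzA : z ∈ Subgroup.centralizer (A : Set G) := by
      rw [Subgroup.mem_centralizer_iff]
      intro a ha
      exact hAz a ha
    exact ⟨hzQ, hzA⟩
  have h1 : C ⊔ D = Q := by
    apply le_antisymm (sup_le (by rw [hCdef]; exact inf_le_left) hDQ)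
    intro k hk
    obtain ⟨n, hn, hnk⟩ := Cfsg.Agent.S0057.lift_fix hAD hcop (Or.inr hsolv) k
      (fun a ha => by rw [hD]; exact Subgroup.commutator_mem_commutator hk ha)
    have e : k = n * (n⁻¹ * k) := by group
    rw [e]
    refine Subgroup.mul_mem _ (Subgroup.mem_sup_right hn) (Subgroup.mem_sup_left ?_)
    rw [hCdef]
    exact ⟨Q.mul_mem (Q.inv_mem (hDQ hn)) hk, hnk⟩
  have h2 : ∀ x ∈ C, ∀ y ∈ D, x * y = y * x := by
    intro x hx
    rw [hCdef] at hx
    have hle : D ≤ Subgroup.centralizer ({x} : Set G) := by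
      rw [hD, Subgroup.commutator_le]
      intro q hq a ha
      rw [Subgroup.mem_centralizer_iff]
      intro w hw
      rw [Set.mem_singleton_iff] at hw; subst hw
      have hxa : w * a = a * w := ((Subgroup.mem_centralizer_iff.1 hx.2) a ha).symm
      rcases hex.comm w hx.1 q hq with h | h
      · have hxq : Commute w q := by
          show w * q = q * w
          calc w * q = (w * q * w⁻¹ * q⁻¹) * (q * w) := by group
            _ = q * w := by rw [h, one_mul]
        have hxa' : Commute w a := hxa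
        exact (((hxq.mul_right hxa').mul_right hxq.inv_right).mul_right hxa'.inv_right).eq
      · exact comm_aux hxa (hAz a ha).symm (hzc q hq).symm h
    intro y hy
    exact (Subgroup.mem_centralizer_iff.1 (hle hy) x rfl)
  have hcenter : ∀ u ∈ Q, (∀ v ∈ C, u * v = v * u) → (∀ v ∈ D, u * v = v * u) → u = 1 ∨ u = z := by
    intro u hu hc hd
    apply hex.center u hu
    have hle : C ⊔ D ≤ Subgroup.centralizer ({u} : Set G) := by
      apply sup_le
      · intro v hv
        rw [Subgroup.mem_centralizer_iff]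
        intro w hw
        rw [Set.mem_singleton_iff] at hw; subst hw
        exact hc v hv
      · intro v hv
        rw [Subgroup.mem_centralizer_iff]
        intro w hw
        rw [Set.mem_singleton_iff] at hw; subst hw
        exact hd v hv
    intro v hv
    rw [← h1] at hv
    exact Subgroup.mem_centralizer_iff.1 (hle hv) u rfl
  -- D is not contained in {1, z}
  have hDne : ∃ c ∈ D, c ≠ 1 ∧ c ≠ z := by
    by_contra hcon
    push Not at hcon
    have hDC : D ≤ C := by
      intro d hd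
      by_cases hd1 : d = 1
      · rw [hd1]; exact C.one_mem
      · rw [hcon d hd hd1]; exact hzC
    have hQC : Q ≤ C := by
      rw [← h1]; exact sup_le le_rfl hDC
    apply hA1
    rw [eq_bot_iff]
    intro a ha
    rw [Subgroup.mem_bot]
    have haC : a ∈ Subgroup.centralizer (Q : Set G) := by
      rw [Subgroup.mem_centralizer_iff]
      intro q hq
      have := hQC hq
      rw [hCdef] at this
      exact ((Subgroup.mem_centralizer_iff.1 this.2) a ha).symm
    rw [hCQ] at haC
    rcases hzall a haC with h | h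
    · exact h
    · exfalso
      have h2 : orderOf a = 2 := by
        rw [h]
        exact orderOf_eq_prime (by rw [pow_two]; exact hzz) hz1
      have h3 : orderOf a ∣ Nat.card A := by
        have := orderOf_dvd_natCard (⟨a, ha⟩ : A)
        rwa [Subgroup.orderOf_mk] at this
      rw [h2] at h3
      exact (Nat.not_even_iff_odd.2 hAodd) (even_iff_two_dvd.2 h3)
  have hexD_of : ∀ R : Subgroup G, R ≤ Q → z ∈ R →
      (∀ u ∈ R, (∀ v ∈ R, u * v = v * u) → u = 1 ∨ u = z) → ExtraAt R z := by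
    intro R hRQ hzR hcen
    exact ⟨hzR, hz1, hzz, fun u hu => hex.central u (hRQ hu), hcen,
      fun u hu v hv => hex.comm u (hRQ hu) v (hRQ hv), fun u hu => hex.sqmem u (hRQ hu)⟩
  have hcenD : ∀ u ∈ D, (∀ v ∈ D, u * v = v * u) → u = 1 ∨ u = z := by
    intro u hu hd
    exact hcenter u (hDQ hu) (fun v hv => (h2 v hv u hu).symm) hd
  have hcenC : ∀ u ∈ C, (∀ v ∈ C, u * v = v * u) → u = 1 ∨ u = z := by
    intro u hu hc
    have huQ : u ∈ Q := by rw [hCdef] at hu; exact hu.1
    exact hcenter u huQ hc (fun v hv => h2 u hu v hv)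
  have hzD : z ∈ D := by
    obtain ⟨c, hcD, hc1, hcz⟩ := hDne
    by_contra hzD
    have : ∀ v ∈ D, c * v = v * c := by
      intro v hv
      rcases hex.comm c (hDQ hcD) v (hDQ hv) with h | h
      · calc c * v = (c * v * c⁻¹ * v⁻¹) * (v * c) := by group
          _ = v * c := by rw [h, one_mul]
      · exfalso; apply hzD
        rw [← h]
        exact D.mul_mem (D.mul_mem (D.mul_mem hcD hv) (D.inv_mem hcD)) (D.inv_mem hv)
    rcases hcenD c hcD this with h | h
    · exact hc1 h
    · exact hcz h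
  refine ⟨h1, h2, isExtraspecial_of_extraAt D z (hexD_of D hDQ hzD hcenD) hDne, ?_⟩
  by_cases hCne : ∃ c ∈ C, c ≠ 1 ∧ c ≠ z
  · right
    exact isExtraspecial_of_extraAt C z
      (hexD_of C (by rw [hCdef]; exact inf_le_left) hzC hcenC) hCne
  · left
    push Not at hCne
    apply le_antisymm
    · intro c hc
      by_cases hc1 : c = 1
      · rw [hc1]; exact Subgroup.one_mem _
      · rw [hCne c hc hc1]; exact hzZ
    · intro c hc
      rcases hzall c hc with h | h
      · rw [h]; exact C.one_mem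
      · rw [h]; exact hzC

/-- Let Q be a large extraspecial 2-subgroup of the finite group G (extraspecial; centralizer equal to its centre; normal in the centralizer of its centre; normalizing no non-trivial subgroup of odd order), and A a non-trivial subgroup of odd order of the normalizer of Q. Then Q is the central product of the centralizer of A in Q and the commutator subgroup [Q, A] (they generate Q and commute elementwise), [Q, A] is extraspecial, and the centralizer of A in Q is either the centre of Q or extraspecial. -/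
theorem result {G : Type*} [Group G] [Finite G] (Q : Subgroup G) (hQ : Cfsg.IsLargeExtraspecial Q) (A : Subgroup G) (hA : A ≤ Subgroup.normalizer (Q : Set G)) (hAodd : Odd (Nat.card ↥A)) (hA1 : A ≠ ⊥) : (Q ⊓ Subgroup.centralizer (A : Set G)) ⊔ ⁅Q, A⁆ = Q ∧ (∀ x ∈ Q ⊓ Subgroup.centralizer (A : Set G), ∀ y ∈ ⁅Q, A⁆, x * y = y * x) ∧ Cfsg.IsExtraspecial 2 ↥⁅Q, A⁆ ∧ (Q ⊓ Subgroup.centralizer (A : Set G) = ((Subgroup.center ↥Q).map Q.subtype) ∨ Cfsg.IsExtraspecial 2 ↥(Q ⊓ Subgroup.centralizer (A : Set G))) :=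
  main Q hQ A hA hAodd hA1 _ _ rfl rfl

end Cfsg.Agent.S5434
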