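import Cfsg.Statements.S5428
import Cfsg.Agent.S5427
import Cfsg.Agent.S5434
import Cfsg.Agent.S0095
import Cfsg.Agent.Lib.Helper94.LargeExtra2
import Cfsg.Agent.Lib.Helper92.LargeExtra3
import Cfsg.Agent.Lib.Helper12.TwoComp

set_option autoImplicit false
open Cfsg

namespace Cfsg.Agent.S5428

open Cfsg.Agent.Lib.Helper94 Cfsg.Agent.Lib.Helper92

/-- A group whose order is not divisible by four, containing an involution `z`: every element lies
in the odd core or becomes so after multiplying by `z`. -/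
theorem two_odd {Y : Type*} [Group Y] [Finite Y] (z : Y) (hz : orderOf z = 2)
    (h4 : ¬ 4 ∣ Nat.card Y) (y : Y) : y ∈ Cfsg.oddCore Y ∨ y * z ∈ Cfsg.oddCore Y := by
  have : Fact (Nat.Prime 2) := ⟨Nat.prime_two⟩
  obtain ⟨P⟩ : Nonempty (Sylow 2 Y) := inferInstance
  have hPcyc : IsCyclic (P : Subgroup Y) := by
    obtain ⟨j, hj⟩ := IsPGroup.iff_card.mp P.2
    have hdvd : Nat.card (P : Subgroup Y) ∣ Nat.card Y := Subgroup.card_subgroup_dvd_card _
    have hj1 : j ≤ 1 := by
      by_contra hlt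
      apply h4
      have h1 : 4 ∣ 2 ^ j := by
        have h2 : (4 : ℕ) = 2 ^ 2 := by norm_num
        rw [h2]
        exact Nat.pow_dvd_pow 2 (by omega)
      exact h1.trans (hj ▸ hdvd)
    interval_cases j
    · have h1 : Nat.card (P : Subgroup Y) = 1 := by simpa using hj
      have h2 : Subsingleton (P : Subgroup Y) := (Nat.card_eq_one_iff_unique.mp h1).1
      exact isCyclic_of_subsingleton
    · have h1 : Nat.card (P : Subgroup Y) = 2 := by simpa using hj
      exact isCyclic_of_prime_card (p := 2) h1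
  obtain ⟨N, hN, hNodd, k, hk⟩ :=
    Cfsg.Agent.Lib.Helper12.exists_normal_two_complement_of_isCyclic_sylow P hPcyc
  have hNle : N ≤ Cfsg.oddCore Y := le_sSup ⟨hN, Nat.coprime_two_right.mpr hNodd⟩
  have hzN : z ∉ N := by
    intro hzN
    have h1 := orderOf_dvd_natCard (⟨z, hzN⟩ : N)
    rw [Subgroup.orderOf_mk, hz] at h1
    exact (Nat.not_even_iff_odd.mpr hNodd) (even_iff_two_dvd.mpr h1)
  have hk1 : k = 1 := by
    rcases Nat.lt_or_ge k 2 with h | h
    · interval_cases k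
      · exfalso
        rw [pow_zero] at hk
        have h1 : N = ⊤ := Subgroup.index_eq_one.mp hk
        exact hzN (h1 ▸ Subgroup.mem_top z)
      · rfl
    · exfalso
      apply h4
      have h1 : 4 ∣ N.index := by
        rw [hk]
        have h2 : (4 : ℕ) = 2 ^ 2 := by norm_num
        rw [h2]
        exact Nat.pow_dvd_pow 2 h
      exact h1.trans (Subgroup.index_dvd_card N)
  rw [hk1, pow_one] at hk
  by_cases hy : y ∈ N
  · left; exact hNle hy
  · right
    apply hNle
    exact (Subgroup.mul_mem_iff_of_index_two hk).mpr ⟨fun h => absurd h hy, fun h => absurd h hzN⟩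

section Main

variable {G : Type*} [Group G] [Finite G]

omit [Finite G] in
theorem mem_cent_sup (A : Subgroup G) (m : G) :
    m ∈ Subgroup.centralizer (A : Set G) ⊔ A ↔
      ∃ c a : G, (∀ a' ∈ A, c * a' = a' * c) ∧ a ∈ A ∧ m = c * a := by
  constructor
  · intro hm
    revert m
    apply sup_induction_left
    · exact ⟨1, 1, fun a' _ => by simp, A.one_mem, by simp⟩
    · rintro h hh y ⟨c, a, hc, ha, rfl⟩
      refine ⟨h * c, a, ?_, ha, by group⟩
      intro a' ha'
      have h1 : a' * h = h * a' := Subgroup.mem_centralizer_iff.mp hh a' ha'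
      rw [mul_assoc, hc a' ha', ← mul_assoc, ← h1, mul_assoc]
    · rintro k hk y ⟨c, a, hc, ha, rfl⟩
      refine ⟨c, k * a, hc, A.mul_mem hk ha, ?_⟩
      rw [← mul_assoc, ← hc k hk, mul_assoc]
  · rintro ⟨c, a, hc, ha, rfl⟩
    refine Subgroup.mul_mem_sup ?_ ha
    rw [Subgroup.mem_centralizer_iff]
    intro a' ha'
    exact (hc a' ha').symm

/-- The centralizer in `Q` of an odd order group of automorphisms is extraspecial when it is not
the centre. -/
theorem extraAt_fix (Q : Subgroup G) (z : G) (hlarge : Cfsg.IsLargeExtraspecial Q)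
    (hE : ExtraAt Q z)
    (hmem : ∀ x : G, x ∈ (Subgroup.center ↥Q).map Q.subtype ↔ x = 1 ∨ x = z)
    (A₁ : Subgroup G) (hA₁ : A₁ ≤ Subgroup.normalizer (Q : Set G)) (hodd : Odd (Nat.card A₁))
    (hz : ∀ a ∈ A₁, a * z = z * a) (y : G)
    (hy : y ∈ Q ⊓ Subgroup.centralizer (A₁ : Set G)) (hy1 : y ≠ 1) (hyz : y ≠ z) :
    ExtraAt (Q ⊓ Subgroup.centralizer (A₁ : Set G)) z := by
  have hzR : z ∈ Q ⊓ Subgroup.centralizer (A₁ : Set G) :=
    Subgroup.mem_inf.mpr ⟨hE.mem, Subgroup.mem_centralizer_iff.mpr (fun a ha => hz a ha)⟩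
  have hes : Cfsg.IsExtraspecial 2 ↥(Q ⊓ Subgroup.centralizer (A₁ : Set G)) := by
    by_cases hbot : A₁ = ⊥
    · subst hbot
      have h1 : Q ⊓ Subgroup.centralizer (((⊥ : Subgroup G) : Subgroup G) : Set G) = Q := by
        rw [inf_eq_left]
        intro q _
        rw [Subgroup.mem_centralizer_iff]
        intro h hh
        rw [Subgroup.mem_bot.mp hh]
        simp
      rw [h1]
      exact hlarge.1
    · rcases (Cfsg.Agent.S5434.result Q hlarge A₁ hA₁ hodd hbot).2.2.2 with h | h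
      · exfalso
        rw [h] at hy
        rcases (hmem y).1 hy with h1 | h1
        · exact hy1 h1
        · exact hyz h1
      · exact h
  exact extraAt_of_isExtraspecial _ z hes hzR hE.ne_one hE.sq
    (fun u hu => hE.central u (Subgroup.mem_inf.mp hu).1)

/-- Largeness of the image of `R = C_Q(A)` in `M/A`, in abstract form. -/
theorem quotient_large_aux (R A : Subgroup G) (z s x : G)
    (hER : ExtraAt R z) (hRA : ∀ r ∈ R, ∀ a ∈ A, r * a = a * r)
    (hAodd : Odd (Nat.card A)) (hR2 : IsPGroup 2 R)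
    (hnormR : ∀ c : G, (∀ a ∈ A, c * a = a * c) → c * z = z * c → ∀ r ∈ R, c * r * c⁻¹ ∈ R)
    (hY : ∀ c : G, (∀ a ∈ A, c * a = a * c) → (∀ r ∈ R, c * r = r * c) → c ∈ A ∨ c * z ∈ A)
    (hcard : 32 ≤ Nat.card R)
    (hsR : s ∈ R) (hs1 : s ≠ 1) (hsz : s ≠ z)
    (hxA : ∀ a ∈ A, x * a = a * x) (hxs : x * s * x⁻¹ = z)
    (M : Subgroup G)
    (hM : ∀ m : G, m ∈ M ↔ ∃ c a : G, (∀ a' ∈ A, c * a' = a' * c) ∧ a ∈ A ∧ m = c * a)
    (A' : Subgroup M) [A'.Normal] (hA' : ∀ m : M, m ∈ A' ↔ (m : G) ∈ A)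
    (R' : Subgroup M) (hR' : ∀ m : M, m ∈ R' ↔ (m : G) ∈ R) :
    Cfsg.IsLargeExtraspecial (R'.map (QuotientGroup.mk' A')) := by
  have hzz := hER.sq
  have hz1 := hER.ne_one
  have hzR := hER.mem
  have hzinv : z⁻¹ = z := inv_eq_of_mul_eq_one_left hzz
  have hcentM : ∀ c : G, (∀ a ∈ A, c * a = a * c) → c ∈ M :=
    fun c hc => (hM c).2 ⟨c, 1, hc, A.one_mem, (mul_one c).symm⟩
  have hRM : ∀ r ∈ R, r ∈ M := fun r hr => hcentM r (hRA r hr)
  have hzM := hRM z hzR
  have hsM := hRM s hsR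
  have hxM := hcentM x hxA
  have hRAbot : ∀ y : G, y ∈ A → y ∈ R → y = 1 := by
    intro y hyA hyR
    have h1 : y ∈ A ⊓ R := ⟨hyA, hyR⟩
    rw [inf_eq_bot_of_odd_of_two hAodd hR2] at h1
    exact Subgroup.mem_bot.mp h1
  have hzA : z ∉ A := fun h => hz1 (hRAbot z h hzR)
  have hkey : ∀ (c r e : G), r ∈ R → e ∈ A → c * r * c⁻¹ * r⁻¹ = e → e = 1 := by
    intro c r e hr he hcr
    obtain ⟨k, hk⟩ := hR2 ⟨r, hr⟩
    have hrk : r ^ (2 ^ k) = 1 := by
      have h0 := congrArg Subtype.val hk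
      simpa using h0
    have h1 : c * r * c⁻¹ = e * r := by rw [← hcr]; group
    have hcomm : Commute e r := (hRA r hr e he).symm
    have h2 : (c * r * c⁻¹) ^ (2 ^ k) = 1 := by
      rw [conj_pow, hrk]; group
    rw [h1, hcomm.mul_pow, hrk, mul_one] at h2
    have h3 : orderOf e ∣ 2 ^ k := orderOf_dvd_of_pow_eq_one h2
    have h4 : orderOf e ∣ Nat.card A := by
      have h5 := orderOf_dvd_natCard (⟨e, he⟩ : A)
      rwa [Subgroup.orderOf_mk] at h5
    have hcop : Nat.Coprime (2 ^ k) (Nat.card A) :=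
      Nat.Coprime.pow_left k (Nat.coprime_two_left.mpr hAodd)
    exact orderOf_eq_one_iff.mp (Nat.eq_one_of_dvd_coprimes hcop h3 h4)
  set π := QuotientGroup.mk' A' with hπ
  have hπ1 : ∀ m : M, π m = 1 ↔ (m : G) ∈ A := by
    intro m
    rw [hπ, QuotientGroup.mk'_apply, QuotientGroup.eq_one_iff, hA']
  have hπeq : ∀ m m' : M, π m = π m' ↔ (m : G) * (m' : G)⁻¹ ∈ A := by
    intro m m'
    have h := hπ1 (m * m'⁻¹)
    rw [map_mul, map_inv, mul_inv_eq_one] at h
    exact h
  have hsurj : ∀ y : M ⧸ A', ∃ m : M, π m = y := QuotientGroup.mk'_surjective A'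
  have hRbar : ∀ y ∈ R'.map π, ∃ r : M, (r : G) ∈ R ∧ π r = y := by
    rintro _ ⟨r, hr, rfl⟩
    exact ⟨r, (hR' r).1 hr, rfl⟩
  have hmemR : ∀ r : M, (r : G) ∈ R → π r ∈ R'.map π := fun r hr => ⟨r, (hR' r).2 hr, rfl⟩
  have hinjR : ∀ r r' : M, (r : G) ∈ R → (r' : G) ∈ R → π r = π r' → r = r' := by
    intro r r' hr hr' h
    have h1 := (hπeq r r').1 h
    have h2 : (r : G) * (r' : G)⁻¹ ∈ R := R.mul_mem hr (R.inv_mem hr')
    have h3 := hRAbot _ h1 h2
    exact Subtype.ext (mul_inv_eq_one.mp h3)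
  have hEbar : ExtraAt (R'.map π) (π ⟨z, hzM⟩) := by
    refine ⟨hmemR _ hzR, ?_, ?_, ?_, ?_, ?_, ?_⟩
    · intro h
      exact hzA ((hπ1 _).1 h)
    · rw [← map_mul]
      have h1 : (⟨z, hzM⟩ : M) * ⟨z, hzM⟩ = 1 := Subtype.ext hzz
      rw [h1, map_one]
    · intro u hu
      obtain ⟨r, hr, rfl⟩ := hRbar u hu
      rw [← map_mul, ← map_mul]
      congr 1
      exact Subtype.ext (hER.central r hr)
    · intro u hu hcen
      obtain ⟨r, hr, rfl⟩ := hRbar u hu
      have hrc : ∀ v ∈ R, (r : G) * v = v * r := by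
        intro v hv
        have h1 := hcen (π ⟨v, hRM v hv⟩) (hmemR _ hv)
        rw [← map_mul, ← map_mul] at h1
        have h2 := hinjR _ _ (R.mul_mem hr hv) (R.mul_mem hv hr) h1
        exact congrArg Subtype.val h2
      rcases hER.center r hr hrc with h | h
      · left
        have h1 : r = 1 := Subtype.ext h
        rw [h1, map_one]
      · right
        exact congrArg π (Subtype.ext h)
    · intro u hu v hv
      obtain ⟨r, hr, rfl⟩ := hRbar u hu
      obtain ⟨r', hr', rfl⟩ := hRbar v hv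
      rw [← map_inv, ← map_inv, ← map_mul, ← map_mul, ← map_mul]
      rcases hER.comm r hr r' hr' with h | h
      · left
        have h1 : r * r' * r⁻¹ * r'⁻¹ = (1 : M) := Subtype.ext h
        rw [h1, map_one]
      · right
        have h1 : r * r' * r⁻¹ * r'⁻¹ = (⟨z, hzM⟩ : M) := Subtype.ext h
        rw [h1]
    · intro u hu
      obtain ⟨r, hr, rfl⟩ := hRbar u hu
      rw [← map_mul]
      rcases hER.sqmem r hr with h | h
      · left
        have h1 : r * r = (1 : M) := Subtype.ext h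
        rw [h1, map_one]
      · right
        have h1 : r * r = (⟨z, hzM⟩ : M) := Subtype.ext h
        rw [h1]
  have hsbar1 : π ⟨s, hsM⟩ ≠ 1 := fun h => hs1 (hRAbot s ((hπ1 _).1 h) hsR)
  have hsbarz : π ⟨s, hsM⟩ ≠ π ⟨z, hzM⟩ := by
    intro h
    have h1 := hinjR _ _ hsR hzR h
    exact hsz (congrArg Subtype.val h1)
  have hne : ∃ u ∈ R'.map π, u ≠ 1 ∧ u ≠ π ⟨z, hzM⟩ :=
    ⟨π ⟨s, hsM⟩, hmemR _ hsR, hsbar1, hsbarz⟩
  have hL1 := Cfsg.Agent.S5434.isExtraspecial_of_extraAt (R'.map π) (π ⟨z, hzM⟩) hEbar hne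
  have hcen : ∀ y : M ⧸ A', y ∈ (Subgroup.center ↥(R'.map π)).map (R'.map π).subtype ↔
      y = 1 ∨ y = π ⟨z, hzM⟩ := by
    intro y
    constructor
    · rintro ⟨u, hu, rfl⟩
      apply hEbar.center u.1 u.2
      intro v hv
      have h1 := Subgroup.mem_center_iff.mp hu ⟨v, hv⟩
      exact (congrArg Subtype.val h1).symm
    · rintro (rfl | rfl)
      · exact Subgroup.one_mem _
      · refine ⟨⟨π ⟨z, hzM⟩, hEbar.mem⟩, Subgroup.mem_center_iff.mpr ?_, rfl⟩
        intro v
        apply Subtype.ext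
        exact hEbar.central v.1 v.2
  -- commutators of a decomposed element
  have hdecomp : ∀ (m : M) (c a : G), (∀ a' ∈ A, c * a' = a' * c) → a ∈ A → (m : G) = c * a →
      ∀ r : M, (r : G) ∈ R → π r * π m = π m * π r → c * r = r * c := by
    intro m c a hcA haA hmca r hr h1
    rw [← map_mul, ← map_mul] at h1
    have h2 := (hπeq (m * r) (r * m)).1 h1.symm
    have har : a * (r : G) = r * a := (hRA r hr a haA).symm
    have h3 : c * r * c⁻¹ * (r : G)⁻¹ ∈ A := by
      have h4 : (m : G) * r * ((r : G) * m)⁻¹ = c * r * c⁻¹ * (r : G)⁻¹ := by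
        rw [hmca]
        calc c * a * (r : G) * ((r : G) * (c * a))⁻¹
            = c * (a * r) * a⁻¹ * c⁻¹ * (r : G)⁻¹ := by group
          _ = c * (r * a) * a⁻¹ * c⁻¹ * (r : G)⁻¹ := by rw [har]
          _ = c * r * c⁻¹ * (r : G)⁻¹ := by group
      rw [← h4]
      exact h2
    have h5 := hkey c r _ hr h3 rfl
    calc c * (r : G) = (c * r * c⁻¹ * (r : G)⁻¹) * (r * c) := by group
      _ = r * c := by rw [h5, one_mul]
  have hL2 : Subgroup.centralizer ((R'.map π : Subgroup (M ⧸ A')) : Set (M ⧸ A')) =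
      (Subgroup.center ↥(R'.map π)).map (R'.map π).subtype := by
    ext y
    constructor
    · intro hy
      obtain ⟨m, rfl⟩ := hsurj y
      have hy' : ∀ v ∈ R'.map π, v * π m = π m * v :=
        fun v hv => Subgroup.mem_centralizer_iff.mp hy v hv
      obtain ⟨c, a, hcA, haA, hmca⟩ := (hM m).1 m.2
      have hcR : ∀ r ∈ R, c * r = r * c := fun r hr =>
        hdecomp m c a hcA haA hmca ⟨r, hRM r hr⟩ hr (hy' _ (hmemR _ hr))
      apply (hcen _).2
      rcases hY c hcA hcR with h | h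
      · left
        apply (hπ1 m).2
        rw [hmca]
        exact A.mul_mem h haA
      · right
        apply (hπeq m ⟨z, hzM⟩).2
        show (m : G) * z⁻¹ ∈ A
        have haz : a * z = z * a := (hRA z hzR a haA).symm
        rw [hzinv, hmca, mul_assoc, haz, ← mul_assoc]
        exact A.mul_mem h haA
    · intro hy
      rw [Subgroup.mem_centralizer_iff]
      intro v hv
      rcases (hcen y).1 hy with rfl | rfl
      · simp
      · exact hEbar.central v hv
  have hL3' : Subgroup.centralizer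
      (((Subgroup.center ↥(R'.map π)).map (R'.map π).subtype : Subgroup (M ⧸ A')) :
        Set (M ⧸ A')) ≤
      Subgroup.normalizer ((R'.map π : Subgroup (M ⧸ A')) : Set (M ⧸ A')) := by
    intro y hy
    obtain ⟨m, rfl⟩ := hsurj y
    have h1 : π ⟨z, hzM⟩ * π m = π m * π ⟨z, hzM⟩ :=
      Subgroup.mem_centralizer_iff.mp hy _ ((hcen _).2 (Or.inr rfl))
    obtain ⟨c, a, hcA, haA, hmca⟩ := (hM m).1 m.2
    have hcz : c * z = z * c := hdecomp m c a hcA haA hmca ⟨z, hzM⟩ hzR h1
    apply mem_normalizer_of_conj_mem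
    intro v hv
    obtain ⟨r, hr, rfl⟩ := hRbar v hv
    rw [← map_inv, ← map_mul, ← map_mul]
    apply hmemR
    show (m : G) * r * (m : G)⁻¹ ∈ R
    have har : a * (r : G) = r * a := (hRA r hr a haA).symm
    have h2 : (m : G) * r * (m : G)⁻¹ = c * r * c⁻¹ := by
      rw [hmca]
      calc c * a * (r : G) * (c * a)⁻¹ = c * (a * r) * a⁻¹ * c⁻¹ := by group
        _ = c * (r * a) * a⁻¹ * c⁻¹ := by rw [har]
        _ = c * r * c⁻¹ := by group
    rw [h2]
    exact hnormR c hcA hcz r hr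
  have : Fact (Nat.Prime 2) := ⟨Nat.prime_two⟩
  obtain ⟨n, hn1, hcardn⟩ := Cfsg.Agent.S0095.result (p := 2) hL1
  have h32 : 32 ≤ Nat.card ↥(R'.map π) := by
    let f : ↥R → ↥(R'.map π) := fun r => ⟨π ⟨r, hRM r r.2⟩, hmemR _ r.2⟩
    have hf : Function.Injective f := by
      intro r r' h
      have h1 : π ⟨r, hRM r r.2⟩ = π ⟨r', hRM r' r'.2⟩ := congrArg Subtype.val h
      have h2 := hinjR _ _ r.2 r'.2 h1
      have h3 : (r : G) = r' := congrArg (fun m : ↥M => (m : G)) h2
      exact Subtype.ext h3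
    exact hcard.trans (Nat.card_le_card_of_injective f hf)
  have hn2 : 2 ≤ n := by
    by_contra hlt
    have h1 : n = 1 := by omega
    subst h1
    rw [hcardn] at h32
    norm_num at h32
  have hconj : π ⟨x, hxM⟩⁻¹ * π ⟨z, hzM⟩ * (π ⟨x, hxM⟩⁻¹)⁻¹ = π ⟨s, hsM⟩ := by
    rw [← map_inv, ← map_mul, ← map_mul]
    congr 1
    apply Subtype.ext
    show x⁻¹ * z * x⁻¹⁻¹ = s
    rw [← hxs]; group
  refine (Cfsg.Agent.S5422.result (R'.map π) hL1 hL2 hL3' n hn2 hcardn (π ⟨x, hxM⟩⁻¹) ?_ ?_).2.2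
  · intro hg
    have h1 := (Subgroup.mem_normalizer_iff.mp hg (π ⟨z, hzM⟩)).mp ((hcen _).2 (Or.inr rfl))
    rw [hconj] at h1
    rcases (hcen _).1 h1 with h2 | h2
    · exact hsbar1 h2
    · exact hsbarz h2
  · rintro _ ⟨y, hy, rfl⟩
    rcases (hcen y).1 hy with rfl | rfl
    · simp
    · have h1 : (MulAut.conj (π ⟨x, hxM⟩⁻¹)).toMonoidHom (π ⟨z, hzM⟩) = π ⟨s, hsM⟩ := by
        rw [← hconj]; rfl
      rw [h1]
      exact hmemR _ hsR

end Main

/-- Let z be an involution of the finite group G whose centralizer C has generalized Fitting subgroup Q extraspecial (as a 2-group), let A be a subgroup of C of odd order, and let R be the centralizer of A in Q; suppose R has order at least 32, the largest normal subgroup of odd order of the centralizer of the subgroup generated by A and R lies in A, the order of that centralizer is not divisible by 4, and g is an element of G with g z g⁻¹ in R but outside the centre Z of Q. Let M be the subgroup generated by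 A and the centralizer of A (A is normal in it). Then: the centralizer in M of the subgroup generated by R and A, joined with A, equals the subgroup generated by A and Z; the image of R in M/A is a large extraspecial 2-subgroup of M/A; and g z g⁻¹ is conjugate to z inside the subgroup generated by R and the centralizer of A in g Q g⁻¹. -/
theorem result {G : Type*} [Group G] [Finite G] (z : G) (hz : orderOf z = 2) (Q : Subgroup G) (hQC : Q ≤ Subgroup.centralizer ({z} : Set G)) (hF : (Cfsg.generalizedFittingSubgroup ↥(Subgroup.centralizer ({z} : Set G))).map (Subgroup.centralizer ({z} : Set G)).subtype = Q) (hQ : Cfsg.IsExtraspecial 2 ↥Q) (A : Subgroup G) (hA : A ≤ Subgroup.centralizer ({z} : Set G)) (hAodd : Odd (Nat.card ↥A)) (R : Subgroup G) (hR : R = Q ⊓ Subgroup.centralizer (A : Set G)) (hR32 : 32 ≤ Nat.card ↥R) (hO : (Cfsg.oddCore ↥(Subgroup.centralizer ((A ⊔ R : Subgroup G) : Set G))).map (Subgroup.centralizer ((A ⊔ R : Subgroup G) : Set G)).subtype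 ≤ A) (h4 : ¬ 4 ∣ Nat.card ↥(Subgroup.centralizer ((A ⊔ R : Subgroup G) : Set G))) (g : G) (hgR : g * z * g⁻¹ ∈ R) (hgZ : g * z * g⁻¹ ∉ ((Subgroup.center ↥Q).map Q.subtype)) (M : Subgroup G) (hM : M = Subgroup.centralizer (A : Set G) ⊔ A) [hn : (A.subgroupOf M).Normal] : (M ⊓ Subgroup.centralizer ((R ⊔ A : Subgroup G) : Set G)) ⊔ A = A ⊔ ((Subgroup.center ↥Q).map Q.subtype) ∧ Cfsg.IsLargeExtraspecial ((R.subgroupOf M).map (QuotientGroup.mk' (A.subgroupOf M))) ∧ ∃ x ∈ R ⊔ ((Q).map (MulAut.conj g).toMonoidHom ⊓ Subgroup.centralizer (A : Set G)), x * (g * z * g⁻¹) * x⁻¹ = z := by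
  subst hR
  subst hM
  obtain ⟨hzQ, hmem, hL2, hL3⟩ := Cfsg.Agent.S5427.setup z hz Q hQC hF hQ
  have hz1 : z ≠ 1 := by
    intro h
    rw [h, orderOf_one] at hz
    exact absurd hz (by norm_num)
  have hzz : z * z = 1 := by
    have h1 := pow_orderOf_eq_one z
    rwa [hz, pow_two] at h1
  have hcentral : ∀ u ∈ Q, u * z = z * u :=
    fun u hu => (Subgroup.mem_centralizer_iff.mp (hQC hu) z rfl).symm
  have hE : ExtraAt Q z := extraAt_of_isExtraspecial Q z hQ hzQ hz1 hzz hcentral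
  have hzZ : z ∈ (Subgroup.center ↥Q).map Q.subtype := (hmem z).2 (Or.inr rfl)
  obtain ⟨s, hs⟩ : ∃ s, s = g * z * g⁻¹ := ⟨_, rfl⟩
  rw [← hs] at hgR hgZ ⊢
  obtain ⟨hsQ, hsA⟩ := Subgroup.mem_inf.mp hgR
  have hs1 : s ≠ 1 := by
    intro h
    apply hz1
    have h1 : z = g⁻¹ * s * g := by rw [hs]; group
    rw [h1, h]; group
  have hsz : s ≠ z := fun h => hgZ (h ▸ hzZ)
  have : Fact (Nat.Prime 2) := ⟨Nat.prime_two⟩
  obtain ⟨w, hw1, hcardQ⟩ := Cfsg.Agent.S0095.result (p := 2) hQ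
  have hRle : Nat.card ↥(Q ⊓ Subgroup.centralizer (A : Set G)) ≤ Nat.card ↥Q :=
    Subgroup.card_le_of_le inf_le_left
  have hw2 : 2 ≤ w := by
    by_contra hlt
    have h1 : w = 1 := by omega
    subst h1
    have h8 : Nat.card ↥Q = 8 := by rw [hcardQ]; norm_num
    omega
  obtain ⟨hZQg, -, hlarge⟩ := Cfsg.Agent.S5422.result Q hQ hL2 hL3 w hw2 hcardQ g (by
      intro hg
      apply hgZ
      rw [hs]
      exact (Subgroup.mem_normalizer_iff.mp hg z).mp hzZ) (by
      rintro _ ⟨y, hy, rfl⟩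
      rcases (hmem y).1 hy with rfl | rfl
      · simp
      · have h2 : (MulAut.conj g).toMonoidHom y = s := by rw [hs]; rfl
        rw [h2]; exact hsQ)
  have hzQg : z ∈ Q.map (MulAut.conj g).toMonoidHom := hZQg hzZ
  have hAz : ∀ a ∈ A, a * z = z * a := fun a ha => (mem_centralizer_singleton.mp (hA ha)).symm
  have hnormQ : ∀ c : G, c * z = z * c → c ∈ Subgroup.normalizer (Q : Set G) := by
    intro c hcz
    apply hL3
    rw [Subgroup.mem_centralizer_iff]
    intro y hy
    rcases (hmem y).1 hy with rfl | rfl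
    · simp
    · exact hcz.symm
  have hAN : A ≤ Subgroup.normalizer (Q : Set G) := fun a ha => hnormQ a (hAz a ha)
  have hER : ExtraAt (Q ⊓ Subgroup.centralizer (A : Set G)) z :=
    extraAt_fix Q z hlarge hE hmem A hAN hAodd hAz s (Subgroup.mem_inf.mpr ⟨hsQ, hsA⟩) hs1 hsz
  have hsAc : ∀ a ∈ A, a * s = s * a := fun a ha => Subgroup.mem_centralizer_iff.mp hsA a ha
  obtain ⟨A', hA'def⟩ : ∃ A' : Subgroup G, A' = A.map (MulAut.conj g⁻¹).toMonoidHom := ⟨_, rfl⟩
  have hA'mem : ∀ a' ∈ A', ∃ a ∈ A, a' = g⁻¹ * a * g := by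
    intro a' ha'
    rw [hA'def] at ha'
    obtain ⟨a, ha, rfl⟩ := ha'
    exact ⟨a, ha, by simp⟩
  have hA'of : ∀ a ∈ A, g⁻¹ * a * g ∈ A' := by
    intro a ha
    rw [hA'def]
    exact ⟨a, ha, by simp⟩
  have hA'z : ∀ a' ∈ A', a' * z = z * a' := by
    intro a' ha'
    obtain ⟨a, ha, rfl⟩ := hA'mem a' ha'
    have h1 := hsAc a ha
    rw [hs] at h1
    calc g⁻¹ * a * g * z = g⁻¹ * (a * (g * z * g⁻¹)) * g := by group
      _ = g⁻¹ * (g * z * g⁻¹ * a) * g := by rw [h1]
      _ = z * (g⁻¹ * a * g) := by group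
  have hA'N : A' ≤ Subgroup.normalizer (Q : Set G) := fun a ha => hnormQ a (hA'z a ha)
  have hA'odd : Odd (Nat.card A') := by
    rw [hA'def, Subgroup.card_map_of_injective (MulAut.conj g⁻¹).injective]
    exact hAodd
  have hy0 : g⁻¹ * z * g ∈ Q ⊓ Subgroup.centralizer (A' : Set G) := by
    refine Subgroup.mem_inf.mpr ⟨mem_conj.mp hzQg, Subgroup.mem_centralizer_iff.mpr ?_⟩
    intro a' ha'
    obtain ⟨a, ha, rfl⟩ := hA'mem a' ha'
    have h1 := hAz a ha
    calc g⁻¹ * a * g * (g⁻¹ * z * g) = g⁻¹ * (a * z) * g := by group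
      _ = g⁻¹ * (z * a) * g := by rw [h1]
      _ = g⁻¹ * z * g * (g⁻¹ * a * g) := by group
  have hy1 : g⁻¹ * z * g ≠ 1 := by
    intro h
    apply hz1
    have h1 : z = g * (g⁻¹ * z * g) * g⁻¹ := by group
    rw [h1, h]; group
  have hyz : g⁻¹ * z * g ≠ z := by
    intro h
    apply hsz
    rw [hs]
    calc g * z * g⁻¹ = g * (g⁻¹ * z * g) * g⁻¹ := by rw [h]
      _ = z := by group
  have hER₀ : ExtraAt (Q ⊓ Subgroup.centralizer (A' : Set G)) z :=
    extraAt_fix Q z hlarge hE hmem A' hA'N hA'odd hA'z _ hy0 hy1 hyz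
  have hER' : ExtraAt ((Q ⊓ Subgroup.centralizer (A' : Set G)).map (MulAut.conj g).toMonoidHom)
      s := by
    rw [hs]; exact hER₀.conj g
  have hR'sub : ∀ b ∈ (Q ⊓ Subgroup.centralizer (A' : Set G)).map (MulAut.conj g).toMonoidHom,
      b ∈ Q.map (MulAut.conj g).toMonoidHom ⊓ Subgroup.centralizer (A : Set G) := by
    rintro _ ⟨b₀, hb₀, rfl⟩
    obtain ⟨hb₀Q, hb₀A⟩ := Subgroup.mem_inf.mp hb₀
    refine Subgroup.mem_inf.mpr ⟨⟨b₀, hb₀Q, rfl⟩, Subgroup.mem_centralizer_iff.mpr ?_⟩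
    intro a ha
    have h2 : g⁻¹ * a * g * b₀ = b₀ * (g⁻¹ * a * g) :=
      Subgroup.mem_centralizer_iff.mp hb₀A _ (hA'of a ha)
    show a * (g * b₀ * g⁻¹) = g * b₀ * g⁻¹ * a
    calc a * (g * b₀ * g⁻¹) = g * (g⁻¹ * a * g * b₀) * g⁻¹ := by group
      _ = g * (b₀ * (g⁻¹ * a * g)) * g⁻¹ := by rw [h2]
      _ = g * b₀ * g⁻¹ * a := by group
  have hzR' : z ∈ (Q ⊓ Subgroup.centralizer (A' : Set G)).map (MulAut.conj g).toMonoidHom :=
    ⟨g⁻¹ * z * g, hy0, by simp [MulAut.conj_apply, mul_assoc]⟩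
  obtain ⟨b, hbR', hbz⟩ : ∃ b ∈ (Q ⊓ Subgroup.centralizer (A' : Set G)).map
      (MulAut.conj g).toMonoidHom, b * z * b⁻¹ = s * z := by
    by_contra hcon
    push Not at hcon
    have hall : ∀ v ∈ (Q ⊓ Subgroup.centralizer (A' : Set G)).map (MulAut.conj g).toMonoidHom,
        z * v = v * z := by
      intro v hv
      by_contra hne
      apply hcon v hv
      rcases hER'.comm v hv z hzR' with h | h
      · exfalso
        apply hne
        calc z * v = (v * z * v⁻¹ * z⁻¹)⁻¹ * (v * z) := by group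
          _ = v * z := by rw [h, inv_one, one_mul]
      · calc v * z * v⁻¹ = (v * z * v⁻¹ * z⁻¹) * z := by group
          _ = s * z := by rw [h]
    rcases hER'.center z hzR' hall with h | h
    · exact hz1 h
    · exact hsz h.symm
  have hbs : b * s = s * b := hER'.central b hbR'
  obtain ⟨hbQg, hbA⟩ := Subgroup.mem_inf.mp (hR'sub b hbR')
  have hsR : s ∈ Q ⊓ Subgroup.centralizer (A : Set G) := Subgroup.mem_inf.mpr ⟨hsQ, hsA⟩
  obtain ⟨a, haR, has⟩ : ∃ a ∈ Q ⊓ Subgroup.centralizer (A : Set G), a * s * a⁻¹ = z * s := by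
    by_contra hcon
    push Not at hcon
    have hall : ∀ v ∈ Q ⊓ Subgroup.centralizer (A : Set G), s * v = v * s := by
      intro v hv
      by_contra hne
      apply hcon v hv
      rcases hER.comm v hv s hsR with h | h
      · exfalso
        apply hne
        calc s * v = (v * s * v⁻¹ * s⁻¹)⁻¹ * (v * s) := by group
          _ = v * s := by rw [h, inv_one, one_mul]
      · calc v * s * v⁻¹ = (v * s * v⁻¹ * s⁻¹) * s := by group
          _ = z * s := by rw [h]
    rcases hER.center s hsR hall with h | h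
    · exact hs1 h
    · exact hsz h
  have hsz' : s * z = z * s := hE.central s hsQ
  have hss : s * s = 1 := hER'.sq
  have hxs : (b * a) * s * (b * a)⁻¹ = z := by
    calc (b * a) * s * (b * a)⁻¹ = b * (a * s * a⁻¹) * b⁻¹ := by group
      _ = b * (z * s) * b⁻¹ := by rw [has]
      _ = (b * z * b⁻¹) * (b * s) * b⁻¹ := by group
      _ = (s * z) * (s * b) * b⁻¹ := by rw [hbz, hbs]
      _ = s * (z * s) := by group
      _ = s * (s * z) := by rw [hsz']
      _ = z := by rw [← mul_assoc, hss, one_mul]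
  have hxA : ∀ a' ∈ A, (b * a) * a' = a' * (b * a) := by
    intro a' ha'
    have h1 : a' * b = b * a' := Subgroup.mem_centralizer_iff.mp hbA a' ha'
    have h2 : a' * a = a * a' :=
      Subgroup.mem_centralizer_iff.mp (Subgroup.mem_inf.mp haR).2 a' ha'
    rw [mul_assoc, ← h2, ← mul_assoc, ← h1, mul_assoc]
  have hzY : z ∈ Subgroup.centralizer
      ((A ⊔ (Q ⊓ Subgroup.centralizer (A : Set G)) : Subgroup G) : Set G) := by
    have h1 : A ⊔ (Q ⊓ Subgroup.centralizer (A : Set G)) ≤ Subgroup.centralizer ({z} : Set G) :=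
      sup_le hA (inf_le_left.trans hQC)
    rw [Subgroup.mem_centralizer_iff]
    intro h hh
    exact (mem_centralizer_singleton.mp (h1 hh)).symm
  have hYfact : ∀ c : G, (∀ a ∈ A, c * a = a * c) →
      (∀ r ∈ Q ⊓ Subgroup.centralizer (A : Set G), c * r = r * c) → c ∈ A ∨ c * z ∈ A := by
    intro c hcA hcR
    have hcY : c ∈ Subgroup.centralizer
        ((A ⊔ (Q ⊓ Subgroup.centralizer (A : Set G)) : Subgroup G) : Set G) := by
      have h1 : A ⊔ (Q ⊓ Subgroup.centralizer (A : Set G)) ≤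
          Subgroup.centralizer ({c} : Set G) := by
        apply sup_le
        · intro a ha
          exact mem_centralizer_singleton.mpr (hcA a ha)
        · intro r hr
          exact mem_centralizer_singleton.mpr (hcR r hr)
      rw [Subgroup.mem_centralizer_iff]
      intro h hh
      exact (mem_centralizer_singleton.mp (h1 hh)).symm
    have hzo : orderOf (⟨z, hzY⟩ : ↥(Subgroup.centralizer
        ((A ⊔ (Q ⊓ Subgroup.centralizer (A : Set G)) : Subgroup G) : Set G))) = 2 := by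
      rw [Subgroup.orderOf_mk]; exact hz
    rcases two_odd ⟨z, hzY⟩ hzo h4 ⟨c, hcY⟩ with h | h
    · left; exact hO ⟨_, h, rfl⟩
    · right; exact hO ⟨_, h, rfl⟩
  refine ⟨?_, ?_, ⟨b * a, ?_, hxs⟩⟩
  · rw [sup_comm (Q ⊓ Subgroup.centralizer (A : Set G)) A]
    apply le_antisymm
    · apply sup_le _ le_sup_left
      intro y hy
      have hyY := (Subgroup.mem_inf.mp hy).2
      have hyA : ∀ a ∈ A, y * a = a * y := fun a ha =>
        (Subgroup.mem_centralizer_iff.mp hyY a (Subgroup.mem_sup_left ha)).symm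
      have hyR : ∀ r ∈ Q ⊓ Subgroup.centralizer (A : Set G), y * r = r * y := fun r hr =>
        (Subgroup.mem_centralizer_iff.mp hyY r (Subgroup.mem_sup_right hr)).symm
      rcases hYfact y hyA hyR with h | h
      · exact Subgroup.mem_sup_left h
      · have h1 : y = (y * z) * z := by rw [mul_assoc, hzz, mul_one]
        rw [h1]
        exact Subgroup.mul_mem_sup h hzZ
    · apply sup_le le_sup_right
      intro y hy
      rcases (hmem y).1 hy with rfl | rfl
      · exact Subgroup.one_mem _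
      · apply Subgroup.mem_sup_left
        refine ⟨?_, hzY⟩
        apply Subgroup.mem_sup_left
        rw [Subgroup.mem_centralizer_iff]
        intro a ha
        exact hAz a ha
  · refine quotient_large_aux (Q ⊓ Subgroup.centralizer (A : Set G)) A z s (b * a) hER ?_ hAodd
      ?_ ?_ hYfact hR32 hsR hs1 hsz hxA hxs _ (mem_cent_sup A) (A.subgroupOf _)
      (fun m => Subgroup.mem_subgroupOf)
      ((Q ⊓ Subgroup.centralizer (A : Set G)).subgroupOf _) (fun m => Subgroup.mem_subgroupOf)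
    · intro r hr a ha
      exact (Subgroup.mem_centralizer_iff.mp (Subgroup.mem_inf.mp hr).2 a ha).symm
    · exact IsPGroup.to_le hQ.1.1 inf_le_left
    · intro c hcA hcz r hr
      obtain ⟨hrQ, hrA⟩ := Subgroup.mem_inf.mp hr
      refine Subgroup.mem_inf.mpr ⟨(Subgroup.mem_normalizer_iff.mp (hnormQ c hcz) r).mp hrQ,
        Subgroup.mem_centralizer_iff.mpr ?_⟩
      intro a' ha'
      have h1 : a' * r = r * a' := Subgroup.mem_centralizer_iff.mp hrA a' ha'
      have h2 := hcA a' ha'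
      have h3 : a' * c⁻¹ = c⁻¹ * a' := by
        calc a' * c⁻¹ = c⁻¹ * (c * a') * c⁻¹ := by group
          _ = c⁻¹ * (a' * c) * c⁻¹ := by rw [h2]
          _ = c⁻¹ * a' := by group
      calc a' * (c * r * c⁻¹) = (a' * c) * r * c⁻¹ := by group
        _ = (c * a') * r * c⁻¹ := by rw [h2]
        _ = c * (a' * r) * c⁻¹ := by group
        _ = c * (r * a') * c⁻¹ := by rw [h1]
        _ = c * r * (a' * c⁻¹) := by group
        _ = c * r * (c⁻¹ * a') := by rw [h3]
        _ = c * r * c⁻¹ * a' := by group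
  · rw [sup_comm]
    exact Subgroup.mul_mem_sup (Subgroup.mem_inf.mpr ⟨hbQg, hbA⟩) haR

end Cfsg.Agent.S5428
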