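import Cfsg.Statements.S5429
import Cfsg.Agent.S5427
import Cfsg.Agent.S5434
import Cfsg.Agent.S0095
import Cfsg.Agent.Lib.Helper94.LargeExtra2
import Cfsg.Agent.Lib.Helper30.Cores

set_option autoImplicit false
open Cfsg

namespace Cfsg.Agent.S5429

open Cfsg.Agent.Lib.Helper94 Cfsg.Agent.Lib.Helper92

section Quot

variable {G : Type*} [Group G] [Finite G]

/-- Largeness of the image of `C_Q(t)` in `C_G(t)/⟨t⟩`, in abstract form. -/
theorem quotient_large_aux (Q : Subgroup G) (z t s x : G)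
    (hE : ExtraAt Q z)
    (hL3 : ∀ c : G, c * z = z * c → ∀ q ∈ Q, c * q * c⁻¹ ∈ Q)
    (htQ : t ∈ Q) (htt : t * t = 1) (ht1 : t ≠ 1) (htz : t ≠ z)
    (hnc : ∀ c : G, c * z * c⁻¹ ≠ z * t)
    (hCP : ∀ c : G, c * z = z * c → c * t = t * c →
      (∀ q ∈ Q, q * t = t * q → c * q * c⁻¹ * q⁻¹ = 1 ∨ c * q * c⁻¹ * q⁻¹ = t) → c ∈ Q)
    (hsQ : s ∈ Q) (hst : s * t = t * s) (hs1 : s ≠ 1) (hsz : s ≠ z) (hs_t : s ≠ t)
    (hszt : s ≠ z * t)
    (hxt : x * t = t * x) (hxs : x * s * x⁻¹ = z)
    (C : Subgroup G) (hC : ∀ c : G, c ∈ C ↔ c * t = t * c)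
    (T : Subgroup C) [T.Normal] (hT : ∀ c : C, c ∈ T ↔ (c : G) = 1 ∨ (c : G) = t)
    (hcardT : Nat.card T = 2)
    (P' : Subgroup C) (hP' : ∀ c : C, c ∈ P' ↔ (c : G) ∈ Q) (hcardP : 64 ≤ Nat.card P') :
    Cfsg.IsLargeExtraspecial (P'.map (QuotientGroup.mk' T)) := by
  have hzz := hE.sq
  have hz1 := hE.ne_one
  have hzQ := hE.mem
  have hzt : z * t = t * z := (hE.central t htQ).symm
  have hzC : z ∈ C := (hC z).2 hzt
  have hsC : s ∈ C := (hC s).2 hst
  have hxC : x ∈ C := (hC x).2 hxt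
  set π := QuotientGroup.mk' T with hπ
  have hπ1 : ∀ c : C, π c = 1 ↔ ((c : G) = 1 ∨ (c : G) = t) := by
    intro c
    rw [hπ, QuotientGroup.mk'_apply, QuotientGroup.eq_one_iff, hT]
  have hπeq : ∀ c d : C, π c = π d ↔ ((d : G) = c ∨ (d : G) = c * t) := by
    intro c d
    rw [hπ, QuotientGroup.mk'_apply, QuotientGroup.mk'_apply, QuotientGroup.eq, hT]
    simp only [Subgroup.coe_mul, Subgroup.coe_inv]
    constructor
    · rintro (h | h)
      · left; exact (inv_mul_eq_one.mp h).symm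
      · right; rw [← h]; group
    · rintro (h | h)
      · left; rw [h]; group
      · right; rw [h]; group
  have hmemP : ∀ c : C, π c ∈ P'.map π ↔ (c : G) ∈ Q := by
    intro c
    constructor
    · rintro ⟨d, hd, hdc⟩
      rcases (hπeq d c).1 hdc with h | h
      · rw [h]; exact (hP' d).1 hd
      · rw [h]; exact Q.mul_mem ((hP' d).1 hd) htQ
    · intro hc
      exact ⟨c, (hP' c).2 hc, rfl⟩
  have hsurj : ∀ y : C ⧸ T, ∃ c : C, π c = y := QuotientGroup.mk'_surjective T
  -- commuting in the quotient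
  have hcomm_elt : ∀ c d : C, π c * π d = π d * π c →
      (c : G) * d * (c : G)⁻¹ * (d : G)⁻¹ = 1 ∨ (c : G) * d * (c : G)⁻¹ * (d : G)⁻¹ = t := by
    intro c d h
    rw [← map_mul, ← map_mul] at h
    have hct : (c : G) * t = t * c := (hC c).1 c.2
    have hdt : (d : G) * t = t * d := (hC d).1 d.2
    rcases (hπeq _ _).1 h with h2 | h2
    · left
      have h3 : (d : G) * c = c * d := h2
      rw [← h3]; group
    · right
      have h3 : (d : G) * c = c * d * t := h2
      have h4 : (c : G) * d = d * c * t := by rw [h3, mul_assoc, htt, mul_one]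
      calc (c : G) * d * (c : G)⁻¹ * (d : G)⁻¹
          = d * (c * t * (c : G)⁻¹) * (d : G)⁻¹ := by rw [h4]; group
        _ = d * t * (d : G)⁻¹ := by rw [hct]; group
        _ = t := by rw [hdt]; group
  have hzfix : ∀ c : C, π c * π ⟨z, hzC⟩ = π ⟨z, hzC⟩ * π c → (c : G) * z = z * c := by
    intro c h
    rcases hcomm_elt c ⟨z, hzC⟩ h with h1 | h1
    · have h1' : (c : G) * z * (c : G)⁻¹ * z⁻¹ = 1 := h1
      calc (c : G) * z = ((c : G) * z * (c : G)⁻¹ * z⁻¹) * (z * c) := by group
        _ = z * c := by rw [h1', one_mul]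
    · exfalso
      have h1' : (c : G) * z * (c : G)⁻¹ * z⁻¹ = t := h1
      apply hnc (c : G)
      calc (c : G) * z * (c : G)⁻¹ = ((c : G) * z * (c : G)⁻¹ * z⁻¹) * z := by group
        _ = t * z := by rw [h1']
        _ = z * t := hzt.symm
  have hEbar : ExtraAt (P'.map π) (π ⟨z, hzC⟩) := by
    refine ⟨(hmemP _).2 hzQ, ?_, ?_, ?_, ?_, ?_, ?_⟩
    · intro h
      rcases (hπ1 _).1 h with h | h
      · exact hz1 h
      · exact htz h.symm
    · rw [← map_mul]
      have h1 : (⟨z, hzC⟩ : C) * ⟨z, hzC⟩ = 1 := Subtype.ext hzz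
      rw [h1, map_one]
    · rintro _ ⟨c, hc, rfl⟩
      rw [← map_mul, ← map_mul]
      congr 1
      exact Subtype.ext (hE.central c ((hP' c).1 hc))
    · rintro _ ⟨c, hc, rfl⟩ hcen
      have hcQ := (hP' c).1 hc
      have hcomm : ∀ w ∈ Q, w * t = t * w → w * (c : G) = c * w := by
        intro w hw hwt
        have hwC : w ∈ C := (hC w).2 hwt
        have h1 := hcen (π ⟨w, hwC⟩) ((hmemP _).2 hw)
        rcases hcomm_elt c ⟨w, hwC⟩ h1 with h2 | h2
        · have h2' : (c : G) * w * (c : G)⁻¹ * w⁻¹ = 1 := h2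
          calc w * (c : G) = ((c : G) * w * (c : G)⁻¹ * w⁻¹)⁻¹ * (c * w) := by group
            _ = c * w := by rw [h2', inv_one, one_mul]
        · exfalso
          have h2' : (c : G) * w * (c : G)⁻¹ * w⁻¹ = t := h2
          rcases hE.comm c hcQ w hw with h5 | h5
          · rw [h2'] at h5; exact ht1 h5
          · rw [h2'] at h5; exact htz h5
      rcases hE.center_centralizer htQ ht1 htz hcQ hcomm with h | h | h | h
      · left; exact (hπ1 c).2 (Or.inl h)
      · right; exact congrArg π (Subtype.ext h)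
      · left; exact (hπ1 c).2 (Or.inr h)
      · right
        apply (hπeq c ⟨z, hzC⟩).2
        right
        show z = (c : G) * t
        rw [h, mul_assoc, htt, mul_one]
    · rintro _ ⟨c, hc, rfl⟩ _ ⟨d, hd, rfl⟩
      rw [← map_inv, ← map_inv, ← map_mul, ← map_mul, ← map_mul]
      rcases hE.comm c ((hP' c).1 hc) d ((hP' d).1 hd) with h | h
      · left
        have h1 : c * d * c⁻¹ * d⁻¹ = (1 : C) := Subtype.ext h
        rw [h1, map_one]
      · right
        have h1 : c * d * c⁻¹ * d⁻¹ = (⟨z, hzC⟩ : C) := Subtype.ext h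
        rw [h1]
    · rintro _ ⟨c, hc, rfl⟩
      rw [← map_mul]
      rcases hE.sqmem c ((hP' c).1 hc) with h | h
      · left
        have h1 : c * c = (1 : C) := Subtype.ext h
        rw [h1, map_one]
      · right
        have h1 : c * c = (⟨z, hzC⟩ : C) := Subtype.ext h
        rw [h1]
  have hsbar1 : π ⟨s, hsC⟩ ≠ 1 := by
    intro h
    rcases (hπ1 _).1 h with h | h
    · exact hs1 h
    · exact hs_t h
  have hsbarz : π ⟨s, hsC⟩ ≠ π ⟨z, hzC⟩ := by
    intro h
    rcases (hπeq _ _).1 h with h | h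
    · exact hsz h.symm
    · apply hszt
      have h' : z = s * t := h
      rw [h', mul_assoc, htt, mul_one]
  have hne : ∃ u ∈ P'.map π, u ≠ 1 ∧ u ≠ π ⟨z, hzC⟩ :=
    ⟨π ⟨s, hsC⟩, (hmemP _).2 hsQ, hsbar1, hsbarz⟩
  have hL1 := Cfsg.Agent.S5434.isExtraspecial_of_extraAt (P'.map π) (π ⟨z, hzC⟩) hEbar hne
  have hcen : ∀ y : C ⧸ T, y ∈ (Subgroup.center ↥(P'.map π)).map (P'.map π).subtype ↔
      y = 1 ∨ y = π ⟨z, hzC⟩ := by
    intro y
    constructor
    · rintro ⟨u, hu, rfl⟩
      apply hEbar.center u.1 u.2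
      intro v hv
      have h1 := Subgroup.mem_center_iff.mp hu ⟨v, hv⟩
      exact (congrArg Subtype.val h1).symm
    · rintro (rfl | rfl)
      · exact Subgroup.one_mem _
      · refine ⟨⟨π ⟨z, hzC⟩, hEbar.mem⟩, Subgroup.mem_center_iff.mpr ?_, rfl⟩
        intro v
        apply Subtype.ext
        exact hEbar.central v.1 v.2
  have hL2 : Subgroup.centralizer ((P'.map π : Subgroup (C ⧸ T)) : Set (C ⧸ T)) =
      (Subgroup.center ↥(P'.map π)).map (P'.map π).subtype := by
    ext y
    constructor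
    · intro hy
      obtain ⟨c, rfl⟩ := hsurj y
      have hy' : ∀ v ∈ P'.map π, v * π c = π c * v :=
        fun v hv => Subgroup.mem_centralizer_iff.mp hy v hv
      have hcz : (c : G) * z = z * c := hzfix c (hy' _ hEbar.mem).symm
      have hcQ : (c : G) ∈ Q := by
        apply hCP c hcz ((hC c).1 c.2)
        intro q hq hqt
        have hqC : q ∈ C := (hC q).2 hqt
        exact hcomm_elt c ⟨q, hqC⟩ (hy' _ ((hmemP ⟨q, hqC⟩).2 hq)).symm
      refine ⟨⟨π c, (hmemP c).2 hcQ⟩, Subgroup.mem_center_iff.mpr ?_, rfl⟩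
      intro v
      apply Subtype.ext
      exact hy' v.1 v.2
    · intro hy
      rw [Subgroup.mem_centralizer_iff]
      intro v hv
      rcases (hcen y).1 hy with rfl | rfl
      · simp
      · exact hEbar.central v hv
  have hL3' : Subgroup.centralizer
      (((Subgroup.center ↥(P'.map π)).map (P'.map π).subtype : Subgroup (C ⧸ T)) : Set (C ⧸ T)) ≤
      Subgroup.normalizer ((P'.map π : Subgroup (C ⧸ T)) : Set (C ⧸ T)) := by
    intro y hy
    obtain ⟨c, rfl⟩ := hsurj y
    have h1 : π ⟨z, hzC⟩ * π c = π c * π ⟨z, hzC⟩ :=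
      Subgroup.mem_centralizer_iff.mp hy _ ((hcen _).2 (Or.inr rfl))
    have hcz := hzfix c h1.symm
    apply Cfsg.Agent.Lib.Helper92.mem_normalizer_of_conj_mem
    rintro _ ⟨d, hd, rfl⟩
    rw [← map_inv, ← map_mul, ← map_mul]
    apply (hmemP _).2
    exact hL3 c hcz d ((hP' d).1 hd)
  have : Fact (Nat.Prime 2) := ⟨Nat.prime_two⟩
  obtain ⟨n, hn1, hcardn⟩ := Cfsg.Agent.S0095.result (p := 2) hL1
  have h32 : 32 ≤ Nat.card ↥(P'.map π) := by
    have hcomap : (P'.map π).comap π = P' := by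
      ext c
      rw [Subgroup.mem_comap, hmemP, hP']
    have h1 := Cfsg.Agent.Lib.Helper30.card_comap_mk' T (P'.map π)
    rw [← hπ, hcomap, hcardT] at h1
    omega
  have hn2 : 2 ≤ n := by
    by_contra hlt
    have h1 : n = 1 := by omega
    subst h1
    rw [hcardn] at h32
    norm_num at h32
  -- the element moving the centre
  have hconj : π ⟨x, hxC⟩⁻¹ * π ⟨z, hzC⟩ * (π ⟨x, hxC⟩⁻¹)⁻¹ = π ⟨s, hsC⟩ := by
    rw [← map_inv, ← map_mul, ← map_mul]
    congr 1
    apply Subtype.ext
    show x⁻¹ * z * x⁻¹⁻¹ = s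
    rw [← hxs]; group
  refine (Cfsg.Agent.S5422.result (P'.map π) hL1 hL2 hL3' n hn2 hcardn (π ⟨x, hxC⟩⁻¹) ?_ ?_).2.2
  · intro hg
    have h1 := (Subgroup.mem_normalizer_iff.mp hg (π ⟨z, hzC⟩)).mp ((hcen _).2 (Or.inr rfl))
    rw [hconj] at h1
    rcases (hcen _).1 h1 with h2 | h2
    · exact hsbar1 h2
    · exact hsbarz h2
  · rintro _ ⟨y, hy, rfl⟩
    rcases (hcen y).1 hy with rfl | rfl
    · simp
    · have h1 : (MulAut.conj (π ⟨x, hxC⟩⁻¹)).toMonoidHom (π ⟨z, hzC⟩) = π ⟨s, hsC⟩ := by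
        rw [← hconj]; rfl
      rw [h1]
      exact (hmemP _).2 hsQ

end Quot

/-- Let z be an involution of the finite group G with centralizer C whose generalized Fitting subgroup Q is extraspecial of width at least 3 (order 2^(2w+1), w ≥ 3); let g be an element of G with g z g⁻¹ in Q but outside the centre Z of Q, and t an involution lying in both Q and g Q g⁻¹ that is not conjugate to z; write P for the centralizer of t in Q and suppose that the elements of C acting trivially by conjugation on P modulo the subgroup generated by t and z are exactly the elements of Q. Then the image of P in the centralizer of t modulo the subgroup generated by t is a large extraspecial 2-subgroup there, and g z g⁻¹ is conjugate to z inside the subgroup generated by P and the centralizer of t in g Q g⁻¹. -/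
theorem result {G : Type*} [Group G] [Finite G] (z : G) (hz : orderOf z = 2) (Q : Subgroup G) (hQC : Q ≤ Subgroup.centralizer ({z} : Set G)) (hF : (Cfsg.generalizedFittingSubgroup ↥(Subgroup.centralizer ({z} : Set G))).map (Subgroup.centralizer ({z} : Set G)).subtype = Q) (hQ : Cfsg.IsExtraspecial 2 ↥Q) (w : ℕ) (hw : 3 ≤ w) (hcard : Nat.card ↥Q = 2 ^ (2 * w + 1)) (g : G) (hgQ : g * z * g⁻¹ ∈ Q) (hgZ : g * z * g⁻¹ ∉ ((Subgroup.center ↥Q).map Q.subtype)) (t : G) (ht : orderOf t = 2) (htQ : t ∈ Q ⊓ (Q).map (MulAut.conj g).toMonoidHom) (htz : ¬ IsConj z t) (P : Subgroup G) (hP : P = Q ⊓ Subgroup.centralizer ({t} : Set G)) (hCP : ∀ c ∈ Subgroup.centralizer ({z} : Set G), (∀ x ∈ P, ∃ y ∈ Subgroup.closure ({t, z} : Set G), c * x * c⁻¹ = x * y) ↔ c ∈ Q) [hn : ((Subgroup.zpowers t).subgroupOf (Subgroup.centralizer ({t} : Set G))).Normal] : Cfsg.IsLargeExtraspecial ((P.subgroupOf (Subgroup.centralizer ({t} : Set G))).map (QuotientGroup.mk' ((Subgroup.zpowers t).subgroupOf (Subgroup.centralizer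 ({t} : Set G))))) ∧ ∃ x ∈ P ⊔ ((Q).map (MulAut.conj g).toMonoidHom ⊓ Subgroup.centralizer ({t} : Set G)), x * (g * z * g⁻¹) * x⁻¹ = z := by
  obtain ⟨hzQ, hmem, hL2, hL3⟩ := Cfsg.Agent.S5427.setup z hz Q hQC hF hQ
  have hz1 : z ≠ 1 := by
    intro h
    rw [h, orderOf_one] at hz
    exact absurd hz (by norm_num)
  have hzz : z * z = 1 := by
    have h1 := pow_orderOf_eq_one z
    rwa [hz, pow_two] at h1
  have hcentral : ∀ u ∈ Q, u * z = z * u :=
    fun u hu => (Subgroup.mem_centralizer_iff.mp (hQC hu) z rfl).symm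
  have hE : ExtraAt Q z := extraAt_of_isExtraspecial Q z hQ hzQ hz1 hzz hcentral
  have hzZ : z ∈ (Subgroup.center ↥Q).map Q.subtype := (hmem z).2 (Or.inr rfl)
  obtain ⟨htQ1, htQ2⟩ := htQ
  have htt : t * t = 1 := by
    have h1 := pow_orderOf_eq_one t
    rwa [ht, pow_two] at h1
  have ht1 : t ≠ 1 := by
    intro h
    rw [h, orderOf_one] at ht
    exact absurd ht (by norm_num)
  have htz' : t ≠ z := by
    rintro rfl
    exact htz (IsConj.refl _)
  obtain ⟨s, hs⟩ : ∃ s, s = g * z * g⁻¹ := ⟨_, rfl⟩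
  rw [← hs] at hgQ hgZ ⊢
  have hzs : IsConj z s := isConj_iff.mpr ⟨g, hs.symm⟩
  have hs1 : s ≠ 1 := by
    intro h
    apply hz1
    have h1 : z = g⁻¹ * s * g := by rw [hs]; group
    rw [h1, h]; group
  have hsz : s ≠ z := fun h => hgZ (h ▸ hzZ)
  have hs_t : s ≠ t := fun h => htz (h ▸ hzs)
  have hzt_conj : ¬ IsConj z (z * t) := by
    intro hc
    have hnc : ¬ ∀ v ∈ Q, t * v = v * t := fun hall => by
      rcases hE.center t htQ1 hall with h | h
      · exact ht1 h
      · exact htz' h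
    push Not at hnc
    obtain ⟨q, hq, hqt⟩ := hnc
    rcases hE.comm q hq t htQ1 with h | h
    · apply hqt
      calc t * q = (q * t * q⁻¹ * t⁻¹)⁻¹ * (q * t) := by group
        _ = q * t := by rw [h, inv_one, one_mul]
    · have h1 : q * t * q⁻¹ = z * t := by
        calc q * t * q⁻¹ = (q * t * q⁻¹ * t⁻¹) * t := by group
          _ = z * t := by rw [h]
      have h2 : IsConj t (z * t) := isConj_iff.mpr ⟨q, h1⟩
      exact htz (hc.trans h2.symm)
  have hszt : s ≠ z * t := fun h => hzt_conj (h ▸ hzs)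
  have hE' : ExtraAt (Q.map (MulAut.conj g).toMonoidHom) s := by
    rw [hs]; exact hE.conj g
  have hst : s * t = t * s := (hE'.central t htQ2).symm
  have hst_conj : ¬ IsConj z (s * t) := by
    intro hc
    have hnc : ¬ ∀ v ∈ Q.map (MulAut.conj g).toMonoidHom, t * v = v * t := fun hall => by
      rcases hE'.center t htQ2 hall with h | h
      · exact ht1 h
      · exact hs_t h.symm
    push Not at hnc
    obtain ⟨q, hq, hqt⟩ := hnc
    rcases hE'.comm q hq t htQ2 with h | h
    · apply hqt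
      calc t * q = (q * t * q⁻¹ * t⁻¹)⁻¹ * (q * t) := by group
        _ = q * t := by rw [h, inv_one, one_mul]
    · have h1 : q * t * q⁻¹ = s * t := by
        calc q * t * q⁻¹ = (q * t * q⁻¹ * t⁻¹) * t := by group
          _ = s * t := by rw [h]
      have h2 : IsConj t (s * t) := isConj_iff.mpr ⟨q, h1⟩
      exact htz (hc.trans h2.symm)
  have hw2 : 2 ≤ w := by omega
  have hzQg : z ∈ Q.map (MulAut.conj g).toMonoidHom := by
    have h1 := (Cfsg.Agent.S5422.result Q hQ hL2 hL3 w hw2 hcard g ?_ ?_).1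
    · exact h1 hzZ
    · intro hg
      apply hgZ
      rw [hs]
      exact (Subgroup.mem_normalizer_iff.mp hg z).mp hzZ
    · rintro _ ⟨y, hy, rfl⟩
      rcases (hmem y).1 hy with rfl | rfl
      · simp
      · have h2 : (MulAut.conj g).toMonoidHom y = s := by rw [hs]; rfl
        rw [h2]; exact hgQ
  obtain ⟨a, haQ, hat, has⟩ : ∃ a ∈ Q, a * t = t * a ∧ a * s * a⁻¹ = z * s := by
    by_contra hcon
    push Not at hcon
    have hyc : ∀ w ∈ Q, w * t = t * w → w * s = s * w := by
      intro w hw hwt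
      by_contra hws
      apply hcon w hw hwt
      rcases hE.comm w hw s hgQ with h | h
      · exfalso
        apply hws
        calc w * s = (w * s * w⁻¹ * s⁻¹) * (s * w) := by group
          _ = s * w := by rw [h, one_mul]
      · calc w * s * w⁻¹ = (w * s * w⁻¹ * s⁻¹) * s := by group
          _ = z * s := by rw [h]
    rcases hE.center_centralizer htQ1 ht1 htz' hgQ hyc with h | h | h | h
    · exact hs1 h
    · exact hsz h
    · exact hs_t h
    · exact hszt h
  obtain ⟨b, hbQ, hbt, hbz⟩ : ∃ b ∈ Q.map (MulAut.conj g).toMonoidHom,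
      b * t = t * b ∧ b * z * b⁻¹ = s * z := by
    by_contra hcon
    push Not at hcon
    have hyc : ∀ w ∈ Q.map (MulAut.conj g).toMonoidHom, w * t = t * w → w * z = z * w := by
      intro w hw hwt
      by_contra hws
      apply hcon w hw hwt
      rcases hE'.comm w hw z hzQg with h | h
      · exfalso
        apply hws
        calc w * z = (w * z * w⁻¹ * z⁻¹) * (z * w) := by group
          _ = z * w := by rw [h, one_mul]
      · calc w * z * w⁻¹ = (w * z * w⁻¹ * z⁻¹) * z := by group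
          _ = s * z := by rw [h]
    rcases hE'.center_centralizer htQ2 ht1 (Ne.symm hs_t) hzQg hyc with h | h | h | h
    · exact hz1 h
    · exact hsz h.symm
    · exact htz' h.symm
    · exact hst_conj (h ▸ IsConj.refl z)
  have hbs : b * s = s * b := hE'.central b hbQ
  have hsz' : s * z = z * s := hE.central s hgQ
  have hss : s * s = 1 := hE'.sq
  have hxs : (b * a) * s * (b * a)⁻¹ = z := by
    calc (b * a) * s * (b * a)⁻¹ = b * (a * s * a⁻¹) * b⁻¹ := by group
      _ = b * (z * s) * b⁻¹ := by rw [has]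
      _ = (b * z * b⁻¹) * (b * s) * b⁻¹ := by group
      _ = (s * z) * (s * b) * b⁻¹ := by rw [hbz, hbs]
      _ = s * (z * s) := by group
      _ = s * (s * z) := by rw [hsz']
      _ = z := by rw [← mul_assoc, hss, one_mul]
  have hxt : (b * a) * t = t * (b * a) := by
    rw [mul_assoc, hat, ← mul_assoc, hbt, mul_assoc]
  subst hP
  constructor
  · have hnc : ∀ c : G, c * z * c⁻¹ ≠ z * t := fun c h => hzt_conj (isConj_iff.mpr ⟨c, h⟩)
    have hCP' : ∀ c : G, c * z = z * c → c * t = t * c →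
        (∀ q ∈ Q, q * t = t * q → c * q * c⁻¹ * q⁻¹ = 1 ∨ c * q * c⁻¹ * q⁻¹ = t) → c ∈ Q := by
      intro c hcz hct hall
      apply (hCP c (mem_centralizer_singleton.mpr hcz.symm)).1
      intro x hx
      obtain ⟨hxQ, hxt⟩ := hx
      have hxt' : t * x = x * t := mem_centralizer_singleton.mp hxt
      rcases hall x hxQ hxt'.symm with h | h
      · refine ⟨1, Subgroup.one_mem _, ?_⟩
        calc c * x * c⁻¹ = (c * x * c⁻¹ * x⁻¹) * x := by group
          _ = x * 1 := by rw [h, one_mul, mul_one]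
      · refine ⟨t, Subgroup.subset_closure (by simp), ?_⟩
        calc c * x * c⁻¹ = (c * x * c⁻¹ * x⁻¹) * x := by group
          _ = x * t := by rw [h, hxt']
    have hL3e : ∀ c : G, c * z = z * c → ∀ q ∈ Q, c * q * c⁻¹ ∈ Q := by
      intro c hcz q hq
      have hcN : c ∈ Subgroup.normalizer (Q : Set G) := hL3 (by
        rw [Subgroup.mem_centralizer_iff]
        intro y hy
        rcases (hmem y).1 hy with rfl | rfl
        · simp
        · exact hcz.symm)
      exact (Subgroup.mem_normalizer_iff.mp hcN q).mp hq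
    refine quotient_large_aux Q z t s (b * a) hE hL3e htQ1 htt ht1 htz' hnc hCP' hgQ hst hs1 hsz
      hs_t hszt hxt hxs (Subgroup.centralizer ({t} : Set G)) ?_
      ((Subgroup.zpowers t).subgroupOf (Subgroup.centralizer ({t} : Set G))) ?_ ?_
      ((Q ⊓ Subgroup.centralizer ({t} : Set G)).subgroupOf (Subgroup.centralizer ({t} : Set G)))
      ?_ ?_
    · intro c
      rw [mem_centralizer_singleton]
      exact eq_comm
    · intro c
      rw [Subgroup.mem_subgroupOf, mem_zpowers_of_sq htt]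
    · have hle : Subgroup.zpowers t ≤ Subgroup.centralizer ({t} : Set G) := by
        rw [Subgroup.zpowers_le]
        exact mem_centralizer_singleton.mpr rfl
      rw [Nat.card_congr (Subgroup.subgroupOfEquivOfLe hle).toEquiv, Nat.card_zpowers, ht]
    · intro c
      rw [Subgroup.mem_subgroupOf, Subgroup.mem_inf]
      exact ⟨fun h => h.1, fun h => ⟨h, c.2⟩⟩
    · rw [Nat.card_congr (Subgroup.subgroupOfEquivOfLe
        (inf_le_right : Q ⊓ Subgroup.centralizer ({t} : Set G) ≤ _)).toEquiv]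
      have h1 := Cfsg.Agent.Lib.Helper30.card_eq_card_mul_relIndex
        (inf_le_left : Q ⊓ Subgroup.centralizer ({t} : Set G) ≤ Q)
      have h2 := relIndex_inf_centralizer Q t
      have h3 : Set.ncard {y | ∃ n ∈ Q, y = n * t * n⁻¹} ≤ 2 := by
        have hsub : {y | ∃ n ∈ Q, y = n * t * n⁻¹} ⊆ ({t, z * t} : Set G) := by
          rintro _ ⟨n, hn, rfl⟩
          rcases hE.comm n hn t htQ1 with h | h
          · left
            calc n * t * n⁻¹ = (n * t * n⁻¹ * t⁻¹) * t := by group
              _ = t := by rw [h, one_mul]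
          · right
            show n * t * n⁻¹ = z * t
            calc n * t * n⁻¹ = (n * t * n⁻¹ * t⁻¹) * t := by group
              _ = z * t := by rw [h]
        calc Set.ncard {y | ∃ n ∈ Q, y = n * t * n⁻¹}
            ≤ Set.ncard ({t, z * t} : Set G) := Set.ncard_le_ncard hsub (Set.toFinite _)
          _ ≤ Set.ncard ({z * t} : Set G) + 1 := Set.ncard_insert_le _ _
          _ = 2 := by rw [Set.ncard_singleton]
      have h4 : 128 ≤ Nat.card Q := by
        rw [hcard]
        calc 128 = 2 ^ 7 := by norm_num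
          _ ≤ 2 ^ (2 * w + 1) := Nat.pow_le_pow_right (by norm_num) (by omega)
      rw [h2] at h1
      have h5 : Nat.card Q ≤ Nat.card ↥(Q ⊓ Subgroup.centralizer ({t} : Set G)) * 2 := by
        rw [h1]
        exact Nat.mul_le_mul_left _ h3
      omega
  · refine ⟨b * a, ?_, hxs⟩
    rw [sup_comm]
    exact Subgroup.mul_mem_sup ⟨hbQ, mem_centralizer_singleton.mpr hbt.symm⟩
      ⟨haQ, mem_centralizer_singleton.mpr hat.symm⟩

end Cfsg.Agent.S5429
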