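import Cfsg.Statements.S5430
import Cfsg.Agent.Lib.Helper92.LargeExtra4

set_option autoImplicit false
open Cfsg

namespace Cfsg.Agent.S5430

open Cfsg.Agent.Lib.Helper92

theorem result {G : Type*} [Group G] [Finite G] (Q : Subgroup G) (hQ : Cfsg.IsLargeExtraspecial Q) (z : G) (hz : ((Subgroup.center ↥Q).map Q.subtype) = Subgroup.zpowers z) (hz2 : orderOf z = 2) (w : ℕ) (hw : 2 ≤ w) (hcard : Nat.card ↥Q = 2 ^ (2 * w + 1)) (g : G) (hgH : g ∉ Subgroup.centralizer ({z} : Set G)) (hgQ : g * z * g⁻¹ ∈ Q) (V X R E : Subgroup G) (hV : V = Subgroup.closure ({z, g * z * g⁻¹} : Set G)) (hX : X = Q ⊔ (Q).map (MulAut.conj g).toMonoidHom) (hR : R = ((Q).map (MulAut.conj g).toMonoidHom ⊓ Subgroup.centralizer ({z} : Set G)) ⊔ (Q ⊓ Subgroup.centralizer ({g * z * g⁻¹} : Set G))) (hE : E = Q ⊓ (Q).map (MulAut.conj g).toMonoidHom) : R = X ⊓ Subgroup.centralizer (V : Set G) ∧ R = (Cfsg.pCore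 2 ↥X).map X.subtype ∧ (∃ h : (R.subgroupOf X).Normal, Nonempty (↥X ⧸ R.subgroupOf X ≃* Equiv.Perm (Fin 3))) ∧ Subgroup.normalizer (V : Set G) = X ⊔ (Subgroup.centralizer ({z} : Set G) ⊓ Subgroup.centralizer (V : Set G)) ∧ (∀ y ∈ Subgroup.normalizer (V : Set G), ∀ x ∈ X, y * x * y⁻¹ ∈ X) ∧ R ≤ Subgroup.centralizer ({z} : Set G) ⊓ Subgroup.centralizer (V : Set G) ∧ (∀ x ∈ X, ∀ c ∈ Subgroup.centralizer ({z} : Set G) ⊓ Subgroup.centralizer (V : Set G), x * c * x⁻¹ * c⁻¹ ∈ R) ∧ X ⊓ (Subgroup.centralizer ({z} : Set G) ⊓ Subgroup.centralizer (V : Set G)) = R := by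
  have hPS := pairSetting_of_large Q hQ z hz hz2 w hw hcard g hgH hgQ
  rw [closure_pair] at hV
  subst hV hX hR hE
  exact hPS.sym3

end Cfsg.Agent.S5430
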