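import Cfsg.Statements.S5431
import Cfsg.Agent.Lib.Helper92.LargeExtra3

set_option autoImplicit false
open Cfsg

namespace Cfsg.Agent.S5431

open Cfsg.Agent.Lib.Helper92

theorem result {G : Type*} [Group G] [Finite G] (Q : Subgroup G) (hQ : Cfsg.IsLargeExtraspecial Q) (z : G) (hz : ((Subgroup.center ↥Q).map Q.subtype) = Subgroup.zpowers z) (hz2 : orderOf z = 2) (w : ℕ) (hw : 2 ≤ w) (hcard : Nat.card ↥Q = 2 ^ (2 * w + 1)) (g : G) (hgH : g ∉ Subgroup.centralizer ({z} : Set G)) (hgQ : g * z * g⁻¹ ∈ Q) (V X R E : Subgroup G) (hV : V = Subgroup.closure ({z, g * z * g⁻¹} : Set G)) (hX : X = Q ⊔ (Q).map (MulAut.conj g).toMonoidHom) (hR : R = ((Q).map (MulAut.conj g).toMonoidHom ⊓ Subgroup.centralizer ({z} : Set G)) ⊔ (Q ⊓ Subgroup.centralizer ({g * z * g⁻¹} : Set G))) (hE : E = Q ⊓ (Q).map (MulAut.conj g).toMonoidHom) : (Subgroup.center ↥R).map R.subtype = V ∧ E ≤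 (Subgroup.upperCentralSeries ↥R 2).map R.subtype ∧ Subgroup.upperCentralSeries ↥R 3 = ⊤ ∧ Cfsg.IsElementaryAbelian 2 E ∧ (∀ x ∈ R, ∀ y ∈ R, x * y * x⁻¹ * y⁻¹ ∈ E ∧ x ^ 2 ∈ E) ∧ ((Q).map (MulAut.conj g).toMonoidHom ⊓ Subgroup.centralizer ({z} : Set G)) ⊓ (Q ⊓ Subgroup.centralizer ({g * z * g⁻¹} : Set G)) = E ∧ ⁅X, E⁆ ≤ V := by
  have hPS := pairSetting_of_large Q hQ z hz hz2 w hw hcard g hgH hgQ
  rw [closure_pair] at hV
  subst hV hX hR hE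
  exact hPS.radical

end Cfsg.Agent.S5431
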