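-- Statement S5432 (helper61, architect; pieces by helper23 (O3), helper58 (M+), helper78 (O2), helper61 (O1, M-)).
-- Out(2^{1+2n}_±) = O^±(2n,2): via S0099 (two classes of extraspecial 2-groups per order), helper92's
-- cocycle model S5396.Ext, and the cocycle description of automorphisms.
import Cfsg.Statements.S5432
import Cfsg.Agent.S5396
import Cfsg.Agent.S0099
import Cfsg.Agent.Lib.Helper61.OutExtraO1
import Cfsg.Agent.Lib.Helper61.OutExtraMm
import Cfsg.Agent.Lib.Helper23.OutExtraO3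
import Cfsg.Agent.Lib.Helper58.OutExtraMPlus
import Cfsg.Agent.Lib.Helper78.OutExtraO2

set_option autoImplicit false
open Cfsg

namespace Cfsg.Agent.S5432

open Cfsg.Agent.S5396

/-! ## PIECE T : transport along an isomorphism -/
theorem out_congr {E : Type*} {M : Type*} [Group E] [Group M] (e : E ≃* M) :
    Nonempty (Cfsg.Out E ≃* Cfsg.Out M) := by
  have he : (Cfsg.Inn E).map (MulAut.congr e).toMonoidHom = Cfsg.Inn M := by
    ext φ
    constructor
    · rintro ⟨_, ⟨x, rfl⟩, rfl⟩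
      refine ⟨e x, ?_⟩
      ext y
      simp [MulAut.congr, MulAut.conj_apply]
    · rintro ⟨y, rfl⟩
      refine ⟨MulAut.conj (e.symm y), ⟨e.symm y, rfl⟩, ?_⟩
      ext z
      simp [MulAut.congr, MulAut.conj_apply]
  exact ⟨QuotientGroup.congr (Cfsg.Inn E) (Cfsg.Inn M) (MulAut.congr e) he⟩

theorem elemAb_map {E : Type*} {M : Type*} [Group E] [Group M] (e : E ≃* M) (k : ℕ)
    (hk : ∃ A : Subgroup E, Cfsg.IsElementaryAbelian 2 A ∧ Nat.card A = k) :
    ∃ B : Subgroup M, Cfsg.IsElementaryAbelian 2 B ∧ Nat.card B = k := by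
  obtain ⟨A, hA, hc⟩ := hk
  refine ⟨A.map e.toMonoidHom, ⟨?_, ?_⟩, ?_⟩
  · refine ⟨⟨?_⟩⟩
    rintro ⟨_, a, ha, rfl⟩ ⟨_, b, hb, rfl⟩
    apply Subtype.ext
    show e.toMonoidHom a * e.toMonoidHom b = e.toMonoidHom b * e.toMonoidHom a
    rw [← map_mul, ← map_mul]
    have h1 := hA.1.is_comm.comm (⟨a, ha⟩ : A) ⟨b, hb⟩
    have h2 : a * b = b * a := congrArg Subtype.val h1
    rw [h2]
  · rintro _ ⟨a, ha, rfl⟩
    rw [← map_pow, hA.2 a ha, map_one]
  · rw [← hc]
    exact Nat.card_congr (A.equivMapOfInjective e.toMonoidHom e.injective).symm.toEquiv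

/-! ## Assembly of `Out (Ext β) ≃* O(Q)` -/
theorem out_ext_equiv {ι : Type} [Fintype ι] [DecidableEq ι]
    (β : (ι → ZMod 2) →+ (ι → ZMod 2) →+ ZMod 2)
    (hnd : ∀ v, (∀ w, β v w = β w v) → v = 0) :
    Nonempty (Cfsg.Out (Ext β) ≃*
      ↥(Cfsg.isometryGroup (ZMod 2) (fun v : ι → ZMod 2 => β v v))) := by
  obtain ⟨Φ, hΦ⟩ := Cfsg.Agent.Lib.Helper61.OutExtra.exists_phi β hnd
  have hmat : ∀ M N : Matrix ι ι (ZMod 2), (∀ v, Matrix.mulVec M v = Matrix.mulVec N v) → M = N := by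
    intro M N h
    apply Matrix.toLin'.injective
    apply LinearMap.ext
    intro v
    rw [Matrix.toLin'_apply, Matrix.toLin'_apply]
    exact h v
  have hsurj : Function.Surjective Φ := by
    rintro ⟨g, hg⟩
    obtain ⟨α, hα⟩ := Cfsg.Agent.Lib.Helper23.OutExtra.exists_lift β g (fun v => hg v v)
    refine ⟨α, ?_⟩
    apply Subtype.ext
    apply Units.ext
    apply hmat
    intro v
    rw [hΦ, hα]
  have hker : Φ.ker = Cfsg.Inn (Ext β) := by
    ext α
    rw [MonoidHom.mem_ker]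
    constructor
    · intro h
      apply Cfsg.Agent.Lib.Helper78.OutExtra.inner_of_trivial β hnd
      intro v
      rw [← hΦ, h]
      simp
    · rintro ⟨x, rfl⟩
      apply Subtype.ext
      apply Units.ext
      apply hmat
      intro v
      rw [hΦ]
      simp [MulAut.conj_apply]
  exact ⟨(QuotientGroup.quotientMulEquivOfEq hker.symm).trans
    (QuotientGroup.quotientKerEquivOfSurjective Φ hsurj)⟩

/-- Let E be an extraspecial 2-group of order 2^(2n+1), n ≥ 1. If E contains an elementary abelian subgroup of order 2^(n+1) (plus type), then its outer automorphism group is isomorphic to the full isometry group of the hyperbolic quadratic form in dimension 2n over the field with two elements; otherwise (minus type) it is isomorphic to the full isometry group of the elliptic quadratic form in dimension 2n over that field. -/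
theorem result {E : Type*} [Group E] [Finite E] (hE : Cfsg.IsExtraspecial 2 E) (n : ℕ) (hn : 1 ≤ n) (hcard : Nat.card E = 2 ^ (2 * n + 1)) : ((∃ A : Subgroup E, Cfsg.IsElementaryAbelian 2 A ∧ Nat.card ↥A = 2 ^ (n + 1)) → Nonempty (Cfsg.Out E ≃* Cfsg.isometryGroup (ZMod 2) (Cfsg.quadFormPlus n (ZMod 2)))) ∧ ((¬ ∃ A : Subgroup E, Cfsg.IsElementaryAbelian 2 A ∧ Nat.card ↥A = 2 ^ (n + 1)) → Nonempty (Cfsg.Out E ≃* Cfsg.isometryGroup (ZMod 2) (Cfsg.quadFormMinus (n - 1) (ZMod 2) 1 1))) := by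
  obtain ⟨βp, hQp, hndp, hAp⟩ := Cfsg.Agent.Lib.Helper58.OutExtra.model_plus n
  obtain ⟨βm, hQm, hndm, hAm⟩ := Cfsg.Agent.Lib.Helper61.OutExtra.model_minus (n - 1)
  have hn1 : n - 1 + 2 = n + 1 := by omega
  rw [hn1] at hAm
  -- the two models are extraspecial of the right order
  have h2p : ∀ v : (Fin n ⊕ Fin n) → ZMod 2, v + v = 0 := fun v => by
    funext i; exact CharTwo.add_self_eq_zero _
  have h2m : ∀ v : ((Fin (n - 1) ⊕ Fin (n - 1)) ⊕ Fin 2) → ZMod 2, v + v = 0 := fun v => by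
    funext i; exact CharTwo.add_self_eq_zero _
  have hcp : Nat.card ((Fin n ⊕ Fin n) → ZMod 2) = 2 ^ (2 * n) := by
    rw [Nat.card_eq_fintype_card, Fintype.card_fun, ZMod.card, Fintype.card_sum, Fintype.card_fin]
    congr 1; omega
  have hcm : Nat.card (((Fin (n - 1) ⊕ Fin (n - 1)) ⊕ Fin 2) → ZMod 2) = 2 ^ (2 * n) := by
    rw [Nat.card_eq_fintype_card, Fintype.card_fun, ZMod.card, Fintype.card_sum,
      Fintype.card_sum, Fintype.card_fin, Fintype.card_fin]
    congr 1; omega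
  have : Nonempty (Fin n) := ⟨⟨0, hn⟩⟩
  have : Nontrivial ((Fin n ⊕ Fin n) → ZMod 2) := inferInstance
  have : Nontrivial (((Fin (n - 1) ⊕ Fin (n - 1)) ⊕ Fin 2) → ZMod 2) := inferInstance
  have hEp : Cfsg.IsExtraspecial 2 (Ext βp) := Ext.isExtraspecial h2p hndp _ hcp
  have hEm : Cfsg.IsExtraspecial 2 (Ext βm) := Ext.isExtraspecial h2m hndm _ hcm
  have : Finite (Ext βp) := Finite.of_equiv _ (Ext.equivProd (β := βp)).symm
  have : Finite (Ext βm) := Finite.of_equiv _ (Ext.equivProd (β := βm)).symm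
  have hcardp : Nat.card (Ext βp) = 2 ^ (2 * n + 1) := by rw [Ext.card_eq, hcp, pow_succ]
  have hcardm : Nat.card (Ext βm) = 2 ^ (2 * n + 1) := by rw [Ext.card_eq, hcm, pow_succ]
  have hOp : Nonempty (Cfsg.Out (Ext βp) ≃*
      Cfsg.isometryGroup (ZMod 2) (Cfsg.quadFormPlus n (ZMod 2))) := by
    have h := out_ext_equiv βp hndp
    have hfun : (fun v : (Fin n ⊕ Fin n) → ZMod 2 => βp v v) = Cfsg.quadFormPlus n (ZMod 2) :=
      funext hQp
    rwa [hfun] at h
  have hOm : Nonempty (Cfsg.Out (Ext βm) ≃*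
      Cfsg.isometryGroup (ZMod 2) (Cfsg.quadFormMinus (n - 1) (ZMod 2) 1 1)) := by
    have h := out_ext_equiv βm hndm
    have hfun : (fun v : ((Fin (n - 1) ⊕ Fin (n - 1)) ⊕ Fin 2) → ZMod 2 => βm v v) =
        Cfsg.quadFormMinus (n - 1) (ZMod 2) 1 1 := funext hQm
    rwa [hfun] at h
  have hpm : ¬ Nonempty (Ext βp ≃* Ext βm) := by
    rintro ⟨e⟩
    exact hAm (elemAb_map e _ hAp)
  have h3 := Cfsg.Agent.S0099.result hE hEp hEm (hcard.trans hcardp.symm) (hcardp.trans hcardm.symm)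
  constructor
  · intro hA
    rcases h3 with ⟨⟨e⟩⟩ | h | ⟨⟨e⟩⟩
    · obtain ⟨f⟩ := out_congr e
      obtain ⟨g⟩ := hOp
      exact ⟨f.trans g⟩
    · exact absurd h hpm
    · exact absurd (elemAb_map e _ hA) hAm
  · intro hA
    rcases h3 with ⟨⟨e⟩⟩ | h | ⟨⟨e⟩⟩
    · exact absurd (elemAb_map e.symm _ hAp) hA
    · exact absurd h hpm
    · obtain ⟨f⟩ := out_congr e
      obtain ⟨g⟩ := hOm
      exact ⟨f.trans g⟩

end Cfsg.Agent.S5432
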