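import Cfsg.Statements.S5433
import Mathlib

set_option autoImplicit false
open Cfsg

namespace Cfsg.Agent.S5433

/-- Let Q be a large extraspecial 2-subgroup of the finite group G (extraspecial; centralizer equal to its centre; normal in the centralizer of its centre; normalizing no non-trivial subgroup of odd order), and L a normal subgroup of G containing Q. Then G is the product of L and the normalizer of Q. -/
theorem result {G : Type*} [Group G] [Finite G] (Q : Subgroup G) (hQ : Cfsg.IsLargeExtraspecial Q) (L : Subgroup G) [L.Normal] (hQL : Q ≤ L) : L ⊔ Subgroup.normalizer (Q : Set G) = ⊤ := by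
  classical
  obtain ⟨⟨⟨hp, -, -⟩, hcard⟩, hcent, hnorm, -⟩ := hQ
  have : Fact (Nat.Prime 2) := ⟨Nat.prime_two⟩
  have hpQL : IsPGroup 2 (Q.subgroupOf L) := by
    intro x
    obtain ⟨k, hk⟩ := hp ⟨(x : L), x.2⟩
    refine ⟨k, ?_⟩
    apply Subtype.ext
    apply Subtype.ext
    have := congrArg (fun y : Q => (y : G)) hk
    simpa using this
  obtain ⟨P, hP⟩ := hpQL.exists_le_sylow
  have hfr := Sylow.normalizer_sup_eq_top P
  set T : Subgroup G := (P : Subgroup L).map L.subtype with hT
  have hQT : Q ≤ T := by
    intro x hx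
    exact ⟨⟨x, hQL hx⟩, hP (by simpa [Subgroup.mem_subgroupOf] using hx), rfl⟩
  have hpT : IsPGroup 2 T := P.isPGroup'.map L.subtype
  -- a nontrivial element of the centre of Q
  have hcardZ : Nat.card ((Subgroup.center Q).map Q.subtype) = 2 := by
    rw [Subgroup.card_map_of_injective Q.subtype_injective]
    exact hcard
  have hntQ : Nontrivial (Subgroup.center Q) := by
    rw [← Finite.one_lt_card_iff_nontrivial, hcard]; norm_num
  haveI : Nontrivial T := by
    obtain ⟨a, b, hab⟩ := hntQ
    refine ⟨⟨⟨(a : Q), hQT (a : Q).2⟩, ⟨(b : Q), hQT (b : Q).2⟩, ?_⟩⟩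
    intro h
    apply hab
    apply Subtype.ext
    apply Subtype.ext
    simpa using congrArg (fun y : T => (y : G)) h
  haveI : Nontrivial (Subgroup.center T) := hpT.center_nontrivial
  obtain ⟨c, hc⟩ := exists_ne (1 : Subgroup.center T)
  -- c as element of G
  have hcT : ((c : T) : G) ∈ T := (c : T).2
  have hc1 : ((c : T) : G) ≠ 1 := by
    intro h
    apply hc
    apply Subtype.ext
    apply Subtype.ext
    simpa using h
  have hccomm : ∀ t ∈ T, t * ((c : T) : G) = ((c : T) : G) * t := by
    intro t ht
    have := (Subgroup.mem_center_iff.mp c.2) ⟨t, ht⟩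
    simpa using congrArg (fun y : T => (y : G)) this
  -- elements of T commuting with T lie in Z
  have hZ : ∀ x ∈ T, (∀ t ∈ T, t * x = x * t) → x ∈ (Subgroup.center Q).map Q.subtype := by
    intro x hx hcomm
    rw [← hcent, Subgroup.mem_centralizer_iff]
    intro q hq
    exact hcomm q (hQT hq)
  have hcZ : ((c : T) : G) ∈ (Subgroup.center Q).map Q.subtype := hZ _ hcT hccomm
  have huniq : ∀ x ∈ (Subgroup.center Q).map Q.subtype, x ≠ 1 → x = ((c : T) : G) := by
    intro x hx hx1
    obtain ⟨y, hy1, hy2⟩ := (Nat.card_eq_two_iff' (1 : ((Subgroup.center Q).map Q.subtype))).mp hcardZ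
    have h1 := hy2 ⟨x, hx⟩ (by intro h; exact hx1 (by simpa using congrArg Subtype.val h))
    have h2 := hy2 ⟨_, hcZ⟩ (by intro h; exact hc1 (by simpa using congrArg Subtype.val h))
    have := h1.trans h2.symm
    simpa using congrArg Subtype.val this
  have key : Subgroup.normalizer (T : Set G) ≤ Subgroup.normalizer (Q : Set G) := by
    intro g hg
    apply hnorm
    rw [Subgroup.mem_centralizer_iff]
    have hgT : ∀ t, t ∈ T ↔ g * t * g⁻¹ ∈ T := fun t => Subgroup.mem_normalizer_iff.mp hg t
    have hgc : g * ((c : T) : G) * g⁻¹ = ((c : T) : G) := by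
      apply huniq
      · apply hZ
        · exact (hgT _).mp hcT
        · intro t ht
          have ht' : g⁻¹ * t * g ∈ T := by
            rw [hgT]; simpa [mul_assoc] using ht
          have := hccomm _ ht'
          calc t * (g * ((c : T) : G) * g⁻¹) = g * ((g⁻¹ * t * g) * ((c : T) : G)) * g⁻¹ := by group
            _ = g * (((c : T) : G) * (g⁻¹ * t * g)) * g⁻¹ := by rw [this]
            _ = g * ((c : T) : G) * g⁻¹ * t := by group
      · intro h
        apply hc1
        have : ((c : T) : G) = g⁻¹ * (g * ((c : T) : G) * g⁻¹) * g := by group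
        rw [this, h]; group
    intro x hx
    by_cases hx1 : x = 1
    · subst hx1; simp
    · rw [huniq x hx hx1]
      calc ((c : T) : G) * g = (g * ((c : T) : G) * g⁻¹) * g := by rw [hgc]
        _ = g * ((c : T) : G) := by group
  rw [eq_top_iff, ← hfr, sup_comm]
  exact sup_le_sup_left key L

end Cfsg.Agent.S5433
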