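import Cfsg.Statements.S5436
import Mathlib

set_option autoImplicit false
open Cfsg

namespace Cfsg.Agent.S5436

open scoped commutatorElement

theorem nilp_of_comm (K : Type*) [Group K] (h : ∀ a b : K, a * b = b * a) : Group.IsNilpotent K := by
  letI : CommGroup K := { ‹Group K› with mul_comm := h }
  exact CommGroup.isNilpotent

/-- the centralizer of `Q = F*(K)` lies in `Q` when `K/Q` is non-abelian simple and `Z(Q)` is central -/
theorem cent_le {K : Type*} [Group K] [Finite K] (Q : Subgroup K) [Q.Normal]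
    (hF : Cfsg.generalizedFittingSubgroup K = Q) (hsimp : IsSimpleGroup (K ⧸ Q))
    (hna : ¬ IsMulCommutative (K ⧸ Q))
    (hZ : Subgroup.centralizer (Q : Set K) ⊓ Q ≤ Subgroup.center K) :
    Subgroup.centralizer (Q : Set K) ≤ Q := by
  classical
  by_contra hCQ
  set C := Subgroup.centralizer (Q : Set K) with hC
  have hCn : C.Normal := Subgroup.normal_centralizer
  obtain ⟨L, ⟨hLn, hLC, hLQ⟩, hmin⟩ := exists_minimal_of_wellFoundedLT
    (fun L : Subgroup K => L.Normal ∧ L ≤ C ∧ ¬ L ≤ Q) ⟨C, hCn, le_refl _, hCQ⟩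
  have hmaptop : L.map (QuotientGroup.mk' Q) = ⊤ := by
    have hmapn : (L.map (QuotientGroup.mk' Q)).Normal :=
      Subgroup.Normal.map hLn _ (QuotientGroup.mk'_surjective Q)
    rcases hsimp.eq_bot_or_eq_top_of_normal _ hmapn with h | h
    · exfalso
      apply hLQ
      rw [Subgroup.map_eq_bot_iff, QuotientGroup.ker_mk'] at h
      exact h
    · exact h
  have hsurj : ∀ a : K ⧸ Q, ∃ l ∈ L, (QuotientGroup.mk' Q) l = a := by
    intro a
    have : a ∈ L.map (QuotientGroup.mk' Q) := by rw [hmaptop]; trivial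
    obtain ⟨l, hl, hla⟩ := this
    exact ⟨l, hl, hla⟩
  have hLQtop : L ⊔ Q = ⊤ := by
    rw [eq_top_iff]
    intro k _
    obtain ⟨l, hl, hlk⟩ := hsurj (QuotientGroup.mk' Q k)
    have h1 : l⁻¹ * k ∈ Q := by
      have : (l : K ⧸ Q) = (k : K ⧸ Q) := hlk
      rwa [QuotientGroup.eq] at this
    have h2 : k = l * (l⁻¹ * k) := by group
    rw [h2]
    exact Subgroup.mul_mem_sup hl h1
  have hcentQ : ∀ n ∈ L, ∀ q ∈ Q, q * n = n * q := by
    intro n hn q hq
    exact (Subgroup.mem_centralizer_iff.mp (hLC hn)) q hq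
  have hnormal : ∀ N : Subgroup K, N ≤ L → L ≤ Subgroup.normalizer (N : Set K) → N.Normal := by
    intro N hNL hLN
    rw [← Subgroup.normalizer_eq_top_iff, eq_top_iff, ← hLQtop]
    apply sup_le hLN
    intro q hq
    rw [Subgroup.mem_normalizer_iff]
    intro n
    constructor
    · intro hn
      have h1 := hcentQ n (hNL hn) q hq
      have h2 : q * n * q⁻¹ = n := by rw [h1]; group
      rw [h2]; exact hn
    · intro hn
      have h1 := hcentQ _ (hNL hn) q hq
      have h2 : q * (q * n * q⁻¹) = q * n := by rw [h1]; group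
      have h3 : q * n * q⁻¹ = n := mul_left_cancel h2
      rw [← h3]; exact hn
  have hmin' : ∀ N : Subgroup K, N.Normal → N ≤ L → N = L ∨ N ≤ Q := by
    intro N hN hNL
    by_cases h : N ≤ Q
    · right; exact h
    · left; exact le_antisymm hNL (hmin ⟨hN, hNL.trans hLC, h⟩ hNL)
  -- L is perfect
  have hperf : ⁅L, L⁆ = L := by
    have hn : (⁅L, L⁆).Normal := Subgroup.commutator_normal L L
    rcases hmin' ⁅L, L⁆ hn (Subgroup.commutator_le_left L L) with h | h
    · exact h
    · exfalso
      apply hna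
      refine ⟨⟨fun a b => ?_⟩⟩
      obtain ⟨l₁, hl₁, rfl⟩ := hsurj a
      obtain ⟨l₂, hl₂, rfl⟩ := hsurj b
      show ((l₁ * l₂ : K) : K ⧸ Q) = ((l₂ * l₁ : K) : K ⧸ Q)
      rw [eq_comm, QuotientGroup.eq]
      have h1 : ⁅l₁⁻¹, l₂⁻¹⁆ ∈ ⁅L, L⁆ :=
        Subgroup.commutator_mem_commutator (L.inv_mem hl₁) (L.inv_mem hl₂)
      have h2 : (l₂ * l₁)⁻¹ * (l₁ * l₂) = ⁅l₁⁻¹, l₂⁻¹⁆ := by
        rw [commutatorElement_def]; group
      rw [h2]; exact h h1
  have hLne : L ≠ ⊥ := by
    intro h; apply hLQ; rw [h]; exact bot_le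
  -- L is quasisimple
  have hquasi : Cfsg.IsQuasisimple L := by
    refine ⟨Subgroup.isPerfect_iff.mpr hperf, ?_⟩
    have hnt : Nontrivial (L ⧸ Subgroup.center L) := by
      by_contra hcon
      rw [not_nontrivial_iff_subsingleton] at hcon
      have hct : Subgroup.center L = ⊤ := by
        rw [eq_top_iff]
        intro x _
        have : (x : L ⧸ Subgroup.center L) = ((1 : L) : L ⧸ Subgroup.center L) :=
          Subsingleton.elim _ _
        rw [QuotientGroup.eq] at this
        have h2 := (Subgroup.center L).inv_mem this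
        simpa using h2
      apply hLne
      rw [← hperf, Subgroup.commutator_eq_bot_iff_le_centralizer]
      intro x hx
      rw [Subgroup.mem_centralizer_iff]
      intro y hy
      have hxc : (⟨x, hx⟩ : L) ∈ Subgroup.center L := by rw [hct]; trivial
      have := Subgroup.mem_center_iff.mp hxc ⟨y, hy⟩
      exact congrArg Subtype.val this
    refine { toNontrivial := hnt, eq_bot_or_eq_top_of_normal := ?_ }
    intro N' hN'
    set N := N'.comap (QuotientGroup.mk' (Subgroup.center L)) with hNdef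
    have hNn : N.Normal := Subgroup.Normal.comap hN' _
    have hNK : (N.map L.subtype).Normal := by
      apply hnormal
      · rintro x ⟨y, -, rfl⟩; exact y.2
      · intro l hl
        rw [Subgroup.mem_normalizer_iff]
        intro x
        constructor
        · rintro ⟨y, hy, rfl⟩
          exact ⟨⟨l, hl⟩ * y * ⟨l, hl⟩⁻¹, hNn.conj_mem y hy ⟨l, hl⟩, rfl⟩
        · rintro ⟨y, hy, hyx⟩
          refine ⟨⟨l, hl⟩⁻¹ * y * ⟨l, hl⟩, ?_, ?_⟩
          · have := hNn.conj_mem y hy ⟨l, hl⟩⁻¹
            simpa using this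
          · have h1 : (y : K) = l * x * l⁻¹ := hyx
            show ((⟨l, hl⟩⁻¹ * y * ⟨l, hl⟩ : L) : K) = x
            simp only [Subgroup.coe_mul, Subgroup.coe_inv, h1]
            group
    have hmapN' : N.map (QuotientGroup.mk' (Subgroup.center L)) = N' :=
      Subgroup.map_comap_eq_self_of_surjective (QuotientGroup.mk'_surjective _) N'
    rcases hmin' _ hNK (by rintro x ⟨y, -, rfl⟩; exact y.2) with h | h
    · right
      have hNtop : N = ⊤ := by
        rw [eq_top_iff]
        intro y _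
        have : (y : K) ∈ N.map L.subtype := by rw [h]; exact y.2
        obtain ⟨y', hy', hyy⟩ := this
        have : y' = y := Subtype.ext hyy
        rw [← this]; exact hy'
      rw [← hmapN', hNtop, ← MonoidHom.range_eq_map]
      exact MonoidHom.range_eq_top.mpr (QuotientGroup.mk'_surjective _)
    · left
      rw [← hmapN', Subgroup.map_eq_bot_iff, QuotientGroup.ker_mk']
      intro y hy
      have hyK : (y : K) ∈ N.map L.subtype := ⟨y, hy, rfl⟩
      have hyc : (y : K) ∈ Subgroup.center K := hZ ⟨hLC y.2, h hyK⟩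
      rw [Subgroup.mem_center_iff]
      intro g
      apply Subtype.ext
      exact Subgroup.mem_center_iff.mp hyc g
  have hcomp : Cfsg.IsComponent L := ⟨hLn.isSubnormal, hquasi⟩
  apply hLQ
  rw [← hF]
  exact le_trans (le_sSup hcomp) le_sup_left

theorem fpf_inverts {G : Type*} [Group G] [Finite G] (N : Subgroup G) [hN : N.Normal] (z : G)
    (hz : z * z = 1) (hfpf : ∀ n ∈ N, z * n = n * z → n = 1) : ∀ n ∈ N, z * n * z⁻¹ = n⁻¹ := by
  have hzinv : z⁻¹ = z := inv_eq_of_mul_eq_one_left hz
  let φ : N → N := fun a =>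
    ⟨(a : G)⁻¹ * (z * a * z⁻¹), N.mul_mem (N.inv_mem a.2) (hN.conj_mem a a.2 z)⟩
  have hinj : Function.Injective φ := by
    intro a b hab
    have h : (a : G)⁻¹ * (z * a * z⁻¹) = (b : G)⁻¹ * (z * b * z⁻¹) := congrArg Subtype.val hab
    have h3 : (a : G)⁻¹ * z * a = (b : G)⁻¹ * z * b := by
      have := congrArg (fun t => t * z) h
      simpa [mul_assoc] using this
    have h2 : z * ((b : G) * (a : G)⁻¹) = ((b : G) * (a : G)⁻¹) * z := by
      calc z * ((b : G) * (a : G)⁻¹) = b * ((b : G)⁻¹ * z * b) * (a : G)⁻¹ := by group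
        _ = b * ((a : G)⁻¹ * z * a) * (a : G)⁻¹ := by rw [h3]
        _ = (b : G) * (a : G)⁻¹ * z := by group
    have h4 := hfpf _ (N.mul_mem b.2 (N.inv_mem a.2)) h2
    apply Subtype.ext
    exact (mul_inv_eq_one.mp h4).symm
  have hsurj : Function.Surjective φ := Finite.surjective_of_injective hinj
  intro n hn
  obtain ⟨a, ha⟩ := hsurj ⟨n, hn⟩
  have hn' : n = (a : G)⁻¹ * (z * a * z⁻¹) := (congrArg Subtype.val ha).symm
  rw [hn', hzinv]
  have e : (((a : G)⁻¹ * (z * a * z)))⁻¹ = z⁻¹ * (a : G)⁻¹ * z⁻¹ * a := by group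
  rw [e, hzinv]
  calc z * ((a : G)⁻¹ * (z * a * z)) * z = z * (a : G)⁻¹ * z * a * (z * z) := by group
    _ = z * (a : G)⁻¹ * z * a := by rw [hz, mul_one]

theorem zpowers_two {G : Type*} [Group G] (z : G) (hz : orderOf z = 2) :
    ∀ y ∈ Subgroup.zpowers z, y = 1 ∨ y = z := by
  intro y hy
  obtain ⟨k, rfl⟩ := Subgroup.mem_zpowers_iff.mp hy
  rw [← zpow_mod_orderOf, hz]
  have h1 : k % (2 : ℤ) = 0 ∨ k % (2 : ℤ) = 1 := by omega
  rcases h1 with h | h
  · left; rw [show ((2 : ℕ) : ℤ) = 2 from rfl, h, zpow_zero]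
  · right; rw [show ((2 : ℕ) : ℤ) = 2 from rfl, h, zpow_one]

theorem closure_conj_normal {K : Type*} [Group K] (s : Set K)
    (hs : ∀ k : K, ∀ x ∈ s, k * x * k⁻¹ ∈ s) : (Subgroup.closure s).Normal := by
  constructor
  intro n hn k
  induction hn using Subgroup.closure_induction with
  | mem x hx => exact Subgroup.subset_closure (hs k x hx)
  | one => simp
  | mul x y _ _ hx hy =>
    have : k * (x * y) * k⁻¹ = (k * x * k⁻¹) * (k * y * k⁻¹) := by group
    rw [this]; exact Subgroup.mul_mem _ hx hy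
  | inv x _ hx =>
    have : k * x⁻¹ * k⁻¹ = (k * x * k⁻¹)⁻¹ := by group
    rw [this]; exact Subgroup.inv_mem _ hx

theorem main {G : Type*} [Group G] [Finite G] (z : G) (hz : orderOf z = 2) (H : Subgroup G)
    (hH : H = Subgroup.centralizer ({z} : Set G)) (Q : Subgroup H) [Q.Normal]
    (hF : Cfsg.generalizedFittingSubgroup H = Q) (hQ : Cfsg.IsExtraspecial 2 ↥Q)
    (hnwc : ∃ g : G, (∃ hq : g * z * g⁻¹ ∈ H, (⟨g * z * g⁻¹, hq⟩ : H) ∈ Q) ∧ g * z * g⁻¹ ≠ z)
    (hsimp : IsSimpleGroup (H ⧸ Q)) (hna : ¬ IsMulCommutative (H ⧸ Q))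
    (hirr : ∀ W : Subgroup H, W.Normal → W ≤ Q → (W = Q ∨ ∀ x ∈ W, (x : G) ∈ Subgroup.zpowers z))
    (hwcl : Subgroup.closure {x : H | IsConj z (x : G)} ≠ Q) : IsSimpleGroup G := by
  classical
  haveI : Fact (Nat.Prime 2) := ⟨Nat.prime_two⟩
  have hzz : z * z = 1 := by
    have := pow_orderOf_eq_one z
    rw [hz, pow_two] at this; exact this
  have hzinv : z⁻¹ = z := inv_eq_of_mul_eq_one_left hzz
  have hz1 : z ≠ 1 := by
    intro h; rw [h, orderOf_one] at hz; norm_num at hz
  have hzH : z ∈ H := by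
    rw [hH, Subgroup.mem_centralizer_iff]
    intro y hy
    rw [Set.mem_singleton_iff] at hy
    rw [hy]
  have hcomm : ∀ x ∈ H, z * x = x * z := by
    intro x hx
    rw [hH] at hx
    exact (Subgroup.mem_centralizer_iff.mp hx) z rfl
  have hmemH : ∀ x : G, z * x = x * z → x ∈ H := by
    intro x hx
    rw [hH, Subgroup.mem_centralizer_iff]
    intro y hy
    rw [Set.mem_singleton_iff] at hy
    rw [hy]; exact hx
  obtain ⟨zH, hzHv⟩ : ∃ zH : H, (zH : G) = z := ⟨⟨z, hzH⟩, rfl⟩
  have hzHc : zH ∈ Subgroup.center H := by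
    rw [Subgroup.mem_center_iff]
    intro x
    apply Subtype.ext
    rw [Subgroup.coe_mul, Subgroup.coe_mul, hzHv]
    exact (hcomm x x.2).symm
  -- F1 : z ∈ Q
  have hzQ : zH ∈ Q := by
    rw [← hF]
    apply (le_sup_right : Cfsg.fittingSubgroup H ≤ Cfsg.layer H ⊔ Cfsg.fittingSubgroup H)
    have hmem : Subgroup.center H ∈ {N : Subgroup H | N.Normal ∧ Group.IsNilpotent N} := by
      refine ⟨inferInstance, ?_⟩
      apply nilp_of_comm
      intro a b
      apply Subtype.ext
      exact (Subgroup.mem_center_iff.mp a.2 b).symm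
    exact (le_sSup hmem) hzHc
  obtain ⟨⟨hQp, hQfr, hQcomm⟩, hQcard⟩ := hQ
  obtain ⟨zQ, hzQv⟩ : ∃ zQ : Q, (zQ : H) = zH := ⟨⟨zH, hzQ⟩, rfl⟩
  have hzQG : ((zQ : H) : G) = z := by rw [hzQv, hzHv]
  have hzQc : zQ ∈ Subgroup.center Q := by
    rw [Subgroup.mem_center_iff]
    intro x
    apply Subtype.ext
    rw [Subgroup.coe_mul, Subgroup.coe_mul, hzQv]
    exact Subgroup.mem_center_iff.mp hzHc x
  have hzQ1 : zQ ≠ 1 := by
    intro h
    apply hz1
    rw [← hzQG, h]; rfl
  -- F2 : the centre of Q is {1, z}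
  have hZQ : ∀ x : Q, x ∈ Subgroup.center Q → x = 1 ∨ x = zQ := by
    intro x hx
    by_cases hx1 : x = 1
    · left; exact hx1
    · right
      obtain ⟨y, hy1, hy2⟩ := (Nat.card_eq_two_iff' (1 : Subgroup.center Q)).mp hQcard
      have h1 := hy2 ⟨x, hx⟩ (by intro h; exact hx1 (by simpa using congrArg Subtype.val h))
      have h2 := hy2 ⟨zQ, hzQc⟩ (by intro h; exact hzQ1 (by simpa using congrArg Subtype.val h))
      have := h1.trans h2.symm
      simpa using congrArg Subtype.val this
  -- F3 : noncentral elements of Q are conjugate to their product with z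
  have hF3 : ∀ t : Q, t ≠ 1 → t ≠ zQ → ∃ q : Q, q * t * q⁻¹ = t * zQ := by
    intro t ht1 htz
    have hnc : t ∉ Subgroup.center Q := fun h => by
      rcases hZQ t h with h | h
      · exact ht1 h
      · exact htz h
    rw [Subgroup.mem_center_iff] at hnc
    push Not at hnc
    obtain ⟨q, hq⟩ := hnc
    refine ⟨q, ?_⟩
    have hc : ⁅q, t⁆ ∈ commutator Q := Subgroup.commutator_mem_commutator trivial trivial
    rw [hQcomm] at hc
    rcases hZQ _ hc with h | h
    · exfalso
      apply hq
      rw [commutatorElement_def] at h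
      have : q * t = (q * t * q⁻¹ * t⁻¹) * t * q := by group
      rw [this, h]; group
    · rw [commutatorElement_def] at h
      have e : q * t * q⁻¹ = (q * t * q⁻¹ * t⁻¹) * t := by group
      rw [e, h]
      exact (Subgroup.mem_center_iff.mp hzQc t).symm
  -- F4 : the centralizer of Q in H lies in Q
  have hF4 : Subgroup.centralizer (Q : Set H) ≤ Q := by
    apply cent_le Q hF hsimp hna
    rintro x ⟨hx1, hx2⟩
    have hxc : (⟨x, hx2⟩ : Q) ∈ Subgroup.center Q := by
      rw [Subgroup.mem_center_iff]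
      intro y
      apply Subtype.ext
      exact (Subgroup.mem_centralizer_iff.mp hx1) y y.2
    rcases hZQ _ hxc with h | h
    · have : x = 1 := by simpa using congrArg Subtype.val h
      rw [this]; exact Subgroup.one_mem _
    · have : x = zH := by rw [← hzQv, ← h]
      rw [this]; exact hzHc
  -- the conjugate t
  obtain ⟨g, ⟨hgH, hgQ⟩, hgz⟩ := hnwc
  obtain ⟨t, ht⟩ : ∃ t : G, t = g * z * g⁻¹ := ⟨_, rfl⟩
  rw [← ht] at hgz
  obtain ⟨tH, htHv⟩ : ∃ tH : H, (tH : G) = t := ⟨⟨g * z * g⁻¹, hgH⟩, ht.symm⟩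
  have htHQ : tH ∈ Q := by
    have : tH = ⟨g * z * g⁻¹, hgH⟩ := Subtype.ext (by rw [htHv, ht])
    rw [this]; exact hgQ
  obtain ⟨tQ, htQv⟩ : ∃ tQ : Q, (tQ : H) = tH := ⟨⟨tH, htHQ⟩, rfl⟩
  have htQG : ((tQ : H) : G) = t := by rw [htQv, htHv]
  have ht1 : t ≠ 1 := by
    intro h
    apply hz1
    have : z = g⁻¹ * t * g := by rw [ht]; group
    rw [this, h]; group
  have htQ1 : tQ ≠ 1 := by
    intro h
    apply ht1
    rw [← htQG, h]; rfl
  have htQz : tQ ≠ zQ := by
    intro h
    apply hgz
    rw [← htQG, h, hzQG]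
  have htnz : t ∉ Subgroup.zpowers z := by
    intro h
    rcases zpowers_two z hz t h with h | h
    · exact ht1 h
    · exact hgz h
  obtain ⟨q, hq⟩ := hF3 tQ htQ1 htQz
  have hqG : ((q : H) : G) * t * ((q : H) : G)⁻¹ = t * z := by
    have := congrArg (fun y : Q => ((y : H) : G)) hq
    simp only [Subgroup.coe_mul, Subgroup.coe_inv, htQG, hzQG] at this
    exact this
  -- simplicity
  refine { toNontrivial := ⟨⟨z, 1, hz1⟩⟩, eq_bot_or_eq_top_of_normal := ?_ }
  intro N hN
  by_cases hNbot : N = ⊥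
  · left; exact hNbot
  right
  -- Step 1: z ∈ N
  have hzN : z ∈ N := by
    obtain ⟨X, hX⟩ : ∃ X : Subgroup H, X = N.subgroupOf H := ⟨_, rfl⟩
    have hXn : X.Normal := by rw [hX]; exact Subgroup.normal_subgroupOf
    by_cases hXQ : X ⊓ Q = ⊥
    · exfalso
      have hXbot : X = ⊥ := by
        have h1 : ⁅X, Q⁆ = ⊥ := by
          rw [eq_bot_iff, ← hXQ]; exact Subgroup.commutator_le_inf X Q
        rw [Subgroup.commutator_eq_bot_iff_le_centralizer] at h1
        rw [eq_bot_iff, ← hXQ]
        exact le_inf (le_refl _) (h1.trans hF4)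
      have hfpf : ∀ n ∈ N, z * n = n * z → n = 1 := by
        intro n hn hc
        have hnH : n ∈ H := hmemH n hc
        have : (⟨n, hnH⟩ : H) ∈ X := by rw [hX, Subgroup.mem_subgroupOf]; exact hn
        rw [hXbot, Subgroup.mem_bot] at this
        simpa using congrArg Subtype.val this
      have conj_fpf : ∀ c : G, ∀ n ∈ N, (c * z * c⁻¹) * n = n * (c * z * c⁻¹) → n = 1 := by
        intro c n hn hc
        have h1 : c⁻¹ * n * c ∈ N := by
          have := hN.conj_mem n hn c⁻¹
          simpa using this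
        have h2 : z * (c⁻¹ * n * c) = (c⁻¹ * n * c) * z := by
          calc z * (c⁻¹ * n * c) = c⁻¹ * ((c * z * c⁻¹) * n) * c := by group
            _ = c⁻¹ * (n * (c * z * c⁻¹)) * c := by rw [hc]
            _ = (c⁻¹ * n * c) * z := by group
        have h3 := hfpf _ h1 h2
        have : n = c * (c⁻¹ * n * c) * c⁻¹ := by group
        rw [this, h3]; group
      have conj_sq : ∀ c : G, (c * z * c⁻¹) * (c * z * c⁻¹) = 1 := by
        intro c
        calc (c * z * c⁻¹) * (c * z * c⁻¹) = c * (z * z) * c⁻¹ := by group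
          _ = 1 := by rw [hzz]; group
      have inv1 := fpf_inverts N z hzz hfpf
      have inv2 := fpf_inverts N t (by rw [ht]; exact conj_sq g) (by rw [ht]; exact conj_fpf g)
      have htz_conj : t * z = (((q : H) : G) * g) * z * (((q : H) : G) * g)⁻¹ := by
        rw [← hqG, ht]; group
      have inv3 := fpf_inverts N (t * z) (by rw [htz_conj]; exact conj_sq _)
        (by rw [htz_conj]; exact conj_fpf _)
      apply hNbot
      rw [eq_bot_iff]
      intro n hn
      rw [Subgroup.mem_bot]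
      have h1 := inv1 n hn
      have h2 := inv2 n⁻¹ (N.inv_mem hn)
      have h3 := inv3 n hn
      have h4 : n = n⁻¹ := by
        calc n = t * n⁻¹ * t⁻¹ := by rw [h2, inv_inv]
          _ = t * (z * n * z⁻¹) * t⁻¹ := by rw [h1]
          _ = (t * z) * n * (t * z)⁻¹ := by group
          _ = n⁻¹ := h3
      apply hfpf n hn
      have h5 : z * n * z⁻¹ = n := by rw [h1]; exact h4.symm
      calc z * n = (z * n * z⁻¹) * z := by group
        _ = n * z := by rw [h5]
    · have hWn : (X ⊓ Q).Normal := Subgroup.normal_inf_normal X Q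
      rcases hirr (X ⊓ Q) hWn inf_le_right with h | h
      · have h0 : zH ∈ X ⊓ Q := by rw [h]; exact hzQ
        have h1 : zH ∈ X := h0.1
        rw [hX, Subgroup.mem_subgroupOf, hzHv] at h1
        exact h1
      · obtain ⟨x, hx, hx1⟩ : ∃ x ∈ X ⊓ Q, x ≠ 1 := by
          by_contra hcon
          push Not at hcon
          apply hXQ
          rw [eq_bot_iff]
          intro x hx
          rw [Subgroup.mem_bot]; exact hcon x hx
        have hxz := h x hx
        rcases zpowers_two z hz _ hxz with h' | h'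
        · exfalso; apply hx1; apply Subtype.ext; simpa using h'
        · have h1 : x ∈ X := hx.1
          rw [hX, Subgroup.mem_subgroupOf, h'] at h1
          exact h1
  -- Step 2: the normal closure M of z is everything
  obtain ⟨M, hM⟩ : ∃ M : Subgroup G, M = Subgroup.normalClosure ({z} : Set G) := ⟨_, rfl⟩
  have hMN : M ≤ N := by
    rw [hM]
    exact Subgroup.normalClosure_le_normal (by
      intro x hx
      rw [Set.mem_singleton_iff] at hx
      rw [hx]; exact hzN)
  have hMn : M.Normal := by rw [hM]; exact Subgroup.normalClosure_normal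
  have hzM : z ∈ M := by rw [hM]; exact Subgroup.subset_normalClosure (Set.mem_singleton z)
  have hconjM : ∀ c : G, c * z * c⁻¹ ∈ M := fun c => hMn.conj_mem z hzM c
  obtain ⟨Y, hY⟩ : ∃ Y : Subgroup H, Y = M.subgroupOf H := ⟨_, rfl⟩
  have hYn : Y.Normal := by rw [hY]; exact Subgroup.normal_subgroupOf
  have htY : tH ∈ Y := by rw [hY, Subgroup.mem_subgroupOf, htHv, ht]; exact hconjM g
  -- (a) Q ≤ Y
  have hQY : Q ≤ Y := by
    have hWn : (Y ⊓ Q).Normal := Subgroup.normal_inf_normal Y Q
    rcases hirr (Y ⊓ Q) hWn inf_le_right with h | h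
    · rw [← h]; exact inf_le_left
    · exfalso
      have := h tH ⟨htY, htHQ⟩
      rw [htHv] at this
      exact htnz this
  -- (b) H ≤ M
  have hYtop : Y = ⊤ := by
    have hmapn : (Y.map (QuotientGroup.mk' Q)).Normal :=
      Subgroup.Normal.map hYn _ (QuotientGroup.mk'_surjective Q)
    rcases hsimp.eq_bot_or_eq_top_of_normal _ hmapn with h | h
    · exfalso
      rw [Subgroup.map_eq_bot_iff, QuotientGroup.ker_mk'] at h
      have hYQ : Y = Q := le_antisymm h hQY
      obtain ⟨R, hR⟩ : ∃ R : Subgroup H, R = Subgroup.closure {x : H | IsConj z (x : G)} :=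
        ⟨_, rfl⟩
      have hRn : R.Normal := by
        rw [hR]
        apply closure_conj_normal
        intro k x hx
        have hx' : IsConj z (x : G) := hx
        show IsConj z ((k * x * k⁻¹ : H) : G)
        have h2 : IsConj (x : G) ((k * x * k⁻¹ : H) : G) := by
          rw [isConj_iff]
          exact ⟨(k : G), by simp⟩
        exact hx'.trans h2
      have hRQ : R ≤ Q := by
        rw [hR, Subgroup.closure_le]
        intro x hx
        have hx' : IsConj z (x : G) := hx
        rw [isConj_iff] at hx'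
        obtain ⟨c, hc⟩ := hx'
        have : x ∈ Y := by
          rw [hY, Subgroup.mem_subgroupOf, ← hc]; exact hconjM c
        rw [hYQ] at this
        exact this
      have htR : tH ∈ R := by
        rw [hR]
        apply Subgroup.subset_closure
        show IsConj z (tH : G)
        rw [isConj_iff, htHv]
        exact ⟨g, ht.symm⟩
      rcases hirr R hRn hRQ with h' | h'
      · exact hwcl (hR ▸ h')
      · have := h' tH htR
        rw [htHv] at this
        exact htnz this
    · rw [eq_top_iff]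
      intro k _
      have : QuotientGroup.mk' Q k ∈ Y.map (QuotientGroup.mk' Q) := by rw [h]; trivial
      obtain ⟨l, hl, hlk⟩ := this
      have h1 : l⁻¹ * k ∈ Q := by
        have : (l : H ⧸ Q) = (k : H ⧸ Q) := hlk
        rwa [QuotientGroup.eq] at this
      have h2 : k = l * (l⁻¹ * k) := by group
      rw [h2]
      exact Y.mul_mem hl (hQY h1)
  have hHM : H ≤ M := by
    intro x hx
    have : (⟨x, hx⟩ : H) ∈ Y := by rw [hYtop]; trivial
    rw [hY, Subgroup.mem_subgroupOf] at this
    exact this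
  -- (c) Frattini argument
  obtain ⟨QG, hQG⟩ : ∃ QG : Subgroup G, QG = Q.map H.subtype := ⟨_, rfl⟩
  have hQGmem : ∀ x : G, x ∈ QG ↔ ∃ y : H, y ∈ Q ∧ (y : G) = x := by
    intro x
    rw [hQG, Subgroup.mem_map]
    simp
  have hQGM : QG ≤ M := by
    intro x hx
    obtain ⟨y, -, rfl⟩ := (hQGmem x).mp hx
    exact hHM y.2
  have hQGp : IsPGroup 2 (QG.subgroupOf M) := by
    intro x
    have hx : (x : G) ∈ QG := x.2
    obtain ⟨y, hy, hyx⟩ := (hQGmem _).mp hx
    obtain ⟨k, hk⟩ := hQp ⟨y, hy⟩
    refine ⟨k, ?_⟩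
    apply Subtype.ext
    apply Subtype.ext
    have := congrArg (fun u : Q => ((u : H) : G)) hk
    simp only [Subgroup.coe_pow, Subgroup.coe_one] at this ⊢
    rw [← this, hyx]
  obtain ⟨S, hS⟩ := hQGp.exists_le_sylow
  have hfr := Sylow.normalizer_sup_eq_top S
  obtain ⟨T, hT⟩ : ∃ T : Subgroup G, T = (S : Subgroup M).map M.subtype := ⟨_, rfl⟩
  rw [← hT] at hfr
  have hQT : QG ≤ T := by
    intro x hx
    rw [hT]
    exact ⟨⟨x, hQGM hx⟩, hS (by simpa [Subgroup.mem_subgroupOf] using hx), rfl⟩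
  have hpT : IsPGroup 2 T := by rw [hT]; exact S.isPGroup'.map M.subtype
  have hzQG' : z ∈ QG := (hQGmem z).mpr ⟨zH, hzQ, hzHv⟩
  have hcentQG : ∀ x : G, (∀ y ∈ QG, y * x = x * y) → x = 1 ∨ x = z := by
    intro x hx
    have hxH : x ∈ H := hmemH x (hx z hzQG')
    have hxC : (⟨x, hxH⟩ : H) ∈ Subgroup.centralizer (Q : Set H) := by
      rw [Subgroup.mem_centralizer_iff]
      intro y hy
      apply Subtype.ext
      exact hx y ((hQGmem _).mpr ⟨y, hy, rfl⟩)
    have hxQ := hF4 hxC
    have hxc : (⟨⟨x, hxH⟩, hxQ⟩ : Q) ∈ Subgroup.center Q := by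
      rw [Subgroup.mem_center_iff]
      intro y
      apply Subtype.ext
      exact (Subgroup.mem_centralizer_iff.mp hxC) y y.2
    rcases hZQ _ hxc with h | h
    · left
      have := congrArg (fun u : Q => ((u : H) : G)) h
      simpa using this
    · right
      have := congrArg (fun u : Q => ((u : H) : G)) h
      simp only [hzQG] at this
      exact this
  haveI : Nontrivial T := by
    refine ⟨⟨⟨z, hQT hzQG'⟩, 1, ?_⟩⟩
    intro h
    apply hz1
    simpa using congrArg Subtype.val h
  haveI : Nontrivial (Subgroup.center T) := hpT.center_nontrivial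
  obtain ⟨c, hc⟩ := exists_ne (1 : Subgroup.center T)
  have hcT : ((c : T) : G) ∈ T := (c : T).2
  have hc1 : ((c : T) : G) ≠ 1 := by
    intro h
    apply hc
    apply Subtype.ext
    apply Subtype.ext
    simpa using h
  have hccomm : ∀ y ∈ T, y * ((c : T) : G) = ((c : T) : G) * y := by
    intro y hy
    have := (Subgroup.mem_center_iff.mp c.2) ⟨y, hy⟩
    simpa using congrArg (fun u : T => (u : G)) this
  have hcz : ((c : T) : G) = z := by
    rcases hcentQG _ (fun y hy => hccomm y (hQT hy)) with h | h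
    · exact absurd h hc1
    · exact h
  have key : Subgroup.normalizer (T : Set G) ≤ M := by
    intro k hk
    apply hHM
    apply hmemH
    have hkT : ∀ y, y ∈ T ↔ k * y * k⁻¹ ∈ T := fun y => Subgroup.mem_normalizer_iff.mp hk y
    have hkz : k * z * k⁻¹ = z := by
      have h1 : ∀ y ∈ QG, y * (k * z * k⁻¹) = (k * z * k⁻¹) * y := by
        intro y hy
        have hy' : k⁻¹ * y * k ∈ T := by
          rw [hkT]
          have : k * (k⁻¹ * y * k) * k⁻¹ = y := by group
          rw [this]; exact hQT hy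
        have h2 := hccomm _ hy'
        rw [hcz] at h2
        calc y * (k * z * k⁻¹) = k * ((k⁻¹ * y * k) * z) * k⁻¹ := by group
          _ = k * (z * (k⁻¹ * y * k)) * k⁻¹ := by rw [h2]
          _ = (k * z * k⁻¹) * y := by group
      rcases hcentQG _ h1 with h | h
      · exfalso
        apply hz1
        have : z = k⁻¹ * (k * z * k⁻¹) * k := by group
        rw [this, h]; group
      · exact h
    calc z * k = (k * z * k⁻¹) * k := by rw [hkz]
      _ = k * z := by group
  rw [eq_top_iff]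
  calc (⊤ : Subgroup G) = Subgroup.normalizer (T : Set G) ⊔ M := hfr.symm
    _ ≤ M := sup_le key (le_refl M)
    _ ≤ N := hMN

/-- Let z be an involution of the finite group G with centralizer H whose generalized Fitting subgroup Q is extraspecial of width at least 2 (order 2^(2w+1), w ≥ 2); suppose some conjugate of z other than z lies in Q, H/Q is a non-abelian simple group, H acts irreducibly by conjugation on Q modulo the subgroup generated by z (the only H-invariant subgroups of Q containing z are that subgroup and Q), and Q is not the subgroup generated by the conjugates of z lying in H. Then G is simple. -/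
theorem result {G : Type*} [Group G] [Finite G] (z : G) (hz : orderOf z = 2) (Q : Subgroup (Subgroup.centralizer ({z} : Set G))) [Q.Normal] (hF : Cfsg.generalizedFittingSubgroup ↥(Subgroup.centralizer ({z} : Set G)) = Q) (hQ : Cfsg.IsExtraspecial 2 ↥Q) (w : ℕ) (hw : 2 ≤ w) (hcard : Nat.card ↥Q = 2 ^ (2 * w + 1)) (hnwc : ∃ g : G, (∃ hq : g * z * g⁻¹ ∈ Subgroup.centralizer ({z} : Set G), (⟨g * z * g⁻¹, hq⟩ : Subgroup.centralizer ({z} : Set G)) ∈ Q) ∧ g * z * g⁻¹ ≠ z) (hsimp : IsSimpleGroup (↥(Subgroup.centralizer ({z} : Set G)) ⧸ Q)) (hna : ¬ IsMulCommutative (↥(Subgroup.centralizer ({z} : Set G)) ⧸ Q)) (hirr : ∀ W : Subgroup (Subgroup.centralizer ({z} : Set G)), W.Normal → W ≤ Q → (W = Q ∨ ∀ x ∈ W, (x : G) ∈ Subgroup.zpowers z)) (hwcl : Subgroup.closure {x : Subgroup.centralizer ({z} : Set G) | IsConj z (x : G)} ≠ Q) : IsSimpleGroup G :=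
  main z hz _ rfl Q hF hQ hnwc hsimp hna hirr hwcl

end Cfsg.Agent.S5436
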