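import Cfsg.Statements.S5438
import Mathlib

set_option autoImplicit false
open Cfsg

namespace Cfsg.Agent.S5438

open scoped Pointwise

theorem orderOf_conj' {K : Type*} [Group K] (g x : K) : orderOf (g * x * g⁻¹) = orderOf x := by
  have := (MulAut.conj g).orderOf_eq x
  rwa [MulAut.conj_apply] at this

/-- A 2-element of a finite group is conjugate into any given Sylow 2-subgroup. -/
theorem conj_mem_sylow {K : Type*} [Group K] [Finite K] (R : Sylow 2 K) (w : K)
    (hw : ∃ k : ℕ, orderOf w = 2 ^ k) : ∃ c : K, c * w * c⁻¹ ∈ R := by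
  haveI : Fact (Nat.Prime 2) := ⟨Nat.prime_two⟩
  obtain ⟨k, hk⟩ := hw
  have hp : IsPGroup 2 (Subgroup.zpowers w) := by
    apply IsPGroup.of_card (n := k)
    rw [Nat.card_zpowers, hk]
  obtain ⟨R', hR'⟩ := hp.exists_le_sylow
  obtain ⟨c, hc⟩ := MulAction.exists_smul_eq K R' R
  refine ⟨c, ?_⟩
  have hw' : w ∈ (R' : Subgroup K) := hR' (Subgroup.mem_zpowers w)
  have h2 : c * w * c⁻¹ ∈ ((c • R' : Sylow 2 K) : Subgroup K) := by
    rw [Sylow.coe_subgroup_smul]
    have := Subgroup.smul_mem_pointwise_smul w (MulAut.conj c) (R' : Subgroup K) hw'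
    simpa [MulAut.smul_def, MulAut.conj_apply] using this
  rw [hc] at h2
  exact h2

/-- Let z be a 2-central involution of the finite group G (an involution central in some Sylow 2-subgroup) and H a subgroup containing z such that the coset H is the only coset of H fixed by z (in the action of G on the cosets of H). Then H has odd index in G, and for every 2-element x of H the conjugates of x lying in H form a single H-class. -/
theorem result {G : Type*} [Group G] [Finite G] (z : G) (hz : Cfsg.IsTwoCentralInvolution z) (H : Subgroup G) (hzH : z ∈ H) (hfix : ∀ g : G, g⁻¹ * z * g ∈ H → g ∈ H) : Odd H.index ∧ ∀ x ∈ H, (∃ k : ℕ, orderOf x = 2 ^ k) → ∀ g : G, g * x * g⁻¹ ∈ H → ∃ h ∈ H, h * x * h⁻¹ = g * x * g⁻¹ := by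
  classical
  haveI : Fact (Nat.Prime 2) := ⟨Nat.prime_two⟩
  obtain ⟨hz2, P, hzP, hzc⟩ := hz
  have hPH : (P : Subgroup G) ≤ H := by
    intro x hx
    apply hfix
    have : x⁻¹ * z * x = z := by
      have := hzc x hx
      calc x⁻¹ * z * x = x⁻¹ * (z * x) := by group
        _ = x⁻¹ * (x * z) := by rw [this]
        _ = z := by group
    rw [this]; exact hzH
  have hodd : ¬ 2 ∣ H.index := by
    intro h
    exact P.not_dvd_index (dvd_trans h (Subgroup.index_dvd_of_le hPH))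
  have hodd' : Odd H.index := Nat.odd_iff.mpr (Nat.two_dvd_ne_zero.mp hodd)
  refine ⟨hodd', ?_⟩
  -- any 2-subgroup containing z and a conjugate v⁻¹ z v forces v ∈ H
  have keyS : ∀ S : Subgroup G, IsPGroup 2 S → z ∈ S → ∀ v : G, v⁻¹ * z * v ∈ S → v ∈ H := by
    intro S hS hzS v hv
    have hcard : ¬ 2 ∣ Nat.card (G ⧸ H) := hodd
    obtain ⟨q, hq⟩ := hS.nonempty_fixed_point_of_prime_not_dvd_card (G ⧸ H) hcard
    induction q using QuotientGroup.induction_on with
    | H u =>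
      have hfixu : ∀ s ∈ S, u⁻¹ * s * u ∈ H := by
        intro s hs
        have := hq ⟨s, hs⟩
        have h' : s • (u : G ⧸ H) = (u : G ⧸ H) := this
        rw [MulAction.Quotient.smul_mk, eq_comm, QuotientGroup.eq] at h'
        simpa [mul_assoc] using h'
      have hu : u ∈ H := hfix u (hfixu z hzS)
      have h2 := hfixu _ hv
      have hvu : v * u ∈ H := by
        apply hfix
        have : (v * u)⁻¹ * z * (v * u) = u⁻¹ * (v⁻¹ * z * v) * u := by group
        rw [this]; exact h2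
      exact (Subgroup.mul_mem_cancel_right H hu).mp hvu
  -- reduction to elements of P
  have main : ∀ x ∈ (P : Subgroup G), ∀ k : G, k * x * k⁻¹ ∈ (P : Subgroup G) →
      ∃ h ∈ H, h * x * h⁻¹ = k * x * k⁻¹ := by
    intro x hx k hy
    have hzx : z ∈ Subgroup.centralizer ({x} : Set G) := by
      rw [Subgroup.mem_centralizer_iff]
      intro y hy'
      rw [Set.mem_singleton_iff] at hy'
      subst hy'
      exact hzc y hx
    have hz'x : k⁻¹ * z * k ∈ Subgroup.centralizer ({x} : Set G) := by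
      rw [Subgroup.mem_centralizer_iff]
      intro y hy'
      rw [Set.mem_singleton_iff] at hy'
      subst hy'
      have := hzc _ hy
      calc y * (k⁻¹ * z * k) = k⁻¹ * ((k * y * k⁻¹) * z) * k := by group
        _ = k⁻¹ * (z * (k * y * k⁻¹)) * k := by rw [this]
        _ = k⁻¹ * z * k * y := by group
    set C := Subgroup.centralizer ({x} : Set G) with hC
    have hzC2 : IsPGroup 2 (Subgroup.zpowers (⟨z, hzx⟩ : C)) := by
      apply IsPGroup.of_card (n := 1)
      rw [Nat.card_zpowers, ← Subgroup.orderOf_coe]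
      simpa using hz2
    obtain ⟨S, hS⟩ := hzC2.exists_le_sylow
    obtain ⟨c, hc⟩ := conj_mem_sylow S (⟨k⁻¹ * z * k, hz'x⟩ : C) ⟨1, by
      rw [← Subgroup.orderOf_coe]
      show orderOf (k⁻¹ * z * k) = 2 ^ 1
      have : k⁻¹ * z * k = k⁻¹ * z * k⁻¹⁻¹ := by group
      rw [this, orderOf_conj']; simpa using hz2⟩
    have hSG : IsPGroup 2 ((S : Subgroup C).map C.subtype) := S.isPGroup'.map C.subtype
    have hzS : z ∈ (S : Subgroup C).map C.subtype :=
      ⟨⟨z, hzx⟩, hS (Subgroup.mem_zpowers _), rfl⟩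
    have hv : (k * (c : G)⁻¹)⁻¹ * z * (k * (c : G)⁻¹) ∈ (S : Subgroup C).map C.subtype := by
      refine ⟨_, hc, ?_⟩
      simp only [Subgroup.coe_subtype, Subgroup.coe_mul, Subgroup.coe_inv]
      group
    have hvH := keyS _ hSG hzS _ hv
    refine ⟨k * (c : G)⁻¹, hvH, ?_⟩
    have hcx : (c : G) * x = x * (c : G) := by
      have := (Subgroup.mem_centralizer_iff.mp c.2) x (Set.mem_singleton x)
      exact this.symm
    calc k * (c : G)⁻¹ * x * (k * (c : G)⁻¹)⁻¹ = k * ((c : G)⁻¹ * (x * (c : G))) * k⁻¹ := by group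
      _ = k * ((c : G)⁻¹ * ((c : G) * x)) * k⁻¹ := by rw [hcx]
      _ = k * x * k⁻¹ := by group
  intro x hxH hx2 g hgx
  -- conjugate x and g x g⁻¹ into P inside H
  obtain ⟨a, ha⟩ := conj_mem_sylow (P.subtype hPH) (⟨x, hxH⟩ : H) (by
    obtain ⟨k, hk⟩ := hx2
    exact ⟨k, by rw [← Subgroup.orderOf_coe]; exact hk⟩)
  obtain ⟨b, hb⟩ := conj_mem_sylow (P.subtype hPH) (⟨g * x * g⁻¹, hgx⟩ : H) (by
    obtain ⟨k, hk⟩ := hx2
    refine ⟨k, ?_⟩
    rw [← Subgroup.orderOf_coe]
    show orderOf (g * x * g⁻¹) = 2 ^ k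
    rw [orderOf_conj']; exact hk)
  have ha' : (a : G) * x * (a : G)⁻¹ ∈ (P : Subgroup G) := by
    have : a * ⟨x, hxH⟩ * a⁻¹ ∈ ((P.subtype hPH : Sylow 2 H) : Subgroup H) := ha
    rw [Sylow.coe_subtype, Subgroup.mem_subgroupOf] at this
    simpa using this
  have hb' : (b : G) * (g * x * g⁻¹) * (b : G)⁻¹ ∈ (P : Subgroup G) := by
    have : b * ⟨g * x * g⁻¹, hgx⟩ * b⁻¹ ∈ ((P.subtype hPH : Sylow 2 H) : Subgroup H) := hb
    rw [Sylow.coe_subtype, Subgroup.mem_subgroupOf] at this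
    simpa using this
  obtain ⟨h₁, hh₁, hh₁x⟩ := main ((a : G) * x * (a : G)⁻¹) ha' ((b : G) * g * (a : G)⁻¹) (by
    have : (b : G) * g * (a : G)⁻¹ * ((a : G) * x * (a : G)⁻¹) * ((b : G) * g * (a : G)⁻¹)⁻¹
        = (b : G) * (g * x * g⁻¹) * (b : G)⁻¹ := by group
    rw [this]; exact hb')
  refine ⟨(b : G)⁻¹ * h₁ * (a : G), H.mul_mem (H.mul_mem (H.inv_mem b.2) hh₁) a.2, ?_⟩
  have e1 : (b : G)⁻¹ * h₁ * (a : G) * x * ((b : G)⁻¹ * h₁ * (a : G))⁻¹
      = (b : G)⁻¹ * (h₁ * ((a : G) * x * (a : G)⁻¹) * h₁⁻¹) * (b : G) := by group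
  rw [e1, hh₁x]
  group

end Cfsg.Agent.S5438
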