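import Cfsg.Statements.S5439
import Mathlib

set_option autoImplicit false
open Cfsg

namespace Cfsg.Agent.S5439

theorem fix_iff {G : Type*} [Group G] (H : Subgroup G) (g x : G) :
    x • (g : G ⧸ H) = (g : G ⧸ H) ↔ g⁻¹ * x * g ∈ H := by
  rw [MulAction.Quotient.smul_mk, eq_comm, QuotientGroup.eq]
  simp [mul_assoc]

section dihedral
variable {G : Type*} [Group G] {u v : G}

theorem conj_r (hu : u * u = 1) (hv : v * v = 1) (m : ℕ) :
    u * (u * v) ^ m * u⁻¹ = ((u * v) ^ m)⁻¹ := by
  have hu' : u⁻¹ = u := inv_eq_of_mul_eq_one_left hu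
  have hv' : v⁻¹ = v := inv_eq_of_mul_eq_one_left hv
  have h : u * (u * v) * u⁻¹ = (u * v)⁻¹ := by
    rw [mul_inv_rev, hu', hv']
    calc u * (u * v) * u = (u * u) * v * u := by group
      _ = v * u := by rw [hu, one_mul]
  rw [← conj_pow, h, inv_pow]

theorem conj_r' (hu : u * u = 1) (hv : v * v = 1) (m : ℕ) :
    v * (u * v) ^ m * v⁻¹ = ((u * v) ^ m)⁻¹ := by
  have hu' : u⁻¹ = u := inv_eq_of_mul_eq_one_left hu
  have hv' : v⁻¹ = v := inv_eq_of_mul_eq_one_left hv
  have h : v * (u * v) * v⁻¹ = (u * v)⁻¹ := by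
    rw [mul_inv_rev, hu', hv']
    calc v * (u * v) * v = v * u * (v * v) := by group
      _ = v * u := by rw [hv, mul_one]
  rw [← conj_pow, h, inv_pow]

theorem u_mul_pow (hu : u * u = 1) (hv : v * v = 1) (m : ℕ) :
    ((u * v) ^ m)⁻¹ * u = u * (u * v) ^ m := by
  have h := conj_r hu hv m
  rw [← h]; group

theorem isConj_u (hu : u * u = 1) (hv : v * v = 1) (j : ℕ) :
    IsConj u (u * (u * v) ^ (2 * j)) := by
  rw [isConj_iff]
  refine ⟨((u * v) ^ j)⁻¹, ?_⟩
  rw [inv_inv, u_mul_pow hu hv j, two_mul, pow_add]
  group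

theorem isConj_v (hu : u * u = 1) (hv : v * v = 1) (j : ℕ) :
    IsConj v (u * (u * v) ^ (2 * j + 1)) := by
  rw [isConj_iff]
  refine ⟨((u * v) ^ j)⁻¹, ?_⟩
  have hc : Commute ((u * v) ^ j) (u * v) := (Commute.refl (u * v)).pow_left j
  rw [inv_inv]
  calc ((u * v) ^ j)⁻¹ * v * (u * v) ^ j = ((u * v) ^ j)⁻¹ * (u * u) * v * (u * v) ^ j := by
        rw [hu]; group
    _ = (((u * v) ^ j)⁻¹ * u) * ((u * v) * (u * v) ^ j) := by simp only [mul_assoc]
    _ = (u * (u * v) ^ j) * ((u * v) ^ j * (u * v)) := by rw [u_mul_pow hu hv j, hc.eq]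
    _ = u * (u * v) ^ (2 * j + 1) := by rw [pow_succ, two_mul, pow_add]; group

end dihedral

/-- Let I and J be two different conjugacy classes of involutions of the finite group G and H a subgroup such that every member of I ∪ J fixes exactly one coset in the action on the cosets of H, and such that for every a in I ∩ H and every b in (I ∪ J) ∩ H different from a and commuting with it, the centralizer of a b lies in H. Then H = G. -/
theorem result {G : Type*} [Group G] [Finite G] (I J : Set G) (a₀ b₀ : G) (ha₀ : orderOf a₀ = 2) (hb₀ : orderOf b₀ = 2) (hI : I = {x | IsConj a₀ x}) (hJ : J = {x | IsConj b₀ x}) (hIJ : I ≠ J) (H : Subgroup G) (hfix : ∀ x ∈ I ∪ J, ∃! c : G ⧸ H, x • c = c) (hcent : ∀ a ∈ I, a ∈ H → ∀ b ∈ I ∪ J, b ∈ H → a ≠ b → a * b = b * a → Subgroup.centralizer ({a * b} : Set G) ≤ H) : H = ⊤ := by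
  classical
  have hnc : ¬ IsConj a₀ b₀ := by
    intro h
    apply hIJ
    rw [hI, hJ]
    ext x
    show IsConj a₀ x ↔ IsConj b₀ x
    exact ⟨fun hx => h.symm.trans hx, fun hx => h.trans hx⟩
  have sq_of_conj : ∀ {t x : G}, orderOf t = 2 → IsConj t x → x * x = 1 := by
    intro t x ht hx
    rw [isConj_iff] at hx
    obtain ⟨c, rfl⟩ := hx
    have : t * t = 1 := by
      have := pow_orderOf_eq_one t
      rw [ht, pow_two] at this; exact this
    calc c * t * c⁻¹ * (c * t * c⁻¹) = c * (t * t) * c⁻¹ := by group
      _ = 1 := by rw [this]; group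
  -- a member u of I in H
  obtain ⟨u, huI, huH⟩ : ∃ u, u ∈ I ∧ u ∈ H := by
    have ha₀I : a₀ ∈ I := by rw [hI]; exact IsConj.refl a₀
    obtain ⟨c, hc, -⟩ := hfix a₀ (Or.inl ha₀I)
    induction c using QuotientGroup.induction_on with
    | H g =>
      have hc' : a₀ • (g : G ⧸ H) = (g : G ⧸ H) := hc
      rw [fix_iff] at hc'
      refine ⟨g⁻¹ * a₀ * g, ?_, hc'⟩
      rw [hI]
      show IsConj a₀ (g⁻¹ * a₀ * g)
      rw [isConj_iff]
      exact ⟨g⁻¹, by group⟩
  have huconj : IsConj a₀ u := by rw [hI] at huI; exact huI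
  have hu : u * u = 1 := sq_of_conj ha₀ huconj
  -- every member of J lies in H
  have hJH : ∀ v ∈ J, v ∈ H := by
    intro v hvJ
    have hvconj : IsConj b₀ v := by rw [hJ] at hvJ; exact hvJ
    have hv : v * v = 1 := sq_of_conj hb₀ hvconj
    set r := u * v with hr
    have hn : 0 < orderOf r := orderOf_pos r
    rcases Nat.even_or_odd' (orderOf r) with ⟨m, hm | hm⟩
    · -- even order 2m
      have hm0 : 0 < m := by omega
      set w := r ^ m with hw
      have hww : w * w = 1 := by
        rw [hw, ← pow_add, ← two_mul, ← hm]; exact pow_orderOf_eq_one r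
      have hw1 : w ≠ 1 := by
        intro h
        have := orderOf_dvd_of_pow_eq_one h
        have := Nat.le_of_dvd hm0 this
        omega
      have hwinv : w⁻¹ = w := inv_eq_of_mul_eq_one_left hww
      have huw : u * w = w * u := by
        have := u_mul_pow hu hv m
        rw [← hr, ← hw, hwinv] at this
        exact this.symm
      have hvw : v * w = w * v := by
        have := conj_r' hu hv m
        rw [← hr, ← hw, hwinv] at this
        calc v * w = v * w * v⁻¹ * v := by group
          _ = w * v := by rw [this]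
      have huwIJ : u * w ∈ I ∪ J := by
        rcases Nat.even_or_odd' m with ⟨j, hj | hj⟩
        · left
          rw [hI]
          show IsConj a₀ (u * w)
          rw [hw, hj]
          exact huconj.trans (isConj_u hu hv j)
        · right
          rw [hJ]
          show IsConj b₀ (u * w)
          rw [hw, hj]
          exact hvconj.trans (isConj_v hu hv j)
      have hwH : w ∈ H := by
        obtain ⟨c, -, huniq⟩ := hfix u (Or.inl huI)
        have e1 : ((1 : G) : G ⧸ H) = c :=
          huniq _ (by show u • ((1 : G) : G ⧸ H) = _; rw [fix_iff]; simpa using huH)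
        have e2 : (w : G ⧸ H) = c :=
          huniq _ (by
            show u • (w : G ⧸ H) = _
            rw [fix_iff]
            have : w⁻¹ * u * w = u := by
              calc w⁻¹ * u * w = w⁻¹ * (u * w) := by group
                _ = w⁻¹ * (w * u) := by rw [huw]
                _ = u := by group
            rw [this]; exact huH)
        have := e1.trans e2.symm
        rw [QuotientGroup.eq] at this
        simpa using this
      have huwH : u * w ∈ H := H.mul_mem huH hwH
      have hne : u ≠ u * w := by
        intro h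
        apply hw1
        have : u * 1 = u * w := by simpa using h
        exact (mul_left_cancel this).symm
      have hcomm : u * (u * w) = u * w * u := by
        calc u * (u * w) = u * (w * u) := by rw [huw]
          _ = u * w * u := by group
      have hcen := hcent u huI huH (u * w) huwIJ huwH hne hcomm
      have huuw : u * (u * w) = w := by
        calc u * (u * w) = (u * u) * w := by group
          _ = w := by rw [hu, one_mul]
      rw [huuw] at hcen
      apply hcen
      rw [Subgroup.mem_centralizer_iff]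
      intro y hy
      rw [Set.mem_singleton_iff] at hy
      subst hy
      exact hvw.symm
    · -- odd order: u and v conjugate, contradiction
      exfalso
      apply hnc
      have h1 := isConj_u hu hv (m + 1)
      have e : u * (u * v) ^ (2 * (m + 1)) = v := by
        have : 2 * (m + 1) = orderOf r + 1 := by omega
        rw [← hr, this, pow_succ, pow_orderOf_eq_one, one_mul, hr]
        calc u * (u * v) = (u * u) * v := by group
          _ = v := by rw [hu, one_mul]
      rw [e] at h1
      exact (huconj.trans h1).trans hvconj.symm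
  -- conclude
  rw [eq_top_iff]
  intro g _
  have hb₀J : b₀ ∈ J := by rw [hJ]; exact IsConj.refl b₀
  have hb₀H : b₀ ∈ H := hJH b₀ hb₀J
  have hgJ : g⁻¹ * b₀ * g ∈ J := by
    rw [hJ]
    show IsConj b₀ (g⁻¹ * b₀ * g)
    rw [isConj_iff]
    exact ⟨g⁻¹, by group⟩
  obtain ⟨c, -, huniq⟩ := hfix b₀ (Or.inr hb₀J)
  have e1 : ((1 : G) : G ⧸ H) = c :=
    huniq _ (by show b₀ • ((1 : G) : G ⧸ H) = _; rw [fix_iff]; simpa using hb₀H)
  have e2 : (g : G ⧸ H) = c :=
    huniq _ (by show b₀ • (g : G ⧸ H) = _; rw [fix_iff]; exact hJH _ hgJ)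
  have := e1.trans e2.symm
  rw [QuotientGroup.eq] at this
  simpa using this

end Cfsg.Agent.S5439
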