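import Cfsg.Statements.S5459

set_option autoImplicit false
open Cfsg

open scoped commutatorElement

namespace Cfsg.Agent.S5459

section Aux

variable {G : Type*} [Group G]

/-- Reachability in the commuting graph of the class of `d`, stated for elements of `G`. -/
def Reach (d a b : G) : Prop :=
  ∃ (ha : a ∈ conjugatesOf d) (hb : b ∈ conjugatesOf d),
    (Cfsg.commutingGraph (conjugatesOf d)).Reachable ⟨a, ha⟩ ⟨b, hb⟩

theorem mem_conj_iff {d a : G} : a ∈ conjugatesOf d ↔ ∃ g : G, g * d * g⁻¹ = a := by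
  show IsConj d a ↔ _
  rw [isConj_iff]

theorem conj_mem {d a : G} (g : G) (ha : a ∈ conjugatesOf d) :
    g * a * g⁻¹ ∈ conjugatesOf d := by
  rw [mem_conj_iff] at ha ⊢
  obtain ⟨h, rfl⟩ := ha
  exact ⟨g * h, by group⟩

theorem Reach.rfl' {d a : G} (ha : a ∈ conjugatesOf d) : Reach d a a :=
  ⟨ha, ha, SimpleGraph.Reachable.refl _⟩

theorem Reach.symm' {d a b : G} (h : Reach d a b) : Reach d b a := by
  obtain ⟨ha, hb, h⟩ := h
  exact ⟨hb, ha, h.symm⟩

theorem Reach.trans' {d a b c : G} (h1 : Reach d a b) (h2 : Reach d b c) : Reach d a c := by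
  obtain ⟨ha, hb, h1⟩ := h1
  obtain ⟨hb', hc, h2⟩ := h2
  exact ⟨ha, hc, h1.trans h2⟩

theorem Reach.conj' {d a b : G} (g : G) (h : Reach d a b) :
    Reach d (g * a * g⁻¹) (g * b * g⁻¹) := by
  obtain ⟨ha, hb, h⟩ := h
  let φ : Cfsg.commutingGraph (conjugatesOf d) →g Cfsg.commutingGraph (conjugatesOf d) :=
    { toFun := fun x => ⟨g * x.1 * g⁻¹, conj_mem g x.2⟩
      map_rel' := by
        intro x y hxy
        unfold Cfsg.commutingGraph at hxy ⊢
        rw [SimpleGraph.fromRel_adj] at hxy ⊢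
        have hc : ∀ u v : G, Commute u v → Commute (g * u * g⁻¹) (g * v * g⁻¹) := by
          intro u v huv
          have h' : u * v = v * u := huv
          show g * u * g⁻¹ * (g * v * g⁻¹) = g * v * g⁻¹ * (g * u * g⁻¹)
          have e1 : g * u * g⁻¹ * (g * v * g⁻¹) = g * (u * v) * g⁻¹ := by group
          have e2 : g * v * g⁻¹ * (g * u * g⁻¹) = g * (v * u) * g⁻¹ := by group
          rw [e1, e2, h']
        refine ⟨?_, ?_⟩
        · intro e
          apply hxy.1
          have h1 : g * x.1 * g⁻¹ = g * y.1 * g⁻¹ := congrArg Subtype.val e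
          apply Subtype.ext
          have h2 : g⁻¹ * (g * x.1 * g⁻¹) * g = g⁻¹ * (g * y.1 * g⁻¹) * g := by rw [h1]
          have e3 : ∀ w : G, g⁻¹ * (g * w * g⁻¹) * g = w := fun w => by group
          rwa [e3, e3] at h2
        · rcases hxy.2 with h | h
          · exact Or.inl (hc _ _ h)
          · exact Or.inr (hc _ _ h) }
  exact ⟨conj_mem g ha, conj_mem g hb, h.map φ⟩

theorem comm_central {H : Type*} [Group H] (x y z1 z2 : H) (h1 : ∀ g, g * z1 = z1 * g)
    (h2 : ∀ g, g * z2 = z2 * g) : ⁅x * z1, y * z2⁆ = ⁅x, y⁆ := by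
  rw [commutatorElement_def, commutatorElement_def]
  have e1 : x * z1 * (y * z2) * (x * z1)⁻¹ * (y * z2)⁻¹ =
      x * (z1 * (y * z2 * z1⁻¹)) * x⁻¹ * z2⁻¹ * y⁻¹ := by group
  rw [e1, ← h1 (y * z2 * z1⁻¹)]
  have e2 : x * (y * z2 * z1⁻¹ * z1) * x⁻¹ * z2⁻¹ * y⁻¹ = x * y * (z2 * x⁻¹) * z2⁻¹ * y⁻¹ := by
    group
  rw [e2, ← h2 x⁻¹]
  group

end Aux

/-- Let G be a finite group with a quasisimple normal subgroup L and an involution d such that G is generated by L and d, the centre of L has odd order, and d inverts every element of the centre of L. If the commuting graph on the conjugacy class of the image of d in G modulo the centre of L is connected, then the commuting graph on the conjugacy class of d is connected. -/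
theorem result {G : Type*} [Group G] [Finite G] (L : Subgroup G) [L.Normal] (hL : Cfsg.IsQuasisimple ↥L) (d : G) (hd : orderOf d = 2) (hgen : L ⊔ Subgroup.zpowers d = ⊤) (hodd : Odd (Nat.card ↥(Subgroup.center ↥L))) (hinv : ∀ c ∈ (Subgroup.center ↥L).map L.subtype, d * c * d⁻¹ = c⁻¹) [hn : ((Subgroup.center ↥L).map L.subtype).Normal] (hconn : (Cfsg.commutingGraph (conjugatesOf (QuotientGroup.mk d : G ⧸ (Subgroup.center ↥L).map L.subtype))).Connected) : (Cfsg.commutingGraph (conjugatesOf d)).Connected := by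
  classical
  set Z : Subgroup G := (Subgroup.center ↥L).map L.subtype with hZ
  have hd2 : d * d = 1 := by
    have := pow_orderOf_eq_one d
    rw [hd, pow_two] at this
    exact this
  have hdD : d ∈ conjugatesOf d := mem_conjugatesOf_self
  have hD2 : ∀ a ∈ conjugatesOf d, a * a = 1 := by
    intro a ha
    obtain ⟨g, rfl⟩ := mem_conj_iff.mp ha
    calc g * d * g⁻¹ * (g * d * g⁻¹) = g * (d * d) * g⁻¹ := by group
      _ = 1 := by rw [hd2]; group
  have hDinv : ∀ a ∈ conjugatesOf d, a⁻¹ = a := fun a ha =>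
    inv_eq_of_mul_eq_one_left (hD2 a ha)
  have hDZ : ∀ a ∈ conjugatesOf d, ∀ c ∈ Z, a * c * a⁻¹ = c⁻¹ := by
    intro a ha c hc
    obtain ⟨g, rfl⟩ := mem_conj_iff.mp ha
    have h1 : g⁻¹ * c * g ∈ Z := by
      have := hn.conj_mem c hc g⁻¹
      simpa using this
    have h2 := hinv _ h1
    calc g * d * g⁻¹ * c * (g * d * g⁻¹)⁻¹ = g * (d * (g⁻¹ * c * g) * d⁻¹) * g⁻¹ := by group
      _ = g * (g⁻¹ * c * g)⁻¹ * g⁻¹ := by rw [h2]
      _ = c⁻¹ := by group
  -- swapping past an element of the class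
  have hswap : ∀ a ∈ conjugatesOf d, ∀ c ∈ Z, c * a = a * c⁻¹ := by
    intro a ha c hc
    have h1 := hDZ a ha c⁻¹ (Z.inv_mem hc)
    rw [inv_inv] at h1
    calc c * a = a * c⁻¹ * a⁻¹ * a := by rw [h1]
      _ = a * c⁻¹ := by group
  have hsqrt : ∀ c ∈ Z, ∃ e ∈ Z, e * e = c := by
    intro c hc
    have hcard : Nat.card ↥Z = Nat.card ↥(Subgroup.center ↥L) :=
      Subgroup.card_map_of_injective L.subtype_injective
    obtain ⟨k, hk⟩ := hodd
    have hpow : c ^ (2 * k + 1) = 1 := by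
      have h1 : (⟨c, hc⟩ : ↥Z) ^ Nat.card ↥Z = 1 := pow_card_eq_one'
      rw [hcard, hk] at h1
      exact congrArg Subtype.val h1
    refine ⟨c ^ (k + 1), Z.pow_mem hc _, ?_⟩
    rw [← pow_add]
    have e : k + 1 + (k + 1) = (2 * k + 1) + 1 := by ring
    rw [e, pow_succ, hpow, one_mul]
  have hDmul : ∀ a ∈ conjugatesOf d, ∀ c ∈ Z, a * c ∈ conjugatesOf d := by
    intro a ha c hc
    obtain ⟨e, he, rfl⟩ := hsqrt c hc
    have h1 := hswap a ha e⁻¹ (Z.inv_mem he)
    rw [inv_inv] at h1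
    have h2 : a * (e * e) = e⁻¹ * a * e⁻¹⁻¹ := by
      rw [inv_inv, h1]
      group
    rw [h2]
    exact conj_mem e⁻¹ ha
  let N : Subgroup G :=
    { carrier := {g | Reach d d (g * d * g⁻¹)}
      one_mem' := by
        show Reach d d (1 * d * 1⁻¹)
        rw [one_mul, inv_one, mul_one]
        exact Reach.rfl' hdD
      mul_mem' := by
        intro g h hg hh
        show Reach d d (g * h * d * (g * h)⁻¹)
        have h1 := Reach.conj' g hh
        have e : g * h * d * (g * h)⁻¹ = g * (h * d * h⁻¹) * g⁻¹ := by group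
        rw [e]
        exact Reach.trans' hg h1
      inv_mem' := by
        intro g hg
        show Reach d d (g⁻¹ * d * g⁻¹⁻¹)
        have h1 := Reach.conj' g⁻¹ hg
        have e : g⁻¹ * (g * d * g⁻¹) * g⁻¹⁻¹ = d := by group
        rw [e] at h1
        exact Reach.symm' h1 }
  have hNmem : ∀ g, g ∈ N ↔ Reach d d (g * d * g⁻¹) := fun g => Iff.rfl
  -- path lifting
  have hlift : ∀ x : conjugatesOf (QuotientGroup.mk d : G ⧸ Z),
      (Cfsg.commutingGraph (conjugatesOf (QuotientGroup.mk d : G ⧸ Z))).Reachable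
        ⟨QuotientGroup.mk d, mem_conjugatesOf_self⟩ x →
      ∃ a, (QuotientGroup.mk a : G ⧸ Z) = x.1 ∧ Reach d d a := by
    intro x hx
    rw [SimpleGraph.reachable_iff_reflTransGen] at hx
    induction hx with
    | refl => exact ⟨d, rfl, Reach.rfl' hdD⟩
    | @tail y w _ hadj ih =>
      obtain ⟨a, hay, hra⟩ := ih
      have haD : a ∈ conjugatesOf d := hra.2.1
      obtain ⟨gq, hgq⟩ := mem_conj_iff.mp w.2
      obtain ⟨g, rfl⟩ := QuotientGroup.mk_surjective gq
      have hb₀D : g * d * g⁻¹ ∈ conjugatesOf d := mem_conj_iff.mpr ⟨g, rfl⟩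
      have hb₀w : (QuotientGroup.mk (g * d * g⁻¹) : G ⧸ Z) = w.1 := by
        rw [← hgq]
        rfl
      unfold Cfsg.commutingGraph at hadj
      rw [SimpleGraph.fromRel_adj] at hadj
      obtain ⟨hne, hcomm⟩ := hadj
      have hcomm' : (QuotientGroup.mk (a * (g * d * g⁻¹)) : G ⧸ Z) =
          QuotientGroup.mk ((g * d * g⁻¹) * a) := by
        change (QuotientGroup.mk a : G ⧸ Z) * QuotientGroup.mk (g * d * g⁻¹) =
          QuotientGroup.mk (g * d * g⁻¹) * QuotientGroup.mk a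
        rw [hay, hb₀w]
        rcases hcomm with h | h
        · exact h
        · exact h.symm
      rw [QuotientGroup.eq] at hcomm'
      obtain ⟨e, he, hee⟩ := hsqrt _ hcomm'
      have h1 := hswap a haD e he
      have hab : a * (g * d * g⁻¹ * e) = g * d * g⁻¹ * e * a := by
        calc a * (g * d * g⁻¹ * e)
            = g * d * g⁻¹ * a * ((a * (g * d * g⁻¹))⁻¹ * (g * d * g⁻¹ * a))⁻¹ * e := by group
          _ = g * d * g⁻¹ * a * (e * e)⁻¹ * e := by rw [hee]
          _ = g * d * g⁻¹ * (a * e⁻¹) := by group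
          _ = g * d * g⁻¹ * (e * a) := by rw [h1]
          _ = g * d * g⁻¹ * e * a := by group
      have hbD : g * d * g⁻¹ * e ∈ conjugatesOf d := hDmul _ hb₀D e he
      have hbw : (QuotientGroup.mk (g * d * g⁻¹ * e) : G ⧸ Z) = w.1 := by
        change (QuotientGroup.mk (g * d * g⁻¹) : G ⧸ Z) * QuotientGroup.mk e = w.1
        rw [hb₀w, (QuotientGroup.eq_one_iff e).mpr he, mul_one]
      have hadj' : (Cfsg.commutingGraph (conjugatesOf d)).Adj ⟨a, haD⟩ ⟨g * d * g⁻¹ * e, hbD⟩ := by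
        unfold Cfsg.commutingGraph
        rw [SimpleGraph.fromRel_adj]
        refine ⟨?_, Or.inl hab⟩
        intro h
        apply hne
        apply Subtype.ext
        have h2 : a = g * d * g⁻¹ * e := congrArg Subtype.val h
        rw [← hay, ← hbw, h2]
      exact ⟨g * d * g⁻¹ * e, hbw, Reach.trans' hra ⟨haD, hbD, hadj'.reachable⟩⟩
  have hNZ : ∀ g : G, ∃ e ∈ Z, g * e ∈ N := by
    intro g
    have hxD : (QuotientGroup.mk (g * d * g⁻¹) : G ⧸ Z) ∈
        conjugatesOf (QuotientGroup.mk d : G ⧸ Z) :=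
      mem_conj_iff.mpr ⟨QuotientGroup.mk g, rfl⟩
    obtain ⟨a, ha, hra⟩ := hlift ⟨_, hxD⟩ (hconn.preconnected _ _)
    have ha' : (QuotientGroup.mk a : G ⧸ Z) = QuotientGroup.mk (g * d * g⁻¹) := ha
    rw [QuotientGroup.eq] at ha'
    have hc1 : g⁻¹ * (a⁻¹ * (g * d * g⁻¹)) * g ∈ Z := by
      have := hn.conj_mem _ ha' g⁻¹
      simpa using this
    obtain ⟨e, he, hee⟩ := hsqrt _ hc1
    refine ⟨e, he, ?_⟩
    rw [hNmem]
    have h3 := hswap d hdD e he
    have h2 : g * e * d * (g * e)⁻¹ = a := by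
      calc g * e * d * (g * e)⁻¹ = g * (e * d) * e⁻¹ * g⁻¹ := by group
        _ = g * (d * e⁻¹) * e⁻¹ * g⁻¹ := by rw [h3]
        _ = g * d * (e * e)⁻¹ * g⁻¹ := by group
        _ = g * d * (g⁻¹ * (a⁻¹ * (g * d * g⁻¹)) * g)⁻¹ * g⁻¹ := by rw [hee]
        _ = a := by group
    rw [h2]
    exact hra
  have hLN : L ≤ N := by
    have hperf : commutator ↥L = ⊤ := hL.1.commutator_eq_top
    have hcm : N.comap L.subtype = ⊤ := by
      rw [eq_top_iff, ← hperf, commutator_def, Subgroup.commutator_le]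
      intro x _ y _
      obtain ⟨e1, he1, h1⟩ := hNZ (x : G)
      obtain ⟨e2, he2, h2⟩ := hNZ (y : G)
      obtain ⟨ε1, hε1, rfl⟩ := he1
      obtain ⟨ε2, hε2, rfl⟩ := he2
      have key : ⁅x, y⁆ = ⁅x * ε1, y * ε2⁆ :=
        (comm_central x y ε1 ε2 (Subgroup.mem_center_iff.mp hε1)
          (Subgroup.mem_center_iff.mp hε2)).symm
      show L.subtype ⁅x, y⁆ ∈ N
      rw [key, map_commutatorElement, commutatorElement_def]
      exact N.mul_mem (N.mul_mem (N.mul_mem h1 h2) (N.inv_mem h1)) (N.inv_mem h2)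
    intro x hx
    have : (⟨x, hx⟩ : ↥L) ∈ N.comap L.subtype := by
      rw [hcm]
      exact Subgroup.mem_top _
    exact this
  have hNtop : N = ⊤ := by
    rw [eq_top_iff, ← hgen]
    apply sup_le hLN
    rw [Subgroup.zpowers_le, hNmem, mul_inv_cancel_right]
    exact Reach.rfl' hdD
  have hall : ∀ g : G, Reach d d (g * d * g⁻¹) := by
    intro g
    rw [← hNmem, hNtop]
    exact Subgroup.mem_top g
  refine (SimpleGraph.connected_iff _).mpr ⟨?_, ⟨⟨d, hdD⟩⟩⟩
  rintro ⟨a, ha⟩ ⟨b, hb⟩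
  obtain ⟨g, rfl⟩ := mem_conj_iff.mp ha
  obtain ⟨h, rfl⟩ := mem_conj_iff.mp hb
  obtain ⟨_, _, r⟩ := Reach.trans' (Reach.symm' (hall g)) (hall h)
  exact r

end Cfsg.Agent.S5459
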