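import Cfsg.Statements.S5541
import Mathlib

set_option autoImplicit false
open Cfsg

namespace Cfsg.Agent.S5541

section
variable {H : Type*} [Group H] {U : Type*} [AddCommGroup U] [Module ℝ U]

theorem rho_inv (ρ : Representation ℝ H U) (g : H) (u : U) : ρ g (ρ g⁻¹ u) = u := by
  have h : ρ g * ρ g⁻¹ = 1 := by rw [← map_mul, mul_inv_cancel, map_one]
  have := congrArg (fun f : U →ₗ[ℝ] U => f u) h
  simpa using this

theorem nondeg [FiniteDimensional ℝ U] (ρ : Representation ℝ H U)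
    (hirr : ∀ W : Submodule ℝ U, (∀ g : H, W.map (ρ g) ≤ W) → W = ⊥ ∨ W = ⊤)
    (B : LinearMap.BilinForm ℝ U) (hB0 : B ≠ 0)
    (hBi : ∀ (g : H) (u v : U), B (ρ g u) (ρ g v) = B u v) : B.Nondegenerate := by
  rw [LinearMap.BilinForm.nondegenerate_iff_ker_eq_bot]
  rcases hirr (LinearMap.ker B) (by
    intro g u hu
    obtain ⟨v, hv, rfl⟩ := hu
    rw [SetLike.mem_coe, LinearMap.mem_ker] at hv
    rw [LinearMap.mem_ker]
    ext w
    have := hBi g v (ρ g⁻¹ w)
    rw [rho_inv] at this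
    rw [this, hv]; simp) with h | h
  · exact h
  · exfalso
    apply hB0
    ext u v
    have : u ∈ LinearMap.ker B := by rw [h]; trivial
    rw [LinearMap.mem_ker] at this
    rw [this]; simp

end

/-- Let ρ be a representation of a group H on a finite-dimensional real vector space U whose only ρ-invariant subspaces are the zero subspace and U, and suppose U carries a non-zero ρ-invariant symmetric bilinear form. Then the following are equivalent: (1) there is a non-zero ρ-equivariant commutative bilinear product on U of which every ρ-equivariant bilinear product is a scalar multiple; (2) there is a non-zero ρ-invariant trilinear form on U that is symmetric under all permutations of its arguments and of which every ρ-invariant trilinear form is a scalar multiple. -/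
theorem result {H : Type*} [Group H] {U : Type*} [AddCommGroup U] [Module ℝ U] [FiniteDimensional ℝ U] (ρ : Representation ℝ H U) (hirr : ∀ W : Submodule ℝ U, (∀ g : H, W.map (ρ g) ≤ W) → W = ⊥ ∨ W = ⊤) (B : LinearMap.BilinForm ℝ U) (hB0 : B ≠ 0) (hBs : ∀ u v, B u v = B v u) (hBi : ∀ (g : H) (u v : U), B (ρ g u) (ρ g v) = B u v) : (∃ m : U →ₗ[ℝ] U →ₗ[ℝ] U, m ≠ 0 ∧ (∀ u v, m u v = m v u) ∧ (∀ (g : H) (u v : U), m (ρ g u) (ρ g v) = ρ g (m u v)) ∧ ∀ m' : U →ₗ[ℝ] U →ₗ[ℝ] U, (∀ (g : H) (u v : U), m' (ρ g u) (ρ g v) = ρ g (m' u v)) → ∃ c : ℝ, m' = c • m) ↔ (∃ t : U →ₗ[ℝ] U →ₗ[ℝ] U →ₗ[ℝ] ℝ, t ≠ 0 ∧ (∀ u v w, t u v w = t v u w ∧ t u v w = t u w v) ∧ (∀ (g : H) (u v w : U), t (ρ g u) (ρ g v) (ρ g w) = t u v w) ∧ ∀ t' : U →ₗ[ℝ] U →ₗ[ℝ] U →ₗ[ℝ] ℝ, (∀ (g : H) (u v w : U), t' (ρ g u) (ρ g v) (ρ g w) = t' u v w) → ∃ c : ℝ, t' = c • t) := by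
  have hnd := nondeg ρ hirr B hB0 hBi
  set D := B.toDual hnd with hD
  have hBD : ∀ (f : Module.Dual ℝ U) (v : U), B (D.symm f) v = f v :=
    fun f v => LinearMap.BilinForm.apply_toDual_symm_apply f v
  have hinj : ∀ x y : U, (∀ w, B x w = B y w) → x = y := by
    intro x y h
    apply D.injective
    ext w
    exact h w
  have hBg : ∀ (g : H) (x w : U), B (ρ g x) w = B x (ρ g⁻¹ w) := by
    intro g x w
    have := hBi g x (ρ g⁻¹ w)
    rw [rho_inv] at this
    exact this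
  -- from a trilinear form to a product
  have toProd : ∀ t' : U →ₗ[ℝ] U →ₗ[ℝ] U →ₗ[ℝ] ℝ,
      ∃ m' : U →ₗ[ℝ] U →ₗ[ℝ] U, (∀ u v w, B (m' u v) w = t' u v w) := by
    intro t'
    exact ⟨t'.compr₂ (D.symm : Module.Dual ℝ U →ₗ[ℝ] U), fun u v w => hBD (t' u v) w⟩
  have equiv_of_inv : ∀ (t' : U →ₗ[ℝ] U →ₗ[ℝ] U →ₗ[ℝ] ℝ) (m' : U →ₗ[ℝ] U →ₗ[ℝ] U),
      (∀ u v w, B (m' u v) w = t' u v w) →
      (∀ (g : H) (u v w : U), t' (ρ g u) (ρ g v) (ρ g w) = t' u v w) →
      ∀ (g : H) (u v : U), m' (ρ g u) (ρ g v) = ρ g (m' u v) := by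
    intro t' m' hm' ht' g u v
    apply hinj
    intro w
    rw [hm', hBg, hm']
    have := ht' g u v (ρ g⁻¹ w)
    rw [rho_inv] at this
    exact this
  have inv_of_equiv : ∀ (t' : U →ₗ[ℝ] U →ₗ[ℝ] U →ₗ[ℝ] ℝ) (m' : U →ₗ[ℝ] U →ₗ[ℝ] U),
      (∀ u v w, B (m' u v) w = t' u v w) →
      (∀ (g : H) (u v : U), m' (ρ g u) (ρ g v) = ρ g (m' u v)) →
      ∀ (g : H) (u v w : U), t' (ρ g u) (ρ g v) (ρ g w) = t' u v w := by
    intro t' m' hm' he g u v w
    rw [← hm', ← hm', he, hBi]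
  constructor
  · rintro ⟨m, hm0, hmc, hme, hmu⟩
    set t : U →ₗ[ℝ] U →ₗ[ℝ] U →ₗ[ℝ] ℝ := m.compr₂ B with ht
    have ht_apply : ∀ u v w, B (m u v) w = t u v w := fun u v w => rfl
    have huniq : ∀ t' : U →ₗ[ℝ] U →ₗ[ℝ] U →ₗ[ℝ] ℝ,
        (∀ (g : H) (u v w : U), t' (ρ g u) (ρ g v) (ρ g w) = t' u v w) → ∃ c : ℝ, t' = c • t := by
      intro t' ht'
      obtain ⟨m', hm'⟩ := toProd t'
      obtain ⟨c, hc⟩ := hmu m' (equiv_of_inv t' m' hm' ht')
      refine ⟨c, ?_⟩
      ext u v w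
      rw [← hm', hc]
      simp [← ht_apply]
    have ht0 : t ≠ 0 := by
      intro h
      apply hm0
      ext u v
      apply hinj
      intro w
      rw [ht_apply, h]
      simp
    have hti := inv_of_equiv t m ht_apply hme
    have hS : ∀ u v w, t u v w = t v u w := by
      intro u v w; rw [← ht_apply, ← ht_apply, hmc]
    set t' : U →ₗ[ℝ] U →ₗ[ℝ] U →ₗ[ℝ] ℝ :=
      ((LinearMap.lflip (R₀ := ℝ) : (U →ₗ[ℝ] U →ₗ[ℝ] ℝ) ≃ₗ[ℝ] (U →ₗ[ℝ] U →ₗ[ℝ] ℝ)) :
        (U →ₗ[ℝ] U →ₗ[ℝ] ℝ) →ₗ[ℝ] (U →ₗ[ℝ] U →ₗ[ℝ] ℝ)) ∘ₗ t with ht'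
    have ht'_apply : ∀ u v w, t' u v w = t u w v := fun u v w => rfl
    obtain ⟨c, hc⟩ := huniq t' (by
      intro g u v w
      rw [ht'_apply, ht'_apply, hti])
    have hR : ∀ u v w, t u w v = c * t u v w := by
      intro u v w
      rw [← ht'_apply, hc]
      simp
    have hc1 : c = 1 := by
      have hex : ∃ u v w, t u v w ≠ 0 := by
        by_contra hcon
        push_neg at hcon
        apply ht0
        ext u v w
        simpa using hcon u v w
      obtain ⟨u, v, w, huvw⟩ := hex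
      have h3 : t u v w = c ^ 3 * t u v w := by
        calc t u v w = c * t u w v := hR u w v
          _ = c * t w u v := by rw [hS u w v]
          _ = c * (c * t w v u) := by rw [hR w v u]
          _ = c * (c * t v w u) := by rw [hS w v u]
          _ = c * (c * (c * t v u w)) := by rw [hR v u w]
          _ = c * (c * (c * t u v w)) := by rw [hS v u w]
          _ = c ^ 3 * t u v w := by ring
      have h4 : (c ^ 3 - 1) * t u v w = 0 := by linarith
      have h5 : c ^ 3 - 1 = 0 := by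
        rcases mul_eq_zero.mp h4 with h | h
        · exact h
        · exact absurd h huvw
      have h6 : (c - 1) * (c ^ 2 + c + 1) = 0 := by ring_nf; ring_nf at h5; linarith
      rcases mul_eq_zero.mp h6 with h | h
      · linarith
      · nlinarith [sq_nonneg (c + 1 / 2)]
    refine ⟨t, ht0, ?_, hti, huniq⟩
    intro u v w
    refine ⟨hS u v w, ?_⟩
    rw [hR u v w, hc1, one_mul]
  · rintro ⟨t, ht0, hts, hti, htu⟩
    obtain ⟨m, hm⟩ := toProd t
    refine ⟨m, ?_, ?_, equiv_of_inv t m hm hti, ?_⟩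
    · intro h
      apply ht0
      ext u v w
      rw [← hm, h]
      simp
    · intro u v
      apply hinj
      intro w
      rw [hm, hm]
      exact (hts u v w).1
    · intro m' hm'e
      set t' : U →ₗ[ℝ] U →ₗ[ℝ] U →ₗ[ℝ] ℝ := m'.compr₂ B with ht'
      have ht'_apply : ∀ u v w, B (m' u v) w = t' u v w := fun u v w => rfl
      obtain ⟨c, hc⟩ := htu t' (inv_of_equiv t' m' ht'_apply hm'e)
      refine ⟨c, ?_⟩
      ext u v
      apply hinj
      intro w
      rw [ht'_apply, hc]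
      simp [hm]

end Cfsg.Agent.S5541
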