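import Cfsg.Statements.S5543
import Mathlib

set_option autoImplicit false
open Cfsg

namespace Cfsg.Agent.S5543

theorem exists_ne4 {α : Type*} (h : 4 < Nat.card α) (a b c d : α) :
    ∃ z : α, z ≠ a ∧ z ≠ b ∧ z ≠ c ∧ z ≠ d := by
  by_contra hcon
  push_neg at hcon
  have hsub : (Set.univ : Set α) ⊆ {a, b, c, d} := by
    intro z _
    by_cases h1 : z = a
    · simp [h1]
    by_cases h2 : z = b
    · simp [h2]
    by_cases h3 : z = c
    · simp [h3]
    have := hcon z h1 h2 h3
    simp [this]
  have hfin : ({a, b, c, d} : Set α).Finite := by simp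
  have h1 := Set.ncard_le_ncard hsub hfin
  rw [Set.ncard_univ] at h1
  have h2 : ({a, b, c, d} : Set α).ncard ≤ 4 := by
    calc ({a, b, c, d} : Set α).ncard ≤ ({b, c, d} : Set α).ncard + 1 := Set.ncard_insert_le _ _
      _ ≤ (({c, d} : Set α).ncard + 1) + 1 := by gcongr; exact Set.ncard_insert_le _ _
      _ ≤ ((({d} : Set α).ncard + 1) + 1) + 1 := by gcongr; exact Set.ncard_insert_le _ _
      _ = 4 := by rw [Set.ncard_singleton]
  omega

/-- vectors in the sum of the 1- and 0-eigenspaces that are also 1/4-eigenvectors vanish -/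
theorem eq_zero_of_mem {V : Type*} [AddCommGroup V] [Module ℝ V] (mul : V →ₗ[ℝ] V →ₗ[ℝ] V) (a e : V)
    (h1 : e ∈ Cfsg.Axial.eigenSum mul a {1, 0}) (h2 : mul a e = (1 / 4 : ℝ) • e) : e = 0 := by
  have hK : Cfsg.Axial.eigenSum mul a {1, 0} ≤ LinearMap.ker (mul a ∘ₗ mul a - mul a) := by
    unfold Cfsg.Axial.eigenSum
    apply iSup₂_le
    intro c hc w hw
    unfold Cfsg.Axial.eigen at hw
    rw [Module.End.mem_eigenspace_iff] at hw
    rw [LinearMap.mem_ker, LinearMap.sub_apply, LinearMap.comp_apply, hw, map_smul, hw]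
    rcases hc with rfl | hc
    · simp
    · rw [Set.mem_singleton_iff] at hc; subst hc; simp
  have := hK h1
  rw [LinearMap.mem_ker, LinearMap.sub_apply, LinearMap.comp_apply, h2, map_smul, h2] at this
  have h3 : (-(3 / 16 : ℝ)) • e = 0 := by
    rw [← this]; module
  rcases smul_eq_zero.mp h3 with h | h
  · norm_num at h
  · exact h

/-- Let V be a finite-dimensional real vector space with a commutative bilinear product and a positive-definite symmetric bilinear form that associates with the product and satisfies the Norton inequality (the Majorana setting of the definitions). Let X be a group of linear automorphisms of V in which every element squares to the identity, and suppose every non-identity element x of X is a Majorana involution with an axial vector a(x) of squared length 1, such that for any two distinct non-identity x, y the product a(x) ∘ a(y) equals (1/8)(a(x) + a(y) − a(xy)) (the dihedral subalgebra of type 2A whose third axis belongs to the involution xy). Then X has order at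 most 4. -/
theorem result {V : Type*} [AddCommGroup V] [Module ℝ V] [FiniteDimensional ℝ V] (mul : V →ₗ[ℝ] V →ₗ[ℝ] V) (B : LinearMap.BilinForm ℝ V) (hV : Cfsg.Axial.IsMajoranaAmbient mul B) (X : Subgroup (V ≃ₗ[ℝ] V)) (hX : ∀ x ∈ X, x * x = 1) (ax : (V ≃ₗ[ℝ] V) → V) (hax : ∀ x ∈ X, x ≠ 1 → Cfsg.Axial.IsMajoranaPair mul B x (ax x)) (h1 : ∀ x ∈ X, x ≠ 1 → B (ax x) (ax x) = 1) (h2A : ∀ x ∈ X, ∀ y ∈ X, x ≠ 1 → y ≠ 1 → x ≠ y → mul (ax x) (ax y) = (1 / 8 : ℝ) • (ax x + ax y - ax (x * y))) : Nat.card ↥X ≤ 4 := by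
  by_contra hcard
  push_neg at hcard
  obtain ⟨x', hx'1, -⟩ := exists_ne4 hcard (1 : X) 1 1 1
  obtain ⟨y', hy'1, hy'x, -⟩ := exists_ne4 hcard (1 : X) x' 1 1
  obtain ⟨z', hz'1, hz'x, hz'y, hz'xy⟩ := exists_ne4 hcard (1 : X) x' y' (x' * y')
  obtain ⟨x, hx⟩ := x'
  obtain ⟨y, hy⟩ := y'
  obtain ⟨z, hz⟩ := z'
  have hx1 : x ≠ 1 := fun h => hx'1 (Subtype.ext h)
  have hy1 : y ≠ 1 := fun h => hy'1 (Subtype.ext h)
  have hz1 : z ≠ 1 := fun h => hz'1 (Subtype.ext h)
  have hyx : y ≠ x := fun h => hy'x (Subtype.ext h)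
  have hzx : z ≠ x := fun h => hz'x (Subtype.ext h)
  have hzy : z ≠ y := fun h => hz'y (Subtype.ext h)
  have hzxy : z ≠ x * y := fun h => hz'xy (Subtype.ext h)
  clear hx'1 hy'1 hy'x hz'1 hz'x hz'y hz'xy
  have hx2 : x * x = 1 := hX x hx
  have hy2 : y * y = 1 := hX y hy
  have hz2 : z * z = 1 := hX z hz
  have comm : ∀ a ∈ X, ∀ b ∈ X, a * b = b * a := by
    intro a ha b hb
    have h := hX (a * b) (X.mul_mem ha hb)
    have ha2 := hX a ha
    have hb2 := hX b hb
    have h1 : (a * b)⁻¹ = a * b := inv_eq_of_mul_eq_one_left h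
    have ha' : a⁻¹ = a := inv_eq_of_mul_eq_one_left ha2
    have hb' : b⁻¹ = b := inv_eq_of_mul_eq_one_left hb2
    calc a * b = (a * b)⁻¹ := h1.symm
      _ = b⁻¹ * a⁻¹ := mul_inv_rev a b
      _ = b * a := by rw [ha', hb']
  have cxy : y * x = x * y := comm y hy x hx
  have cxz : z * x = x * z := comm z hz x hx
  have cyz : z * y = y * z := comm z hz y hy
  have cxy' : ∀ t, y * (x * t) = x * (y * t) := fun t => by rw [← mul_assoc, cxy, mul_assoc]
  have cxz' : ∀ t, z * (x * t) = x * (z * t) := fun t => by rw [← mul_assoc, cxz, mul_assoc]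
  have cyz' : ∀ t, z * (y * t) = y * (z * t) := fun t => by rw [← mul_assoc, cyz, mul_assoc]
  have hx2' : ∀ t, x * (x * t) = t := fun t => by rw [← mul_assoc, hx2, one_mul]
  have hy2' : ∀ t, y * (y * t) = t := fun t => by rw [← mul_assoc, hy2, one_mul]
  have hz2' : ∀ t, z * (z * t) = t := fun t => by rw [← mul_assoc, hz2, one_mul]
  -- membership
  have mxy : x * y ∈ X := X.mul_mem hx hy
  have mxz : x * z ∈ X := X.mul_mem hx hz
  have myz : y * z ∈ X := X.mul_mem hy hz
  have mxyz : x * y * z ∈ X := X.mul_mem mxy hz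
  -- non-identity
  have nxy : x * y ≠ 1 := by
    intro h
    apply hyx
    have := congrArg (fun t => x * t) h
    simp only [hx2', mul_one] at this
    exact this
  have nxz : x * z ≠ 1 := by
    intro h
    apply hzx
    have := congrArg (fun t => x * t) h
    simp only [hx2', mul_one] at this
    exact this
  have nyz : y * z ≠ 1 := by
    intro h
    apply hzy
    have := congrArg (fun t => y * t) h
    simp only [hy2', mul_one] at this
    exact this
  have nxyz : x * y * z ≠ 1 := by
    intro h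
    apply hzxy
    have := congrArg (fun t => y * (x * t)) h
    simp only [mul_assoc, hx2', hy2', mul_one] at this
    rw [this, cxy]
  -- product identities
  have p1 : x * (x * y) = y := hx2' y
  have p2 : x * (x * z) = z := hx2' z
  have p3 : x * (y * z) = x * y * z := (mul_assoc x y z).symm
  have p4 : x * (x * y * z) = y * z := by rw [mul_assoc, hx2']
  have p5 : y * (x * z) = x * y * z := by rw [cxy', mul_assoc]
  have p6 : x * y * (x * z) = y * z := by
    simp only [mul_assoc, cxy', hx2']
  have p7 : y * z * (x * y * z) = x := by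
    simp only [mul_assoc, cxy', cxz', cyz', cyz, hy2, hy2', hz2, mul_one]
  -- distinctness
  have d1 : x ≠ y := fun h => hyx h.symm
  have d2 : x ≠ x * y := by
    intro h
    apply hy1
    have := congrArg (fun t => x * t) h
    simp only [hx2', hx2] at this
    exact this.symm
  have d3 : x ≠ z := fun h => hzx h.symm
  have d4 : x ≠ x * z := by
    intro h
    apply hz1
    have := congrArg (fun t => x * t) h
    simp only [hx2', hx2] at this
    exact this.symm
  have d5 : x ≠ y * z := by
    intro h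
    apply hzxy
    have := congrArg (fun t => y * t) h
    simp only [hy2'] at this
    rw [← this, cxy]
  have d6 : x ≠ x * y * z := by
    intro h
    apply nyz
    have := congrArg (fun t => x * t) h
    simp only [mul_assoc, hx2', hx2] at this
    exact this.symm
  have d7 : y ≠ z := fun h => hzy h.symm
  have d8 : y ≠ x * z := by
    intro h
    apply hzxy
    have := congrArg (fun t => x * t) h
    simp only [hx2'] at this
    exact this.symm
  have d9 : x * y ≠ z := fun h => hzxy h.symm
  have d10 : x * y ≠ x * z := by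
    intro h
    apply d7
    exact mul_left_cancel h
  have d11 : y * z ≠ x * y * z := by
    intro h
    apply hx1
    have h' : 1 * (y * z) = x * (y * z) := by rw [one_mul, ← mul_assoc]; exact h
    exact (mul_right_cancel h').symm
  -- 2A relations
  have E1 := h2A x hx y hy hx1 hy1 d1
  have E2 := h2A x hx (x * y) mxy hx1 nxy d2
  rw [p1] at E2
  have E3 := h2A x hx z hz hx1 hz1 d3
  have E4 := h2A x hx (x * z) mxz hx1 nxz d4
  rw [p2] at E4
  have E5 := h2A x hx (y * z) myz hx1 nyz d5
  rw [p3] at E5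
  have E6 := h2A x hx (x * y * z) mxyz hx1 nxyz d6
  rw [p4] at E6
  have P1 := h2A y hy z hz hy1 hz1 d7
  have P2 := h2A y hy (x * z) mxz hy1 nxz d8
  rw [p5] at P2
  have P3 := h2A (x * y) mxy z hz nxy hz1 d9
  have P4 := h2A (x * y) mxy (x * z) mxz nxy nxz d10
  rw [p6] at P4
  have P5 := h2A (y * z) myz (x * y * z) mxyz nyz nxyz d11
  rw [p7] at P5
  -- eigenvectors
  have hd1 : mul (ax x) (ax y - ax (x * y)) = (1 / 4 : ℝ) • (ax y - ax (x * y)) := by
    rw [map_sub, E1, E2]; module
  have hd2 : mul (ax x) (ax z - ax (x * z)) = (1 / 4 : ℝ) • (ax z - ax (x * z)) := by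
    rw [map_sub, E3, E4]; module
  have hd3 : mul (ax x) (ax (y * z) - ax (x * y * z)) = (1 / 4 : ℝ) • (ax (y * z) - ax (x * y * z)) := by
    rw [map_sub, E5, E6]; module
  have hprod : mul (ax y - ax (x * y)) (ax z - ax (x * z))
      = (-(1 / 4) : ℝ) • (ax (y * z) - ax (x * y * z)) := by
    rw [map_sub, map_sub, LinearMap.sub_apply, LinearMap.sub_apply, P1, P2, P3, P4]
    module
  -- fusion law
  obtain ⟨-, -, ⟨⟨-, hidem, -, hfus⟩, -⟩, -⟩ := hax x hx hx1
  have hq : (1 / 4 : ℝ) ∈ Cfsg.Axial.majoranaSpectrum := by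
    unfold Cfsg.Axial.majoranaSpectrum; simp
  have hf := hfus (1 / 4) hq (1 / 4) hq (ax y - ax (x * y))
    (by unfold Cfsg.Axial.eigen; rw [Module.End.mem_eigenspace_iff]; exact hd1)
    (ax z - ax (x * z))
    (by unfold Cfsg.Axial.eigen; rw [Module.End.mem_eigenspace_iff]; exact hd2)
  have hlaw : Cfsg.Axial.monsterLaw (1 / 4 : ℝ) (1 / 32) (1 / 4) (1 / 4) = {1, 0} := by
    unfold Cfsg.Axial.monsterLaw
    norm_num
  rw [hlaw, hprod] at hf
  have he := eq_zero_of_mem mul (ax x) _ hf (by rw [map_smul, hd3]; module)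
  have he' : ax (y * z) = ax (x * y * z) := by
    rcases smul_eq_zero.mp he with h | h
    · norm_num at h
    · exact sub_eq_zero.mp h
  -- contradiction
  obtain ⟨-, -, ⟨⟨-, hidem', -, -⟩, -⟩, -⟩ := hax (y * z) myz nyz
  rw [← he', hidem'] at P5
  have hA : ax x = (-6 : ℝ) • ax (y * z) := by
    have : (8 : ℝ) • ax (y * z) = (8 : ℝ) • ((1 / 8 : ℝ) • (ax (y * z) + ax (y * z) - ax x)) := by
      rw [← P5]
    have h8 : (8 : ℝ) • ((1 / 8 : ℝ) • (ax (y * z) + ax (y * z) - ax x))
        = ax (y * z) + ax (y * z) - ax x := by module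
    rw [h8] at this
    have h9 : ax x = ax (y * z) + ax (y * z) - (8 : ℝ) • ax (y * z) := by
      rw [this]; module
    rw [h9]; module
  have n1 := h1 x hx hx1
  have n2 := h1 (y * z) myz nyz
  rw [hA] at n1
  simp only [map_smul, LinearMap.smul_apply, smul_eq_mul, n2] at n1
  norm_num at n1

end Cfsg.Agent.S5543
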