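import Cfsg.Statements.S5545
import Mathlib

set_option autoImplicit false
open Cfsg

namespace Cfsg.Agent.S5545

open Cfsg.Axial

section
variable {V : Type*} [AddCommGroup V] [Module ℝ V]

theorem eigen_map (mul : V →ₗ[ℝ] V →ₗ[ℝ] V) (σ : V ≃ₗ[ℝ] V)
    (hσ : ∀ u v, σ (mul u v) = mul (σ u) (σ v)) (a : V) (c : ℝ) :
    eigen mul (σ a) c = (eigen mul a c).map (σ : V →ₗ[ℝ] V) := by
  ext v
  unfold eigen
  rw [Module.End.mem_eigenspace_iff, Submodule.mem_map]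
  constructor
  · intro h
    refine ⟨σ.symm v, ?_, by simp⟩
    rw [Module.End.mem_eigenspace_iff]
    apply σ.injective
    rw [hσ, map_smul]
    simpa using h
  · rintro ⟨w, hw, rfl⟩
    rw [Module.End.mem_eigenspace_iff] at hw
    show mul (σ a) (σ w) = c • σ w
    rw [← hσ, hw, map_smul]

theorem eigenSum_map (mul : V →ₗ[ℝ] V →ₗ[ℝ] V) (σ : V ≃ₗ[ℝ] V)
    (hσ : ∀ u v, σ (mul u v) = mul (σ u) (σ v)) (a : V) (S : Set ℝ) :
    eigenSum mul (σ a) S = (eigenSum mul a S).map (σ : V →ₗ[ℝ] V) := by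
  unfold eigenSum
  rw [Submodule.map_iSup]
  congr 1
  ext c : 1
  rw [Submodule.map_iSup]
  congr 1
  ext hc : 1
  exact eigen_map mul σ hσ a c

theorem transport (mul : V →ₗ[ℝ] V →ₗ[ℝ] V) (B : LinearMap.BilinForm ℝ V) (μ σ : V ≃ₗ[ℝ] V) (a : V)
    (h : IsMajoranaPair mul B μ a) (hσ : ∀ u v, σ (mul u v) = mul (σ u) (σ v))
    (hc : ∀ v, μ (σ v) = σ (μ v)) : IsMajoranaPair mul B μ (σ a) := by
  obtain ⟨hμ, hμB, ⟨⟨ha0, haa, htop, hfus⟩, hprim⟩, hmiy1, hmiy2⟩ := h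
  have hσs : ∀ u v, σ.symm (mul u v) = mul (σ.symm u) (σ.symm v) := by
    intro u v
    apply σ.injective
    rw [hσ]; simp
  refine ⟨hμ, hμB, ⟨⟨?_, ?_, ?_, ?_⟩, ?_⟩, ?_, ?_⟩
  · intro h0
    apply ha0
    apply σ.injective
    simpa using h0
  · rw [← hσ, haa]
  · rw [eigenSum_map mul σ hσ, htop, Submodule.map_top, LinearMap.range_eq_top]
    exact σ.surjective
  · intro c hcS d hdS u hu v hv
    rw [eigen_map mul σ hσ] at hu hv
    obtain ⟨u', hu', rfl⟩ := hu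
    obtain ⟨v', hv', rfl⟩ := hv
    rw [eigenSum_map mul σ hσ]
    refine ⟨mul u' v', hfus c hcS d hdS u' hu' v' hv', ?_⟩
    show σ (mul u' v') = mul (σ u') (σ v')
    exact hσ u' v'
  · rw [eigen_map mul σ hσ, hprim, Submodule.map_span]
    simp
  · intro v hv
    rw [eigenSum_map mul σ hσ] at hv
    obtain ⟨v', hv', rfl⟩ := hv
    show μ (σ v') = σ v'
    rw [hc]
    have := hmiy1 v' hv'
    have h' : μ v' = v' := this
    rw [h']
  · intro v hv
    rw [eigen_map mul σ hσ] at hv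
    obtain ⟨v', hv', rfl⟩ := hv
    show μ (σ v') = -σ v'
    rw [hc]
    have h' : μ v' = -v' := hmiy2 v' hv'
    rw [h', map_neg]

/-- a vector fixed by the Miyamoto involution of an axis decomposes without 1/32-part -/
theorem decompose (mul : V →ₗ[ℝ] V →ₗ[ℝ] V) (B : LinearMap.BilinForm ℝ V) (μ : V ≃ₗ[ℝ] V) (a b : V)
    (h : IsMajoranaPair mul B μ a) (hb : μ b = b) :
    ∃ (lam : ℝ) (u₀ uq : V), b = lam • a + u₀ + uq ∧ mul a u₀ = 0 ∧ mul a uq = (1 / 4 : ℝ) • uq := by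
  obtain ⟨hμ, hμB, ⟨⟨ha0, haa, htop, hfus⟩, hprim⟩, hmiy1, hmiy2⟩ := h
  have hbtop : b ∈ eigenSum mul a majoranaSpectrum := by rw [htop]; trivial
  unfold eigenSum majoranaSpectrum at hbtop
  rw [iSup_insert, iSup_insert, iSup_insert, iSup_singleton] at hbtop
  obtain ⟨t1, ht1, r1, hr1, e1⟩ := Submodule.mem_sup.mp hbtop
  obtain ⟨u₀, hu₀, r2, hr2, e2⟩ := Submodule.mem_sup.mp hr1
  obtain ⟨uq, huq, n, hn, e3⟩ := Submodule.mem_sup.mp hr2
  have hp : t1 + u₀ + uq ∈ eigenSum mul a {1, 0, 1 / 4} := by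
    unfold eigenSum
    rw [iSup_insert, iSup_insert, iSup_singleton]
    exact Submodule.mem_sup.mpr ⟨t1, ht1, u₀ + uq, Submodule.mem_sup.mpr ⟨u₀, hu₀, uq, huq, rfl⟩,
      by abel⟩
  have h1 : μ (t1 + u₀ + uq) = t1 + u₀ + uq := hmiy1 _ hp
  have h2 : μ n = -n := hmiy2 n hn
  have hbdec : b = (t1 + u₀ + uq) + n := by rw [← e1, ← e2, ← e3]; abel
  have hn0 : n = 0 := by
    have := hb
    rw [hbdec, map_add, h1, h2] at this
    have h3 : (2 : ℝ) • n = 0 := by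
      have : n + n = 0 := by
        have h4 : t1 + u₀ + uq + -n = t1 + u₀ + uq + n := this
        have h5 := add_left_cancel h4
        calc n + n = n + -n := by rw [h5]
          _ = 0 := by abel
      rw [two_smul]; exact this
    rcases smul_eq_zero.mp h3 with h | h
    · norm_num at h
    · exact h
  unfold eigen at ht1 hu₀ huq
  have ht1' : t1 ∈ Submodule.span ℝ {a} := by
    have : eigen mul a 1 = Submodule.span ℝ {a} := hprim
    unfold eigen at this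
    rw [← this]; exact ht1
  obtain ⟨lam, hlam⟩ := Submodule.mem_span_singleton.mp ht1'
  rw [Module.End.mem_eigenspace_iff] at hu₀ huq
  refine ⟨lam, u₀, uq, ?_, ?_, huq⟩
  · rw [hbdec, hn0, hlam, add_zero]
  · simpa using hu₀

theorem lemma1 (mul : V →ₗ[ℝ] V →ₗ[ℝ] V) (a b u₀ uq : V) (lam : ℝ)
    (haa : mul a a = a) (hb : b = lam • a + u₀ + uq) (h0 : mul a u₀ = 0)
    (hq : mul a uq = (1 / 4 : ℝ) • uq) :
    mul a b = lam • a + (1 / 4 : ℝ) • uq ∧
    mul a (mul a b) = (3 * lam / 4) • a + (1 / 4 : ℝ) • mul a b := by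
  have hs : mul a b = lam • a + (1 / 4 : ℝ) • uq := by
    rw [hb, map_add, map_add, map_smul, haa, h0, hq, add_zero]
  refine ⟨hs, ?_⟩
  rw [hs, map_add, map_smul, map_smul, haa, hq]
  module

theorem lam_eq (mul : V →ₗ[ℝ] V →ₗ[ℝ] V) (B : LinearMap.BilinForm ℝ V)
    (hassoc : ∀ u v w : V, B u (mul v w) = B (mul u v) w) (a b u₀ uq : V) (lam : ℝ)
    (haa : mul a a = a) (hb : b = lam • a + u₀ + uq) (h0 : mul a u₀ = 0)
    (hq : mul a uq = (1 / 4 : ℝ) • uq) (hn : B a a = 1) : B a b = lam := by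
  have e0 : B a u₀ = 0 := by
    have := hassoc a a u₀
    rw [haa, h0, map_zero] at this
    exact this.symm
  have eq : B a uq = 0 := by
    have := hassoc a a uq
    rw [haa, hq, map_smul, smul_eq_mul] at this
    linarith
  rw [hb, map_add, map_add, map_smul, hn, e0, eq]
  simp

theorem key (mul : V →ₗ[ℝ] V →ₗ[ℝ] V) (hcomm : ∀ u v : V, mul u v = mul v u)
    (a b u₀ uq : V) (lam : ℝ)
    (haa : mul a a = a) (hbb : mul b b = b) (hb : b = lam • a + u₀ + uq) (h0 : mul a u₀ = 0)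
    (hq : mul a uq = (1 / 4 : ℝ) • uq)
    (f00 : mul a (mul u₀ u₀) = 0)
    (f0q : mul a (mul u₀ uq) = (1 / 4 : ℝ) • mul u₀ uq)
    (fqq : mul a (mul a (mul uq uq)) = mul a (mul uq uq))
    (hbs : mul b (mul a b) = (3 * lam / 4) • b + (1 / 4 : ℝ) • mul a b) :
    (32 : ℝ) • mul (mul a b) (mul a b)
      = (6 * lam) • b + (8 * lam - 2) • mul a b + (16 * lam ^ 2 + 4 * lam) • a := by
  obtain ⟨hs, has⟩ := lemma1 mul a b u₀ uq lam haa hb h0 hq
  have hexp : b = (lam ^ 2) • a + mul u₀ u₀ + mul uq uq + (lam / 2) • uq + (2 : ℝ) • mul u₀ uq := by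
    have e : mul (lam • a + u₀ + uq) (lam • a + u₀ + uq)
        = (lam ^ 2) • a + mul u₀ u₀ + mul uq uq + (lam / 2) • uq + (2 : ℝ) • mul u₀ uq := by
      simp only [map_add, map_smul, LinearMap.add_apply, LinearMap.smul_apply, haa, h0, hq,
        hcomm u₀ a, hcomm uq a, hcomm uq u₀]
      module
    rw [← hb] at e
    rw [← e, hbb]
  have hT := congrArg (fun w => mul a (mul a w) - mul a w) hexp
  have hTb : mul a (mul a b) - mul a b = (-(3 / 16) : ℝ) • uq := by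
    rw [hb]
    simp only [map_add, map_smul, haa, h0, hq, map_zero]
    module
  rw [hTb] at hT
  simp only [map_add, map_smul, haa, h0, hq, f00, f0q, fqq, map_zero] at hT
  have star : uq = (lam / 2) • uq + (2 : ℝ) • mul u₀ uq := by
    linear_combination (norm := module) (-(16 / 3) : ℝ) • hT
  have huq : uq = (4 : ℝ) • mul a b - (4 * lam) • a := by
    rw [hs]; module
  have hu0 : u₀ = b + (3 * lam) • a - (4 : ℝ) • mul a b := by
    have : u₀ = b - lam • a - uq := by rw [hb]; module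
    rw [this, huq]; module
  rw [huq, hu0] at star
  simp only [map_add, map_sub, map_smul, LinearMap.add_apply, LinearMap.sub_apply,
    LinearMap.smul_apply, haa, hbs, has, hcomm b a, hcomm (mul a b) a] at star
  linear_combination (norm := module) star

theorem fusion_facts (mul : V →ₗ[ℝ] V →ₗ[ℝ] V) (a u₀ uq : V)
    (hfus : ∀ c ∈ majoranaSpectrum, ∀ d ∈ majoranaSpectrum, ∀ u ∈ eigen mul a c,
      ∀ v ∈ eigen mul a d, mul u v ∈ eigenSum mul a (monsterLaw (1 / 4) (1 / 32) c d))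
    (h0 : mul a u₀ = 0) (hq : mul a uq = (1 / 4 : ℝ) • uq) :
    mul a (mul u₀ u₀) = 0 ∧ mul a (mul u₀ uq) = (1 / 4 : ℝ) • mul u₀ uq ∧
      mul a (mul a (mul uq uq)) = mul a (mul uq uq) := by
  have m0 : u₀ ∈ eigen mul a 0 := by
    unfold eigen; rw [Module.End.mem_eigenspace_iff]; simpa using h0
  have mq : uq ∈ eigen mul a (1 / 4) := by
    unfold eigen; rw [Module.End.mem_eigenspace_iff]; exact hq
  have s0 : (0 : ℝ) ∈ majoranaSpectrum := by unfold majoranaSpectrum; simp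
  have sq : (1 / 4 : ℝ) ∈ majoranaSpectrum := by unfold majoranaSpectrum; simp
  have l00 : monsterLaw (1 / 4 : ℝ) (1 / 32) 0 0 = {0} := by unfold monsterLaw; norm_num
  have l0q : monsterLaw (1 / 4 : ℝ) (1 / 32) 0 (1 / 4) = {1 / 4} := by
    unfold monsterLaw; norm_num
  have lqq : monsterLaw (1 / 4 : ℝ) (1 / 32) (1 / 4) (1 / 4) = {1, 0} := by
    unfold monsterLaw; norm_num
  refine ⟨?_, ?_, ?_⟩
  · have f1 := hfus 0 s0 0 s0 u₀ m0 u₀ m0
    rw [l00] at f1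
    unfold eigenSum at f1
    rw [iSup_singleton] at f1
    unfold eigen at f1
    rw [Module.End.mem_eigenspace_iff] at f1
    simpa using f1
  · have f2 := hfus 0 s0 (1 / 4) sq u₀ m0 uq mq
    rw [l0q] at f2
    unfold eigenSum at f2
    rw [iSup_singleton] at f2
    unfold eigen at f2
    rw [Module.End.mem_eigenspace_iff] at f2
    exact f2
  · have f3 := hfus (1 / 4) sq (1 / 4) sq uq mq uq mq
    rw [lqq] at f3
    have hK : eigenSum mul a {1, 0} ≤ LinearMap.ker (mul a ∘ₗ mul a - mul a) := by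
      unfold eigenSum
      apply iSup₂_le
      intro c hc w hw
      unfold eigen at hw
      rw [Module.End.mem_eigenspace_iff] at hw
      rw [LinearMap.mem_ker, LinearMap.sub_apply, LinearMap.comp_apply, hw, map_smul, hw]
      rcases hc with rfl | hc
      · simp
      · rw [Set.mem_singleton_iff] at hc; subst hc; simp
    have := hK f3
    rw [LinearMap.mem_ker, LinearMap.sub_apply, LinearMap.comp_apply] at this
    exact sub_eq_zero.mp this

end

/-- Let V be a finite-dimensional real vector space with a commutative bilinear product and a positive-definite symmetric bilinear form that associates with the product and satisfies the Norton inequality (the Majorana setting of the definitions). Let μ₀, μ₁ be commuting Majorana involutions with distinct axial vectors a₀ ≠ a₁ of squared length 1, each involution having no other axial vector. Then either a₀ and a₁ are orthogonal with a₀ ∘ a₁ = 0 (type 2B), or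 their inner product is 1/8 and, with a₂ = a₀ + a₁ − 8 a₀ ∘ a₁, the vector a₂ is an idempotent and a₀ ∘ a₂ = (1/8)(a₀ + a₂ − a₁), a₁ ∘ a₂ = (1/8)(a₁ + a₂ − a₀) (type 2A: the three idempotents span a subalgebra with aᵢ ∘ aⱼ = (1/8)(aᵢ + aⱼ − aₖ)). -/
theorem result {V : Type*} [AddCommGroup V] [Module ℝ V] [FiniteDimensional ℝ V] (mul : V →ₗ[ℝ] V →ₗ[ℝ] V) (B : LinearMap.BilinForm ℝ V) (hV : Cfsg.Axial.IsMajoranaAmbient mul B) (μ₀ μ₁ : V ≃ₗ[ℝ] V) (a₀ a₁ : V) (h₀ : Cfsg.Axial.IsMajoranaPair mul B μ₀ a₀) (h₁ : Cfsg.Axial.IsMajoranaPair mul B μ₁ a₁) (hu₀ : ∀ a : V, Cfsg.Axial.IsMajoranaPair mul B μ₀ a → a = a₀) (hu₁ : ∀ a : V, Cfsg.Axial.IsMajoranaPair mul B μ₁ a → a = a₁) (hn₀ : B a₀ a₀ = 1) (hn₁ : B a₁ a₁ = 1) (hc : μ₀ * μ₁ = μ₁ * μ₀) (hne : a₀ ≠ a₁) : (B a₀ a₁ = 0 ∧ mul a₀ a₁ = 0) ∨ (B a₀ a₁ = 1 / 8 ∧ mul (a₀ + a₁ - (8 : ℝ) • mul a₀ a₁) (a₀ + a₁ - (8 : ℝ) • mul a₀ a₁) = a₀ + a₁ - (8 : ℝ) • mul a₀ a₁ ∧ mul a₀ (a₀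 + a₁ - (8 : ℝ) • mul a₀ a₁) = (1 / 8 : ℝ) • (a₀ + (a₀ + a₁ - (8 : ℝ) • mul a₀ a₁) - a₁) ∧ mul a₁ (a₀ + a₁ - (8 : ℝ) • mul a₀ a₁) = (1 / 8 : ℝ) • (a₁ + (a₀ + a₁ - (8 : ℝ) • mul a₀ a₁) - a₀)) := by
  obtain ⟨hcomm, hsymm, hpos, hassoc, hnorton⟩ := hV
  have hc' : ∀ v, μ₀ (μ₁ v) = μ₁ (μ₀ v) := fun v => by
    have := congrArg (fun f : V ≃ₗ[ℝ] V => f v) hc
    simpa [LinearEquiv.mul_apply] using this
  have hfix0 : μ₁ a₀ = a₀ := hu₀ _ (transport mul B μ₀ μ₁ a₀ h₀ h₁.1 hc')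
  have hfix1 : μ₀ a₁ = a₁ := hu₁ _ (transport mul B μ₁ μ₀ a₁ h₁ h₀.1 (fun v => (hc' v).symm))
  obtain ⟨lam, u₀, uq, hb, h0, hq⟩ := decompose mul B μ₁ a₁ a₀ h₁ hfix0
  obtain ⟨lam', v₀, vq, hb', h0', hq'⟩ := decompose mul B μ₀ a₀ a₁ h₀ hfix1
  have haa1 : mul a₁ a₁ = a₁ := h₁.2.2.1.1.2.1
  have haa0 : mul a₀ a₀ = a₀ := h₀.2.2.1.1.2.1
  have hfus1 := h₁.2.2.1.1.2.2.2
  have hfus0 := h₀.2.2.1.1.2.2.2
  have hlam : B a₁ a₀ = lam := lam_eq mul B hassoc a₁ a₀ u₀ uq lam haa1 hb h0 hq hn₁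
  have hlam' : B a₀ a₁ = lam' := lam_eq mul B hassoc a₀ a₁ v₀ vq lam' haa0 hb' h0' hq' hn₀
  have hll : lam' = lam := by rw [← hlam, ← hlam', hsymm]
  subst hll
  have hs : mul a₁ a₀ = mul a₀ a₁ := hcomm a₁ a₀
  obtain ⟨-, has1⟩ := lemma1 mul a₁ a₀ u₀ uq lam' haa1 hb h0 hq
  obtain ⟨-, has0⟩ := lemma1 mul a₀ a₁ v₀ vq lam' haa0 hb' h0' hq'
  obtain ⟨f00, f0q, fqq⟩ := fusion_facts mul a₁ u₀ uq hfus1 h0 hq
  obtain ⟨g00, g0q, gqq⟩ := fusion_facts mul a₀ v₀ vq hfus0 h0' hq'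
  have k1 := key mul hcomm a₁ a₀ u₀ uq lam' haa1 haa0 hb h0 hq f00 f0q fqq (by rw [hs]; exact has0)
  have k0 := key mul hcomm a₀ a₁ v₀ vq lam' haa0 haa1 hb' h0' hq' g00 g0q gqq
    (by rw [← hs]; exact has1)
  rw [hs] at k1 has1
  have hdiff : (2 * lam' * (1 - 8 * lam')) • (a₀ - a₁) = 0 := by
    linear_combination (norm := module) k0 - k1
  rcases smul_eq_zero.mp hdiff with h | h
  · rcases mul_eq_zero.mp h with h | h
    · have hl0 : lam' = 0 := by linarith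
      left
      refine ⟨by rw [hlam', hl0], ?_⟩
      by_contra hsne
      have h1 := hpos _ hsne
      have h2 := hnorton a₀ a₁
      rw [haa0, haa1, hlam', hl0] at h2
      linarith
    · have hl8 : lam' = 1 / 8 := by linarith
      right
      subst hl8
      refine ⟨hlam', ?_, ?_, ?_⟩
      · simp only [map_add, map_sub, map_smul, LinearMap.add_apply, LinearMap.sub_apply,
          LinearMap.smul_apply, haa0, haa1, hcomm a₁ a₀, has0, has1, hcomm (mul a₀ a₁) a₀,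
          hcomm (mul a₀ a₁) a₁]
        linear_combination (norm := module) (2 : ℝ) • k0
      · simp only [map_add, map_sub, map_smul, haa0, has0]
        module
      · simp only [map_add, map_sub, map_smul, haa1, has1, hcomm a₁ a₀]
        module
  · exact absurd (sub_eq_zero.mp h) hne

end Cfsg.Agent.S5545
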