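import Cfsg.Statements.S5546
import Cfsg.Agent.Lib.Helper10.Co0Center
import Mathlib

set_option autoImplicit false
open Cfsg

namespace Cfsg.Agent.S5546

open Cfsg.Spor Cfsg.Agent.Lib.Helper10

abbrev F := ZMod 13

instance fact13 : Fact (Nat.Prime 13) := ⟨by norm_num⟩

def addHom (f : Equiv.Perm leechLattice) (hf : f ∈ Co0) : leechLattice →+ leechLattice :=
  AddMonoidHom.mk' f hf.1

theorem addHom_apply (f : Equiv.Perm leechLattice) (hf : f ∈ Co0) (v : leechLattice) :
    addHom f hf v = f v := rfl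

theorem eight_smul_eq (v : leechLattice) :
    (8 : ℤ) • v = ∑ j, (v : GolayPt → ℤ) j • axisVec j := by
  apply Subtype.ext
  funext i
  rw [AddSubgroup.coe_zsmul, AddSubmonoidClass.coe_finsetSum, Finset.sum_apply]
  simp only [AddSubgroup.coe_zsmul, Pi.smul_apply, axisVec_apply, smul_eq_mul, mul_ite, mul_zero,
    Finset.sum_ite_eq, Finset.mem_univ, if_true]
  ring

theorem key (f : Equiv.Perm leechLattice) (hf : f ∈ Co0) (v : leechLattice) (i : GolayPt) :
    8 * (f v : GolayPt → ℤ) i = ∑ j, (v : GolayPt → ℤ) j * (f (axisVec j) : GolayPt → ℤ) i := by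
  have h := congrArg (addHom f hf) (eight_smul_eq v)
  rw [map_zsmul, map_sum] at h
  simp only [map_zsmul, addHom_apply] at h
  have h2 := congrArg (fun w : leechLattice => (w : GolayPt → ℤ) i) h
  simp only [AddSubgroup.coe_zsmul, AddSubmonoidClass.coe_finsetSum, Finset.sum_apply,
    Pi.smul_apply, smul_eq_mul] at h2
  exact h2

def A (f : Equiv.Perm leechLattice) : Matrix GolayPt GolayPt F :=
  fun i j => (((f (axisVec j) : GolayPt → ℤ) i : ℤ) : F) * 5

theorem A_apply (f : Equiv.Perm leechLattice) (i j : GolayPt) :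
    A f i j = (((f (axisVec j) : GolayPt → ℤ) i : ℤ) : F) * 5 := rfl

theorem A_key (f : Equiv.Perm leechLattice) (hf : f ∈ Co0) (v : leechLattice) (i : GolayPt) :
    (((f v : GolayPt → ℤ) i : ℤ) : F) = ∑ j, A f i j * (((v : GolayPt → ℤ) j : ℤ) : F) := by
  have h := congrArg (fun n : ℤ => (n : F)) (key f hf v i)
  simp only [Int.cast_mul, Int.cast_sum, Int.cast_ofNat] at h
  have h5 : (5 : F) * 8 = 1 := by decide
  calc (((f v : GolayPt → ℤ) i : ℤ) : F) = 5 * (8 * (((f v : GolayPt → ℤ) i : ℤ) : F)) := by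
        rw [← mul_assoc, h5, one_mul]
    _ = 5 * ∑ j, (((v : GolayPt → ℤ) j : ℤ) : F) * (((f (axisVec j) : GolayPt → ℤ) i : ℤ) : F) := by
        rw [h]
    _ = ∑ j, A f i j * (((v : GolayPt → ℤ) j : ℤ) : F) := by
        rw [Finset.mul_sum]
        apply Finset.sum_congr rfl
        intro j _
        rw [A_apply]; ring

theorem A_mul (f h : Equiv.Perm leechLattice) (hf : f ∈ Co0) : A (f * h) = A f * A h := by
  ext i j
  rw [Matrix.mul_apply, A_apply, Equiv.Perm.mul_apply, A_key f hf, Finset.sum_mul]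
  apply Finset.sum_congr rfl
  intro k _
  rw [A_apply h]; ring

theorem A_one : A 1 = 1 := by
  ext i j
  rw [A_apply, Equiv.Perm.one_apply, axisVec_apply, Matrix.one_apply]
  split_ifs
  · decide
  · simp

theorem dot_axis (j k : GolayPt) :
    dotInt (axisVec j : GolayPt → ℤ) (axisVec k : GolayPt → ℤ) = if j = k then 64 else 0 := by
  show ∑ i, (axisVec j : GolayPt → ℤ) i * (axisVec k : GolayPt → ℤ) i = _
  simp only [axisVec_apply, ite_mul, zero_mul, Finset.sum_ite_eq', Finset.mem_univ, if_true]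
  split_ifs <;> simp

theorem A_orth (f : Equiv.Perm leechLattice) (hf : f ∈ Co0) : (A f).transpose * A f = 1 := by
  ext j k
  rw [Matrix.mul_apply, Matrix.one_apply]
  have h := co0_dot hf (axisVec j) (axisVec k)
  rw [dot_axis] at h
  have h' := congrArg (fun n : ℤ => (n : F)) h
  have h'' : ∑ i, (((f (axisVec j) : GolayPt → ℤ) i : ℤ) : F) * (((f (axisVec k) : GolayPt → ℤ) i : ℤ) : F)
      = ((if j = k then (64 : ℤ) else 0 : ℤ) : F) := by
    rw [← h']
    show _ = ((∑ i, (f (axisVec j) : GolayPt → ℤ) i * (f (axisVec k) : GolayPt → ℤ) i : ℤ) : F)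
    rw [Int.cast_sum]
    apply Finset.sum_congr rfl
    intro i _
    rw [Int.cast_mul]
  calc ∑ i, (A f).transpose j i * A f i k
      = 25 * ∑ i, (((f (axisVec j) : GolayPt → ℤ) i : ℤ) : F) * (((f (axisVec k) : GolayPt → ℤ) i : ℤ) : F) := by
        rw [Finset.mul_sum]
        apply Finset.sum_congr rfl
        intro i _
        rw [Matrix.transpose_apply, A_apply, A_apply]; ring
    _ = if j = k then 1 else 0 := by
        rw [h'']
        split_ifs
        · decide
        · simp

def ubar : GolayPt → F := fun i => ((vecU i : ℤ) : F)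

theorem A_ubar (g : Equiv.Perm leechLattice) (hg : g ∈ Co2) : (A g).mulVec ubar = ubar := by
  funext i
  have h := A_key g hg.1 leechU i
  have h2 : g leechU = leechU := hg.2
  rw [h2] at h
  exact h.symm

theorem ubar_dot : ubar ⬝ᵥ ubar = 6 := by
  decide +kernel

def phi : (GolayPt → F) →ₗ[F] F where
  toFun x := ubar ⬝ᵥ x
  map_add' x y := dotProduct_add _ _ _
  map_smul' c x := by simp [dotProduct_smul]

theorem phi_apply (x : GolayPt → F) : phi x = ubar ⬝ᵥ x := rfl

def W : Submodule F (GolayPt → F) := LinearMap.ker phi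

theorem mem_W (x : GolayPt → F) : x ∈ W ↔ ubar ⬝ᵥ x = 0 := LinearMap.mem_ker

theorem W_inv (g : Equiv.Perm leechLattice) (hg : g ∈ Co2) :
    ∀ x ∈ W, (A g).mulVecLin x ∈ W := by
  intro x hx
  rw [mem_W] at hx ⊢
  rw [Matrix.mulVecLin_apply]
  nth_rewrite 1 [← A_ubar g hg]
  rw [Matrix.dotProduct_mulVec, ← Matrix.mulVec_transpose, Matrix.mulVec_mulVec, A_orth g hg.1,
    Matrix.one_mulVec]
  exact hx

def rho : ↥Co2 →* Module.End F W where
  toFun g := (A g.1).mulVecLin.restrict (W_inv g.1 g.2)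
  map_one' := by
    apply LinearMap.ext
    intro x
    apply Subtype.ext
    rw [LinearMap.restrict_coe_apply]
    show (A 1).mulVecLin x.1 = x.1
    rw [A_one, Matrix.mulVecLin_one]; rfl
  map_mul' g h := by
    apply LinearMap.ext
    intro x
    apply Subtype.ext
    rw [LinearMap.restrict_coe_apply]
    show (A (g.1 * h.1)).mulVecLin x.1 = (A g.1).mulVecLin ((A h.1).mulVecLin x.1)
    rw [A_mul g.1 h.1 g.2.1, Matrix.mulVecLin_mul]; rfl

theorem rho_apply (g : ↥Co2) (x : W) : ((rho g x : W) : GolayPt → F) = (A g.1).mulVec x.1 := rfl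

theorem phi_ne : phi ≠ 0 := by
  intro h
  have h1 : phi ubar = 0 := by rw [h]; rfl
  rw [phi_apply, ubar_dot] at h1
  exact absurd h1 (by decide)

theorem finrank_W : Module.finrank F W = 23 := by
  have h := Module.Dual.finrank_ker_add_one_of_ne_zero phi_ne
  have h2 : Module.finrank F (GolayPt → F) = 24 := by
    rw [Module.finrank_fintype_fun_eq_card]
    decide
  rw [h2] at h
  show Module.finrank F (LinearMap.ker phi) = 23
  omega

theorem A_eq_one (g : ↥Co2) (h : rho g = 1) : A g.1 = 1 := by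
  have hW : ∀ x ∈ W, (A g.1).mulVec x = x := by
    intro x hx
    have := congrArg (fun T : Module.End F W => ((T ⟨x, hx⟩ : W) : GolayPt → F)) h
    exact this
  have hall : ∀ x : GolayPt → F, (A g.1).mulVec x = x := by
    intro x
    have h6 : (6 : F) * 11 = 1 := by decide
    obtain ⟨c, hc⟩ : ∃ c : F, c = 11 * (ubar ⬝ᵥ x) := ⟨_, rfl⟩
    have hxW : x - c • ubar ∈ W := by
      rw [mem_W, dotProduct_sub, dotProduct_smul, ubar_dot, hc, smul_eq_mul]
      have : (11 : F) * (ubar ⬝ᵥ x) * 6 = (6 * 11) * (ubar ⬝ᵥ x) := by ring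
      rw [this, h6, one_mul, sub_self]
    have h1 := hW _ hxW
    have h2 : x = (x - c • ubar) + c • ubar := by abel
    rw [h2, Matrix.mulVec_add, h1, Matrix.mulVec_smul, A_ubar g.1 g.2]
  ext i j
  have := congrFun (hall (Pi.single j 1)) i
  rw [Matrix.mulVec_single_one] at this
  rw [Matrix.one_apply]
  rw [Matrix.col_apply] at this
  rw [this, Pi.single_apply]

theorem int_small (a : ℤ) (h13 : ((a : ℤ) : F) = 0) (hsq : a ^ 2 ≤ 64) : a = 0 := by
  rw [ZMod.intCast_zmod_eq_zero_iff_dvd] at h13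
  have h1 : a ≤ 8 := by nlinarith
  have h2 : -8 ≤ a := by nlinarith
  obtain ⟨k, hk⟩ := h13
  push_cast at hk
  omega

theorem sq_le_sqNorm (w : GolayPt → ℤ) (i : GolayPt) : w i ^ 2 ≤ sqNorm w := by
  show w i ^ 2 ≤ ∑ j, w j ^ 2
  exact Finset.single_le_sum (f := fun j => w j ^ 2) (fun j _ => sq_nonneg (w j)) (Finset.mem_univ i)

theorem sqNorm_axis (j : GolayPt) : sqNorm (axisVec j : GolayPt → ℤ) = 64 := by
  show ∑ i, (axisVec j : GolayPt → ℤ) i ^ 2 = 64
  simp only [axisVec_apply, ite_pow]
  norm_num [Finset.sum_ite_eq']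

theorem fix_axis (g : Equiv.Perm leechLattice) (hg : g ∈ Co0) (hA : A g = 1) (j : GolayPt) :
    g (axisVec j) = axisVec j := by
  have hn : sqNorm (g (axisVec j) : GolayPt → ℤ) = 64 := by rw [hg.2, sqNorm_axis]
  have hentry : ∀ i, (((g (axisVec j) : GolayPt → ℤ) i : ℤ) : F) * 5 = if i = j then 1 else 0 := by
    intro i
    have := congrFun (congrFun hA i) j
    rw [A_apply, Matrix.one_apply] at this
    exact this
  have h5 : (5 : F) * 8 = 1 := by decide
  have hzero : ∀ i, i ≠ j → (g (axisVec j) : GolayPt → ℤ) i = 0 := by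
    intro i hij
    have h1 := hentry i
    rw [if_neg hij] at h1
    have h2 : (((g (axisVec j) : GolayPt → ℤ) i : ℤ) : F) = 0 := by
      have : (((g (axisVec j) : GolayPt → ℤ) i : ℤ) : F) * 5 * 8 = 0 := by rw [h1, zero_mul]
      rw [mul_assoc, h5, mul_one] at this
      exact this
    apply int_small _ h2
    have := sq_le_sqNorm (g (axisVec j) : GolayPt → ℤ) i
    omega
  have hsum : sqNorm (g (axisVec j) : GolayPt → ℤ) = (g (axisVec j) : GolayPt → ℤ) j ^ 2 := by
    show ∑ i, (g (axisVec j) : GolayPt → ℤ) i ^ 2 = _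
    rw [Finset.sum_eq_single j]
    · intro i _ hij
      rw [hzero i hij]; ring
    · intro h; exact absurd (Finset.mem_univ j) h
  rw [hn] at hsum
  have hj : (g (axisVec j) : GolayPt → ℤ) j = 8 := by
    have h1 := hentry j
    rw [if_pos rfl] at h1
    have h2 : ((g (axisVec j) : GolayPt → ℤ) j - 8) * ((g (axisVec j) : GolayPt → ℤ) j + 8) = 0 := by
      nlinarith
    rcases mul_eq_zero.1 h2 with h3 | h3
    · omega
    · exfalso
      have h4 : (g (axisVec j) : GolayPt → ℤ) j = -8 := by omega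
      rw [h4] at h1
      revert h1
      decide
  apply Subtype.ext
  funext i
  rw [axisVec_apply]
  by_cases hij : i = j
  · rw [if_pos hij, hij, hj]
  · rw [if_neg hij, hzero i hij]

theorem eq_one_of_A (g : Equiv.Perm leechLattice) (hg : g ∈ Co0) (hA : A g = 1) : g = 1 := by
  apply Equiv.ext
  intro v
  rw [Equiv.Perm.one_apply]
  apply Subtype.ext
  funext i
  have h := key g hg v i
  have h2 : ∑ j, (v : GolayPt → ℤ) j * (g (axisVec j) : GolayPt → ℤ) i = 8 * (v : GolayPt → ℤ) i := by
    simp only [fix_axis g hg hA, axisVec_apply, mul_ite, mul_zero, Finset.sum_ite_eq,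
      Finset.mem_univ, if_true]
    ring
  rw [h2] at h
  omega

/-- The second Conway group (the stabilizer in the Leech lattice automorphism group of the short vector fixed in the definitions) is isomorphic to a subgroup of the general linear group of degree 23 over the field with 13 elements: there is an injective homomorphism into it. -/
theorem result : ∃ f : ↥Cfsg.Spor.Co2 →* GL (Fin 23) (ZMod 13), Function.Injective f := by
  let b := Module.finBasisOfFinrankEq F W finrank_W
  let e : Module.End F W ≃* Matrix (Fin 23) (Fin 23) F := (LinearMap.toMatrixAlgEquiv b).toMulEquiv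
  refine ⟨(e.toMonoidHom.comp rho).toHomUnits, ?_⟩
  rw [injective_iff_map_eq_one]
  intro g hg
  have h1 : e (rho g) = 1 := by
    have := congrArg Units.val hg
    rw [MonoidHom.coe_toHomUnits] at this
    exact this
  have h2 : rho g = 1 := by
    rw [← map_one e] at h1
    exact e.injective h1
  have h3 := eq_one_of_A g.1 g.2.1 (A_eq_one g h2)
  exact Subtype.ext h3

end Cfsg.Agent.S5546
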