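import Cfsg.Statements.S5547
import Cfsg.Agent.S1696
import Cfsg.Agent.Lib.Helper38.CosetIso
import Cfsg.Agent.Lib.Helper38.F78Rel

set_option autoImplicit false
open Cfsg

namespace Cfsg.Agent.S5547

open Cfsg.Agent.Lib.Helper38

/-- The Fischer group Fi₂₂ (the finitely presented 3-transposition group of the definitions) is isomorphic to a subgroup of the general linear group of degree 78 over the field with 13 elements: there is an injective homomorphism into it. -/
theorem result : ∃ f : Cfsg.Spor.Fi22 →* GL (Fin 78) (ZMod 13), Function.Injective f := by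
  show ∃ f : PresentedGroup Fi22P.rels →* GL (Fin 78) (ZMod 13), Function.Injective f
  have : IsSimpleGroup (PresentedGroup Fi22P.rels) := Cfsg.Agent.S1696.result.1
  refine ⟨PresentedGroup.toGroup (f := fun x => F78.σ (Fi22P.idx x))
    (Fi22P.lift_one F78.σ F78.hσ F78.hw), ?_⟩
  apply injective_of_simple _ (PresentedGroup.of Cfsg.Spor.Fi22.Gen.a)
  rw [PresentedGroup.toGroup.of]
  exact F78.σ0_ne

end Cfsg.Agent.S5547
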