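import Cfsg.Statements.S5550
import Mathlib
import Cfsg.Agent.Lib.Helper93.GolayCoset
import Cfsg.Agent.S0367
import Cfsg.Agent.S0368

set_option autoImplicit false
open Cfsg

namespace Cfsg.Agent.S5550

open Cfsg.Agent.Lib.Helper9 Cfsg.Agent.Lib.Helper93
open scoped Pointwise

/-- Mask of the reference octad `23, 0, 1, 2, 3, 5, 14, 17`. -/
def O0 : ℕ := 8536111

def WO : List (List ℕ) := [[13, 20, 31, 2], [0, 26, 20]]

def WD : List (List ℕ) := [[7, 20, 3, 20], [4, 25, 5]]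

def TO : List (List ℕ) :=
  [[23, 3, 17, 2, 10, 14, 20, 9, 12, 21, 6, 19, 7, 16, 1, 11, 4, 5, 8, 22, 18, 13, 15, 0],
   [1, 2, 3, 0, 11, 14, 13, 9, 4, 20, 22, 18, 6, 16, 5, 7, 10, 17, 15, 12, 8, 19, 21, 23]]

def TD : List (List ℕ) :=
  [[23, 10, 2, 19, 20, 1, 22, 11, 5, 0, 7, 3, 12, 6, 17, 14, 21, 4, 15, 9, 16, 13, 18, 8],
   [0, 19, 7, 3, 20, 8, 6, 2, 5, 10, 9, 11, 14, 15, 12, 13, 22, 17, 18, 1, 4, 21, 16, 23]]

theorem TO_eq : WO.map (prodT sgsTabs) = TO := by decide +kernel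

theorem TD_eq : WD.map (prodT sgsTabs) = TD := by decide +kernel

theorem TO_stab : TO.all (fun T => pull T O0 == O0) = true := by decide +kernel

theorem TD_stab : TD.all (fun T => pull T Cfsg.Agent.S0368.D0 == Cfsg.Agent.S0368.D0) = true := by
  decide +kernel

theorem TO_move : (List.range 4096).all
    (fun u => u == 0 || TO.any (fun T => !inCode (pull T u ^^^ u))) = true := by decide +kernel

theorem TD_move : (List.range 4096).all
    (fun u => u == 0 || TD.any (fun T => !inCode (pull T u ^^^ u))) = true := by decide +kernel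

theorem rep_case (m0 : ℕ) (W : List (List ℕ)) (Ts : List (List ℕ))
    (hTs : W.map (prodT sgsTabs) = Ts)
    (hstab : Ts.all (fun T => pull T m0 == m0) = true)
    (hmove : (List.range 4096).all
      (fun u => u == 0 || Ts.any (fun T => !inCode (pull T u ^^^ u))) = true)
    (w : GolayPt → ZMod 2) (hw : w ∉ golayCode) :
    ∃ σ ∈ M24, (fun p => dec m0 (σ.symm p)) = dec m0 ∧
      (fun p => w (σ.symm p)) - w ∉ golayCode := by
  obtain ⟨c, hc, u, hu, rfl⟩ := exists_coset_rep w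
  have hu0 : u ≠ 0 := by
    rintro rfl
    apply hw
    rw [dec_zero, add_zero]; exact hc
  have h := List.all_eq_true.1 hmove u (List.mem_range.2 hu)
  rw [Bool.or_eq_true, beq_iff_eq, List.any_eq_true] at h
  rcases h with h | ⟨T, hT, hTu⟩
  · exact absurd h hu0
  have hs := List.all_eq_true.1 hstab T hT
  rw [beq_iff_eq] at hs
  rw [← hTs, List.mem_map] at hT
  obtain ⟨wd, hwd, rfl⟩ := hT
  obtain ⟨hmem, hTab⟩ := word_mem wd
  refine ⟨(prodW sgsEnv wd)⁻¹, M24.inv_mem hmem, ?_, ?_⟩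
  · show dec m0 ∘ ⇑(prodW sgsEnv wd) = dec m0
    rw [dec_comp hTab, hs]
  · have e : (fun p => (c + dec u) ((prodW sgsEnv wd)⁻¹.symm p)) - (c + dec u) =
        (c + dec u) ∘ ⇑(prodW sgsEnv wd) - (c + dec u) := rfl
    rw [e, comp_sub_mem_iff hmem hc, dec_comp hTab, dec_sub]
    apply dec_not_mem (Nat.xor_lt_two_pow (pull_lt24 hTab u) (by omega))
    simpa using hTu

theorem rep_O (w : GolayPt → ZMod 2) (hw : w ∉ golayCode) :
    ∃ σ ∈ M24, (fun p => dec O0 (σ.symm p)) = dec O0 ∧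
      (fun p => w (σ.symm p)) - w ∉ golayCode :=
  rep_case O0 WO TO TO_eq TO_stab TO_move w hw

theorem rep_D (w : GolayPt → ZMod 2) (hw : w ∉ golayCode) :
    ∃ σ ∈ M24, (fun p => dec Cfsg.Agent.S0368.D0 (σ.symm p)) = dec Cfsg.Agent.S0368.D0 ∧
      (fun p => w (σ.symm p)) - w ∉ golayCode :=
  rep_case Cfsg.Agent.S0368.D0 WD TD TD_eq TD_stab TD_move w hw

theorem O0_mem : support₂ (dec O0) ∈ octads :=
  (mem_octads_iff _).mpr ⟨O0, mem_sums_of_inCode (by decide +kernel), by decide +kernel, rfl⟩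

theorem transport {g : Equiv.Perm GolayPt} (hg : g ∈ M24) (u w : GolayPt → ZMod 2)
    (h : ∃ σ ∈ M24, (fun p => (u ∘ ⇑g⁻¹) (σ.symm p)) = u ∘ ⇑g⁻¹ ∧
      (fun p => (w ∘ ⇑g⁻¹) (σ.symm p)) - w ∘ ⇑g⁻¹ ∉ golayCode) :
    ∃ σ ∈ M24, (fun p => u (σ.symm p)) = u ∧ (fun p => w (σ.symm p)) - w ∉ golayCode := by
  obtain ⟨σ, hσ, h1, h2⟩ := h
  refine ⟨g⁻¹ * σ * g, M24.mul_mem (M24.mul_mem (M24.inv_mem hg) hσ) hg, ?_, ?_⟩
  · funext p
    have := congrFun h1 (g p)
    have e1 : g⁻¹ (g p) = p := g.symm_apply_apply p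
    simp only [Function.comp_apply] at this
    rw [e1] at this
    exact this
  · intro hmem
    apply h2
    have h3 := comp_mem_of_mem_M24 (M24.inv_mem hg) hmem
    have e : ((fun p => w ((g⁻¹ * σ * g).symm p)) - w) ∘ ⇑g⁻¹ =
        (fun p => (w ∘ ⇑g⁻¹) (σ.symm p)) - w ∘ ⇑g⁻¹ := by
      funext p
      show w (g⁻¹ (σ.symm (g (g⁻¹ p)))) - w (g⁻¹ p) = w (g⁻¹ (σ.symm p)) - w (g⁻¹ p)
      rw [show g (g⁻¹ p) = p from g.apply_symm_apply p]
    rwa [e] at h3

theorem main_of_support (m0 : ℕ)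
    (hrep : ∀ w : GolayPt → ZMod 2, w ∉ golayCode → ∃ σ ∈ M24,
      (fun p => dec m0 (σ.symm p)) = dec m0 ∧ (fun p => w (σ.symm p)) - w ∉ golayCode)
    (u : GolayPt → ZMod 2) (g : Equiv.Perm GolayPt) (hg : g ∈ M24)
    (hgu : g • support₂ u = support₂ (dec m0)) (w : GolayPt → ZMod 2) (hw : w ∉ golayCode) :
    ∃ σ ∈ M24, (fun p => u (σ.symm p)) = u ∧ (fun p => w (σ.symm p)) - w ∉ golayCode := by
  apply transport hg u w
  have e : u ∘ ⇑g⁻¹ = dec m0 := by
    apply support₂_injective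
    rw [← smul_support₂]; exact hgu
  rw [e]
  exact hrep (w ∘ ⇑g⁻¹) (by rw [comp_mem_iff (M24.inv_mem hg)]; exact hw)

theorem main8 (u : GolayPt → ZMod 2) (hu : u ∈ golayCode) (h : hammingNorm u = 8)
    (w : GolayPt → ZMod 2) (hw : w ∉ golayCode) :
    ∃ σ ∈ M24, (fun p => u (σ.symm p)) = u ∧ (fun p => w (σ.symm p)) - w ∉ golayCode := by
  have ho : support₂ u ∈ octads := ⟨⟨u, hu, rfl⟩, h⟩
  obtain ⟨g, hg⟩ := Cfsg.Agent.S0367.result (support₂ u) (support₂ (dec O0)) ho O0_mem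
  exact main_of_support O0 rep_O u g g.2 hg w hw

theorem main12 (u : GolayPt → ZMod 2) (hu : u ∈ golayCode) (h : hammingNorm u = 12)
    (w : GolayPt → ZMod 2) (hw : w ∉ golayCode) :
    ∃ σ ∈ M24, (fun p => u (σ.symm p)) = u ∧ (fun p => w (σ.symm p)) - w ∉ golayCode := by
  have ho : support₂ u ∈ dodecads := ⟨⟨u, hu, rfl⟩, h⟩
  obtain ⟨g, hg⟩ := Cfsg.Agent.S0368.result (support₂ u) Cfsg.Agent.S0368.D0f ho
    Cfsg.Agent.S0368.D0_mem
  exact main_of_support Cfsg.Agent.S0368.D0 rep_D u g g.2 hg w hw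

theorem hamming_add_one (u : GolayPt → ZMod 2) : hammingNorm (u + 1) + hammingNorm u = 24 := by
  have h1 : hammingNorm (u + 1) = (Finset.univ.filter (fun i => ¬ (u i ≠ 0))).card := by
    unfold hammingNorm
    congr 1
    ext i
    simp only [Finset.mem_filter, Finset.mem_univ, true_and, Pi.add_apply, Pi.one_apply]
    have : ∀ x : ZMod 2, x + 1 ≠ 0 ↔ ¬ (x ≠ 0) := by decide
    exact this _
  have h2 := Finset.card_filter_add_card_filter_not (s := (Finset.univ : Finset GolayPt))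
    (p := fun i => u i ≠ 0)
  rw [h1, add_comm]
  have h3 : (Finset.univ : Finset GolayPt).card = 24 := by
    rw [Finset.card_univ, Fintype.card_option, ZMod.card]
  rw [← h3, ← h2]
  rfl

theorem of_add_one (u w : GolayPt → ZMod 2)
    (h : ∃ σ ∈ M24, (fun p => (u + 1) (σ.symm p)) = u + 1 ∧
      (fun p => w (σ.symm p)) - w ∉ golayCode) :
    ∃ σ ∈ M24, (fun p => u (σ.symm p)) = u ∧ (fun p => w (σ.symm p)) - w ∉ golayCode := by
  obtain ⟨σ, hσ, h1, h2⟩ := h
  refine ⟨σ, hσ, ?_, h2⟩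
  funext p
  have := congrFun h1 p
  simp only [Pi.add_apply, Pi.one_apply] at this
  exact add_right_cancel this

theorem main0 (u : GolayPt → ZMod 2) (h : hammingNorm u = 0)
    (w : GolayPt → ZMod 2) (hw : w ∉ golayCode) :
    ∃ σ ∈ M24, (fun p => u (σ.symm p)) = u ∧ (fun p => w (σ.symm p)) - w ∉ golayCode := by
  have hu0 : u = 0 := hammingNorm_eq_zero.1 h
  obtain ⟨σ, hσ, -, h2⟩ := rep_O w hw
  exact ⟨σ, hσ, by rw [hu0]; rfl, h2⟩

theorem one_mem : (1 : GolayPt → ZMod 2) ∈ golayCode :=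
  Submodule.subset_span (Set.mem_union_right _ rfl)

/-- Let u be a word of the length-24 binary Golay code of the definitions (possibly zero or all-ones) and w any binary word of length 24 outside the code. Then some automorphism of the code (a coordinate permutation preserving it) fixes u but moves w to a word not congruent to w modulo the code: the stabilizer of a codeword fixes no non-zero element of the quotient of the space of all words by the code. -/
theorem result (u : (Cfsg.GolayPt → ZMod 2)) (hu : u ∈ Cfsg.golayCode) (w : (Cfsg.GolayPt → ZMod 2)) (hw : w ∉ Cfsg.golayCode) : ∃ σ ∈ Cfsg.M24, (fun p => u (σ.symm p)) = u ∧ (fun p => w (σ.symm p)) - w ∉ Cfsg.golayCode := by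
  have hsum := hamming_add_one u
  rcases wt_of_mem_golay hu with h | h | h | h | h
  · exact main0 u h w hw
  · exact main8 u hu h w hw
  · exact main12 u hu h w hw
  · apply of_add_one
    exact main8 (u + 1) (Submodule.add_mem _ hu one_mem) (by omega) w hw
  · apply of_add_one
    exact main0 (u + 1) (by omega) w hw

end Cfsg.Agent.S5550
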