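import Cfsg.Statements.S5548
import Mathlib
import Cfsg.Agent.Lib.Helper93.GolayCoset
import Cfsg.Agent.S5550

set_option autoImplicit false
open Cfsg

namespace Cfsg.Agent.S5548

open Cfsg.Agent.Lib.Helper9 Cfsg.Agent.Lib.Helper93
open scoped Pointwise

abbrev V : Type := GolayPt → ZMod 2

section Inv

variable {W : Submodule (ZMod 2) V}

theorem comp_inv_mem (hW : ∀ σ ∈ M24, ∀ w ∈ W, (fun p => w (σ.symm p)) ∈ W)
    {g : Equiv.Perm GolayPt} (hg : g ∈ M24) {w : V} (hw : w ∈ W) : w ∘ ⇑g⁻¹ ∈ W :=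
  hW g hg w hw

theorem comp_mem (hW : ∀ σ ∈ M24, ∀ w ∈ W, (fun p => w (σ.symm p)) ∈ W)
    {g : Equiv.Perm GolayPt} (hg : g ∈ M24) {w : V} (hw : w ∈ W) : w ∘ ⇑g ∈ W :=
  hW g⁻¹ (M24.inv_mem hg) w hw

end Inv

/-! ### Descent certificates -/

def DW : List (List ℕ) := [[22], [16], [0]]

def DT : List (List ℕ) :=
  [[0, 1, 2, 3, 18, 14, 6, 21, 10, 22, 13, 9, 20, 8, 17, 4, 12, 5, 15, 7, 16, 19, 11, 23],
   [0, 1, 2, 5, 18, 17, 7, 19, 15, 16, 4, 20, 9, 8, 14, 13, 12, 3, 10, 6, 22, 21, 11, 23],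
   [1, 2, 3, 4, 5, 6, 7, 8, 9, 10, 11, 12, 13, 14, 15, 16, 17, 18, 19, 20, 21, 22, 0, 23]]

theorem DT_eq : DW.map (prodT sgsTabs) = DT := by decide +kernel

def M3 : ℕ := 8388611

def M4 : ℕ := 8388615

def M5 : ℕ := 8388623

def descOK (m : ℕ) : Bool :=
  inCode m || DT.any (fun T => !inCode (pull T m ^^^ m) && decide (popc (pull T m ^^^ m) < popc m))

theorem desc34 : descOK M3 = true ∧ descOK M4 = true := by decide +kernel

theorem desc5 : (List.range 24).all (fun a => (List.range (a + 1)).all (fun b =>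
    (List.range (b + 1)).all (fun c => descOK (M5 ||| 2 ^ a ||| 2 ^ b ||| 2 ^ c)))) = true := by
  decide +kernel

theorem desc5_sorted (a b c : ℕ) (ha : a < 24) (hb : b ≤ a) (hc : c ≤ b) :
    descOK (M5 ||| 2 ^ a ||| 2 ^ b ||| 2 ^ c) = true := by
  have h1 := List.all_eq_true.1 desc5 a (List.mem_range.2 ha)
  have h2 := List.all_eq_true.1 h1 b (List.mem_range.2 (Nat.lt_succ_of_le hb))
  exact List.all_eq_true.1 h2 c (List.mem_range.2 (Nat.lt_succ_of_le hc))

theorem desc5_all (a b c : ℕ) (ha : a < 24) (hb : b < 24) (hc : c < 24) :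
    descOK (M5 ||| 2 ^ a ||| 2 ^ b ||| 2 ^ c) = true := by
  have s1 : ∀ a b c : ℕ, M5 ||| 2 ^ a ||| 2 ^ b ||| 2 ^ c = M5 ||| 2 ^ b ||| 2 ^ a ||| 2 ^ c := by
    intro a b c
    rw [Nat.or_assoc M5, Nat.or_comm (2 ^ a), ← Nat.or_assoc]
  have s2 : ∀ a b c : ℕ, M5 ||| 2 ^ a ||| 2 ^ b ||| 2 ^ c = M5 ||| 2 ^ a ||| 2 ^ c ||| 2 ^ b := by
    intro a b c
    rw [Nat.or_assoc (M5 ||| 2 ^ a), Nat.or_comm (2 ^ b), ← Nat.or_assoc]
  rcases le_total b a with h1 | h1
  · rcases le_total c b with h2 | h2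
    · exact desc5_sorted a b c ha h1 h2
    · rcases le_total c a with h3 | h3
      · rw [s2]; exact desc5_sorted a c b ha h3 h2
      · rw [s2, s1]; exact desc5_sorted c a b hc h3 h1
  · rcases le_total c b with h2 | h2
    · rcases le_total c a with h3 | h3
      · rw [s1]; exact desc5_sorted b a c hb h1 h3
      · rw [s1, s2]; exact desc5_sorted b c a hb h2 h3
    · rw [s2, s1, s2]; exact desc5_sorted c b a hc h2 h1

/-! ### Canonical forms -/

theorem mem_support_dec (m : ℕ) (p : GolayPt) :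
    p ∈ support₂ (dec m) ↔ m.testBit (idx p) = true := by
  rw [mem_support₂, dec_ne_zero_iff]

theorem mem_supp_comp (f : V) (g : Equiv.Perm GolayPt) (p : GolayPt) :
    p ∈ support₂ (f ∘ ⇑g⁻¹) ↔ g⁻¹ p ∈ support₂ f := by
  rw [mem_support₂, mem_support₂]; rfl

theorem eq_dec_of_support {f : V} {m : ℕ}
    (h : ∀ p, p ∈ support₂ f ↔ m.testBit (idx p) = true) : f = dec m := by
  apply support₂_injective
  ext p
  rw [h, mem_support_dec]

theorem M3_bits : ∀ p : GolayPt, M3.testBit (idx p) = true ↔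
    (p = pt 23 ∨ p = pt 0 ∨ p = pt 1) := by decide +kernel

theorem M4_bits : ∀ p : GolayPt, M4.testBit (idx p) = true ↔
    (p = pt 23 ∨ p = pt 0 ∨ p = pt 1 ∨ p = pt 2) := by decide +kernel

theorem M5_bits : ∀ p : GolayPt, M5.testBit (idx p) = true ↔
    (p = pt 23 ∨ p = pt 0 ∨ p = pt 1 ∨ p = pt 2 ∨ p = pt 3) := by decide +kernel

theorem two_pow_lt (p : GolayPt) : 2 ^ idx p < 2 ^ 24 :=
  Nat.pow_lt_pow_right (by norm_num) (idx_lt p)

theorem canon5_aux (f : V) (x y z : GolayPt)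
    (h : ∀ p, p ∈ support₂ f ↔
      (p = pt 23 ∨ p = pt 0 ∨ p = pt 1 ∨ p = pt 2 ∨ p = pt 3) ∨ p = x ∨ p = y ∨ p = z) :
    ∃ m, descOK m = true ∧ m < 2 ^ 24 ∧ f = dec m := by
  refine ⟨M5 ||| 2 ^ idx x ||| 2 ^ idx y ||| 2 ^ idx z,
    desc5_all _ _ _ (idx_lt x) (idx_lt y) (idx_lt z), ?_, ?_⟩
  · exact Nat.or_lt_two_pow (Nat.or_lt_two_pow (Nat.or_lt_two_pow (by norm_num [M5])
      (two_pow_lt x)) (two_pow_lt y)) (two_pow_lt z)
  · apply eq_dec_of_support
    intro p
    rw [h, Nat.testBit_or, Nat.testBit_or, Nat.testBit_or, Nat.testBit_two_pow,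
      Nat.testBit_two_pow, Nat.testBit_two_pow, Bool.or_eq_true, Bool.or_eq_true, Bool.or_eq_true,
      M5_bits, decide_eq_true_eq, decide_eq_true_eq, decide_eq_true_eq]
    have e : ∀ q : GolayPt, idx q = idx p ↔ p = q :=
      fun q => ⟨fun h => (idx_injective h).symm, fun h => by rw [h]⟩
    rw [e x, e y, e z]
    tauto

theorem canon (f : V) (h3 : 3 ≤ hammingNorm f) (h8 : hammingNorm f ≤ 8) :
    ∃ g ∈ M24, ∃ m, descOK m = true ∧ m < 2 ^ 24 ∧ f ∘ ⇑g⁻¹ = dec m := by
  obtain ⟨l, hl⟩ : ∃ l, l = (support₂ f).toList := ⟨_, rfl⟩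
  have hlen : l.length = hammingNorm f := by rw [hl, Finset.length_toList]; rfl
  have hnd : l.Nodup := by rw [hl]; exact Finset.nodup_toList _
  have hmem : ∀ x, x ∈ support₂ f ↔ x ∈ l := by intro x; rw [hl, Finset.mem_toList]
  rcases l with _ | ⟨p0, _ | ⟨p1, _ | ⟨p2, rest3⟩⟩⟩
  · simp at hlen; omega
  · simp at hlen; omega
  · simp at hlen; omega
  rcases rest3 with _ | ⟨p3, rest4⟩
  · -- weight 3
    simp only [List.nodup_cons, List.mem_cons, List.not_mem_nil, or_false, not_or,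
      List.nodup_nil, and_true, not_false_eq_true] at hnd
    obtain ⟨⟨h01, h02⟩, h12⟩ := hnd
    obtain ⟨g, hg, e0, e1, e2⟩ := exists_map_three h01 h02 h12
    refine ⟨g, hg, M3, desc34.1, by norm_num [M3], ?_⟩
    apply eq_dec_of_support
    intro p
    rw [mem_supp_comp, hmem, M3_bits]
    simp only [List.mem_cons, List.not_mem_nil, or_false, Equiv.Perm.inv_eq_iff_eq, e0, e1, e2]
  rcases rest4 with _ | ⟨p4, rest5⟩
  · -- weight 4
    simp only [List.nodup_cons, List.mem_cons, List.not_mem_nil, or_false, not_or,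
      List.nodup_nil, and_true, not_false_eq_true] at hnd
    obtain ⟨⟨h01, h02, h03⟩, ⟨h12, h13⟩, h23⟩ := hnd
    obtain ⟨g, hg, e0, e1, e2, e3⟩ := exists_map_four h01 h02 h03 h12 h13 h23
    refine ⟨g, hg, M4, desc34.2, by norm_num [M4], ?_⟩
    apply eq_dec_of_support
    intro p
    rw [mem_supp_comp, hmem, M4_bits]
    simp only [List.mem_cons, List.not_mem_nil, or_false, Equiv.Perm.inv_eq_iff_eq, e0, e1, e2, e3]
  -- weight at least 5
  have hnd5 : [p0, p1, p2, p3, p4].Nodup := by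
    have := hnd.sublist (l₁ := [p0, p1, p2, p3, p4]) (by simp)
    exact this
  simp only [List.nodup_cons, List.mem_cons, List.not_mem_nil, or_false, not_or,
    List.nodup_nil, and_true, not_false_eq_true] at hnd5
  obtain ⟨⟨h01, h02, h03, h04⟩, ⟨h12, h13, h14⟩, ⟨h23, h24⟩, h34⟩ := hnd5
  obtain ⟨g, hg, e0, e1, e2, e3, e4⟩ := exists_map_five h01 h02 h03 h04 h12 h13 h14 h23 h24 h34
  refine ⟨g, hg, ?_⟩
  have key : ∀ p, p ∈ support₂ (f ∘ ⇑g⁻¹) ↔
      (p = pt 23 ∨ p = pt 0 ∨ p = pt 1 ∨ p = pt 2 ∨ p = pt 3) ∨ g⁻¹ p ∈ rest5 := by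
    intro p
    rw [mem_supp_comp, hmem]
    simp only [List.mem_cons, Equiv.Perm.inv_eq_iff_eq, e0, e1, e2, e3, e4]
    tauto
  rcases rest5 with _ | ⟨r1, _ | ⟨r2, _ | ⟨r3, _ | ⟨r4, rest⟩⟩⟩⟩
  · apply canon5_aux _ (pt 23) (pt 23) (pt 23)
    intro p
    rw [key]
    simp only [List.not_mem_nil, or_false]
    tauto
  · apply canon5_aux _ (g r1) (g r1) (g r1)
    intro p
    rw [key]
    simp only [List.mem_cons, List.not_mem_nil, or_false, Equiv.Perm.inv_eq_iff_eq]
    tauto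
  · apply canon5_aux _ (g r1) (g r2) (g r2)
    intro p
    rw [key]
    simp only [List.mem_cons, List.not_mem_nil, or_false, Equiv.Perm.inv_eq_iff_eq]
    tauto
  · apply canon5_aux _ (g r1) (g r2) (g r3)
    intro p
    rw [key]
    simp only [List.mem_cons, List.not_mem_nil, or_false, Equiv.Perm.inv_eq_iff_eq]
  · simp at hlen; omega

theorem norm_comp (f : V) (g : Equiv.Perm GolayPt) : hammingNorm (f ∘ ⇑g⁻¹) = hammingNorm f := by
  have : (support₂ (f ∘ ⇑g⁻¹)).card = (support₂ f).card := by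
    rw [← smul_support₂, Finset.card_smul_finset]
  exact this

section Part1

variable {W : Submodule (ZMod 2) V}

theorem descent (hW : ∀ σ ∈ M24, ∀ w ∈ W, (fun p => w (σ.symm p)) ∈ W) (f : V) (hf : f ∈ W)
    (hfC : f ∉ golayCode) (h3 : 3 ≤ hammingNorm f) (h8 : hammingNorm f ≤ 8) :
    ∃ f' ∈ W, f' ∉ golayCode ∧ hammingNorm f' < hammingNorm f := by
  obtain ⟨g, hg, m, hm, hm24, hfm⟩ := canon f h3 h8
  have hfW : dec m ∈ W := hfm ▸ comp_inv_mem hW hg hf
  have hfC' : dec m ∉ golayCode := by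
    rw [← hfm, comp_mem_iff (M24.inv_mem hg)]; exact hfC
  have hnorm : popc m = hammingNorm f := by
    rw [← hammingNorm_dec, ← hfm, norm_comp]
  unfold descOK at hm
  rw [Bool.or_eq_true, List.any_eq_true] at hm
  rcases hm with hm | ⟨T, hT, hTm⟩
  · exact absurd (dec_mem_golay (mem_sums_of_inCode hm)) hfC'
  rw [← DT_eq, List.mem_map] at hT
  obtain ⟨wd, -, rfl⟩ := hT
  obtain ⟨hmem, hTab⟩ := word_mem wd
  rw [Bool.and_eq_true, Bool.not_eq_true', decide_eq_true_eq] at hTm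
  refine ⟨dec m ∘ ⇑(prodW sgsEnv wd) - dec m, W.sub_mem (comp_mem hW hmem hfW) hfW, ?_, ?_⟩
  · rw [dec_comp hTab, dec_sub]
    exact dec_not_mem (Nat.xor_lt_two_pow (pull_lt24 hTab m) hm24) hTm.1
  · rw [dec_comp hTab, dec_sub, hammingNorm_dec, ← hnorm]
    exact hTm.2

theorem norm_sub_le (a b : V) : hammingNorm (a - b) ≤ hammingNorm a + hammingNorm b := by
  have h := hammingDist_triangle b 0 a
  rw [hammingDist_eq_hammingNorm b a, hammingDist_zero_right, hammingDist_zero_left] at h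
  rw [sub_eq_neg_add, add_comm (hammingNorm a)]
  exact h

theorem exists_small (hW : ∀ σ ∈ M24, ∀ w ∈ W, (fun p => w (σ.symm p)) ∈ W) (w : V) (hw : w ∈ W)
    (hwC : w ∉ golayCode) : ∃ f ∈ W, f ∉ golayCode ∧ hammingNorm f ≤ 8 := by
  obtain ⟨c, hc, e, he24, he4, rfl⟩ := exists_leader w
  obtain ⟨σ, hσ, h1, h2⟩ := Cfsg.Agent.S5550.result c hc (c + dec e) hwC
  refine ⟨(fun p => (c + dec e) (σ.symm p)) - (c + dec e), W.sub_mem (hW σ hσ _ hw) hw, h2, ?_⟩
  have e1 : (fun p => (c + dec e) (σ.symm p)) - (c + dec e) = dec e ∘ ⇑σ⁻¹ - dec e := by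
    funext p
    have := congrFun h1 p
    show c (σ.symm p) + dec e (σ.symm p) - (c p + dec e p) = dec e (σ.symm p) - dec e p
    rw [this]; ring
  rw [e1]
  have h3 := norm_sub_le (dec e ∘ ⇑σ⁻¹) (dec e)
  rw [norm_comp, hammingNorm_dec] at h3
  omega

theorem exists_le_two (hW : ∀ σ ∈ M24, ∀ w ∈ W, (fun p => w (σ.symm p)) ∈ W) :
    ∀ n, ∀ f ∈ W, f ∉ golayCode → hammingNorm f = n → n ≤ 8 →
      ∃ f' ∈ W, f' ∉ golayCode ∧ hammingNorm f' ≤ 2 := by
  intro n
  induction n using Nat.strong_induction_on with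
  | _ n ih =>
    intro f hf hfC hn h8
    by_cases h2 : n ≤ 2
    · exact ⟨f, hf, hfC, by omega⟩
    · obtain ⟨f', hf', hfC', hlt⟩ := descent hW f hf hfC (by omega) (by omega)
      exact ih (hammingNorm f') (by omega) f' hf' hfC' rfl (by omega)

/-- The word with ones at `a` and `b` (zero when `a = b`). -/
def E (a b : GolayPt) : V := Pi.single a 1 + Pi.single b 1

theorem single_comp (g : Equiv.Perm GolayPt) (a : GolayPt) :
    (Pi.single a (1 : ZMod 2) : V) ∘ ⇑g⁻¹ = Pi.single (g a) 1 := by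
  funext q
  simp only [Function.comp_apply, Pi.single_apply, Equiv.Perm.inv_eq_iff_eq]

theorem E_comp (g : Equiv.Perm GolayPt) (a b : GolayPt) : E a b ∘ ⇑g⁻¹ = E (g a) (g b) := by
  funext q
  simp only [E, Function.comp_apply, Pi.add_apply, Pi.single_apply, Equiv.Perm.inv_eq_iff_eq]

theorem val_of_mem {f : V} {p : GolayPt} (h : p ∈ support₂ f) : f p = 1 := by
  rw [mem_support₂] at h
  have h1 : ∀ x : ZMod 2, x ≠ 0 → x = 1 := by decide
  exact h1 _ h

theorem val_of_not_mem {f : V} {p : GolayPt} (h : p ∉ support₂ f) : f p = 0 := by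
  rw [mem_support₂, not_not] at h
  exact h

theorem exists_E (hW : ∀ σ ∈ M24, ∀ w ∈ W, (fun p => w (σ.symm p)) ∈ W) (f : V) (hf : f ∈ W)
    (hfC : f ∉ golayCode) (h2 : hammingNorm f ≤ 2) : ∃ a b, a ≠ b ∧ E a b ∈ W := by
  have h0 : hammingNorm f ≠ 0 := by
    intro h
    rw [hammingNorm_eq_zero] at h
    exact hfC (h ▸ zero_mem _)
  have hcases : hammingNorm f = 1 ∨ hammingNorm f = 2 := by omega
  rcases hcases with h | h
  · obtain ⟨a, ha⟩ := (Finset.card_eq_one (s := support₂ f)).1 h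
    have hfa : f = Pi.single a 1 := by
      funext p
      by_cases hp : p = a
      · subst hp
        rw [Pi.single_eq_same]
        exact val_of_mem (by rw [ha]; exact Finset.mem_singleton_self _)
      · rw [Pi.single_eq_of_ne hp]
        exact val_of_not_mem (by rw [ha, Finset.mem_singleton]; exact hp)
    obtain ⟨b, hb⟩ : ∃ b : GolayPt, b ≠ a := exists_ne a
    obtain ⟨g1, hg1, e1⟩ := exists_map_one a
    obtain ⟨g2, hg2, e2⟩ := exists_map_one b
    have hg : g2⁻¹ * g1 ∈ M24 := M24.mul_mem (M24.inv_mem hg2) hg1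
    have hga : (g2⁻¹ * g1) a = b := by
      rw [Equiv.Perm.mul_apply, e1, Equiv.Perm.inv_eq_iff_eq, e2]
    refine ⟨b, a, hb, ?_⟩
    have h3 := comp_inv_mem hW hg hf
    rw [hfa, single_comp, hga] at h3
    rw [hfa] at hf
    exact W.add_mem h3 hf
  · obtain ⟨a, b, hab, hS⟩ := (Finset.card_eq_two (s := support₂ f)).1 h
    refine ⟨a, b, hab, ?_⟩
    have : f = E a b := by
      funext p
      show f p = (Pi.single a (1 : ZMod 2) : V) p + (Pi.single b (1 : ZMod 2) : V) p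
      by_cases hpa : p = a
      · subst hpa
        rw [Pi.single_eq_same, Pi.single_eq_of_ne hab, add_zero]
        exact val_of_mem (by rw [hS]; simp)
      · by_cases hpb : p = b
        · subst hpb
          rw [Pi.single_eq_same, Pi.single_eq_of_ne hpa, zero_add]
          exact val_of_mem (by rw [hS]; simp)
        · rw [Pi.single_eq_of_ne hpa, Pi.single_eq_of_ne hpb, add_zero]
          exact val_of_not_mem (by rw [hS]; simp [hpa, hpb])
    rw [← this]; exact hf

theorem all_E (hW : ∀ σ ∈ M24, ∀ w ∈ W, (fun p => w (σ.symm p)) ∈ W) {a b : GolayPt}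
    (hab : a ≠ b) (h : E a b ∈ W) (x y : GolayPt) (hxy : x ≠ y) : E x y ∈ W := by
  obtain ⟨g, hg, e1, e2⟩ := exists_map_two_two hab hxy
  have := comp_inv_mem hW hg h
  rwa [E_comp, e1, e2] at this

theorem even_mem (hE : ∀ x y : GolayPt, x ≠ y → E x y ∈ W) (v : V) (hv : ∑ p, v p = 0) :
    v ∈ W := by
  have hdecomp : v = ∑ p, v p • E p none := by
    funext q
    rw [Finset.sum_apply]
    simp only [Pi.smul_apply, E, Pi.add_apply, Pi.single_apply, smul_eq_mul, mul_add, mul_ite,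
      mul_one, mul_zero, Finset.sum_add_distrib, Finset.sum_ite_eq, Finset.mem_univ, if_true]
    by_cases hq : q = none
    · simp only [hq, if_true]
      rw [hv, add_zero]
    · simp only [hq, if_false, Finset.sum_const_zero, add_zero]
  rw [hdecomp]
  apply Submodule.sum_mem
  intro p _
  apply Submodule.smul_mem
  by_cases hp : p = none
  · have : E p none = 0 := by
      rw [hp]
      funext q
      show (Pi.single none (1 : ZMod 2) : V) q + (Pi.single none (1 : ZMod 2) : V) q = 0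
      exact CharTwo.add_self_eq_zero _
    rw [this]; exact zero_mem _
  · exact hE p none hp

theorem case_not_le (hW : ∀ σ ∈ M24, ∀ w ∈ W, (fun p => w (σ.symm p)) ∈ W)
    (hnot : ¬ W ≤ golayCode) : (W : Set V) = {w | ∑ p, w p = 0} ∨ W = ⊤ := by
  obtain ⟨w, hw, hwC⟩ := SetLike.not_le_iff_exists.1 hnot
  obtain ⟨f0, hf0, hf0C, h8⟩ := exists_small hW w hw hwC
  obtain ⟨f, hf, hfC, h2⟩ := exists_le_two hW _ f0 hf0 hf0C rfl h8
  obtain ⟨a, b, hab, hE⟩ := exists_E hW f hf hfC h2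
  have heven := even_mem (fun x y hxy => all_E hW hab hE x y hxy)
  by_cases hodd : ∃ w0 ∈ W, ∑ p, w0 p ≠ 0
  · right
    obtain ⟨w0, hw0, hs⟩ := hodd
    rw [eq_top_iff]
    intro v _
    by_cases hv : ∑ p, v p = 0
    · exact heven v hv
    · have hsum : ∑ p, (v + w0) p = 0 := by
        simp only [Pi.add_apply, Finset.sum_add_distrib]
        have h1 : ∀ x y : ZMod 2, x ≠ 0 → y ≠ 0 → x + y = 0 := by decide
        exact h1 _ _ hv hs
      have h3 := heven _ hsum
      have e : v = (v + w0) - w0 := by abel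
      rw [e]; exact W.sub_mem h3 hw0
  · left
    push Not at hodd
    ext v
    exact ⟨fun hv => hodd v hv, fun hv => heven v hv⟩

end Part1

section Part2

variable {W : Submodule (ZMod 2) V}

theorem gB_oct : gB.all (fun b => inCode b && popc b == 8) = true := by decide +kernel

theorem le_of_weight8 (hW : ∀ σ ∈ M24, ∀ w ∈ W, (fun p => w (σ.symm p)) ∈ W) (w : V) (hw : w ∈ W)
    (hwC : w ∈ golayCode) (h8 : hammingNorm w = 8) : golayCode ≤ W := by
  have ho : support₂ w ∈ octads := ⟨⟨w, hwC, rfl⟩, h8⟩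
  rw [golay_eq_spanL_genL, spanL_genL_eq]
  apply Submodule.span_le.2
  rintro _ ⟨b, hb, rfl⟩
  have hb' := List.all_eq_true.1 gB_oct b hb
  rw [Bool.and_eq_true, beq_iff_eq] at hb'
  have hbo : support₂ (dec b) ∈ octads :=
    (mem_octads_iff _).mpr ⟨b, mem_sums_of_inCode hb'.1, hb'.2, rfl⟩
  obtain ⟨g, hg⟩ := Cfsg.Agent.S0367.result _ _ ho hbo
  have e : w ∘ ⇑(g : Equiv.Perm GolayPt)⁻¹ = dec b := by
    apply support₂_injective
    rw [← smul_support₂]; exact hg
  rw [SetLike.mem_coe, ← e]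
  exact comp_inv_mem hW g.2 hw

theorem shift_O : popc (pull shiftT 8241104 ^^^ 8241104) = 8 := by decide +kernel

theorem shift_D : popc (pull shiftT Cfsg.Agent.S0368.D0 ^^^ Cfsg.Agent.S0368.D0) = 8 := by
  decide +kernel

theorem exists8_of_rep (hW : ∀ σ ∈ M24, ∀ w ∈ W, (fun p => w (σ.symm p)) ∈ W) (m0 : ℕ)
    (hpop : popc (pull shiftT m0 ^^^ m0) = 8) (h : dec m0 ∈ W) :
    ∃ f ∈ W, hammingNorm f = 8 := by
  refine ⟨dec m0 ∘ ⇑shiftPerm - dec m0, W.sub_mem (comp_mem hW shift_mem h) h, ?_⟩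
  rw [dec_comp hasTable_shift, dec_sub, hammingNorm_dec, hpop]

theorem dec_O0c : dec 8241104 = dec Cfsg.Agent.S5550.O0 + 1 := by
  rw [← dec_all, ← dec_xor]
  rfl

theorem case_le (hW : ∀ σ ∈ M24, ∀ w ∈ W, (fun p => w (σ.symm p)) ∈ W) (hle : W ≤ golayCode) :
    W = ⊥ ∨ W = Submodule.span (ZMod 2) {fun _ => (1 : ZMod 2)} ∨ W = golayCode := by
  by_cases h8 : ∃ w ∈ W, hammingNorm w = 8
  · obtain ⟨w, hw, h⟩ := h8
    right; right
    exact le_antisymm hle (le_of_weight8 hW w hw (hle hw) h)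
  have h16 : ¬ ∃ w ∈ W, hammingNorm w = 16 := by
    rintro ⟨w, hw, h⟩
    apply h8
    have hsum := Cfsg.Agent.S5550.hamming_add_one w
    have hw1 : w + 1 ∈ golayCode := Submodule.add_mem _ (hle hw) Cfsg.Agent.S5550.one_mem
    have ho : support₂ (w + 1) ∈ octads := ⟨⟨w + 1, hw1, rfl⟩, by
      show hammingNorm (w + 1) = 8
      omega⟩
    obtain ⟨g, hg⟩ := Cfsg.Agent.S0367.result _ _ ho Cfsg.Agent.S5550.O0_mem
    have e : (w + 1) ∘ ⇑(g : Equiv.Perm GolayPt)⁻¹ = dec Cfsg.Agent.S5550.O0 := by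
      apply support₂_injective
      rw [← smul_support₂]; exact hg
    have e2 : w ∘ ⇑(g : Equiv.Perm GolayPt)⁻¹ = dec 8241104 := by
      rw [dec_O0c, ← e]
      funext p
      show w ((g : Equiv.Perm GolayPt)⁻¹ p) = (w ((g : Equiv.Perm GolayPt)⁻¹ p) + 1) + 1
      have h1 : ∀ x : ZMod 2, x = x + 1 + 1 := by decide
      exact h1 _
    have h3 := comp_inv_mem hW g.2 hw
    rw [e2] at h3
    exact exists8_of_rep hW _ shift_O h3
  have h12 : ¬ ∃ w ∈ W, hammingNorm w = 12 := by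
    rintro ⟨w, hw, h⟩
    apply h8
    have ho : support₂ w ∈ dodecads := ⟨⟨w, hle hw, rfl⟩, h⟩
    obtain ⟨g, hg⟩ := Cfsg.Agent.S0368.result _ _ ho Cfsg.Agent.S0368.D0_mem
    have e : w ∘ ⇑(g : Equiv.Perm GolayPt)⁻¹ = dec Cfsg.Agent.S0368.D0 := by
      apply support₂_injective
      rw [← smul_support₂]; exact hg
    have h3 := comp_inv_mem hW g.2 hw
    rw [e] at h3
    exact exists8_of_rep hW _ shift_D h3
  have hall : ∀ w ∈ W, w = 0 ∨ w = 1 := by
    intro w hw
    rcases wt_of_mem_golay (hle hw) with h | h | h | h | h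
    · left; exact hammingNorm_eq_zero.1 h
    · exact absurd ⟨w, hw, h⟩ h8
    · exact absurd ⟨w, hw, h⟩ h12
    · exact absurd ⟨w, hw, h⟩ h16
    · right
      have hsum := Cfsg.Agent.S5550.hamming_add_one w
      have h0 : hammingNorm (w + 1) = 0 := by omega
      rw [hammingNorm_eq_zero] at h0
      funext p
      have h1 := congrFun h0 p
      have h2 : ∀ a : ZMod 2, a + 1 = 0 → a = 1 := by decide
      exact h2 _ h1
  by_cases h1 : (1 : V) ∈ W
  · right; left
    apply le_antisymm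
    · intro w hw
      rcases hall w hw with rfl | rfl
      · exact zero_mem _
      · exact Submodule.subset_span rfl
    · rw [Submodule.span_le]
      rintro _ rfl
      exact h1
  · left
    rw [eq_bot_iff]
    intro w hw
    rcases hall w hw with rfl | rfl
    · exact Submodule.zero_mem _
    · exact absurd hw h1

end Part2

/-- For the automorphism group of the length-24 binary Golay code of the definitions (the Mathieu group of degree 24) acting on binary words of length 24 by permuting coordinates, the only invariant subspaces of the space of all words are: zero, the span of the all-ones word, the code itself, the even-weight words, and the whole space. (So the permutation module has a unique composition series.) -/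
theorem result (W : Submodule (ZMod 2) (Cfsg.GolayPt → ZMod 2)) (hW : ∀ σ ∈ Cfsg.M24, ∀ w ∈ W, (fun p => w (σ.symm p)) ∈ W) : W = ⊥ ∨ W = Submodule.span (ZMod 2) {fun _ => (1 : ZMod 2)} ∨ W = Cfsg.golayCode ∨ (W : Set (Cfsg.GolayPt → ZMod 2)) = {w | ∑ p, w p = 0} ∨ W = ⊤ := by
  by_cases hle : W ≤ golayCode
  · rcases case_le hW hle with h | h | h
    · exact Or.inl h
    · exact Or.inr (Or.inl h)
    · exact Or.inr (Or.inr (Or.inl h))
  · rcases case_not_le hW hle with h | h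
    · exact Or.inr (Or.inr (Or.inr (Or.inl h)))
    · exact Or.inr (Or.inr (Or.inr (Or.inr h)))

end Cfsg.Agent.S5548
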