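import Cfsg.Statements.S5549
import Cfsg.Agent.S5548

set_option autoImplicit false
open Cfsg

namespace Cfsg.Agent.S5549

open Cfsg.Agent.Lib.Helper9 Cfsg.Agent.Lib.Helper93 Cfsg.Agent.S5548
open scoped Pointwise

/-! ### Dot products -/

theorem dot_dec (a b : ℕ) : dotProduct (dec a) (dec b) = (popc (a &&& b) : ZMod 2) := by
  unfold dotProduct
  rw [Finset.sum_congr rfl (fun p _ => dec_mul_dec a b p)]
  exact sum_dec _

theorem dot_golay {c c' : V} (hc : c ∈ golayCode) (hc' : c' ∈ golayCode) : dotProduct c c' = 0 := by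
  obtain ⟨m, hm, rfl⟩ := (mem_golayCode_iff _).mp hc
  obtain ⟨m', hm', rfl⟩ := (mem_golayCode_iff _).mp hc'
  rw [dot_dec, ZMod.natCast_eq_zero_iff]
  exact Nat.dvd_of_mod_eq_zero (popc_and_even hm hm')

theorem gB_mem : ∀ b ∈ gB, b ∈ sums gB := by
  intro b hb
  have h := List.all_eq_true.mp gB_oct b hb
  rw [Bool.and_eq_true] at h
  exact mem_sums_of_inCode h.1

theorem dual_check : (List.range 4096).all
    (fun u => u == 0 || gB.any (fun b => popc (u &&& b) % 2 == 1)) = true := by
  decide +kernel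

/-- The code contains its orthogonal complement. -/
theorem mem_of_dot_zero {v : V} (h : ∀ c ∈ golayCode, dotProduct v c = 0) : v ∈ golayCode := by
  obtain ⟨c0, hc0, u, hu, rfl⟩ := exists_coset_rep v
  have hu0 : u = 0 := by
    have hchk := List.all_eq_true.mp dual_check u (List.mem_range.mpr hu)
    rw [Bool.or_eq_true, beq_iff_eq, List.any_eq_true] at hchk
    rcases hchk with h0 | ⟨b, hb, hodd⟩
    · exact h0
    · exfalso
      have hb' := dec_mem_golay (gB_mem b hb)
      have h1 := h (dec b) hb'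
      rw [add_dotProduct, dot_golay hc0 hb', zero_add, dot_dec, ZMod.natCast_eq_zero_iff] at h1
      rw [beq_iff_eq] at hodd
      omega
  rw [hu0, dec_zero, add_zero]
  exact hc0

theorem eq_zero_of_mem_of_lt {v : V} (hv : v ∈ golayCode) (h : hammingNorm v < 8) : v = 0 := by
  rcases wt_of_mem_golay hv with h0 | h0 | h0 | h0 | h0
  · exact hammingNorm_eq_zero.mp h0
  all_goals omega

/-- Every linear functional on the code is the dot product with a word of weight at most 4. -/
theorem exists_dot (ψ : ↥golayCode →ₗ[ZMod 2] ZMod 2) :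
    ∃ e, e < 2 ^ 24 ∧ popc e ≤ 4 ∧ ∀ c : ↥golayCode, ψ c = dotProduct (dec e) (c : V) := by
  obtain ⟨ψ', hψ'⟩ := LinearMap.exists_extend ψ
  let w : V := fun p => ψ' (Pi.single p 1)
  have hw : ∀ v : V, ψ' v = dotProduct w v := by
    intro v
    rw [LinearMap.pi_apply_eq_sum_univ ψ' v]
    unfold dotProduct
    apply Finset.sum_congr rfl
    intro i _
    have e : (fun j => if i = j then (1 : ZMod 2) else 0) = Pi.single i 1 := by
      funext j
      rw [Pi.single_apply]
      by_cases hij : i = j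
      · rw [if_pos hij, if_pos hij.symm]
      · rw [if_neg hij, if_neg (fun h => hij h.symm)]
    rw [e, smul_eq_mul, mul_comm]
  obtain ⟨c0, hc0, e, he, hpop, hwe⟩ := exists_leader w
  refine ⟨e, he, hpop, fun c => ?_⟩
  have h1 : ψ c = ψ' (c : V) := by
    rw [← hψ']
    rfl
  rw [h1, hw, hwe, add_dotProduct, dot_golay hc0 c.2, zero_add]

/-! ### Counting octads in the kernel of a functional -/

/-- The code words of weight 8 orthogonal to `v`. -/
def octKer (v : V) : Set V := {c | c ∈ golayCode ∧ hammingNorm c = 8 ∧ dotProduct v c = 0}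

theorem ncard_octKer_dec (e : ℕ) :
    (octKer (dec e)).ncard = cnt (fun m => popc m == 8 && popc (e &&& m) % 2 == 0) gB 0 := by
  have hset : octKer (dec e) =
      dec '' {m | m ∈ sums gB ∧ (popc m == 8 && popc (e &&& m) % 2 == 0) = true} := by
    ext c
    simp only [octKer, Set.mem_ofPred_eq, Set.mem_image, Bool.and_eq_true, beq_iff_eq]
    constructor
    · rintro ⟨hc, h8, hd⟩
      obtain ⟨m, hm, rfl⟩ := (mem_golayCode_iff _).mp hc
      rw [hammingNorm_dec] at h8
      rw [dot_dec, ZMod.natCast_eq_zero_iff] at hd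
      exact ⟨m, ⟨hm, h8, Nat.mod_eq_zero_of_dvd hd⟩, rfl⟩
    · rintro ⟨m, ⟨hm, h8, hd⟩, rfl⟩
      refine ⟨dec_mem_golay hm, by rw [hammingNorm_dec, h8], ?_⟩
      rw [dot_dec, ZMod.natCast_eq_zero_iff]
      exact Nat.dvd_of_mod_eq_zero hd
  rw [hset, Set.InjOn.ncard_image]
  · have h2 : {m | m ∈ sums gB ∧ (popc m == 8 && popc (e &&& m) % 2 == 0) = true} =
        (((sums gB).filter (fun m => popc m == 8 && popc (e &&& m) % 2 == 0)).toFinset : Set ℕ) := by
      ext m; simp
    rw [h2, Set.ncard_coe_finset, List.toFinset_card_of_nodup (nodup_sums_gB.filter _), cnt_eq,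
      List.countP_eq_length_filter]
    simp
  · intro m hm m' hm' hmm
    exact dec_injOn_sums hm.1 hm'.1 hmm

theorem cnt_zero : cnt (fun m => popc m == 8 && popc (0 &&& m) % 2 == 0) gB 0 = 759 := by
  decide +kernel

theorem cnt_pair : cnt (fun m => popc m == 8 && popc (8388609 &&& m) % 2 == 0) gB 0 = 407 := by
  decide +kernel

theorem cnt_tet : cnt (fun m => popc m == 8 && popc (8388615 &&& m) % 2 == 0) gB 0 = 375 := by
  decide +kernel

theorem dot_comp (v c : V) (g : Equiv.Perm GolayPt) :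
    dotProduct (v ∘ ⇑g⁻¹) (c ∘ ⇑g⁻¹) = dotProduct v c := by
  unfold dotProduct
  exact Equiv.sum_comp g⁻¹ (fun p => v p * c p)

theorem ncard_octKer_comp (v : V) {g : Equiv.Perm GolayPt} (hg : g ∈ M24) :
    (octKer (v ∘ ⇑g⁻¹)).ncard = (octKer v).ncard := by
  have hinj : Function.Injective (fun c : V => c ∘ ⇑g⁻¹) := by
    intro c c' h
    funext p
    have := congrFun h (g p)
    simpa using this
  rw [← Set.ncard_image_of_injective (octKer v) hinj]
  congr 1
  ext c
  simp only [octKer, Set.mem_ofPred_eq, Set.mem_image]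
  constructor
  · rintro ⟨hc, h8, hd⟩
    refine ⟨c ∘ ⇑g, ⟨comp_mem_of_mem_M24 hg hc, ?_, ?_⟩, ?_⟩
    · have := norm_comp (c ∘ ⇑g) g
      have e : (c ∘ ⇑g) ∘ ⇑g⁻¹ = c := by funext p; simp
      rw [e] at this
      rw [← this, h8]
    · have := dot_comp v (c ∘ ⇑g) g
      have e : (c ∘ ⇑g) ∘ ⇑g⁻¹ = c := by funext p; simp
      rw [e] at this
      rw [← this, hd]
    · funext p; simp
  · rintro ⟨c', ⟨hc, h8, hd⟩, rfl⟩
    exact ⟨comp_mem_of_mem_M24 (M24.inv_mem hg) hc, by rw [norm_comp, h8], by rw [dot_comp, hd]⟩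

theorem canon4 (f : V) (h4 : hammingNorm f = 4) : ∃ g ∈ M24, f ∘ ⇑g⁻¹ = dec 8388615 := by
  obtain ⟨l, hl⟩ : ∃ l, l = (support₂ f).toList := ⟨_, rfl⟩
  have hlen : l.length = hammingNorm f := by rw [hl, Finset.length_toList]; rfl
  have hnd : l.Nodup := by rw [hl]; exact Finset.nodup_toList _
  have hmem : ∀ x, x ∈ support₂ f ↔ x ∈ l := by intro x; rw [hl, Finset.mem_toList]
  rcases l with _ | ⟨p0, _ | ⟨p1, _ | ⟨p2, _ | ⟨p3, _ | ⟨p4, rest⟩⟩⟩⟩⟩
  · simp at hlen; omega
  · simp at hlen; omega
  · simp at hlen; omega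
  · simp at hlen; omega
  · simp only [List.nodup_cons, List.mem_cons, List.not_mem_nil, or_false, not_or,
      List.nodup_nil, and_true, not_false_eq_true] at hnd
    obtain ⟨⟨h01, h02, h03⟩, ⟨h12, h13⟩, h23⟩ := hnd
    obtain ⟨g, hg, e0, e1, e2, e3⟩ := exists_map_four h01 h02 h03 h12 h13 h23
    refine ⟨g, hg, ?_⟩
    apply eq_dec_of_support
    intro p
    rw [mem_supp_comp, hmem]
    have hb := M4_bits p
    rw [M4] at hb
    rw [hb]
    simp only [List.mem_cons, List.not_mem_nil, or_false, Equiv.Perm.inv_eq_iff_eq, e0, e1, e2, e3]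
  · simp at hlen; omega

theorem dot_E (a b : GolayPt) (w : V) : dotProduct (E a b) w = w a + w b := by
  unfold E
  rw [add_dotProduct, single_dotProduct, single_dotProduct, one_mul, one_mul]

theorem E_pair : E (pt 23) (pt 0) = dec 8388609 := by
  apply eq_dec_of_support
  have hb : ∀ p : GolayPt, Nat.testBit 8388609 (idx p) = true ↔ (p = pt 23 ∨ p = pt 0) := by
    decide +kernel
  intro p
  rw [hb, mem_support₂]
  unfold E
  have hne : pt 23 ≠ pt 0 := by decide +kernel
  by_cases h1 : p = pt 23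
  · subst h1
    simp [hne]
  · by_cases h2 : p = pt 0
    · subst h2
      simp [hne.symm]
    · simp [h1, h2]

theorem ncard_octKer_E {p q : GolayPt} (hpq : p ≠ q) : (octKer (E p q)).ncard = 407 := by
  obtain ⟨g, hg, e0, e1⟩ := exists_map_two hpq
  rw [← ncard_octKer_comp (E p q) hg, E_comp, e0, e1, E_pair, ncard_octKer_dec]
  exact cnt_pair

theorem ncard_octKer_four {f : V} (h4 : hammingNorm f = 4) : (octKer f).ncard = 375 := by
  obtain ⟨g, hg, e⟩ := canon4 f h4
  rw [← ncard_octKer_comp f hg, e, ncard_octKer_dec]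
  exact cnt_tet

theorem ncard_octKer_zero : (octKer (0 : V)).ncard = 759 := by
  rw [← dec_zero, ncard_octKer_dec]
  exact cnt_zero

/-- The all-ones word, as an element of the code. -/
def one : ↥golayCode := ⟨1, Cfsg.Agent.S5550.one_mem⟩

theorem hamming_add_one' (u : V) : hammingNorm (u + fun _ => (1 : ZMod 2)) + hammingNorm u = 24 :=
  Cfsg.Agent.S5550.hamming_add_one u

/-! ### A combinatorial lemma -/

theorem card_inter_pair {α : Type*} [DecidableEq α] (D : Finset α) {x y : α} (hxy : x ≠ y) :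
    (D ∩ {x, y}).card = (if x ∈ D then 1 else 0) + (if y ∈ D then 1 else 0) := by
  by_cases hx : x ∈ D <;> by_cases hy : y ∈ D <;>
    simp [Finset.inter_insert_of_mem, Finset.inter_insert_of_notMem,
      Finset.inter_singleton_of_mem, Finset.inter_singleton_of_notMem, hx, hy, hxy]

theorem eq_pair_of_mem {α : Type*} [DecidableEq α] {A : Finset α} (h2 : A.card = 2) {a : α}
    (ha : a ∈ A) : ∃ b, b ≠ a ∧ A = {a, b} := by
  obtain ⟨x, y, hxy, rfl⟩ := Finset.card_eq_two.mp h2
  rw [Finset.mem_insert, Finset.mem_singleton] at ha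
  rcases ha with rfl | rfl
  · exact ⟨y, hxy.symm, rfl⟩
  · exact ⟨x, hxy, Finset.pair_comm x a⟩

/-- A family of at least four 2-sets, any two of which meet in exactly one point, has a common
point. -/
theorem star {ι α : Type*} [DecidableEq α] [Fintype ι] (hι : 4 ≤ Fintype.card ι)
    (A : ι → Finset α) (h2 : ∀ i, (A i).card = 2)
    (h1 : ∀ i j, i ≠ j → (A i ∩ A j).card = 1) : ∃ a, ∀ i, a ∈ A i := by
  classical
  obtain ⟨i1, i2, h12⟩ := Fintype.exists_pair_of_one_lt_card (α := ι) (by omega)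
  obtain ⟨a, ha⟩ := Finset.card_eq_one.mp (h1 i1 i2 h12)
  have ha' : a ∈ A i1 ∩ A i2 := by rw [ha]; exact Finset.mem_singleton_self a
  have ha1 : a ∈ A i1 := (Finset.mem_inter.mp ha').1
  have ha2 : a ∈ A i2 := (Finset.mem_inter.mp ha').2
  refine ⟨a, ?_⟩
  by_contra hcon
  obtain ⟨i3, hi3⟩ := not_forall.mp hcon
  have h31 : i3 ≠ i1 := fun h => hi3 (h ▸ ha1)
  have h32 : i3 ≠ i2 := fun h => hi3 (h ▸ ha2)
  obtain ⟨b, hba, hA1⟩ := eq_pair_of_mem (h2 i1) ha1
  obtain ⟨c, hca, hA2⟩ := eq_pair_of_mem (h2 i2) ha2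
  have hbc : b ≠ c := by
    intro h
    have h' := h1 i1 i2 h12
    rw [hA1, hA2, h, Finset.inter_self, Finset.card_pair hca.symm] at h'
    omega
  have hb3 : b ∈ A i3 := by
    have h := h1 i3 i1 h31
    rw [hA1, card_inter_pair _ hba.symm, if_neg hi3] at h
    by_contra hb
    rw [if_neg hb] at h
    omega
  have hc3 : c ∈ A i3 := by
    have h := h1 i3 i2 h32
    rw [hA2, card_inter_pair _ hca.symm, if_neg hi3] at h
    by_contra hc
    rw [if_neg hc] at h
    omega
  have hA3 : A i3 = {b, c} := by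
    symm
    apply Finset.eq_of_subset_of_card_le
    · intro y hy
      rw [Finset.mem_insert, Finset.mem_singleton] at hy
      rcases hy with rfl | rfl
      · exact hb3
      · exact hc3
    · rw [h2 i3, Finset.card_pair hbc]
  obtain ⟨i4, h41, h42, h43⟩ : ∃ i4, i4 ≠ i1 ∧ i4 ≠ i2 ∧ i4 ≠ i3 := by
    by_contra hcon0
    have hcon : ∀ i, i ≠ i1 → i ≠ i2 → i = i3 := fun i e1 e2 =>
      by_contra (fun e3 => hcon0 ⟨i, e1, e2, e3⟩)
    have hsub : (Finset.univ : Finset ι) ⊆ {i1, i2, i3} := by
      intro i _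
      rw [Finset.mem_insert, Finset.mem_insert, Finset.mem_singleton]
      by_cases e1 : i = i1
      · exact Or.inl e1
      · by_cases e2 : i = i2
        · exact Or.inr (Or.inl e2)
        · exact Or.inr (Or.inr (hcon i e1 e2))
    have hle := Finset.card_le_card hsub
    have h3 : ({i1, i2, i3} : Finset ι).card ≤ 3 := Finset.card_le_three
    rw [Finset.card_univ] at hle
    omega
  have k1 := h1 i4 i1 h41
  have k2 := h1 i4 i2 h42
  have k3 := h1 i4 i3 h43
  rw [hA1, card_inter_pair _ hba.symm] at k1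
  rw [hA2, card_inter_pair _ hca.symm] at k2
  rw [hA3, card_inter_pair _ hbc] at k3
  by_cases m1 : a ∈ A i4 <;> by_cases m2 : b ∈ A i4 <;> by_cases m3 : c ∈ A i4 <;>
    simp only [m1, m2, m3, if_true, if_false] at k1 k2 k3 <;> omega


section Auto

variable (x : ↥golayCode ≃ₗ[ZMod 2] ↥golayCode)

/-- The octad in the class of `x c`. -/
noncomputable def fx (c : ↥golayCode) : ↥golayCode :=
  if hammingNorm ((x c : ↥golayCode) : V) = 8 then x c else x c + one

variable {x}
variable (hone : ∀ e : ↥golayCode, (e : V) = (fun _ => (1 : ZMod 2)) → x e = e)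
  (horb : ∀ c : ↥golayCode, ∃ σ ∈ M24,
    ((x c : ↥golayCode) : V) = (fun p => (c : V) (σ.symm p)) ∨
    ((x c : ↥golayCode) : V) = (fun p => (c : V) (σ.symm p)) + fun _ => (1 : ZMod 2))

include horb in
theorem norm_x (c : ↥golayCode) : hammingNorm ((x c : ↥golayCode) : V) = hammingNorm (c : V) ∨
    hammingNorm ((x c : ↥golayCode) : V) + hammingNorm (c : V) = 24 := by
  obtain ⟨σ, -, h | h⟩ := horb c
  · left
    rw [h]
    exact norm_comp (c : V) σ
  · right
    rw [h]
    have := hamming_add_one' (fun p => (c : V) (σ.symm p))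
    have e : hammingNorm (fun p => (c : V) (σ.symm p)) = hammingNorm (c : V) := norm_comp (c : V) σ
    rw [e] at this
    exact this

include hone in
theorem x_one : x one = one := hone one rfl

include horb in
theorem fx_mem {c : ↥golayCode} (hc : hammingNorm (c : V) = 8) :
    hammingNorm ((fx x c : ↥golayCode) : V) = 8 := by
  unfold fx
  split_ifs with h
  · exact h
  · have h1 := norm_x horb c
    have h2 := Cfsg.Agent.S5550.hamming_add_one ((x c : ↥golayCode) : V)
    have e : ((x c + one : ↥golayCode) : V) = ((x c : ↥golayCode) : V) + 1 := rfl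
    rw [e]
    omega

include hone in
theorem fx_inj {c c' : ↥golayCode} (hc : hammingNorm (c : V) = 8)
    (hc' : hammingNorm (c' : V) = 8) (h : fx x c = fx x c') : c = c' := by
  have key : ∀ a b : ↥golayCode, hammingNorm (a : V) = 8 → hammingNorm (b : V) = 8 →
      x a ≠ x b + one := by
    intro a b ha hb hab
    have h1 : x a = x (b + one) := by rw [map_add, x_one hone, hab]
    have h2 : a = b + one := x.injective h1
    have h3 := Cfsg.Agent.S5550.hamming_add_one (b : V)
    have e : ((b + one : ↥golayCode) : V) = (b : V) + 1 := rfl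
    rw [h2, e] at ha
    omega
  unfold fx at h
  split_ifs at h with h1 h2 h2
  · exact x.injective h
  · exact absurd h (key c c' hc hc')
  · exact absurd h.symm (key c' c hc' hc)
  · exact x.injective (add_right_cancel h)

theorem fx_dot (v : V) (hv : dotProduct v 1 = 0) (c : ↥golayCode) :
    dotProduct v ((fx x c : ↥golayCode) : V) = dotProduct v ((x c : ↥golayCode) : V) := by
  unfold fx
  split_ifs with h
  · rfl
  · have e : ((x c + one : ↥golayCode) : V) = ((x c : ↥golayCode) : V) + 1 := rfl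
    rw [e, dotProduct_add, hv, add_zero]

include hone horb in
theorem fx_surj {c' : ↥golayCode} (hc' : hammingNorm (c' : V) = 8) :
    ∃ c : ↥golayCode, hammingNorm (c : V) = 8 ∧ fx x c = c' := by
  let S : Set ↥golayCode := {c | hammingNorm (c : V) = 8}
  have hsub : fx x '' S ⊆ S := by
    rintro _ ⟨c, hc, rfl⟩
    exact fx_mem horb hc
  have hinj : Set.InjOn (fx x) S := fun c hc c' hc' h => fx_inj hone hc hc' h
  have heq : fx x '' S = S :=
    Set.eq_of_subset_of_ncard_le hsub (le_of_eq (hinj.ncard_image).symm) (Set.toFinite S)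
  have : c' ∈ fx x '' S := by rw [heq]; exact hc'
  obtain ⟨c, hc, rfl⟩ := this
  exact ⟨c, hc, rfl⟩

include hone horb in
/-- The number of octads `c` with `x c` orthogonal to an even word `v` is the number of octads
orthogonal to `v`. -/
theorem count_x (v : V) (hv : dotProduct v 1 = 0) :
    {c : ↥golayCode | hammingNorm (c : V) = 8 ∧
      dotProduct v ((x c : ↥golayCode) : V) = 0}.ncard = (octKer v).ncard := by
  have hinj : Set.InjOn (fun c : ↥golayCode => ((fx x c : ↥golayCode) : V))
      {c : ↥golayCode | hammingNorm (c : V) = 8 ∧ dotProduct v ((x c : ↥golayCode) : V) = 0} := by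
    intro c hc c' hc' h
    exact fx_inj hone hc.1 hc'.1 (Subtype.ext h)
  rw [← hinj.ncard_image]
  congr 1
  ext w
  simp only [octKer, Set.mem_image, Set.mem_ofPred_eq]
  constructor
  · rintro ⟨c, ⟨hc, hd⟩, rfl⟩
    exact ⟨(fx x c).2, fx_mem horb hc, by rw [fx_dot v hv, hd]⟩
  · rintro ⟨hw, h8, hd⟩
    obtain ⟨c, hc, hcw⟩ := fx_surj hone horb (c' := ⟨w, hw⟩) h8
    refine ⟨c, ⟨hc, ?_⟩, ?_⟩
    · rw [← fx_dot v hv, hcw]
      exact hd
    · rw [hcw]


theorem ncard_sub (v : V) : {c : ↥golayCode | hammingNorm (c : V) = 8 ∧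
    dotProduct v (c : V) = 0}.ncard = (octKer v).ncard := by
  rw [← Set.ncard_image_of_injective _ Subtype.val_injective]
  congr 1
  ext w
  simp only [octKer, Set.mem_image, Set.mem_ofPred_eq]
  constructor
  · rintro ⟨c, ⟨h8, hd⟩, rfl⟩
    exact ⟨c.2, h8, hd⟩
  · rintro ⟨hw, h8, hd⟩
    exact ⟨⟨w, hw⟩, ⟨h8, hd⟩, rfl⟩

theorem support_E {a b : GolayPt} (hab : a ≠ b) : support₂ (E a b) = {a, b} := by
  ext p
  rw [mem_support₂, Finset.mem_insert, Finset.mem_singleton]
  unfold E
  by_cases h1 : p = a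
  · subst h1
    simp [hab]
  · by_cases h2 : p = b
    · subst h2
      simp [hab.symm]
    · simp [h1, h2]

theorem norm_E {a b : GolayPt} (hab : a ≠ b) : hammingNorm (E a b) = 2 := by
  rw [← card_support₂, support_E hab, Finset.card_pair hab]

theorem norm_add (u u' : V) : hammingNorm (u + u') + 2 * (support₂ u ∩ support₂ u').card =
    hammingNorm u + hammingNorm u' := by
  obtain ⟨m, -, rfl⟩ := exists_mask u
  obtain ⟨m', -, rfl⟩ := exists_mask u'
  rw [← dec_xor, support₂_dec_inter, card_support₂, hammingNorm_dec, hammingNorm_dec,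
    hammingNorm_dec, hammingNorm_dec]
  exact popc_xor_add m m'

theorem eq_of_dot_eq {u u' : V} (h : ∀ c ∈ golayCode, dotProduct u c = dotProduct u' c)
    (hn : hammingNorm u + hammingNorm u' < 8) : u = u' := by
  have h1 : u + u' ∈ golayCode := by
    apply mem_of_dot_zero
    intro c hc
    rw [add_dotProduct, h c hc]
    exact CharTwo.add_self_eq_zero _
  have h2 : u + u' = 0 := by
    apply eq_zero_of_mem_of_lt h1
    have := norm_add u u'
    omega
  funext p
  have h3 := congrFun h2 p
  have h4 : ∀ a b : ZMod 2, a + b = 0 → a = b := by decide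
  exact h4 _ _ h3

include hone horb in
/-- The functional `c ↦ (x c) p + (x c) q` is `c ↦ c a + c b` for a pair `a ≠ b`. -/
theorem pair_exists {p q : GolayPt} (hpq : p ≠ q) : ∃ a b, a ≠ b ∧
    ∀ c : ↥golayCode, ((x c : ↥golayCode) : V) p + ((x c : ↥golayCode) : V) q =
      (c : V) a + (c : V) b := by
  let ψ : ↥golayCode →ₗ[ZMod 2] ZMod 2 :=
    ((LinearMap.proj (R := ZMod 2) (φ := fun _ : GolayPt => ZMod 2) p +
      LinearMap.proj (R := ZMod 2) (φ := fun _ : GolayPt => ZMod 2) q) ∘ₗ golayCode.subtype) ∘ₗ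
      x.toLinearMap
  have hψ : ∀ c : ↥golayCode, ψ c = ((x c : ↥golayCode) : V) p + ((x c : ↥golayCode) : V) q :=
    fun c => rfl
  obtain ⟨e, he, hpop, hd⟩ := exists_dot ψ
  have h11 : dotProduct (E p q) 1 = 0 := by
    rw [dot_E]
    exact CharTwo.add_self_eq_zero _
  have hset : {c : ↥golayCode | hammingNorm (c : V) = 8 ∧
      dotProduct (E p q) ((x c : ↥golayCode) : V) = 0} =
      {c : ↥golayCode | hammingNorm (c : V) = 8 ∧ dotProduct (dec e) (c : V) = 0} := by
    ext c
    simp only [Set.mem_ofPred_eq]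
    rw [dot_E, ← hψ, hd]
  have hcount : (octKer (dec e)).ncard = 407 := by
    rw [← ncard_sub, ← hset, count_x hone horb (E p q) h11, ncard_octKer_E hpq]
  have hpar : popc e % 2 = 0 := by
    have h1 := hd one
    rw [hψ, x_one hone] at h1
    have h2 : dotProduct (dec e) ((one : ↥golayCode) : V) = (popc e : ZMod 2) := by
      show dotProduct (dec e) 1 = _
      rw [dotProduct_one, sum_dec]
    rw [h2] at h1
    have h3 : ((one : ↥golayCode) : V) p + ((one : ↥golayCode) : V) q = 0 :=
      CharTwo.add_self_eq_zero _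
    rw [h3] at h1
    exact Nat.mod_eq_zero_of_dvd ((ZMod.natCast_eq_zero_iff _ 2).mp h1.symm)
  have hcases : popc e = 0 ∨ popc e = 2 ∨ popc e = 4 := by omega
  rcases hcases with h0 | h2 | h4
  · exfalso
    have e0 := eq_zero_of_popc_eq_zero he h0
    rw [e0, dec_zero, ncard_octKer_zero] at hcount
    omega
  · have hc2 : (support₂ (dec e)).card = 2 := by rw [card_support₂, hammingNorm_dec, h2]
    obtain ⟨a, b, hab, hs⟩ := Finset.card_eq_two.mp hc2
    refine ⟨a, b, hab, fun c => ?_⟩
    have hE : dec e = E a b := by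
      apply support₂_injective
      rw [hs, support_E hab]
    rw [← hψ, hd, hE, dot_E]
  · exfalso
    have := ncard_octKer_four (f := dec e) (by rw [hammingNorm_dec, h4])
    omega

open Classical in
/-- The pair word attached to `p, q`. -/
noncomputable def U (x : ↥golayCode ≃ₗ[ZMod 2] ↥golayCode) (p q : GolayPt) : V :=
  if h : ∃ a b, a ≠ b ∧ ∀ c : ↥golayCode, ((x c : ↥golayCode) : V) p + ((x c : ↥golayCode) : V) q =
      (c : V) a + (c : V) b then E h.choose h.choose_spec.choose else 0

include hone horb in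
theorem U_spec {p q : GolayPt} (hpq : p ≠ q) : hammingNorm (U x p q) = 2 ∧
    ∀ c : ↥golayCode, ((x c : ↥golayCode) : V) p + ((x c : ↥golayCode) : V) q =
      dotProduct (U x p q) (c : V) := by
  have h := pair_exists hone horb hpq
  unfold U
  rw [dif_pos h]
  obtain ⟨hab, hc⟩ := h.choose_spec.choose_spec
  exact ⟨norm_E hab, fun c => by rw [dot_E]; exact hc c⟩

include hone horb in
theorem U_symm {p q : GolayPt} (hpq : p ≠ q) : U x p q = U x q p := by
  obtain ⟨n1, d1⟩ := U_spec hone horb hpq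
  obtain ⟨n2, d2⟩ := U_spec hone horb hpq.symm
  apply eq_of_dot_eq _ (by omega)
  intro c hc
  rw [← d1 ⟨c, hc⟩, ← d2 ⟨c, hc⟩, add_comm]

include hone horb in
theorem U_add {p q r : GolayPt} (hpq : p ≠ q) (hqr : q ≠ r) (hpr : p ≠ r) :
    U x p q + U x q r = U x p r := by
  obtain ⟨n1, d1⟩ := U_spec hone horb hpq
  obtain ⟨n2, d2⟩ := U_spec hone horb hqr
  obtain ⟨n3, d3⟩ := U_spec hone horb hpr
  apply eq_of_dot_eq
  · intro c hc
    rw [add_dotProduct, ← d1 ⟨c, hc⟩, ← d2 ⟨c, hc⟩, ← d3 ⟨c, hc⟩]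
    have h4 : ∀ a b d : ZMod 2, a + b + (b + d) = a + d := by decide
    exact h4 _ _ _
  · have := norm_add (U x p q) (U x q r)
    omega

theorem card_ne (p : GolayPt) : Fintype.card {q : GolayPt // q ≠ p} = 23 := by
  rw [Fintype.card_subtype_compl, Fintype.card_subtype_eq, Fintype.card_option, ZMod.card]

include hone horb in
theorem exists_center (p : GolayPt) : ∃ a, ∀ q, q ≠ p → U x p q a ≠ 0 := by
  have h := star (ι := {q : GolayPt // q ≠ p}) (by rw [card_ne]; norm_num)
    (fun q => support₂ (U x p q.1))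
    (fun q => by rw [card_support₂]; exact (U_spec hone horb q.2.symm).1)
    (fun q q' hqq' => by
      have hne : q.1 ≠ q'.1 := fun h => hqq' (Subtype.ext h)
      have h1 := norm_add (U x p q.1) (U x p q'.1)
      have h2 : U x p q.1 + U x p q'.1 = U x q.1 q'.1 := by
        rw [U_symm hone horb q.2.symm]
        exact U_add hone horb q.2 q'.2.symm hne
      rw [h2, (U_spec hone horb hne).1, (U_spec hone horb q.2.symm).1,
        (U_spec hone horb q'.2.symm).1] at h1
      omega)
  obtain ⟨a, ha⟩ := h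
  exact ⟨a, fun q hq => (mem_support₂ _ _).mp (ha ⟨q, hq⟩)⟩

open Classical in
/-- The point map induced by `x`. -/
noncomputable def sig (x : ↥golayCode ≃ₗ[ZMod 2] ↥golayCode) (p : GolayPt) : GolayPt :=
  if h : ∃ a, ∀ q, q ≠ p → U x p q a ≠ 0 then h.choose else p

include hone horb in
theorem sig_spec {p q : GolayPt} (hqp : q ≠ p) : U x p q (sig x p) ≠ 0 := by
  have h := exists_center hone horb p
  unfold sig
  rw [dif_pos h]
  exact h.choose_spec q hqp

theorem exists_third (p q : GolayPt) : ∃ r : GolayPt, r ≠ p ∧ r ≠ q := by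
  revert p q
  decide +kernel

include hone horb in
theorem sig_inj : Function.Injective (sig x) := by
  intro p q hsig
  by_contra hpq
  obtain ⟨r, hrp, hrq⟩ := exists_third p q
  have h1 := sig_spec hone horb hrp
  have h2 := sig_spec hone horb hrq
  have h3 := sig_spec hone horb (p := p) (q := q) (fun h => hpq h.symm)
  have h4 : U x p r + U x r q = U x p q := U_add hone horb hrp.symm hrq hpq
  rw [U_symm hone horb hrq] at h4
  rw [← h4, Pi.add_apply] at h3
  rw [hsig] at h1 h3
  have h5 : ∀ a b : ZMod 2, a ≠ 0 → b ≠ 0 → a + b ≠ 0 → False := by decide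
  exact h5 _ _ h1 h2 h3

include hone horb in
theorem U_eq {p q : GolayPt} (hpq : p ≠ q) : U x p q = E (sig x p) (sig x q) := by
  have hne : sig x p ≠ sig x q := fun h => hpq (sig_inj hone horb h)
  apply support₂_injective
  rw [support_E hne]
  symm
  apply Finset.eq_of_subset_of_card_le
  · intro y hy
    rw [Finset.mem_insert, Finset.mem_singleton] at hy
    rw [mem_support₂]
    rcases hy with rfl | rfl
    · exact sig_spec hone horb hpq.symm
    · rw [U_symm hone horb hpq]
      exact sig_spec hone horb hpq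
  · rw [card_support₂, (U_spec hone horb hpq).1, Finset.card_pair hne]

include hone horb in
theorem x_apply (c : ↥golayCode) (p q : GolayPt) :
    ((x c : ↥golayCode) : V) p + ((x c : ↥golayCode) : V) q =
      (c : V) (sig x p) + (c : V) (sig x q) := by
  by_cases hpq : p = q
  · subst hpq
    rw [CharTwo.add_self_eq_zero, CharTwo.add_self_eq_zero]
  · rw [(U_spec hone horb hpq).2, U_eq hone horb hpq, dot_E]

end Auto

/-- Let X be a group of linear automorphisms of the length-24 binary Golay code of the definitions that fix the all-ones word, containing the coordinate-permutation action of every element of the code's automorphism group (the Mathieu group of degree 24), and such that every element of X sends each codeword into its orbit under that Mathieu group up to adding the all-ones word (X has the same orbits as the Mathieu group on the code modulo the all-ones word). Then every element of X agrees, modulo the all-ones word, with the action of a single element of the Mathieu group: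 X induces exactly the Mathieu group on the code modulo the all-ones word. -/
theorem result (X : Subgroup (↥Cfsg.golayCode ≃ₗ[ZMod 2] ↥Cfsg.golayCode)) (h1 : ∀ x ∈ X, ∀ e : ↥Cfsg.golayCode, (e : (Cfsg.GolayPt → ZMod 2)) = (fun _ => (1 : ZMod 2)) → x e = e) (hM : ∀ σ ∈ Cfsg.M24, ∃ x ∈ X, ∀ c : ↥Cfsg.golayCode, ((x c : ↥Cfsg.golayCode) : (Cfsg.GolayPt → ZMod 2)) = fun p => (c : (Cfsg.GolayPt → ZMod 2)) (σ.symm p)) (horb : ∀ x ∈ X, ∀ c : ↥Cfsg.golayCode, ∃ σ ∈ Cfsg.M24, ((x c : ↥Cfsg.golayCode) : (Cfsg.GolayPt → ZMod 2)) = (fun p => (c : (Cfsg.GolayPt → ZMod 2)) (σ.symm p)) ∨ ((x c : ↥Cfsg.golayCode) : (Cfsg.GolayPt → ZMod 2)) = (fun p => (c : (Cfsg.GolayPt → ZMod 2)) (σ.symm p)) + fun _ => (1 : ZMod 2)) (x : ↥Cfsg.golayCode ≃ₗ[ZMod 2] ↥Cfsg.golayCode) (hx : x ∈ X) : ∃ σ ∈ Cfsg.M24, ∀ c : ↥Cfsg.golayCode, ((x c : ↥Cfsg.golayCode) : (Cfsg.GolayPt → ZMod 2)) = (fun p => (c : (Cfsg.GolayPt → ZMod 2)) (σ.symm p)) ∨ ((x c : ↥Cfsg.golayCode) : (Cfsg.GolayPt → ZMod 2)) = (fun p => (c : (Cfsg.GolayPt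 → ZMod 2)) (σ.symm p)) + fun _ => (1 : ZMod 2) := by
  have hone := h1 x hx
  have horb' := horb x hx
  let τ : Equiv.Perm GolayPt :=
    Equiv.ofBijective (sig x) (Finite.injective_iff_bijective.mp (sig_inj hone horb'))
  have hτ : ∀ p, τ p = sig x p := fun p => rfl
  have key : ∀ c : ↥golayCode, ((x c : ↥golayCode) : V) = (c : V) ∘ ⇑τ ∨
      ((x c : ↥golayCode) : V) = (c : V) ∘ ⇑τ + 1 := by
    intro c
    have h0 : ∀ a : ZMod 2, a = 0 ∨ a = 1 := by decide
    have h4 : ∀ a b d e : ZMod 2, a + b = d + e → a = d + (b + e) := by decide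
    rcases h0 (((x c : ↥golayCode) : V) none + (c : V) (sig x none)) with hk | hk
    · left
      funext p
      have := h4 _ _ _ _ (x_apply hone horb' c p none)
      rw [hk, add_zero] at this
      exact this
    · right
      funext p
      have := h4 _ _ _ _ (x_apply hone horb' c p none)
      rw [hk] at this
      exact this
  have hmem : τ ∈ M24 := by
    apply mem_M24_of_comp
    intro w hw
    rcases key ⟨w, hw⟩ with h | h
    · have e : w ∘ ⇑τ = ((x ⟨w, hw⟩ : ↥golayCode) : V) := h.symm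
      rw [e]
      exact (x ⟨w, hw⟩).2
    · have e : w ∘ ⇑τ = ((x ⟨w, hw⟩ : ↥golayCode) : V) + 1 := by
        rw [h, add_assoc, CharTwo.add_self_eq_zero, add_zero]
      rw [e]
      exact Submodule.add_mem _ (x ⟨w, hw⟩).2 Cfsg.Agent.S5550.one_mem
  refine ⟨τ⁻¹, M24.inv_mem hmem, fun c => ?_⟩
  exact key c

end Cfsg.Agent.S5549
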