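import Cfsg.Statements.S5551
import Cfsg.Agent.S0391

set_option autoImplicit false
open Cfsg

namespace Cfsg.Agent.S5551

theorem sqNorm_sub_add (a b : GolayPt → ℤ) :
    sqNorm (a - b) + sqNorm (a + b) = 2 * sqNorm a + 2 * sqNorm b := by
  show ∑ i, (a - b) i ^ 2 + ∑ i, (a + b) i ^ 2 = 2 * ∑ i, a i ^ 2 + 2 * ∑ i, b i ^ 2
  rw [← Finset.sum_add_distrib, Finset.mul_sum, Finset.mul_sum, ← Finset.sum_add_distrib]
  apply Finset.sum_congr rfl
  intro i _
  simp only [Pi.sub_apply, Pi.add_apply]; ring

theorem sqNorm_two_smul (z : GolayPt → ℤ) : sqNorm (2 • z) = 4 * sqNorm z := by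
  show ∑ i, (2 • z) i ^ 2 = 4 * ∑ i, z i ^ 2
  rw [Finset.mul_sum]
  apply Finset.sum_congr rfl
  intro i _
  simp only [Pi.smul_apply, nsmul_eq_mul, Nat.cast_ofNat]; ring

theorem sqNorm_neg' (z : GolayPt → ℤ) : sqNorm (-z) = sqNorm z := by
  show ∑ i, (-z) i ^ 2 = ∑ i, z i ^ 2
  apply Finset.sum_congr rfl
  intro i _
  simp only [Pi.neg_apply]; ring

/-- In the Leech lattice of the definitions (integer coordinates, minimal squared length 32), let v and w be non-zero lattice vectors of squared length at most 64 that are congruent modulo twice the lattice. Then they have the same squared length, and if that length is less than 64 then w = v or w = −v. (So a class that contains a non-zero vector of squared length at most 64 has a well-defined type 2, 3 or 4, and a class of type 2 or 3 contains no such vector other than v and −v.) -/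
theorem result (v w : Cfsg.GolayPt → ℤ) (hv : v ∈ Cfsg.leechLattice) (hw : w ∈ Cfsg.leechLattice) (hv0 : v ≠ 0) (hw0 : w ≠ 0) (hvn : Cfsg.sqNorm v ≤ 64) (hwn : Cfsg.sqNorm w ≤ 64) (hc : ∃ z ∈ Cfsg.leechLattice, v - w = 2 • z) : Cfsg.sqNorm v = Cfsg.sqNorm w ∧ (Cfsg.sqNorm v < 64 → w = v ∨ w = -v) := by
  obtain ⟨z, hz, hvz⟩ := hc
  have hz' : z + w ∈ leechLattice := add_mem hz hw
  have hvw' : v + w = 2 • (z + w) := by
    have h : v = 2 • z + w := by rw [← hvz]; abel
    rw [h, smul_add, two_smul, two_smul]; abel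
  have hsum := sqNorm_sub_add v w
  rw [hvz, hvw', sqNorm_two_smul, sqNorm_two_smul] at hsum
  by_cases h1 : z = 0
  · have h : w = v := by
      rw [h1, smul_zero, sub_eq_zero] at hvz; exact hvz.symm
    subst h; exact ⟨rfl, fun _ => Or.inl rfl⟩
  by_cases h2 : z + w = 0
  · have h : w = -v := by
      rw [h2, smul_zero] at hvw'
      exact (neg_eq_of_add_eq_zero_right hvw').symm
    subst h
    refine ⟨?_, fun _ => Or.inr rfl⟩
    rw [sqNorm_neg']
  have h3 := Cfsg.Agent.S0391.result z hz h1
  have h4 := Cfsg.Agent.S0391.result _ hz' h2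
  constructor
  · linarith
  · intro h; linarith

end Cfsg.Agent.S5551
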