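import Cfsg.Statements.S5588
import Cfsg.Agent.Lib.Helper38.Y5Main
import Cfsg.Agent.Lib.Helper4.Y5SymMain
import Cfsg.Agent.Lib.Helper16.Y5Conj
import Cfsg.Agent.Lib.Helper60.Y5Spider

set_option autoImplicit false
open Cfsg

namespace Cfsg.Agent.S5588

/-- In the group presented by the sixteen involutions of the Y₅₅₅ Coxeter diagram subject only to the Coxeter relations and the single spider relation (a b₁ c₁ a b₂ c₂ a b₃ c₃)^10 = 1, each of the further relators used in the definitions' presentation of the Bimonster (each end node equals the ninth power of the Coxeter element of a sub-diagram of type E₇) already holds. Equivalently, the Y₅₅₅ diagram with the spider relation alone presents the Bimonster. -/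
theorem result :
    ∀ r ∈ Cfsg.Spor.Bimonster.extra,
      (PresentedGroup.mk (Cfsg.Spor.coxRelators Cfsg.Spor.Bimonster.edges ∪ {r' | r' ∈ [(Cfsg.Spor.Bimonster.a * Cfsg.Spor.Bimonster.b1 * Cfsg.Spor.Bimonster.c1 * Cfsg.Spor.Bimonster.a * Cfsg.Spor.Bimonster.b2 * Cfsg.Spor.Bimonster.c2 * Cfsg.Spor.Bimonster.a * Cfsg.Spor.Bimonster.b3 * Cfsg.Spor.Bimonster.c3) ^ 10]}) r) = 1 := by
  exact Cfsg.Agent.Lib.Helper4.Y5Sym.extra_of_base
    (fun a b1 c1 b2 c2 b3 c3 => Cfsg.Agent.Lib.Helper60.Y5.spider_perms a b1 c1 b2 c2 b3 c3)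
    (fun x1 x2 x3 x4 x5 x6 x7 f => Cfsg.Agent.Lib.Helper16.Y5Conj.coxeter_conj x1 x2 x3 x4 x5 x6 x7 f)
    (fun d h2 hw => Cfsg.Agent.Lib.Helper38.Y5.base d h2 hw)

end Cfsg.Agent.S5588
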