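-- Statement S5594: the negation in the automorphism group of the Leech lattice has no complement.
import Cfsg.Statements.S5594
import Cfsg.Agent.S0432
import Cfsg.Agent.Lib.Helper10.Co0Center
import Cfsg.Agent.Lib.Helper9.M24

set_option autoImplicit false
open Cfsg

namespace Cfsg.Agent.S5594

open Cfsg.Agent.Lib.Helper10

/-- The code set `{0} ∪ (squares)`. -/
def C0 : Finset GolayPt := support₂ (qrWord 0)

theorem C0_mem : C0 ∈ gsup :=
  ⟨qrWord 0, Submodule.subset_span (Set.mem_union_left _ ⟨0, rfl⟩), rfl⟩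

set_option maxRecDepth 1000000 in
theorem projInv_C0 : ∀ i : GolayPt, (projInv i ∈ C0 ↔ i ∉ C0) := by
  unfold C0 support₂
  decide +kernel

set_option maxRecDepth 1000000 in
theorem projInv_projInv : ∀ i : GolayPt, projInv (projInv i) = i := by
  decide +kernel

/-- The monomial map: permute by `projInv`, then change signs on `C0`. -/
def gVec (x : GolayPt → ℤ) : GolayPt → ℤ := signVec C0 (fun i => x (projInv i))

theorem gVec_apply (x : GolayPt → ℤ) (i : GolayPt) :
    gVec x i = if i ∈ C0 then -x (projInv i) else x (projInv i) := rfl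

theorem gVec_gVec (x : GolayPt → ℤ) : gVec (gVec x) = -x := by
  funext i
  rw [gVec_apply, gVec_apply, projInv_projInv, Pi.neg_apply]
  have h := projInv_C0 i
  by_cases hi : i ∈ C0
  · have h' : projInv i ∉ C0 := fun hc => (h.1 hc) hi
    rw [if_pos hi, if_neg h']
  · have h' : projInv i ∈ C0 := h.2 hi
    rw [if_neg hi, if_pos h']

theorem gVec_add (x y : GolayPt → ℤ) : gVec (x + y) = gVec x + gVec y := by
  funext i
  simp only [gVec_apply, Pi.add_apply]
  split_ifs <;> ring

theorem gVec_neg (x : GolayPt → ℤ) : gVec (-x) = -gVec x := by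
  funext i
  simp only [gVec_apply, Pi.neg_apply]
  split_ifs <;> ring

theorem sqNorm_gVec (x : GolayPt → ℤ) : sqNorm (gVec x) = sqNorm x := by
  unfold gVec
  rw [sqNorm_signVec]
  exact Equiv.sum_comp projInv (fun i => x i ^ 2)

theorem gVec_mem {x : GolayPt → ℤ} (hx : x ∈ leechLattice) : gVec x ∈ leechLattice := by
  have h1 : (fun i => x (projInv i)) ∈ leechLattice :=
    Cfsg.Agent.S0432.result projInv Cfsg.Agent.Lib.Helper9.projInv_mem x hx
  exact mem_LL_of (signVec_mem_leechSet C0_mem ((mem_leechLattice_iff _).1 h1))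

/-- The monomial map as a permutation of the lattice. -/
def gPerm : Equiv.Perm leechLattice where
  toFun v := ⟨gVec v.1, gVec_mem v.2⟩
  invFun v := ⟨gVec (-v.1), gVec_mem (neg_mem v.2)⟩
  left_inv v := Subtype.ext (by
    show gVec (-(gVec v.1)) = v.1
    rw [gVec_neg, gVec_gVec, neg_neg])
  right_inv v := Subtype.ext (by
    show gVec (gVec (-v.1)) = v.1
    rw [gVec_gVec, neg_neg])

theorem gPerm_mem : gPerm ∈ Co0 :=
  ⟨fun v w => Subtype.ext (gVec_add v.1 w.1), fun v => sqNorm_gVec v.1⟩

theorem gPerm_sq : gPerm * gPerm = negPerm := by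
  apply Equiv.ext
  intro v
  apply Subtype.ext
  show gVec (gVec v.1) = -v.1
  exact gVec_gVec v.1

/-- The negation as an element of the automorphism group. -/
def nElt : ↥Co0 := ⟨negPerm, negPerm_mem⟩

theorem nElt_ne_one : nElt ≠ 1 := by
  intro h
  have h1 : negPerm = (1 : Equiv.Perm leechLattice) := congrArg Subtype.val h
  have h2 := congrArg (fun g : Equiv.Perm leechLattice => (g Spor.leechU : GolayPt → ℤ) none) h1
  have h3 : (Spor.leechU : GolayPt → ℤ) none = 4 := rfl
  have h4 : ((negPerm Spor.leechU : leechLattice) : GolayPt → ℤ) none = -4 := rfl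
  simp only [Equiv.Perm.coe_one, id_eq] at h2
  rw [h3, h4] at h2
  omega

theorem nElt_sq : nElt * nElt = 1 := by
  apply Subtype.ext
  apply Equiv.ext
  intro v
  show negPerm (negPerm v) = v
  rw [negPerm_apply, negPerm_apply, neg_neg]

theorem nElt_comm (g : ↥Co0) : nElt * g = g * nElt := by
  apply Subtype.ext
  apply Equiv.ext
  intro v
  show negPerm ((g : Equiv.Perm leechLattice) v) = (g : Equiv.Perm leechLattice) (negPerm v)
  rw [negPerm_apply, negPerm_apply, co0_map_neg g.2]

theorem zpow_props (z : ↥Co0) (hz : z ∈ Subgroup.zpowers nElt) :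
    z * z = 1 ∧ ∀ g : ↥Co0, z * g = g * z := by
  obtain ⟨k, rfl⟩ := Subgroup.mem_zpowers_iff.1 hz
  have hc : ∀ g : ↥Co0, Commute nElt g := fun g => nElt_comm g
  refine ⟨?_, fun g => ((hc g).zpow_left k).eq⟩
  rw [← zpow_add, ← two_mul, zpow_mul, zpow_two, nElt_sq, one_zpow]

/-- The automorphism group of the Leech lattice contains the negation map, and the subgroup of order 2 it generates has no complement: the automorphism group is a non-split extension of its quotient by that subgroup (it is not the direct product of a group of order 2 with the first Conway group). -/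
theorem result :
    ∃ n : ↥Cfsg.Co0, (∀ v : ↥Cfsg.leechLattice, ((n • v : ↥Cfsg.leechLattice) : Cfsg.GolayPt → ℤ) = -(v : Cfsg.GolayPt → ℤ)) ∧
    ∀ K : Subgroup ↥Cfsg.Co0, ¬ (Subgroup.zpowers n).IsComplement' K := by
  refine ⟨nElt, fun v => rfl, fun K hK => ?_⟩
  let g : ↥Co0 := ⟨gPerm, gPerm_mem⟩
  have hg2 : g * g = nElt := Subtype.ext gPerm_sq
  have htop := hK.sup_eq_top
  have hgmem : g ∈ Subgroup.zpowers nElt ⊔ K := by rw [htop]; exact Subgroup.mem_top g
  have hnorm : (Subgroup.zpowers nElt).Normal := by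
    constructor
    intro z hz a
    have h := (zpow_props z hz).2 a
    have : a * z * a⁻¹ = z := by rw [← h, mul_inv_cancel_right]
    rw [this]
    exact hz
  rw [Subgroup.mem_sup_of_normal_left] at hgmem
  obtain ⟨z, hz, k, hk, hzk⟩ := hgmem
  obtain ⟨hz2, hzc⟩ := zpow_props z hz
  have hkk : k * k = nElt := by
    rw [← hg2, ← hzk]
    calc k * k = (z * z) * (k * k) := by rw [hz2, one_mul]
      _ = z * (z * k) * k := by simp only [mul_assoc]
      _ = z * (k * z) * k := by rw [hzc k]
      _ = z * k * (z * k) := by simp only [mul_assoc]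
  have hnK : nElt ∈ K := by rw [← hkk]; exact K.mul_mem hk hk
  have hdisj := hK.disjoint
  have h1 : nElt ∈ Subgroup.zpowers nElt ⊓ K := ⟨Subgroup.mem_zpowers nElt, hnK⟩
  rw [hdisj.eq_bot, Subgroup.mem_bot] at h1
  exact nElt_ne_one h1

end Cfsg.Agent.S5594
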