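-- Statement S5599: the outer automorphism of M22 induced from M24.
import Cfsg.Statements.S5599
import Cfsg.Agent.Lib.Helper9.M24Trans
import Cfsg.Agent.Lib.Helper10.GolayBasic

set_option autoImplicit false
open Cfsg

namespace Cfsg.Agent.S5599

open Cfsg.Agent.Lib.Helper9
open scoped Pointwise

theorem pt23 : pt 23 = none := by decide
theorem pt0 : pt 0 = some 0 := by decide
theorem pt1_ne_none : pt 1 ≠ none := by decide
theorem pt1_ne_zero : pt 1 ≠ some 0 := by decide
theorem pt3_ne : pt 3 ≠ pt 23 ∧ pt 3 ≠ pt 0 ∧ pt 3 ≠ pt 1 ∧ pt 3 ≠ pt 2 := by decide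

theorem mem_M22_iff (x : Equiv.Perm GolayPt) :
    x ∈ Spor.M22 ↔ x ∈ M24 ∧ x none = none ∧ x (some 0) = some 0 := by
  unfold Spor.M22 Spor.M23
  simp only [Subgroup.mem_inf, MulAction.mem_stabilizer_iff, Equiv.Perm.smul_def, and_assoc]

theorem mem_M22_of_fix {x : Equiv.Perm GolayPt} (hx : x ∈ M24 ⊓ fixing [0, 23]) :
    x ∈ Spor.M22 := by
  rw [mem_M22_iff]
  refine ⟨hx.1, ?_, ?_⟩
  · have := hx.2 23 (by simp)
    rwa [pt23] at this
  · have := hx.2 0 (by simp)
    rwa [pt0] at this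

theorem mem_M22_of_fix3 {x : Equiv.Perm GolayPt} (hx : x ∈ M24 ⊓ fixing [1, 0, 23]) :
    x ∈ Spor.M22 ∧ x (pt 1) = pt 1 := by
  refine ⟨mem_M22_of_fix ⟨hx.1, fun i hi => hx.2 i (by
    simp only [List.mem_cons, List.not_mem_nil, or_false] at hi ⊢
    tauto)⟩, hx.2 1 (by simp)⟩

theorem stab_cases {b : Equiv.Perm GolayPt}
    (hb : b • ({none, some 0} : Finset GolayPt) = {none, some 0}) :
    (b none = none ∧ b (some 0) = some 0) ∨ (b none = some 0 ∧ b (some 0) = none) := by
  have h1 : b none ∈ ({none, some 0} : Finset GolayPt) := by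
    rw [← hb, ← Equiv.Perm.smul_def]
    exact Finset.smul_mem_smul_finset (by simp)
  have h2 : b (some 0) ∈ ({none, some 0} : Finset GolayPt) := by
    rw [← hb, ← Equiv.Perm.smul_def]
    exact Finset.smul_mem_smul_finset (by simp)
  have hne : b none ≠ b (some 0) := fun h => by
    have := b.injective h
    exact absurd this (by decide)
  simp only [Finset.mem_insert, Finset.mem_singleton] at h1 h2
  rcases h1 with h1 | h1 <;> rcases h2 with h2 | h2
  · exact absurd (h1.trans h2.symm) hne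
  · exact Or.inl ⟨h1, h2⟩
  · exact Or.inr ⟨h1, h2⟩
  · exact absurd (h1.trans h2.symm) hne

theorem smul_pair_of_swap {g : Equiv.Perm GolayPt} (h₁ : g none = some 0)
    (h₂ : g (some 0) = none) : g • ({none, some 0} : Finset GolayPt) = {none, some 0} := by
  ext p
  rw [← Finset.inv_smul_mem_iff]
  simp only [Finset.mem_insert, Finset.mem_singleton, Equiv.Perm.smul_def,
    Equiv.Perm.inv_eq_iff_eq, h₁, h₂]
  tauto

theorem qr0_zero : qrWord 0 (some 0) = 1 := by decide

theorem add_self_zmod2 (a : ZMod 2) : a + a = 0 := by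
  revert a; decide

/-- An element of `M24` cannot act as the transposition of the two points. -/
theorem no_transposition (c : Equiv.Perm GolayPt) (hc : c ∈ M24) (hcn : c none = some 0)
    (hc0 : c (some 0) = none) (hfix : ∀ p, p ≠ none → p ≠ some 0 → c p = p) : False := by
  have hw : qrWord 0 ∈ golayCode := Submodule.subset_span (Set.mem_union_left _ ⟨0, rfl⟩)
  have hw' : qrWord 0 ∘ ⇑c ∈ golayCode := comp_mem_of_mem_M24 hc hw
  have hs : qrWord 0 + qrWord 0 ∘ ⇑c ∈ golayCode := golayCode.add_mem hw hw'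
  have hsupp : support₂ (qrWord 0 + qrWord 0 ∘ ⇑c) = {none, some 0} := by
    ext p
    rw [mem_support₂, Pi.add_apply, Function.comp_apply]
    simp only [Finset.mem_insert, Finset.mem_singleton]
    by_cases hp : p = none
    · subst hp
      rw [hcn, qr0_zero]
      have : qrWord 0 none = 0 := rfl
      rw [this]
      simp
    · by_cases hp0 : p = some 0
      · subst hp0
        rw [hc0, qr0_zero]
        have : qrWord 0 none = 0 := rfl
        rw [this]
        simp
      · rw [hfix p hp hp0, add_self_zmod2]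
        simp [hp, hp0]
  have h4 := Cfsg.Agent.Lib.Helper10.golay_doubly_even
    (S := support₂ (qrWord 0 + qrWord 0 ∘ ⇑c)) ⟨_, hs, rfl⟩
  rw [hsupp] at h4
  have h2 : ({none, some 0} : Finset GolayPt).card = 2 := by decide
  rw [h2] at h4
  omega

/-- An element of `M24` swapping the two points and centralising `M22` fixes `pt 1`. -/
theorem fix_one (c : Equiv.Perm GolayPt) (hcn : c none = some 0) (hc0 : c (some 0) = none)
    (hcomm : ∀ x ∈ Spor.M22, c * x = x * c) : c (pt 1) = pt 1 := by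
  by_contra hne
  have hq23 : c (pt 1) ≠ pt 23 := by
    rw [pt23, ← hc0]
    exact fun h => pt1_ne_zero (c.injective h)
  have hq0 : c (pt 1) ≠ pt 0 := by
    rw [pt0, ← hcn]
    exact fun h => pt1_ne_none (c.injective h)
  obtain ⟨σ, hσ, hσq⟩ : ∃ σ ∈ M24 ⊓ fixing [1, 0, 23], σ (c (pt 1)) ≠ c (pt 1) := by
    by_cases hq2 : c (pt 1) = pt 2
    · obtain ⟨σ, hσ, e⟩ := step3 (pt 3) pt3_ne.1 pt3_ne.2.1 pt3_ne.2.2.1
      refine ⟨σ, hσ, ?_⟩
      rw [hq2]
      intro h
      exact pt3_ne.2.2.2 (σ.injective (e.trans h.symm))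
    · obtain ⟨σ, hσ, e⟩ := step3 (c (pt 1)) hq23 hq0 hne
      refine ⟨σ, hσ, ?_⟩
      rw [e]
      exact fun h => hq2 h.symm
  obtain ⟨hσ22, hσ1⟩ := mem_M22_of_fix3 hσ
  have h := congrArg (fun f : Equiv.Perm GolayPt => f (pt 1)) (hcomm σ hσ22)
  simp only [Equiv.Perm.mul_apply] at h
  rw [hσ1] at h
  exact hσq h.symm

theorem final (c : Equiv.Perm GolayPt) (hc : c ∈ M24) (hcn : c none = some 0)
    (hc0 : c (some 0) = none) (hcomm : ∀ x ∈ Spor.M22, c * x = x * c) : False := by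
  have h1 := fix_one c hcn hc0 hcomm
  apply no_transposition c hc hcn hc0
  intro p hp hp0
  obtain ⟨τ, hτ, e⟩ := step2 p (by rw [pt23]; exact hp) (by rw [pt0]; exact hp0)
  have hτ22 := mem_M22_of_fix hτ
  have h := congrArg (fun f : Equiv.Perm GolayPt => f p) (hcomm τ hτ22)
  simp only [Equiv.Perm.mul_apply] at h
  rw [e, h1] at h
  exact τ.injective (h.symm.trans e.symm)

/-- In the automorphism group of the length-24 code, the two-point Mathieu group (permutations of the code's group fixing the extra point and the residue 0) has index 2 in the setwise stabiliser of that pair of points, and an element of the code's group interchanging the two points normalises the two-point group and induces on it, by conjugation, an automorphism that is not inner. -/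
theorem result (g : Equiv.Perm Cfsg.GolayPt) (hg : g ∈ Cfsg.M24) (h₁ : g none = some 0) (h₂ : g (some 0) = none) : Cfsg.Spor.M22.relIndex (Cfsg.M24 ⊓ MulAction.stabilizer (Equiv.Perm Cfsg.GolayPt) ({none, some 0} : Finset Cfsg.GolayPt)) = 2 ∧ (∀ x ∈ Cfsg.Spor.M22, g * x * g⁻¹ ∈ Cfsg.Spor.M22) ∧ ¬ ∃ h ∈ Cfsg.Spor.M22, ∀ x ∈ Cfsg.Spor.M22, g * x * g⁻¹ = h * x * h⁻¹ := by
  have hginv0 : g⁻¹ none = some 0 := by rw [Equiv.Perm.inv_eq_iff_eq, h₂]
  have hginv1 : g⁻¹ (some 0) = none := by rw [Equiv.Perm.inv_eq_iff_eq, h₁]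
  refine ⟨?_, ?_, ?_⟩
  · rw [Subgroup.relIndex, Subgroup.index_eq_two_iff]
    have hgS : g ∈ M24 ⊓ MulAction.stabilizer (Equiv.Perm GolayPt)
        ({none, some 0} : Finset GolayPt) :=
      ⟨hg, MulAction.mem_stabilizer_iff.2 (smul_pair_of_swap h₁ h₂)⟩
    refine ⟨⟨g, hgS⟩, fun b => ?_⟩
    rw [Subgroup.mem_subgroupOf, Subgroup.mem_subgroupOf, mem_M22_iff, mem_M22_iff]
    have hb24 : (b : Equiv.Perm GolayPt) ∈ M24 := b.2.1
    have hbs := stab_cases (MulAction.mem_stabilizer_iff.1 b.2.2)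
    show Xor ((b : Equiv.Perm GolayPt) * g ∈ M24 ∧ ((b : Equiv.Perm GolayPt) * g) none = none ∧
      ((b : Equiv.Perm GolayPt) * g) (some 0) = some 0) _
    simp only [Equiv.Perm.mul_apply, h₁, h₂]
    rcases hbs with ⟨hb1, hb2⟩ | ⟨hb1, hb2⟩
    · right
      refine ⟨⟨hb24, hb1, hb2⟩, ?_⟩
      rintro ⟨_, h, _⟩
      rw [hb2] at h
      exact absurd h (by decide)
    · left
      refine ⟨⟨M24.mul_mem hb24 hg, hb2, hb1⟩, ?_⟩
      rintro ⟨_, h, _⟩
      rw [hb1] at h
      exact absurd h (by decide)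
  · intro x hx
    rw [mem_M22_iff] at hx ⊢
    refine ⟨M24.mul_mem (M24.mul_mem hg hx.1) (M24.inv_mem hg), ?_, ?_⟩
    · rw [Equiv.Perm.mul_apply, Equiv.Perm.mul_apply, hginv0, hx.2.2, h₂]
    · rw [Equiv.Perm.mul_apply, Equiv.Perm.mul_apply, hginv1, hx.2.1, h₁]
  · rintro ⟨h, hh, hconj⟩
    have hh' := (mem_M22_iff h).1 hh
    have hhinv0 : h⁻¹ none = none := by rw [Equiv.Perm.inv_eq_iff_eq, hh'.2.1]
    have hhinv1 : h⁻¹ (some 0) = some 0 := by rw [Equiv.Perm.inv_eq_iff_eq, hh'.2.2]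
    have hc24 : h⁻¹ * g ∈ M24 := M24.mul_mem (M24.inv_mem hh'.1) hg
    have hcn : (h⁻¹ * g) none = some 0 := by rw [Equiv.Perm.mul_apply, h₁, hhinv1]
    have hc0 : (h⁻¹ * g) (some 0) = none := by rw [Equiv.Perm.mul_apply, h₂, hhinv0]
    have hcomm : ∀ x ∈ Spor.M22, (h⁻¹ * g) * x = x * (h⁻¹ * g) := by
      intro x hx
      have e := hconj x hx
      calc h⁻¹ * g * x = h⁻¹ * (g * x * g⁻¹) * g := by group
        _ = h⁻¹ * (h * x * h⁻¹) * g := by rw [e]
        _ = x * (h⁻¹ * g) := by group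
    exact final (h⁻¹ * g) hc24 hcn hc0 hcomm

end Cfsg.Agent.S5599
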