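-- Statement S5601: the two classes of subgroups of order 3 of the group of the length-24 code.
import Cfsg.Statements.S5601
import Cfsg.Agent.Lib.Helper94.M24Classes

set_option autoImplicit false
open Cfsg

namespace Cfsg.Agent.S5601

open Cfsg.Agent.Lib.Helper9 Cfsg.Agent.Lib.Helper94
open scoped Pointwise

/-- The set of common fixed points of a subgroup. -/
abbrev FX (X : Subgroup ↥M24) : Set GolayPt :=
  {p : GolayPt | ∀ x ∈ X, ((x : ↥M24) : Equiv.Perm GolayPt) p = p}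

/-- Number of fixed points of a permutation. -/
abbrev nfix (x : Equiv.Perm GolayPt) : ℕ := (Finset.univ.filter fun p => x p = p).card

theorem FX_zpowers (x : ↥M24) :
    (FX (Subgroup.zpowers x)).ncard = nfix (x : Equiv.Perm GolayPt) := by
  have h : FX (Subgroup.zpowers x) =
      ((Finset.univ.filter fun p => (x : Equiv.Perm GolayPt) p = p : Finset GolayPt) :
        Set GolayPt) := by
    ext p
    simp only [Set.mem_ofPred_eq, Finset.coe_filter, Finset.mem_univ, true_and]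
    constructor
    · intro h
      exact h x (Subgroup.mem_zpowers x)
    · intro h y hy
      obtain ⟨n, rfl⟩ := Subgroup.mem_zpowers_iff.1 hy
      rw [Subgroup.coe_zpow]
      exact Equiv.Perm.zpow_apply_eq_self_of_apply_eq_self h n
  rw [h, Set.ncard_coe_finset]

theorem exists_gen (X : Subgroup ↥M24) (hX : Nat.card X = 3) :
    ∃ x : ↥M24, x ≠ 1 ∧ x ^ 3 = 1 ∧ X = Subgroup.zpowers x := by
  have hfin : Finite X := Nat.finite_of_card_ne_zero (by rw [hX]; norm_num)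
  have hne : X ≠ ⊥ := by
    intro h
    rw [h, Subgroup.card_bot] at hX
    norm_num at hX
  obtain ⟨x, hx1⟩ := (Subgroup.ne_bot_iff_exists_ne_one.1 hne)
  have hpow : (x : ↥M24) ^ 3 = 1 := by
    have h := pow_card_eq_one' (G := X) (x := x)
    rw [hX] at h
    have := congrArg Subtype.val h
    simpa using this
  have hx1' : (x : ↥M24) ≠ 1 := fun h => hx1 (Subtype.ext h)
  refine ⟨x, hx1', hpow, ?_⟩
  have hord : orderOf (x : ↥M24) = 3 := by
    have : Fact (Nat.Prime 3) := ⟨by norm_num⟩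
    exact orderOf_eq_prime hpow hx1'
  symm
  apply Subgroup.eq_of_le_of_card_ge
  · rw [Subgroup.zpowers_le]
    exact x.2
  · rw [Nat.card_zpowers, hord, hX]

theorem nfix_r6 : nfix r6 = 6 := by
  rw [nfix, card_fixed_eq r6_table]
  exact r6_facts.2.1

theorem nfix_r0 : nfix r0 = 0 := by
  rw [nfix, card_fixed_eq r0_table]
  exact r0_facts.2.1

theorem pow3_of_table {r : Equiv.Perm GolayPt} {R : List ℕ} (hr : HasTable r R)
    (h : compT R (compT R R) = idT) : r ^ 3 = 1 := by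
  have h1 := hasTable_mul hr (hasTable_mul hr hr)
  rw [h] at h1
  rw [pow_succ, pow_succ, pow_one, mul_assoc]
  exact eq_one_of_hasTable_idT h1

theorem ne_one_of_table {r : Equiv.Perm GolayPt} {R : List ℕ} (hr : HasTable r R)
    (h : R ≠ idT) : r ≠ 1 := by
  rintro rfl
  exact h (hr.unique hasTable_one)

/-- The two representatives as elements of `↥M24`. -/
noncomputable def r6' : ↥M24 := ⟨r6, r6_mem⟩
noncomputable def r0' : ↥M24 := ⟨r0, r0_mem⟩

theorem r6'_pow : r6' ^ 3 = 1 := Subtype.ext (pow3_of_table r6_table r6_facts.1)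
theorem r0'_pow : r0' ^ 3 = 1 := Subtype.ext (pow3_of_table r0_table r0_facts.1)
theorem r6'_ne : r6' ≠ 1 := fun h =>
  ne_one_of_table r6_table r6_facts.2.2 (congrArg Subtype.val h)
theorem r0'_ne : r0' ≠ 1 := fun h =>
  ne_one_of_table r0_table r0_facts.2.2 (congrArg Subtype.val h)

theorem card_zpowers_of {x : ↥M24} (hx1 : x ≠ 1) (h3 : x ^ 3 = 1) :
    Nat.card (Subgroup.zpowers x) = 3 := by
  have : Fact (Nat.Prime 3) := ⟨by norm_num⟩
  rw [Nat.card_zpowers, orderOf_eq_prime h3 hx1]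

/-- Classification of elements of order 3, in `↥M24`. -/
theorem class3' (x : ↥M24) (hx1 : x ≠ 1) (h3 : x ^ 3 = 1) :
    ∃ k : ↥M24, k * x * k⁻¹ = r6' ∨ k * x * k⁻¹ = r0' := by
  obtain ⟨k, hk, h⟩ := class3 (x : Equiv.Perm GolayPt) x.2
    (fun h => hx1 (Subtype.ext h)) (by
      have := congrArg Subtype.val h3
      simpa using this)
  refine ⟨⟨k, hk⟩, ?_⟩
  rcases h with h | h
  · left; exact Subtype.ext h
  · right; exact Subtype.ext h

theorem nfix_conj (k x : ↥M24) :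
    nfix ((k * x * k⁻¹ : ↥M24) : Equiv.Perm GolayPt) = nfix (x : Equiv.Perm GolayPt) :=
  card_fixed_conj (k : Equiv.Perm GolayPt) (x : Equiv.Perm GolayPt)

theorem conj_zpowers (k x : ↥M24) :
    MulAut.conj k • Subgroup.zpowers x = Subgroup.zpowers (k * x * k⁻¹) := by
  ext y
  rw [Subgroup.mem_smul_pointwise_iff_exists]
  constructor
  · rintro ⟨z, hz, rfl⟩
    obtain ⟨n, rfl⟩ := Subgroup.mem_zpowers_iff.1 hz
    rw [MulAut.smul_def, MulAut.conj_apply, ← conj_zpow]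
    exact Subgroup.zpow_mem_zpowers _ n
  · intro hy
    obtain ⟨n, rfl⟩ := Subgroup.mem_zpowers_iff.1 hy
    refine ⟨x ^ n, Subgroup.zpow_mem_zpowers x n, ?_⟩
    rw [MulAut.smul_def, MulAut.conj_apply, ← conj_zpow]

/-- The group of the length-24 code has exactly two conjugacy classes of subgroups of order 3: a subgroup of order 3 fixes either exactly 6 of the 24 points or none of them, both cases occur, and two subgroups of order 3 with the same number of fixed points are conjugate. -/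
theorem result : (∀ X : Subgroup ↥Cfsg.M24, Nat.card X = 3 → {p : Cfsg.GolayPt | ∀ x ∈ X, ((x : ↥Cfsg.M24) : Equiv.Perm Cfsg.GolayPt) p = p}.ncard = 6 ∨ {p : Cfsg.GolayPt | ∀ x ∈ X, ((x : ↥Cfsg.M24) : Equiv.Perm Cfsg.GolayPt) p = p}.ncard = 0) ∧ (∃ X : Subgroup ↥Cfsg.M24, Nat.card X = 3 ∧ {p : Cfsg.GolayPt | ∀ x ∈ X, ((x : ↥Cfsg.M24) : Equiv.Perm Cfsg.GolayPt) p = p}.ncard = 6) ∧ (∃ X : Subgroup ↥Cfsg.M24, Nat.card X = 3 ∧ {p : Cfsg.GolayPt | ∀ x ∈ X, ((x : ↥Cfsg.M24) : Equiv.Perm Cfsg.GolayPt) p = p}.ncard = 0) ∧ ∀ X Y : Subgroup ↥Cfsg.M24, Nat.card X = 3 → Nat.card Y = 3 → {p : Cfsg.GolayPt | ∀ x ∈ X, ((x : ↥Cfsg.M24) : Equiv.Perm Cfsg.GolayPt) p = p}.ncard = {p : Cfsg.GolayPt | ∀ x ∈ Y, ((x : ↥Cfsg.M24) : Equiv.Perm Cfsg.GolayPt) p = p}.ncard → ∃ k : ↥Cfsg.M24, MulAut.conj k • X = Y := by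
  have key : ∀ x : ↥M24, x ≠ 1 → x ^ 3 = 1 →
      ∃ k : ↥M24, (k * x * k⁻¹ = r6' ∧ nfix (x : Equiv.Perm GolayPt) = 6) ∨
        (k * x * k⁻¹ = r0' ∧ nfix (x : Equiv.Perm GolayPt) = 0) := by
    intro x hx1 h3
    obtain ⟨k, h⟩ := class3' x hx1 h3
    refine ⟨k, ?_⟩
    rcases h with h | h
    · left
      refine ⟨h, ?_⟩
      rw [← nfix_conj k x, h]
      exact nfix_r6
    · right
      refine ⟨h, ?_⟩
      rw [← nfix_conj k x, h]
      exact nfix_r0
  refine ⟨?_, ?_, ?_, ?_⟩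
  · intro X hX
    obtain ⟨x, hx1, h3, rfl⟩ := exists_gen X hX
    show (FX (Subgroup.zpowers x)).ncard = 6 ∨ (FX (Subgroup.zpowers x)).ncard = 0
    rw [FX_zpowers]
    obtain ⟨k, h | h⟩ := key x hx1 h3
    · left; exact h.2
    · right; exact h.2
  · refine ⟨Subgroup.zpowers r6', card_zpowers_of r6'_ne r6'_pow, ?_⟩
    show (FX (Subgroup.zpowers r6')).ncard = 6
    rw [FX_zpowers]
    exact nfix_r6
  · refine ⟨Subgroup.zpowers r0', card_zpowers_of r0'_ne r0'_pow, ?_⟩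
    show (FX (Subgroup.zpowers r0')).ncard = 0
    rw [FX_zpowers]
    exact nfix_r0
  · intro X Y hX hY hXY
    obtain ⟨x, hx1, hx3, rfl⟩ := exists_gen X hX
    obtain ⟨y, hy1, hy3, rfl⟩ := exists_gen Y hY
    have hXY' : (FX (Subgroup.zpowers x)).ncard = (FX (Subgroup.zpowers y)).ncard := hXY
    rw [FX_zpowers, FX_zpowers] at hXY'
    obtain ⟨k1, h1⟩ := key x hx1 hx3
    obtain ⟨k2, h2⟩ := key y hy1 hy3
    have hconj : k1 * x * k1⁻¹ = k2 * y * k2⁻¹ := by
      rcases h1 with h1 | h1 <;> rcases h2 with h2 | h2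
      · rw [h1.1, h2.1]
      · rw [h1.2, h2.2] at hXY'
        norm_num at hXY'
      · rw [h1.2, h2.2] at hXY'
        norm_num at hXY'
      · rw [h1.1, h2.1]
    refine ⟨k2⁻¹ * k1, ?_⟩
    rw [conj_zpowers]
    congr 1
    have : k2⁻¹ * k1 * x * (k2⁻¹ * k1)⁻¹ = k2⁻¹ * (k1 * x * k1⁻¹) * k2 := by group
    rw [this, hconj]
    group

end Cfsg.Agent.S5601
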