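import Cfsg.Statements.S5602
import Cfsg.Agent.Lib.Helper94.M24FixReps

set_option autoImplicit false
open scoped Pointwise
open Cfsg

namespace Cfsg.Agent.S5602

open Cfsg.Agent.Lib.Helper9 Cfsg.Agent.Lib.Helper94

theorem oct_cnt : cnt (fun m => popc m == 8 && pull R6T m == m) gB 0 = 21 := by decide +kernel

theorem trio_cnt : (trioL.filter (fixTrio R6T)).length = 15 := by decide +kernel

theorem sex_cnt : (Cfsg.Agent.Lib.Helper95.sxL.filter
    (fun L => L.contains (pull R6T (L.headD 0)))).length = 16 := by decide +kernel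

theorem dod_cnt : cnt (fun m => popc m == 12 && pull R6T m == m) gB 0 = 20 := by decide +kernel

/-- An element of order 3 of the group of the length-24 code having exactly 6 fixed points maps to themselves exactly 21 octads, exactly 15 trios, exactly 16 sextets and exactly 20 dodecads. -/
theorem result (g : Equiv.Perm Cfsg.GolayPt) (hg : g ∈ Cfsg.M24) (h₃ : orderOf g = 3) (h₆ : (Finset.univ.filter fun p => g p = p).card = 6) : {o : Finset Cfsg.GolayPt | o ∈ Cfsg.octads ∧ g • o = o}.ncard = 21 ∧ {T : Finset (Finset Cfsg.GolayPt) | T ∈ Cfsg.trios ∧ g • T = T}.ncard = 15 ∧ {S : Finset (Finset Cfsg.GolayPt) | S ∈ Cfsg.sextets ∧ g • S = S}.ncard = 16 ∧ {d : Finset Cfsg.GolayPt | d ∈ Cfsg.dodecads ∧ g • d = d}.ncard = 20 := by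
  obtain ⟨k, hk, hkg⟩ := conj_r6 hg h₃ h₆
  refine ⟨?_, ?_, ?_, ?_⟩
  · rw [fixed_octads_eq hk hkg r6_table]
    exact oct_cnt
  · rw [fixed_trios_eq hk hkg r6_mem r6_table]
    exact trio_cnt
  · rw [fixed_sextets_eq hk hkg r6_mem r6_table]
    exact sex_cnt
  · rw [fixed_dodecads_eq hk hkg r6_table]
    exact dod_cnt

end Cfsg.Agent.S5602
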