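import Cfsg.Statements.S5603
import Cfsg.Agent.Lib.Helper94.M24FixReps

set_option autoImplicit false
open scoped Pointwise
open Cfsg

namespace Cfsg.Agent.S5603

open Cfsg.Agent.Lib.Helper9 Cfsg.Agent.Lib.Helper94

theorem sex_cnt : (Cfsg.Agent.Lib.Helper95.sxL.filter
    (fun L => L.contains (pull R0T (L.headD 0)))).length = 7 := by decide +kernel

theorem trio_cnt : (trioL.filter (fixTrio R0T)).length = 15 := by decide +kernel

/-- A fixed-point-free element of order 3 of the group of the length-24 code maps to themselves exactly 7 sextets and exactly 15 trios. -/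
theorem result (g : Equiv.Perm Cfsg.GolayPt) (hg : g ∈ Cfsg.M24) (h₃ : orderOf g = 3) (h₀ : ∀ p, g p ≠ p) : {S : Finset (Finset Cfsg.GolayPt) | S ∈ Cfsg.sextets ∧ g • S = S}.ncard = 7 ∧ {T : Finset (Finset Cfsg.GolayPt) | T ∈ Cfsg.trios ∧ g • T = T}.ncard = 15 := by
  obtain ⟨k, hk, hkg⟩ := conj_r0 hg h₃ h₀
  refine ⟨?_, ?_⟩
  · rw [fixed_sextets_eq hk hkg r0_mem r0_table]
    exact sex_cnt
  · rw [fixed_trios_eq hk hkg r0_mem r0_table]
    exact trio_cnt

end Cfsg.Agent.S5603
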