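import Cfsg.Statements.S5604
import Cfsg.Agent.Lib.Helper94.M24Cosets
import Cfsg.Agent.Lib.Helper9.M24LB

set_option autoImplicit false
open scoped Pointwise
open Cfsg

namespace Cfsg.Agent.S5604

open Cfsg.Agent.Lib.Helper9 Cfsg.Agent.Lib.Helper94

/-! ### An element of order 7 -/

def w7 : List ℕ := [2, 15, 6, 12, 18, 10, 20, 17, 20, 23]

def X7 : List ℕ := [1, 2, 3, 5, 15, 14, 4, 7, 18, 11, 9, 13, 21, 19, 23, 22, 16, 17, 20, 12, 6, 10, 8, 0]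

theorem X7_tab : prodT sgsTabs w7 = X7 := by decide +kernel

/-- The representative of order 7. -/
noncomputable def x7 : Equiv.Perm GolayPt := prodW sgsEnv w7

theorem x7_mem : x7 ∈ M24 := (good_sgs_M24.prod w7).1

theorem x7_table : HasTable x7 X7 := by
  have h := (good_sgs_M24.prod w7).2
  rwa [X7_tab] at h

/-- The tables of the seven powers of `x7`. -/
def pw7 : List (List ℕ) := [[0, 1, 2, 3, 4, 5, 6, 7, 8, 9, 10, 11, 12, 13, 14, 15, 16, 17, 18, 19, 20, 21, 22, 23],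
   [1, 2, 3, 5, 15, 14, 4, 7, 18, 11, 9, 13, 21, 19, 23, 22, 16, 17, 20, 12, 6, 10, 8, 0],
   [2, 3, 5, 14, 22, 23, 15, 7, 20, 13, 11, 19, 10, 12, 0, 8, 16, 17, 6, 21, 4, 9, 18, 1],
   [3, 5, 14, 23, 8, 0, 22, 7, 6, 19, 13, 12, 9, 21, 1, 18, 16, 17, 4, 10, 15, 11, 20, 2],
   [5, 14, 23, 0, 18, 1, 8, 7, 4, 12, 19, 21, 11, 10, 2, 20, 16, 17, 15, 9, 22, 13, 6, 3],
   [14, 23, 0, 1, 20, 2, 18, 7, 15, 21, 12, 10, 13, 9, 3, 6, 16, 17, 22, 11, 8, 19, 4, 5],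
   [23, 0, 1, 2, 6, 3, 20, 7, 22, 10, 21, 9, 19, 11, 5, 4, 16, 17, 8, 13, 18, 12, 15, 14]]

theorem pw7_eq : (List.range 7).map (powT X7) = pw7 := by decide +kernel

theorem X7_pow7 : powT X7 7 = idT := by decide +kernel

theorem x7_pow7 : x7 ^ 7 = 1 := by
  have h := hasTable_pow x7_table 7
  rw [X7_pow7] at h
  exact eq_one_of_hasTable_idT h

theorem mem_zpowers_x7 {y : Equiv.Perm GolayPt} (hy : y ∈ Subgroup.zpowers x7) :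
    ∃ Q ∈ pw7, HasTable y Q := by
  obtain ⟨k, rfl⟩ := Subgroup.mem_zpowers_iff.1 hy
  rw [zpow_eq_zpow_emod' k x7_pow7]
  have h0 : 0 ≤ k % ((7 : ℕ) : ℤ) := Int.emod_nonneg k (by norm_num)
  have h7 : k % ((7 : ℕ) : ℤ) < 7 := Int.emod_lt_of_pos k (by norm_num)
  obtain ⟨i, hi⟩ := Int.eq_ofNat_of_zero_le h0
  rw [hi, zpow_natCast]
  have hi7 : i < 7 := by omega
  refine ⟨powT X7 i, ?_, hasTable_pow x7_table i⟩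
  rw [← pw7_eq]
  exact List.mem_map_of_mem (List.mem_range.2 hi7)

theorem pw7_table {Q : List ℕ} (hQ : Q ∈ pw7) : ∃ y ∈ Subgroup.zpowers x7, HasTable y Q := by
  rw [← pw7_eq, List.mem_map] at hQ
  obtain ⟨i, _, rfl⟩ := hQ
  exact ⟨x7 ^ i, Subgroup.pow_mem _ (Subgroup.mem_zpowers x7) i, hasTable_pow x7_table i⟩

/-! ### Normaliser and centraliser of `x7` as table-decidable subgroups -/

/-- The normaliser of `⟨x7⟩` in `M24`. -/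
def N0 : Subgroup (Equiv.Perm GolayPt) :=
  M24 ⊓ Subgroup.normalizer (Subgroup.zpowers x7 : Set (Equiv.Perm GolayPt))

/-- The centraliser of `⟨x7⟩` in `M24`. -/
def C0 : Subgroup (Equiv.Perm GolayPt) :=
  M24 ⊓ Subgroup.centralizer (Subgroup.zpowers x7 : Set (Equiv.Perm GolayPt))

def PN (T : List ℕ) : Bool :=
  pw7.any (fun Q => Q.getD (T.getD 23 0) 0 == T.getD 0 0 && compT T X7 == compT Q T)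

def PC (T : List ℕ) : Bool := compT T X7 == compT X7 T

theorem mem_N0 {σ : Equiv.Perm GolayPt} :
    σ ∈ N0 ↔ σ ∈ M24 ∧ ∃ y ∈ Subgroup.zpowers x7, σ * x7 = y * σ := by
  rw [N0, Subgroup.mem_inf, mem_normalizer_zpowers]
  constructor
  · rintro ⟨h1, h2⟩
    exact ⟨h1, _, h2, by group⟩
  · rintro ⟨h1, y, hy, h⟩
    refine ⟨h1, ?_⟩
    have e : σ * x7 * σ⁻¹ = y := by rw [h]; group
    rw [e]
    exact hy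

theorem mem_C0 {σ : Equiv.Perm GolayPt} : σ ∈ C0 ↔ σ ∈ M24 ∧ σ * x7 = x7 * σ := by
  rw [C0, Subgroup.mem_inf, mem_centralizer_zpowers]

theorem first_test {σ z : Equiv.Perm GolayPt} {T Q : List ℕ} (hT : HasTable σ T)
    (hQ : HasTable z Q) (h : σ * x7 = z * σ) : Q.getD (T.getD 23 0) 0 = T.getD 0 0 := by
  have e1 : σ (x7 (pt 23)) = z (σ (pt 23)) := by
    rw [← Equiv.Perm.mul_apply, h, Equiv.Perm.mul_apply]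
  have e2 : X7.getD 23 0 = 0 := by decide +kernel
  rw [x7_table.apply_pt (by norm_num), e2, hT.apply_pt (by norm_num), hT.apply_pt (by norm_num),
    hQ.apply_pt (hT.getD_lt 23)] at e1
  have e3 := congrArg idx e1
  rw [idx_pt (hT.getD_lt 0), idx_pt (hQ.getD_lt _)] at e3
  exact e3.symm

theorem tdecN : TDec N0 PN := by
  refine ⟨inf_le_left, fun σ hσ T hT => ?_⟩
  rw [mem_N0, PN, List.any_eq_true]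
  constructor
  · rintro ⟨_, y, hy, h⟩
    obtain ⟨Q, hQ, hyQ⟩ := mem_zpowers_x7 hy
    refine ⟨Q, hQ, ?_⟩
    rw [Bool.and_eq_true, beq_iff_eq, beq_iff_eq]
    refine ⟨first_test hT hyQ h, ?_⟩
    have h1 := hasTable_mul hT x7_table
    have h2 := hasTable_mul hyQ hT
    rw [h] at h1
    exact h1.unique h2
  · rintro ⟨Q, hQ, hc⟩
    rw [Bool.and_eq_true, beq_iff_eq, beq_iff_eq] at hc
    obtain ⟨y, hy, hyQ⟩ := pw7_table hQ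
    refine ⟨hσ, y, hy, ?_⟩
    have h1 := hasTable_mul hT x7_table
    have h2 := hasTable_mul hyQ hT
    rw [hc.2] at h1
    exact h1.eq_of_eq h2

theorem tdecC : TDec C0 PC := by
  refine ⟨inf_le_left, fun σ hσ T hT => ?_⟩
  rw [mem_C0, PC, beq_iff_eq]
  have h1 := hasTable_mul hT x7_table
  have h2 := hasTable_mul x7_table hT
  constructor
  · rintro ⟨_, h⟩
    rw [h] at h1
    exact h1.unique h2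
  · intro h
    refine ⟨hσ, ?_⟩
    rw [h] at h1
    exact h1.eq_of_eq h2

/-! ### Covering by cosets -/

/-- Every admissible image of `23, 0, 1, 2, 3` is realised by a listed table. -/
def coverOK (qs us : List (List ℕ)) : Bool :=
  qs.all (fun Q => (List.range 24).all (fun j => Q.getD j 0 == j || us.any (fun U =>
    U.getD 23 0 == j && U.getD 0 0 == Q.getD j 0 && U.getD 1 0 == Q.getD (Q.getD j 0) 0 &&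
    U.getD 2 0 == Q.getD (Q.getD (Q.getD j 0) 0) 0 &&
    U.getD 3 0 == Q.getD (Q.getD (Q.getD (Q.getD j 0) 0) 0) 0)))

theorem cover_of {qs us : List (List ℕ)} (hcov : coverOK qs us = true)
    {σ z : Equiv.Perm GolayPt} {Q : List ℕ} (hQ : Q ∈ qs) (hzQ : HasTable z Q)
    (h : σ * x7 = z * σ) :
    ∃ U ∈ us, ∀ i ∈ ([3, 2, 1, 0, 23] : List ℕ), σ (pt i) = pt (U.getD i 0) := by
  have hT := hasTable_tableOf σ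
  have hj : (tableOf σ).getD 23 0 < 24 := hT.getD_lt 23
  have step : ∀ a b : ℕ, a < 24 → X7.getD a 0 = b → ∀ v, v < 24 → σ (pt a) = pt v →
      σ (pt b) = pt (Q.getD v 0) := by
    intro a b ha hab v hv hσa
    have e1 : σ (x7 (pt a)) = z (σ (pt a)) := by
      rw [← Equiv.Perm.mul_apply, h, Equiv.Perm.mul_apply]
    rw [x7_table.apply_pt ha, hab, hσa, hzQ.apply_pt hv] at e1
    exact e1
  have s23 : σ (pt 23) = pt ((tableOf σ).getD 23 0) := hT.apply_pt (by norm_num)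
  have s0 := step 23 0 (by norm_num) (by decide +kernel) _ hj s23
  have s1 := step 0 1 (by norm_num) (by decide +kernel) _ (hzQ.getD_lt _) s0
  have s2 := step 1 2 (by norm_num) (by decide +kernel) _ (hzQ.getD_lt _) s1
  have s3 := step 2 3 (by norm_num) (by decide +kernel) _ (hzQ.getD_lt _) s2
  have hc := List.all_eq_true.mp (List.all_eq_true.mp hcov Q hQ) ((tableOf σ).getD 23 0)
    (List.mem_range.2 hj)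
  rw [Bool.or_eq_true, beq_iff_eq] at hc
  rcases hc with hc | hc
  · exfalso
    rw [hc] at s0
    have e := σ.injective (s0.trans s23.symm)
    have e2 := congrArg idx e
    rw [idx_pt (by norm_num), idx_pt (by norm_num)] at e2
    norm_num at e2
  · rw [List.any_eq_true] at hc
    obtain ⟨U, hU, hUc⟩ := hc
    simp only [Bool.and_eq_true, beq_iff_eq] at hUc
    obtain ⟨⟨⟨⟨u23, u0⟩, u1⟩, u2⟩, u3⟩ := hUc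
    refine ⟨U, hU, ?_⟩
    intro i hi
    simp only [List.mem_cons, List.not_mem_nil, or_false] at hi
    rcases hi with rfl | rfl | rfl | rfl | rfl
    · rw [u3]; exact s3
    · rw [u2]; exact s2
    · rw [u1]; exact s1
    · rw [u0]; exact s0
    · rw [u23]; exact s23

/-! ### The normaliser -/

def wsN : List (List ℕ) := [[2, 15, 6, 12, 18, 10, 20, 17, 20],
   [0, 2, 15, 6, 12, 18, 18, 10, 10, 16],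
   [0, 0, 2, 15, 6, 9, 10, 10, 16, 20, 16],
   [0, 0, 0, 2, 6, 8, 8, 11, 21, 17, 20, 16],
   [5, 0, 0, 2, 14, 6, 14, 6, 9, 13, 8, 11, 11, 17, 21],
   [1, 5, 0, 2, 7, 14, 9, 9, 13, 8, 19, 19, 21, 16],
   [5, 0, 2, 15, 6, 9, 9, 18, 10, 18, 10, 20, 20, 16],
   [0, 0, 5, 0, 2, 7, 15, 6, 8, 13, 8, 19, 19, 17, 20, 16],
   [2, 1, 5, 0, 2, 6, 12, 8, 11, 11, 16, 21],
   [1, 2, 0, 0, 2, 7, 14, 13, 11, 11, 21],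
   [2, 0, 0, 2, 14, 6, 9, 9, 13, 8, 11, 19, 19, 21],
   [2, 1, 1, 2, 7, 14, 9, 10, 10, 16, 21],
   [1, 4, 1, 2, 6, 14, 6, 8, 8, 8, 11, 21, 17, 20, 16],
   [4, 1, 2, 9, 9, 13, 8, 11, 19, 19, 16, 21],
   [0, 4, 1, 2, 6, 15, 9, 12, 10, 19, 19, 20, 17, 20],
   [4, 0, 2, 7, 9, 12, 8, 11, 16, 20],
   [5, 1, 2, 14, 9, 13, 8, 19, 19, 10, 21, 16],
   [1, 1, 1, 2, 14, 12, 9, 11, 11, 17, 21, 16],
   [1, 1, 2, 7, 15, 6, 8, 8, 8, 10, 19, 19, 17],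
   [1, 2, 14, 12, 12, 8, 18, 11, 20, 17, 20, 16],
   [],
   [2, 6, 12, 18, 10, 18, 10, 20],
   [0, 2, 6, 13, 9, 19, 19, 16, 21],
   [0, 0, 2, 7, 14, 14, 13, 9, 11, 11, 21],
   [0, 0, 0, 2, 7, 14, 7, 8, 8, 19, 11, 11, 20, 17, 20, 16],
   [5, 0, 0, 2, 7, 15, 6, 9, 12, 8, 11, 11, 16, 20, 16],
   [1, 5, 0, 2, 8, 19, 19, 10, 17],
   [5, 0, 2, 7, 14, 19, 21],
   [0, 0, 5, 0, 2, 7, 14, 14, 8, 8, 18, 11, 21, 16],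
   [2, 1, 5, 0, 2, 15, 15, 6, 13, 9, 9, 11, 18, 10, 16, 20, 16],
   [1, 2, 0, 0, 2, 15, 7, 14, 9, 12, 8, 10, 10, 21, 17, 20, 16],
   [2, 0, 0, 2, 14, 7, 8, 8, 8, 10, 19, 19, 16],
   [2, 1, 1, 2, 14, 14, 8, 11, 19, 19, 16, 20, 16],
   [1, 4, 1, 2, 15, 15, 15, 13, 9, 11, 16],
   [4, 1, 2, 15, 6, 9, 9, 13, 8, 18, 10, 21, 17, 20],
   [0, 4, 1, 2, 7, 14, 7, 12, 8, 19, 19, 10, 16, 20],
   [4, 0, 2, 15, 6, 9, 9, 11, 18, 10],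
   [5, 1, 2, 15, 15, 13, 10, 19, 19, 17],
   [1, 1, 1, 2, 6, 14, 7, 8, 8, 21, 16],
   [1, 1, 2, 7, 14, 7, 13, 9, 9, 11, 21, 17, 20],
   [1, 2, 15, 7, 14, 11, 21, 17, 20],
   [6, 14, 6, 8, 11, 19, 19, 16, 20],
   [2, 7, 14, 14, 13, 9, 18, 10, 20, 16],
   [0, 2, 14, 7, 8, 12, 18, 11, 21, 17, 20],
   [0, 0, 2, 7, 15, 6, 8, 12, 9, 18, 18, 10, 10, 17, 20, 16],
   [0, 0, 0, 2, 21, 16],
   [5, 0, 0, 2, 7, 14, 9, 13, 8, 11, 17, 20],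
   [1, 5, 0, 2, 15, 15, 15, 9, 12, 8, 19, 19, 20, 16],
   [5, 0, 2, 14, 6, 14, 6, 12, 19, 10, 16, 20],
   [0, 0, 5, 0, 2, 15, 6, 13, 19, 19, 16, 21],
   [2, 1, 5, 0, 2, 14, 7, 8, 8, 8, 11, 11, 20],
   [1, 2, 0, 0, 2, 7, 7, 15, 6, 9, 11, 19, 19, 16, 20],
   [2, 0, 0, 2, 15, 7, 14, 12, 8, 10, 10, 16, 21, 16],
   [2, 1, 1, 2, 6, 14, 7, 9, 12, 8, 19, 19],
   [1, 4, 1, 2, 7, 9, 18, 10, 21, 17, 20, 16],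
   [4, 1, 2, 6, 14, 7, 9, 12, 8, 10, 19, 19, 20],
   [0, 4, 1, 2, 15, 15, 6, 12, 12, 8, 18, 10, 17, 21],
   [4, 0, 2, 15, 15, 15, 8, 13, 8, 18, 10, 18, 10, 21, 17, 20],
   [5, 1, 2, 15, 9, 18, 16, 21, 16],
   [1, 1, 1, 2, 14, 14, 13, 11, 11, 17, 20, 16],
   [1, 1, 2, 14, 6, 14, 6, 9, 12, 19, 11, 17, 20],
   [1, 2, 15, 15, 9, 13, 8, 19, 11, 11, 16, 20, 16],
   [7, 14, 7, 9, 13, 8, 10, 18, 10, 17, 21],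
   [2, 14, 6, 12, 8, 10, 10, 17, 21],
   [0, 2, 14, 6, 14, 6, 8, 18, 10, 10, 20, 16],
   [0, 0, 2, 9, 9, 13, 8, 19, 11, 16, 21, 16],
   [0, 0, 0, 2, 7, 9, 9, 10, 16, 20],
   [5, 0, 0, 2, 6, 13, 9, 20, 17, 20, 16],
   [1, 5, 0, 2, 14, 6, 12, 12, 8, 18, 10, 18, 10, 16, 21],
   [5, 0, 2, 15, 15, 6, 12, 10, 16, 21, 16],
   [0, 0, 5, 0, 2, 14, 6, 13, 11, 17, 20, 16],
   [2, 1, 5, 0, 2, 14, 6, 14, 6, 13, 17, 20],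
   [1, 2, 0, 0, 2, 6, 15, 12, 9, 18, 18, 10, 10, 21],
   [2, 0, 0, 2, 14, 14, 7, 9, 12, 8, 10, 16, 20, 16],
   [2, 1, 1, 2, 14, 7, 9, 13, 8, 10, 21],
   [1, 4, 1, 2, 14, 14, 8, 8, 10, 16, 20, 16],
   [4, 1, 2, 14, 6, 8, 12, 9, 18, 10, 10, 16],
   [0, 4, 1, 2, 7, 15, 6, 8, 11, 11],
   [4, 0, 2, 7, 14, 9, 9, 11, 11, 16, 20],
   [5, 1, 2, 14, 6, 14, 6, 12, 18, 10, 18, 10, 17, 21],
   [1, 1, 1, 2, 6, 12, 12, 9, 11, 11, 16, 21, 16],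
   [1, 1, 2, 15, 15, 6, 12, 8, 19, 11, 21, 17, 20, 16],
   [1, 2, 6, 14, 7, 9, 13, 8, 10, 21, 17, 20, 16],
   [15, 15, 6, 13, 10, 10, 20, 17, 20],
   [2, 7, 14, 12, 19, 11, 21, 16],
   [0, 2, 8, 12, 10, 10, 21, 17, 20],
   [0, 0, 2, 15, 15, 13, 9, 19, 19, 17],
   [0, 0, 0, 2, 15, 15, 13, 8, 18, 11, 17, 20],
   [5, 0, 0, 2, 15, 8, 8, 19, 11, 11, 17],
   [1, 5, 0, 2, 6, 9, 18, 10, 18, 10, 20, 17, 20],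
   [5, 0, 2, 7, 14, 14, 12, 9, 17, 20, 16],
   [0, 0, 5, 0, 2, 15, 8, 12, 9, 10, 19, 19, 20],
   [2, 1, 5, 0, 2, 15, 12, 12, 8, 19, 10, 20, 17, 20, 16],
   [1, 2, 0, 0, 2, 14, 6, 13, 9, 18, 18, 10, 10, 20, 17, 20, 16],
   [2, 0, 0, 2, 7, 14, 13, 10, 21, 17, 20, 16],
   [2, 1, 1, 2, 14, 12, 9, 18, 11, 20],
   [1, 4, 1, 2, 15, 15, 12, 12, 8, 18, 18, 10, 10, 16],
   [4, 1, 2, 14, 7, 9, 9, 13, 8, 19, 10, 20],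
   [0, 4, 1, 2, 15, 9, 9, 13, 8, 18, 10, 18, 10, 21, 17, 20, 16],
   [4, 0, 2, 14, 14, 8, 13, 8, 18, 10, 17, 21],
   [5, 1, 2, 7, 8, 8, 18, 20, 17, 20, 16],
   [1, 1, 1, 2, 7, 14, 7, 9, 13, 8, 18, 10, 10, 16, 20],
   [1, 1, 2, 15, 15, 13, 18, 21, 17, 20],
   [1, 2, 14, 6, 9, 18, 10, 10, 20, 20, 16],
   [14, 8, 8, 11, 18, 10, 20, 16],
   [2, 12, 12, 9, 18, 18, 10, 10, 17, 21],
   [0, 2, 6, 14, 6, 12, 18, 11],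
   [0, 0, 2, 6, 14, 6, 8, 8, 19, 16],
   [0, 0, 0, 2, 6, 14, 6, 8, 8, 10, 19, 19, 17, 21, 16],
   [5, 0, 0, 2, 6, 14, 6, 12, 9, 20],
   [1, 5, 0, 2, 15, 6, 12, 11, 19, 19, 17, 21, 16],
   [5, 0, 2, 14, 8, 13, 8, 19, 17, 21, 16],
   [0, 0, 5, 0, 2, 14, 13, 9, 9, 11, 16],
   [2, 1, 5, 0, 2, 14, 14, 7, 8, 13, 8, 11, 11, 21, 17, 20, 16],
   [1, 2, 0, 0, 2, 6, 14, 6, 9, 12, 8, 19, 11, 11],
   [2, 0, 0, 2, 7, 14, 14, 9, 9, 18, 10, 10, 20, 20, 16],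
   [2, 1, 1, 2, 15, 13, 8, 19, 10, 17],
   [1, 4, 1, 2, 14, 14, 7, 13, 8, 19, 19, 16, 21, 16],
   [4, 1, 2, 15, 12, 12, 8, 11, 19, 19, 17, 21],
   [0, 4, 1, 2, 14, 7, 13, 10, 19, 19],
   [4, 0, 2, 7, 14, 7, 9, 13, 8, 10, 16, 21, 16],
   [5, 1, 2, 14, 14, 7, 9, 9, 18, 10, 10, 20, 20, 16],
   [1, 1, 1, 2, 15, 15, 12, 8, 19, 11, 17, 21, 16],
   [1, 1, 2, 7, 14, 8, 13, 8, 18, 10, 10, 17, 21, 16],
   [1, 2, 7, 7, 15, 6, 8, 12, 9, 18, 20, 17, 20, 16],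
   [14, 14, 9, 9, 17, 20]]

def usN : List (List ℕ) := [[1, 2, 3, 5, 20, 23, 4, 10, 9, 8, 19, 11, 6, 18, 17, 15, 21, 14, 22, 7, 16, 12, 13, 0],
   [2, 3, 5, 14, 4, 17, 7, 9, 16, 10, 6, 22, 12, 13, 23, 20, 8, 0, 18, 21, 19, 15, 11, 1],
   [3, 5, 14, 23, 22, 17, 18, 19, 9, 16, 20, 6, 12, 11, 0, 8, 7, 1, 4, 13, 21, 15, 10, 2],
   [5, 14, 23, 0, 11, 17, 10, 18, 8, 22, 19, 13, 7, 4, 1, 12, 21, 2, 9, 6, 20, 16, 15, 3],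
   [15, 22, 8, 18, 1, 20, 3, 23, 14, 11, 10, 21, 16, 12, 6, 17, 9, 7, 0, 13, 5, 19, 2, 4],
   [14, 23, 0, 1, 20, 17, 22, 13, 21, 19, 7, 8, 12, 16, 2, 18, 4, 3, 6, 10, 11, 15, 9, 5],
   [4, 15, 22, 8, 9, 18, 16, 12, 13, 0, 1, 14, 2, 17, 20, 19, 3, 7, 11, 23, 10, 5, 21, 6],
   [18, 20, 6, 4, 12, 7, 21, 23, 5, 1, 11, 19, 14, 0, 15, 16, 13, 22, 9, 2, 3, 10, 17, 8],
   [11, 13, 19, 12, 2, 16, 23, 15, 18, 22, 17, 0, 8, 7, 21, 1, 5, 10, 3, 20, 4, 14, 6, 9],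
   [9, 11, 13, 19, 14, 21, 0, 15, 22, 3, 20, 8, 23, 5, 16, 1, 4, 12, 2, 17, 7, 6, 18, 10],
   [13, 19, 12, 21, 23, 9, 17, 15, 20, 3, 7, 18, 5, 0, 16, 14, 6, 10, 1, 2, 4, 8, 22, 11],
   [21, 10, 9, 11, 14, 13, 23, 1, 5, 20, 22, 4, 15, 18, 19, 3, 6, 16, 0, 8, 2, 7, 17, 12],
   [19, 12, 21, 10, 3, 11, 1, 4, 7, 2, 6, 15, 23, 17, 16, 14, 22, 9, 5, 0, 20, 8, 18, 13],
   [23, 0, 1, 2, 10, 17, 13, 20, 6, 22, 9, 16, 15, 18, 3, 19, 21, 5, 11, 7, 8, 12, 4, 14],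
   [22, 8, 18, 20, 23, 6, 14, 17, 2, 12, 19, 21, 11, 10, 4, 0, 16, 7, 3, 9, 5, 13, 1, 15],
   [20, 6, 4, 15, 5, 22, 17, 1, 23, 10, 9, 12, 11, 16, 8, 0, 13, 7, 14, 21, 3, 19, 2, 18],
   [12, 21, 10, 9, 2, 16, 14, 22, 8, 6, 3, 17, 20, 15, 11, 23, 1, 13, 5, 7, 4, 0, 18, 19],
   [6, 4, 15, 22, 13, 7, 16, 14, 17, 5, 11, 12, 2, 0, 8, 9, 21, 18, 10, 3, 1, 19, 23, 20],
   [10, 9, 11, 13, 4, 19, 7, 18, 22, 3, 5, 1, 14, 17, 12, 8, 23, 16, 15, 2, 6, 0, 20, 21],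
   [8, 18, 20, 6, 16, 7, 10, 3, 14, 23, 11, 21, 1, 0, 4, 19, 9, 15, 12, 5, 17, 13, 2, 22],
   [0, 1, 2, 3, 4, 5, 6, 7, 8, 9, 10, 11, 12, 13, 14, 15, 16, 17, 18, 19, 20, 21, 22, 23],
   [2, 5, 23, 1, 20, 3, 6, 4, 15, 9, 12, 16, 21, 13, 14, 22, 19, 17, 18, 11, 7, 10, 8, 0],
   [3, 14, 0, 2, 19, 23, 11, 7, 15, 16, 20, 4, 9, 12, 17, 10, 6, 5, 13, 21, 22, 8, 18, 1],
   [5, 23, 1, 3, 21, 14, 11, 19, 9, 7, 18, 6, 8, 20, 0, 10, 4, 17, 16, 22, 13, 15, 12, 2],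
   [14, 0, 2, 5, 4, 23, 20, 7, 6, 12, 13, 10, 21, 11, 1, 22, 16, 17, 15, 19, 8, 9, 18, 3],
   [22, 18, 6, 15, 16, 7, 21, 0, 5, 23, 13, 19, 3, 1, 8, 10, 9, 20, 11, 2, 17, 12, 14, 4],
   [23, 1, 3, 14, 4, 17, 20, 16, 11, 21, 8, 6, 12, 10, 0, 18, 22, 2, 7, 13, 19, 15, 9, 5],
   [15, 8, 20, 4, 2, 22, 1, 23, 17, 10, 16, 21, 11, 13, 18, 0, 9, 7, 14, 19, 5, 12, 3, 6],
   [20, 4, 22, 18, 1, 6, 17, 2, 14, 12, 10, 9, 11, 16, 15, 0, 19, 7, 3, 13, 23, 21, 5, 8],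
   [13, 12, 10, 11, 22, 19, 6, 20, 8, 2, 14, 3, 17, 1, 21, 7, 0, 16, 4, 5, 15, 23, 18, 9],
   [11, 19, 21, 9, 6, 12, 20, 14, 5, 8, 0, 1, 4, 22, 16, 15, 17, 13, 7, 18, 23, 3, 2, 10],
   [19, 21, 9, 13, 4, 10, 15, 5, 1, 22, 3, 2, 20, 6, 16, 7, 14, 12, 8, 18, 23, 17, 0, 11],
   [10, 11, 19, 21, 4, 9, 20, 7, 6, 3, 1, 14, 5, 0, 13, 22, 17, 16, 15, 2, 8, 23, 18, 12],
   [12, 10, 11, 19, 6, 16, 20, 14, 0, 23, 15, 7, 5, 3, 21, 4, 18, 9, 8, 17, 1, 22, 2, 13],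
   [0, 2, 5, 23, 7, 17, 20, 12, 11, 19, 22, 8, 9, 21, 1, 6, 4, 3, 15, 10, 16, 18, 13, 14],
   [8, 20, 4, 22, 11, 18, 19, 9, 10, 5, 14, 1, 3, 2, 6, 12, 23, 7, 21, 0, 13, 17, 16, 15],
   [6, 15, 8, 20, 19, 22, 13, 23, 14, 9, 1, 2, 12, 10, 7, 21, 17, 4, 16, 11, 0, 5, 3, 18],
   [21, 9, 13, 12, 4, 11, 18, 14, 0, 8, 23, 2, 22, 20, 16, 6, 3, 10, 15, 7, 17, 1, 5, 19],
   [4, 22, 18, 6, 5, 8, 0, 19, 16, 2, 11, 21, 3, 17, 7, 1, 9, 15, 23, 14, 10, 13, 12, 20],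
   [9, 13, 12, 10, 3, 16, 5, 8, 22, 20, 17, 23, 4, 7, 11, 1, 0, 19, 14, 18, 15, 2, 6, 21],
   [18, 6, 15, 8, 0, 20, 17, 1, 5, 19, 21, 10, 9, 16, 4, 23, 13, 7, 2, 11, 14, 12, 3, 22],
   [1, 3, 14, 0, 4, 5, 6, 9, 10, 18, 13, 19, 15, 8, 17, 22, 16, 2, 7, 20, 11, 21, 12, 23],
   [3, 23, 2, 14, 6, 1, 9, 8, 10, 15, 11, 22, 19, 12, 17, 13, 20, 5, 18, 4, 7, 21, 16, 0],
   [5, 0, 3, 23, 7, 14, 18, 10, 6, 12, 20, 4, 21, 22, 2, 9, 19, 17, 16, 15, 8, 11, 13, 1],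
   [14, 1, 5, 0, 20, 23, 7, 19, 18, 10, 15, 6, 21, 22, 3, 16, 13, 17, 11, 8, 4, 12, 9, 2],
   [23, 2, 14, 1, 12, 5, 20, 10, 8, 16, 22, 19, 6, 7, 17, 15, 21, 0, 11, 13, 9, 4, 18, 3],
   [8, 6, 22, 20, 13, 7, 1, 23, 2, 17, 14, 10, 16, 0, 18, 12, 5, 15, 3, 11, 19, 21, 9, 4],
   [0, 3, 23, 2, 7, 14, 19, 15, 12, 22, 11, 18, 13, 21, 17, 16, 20, 1, 4, 6, 8, 9, 10, 5],
   [22, 20, 15, 18, 5, 8, 3, 11, 2, 9, 14, 1, 16, 17, 4, 12, 13, 7, 21, 23, 0, 10, 19, 6],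
   [6, 22, 20, 15, 0, 4, 1, 9, 5, 16, 14, 2, 12, 3, 18, 13, 19, 7, 11, 17, 23, 10, 21, 8],
   [19, 10, 13, 21, 2, 16, 4, 7, 22, 15, 8, 14, 3, 18, 12, 1, 20, 11, 6, 23, 5, 0, 17, 9],
   [13, 21, 11, 12, 15, 16, 3, 0, 1, 23, 14, 8, 18, 5, 19, 7, 2, 9, 17, 22, 6, 4, 20, 10],
   [12, 9, 19, 10, 4, 13, 3, 20, 0, 18, 14, 7, 1, 23, 16, 2, 8, 21, 15, 6, 22, 17, 5, 11],
   [9, 19, 10, 13, 1, 11, 17, 15, 0, 18, 5, 2, 8, 14, 21, 7, 4, 16, 6, 23, 3, 22, 20, 12],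
   [21, 11, 12, 9, 3, 19, 22, 1, 6, 0, 18, 17, 4, 20, 16, 15, 23, 10, 5, 2, 14, 7, 8, 13],
   [1, 5, 0, 3, 6, 2, 20, 21, 18, 12, 4, 8, 16, 7, 23, 11, 10, 17, 13, 15, 22, 19, 9, 14],
   [18, 4, 8, 6, 19, 20, 21, 23, 10, 3, 16, 13, 0, 11, 22, 5, 1, 7, 2, 12, 9, 17, 14, 15],
   [4, 8, 6, 22, 2, 15, 1, 10, 0, 21, 3, 23, 16, 17, 20, 13, 9, 7, 19, 5, 14, 12, 11, 18],
   [10, 13, 21, 11, 8, 12, 5, 18, 23, 15, 17, 20, 1, 3, 16, 14, 7, 9, 22, 6, 4, 0, 2, 19],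
   [15, 18, 4, 8, 14, 22, 17, 11, 5, 12, 1, 23, 19, 2, 6, 16, 9, 7, 10, 3, 0, 13, 21, 20],
   [11, 12, 9, 19, 22, 13, 6, 2, 7, 3, 18, 20, 14, 8, 10, 1, 0, 16, 5, 15, 4, 23, 17, 21],
   [20, 15, 18, 4, 13, 6, 21, 17, 19, 14, 11, 9, 3, 12, 8, 5, 23, 7, 1, 10, 16, 0, 2, 22],
   [2, 14, 1, 5, 10, 3, 11, 4, 13, 18, 16, 21, 15, 12, 0, 20, 22, 17, 8, 9, 19, 7, 6, 23],
   [5, 1, 14, 2, 15, 23, 22, 4, 8, 9, 10, 13, 16, 21, 3, 7, 19, 17, 18, 12, 6, 11, 20, 0],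
   [14, 2, 23, 3, 4, 17, 15, 13, 12, 16, 20, 22, 10, 11, 0, 18, 7, 5, 6, 21, 19, 8, 9, 1],
   [23, 3, 0, 5, 11, 14, 21, 8, 6, 10, 22, 20, 16, 13, 17, 19, 15, 1, 12, 9, 18, 4, 7, 2],
   [0, 5, 1, 14, 12, 2, 10, 11, 19, 6, 4, 7, 22, 8, 23, 21, 20, 17, 13, 15, 16, 18, 9, 3],
   [18, 15, 20, 22, 3, 8, 2, 9, 16, 23, 19, 12, 1, 17, 7, 5, 11, 6, 0, 14, 10, 21, 13, 4],
   [1, 14, 2, 23, 19, 0, 9, 20, 15, 11, 18, 4, 16, 12, 17, 21, 8, 3, 10, 13, 6, 22, 7, 5],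
   [8, 4, 18, 15, 19, 7, 12, 1, 3, 17, 11, 21, 14, 0, 20, 9, 16, 22, 13, 5, 2, 10, 23, 6],
   [4, 18, 15, 20, 23, 7, 0, 10, 11, 16, 5, 1, 19, 21, 22, 3, 17, 6, 14, 13, 9, 2, 12, 8],
   [12, 11, 21, 13, 2, 10, 3, 1, 5, 8, 22, 20, 7, 15, 19, 17, 6, 16, 14, 4, 0, 18, 23, 9],
   [19, 9, 12, 11, 23, 16, 0, 8, 20, 7, 5, 1, 4, 22, 21, 3, 17, 13, 14, 6, 18, 2, 15, 10],
   [21, 13, 10, 19, 8, 12, 4, 3, 23, 15, 2, 14, 7, 18, 16, 20, 1, 9, 6, 22, 5, 0, 17, 11],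
   [11, 21, 13, 10, 20, 16, 7, 2, 17, 14, 15, 6, 5, 3, 19, 18, 8, 9, 4, 1, 0, 22, 23, 12],
   [10, 19, 9, 12, 22, 16, 20, 17, 0, 1, 15, 4, 23, 3, 11, 8, 6, 21, 7, 2, 5, 18, 14, 13],
   [2, 23, 3, 0, 8, 17, 15, 9, 12, 13, 4, 7, 21, 19, 5, 20, 6, 1, 18, 16, 10, 22, 11, 14],
   [20, 22, 6, 8, 19, 7, 9, 0, 23, 1, 21, 10, 3, 5, 4, 16, 13, 18, 11, 14, 2, 12, 17, 15],
   [15, 20, 22, 6, 14, 8, 17, 0, 23, 19, 9, 13, 12, 16, 4, 3, 11, 7, 2, 10, 1, 21, 5, 18],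
   [9, 12, 11, 21, 2, 16, 0, 15, 20, 8, 23, 17, 6, 18, 13, 5, 14, 10, 3, 7, 4, 1, 22, 19],
   [22, 6, 8, 4, 13, 15, 11, 5, 17, 21, 0, 1, 9, 16, 7, 19, 14, 18, 10, 12, 3, 2, 23, 20],
   [13, 10, 19, 9, 2, 11, 23, 20, 15, 0, 18, 4, 17, 3, 16, 5, 8, 12, 14, 1, 6, 22, 7, 21],
   [6, 8, 4, 18, 5, 15, 23, 1, 3, 19, 12, 16, 10, 9, 20, 14, 13, 7, 2, 21, 17, 11, 0, 22],
   [3, 0, 5, 1, 21, 2, 13, 4, 8, 19, 6, 22, 16, 10, 17, 9, 20, 14, 11, 12, 15, 18, 7, 23],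
   [14, 3, 1, 23, 21, 17, 22, 20, 4, 18, 6, 13, 9, 7, 2, 12, 8, 5, 15, 16, 19, 10, 11, 0],
   [23, 5, 2, 0, 22, 17, 21, 12, 13, 16, 9, 18, 7, 11, 3, 8, 19, 14, 10, 20, 6, 4, 15, 1],
   [0, 14, 3, 1, 18, 23, 10, 6, 13, 20, 19, 22, 12, 11, 17, 9, 4, 5, 8, 15, 7, 21, 16, 2],
   [1, 23, 5, 2, 18, 14, 20, 13, 22, 12, 7, 4, 10, 8, 0, 11, 19, 17, 9, 15, 6, 16, 21, 3],
   [20, 8, 15, 6, 14, 7, 10, 21, 19, 16, 11, 0, 17, 13, 22, 23, 12, 18, 9, 1, 2, 3, 5, 4],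
   [2, 0, 14, 3, 19, 17, 4, 7, 15, 18, 20, 11, 9, 22, 23, 10, 6, 1, 8, 21, 12, 13, 16, 5],
   [18, 22, 4, 20, 21, 8, 14, 16, 17, 19, 3, 13, 23, 2, 7, 5, 12, 15, 10, 9, 11, 1, 0, 6],
   [15, 6, 18, 22, 16, 7, 17, 3, 23, 1, 0, 11, 13, 2, 20, 21, 14, 4, 5, 19, 9, 10, 12, 8],
   [21, 19, 11, 10, 17, 16, 7, 22, 20, 4, 6, 1, 2, 15, 13, 14, 18, 12, 8, 3, 0, 23, 5, 9],
   [12, 13, 9, 21, 17, 11, 5, 20, 14, 18, 1, 2, 15, 3, 19, 22, 4, 16, 7, 23, 0, 6, 8, 10],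
   [10, 12, 13, 9, 18, 16, 23, 1, 14, 5, 0, 20, 22, 3, 19, 7, 2, 21, 17, 15, 8, 4, 6, 11],
   [13, 9, 21, 19, 14, 16, 8, 18, 20, 6, 7, 17, 1, 22, 10, 3, 4, 11, 15, 5, 0, 2, 23, 12],
   [9, 21, 19, 11, 18, 10, 2, 15, 3, 8, 17, 20, 5, 14, 16, 23, 7, 12, 4, 22, 6, 0, 1, 13],
   [3, 1, 23, 5, 10, 2, 20, 9, 18, 16, 4, 13, 22, 7, 17, 8, 19, 0, 11, 21, 12, 6, 15, 14],
   [6, 18, 22, 4, 13, 8, 21, 23, 11, 2, 10, 12, 17, 16, 20, 5, 3, 7, 1, 19, 9, 14, 0, 15],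
   [22, 4, 20, 8, 12, 15, 2, 10, 14, 21, 23, 13, 0, 5, 7, 3, 9, 6, 19, 11, 16, 1, 17, 18],
   [11, 10, 12, 13, 2, 21, 5, 6, 17, 8, 3, 0, 18, 23, 9, 22, 20, 16, 4, 14, 1, 15, 7, 19],
   [8, 15, 6, 18, 19, 4, 11, 17, 9, 5, 10, 13, 3, 12, 22, 0, 1, 7, 2, 21, 16, 14, 23, 20],
   [19, 11, 10, 12, 8, 16, 14, 3, 17, 5, 1, 6, 22, 23, 9, 4, 0, 13, 2, 18, 7, 20, 15, 21],
   [4, 20, 8, 15, 3, 18, 17, 21, 23, 19, 1, 0, 10, 14, 6, 16, 11, 7, 12, 2, 5, 13, 9, 22],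
   [5, 2, 0, 14, 4, 17, 19, 13, 9, 16, 21, 22, 7, 10, 1, 15, 11, 3, 12, 8, 18, 20, 6, 23],
   [23, 14, 5, 3, 13, 2, 20, 9, 18, 12, 8, 19, 7, 15, 17, 6, 10, 1, 11, 16, 21, 4, 22, 0],
   [0, 23, 14, 5, 12, 17, 15, 6, 4, 22, 8, 10, 21, 7, 2, 9, 20, 3, 18, 16, 19, 11, 13, 1],
   [1, 0, 23, 14, 7, 5, 10, 20, 11, 4, 13, 18, 12, 19, 17, 16, 6, 3, 8, 15, 22, 9, 21, 2],
   [2, 1, 0, 23, 7, 14, 9, 6, 13, 15, 19, 20, 21, 12, 17, 16, 4, 5, 18, 22, 8, 11, 10, 3],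
   [6, 20, 18, 8, 1, 7, 13, 16, 10, 12, 11, 0, 3, 19, 15, 23, 21, 22, 9, 2, 14, 5, 17, 4],
   [3, 2, 1, 0, 7, 14, 20, 10, 22, 13, 4, 18, 12, 15, 23, 11, 9, 17, 16, 6, 8, 19, 21, 5],
   [20, 18, 8, 22, 11, 4, 10, 23, 12, 5, 19, 13, 17, 16, 15, 14, 1, 7, 0, 21, 9, 2, 3, 6],
   [22, 15, 4, 6, 12, 20, 0, 16, 17, 19, 23, 10, 5, 2, 7, 3, 9, 18, 11, 21, 13, 14, 1, 8],
   [10, 21, 12, 19, 2, 13, 7, 1, 6, 0, 15, 14, 18, 20, 16, 4, 3, 11, 17, 23, 5, 8, 22, 9],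
   [21, 12, 19, 13, 4, 11, 5, 8, 14, 15, 1, 7, 0, 3, 16, 2, 6, 9, 22, 20, 18, 17, 23, 10],
   [9, 10, 21, 12, 1, 13, 0, 7, 3, 4, 23, 5, 8, 14, 19, 20, 22, 16, 6, 2, 17, 18, 15, 11],
   [19, 13, 11, 9, 6, 10, 14, 7, 17, 20, 5, 15, 2, 0, 16, 1, 22, 21, 8, 4, 18, 3, 23, 12],
   [11, 9, 10, 21, 8, 19, 20, 3, 18, 17, 6, 4, 5, 22, 12, 0, 2, 16, 14, 7, 15, 1, 23, 13],
   [5, 3, 2, 1, 18, 23, 8, 16, 6, 11, 22, 4, 12, 15, 0, 10, 19, 17, 9, 20, 7, 21, 13, 14],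
   [4, 6, 20, 18, 10, 22, 13, 0, 19, 5, 9, 16, 3, 12, 8, 1, 17, 7, 14, 21, 11, 23, 2, 15],
   [8, 22, 15, 4, 12, 7, 3, 2, 17, 23, 1, 13, 9, 0, 20, 10, 5, 6, 14, 11, 16, 21, 19, 18],
   [13, 11, 9, 10, 15, 12, 4, 17, 8, 5, 6, 18, 0, 20, 21, 2, 23, 16, 3, 22, 7, 1, 14, 19],
   [18, 8, 22, 15, 1, 7, 13, 10, 19, 9, 16, 17, 23, 21, 6, 0, 12, 4, 11, 5, 2, 3, 14, 20],
   [12, 19, 13, 11, 23, 16, 18, 22, 8, 20, 6, 1, 0, 7, 10, 2, 15, 9, 4, 17, 14, 3, 5, 21],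
   [15, 4, 6, 20, 14, 7, 10, 19, 9, 12, 16, 17, 3, 13, 8, 5, 11, 18, 21, 1, 23, 0, 2, 22],
   [14, 5, 3, 2, 18, 0, 20, 19, 7, 21, 15, 8, 13, 6, 1, 11, 10, 17, 9, 22, 4, 12, 16, 23]]

theorem usN_tab : wsN.map (prodT sgsTabs) = usN := by decide +kernel

theorem coverN : coverOK pw7 usN = true := by decide +kernel

/-- The tables of the 126 elements of the normaliser. -/
def listN : List (List ℕ) := [[1, 2, 3, 5, 15, 14, 4, 7, 18, 11, 9, 13, 21, 19, 23, 22, 16, 17, 20, 12, 6, 10, 8, 0],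
   [1, 2, 3, 5, 12, 14, 19, 16, 9, 20, 18, 6, 22, 4, 23, 21, 7, 17, 11, 15, 13, 8, 10, 0],
   [2, 3, 5, 14, 21, 23, 12, 16, 11, 6, 20, 4, 8, 15, 0, 10, 7, 17, 13, 22, 19, 18, 9, 1],
   [2, 3, 5, 14, 22, 23, 15, 7, 20, 13, 11, 19, 10, 12, 0, 8, 16, 17, 6, 21, 4, 9, 18, 1],
   [3, 5, 14, 23, 8, 0, 22, 7, 6, 19, 13, 12, 9, 21, 1, 18, 16, 17, 4, 10, 15, 11, 20, 2],
   [3, 5, 14, 23, 10, 0, 21, 16, 13, 4, 6, 15, 18, 22, 1, 9, 7, 17, 19, 8, 12, 20, 11, 2],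
   [5, 14, 23, 0, 9, 1, 10, 16, 19, 15, 4, 22, 20, 8, 2, 11, 7, 17, 12, 18, 21, 6, 13, 3],
   [5, 14, 23, 0, 18, 1, 8, 7, 4, 12, 19, 21, 11, 10, 2, 20, 16, 17, 15, 9, 22, 13, 6, 3],
   [15, 22, 8, 18, 10, 20, 21, 16, 13, 2, 1, 3, 23, 5, 6, 9, 17, 7, 19, 14, 12, 0, 11, 4],
   [15, 22, 8, 18, 14, 20, 5, 17, 1, 19, 13, 12, 9, 21, 6, 23, 16, 7, 2, 10, 3, 11, 0, 4],
   [14, 23, 0, 1, 11, 2, 9, 16, 12, 22, 15, 8, 6, 18, 3, 13, 7, 17, 21, 20, 10, 4, 19, 5],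
   [14, 23, 0, 1, 20, 2, 18, 7, 15, 21, 12, 10, 13, 9, 3, 6, 16, 17, 22, 11, 8, 19, 4, 5],
   [4, 15, 22, 8, 5, 18, 3, 17, 0, 13, 11, 19, 10, 12, 20, 14, 16, 7, 1, 21, 2, 9, 23, 6],
   [4, 15, 22, 8, 21, 18, 12, 16, 11, 1, 0, 2, 14, 3, 20, 10, 17, 7, 13, 5, 19, 23, 9, 6],
   [18, 20, 6, 4, 13, 15, 11, 16, 21, 14, 5, 23, 2, 0, 22, 19, 17, 7, 10, 1, 9, 3, 12, 8],
   [18, 20, 6, 4, 1, 15, 0, 17, 5, 10, 21, 9, 19, 11, 22, 2, 16, 7, 14, 13, 23, 12, 3, 8],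
   [11, 13, 19, 12, 4, 21, 6, 7, 8, 23, 14, 0, 3, 1, 10, 15, 17, 16, 18, 2, 20, 5, 22, 9],
   [11, 13, 19, 12, 2, 21, 1, 17, 14, 18, 8, 20, 15, 6, 10, 3, 7, 16, 23, 4, 0, 22, 5, 9],
   [9, 11, 13, 19, 1, 12, 0, 17, 5, 8, 22, 18, 4, 20, 21, 2, 7, 16, 14, 6, 23, 15, 3, 10],
   [9, 11, 13, 19, 6, 12, 20, 7, 22, 14, 5, 23, 2, 0, 21, 4, 17, 16, 8, 1, 18, 3, 15, 10],
   [13, 19, 12, 21, 15, 10, 4, 7, 18, 0, 23, 1, 5, 2, 9, 22, 17, 16, 20, 3, 6, 14, 8, 11],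
   [13, 19, 12, 21, 3, 10, 2, 17, 23, 20, 18, 6, 22, 4, 9, 5, 7, 16, 0, 15, 1, 8, 14, 11],
   [21, 10, 9, 11, 18, 13, 8, 7, 4, 3, 2, 5, 0, 14, 19, 20, 17, 16, 15, 23, 22, 1, 6, 12],
   [21, 10, 9, 11, 23, 13, 14, 17, 2, 15, 4, 22, 20, 8, 19, 0, 7, 16, 3, 18, 5, 6, 1, 12],
   [19, 12, 21, 10, 22, 9, 15, 7, 20, 1, 0, 2, 14, 3, 11, 8, 17, 16, 6, 5, 4, 23, 18, 13],
   [19, 12, 21, 10, 5, 9, 3, 17, 0, 6, 20, 4, 8, 15, 11, 14, 7, 16, 1, 22, 2, 18, 23, 13],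
   [23, 0, 1, 2, 6, 3, 20, 7, 22, 10, 21, 9, 19, 11, 5, 4, 16, 17, 8, 13, 18, 12, 15, 14],
   [23, 0, 1, 2, 13, 3, 11, 16, 21, 8, 22, 18, 4, 20, 5, 19, 7, 17, 10, 6, 9, 15, 12, 14],
   [22, 8, 18, 20, 23, 6, 14, 17, 2, 12, 19, 21, 11, 10, 4, 0, 16, 7, 3, 9, 5, 13, 1, 15],
   [22, 8, 18, 20, 9, 6, 10, 16, 19, 3, 2, 5, 0, 14, 4, 11, 17, 7, 12, 23, 21, 1, 13, 15],
   [20, 6, 4, 15, 19, 22, 13, 16, 10, 23, 14, 0, 3, 1, 8, 12, 17, 7, 9, 2, 11, 5, 21, 18],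
   [20, 6, 4, 15, 2, 22, 1, 17, 14, 9, 10, 11, 12, 13, 8, 3, 16, 7, 23, 19, 0, 21, 5, 18],
   [12, 21, 10, 9, 8, 11, 22, 7, 6, 2, 1, 3, 23, 5, 13, 18, 17, 16, 4, 14, 15, 0, 20, 19],
   [12, 21, 10, 9, 14, 11, 5, 17, 1, 4, 6, 15, 18, 22, 13, 23, 7, 16, 2, 8, 3, 20, 0, 19],
   [6, 4, 15, 22, 3, 8, 2, 17, 23, 11, 9, 13, 21, 19, 18, 5, 16, 7, 0, 12, 1, 10, 14, 20],
   [6, 4, 15, 22, 12, 8, 19, 16, 9, 0, 23, 1, 5, 2, 18, 21, 17, 7, 11, 3, 13, 14, 10, 20],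
   [10, 9, 11, 13, 0, 19, 23, 17, 3, 22, 15, 8, 6, 18, 12, 1, 7, 16, 5, 20, 14, 4, 2, 21],
   [10, 9, 11, 13, 20, 19, 18, 7, 15, 5, 3, 14, 1, 23, 12, 6, 17, 16, 22, 0, 8, 2, 4, 21],
   [8, 18, 20, 6, 0, 4, 23, 17, 3, 21, 12, 10, 13, 9, 15, 1, 16, 7, 5, 11, 14, 19, 2, 22],
   [8, 18, 20, 6, 11, 4, 9, 16, 12, 5, 3, 14, 1, 23, 15, 13, 17, 7, 21, 0, 10, 2, 19, 22],
   [0, 1, 2, 3, 4, 5, 6, 7, 8, 9, 10, 11, 12, 13, 14, 15, 16, 17, 18, 19, 20, 21, 22, 23],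
   [0, 1, 2, 3, 19, 5, 13, 16, 10, 18, 8, 20, 15, 6, 14, 12, 7, 17, 9, 4, 11, 22, 21, 23],
   [2, 5, 23, 1, 18, 3, 22, 7, 8, 11, 10, 19, 13, 21, 14, 6, 16, 17, 20, 9, 4, 12, 15, 0],
   [2, 5, 23, 1, 9, 3, 21, 16, 10, 20, 8, 4, 6, 22, 14, 13, 7, 17, 11, 18, 19, 15, 12, 0],
   [3, 14, 0, 2, 20, 5, 8, 7, 18, 13, 9, 12, 19, 10, 23, 4, 16, 17, 6, 11, 15, 21, 22, 1],
   [3, 14, 0, 2, 11, 5, 10, 16, 9, 6, 18, 15, 4, 8, 23, 19, 7, 17, 13, 20, 12, 22, 21, 1],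
   [5, 23, 1, 3, 13, 14, 9, 16, 11, 4, 20, 22, 15, 18, 0, 12, 7, 17, 19, 6, 21, 8, 10, 2],
   [5, 23, 1, 3, 6, 14, 18, 7, 20, 19, 11, 21, 12, 9, 0, 15, 16, 17, 4, 13, 22, 10, 8, 2],
   [14, 0, 2, 5, 4, 23, 20, 7, 6, 12, 13, 10, 21, 11, 1, 22, 16, 17, 15, 19, 8, 9, 18, 3],
   [14, 0, 2, 5, 19, 23, 11, 16, 13, 15, 6, 8, 22, 20, 1, 21, 7, 17, 12, 4, 10, 18, 9, 3],
   [22, 18, 6, 15, 1, 8, 23, 17, 0, 19, 11, 21, 12, 9, 20, 3, 16, 7, 2, 13, 5, 10, 14, 4],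
   [22, 18, 6, 15, 13, 8, 9, 16, 11, 2, 0, 5, 3, 23, 20, 12, 17, 7, 19, 1, 21, 14, 10, 4],
   [23, 1, 3, 14, 15, 0, 6, 7, 4, 21, 19, 9, 10, 13, 2, 8, 16, 17, 22, 12, 18, 11, 20, 5],
   [23, 1, 3, 14, 12, 0, 13, 16, 19, 22, 4, 18, 8, 6, 2, 10, 7, 17, 21, 15, 9, 20, 11, 5],
   [15, 8, 20, 4, 11, 22, 10, 16, 9, 1, 23, 3, 2, 14, 18, 19, 17, 7, 13, 0, 12, 5, 21, 6],
   [15, 8, 20, 4, 0, 22, 14, 17, 23, 13, 9, 12, 19, 10, 18, 2, 16, 7, 1, 11, 3, 21, 5, 6],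
   [20, 4, 22, 18, 21, 6, 19, 16, 12, 14, 3, 0, 23, 2, 15, 9, 17, 7, 10, 5, 11, 1, 13, 8],
   [20, 4, 22, 18, 5, 6, 2, 17, 3, 10, 12, 11, 9, 19, 15, 23, 16, 7, 14, 21, 0, 13, 1, 8],
   [13, 12, 10, 11, 14, 19, 3, 17, 5, 18, 22, 6, 20, 15, 21, 0, 7, 16, 23, 8, 1, 4, 2, 9],
   [13, 12, 10, 11, 8, 19, 15, 7, 22, 23, 5, 1, 0, 3, 21, 20, 17, 16, 18, 14, 6, 2, 4, 9],
   [11, 19, 21, 9, 5, 13, 2, 17, 3, 8, 15, 20, 18, 4, 12, 23, 7, 16, 14, 22, 0, 6, 1, 10],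
   [11, 19, 21, 9, 22, 13, 4, 7, 15, 14, 3, 0, 23, 2, 12, 18, 17, 16, 8, 5, 20, 1, 6, 10],
   [19, 21, 9, 13, 18, 12, 22, 7, 8, 0, 14, 2, 1, 5, 10, 6, 17, 16, 20, 23, 4, 3, 15, 11],
   [19, 21, 9, 13, 23, 12, 5, 17, 14, 20, 8, 4, 6, 22, 10, 1, 7, 16, 0, 18, 2, 15, 3, 11],
   [10, 11, 19, 21, 4, 9, 20, 7, 6, 3, 1, 14, 5, 0, 13, 22, 17, 16, 15, 2, 8, 23, 18, 12],
   [10, 11, 19, 21, 2, 9, 0, 17, 1, 15, 6, 8, 22, 20, 13, 5, 7, 16, 3, 4, 14, 18, 23, 12],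
   [12, 10, 11, 19, 0, 21, 14, 17, 23, 6, 18, 15, 4, 8, 9, 2, 7, 16, 1, 20, 3, 22, 5, 13],
   [12, 10, 11, 19, 20, 21, 8, 7, 18, 1, 23, 3, 2, 14, 9, 4, 17, 16, 6, 0, 15, 5, 22, 13],
   [0, 2, 5, 23, 21, 1, 19, 16, 12, 8, 15, 20, 18, 4, 3, 9, 7, 17, 10, 22, 11, 6, 13, 14],
   [0, 2, 5, 23, 22, 1, 4, 7, 15, 10, 12, 11, 9, 19, 3, 18, 16, 17, 8, 21, 20, 13, 6, 14],
   [8, 20, 4, 22, 2, 18, 0, 17, 1, 12, 13, 10, 21, 11, 6, 5, 16, 7, 3, 19, 14, 9, 23, 15],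
   [8, 20, 4, 22, 19, 18, 11, 16, 13, 3, 1, 14, 5, 0, 6, 21, 17, 7, 12, 2, 10, 23, 9, 15],
   [6, 15, 8, 20, 14, 4, 3, 17, 5, 9, 21, 13, 11, 12, 22, 0, 16, 7, 23, 10, 1, 19, 2, 18],
   [6, 15, 8, 20, 10, 4, 12, 16, 21, 23, 5, 1, 0, 3, 22, 11, 17, 7, 9, 14, 13, 2, 19, 18],
   [21, 9, 13, 12, 6, 10, 18, 7, 20, 2, 0, 5, 3, 23, 11, 15, 17, 16, 4, 1, 22, 14, 8, 19],
   [21, 9, 13, 12, 1, 10, 23, 17, 0, 4, 20, 22, 15, 18, 11, 3, 7, 16, 2, 6, 5, 8, 14, 19],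
   [4, 22, 18, 6, 9, 15, 21, 16, 10, 0, 14, 2, 1, 5, 8, 13, 17, 7, 11, 23, 19, 3, 12, 20],
   [4, 22, 18, 6, 23, 15, 5, 17, 14, 11, 10, 19, 13, 21, 8, 1, 16, 7, 0, 9, 2, 12, 3, 20],
   [9, 13, 12, 10, 15, 11, 6, 7, 4, 5, 2, 23, 14, 1, 19, 8, 17, 16, 22, 3, 18, 0, 20, 21],
   [9, 13, 12, 10, 3, 11, 1, 17, 2, 22, 4, 18, 8, 6, 19, 14, 7, 16, 5, 15, 23, 20, 0, 21],
   [18, 6, 15, 8, 12, 20, 13, 16, 19, 5, 2, 23, 14, 1, 4, 10, 17, 7, 21, 3, 9, 0, 11, 22],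
   [18, 6, 15, 8, 3, 20, 1, 17, 2, 21, 19, 9, 10, 13, 4, 14, 16, 7, 5, 12, 23, 11, 0, 22],
   [1, 3, 14, 0, 10, 2, 12, 16, 21, 18, 22, 6, 20, 15, 5, 11, 7, 17, 9, 8, 13, 4, 19, 23],
   [1, 3, 14, 0, 8, 2, 15, 7, 22, 9, 21, 13, 11, 12, 5, 20, 16, 17, 18, 10, 6, 19, 4, 23],
   [5, 1, 14, 2, 10, 23, 13, 16, 12, 20, 15, 22, 4, 6, 3, 19, 7, 17, 11, 8, 21, 18, 9, 0],
   [5, 1, 14, 2, 8, 23, 6, 7, 15, 11, 12, 21, 19, 13, 3, 4, 16, 17, 20, 10, 22, 9, 18, 0],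
   [14, 2, 23, 3, 18, 0, 4, 7, 22, 13, 21, 10, 12, 19, 5, 15, 16, 17, 6, 9, 8, 11, 20, 1],
   [14, 2, 23, 3, 9, 0, 19, 16, 21, 6, 22, 8, 15, 4, 5, 12, 7, 17, 13, 18, 10, 20, 11, 1],
   [23, 3, 0, 5, 11, 1, 12, 16, 10, 4, 8, 18, 22, 15, 14, 21, 7, 17, 19, 20, 9, 6, 13, 2],
   [23, 3, 0, 5, 20, 1, 15, 7, 8, 19, 10, 9, 21, 12, 14, 22, 16, 17, 4, 11, 18, 13, 6, 2],
   [0, 5, 1, 14, 13, 2, 21, 16, 9, 15, 18, 20, 8, 22, 23, 10, 7, 17, 12, 6, 11, 4, 19, 3],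
   [0, 5, 1, 14, 6, 2, 22, 7, 18, 12, 9, 11, 10, 21, 23, 8, 16, 17, 15, 13, 20, 19, 4, 3],
   [18, 15, 20, 22, 11, 6, 12, 16, 10, 2, 14, 23, 5, 3, 8, 21, 17, 7, 19, 0, 9, 1, 13, 4],
   [18, 15, 20, 22, 0, 6, 3, 17, 14, 19, 10, 9, 21, 12, 8, 5, 16, 7, 2, 11, 23, 13, 1, 4],
   [1, 14, 2, 23, 19, 3, 10, 16, 11, 22, 20, 6, 18, 8, 0, 9, 7, 17, 21, 4, 13, 15, 12, 5],
   [1, 14, 2, 23, 4, 3, 8, 7, 20, 21, 11, 13, 9, 10, 0, 18, 16, 17, 22, 19, 6, 12, 15, 5],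
   [8, 4, 18, 15, 9, 20, 19, 16, 21, 1, 5, 14, 3, 2, 22, 12, 17, 7, 13, 23, 10, 0, 11, 6],
   [8, 4, 18, 15, 23, 20, 2, 17, 5, 13, 21, 10, 12, 19, 22, 3, 16, 7, 1, 9, 14, 11, 0, 6],
   [4, 18, 15, 20, 3, 22, 23, 17, 1, 10, 13, 19, 11, 9, 6, 0, 16, 7, 14, 12, 2, 21, 5, 8],
   [4, 18, 15, 20, 12, 22, 9, 16, 13, 14, 1, 2, 0, 23, 6, 11, 17, 7, 10, 3, 19, 5, 21, 8],
   [12, 11, 21, 13, 22, 10, 20, 7, 4, 23, 2, 3, 1, 0, 19, 6, 17, 16, 18, 5, 15, 14, 8, 9],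
   [12, 11, 21, 13, 5, 10, 0, 17, 2, 18, 4, 15, 6, 20, 19, 1, 7, 16, 23, 22, 3, 8, 14, 9],
   [19, 9, 12, 11, 3, 21, 23, 17, 1, 8, 6, 4, 20, 18, 13, 0, 7, 16, 14, 15, 2, 22, 5, 10],
   [19, 9, 12, 11, 15, 21, 18, 7, 6, 14, 1, 2, 0, 23, 13, 20, 17, 16, 8, 3, 4, 5, 22, 10],
   [21, 13, 10, 19, 8, 9, 6, 7, 15, 0, 3, 5, 2, 1, 12, 4, 17, 16, 20, 14, 22, 23, 18, 11],
   [21, 13, 10, 19, 14, 9, 1, 17, 3, 20, 15, 22, 4, 6, 12, 2, 7, 16, 0, 8, 5, 18, 23, 11],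
   [11, 21, 13, 10, 1, 19, 5, 17, 23, 15, 18, 20, 8, 22, 9, 14, 7, 16, 3, 6, 0, 4, 2, 12],
   [11, 21, 13, 10, 6, 19, 22, 7, 18, 3, 23, 0, 14, 5, 9, 8, 17, 16, 15, 1, 20, 2, 4, 12],
   [10, 19, 9, 12, 18, 11, 4, 7, 22, 1, 5, 14, 3, 2, 21, 15, 17, 16, 6, 23, 8, 0, 20, 13],
   [10, 19, 9, 12, 23, 11, 2, 17, 5, 6, 22, 8, 15, 4, 21, 3, 7, 16, 1, 18, 14, 20, 0, 13],
   [2, 23, 3, 0, 12, 5, 9, 16, 13, 8, 6, 4, 20, 18, 1, 11, 7, 17, 10, 15, 19, 22, 21, 14],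
   [2, 23, 3, 0, 15, 5, 18, 7, 6, 10, 13, 19, 11, 9, 1, 20, 16, 17, 8, 12, 4, 21, 22, 14],
   [20, 22, 6, 8, 13, 4, 21, 16, 9, 3, 23, 0, 14, 5, 18, 10, 17, 7, 12, 1, 11, 2, 19, 15],
   [20, 22, 6, 8, 1, 4, 5, 17, 23, 12, 9, 11, 10, 21, 18, 14, 16, 7, 3, 13, 0, 19, 2, 15],
   [15, 20, 22, 6, 21, 8, 11, 16, 19, 23, 2, 3, 1, 0, 4, 13, 17, 7, 9, 5, 12, 14, 10, 18],
   [15, 20, 22, 6, 5, 8, 0, 17, 2, 9, 19, 12, 13, 11, 4, 1, 16, 7, 23, 21, 3, 10, 14, 18],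
   [9, 12, 11, 21, 20, 13, 15, 7, 8, 2, 14, 23, 5, 3, 10, 22, 17, 16, 4, 0, 18, 1, 6, 19],
   [9, 12, 11, 21, 0, 13, 3, 17, 14, 4, 8, 18, 22, 15, 10, 5, 7, 16, 2, 20, 23, 6, 1, 19],
   [22, 6, 8, 4, 14, 18, 1, 17, 3, 11, 12, 21, 19, 13, 15, 2, 16, 7, 0, 10, 5, 9, 23, 20],
   [22, 6, 8, 4, 10, 18, 13, 16, 12, 0, 3, 5, 2, 1, 15, 19, 17, 7, 11, 14, 21, 23, 9, 20],
   [13, 10, 19, 9, 2, 12, 14, 17, 0, 22, 20, 6, 18, 8, 11, 23, 7, 16, 5, 4, 1, 15, 3, 21],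
   [13, 10, 19, 9, 4, 12, 8, 7, 20, 5, 0, 1, 23, 14, 11, 18, 17, 16, 22, 2, 6, 3, 15, 21],
   [6, 8, 4, 18, 2, 15, 14, 17, 0, 21, 11, 13, 9, 10, 20, 23, 16, 7, 5, 19, 1, 12, 3, 22],
   [6, 8, 4, 18, 19, 15, 10, 16, 11, 5, 0, 1, 23, 14, 20, 9, 17, 7, 21, 2, 13, 3, 12, 22],
   [3, 0, 5, 1, 21, 14, 11, 16, 19, 18, 4, 15, 6, 20, 2, 13, 7, 17, 9, 22, 12, 8, 10, 23],
   [3, 0, 5, 1, 22, 14, 20, 7, 4, 9, 19, 12, 13, 11, 2, 6, 16, 17, 18, 21, 15, 10, 8, 23]]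

theorem listN_eq : (usN.flatMap cosetT).filter PN = listN := by decide +kernel

theorem listN_nodup : listN.Nodup := by decide +kernel

theorem hcoverN : ∀ σ ∈ N0, ∃ U ∈ usN, ∀ i ∈ ([3, 2, 1, 0, 23] : List ℕ),
    σ (pt i) = pt (U.getD i 0) := by
  intro σ hσ
  obtain ⟨_, y, hy, h⟩ := mem_N0.1 hσ
  obtain ⟨Q, hQ, hyQ⟩ := mem_zpowers_x7 hy
  exact cover_of coverN hQ hyQ h

theorem card_N0 : Nat.card ↥N0 = 126 := by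
  rw [tdecN.card_cosets usN_tab hcoverN (by rw [listN_eq]; exact listN_nodup), listN_eq]
  decide +kernel

theorem N0_table {σ : Equiv.Perm GolayPt} (hσ : σ ∈ N0) : ∃ T ∈ listN, HasTable σ T := by
  have h := (tdecN.enum_cosets usN_tab hcoverN).1 σ hσ
  rwa [listN_eq] at h

/-! ### The centraliser -/

def wsC : List (List ℕ) := [[2, 15, 6, 12, 18, 10, 20, 17, 20],
   [0, 2, 15, 6, 12, 18, 18, 10, 10, 16],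
   [0, 0, 2, 15, 6, 9, 10, 10, 16, 20, 16],
   [0, 0, 0, 2, 6, 8, 8, 11, 21, 17, 20, 16],
   [5, 0, 0, 2, 14, 6, 14, 6, 9, 13, 8, 11, 11, 17, 21],
   [1, 5, 0, 2, 7, 14, 9, 9, 13, 8, 19, 19, 21, 16],
   [5, 0, 2, 15, 6, 9, 9, 18, 10, 18, 10, 20, 20, 16],
   [0, 0, 5, 0, 2, 7, 15, 6, 8, 13, 8, 19, 19, 17, 20, 16],
   [2, 1, 5, 0, 2, 6, 12, 8, 11, 11, 16, 21],
   [1, 2, 0, 0, 2, 7, 14, 13, 11, 11, 21],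
   [2, 0, 0, 2, 14, 6, 9, 9, 13, 8, 11, 19, 19, 21],
   [2, 1, 1, 2, 7, 14, 9, 10, 10, 16, 21],
   [1, 4, 1, 2, 6, 14, 6, 8, 8, 8, 11, 21, 17, 20, 16],
   [4, 1, 2, 9, 9, 13, 8, 11, 19, 19, 16, 21],
   [0, 4, 1, 2, 6, 15, 9, 12, 10, 19, 19, 20, 17, 20],
   [4, 0, 2, 7, 9, 12, 8, 11, 16, 20],
   [5, 1, 2, 14, 9, 13, 8, 19, 19, 10, 21, 16],
   [1, 1, 1, 2, 14, 12, 9, 11, 11, 17, 21, 16],
   [1, 1, 2, 7, 15, 6, 8, 8, 8, 10, 19, 19, 17],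
   [1, 2, 14, 12, 12, 8, 18, 11, 20, 17, 20, 16],
   []]

def usC : List (List ℕ) := [[1, 2, 3, 5, 20, 23, 4, 10, 9, 8, 19, 11, 6, 18, 17, 15, 21, 14, 22, 7, 16, 12, 13, 0],
   [2, 3, 5, 14, 4, 17, 7, 9, 16, 10, 6, 22, 12, 13, 23, 20, 8, 0, 18, 21, 19, 15, 11, 1],
   [3, 5, 14, 23, 22, 17, 18, 19, 9, 16, 20, 6, 12, 11, 0, 8, 7, 1, 4, 13, 21, 15, 10, 2],
   [5, 14, 23, 0, 11, 17, 10, 18, 8, 22, 19, 13, 7, 4, 1, 12, 21, 2, 9, 6, 20, 16, 15, 3],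
   [15, 22, 8, 18, 1, 20, 3, 23, 14, 11, 10, 21, 16, 12, 6, 17, 9, 7, 0, 13, 5, 19, 2, 4],
   [14, 23, 0, 1, 20, 17, 22, 13, 21, 19, 7, 8, 12, 16, 2, 18, 4, 3, 6, 10, 11, 15, 9, 5],
   [4, 15, 22, 8, 9, 18, 16, 12, 13, 0, 1, 14, 2, 17, 20, 19, 3, 7, 11, 23, 10, 5, 21, 6],
   [18, 20, 6, 4, 12, 7, 21, 23, 5, 1, 11, 19, 14, 0, 15, 16, 13, 22, 9, 2, 3, 10, 17, 8],
   [11, 13, 19, 12, 2, 16, 23, 15, 18, 22, 17, 0, 8, 7, 21, 1, 5, 10, 3, 20, 4, 14, 6, 9],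
   [9, 11, 13, 19, 14, 21, 0, 15, 22, 3, 20, 8, 23, 5, 16, 1, 4, 12, 2, 17, 7, 6, 18, 10],
   [13, 19, 12, 21, 23, 9, 17, 15, 20, 3, 7, 18, 5, 0, 16, 14, 6, 10, 1, 2, 4, 8, 22, 11],
   [21, 10, 9, 11, 14, 13, 23, 1, 5, 20, 22, 4, 15, 18, 19, 3, 6, 16, 0, 8, 2, 7, 17, 12],
   [19, 12, 21, 10, 3, 11, 1, 4, 7, 2, 6, 15, 23, 17, 16, 14, 22, 9, 5, 0, 20, 8, 18, 13],
   [23, 0, 1, 2, 10, 17, 13, 20, 6, 22, 9, 16, 15, 18, 3, 19, 21, 5, 11, 7, 8, 12, 4, 14],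
   [22, 8, 18, 20, 23, 6, 14, 17, 2, 12, 19, 21, 11, 10, 4, 0, 16, 7, 3, 9, 5, 13, 1, 15],
   [20, 6, 4, 15, 5, 22, 17, 1, 23, 10, 9, 12, 11, 16, 8, 0, 13, 7, 14, 21, 3, 19, 2, 18],
   [12, 21, 10, 9, 2, 16, 14, 22, 8, 6, 3, 17, 20, 15, 11, 23, 1, 13, 5, 7, 4, 0, 18, 19],
   [6, 4, 15, 22, 13, 7, 16, 14, 17, 5, 11, 12, 2, 0, 8, 9, 21, 18, 10, 3, 1, 19, 23, 20],
   [10, 9, 11, 13, 4, 19, 7, 18, 22, 3, 5, 1, 14, 17, 12, 8, 23, 16, 15, 2, 6, 0, 20, 21],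
   [8, 18, 20, 6, 16, 7, 10, 3, 14, 23, 11, 21, 1, 0, 4, 19, 9, 15, 12, 5, 17, 13, 2, 22],
   [0, 1, 2, 3, 4, 5, 6, 7, 8, 9, 10, 11, 12, 13, 14, 15, 16, 17, 18, 19, 20, 21, 22, 23]]

theorem usC_tab : wsC.map (prodT sgsTabs) = usC := by decide +kernel

theorem coverC : coverOK [X7] usC = true := by decide +kernel

/-- The tables of the 42 elements of the centraliser. -/
def listC : List (List ℕ) := [[1, 2, 3, 5, 15, 14, 4, 7, 18, 11, 9, 13, 21, 19, 23, 22, 16, 17, 20, 12, 6, 10, 8, 0],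
   [1, 2, 3, 5, 12, 14, 19, 16, 9, 20, 18, 6, 22, 4, 23, 21, 7, 17, 11, 15, 13, 8, 10, 0],
   [2, 3, 5, 14, 21, 23, 12, 16, 11, 6, 20, 4, 8, 15, 0, 10, 7, 17, 13, 22, 19, 18, 9, 1],
   [2, 3, 5, 14, 22, 23, 15, 7, 20, 13, 11, 19, 10, 12, 0, 8, 16, 17, 6, 21, 4, 9, 18, 1],
   [3, 5, 14, 23, 8, 0, 22, 7, 6, 19, 13, 12, 9, 21, 1, 18, 16, 17, 4, 10, 15, 11, 20, 2],
   [3, 5, 14, 23, 10, 0, 21, 16, 13, 4, 6, 15, 18, 22, 1, 9, 7, 17, 19, 8, 12, 20, 11, 2],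
   [5, 14, 23, 0, 9, 1, 10, 16, 19, 15, 4, 22, 20, 8, 2, 11, 7, 17, 12, 18, 21, 6, 13, 3],
   [5, 14, 23, 0, 18, 1, 8, 7, 4, 12, 19, 21, 11, 10, 2, 20, 16, 17, 15, 9, 22, 13, 6, 3],
   [15, 22, 8, 18, 10, 20, 21, 16, 13, 2, 1, 3, 23, 5, 6, 9, 17, 7, 19, 14, 12, 0, 11, 4],
   [15, 22, 8, 18, 14, 20, 5, 17, 1, 19, 13, 12, 9, 21, 6, 23, 16, 7, 2, 10, 3, 11, 0, 4],
   [14, 23, 0, 1, 11, 2, 9, 16, 12, 22, 15, 8, 6, 18, 3, 13, 7, 17, 21, 20, 10, 4, 19, 5],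
   [14, 23, 0, 1, 20, 2, 18, 7, 15, 21, 12, 10, 13, 9, 3, 6, 16, 17, 22, 11, 8, 19, 4, 5],
   [4, 15, 22, 8, 5, 18, 3, 17, 0, 13, 11, 19, 10, 12, 20, 14, 16, 7, 1, 21, 2, 9, 23, 6],
   [4, 15, 22, 8, 21, 18, 12, 16, 11, 1, 0, 2, 14, 3, 20, 10, 17, 7, 13, 5, 19, 23, 9, 6],
   [18, 20, 6, 4, 13, 15, 11, 16, 21, 14, 5, 23, 2, 0, 22, 19, 17, 7, 10, 1, 9, 3, 12, 8],
   [18, 20, 6, 4, 1, 15, 0, 17, 5, 10, 21, 9, 19, 11, 22, 2, 16, 7, 14, 13, 23, 12, 3, 8],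
   [11, 13, 19, 12, 4, 21, 6, 7, 8, 23, 14, 0, 3, 1, 10, 15, 17, 16, 18, 2, 20, 5, 22, 9],
   [11, 13, 19, 12, 2, 21, 1, 17, 14, 18, 8, 20, 15, 6, 10, 3, 7, 16, 23, 4, 0, 22, 5, 9],
   [9, 11, 13, 19, 1, 12, 0, 17, 5, 8, 22, 18, 4, 20, 21, 2, 7, 16, 14, 6, 23, 15, 3, 10],
   [9, 11, 13, 19, 6, 12, 20, 7, 22, 14, 5, 23, 2, 0, 21, 4, 17, 16, 8, 1, 18, 3, 15, 10],
   [13, 19, 12, 21, 15, 10, 4, 7, 18, 0, 23, 1, 5, 2, 9, 22, 17, 16, 20, 3, 6, 14, 8, 11],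
   [13, 19, 12, 21, 3, 10, 2, 17, 23, 20, 18, 6, 22, 4, 9, 5, 7, 16, 0, 15, 1, 8, 14, 11],
   [21, 10, 9, 11, 18, 13, 8, 7, 4, 3, 2, 5, 0, 14, 19, 20, 17, 16, 15, 23, 22, 1, 6, 12],
   [21, 10, 9, 11, 23, 13, 14, 17, 2, 15, 4, 22, 20, 8, 19, 0, 7, 16, 3, 18, 5, 6, 1, 12],
   [19, 12, 21, 10, 22, 9, 15, 7, 20, 1, 0, 2, 14, 3, 11, 8, 17, 16, 6, 5, 4, 23, 18, 13],
   [19, 12, 21, 10, 5, 9, 3, 17, 0, 6, 20, 4, 8, 15, 11, 14, 7, 16, 1, 22, 2, 18, 23, 13],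
   [23, 0, 1, 2, 6, 3, 20, 7, 22, 10, 21, 9, 19, 11, 5, 4, 16, 17, 8, 13, 18, 12, 15, 14],
   [23, 0, 1, 2, 13, 3, 11, 16, 21, 8, 22, 18, 4, 20, 5, 19, 7, 17, 10, 6, 9, 15, 12, 14],
   [22, 8, 18, 20, 23, 6, 14, 17, 2, 12, 19, 21, 11, 10, 4, 0, 16, 7, 3, 9, 5, 13, 1, 15],
   [22, 8, 18, 20, 9, 6, 10, 16, 19, 3, 2, 5, 0, 14, 4, 11, 17, 7, 12, 23, 21, 1, 13, 15],
   [20, 6, 4, 15, 19, 22, 13, 16, 10, 23, 14, 0, 3, 1, 8, 12, 17, 7, 9, 2, 11, 5, 21, 18],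
   [20, 6, 4, 15, 2, 22, 1, 17, 14, 9, 10, 11, 12, 13, 8, 3, 16, 7, 23, 19, 0, 21, 5, 18],
   [12, 21, 10, 9, 8, 11, 22, 7, 6, 2, 1, 3, 23, 5, 13, 18, 17, 16, 4, 14, 15, 0, 20, 19],
   [12, 21, 10, 9, 14, 11, 5, 17, 1, 4, 6, 15, 18, 22, 13, 23, 7, 16, 2, 8, 3, 20, 0, 19],
   [6, 4, 15, 22, 3, 8, 2, 17, 23, 11, 9, 13, 21, 19, 18, 5, 16, 7, 0, 12, 1, 10, 14, 20],
   [6, 4, 15, 22, 12, 8, 19, 16, 9, 0, 23, 1, 5, 2, 18, 21, 17, 7, 11, 3, 13, 14, 10, 20],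
   [10, 9, 11, 13, 0, 19, 23, 17, 3, 22, 15, 8, 6, 18, 12, 1, 7, 16, 5, 20, 14, 4, 2, 21],
   [10, 9, 11, 13, 20, 19, 18, 7, 15, 5, 3, 14, 1, 23, 12, 6, 17, 16, 22, 0, 8, 2, 4, 21],
   [8, 18, 20, 6, 0, 4, 23, 17, 3, 21, 12, 10, 13, 9, 15, 1, 16, 7, 5, 11, 14, 19, 2, 22],
   [8, 18, 20, 6, 11, 4, 9, 16, 12, 5, 3, 14, 1, 23, 15, 13, 17, 7, 21, 0, 10, 2, 19, 22],
   [0, 1, 2, 3, 4, 5, 6, 7, 8, 9, 10, 11, 12, 13, 14, 15, 16, 17, 18, 19, 20, 21, 22, 23],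
   [0, 1, 2, 3, 19, 5, 13, 16, 10, 18, 8, 20, 15, 6, 14, 12, 7, 17, 9, 4, 11, 22, 21, 23]]

theorem listC_eq : (usC.flatMap cosetT).filter PC = listC := by decide +kernel

theorem listC_nodup : listC.Nodup := by decide +kernel

theorem hcoverC : ∀ σ ∈ C0, ∃ U ∈ usC, ∀ i ∈ ([3, 2, 1, 0, 23] : List ℕ),
    σ (pt i) = pt (U.getD i 0) := by
  intro σ hσ
  exact cover_of coverC (List.mem_singleton_self _) x7_table (mem_C0.1 hσ).2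

theorem card_C0 : Nat.card ↥C0 = 42 := by
  rw [tdecC.card_cosets usC_tab hcoverC (by rw [listC_eq]; exact listC_nodup), listC_eq]
  decide +kernel

/-! ### Two non-commuting elements of the centraliser -/

def wc1 : List ℕ := [2, 15, 6, 12, 18, 10, 20, 17, 20, 23, 28]

def wc2 : List ℕ := [5, 0, 0, 2, 14, 6, 14, 6, 9, 13, 8, 11, 11, 17, 21, 24]

theorem wc_ok : PC (prodT sgsTabs wc1) = true ∧ PC (prodT sgsTabs wc2) = true ∧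
    compT (prodT sgsTabs wc1) (prodT sgsTabs wc2) ≠
      compT (prodT sgsTabs wc2) (prodT sgsTabs wc1) := by decide +kernel

theorem C0_nonabelian : ∃ a ∈ C0, ∃ b ∈ C0, a * b ≠ b * a := by
  have h1 := tdecC.mem_of_word wc_ok.1
  have h2 := tdecC.mem_of_word wc_ok.2.1
  refine ⟨_, h1.1, _, h2.1, ?_⟩
  intro h
  have t1 := hasTable_mul h1.2 h2.2
  have t2 := hasTable_mul h2.2 h1.2
  rw [h] at t1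
  exact wc_ok.2.2 (t1.unique t2)

/-! ### The invariant trio -/

/-- The code of the trio left invariant by the normaliser. -/
def c0 : ℕ := 92916519878144

theorem c0_mem : c0 ∈ trioL := by decide +kernel

theorem listN_trio : listN.all (fun T => fixTrio T c0) = true := by decide +kernel

theorem N0_trio {σ : Equiv.Perm GolayPt} (hσ : σ ∈ N0) :
    σ • Cfsg.Agent.Lib.Helper36.trioObj c0 = Cfsg.Agent.Lib.Helper36.trioObj c0 := by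
  obtain ⟨T, hT, hσT⟩ := N0_table hσ
  exact (fixTrio_iff (tdecN.le hσ) hσT c0_mem).2 (List.all_eq_true.mp listN_trio T hT)

/-! ### Sylow 7-subgroups -/

/-- The representative as an element of `↥M24`. -/
noncomputable def x7' : ↥M24 := ⟨x7, x7_mem⟩

theorem x7'_order : orderOf x7' = 7 := by
  have : Fact (Nat.Prime 7) := ⟨by norm_num⟩
  apply orderOf_eq_prime
  · exact Subtype.ext x7_pow7
  · intro h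
    have h1 : x7 = 1 := congrArg Subtype.val h
    have h2 := x7_table
    rw [h1] at h2
    have h3 : X7 = idT := h2.unique hasTable_one
    exact absurd h3 (by decide +kernel)

theorem fact7 : (Nat.card ↥M24).factorization 7 = 1 := by
  rw [card_M24]
  have h1 : 1 ≤ (244823040 : ℕ).factorization 7 :=
    (Nat.Prime.pow_dvd_iff_le_factorization (by norm_num) (by norm_num)).1 (by norm_num)
  have h2 : ¬ 2 ≤ (244823040 : ℕ).factorization 7 := fun h =>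
    absurd ((Nat.Prime.pow_dvd_iff_le_factorization (by norm_num) (by norm_num)).2 h)
      (by norm_num)
  omega

theorem conj_zpowers (k x : ↥M24) :
    MulAut.conj k • Subgroup.zpowers x = Subgroup.zpowers (k * x * k⁻¹) := by
  ext y
  rw [Subgroup.mem_smul_pointwise_iff_exists]
  constructor
  · rintro ⟨z, hz, rfl⟩
    obtain ⟨n, rfl⟩ := Subgroup.mem_zpowers_iff.1 hz
    rw [MulAut.smul_def, MulAut.conj_apply, ← conj_zpow]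
    exact Subgroup.zpow_mem_zpowers _ n
  · intro hy
    obtain ⟨n, rfl⟩ := Subgroup.mem_zpowers_iff.1 hy
    refine ⟨x ^ n, Subgroup.zpow_mem_zpowers x n, ?_⟩
    rw [MulAut.smul_def, MulAut.conj_apply, ← conj_zpow]

theorem sylow_conj (S : Subgroup ↥M24) (hS : Nat.card S = 7) :
    ∃ g : ↥M24, S = Subgroup.zpowers (g * x7' * g⁻¹) := by
  have : Fact (Nat.Prime 7) := ⟨by norm_num⟩
  have hc : Nat.card (Subgroup.zpowers x7') = 7 := by rw [Nat.card_zpowers, x7'_order]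
  let P : Sylow 7 ↥M24 := Sylow.ofCard S (by rw [fact7, pow_one]; exact hS)
  let Q : Sylow 7 ↥M24 := Sylow.ofCard (Subgroup.zpowers x7') (by rw [fact7, pow_one]; exact hc)
  obtain ⟨g, hg⟩ := MulAction.exists_smul_eq ↥M24 Q P
  refine ⟨g, ?_⟩
  have h1 : ((g • Q : Sylow 7 ↥M24) : Subgroup ↥M24) = MulAut.conj g • (Q : Subgroup ↥M24) :=
    Sylow.coe_subgroup_smul
  rw [hg] at h1
  rw [← conj_zpowers]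
  exact h1

theorem card_normalizer (g : ↥M24) :
    Nat.card ↥(Subgroup.normalizer (Subgroup.zpowers (g * x7' * g⁻¹) : Set ↥M24)) = 126 := by
  have e : ↥(Subgroup.normalizer (Subgroup.zpowers (g * x7' * g⁻¹) : Set ↥M24)) ≃
      ↥(Subgroup.normalizer (Subgroup.zpowers x7' : Set ↥M24)) :=
    Equiv.subtypeEquiv (MulAut.conj g⁻¹).toEquiv (fun n => by
      rw [conj_mem_normalizer_zpowers]
      show _ ↔ g⁻¹ * n * g⁻¹⁻¹ ∈ _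
      rw [inv_inv])
  rw [Nat.card_congr e, ← card_map_subtype, map_normalizer_zpowers]
  exact card_N0

theorem card_centralizer (g : ↥M24) :
    Nat.card ↥(Subgroup.centralizer (Subgroup.zpowers (g * x7' * g⁻¹) : Set ↥M24)) = 42 := by
  have e : ↥(Subgroup.centralizer (Subgroup.zpowers (g * x7' * g⁻¹) : Set ↥M24)) ≃
      ↥(Subgroup.centralizer (Subgroup.zpowers x7' : Set ↥M24)) :=
    Equiv.subtypeEquiv (MulAut.conj g⁻¹).toEquiv (fun n => by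
      rw [conj_mem_centralizer_zpowers]
      show _ ↔ g⁻¹ * n * g⁻¹⁻¹ ∈ _
      rw [inv_inv])
  rw [Nat.card_congr e, ← card_map_subtype, map_centralizer_zpowers]
  exact card_C0

/-- For a subgroup S of order 7 of the group of the length-24 code (a Sylow 7-subgroup): the normaliser of S has order 126, the centraliser of S has order 42 and is non-abelian, and the whole normaliser leaves some trio invariant. (These are the orders of a Frobenius group of order 21 times a symmetric group of degree 3; the isomorphism type itself is not asserted here.) -/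
theorem result (S : Subgroup ↥Cfsg.M24) (hS : Nat.card S = 7) : Nat.card ↥(Subgroup.normalizer (S : Set ↥Cfsg.M24)) = 126 ∧ Nat.card ↥(Subgroup.centralizer (S : Set ↥Cfsg.M24)) = 42 ∧ (∃ x ∈ Subgroup.centralizer (S : Set ↥Cfsg.M24), ∃ y ∈ Subgroup.centralizer (S : Set ↥Cfsg.M24), x * y ≠ y * x) ∧ ∃ T ∈ Cfsg.trios, ∀ n ∈ Subgroup.normalizer (S : Set ↥Cfsg.M24), ((n : ↥Cfsg.M24) : Equiv.Perm Cfsg.GolayPt) • T = T := by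
  obtain ⟨g, rfl⟩ := sylow_conj S hS
  refine ⟨card_normalizer g, card_centralizer g, ?_, ?_⟩
  · obtain ⟨a, ha, b, hb, hab⟩ := C0_nonabelian
    have ha' : (⟨a, (mem_C0.1 ha).1⟩ : ↥M24) ∈
        Subgroup.centralizer (Subgroup.zpowers x7' : Set ↥M24) := by
      rw [mem_centralizer_zpowers]
      exact Subtype.ext (mem_C0.1 ha).2
    have hb' : (⟨b, (mem_C0.1 hb).1⟩ : ↥M24) ∈
        Subgroup.centralizer (Subgroup.zpowers x7' : Set ↥M24) := by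
      rw [mem_centralizer_zpowers]
      exact Subtype.ext (mem_C0.1 hb).2
    refine ⟨g * ⟨a, (mem_C0.1 ha).1⟩ * g⁻¹, ?_, g * ⟨b, (mem_C0.1 hb).1⟩ * g⁻¹, ?_, ?_⟩
    · rw [conj_mem_centralizer_zpowers]
      have e : g⁻¹ * (g * ⟨a, (mem_C0.1 ha).1⟩ * g⁻¹) * g = (⟨a, (mem_C0.1 ha).1⟩ : ↥M24) := by
        group
      rw [e]
      exact ha'
    · rw [conj_mem_centralizer_zpowers]
      have e : g⁻¹ * (g * ⟨b, (mem_C0.1 hb).1⟩ * g⁻¹) * g = (⟨b, (mem_C0.1 hb).1⟩ : ↥M24) := by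
        group
      rw [e]
      exact hb'
    · intro h
      apply hab
      have e1 : g * (⟨a, (mem_C0.1 ha).1⟩ : ↥M24) * g⁻¹ * (g * ⟨b, (mem_C0.1 hb).1⟩ * g⁻¹) =
          g * (⟨a, (mem_C0.1 ha).1⟩ * ⟨b, (mem_C0.1 hb).1⟩) * g⁻¹ := by group
      have e2 : g * (⟨b, (mem_C0.1 hb).1⟩ : ↥M24) * g⁻¹ * (g * ⟨a, (mem_C0.1 ha).1⟩ * g⁻¹) =
          g * (⟨b, (mem_C0.1 hb).1⟩ * ⟨a, (mem_C0.1 ha).1⟩) * g⁻¹ := by group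
      rw [e1, e2] at h
      have h3 := mul_left_cancel (mul_right_cancel h)
      exact congrArg Subtype.val h3
  · refine ⟨(g : Equiv.Perm GolayPt) • Cfsg.Agent.Lib.Helper36.trioObj c0,
      Cfsg.Agent.Lib.Helper36.smul_trio_mem g.2
        (Cfsg.Agent.Lib.Helper36.trioObj_mem (trioL_valid c0_mem)), ?_⟩
    intro n hn
    rw [conj_mem_normalizer_zpowers] at hn
    have h1 : ((g⁻¹ * n * g : ↥M24) : Equiv.Perm GolayPt) ∈ N0 := by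
      have h2 : ((g⁻¹ * n * g : ↥M24) : Equiv.Perm GolayPt) ∈
          (Subgroup.normalizer (Subgroup.zpowers x7' : Set ↥M24)).map M24.subtype :=
        Subgroup.mem_map.2 ⟨_, hn, rfl⟩
      rw [map_normalizer_zpowers] at h2
      exact h2
    have h3 := N0_trio h1
    have e : ((n : ↥M24) : Equiv.Perm GolayPt) =
        (g : Equiv.Perm GolayPt) * ((g⁻¹ * n * g : ↥M24) : Equiv.Perm GolayPt) *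
          (g : Equiv.Perm GolayPt)⁻¹ := by
      have e' : n = g * (g⁻¹ * n * g) * g⁻¹ := by group
      exact congrArg Subtype.val e'
    rw [e, smul_smul, inv_mul_cancel_right, mul_smul, h3]

end Cfsg.Agent.S5604
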