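import Cfsg.Statements.S5606
import Cfsg.Agent.Lib.Helper94.M24FixReps

set_option autoImplicit false
open scoped Pointwise
open Cfsg

namespace Cfsg.Agent.S5606

open Cfsg.Agent.Lib.Helper9 Cfsg.Agent.Lib.Helper94

theorem oct_cnt : cnt (fun m => popc m == 8 && pull T0T m == m) gB 0 = 15 := by decide +kernel

theorem trio_cnt : (trioL.filter (fixTrio T0T)).length = 75 := by decide +kernel

theorem sex_cnt : (Cfsg.Agent.Lib.Helper95.sxL.filter
    (fun L => L.contains (pull T0T (L.headD 0)))).length = 51 := by decide +kernel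

/-- A fixed-point-free involution of the group of the length-24 code maps to themselves exactly 15 octads, exactly 75 trios and exactly 51 sextets. -/
theorem result (g : Equiv.Perm Cfsg.GolayPt) (hg : g ∈ Cfsg.M24) (h₂ : orderOf g = 2) (h₀ : ∀ p, g p ≠ p) : {o : Finset Cfsg.GolayPt | o ∈ Cfsg.octads ∧ g • o = o}.ncard = 15 ∧ {T : Finset (Finset Cfsg.GolayPt) | T ∈ Cfsg.trios ∧ g • T = T}.ncard = 75 ∧ {S : Finset (Finset Cfsg.GolayPt) | S ∈ Cfsg.sextets ∧ g • S = S}.ncard = 51 := by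
  obtain ⟨k, hk, hkg⟩ := conj_t0 hg h₂ h₀
  refine ⟨?_, ?_, ?_⟩
  · rw [fixed_octads_eq hk hkg t0_table]
    exact oct_cnt
  · rw [fixed_trios_eq hk hkg t0_mem t0_table]
    exact trio_cnt
  · rw [fixed_sextets_eq hk hkg t0_mem t0_table]
    exact sex_cnt

end Cfsg.Agent.S5606
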