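import Cfsg.Statements.S5607
import Cfsg.Agent.Lib.Helper94.M24FixReps
import Cfsg.Agent.Lib.Helper94.M24Enum4

set_option autoImplicit false
open scoped Pointwise
open Cfsg

namespace Cfsg.Agent.S5607

open Cfsg.Agent.Lib.Helper9 Cfsg.Agent.Lib.Helper94

/-- The centraliser of `t0` in `M24`. -/
def C0 : Subgroup (Equiv.Perm GolayPt) := M24 ⊓ Subgroup.centralizer {t0}

/-- Commutation with `t0` on tables. -/
def PC (T : List ℕ) : Bool := compT T T0T == compT T0T T

theorem mem_C0 {σ : Equiv.Perm GolayPt} : σ ∈ C0 ↔ σ ∈ M24 ∧ σ * t0 = t0 * σ := by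
  rw [C0, Subgroup.mem_inf, Subgroup.mem_centralizer_singleton_iff]

theorem tdecC : TDec C0 PC := by
  refine ⟨inf_le_left, fun σ hσ T hT => ?_⟩
  rw [mem_C0, PC, beq_iff_eq]
  have h1 := hasTable_mul hT t0_table
  have h2 := hasTable_mul t0_table hT
  constructor
  · rintro ⟨_, h⟩
    rw [h] at h1
    exact h1.unique h2
  · intro h
    refine ⟨hσ, ?_⟩
    rw [h] at h1
    exact h1.eq_of_eq h2

theorem t0_mem_C0 : t0 ∈ C0 := mem_C0.2 ⟨t0_mem, rfl⟩

/-! ### The invariant sextet -/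

/-- The only sextet all of whose tetrads are invariant under `t0`. -/
def L0 : List ℕ := [8388801, 204832, 300032, 1051392, 2621446, 4210712]

theorem L0_unique : Cfsg.Agent.Lib.Helper95.sxL.filter
    (fun L => L.all (fun m => pull T0T m == m)) = [L0] := by decide +kernel

theorem L0_mem : L0 ∈ Cfsg.Agent.Lib.Helper95.sxL := by
  have h : L0 ∈ Cfsg.Agent.Lib.Helper95.sxL.filter (fun L => L.all (fun m => pull T0T m == m)) := by
    rw [L0_unique]
    exact List.mem_singleton_self _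
  exact (List.mem_filter.1 h).1

theorem L0_inv : L0.all (fun m => pull T0T m == m) = true := by decide +kernel

/-- The sextet left invariant by the centraliser. -/
def S0 : Finset (Finset GolayPt) := Cfsg.Agent.Lib.Helper95.sxSet L0

theorem S0_mem : S0 ∈ sextets :=
  Cfsg.Agent.Lib.Helper95.sxSet_mem_sextets (Cfsg.Agent.Lib.Helper95.sxL_mem_ok L0_mem)

theorem C0_fix_S0 {c : Equiv.Perm GolayPt} (hc : c ∈ C0) : c • S0 = S0 := by
  obtain ⟨hcM, hct⟩ := mem_C0.1 hc
  have hS := Cfsg.Agent.Lib.Helper95.smul_sextet_mem hcM S0_mem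
  obtain ⟨L', hL', hL'eq⟩ := Cfsg.Agent.Lib.Helper95.exists_sxL hS
  have hok' := Cfsg.Agent.Lib.Helper95.sxL_mem_ok hL'
  have hok0 := Cfsg.Agent.Lib.Helper95.sxL_mem_ok L0_mem
  have hall : L'.all (fun m => pull T0T m == m) = true := by
    rw [List.all_eq_true]
    intro m' hm'
    rw [beq_iff_eq, ← smul_eq_iff_pull t0_table (Cfsg.Agent.Lib.Helper95.sxOK_mem hok' hm').1]
    have h1 : support₂ (dec m') ∈ c • S0 := by
      rw [hL'eq]
      exact Cfsg.Agent.Lib.Helper95.mem_sxSet.mpr ⟨m', hm', rfl⟩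
    obtain ⟨τ, hτ, hτeq⟩ := Finset.mem_smul_finset.mp h1
    obtain ⟨m, hm, rfl⟩ := Cfsg.Agent.Lib.Helper95.mem_sxSet.mp hτ
    have hm_inv : t0 • support₂ (dec m) = support₂ (dec m) := by
      rw [smul_eq_iff_pull t0_table (Cfsg.Agent.Lib.Helper95.sxOK_mem hok0 hm).1]
      have := List.all_eq_true.mp L0_inv m hm
      rwa [beq_iff_eq] at this
    rw [← hτeq, smul_smul, ← hct, mul_smul, hm_inv]
  have hmem : L' ∈ Cfsg.Agent.Lib.Helper95.sxL.filter (fun L => L.all (fun m => pull T0T m == m)) :=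
    List.mem_filter.mpr ⟨hL', hall⟩
  rw [L0_unique, List.mem_singleton] at hmem
  rw [hL'eq, hmem]
  rfl

theorem fix_t0_image {σ : Equiv.Perm GolayPt} (hσ : σ ∈ C0) {i j : ℕ} (hi : i < 24)
    (hij : T0T.getD i 0 = j) (h : σ (pt i) = pt i) : σ (pt j) = pt j := by
  have ht : t0 (pt i) = pt j := by rw [t0_table.apply_pt hi, hij]
  have hc := (mem_C0.1 hσ).2
  rw [← ht, ← Equiv.Perm.mul_apply, hc, Equiv.Perm.mul_apply, h]

theorem invMask_pow {H : Subgroup (Equiv.Perm GolayPt)} {j : ℕ} (hj : j < 24)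
    (h : ∀ σ ∈ H, σ (pt j) = pt j) : InvMask H (2 ^ j) := by
  intro σ hσ p hp
  rw [Nat.testBit_two_pow] at hp
  have hjp : j = idx p := by simpa using hp
  have hp' : p = pt j := by rw [hjp, pt_idx]
  rw [hp', h σ hσ, idx_pt hj, Nat.testBit_two_pow]
  simp

/-! ### The order of the centraliser -/

def wsA : List (List ℕ) := [[1, 2, 15, 15, 6, 12, 16],
   [2, 9, 9, 13, 8, 11, 11, 17, 21, 22, 24, 26]]

def tsA : List (List ℕ) := [[14, 0, 23, 13, 17, 10, 3, 4, 2, 19, 8, 21, 11, 12, 5, 9, 18, 15, 20, 6, 1, 7, 16, 22],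
   [23, 1, 2, 3, 4, 17, 7, 6, 9, 8, 18, 20, 15, 16, 14, 12, 13, 5, 10, 19, 11, 21, 22, 0]]

theorem tsA_tab : wsA.map (prodT sgsTabs) = tsA := by decide +kernel

theorem tsA_P : tsA.all PC = true := by decide +kernel

theorem tsA_orb : orbIter tsA 24 (2 ^ 23) = 16777215 := by decide +kernel

def wsC : List (List ℕ) := [[8, 12, 11, 20],
   [16, 22, 22, 24, 26, 28, 30]]

def tsC : List (List ℕ) := [[0, 17, 13, 22, 14, 20, 7, 6, 10, 15, 1, 12, 21, 11, 3, 19, 8, 9, 2, 16, 18, 5, 4, 23],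
   [0, 1, 2, 5, 16, 3, 6, 7, 18, 15, 20, 12, 11, 22, 17, 9, 4, 14, 8, 19, 10, 21, 13, 23]]

theorem tsC_tab : wsC.map (prodT sgsTabs) = tsC := by decide +kernel

theorem tsC_P : tsC.all PC = true := by decide +kernel

theorem levelA : Nat.card ↥(C0 ⊓ fixing []) = popc 16777215 * Nat.card ↥(C0 ⊓ fixing [23]) :=
  tdecC.level tsA_tab tsA_P [] (by norm_num) 24 (by decide +kernel) tsA_orb (by decide +kernel)
    (invMask_all _)

theorem levelB : Nat.card ↥(C0 ⊓ fixing [23]) = popc (2 ^ 0) * Nat.card ↥(C0 ⊓ fixing [0, 23]) :=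
  tdecC.level (ws := []) (ts := []) rfl rfl [23] (by norm_num) 24 rfl (by decide +kernel)
    (by decide +kernel)
    (invMask_pow (by norm_num) (fun σ hσ =>
      fix_t0_image hσ.1 (i := 23) (by norm_num) (by decide +kernel) (hσ.2 23 (by simp))))

theorem tetrad_inv : InvMask (C0 ⊓ fixing [0, 23]) 8388801 := by
  apply invMask_of_le_stab
  intro σ hσ
  rw [MulAction.mem_stabilizer_iff]
  have hS := C0_fix_S0 hσ.1
  have hτ : support₂ (dec 8388801) ∈ S0 :=
    Cfsg.Agent.Lib.Helper95.mem_sxSet.mpr ⟨8388801, by decide, rfl⟩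
  have hστ : σ • support₂ (dec 8388801) ∈ S0 := by
    have := Finset.smul_mem_smul_finset (a := σ) hτ
    rwa [hS] at this
  by_contra hne
  have hd := Cfsg.Agent.Lib.Helper95.sextet_disjoint S0_mem hστ hτ hne
  have h23 : pt 23 ∈ support₂ (dec 8388801) := (mem_dec_pt _ (by norm_num)).2 (by decide +kernel)
  have h23' : pt 23 ∈ σ • support₂ (dec 8388801) := by
    have := Finset.smul_mem_smul_finset (a := σ) h23
    rwa [Equiv.Perm.smul_def, hσ.2 23 (by simp)] at this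
  exact Finset.disjoint_left.mp hd h23' h23

theorem levelC : Nat.card ↥(C0 ⊓ fixing [0, 23]) =
    popc (16777215 ^^^ 8388801) * Nat.card ↥(C0 ⊓ fixing [1, 0, 23]) :=
  tdecC.level tsC_tab tsC_P [0, 23] (by norm_num) 24 (by decide +kernel) (by decide +kernel)
    (by decide +kernel) tetrad_inv.compl

theorem levelD : Nat.card ↥(C0 ⊓ fixing [1, 0, 23]) =
    popc (2 ^ 2) * Nat.card ↥(C0 ⊓ fixing [2, 1, 0, 23]) :=
  tdecC.level (ws := []) (ts := []) rfl rfl [1, 0, 23] (by norm_num) 24 rfl (by decide +kernel)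
    (by decide +kernel)
    (invMask_pow (by norm_num) (fun σ hσ =>
      fix_t0_image hσ.1 (i := 1) (by norm_num) (by decide +kernel) (hσ.2 1 (by simp))))

theorem rest_length : (stab4T.filter PC).length = 16 := by decide +kernel

theorem rest_nodup : (stab4T.filter PC).Nodup := by decide +kernel

theorem card_C0 : Nat.card ↥C0 = 7680 := by
  have h := levelA
  rw [inf_fixing_nil, levelB, levelC, levelD, tdecC.card_fix enum4 rest_nodup, rest_length] at h
  rw [h]
  decide +kernel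

theorem C0_trans (p q : GolayPt) : ∃ c ∈ C0, c p = q := by
  have htabs : ∀ T ∈ tsA, ∃ σ ∈ C0, HasTable σ T := by
    intro T hT
    rw [← tsA_tab, List.mem_map] at hT
    obtain ⟨w, hw, rfl⟩ := hT
    have hT' : prodT sgsTabs w ∈ tsA := by rw [← tsA_tab]; exact List.mem_map_of_mem hw
    have h1 := tdecC.mem_of_word (List.all_eq_true.mp tsA_P _ hT')
    exact ⟨prodW sgsEnv w, h1.1, h1.2⟩
  have hreach : Reach C0 (pt 23) 16777215 := by
    rw [← tsA_orb]
    exact Reach.iter tsA htabs 24 (reach_pow _ (by norm_num))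
  have key : ∀ r : GolayPt, ∃ c ∈ C0, c (pt 23) = r := by
    intro r
    obtain ⟨σ, hσ, hσr⟩ := mem_orbit_subgroup.mp (hreach.mem_orbit (testBit_all r))
    exact ⟨σ, hσ, hσr⟩
  obtain ⟨a, ha, hap⟩ := key p
  obtain ⟨b, hb, hbq⟩ := key q
  refine ⟨b * a⁻¹, C0.mul_mem hb (C0.inv_mem ha), ?_⟩
  rw [Equiv.Perm.mul_apply, ← hap, inv_app', hbq]

/-- For a fixed-point-free involution t of the group of the length-24 code: its centraliser in that group has order 7680, is transitive on the 24 points, and is contained, together with t, in the stabiliser of some sextet. -/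
theorem result (t : Equiv.Perm Cfsg.GolayPt) (ht : t ∈ Cfsg.M24) (h₂ : orderOf t = 2) (h₀ : ∀ p, t p ≠ p) : Nat.card {c : Equiv.Perm Cfsg.GolayPt // c ∈ Cfsg.M24 ∧ c * t = t * c} = 7680 ∧ (∀ p q : Cfsg.GolayPt, ∃ c ∈ Cfsg.M24, c * t = t * c ∧ c p = q) ∧ ∃ S ∈ Cfsg.sextets, t • S = S ∧ ∀ c ∈ Cfsg.M24, c * t = t * c → c • S = S := by
  obtain ⟨k, hk, hkt⟩ := conj_t0 ht h₂ h₀
  have key : ∀ c : Equiv.Perm GolayPt, (c ∈ M24 ∧ c * t = t * c) ↔ k * c * k⁻¹ ∈ C0 := by
    intro c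
    rw [mem_C0, ← hkt]
    have e1 : k * c * k⁻¹ * (k * t * k⁻¹) = k * (c * t) * k⁻¹ := by group
    have e2 : k * t * k⁻¹ * (k * c * k⁻¹) = k * (t * c) * k⁻¹ := by group
    constructor
    · rintro ⟨hc, hct⟩
      refine ⟨M24.mul_mem (M24.mul_mem hk hc) (M24.inv_mem hk), ?_⟩
      rw [e1, e2, hct]
    · rintro ⟨hc, hct⟩
      refine ⟨?_, ?_⟩
      · have e : c = k⁻¹ * (k * c * k⁻¹) * k := by group
        rw [e]
        exact M24.mul_mem (M24.mul_mem (M24.inv_mem hk) hc) hk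
      · rw [e1, e2] at hct
        exact mul_left_cancel (mul_right_cancel hct)
  have key' : ∀ d : Equiv.Perm GolayPt, d ∈ C0 → (k⁻¹ * d * k ∈ M24 ∧ k⁻¹ * d * k * t = t * (k⁻¹ * d * k)) := by
    intro d hd
    apply (key _).2
    have e : k * (k⁻¹ * d * k) * k⁻¹ = d := by group
    rw [e]
    exact hd
  refine ⟨?_, ?_, ?_⟩
  · rw [← card_C0]
    apply Nat.card_congr
    exact
      { toFun := fun c => ⟨k * c.1 * k⁻¹, (key c.1).1 c.2⟩
        invFun := fun d => ⟨k⁻¹ * d.1 * k, key' d.1 d.2⟩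
        left_inv := fun c => Subtype.ext (by
          show k⁻¹ * (k * c.1 * k⁻¹) * k = c.1
          group)
        right_inv := fun d => Subtype.ext (by
          show k * (k⁻¹ * d.1 * k) * k⁻¹ = d.1
          group) }
  · intro p q
    obtain ⟨c0, hc0, hc0p⟩ := C0_trans (k p) (k q)
    have hc := key' c0 hc0
    refine ⟨k⁻¹ * c0 * k, hc.1, hc.2, ?_⟩
    rw [Equiv.Perm.mul_apply, Equiv.Perm.mul_apply, hc0p, inv_app']
  · refine ⟨k⁻¹ • S0, Cfsg.Agent.Lib.Helper95.smul_sextet_mem (M24.inv_mem hk) S0_mem, ?_, ?_⟩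
    · have e : t = k⁻¹ * t0 * k := by rw [← hkt]; group
      have e' : k⁻¹ * t0 * k * k⁻¹ = k⁻¹ * t0 := by group
      rw [e, smul_smul, e', mul_smul, C0_fix_S0 t0_mem_C0]
    · intro c hc hct
      have h1 := C0_fix_S0 ((key c).1 ⟨hc, hct⟩)
      have e : c • k⁻¹ • S0 = k⁻¹ • ((k * c * k⁻¹) • S0) := by
        rw [smul_smul, smul_smul]
        congr 1
        group
      rw [e, h1]

end Cfsg.Agent.S5607
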