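import Cfsg.Statements.S5608
import Cfsg.Agent.Lib.Helper94.M24Classes

set_option autoImplicit false
open scoped Pointwise
open Cfsg

namespace Cfsg.Agent.S5608

open Cfsg.Agent.Lib.Helper9 Cfsg.Agent.Lib.Helper94

def wC5 : List ℕ := [2, 15, 6, 12, 18, 10, 20, 17, 20]
def uC5 : List ℕ := [1, 2, 3, 5, 20, 23, 4, 10, 9, 8, 19, 11, 6, 18, 17, 15, 21, 14, 22, 7, 16, 12, 13, 0]
theorem uC5_tab : prodT sgsTabs wC5 = uC5 := by decide +kernel

def wC4 : List ℕ := [2, 15, 6, 12, 18, 10, 16, 20]
def uC4 : List ℕ := [1, 2, 3, 4, 14, 7, 11, 22, 15, 13, 21, 8, 19, 17, 12, 18, 23, 10, 16, 6, 20, 9, 5, 0]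
theorem uC4_tab : prodT sgsTabs wC4 = uC4 := by decide +kernel

def wD : List ℕ := [2, 15, 6, 12, 12, 9, 10, 10, 16]
def uD : List ℕ := [1, 23, 3, 2, 10, 5, 18, 16, 12, 4, 11, 15, 21, 8, 17, 19, 13, 14, 22, 9, 20, 7, 6, 0]
theorem uD_tab : prodT sgsTabs wD = uD := by decide +kernel

/-- Candidate tables for elements of order 6 in normal form. -/
def cands6 : List (List ℕ) := cosetT uC5 ++ cosetT uC4 ++ cosetT uD

theorem cands6_ok : cands6.all (fun T =>
    !(compT (compT T (compT T T)) (compT T (compT T T)) == idT) ||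
      (fixCount (compT T T) == 6 && fixCount (compT T (compT T T)) == 8) ||
      (fixCount (compT T T) == 0 && fixCount (compT T (compT T T)) == 0)) = true := by
  decide +kernel

/-- Every element of order 6 of `M24` has a conjugate with table in `cands6`. -/
theorem nf6 (y : Equiv.Perm GolayPt) (hy : y ∈ M24)
    (h6 : ∀ p, y (y (y (y (y (y p))))) = p)
    (h2 : ∃ p, y (y p) ≠ p) (h3 : ∃ p, y (y (y p)) ≠ p) :
    ∃ g ∈ M24, ∃ T ∈ cands6, HasTable (g * y * g⁻¹) T := by
  by_cases hA : ∃ u, y (y u) ≠ u ∧ y (y (y u)) ≠ u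
  · obtain ⟨u, hu2, hu3⟩ := hA
    have hper : Function.minimalPeriod y u = 6 := by
      have hd : Function.minimalPeriod y u ∣ 6 :=
        Function.IsPeriodicPt.minimalPeriod_dvd (h6 u)
      have hn2 : ¬ Function.minimalPeriod y u ∣ 2 := fun h =>
        hu2 ((Function.isPeriodicPt_iff_minimalPeriod_dvd).2 h)
      have hn3 : ¬ Function.minimalPeriod y u ∣ 3 := fun h =>
        hu3 ((Function.isPeriodicPt_iff_minimalPeriod_dvd).2 h)
      have hle : Function.minimalPeriod y u ≤ 6 := Nat.le_of_dvd (by norm_num) hd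
      generalize Function.minimalPeriod y u = n at hd hn2 hn3 hle
      interval_cases n <;> first | rfl | exact absurd hd (by decide) |
        exact absurd (by decide) hn2 | exact absurd (by decide) hn3
    have D : ∀ i j : ℕ, i < 6 → j < 6 → i ≠ j →
        (y : GolayPt → GolayPt)^[i] u ≠ (y : GolayPt → GolayPt)^[j] u := by
      intro i j hi hj hij h
      have := Function.iterate_injOn_Iio_minimalPeriod (f := (y : GolayPt → GolayPt)) (x := u)
      rw [hper] at this
      exact hij (this (Set.mem_Iio.2 hi) (Set.mem_Iio.2 hj) h)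
    obtain ⟨g, hg, e0, e1, e2, e3, e4⟩ :=
      exists_map_five (p0 := u) (p1 := y u) (p2 := y (y u)) (p3 := y (y (y u)))
        (p4 := y (y (y (y u))))
        (D 0 1 (by norm_num) (by norm_num) (by norm_num))
        (D 0 2 (by norm_num) (by norm_num) (by norm_num))
        (D 0 3 (by norm_num) (by norm_num) (by norm_num))
        (D 0 4 (by norm_num) (by norm_num) (by norm_num))
        (D 1 2 (by norm_num) (by norm_num) (by norm_num))
        (D 1 3 (by norm_num) (by norm_num) (by norm_num))
        (D 1 4 (by norm_num) (by norm_num) (by norm_num))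
        (D 2 3 (by norm_num) (by norm_num) (by norm_num))
        (D 2 4 (by norm_num) (by norm_num) (by norm_num))
        (D 3 4 (by norm_num) (by norm_num) (by norm_num))
    have q23 : g (y (y (y (y (y u))))) ≠ pt 23 := by
      rw [← e0]
      exact fun h => D 5 0 (by norm_num) (by norm_num) (by norm_num) (g.injective h)
    have q0 : g (y (y (y (y (y u))))) ≠ pt 0 := by
      rw [← e1]
      exact fun h => D 5 1 (by norm_num) (by norm_num) (by norm_num) (g.injective h)
    have q1 : g (y (y (y (y (y u))))) ≠ pt 1 := by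
      rw [← e2]
      exact fun h => D 5 2 (by norm_num) (by norm_num) (by norm_num) (g.injective h)
    have q2 : g (y (y (y (y (y u))))) ≠ pt 2 := by
      rw [← e3]
      exact fun h => D 5 3 (by norm_num) (by norm_num) (by norm_num) (g.injective h)
    have q3 : g (y (y (y (y (y u))))) ≠ pt 3 := by
      rw [← e4]
      exact fun h => D 5 4 (by norm_num) (by norm_num) (by norm_num) (g.injective h)
    obtain ⟨s, hs, hsq⟩ := exists_norm_q _ q23 q0 q1 q2 q3
    have s23 : s (pt 23) = pt 23 := hs.2 23 (by simp)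
    have s0 : s (pt 0) = pt 0 := hs.2 0 (by simp)
    have s1 : s (pt 1) = pt 1 := hs.2 1 (by simp)
    have s2 : s (pt 2) = pt 2 := hs.2 2 (by simp)
    have s3 : s (pt 3) = pt 3 := hs.2 3 (by simp)
    have f0 : (s * g) u = pt 23 := by rw [Equiv.Perm.mul_apply, e0, s23]
    have f1 : (s * g) (y u) = pt 0 := by rw [Equiv.Perm.mul_apply, e1, s0]
    have f2 : (s * g) (y (y u)) = pt 1 := by rw [Equiv.Perm.mul_apply, e2, s1]
    have f3 : (s * g) (y (y (y u))) = pt 2 := by rw [Equiv.Perm.mul_apply, e3, s2]
    have f4 : (s * g) (y (y (y (y u)))) = pt 3 := by rw [Equiv.Perm.mul_apply, e4, s3]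
    have hsg : s * g ∈ M24 := M24.mul_mem hs.1 hg
    refine ⟨s * g, hsg, ?_⟩
    rcases hsq with hsq | hsq
    · have hmem := mem_cosetT (w := wC5) (M24.mul_mem (M24.mul_mem hsg hy) (M24.inv_mem hsg))
        (by
          rw [uC5_tab]
          intro i hi
          simp only [List.mem_cons, List.not_mem_nil, or_false] at hi
          rcases hi with rfl | rfl | rfl | rfl | rfl
          · rw [conj_apply_of f4, Equiv.Perm.mul_apply, hsq]; rfl
          · rw [conj_apply_of f3, f4]; rfl
          · rw [conj_apply_of f2, f3]; rfl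
          · rw [conj_apply_of f1, f2]; rfl
          · rw [conj_apply_of f0, f1]; rfl)
      rw [uC5_tab] at hmem
      obtain ⟨T, hT, hTt⟩ := hmem
      exact ⟨T, List.mem_append_left _ (List.mem_append_left _ hT), hTt⟩
    · have hmem := mem_cosetT (w := wC4) (M24.mul_mem (M24.mul_mem hsg hy) (M24.inv_mem hsg))
        (by
          rw [uC4_tab]
          intro i hi
          simp only [List.mem_cons, List.not_mem_nil, or_false] at hi
          rcases hi with rfl | rfl | rfl | rfl | rfl
          · rw [conj_apply_of f4, Equiv.Perm.mul_apply, hsq]; rfl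
          · rw [conj_apply_of f3, f4]; rfl
          · rw [conj_apply_of f2, f3]; rfl
          · rw [conj_apply_of f1, f2]; rfl
          · rw [conj_apply_of f0, f1]; rfl)
      rw [uC4_tab] at hmem
      obtain ⟨T, hT, hTt⟩ := hmem
      exact ⟨T, List.mem_append_left _ (List.mem_append_right _ hT), hTt⟩
  · push Not at hA
    obtain ⟨v, hv2⟩ := h2
    obtain ⟨u, hu3⟩ := h3
    have hv3 : y (y (y v)) = v := hA v hv2
    have hu2 : y (y u) = u := by
      by_contra h
      exact hu3 (hA u h)
    have Fyu : y (y (y u)) = y u := by rw [hu2]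
    have nFyv : y (y (y v)) ≠ y v := fun h => hv2 (y.injective h)
    have nFyyv : y (y (y (y v))) ≠ y (y v) := fun h => nFyv (y.injective h)
    have h01 : v ≠ y v := fun h => hv2 (by rw [← h]; exact h.symm)
    have h02 : v ≠ y (y v) := fun h => hv2 h.symm
    have h03 : v ≠ u := fun h => hv2 (by rw [h]; exact hu2)
    have h04 : v ≠ y u := fun h => hv2 (by rw [h]; exact Fyu)
    have h12 : y v ≠ y (y v) := fun h => h01 (y.injective h)
    have h13 : y v ≠ u := fun h => nFyv (by rw [h]; exact hu2)
    have h14 : y v ≠ y u := fun h => nFyv (by rw [h]; exact Fyu)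
    have h23 : y (y v) ≠ u := fun h => nFyyv (by rw [h]; exact hu2)
    have h24 : y (y v) ≠ y u := fun h => nFyyv (by rw [h]; exact Fyu)
    have h34 : u ≠ y u := fun h => hu3 (by rw [← h]; exact hu2)
    obtain ⟨g, hg, e0, e1, e2, e3, e4⟩ :=
      exists_map_five (p0 := v) (p1 := y v) (p2 := y (y v)) (p3 := u) (p4 := y u)
        h01 h02 h03 h04 h12 h13 h14 h23 h24 h34
    refine ⟨g, hg, ?_⟩
    have hmem := mem_cosetT (w := wD) (M24.mul_mem (M24.mul_mem hg hy) (M24.inv_mem hg))
      (by
        rw [uD_tab]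
        intro i hi
        simp only [List.mem_cons, List.not_mem_nil, or_false] at hi
        rcases hi with rfl | rfl | rfl | rfl | rfl
        · rw [conj_apply_of e4, hu2, e3]; rfl
        · rw [conj_apply_of e3, e4]; rfl
        · rw [conj_apply_of e2, hv3, e0]; rfl
        · rw [conj_apply_of e1, e2]; rfl
        · rw [conj_apply_of e0, e1]; rfl)
    rw [uD_tab] at hmem
    obtain ⟨T, hT, hTt⟩ := hmem
    exact ⟨T, List.mem_append_right _ hT, hTt⟩

/-- If an element of order 3 and an involution of the group of the length-24 code commute, then either the element of order 3 has exactly 6 fixed points and the involution exactly 8, or both are fixed-point-free. -/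
theorem result (x s : Equiv.Perm Cfsg.GolayPt) (hx : x ∈ Cfsg.M24) (hs : s ∈ Cfsg.M24) (h₃ : orderOf x = 3) (h₂ : orderOf s = 2) (hc : Commute x s) : ((Finset.univ.filter fun p => x p = p).card = 6 ∧ (Finset.univ.filter fun p => s p = p).card = 8) ∨ ((Finset.univ.filter fun p => x p = p).card = 0 ∧ (Finset.univ.filter fun p => s p = p).card = 0) := by
  have hx3 : x ^ 3 = 1 := by rw [← h₃]; exact pow_orderOf_eq_one x
  have hs2 : s ^ 2 = 1 := by rw [← h₂]; exact pow_orderOf_eq_one s
  have hxne : x ≠ 1 := by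
    rintro rfl
    rw [orderOf_one] at h₃
    norm_num at h₃
  have hsne : s ≠ 1 := by
    rintro rfl
    rw [orderOf_one] at h₂
    norm_num at h₂
  obtain ⟨y, hy⟩ : ∃ y, y = x * s := ⟨_, rfl⟩
  have hy2 : y * y = x⁻¹ := by
    have e1 : y * y = x ^ 2 * s ^ 2 := by rw [hy, ← hc.mul_pow, pow_two]
    rw [e1, hs2, mul_one]
    exact eq_inv_of_mul_eq_one_left (by rw [← pow_succ, hx3])
  have hy3 : y * (y * y) = s := by
    rw [hy2, hy, hc.eq, mul_assoc, mul_inv_cancel, mul_one]
  have hyy : ∀ p, y (y p) = x⁻¹ p := fun p => by rw [← Equiv.Perm.mul_apply, hy2]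
  have hyyy : ∀ p, y (y (y p)) = s p := fun p => by
    have := congrArg (fun f : Equiv.Perm GolayPt => f p) hy3
    simpa [Equiv.Perm.mul_apply] using this
  have hss : ∀ p, s (s p) = p := fun p => by
    have := congrArg (fun f : Equiv.Perm GolayPt => f p) hs2
    simpa [pow_two, Equiv.Perm.mul_apply] using this
  have h6 : ∀ p, y (y (y (y (y (y p))))) = p := fun p => by rw [hyyy, hyyy, hss]
  have h2' : ∃ p, y (y p) ≠ p := by
    by_contra hcon
    push Not at hcon
    apply hxne
    have : x⁻¹ = 1 := Equiv.ext (fun p => by rw [← hyy]; exact hcon p)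
    exact inv_eq_one.1 this
  have h3' : ∃ p, y (y (y p)) ≠ p := by
    by_contra hcon
    push Not at hcon
    apply hsne
    exact Equiv.ext (fun p => by rw [← hyyy]; exact hcon p)
  have hym : y ∈ M24 := by rw [hy]; exact M24.mul_mem hx hs
  obtain ⟨g, hg, T, hT, hTt⟩ := nf6 y hym h6 h2' h3'
  have t2 : HasTable (g * x⁻¹ * g⁻¹) (compT T T) := by
    have h := hasTable_mul hTt hTt
    have e : (g * y * g⁻¹) * (g * y * g⁻¹) = g * (y * y) * g⁻¹ := by group
    rw [e, hy2] at h
    exact h
  have t3 : HasTable (g * s * g⁻¹) (compT T (compT T T)) := by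
    have h := hasTable_mul hTt (hasTable_mul hTt hTt)
    have e : (g * y * g⁻¹) * ((g * y * g⁻¹) * (g * y * g⁻¹)) = g * (y * (y * y)) * g⁻¹ := by
      group
    rw [e, hy3] at h
    exact h
  have t6 : compT (compT T (compT T T)) (compT T (compT T T)) = idT := by
    have h := hasTable_mul t3 t3
    have e : (g * s * g⁻¹) * (g * s * g⁻¹) = 1 := by
      have : (g * s * g⁻¹) * (g * s * g⁻¹) = g * (s * s) * g⁻¹ := by group
      rw [this, ← pow_two, hs2, mul_one, mul_inv_cancel]
    rw [e] at h
    exact h.unique hasTable_one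
  have cx : (Finset.univ.filter fun p => x p = p).card = fixCount (compT T T) := by
    rw [← card_fixed_eq t2, card_fixed_conj]
    congr 1
    apply Finset.filter_congr
    intro p _
    rw [Equiv.Perm.inv_eq_iff_eq, eq_comm]
  have cs : (Finset.univ.filter fun p => s p = p).card = fixCount (compT T (compT T T)) := by
    rw [← card_fixed_eq t3, card_fixed_conj]
  have hk := List.all_eq_true.mp cands6_ok T hT
  rw [t6] at hk
  simp only [beq_self_eq_true, Bool.not_true, Bool.false_or, Bool.or_eq_true, Bool.and_eq_true,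
    beq_iff_eq] at hk
  rw [cx, cs]
  exact hk

end Cfsg.Agent.S5608
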