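import Cfsg.Statements.S5609
import Cfsg.Agent.S0352
import Cfsg.Agent.S0363
import Cfsg.Agent.S1550
import Cfsg.Agent.S1557

set_option autoImplicit false
open scoped Pointwise
open Cfsg

namespace Cfsg.Agent.S5609

open Cfsg.Agent.Lib.Helper9

theorem sextet_disj {S : Finset (Finset GolayPt)} (hS : S ∈ sextets) {t u : Finset GolayPt}
    (ht : t ∈ S) (hu : u ∈ S) (hne : t ≠ u) : Disjoint t u := by
  obtain ⟨-, h4, h8⟩ := hS
  have h1 := card_octad (h8 t ht u hu hne)
  have h2 := Finset.card_union_add_card_inter t u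
  rw [h1, h4 t ht, h4 u hu] at h2
  rw [Finset.disjoint_iff_inter_eq_empty, ← Finset.card_eq_zero]
  omega

theorem inter_cases {o o' : Finset GolayPt} (ho : o ∈ octads) (ho' : o' ∈ octads) (hne : o ≠ o') :
    (o ∩ o').card = 0 ∨ (o ∩ o').card = 2 ∨ (o ∩ o').card = 4 :=
  Cfsg.Agent.S0352.result Cfsg.Agent.S1557.card_pt Cfsg.Agent.S0363.result ho ho' hne

/-- Two octads meeting in four points have a common disjoint octad. -/
theorem common_disjoint {o o' : Finset GolayPt} (ho : o ∈ octads) (ho' : o' ∈ octads)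
    (h4 : (o ∩ o').card = 4) : ∃ a ∈ octads, Disjoint o a ∧ Disjoint a o' := by
  have hS := Cfsg.Agent.S1550.sextetOf_mem h4
  have htS : o ∩ o' ∈ Cfsg.Agent.S1550.sextetOf (o ∩ o') := by
    rw [Cfsg.Agent.S1550.sextetOf]
    exact Finset.mem_insert_self _ _
  have hu1 : o \ (o ∩ o') ∈ Cfsg.Agent.S1550.sextetOf (o ∩ o') := by
    rw [Cfsg.Agent.S1550.sextetOf]
    apply Finset.mem_insert_of_mem
    exact Finset.mem_image.2 ⟨o, Finset.mem_filter.2 ⟨mem_blocksFin.2 ho,
      Finset.inter_subset_left⟩, rfl⟩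
  have hu2 : o' \ (o ∩ o') ∈ Cfsg.Agent.S1550.sextetOf (o ∩ o') := by
    rw [Cfsg.Agent.S1550.sextetOf]
    apply Finset.mem_insert_of_mem
    exact Finset.mem_image.2 ⟨o', Finset.mem_filter.2 ⟨mem_blocksFin.2 ho',
      Finset.inter_subset_right⟩, rfl⟩
  have hcard : 1 < ((((Cfsg.Agent.S1550.sextetOf (o ∩ o')).erase (o ∩ o')).erase
      (o \ (o ∩ o'))).erase (o' \ (o ∩ o'))).card := by
    have h6 := hS.1
    have e1 := Finset.pred_card_le_card_erase (s := Cfsg.Agent.S1550.sextetOf (o ∩ o'))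
      (a := o ∩ o')
    have e2 := Finset.pred_card_le_card_erase
      (s := (Cfsg.Agent.S1550.sextetOf (o ∩ o')).erase (o ∩ o')) (a := o \ (o ∩ o'))
    have e3 := Finset.pred_card_le_card_erase
      (s := ((Cfsg.Agent.S1550.sextetOf (o ∩ o')).erase (o ∩ o')).erase (o \ (o ∩ o')))
      (a := o' \ (o ∩ o'))
    omega
  obtain ⟨a, ha, b, hb, hab⟩ := Finset.one_lt_card.1 hcard
  simp only [Finset.mem_erase] at ha hb
  obtain ⟨ha3, ha2, ha1, haS⟩ := ha
  obtain ⟨hb3, hb2, hb1, hbS⟩ := hb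
  have eo : (o ∩ o') ∪ (o \ (o ∩ o')) = o := Finset.union_sdiff_of_subset Finset.inter_subset_left
  have eo' : (o ∩ o') ∪ (o' \ (o ∩ o')) = o' :=
    Finset.union_sdiff_of_subset Finset.inter_subset_right
  refine ⟨a ∪ b, hS.2.2 a haS b hbS hab, ?_, ?_⟩
  · rw [← eo, Finset.disjoint_union_left, Finset.disjoint_union_right,
      Finset.disjoint_union_right]
    exact ⟨⟨sextet_disj hS htS haS (Ne.symm ha1), sextet_disj hS htS hbS (Ne.symm hb1)⟩,
      ⟨sextet_disj hS hu1 haS (Ne.symm ha2), sextet_disj hS hu1 hbS (Ne.symm hb2)⟩⟩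
  · rw [← eo', Finset.disjoint_union_left, Finset.disjoint_union_right,
      Finset.disjoint_union_right]
    exact ⟨⟨sextet_disj hS haS htS ha1, sextet_disj hS haS hu2 ha3⟩,
      ⟨sextet_disj hS hbS htS hb1, sextet_disj hS hbS hu2 hb3⟩⟩

theorem exists_disjoint {o : Finset GolayPt} (ho : o ∈ octads) : ∃ a ∈ octads, Disjoint o a := by
  have h := Cfsg.Agent.S1557.card_disjoint_octads ho
  obtain ⟨a, ha⟩ := Finset.card_pos.1 (lt_of_lt_of_eq (by norm_num : 0 < 30) h.symm)
  rw [Finset.mem_filter, mem_blocksFin] at ha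
  exact ⟨a, ha.1, ha.2⟩

theorem card_split {o o' a : Finset GolayPt} (ho' : o' ∈ octads) (hoa : Disjoint o a) :
    (o' ∩ (o ∪ a)ᶜ).card + (o' ∩ o).card + (o' ∩ a).card = 8 := by
  have e1 : o' ∩ (o ∪ a) = (o' ∩ o) ∪ (o' ∩ a) := Finset.inter_union_distrib_left _ _ _
  have hd : Disjoint (o' ∩ o) (o' ∩ a) :=
    Finset.disjoint_of_subset_left Finset.inter_subset_right
      (Finset.disjoint_of_subset_right Finset.inter_subset_right hoa)
  have e2 := Finset.card_union_of_disjoint hd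
  have e3 := Finset.card_sdiff_add_card_inter o' (o ∪ a)
  rw [Finset.sdiff_eq_inter_compl, e1, e2, card_octad ho'] at e3
  omega

theorem inter_compl_union (o a : Finset GolayPt) : o ∩ (o ∪ a)ᶜ = ∅ := by
  ext p
  simp only [Finset.mem_inter, Finset.mem_compl, Finset.mem_union, Finset.notMem_empty,
    iff_false, not_and, not_not]
  intro hp
  exact Or.inl hp

/-- Two octads meeting in two points have no common disjoint octad. -/
theorem no_common {o o' a : Finset GolayPt} (ho : o ∈ octads) (ho' : o' ∈ octads)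
    (ha : a ∈ octads) (h2 : (o ∩ o').card = 2) (hoa : Disjoint o a) (hao' : Disjoint a o') :
    False := by
  have hb := Cfsg.Agent.S1557.compl_union_mem ho ha hoa
  have e := card_split ho' hoa
  rw [Finset.inter_comm o' o, h2, Finset.inter_comm o' a,
    Finset.disjoint_iff_inter_eq_empty.1 hao', Finset.card_empty] at e
  have heq := octad_eq_of_inter ho' hb (by omega)
  rw [heq, inter_compl_union, Finset.card_empty] at h2
  exact absurd h2 (by norm_num)

/-- From an octad meeting `o'` in two points, one disjoint step leads to an octad meeting `o'`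
in four points. -/
theorem exists_step {o o' : Finset GolayPt} (ho : o ∈ octads) (ho' : o' ∈ octads)
    (h2 : (o ∩ o').card = 2) : ∃ a ∈ octads, Disjoint o a ∧ (a ∩ o').card = 4 := by
  obtain ⟨a0, ha0, hd0⟩ := exists_disjoint ho
  have ha1 := Cfsg.Agent.S1557.compl_union_mem ho ha0 hd0
  have e := card_split ho' hd0
  rw [Finset.inter_comm o' o, h2] at e
  have hne0 : a0 ≠ o' := by
    rintro rfl
    rw [Finset.disjoint_iff_inter_eq_empty.1 hd0, Finset.card_empty] at h2
    exact absurd h2 (by norm_num)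
  have hne1 : (o ∪ a0)ᶜ ≠ o' := by
    rintro rfl
    rw [inter_compl_union, Finset.card_empty] at h2
    exact absurd h2 (by norm_num)
  have c0 := inter_cases ha0 ho' hne0
  have c1 := inter_cases ha1 ho' hne1
  rw [Finset.inter_comm a0 o'] at c0
  rw [Finset.inter_comm _ o'] at c1
  by_cases h04 : (o' ∩ a0).card = 4
  · exact ⟨a0, ha0, hd0, by rw [Finset.inter_comm]; exact h04⟩
  · refine ⟨(o ∪ a0)ᶜ, ha1, ?_, ?_⟩
    · rw [Finset.disjoint_iff_inter_eq_empty]
      exact inter_compl_union o a0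
    · rw [Finset.inter_comm]
      omega

theorem adj_iff (a b : ↥octads) :
    (blockGraph octads).Adj a b ↔ Disjoint (a : Finset GolayPt) (b : Finset GolayPt) := by
  rw [blockGraph, SimpleGraph.fromRel_adj]
  constructor
  · rintro ⟨_, h | h⟩
    · exact h
    · exact h.symm
  · intro h
    refine ⟨?_, Or.inl h⟩
    rintro rfl
    have h8 := card_octad a.2
    rw [disjoint_self] at h
    rw [show (a : Finset GolayPt) = ∅ from h] at h8
    simp at h8

theorem reach (a b : ↥octads) : (blockGraph octads).Reachable a b := by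
  by_cases hab : a = b
  · rw [hab]
  · have hne : (a : Finset GolayPt) ≠ (b : Finset GolayPt) := fun h => hab (Subtype.ext h)
    rcases inter_cases a.2 b.2 hne with h | h | h
    · exact ((adj_iff a b).2 (by
        rw [Finset.disjoint_iff_inter_eq_empty]
        exact Finset.card_eq_zero.1 h)).reachable
    · obtain ⟨c, hc, hac, hcb⟩ := exists_step a.2 b.2 h
      obtain ⟨d, hd, hcd, hdb⟩ := common_disjoint hc b.2 hcb
      exact (((adj_iff a ⟨c, hc⟩).2 hac).reachable.trans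
        ((adj_iff ⟨c, hc⟩ ⟨d, hd⟩).2 hcd).reachable).trans
          ((adj_iff ⟨d, hd⟩ b).2 hdb).reachable
    · obtain ⟨c, hc, hac, hcb⟩ := common_disjoint a.2 b.2 h
      exact ((adj_iff a ⟨c, hc⟩).2 hac).reachable.trans ((adj_iff ⟨c, hc⟩ b).2 hcb).reachable

/-- In the graph on the 759 octads of the length-24 code in which two octads are adjacent when they are disjoint, the graph is connected (of diameter 3) and two distinct octads are at distance 1, 2 or 3 exactly when they meet in 0, 4 or 2 points respectively. -/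
theorem result (o o' : Finset Cfsg.GolayPt) (ho : o ∈ Cfsg.octads) (ho' : o' ∈ Cfsg.octads) (hne : o ≠ o') : (Cfsg.blockGraph Cfsg.octads).Connected ∧ ((Cfsg.blockGraph Cfsg.octads).dist ⟨o, ho⟩ ⟨o', ho'⟩ = 1 ↔ (o ∩ o').card = 0) ∧ ((Cfsg.blockGraph Cfsg.octads).dist ⟨o, ho⟩ ⟨o', ho'⟩ = 2 ↔ (o ∩ o').card = 4) ∧ ((Cfsg.blockGraph Cfsg.octads).dist ⟨o, ho⟩ ⟨o', ho'⟩ = 3 ↔ (o ∩ o').card = 2) := by
  have hconn : (Cfsg.blockGraph Cfsg.octads).Connected :=
    (SimpleGraph.connected_iff _).2 ⟨reach, ⟨⟨o, ho⟩⟩⟩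
  have huv : (⟨o, ho⟩ : ↥octads) ≠ ⟨o', ho'⟩ := fun h => hne (congrArg Subtype.val h)
  have hcases := inter_cases ho ho' hne
  have hadj : (Cfsg.blockGraph Cfsg.octads).Adj ⟨o, ho⟩ ⟨o', ho'⟩ ↔ (o ∩ o').card = 0 := by
    rw [adj_iff, Finset.disjoint_iff_inter_eq_empty, Finset.card_eq_zero]
  have h1 : (Cfsg.blockGraph Cfsg.octads).dist ⟨o, ho⟩ ⟨o', ho'⟩ = 1 ↔ (o ∩ o').card = 0 := by
    rw [SimpleGraph.dist_eq_one_iff_adj, hadj]
  have h2 : (Cfsg.blockGraph Cfsg.octads).dist ⟨o, ho⟩ ⟨o', ho'⟩ = 2 ↔ (o ∩ o').card = 4 := by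
    have e : (Cfsg.blockGraph Cfsg.octads).dist ⟨o, ho⟩ ⟨o', ho'⟩ = 2 ↔
        (Cfsg.blockGraph Cfsg.octads).edist ⟨o, ho⟩ ⟨o', ho'⟩ = 2 := by
      rw [← (reach ⟨o, ho⟩ ⟨o', ho'⟩).coe_dist_eq_edist]
      exact_mod_cast Iff.rfl
    rw [e, SimpleGraph.edist_eq_two_iff]
    constructor
    · rintro ⟨_, hna, ⟨w, hw⟩⟩
      rw [SimpleGraph.mem_commonNeighbors] at hw
      rcases hcases with h | h | h
      · exact absurd (hadj.2 h) hna
      · exfalso
        exact no_common ho ho' w.2 h ((adj_iff _ _).1 hw.1) ((adj_iff _ _).1 hw.2).symm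
      · exact h
    · intro h
      refine ⟨huv, fun ha => ?_, ?_⟩
      · rw [hadj.1 ha] at h
        exact absurd h (by norm_num)
      · obtain ⟨c, hc, hoc, hco'⟩ := common_disjoint ho ho' h
        refine ⟨⟨c, hc⟩, ?_⟩
        rw [SimpleGraph.mem_commonNeighbors]
        exact ⟨(adj_iff _ _).2 hoc, (adj_iff _ _).2 hco'.symm⟩
  refine ⟨hconn, h1, h2, ?_⟩
  constructor
  · intro h3
    rcases hcases with h | h | h
    · rw [h1.2 h] at h3
      exact absurd h3 (by norm_num)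
    · exact h
    · rw [h2.2 h] at h3
      exact absurd h3 (by norm_num)
  · intro h
    have hpos := (reach ⟨o, ho⟩ ⟨o', ho'⟩).pos_dist_of_ne huv
    have hn1 : (Cfsg.blockGraph Cfsg.octads).dist ⟨o, ho⟩ ⟨o', ho'⟩ ≠ 1 := fun e => by
      rw [h1.1 e] at h
      exact absurd h (by norm_num)
    have hn2 : (Cfsg.blockGraph Cfsg.octads).dist ⟨o, ho⟩ ⟨o', ho'⟩ ≠ 2 := fun e => by
      rw [h2.1 e] at h
      exact absurd h (by norm_num)
    obtain ⟨c, hc, hoc, hco'⟩ := exists_step ho ho' h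
    obtain ⟨d, hd, hcd, hdo'⟩ := common_disjoint hc ho' hco'
    have hle := SimpleGraph.dist_le (SimpleGraph.Walk.cons ((adj_iff ⟨o, ho⟩ ⟨c, hc⟩).2 hoc)
      (SimpleGraph.Walk.cons ((adj_iff ⟨c, hc⟩ ⟨d, hd⟩).2 hcd)
        (SimpleGraph.Walk.cons ((adj_iff ⟨d, hd⟩ ⟨o', ho'⟩).2 hdo') SimpleGraph.Walk.nil)))
    simp only [SimpleGraph.Walk.length_cons, SimpleGraph.Walk.length_nil] at hle
    omega

end Cfsg.Agent.S5609
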