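import Cfsg.Statements.S5610
import Cfsg.Agent.Lib.Helper36.M24Mix

set_option autoImplicit false
open scoped Pointwise
open Cfsg

namespace Cfsg.Agent.S5610

open Cfsg.Agent.Lib.Helper9 Cfsg.Agent.Lib.Helper36

/-- The stabiliser of an octad in the group of the length-24 code has exactly three orbits on the 3795 trios, of sizes 15, 420 and 3360, and exactly three orbits on the 1771 sextets, of sizes 35, 840 and 896. -/
theorem result (o : Finset Cfsg.GolayPt) (ho : o ∈ Cfsg.octads) : (∃ X₁ ∈ Cfsg.trios, ∃ X₂ ∈ Cfsg.trios, ∃ X₃ ∈ Cfsg.trios, (MulAction.orbit ↥(MulAction.stabilizer Cfsg.M24 o) X₁).ncard = 15 ∧ (MulAction.orbit ↥(MulAction.stabilizer Cfsg.M24 o) X₂).ncard = 420 ∧ (MulAction.orbit ↥(MulAction.stabilizer Cfsg.M24 o) X₃).ncard = 3360 ∧ Cfsg.trios = MulAction.orbit ↥(MulAction.stabilizer Cfsg.M24 o) X₁ ∪ MulAction.orbit ↥(MulAction.stabilizer Cfsg.M24 o) X₂ ∪ MulAction.orbit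 ↥(MulAction.stabilizer Cfsg.M24 o) X₃) ∧ (∃ Y₁ ∈ Cfsg.sextets, ∃ Y₂ ∈ Cfsg.sextets, ∃ Y₃ ∈ Cfsg.sextets, (MulAction.orbit ↥(MulAction.stabilizer Cfsg.M24 o) Y₁).ncard = 35 ∧ (MulAction.orbit ↥(MulAction.stabilizer Cfsg.M24 o) Y₂).ncard = 840 ∧ (MulAction.orbit ↥(MulAction.stabilizer Cfsg.M24 o) Y₃).ncard = 896 ∧ Cfsg.sextets = MulAction.orbit ↥(MulAction.stabilizer Cfsg.M24 o) Y₁ ∪ MulAction.orbit ↥(MulAction.stabilizer Cfsg.M24 o) Y₂ ∪ MulAction.orbit ↥(MulAction.stabilizer Cfsg.M24 o) Y₃) := by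
  obtain ⟨γ, hγ, rfl⟩ := exists_smul_o0 ho
  obtain ⟨p1, p2, p3⟩ := octTrio_partition hγ
  obtain ⟨q1, q2, q3⟩ := octSex_partition hγ
  refine ⟨⟨γ • octTrioRep 0, p1 0, γ • octTrioRep 1, p1 1, γ • octTrioRep 2, p1 2, p2 0, p2 1, p2 2, ?_⟩,
    ⟨γ • octSexRep 0, q1 0, γ • octSexRep 1, q1 1, γ • octSexRep 2, q1 2, q2 0, q2 1, q2 2, ?_⟩⟩
  · ext y
    simp only [Set.mem_union]
    rw [p3 y]
    constructor
    · rintro ⟨i, hi⟩
      fin_cases i
      · exact Or.inl (Or.inl (hi))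
      · exact Or.inl (Or.inr hi)
      · exact Or.inr hi
    · rintro ((h | h) | h)
      · exact ⟨0, h⟩
      · exact ⟨1, h⟩
      · exact ⟨2, h⟩
  · ext y
    simp only [Set.mem_union]
    rw [q3 y]
    constructor
    · rintro ⟨i, hi⟩
      fin_cases i
      · exact Or.inl (Or.inl (hi))
      · exact Or.inl (Or.inr hi)
      · exact Or.inr hi
    · rintro ((h | h) | h)
      · exact ⟨0, h⟩
      · exact ⟨1, h⟩
      · exact ⟨2, h⟩

end Cfsg.Agent.S5610
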