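import Cfsg.Statements.S5611
import Cfsg.Agent.Lib.Helper36.M24Mix

set_option autoImplicit false
open scoped Pointwise
open Cfsg

namespace Cfsg.Agent.S5611

open Cfsg.Agent.Lib.Helper9 Cfsg.Agent.Lib.Helper36

/-- The stabiliser of a sextet in the group of the length-24 code has exactly three orbits on the 759 octads, of sizes 15, 360 and 384, and exactly four orbits on the 3795 trios, of sizes 15, 180, 720 and 2880. -/
theorem result (S : Finset (Finset Cfsg.GolayPt)) (hS : S ∈ Cfsg.sextets) : (∃ X₁ ∈ Cfsg.octads, ∃ X₂ ∈ Cfsg.octads, ∃ X₃ ∈ Cfsg.octads, (MulAction.orbit ↥(MulAction.stabilizer Cfsg.M24 S) X₁).ncard = 15 ∧ (MulAction.orbit ↥(MulAction.stabilizer Cfsg.M24 S) X₂).ncard = 360 ∧ (MulAction.orbit ↥(MulAction.stabilizer Cfsg.M24 S) X₃).ncard = 384 ∧ Cfsg.octads = MulAction.orbit ↥(MulAction.stabilizer Cfsg.M24 S) X₁ ∪ MulAction.orbit ↥(MulAction.stabilizer Cfsg.M24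 S) X₂ ∪ MulAction.orbit ↥(MulAction.stabilizer Cfsg.M24 S) X₃) ∧ (∃ Y₁ ∈ Cfsg.trios, ∃ Y₂ ∈ Cfsg.trios, ∃ Y₃ ∈ Cfsg.trios, ∃ Y₄ ∈ Cfsg.trios, (MulAction.orbit ↥(MulAction.stabilizer Cfsg.M24 S) Y₁).ncard = 15 ∧ (MulAction.orbit ↥(MulAction.stabilizer Cfsg.M24 S) Y₂).ncard = 180 ∧ (MulAction.orbit ↥(MulAction.stabilizer Cfsg.M24 S) Y₃).ncard = 720 ∧ (MulAction.orbit ↥(MulAction.stabilizer Cfsg.M24 S) Y₄).ncard = 2880 ∧ Cfsg.trios = MulAction.orbit ↥(MulAction.stabilizer Cfsg.M24 S) Y₁ ∪ MulAction.orbit ↥(MulAction.stabilizer Cfsg.M24 S) Y₂ ∪ MulAction.orbit ↥(MulAction.stabilizer Cfsg.M24 S) Y₃ ∪ MulAction.orbit ↥(MulAction.stabilizer Cfsg.M24 S) Y₄) := by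
  obtain ⟨γ, hγ, rfl⟩ := exists_smul_sx0 hS
  obtain ⟨p1, p2, p3⟩ := sexOct_partition hγ
  obtain ⟨q1, q2, q3⟩ := sexTrio_partition hγ
  refine ⟨⟨γ • sexOctRep 0, p1 0, γ • sexOctRep 1, p1 1, γ • sexOctRep 2, p1 2, p2 0, p2 1, p2 2, ?_⟩,
    ⟨γ • sexTrioRep 0, q1 0, γ • sexTrioRep 1, q1 1, γ • sexTrioRep 2, q1 2, γ • sexTrioRep 3, q1 3, q2 0, q2 1, q2 2, q2 3, ?_⟩⟩
  · ext y
    simp only [Set.mem_union]
    rw [p3 y]
    constructor
    · rintro ⟨i, hi⟩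
      fin_cases i
      · exact Or.inl (Or.inl (hi))
      · exact Or.inl (Or.inr hi)
      · exact Or.inr hi
    · rintro ((h | h) | h)
      · exact ⟨0, h⟩
      · exact ⟨1, h⟩
      · exact ⟨2, h⟩
  · ext y
    simp only [Set.mem_union]
    rw [q3 y]
    constructor
    · rintro ⟨i, hi⟩
      fin_cases i
      · exact Or.inl (Or.inl (Or.inl (hi)))
      · exact Or.inl (Or.inl (Or.inr hi))
      · exact Or.inl (Or.inr hi)
      · exact Or.inr hi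
    · rintro (((h | h) | h) | h)
      · exact ⟨0, h⟩
      · exact ⟨1, h⟩
      · exact ⟨2, h⟩
      · exact ⟨3, h⟩

end Cfsg.Agent.S5611
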