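import Cfsg.Statements.S5612
import Cfsg.Agent.Lib.Helper36.M24Mix

set_option autoImplicit false
open scoped Pointwise
open Cfsg

namespace Cfsg.Agent.S5612

open Cfsg.Agent.Lib.Helper9 Cfsg.Agent.Lib.Helper36

/-- The stabiliser of a trio in the group of the length-24 code has exactly three orbits on the 759 octads, of sizes 3, 84 and 672, and exactly four orbits on the 1771 sextets, of sizes 7, 84, 336 and 1344. -/
theorem result (T : Finset (Finset Cfsg.GolayPt)) (hT : T ∈ Cfsg.trios) : (∃ X₁ ∈ Cfsg.octads, ∃ X₂ ∈ Cfsg.octads, ∃ X₃ ∈ Cfsg.octads, (MulAction.orbit ↥(MulAction.stabilizer Cfsg.M24 T) X₁).ncard = 3 ∧ (MulAction.orbit ↥(MulAction.stabilizer Cfsg.M24 T) X₂).ncard = 84 ∧ (MulAction.orbit ↥(MulAction.stabilizer Cfsg.M24 T) X₃).ncard = 672 ∧ Cfsg.octads = MulAction.orbit ↥(MulAction.stabilizer Cfsg.M24 T) X₁ ∪ MulAction.orbit ↥(MulAction.stabilizer Cfsg.M24 T) X₂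 ∪ MulAction.orbit ↥(MulAction.stabilizer Cfsg.M24 T) X₃) ∧ (∃ Y₁ ∈ Cfsg.sextets, ∃ Y₂ ∈ Cfsg.sextets, ∃ Y₃ ∈ Cfsg.sextets, ∃ Y₄ ∈ Cfsg.sextets, (MulAction.orbit ↥(MulAction.stabilizer Cfsg.M24 T) Y₁).ncard = 7 ∧ (MulAction.orbit ↥(MulAction.stabilizer Cfsg.M24 T) Y₂).ncard = 84 ∧ (MulAction.orbit ↥(MulAction.stabilizer Cfsg.M24 T) Y₃).ncard = 336 ∧ (MulAction.orbit ↥(MulAction.stabilizer Cfsg.M24 T) Y₄).ncard = 1344 ∧ Cfsg.sextets = MulAction.orbit ↥(MulAction.stabilizer Cfsg.M24 T) Y₁ ∪ MulAction.orbit ↥(MulAction.stabilizer Cfsg.M24 T) Y₂ ∪ MulAction.orbit ↥(MulAction.stabilizer Cfsg.M24 T) Y₃ ∪ MulAction.orbit ↥(MulAction.stabilizer Cfsg.M24 T) Y₄) := by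
  obtain ⟨γ, hγ, rfl⟩ := exists_smul_tr0 hT
  obtain ⟨p1, p2, p3⟩ := trioOct_partition hγ
  obtain ⟨q1, q2, q3⟩ := trioSex_partition hγ
  refine ⟨⟨γ • trioOctRep 0, p1 0, γ • trioOctRep 1, p1 1, γ • trioOctRep 2, p1 2, p2 0, p2 1, p2 2, ?_⟩,
    ⟨γ • trioSexRep 0, q1 0, γ • trioSexRep 1, q1 1, γ • trioSexRep 2, q1 2, γ • trioSexRep 3, q1 3, q2 0, q2 1, q2 2, q2 3, ?_⟩⟩
  · ext y
    simp only [Set.mem_union]
    rw [p3 y]
    constructor
    · rintro ⟨i, hi⟩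
      fin_cases i
      · exact Or.inl (Or.inl (hi))
      · exact Or.inl (Or.inr hi)
      · exact Or.inr hi
    · rintro ((h | h) | h)
      · exact ⟨0, h⟩
      · exact ⟨1, h⟩
      · exact ⟨2, h⟩
  · ext y
    simp only [Set.mem_union]
    rw [q3 y]
    constructor
    · rintro ⟨i, hi⟩
      fin_cases i
      · exact Or.inl (Or.inl (Or.inl (hi)))
      · exact Or.inl (Or.inl (Or.inr hi))
      · exact Or.inl (Or.inr hi)
      · exact Or.inr hi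
    · rintro (((h | h) | h) | h)
      · exact ⟨0, h⟩
      · exact ⟨1, h⟩
      · exact ⟨2, h⟩
      · exact ⟨3, h⟩

end Cfsg.Agent.S5612
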