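-- Statement S5614: the joint stabiliser of two octads meeting in two points is S6.
import Cfsg.Statements.S5614
import Cfsg.Agent.S5613

set_option autoImplicit false
open Cfsg

namespace Cfsg.Agent.S5614

open Cfsg.Agent.Lib.Helper9 Cfsg.Agent.Lib.Helper94 Cfsg.Agent.S5613
open scoped Pointwise

theorem card_fix5 : Nat.card ↥(J O5m c2 ⊓ fixing [3, 2, 1, 0, 23]) = 1 := by
  have e5 := (tdecJ O5m c2 O5m_lt c2_lt).card_fix enum5 (List.Nodup.filter _ stab5T_nodup)
  have e6 : (stab5T.filter (PJ O5m c2)).length = 1 := by decide +kernel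
  rw [e5, e6]

theorem bits_rep : ([3, 2, 1, 0, 23] : List ℕ).all
    (fun i => decide (i < 24) && O5m.testBit i && !c2.testBit i) = true := by decide +kernel

theorem app_inv (g : Equiv.Perm GolayPt) (x : GolayPt) : g (g⁻¹ x) = x := by
  rw [← Equiv.Perm.mul_apply, mul_inv_cancel, Equiv.Perm.one_apply]

theorem mem_iff_of_smul_eq {τ : Equiv.Perm GolayPt} {s : Finset GolayPt} (h : τ • s = s)
    (p : GolayPt) : τ p ∈ s ↔ p ∈ s := by
  have := Finset.smul_mem_smul_finset_iff (s := s) (b := p) τ
  rw [h] at this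
  exact this

/-- An element of `M24` stabilising two octads meeting in two points and fixing every point of
their difference is trivial. -/
theorem eq_one_of_fix (o o' : Finset GolayPt) (ho : o ∈ octads) (ho' : o' ∈ octads)
    (h₂ : (o ∩ o').card = 2) (σ : Equiv.Perm GolayPt) (hσ : σ ∈ M24) (h1 : σ • o = o)
    (h2 : σ • o' = o') (hfix : ∀ p ∈ o \ o', σ p = p) : σ = 1 := by
  obtain ⟨g, hg, e1, e2⟩ := red2 o o' ho ho' h₂
  have hmem : g * σ * g⁻¹ ∈ J O5m c2 ⊓ fixing [3, 2, 1, 0, 23] := by
    refine ⟨⟨⟨M24.mul_mem (M24.mul_mem hg hσ) (M24.inv_mem hg), ?_⟩, ?_⟩, ?_⟩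
    · apply MulAction.mem_stabilizer_iff.2
      rw [← e1, mul_smul, mul_smul, inv_smul_smul, h1]
    · apply MulAction.mem_stabilizer_iff.2
      rw [← e2, mul_smul, mul_smul, inv_smul_smul, h2]
    · intro i hi
      have hb := List.all_eq_true.mp bits_rep i hi
      simp only [Bool.and_eq_true, decide_eq_true_eq, Bool.not_eq_true'] at hb
      obtain ⟨⟨hi24, hiO⟩, hic⟩ := hb
      have hin : pt i ∈ g • o := by rw [e1, mem_dec_pt _ hi24]; exact hiO
      have hnin : pt i ∉ g • o' := by
        rw [e2, mem_dec_pt _ hi24, hic]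
        exact Bool.false_ne_true
      have hp : g⁻¹ (pt i) ∈ o \ o' := by
        rw [Finset.mem_sdiff]
        constructor
        · rw [← Finset.smul_mem_smul_finset_iff g, Equiv.Perm.smul_def, app_inv]
          exact hin
        · intro hc
          apply hnin
          rw [← Finset.smul_mem_smul_finset_iff g, Equiv.Perm.smul_def, app_inv] at hc
          exact hc
      rw [Equiv.Perm.mul_apply, Equiv.Perm.mul_apply, hfix _ hp, app_inv]
  have hbot := Subgroup.eq_bot_of_card_eq _ card_fix5
  rw [hbot, Subgroup.mem_bot] at hmem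
  have : σ = g⁻¹ * (g * σ * g⁻¹) * g := by group
  rw [this, hmem]
  group

/-- In the group of the length-24 code, the joint stabiliser of two octads meeting in exactly two points is isomorphic to the symmetric group of degree 6. -/
theorem result (o o' : Finset Cfsg.GolayPt) (ho : o ∈ Cfsg.octads) (ho' : o' ∈ Cfsg.octads) (h₂ : (o ∩ o').card = 2) : Nonempty (↥(MulAction.stabilizer Cfsg.M24 o ⊓ MulAction.stabilizer Cfsg.M24 o') ≃* Equiv.Perm (Fin 6)) := by
  have hcardD : (o \ o').card = 6 := by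
    have := Finset.card_sdiff_add_card_inter o o'
    rw [card_octad ho] at this
    omega
  have hstab : ∀ x : ↥(MulAction.stabilizer M24 o ⊓ MulAction.stabilizer M24 o'),
      ((x : ↥M24) : Equiv.Perm GolayPt) • o = o ∧ ((x : ↥M24) : Equiv.Perm GolayPt) • o' = o' :=
    fun x => ⟨MulAction.mem_stabilizer_iff.1 x.2.1, MulAction.mem_stabilizer_iff.1 x.2.2⟩
  have hmaps : ∀ x : ↥(MulAction.stabilizer M24 o ⊓ MulAction.stabilizer M24 o'),
      ∀ p : GolayPt, ((x : ↥M24) : Equiv.Perm GolayPt) p ∈ o \ o' ↔ p ∈ o \ o' := by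
    intro x p
    obtain ⟨h1, h2⟩ := hstab x
    rw [Finset.mem_sdiff, Finset.mem_sdiff, mem_iff_of_smul_eq h1, mem_iff_of_smul_eq h2]
  let φ : ↥(MulAction.stabilizer M24 o ⊓ MulAction.stabilizer M24 o') →*
      Equiv.Perm {p : GolayPt // p ∈ o \ o'} :=
    { toFun := fun x => Equiv.Perm.subtypePerm ((x : ↥M24) : Equiv.Perm GolayPt) (hmaps x)
      map_one' := by
        ext p
        rfl
      map_mul' := by
        intro x y
        ext p
        rfl }
  have hinj : Function.Injective φ := by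
    rw [injective_iff_map_eq_one]
    intro x hx
    obtain ⟨h1, h2⟩ := hstab x
    have hfix : ∀ p ∈ o \ o', ((x : ↥M24) : Equiv.Perm GolayPt) p = p := by
      intro p hp
      have := congrArg (fun f : Equiv.Perm {p : GolayPt // p ∈ o \ o'} => (f ⟨p, hp⟩ : GolayPt)) hx
      exact this
    have := eq_one_of_fix o o' ho ho' h₂ _ (x : ↥M24).2 h1 h2 hfix
    apply Subtype.ext
    apply Subtype.ext
    exact this
  have hcardK : Nat.card ↥(MulAction.stabilizer M24 o ⊓ MulAction.stabilizer M24 o') = 720 :=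
    (Cfsg.Agent.S5613.result o o' ho ho').2.2 h₂
  have hcardP : Nat.card (Equiv.Perm {p : GolayPt // p ∈ o \ o'}) = 720 := by
    rw [Nat.card_perm, Nat.card_eq_fintype_card, Fintype.card_coe, hcardD]
    rfl
  have hbij : Function.Bijective φ :=
    hinj.bijective_of_nat_card_le (by rw [hcardK, hcardP])
  have e : {p : GolayPt // p ∈ o \ o'} ≃ Fin 6 := Finset.equivFinOfCardEq hcardD
  exact ⟨(MulEquiv.ofBijective φ hbij).trans e.permCongrHom⟩

end Cfsg.Agent.S5614
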