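import Cfsg.Statements.S5615
import Cfsg.Agent.Lib.Helper94.M24Cosets
import Cfsg.Agent.Lib.Helper10.OctadStab

set_option autoImplicit false
open scoped Pointwise
open Cfsg

namespace Cfsg.Agent.S5615

open Cfsg.Agent.Lib.Helper9 Cfsg.Agent.Lib.Helper94 Cfsg.Agent.Lib.Helper10
open Cfsg.Agent.Lib.Helper36 (trioObj)

/-! ### The fifteen trios through the reference octad -/

/-- The test for a trio code to contain the reference octad. -/
def through (c : ℕ) : Bool :=
  c % 16777216 == O0 || c / 16777216 == O0 ||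
    16777215 ^^^ (c % 16777216 ||| c / 16777216) == O0

/-- The codes of the fifteen trios through the reference octad. -/
def list15 : List ℕ := [70501086896384, 76111387592384, 80862426444944, 84303768785744, 89773677746624, 92916519878144, 96978216520784, 102341556611984, 106331580992144, 111679888698704, 115589650882304, 118777590167744, 124302796829264, 127724811818384, 132594499135424]

theorem list15_eq : trioL.filter through = list15 := by decide +kernel

theorem list15_sub {c : ℕ} (hc : c ∈ list15) : c ∈ trioL ∧ through c = true := by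
  rw [← list15_eq, List.mem_filter] at hc
  exact hc

theorem mem_through {c : ℕ} (hc : c ∈ trioL) : O0f ∈ trioObj c ↔ through c = true := by
  have hv := trioL_valid hc
  have e : O0f = Cfsg.Agent.Lib.Helper36.ms O0 := rfl
  rw [e, Cfsg.Agent.Lib.Helper36.mem_trioObj_iff hv.1 (by decide : O0 < 2 ^ 24)]
  unfold through
  rw [Bool.or_eq_true, Bool.or_eq_true, beq_iff_eq, beq_iff_eq, beq_iff_eq]
  constructor
  · rintro (h | h | h)
    · exact Or.inl (Or.inl h.symm)
    · exact Or.inl (Or.inr h.symm)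
    · exact Or.inr h.symm
  · rintro ((h | h) | h)
    · exact Or.inl h.symm
    · exact Or.inr (Or.inl h.symm)
    · exact Or.inr (Or.inr h.symm)

theorem card15 : {T : Finset (Finset GolayPt) | T ∈ trios ∧ O0f ∈ T}.ncard = 15 := by
  rw [ncard_trios_filter (fun T => O0f ∈ T) through (fun c hc => mem_through hc), list15_eq]
  rfl

theorem exists_list15 {T : Finset (Finset GolayPt)} (hT : T ∈ trios) (hO : O0f ∈ T) :
    ∃ c ∈ list15, trioObj c = T := by
  rw [← trioL_complete] at hT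
  obtain ⟨c, hc, rfl⟩ := hT
  rw [Finset.mem_coe, List.mem_toFinset] at hc
  refine ⟨c, ?_, rfl⟩
  rw [← list15_eq, List.mem_filter]
  exact ⟨hc, (mem_through hc).1 hO⟩

theorem list15_trio {c : ℕ} (hc : c ∈ list15) : trioObj c ∈ trios ∧ O0f ∈ trioObj c :=
  ⟨Cfsg.Agent.Lib.Helper36.trioObj_mem (trioL_valid (list15_sub hc).1),
    (mem_through (list15_sub hc).1).2 (list15_sub hc).2⟩

/-! ### Double transitivity on the fifteen trios -/

def c0 : ℕ := 70501086896384

def c1 : ℕ := 76111387592384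

/-- Words of elements fixing the octad and mapping the trio `c0` to the listed trio. -/
def certG : List (List ℕ × ℕ) :=
  [([2, 15, 6, 12, 11, 19, 19, 17, 21, 16, 28], 70501086896384),
   ([2, 15, 6, 12, 18, 10, 20, 17, 20, 22], 76111387592384),
   ([2, 15, 6, 12, 11, 19, 19, 17, 20, 16, 22, 28], 80862426444944),
   ([2, 15, 6, 12, 18, 10, 21, 17, 20, 16], 84303768785744),
   ([2, 15, 6, 12, 18, 10, 21, 17, 20, 16, 22, 22], 89773677746624),
   ([2, 15, 6, 12, 18, 10, 20, 17, 20, 16, 22, 28], 92916519878144),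
   ([2, 15, 6, 12, 18, 10, 20, 17, 20, 16, 22, 22, 28], 96978216520784),
   ([2, 15, 6, 12, 18, 10, 20, 17, 20, 22, 22, 28], 102341556611984),
   ([2, 15, 6, 12, 18, 10, 21, 17, 20, 16, 22], 106331580992144),
   ([2, 15, 6, 12, 18, 10, 20, 17, 20, 28], 111679888698704),
   ([2, 15, 6, 12, 18, 10, 21, 17, 20, 22, 22], 115589650882304),
   ([2, 15, 6, 12, 18, 10, 21, 17, 20], 118777590167744),
   ([2, 15, 6, 12, 18, 10, 20, 17, 20, 16], 124302796829264),
   ([2, 15, 6, 12, 11, 19, 19, 17, 20, 28], 127724811818384),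
   ([2, 15, 6, 12, 18, 10, 21, 17, 20, 22], 132594499135424)]

/-- Words of elements fixing the octad and the trio `c0`, mapping the trio `c1` to the listed
trio. -/
def certH : List (List ℕ × ℕ) :=
  [([2, 6, 13, 9, 9, 11, 18, 10, 20, 17, 20, 22], 76111387592384),
   ([2, 14, 6, 12, 12, 8, 18, 10, 18, 10, 16, 20, 16, 24], 80862426444944),
   ([2, 6, 13, 9, 9, 19, 11, 11, 17, 21, 22], 84303768785744),
   ([2, 15, 6, 9, 18, 17, 20, 16, 22, 22], 89773677746624),
   ([2, 15, 6, 12, 19, 19, 10, 16, 22], 92916519878144),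
   ([2, 15, 6, 9, 19, 11, 11, 24], 96978216520784),
   ([2, 15, 6, 12, 10, 17, 21, 16, 28], 102341556611984),
   ([2, 15, 6, 12, 11, 19, 19, 17, 21, 16, 30], 106331580992144),
   ([2, 15, 6, 9, 19, 19, 10, 16, 21, 22, 22, 24], 111679888698704),
   ([2, 15, 6, 12, 19, 19, 16, 21, 22, 22, 30], 115589650882304),
   ([2, 15, 6, 9, 11, 11, 17, 21, 22, 22, 30], 118777590167744),
   ([2, 6, 13, 9, 9, 17, 20, 16, 30], 124302796829264),
   ([2, 14, 6, 12, 12, 8, 18, 11, 20, 17, 20, 16, 24], 127724811818384),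
   ([2, 6, 13, 9, 9, 18, 18, 10, 10, 17, 21, 22, 22, 28], 132594499135424)]

theorem G_ok : certG.all (fun e => pull (prodT sgsTabs e.1) O0 == O0 &&
    Cfsg.Agent.Lib.Helper36.relTrio (prodT sgsTabs e.1) e.2 c0) = true := by decide +kernel

theorem G_cover : list15.all (fun c => certG.any (fun e => e.2 == c)) = true := by decide +kernel

theorem H_ok : certH.all (fun e => pull (prodT sgsTabs e.1) O0 == O0 &&
    Cfsg.Agent.Lib.Helper36.relTrio (prodT sgsTabs e.1) c0 c0 &&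
    Cfsg.Agent.Lib.Helper36.relTrio (prodT sgsTabs e.1) e.2 c1) = true := by decide +kernel

theorem H_cover : list15.all (fun c => c == c0 || certH.any (fun e => e.2 == c)) = true := by
  decide +kernel

theorem c0_mem : c0 ∈ list15 := by decide

theorem c1_mem : c1 ∈ list15 := by decide

theorem smul_of_rel {g : Equiv.Perm GolayPt} (hg : g ∈ M24) {T : List ℕ} (hT : HasTable g T)
    {c d : ℕ} (hc : c ∈ list15)
    (h : Cfsg.Agent.Lib.Helper36.relTrio T c d = true) : g • trioObj d = trioObj c := by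
  have h1 := (Cfsg.Agent.Lib.Helper36.relTrio_sound hg hT (trioL_valid (list15_sub hc).1) h).2
  rw [h1, smul_inv_smul]

theorem G_spec {c : ℕ} (hc : c ∈ list15) :
    ∃ g ∈ M24, g • O0f = O0f ∧ g • trioObj c0 = trioObj c := by
  have h1 := List.all_eq_true.mp G_cover c hc
  rw [List.any_eq_true] at h1
  obtain ⟨e, he, hec⟩ := h1
  rw [beq_iff_eq] at hec
  have h2 := List.all_eq_true.mp G_ok e he
  rw [Bool.and_eq_true, beq_iff_eq, hec] at h2
  have hg := good_sgs_M24.prod e.1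
  refine ⟨prodW sgsEnv e.1, hg.1, ?_, smul_of_rel hg.1 hg.2 hc h2.2⟩
  exact (smul_eq_iff_pull hg.2 (by decide : O0 < 2 ^ 24)).2 h2.1

theorem H_spec {c : ℕ} (hc : c ∈ list15) (hne : c ≠ c0) :
    ∃ g ∈ M24, g • O0f = O0f ∧ g • trioObj c0 = trioObj c0 ∧ g • trioObj c1 = trioObj c := by
  have h1 := List.all_eq_true.mp H_cover c hc
  rw [Bool.or_eq_true, beq_iff_eq, List.any_eq_true] at h1
  rcases h1 with h1 | ⟨e, he, hec⟩
  · exact absurd h1 hne
  · rw [beq_iff_eq] at hec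
    have h2 := List.all_eq_true.mp H_ok e he
    rw [Bool.and_eq_true, Bool.and_eq_true, beq_iff_eq, hec] at h2
    have hg := good_sgs_M24.prod e.1
    refine ⟨prodW sgsEnv e.1, hg.1, ?_, smul_of_rel hg.1 hg.2 c0_mem h2.1.2,
      smul_of_rel hg.1 hg.2 hc h2.2⟩
    exact (smul_eq_iff_pull hg.2 (by decide : O0 < 2 ^ 24)).2 h2.1.1

theorem inv_smul_of_smul {α : Type*} [MulAction (Equiv.Perm GolayPt) α] {g : Equiv.Perm GolayPt}
    {x : α} (h : g • x = x) : g⁻¹ • x = x := by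
  rw [inv_smul_eq_iff, h]

theorem base_pair {X Y : Finset (Finset GolayPt)} (hX : X ∈ trios) (hY : Y ∈ trios)
    (hOX : O0f ∈ X) (hOY : O0f ∈ Y) (hXY : X ≠ Y) :
    ∃ g ∈ M24, g • O0f = O0f ∧ g • trioObj c0 = X ∧ g • trioObj c1 = Y := by
  obtain ⟨c, hc, rfl⟩ := exists_list15 hX hOX
  obtain ⟨g1, hg1, hg1O, hg1c⟩ := G_spec hc
  have hY' : g1⁻¹ • Y ∈ trios := Cfsg.Agent.Lib.Helper36.smul_trio_mem (M24.inv_mem hg1) hY
  have hOY' : O0f ∈ g1⁻¹ • Y := by
    have := Finset.smul_mem_smul_finset (a := g1⁻¹) hOY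
    rwa [inv_smul_of_smul hg1O] at this
  obtain ⟨d, hd, hdY⟩ := exists_list15 hY' hOY'
  have hdne : d ≠ c0 := by
    rintro rfl
    apply hXY
    rw [← hg1c, hdY, smul_inv_smul]
  obtain ⟨h, hh, hhO, hh0, hh1⟩ := H_spec hd hdne
  refine ⟨g1 * h, M24.mul_mem hg1 hh, ?_, ?_, ?_⟩
  · rw [mul_smul, hhO, hg1O]
  · rw [mul_smul, hh0, hg1c]
  · rw [mul_smul, hh1, hdY, smul_inv_smul]

theorem two_trans_std {T₁ T₂ T₁' T₂' : Finset (Finset GolayPt)} (h1 : T₁ ∈ trios)
    (h2 : T₂ ∈ trios) (h1' : T₁' ∈ trios) (h2' : T₂' ∈ trios) (o1 : O0f ∈ T₁) (o2 : O0f ∈ T₂)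
    (o1' : O0f ∈ T₁') (o2' : O0f ∈ T₂') (hne : T₁ ≠ T₂) (hne' : T₁' ≠ T₂') :
    ∃ g ∈ M24, g • O0f = O0f ∧ g • T₁ = T₁' ∧ g • T₂ = T₂' := by
  obtain ⟨a, ha, haO, ha1, ha2⟩ := base_pair h1 h2 o1 o2 hne
  obtain ⟨b, hb, hbO, hb1, hb2⟩ := base_pair h1' h2' o1' o2' hne'
  refine ⟨b * a⁻¹, M24.mul_mem hb (M24.inv_mem ha), ?_, ?_, ?_⟩
  · rw [mul_smul, inv_smul_of_smul haO, hbO]
  · rw [mul_smul, ← ha1, inv_smul_smul, hb1]
  · rw [mul_smul, ← ha2, inv_smul_smul, hb2]

/-! ### The kernel of the action on the fifteen trios -/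

/-- The tables of the sixteen elements fixing the reference octad pointwise. -/
def K16T : List (List ℕ) := [[0, 1, 2, 3, 4, 5, 6, 7, 8, 9, 10, 11, 12, 13, 14, 15, 16, 17, 18, 19, 20, 21, 22, 23],
   [0, 1, 2, 3, 10, 5, 11, 12, 19, 22, 4, 6, 7, 20, 14, 16, 15, 17, 21, 8, 13, 18, 9, 23],
   [0, 1, 2, 3, 12, 5, 9, 10, 16, 6, 7, 22, 4, 18, 14, 19, 8, 17, 13, 15, 21, 20, 11, 23],
   [0, 1, 2, 3, 19, 5, 13, 16, 10, 18, 8, 20, 15, 6, 14, 12, 7, 17, 9, 4, 11, 22, 21, 23],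
   [0, 1, 2, 3, 13, 5, 19, 21, 11, 15, 20, 8, 18, 4, 14, 9, 22, 17, 12, 6, 10, 7, 16, 23],
   [0, 1, 2, 3, 7, 5, 22, 4, 15, 11, 12, 9, 10, 21, 14, 8, 19, 17, 20, 16, 18, 13, 6, 23],
   [0, 1, 2, 3, 8, 5, 20, 15, 4, 21, 19, 13, 16, 11, 14, 7, 12, 17, 22, 10, 6, 9, 18, 23],
   [0, 1, 2, 3, 20, 5, 8, 18, 6, 16, 13, 19, 21, 10, 14, 22, 9, 17, 7, 11, 4, 12, 15, 23],
   [0, 1, 2, 3, 15, 5, 18, 8, 7, 13, 16, 21, 19, 9, 14, 4, 10, 17, 6, 12, 22, 11, 20, 23],
   [0, 1, 2, 3, 18, 5, 15, 20, 22, 19, 21, 16, 13, 12, 14, 6, 11, 17, 4, 9, 7, 10, 8, 23],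
   [0, 1, 2, 3, 6, 5, 4, 22, 20, 12, 11, 10, 9, 19, 14, 18, 21, 17, 15, 13, 8, 16, 7, 23],
   [0, 1, 2, 3, 16, 5, 21, 19, 12, 20, 15, 18, 8, 22, 14, 10, 4, 17, 11, 7, 9, 6, 13, 23],
   [0, 1, 2, 3, 21, 5, 16, 13, 9, 8, 18, 15, 20, 7, 14, 11, 6, 17, 10, 22, 12, 4, 19, 23],
   [0, 1, 2, 3, 11, 5, 10, 9, 13, 7, 6, 4, 22, 8, 14, 21, 18, 17, 16, 20, 19, 15, 12, 23],
   [0, 1, 2, 3, 9, 5, 12, 11, 21, 4, 22, 7, 6, 15, 14, 13, 20, 17, 19, 18, 16, 8, 10, 23],
   [0, 1, 2, 3, 22, 5, 7, 6, 18, 10, 9, 12, 11, 16, 14, 20, 13, 17, 8, 21, 15, 19, 4, 23]]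

theorem K16T_eq : W16.map (prodT sgsTabs) = K16T := by decide +kernel

theorem K_trio : K16T.all (fun T => list15.all (fun c => fixTrio T c)) = true := by
  decide +kernel

/-- The sixteen points outside the reference octad. -/
def L16 : List ℕ := [4, 6, 7, 8, 9, 10, 11, 12, 13, 15, 16, 18, 19, 20, 21, 22]

theorem K_trans : L16.all (fun j => K16T.any (fun T => T.getD j 0 == 4)) = true := by
  decide +kernel

theorem L16_spec : ∀ i < 24, O0.testBit i = false → i ∈ L16 := by decide +kernel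

theorem L16_not : ∀ i ∈ L16, i < 24 ∧ O0.testBit i = false := by decide +kernel

theorem K16T_mem {T : List ℕ} (hT : T ∈ K16T) : ∃ κ ∈ K0, HasTable κ T := by
  rw [← K16T_eq, List.mem_map] at hT
  obtain ⟨w, hw, rfl⟩ := hT
  exact ⟨prodW sgsEnv w, word16_mem hw, (good_sgs_M24.prod w).2⟩

theorem K0_table {κ : Equiv.Perm GolayPt} (hκ : κ ∈ K0) : ∃ T ∈ K16T, HasTable κ T := by
  obtain ⟨w, hw, -, hT⟩ := exists_word16 hκ
  refine ⟨prodT sgsTabs w, ?_, hT⟩
  rw [← K16T_eq]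
  exact List.mem_map_of_mem hw

theorem K0_fix_trio {κ : Equiv.Perm GolayPt} (hκ : κ ∈ K0) {c : ℕ} (hc : c ∈ list15) :
    κ • trioObj c = trioObj c := by
  obtain ⟨T, hT, hκT⟩ := K0_table hκ
  exact (fixTrio_iff hκ.1 hκT (list15_sub hc).1).2
    (List.all_eq_true.mp (List.all_eq_true.mp K_trio T hT) c hc)

theorem not_mem_O0f {q : GolayPt} : q ∉ O0f ↔ O0.testBit (idx q) = false := by
  rw [mem_O0f, Bool.not_eq_true]

theorem K0_move {q : GolayPt} (hq : q ∉ O0f) : ∃ κ ∈ K0, κ q = pt 4 := by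
  have hj : idx q ∈ L16 := L16_spec _ (idx_lt q) (not_mem_O0f.1 hq)
  have h1 := List.all_eq_true.mp K_trans _ hj
  rw [List.any_eq_true] at h1
  obtain ⟨T, hT, hT4⟩ := h1
  rw [beq_iff_eq] at hT4
  obtain ⟨κ, hκ, hκT⟩ := K16T_mem hT
  refine ⟨κ, hκ, ?_⟩
  have := hκT.apply_pt (idx_lt q)
  rwa [pt_idx, hT4] at this

/-- For each trio through the octad, its octad containing the point `4`. -/
def hyp15 : List ℕ := [4202192, 4536592, 3421328, 3216208, 5350928, 5538256, 2460752, 2141072, 1903248, 1584464, 6889680, 7079696, 832080, 628112, 7903248]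

theorem hyp_ok : hyp15.all (fun a => a.testBit 4 && decide (a < 16777216) &&
    list15.any (fun c => c % 16777216 == a || c / 16777216 == a ||
      16777215 ^^^ (c % 16777216 ||| c / 16777216) == a)) = true := by decide +kernel

theorem sig_ok : (List.range 24).all (fun j => O0.testBit j || (List.range 24).all (fun j' =>
    j == j' || !(hyp15.all (fun a => a.testBit j == a.testBit j')))) = true := by decide +kernel

theorem cert16_ok : certRun (maskOf L16)
    [(6053905, 4721045, 0), (6554826, 3719203, 1), (3277413, 1337732, 2), (6554826, 6554826, 3),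
     (3277413, 42232, 5), (6053905, 6053905, 14), (3277413, 3277413, 17),
     (8391797, 8391797, 23)] = 16777215 := by decide +kernel

theorem fix16 : M24 ⊓ fixing L16 = ⊥ := by
  apply eq_bot_of_fixMask
  have h := (fixMask_fixing M24 L16).certRun inf_le_left
    [(6053905, 4721045, 0), (6554826, 3719203, 1), (3277413, 1337732, 2), (6554826, 6554826, 3),
     (3277413, 42232, 5), (6053905, 6053905, 14), (3277413, 3277413, 17),
     (8391797, 8391797, 23)]
  rwa [cert16_ok] at h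

/-- An element fixing the point `4`, and every trio through the reference octad, is trivial. -/
theorem eq_one_of_fix {g : Equiv.Perm GolayPt} (hg : g ∈ M24) (h4 : g (pt 4) = pt 4)
    (hall : ∀ c ∈ list15, g • trioObj c = trioObj c) : g = 1 := by
  have hyp : ∀ a ∈ hyp15, g • support₂ (dec a) = support₂ (dec a) := by
    intro a ha
    have h1 := List.all_eq_true.mp hyp_ok a ha
    rw [Bool.and_eq_true, Bool.and_eq_true, List.any_eq_true, decide_eq_true_eq] at h1
    obtain ⟨⟨hbit, hlt⟩, c, hc, hca⟩ := h1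
    have hmem : Cfsg.Agent.Lib.Helper36.ms a ∈ trioObj c := by
      apply Cfsg.Agent.Lib.Helper36.mem_trioObj_of
      rw [Bool.or_eq_true, Bool.or_eq_true, beq_iff_eq, beq_iff_eq, beq_iff_eq] at hca
      rcases hca with (h | h) | h
      · exact Or.inl h.symm
      · exact Or.inr (Or.inl h.symm)
      · exact Or.inr (Or.inr h.symm)
    have hmem' : g • Cfsg.Agent.Lib.Helper36.ms a ∈ trioObj c := by
      have := Finset.smul_mem_smul_finset (a := g) hmem
      rwa [hall c hc] at this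
    have h4a : pt 4 ∈ Cfsg.Agent.Lib.Helper36.ms a := (mem_dec_pt a (by norm_num)).2 hbit
    have h4a' : pt 4 ∈ g • Cfsg.Agent.Lib.Helper36.ms a := by
      have := Finset.smul_mem_smul_finset (a := g) h4a
      rwa [Equiv.Perm.smul_def, h4] at this
    by_contra hne
    have hd := (list15_trio hc).1.2.2 _ hmem' _ hmem hne
    exact Finset.disjoint_left.mp hd h4a' h4a
  have hfix : ∀ p : GolayPt, p ∉ O0f → g p = p := by
    intro p hp
    have hj := idx_lt p
    have h1 := List.all_eq_true.mp sig_ok (idx p) (List.mem_range.2 hj)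
    rw [Bool.or_eq_true] at h1
    rcases h1 with h1 | h1
    · rw [not_mem_O0f] at hp
      rw [hp] at h1
      exact absurd h1 (by decide)
    · have h2 := List.all_eq_true.mp h1 (idx (g p)) (List.mem_range.2 (idx_lt _))
      rw [Bool.or_eq_true, beq_iff_eq] at h2
      rcases h2 with h2 | h2
      · have := congrArg pt h2
        rw [pt_idx, pt_idx] at this
        exact this.symm
      · exfalso
        rw [Bool.not_eq_true', ← Bool.not_eq_true] at h2
        apply h2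
        rw [List.all_eq_true]
        intro a ha
        rw [beq_iff_eq, Bool.eq_iff_iff, ← mem_dec_iff, ← mem_dec_iff]
        exact (mem_iff_of_smul_eq (hyp a ha) p).symm
  have hmem : g ∈ M24 ⊓ fixing L16 := by
    refine ⟨hg, fun i hi => hfix _ ?_⟩
    rw [not_mem_O0f, idx_pt (L16_not i hi).1]
    exact (L16_not i hi).2
  rw [fix16] at hmem
  exact Subgroup.mem_bot.1 hmem

theorem mem_K0_iff {g : Equiv.Perm GolayPt} : g ∈ K0 ↔ g ∈ M24 ∧ ∀ p ∈ O0f, g p = p := by
  rw [K0, Subgroup.mem_inf, mem_fixingSubgroup_iff]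
  rfl

theorem std_kernel {g : Equiv.Perm GolayPt} (hg : g ∈ M24) (hO : g • O0f = O0f)
    (hall : ∀ T ∈ trios, O0f ∈ T → g • T = T) : ∀ p ∈ O0f, g p = p := by
  have h4 : pt 4 ∉ O0f := by
    rw [not_mem_O0f, idx_pt (by norm_num)]
    decide
  have hq : g (pt 4) ∉ O0f := fun h => h4 ((mem_iff_of_smul_eq hO (pt 4)).1 h)
  obtain ⟨κ, hκ, hκq⟩ := K0_move hq
  have h1 : κ * g = 1 := by
    apply eq_one_of_fix (M24.mul_mem hκ.1 hg)
    · rw [Equiv.Perm.mul_apply, hκq]
    · intro c hc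
      rw [mul_smul, hall _ (list15_trio hc).1 (list15_trio hc).2, K0_fix_trio hκ hc]
  have h2 : g = κ⁻¹ := eq_inv_of_mul_eq_one_right h1
  intro p hp
  rw [h2, Equiv.Perm.inv_eq_iff_eq, (mem_K0_iff.1 hκ).2 p hp]

theorem std_kernel_conv {g : Equiv.Perm GolayPt} (hg : g ∈ M24) (hfix : ∀ p ∈ O0f, g p = p) :
    ∀ T ∈ trios, O0f ∈ T → g • T = T := by
  intro T hT hO
  obtain ⟨c, hc, rfl⟩ := exists_list15 hT hO
  exact K0_fix_trio (mem_K0_iff.2 ⟨hg, hfix⟩) hc

/-- An octad of the length-24 code lies in exactly 15 trios; the stabiliser of the octad in the code's group acts doubly transitively on these 15 trios, and the kernel of this action is the pointwise stabiliser of the octad. -/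
theorem result (o : Finset Cfsg.GolayPt) (ho : o ∈ Cfsg.octads) : {T : Finset (Finset Cfsg.GolayPt) | T ∈ Cfsg.trios ∧ o ∈ T}.ncard = 15 ∧ (∀ T₁ T₂ T₁' T₂' : Finset (Finset Cfsg.GolayPt), T₁ ∈ Cfsg.trios → T₂ ∈ Cfsg.trios → T₁' ∈ Cfsg.trios → T₂' ∈ Cfsg.trios → o ∈ T₁ → o ∈ T₂ → o ∈ T₁' → o ∈ T₂' → T₁ ≠ T₂ → T₁' ≠ T₂' → ∃ g ∈ Cfsg.M24, g • o = o ∧ g • T₁ = T₁' ∧ g • T₂ = T₂') ∧ ∀ g ∈ Cfsg.M24, g • o = o → ((∀ T ∈ Cfsg.trios, o ∈ T → g • T = T) ↔ ∀ p ∈ o, g p = p) := by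
  obtain ⟨γ, hγ⟩ := Cfsg.Agent.S0367.result O0f o O0f_mem ho
  obtain ⟨k, hk, hko⟩ : ∃ k ∈ M24, k • O0f = o := ⟨γ.1, γ.2, hγ⟩
  have hko' : k⁻¹ • o = O0f := by rw [← hko, inv_smul_smul]
  have tr : ∀ T : Finset (Finset GolayPt), T ∈ trios → o ∈ T →
      k⁻¹ • T ∈ trios ∧ O0f ∈ k⁻¹ • T := by
    intro T hT hoT
    refine ⟨Cfsg.Agent.Lib.Helper36.smul_trio_mem (M24.inv_mem hk) hT, ?_⟩
    have := Finset.smul_mem_smul_finset (a := k⁻¹) hoT
    rwa [hko'] at this
  have tr' : ∀ T : Finset (Finset GolayPt), T ∈ trios → O0f ∈ T →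
      k • T ∈ trios ∧ o ∈ k • T := by
    intro T hT hoT
    refine ⟨Cfsg.Agent.Lib.Helper36.smul_trio_mem hk hT, ?_⟩
    have := Finset.smul_mem_smul_finset (a := k) hoT
    rwa [hko] at this
  refine ⟨?_, ?_, ?_⟩
  · rw [← card15]
    have e : {T : Finset (Finset GolayPt) | T ∈ trios ∧ o ∈ T} =
        (fun T => k • T) '' {T : Finset (Finset GolayPt) | T ∈ trios ∧ O0f ∈ T} := by
      ext T
      constructor
      · rintro ⟨hT, hoT⟩
        exact ⟨k⁻¹ • T, tr T hT hoT, smul_inv_smul k T⟩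
      · rintro ⟨T', ⟨hT', hoT'⟩, rfl⟩
        exact tr' T' hT' hoT'
    rw [e, Set.ncard_image_of_injective _ (MulAction.injective k)]
  · intro T₁ T₂ T₁' T₂' h1 h2 h1' h2' o1 o2 o1' o2' hne hne'
    obtain ⟨g, hg, hgO, hg1, hg2⟩ := two_trans_std (tr T₁ h1 o1).1 (tr T₂ h2 o2).1
      (tr T₁' h1' o1').1 (tr T₂' h2' o2').1 (tr T₁ h1 o1).2 (tr T₂ h2 o2).2 (tr T₁' h1' o1').2
      (tr T₂' h2' o2').2 (fun h => hne (MulAction.injective k⁻¹ h))
      (fun h => hne' (MulAction.injective k⁻¹ h))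
    refine ⟨k * g * k⁻¹, M24.mul_mem (M24.mul_mem hk hg) (M24.inv_mem hk), ?_, ?_, ?_⟩
    · rw [mul_smul, mul_smul, hko', hgO, hko]
    · rw [mul_smul, mul_smul, hg1, smul_inv_smul]
    · rw [mul_smul, mul_smul, hg2, smul_inv_smul]
  · intro g hg hgo
    have hg0 : k⁻¹ * g * k ∈ M24 := M24.mul_mem (M24.mul_mem (M24.inv_mem hk) hg) hk
    have hg0O : (k⁻¹ * g * k) • O0f = O0f := by
      rw [mul_smul, mul_smul, hko, hgo, hko']
    constructor
    · intro hall p hp
      have h1 := std_kernel hg0 hg0O (fun T hT hOT => by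
        rw [mul_smul, mul_smul, hall _ (tr' T hT hOT).1 (tr' T hT hOT).2, inv_smul_smul])
      rw [← hko, Finset.mem_smul_finset] at hp
      obtain ⟨p0, hp0, rfl⟩ := hp
      have h2 := h1 p0 hp0
      rw [Equiv.Perm.mul_apply, Equiv.Perm.mul_apply, Equiv.Perm.inv_eq_iff_eq] at h2
      exact h2
    · intro hfix T hT hoT
      have h1 := std_kernel_conv hg0 (fun p0 hp0 => by
        have hp : k p0 ∈ o := by
          rw [← hko]
          exact Finset.smul_mem_smul_finset hp0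
        rw [Equiv.Perm.mul_apply, Equiv.Perm.mul_apply, hfix _ hp, inv_app']) _ (tr T hT hoT).1
        (tr T hT hoT).2
      rw [mul_smul, mul_smul, smul_inv_smul] at h1
      have h2 := congrArg (fun X => k • X) h1
      simp only [smul_inv_smul] at h2
      exact h2

end Cfsg.Agent.S5615
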