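import Cfsg.Statements.S5616
import Cfsg.Agent.Lib.Helper95.SextetAux

set_option autoImplicit false
open scoped Pointwise
open Cfsg

namespace Cfsg.Agent.S5616

open Cfsg.Agent.Lib.Helper9 Cfsg.Agent.Lib.Helper95

/-- Elements of the setwise stabiliser of `{∞, 0, 1}`. -/
def y0Gens : List (List ℕ) :=
  [[23, 0, 7, 18, 19, 16, 8, 5, 12, 22, 11, 13, 14, 2, 3, 10, 6, 9, 20, 15, 17, 4, 21, 1],
   [23, 1, 16, 4, 18, 13, 20, 17, 19, 6, 11, 10, 5, 3, 2, 15, 9, 22, 12, 21, 14, 8, 7, 0],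
   [1, 0, 10, 18, 13, 14, 16, 12, 7, 2, 9, 17, 22, 3, 21, 20, 8, 4, 11, 19, 15, 5, 6, 23],
   [0, 1, 6, 16, 2, 11, 5, 18, 12, 3, 10, 4, 17, 19, 15, 8, 7, 14, 9, 22, 13, 20, 21, 23],
   [23, 0, 2, 17, 10, 3, 16, 13, 8, 19, 21, 11, 12, 20, 14, 6, 15, 5, 18, 22, 7, 4, 9, 1],
   [0, 1, 2, 19, 11, 21, 22, 13, 9, 17, 14, 20, 10, 8, 6, 5, 18, 7, 15, 4, 3, 16, 12, 23],
   [23, 0, 5, 19, 14, 12, 15, 7, 13, 6, 18, 9, 11, 17, 10, 20, 2, 16, 21, 8, 22, 4, 3, 1],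
   [0, 1, 2, 5, 13, 17, 10, 15, 19, 8, 12, 21, 6, 16, 14, 18, 4, 3, 7, 9, 11, 20, 22, 23],
   [1, 23, 13, 14, 21, 7, 16, 2, 6, 17, 15, 10, 8, 11, 12, 19, 5, 20, 3, 4, 18, 22, 9, 0],
   [23, 1, 14, 13, 3, 12, 9, 22, 21, 16, 11, 10, 18, 5, 20, 15, 2, 7, 4, 8, 6, 19, 17, 0],
   [1, 0, 9, 13, 17, 21, 22, 8, 16, 10, 2, 18, 7, 4, 5, 20, 6, 11, 3, 19, 15, 14, 12, 23],
   [0, 1, 4, 9, 11, 6, 2, 16, 15, 18, 10, 5, 8, 20, 17, 14, 3, 12, 7, 13, 21, 22, 19, 23],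
   [1, 23, 2, 5, 21, 17, 15, 20, 8, 22, 4, 11, 12, 7, 14, 16, 6, 3, 18, 9, 13, 10, 19, 0],
   [0, 1, 2, 20, 19, 15, 14, 17, 13, 8, 12, 4, 22, 7, 10, 18, 21, 9, 16, 3, 11, 5, 6, 23],
   [1, 23, 16, 22, 21, 2, 9, 7, 19, 11, 14, 12, 5, 8, 4, 6, 17, 13, 10, 3, 15, 18, 20, 0],
   [0, 1, 2, 17, 16, 3, 12, 18, 9, 19, 6, 20, 10, 4, 14, 7, 13, 5, 15, 8, 21, 11, 22, 23]]

theorem y0Gens_ok : y0Gens.all (memOK [8388611]) = true := by decide +kernel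

theorem good_y0 : Good (M24 ⊓ setStab [8388611]) (y0Gens.map tperm) y0Gens :=
  good_of_memOK y0Gens y0Gens_ok

/-- The number of tetrads of a listed sextet meeting `{∞, 0, 1}`. -/
def ty (L : List ℕ) : ℕ := L.countP (fun m => m &&& 8388611 != 0)

/-- A base sextet of each type. -/
def baseL : ℕ → List ℕ
  | 1 => [8388615, 147496, 268544, 1082880, 2621632, 4268048]
  | 2 => [8388621, 43136, 147490, 1118272, 2097936, 4981760]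
  | _ => [8388636, 294978, 589984, 1074176, 2097921, 4331520]

/-- The points of its first tetrad. -/
def basePts : ℕ → List ℕ
  | 1 => [0, 1, 2, 23]
  | 2 => [0, 2, 3, 23]
  | _ => [2, 3, 4, 23]

set_option maxRecDepth 100000 in
/-- For each listed sextet, a word in `y0Gens` carrying the base sextet of its type to it. -/
def cert : List (List ℕ) :=
  [[], [11, 1], [], [7, 4], [11], [5, 5], [6, 1, 5], [4, 8, 1], [7, 13, 0], [], [6], [7], [15, 4],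
   [9, 7, 1], [9, 8, 5], [3, 1, 0], [0, 6, 0], [10, 9], [8, 15, 9], [12, 11, 10], [3], [3, 5, 5],
   [5, 6, 1], [12, 13, 0], [3, 13, 4], [3, 9, 4], [11, 7], [10, 15, 1], [1, 5, 0], [14, 14, 0],
   [8, 2, 3], [5, 5, 2], [3, 1, 5, 0], [12, 13, 0], [10, 14, 4], [0], [3, 1], [5, 4], [4, 0, 0],
   [4, 9, 9], [5, 12, 2], [8, 6], [15, 5, 0], [15, 11, 1], [4, 14, 0], [3, 3], [0, 3, 1],
   [9, 3, 3], [0, 2, 3], [5, 4, 0], [14, 7, 0], [15, 4, 1], [4, 3, 2], [4, 0, 0], [4, 6], [3, 3],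
   [10, 0], [15, 5], [10, 14, 0], [10, 0], [15, 6], [1, 8], [2, 13, 0], [14, 8], [6, 13, 1],
   [11, 0, 13], [11, 2, 0], [6, 5], [5, 11, 1], [5, 8, 4], [3, 7, 8], [5, 9], [0, 3], [13, 6, 2],
   [7, 11, 12], [14, 5, 7], [15, 2, 5], [7, 1, 1], [13, 10], [2, 15, 4], [12, 3, 1], [9, 5, 0],
   [15, 4, 0], [7, 1, 1], [10], [9, 3], [13, 4], [14, 0, 1], [3, 3, 0], [9, 8, 1], [11],
   [15, 2, 1], [9, 4], [7, 10, 4], [10, 6, 1], [8, 14], [13, 3, 0], [13, 8, 9], [7, 8],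
   [14, 15, 2], [6, 2, 2], [0, 3, 3], [5, 15, 1, 0], [1, 0], [8, 4, 1], [0, 12, 7], [1, 14],
   [3, 5, 9], [11, 0, 4], [10, 15, 3], [1, 0, 3], [4, 2, 1], [10, 5, 4], [3, 15, 0], [1, 13, 4],
   [14, 1, 3], [10, 8, 2], [14, 13, 12], [6, 15], [13, 10], [2], [10, 3, 2], [13, 6, 1],
   [10, 3, 0], [10, 1, 1], [9, 6, 1, 0], [7, 3], [2, 15], [7, 3], [8, 14], [1, 2, 0], [1, 1, 2],
   [13, 6, 1], [3, 14], [2, 3, 0], [14, 15, 0], [9, 0, 2], [9, 2], [5, 8, 7], [9, 7, 6], [3, 9, 2],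
   [14, 0], [11, 2], [12, 5, 2], [14, 0], [11, 11, 14], [6, 2, 3], [9, 8, 10], [0, 12, 3],
   [14, 4, 0], [5, 15, 3], [4, 7, 0], [2, 15], [11, 5, 0], [15, 8, 3], [0, 12, 3], [4, 9, 0],
   [3, 2], [7, 6, 0], [8, 13, 1], [14, 5, 10], [8, 1, 4], [14], [4, 7, 14], [3, 4, 1], [0, 2],
   [7, 13], [2, 1, 1], [11, 1], [8, 4, 0], [13, 13], [11, 5, 5], [5, 15, 10], [13, 11, 6], [4, 10],
   [0, 13, 8], [0, 14, 0], [15, 3, 0], [1, 3, 0], [2, 0, 10], [3, 7], [2, 5, 3], [10, 0, 0, 0],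
   [2, 6, 0], [0, 10, 3], [5, 0, 12, 0], [7, 12, 0], [14, 0, 4], [15, 6, 4], [12, 14, 5],
   [8, 12, 10], [4, 8, 10], [14, 2, 0], [14, 10], [11, 11, 4], [5, 14], [11, 15, 6], [6, 12, 0],
   [3, 14, 1], [7, 1, 4], [10, 10, 0], [2, 2], [10, 15], [7, 13], [2, 2], [11], [1, 6], [10, 15],
   [4, 6, 1], [6, 2, 0], [14, 3, 0], [5, 11, 4], [7, 14, 5], [4, 9, 2], [10, 10], [10, 12, 6],
   [8, 2, 1], [2, 1, 2], [12, 3, 5], [7, 0, 1], [2, 0], [6, 8, 3], [11, 10, 1], [7, 6, 8],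
   [12, 1, 0], [11, 14, 10, 0], [11, 15], [11, 4], [9, 6, 4], [11, 15], [6, 12], [6, 7], [9, 8, 3],
   [8, 13], [6, 12], [1, 1, 1], [9, 0, 0], [10, 15, 0], [8, 8, 3], [14, 3], [7, 14, 14], [1, 5, 3],
   [7, 2], [6, 0, 2], [1, 4, 0], [8, 6], [2, 4, 0], [6, 3, 4], [2, 11, 0], [15, 0, 1], [15, 6, 0],
   [13, 7, 1], [6, 10, 6], [11, 0, 0], [2, 3, 8], [15, 9, 6], [2, 11, 2], [2, 14, 0], [12, 11, 8],
   [10, 5, 3], [6, 10], [1, 5, 14], [3, 1, 2], [5, 12, 3], [15, 1], [1, 5, 1], [2, 3, 1],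
   [7, 9, 2], [14, 14], [9, 13, 6], [14, 15, 5], [12, 9, 3], [3, 2, 3], [7, 14], [14, 7, 1],
   [2, 0], [8, 8], [6, 2, 5], [0, 14, 2], [4, 14, 11], [12, 3, 3], [8, 6, 4], [6, 6, 2],
   [9, 13, 2], [15, 9, 7], [5, 0], [8], [5, 3, 1], [2, 11], [3, 1, 3], [2, 7, 1], [3, 7, 9],
   [7, 1], [15, 1, 12], [14], [13, 11, 0], [2, 5, 6], [14, 1, 0], [7], [8, 14, 12], [11, 5],
   [3, 13], [11, 6], [2, 5, 1], [8, 2, 0], [6], [14, 14, 2], [7, 12, 2], [8, 12], [8, 2],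
   [3, 8, 8], [6, 6, 0], [13, 7, 11], [4, 10, 1], [7, 11], [2, 1], [10, 14, 0], [0, 4, 3],
   [4, 6, 0], [15, 10, 4], [8, 5, 1], [4, 10, 15], [3, 12, 0], [10], [3, 12, 7], [11, 8],
   [2, 0, 6], [14, 11], [15, 2, 3], [7, 5, 8], [14, 11, 6], [9, 11, 1], [5, 7, 2], [2, 9, 4],
   [5, 8], [15, 12, 1], [9, 13, 7], [7, 14, 3], [5, 10, 0], [1, 10], [2, 7, 3], [15, 1, 5],
   [12, 0, 2], [12, 0, 2], [11, 4, 15, 0], [14, 7, 6], [10, 12], [5, 1, 10], [7, 12, 7], [15, 9],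
   [8, 1], [5, 8, 6], [15, 3], [2, 8, 6], [15, 3], [4, 6, 2], [10, 11, 9], [3, 0, 4], [3, 15, 5],
   [9, 6, 1], [14, 14, 5], [1, 6, 4], [11, 2, 5], [2, 7, 12], [9], [12, 6, 1], [6, 1], [6, 9, 0],
   [13, 0, 1], [13, 6, 0], [15, 9], [11, 6, 3], [14, 2, 12], [13, 3, 7], [13, 0, 14], [5, 4, 1],
   [8, 1, 1], [12, 7], [1, 3], [9, 13], [3, 4], [11, 14, 1], [13, 13, 0], [12, 10], [9, 2, 9],
   [9, 15], [12, 8], [3, 0, 14, 0], [11, 12], [1, 10], [8, 8, 4], [3, 15], [9, 5], [4, 9, 5],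
   [0, 6, 3], [1, 15, 2], [13, 10, 15], [0, 4, 1], [13, 10, 3], [12, 6, 4], [0, 1, 0], [13, 10, 1],
   [8, 15, 5], [14, 12, 14], [6, 7, 2], [10, 6, 1], [1, 1, 3], [13, 0, 2], [14, 10, 0], [14, 2],
   [2, 7], [14, 8, 2], [2, 7], [4, 2], [4, 15, 9], [6, 0, 1, 0], [14, 7], [12, 11, 1], [1, 2],
   [14, 3, 2], [7, 4, 9], [0, 3, 0], [13, 0, 1], [9, 6, 10], [14, 4, 0], [0, 6], [5, 0, 6],
   [15, 1, 7], [10, 3, 0], [14, 3, 7], [9, 7], [9, 12], [13, 9, 2], [4, 9, 7], [1, 5, 2],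
   [7, 2, 7], [8, 15, 6], [8, 15], [13, 14], [6, 9, 2], [8, 6, 0], [0, 6, 6], [9], [1, 0, 0],
   [0, 13, 0], [13, 1], [15, 14, 4], [9, 4, 2], [3, 12, 2], [15, 3, 12], [1, 14, 0], [11, 12, 8],
   [1, 0, 7], [13, 0, 4], [11, 4, 0], [7, 0], [13, 7], [6, 3], [8, 2], [13, 6], [8, 7], [6, 12, 1],
   [7, 11, 0], [7, 14, 2], [0, 2, 6], [10, 4, 9], [5, 15, 0], [9, 15, 1], [12, 10, 1], [3, 0, 6],
   [4, 0, 6], [15, 2], [14, 2, 6], [7, 10, 0], [15, 2], [14, 1], [12, 11, 6], [7, 0], [13, 7],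
   [8, 8, 2], [12, 10, 0], [14, 9], [15, 4, 1], [12, 0, 3], [3, 5, 2], [10, 11, 2], [1, 11, 7],
   [0, 5, 4], [14, 9, 15], [9, 3, 8], [10, 8], [4, 14], [10, 13], [0, 15, 0], [1, 15, 1], [4, 14],
   [2, 0, 11], [8, 12], [12, 1, 3], [15, 8, 1], [3, 14, 2], [4, 1], [3, 4, 2], [10, 12, 0],
   [9, 5, 1], [7, 4, 0, 0], [10, 8, 8], [10, 1, 4], [11, 7, 14], [12, 3, 1], [5, 12, 2],
   [2, 12, 0], [2, 12, 0], [5, 12, 7], [12, 10, 5], [8, 12, 6], [7, 8], [4, 2], [1, 11, 0],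
   [10, 12, 2], [11, 2, 15], [7, 14, 0], [14, 0, 2], [5, 5, 3], [12, 11], [15, 9, 3], [8, 10],
   [9, 0, 0], [1, 11], [5, 6, 0], [2, 11, 2], [1, 5, 1], [7, 11, 2], [9, 8, 2], [5, 0], [11, 1],
   [4, 0, 2], [7, 14, 11], [11, 11, 0], [2, 6, 6], [15, 12], [6, 5, 9], [0, 2, 14], [9, 8, 2],
   [11, 4], [3, 15, 1, 0], [12, 3, 4], [5, 2], [6, 8, 1], [3, 12, 6], [0, 12, 0], [5, 4, 1],
   [9, 3, 2], [1, 2, 1], [5, 2], [3, 0, 3], [7, 3, 15], [4, 15, 2], [7, 14, 7], [1, 0, 0], [1],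
   [12, 6, 3], [14, 12], [9, 11], [11, 11, 0], [12, 7, 2], [1], [11, 5, 4], [15, 14], [2, 0, 2],
   [12, 13, 6], [6, 15], [5, 6, 4], [14, 11, 8], [7, 2, 6], [3], [3, 7, 4], [3], [2, 2, 0],
   [7, 12, 1], [0, 0, 2], [0, 12], [11, 0], [14, 2], [7, 3, 8], [14, 11], [2, 9, 7], [13, 6, 0],
   [13, 1, 1], [2, 3], [6, 7, 13], [7, 10], [13, 12, 14], [7, 11, 8], [3, 8, 7], [12, 6, 1],
   [8, 10, 3], [4, 3, 5], [2, 14], [10, 1, 2], [12, 11, 12], [7, 13, 4], [12, 10, 7], [8, 12, 0],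
   [15, 4], [11, 14, 0], [11, 11, 2], [8, 8, 13], [8, 7, 1], [4, 8, 4], [5, 4, 6], [1, 10, 4],
   [10, 15, 1], [2, 3], [11, 14, 0], [6, 1, 0], [14, 12, 5], [11, 4, 6], [4, 7, 3], [8, 1, 3],
   [14, 13, 4], [2, 0, 0], [4, 13, 10], [13, 12, 0], [9, 12, 9], [8, 12, 2], [3, 10, 0], [13, 2],
   [0, 13], [12, 14, 2], [15, 6], [7, 5, 8], [3, 1, 8], [7, 2], [11, 10, 0], [12, 0, 4],
   [15, 14, 3], [10, 12, 3], [15, 1], [1, 12], [9, 0], [2, 6], [0, 10], [3, 10, 12], [14, 7, 2],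
   [8, 15, 4], [1, 12], [5, 4, 0], [7, 6], [8, 5, 11], [12, 1], [7, 9], [11, 7, 0], [12, 7, 11],
   [15, 1, 3], [7, 14, 4], [7, 13, 1], [13, 0, 0], [13, 9, 3], [10, 4, 0], [12, 14, 0], [9, 10, 4],
   [12, 3], [2, 3, 3], [14, 4], [15, 12, 2], [4, 3], [7, 8, 2], [0, 10, 0, 0], [0, 10, 6],
   [10, 15, 1, 0], [10, 14, 1], [2, 0, 4], [4, 5, 8], [7, 2, 4], [4, 8, 1], [8, 10, 0], [14, 0, 2],
   [2, 11, 7], [3, 12], [1, 0], [15], [4], [8, 3, 0], [9, 9, 0], [2, 8, 1], [3, 2, 0], [11, 6, 1],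
   [0, 15, 2], [4, 11, 2], [14, 13, 2], [10, 15, 9], [10, 4, 2], [4, 6, 1], [9, 4, 0], [14, 4, 3],
   [10, 1], [12, 6, 15], [14, 10, 7], [14, 3, 7], [12, 8, 4], [14, 11, 0], [0, 13], [13, 8, 2],
   [13, 2, 4], [1, 12, 10], [1, 13, 3, 0], [8, 3], [12, 6, 5], [5, 10], [4, 10, 7], [0, 2, 5],
   [5, 7, 4], [10, 1, 10], [10, 14, 11], [5, 10], [12, 6], [7, 6], [10, 7, 3], [8, 3, 0], [10, 14],
   [4, 14, 8], [8, 2, 6], [4, 10], [13, 4, 10], [6, 8], [6, 9], [2, 7, 13], [5, 1, 4], [0, 6],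
   [12, 8, 1], [9, 6, 1], [12, 2, 2], [4, 7, 5], [5, 15, 1], [8, 10], [2, 5, 1], [5, 9, 4],
   [6, 3, 7], [7, 0, 1, 0], [0, 13, 9], [4, 8, 2], [6, 4, 9], [9, 0, 9], [6, 13, 0], [11, 4, 2],
   [13, 14, 0], [13, 11, 2], [5, 6, 2], [3, 15, 1], [0, 13, 0], [7, 3, 14], [11, 15, 12], [10, 0],
   [6, 15, 5], [11, 12], [10, 5, 1], [0, 0], [14, 13, 0], [12, 0, 0], [2, 11], [3, 1, 4],
   [5, 8, 5], [11, 1, 0], [0, 2], [9, 14, 8], [15, 8], [10], [8, 1, 10], [4, 11, 1], [6, 13],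
   [6, 8, 5], [6, 7, 1], [6, 4, 5], [12], [14, 10], [15, 12], [5, 1, 2], [6, 7, 1], [14, 12, 6],
   [12, 6], [10, 10, 7], [1, 13, 9], [5, 7, 13, 0], [7, 1, 3], [5, 1, 1], [5, 3, 0], [12, 15, 4],
   [5, 12, 0], [9, 11], [10, 4, 8], [9, 2, 1], [1, 15, 11], [8, 4, 0], [10, 5, 5], [5, 1, 1],
   [6, 6, 3], [0, 7], [4, 3, 0], [1, 10, 1], [0, 0, 0], [13, 0], [15], [4, 10, 13], [0, 14, 0],
   [2, 9, 0], [14, 10, 0], [14, 0, 7], [6, 15, 0], [4, 1, 10], [0, 0, 0], [5, 10, 7], [8, 13, 8],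
   [7, 11, 5], [12, 1, 1], [15, 14, 0, 0], [3, 0], [15, 3, 1], [14, 8, 1], [1, 7, 1], [10, 5, 1],
   [0, 9], [12, 2], [7, 4, 3], [15, 8, 2], [14, 0, 0], [11, 2, 2], [5, 4, 3], [12, 15, 2],
   [0, 3, 5], [6, 6, 13], [1, 11], [15, 11, 2], [0, 1, 7], [7, 0, 7], [1, 5, 7], [0, 3, 0],
   [11, 1, 1], [0], [5, 15], [4, 10, 3], [7, 12], [0, 11, 4], [3, 14, 2], [5, 15, 1], [3, 7, 0],
   [1, 2], [2, 2, 6], [3, 4, 2], [12, 3, 2, 0], [5, 14, 4], [11, 1, 1], [1, 1], [3, 0], [8, 1, 8],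
   [7, 4, 0], [12, 10, 15], [11, 2, 2], [4, 11], [14, 5], [12, 13, 9], [9, 2, 0], [2], [11, 14],
   [12, 6, 2], [10, 8, 1], [15, 10, 0], [0, 0, 6], [2, 1, 8], [9, 2, 0], [14, 12, 1], [5, 1],
   [4, 5, 1], [6, 6], [1, 8, 5], [11, 9, 4], [11, 11], [4, 5, 1], [10, 0, 0], [0, 2, 1], [12, 14],
   [6, 2, 2], [1, 12, 2], [0, 10, 0], [8, 15, 3], [15, 3, 3], [5, 10, 1], [15, 8, 3], [5, 9, 3, 1],
   [7, 4, 1], [6, 13, 2], [1, 1], [6, 0, 15], [7, 12, 5], [12, 11, 10], [5, 11, 0], [5, 14, 2],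
   [4, 1, 0], [5, 2, 1], [14, 1, 0], [9, 3], [11, 10, 5], [15, 2, 1], [4, 7, 11], [2], [14, 5, 3],
   [5, 3, 8], [11, 4, 14], [7, 5, 2], [12, 15, 11], [13, 9, 6], [14, 12, 2], [3, 8, 3], [12, 13],
   [14, 15, 1], [12, 8, 3], [5, 2, 3], [12, 7, 3], [12, 11, 9], [5, 15, 0], [14, 14, 1],
   [0, 11, 14], [15, 0], [7, 13, 7], [4, 6, 4], [0, 14, 4], [5, 12], [6, 12, 9], [2, 4, 13],
   [11, 15, 1], [10, 11, 6], [4, 1], [12, 7, 1], [0, 10, 0], [1, 13, 10], [13, 14, 1], [12, 15, 0],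
   [7, 5, 0], [7, 11, 1], [0, 4], [5, 9], [0, 0, 11], [0, 5, 6], [8, 5, 3], [12, 15, 0], [0, 6, 1],
   [3, 14, 0], [7, 8, 4], [13, 4, 1], [11, 8, 5], [15, 1, 10], [12], [1, 8, 6], [13, 7, 0],
   [2, 2, 2], [1, 7, 1], [13, 4, 2], [4, 9, 0], [15, 14, 0], [4, 5, 2], [3, 1, 11], [5, 15, 4],
   [10, 11], [6, 3, 0], [1, 12, 2], [3, 8], [0, 3], [1, 6, 5], [3, 1, 4, 0], [3, 8], [5],
   [0, 7, 1], [8, 15, 0], [3, 10], [2, 7, 4], [1, 10, 0], [15, 10], [8, 2, 7], [0, 2], [7, 10, 0],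
   [6], [3, 6], [4, 9, 2, 0], [15, 10], [2, 0, 11], [0, 1], [6, 0], [8, 15, 0], [5, 3, 10],
   [14, 0, 1], [13, 7, 1], [9, 14, 1], [12, 1], [6, 12, 10], [11, 5, 3], [6, 11, 4], [5, 12],
   [13, 11], [3, 5, 0], [8, 15], [4, 10, 11], [4], [2, 9], [1], [15, 10, 13], [5, 10, 0], [10, 5],
   [2, 7, 1], [8, 2, 3], [2, 2, 5], [3, 9, 3], [13, 10, 6], [8, 5], [10, 12, 1], [10, 10, 5],
   [2, 5], [10, 7, 1], [11, 15, 0], [14, 8, 3], [0, 6, 5], [6, 5, 0], [6, 3, 5], [10, 8, 5],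
   [7, 1], [8, 5, 0], [4, 2, 2], [5], [12, 14, 0], [7, 14, 1], [0, 7, 4], [3, 7], [2, 8, 1],
   [11, 0], [6, 1, 2], [7, 0, 4], [8, 5, 2], [3, 2, 1], [13, 7, 3], [2, 2, 4], [8, 14, 0],
   [8, 3, 7], [15, 14], [8, 1, 1], [2, 2, 1], [13, 0, 6], [8, 3], [11, 10, 6], [0, 9, 2],
   [6, 10, 0], [11, 13, 0], [13, 4], [0, 7, 2], [8, 10, 0], [10, 8], [2, 4], [6, 10, 0], [7, 4],
   [14, 3, 15], [4, 0, 4], [9, 11, 2], [2, 6], [10, 13, 1], [4, 9, 3], [3, 10], [8, 14, 7],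
   [3, 0, 2], [10, 9], [13, 6], [13, 1, 0], [3, 3, 8], [2, 3, 6], [1, 0], [9, 12], [5, 14, 0],
   [3, 9], [15, 3, 0], [5, 0, 9], [12, 8], [8, 11, 12], [4, 5], [9, 6], [4, 1, 3], [15, 10, 5],
   [10, 13], [2, 13], [9, 11, 0], [11, 12, 3], [10, 9, 2], [8, 13, 6], [15, 11], [7, 2, 1],
   [15, 9, 4], [8], [4, 15, 0], [14, 5, 1], [2, 13, 0], [2, 1], [9, 11, 10], [9, 15, 0],
   [14, 2, 0], [12, 3, 6], [15, 1, 0], [0, 9, 2], [0, 4, 1, 0], [2, 0, 1], [14, 2, 3], [7, 6, 5],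
   [9, 14], [4, 9, 6], [15, 11, 8], [6, 4, 2], [2, 6, 3], [2, 11, 0], [1, 6, 0], [6, 13, 7],
   [2, 5], [0, 5, 2, 0], [14, 2, 4], [10, 0, 2], [4, 5, 0], [4, 0], [10, 4], [2, 3, 10], [4, 1, 1],
   [11, 10, 3], [2, 13, 4], [5, 8], [10, 1, 0], [3, 8, 2], [8, 2, 6], [8, 1], [10, 5], [9, 14, 11],
   [11, 5, 1], [10, 6, 3], [1, 7, 0], [7, 5, 2], [6, 2, 1], [10, 11, 0], [4, 11, 0], [12, 0], [13],
   [13, 7, 4], [2, 5, 0], [3, 10, 7], [7, 3, 0], [10, 5, 0], [12, 13, 8], [5, 5], [11, 9, 0],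
   [9, 9], [9, 8], [14, 15, 8], [1, 6, 3], [3, 9, 0], [12, 11, 0], [6, 4, 14], [14, 5], [10, 12],
   [11, 7], [12, 1, 1], [3, 1, 5], [4, 8, 4], [11, 9, 3], [13, 13, 4], [4, 15, 2], [14, 5, 8],
   [12, 11, 0], [10, 7, 0], [8, 1, 0], [15, 5], [4, 13], [13, 2, 2], [5, 11, 4], [0, 4], [4, 3, 6],
   [1, 3], [10, 13, 7], [14, 12, 0], [8, 7, 5], [7, 9], [0, 5, 5], [9, 2, 5], [3, 13, 12],
   [15, 11, 0], [5, 2, 0], [12, 6, 0], [9, 15, 2], [2, 11, 1], [12, 15, 1], [15, 0, 0], [15, 5, 0],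
   [11, 2], [8, 1, 7], [13, 12], [2, 15, 0], [9, 2, 12], [11, 6], [13, 9, 2], [11, 14], [8, 1, 2],
   [8, 3, 1], [9, 0, 1], [2, 12], [2, 4, 1], [14, 3, 0], [2, 7, 0], [4, 15, 3], [11, 0, 2],
   [9, 8, 8], [5, 6, 3], [3, 9, 7], [4, 15, 4], [8], [15, 3, 7], [1, 4], [14, 13, 1], [15, 9, 0],
   [8, 4], [0, 5, 1], [13, 1, 8], [14, 2, 2, 0], [2, 9, 11], [9, 9], [6, 12, 1], [9, 15, 4],
   [7, 10, 7], [14, 8], [0, 5, 1], [4, 8, 7], [9, 4], [4, 8], [4, 9], [12, 11], [6, 12, 14],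
   [4, 8], [8, 13, 0], [3, 3, 0], [4, 7, 2], [15, 1, 0], [10, 6, 4], [5, 5, 0], [12, 9, 4], [8, 7],
   [15, 12, 3], [5, 5, 1], [11, 2, 1], [12, 13, 1], [4, 8, 3], [0, 1, 4], [4, 3, 3], [3, 6, 1],
   [14, 1, 8], [12, 0, 3], [0, 5, 0], [12, 5], [12, 8, 13], [11, 15, 8], [8, 4], [8, 11, 10],
   [12, 7, 0], [3, 2, 9], [13, 0, 9], [12, 0, 13], [11, 8, 2], [0, 1, 0], [0, 6, 4], [12, 10, 3],
   [14, 1], [8, 8], [9, 14, 14], [8, 11, 6], [12, 15], [9, 5, 0], [8, 10, 1], [1, 12, 3], [11, 9],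
   [14, 14], [12, 2], [2, 11, 4], [6, 11, 7], [1, 4, 1], [1, 2, 12], [6, 13, 13], [5, 8, 1],
   [11, 13, 1], [13, 11, 12], [5, 11], [13, 14, 0], [9, 4, 6], [4, 9], [8, 14, 4], [14, 7, 1],
   [12, 0], [11, 10], [7, 6, 4], [13, 12, 8], [12, 7], [11, 8, 1], [5, 12, 3], [15, 4, 2],
   [10, 4, 2], [12, 0], [2, 8, 7], [9, 2, 2], [11, 10], [11, 7, 4], [0, 11, 5], [0, 10, 14],
   [2, 7, 10, 0], [0, 5, 2], [5, 11, 1], [6, 8, 2], [13], [9, 2], [2, 4, 0], [9, 8], [0, 1],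
   [11, 6, 0], [8, 14, 2], [6, 8, 2], [7, 9, 7], [10, 4, 0], [8, 6, 6], [8, 7, 2], [14, 12],
   [7, 4, 0], [15, 11], [14, 4, 1], [2, 12, 8], [13, 1], [5, 7], [5, 15, 4], [5, 9, 9], [2, 9],
   [3, 5, 1], [11, 13], [5, 6], [11, 14, 5], [0, 11, 6], [7, 11, 1], [3, 10, 3], [15, 12, 2],
   [13, 9], [4, 15, 3], [0, 14], [6, 1, 1], [13, 8, 5], [7, 0, 0], [0, 14], [9, 3, 6], [11, 12, 0],
   [12, 8, 5], [13, 9, 0], [6, 7, 11], [15, 8, 4], [4, 10, 9], [4, 13, 4], [1, 13, 1], [10, 3, 3],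
   [5, 7], [2, 14, 4], [6, 1, 4], [1, 12, 0], [9, 7], [4, 0], [3, 5, 3], [10, 7], [7, 5],
   [13, 10, 4], [10, 7], [3, 0, 0], [8, 9, 0], [7, 11, 5, 1], [1, 13, 1], [2, 6, 1], [8, 9, 2],
   [11, 15, 5, 0], [8, 2, 9, 0], [13, 12, 3], [1, 2, 0], [1, 15], [3, 15, 0], [7, 10, 15],
   [7, 3, 7], [6, 5, 14], [12, 9, 2], [7, 11, 6], [7, 5, 11], [2, 0, 3], [10, 15, 12], [9, 0],
   [11, 12, 7], [5, 11, 5], [1, 6, 7], [5, 6, 12], [12, 11, 4], [14, 9, 2], [6, 6, 4], [9, 7, 0],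
   [11, 12, 2], [9, 13], [7, 5, 0], [6, 1, 0], [15, 0, 1], [15, 0, 4], [5, 3, 1], [7, 14, 3, 0],
   [9, 10, 0], [4, 14, 0], [11, 0, 1], [9, 7, 5], [11, 13], [4, 3, 6], [8, 2, 5], [4, 13, 9],
   [7, 11], [12, 11, 1], [4, 7, 4], [13, 14, 1], [13, 2, 3], [13, 3], [6, 12, 2], [6, 1],
   [4, 0, 15], [7, 12, 3], [4, 0, 1], [0, 0, 3], [6, 12, 2], [1, 1, 1], [7, 1, 0], [14, 13, 3],
   [5, 2, 3, 0], [4, 2, 2], [2, 1, 3], [15, 12, 0], [1, 3, 8], [6, 4], [14, 11, 1], [4, 10, 3],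
   [11, 2, 12], [12, 11, 2], [7, 10, 0, 0], [8, 11, 4], [1, 3, 9], [12, 5, 6], [0, 0, 9], [4, 6],
   [2, 4, 8], [1, 3, 8], [1, 5], [8, 11, 12], [15, 5, 5], [8, 8, 7], [5, 3, 2, 0], [8, 11, 2],
   [9, 14, 2, 0], [12, 5, 0], [11, 8], [6, 7, 0, 0], [11, 11, 2], [2, 12, 13], [15, 11, 7],
   [0, 7, 10], [15, 4, 8], [9, 12, 1], [6, 4, 0], [13, 11, 0], [3, 0], [6, 4, 0], [10, 11, 5],
   [10, 1, 3], [3, 3, 4], [12, 10, 9], [15, 9, 2], [14, 11, 2], [0, 2, 1], [3, 3, 1], [11, 4, 9],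
   [0, 6, 1], [12, 10, 8], [4, 9, 11], [4, 2, 1], [11, 1, 3], [13, 4, 3], [4, 6, 10], [2, 13, 1],
   [2, 12], [6, 6, 10], [15, 11, 2], [11, 12, 0], [11, 1, 4], [14, 5, 6], [15, 8], [9, 6, 6],
   [3, 4, 7], [3, 3, 9], [4, 5, 6], [7, 4, 2], [13, 12], [0, 10], [13, 1], [12, 9, 0], [12, 15, 1],
   [0, 4, 0, 0], [1, 10, 0], [3, 2, 0], [6, 11, 0], [4, 6, 3], [12, 9, 0], [3, 6, 0], [15, 1, 4],
   [8, 5, 0], [2, 13, 6], [9, 9, 4], [1, 7], [15, 12, 0], [9], [8, 9], [2, 3, 10], [2, 5, 2],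
   [14, 9, 0], [0, 4, 0], [13, 8], [10, 11, 11, 0], [15, 5, 11], [14, 4, 9], [2, 5, 2], [1, 5, 4],
   [6, 5, 1], [0, 11], [9, 14, 2], [4, 3, 0], [13, 7, 10], [11, 8, 4], [5, 11, 11], [14, 15, 1],
   [4, 0, 3], [11, 14, 8], [14, 9, 0], [9, 0], [12, 13, 4], [4, 5], [11, 1, 5], [8, 4, 2],
   [5, 14, 5], [13, 2, 0], [5, 0, 1], [14, 15], [5, 0, 1], [0, 0, 4], [6, 13], [11, 9, 0],
   [9, 7, 1], [5, 9, 6], [3, 5], [10, 3], [6, 1, 3], [14, 14, 7], [3, 5], [3, 6, 0], [12, 10],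
   [8, 8, 1], [2, 15, 1], [0, 9, 3], [4, 1, 1], [0, 3, 1], [4, 3, 8], [2, 13, 2], [1, 14, 1],
   [7, 6, 2], [2, 12, 1], [0, 15, 0], [8, 9, 3], [11, 9, 13], [4, 7], [6, 0, 2], [5, 0, 3], [6, 2],
   [6, 6, 1], [5, 1], [15, 12, 3], [10, 3], [13, 6, 13], [8, 8, 2], [7, 3, 5], [7, 10, 3],
   [10, 14], [15, 3, 1], [5, 15, 14], [9, 8, 7], [2, 3, 4], [7, 0, 0], [7, 10, 3], [7, 13, 0],
   [9, 14, 0], [3, 6], [1, 0, 1], [14, 15, 3], [10, 0, 2], [5, 15, 2], [3, 3, 6], [8, 2, 2],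
   [5, 6], [3, 10, 1, 0], [5, 14, 3], [6, 0, 0], [5, 10, 3], [3, 4], [10, 0, 0], [0], [3, 1],
   [8, 11, 1], [8, 3, 8], [5, 2, 0], [3, 8, 1], [0, 12, 1], [4, 2, 0], [11, 13, 1], [0, 2, 2],
   [9, 3, 0], [11, 9], [14, 7], [3, 0, 1], [2, 0], [5, 8, 3], [6, 7], [14, 10, 1], [9, 11, 1],
   [8, 5, 2], [2, 8, 6], [9, 3, 1], [4, 2, 6], [14, 5, 1], [12, 7, 6], [11, 6, 4], [2, 9, 13],
   [2, 3, 1], [8, 8, 1], [3, 4, 0], [6, 3, 10], [3, 2, 5], [1, 10, 9], [12, 5, 12], [9, 11, 4],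
   [15, 5, 3], [13, 6, 7], [8, 15, 1], [2, 9, 4], [3, 1, 0], [3, 10, 9], [13, 3, 1], [9, 7, 1, 0],
   [5, 9, 3], [10, 14, 5], [6, 2, 5], [7, 3, 9], [2, 8], [0, 15], [12, 13, 8], [1, 15], [8, 12, 1],
   [8, 5], [8, 12, 1], [12, 13], [0, 3, 4], [0, 4, 8], [3, 8], [13, 1, 1], [5, 9, 7], [15, 0],
   [13, 11, 10], [9, 3, 4], [3, 9, 2], [9, 3, 1], [11, 4, 0], [11, 13, 3], [2, 2, 0], [14, 8, 4],
   [4, 8, 12], [10, 6], [6, 2, 9], [7, 3, 1], [14, 1, 1], [12, 3], [2, 5, 0], [10, 1, 0], [13, 8],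
   [5, 10, 3], [14, 13, 0], [5, 14], [10, 11, 7], [1, 12, 7], [5, 3], [10, 3, 7], [5, 3],
   [0, 5, 0], [4, 1, 4], [4, 5, 0], [0, 0], [3, 2, 1], [0, 4, 5], [9, 4, 1], [14, 2, 9],
   [11, 10, 7], [9, 6, 2], [6, 0], [10, 9, 0], [0, 14, 1], [0, 9, 6], [13, 1, 11], [10, 0, 1],
   [0, 11], [15, 6, 2], [6, 10], [14, 15, 6], [3, 10, 8], [13, 0], [10, 15, 14], [12, 2, 6],
   [10, 6, 0], [9, 15, 6], [6, 3], [10, 13, 0], [5, 4, 0, 0], [9, 0, 1], [10, 0, 1], [10, 1],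
   [4, 14, 1], [12, 3, 0], [3, 13, 1], [0, 1, 1], [3, 1, 10, 0], [6, 2, 1], [6, 6], [4, 15, 0],
   [1, 11, 4], [3, 9], [8, 1, 0], [14, 10, 4], [10, 8, 12], [1, 14, 12], [6, 0, 0], [9, 3, 5],
   [9, 2, 3], [8, 14, 1], [12, 2, 0], [10, 15, 2], [0, 11, 0], [10, 9, 6], [8, 5, 6], [6, 12, 0],
   [13, 0, 13], [1, 15, 0], [3, 6, 3], [3, 13, 0], [0, 1, 15], [3, 10, 1], [10, 3, 3], [7, 6, 3],
   [11, 0, 11], [13, 12, 15], [1, 5, 0], [5, 3, 3], [3, 4, 14, 1], [4, 6, 7], [12, 9], [13, 7, 2],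
   [15, 3, 9], [9, 6, 0], [10, 14, 1]]

theorem orbit_cert : ∀ L ∈ sxL, baseL (ty L) ∈ sxL ∧
    ∃ σ ∈ M24 ⊓ setStab [8388611], σ • sxSet (baseL (ty L)) = sxSet L :=
  sextet_orbit_cert inf_le_left good_y0 ty [1, 2, 3] baseL basePts cert (by decide +kernel)
    (by decide +kernel) (by decide +kernel)

theorem count1 : (sxL.filter (fun L => ty L == 1)).length = 21 := by decide +kernel

theorem count2 : (sxL.filter (fun L => ty L == 2)).length = 630 := by decide +kernel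

theorem count3 : (sxL.filter (fun L => ty L == 3)).length = 1120 := by decide +kernel

theorem type_eq {L : List ℕ} (hL : L ∈ sxL) :
    ((sxSet L).filter fun t => (t ∩ support₂ (dec 8388611)).Nonempty).card = ty L := by
  classical
  have hok := sxL_mem_ok hL
  apply card_filter_sxSet hok
  intro m hm
  rw [support₂_dec_inter, support₂_dec_nonempty
    (lt_of_le_of_lt Nat.and_le_left (sxOK_mem hok hm).1)]
  simp

theorem type_smul (x : Equiv.Perm GolayPt) (S : Finset (Finset GolayPt)) (Y : Finset GolayPt) :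
    ((x • S).filter fun t => (t ∩ x • Y).Nonempty).card =
      (S.filter fun t => (t ∩ Y).Nonempty).card := by
  classical
  have e : x • S = S.image (fun t => x • t) := rfl
  rw [e, Finset.filter_image, Finset.card_image_of_injective _ (MulAction.injective x)]
  congr 1
  apply Finset.filter_congr
  intro t _
  show (x • t ∩ x • Y).Nonempty ↔ (t ∩ Y).Nonempty
  rw [← Finset.smul_finset_inter, Finset.smul_finset_nonempty]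

theorem setStab_smul {σ : Equiv.Perm GolayPt} (hσ : σ ∈ M24 ⊓ setStab [8388611]) :
    σ • support₂ (dec 8388611) = support₂ (dec 8388611) := hσ.2 _ List.mem_cons_self


/-- Let Y be a set of 3 of the 24 points. The sextets of the length-24 code whose tetrads meeting Y number 1, 2 or 3 are respectively 21, 630 and 1120 in number, and two sextets with the same number of tetrads meeting Y are conjugate under the setwise stabiliser of Y in the code's group. -/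
theorem result (Y : Finset Cfsg.GolayPt) (hY : Y.card = 3) : {S : Finset (Finset Cfsg.GolayPt) | S ∈ Cfsg.sextets ∧ (S.filter fun t => (t ∩ Y).Nonempty).card = 1}.ncard = 21 ∧ {S : Finset (Finset Cfsg.GolayPt) | S ∈ Cfsg.sextets ∧ (S.filter fun t => (t ∩ Y).Nonempty).card = 2}.ncard = 630 ∧ {S : Finset (Finset Cfsg.GolayPt) | S ∈ Cfsg.sextets ∧ (S.filter fun t => (t ∩ Y).Nonempty).card = 3}.ncard = 1120 ∧ ∀ S S' : Finset (Finset Cfsg.GolayPt), S ∈ Cfsg.sextets → S' ∈ Cfsg.sextets → (S.filter fun t => (t ∩ Y).Nonempty).card = (S'.filter fun t => (t ∩ Y).Nonempty).card → ∃ g ∈ Cfsg.M24, g • Y = Y ∧ g • S = S' := by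
  classical
  obtain ⟨x, hx, hxY⟩ := exists_smul_three hY
  have hxinv : x⁻¹ ∈ M24 := M24.inv_mem hx
  have hpull : ∀ S : Finset (Finset GolayPt),
      ((x⁻¹ • S).filter fun t => (t ∩ support₂ (dec 8388611)).Nonempty).card =
        (S.filter fun t => (t ∩ Y).Nonempty).card := by
    intro S
    rw [← type_smul x (x⁻¹ • S) (support₂ (dec 8388611)), smul_inv_smul, hxY]
  have hcount : ∀ k : ℕ,
      {S : Finset (Finset GolayPt) | S ∈ sextets ∧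
        (S.filter fun t => (t ∩ Y).Nonempty).card = k}.ncard =
        (sxL.filter (fun L => ty L == k)).length := by
    intro k
    have himg : {S : Finset (Finset GolayPt) | S ∈ sextets ∧
        (S.filter fun t => (t ∩ Y).Nonempty).card = k} =
        (fun S => x • S) '' {S : Finset (Finset GolayPt) | S ∈ sextets ∧
          (S.filter fun t => (t ∩ support₂ (dec 8388611)).Nonempty).card = k} := by
      ext S
      constructor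
      · rintro ⟨hS, hk⟩
        exact ⟨x⁻¹ • S, ⟨smul_sextet_mem hxinv hS, by rw [hpull]; exact hk⟩, smul_inv_smul x S⟩
      · rintro ⟨S0, ⟨hS0, hk⟩, rfl⟩
        refine ⟨smul_sextet_mem hx hS0, ?_⟩
        rw [← hpull, inv_smul_smul]
        exact hk
    rw [himg, Set.ncard_image_of_injective _ (MulAction.injective x)]
    exact ncard_sextets_filter _ _ (fun L hL => by rw [type_eq hL]; simp)
  refine ⟨by rw [hcount 1]; exact count1, by rw [hcount 2]; exact count2,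
    by rw [hcount 3]; exact count3, ?_⟩
  intro S S' hS hS' hty
  obtain ⟨L, hL, hSL⟩ := exists_sxL (smul_sextet_mem hxinv hS)
  obtain ⟨L', hL', hSL'⟩ := exists_sxL (smul_sextet_mem hxinv hS')
  have htyL : ty L = ty L' := by
    rw [← type_eq hL, ← type_eq hL', ← hSL, ← hSL', hpull, hpull]
    exact hty
  obtain ⟨-, σ, hσ, hσL⟩ := orbit_cert L hL
  obtain ⟨-, σ', hσ', hσL'⟩ := orbit_cert L' hL'
  rw [← htyL] at hσL'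
  refine ⟨x * (σ' * σ⁻¹) * x⁻¹, M24.mul_mem (M24.mul_mem hx (M24.mul_mem hσ'.1
    (M24.inv_mem hσ.1))) hxinv, ?_, ?_⟩
  · have h1 : (σ' * σ⁻¹) • support₂ (dec 8388611) = support₂ (dec 8388611) := by
      rw [mul_smul, inv_smul_eq_iff.mpr (setStab_smul hσ).symm, setStab_smul hσ']
    rw [mul_smul, mul_smul, ← hxY, inv_smul_smul, h1]
  · have h1 : (σ' * σ⁻¹) • sxSet L = sxSet L' := by
      rw [mul_smul, ← hσL, inv_smul_smul, hσL']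
    rw [mul_smul, mul_smul, hSL, h1, ← hSL', smul_inv_smul]

end Cfsg.Agent.S5616
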