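import Cfsg.Statements.S5617
import Cfsg.Agent.Lib.Helper95.SextetAux

set_option autoImplicit false
open scoped Pointwise
open Cfsg

namespace Cfsg.Agent.S5617

open Cfsg.Agent.Lib.Helper9 Cfsg.Agent.Lib.Helper95

/-- The dodecad of squares. -/
abbrev D0 : Finset GolayPt := support₂ (dec 340831)

/-- The stabiliser of the pair formed by the dodecad of squares and its complement. -/
abbrev H0 : Subgroup (Equiv.Perm GolayPt) :=
  M24 ⊓ MulAction.stabilizer (Equiv.Perm GolayPt)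
    ({D0, Finset.univ \ D0} : Finset (Finset GolayPt))

theorem smul_pair_iff (σ : Equiv.Perm GolayPt) (A : Finset GolayPt) :
    σ • ({A, Finset.univ \ A} : Finset (Finset GolayPt)) = {A, Finset.univ \ A} ↔
      σ • A = A ∨ σ • A = Finset.univ \ A := by
  have e : σ • ({A, Finset.univ \ A} : Finset (Finset GolayPt)) =
      {σ • A, Finset.univ \ σ • A} := by
    rw [Finset.smul_finset_insert, Finset.smul_finset_singleton, Finset.smul_finset_sdiff,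
      Finset.smul_finset_univ]
  rw [e]
  constructor
  · intro h
    have h1 : σ • A ∈ ({σ • A, Finset.univ \ σ • A} : Finset (Finset GolayPt)) :=
      Finset.mem_insert_self _ _
    rw [h, Finset.mem_insert, Finset.mem_singleton] at h1
    exact h1
  · rintro (h | h)
    · rw [h]
    · rw [h, sdiff_sdiff_right_self, Finset.inf_eq_inter, Finset.univ_inter, Finset.pair_comm]

/-- Membership test for `H0`. -/
def pairOK (T : List ℕ) : Bool :=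
  permOK T && tableOK T && (push T 340831 == 340831 || push T 340831 == 16436384)

theorem mem_H0_of_pairOK {T : List ℕ} (h : pairOK T = true) : permOK T = true ∧ tperm T ∈ H0 := by
  simp only [pairOK, Bool.and_eq_true, Bool.or_eq_true, beq_iff_eq] at h
  obtain ⟨⟨h1, h2⟩, h3⟩ := h
  refine ⟨h1, tperm_mem_M24 h1 h2, ?_⟩
  show tperm T • ({D0, Finset.univ \ D0} : Finset (Finset GolayPt)) = {D0, Finset.univ \ D0}
  rw [smul_pair_iff, smul_support₂_dec (hasTable_tperm h1)]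
  rcases h3 with h3 | h3
  · left
    rw [h3]
  · right
    rw [h3, compl_support₂_dec]
    rfl

/-- Elements of `H0`. -/
def pGens : List (List ℕ) :=
  [[18, 4, 12, 16, 8, 5, 3, 22, 2, 6, 11, 17, 13, 0, 19, 23, 9, 21, 1, 10, 20, 15, 7, 14],
   [13, 1, 0, 12, 8, 7, 18, 19, 16, 9, 21, 22, 4, 6, 14, 11, 3, 20, 2, 17, 5, 15, 10, 23],
   [23, 22, 11, 15, 17, 9, 19, 13, 20, 5, 16, 2, 21, 7, 18, 3, 10, 4, 14, 6, 8, 12, 1, 0],
   [4, 2, 0, 6, 12, 5, 9, 22, 13, 16, 21, 15, 18, 1, 11, 19, 3, 23, 8, 17, 20, 14, 7, 10],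
   [13, 6, 8, 18, 9, 15, 4, 10, 0, 3, 7, 21, 16, 1, 5, 17, 12, 23, 2, 20, 22, 19, 14, 11],
   [18, 8, 4, 16, 6, 10, 13, 19, 3, 12, 23, 22, 0, 2, 14, 15, 9, 20, 1, 5, 21, 7, 11, 17],
   [6, 3, 13, 0, 2, 20, 12, 17, 18, 9, 19, 21, 4, 1, 11, 22, 16, 5, 8, 15, 10, 23, 7, 14],
   [8, 6, 1, 3, 16, 5, 12, 20, 0, 2, 11, 21, 18, 4, 22, 10, 13, 14, 9, 23, 7, 19, 17, 15],
   [18, 2, 8, 3, 12, 11, 6, 20, 16, 0, 19, 7, 4, 9, 15, 17, 13, 22, 1, 23, 14, 10, 5, 21],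
   [1, 16, 9, 13, 4, 17, 8, 7, 0, 3, 5, 21, 12, 18, 10, 19, 6, 23, 2, 20, 11, 15, 22, 14],
   [8, 3, 16, 6, 18, 21, 13, 11, 2, 12, 20, 19, 1, 9, 23, 22, 4, 7, 0, 10, 17, 14, 5, 15],
   [13, 18, 8, 6, 1, 5, 9, 22, 4, 16, 19, 10, 2, 12, 23, 21, 3, 11, 0, 14, 20, 17, 7, 15],
   [2, 1, 18, 16, 12, 20, 13, 5, 4, 9, 22, 15, 3, 0, 14, 21, 8, 19, 6, 7, 17, 10, 11, 23],
   [2, 13, 1, 16, 0, 5, 3, 22, 18, 6, 23, 14, 4, 8, 21, 11, 9, 19, 12, 15, 20, 10, 7, 17],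
   [8, 13, 18, 9, 6, 14, 1, 10, 2, 4, 7, 23, 16, 0, 22, 5, 12, 15, 3, 21, 19, 11, 20, 17],
   [12, 18, 13, 8, 2, 19, 4, 21, 1, 16, 5, 22, 9, 6, 14, 15, 3, 23, 0, 7, 17, 20, 11, 10],
   [3, 13, 4, 1, 12, 17, 0, 22, 18, 9, 20, 14, 6, 2, 23, 19, 16, 7, 8, 10, 5, 11, 15, 21],
   [8, 2, 9, 3, 13, 5, 1, 20, 0, 18, 15, 10, 6, 16, 17, 23, 4, 22, 12, 21, 7, 11, 14, 19],
   [9, 18, 1, 3, 12, 22, 6, 11, 2, 13, 21, 5, 4, 16, 20, 14, 8, 15, 0, 10, 7, 23, 17, 19],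
   [8, 0, 18, 9, 4, 10, 16, 7, 6, 2, 14, 20, 12, 3, 23, 21, 1, 5, 13, 15, 19, 11, 22, 17],
   [18, 12, 8, 1, 16, 22, 3, 17, 0, 13, 19, 7, 9, 6, 21, 23, 2, 20, 4, 11, 10, 5, 15, 14]]

theorem pGens_ok : pGens.all pairOK = true := by decide +kernel

theorem good_p : Good H0 (pGens.map tperm) pGens :=
  good_tperm pGens (fun T hT => mem_H0_of_pairOK (List.all_eq_true.mp pGens_ok T hT))

/-- The number of tetrads of a listed sextet meeting the dodecad of squares in two points. -/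
def ty (L : List ℕ) : ℕ := L.countP (fun m => popcF (m &&& 340831) == 2)

/-- A base sextet of each type. -/
def baseL : ℕ → List ℕ
  | 6 => [8388643, 33168, 147468, 594944, 2107904, 5505088]
  | 4 => [8388646, 66368, 147465, 271488, 3149840, 4753408]
  | _ => [8388615, 147496, 268544, 1082880, 2621632, 4268048]

/-- The points of its first tetrad. -/
def basePts : ℕ → List ℕ
  | 6 => [0, 1, 5, 23]
  | 4 => [1, 2, 5, 23]
  | _ => [0, 1, 2, 23]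

set_option maxRecDepth 100000 in
/-- For each listed sextet, a word in `pGens` carrying the base sextet of its type to it. -/
def cert : List (List ℕ) :=
  [[], [18, 15, 8], [1, 11, 4], [3, 7, 1], [13, 9, 0], [9, 5], [7, 10, 4], [17, 10], [19, 17],
   [0, 7], [], [6, 1], [], [7, 10, 0], [9, 4], [0, 7], [9, 5], [20, 9], [0, 14, 0], [0, 7],
   [15, 14], [13, 7, 3], [12, 10, 0], [7, 15, 2], [18, 18, 1], [15, 7], [20, 3], [14, 5, 1],
   [6, 0, 0], [13, 2, 0], [7, 0, 0], [16, 12, 0], [16, 1], [16, 1], [5, 10, 1], [1], [4, 5],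
   [17, 19, 1], [20, 4], [16], [6, 11], [14, 0], [16], [11, 20], [10, 9], [12, 7, 3], [16, 0, 0],
   [7, 16], [12, 19, 1], [14, 9, 2], [10, 3, 0], [0, 14], [1, 4], [0, 1], [11, 7], [11, 7],
   [7, 2, 0], [4, 5, 1], [7, 2, 3], [2, 13, 4], [20, 14, 5], [20, 20], [18, 1, 1], [11, 1, 0],
   [9, 1, 2], [6, 6, 4], [6, 3], [20, 5, 0], [0, 1], [5, 17, 3], [18, 14, 0], [16, 20, 1], [4, 0],
   [7, 7, 8], [7, 20, 1], [1, 19, 0], [16, 3], [3, 6], [11, 4], [16, 14], [8, 13, 0], [7, 0, 1],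
   [1, 7, 5], [10], [7, 16, 3], [4, 5], [20, 19, 2], [13, 18, 2], [15, 18], [1, 9, 0], [11, 16],
   [18, 9], [4, 1, 2], [16, 15, 0], [5], [7, 16, 0], [15, 9, 0], [15, 11], [8, 3], [2, 8, 6],
   [11, 2, 1], [7, 18], [14, 18, 3], [8, 2], [13, 20], [4, 5], [17, 9, 0], [2, 6], [19, 19],
   [2, 10], [6, 12], [11, 14, 0], [8, 10, 4], [18, 4], [2, 6], [8, 4, 7], [17, 15, 2], [19],
   [6, 7], [16, 2, 0], [17, 4], [8, 6, 0], [1, 4, 2], [20, 7, 1], [9, 3, 1], [10, 2], [10, 12],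
   [5, 1], [6], [3, 20], [17, 15, 0], [17, 6, 8], [4, 4, 0], [5, 3, 4], [9, 10, 3], [20, 0],
   [18, 1], [15, 4, 0], [9, 9], [5, 3], [15, 9], [4, 12, 3], [15, 3, 1], [1, 1, 0], [16, 8],
   [8, 14, 3], [19, 19, 0], [4, 2], [18, 0], [18, 13], [11, 18], [6, 20], [18, 0], [4, 13, 2],
   [8, 1], [18, 3], [20, 1, 1], [12, 6], [20, 17], [13, 2], [16, 15, 0], [19], [16, 10],
   [9, 13, 2], [0, 6], [6, 4, 2], [16, 4, 0], [16, 4, 2], [17, 10], [20, 5], [3, 9], [14],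
   [12, 17, 0], [8, 1, 0], [17, 10], [6, 18, 0], [20, 4, 1], [15, 15, 0], [1, 6, 0], [16, 2], [3],
   [14, 17, 0], [13, 12], [18, 6, 0], [3], [3], [10, 4, 0], [4, 9], [1, 4], [8, 9], [19, 5, 2],
   [7, 2], [20, 20, 6], [8, 17], [3, 14], [1, 2], [1, 6, 0], [18, 14], [6, 2, 0], [11], [16, 2, 0],
   [10, 6, 0], [4, 4, 0], [12, 2], [9, 15], [10, 2], [8, 9, 0], [18, 5], [6, 19, 0], [1, 13],
   [16, 8, 8], [14, 8, 3], [20, 2, 1], [16, 5, 1], [16, 19], [6, 4], [18], [4, 0], [19, 16, 0],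
   [20, 4, 0], [15, 19], [19, 4], [20, 2, 0], [20, 7], [10, 4], [1, 13, 1], [4, 2, 4], [7, 6, 3],
   [17, 18, 0], [10, 9], [17, 11], [13, 1], [20, 3, 0], [4, 9], [9, 9, 0], [9, 18], [4, 7, 1],
   [19, 4, 1], [1, 5, 1], [15, 9, 2], [4, 9], [12, 8], [14, 16, 0], [14, 16, 0], [9, 7], [18],
   [10, 3], [20, 19, 0], [12, 20, 2], [15, 19, 1], [5, 10, 2], [16, 0, 1], [13, 15], [20, 15],
   [16, 0], [20, 12, 0], [14, 8, 2], [4, 7], [16, 17, 1], [0, 20], [18, 0, 0], [0, 10, 0], [11, 6],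
   [6, 1, 0], [3, 1, 2], [14, 9, 0], [18, 7], [2, 18], [7, 5], [19, 0], [14, 19], [6, 9, 1],
   [13, 5, 6], [8, 7], [5, 20], [11, 14], [6, 4, 0], [5, 1, 2], [17, 9], [11, 14], [5, 6], [9, 8],
   [18, 15], [14, 18], [13, 17, 0], [2, 4], [1], [10, 16], [1, 10, 0], [16, 5, 0], [17, 12],
   [14, 19, 4], [15, 17, 4], [12, 4, 0], [7, 1, 0], [12, 16, 0], [17, 1], [9, 6, 0], [19, 2, 0],
   [19, 14], [12, 10], [12, 15, 0], [1, 1], [17, 8, 0], [10, 6, 1], [6, 9], [1, 17], [4, 19], [1],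
   [4, 19], [4, 4], [17, 1, 2], [19, 4, 0], [8, 14], [3, 5, 1], [3, 14], [7, 7, 6], [10, 5, 0],
   [3, 19], [12, 10], [13, 10, 2], [16, 10], [18, 7], [5, 4, 3], [7, 18, 1], [9, 4, 2], [20, 0, 4],
   [8, 19], [16, 4], [5, 2], [6, 8, 1], [9, 3, 0], [9], [8, 13], [1, 20, 1], [8, 0], [12, 10],
   [17, 9], [7, 2, 1], [8, 13], [9], [14, 5], [3, 14], [2, 20, 1], [9, 2, 1], [14, 17, 1],
   [19, 2, 0], [11], [14, 14], [19, 5, 1], [13, 1, 3], [8, 0], [5, 2, 0], [4, 11, 7], [6, 10, 2],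
   [7, 8, 1], [19, 0], [9, 12], [19, 20], [13, 6, 0], [3, 5], [0, 16], [17, 2], [4, 20], [7, 5, 1],
   [8, 8], [2, 13], [17, 8], [18, 5, 0], [18, 10], [12, 15], [12, 0, 2], [4, 8, 0], [12, 15],
   [17, 6, 1], [0, 4], [14, 15, 0], [4, 3], [8, 4, 3], [7, 6], [15, 14], [2, 9, 0], [11, 7, 1],
   [16, 18], [16, 5, 3], [10, 2, 0], [3, 5, 0], [13, 16], [17, 18], [12, 15], [9, 0], [5, 10, 0],
   [14, 6], [0, 2], [4, 6], [18, 10], [8, 4, 0], [8, 8, 2], [13, 0], [20, 12, 2], [7, 5, 1],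
   [8, 0, 1], [8, 3, 0], [6, 6], [16, 16], [20, 5], [20, 6, 1], [4, 15, 0], [0, 6, 0], [12, 0, 6],
   [10, 10, 1], [20, 6, 0], [17, 8], [13, 1, 0], [17, 5], [9, 10, 2], [6, 17, 3], [2, 8, 0],
   [7, 1], [8, 16], [15, 12, 5], [16, 4, 2], [16, 11, 1], [14, 1], [18, 12], [16, 14, 0], [19, 11],
   [3, 2, 0], [10, 18], [10, 14, 2], [2, 10, 0], [3, 16], [3, 4, 4], [17, 8], [19, 8], [2, 7],
   [3, 1], [15, 8], [15], [13, 17], [6, 12, 4], [19, 6, 0], [5, 2, 0], [19, 16, 1], [11, 18, 2],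
   [5, 13], [8, 4, 0], [8, 15, 1], [4, 4, 0], [7, 19, 0], [15], [10, 4, 0], [8, 3], [11, 8],
   [14, 7, 3], [20, 8], [9, 15, 0], [10, 15], [18, 3], [17, 5, 1], [9, 2, 0], [8, 10], [20, 8],
   [18, 2], [17, 10, 5], [0, 19, 1], [16, 17, 4], [11, 2, 7], [9, 20, 1], [7, 7, 0], [19, 2],
   [7, 5], [18, 7, 0], [17, 0, 1], [7, 1, 1], [3, 20], [15, 1], [20, 8], [1, 15, 2], [10, 14, 3],
   [10, 10, 2], [13, 10], [13, 6], [9, 7, 0], [4, 13], [15, 1, 0], [8, 11], [4, 13, 5], [19, 8],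
   [14, 15], [3, 5, 2], [10, 3, 2], [1, 6], [10, 15], [6, 6, 0], [13], [1, 6, 1], [14, 5, 0],
   [16, 3], [17, 15, 2], [1, 3, 2], [20, 18], [10, 15], [9, 15, 1], [19, 1, 1], [20, 19],
   [15, 12, 0], [6, 9], [8, 19], [15, 6], [16, 1, 10], [13, 6, 4], [12, 2], [11, 10, 2], [1, 5],
   [18, 0, 1], [6, 5, 1], [20], [19, 5, 1], [16, 19, 0], [9, 4], [9, 2], [7, 13, 4], [19, 10],
   [18, 1], [15, 0], [16, 16, 7], [3, 5, 0], [14, 16, 0], [13, 15], [18, 12, 0], [5, 0, 0],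
   [8, 1, 1], [12, 11], [16, 7], [9, 3], [20, 1], [9, 1], [0, 7, 3], [2, 16, 0], [14, 2, 1],
   [8, 12], [0, 7, 3], [9, 18, 0], [6, 19], [6, 1], [7, 3, 1], [18, 11, 5], [18, 7, 2], [17, 0],
   [11, 15], [9, 7], [7, 14, 0], [7, 5, 0], [12, 15, 3], [14, 20], [6, 1, 0], [16, 0, 0],
   [12, 14, 1], [0, 5], [20, 13, 2], [18, 2, 1], [2, 16], [20, 7, 1], [20, 12], [14], [15, 6, 0],
   [4, 17, 0], [11, 4, 1], [6, 15, 0], [14, 5, 1], [12, 16], [19, 15, 1], [2, 12], [2, 4],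
   [4, 18, 1], [6, 4, 12], [0, 10, 1], [6, 11, 2], [1, 3, 5], [14, 9], [17, 0], [0, 8], [1, 4],
   [6, 9, 0], [20, 2], [9, 2], [10], [8, 17], [14, 13, 2], [14, 12], [0, 12], [6, 1, 1], [16, 5],
   [12, 13, 1], [4, 7, 1], [19, 6, 1], [9, 4, 3], [0, 10], [19, 6], [0, 2, 0], [19, 6, 1],
   [13, 5, 2], [16, 9], [3, 6, 0], [1, 0], [17, 4], [9, 10], [0, 5], [10, 12], [16, 12], [9, 9],
   [14, 9, 1], [2, 7], [2, 7, 1], [13, 20], [10, 0, 0], [20, 6], [3, 9], [4, 16, 0], [17, 19, 1],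
   [14, 17, 0], [0, 0], [8, 17], [2, 3], [11, 16, 1], [17, 3], [11, 17, 1], [16, 17], [18, 16],
   [0, 5, 3], [15, 4], [17, 11, 1], [4, 11], [17, 14, 0], [20, 8, 0], [10, 15, 0], [14, 14, 0],
   [10, 18, 7], [2, 10, 1], [2, 8, 1], [5, 1], [20, 2], [18], [6, 4], [8, 1], [11, 15, 0], [16, 9],
   [7, 6], [15, 10, 0], [19, 20, 1], [15, 2, 0], [14, 16], [11, 10], [15, 9], [20, 2], [16, 12, 7],
   [19, 13], [3, 12], [3, 2, 0], [20, 15, 0], [10, 19], [15, 3], [7, 20], [20, 13], [16, 14, 0],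
   [0, 9], [8, 2], [6, 13], [6, 0], [0, 14, 1], [5, 20], [2, 4, 0], [6, 0], [0, 10], [6, 3],
   [5, 0], [18, 16], [6, 13], [14, 13, 4], [10, 3], [2, 14], [14, 11], [0, 4], [15, 19, 3], [0, 4],
   [10, 5], [1, 7, 1], [17, 3], [1, 6, 2], [1, 9, 1], [19, 10, 2], [5, 20], [15, 19, 3], [1, 7],
   [5, 19, 0], [14, 3], [17, 19], [8, 5], [5, 6], [13, 19], [14, 8, 0], [16], [20, 19], [12, 7],
   [7, 0, 1], [8], [10, 0, 0], [13, 8, 0], [10, 1], [5, 9], [20, 14, 5], [0, 17, 2], [18, 12, 0],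
   [15, 2], [5, 0, 1], [7, 20, 3], [10, 1], [7, 18], [15, 8], [20, 20, 0], [20, 7, 0], [10, 6],
   [10, 15, 2], [1, 3, 0], [20, 9], [15, 11, 2], [6, 15], [8, 4, 1], [10, 12], [9, 18], [1, 13, 2],
   [0], [2, 20, 5], [12, 6, 1], [11, 2, 0], [10, 1], [7, 6], [16, 16, 0], [3, 8], [7, 10],
   [11, 18, 0], [8, 2, 0], [18, 0, 4], [15, 10], [11, 7, 1], [6, 6, 0], [8, 15, 7], [5, 9],
   [6, 2, 3], [0, 12, 0], [18, 4, 0], [16, 0], [18, 13, 1], [16, 0], [3, 20], [5, 19], [6, 8, 0],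
   [16, 8], [10, 12, 0], [7, 4], [4, 4, 1], [4, 0], [2, 20], [10, 6], [17, 8, 1], [0, 9],
   [13, 17, 4], [9], [7, 14, 1], [8, 6], [8, 11, 8], [14, 3], [8, 16, 0], [13, 18], [20, 17],
   [8, 17, 0], [15, 15, 2], [10, 4], [11, 19], [0, 5, 0], [20, 14, 1], [18, 6], [6, 10], [8, 2, 1],
   [17, 8, 2], [16, 7], [15, 13, 7], [3, 4, 5], [15, 9, 0], [20, 6], [19, 15], [20, 15], [13, 20],
   [2, 17, 2], [0, 18, 0], [12, 5, 1], [6], [12, 0], [7, 13, 0], [20], [1, 9, 0], [0, 10, 1],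
   [17, 16, 0], [6, 14], [1, 5, 2], [10, 8, 0], [0, 8], [2, 13], [4, 2, 1], [13, 12, 5], [2, 3],
   [10, 16, 0], [15, 15], [10, 2], [18, 5, 0], [10, 0], [9, 14], [12], [11, 9, 1], [19, 5, 6],
   [8, 20, 1], [14, 18, 0], [14, 5], [14, 1, 2], [13, 2, 3], [4, 3, 0], [2, 9, 0], [0, 16],
   [6, 9, 6], [6, 2], [19, 20, 14], [12, 12], [14, 6, 0], [15, 7, 1], [5, 3], [7, 1, 0], [18, 20],
   [12, 5], [16, 14], [6, 3], [9, 6, 5], [18, 17], [11, 7], [16, 16], [6, 2, 1], [6, 6], [4, 4, 2],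
   [18, 15, 0], [4], [16, 20], [5, 11, 2], [9, 13, 1], [14, 15], [12, 4, 5], [7, 5, 0], [10, 17],
   [19], [16, 4, 1], [16, 11, 1], [7, 6, 1], [9, 14], [15, 10, 1], [9, 14], [18, 4], [5, 3],
   [13, 20, 2], [0, 16, 1], [14, 7], [18, 13], [3, 16, 0], [11, 10], [12, 2, 0], [14, 8], [14, 8],
   [12, 0], [2, 15, 0], [0, 12], [16, 9, 3], [8, 14, 0], [7, 15], [15, 8, 1], [16, 15, 6],
   [20, 17, 1], [2, 11, 1], [20, 15, 3], [7, 2], [6, 7, 0], [2, 5, 1], [19, 0, 0], [9, 17, 0],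
   [2, 16, 0], [15, 10, 3], [15, 4, 0], [5, 17], [0, 4, 2], [3, 18, 1], [3, 18], [5, 16, 2], [4],
   [15, 0], [7, 4, 0], [6, 8], [11, 5, 0], [16, 2], [7], [17, 2], [15, 10], [17, 1], [3, 8, 2],
   [15, 9], [11, 2], [9, 9], [5, 10, 0], [7, 20, 2], [18, 3, 0], [13, 16, 0], [4, 4], [16, 9, 0],
   [17, 14], [3, 2], [8, 17, 0], [16, 7], [17, 0, 0], [3, 8, 1], [2], [4], [16, 20], [17],
   [17, 12], [19, 11], [8, 5, 1], [19, 19], [5, 12], [9, 16], [4, 17], [15, 3, 2], [1, 4, 0],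
   [11, 4], [13, 1], [1, 16, 0], [10, 4], [9, 7, 1], [4, 12], [12, 14], [9, 0], [15, 10, 1],
   [8, 11, 1], [16, 10, 4], [8, 5, 3], [1, 13, 0], [17, 0, 0], [13, 18, 0], [9, 10], [18, 3],
   [5, 18, 0], [7, 3], [14, 12, 2], [6, 1, 3], [18, 20], [7, 11], [9, 13], [4, 1, 0], [12, 11, 1],
   [18, 11], [15, 11], [17, 14], [4, 1, 3], [9, 13], [13, 9, 0], [2, 3], [5], [5, 6], [9, 4, 1],
   [4, 2, 0], [17, 6, 0], [19, 5], [2, 0, 0], [2, 0], [8, 6], [12, 16], [4, 2, 0], [3, 15],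
   [19, 2, 5], [3, 1, 0], [1, 1], [13, 4], [7, 4], [14, 7], [3, 1, 3], [13, 15, 0], [12, 14, 0],
   [14, 0, 4], [4, 20, 1], [17, 6, 0], [9, 14, 0], [0, 14], [4, 7, 2], [9, 0], [12, 20], [4, 4, 2],
   [5, 4], [5, 17, 0], [0, 8, 1], [15, 8, 0], [18, 10, 0], [2, 12], [2, 6], [19, 6], [3, 0],
   [19, 0, 0], [15, 17, 0], [19, 2, 3], [16, 13, 1], [0, 8, 5], [3, 12, 0], [5, 12], [7, 4, 1],
   [17, 5, 0], [2, 3, 0], [14, 18, 1], [2, 8], [0, 19, 4], [14, 10, 2], [5, 5, 1], [12, 8, 1],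
   [1, 17], [14, 20, 8], [6, 6, 0], [19, 4], [17, 5], [4, 7], [15, 17], [1, 16, 3], [0, 16],
   [12, 4, 0], [7, 1], [13, 19], [19, 1], [6, 2, 0], [17, 4], [15, 10], [19, 1], [19, 1], [2, 15],
   [11, 10], [19, 6, 3], [7, 5, 0], [1, 1], [20, 7, 2], [5, 12, 0], [8], [7, 0], [7, 13], [7, 3],
   [14, 2, 0], [7, 0], [20], [14, 17], [17, 2], [13, 6, 1], [19, 5], [10, 9, 0], [4, 12], [18, 5],
   [6, 7], [3, 9, 1], [13, 1], [15], [13, 16, 0], [3, 2, 4], [8, 2], [8, 4], [13, 2, 1], [9, 7, 2],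
   [20, 0], [5, 11, 2], [15, 15], [15, 0, 1], [19, 20, 0], [5, 3, 2], [7, 1, 0], [15, 1, 3],
   [16, 14], [2, 11, 1], [1, 3, 1], [11, 8, 3], [9, 9, 1], [1, 4, 1], [4, 2], [7, 7], [13, 6, 0],
   [5, 12, 0], [13, 12], [9, 5, 4], [17, 6, 1], [15, 18, 2], [9, 15, 0], [19, 6], [11, 20, 7],
   [2, 16, 2], [6, 2], [16, 3], [13, 7, 0], [11, 7, 1], [4, 7, 2], [14, 0], [11, 6, 0],
   [17, 17, 0], [18, 17, 1], [15, 16, 2], [9, 15], [7, 9], [3, 1], [19, 19, 10], [13, 7], [6, 11],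
   [2, 12, 3], [5, 4, 2], [1, 13, 1], [8, 16], [16, 3, 1], [13, 5], [4, 16], [4, 3], [1, 10],
   [10, 12, 7], [4, 18, 0], [15, 13], [14, 19, 1], [13, 14, 1], [4, 1], [3, 6], [19, 2], [13, 5],
   [7, 0], [9, 12, 0], [1, 10], [1, 10], [12, 4, 1], [0, 5, 0], [0, 0], [12], [11, 5], [5, 5],
   [14, 5, 0], [5, 7, 1], [15, 7, 0], [6, 12], [0, 19, 1], [1, 4, 1], [20, 9, 1], [18, 9, 0],
   [12, 10, 3], [7, 5], [12, 4], [3, 2], [15, 16], [5, 5], [12, 4], [15, 19, 4], [17, 9], [18, 2],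
   [5, 19, 4], [7, 15, 0], [2, 14, 1], [7, 10, 1], [11, 17, 4], [15, 3], [20, 1, 0], [15, 1],
   [14, 13], [14, 2], [12, 9, 2], [15, 16], [14, 16], [5, 11], [15, 2], [12, 5], [2, 16], [12, 19],
   [14, 8], [11, 6], [2, 9, 1], [0, 1, 2], [3, 4, 1], [9, 8], [10, 17, 2], [20, 9, 0], [17, 19],
   [15, 7], [8], [17, 10, 0], [16, 3, 5], [0, 2, 1], [4, 3, 1], [3, 15, 2], [5, 5, 3], [19, 4, 2],
   [20, 1], [19, 7, 1], [0], [12, 12, 0], [2, 7, 0], [8, 5], [17, 12], [1, 0, 4], [16, 11, 1],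
   [11, 1], [0, 9, 0], [7, 20, 0], [7, 18, 0], [11, 6], [5, 20, 1], [19, 13, 2], [2, 3, 1],
   [20, 20, 4], [8, 14], [17], [8, 7], [11, 1], [1, 20], [2, 19, 1], [2, 0], [14, 18, 2],
   [3, 19, 2], [14, 0], [7, 7], [0, 4, 0], [12, 16, 1], [16, 10, 0], [15, 2, 0], [10, 6, 0],
   [16, 10], [19, 10], [2, 19], [14, 5], [20, 12, 0], [6, 9, 1], [2, 17, 0], [20, 6], [7, 3],
   [3, 4], [15, 16, 3], [10, 14, 14], [13, 4], [15, 7, 2], [18, 9, 3], [18, 18, 0], [2, 19, 1],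
   [13, 2], [9, 14, 7], [14, 1], [15, 9, 1], [10, 8, 3], [2, 15, 1], [12, 15, 1], [10, 7, 1],
   [12, 3], [10, 17], [9, 6], [20, 1, 0], [10, 17, 0], [14, 15, 0], [0, 18], [16, 5], [0, 18],
   [0, 18], [7, 9], [9, 18, 0], [6, 17, 5], [15, 12], [14, 15, 2], [12, 16, 1], [9, 14, 0], [6, 0],
   [12, 2, 0], [20, 1, 0], [4, 1], [13, 8], [10, 5], [18, 0, 0], [7, 7, 2], [5, 7], [11, 2],
   [6, 5, 3], [4, 3], [20, 3], [17, 20, 2], [9, 8, 0], [15, 4], [6, 6, 1], [1, 3, 1], [16, 13],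
   [12], [14, 9], [20, 0], [1, 16, 0], [8, 6, 0], [16, 7, 0], [3, 10], [10, 10, 0], [15, 8, 2],
   [16, 17, 2], [12, 19, 3], [5, 4], [20, 4, 1], [10, 10, 0], [4, 8, 0], [5, 6, 0], [18, 9, 2],
   [4, 16, 4], [1, 16], [9, 1], [11, 5], [3, 5, 6], [12, 8], [5, 2, 7], [9, 3], [5, 2], [10, 10],
   [16, 16], [17, 3, 1], [7], [18, 5, 5], [6, 15, 0], [2, 9], [8, 16, 1], [5, 0], [9, 10, 0],
   [19, 3], [15, 0, 0], [7, 20], [12, 6, 1], [6, 5], [13, 5, 0], [13, 8], [4, 12], [6, 17, 0],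
   [13, 2, 0], [17, 10, 2], [20, 16, 2], [12, 15, 1], [7, 9], [18, 1, 0], [16, 3, 1], [1, 9],
   [8, 1, 1], [9, 2, 3], [18, 2, 0], [5, 4], [3, 16, 5], [12, 20, 0], [6, 4, 0], [9, 17, 2],
   [17, 2, 1], [2, 6, 0], [10], [1, 6], [9, 0, 0], [8, 5], [14, 9, 0], [3, 19], [20, 3, 14],
   [18, 2], [5, 13, 2], [8, 7, 0], [6], [8, 1, 1], [19, 16, 0], [9, 11, 2], [0, 15], [1, 9],
   [1, 19], [7, 9, 0], [0, 10, 0], [0, 1], [17, 19, 3], [12, 5], [13, 6, 0], [15, 0], [17, 13, 1],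
   [10, 6, 0], [19, 1, 2], [1, 19, 7], [2, 19, 4], [6, 4, 2], [13, 18, 1], [17, 4, 1], [6, 14, 0],
   [3, 18], [4, 10, 1], [2, 7], [15, 4], [8, 7, 0], [17, 18, 0], [19, 19], [14, 14], [14, 1],
   [8, 2, 0], [15, 18], [8, 5, 7], [12, 2], [3, 15, 0], [12, 6, 0], [8, 8], [1, 9, 3], [2, 9],
   [7, 1], [3, 14, 1], [6, 7, 0], [10, 8], [17, 6], [9, 7, 0], [18, 20, 1], [19, 20, 2], [3, 5],
   [4, 15], [16, 19, 5], [7, 20, 4], [3, 5], [15, 4, 0], [20, 17, 0], [4, 5, 2], [2, 4, 2], [8, 7],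
   [2, 1, 0], [2, 6, 1], [4, 1], [13, 10], [5, 5], [17], [13, 18, 3], [16, 14, 1], [0, 6],
   [2, 20, 7], [1, 0, 1], [3, 2, 1], [3, 16, 0], [6, 14, 3], [12, 20], [3, 7, 0], [3, 1],
   [15, 1, 0], [7, 19, 2], [1, 3, 0], [13, 16], [5], [20, 14], [19, 16], [3, 0, 1], [14, 2, 1],
   [8, 9, 0], [12, 18, 1], [3, 4], [9, 2, 1], [6, 18], [11, 14], [0, 1, 0], [15, 7], [1, 18, 0],
   [17, 10, 3], [0, 1, 0], [1, 18, 0], [12, 17, 0], [8, 15], [12, 12, 3], [16, 4, 3], [8, 20, 0],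
   [14, 19, 2], [15, 17, 1], [6, 0, 1], [1, 20], [20, 13], [12, 6, 0], [19, 17, 0], [7], [9, 9, 2],
   [2, 0, 0], [5, 8], [5, 7, 3], [2, 4], [0, 18, 4], [10, 0], [10, 0], [16, 15], [0, 0], [14, 20],
   [15, 2], [3, 12], [4, 7, 0], [2, 1], [5, 7], [16, 15], [6, 9, 0], [3, 9, 0], [6, 8], [6, 15, 4],
   [4, 20], [7, 19], [4, 18, 4], [12, 12, 0], [16, 17, 0], [17, 20, 0], [12, 6], [6, 1, 0],
   [13, 18], [4, 8, 4], [19, 16, 1], [2, 14], [8, 20], [15, 8], [20, 16], [13, 12, 2], [11, 18, 1],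
   [11, 16], [18, 7], [2, 17], [18, 3, 0], [18, 0, 1], [0, 18, 3], [11, 8, 1], [2, 12], [0, 9, 0],
   [18, 6, 0], [14], [12, 4], [19, 13], [16, 4, 4], [6, 1], [11, 7, 0], [18, 11], [18, 10, 0],
   [10, 13, 1], [3, 10, 2], [1, 7], [7, 19, 15], [12, 13, 2], [2, 5, 4], [1, 0], [12, 9],
   [13, 7, 0], [2, 0], [20, 7], [7, 11], [7, 7, 3], [20, 11], [11, 1, 0], [16, 13, 0], [10, 3],
   [6, 9, 1], [2, 15], [19, 3], [15, 16, 0], [17, 15], [7, 2], [11, 7, 2], [1, 7], [6, 11, 2],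
   [20, 11], [16, 1], [2, 1], [17, 9, 0], [13, 10, 1], [15, 4, 5], [13, 5, 1], [7, 11, 2], [3, 4],
   [6, 9], [17, 0], [0], [4, 15], [11, 1, 0], [13, 12], [4, 11], [5, 14], [2], [5, 17], [9, 6],
   [17, 1, 0], [3, 18], [20, 7, 3], [19, 7], [19, 20, 3], [3, 0, 2], [9, 12, 5], [12, 0, 1],
   [3, 16], [9, 3], [4, 17, 1], [3, 8], [0, 6, 6], [6, 19], [18, 0], [19, 7], [2], [2, 20, 2],
   [16, 18], [1, 5, 0], [12, 18, 0], [15, 1], [2, 10], [20, 2, 0], [3, 4, 0], [7, 3, 5], [7, 16],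
   [11, 6, 0], [5, 1, 1], [5, 0], [11, 2], [18, 12], [10, 14], [11, 19], [4, 19, 3], [13],
   [18, 13, 0], [20, 5, 1], [9, 10], [2, 1], [13, 4], [20, 4, 0], [6, 15], [19, 0, 1], [18, 1],
   [16, 17], [9, 4], [1, 14], [7, 12], [1, 2], [18, 5, 3], [19, 20], [2, 10, 0], [13, 7], [5, 10],
   [18, 14, 1], [20, 4], [7, 6, 0], [2, 12, 0], [7, 20, 0], [7, 8], [12, 7, 1], [12, 17],
   [18, 17, 2], [5, 20, 7], [8, 19, 0], [7, 15], [2, 5], [18, 1, 4], [9, 12], [14, 16, 1],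
   [12, 4, 0], [10, 17, 0], [20, 5], [5, 19, 0], [10, 0, 5], [6, 0, 4], [8, 6, 0], [5, 9, 2],
   [12, 18], [8, 20, 0], [20, 1], [9, 4, 0], [16, 2], [6, 3, 0], [16, 18, 0], [7, 1, 1], [9, 7, 4],
   [17, 18, 3], [18, 18, 0], [19, 14, 0], [8, 16, 4], [14, 14, 0], [4, 8], [16, 9, 1], [4, 10],
   [3, 17, 2], [5, 2, 4], [8, 1], [5, 8, 0], [13, 4, 2], [6, 7, 0], [2, 16, 0], [14, 14, 1],
   [6, 6], [7, 18, 4], [0, 19], [15, 20, 3], [10, 16, 1], [11, 18], [12, 8], [2, 17], [0, 12],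
   [9, 3, 5], [6, 10], [4, 2], [7, 10], [13, 12, 0], [19, 4], [1, 0], [1, 11], [1, 3], [1, 3],
   [9, 13, 1], [15, 10, 1], [5, 16], [12, 6], [1, 3], [0, 15, 1], [8, 8], [3, 7], [10, 8, 1],
   [12, 9], [7, 19], [11, 1, 7], [1, 0, 0], [5, 7], [12, 0], [17, 6], [18, 14], [15, 20],
   [15, 13, 4], [12, 7], [10, 13], [3, 17, 5], [13, 2], [16, 13], [4, 3, 2], [17, 12, 0], [13, 0],
   [2, 5, 0], [6, 14, 1], [16, 20, 0], [11, 1], [17, 1, 0], [6, 7, 3], [4, 20, 0], [5, 6, 1],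
   [0, 4, 2], [5, 2, 1], [12, 19], [10, 16], [5, 1], [4, 19, 0], [17, 17, 5], [9, 13, 0],
   [17, 14, 0], [5, 7, 0], [8, 3], [13, 12, 0], [0, 16, 1], [11, 20, 2], [10, 14, 15], [3, 2],
   [5, 0, 4], [10, 3, 1], [9, 1], [1, 8, 0], [1, 6, 4], [4, 1, 1], [12, 15, 6], [3, 0], [0, 14, 0],
   [17, 1], [3, 12, 3], [8, 5, 0], [6, 18, 0], [0, 1, 0], [6, 12], [1, 18], [1, 4, 0], [17, 3]]

theorem orbit_cert : ∀ L ∈ sxL, baseL (ty L) ∈ sxL ∧
    ∃ σ ∈ H0, σ • sxSet (baseL (ty L)) = sxSet L :=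
  sextet_orbit_cert inf_le_left good_p ty [6, 4, 0] baseL basePts cert (by decide +kernel)
    (by decide +kernel) (by decide +kernel)

theorem ty_mem : sxL.all (fun L => ([6, 4, 0] : List ℕ).contains (ty L)) = true := by
  decide +kernel

theorem base_mem : ∀ k ∈ ([6, 4, 0] : List ℕ), baseL k ∈ sxL ∧ ty (baseL k) = k := by
  decide +kernel

theorem count6 : (sxL.filter (fun L => ty L == 6)).length = 396 := by decide +kernel

theorem count4 : (sxL.filter (fun L => ty L == 4)).length = 495 := by decide +kernel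

theorem count0 : (sxL.filter (fun L => ty L == 0)).length = 880 := by decide +kernel

/-- The number of members of a family meeting `d` in exactly two points. -/
def t2 (d : Finset GolayPt) (S : Finset (Finset GolayPt)) : ℕ :=
  (S.filter fun t => (t ∩ d).card = 2).card

theorem t2_smul (x : Equiv.Perm GolayPt) (d : Finset GolayPt) (S : Finset (Finset GolayPt)) :
    t2 (x • d) (x • S) = t2 d S := by
  classical
  unfold t2
  have e : x • S = S.image (fun t => x • t) := rfl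
  rw [e, Finset.filter_image, Finset.card_image_of_injective _ (MulAction.injective x)]
  congr 1
  apply Finset.filter_congr
  intro t _
  show (x • t ∩ x • d).card = 2 ↔ (t ∩ d).card = 2
  rw [← Finset.smul_finset_inter, Finset.card_smul_finset]

theorem t2_compl {d : Finset GolayPt} {S : Finset (Finset GolayPt)} (h4 : ∀ t ∈ S, t.card = 4) :
    t2 (Finset.univ \ d) S = t2 d S := by
  unfold t2
  congr 1
  apply Finset.filter_congr
  intro t ht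
  have h1 : (t ∩ (Finset.univ \ d)).card + (t ∩ d).card = 4 := by
    rw [← h4 t ht]
    have h2 : t ∩ (Finset.univ \ d) = t \ d := by
      ext p
      simp
    rw [h2, Finset.card_sdiff_add_card_inter]
  omega

theorem t2_invariant {g : Equiv.Perm GolayPt} {d : Finset GolayPt}
    (hg : g • d = d ∨ g • d = Finset.univ \ d) {S : Finset (Finset GolayPt)}
    (h4 : ∀ t ∈ S, t.card = 4) : t2 d (g • S) = t2 d S := by
  have h' : t2 (g • d) (g • S) = t2 d S := t2_smul g d S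
  rcases hg with h | h
  · rw [h] at h'
    exact h'
  · rw [h, t2_compl] at h'
    · exact h'
    · intro t ht
      obtain ⟨u, hu, rfl⟩ := Finset.mem_smul_finset.mp ht
      rw [Finset.card_smul_finset]
      exact h4 u hu

theorem t2_sxSet {L : List ℕ} (hL : L ∈ sxL) : t2 D0 (sxSet L) = ty L := by
  classical
  have hok := sxL_mem_ok hL
  unfold t2
  apply card_filter_sxSet hok
  intro m hm
  rw [support₂_dec_inter, ← popcF_eq_card (lt_of_le_of_lt Nat.and_le_left (sxOK_mem hok hm).1)]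
  simp

theorem orbit_eq {d : Finset GolayPt} {x : Equiv.Perm GolayPt} (hx : x ∈ M24)
    (hxd : x • D0 = d) (k : ℕ) (hk : k ∈ ([6, 4, 0] : List ℕ)) :
    MulAction.orbit ↥(MulAction.stabilizer ↥M24
      ({d, Finset.univ \ d} : Finset (Finset GolayPt))) (x • sxSet (baseL k)) =
      {S | S ∈ sextets ∧ t2 d S = k} := by
  have hxinv : x⁻¹ ∈ M24 := M24.inv_mem hx
  obtain ⟨hB, hBk⟩ := base_mem k hk
  have hXs : x • sxSet (baseL k) ∈ sextets :=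
    smul_sextet_mem hx (sxSet_mem_sextets (sxL_mem_ok hB))
  ext S
  constructor
  · rintro ⟨g, rfl⟩
    have hgM : ((g : ↥M24) : Equiv.Perm GolayPt) ∈ M24 := (g : ↥M24).2
    have hg2 : ((g : ↥M24) : Equiv.Perm GolayPt) •
        ({d, Finset.univ \ d} : Finset (Finset GolayPt)) = {d, Finset.univ \ d} := g.2
    rw [smul_pair_iff] at hg2
    show ((g : ↥M24) : Equiv.Perm GolayPt) • (x • sxSet (baseL k)) ∈ sextets ∧
      t2 d (((g : ↥M24) : Equiv.Perm GolayPt) • (x • sxSet (baseL k))) = k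
    refine ⟨smul_sextet_mem hgM hXs, ?_⟩
    rw [t2_invariant hg2 hXs.2.1, ← hxd, t2_smul, t2_sxSet hB, hBk]
  · rintro ⟨hS, hSk⟩
    obtain ⟨L, hL, hSL⟩ := exists_sxL (smul_sextet_mem hxinv hS)
    have htyL : ty L = k := by
      rw [← t2_sxSet hL, ← hSL, ← t2_smul x D0 (x⁻¹ • S), smul_inv_smul, hxd]
      exact hSk
    obtain ⟨-, σ, hσ, hσL⟩ := orbit_cert L hL
    rw [htyL] at hσL
    have hσ2 : σ • ({D0, Finset.univ \ D0} : Finset (Finset GolayPt)) =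
        {D0, Finset.univ \ D0} := hσ.2
    rw [smul_pair_iff] at hσ2
    have hgM : x * σ * x⁻¹ ∈ M24 := M24.mul_mem (M24.mul_mem hx hσ.1) hxinv
    have hgd : (x * σ * x⁻¹) • ({d, Finset.univ \ d} : Finset (Finset GolayPt)) =
        {d, Finset.univ \ d} := by
      rw [smul_pair_iff, mul_smul, mul_smul, ← hxd, inv_smul_smul]
      rcases hσ2 with h | h
      · left
        rw [h]
      · right
        rw [h, Finset.smul_finset_sdiff, Finset.smul_finset_univ]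
    refine ⟨⟨⟨x * σ * x⁻¹, hgM⟩, hgd⟩, ?_⟩
    show (x * σ * x⁻¹) • (x • sxSet (baseL k)) = S
    rw [mul_smul, mul_smul, inv_smul_smul, hσL, ← hSL, smul_inv_smul]


/-- The setwise stabiliser, in the group of the length-24 code, of a complementary pair of dodecads has exactly three orbits on the 1771 sextets, of sizes 396, 495 and 880. -/
theorem result (d : Finset Cfsg.GolayPt) (hd : d ∈ Cfsg.dodecads) : ∃ X₁ ∈ Cfsg.sextets, ∃ X₂ ∈ Cfsg.sextets, ∃ X₃ ∈ Cfsg.sextets, (MulAction.orbit ↥(MulAction.stabilizer Cfsg.M24 ({d, Finset.univ \ d} : Finset (Finset Cfsg.GolayPt))) X₁).ncard = 396 ∧ (MulAction.orbit ↥(MulAction.stabilizer Cfsg.M24 ({d, Finset.univ \ d} : Finset (Finset Cfsg.GolayPt))) X₂).ncard = 495 ∧ (MulAction.orbit ↥(MulAction.stabilizer Cfsg.M24 ({d, Finset.univ \ d} : Finset (Finset Cfsg.GolayPt))) X₃).ncard = 880 ∧ Cfsg.sextets = MulAction.orbit ↥(MulAction.stabilizer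 Cfsg.M24 ({d, Finset.univ \ d} : Finset (Finset Cfsg.GolayPt))) X₁ ∪ MulAction.orbit ↥(MulAction.stabilizer Cfsg.M24 ({d, Finset.univ \ d} : Finset (Finset Cfsg.GolayPt))) X₂ ∪ MulAction.orbit ↥(MulAction.stabilizer Cfsg.M24 ({d, Finset.univ \ d} : Finset (Finset Cfsg.GolayPt))) X₃ := by
  classical
  obtain ⟨x, hx, hxd⟩ := exists_smul_dodecad hd
  have hxinv : x⁻¹ ∈ M24 := M24.inv_mem hx
  have hXs : ∀ k ∈ ([6, 4, 0] : List ℕ), x • sxSet (baseL k) ∈ sextets := fun k hk =>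
    smul_sextet_mem hx (sxSet_mem_sextets (sxL_mem_ok (base_mem k hk).1))
  have hpull : ∀ S : Finset (Finset GolayPt), t2 D0 (x⁻¹ • S) = t2 d S := by
    intro S
    rw [← t2_smul x D0 (x⁻¹ • S), smul_inv_smul, hxd]
  have hcount : ∀ k : ℕ, {S : Finset (Finset GolayPt) | S ∈ sextets ∧ t2 d S = k}.ncard =
      (sxL.filter (fun L => ty L == k)).length := by
    intro k
    have himg : {S : Finset (Finset GolayPt) | S ∈ sextets ∧ t2 d S = k} =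
        (fun S => x • S) '' {S : Finset (Finset GolayPt) | S ∈ sextets ∧ t2 D0 S = k} := by
      ext S
      constructor
      · rintro ⟨hS, hk⟩
        exact ⟨x⁻¹ • S, ⟨smul_sextet_mem hxinv hS, by rw [hpull]; exact hk⟩, smul_inv_smul x S⟩
      · rintro ⟨S0, ⟨hS0, hk⟩, rfl⟩
        refine ⟨smul_sextet_mem hx hS0, ?_⟩
        rw [← hpull, inv_smul_smul]
        exact hk
    rw [himg, Set.ncard_image_of_injective _ (MulAction.injective x)]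
    exact ncard_sextets_filter _ _ (fun L hL => by rw [t2_sxSet hL]; simp)
  have h6 : (6 : ℕ) ∈ ([6, 4, 0] : List ℕ) := by simp
  have h4 : (4 : ℕ) ∈ ([6, 4, 0] : List ℕ) := by simp
  have h0 : (0 : ℕ) ∈ ([6, 4, 0] : List ℕ) := by simp
  refine ⟨x • sxSet (baseL 6), hXs 6 h6, x • sxSet (baseL 4), hXs 4 h4, x • sxSet (baseL 0),
    hXs 0 h0, ?_, ?_, ?_, ?_⟩
  · rw [orbit_eq hx hxd 6 h6, hcount 6]
    exact count6
  · rw [orbit_eq hx hxd 4 h4, hcount 4]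
    exact count4
  · rw [orbit_eq hx hxd 0 h0, hcount 0]
    exact count0
  · rw [orbit_eq hx hxd 6 h6, orbit_eq hx hxd 4 h4, orbit_eq hx hxd 0 h0]
    ext S
    constructor
    · intro hS
      obtain ⟨L, hL, hSL⟩ := exists_sxL (smul_sextet_mem hxinv hS)
      have hty : ty L = t2 d S := by rw [← t2_sxSet hL, ← hSL, hpull]
      have hmem := List.all_eq_true.mp ty_mem L hL
      rw [List.contains_iff_mem, hty] at hmem
      simp only [List.mem_cons, List.not_mem_nil, or_false] at hmem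
      rcases hmem with h | h | h
      · exact Or.inl (Or.inl ⟨hS, h⟩)
      · exact Or.inl (Or.inr ⟨hS, h⟩)
      · exact Or.inr ⟨hS, h⟩
    · rintro ((h | h) | h)
      · exact h.1
      · exact h.1
      · exact h.1

end Cfsg.Agent.S5617
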