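import Cfsg.Statements.S5618
import Cfsg.Agent.Lib.Helper95.M12Gen

set_option autoImplicit false
open scoped Pointwise
open Cfsg

namespace Cfsg.Agent.S5618

open Cfsg.Agent.Lib.Helper9 Cfsg.Agent.Lib.Helper95

/-- The joint stabiliser of the dodecad of squares and of the hexad `{0, 1, 2, 3, 4, 12}`. -/
abbrev H0 : Subgroup (Equiv.Perm GolayPt) := M24 ⊓ setStab [340831, 4127]

/-- Strong generators of `H0` for the base `0, 1, 2, 3, 4`. -/
def h0Gens : List (List ℕ) :=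
  [[2, 1, 12, 0, 3, 19, 16, 7, 18, 9, 10, 14, 4, 6, 22, 11, 8, 20, 13, 23, 5, 15, 21, 17],
   [0, 2, 12, 4, 3, 14, 16, 10, 6, 8, 7, 5, 1, 9, 23, 21, 18, 19, 13, 22, 20, 11, 17, 15],
   [0, 1, 12, 2, 4, 19, 18, 7, 16, 8, 10, 11, 3, 6, 20, 14, 9, 22, 13, 21, 15, 5, 23, 17],
   [0, 1, 2, 4, 3, 15, 13, 10, 18, 16, 7, 23, 12, 6, 21, 5, 9, 17, 8, 19, 20, 14, 22, 11],
   [0, 1, 2, 3, 12, 5, 9, 10, 16, 6, 7, 22, 4, 18, 14, 19, 8, 17, 13, 15, 21, 20, 11, 23]]

theorem h0Gens_ok : h0Gens.all (memOK [340831, 4127]) = true := by decide +kernel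

theorem good_h0 : Good H0 (h0Gens.map tperm) h0Gens := good_of_memOK h0Gens h0Gens_ok

theorem h0_reach0 : Reach (H0 ⊓ fixing []) (pt 0) 4127 := by
  have := level_reach good_h0 [] [0, 1, 2, 3, 4] (b := 0) (by norm_num) (by decide +kernel) 8
  have e : orbIter (([0, 1, 2, 3, 4] : List ℕ).map (fun i => h0Gens.getD i idT)) 8 (2 ^ 0)
      = 4127 := by decide +kernel
  rwa [e] at this

theorem h0_reach1 : Reach (H0 ⊓ fixing [0]) (pt 1) 4126 := by
  have := level_reach good_h0 [0] [1, 2, 3, 4] (b := 1) (by norm_num) (by decide +kernel) 8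
  have e : orbIter (([1, 2, 3, 4] : List ℕ).map (fun i => h0Gens.getD i idT)) 8 (2 ^ 1)
      = 4126 := by decide +kernel
  rwa [e] at this

theorem h0_reach2 : Reach (H0 ⊓ fixing [1, 0]) (pt 2) 4124 := by
  have := level_reach good_h0 [1, 0] [2, 3, 4] (b := 2) (by norm_num) (by decide +kernel) 8
  have e : orbIter (([2, 3, 4] : List ℕ).map (fun i => h0Gens.getD i idT)) 8 (2 ^ 2)
      = 4124 := by decide +kernel
  rwa [e] at this

theorem h0_reach3 : Reach (H0 ⊓ fixing [2, 1, 0]) (pt 3) 4120 := by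
  have := level_reach good_h0 [2, 1, 0] [3, 4] (b := 3) (by norm_num) (by decide +kernel) 8
  have e : orbIter (([3, 4] : List ℕ).map (fun i => h0Gens.getD i idT)) 8 (2 ^ 3)
      = 4120 := by decide +kernel
  rwa [e] at this

theorem h0_reach4 : Reach (H0 ⊓ fixing [3, 2, 1, 0]) (pt 4) 4112 := by
  have := level_reach good_h0 [3, 2, 1, 0] [4] (b := 4) (by norm_num) (by decide +kernel) 8
  have e : orbIter (([4] : List ℕ).map (fun i => h0Gens.getD i idT)) 8 (2 ^ 4)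
      = 4112 := by decide +kernel
  rwa [e] at this

theorem h0_popc : popc 4127 = 6 ∧ popc 4126 = 5 ∧ popc 4124 = 4 ∧ popc 4120 = 3 ∧
    popc 4112 = 2 := by decide +kernel

theorem card_H0_ge : 720 ≤ Nat.card ↥H0 := by
  obtain ⟨p0, p1, p2, p3, p4⟩ := h0_popc
  have o0 := h0_reach0.popc_le
  have o1 := h0_reach1.popc_le
  have o2 := h0_reach2.popc_le
  have o3 := h0_reach3.popc_le
  have o4 := h0_reach4.popc_le
  rw [p0] at o0
  rw [p1] at o1
  rw [p2] at o2
  rw [p3] at o3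
  rw [p4] at o4
  have y5 : 1 ≤ Nat.card ↥(H0 ⊓ fixing [4, 3, 2, 1, 0]) := Nat.card_pos
  have y0 := card_fixing_ge o0 (card_fixing_ge o1 (card_fixing_ge o2 (card_fixing_ge o3
    (card_fixing_ge o4 y5))))
  rw [inf_fixing_nil] at y0
  exact y0

/-- A fixed-point certificate for five points of the dodecad outside the hexad. -/
def cert2 : List (ℕ × ℕ × ℕ × List (ℕ × ℕ)) :=
  [(1, 1000000, 0, []), (1, 0, 1, []), (1, 7, 2, []), (1, 8, 3, []), (1, 9, 4, []), (1, 10, 5, []), 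
   (2, 5279, 0, [(11, 6)]), (0, 11, 12, []), (1, 11, 12, []), (0, 6, 12, []), (1, 6, 12, []), 
   (2, 8490656, 0, [(13, 0), (15, 2), (1, 1), (3, 1), (2, 0)]), (0, 16, 17, []), (1, 16, 17, []), 
   (2, 10558, 0, [(19, 0), (13, 4), (2, 1), (4, 1)]), (0, 13, 20, []), (1, 13, 20, []), 
   (0, 18, 20, []), (1, 18, 20, []), (2, 8521420, 0, [(15, 2), (3, 1), (5, 1), (21, 2)]), 
   (0, 21, 25, []), (1, 21, 25, []), (0, 24, 25, []), (1, 24, 25, []), (0, 19, 25, []), 
   (1, 19, 25, []), (2, 1050548, 0, [(15, 2), (3, 1), (4, 1), (26, 1), (27, 1)]), (0, 26, 32, []), 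
   (1, 26, 32, []), (0, 27, 32, []), (1, 27, 32, []), (0, 23, 32, []), (1, 23, 32, []), 
   (0, 31, 32, []), (1, 31, 32, []), 
   (2, 8391797, 0, [(40, 0), (5, 1), (33, 1), (37, 1), (35, 1), (1, 0)]), (0, 22, 41, []), 
   (1, 22, 41, []), (0, 15, 41, []), (1, 15, 41, []), 
   (2, 18147, 0, [(3, 1), (5, 1), (36, 1), (42, 1), (44, 1)]), (0, 40, 46, []), (1, 40, 46, []), 
   (2, 4196943, 0, [(3, 1), (5, 1), (33, 1), (34, 1), (36, 1)]), (0, 48, 49, []), (1, 48, 49, []), 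
   (2, 2101096, 0, [(3, 1), (4, 1), (5, 1), (34, 1), (44, 1)]), (0, 51, 52, []), (1, 51, 52, [])]

theorem fix5' : (M24 ⊓ setStab [340831]) ⊓ fixing [16, 13, 9, 8, 6] = ⊥ :=
  stab_eq_bot le_rfl [340831] [16, 13, 9, 8, 6] cert2 (by decide) (by decide +kernel)

theorem H0_le_M12 : H0 ≤ M24 ⊓ setStab [340831] := by
  intro σ hσ
  exact ⟨hσ.1, fun D hD => hσ.2 D (by
    rw [List.mem_singleton] at hD
    rw [hD]
    exact List.mem_cons_self)⟩

theorem faithful_C0 {σ : Equiv.Perm GolayPt} (hσ : σ ∈ H0)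
    (h : ∀ i ∈ ([4, 3, 2, 1, 0] : List ℕ), σ (pt i) = pt i) : σ = 1 := by
  have h1 : σ ∈ (M24 ⊓ setStab [340831]) ⊓ fixing [4, 3, 2, 1, 0] := ⟨H0_le_M12 hσ, h⟩
  rw [m12_fix5, Subgroup.mem_bot] at h1
  exact h1

theorem faithful_compl {σ : Equiv.Perm GolayPt} (hσ : σ ∈ H0)
    (h : ∀ i ∈ ([16, 13, 9, 8, 6] : List ℕ), σ (pt i) = pt i) : σ = 1 := by
  have h1 : σ ∈ (M24 ⊓ setStab [340831]) ⊓ fixing [16, 13, 9, 8, 6] := ⟨H0_le_M12 hσ, h⟩
  rw [fix5', Subgroup.mem_bot] at h1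
  exact h1

theorem pt_mem_C0 : ∀ i ∈ ([4, 3, 2, 1, 0] : List ℕ), pt i ∈ support₂ (dec 4127) := by
  intro i hi
  have h1 : ∀ i ∈ ([4, 3, 2, 1, 0] : List ℕ), i < 24 ∧ Nat.testBit 4127 i = true := by decide
  rw [mem_support₂_dec, idx_pt (h1 i hi).1]
  exact (h1 i hi).2

theorem pt_mem_O0 : ∀ i ∈ ([0, 1, 2, 3, 4] : List ℕ), pt i ∈ support₂ (dec 5279) := by
  intro i hi
  have h1 : ∀ i ∈ ([0, 1, 2, 3, 4] : List ℕ), i < 24 ∧ Nat.testBit 5279 i = true := by decide
  rw [mem_support₂_dec, idx_pt (h1 i hi).1]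
  exact (h1 i hi).2

theorem pt_mem_compl : ∀ i ∈ ([16, 13, 9, 8, 6] : List ℕ),
    pt i ∈ support₂ (dec 340831) \ support₂ (dec 4127) := by
  intro i hi
  have h1 : ∀ i ∈ ([16, 13, 9, 8, 6] : List ℕ), i < 24 ∧ Nat.testBit 340831 i = true ∧
      Nat.testBit 4127 i = false := by decide
  rw [Finset.mem_sdiff, mem_support₂_dec, mem_support₂_dec, idx_pt (h1 i hi).1, (h1 i hi).2.1,
    (h1 i hi).2.2]
  simp

theorem H0_smul_C0 : ∀ σ ∈ H0, σ • support₂ (dec 4127) = support₂ (dec 4127) :=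
  fun _ hσ => hσ.2 4127 (by simp)

/-- Restriction to an invariant set of points. -/
noncomputable def resHom (H : Subgroup (Equiv.Perm GolayPt)) (C : Finset GolayPt)
    (hC : ∀ σ ∈ H, σ • C = C) : ↥H →* Equiv.Perm ↥C :=
  MonoidHom.mk' (fun σ => (σ.1).subtypePerm (p := fun x => x ∈ C) (fun x => by
    have h1 : σ.1 • x ∈ σ.1 • C ↔ x ∈ C := Finset.smul_mem_smul_finset_iff _
    rw [hC σ.1 σ.2] at h1
    exact h1)) (fun _ _ => rfl)

theorem resHom_apply (H : Subgroup (Equiv.Perm GolayPt)) (C : Finset GolayPt)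
    (hC : ∀ σ ∈ H, σ • C = C) (σ : ↥H) (x : ↥C) :
    ((resHom H C hC σ x : ↥C) : GolayPt) = σ.1 x.1 := rfl

theorem resHom_injective : Function.Injective (resHom H0 (support₂ (dec 4127)) H0_smul_C0) := by
  rw [injective_iff_map_eq_one]
  intro σ hσ
  apply Subtype.ext
  apply faithful_C0 σ.2
  intro i hi
  have h1 := congrArg (fun f : Equiv.Perm ↥(support₂ (dec 4127)) =>
    ((f ⟨pt i, pt_mem_C0 i hi⟩ : ↥(support₂ (dec 4127))) : GolayPt)) hσ
  exact h1

theorem card_C0 : (support₂ (dec 4127)).card = 6 := by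
  rw [card_support₂, hammingNorm_dec]
  decide +kernel

theorem iso0 : Nonempty (↥H0 ≃* Equiv.Perm (Fin 6)) := by
  have hcard : Nat.card (Equiv.Perm ↥(support₂ (dec 4127))) = 720 := by
    rw [Nat.card_eq_fintype_card, Fintype.card_perm, Fintype.card_coe, card_C0]
    rfl
  have hbij : Function.Bijective (resHom H0 (support₂ (dec 4127)) H0_smul_C0) :=
    resHom_injective.bijective_of_nat_card_le (by rw [hcard]; exact card_H0_ge)
  have hfin : Fintype.card ↥(support₂ (dec 4127)) = 6 := by rw [Fintype.card_coe, card_C0]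
  exact ⟨(MulEquiv.ofBijective _ hbij).trans
    (Equiv.permCongrHom (Fintype.equivFinOfCardEq hfin))⟩

theorem forall₂_mem_right {α β : Type*} {R : α → β → Prop} {l₁ : List α} {l₂ : List β}
    (h : List.Forall₂ R l₁ l₂) : ∀ c ∈ l₂, ∃ b ∈ l₁, R b c := by
  induction h with
  | nil => intro c hc; exact absurd hc List.not_mem_nil
  | cons hab _ ih =>
    intro c hc
    rcases List.mem_cons.mp hc with rfl | hc
    · exact ⟨_, List.mem_cons_self, hab⟩
    · obtain ⟨b, hb, hR⟩ := ih c hc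
      exact ⟨b, List.mem_cons_of_mem _ hb, hR⟩

/-- Transitivity on pairs of a dodecad and a hexad on it. -/
theorem exists_dodecad_hexad {d C : Finset GolayPt} (hd : d ∈ dodecads) (hC : C ∈ hexadsOn d) :
    ∃ x ∈ M24, x • support₂ (dec 340831) = d ∧ x • support₂ (dec 4127) = C := by
  classical
  obtain ⟨x1, hx1, hx1d⟩ := exists_smul_dodecad hd
  obtain ⟨hC6, o, ho, hoC⟩ := hC
  have hx1inv : x1⁻¹ ∈ M24 := M24.inv_mem hx1
  have hD : x1⁻¹ • d = support₂ (dec 340831) := by rw [← hx1d, inv_smul_smul]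
  have ho' : x1⁻¹ • o ∈ octads := smul_octad_mem hx1inv ho
  have hC' : x1⁻¹ • o ∩ support₂ (dec 340831) = x1⁻¹ • C := by
    rw [← hD, ← Finset.smul_finset_inter, hoC]
  have hcard : (x1⁻¹ • C).card = 6 := by rw [Finset.card_smul_finset, hC6]
  have hlen : ((x1⁻¹ • C).toList.take 5).length = 5 := by
    rw [List.length_take, Finset.length_toList, hcard]
    rfl
  have hnd : ((x1⁻¹ • C).toList.take 5).Nodup :=
    (Finset.nodup_toList _).sublist (List.take_sublist _ _)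
  have hmem : ∀ c ∈ (x1⁻¹ • C).toList.take 5, c ∈ x1⁻¹ • C := fun c hc =>
    Finset.mem_toList.mp (List.mem_of_mem_take hc)
  obtain ⟨σ, hσ, hF⟩ := TChain.exists_perm m12_smul_D0 [0, 1, 2, 3, 4] [] m12_tchain5
    ((x1⁻¹ • C).toList.take 5) hlen hnd (fun c hc => ⟨by
      have h1 := hmem c hc
      rw [← hC'] at h1
      exact (Finset.mem_inter.mp h1).2, fun i hi => absurd hi List.not_mem_nil⟩)
  have hσM : σ ∈ M24 := hσ.1.1
  have hσo : σ • support₂ (dec 5279) ∈ octads :=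
    smul_octad_mem hσM (support_mem_octads (by decide +kernel : 5279 ∈ octL))
  have heq : σ • support₂ (dec 5279) = x1⁻¹ • o := by
    apply octad_eq_of_inter hσo ho'
    have hsub : ((x1⁻¹ • C).toList.take 5).toFinset ⊆ σ • support₂ (dec 5279) ∩ x1⁻¹ • o := by
      intro c hc
      rw [List.mem_toFinset] at hc
      rw [Finset.mem_inter]
      constructor
      · obtain ⟨b, hb, hbc⟩ := forall₂_mem_right hF c hc
        rw [← hbc]
        exact Finset.smul_mem_smul_finset (pt_mem_O0 b hb)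
      · have h1 := hmem c hc
        rw [← hC'] at h1
        exact (Finset.mem_inter.mp h1).1
    calc 5 = ((x1⁻¹ • C).toList.take 5).toFinset.card := by
          rw [List.toFinset_card_of_nodup hnd, hlen]
      _ ≤ _ := Finset.card_le_card hsub
  refine ⟨x1 * σ, M24.mul_mem hx1 hσM, ?_, ?_⟩
  · rw [mul_smul, m12_smul_D0 σ hσ.1, hx1d]
  · have e : support₂ (dec 4127) = support₂ (dec 5279) ∩ support₂ (dec 340831) := by
      rw [support₂_dec_inter]
      rfl
    rw [mul_smul, e, Finset.smul_finset_inter, heq, m12_smul_D0 σ hσ.1, hC', smul_inv_smul]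

theorem mem_iff {d C : Finset GolayPt} {x : Equiv.Perm GolayPt}
    (hxd : x • support₂ (dec 340831) = d) (hxC : x • support₂ (dec 4127) = C) (hx : x ∈ M24)
    (g : ↥M24) :
    g ∈ MulAction.stabilizer ↥M24 d ⊓ MulAction.stabilizer ↥M24 C ↔
      x⁻¹ * (g : Equiv.Perm GolayPt) * x ∈ H0 := by
  constructor
  · rintro ⟨h1, h2⟩
    have h1' : (g : Equiv.Perm GolayPt) • d = d := h1
    have h2' : (g : Equiv.Perm GolayPt) • C = C := h2
    refine ⟨(conj_mem_M24_iff hx _).mpr g.2, fun D hD => ?_⟩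
    simp only [List.mem_cons, List.not_mem_nil, or_false] at hD
    rcases hD with rfl | rfl
    · rw [conj_smul_eq_iff, hxd]
      exact h1'
    · rw [conj_smul_eq_iff, hxC]
      exact h2'
  · rintro ⟨-, h1⟩
    have h1' := h1 340831 (by simp)
    have h2' := h1 4127 (by simp)
    rw [conj_smul_eq_iff, hxd] at h1'
    rw [conj_smul_eq_iff, hxC] at h2'
    exact ⟨h1', h2'⟩


/-- For a dodecad d of the length-24 code and a hexad C on it (a 6-point intersection of d with an octad): the joint stabiliser of d and C in the code's group is isomorphic to the symmetric group of degree 6, and it acts faithfully both on the six points of C and on the six points of d outside C. -/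
theorem result (d : Finset Cfsg.GolayPt) (hd : d ∈ Cfsg.dodecads) (C : Finset Cfsg.GolayPt) (hC : C ∈ Cfsg.hexadsOn d) : Nonempty (↥(MulAction.stabilizer Cfsg.M24 d ⊓ MulAction.stabilizer Cfsg.M24 C) ≃* Equiv.Perm (Fin 6)) ∧ (∀ g ∈ MulAction.stabilizer Cfsg.M24 d ⊓ MulAction.stabilizer Cfsg.M24 C, (∀ p ∈ C, ((g : ↥Cfsg.M24) : Equiv.Perm Cfsg.GolayPt) p = p) → g = 1) ∧ ∀ g ∈ MulAction.stabilizer Cfsg.M24 d ⊓ MulAction.stabilizer Cfsg.M24 C, (∀ p ∈ d \ C, ((g : ↥Cfsg.M24) : Equiv.Perm Cfsg.GolayPt) p = p) → g = 1 := by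
  obtain ⟨x, hx, hxd, hxC⟩ := exists_dodecad_hexad hd hC
  obtain ⟨e0⟩ := iso0
  refine ⟨⟨(transportEquiv hx inf_le_left (mem_iff hxd hxC hx)).trans e0⟩, ?_, ?_⟩
  · intro g hg hfix
    have h1 : x⁻¹ * (g : Equiv.Perm GolayPt) * x = 1 :=
      faithful_C0 ((mem_iff hxd hxC hx g).mp hg) (fun i hi => by
        rw [Equiv.Perm.mul_apply, Equiv.Perm.mul_apply, Equiv.Perm.inv_eq_iff_eq]
        apply hfix
        rw [← hxC]
        exact Finset.smul_mem_smul_finset (pt_mem_C0 i hi))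
    apply Subtype.ext
    have h2 : (g : Equiv.Perm GolayPt) = x * (x⁻¹ * (g : Equiv.Perm GolayPt) * x) * x⁻¹ := by
      group
    rw [h2, h1]
    simp
  · intro g hg hfix
    have h1 : x⁻¹ * (g : Equiv.Perm GolayPt) * x = 1 :=
      faithful_compl ((mem_iff hxd hxC hx g).mp hg) (fun i hi => by
        rw [Equiv.Perm.mul_apply, Equiv.Perm.mul_apply, Equiv.Perm.inv_eq_iff_eq]
        apply hfix
        rw [← hxC, ← hxd, ← Finset.smul_finset_sdiff]
        exact Finset.smul_mem_smul_finset (pt_mem_compl i hi))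
    apply Subtype.ext
    have h2 : (g : Equiv.Perm GolayPt) = x * (x⁻¹ * (g : Equiv.Perm GolayPt) * x) * x⁻¹ := by
      group
    rw [h2, h1]
    simp

end Cfsg.Agent.S5618
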