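import Cfsg.Statements.S5619
import Cfsg.Agent.Lib.Helper95.M12Gen

set_option autoImplicit false
open scoped Pointwise
open Cfsg

namespace Cfsg.Agent.S5619

open Cfsg.Agent.Lib.Helper9 Cfsg.Agent.Lib.Helper95

/-! ### An abstract criterion -/

theorem z3sq_pow : ∀ v : Multiplicative (ZMod 3 × ZMod 3), v ^ 3 = 1 := by decide

theorem sylow_struct72 {G : Type*} [Group G] [Finite G] (hcard : Nat.card G = 72)
    (φ : Multiplicative (ZMod 3 × ZMod 3) →* G) (hφ : Function.Injective φ)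
    (hnorm : ∀ (g : G) (v : Multiplicative (ZMod 3 × ZMod 3)), ∃ v', g * φ v * g⁻¹ = φ v')
    (ψ : QuaternionGroup 2 →* G) (hψ : Function.Injective ψ) :
    (∀ Q : Sylow 3 G, (Q : Subgroup G).Normal ∧ Nat.card ↥Q = 9 ∧
      ∀ x ∈ (Q : Subgroup G), x ^ 3 = 1) ∧
    ∀ P : Sylow 2 G, Nonempty (↥P ≃* QuaternionGroup 2) := by
  have : Fact (Nat.Prime 3) := ⟨by norm_num⟩
  have : Fact (Nat.Prime 2) := ⟨by norm_num⟩
  constructor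
  · have hN9 : Nat.card φ.range = 9 := by
      rw [← Nat.card_congr (MonoidHom.ofInjective hφ).toEquiv, Nat.card_eq_fintype_card]
      rfl
    have hNnorm : φ.range.Normal := ⟨fun n hn g => by
      obtain ⟨v, rfl⟩ := hn
      obtain ⟨v', hv'⟩ := hnorm g v
      rw [hv']
      exact ⟨v', rfl⟩⟩
    have hNp : IsPGroup 3 φ.range := IsPGroup.of_card (n := 2) (by rw [hN9]; norm_num)
    obtain ⟨Q₀, hQ₀⟩ := hNp.exists_le_sylow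
    have hQ₀le : Nat.card Q₀ ≤ 9 := by
      obtain ⟨k, hk⟩ := (IsPGroup.iff_card).mp Q₀.isPGroup'
      have hdvd : Nat.card Q₀ ∣ 72 := hcard ▸ Subgroup.card_subgroup_dvd_card _
      rw [hk] at hdvd ⊢
      have hk2 : k ≤ 2 := by
        by_contra h
        have h3 : 3 ≤ k := by omega
        have := (pow_dvd_pow 3 h3).trans hdvd
        norm_num at this
      exact Nat.pow_le_pow_right (by norm_num) hk2
    have hQ₀eq : φ.range = (Q₀ : Subgroup G) :=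
      Subgroup.eq_of_le_of_card_ge hQ₀ (by rw [hN9]; exact hQ₀le)
    have hQ₀n : (Q₀ : Subgroup G).Normal := hQ₀eq ▸ hNnorm
    intro Q
    obtain ⟨g, hg⟩ := MulAction.exists_smul_eq G Q₀ Q
    have hQ : Q = Q₀ := by rw [← hg, Sylow.smul_eq_of_normal]
    subst hQ
    refine ⟨hQ₀n, (congrArg (fun S : Subgroup G => Nat.card S) hQ₀eq).symm.trans hN9, ?_⟩
    intro x hx
    rw [← hQ₀eq] at hx
    obtain ⟨v, rfl⟩ := hx
    rw [← map_pow]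
    rw [z3sq_pow v, map_one]
  · have hT8 : Nat.card ψ.range = 8 := by
      rw [← Nat.card_congr (MonoidHom.ofInjective hψ).toEquiv, Nat.card_eq_fintype_card,
        QuaternionGroup.card]
    have hTp : IsPGroup 2 ψ.range := IsPGroup.of_card (n := 3) (by rw [hT8]; norm_num)
    obtain ⟨P₀, hP₀⟩ := hTp.exists_le_sylow
    have hP₀le : Nat.card P₀ ≤ 8 := by
      obtain ⟨k, hk⟩ := (IsPGroup.iff_card).mp P₀.isPGroup'
      have hdvd : Nat.card P₀ ∣ 72 := hcard ▸ Subgroup.card_subgroup_dvd_card _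
      rw [hk] at hdvd ⊢
      have hk2 : k ≤ 3 := by
        by_contra h
        have h3 : 4 ≤ k := by omega
        have := (pow_dvd_pow 2 h3).trans hdvd
        norm_num at this
      exact Nat.pow_le_pow_right (by norm_num) hk2
    have hP₀eq : ψ.range = (P₀ : Subgroup G) :=
      Subgroup.eq_of_le_of_card_ge hP₀ (by rw [hT8]; exact hP₀le)
    intro P
    obtain ⟨g, hg⟩ := MulAction.exists_smul_eq G P₀ P
    subst hg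
    exact ⟨((Sylow.equivSMul P₀ g).symm.trans (MulEquiv.subgroupCongr hP₀eq.symm)).trans
      (MonoidHom.ofInjective hψ).symm⟩

/-! ### The standard group of order 72 -/

/-- The pointwise stabiliser of `0, 1, 2` in the stabiliser of the dodecad of squares. -/
abbrev K0 : Subgroup (Equiv.Perm GolayPt) := (M24 ⊓ setStab [340831]) ⊓ fixing [2, 1, 0]

/-- The tables of its 72 elements. -/
def els : List (List ℕ) :=
  [[0, 1, 2, 3, 4, 5, 6, 7, 8, 9, 10, 11, 12, 13, 14, 15, 16, 17, 18, 19, 20, 21, 22, 23],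
   [0, 1, 2, 3, 6, 14, 12, 22, 13, 4, 11, 7, 9, 16, 5, 21, 18, 23, 8, 20, 15, 19, 10, 17],
   [0, 1, 2, 3, 8, 17, 18, 15, 12, 13, 19, 21, 16, 6, 23, 10, 4, 5, 9, 7, 11, 22, 20, 14],
   [0, 1, 2, 3, 9, 14, 4, 11, 18, 12, 22, 10, 6, 8, 5, 20, 13, 23, 16, 21, 19, 15, 7, 17],
   [0, 1, 2, 3, 12, 5, 9, 10, 16, 6, 7, 22, 4, 18, 14, 19, 8, 17, 13, 15, 21, 20, 11, 23],
   [0, 1, 2, 3, 13, 23, 8, 21, 9, 16, 20, 19, 18, 12, 17, 11, 6, 14, 4, 22, 7, 10, 15, 5],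
   [0, 1, 2, 3, 16, 17, 13, 19, 4, 18, 15, 20, 8, 9, 23, 7, 12, 5, 6, 10, 22, 11, 21, 14],
   [0, 1, 2, 3, 18, 23, 16, 20, 6, 8, 21, 15, 13, 4, 17, 22, 9, 14, 12, 11, 10, 7, 19, 5],
   [0, 1, 2, 4, 3, 15, 13, 10, 18, 16, 7, 23, 12, 6, 21, 5, 9, 17, 8, 19, 20, 14, 22, 11],
   [0, 1, 2, 4, 6, 11, 18, 14, 16, 9, 20, 19, 8, 12, 17, 23, 13, 21, 3, 22, 10, 7, 5, 15],
   [0, 1, 2, 4, 8, 11, 9, 20, 13, 18, 14, 5, 6, 3, 17, 22, 16, 21, 12, 23, 7, 10, 19, 15],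
   [0, 1, 2, 4, 9, 17, 6, 19, 3, 8, 5, 20, 18, 16, 11, 10, 12, 15, 13, 7, 22, 23, 14, 21],
   [0, 1, 2, 4, 12, 15, 16, 7, 9, 13, 10, 22, 3, 8, 21, 19, 18, 17, 6, 5, 14, 20, 23, 11],
   [0, 1, 2, 4, 13, 21, 12, 22, 6, 3, 23, 10, 16, 9, 15, 14, 8, 11, 18, 20, 5, 19, 7, 17],
   [0, 1, 2, 4, 16, 21, 3, 23, 8, 12, 22, 7, 13, 18, 15, 20, 6, 11, 9, 14, 19, 5, 10, 17],
   [0, 1, 2, 4, 18, 17, 8, 5, 12, 6, 19, 14, 9, 13, 11, 7, 3, 15, 16, 10, 23, 22, 20, 21],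
   [0, 1, 2, 6, 3, 21, 16, 11, 8, 18, 22, 17, 9, 12, 19, 14, 4, 23, 13, 20, 15, 5, 10, 7],
   [0, 1, 2, 6, 4, 23, 12, 20, 3, 13, 14, 15, 8, 18, 7, 11, 9, 21, 16, 22, 10, 17, 5, 19],
   [0, 1, 2, 6, 8, 23, 13, 14, 9, 12, 20, 5, 4, 16, 7, 22, 3, 21, 18, 11, 17, 10, 15, 19],
   [0, 1, 2, 6, 9, 21, 18, 22, 4, 16, 11, 10, 3, 13, 19, 20, 8, 23, 12, 14, 5, 15, 17, 7],
   [0, 1, 2, 6, 12, 7, 8, 5, 18, 4, 15, 20, 13, 9, 23, 17, 16, 19, 3, 10, 11, 22, 14, 21],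
   [0, 1, 2, 6, 13, 7, 4, 15, 16, 8, 5, 14, 12, 3, 23, 10, 18, 19, 9, 17, 22, 11, 20, 21],
   [0, 1, 2, 6, 16, 19, 9, 10, 12, 3, 17, 11, 18, 4, 21, 5, 13, 7, 8, 15, 14, 20, 22, 23],
   [0, 1, 2, 6, 18, 19, 3, 17, 13, 9, 10, 22, 16, 8, 21, 15, 12, 7, 4, 5, 20, 14, 11, 23],
   [0, 1, 2, 8, 3, 10, 6, 19, 9, 4, 15, 14, 16, 18, 22, 17, 13, 5, 12, 7, 11, 23, 20, 21],
   [0, 1, 2, 8, 4, 22, 3, 14, 12, 16, 20, 15, 6, 9, 10, 11, 18, 21, 13, 23, 7, 17, 19, 5],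
   [0, 1, 2, 8, 6, 22, 16, 20, 18, 3, 14, 19, 4, 13, 10, 23, 12, 21, 9, 11, 17, 7, 15, 5],
   [0, 1, 2, 8, 9, 5, 12, 17, 16, 18, 7, 23, 13, 6, 21, 15, 3, 10, 4, 19, 14, 20, 11, 22],
   [0, 1, 2, 8, 12, 21, 13, 11, 6, 9, 23, 17, 18, 3, 5, 20, 4, 22, 16, 14, 15, 19, 7, 10],
   [0, 1, 2, 8, 13, 5, 18, 7, 3, 12, 17, 11, 9, 4, 21, 19, 16, 10, 6, 15, 20, 14, 23, 22],
   [0, 1, 2, 8, 16, 10, 4, 15, 13, 6, 19, 20, 3, 12, 22, 7, 9, 5, 18, 17, 23, 11, 14, 21],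
   [0, 1, 2, 8, 18, 21, 9, 23, 4, 13, 11, 7, 12, 16, 5, 14, 6, 22, 3, 20, 19, 15, 17, 10],
   [0, 1, 2, 9, 3, 20, 8, 22, 16, 13, 11, 17, 6, 4, 15, 14, 12, 23, 18, 21, 19, 5, 7, 10],
   [0, 1, 2, 9, 4, 10, 16, 5, 13, 12, 19, 21, 18, 6, 23, 17, 8, 15, 3, 7, 22, 11, 14, 20],
   [0, 1, 2, 9, 6, 20, 13, 11, 12, 8, 22, 7, 3, 18, 15, 21, 16, 23, 4, 14, 5, 19, 17, 10],
   [0, 1, 2, 9, 8, 15, 6, 7, 4, 3, 17, 22, 13, 12, 20, 5, 18, 10, 16, 19, 14, 21, 11, 23],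
   [0, 1, 2, 9, 12, 23, 4, 21, 3, 18, 14, 19, 16, 13, 10, 22, 6, 20, 8, 11, 7, 17, 5, 15],
   [0, 1, 2, 9, 13, 15, 3, 17, 18, 6, 7, 11, 8, 16, 20, 19, 4, 10, 12, 5, 21, 14, 22, 23],
   [0, 1, 2, 9, 16, 23, 18, 14, 6, 4, 21, 5, 12, 8, 10, 11, 3, 20, 13, 22, 17, 7, 19, 15],
   [0, 1, 2, 9, 18, 10, 12, 19, 8, 16, 5, 14, 4, 3, 23, 7, 13, 15, 6, 17, 11, 22, 21, 20],
   [0, 1, 2, 12, 3, 19, 18, 7, 13, 8, 10, 23, 4, 9, 20, 5, 6, 17, 16, 15, 21, 14, 11, 22],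
   [0, 1, 2, 12, 4, 19, 8, 10, 6, 18, 7, 11, 3, 16, 20, 15, 13, 17, 9, 5, 14, 21, 23, 22],
   [0, 1, 2, 12, 6, 17, 9, 15, 3, 16, 5, 21, 13, 8, 22, 7, 4, 19, 18, 10, 11, 23, 14, 20],
   [0, 1, 2, 12, 8, 20, 3, 23, 16, 4, 11, 10, 18, 13, 19, 21, 9, 22, 6, 14, 15, 5, 7, 17],
   [0, 1, 2, 12, 9, 22, 13, 14, 8, 6, 21, 15, 16, 4, 17, 23, 18, 20, 3, 11, 7, 10, 5, 19],
   [0, 1, 2, 12, 13, 17, 16, 5, 4, 9, 15, 14, 6, 18, 22, 10, 3, 19, 8, 7, 23, 11, 21, 20],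
   [0, 1, 2, 12, 16, 22, 6, 21, 18, 13, 14, 5, 9, 3, 17, 11, 8, 20, 4, 23, 10, 7, 15, 19],
   [0, 1, 2, 12, 18, 20, 4, 11, 9, 3, 23, 7, 8, 6, 19, 14, 16, 22, 13, 21, 5, 15, 10, 17],
   [0, 1, 2, 13, 3, 11, 12, 20, 4, 6, 21, 5, 18, 8, 10, 23, 16, 14, 9, 22, 7, 17, 15, 19],
   [0, 1, 2, 13, 4, 14, 9, 23, 18, 8, 22, 17, 16, 12, 19, 21, 3, 11, 6, 20, 5, 15, 7, 10],
   [0, 1, 2, 13, 6, 10, 3, 5, 9, 18, 15, 21, 12, 4, 11, 7, 8, 19, 16, 17, 22, 23, 20, 14],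
   [0, 1, 2, 13, 8, 19, 4, 17, 6, 16, 7, 22, 9, 18, 14, 5, 12, 10, 3, 15, 20, 21, 23, 11],
   [0, 1, 2, 13, 9, 19, 16, 7, 12, 4, 17, 23, 8, 3, 14, 15, 6, 10, 18, 5, 21, 20, 22, 11],
   [0, 1, 2, 13, 12, 10, 18, 15, 8, 3, 5, 20, 6, 16, 11, 17, 9, 19, 4, 7, 23, 22, 21, 14],
   [0, 1, 2, 13, 16, 14, 8, 22, 3, 9, 23, 7, 4, 6, 19, 20, 18, 11, 12, 21, 15, 5, 17, 10],
   [0, 1, 2, 13, 18, 11, 6, 21, 16, 12, 20, 15, 3, 9, 10, 22, 4, 14, 8, 23, 17, 7, 5, 19],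
   [0, 1, 2, 16, 3, 7, 9, 15, 6, 12, 19, 14, 8, 13, 11, 17, 18, 5, 4, 10, 22, 23, 21, 20],
   [0, 1, 2, 16, 4, 20, 18, 22, 9, 6, 23, 17, 13, 3, 5, 21, 12, 11, 8, 14, 19, 15, 10, 7],
   [0, 1, 2, 16, 6, 5, 4, 17, 8, 13, 10, 23, 18, 9, 20, 19, 3, 7, 12, 15, 14, 21, 22, 11],
   [0, 1, 2, 16, 8, 7, 12, 19, 18, 9, 15, 21, 3, 4, 11, 10, 6, 5, 13, 17, 23, 22, 14, 20],
   [0, 1, 2, 16, 9, 11, 8, 21, 13, 3, 14, 15, 12, 18, 7, 23, 4, 20, 6, 22, 17, 10, 19, 5],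
   [0, 1, 2, 16, 12, 11, 3, 14, 4, 8, 21, 19, 9, 6, 7, 22, 13, 20, 18, 23, 10, 17, 15, 5],
   [0, 1, 2, 16, 13, 20, 6, 23, 12, 18, 22, 10, 4, 8, 5, 14, 9, 11, 3, 21, 15, 19, 17, 7],
   [0, 1, 2, 16, 18, 5, 13, 10, 3, 4, 17, 22, 6, 12, 20, 15, 8, 7, 9, 19, 21, 14, 23, 11],
   [0, 1, 2, 18, 3, 22, 4, 21, 12, 9, 20, 5, 13, 16, 7, 23, 8, 14, 6, 11, 10, 17, 19, 15],
   [0, 1, 2, 18, 4, 7, 13, 19, 16, 3, 5, 21, 9, 8, 22, 17, 6, 15, 12, 10, 23, 11, 20, 14],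
   [0, 1, 2, 18, 6, 15, 8, 10, 4, 12, 17, 23, 16, 3, 14, 19, 9, 7, 13, 5, 20, 21, 11, 22],
   [0, 1, 2, 18, 8, 14, 16, 11, 3, 6, 23, 10, 12, 9, 15, 21, 13, 22, 4, 20, 19, 5, 17, 7],
   [0, 1, 2, 18, 9, 7, 3, 5, 6, 13, 19, 20, 4, 12, 22, 10, 16, 15, 8, 17, 11, 23, 21, 14],
   [0, 1, 2, 18, 12, 14, 6, 23, 13, 16, 11, 17, 8, 4, 15, 20, 3, 22, 9, 21, 5, 19, 10, 7],
   [0, 1, 2, 18, 13, 22, 9, 20, 8, 4, 21, 19, 3, 6, 7, 11, 12, 14, 16, 23, 17, 10, 5, 15],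
   [0, 1, 2, 18, 16, 15, 12, 17, 9, 8, 10, 11, 6, 13, 14, 5, 4, 7, 3, 19, 21, 20, 23, 22]]

/-- The tables of the elements of order dividing 3. -/
def nTab : List (List (List ℕ)) :=
  [[[0, 1, 2, 3, 4, 5, 6, 7, 8, 9, 10, 11, 12, 13, 14, 15, 16, 17, 18, 19, 20, 21, 22, 23],
    [0, 1, 2, 6, 16, 19, 9, 10, 12, 3, 17, 11, 18, 4, 21, 5, 13, 7, 8, 15, 14, 20, 22, 23],
    [0, 1, 2, 9, 13, 15, 3, 17, 18, 6, 7, 11, 8, 16, 20, 19, 4, 10, 12, 5, 21, 14, 22, 23]],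
   [[0, 1, 2, 4, 12, 15, 16, 7, 9, 13, 10, 22, 3, 8, 21, 19, 18, 17, 6, 5, 14, 20, 23, 11],
    [0, 1, 2, 16, 18, 5, 13, 10, 3, 4, 17, 22, 6, 12, 20, 15, 8, 7, 9, 19, 21, 14, 23, 11],
    [0, 1, 2, 13, 8, 19, 4, 17, 6, 16, 7, 22, 9, 18, 14, 5, 12, 10, 3, 15, 20, 21, 23, 11]],
   [[0, 1, 2, 12, 3, 19, 18, 7, 13, 8, 10, 23, 4, 9, 20, 5, 6, 17, 16, 15, 21, 14, 11, 22],
    [0, 1, 2, 18, 6, 15, 8, 10, 4, 12, 17, 23, 16, 3, 14, 19, 9, 7, 13, 5, 20, 21, 11, 22],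
    [0, 1, 2, 8, 9, 5, 12, 17, 16, 18, 7, 23, 13, 6, 21, 15, 3, 10, 4, 19, 14, 20, 11, 22]]]

/-- The tables of the powers of an element `A` of order 4. -/
def qA : List (List ℕ) :=
  [[0, 1, 2, 3, 4, 5, 6, 7, 8, 9, 10, 11, 12, 13, 14, 15, 16, 17, 18, 19, 20, 21, 22, 23],
   [0, 1, 2, 3, 6, 14, 12, 22, 13, 4, 11, 7, 9, 16, 5, 21, 18, 23, 8, 20, 15, 19, 10, 17],
   [0, 1, 2, 3, 12, 5, 9, 10, 16, 6, 7, 22, 4, 18, 14, 19, 8, 17, 13, 15, 21, 20, 11, 23],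
   [0, 1, 2, 3, 9, 14, 4, 11, 18, 12, 22, 10, 6, 8, 5, 20, 13, 23, 16, 21, 19, 15, 7, 17]]

/-- The tables of `X * A ^ i`. -/
def qX : List (List ℕ) :=
  [[0, 1, 2, 3, 8, 17, 18, 15, 12, 13, 19, 21, 16, 6, 23, 10, 4, 5, 9, 7, 11, 22, 20, 14],
   [0, 1, 2, 3, 18, 23, 16, 20, 6, 8, 21, 15, 13, 4, 17, 22, 9, 14, 12, 11, 10, 7, 19, 5],
   [0, 1, 2, 3, 16, 17, 13, 19, 4, 18, 15, 20, 8, 9, 23, 7, 12, 5, 6, 10, 22, 11, 21, 14],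
   [0, 1, 2, 3, 13, 23, 8, 21, 9, 16, 20, 19, 18, 12, 17, 11, 6, 14, 4, 22, 7, 10, 15, 5]]

/-- The table attached to a pair of residues modulo 3. -/
def tabN (v : Multiplicative (ZMod 3 × ZMod 3)) : List ℕ :=
  (nTab.getD (Multiplicative.toAdd v).1.val []).getD (Multiplicative.toAdd v).2.val idT

/-- The table attached to an element of the quaternion group. -/
def tabQ : QuaternionGroup 2 → List ℕ
  | .a i => qA.getD i.val idT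
  | .xa i => qX.getD i.val idT

/-- Membership test for `K0`. -/
def k0OK (T : List ℕ) : Bool :=
  memOK [340831] T && ([2, 1, 0] : List ℕ).all (fun c => decide (c < 24) && T.getD c 0 == c)

theorem els_ok : els.all k0OK = true := by decide +kernel

theorem els_nodup : els.Nodup := by decide +kernel

theorem mem_K0_of_mem {T : List ℕ} (hT : T ∈ els) : permOK T = true ∧ tperm T ∈ K0 := by
  have h := List.all_eq_true.mp els_ok T hT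
  rw [k0OK, Bool.and_eq_true] at h
  have h1 := tperm_mem_of_memOK h.1
  exact ⟨h1.1, h1.2, mem_fixing_of_fixOK h1.1 h.2⟩

theorem tabN_mem : ∀ v, tabN v ∈ els := by decide +kernel

theorem tabQ_mem : ∀ x, tabQ x ∈ els := by decide +kernel

theorem tabN_mul : ∀ v w, compT (tabN v) (tabN w) = tabN (v * w) := by decide +kernel

theorem tabQ_mul : ∀ x y, compT (tabQ x) (tabQ y) = tabQ (x * y) := by decide +kernel

theorem tabN_inj : ∀ v w, tabN v = tabN w → v = w := by decide +kernel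

theorem tabQ_inj : ∀ x y, tabQ x = tabQ y → x = y := by decide +kernel

theorem conj_ok : ∀ T ∈ els, ∀ v, ∃ v', compT (compT T (tabN v)) (invT T) = tabN v' := by
  decide +kernel

/-- The elementary abelian subgroup of order 9. -/
noncomputable def φ0 : Multiplicative (ZMod 3 × ZMod 3) →* ↥K0 :=
  MonoidHom.mk' (fun v => ⟨tperm (tabN v), (mem_K0_of_mem (tabN_mem v)).2⟩) (fun v w =>
    Subtype.ext (tperm_mul_eq (mem_K0_of_mem (tabN_mem v)).1 (mem_K0_of_mem (tabN_mem w)).1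
      (mem_K0_of_mem (tabN_mem (v * w))).1 (tabN_mul v w)).symm)

/-- The quaternion subgroup. -/
noncomputable def ψ0 : QuaternionGroup 2 →* ↥K0 :=
  MonoidHom.mk' (fun x => ⟨tperm (tabQ x), (mem_K0_of_mem (tabQ_mem x)).2⟩) (fun x y =>
    Subtype.ext (tperm_mul_eq (mem_K0_of_mem (tabQ_mem x)).1 (mem_K0_of_mem (tabQ_mem y)).1
      (mem_K0_of_mem (tabQ_mem (x * y))).1 (tabQ_mul x y)).symm)

theorem φ0_inj : Function.Injective φ0 := by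
  intro v w h
  have h1 : tperm (tabN v) = tperm (tabN w) := congrArg Subtype.val h
  exact tabN_inj v w (tperm_inj (mem_K0_of_mem (tabN_mem v)).1 (mem_K0_of_mem (tabN_mem w)).1 h1)

theorem ψ0_inj : Function.Injective ψ0 := by
  intro v w h
  have h1 : tperm (tabQ v) = tperm (tabQ w) := congrArg Subtype.val h
  exact tabQ_inj v w (tperm_inj (mem_K0_of_mem (tabQ_mem v)).1 (mem_K0_of_mem (tabQ_mem w)).1 h1)

theorem norm0 (g : ↥K0) (v : Multiplicative (ZMod 3 × ZMod 3)) :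
    ∃ v', g * φ0 v * g⁻¹ = φ0 v' := by
  obtain ⟨T, hT, hg⟩ := exists_table_of_card_le els els_nodup (fun T hT => mem_K0_of_mem hT)
    (le_of_eq card_M9) g.1 g.2
  obtain ⟨v', hv'⟩ := conj_ok T hT v
  refine ⟨v', Subtype.ext ?_⟩
  show g.1 * tperm (tabN v) * g.1⁻¹ = tperm (tabN v')
  rw [hg]
  exact tperm_conj_eq (mem_K0_of_mem (tabN_mem v)).1 (mem_K0_of_mem hT).1
    (mem_K0_of_mem (tabN_mem v')).1 hv'

theorem K0_le : K0 ≤ M24 := inf_le_left.trans inf_le_left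

theorem mem_iff {d : Finset GolayPt} {p q r : GolayPt} {x : Equiv.Perm GolayPt}
    (hxd : x • support₂ (dec 340831) = d) (hxp : x (pt 0) = p) (hxq : x (pt 1) = q)
    (hxr : x (pt 2) = r) (hx : x ∈ M24) (g : ↥M24) :
    g ∈ MulAction.stabilizer ↥M24 d ⊓ MulAction.stabilizer ↥M24 p ⊓ MulAction.stabilizer ↥M24 q ⊓
      MulAction.stabilizer ↥M24 r ↔ x⁻¹ * (g : Equiv.Perm GolayPt) * x ∈ K0 := by
  have hfix : ∀ i : ℕ, (x⁻¹ * (g : Equiv.Perm GolayPt) * x) (pt i) = pt i ↔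
      (g : Equiv.Perm GolayPt) (x (pt i)) = x (pt i) := by
    intro i
    rw [Equiv.Perm.mul_apply, Equiv.Perm.mul_apply, Equiv.Perm.inv_eq_iff_eq]
  constructor
  · rintro ⟨⟨⟨h1, h2⟩, h3⟩, h4⟩
    have h1' : (g : Equiv.Perm GolayPt) • d = d := h1
    have h2' : (g : Equiv.Perm GolayPt) p = p := h2
    have h3' : (g : Equiv.Perm GolayPt) q = q := h3
    have h4' : (g : Equiv.Perm GolayPt) r = r := h4
    refine ⟨⟨(conj_mem_M24_iff hx _).mpr g.2, fun D hD => ?_⟩, fun i hi => ?_⟩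
    · rw [List.mem_singleton] at hD
      rw [hD, conj_smul_eq_iff, hxd]
      exact h1'
    · rw [hfix]
      simp only [List.mem_cons, List.not_mem_nil, or_false] at hi
      rcases hi with rfl | rfl | rfl
      · rw [hxr]; exact h4'
      · rw [hxq]; exact h3'
      · rw [hxp]; exact h2'
  · rintro ⟨⟨-, h1⟩, h2⟩
    have h1' := h1 340831 List.mem_cons_self
    rw [conj_smul_eq_iff, hxd] at h1'
    have hp' := (hfix 0).mp (h2 0 (by simp))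
    have hq' := (hfix 1).mp (h2 1 (by simp))
    have hr' := (hfix 2).mp (h2 2 (by simp))
    rw [hxp] at hp'
    rw [hxq] at hq'
    rw [hxr] at hr'
    exact ⟨⟨⟨h1', hp'⟩, hq'⟩, hr'⟩


/-- In the group of the length-24 code, the subgroup fixing a dodecad setwise and three of its points individually (a group of order 72) has a normal Sylow 3-subgroup that is elementary abelian of order 9, and its Sylow 2-subgroups are quaternion of order 8. -/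
theorem result (d : Finset Cfsg.GolayPt) (hd : d ∈ Cfsg.dodecads) (p q r : Cfsg.GolayPt) (hp : p ∈ d) (hq : q ∈ d) (hr : r ∈ d) (hpq : p ≠ q) (hpr : p ≠ r) (hqr : q ≠ r) : (∀ Q : Sylow 3 ↥(MulAction.stabilizer Cfsg.M24 d ⊓ MulAction.stabilizer Cfsg.M24 p ⊓ MulAction.stabilizer Cfsg.M24 q ⊓ MulAction.stabilizer Cfsg.M24 r), (Q : Subgroup ↥(MulAction.stabilizer Cfsg.M24 d ⊓ MulAction.stabilizer Cfsg.M24 p ⊓ MulAction.stabilizer Cfsg.M24 q ⊓ MulAction.stabilizer Cfsg.M24 r)).Normal ∧ Nat.card ↥Q = 9 ∧ ∀ x ∈ (Q : Subgroup ↥(MulAction.stabilizer Cfsg.M24 d ⊓ MulAction.stabilizer Cfsg.M24 p ⊓ MulAction.stabilizer Cfsg.M24 q ⊓ MulAction.stabilizer Cfsg.M24 r)), x ^ 3 = 1) ∧ ∀ P : Sylow 2 ↥(MulAction.stabilizer Cfsg.M24 d ⊓ MulAction.stabilizer Cfsg.M24 p ⊓ MulAction.stabilizer Cfsg.M24 q ⊓ MulAction.stabilizer Cfsg.M24 r), Nonempty (↥P ≃* QuaternionGroup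 2) := by
  obtain ⟨x, hx, hxd, hxp, hxq, hxr⟩ := exists_dodecad_three hd hp hq hr hpq hpr hqr
  let e := transportEquiv hx K0_le (mem_iff hxd hxp hxq hxr hx)
  have hcard : Nat.card ↥(MulAction.stabilizer Cfsg.M24 d ⊓ MulAction.stabilizer Cfsg.M24 p ⊓
      MulAction.stabilizer Cfsg.M24 q ⊓ MulAction.stabilizer Cfsg.M24 r) = 72 :=
    (Nat.card_congr e.toEquiv).trans card_M9
  refine sylow_struct72 hcard (e.symm.toMonoidHom.comp φ0) (e.symm.injective.comp φ0_inj) ?_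
    (e.symm.toMonoidHom.comp ψ0) (e.symm.injective.comp ψ0_inj)
  intro g v
  obtain ⟨v', hv'⟩ := norm0 (e g) v
  refine ⟨v', e.injective ?_⟩
  simp only [MonoidHom.coe_comp, MulEquiv.coe_toMonoidHom, Function.comp_apply, map_mul, map_inv,
    MulEquiv.apply_symm_apply]
  exact hv'

end Cfsg.Agent.S5619
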