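import Cfsg.Statements.S5620
import Cfsg.Agent.Lib.Helper95.M24Tab

set_option autoImplicit false
open scoped Pointwise
open Cfsg

namespace Cfsg.Agent.S5620

open Cfsg.Agent.Lib.Helper9 Cfsg.Agent.Lib.Helper95

/-- Table of `x ↦ 2 x`. -/
def m2T : List ℕ :=
  [0, 2, 4, 6, 8, 10, 12, 14, 16, 18, 20, 22, 1, 3, 5, 7, 9, 11, 13, 15, 17, 19, 21, 23]

/-- Table of an element fixing the dodecad of squares and `0`, and moving the extra point. -/
def fT : List ℕ :=
  [0, 18, 16, 8, 2, 7, 3, 20, 4, 12, 22, 21, 9, 1, 11, 23, 6, 15, 13, 19, 14, 5, 10, 17]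

theorem smul_compl_eq_iff (x : Equiv.Perm GolayPt) (D : Finset GolayPt) :
    x • (Finset.univ \ D) = Finset.univ \ D ↔ x • D = D := by
  rw [Finset.smul_finset_sdiff, Finset.smul_finset_univ, ← Finset.compl_eq_univ_sdiff,
    ← Finset.compl_eq_univ_sdiff, compl_inj_iff]

theorem conj_M11 {g : Equiv.Perm GolayPt} (hg : g ∈ M24)
    (hD : g • Spor.squareDodecad = Finset.univ \ Spor.squareDodecad)
    (h0 : g (some 0) = none) :
    MulAut.conj g • Spor.M11 =
      Spor.M12 ⊓ MulAction.stabilizer (Equiv.Perm GolayPt) (none : GolayPt) := by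
  ext x
  rw [Subgroup.mem_pointwise_smul_iff_inv_smul_mem]
  have e : (MulAut.conj g)⁻¹ • x = g⁻¹ * x * g := by
    rw [MulAut.smul_def, MulAut.conj_inv_apply]
  rw [e]
  have hginv : g⁻¹ ∈ M24 := M24.inv_mem hg
  have a1 : g⁻¹ * x * g ∈ M24 ↔ x ∈ M24 := by
    constructor
    · intro h
      have := M24.mul_mem (M24.mul_mem hg h) hginv
      simpa [mul_assoc] using this
    · intro h
      exact M24.mul_mem (M24.mul_mem hginv h) hg
  have a2 : (g⁻¹ * x * g) • Spor.squareDodecad = Spor.squareDodecad ↔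
      x • Spor.squareDodecad = Spor.squareDodecad := by
    rw [mul_smul, mul_smul, hD, inv_smul_eq_iff, hD, smul_compl_eq_iff]
  have a3 : (g⁻¹ * x * g) • (some 0 : GolayPt) = some 0 ↔ x • (none : GolayPt) = none := by
    rw [mul_smul, mul_smul, inv_smul_eq_iff]
    simp only [Equiv.Perm.smul_def, h0]
  exact and_congr (and_congr a1 a2) a3

theorem projInv_smul_D : projInv • Spor.squareDodecad = Finset.univ \ Spor.squareDodecad := by
  decide +kernel

theorem m2_ok : permOK m2T = true := by decide +kernel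
theorem f_ok : permOK fT = true := by decide +kernel

theorem m2_mem : tperm m2T ∈ Spor.M11 := by
  refine ⟨⟨tperm_mem_M24 m2_ok (by decide +kernel), ?_⟩, ?_⟩
  · show tperm m2T • Spor.squareDodecad = Spor.squareDodecad
    rw [squareDodecad_eq, smul_support₂_dec (hasTable_tperm m2_ok)]
    have e : push m2T 340831 = 340831 := by decide +kernel
    rw [e]
  · show tperm m2T (some 0 : GolayPt) = some 0
    rw [tperm_apply m2_ok]
    decide +kernel

theorem f_mem : tperm fT ∈ Spor.M11 := by
  refine ⟨⟨tperm_mem_M24 f_ok (by decide +kernel), ?_⟩, ?_⟩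
  · show tperm fT • Spor.squareDodecad = Spor.squareDodecad
    rw [squareDodecad_eq, smul_support₂_dec (hasTable_tperm f_ok)]
    have e : push fT 340831 = 340831 := by decide +kernel
    rw [e]
  · show tperm fT (some 0 : GolayPt) = some 0
    rw [tperm_apply f_ok]
    decide +kernel

theorem m2_fix : ∀ t : GolayPt, pt (m2T.getD (idx t) 0) = t → t = some 0 ∨ t = none := by
  decide +kernel

theorem f_none : pt (fT.getD (idx (none : GolayPt)) 0) ≠ none := by decide +kernel

theorem zero_mem_D : (some 0 : GolayPt) ∈ Spor.squareDodecad := by decide +kernel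

theorem none_not_mem_D : (none : GolayPt) ∉ Spor.squareDodecad := by decide +kernel

/-- Inside the stabiliser of the dodecad of squares (a Mathieu group of degree 12), the stabiliser of the residue 0 (a point of the dodecad) and the stabiliser of the extra point (a point outside the dodecad) are isomorphic but not conjugate; conjugation by a suitable element of the code's group that maps the dodecad of squares onto its complement carries the first onto the second. -/
theorem result : Nonempty (↥(Cfsg.Spor.M12 ⊓ MulAction.stabilizer (Equiv.Perm Cfsg.GolayPt) (none : Cfsg.GolayPt)) ≃* ↥Cfsg.Spor.M11) ∧ (¬ ∃ k ∈ Cfsg.Spor.M12, MulAut.conj k • Cfsg.Spor.M11 = Cfsg.Spor.M12 ⊓ MulAction.stabilizer (Equiv.Perm Cfsg.GolayPt) (none : Cfsg.GolayPt)) ∧ ∃ g ∈ Cfsg.M24, g • Cfsg.Spor.squareDodecad = Finset.univ \ Cfsg.Spor.squareDodecad ∧ MulAut.conj g • Cfsg.Spor.M11 = Cfsg.Spor.M12 ⊓ MulAction.stabilizer (Equiv.Perm Cfsg.GolayPt) (none : Cfsg.GolayPt) := by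
  have hc := conj_M11 projInv_mem projInv_smul_D rfl
  refine ⟨⟨((Subgroup.equivSMul (MulAut.conj projInv) Spor.M11).trans
    (MulEquiv.subgroupCongr hc)).symm⟩, ?_, projInv, projInv_mem, projInv_smul_D, hc⟩
  rintro ⟨k, hk, hkeq⟩
  -- every element of M11 fixes t = k⁻¹ none
  have hfix : ∀ y ∈ Spor.M11, y (k⁻¹ (none : GolayPt)) = k⁻¹ (none : GolayPt) := by
    intro y hy
    have h1 : k * y * k⁻¹ ∈ MulAut.conj k • Spor.M11 := by
      rw [Subgroup.mem_pointwise_smul_iff_inv_smul_mem, MulAut.smul_def, MulAut.conj_inv_apply]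
      simpa [mul_assoc] using hy
    rw [hkeq] at h1
    have h2 : (k * y * k⁻¹) (none : GolayPt) = none := h1.2
    have h3 : k (y (k⁻¹ (none : GolayPt))) = none := by simpa [Equiv.Perm.mul_apply] using h2
    rw [Equiv.Perm.eq_inv_iff_eq]
    exact h3
  have hkD : k • Spor.squareDodecad = Spor.squareDodecad := hk.2
  have ht : k⁻¹ (none : GolayPt) ∉ Spor.squareDodecad := by
    intro hmem
    have h1 : k • (k⁻¹ (none : GolayPt)) ∈ k • Spor.squareDodecad :=
      Finset.smul_mem_smul_finset hmem
    rw [hkD, Equiv.Perm.smul_def, ← Equiv.Perm.mul_apply, mul_inv_cancel, Equiv.Perm.one_apply] at h1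
    exact none_not_mem_D h1
  have h1 := hfix _ m2_mem
  rw [tperm_apply m2_ok] at h1
  rcases m2_fix _ h1 with h0 | h0
  · rw [h0] at ht
    exact ht zero_mem_D
  · have h2 := hfix _ f_mem
    rw [h0, tperm_apply f_ok] at h2
    exact f_none h2

end Cfsg.Agent.S5620
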