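import Cfsg.Statements.S5623
import Cfsg.Agent.Lib.Helper95.Golay2

set_option autoImplicit false
open Cfsg

namespace Cfsg.Agent.S5623

/-- Let C be a self-dual binary code of length 24 with minimum weight at least 8 (a 12-dimensional subspace of the 24-dimensional space over the field with two elements, any two of whose words have dot product zero, with no non-zero word of weight below 8 — an abstract extended binary Golay code). Then every coset w + C of C in the ambient space contains either exactly one word of weight at most 4, which then has weight at most 3, or exactly six words of weight at most 4, all of weight exactly 4 and with pairwise disjoint supports (a sextet). -/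
theorem result (C : Submodule (ZMod 2) (Fin 24 → ZMod 2)) (hdim : Module.finrank (ZMod 2) C = 12) (horth : ∀ v ∈ C, ∀ w ∈ C, ∑ i, v i * w i = 0) (hmin : ∀ w ∈ C, w ≠ 0 → 8 ≤ hammingNorm w) (w : Fin 24 → ZMod 2) : (∃ u : Fin 24 → ZMod 2, {u : Fin 24 → ZMod 2 | u - w ∈ C ∧ hammingNorm u ≤ 4} = {u} ∧ hammingNorm u ≤ 3) ∨ ({u : Fin 24 → ZMod 2 | u - w ∈ C ∧ hammingNorm u ≤ 4}.ncard = 6 ∧ ∀ u ∈ {u : Fin 24 → ZMod 2 | u - w ∈ C ∧ hammingNorm u ≤ 4}, hammingNorm u = 4 ∧ ∀ u' ∈ {u : Fin 24 → ZMod 2 | u - w ∈ C ∧ hammingNorm u ≤ 4}, u ≠ u' → Disjoint (Finset.univ.filter fun i => u i ≠ 0) (Finset.univ.filter fun i => u' i ≠ 0)) := by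
  have h : Cfsg.Agent.Lib.Helper95.IsGolay C := ⟨hdim, horth, hmin⟩
  exact h.coset_leaders w

end Cfsg.Agent.S5623
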