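import Cfsg.Statements.S5625
import Cfsg.Agent.Lib.Helper95.Steiner

set_option autoImplicit false
open scoped Pointwise
open Cfsg

namespace Cfsg.Agent.S5625

open Finset in
theorem count_aux {α : Type*} [Fintype α] [DecidableEq α] (hα : Fintype.card α = 24)
    (B : Finset (Finset α)) (hB : Cfsg.IsSteinerSystem 5 8 (B : Set (Finset α)))
    (Y : Finset α) (hY : Y.card = 3) (i : ℕ) (hi : i ≤ 3) :
    ∑ b ∈ B, ((b ∩ Y).card).choose i * (8 - i).choose (5 - i)
      = (3).choose i * (24 - i).choose (5 - i) := by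
  classical
  have key : ∀ T ∈ Y.powersetCard i, (B.filter (fun b => T ⊆ b)).card * (8 - i).choose (5 - i)
      = (24 - i).choose (5 - i) := by
    intro T hT
    rw [Finset.mem_powersetCard] at hT
    have := Cfsg.Agent.Lib.Helper95.steiner_blocks_through 5 8 B hB T (by omega)
    rw [hT.2, hα] at this
    exact this
  have e1 : ∀ b ∈ B, ((b ∩ Y).card).choose i
      = ∑ T ∈ Y.powersetCard i, (if T ⊆ b then 1 else 0) := by
    intro b _
    rw [← Finset.card_powersetCard, Finset.card_eq_sum_ones, ← Finset.sum_filter]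
    apply Finset.sum_congr _ (fun _ _ => rfl)
    ext T
    simp only [Finset.mem_filter, Finset.mem_powersetCard, Finset.subset_inter_iff]
    tauto
  rw [← Finset.sum_mul, Finset.sum_congr rfl e1, Finset.sum_comm, Finset.sum_mul]
  have e2 : ∀ T ∈ Y.powersetCard i, (∑ b ∈ B, (if T ⊆ b then 1 else 0)) * (8 - i).choose (5 - i)
      = (24 - i).choose (5 - i) := by
    intro T hT
    rw [← key T hT, Finset.card_eq_sum_ones, ← Finset.sum_filter]
  rw [Finset.sum_congr rfl e2, Finset.sum_const, Finset.card_powersetCard, hY, smul_eq_mul]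

theorem fiber_aux {α : Type*} [DecidableEq α]
    (B : Finset (Finset α)) (Y : Finset α) (hY : Y.card = 3) (f : ℕ → ℕ) :
    ∑ b ∈ B, f (b ∩ Y).card
      = (B.filter (fun b => (b ∩ Y).card = 0)).card * f 0
        + (B.filter (fun b => (b ∩ Y).card = 1)).card * f 1
        + (B.filter (fun b => (b ∩ Y).card = 2)).card * f 2
        + (B.filter (fun b => (b ∩ Y).card = 3)).card * f 3 := by
  have h : ∑ b ∈ B, f (b ∩ Y).card
      = ∑ j ∈ Finset.range 4, (B.filter (fun b => (b ∩ Y).card = j)).card * f j := by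
    rw [← Finset.sum_fiberwise_of_maps_to (s := B) (t := Finset.range 4) (g := fun b => (b ∩ Y).card)]
    · apply Finset.sum_congr rfl
      intro j _
      rw [Finset.sum_congr rfl (fun b hb => by rw [(Finset.mem_filter.mp hb).2] : ∀ b ∈ B.filter (fun b => (b ∩ Y).card = j), f (b ∩ Y).card = f j)]
      rw [Finset.sum_const, smul_eq_mul]
    · intro b _
      rw [Finset.mem_range]
      have := Finset.card_le_card (Finset.inter_subset_right (s₁ := b) (s₂ := Y))
      omega
  rw [h, Finset.sum_range_succ, Finset.sum_range_succ, Finset.sum_range_succ, Finset.sum_range_one]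

/-- In any Steiner system S(5, 8, 24) and for any set Y of three points, the blocks meeting Y in exactly 3, 2, 1 and 0 points number 21, 168, 360 and 210 respectively (so there are 759 blocks in all). -/
theorem result (α : Type*) [Fintype α] [DecidableEq α] (hα : Fintype.card α = 24) (B : Set (Finset α)) (hB : Cfsg.IsSteinerSystem 5 8 B) (Y : Finset α) (hY : Y.card = 3) : {b : Finset α | b ∈ B ∧ (b ∩ Y).card = 3}.ncard = 21 ∧ {b : Finset α | b ∈ B ∧ (b ∩ Y).card = 2}.ncard = 168 ∧ {b : Finset α | b ∈ B ∧ (b ∩ Y).card = 1}.ncard = 360 ∧ {b : Finset α | b ∈ B ∧ (b ∩ Y).card = 0}.ncard = 210 := by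
  classical
  set Bf : Finset (Finset α) := Finset.univ.filter (fun b => b ∈ B) with hBf
  have hcoe : (Bf : Set (Finset α)) = B := by
    ext b; simp [hBf]
  have hB' : Cfsg.IsSteinerSystem 5 8 (Bf : Set (Finset α)) := by rw [hcoe]; exact hB
  have hn : ∀ j : ℕ, {b : Finset α | b ∈ B ∧ (b ∩ Y).card = j}.ncard
      = (Bf.filter (fun b => (b ∩ Y).card = j)).card := by
    intro j
    rw [← Set.ncard_coe_finset]
    congr 1
    ext b
    simp [hBf]
  rw [hn 3, hn 2, hn 1, hn 0]
  have h0 := count_aux hα Bf hB' Y hY 0 (by norm_num)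
  have h1 := count_aux hα Bf hB' Y hY 1 (by norm_num)
  have h2 := count_aux hα Bf hB' Y hY 2 (by norm_num)
  have h3 := count_aux hα Bf hB' Y hY 3 (by norm_num)
  have f0 := fiber_aux Bf Y hY (fun j => j.choose 0 * (8 - 0).choose (5 - 0))
  have f1 := fiber_aux Bf Y hY (fun j => j.choose 1 * (8 - 1).choose (5 - 1))
  have f2 := fiber_aux Bf Y hY (fun j => j.choose 2 * (8 - 2).choose (5 - 2))
  have f3 := fiber_aux Bf Y hY (fun j => j.choose 3 * (8 - 3).choose (5 - 3))
  beta_reduce at f0 f1 f2 f3
  rw [f0] at h0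
  rw [f1] at h1
  rw [f2] at h2
  rw [f3] at h3
  have c00 : Nat.choose 0 0 = 1 := by decide
  have c10 : Nat.choose 1 0 = 1 := by decide
  have c20 : Nat.choose 2 0 = 1 := by decide
  have c30 : Nat.choose 3 0 = 1 := by decide
  have c01 : Nat.choose 0 1 = 0 := by decide
  have c11 : Nat.choose 1 1 = 1 := by decide
  have c21 : Nat.choose 2 1 = 2 := by decide
  have c31 : Nat.choose 3 1 = 3 := by decide
  have c02 : Nat.choose 0 2 = 0 := by decide
  have c12 : Nat.choose 1 2 = 0 := by decide
  have c22 : Nat.choose 2 2 = 1 := by decide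
  have c32 : Nat.choose 3 2 = 3 := by decide
  have c03 : Nat.choose 0 3 = 0 := by decide
  have c13 : Nat.choose 1 3 = 0 := by decide
  have c23 : Nat.choose 2 3 = 0 := by decide
  have c33 : Nat.choose 3 3 = 1 := by decide
  have d0 : (8 - 0).choose (5 - 0) = 56 := by decide
  have d1 : (8 - 1).choose (5 - 1) = 35 := by decide
  have d2 : (8 - 2).choose (5 - 2) = 20 := by decide
  have d3 : (8 - 3).choose (5 - 3) = 10 := by decide
  have e0 : (24 - 0).choose (5 - 0) = 42504 := by
    norm_num [Nat.choose_eq_factorial_div_factorial, Nat.factorial]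
  have e1 : (24 - 1).choose (5 - 1) = 8855 := by
    norm_num [Nat.choose_eq_factorial_div_factorial, Nat.factorial]
  have e2 : (24 - 2).choose (5 - 2) = 1540 := by
    norm_num [Nat.choose_eq_factorial_div_factorial, Nat.factorial]
  have e3 : (24 - 3).choose (5 - 3) = 210 := by
    norm_num [Nat.choose_eq_factorial_div_factorial, Nat.factorial]
  rw [c00, c10, c20, c30, d0, e0] at h0
  rw [c01, c11, c21, c31, d1, e1] at h1
  rw [c02, c12, c22, c32, d2, e2] at h2
  rw [c03, c13, c23, c33, d3, e3] at h3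
  omega

end Cfsg.Agent.S5625
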