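import Cfsg.Statements.S5632
import Cfsg.Agent.Lib.Helper95.Transv

set_option autoImplicit false
open Cfsg

namespace Cfsg.Agent.S5632

/-- For a finite field F and subspaces 0 < W < U of F^n with dim W + dim U = n, the elements of SL_n(F) stabilising both W and U form a subgroup that is not maximal in SL_n(F): some subgroup lies strictly between it and SL_n(F). -/
theorem result {F : Type*} [Field F] [Fintype F] (n : ℕ) (W U : Submodule F (Fin n → F)) (hW0 : W ≠ ⊥) (hWU : W < U) (hdim : Module.finrank F W + Module.finrank F U = n) : ∃ K : Subgroup (Matrix.GeneralLinearGroup (Fin n) F), Cfsg.Geo.subspaceStabilizer W ⊓ Cfsg.Geo.subspaceStabilizer U ⊓ Cfsg.Geo.specialLinear (Fin n) F < K ∧ K < Cfsg.Geo.specialLinear (Fin n) F := by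
  classical
  have hUtop : U ≠ ⊤ := by
    intro h
    rw [h, finrank_top, Module.finrank_fin_fun] at hdim
    have : Module.finrank F W = 0 := by omega
    exact hW0 (Submodule.finrank_eq_zero.mp this)
  obtain ⟨u, huU, huW⟩ := SetLike.exists_of_lt hWU
  obtain ⟨v, hv⟩ : ∃ v, v ∉ U := by
    by_contra h
    push Not at h
    exact hUtop (eq_top_iff.mpr (fun x _ => h x))
  obtain ⟨w, hwW, hw0⟩ := Submodule.exists_mem_ne_zero_of_ne_bot hW0
  have hvW : v ∉ W := fun h => hv (hWU.le h)
  -- first element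
  have hu' : u ∉ W ⊔ Submodule.span F {v} := by
    intro h
    obtain ⟨w', hw', z, hz, rfl⟩ := Submodule.mem_sup.mp h
    obtain ⟨c, rfl⟩ := Submodule.mem_span_singleton.mp hz
    by_cases hc : c = 0
    · rw [hc, zero_smul, add_zero] at huW
      exact huW hw'
    · have h1 : c • v ∈ U := by
        have := U.sub_mem huU (hWU.le hw')
        rwa [add_sub_cancel_left] at this
      have h2 : c⁻¹ • (c • v) ∈ U := U.smul_mem _ h1
      rw [smul_smul, inv_mul_cancel₀ hc, one_smul] at h2
      exact hv h2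
  obtain ⟨g1, hg1S, hg1fix, hg1u⟩ := Cfsg.Agent.Lib.Helper95.exists_transvection
    (W ⊔ Submodule.span F {v}) v u
    (Submodule.mem_sup_right (Submodule.mem_span_singleton_self v)) hu'
  have hg1W : g1 ∈ Cfsg.Geo.subspaceStabilizer W :=
    Cfsg.Agent.Lib.Helper95.mem_subspaceStabilizer_of_fix W g1
      (fun y hy => hg1fix y (Submodule.mem_sup_left hy))
  have hg1U : g1 ∉ Cfsg.Geo.subspaceStabilizer U := by
    apply Cfsg.Agent.Lib.Helper95.not_mem_subspaceStabilizer U g1 u huU
    rw [hg1u]
    intro h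
    have := U.sub_mem h huU
    rw [add_sub_cancel_left] at this
    exact hv this
  -- second element
  have hw' : w ∉ Submodule.span F {v} := by
    intro h
    obtain ⟨c, rfl⟩ := Submodule.mem_span_singleton.mp h
    have hc : c ≠ 0 := by
      rintro rfl
      exact hw0 (zero_smul _ _)
    have h2 : c⁻¹ • (c • v) ∈ W := W.smul_mem _ hwW
    rw [smul_smul, inv_mul_cancel₀ hc, one_smul] at h2
    exact hvW h2
  obtain ⟨g2, hg2S, _, hg2w⟩ := Cfsg.Agent.Lib.Helper95.exists_transvection
    (Submodule.span F {v}) v w (Submodule.mem_span_singleton_self v) hw'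
  have hg2W : g2 ∉ Cfsg.Geo.subspaceStabilizer W := by
    apply Cfsg.Agent.Lib.Helper95.not_mem_subspaceStabilizer W g2 w hwW
    rw [hg2w]
    intro h
    have := W.sub_mem h hwW
    rw [add_sub_cancel_left] at this
    exact hvW this
  refine ⟨Cfsg.Geo.subspaceStabilizer W ⊓ Cfsg.Geo.specialLinear (Fin n) F, ?_, ?_⟩
  · rw [SetLike.lt_iff_le_and_exists]
    refine ⟨inf_le_inf inf_le_left le_rfl, g1, ⟨hg1W, hg1S⟩, ?_⟩
    intro h
    exact hg1U h.1.2
  · rw [SetLike.lt_iff_le_and_exists]
    refine ⟨inf_le_right, g2, hg2S, ?_⟩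
    intro h
    exact hg2W h.1

end Cfsg.Agent.S5632
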