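import Cfsg.Statements.S5633
import Cfsg.Agent.Lib.Helper95.Transv

set_option autoImplicit false
open Cfsg

namespace Cfsg.Agent.S5633

/-- For a finite field F and complementary non-zero subspaces W ⊕ U = F^n with dim W < dim U, the elements of SL_n(F) stabilising both W and U form a subgroup that is not maximal in SL_n(F): some subgroup lies strictly between it and SL_n(F). -/
theorem result {F : Type*} [Field F] [Fintype F] (n : ℕ) (W U : Submodule F (Fin n → F)) (hW0 : W ≠ ⊥) (hWU : W ⊓ U = ⊥) (hWU' : W ⊔ U = ⊤) (hdim : Module.finrank F W < Module.finrank F U) : ∃ K : Subgroup (Matrix.GeneralLinearGroup (Fin n) F), Cfsg.Geo.subspaceStabilizer W ⊓ Cfsg.Geo.subspaceStabilizer U ⊓ Cfsg.Geo.specialLinear (Fin n) F < K ∧ K < Cfsg.Geo.specialLinear (Fin n) F := by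
  classical
  obtain ⟨w, hwW, hw0⟩ := Submodule.exists_mem_ne_zero_of_ne_bot hW0
  have hU0 : U ≠ ⊥ := by
    intro h
    rw [h, finrank_bot] at hdim
    omega
  obtain ⟨u, huU, hu0⟩ := Submodule.exists_mem_ne_zero_of_ne_bot hU0
  have hwU : w ∉ U := by
    intro h
    have : w ∈ W ⊓ U := ⟨hwW, h⟩
    rw [hWU, Submodule.mem_bot] at this
    exact hw0 this
  have huW : u ∉ W := by
    intro h
    have : u ∈ W ⊓ U := ⟨h, huU⟩
    rw [hWU, Submodule.mem_bot] at this
    exact hu0 this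
  obtain ⟨g1, hg1S, hg1fix, hg1w⟩ := Cfsg.Agent.Lib.Helper95.exists_transvection U u w huU hwU
  have hg1U : g1 ∈ Cfsg.Geo.subspaceStabilizer U :=
    Cfsg.Agent.Lib.Helper95.mem_subspaceStabilizer_of_fix U g1 hg1fix
  have hg1W : g1 ∉ Cfsg.Geo.subspaceStabilizer W := by
    apply Cfsg.Agent.Lib.Helper95.not_mem_subspaceStabilizer W g1 w hwW
    rw [hg1w]
    intro h
    have := W.sub_mem h hwW
    rw [add_sub_cancel_left] at this
    exact huW this
  obtain ⟨g2, hg2S, _, hg2u⟩ := Cfsg.Agent.Lib.Helper95.exists_transvection W w u hwW huW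
  have hg2U : g2 ∉ Cfsg.Geo.subspaceStabilizer U := by
    apply Cfsg.Agent.Lib.Helper95.not_mem_subspaceStabilizer U g2 u huU
    rw [hg2u]
    intro h
    have := U.sub_mem h huU
    rw [add_sub_cancel_left] at this
    exact hwU this
  refine ⟨Cfsg.Geo.subspaceStabilizer U ⊓ Cfsg.Geo.specialLinear (Fin n) F, ?_, ?_⟩
  · rw [SetLike.lt_iff_le_and_exists]
    refine ⟨inf_le_inf inf_le_right le_rfl, g1, ⟨hg1U, hg1S⟩, ?_⟩
    intro h
    exact hg1W h.1.1
  · rw [SetLike.lt_iff_le_and_exists]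
    refine ⟨inf_le_right, g2, hg2S, ?_⟩
    intro h
    exact hg2U h.1

end Cfsg.Agent.S5633
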