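-- Statement S5634 (row 5634): the theorem Cfsg.cmax_linear_decomposition_stabilizer_maximal.
-- Proof (helper65, with helper61 for blocks of dimension at least 2): the case m = 1 (monomial
-- group, q ≥ 5) is `Cfsg.Agent.Lib.Helper65.Mono.s5634_mono` (notes 1277, 1316; pieces by
-- helpers 5, 12, 13, 16, 18, 19, 21, 32, 34, 52, 58, 82, 86, 87); the case m ≥ 2 is
-- `Cfsg.Agent.Lib.Helper61.Blk.s5634_m2` (notes 1278, 1443).
import Cfsg.Statements.S5634
import Cfsg.Agent.Lib.Helper65.MonoMain
import Cfsg.Agent.Lib.Helper61.BlkMain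

set_option autoImplicit false
open Cfsg

namespace Cfsg.Agent.S5634

/-- For a finite field F with q elements and n ≥ 13, let D be a decomposition of F^n into t ≥ 2 independent subspaces of equal dimension m ≥ 1 spanning F^n. Unless m = 1 and q ≤ 4, or m = 2 and q = 2, the elements of SL_n(F) permuting the members of D form a maximal subgroup of SL_n(F). -/
theorem result {F : Type*} [Field F] [Fintype F] (n : ℕ) (hn : 13 ≤ n) {t : ℕ} (m : ℕ) (D : Fin t → Submodule F (Fin n → F)) (hD : Cfsg.Geo.IsMDecomposition m D) (h1 : ¬ (m = 1 ∧ Fintype.card F ≤ 4)) (h2 : ¬ (m = 2 ∧ Fintype.card F = 2)) : Cfsg.Geo.IsMaximalIn (Cfsg.Geo.specialLinear (Fin n) F) (Cfsg.Geo.decompositionStabilizer D ⊓ Cfsg.Geo.specialLinear (Fin n) F) := by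
  have hpos := hD.pos
  rcases Nat.lt_or_ge m 2 with hm | hm
  · have hm1 : m = 1 := by omega
    subst hm1
    have hq : 5 ≤ Fintype.card F := by
      by_contra h
      exact h1 ⟨rfl, by omega⟩
    exact Cfsg.Agent.Lib.Helper65.Mono.s5634_mono n hn D hD hq
  · refine Cfsg.Agent.Lib.Helper61.Blk.s5634_m2 n hn m hm D hD ?_
    intro hm2
    have h2' : Fintype.card F ≠ 2 := fun h => h2 ⟨hm2, h⟩
    have : 1 < Fintype.card F := Fintype.one_lt_card
    omega

end Cfsg.Agent.S5634
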