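import Cfsg.Statements.S5635
import Mathlib
import Cfsg.Agent.Lib.Helper97.Transv

set_option autoImplicit false
open Cfsg

namespace Cfsg.Agent.S5635

open Cfsg.Agent.Lib.Helper97 Module Matrix

/-- The elements of a subgroup `S` of `GL` preserving a function `Q`. -/
def stabQ {ι : Type} {F : Type*} [Field F] [Fintype ι] [DecidableEq ι] (S : Subgroup (GL ι F))
    (Q : (ι → F) → F) : Subgroup (GL ι F) where
  carrier := {g | g ∈ S ∧ ∀ v, Q ((g : Matrix ι ι F) *ᵥ v) = Q v}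
  mul_mem' := fun {a b} ha hb => ⟨S.mul_mem ha.1 hb.1, fun v => by
    rw [Units.val_mul, ← Matrix.mulVec_mulVec, ha.2, hb.2]⟩
  one_mem' := ⟨S.one_mem, fun v => by simp⟩
  inv_mem' := fun {a} ha => ⟨S.inv_mem ha.1, fun v => by
    have h := ha.2 (((a⁻¹ : GL ι F) : Matrix ι ι F) *ᵥ v)
    rw [Matrix.mulVec_mulVec, ← Units.val_mul, mul_inv_cancel, Units.val_one, Matrix.one_mulVec] at h
    exact h.symm⟩

section Generic

variable {F : Type*} [Field F] {n t : ℕ}

/-- The sum of the members of `D` other than `D j`. -/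
def Cc (D : Fin t → Submodule F (Fin n → F)) (j : Fin t) : Submodule F (Fin n → F) :=
  ⨆ (i : Fin t) (_ : i ≠ j), D i

open Classical in
/-- The number of non-zero components of a vector, as an element of `F`. -/
noncomputable def Nf (D : Fin t → Submodule F (Fin n → F)) (v : Fin n → F) : F :=
  ∑ j, if v ∈ Cc D j then 0 else 1

/-- The row vector of a linear functional. -/
def rowOf (ℓ : (Fin n → F) →ₗ[F] F) : Fin n → F := fun i => ℓ (fun j => if i = j then 1 else 0)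

theorem rowOf_dot (ℓ : (Fin n → F) →ₗ[F] F) (y : Fin n → F) : rowOf ℓ ⬝ᵥ y = ℓ y := by
  rw [LinearMap.pi_apply_eq_sum_univ ℓ y]
  unfold rowOf dotProduct
  apply Finset.sum_congr rfl
  intro i _
  rw [smul_eq_mul, mul_comm]

theorem Nf_stab (D : Fin t → Submodule F (Fin n → F)) (g : GL (Fin n) F)
    (hg : g ∈ Cfsg.Geo.decompositionStabilizer D) (v : Fin n → F) :
    Nf D ((g : Matrix (Fin n) (Fin n) F) *ᵥ v) = Nf D v := by
  classical
  obtain ⟨σ, hσ⟩ := hg
  have hmap : ∀ j, (Cc D j).map (Matrix.toLin' (g : Matrix (Fin n) (Fin n) F)) = Cc D (σ j) := by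
    intro j
    unfold Cc
    rw [Submodule.map_iSup]
    simp_rw [Submodule.map_iSup, hσ]
    apply le_antisymm
    · exact iSup₂_le fun i hi => le_iSup₂_of_le (σ i) (σ.injective.ne hi) le_rfl
    · refine iSup₂_le fun i hi => le_iSup₂_of_le (σ.symm i) ?_ ?_
      · intro h
        apply hi
        rw [← h, σ.apply_symm_apply]
      · rw [σ.apply_symm_apply]
  have hinv : ∀ x, ((g⁻¹ : GL (Fin n) F) : Matrix (Fin n) (Fin n) F) *ᵥ
      ((g : Matrix (Fin n) (Fin n) F) *ᵥ x) = x := by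
    intro x
    rw [Matrix.mulVec_mulVec, ← Units.val_mul, inv_mul_cancel, Units.val_one, Matrix.one_mulVec]
  have hiff : ∀ j, ((g : Matrix (Fin n) (Fin n) F) *ᵥ v ∈ Cc D (σ j)) ↔ v ∈ Cc D j := by
    intro j
    rw [← hmap j]
    constructor
    · rintro ⟨v', hv', hv'v⟩
      rw [Matrix.toLin'_apply] at hv'v
      have h3 := congrArg (fun x => ((g⁻¹ : GL (Fin n) F) : Matrix (Fin n) (Fin n) F) *ᵥ x) hv'v
      simp only [hinv] at h3
      rw [← h3]
      exact hv'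
    · intro hv
      exact ⟨v, hv, by rw [Matrix.toLin'_apply]⟩
  unfold Nf
  rw [← Equiv.sum_comp σ]
  apply Finset.sum_congr rfl
  intro j _
  simp only [hiff j]

variable {m : ℕ} (D : Fin t → Submodule F (Fin n → F))
  (b : Basis (Σ _ : Fin t, Fin m) F (Fin n → F))
  (hbm : ∀ a, b a ∈ D a.1)
  (hbne : ∀ (i j : Fin t), i ≠ j → ∀ (k : Fin m) (x : Fin n → F), x ∈ D i → b.repr x ⟨j, k⟩ = 0)

include hbm hbne in
theorem mem_Cc_iff (j : Fin t) (v : Fin n → F) : v ∈ Cc D j ↔ ∀ k, b.repr v ⟨j, k⟩ = 0 := by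
  constructor
  · intro hv k
    have h1 : Cc D j ≤ LinearMap.ker (b.coord ⟨j, k⟩) := by
      refine iSup₂_le (fun i hi x hx => ?_)
      rw [LinearMap.mem_ker, Basis.coord_apply]
      exact hbne i j hi k x hx
    have h3 := h1 hv
    rw [LinearMap.mem_ker, Basis.coord_apply] at h3
    exact h3
  · intro h
    rw [← b.sum_repr v]
    apply Submodule.sum_mem
    intro a _
    by_cases ha : a.1 = j
    · have h3 : b.repr v a = 0 := by
        have h4 := h a.2
        rw [← ha] at h4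
        exact h4
      rw [h3, zero_smul]
      exact Submodule.zero_mem _
    · exact Submodule.smul_mem _ _ (le_iSup₂ (f := fun i (_ : i ≠ j) => D i) a.1 ha (hbm a))

open Classical in
include hbm hbne in
theorem Nf_eq (v : Fin n → F) :
    Nf D v = ∑ j, if (∀ k, b.repr v ⟨j, k⟩ = 0) then (0 : F) else 1 := by
  unfold Nf
  apply Finset.sum_congr rfl
  intro j _
  simp only [mem_Cc_iff D b hbm hbne j v]

include hbm hbne in
theorem exists_not_pres (hm : 0 < m) (ht : 2 ≤ t) :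
    ∃ g : GL (Fin n) F, g ∈ Cfsg.Geo.specialLinear (Fin n) F ∧
      ∃ v, Nf D ((g : Matrix (Fin n) (Fin n) F) *ᵥ v) ≠ Nf D v := by
  classical
  let i1 : Fin t := ⟨0, by omega⟩
  let i2 : Fin t := ⟨1, by omega⟩
  have h12 : i1 ≠ i2 := by simp [i1, i2, Fin.ext_iff]
  let k0 : Fin m := ⟨0, hm⟩
  have h0 : rowOf (b.coord ⟨i1, k0⟩) ⬝ᵥ b ⟨i2, k0⟩ = 0 := by
    rw [rowOf_dot, Basis.coord_apply, Basis.repr_self, Finsupp.single_apply, if_neg]
    simp [h12.symm]
  refine ⟨tvG (b ⟨i2, k0⟩) (rowOf (b.coord ⟨i1, k0⟩)) h0, tvG_mem_specialLinear _ _ h0,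
    b ⟨i1, k0⟩, ?_⟩
  rw [tvG_val, tv_mulVec, rowOf_dot, Basis.coord_apply, Basis.repr_self, Finsupp.single_eq_same,
    one_smul]
  rw [Nf_eq D b hbm hbne, Nf_eq D b hbm hbne]
  have e1 : ∀ j, (∀ k, b.repr (b ⟨i1, k0⟩ + b ⟨i2, k0⟩) ⟨j, k⟩ = 0) ↔ (j ≠ i1 ∧ j ≠ i2) := by
    intro j
    constructor
    · intro h
      have h3 := h k0
      rw [map_add, Finsupp.add_apply, Basis.repr_self, Basis.repr_self, Finsupp.single_apply,
        Finsupp.single_apply] at h3
      constructor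
      · rintro rfl
        rw [if_pos rfl, if_neg (by simp [h12.symm]), add_zero] at h3
        exact one_ne_zero h3
      · rintro rfl
        rw [if_pos rfl, if_neg (by simp [h12]), zero_add] at h3
        exact one_ne_zero h3
    · rintro ⟨h1, h2⟩ k
      rw [map_add, Finsupp.add_apply, Basis.repr_self, Basis.repr_self, Finsupp.single_apply,
        Finsupp.single_apply, if_neg (by simp [Ne.symm h1]), if_neg (by simp [Ne.symm h2]), add_zero]
  have e2 : ∀ j, (∀ k, b.repr (b ⟨i1, k0⟩) ⟨j, k⟩ = 0) ↔ j ≠ i1 := by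
    intro j
    constructor
    · intro h
      have h3 := h k0
      rw [Basis.repr_self, Finsupp.single_apply] at h3
      rintro rfl
      rw [if_pos rfl] at h3
      exact one_ne_zero h3
    · intro h1 k
      rw [Basis.repr_self, Finsupp.single_apply, if_neg (by simp [Ne.symm h1])]
  simp only [e1, e2]
  have e3 : ∀ j, (if (j ≠ i1 ∧ j ≠ i2) then (0 : F) else 1) =
      (if j = i1 then 1 else 0) + (if j = i2 then 1 else 0) := by
    intro j
    by_cases h1 : j = i1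
    · subst h1
      simp [h12]
    · by_cases h2 : j = i2
      · subst h2
        simp [h1]
      · simp [h1, h2]
  have e4 : ∀ j, (if j ≠ i1 then (0 : F) else 1) = (if j = i1 then 1 else 0) := by
    intro j
    by_cases h1 : j = i1 <;> simp [h1]
  simp only [e3, e4, Finset.sum_add_distrib, Finset.sum_ite_eq', Finset.mem_univ, if_true]
  intro h
  have h5 : (1 : F) = 0 := by linear_combination h
  exact one_ne_zero h5

include hbm hbne in
theorem not_stab (g : GL (Fin n) F) (a a1 a2 : Σ _ : Fin t, Fin m) (h12 : a1.1 ≠ a2.1)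
    (h1 : b.repr ((g : Matrix (Fin n) (Fin n) F) *ᵥ b a) a1 ≠ 0)
    (h2 : b.repr ((g : Matrix (Fin n) (Fin n) F) *ᵥ b a) a2 ≠ 0) :
    g ∉ Cfsg.Geo.decompositionStabilizer D := by
  rintro ⟨σ, hσ⟩
  have hmem : (g : Matrix (Fin n) (Fin n) F) *ᵥ b a ∈ D (σ a.1) := by
    rw [← hσ]
    exact ⟨b a, hbm a, by rw [Matrix.toLin'_apply]⟩
  by_cases h : σ a.1 = a1.1
  · have h3 : σ a.1 ≠ a2.1 := by rw [h]; exact h12
    exact h2 (hbne _ _ h3 a2.2 _ hmem)
  · exact h1 (hbne _ _ h a1.2 _ hmem)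

theorem tv_repr (u : Fin n → F) (ℓ : (Fin n → F) →ₗ[F] F) (v : Fin n → F)
    (a : Σ _ : Fin t, Fin m) :
    b.repr (tv u (rowOf ℓ) *ᵥ v) a = b.repr v a + ℓ v * b.repr u a := by
  rw [tv_mulVec, rowOf_dot, map_add, map_smul, Finsupp.add_apply, Finsupp.smul_apply, smul_eq_mul]

end Generic

section M1

variable {F : Type*} [Field F] {n t : ℕ} (D : Fin t → Submodule F (Fin n → F))
  (b : Basis (Σ _ : Fin t, Fin 1) F (Fin n → F))
  (hbm : ∀ a, b a ∈ D a.1)
  (hbne : ∀ (i j : Fin t), i ≠ j → ∀ (k : Fin 1) (x : Fin n → F), x ∈ D i → b.repr x ⟨j, k⟩ = 0)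

theorem repr_b1 (i j : Fin t) : b.repr (b ⟨i, 0⟩) ⟨j, 0⟩ = if i = j then 1 else 0 := by
  rw [Basis.repr_self, Finsupp.single_apply]
  simp

/-- The matrix `1 + u φᵀ` for `u` the sum of four basis vectors and `φ` the sum of the four
corresponding coordinate functionals. -/
noncomputable def R4 (i1 i2 i3 i4 : Fin t) : Matrix (Fin n) (Fin n) F :=
  tv (b ⟨i1, 0⟩ + b ⟨i2, 0⟩ + b ⟨i3, 0⟩ + b ⟨i4, 0⟩)
    (rowOf (b.coord ⟨i1, 0⟩ + b.coord ⟨i2, 0⟩ + b.coord ⟨i3, 0⟩ + b.coord ⟨i4, 0⟩))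

theorem R4_repr (i1 i2 i3 i4 j : Fin t) (v : Fin n → F) :
    b.repr (R4 b i1 i2 i3 i4 *ᵥ v) ⟨j, 0⟩ = b.repr v ⟨j, 0⟩ +
      (b.repr v ⟨i1, 0⟩ + b.repr v ⟨i2, 0⟩ + b.repr v ⟨i3, 0⟩ + b.repr v ⟨i4, 0⟩) *
      ((if i1 = j then 1 else 0) + (if i2 = j then 1 else 0) + (if i3 = j then 1 else 0) +
        (if i4 = j then 1 else 0)) := by
  rw [R4, tv_repr]
  simp only [map_add, Finsupp.add_apply, LinearMap.add_apply, Basis.coord_apply, repr_b1]

theorem R4_det (i1 i2 i3 i4 : Fin t) (h12 : i1 ≠ i2) (h13 : i1 ≠ i3) (h14 : i1 ≠ i4)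
    (h23 : i2 ≠ i3) (h24 : i2 ≠ i4) (h34 : i3 ≠ i4) :
    (R4 b i1 i2 i3 i4).det = 5 := by
  rw [R4, tv, Matrix.vecMulVec_eq Unit, Matrix.det_one_add_replicateCol_mul_replicateRow, rowOf_dot]
  simp only [map_add, LinearMap.add_apply, Basis.coord_apply, Finsupp.add_apply, repr_b1]
  simp only [h12, h13, h14, h23, h24, h34, h12.symm, h13.symm, h14.symm, h23.symm, h24.symm,
    h34.symm, if_true, if_false]
  norm_num

include hbm hbne in
theorem R4_Nf [Fintype F] (hq : Fintype.card F ≤ 4) (i1 i2 i3 i4 : Fin t) (h12 : i1 ≠ i2)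
    (h13 : i1 ≠ i3) (h14 : i1 ≠ i4) (h23 : i2 ≠ i3) (h24 : i2 ≠ i4) (h34 : i3 ≠ i4)
    (v : Fin n → F) :
    Nf D (R4 b i1 i2 i3 i4 *ᵥ v) = Nf D v := by
  classical
  have hq1 : 1 < Fintype.card F := Fintype.one_lt_card
  have hc0 : (Fintype.card F : F) = 0 := FiniteField.cast_card_eq_zero F
  have key : ∀ (w : Fin n → F) (j : Fin t),
      (if (∀ k : Fin 1, b.repr w ⟨j, k⟩ = 0) then (0 : F) else 1) =
        (b.repr w ⟨j, 0⟩) ^ (Fintype.card F - 1) := by
    intro w j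
    by_cases h : b.repr w ⟨j, 0⟩ = 0
    · rw [if_pos (Fin.forall_fin_one.mpr h), h, zero_pow (by omega)]
    · rw [if_neg (fun hk => h (hk 0)), FiniteField.pow_card_sub_one_eq_one _ h]
  rw [Nf_eq D b hbm hbne, Nf_eq D b hbm hbne]
  simp only [key, R4_repr]
  rw [← sub_eq_zero, ← Finset.sum_sub_distrib]
  rw [← Finset.sum_subset (Finset.subset_univ ({i1, i2, i3, i4} : Finset (Fin t)))]
  · rw [Finset.sum_insert (by simp [h12, h13, h14]), Finset.sum_insert (by simp [h23, h24]),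
      Finset.sum_insert (by simp [h34]), Finset.sum_singleton]
    simp only [h12, h13, h14, h23, h24, h34, h12.symm, h13.symm, h14.symm, h23.symm, h24.symm,
      h34.symm, if_true, if_false, add_zero, zero_add, mul_one]
    obtain ⟨x1, hx1⟩ : ∃ x, x = b.repr v ⟨i1, 0⟩ := ⟨_, rfl⟩
    obtain ⟨x2, hx2⟩ : ∃ x, x = b.repr v ⟨i2, 0⟩ := ⟨_, rfl⟩
    obtain ⟨x3, hx3⟩ : ∃ x, x = b.repr v ⟨i3, 0⟩ := ⟨_, rfl⟩
    obtain ⟨x4, hx4⟩ : ∃ x, x = b.repr v ⟨i4, 0⟩ := ⟨_, rfl⟩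
    rw [← hx1, ← hx2, ← hx3, ← hx4]
    obtain ⟨q, hq'⟩ : ∃ q, q = Fintype.card F := ⟨_, rfl⟩
    rw [← hq'] at hq hq1 hc0 ⊢
    interval_cases q
    · have h2 : (2 : F) = 0 := by exact_mod_cast hc0
      simp only [Nat.add_one_sub_one, pow_one]
      linear_combination (2 * (x1 + x2 + x3 + x4)) * h2
    · have h3 : (3 : F) = 0 := by exact_mod_cast hc0
      simp only [Nat.add_one_sub_one]
      linear_combination (2 * (x1 + x2 + x3 + x4) ^ 2) * h3
    · have h4 : (4 : F) = 0 := by exact_mod_cast hc0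
      have h2 : (2 : F) = 0 := by
        have h5 : (2 : F) ^ 2 = 0 := by linear_combination h4
        exact pow_eq_zero_iff (two_ne_zero) |>.mp h5
      simp only [Nat.add_one_sub_one]
      linear_combination ((x1 + x2 + x3 + x4) * (2 * (x1 ^ 2 + x2 ^ 2 + x3 ^ 2 + x4 ^ 2) +
        3 * (x1 + x2 + x3 + x4) ^ 2 +
        (x1 * x2 + x1 * x3 + x1 * x4 + x2 * x3 + x2 * x4 + x3 * x4))) * h2
  · intro j _ hj
    have h5 : i1 ≠ j ∧ i2 ≠ j ∧ i3 ≠ j ∧ i4 ≠ j := by
      simp only [Finset.mem_insert, Finset.mem_singleton, not_or] at hj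
      exact ⟨Ne.symm hj.1, Ne.symm hj.2.1, Ne.symm hj.2.2.1, Ne.symm hj.2.2.2⟩
    simp [h5.1, h5.2.1, h5.2.2.1, h5.2.2.2]

end M1

section M2

variable {F : Type*} [Field F] {n t : ℕ} (D : Fin t → Submodule F (Fin n → F))
  (b : Basis (Σ _ : Fin t, Fin 2) F (Fin n → F))
  (hbm : ∀ a, b a ∈ D a.1)
  (hbne : ∀ (i j : Fin t), i ≠ j → ∀ (k : Fin 2) (x : Fin n → F), x ∈ D i → b.repr x ⟨j, k⟩ = 0)

theorem repr_b2 (i j : Fin t) (k l : Fin 2) :
    b.repr (b ⟨i, k⟩) ⟨j, l⟩ = if i = j ∧ k = l then 1 else 0 := by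
  rw [Basis.repr_self, Finsupp.single_apply]
  simp

/-- The matrix `1 + u φᵀ` for `u` the sum of three first basis vectors and `φ` the sum of the three
corresponding second coordinate functionals. -/
noncomputable def R3 (i1 i2 i3 : Fin t) : Matrix (Fin n) (Fin n) F :=
  tv (b ⟨i1, 0⟩ + b ⟨i2, 0⟩ + b ⟨i3, 0⟩)
    (rowOf (b.coord ⟨i1, 1⟩ + b.coord ⟨i2, 1⟩ + b.coord ⟨i3, 1⟩))

theorem R3_repr0 (i1 i2 i3 j : Fin t) (v : Fin n → F) :
    b.repr (R3 b i1 i2 i3 *ᵥ v) ⟨j, 0⟩ = b.repr v ⟨j, 0⟩ +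
      (b.repr v ⟨i1, 1⟩ + b.repr v ⟨i2, 1⟩ + b.repr v ⟨i3, 1⟩) *
      ((if i1 = j then 1 else 0) + (if i2 = j then 1 else 0) + (if i3 = j then 1 else 0)) := by
  rw [R3, tv_repr]
  simp only [map_add, Finsupp.add_apply, LinearMap.add_apply, Basis.coord_apply, repr_b2, and_true]

theorem R3_repr1 (i1 i2 i3 j : Fin t) (v : Fin n → F) :
    b.repr (R3 b i1 i2 i3 *ᵥ v) ⟨j, 1⟩ = b.repr v ⟨j, 1⟩ := by
  rw [R3, tv_repr]
  simp only [map_add, Finsupp.add_apply, LinearMap.add_apply, Basis.coord_apply, repr_b2]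
  simp

theorem R3_dot (i1 i2 i3 : Fin t) :
    rowOf (b.coord ⟨i1, 1⟩ + b.coord ⟨i2, 1⟩ + b.coord ⟨i3, 1⟩) ⬝ᵥ
      (b ⟨i1, 0⟩ + b ⟨i2, 0⟩ + b ⟨i3, 0⟩) = 0 := by
  rw [rowOf_dot]
  simp only [map_add, LinearMap.add_apply, Basis.coord_apply, Finsupp.add_apply, repr_b2]
  simp

include hbm hbne in
theorem R3_Nf [Fintype F] (hq : Fintype.card F = 2) (i1 i2 i3 : Fin t) (h12 : i1 ≠ i2)
    (h13 : i1 ≠ i3) (h23 : i2 ≠ i3) (v : Fin n → F) :
    Nf D (R3 b i1 i2 i3 *ᵥ v) = Nf D v := by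
  classical
  have hF01 : ∀ x : F, x = 0 ∨ x = 1 := by
    intro x
    by_contra hx
    push Not at hx
    have h1 : ({0, 1, x} : Finset F).card ≤ Fintype.card F := Finset.card_le_univ _
    rw [hq, Finset.card_insert_of_notMem (by simp [hx.1.symm]),
      Finset.card_insert_of_notMem (by simp [hx.2.symm]), Finset.card_singleton] at h1
    omega
  have h2 : (2 : F) = 0 := by
    have h3 := FiniteField.cast_card_eq_zero F
    rw [hq] at h3
    exact_mod_cast h3
  have key : ∀ (w : Fin n → F) (j : Fin t),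
      (if (∀ k : Fin 2, b.repr w ⟨j, k⟩ = 0) then (0 : F) else 1) =
        (b.repr w ⟨j, 0⟩) ^ 2 + b.repr w ⟨j, 0⟩ * b.repr w ⟨j, 1⟩ + (b.repr w ⟨j, 1⟩) ^ 2 := by
    intro w j
    rcases hF01 (b.repr w ⟨j, 0⟩) with h3 | h3 <;> rcases hF01 (b.repr w ⟨j, 1⟩) with h4 | h4
    · rw [if_pos (Fin.forall_fin_two.mpr ⟨h3, h4⟩), h3, h4]
      ring
    · rw [if_neg (fun hk => by have h5 := hk 1; rw [h4] at h5; exact one_ne_zero h5), h3, h4]
      ring
    · rw [if_neg (fun hk => by have h5 := hk 0; rw [h3] at h5; exact one_ne_zero h5), h3, h4]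
      ring
    · rw [if_neg (fun hk => by have h5 := hk 0; rw [h3] at h5; exact one_ne_zero h5), h3, h4]
      linear_combination (-1 : F) * h2
  rw [Nf_eq D b hbm hbne, Nf_eq D b hbm hbne]
  simp only [key, R3_repr0, R3_repr1]
  rw [← sub_eq_zero, ← Finset.sum_sub_distrib]
  rw [← Finset.sum_subset (Finset.subset_univ ({i1, i2, i3} : Finset (Fin t)))]
  · rw [Finset.sum_insert (by simp [h12, h13]), Finset.sum_insert (by simp [h23]),
      Finset.sum_singleton]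
    simp only [h12, h13, h23, h12.symm, h13.symm, h23.symm, if_true, if_false, add_zero, zero_add,
      mul_one]
    obtain ⟨x1, hx1⟩ : ∃ x, x = b.repr v ⟨i1, 0⟩ := ⟨_, rfl⟩
    obtain ⟨x2, hx2⟩ : ∃ x, x = b.repr v ⟨i2, 0⟩ := ⟨_, rfl⟩
    obtain ⟨x3, hx3⟩ : ∃ x, x = b.repr v ⟨i3, 0⟩ := ⟨_, rfl⟩
    obtain ⟨y1, hy1⟩ : ∃ x, x = b.repr v ⟨i1, 1⟩ := ⟨_, rfl⟩
    obtain ⟨y2, hy2⟩ : ∃ x, x = b.repr v ⟨i2, 1⟩ := ⟨_, rfl⟩
    obtain ⟨y3, hy3⟩ : ∃ x, x = b.repr v ⟨i3, 1⟩ := ⟨_, rfl⟩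
    rw [← hx1, ← hx2, ← hx3, ← hy1, ← hy2, ← hy3]
    linear_combination ((y1 + y2 + y3) * (x1 + x2 + x3) + 2 * (y1 + y2 + y3) ^ 2) * h2
  · intro j _ hj
    have h5 : i1 ≠ j ∧ i2 ≠ j ∧ i3 ≠ j := by
      simp only [Finset.mem_insert, Finset.mem_singleton, not_or] at hj
      exact ⟨Ne.symm hj.1, Ne.symm hj.2.1, Ne.symm hj.2.2⟩
    simp [h5.1, h5.2.1, h5.2.2]

end M2

/-- For a finite field F with q elements and n ≥ 13, let D be a decomposition of F^n into t ≥ 2 independent subspaces of equal dimension m spanning F^n, where m = 1 and q ≤ 4, or m = 2 and q = 2. Then the elements of SL_n(F) permuting the members of D form a subgroup that is not maximal: some subgroup lies strictly between it and SL_n(F). -/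
theorem result {F : Type*} [Field F] [Fintype F] (n : ℕ) (hn : 13 ≤ n) {t : ℕ} (m : ℕ) (D : Fin t → Submodule F (Fin n → F)) (hD : Cfsg.Geo.IsMDecomposition m D) (h : (m = 1 ∧ Fintype.card F ≤ 4) ∨ (m = 2 ∧ Fintype.card F = 2)) : ∃ K : Subgroup (Matrix.GeneralLinearGroup (Fin n) F), Cfsg.Geo.decompositionStabilizer D ⊓ Cfsg.Geo.specialLinear (Fin n) F < K ∧ K < Cfsg.Geo.specialLinear (Fin n) F := by
  classical
  have hInt : DirectSum.IsInternal D :=
    DirectSum.isInternal_submodule_of_iSupIndep_of_iSup_eq_top hD.indep hD.iSup_eq_top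
  obtain ⟨b, hb⟩ : ∃ b : Basis (Σ _ : Fin t, Fin m) F (Fin n → F),
      b = hInt.collectedBasis (fun j => Module.finBasisOfFinrankEq F (D j) (hD.finrank_eq j)) :=
    ⟨_, rfl⟩
  have hbm : ∀ a, b a ∈ D a.1 := by
    rw [hb]
    exact hInt.collectedBasis_mem _
  have hbne : ∀ (i j : Fin t), i ≠ j → ∀ (k : Fin m) (x : Fin n → F), x ∈ D i →
      b.repr x ⟨j, k⟩ = 0 := by
    intro i j hij k x hx
    rw [hb]
    exact hInt.collectedBasis_repr_of_mem_ne _ hij hx
  have htm : t * m = n := by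
    have h1 := Module.finrank_eq_card_basis b
    rw [Module.finrank_fin_fun] at h1
    simp at h1
    exact h1.symm
  refine ⟨stabQ (Cfsg.Geo.specialLinear (Fin n) F) (Nf D), ?_, ?_⟩
  · rw [lt_iff_le_and_ne]
    refine ⟨fun g hg => ⟨hg.2, fun v => Nf_stab D g hg.1 v⟩, ?_⟩
    intro hEq
    obtain ⟨g, hgS, hgN, hgD⟩ : ∃ g : GL (Fin n) F, g ∈ Cfsg.Geo.specialLinear (Fin n) F ∧
        (∀ v, Nf D ((g : Matrix (Fin n) (Fin n) F) *ᵥ v) = Nf D v) ∧
        g ∉ Cfsg.Geo.decompositionStabilizer D := by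
      rcases h with ⟨rfl, hq⟩ | ⟨rfl, hq⟩
      · -- m = 1
        have ht : 13 ≤ t := by omega
        have h24 : (24 : F) = 0 := by
          have hq1 : 1 < Fintype.card F := Fintype.one_lt_card
          have hc0 : (Fintype.card F : F) = 0 := FiniteField.cast_card_eq_zero F
          obtain ⟨q, hq'⟩ : ∃ q, q = Fintype.card F := ⟨_, rfl⟩
          rw [← hq'] at hq hq1 hc0
          interval_cases q
          · have h2 : (2 : F) = 0 := by exact_mod_cast hc0
            linear_combination 12 * h2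
          · have h3 : (3 : F) = 0 := by exact_mod_cast hc0
            linear_combination 8 * h3
          · have h4 : (4 : F) = 0 := by exact_mod_cast hc0
            linear_combination 6 * h4
        have hdet : (R4 b (⟨0, by omega⟩ : Fin t) ⟨1, by omega⟩ ⟨2, by omega⟩ ⟨3, by omega⟩ *
            R4 b (⟨4, by omega⟩ : Fin t) ⟨5, by omega⟩ ⟨6, by omega⟩ ⟨7, by omega⟩).det = 1 := by
          rw [Matrix.det_mul, R4_det b _ _ _ _ (by simp) (by simp) (by simp) (by simp) (by simp) (by simp),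
            R4_det b _ _ _ _ (by simp) (by simp) (by simp) (by simp) (by simp) (by simp)]
          linear_combination h24
        let g : GL (Fin n) F := Matrix.GeneralLinearGroup.mkOfDetNeZero _
          (by rw [hdet]; exact one_ne_zero)
        have hgval : (g : Matrix (Fin n) (Fin n) F) =
            R4 b (⟨0, by omega⟩ : Fin t) ⟨1, by omega⟩ ⟨2, by omega⟩ ⟨3, by omega⟩ *
            R4 b (⟨4, by omega⟩ : Fin t) ⟨5, by omega⟩ ⟨6, by omega⟩ ⟨7, by omega⟩ := rfl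
        refine ⟨g, ?_, ?_, ?_⟩
        · rw [mem_specialLinear_iff, hgval, hdet]
        · intro v
          rw [hgval, ← Matrix.mulVec_mulVec,
            R4_Nf D b hbm hbne hq _ _ _ _ (by simp) (by simp) (by simp) (by simp) (by simp) (by simp),
            R4_Nf D b hbm hbne hq _ _ _ _ (by simp) (by simp) (by simp) (by simp) (by simp) (by simp)]
        · apply not_stab D b hbm hbne g ⟨⟨0, by omega⟩, 0⟩ ⟨⟨1, by omega⟩, 0⟩ ⟨⟨2, by omega⟩, 0⟩
          · simp
          · rw [hgval, ← Matrix.mulVec_mulVec]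
            simp only [R4_repr]
            simp [repr_b1]
          · rw [hgval, ← Matrix.mulVec_mulVec]
            simp only [R4_repr]
            simp [repr_b1]
      · -- m = 2
        have ht : 7 ≤ t := by omega
        let g : GL (Fin n) F := tvG _ _ (R3_dot b (⟨0, by omega⟩ : Fin t) ⟨1, by omega⟩ ⟨2, by omega⟩)
        have hgval : (g : Matrix (Fin n) (Fin n) F) =
            R3 b (⟨0, by omega⟩ : Fin t) ⟨1, by omega⟩ ⟨2, by omega⟩ := rfl
        refine ⟨g, tvG_mem_specialLinear _ _ _, ?_, ?_⟩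
        · intro v
          rw [hgval, R3_Nf D b hbm hbne hq _ _ _ (by simp) (by simp) (by simp)]
        · apply not_stab D b hbm hbne g ⟨⟨0, by omega⟩, 1⟩ ⟨⟨1, by omega⟩, 0⟩ ⟨⟨2, by omega⟩, 0⟩
          · simp
          · rw [hgval, R3_repr0]
            simp [repr_b2]
          · rw [hgval, R3_repr0]
            simp [repr_b2]
    have hgK : g ∈ stabQ (Cfsg.Geo.specialLinear (Fin n) F) (Nf D) := ⟨hgS, hgN⟩
    rw [← hEq] at hgK
    exact hgD hgK.1
  · rw [lt_iff_le_and_ne]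
    refine ⟨fun g hg => hg.1, ?_⟩
    intro hEq
    obtain ⟨g, hgS, v, hv⟩ := exists_not_pres D b hbm hbne hD.pos hD.two_le
    have hgK : g ∈ stabQ (Cfsg.Geo.specialLinear (Fin n) F) (Nf D) := by
      rw [hEq]
      exact hgS
    exact hv (hgK.2 v)

end Cfsg.Agent.S5635
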