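import Cfsg.Statements.S5638
import Mathlib

set_option autoImplicit false
open Cfsg

namespace Cfsg.Agent.S5638

open Matrix Kronecker

/-- The elements `g` of a group with `g x g⁻¹ ∈ {x, x⁻¹}`. -/
def extCent {G : Type*} [Group G] (x : G) : Subgroup G where
  carrier := {g | g * x * g⁻¹ = x ∨ g * x * g⁻¹ = x⁻¹}
  mul_mem' := by
    intro a b ha hb
    have e : a * b * x * (a * b)⁻¹ = a * (b * x * b⁻¹) * a⁻¹ := by group
    have e' : a * x⁻¹ * a⁻¹ = (a * x * a⁻¹)⁻¹ := by group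
    rcases ha with ha | ha <;> rcases hb with hb | hb
    · left; rw [e, hb, ha]
    · right; rw [e, hb, e', ha]
    · right; rw [e, hb, ha]
    · left; rw [e, hb, e', ha, inv_inv]
  one_mem' := Or.inl (by group)
  inv_mem' := by
    intro a ha
    rcases ha with ha | ha
    · left
      rw [inv_inv, mul_assoc, inv_mul_eq_iff_eq_mul]
      exact (mul_inv_eq_iff_eq_mul.mp ha).symm
    · right
      have h := mul_inv_eq_iff_eq_mul.mp ha
      rw [inv_inv, mul_assoc, inv_mul_eq_iff_eq_mul, eq_mul_inv_iff_mul_eq, mul_assoc, h, ← mul_assoc,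
        mul_inv_cancel, one_mul]

section

variable {F : Type*} [Field F]

/-- A matrix of order 3 over the field with two elements. -/
def om : Matrix (Fin 2) (Fin 2) F := !![0, 1; 1, 1]

/-- Its square. -/
def om2 : Matrix (Fin 2) (Fin 2) F := !![1, 1; 1, 0]

theorem om_mul_om2 (h2 : (1 : F) + 1 = 0) : (om : Matrix (Fin 2) (Fin 2) F) * om2 = 1 := by
  unfold om om2
  rw [Matrix.mul_fin_two, Matrix.one_fin_two]
  simp [h2]

theorem om2_mul_om (h2 : (1 : F) + 1 = 0) : (om2 : Matrix (Fin 2) (Fin 2) F) * om = 1 := by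
  unfold om om2
  rw [Matrix.mul_fin_two, Matrix.one_fin_two]
  simp [h2]

theorem om_add_om2 (h2 : (1 : F) + 1 = 0) : (om : Matrix (Fin 2) (Fin 2) F) + om2 = 1 := by
  unfold om om2
  rw [Matrix.one_fin_two]
  ext i j
  fin_cases i <;> fin_cases j <;> simp [h2]

theorem gl2 (hF01 : ∀ x : F, x = 0 ∨ x = 1) (h2 : (1 : F) + 1 = 0) (A : Matrix (Fin 2) (Fin 2) F)
    (hA : A.det ≠ 0) : A * om = om * A ∨ A * om = om2 * A := by
  rw [Matrix.det_fin_two] at hA
  rw [Matrix.eta_fin_two A]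
  obtain ⟨x, hx⟩ : ∃ x, x = A 0 0 := ⟨_, rfl⟩
  obtain ⟨y, hy⟩ : ∃ x, x = A 0 1 := ⟨_, rfl⟩
  obtain ⟨z, hz⟩ : ∃ x, x = A 1 0 := ⟨_, rfl⟩
  obtain ⟨w, hw⟩ : ∃ x, x = A 1 1 := ⟨_, rfl⟩
  rw [← hx, ← hy, ← hz, ← hw] at hA ⊢
  have key : (y = z ∧ x + y = w) ∨ (x = w ∧ y = x + z) := by
    rcases hF01 x with rfl | rfl <;> rcases hF01 y with rfl | rfl <;>
      rcases hF01 z with rfl | rfl <;> rcases hF01 w with rfl | rfl <;> simp [h2] at hA ⊢
  unfold om om2
  rw [Matrix.mul_fin_two, Matrix.mul_fin_two, Matrix.mul_fin_two]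
  rcases key with ⟨rfl, rfl⟩ | ⟨rfl, rfl⟩
  · left
    ext i j
    fin_cases i <;> fin_cases j <;> simp
  · right
    ext i j
    fin_cases i <;> fin_cases j <;> simp <;> ring

end

/-- For q = 2 and n = 2n₂ ≥ 13, the stabiliser in SL_n(2) of a tensor decomposition with a 2-dimensional factor is not maximal in SL_n(2). -/
theorem result {F : Type*} [Field F] [Fintype F] (n : ℕ) (hn : 13 ≤ n) (hq : Fintype.card F = 2) (n₂ : ℕ) (e : Fin n ≃ Fin 2 × Fin n₂) (P : Matrix.GeneralLinearGroup (Fin n) F) : ∃ K : Subgroup (Matrix.GeneralLinearGroup (Fin n) F), Cfsg.Geo.tensorProductSubgroup 2 n₂ e P ⊓ Cfsg.Geo.specialLinear (Fin n) F < K ∧ K < Cfsg.Geo.specialLinear (Fin n) F := by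
  classical
  have hF01 : ∀ x : F, x = 0 ∨ x = 1 := by
    intro x
    by_contra hx
    push Not at hx
    have h1 : ({0, 1, x} : Finset F).card ≤ Fintype.card F := Finset.card_le_univ _
    rw [hq, Finset.card_insert_of_notMem (by simp [hx.1.symm]),
      Finset.card_insert_of_notMem (by simp [hx.2.symm]), Finset.card_singleton] at h1
    omega
  have h2 : (1 : F) + 1 = 0 := by
    rcases hF01 (1 + 1) with h | h
    · exact h
    · exfalso
      exact one_ne_zero (α := F) (by linear_combination h)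
  have hn2 : 7 ≤ n₂ := by
    have h1 := Fintype.card_congr e
    simp at h1
    omega
  have hSL : Cfsg.Geo.specialLinear (Fin n) F = ⊤ := by
    rw [eq_top_iff]
    intro g _
    unfold Cfsg.Geo.specialLinear
    rw [MonoidHom.mem_ker]
    apply Units.ext
    rcases hF01 ((Matrix.GeneralLinearGroup.det g : Fˣ) : F) with h | h
    · exact absurd h (Units.ne_zero _)
    · rw [h]
      rfl
  rw [hSL, inf_top_eq]
  have hMM : ∀ M : Matrix (Fin 2 × Fin n₂) (Fin 2 × Fin n₂) F, M + M = 0 := by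
    intro M
    ext i j
    rw [Matrix.add_apply, Matrix.zero_apply]
    linear_combination (M i j) * h2
  let j0 : Fin n₂ := ⟨0, by omega⟩
  let j1 : Fin n₂ := ⟨1, by omega⟩
  have hj01 : j0 ≠ j1 := by simp [j0, j1, Fin.ext_iff]
  -- the element Ω
  let ΩG : GL (Fin 2 × Fin n₂) F := ⟨om ⊗ₖ (1 : Matrix (Fin n₂) (Fin n₂) F), om2 ⊗ₖ 1,
    by rw [← Matrix.mul_kronecker_mul, om_mul_om2 h2, Matrix.one_mul, Matrix.one_kronecker_one],
    by rw [← Matrix.mul_kronecker_mul, om2_mul_om h2, Matrix.one_mul, Matrix.one_kronecker_one]⟩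
  have hmem : ∀ g : GL (Fin 2 × Fin n₂) F, g ∈ extCent ΩG ↔
      ((g : Matrix (Fin 2 × Fin n₂) (Fin 2 × Fin n₂) F) * (om ⊗ₖ (1 : Matrix (Fin n₂) (Fin n₂) F)) =
          (om ⊗ₖ (1 : Matrix (Fin n₂) (Fin n₂) F)) * (g : Matrix (Fin 2 × Fin n₂) (Fin 2 × Fin n₂) F) ∨
        (g : Matrix (Fin 2 × Fin n₂) (Fin 2 × Fin n₂) F) * (om ⊗ₖ (1 : Matrix (Fin n₂) (Fin n₂) F)) =
          (om2 ⊗ₖ (1 : Matrix (Fin n₂) (Fin n₂) F)) * (g : Matrix (Fin 2 × Fin n₂) (Fin 2 × Fin n₂) F)) := by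
    intro g
    show (g * ΩG * g⁻¹ = ΩG ∨ g * ΩG * g⁻¹ = ΩG⁻¹) ↔ _
    rw [mul_inv_eq_iff_eq_mul, mul_inv_eq_iff_eq_mul, Units.ext_iff, Units.ext_iff]
    rfl
  have hlt1 : Cfsg.Geo.kroneckerSubgroup 2 n₂ F < extCent ΩG := by
    rw [lt_iff_le_and_ne]
    constructor
    · rintro g ⟨a, b, hg⟩
      rw [hmem, hg]
      have hdet : (a : Matrix (Fin 2) (Fin 2) F).det ≠ 0 := by
        have h1 := Matrix.GeneralLinearGroup.val_det_apply a
        rw [← h1]
        exact Units.ne_zero _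
      rcases gl2 hF01 h2 (a : Matrix (Fin 2) (Fin 2) F) hdet with h | h
      · left
        rw [← Matrix.mul_kronecker_mul, ← Matrix.mul_kronecker_mul, h, Matrix.mul_one, Matrix.one_mul]
      · right
        rw [← Matrix.mul_kronecker_mul, ← Matrix.mul_kronecker_mul, h, Matrix.mul_one, Matrix.one_mul]
    · intro hEq
      obtain ⟨E, hE⟩ : ∃ E : Matrix (Fin 2 × Fin n₂) (Fin 2 × Fin n₂) F,
          E = om ⊗ₖ Matrix.single j0 j0 (1 : F) := ⟨_, rfl⟩
      obtain ⟨E2, hE2⟩ : ∃ E : Matrix (Fin 2 × Fin n₂) (Fin 2 × Fin n₂) F,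
          E = om2 ⊗ₖ Matrix.single j0 j0 (1 : F) := ⟨_, rfl⟩
      obtain ⟨I0, hI0⟩ : ∃ E : Matrix (Fin 2 × Fin n₂) (Fin 2 × Fin n₂) F,
          E = (1 : Matrix (Fin 2) (Fin 2) F) ⊗ₖ Matrix.single j0 j0 (1 : F) := ⟨_, rfl⟩
      have h1 : E2 * E = I0 := by
        rw [hE, hE2, hI0, ← Matrix.mul_kronecker_mul, om2_mul_om h2, Matrix.single_mul_single_same,
          mul_one]
      have h1' : E * E2 = I0 := by
        rw [hE, hE2, hI0, ← Matrix.mul_kronecker_mul, om_mul_om2 h2, Matrix.single_mul_single_same,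
          mul_one]
      have h3 : E + E2 = I0 := by
        rw [hE, hE2, hI0, ← Matrix.add_kronecker, om_add_om2 h2]
      have h4 : (1 + E2) * (1 + E) = 1 := by
        rw [Matrix.add_mul, Matrix.one_mul, Matrix.mul_add, Matrix.mul_one, h1]
        have h5 : 1 + E + (E2 + I0) = 1 + ((E + E2) + I0) := by abel
        rw [h5, h3, hMM, add_zero]
      have h4' : (1 + E) * (1 + E2) = 1 := by
        rw [Matrix.add_mul, Matrix.one_mul, Matrix.mul_add, Matrix.mul_one, h1']
        have h5 : 1 + E2 + (E + I0) = 1 + ((E + E2) + I0) := by abel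
        rw [h5, h3, hMM, add_zero]
      let g1 : GL (Fin 2 × Fin n₂) F := ⟨1 + E2, 1 + E, h4, h4'⟩
      have hg1 : (g1 : Matrix (Fin 2 × Fin n₂) (Fin 2 × Fin n₂) F) = 1 + E2 := rfl
      have hg1K : g1 ∈ extCent ΩG := by
        rw [hmem]
        left
        rw [hg1, Matrix.add_mul, Matrix.one_mul, Matrix.mul_add, Matrix.mul_one, hE2,
          ← Matrix.mul_kronecker_mul, ← Matrix.mul_kronecker_mul, om2_mul_om h2, om_mul_om2 h2,
          Matrix.mul_one, Matrix.one_mul]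
      rw [← hEq] at hg1K
      obtain ⟨a, b, hg⟩ := hg1K
      rw [hg1, hE2] at hg
      have e00 := congrFun (congrFun hg (0, j0)) (0, j0)
      have e11 := congrFun (congrFun hg (0, j1)) (0, j1)
      have e01 := congrFun (congrFun hg (0, j0)) (1, j0)
      simp only [Matrix.add_apply, Matrix.kroneckerMap_apply, om2] at e00 e11 e01
      simp [h2, hj01] at e00 e11 e01
      rcases e00 with h5 | h5
      · rw [h5, zero_mul] at e11
        exact zero_ne_one e11.symm
      · rw [h5, mul_zero] at e01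
        exact zero_ne_one e01.symm
  have hlt2 : extCent ΩG < ⊤ := by
    rw [lt_top_iff_ne_top]
    intro hEq
    obtain ⟨S, hS⟩ : ∃ S : Matrix (Fin 2 × Fin n₂) (Fin 2 × Fin n₂) F,
        S = Matrix.single ((0 : Fin 2), j0) ((0 : Fin 2), j1) (1 : F) := ⟨_, rfl⟩
    have hSS : S * S = 0 := by
      rw [hS, Matrix.single_mul_single_of_ne]
      simp [hj01.symm]
    have h4 : (1 + S) * (1 + S) = 1 := by
      rw [Matrix.add_mul, Matrix.one_mul, Matrix.mul_add, Matrix.mul_one, hSS, add_zero, add_assoc,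
        hMM, add_zero]
    let g2 : GL (Fin 2 × Fin n₂) F := ⟨1 + S, 1 + S, h4, h4⟩
    have hg2 : (g2 : Matrix (Fin 2 × Fin n₂) (Fin 2 × Fin n₂) F) = 1 + S := rfl
    have hg2K : g2 ∈ extCent ΩG := by
      rw [hEq]
      trivial
    rw [hmem, hg2] at hg2K
    rcases hg2K with h | h
    · have h' := congrFun (congrFun h (0, j0)) (1, j1)
      rw [Matrix.add_mul, Matrix.one_mul, Matrix.mul_add, Matrix.mul_one, Matrix.add_apply,
        Matrix.add_apply, hS, Matrix.single_mul_apply_same,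
        Matrix.mul_single_apply_of_ne (1 : F) ((0 : Fin 2), j0) ((0 : Fin 2), j1) ((0 : Fin 2), j0)
          ((1 : Fin 2), j1) (by simp)] at h'
      simp [om, hj01] at h'
    · have h' := congrFun (congrFun h (0, j0)) (1, j1)
      rw [Matrix.add_mul, Matrix.one_mul, Matrix.mul_add, Matrix.mul_one, Matrix.add_apply,
        Matrix.add_apply, hS, Matrix.single_mul_apply_same,
        Matrix.mul_single_apply_of_ne (1 : F) ((0 : Fin 2), j0) ((0 : Fin 2), j1) ((0 : Fin 2), j0)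
          ((1 : Fin 2), j1) (by simp)] at h'
      simp [om, om2, hj01] at h'
  -- transport
  refine ⟨((extCent ΩG).map (Cfsg.Geo.glReindex e.symm).toMonoidHom).map
    (MulAut.conj P).toMonoidHom, ?_, ?_⟩
  · unfold Cfsg.Geo.tensorProductSubgroup
    exact (Subgroup.map_lt_map_iff_of_injective (MulEquiv.injective _)).mpr
      ((Subgroup.map_lt_map_iff_of_injective (MulEquiv.injective _)).mpr hlt1)
  · have h5 : (⊤ : Subgroup (GL (Fin n) F)) =
        ((⊤ : Subgroup (GL (Fin 2 × Fin n₂) F)).map (Cfsg.Geo.glReindex e.symm).toMonoidHom).map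
          (MulAut.conj P).toMonoidHom := by
      rw [Subgroup.map_top_of_surjective _ (MulEquiv.surjective _),
        Subgroup.map_top_of_surjective _ (MulEquiv.surjective _)]
    rw [h5]
    exact (Subgroup.map_lt_map_iff_of_injective (MulEquiv.injective _)).mpr
      ((Subgroup.map_lt_map_iff_of_injective (MulEquiv.injective _)).mpr hlt2)

end Cfsg.Agent.S5638
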