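import Cfsg.Statements.S5646
import Cfsg.Agent.Lib.Helper97.SpOver2

set_option autoImplicit false
open Cfsg

namespace Cfsg.Agent.S5646

open Cfsg.Agent.Lib.Helper97 Matrix

/-- For a finite field F and m ≥ 7, in the symplectic group Sp_2m(F) of the standard alternating form on F^(2m), the stabiliser of any non-zero subspace W on which the form is non-degenerate and with dim W < m is a maximal subgroup. -/
theorem result {F : Type*} [Field F] [Fintype F] (m : ℕ) (hm : 7 ≤ m) (W : Submodule F (Fin m ⊕ Fin m → F)) (hW0 : W ≠ ⊥) (hW : Cfsg.Geo.IsNondegenerateOn (Cfsg.sympForm m F) W) (hdim : Module.finrank F W < m) : Cfsg.Geo.IsMaximalIn (Cfsg.spGL m F) (Cfsg.Geo.subspaceStabilizer W ⊓ Cfsg.spGL m F) := by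
  classical
  have hf := sympForm_symp (F := F) m
  have ndW : NdOn (Cfsg.sympForm m F) W := fun a ha ha0 => (hW a ha ha0).1
  have hcard : Fintype.card (Fin m ⊕ Fin m) = 2 * m := by
    rw [Fintype.card_sum, Fintype.card_fin]
    ring
  have hW1 : W ≠ ⊤ := by
    rintro rfl
    rw [finrank_top, Module.finrank_fintype_fun_eq_card, hcard] at hdim
    omega
  refine ⟨lt_of_le_of_ne inf_le_right ?_, ?_⟩
  · intro heq
    obtain ⟨t, ht1, ht2⟩ := exists_isometry_not_stab hf W ndW hW0 hW1
    have ht : t ∈ Cfsg.spGL m F := ht1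
    rw [← heq] at ht
    exact ht2 (Subgroup.mem_inf.mp ht).1
  · intro M hHM hMK
    by_cases hMH : M ≤ Cfsg.Geo.subspaceStabilizer W ⊓ Cfsg.spGL m F
    · exact Or.inl (le_antisymm hMH hHM)
    · right
      obtain ⟨g, hgM, hgH⟩ := SetLike.not_le_iff_exists.mp hMH
      have hgf := hMK hgM
      have hg : g ∉ Cfsg.Geo.subspaceStabilizer W := fun h => hgH (Subgroup.mem_inf.mpr ⟨h, hgf⟩)
      refine le_antisymm hMK (spGL_le_of_InS m M ?_)
      refine nondeg_stab_overgroup hf W ndW hW0 (by rw [hcard]; omega)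
        (by rw [finrank_perp hf, hcard]; omega) M
        (fun t h1 h2 => hHM (Subgroup.mem_inf.mpr ⟨h1, h2⟩)) g hgM hgf hg

end Cfsg.Agent.S5646
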