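import Cfsg.Statements.S5648
import Mathlib
import Cfsg.Agent.Lib.Helper18.Symp

set_option autoImplicit false
open scoped MatrixGroups
open Cfsg

namespace Cfsg.Agent.S5648

open Cfsg.Agent.Lib.Helper18 Module Matrix

section Abstract

variable {F V : Type*} [Field F] [AddCommGroup V] [Module F V]

/-- The quadratic form attached to a system of hyperbolic pairs `(e j, f j)` (anisotropic on each plane
over the field with two elements). -/
def QF {t : ℕ} (B : LinearMap.BilinForm F V) (e f : Fin t → V) (v : V) : F :=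
  ∑ j, ((B v (f j)) ^ 2 + B v (f j) * B v (e j) + (B v (e j)) ^ 2)

theorem neg_eq_self (h2 : (1 : F) + 1 = 0) (a : F) : -a = a := by
  linear_combination (-a) * h2

theorem expansion {t : ℕ} (B : LinearMap.BilinForm F V) (e f : Fin t → V)
    (h2 : (1 : F) + 1 = 0) (hB : B.IsAlt) (hnd : ∀ x, (∀ y, B x y = 0) → x = 0)
    (hef : ∀ i, B (e i) (f i) = 1)
    (horth : ∀ i j, i ≠ j →
      B (e i) (e j) = 0 ∧ B (e i) (f j) = 0 ∧ B (f i) (e j) = 0 ∧ B (f i) (f j) = 0)
    (hspan : Submodule.span F (Set.range e ∪ Set.range f) = ⊤) (u : V) :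
    u = ∑ j, (B u (f j) • e j + B u (e j) • f j) := by
  have hsym : ∀ x y, B x y = B y x := fun x y => by
    rw [← hB.neg_eq x y, neg_eq_self h2]
  have hfe : ∀ i, B (f i) (e i) = 1 := fun i => by rw [hsym, hef]
  have hz0 : u - ∑ j, (B u (f j) • e j + B u (e j) • f j) = 0 := by
    apply hnd
    intro y
    have hy : y ∈ Submodule.span F (Set.range e ∪ Set.range f) := by
      rw [hspan]
      trivial
    induction hy using Submodule.span_induction with
    | mem y hy =>
      rcases hy with ⟨i, rfl⟩ | ⟨i, rfl⟩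
      · rw [map_sub, LinearMap.sub_apply, map_sum, LinearMap.sum_apply]
        simp only [map_add, map_smul, LinearMap.add_apply, LinearMap.smul_apply, smul_eq_mul]
        rw [Finset.sum_eq_single i]
        · rw [hB.self_eq_zero, mul_zero, zero_add, hfe i, mul_one, sub_self]
        · intro j _ hji
          rw [(horth j i hji).1, (horth j i hji).2.2.1]
          ring
        · simp
      · rw [map_sub, LinearMap.sub_apply, map_sum, LinearMap.sum_apply]
        simp only [map_add, map_smul, LinearMap.add_apply, LinearMap.smul_apply, smul_eq_mul]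
        rw [Finset.sum_eq_single i]
        · rw [hB.self_eq_zero, mul_zero, add_zero, hef i, mul_one, sub_self]
        · intro j _ hji
          rw [(horth j i hji).2.1, (horth j i hji).2.2.2]
          ring
        · simp
    | zero => simp
    | add a b _ _ ha hb => rw [map_add, ha, hb, add_zero]
    | smul c a _ ha => rw [map_smul, ha, smul_zero]
  exact sub_eq_zero.mp hz0

theorem QF_add {t : ℕ} (B : LinearMap.BilinForm F V) (e f : Fin t → V)
    (h2 : (1 : F) + 1 = 0) (hB : B.IsAlt) (hnd : ∀ x, (∀ y, B x y = 0) → x = 0)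
    (hef : ∀ i, B (e i) (f i) = 1)
    (horth : ∀ i j, i ≠ j →
      B (e i) (e j) = 0 ∧ B (e i) (f j) = 0 ∧ B (f i) (e j) = 0 ∧ B (f i) (f j) = 0)
    (hspan : Submodule.span F (Set.range e ∪ Set.range f) = ⊤) (u v : V) :
    QF B e f (u + v) = QF B e f u + QF B e f v + B u v := by
  have hsym : ∀ x y, B x y = B y x := fun x y => by
    rw [← hB.neg_eq x y, neg_eq_self h2]
  have hexp := expansion B e f h2 hB hnd hef horth hspan u
  have hB1 : B u v = B (∑ j, (B u (f j) • e j + B u (e j) • f j)) v := by rw [← hexp]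
  have hB' : B u v = ∑ j, (B u (f j) * B v (e j) + B u (e j) * B v (f j)) := by
    rw [hB1, map_sum, LinearMap.sum_apply]
    apply Finset.sum_congr rfl
    intro j _
    simp only [map_add, map_smul, LinearMap.add_apply, LinearMap.smul_apply, smul_eq_mul]
    rw [hsym (e j) v, hsym (f j) v]
  unfold QF
  rw [hB', ← Finset.sum_add_distrib, ← Finset.sum_add_distrib]
  apply Finset.sum_congr rfl
  intro j _
  simp only [map_add, LinearMap.add_apply]
  linear_combination (B u (f j) * B v (f j) + B u (e j) * B v (e j)) * h2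

theorem QF_e {t : ℕ} (B : LinearMap.BilinForm F V) (e f : Fin t → V) (hB : B.IsAlt)
    (hef : ∀ i, B (e i) (f i) = 1)
    (horth : ∀ i j, i ≠ j →
      B (e i) (e j) = 0 ∧ B (e i) (f j) = 0 ∧ B (f i) (e j) = 0 ∧ B (f i) (f j) = 0)
    (i : Fin t) : QF B e f (e i) = 1 := by
  unfold QF
  rw [Finset.sum_eq_single i]
  · rw [hef i, hB.self_eq_zero]
    ring
  · intro j _ hji
    rw [(horth i j (Ne.symm hji)).2.1, (horth i j (Ne.symm hji)).1]
    ring
  · simp

theorem QF_transv {t : ℕ} (B : LinearMap.BilinForm F V) (e f : Fin t → V)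
    (hF01 : ∀ x : F, x = 0 ∨ x = 1)
    (h2 : (1 : F) + 1 = 0) (hB : B.IsAlt) (hnd : ∀ x, (∀ y, B x y = 0) → x = 0)
    (hef : ∀ i, B (e i) (f i) = 1)
    (horth : ∀ i j, i ≠ j →
      B (e i) (e j) = 0 ∧ B (e i) (f j) = 0 ∧ B (f i) (e j) = 0 ∧ B (f i) (f j) = 0)
    (hspan : Submodule.span F (Set.range e ∪ Set.range f) = ⊤) (w v : V) :
    QF B e f (transv B w 1 v) = QF B e f v + B v w * (QF B e f w + 1) := by
  rw [transv_apply, one_mul]
  rcases hF01 (B v w) with h | h
  · rw [h, zero_smul, add_zero, zero_mul, add_zero]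
  · rw [h, one_smul, QF_add B e f h2 hB hnd hef horth hspan, h]
    ring

end Abstract

/-- The elements of a subgroup `S` of `GL` preserving a function `Q`. -/
def stabQ {ι : Type} {F : Type*} [Field F] [Fintype ι] [DecidableEq ι] (S : Subgroup (GL ι F))
    (Q : (ι → F) → F) : Subgroup (GL ι F) where
  carrier := {g | g ∈ S ∧ ∀ v, Q ((g : Matrix ι ι F) *ᵥ v) = Q v}
  mul_mem' := fun {a b} ha hb => ⟨S.mul_mem ha.1 hb.1, fun v => by
    rw [Units.val_mul, ← Matrix.mulVec_mulVec, ha.2, hb.2]⟩
  one_mem' := ⟨S.one_mem, fun v => by simp⟩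
  inv_mem' := fun {a} ha => ⟨S.inv_mem ha.1, fun v => by
    have h := ha.2 (((a⁻¹ : GL ι F) : Matrix ι ι F) *ᵥ v)
    rw [Matrix.mulVec_mulVec, ← Units.val_mul, mul_inv_cancel, Units.val_one, Matrix.one_mulVec] at h
    exact h.symm⟩

/-- Over the field with 2 elements and for m ≥ 7, let D be a decomposition of F^(2m) into t pairwise orthogonal non-degenerate 2-dimensional subspaces for the standard alternating form (t = m ≥ 2). Then the elements of Sp_2m(2) permuting the members of D form a subgroup that is not maximal: some subgroup lies strictly between it and Sp_2m(2). -/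
theorem result {F : Type*} [Field F] [Fintype F] (m : ℕ) (hm : 7 ≤ m) (hq : Fintype.card F = 2) {t : ℕ} (D : Fin t → Submodule F (Fin m ⊕ Fin m → F)) (hD : Cfsg.Geo.IsNondegenerateMDecomposition (Cfsg.sympForm m F) 2 D) : ∃ K : Subgroup (Matrix.GeneralLinearGroup (Fin m ⊕ Fin m) F), Cfsg.Geo.decompositionStabilizer D ⊓ Cfsg.spGL m F < K ∧ K < Cfsg.spGL m F := by
  classical
  have hF01 : ∀ x : F, x = 0 ∨ x = 1 := by
    intro x
    by_contra hx
    push Not at hx
    have h1 : ({0, 1, x} : Finset F).card ≤ Fintype.card F := Finset.card_le_univ _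
    rw [hq, Finset.card_insert_of_notMem (by simp [hx.1.symm]),
      Finset.card_insert_of_notMem (by simp [hx.2.symm]), Finset.card_singleton] at h1
    omega
  have h2 : (1 : F) + 1 = 0 := by
    rcases hF01 (1 + 1) with h | h
    · exact h
    · exfalso
      exact one_ne_zero (α := F) (by linear_combination h)
  set B : LinearMap.BilinForm F (Fin m ⊕ Fin m → F) := sympB (F := F) m with hBdef
  have hBs : ∀ x y, B x y = Cfsg.sympForm m F x y := sympB_eq_sympForm m
  have hB : B.IsAlt := sympB_isAlt m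
  have hnd : ∀ x, (∀ y, B x y = 0) → x = 0 := (sympB_nondegenerate (F := F) m).1
  have hsym : ∀ x y, B x y = B y x := fun x y => by
    rw [← hB.neg_eq x y, neg_eq_self h2]
  have hex : ∀ j, ∃ e' f' : (Fin m ⊕ Fin m → F), e' ∈ D j ∧ f' ∈ D j ∧ B e' f' = 1 := by
    intro j
    have hne : D j ≠ ⊥ := by
      intro h
      have h3 := hD.decomp.finrank_eq j
      rw [h, finrank_bot] at h3
      omega
    obtain ⟨w, hw, hw0⟩ := Submodule.exists_mem_ne_zero_of_ne_bot hne
    obtain ⟨x, hx, hxw⟩ := (hD.nondegenerate j w hw hw0).1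
    refine ⟨x, w, hx, hw, ?_⟩
    rcases hF01 (B x w) with h | h
    · exfalso
      exact hxw (by rw [← hBs, h])
    · exact h
  choose e f he hf hef using hex
  have hfe : ∀ i, B (f i) (e i) = 1 := fun i => by rw [hsym, hef]
  have horth : ∀ i j, i ≠ j →
      B (e i) (e j) = 0 ∧ B (e i) (f j) = 0 ∧ B (f i) (e j) = 0 ∧ B (f i) (f j) = 0 := by
    intro i j hij
    refine ⟨?_, ?_, ?_, ?_⟩
    · rw [hBs]; exact hD.orthogonal i j hij _ (he i) _ (he j)
    · rw [hBs]; exact hD.orthogonal i j hij _ (he i) _ (hf j)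
    · rw [hBs]; exact hD.orthogonal i j hij _ (hf i) _ (he j)
    · rw [hBs]; exact hD.orthogonal i j hij _ (hf i) _ (hf j)
  have hDspan : ∀ j, Submodule.span F {e j, f j} = D j := by
    intro j
    apply Submodule.eq_of_le_of_finrank_eq
    · rw [Submodule.span_le]
      rintro x (rfl | rfl)
      · exact he j
      · exact hf j
    · rw [hD.decomp.finrank_eq j]
      have hli : LinearIndependent F ![e j, f j] := by
        rw [LinearIndependent.pair_iff]
        intro a b hab
        have h1 : B (a • e j + b • f j) (f j) = 0 := by rw [hab]; simp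
        have h3 : B (e j) (a • e j + b • f j) = 0 := by rw [hab]; simp
        simp only [map_add, map_smul, LinearMap.add_apply, LinearMap.smul_apply, smul_eq_mul,
          hef j, hB.self_eq_zero] at h1 h3
        exact ⟨by simpa using h1, by simpa using h3⟩
      have h4 := finrank_span_eq_card hli
      rw [Matrix.range_cons_cons_empty] at h4
      rw [h4]
      simp
  have hspan : Submodule.span F (Set.range e ∪ Set.range f) = ⊤ := by
    rw [eq_top_iff, ← hD.decomp.iSup_eq_top]
    apply iSup_le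
    intro j
    rw [← hDspan j]
    apply Submodule.span_mono
    rintro x (rfl | rfl)
    · left; exact ⟨j, rfl⟩
    · right; exact ⟨j, rfl⟩
  have ht : 7 ≤ t := by
    have h1 : finrank F (Fin m ⊕ Fin m → F) = 2 * m := by
      rw [Module.finrank_fintype_fun_eq_card]
      simp
      ring
    have h3 : finrank F ↥(Submodule.span F (Set.range (Sum.elim e f))) ≤ Fintype.card (Fin t ⊕ Fin t) :=
      finrank_range_le_card _
    rw [Set.Sum.elim_range, hspan, finrank_top, h1] at h3
    simp at h3
    omega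
  -- per-plane description of the quadratic form
  have hq1 : ∀ j v, (B v (f j)) ^ 2 + B v (f j) * B v (e j) + (B v (e j)) ^ 2 =
      if (∀ u ∈ D j, B v u = 0) then 0 else 1 := by
    intro j v
    by_cases hP : ∀ u ∈ D j, B v u = 0
    · rw [if_pos hP, hP _ (hf j), hP _ (he j)]
      ring
    · rw [if_neg hP]
      rcases hF01 (B v (f j)) with h3 | h3 <;> rcases hF01 (B v (e j)) with h4 | h4
      · exfalso
        apply hP
        intro u hu
        rw [← hDspan j] at hu
        obtain ⟨a, b, rfl⟩ := Submodule.mem_span_pair.mp hu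
        simp [h3, h4]
      · rw [h3, h4]; ring
      · rw [h3, h4]; ring
      · rw [h3, h4]; linear_combination h2
  set Q : (Fin m ⊕ Fin m → F) → F := QF B e f with hQdef
  have hQ1 : ∀ v, Q v = ∑ j, if (∀ u ∈ D j, B v u = 0) then (0 : F) else 1 := by
    intro v
    rw [hQdef]
    unfold QF
    exact Finset.sum_congr rfl (fun j _ => hq1 j v)
  have hQadd : ∀ u v, Q (u + v) = Q u + Q v + B u v :=
    QF_add B e f h2 hB hnd hef horth hspan
  have hQe : ∀ i, Q (e i) = 1 := QF_e B e f hB hef horth
  have hQtr : ∀ w v, Q (transv B w 1 v) = Q v + B v w * (Q w + 1) :=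
    QF_transv B e f hF01 h2 hB hnd hef horth hspan
  -- transvections as elements of GL
  have hRv : ∀ w v, Cfsg.sympTransvection m w (1 : F) *ᵥ v = transv B w 1 v := fun w v => by
    rw [← Matrix.toLin'_apply, toLin'_sympTransvection]
  have hRR : ∀ w, Cfsg.sympTransvection m w (1 : F) * Cfsg.sympTransvection m w 1 = 1 := by
    intro w
    apply Matrix.toLin'.injective
    rw [Matrix.toLin'_mul, toLin'_sympTransvection, ← Module.End.mul_eq_comp, transv_mul hB, h2,
      transv_zero, Matrix.toLin'_one]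
    rfl
  let r : (Fin m ⊕ Fin m → F) → GL (Fin m ⊕ Fin m) F := fun w =>
    ⟨Cfsg.sympTransvection m w (1 : F), Cfsg.sympTransvection m w (1 : F), hRR w, hRR w⟩
  have hrv : ∀ w v, ((r w : GL (Fin m ⊕ Fin m) F) : Matrix (Fin m ⊕ Fin m) (Fin m ⊕ Fin m) F) *ᵥ v
      = transv B w 1 v := fun w v => hRv w v
  have hrsp : ∀ w, r w ∈ Cfsg.spGL m F := by
    intro w u v
    show Cfsg.sympForm m F (((r w : GL (Fin m ⊕ Fin m) F) : Matrix _ _ F) *ᵥ u)
      (((r w : GL (Fin m ⊕ Fin m) F) : Matrix _ _ F) *ᵥ v) = Cfsg.sympForm m F u v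
    rw [hrv, hrv, ← hBs, transv_isometry hB, hBs]
  -- three distinct indices
  let i1 : Fin t := ⟨0, by omega⟩
  let i2 : Fin t := ⟨1, by omega⟩
  let i3 : Fin t := ⟨2, by omega⟩
  have h12 : i1 ≠ i2 := by simp [i1, i2, Fin.ext_iff]
  have h13 : i1 ≠ i3 := by simp [i1, i3, Fin.ext_iff]
  have h23 : i2 ≠ i3 := by simp [i2, i3, Fin.ext_iff]
  have hQ12 : Q (e i1 + e i2) = 0 := by
    rw [hQadd, hQe, hQe, (horth i1 i2 h12).1]
    linear_combination h2
  have hQ123 : Q (e i1 + e i2 + e i3) = 1 := by
    rw [hQadd, hQ12, hQe, map_add, LinearMap.add_apply, (horth i1 i3 h13).1, (horth i2 i3 h23).1]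
    ring
  refine ⟨stabQ (Cfsg.spGL m F) Q, ?_, ?_⟩
  · -- H < K
    rw [lt_iff_le_and_ne]
    constructor
    · rintro g ⟨⟨σ, hσ⟩, hsp⟩
      refine ⟨hsp, fun v => ?_⟩
      have hiso : ∀ x y, B ((g : Matrix _ _ F) *ᵥ x) ((g : Matrix _ _ F) *ᵥ y) = B x y := by
        intro x y
        rw [hBs, hBs]
        exact hsp x y
      rw [hQ1, hQ1, ← Equiv.sum_comp σ]
      apply Finset.sum_congr rfl
      intro i _
      have hiff : (∀ u ∈ D (σ i), B ((g : Matrix _ _ F) *ᵥ v) u = 0) ↔ (∀ u ∈ D i, B v u = 0) := by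
        constructor
        · intro h u hu
          have h3 : (g : Matrix _ _ F) *ᵥ u ∈ D (σ i) := by
            rw [← hσ i]
            exact ⟨u, hu, by rw [Matrix.toLin'_apply]⟩
          rw [← hiso]
          exact h _ h3
        · intro h u hu
          rw [← hσ i] at hu
          obtain ⟨u', hu', rfl⟩ := hu
          rw [Matrix.toLin'_apply, hiso]
          exact h u' hu'
      simp only [hiff]
    · intro hEq
      have hrK : r (e i1 + e i2 + e i3) ∈ stabQ (Cfsg.spGL m F) Q := by
        refine ⟨hrsp _, fun v => ?_⟩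
        rw [hrv, hQtr, hQ123, h2, mul_zero, add_zero]
      rw [← hEq] at hrK
      obtain ⟨σ, hσ⟩ := hrK.1
      have h3 : ((r (e i1 + e i2 + e i3) : GL (Fin m ⊕ Fin m) F) : Matrix _ _ F) *ᵥ (f i1) ∈ D (σ i1) := by
        rw [← hσ i1]
        exact ⟨f i1, hf i1, by rw [Matrix.toLin'_apply]⟩
      rw [hrv, transv_apply, one_mul] at h3
      have h4 : B (f i1) (e i1 + e i2 + e i3) = 1 := by
        rw [map_add, map_add, hfe, (horth i1 i2 h12).2.2.1, (horth i1 i3 h13).2.2.1]
        ring
      rw [h4, one_smul] at h3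
      -- z = f i1 + (e i1 + e i2 + e i3) ∈ D (σ i1)
      have h5 : σ i1 = i2 := by
        by_contra hne
        have h6 := hD.orthogonal (σ i1) i2 hne _ h3 _ (hf i2)
        rw [← hBs] at h6
        simp only [map_add, LinearMap.add_apply] at h6
        rw [(horth i1 i2 h12).2.2.2, (horth i1 i2 h12).2.1, hef i2, (horth i3 i2 (Ne.symm h23)).2.1] at h6
        simp at h6
      have h7 : σ i1 = i3 := by
        by_contra hne
        have h6 := hD.orthogonal (σ i1) i3 hne _ h3 _ (hf i3)
        rw [← hBs] at h6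
        simp only [map_add, LinearMap.add_apply] at h6
        rw [(horth i1 i3 h13).2.2.2, (horth i1 i3 h13).2.1, (horth i2 i3 h23).2.1, hef i3] at h6
        simp at h6
      exact h23 (h5.symm.trans h7)
  · -- K < Sp
    rw [lt_iff_le_and_ne]
    constructor
    · intro g hg
      exact hg.1
    · intro hEq
      have hrK : r (e i1 + e i2) ∈ stabQ (Cfsg.spGL m F) Q := by
        rw [hEq]
        exact hrsp _
      have h3 := hrK.2 (f i1)
      rw [hrv, hQtr, hQ12] at h3
      have h4 : B (f i1) (e i1 + e i2) = 1 := by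
        rw [map_add, hfe, (horth i1 i2 h12).2.2.1]
        ring
      rw [h4] at h3
      have h5 : (1 : F) = 0 := by linear_combination h3
      exact one_ne_zero h5

end Cfsg.Agent.S5648
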