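import Cfsg.Statements.S5652
import Cfsg.Agent.Lib.Helper97.SpGen

set_option autoImplicit false
open Cfsg

namespace Cfsg.Agent.S5652

open Cfsg.Agent.Lib.Helper97 Matrix

/-- For a finite field F of characteristic two and m ≥ 7, let Q be a non-degenerate quadratic form on F^(2m) whose polar form is the standard alternating form. Then the elements of Sp_2m(F) that are similarities of Q (they are exactly the isometries of Q) form a maximal subgroup of Sp_2m(F). -/
theorem result {F : Type*} [Field F] [Fintype F] (m : ℕ) (hm : 7 ≤ m) (heven : ¬ Odd (Fintype.card F)) (Q : (Fin m ⊕ Fin m → F) → F) (hQ : Cfsg.Geo.IsNondegenerateQuadraticForm Q) (hpol : ∀ u v, QuadraticMap.polar Q u v = Cfsg.sympForm m F u v) : Cfsg.Geo.IsMaximalIn (Cfsg.spGL m F) (Cfsg.Geo.quadSimilarityGroup Q ⊓ Cfsg.spGL m F) := by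
  classical
  -- characteristic two
  have h2 : (2 : F) = 0 := by
    obtain ⟨p, hp⟩ := CharP.exists F
    have := hp
    have : Fact p.Prime := ⟨CharP.char_is_prime F p⟩
    obtain ⟨n, hpn, hn⟩ := FiniteField.card F p
    have hev : Even (Fintype.card F) := Nat.not_odd_iff_even.mp heven
    rw [hn] at hev
    have hp2 : p = 2 := by
      have h2p : 2 ∣ p := Nat.Prime.dvd_of_dvd_pow Nat.prime_two hev.two_dvd
      exact ((Nat.prime_dvd_prime_iff_eq Nat.prime_two hpn).mp h2p).symm
    subst hp2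
    exact_mod_cast CharP.cast_eq_zero F 2
  have hsq : ∀ a : F, ∃ s : F, s ^ 2 = a := by
    have hinj : Function.Injective (fun s : F => s ^ 2) := by
      intro s t hst
      have hst' : s ^ 2 = t ^ 2 := hst
      have h3 : (s - t) ^ 2 = 0 := by
        linear_combination hst' - (s * t - t ^ 2) * h2
      exact sub_eq_zero.mp ((pow_eq_zero_iff (by norm_num)).mp h3)
    exact Finite.surjective_of_injective hinj
  have hpolar : ∀ u v, Q (u + v) = Q u + Q v + Cfsg.sympForm m F u v := by
    intro u v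
    rw [← hpol, QuadraticMap.polar]
    ring
  have hD : QData (Cfsg.sympForm m F) Q := by
    refine ⟨h2, hsq, sympForm_bil m, ?_, ?_, ?_, hpolar, hQ.smul⟩
    · intro u v
      rw [← hpol, ← hpol, QuadraticMap.polar_comm]
    · intro v
      have h1 := hpolar v v
      have h3 : v + v = (2 : F) • v := (two_smul F v).symm
      rw [h3, hQ.smul] at h1
      linear_combination -h1 + Q v * h2
    · intro v hv
      obtain ⟨x, hx⟩ := (hQ.nondegenerate v hv).1
      exact ⟨x, by rwa [hpol] at hx⟩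
  -- a nonzero singular vector
  have hsing : ∃ u : Fin m ⊕ Fin m → F, u ≠ 0 ∧ Q u = 0 := by
    set e₁ : Fin m ⊕ Fin m → F := Pi.single (Sum.inl ⟨0, by omega⟩) 1 with he₁
    set e₂ : Fin m ⊕ Fin m → F := Pi.single (Sum.inl ⟨1, by omega⟩) 1 with he₂
    have h12 : Cfsg.sympForm m F e₁ e₂ = 0 := by
      rw [he₁, he₂, Cfsg.sympForm, single_one_dotProduct, Matrix.mulVec_single_one]
      simp [Matrix.J]
    by_cases hq1 : Q e₁ = 0
    · refine ⟨e₁, fun h0 => ?_, hq1⟩
      have h1 := congrFun h0 (Sum.inl ⟨0, by omega⟩)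
      rw [he₁] at h1
      simp at h1
    · obtain ⟨s₁, hs₁⟩ := hsq (Q e₁)
      obtain ⟨s₂, hs₂⟩ := hsq (Q e₂)
      have hs10 : s₁ ≠ 0 := by
        rintro rfl
        apply hq1
        rw [← hs₁]
        ring
      refine ⟨s₂ • e₁ + s₁ • e₂, fun h0 => ?_, ?_⟩
      · have h1 := congrFun h0 (Sum.inl ⟨1, by omega⟩)
        rw [he₁, he₂] at h1
        simp at h1
        exact hs10 h1
      · rw [hpolar, hQ.smul, hQ.smul, hD.bil.smul_left, hD.bil.smul_right, h12, hs₁, hs₂]
        linear_combination (Q e₁ * Q e₂) * h2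
  obtain ⟨u, hu0, hQu⟩ := hsing
  refine ⟨lt_of_le_of_ne inf_le_right ?_, ?_⟩
  · -- proper
    intro heq
    obtain ⟨x, hx⟩ := hD.nd u hu0
    have h0 := tau_dot0 hD u 1
    have ht : tvG u ((1 : F) • rho (Cfsg.sympForm m F) u) h0 ∈ Cfsg.spGL m F := by
      intro x₁ x₂
      exact tau_pres_f hD u 1 h0 x₁ x₂
    rw [← heq] at ht
    obtain ⟨c, hc⟩ := (Subgroup.mem_inf.mp ht).1
    have e1 := hc x
    have e2 := hc (x + u)
    rw [tau_Q hD] at e1 e2
    rw [hQu] at e1
    rw [hpolar, hD.bil.add_left, hD.alt, hQu] at e2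
    have hc1 : (c : F) = 1 := by
      have h5 : ((c : F) - 1) * Cfsg.sympForm m F x u = 0 := by
        linear_combination e1 - e2
      rcases mul_eq_zero.mp h5 with h6 | h6
      · exact sub_eq_zero.mp h6
      · exact absurd h6 hx
    rw [hc1] at e1
    have h7 : Cfsg.sympForm m F x u ^ 2 = 0 := by
      linear_combination e1
    exact hx ((pow_eq_zero_iff (by norm_num)).mp h7)
  · -- maximal
    intro M hHM hMK
    by_cases hMH : M ≤ Cfsg.Geo.quadSimilarityGroup Q ⊓ Cfsg.spGL m F
    · exact Or.inl (le_antisymm hMH hHM)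
    · right
      obtain ⟨g, hgM, hgH⟩ := SetLike.not_le_iff_exists.mp hMH
      have hgf := hMK hgM
      have hgQ : ¬ ∀ x, Q ((g : Matrix (Fin m ⊕ Fin m) (Fin m ⊕ Fin m) F) *ᵥ x) = Q x := by
        intro hall
        apply hgH
        refine Subgroup.mem_inf.mpr ⟨⟨1, fun v => ?_⟩, hgf⟩
        rw [hall v, Units.val_one, one_mul]
      have hall := orth_overgroup hD M
        (fun t h1 h2 => hHM (Subgroup.mem_inf.mpr ⟨⟨1, fun v => by rw [h1 v, Units.val_one, one_mul]⟩, h2⟩))
        g hgM hgf hgQ ⟨u, hu0, hQu⟩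
      refine le_antisymm hMK ?_
      apply spGL_le_of_transv
      intro w c t ht
      refine (hall w c).2 t ?_
      rw [ht, Cfsg.sympTransvection, tv, rho_sympForm, Matrix.vecMulVec_smul]

end Cfsg.Agent.S5652
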