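import Cfsg.Statements.S5653
import Cfsg.Agent.Lib.Helper97.UnPar

set_option autoImplicit false
open Cfsg

namespace Cfsg.Agent.S5653

open Cfsg.Agent.Lib.Helper97

/-- Let F be the field with q² elements and n ≥ 13, and let SU_n(q) be the group of matrices of determinant one preserving the standard unitary form Σ u_i v_i^q on F^n (the intersection of the unitary group GU_n with the kernel of the determinant). The elements of SU_n(q) stabilising a non-zero subspace on which the form vanishes identically form a maximal subgroup of SU_n(q). -/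
theorem result {F : Type*} [Field F] [Fintype F] (n q : ℕ) (hF : Fintype.card F = q ^ 2) (hn : 13 ≤ n) (W : Submodule F (Fin n → F)) (hW0 : W ≠ ⊥) (hW : Cfsg.Geo.IsTotallySingularFor (Cfsg.hermForm n F q) W) : Cfsg.Geo.IsMaximalIn (Cfsg.GU n F q ⊓ Cfsg.Geo.specialLinear (Fin n) F) (Cfsg.Geo.subspaceStabilizer W ⊓ (Cfsg.GU n F q ⊓ Cfsg.Geo.specialLinear (Fin n) F)) := by
  classical
  refine ⟨lt_of_le_of_ne inf_le_right ?_, ?_⟩
  · intro heq
    obtain ⟨t, htG, htS⟩ := un_par_ne hF W hW0 hW
    rw [← heq] at htG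
    exact htS htG.1
  · intro M hHM hMK
    by_cases hMH : M ≤ Cfsg.Geo.subspaceStabilizer W ⊓
        (Cfsg.GU n F q ⊓ Cfsg.Geo.specialLinear (Fin n) F)
    · exact Or.inl (le_antisymm hMH hHM)
    · right
      obtain ⟨g, hgM, hgH⟩ := SetLike.not_le_iff_exists.mp hMH
      have hg : g ∉ Cfsg.Geo.subspaceStabilizer W :=
        fun h => hgH (Subgroup.mem_inf.mpr ⟨h, hMK hgM⟩)
      exact le_antisymm hMK (un_par_overgroup hF (by omega) W hW M hMK hHM g hgM hg)

end Cfsg.Agent.S5653
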