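import Cfsg.Statements.S5654
import Cfsg.Agent.Lib.Helper97.UnNd3

set_option autoImplicit false
open Cfsg

namespace Cfsg.Agent.S5654

open Cfsg.Agent.Lib.Helper97

/-- Let F be the field with q² elements and n ≥ 13. In SU_n(q) (determinant-one isometries of the standard unitary form on F^n) the stabiliser of a non-zero subspace W on which the form is non-degenerate and with 2 dim W < n is a maximal subgroup. -/
theorem result {F : Type*} [Field F] [Fintype F] (n q : ℕ) (hF : Fintype.card F = q ^ 2) (hn : 13 ≤ n) (W : Submodule F (Fin n → F)) (hW0 : W ≠ ⊥) (hW : Cfsg.Geo.IsNondegenerateOn (Cfsg.hermForm n F q) W) (hdim : 2 * Module.finrank F W < n) : Cfsg.Geo.IsMaximalIn (Cfsg.GU n F q ⊓ Cfsg.Geo.specialLinear (Fin n) F) (Cfsg.Geo.subspaceStabilizer W ⊓ (Cfsg.GU n F q ⊓ Cfsg.Geo.specialLinear (Fin n) F)) := by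
  classical
  refine ⟨lt_of_le_of_ne inf_le_right ?_, ?_⟩
  · intro heq
    obtain ⟨t, htG, htS⟩ := un_nd_ne hF hn W hW0 hW hdim
    rw [← heq] at htG
    exact htS htG.1
  · intro M hHM hMK
    by_cases hMH : M ≤ Cfsg.Geo.subspaceStabilizer W ⊓
        (Cfsg.GU n F q ⊓ Cfsg.Geo.specialLinear (Fin n) F)
    · exact Or.inl (le_antisymm hMH hHM)
    · right
      obtain ⟨g, hgM, hgH⟩ := SetLike.not_le_iff_exists.mp hMH
      have hg : g ∉ Cfsg.Geo.subspaceStabilizer W :=
        fun h => hgH (Subgroup.mem_inf.mpr ⟨h, hMK hgM⟩)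
      exact le_antisymm hMK (un_nd_overgroup hF hn W hW hdim M hMK hHM g hgM hg)

end Cfsg.Agent.S5654
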