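import Cfsg.Statements.S5656
import Mathlib
import Cfsg.Agent.Lib.Helper18.Unitary

set_option autoImplicit false
open Cfsg

namespace Cfsg.Agent.S5656

open Cfsg.Agent.Lib.Helper18 Cfsg.Agent.Lib.Helper7 Module Matrix

/-- The elements of a subgroup `S` of `GL` stabilising a set of vectors `L`. -/
def stabL {ι : Type} {F : Type*} [Field F] [Fintype ι] [DecidableEq ι] (S : Subgroup (GL ι F))
    (L : Set (ι → F)) : Subgroup (GL ι F) where
  carrier := {g | g ∈ S ∧ ∀ v, (g : Matrix ι ι F) *ᵥ v ∈ L ↔ v ∈ L}
  mul_mem' := fun {a b} ha hb => ⟨S.mul_mem ha.1 hb.1, fun v => by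
    rw [Units.val_mul, ← Matrix.mulVec_mulVec, ha.2, hb.2]⟩
  one_mem' := ⟨S.one_mem, fun v => by simp⟩
  inv_mem' := fun {a} ha => ⟨S.inv_mem ha.1, fun v => by
    have h := ha.2 (((a⁻¹ : GL ι F) : Matrix ι ι F) *ᵥ v)
    rw [Matrix.mulVec_mulVec, ← Units.val_mul, mul_inv_cancel, Units.val_one, Matrix.one_mulVec] at h
    exact h.symm⟩

/-- Let F be the field with 4 elements (q = 2) and n ≥ 13. Let D be a decomposition of F^n into t pairwise orthogonal 2-dimensional subspaces, each non-degenerate for the standard unitary form Σ u_i v_i². Then the elements of SU_n(2) permuting the members of D form a subgroup that is not maximal: some subgroup lies strictly between it and SU_n(2). -/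
theorem result {F : Type*} [Field F] [Fintype F] (n : ℕ) (hF : Fintype.card F = 4) (hn : 13 ≤ n) {t : ℕ} (D : Fin t → Submodule F (Fin n → F)) (hD : Cfsg.Geo.IsNondegenerateMDecomposition (Cfsg.hermForm n F 2) 2 D) : ∃ K : Subgroup (Matrix.GeneralLinearGroup (Fin n) F), Cfsg.Geo.decompositionStabilizer D ⊓ (Cfsg.GU n F 2 ⊓ Cfsg.Geo.specialLinear (Fin n) F) < K ∧ K < (Cfsg.GU n F 2 ⊓ Cfsg.Geo.specialLinear (Fin n) F) := by
  classical
  have hF' : Fintype.card F = 2 ^ 2 := by rw [hF]; norm_num
  have h2 : (1 : F) + 1 = 0 := by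
    have h4 : (Fintype.card F) • (1 : F) = 0 := card_nsmul_eq_zero
    rw [hF] at h4
    have h5 : ((1 : F) + 1) * (1 + 1) = 0 := by
      rw [← h4]
      simp
      ring
    exact mul_self_eq_zero.mp h5
  have hcube : ∀ x : F, x ≠ 0 → x ^ 3 = 1 := by
    intro x hx
    have := FiniteField.pow_card_sub_one_eq_one x hx
    rwa [hF] at this
  obtain ⟨ω, hω0, hω1⟩ : ∃ ω : F, ω ≠ 0 ∧ ω ≠ 1 := by
    by_contra hcon
    push Not at hcon
    have h1 : (Finset.univ : Finset F) ⊆ {0, 1} := by
      intro x _
      by_cases hx : x = 0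
      · simp [hx]
      · simp [hcon x hx]
    have h3 := Finset.card_le_card h1
    rw [Finset.card_univ, hF] at h3
    have h4 : ({0, 1} : Finset F).card ≤ 2 := Finset.card_le_two
    omega
  set h : (Fin n → F) → (Fin n → F) → F := Cfsg.hermForm n F 2 with hdef
  have hal : ∀ u u' v, h (u + u') v = h u v + h u' v := fun u u' v => hf_add_left n u u' v
  have hsl : ∀ (c : F) u v, h (c • u) v = c * h u v := fun c u v => hf_smul_left n c u v
  have har : ∀ u v v', h u (v + v') = h u v + h u v' := fun u v v' => hf_add_right hF' n u v v'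
  have hsr : ∀ (c : F) u v, h u (c • v) = c ^ 2 * h u v := fun c u v => hf_smul_right n c u v
  have hconj : ∀ u v, h v u = (h u v) ^ 2 := fun u v => hf_conj hF' n u v
  have hzl : ∀ v, h 0 v = 0 := fun v => hf_zero_left n v
  have hsymm0 : ∀ u v, h u v = 0 → h v u = 0 := fun u v huv => by
    rw [hconj, huv]
    ring
  have h01 : ∀ v, h v v = 0 ∨ h v v = 1 := by
    intro v
    have h1 := hconj v v
    have h3 : h v v * (h v v - 1) = 0 := by linear_combination -h1
    rcases mul_eq_zero.mp h3 with h4 | h4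
    · left; exact h4
    · right; exact sub_eq_zero.mp h4
  -- a unit vector in each member
  have hex : ∀ j, ∃ a : Fin n → F, a ∈ D j ∧ h a a = 1 := by
    intro j
    have hne : D j ≠ ⊥ := by
      intro h0
      have h3 := hD.decomp.finrank_eq j
      rw [h0, finrank_bot] at h3
      omega
    obtain ⟨w, hw, hw0⟩ := Submodule.exists_mem_ne_zero_of_ne_bot hne
    obtain ⟨x, hx, hxw⟩ := (hD.nondegenerate j w hw hw0).1
    by_contra hcon
    push Not at hcon
    have hiso : ∀ v ∈ D j, h v v = 0 := fun v hv => (h01 v).resolve_right (hcon v hv)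
    have e1 := hiso (x + w) ((D j).add_mem hx hw)
    have e2 := hiso (x + ω • w) ((D j).add_mem hx ((D j).smul_mem _ hw))
    simp only [hal, har, hsl, hsr, hiso x hx, hiso w hw] at e1 e2
    rw [hconj x w] at e1 e2
    have hc1 : h x w = 1 := by
      have h3 : h x w * (h x w + 1) = 0 := by linear_combination e1
      rcases mul_eq_zero.mp h3 with h4 | h4
      · exact absurd h4 hxw
      · linear_combination h4 - h2
    rw [hc1] at e2
    have h3 : ω * (ω + 1) = 0 := by linear_combination e2
    rcases mul_eq_zero.mp h3 with h4 | h4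
    · exact hω0 h4
    · exact hω1 (by linear_combination h4 - h2)
  choose a ha hau using hex
  -- a vector of a member orthogonal to its unit vector and isotropic is zero
  have hrad : ∀ j w, w ∈ D j → h w (a j) = 0 → h w w = 0 → w = 0 := by
    intro j w hwD hwa hww
    by_contra hw0
    obtain ⟨x', hx', hx'w⟩ := (hD.nondegenerate j w hwD hw0).1
    have haw : h (a j) w = 0 := hsymm0 _ _ hwa
    have hli : LinearIndependent F ![a j, w] := by
      rw [LinearIndependent.pair_iff]
      intro α β hab
      have h1 : h (α • a j + β • w) (a j) = 0 := by rw [hab]; exact hzl _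
      rw [hal, hsl, hsl, hau, hwa] at h1
      have hα : α = 0 := by linear_combination h1
      rw [hα, zero_smul, zero_add] at hab
      exact ⟨hα, (smul_eq_zero.mp hab).resolve_right hw0⟩
    have hspan : Submodule.span F {a j, w} = D j := by
      apply Submodule.eq_of_le_of_finrank_eq
      · rw [Submodule.span_le]
        rintro y (rfl | rfl)
        · exact ha j
        · exact hwD
      · rw [hD.decomp.finrank_eq j]
        have h4 := finrank_span_eq_card hli
        rw [Matrix.range_cons_cons_empty] at h4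
        rw [h4]
        simp
    rw [← hspan] at hx'
    obtain ⟨α, β, rfl⟩ := Submodule.mem_span_pair.mp hx'
    apply hx'w
    rw [hal, hsl, hsl, haw, hww]
    ring
  -- a second unit vector, orthogonal to the first
  have hexb : ∀ j, ∃ b : Fin n → F, b ∈ D j ∧ b ≠ 0 ∧ h b (a j) = 0 := by
    intro j
    have ha0 : a j ≠ 0 := by
      intro h0
      have h1 := hau j
      rw [h0, hzl] at h1
      exact zero_ne_one h1
    have hnle : ¬ (D j ≤ Submodule.span F {a j}) := by
      intro hle
      have h1 := Submodule.finrank_mono hle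
      rw [hD.decomp.finrank_eq j, finrank_span_singleton ha0] at h1
      omega
    obtain ⟨v, hv, hvn⟩ := SetLike.not_le_iff_exists.mp hnle
    refine ⟨v - h v (a j) • a j, ?_, ?_, ?_⟩
    · exact (D j).sub_mem hv ((D j).smul_mem _ (ha j))
    · intro h0
      apply hvn
      rw [sub_eq_zero.mp h0]
      exact Submodule.smul_mem _ _ (Submodule.mem_span_singleton_self _)
    · rw [sub_eq_add_neg, ← neg_smul, hal, hsl, hau]
      ring
  choose b hb hb0 hba using hexb
  have hab0 : ∀ j, h (a j) (b j) = 0 := fun j => hsymm0 _ _ (hba j)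
  have hbu : ∀ j, h (b j) (b j) = 1 := fun j =>
    (h01 _).resolve_left (fun h0 => hb0 j (hrad j _ (hb j) (hba j) h0))
  have haa : ∀ j k, j ≠ k → h (a j) (a k) = 0 := fun j k hjk =>
    hD.orthogonal j k hjk _ (ha j) _ (ha k)
  have hab : ∀ j k, j ≠ k → h (a j) (b k) = 0 := fun j k hjk =>
    hD.orthogonal j k hjk _ (ha j) _ (hb k)
  have hba' : ∀ j k, j ≠ k → h (b j) (a k) = 0 := fun j k hjk =>
    hD.orthogonal j k hjk _ (hb j) _ (ha k)
  have hbb : ∀ j k, j ≠ k → h (b j) (b k) = 0 := fun j k hjk =>
    hD.orthogonal j k hjk _ (hb j) _ (hb k)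
  -- structure of the non-isotropic vectors of a member
  have hstruct : ∀ j v, v ∈ D j → h v v ≠ 0 → h v (a j) ≠ 0 → v = h v (a j) • a j := by
    intro j v hv hvv hva
    obtain ⟨x, hx⟩ : ∃ x, x = h v (a j) := ⟨_, rfl⟩
    obtain ⟨w, hw⟩ : ∃ w, w = v - x • a j := ⟨_, rfl⟩
    have hwD : w ∈ D j := by
      rw [hw]
      exact (D j).sub_mem hv ((D j).smul_mem _ (ha j))
    have hwa : h w (a j) = 0 := by
      rw [hw, sub_eq_add_neg, ← neg_smul, hal, hsl, hau, ← hx]
      ring
    have haw : h (a j) w = 0 := hsymm0 _ _ hwa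
    have hveq : v = w + x • a j := by
      rw [hw]
      abel
    have hx0 : x ≠ 0 := by rw [hx]; exact hva
    have hvv' : h v v = h w w + 1 := by
      rw [hveq]
      simp only [hal, har, hsl, hsr, hwa, haw, hau]
      linear_combination hcube x hx0
    have hww : h w w = 0 := by
      rcases h01 v with h4 | h4
      · exact absurd h4 hvv
      · rw [h4] at hvv'
        linear_combination -hvv'
    have hw0 := hrad j w hwD hwa hww
    rw [← hx, hveq, hw0, zero_add]
  -- transvections
  have hTv : ∀ u x, Cfsg.unitaryTransvection n 2 u (1 : F) *ᵥ x = x + h x u • u := by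
    intro u x
    rw [unitaryTransvection_mulVec, one_mul]
  have hr : ∀ u, h u u = 0 → ∃ g : GL (Fin n) F,
      (∀ x, (g : Matrix (Fin n) (Fin n) F) *ᵥ x = x + h x u • u) ∧
      g ∈ Cfsg.GU n F 2 ⊓ Cfsg.Geo.specialLinear (Fin n) F := by
    intro u huu
    have hTT : Cfsg.unitaryTransvection n 2 u (1 : F) * Cfsg.unitaryTransvection n 2 u (1 : F) = 1 := by
      apply Matrix.toLin'.injective
      apply LinearMap.ext
      intro x
      rw [Matrix.toLin'_mul, LinearMap.comp_apply, Matrix.toLin'_apply, Matrix.toLin'_apply,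
        Matrix.toLin'_one, LinearMap.id_apply, hTv, hTv, hal, hsl, huu, mul_zero, add_zero]
      have h3 : h x u + h x u = 0 := by linear_combination (h x u) * h2
      rw [add_assoc, ← add_smul, h3, zero_smul, add_zero]
    let g : GL (Fin n) F :=
      ⟨Cfsg.unitaryTransvection n 2 u (1 : F), Cfsg.unitaryTransvection n 2 u (1 : F), hTT, hTT⟩
    have hgval : (g : Matrix (Fin n) (Fin n) F) = Cfsg.unitaryTransvection n 2 u (1 : F) := rfl
    refine ⟨g, fun x => by rw [hgval]; exact hTv u x, Subgroup.mem_inf.mpr ⟨?_, ?_⟩⟩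
    · rw [mem_GU_iff]
      intro x y
      rw [hgval, ← hdef, hTv, hTv]
      simp only [hal, har, hsl, hsr, huu]
      rw [hconj y u]
      linear_combination (h x u * (h y u) ^ 2) * h2
    · unfold Cfsg.Geo.specialLinear
      rw [MonoidHom.mem_ker, Units.ext_iff, Matrix.GeneralLinearGroup.val_det_apply, Units.val_one,
        hgval]
      have h3 := congrArg Matrix.det hTT
      rw [Matrix.det_mul, Matrix.det_one] at h3
      have h4 : ((Cfsg.unitaryTransvection n 2 u (1 : F)).det - 1) ^ 2 = 0 := by
        linear_combination h3 + (1 - (Cfsg.unitaryTransvection n 2 u (1 : F)).det) * h2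
      exact sub_eq_zero.mp ((pow_eq_zero_iff (two_ne_zero)).mp h4)
  -- two distinct indices
  have ht := hD.decomp.two_le
  let i1 : Fin t := ⟨0, by omega⟩
  let i2 : Fin t := ⟨1, by omega⟩
  have h12 : i1 ≠ i2 := by simp [i1, i2, Fin.ext_iff]
  have h21 : i2 ≠ i1 := Ne.symm h12
  set L : Set (Fin n → F) := {v | ∃ j, v ∈ D j ∧ h v v ≠ 0} with hL
  have haL : ∀ j, a j ∈ L := fun j => ⟨j, ha j, by rw [hau]; exact one_ne_zero⟩
  -- the swap of two unit vectors
  have hswap : ∀ p q, p ≠ q → ∀ v, v ∈ D p → h v v ≠ 0 → h v (a p) ≠ 0 →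
      v + h v (a p + a q) • (a p + a q) ∈ L := by
    intro p q hpq v hv hvv hva
    have h3 := hstruct p v hv hvv hva
    obtain ⟨x, hx⟩ : ∃ x, x = h v (a p) := ⟨_, rfl⟩
    rw [← hx] at h3 hva
    have h4 : v + h v (a p + a q) • (a p + a q) = x • a q := by
      rw [h3]
      simp only [har, hsl, hau, haa p q hpq]
      rw [mul_one, mul_zero, add_zero, smul_add, ← add_assoc, ← add_smul]
      have h5 : x + x = 0 := by linear_combination x * h2
      rw [h5, zero_smul, zero_add]
    rw [h4]
    refine ⟨q, (D q).smul_mem _ (ha q), ?_⟩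
    rw [hsl, hsr, hau]
    have h5 := hcube x hva
    intro h6
    have h7 : (1 : F) = 0 := by linear_combination h6 - h5
    exact one_ne_zero h7
  refine ⟨stabL (Cfsg.GU n F 2 ⊓ Cfsg.Geo.specialLinear (Fin n) F) L, ?_, ?_⟩
  · -- H < K
    rw [lt_iff_le_and_ne]
    constructor
    · have hfwd : ∀ g : GL (Fin n) F,
          g ∈ Cfsg.Geo.decompositionStabilizer D ⊓ (Cfsg.GU n F 2 ⊓ Cfsg.Geo.specialLinear (Fin n) F) →
          ∀ v ∈ L, (g : Matrix (Fin n) (Fin n) F) *ᵥ v ∈ L := by
        rintro g ⟨⟨σ, hσ⟩, hG⟩ v ⟨j, hvj, hvv⟩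
        refine ⟨σ j, ?_, ?_⟩
        · rw [← hσ j]
          exact ⟨v, hvj, by rw [Matrix.toLin'_apply]⟩
        · have h3 := (mem_GU_iff g).mp hG.1 v v
          rw [← hdef] at h3
          rw [h3]
          exact hvv
      intro g hg
      refine ⟨hg.2, fun v => ⟨fun hv => ?_, fun hv => hfwd g hg v hv⟩⟩
      have h3 := hfwd g⁻¹ (Subgroup.inv_mem _ hg) _ hv
      rw [Matrix.mulVec_mulVec, ← Units.val_mul, inv_mul_cancel, Units.val_one, Matrix.one_mulVec] at h3
      exact h3
    · intro hEq
      have huu : h (a i1 + a i2) (a i1 + a i2) = 0 := by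
        simp only [hal, har, hau, haa i1 i2 h12, haa i2 i1 h21]
        linear_combination h2
      obtain ⟨g, hgv, hgG⟩ := hr _ huu
      have hgg : ∀ x, (g : Matrix (Fin n) (Fin n) F) *ᵥ ((g : Matrix (Fin n) (Fin n) F) *ᵥ x) = x := by
        intro x
        rw [hgv, hgv, hal, hsl, huu, mul_zero, add_zero]
        have h3 : h x (a i1 + a i2) + h x (a i1 + a i2) = 0 := by
          linear_combination (h x (a i1 + a i2)) * h2
        rw [add_assoc, ← add_smul, h3, zero_smul, add_zero]
      have hfwd : ∀ v ∈ L, (g : Matrix (Fin n) (Fin n) F) *ᵥ v ∈ L := by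
        rintro v ⟨j, hvj, hvv⟩
        rw [hgv]
        by_cases h0 : h v (a i1 + a i2) = 0
        · rw [h0, zero_smul, add_zero]
          exact ⟨j, hvj, hvv⟩
        · by_cases hj1 : j = i1
          · subst hj1
            have h3 : h v (a i2) = 0 := hD.orthogonal _ _ h12 _ hvj _ (ha i2)
            have h4 : h v (a i1) ≠ 0 := by
              intro h5
              apply h0
              rw [har, h3, h5, add_zero]
            exact hswap _ i2 h12 v hvj hvv h4
          · by_cases hj2 : j = i2
            · subst hj2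
              have h3 : h v (a i1) = 0 := hD.orthogonal _ _ h21 _ hvj _ (ha i1)
              have h4 : h v (a i2) ≠ 0 := by
                intro h5
                apply h0
                rw [har, h3, h5, add_zero]
              rw [add_comm (a i1) (a i2)]
              exact hswap _ i1 h21 v hvj hvv h4
            · exfalso
              apply h0
              rw [har, hD.orthogonal j i1 hj1 _ hvj _ (ha i1), hD.orthogonal j i2 hj2 _ hvj _ (ha i2),
                add_zero]
      have hgK : g ∈ stabL (Cfsg.GU n F 2 ⊓ Cfsg.Geo.specialLinear (Fin n) F) L := by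
        refine ⟨hgG, fun v => ⟨fun hv => ?_, fun hv => hfwd v hv⟩⟩
        have h3 := hfwd _ hv
        rw [hgg] at h3
        exact h3
      rw [← hEq] at hgK
      obtain ⟨σ, hσ⟩ := hgK.1
      have h3 : (g : Matrix (Fin n) (Fin n) F) *ᵥ (a i1) ∈ D (σ i1) := by
        rw [← hσ i1]
        exact ⟨a i1, ha i1, by rw [Matrix.toLin'_apply]⟩
      have h4 : (g : Matrix (Fin n) (Fin n) F) *ᵥ (a i1) = a i2 := by
        rw [hgv, har, hau, haa i1 i2 h12, add_zero, one_smul, ← add_assoc]
        have h5 : a i1 + a i1 = 0 := by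
          rw [← two_smul F (a i1)]
          have h6 : (2 : F) = 0 := by linear_combination h2
          rw [h6, zero_smul]
        rw [h5, zero_add]
      rw [h4] at h3
      have h5 : σ i1 = i2 := by
        by_contra hne
        have h6 := hD.orthogonal (σ i1) i2 hne _ h3 _ (ha i2)
        rw [hau] at h6
        exact one_ne_zero h6
      have h6 : (g : Matrix (Fin n) (Fin n) F) *ᵥ (b i1) ∈ D (σ i1) := by
        rw [← hσ i1]
        exact ⟨b i1, hb i1, by rw [Matrix.toLin'_apply]⟩
      rw [hgv, har, hba, hba' i1 i2 h12, add_zero, zero_smul, add_zero, h5] at h6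
      obtain ⟨x, hx, hxb⟩ := (hD.nondegenerate i1 (b i1) (hb i1) (hb0 i1)).1
      exact hxb (hD.orthogonal i1 i2 h12 _ hx _ h6)
  · -- K < G
    rw [lt_iff_le_and_ne]
    constructor
    · exact fun g hg => hg.1
    · intro hEq
      have huu : h (a i1 + b i1 + (a i2 + b i2)) (a i1 + b i1 + (a i2 + b i2)) = 0 := by
        simp only [hal, har, hau, hbu, hba, hab0, haa i1 i2 h12, haa i2 i1 h21, hab i1 i2 h12,
          hab i2 i1 h21, hba' i1 i2 h12, hba' i2 i1 h21, hbb i1 i2 h12, hbb i2 i1 h21]
        linear_combination (2 : F) * h2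
      obtain ⟨g, hgv, hgG⟩ := hr _ huu
      have hgK : g ∈ stabL (Cfsg.GU n F 2 ⊓ Cfsg.Geo.specialLinear (Fin n) F) L := by
        rw [hEq]
        exact hgG
      obtain ⟨j, hzj, -⟩ := (hgK.2 (a i1)).mpr (haL i1)
      rw [hgv] at hzj
      have h3 : h (a i1) (a i1 + b i1 + (a i2 + b i2)) = 1 := by
        simp only [har, hau, hab0, haa i1 i2 h12, hab i1 i2 h12]
        ring
      rw [h3, one_smul] at hzj
      have h5 : j = i1 := by
        by_contra hne
        have h6 := hD.orthogonal j i1 hne _ hzj _ (hb i1)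
        simp only [hal, hau, hbu, hba, hab0, hab i2 i1 h21, hbb i2 i1 h21] at h6
        simp at h6
      have h7 : j = i2 := by
        by_contra hne
        have h6 := hD.orthogonal j i2 hne _ hzj _ (ha i2)
        simp only [hal, hau, hbu, hba, hab0, haa i1 i2 h12, hba' i1 i2 h12] at h6
        simp at h6
      exact h12 (h5.symm.trans h7)

end Cfsg.Agent.S5656
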