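import Cfsg.Statements.S5664
import Mathlib
import Cfsg.Agent.Lib.Helper97.SpOver2
import Cfsg.Agent.Lib.Helper71.SpKMain
import Cfsg.Agent.Lib.Helper94.SpJ13

set_option autoImplicit false
open Cfsg

namespace Cfsg.Agent.S5664

/-- For a finite field F and m ≥ 7, let K be a subfield of the algebra of 2m × 2m matrices over F containing the scalars, of prime degree r over F, whose elements k are self-adjoint for the standard alternating form f on F^(2m) (f(k u, v) = f(u, k v)) and satisfy f(k v, v) = 0 for all v. Then the elements of Sp_2m(F) normalising K form a maximal subgroup of Sp_2m(F). -/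
theorem result {F : Type*} [Field F] [Fintype F] (m : ℕ) (hm : 7 ≤ m) (r : ℕ) (hr : r.Prime) (K : Subalgebra F (Matrix (Fin m ⊕ Fin m) (Fin m ⊕ Fin m) F)) (hK : Cfsg.Geo.IsFieldSubalgebra r K) (hsa : Cfsg.Geo.IsSelfAdjointFor (Cfsg.sympForm m F) K) (halt : ∀ k ∈ K, ∀ v : (Fin m ⊕ Fin m → F), Cfsg.sympForm m F (Matrix.mulVec k v) v = 0) : Cfsg.Geo.IsMaximalIn (Cfsg.spGL m F) (Cfsg.Geo.subalgebraNormalizer K ⊓ Cfsg.spGL m F) := by
  have hf := Cfsg.Agent.Lib.Helper97.sympForm_symp (F := F) m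
  haveI : Nonempty (Fin m ⊕ Fin m) := ⟨Sum.inl ⟨0, by omega⟩⟩
  obtain ⟨L, instL, instA, instFD, S, hrange, hrank⟩ :=
    Cfsg.Agent.Lib.Helper94.SpJ13.exists_KS hf K hK halt
  have hcard : Fintype.card (Fin m ⊕ Fin m) = m + m := by
    rw [Fintype.card_sum, Fintype.card_fin]
  constructor
  · refine lt_of_le_of_ne inf_le_right ?_
    intro heq
    obtain ⟨g, hgiso, hgN⟩ :=
      Cfsg.Agent.Lib.Helper94.SpJ13.exists_iso_not_normalizer hf hr.two_le K hK halt (by omega)
    have hg : g ∈ Cfsg.spGL m F := (Cfsg.Agent.Lib.Helper97.mem_spGL_iff m g).mpr hgiso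
    rw [← heq] at hg
    exact hgN (Subgroup.mem_inf.mp hg).1
  · intro M hNM hMle
    by_cases hMN : M = Cfsg.Geo.subalgebraNormalizer K ⊓ Cfsg.spGL m F
    · exact Or.inl hMN
    · right
      apply le_antisymm hMle
      apply Cfsg.Agent.Lib.Helper97.spGL_le_of_InS
      have hex : ∃ h ∈ M, h ∉ Cfsg.Geo.subalgebraNormalizer K := by
        by_contra hcon
        push Not at hcon
        exact hMN (le_antisymm (fun g hg => Subgroup.mem_inf.mpr ⟨hcon g hg, hMle hg⟩) hNM)
      obtain ⟨h, hhM, hhN⟩ := hex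
      have hMf : ∀ g ∈ M, ∀ x y : Fin m ⊕ Fin m → F,
          Cfsg.sympForm m F ((g : Matrix (Fin m ⊕ Fin m) (Fin m ⊕ Fin m) F).mulVec x)
            ((g : Matrix (Fin m ⊕ Fin m) (Fin m ⊕ Fin m) F).mulVec y) = Cfsg.sympForm m F x y :=
        fun g hg => (Cfsg.Agent.Lib.Helper97.mem_spGL_iff m g).mp (hMle hg)
      have hNG : S.NG ≤ M := by
        intro g hg
        apply hNM
        refine Subgroup.mem_inf.mpr ⟨?_, (Cfsg.Agent.Lib.Helper97.mem_spGL_iff m g).mpr (S.NG_f hg)⟩
        rw [← hrange]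
        exact S.NG_le_normalizer hg
      exact S.overgroup hf (by rw [hrank]; exact hr) (by omega) M hNG hMf h hhM
        (by rw [hrange]; exact hhN)

end Cfsg.Agent.S5664
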