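import Cfsg.Statements.S5667
import Mathlib
import Cfsg.Agent.Lib.Helper97.SpOver2
import Cfsg.Agent.Lib.Helper98.TensO3
-- import your own Cfsg.Agent.* helpers here

set_option autoImplicit false
open Cfsg

namespace Cfsg.Agent.S5667

open Cfsg.Agent.Lib.Helper97 Cfsg.Agent.Lib.Helper98 Module Matrix Kronecker

/-- Over the field with 3 elements and for m ≥ 7, suppose the standard alternating form on F^(2m) is similar, through P and e, to the tensor product of a non-degenerate symplectic form f₁ on F^(n₁) and a non-degenerate symmetric bilinear form f₂ on F^3. Then the elements of Sp_2m(3) in the stabiliser of this tensor decomposition form a subgroup that is not maximal: some subgroup lies strictly between it and Sp_2m(3). -/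
theorem result {F : Type*} [Field F] [Fintype F] (m : ℕ) (hm : 7 ≤ m) (hq : Fintype.card F = 3) (n₁ : ℕ) (e : (Fin m ⊕ Fin m) ≃ Fin n₁ × Fin 3) (P : Matrix.GeneralLinearGroup (Fin m ⊕ Fin m) F) (f₁ : (Fin n₁ → F) → (Fin n₁ → F) → F) (f₂ : (Fin 3 → F) → (Fin 3 → F) → F) (hf₁ : Cfsg.Geo.IsSymplecticForm f₁) (hf₂ : Cfsg.Geo.IsSymmetricForm f₂) (hT : Cfsg.Geo.IsTensorFormStructure id (Cfsg.sympForm m F) f₁ f₂ e P) : ∃ K : Subgroup (Matrix.GeneralLinearGroup (Fin m ⊕ Fin m) F), Cfsg.Geo.tensorProductSubgroup n₁ 3 e P ⊓ Cfsg.spGL m F < K ∧ K < Cfsg.spGL m F := by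
  classical
  have h3 := three_eq_zero hq
  have hf := sympForm_symp (F := F) m
  obtain ⟨f, hfdef⟩ : ∃ f : (Fin m ⊕ Fin m → F) → (Fin m ⊕ Fin m → F) → F,
      f = Cfsg.sympForm m F := ⟨_, rfl⟩
  rw [← hfdef] at hT hf
  obtain ⟨c, T, hTD⟩ := tData_of f f₁ f₂ hf₁.bilinear hf₂.bilinear e P hT
  have hc := hTD.c_ne
  have hpure := hTD.pure
  have fal := hf.bilinear.add_left
  have far := hf.bilinear.add_right
  have fsl := hf.bilinear.smul_left
  have fsr := hf.bilinear.smul_right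
  have f1al := hf₁.bilinear.add_left
  have f1sl := hf₁.bilinear.smul_left
  -- the frame of the three-dimensional factor
  obtain ⟨B₂, hB₂⟩ : ∃ B : LinearMap.BilinForm F (Fin 3 → F), ∀ u v, B u v = f₂ u v :=
    ⟨bilOf f₂ hf₂.bilinear, fun _ _ => rfl⟩
  have hB₂s : B₂.IsSymm := ⟨fun x y => by rw [hB₂, hB₂]; exact hf₂.symm x y⟩
  obtain ⟨d, a, hfr⟩ := exists_frame3 hq B₂ hB₂s ⊤
    (by rw [finrank_top, Module.finrank_fintype_fun_eq_card, Fintype.card_fin])
    (fun w _ hw => by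
      obtain ⟨x, hx⟩ := (hf₂.nondegenerate w hw).1
      exact ⟨x, Submodule.mem_top, by rw [hB₂]; exact hx⟩)
  have hd := hfr.ne
  have haa : ∀ j, f₂ (a j) (a j) = d := fun j => by rw [← hB₂]; exact hfr.norm j
  have hao : ∀ j k, j ≠ k → f₂ (a j) (a k) = 0 := fun j k hjk => by
    rw [← hB₂]; exact hfr.orth j k hjk
  -- a pair of vectors of the symplectic factor
  have hn₁ : 0 < n₁ := by
    have h1 := Fintype.card_congr e
    simp at h1
    omega
  obtain ⟨u₁, hu₁⟩ : ∃ u : Fin n₁ → F, u ≠ 0 := by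
    refine ⟨Pi.single ⟨0, hn₁⟩ 1, fun h0 => ?_⟩
    have h4 := congrFun h0 ⟨0, hn₁⟩
    simp at h4
  obtain ⟨u₂, hu₂⟩ := (hf₁.nondegenerate u₁ hu₁).1
  have h11 : f₁ u₁ u₁ = 0 := hf₁.alternating u₁
  have h12 : f₁ u₁ u₂ ≠ 0 := by rw [hf₁.skew]; exact neg_ne_zero.mpr hu₂
  obtain ⟨i₁, hi₁⟩ : ∃ i, u₁ i ≠ 0 := by
    by_contra hcon
    push Not at hcon
    exact hu₁ (funext hcon)
  obtain ⟨κ, hκ⟩ : ∃ κ : F, κ = c * (f₁ u₂ u₁ * d) := ⟨_, rfl⟩
  have hκ0 : κ ≠ 0 := by rw [hκ]; exact mul_ne_zero hc (mul_ne_zero hu₂ hd)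
  -- the set of frame tensors
  obtain ⟨L, hL⟩ : ∃ L : Set (Fin m ⊕ Fin m → F),
      L = {v | ∃ u w, v = T (tp u w) ∧ IsFVOn B₂ ⊤ w} := ⟨_, rfl⟩
  have hLa : ∀ u j, T (tp u (a j)) ∈ L := fun u j => by
    rw [hL]
    exact ⟨u, a j, rfl, hfr.isFV hq hB₂s j⟩
  have hLe : ∀ v ∈ L, ∃ u j, v = T (tp u (a j)) := by
    intro v hv
    rw [hL] at hv
    obtain ⟨u, w, rfl, hw⟩ := hv
    obtain ⟨j, hj | hj⟩ := hfr.eq_of_isFV hq hw
    · exact ⟨u, j, by rw [hj]⟩
    · exact ⟨-u, j, by rw [hj, tp_neg_left]⟩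
  have hpa : ∀ u u' j k, f (T (tp u (a j))) (T (tp u' (a k))) =
      if j = k then c * (f₁ u u' * d) else 0 := by
    intro u u' j k
    rw [hpure]
    split_ifs with hjk
    · rw [hjk, haa]
    · rw [hao j k hjk]
      ring
  -- symplectic transvections
  have hstv : ∀ x : Fin m ⊕ Fin m → F, ∃ g : GL (Fin m ⊕ Fin m) F, g ∈ Cfsg.spGL m F ∧
      ∀ v, (g : Matrix (Fin m ⊕ Fin m) (Fin m ⊕ Fin m) F) *ᵥ v = v + f v x • x := by
    intro x
    refine ⟨tvG x ((1 : F) • rho f x) (symp_dot0 hf x 1), ?_, fun v => ?_⟩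
    · intro u v
      subst hfdef
      exact stv_pres hf x 1 u v
    · rw [stv_mulVec hf, one_mul]
  refine ⟨stabSet (Cfsg.spGL m F) L, ?_, ?_⟩
  · rw [lt_iff_le_and_ne]
    constructor
    · intro g hg
      apply mem_stabSet_of_forall _ _ _ hg.2
      intro v hv
      rw [hL] at hv ⊢
      obtain ⟨u, w, rfl, hw⟩ := hv
      obtain ⟨A, B, hAB⟩ := hTD.grp g hg.1
      rw [hAB, kron_mulVec_tp]
      refine ⟨_, _, rfl, ?_⟩
      have hiso : ∀ w' w'', f₁ (A.1 *ᵥ u₂) (A.1 *ᵥ u₁) * f₂ (B.1 *ᵥ w') (B.1 *ᵥ w'') =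
          f₁ u₂ u₁ * f₂ w' w'' := by
        intro w' w''
        have h4 : f ((g : Matrix (Fin m ⊕ Fin m) (Fin m ⊕ Fin m) F) *ᵥ T (tp u₂ w'))
            ((g : Matrix (Fin m ⊕ Fin m) (Fin m ⊕ Fin m) F) *ᵥ T (tp u₁ w'')) =
            f (T (tp u₂ w')) (T (tp u₁ w'')) := by
          rw [hfdef]
          exact hg.2 _ _
        rw [hAB, hAB, kron_mulVec_tp, kron_mulVec_tp, hpure, hpure] at h4
        exact mul_left_cancel₀ hc h4
      refine ⟨Submodule.mem_top, ?_, ?_⟩
      · rw [hB₂]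
        intro h0
        have h4 := hiso w w
        rw [h0, mul_zero] at h4
        have h5 := hw.2.1
        rw [hB₂] at h5
        exact mul_ne_zero hu₂ h5 h4.symm
      · intro w' _ hw' hw'0
        rw [hB₂] at hw'0 ⊢
        obtain ⟨w'', hw''⟩ : ∃ w'', B.1 *ᵥ w'' = w' :=
          ⟨(B⁻¹).1 *ᵥ w', by
            rw [Matrix.mulVec_mulVec, ← Units.val_mul, mul_inv_cancel, Units.val_one,
              Matrix.one_mulVec]⟩
        have hw''0 : w'' ≠ 0 := by
          rintro rfl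
          apply hw'
          rw [← hw'', Matrix.mulVec_zero]
        rw [← hw''] at hw'0 ⊢
        have h4 := hiso w w''
        rw [hw'0, mul_zero] at h4
        have h5 : f₂ w w'' = 0 := by
          rcases mul_eq_zero.mp h4.symm with h6 | h6
          · exact absurd h6 hu₂
          · exact h6
        have h6 := hw.2.2 w'' Submodule.mem_top hw''0 (by rw [hB₂]; exact h5)
        rw [hB₂] at h6
        intro h0
        have h7 := hiso w'' w''
        rw [h0, mul_zero] at h7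
        exact mul_ne_zero hu₂ h6 h7.symm
    · intro hEq
      obtain ⟨g, hgS, hgv⟩ := hstv (T (tp u₁ (a 0)))
      have hg0 : ∀ u, (g : Matrix (Fin m ⊕ Fin m) (Fin m ⊕ Fin m) F) *ᵥ T (tp u (a 0)) =
          T (tp (u + (c * (f₁ u u₁ * d)) • u₁) (a 0)) := by
        intro u
        rw [hgv, hpa, if_pos rfl, tp_add_left, tp_smul_left, hTD.add, hTD.smul]
      have hg1 : ∀ u j, j ≠ 0 → (g : Matrix (Fin m ⊕ Fin m) (Fin m ⊕ Fin m) F) *ᵥ T (tp u (a j)) =
          T (tp u (a j)) := by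
        intro u j hj
        rw [hgv, hpa, if_neg hj, zero_smul, add_zero]
      have hgK : g ∈ stabSet (Cfsg.spGL m F) L := by
        apply mem_stabSet_of_forall _ _ _ hgS
        intro v hv
        obtain ⟨u, j, rfl⟩ := hLe v hv
        by_cases hj : j = 0
        · rw [hj, hg0]
          exact hLa _ 0
        · rw [hg1 u j hj]
          exact hLa u j
      rw [← hEq] at hgK
      obtain ⟨A, B, hAB⟩ := hTD.grp g hgK.1
      have e1 : ∀ u, tp (A.1 *ᵥ u) (B.1 *ᵥ a 1) = tp u (a 1) := by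
        intro u
        apply hTD.inj
        rw [← kron_mulVec_tp, ← hAB, hg1 u 1 (by decide)]
      have e0 : ∀ u, tp (A.1 *ᵥ u) (B.1 *ᵥ a 0) = tp (u + (c * (f₁ u u₁ * d)) • u₁) (a 0) := by
        intro u
        apply hTD.inj
        rw [← kron_mulVec_tp, ← hAB, hg0]
      have hane : ∀ j, ∃ i, a j i ≠ 0 := by
        intro j
        by_contra hcon
        push Not at hcon
        have h0 : a j = 0 := funext hcon
        have h4 := haa j
        rw [h0, bilin_zero_left hf₂.bilinear] at h4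
        exact hd h4.symm
      obtain ⟨k₁, hk₁⟩ := hane 1
      obtain ⟨k₀, hk₀⟩ := hane 0
      have hα : (B.1 *ᵥ a 1) k₁ ≠ 0 := by
        intro h0
        have h4 := congrFun (e1 u₁) (i₁, k₁)
        simp only [tp] at h4
        rw [h0, mul_zero] at h4
        exact mul_ne_zero hi₁ hk₁ h4.symm
      obtain ⟨lam, hlam⟩ : ∃ lam : F, lam = a 1 k₁ * ((B.1 *ᵥ a 1) k₁)⁻¹ := ⟨_, rfl⟩
      have hAs : ∀ u i, (A.1 *ᵥ u) i = lam * u i := by
        intro u i
        have h4 := congrFun (e1 u) (i, k₁)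
        simp only [tp] at h4
        rw [hlam]
        field_simp
        linear_combination h4
      obtain ⟨ν, hν⟩ : ∃ ν : F, ν = (a 0 k₀)⁻¹ * (lam * (B.1 *ᵥ a 0) k₀) := ⟨_, rfl⟩
      have hτs : ∀ u i, (u + (c * (f₁ u u₁ * d)) • u₁) i = ν * u i := by
        intro u i
        have h4 := congrFun (e0 u) (i, k₀)
        simp only [tp] at h4
        rw [hAs] at h4
        generalize (u + (c * (f₁ u u₁ * d)) • u₁) i = τ at h4 ⊢
        rw [hν]
        field_simp
        linear_combination -h4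
      have hν1 : ν = 1 := by
        have h4 := hτs u₁ i₁
        rw [h11, zero_mul, mul_zero, zero_smul, add_zero] at h4
        have h5 : (ν - 1) * u₁ i₁ = 0 := by linear_combination -h4
        rcases mul_eq_zero.mp h5 with h6 | h6
        · linear_combination h6
        · exact absurd h6 hi₁
      have h4 := hτs u₂ i₁
      rw [hν1, ← hκ, Pi.add_apply, Pi.smul_apply, smul_eq_mul] at h4
      have h5 : κ * u₁ i₁ = 0 := by linear_combination h4
      exact mul_ne_zero hκ0 hi₁ h5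
  · rw [lt_iff_le_and_ne]
    constructor
    · exact fun g hg => hg.1
    · intro hEq
      obtain ⟨x, hx⟩ : ∃ x, x = T (tp u₁ (a 0 + a 1)) := ⟨_, rfl⟩
      have hxexp : x = T (tp u₁ (a 0)) + T (tp u₁ (a 1)) := by
        rw [hx, tp_add_right, hTD.add]
      obtain ⟨g, hgS, hgv⟩ := hstv x
      have hgK : g ∈ stabSet (Cfsg.spGL m F) L := by
        rw [hEq]
        exact hgS
      have h4 : (g : Matrix (Fin m ⊕ Fin m) (Fin m ⊕ Fin m) F) *ᵥ T (tp u₂ (a 0)) ∈ L :=
        (hgK.2 _).mpr (hLa u₂ 0)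
      have hvx : f (T (tp u₂ (a 0))) x = κ := by
        rw [hxexp, far, hpa, hpa, if_pos rfl, if_neg (by decide), add_zero, hκ]
      rw [hgv, hvx] at h4
      obtain ⟨u, j, hju⟩ := hLe _ h4
      have hx0 : ∀ u', f x (T (tp u' (a 0))) = c * (f₁ u₁ u' * d) := by
        intro u'
        rw [hxexp, fal, hpa, hpa, if_pos rfl, if_neg (by decide), add_zero]
      have hx1 : ∀ u', f x (T (tp u' (a 1))) = c * (f₁ u₁ u' * d) := by
        intro u'
        rw [hxexp, fal, hpa, hpa, if_pos rfl, if_neg (by decide), zero_add]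
      by_cases hj : j = 1
      · have h5 : f (T (tp u₂ (a 0)) + κ • x) (T (tp u₁ (a 0))) = κ := by
          rw [fal, fsl, hpa, if_pos rfl, hx0, h11, hκ]
          ring
        rw [hju, hpa, if_neg (by rw [hj]; decide)] at h5
        exact hκ0 h5.symm
      · have h5 : f (T (tp u₂ (a 0)) + κ • x) (T (tp u₂ (a 1))) = κ * (c * (f₁ u₁ u₂ * d)) := by
          rw [fal, fsl, hpa, if_neg (by decide), hx1]
          ring
        rw [hju, hpa, if_neg hj] at h5
        exact mul_ne_zero hκ0 (mul_ne_zero hc (mul_ne_zero h12 hd)) h5.symm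

end Cfsg.Agent.S5667
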