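import Cfsg.Statements.S5671
import Mathlib
import Cfsg.Agent.Lib.Helper18.Unitary

set_option autoImplicit false
set_option linter.unusedSectionVars false
open Cfsg

namespace Cfsg.Agent.S5671

open Cfsg.Agent.Lib.Helper18 Cfsg.Agent.Lib.Helper7 Module Matrix Kronecker

/-- The elements of a subgroup `S` of `GL` stabilising a set of vectors `L`. -/
def stabL {ι : Type} {F : Type*} [Field F] [Fintype ι] [DecidableEq ι] (S : Subgroup (GL ι F))
    (L : Set (ι → F)) : Subgroup (GL ι F) where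
  carrier := {g | g ∈ S ∧ ∀ v, (g : Matrix ι ι F) *ᵥ v ∈ L ↔ v ∈ L}
  mul_mem' := fun {a b} ha hb => ⟨S.mul_mem ha.1 hb.1, fun v => by
    rw [Units.val_mul, ← Matrix.mulVec_mulVec, ha.2, hb.2]⟩
  one_mem' := ⟨S.one_mem, fun v => by simp⟩
  inv_mem' := fun {a} ha => ⟨S.inv_mem ha.1, fun v => by
    have h := ha.2 (((a⁻¹ : GL ι F) : Matrix ι ι F) *ᵥ v)
    rw [Matrix.mulVec_mulVec, ← Units.val_mul, mul_inv_cancel, Units.val_one, Matrix.one_mulVec] at h
    exact h.symm⟩

section UF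

variable {F : Type*} [Field F] {ι : Type} [Fintype ι] [DecidableEq ι]

/-- The properties of a non-degenerate hermitian form over the field with four elements. -/
structure UData (f : (ι → F) → (ι → F) → F) : Prop where
  al : ∀ u u' v, f (u + u') v = f u v + f u' v
  sl : ∀ (c : F) u v, f (c • u) v = c * f u v
  ar : ∀ u v v', f u (v + v') = f u v + f u v'
  sr : ∀ (c : F) u v, f u (c • v) = c ^ 2 * f u v
  conj : ∀ u v, f v u = (f u v) ^ 2
  nd : ∀ v, v ≠ 0 → ∃ x, f x v ≠ 0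

theorem uData_of [Fintype F] (hF : Fintype.card F = 4) (f : (ι → F) → (ι → F) → F)
    (hf : Cfsg.Geo.IsUnitaryFormPow 2 f) : UData f := by
  have hF' : Fintype.card F = 2 ^ 2 := by rw [hF]; norm_num
  refine ⟨hf.add_left, hf.smul_left, ?_, ?_, fun u v => hf.herm v u, fun v hv => (hf.nondegenerate v hv).1⟩
  · intro u v v'
    rw [hf.herm u (v + v'), hf.add_left, herm_add_pow hF', ← hf.herm, ← hf.herm]
  · intro c u v
    rw [hf.herm u (c • v), hf.smul_left, mul_pow, ← hf.herm]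

namespace UData

variable {f : (ι → F) → (ι → F) → F} (U : UData f)
include U

theorem zl (v : ι → F) : f 0 v = 0 := by
  have h := U.sl 0 0 v
  rw [zero_smul, zero_mul] at h
  exact h

theorem zr (v : ι → F) : f v 0 = 0 := by
  have h := U.sr 0 v 0
  rw [zero_smul] at h
  rw [h]
  ring

theorem symm0 (u v : ι → F) (h : f u v = 0) : f v u = 0 := by
  rw [U.conj u v, h]
  ring

theorem self01 (v : ι → F) : f v v = 0 ∨ f v v = 1 := by
  have h1 := U.conj v v
  have h3 : f v v * (f v v - 1) = 0 := by linear_combination -h1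
  rcases mul_eq_zero.mp h3 with h4 | h4
  · left; exact h4
  · right; exact sub_eq_zero.mp h4

theorem sum_left {κ : Type*} (s : Finset κ) (x : κ → ι → F) (v : ι → F) :
    f (∑ a ∈ s, x a) v = ∑ a ∈ s, f (x a) v := by
  classical
  induction s using Finset.induction_on with
  | empty => simp [U.zl]
  | insert a s ha ih => rw [Finset.sum_insert ha, Finset.sum_insert ha, U.al, ih]

theorem sum_right {κ : Type*} (s : Finset κ) (u : ι → F) (x : κ → ι → F) :
    f u (∑ a ∈ s, x a) = ∑ a ∈ s, f u (x a) := by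
  classical
  induction s using Finset.induction_on with
  | empty => simp [U.zr]
  | insert a s ha ih => rw [Finset.sum_insert ha, Finset.sum_insert ha, U.ar, ih]

theorem eq_formOfGram (x y : ι → F) :
    f x y = Cfsg.Geo.formOfGram (fun t : F => t ^ 2) (Cfsg.Geo.gramMatrix f) x y := by
  unfold Cfsg.Geo.formOfGram Cfsg.Geo.gramMatrix
  conv_lhs => rw [pi_eq_sum_univ' x, pi_eq_sum_univ' y]
  rw [U.sum_left]
  apply Finset.sum_congr rfl
  intro a _
  rw [U.sl, U.sum_right, Finset.mul_sum]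
  apply Finset.sum_congr rfl
  intro b _
  rw [U.sr]
  ring

/-- A unit vector exists. -/
theorem exists_unit (h2 : (1 : F) + 1 = 0) (ω : F) (hω0 : ω ≠ 0) (hω1 : ω ≠ 1)
    (hne : ∃ v : ι → F, v ≠ 0) : ∃ a : ι → F, f a a = 1 := by
  obtain ⟨w, hw0⟩ := hne
  obtain ⟨x, hxw⟩ := U.nd w hw0
  by_contra hcon
  push Not at hcon
  have hiso : ∀ v, f v v = 0 := fun v => (U.self01 v).resolve_right (hcon v)
  have e1 := hiso (x + w)
  have e2 := hiso (x + ω • w)
  simp only [U.al, U.ar, U.sl, U.sr, hiso x, hiso w] at e1 e2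
  rw [U.conj x w] at e1 e2
  have hc1 : f x w = 1 := by
    have h3 : f x w * (f x w + 1) = 0 := by linear_combination e1
    rcases mul_eq_zero.mp h3 with h4 | h4
    · exact absurd h4 hxw
    · linear_combination h4 - h2
  rw [hc1] at e2
  have h3 : ω * (ω + 1) = 0 := by linear_combination e2
  rcases mul_eq_zero.mp h3 with h4 | h4
  · exact hω0 h4
  · exact hω1 (by linear_combination h4 - h2)

/-- A vector outside a line and orthogonal to a given unit vector. -/
theorem exists_perp (hcard : 2 ≤ Fintype.card ι) (a : ι → F) (ha : f a a = 1) :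
    ∃ z : ι → F, z ≠ 0 ∧ f z a = 0 := by
  have ha0 : a ≠ 0 := by
    intro h0
    rw [h0, U.zl] at ha
    exact zero_ne_one ha
  have hnle : ¬ ((⊤ : Submodule F (ι → F)) ≤ Submodule.span F {a}) := by
    intro hle
    have h1 := Submodule.finrank_mono hle
    rw [finrank_top, Module.finrank_fintype_fun_eq_card, finrank_span_singleton ha0] at h1
    omega
  obtain ⟨v, -, hvn⟩ := SetLike.not_le_iff_exists.mp hnle
  refine ⟨v - f v a • a, ?_, ?_⟩
  · intro h0
    apply hvn
    rw [sub_eq_zero.mp h0]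
    exact Submodule.smul_mem _ _ (Submodule.mem_span_singleton_self _)
  · rw [sub_eq_add_neg, ← neg_smul, U.al, U.sl, ha]
    ring

/-- A non-zero isotropic vector exists in dimension at least two. -/
theorem exists_iso (h2 : (1 : F) + 1 = 0) (ω : F) (hω0 : ω ≠ 0) (hω1 : ω ≠ 1)
    (hcard : 2 ≤ Fintype.card ι) : ∃ w : ι → F, w ≠ 0 ∧ f w w = 0 := by
  have hne : ∃ v : ι → F, v ≠ 0 := by
    have hpos : 0 < Fintype.card ι := by omega
    obtain ⟨i⟩ := Fintype.card_pos_iff.mp hpos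
    refine ⟨Pi.single i 1, fun h => ?_⟩
    have := congrFun h i
    simp at this
  obtain ⟨a, ha⟩ := U.exists_unit h2 ω hω0 hω1 hne
  obtain ⟨z, hz0, hza⟩ := U.exists_perp hcard a ha
  rcases U.self01 z with h | h
  · exact ⟨z, hz0, h⟩
  · refine ⟨a + z, ?_, ?_⟩
    · intro h0
      have h3 : f (a + z) a = 0 := by rw [h0, U.zl]
      rw [U.al, ha, hza] at h3
      simp at h3
    · simp only [U.al, U.ar, ha, h, hza, U.symm0 z a hza]
      linear_combination h2

/-- An orthonormal frame of a two-dimensional space. -/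
theorem exists_frame (h2 : (1 : F) + 1 = 0) (ω : F) (hω0 : ω ≠ 0) (hω1 : ω ≠ 1)
    (hcard : Fintype.card ι = 2) :
    ∃ a₁ a₂ : ι → F, f a₁ a₁ = 1 ∧ f a₂ a₂ = 1 ∧ f a₁ a₂ = 0 ∧ f a₂ a₁ = 0 ∧
      (∀ u, u = f u a₁ • a₁ + f u a₂ • a₂) := by
  have hne : ∃ v : ι → F, v ≠ 0 := by
    have hpos : 0 < Fintype.card ι := by omega
    obtain ⟨i⟩ := Fintype.card_pos_iff.mp hpos
    refine ⟨Pi.single i 1, fun h => ?_⟩
    have := congrFun h i
    simp at this
  obtain ⟨a, ha⟩ := U.exists_unit h2 ω hω0 hω1 hne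
  obtain ⟨z, hz0, hza⟩ := U.exists_perp (by omega) a ha
  have haz : f a z = 0 := U.symm0 _ _ hza
  have hli : LinearIndependent F ![a, z] := by
    rw [LinearIndependent.pair_iff]
    intro α β hab
    have h1 : f (α • a + β • z) a = 0 := by rw [hab]; exact U.zl _
    rw [U.al, U.sl, U.sl, ha, hza] at h1
    have hα : α = 0 := by linear_combination h1
    rw [hα, zero_smul, zero_add] at hab
    exact ⟨hα, (smul_eq_zero.mp hab).resolve_right hz0⟩
  have hspan : Submodule.span F (Set.range ![a, z]) = ⊤ :=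
    hli.span_eq_top_of_card_eq_finrank' (by
      rw [Module.finrank_fintype_fun_eq_card, hcard]
      simp)
  have hexp0 : ∀ x : ι → F, ∃ α β : F, x = α • a + β • z := by
    intro x
    have hx : x ∈ Submodule.span F (Set.range ![a, z]) := by
      rw [hspan]
      trivial
    rw [Matrix.range_cons_cons_empty] at hx
    obtain ⟨α, β, h⟩ := Submodule.mem_span_pair.mp hx
    exact ⟨α, β, h.symm⟩
  have hzz : f z z = 1 := by
    rcases U.self01 z with h | h
    · exfalso
      obtain ⟨x, hx⟩ := U.nd z hz0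
      obtain ⟨α, β, rfl⟩ := hexp0 x
      apply hx
      rw [U.al, U.sl, U.sl, haz, h]
      ring
    · exact h
  refine ⟨a, z, ha, hzz, haz, hza, ?_⟩
  intro u
  obtain ⟨α, β, hu⟩ := hexp0 u
  have hα : f u a = α := by
    rw [hu, U.al, U.sl, U.sl, ha, hza]
    ring
  have hβ : f u z = β := by
    rw [hu, U.al, U.sl, U.sl, haz, hzz]
    ring
  rw [hα, hβ]
  exact hu

/-- The non-isotropic vectors of a plane are the multiples of the two frame vectors. -/
theorem frame_struct (h2 : (1 : F) + 1 = 0) (hcube : ∀ x : F, x ≠ 0 → x ^ 3 = 1)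
    {a₁ a₂ : ι → F} (h11 : f a₁ a₁ = 1) (h22 : f a₂ a₂ = 1) (h12 : f a₁ a₂ = 0) (h21 : f a₂ a₁ = 0)
    (hexp : ∀ u, u = f u a₁ • a₁ + f u a₂ • a₂) (u : ι → F) (hu : f u u ≠ 0) :
    (f u a₁ ≠ 0 ∧ u = f u a₁ • a₁) ∨ (f u a₂ ≠ 0 ∧ u = f u a₂ • a₂) := by
  obtain ⟨α, hα⟩ : ∃ α, α = f u a₁ := ⟨_, rfl⟩
  obtain ⟨β, hβ⟩ : ∃ β, β = f u a₂ := ⟨_, rfl⟩
  have hu' := hexp u
  rw [← hα, ← hβ] at hu' ⊢
  have hn : f u u = α ^ 3 + β ^ 3 := by
    conv_lhs => rw [hu']
    simp only [U.al, U.ar, U.sl, U.sr, h11, h22, h12, h21]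
    ring
  by_cases hα0 : α = 0
  · right
    have hβ0 : β ≠ 0 := by
      rintro rfl
      apply hu
      rw [hn, hα0]
      ring
    refine ⟨hβ0, ?_⟩
    rw [hα0, zero_smul, zero_add] at hu'
    exact hu'
  · by_cases hβ0 : β = 0
    · left
      refine ⟨hα0, ?_⟩
      rw [hβ0, zero_smul, add_zero] at hu'
      exact hu'
    · exfalso
      apply hu
      rw [hn, hcube α hα0, hcube β hβ0]
      exact h2

end UData

end UF

section Tensor

variable {F : Type*} [Field F] {n₁ n₂ : ℕ}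

/-- A pure tensor, as a function on the product of the index sets. -/
def tp (u : Fin n₁ → F) (w : Fin n₂ → F) : Fin n₁ × Fin n₂ → F := fun p => u p.1 * w p.2

theorem tp_smul_left (c : F) (u : Fin n₁ → F) (w : Fin n₂ → F) : tp (c • u) w = c • tp u w := by
  funext p
  simp [tp, mul_assoc]

theorem tp_smul_right (c : F) (u : Fin n₁ → F) (w : Fin n₂ → F) : tp u (c • w) = c • tp u w := by
  funext p
  simp only [tp, Pi.smul_apply, smul_eq_mul]
  ring

theorem tp_add_right (u : Fin n₁ → F) (w w' : Fin n₂ → F) : tp u (w + w') = tp u w + tp u w' := by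
  funext p
  simp only [tp, Pi.add_apply]
  ring

theorem formOfGram_tp (G₁ : Matrix (Fin n₁) (Fin n₁) F) (G₂ : Matrix (Fin n₂) (Fin n₂) F)
    (u u' : Fin n₁ → F) (w w' : Fin n₂ → F) :
    Cfsg.Geo.formOfGram (fun t : F => t ^ 2) (G₁ ⊗ₖ G₂) (tp u w) (tp u' w') =
      Cfsg.Geo.formOfGram (fun t : F => t ^ 2) G₁ u u' *
        Cfsg.Geo.formOfGram (fun t : F => t ^ 2) G₂ w w' := by
  unfold Cfsg.Geo.formOfGram tp
  rw [Fintype.sum_prod_type, Finset.sum_mul_sum]
  apply Finset.sum_congr rfl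
  intro i _
  apply Finset.sum_congr rfl
  intro j _
  rw [Fintype.sum_prod_type, Finset.sum_mul_sum]
  apply Finset.sum_congr rfl
  intro i' _
  apply Finset.sum_congr rfl
  intro j' _
  simp only [Matrix.kroneckerMap_apply]
  ring

theorem kron_mulVec_tp (A : Matrix (Fin n₁) (Fin n₁) F) (B : Matrix (Fin n₂) (Fin n₂) F)
    (u : Fin n₁ → F) (w : Fin n₂ → F) : (A ⊗ₖ B) *ᵥ tp u w = tp (A *ᵥ u) (B *ᵥ w) := by
  funext p
  obtain ⟨i, j⟩ := p
  simp only [Matrix.mulVec, dotProduct, tp, Matrix.kroneckerMap_apply]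
  rw [Fintype.sum_prod_type, Finset.sum_mul_sum]
  apply Finset.sum_congr rfl
  intro i' _
  apply Finset.sum_congr rfl
  intro j' _
  ring

end Tensor

/-- Unitary transvections with isotropic centre over the field with four elements. -/
theorem exists_transv {F : Type*} [Field F] [Fintype F] (hF : Fintype.card F = 4) (n : ℕ)
    (u : Fin n → F) (huu : Cfsg.hermForm n F 2 u u = 0) :
    ∃ g : GL (Fin n) F,
      (∀ x, (g : Matrix (Fin n) (Fin n) F) *ᵥ x = x + Cfsg.hermForm n F 2 x u • u) ∧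
      g ∈ Cfsg.GU n F 2 ⊓ Cfsg.Geo.specialLinear (Fin n) F := by
  have hF' : Fintype.card F = 2 ^ 2 := by rw [hF]; norm_num
  have h2 : (1 : F) + 1 = 0 := by
    have h4 : (Fintype.card F) • (1 : F) = 0 := card_nsmul_eq_zero
    rw [hF] at h4
    have h5 : ((1 : F) + 1) * (1 + 1) = 0 := by
      rw [← h4]
      simp
      ring
    exact mul_self_eq_zero.mp h5
  set h : (Fin n → F) → (Fin n → F) → F := Cfsg.hermForm n F 2 with hdef
  have hal : ∀ u u' v, h (u + u') v = h u v + h u' v := fun u u' v => hf_add_left n u u' v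
  have hsl : ∀ (c : F) u v, h (c • u) v = c * h u v := fun c u v => hf_smul_left n c u v
  have har : ∀ u v v', h u (v + v') = h u v + h u v' := fun u v v' => hf_add_right hF' n u v v'
  have hsr : ∀ (c : F) u v, h u (c • v) = c ^ 2 * h u v := fun c u v => hf_smul_right n c u v
  have hconj : ∀ u v, h v u = (h u v) ^ 2 := fun u v => hf_conj hF' n u v
  have hTv : ∀ x, Cfsg.unitaryTransvection n 2 u (1 : F) *ᵥ x = x + h x u • u := by
    intro x
    rw [unitaryTransvection_mulVec, one_mul]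
  have hTT : Cfsg.unitaryTransvection n 2 u (1 : F) * Cfsg.unitaryTransvection n 2 u (1 : F) = 1 := by
    apply Matrix.toLin'.injective
    apply LinearMap.ext
    intro x
    rw [Matrix.toLin'_mul, LinearMap.comp_apply, Matrix.toLin'_apply, Matrix.toLin'_apply,
      Matrix.toLin'_one, LinearMap.id_apply, hTv, hTv, hal, hsl, huu, mul_zero, add_zero]
    have h3 : h x u + h x u = 0 := by linear_combination (h x u) * h2
    rw [add_assoc, ← add_smul, h3, zero_smul, add_zero]
  let g : GL (Fin n) F :=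
    ⟨Cfsg.unitaryTransvection n 2 u (1 : F), Cfsg.unitaryTransvection n 2 u (1 : F), hTT, hTT⟩
  have hgval : (g : Matrix (Fin n) (Fin n) F) = Cfsg.unitaryTransvection n 2 u (1 : F) := rfl
  refine ⟨g, fun x => by rw [hgval]; exact hTv x, Subgroup.mem_inf.mpr ⟨?_, ?_⟩⟩
  · rw [mem_GU_iff]
    intro x y
    rw [hgval, ← hdef, hTv, hTv]
    simp only [hal, har, hsl, hsr, huu]
    rw [hconj y u]
    linear_combination (h x u * (h y u) ^ 2) * h2
  · unfold Cfsg.Geo.specialLinear
    rw [MonoidHom.mem_ker, Units.ext_iff, Matrix.GeneralLinearGroup.val_det_apply, Units.val_one,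
      hgval]
    have h3 := congrArg Matrix.det hTT
    rw [Matrix.det_mul, Matrix.det_one] at h3
    have h4 : ((Cfsg.unitaryTransvection n 2 u (1 : F)).det - 1) ^ 2 = 0 := by
      linear_combination h3 + (1 - (Cfsg.unitaryTransvection n 2 u (1 : F)).det) * h2
    exact sub_eq_zero.mp ((pow_eq_zero_iff (two_ne_zero)).mp h4)

/-- For n = 2n₂ ≥ 14, the stabiliser in SU_n(2) of a tensor decomposition of type GU_2(2) ⊗ GU_{n₂}(2) is not maximal in SU_n(2). -/
theorem result {F : Type*} [Field F] [Fintype F] (n : ℕ) (hF : Fintype.card F = 4) (hn : 13 ≤ n) (n₂ : ℕ) (e : Fin n ≃ Fin 2 × Fin n₂) (P : Matrix.GeneralLinearGroup (Fin n) F) (f₁ : (Fin 2 → F) → (Fin 2 → F) → F) (f₂ : (Fin n₂ → F) → (Fin n₂ → F) → F) (hf₁ : Cfsg.Geo.IsUnitaryFormPow 2 f₁) (hf₂ : Cfsg.Geo.IsUnitaryFormPow 2 f₂) (hT : Cfsg.Geo.IsTensorFormStructure (fun x : F => x ^ 2) (Cfsg.hermForm n F 2) f₁ f₂ e P) : ∃ K : Subgroup (Matrix.GeneralLinearGroup (Fin n) F), Cfsg.Geo.tensorProductSubgroup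 2 n₂ e P ⊓ (Cfsg.GU n F 2 ⊓ Cfsg.Geo.specialLinear (Fin n) F) < K ∧ K < (Cfsg.GU n F 2 ⊓ Cfsg.Geo.specialLinear (Fin n) F) := by
  classical
  have hF' : Fintype.card F = 2 ^ 2 := by rw [hF]; norm_num
  have h2 : (1 : F) + 1 = 0 := by
    have h4 : (Fintype.card F) • (1 : F) = 0 := card_nsmul_eq_zero
    rw [hF] at h4
    have h5 : ((1 : F) + 1) * (1 + 1) = 0 := by
      rw [← h4]
      simp
      ring
    exact mul_self_eq_zero.mp h5
  have hcube : ∀ x : F, x ≠ 0 → x ^ 3 = 1 := by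
    intro x hx
    have := FiniteField.pow_card_sub_one_eq_one x hx
    rwa [hF] at this
  obtain ⟨ω, hω0, hω1⟩ : ∃ ω : F, ω ≠ 0 ∧ ω ≠ 1 := by
    by_contra hcon
    push Not at hcon
    have h1 : (Finset.univ : Finset F) ⊆ {0, 1} := by
      intro x _
      by_cases hx : x = 0
      · simp [hx]
      · simp [hcon x hx]
    have h3 := Finset.card_le_card h1
    rw [Finset.card_univ, hF] at h3
    have h4 : ({0, 1} : Finset F).card ≤ 2 := Finset.card_le_two
    omega
  have hn2 : 7 ≤ n₂ := by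
    have h1 := Fintype.card_congr e
    simp at h1
    omega
  have U1 := uData_of hF f₁ hf₁
  have U2 := uData_of hF f₂ hf₂
  obtain ⟨a₁, a₂, h11, h22, h12, h21, hexp⟩ := U1.exists_frame h2 ω hω0 hω1 (by simp)
  obtain ⟨w₀, hw₀, hw₀₀⟩ := U2.exists_iso h2 ω hω0 hω1 (by simp; omega)
  obtain ⟨y₁, hy₁⟩ := U2.exists_unit h2 ω hω0 hω1 ⟨w₀, hw₀⟩
  obtain ⟨y, hy⟩ := U2.nd w₀ hw₀
  obtain ⟨j₀, hj₀⟩ : ∃ j, w₀ j ≠ 0 := by
    by_contra hcon
    push Not at hcon
    exact hw₀ (funext hcon)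
  have ha₁0 : ∃ i, a₁ i ≠ 0 := by
    by_contra hcon
    push Not at hcon
    have h0 : a₁ = 0 := funext hcon
    rw [h0, U1.zl] at h11
    exact zero_ne_one h11
  have ha₂0 : ∃ i, a₂ i ≠ 0 := by
    by_contra hcon
    push Not at hcon
    have h0 : a₂ = 0 := funext hcon
    rw [h0, U1.zl] at h22
    exact zero_ne_one h22
  obtain ⟨c, hc0, hc⟩ := hT
  set h : (Fin n → F) → (Fin n → F) → F := Cfsg.hermForm n F 2 with hdef
  have hal : ∀ u u' v, h (u + u') v = h u v + h u' v := fun u u' v => hf_add_left n u u' v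
  have hsl : ∀ (c : F) u v, h (c • u) v = c * h u v := fun c u v => hf_smul_left n c u v
  obtain ⟨T, hTdef⟩ : ∃ T : (Fin 2 × Fin n₂ → F) → (Fin n → F),
      T = fun x => (P : Matrix (Fin n) (Fin n) F) *ᵥ (x ∘ e) := ⟨_, rfl⟩
  have hTadd : ∀ x y, T (x + y) = T x + T y := by
    intro x y
    rw [hTdef]
    show (P : Matrix (Fin n) (Fin n) F) *ᵥ (x ∘ e + y ∘ e) = _
    rw [Matrix.mulVec_add]
  have hTsmul : ∀ (a : F) x, T (a • x) = a • T x := by
    intro a x
    rw [hTdef]
    show (P : Matrix (Fin n) (Fin n) F) *ᵥ (a • (x ∘ e)) = _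
    rw [Matrix.mulVec_smul]
  have hTinj : ∀ x y, T x = T y → x = y := by
    intro x y hxy
    rw [hTdef] at hxy
    have h3 := congrArg (fun v => ((P⁻¹ : GL (Fin n) F) : Matrix (Fin n) (Fin n) F) *ᵥ v) hxy
    simp only [Matrix.mulVec_mulVec, ← Units.val_mul, inv_mul_cancel, Units.val_one,
      Matrix.one_mulVec] at h3
    funext p
    have h4 := congrFun h3 (e.symm p)
    simpa using h4
  have hpure : ∀ u w u' w', h (T (tp u w)) (T (tp u' w')) = c * (f₁ u u' * f₂ w w') := by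
    intro u w u' w'
    rw [hTdef]
    beta_reduce
    rw [hc, formOfGram_tp, ← U1.eq_formOfGram, ← U2.eq_formOfGram]
  set L : Set (Fin n → F) := {v | ∃ u w, v = T (tp u w) ∧ f₁ u u ≠ 0} with hL
  have hHform : ∀ g ∈ Cfsg.Geo.tensorProductSubgroup 2 n₂ e P,
      ∃ (A : Matrix (Fin 2) (Fin 2) F) (B : Matrix (Fin n₂) (Fin n₂) F),
        ∀ x, (g : Matrix (Fin n) (Fin n) F) *ᵥ T x = T ((A ⊗ₖ B) *ᵥ x) := by
    rintro g ⟨g', ⟨k, ⟨A, B, hk⟩, rfl⟩, rfl⟩
    refine ⟨A, B, fun x => ?_⟩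
    rw [← hk, hTdef]
    simp only [MulEquiv.coe_toMonoidHom, MulAut.conj_apply, Units.val_mul]
    rw [← Matrix.mulVec_mulVec, ← Matrix.mulVec_mulVec, Matrix.mulVec_mulVec _ (P⁻¹ : GL (Fin n) F).val,
      ← Units.val_mul, inv_mul_cancel, Units.val_one, Matrix.one_mulVec]
    congr 1
    show (Matrix.reindexAlgEquiv F F e.symm (k : Matrix (Fin 2 × Fin n₂) (Fin 2 × Fin n₂) F)) *ᵥ
      (x ∘ e) = _
    rw [Matrix.coe_reindexAlgEquiv, Matrix.reindex_apply, Equiv.symm_symm,
      Matrix.submatrix_mulVec_equiv]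
    congr 1
    congr 1
    funext p
    simp
  -- elements of the tensor subgroup that are isometries preserve L
  have hHL : ∀ g : GL (Fin n) F, g ∈ Cfsg.Geo.tensorProductSubgroup 2 n₂ e P ⊓
      (Cfsg.GU n F 2 ⊓ Cfsg.Geo.specialLinear (Fin n) F) →
      ∀ v ∈ L, (g : Matrix (Fin n) (Fin n) F) *ᵥ v ∈ L := by
    rintro g ⟨hgT, hgG⟩ v ⟨u, w, rfl, huu⟩
    obtain ⟨A, B, hAB⟩ := hHform g hgT
    refine ⟨A *ᵥ u, B *ᵥ w, ?_, ?_⟩
    · rw [hAB, kron_mulVec_tp]
    · intro h0
      have h3 := (mem_GU_iff g).mp hgG.1 (T (tp u y₁)) (T (tp u y₁))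
      rw [← hdef, hAB, kron_mulVec_tp, hpure, hpure, h0, hy₁] at h3
      have h4 : c * f₁ u u = 0 := by linear_combination -h3
      rcases mul_eq_zero.mp h4 with h5 | h5
      · exact hc0 h5
      · exact huu h5
  refine ⟨stabL (Cfsg.GU n F 2 ⊓ Cfsg.Geo.specialLinear (Fin n) F) L, ?_, ?_⟩
  · -- H < K
    rw [lt_iff_le_and_ne]
    constructor
    · intro g hg
      refine ⟨hg.2, fun v => ⟨fun hv => ?_, fun hv => hHL g hg v hv⟩⟩
      have h3 := hHL g⁻¹ (Subgroup.inv_mem _ hg) _ hv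
      rw [Matrix.mulVec_mulVec, ← Units.val_mul, inv_mul_cancel, Units.val_one, Matrix.one_mulVec] at h3
      exact h3
    · intro hEq
      have huu : h (T (tp a₁ w₀)) (T (tp a₁ w₀)) = 0 := by
        rw [hpure, hw₀₀]
        ring
      obtain ⟨g, hgv, hgG⟩ := exists_transv hF n _ huu
      rw [← hdef] at hgv
      have hgg : ∀ x, (g : Matrix (Fin n) (Fin n) F) *ᵥ ((g : Matrix (Fin n) (Fin n) F) *ᵥ x) = x := by
        intro x
        rw [hgv, hgv, hal, hsl, huu, mul_zero, add_zero]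
        have h3 : h x (T (tp a₁ w₀)) + h x (T (tp a₁ w₀)) = 0 := by
          linear_combination (h x (T (tp a₁ w₀))) * h2
        rw [add_assoc, ← add_smul, h3, zero_smul, add_zero]
      have hfwd : ∀ v ∈ L, (g : Matrix (Fin n) (Fin n) F) *ᵥ v ∈ L := by
        rintro v ⟨u, w, rfl, huu'⟩
        rw [hgv, hpure]
        by_cases h0 : f₁ u a₁ = 0
        · rw [h0, zero_mul, mul_zero, zero_smul, add_zero]
          exact ⟨u, w, rfl, huu'⟩
        · rcases U1.frame_struct h2 hcube h11 h22 h12 h21 hexp u huu' with ⟨-, h3⟩ | ⟨-, h3⟩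
          · refine ⟨a₁, f₁ u a₁ • w + (c * (f₁ u a₁ * f₂ w w₀)) • w₀, ?_, ?_⟩
            · rw [tp_add_right, tp_smul_right, tp_smul_right, hTadd, hTsmul, hTsmul]
              congr 2
              conv_lhs => rw [h3]
              rw [tp_smul_left, hTsmul]
            · rw [h11]
              exact one_ne_zero
          · exfalso
            apply h0
            rw [h3, U1.sl, h21, mul_zero]
      have hgK : g ∈ stabL (Cfsg.GU n F 2 ⊓ Cfsg.Geo.specialLinear (Fin n) F) L := by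
        refine ⟨hgG, fun v => ⟨fun hv => ?_, fun hv => hfwd v hv⟩⟩
        have h3 := hfwd _ hv
        rw [hgg] at h3
        exact h3
      rw [← hEq] at hgK
      obtain ⟨A, B, hAB⟩ := hHform g hgK.1
      have e1 : ∀ w, tp (A *ᵥ a₂) (B *ᵥ w) = tp a₂ w := by
        intro w
        apply hTinj
        rw [← kron_mulVec_tp, ← hAB, hgv, hpure, h21, zero_mul, mul_zero, zero_smul, add_zero]
      have e2 : ∀ w, tp (A *ᵥ a₁) (B *ᵥ w) = tp a₁ (w + (c * f₂ w w₀) • w₀) := by
        intro w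
        apply hTinj
        rw [← kron_mulVec_tp, ← hAB, hgv, hpure, h11, one_mul, tp_add_right, tp_smul_right, hTadd,
          hTsmul]
      obtain ⟨i₂, hi₂⟩ := ha₂0
      obtain ⟨i₁, hi₁⟩ := ha₁0
      have hα : (A *ᵥ a₂) i₂ ≠ 0 := by
        intro h0
        have h3 := congrFun (e1 w₀) (i₂, j₀)
        simp only [tp] at h3
        rw [h0, zero_mul] at h3
        exact mul_ne_zero hi₂ hj₀ h3.symm
      obtain ⟨β, hβ⟩ : ∃ β : F, β = a₂ i₂ / (A *ᵥ a₂) i₂ := ⟨_, rfl⟩
      have hB : ∀ w j, (B *ᵥ w) j = β * w j := by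
        intro w j
        have h3 := congrFun (e1 w) (i₂, j)
        simp only [tp] at h3
        rw [hβ]
        field_simp
        linear_combination h3
      have e3 : ∀ w j, ((A *ᵥ a₁) i₁ * β) * w j = a₁ i₁ * (w j + c * f₂ w w₀ * w₀ j) := by
        intro w j
        have h3 := congrFun (e2 w) (i₁, j)
        simp only [tp, Pi.add_apply, Pi.smul_apply, smul_eq_mul] at h3
        rw [hB] at h3
        linear_combination h3
      have hγ : (A *ᵥ a₁) i₁ * β = a₁ i₁ := by
        have h3 := e3 w₀ j₀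
        rw [hw₀₀, mul_zero, zero_mul, add_zero] at h3
        have h4 : ((A *ᵥ a₁) i₁ * β - a₁ i₁) * w₀ j₀ = 0 := by
          linear_combination h3
        rcases mul_eq_zero.mp h4 with h5 | h5
        · exact sub_eq_zero.mp h5
        · exact absurd h5 hj₀
      have h3 := e3 y j₀
      rw [hγ] at h3
      have h4 : a₁ i₁ * (c * f₂ y w₀ * w₀ j₀) = 0 := by linear_combination -h3
      exact mul_ne_zero hi₁ (mul_ne_zero (mul_ne_zero hc0 hy) hj₀) h4
  · -- K < G
    rw [lt_iff_le_and_ne]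
    constructor
    · exact fun g hg => hg.1
    · intro hEq
      have huu : h (T (tp (a₁ + a₂) w₀)) (T (tp (a₁ + a₂) w₀)) = 0 := by
        rw [hpure, hw₀₀]
        ring
      obtain ⟨g, hgv, hgG⟩ := exists_transv hF n _ huu
      rw [← hdef] at hgv
      have hgK : g ∈ stabL (Cfsg.GU n F 2 ⊓ Cfsg.Geo.specialLinear (Fin n) F) L := by
        rw [hEq]
        exact hgG
      have hsL : T (tp a₁ y) ∈ L := ⟨a₁, y, rfl, by rw [h11]; exact one_ne_zero⟩
      obtain ⟨u, w, huw, huu'⟩ := (hgK.2 _).mpr hsL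
      rw [hgv, hpure, U1.ar, h11, h12, add_zero, one_mul, ← hTsmul, ← hTadd] at huw
      have huw' := hTinj _ _ huw
      have key : ∀ j, (y j + c * f₂ y w₀ * w₀ j) • a₁ + (c * f₂ y w₀ * w₀ j) • a₂ = w j • u := by
        intro j
        funext i
        have h3 := congrFun huw' (i, j)
        simp only [tp, Pi.add_apply, Pi.smul_apply, smul_eq_mul] at h3 ⊢
        linear_combination h3
      rcases U1.frame_struct h2 hcube h11 h22 h12 h21 hexp u huu' with ⟨-, h3⟩ | ⟨-, h3⟩
      · -- u is a multiple of a₁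
        have h4 := congrArg (fun v => f₁ v a₂) (key j₀)
        simp only [U1.al, U1.sl, h12, h22] at h4
        rw [h3, U1.sl, h12] at h4
        have h5 : c * f₂ y w₀ * w₀ j₀ = 0 := by linear_combination h4
        exact mul_ne_zero (mul_ne_zero hc0 hy) hj₀ h5
      · -- u is a multiple of a₂
        have h4 : ∀ j, y j + c * f₂ y w₀ * w₀ j = 0 := by
          intro j
          have h5 := congrArg (fun v => f₁ v a₁) (key j)
          simp only [U1.al, U1.sl, h11, h21] at h5
          rw [h3, U1.sl, h21] at h5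
          linear_combination h5
        have h5 : y + (c * f₂ y w₀) • w₀ = 0 := by
          funext j
          simp only [Pi.add_apply, Pi.smul_apply, smul_eq_mul, Pi.zero_apply]
          exact h4 j
        have h6 : f₂ (y + (c * f₂ y w₀) • w₀) w₀ = 0 := by rw [h5, U2.zl]
        rw [U2.al, U2.sl, hw₀₀, mul_zero, add_zero] at h6
        exact hy h6

end Cfsg.Agent.S5671
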