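import Cfsg.Statements.S5675
import Cfsg.Agent.Lib.Helper52.NondegBridge
import Cfsg.Agent.Lib.Helper7.GOOddOrder

set_option autoImplicit false
open Cfsg

namespace Cfsg.Agent.S5675

open Cfsg.Agent.Lib.Helper52 Cfsg.Agent.Lib.Helper51 Cfsg.Agent.Lib.Helper7 QuadraticMap Module

/-- Let F be a finite field of odd order q, m ≥ 6, Q the standard quadratic form on F^(2m+1) and Ω the commutator subgroup of its isometry group. Let W be a non-zero subspace of even dimension on which the polar form of Q is non-degenerate; exclude the case q = 3, dim W = 2 with Q vanishing on some line of W (a plus-type plane). Then the elements of Ω stabilising W (equivalently, stabilising its orthogonal complement, of odd dimension) form a maximal subgroup of Ω. -/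
theorem result {F : Type*} [Field F] [Fintype F] (hodd : Odd (Fintype.card F)) (m : ℕ) (hm : 6 ≤ m) (W : Submodule F (Unit ⊕ (Fin m ⊕ Fin m) → F)) (hW0 : W ≠ ⊥) (hev : Even (Module.finrank F W)) (hW : Cfsg.Geo.IsNondegenerateOn (QuadraticMap.polar (Cfsg.quadFormOdd m F)) W) (hex : ¬ (Fintype.card F = 3 ∧ Module.finrank F W = 2 ∧ Cfsg.Geo.IsPlusTypeOn (Cfsg.quadFormOdd m F) W)) : Cfsg.Geo.IsMaximalIn (Cfsg.Geo.omegaGL (Cfsg.quadFormOdd m F)) (Cfsg.Geo.subspaceStabilizer W ⊓ Cfsg.Geo.omegaGL (Cfsg.quadFormOdd m F)) := by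
  classical
  have h2 : (2 : F) ≠ 0 := two_ne_zero_of_odd_card hodd
  have hQ' : (polarBilin (QOdd m F)).Nondegenerate :=
    polarBilin_nondegenerate_of _ (QOdd_nondeg h2 m)
  have hcard : Fintype.card (Unit ⊕ (Fin m ⊕ Fin m)) = 2 * m + 1 := by
    simp only [Fintype.card_sum, Fintype.card_unit, Fintype.card_fin]
    omega
  have hn5 : 5 ≤ Fintype.card (Unit ⊕ (Fin m ⊕ Fin m)) := by omega
  rw [← coe_QOdd] at hW hex ⊢
  have hp := orthPair_orthogonal hQ' W hW
  have hadd := hp.finrank_add hQ'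
  rw [hcard] at hadd
  obtain ⟨W', hW'def⟩ : ∃ W', W' = LinearMap.BilinForm.orthogonal (polarBilin (QOdd m F)) W :=
    ⟨_, rfl⟩
  rw [← hW'def] at hp hadd
  obtain ⟨r, hr⟩ := hev
  by_cases hlt : 2 * m + 1 < 2 * finrank F W
  · apply isMaximalIn_nondeg hQ' hn5 hp (by omega) ?_ ?_ ?_ W (Or.inl rfl)
    · intro hbot
      rw [hbot, finrank_bot] at hadd
      omega
    · rintro ⟨-, hfin, -⟩
      omega
    · intro k _
      exact not_map_into_of_finrank_lt (by omega) k
  · apply isMaximalIn_nondeg hQ' hn5 hp.symm (by omega) hW0 ?_ ?_ W (Or.inr rfl)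
    · rintro ⟨hc, hfin, x, hxW, hx0, hx⟩
      apply hex
      refine ⟨?_, hfin, isPlusTypeOn_of_singular W hfin hxW hx0 hx⟩
      have h1 : 1 < Fintype.card F := Fintype.one_lt_card
      obtain ⟨s, hs⟩ := hodd
      omega
    · intro k _
      exact not_map_into_of_finrank_lt (by omega) k

end Cfsg.Agent.S5675
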