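import Cfsg.Statements.S5676
import Mathlib
import Cfsg.Agent.Lib.Helper51.HypPairs
import Cfsg.Agent.Lib.Helper98.OrthNM

set_option autoImplicit false
open Cfsg

namespace Cfsg.Agent.S5676

open Cfsg.Agent.Lib.Helper51 Cfsg.Agent.Lib.Helper98 QuadraticMap

theorem QOdd_nondegenerate {F : Type*} [Field F] (h2 : (2 : F) ≠ 0) (m : ℕ) :
    (polarBilin (QOdd m F)).Nondegenerate := by
  classical
  have hnd : ∀ u : Unit ⊕ (Fin m ⊕ Fin m) → F, (∀ v, polar (QOdd m F) u v = 0) → u = 0 := by
    intro u hu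
    funext c
    rcases c with _ | i | i
    · have := hu (Pi.single (Sum.inl ()) 1)
      rw [polar_QOdd] at this
      simpa [Pi.single_apply, h2] using this
    · have := hu (Pi.single (Sum.inr (Sum.inr i)) 1)
      rw [polar_QOdd] at this
      simpa [Pi.single_apply] using this
    · have := hu (Pi.single (Sum.inr (Sum.inl i)) 1)
      rw [polar_QOdd] at this
      simpa [Pi.single_apply] using this
  constructor
  · intro x hx
    apply hnd x
    intro y
    have := hx y
    rwa [QuadraticMap.polarBilin_apply_apply] at this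
  · intro y hy
    apply hnd y
    intro x
    have := hy x
    rw [QuadraticMap.polarBilin_apply_apply] at this
    rw [QuadraticMap.polar_comm]
    exact this

/-- For n odd ≥ 13, the stabiliser in Ω_n(3) of a non-degenerate plus-type plane (type O_{n−2}(3) ⊥ O_2^+(3)) is not maximal in Ω_n(3). -/
theorem result {F : Type*} [Field F] [Fintype F] (hq : Fintype.card F = 3) (m : ℕ) (hm : 6 ≤ m) (W : Submodule F (Unit ⊕ (Fin m ⊕ Fin m) → F)) (hdim : Module.finrank F W = 2) (hW : Cfsg.Geo.IsNondegenerateOn (QuadraticMap.polar (Cfsg.quadFormOdd m F)) W) (hplus : Cfsg.Geo.IsPlusTypeOn (Cfsg.quadFormOdd m F) W) : ∃ K : Subgroup (Matrix.GeneralLinearGroup (Unit ⊕ (Fin m ⊕ Fin m)) F), Cfsg.Geo.subspaceStabilizer W ⊓ Cfsg.Geo.omegaGL (Cfsg.quadFormOdd m F) < K ∧ K < Cfsg.Geo.omegaGL (Cfsg.quadFormOdd m F) := by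
  rw [← coe_QOdd] at hW hplus ⊢
  exact plus_plane_three (QOdd m F) hq (QOdd_nondegenerate (two_ne_zero_three hq) m)
    (by simp; omega) W hdim hW hplus

end Cfsg.Agent.S5676
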