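import Cfsg.Statements.S5677
import Cfsg.Agent.Lib.Helper18.ODFinal
import Cfsg.Agent.Lib.Helper7.GOOddOrder
import Cfsg.Agent.Lib.Helper7.OmegaCenter

set_option autoImplicit false
open Cfsg

namespace Cfsg.Agent.S5677

/-- Let F be a finite field of odd order q, m ≥ 6, Q the standard quadratic form on F^(2m+1) and Ω the commutator subgroup of its isometry group. Let D be a decomposition of F^(2m+1) into t ≥ 2 pairwise orthogonal, pairwise Q-isometric subspaces of equal dimension k > 1 on which the polar form is non-degenerate. Unless q = 3 and k = 3, the elements of Ω permuting the members of D form a maximal subgroup of Ω. -/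
theorem result {F : Type*} [Field F] [Fintype F] (hodd : Odd (Fintype.card F)) (m : ℕ) (hm : 6 ≤ m) {t : ℕ} (k : ℕ) (hk : 1 < k) (D : Fin t → Submodule F (Unit ⊕ (Fin m ⊕ Fin m) → F)) (hD : Cfsg.Geo.IsOrthogonalMDecomposition (Cfsg.quadFormOdd m F) k D) (hex : ¬ (Fintype.card F = 3 ∧ k = 3)) : Cfsg.Geo.IsMaximalIn (Cfsg.Geo.omegaGL (Cfsg.quadFormOdd m F)) (Cfsg.Geo.decompositionStabilizer D ⊓ Cfsg.Geo.omegaGL (Cfsg.quadFormOdd m F)) := by
  classical
  have h2 : (2 : F) ≠ 0 := Cfsg.Agent.Lib.Helper51.two_ne_zero_of_odd_card hodd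
  have hQ := Cfsg.Agent.Lib.Helper7.polarBilin_nondegenerate_of
    (Cfsg.Agent.Lib.Helper51.QOdd m F) (Cfsg.Agent.Lib.Helper7.QOdd_nondeg (F := F) h2 m)
  have hcoe := Cfsg.Agent.Lib.Helper51.coe_QOdd m F
  have hcard : Fintype.card (Unit ⊕ (Fin m ⊕ Fin m)) = 2 * m + 1 := by
    simp
    ring
  have hOD : Cfsg.Agent.Lib.Helper18.OD.ODec (Cfsg.Agent.Lib.Helper51.QOdd m F) k D := by
    refine ⟨hD.decomp.decomp.finrank_eq, ?_, hD.decomp.decomp.iSup_eq_top, ?_⟩
    · intro i j hij x hx y hy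
      rw [hcoe]
      exact hD.decomp.orthogonal i j hij x hx y hy
    · intro i j
      obtain ⟨e, he⟩ := hD.isometric i j
      refine ⟨e, fun w => ?_⟩
      have h1 := he w
      rw [← hcoe] at h1
      exact h1
  have hcount := Cfsg.Agent.Lib.Helper18.OD.finrank_count hD.decomp.decomp.indep
    hD.decomp.decomp.iSup_eq_top hD.decomp.decomp.finrank_eq
  rw [hcard] at hcount
  have ht2 := hD.decomp.decomp.two_le
  have hoddn : Odd (t * k) := by
    rw [hcount]
    exact ⟨m, rfl⟩
  have hkodd : k % 2 = 1 := Nat.odd_iff.mp (Nat.odd_mul.mp hoddn).2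
  have hk3 : 3 ≤ k := by omega
  have hFodd : Fintype.card F % 2 = 1 := Nat.odd_iff.mp hodd
  have hF1 : 1 < Fintype.card F := Fintype.one_lt_card
  have hex' : 5 ≤ k ∨ 5 ≤ Fintype.card F := by
    by_cases h : k = 3
    · right
      by_contra hlt
      apply hex
      exact ⟨by omega, h⟩
    · left
      omega
  have key := hOD.isMaximalIn hQ h2 (by rw [hcard]; exact ⟨m, rfl⟩) (by rw [hcard]; omega)
    hk3 ht2 hex'
  rw [hcoe] at key
  exact key

end Cfsg.Agent.S5677
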