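import Cfsg.Statements.S5686
import Cfsg.Agent.Lib.Helper52.GeoOmega

set_option autoImplicit false
open Cfsg

namespace Cfsg.Agent.S5686

open Cfsg.Agent.Lib.Helper52 Cfsg.Agent.Lib.Helper51 QuadraticMap Module

/-- Let F be a finite field with q elements, n ≥ 13 even, Q a non-degenerate quadratic form on F^n of plus type (some subspace of dimension n/2 is totally singular), and Ω the commutator subgroup of the isometry group of Q, viewed inside GL_n(F). The elements of Ω stabilising a subspace of dimension n/2 − 1 on which Q vanishes form a subgroup that is not maximal: some subgroup lies strictly between it and Ω. -/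
theorem result {F : Type*} [Field F] [Fintype F] {n : ℕ} (hn : 13 ≤ n) (heven : Even n) (Q : (Fin n → F) → F) (hQ : Cfsg.Geo.IsNondegenerateQuadraticForm Q) (hplus : Cfsg.Geo.IsPlusTypeOn Q ⊤) (W : Submodule F (Fin n → F)) (hW : Cfsg.Geo.IsTotallySingularQuad Q W) (hdim : 2 * (Module.finrank F W + 1) = n) : ∃ K : Subgroup (Matrix.GeneralLinearGroup (Fin n) F), Cfsg.Geo.subspaceStabilizer W ⊓ Cfsg.Geo.omegaGL Q < K ∧ K < Cfsg.Geo.omegaGL Q := by
  classical
  obtain ⟨Q', rfl, hQ'⟩ := exists_quadraticForm_of_nondeg Q hQ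
  have hcard : Fintype.card (Fin n) = n := Fintype.card_fin n
  have hn5 : 5 ≤ Fintype.card (Fin n) := by omega
  obtain ⟨U₀, -, hU₀ts, hU₀dim⟩ := hplus
  rw [finrank_top, Module.finrank_fintype_fun_eq_card, hcard] at hU₀dim
  have hne_bot : ∀ X : Submodule F (Fin n → F), 0 < finrank F X → ∃ x ∈ X, x ≠ 0 := by
    intro X hX
    by_contra hcon
    push Not at hcon
    have : X = ⊥ := by
      rw [eq_bot_iff]
      intro x hx
      rw [Submodule.mem_bot]
      exact hcon x hx
    rw [this, finrank_bot] at hX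
    omega
  -- a maximal totally singular subspace containing `W`
  obtain ⟨U₁, hU₁ts, hU₁dim, hWU₁⟩ : ∃ U₁ : Submodule F (Fin n → F),
      (∀ x ∈ U₁, Q' x = 0) ∧ 2 * finrank F U₁ = n ∧ W ≤ U₁ := by
    obtain ⟨u₀, hu₀U, hu₀0⟩ := hne_bot U₀ (by omega)
    obtain ⟨y, hy⟩ := exists_polar_ne_zero Q' hQ' u₀ hu₀0
    have hφ : (polarBilin Q' y) u₀ ≠ 0 := by
      rw [polarBilin_apply_apply, polar_comm]; exact hy
    have h1 := Cfsg.Agent.Lib.Helper44.finrank_inf_ker_add_one U₀ (polarBilin Q' y) hu₀U hφ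
    have hW₀dim : finrank F ↥(U₀ ⊓ LinearMap.ker (polarBilin Q' y)) = finrank F W := by omega
    have he : ∀ u : ↥(U₀ ⊓ LinearMap.ker (polarBilin Q' y)),
        Q' ((LinearEquiv.ofFinrankEq _ _ hW₀dim u : W) : Fin n → F) = Q' (u : Fin n → F) := by
      intro u
      rw [hW _ (LinearEquiv.ofFinrankEq _ _ hW₀dim u).2, hU₀ts u u.2.1]
    obtain ⟨g, -, hgmap⟩ := exists_isometry_extending Q' hQ' _ W
      (LinearEquiv.ofFinrankEq _ _ hW₀dim) he
    refine ⟨U₀.map (Matrix.mulVecLin ((g : Matrix.GeneralLinearGroup (Fin n) F) :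
      Matrix (Fin n) (Fin n) F)), ts_map_isometry Q' g U₀ hU₀ts, ?_, ?_⟩
    · rw [finrank_map_isometry Q' g U₀]; exact hU₀dim
    · rw [← hgmap]; exact Submodule.map_mono inf_le_left
  have hWU : finrank F W + 1 = finrank F U₁ := by omega
  refine ⟨Cfsg.Geo.subspaceStabilizer U₁ ⊓ Cfsg.Geo.omegaGL ⇑Q', ?_, ?_⟩
  · rw [SetLike.lt_iff_le_and_exists]
    constructor
    · rintro x ⟨hx1, hx2⟩
      obtain ⟨g, hg, rfl⟩ := exists_of_mem_omegaGL Q' hx2
      refine ⟨?_, hx2⟩
      have hWmap : W ≤ U₁.map (Matrix.toLin' ((g : Matrix.GeneralLinearGroup (Fin n) F) :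
          Matrix (Fin n) (Fin n) F)) := by
        intro w hw
        have hw' : (((g⁻¹ : ↥(Cfsg.isometryGroup F ⇑Q')) : Matrix.GeneralLinearGroup (Fin n) F) :
            Matrix (Fin n) (Fin n) F).mulVec w ∈ W := by
          rw [(mem_subspaceStabilizer_iff W _).mp hx1, coe_inv_mulVec]
          exact hw
        exact ⟨_, hWU₁ hw', by rw [Matrix.toLin'_apply, coe_inv_mulVec]⟩
      have hpar := even_inf_of_mem_commutator Q' hQ' (Or.inr (by omega)) U₁ hU₁ts
        (by rw [hcard]; exact hU₁dim) g hg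
      have hle1 : finrank F W ≤ finrank F ↥(U₁ ⊓ U₁.map (Matrix.toLin'
          ((g : Matrix.GeneralLinearGroup (Fin n) F) : Matrix (Fin n) (Fin n) F))) :=
        Submodule.finrank_mono (le_inf hWU₁ hWmap)
      have hle2 : finrank F ↥(U₁ ⊓ U₁.map (Matrix.toLin'
          ((g : Matrix.GeneralLinearGroup (Fin n) F) : Matrix (Fin n) (Fin n) F))) ≤ finrank F U₁ :=
        Submodule.finrank_mono inf_le_left
      have heq : finrank F ↥(U₁ ⊓ U₁.map (Matrix.toLin'
          ((g : Matrix.GeneralLinearGroup (Fin n) F) : Matrix (Fin n) (Fin n) F))) = finrank F U₁ := by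
        by_contra hne
        rw [Nat.even_iff, Nat.even_iff] at hpar
        omega
      have hinf : U₁ ⊓ U₁.map (Matrix.toLin' ((g : Matrix.GeneralLinearGroup (Fin n) F) :
          Matrix (Fin n) (Fin n) F)) = U₁ := Submodule.eq_of_le_of_finrank_eq inf_le_left heq
      have hle : U₁ ≤ U₁.map (Matrix.toLin' ((g : Matrix.GeneralLinearGroup (Fin n) F) :
          Matrix (Fin n) (Fin n) F)) := inf_eq_left.mp hinf
      have hfm : finrank F ↥(U₁.map (Matrix.toLin' ((g : Matrix.GeneralLinearGroup (Fin n) F) :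
          Matrix (Fin n) (Fin n) F))) = finrank F U₁ := finrank_map_isometry Q' g U₁
      exact coe_mem_subspaceStabilizer_of_map Q' U₁ g
        (Submodule.eq_of_le_of_finrank_eq hle hfm.symm).symm
    · obtain ⟨u, huU, huW⟩ : ∃ u ∈ U₁, u ∉ W := by
        by_contra hcon
        push Not at hcon
        have := Submodule.finrank_mono (show U₁ ≤ W from hcon)
        omega
      obtain ⟨x₀, hx₀W, hx₀0⟩ := hne_bot W (by omega)
      have hx₀u : x₀ ∉ Submodule.span F ({u} : Set (Fin n → F)) := by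
        intro hmem
        obtain ⟨c, hc⟩ := Submodule.mem_span_singleton.mp hmem
        have hc0 : c ≠ 0 := by
          rintro rfl
          apply hx₀0
          rw [← hc, zero_smul]
        apply huW
        have e : u = c⁻¹ • x₀ := by rw [← hc, smul_smul, inv_mul_cancel₀ hc0, one_smul]
        rw [e]
        exact W.smul_mem _ hx₀W
      obtain ⟨z, hzx₀, hzo⟩ := exists_polar_sep Q' hQ' _ x₀ hx₀u
      have hzu : polar ⇑Q' z u = 0 := hzo u (Submodule.mem_span_singleton_self u)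
      have hu : Q' u = 0 := hU₁ts u huU
      have huz : polar ⇑Q' u z = 0 := by rw [polar_comm]; exact hzu
      refine ⟨((eich Q' u z hu huz : ↥(Cfsg.isometryGroup F ⇑Q')) :
        Matrix.GeneralLinearGroup (Fin n) F),
        ⟨?_, coe_mem_omegaGL Q' (eich_mem_commutator Q' hQ' hn5 u z hu huz)⟩, ?_⟩
      · apply coe_mem_subspaceStabilizer Q'
        intro x hx
        rw [coe_eich, eichMat_mulVec, polar_eq_zero_of_ts Q' U₁ hU₁ts huU hx]
        have e : x + polar ⇑Q' z x • u - (0 : F) • z - (Q' z * 0) • u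
            = x + polar ⇑Q' z x • u := by simp
        rw [e]
        exact U₁.add_mem hx (U₁.smul_mem _ huU)
      · rintro ⟨h1, -⟩
        have h2 := ((mem_subspaceStabilizer_iff W _).mp h1 x₀).mp hx₀W
        rw [coe_eich, eichMat_mulVec, hzx₀,
          polar_eq_zero_of_ts Q' U₁ hU₁ts huU (hWU₁ hx₀W)] at h2
        apply huW
        have h3 := W.sub_mem h2 hx₀W
        have e : x₀ + (1 : F) • u - (0 : F) • z - (Q' z * 0) • u - x₀ = u := by simp
        rwa [e] at h3
  · rw [SetLike.lt_iff_le_and_exists]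
    refine ⟨inf_le_right, ?_⟩
    obtain ⟨x₁, hx₁U, hx₁0⟩ := hne_bot U₁ (by omega)
    obtain ⟨x₂, hx₂U, hx₂⟩ : ∃ x₂ ∈ U₁, x₂ ∉ Submodule.span F ({x₁} : Set (Fin n → F)) := by
      by_contra hcon
      push Not at hcon
      have hle : U₁ ≤ Submodule.span F ({x₁} : Set (Fin n → F)) := fun x hx => hcon x hx
      have h1 := Submodule.finrank_mono hle
      rw [finrank_span_singleton hx₁0] at h1
      omega
    obtain ⟨y, hyx₂, hyo⟩ := exists_polar_sep Q' hQ' _ x₂ hx₂
    have hyx₁ : polar ⇑Q' y x₁ = 0 := hyo x₁ (Submodule.mem_span_singleton_self x₁)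
    have hQx₂ : Q' x₂ = 0 := hU₁ts x₂ hx₂U
    have hx₂x₁ : polar ⇑Q' x₂ x₁ = 0 := polar_eq_zero_of_ts Q' U₁ hU₁ts hx₂U hx₁U
    obtain ⟨p, hpdef⟩ : ∃ p, p = y - Q' y • x₂ := ⟨_, rfl⟩
    have hp : Q' p = 0 := by
      rw [hpdef, Q_sub_smul', hQx₂, polar_comm ⇑Q' x₂ y, hyx₂]; ring
    have hpx₁ : polar ⇑Q' p x₁ = 0 := by
      rw [hpdef, polar_sub_left, polar_smul_left, hyx₁, hx₂x₁, smul_zero, sub_zero]
    have hpx₂ : polar ⇑Q' p x₂ = 1 := by
      rw [hpdef, polar_sub_left, polar_smul_left, hyx₂, Cfsg.Agent.Lib.Helper51.polar_self, hQx₂]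
      simp
    have hpU : p ∉ U₁ := by
      intro h
      have := polar_eq_zero_of_ts Q' U₁ hU₁ts h hx₂U
      rw [hpx₂] at this
      exact one_ne_zero this
    have hx₁p : x₁ ∉ Submodule.span F ({p} : Set (Fin n → F)) := by
      intro hmem
      obtain ⟨c, hc⟩ := Submodule.mem_span_singleton.mp hmem
      have hc0 : c ≠ 0 := by
        rintro rfl
        apply hx₁0
        rw [← hc, zero_smul]
      apply hpU
      have e : p = c⁻¹ • x₁ := by rw [← hc, smul_smul, inv_mul_cancel₀ hc0, one_smul]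
      rw [e]
      exact U₁.smul_mem _ hx₁U
    obtain ⟨w, hwx₁, hwo⟩ := exists_polar_sep Q' hQ' _ x₁ hx₁p
    have hwp : polar ⇑Q' w p = 0 := hwo p (Submodule.mem_span_singleton_self p)
    have hpw : polar ⇑Q' p w = 0 := by rw [polar_comm]; exact hwp
    refine ⟨((eich Q' p w hp hpw : ↥(Cfsg.isometryGroup F ⇑Q')) :
      Matrix.GeneralLinearGroup (Fin n) F),
      coe_mem_omegaGL Q' (eich_mem_commutator Q' hQ' hn5 p w hp hpw), ?_⟩
    rintro ⟨h1, -⟩
    have h2 := ((mem_subspaceStabilizer_iff U₁ _).mp h1 x₁).mp hx₁U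
    rw [coe_eich, eichMat_mulVec, hwx₁, hpx₁] at h2
    apply hpU
    have h3 := U₁.sub_mem h2 hx₁U
    have e : x₁ + (1 : F) • p - (0 : F) • w - (Q' w * 0) • p - x₁ = p := by simp
    rwa [e] at h3

end Cfsg.Agent.S5686
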