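import Cfsg.Statements.S5689
import Cfsg.Agent.Lib.Helper52.SwapPlus

set_option autoImplicit false
open Cfsg

namespace Cfsg.Agent.S5689

open Cfsg.Agent.Lib.Helper52 Cfsg.Agent.Lib.Helper51 QuadraticMap Module

/-- Let F be a finite field with q elements, n ≥ 13 even, Q a non-degenerate quadratic form on F^n of minus type (no subspace of dimension n/2 is totally singular), and Ω the commutator subgroup of the isometry group of Q, viewed inside GL_n(F). Let W be a non-zero proper subspace on which the polar form of Q is non-degenerate, not of odd dimension n/2. Exclude the case q ≤ 3 in which W, or its orthogonal complement, is a plane containing a line on which Q vanishes. Then the elements of Ω stabilising W form a maximal subgroup of Ω. -/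
theorem result {F : Type*} [Field F] [Fintype F] {n : ℕ} (hn : 13 ≤ n) (heven : Even n) (Q : (Fin n → F) → F) (hQ : Cfsg.Geo.IsNondegenerateQuadraticForm Q) (hminus : ¬ Cfsg.Geo.IsPlusTypeOn Q ⊤) (W : Submodule F (Fin n → F)) (hW0 : W ≠ ⊥) (hW1 : W ≠ ⊤) (hdim : ¬ (2 * Module.finrank F W = n ∧ Odd (Module.finrank F W))) (hW : Cfsg.Geo.IsNondegenerateOn (QuadraticMap.polar Q) W) (hex : ¬ (Fintype.card F ≤ 3 ∧ (∃ U : Submodule F (Fin n → F), Module.finrank F U = 2 ∧ Cfsg.Geo.IsNondegenerateOn (QuadraticMap.polar Q) U ∧ Cfsg.Geo.IsPlusTypeOn Q U ∧ (U = W ∨ (Cfsg.Geo.AreOrthogonalFor (QuadraticMap.polar Q) U W ∧ Module.finrank F U + Module.finrank F W = n))))) : Cfsg.Geo.IsMaximalIn (Cfsg.Geo.omegaGL Q) (Cfsg.Geo.subspaceStabilizer W ⊓ Cfsg.Geo.omegaGL Q) := by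
  classical
  obtain ⟨Q', rfl, hQ'⟩ := exists_quadraticForm_of_nondeg Q hQ
  have hcard : Fintype.card (Fin n) = n := Fintype.card_fin n
  have hn5 : 5 ≤ Fintype.card (Fin n) := by omega
  have hp := orthPair_orthogonal hQ' W hW
  have hadd := hp.finrank_add hQ'
  rw [hcard] at hadd
  obtain ⟨W', hW'def⟩ : ∃ W', W' = LinearMap.BilinForm.orthogonal (polarBilin Q') W := ⟨_, rfl⟩
  rw [← hW'def] at hp hadd
  have hexc : ∀ U : Submodule F (Fin n → F), (U = W ∨ U = W') →
      Cfsg.Geo.IsNondegenerateOn (polar ⇑Q') U →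
      ¬ (Fintype.card F ≤ 3 ∧ finrank F U = 2 ∧ ∃ x ∈ U, x ≠ 0 ∧ Q' x = 0) := by
    rintro U hU hUnd ⟨hc, hfin, x, hxU, hx0, hx⟩
    apply hex
    refine ⟨hc, U, hfin, hUnd, isPlusTypeOn_of_singular U hfin hxU hx0 hx, ?_⟩
    rcases hU with rfl | rfl
    · left; rfl
    · right
      refine ⟨fun u hu v hv => ?_, ?_⟩
      · rw [polar_comm]; exact hp.orth v hv u hu
      · omega
  have hW'0 : W' ≠ ⊥ := by
    intro hbot
    rw [hbot, finrank_bot] at hadd
    apply hW1
    apply Submodule.eq_top_of_finrank_eq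
    rw [Module.finrank_fintype_fun_eq_card, hcard]; omega
  by_cases hlt : n < 2 * finrank F W
  · apply isMaximalIn_nondeg hQ' hn5 hp (by omega) hW'0
      (hexc W' (Or.inr rfl) (hp.symm.isNondegenerateOn hQ')) ?_ W (Or.inl rfl)
    intro k _
    exact not_map_into_of_finrank_lt (by omega) k
  by_cases hgt : 2 * finrank F W < n
  · apply isMaximalIn_nondeg hQ' hn5 hp.symm (by omega) hW0 (hexc W (Or.inl rfl) hW) ?_ W
      (Or.inr rfl)
    intro k _
    exact not_map_into_of_finrank_lt (by omega) k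
  · have heq : 2 * finrank F W = n := by omega
    have hevW : Even (finrank F W) := by
      rw [← Nat.not_odd_iff_even]
      intro hodd
      exact hdim ⟨heq, hodd⟩
    apply isMaximalIn_nondeg hQ' hn5 hp (by omega) hW'0
      (hexc W' (Or.inr rfl) (hp.symm.isNondegenerateOn hQ')) ?_ W (Or.inl rfl)
    intro k _ hk
    obtain ⟨T, hTts, hTdim⟩ := exists_ts_of_swap hQ' hp (by omega) hevW k hk
    apply hminus
    refine ⟨T, le_top, hTts, ?_⟩
    rw [hTdim, finrank_top, Module.finrank_fintype_fun_eq_card]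

end Cfsg.Agent.S5689
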