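import Cfsg.Statements.S5691
import Cfsg.Agent.Lib.Helper52.GeoOmega
import Cfsg.Agent.Lib.Helper52.NonsingPt

set_option autoImplicit false
open Cfsg

namespace Cfsg.Agent.S5691

open Cfsg.Agent.Lib.Helper52 Cfsg.Agent.Lib.Helper51 QuadraticMap Module

/-- Let F be a finite field with q elements, n ≥ 13 even, Q a non-degenerate quadratic form on F^n (of either type), and Ω the commutator subgroup of the isometry group of Q, viewed inside GL_n(F). Suppose q is even and v is a vector with Q(v) ≠ 0. Then the elements of Ω stabilising the line spanned by v form a maximal subgroup of Ω. -/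
theorem result {F : Type*} [Field F] [Fintype F] {n : ℕ} (hn : 13 ≤ n) (heven : Even n) (Q : (Fin n → F) → F) (hQ : Cfsg.Geo.IsNondegenerateQuadraticForm Q) (hchar : ¬ Odd (Fintype.card F)) (v : (Fin n → F)) (hv : Q v ≠ 0) : Cfsg.Geo.IsMaximalIn (Cfsg.Geo.omegaGL Q) (Cfsg.Geo.subspaceStabilizer (Submodule.span F {v}) ⊓ Cfsg.Geo.omegaGL Q) := by
  classical
  obtain ⟨Q', rfl, hQ'⟩ := exists_quadraticForm_of_nondeg Q hQ
  have hcard : Fintype.card (Fin n) = n := Fintype.card_fin n
  have hn5 : 5 ≤ Fintype.card (Fin n) := by omega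
  have hn7 : 7 ≤ Fintype.card (Fin n) := by omega
  constructor
  · rw [SetLike.lt_iff_le_and_exists]
    refine ⟨inf_le_right, ?_⟩
    obtain ⟨u, hu0, hu, huo⟩ := exists_singular_orth Q' hQ' {v}
      (by rw [Finset.card_singleton]; omega)
    have hvu : polar ⇑Q' v u = 0 := huo v (by simp)
    have hvspan : v ∉ Submodule.span F ({u} : Set (Fin n → F)) := by
      intro hmem
      obtain ⟨c, hc⟩ := Submodule.mem_span_singleton.mp hmem
      apply hv
      rw [← hc, QuadraticMap.map_smul, hu, smul_zero]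
    obtain ⟨w, hwv, hwo⟩ := exists_polar_sep Q' hQ' _ v hvspan
    have hwu : polar ⇑Q' w u = 0 := hwo u (Submodule.mem_span_singleton_self u)
    have huw : polar ⇑Q' u w = 0 := by rw [polar_comm]; exact hwu
    refine ⟨((eich Q' u w hu huw : ↥(Cfsg.isometryGroup F ⇑Q')) :
      Matrix.GeneralLinearGroup (Fin n) F),
      coe_mem_omegaGL Q' (eich_mem_commutator Q' hQ' hn5 u w hu huw), ?_⟩
    rintro ⟨h1, -⟩
    have h2 := ((mem_subspaceStabilizer_iff _ _).mp h1 v).mp (Submodule.mem_span_singleton_self v)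
    rw [coe_eich, eichMat_mulVec, hwv, polar_comm ⇑Q' u v, hvu] at h2
    have e : v + (1 : F) • u - (0 : F) • w - (Q' w * 0) • u = v + u := by simp
    rw [e] at h2
    obtain ⟨c, hc⟩ := Submodule.mem_span_singleton.mp h2
    have hu' : u = (c - 1) • v := by
      rw [sub_smul, one_smul, hc]; abel
    have hQu : Q' u = (c - 1) * (c - 1) * Q' v := by
      rw [hu', QuadraticMap.map_smul, smul_eq_mul]
    rw [hu] at hQu
    have hc1 : c - 1 = 0 := by
      rcases mul_eq_zero.mp hQu.symm with h | h
      · rcases mul_eq_zero.mp h with h | h <;> exact h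
      · exact absurd h hv
    apply hu0
    rw [hu', hc1, zero_smul]
  · intro M hPM hMK
    by_cases hMP : M ≤ Cfsg.Geo.subspaceStabilizer (Submodule.span F {v}) ⊓ Cfsg.Geo.omegaGL ⇑Q'
    · left; exact le_antisymm hMP hPM
    right
    apply le_antisymm hMK
    obtain ⟨x, hxM, hxP⟩ := SetLike.not_le_iff_exists.mp hMP
    obtain ⟨g, hg, rfl⟩ := exists_of_mem_omegaGL Q' (hMK hxM)
    have key := nonsingular_point_stabiliser_maximal Q' hQ' hn7 v hv
      (M.comap (Cfsg.isometryGroup F ⇑Q').subtype) ?_ ?_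
    · intro y hy
      obtain ⟨g', hg', rfl⟩ := exists_of_mem_omegaGL Q' hy
      exact key hg'
    · intro g' hg' hfix
      apply hPM
      refine ⟨coe_mem_subspaceStabilizer Q' _ g' ?_, coe_mem_omegaGL Q' hg'⟩
      intro w hw
      obtain ⟨c, rfl⟩ := Submodule.mem_span_singleton.mp hw
      rw [Matrix.mulVec_smul, hfix]
      exact Submodule.smul_mem _ _ (Submodule.mem_span_singleton_self v)
    · refine ⟨g, hxM, hg, ?_⟩
      intro hmem
      apply hxP
      refine ⟨coe_mem_subspaceStabilizer Q' _ g ?_, hMK hxM⟩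
      intro w hw
      obtain ⟨c, rfl⟩ := Submodule.mem_span_singleton.mp hw
      rw [Matrix.mulVec_smul]
      exact Submodule.smul_mem _ _ hmem

end Cfsg.Agent.S5691
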