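import Cfsg.Statements.S5693
import Mathlib
import Cfsg.Agent.Lib.Helper98.DecFour
import Cfsg.Agent.Lib.Helper98.DecQuad
-- import your own Cfsg.Agent.* helpers here

set_option autoImplicit false
open Cfsg

namespace Cfsg.Agent.S5693

/-- Let F be a finite field with q elements, n ≥ 13 even, Q a non-degenerate quadratic form on F^n of plus type (some subspace of dimension n/2 is totally singular), and Ω the commutator subgroup of the isometry group of Q, viewed inside GL_n(F). Let D be a decomposition of F^n into t ≥ 2 pairwise orthogonal, pairwise Q-isometric subspaces of equal dimension k on which the polar form is non-degenerate (with, for even k, all members of plus type or t even; for odd k, q odd and square discriminant), in one of the cases: k = 2 with q = 3; k = 2 with plus-type members and q ∈ {2, 4, 5}; k = 3 with q = 3; k = 4 with plus-type members and q = 2. Then the elements of Ω permuting the members of D form a subgroup that is not maximal: some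 subgroup lies strictly between it and Ω. -/
theorem result {F : Type*} [Field F] [Fintype F] {n : ℕ} (hn : 13 ≤ n) (heven : Even n) (Q : (Fin n → F) → F) (hQ : Cfsg.Geo.IsNondegenerateQuadraticForm Q) (hplus : Cfsg.Geo.IsPlusTypeOn Q ⊤) {t : ℕ} (k : ℕ) (D : Fin t → Submodule F (Fin n → F)) (hD : Cfsg.Geo.IsOrthogonalMDecomposition Q k D) (hke : Even k → ((∀ i, Cfsg.Geo.IsPlusTypeOn Q (D i)) ∨ Even t)) (hko : Odd k → (Odd (Fintype.card F) ∧ Cfsg.Geo.HasSquareDiscriminant Q)) (hcase : ((k = 2 ∧ (Fintype.card F = 3 ∨ ((∀ i, Cfsg.Geo.IsPlusTypeOn Q (D i)) ∧ (Fintype.card F = 2 ∨ Fintype.card F = 4 ∨ Fintype.card F = 5)))) ∨ (k = 3 ∧ Fintype.card F = 3) ∨ (k = 4 ∧ Fintype.card F = 2 ∧ ∀ i, Cfsg.Geo.IsPlusTypeOn Q (D i)))) : ∃ K : Subgroup (Matrix.GeneralLinearGroup (Fin n) F), Cfsg.Geo.decompositionStabilizer D ⊓ Cfsg.Geo.omegaGL Q < K ∧ K < Cfsg.Geo.omegaGL Q := by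
  have htk : t * k = n := by
    have h1 := Cfsg.Agent.Lib.Helper98.card_eq_of_decomp D hD.decomp.decomp
    simpa using h1
  have hnd := Cfsg.Agent.Lib.Helper98.qfOf_nondegenerate Q hQ
  have hcard : Fintype.card (Fin n) = n := Fintype.card_fin n
  rw [← Cfsg.Agent.Lib.Helper98.coe_qfOf Q hQ] at hD hke hcase ⊢
  rcases hcase with ⟨rfl, h⟩ | ⟨rfl, hq⟩ | ⟨rfl, hq, hpl⟩
  · have ht : 7 ≤ t := by omega
    rcases h with hq | ⟨hpl, hq | hq | hq⟩
    · by_cases hp0 : Cfsg.Geo.IsPlusTypeOn (⇑(Cfsg.Agent.Lib.Helper98.qfOf Q hQ)) (D ⟨0, by omega⟩)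
      · exact Cfsg.Agent.Lib.Helper98.decomp2_plus_three (Cfsg.Agent.Lib.Helper98.qfOf Q hQ) hq
          (by omega) D hD ⟨0, by omega⟩ hp0
      · exact Cfsg.Agent.Lib.Helper98.decomp2_minus_three (Cfsg.Agent.Lib.Helper98.qfOf Q hQ) hq
          (by omega) D hD ⟨0, by omega⟩ hp0
    · exact Cfsg.Agent.Lib.Helper98.decomp2_plus_two (Cfsg.Agent.Lib.Helper98.qfOf Q hQ) hnd hq
        (by rw [hcard]; omega) (by omega) D hD hpl
    · exact Cfsg.Agent.Lib.Helper98.decomp2_plus_four (Cfsg.Agent.Lib.Helper98.qfOf Q hQ) hnd hq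
        (by omega) D hD hpl
    · exact Cfsg.Agent.Lib.Helper98.decomp2_plus_five (Cfsg.Agent.Lib.Helper98.qfOf Q hQ) hq
        (by omega) D hD ⟨0, by omega⟩ (hpl _)
  · exact Cfsg.Agent.Lib.Helper98.decomp3_three (Cfsg.Agent.Lib.Helper98.qfOf Q hQ) hq (by omega)
      D hD
  · exact Cfsg.Agent.Lib.Helper98.decomp4_plus_two (Cfsg.Agent.Lib.Helper98.qfOf Q hQ) hnd hq
      (by rw [hcard]; omega) (by omega) D hD hpl

end Cfsg.Agent.S5693
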