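import Cfsg.Statements.S5697
import Cfsg.Agent.Lib.Helper44.OrthPair

set_option autoImplicit false
open Cfsg

namespace Cfsg.Agent.S5697

open Cfsg.Agent.Lib.Helper52 Cfsg.Agent.Lib.Helper51 Cfsg.Agent.Lib.Helper44 QuadraticMap Module

/-- Let F be a finite field with q elements, n ≥ 13 even, Q a non-degenerate quadratic form on F^n of plus type (some subspace of dimension n/2 is totally singular), and Ω the commutator subgroup of the isometry group of Q, viewed inside GL_n(F). Suppose n/2 is even and let D be a decomposition of F^n into two complementary subspaces of dimension n/2 on each of which Q vanishes. Then the elements of Ω preserving or interchanging the two subspaces form a maximal subgroup of Ω. -/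
theorem result {F : Type*} [Field F] [Fintype F] {n : ℕ} (hn : 13 ≤ n) (heven : Even n) (Q : (Fin n → F) → F) (hQ : Cfsg.Geo.IsNondegenerateQuadraticForm Q) (hplus : Cfsg.Geo.IsPlusTypeOn Q ⊤) (k : ℕ) (hk : 2 * k = n) (hke : Even k) (D : Fin 2 → Submodule F (Fin n → F)) (hD : Cfsg.Geo.IsMDecomposition k D) (hts : ∀ i, Cfsg.Geo.IsTotallySingularQuad Q (D i)) : Cfsg.Geo.IsMaximalIn (Cfsg.Geo.omegaGL Q) (Cfsg.Geo.decompositionStabilizer D ⊓ Cfsg.Geo.omegaGL Q) := by
  classical
  obtain ⟨Q', rfl, hQ'⟩ := exists_quadraticForm_of_nondeg Q hQ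
  have hcard : Fintype.card (Fin n) = n := Fintype.card_fin n
  have hn5 : 5 ≤ Fintype.card (Fin n) := by omega
  have hsup : D 0 ⊔ D 1 = ⊤ := by
    apply le_antisymm le_top
    rw [← hD.iSup_eq_top]
    apply iSup_le
    intro i
    fin_cases i
    · exact le_sup_left
    · exact le_sup_right
  have hdisj : D 0 ⊓ D 1 = ⊥ :=
    (hD.indep.pairwiseDisjoint (by decide : (0 : Fin 2) ≠ 1)).eq_bot
  have P : TsPair Q' (D 0) (D 1) := ⟨hts 0, hts 1, hdisj, hsup⟩
  have hk0 : finrank F (D 0) = k := hD.finrank_eq 0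
  have hk1 : finrank F (D 1) = k := hD.finrank_eq 1
  have hfin : ∀ i : Fin 2, i = 0 ∨ i = 1 := by decide
  -- maps of the members under an isometry
  have hmap : ∀ (g : ↥(Cfsg.isometryGroup F ⇑Q')) (i i' : Fin 2),
      (∀ x ∈ D i, ((g : Matrix.GeneralLinearGroup (Fin n) F) :
        Matrix (Fin n) (Fin n) F).mulVec x ∈ D i') →
      (D i).map (Matrix.toLin' ((g : Matrix.GeneralLinearGroup (Fin n) F) :
        Matrix (Fin n) (Fin n) F)) = D i' := by
    intro g i i' h
    apply Submodule.eq_of_le_of_finrank_eq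
    · rintro y ⟨x, hx, rfl⟩
      rw [Matrix.toLin'_apply]
      exact h x hx
    · rw [Matrix.toLin'_apply', finrank_map_isometry Q' g (D i), hD.finrank_eq i,
        hD.finrank_eq i']
  have mem_stab : ∀ g : ↥(Cfsg.isometryGroup F ⇑Q'),
      (((∀ x ∈ D 0, ((g : Matrix.GeneralLinearGroup (Fin n) F) :
          Matrix (Fin n) (Fin n) F).mulVec x ∈ D 0) ∧
        (∀ x ∈ D 1, ((g : Matrix.GeneralLinearGroup (Fin n) F) :
          Matrix (Fin n) (Fin n) F).mulVec x ∈ D 1)) ∨
       ((∀ x ∈ D 0, ((g : Matrix.GeneralLinearGroup (Fin n) F) :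
          Matrix (Fin n) (Fin n) F).mulVec x ∈ D 1) ∧
        (∀ x ∈ D 1, ((g : Matrix.GeneralLinearGroup (Fin n) F) :
          Matrix (Fin n) (Fin n) F).mulVec x ∈ D 0))) →
      (g : Matrix.GeneralLinearGroup (Fin n) F) ∈ Cfsg.Geo.decompositionStabilizer D := by
    intro g hg
    rcases hg with ⟨h0, h1⟩ | ⟨h0, h1⟩
    · refine ⟨1, fun i => ?_⟩
      rcases hfin i with rfl | rfl
      · exact hmap g 0 0 h0
      · exact hmap g 1 1 h1
    · refine ⟨Equiv.swap 0 1, fun i => ?_⟩
      rcases hfin i with rfl | rfl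
      · rw [Equiv.swap_apply_left]
        exact hmap g 0 1 h0
      · rw [Equiv.swap_apply_right]
        exact hmap g 1 0 h1
  have stab_mem : ∀ g : ↥(Cfsg.isometryGroup F ⇑Q'),
      (g : Matrix.GeneralLinearGroup (Fin n) F) ∈ Cfsg.Geo.decompositionStabilizer D →
      (((∀ x ∈ D 0, ((g : Matrix.GeneralLinearGroup (Fin n) F) :
          Matrix (Fin n) (Fin n) F).mulVec x ∈ D 0) ∧
        (∀ x ∈ D 1, ((g : Matrix.GeneralLinearGroup (Fin n) F) :
          Matrix (Fin n) (Fin n) F).mulVec x ∈ D 1)) ∨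
       ((∀ x ∈ D 0, ((g : Matrix.GeneralLinearGroup (Fin n) F) :
          Matrix (Fin n) (Fin n) F).mulVec x ∈ D 1) ∧
        (∀ x ∈ D 1, ((g : Matrix.GeneralLinearGroup (Fin n) F) :
          Matrix (Fin n) (Fin n) F).mulVec x ∈ D 0))) := by
    rintro g ⟨σ, hσ⟩
    have hin : ∀ i, ∀ x ∈ D i, ((g : Matrix.GeneralLinearGroup (Fin n) F) :
        Matrix (Fin n) (Fin n) F).mulVec x ∈ D (σ i) := by
      intro i x hx
      rw [← hσ i]
      exact ⟨x, hx, Matrix.toLin'_apply _ _⟩
    have h01 : σ 0 ≠ σ 1 := fun h => absurd (σ.injective h) (by decide)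
    rcases hfin (σ 0) with h0 | h0
    · have h1 : σ 1 = 1 := (hfin (σ 1)).resolve_left (fun h => h01 (by rw [h0, h]))
      left
      refine ⟨fun x hx => ?_, fun x hx => ?_⟩
      · have := hin 0 x hx
        rwa [h0] at this
      · have := hin 1 x hx
        rwa [h1] at this
    · have h1 : σ 1 = 0 := (hfin (σ 1)).resolve_right (fun h => h01 (by rw [h0, h]))
      right
      refine ⟨fun x hx => ?_, fun x hx => ?_⟩
      · have := hin 0 x hx
        rwa [h0] at this
      · have := hin 1 x hx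
        rwa [h1] at this
  constructor
  · rw [SetLike.lt_iff_le_and_exists]
    refine ⟨inf_le_right, ?_⟩
    obtain ⟨g, hg, x, hxW, hx1, hx0⟩ := P.exists_moving Q' hQ' hn5 (by omega)
    refine ⟨(g : Matrix.GeneralLinearGroup (Fin n) F), coe_mem_omegaGL Q' hg, ?_⟩
    rintro ⟨h1, -⟩
    rcases stab_mem g h1 with ⟨-, h⟩ | ⟨-, h⟩
    · exact hx1 (h x hxW)
    · exact hx0 (h x hxW)
  · intro M hHM hMΩ
    by_cases hMH : M = Cfsg.Geo.decompositionStabilizer D ⊓ Cfsg.Geo.omegaGL ⇑Q'
    · exact Or.inl hMH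
    · right
      apply le_antisymm hMΩ
      obtain ⟨x, hxM, hxH⟩ : ∃ x ∈ M,
          x ∉ Cfsg.Geo.decompositionStabilizer D ⊓ Cfsg.Geo.omegaGL ⇑Q' := by
        by_contra hcon
        push Not at hcon
        exact hMH (le_antisymm hcon hHM)
      obtain ⟨g, hgΩ, rfl⟩ := exists_of_mem_omegaGL Q' (hMΩ hxM)
      have hgS : (g : Matrix.GeneralLinearGroup (Fin n) F) ∉
          Cfsg.Geo.decompositionStabilizer D := fun h => hxH ⟨h, hMΩ hxM⟩
      obtain ⟨j, hjΩ, hjU, hjW⟩ := P.exists_swap Q' hQ' (Or.inr (by omega))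
        (by rw [hk0, hk1]) (by rw [hk0]; exact hke)
      have hcore : commutator ↥(Cfsg.isometryGroup F ⇑Q') ≤
          M.comap (Cfsg.isometryGroup F ⇑Q').subtype := by
        refine P.maximal_core Q' hQ' hn5 (by omega) (by omega)
          (M.comap (Cfsg.isometryGroup F ⇑Q').subtype) ?_ j ?_ hjU hjW g hxM ?_ ?_
        · intro h hc h0 h1
          exact hHM ⟨mem_stab h (Or.inl ⟨h0, h1⟩), coe_mem_omegaGL Q' hc⟩
        · exact hHM ⟨mem_stab j (Or.inr ⟨hjU, hjW⟩), coe_mem_omegaGL Q' hjΩ⟩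
        · exact fun h => hgS (mem_stab g (Or.inl h))
        · exact fun h => hgS (mem_stab g (Or.inr h))
      intro y hy
      obtain ⟨g', hg', rfl⟩ := exists_of_mem_omegaGL Q' hy
      exact hcore hg'

end Cfsg.Agent.S5697
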