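import Cfsg.Statements.S5698
import Cfsg.Agent.Lib.Helper52.GeoOmega

set_option autoImplicit false
open Cfsg

namespace Cfsg.Agent.S5698

open Cfsg.Agent.Lib.Helper52 Cfsg.Agent.Lib.Helper51 QuadraticMap Module

/-- Let F be a finite field with q elements, n ≥ 13 even, Q a non-degenerate quadratic form on F^n of plus type (some subspace of dimension n/2 is totally singular), and Ω the commutator subgroup of the isometry group of Q, viewed inside GL_n(F). Suppose n/2 is odd and let D be a decomposition of F^n into two complementary subspaces of dimension n/2 on each of which Q vanishes. Then the elements of Ω preserving or interchanging the two subspaces form a subgroup that is not maximal: some subgroup lies strictly between it and Ω. -/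
theorem result {F : Type*} [Field F] [Fintype F] {n : ℕ} (hn : 13 ≤ n) (heven : Even n) (Q : (Fin n → F) → F) (hQ : Cfsg.Geo.IsNondegenerateQuadraticForm Q) (hplus : Cfsg.Geo.IsPlusTypeOn Q ⊤) (k : ℕ) (hk : 2 * k = n) (hko : Odd k) (D : Fin 2 → Submodule F (Fin n → F)) (hD : Cfsg.Geo.IsMDecomposition k D) (hts : ∀ i, Cfsg.Geo.IsTotallySingularQuad Q (D i)) : ∃ K : Subgroup (Matrix.GeneralLinearGroup (Fin n) F), Cfsg.Geo.decompositionStabilizer D ⊓ Cfsg.Geo.omegaGL Q < K ∧ K < Cfsg.Geo.omegaGL Q := by
  classical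
  obtain ⟨Q', rfl, hQ'⟩ := exists_quadraticForm_of_nondeg Q hQ
  have hcard : Fintype.card (Fin n) = n := Fintype.card_fin n
  have hn5 : 5 ≤ Fintype.card (Fin n) := by omega
  have hsup : D 0 ⊔ D 1 = ⊤ := by
    apply le_antisymm le_top
    rw [← hD.iSup_eq_top]
    apply iSup_le
    intro i
    fin_cases i
    · exact le_sup_left
    · exact le_sup_right
  -- witnesses: an element of Ω fixing `D i` pointwise and moving a vector of `D j` out of both
  have wit : ∀ i j : Fin 2, i ≠ j → ∃ g : ↥(Cfsg.isometryGroup F ⇑Q'),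
      g ∈ commutator ↥(Cfsg.isometryGroup F ⇑Q') ∧
      (∀ v ∈ D i, ((g : Matrix.GeneralLinearGroup (Fin n) F) : Matrix (Fin n) (Fin n) F).mulVec v = v) ∧
      ∃ x ∈ D j, ((g : Matrix.GeneralLinearGroup (Fin n) F) : Matrix (Fin n) (Fin n) F).mulVec x ∉ D j ∧
        ((g : Matrix.GeneralLinearGroup (Fin n) F) : Matrix (Fin n) (Fin n) F).mulVec x ∉ D i := by
    intro i j hij
    have hdisj : D i ⊓ D j = ⊥ := (hD.indep.pairwiseDisjoint hij).eq_bot
    have hsup' : D i ⊔ D j = ⊤ := by
      fin_cases i <;> fin_cases j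
      · exact absurd rfl hij
      · exact hsup
      · rw [sup_comm]; exact hsup
      · exact absurd rfl hij
    have hdi : finrank F (D i) = k := hD.finrank_eq i
    -- a non-zero vector `w` of `D i` and `u ∈ D i` outside its line
    obtain ⟨w, hwD, hw0⟩ : ∃ w ∈ D i, w ≠ 0 := by
      by_contra hcon
      push Not at hcon
      have : D i = ⊥ := by
        rw [eq_bot_iff]
        intro x hx
        rw [Submodule.mem_bot]
        exact hcon x hx
      rw [this, finrank_bot] at hdi
      omega
    obtain ⟨u, huD, huw⟩ : ∃ u ∈ D i, u ∉ Submodule.span F ({w} : Set (Fin n → F)) := by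
      by_contra hcon
      push Not at hcon
      have hle : D i ≤ Submodule.span F ({w} : Set (Fin n → F)) := fun x hx => hcon x hx
      have h1 := Submodule.finrank_mono hle
      rw [hdi, finrank_span_singleton hw0] at h1
      omega
    obtain ⟨y, hyu, hyo⟩ := exists_polar_sep Q' hQ' _ u huw
    have hyw : polar ⇑Q' y w = 0 := hyo w (Submodule.mem_span_singleton_self w)
    have hymem : y ∈ D i ⊔ D j := by rw [hsup']; exact Submodule.mem_top
    obtain ⟨yi, hyi, x, hxD, hsum⟩ := Submodule.mem_sup.mp hymem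
    have hpol : ∀ a ∈ D i, ∀ b ∈ D i, polar ⇑Q' a b = 0 := fun a ha b hb =>
      polar_eq_zero_of_ts Q' (D i) (hts i) ha hb
    have hxu : polar ⇑Q' x u = 1 := by
      have : x = y - yi := by rw [← hsum]; abel
      rw [this, polar_sub_left, hyu, hpol yi hyi u huD, sub_zero]
    have hxw : polar ⇑Q' x w = 0 := by
      have : x = y - yi := by rw [← hsum]; abel
      rw [this, polar_sub_left, hyw, hpol yi hyi w hwD, sub_zero]
    have hu : Q' u = 0 := hts i u huD
    have hw : Q' w = 0 := hts i w hwD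
    have huw' : polar ⇑Q' u w = 0 := hpol u huD w hwD
    refine ⟨eich Q' u w hu huw', eich_mem_commutator Q' hQ' hn5 u w hu huw', ?_, x, hxD, ?_, ?_⟩
    · intro v hv
      rw [coe_eich]
      exact eichMat_mulVec_of_orth Q' u w v (hpol w hwD v hv) (hpol u huD v hv)
    · rw [coe_eich, eichMat_mulVec, polar_comm ⇑Q' w x, hxw, polar_comm ⇑Q' u x, hxu, hw]
      intro hmem
      have h1 : w ∈ D j := by
        have h2 := (D j).sub_mem hxD hmem
        have e : x - (x + (0 : F) • u - (1 : F) • w - ((0 : F) * 1) • u) = w := by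
          simp
        rwa [e] at h2
      have h3 : w ∈ D i ⊓ D j := ⟨hwD, h1⟩
      rw [hdisj, Submodule.mem_bot] at h3
      exact hw0 h3
    · rw [coe_eich, eichMat_mulVec, polar_comm ⇑Q' w x, hxw, polar_comm ⇑Q' u x, hxu, hw]
      intro hmem
      have h1 : x ∈ D i := by
        have h2 := (D i).add_mem hmem hwD
        have e : x + (0 : F) • u - (1 : F) • w - ((0 : F) * 1) • u + w = x := by
          simp
        rwa [e] at h2
      have h3 : x ∈ D i ⊓ D j := ⟨h1, hxD⟩
      rw [hdisj, Submodule.mem_bot] at h3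
      rw [h3, polar_zero_left] at hxu
      exact zero_ne_one hxu
  refine ⟨Cfsg.Geo.subspaceStabilizer (D 0) ⊓ Cfsg.Geo.omegaGL ⇑Q', ?_, ?_⟩
  · rw [SetLike.lt_iff_le_and_exists]
    constructor
    · rintro x ⟨hx1, hx2⟩
      obtain ⟨g, hg, rfl⟩ := exists_of_mem_omegaGL Q' hx2
      refine ⟨?_, hx2⟩
      obtain ⟨σ, hσ⟩ := hx1
      have h0 : σ 0 = 0 := by
        by_contra hne
        have h1 : σ 0 = 1 := by
          have : ∀ a : Fin 2, a ≠ 0 → a = 1 := by decide
          exact this _ hne
        have h2 := even_inf_of_mem_commutator Q' hQ' (Or.inr (by omega)) (D 0) (hts 0)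
          (by rw [hD.finrank_eq 0, hcard]; exact hk) g hg
        rw [hσ 0, h1, (hD.indep.pairwiseDisjoint (by decide : (0 : Fin 2) ≠ 1)).eq_bot,
          finrank_bot, hD.finrank_eq 0] at h2
        exact (Nat.not_even_iff_odd.mpr hko) (h2.mp (by simp))
      apply coe_mem_subspaceStabilizer_of_map Q'
      rw [hσ 0, h0]
    · obtain ⟨g, hg, hfix, x, hxD, hx1, hx0⟩ := wit 0 1 (by decide)
      refine ⟨(g : Matrix.GeneralLinearGroup (Fin n) F), ⟨?_, coe_mem_omegaGL Q' hg⟩, ?_⟩
      · apply coe_mem_subspaceStabilizer Q'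
        intro w hw
        rw [hfix w hw]
        exact hw
      · rintro ⟨⟨σ, hσ⟩, -⟩
        have h1 : Matrix.toLin' ((g : Matrix.GeneralLinearGroup (Fin n) F) :
            Matrix (Fin n) (Fin n) F) x ∈ D (σ 1) := by
          rw [← hσ 1]
          exact ⟨x, hxD, rfl⟩
        rw [Matrix.toLin'_apply] at h1
        have : ∀ a : Fin 2, a = 0 ∨ a = 1 := by decide
        rcases this (σ 1) with h | h
        · rw [h] at h1; exact hx0 h1
        · rw [h] at h1; exact hx1 h1
  · rw [SetLike.lt_iff_le_and_exists]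
    refine ⟨inf_le_right, ?_⟩
    obtain ⟨g, hg, hfix, x, hxD, hx0, hx1⟩ := wit 1 0 (by decide)
    refine ⟨(g : Matrix.GeneralLinearGroup (Fin n) F), coe_mem_omegaGL Q' hg, ?_⟩
    rintro ⟨h1, -⟩
    exact hx0 (((mem_subspaceStabilizer_iff (D 0) _).mp h1 x).mp hxD)

end Cfsg.Agent.S5698
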