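import Cfsg.Statements.S5701
import Mathlib
import Cfsg.Agent.Lib.Helper52.GeoOmega
import Cfsg.Agent.Lib.Helper71.OKMain
import Cfsg.Agent.Lib.Helper94.OKS1
import Cfsg.Agent.Lib.Helper21.OKS2
import Cfsg.Agent.Lib.Helper21.OKS3

set_option autoImplicit false
open Cfsg

namespace Cfsg.Agent.S5701

/-- Let F be a finite field with q elements, n ≥ 13 even, Q a non-degenerate quadratic form on F^n (of either type), and Ω the commutator subgroup of the isometry group of Q, viewed inside GL_n(F). Suppose q is odd. Let K be a subfield of the algebra of n × n matrices over F containing the scalars, of prime degree r over F with n/r ≥ 3, whose elements are self-adjoint for the polar form of Q. Then the elements of Ω normalising K form a maximal subgroup of Ω. -/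
theorem result {F : Type*} [Field F] [Fintype F] {n : ℕ} (hn : 13 ≤ n) (heven : Even n) (Q : (Fin n → F) → F) (hQ : Cfsg.Geo.IsNondegenerateQuadraticForm Q) (hodd : Odd (Fintype.card F)) (r : ℕ) (hr : r.Prime) (hnr : 3 * r ≤ n) (K : Subalgebra F (Matrix (Fin n) (Fin n) F)) (hK : Cfsg.Geo.IsFieldSubalgebra r K) (hsa : Cfsg.Geo.IsSelfAdjointFor (QuadraticMap.polar Q) K) : Cfsg.Geo.IsMaximalIn (Cfsg.Geo.omegaGL Q) (Cfsg.Geo.subalgebraNormalizer K ⊓ Cfsg.Geo.omegaGL Q) := by
  obtain ⟨Q', rfl, hQ'⟩ := Cfsg.Agent.Lib.Helper52.exists_quadraticForm_of_nondeg Q hQ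
  have hne : Nonempty (Fin n) := ⟨⟨0, by omega⟩⟩
  obtain ⟨L, instL, instA, instFD, S, hrange, hrank⟩ :=
    Cfsg.Agent.Lib.Helper94.OKS1.exists_KO Q' hQ' K hK hsa
  have h2 : (2 : F) ≠ 0 := by
    intro h
    have hchar : ringChar F = 2 := by
      have h1 : ((2 : ℕ) : F) = 0 := by exact_mod_cast h
      have h3 := (ringChar.spec F 2).mp h1
      exact (Nat.prime_dvd_prime_iff_eq (CharP.char_is_prime F (ringChar F)) Nat.prime_two).mp h3
    have heven2 := FiniteField.even_card_of_char_two hchar
    exact (Nat.not_even_iff_odd.mpr hodd) (Nat.even_iff.mpr heven2)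
  have hcard : Fintype.card (Fin n) = n := Fintype.card_fin n
  have hdvd : r ∣ n := by
    have := Cfsg.Agent.Lib.Helper21.OKS2.finrank_dvd_card S
    rwa [hrank, hcard] at this
  have hr' : (Module.finrank F L).Prime := by rw [hrank]; exact hr
  have hd : 4 * Module.finrank F L ≤ Fintype.card (Fin n) := by
    rw [hrank, hcard]
    obtain ⟨d, rfl⟩ := hdvd
    have hr2 := hr.two_le
    have hd3 : 3 ≤ d := by
      by_contra hlt
      have : d ≤ 2 := by omega
      nlinarith
    rcases hr.eq_two_or_odd' with rfl | hodd'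
    · nlinarith
    · have hdeven : Even d := by
        rcases Nat.even_mul.mp heven with h | h
        · exact absurd h (Nat.not_even_iff_odd.mpr hodd')
        · exact h
      have hd4 : 4 ≤ d := by
        obtain ⟨k, rfl⟩ := hdeven
        omega
      nlinarith
  have h5 : Module.finrank F L = 2 → 5 * Module.finrank F L ≤ Fintype.card (Fin n) := by
    intro h
    rw [h, hcard]
    omega
  constructor
  · refine lt_of_le_of_ne inf_le_right ?_
    intro heq
    obtain ⟨g, hgΩ, hgN⟩ :=
      Cfsg.Agent.Lib.Helper21.OKS3.exists_omega_not_normalizer S h2 hQ' hr' hd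
    rw [← heq] at hgΩ
    rw [hrange] at hgN
    exact hgN (Subgroup.mem_inf.mp hgΩ).1
  · intro M hNM hMle
    by_cases hMN : M = Cfsg.Geo.subalgebraNormalizer K ⊓ Cfsg.Geo.omegaGL ⇑Q'
    · exact Or.inl hMN
    · right
      apply le_antisymm hMle
      have hex : ∃ h ∈ M, h ∉ Cfsg.Geo.subalgebraNormalizer K := by
        by_contra hcon
        push Not at hcon
        exact hMN (le_antisymm (fun g hg => Subgroup.mem_inf.mpr ⟨hcon g hg, hMle hg⟩) hNM)
      obtain ⟨h, hhM, hhN⟩ := hex
      have hNO : S.NO Q' ≤ M := by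
        intro g hg
        apply hNM
        refine Subgroup.mem_inf.mpr ⟨?_, S.NO_le_omega hg⟩
        rw [← hrange]
        exact S.NO_le_normalizer hg
      exact Cfsg.Agent.Lib.Helper71.OKMain.overgroup S h2 hQ' hr' hd M hNO hMle h5 hhM
        (by rw [hrange]; exact hhN)

end Cfsg.Agent.S5701
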