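import Cfsg.Statements.S5702
import Cfsg.Agent.Lib.Helper52.SubfMain
import Cfsg.Agent.Lib.Helper52.SubfTwoR
import Cfsg.Agent.Lib.Helper96.SubfTwoMain
import Cfsg.Agent.Lib.Helper96.SubfOddInv
import Cfsg.Agent.Lib.Helper52.SubfOdd

set_option autoImplicit false
open Cfsg

namespace Cfsg.Agent.S5702

open Cfsg.Agent.Lib.Helper52 Cfsg.Agent.Lib.Helper51 Cfsg.Agent.Lib.Helper50 QuadraticMap Module

/-- Let F be a finite field with q elements, n ≥ 13 even, Q a non-degenerate quadratic form on F^n (of either type), and Ω the commutator subgroup of the isometry group of Q, viewed inside GL_n(F). Let F₀ be a subfield with |F| = |F₀| ^ r for a prime r, ζ a non-zero scalar and P an invertible matrix such that ζ·Q takes values in F₀ on the F₀-span of the columns of P. Then the elements of Ω lying in the subfield group of P (the conjugate by P of the product of GL_n(F₀) with the scalars) form a maximal subgroup of Ω. -/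
theorem result {F : Type*} [Field F] [Fintype F] {n : ℕ} (hn : 13 ≤ n) (heven : Even n) (Q : (Fin n → F) → F) (hQ : Cfsg.Geo.IsNondegenerateQuadraticForm Q) (F₀ : Subfield F) (r : ℕ) (hr : r.Prime) (hcard : Fintype.card F = Nat.card F₀ ^ r) (P : Matrix.GeneralLinearGroup (Fin n) F) (ζ : F) (hζ : ζ ≠ 0) (hP : Cfsg.Geo.IsQuadFormRationalStructure (fun v : Fin n → F => ζ * Q v) F₀ P) : Cfsg.Geo.IsMaximalIn (Cfsg.Geo.omegaGL Q) (Cfsg.Geo.subfieldSubgroup F₀ P ⊓ Cfsg.Geo.omegaGL Q) := by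
  classical
  obtain ⟨Q', rfl, hQ'⟩ := exists_quadraticForm_of_nondeg Q hQ
  have hcardn : Fintype.card (Fin n) = n := Fintype.card_fin n
  have hn14 : 14 ≤ n := by
    obtain ⟨k, hk⟩ := heven
    omega
  apply isMaximalIn_subfield_transport (⇑Q') F₀ P ζ hζ
  rw [← coe_twistForm Q' P ζ]
  have hrat : ∀ v : Fin n → F₀, twistForm Q' P ζ (jV F₀ v) ∈ F₀ := by
    intro v
    rw [coe_twistForm]
    exact hP (jV F₀ v) (ratV_jV F₀ v)
  have hnd := twistForm_nondeg Q' hQ' P ζ hζ
  apply subfield_isMaximalIn F₀ (twistForm Q' P ζ) hrat hnd (by omega) r hr hcard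
  intro M hRat hW hMΩ m hm
  have hfr : finrank F₀ F = r := finrank_of_card F₀ r hcard
  by_cases h2 : (2 : F) = 0
  · exact Cfsg.Agent.Lib.Helper96.char_two_le_H1 F₀ (twistForm Q' P ζ) hrat hnd M (by omega)
      hRat hW h2 hMΩ m hm
  · by_cases hr3 : r ≤ 3
    · exact le_H1_of_finrank F₀ (twistForm Q' P ζ) hrat hnd M (by omega) hRat hW hMΩ
        (by rw [hfr]; omega) hm
    · have hodd : Odd r := by
        rcases hr.eq_two_or_odd' with h | h
        · omega
        · exact h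
      have hsq : ∀ c : F, c ^ 2 ∈ F₀ → c ∈ F₀ :=
        fun c hc => mem_of_sq_mem F₀ r hcard (Or.inr hodd) c hc
      exact odd_le_H1 F₀ (twistForm Q' P ζ) hrat hnd M (by omega) hRat hW h2 hsq hMΩ
        (fun e₁ f₁ e₂ f₂ a1 a2 a3 a4 a5 a6 a7 a8 a9 a10 =>
          Cfsg.Agent.Lib.Helper96.exists_invol4 F₀ (twistForm Q' P ζ) hrat h2 (by omega)
            e₁ f₁ e₂ f₂ a1 a2 a3 a4 a5 a6 a7 a8 a9 a10)
        (Cfsg.Agent.Lib.Helper96.exists_invol6 F₀ (twistForm Q' P ζ) hrat hnd h2 (by omega))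
        hm

end Cfsg.Agent.S5702
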