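import Cfsg.Statements.S5705
import Mathlib
import Cfsg.Agent.S5638
import Cfsg.Agent.Lib.Helper98.TensO3
-- import your own Cfsg.Agent.* helpers here

set_option autoImplicit false
open Cfsg

namespace Cfsg.Agent.S5705

open Cfsg.Agent.Lib.Helper98 Cfsg.Agent.S5638 Module Matrix Kronecker QuadraticMap

set_option linter.unusedSimpArgs false
set_option linter.unusedVariables false

theorem mem_extCent_of_comm {ι : Type} [Fintype ι] [DecidableEq ι] {F : Type*} [Field F]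
    (g ω : GL ι F)
    (h : ∀ u, (g : Matrix ι ι F) *ᵥ ((ω : Matrix ι ι F) *ᵥ u) =
      (ω : Matrix ι ι F) *ᵥ ((g : Matrix ι ι F) *ᵥ u)) : g ∈ extCent ω := by
  left
  rw [mul_inv_eq_iff_eq_mul]
  apply Units.ext
  rw [Units.val_mul, Units.val_mul]
  apply Matrix.mulVec_injective
  funext u
  rw [← Matrix.mulVec_mulVec, ← Matrix.mulVec_mulVec]
  exact h u

/-- The abstract core: `V = V₂ ⊕ V₂` with `Q (a, b) = f₂ a b` and the element `ω : (a, b) ↦ (b, a + b)`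
of order three; the normaliser of `⟨ω⟩` in `Ω` lies strictly between `H ⊓ Ω` and `Ω`. -/
theorem core {ι : Type} [Fintype ι] [DecidableEq ι] {F : Type*} [Field F] [Fintype F]
    (hq : Fintype.card F = 2) (Q : QuadraticForm F (ι → F)) (hnd : (polarBilin Q).Nondegenerate)
    (hι : Fintype.card ι ≠ 4) {n₂ : ℕ} (hn₂ : 3 ≤ n₂) (f₂ : (Fin n₂ → F) → (Fin n₂ → F) → F)
    (hf₂ : Cfsg.Geo.IsSymplecticForm f₂) (V : (Fin n₂ → F) → (Fin n₂ → F) → (ι → F))
    (hVadd : ∀ a b a' b', V (a + a') (b + b') = V a b + V a' b')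
    (hdec : ∀ v, ∃ a b, v = V a b)
    (hinj : ∀ a b a' b', V a b = V a' b' → a = a' ∧ b = b')
    (hB : ∀ a b a' b', polar ⇑Q (V a b) (V a' b') = f₂ a b' + f₂ b a')
    (hQ : ∀ a b, Q (V a b) = f₂ a b)
    (ω : GL ι F) (hω : ∀ a b, (ω : Matrix ι ι F) *ᵥ V a b = V b (a + b))
    (H : Subgroup (GL ι F)) (hHK : H ≤ extCent ω)
    (hH : ∀ g ∈ H, ∃ (α₀ α₁ : F) (B : (Fin n₂ → F) → (Fin n₂ → F)), ∀ a,
      (g : Matrix ι ι F) *ᵥ V a 0 = V (α₀ • B a) (α₁ • B a)) :
    ∃ K : Subgroup (GL ι F), H ⊓ Cfsg.Geo.omegaGL ⇑Q < K ∧ K < Cfsg.Geo.omegaGL ⇑Q := by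
  classical
  have h2 : (2 : F) = 0 := two_eq_zero_two hq
  have hvv : ∀ v : ι → F, v + v = 0 := fun v => by
    rw [← two_smul F v, h2, zero_smul]
  have hww : ∀ v : Fin n₂ → F, v + v = 0 := fun v => by
    rw [← two_smul F v, h2, zero_smul]
  have f2al := hf₂.bilinear.add_left
  have f2ar := hf₂.bilinear.add_right
  have f2sl := hf₂.bilinear.smul_left
  have f2sr := hf₂.bilinear.smul_right
  have f2alt := hf₂.alternating
  have f2sym : ∀ u v, f₂ u v = f₂ v u := fun u v => by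
    rw [hf₂.skew u v]
    linear_combination (-(f₂ v u)) * h2
  have f2zl : ∀ v, f₂ 0 v = 0 := fun v => by
    have h4 := f2sl 0 0 v
    rw [zero_smul, zero_mul] at h4
    exact h4
  have f2zr : ∀ v, f₂ v 0 = 0 := fun v => by rw [f2sym, f2zl]
  have hV0 : V 0 0 = 0 := by
    have h4 := hVadd 0 0 0 0
    rw [add_zero] at h4
    exact left_eq_add.mp h4
  -- ω is an isometry of the polar form and ω² = 1 + ω
  have hωiso : ∀ u v, polar ⇑Q ((ω : Matrix ι ι F) *ᵥ u) ((ω : Matrix ι ι F) *ᵥ v) =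
      polar ⇑Q u v := by
    intro u v
    obtain ⟨a, b, rfl⟩ := hdec u
    obtain ⟨a', b', rfl⟩ := hdec v
    rw [hω, hω, hB, hB, f2ar, f2al]
    linear_combination (f₂ b b') * h2
  have hω2 : ∀ v, (ω : Matrix ι ι F) *ᵥ ((ω : Matrix ι ι F) *ᵥ v) =
      v + (ω : Matrix ι ι F) *ᵥ v := by
    intro v
    obtain ⟨a, b, rfl⟩ := hdec v
    rw [hω, hω, ← hVadd]
  -- vectors of V₂
  obtain ⟨w', hw'⟩ : ∃ u : Fin n₂ → F, u ≠ 0 := by
    refine ⟨Pi.single ⟨0, by omega⟩ 1, fun h0 => ?_⟩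
    have h4 := congrFun h0 ⟨0, by omega⟩
    simp at h4
  obtain ⟨w, hw⟩ := (hf₂.nondegenerate w' hw').1
  have hww' : f₂ w w' = 1 := by
    rcases two_cases hq (f₂ w w') with h | h
    · exact absurd h hw
    · exact h
  have hw'w : f₂ w' w = 1 := by rw [f2sym]; exact hww'
  obtain ⟨a₀, ha₀, hwa, hw'a⟩ : ∃ a₀ : Fin n₂ → F, a₀ ≠ 0 ∧ f₂ w a₀ = 0 ∧ f₂ w' a₀ = 0 := by
    obtain ⟨B₂, hB₂⟩ : ∃ B : LinearMap.BilinForm F (Fin n₂ → F), ∀ u v, B u v = f₂ u v :=
      ⟨bilOf f₂ hf₂.bilinear, fun _ _ => rfl⟩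
    have hfin : finrank F (Fin n₂ → F) = n₂ := by
      rw [Module.finrank_fintype_fun_eq_card, Fintype.card_fin]
    have h1 : finrank F (⊤ : Submodule F (Fin n₂ → F)) ≤
        finrank F ↥((⊤ : Submodule F (Fin n₂ → F)) ⊓ LinearMap.ker (B₂ w)) + 1 :=
      finrank_le_inf_ker_add_one _ _
    have h1' : finrank F ↥((⊤ : Submodule F (Fin n₂ → F)) ⊓ LinearMap.ker (B₂ w)) ≤
        finrank F ↥(((⊤ : Submodule F (Fin n₂ → F)) ⊓ LinearMap.ker (B₂ w)) ⊓
          LinearMap.ker (B₂ w')) + 1 :=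
      finrank_le_inf_ker_add_one _ _
    rw [finrank_top, hfin] at h1
    have hne : ((⊤ : Submodule F (Fin n₂ → F)) ⊓ LinearMap.ker (B₂ w)) ⊓
        LinearMap.ker (B₂ w') ≠ ⊥ := by
      intro h
      rw [h, finrank_bot] at h1'
      omega
    obtain ⟨a₀, ha₀mem, ha₀⟩ := Submodule.exists_mem_ne_zero_of_ne_bot hne
    have h4 : a₀ ∈ LinearMap.ker (B₂ w) := ha₀mem.1.2
    have h5 : a₀ ∈ LinearMap.ker (B₂ w') := ha₀mem.2
    rw [LinearMap.mem_ker, hB₂] at h4 h5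
    exact ⟨a₀, ha₀, h4, h5⟩
  obtain ⟨p', hp'⟩ := (hf₂.nondegenerate a₀ ha₀).1
  have hp'a : f₂ p' a₀ = 1 := by
    rcases two_cases hq (f₂ p' a₀) with h | h
    · exact absurd h hp'
    · exact h
  -- the basic non-singular vectors
  obtain ⟨x, hx⟩ : ∃ x, x = V w w' := ⟨_, rfl⟩
  obtain ⟨x', hx'⟩ : ∃ x', x' = V w' (w + w') := ⟨_, rfl⟩
  have hQx : Q x = 1 := by rw [hx, hQ]; exact hww'
  have hQx' : Q x' = 1 := by rw [hx', hQ, f2ar, f2alt, add_zero]; exact hw'w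
  have hxx' : polar ⇑Q x x' = 1 := by
    rw [hx, hx', hB, f2ar, f2alt, f2alt, zero_add, add_zero]
    exact hww'
  have hωx : (ω : Matrix ι ι F) *ᵥ x = x' := by rw [hx, hx', hω]
  have hr : ∀ z u, Q z = 1 → rmap Q z u = u + polar ⇑Q z u • z := by
    intro z u hz
    unfold rmap
    rw [hz, inv_one, one_mul, sub_eq_add_neg, ← neg_smul]
    congr 2
    linear_combination (-(polar ⇑Q z u)) * h2
  have hpx : ∀ a b, polar ⇑Q x (V a b) = f₂ w b + f₂ w' a := fun a b => by rw [hx, hB]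
  have hpx' : ∀ a b, polar ⇑Q x' (V a b) = f₂ w' b + f₂ (w + w') a := fun a b => by rw [hx', hB]
  refine ⟨extCent ω ⊓ Cfsg.Geo.omegaGL ⇑Q, ?_, ?_⟩
  · rw [lt_iff_le_and_ne]
    constructor
    · exact fun g hg => ⟨hHK hg.1, hg.2⟩
    · intro hEq
      obtain ⟨g, hgΩ, hgv⟩ := exists_two_refl_gen Q hnd (Or.inr hι) x x'
        (by rw [hQx]; exact one_ne_zero) (by rw [hQx, hQx'])
      have hg : ∀ u, (g : Matrix ι ι F) *ᵥ u = u + polar ⇑Q x' u • x' +
          (polar ⇑Q x u + polar ⇑Q x' u) • x := by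
        intro u
        rw [hgv, hr x' u hQx', hr x _ hQx, polar_add_right, polar_smul_right, smul_eq_mul, hxx',
          mul_one]
      have hcomm : ∀ u, (g : Matrix ι ι F) *ᵥ ((ω : Matrix ι ι F) *ᵥ u) =
          (ω : Matrix ι ι F) *ᵥ ((g : Matrix ι ι F) *ᵥ u) := by
        intro u
        have e1 : polar ⇑Q x' ((ω : Matrix ι ι F) *ᵥ u) = polar ⇑Q x u := by
          rw [← hωx, hωiso]
        have e2 : polar ⇑Q x ((ω : Matrix ι ι F) *ᵥ u) = polar ⇑Q x' u + polar ⇑Q x u := by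
          rw [← hωiso x ((ω : Matrix ι ι F) *ᵥ u), hωx, hω2, polar_add_right, e1]
        have e3 : (ω : Matrix ι ι F) *ᵥ x' = x + x' := by rw [← hωx, hω2, hωx]
        rw [hg, hg, e1, e2, Matrix.mulVec_add, Matrix.mulVec_add, Matrix.mulVec_smul,
          Matrix.mulVec_smul, hωx, e3]
        obtain ⟨p, hp⟩ : ∃ p, p = polar ⇑Q x u := ⟨_, rfl⟩
        obtain ⟨q, hq'⟩ : ∃ q, q = polar ⇑Q x' u := ⟨_, rfl⟩
        rw [← hp, ← hq']
        have h5 : q + p + p = q := by linear_combination p * h2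
        rw [h5, smul_add, add_smul]
        have h6 : (ω : Matrix ι ι F) *ᵥ u + (q • x + q • x') + (p • x' + q • x') =
            (ω : Matrix ι ι F) *ᵥ u + p • x' + q • x + (q • x' + q • x') := by abel
        rw [h6, hvv, add_zero]
      have hgK : g ∈ extCent ω ⊓ Cfsg.Geo.omegaGL ⇑Q := ⟨mem_extCent_of_comm g ω hcomm, hgΩ⟩
      rw [← hEq] at hgK
      obtain ⟨α₀, α₁, B, hgB⟩ := hH g hgK.1
      have hga : (g : Matrix ι ι F) *ᵥ V a₀ 0 = V a₀ 0 := by
        rw [hg, hpx, hpx', f2zr, f2zr, f2al, hwa, hw'a]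
        simp
      have h4 := hgB a₀
      rw [hga] at h4
      obtain ⟨h5, h6⟩ := hinj _ _ _ _ h4
      have hα₀ : α₀ = 1 := by
        rcases two_cases hq α₀ with h | h
        · rw [h, zero_smul] at h5
          exact absurd h5 ha₀
        · exact h
      rw [hα₀, one_smul] at h5
      have hα₁ : α₁ = 0 := by
        rcases two_cases hq α₁ with h | h
        · exact h
        · rw [h, one_smul, ← h5] at h6
          exact absurd h6.symm ha₀
      have h7 := hgB w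
      rw [hα₀, hα₁, one_smul, zero_smul, hg, hpx, hpx', f2zr, f2zr, f2al, f2alt, hw'w] at h7
      simp only [zero_add, add_zero] at h7
      have h8 : (1 : F) + 1 = 0 := by linear_combination h2
      rw [h8, zero_smul, add_zero, one_smul, hx', ← hVadd] at h7
      obtain ⟨-, h9⟩ := hinj _ _ _ _ h7
      rw [zero_add] at h9
      have h10 : w' = w := by
        have h11 : w + w' + w' = 0 + w' := by rw [h9]
        rw [add_assoc, hww, add_zero, zero_add] at h11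
        exact h11.symm
      rw [h10, f2alt] at hww'
      exact zero_ne_one hww'
  · rw [lt_iff_le_and_ne]
    constructor
    · exact fun g hg => hg.2
    · intro hEq
      obtain ⟨y, hy⟩ : ∃ y, y = V w (w' + a₀) := ⟨_, rfl⟩
      have hQy : Q y = 1 := by rw [hy, hQ, f2ar, hww', hwa, add_zero]
      obtain ⟨β, hβ⟩ : ∃ β : F, β = 1 + f₂ p' w' + f₂ p' w := ⟨_, rfl⟩
      obtain ⟨p, hp⟩ : ∃ p, p = (f₂ p' w) • w + β • w' := ⟨_, rfl⟩
      have hwp : f₂ w p = β := by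
        rw [hp, f2ar, f2sr, f2sr, f2alt, hww']
        ring
      have hw'p : f₂ w' p = f₂ p' w := by
        rw [hp, f2ar, f2sr, f2sr, f2alt, hw'w]
        ring
      have hap : f₂ a₀ p = 0 := by
        rw [hp, f2ar, f2sr, f2sr, f2sym a₀ w, f2sym a₀ w', hwa, hw'a]
        ring
      have hpy : ∀ a b, polar ⇑Q y (V a b) = f₂ w b + f₂ (w' + a₀) a := fun a b => by rw [hy, hB]
      have hxv : polar ⇑Q x (V p p') = 0 := by
        rw [hpx, hw'p, f2sym w p']
        linear_combination (f₂ p' w) * h2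
      have hyv : polar ⇑Q y (V p p') = 0 := by
        rw [hpy, f2al, hw'p, hap, f2sym w p']
        linear_combination (f₂ p' w) * h2
      have hxωv : polar ⇑Q x (V p' (p + p')) = 1 := by
        rw [hpx, f2ar, hwp, hβ, f2sym w p', f2sym w' p']
        linear_combination (f₂ p' w' + f₂ p' w) * h2
      have hyωv : polar ⇑Q y (V p' (p + p')) = 0 := by
        rw [hpy, f2ar, hwp, hβ, f2al, f2sym w p', f2sym w' p', f2sym a₀ p', hp'a]
        linear_combination (f₂ p' w' + f₂ p' w + 1) * h2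
      obtain ⟨g, hgΩ, hgv⟩ := exists_two_refl_gen Q hnd (Or.inr hι) x y
        (by rw [hQx]; exact one_ne_zero) (by rw [hQx, hQy])
      have hgK : g ∈ extCent ω ⊓ Cfsg.Geo.omegaGL ⇑Q := by
        rw [hEq]
        exact hgΩ
      have hgv1 : (g : Matrix ι ι F) *ᵥ V p p' = V p p' := by
        rw [hgv, hr y _ hQy, hyv, zero_smul, add_zero, hr x _ hQx, hxv, zero_smul, add_zero]
      have hgv2 : (g : Matrix ι ι F) *ᵥ V p' (p + p') = V p' (p + p') + x := by
        rw [hgv, hr y _ hQy, hyωv, zero_smul, add_zero, hr x _ hQx, hxωv, one_smul]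
      have hx0 : x ≠ 0 := by
        intro h0
        rw [h0, QuadraticMap.map_zero] at hQx
        exact zero_ne_one hQx
      rcases hgK.1 with h | h
      · have h4 : g * ω = ω * g := mul_inv_eq_iff_eq_mul.mp h
        have h5 := congrArg (fun k : GL ι F => (k : Matrix ι ι F) *ᵥ V p p') h4
        simp only [Units.val_mul, ← Matrix.mulVec_mulVec] at h5
        rw [hω, hgv2, hgv1, hω] at h5
        exact hx0 (add_eq_left.mp h5)
      · have h4 : g * ω = ω⁻¹ * g := mul_inv_eq_iff_eq_mul.mp h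
        have h4' : ω * (g * ω) = g := by rw [h4, ← mul_assoc, mul_inv_cancel, one_mul]
        have h5 := congrArg (fun k : GL ι F => (k : Matrix ι ι F) *ᵥ V p p') h4'
        simp only [Units.val_mul, ← Matrix.mulVec_mulVec] at h5
        rw [hω, hgv2, hgv1, Matrix.mulVec_add, hωx, hω, hx', ← hVadd] at h5
        obtain ⟨h6, -⟩ := hinj _ _ _ _ h5
        have h7 : p' + w' = 0 := by
          have h8 : p + p' + w' + p = p + p := by rw [h6]
          have h9 : p + p' + w' + p = p' + w' + (p + p) := by abel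
          rw [h9, hww, add_zero] at h8
          exact h8
        have h10 : p' = w' := by
          have h11 : p' + w' + w' = 0 + w' := by rw [h7]
          rw [add_assoc, hww, add_zero, zero_add] at h11
          exact h11
        rw [h10, hw'a] at hp'a
        exact zero_ne_one hp'a

theorem tp_fin2 {F : Type*} [Field F] {n₂ : ℕ} (u : Fin 2 → F) (w : Fin n₂ → F) :
    tp u w = tp (Pi.single 0 1) (u 0 • w) + tp (Pi.single 1 1) (u 1 • w) := by
  funext p
  obtain ⟨i, j⟩ := p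
  fin_cases i <;> simp [tp]

theorem conj_reindex_mulVec {F : Type*} [Field F] {n₁ n₂ : ℕ} {ι : Type} [Fintype ι]
    [DecidableEq ι] (e : ι ≃ Fin n₁ × Fin n₂) (P : GL ι F) (k : GL (Fin n₁ × Fin n₂) F)
    (x : Fin n₁ × Fin n₂ → F) :
    (((MulAut.conj P).toMonoidHom ((Cfsg.Geo.glReindex e.symm).toMonoidHom k) : GL ι F) :
        Matrix ι ι F) *ᵥ ((P : Matrix ι ι F) *ᵥ (x ∘ e)) =
      (P : Matrix ι ι F) *ᵥ (((k : Matrix (Fin n₁ × Fin n₂) (Fin n₁ × Fin n₂) F) *ᵥ x) ∘ e) := by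
  simp only [MulEquiv.coe_toMonoidHom, MulAut.conj_apply, Units.val_mul]
  rw [← Matrix.mulVec_mulVec, ← Matrix.mulVec_mulVec,
    Matrix.mulVec_mulVec _ (P⁻¹ : GL ι F).val, ← Units.val_mul, inv_mul_cancel, Units.val_one,
    Matrix.one_mulVec]
  congr 1
  show (Matrix.reindexAlgEquiv F F e.symm (k : Matrix (Fin n₁ × Fin n₂) (Fin n₁ × Fin n₂) F)) *ᵥ
    (x ∘ e) = _
  rw [Matrix.coe_reindexAlgEquiv, Matrix.reindex_apply, Equiv.symm_symm,
    Matrix.submatrix_mulVec_equiv]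
  congr 1
  congr 1
  funext p
  simp

theorem tData_explicit {F : Type*} [Field F] {n₁ n₂ : ℕ} {ι : Type} [Fintype ι] [DecidableEq ι]
    (f : (ι → F) → (ι → F) → F)
    (f₁ : (Fin n₁ → F) → (Fin n₁ → F) → F) (f₂ : (Fin n₂ → F) → (Fin n₂ → F) → F)
    (hb₁ : Cfsg.Geo.IsBilinearForm f₁) (hb₂ : Cfsg.Geo.IsBilinearForm f₂)
    (e : ι ≃ Fin n₁ × Fin n₂) (P : GL ι F)
    (hT : Cfsg.Geo.IsTensorFormStructure id f f₁ f₂ e P) :
    ∃ c : F, TData f f₁ f₂ (Cfsg.Geo.tensorProductSubgroup n₁ n₂ e P) c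
      (fun x => (P : Matrix ι ι F) *ᵥ (x ∘ e)) := by
  classical
  obtain ⟨c, hc0, hc⟩ := hT
  refine ⟨c, hc0, ?_, ?_, ?_, ?_, ?_⟩
  · intro x y
    show (P : Matrix ι ι F) *ᵥ (x ∘ e + y ∘ e) = _
    rw [Matrix.mulVec_add]
  · intro a x
    show (P : Matrix ι ι F) *ᵥ (a • (x ∘ e)) = _
    rw [Matrix.mulVec_smul]
  · intro x y hxy
    have h3 := congrArg (fun v => ((P⁻¹ : GL ι F) : Matrix ι ι F) *ᵥ v) hxy
    simp only [Matrix.mulVec_mulVec, ← Units.val_mul, inv_mul_cancel, Units.val_one,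
      Matrix.one_mulVec] at h3
    funext p
    have h4 := congrFun h3 (e.symm p)
    simpa using h4
  · intro u w u' w'
    rw [hc, formOfGram_id_tp, ← eq_formOfGram_id hb₁, ← eq_formOfGram_id hb₂]
  · rintro g ⟨g', ⟨k, ⟨A, B, hk⟩, rfl⟩, rfl⟩
    refine ⟨A, B, fun x => ?_⟩
    rw [← hk]
    exact conj_reindex_mulVec e P k x

/-- Let F be the field with 2 elements, n = 2 n₂ ≥ 13 even, Q a non-degenerate quadratic form on F^n of plus type and Ω the commutator subgroup of its isometry group. Suppose that, through P and e, the polar form of Q is similar to the tensor product of non-degenerate symplectic forms f₁ on F^2 and f₂ on F^(n₂), and Q vanishes on the images of all pure tensors. Then the elements of Ω in the stabiliser of this tensor decomposition form a subgroup that is not maximal: some subgroup lies strictly between it and Ω. -/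
theorem result {F : Type*} [Field F] [Fintype F] {n : ℕ} (hn : 13 ≤ n) (heven : Even n) (Q : (Fin n → F) → F) (hQ : Cfsg.Geo.IsNondegenerateQuadraticForm Q) (hplus : Cfsg.Geo.IsPlusTypeOn Q ⊤) (hq : Fintype.card F = 2) (n₂ : ℕ) (h2 : 2 < n₂) (e : (Fin n) ≃ Fin 2 × Fin n₂) (P : Matrix.GeneralLinearGroup (Fin n) F) (f₁ : (Fin 2 → F) → (Fin 2 → F) → F) (f₂ : (Fin n₂ → F) → (Fin n₂ → F) → F) (hf₁ : Cfsg.Geo.IsSymplecticForm f₁) (hf₂ : Cfsg.Geo.IsSymplecticForm f₂) (hT : Cfsg.Geo.IsTensorFormStructure id (QuadraticMap.polar Q) f₁ f₂ e P) (hpure : (∀ (x₁ : Fin 2 → F) (x₂ : Fin n₂ → F), Q (Matrix.mulVec (P : Matrix (Fin n) (Fin n) F) ((fun a : Fin 2 × Fin n₂ => x₁ a.1 * x₂ a.2) ∘ e)) = 0)) : ∃ K : Subgroup (Matrix.GeneralLinearGroup (Fin n) F), Cfsg.Geo.tensorProductSubgroup 2 n₂ e P ⊓ Cfsg.Geo.omegaGL Q < K ∧ K < Cfsg.Geo.omegaGL Q := by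
  classical
  have hF01 : ∀ x : F, x = 0 ∨ x = 1 := two_cases hq
  have h2' : (2 : F) = 0 := two_eq_zero_two hq
  have h11 : (1 : F) + 1 = 0 := by linear_combination h2'
  have hn₂ : 7 ≤ n₂ := by
    have h1 := Fintype.card_congr e
    simp at h1
    omega
  rw [← coe_qfOf Q hQ] at hT hpure ⊢
  have hnd := qfOf_nondegenerate Q hQ
  obtain ⟨Q', hQ'⟩ : ∃ Q' : QuadraticForm F (Fin n → F), Q' = qfOf Q hQ := ⟨_, rfl⟩
  rw [← hQ'] at hT hpure hnd ⊢
  obtain ⟨c, hTD⟩ := tData_explicit (polar ⇑Q') f₁ f₂ hf₁.bilinear hf₂.bilinear e P hT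
  obtain ⟨T, hTdef⟩ : ∃ T : (Fin 2 × Fin n₂ → F) → (Fin n → F),
      T = fun x => (P : Matrix (Fin n) (Fin n) F) *ᵥ (x ∘ e) := ⟨_, rfl⟩
  rw [← hTdef] at hTD
  have hc1 : c = 1 := (hF01 c).resolve_left hTD.c_ne
  have hT0 : T 0 = 0 := by
    have h4 := hTD.smul 0 0
    rw [zero_smul, zero_smul] at h4
    exact h4
  -- the symplectic form on the two-dimensional factor
  obtain ⟨b₀, hb₀⟩ : ∃ b : Fin 2 → F, b = Pi.single 0 1 := ⟨_, rfl⟩
  obtain ⟨b₁, hb₁⟩ : ∃ b : Fin 2 → F, b = Pi.single 1 1 := ⟨_, rfl⟩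
  have h00 : f₁ b₀ b₀ = 0 := hf₁.alternating _
  have h11' : f₁ b₁ b₁ = 0 := hf₁.alternating _
  have h01 : f₁ b₀ b₁ = 1 := by
    have hb₀ne : b₀ ≠ 0 := by
      rw [hb₀]
      intro h0
      have h4 := congrFun h0 0
      simp at h4
    obtain ⟨x, hx⟩ := (hf₁.nondegenerate b₀ hb₀ne).2
    have hxe : x = x 0 • b₀ + x 1 • b₁ := by
      rw [hb₀, hb₁]
      funext i
      fin_cases i <;> simp
    rw [hxe, hf₁.bilinear.add_right, hf₁.bilinear.smul_right, hf₁.bilinear.smul_right, h00,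
      mul_zero, zero_add] at hx
    rcases hF01 (f₁ b₀ b₁) with h | h
    · rw [h, mul_zero] at hx
      exact absurd rfl hx
    · exact h
  have h10 : f₁ b₁ b₀ = 1 := by
    rw [hf₁.skew, h01]
    linear_combination (-1 : F) * h2'
  have hpure' := hTD.pure
  have hQ0 : ∀ u w, Q' (T (tp u w)) = 0 := by
    intro u w
    rw [hTdef]
    exact hpure u w
  obtain ⟨V, hV⟩ : ∃ V : (Fin n₂ → F) → (Fin n₂ → F) → (Fin n → F),
      ∀ a b, V a b = T (tp b₀ a) + T (tp b₁ b) :=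
    ⟨fun a b => T (tp b₀ a) + T (tp b₁ b), fun _ _ => rfl⟩
  have hVadd : ∀ a b a' b', V (a + a') (b + b') = V a b + V a' b' := by
    intro a b a' b'
    rw [hV, hV, hV, tp_add_right, tp_add_right, hTD.add, hTD.add]
    abel
  have hdec : ∀ v, ∃ a b, v = V a b := by
    intro v
    have h5 : ∀ z : Fin n → F, (tp b₀ (fun j => z (e.symm (0, j))) +
        tp b₁ (fun j => z (e.symm (1, j)))) ∘ e = z := by
      intro z
      funext i
      obtain ⟨⟨k, j⟩, hkj⟩ : ∃ p, e i = p := ⟨_, rfl⟩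
      have hi : i = e.symm (k, j) := by rw [← hkj, Equiv.symm_apply_apply]
      simp only [Function.comp_apply, Pi.add_apply, tp, hkj]
      rw [hb₀, hb₁, hi]
      fin_cases k <;> simp
    refine ⟨fun j => (((P⁻¹ : GL (Fin n) F) : Matrix (Fin n) (Fin n) F) *ᵥ v) (e.symm (0, j)),
      fun j => (((P⁻¹ : GL (Fin n) F) : Matrix (Fin n) (Fin n) F) *ᵥ v) (e.symm (1, j)), ?_⟩
    rw [hV, ← hTD.add, hTdef]
    beta_reduce
    rw [h5, Matrix.mulVec_mulVec, ← Units.val_mul, mul_inv_cancel, Units.val_one,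
      Matrix.one_mulVec]
  have hinj : ∀ a b a' b', V a b = V a' b' → a = a' ∧ b = b' := by
    intro a b a' b' h
    rw [hV, hV, ← hTD.add, ← hTD.add] at h
    have h4 := hTD.inj _ _ h
    constructor
    · funext j
      have h5 := congrFun h4 (0, j)
      simpa [tp, hb₀, hb₁] using h5
    · funext j
      have h5 := congrFun h4 (1, j)
      simpa [tp, hb₀, hb₁] using h5
  have hB : ∀ a b a' b', polar ⇑Q' (V a b) (V a' b') = f₂ a b' + f₂ b a' := by
    intro a b a' b'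
    rw [hV, hV, polar_add_left, polar_add_right, polar_add_right, hpure', hpure', hpure', hpure',
      h00, h01, h10, h11', hc1]
    ring
  have hQV : ∀ a b, Q' (V a b) = f₂ a b := by
    intro a b
    rw [hV, QuadraticMap.map_add Q' _ _, hQ0, hQ0, hpure', h01, hc1]
    ring
  -- the element of order three
  obtain ⟨ΩG, hΩG, hΩG'⟩ : ∃ k : GL (Fin 2 × Fin n₂) F,
      (k : Matrix (Fin 2 × Fin n₂) (Fin 2 × Fin n₂) F) = om ⊗ₖ (1 : Matrix (Fin n₂) (Fin n₂) F) ∧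
      ((k⁻¹ : GL (Fin 2 × Fin n₂) F) : Matrix (Fin 2 × Fin n₂) (Fin 2 × Fin n₂) F) =
        om2 ⊗ₖ (1 : Matrix (Fin n₂) (Fin n₂) F) :=
    ⟨⟨om ⊗ₖ 1, om2 ⊗ₖ 1,
      by rw [← Matrix.mul_kronecker_mul, om_mul_om2 h11, Matrix.one_mul, Matrix.one_kronecker_one],
      by rw [← Matrix.mul_kronecker_mul, om2_mul_om h11, Matrix.one_mul, Matrix.one_kronecker_one]⟩,
      rfl, rfl⟩
  obtain ⟨φ, hφ⟩ : ∃ φ : GL (Fin 2 × Fin n₂) F →* GL (Fin n) F,
      φ = (MulAut.conj P).toMonoidHom.comp (Cfsg.Geo.glReindex e.symm).toMonoidHom := ⟨_, rfl⟩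
  have hφT : ∀ (k : GL (Fin 2 × Fin n₂) F) x,
      ((φ k : GL (Fin n) F) : Matrix (Fin n) (Fin n) F) *ᵥ T x =
        T ((k : Matrix (Fin 2 × Fin n₂) (Fin 2 × Fin n₂) F) *ᵥ x) := by
    intro k x
    rw [hTdef, hφ]
    exact conj_reindex_mulVec e P k x
  have hom0 : (om : Matrix (Fin 2) (Fin 2) F) *ᵥ b₀ = b₁ := by
    rw [hb₀, hb₁]
    funext i
    fin_cases i <;> simp [om, Matrix.mulVec, dotProduct, Fin.sum_univ_two]
  have hom1 : (om : Matrix (Fin 2) (Fin 2) F) *ᵥ b₁ = b₀ + b₁ := by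
    rw [hb₀, hb₁]
    funext i
    fin_cases i <;> simp [om, Matrix.mulVec, dotProduct, Fin.sum_univ_two]
  have hω : ∀ a b, ((φ ΩG : GL (Fin n) F) : Matrix (Fin n) (Fin n) F) *ᵥ V a b =
      V b (a + b) := by
    intro a b
    rw [hV, ← hTD.add, hφT, hΩG, Matrix.mulVec_add, kron_mulVec_tp, kron_mulVec_tp,
      Matrix.one_mulVec, Matrix.one_mulVec, hom0, hom1, tp_add_left, hV, tp_add_right]
    simp only [hTD.add]
    abel
  have hHK : Cfsg.Geo.tensorProductSubgroup 2 n₂ e P ≤ extCent (φ ΩG) := by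
    rintro g ⟨g', ⟨k, ⟨A, B, hk⟩, rfl⟩, rfl⟩
    have hgφ : (MulAut.conj P).toMonoidHom ((Cfsg.Geo.glReindex e.symm).toMonoidHom k) = φ k := by
      rw [hφ]
      rfl
    rw [hgφ]
    have hdet : (A : Matrix (Fin 2) (Fin 2) F).det ≠ 0 := by
      have h1 := Matrix.GeneralLinearGroup.val_det_apply A
      rw [← h1]
      exact Units.ne_zero _
    have hk' : k * ΩG * k⁻¹ = ΩG ∨ k * ΩG * k⁻¹ = ΩG⁻¹ := by
      rw [mul_inv_eq_iff_eq_mul, mul_inv_eq_iff_eq_mul, Units.ext_iff, Units.ext_iff]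
      simp only [Units.val_mul]
      rw [hΩG, hΩG', hk]
      rcases gl2 hF01 h11 (A : Matrix (Fin 2) (Fin 2) F) hdet with h | h
      · left
        rw [← Matrix.mul_kronecker_mul, ← Matrix.mul_kronecker_mul, h, Matrix.mul_one,
          Matrix.one_mul]
      · right
        rw [← Matrix.mul_kronecker_mul, ← Matrix.mul_kronecker_mul, h, Matrix.mul_one,
          Matrix.one_mul]
    rcases hk' with h | h
    · left
      rw [← map_inv, ← map_mul, ← map_mul, h]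
    · right
      rw [← map_inv, ← map_mul, ← map_mul, h, map_inv]
  have hH : ∀ g ∈ Cfsg.Geo.tensorProductSubgroup 2 n₂ e P, ∃ (α₀ α₁ : F)
      (B : (Fin n₂ → F) → (Fin n₂ → F)), ∀ a,
      (g : Matrix (Fin n) (Fin n) F) *ᵥ V a 0 = V (α₀ • B a) (α₁ • B a) := by
    intro g hg
    obtain ⟨A, B, hAB⟩ := hTD.grp g hg
    refine ⟨((A : Matrix (Fin 2) (Fin 2) F) *ᵥ b₀) 0, ((A : Matrix (Fin 2) (Fin 2) F) *ᵥ b₀) 1,
      fun a => (B : Matrix (Fin n₂) (Fin n₂) F) *ᵥ a, fun a => ?_⟩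
    have h5 : V a 0 = T (tp b₀ a) := by
      have h6 : tp b₁ (0 : Fin n₂ → F) = 0 := by
        funext p
        simp [tp]
      rw [hV, h6, hT0, add_zero]
    rw [h5, hAB, kron_mulVec_tp, tp_fin2, hTD.add, hV, hb₀, hb₁]
  exact core hq Q' hnd (by simp; omega) (by omega) f₂ hf₂ V hVadd hdec hinj hB hQV (φ ΩG) hω _
    hHK hH

end Cfsg.Agent.S5705
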