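import Cfsg.Statements.S5781
import Cfsg.Agent.Lib.Helper65.SLCGen2
import Cfsg.Agent.Lib.Helper65.FR5Main
import Cfsg.Agent.Lib.Helper65.SL4D2q3

set_option autoImplicit false
open Cfsg

namespace Cfsg.Agent.S5781

/-- Every maximal subgroup of SL_4(q) is of one of the listed geometric types or lies in the residual class. Let F be a finite field with q elements and H a maximal subgroup of SL_4(F) (inside GL_4(F)). Then H is the intersection with SL_4(F) of one of: the stabiliser of a proper non-zero subspace; for q ≥ 7, the stabiliser of a decomposition into four independent lines; for q ≥ 4, the stabiliser of a decomposition into two independent planes; the normaliser of a degree-2 subfield of the matrix algebra; a subfield group for a subfield F₀ with |F| = |F₀|^r, r prime; for q = p ≡ 1 mod 4 prime, the normaliser of an absolutely irreducible 2-subgroup R of exponent 4 with centre of order 4, all of whose characteristic abelian subgroups are cyclic, of order 2^(2+2m) for some m (here |R| = 64),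 with 4 dividing p − 1; for q odd, the similarity group of a non-degenerate quadratic form; the similarity group of a non-degenerate symplectic form; the similarity group of a non-degenerate unitary form — or else H lies in the residual class of the linear case. -/
theorem result {F : Type*} [Field F] [Fintype F] (H : Subgroup (Matrix.GeneralLinearGroup (Fin 4) F)) (hH : Cfsg.Geo.IsMaximalIn (Cfsg.Geo.specialLinear (Fin 4) F) H) :
    (∃ W : Submodule F (Fin 4 → F), W ≠ ⊥ ∧ W ≠ ⊤ ∧ H = Cfsg.Geo.subspaceStabilizer W ⊓ Cfsg.Geo.specialLinear (Fin 4) F) ∨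
    (7 ≤ Fintype.card F ∧ ∃ D : Fin 4 → Submodule F (Fin 4 → F), Cfsg.Geo.IsMDecomposition 1 D ∧ H = Cfsg.Geo.decompositionStabilizer D ⊓ Cfsg.Geo.specialLinear (Fin 4) F) ∨
    (4 ≤ Fintype.card F ∧ ∃ D : Fin 2 → Submodule F (Fin 4 → F), Cfsg.Geo.IsMDecomposition 2 D ∧ H = Cfsg.Geo.decompositionStabilizer D ⊓ Cfsg.Geo.specialLinear (Fin 4) F) ∨
    (∃ K : Subalgebra F (Matrix (Fin 4) (Fin 4) F), Cfsg.Geo.IsFieldSubalgebra 2 K ∧ H = Cfsg.Geo.subalgebraNormalizer K ⊓ Cfsg.Geo.specialLinear (Fin 4) F) ∨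
    (∃ (F₀ : Subfield F) (r : ℕ) (P : Matrix.GeneralLinearGroup (Fin 4) F), r.Prime ∧ Fintype.card F = Nat.card F₀ ^ r ∧ H = Cfsg.Geo.subfieldSubgroup F₀ P ⊓ Cfsg.Geo.specialLinear (Fin 4) F) ∨
    (∃ (p : ℕ) (R : Subgroup (Matrix.GeneralLinearGroup (Fin 4) F)), p.Prime ∧ Fintype.card F = p ∧ p % 4 = 1 ∧ Cfsg.Geo.IsLinearSymplecticTypeData 2 R ∧ H = Cfsg.Geo.subgroupNormalizer R ⊓ Cfsg.Geo.specialLinear (Fin 4) F) ∨
    (Odd (Fintype.card F) ∧ ∃ Q : (Fin 4 → F) → F, Cfsg.Geo.IsNondegenerateQuadraticForm Q ∧ H = Cfsg.Geo.quadSimilarityGroup Q ⊓ Cfsg.Geo.specialLinear (Fin 4) F) ∨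
    (∃ f : (Fin 4 → F) → (Fin 4 → F) → F, Cfsg.Geo.IsSymplecticForm f ∧ H = Cfsg.Geo.similarityGroup f ⊓ Cfsg.Geo.specialLinear (Fin 4) F) ∨
    (∃ (σ : F ≃+* F) (f : (Fin 4 → F) → (Fin 4 → F) → F), Cfsg.Geo.IsUnitaryForm σ f ∧ H = Cfsg.Geo.similarityGroup f ⊓ Cfsg.Geo.specialLinear (Fin 4) F) ∨
    Cfsg.Geo.InLinearResidualClass H := by
  have hn : 3 ≤ 4 := by norm_num
  rcases Cfsg.Agent.Lib.Helper65.SLCGen.gen2 hn H hH with ⟨W, h0, h1, hW⟩ |
    ⟨t, m, D, hD, htm, hHD⟩ | ⟨r, K, hr, hrn, hK, hHK⟩ | ⟨n₁, n₂, e, P, h2, hlt, hnn, hHT⟩ |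
    ⟨F₀, r, P, hr, hcard, hHS⟩ | ⟨r, R, hR, hrn, hHR⟩ | ⟨m, t, e, P, hm, ht, hmt, hHW⟩ |
    ⟨f, hf, hev, hHf⟩ | ⟨σ, f, hf, hHf⟩ | ⟨Q, hQ, hodd, hHQ⟩ | hres
  · exact Or.inl ⟨W, h0, h1, hW⟩
  · have h2t := hD.two_le
    obtain ⟨rfl, rfl⟩ | ⟨rfl, rfl⟩ : (t = 4 ∧ m = 1) ∨ (t = 2 ∧ m = 2) := by
      have h1 : t ∣ 4 := Dvd.intro m htm
      have h2 : t ≤ 4 := Nat.le_of_dvd (by norm_num) h1
      clear hD hHD D
      interval_cases t <;> omega
    · by_cases hq : 7 ≤ Fintype.card F
      · right; left
        exact ⟨hq, D, hD, hHD⟩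
      · by_cases hq5 : Fintype.card F < 5
        · rcases Cfsg.Agent.Lib.Helper65.SLCGen.lines hn H hH D hD (hHD ▸ inf_le_left) hq5
            with ⟨W, h0, h1, hW⟩ | ⟨hodd, Q, hQ, hHQ⟩ | ⟨σ, f, hf, hHf⟩
          · exact Or.inl ⟨W, h0, h1, hW⟩
          · right; right; right; right; right; right; left
            exact ⟨hodd, Q, hQ, hHQ⟩
          · right; right; right; right; right; right; right; right; left
            exact ⟨σ, f, hf, hHf⟩
        · have hq56 : Fintype.card F = 5 ∨ Fintype.card F = 6 := by omega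
          rcases hq56 with h5 | h6
          · obtain ⟨P, hP⟩ := Cfsg.Agent.Lib.Helper31.SLPFR0.FR0 D hD
            obtain ⟨R, hR, hle⟩ := Cfsg.Agent.Lib.Helper65.FR5.FR5 h5 P _ hP
            have hHle : H ≤ Cfsg.Geo.subgroupNormalizer R := by
              rw [hHD]
              exact hle
            right; right; right; right; right; left
            exact ⟨5, R, Nat.prime_five, h5, by norm_num, hR,
              Cfsg.Agent.Lib.Helper71.SLP.eq_inf_of_maximal hH hHle
                (Cfsg.Agent.Lib.Helper36.SLPN6.N6 hn 2 R hR)⟩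
          · exfalso
            have hpp := Fintype.isPrimePow_card_of_field (α := F)
            rw [h6, isPrimePow_nat_iff] at hpp
            obtain ⟨p, k, hp, hk, hpk⟩ := hpp
            have h2 : 2 ∣ p ^ k := by rw [hpk]; norm_num
            have h3 : 3 ∣ p ^ k := by rw [hpk]; norm_num
            have e2 := (Nat.prime_dvd_prime_iff_eq Nat.prime_two hp).mp
              (Nat.prime_two.dvd_of_dvd_pow h2)
            have e3 := (Nat.prime_dvd_prime_iff_eq Nat.prime_three hp).mp
              (Nat.prime_three.dvd_of_dvd_pow h3)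
            omega
    · by_cases hq : 4 ≤ Fintype.card F
      · right; right; left
        exact ⟨hq, D, hD, hHD⟩
      · have hq1 : 1 < Fintype.card F := Fintype.one_lt_card
        have hq23 : Fintype.card F = 2 ∨ Fintype.card F = 3 := by omega
        rcases hq23 with h2 | h3
        · obtain ⟨f, hf, hHf⟩ := Cfsg.Agent.Lib.Helper65.SLCGen.planes2 hn H hH D hD (hHD ▸ inf_le_left) (by omega)
          right; right; right; right; right; right; right; left
          exact ⟨f, hf, hHf⟩
        · obtain ⟨f, hf, hle⟩ := Cfsg.Agent.Lib.Helper65.FR5.D2q3 h3 D hD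
          have hHle : H ≤ Cfsg.Geo.similarityGroup f := by
            rw [hHD]
            exact hle
          right; right; right; right; right; right; right; left
          exact ⟨f, hf, Cfsg.Agent.Lib.Helper71.SLP.eq_inf_of_maximal hH hHle
            (Cfsg.Agent.Lib.Helper65.SLCGen.PN8s hn f hf)⟩
  · obtain rfl : r = 2 := by
      have h1 : r ≤ 4 := Nat.le_of_dvd (by norm_num) hrn
      clear hK hHK
      interval_cases r <;> first | omega | (exact absurd hr (by decide))
    · right; right; right; left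
      exact ⟨K, hK, hHK⟩
  · exfalso
    have h3 : n₁ ≤ 4 := Nat.le_of_dvd (by norm_num) (Dvd.intro n₂ hnn)
    clear hHT e
    interval_cases n₁ <;> omega
  · right; right; right; right; left
    exact ⟨F₀, r, P, hr, hcard, hHS⟩
  · have hrp := hR.symplecticType.prime
    obtain rfl : r = 2 := by
      have h1 : r ≤ 4 := Nat.le_of_dvd (by norm_num) hrn
      clear hR hHR
      interval_cases r <;> first | omega | (exact absurd hrp (by decide))
    obtain ⟨p, e, -, hmin, hcase⟩ := hR.field
    obtain ⟨hpp, -, hcardF, hdvd, -⟩ := hmin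
    rcases hcase with ⟨ho, -⟩ | ⟨-, he, hc, -⟩ | ⟨-, -, h2, -⟩
    · exact absurd ho (by decide)
    · subst he
      rw [hc, pow_one] at hdvd
      rw [pow_one] at hcardF
      have h2p := hpp.two_le
      right; right; right; right; right; left
      exact ⟨p, R, hpp, hcardF, by omega, hR, hHR⟩
    · simp at h2
  · exfalso
    have h1 : m ^ 2 ≤ m ^ t := Nat.pow_le_pow_right (by omega) ht
    nlinarith
  · right; right; right; right; right; right; right; left
    exact ⟨f, hf, hHf⟩
  · right; right; right; right; right; right; right; right; left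
    exact ⟨σ, f, hf, hHf⟩
  · right; right; right; right; right; right; left
    exact ⟨hodd, Q, hQ, hHQ⟩
  · right; right; right; right; right; right; right; right; right
    exact hres

end Cfsg.Agent.S5781
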