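import Cfsg.Statements.S5817
import Cfsg.Agent.Lib.Helper65.SLCGen2

set_option autoImplicit false
open Cfsg

namespace Cfsg.Agent.S5817

/-- Every maximal subgroup of SL_8(q) is of one of the listed geometric types or lies in the residual class. Let F be a finite field with q elements (p its characteristic) and H a maximal subgroup of SL_8(F) (inside GL_8(F)). Then H is the intersection with SL_8(F) of one of: the stabiliser of a proper non-zero subspace; for q ≥ 5, the stabiliser of a decomposition into 8 independent 1-spaces; for q ≥ 3, the stabiliser of a decomposition into 4 independent 2-spaces; the stabiliser of a decomposition into 2 independent 4-spaces; the normaliser of a degree-2 subfield of the matrix algebra; for q ≥ 3, the stabiliser of a tensor decomposition F^2 ⊗ F^4; a subfield group for a subfield F₀ with |F| = |F₀|^r, r prime; for q = p prime with p ≡ 1 mod 4, the normaliser of an absolutely irreducible 2-subgroup R of exponent 4 and order 2^(2+2m) with centre of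 order 4, all of whose characteristic abelian subgroups are cyclic, 4 dividing p − 1 (here |R| = 2^8); for q odd, the similarity group of a non-degenerate quadratic form; the similarity group of a non-degenerate symplectic form; the similarity group of a non-degenerate unitary form — or else H lies in the residual class of the linear case (modulo scalars H is almost simple, with absolutely irreducible perfect socle preimage realisable over no proper subfield and fixing no non-degenerate quadratic, symplectic or unitary form). -/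
theorem result {F : Type*} [Field F] [Fintype F] (H : Subgroup (Matrix.GeneralLinearGroup (Fin 8) F)) (hH : Cfsg.Geo.IsMaximalIn (Cfsg.Geo.specialLinear (Fin 8) F) H) :
    (∃ W : Submodule F (Fin 8 → F), W ≠ ⊥ ∧ W ≠ ⊤ ∧ H = Cfsg.Geo.subspaceStabilizer W ⊓ Cfsg.Geo.specialLinear (Fin 8) F) ∨
    (5 ≤ Fintype.card F ∧ ∃ D : Fin 8 → Submodule F (Fin 8 → F), Cfsg.Geo.IsMDecomposition 1 D ∧ H = Cfsg.Geo.decompositionStabilizer D ⊓ Cfsg.Geo.specialLinear (Fin 8) F) ∨
    (3 ≤ Fintype.card F ∧ ∃ D : Fin 4 → Submodule F (Fin 8 → F), Cfsg.Geo.IsMDecomposition 2 D ∧ H = Cfsg.Geo.decompositionStabilizer D ⊓ Cfsg.Geo.specialLinear (Fin 8) F) ∨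
    (∃ D : Fin 2 → Submodule F (Fin 8 → F), Cfsg.Geo.IsMDecomposition 4 D ∧ H = Cfsg.Geo.decompositionStabilizer D ⊓ Cfsg.Geo.specialLinear (Fin 8) F) ∨
    (∃ K : Subalgebra F (Matrix (Fin 8) (Fin 8) F), Cfsg.Geo.IsFieldSubalgebra 2 K ∧ H = Cfsg.Geo.subalgebraNormalizer K ⊓ Cfsg.Geo.specialLinear (Fin 8) F) ∨
    (3 ≤ Fintype.card F ∧ ∃ (e : Fin 8 ≃ Fin 2 × Fin 4) (P : Matrix.GeneralLinearGroup (Fin 8) F), H = Cfsg.Geo.tensorProductSubgroup 2 4 e P ⊓ Cfsg.Geo.specialLinear (Fin 8) F) ∨
    (∃ (F₀ : Subfield F) (r : ℕ) (P : Matrix.GeneralLinearGroup (Fin 8) F), r.Prime ∧ Fintype.card F = Nat.card F₀ ^ r ∧ H = Cfsg.Geo.subfieldSubgroup F₀ P ⊓ Cfsg.Geo.specialLinear (Fin 8) F) ∨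
    ((∃ p : ℕ, p.Prime ∧ Fintype.card F = p ∧ (p % 4 = 1)) ∧ ∃ R : Subgroup (Matrix.GeneralLinearGroup (Fin 8) F), Cfsg.Geo.IsLinearSymplecticTypeData 2 R ∧ H = Cfsg.Geo.subgroupNormalizer R ⊓ Cfsg.Geo.specialLinear (Fin 8) F) ∨
    (Odd (Fintype.card F) ∧ ∃ Q : (Fin 8 → F) → F, Cfsg.Geo.IsNondegenerateQuadraticForm Q ∧ H = Cfsg.Geo.quadSimilarityGroup Q ⊓ Cfsg.Geo.specialLinear (Fin 8) F) ∨
    (∃ f : (Fin 8 → F) → (Fin 8 → F) → F, Cfsg.Geo.IsSymplecticForm f ∧ H = Cfsg.Geo.similarityGroup f ⊓ Cfsg.Geo.specialLinear (Fin 8) F) ∨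
    (∃ (σ : F ≃+* F) (f : (Fin 8 → F) → (Fin 8 → F) → F), Cfsg.Geo.IsUnitaryForm σ f ∧ H = Cfsg.Geo.similarityGroup f ⊓ Cfsg.Geo.specialLinear (Fin 8) F) ∨
    Cfsg.Geo.InLinearResidualClass H := by
  have hn : 3 ≤ 8 := by norm_num
  rcases Cfsg.Agent.Lib.Helper65.SLCGen.gen2 hn H hH with ⟨W, h0, h1, hW⟩ |
    ⟨t, m, D, hD, htm, hHD⟩ | ⟨r, K, hr, hrn, hK, hHK⟩ | ⟨n₁, n₂, e, P, h2, hlt, hnn, hHT⟩ |
    ⟨F₀, r, P, hr, hcard, hHS⟩ | ⟨r, R, hR, hrn, hHR⟩ | ⟨m, t, e, P, hm, ht, hmt, hHW⟩ |
    ⟨f, hf, hev, hHf⟩ | ⟨σ, f, hf, hHf⟩ | ⟨Q, hQ, hodd, hHQ⟩ | hres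
  · exact Or.inl ⟨W, h0, h1, hW⟩
  · have h2t := hD.two_le
    obtain ⟨rfl, rfl⟩ | ⟨rfl, rfl⟩ | ⟨rfl, rfl⟩ : (t = 8 ∧ m = 1) ∨ (t = 4 ∧ m = 2) ∨ (t = 2 ∧ m = 4) := by
      have h1 : t ∣ 8 := Dvd.intro m htm
      have h2 : t ≤ 8 := Nat.le_of_dvd (by norm_num) h1
      clear hD hHD D
      interval_cases t <;> omega
    · by_cases hq : 5 ≤ Fintype.card F
      · right; left
        exact ⟨hq, D, hD, hHD⟩
      · rcases Cfsg.Agent.Lib.Helper65.SLCGen.lines hn H hH D hD (hHD ▸ inf_le_left) (by omega)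
          with ⟨W, h0, h1, hW⟩ | ⟨hodd, Q, hQ, hHQ⟩ | ⟨σ, f, hf, hHf⟩
        · exact Or.inl ⟨W, h0, h1, hW⟩
        · right; right; right; right; right; right; right; right; left
          exact ⟨hodd, Q, hQ, hHQ⟩
        · right; right; right; right; right; right; right; right; right; right; left
          exact ⟨σ, f, hf, hHf⟩
    · by_cases hq : 3 ≤ Fintype.card F
      · right; right; left
        exact ⟨hq, D, hD, hHD⟩
      · have hq1 : 1 < Fintype.card F := Fintype.one_lt_card
        obtain ⟨f, hf, hHf⟩ := Cfsg.Agent.Lib.Helper65.SLCGen.planes2 hn H hH D hD (hHD ▸ inf_le_left) (by omega)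
        right; right; right; right; right; right; right; right; right; left
        exact ⟨f, hf, hHf⟩
    · right; right; right; left
      exact ⟨D, hD, hHD⟩
  · obtain rfl : r = 2 := by
      have h1 : r ≤ 8 := Nat.le_of_dvd (by norm_num) hrn
      clear hK hHK
      interval_cases r <;> first | omega | (exact absurd hr (by decide))
    · right; right; right; right; left
      exact ⟨K, hK, hHK⟩
  · obtain ⟨rfl, rfl⟩ : (n₁ = 2 ∧ n₂ = 4) := by
      have h3 : n₁ ≤ 8 := Nat.le_of_dvd (by norm_num) (Dvd.intro n₂ hnn)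
      clear hHT e
      interval_cases n₁ <;> omega
    · by_cases hq : 3 ≤ Fintype.card F
      · right; right; right; right; right; left
        exact ⟨hq, e, P, hHT⟩
      · have hq1 : 1 < Fintype.card F := Fintype.one_lt_card
        obtain ⟨K, hK, hHK⟩ := Cfsg.Agent.Lib.Helper65.SLCGen.tens2 hn H hH 4 e P (hHT ▸ inf_le_left) (by omega)
        right; right; right; right; left
        exact ⟨K, hK, hHK⟩
  · right; right; right; right; right; right; left
    exact ⟨F₀, r, P, hr, hcard, hHS⟩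
  · have hrp := hR.symplecticType.prime
    obtain rfl : r = 2 := by
      have h1 : r ≤ 8 := Nat.le_of_dvd (by norm_num) hrn
      clear hR hHR
      interval_cases r <;> first | omega | (exact absurd hrp (by decide))
    obtain ⟨p, e, -, hmin, hcase⟩ := hR.field
    obtain ⟨hpp, -, hcardF, hdvd, -⟩ := hmin
    rcases hcase with ⟨ho, -⟩ | ⟨-, he, hc, -⟩ | ⟨-, -, h2, -⟩
    · exact absurd ho (by decide)
    · subst he
      rw [hc, pow_one] at hdvd
      rw [pow_one] at hcardF
      have h2p := hpp.two_le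
      right; right; right; right; right; right; right; left
      exact ⟨⟨p, hpp, hcardF, by omega⟩, R, hR, hHR⟩
    · simp at h2
  · exfalso
    have h1 : m ^ 2 ≤ m ^ t := Nat.pow_le_pow_right (by omega) ht
    nlinarith
  · right; right; right; right; right; right; right; right; right; left
    exact ⟨f, hf, hHf⟩
  · right; right; right; right; right; right; right; right; right; right; left
    exact ⟨σ, f, hf, hHf⟩
  · right; right; right; right; right; right; right; right; left
    exact ⟨hodd, Q, hQ, hHQ⟩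
  · right; right; right; right; right; right; right; right; right; right; right
    exact hres

end Cfsg.Agent.S5817
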