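import Cfsg.Statements.S5829
import Cfsg.Agent.Lib.Helper65.SLCGen

set_option autoImplicit false
open Cfsg

namespace Cfsg.Agent.S5829

/-- Every maximal subgroup of SL_9(q) is of one of the listed geometric types or lies in the residual class. Let F be a finite field with q elements (p its characteristic) and H a maximal subgroup of SL_9(F) (inside GL_9(F)). Then H is the intersection with SL_9(F) of one of: the stabiliser of a proper non-zero subspace; for q ≥ 5, the stabiliser of a decomposition into 9 independent 1-spaces; the stabiliser of a decomposition into 3 independent 3-spaces; the normaliser of a degree-3 subfield of the matrix algebra; a subfield group for a subfield F₀ with |F| = |F₀|^r, r prime; for q = p prime with p ≡ 1 mod 3, the normaliser of an absolutely irreducible 3-subgroup R of exponent 3 and order 3^(1+2m) with centre of order 3, all of whose characteristic abelian subgroups are cyclic, F being the smallest field of characteristic p containing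 the cube roots of unity (here R is extraspecial of order 3^5); the stabiliser of a tensor decomposition into 2 factors of dimension 3; for q odd, the similarity group of a non-degenerate quadratic form; the similarity group of a non-degenerate unitary form — or else H lies in the residual class of the linear case (modulo scalars H is almost simple, with absolutely irreducible perfect socle preimage realisable over no proper subfield and fixing no non-degenerate quadratic, symplectic or unitary form). -/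
theorem result {F : Type*} [Field F] [Fintype F] (H : Subgroup (Matrix.GeneralLinearGroup (Fin 9) F)) (hH : Cfsg.Geo.IsMaximalIn (Cfsg.Geo.specialLinear (Fin 9) F) H) :
    (∃ W : Submodule F (Fin 9 → F), W ≠ ⊥ ∧ W ≠ ⊤ ∧ H = Cfsg.Geo.subspaceStabilizer W ⊓ Cfsg.Geo.specialLinear (Fin 9) F) ∨
    (5 ≤ Fintype.card F ∧ ∃ D : Fin 9 → Submodule F (Fin 9 → F), Cfsg.Geo.IsMDecomposition 1 D ∧ H = Cfsg.Geo.decompositionStabilizer D ⊓ Cfsg.Geo.specialLinear (Fin 9) F) ∨
    (∃ D : Fin 3 → Submodule F (Fin 9 → F), Cfsg.Geo.IsMDecomposition 3 D ∧ H = Cfsg.Geo.decompositionStabilizer D ⊓ Cfsg.Geo.specialLinear (Fin 9) F) ∨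
    (∃ K : Subalgebra F (Matrix (Fin 9) (Fin 9) F), Cfsg.Geo.IsFieldSubalgebra 3 K ∧ H = Cfsg.Geo.subalgebraNormalizer K ⊓ Cfsg.Geo.specialLinear (Fin 9) F) ∨
    (∃ (F₀ : Subfield F) (r : ℕ) (P : Matrix.GeneralLinearGroup (Fin 9) F), r.Prime ∧ Fintype.card F = Nat.card F₀ ^ r ∧ H = Cfsg.Geo.subfieldSubgroup F₀ P ⊓ Cfsg.Geo.specialLinear (Fin 9) F) ∨
    ((∃ p : ℕ, p.Prime ∧ Fintype.card F = p ∧ (p % 3 = 1)) ∧ ∃ R : Subgroup (Matrix.GeneralLinearGroup (Fin 9) F), Cfsg.Geo.IsLinearSymplecticTypeData 3 R ∧ H = Cfsg.Geo.subgroupNormalizer R ⊓ Cfsg.Geo.specialLinear (Fin 9) F) ∨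
    (∃ (e : Fin 9 ≃ (Fin 2 → Fin 3)) (P : Matrix.GeneralLinearGroup (Fin 9) F), H = Cfsg.Geo.tensorWreathSubgroup 3 2 e P ⊓ Cfsg.Geo.specialLinear (Fin 9) F) ∨
    (Odd (Fintype.card F) ∧ ∃ Q : (Fin 9 → F) → F, Cfsg.Geo.IsNondegenerateQuadraticForm Q ∧ H = Cfsg.Geo.quadSimilarityGroup Q ⊓ Cfsg.Geo.specialLinear (Fin 9) F) ∨
    (∃ (σ : F ≃+* F) (f : (Fin 9 → F) → (Fin 9 → F) → F), Cfsg.Geo.IsUnitaryForm σ f ∧ H = Cfsg.Geo.similarityGroup f ⊓ Cfsg.Geo.specialLinear (Fin 9) F) ∨
    Cfsg.Geo.InLinearResidualClass H := by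
  have hn : 3 ≤ 9 := by norm_num
  rcases Cfsg.Agent.Lib.Helper65.SLCGen.gen2 hn H hH with ⟨W, h0, h1, hW⟩ |
    ⟨t, m, D, hD, htm, hHD⟩ | ⟨r, K, hr, hrn, hK, hHK⟩ | ⟨n₁, n₂, e, P, h2, hlt, hnn, hHT⟩ |
    ⟨F₀, r, P, hr, hcard, hHS⟩ | ⟨r, R, hR, hrn, hHR⟩ | ⟨m, t, e, P, hm, ht, hmt, hHW⟩ |
    ⟨f, hf, hev, hHf⟩ | ⟨σ, f, hf, hHf⟩ | ⟨Q, hQ, hodd, hHQ⟩ | hres
  · exact Or.inl ⟨W, h0, h1, hW⟩
  · have h2t := hD.two_le
    obtain ⟨rfl, rfl⟩ | ⟨rfl, rfl⟩ : (t = 9 ∧ m = 1) ∨ (t = 3 ∧ m = 3) := by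
      have h1 : t ∣ 9 := Dvd.intro m htm
      have h2 : t ≤ 9 := Nat.le_of_dvd (by norm_num) h1
      clear hD hHD D
      interval_cases t <;> omega
    · by_cases hq : 5 ≤ Fintype.card F
      · exact Or.inr (Or.inl ⟨hq, D, hD, hHD⟩)
      · rcases Cfsg.Agent.Lib.Helper65.SLCGen.lines hn H hH D hD (hHD ▸ inf_le_left) (by omega)
          with ⟨W, h0, h1, hW⟩ | ⟨hodd, Q, hQ, hHQ⟩ | ⟨σ, f, hf, hHf⟩
        · exact Or.inl ⟨W, h0, h1, hW⟩
        · right; right; right; right; right; right; right; left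
          exact ⟨hodd, Q, hQ, hHQ⟩
        · right; right; right; right; right; right; right; right; left
          exact ⟨σ, f, hf, hHf⟩
    · right; right; left
      exact ⟨D, hD, hHD⟩
  · have h3 : r = 3 := (Nat.prime_dvd_prime_iff_eq hr Nat.prime_three).mp
      (hr.dvd_of_dvd_pow (show r ∣ 3 ^ 2 from hrn))
    subst h3
    right; right; right; left
    exact ⟨K, hK, hHK⟩
  · exfalso
    have h3 : n₁ ≤ 9 := Nat.le_of_dvd (by norm_num) (Dvd.intro n₂ hnn)
    clear hHT e
    interval_cases n₁ <;> omega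
  · right; right; right; right; left
    exact ⟨F₀, r, P, hr, hcard, hHS⟩
  · have hrp := hR.symplecticType.prime
    have h3 : r = 3 := (Nat.prime_dvd_prime_iff_eq hrp Nat.prime_three).mp
      (hrp.dvd_of_dvd_pow (show r ∣ 3 ^ 2 from hrn))
    subst h3
    obtain ⟨p, e, -, hmin, hcase⟩ := hR.field
    obtain ⟨hpp, -, hcardF, hdvd, hminimal⟩ := hmin
    rcases hcase with ⟨-, he, hc, -⟩ | ⟨h2, -⟩ | ⟨h2, -⟩
    · rw [hc] at hdvd hminimal
      obtain ⟨he1, hp3⟩ := Cfsg.Agent.Lib.Helper65.SLCGen.A3 p e hpp.pos he hdvd hminimal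
      subst he1
      right; right; right; right; right; left
      exact ⟨⟨p, hpp, by rw [hcardF, pow_one], hp3⟩, R, hR, hHR⟩
    · omega
    · omega
  · have h1 : m ^ 2 ≤ m ^ t := Nat.pow_le_pow_right (by omega) ht
    have h2 : m = 3 := by nlinarith
    subst h2
    have h3 : t = 2 := Nat.pow_right_injective (le_refl 2 |>.trans (by norm_num : 2 ≤ 3))
      (show 3 ^ t = 3 ^ 2 from hmt)
    subst h3
    right; right; right; right; right; right; left
    exact ⟨e, P, hHW⟩
  · exfalso
    exact (by decide : ¬ Even 9) hev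
  · right; right; right; right; right; right; right; right; left
    exact ⟨σ, f, hf, hHf⟩
  · right; right; right; right; right; right; right; left
    exact ⟨hodd, Q, hQ, hHQ⟩
  · right; right; right; right; right; right; right; right; right
    exact hres

end Cfsg.Agent.S5829
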