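import Cfsg.Statements.S5838
import Cfsg.Agent.Lib.Helper65.SLCGen2

set_option autoImplicit false
open Cfsg

namespace Cfsg.Agent.S5838

/-- Every maximal subgroup of SL_10(q) is of one of the listed geometric types or lies in the residual class. Let F be a finite field with q elements (p its characteristic) and H a maximal subgroup of SL_10(F) (inside GL_10(F)). Then H is the intersection with SL_10(F) of one of: the stabiliser of a proper non-zero subspace; for q ≥ 5, the stabiliser of a decomposition into 10 independent 1-spaces; for q ≥ 3, the stabiliser of a decomposition into 5 independent 2-spaces; the stabiliser of a decomposition into 2 independent 5-spaces; the normaliser of a degree-5 subfield of the matrix algebra; the normaliser of a degree-2 subfield of the matrix algebra; for q ≥ 3, the stabiliser of a tensor decomposition F^2 ⊗ F^5; a subfield group for a subfield F₀ with |F| = |F₀|^r, r prime; for q odd, the similarity group of a non-degenerate quadratic form; the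 similarity group of a non-degenerate symplectic form; the similarity group of a non-degenerate unitary form — or else H lies in the residual class of the linear case (modulo scalars H is almost simple, with absolutely irreducible perfect socle preimage realisable over no proper subfield and fixing no non-degenerate quadratic, symplectic or unitary form). -/
theorem result {F : Type*} [Field F] [Fintype F] (H : Subgroup (Matrix.GeneralLinearGroup (Fin 10) F)) (hH : Cfsg.Geo.IsMaximalIn (Cfsg.Geo.specialLinear (Fin 10) F) H) :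
    (∃ W : Submodule F (Fin 10 → F), W ≠ ⊥ ∧ W ≠ ⊤ ∧ H = Cfsg.Geo.subspaceStabilizer W ⊓ Cfsg.Geo.specialLinear (Fin 10) F) ∨
    (5 ≤ Fintype.card F ∧ ∃ D : Fin 10 → Submodule F (Fin 10 → F), Cfsg.Geo.IsMDecomposition 1 D ∧ H = Cfsg.Geo.decompositionStabilizer D ⊓ Cfsg.Geo.specialLinear (Fin 10) F) ∨
    (3 ≤ Fintype.card F ∧ ∃ D : Fin 5 → Submodule F (Fin 10 → F), Cfsg.Geo.IsMDecomposition 2 D ∧ H = Cfsg.Geo.decompositionStabilizer D ⊓ Cfsg.Geo.specialLinear (Fin 10) F) ∨
    (∃ D : Fin 2 → Submodule F (Fin 10 → F), Cfsg.Geo.IsMDecomposition 5 D ∧ H = Cfsg.Geo.decompositionStabilizer D ⊓ Cfsg.Geo.specialLinear (Fin 10) F) ∨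
    (∃ K : Subalgebra F (Matrix (Fin 10) (Fin 10) F), Cfsg.Geo.IsFieldSubalgebra 5 K ∧ H = Cfsg.Geo.subalgebraNormalizer K ⊓ Cfsg.Geo.specialLinear (Fin 10) F) ∨
    (∃ K : Subalgebra F (Matrix (Fin 10) (Fin 10) F), Cfsg.Geo.IsFieldSubalgebra 2 K ∧ H = Cfsg.Geo.subalgebraNormalizer K ⊓ Cfsg.Geo.specialLinear (Fin 10) F) ∨
    (3 ≤ Fintype.card F ∧ ∃ (e : Fin 10 ≃ Fin 2 × Fin 5) (P : Matrix.GeneralLinearGroup (Fin 10) F), H = Cfsg.Geo.tensorProductSubgroup 2 5 e P ⊓ Cfsg.Geo.specialLinear (Fin 10) F) ∨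
    (∃ (F₀ : Subfield F) (r : ℕ) (P : Matrix.GeneralLinearGroup (Fin 10) F), r.Prime ∧ Fintype.card F = Nat.card F₀ ^ r ∧ H = Cfsg.Geo.subfieldSubgroup F₀ P ⊓ Cfsg.Geo.specialLinear (Fin 10) F) ∨
    (Odd (Fintype.card F) ∧ ∃ Q : (Fin 10 → F) → F, Cfsg.Geo.IsNondegenerateQuadraticForm Q ∧ H = Cfsg.Geo.quadSimilarityGroup Q ⊓ Cfsg.Geo.specialLinear (Fin 10) F) ∨
    (∃ f : (Fin 10 → F) → (Fin 10 → F) → F, Cfsg.Geo.IsSymplecticForm f ∧ H = Cfsg.Geo.similarityGroup f ⊓ Cfsg.Geo.specialLinear (Fin 10) F) ∨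
    (∃ (σ : F ≃+* F) (f : (Fin 10 → F) → (Fin 10 → F) → F), Cfsg.Geo.IsUnitaryForm σ f ∧ H = Cfsg.Geo.similarityGroup f ⊓ Cfsg.Geo.specialLinear (Fin 10) F) ∨
    Cfsg.Geo.InLinearResidualClass H := by
  have hn : 3 ≤ 10 := by norm_num
  rcases Cfsg.Agent.Lib.Helper65.SLCGen.gen2 hn H hH with ⟨W, h0, h1, hW⟩ |
    ⟨t, m, D, hD, htm, hHD⟩ | ⟨r, K, hr, hrn, hK, hHK⟩ | ⟨n₁, n₂, e, P, h2, hlt, hnn, hHT⟩ |
    ⟨F₀, r, P, hr, hcard, hHS⟩ | ⟨r, R, hR, hrn, hHR⟩ | ⟨m, t, e, P, hm, ht, hmt, hHW⟩ |
    ⟨f, hf, hev, hHf⟩ | ⟨σ, f, hf, hHf⟩ | ⟨Q, hQ, hodd, hHQ⟩ | hres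
  · exact Or.inl ⟨W, h0, h1, hW⟩
  · have h2t := hD.two_le
    obtain ⟨rfl, rfl⟩ | ⟨rfl, rfl⟩ | ⟨rfl, rfl⟩ : (t = 10 ∧ m = 1) ∨ (t = 5 ∧ m = 2) ∨ (t = 2 ∧ m = 5) := by
      have h1 : t ∣ 10 := Dvd.intro m htm
      have h2 : t ≤ 10 := Nat.le_of_dvd (by norm_num) h1
      clear hD hHD D
      interval_cases t <;> omega
    · by_cases hq : 5 ≤ Fintype.card F
      · right; left
        exact ⟨hq, D, hD, hHD⟩
      · rcases Cfsg.Agent.Lib.Helper65.SLCGen.lines hn H hH D hD (hHD ▸ inf_le_left) (by omega)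
          with ⟨W, h0, h1, hW⟩ | ⟨hodd, Q, hQ, hHQ⟩ | ⟨σ, f, hf, hHf⟩
        · exact Or.inl ⟨W, h0, h1, hW⟩
        · right; right; right; right; right; right; right; right; left
          exact ⟨hodd, Q, hQ, hHQ⟩
        · right; right; right; right; right; right; right; right; right; right; left
          exact ⟨σ, f, hf, hHf⟩
    · by_cases hq : 3 ≤ Fintype.card F
      · right; right; left
        exact ⟨hq, D, hD, hHD⟩
      · have hq1 : 1 < Fintype.card F := Fintype.one_lt_card
        obtain ⟨f, hf, hHf⟩ := Cfsg.Agent.Lib.Helper65.SLCGen.planes2 hn H hH D hD (hHD ▸ inf_le_left) (by omega)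
        right; right; right; right; right; right; right; right; right; left
        exact ⟨f, hf, hHf⟩
    · right; right; right; left
      exact ⟨D, hD, hHD⟩
  · obtain rfl | rfl : r = 2 ∨ r = 5 := by
      have h1 : r ≤ 10 := Nat.le_of_dvd (by norm_num) hrn
      clear hK hHK
      interval_cases r <;> first | omega | (exact absurd hr (by decide))
    · right; right; right; right; right; left
      exact ⟨K, hK, hHK⟩
    · right; right; right; right; left
      exact ⟨K, hK, hHK⟩
  · obtain ⟨rfl, rfl⟩ : (n₁ = 2 ∧ n₂ = 5) := by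
      have h3 : n₁ ≤ 10 := Nat.le_of_dvd (by norm_num) (Dvd.intro n₂ hnn)
      clear hHT e
      interval_cases n₁ <;> omega
    · by_cases hq : 3 ≤ Fintype.card F
      · right; right; right; right; right; right; left
        exact ⟨hq, e, P, hHT⟩
      · have hq1 : 1 < Fintype.card F := Fintype.one_lt_card
        obtain ⟨K, hK, hHK⟩ := Cfsg.Agent.Lib.Helper65.SLCGen.tens2 hn H hH 5 e P (hHT ▸ inf_le_left) (by omega)
        right; right; right; right; right; left
        exact ⟨K, hK, hHK⟩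
  · right; right; right; right; right; right; right; left
    exact ⟨F₀, r, P, hr, hcard, hHS⟩
  · exfalso
    obtain ⟨k, hk⟩ := Cfsg.Agent.Lib.Helper65.SLCGen.C6pow hn r R hR
    have hrp := hR.symplecticType.prime
    have e1 := Cfsg.Agent.Lib.Helper65.SLCGen.prime_pow_eq Nat.prime_two hrp hk (by norm_num)
    have e2 := Cfsg.Agent.Lib.Helper65.SLCGen.prime_pow_eq Nat.prime_five hrp hk (by norm_num)
    omega
  · exfalso
    have h1 : m ^ 2 ≤ m ^ t := Nat.pow_le_pow_right (by omega) ht
    have h2 : m = 3 := by nlinarith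
    subst h2
    have h3 : 3 ∣ 3 ^ t := dvd_pow_self 3 (by omega)
    rw [hmt] at h3
    omega
  · right; right; right; right; right; right; right; right; right; left
    exact ⟨f, hf, hHf⟩
  · right; right; right; right; right; right; right; right; right; right; left
    exact ⟨σ, f, hf, hHf⟩
  · right; right; right; right; right; right; right; right; left
    exact ⟨hodd, Q, hQ, hHQ⟩
  · right; right; right; right; right; right; right; right; right; right; right
    exact hres

end Cfsg.Agent.S5838
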