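import Cfsg.Statements.S5876
import Cfsg.Agent.Lib.Helper80.PrimSolDefs
import Cfsg.Agent.Lib.Helper4.PSLA
import Cfsg.Agent.Lib.Helper73.PSGT1
import Cfsg.Agent.Lib.Helper8.PSGT2
import Cfsg.Agent.Lib.Helper67.PSFPFC

set_option autoImplicit false
open Cfsg



namespace Cfsg.Agent.S5876

open Cfsg.Agent.Lib.Helper80 Matrix

theorem result {F : Type*} [Field F] [Fintype F] {n : ℕ} (G : Subgroup (Matrix.GeneralLinearGroup (Fin n) F)) (hsol : IsSolvable G) (hirr : Cfsg.Geo.ActsIrreducibly (Cfsg.Geo.matrixSet G)) (hprim : ∀ (m t : ℕ) (D : Fin t → Submodule F (Fin n → F)), 2 ≤ t → Cfsg.Geo.IsMDecomposition m D → ¬ G ≤ Cfsg.Geo.decompositionStabilizer D) (g : Matrix.GeneralLinearGroup (Fin n) F) (hg : g ∈ G) (hg1 : g ≠ 1) :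
    4 * Module.finrank F (Module.End.eigenspace (Matrix.toLin' (g : Matrix (Fin n) (Fin n) F)) 1) ≤ 3 * n := by
  classical
  have hsol' : Group.IsSolvable ↥G := hsol
  obtain ⟨M, hMn, hMab, hM⟩ := Cfsg.Agent.Lib.Helper8.exists_abelian_normal_comm_chain_of (G := ↥G)
    (fun N M hN hM hnil hMN hMab hmax h hhN hhM =>
      haveI := hN
      haveI := hM
      Cfsg.Agent.Lib.Helper73.exists_comm_mem_of_maximal_abelian N M hnil hMN hMab hmax h hhN hhM)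
  -- the image of M in GL
  obtain ⟨A, hA⟩ : ∃ A : Subgroup (GL (Fin n) F), ∀ a : GL (Fin n) F, a ∈ A ↔ ∃ y ∈ M, (y : GL (Fin n) F) = a :=
    ⟨M.map G.subtype, fun a => by rw [Subgroup.mem_map]; rfl⟩
  have hAG : A ≤ G := by
    intro a ha
    obtain ⟨y, -, rfl⟩ := (hA a).mp ha
    exact y.2
  have hAn : ∀ k ∈ G, ∀ a ∈ A, k * a * k⁻¹ ∈ A := by
    intro k hk a ha
    obtain ⟨y, hy, rfl⟩ := (hA a).mp ha
    have h1 : (⟨k, hk⟩ : ↥G) * y * (⟨k, hk⟩ : ↥G)⁻¹ ∈ M := hMn.conj_mem y hy ⟨k, hk⟩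
    exact (hA _).mpr ⟨_, h1, by simp only [Subgroup.coe_mul, Subgroup.coe_inv]⟩
  have hAab : ∀ a ∈ A, ∀ b ∈ A, a * b = b * a := by
    intro a ha b hb
    obtain ⟨y, hy, rfl⟩ := (hA a).mp ha
    obtain ⟨z, hz, rfl⟩ := (hA b).mp hb
    have := hMab y hy z hz
    rw [← Subgroup.coe_mul, ← Subgroup.coe_mul, this]
  have key : ∀ a : GL (Fin n) F, a ∈ A → a ≠ 1 →
      Module.finrank F (Module.End.eigenspace (Matrix.toLin' ((a : GL (Fin n) F) : Matrix (Fin n) (Fin n) F)) 1) = 0 := by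
    intro a ha ha1
    rw [Cfsg.Agent.Lib.Helper67.eigenspace_one_eq_bot_of_abelian_normal G hirr hprim A hAG hAn hAab a ha ha1]
    exact finrank_bot F (Fin n → F)
  have hne : (⟨g, hg⟩ : ↥G) ≠ 1 := fun h => hg1 (congrArg Subtype.val h)
  rcases hM ⟨g, hg⟩ hne with h1 | ⟨x, hx, hx1⟩ | ⟨x, y, hxy, hxy1⟩
  · have := key g ((hA g).mpr ⟨⟨g, hg⟩, h1, rfl⟩) hg1
    omega
  · have hmem : g * (x : GL (Fin n) F) * g⁻¹ * (x : GL (Fin n) F)⁻¹ ∈ A :=
      (hA _).mpr ⟨_, hx, by simp only [Subgroup.coe_mul, Subgroup.coe_inv]⟩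
    have hne1 : g * (x : GL (Fin n) F) * g⁻¹ * (x : GL (Fin n) F)⁻¹ ≠ 1 := by
      intro h
      apply hx1
      apply Subtype.ext
      simp only [Subgroup.coe_mul, Subgroup.coe_inv, Subgroup.coe_one]
      exact h
    have h0 := key _ hmem hne1
    have h2 := Cfsg.Agent.Lib.Helper4.finrank_fix_comm_ge g (x : GL (Fin n) F)
    omega
  · obtain ⟨h, hh⟩ : ∃ h : GL (Fin n) F, h = g * (x : GL (Fin n) F) * g⁻¹ * (x : GL (Fin n) F)⁻¹ := ⟨_, rfl⟩
    have hmem : h * (y : GL (Fin n) F) * h⁻¹ * (y : GL (Fin n) F)⁻¹ ∈ A :=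
      (hA _).mpr ⟨_, hxy, by simp only [Subgroup.coe_mul, Subgroup.coe_inv, hh]⟩
    have hne1 : h * (y : GL (Fin n) F) * h⁻¹ * (y : GL (Fin n) F)⁻¹ ≠ 1 := by
      intro h'
      apply hxy1
      apply Subtype.ext
      simp only [Subgroup.coe_mul, Subgroup.coe_inv, Subgroup.coe_one]
      rw [← hh]
      exact h'
    have h0 := key _ hmem hne1
    have h2 := Cfsg.Agent.Lib.Helper4.finrank_fix_comm_ge g (x : GL (Fin n) F)
    have h3 := Cfsg.Agent.Lib.Helper4.finrank_fix_comm_ge h (y : GL (Fin n) F)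
    rw [← hh] at h2
    omega

end Cfsg.Agent.S5876
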