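import Cfsg.Statements.S5877
import Cfsg.Agent.Lib.Helper44.ESCount
import Cfsg.Agent.Lib.Helper44.ESAux
import Cfsg.Agent.Lib.Helper19.ESBASE
import Cfsg.Agent.Lib.Helper46.ESDUAL
import Cfsg.Agent.Lib.Helper46.ESTRANS
import Cfsg.Agent.Lib.Helper52.ESK4
import Cfsg.Agent.Lib.Helper67.ESS1
import Cfsg.Agent.Lib.Helper78.ESNIL
import Cfsg.Agent.Lib.Helper8.ESQUOT
import Cfsg.Agent.Lib.Helper84.ESINTER

set_option autoImplicit false
open Cfsg

namespace Cfsg.Agent.S5877

open Cfsg.Agent.Lib.Helper44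

theorem s5877_scal {F : Type*} [Field F] {n : ℕ} (s : Matrix.GeneralLinearGroup (Fin n) F)
    (hs : s ∈ Cfsg.Geo.scalars (Fin n) F) :
    ∃ σ : F, (s : Matrix (Fin n) (Fin n) F) = σ • (1 : Matrix (Fin n) (Fin n) F) ∧ (s ≠ 1 → σ ≠ 1) ∧ σ ≠ 0 := by
  obtain ⟨c, hc⟩ := (Cfsg.Geo.mem_scalars_iff s).1 hs
  refine ⟨(c : F), hc, ?_, c.ne_zero⟩
  intro hs1 hc1
  apply hs1
  apply Units.ext
  rw [hc, hc1, one_smul]
  rfl

theorem s5877_coe {F : Type*} [Field F] {n : ℕ} {u v : Matrix.GeneralLinearGroup (Fin n) F} (h : u = v) :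
    (u : Matrix (Fin n) (Fin n) F) = (v : Matrix (Fin n) (Fin n) F) := by rw [h]

/-- Eigenspaces of elements normalising an absolutely irreducible extraspecial group. Let F be a finite field, r a prime, and R ≤ GL_n(F) an absolutely irreducible extraspecial r-group (an r-group whose centre equals its derived subgroup and has order r) of exponent r or 4. Let g ∈ GL_n(F) normalise the product of R with the scalar matrices, have prime order ϖ and not be scalar, and let W be the eigenspace of g for any c ∈ F (W may be the zero subspace). Then dim W ≤ 3n/4 if ϖ = 2, dim W ≤ 2n/3 if ϖ = 3, and dim W ≤ n/2 if ϖ > 3; moreover if ϖ = 3 and 3 does not divide n then dim W ≤ n/2. -/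
theorem result {F : Type*} [Field F] [Fintype F] {n r ϖ : ℕ} (R : Subgroup (Matrix.GeneralLinearGroup (Fin n) F)) (hr : r.Prime) (hR : IsPGroup r R) (hZ : Nat.card (Subgroup.center R) = r) (hext : commutator R = Subgroup.center R) (hexp : Monoid.exponent R = r ∨ Monoid.exponent R = 4) (hirr : Cfsg.Geo.ActsAbsolutelyIrreducibly (Cfsg.Geo.matrixSet R)) (g : Matrix.GeneralLinearGroup (Fin n) F) (hg : g ∈ Cfsg.Geo.subgroupNormalizer (R ⊔ Cfsg.Geo.scalars (Fin n) F)) (hϖ : ϖ.Prime) (hord : orderOf g = ϖ) (hns : g ∉ Cfsg.Geo.scalars (Fin n) F) (c : F) :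
    (ϖ = 2 → 4 * Module.finrank F (Module.End.eigenspace (Matrix.toLin' (g : Matrix (Fin n) (Fin n) F)) c) ≤ 3 * n) ∧
    (ϖ = 3 → 3 * Module.finrank F (Module.End.eigenspace (Matrix.toLin' (g : Matrix (Fin n) (Fin n) F)) c) ≤ 2 * n) ∧
    (3 < ϖ → 2 * Module.finrank F (Module.End.eigenspace (Matrix.toLin' (g : Matrix (Fin n) (Fin n) F)) c) ≤ n) ∧
    (ϖ = 3 → ¬ 3 ∣ n → 2 * Module.finrank F (Module.End.eigenspace (Matrix.toLin' (g : Matrix (Fin n) (Fin n) F)) c) ≤ n) := by
  classical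
  have hn : 0 < n := by
    rcases Nat.eq_zero_or_pos n with h0 | h0
    · subst h0
      exact absurd (by rw [Subsingleton.elim g 1]; exact one_mem _) hns
    · exact h0
  have hB := ES.es_base R hr hZ hext hirr
  obtain ⟨⟨ζ, hζ, hζ1⟩, ⟨a₁, ha₁R, ha₁Z⟩⟩ := ES.esaux_zeta R hr hZ hext hirr
  have hζ' := ES.escount_prim ζ r hr hζ hζ1
  have hgϖ : g ^ ϖ = 1 := by rw [← hord]; exact pow_orderOf_eq_one g
  have hnorm : ∀ a ∈ R ⊔ Cfsg.Geo.scalars (Fin n) F, g * a * g⁻¹ ∈ R ⊔ Cfsg.Geo.scalars (Fin n) F := by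
    intro a ha
    exact (Subgroup.mem_normalizer_iff.1 hg a).1 ha
  have hnorm' : ∀ a ∈ R ⊔ Cfsg.Geo.scalars (Fin n) F, g⁻¹ * a * g ∈ R ⊔ Cfsg.Geo.scalars (Fin n) F := by
    intro a ha
    refine (Subgroup.mem_normalizer_iff.1 hg (g⁻¹ * a * g)).2 ?_
    have e : g * (g⁻¹ * a * g) * g⁻¹ = a := by group
    rw [e]
    exact ha
  -- divisibility of n by r (r odd)
  have hdiv : r ≠ 2 → r ∣ n := by
    intro hr2
    have hexp' := ES.esaux_exp R hr hR hZ hexp hr2
    obtain ⟨y, k, hk, hya⟩ := ES.es_dual (R ⊔ Cfsg.Geo.scalars (Fin n) F) r hr hn ζ hζ hζ1 hB a₁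
      (Subgroup.mem_sup_left ha₁R) ha₁Z
    have har : (a₁ : Matrix (Fin n) (Fin n) F) ^ r = 1 := by
      have := s5877_coe (hexp' a₁ ha₁R)
      simpa using this
    have hk1 := ES.es_k1 (1 : Matrix (Fin n) (Fin n) F) (a₁ : Matrix (Fin n) (Fin n) F) ζ r hr.pos hζ hζ' har
      (by simp) 1
    have hdec : n = ∑ i ∈ Finset.range r, Module.finrank F
        (Module.End.eigenspace (Matrix.toLin' (a₁ : Matrix (Fin n) (Fin n) F)) (ζ ^ i)) := by
      have e1 : Module.End.eigenspace (Matrix.toLin' (1 : Matrix (Fin n) (Fin n) F)) 1 = ⊤ := by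
        ext v
        simp
      have e2 : ∀ i, ES.dd (1 : Matrix (Fin n) (Fin n) F) (a₁ : Matrix (Fin n) (Fin n) F) 1 (ζ ^ i)
          = Module.finrank F
            (Module.End.eigenspace (Matrix.toLin' (a₁ : Matrix (Fin n) (Fin n) F)) (ζ ^ i)) := by
        intro i
        unfold ES.dd
        rw [e1, top_inf_eq]
      rw [e1] at hk1
      rw [← Finset.sum_congr rfl (fun i _ => e2 i), ← hk1]
      simp
    exact ES.es_k4 (a₁ : Matrix (Fin n) (Fin n) F) (y : Matrix (Fin n) (Fin n) F) (Units.isUnit y) ζ r k hr hζ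
      hζ1 hk hya hdec
  -- Case I
  by_cases hI : ∃ x ∈ R ⊔ Cfsg.Geo.scalars (Fin n) F, ∃ s ∈ Cfsg.Geo.scalars (Fin n) F,
      g * x * g⁻¹ = x * s ∧ s ≠ 1
  · obtain ⟨x, hx, s, hs, hgx, hs1⟩ := hI
    obtain ⟨σ, hσ, hσ1, hσ0⟩ := s5877_scal s hs
    have h2 : 2 * Module.finrank F
        (Module.End.eigenspace (Matrix.toLin' (g : Matrix (Fin n) (Fin n) F)) c) ≤ n := by
      have h1 : g * x = x * s * g := by rw [← hgx]; group
      have h2 : (g : Matrix (Fin n) (Fin n) F) * (x : Matrix (Fin n) (Fin n) F)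
          = σ • ((x : Matrix (Fin n) (Fin n) F) * (g : Matrix (Fin n) (Fin n) F)) := by
        have := s5877_coe h1
        simp only [Units.val_mul] at this
        rw [this, hσ]
        simp
      have hmat : (x : Matrix (Fin n) (Fin n) F) * (g : Matrix (Fin n) (Fin n) F)
          = σ⁻¹ • ((g : Matrix (Fin n) (Fin n) F) * (x : Matrix (Fin n) (Fin n) F)) := by
        rw [h2, smul_smul, inv_mul_cancel₀ hσ0, one_smul]
      refine ES.es_perm x g σ⁻¹ 2 ?_ hmat c
      intro j hj0 hj2 hj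
      have hj1 : j = 1 := by omega
      subst hj1
      rw [pow_one] at hj
      exact hσ1 hs1 (inv_eq_one.1 hj)
    refine ⟨fun _ => by omega, fun _ => by omega, fun _ => h2, fun _ _ => h2⟩
  · -- the set-up
    have hS : ES.Setup (R ⊔ Cfsg.Geo.scalars (Fin n) F) (Cfsg.Geo.scalars (Fin n) F) g r :=
      { base := hB
        norm := hnorm
        norm_inv := hnorm'
        notI := by
          intro x hx s hs hgx
          by_contra hs1
          exact hI ⟨x, hx, s, hs, hgx, hs1⟩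
        nontriv := by
          by_contra hcon
          push Not at hcon
          exact hns (hB.cent g hcon) }
    -- the general bound
    have hii : 2 * r * Module.finrank F
        (Module.End.eigenspace (Matrix.toLin' (g : Matrix (Fin n) (Fin n) F)) c) ≤ (r + 1) * n := by
      obtain ⟨x₀, hx₀, hx₀g⟩ := hS.nontriv
      have hh1 : ES.hh g x₀ 1 = x₀⁻¹ * (g * x₀ * g⁻¹) := by simp [ES.hh]
      have hh1H : ES.hh g x₀ 1 ∈ R ⊔ Cfsg.Geo.scalars (Fin n) F := by
        rw [hh1]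
        exact Subgroup.mul_mem _ (Subgroup.inv_mem _ hx₀) (hnorm x₀ hx₀)
      have hh1Z : ES.hh g x₀ 1 ∉ Cfsg.Geo.scalars (Fin n) F := by
        intro hz
        have e : g * x₀ * g⁻¹ = x₀ * ES.hh g x₀ 1 := by rw [hh1]; group
        have h1 := hS.notI x₀ hx₀ _ hz e
        rw [h1, mul_one] at e
        apply hx₀g
        calc g * x₀ = g * x₀ * g⁻¹ * g := by group
          _ = x₀ * g := by rw [e]
      obtain ⟨y, k, hk, hya⟩ := ES.es_dual (R ⊔ Cfsg.Geo.scalars (Fin n) F) r hr hn ζ hζ hζ1 hB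
        (ES.hh g x₀ 1) hh1H hh1Z
      have h1 := ES.es_perm y (ES.hh g x₀ 1) (ζ ^ k) r (ES.escount_primk ζ r hr hζ hζ1 k hk) hya 1
      have h2 := ES.es_inter1 g x₀ c
      nlinarith
    have hS1 : Odd ϖ → ϖ ≠ r → 2 * Module.finrank F
        (Module.End.eigenspace (Matrix.toLin' (g : Matrix (Fin n) (Fin n) F)) c) ≤ n := by
      intro hodd hne
      have hcop : Nat.Coprime ϖ r := (Nat.coprime_primes hϖ hr).2 hne
      obtain ⟨x, hx, k, s, hs, hs1, hcomm⟩ := ES.es_s1 (R ⊔ Cfsg.Geo.scalars (Fin n) F)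
        (Cfsg.Geo.scalars (Fin n) F) g r ϖ hS hodd hcop hgϖ
      obtain ⟨σ, hσ, hσ1, hσ0⟩ := s5877_scal s hs
      refine ES.es_inter0 g x c 1 k σ (hσ1 hs1) ?_
      have := s5877_coe hcomm
      simp only [Units.val_mul] at this
      rw [this, hσ]
      simp
    have hS2 : ϖ = r → 5 ≤ r → 2 * Module.finrank F
        (Module.End.eigenspace (Matrix.toLin' (g : Matrix (Fin n) (Fin n) F)) c) ≤ n := by
      intro hϖr h5
      have hgr : g ^ r = 1 := hϖr ▸ hgϖ
      have hexp' := ES.esaux_exp R hr hR hZ hexp (by omega)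
      obtain ⟨x, hx, a, ha, hgx, haZ, hga⟩ := ES.es_quot (R ⊔ Cfsg.Geo.scalars (Fin n) F)
        (Cfsg.Geo.scalars (Fin n) F) g r hr hS hgr
        (fun Q _ _ A q h1 h2 h3 h4 h5 => ES.es_nil A q r hr h1 h2 h3 h4 h5)
      obtain ⟨a', t, e, ha'R, ha'Z, ha'r, hga', hm1, hm2⟩ :=
        ES.es_trans R g r hr hn ζ hζ hζ1 hB hexp' hgr x a hx ha hgx haZ hga
      obtain ⟨y, k, hk, hya⟩ := ES.es_dual (R ⊔ Cfsg.Geo.scalars (Fin n) F) r hr hn ζ hζ hζ1 hB a'
        (Subgroup.mem_sup_left ha'R) ha'Z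
      exact ES.es_count g x a' y ζ r t e k hr h5 hζ hζ1 ha'r hga' hm1 hm2 hk hya c
    have hr2 : 2 ≤ r := hr.two_le
    refine ⟨?_, ?_, ?_, ?_⟩
    · intro _
      have h3 : 2 * n ≤ r * n := Nat.mul_le_mul_right n hr2
      have : r * (4 * Module.finrank F
          (Module.End.eigenspace (Matrix.toLin' (g : Matrix (Fin n) (Fin n) F)) c)) ≤ r * (3 * n) := by
        nlinarith
      exact Nat.le_of_mul_le_mul_left this hr.pos
    · intro h3
      by_cases hr3 : 3 ≤ r
      · have h4 : 3 * n ≤ r * n := Nat.mul_le_mul_right n hr3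
        have : r * (3 * Module.finrank F
            (Module.End.eigenspace (Matrix.toLin' (g : Matrix (Fin n) (Fin n) F)) c)) ≤ r * (2 * n) := by
          nlinarith
        exact Nat.le_of_mul_le_mul_left this hr.pos
      · have := hS1 (by rw [h3]; decide) (by omega)
        omega
    · intro h3
      have hodd : Odd ϖ := hϖ.odd_of_ne_two (by omega)
      by_cases hne : ϖ = r
      · have h5 : 5 ≤ r := by
          rcases Nat.lt_or_ge r 5 with h | h
          · have h4 : r = 4 := by omega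
            rw [h4] at hr
            exact absurd hr (by decide)
          · exact h
        exact hS2 hne h5
      · exact hS1 hodd hne
    · intro h3 h3n
      have hne : ϖ ≠ r := by
        intro h
        have : r = 3 := by omega
        exact h3n (this ▸ hdiv (by omega))
      exact hS1 (by rw [h3]; decide) hne

end Cfsg.Agent.S5877
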