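import Cfsg.Statements.S5938
import Mathlib
import Cfsg.Agent.S0803
import Cfsg.Agent.Lib.Helper54.DkMaxPerm

set_option autoImplicit false
open Cfsg
open Cfsg.Agent.Lib.Helper54 Cfsg.Agent.Lib.Helper19.Dk

namespace Cfsg.Agent.S5938

/-- Let p be a prime with p ≡ ±1 (mod 8) and F a field with p elements. Then PSL_2(F) has a maximal subgroup isomorphic to the symmetric group S_4. -/
theorem result {F : Type*} [Field F] [Fintype F] (p : ℕ) [Fact p.Prime] (hF : Fintype.card F = p) (hp : p % 8 = 1 ∨ p % 8 = 7) : ∃ H : Subgroup (Matrix.ProjectiveSpecialLinearGroup (Fin 2) F), IsCoatom H ∧ Nonempty (H ≃* Equiv.Perm (Fin 4)) := by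
  classical
  haveI : CharP F p := charP_of_card_eq_prime hF
  have hpp : p.Prime := Fact.out
  have hp7 : 7 ≤ p := by have := hpp.two_le; omega
  have h2 : (2 : F) ≠ 0 := dkm_two_ne_zero p (by omega)
  have hp16 : p ^ 2 % 16 = 1 := by
    have h16 : p % 16 = 1 ∨ p % 16 = 9 ∨ p % 16 = 7 ∨ p % 16 = 15 := by omega
    rw [Nat.pow_mod]
    rcases h16 with h | h | h | h <;> rw [h]
  obtain ⟨H, ⟨e⟩⟩ := (Cfsg.Agent.S0803.result (q := p) hF).2 hp16
  have hH24 : Nat.card H = 24 := by rw [Nat.card_congr e.toEquiv, dkm_card_s4]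
  have hG := dkm_card_P2_odd h2 p
  rw [hF] at hG
  have hG2 : 7 * 48 ≤ p * (p ^ 2 - 1) := by
    have : 48 ≤ p ^ 2 - 1 := by
      have : 7 ^ 2 ≤ p ^ 2 := Nat.pow_le_pow_left hp7 2
      omega
    exact Nat.mul_le_mul hp7 this
  refine ⟨H, ⟨?_, ?_⟩, ⟨e⟩⟩
  · intro htop
    have : Nat.card H = Nat.card (P2 F) := by rw [htop]; exact Subgroup.card_top
    omega
  · intro L hL
    have hcop : Nat.Coprime p (Nat.card (Equiv.Perm (Fin 4))) := by
      rw [dkm_card_s4, hpp.coprime_iff_not_dvd]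
      intro hd
      have h24 : (24 : ℕ) = 2 ^ 3 * 3 := by norm_num
      rw [h24] at hd
      rcases (Nat.Prime.dvd_mul hpp).1 hd with h | h
      · have := (Nat.prime_dvd_prime_iff_eq hpp Nat.prime_two).1 (hpp.dvd_of_dvd_pow h)
        omega
      · have := (Nat.prime_dvd_prime_iff_eq hpp Nat.prime_three).1 h
        omega
    have hcases : (∀ a ∈ L, ∀ b ∈ L, (a * a) * (b * b) = (b * b) * (a * a)) ∨
        ((∀ a ∈ L, ∀ b ∈ L, (a * b * a⁻¹ * b⁻¹) ^ p = 1) ∧
          (∀ a ∈ L, ∀ b ∈ L, ∀ c ∈ L, ∀ d ∈ L, (a * b * a⁻¹ * b⁻¹) * (c * d * c⁻¹ * d⁻¹)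
            = (c * d * c⁻¹ * d⁻¹) * (a * b * a⁻¹ * b⁻¹))) ∨
        Nat.card L = 12 ∨ Nat.card L = 24 ∨ Nat.card L = 60 ∨
        (∃ q' k : ℕ, 3 ≤ q' ∧ q' ∣ Fintype.card F ∧ Nat.card L = k * q' * (1 + q') ∧
          (k = q' - 1 ∨ 2 * k = q' - 1)) := dkm_cases p L
    rcases hcases with h | ⟨h, -⟩ | h | h | h | ⟨q', k, hq3, hdvd, hc, hk⟩
    · exact absurd (dkm_tr_sq H e (fun a ha b hb => h a (hL.le ha) b (hL.le hb))) dkm_s4_sq
    · exact absurd (dkm_comm_of_pow p hcop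
        (dkm_tr_pow H e p (fun a ha b hb => h a (hL.le ha) b (hL.le hb)))) dkm_s4_comm
    · have := Subgroup.card_le_of_le hL.le
      omega
    · exact absurd (Subgroup.eq_of_le_of_card_ge hL.le (by omega)) hL.ne
    · have := Subgroup.card_dvd_of_le hL.le
      rw [hH24, h] at this
      omega
    · have hq' : q' = Fintype.card F := by
        rw [hF] at hdvd ⊢
        rcases (Nat.dvd_prime hpp).1 hdvd with h | h
        · omega
        · exact h
      subst hq'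
      exact dkm_top p L k hc hk

end Cfsg.Agent.S5938
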