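import Cfsg.Statements.S5941
import Mathlib
import Cfsg.Agent.S0805
import Cfsg.Agent.S0265
import Cfsg.Agent.Lib.Helper54.DkMax2

set_option autoImplicit false
open Cfsg
open Cfsg.Agent.Lib.Helper54 Cfsg.Agent.Lib.Helper19.Dk

namespace Cfsg.Agent.S5941

/-- Let K and F be finite fields of odd characteristic with #F = (#K)². Then PSL_2(F) has a maximal subgroup isomorphic to PGL_2(K). -/
theorem result {F K : Type*} [Field F] [Fintype F] [Field K] [Fintype K] (q : ℕ) (hK : Fintype.card K = q) (hF : Fintype.card F = q ^ 2) (hq : Odd q) : ∃ H : Subgroup (Matrix.ProjectiveSpecialLinearGroup (Fin 2) F), IsCoatom H ∧ Nonempty (H ≃* Matrix.ProjGenLinGroup (Fin 2) K) := by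
  classical
  obtain ⟨p, hp⟩ := CharP.exists F
  haveI : CharP F p := hp
  have hpp : p.Prime := CharP.char_is_prime F p
  haveI : Fact p.Prime := ⟨hpp⟩
  have hK2 : 2 ≤ Fintype.card K := Fintype.one_lt_card
  have hq3 : 3 ≤ q := by
    obtain ⟨t, ht⟩ := hq
    omega
  have hp2 : p ≠ 2 := by
    intro hp2
    obtain ⟨n, -, hn⟩ := FiniteField.card F p
    rw [hF, hp2] at hn
    have h1 : Odd (q ^ 2) := hq.pow
    have h2 : Even (2 ^ (n : ℕ)) := (Nat.even_pow' n.ne_zero).2 even_two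
    rw [hn] at h1
    exact (Nat.not_odd_iff_even.2 h2) h1
  have h2F : (2 : F) ≠ 0 := dkm_two_ne_zero p hp2
  obtain ⟨φ⟩ := Cfsg.Agent.S0805.exists_hom (F := F) (K := K) 2 (by norm_num) (by rw [hK, hF])
  haveI : CharP K p := RingHom.charP φ φ.injective p
  have h2K : (2 : K) ≠ 0 := dkm_two_ne_zero p hp2
  obtain ⟨H, ⟨e⟩⟩ := (Cfsg.Agent.S0805.result (F := F) (K := K) (q := q ^ 2) hF hq.pow 2
    (by norm_num) (by rw [hK])).2.2 (by decide)
  have hH : Nat.card H = q * (q ^ 2 - 1) := by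
    rw [Nat.card_congr e.toEquiv, Cfsg.Agent.S0265.result (F := K) 2, card_S2, hK]
  have hG : 2 * Nat.card (Matrix.ProjectiveSpecialLinearGroup (Fin 2) F)
      = Fintype.card F * (Fintype.card F ^ 2 - 1) := dkm_card_P2_odd h2F p
  obtain ⟨a₀, -, ha₀⟩ := FiniteField.card K p
  obtain ⟨a, ha⟩ : ∃ a : ℕ, a = (a₀ : ℕ) := ⟨_, rfl⟩
  have ha1 : 1 ≤ a := by rw [ha]; exact a₀.pos
  have hqa : q = p ^ a := by rw [← hK, ha₀, ha]
  have hsqH : ¬ ∀ x ∈ H, ∀ y ∈ H, (x * x) * (y * y) = (y * y) * (x * x) := by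
    intro h
    apply dkm_psl_sq_odd h2K
    intro x y
    have h1 := dkm_tr_sq H e h (Matrix.ProjectiveSpecialLinearGroup.toPGL x)
      (Matrix.ProjectiveSpecialLinearGroup.toPGL y)
    simp only [← map_mul] at h1
    exact Matrix.ProjectiveSpecialLinearGroup.toPGL_injective h1
  have hborH : ¬ ((∀ a ∈ H, ∀ b ∈ H, (a * b * a⁻¹ * b⁻¹) ^ p = 1) ∧
      (∀ a ∈ H, ∀ b ∈ H, ∀ c ∈ H, ∀ d ∈ H, (a * b * a⁻¹ * b⁻¹) * (c * d * c⁻¹ * d⁻¹)
        = (c * d * c⁻¹ * d⁻¹) * (a * b * a⁻¹ * b⁻¹))) := by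
    rintro ⟨h1, h2⟩
    apply dkm_psl_not_bor (K := K) p
    constructor
    · intro x y
      have h3 := dkm_tr_pow H e p h1 (Matrix.ProjectiveSpecialLinearGroup.toPGL x)
        (Matrix.ProjectiveSpecialLinearGroup.toPGL y)
      simp only [← map_inv, ← map_mul, ← map_pow] at h3
      exact Matrix.ProjectiveSpecialLinearGroup.toPGL_injective (by rw [h3, map_one])
    · intro x y z w
      have h3 := dkm_tr_cc H e h2 (Matrix.ProjectiveSpecialLinearGroup.toPGL x)
        (Matrix.ProjectiveSpecialLinearGroup.toPGL y) (Matrix.ProjectiveSpecialLinearGroup.toPGL z)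
        (Matrix.ProjectiveSpecialLinearGroup.toPGL w)
      simp only [← map_inv, ← map_mul] at h3
      exact Matrix.ProjectiveSpecialLinearGroup.toPGL_injective h3
  have hq9 : 3 ^ 2 ≤ q ^ 2 := Nat.pow_le_pow_left hq3 2
  have hH24 : 3 * 8 ≤ q * (q ^ 2 - 1) := Nat.mul_le_mul hq3 (by omega)
  have hfac : ∀ u : ℕ, 1 ≤ u → u ^ 2 - 1 = (u - 1) * (1 + u) := by
    intro u hu
    obtain ⟨v, rfl⟩ : ∃ v, u = v + 1 := ⟨u - 1, by omega⟩
    have h1 : (v + 1) ^ 2 = v * (1 + (v + 1)) + 1 := by ring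
    rw [h1]
    simp
  refine ⟨H, ⟨?_, ?_⟩, ⟨e⟩⟩
  · intro htop
    have h1 : Nat.card H = Nat.card (Matrix.ProjectiveSpecialLinearGroup (Fin 2) F) := by
      rw [htop]; exact Subgroup.card_top
    rw [hF, ← h1, hH] at hG
    obtain ⟨Q, hQ⟩ : ∃ Q, q ^ 2 = Q + 1 := ⟨q ^ 2 - 1, by omega⟩
    rw [hQ] at hG
    have e1 : (Q + 1) ^ 2 = Q * (Q + 2) + 1 := by ring
    rw [e1, Nat.add_sub_cancel, Nat.add_sub_cancel] at hG
    have hQ8 : 8 ≤ Q := by omega
    have h3 : 3 * q ≤ Q + 1 := by rw [← hQ]; nlinarith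
    have h4 : 2 * (q * Q) < (Q + 1) * (Q * (Q + 2)) := by
      calc 2 * (q * Q) < 3 * q * Q := by nlinarith
        _ ≤ (Q + 1) * Q := Nat.mul_le_mul_right Q h3
        _ ≤ (Q + 1) * (Q * (Q + 2)) := by nlinarith
    omega
  · intro L hL
    have hcases : (∀ a ∈ L, ∀ b ∈ L, (a * a) * (b * b) = (b * b) * (a * a)) ∨
        ((∀ a ∈ L, ∀ b ∈ L, (a * b * a⁻¹ * b⁻¹) ^ p = 1) ∧
          (∀ a ∈ L, ∀ b ∈ L, ∀ c ∈ L, ∀ d ∈ L, (a * b * a⁻¹ * b⁻¹) * (c * d * c⁻¹ * d⁻¹)
            = (c * d * c⁻¹ * d⁻¹) * (a * b * a⁻¹ * b⁻¹))) ∨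
        Nat.card L = 12 ∨ Nat.card L = 24 ∨ Nat.card L = 60 ∨
        (∃ q' k m : ℕ, 3 ≤ q' ∧ q' ^ m = Fintype.card F ∧ Nat.card L = k * q' * (1 + q') ∧
          (k = q' - 1 ∨ 2 * k = q' - 1)) := dkm_cases2 p L
    have hHL := Subgroup.card_le_of_le hL.le
    have hdHL := Subgroup.card_dvd_of_le hL.le
    rcases hcases with h' | h' | h' | h' | h' | ⟨q', k, m, hq'3, hpow, hc, hk⟩
    · exact absurd (fun a ha b hb => h' a (hL.le ha) b (hL.le hb)) hsqH
    · exact absurd ⟨fun a ha b hb => h'.1 a (hL.le ha) b (hL.le hb),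
        fun a ha b hb c hc d hd => h'.2 a (hL.le ha) b (hL.le hb) c (hL.le hc) d (hL.le hd)⟩ hborH
    · omega
    · exact absurd (Subgroup.eq_of_le_of_card_ge hL.le (by omega)) hL.ne
    · exfalso
      rw [hH, h'] at hdHL
      rcases (by omega : q = 3 ∨ q = 4 ∨ 5 ≤ q) with h3 | h4 | h5
      · subst h3
        norm_num at hdHL
      · subst h4
        exact absurd hq (by decide)
      · have h25 : 5 ^ 2 ≤ q ^ 2 := Nat.pow_le_pow_left h5 2
        have h120 : 5 * 24 ≤ q * (q ^ 2 - 1) := Nat.mul_le_mul h5 (by omega)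
        have := Nat.le_of_dvd (by norm_num) hdHL
        omega
    · have hdiv : q * (q ^ 2 - 1) ∣ 2 * (q' * (q' ^ 2 - 1)) := by
        rw [hH, hc] at hdHL
        rw [hfac q' (by omega)]
        rcases hk with hk | hk
        · have h1 : k * q' * (1 + q') ∣ 2 * (q' * ((q' - 1) * (1 + q'))) := by
            rw [← hk]; exact ⟨2, by ring⟩
          exact dvd_trans hdHL h1
        · have h1 : k * q' * (1 + q') ∣ 2 * (q' * ((q' - 1) * (1 + q'))) := by
            rw [← hk]; exact ⟨4, by ring⟩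
          exact dvd_trans hdHL h1
      rw [hqa] at hdiv
      obtain ⟨c, hc', hcm⟩ := dkm_subfield_arith p a q' m 2 hpp ha1 (by omega) (by norm_num)
        (by rw [hpow, hF, hqa]) hdiv
      have hc12 : c = 1 ∨ c = 2 := by
        have h1 : c ∣ 2 := ⟨m, hcm.symm⟩
        have h2 := Nat.le_of_dvd (by norm_num) h1
        rcases (by omega : c = 0 ∨ c = 1 ∨ c = 2) with h | h | h
        · rw [h] at hcm; omega
        · left; exact h
        · right; exact h
      rcases hc12 with rfl | rfl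
      · exfalso
        rw [pow_one, ← hqa] at hc'
        subst hc'
        have hle : Nat.card L ≤ Nat.card H := by
          rw [hH, hc, hfac q' (by omega)]
          have hkle : k ≤ q' - 1 := by omega
          calc k * q' * (1 + q') ≤ (q' - 1) * q' * (1 + q') :=
                Nat.mul_le_mul_right _ (Nat.mul_le_mul_right _ hkle)
            _ = q' * ((q' - 1) * (1 + q')) := by ring
        exact absurd (Subgroup.eq_of_le_of_card_ge hL.le hle) hL.ne
      · have hq'F : q' = Fintype.card F := by rw [hc', hF, hqa]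
        subst hq'F
        exact dkm_top p L k hc hk

end Cfsg.Agent.S5941
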