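import Cfsg.Statements.S5945
import Cfsg.Agent.Lib.Helper98.S6Index

set_option autoImplicit false
open Cfsg
open Cfsg.Agent.Lib.Helper98

namespace Cfsg.Agent.S5945


open Equiv

theorem exists_third : ∀ a b : Fin 6, ∃ c, c ≠ a ∧ c ≠ b := by decide

theorem exotic_map_ne_stabilizer {Ω : Type*} [Nontrivial Ω]
    (e₀ : Sylow 5 (Perm (Fin 5)) ≃ Ω) (g : Perm Ω) (a : Ω) :
    (exotic e₀).map (MulAut.conj g).toMonoidHom ≠ MulAction.stabilizer (Perm Ω) a := by
  intro heq
  obtain ⟨ω', hω'⟩ : ∃ ω', ω' ≠ g⁻¹ • a := exists_ne _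
  obtain ⟨h, hh, hmove⟩ := exotic_transitive e₀ (g⁻¹ • a) ω'
  have h1 : MulAut.conj g h ∈ (exotic e₀).map (MulAut.conj g).toMonoidHom := ⟨h, hh, rfl⟩
  rw [heq, MulAction.mem_stabilizer_iff] at h1
  apply hω'
  rw [← hmove]
  have h2 : (g * h * g⁻¹) • a = a := h1
  have h3 := congrArg (fun x => g⁻¹ • x) h2
  simpa [mul_smul] using h3

theorem card_conj_exotic (e₀ : Sylow 5 (Perm (Fin 5)) ≃ Fin 6) :
    (Set.range fun g : Perm (Fin 6) => (exotic e₀).map (MulAut.conj g).toMonoidHom).ncard = 6 := by
  classical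
  let _ : MulAction (Perm (Fin 6)) (Subgroup (Perm (Fin 6))) :=
    { smul := fun g K => K.map (MulAut.conj g).toMonoidHom
      one_smul := fun K => by
        change K.map (MulAut.conj (1 : Perm (Fin 6))).toMonoidHom = K
        ext x
        simp
      mul_smul := fun g h K => by
        change K.map (MulAut.conj (g * h)).toMonoidHom =
          (K.map (MulAut.conj h).toMonoidHom).map (MulAut.conj g).toMonoidHom
        rw [Subgroup.map_map]
        congr 1 }
  have horb : (Set.range fun g : Perm (Fin 6) => (exotic e₀).map (MulAut.conj g).toMonoidHom) =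
      MulAction.orbit (Perm (Fin 6)) (exotic e₀) := rfl
  rw [horb, ← MulAction.index_stabilizer]
  have hmemK : ∀ g, g ∈ MulAction.stabilizer (Perm (Fin 6)) (exotic e₀) ↔
      (exotic e₀).map (MulAut.conj g).toMonoidHom = exotic e₀ := fun g => Iff.rfl
  have hle : exotic e₀ ≤ MulAction.stabilizer (Perm (Fin 6)) (exotic e₀) := by
    intro h hh
    rw [hmemK]
    ext x
    constructor
    · rintro ⟨y, hy, rfl⟩
      exact (exotic e₀).mul_mem ((exotic e₀).mul_mem hh hy) ((exotic e₀).inv_mem hh)
    · intro hx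
      exact ⟨h⁻¹ * x * h, (exotic e₀).mul_mem ((exotic e₀).mul_mem ((exotic e₀).inv_mem hh) hx) hh,
        by simp [mul_assoc]⟩
  have hdvd : (MulAction.stabilizer (Perm (Fin 6)) (exotic e₀)).index ∣ 6 := by
    have h1 := Subgroup.index_dvd_of_le hle
    rwa [exotic_index (by simp) e₀] at h1
  have hcardH : Nat.card (exotic e₀) = 120 := by
    rw [exotic, card_of_range _ (exoticHom_injective e₀), card_perm_fin5]
  have hAcard : Nat.card (alternatingGroup (Fin 6)) = 360 := by
    have h1 := two_mul_nat_card_alternatingGroup (α := Fin 6)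
    rw [card_perm_six (by simp)] at h1
    omega
  have hKtop : MulAction.stabilizer (Perm (Fin 6)) (exotic e₀) ≠ ⊤ := by
    intro htop
    have hnorm : (exotic e₀).Normal := by
      refine ⟨fun x hx g => ?_⟩
      have hg : g ∈ MulAction.stabilizer (Perm (Fin 6)) (exotic e₀) := by
        rw [htop]; exact Subgroup.mem_top g
      rw [hmemK] at hg
      rw [← hg]
      exact ⟨x, hx, rfl⟩
    have hnt : Nontrivial (exotic e₀) := by
      rw [← Finite.one_lt_card_iff_nontrivial]
      omega
    have hle2 := Equiv.Perm.alternatingGroup_le_of_normal (α := Fin 6) (by simp) hnt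
    have h2 := Subgroup.card_le_of_le hle2
    omega
  have hKalt : MulAction.stabilizer (Perm (Fin 6)) (exotic e₀) ≠ alternatingGroup (Fin 6) := by
    intro halt
    have hle' : exotic e₀ ≤ alternatingGroup (Fin 6) := halt ▸ hle
    have hn : ((exotic e₀).subgroupOf (alternatingGroup (Fin 6))).Normal := by
      refine ⟨fun x hx g => ?_⟩
      rw [Subgroup.mem_subgroupOf] at hx ⊢
      have hg : (g : Perm (Fin 6)) ∈ MulAction.stabilizer (Perm (Fin 6)) (exotic e₀) := by
        rw [halt]; exact g.2
      rw [hmemK] at hg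
      rw [← hg]
      exact ⟨x, hx, by simp⟩
    have hsimple : IsSimpleGroup (alternatingGroup (Fin 6)) :=
      alternatingGroup.isSimpleGroup (by simp)
    rcases hn.eq_bot_or_eq_top with h | h
    · rw [Subgroup.subgroupOf_eq_bot, disjoint_iff, inf_of_le_left hle'] at h
      rw [h, Subgroup.card_bot] at hcardH
      omega
    · rw [Subgroup.subgroupOf_eq_top] at h
      have h2 := Subgroup.card_le_of_le h
      omega
  have h6 := perm_le_index 6 (by norm_num) _ hKtop hKalt
  have h7 := Nat.le_of_dvd (by norm_num) hdvd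
  omega

/-- The symmetric group S_6 has exactly 12 subgroups of index 6; each of them is isomorphic to S_5, and at least one of them is not the stabilizer of any point. -/
theorem result : Nat.card {H : Subgroup (Equiv.Perm (Fin 6)) // H.index = 6} = 12 ∧ (∀ H : Subgroup (Equiv.Perm (Fin 6)), H.index = 6 → Nonempty (H ≃* Equiv.Perm (Fin 5))) ∧ ∃ H : Subgroup (Equiv.Perm (Fin 6)), H.index = 6 ∧ ∀ a : Fin 6, H ≠ MulAction.stabilizer (Equiv.Perm (Fin 6)) a := by
  classical
  have h6 : Fintype.card (Fin 6) = 6 := by simp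
  have hX : Nat.card (Fin 6) = 6 := by simp
  obtain ⟨e₀⟩ : Nonempty (Sylow 5 (Perm (Fin 5)) ≃ Fin 6) :=
    ⟨Finite.equivFinOfCardEq card_sylow5_perm5⟩
  refine ⟨?_, ?_, ?_⟩
  · have hset : {H : Subgroup (Perm (Fin 6)) | H.index = 6} =
        Set.range (fun a : Fin 6 => MulAction.stabilizer (Perm (Fin 6)) a) ∪
        Set.range (fun g : Perm (Fin 6) => (exotic e₀).map (MulAut.conj g).toMonoidHom) := by
      ext H
      constructor
      · intro hH
        rcases classify h6 e₀ H hH with ⟨a, rfl⟩ | ⟨g, hg⟩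
        · exact Or.inl ⟨a, rfl⟩
        · exact Or.inr ⟨g, hg⟩
      · rintro (⟨a, rfl⟩ | ⟨g, rfl⟩)
        · change (MulAction.stabilizer (Perm (Fin 6)) a).index = 6
          rw [MulAction.index_stabilizer_of_transitive, hX]
        · change ((exotic e₀).map (MulAut.conj g).toMonoidHom).index = 6
          exact (Subgroup.index_map_equiv (exotic e₀) (MulAut.conj g)).trans (exotic_index h6 e₀)
    have hdisj : Disjoint (Set.range (fun a : Fin 6 => MulAction.stabilizer (Perm (Fin 6)) a))
        (Set.range (fun g : Perm (Fin 6) => (exotic e₀).map (MulAut.conj g).toMonoidHom)) := by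
      rw [Set.disjoint_left]
      rintro H ⟨a, rfl⟩ ⟨g, hg⟩
      exact exotic_map_ne_stabilizer e₀ g a hg
    have hinj : Function.Injective (fun a : Fin 6 => MulAction.stabilizer (Perm (Fin 6)) a) := by
      intro a b hab
      by_contra hne
      obtain ⟨c, hca, hcb⟩ := exists_third a b
      have h1 : swap b c ∈ MulAction.stabilizer (Perm (Fin 6)) a := by
        rw [MulAction.mem_stabilizer_iff]
        exact swap_apply_of_ne_of_ne hne hca.symm
      have hab' : MulAction.stabilizer (Perm (Fin 6)) a = MulAction.stabilizer (Perm (Fin 6)) b := hab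
      rw [hab', MulAction.mem_stabilizer_iff] at h1
      have h2 : swap b c b = b := h1
      rw [swap_apply_left] at h2
      exact hcb h2
    have hA : (Set.range (fun a : Fin 6 => MulAction.stabilizer (Perm (Fin 6)) a)).ncard = 6 := by
      rw [← Set.image_univ, Set.ncard_image_of_injective _ hinj, Set.ncard_univ, hX]
    change Nat.card ↥{H : Subgroup (Perm (Fin 6)) | H.index = 6} = 12
    rw [Nat.card_coe_set_eq, hset, Set.ncard_union_eq hdisj (Set.toFinite _) (Set.toFinite _), hA,
      card_conj_exotic]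
  · intro H hH
    obtain ⟨ρ, hinj, rfl⟩ := exists_rho h6 H hH
    exact ⟨(MonoidHom.ofInjective hinj).symm⟩
  · refine ⟨exotic e₀, exotic_index h6 e₀, fun a h => ?_⟩
    apply exotic_map_ne_stabilizer e₀ 1 a
    rw [← h]
    ext x
    simp

end Cfsg.Agent.S5945
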