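import Cfsg.Statements.S5949
import Cfsg.Agent.Lib.Helper96.BGLin

set_option autoImplicit false
open scoped MatrixGroups
open Cfsg

namespace Cfsg.Agent.S5949

open Cfsg.Agent.Lib.Helper96.BG Module

/-- Elements of prime order of PSL_n(q) with no fixed `m`-space. Here `T = PSL_n(F)` for a field `F` with `q = p^f` elements (`n ≥ 2`, `(n, q) ≠ (2, 2), (2, 3)`); an element of `T` of prime order `r` is represented by a matrix `x` of determinant 1 with `x^r` scalar and `x` not scalar; `i` denotes the multiplicative order of `q` modulo `r` (when `r ≠ p`), and `(a)_r` the `r`-part of `a`. Let `1 ≤ m ≤ n/2` and let `r` be a prime dividing the number of `m`-dimensional subspaces of `F^n`. Then every element of `T` of order `r` fixes some `m`-dimensional subspace (the action on `m`-spaces is `r`-elusive) if and only if `r ≠ p` and either (i) `i = 1` and (`r ∣ m`, or `(q−1)_r ≥ (n)_r` where in addition `q ≡ 1 (mod 4)` is required when `r = 2` and `n` is even), or (ii) `2 ≤ i ≤ m` and `n mod i ≥ m mod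 i`. -/
theorem result {F : Type*} [Field F] [Fintype F] {p : ℕ} [Fact p.Prime] [CharP F p] {q : ℕ} (hq : Fintype.card F = q)
    (n m : ℕ) (hn : 2 ≤ n) (hT : (n, q) ≠ (2, 2) ∧ (n, q) ≠ (2, 3)) (hm : 1 ≤ m) (hmn : 2 * m ≤ n)
    (r : ℕ) [Fact r.Prime] (hrΩ : r ∣ Nat.card {W : Submodule F (Fin n → F) // Module.finrank F ↥W = m}) :
    (∀ x : Matrix.SpecialLinearGroup (Fin n) F,
      (∃ c : F, ((x ^ r : Matrix.SpecialLinearGroup (Fin n) F) : Matrix (Fin n) (Fin n) F) = c • (1 : Matrix (Fin n) (Fin n) F)) →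
      (∀ c : F, (x : Matrix (Fin n) (Fin n) F) ≠ c • (1 : Matrix (Fin n) (Fin n) F)) →
      ∃ W : Submodule F (Fin n → F), Module.finrank F ↥W = m ∧ W.map (Matrix.toLin' (x : Matrix (Fin n) (Fin n) F)) ≤ W) ↔
    (r ≠ p ∧
      ((orderOf (q : ZMod r) = 1 ∧ (r ∣ m ∨ (padicValNat r n ≤ padicValNat r (q - 1) ∧ (r = 2 → Even n → q % 4 = 1)))) ∨
       (2 ≤ orderOf (q : ZMod r) ∧ orderOf (q : ZMod r) ≤ m ∧ m % orderOf (q : ZMod r) ≤ n % orderOf (q : ZMod r)))) := by
  classical
  subst hq
  have hr : r.Prime := Fact.out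
  have hfin : finrank F (Fin n → F) = n := Module.finrank_fin_fun F
  obtain ⟨s, hs1, hs2, hs3⟩ := exists_dvd_of_dvd_card_gr (F := F) (V := Fin n → F) m
    (by rw [hfin]; omega) r hr hrΩ
  rw [hfin] at hs1 hs2
  have hrp : r ≠ p := by
    rintro rfl
    exact p_not_dvd (F := F) r s hs3
  obtain ⟨hrq, hr0, hi1⟩ := facts (F := F) p r hrp
  have his : orderOf ((Fintype.card F : ℕ) : ZMod r) ∣ s + 1 :=
    (dvd_pow_sub_one_iff _ r (s + 1) Fintype.card_pos).mp hs3
  have hdvd1 : orderOf ((Fintype.card F : ℕ) : ZMod r) = 1 → r ∣ Fintype.card F - 1 := by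
    intro h
    have h1 := (dvd_pow_sub_one_iff (Fintype.card F) r 1 Fintype.card_pos).mpr (by rw [h])
    rwa [pow_one] at h1
  have hndvd : 2 ≤ orderOf ((Fintype.card F : ℕ) : ZMod r) → ¬ r ∣ Fintype.card F - 1 := by
    intro h2 h
    have h1 : r ∣ Fintype.card F ^ 1 - 1 := by rwa [pow_one]
    have h3 := Nat.le_of_dvd one_pos ((dvd_pow_sub_one_iff _ r 1 Fintype.card_pos).mp h1)
    omega
  constructor
  · intro hL
    refine ⟨hrp, ?_⟩
    rcases Nat.lt_or_ge (orderOf ((Fintype.card F : ℕ) : ZMod r)) 2 with hi2 | hi2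
    · left
      have hi_eq : orderOf ((Fintype.card F : ℕ) : ZMod r) = 1 := by omega
      refine ⟨hi_eq, ?_⟩
      have hdvd := hdvd1 hi_eq
      by_contra hcon
      have hnm : ¬ r ∣ m := fun h => hcon (Or.inl h)
      obtain ⟨x, c, hc, hx⟩ := exists_twisted_sl (F := F) n r hdvd hrq
        (fun h => hcon (Or.inr h)) (by omega)
      have hxns : ∀ z : F, (x : Matrix (Fin n) (Fin n) F) ≠ z • (1 : Matrix (Fin n) (Fin n) F) := by
        intro z hz
        rw [Matrix.SpecialLinearGroup.coe_pow, hz, smul_pow, one_pow] at hx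
        have h2 := congrFun (congrFun hx ⟨0, by omega⟩) ⟨0, by omega⟩
        simp only [Matrix.smul_apply, Matrix.one_apply_eq, smul_eq_mul, mul_one] at h2
        exact hc z h2
      obtain ⟨W, hWm, hWinv⟩ := hL x ⟨c, hx⟩ hxns
      rw [Matrix.SpecialLinearGroup.coe_pow] at hx
      have hTpow := toLin'_pow_eq n r _ c hx
      have := dvd_finrank_of_not_pow _ r hr c hc hTpow W hWinv
      rw [hWm] at this
      exact hnm this
    · right
      have hmod : m % orderOf ((Fintype.card F : ℕ) : ZMod r) ≤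
          n % orderOf ((Fintype.card F : ℕ) : ZMod r) := by
        by_contra hlt
        push Not at hlt
        have hin : orderOf ((Fintype.card F : ℕ) : ZMod r) ≤ n := by
          by_contra h
          push Not at h
          rw [Nat.mod_eq_of_lt h] at hlt
          have := Nat.mod_le m (orderOf ((Fintype.card F : ℕ) : ZMod r))
          omega
        obtain ⟨x, hx1, hxns, hxk⟩ := exists_semisimple_sl (F := F) p n r hi2 hin
        obtain ⟨W, hWm, hWinv⟩ := hL x ⟨1, by rw [hx1, one_smul]⟩ hxns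
        rw [Matrix.SpecialLinearGroup.coe_pow] at hx1
        have hTpow := toLin'_pow_eq n r (x : Matrix (Fin n) (Fin n) F) (1 : F)
          (by rw [hx1, one_smul])
        rw [one_smul] at hTpow
        obtain ⟨t, ht⟩ := orderOf_dvd_sub _ r hrq hTpow W hWinv
        have h2 : finrank F (W ⊓ LinearMap.ker (Matrix.toLin' (x : Matrix (Fin n) (Fin n) F) - 1) :
            Submodule F (Fin n → F)) ≤ n % orderOf ((Fintype.card F : ℕ) : ZMod r) :=
          (Submodule.finrank_mono inf_le_right).trans hxk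
        have h3 : finrank F (W ⊓ LinearMap.ker (Matrix.toLin' (x : Matrix (Fin n) (Fin n) F) - 1) :
            Submodule F (Fin n → F)) ≤ m := by
          rw [← hWm]
          exact Submodule.finrank_mono inf_le_left
        rw [hWm] at ht
        have h5 := Nat.mod_lt n (by omega : orderOf ((Fintype.card F : ℕ) : ZMod r) > 0)
        have h4 : m % orderOf ((Fintype.card F : ℕ) : ZMod r) =
            finrank F (W ⊓ LinearMap.ker (Matrix.toLin' (x : Matrix (Fin n) (Fin n) F) - 1) :
              Submodule F (Fin n → F)) := by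
          have h6 : m = finrank F (W ⊓ LinearMap.ker (Matrix.toLin' (x : Matrix (Fin n) (Fin n) F) - 1) :
              Submodule F (Fin n → F)) + orderOf ((Fintype.card F : ℕ) : ZMod r) * t := by omega
          conv_lhs => rw [h6]
          rw [Nat.add_mul_mod_self_left, Nat.mod_eq_of_lt (by omega)]
        omega
      refine ⟨hi2, ?_, hmod⟩
      by_contra hlt
      push Not at hlt
      obtain ⟨t, ht⟩ := his
      rw [Nat.mod_eq_of_lt hlt] at hmod
      have h1 : orderOf ((Fintype.card F : ℕ) : ZMod r) * t ≤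
          orderOf ((Fintype.card F : ℕ) : ZMod r) * (n / orderOf ((Fintype.card F : ℕ) : ZMod r)) := by
        apply Nat.mul_le_mul_left
        apply (Nat.le_div_iff_mul_le (by omega)).mpr
        rw [mul_comm]
        omega
      have h2 := Nat.div_add_mod n (orderOf ((Fintype.card F : ℕ) : ZMod r))
      omega
  · rintro ⟨-, hR⟩ x ⟨c, hxc⟩ hxns
    have hc0 : c ≠ 0 := by
      rintro rfl
      have hne : Nonempty (Fin n) := ⟨⟨0, by omega⟩⟩
      have h1 := congrArg Matrix.det hxc
      rw [Matrix.SpecialLinearGroup.det_coe, zero_smul, Matrix.det_zero] at h1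
      exact one_ne_zero h1
    rw [Matrix.SpecialLinearGroup.coe_pow] at hxc
    have hTpow := toLin'_pow_eq n r _ c hxc
    have hdet : LinearMap.det (Matrix.toLin' (x : Matrix (Fin n) (Fin n) F)) = 1 := by
      rw [LinearMap.det_toLin', Matrix.SpecialLinearGroup.det_coe]
    have hsplit : ∀ b : F, b ^ r = c →
        m % orderOf ((Fintype.card F : ℕ) : ZMod r) ≤ n % orderOf ((Fintype.card F : ℕ) : ZMod r) →
        ∃ W : Submodule F (Fin n → F), finrank F W = m ∧
          W.map (Matrix.toLin' (x : Matrix (Fin n) (Fin n) F)) ≤ W := by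
      intro b hb hmod
      have hb0 : b ≠ 0 := by
        rintro rfl
        rw [zero_pow hr.ne_zero] at hb
        exact hc0 hb.symm
      rw [← hb] at hTpow
      obtain ⟨h1, h2⟩ := scaled _ r b hb0 hTpow
      obtain ⟨W, hWm, hWinv⟩ := exists_invariant_of_mod _ r hrq hr0 h1 m (by rw [hfin]; omega)
        (by rw [hfin]; exact hmod)
      exact ⟨W, hWm, h2 W hWinv⟩
    rcases hR with ⟨hi_eq, hR1⟩ | ⟨hi2, him, hmod⟩
    · have hdvd := hdvd1 hi_eq
      by_cases hpow : ∃ b : F, b ^ r = c
      · obtain ⟨b, hb⟩ := hpow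
        exact hsplit b hb (by rw [hi_eq, Nat.mod_one, Nat.mod_one])
      · push Not at hpow
        rcases hR1 with hrm | ⟨hv, h2⟩
        · obtain ⟨t, ht⟩ := hrm
          obtain ⟨W, hWinv, -, hWd⟩ := exists_inv_ge_cyclic _ r hr c hpow hTpow ⊥
            (by rw [Submodule.map_bot]) 0 (by rw [finrank_bot, mul_zero]) t (Nat.zero_le _)
            (by rw [hfin, ← ht]; omega)
          exact ⟨W, by rw [hWd, ht], hWinv⟩
        · exact (twisted_false n r hdvd _ c hpow hTpow hdet hv h2 (by omega)).elim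
    · obtain ⟨b, -, hb⟩ := exists_root_of_not_dvd (F := F) r (hndvd hi2) c hc0
      exact hsplit b hb hmod

end Cfsg.Agent.S5949
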