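import Cfsg.Statements.S5950
import Cfsg.Agent.Lib.Helper96.BGUnipIff

set_option autoImplicit false
open scoped MatrixGroups
open Cfsg

namespace Cfsg.Agent.S5950

open Cfsg.Agent.Lib.Helper96.BG Module

/-- Elements of prime order of PSL_n(q) fixing no decomposition `F^n = U ⊕ W` with `dim U = m`. Here `T = PSL_n(F)` for a field `F` with `q = p^f` elements (`n ≥ 2`, `(n, q) ≠ (2, 2), (2, 3)`); an element of `T` of prime order `r` is represented by a matrix `x` of determinant 1 with `x^r` scalar and `x` not scalar; `i` denotes the multiplicative order of `q` modulo `r` (when `r ≠ p`), and `(a)_r` the `r`-part of `a`. Let `n ≥ 3`, `1 ≤ m < n/2`, and let `r` be a prime dividing the number of such decompositions (unordered pairs `{U, W}` of complementary subspaces with `dim U = m`; since `m ≠ n − m` these are the ordered pairs with `dim U = m`). Then every element of `T` of order `r` fixes such a pair (fixes both `U` and `W` for some complementary `U, W` with `dim U = m`) if and only if one of: (i) `r = p > 2` and every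 partition of `n` into parts of size at most `p` contains, as a sub-multiset, a partition of `m`; (ii) `r = p = 2` and `n` is odd or `m` is even; (iii) `r ≠ p`, `i = 1`, and `r ∣ m` or `(q−1)_r ≥ (n)_r` (with `q ≡ 1 (mod 4)` required when `r = 2` and `n` is even); (iv) `r ≠ p`, `2 ≤ i ≤ m` and `n mod i ≥ m mod i`. -/
theorem result {F : Type*} [Field F] [Fintype F] {p : ℕ} [Fact p.Prime] [CharP F p] {q : ℕ} (hq : Fintype.card F = q)
    (n m : ℕ) (hn : 3 ≤ n) (hm : 1 ≤ m) (hmn : 2 * m < n)
    (r : ℕ) [Fact r.Prime]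
    (hrΩ : r ∣ Nat.card {P : Submodule F (Fin n → F) × Submodule F (Fin n → F) // IsCompl P.1 P.2 ∧ Module.finrank F ↥P.1 = m}) :
    (∀ x : Matrix.SpecialLinearGroup (Fin n) F,
      (∃ c : F, ((x ^ r : Matrix.SpecialLinearGroup (Fin n) F) : Matrix (Fin n) (Fin n) F) = c • (1 : Matrix (Fin n) (Fin n) F)) →
      (∀ c : F, (x : Matrix (Fin n) (Fin n) F) ≠ c • (1 : Matrix (Fin n) (Fin n) F)) →
      ∃ U W : Submodule F (Fin n → F), IsCompl U W ∧ Module.finrank F ↥U = m ∧
        U.map (Matrix.toLin' (x : Matrix (Fin n) (Fin n) F)) ≤ U ∧ W.map (Matrix.toLin' (x : Matrix (Fin n) (Fin n) F)) ≤ W) ↔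
    ((r = p ∧ 2 < p ∧ (∀ μ : Multiset ℕ, (∀ a ∈ μ, 0 < a ∧ a ≤ p) → μ.sum = n → ∃ ν : Multiset ℕ, ν ≤ μ ∧ ν.sum = m)) ∨
     (r = p ∧ p = 2 ∧ (Odd n ∨ Even m)) ∨
     (r ≠ p ∧
      ((orderOf (q : ZMod r) = 1 ∧ (r ∣ m ∨ (padicValNat r n ≤ padicValNat r (q - 1) ∧ (r = 2 → Even n → q % 4 = 1)))) ∨
       (2 ≤ orderOf (q : ZMod r) ∧ orderOf (q : ZMod r) ≤ m ∧ m % orderOf (q : ZMod r) ≤ n % orderOf (q : ZMod r))))) := by
  classical
  subst hq
  have hr : r.Prime := Fact.out
  have hfin : finrank F (Fin n → F) = n := Module.finrank_fin_fun F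
  by_cases hrp : r = p
  · subst hrp
    have hU := unip_iff (F := F) (p := r) n m (by omega) (by omega)
    constructor
    · intro hL
      have hP := hU.mp hL
      rcases Nat.lt_or_ge 2 r with h2 | h2
      · exact Or.inl ⟨rfl, h2, hP⟩
      · have hr2 : r = 2 := by
          have := hr.two_le
          omega
        refine Or.inr (Or.inl ⟨rfl, hr2, ?_⟩)
        subst hr2
        exact (part_two n m (by omega)).mp hP
    · rintro (⟨-, -, hP⟩ | ⟨-, hr2, hodd⟩ | ⟨hne, -⟩)
      · exact hU.mpr hP
      · subst hr2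
        exact hU.mpr ((part_two n m (by omega)).mpr hodd)
      · exact absurd rfl hne
  · obtain ⟨hrq, hr0, hi1⟩ := facts (F := F) p r hrp
    obtain ⟨s, hs1, hs2, hs3⟩ := exists_dvd_of_dvd_card_pair (F := F) (V := Fin n → F) m
      (by rw [hfin]; omega) r hr hrq hrΩ
    rw [hfin] at hs1 hs2
    have his : orderOf ((Fintype.card F : ℕ) : ZMod r) ∣ s + 1 :=
      (dvd_pow_sub_one_iff _ r (s + 1) Fintype.card_pos).mp hs3
    have hdvd1 : orderOf ((Fintype.card F : ℕ) : ZMod r) = 1 → r ∣ Fintype.card F - 1 := by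
      intro h
      have h1 := (dvd_pow_sub_one_iff (Fintype.card F) r 1 Fintype.card_pos).mpr (by rw [h])
      rwa [pow_one] at h1
    have hndvd : 2 ≤ orderOf ((Fintype.card F : ℕ) : ZMod r) → ¬ r ∣ Fintype.card F - 1 := by
      intro h2 h
      have h1 : r ∣ Fintype.card F ^ 1 - 1 := by rwa [pow_one]
      have h3 := Nat.le_of_dvd one_pos ((dvd_pow_sub_one_iff _ r 1 Fintype.card_pos).mp h1)
      omega
    constructor
    · intro hL
      refine Or.inr (Or.inr ⟨hrp, ?_⟩)
      rcases Nat.lt_or_ge (orderOf ((Fintype.card F : ℕ) : ZMod r)) 2 with hi2 | hi2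
      · left
        have hi_eq : orderOf ((Fintype.card F : ℕ) : ZMod r) = 1 := by omega
        refine ⟨hi_eq, ?_⟩
        have hdvd := hdvd1 hi_eq
        by_contra hcon
        have hnm : ¬ r ∣ m := fun h => hcon (Or.inl h)
        obtain ⟨x, c, hc, hx⟩ := exists_twisted_sl (F := F) n r hdvd hrq
          (fun h => hcon (Or.inr h)) (by omega)
        have hxns : ∀ z : F, (x : Matrix (Fin n) (Fin n) F) ≠ z • (1 : Matrix (Fin n) (Fin n) F) := by
          intro z hz
          rw [Matrix.SpecialLinearGroup.coe_pow, hz, smul_pow, one_pow] at hx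
          have h2 := congrFun (congrFun hx ⟨0, by omega⟩) ⟨0, by omega⟩
          simp only [Matrix.smul_apply, Matrix.one_apply_eq, smul_eq_mul, mul_one] at h2
          exact hc z h2
        obtain ⟨U, W, -, hUm, hUinv, -⟩ := hL x ⟨c, hx⟩ hxns
        rw [Matrix.SpecialLinearGroup.coe_pow] at hx
        have hTpow := toLin'_pow_eq n r _ c hx
        have := dvd_finrank_of_not_pow _ r hr c hc hTpow U hUinv
        rw [hUm] at this
        exact hnm this
      · right
        have hmod : m % orderOf ((Fintype.card F : ℕ) : ZMod r) ≤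
            n % orderOf ((Fintype.card F : ℕ) : ZMod r) := by
          by_contra hlt
          push Not at hlt
          have hin : orderOf ((Fintype.card F : ℕ) : ZMod r) ≤ n := by
            by_contra h
            push Not at h
            rw [Nat.mod_eq_of_lt h] at hlt
            have := Nat.mod_le m (orderOf ((Fintype.card F : ℕ) : ZMod r))
            omega
          obtain ⟨x, hx1, hxns, hxk⟩ := exists_semisimple_sl (F := F) p n r hi2 hin
          obtain ⟨U, W, -, hUm, hUinv, -⟩ := hL x ⟨1, by rw [hx1, one_smul]⟩ hxns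
          rw [Matrix.SpecialLinearGroup.coe_pow] at hx1
          have hTpow := toLin'_pow_eq n r (x : Matrix (Fin n) (Fin n) F) (1 : F)
            (by rw [hx1, one_smul])
          rw [one_smul] at hTpow
          obtain ⟨t, ht⟩ := orderOf_dvd_sub _ r hrq hTpow U hUinv
          have h2 : finrank F (U ⊓ LinearMap.ker (Matrix.toLin' (x : Matrix (Fin n) (Fin n) F) - 1) :
              Submodule F (Fin n → F)) ≤ n % orderOf ((Fintype.card F : ℕ) : ZMod r) :=
            (Submodule.finrank_mono inf_le_right).trans hxk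
          have h3 : finrank F (U ⊓ LinearMap.ker (Matrix.toLin' (x : Matrix (Fin n) (Fin n) F) - 1) :
              Submodule F (Fin n → F)) ≤ m := by
            rw [← hUm]
            exact Submodule.finrank_mono inf_le_left
          rw [hUm] at ht
          have h5 := Nat.mod_lt n (by omega : orderOf ((Fintype.card F : ℕ) : ZMod r) > 0)
          have h4 : m % orderOf ((Fintype.card F : ℕ) : ZMod r) =
              finrank F (U ⊓ LinearMap.ker (Matrix.toLin' (x : Matrix (Fin n) (Fin n) F) - 1) :
                Submodule F (Fin n → F)) := by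
            have h6 : m = finrank F (U ⊓ LinearMap.ker (Matrix.toLin' (x : Matrix (Fin n) (Fin n) F) - 1) :
                Submodule F (Fin n → F)) + orderOf ((Fintype.card F : ℕ) : ZMod r) * t := by omega
            conv_lhs => rw [h6]
            rw [Nat.add_mul_mod_self_left, Nat.mod_eq_of_lt (by omega)]
          omega
        refine ⟨hi2, ?_, hmod⟩
        by_contra hlt
        push Not at hlt
        obtain ⟨t, ht⟩ := his
        rw [Nat.mod_eq_of_lt hlt] at hmod
        have h1 : orderOf ((Fintype.card F : ℕ) : ZMod r) * t ≤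
            orderOf ((Fintype.card F : ℕ) : ZMod r) * (n / orderOf ((Fintype.card F : ℕ) : ZMod r)) := by
          apply Nat.mul_le_mul_left
          apply (Nat.le_div_iff_mul_le (by omega)).mpr
          rw [mul_comm]
          omega
        have h2 := Nat.div_add_mod n (orderOf ((Fintype.card F : ℕ) : ZMod r))
        omega
    · rintro (⟨h, -⟩ | ⟨h, -⟩ | ⟨-, hR⟩)
      · exact absurd h hrp
      · exact absurd h hrp
      intro x ⟨c, hxc⟩ hxns
      have hc0 : c ≠ 0 := by
        rintro rfl
        have hne : Nonempty (Fin n) := ⟨⟨0, by omega⟩⟩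
        have h1 := congrArg Matrix.det hxc
        rw [Matrix.SpecialLinearGroup.det_coe, zero_smul, Matrix.det_zero] at h1
        exact one_ne_zero h1
      rw [Matrix.SpecialLinearGroup.coe_pow] at hxc
      have hTpow := toLin'_pow_eq n r _ c hxc
      have hdet : LinearMap.det (Matrix.toLin' (x : Matrix (Fin n) (Fin n) F)) = 1 := by
        rw [LinearMap.det_toLin', Matrix.SpecialLinearGroup.det_coe]
      have hsplit : ∀ b : F, b ^ r = c →
          m % orderOf ((Fintype.card F : ℕ) : ZMod r) ≤ n % orderOf ((Fintype.card F : ℕ) : ZMod r) →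
          ∃ U W : Submodule F (Fin n → F), IsCompl U W ∧ finrank F U = m ∧
            U.map (Matrix.toLin' (x : Matrix (Fin n) (Fin n) F)) ≤ U ∧
            W.map (Matrix.toLin' (x : Matrix (Fin n) (Fin n) F)) ≤ W := by
        intro b hb hmod
        have hb0 : b ≠ 0 := by
          rintro rfl
          rw [zero_pow hr.ne_zero] at hb
          exact hc0 hb.symm
        rw [← hb] at hTpow
        obtain ⟨h1, h2⟩ := scaled _ r b hb0 hTpow
        obtain ⟨U, hUm, hUinv⟩ := exists_invariant_of_mod _ r hrq hr0 h1 m (by rw [hfin]; omega)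
          (by rw [hfin]; exact hmod)
        obtain ⟨W, hc, hWinv⟩ := exists_invariant_compl _ (isSemisimple_of_pow_eq_one _ r hr0 h1)
          U hUinv
        exact ⟨U, W, hc, hUm, h2 U hUinv, h2 W hWinv⟩
      rcases hR with ⟨hi_eq, hR1⟩ | ⟨hi2, him, hmod⟩
      · have hdvd := hdvd1 hi_eq
        by_cases hpow : ∃ b : F, b ^ r = c
        · obtain ⟨b, hb⟩ := hpow
          exact hsplit b hb (by rw [hi_eq, Nat.mod_one, Nat.mod_one])
        · push Not at hpow
          rcases hR1 with hrm | ⟨hv, h2⟩
          · obtain ⟨t, ht⟩ := hrm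
            obtain ⟨U, hUinv, -, hUd⟩ := exists_inv_ge_cyclic _ r hr c hpow hTpow ⊥
              (by rw [Submodule.map_bot]) 0 (by rw [finrank_bot, mul_zero]) t (Nat.zero_le _)
              (by rw [hfin, ← ht]; omega)
            obtain ⟨W, hc, hWinv⟩ := exists_invariant_compl _
              (isSemisimple_of_pow_eq_smul _ r hr0 c hc0 hTpow) U hUinv
            exact ⟨U, W, hc, by rw [hUd, ht], hUinv, hWinv⟩
          · exact (twisted_false n r hdvd _ c hpow hTpow hdet hv h2 (by omega)).elim
      · obtain ⟨b, -, hb⟩ := exists_root_of_not_dvd (F := F) r (hndvd hi2) c hc0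
        exact hsplit b hb hmod

end Cfsg.Agent.S5950
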