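import Cfsg.Statements.S5952
import Mathlib

set_option autoImplicit false
open Cfsg

namespace Cfsg.Agent.S5952


theorem exists_sub_of_le {F V : Type*} [Field F] [AddCommGroup V] [Module F V]
    [FiniteDimensional F V] (C : Submodule F V) (x : ℕ) (hx : x ≤ Module.finrank F C) :
    ∃ W₀ : Submodule F V, W₀ ≤ C ∧ Module.finrank F W₀ = x := by
  classical
  have hli : LinearIndependent F (fun i : Fin x => ((Module.finBasis F C) (Fin.castLE hx i) : V)) := by
    have h1 : LinearIndependent F (fun i : Fin x => (Module.finBasis F C) (Fin.castLE hx i)) :=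
      (Module.finBasis F C).linearIndependent.comp _ (Fin.castLE_injective hx)
    exact h1.map' C.subtype (Submodule.ker_subtype C)
  refine ⟨Submodule.span F (Set.range (fun i : Fin x => ((Module.finBasis F C) (Fin.castLE hx i) : V))),
    ?_, ?_⟩
  · rw [Submodule.span_le]
    rintro _ ⟨i, rfl⟩
    exact ((Module.finBasis F C) (Fin.castLE hx i)).2
  · rw [finrank_span_eq_card hli, Fintype.card_fin]

theorem arith (a c s m : ℕ) (ha : 1 ≤ a) (hr : m % a ≤ c) (hmV : m < c + a * s) :
    ∃ x y, x ≤ c ∧ y ≤ s ∧ m = x + a * y := by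
  by_cases hmc : m ≤ c
  · exact ⟨m, 0, hmc, Nat.zero_le _, by simp⟩
  · push Not at hmc
    have h1 := Nat.div_add_mod m a
    have h2 := Nat.div_add_mod (c - m % a) a
    have h3 : m % a < a := Nat.mod_lt _ (by omega)
    have h4 : (c - m % a) % a < a := Nat.mod_lt _ (by omega)
    have hq : (c - m % a) / a < m / a := by
      by_contra hcon
      push Not at hcon
      have := Nat.mul_le_mul_left a hcon
      omega
    have hy : m / a - (c - m % a) / a ≤ s := by
      by_contra hcon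
      push Not at hcon
      have h5 : (c - m % a) / a + s + 1 ≤ m / a := by omega
      have h6 := Nat.mul_le_mul_left a h5
      rw [Nat.mul_add, Nat.mul_add] at h6
      omega
    refine ⟨m % a + a * ((c - m % a) / a), m / a - (c - m % a) / a, by omega, hy, ?_⟩
    rw [Nat.mul_sub]
    have h7 := Nat.mul_le_mul_left a hq.le
    omega


theorem step {F V : Type*} [Field F] [AddCommGroup V] [Module F V] [FiniteDimensional F V]
    (f : V →ₗ[F] V) (W B Uk : Submodule F V) (hWinv : W.map f ≤ W) (hBinv : B.map f ≤ B)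
    (hUinv : Uk.map f ≤ Uk) (hirr : ∀ Y : Submodule F V, Y ≤ Uk → Y.map f ≤ Y → Y = ⊥ ∨ Y = Uk)
    (hdisj : B ⊓ Uk = ⊥) :
    Module.finrank F (W ⊓ (B ⊔ Uk) : Submodule F V) = Module.finrank F (W ⊓ B : Submodule F V) ∨
    Module.finrank F (W ⊓ (B ⊔ Uk) : Submodule F V) =
      Module.finrank F (W ⊓ B : Submodule F V) + Module.finrank F Uk := by
  have hAB : (W ⊓ (B ⊔ Uk)) ⊓ B = W ⊓ B := by
    rw [inf_assoc]
    congr 1
    exact inf_eq_right.mpr le_sup_left
  have h1 := Submodule.finrank_sup_add_finrank_inf_eq (W ⊓ (B ⊔ Uk)) B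
  rw [hAB] at h1
  have hXle : (W ⊓ (B ⊔ Uk)) ⊔ B ≤ B ⊔ Uk := sup_le inf_le_right le_sup_left
  have hmod : (W ⊓ (B ⊔ Uk)) ⊔ B = B ⊔ Uk ⊓ ((W ⊓ (B ⊔ Uk)) ⊔ B) := by
    have h3 := sup_inf_assoc_of_le Uk (le_sup_right : B ≤ (W ⊓ (B ⊔ Uk)) ⊔ B)
    rw [← h3]
    exact (inf_eq_right.mpr hXle).symm
  have hB'inv : (B ⊔ Uk).map f ≤ B ⊔ Uk := by
    rw [Submodule.map_sup]
    exact sup_le_sup hBinv hUinv
  have hXinv : ((W ⊓ (B ⊔ Uk)) ⊔ B).map f ≤ (W ⊓ (B ⊔ Uk)) ⊔ B := by
    rw [Submodule.map_sup]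
    apply sup_le_sup _ hBinv
    exact (Submodule.map_inf_le f).trans (inf_le_inf hWinv hB'inv)
  have hYinv : (Uk ⊓ ((W ⊓ (B ⊔ Uk)) ⊔ B)).map f ≤ Uk ⊓ ((W ⊓ (B ⊔ Uk)) ⊔ B) :=
    (Submodule.map_inf_le f).trans (inf_le_inf hUinv hXinv)
  have hYcases := hirr (Uk ⊓ ((W ⊓ (B ⊔ Uk)) ⊔ B)) inf_le_left hYinv
  have h2 := Submodule.finrank_sup_add_finrank_inf_eq B (Uk ⊓ ((W ⊓ (B ⊔ Uk)) ⊔ B))
  have hBY : B ⊓ (Uk ⊓ ((W ⊓ (B ⊔ Uk)) ⊔ B)) = ⊥ := by
    rw [eq_bot_iff, ← hdisj]
    exact inf_le_inf_left _ inf_le_left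
  rw [hBY, finrank_bot, ← hmod] at h2
  rcases hYcases with hY | hY
  · rw [hY, finrank_bot] at h2
    left
    omega
  · rw [hY] at h2
    right
    omega

/-- Which dimensions of invariant subspaces a semisimple linear map has. Let `V` be a finite-dimensional vector space over a field `F` and `f` an invertible semisimple linear map of `V`. Suppose `V` is the internal direct sum of the fixed space `C_V(f)` (the eigenspace for 1) and subspaces `U_1, …, U_s`, each `f`-invariant of dimension `a ≥ 1` on which `f` acts irreducibly (no `f`-invariant subspaces other than 0 and `U_j`). Let `0 < m < dim V` and `ℓ = m mod a`. Then `f` leaves some `m`-dimensional subspace invariant if and only if `dim C_V(f) ≥ m`, or `a ≤ m` and `dim C_V(f) ≥ ℓ`. -/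
theorem result {F V : Type*} [Field F] [AddCommGroup V] [Module F V]
    [FiniteDimensional F V] (f : V →ₗ[F] V) (hf : Function.Bijective f) (hss : Module.End.IsSemisimple f)
    {s a : ℕ} (ha : 1 ≤ a) (U : Fin s → Submodule F V)
    (hUinv : ∀ j, (U j).map f ≤ U j) (hUdim : ∀ j, Module.finrank F ↥(U j) = a)
    (hUirr : ∀ j, ∀ W : Submodule F V, W ≤ U j → W.map f ≤ W → W = ⊥ ∨ W = U j)
    (hdec : DirectSum.IsInternal (fun o : Option (Fin s) => o.elim (Module.End.eigenspace f 1) U))
    (m : ℕ) (hm : 0 < m) (hmV : m < Module.finrank F V) :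
    (∃ W : Submodule F V, Module.finrank F ↥W = m ∧ W.map f ≤ W) ↔
    (m ≤ Module.finrank F ↥(Module.End.eigenspace f 1) ∨
      (a ≤ m ∧ m % a ≤ Module.finrank F ↥(Module.End.eigenspace f 1))) := by
  classical
  have hT0 : ∀ W₀ : Submodule F V, W₀ ⊔ ⨆ (j : Fin s) (_ : j.val < 0), U j = W₀ := by
    intro W₀
    simp
  have hTsucc : ∀ (W₀ : Submodule F V) (k : ℕ) (hk : k < s),
      W₀ ⊔ ⨆ (j : Fin s) (_ : j.val < k + 1), U j =
      (W₀ ⊔ ⨆ (j : Fin s) (_ : j.val < k), U j) ⊔ U ⟨k, hk⟩ := by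
    intro W₀ k hk
    rw [sup_assoc]
    congr 1
    apply le_antisymm
    · apply iSup₂_le
      intro j hj
      by_cases hjk : j.val < k
      · exact le_sup_of_le_left (le_iSup₂ (f := fun (j : Fin s) (_ : j.val < k) => U j) j hjk)
      · have hjeq : j = ⟨k, hk⟩ := Fin.ext (by simp only; omega)
        rw [hjeq]
        exact le_sup_right
    · apply sup_le
      · apply iSup₂_le
        intro j hj
        exact le_iSup₂ (f := fun (j : Fin s) (_ : j.val < k + 1) => U j) j (by omega)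
      · exact le_iSup₂ (f := fun (j : Fin s) (_ : j.val < k + 1) => U j) ⟨k, hk⟩ (by simp)
  have hind := hdec.submodule_iSupIndep
  have htop := hdec.submodule_iSup_eq_top
  have hTdisj : ∀ W₀ : Submodule F V, W₀ ≤ Module.End.eigenspace f 1 → ∀ (k : ℕ) (hk : k < s),
      (W₀ ⊔ ⨆ (j : Fin s) (_ : j.val < k), U j) ⊓ U ⟨k, hk⟩ = ⊥ := by
    intro W₀ hW₀ k hk
    have h1 := hind (some ⟨k, hk⟩)
    have h2 : (W₀ ⊔ ⨆ (j : Fin s) (_ : j.val < k), U j) ≤
        ⨆ (o : Option (Fin s)) (_ : o ≠ some ⟨k, hk⟩), o.elim (Module.End.eigenspace f 1) U := by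
      apply sup_le
      · exact hW₀.trans (le_iSup₂ (f := fun (o : Option (Fin s)) (_ : o ≠ some ⟨k, hk⟩) =>
          o.elim (Module.End.eigenspace f 1) U) none (by simp))
      · apply iSup₂_le
        intro j hj
        exact le_iSup₂ (f := fun (o : Option (Fin s)) (_ : o ≠ some ⟨k, hk⟩) =>
          o.elim (Module.End.eigenspace f 1) U) (some j) (by
            intro h
            have h3 := Option.some.inj h
            rw [h3] at hj
            simp at hj)
    rw [← disjoint_iff]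
    exact (h1.mono_right h2).symm
  have hCinv : ∀ W₀ : Submodule F V, W₀ ≤ Module.End.eigenspace f 1 → W₀.map f ≤ W₀ := by
    rintro W₀ hW₀ _ ⟨v, hv, rfl⟩
    have h1 : f v = v := by
      have h2 := Module.End.mem_eigenspace_iff.mp (hW₀ hv)
      simpa using h2
    rw [h1]
    exact hv
  have hTinv : ∀ W₀ : Submodule F V, W₀ ≤ Module.End.eigenspace f 1 → ∀ k : ℕ,
      (W₀ ⊔ ⨆ (j : Fin s) (_ : j.val < k), U j).map f ≤ W₀ ⊔ ⨆ (j : Fin s) (_ : j.val < k), U j := by
    intro W₀ hW₀ k
    simp only [Submodule.map_sup, Submodule.map_iSup]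
    apply sup_le_sup (hCinv W₀ hW₀)
    apply iSup₂_mono
    intro j hj
    exact hUinv j
  have hTtop : Module.End.eigenspace f 1 ⊔ ⨆ (j : Fin s) (_ : j.val < s), U j = ⊤ := by
    rw [eq_top_iff, ← htop]
    apply iSup_le
    intro o
    cases o with
    | none => exact le_sup_left
    | some j =>
      exact le_sup_of_le_right (le_iSup₂ (f := fun (j : Fin s) (_ : j.val < s) => U j) j j.2)
  have hTdim : ∀ W₀ : Submodule F V, W₀ ≤ Module.End.eigenspace f 1 → ∀ k : ℕ, k ≤ s →
      Module.finrank F (W₀ ⊔ ⨆ (j : Fin s) (_ : j.val < k), U j : Submodule F V) =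
        Module.finrank F W₀ + a * k := by
    intro W₀ hW₀ k
    induction k with
    | zero =>
      intro _
      rw [hT0]
      simp
    | succ k ih =>
      intro hk
      have hk' : k < s := by omega
      have h1 := Submodule.finrank_sup_add_finrank_inf_eq
        (W₀ ⊔ ⨆ (j : Fin s) (_ : j.val < k), U j) (U ⟨k, hk'⟩)
      rw [hTdisj W₀ hW₀ k hk', finrank_bot, ← hTsucc W₀ k hk', ih (by omega), hUdim] at h1
      rw [Nat.mul_succ]
      omega
  have hVdim : Module.finrank F V = Module.finrank F (Module.End.eigenspace f 1) + a * s := by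
    have h1 := hTdim (Module.End.eigenspace f 1) le_rfl s le_rfl
    rw [hTtop, finrank_top] at h1
    exact h1
  constructor
  · rintro ⟨W, hWm, hWinv⟩
    have key : ∀ k : ℕ, k ≤ s → ∃ y, Module.finrank F
        (W ⊓ (Module.End.eigenspace f 1 ⊔ ⨆ (j : Fin s) (_ : j.val < k), U j) : Submodule F V) =
        Module.finrank F (W ⊓ Module.End.eigenspace f 1 : Submodule F V) + a * y := by
      intro k
      induction k with
      | zero =>
        intro _
        exact ⟨0, by rw [hT0]; simp⟩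
      | succ k ih =>
        intro hk
        have hk' : k < s := by omega
        obtain ⟨y, hy⟩ := ih (by omega)
        have hst := step f W (Module.End.eigenspace f 1 ⊔ ⨆ (j : Fin s) (_ : j.val < k), U j)
          (U ⟨k, hk'⟩) hWinv (hTinv _ le_rfl k) (hUinv _) (hUirr _)
          (hTdisj _ le_rfl k hk')
        rw [← hTsucc _ k hk', hy, hUdim] at hst
        rcases hst with h | h
        · exact ⟨y, h⟩
        · exact ⟨y + 1, by rw [h, Nat.mul_succ]; omega⟩
    obtain ⟨y, hy⟩ := key s le_rfl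
    rw [hTtop, inf_top_eq, hWm] at hy
    have hle : Module.finrank F (W ⊓ Module.End.eigenspace f 1 : Submodule F V) ≤
        Module.finrank F (Module.End.eigenspace f 1) := Submodule.finrank_mono inf_le_right
    rcases Nat.eq_zero_or_pos y with rfl | hypos
    · left
      omega
    · right
      constructor
      · have h1 : a ≤ a * y := Nat.le_mul_of_pos_right a hypos
        omega
      · rw [hy, Nat.add_mul_mod_self_left]
        exact (Nat.mod_le _ _).trans hle
  · intro h
    have hx : ∃ x y, x ≤ Module.finrank F (Module.End.eigenspace f 1) ∧ y ≤ s ∧ m = x + a * y := by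
      rcases h with h | ⟨h1, h2⟩
      · exact ⟨m, 0, h, Nat.zero_le _, by simp⟩
      · exact arith a _ s m ha h2 (by rw [← hVdim]; exact hmV)
    obtain ⟨x, y, hxc, hys, hmxy⟩ := hx
    obtain ⟨W₀, hW₀, hW₀dim⟩ := exists_sub_of_le (Module.End.eigenspace f 1) x hxc
    exact ⟨W₀ ⊔ ⨆ (j : Fin s) (_ : j.val < y), U j, by rw [hTdim W₀ hW₀ y hys, hW₀dim, hmxy],
      hTinv W₀ hW₀ y⟩

end Cfsg.Agent.S5952
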