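import Cfsg.Statements.S5956
import Cfsg.Agent.Lib.Helper96.SpNd
import Cfsg.Agent.Lib.Helper90.SpUnSplit
import Cfsg.Agent.Lib.Helper77.SpFixCnt
import Cfsg.Agent.Lib.Helper78.SpUnIND
import Cfsg.Agent.Lib.Helper86.SpUnSub
import Cfsg.Agent.Lib.Helper1.SpCh2Ex
import Cfsg.Agent.Lib.Helper18.SpCH2OB
import Cfsg.Agent.Lib.Helper6.SpAtype
import Cfsg.Agent.Lib.Helper13.SpR2
import Cfsg.Agent.Lib.Helper14.SpCount2
import Cfsg.Agent.S2582

set_option autoImplicit false
open scoped MatrixGroups
open Cfsg

namespace Cfsg.Agent.S5956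

open Cfsg.Agent.Lib.Helper96.Sp Cfsg.Agent.Lib.Helper96.BG Cfsg.Agent.Lib.Helper18
  Cfsg.Agent.Lib.Helper51.Jordan Module

theorem smul_one_eq_one {F : Type*} [Field F] {V : Type*} [AddCommGroup V] [Module F V]
    [Nontrivial V] (a : F) (h : a • (1 : Module.End F V) = 1) : a = 1 := by
  obtain ⟨v, hv⟩ := exists_ne (0 : V)
  have h1 := LinearMap.congr_fun h v
  rw [LinearMap.smul_apply, Module.End.one_apply] at h1
  have h2 : (a - 1) • v = 0 := by rw [sub_smul, h1, one_smul, sub_self]
  rcases smul_eq_zero.mp h2 with h3 | h3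
  · exact sub_eq_zero.mp h3
  · exact absurd h3 hv

/-- Scaling an isometry with scalar `r`-th power (`r` odd) to one of order `r`. -/
theorem scale_odd {F : Type*} [Field F] {V : Type*} [AddCommGroup V] [Module F V]
    [Nontrivial V] {B : LinearMap.BilinForm F V} (hN : ND B ⊤) (T : Module.End F V)
    (hT : Isom B T) (r : ℕ) (hodd : Odd r) (z : F) (hz : T ^ r = z • (1 : Module.End F V)) :
    z * z = 1 ∧ Isom B (z • T) ∧ (z • T) ^ r = 1 ∧
      ∀ W : Submodule F V, W.map (z • T) ≤ W → W.map T ≤ W := by
  have hpowiso : ∀ k : ℕ, Isom B (T ^ k) := by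
    intro k
    induction k with
    | zero => intro u v; rfl
    | succ k ih =>
      intro u v
      rw [pow_succ]
      exact (ih (T u) (T v)).trans (hT u v)
  have hzz : z * z = 1 := scalar_sq_of_isom hN z (by rw [← hz]; exact hpowiso r)
  refine ⟨hzz, ?_, ?_, ?_⟩
  · intro u v
    simp only [LinearMap.smul_apply, map_smul, smul_eq_mul]
    rw [← mul_assoc, hzz, one_mul]
    exact hT u v
  · rw [smul_pow, hz, smul_smul, pow_eq_self_of_sq z hzz r hodd, hzz, one_smul]
  · rintro W hW _ ⟨w, hw, rfl⟩
    have h1 : (z • T) w ∈ W := hW ⟨w, hw, rfl⟩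
    have h2 : T w = z • (z • T) w := by
      rw [LinearMap.smul_apply, smul_smul, hzz, one_smul]
    rw [h2]
    exact W.smul_mem z h1

/-- Elements of prime order of PSp_n(q) with no fixed nondegenerate `m`-space. Here `T = PSp_n(q)` with `n = 2d ≥ 4`, `(n, q) ≠ (4, 2)`, realised through the symplectic matrices over the field `F` with `q` elements (preserving the standard alternating form); an element of `T` of prime order `r` is such a matrix `x` with `x^r` scalar and `x` not scalar. For `r ≠ p` let `i` be the multiplicative order of `q` modulo `r`, `c = i` for `i` even and `c = 2i` for `i` odd, and write `k = n mod c`, `ℓ = m mod i`, `ℓ' = m mod c`, `n' = ⌊n/i⌋`, `m' = ⌊m/i⌋`, `t = (r−1)/i`. Let `m` be even with `2 ≤ m < n/2` and let `r` be a prime dividing the number of nondegenerate `m`-spaces. Then every element of `T` of order `r` fixes a nondegenerate `m`-space if and only if one of: (i) `r = p > 2` and every partition of `n` into parts of size at most `p` in which every odd part has even multiplicity contains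 (as a sub-multiset) a partition of `m` in which every odd part has even multiplicity; (ii) `r = p = 2` and (`n ≡ 2 (mod 4)` or `m ≡ 0 (mod 4)`); (iii) `r = 2 ≠ p`; (iv) `r ≠ p`, `r > 2`, `c ≤ m` and `k ≥ ℓ'`. -/
theorem result {F : Type*} [Field F] [Fintype F] {p : ℕ} [Fact p.Prime] [CharP F p] {q : ℕ} (hq : Fintype.card F = q)
    (d m : ℕ) (hd : 2 ≤ d) (hT : (d, q) ≠ (2, 2)) (hm : 2 ≤ m) (hme : Even m) (hmd : m < d)
    (r : ℕ) [Fact r.Prime]
    (hrΩ : r ∣ Nat.card {W : Submodule F (Fin d ⊕ Fin d → F) // Module.finrank F ↥W = m ∧ (∀ u ∈ W, u ≠ 0 → ∃ v ∈ W, Cfsg.sympForm d F u v ≠ 0)})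
    (i c : ℕ) (hi : i = orderOf (q : ZMod r)) (hc : c = if Even i then i else 2 * i) :
    (∀ x : ↥(Matrix.symplecticGroup (Fin d) F),
      (∃ z : F, ((x ^ r : ↥(Matrix.symplecticGroup (Fin d) F)) : Matrix (Fin d ⊕ Fin d) (Fin d ⊕ Fin d) F) = z • (1 : Matrix (Fin d ⊕ Fin d) (Fin d ⊕ Fin d) F)) →
      (∀ z : F, (x : Matrix (Fin d ⊕ Fin d) (Fin d ⊕ Fin d) F) ≠ z • (1 : Matrix (Fin d ⊕ Fin d) (Fin d ⊕ Fin d) F)) →
      ∃ W : Submodule F (Fin d ⊕ Fin d → F), Module.finrank F ↥W = m ∧ (∀ u ∈ W, u ≠ 0 → ∃ v ∈ W, Cfsg.sympForm d F u v ≠ 0) ∧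
        W.map (Matrix.toLin' (x : Matrix (Fin d ⊕ Fin d) (Fin d ⊕ Fin d) F)) ≤ W) ↔
    ((r = p ∧ 2 < p ∧ (∀ μ : Multiset ℕ, (∀ a ∈ μ, 0 < a ∧ a ≤ p) → (∀ a : ℕ, Odd a → Even (μ.count a)) → μ.sum = 2 * d →
        ∃ ν : Multiset ℕ, ν ≤ μ ∧ ν.sum = m ∧ ∀ a : ℕ, Odd a → Even (ν.count a))) ∨
     (r = p ∧ p = 2 ∧ ((2 * d) % 4 = 2 ∨ m % 4 = 0)) ∨
     (r = 2 ∧ p ≠ 2) ∨
     (r ≠ p ∧ 2 < r ∧ c ≤ m ∧ m % c ≤ (2 * d) % c)) := by
  classical
  subst hq
  subst hi
  obtain rfl : c = blk (Fintype.card F) r := hc
  have hr : r.Prime := Fact.out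
  have hp : p.Prime := Fact.out
  have hA := sympB_isAlt (F := F) d
  have hN := sympB_nd (F := F) d
  have : Nonempty (Fin d ⊕ Fin d) := ⟨Sum.inl ⟨0, by omega⟩⟩
  have hfinV : finrank F (Fin d ⊕ Fin d → F) = 2 * d := by
    rw [Module.finrank_fintype_fun_eq_card, Fintype.card_sum, Fintype.card_fin]
    ring
  have hmn : m ≤ finrank F (Fin d ⊕ Fin d → F) := by rw [hfinV]; omega
  have hpred : ∀ W : Submodule F (Fin d ⊕ Fin d → F),
      (∀ u ∈ W, u ≠ 0 → ∃ v ∈ W, Cfsg.sympForm d F u v ≠ 0) ↔ ND (sympB d) W := by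
    intro W
    constructor
    · intro h u hu hu'
      by_contra hu0
      obtain ⟨v, hv, hne⟩ := h u hu hu0
      exact hne (by rw [← sympB_eq_sympForm]; exact hu' v hv)
    · intro h u hu hu0
      by_contra hcon
      push Not at hcon
      exact hu0 (h u hu (fun v hv => by rw [sympB_eq_sympForm]; exact hcon v hv))
  -- the statement in terms of isometries
  have hLHS : (∀ x : ↥(Matrix.symplecticGroup (Fin d) F),
      (∃ z : F, ((x ^ r : ↥(Matrix.symplecticGroup (Fin d) F)) : Matrix (Fin d ⊕ Fin d) (Fin d ⊕ Fin d) F) = z • (1 : Matrix (Fin d ⊕ Fin d) (Fin d ⊕ Fin d) F)) →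
      (∀ z : F, (x : Matrix (Fin d ⊕ Fin d) (Fin d ⊕ Fin d) F) ≠ z • (1 : Matrix (Fin d ⊕ Fin d) (Fin d ⊕ Fin d) F)) →
      ∃ W : Submodule F (Fin d ⊕ Fin d → F), Module.finrank F ↥W = m ∧ (∀ u ∈ W, u ≠ 0 → ∃ v ∈ W, Cfsg.sympForm d F u v ≠ 0) ∧
        W.map (Matrix.toLin' (x : Matrix (Fin d ⊕ Fin d) (Fin d ⊕ Fin d) F)) ≤ W) ↔
      (∀ T : Module.End F (Fin d ⊕ Fin d → F), Isom (sympB d) T →
        (∃ z : F, T ^ r = z • (1 : Module.End F (Fin d ⊕ Fin d → F))) →
        (∀ z : F, T ≠ z • (1 : Module.End F (Fin d ⊕ Fin d → F))) →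
        ∃ W : Submodule F (Fin d ⊕ Fin d → F), finrank F ↥W = m ∧ ND (sympB d) W ∧
          W.map T ≤ W) := by
    constructor
    · rintro hL T hT ⟨z, hz⟩ hT1
      have hmem := toMatrix'_mem d T hT
      have hpow : (((⟨LinearMap.toMatrix' T, hmem⟩ : ↥(Matrix.symplecticGroup (Fin d) F)) ^ r :
          ↥(Matrix.symplecticGroup (Fin d) F)) : Matrix (Fin d ⊕ Fin d) (Fin d ⊕ Fin d) F) =
          z • (1 : Matrix (Fin d ⊕ Fin d) (Fin d ⊕ Fin d) F) := by
        rw [SubmonoidClass.coe_pow]
        show (LinearMap.toMatrix' T) ^ r = _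
        rw [← toMatrix'_pow', hz, map_smul, LinearMap.toMatrix'_one]
      obtain ⟨W, h1, h2, h3⟩ := hL ⟨LinearMap.toMatrix' T, hmem⟩ ⟨z, hpow⟩ (by
        intro z' hz'
        apply hT1 z'
        have hz'' : LinearMap.toMatrix' T = z' • (1 : Matrix (Fin d ⊕ Fin d) (Fin d ⊕ Fin d) F) :=
          hz'
        have h2 := congrArg Matrix.toLin' hz''
        rw [Matrix.toLin'_toMatrix', map_smul, Matrix.toLin'_one] at h2
        exact h2)
      refine ⟨W, h1, (hpred W).mp h2, ?_⟩
      have h5 : Matrix.toLin' (LinearMap.toMatrix' T) = T := Matrix.toLin'_toMatrix' T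
      rw [← h5]
      exact h3
    · rintro hL' x ⟨z, hz⟩ hx
      have hT : Isom (sympB d) (Matrix.toLin' (x : Matrix (Fin d ⊕ Fin d) (Fin d ⊕ Fin d) F)) :=
        fun u v => symplectic_isometry d _ x.2 u v
      have hTz : (Matrix.toLin' (x : Matrix (Fin d ⊕ Fin d) (Fin d ⊕ Fin d) F)) ^ r =
          z • (1 : Module.End F (Fin d ⊕ Fin d → F)) := by
        rw [← toLin'_pow', ← SubmonoidClass.coe_pow, hz, map_smul, Matrix.toLin'_one]
        rfl
      obtain ⟨W, h1, h2, h3⟩ := hL' _ hT ⟨z, hTz⟩ (by
        intro z' hz'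
        apply hx z'
        have h2 := congrArg LinearMap.toMatrix' hz'
        rw [LinearMap.toMatrix'_toLin', map_smul] at h2
        rw [h2]
        congr 1
        exact LinearMap.toMatrix'_one)
      exact ⟨W, h1, (hpred W).mpr h2, h3⟩
  refine hLHS.trans ?_
  have hpowiso : ∀ (T : Module.End F (Fin d ⊕ Fin d → F)), Isom (sympB d) T → ∀ k : ℕ,
      Isom (sympB d) (T ^ k) := by
    intro T hT k
    induction k with
    | zero => intro u v; rfl
    | succ k ih =>
      intro u v
      rw [pow_succ]
      exact (ih (T u) (T v)).trans (hT u v)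
  by_cases hrp : r = p
  · subst hrp
    by_cases hp2 : r = 2
    · -- r = p = 2
      subst hp2
      have hzone : ∀ z : F, z * z = 1 → z = 1 := by
        intro z hz
        have h1 : (z + 1) * (z + 1) = 0 := by
          have : (z + 1) * (z + 1) = z * z + 1 + (z + z) := by ring
          rw [this, hz, CharTwo.add_self_eq_zero, CharTwo.add_self_eq_zero, add_zero]
        exact CharTwo.add_eq_zero.mp (mul_self_eq_zero.mp h1)
      have hiff : (∀ T : Module.End F (Fin d ⊕ Fin d → F), Isom (sympB d) T →
          (∃ z : F, T ^ 2 = z • (1 : Module.End F (Fin d ⊕ Fin d → F))) →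
          (∀ z : F, T ≠ z • (1 : Module.End F (Fin d ⊕ Fin d → F))) →
          ∃ W : Submodule F (Fin d ⊕ Fin d → F), finrank F ↥W = m ∧ ND (sympB d) W ∧
            W.map T ≤ W) ↔ ((2 * d) % 4 = 2 ∨ m % 4 = 0) := by
        constructor
        · intro hL'
          by_contra hcon
          push Not at hcon
          obtain ⟨m', hm'⟩ := hme
          have hd4 : (2 * d) % 4 = 0 := by omega
          have hm4 : m % 4 = 2 := by omega
          have hdeven : Even d := ⟨d / 2, by omega⟩
          obtain ⟨A, hAmem, hAsq, hA1, hAat, hAkr⟩ :=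
            Cfsg.Agent.Lib.Helper6.SpAtype.exists_atype_matrix (F := F) d hdeven (by omega)
          have hT : Isom (sympB d) (Matrix.toLin' A) :=
            fun u v => symplectic_isometry d _ hAmem u v
          have hTsq : Matrix.toLin' A * Matrix.toLin' A = 1 := by
            show Matrix.toLin' A ∘ₗ Matrix.toLin' A = LinearMap.id
            rw [← Matrix.toLin'_mul, hAsq, Matrix.toLin'_one]
          obtain ⟨W, h1, h2, h3⟩ := hL' (Matrix.toLin' A) hT ⟨1, by rw [pow_two, hTsq, one_smul]⟩
            (by
              intro z hz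
              have hz1 : z * z = 1 := by
                have h4 := hTsq
                rw [hz, smul_mul_smul_comm, one_mul] at h4
                exact smul_one_eq_one _ h4
              rw [hzone z hz1, one_smul] at hz
              apply hA1
              have h5 : Matrix.toLin' A = Matrix.toLin' 1 := by
                rw [hz, Matrix.toLin'_one]
                rfl
              exact Matrix.toLin'.injective h5)
          have h4 := Cfsg.Agent.Lib.Helper18.SpCH2.four_dvd_of_atype hA hN (Matrix.toLin' A) hT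
            hTsq (by
              intro v
              rw [sympB_eq_sympForm, Matrix.toLin'_apply]
              exact hAat v) hAkr W h3 h2
          rw [h1] at h4
          omega
        · intro h4 T hT ⟨z, hz⟩ hT1
          have hzz : z * z = 1 := scalar_sq_of_isom hN z (by rw [← hz]; exact hpowiso T hT 2)
          rw [hzone z hzz, one_smul, pow_two] at hz
          obtain ⟨W, h1, h2, h3⟩ := Cfsg.Agent.Lib.Helper1.SpCh2.exists_nd_inv_of_invol hA hN T
            hT hz m hme hmn (by rw [hfinV]; exact h4)
          exact ⟨W, h3, h2, h1⟩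
      rw [hiff]
      constructor
      · intro h
        exact Or.inr (Or.inl ⟨rfl, rfl, h⟩)
      · rintro (⟨-, h, -⟩ | ⟨-, -, h⟩ | ⟨-, h⟩ | ⟨h, -⟩)
        · omega
        · exact h
        · exact absurd rfl h
        · exact absurd rfl h
    · -- r = p odd
      have hodd : Odd r := hr.odd_of_ne_two hp2
      have h2F : (2 : F) ≠ 0 := by
        have h1 : ((2 : ℕ) : F) ≠ 0 := by
          rw [Ne, CharP.cast_eq_zero_iff F r]
          intro h
          exact hp2 ((Nat.prime_dvd_prime_iff_eq hr Nat.prime_two).mp h)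
        exact_mod_cast h1
      have hchar : CharP (Module.End F (Fin d ⊕ Fin d → F)) r :=
        charP_of_injective_algebraMap (algebraMap F (Module.End F (Fin d ⊕ Fin d → F))).injective r
      have hiff : (∀ T : Module.End F (Fin d ⊕ Fin d → F), Isom (sympB d) T →
          (∃ z : F, T ^ r = z • (1 : Module.End F (Fin d ⊕ Fin d → F))) →
          (∀ z : F, T ≠ z • (1 : Module.End F (Fin d ⊕ Fin d → F))) →
          ∃ W : Submodule F (Fin d ⊕ Fin d → F), finrank F ↥W = m ∧ ND (sympB d) W ∧
            W.map T ≤ W) ↔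
          (∀ μ : Multiset ℕ, (∀ a ∈ μ, 0 < a ∧ a ≤ r) → (∀ a : ℕ, Odd a → Even (μ.count a)) →
            μ.sum = 2 * d →
            ∃ ν : Multiset ℕ, ν ≤ μ ∧ ν.sum = m ∧ ∀ a : ℕ, Odd a → Even (ν.count a)) := by
        constructor
        · intro hL' μ hμ1 hμpar hμsum
          by_cases hall : ∀ c ∈ μ, c = 1
          · have hμrep : μ = Multiset.replicate μ.card 1 :=
              Multiset.eq_replicate.mpr ⟨rfl, hall⟩
            have hcard : μ.card = 2 * d := by
              rw [← hμsum]
              conv_rhs => rw [hμrep]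
              rw [Multiset.sum_replicate, smul_eq_mul, mul_one]
            refine ⟨Multiset.replicate m 1, ?_, ?_, ?_⟩
            · rw [hμrep, Multiset.replicate_le_replicate]
              omega
            · rw [Multiset.sum_replicate, smul_eq_mul, mul_one]
            · intro a _
              rw [Multiset.count_replicate]
              split_ifs
              · exact hme
              · exact Even.zero
          · push Not at hall
            obtain ⟨c₀, hc₀, hc₀1⟩ := hall
            have hpos : ∀ c ∈ μ, 0 < c := fun c hc => (hμ1 c hc).1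
            obtain ⟨A, hAmem, -, hAk⟩ := Cfsg.Agent.S2582.exists_symp (F := F) μ d hμsum
              (Cfsg.Agent.S2582.spReal_of_cond μ.card μ rfl hpos hμpar)
            have hT : Isom (sympB d) (Matrix.toLin' A) :=
              fun u v => symplectic_isometry d _ hAmem u v
            have hsub : Matrix.toLin' A - 1 = Matrix.toLin' (A - 1) := by
              rw [map_sub, Matrix.toLin'_one]
              rfl
            have hk : ∀ j, kap (Matrix.toLin' A - 1) j = kapM μ j := by
              intro j
              rw [hsub]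
              exact hAk j
            have hNp : (Matrix.toLin' A - 1) ^ r = 0 := by
              apply pow_zero_of_kap
              rw [hk, (kapM_eq_sum_iff μ r).mpr (fun c hc => (hμ1 c hc).2), hμsum, hfinV]
            have hnil : IsNilpotent (Matrix.toLin' A - 1) := ⟨r, hNp⟩
            have hTr : Matrix.toLin' A ^ r = 1 := by
              have h1 := sub_pow_char_of_commute r (Commute.one_right (Matrix.toLin' A))
              rw [hNp, one_pow] at h1
              exact (sub_eq_zero.mp h1.symm)
            obtain ⟨W, h1, h2, h3⟩ := hL' (Matrix.toLin' A) hT ⟨1, by rw [hTr, one_smul]⟩ (by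
              intro z hz
              have hzr : z ^ r = 1 := by
                have h4 := hTr
                rw [hz, smul_pow, one_pow] at h4
                exact smul_one_eq_one _ h4
              have hz1 : z = 1 := by
                have h5 : (z - 1) ^ r = 0 := by
                  rw [sub_pow_char_of_commute r (Commute.one_right z), hzr, one_pow, sub_self]
                exact sub_eq_zero.mp (pow_eq_zero_iff hr.ne_zero |>.mp h5)
              rw [hz1, one_smul] at hz
              have h6 := hk 1
              rw [hz, sub_self, kap_of_pow_zero (0 : Module.End F (Fin d ⊕ Fin d → F)) 1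
                (pow_one 0), hfinV, ← hμsum] at h6
              have h7 := (kapM_eq_sum_iff μ 1).mp h6.symm c₀ hc₀
              have h8 := hpos c₀ hc₀
              omega)
            obtain ⟨ν, hν1, hν2, hν3⟩ := Cfsg.Agent.Lib.Helper86.SpUnSub.exists_subtype_of_nd_inv
              hA hN (Matrix.toLin' A) hT hnil μ hpos hk W h3 h2
            exact ⟨ν, hν1, by rw [hν2, h1], hν3⟩
        · intro hPart T hT ⟨z, hz⟩ hT1
          obtain ⟨hzz, hu, hur, hinv⟩ := scale_odd hN T hT r hodd z hz
          have hNp : (z • T - 1) ^ r = 0 := by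
            rw [sub_pow_char_of_commute r (Commute.one_right (z • T)), hur, one_pow, sub_self]
          have hnil : IsNilpotent (z • T - 1) := ⟨r, hNp⟩
          obtain ⟨μ, hpos, hsum, hk⟩ := exists_type (finrank F (Fin d ⊕ Fin d → F))
            (Fin d ⊕ Fin d → F) (z • T - 1) hnil rfl
          have hle : ∀ a ∈ μ, a ≤ r := by
            apply (kapM_eq_sum_iff μ r).mp
            rw [← hk r, kap_of_pow_zero _ r hNp, hsum]
          have hpar := type_parity hA hN (z • T) ((z • T) ^ (r - 1))
            (by rw [← pow_succ', Nat.sub_add_cancel hr.one_le, hur])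
            (by rw [← pow_succ, Nat.sub_add_cancel hr.one_le, hur]) hu μ hk
          obtain ⟨ν, hν1, hν2, hν3⟩ := hPart μ (fun a ha => ⟨hpos a ha, hle a ha⟩) hpar
            (by rw [hsum, hfinV])
          obtain ⟨W, h1, h2, h3⟩ := Cfsg.Agent.Lib.Helper78.SpUn.exists_nd_inv_of_type hA hN
            (z • T) hu hnil
            (fun Z hZ hZnd hZ0 => Cfsg.Agent.Lib.Helper90.SpUnSplit.exists_piece hA hN h2F (z • T)
              hu hnil Z hZ hZnd hZ0) μ hpos hk hpar ν hν1 hν3
          exact ⟨W, by rw [h3, hν2], h2, hinv W h1⟩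
      rw [hiff]
      constructor
      · intro h
        exact Or.inl ⟨rfl, by have := hr.two_le; omega, h⟩
      · rintro (⟨-, -, h⟩ | ⟨-, h, -⟩ | ⟨h, -⟩ | ⟨h, -⟩)
        · exact h
        · exact absurd h hp2
        · exact absurd h hp2
        · exact absurd rfl h
  · by_cases hr2 : r = 2
    · -- r = 2 ≠ p
      subst hr2
      have h2F : (2 : F) ≠ 0 := by
        have h1 : ((2 : ℕ) : F) ≠ 0 := by
          rw [Ne, CharP.cast_eq_zero_iff F p]
          intro h
          exact hrp ((Nat.prime_dvd_prime_iff_eq hp Nat.prime_two).mp h).symm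
        exact_mod_cast h1
      constructor
      · intro _
        exact Or.inr (Or.inr (Or.inl ⟨rfl, fun h => hrp h.symm⟩))
      · intro _ T hT ⟨z, hz⟩ hT1
        have hzz : z * z = 1 := scalar_sq_of_isom hN z (by rw [← hz]; exact hpowiso T hT 2)
        have hsq : T * T = 1 ∨ T * T = -1 := by
          rw [pow_two] at hz
          rcases mul_self_eq_one_iff.mp hzz with h | h
          · left
            rw [hz, h, one_smul]
          · right
            rw [hz, h]
            exact neg_one_smul F (1 : Module.End F (Fin d ⊕ Fin d → F))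
        obtain ⟨W, h1, h2, h3⟩ := Cfsg.Agent.Lib.Helper13.SpR2.exists_nd_inv_of_sq hA hN h2F T
          hT hsq m hme hmn
        exact ⟨W, h3, h2, h1⟩
    · -- r odd, r ≠ p
      have hodd : Odd r := hr.odd_of_ne_two hr2
      obtain ⟨hrq, hr0, hi1⟩ := facts (F := F) p r hrp
      have hc1 := blk_pos (Fintype.card F) r hi1
      have hiff : (∀ T : Module.End F (Fin d ⊕ Fin d → F), Isom (sympB d) T →
          (∃ z : F, T ^ r = z • (1 : Module.End F (Fin d ⊕ Fin d → F))) →
          (∀ z : F, T ≠ z • (1 : Module.End F (Fin d ⊕ Fin d → F))) →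
          ∃ W : Submodule F (Fin d ⊕ Fin d → F), finrank F ↥W = m ∧ ND (sympB d) W ∧
            W.map T ≤ W) ↔
          (blk (Fintype.card F) r ≤ m ∧ m % blk (Fintype.card F) r ≤ (2 * d) % blk (Fintype.card F) r) := by
        constructor
        · intro hL'
          obtain ⟨m', hm'⟩ := hme
          obtain ⟨W₀, -, hW₀nd, hW₀fin⟩ := exists_nd_sub hA (⊤ : Submodule F (Fin d ⊕ Fin d → F)) hN
            m' (by rw [finrank_top, hfinV]; omega)
          have hW₀m : finrank F W₀ = m := by rw [hW₀fin]; omega
          have hrΩ' : r ∣ Nat.card {W : Submodule F (Fin d ⊕ Fin d → F) //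
              finrank F W = m ∧ ND (sympB d) W} := by
            rw [← Nat.card_congr (Equiv.subtypeEquivRight
              (fun W => and_congr Iff.rfl (hpred W)))]
            exact hrΩ
          obtain ⟨g, hg, hgr, hg1⟩ := Cfsg.Agent.Lib.Helper14.SpCount2.exists_isom_of_dvd_card_nd
            hA hN m W₀ ⟨hW₀m, hW₀nd⟩ r hrΩ'
          obtain ⟨y, hy, hyr, hyk⟩ := exists_max_elt hA hN r hr2 hrq hr0 g hg hgr hg1
          rw [hfinV] at hyk
          have hcn : blk (Fintype.card F) r ≤ 2 * d := by
            have h1 := sp_dvd hA hN g hg r hr2 hrq hr0 hgr ⊤ le_top hN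
            rw [top_inf_eq, finrank_top, hfinV] at h1
            have h2 : finrank F (LinearMap.ker (g - 1)) < finrank F (Fin d ⊕ Fin d → F) := by
              apply Submodule.finrank_lt
              intro h
              apply hg1
              refine LinearMap.ext fun x => ?_
              have h6 : x ∈ LinearMap.ker (g - 1) := by
                rw [h]
                trivial
              rw [LinearMap.mem_ker, LinearMap.sub_apply, sub_eq_zero] at h6
              exact h6
            rw [hfinV] at h2
            have h3 := Nat.le_of_dvd (by omega) h1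
            omega
          have hmod : (2 * d) % blk (Fintype.card F) r < blk (Fintype.card F) r :=
            Nat.mod_lt _ (by omega)
          have hy1 : y ≠ 1 := by
            intro h
            rw [h, sub_self, LinearMap.ker_zero, finrank_top, hfinV] at hyk
            omega
          obtain ⟨W, h1, h2, h3⟩ := hL' y hy ⟨1, by rw [hyr, one_smul]⟩ (by
            intro z hz
            have hzz : z * z = 1 := scalar_sq_of_isom hN z (by rw [← hz]; exact hy)
            have h4 : y ^ r = y := by
              rw [hz, smul_pow, one_pow, pow_eq_self_of_sq z hzz r hodd]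
            exact hy1 (h4.symm.trans hyr))
          have h5 := mod_le_fixed hA hN y hy r hr2 hrq hr0 hyr W h3 h2
          rw [h1] at h5
          have h6 : finrank F ↥(W ⊓ LinearMap.ker (y - 1)) ≤ finrank F (LinearMap.ker (y - 1)) :=
            Submodule.finrank_mono inf_le_right
          refine ⟨?_, by omega⟩
          by_contra hlt
          push Not at hlt
          have h7 := sp_dvd hA hN y hy r hr2 hrq hr0 hyr W h3 h2
          rw [h1] at h7
          have h8 : m - finrank F ↥(W ⊓ LinearMap.ker (y - 1)) = 0 :=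
            Nat.eq_zero_of_dvd_of_lt h7 (by omega)
          have h9 : finrank F ↥(W ⊓ LinearMap.ker (y - 1)) ≤ finrank F W :=
            Submodule.finrank_mono inf_le_left
          rw [h1] at h9
          have hKnd := nd_ker hA hN y hy r hrq hr0 hyr
          refine Cfsg.Agent.Lib.Helper96.Sp.not_dvd_card_nd_of_lt hA hN r hr2 hrq hr0 y hy hyr
            m ⟨m', hm'⟩ hlt (by omega) (by rw [hyk]; exact hmod) ?_ hrΩ'
          rintro ⟨W₁, hW₁⟩ hdiv
          have hA' : ((sympB d).restrict (LinearMap.ker (y - 1))).IsAlt :=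
            fun x => hA (x : Fin d ⊕ Fin d → F)
          have hN' : ND ((sympB d).restrict (LinearMap.ker (y - 1))) ⊤ := by
            intro u _ h
            exact Subtype.ext (hKnd u.1 u.2 (fun v hv => h ⟨v, hv⟩ Submodule.mem_top))
          exact Cfsg.Agent.Lib.Helper14.SpCount2.exists_isom_of_dvd_card_nd
            hA' hN' m W₁ hW₁ r hdiv
        · rintro ⟨hcm, hk2⟩ T hT ⟨z, hz⟩ hT1
          obtain ⟨hzz, hu, hur, hinv⟩ := scale_odd hN T hT r hodd z hz
          have h1 := mod_le_fixed hA hN (z • T) hu r hr2 hrq hr0 hur ⊤ le_top hN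
          rw [top_inf_eq, finrank_top, hfinV] at h1
          obtain ⟨W, h2, h3, h4⟩ := exists_nd_inv_odd hA hN (z • T) hu r hr2 hrq hr0 hur m hme hmn
            (by omega)
          exact ⟨W, h4, h3, hinv W h2⟩
      rw [hiff]
      constructor
      · rintro ⟨h1, h2⟩
        exact Or.inr (Or.inr (Or.inr ⟨hrp, by have := hr.two_le; omega, h1, h2⟩))
      · rintro (⟨h, -⟩ | ⟨h, -⟩ | ⟨h, -⟩ | ⟨-, -, h1, h2⟩)
        · exact absurd h hrp
        · exact absurd h hrp
        · exact absurd h hr2
        · exact ⟨h1, h2⟩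

end Cfsg.Agent.S5956
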