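import Cfsg.Statements.S5957
import Mathlib
import Cfsg.Agent.Lib.Helper98.BlockPack
-- import your own Cfsg.Agent.* helpers here

set_option autoImplicit false
open scoped MatrixGroups
open Cfsg

namespace Cfsg.Agent.S5957

section abstract

variable {F V : Type*} [Field F] [AddCommGroup V] [Module F V]

theorem exists_line_system [FiniteDimensional F V] (X : V →ₗ[F] V) (z : F)
    (hXX : ∀ v, X (X v) = z • v) :
    ∀ (n : ℕ) (E : Submodule F V), Module.finrank F E = n → (∀ v ∈ E, X v ∈ E) →
      ∃ (ι : Type) (_ : Fintype ι) (b : ι → V) (π : ι → ι), Function.Involutive π ∧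
        LinearIndependent F b ∧ Submodule.span F (Set.range b) = E ∧
        ∀ i, X (b i) ∈ Submodule.span F {b (π i)} := by
  intro n
  induction n using Nat.strong_induction_on with
  | _ n ih =>
  intro E hn hinv
  by_cases hall : ∀ v ∈ E, X v ∈ Submodule.span F {v}
  · refine ⟨Fin (Module.finrank F E), inferInstance, fun i => (Module.finBasis F E i : V), id,
      fun _ => rfl, ?_, ?_, ?_⟩
    · exact (Module.finBasis F E).linearIndependent.map' E.subtype (Submodule.ker_subtype E)
    · have h1 : Set.range (fun i => (Module.finBasis F E i : V)) =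
          E.subtype '' Set.range (Module.finBasis F E) := by
        rw [← Set.range_comp]
        rfl
      rw [h1, Submodule.span_image, (Module.finBasis F E).span_eq, Submodule.map_top,
        Submodule.range_subtype]
    · intro i
      exact hall _ (Module.finBasis F E i).2
  · push_neg at hall
    obtain ⟨v, hvE, hv⟩ := hall
    have hv0 : v ≠ 0 := by
      rintro rfl
      exact hv (by simp)
    obtain ⟨φ, hφv, hφX⟩ : ∃ φ : V →ₗ[F] F, φ v = 0 ∧ φ (X v) = 1 := by
      obtain ⟨f, hf1, hf2⟩ := Submodule.exists_dual_map_eq_bot_of_notMem hv inferInstance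
      have hfv : f v = 0 := by
        have h1 : f v ∈ (Submodule.span F {v}).map f :=
          Submodule.mem_map_of_mem (Submodule.mem_span_singleton_self v)
        rw [hf2] at h1
        simpa using h1
      refine ⟨(f (X v))⁻¹ • f, ?_, ?_⟩
      · simp [hfv]
      · simp [hf1]
    obtain ⟨C, hCmem⟩ : ∃ C : Submodule F V, ∀ w, w ∈ C ↔ w ∈ E ∧ φ w = 0 ∧ φ (X w) = 0 := by
      refine ⟨E ⊓ LinearMap.ker φ ⊓ LinearMap.ker (φ.comp X), fun w => ?_⟩
      simp only [Submodule.mem_inf, LinearMap.mem_ker, LinearMap.comp_apply, and_assoc]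
    have hCE : C ≤ E := fun w hw => ((hCmem w).mp hw).1
    have hXvE : X v ∈ E := hinv v hvE
    have hCinv : ∀ w ∈ C, X w ∈ C := by
      intro w hw
      obtain ⟨hwE, h1, h2⟩ := (hCmem w).mp hw
      rw [hCmem]
      refine ⟨hinv w hwE, h2, ?_⟩
      rw [hXX, map_smul, h1, smul_zero]
    have hdec : ∀ w ∈ E, ∃ w' ∈ C, ∃ α β : F, w = w' + α • v + β • X v := by
      intro w hw
      refine ⟨w - φ (X w) • v - φ w • X v, ?_, φ (X w), φ w, by abel⟩
      rw [hCmem]
      refine ⟨E.sub_mem (E.sub_mem hw (E.smul_mem _ hvE)) (E.smul_mem _ hXvE), ?_, ?_⟩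
      · simp only [map_sub, map_smul, smul_eq_mul, hφv, hφX]
        ring
      · simp only [map_sub, map_smul, smul_eq_mul, hXX, hφv, hφX]
        ring
    have hlt : Module.finrank F C < n := by
      rw [← hn]
      apply Submodule.finrank_lt_finrank_of_lt
      refine lt_of_le_of_ne hCE (fun h => ?_)
      have h1 : v ∈ C := h ▸ hvE
      have h2 := ((hCmem v).mp h1).2.2
      rw [hφX] at h2
      exact one_ne_zero h2
    obtain ⟨ι', _, b', π', hπ', hli', hsp', hX'⟩ := ih _ hlt C rfl hCinv
    refine ⟨ι' ⊕ Fin 2, inferInstance, Sum.elim b' ![v, X v], Sum.map π' Fin.rev, ?_, ?_, ?_, ?_⟩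
    · rintro (i | i)
      · simp [hπ' i]
      · simp
    · apply LinearIndependent.sum_type hli'
      · rw [LinearIndependent.pair_iff' hv0]
        intro a ha
        exact hv (Submodule.mem_span_singleton.mpr ⟨a, ha⟩)
      · rw [hsp', Submodule.disjoint_def]
        intro w hwC hw
        rw [Matrix.range_cons_cons_empty] at hw
        obtain ⟨α, β, rfl⟩ := Submodule.mem_span_pair.mp hw
        obtain ⟨_, h1, h2⟩ := (hCmem _).mp hwC
        simp only [map_add, map_smul, smul_eq_mul, hXX, hφv, hφX, mul_zero, mul_one, zero_add,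
          add_zero] at h1 h2
        rw [h1, h2]
        simp
    · rw [Set.Sum.elim_range, Submodule.span_union, hsp', Matrix.range_cons_cons_empty]
      apply le_antisymm
      · refine sup_le hCE (Submodule.span_le.mpr ?_)
        rintro w (rfl | rfl)
        · exact hvE
        · exact hXvE
      · intro w hw
        obtain ⟨w', hw', α, β, rfl⟩ := hdec w hw
        refine Submodule.add_mem _ (Submodule.add_mem _ (Submodule.mem_sup_left hw') ?_) ?_
        · exact Submodule.mem_sup_right (Submodule.smul_mem _ _ (Submodule.subset_span (by simp)))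
        · exact Submodule.mem_sup_right (Submodule.smul_mem _ _ (Submodule.subset_span (by simp)))
    · rintro (i | i)
      · simpa using hX' i
      · fin_cases i
        · show X v ∈ Submodule.span F {X v}
          exact Submodule.mem_span_singleton_self _
        · show X (X v) ∈ Submodule.span F {v}
          rw [hXX]
          exact Submodule.smul_mem _ _ (Submodule.mem_span_singleton_self _)

end abstract

/-- Involutions of PSL_n(q) and imprimitive subgroups. Here `T = PSL_n(F)` for a field `F` with `q = p^f` elements (`n ≥ 2`, `(n, q) ≠ (2, 2), (2, 3)`), `n = a·t` with `t ≥ 2`, and Ω is the set of direct-sum decompositions of `F^n` into `t` subspaces of dimension `a` (unordered; their number is the number of ordered ones divided by `t!`), whose stabilizers are the imprimitive subgroups of type GL_a(q) ≀ S_t (maximal except in some small cases; maximality is not assumed); an element of `T` of prime order `r` (a matrix `x` of determinant 1 with `x^r` scalar, `x` not scalar) fixes a point of Ω when it permutes the summands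 of some such decomposition. If the number of such decompositions is even, then every involution of `T` stabilizes one of them (the action is 2-elusive). -/
theorem result {F : Type*} [Field F] [Fintype F] {p : ℕ} [Fact p.Prime] [CharP F p] {q : ℕ} (hq : Fintype.card F = q)
    (n a t : ℕ) (hn : 2 ≤ n) (hT : (n, q) ≠ (2, 2) ∧ (n, q) ≠ (2, 3)) (hat : n = a * t) (ha : 1 ≤ a) (ht : 2 ≤ t)
    (hΩ : 2 ∣ Nat.card {D : Fin t → Submodule F (Fin n → F) // Cfsg.Geo.IsMDecomposition a D} / Nat.factorial t)
    (x : Matrix.SpecialLinearGroup (Fin n) F)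
    (hx1 : ∃ z : F, ((x ^ 2 : Matrix.SpecialLinearGroup (Fin n) F) : Matrix (Fin n) (Fin n) F) = z • (1 : Matrix (Fin n) (Fin n) F))
    (hx2 : ∀ z : F, (x : Matrix (Fin n) (Fin n) F) ≠ z • (1 : Matrix (Fin n) (Fin n) F)) :
    ∃ D : Fin t → Submodule F (Fin n → F), Cfsg.Geo.IsMDecomposition a D ∧
        ∃ σ : Equiv.Perm (Fin t), ∀ j, (D j).map (Matrix.toLin' (x : Matrix (Fin n) (Fin n) F)) = D (σ j) := by
  classical
  obtain ⟨z, hz⟩ := hx1
  have hxx : (x : Matrix (Fin n) (Fin n) F) * (x : Matrix (Fin n) (Fin n) F)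
      = z • (1 : Matrix (Fin n) (Fin n) F) := by
    rw [← hz, pow_two]
    rfl
  have hz0 : z ≠ 0 := by
    rintro rfl
    have h1 := congrArg Matrix.det hxx
    have : Nonempty (Fin n) := ⟨⟨0, by omega⟩⟩
    rw [Matrix.det_mul, Matrix.SpecialLinearGroup.det_coe, zero_smul, Matrix.det_zero] at h1
    simp at h1
  have hXX : ∀ v, Matrix.toLin' (x : Matrix (Fin n) (Fin n) F)
      (Matrix.toLin' (x : Matrix (Fin n) (Fin n) F) v) = z • v := by
    intro v
    rw [Matrix.toLin'_apply, Matrix.toLin'_apply, Matrix.mulVec_mulVec, hxx, Matrix.smul_mulVec,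
      Matrix.one_mulVec]
  have hinj : Function.Injective (Matrix.toLin' (x : Matrix (Fin n) (Fin n) F)) := by
    intro u v huv
    have h1 := hXX u
    rw [huv, hXX v] at h1
    exact smul_right_injective _ hz0 h1.symm
  obtain ⟨ι, _, b, π, hπ, hli, hsp, hX⟩ := exists_line_system
    (Matrix.toLin' (x : Matrix (Fin n) (Fin n) F)) z hXX _ ⊤ rfl (fun v _ => Submodule.mem_top)
  have hcard : Fintype.card ι = a * t := by
    rw [← finrank_span_eq_card hli, hsp, finrank_top, Module.finrank_fin_fun, hat]
  obtain ⟨g, σ, hfib, heq⟩ := Cfsg.Agent.Lib.Helper98.exists_block_map_fin a t ha (by omega) π hπ hcard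
  have hXg : ∀ k, Matrix.toLin' (x : Matrix (Fin n) (Fin n) F) (b k) ∈
      Submodule.span F (b '' {k' | g k' = σ (g k)}) := by
    intro k
    have hmem : b (π k) ∈ b '' {k' | g k' = σ (g k)} := ⟨π k, heq k, rfl⟩
    exact Submodule.span_mono (Set.singleton_subset_iff.mpr hmem) (hX k)
  obtain ⟨h1, h2, h3, h4⟩ := Cfsg.Agent.Lib.Helper98.decomposition_of_basis b hli hsp g hfib σ
    (Matrix.toLin' (x : Matrix (Fin n) (Fin n) F)) hinj hXg
  exact ⟨fun j => Submodule.span F (b '' {k | g k = j}), ⟨ht, ha, h1, h2, h3⟩, σ, h4⟩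

end Cfsg.Agent.S5957
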