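import Cfsg.Statements.S5958
import Cfsg.Agent.Lib.Helper96.BGDecH

set_option autoImplicit false
open scoped MatrixGroups
open Cfsg

namespace Cfsg.Agent.S5958

open Cfsg.Agent.Lib.Helper96.BG Module

theorem toLin'_pow_one' {F : Type*} [Field F] (n r : ℕ)
    (x : Matrix.SpecialLinearGroup (Fin n) F)
    (hx1 : ((x ^ r : Matrix.SpecialLinearGroup (Fin n) F) : Matrix (Fin n) (Fin n) F) = 1) :
    (Matrix.toLin' (x : Matrix (Fin n) (Fin n) F)) ^ r = 1 := by
  have hxr : (x : Matrix (Fin n) (Fin n) F) ^ r = (1 : F) • (1 : Matrix (Fin n) (Fin n) F) := by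
    rw [← Matrix.SpecialLinearGroup.coe_pow, hx1, one_smul]
  have h := toLin'_pow_eq n r _ 1 hxr
  rwa [one_smul] at h

/-- Elements of odd prime order of PSL_n(q) and imprimitive subgroups. Here `T = PSL_n(F)` for a field `F` with `q = p^f` elements (`n ≥ 2`, `(n, q) ≠ (2, 2), (2, 3)`), `n = a·t` with `t ≥ 2`, and Ω is the set of direct-sum decompositions of `F^n` into `t` subspaces of dimension `a` (unordered; their number is the number of ordered ones divided by `t!`), whose stabilizers are the imprimitive subgroups of type GL_a(q) ≀ S_t (maximal except in some small cases; maximality is not assumed); an element of `T` of prime order `r` (a matrix `x` of determinant 1 with `x^r` scalar, `x` not scalar) fixes a point of Ω when it permutes the summands of some such decomposition. Let `r ≠ p` be an odd prime dividing the number of such decompositions, let `c` be the multiplicative order of `q` modulo `r`, and write `k = n mod c`, `ℓ = a mod c`. Then every element of `T` of order `r` stabilizes such a decomposition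 if and only if either `a = 1`, `c = r − 1 > 1` and `n ≤ k·r`, or `c ≤ a` and `k = t·ℓ`. -/
theorem result {F : Type*} [Field F] [Fintype F] {p : ℕ} [Fact p.Prime] [CharP F p] {q : ℕ} (hq : Fintype.card F = q)
    (n a t : ℕ) (hn : 2 ≤ n) (hT : (n, q) ≠ (2, 2) ∧ (n, q) ≠ (2, 3)) (hat : n = a * t) (ha : 1 ≤ a) (ht : 2 ≤ t)
    (r : ℕ) [Fact r.Prime] (hr2 : r ≠ 2) (hrp : r ≠ p) (hΩ : r ∣ Nat.card {D : Fin t → Submodule F (Fin n → F) // Cfsg.Geo.IsMDecomposition a D} / Nat.factorial t)
    (c : ℕ) (hc : c = orderOf (q : ZMod r)) :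
    (∀ x : Matrix.SpecialLinearGroup (Fin n) F,
      (∃ z : F, ((x ^ r : Matrix.SpecialLinearGroup (Fin n) F) : Matrix (Fin n) (Fin n) F) = z • (1 : Matrix (Fin n) (Fin n) F)) →
      (∀ z : F, (x : Matrix (Fin n) (Fin n) F) ≠ z • (1 : Matrix (Fin n) (Fin n) F)) →
      ∃ D : Fin t → Submodule F (Fin n → F), Cfsg.Geo.IsMDecomposition a D ∧
        ∃ σ : Equiv.Perm (Fin t), ∀ j, (D j).map (Matrix.toLin' (x : Matrix (Fin n) (Fin n) F)) = D (σ j)) ↔
    ((a = 1 ∧ 1 < c ∧ c = r - 1 ∧ n ≤ (n % c) * r) ∨ (c ≤ a ∧ n % c = t * (a % c))) := by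
  classical
  subst hq
  have hr : r.Prime := Fact.out
  have hfin : finrank F (Fin n → F) = n := Module.finrank_fin_fun F
  have hV : finrank F (Fin n → F) = t * a := by rw [hfin, hat, Nat.mul_comm]
  obtain ⟨hrq, hr0, hi1⟩ := facts (F := F) p r hrp
  rw [← hc] at hi1
  -- the order is at most `n`
  have hcn : c ≤ n := by
    have e : {D : Fin t → Submodule F (Fin n → F) // Cfsg.Geo.IsMDecomposition a D} ≃
        {D : Fin t → Submodule F (Fin n → F) // IsDec a D} :=
      Equiv.subtypeEquivRight (fun D => ⟨fun h => ⟨h.finrank_eq, h.indep, h.iSup_eq_top⟩,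
        fun h => ⟨ht, ha, h.1, h.2.1, h.2.2⟩⟩)
    rw [Nat.card_congr e] at hΩ
    have h1 := order_le_of_dvd_count (F := F) (V := Fin n → F) p a t ha hV r hrp hΩ
    rwa [hfin, ← hc] at h1
  constructor
  · -- every element stabilises a decomposition ⟹ the arithmetic condition
    intro hL
    rcases Nat.lt_or_ge c 2 with hc2 | hc2
    · right
      have hc1 : c = 1 := by omega
      rw [hc1]
      refine ⟨ha, ?_⟩
      simp [Nat.mod_one]
    · have hc2' : 2 ≤ orderOf ((Fintype.card F : ℕ) : ZMod r) := by rw [← hc]; exact hc2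
      have hcn' : orderOf ((Fintype.card F : ℕ) : ZMod r) ≤ n := by rw [← hc]; exact hcn
      by_cases hca : c ≤ a
      · right
        refine ⟨hca, ?_⟩
        obtain ⟨x, hx1, hx2, hx3⟩ := exists_semisimple_sl (F := F) p n r hc2' hcn'
        obtain ⟨D, hD, σ, hσ⟩ := hL x ⟨1, by rw [hx1, one_smul]⟩ hx2
        have hTr := toLin'_pow_one' n r x hx1
        rw [← hc] at hx3
        have hmod : n % c < c := Nat.mod_lt _ (by omega)
        have h1 := fixed_ge_of_decomp (Matrix.toLin' (x : Matrix (Fin n) (Fin n) F)) r hrq hTr D a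
          ha hD.finrank_eq hD.indep hD.iSup_eq_top σ hσ (by omega)
        rw [← hc] at h1
        have h2 : t * (a % c) ≤ n % c := le_trans h1 hx3
        have h3 : n % c = (t * (a % c)) % c := by
          rw [hat, Nat.mul_comm a t, Nat.mul_mod_mod]
        rw [h3, Nat.mod_eq_of_lt (by omega)]
      · push Not at hca
        by_cases hspecial : a = 1 ∧ c = r - 1
        · left
          obtain ⟨ha1, hcr⟩ := hspecial
          refine ⟨ha1, by omega, hcr, ?_⟩
          obtain ⟨x, hx1, hx2, hx3⟩ := exists_semisimple_sl (F := F) p n r hc2' hcn'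
          obtain ⟨D, hD, σ, hσ⟩ := hL x ⟨1, by rw [hx1, one_smul]⟩ hx2
          have hTr := toLin'_pow_one' n r x hx1
          rw [← hc] at hx3
          have h1 := frame_bound (Matrix.toLin' (x : Matrix (Fin n) (Fin n) F)) r hrq hr0 hTr D
            (by intro j; rw [hD.finrank_eq, ha1]) hD.indep hD.iSup_eq_top σ hσ hc2'
          have h2 := Nat.mul_le_mul_left r hx3
          have hnt : n = t := by rw [hat, ha1, one_mul]
          rw [Nat.mul_comm]
          omega
        · exfalso
          obtain ⟨x, hx1, hx2, hx3⟩ := exists_one_block_sl (F := F) p n r hc2' hcn'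
          obtain ⟨D, hD, σ, hσ⟩ := hL x ⟨1, by rw [hx1, one_smul]⟩ hx2
          have hTr := toLin'_pow_one' n r x hx1
          have hT1 : Matrix.toLin' (x : Matrix (Fin n) (Fin n) F) ≠ 1 := by
            intro h
            apply hx2 1
            rw [one_smul]
            have h2 : Matrix.toLin' (x : Matrix (Fin n) (Fin n) F) = Matrix.toLin' 1 := by
              rw [h, Matrix.toLin'_one]
              rfl
            exact Matrix.toLin'.injective h2
          have h3 := one_block_of_decomp (Matrix.toLin' (x : Matrix (Fin n) (Fin n) F)) r hrq hTr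
            hT1 D a ha hD.finrank_eq hD.indep hD.iSup_eq_top σ hσ (by rw [← hc]; exact hca) hx3
          rw [← hc] at h3
          exact hspecial h3
  · -- the arithmetic condition ⟹ every element stabilises a decomposition
    rintro hR x ⟨z, hz⟩ hx
    have hTz : (Matrix.toLin' (x : Matrix (Fin n) (Fin n) F)) ^ r =
        z • (1 : Module.End F (Fin n → F)) :=
      toLin'_pow_eq n r (x : Matrix (Fin n) (Fin n) F) z
        (by rw [← hz]; exact (Matrix.SpecialLinearGroup.coe_pow _ r).symm)
    have hz0 : z ≠ 0 := by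
      rintro rfl
      have h1 : ((x ^ r : Matrix.SpecialLinearGroup (Fin n) F) : Matrix (Fin n) (Fin n) F).det = 1 :=
        (x ^ r).det_coe
      have : Nonempty (Fin n) := ⟨⟨0, by omega⟩⟩
      rw [hz, zero_smul, Matrix.det_zero] at h1
      exact zero_ne_one h1
    generalize Matrix.toLin' (x : Matrix (Fin n) (Fin n) F) = T at hTz ⊢
    have hTinj : Function.Injective T := injective_of_pow_eq_smul T r hr.one_le z hz0 hTz
    have hwrap : ∀ D' : Fin t → Submodule F (Fin n → F), (∀ j, finrank F (D' j) = a) →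
        iSupIndep D' → (⨆ j, D' j) = ⊤ →
        (∃ σ : Equiv.Perm (Fin t), ∀ j, (D' j).map T = D' (σ j)) →
        ∃ D : Fin t → Submodule F (Fin n → F), Cfsg.Geo.IsMDecomposition a D ∧
          ∃ σ : Equiv.Perm (Fin t), ∀ j, (D j).map T = D (σ j) :=
      fun D' h1 h2 h3 h4 => ⟨D', ⟨ht, ha, h1, h2, h3⟩, h4⟩
    by_cases hb : ∃ b : F, b ^ r = z
    · obtain ⟨b, hb⟩ := hb
      have hb0 : b ≠ 0 := by
        rintro rfl
        rw [zero_pow hr.ne_zero] at hb
        exact hz0 hb.symm
      rw [← hb] at hTz
      obtain ⟨hT', hinv⟩ := scaled T r b hb0 hTz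
      have hker : n % c ≤ finrank F (LinearMap.ker (b⁻¹ • T - 1)) := by
        have h1 := orderOf_dvd_sub (b⁻¹ • T) r hrq hT' ⊤ le_top
        rw [top_inf_eq, finrank_top, hfin, ← hc] at h1
        have hle : finrank F (LinearMap.ker (b⁻¹ • T - 1)) ≤ n := by
          have h2 := Submodule.finrank_le (LinearMap.ker (b⁻¹ • T - 1))
          rwa [hfin] at h2
        have h3 : finrank F (LinearMap.ker (b⁻¹ • T - 1)) % c = n % c :=
          (Nat.modEq_iff_dvd' hle).mpr h1
        rw [← h3]
        exact Nat.mod_le _ _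
      rcases hR with ⟨ha1, hc1, hcr, hnk⟩ | ⟨hca, hk⟩
      · -- a frame
        obtain ⟨s, hs⟩ := orderOf_dvd_finrank_range (b⁻¹ • T) r hrq hr0 hT'
        rw [← hc] at hs
        have hrk := LinearMap.finrank_range_add_finrank_ker (b⁻¹ • T - 1)
        rw [hfin, hs] at hrk
        have hsk : s ≤ n % c := by
          by_contra hcon
          push Not at hcon
          have h6 : c * (n % c + 1) ≤ c * s := Nat.mul_le_mul_left c hcon
          have h7 : (n % c) * r = c * (n % c) + n % c := by
            have hr' : r = c + 1 := by omega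
            rw [hr']
            ring
          have h8 : c * (n % c + 1) = c * (n % c) + c := by ring
          omega
        obtain ⟨D, h1, h2, h3, σ, h4⟩ := exists_frame_pow_one (b⁻¹ • T) r hrq hr0 hT'
          (by rw [← hc]; exact hcr) s n (by rw [hs, hcr]) (le_trans hsk hker) hfin
        obtain ⟨D', g1, g2, g3, g4⟩ := decomposition_of_family T hTinj D σ a t
          (by rw [Fintype.card_fin, hat, ha1, one_mul]) hV h3 (fun k => by rw [h1 k, ha1])
          (fun k => by
            rw [← h4 k, Submodule.map_smul T (D k) b⁻¹ (inv_ne_zero hb0)])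
        exact hwrap D' g1 g2 g3 g4
      · obtain ⟨D, hD1, hD2, hD3⟩ := exists_decomp_pow_one (b⁻¹ • T) r hrq hr0 hT' a t hV
          (by rw [← hc, ← hk]; exact hker)
        obtain ⟨D', h1, h2, h3, h4⟩ := decomposition_of_family T hTinj D 1 a t
          (Fintype.card_fin t) hV hD3 (fun k => (hD2 k).le) (fun k => hinv (D k) (hD1 k))
        exact hwrap D' h1 h2 h3 h4
    · push Not at hb
      obtain ⟨D', h1, h2, h3, h4⟩ := exists_decomp_twisted T r hr0 z hb hTz a t hV
      exact hwrap D' h1 h2 h3 h4

end Cfsg.Agent.S5958
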