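import Cfsg.Statements.S5959
import Mathlib
import Cfsg.Agent.Lib.Helper98.NilpRank

set_option autoImplicit false
open scoped MatrixGroups
open Cfsg

namespace Cfsg.Agent.S5959

open Cfsg.Agent.Lib.Helper98 Module

theorem pow_mul_sub_one_pow_mem {F V : Type*} [Field F] [AddCommGroup V] [Module F V]
    (X : Module.End F V) (v : V) (W : Submodule F V) (M : ℕ)
    (hW : ∀ i, 1 ≤ i → i ≤ M → (X ^ i) v ∈ W) (m : ℕ) :
    ∀ j, 1 ≤ j → j + m ≤ M → (X ^ j * (X - 1) ^ m) v ∈ W := by
  induction m with
  | zero =>
    intro j hj hjm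
    simpa using hW j hj (by omega)
  | succ m ih =>
    intro j hj hjm
    have hc : Commute X ((X - 1) ^ m) :=
      ((Commute.refl X).sub_right (Commute.one_right X)).pow_right m
    have h1 : X ^ j * (X - 1) ^ (m + 1) = X ^ (j + 1) * (X - 1) ^ m - X ^ j * (X - 1) ^ m := by
      calc X ^ j * (X - 1) ^ (m + 1) = X ^ j * ((X - 1) ^ m * X) - X ^ j * (X - 1) ^ m := by
            rw [pow_succ (X - 1) m, mul_sub, mul_one, mul_sub]
        _ = X ^ j * (X * (X - 1) ^ m) - X ^ j * (X - 1) ^ m := by rw [hc.eq]
        _ = X ^ (j + 1) * (X - 1) ^ m - X ^ j * (X - 1) ^ m := by rw [← mul_assoc, ← pow_succ]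
    rw [h1, LinearMap.sub_apply]
    exact W.sub_mem (ih (j + 1) (by omega) (by omega)) (ih j hj (by omega))

theorem sub_one_pow_apply_mem {F V : Type*} [Field F] [AddCommGroup V] [Module F V]
    (X : Module.End F V) (v : V) (W : Submodule F V) (M : ℕ)
    (hW : ∀ i, 1 ≤ i → i ≤ M → (X ^ i) v ∈ W) (m : ℕ) (hm : m ≤ M) :
    ((X - 1) ^ m) v - ((-1 : F) ^ m) • v ∈ W := by
  induction m with
  | zero => simp
  | succ m ih =>
    have h1 : (X - 1) ^ (m + 1) = X ^ 1 * (X - 1) ^ m - (X - 1) ^ m := by
      rw [pow_succ', pow_one, sub_mul, one_mul]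
    have h2 := pow_mul_sub_one_pow_mem X v W M hW m 1 le_rfl (by omega)
    have h3 := ih (by omega)
    have h4 : ((X - 1) ^ (m + 1)) v - ((-1 : F) ^ (m + 1)) • v =
        (X ^ 1 * (X - 1) ^ m : Module.End F V) v - (((X - 1) ^ m) v - ((-1 : F) ^ m) • v) := by
      rw [h1, LinearMap.sub_apply, pow_succ (-1 : F) m, mul_neg_one, neg_smul]
      abel
    rw [h4]
    exact W.sub_mem h2 h3

/-- Elements of order `p` of PSL_n(q) and imprimitive subgroups: a necessary condition. Here `T = PSL_n(F)` for a field `F` with `q = p^f` elements (`n ≥ 2`, `(n, q) ≠ (2, 2), (2, 3)`), `n = a·t` with `t ≥ 2`, and Ω is the set of direct-sum decompositions of `F^n` into `t` subspaces of dimension `a` (unordered; their number is the number of ordered ones divided by `t!`), whose stabilizers are the imprimitive subgroups of type GL_a(q) ≀ S_t (maximal except in some small cases; maximality is not assumed); an element of `T` of prime order `r` (a matrix `x` of determinant 1 with `x^r` scalar, `x` not scalar) fixes a point of Ω when it permutes the summands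 of some such decomposition. Suppose `p > 2` divides the number of such decompositions. If every element of `T` of order `p` stabilizes such a decomposition, then every partition of `n` into parts of size at most `p` in which the part `p` occurs fewer than `a` times contains (as a sub-multiset) a partition of `a`. -/
theorem result {F : Type*} [Field F] [Fintype F] {p : ℕ} [Fact p.Prime] [CharP F p] {q : ℕ} (hq : Fintype.card F = q)
    (n a t : ℕ) (hn : 2 ≤ n) (hT : (n, q) ≠ (2, 2) ∧ (n, q) ≠ (2, 3)) (hat : n = a * t) (ha : 1 ≤ a) (ht : 2 ≤ t)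
    (hp : 2 < p) (hΩ : p ∣ Nat.card {D : Fin t → Submodule F (Fin n → F) // Cfsg.Geo.IsMDecomposition a D} / Nat.factorial t)
    (h : ∀ x : Matrix.SpecialLinearGroup (Fin n) F,
      (∃ z : F, ((x ^ p : Matrix.SpecialLinearGroup (Fin n) F) : Matrix (Fin n) (Fin n) F) = z • (1 : Matrix (Fin n) (Fin n) F)) →
      (∀ z : F, (x : Matrix (Fin n) (Fin n) F) ≠ z • (1 : Matrix (Fin n) (Fin n) F)) →
      ∃ D : Fin t → Submodule F (Fin n → F), Cfsg.Geo.IsMDecomposition a D ∧
        ∃ σ : Equiv.Perm (Fin t), ∀ j, (D j).map (Matrix.toLin' (x : Matrix (Fin n) (Fin n) F)) = D (σ j)) :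
    (∀ μ : Multiset ℕ, (∀ b ∈ μ, 0 < b ∧ b ≤ p) → μ.sum = n → μ.count p < a → ∃ ν : Multiset ℕ, ν ≤ μ ∧ ν.sum = a) := by
  classical
  intro μ hμ hsum hcount
  have hpp : p.Prime := Fact.out
  obtain ⟨s, b, rfl⟩ : ∃ (s : ℕ) (b : Fin s → ℕ), μ = Finset.univ.val.map b := by
    induction μ using Quotient.inductionOn with
    | _ l =>
      refine ⟨l.length, l.get, ?_⟩
      rw [Fin.univ_val_map, List.ofFn_get]
      rfl
  have hb1 : ∀ i, 0 < b i ∧ b i ≤ p := fun i =>
    hμ (b i) (Multiset.mem_map_of_mem b (Finset.mem_univ_val i))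
  have hsum' : ∑ i, b i = n := hsum
  have hcnt : ∀ k, Multiset.count k (Finset.univ.val.map b) =
      (Finset.univ.filter (fun i => k = b i)).card := fun k => by
    rw [Multiset.count_map]
    rfl
  by_cases hall : ∀ i, b i = 1
  · refine ⟨Multiset.replicate a 1, ?_, by simp⟩
    rw [Multiset.le_iff_count]
    intro k
    rw [Multiset.count_replicate, hcnt]
    split_ifs with hk
    · subst hk
      have h1 : (Finset.univ.filter (fun i => 1 = b i)) = Finset.univ := by
        ext i
        simp [hall i]
      rw [h1, Finset.card_univ, Fintype.card_fin]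
      have h2 : s = n := by
        rw [← hsum']
        simp [hall]
      rw [h2, hat]
      nlinarith
    · exact Nat.zero_le _
  · push Not at hall
    obtain ⟨i₀, hi₀⟩ := hall
    obtain ⟨N, hNp, hNtop⟩ := exists_nilpotent_model F b (fun i => (hb1 i).2) hsum'
    have : Nonempty (Fin n) := ⟨⟨0, by omega⟩⟩
    set M : Matrix (Fin n) (Fin n) F := LinearMap.toMatrix' N with hM
    have hMN : Matrix.toLin' M = N := Matrix.toLin'_toMatrix' N
    have hMp : M ^ p = 0 := by
      apply Matrix.toLin'.injective
      rw [Matrix.toLin'_pow, hMN, hNp, map_zero]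
    have hXp : (1 + M) ^ p = 1 := by
      rw [add_pow_char_of_commute p (Commute.one_left M), hMp, one_pow, add_zero]
    have hdet : (1 + M).det = 1 := by
      have h1 : (1 + M).det ^ p = 1 := by
        rw [← Matrix.det_pow, hXp, Matrix.det_one]
      have h2 : ((1 + M).det - 1) ^ p = 0 := by
        rw [sub_pow_char, h1, one_pow, sub_self]
      exact sub_eq_zero.mp (pow_eq_zero_iff hpp.ne_zero |>.mp h2)
    have hXl : Matrix.toLin' (1 + M) = 1 + N := by
      rw [map_add, hMN, Matrix.toLin'_one]
      rfl
    have hXlp : (1 + N) ^ p = 1 := by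
      rw [← hXl, ← Matrix.toLin'_pow, hXp, Matrix.toLin'_one]
      rfl
    have hN1 : (1 + N) - 1 = N := add_sub_cancel_left 1 N
    let x : Matrix.SpecialLinearGroup (Fin n) F := ⟨1 + M, hdet⟩
    have hx : (x : Matrix (Fin n) (Fin n) F) = 1 + M := rfl
    obtain ⟨D, hD, σ, hσ⟩ := h x ⟨1, by
        rw [Matrix.SpecialLinearGroup.coe_pow, hx, hXp, one_smul]⟩ (by
        intro z hz
        have hz' : 1 + M = z • (1 : Matrix (Fin n) (Fin n) F) := by rw [← hx]; exact hz
        have hM' : M = (z - 1) • (1 : Matrix (Fin n) (Fin n) F) := by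
          rw [sub_smul, one_smul, ← hz']
          abel
        have hz1 : (z - 1) ^ p = 0 := by
          have h1 := hMp
          rw [hM', smul_pow, one_pow] at h1
          have h2 := congrFun (congrFun h1 ⟨0, by omega⟩) ⟨0, by omega⟩
          simpa using h2
        have hz2 : z - 1 = 0 := pow_eq_zero_iff hpp.ne_zero |>.mp hz1
        have hM0 : M = 0 := by rw [hM', hz2, zero_smul]
        have hN0 : N = 0 := by rw [← hMN, hM0, map_zero]
        have h3 := hNtop 1
        rw [topRk_of_pow_eq_zero N ⊤ 1 (by rw [pow_one, hN0])] at h3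
        have h4 : i₀ ∈ Finset.univ.filter (fun i => 1 < b i) := by
          simp only [Finset.mem_filter, Finset.mem_univ, true_and]
          have := (hb1 i₀).1
          omega
        have h5 := Finset.card_pos.mpr ⟨i₀, h4⟩
        omega)
    have hσ' : ∀ j, (D j).map (1 + N) = D (σ j) := fun j => by
      rw [← hXl, ← hx]
      exact hσ j
    by_cases hfix : ∃ j, σ j = j
    · obtain ⟨j, hj⟩ := hfix
      have hU : (D j).map N ≤ D j := by
        rintro _ ⟨u, hu, rfl⟩
        have h1 : (1 + N) u ∈ D (σ j) := by
          rw [← hσ' j]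
          exact Submodule.mem_map_of_mem hu
        rw [hj] at h1
        have h2 : N u = (1 + N) u - u := by simp
        rw [h2]
        exact (D j).sub_mem h1 hu
      have hW1 : (⨆ (j') (_ : j' ≠ j), D j').map (1 + N) ≤ ⨆ (j') (_ : j' ≠ j), D j' := by
        rw [Submodule.map_iSup]
        apply iSup_le
        intro j'
        rw [Submodule.map_iSup]
        apply iSup_le
        intro hj'
        rw [hσ' j']
        have h1 : σ j' ≠ j := fun h1 => hj' (σ.injective (h1.trans hj.symm))
        exact le_biSup D h1
      have hW : (⨆ (j') (_ : j' ≠ j), D j').map N ≤ ⨆ (j') (_ : j' ≠ j), D j' := by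
        rintro _ ⟨u, hu, rfl⟩
        have h1 : (1 + N) u ∈ ⨆ (j') (_ : j' ≠ j), D j' := hW1 (Submodule.mem_map_of_mem hu)
        have h2 : N u = (1 + N) u - u := by simp
        rw [h2]
        exact Submodule.sub_mem _ h1 hu
      have hd : Disjoint (D j) (⨆ (j') (_ : j' ≠ j), D j') := hD.indep j
      have hs : D j ⊔ ⨆ (j') (_ : j' ≠ j), D j' = ⊤ := by
        rw [← iSup_split_single D j]
        exact hD.iSup_eq_top
      obtain ⟨ν, hν1, hν2⟩ := exists_sub_multiset b N p hNp (D j) _ hU hW hd hs hNtop
      exact ⟨ν, hν1, by rw [hν2, hD.finrank_eq j]⟩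
    · exfalso
      push Not at hfix
      let j₀ : Fin t := ⟨0, by omega⟩
      have hDinj : Function.Injective D := hD.indep.injective (fun j hj => by
        have h1 := hD.finrank_eq j
        rw [hj, finrank_bot] at h1
        omega)
      have hpowσ : ∀ i j, (D j).map ((1 + N) ^ i) = D ((σ ^ i) j) := by
        intro i
        induction i with
        | zero =>
          intro j
          rw [pow_zero, pow_zero, Module.End.one_eq_id, Submodule.map_id]
          rfl
        | succ i ih =>
          intro j
          rw [pow_succ, Module.End.mul_eq_comp, Submodule.map_comp, hσ' j, ih (σ j), pow_succ]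
          rfl
      have hper : (σ ^ p) j₀ = j₀ := by
        apply hDinj
        rw [← hpowσ p j₀, hXlp, Module.End.one_eq_id, Submodule.map_id]
      have hmin : Function.minimalPeriod σ j₀ = p := by
        have h1 : Function.IsPeriodicPt σ p j₀ := by
          unfold Function.IsPeriodicPt Function.IsFixedPt
          rw [Equiv.Perm.iterate_eq_pow]
          exact hper
        rcases (Nat.dvd_prime hpp).mp h1.minimalPeriod_dvd with h2 | h2
        · exfalso
          exact hfix j₀ (Function.minimalPeriod_eq_one_iff_isFixedPt.mp h2)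
        · exact h2
      have hne : ∀ i, 1 ≤ i → i ≤ p - 1 → (σ ^ i) j₀ ≠ j₀ := by
        intro i hi1 hi2 hi
        have h1 : Function.IsPeriodicPt σ i j₀ := by
          unfold Function.IsPeriodicPt Function.IsFixedPt
          rw [Equiv.Perm.iterate_eq_pow]
          exact hi
        have h2 := h1.minimalPeriod_dvd
        rw [hmin] at h2
        have h3 := Nat.le_of_dvd (by omega) h2
        omega
      -- injectivity of N^(p-1) on D j₀
      have hinj : ∀ u ∈ D j₀, (N ^ (p - 1)) u = 0 → u = 0 := by
        intro u hu hu0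
        have h1 := sub_one_pow_apply_mem (1 + N) u (⨆ (j') (_ : j' ≠ j₀), D j') (p - 1)
          (fun i hi1 hi2 => by
            have h2 : ((1 + N) ^ i) u ∈ D ((σ ^ i) j₀) := by
              rw [← hpowσ i j₀]
              exact Submodule.mem_map_of_mem hu
            exact (le_biSup D (hne i hi1 hi2)) h2) (p - 1) le_rfl
        rw [hN1, hu0, zero_sub] at h1
        have h2 : u ∈ ⨆ (j') (_ : j' ≠ j₀), D j' := by
          have h3 := Submodule.smul_mem _ (-((-1 : F) ^ (p - 1))) h1
          rw [smul_neg, neg_smul, neg_neg, smul_smul, ← pow_add, ← two_mul, pow_mul] at h3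
          simpa using h3
        have h3 : u ∈ D j₀ ⊓ ⨆ (j') (_ : j' ≠ j₀), D j' := ⟨hu, h2⟩
        rw [(hD.indep j₀).eq_bot] at h3
        simpa using h3
      have hle : a ≤ topRk N ⊤ (p - 1) := by
        unfold topRk
        have h1 : (D j₀).map (N ^ (p - 1)) ≤ LinearMap.ker N ⊓ (⊤ : Submodule F (Fin n → F)).map (N ^ (p - 1)) := by
          rintro _ ⟨u, hu, rfl⟩
          refine ⟨?_, u, trivial, rfl⟩
          show N ((N ^ (p - 1)) u) = 0
          have h2 : N * N ^ (p - 1) = N ^ p := by
            rw [← pow_succ']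
            congr 1
            omega
          rw [← Module.End.mul_apply, h2, hNp]
          rfl
        have h2 : finrank F ↥((D j₀).map (N ^ (p - 1))) = a := by
          rw [← LinearMap.range_domRestrict, LinearMap.finrank_range_of_inj, hD.finrank_eq j₀]
          rw [← LinearMap.ker_eq_bot, LinearMap.ker_eq_bot']
          intro u hu
          apply Subtype.ext
          exact hinj u.1 u.2 hu
        rw [← h2]
        exact Submodule.finrank_mono h1
      rw [hNtop (p - 1)] at hle
      rw [hcnt p] at hcount
      have h6 : (Finset.univ.filter (fun i => p - 1 < b i)) = (Finset.univ.filter (fun i => p = b i)) := by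
        ext i
        simp only [Finset.mem_filter, Finset.mem_univ, true_and]
        have := (hb1 i).2
        omega
      rw [h6] at hle
      omega

end Cfsg.Agent.S5959
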