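import Cfsg.Statements.S5960
import Mathlib
import Cfsg.Agent.Lib.Helper18.Symp
import Cfsg.Agent.Lib.Helper98.BlockPack
-- import your own Cfsg.Agent.* helpers here

set_option autoImplicit false
open scoped MatrixGroups
open Cfsg

namespace Cfsg.Agent.S5960

section abstract

variable {F V : Type*} [Field F] [AddCommGroup V] [Module F V]

theorem alt_swap {B : LinearMap.BilinForm F V} (hB : B.IsAlt) (x y : V) : B x y = - B y x := by
  have h := hB (x + y)
  simp only [map_add, LinearMap.add_apply, hB x, hB y] at h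
  linear_combination h

theorem key_adj (B : LinearMap.BilinForm F V) (X : V →ₗ[F] V)
    (hX : ∀ u v, B (X u) (X v) = B u v) (z : F) (hz : z ≠ 0) (hXX : ∀ v, X (X v) = z • v)
    (w v : V) : B w (X v) = z⁻¹ * B (X w) v := by
  have h1 := hX (X w) v
  rw [hXX, map_smul, LinearMap.smul_apply, smul_eq_mul] at h1
  rw [← h1, ← mul_assoc, inv_mul_cancel₀ hz, one_mul]

theorem span_orth (B : LinearMap.BilinForm F V) {s t : Set V} (h : ∀ x ∈ s, ∀ y ∈ t, B x y = 0) :
    ∀ u ∈ Submodule.span F s, ∀ v ∈ Submodule.span F t, B u v = 0 := by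
  intro u hu v hv
  refine Submodule.span_induction (p := fun u _ => B u v = 0) ?_ ?_ ?_ ?_ hu
  · intro x hx
    refine Submodule.span_induction (p := fun v _ => B x v = 0) ?_ ?_ ?_ ?_ hv
    · exact fun y hy => h x hx y hy
    · exact map_zero _
    · intro a b _ _ ha hb
      rw [map_add, ha, hb, add_zero]
    · intro c a _ ha
      rw [map_smul, ha, smul_zero]
  · rw [map_zero, LinearMap.zero_apply]
  · intro a b _ _ ha hb
    rw [map_add, LinearMap.add_apply, ha, hb, add_zero]
  · intro c a _ ha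
    rw [map_smul, LinearMap.smul_apply, ha, smul_zero]

theorem split_plane [FiniteDimensional F V] (B : LinearMap.BilinForm F V) (hB : B.IsAlt)
    (E : Submodule F V) (hnd : ∀ u ∈ E, (∀ v ∈ E, B u v = 0) → u = 0)
    (e f : V) (heE : e ∈ E) (hfE : f ∈ E) (hef : B e f ≠ 0) :
    ∃ E' : Submodule F V, (∀ u, u ∈ E' ↔ u ∈ E ∧ B e u = 0 ∧ B f u = 0) ∧
      (∀ u ∈ E', (∀ v ∈ E', B u v = 0) → u = 0) ∧
      (∀ w ∈ E, ∃ w' ∈ E', ∃ α β : F, w = w' + α • e + β • f) ∧
      Module.finrank F E' < Module.finrank F E := by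
  have hfe : B f e ≠ 0 := by
    rw [alt_swap hB f e]
    exact neg_ne_zero.mpr hef
  obtain ⟨E', hE'mem⟩ : ∃ E' : Submodule F V, ∀ v, v ∈ E' ↔ v ∈ E ∧ B e v = 0 ∧ B f v = 0 := by
    refine ⟨E ⊓ LinearMap.ker (B e) ⊓ LinearMap.ker (B f), fun v => ?_⟩
    simp only [Submodule.mem_inf, LinearMap.mem_ker, and_assoc]
  have hE'E : E' ≤ E := fun v hv => ((hE'mem v).mp hv).1
  have hdec : ∀ w ∈ E, ∃ w' ∈ E', ∃ a b : F, w = w' + a • e + b • f := by
    intro w hw
    refine ⟨w - (B w f / B e f) • e - (B e w / B e f) • f, ?_, B w f / B e f, B e w / B e f, by abel⟩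
    rw [hE'mem]
    refine ⟨E.sub_mem (E.sub_mem hw (E.smul_mem _ heE)) (E.smul_mem _ hfE), ?_, ?_⟩
    · simp only [map_sub, map_smul, smul_eq_mul, hB e]
      field_simp
      ring
    · simp only [map_sub, map_smul, smul_eq_mul, hB f]
      rw [alt_swap hB f e, alt_swap hB f w]
      field_simp
      ring
  have hperp_e : ∀ u ∈ E', B u e = 0 := by
    intro u hu
    rw [alt_swap hB u e, ((hE'mem u).mp hu).2.1, neg_zero]
  have hperp_f : ∀ u ∈ E', B u f = 0 := by
    intro u hu
    rw [alt_swap hB u f, ((hE'mem u).mp hu).2.2, neg_zero]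
  refine ⟨E', hE'mem, ?_, hdec, ?_⟩
  · intro u hu h
    refine hnd u (hE'E hu) (fun w hw => ?_)
    obtain ⟨w', hw', a, b, rfl⟩ := hdec w hw
    simp only [map_add, map_smul, smul_eq_mul, h w' hw', hperp_e u hu, hperp_f u hu]
    ring
  · apply Submodule.finrank_lt_finrank_of_lt
    refine lt_of_le_of_ne hE'E (fun h => ?_)
    have h1 : e ∈ E' := h ▸ heE
    exact hfe ((hE'mem e).mp h1).2.2

/-- A system of mutually orthogonal nondegenerate planes `⟨e i, f i⟩` spanning `E`, permuted by `X`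
according to the involution `π`. -/
def IsPlaneSystem (B : LinearMap.BilinForm F V) (X : V →ₗ[F] V) (E : Submodule F V) {ι : Type}
    (e f : ι → V) (π : ι → ι) : Prop :=
  Function.Involutive π ∧ (∀ i, e i ∈ E ∧ f i ∈ E) ∧ (∀ i, B (e i) (f i) ≠ 0) ∧
  (∀ i i', i ≠ i' →
    B (e i) (e i') = 0 ∧ B (e i) (f i') = 0 ∧ B (f i) (e i') = 0 ∧ B (f i) (f i') = 0) ∧
  (∀ w ∈ E, w ∈ Submodule.span F (Set.range e ∪ Set.range f)) ∧
  ∀ i, X (e i) ∈ Submodule.span F {e (π i), f (π i)} ∧ X (f i) ∈ Submodule.span F {e (π i), f (π i)}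

theorem IsPlaneSystem.combine {B : LinearMap.BilinForm F V} (hB : B.IsAlt) {X : V →ₗ[F] V}
    {E E₁ E₂ : Submodule F V} {ι₁ ι₂ : Type} {e₁ f₁ : ι₁ → V} {π₁ : ι₁ → ι₁} {e₂ f₂ : ι₂ → V}
    {π₂ : ι₂ → ι₂}
    (h₁ : IsPlaneSystem B X E₁ e₁ f₁ π₁) (h₂ : IsPlaneSystem B X E₂ e₂ f₂ π₂)
    (horth : ∀ u ∈ E₁, ∀ v ∈ E₂, B u v = 0) (hE₁ : E₁ ≤ E) (hE₂ : E₂ ≤ E)
    (hdec : ∀ w ∈ E, ∃ w₁ ∈ E₁, ∃ w₂ ∈ E₂, w = w₁ + w₂) :
    IsPlaneSystem B X E (Sum.elim e₁ e₂) (Sum.elim f₁ f₂) (Sum.map π₁ π₂) := by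
  obtain ⟨hπ₁, hm₁, hn₁, ho₁, hs₁, hx₁⟩ := h₁
  obtain ⟨hπ₂, hm₂, hn₂, ho₂, hs₂, hx₂⟩ := h₂
  refine ⟨?_, ?_, ?_, ?_, ?_, ?_⟩
  · rintro (i | i)
    · simp [hπ₁ i]
    · simp [hπ₂ i]
  · rintro (i | i)
    · exact ⟨hE₁ (hm₁ i).1, hE₁ (hm₁ i).2⟩
    · exact ⟨hE₂ (hm₂ i).1, hE₂ (hm₂ i).2⟩
  · rintro (i | i)
    · exact hn₁ i
    · exact hn₂ i
  · rintro (i | i) (i' | i') hne
    · exact ho₁ i i' (fun h => hne (by rw [h]))
    · exact ⟨horth _ (hm₁ i).1 _ (hm₂ i').1, horth _ (hm₁ i).1 _ (hm₂ i').2,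
        horth _ (hm₁ i).2 _ (hm₂ i').1, horth _ (hm₁ i).2 _ (hm₂ i').2⟩
    · refine ⟨?_, ?_, ?_, ?_⟩
      · show B (e₂ i) (e₁ i') = 0
        rw [alt_swap hB, horth _ (hm₁ i').1 _ (hm₂ i).1, neg_zero]
      · show B (e₂ i) (f₁ i') = 0
        rw [alt_swap hB, horth _ (hm₁ i').2 _ (hm₂ i).1, neg_zero]
      · show B (f₂ i) (e₁ i') = 0
        rw [alt_swap hB, horth _ (hm₁ i').1 _ (hm₂ i).2, neg_zero]
      · show B (f₂ i) (f₁ i') = 0
        rw [alt_swap hB, horth _ (hm₁ i').2 _ (hm₂ i).2, neg_zero]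
    · exact ho₂ i i' (fun h => hne (by rw [h]))
  · intro w hw
    obtain ⟨w₁, hw₁, w₂, hw₂, rfl⟩ := hdec w hw
    rw [Set.Sum.elim_range, Set.Sum.elim_range]
    refine Submodule.add_mem _ (Submodule.span_mono ?_ (hs₁ w₁ hw₁))
      (Submodule.span_mono ?_ (hs₂ w₂ hw₂))
    · rintro y (hy | hy)
      · exact Or.inl (Or.inl hy)
      · exact Or.inr (Or.inl hy)
    · rintro y (hy | hy)
      · exact Or.inl (Or.inr hy)
      · exact Or.inr (Or.inr hy)
  · rintro (i | i)
    · exact hx₁ i
    · exact hx₂ i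

theorem exists_plane_system [FiniteDimensional F V] (B : LinearMap.BilinForm F V) (hB : B.IsAlt)
    (X : V →ₗ[F] V) (hX : ∀ u v, B (X u) (X v) = B u v) (z : F) (hz : z ≠ 0)
    (hXX : ∀ v, X (X v) = z • v) :
    ∀ (n : ℕ) (E : Submodule F V), Module.finrank F E = n → (∀ v ∈ E, X v ∈ E) →
      (∀ u ∈ E, (∀ v ∈ E, B u v = 0) → u = 0) →
      ∃ (ι : Type) (_ : Fintype ι) (e f : ι → V) (π : ι → ι), IsPlaneSystem B X E e f π := by
  intro n
  induction n using Nat.strong_induction_on with
  | _ n ih =>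
  intro E hn hinv hnd
  by_cases hE : E = ⊥
  · subst hE
    refine ⟨PEmpty, inferInstance, PEmpty.elim, PEmpty.elim, id, fun _ => rfl, fun i => i.elim,
      fun i => i.elim, fun i => i.elim, ?_, fun i => i.elim⟩
    intro w hw
    rw [Submodule.mem_bot] at hw
    rw [hw]
    exact Submodule.zero_mem _
  have hpiece : (∃ e ∈ E, ∃ f ∈ E, B e f ≠ 0 ∧ X e ∈ Submodule.span F {e, f} ∧
        X f ∈ Submodule.span F {e, f}) ∨
      (∃ e ∈ E, ∃ f ∈ E, B e f ≠ 0 ∧ B e (X e) = 0 ∧ B e (X f) = 0 ∧ B f (X e) = 0 ∧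
        B f (X f) = 0) := by
    by_cases h1 : ∃ v ∈ E, B v (X v) ≠ 0
    · obtain ⟨v, hvE, hv⟩ := h1
      left
      refine ⟨v, hvE, X v, hinv v hvE, hv, Submodule.subset_span (by simp), ?_⟩
      rw [hXX]
      exact Submodule.smul_mem _ _ (Submodule.subset_span (by simp))
    · push_neg at h1
      by_cases h2 : ∃ v ∈ E, X v ∉ Submodule.span F {v}
      · obtain ⟨v, hvE, hv⟩ := h2
        right
        have hv0 : v ≠ 0 := by
          rintro rfl
          exact hv (by simp)
        have hXv0 : X v ≠ 0 := fun h => hv (by rw [h]; exact Submodule.zero_mem _)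
        obtain ⟨w, hwE, hw1, hw2⟩ : ∃ w ∈ E, B v w ≠ 0 ∧ B (X v) w = 0 := by
          by_contra hcon
          push_neg at hcon
          obtain ⟨w₁, hw₁E, hw₁⟩ : ∃ w₁ ∈ E, B (X v) w₁ ≠ 0 := by
            by_contra h
            push_neg at h
            exact hXv0 (hnd _ (hinv v hvE) h)
          obtain ⟨c, hc⟩ : ∃ c : F, c = B v w₁ / B (X v) w₁ := ⟨_, rfl⟩
          have hkey : ∀ w ∈ E, B v w = c * B (X v) w := by
            intro w hw
            have h3 : B (X v) (w - (B (X v) w / B (X v) w₁) • w₁) = 0 := by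
              simp only [map_sub, map_smul, smul_eq_mul]
              field_simp
              ring
            have h4 : B v (w - (B (X v) w / B (X v) w₁) • w₁) = 0 := by
              by_contra h5
              exact hcon _ (E.sub_mem hw (E.smul_mem _ hw₁E)) h5 h3
            simp only [map_sub, map_smul, smul_eq_mul] at h4
            rw [hc]
            field_simp
            field_simp at h4
            linear_combination h4
          have h6 : v - c • X v = 0 := by
            apply hnd _ (E.sub_mem hvE (E.smul_mem _ (hinv v hvE)))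
            intro w hw
            simp only [map_sub, map_smul, LinearMap.sub_apply, LinearMap.smul_apply, smul_eq_mul]
            rw [hkey w hw]
            ring
          have hc0 : c ≠ 0 := by
            intro hc0
            rw [hc0, zero_smul, sub_zero] at h6
            exact hv0 h6
          apply hv
          rw [Submodule.mem_span_singleton]
          refine ⟨c⁻¹, ?_⟩
          have h8 := congrArg (fun u => c⁻¹ • u) (sub_eq_zero.mp h6)
          simp only [smul_smul, inv_mul_cancel₀ hc0, one_smul] at h8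
          exact h8
        refine ⟨v, hvE, w, hwE, hw1, h1 v hvE, ?_, ?_, h1 w hwE⟩
        · rw [key_adj B X hX z hz hXX, hw2, mul_zero]
        · rw [alt_swap hB, hw2, neg_zero]
      · push_neg at h2
        left
        obtain ⟨e, heE, he0⟩ := Submodule.exists_mem_ne_zero_of_ne_bot hE
        obtain ⟨f, hfE, hef⟩ : ∃ f ∈ E, B e f ≠ 0 := by
          by_contra h
          push_neg at h
          exact he0 (hnd e heE h)
        refine ⟨e, heE, f, hfE, hef, ?_, ?_⟩
        · exact Submodule.span_mono (by simp) (h2 e heE)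
        · exact Submodule.span_mono (by simp) (h2 f hfE)
  rcases hpiece with ⟨e, heE, f, hfE, hef, hXe, hXf⟩ | ⟨e, heE, f, hfE, hef, h11, h12, h21, h22⟩
  · -- one invariant plane
    obtain ⟨E', hE'mem, hnd', hdec, hlt⟩ := split_plane B hB E hnd e f heE hfE hef
    have hinv' : ∀ v ∈ E', X v ∈ E' := by
      intro v hv
      obtain ⟨hvE, hev, hfv⟩ := (hE'mem v).mp hv
      rw [hE'mem]
      refine ⟨hinv v hvE, ?_, ?_⟩
      · rw [key_adj B X hX z hz hXX]
        obtain ⟨a, b, hab⟩ := Submodule.mem_span_pair.mp hXe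
        rw [← hab]
        simp only [map_add, map_smul, LinearMap.add_apply, LinearMap.smul_apply, smul_eq_mul, hev, hfv]
        ring
      · rw [key_adj B X hX z hz hXX]
        obtain ⟨a, b, hab⟩ := Submodule.mem_span_pair.mp hXf
        rw [← hab]
        simp only [map_add, map_smul, LinearMap.add_apply, LinearMap.smul_apply, smul_eq_mul, hev, hfv]
        ring
    obtain ⟨ι', _, e', f', π', hsys'⟩ := ih _ (hn ▸ hlt) E' rfl hinv' hnd'
    have hpieceSys : IsPlaneSystem B X (Submodule.span F {e, f}) (fun _ : Unit => e)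
        (fun _ : Unit => f) id := by
      refine ⟨fun _ => rfl, fun _ => ⟨Submodule.subset_span (by simp),
        Submodule.subset_span (by simp)⟩, fun _ => hef, ?_, ?_, fun _ => ⟨hXe, hXf⟩⟩
      · intro i i' hne
        exact absurd rfl hne
      · intro w hw
        refine Submodule.span_mono ?_ hw
        rintro y (rfl | rfl)
        · exact Or.inl ⟨(), rfl⟩
        · exact Or.inr ⟨(), rfl⟩
    refine ⟨ι' ⊕ Unit, inferInstance, _, _, _, hsys'.combine hB hpieceSys ?_ ?_ ?_ ?_⟩
    · intro u hu v hv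
      obtain ⟨α, β, rfl⟩ := Submodule.mem_span_pair.mp hv
      obtain ⟨_, h1, h2⟩ := (hE'mem u).mp hu
      rw [map_add, map_smul, map_smul, alt_swap hB u e, alt_swap hB u f, h1, h2]
      simp
    · exact fun u hu => ((hE'mem u).mp hu).1
    · refine Submodule.span_le.mpr ?_
      rintro y (rfl | rfl)
      · exact heE
      · exact hfE
    · intro w hw
      obtain ⟨w', hw', α, β, rfl⟩ := hdec w hw
      exact ⟨w', hw', α • e + β • f, Submodule.add_mem _
        (Submodule.smul_mem _ _ (Submodule.subset_span (by simp)))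
        (Submodule.smul_mem _ _ (Submodule.subset_span (by simp))), by abel⟩
  · -- two planes interchanged by X
    have he₂E : X e ∈ E := hinv e heE
    have hf₂E : X f ∈ E := hinv f hfE
    have hef₂ : B (X e) (X f) ≠ 0 := by
      rw [hX]
      exact hef
    obtain ⟨E₁, hE₁mem, hnd₁, hdec₁, hlt₁⟩ := split_plane B hB E hnd e f heE hfE hef
    have he₂E₁ : X e ∈ E₁ := (hE₁mem _).mpr ⟨he₂E, h11, h21⟩
    have hf₂E₁ : X f ∈ E₁ := (hE₁mem _).mpr ⟨hf₂E, h12, h22⟩
    obtain ⟨E', hE'mem, hnd', hdec', hlt'⟩ :=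
      split_plane B hB E₁ hnd₁ (X e) (X f) he₂E₁ hf₂E₁ hef₂
    have hE'full : ∀ u, u ∈ E' →
        u ∈ E ∧ B e u = 0 ∧ B f u = 0 ∧ B (X e) u = 0 ∧ B (X f) u = 0 := by
      intro u hu
      obtain ⟨hu1, a3, a4⟩ := (hE'mem u).mp hu
      obtain ⟨huE, a1, a2⟩ := (hE₁mem u).mp hu1
      exact ⟨huE, a1, a2, a3, a4⟩
    have hinv' : ∀ v ∈ E', X v ∈ E' := by
      intro u hu
      obtain ⟨huE, a1, a2, a3, a4⟩ := hE'full u hu
      rw [hE'mem, hE₁mem]
      refine ⟨⟨hinv u huE, ?_, ?_⟩, ?_, ?_⟩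
      · rw [key_adj B X hX z hz hXX, a3, mul_zero]
      · rw [key_adj B X hX z hz hXX, a4, mul_zero]
      · rw [hX]
        exact a1
      · rw [hX]
        exact a2
    obtain ⟨ι', _, e', f', π', hsys'⟩ := ih _ (by omega) E' rfl hinv' hnd'
    have hpieceSys : IsPlaneSystem B X (Submodule.span F {e, f, X e, X f})
        (fun k : Bool => cond k e (X e)) (fun k : Bool => cond k f (X f)) not := by
      refine ⟨Bool.not_not, ?_, ?_, ?_, ?_, ?_⟩
      · intro k
        cases k
        · exact ⟨Submodule.subset_span (by simp), Submodule.subset_span (by simp)⟩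
        · exact ⟨Submodule.subset_span (by simp), Submodule.subset_span (by simp)⟩
      · intro k
        cases k
        · exact hef₂
        · exact hef
      · intro k k' hne
        cases k <;> cases k'
        · exact absurd rfl hne
        · refine ⟨?_, ?_, ?_, ?_⟩
          · show B (X e) e = 0
            rw [alt_swap hB, h11, neg_zero]
          · show B (X e) f = 0
            rw [alt_swap hB, h21, neg_zero]
          · show B (X f) e = 0
            rw [alt_swap hB, h12, neg_zero]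
          · show B (X f) f = 0
            rw [alt_swap hB, h22, neg_zero]
        · exact ⟨h11, h12, h21, h22⟩
        · exact absurd rfl hne
      · intro w hw
        refine Submodule.span_mono ?_ hw
        rintro y (rfl | rfl | rfl | rfl)
        · exact Or.inl ⟨true, rfl⟩
        · exact Or.inr ⟨true, rfl⟩
        · exact Or.inl ⟨false, rfl⟩
        · exact Or.inr ⟨false, rfl⟩
      · intro k
        cases k
        · constructor
          · show X (X e) ∈ Submodule.span F {e, f}
            rw [hXX]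
            exact Submodule.smul_mem _ _ (Submodule.subset_span (by simp))
          · show X (X f) ∈ Submodule.span F {e, f}
            rw [hXX]
            exact Submodule.smul_mem _ _ (Submodule.subset_span (by simp))
        · constructor
          · show X e ∈ Submodule.span F {X e, X f}
            exact Submodule.subset_span (by simp)
          · show X f ∈ Submodule.span F {X e, X f}
            exact Submodule.subset_span (by simp)
    refine ⟨ι' ⊕ Bool, inferInstance, _, _, _, hsys'.combine hB hpieceSys ?_ ?_ ?_ ?_⟩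
    · intro u hu v hv
      obtain ⟨huE, a1, a2, a3, a4⟩ := hE'full u hu
      refine Submodule.span_induction (p := fun v _ => B u v = 0) ?_ ?_ ?_ ?_ hv
      · rintro y (rfl | rfl | rfl | rfl)
        · rw [alt_swap hB, a1, neg_zero]
        · rw [alt_swap hB, a2, neg_zero]
        · rw [alt_swap hB, a3, neg_zero]
        · rw [alt_swap hB, a4, neg_zero]
      · exact map_zero _
      · intro x y _ _ hx hy
        rw [map_add, hx, hy, add_zero]
      · intro c x _ hx
        rw [map_smul, hx, smul_zero]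
    · exact fun u hu => (hE'full u hu).1
    · refine Submodule.span_le.mpr ?_
      rintro y (rfl | rfl | rfl | rfl)
      · exact heE
      · exact hfE
      · exact he₂E
      · exact hf₂E
    · intro w hw
      obtain ⟨w₁, hw₁, α, β, rfl⟩ := hdec₁ w hw
      obtain ⟨w', hw', α', β', rfl⟩ := hdec' w₁ hw₁
      refine ⟨w', hw', α • e + β • f + α' • X e + β' • X f, ?_, by abel⟩
      refine Submodule.add_mem _ (Submodule.add_mem _ (Submodule.add_mem _ ?_ ?_) ?_) ?_
      · exact Submodule.smul_mem _ _ (Submodule.subset_span (by simp))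
      · exact Submodule.smul_mem _ _ (Submodule.subset_span (by simp))
      · exact Submodule.smul_mem _ _ (Submodule.subset_span (by simp))
      · exact Submodule.smul_mem _ _ (Submodule.subset_span (by simp))

theorem linearIndependent_of_planes {B : LinearMap.BilinForm F V} (hB : B.IsAlt) {ι : Type}
    [Fintype ι] {e f : ι → V} (hn : ∀ i, B (e i) (f i) ≠ 0)
    (ho : ∀ i i', i ≠ i' →
      B (e i) (e i') = 0 ∧ B (e i) (f i') = 0 ∧ B (f i) (e i') = 0 ∧ B (f i) (f i') = 0) :
    LinearIndependent F (Sum.elim e f) := by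
  classical
  rw [Fintype.linearIndependent_iff]
  intro c hc
  rw [Fintype.sum_sum_type] at hc
  simp only [Sum.elim_inl, Sum.elim_inr] at hc
  have h1 : ∀ k, c (Sum.inl k) = 0 := by
    intro k
    have h := congrArg (fun u => B u (f k)) hc
    simp only [map_add, map_sum, map_smul, LinearMap.add_apply, LinearMap.sum_apply,
      LinearMap.smul_apply, smul_eq_mul, map_zero, LinearMap.zero_apply] at h
    have hs1 : ∑ i, c (Sum.inl i) * B (e i) (f k) = c (Sum.inl k) * B (e k) (f k) :=
      Finset.sum_eq_single k (fun i _ hik => by rw [(ho i k hik).2.1, mul_zero])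
        (fun h => absurd (Finset.mem_univ k) h)
    have hs2 : ∑ i, c (Sum.inr i) * B (f i) (f k) = 0 := by
      refine Finset.sum_eq_zero (fun i _ => ?_)
      by_cases hik : i = k
      · subst hik
        rw [hB, mul_zero]
      · rw [(ho i k hik).2.2.2, mul_zero]
    rw [hs1, hs2, add_zero] at h
    exact (mul_eq_zero.mp h).resolve_right (hn k)
  have h2 : ∀ k, c (Sum.inr k) = 0 := by
    intro k
    have h := congrArg (fun u => B u (e k)) hc
    simp only [map_add, map_sum, map_smul, LinearMap.add_apply, LinearMap.sum_apply,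
      LinearMap.smul_apply, smul_eq_mul, map_zero, LinearMap.zero_apply] at h
    have hs1 : ∑ i, c (Sum.inr i) * B (f i) (e k) = c (Sum.inr k) * B (f k) (e k) :=
      Finset.sum_eq_single k (fun i _ hik => by rw [(ho i k hik).2.2.1, mul_zero])
        (fun h => absurd (Finset.mem_univ k) h)
    have hs2 : ∑ i, c (Sum.inl i) * B (e i) (e k) = 0 := by
      refine Finset.sum_eq_zero (fun i _ => ?_)
      by_cases hik : i = k
      · subst hik
        rw [hB, mul_zero]
      · rw [(ho i k hik).1, mul_zero]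
    rw [hs1, hs2, zero_add] at h
    have hfe : B (f k) (e k) ≠ 0 := by
      rw [alt_swap hB]
      exact neg_ne_zero.mpr (hn k)
    exact (mul_eq_zero.mp h).resolve_right hfe
  rintro (k | k)
  · exact h1 k
  · exact h2 k

end abstract

/-- Involutions of PSp_n(q) and imprimitive subgroups. Here `T = PSp_n(q)`, `n = 2d ≥ 4`, `(n, q) ≠ (4, 2)`, realised through the symplectic matrices over the field `F` with `q` elements and the standard alternating form; `n = a·t` with `a` even and `t ≥ 2`, and Ω is the (nonempty) set of orthogonal decompositions of `F^n` into `t` nondegenerate subspaces of dimension `a` (unordered; counted as ordered ones divided by `t!`), whose stabilizers are the imprimitive subgroups of type Sp_a(q) ≀ S_t (maximality is not assumed); an element of `T` of prime order `r` (a symplectic matrix `x` with `x^r` scalar, `x` not scalar) fixes a point of Ω when it permutes the summands of some such decomposition. If the number of such decompositions is even,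 then every involution of `T` stabilizes one of them (the action is 2-elusive). -/
theorem result {F : Type*} [Field F] [Fintype F] {p : ℕ} [Fact p.Prime] [CharP F p] {q : ℕ} (hq : Fintype.card F = q)
    (d : ℕ) (hd : 2 ≤ d) (hT : (d, q) ≠ (2, 2))
    (a t : ℕ) (hat : 2 * d = a * t) (ha : 2 ≤ a) (hae : Even a) (ht : 2 ≤ t) (hΩ : 2 ∣ Nat.card {D : Fin t → Submodule F (Fin d ⊕ Fin d → F) // (Cfsg.Geo.IsMDecomposition a D ∧ (∀ j, ∀ u ∈ D j, u ≠ 0 → ∃ v ∈ D j, Cfsg.sympForm d F u v ≠ 0) ∧
          (∀ j j', j ≠ j' → ∀ u ∈ D j, ∀ v ∈ D j', Cfsg.sympForm d F u v = 0))} / Nat.factorial t)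
    (x : ↥(Matrix.symplecticGroup (Fin d) F))
    (hx1 : ∃ z : F, ((x ^ 2 : ↥(Matrix.symplecticGroup (Fin d) F)) : Matrix (Fin d ⊕ Fin d) (Fin d ⊕ Fin d) F) = z • (1 : Matrix (Fin d ⊕ Fin d) (Fin d ⊕ Fin d) F))
    (hx2 : ∀ z : F, (x : Matrix (Fin d ⊕ Fin d) (Fin d ⊕ Fin d) F) ≠ z • (1 : Matrix (Fin d ⊕ Fin d) (Fin d ⊕ Fin d) F)) :
    ∃ D : Fin t → Submodule F (Fin d ⊕ Fin d → F), (Cfsg.Geo.IsMDecomposition a D ∧ (∀ j, ∀ u ∈ D j, u ≠ 0 → ∃ v ∈ D j, Cfsg.sympForm d F u v ≠ 0) ∧
          (∀ j j', j ≠ j' → ∀ u ∈ D j, ∀ v ∈ D j', Cfsg.sympForm d F u v = 0)) ∧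
        ∃ σ : Equiv.Perm (Fin t), ∀ j, (D j).map (Matrix.toLin' (x : Matrix (Fin d ⊕ Fin d) (Fin d ⊕ Fin d) F)) = D (σ j) := by
  classical
  obtain ⟨z, hz⟩ := hx1
  have hB : (Cfsg.Agent.Lib.Helper18.sympB (F := F) d).IsAlt := Cfsg.Agent.Lib.Helper18.sympB_isAlt d
  have hnd : ∀ u, (∀ v, Cfsg.Agent.Lib.Helper18.sympB (F := F) d u v = 0) → u = 0 :=
    (Cfsg.Agent.Lib.Helper18.sympB_nondegenerate (F := F) d).1
  have hX : ∀ u v, Cfsg.Agent.Lib.Helper18.sympB (F := F) d
      (Matrix.toLin' (x : Matrix (Fin d ⊕ Fin d) (Fin d ⊕ Fin d) F) u)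
      (Matrix.toLin' (x : Matrix (Fin d ⊕ Fin d) (Fin d ⊕ Fin d) F) v) =
      Cfsg.Agent.Lib.Helper18.sympB (F := F) d u v :=
    fun u v => Cfsg.Agent.Lib.Helper18.symplectic_isometry d _ x.2 u v
  have hxx : (x : Matrix (Fin d ⊕ Fin d) (Fin d ⊕ Fin d) F) * (x : Matrix (Fin d ⊕ Fin d) (Fin d ⊕ Fin d) F)
      = z • (1 : Matrix (Fin d ⊕ Fin d) (Fin d ⊕ Fin d) F) := by
    rw [← hz, pow_two]
    rfl
  have hXX : ∀ v, Matrix.toLin' (x : Matrix (Fin d ⊕ Fin d) (Fin d ⊕ Fin d) F)
      (Matrix.toLin' (x : Matrix (Fin d ⊕ Fin d) (Fin d ⊕ Fin d) F) v) = z • v := by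
    intro v
    rw [Matrix.toLin'_apply, Matrix.toLin'_apply, Matrix.mulVec_mulVec, hxx, Matrix.smul_mulVec,
      Matrix.one_mulVec]
  have hz0 : z ≠ 0 := by
    rintro rfl
    have hex : ∃ u v, Cfsg.Agent.Lib.Helper18.sympB (F := F) d u v ≠ 0 := by
      by_contra h
      push_neg at h
      have h1 := hnd (fun _ => 1) (fun v => h _ v)
      have h3 := congrFun h1 (Sum.inl ⟨0, by omega⟩)
      simp at h3
    obtain ⟨u, v, huv⟩ := hex
    have h1 := hX (Matrix.toLin' (x : Matrix (Fin d ⊕ Fin d) (Fin d ⊕ Fin d) F) u)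
      (Matrix.toLin' (x : Matrix (Fin d ⊕ Fin d) (Fin d ⊕ Fin d) F) v)
    rw [hXX, hXX, hX] at h1
    simp only [zero_smul, map_zero, LinearMap.zero_apply] at h1
    exact huv h1.symm
  have hinj : Function.Injective (Matrix.toLin' (x : Matrix (Fin d ⊕ Fin d) (Fin d ⊕ Fin d) F)) := by
    intro u v huv
    have h1 := hXX u
    rw [huv, hXX v] at h1
    exact smul_right_injective _ hz0 h1.symm
  obtain ⟨ι, _, e, f, π, hπ, hm, hn, ho, hs, hx⟩ := exists_plane_system _ hB _ hX z hz0 hXX _ ⊤ rfl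
    (fun v _ => Submodule.mem_top) (fun u _ h => hnd u (fun v => h v Submodule.mem_top))
  have hli : LinearIndependent F (Sum.elim e f) := linearIndependent_of_planes hB hn ho
  have hsp : Submodule.span F (Set.range (Sum.elim e f)) = ⊤ := by
    rw [eq_top_iff]
    intro w _
    rw [Set.Sum.elim_range]
    exact hs w Submodule.mem_top
  have hcard2 : Fintype.card ι + Fintype.card ι = 2 * d := by
    have h1 := finrank_span_eq_card hli
    rw [hsp, finrank_top, Module.finrank_fintype_fun_eq_card, Fintype.card_sum, Fintype.card_sum,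
      Fintype.card_fin] at h1
    omega
  obtain ⟨a', ha'⟩ := hae
  have hcard : Fintype.card ι = a' * t := by
    rw [ha', Nat.add_mul] at hat
    omega
  obtain ⟨g, σ, hfib, heq⟩ := Cfsg.Agent.Lib.Helper98.exists_block_map_fin a' t (by omega) (by omega)
    π hπ hcard
  have hfib2 : ∀ j, Set.ncard {k : ι ⊕ ι | g (Sum.elim id id k) = j} = a := by
    intro j
    have h1 : {k : ι ⊕ ι | g (Sum.elim id id k) = j} =
        Sum.inl '' {i | g i = j} ∪ Sum.inr '' {i | g i = j} := by
      ext k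
      rcases k with i | i <;> simp
    rw [h1, Set.ncard_union_eq, Set.ncard_image_of_injective _ Sum.inl_injective,
      Set.ncard_image_of_injective _ Sum.inr_injective, hfib j, ha']
    rw [Set.disjoint_left]
    rintro _ ⟨i, _, rfl⟩ ⟨i', _, h'⟩
    exact Sum.inr_ne_inl h'
  have hXh : ∀ k, Matrix.toLin' (x : Matrix (Fin d ⊕ Fin d) (Fin d ⊕ Fin d) F) (Sum.elim e f k) ∈
      Submodule.span F (Sum.elim e f '' {k' | g (Sum.elim id id k') = σ (g (Sum.elim id id k))}) := by
    rintro (i | i)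
    · refine Submodule.span_mono ?_ (hx i).1
      rintro y (rfl | rfl)
      · exact ⟨Sum.inl (π i), heq i, rfl⟩
      · exact ⟨Sum.inr (π i), heq i, rfl⟩
    · refine Submodule.span_mono ?_ (hx i).2
      rintro y (rfl | rfl)
      · exact ⟨Sum.inl (π i), heq i, rfl⟩
      · exact ⟨Sum.inr (π i), heq i, rfl⟩
  obtain ⟨d1, d2, d3, d4⟩ := Cfsg.Agent.Lib.Helper98.decomposition_of_basis (Sum.elim e f) hli hsp
    (fun k => g (Sum.elim id id k)) hfib2 σ _ hinj hXh
  have horthD : ∀ j j', j ≠ j' →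
      ∀ u ∈ Submodule.span F (Sum.elim e f '' {k | g (Sum.elim id id k) = j}),
      ∀ v ∈ Submodule.span F (Sum.elim e f '' {k | g (Sum.elim id id k) = j'}),
      Cfsg.Agent.Lib.Helper18.sympB (F := F) d u v = 0 := by
    intro j j' hjj'
    apply span_orth
    rintro _ ⟨k, hk, rfl⟩ _ ⟨k', hk', rfl⟩
    rcases k with i | i <;> rcases k' with i' | i'
    · have hne : i ≠ i' := by
        rintro rfl
        exact hjj' (hk.symm.trans hk')
      exact (ho i i' hne).1
    · have hne : i ≠ i' := by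
        rintro rfl
        exact hjj' (hk.symm.trans hk')
      exact (ho i i' hne).2.1
    · have hne : i ≠ i' := by
        rintro rfl
        exact hjj' (hk.symm.trans hk')
      exact (ho i i' hne).2.2.1
    · have hne : i ≠ i' := by
        rintro rfl
        exact hjj' (hk.symm.trans hk')
      exact (ho i i' hne).2.2.2
  refine ⟨fun j => Submodule.span F (Sum.elim e f '' {k | g (Sum.elim id id k) = j}),
    ⟨⟨ht, by omega, d1, d2, d3⟩, ?_, ?_⟩, σ, d4⟩
  · intro j u hu hu0
    obtain ⟨w, hw⟩ : ∃ w, Cfsg.Agent.Lib.Helper18.sympB (F := F) d u w ≠ 0 := by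
      by_contra h
      push_neg at h
      exact hu0 (hnd u h)
    have hwtop : w ∈ ⨆ j, Submodule.span F (Sum.elim e f '' {k | g (Sum.elim id id k) = j}) := by
      rw [d3]
      exact Submodule.mem_top
    rw [iSup_split_single _ j] at hwtop
    obtain ⟨w₁, hw₁, w₂, hw₂, rfl⟩ := Submodule.mem_sup.mp hwtop
    have h0 : Cfsg.Agent.Lib.Helper18.sympB (F := F) d u w₂ = 0 := by
      have hle : (⨆ (j') (_ : j' ≠ j),
          Submodule.span F (Sum.elim e f '' {k | g (Sum.elim id id k) = j'})) ≤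
          LinearMap.ker (Cfsg.Agent.Lib.Helper18.sympB (F := F) d u) := by
        refine iSup₂_le (fun j' hj' v hv => ?_)
        exact horthD j j' (Ne.symm hj') u hu v hv
      exact hle hw₂
    refine ⟨w₁, hw₁, ?_⟩
    rw [← Cfsg.Agent.Lib.Helper18.sympB_eq_sympForm]
    rw [map_add, h0, add_zero] at hw
    exact hw
  · intro j j' hjj' u hu v hv
    rw [← Cfsg.Agent.Lib.Helper18.sympB_eq_sympForm]
    exact horthD j j' hjj' u hu v hv

end Cfsg.Agent.S5960
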