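import Cfsg.Statements.S5961
import Cfsg.Agent.Lib.Helper96.SpMat

set_option autoImplicit false
open scoped MatrixGroups
open Cfsg

namespace Cfsg.Agent.S5961

open Cfsg.Agent.Lib.Helper96.Sp Cfsg.Agent.Lib.Helper96.BG Cfsg.Agent.Lib.Helper18 Module

/-- Elements of odd prime order of PSp_n(q) and imprimitive subgroups. Here `T = PSp_n(q)`, `n = 2d ≥ 4`, `(n, q) ≠ (4, 2)`, realised through the symplectic matrices over the field `F` with `q` elements and the standard alternating form; `n = a·t` with `a` even and `t ≥ 2`, and Ω is the (nonempty) set of orthogonal decompositions of `F^n` into `t` nondegenerate subspaces of dimension `a` (unordered; counted as ordered ones divided by `t!`), whose stabilizers are the imprimitive subgroups of type Sp_a(q) ≀ S_t (maximality is not assumed); an element of `T` of prime order `r` (a symplectic matrix `x` with `x^r` scalar, `x` not scalar) fixes a point of Ω when it permutes the summands of some such decomposition. Let `r ≠ p` be an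 odd prime dividing the number of such decompositions, let `i` be the multiplicative order of `q` modulo `r`, `c = i` if `i` is even and `c = 2i` if `i` is odd, and write `k = n mod c`, `ℓ = a mod c`. Then every element of `T` of order `r` stabilizes such a decomposition if and only if `c ≤ a` and `k = t·ℓ`. -/
theorem result {F : Type*} [Field F] [Fintype F] {p : ℕ} [Fact p.Prime] [CharP F p] {q : ℕ} (hq : Fintype.card F = q)
    (d : ℕ) (hd : 2 ≤ d) (hT : (d, q) ≠ (2, 2))
    (a t : ℕ) (hat : 2 * d = a * t) (ha : 2 ≤ a) (hae : Even a) (ht : 2 ≤ t)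
    (r : ℕ) [Fact r.Prime] (hr2 : r ≠ 2) (hrp : r ≠ p) (hΩ : r ∣ Nat.card {D : Fin t → Submodule F (Fin d ⊕ Fin d → F) // (Cfsg.Geo.IsMDecomposition a D ∧ (∀ j, ∀ u ∈ D j, u ≠ 0 → ∃ v ∈ D j, Cfsg.sympForm d F u v ≠ 0) ∧
          (∀ j j', j ≠ j' → ∀ u ∈ D j, ∀ v ∈ D j', Cfsg.sympForm d F u v = 0))} / Nat.factorial t)
    (i c : ℕ) (hi : i = orderOf (q : ZMod r)) (hc : c = if Even i then i else 2 * i) :
    (∀ x : ↥(Matrix.symplecticGroup (Fin d) F),
      (∃ z : F, ((x ^ r : ↥(Matrix.symplecticGroup (Fin d) F)) : Matrix (Fin d ⊕ Fin d) (Fin d ⊕ Fin d) F) = z • (1 : Matrix (Fin d ⊕ Fin d) (Fin d ⊕ Fin d) F)) →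
      (∀ z : F, (x : Matrix (Fin d ⊕ Fin d) (Fin d ⊕ Fin d) F) ≠ z • (1 : Matrix (Fin d ⊕ Fin d) (Fin d ⊕ Fin d) F)) →
      ∃ D : Fin t → Submodule F (Fin d ⊕ Fin d → F), (Cfsg.Geo.IsMDecomposition a D ∧ (∀ j, ∀ u ∈ D j, u ≠ 0 → ∃ v ∈ D j, Cfsg.sympForm d F u v ≠ 0) ∧
          (∀ j j', j ≠ j' → ∀ u ∈ D j, ∀ v ∈ D j', Cfsg.sympForm d F u v = 0)) ∧
        ∃ σ : Equiv.Perm (Fin t), ∀ j, (D j).map (Matrix.toLin' (x : Matrix (Fin d ⊕ Fin d) (Fin d ⊕ Fin d) F)) = D (σ j)) ↔
    (c ≤ a ∧ (2 * d) % c = t * (a % c)) := by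
  classical
  subst hq
  subst hi
  obtain rfl : c = blk (Fintype.card F) r := hc
  have hr : r.Prime := Fact.out
  have hodd : Odd r := hr.odd_of_ne_two hr2
  have hA := sympB_isAlt (F := F) d
  have hN := sympB_nd (F := F) d
  have : Nonempty (Fin d ⊕ Fin d) := ⟨Sum.inl ⟨0, by omega⟩⟩
  have hfinV : finrank F (Fin d ⊕ Fin d → F) = 2 * d := by
    rw [Module.finrank_fintype_fun_eq_card, Fintype.card_sum, Fintype.card_fin]
    ring
  have hV : finrank F (Fin d ⊕ Fin d → F) = t * a := by rw [hfinV, hat, Nat.mul_comm]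
  obtain ⟨hrq, hr0, hi1⟩ := facts (F := F) p r hrp
  have ha1 : 1 ≤ a := by omega
  have hc1 := blk_pos (Fintype.card F) r hi1
  -- the two descriptions of orthogonal decompositions
  have hpred : ∀ D : Fin t → Submodule F (Fin d ⊕ Fin d → F),
      (Cfsg.Geo.IsMDecomposition a D ∧
        (∀ j, ∀ u ∈ D j, u ≠ 0 → ∃ v ∈ D j, Cfsg.sympForm d F u v ≠ 0) ∧
        (∀ j j', j ≠ j' → ∀ u ∈ D j, ∀ v ∈ D j', Cfsg.sympForm d F u v = 0)) ↔
      IsOD (sympB d) a D := by
    intro D
    constructor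
    · rintro ⟨h1, h2, h3⟩
      exact ⟨h1.finrank_eq, fun j j' hjj' u hu v hv => by
        rw [sympB_eq_sympForm]
        exact h3 j j' hjj' u hu v hv, h1.iSup_eq_top⟩
    · rintro ⟨h1, h2, h3⟩
      refine ⟨⟨ht, by omega, h1, ?_, h3⟩, ?_, ?_⟩
      · apply iSupIndep_of_finrank_eq
        rw [h3, finrank_top, hV, Finset.sum_congr rfl (fun j _ => h1 j), Finset.sum_const,
          Finset.card_univ, Fintype.card_fin, smul_eq_mul]
      · intro j u hu hu0
        by_contra hcon
        push Not at hcon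
        apply hu0
        exact nd_of_orth_sup_top hN D h2 h3 j u hu (fun v hv => by
          rw [sympB_eq_sympForm]
          exact hcon v hv)
      · intro j j' hjj' u hu v hv
        rw [← sympB_eq_sympForm]
        exact h2 j j' hjj' u hu v hv
  constructor
  · intro hL
    have hΩ' : r ∣ Nat.card {D : Fin t → Submodule F (Fin d ⊕ Fin d → F) //
        IsOD (sympB d) a D} / Nat.factorial t := by
      rw [← Nat.card_congr (Equiv.subtypeEquivRight hpred)]
      exact hΩ
    obtain ⟨g, hg, hgr, hg1⟩ := exists_isom_order hA hN a t ha1 hae hV r hr2 hrq hr0 hΩ'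
    -- the hypothesis, for isometries
    have hkey : ∀ y : Module.End F (Fin d ⊕ Fin d → F), Isom (sympB d) y → y ^ r = 1 → y ≠ 1 →
        ∃ D : Fin t → Submodule F (Fin d ⊕ Fin d → F), (∀ j, finrank F (D j) = a) ∧
          iSupIndep D ∧ (⨆ j, D j) = ⊤ ∧ (∀ j, ND (sympB d) (D j)) ∧
          ∃ σ : Equiv.Perm (Fin t), ∀ j, (D j).map y = D (σ j) := by
      intro y hy hyr hy1
      have hmem := toMatrix'_mem d y hy
      have hpow : ((⟨LinearMap.toMatrix' y, hmem⟩ : ↥(Matrix.symplecticGroup (Fin d) F)) ^ r :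
          ↥(Matrix.symplecticGroup (Fin d) F)) = 1 := by
        apply Subtype.ext
        rw [SubmonoidClass.coe_pow]
        show (LinearMap.toMatrix' y) ^ r = 1
        rw [← toMatrix'_pow', hyr, LinearMap.toMatrix'_one]
      obtain ⟨D, hD, σ, hσ⟩ := hL ⟨LinearMap.toMatrix' y, hmem⟩ ⟨1, by rw [hpow, one_smul]; rfl⟩
        (by
          intro z hz
          have hz' : LinearMap.toMatrix' y = z • (1 : Matrix (Fin d ⊕ Fin d) (Fin d ⊕ Fin d) F) :=
            hz
          have h1 : y = z • (1 : Module.End F (Fin d ⊕ Fin d → F)) := by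
            have h2 := congrArg Matrix.toLin' hz'
            rw [Matrix.toLin'_toMatrix', map_smul, Matrix.toLin'_one] at h2
            exact h2
          have hzz : z * z = 1 := scalar_sq_of_isom hN z (by rw [← h1]; exact hy)
          have h3 : y ^ r = y := by
            rw [h1, smul_pow, one_pow, pow_eq_self_of_sq z hzz r hodd]
          exact hy1 (h3.symm.trans hyr))
      have hOD := (hpred D).mp hD
      refine ⟨D, hD.1.finrank_eq, hD.1.indep, hD.1.iSup_eq_top,
        fun j => nd_of_orth_sup_top hN D hOD.2.1 hOD.2.2 j, σ, fun j => ?_⟩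
      have h4 := hσ j
      have h5 : Matrix.toLin' (LinearMap.toMatrix' y) = y := Matrix.toLin'_toMatrix' y
      rw [← h5]
      exact h4
    -- the block size is at most `a`
    have hca : blk (Fintype.card F) r ≤ a := by
      by_contra hlt
      push Not at hlt
      obtain ⟨x₁, P₀, hP₀nd, hP₀c, hx₁, hx₁r, hx₁inv, hx₁P, hx₁fix⟩ :=
        exists_one_block hA hN r hr2 hrq hr0 g hg hgr hg1
      have hx₁1 : x₁ ≠ 1 := by
        intro h
        have hP₀0 : P₀ ≠ ⊥ := by
          intro h0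
          rw [h0, finrank_bot] at hP₀c
          omega
        obtain ⟨u, hu, hu0⟩ := (Submodule.ne_bot_iff _).mp hP₀0
        exact hu0 (hx₁fix u hu (by rw [h]; rfl))
      have hR : finrank F (LinearMap.range (x₁ - 1)) ≤ blk (Fintype.card F) r := by
        rw [← hP₀c]
        exact Submodule.finrank_mono (range_le_block hA hP₀nd x₁ hx₁inv hx₁P)
      obtain ⟨D, hfin, hind, htop, hnd, σ, hσ⟩ := hkey x₁ hx₁ hx₁r hx₁1
      exact not_stab_of_lt hA hN x₁ hx₁ r hr2 hrq hr0 hx₁r hx₁1 hR D a ha hlt hfin hind htop hnd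
        σ hσ
    refine ⟨hca, ?_⟩
    obtain ⟨y, hy, hyr, hyk⟩ := exists_max_elt hA hN r hr2 hrq hr0 g hg hgr hg1
    rw [hfinV] at hyk
    have hmod : (2 * d) % blk (Fintype.card F) r < blk (Fintype.card F) r :=
      Nat.mod_lt _ (by omega)
    have hta : a ≤ t * a := Nat.le_mul_of_pos_left a (by omega)
    have hy1 : y ≠ 1 := by
      intro h
      rw [h, sub_self, LinearMap.ker_zero, finrank_top, hfinV] at hyk
      rw [hfinV] at hV
      omega
    obtain ⟨D, hfin, hind, htop, hnd, σ, hσ⟩ := hkey y hy hyr hy1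
    have h1 := fixed_ge_of_stab hA hN y hy r hr2 hrq hr0 hyr D a ha1 hfin hind htop hnd σ hσ
      (by omega)
    rw [hyk] at h1
    have h3 : (2 * d) % blk (Fintype.card F) r =
        (t * (a % blk (Fintype.card F) r)) % blk (Fintype.card F) r := by
      rw [hat, Nat.mul_comm a t, Nat.mul_mod_mod]
    rw [h3, Nat.mod_eq_of_lt (by omega)]
  · rintro ⟨hca, hk⟩ x ⟨z, hz⟩ hx
    have hT : Isom (sympB d) (Matrix.toLin' (x : Matrix (Fin d ⊕ Fin d) (Fin d ⊕ Fin d) F)) :=
      fun u v => symplectic_isometry d _ x.2 u v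
    have hTz : (Matrix.toLin' (x : Matrix (Fin d ⊕ Fin d) (Fin d ⊕ Fin d) F)) ^ r =
        z • (1 : Module.End F (Fin d ⊕ Fin d → F)) := by
      rw [← toLin'_pow', ← SubmonoidClass.coe_pow, hz, map_smul, Matrix.toLin'_one]
      rfl
    generalize Matrix.toLin' (x : Matrix (Fin d ⊕ Fin d) (Fin d ⊕ Fin d) F) = T at hT hTz ⊢
    have hpowiso : ∀ k : ℕ, Isom (sympB d) (T ^ k) := by
      intro k
      induction k with
      | zero => intro u v; rfl
      | succ k ih =>
        intro u v
        rw [pow_succ]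
        exact (ih (T u) (T v)).trans (hT u v)
    have hzz : z * z = 1 := scalar_sq_of_isom hN z (by rw [← hTz]; exact hpowiso r)
    have hT' : Isom (sympB d) (z • T) := by
      intro u v
      simp only [LinearMap.smul_apply, map_smul, smul_eq_mul]
      rw [← mul_assoc, hzz, one_mul]
      exact hT u v
    have hT'r : (z • T) ^ r = 1 := by
      rw [smul_pow, hTz, smul_smul, pow_eq_self_of_sq z hzz r hodd, hzz, one_smul]
    have hker : t * (a % blk (Fintype.card F) r) ≤ finrank F (LinearMap.ker (z • T - 1)) := by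
      have h1 := mod_le_fixed hA hN (z • T) hT' r hr2 hrq hr0 hT'r ⊤ le_top hN
      rw [top_inf_eq, finrank_top, hfinV, hk] at h1
      exact h1
    obtain ⟨D, hDinv, hOD⟩ :=
      exists_sp_decomp hA hN (z • T) hT' r hr2 hrq hr0 hT'r a t ha1 hae hV hker
    refine ⟨D, (hpred D).mpr hOD, 1, fun j => ?_⟩
    rw [Equiv.Perm.one_apply]
    apply map_eq_of_le (isom_injective hN hT)
    rintro _ ⟨w, hw, rfl⟩
    have h1 : (z • T) w ∈ D j := hDinv j ⟨w, hw, rfl⟩
    have h2 : T w = z • (z • T) w := by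
      rw [LinearMap.smul_apply, smul_smul, hzz, one_smul]
    rw [h2]
    exact (D j).smul_mem z h1

end Cfsg.Agent.S5961
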