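import Cfsg.Statements.S5962
import Mathlib
import Cfsg.Agent.Lib.Helper18.Symp
-- import your own Cfsg.Agent.* helpers here

set_option autoImplicit false
open scoped MatrixGroups
open Cfsg

namespace Cfsg.Agent.S5962

section abstract

variable {F V : Type*} [Field F] [AddCommGroup V] [Module F V]

theorem alt_swap {B : LinearMap.BilinForm F V} (hB : B.IsAlt) (x y : V) : B x y = - B y x := by
  have h := hB (x + y)
  simp only [map_add, LinearMap.add_apply, hB x, hB y] at h
  linear_combination h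

theorem key_adj (B : LinearMap.BilinForm F V) (X : V →ₗ[F] V)
    (hX : ∀ u v, B (X u) (X v) = B u v) (z : F) (hz : z ≠ 0) (hXX : ∀ v, X (X v) = z • v)
    (w v : V) : B w (X v) = z⁻¹ * B (X w) v := by
  have h1 := hX (X w) v
  rw [hXX, map_smul, LinearMap.smul_apply, smul_eq_mul] at h1
  rw [← h1, ← mul_assoc, inv_mul_cancel₀ hz, one_mul]

theorem lagr_induct [FiniteDimensional F V] (B : LinearMap.BilinForm F V) (hB : B.IsAlt) (X : V →ₗ[F] V)
    (hX : ∀ u v, B (X u) (X v) = B u v) (z : F) (hz : z ≠ 0) (hXX : ∀ v, X (X v) = z • v)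
    (P : V → V → Prop) (Rel : Submodule F V → Submodule F V → Prop)
    (h0 : Rel ⊥ ⊥)
    (hstep : ∀ (U W : Submodule F V) (e f : V), Rel U W → P e f →
      Rel (U ⊔ Submodule.span F {e}) (W ⊔ Submodule.span F {f}))
    (hpick : ∀ E : Submodule F V, (∀ v ∈ E, X v ∈ E) → (∀ u ∈ E, (∀ v ∈ E, B u v = 0) → u = 0) → E ≠ ⊥ →
      ∃ e ∈ E, ∃ f ∈ E, B e f ≠ 0 ∧ P e f ∧ X e ∈ Submodule.span F {e, f} ∧
        X f ∈ Submodule.span F {e, f}) :
    ∀ (n : ℕ) (E : Submodule F V), Module.finrank F E = n → (∀ v ∈ E, X v ∈ E) →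
      (∀ u ∈ E, (∀ v ∈ E, B u v = 0) → u = 0) →
      ∃ U W : Submodule F V, U ≤ E ∧ W ≤ E ∧ U ⊓ W = ⊥ ∧ U ⊔ W = E ∧
        (∀ u ∈ U, ∀ v ∈ U, B u v = 0) ∧ (∀ u ∈ W, ∀ v ∈ W, B u v = 0) ∧ Rel U W := by
  intro n
  induction n using Nat.strong_induction_on with
  | _ n ih =>
  intro E hn hinv hnd
  by_cases hE : E = ⊥
  · subst hE
    refine ⟨⊥, ⊥, le_rfl, le_rfl, by simp, by simp, ?_, ?_, h0⟩
    · intro u hu v _
      rw [Submodule.mem_bot] at hu
      simp [hu]
    · intro u hu v _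
      rw [Submodule.mem_bot] at hu
      simp [hu]
  obtain ⟨e, heE, f, hfE, hef, hP, hXe, hXf⟩ := hpick E hinv hnd hE
  have hfe : B f e ≠ 0 := by
    rw [alt_swap hB f e]
    exact neg_ne_zero.mpr hef
  obtain ⟨E', hE'mem⟩ : ∃ E' : Submodule F V, ∀ v, v ∈ E' ↔ v ∈ E ∧ B e v = 0 ∧ B f v = 0 := by
    refine ⟨E ⊓ LinearMap.ker (B e) ⊓ LinearMap.ker (B f), fun v => ?_⟩
    simp only [Submodule.mem_inf, LinearMap.mem_ker, and_assoc]
  have hE'E : E' ≤ E := fun v hv => ((hE'mem v).mp hv).1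
  have hdec : ∀ w ∈ E, ∃ w' ∈ E', ∃ a b : F, w = w' + a • e + b • f := by
    intro w hw
    refine ⟨w - (B w f / B e f) • e - (B e w / B e f) • f, ?_, B w f / B e f, B e w / B e f, by abel⟩
    rw [hE'mem]
    refine ⟨E.sub_mem (E.sub_mem hw (E.smul_mem _ heE)) (E.smul_mem _ hfE), ?_, ?_⟩
    · simp only [map_sub, map_smul, smul_eq_mul, hB e]
      field_simp
      ring
    · simp only [map_sub, map_smul, smul_eq_mul, hB f]
      rw [alt_swap hB f e, alt_swap hB f w]
      field_simp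
      ring
  have hinv' : ∀ v ∈ E', X v ∈ E' := by
    intro v hv
    obtain ⟨hvE, hev, hfv⟩ := (hE'mem v).mp hv
    rw [hE'mem]
    refine ⟨hinv v hvE, ?_, ?_⟩
    · rw [key_adj B X hX z hz hXX]
      obtain ⟨a, b, hab⟩ := Submodule.mem_span_pair.mp hXe
      rw [← hab]
      simp only [map_add, map_smul, LinearMap.add_apply, LinearMap.smul_apply, smul_eq_mul, hev, hfv]
      ring
    · rw [key_adj B X hX z hz hXX]
      obtain ⟨a, b, hab⟩ := Submodule.mem_span_pair.mp hXf
      rw [← hab]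
      simp only [map_add, map_smul, LinearMap.add_apply, LinearMap.smul_apply, smul_eq_mul, hev, hfv]
      ring
  have hperp_e : ∀ u ∈ E', B u e = 0 := by
    intro u hu
    rw [alt_swap hB u e, ((hE'mem u).mp hu).2.1, neg_zero]
  have hperp_f : ∀ u ∈ E', B u f = 0 := by
    intro u hu
    rw [alt_swap hB u f, ((hE'mem u).mp hu).2.2, neg_zero]
  have hnd' : ∀ u ∈ E', (∀ v ∈ E', B u v = 0) → u = 0 := by
    intro u hu h
    refine hnd u (hE'E hu) (fun w hw => ?_)
    obtain ⟨w', hw', a, b, rfl⟩ := hdec w hw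
    simp only [map_add, map_smul, smul_eq_mul, h w' hw', hperp_e u hu, hperp_f u hu]
    ring
  have hlt : Module.finrank F E' < n := by
    rw [← hn]
    apply Submodule.finrank_lt_finrank_of_lt
    refine lt_of_le_of_ne hE'E (fun h => ?_)
    have : e ∈ E' := h ▸ heE
    exact hfe ((hE'mem e).mp this).2.2
  obtain ⟨U', W', hU'E, hW'E, hdisj, hsup, hisoU, hisoW, hrel⟩ := ih _ hlt E' rfl hinv' hnd'
  have hUE : U' ⊔ Submodule.span F {e} ≤ E :=
    sup_le (hU'E.trans hE'E) ((Submodule.span_singleton_le_iff_mem e E).mpr heE)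
  have hWE : W' ⊔ Submodule.span F {f} ≤ E :=
    sup_le (hW'E.trans hE'E) ((Submodule.span_singleton_le_iff_mem f E).mpr hfE)
  refine ⟨U' ⊔ Submodule.span F {e}, W' ⊔ Submodule.span F {f}, hUE, hWE, ?_, ?_, ?_, ?_,
    hstep U' W' e f hrel hP⟩
  · -- disjoint
    rw [eq_bot_iff]
    rintro v ⟨hvU, hvW⟩
    obtain ⟨u', hu', y, hy, rfl⟩ := Submodule.mem_sup.mp hvU
    obtain ⟨a, rfl⟩ := Submodule.mem_span_singleton.mp hy
    obtain ⟨w', hw', y', hy', hyw⟩ := Submodule.mem_sup.mp hvW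
    obtain ⟨b, rfl⟩ := Submodule.mem_span_singleton.mp hy'
    have hd : u' - w' = b • f - a • e := by
      rw [sub_eq_sub_iff_add_eq_add]
      rw [← hyw]
      abel
    have hdE' : u' - w' ∈ E' := E'.sub_mem (hU'E hu') (hW'E hw')
    obtain ⟨_, h1, h2⟩ := (hE'mem _).mp hdE'
    rw [hd] at h1 h2
    simp only [map_sub, map_smul, smul_eq_mul, hB e, hB f, mul_zero, sub_zero, zero_sub] at h1 h2
    have hb : b = 0 := by
      rcases mul_eq_zero.mp h1 with h | h
      · exact h
      · exact absurd h hef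
    have ha : a = 0 := by
      rcases mul_eq_zero.mp (neg_eq_zero.mp h2) with h | h
      · exact h
      · exact absurd h hfe
    subst ha hb
    simp only [zero_smul, add_zero] at hyw ⊢
    have hu'W : u' ∈ W' := hyw ▸ hw'
    have : u' ∈ U' ⊓ W' := ⟨hu', hu'W⟩
    rw [hdisj] at this
    exact this
  · -- sup
    refine le_antisymm (sup_le hUE hWE) (fun v hv => ?_)
    obtain ⟨w', hw', a, b, rfl⟩ := hdec v hv
    rw [← hsup] at hw'
    obtain ⟨u1, hu1, w1, hw1, rfl⟩ := Submodule.mem_sup.mp hw'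
    have h1 : u1 + a • e ∈ U' ⊔ Submodule.span F {e} :=
      Submodule.add_mem _ (Submodule.mem_sup_left hu1)
        (Submodule.mem_sup_right (Submodule.smul_mem _ _ (Submodule.mem_span_singleton_self e)))
    have h2 : w1 + b • f ∈ W' ⊔ Submodule.span F {f} :=
      Submodule.add_mem _ (Submodule.mem_sup_left hw1)
        (Submodule.mem_sup_right (Submodule.smul_mem _ _ (Submodule.mem_span_singleton_self f)))
    have h3 : u1 + w1 + a • e + b • f = (u1 + a • e) + (w1 + b • f) := by abel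
    rw [h3]
    exact Submodule.add_mem _ (Submodule.mem_sup_left h1) (Submodule.mem_sup_right h2)
  · -- iso U
    intro u hu v hv
    obtain ⟨u', hu', y, hy, rfl⟩ := Submodule.mem_sup.mp hu
    obtain ⟨a, rfl⟩ := Submodule.mem_span_singleton.mp hy
    obtain ⟨v', hv', y', hy', rfl⟩ := Submodule.mem_sup.mp hv
    obtain ⟨b, rfl⟩ := Submodule.mem_span_singleton.mp hy'
    simp only [map_add, map_smul, LinearMap.add_apply, LinearMap.smul_apply, smul_eq_mul,
      hisoU u' hu' v' hv', hperp_e u' (hU'E hu'), ((hE'mem v').mp (hU'E hv')).2.1, hB e]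
    ring
  · -- iso W
    intro u hu v hv
    obtain ⟨u', hu', y, hy, rfl⟩ := Submodule.mem_sup.mp hu
    obtain ⟨a, rfl⟩ := Submodule.mem_span_singleton.mp hy
    obtain ⟨v', hv', y', hy', rfl⟩ := Submodule.mem_sup.mp hv
    obtain ⟨b, rfl⟩ := Submodule.mem_span_singleton.mp hy'
    simp only [map_add, map_smul, LinearMap.add_apply, LinearMap.smul_apply, smul_eq_mul,
      hisoW u' hu' v' hv', hperp_f u' (hW'E hu'), ((hE'mem v').mp (hW'E hv')).2.2, hB f]
    ring

theorem modeA [FiniteDimensional F V] (h2 : (2 : F) ≠ 0) (B : LinearMap.BilinForm F V) (hB : B.IsAlt)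
    (X : V →ₗ[F] V) (hX : ∀ u v, B (X u) (X v) = B u v) (hXX : ∀ v, X (X v) = v)
    (hnd : ∀ u, (∀ v, B u v = 0) → u = 0) :
    ∃ U W : Submodule F V, IsCompl U W ∧ (∀ u ∈ U, ∀ v ∈ U, B u v = 0) ∧
      (∀ u ∈ W, ∀ v ∈ W, B u v = 0) ∧ U.map X = U ∧ W.map X = W := by
  have hXX' : ∀ v, X (X v) = (1 : F) • v := fun v => by rw [one_smul]; exact hXX v
  obtain ⟨U, W, -, -, hdisj, hsup, hU, hW, hrelU, hrelW⟩ :=
    lagr_induct B hB X hX 1 one_ne_zero hXX'
      (fun e f => X e ∈ Submodule.span F {e} ∧ X f ∈ Submodule.span F {f})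
      (fun U W => (∀ u ∈ U, X u ∈ U) ∧ (∀ w ∈ W, X w ∈ W))
      ⟨by simp, by simp⟩
      (by
        rintro U W e f ⟨hU, hW⟩ ⟨he, hf⟩
        constructor
        · intro u hu
          obtain ⟨u', hu', y, hy, rfl⟩ := Submodule.mem_sup.mp hu
          obtain ⟨a, rfl⟩ := Submodule.mem_span_singleton.mp hy
          rw [map_add, map_smul]
          exact Submodule.add_mem _ (Submodule.mem_sup_left (hU u' hu'))
            (Submodule.mem_sup_right (Submodule.smul_mem _ _ he))
        · intro u hu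
          obtain ⟨u', hu', y, hy, rfl⟩ := Submodule.mem_sup.mp hu
          obtain ⟨a, rfl⟩ := Submodule.mem_span_singleton.mp hy
          rw [map_add, map_smul]
          exact Submodule.add_mem _ (Submodule.mem_sup_left (hW u' hu'))
            (Submodule.mem_sup_right (Submodule.smul_mem _ _ hf)))
      (by
        intro E hinv hndE hE
        obtain ⟨v, hvE, hv0⟩ := Submodule.exists_mem_ne_zero_of_ne_bot hE
        obtain ⟨e, heE, he0, ε, hε, hXe⟩ : ∃ e ∈ E, e ≠ 0 ∧ ∃ ε : F, ε * ε = 1 ∧ X e = ε • e := by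
          by_cases h : X v = -v
          · exact ⟨v, hvE, hv0, -1, by ring, by rw [h]; simp⟩
          · refine ⟨v + X v, E.add_mem hvE (hinv v hvE), ?_, 1, by ring, ?_⟩
            · intro h0
              exact h (eq_neg_of_add_eq_zero_right h0)
            · rw [map_add, hXX, one_smul, add_comm]
        obtain ⟨f₀, hf₀E, hf₀⟩ : ∃ f₀ ∈ E, B e f₀ ≠ 0 := by
          by_contra h
          push_neg at h
          exact he0 (hndE e heE h)
        have hXf : X (f₀ + ε • X f₀) = ε • (f₀ + ε • X f₀) := by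
          rw [map_add, map_smul, hXX, smul_add, smul_smul, hε, one_smul, add_comm]
        refine ⟨e, heE, f₀ + ε • X f₀, E.add_mem hf₀E (E.smul_mem _ (hinv _ hf₀E)), ?_, ⟨?_, ?_⟩,
          ?_, ?_⟩
        · rw [map_add, map_smul, smul_eq_mul, key_adj B X hX 1 one_ne_zero hXX', hXe, map_smul,
            LinearMap.smul_apply, smul_eq_mul]
          have : B e f₀ + ε * (1⁻¹ * (ε * B e f₀)) = 2 * B e f₀ := by
            rw [inv_one, one_mul, ← mul_assoc, hε]
            ring
          rw [this]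
          exact mul_ne_zero h2 hf₀
        · rw [hXe]
          exact Submodule.smul_mem _ _ (Submodule.mem_span_singleton_self e)
        · rw [hXf]
          exact Submodule.smul_mem _ _ (Submodule.mem_span_singleton_self _)
        · rw [hXe]
          exact Submodule.smul_mem _ _ (Submodule.subset_span (by simp))
        · rw [hXf]
          exact Submodule.smul_mem _ _ (Submodule.subset_span (by simp)))
      (Module.finrank F (⊤ : Submodule F V)) ⊤ rfl (fun v _ => Submodule.mem_top)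
      (fun u _ h => hnd u (fun v => h v Submodule.mem_top))
  refine ⟨U, W, IsCompl.of_eq hdisj hsup, hU, hW, ?_, ?_⟩
  · apply le_antisymm
    · rintro _ ⟨u, hu, rfl⟩
      exact hrelU u hu
    · intro u hu
      exact ⟨X u, hrelU u hu, hXX u⟩
  · apply le_antisymm
    · rintro _ ⟨u, hu, rfl⟩
      exact hrelW u hu
    · intro u hu
      exact ⟨X u, hrelW u hu, hXX u⟩

theorem modeB [FiniteDimensional F V] (h2 : (2 : F) ≠ 0) (B : LinearMap.BilinForm F V) (hB : B.IsAlt)
    (X : V →ₗ[F] V) (hX : ∀ u v, B (X u) (X v) = B u v) (hXX : ∀ v, X (X v) = -v)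
    (hnd : ∀ u, (∀ v, B u v = 0) → u = 0) :
    ∃ U W : Submodule F V, IsCompl U W ∧ (∀ u ∈ U, ∀ v ∈ U, B u v = 0) ∧
      (∀ u ∈ W, ∀ v ∈ W, B u v = 0) ∧ U.map X = W ∧ W.map X = U := by
  have hm1 : (-1 : F) ≠ 0 := neg_ne_zero.mpr one_ne_zero
  have hXX' : ∀ v, X (X v) = (-1 : F) • v := fun v => by rw [neg_smul, one_smul]; exact hXX v
  obtain ⟨U, W, -, -, hdisj, hsup, hU, hW, hrelU, hrelW⟩ :=
    lagr_induct B hB X hX (-1) hm1 hXX'
      (fun e f => X e ∈ Submodule.span F {f} ∧ X f ∈ Submodule.span F {e})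
      (fun U W => (∀ u ∈ U, X u ∈ W) ∧ (∀ w ∈ W, X w ∈ U))
      ⟨by simp, by simp⟩
      (by
        rintro U W e f ⟨hU, hW⟩ ⟨he, hf⟩
        constructor
        · intro u hu
          obtain ⟨u', hu', y, hy, rfl⟩ := Submodule.mem_sup.mp hu
          obtain ⟨a, rfl⟩ := Submodule.mem_span_singleton.mp hy
          rw [map_add, map_smul]
          exact Submodule.add_mem _ (Submodule.mem_sup_left (hU u' hu'))
            (Submodule.mem_sup_right (Submodule.smul_mem _ _ he))
        · intro u hu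
          obtain ⟨u', hu', y, hy, rfl⟩ := Submodule.mem_sup.mp hu
          obtain ⟨a, rfl⟩ := Submodule.mem_span_singleton.mp hy
          rw [map_add, map_smul]
          exact Submodule.add_mem _ (Submodule.mem_sup_left (hW u' hu'))
            (Submodule.mem_sup_right (Submodule.smul_mem _ _ hf)))
      (by
        intro E hinv hndE hE
        obtain ⟨e, heE, he⟩ : ∃ e ∈ E, B e (X e) ≠ 0 := by
          by_contra h
          push_neg at h
          apply hE
          rw [eq_bot_iff]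
          intro u hu
          rw [Submodule.mem_bot]
          apply hndE u hu
          intro w hw
          have hsym : ∀ a ∈ E, ∀ b ∈ E, B a (X b) = 0 := by
            intro a ha b hb
            have h1 := h (a + b) (E.add_mem ha hb)
            simp only [map_add, LinearMap.add_apply, h a ha, h b hb] at h1
            have h3 : B b (X a) = B a (X b) := by
              rw [key_adj B X hX (-1) hm1 hXX' b a, alt_swap hB (X b) a, inv_neg_one]
              ring
            rw [h3] at h1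
            have h4 : 2 * B a (X b) = 0 := by linear_combination h1
            rcases mul_eq_zero.mp h4 with h | h
            · exact absurd h h2
            · exact h
          have hw' : w = X (-(X w)) := by rw [map_neg, hXX, neg_neg]
          rw [hw']
          exact hsym u hu _ (E.neg_mem (hinv w hw))
        refine ⟨e, heE, X e, hinv e heE, he, ⟨Submodule.mem_span_singleton_self _, ?_⟩,
          Submodule.subset_span (by simp), ?_⟩
        · rw [hXX]
          exact Submodule.neg_mem _ (Submodule.mem_span_singleton_self e)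
        · rw [hXX]
          exact Submodule.neg_mem _ (Submodule.subset_span (by simp)))
      (Module.finrank F (⊤ : Submodule F V)) ⊤ rfl (fun v _ => Submodule.mem_top)
      (fun u _ h => hnd u (fun v => h v Submodule.mem_top))
  refine ⟨U, W, IsCompl.of_eq hdisj hsup, hU, hW, ?_, ?_⟩
  · apply le_antisymm
    · rintro _ ⟨u, hu, rfl⟩
      exact hrelU u hu
    · intro w hw
      exact ⟨-(X w), U.neg_mem (hrelW w hw), by rw [map_neg, hXX, neg_neg]⟩
  · apply le_antisymm
    · rintro _ ⟨u, hu, rfl⟩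
      exact hrelW u hu
    · intro w hw
      exact ⟨-(X w), W.neg_mem (hrelU w hw), by rw [map_neg, hXX, neg_neg]⟩

end abstract

/-- Involutions of PSp_n(q), q odd, and the subgroups GL_{n/2}(q).2. Here `T = PSp_n(q)`, `n = 2d ≥ 4`, `q` odd, realised through the symplectic matrices over the field `F` with `q` elements; Ω is the set of unordered pairs `{U, W}` of complementary totally isotropic `d`-spaces (`F^n = U ⊕ W`), whose stabilizers are the subgroups of type GL_d(q).2 (maximal except in some small cases; maximality is not assumed); an element of `T` of prime order `r` (a symplectic matrix `x` with `x^r` scalar, `x` not scalar) fixes such a pair when it fixes or interchanges `U` and `W`. If the number of such pairs is even, every involution of `T` fixes one of them (the action is 2-elusive). -/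
theorem result {F : Type*} [Field F] [Fintype F] {p : ℕ} [Fact p.Prime] [CharP F p] {q : ℕ} (hq : Fintype.card F = q)
    (d : ℕ) (hd : 2 ≤ d) (hT : (d, q) ≠ (2, 2)) (hodd : Odd q)
    (hΩ : 2 ∣ Nat.card {P : Submodule F (Fin d ⊕ Fin d → F) × Submodule F (Fin d ⊕ Fin d → F) // IsCompl P.1 P.2 ∧ (∀ u ∈ P.1, ∀ v ∈ P.1, Cfsg.sympForm d F u v = 0) ∧ (∀ u ∈ P.2, ∀ v ∈ P.2, Cfsg.sympForm d F u v = 0)} / 2)
    (x : ↥(Matrix.symplecticGroup (Fin d) F))
    (hx1 : ∃ z : F, ((x ^ 2 : ↥(Matrix.symplecticGroup (Fin d) F)) : Matrix (Fin d ⊕ Fin d) (Fin d ⊕ Fin d) F) = z • (1 : Matrix (Fin d ⊕ Fin d) (Fin d ⊕ Fin d) F))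
    (hx2 : ∀ z : F, (x : Matrix (Fin d ⊕ Fin d) (Fin d ⊕ Fin d) F) ≠ z • (1 : Matrix (Fin d ⊕ Fin d) (Fin d ⊕ Fin d) F)) :
    ∃ U W : Submodule F (Fin d ⊕ Fin d → F), IsCompl U W ∧ (∀ u ∈ U, ∀ v ∈ U, Cfsg.sympForm d F u v = 0) ∧ (∀ u ∈ W, ∀ v ∈ W, Cfsg.sympForm d F u v = 0) ∧
        ((U.map (Matrix.toLin' (x : Matrix (Fin d ⊕ Fin d) (Fin d ⊕ Fin d) F)) = U ∧ W.map (Matrix.toLin' (x : Matrix (Fin d ⊕ Fin d) (Fin d ⊕ Fin d) F)) = W) ∨
         (U.map (Matrix.toLin' (x : Matrix (Fin d ⊕ Fin d) (Fin d ⊕ Fin d) F)) = W ∧ W.map (Matrix.toLin' (x : Matrix (Fin d ⊕ Fin d) (Fin d ⊕ Fin d) F)) = U)) := by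
  classical
  obtain ⟨z, hz⟩ := hx1
  have h2 : (2 : F) ≠ 0 := by
    intro h
    have h' : ((2 : ℕ) : F) = 0 := by exact_mod_cast h
    have hdvd := (CharP.cast_eq_zero_iff F p 2).mp h'
    have hp : p = 2 := (Nat.prime_dvd_prime_iff_eq (Fact.out) Nat.prime_two).mp hdvd
    obtain ⟨n, -, hn⟩ := FiniteField.card F p
    rw [hq, hp] at hn
    rw [hn] at hodd
    exact (Nat.not_even_iff_odd.mpr hodd) ((Nat.even_pow' n.pos.ne').mpr even_two)
  have hB : (Cfsg.Agent.Lib.Helper18.sympB (F := F) d).IsAlt := Cfsg.Agent.Lib.Helper18.sympB_isAlt d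
  have hnd : ∀ u, (∀ v, Cfsg.Agent.Lib.Helper18.sympB (F := F) d u v = 0) → u = 0 :=
    (Cfsg.Agent.Lib.Helper18.sympB_nondegenerate (F := F) d).1
  have hX : ∀ u v, Cfsg.Agent.Lib.Helper18.sympB (F := F) d
      (Matrix.toLin' (x : Matrix (Fin d ⊕ Fin d) (Fin d ⊕ Fin d) F) u)
      (Matrix.toLin' (x : Matrix (Fin d ⊕ Fin d) (Fin d ⊕ Fin d) F) v) =
      Cfsg.Agent.Lib.Helper18.sympB (F := F) d u v :=
    fun u v => Cfsg.Agent.Lib.Helper18.symplectic_isometry d _ x.2 u v
  have hxx : (x : Matrix (Fin d ⊕ Fin d) (Fin d ⊕ Fin d) F) * (x : Matrix (Fin d ⊕ Fin d) (Fin d ⊕ Fin d) F)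
      = z • (1 : Matrix (Fin d ⊕ Fin d) (Fin d ⊕ Fin d) F) := by
    rw [← hz, pow_two]
    rfl
  have hXX : ∀ v, Matrix.toLin' (x : Matrix (Fin d ⊕ Fin d) (Fin d ⊕ Fin d) F)
      (Matrix.toLin' (x : Matrix (Fin d ⊕ Fin d) (Fin d ⊕ Fin d) F) v) = z • v := by
    intro v
    rw [Matrix.toLin'_apply, Matrix.toLin'_apply, Matrix.mulVec_mulVec, hxx, Matrix.smul_mulVec,
      Matrix.one_mulVec]
  have hz1 : z = 1 ∨ z = -1 := by
    have hex : ∃ u v, Cfsg.Agent.Lib.Helper18.sympB (F := F) d u v ≠ 0 := by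
      by_contra h
      push_neg at h
      have h1 := hnd (fun _ => 1) (fun v => h _ v)
      have h3 := congrFun h1 (Sum.inl ⟨0, by omega⟩)
      simp at h3
    obtain ⟨u, v, huv⟩ := hex
    have h1 := hX (Matrix.toLin' (x : Matrix (Fin d ⊕ Fin d) (Fin d ⊕ Fin d) F) u)
      (Matrix.toLin' (x : Matrix (Fin d ⊕ Fin d) (Fin d ⊕ Fin d) F) v)
    rw [hXX, hXX, hX] at h1
    simp only [map_smul, LinearMap.smul_apply, smul_eq_mul] at h1
    have h3 : (z - 1) * (z + 1) = 0 := by
      have h4 : ((z - 1) * (z + 1)) * Cfsg.Agent.Lib.Helper18.sympB (F := F) d u v = 0 := by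
        linear_combination h1
      rcases mul_eq_zero.mp h4 with h | h
      · exact h
      · exact absurd h huv
    rcases mul_eq_zero.mp h3 with h | h
    · exact Or.inl (sub_eq_zero.mp h)
    · exact Or.inr (eq_neg_of_add_eq_zero_left h)
  rcases hz1 with rfl | rfl
  · obtain ⟨U, W, hc, hU, hW, hXU, hXW⟩ := modeA h2 _ hB _ hX (fun v => by rw [hXX, one_smul]) hnd
    refine ⟨U, W, hc, ?_, ?_, Or.inl ⟨hXU, hXW⟩⟩
    · intro u hu v hv
      rw [← Cfsg.Agent.Lib.Helper18.sympB_eq_sympForm]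
      exact hU u hu v hv
    · intro u hu v hv
      rw [← Cfsg.Agent.Lib.Helper18.sympB_eq_sympForm]
      exact hW u hu v hv
  · obtain ⟨U, W, hc, hU, hW, hXU, hXW⟩ := modeB h2 _ hB _ hX
      (fun v => by rw [hXX, neg_smul, one_smul]) hnd
    refine ⟨U, W, hc, ?_, ?_, Or.inr ⟨hXU, hXW⟩⟩
    · intro u hu v hv
      rw [← Cfsg.Agent.Lib.Helper18.sympB_eq_sympForm]
      exact hU u hu v hv
    · intro u hu v hv
      rw [← Cfsg.Agent.Lib.Helper18.sympB_eq_sympForm]
      exact hW u hu v hv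

end Cfsg.Agent.S5962
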