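import Cfsg.Statements.S5963
import Cfsg.Agent.Lib.Helper98.LagDer

set_option autoImplicit false
open scoped MatrixGroups
open Cfsg

namespace Cfsg.Agent.S5963

/-- Derangements of odd prime order of PSp_n(q), q odd, on pairs of complementary totally isotropic subspaces. Here `T = PSp_n(q)`, `n = 2d ≥ 4`, `q` odd, realised through the symplectic matrices over the field `F` with `q` elements; Ω is the set of unordered pairs `{U, W}` of complementary totally isotropic `d`-spaces (`F^n = U ⊕ W`), whose stabilizers are the subgroups of type GL_d(q).2 (maximal except in some small cases; maximality is not assumed); an element of `T` of prime order `r` (a symplectic matrix `x` with `x^r` scalar, `x` not scalar) fixes such a pair when it fixes or interchanges `U` and `W`. For every odd prime `r ≠ p` dividing the number of such pairs, some element of `T` of order `r` fixes no such pair (the action is never `r`-elusive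 for odd `r ≠ p`). -/
theorem result {F : Type*} [Field F] [Fintype F] {p : ℕ} [Fact p.Prime] [CharP F p] {q : ℕ} (hq : Fintype.card F = q)
    (d : ℕ) (hd : 2 ≤ d) (hT : (d, q) ≠ (2, 2)) (hodd : Odd q)
    (r : ℕ) [Fact r.Prime] (hr2 : r ≠ 2) (hrp : r ≠ p) (hΩ : r ∣ Nat.card {P : Submodule F (Fin d ⊕ Fin d → F) × Submodule F (Fin d ⊕ Fin d → F) // IsCompl P.1 P.2 ∧ (∀ u ∈ P.1, ∀ v ∈ P.1, Cfsg.sympForm d F u v = 0) ∧ (∀ u ∈ P.2, ∀ v ∈ P.2, Cfsg.sympForm d F u v = 0)} / 2) :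
    ∃ x : ↥(Matrix.symplecticGroup (Fin d) F),
      (∃ z : F, ((x ^ r : ↥(Matrix.symplecticGroup (Fin d) F)) : Matrix (Fin d ⊕ Fin d) (Fin d ⊕ Fin d) F) = z • (1 : Matrix (Fin d ⊕ Fin d) (Fin d ⊕ Fin d) F)) ∧
      (∀ z : F, (x : Matrix (Fin d ⊕ Fin d) (Fin d ⊕ Fin d) F) ≠ z • (1 : Matrix (Fin d ⊕ Fin d) (Fin d ⊕ Fin d) F)) ∧
      ¬ (∃ U W : Submodule F (Fin d ⊕ Fin d → F), IsCompl U W ∧ (∀ u ∈ U, ∀ v ∈ U, Cfsg.sympForm d F u v = 0) ∧ (∀ u ∈ W, ∀ v ∈ W, Cfsg.sympForm d F u v = 0) ∧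
        ((U.map (Matrix.toLin' (x : Matrix (Fin d ⊕ Fin d) (Fin d ⊕ Fin d) F)) = U ∧ W.map (Matrix.toLin' (x : Matrix (Fin d ⊕ Fin d) (Fin d ⊕ Fin d) F)) = W) ∨
         (U.map (Matrix.toLin' (x : Matrix (Fin d ⊕ Fin d) (Fin d ⊕ Fin d) F)) = W ∧ W.map (Matrix.toLin' (x : Matrix (Fin d ⊕ Fin d) (Fin d ⊕ Fin d) F)) = U))) := by
  classical
  have hd1 : 1 ≤ d := by omega
  have hrprime : r.Prime := Fact.out
  have hpprime : p.Prime := Fact.out
  have hev := Cfsg.Agent.Lib.Helper98.lagder_card_even (F := F) d hd1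
  have hN : r ∣ Nat.card {P : Submodule F (Fin d ⊕ Fin d → F) × Submodule F (Fin d ⊕ Fin d → F) // IsCompl P.1 P.2 ∧ (∀ u ∈ P.1, ∀ v ∈ P.1, Cfsg.sympForm d F u v = 0) ∧ (∀ u ∈ P.2, ∀ v ∈ P.2, Cfsg.sympForm d F u v = 0)} := by
    obtain ⟨m, hm⟩ := hev
    rw [hm, Nat.mul_div_cancel_left m (by norm_num)] at hΩ
    rw [hm]
    exact Dvd.dvd.mul_left hΩ 2
  have hdv := dvd_trans hN (Cfsg.Agent.Lib.Helper98.lagder_card_dvd hq d)
  obtain ⟨n, hn⟩ := FiniteField.card F p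
  rw [hq] at hn
  have hrq : ¬ r ∣ q := by
    rw [hn.2]
    intro h
    exact hrp ((Nat.prime_dvd_prime_iff_eq hrprime hpprime).mp (hrprime.dvd_of_dvd_pow h))
  have hqpos : 0 < q := by rw [← hq]; exact Fintype.card_pos
  rcases (Nat.Prime.dvd_mul hrprime).mp hdv with h1 | h1
  · exact absurd (hrprime.dvd_of_dvd_pow h1) hrq
  obtain ⟨i, hi, hri⟩ := (Prime.dvd_finsetProd_iff hrprime.prime _).mp h1
  rw [Finset.mem_range] at hi
  obtain ⟨j, hj1, hjd, hrj⟩ : ∃ j, 1 ≤ j ∧ j ≤ d ∧ r ∣ q ^ j + 1 :=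
    ⟨d - i, by omega, by omega, hri⟩
  have hz : ((q : ℕ) : ZMod r) ^ j = -1 := by
    have h2 : ((q ^ j + 1 : ℕ) : ZMod r) = 0 := (ZMod.natCast_eq_zero_iff _ _).mpr hrj
    push_cast at h2
    exact eq_neg_of_add_eq_zero_left h2
  have hr3 : Fact (2 < r) := ⟨by have := hrprime.two_le; omega⟩
  have hne1 : ((q : ℕ) : ZMod r) ^ j ≠ 1 := by
    rw [hz]
    exact ZMod.neg_one_ne_one
  have h2j : ((q : ℕ) : ZMod r) ^ (2 * j) = 1 := by
    rw [mul_comm, pow_mul, hz]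
    simp
  obtain ⟨i₀, hi₀⟩ : ∃ i₀, i₀ = orderOf ((q : ℕ) : ZMod r) := ⟨_, rfl⟩
  have hd2 : i₀ ∣ 2 * j := by rw [hi₀]; exact orderOf_dvd_of_pow_eq_one h2j
  have hnd : ¬ i₀ ∣ j := fun h => hne1 (by rw [hi₀] at h; exact orderOf_dvd_iff_pow_eq_one.mp h)
  have heven : Even i₀ := by
    by_contra hodd'
    rw [Nat.not_even_iff_odd] at hodd'
    exact hnd (Nat.Coprime.dvd_of_dvd_mul_left (Nat.coprime_two_left.mpr hodd').symm hd2)
  obtain ⟨a, ha⟩ := heven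
  have hi₀pos : 0 < i₀ := Nat.pos_of_dvd_of_pos hd2 (by omega)
  have ha1 : 1 ≤ a := by omega
  have haj : a ≤ j := by
    have h3 : 2 * a ∣ 2 * j := by rw [show 2 * a = i₀ by omega]; exact hd2
    exact Nat.le_of_dvd (by omega) ((Nat.mul_dvd_mul_iff_left (by norm_num)).mp h3)
  have had : a ≤ d := by omega
  have hr2a : r ∣ q ^ (2 * a) - 1 := by
    have h3 : ((q : ℕ) : ZMod r) ^ (2 * a) = 1 := by
      rw [show 2 * a = i₀ by omega, hi₀]
      exact pow_orderOf_eq_one _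
    have h4 : ((q ^ (2 * a) - 1 : ℕ) : ZMod r) = 0 := by
      rw [Nat.cast_sub (Nat.one_le_pow _ _ hqpos)]
      push_cast
      rw [h3, sub_self]
    exact (ZMod.natCast_eq_zero_iff _ _).mp h4
  obtain ⟨x, hxr, hx1, hxrank⟩ := Cfsg.Agent.Lib.Helper98.lagder_exists_small hq a d ha1 had r hr2a
  have hrank' : (x.1 - 1).rank ≤ orderOf ((Fintype.card F : ℕ) : ZMod r) := by
    rw [hq, ← hi₀]
    omega
  refine ⟨x, ⟨1, ?_⟩, ?_, ?_⟩
  · rw [hxr, one_smul]
    rfl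
  · intro z hz'
    have hJ := SymplecticGroup.mem_iff.mp x.2
    rw [hz'] at hJ
    rw [Matrix.smul_mul, Matrix.one_mul, Matrix.transpose_smul, Matrix.transpose_one,
      Matrix.mul_smul, Matrix.mul_one, smul_smul] at hJ
    have hJ1 := congrFun (congrFun hJ (Sum.inl ⟨0, hd1⟩)) (Sum.inr ⟨0, hd1⟩)
    rw [Matrix.smul_apply, Matrix.J, Matrix.fromBlocks_apply₁₂, Matrix.neg_apply,
      Matrix.one_apply_eq, smul_eq_mul, mul_neg, mul_one, neg_inj] at hJ1
    have hxr1 : (x.1) ^ r = 1 := by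
      rw [← SubmonoidClass.coe_pow, hxr]
      rfl
    rw [hz', smul_pow, one_pow] at hxr1
    have hzr := congrFun (congrFun hxr1 (Sum.inl ⟨0, hd1⟩)) (Sum.inl ⟨0, hd1⟩)
    rw [Matrix.smul_apply, Matrix.one_apply_eq, smul_eq_mul, mul_one] at hzr
    obtain ⟨k, hk⟩ : ∃ k, r = 2 * k + 1 := hrprime.eq_two_or_odd'.resolve_left hr2
    have hz1 : z = 1 := by
      rw [hk, pow_succ, pow_mul, pow_two, hJ1, one_pow, one_mul] at hzr
      exact hzr
    apply hx1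
    apply Subtype.ext
    rw [hz', hz1, one_smul]
    rfl
  · rintro ⟨U, W, hUW, hU, hW, h⟩
    exact Cfsg.Agent.Lib.Helper98.lagder_no_fixed_pair d hd1 r hr2 hrp x hxr hx1 hrank' U W hUW hU hW h

end Cfsg.Agent.S5963
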