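import Cfsg.Statements.S5964
-- import your own Cfsg.Agent.* helpers here
import Cfsg.Agent.Lib.Helper47.InvSub

set_option autoImplicit false
open scoped MatrixGroups
open Cfsg

namespace Cfsg.Agent.S5964

open Cfsg.Agent.Lib.Helper47

/-- Involutions of PSL_n(q) and subfield subgroups. Here `T = PSL_n(F)` for a field `F` with `q = p^f` elements (`n ≥ 2`, `(n, q) ≠ (2, 2), (2, 3)`), `F₀` is the subfield with `q₀` elements where `q = q₀^k` for a prime `k`, and `H` is the subgroup of matrices of determinant 1 lying in the subfield group of `F₀` (invertible matrices over `F₀` times scalars) — a maximal subgroup of type GL_n(q₀) (the case `n = 2`, `q₀ = 2` is excluded); Ω is the set of `T`-conjugates of `H` (cosets of `H`), so an element of `T` of prime order `r` (a matrix `x` of determinant 1 with `x^r` scalar, `x` not scalar) fixes a point of Ω when some conjugate of `x` by a matrix of determinant 1 lies in `H`. Suppose the index of `H` is even. Then every involution of `T` is conjugate in `T` into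 `H` if and only if either `q` is even, or `k = 2` and `(n)_2 ≤ (q − 1)_2`. (For `q` odd and `k` odd the index of `H` is odd, so that case does not arise.) -/
theorem result {F : Type*} [Field F] [Fintype F] {p : ℕ} [Fact p.Prime] [CharP F p] {q : ℕ} (hq : Fintype.card F = q)
    (n : ℕ) (hn : 2 ≤ n) (hT : (n, q) ≠ (2, 2) ∧ (n, q) ≠ (2, 3))
    (F₀ : Subfield F) (k q₀ : ℕ) (hk : k.Prime) (hF₀ : Nat.card ↥F₀ = q₀) (hqk : q = q₀ ^ k) (hC5 : ¬ (n = 2 ∧ q₀ = 2)) (hΩ : 2 ∣ ((Cfsg.Geo.subfieldSubgroup F₀ 1).comap (Matrix.SpecialLinearGroup.toGL : Matrix.SpecialLinearGroup (Fin n) F →* GL (Fin n) F)).index) :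
    (∀ x : Matrix.SpecialLinearGroup (Fin n) F,
      (∃ z : F, ((x ^ 2 : Matrix.SpecialLinearGroup (Fin n) F) : Matrix (Fin n) (Fin n) F) = z • (1 : Matrix (Fin n) (Fin n) F)) →
      (∀ z : F, (x : Matrix (Fin n) (Fin n) F) ≠ z • (1 : Matrix (Fin n) (Fin n) F)) →
      ∃ P : Matrix.SpecialLinearGroup (Fin n) F, P⁻¹ * x * P ∈ ((Cfsg.Geo.subfieldSubgroup F₀ 1).comap (Matrix.SpecialLinearGroup.toGL : Matrix.SpecialLinearGroup (Fin n) F →* GL (Fin n) F))) ↔
    (Odd q → (k = 2 ∧ padicValNat 2 n ≤ padicValNat 2 (q - 1))) := by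
  have hn0 : n ≠ 0 := by omega
  constructor
  · intro h hodd
    have hk2 : k = 2 := by
      by_contra hk2
      have hkodd : Odd k := hk.odd_of_ne_two hk2
      exact subfield_index_odd hq hn0 F₀ hF₀ hqk hodd hkodd hΩ
    subst hk2
    refine ⟨rfl, ?_⟩
    by_contra hv
    push Not at hv
    obtain ⟨x, hx1, hx2, hx3⟩ := subfield_inv_bad (n := n) hq F₀ hF₀ hqk hodd hv
    exact hx3 (h x hx1 hx2)
  · rintro hR x ⟨z, hz⟩ -
    apply subfield_inv_conj hn0 F₀ x z hz
    intro h2
    have hodd : Odd q := by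
      by_contra hne
      apply h2
      have h3 : Fintype.card F % 2 = 0 := by
        rw [hq]
        exact Nat.even_iff.mp (Nat.not_odd_iff_even.mp hne)
      have h4 := (FiniteField.even_card_iff_char_two).mpr h3
      have h5 : ((ringChar F : ℕ) : F) = 0 := ringChar.Nat.cast_ringChar
      rw [h4] at h5
      exact_mod_cast h5
    obtain ⟨hk2, hv⟩ := hR hodd
    subst hk2
    exact subfield_sq_of_sl hq hn0 F₀ hF₀ hqk hodd hv x z hz

end Cfsg.Agent.S5964
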