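import Cfsg.Statements.S5965
import Cfsg.Agent.Lib.Helper96.SfBackSpecial
import Cfsg.Agent.Lib.Helper96.SfMain

set_option autoImplicit false
open scoped MatrixGroups
open Cfsg

namespace Cfsg.Agent.S5965

/-- Elements of odd prime order r ≠ p of PSL_n(q) and subfield subgroups. Here `T = PSL_n(F)` for a field `F` with `q = p^f` elements (`n ≥ 2`, `(n, q) ≠ (2, 2), (2, 3)`), `F₀` is the subfield with `q₀` elements where `q = q₀^k` for a prime `k`, and `H` is the subgroup of matrices of determinant 1 lying in the subfield group of `F₀` (invertible matrices over `F₀` times scalars) — a maximal subgroup of type GL_n(q₀) (the case `n = 2`, `q₀ = 2` is excluded); Ω is the set of `T`-conjugates of `H` (cosets of `H`), so an element of `T` of prime order `r` (a matrix `x` of determinant 1 with `x^r` scalar, `x` not scalar) fixes a point of Ω when some conjugate of `x` by a matrix of determinant 1 lies in `H`. Let `r ≠ p` be an odd prime dividing the index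 of `H`, with `(n, r) ≠ (6, 3)` and, when `r = k` divides `q₀ − 1`, with `(n)_r ≤ (q − 1)_r`. Then every element of `T` of order `r` is conjugate in `T` into `H` if and only if `r = k`, or `k = 2`, `r = n ∈ {3, 5}` and `(q₀ + 1)_r = r`. The two excluded cases, `(n, r) = (6, 3)` and `r = k ∣ q₀ − 1` with `(n)_r > (q − 1)_r`, are ones where this criterion can fail, so they are left out. -/
theorem result {F : Type*} [Field F] [Fintype F] {p : ℕ} [Fact p.Prime] [CharP F p] {q : ℕ} (hq : Fintype.card F = q)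
    (n : ℕ) (hn : 2 ≤ n) (hT : (n, q) ≠ (2, 2) ∧ (n, q) ≠ (2, 3))
    (F₀ : Subfield F) (k q₀ : ℕ) (hk : k.Prime) (hF₀ : Nat.card ↥F₀ = q₀) (hqk : q = q₀ ^ k) (hC5 : ¬ (n = 2 ∧ q₀ = 2)) (r : ℕ) [Fact r.Prime] (hr2 : r ≠ 2) (hrp : r ≠ p) (hgap : ¬ (n = 6 ∧ r = 3)) (hgapk : r = k → r ∣ q₀ - 1 → padicValNat r n ≤ padicValNat r (q - 1)) (hΩ : r ∣ ((Cfsg.Geo.subfieldSubgroup F₀ 1).comap (Matrix.SpecialLinearGroup.toGL : Matrix.SpecialLinearGroup (Fin n) F →* GL (Fin n) F)).index) :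
    (∀ x : Matrix.SpecialLinearGroup (Fin n) F,
      (∃ z : F, ((x ^ r : Matrix.SpecialLinearGroup (Fin n) F) : Matrix (Fin n) (Fin n) F) = z • (1 : Matrix (Fin n) (Fin n) F)) →
      (∀ z : F, (x : Matrix (Fin n) (Fin n) F) ≠ z • (1 : Matrix (Fin n) (Fin n) F)) →
      ∃ P : Matrix.SpecialLinearGroup (Fin n) F, P⁻¹ * x * P ∈ ((Cfsg.Geo.subfieldSubgroup F₀ 1).comap (Matrix.SpecialLinearGroup.toGL : Matrix.SpecialLinearGroup (Fin n) F →* GL (Fin n) F))) ↔
    (r = k ∨ (k = 2 ∧ r = n ∧ (n = 3 ∨ n = 5) ∧ padicValNat r (q₀ + 1) = 1)) := by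
  subst hqk
  have hn0 : n ≠ 0 := by omega
  constructor
  · intro hall
    by_contra hcon
    rw [not_or] at hcon
    exact Cfsg.Agent.Lib.Helper96.Sf.forward n hn F₀ k q₀ hk hF₀ hq r hr2 hrp hgap hΩ hall
      hcon.1 hcon.2
  · rintro (hrk | ⟨hk2, hrn, hn35, hv⟩) x ⟨z, hz⟩ hns
    · subst hrk
      exact Cfsg.Agent.Lib.Helper96.Sf.backward_k F₀ hF₀ r hr2 hrp hq n hn0 (hgapk rfl) x z hz
    · subst hk2
      subst hrn
      exact Cfsg.Agent.Lib.Helper96.Sf.backward_special F₀ hF₀ r hn35 hrp hq hv x z hz hns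

end Cfsg.Agent.S5965
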