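import Cfsg.Statements.S5967
-- import your own Cfsg.Agent.* helpers here
import Cfsg.Agent.Lib.Helper47.InvSp

set_option autoImplicit false
open scoped MatrixGroups
open Cfsg

namespace Cfsg.Agent.S5967

open Cfsg.Agent.Lib.Helper47

/-- Involutions of PSL_n(q) and the symplectic-type subgroups. Here `T = PSL_n(F)` for a field `F` with `q` elements, `n ≥ 4` even, `f` is a nondegenerate alternating form on `F^n`, and `H` is the subgroup of matrices of determinant 1 preserving `f` up to a scalar — a maximal subgroup of type Sp_n(q); Ω is the set of `T`-conjugates of `H` (cosets of `H`), so an element of `T` of prime order `r` (a matrix `x` of determinant 1 with `x^r` scalar, `x` not scalar) fixes a point of Ω when some conjugate of `x` by a matrix of determinant 1 preserves `f` up to a scalar. Suppose the index of `H` is even. Then every involution of `T` is conjugate in `T` into `H` if and only if `(q − 1)_2 ≤ (n)_2`. -/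
theorem result {F : Type*} [Field F] [Fintype F] {p : ℕ} [Fact p.Prime] [CharP F p] {q : ℕ} (hq : Fintype.card F = q)
    (n : ℕ) (hn : 4 ≤ n) (he : Even n) (f : (Fin n → F) → (Fin n → F) → F) (hf : Cfsg.Geo.IsSymplecticForm f)
    (hΩ : 2 ∣ ((Cfsg.Geo.similarityGroup f).comap (Matrix.SpecialLinearGroup.toGL : Matrix.SpecialLinearGroup (Fin n) F →* GL (Fin n) F)).index) :
    (∀ x : Matrix.SpecialLinearGroup (Fin n) F,
      (∃ z : F, ((x ^ 2 : Matrix.SpecialLinearGroup (Fin n) F) : Matrix (Fin n) (Fin n) F) = z • (1 : Matrix (Fin n) (Fin n) F)) →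
      (∀ z : F, (x : Matrix (Fin n) (Fin n) F) ≠ z • (1 : Matrix (Fin n) (Fin n) F)) →
      ∃ P : Matrix.SpecialLinearGroup (Fin n) F, P⁻¹ * x * P ∈ ((Cfsg.Geo.similarityGroup f).comap (Matrix.SpecialLinearGroup.toGL : Matrix.SpecialLinearGroup (Fin n) F →* GL (Fin n) F))) ↔
    padicValNat 2 (q - 1) ≤ padicValNat 2 n := by
  constructor
  · intro h
    by_contra hv
    push Not at hv
    obtain ⟨x, hx1, hx2, hx3⟩ := sp_inv_bad hq hn f hf hv
    exact hx3 (h x hx1 hx2)
  · rintro hv x ⟨z, hz⟩ -
    exact sp_inv_conj hq hn he f hf hv x z hz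

end Cfsg.Agent.S5967
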