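import Cfsg.Statements.S5969
import Cfsg.Agent.Lib.Helper98.Ext2

set_option autoImplicit false
open scoped MatrixGroups
open Cfsg

namespace Cfsg.Agent.S5969

/-- Involutions of PSL_n(q) and extension-field subgroups of degree 2. Here `T = PSL_n(F)` for a field `F` with `q = p^f` elements (`n ≥ 2`, `(n, q) ≠ (2, 2), (2, 3)`), `k` is a prime dividing `n`, `K` is a subalgebra of the `n × n` matrices that is a field of degree `k` over `F` (an extension-field structure F_{q^k} on `F^n`), and `H` is the subgroup of matrices of determinant 1 normalizing `K` — a subgroup of type GL_{n/k}(q^k) (maximal except in some small cases; maximality is not assumed); Ω is the set of cosets of `H` in `T`, so an element of `T` of prime order `r` (a matrix `x` of determinant 1 with `x^r` scalar, `x` not scalar) fixes a point of Ω when some conjugate of `x` by a matrix of determinant 1 normalizes `K`. Take `k = 2` and suppose the index of `H` is even. Then every involution of `T` is conjugate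 in `T` into `H` if and only if `n = 2`, or `q` is odd and `(q − 1)_2 ≤ (n)_2`. -/
theorem result {F : Type*} [Field F] [Fintype F] {p : ℕ} [Fact p.Prime] [CharP F p] {q : ℕ} (hq : Fintype.card F = q)
    (n : ℕ) (hn : 2 ≤ n) (hT : (n, q) ≠ (2, 2) ∧ (n, q) ≠ (2, 3))
    (k : ℕ) (hk : k.Prime) (hkn : k ∣ n) (K : Subalgebra F (Matrix (Fin n) (Fin n) F)) (hK : Cfsg.Geo.IsFieldSubalgebra k K) (hk2 : k = 2) (hΩ : 2 ∣ ((Cfsg.Geo.subalgebraNormalizer K).comap (Matrix.SpecialLinearGroup.toGL : Matrix.SpecialLinearGroup (Fin n) F →* GL (Fin n) F)).index) :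
    (∀ x : Matrix.SpecialLinearGroup (Fin n) F,
      (∃ z : F, ((x ^ 2 : Matrix.SpecialLinearGroup (Fin n) F) : Matrix (Fin n) (Fin n) F) = z • (1 : Matrix (Fin n) (Fin n) F)) →
      (∀ z : F, (x : Matrix (Fin n) (Fin n) F) ≠ z • (1 : Matrix (Fin n) (Fin n) F)) →
      ∃ P : Matrix.SpecialLinearGroup (Fin n) F, P⁻¹ * x * P ∈ ((Cfsg.Geo.subalgebraNormalizer K).comap (Matrix.SpecialLinearGroup.toGL : Matrix.SpecialLinearGroup (Fin n) F →* GL (Fin n) F))) ↔
    (n = 2 ∨ (Odd q ∧ padicValNat 2 (q - 1) ≤ padicValNat 2 n)) := by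
  classical
  subst hk2
  subst hq
  have hn0 : 0 < n := by omega
  haveI : Nonempty (Fin n) := ⟨⟨0, hn0⟩⟩
  haveI : NeZero n := ⟨by omega⟩
  obtain ⟨m, hm⟩ := hkn
  have hneven : Even n := ⟨m, by omega⟩
  have hoddiff := Cfsg.Agent.Lib.Helper98.ext2_odd_iff (F := F) p
  constructor
  · intro hall
    by_contra hcon
    push Not at hcon
    obtain ⟨hn2, hcon2⟩ := hcon
    have hn4 : 3 ≤ n := by omega
    by_cases h2 : (2 : F) = 0
    · obtain ⟨x, hxx, hns, u, φ, hu, hφ, hx⟩ :=
        Cfsg.Agent.Lib.Helper98.ext2_der_even (F := F) (n := n) (by omega) h2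
      obtain ⟨P, hP⟩ := hall x ⟨1, by
        rw [one_smul, Matrix.SpecialLinearGroup.coe_pow, pow_two]
        exact hxx⟩ hns
      exact Cfsg.Agent.Lib.Helper98.ext2_not_conj hK (le_refl 2) hn4 x 1 u φ hu hφ hx P hP
    · have hodd : Odd (Fintype.card F) := hoddiff.mpr h2
      have hv := hcon2 hodd
      obtain ⟨c, hc⟩ := Cfsg.Agent.Lib.Helper47.exists_pow_eq_neg_one (F := F) rfl
        (by omega : n ≠ 0) hv
      obtain ⟨x, hxx, hns, u, φ, hu, hφ, hx⟩ :=
        Cfsg.Agent.Lib.Helper98.ext2_der_odd (F := F) (n := n) (by omega) h2 c hc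
      obtain ⟨P, hP⟩ := hall x ⟨c ^ 2, by
        rw [Matrix.SpecialLinearGroup.coe_pow, pow_two]
        exact hxx⟩ hns
      exact Cfsg.Agent.Lib.Helper98.ext2_not_conj hK (le_refl 2) hn4 x c u φ hu hφ hx P hP
  · intro hR x hx hns
    obtain ⟨z, hz⟩ := hx
    rw [Matrix.SpecialLinearGroup.coe_pow, pow_two] at hz
    have hz0 : z ≠ 0 := by
      intro h0
      have h1 := congrArg Matrix.det hz
      rw [Matrix.det_mul, x.2, one_mul, h0, zero_smul, Matrix.det_zero] at h1
      exact one_ne_zero h1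
    have hD : ∀ δ : F, δ ≠ 0 → ∃ Cm : Matrix (Fin n) (Fin n) F,
        Cm * (x : Matrix (Fin n) (Fin n) F) = (x : Matrix (Fin n) (Fin n) F) * Cm ∧ Cm.det = δ :=
      fun δ _ => Cfsg.Agent.Lib.Helper47.exists_commute_det_of_sq x.1 z hz0 hz δ
    suffices hA : ∃ A : GL (Fin n) F, A * Matrix.SpecialLinearGroup.toGL x * A⁻¹ ∈
        Cfsg.Geo.subalgebraNormalizer K by
      obtain ⟨A, hA⟩ := hA
      exact Cfsg.Agent.Lib.Helper47.sl_conj_of_gl_conj x A hA hD
    rcases Cfsg.Agent.Lib.Helper47.inv_classes x.1 z hz0 hz with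
      ⟨h2, hs, hcase⟩ | ⟨h2, c, hc, -⟩
    · have hodd : Odd (Fintype.card F) := hoddiff.mpr h2
      rcases hcase with ⟨c, a, b, hc, hab, hcp⟩ | ⟨hnsq, -⟩
      · have hc0 : c ≠ 0 := by
          rintro rfl
          apply hz0
          rw [hc]
          ring
        rcases hR with hn2 | ⟨-, hv⟩
        · subst hn2
          exact Cfsg.Agent.Lib.Helper98.ext2_conj_into_two K hK x c hc0 (by rw [← hc]; exact hz) hns
        · obtain ⟨ha, hb⟩ :=
            Cfsg.Agent.Lib.Helper98.ext2_parity rfl h2 hneven hv x c a b hab hcp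
          exact Cfsg.Agent.Lib.Helper98.ext2_conj_into_sq hK hodd h2 x c hc0 a b hab ha hb hs hcp
      · exact Cfsg.Agent.Lib.Helper98.ext2_conj_into_nonsq hK hodd x z hnsq hz
    · have hc0 : c ≠ 0 := by
        rintro rfl
        apply hz0
        rw [hc]
        ring
      rcases hR with hn2 | ⟨hoddq, -⟩
      · subst hn2
        exact Cfsg.Agent.Lib.Helper98.ext2_conj_into_two K hK x c hc0 (by rw [← hc]; exact hz) hns
      · exact absurd h2 (hoddiff.mp hoddq)

end Cfsg.Agent.S5969
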