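import Cfsg.Statements.S5970
import Cfsg.Agent.Lib.Helper98.Singer

set_option autoImplicit false
open scoped MatrixGroups
open Cfsg

namespace Cfsg.Agent.S5970

/-- Elements of order `n` of PSL_n(q), `n` prime, and the normalizer of a Singer cycle. Here `T = PSL_n(F)` for a field `F` with `q = p^f` elements (`n ≥ 2`, `(n, q) ≠ (2, 2), (2, 3)`), `k` is a prime dividing `n`, `K` is a subalgebra of the `n × n` matrices that is a field of degree `k` over `F` (an extension-field structure F_{q^k} on `F^n`), and `H` is the subgroup of matrices of determinant 1 normalizing `K` — a subgroup of type GL_{n/k}(q^k) (maximal except in some small cases; maximality is not assumed); Ω is the set of cosets of `H` in `T`, so an element of `T` of prime order `r` (a matrix `x` of determinant 1 with `x^r` scalar, `x` not scalar) fixes a point of Ω when some conjugate of `x` by a matrix of determinant 1 normalizes `K`. Take `k = n > 3` prime with `n ≠ p` (so `H` is the normalizer of a Singer cycle), and suppose `n` divides the index of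 `H`. Then every element of `T` of order `n` is conjugate in `T` into `H` if and only if the multiplicative order of `q` modulo `n` is `n − 1`. -/
theorem result {F : Type*} [Field F] [Fintype F] {p : ℕ} [Fact p.Prime] [CharP F p] {q : ℕ} (hq : Fintype.card F = q)
    (n : ℕ) (hn : 2 ≤ n) (hT : (n, q) ≠ (2, 2) ∧ (n, q) ≠ (2, 3))
    (k : ℕ) (hk : k.Prime) (hkn : k ∣ n) (K : Subalgebra F (Matrix (Fin n) (Fin n) F)) (hK : Cfsg.Geo.IsFieldSubalgebra k K) (hkn' : k = n) (hn3 : 3 < n) (hnp : n ≠ p) (hΩ : n ∣ ((Cfsg.Geo.subalgebraNormalizer K).comap (Matrix.SpecialLinearGroup.toGL : Matrix.SpecialLinearGroup (Fin n) F →* GL (Fin n) F)).index) :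
    (∀ x : Matrix.SpecialLinearGroup (Fin n) F,
      (∃ z : F, ((x ^ n : Matrix.SpecialLinearGroup (Fin n) F) : Matrix (Fin n) (Fin n) F) = z • (1 : Matrix (Fin n) (Fin n) F)) →
      (∀ z : F, (x : Matrix (Fin n) (Fin n) F) ≠ z • (1 : Matrix (Fin n) (Fin n) F)) →
      ∃ P : Matrix.SpecialLinearGroup (Fin n) F, P⁻¹ * x * P ∈ ((Cfsg.Geo.subalgebraNormalizer K).comap (Matrix.SpecialLinearGroup.toGL : Matrix.SpecialLinearGroup (Fin n) F →* GL (Fin n) F))) ↔
    orderOf (q : ZMod n) = n - 1 := by
  classical
  subst hq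
  have hKn : Cfsg.Geo.IsFieldSubalgebra n K := hkn' ▸ hK
  have hnP : n.Prime := hkn' ▸ hk
  haveI : Fact n.Prime := ⟨hnP⟩
  have h5 : 5 ≤ n := by
    by_contra h
    have h4 : n = 4 := by omega
    rw [h4] at hnP
    exact absurd hnP (by norm_num)
  constructor
  · intro hall
    by_contra hne
    obtain ⟨x, hxn, hx1, hrank⟩ :=
      Cfsg.Agent.Lib.Helper98.singer_exists_der (F := F) n h5 hnp hne
    have hns : ∀ z : F, (x : Matrix (Fin n) (Fin n) F) ≠ z • (1 : Matrix (Fin n) (Fin n) F) := by
      intro z hz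
      obtain ⟨u, u', hu0, hu, -, -⟩ := Cfsg.Agent.Lib.Helper98.singer_fixed_pair x.1 hrank
      have hz' : x.1 = z • (1 : Matrix (Fin n) (Fin n) F) := hz
      rw [hz', Matrix.smul_mulVec, Matrix.one_mulVec] at hu
      have hz1 : z = 1 := by
        by_contra hz1
        have h3 : (z - 1) • u = 0 := by rw [sub_smul, hu, one_smul, sub_self]
        rcases smul_eq_zero.mp h3 with h4 | h4
        · exact hz1 (sub_eq_zero.mp h4)
        · exact hu0 h4
      apply hx1
      rw [hz', hz1, one_smul]
    obtain ⟨P, hP⟩ := hall x ⟨1, by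
      rw [one_smul, Matrix.SpecialLinearGroup.coe_pow]
      exact hxn⟩ hns
    exact Cfsg.Agent.Lib.Helper98.singer_not_conj hKn hnP x hx1 hrank P hP
  · intro hord x hx hns
    obtain ⟨z, hz⟩ := hx
    rw [Matrix.SpecialLinearGroup.coe_pow] at hz
    exact Cfsg.Agent.Lib.Helper98.singer_conj_into n (by omega) hnp hord K hKn x z hz hns

end Cfsg.Agent.S5970
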