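import Cfsg.Statements.S5971
import Cfsg.Agent.Lib.Helper98.Singer3

set_option autoImplicit false
open scoped MatrixGroups
open Cfsg

namespace Cfsg.Agent.S5971

/-- Elements of order 3 of PSL_3(q) and the normalizer of a Singer cycle. Here `T = PSL_n(F)` for a field `F` with `q = p^f` elements (`n ≥ 2`, `(n, q) ≠ (2, 2), (2, 3)`), `k` is a prime dividing `n`, `K` is a subalgebra of the `n × n` matrices that is a field of degree `k` over `F` (an extension-field structure F_{q^k} on `F^n`), and `H` is the subgroup of matrices of determinant 1 normalizing `K` — a subgroup of type GL_{n/k}(q^k) (maximal except in some small cases; maximality is not assumed); Ω is the set of cosets of `H` in `T`, so an element of `T` of prime order `r` (a matrix `x` of determinant 1 with `x^r` scalar, `x` not scalar) fixes a point of Ω when some conjugate of `x` by a matrix of determinant 1 normalizes `K`. Take `n = k = 3` and suppose 3 divides the index of `H`. Then every element of `T` of order 3 is conjugate in `T` into `H`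 if and only if `q ≡ 4, 7` or `8 (mod 9)`. -/
theorem result {F : Type*} [Field F] [Fintype F] {p : ℕ} [Fact p.Prime] [CharP F p] {q : ℕ} (hq : Fintype.card F = q)
    (n : ℕ) (hn : n = 3) (k : ℕ) (hk : k.Prime) (hkn : k ∣ n) (K : Subalgebra F (Matrix (Fin n) (Fin n) F)) (hK : Cfsg.Geo.IsFieldSubalgebra k K) (hk3 : k = 3) (hΩ : 3 ∣ ((Cfsg.Geo.subalgebraNormalizer K).comap (Matrix.SpecialLinearGroup.toGL : Matrix.SpecialLinearGroup (Fin n) F →* GL (Fin n) F)).index) :
    (∀ x : Matrix.SpecialLinearGroup (Fin n) F,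
      (∃ z : F, ((x ^ 3 : Matrix.SpecialLinearGroup (Fin n) F) : Matrix (Fin n) (Fin n) F) = z • (1 : Matrix (Fin n) (Fin n) F)) →
      (∀ z : F, (x : Matrix (Fin n) (Fin n) F) ≠ z • (1 : Matrix (Fin n) (Fin n) F)) →
      ∃ P : Matrix.SpecialLinearGroup (Fin n) F, P⁻¹ * x * P ∈ ((Cfsg.Geo.subalgebraNormalizer K).comap (Matrix.SpecialLinearGroup.toGL : Matrix.SpecialLinearGroup (Fin n) F →* GL (Fin n) F))) ↔
    (q % 9 = 4 ∨ q % 9 = 7 ∨ q % 9 = 8) := by
  classical
  have hord2 : orderOf (((2 : ℕ) : ZMod 3)) = 2 := by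
    have h2 : (((2 : ℕ) : ZMod 3)) = (2 : ZMod 3) := by norm_num
    rw [h2]
    have ha : (2 : ZMod 3) ^ 2 = 1 := by decide
    have hb : (2 : ZMod 3) ≠ 1 := by decide
    exact orderOf_eq_prime ha hb
  subst hn
  subst hk3
  subst hq
  have hcases : Fintype.card F % 9 = 0 ∨ Fintype.card F % 9 = 3 ∨ Fintype.card F % 9 = 6 ∨
      Fintype.card F % 9 = 1 ∨ (Fintype.card F % 9 = 2 ∨ Fintype.card F % 9 = 5) ∨
      (Fintype.card F % 9 = 4 ∨ Fintype.card F % 9 = 7) ∨ Fintype.card F % 9 = 8 := by omega
  obtain ⟨m, hpP, hcard⟩ := FiniteField.card F p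
  have hp3 : 3 ∣ Fintype.card F → p = 3 := by
    intro h3
    rw [hcard] at h3
    have h4 := Nat.Prime.dvd_of_dvd_pow Nat.prime_three h3
    exact ((Nat.prime_dvd_prime_iff_eq Nat.prime_three hpP).mp h4).symm
  have hchar3 : 3 ∣ Fintype.card F →
      ((∀ x : Matrix.SpecialLinearGroup (Fin 3) F,
      (∃ z : F, ((x ^ 3 : Matrix.SpecialLinearGroup (Fin 3) F) : Matrix (Fin 3) (Fin 3) F) =
        z • (1 : Matrix (Fin 3) (Fin 3) F)) →
      (∀ z : F, (x : Matrix (Fin 3) (Fin 3) F) ≠ z • (1 : Matrix (Fin 3) (Fin 3) F)) →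
      ∃ P : Matrix.SpecialLinearGroup (Fin 3) F, P⁻¹ * x * P ∈
        ((Cfsg.Geo.subalgebraNormalizer K).comap
          (Matrix.SpecialLinearGroup.toGL :
            Matrix.SpecialLinearGroup (Fin 3) F →* GL (Fin 3) F))) → False) := by
    intro h3 hall
    have hp := hp3 h3
    subst hp
    obtain ⟨x, hx3, hns, u, u', hu0, hu, hu', hne⟩ :=
      Cfsg.Agent.Lib.Helper98.singer3_der_char3 (F := F)
    obtain ⟨P, hP⟩ := hall x ⟨1, by
      rw [one_smul, Matrix.SpecialLinearGroup.coe_pow]
      exact hx3⟩ hns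
    exact Cfsg.Agent.Lib.Helper98.singer_not_conj' hK Nat.prime_three x hns 1 u u' hu0 hu hu' hne
      P hP
  rcases hcases with h | h | h | h | h | h | h
  · constructor
    · intro hall
      exact (hchar3 (by omega) hall).elim
    · intro h'
      omega
  · constructor
    · intro hall
      exact (hchar3 (by omega) hall).elim
    · intro h'
      omega
  · constructor
    · intro hall
      exact (hchar3 (by omega) hall).elim
    · intro h'
      omega
  · constructor
    · intro hall
      exfalso
      obtain ⟨x, z, hxz, hns, μ, u, u', hu0, hu, hu', hne⟩ :=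
        Cfsg.Agent.Lib.Helper98.singer3_der_nine (F := F) h
      obtain ⟨P, hP⟩ := hall x ⟨z, by
        rw [Matrix.SpecialLinearGroup.coe_pow]
        exact hxz⟩ hns
      exact Cfsg.Agent.Lib.Helper98.singer_not_conj' hK Nat.prime_three x hns μ u u' hu0 hu hu'
        hne P hP
    · intro h'
      omega
  · exact (Cfsg.Agent.Lib.Helper98.singer3_index h K hK hΩ).elim
  · constructor
    · intro _
      omega
    · intro _ x hx hns
      obtain ⟨z, hz⟩ := hx
      rw [Matrix.SpecialLinearGroup.coe_pow] at hz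
      exact Cfsg.Agent.Lib.Helper98.singer3_conj_into p h K hK x z hz hns
  · constructor
    · intro _
      omega
    · intro _ x hx hns
      obtain ⟨z, hz⟩ := hx
      rw [Matrix.SpecialLinearGroup.coe_pow] at hz
      haveI : Fact (Nat.Prime 3) := ⟨Nat.prime_three⟩
      have hnp : 3 ≠ p := by
        intro h3p
        have h3 : 3 ∣ Fintype.card F := by
          rw [hcard, ← h3p]
          exact dvd_pow_self 3 m.ne_zero
        omega
      have hcast : ((Fintype.card F : ℕ) : ZMod 3) = ((2 : ℕ) : ZMod 3) :=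
        (ZMod.natCast_eq_natCast_iff' _ _ _).mpr (by omega)
      have hord : orderOf ((Fintype.card F : ℕ) : ZMod 3) = 3 - 1 := by
        rw [hcast]
        exact hord2
      exact Cfsg.Agent.Lib.Helper98.singer_conj_into 3 (le_refl 3) hnp hord K hK x z hz hns

end Cfsg.Agent.S5971
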