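import Cfsg.Statements.S5972
import Cfsg.Agent.Lib.Helper98.O72Main
import Cfsg.Agent.Lib.Helper98.O72CntC
import Cfsg.Agent.Lib.Helper69.O72CNTA
import Cfsg.Agent.Lib.Helper73.TiCntB
import Cfsg.Agent.Lib.Helper76.O72R2A
import Cfsg.Agent.Lib.Helper17.O72BRA
import Cfsg.Agent.Lib.Helper52.O72BRB
import Cfsg.Agent.Lib.Helper51.OTransportOdd
import Cfsg.Agent.Lib.Helper79.O72R2EQ
import Cfsg.Agent.Lib.Helper21.O72R2BWD

set_option autoImplicit false
open scoped MatrixGroups
open Cfsg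

namespace Cfsg.Agent.S5972

open Cfsg.Agent.Lib.Helper96.Sp Cfsg.Agent.Lib.Helper96.BG Cfsg.Agent.Lib.Helper98.O72
  Cfsg.Agent.Lib.Helper51 Module

/-- Elements of prime order of Ω_n(q), n = 2d+1 ≥ 7, q odd, with no fixed totally singular `m`-space. Here `T = Ω_n(q)` is realised as the commutator subgroup of the isometry group of the quadratic form `x₀² + Σ xᵢyᵢ` over the field `F` with `q` elements (it has trivial centre, so its elements of prime order `r` are used directly); let `1 ≤ m ≤ d` and let `r` be a prime dividing the number of totally singular `m`-spaces. For `r ≠ p` let `i` be the multiplicative order of `q` modulo `r`, `c = i` for `i` even and `c = 2i` for `i` odd, and write `k = n mod c`, `ℓ = m mod i`, `n' = ⌊n/i⌋`, `m' = ⌊m/i⌋`, `t = (r−1)/i`. Then every element of `T` of order `r` fixes some totally singular `m`-space if and only if either (i) `r = 2` and (`m < (n−1)/2` or `q ≡ 1 (mod 4)`); or (ii) `r ≠ p` is odd, `i ≤ m`, `k >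 2ℓ`, and (`i` is odd or `n' − 2m' ≥ t`). -/
theorem result {F : Type*} [Field F] [Fintype F] {p : ℕ} [Fact p.Prime] [CharP F p] {q : ℕ} (hq : Fintype.card F = q) (hqodd : Odd q)
    (d m : ℕ) (hd : 3 ≤ d) (hm : 1 ≤ m) (hmd : m ≤ d)
    (r : ℕ) [Fact r.Prime]
    (hrΩ : r ∣ Nat.card {W : Submodule F (Unit ⊕ (Fin d ⊕ Fin d) → F) // Module.finrank F ↥W = m ∧ (∀ w ∈ W, Cfsg.quadFormOdd d F w = 0)})
    (i c : ℕ) (hi : i = orderOf (q : ZMod r)) (hc : c = if Even i then i else 2 * i) :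
    (∀ x : GL (Unit ⊕ (Fin d ⊕ Fin d)) F, x ∈ Cfsg.Geo.omegaGL (Cfsg.quadFormOdd d F) → orderOf x = r →
      ∃ W : Submodule F (Unit ⊕ (Fin d ⊕ Fin d) → F), Module.finrank F ↥W = m ∧ (∀ w ∈ W, Cfsg.quadFormOdd d F w = 0) ∧
        W.map (Matrix.toLin' (x : Matrix (Unit ⊕ (Fin d ⊕ Fin d)) (Unit ⊕ (Fin d ⊕ Fin d)) F)) ≤ W) ↔
    ((r = 2 ∧ (m < d ∨ q % 4 = 1)) ∨
     (r ≠ p ∧ 2 < r ∧ i ≤ m ∧ 2 * (m % i) < (2 * d + 1) % c ∧ (Odd i ∨ (r - 1) / i + 2 * (m / i) ≤ (2 * d + 1) / i))) := by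
  classical
  subst hq
  subst hi
  obtain rfl : c = blk (Fintype.card F) r := hc
  have hr : r.Prime := Fact.out
  have hp : p.Prime := Fact.out
  have hcardodd : Fintype.card F % 2 = 1 := Nat.odd_iff.mp hqodd
  have h2F : (2 : F) ≠ 0 := by
    intro h
    have h1 : ringChar F = 2 :=
      CharP.ringChar_of_prime_eq_zero Nat.prime_two (by exact_mod_cast h)
    have h3 := FiniteField.even_card_of_char_two h1
    omega
  have hp2 : p ≠ 2 := by
    rintro rfl
    apply h2F
    have := CharP.cast_eq_zero F 2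
    exact_mod_cast this
  have hQc : ⇑(QOdd d F) = quadFormOdd d F := coe_QOdd d F
  have hS : LinearMap.BilinForm.IsSymm (QuadraticMap.polarBilin (QOdd d F)) :=
    ⟨fun x y => QuadraticMap.polar_comm _ x y⟩
  have hQnd := Cfsg.Agent.Lib.Helper51.OTransportOdd.QOdd_nondeg h2F d
  have hN := br_nd (QOdd d F) hQnd
  have hcardι : Fintype.card (Unit ⊕ (Fin d ⊕ Fin d)) = 2 * d + 1 := by
    rw [Fintype.card_sum, Fintype.card_sum, Fintype.card_fin, Fintype.card_unit]
    omega
  have hfinV : finrank F (Unit ⊕ (Fin d ⊕ Fin d) → F) = 2 * d + 1 := by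
    rw [Module.finrank_fintype_fun_eq_card, hcardι]
  have hpred : ∀ W : Submodule F (Unit ⊕ (Fin d ⊕ Fin d) → F),
      (∀ w ∈ W, Cfsg.quadFormOdd d F w = 0) ↔
        Orth (QuadraticMap.polarBilin (QOdd d F)) W W := by
    intro W
    rw [← hQc]
    exact br_ts_iff (QOdd d F) h2F W
  have hrΩ' : r ∣ Nat.card {W : Submodule F (Unit ⊕ (Fin d ⊕ Fin d) → F) //
      finrank F W = m ∧ Orth (QuadraticMap.polarBilin (QOdd d F)) W W} := by
    rw [← Nat.card_congr (Equiv.subtypeEquivRight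
      (fun W => and_congr Iff.rfl (hpred W)))]
    exact hrΩ
  have hxmem : ∀ x : GL (Unit ⊕ (Fin d ⊕ Fin d)) F,
      x ∈ Cfsg.Geo.omegaGL (Cfsg.quadFormOdd d F) → x ∈ Cfsg.Geo.omegaGL ⇑(QOdd d F) := by
    intro x hx
    rw [hQc]
    exact hx
  by_cases hrp : r = p
  · -- r = p: the number of totally singular m-spaces is prime to p
    exfalso
    subst hrp
    exact not_dvd_card_ti (p := r) hS h2F hN
      (fun W₀ h j hj hjd => card_ti_ext_modEq hS h2F hN W₀ h j hj hjd)
      (fun W₁ j hj => Cfsg.Agent.Lib.Helper73.TiCntB.card_hyperplanes_modEq W₁ j hj)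
      m (by rw [hfinV]; omega) hrΩ'
  by_cases hr2 : r = 2
  · -- r = 2
    subst hr2
    have hiff : (∀ x : GL (Unit ⊕ (Fin d ⊕ Fin d)) F,
        x ∈ Cfsg.Geo.omegaGL (Cfsg.quadFormOdd d F) → orderOf x = 2 →
        ∃ W : Submodule F (Unit ⊕ (Fin d ⊕ Fin d) → F), Module.finrank F ↥W = m ∧
          (∀ w ∈ W, Cfsg.quadFormOdd d F w = 0) ∧
          W.map (Matrix.toLin' (x : Matrix (Unit ⊕ (Fin d ⊕ Fin d)) (Unit ⊕ (Fin d ⊕ Fin d)) F))
            ≤ W) ↔ (m < d ∨ Fintype.card F % 4 = 1) := by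
      constructor
      · intro hL
        by_contra hcon
        rw [not_or] at hcon
        obtain ⟨hmd', hq4⟩ := hcon
        have hns : ¬ IsSquare (-1 : F) := by
          rw [FiniteField.isSquare_neg_one_iff]
          omega
        obtain ⟨x, hx, hx2, hno⟩ := exists_invol_no_ts (F := F) d (by omega) h2F hns
        obtain ⟨W, h1, h2, h3⟩ := hL x hx hx2
        exact hno W (by rw [h1]; omega) h2 h3
      · intro hcond x hx hxo
        obtain ⟨hT, hT2, hT1⟩ := br_isom_of_omega (QOdd d F) x (hxmem x hx) 2 hxo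
        by_cases hlt : m < d
        · obtain ⟨W, h1, h2, h3⟩ := exists_ti_inv_of_sq_one hS h2F hN _ hT
            (by rw [← pow_two]; exact hT2) d m hfinV hlt
          exact ⟨W, h3, (hpred W).mpr h2, h1⟩
        · have hmd' : m = d := by omega
          have hsq : IsSquare (-1 : F) := by
            rw [FiniteField.isSquare_neg_one_iff]
            rcases hcond with h | h
            · exact absurd h hlt
            · omega
          have hx2 : x * x = 1 := by
            rw [← pow_two, ← hxo]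
            exact pow_orderOf_eq_one x
          obtain ⟨W, h1, h2, h3⟩ := exists_ts_of_invol_mem_omega (QOdd d F) h2F hQnd hsq d
            hcardι x (hxmem x hx) hx2
          refine ⟨W, by rw [h1, hmd'], ?_, h3⟩
          intro w hw
          rw [← hQc]
          exact h2 w hw
    rw [hiff]
    constructor
    · intro h
      exact Or.inl ⟨rfl, h⟩
    · rintro (⟨-, h⟩ | ⟨-, h, -⟩)
      · exact h
      · omega
  · -- r odd, r ≠ p
    have hLHS : (∀ x : GL (Unit ⊕ (Fin d ⊕ Fin d)) F,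
        x ∈ Cfsg.Geo.omegaGL (Cfsg.quadFormOdd d F) → orderOf x = r →
        ∃ W : Submodule F (Unit ⊕ (Fin d ⊕ Fin d) → F), Module.finrank F ↥W = m ∧
          (∀ w ∈ W, Cfsg.quadFormOdd d F w = 0) ∧
          W.map (Matrix.toLin' (x : Matrix (Unit ⊕ (Fin d ⊕ Fin d)) (Unit ⊕ (Fin d ⊕ Fin d)) F))
            ≤ W) ↔
        (∀ T : Module.End F (Unit ⊕ (Fin d ⊕ Fin d) → F),
          Isom (QuadraticMap.polarBilin (QOdd d F)) T → T ^ r = 1 → T ≠ 1 →
          ∃ W : Submodule F (Unit ⊕ (Fin d ⊕ Fin d) → F), finrank F ↥W = m ∧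
            Orth (QuadraticMap.polarBilin (QOdd d F)) W W ∧ W.map T ≤ W) := by
      constructor
      · intro hL T hT hTr hT1
        obtain ⟨x, hx, hxo, hxT⟩ := br_omega_of_isom_odd (QOdd d F) h2F hQnd
          (by rw [hcardι]; omega) T hT r hr2 hTr hT1
        obtain ⟨W, h1, h2, h3⟩ := hL x (by rw [← hQc]; exact hx) hxo
        refine ⟨W, h1, (hpred W).mp h2, ?_⟩
        rw [← hxT]
        exact h3
      · intro hL' x hx hxo
        obtain ⟨hT, hTr, hT1⟩ := br_isom_of_omega (QOdd d F) x (hxmem x hx) r hxo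
        obtain ⟨W, h1, h2, h3⟩ := hL' _ hT hTr hT1
        exact ⟨W, h1, (hpred W).mpr h2, h3⟩
    rw [hLHS, odd_iff (p := p) hS h2F hN d m hfinV hm hmd r hr2 hrp hrΩ']
    have hkodd : ((2 * d + 1) % blk (Fintype.card F) r) % 2 = 1 := by
      obtain ⟨c', hc'⟩ := blk_even (Fintype.card F) r
      rw [Nat.mod_mod_of_dvd _ ⟨c', by rw [hc']; ring⟩]
      omega
    constructor
    · rintro ⟨h1, h2, h3⟩
      exact Or.inr ⟨hrp, by have := hr.two_le; omega, h1, by omega, h3⟩
    · rintro (⟨h, -⟩ | ⟨-, -, h1, h2, h3⟩)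
      · exact absurd h hr2
      · exact ⟨h1, by omega, h3⟩

end Cfsg.Agent.S5972
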