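import Cfsg.Statements.S5973
import Cfsg.Agent.Lib.Helper98.T73Main
import Cfsg.Agent.Lib.Helper98.T73Glue
import Cfsg.Agent.Lib.Helper36.T73CNTPA
import Cfsg.Agent.Lib.Helper88.T73CNTPB
import Cfsg.Agent.Lib.Helper2.T73INVA
import Cfsg.Agent.Lib.Helper82.T73INVB
import Cfsg.Agent.Lib.Helper34.T73CPX1
import Cfsg.Agent.Lib.Helper33.T73CPX2A
import Cfsg.Agent.Lib.Helper80.T73CPXODD
import Cfsg.Agent.Lib.Helper16.T73DER1
import Cfsg.Agent.Lib.Helper38.T73DER2

set_option autoImplicit false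
open scoped MatrixGroups
open Cfsg

namespace Cfsg.Agent.S5973

open Cfsg.Agent.Lib.Helper47 Cfsg.Agent.Lib.Helper98.T73 Module

/-- Elements of prime order of PΩ⁺_n(q), n = 2d ≥ 8, with no fixed totally singular `m`-space, `m < n/2`. Here `T = PΩ⁺_n(q)` is realised through `Ω⁺_n(q)`, the commutator subgroup of the isometry group of the quadratic form `Σ xᵢyᵢ` over the field `F` with `q` elements; an element of `T` of prime order `r` is an element `x` of `Ω⁺_n(q)` with `x^r` scalar and `x` not scalar. Let `1 ≤ m < d` and let `r` be a prime dividing the number of totally singular `m`-spaces. For `r ≠ p` let `i` be the multiplicative order of `q` modulo `r`, `c = i` for `i` even and `c = 2i` for `i` odd, and write `k = n mod c`, `ℓ = m mod i`, `n' = ⌊n/i⌋`, `m' = ⌊m/i⌋`, `t = (r−1)/i`. Then every element of `T` of order `r` fixes some totally singular `m`-space if and only if one of: (i) `r = 2 ≠ p` and either `q ≡ 1 (mod 4)`, or `q ≡ 3 (mod 4)`, `m ≤ n/2 − 2` and (`m` even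 or `n ≡ 2 (mod 4)`); (ii) `r ≠ p` odd, `i` odd, `i ≤ m` and `k ≥ 2ℓ`; (iii) `r ≠ p` odd, `i` even, `i ≤ m`, `n' − 2m' ≥ t`, and one of: `i ≥ 2ℓ`, `k = 0`, `n/i` odd and `n' − 2m' > t`; or `k ≥ 2ℓ` and `n'` even; or `k > 2ℓ` and `n'` odd. -/
theorem result {F : Type*} [Field F] [Fintype F] {p : ℕ} [Fact p.Prime] [CharP F p] {q : ℕ} (hq : Fintype.card F = q)
    (d m : ℕ) (hd : 4 ≤ d) (hm : 1 ≤ m) (hmd : m < d)
    (r : ℕ) [Fact r.Prime]
    (hrΩ : r ∣ Nat.card {W : Submodule F (Fin d ⊕ Fin d → F) // Module.finrank F ↥W = m ∧ (∀ w ∈ W, Cfsg.quadFormPlus d F w = 0)})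
    (i c : ℕ) (hi : i = orderOf (q : ZMod r)) (hc : c = if Even i then i else 2 * i) :
    (∀ x : GL (Fin d ⊕ Fin d) F, x ∈ Cfsg.Geo.omegaGL (Cfsg.quadFormPlus d F) →
      (∃ z : F, ((x ^ r : GL (Fin d ⊕ Fin d) F) : Matrix (Fin d ⊕ Fin d) (Fin d ⊕ Fin d) F) = z • (1 : Matrix (Fin d ⊕ Fin d) (Fin d ⊕ Fin d) F)) →
      (∀ z : F, (x : Matrix (Fin d ⊕ Fin d) (Fin d ⊕ Fin d) F) ≠ z • (1 : Matrix (Fin d ⊕ Fin d) (Fin d ⊕ Fin d) F)) →
      ∃ W : Submodule F (Fin d ⊕ Fin d → F), Module.finrank F ↥W = m ∧ (∀ w ∈ W, Cfsg.quadFormPlus d F w = 0) ∧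
        W.map (Matrix.toLin' (x : Matrix (Fin d ⊕ Fin d) (Fin d ⊕ Fin d) F)) ≤ W) ↔
    ((r = 2 ∧ p ≠ 2 ∧ (q % 4 = 1 ∨ (q % 4 = 3 ∧ m + 2 ≤ d ∧ (Even m ∨ (2 * d) % 4 = 2)))) ∨
     (r ≠ p ∧ 2 < r ∧ Odd i ∧ i ≤ m ∧ 2 * (m % i) ≤ (2 * d) % c) ∨
     (r ≠ p ∧ 2 < r ∧ Even i ∧ i ≤ m ∧ (r - 1) / i + 2 * (m / i) ≤ (2 * d) / i ∧
       ((2 * (m % i) ≤ i ∧ (2 * d) % c = 0 ∧ Odd ((2 * d) / i) ∧ (r - 1) / i + 2 * (m / i) < (2 * d) / i) ∨
        (2 * (m % i) ≤ (2 * d) % c ∧ Even ((2 * d) / i)) ∨
        (2 * (m % i) < (2 * d) % c ∧ Odd ((2 * d) / i))))) := by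
  classical
  subst hq
  subst hi
  have hr : r.Prime := Fact.out
  have hp : p.Prime := Fact.out
  have hQ : IsQuad (Cfsg.quadFormPlus d F) (Cfsg.Agent.Lib.Helper66.QuadSTD.plusB d F) :=
    Cfsg.Agent.Lib.Helper66.QuadSTD.quadFormPlus_isQuad d
  have hnd : Nondeg (Cfsg.Agent.Lib.Helper66.QuadSTD.plusB d F) :=
    Cfsg.Agent.Lib.Helper66.QuadSTD.plusB_nondeg d
  have hf : QFacts F := qfacts p
  have htyp : IsTyp (Cfsg.quadFormPlus d F) (d - 1) 1 := by
    obtain ⟨k, rfl⟩ : ∃ k, d = k + 1 := ⟨d - 1, by omega⟩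
    exact Cfsg.Agent.Lib.Helper23.Quad.isTyp_quadFormPlus k
  have hcardι : Fintype.card (Fin d ⊕ Fin d) = 2 * (d - 1) + 2 := by
    rw [Fintype.card_sum, Fintype.card_fin]
    omega
  have hdim : finrank F (Fin d ⊕ Fin d → F) = 2 * d := by
    rw [Module.finrank_fintype_fun_eq_card, hcardι]
    omega
  haveI : Nonempty (Fin d ⊕ Fin d) := ⟨Sum.inl ⟨0, by omega⟩⟩
  have hrΩ' : r ∣ Nat.card {W : Submodule F (Fin d ⊕ Fin d → F) //
      finrank F W = m ∧ TS (Cfsg.quadFormPlus d F) W} := hrΩ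
  by_cases hrp : r = p
  · -- r = p: the number of totally singular m-spaces is prime to p
    exfalso
    subst hrp
    exact not_dvd_card_ts hQ r d
      (fun U hU j hj hjd => card_ts_ext_modEq hf hQ hnd d hdim r U hU j hj hjd)
      m (by omega) hrΩ'
  by_cases hr2 : r = 2
  · -- r = 2, p odd
    subst hr2
    have hp2 : p ≠ 2 := fun h => hrp h.symm
    have h2F : (2 : F) ≠ 0 := by
      intro h
      have h1 : ((2 : ℕ) : F) = 0 := by exact_mod_cast h
      have h3 := (CharP.cast_eq_zero_iff F p 2).mp h1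
      exact hp2 ((Nat.prime_dvd_prime_iff_eq hp Nat.prime_two).mp h3)
    have hcardodd : Fintype.card F % 2 = 1 := by
      obtain ⟨n, -, hn⟩ := FiniteField.card F p
      rw [hn]
      have hpodd : p % 2 = 1 := by
        rcases hp.eq_two_or_odd with h | h
        · exact absurd h hp2
        · exact h
      rw [Nat.pow_mod, hpodd, one_pow]
      norm_num
    have hsq_iff : IsSquare (-1 : F) ↔ Fintype.card F % 4 ≠ 3 :=
      FiniteField.isSquare_neg_one_iff
    have hxx : ∀ x : GL (Fin d ⊕ Fin d) F,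
        ((x ^ 2 : GL (Fin d ⊕ Fin d) F) : Matrix (Fin d ⊕ Fin d) (Fin d ⊕ Fin d) F)
          = (x : Matrix (Fin d ⊕ Fin d) (Fin d ⊕ Fin d) F)
            * (x : Matrix (Fin d ⊕ Fin d) (Fin d ⊕ Fin d) F) := by
      intro x
      rw [pow_two, Units.val_mul]
    constructor
    · intro hL
      refine Or.inl ⟨rfl, hp2, ?_⟩
      by_cases h41 : Fintype.card F % 4 = 1
      · exact Or.inl h41
      have h43 : Fintype.card F % 4 = 3 := by omega
      have hns : ¬ IsSquare (-1 : F) := by
        rw [hsq_iff]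
        omega
      refine Or.inr ⟨h43, ?_, ?_⟩
      · by_contra hcon
        obtain ⟨x, hx, hx2, hxns, hbd⟩ := exists_invol_der h2F hns d (by omega)
        obtain ⟨W, h1, h2, h3⟩ := hL x hx
          ⟨1, by rw [hxx, ← Units.val_mul, hx2, one_smul]; rfl⟩ hxns
        have := hbd W h2 h3
        omega
      · by_contra hcon
        rw [not_or] at hcon
        obtain ⟨hmodd, hd4⟩ := hcon
        have hde : Even d := by
          rw [Nat.even_iff]
          omega
        obtain ⟨x, hx, hx2, hxns, hbd⟩ := exists_cpx_der h2F hns d hde (by omega)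
        obtain ⟨W, h1, h2, h3⟩ := hL x hx ⟨-1, by rw [hxx, hx2]⟩ hxns
        have := hbd W h3
        rw [h1] at this
        exact hmodd this
    · rintro (⟨-, -, hcond⟩ | ⟨-, h, -⟩ | ⟨-, h, -⟩)
      · intro x hx hz hxns
        obtain ⟨z, hz⟩ := hz
        have hxi := mem_iso_of_mem_omega (Cfsg.quadFormPlus d F) hx
        have hz2 : z * z = 1 := scalar_sq _ _ hQ hnd hxi 2 z hz
        rw [hxx] at hz
        rcases mul_self_eq_one_iff.mp hz2 with hz1 | hz1
        · -- involution
          have hx2 : x * x = 1 := by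
            apply Units.ext
            rw [Units.val_mul, hz, hz1, one_smul]
            rfl
          by_cases h41 : Fintype.card F % 4 = 1
          · have hsq : IsSquare (-1 : F) := by
              rw [hsq_iff]
              omega
            exact invol_fix_b h2F hsq d m (by omega) x hx hx2
          · have hmd2 : m + 2 ≤ d := by
              rcases hcond with h | ⟨-, h, -⟩
              · exact absurd h h41
              · exact h
            exact invol_fix_a h2F d m hmd2 x hx hx2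
        · -- x² = -1
          rw [hz1] at hz
          by_cases h41 : Fintype.card F % 4 = 1
          · have hsq : IsSquare (-1 : F) := by
              rw [hsq_iff]
              omega
            exact cpx_fix_sq h2F hsq d m (by omega) x hx hz
          · have hns : ¬ IsSquare (-1 : F) := by
              rw [hsq_iff]
              omega
            have hde : Even d := cpx_even_d h2F hns d (by omega) x hx hz
            have hme : Even m := by
              rcases hcond with h | ⟨-, -, h | h⟩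
              · exact absurd h h41
              · exact h
              · exfalso
                rw [Nat.even_iff] at hde
                omega
            exact cpx_fix_even h2F hns d m hme (by omega) x hx hz
      · omega
      · omega
  · -- r odd, r ≠ p
    have hr3 : 2 < r := by
      have := hr.two_le
      omega
    rw [lhs_iff (Cfsg.quadFormPlus d F) _ hf hQ hnd (d - 1) hcardι p r hr hr2 hrp m,
      odd_iff hf hQ hnd d (by omega) hdim 1 (Or.inl rfl) htyp p r hr hr2 hrp m hm (by omega) hrΩ']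
    unfold Cond par
    by_cases hev : Even (orderOf ((Fintype.card F : ℕ) : ZMod r))
    · have hodd : ¬ Odd (orderOf ((Fintype.card F : ℕ) : ZMod r)) := by
        rw [Nat.not_odd_iff_even]
        exact hev
      rw [if_pos hev] at hc
      subst hc
      simp only [if_pos hev, if_true, Nat.not_even_iff_odd]
      constructor
      · rintro ⟨h1, h2, h3⟩
        exact Or.inr (Or.inr ⟨hrp, hr3, hev, h1, h2, h3⟩)
      · rintro (⟨h, -⟩ | ⟨-, -, h, -⟩ | ⟨-, -, -, h1, h2, h3⟩)
        · exact absurd h hr2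
        · exact absurd h hodd
        · exact ⟨h1, h2, h3⟩
    · have hodd : Odd (orderOf ((Fintype.card F : ℕ) : ZMod r)) := Nat.not_even_iff_odd.mp hev
      rw [if_neg hev] at hc
      subst hc
      simp only [if_neg hev, if_true]
      constructor
      · rintro ⟨h1, h2⟩
        exact Or.inr (Or.inl ⟨hrp, hr3, hodd, h1, h2⟩)
      · rintro (⟨h, -⟩ | ⟨-, -, -, h1, h2⟩ | ⟨-, -, h, -⟩)
        · exact absurd h hr2
        · exact ⟨h1, h2⟩
        · exact absurd h hev

end Cfsg.Agent.S5973
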