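import Cfsg.Statements.S5974
import Cfsg.Agent.Lib.Helper98.H74Asm
import Cfsg.Agent.Lib.Helper98.H74Of
import Cfsg.Agent.Lib.Helper14.H74CSQb
import Cfsg.Agent.Lib.Helper23.H74SIEGEX
import Cfsg.Agent.Lib.Helper34.H74SIEGINV
import Cfsg.Agent.Lib.Helper42.H74SIEGOM
import Cfsg.Agent.Lib.Helper43.H74INV
import Cfsg.Agent.Lib.Helper87.H74CH4
import Cfsg.Agent.Lib.Helper98.H74Glue
import Cfsg.Agent.Lib.Helper80.T73CPXODD
import Cfsg.Agent.Lib.Helper38.T73DER2

set_option autoImplicit false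
open scoped MatrixGroups
open Cfsg

namespace Cfsg.Agent.S5974

open Cfsg.Agent.Lib.Helper47 Cfsg.Agent.Lib.Helper98.T73 Cfsg.Agent.Lib.Helper98.H74 Module

/-- Elements of prime order of PΩ⁺_n(q), n = 2d ≥ 8, with no fixed nondegenerate hyperbolic `m`-space. Here `T = PΩ⁺_n(q)` is realised through `Ω⁺_n(q)`, the commutator subgroup of the isometry group of `Q = Σ xᵢyᵢ` over the field `F` with `q` elements; an element of `T` of prime order `r` is an element `x` of `Ω⁺_n(q)` with `x^r` scalar and `x` not scalar. A hyperbolic `m`-space is a subspace `W` of even dimension `m` on which the polar form of `Q` is nondegenerate and which contains a totally singular subspace of dimension `m/2`. Let `m` be even with `2 ≤ m < n/2`, and let `r` be a prime dividing the number of hyperbolic `m`-spaces, with `r = 2` or `r ≠ p`. For `r ≠ p` let `i` be the multiplicative order of `q` modulo `r`, `c = i` for `i` even and `c = 2i` for `i` odd, and write `k = n mod c`, `ℓ' = m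 mod c`. Then every element of `T` of order `r` fixes some hyperbolic `m`-space if and only if one of: (i) `r = 2` and (`n ≡ 2 (mod 4)`, or `m ≡ 0 (mod 4)`, or `q ≡ 1 (mod 4)`); (ii) `r ≠ p` odd, `i` odd, `c ≤ m` and `k ≥ ℓ'`; (iii) `r ≠ p` odd, `i` even, and either `k = 0` and (`n/i` odd, or `ℓ' = 0` and `m/i` even), or `i ≤ m` and (`k > ℓ' > 0`, or `k = ℓ' > 0` and `(n + m − 2k)/i` even, or `k > ℓ' = 0` and `m/i` even). -/
theorem result {F : Type*} [Field F] [Fintype F] {p : ℕ} [Fact p.Prime] [CharP F p] {q : ℕ} (hq : Fintype.card F = q)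
    (d m : ℕ) (hd : 4 ≤ d) (hm : 2 ≤ m) (hme : Even m) (hmd : m < d)
    (r : ℕ) [Fact r.Prime] (hr : r = 2 ∨ r ≠ p)
    (hrΩ : r ∣ Nat.card {W : Submodule F (Fin d ⊕ Fin d → F) // (Module.finrank F ↥W = m ∧ (∀ u ∈ W, u ≠ 0 → ∃ v ∈ W, QuadraticMap.polar (Cfsg.quadFormPlus d F) u v ≠ 0) ∧
          ∃ U : Submodule F (Fin d ⊕ Fin d → F), U ≤ W ∧ 2 * Module.finrank F ↥U = m ∧ ∀ u ∈ U, Cfsg.quadFormPlus d F u = 0)})
    (i c : ℕ) (hi : i = orderOf (q : ZMod r)) (hc : c = if Even i then i else 2 * i) :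
    (∀ x : GL (Fin d ⊕ Fin d) F, x ∈ Cfsg.Geo.omegaGL (Cfsg.quadFormPlus d F) →
      (∃ z : F, ((x ^ r : GL (Fin d ⊕ Fin d) F) : Matrix (Fin d ⊕ Fin d) (Fin d ⊕ Fin d) F) = z • (1 : Matrix (Fin d ⊕ Fin d) (Fin d ⊕ Fin d) F)) →
      (∀ z : F, (x : Matrix (Fin d ⊕ Fin d) (Fin d ⊕ Fin d) F) ≠ z • (1 : Matrix (Fin d ⊕ Fin d) (Fin d ⊕ Fin d) F)) →
      ∃ W : Submodule F (Fin d ⊕ Fin d → F), (Module.finrank F ↥W = m ∧ (∀ u ∈ W, u ≠ 0 → ∃ v ∈ W, QuadraticMap.polar (Cfsg.quadFormPlus d F) u v ≠ 0) ∧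
          ∃ U : Submodule F (Fin d ⊕ Fin d → F), U ≤ W ∧ 2 * Module.finrank F ↥U = m ∧ ∀ u ∈ U, Cfsg.quadFormPlus d F u = 0) ∧
        W.map (Matrix.toLin' (x : Matrix (Fin d ⊕ Fin d) (Fin d ⊕ Fin d) F)) ≤ W) ↔
    ((r = 2 ∧ ((2 * d) % 4 = 2 ∨ m % 4 = 0 ∨ q % 4 = 1)) ∨
     (r ≠ p ∧ 2 < r ∧ Odd i ∧ c ≤ m ∧ m % c ≤ (2 * d) % c) ∨
     (r ≠ p ∧ 2 < r ∧ Even i ∧
       (((2 * d) % c = 0 ∧ (Odd ((2 * d) / i) ∨ (m % c = 0 ∧ Even (m / i)))) ∨
        (i ≤ m ∧ ((m % c < (2 * d) % c ∧ 0 < m % c) ∨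
                  ((2 * d) % c = m % c ∧ 0 < m % c ∧ Even ((2 * d + m - 2 * ((2 * d) % c)) / i)) ∨
                  (0 < (2 * d) % c ∧ m % c = 0 ∧ Even (m / i))))))) := by
  classical
  subst hq
  subst hi
  have hr' : r.Prime := Fact.out
  have hp : p.Prime := Fact.out
  have hQ : IsQuad (Cfsg.quadFormPlus d F) (Cfsg.Agent.Lib.Helper66.QuadSTD.plusB d F) :=
    Cfsg.Agent.Lib.Helper66.QuadSTD.quadFormPlus_isQuad d
  have hnd : Nondeg (Cfsg.Agent.Lib.Helper66.QuadSTD.plusB d F) :=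
    Cfsg.Agent.Lib.Helper66.QuadSTD.plusB_nondeg d
  have hf : QFacts F := qfacts p
  have htyp : IsTyp (Cfsg.quadFormPlus d F) (d - 1) 1 := by
    obtain ⟨k, rfl⟩ : ∃ k, d = k + 1 := ⟨d - 1, by omega⟩
    exact Cfsg.Agent.Lib.Helper23.Quad.isTyp_quadFormPlus k
  have hcardι : Fintype.card (Fin d ⊕ Fin d) = 2 * (d - 1) + 2 := by
    rw [Fintype.card_sum, Fintype.card_fin]
    omega
  have hdim : finrank F (Fin d ⊕ Fin d → F) = 2 * d := by
    rw [Module.finrank_fintype_fun_eq_card, hcardι]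
    omega
  haveI : Nonempty (Fin d ⊕ Fin d) := ⟨Sum.inl ⟨0, by omega⟩⟩
  -- m = 2k+2
  obtain ⟨k, hk⟩ : ∃ k, m = 2 * k + 2 := by
    obtain ⟨a, ha⟩ := hme
    exact ⟨a - 1, by omega⟩
  subst hk
  have hkd : 2 * k + 2 < d := hmd
  -- the statement's predicate
  have hP : ∀ W : Submodule F (Fin d ⊕ Fin d → F),
      HypM (Cfsg.quadFormPlus d F) (2 * k + 2) W ↔
        SubTyp (Cfsg.quadFormPlus d F) (Cfsg.Agent.Lib.Helper66.QuadSTD.plusB d F) W k 1 :=
    fun W => hyp_iff hf hQ p W k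
  have hrΩ' : r ∣ Nat.card {W : Submodule F (Fin d ⊕ Fin d → F) //
      SubTyp (Cfsg.quadFormPlus d F) (Cfsg.Agent.Lib.Helper66.QuadSTD.plusB d F) W k 1} := by
    have hcongr : Nat.card {W : Submodule F (Fin d ⊕ Fin d → F) //
          HypM (Cfsg.quadFormPlus d F) (2 * k + 2) W}
        = Nat.card {W : Submodule F (Fin d ⊕ Fin d → F) //
          SubTyp (Cfsg.quadFormPlus d F) (Cfsg.Agent.Lib.Helper66.QuadSTD.plusB d F) W k 1} :=
      Nat.card_congr (Equiv.subtypeEquivRight hP)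
    rw [← hcongr]
    exact hrΩ
  -- restate the left-hand side
  have hLHS : (∀ x : GL (Fin d ⊕ Fin d) F, x ∈ Cfsg.Geo.omegaGL (Cfsg.quadFormPlus d F) →
      (∃ z : F, ((x ^ r : GL (Fin d ⊕ Fin d) F) : Matrix (Fin d ⊕ Fin d) (Fin d ⊕ Fin d) F) = z • (1 : Matrix (Fin d ⊕ Fin d) (Fin d ⊕ Fin d) F)) →
      (∀ z : F, (x : Matrix (Fin d ⊕ Fin d) (Fin d ⊕ Fin d) F) ≠ z • (1 : Matrix (Fin d ⊕ Fin d) (Fin d ⊕ Fin d) F)) →
      ∃ W : Submodule F (Fin d ⊕ Fin d → F), (Module.finrank F ↥W = 2 * k + 2 ∧ (∀ u ∈ W, u ≠ 0 → ∃ v ∈ W, QuadraticMap.polar (Cfsg.quadFormPlus d F) u v ≠ 0) ∧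
          ∃ U : Submodule F (Fin d ⊕ Fin d → F), U ≤ W ∧ 2 * Module.finrank F ↥U = 2 * k + 2 ∧ ∀ u ∈ U, Cfsg.quadFormPlus d F u = 0) ∧
        W.map (Matrix.toLin' (x : Matrix (Fin d ⊕ Fin d) (Fin d ⊕ Fin d) F)) ≤ W) ↔
    (∀ x : GL (Fin d ⊕ Fin d) F, x ∈ Cfsg.Geo.omegaGL (Cfsg.quadFormPlus d F) →
      (∃ z : F, ((x ^ r : GL (Fin d ⊕ Fin d) F) : Matrix (Fin d ⊕ Fin d) (Fin d ⊕ Fin d) F) = z • (1 : Matrix (Fin d ⊕ Fin d) (Fin d ⊕ Fin d) F)) →
      (∀ z : F, (x : Matrix (Fin d ⊕ Fin d) (Fin d ⊕ Fin d) F) ≠ z • (1 : Matrix (Fin d ⊕ Fin d) (Fin d ⊕ Fin d) F)) →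
      ∃ W : Submodule F (Fin d ⊕ Fin d → F),
        SubTyp (Cfsg.quadFormPlus d F) (Cfsg.Agent.Lib.Helper66.QuadSTD.plusB d F) W k 1 ∧
        W.map (Matrix.toLin' (x : Matrix (Fin d ⊕ Fin d) (Fin d ⊕ Fin d) F)) ≤ W) := by
    constructor
    · intro h x hx hz hns
      obtain ⟨W, hW, hWx⟩ := h x hx hz hns
      exact ⟨W, (hP W).mp hW, hWx⟩
    · intro h x hx hz hns
      obtain ⟨W, hW, hWx⟩ := h x hx hz hns
      exact ⟨W, (hP W).mpr hW, hWx⟩
  rw [hLHS]
  have hxx : ∀ x : GL (Fin d ⊕ Fin d) F,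
      ((x ^ 2 : GL (Fin d ⊕ Fin d) F) : Matrix (Fin d ⊕ Fin d) (Fin d ⊕ Fin d) F)
        = (x : Matrix (Fin d ⊕ Fin d) (Fin d ⊕ Fin d) F)
          * (x : Matrix (Fin d ⊕ Fin d) (Fin d ⊕ Fin d) F) := by
    intro x
    rw [pow_two, Units.val_mul]
  have hTT : ∀ (x : GL (Fin d ⊕ Fin d) F) (z : F),
      (x : Matrix (Fin d ⊕ Fin d) (Fin d ⊕ Fin d) F)
          * (x : Matrix (Fin d ⊕ Fin d) (Fin d ⊕ Fin d) F)
        = z • (1 : Matrix (Fin d ⊕ Fin d) (Fin d ⊕ Fin d) F) →
      Matrix.toLin' (x : Matrix (Fin d ⊕ Fin d) (Fin d ⊕ Fin d) F)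
          * Matrix.toLin' (x : Matrix (Fin d ⊕ Fin d) (Fin d ⊕ Fin d) F)
        = z • (1 : Module.End F (Fin d ⊕ Fin d → F)) := by
    intro x z hz
    rw [Module.End.mul_eq_comp, ← Matrix.toLin'_mul, hz, map_smul, Matrix.toLin'_one]
    rfl
  by_cases hr2 : r = 2
  · subst hr2
    have hkpar : (2 * k + 2) % 4 = 0 ↔ Odd k := by
      rw [Nat.odd_iff]
      omega
    have hdpar : (2 * d) % 4 = 2 ↔ Odd d := by
      rw [Nat.odd_iff]
      omega
    by_cases hp2 : p = 2
    · -- characteristic 2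
      subst hp2
      have hqeven : Fintype.card F % 2 = 0 := by
        obtain ⟨n, -, hn⟩ := FiniteField.card F 2
        rw [hn]
        have : 0 < (n : ℕ) := n.pos
        obtain ⟨n', hn'⟩ : ∃ n', (n : ℕ) = n' + 1 := ⟨(n : ℕ) - 1, by omega⟩
        rw [hn', pow_succ]
        omega
      have h2F : (2 : F) = 0 := by
        have := CharP.cast_eq_zero F 2
        exact_mod_cast this
      constructor
      · intro hL
        refine Or.inl ⟨rfl, ?_⟩
        by_contra hcon
        rw [not_or, not_or] at hcon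
        obtain ⟨hd4, hm4, -⟩ := hcon
        have hde : Even d := by
          rw [Nat.even_iff]
          omega
        obtain ⟨S, hS0, hSt, hSdet, hSne⟩ := exists_alt_unit (F := F) d hde (by omega)
        obtain ⟨x, hx, hxS⟩ := siegel_mem_omega d (by omega) S hS0 hSt
        have hx2 : (x : Matrix (Fin d ⊕ Fin d) (Fin d ⊕ Fin d) F)
            * (x : Matrix (Fin d ⊕ Fin d) (Fin d ⊕ Fin d) F)
            = (1 : F) • (1 : Matrix (Fin d ⊕ Fin d) (Fin d ⊕ Fin d) F) := by
          rw [hxS, Matrix.fromBlocks_multiply, one_smul]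
          have hSS : S + S = 0 := by
            rw [← two_smul F S, h2F, zero_smul]
          simp only [Matrix.one_mul, Matrix.mul_one, Matrix.zero_mul, Matrix.mul_zero, add_zero,
            zero_add, hSS]
          exact Matrix.fromBlocks_one
        have hxns : ∀ z : F, (x : Matrix (Fin d ⊕ Fin d) (Fin d ⊕ Fin d) F)
            ≠ z • (1 : Matrix (Fin d ⊕ Fin d) (Fin d ⊕ Fin d) F) := by
          intro z hz
          apply hSne
          ext a b
          have h1 := congrFun (congrFun hz (Sum.inl a)) (Sum.inr b)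
          rw [hxS, Matrix.fromBlocks_apply₁₂, Matrix.smul_apply,
            Matrix.one_apply_ne (by simp), smul_zero] at h1
          rw [h1]
          rfl
        obtain ⟨W, hW, hWx⟩ := hL x hx ⟨1, by rw [hxx, hx2]⟩ hxns
        have hWh := (hP W).mpr hW
        rw [hxS] at hWx
        have h4 := siegel_four_dvd d S hS0 hSt hSdet W hWh.2.1 hWx
        rw [hWh.1] at h4
        omega
      · rintro (⟨-, hcond⟩ | ⟨-, h, -⟩ | ⟨-, h, -⟩)
        · intro x hx hz hxns
          obtain ⟨z, hz⟩ := hz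
          have hxi := mem_iso_of_mem_omega (Cfsg.quadFormPlus d F) hx
          have hz2 : z * z = 1 := scalar_sq _ _ hQ hnd hxi 2 z hz
          have hz1 : z = 1 := by
            have h1 : (z - 1) * (z - 1) = 0 := by
              linear_combination hz2 - (z - 1) * h2F
            have h3 := mul_self_eq_zero.mp h1
            linear_combination h3
          rw [hxx, hz1] at hz
          have hT := hTT x 1 hz
          rw [one_smul] at hT
          have hc : Odd d ∨ Odd k := by
            rcases hcond with h | h | h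
            · exact Or.inl (hdpar.mp h)
            · exact Or.inr (hkpar.mp h)
            · omega
          exact char2_fix hf hQ hnd d hdim htyp _ (qi_of_mem_omega _ hx) hT k hkd hc
        · omega
        · omega
    · -- odd characteristic
      have h2F : (2 : F) ≠ 0 := by
        intro h
        have h1 : ((2 : ℕ) : F) = 0 := by exact_mod_cast h
        have h3 := (CharP.cast_eq_zero_iff F p 2).mp h1
        exact hp2 ((Nat.prime_dvd_prime_iff_eq hp Nat.prime_two).mp h3)
      have hcardodd : Fintype.card F % 2 = 1 := by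
        obtain ⟨n, -, hn⟩ := FiniteField.card F p
        rw [hn]
        have hpodd : p % 2 = 1 := by
          rcases hp.eq_two_or_odd with h | h
          · exact absurd h hp2
          · exact h
        rw [Nat.pow_mod, hpodd, one_pow]
        norm_num
      have hsq_iff : IsSquare (-1 : F) ↔ Fintype.card F % 4 ≠ 3 :=
        FiniteField.isSquare_neg_one_iff
      constructor
      · intro hL
        refine Or.inl ⟨rfl, ?_⟩
        by_contra hcon
        rw [not_or, not_or] at hcon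
        obtain ⟨hd4, hm4, hq4⟩ := hcon
        have hde : Even d := by
          rw [Nat.even_iff]
          omega
        have hns : ¬ IsSquare (-1 : F) := by
          rw [hsq_iff]
          omega
        obtain ⟨x, hx, hx2, hxns, -⟩ := exists_cpx_der h2F hns d hde (by omega)
        obtain ⟨W, hW, hWx⟩ := hL x hx ⟨-1, by rw [hxx, hx2]⟩ hxns
        have hT : Matrix.toLin' (x : Matrix (Fin d ⊕ Fin d) (Fin d ⊕ Fin d) F)
            * Matrix.toLin' (x : Matrix (Fin d ⊕ Fin d) (Fin d ⊕ Fin d) F) = -1 := by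
          rw [hTT x (-1) hx2]
          ext v
          simp
        have hodd := cpx_typ_four hf h2F hns hQ hnd p _ (qi_of_mem_omega _ hx) hT k W hW hWx
        exact hm4 (hkpar.mpr hodd)
      · rintro (⟨-, hcond⟩ | ⟨-, h, -⟩ | ⟨-, h, -⟩)
        · intro x hx hz hxns
          obtain ⟨z, hz⟩ := hz
          have hxi := mem_iso_of_mem_omega (Cfsg.quadFormPlus d F) hx
          have hz2 : z * z = 1 := scalar_sq _ _ hQ hnd hxi 2 z hz
          rw [hxx] at hz
          have hgQ := qi_of_mem_omega (Cfsg.quadFormPlus d F) hx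
          rcases mul_self_eq_one_iff.mp hz2 with hz1 | hz1
          · -- involution
            rw [hz1] at hz
            have hT := hTT x 1 hz
            rw [one_smul] at hT
            exact invol_fix hf h2F hQ hnd d hdim p _ hgQ hT k hkd
          · -- x² = -1
            rw [hz1] at hz
            have hT : Matrix.toLin' (x : Matrix (Fin d ⊕ Fin d) (Fin d ⊕ Fin d) F)
                * Matrix.toLin' (x : Matrix (Fin d ⊕ Fin d) (Fin d ⊕ Fin d) F) = -1 := by
              rw [hTT x (-1) hz]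
              ext v
              simp
            by_cases h41 : Fintype.card F % 4 = 1
            · have hsq : IsSquare (-1 : F) := by
                rw [hsq_iff]
                omega
              exact cpx_fix_sq hf h2F hsq hQ hnd d hdim p _ hgQ hT k hkd
            · have hns : ¬ IsSquare (-1 : F) := by
                rw [hsq_iff]
                omega
              have hde : Even d := cpx_even_d h2F hns d (by omega) x hx hz
              have hko : Odd k := by
                rcases hcond with h | h | h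
                · exfalso
                  rw [Nat.even_iff] at hde
                  omega
                · exact hkpar.mp h
                · exact absurd h h41
              exact cpx_fix_four hf h2F hns hQ hnd d hdim p _ hgQ hT k hkd hko
        · omega
        · omega
  · -- r odd
    have hrp : r ≠ p := by
      rcases hr with h | h
      · exact absurd h hr2
      · exact h
    have hr3 : 2 < r := by
      have := hr'.two_le
      omega
    rw [lhs_gen (Cfsg.quadFormPlus d F) _ hf hQ hnd (d - 1) hcardι p r hr' hr2 hrp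
        (fun W => SubTyp (Cfsg.quadFormPlus d F) (Cfsg.Agent.Lib.Helper66.QuadSTD.plusB d F) W k 1),
      odd_iff74 hf hQ hnd d hd hdim htyp p r hr' hr2 hrp k hkd hrΩ']
    unfold Cond74
    by_cases hev : Even (orderOf ((Fintype.card F : ℕ) : ZMod r))
    · have hodd : ¬ Odd (orderOf ((Fintype.card F : ℕ) : ZMod r)) := by
        rw [Nat.not_odd_iff_even]
        exact hev
      rw [if_pos hev] at hc
      subst hc
      rw [if_pos hev]
      constructor
      · intro h
        exact Or.inr (Or.inr ⟨hrp, hr3, hev, h⟩)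
      · rintro (⟨h, -⟩ | ⟨-, -, h, -⟩ | ⟨-, -, -, h⟩)
        · exact absurd h hr2
        · exact absurd h hodd
        · exact h
    · have hodd : Odd (orderOf ((Fintype.card F : ℕ) : ZMod r)) := Nat.not_even_iff_odd.mp hev
      rw [if_neg hev] at hc
      subst hc
      rw [if_neg hev]
      constructor
      · rintro ⟨h1, h2⟩
        exact Or.inr (Or.inl ⟨hrp, hr3, hodd, h1, h2⟩)
      · rintro (⟨h, -⟩ | ⟨-, -, -, h1, h2⟩ | ⟨-, -, h, -⟩)
        · exact absurd h hr2
        · exact ⟨h1, h2⟩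
        · exact absurd h hev

end Cfsg.Agent.S5974
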