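import Cfsg.Statements.S5979
import Cfsg.Agent.Lib.Helper98.TDMain
import Cfsg.Agent.Lib.Helper98.TDDX
import Cfsg.Agent.Lib.Helper98.TDIFY
import Cfsg.Agent.Lib.Lead.TDTV
import Cfsg.Agent.Lib.Helper94.TDIF
import Cfsg.Agent.Lib.Helper47.InvSL
import Cfsg.Agent.Lib.Helper99.Mat2
-- import your own Cfsg.Agent.* helpers here

set_option autoImplicit false
open scoped MatrixGroups
open Cfsg

namespace Cfsg.Agent.S5979

/-- Elements of prime order of PSL_n(q) and the stabilizers of tensor decompositions with factors of different dimensions. Here `T = PSL_n(F)` for a field `F` with `q` elements and `n = a·b` with `2 ≤ a < b`; a tensor decomposition `F^n ≅ F^a ⊗ F^b` is given by a bijection `e` of index sets and a change of basis `P`, and `H` is the subgroup of matrices of determinant 1 in its stabilizer (the conjugate by `P` of the group of Kronecker products `g₁ ⊗ g₂`) — a subgroup of type GL_a(q) ⊗ GL_b(q) (maximality is not assumed); Ω is the set of cosets of `H` in `T`, so an element of `T` of prime order `r` (a matrix `x` of determinant 1 with `x^r` scalar, `x`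 not scalar) fixes a point of Ω exactly when some conjugate of `x` by a matrix of determinant 1 lies in `H`. Let `r` be a prime dividing the index of `H`. Then every element of `T` of order `r` fixes a point of Ω if and only if `r = 2`, `a = 2`, `q` is odd and `(q − 1)_2 ≤ (n)_2` (2-parts). -/
theorem result {F : Type*} [Field F] [Fintype F] {p : ℕ} [Fact p.Prime] [CharP F p] {q : ℕ} (hq : Fintype.card F = q)
    (n a b : ℕ) (hab : n = a * b) (ha : 2 ≤ a) (hlt : a < b) (e : Fin n ≃ Fin a × Fin b) (P : GL (Fin n) F)
    (r : ℕ) [Fact r.Prime]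
    (hΩ : r ∣ (Cfsg.Geo.tensorProductSubgroup a b e P).relIndex (Cfsg.Geo.specialLinear (Fin n) F)) :
    (∀ x ∈ Cfsg.Geo.specialLinear (Fin n) F, (∃ z : F, ((x ^ r : GL (Fin n) F) : Matrix (Fin n) (Fin n) F) = z • (1 : Matrix (Fin n) (Fin n) F)) →
      (∀ z : F, (x : Matrix (Fin n) (Fin n) F) ≠ z • (1 : Matrix (Fin n) (Fin n) F)) →
      ∃ g ∈ Cfsg.Geo.specialLinear (Fin n) F, g⁻¹ * x * g ∈ Cfsg.Geo.tensorProductSubgroup a b e P) ↔
    (r = 2 ∧ a = 2 ∧ Odd q ∧ padicValNat 2 (q - 1) ≤ padicValNat 2 n) := by
  classical
  have hp : p.Prime := Fact.out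
  have hr : r.Prime := Fact.out
  have hb3 : 3 ≤ b := by omega
  have hn6 : 6 ≤ n := by nlinarith
  have hbn : b ≤ n := by nlinarith
  have hbn' : b < n := by nlinarith
  -- group elements from matrices of determinant one
  have mk : ∀ M : Matrix (Fin n) (Fin n) F, M.det = 1 →
      ∃ x : GL (Fin n) F, x ∈ Cfsg.Geo.specialLinear (Fin n) F ∧
        (x : Matrix (Fin n) (Fin n) F) = M := by
    intro M hM
    refine ⟨Matrix.GeneralLinearGroup.mkOfDetNeZero M (by rw [hM]; exact one_ne_zero), ?_, rfl⟩
    exact (Cfsg.Agent.Lib.Helper99.mem_specialLinear_iff _).mpr hM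
  -- scalar matrices have rank `0` or `n` after subtracting a scalar
  have hsc : ∀ (L : Type _) [Field L] (s c : L),
      (s • (1 : Matrix (Fin n) (Fin n) L) - c • (1 : Matrix (Fin n) (Fin n) L)).rank = 0 ∨
      (s • (1 : Matrix (Fin n) (Fin n) L) - c • (1 : Matrix (Fin n) (Fin n) L)).rank = n := by
    intro L _ s c
    rw [← sub_smul]
    by_cases h0 : s - c = 0
    · left; rw [h0, zero_smul, Matrix.rank_zero]
    · right
      have hu : IsUnit ((s - c) • (1 : Matrix (Fin n) (Fin n) L)) := by
        rw [Matrix.isUnit_iff_isUnit_det, Matrix.det_smul, Matrix.det_one, mul_one]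
        exact (pow_ne_zero _ h0).isUnit
      rw [Matrix.rank_of_isUnit _ hu, Fintype.card_fin]
  have hqF : ((q : ℕ) : F) = 0 := by rw [← hq]; exact Nat.cast_card_eq_zero F
  constructor
  · intro hall
    by_contra hR
    rcases eq_or_ne r p with hrp | hrp
    · -- a transvection
      obtain ⟨M, hdet, hpow, hrank⟩ := Cfsg.Agent.Lib.Helper98.TD.exists_transv_elt (F := F) p n (by omega)
      obtain ⟨x, hxS, hxM⟩ := mk M hdet
      have hns : ∀ z : F, (x : Matrix (Fin n) (Fin n) F) ≠ z • (1 : Matrix (Fin n) (Fin n) F) := by
        intro z hz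
        have h1 := hsc F z 1
        rw [← hz, hxM, one_smul, hrank] at h1
        omega
      obtain ⟨g, -, hg⟩ := hall x hxS
        ⟨1, by rw [Units.val_pow_eq_pow_val, hxM, hrp, hpow, one_smul]⟩ hns
      exact Cfsg.Agent.Lib.Helper98.TD.not_conj_of_rank hlt.le e P x 1 one_ne_zero
        (by rw [hxM, one_smul, hrank]; omega) hns g hg
    · have hrF : (r : F) ≠ 0 := by
        rw [Ne, CharP.cast_eq_zero_iff F p r]
        intro hdvd
        exact hrp ((Nat.prime_dvd_prime_iff_eq hp hr).mp hdvd).symm
      rcases eq_or_ne r 2 with hr2 | hr2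
      · -- involutions
        have h2F : (2 : F) ≠ 0 := by
          have := hrF
          rw [hr2] at this
          exact_mod_cast this
        have hp2 : p ≠ 2 := fun h => hrp (hr2.trans h.symm)
        have hqodd : Odd q := by
          obtain ⟨k, -, hk⟩ := FiniteField.card F p
          rw [← hq, hk]
          exact (hp.eq_two_or_odd'.resolve_left hp2).pow
        by_cases ha2 : a = 2
        · have hv : ¬ padicValNat 2 (q - 1) ≤ padicValNat 2 n :=
            fun hv => hR ⟨hr2, ha2, hqodd, hv⟩
          obtain ⟨μ, hμ⟩ := Cfsg.Agent.Lib.Helper47.exists_pow_eq_neg_one hq (by omega : n ≠ 0)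
            (not_le.mp hv)
          have hμ0 : μ ≠ 0 := by
            rintro rfl
            rw [zero_pow (by omega)] at hμ
            exact one_ne_zero (neg_eq_zero.mp hμ.symm)
          obtain ⟨M, hdet, hpow, hrank⟩ := Cfsg.Agent.Lib.Helper98.TD.exists_diag_mu h2F n (by omega) μ hμ
          obtain ⟨x, hxS, hxM⟩ := mk M hdet
          have hns : ∀ z : F, (x : Matrix (Fin n) (Fin n) F) ≠ z • (1 : Matrix (Fin n) (Fin n) F) := by
            intro z hz
            have h1 := hsc F z μ
            rw [← hz, hxM, hrank] at h1
            omega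
          obtain ⟨g, -, hg⟩ := hall x hxS
            ⟨μ ^ 2, by rw [Units.val_pow_eq_pow_val, hxM, hr2, hpow]⟩ hns
          exact Cfsg.Agent.Lib.Helper98.TD.not_conj_of_rank hlt.le e P x μ hμ0
            (by rw [hxM, hrank]; omega) hns g hg
        · obtain ⟨M, hdet, hpow, hrank⟩ := Cfsg.Agent.Lib.Helper98.TD.exists_diag_neg h2F n (by omega)
          obtain ⟨x, hxS, hxM⟩ := mk M hdet
          have hns : ∀ z : F, (x : Matrix (Fin n) (Fin n) F) ≠ z • (1 : Matrix (Fin n) (Fin n) F) := by
            intro z hz
            have h1 := hsc F z 1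
            rw [← hz, hxM, one_smul, hrank] at h1
            omega
          obtain ⟨g, -, hg⟩ := hall x hxS
            ⟨1, by rw [Units.val_pow_eq_pow_val, hxM, hr2, hpow, one_smul]⟩ hns
          exact Cfsg.Agent.Lib.Helper98.TD.not_conj_of_rank hlt.le e P x 1 one_ne_zero
            (by rw [hxM, one_smul, hrank]; omega) hns g hg
      · -- odd `r ≠ p`
        by_cases hC2 : ∀ g : Polynomial F, g.Monic → g ∣ Polynomial.X ^ r - 1 →
            g.eval 1 ≠ 0 → g.natDegree ≤ b → g = 1
        · -- no small factors: any element of order `r`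
          have hnoroot : ∀ lam : F, lam ^ r = 1 → lam = 1 := by
            intro lam hl
            by_contra hne
            have h1 := hC2 (Polynomial.X - Polynomial.C lam) (Polynomial.monic_X_sub_C lam)
              (by
                rw [Polynomial.dvd_iff_isRoot]
                simp [hl])
              (by
                simp only [Polynomial.eval_sub, Polynomial.eval_X, Polynomial.eval_C]
                exact sub_ne_zero.mpr (Ne.symm hne))
              (by rw [Polynomial.natDegree_X_sub_C]; omega)
            have h2 := congrArg Polynomial.natDegree h1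
            rw [Polynomial.natDegree_X_sub_C, Polynomial.natDegree_one] at h2
            exact one_ne_zero h2
          have hdvd : r ∣ Nat.card (Cfsg.Geo.specialLinear (Fin n) F) :=
            hΩ.trans (Subgroup.relIndex_dvd_card _ _)
          obtain ⟨x0, hx0⟩ := exists_prime_orderOf_dvd_card' r hdvd
          have hx0r : x0 ^ r = 1 := by rw [← hx0]; exact pow_orderOf_eq_one x0
          have hx01 : x0 ≠ 1 := by
            rintro rfl
            rw [orderOf_one] at hx0
            exact hr.one_lt.ne hx0
          have hxr : ((x0 : GL (Fin n) F) : Matrix (Fin n) (Fin n) F) ^ r = 1 := by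
            have := congrArg (fun y : ↥(Cfsg.Geo.specialLinear (Fin n) F) =>
              ((y : GL (Fin n) F) : Matrix (Fin n) (Fin n) F)) hx0r
            simpa using this
          have hns : ∀ z : F, ((x0 : GL (Fin n) F) : Matrix (Fin n) (Fin n) F) ≠
              z • (1 : Matrix (Fin n) (Fin n) F) := by
            intro z hz
            have hzr : z ^ r = 1 := by
              have h1 := hxr
              rw [hz, smul_pow, one_pow] at h1
              have h2 := congrFun (congrFun h1 ⟨0, by omega⟩) ⟨0, by omega⟩
              simpa using h2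
            have hz1 := hnoroot z hzr
            apply hx01
            apply Subtype.ext
            apply Units.ext
            rw [hz, hz1, one_smul]
            rfl
          obtain ⟨g, -, hg⟩ := hall (x0 : GL (Fin n) F) x0.2
            ⟨1, by rw [Units.val_pow_eq_pow_val, hxr, one_smul]⟩ hns
          exact Cfsg.Agent.Lib.Helper98.TD.not_conj_of_c2 (by omega) hlt.le e P r hrF hC2
            (x0 : GL (Fin n) F) 1 one_ne_zero (by rw [hxr, one_smul]) hns g hg
        · push_neg at hC2
          obtain ⟨g0, hmon, hdvd, he1, hdeg, hne1⟩ := hC2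
          have hdeg1 : 1 ≤ g0.natDegree := by
            by_contra h0
            exact hne1 (Polynomial.eq_one_of_monic_natDegree_zero hmon (by omega))
          have key : ∀ M : Matrix (Fin n) (Fin n) F, M.det = 1 → M ^ r = 1 →
              (∀ (L : Type _) [Field L] [Algebra F L],
                (∀ θ : L, θ ≠ 1 → n ≤ (M.map (algebraMap F L) -
                  θ • (1 : Matrix (Fin n) (Fin n) L)).rank + 1) ∧
                (M.map (algebraMap F L) - 1).rank ≤ b ∧
                0 < (M.map (algebraMap F L) - 1).rank) → False := by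
            intro M hdet hpow hspec
            obtain ⟨x, hxS, hxM⟩ := mk M hdet
            have hns : ∀ z : F, (x : Matrix (Fin n) (Fin n) F) ≠
                z • (1 : Matrix (Fin n) (Fin n) F) := by
              intro z hz
              obtain ⟨-, h2, h3⟩ := hspec F
              have h1 := hsc F z 1
              rw [← hz, hxM, one_smul] at h1
              rw [Cfsg.Agent.Lib.Helper98.TD.map_self] at h2 h3
              omega
            obtain ⟨g, -, hg⟩ := hall x hxS
              ⟨1, by rw [Units.val_pow_eq_pow_val, hxM, hpow, one_smul]⟩ hns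
            exact Cfsg.Agent.Lib.Helper98.TD.not_conj_of_spec ha hlt hab e P x r hrF
              (by rw [hxM, hpow]) (by rw [hxM]; exact hspec) g hg
          by_cases hroot : ∃ lam : F, lam ^ r = 1 ∧ lam ≠ 1
          · obtain ⟨lam, hl1, hl2⟩ := hroot
            have hl0 : lam ≠ 0 := by
              rintro rfl
              rw [zero_pow hr.ne_zero] at hl1
              exact zero_ne_one hl1
            have hl3 : lam ^ 2 ≠ 1 := by
              intro h2
              have hodd : Odd r := hr.eq_two_or_odd'.resolve_left hr2
              obtain ⟨k, hk⟩ := hodd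
              rw [hk, pow_succ, pow_mul, h2, one_pow, one_mul] at hl1
              exact hl2 hl1
            obtain ⟨M, hdet, hpow, hspec⟩ :=
              Cfsg.Agent.Lib.Helper98.TD.exists_diag_lam n r (by omega) lam hl0 hl1 hl2 hl3
            refine key M hdet hpow ?_
            intro L _ _
            obtain ⟨h1, h2⟩ := hspec L
            exact ⟨h1, by rw [h2]; omega, by rw [h2]; omega⟩
          · push_neg at hroot
            obtain ⟨M, hpow, hspec⟩ := Cfsg.Agent.Lib.Helper98.TD.exists_comp_elt n b r g0 hmon hdvd he1
              hdeg1 hdeg hbn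
            have hdet : M.det = 1 := by
              apply hroot
              rw [← Matrix.det_pow, hpow, Matrix.det_one]
            exact key M hdet hpow hspec
  · rintro ⟨hr2, ha2, hqodd, hv⟩ x hx ⟨z, hz⟩ -
    subst hr2
    subst ha2
    have h2F : (2 : F) ≠ 0 := by
      intro h2
      obtain ⟨k, hk⟩ := hqodd
      rw [hk] at hqF
      push_cast at hqF
      rw [h2, zero_mul, zero_add] at hqF
      exact one_ne_zero hqF
    exact Cfsg.Agent.Lib.Helper98.TD.conj_into_of_sq hq h2F n b hab (by omega)
      (Cfsg.Geo.tensorProductSubgroup 2 b e P)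
      (fun c hc s t hst => Cfsg.Agent.Lib.Helper98.TD.exists_mem_charpoly_split e P c hc s t hst)
      (fun z hz => Cfsg.Agent.Lib.Helper98.TD.exists_mem_charpoly_nonsplit e P z hz) hv x hx z hz

end Cfsg.Agent.S5979
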