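import Cfsg.Statements.S5980
import Cfsg.Agent.Lib.Helper98.TD2Main

set_option autoImplicit false
open scoped MatrixGroups
open Cfsg

namespace Cfsg.Agent.S5980

/-- Elements of prime order of PSp_n(q), q odd, and the stabilizers of tensor decompositions Sp_a(q) ⊗ O_b(q). Here `T = PSp_{2d}(F)` for a field `F` with `q` elements, `q` odd, `d ≥ 2`, realised through the matrices preserving the standard alternating form `f`; `2d = a·b` with `a` even, `b ≥ 3`, and the bijection `e` and change of basis `P` exhibit `f` as a non-zero scalar multiple of the tensor product of a non-degenerate alternating form `f₁` on `F^a` and a non-degenerate symmetric bilinear form `f₂` on `F^b`; `H` is the subgroup of `T` stabilizing this tensor decomposition (the elements of `T` in the conjugate by `P` of the group of Kronecker products) — a subgroup of type Sp_a(q) ⊗ O^ε_b(q) (maximality is not assumed). Ω is the set of cosets of `H` in `T`, so an element of `T` of prime order `r` (`x ∈ T` with `x^r` scalar, `x` not scalar) fixes a point of Ω exactly when some `T`-conjugate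 of `x` lies in `H`. Let `r` be a prime dividing the index of `H`. Then every element of `T` of order `r` fixes a point of Ω if and only if `r = 2` and `a = 2`. -/
theorem result {F : Type*} [Field F] [Fintype F] {p : ℕ} [Fact p.Prime] [CharP F p] {q : ℕ} (hq : Fintype.card F = q)
    (hodd : Odd q) (d : ℕ) (hd : 2 ≤ d) (a b : ℕ) (hab : 2 * d = a * b) (ha : Even a) (ha2 : 2 ≤ a) (hb : 3 ≤ b)
    (e : (Fin d ⊕ Fin d) ≃ Fin a × Fin b) (P : GL (Fin d ⊕ Fin d) F)
    (f₁ : (Fin a → F) → (Fin a → F) → F) (f₂ : (Fin b → F) → (Fin b → F) → F)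
    (hf₁ : Cfsg.Geo.IsSymplecticForm f₁) (hf₂ : Cfsg.Geo.IsSymmetricForm f₂)
    (hS : Cfsg.Geo.IsTensorFormStructure id (Cfsg.sympForm d F) f₁ f₂ e P)
    (r : ℕ) [Fact r.Prime]
    (hΩ : r ∣ (Cfsg.Geo.tensorProductSubgroup a b e P).relIndex (Cfsg.spGL d F)) :
    (∀ x ∈ Cfsg.spGL d F, (∃ z : F, ((x ^ r : GL (Fin d ⊕ Fin d) F) : Matrix (Fin d ⊕ Fin d) (Fin d ⊕ Fin d) F) = z • (1 : Matrix (Fin d ⊕ Fin d) (Fin d ⊕ Fin d) F)) →
      (∀ z : F, (x : Matrix (Fin d ⊕ Fin d) (Fin d ⊕ Fin d) F) ≠ z • (1 : Matrix (Fin d ⊕ Fin d) (Fin d ⊕ Fin d) F)) →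
      ∃ g ∈ Cfsg.spGL d F, g⁻¹ * x * g ∈ Cfsg.Geo.tensorProductSubgroup a b e P) ↔ (r = 2 ∧ a = 2) := by
  classical
  have hp : p.Prime := Fact.out
  have hr : r.Prime := Fact.out
  have hqF : ((q : ℕ) : F) = 0 := by rw [← hq]; exact Nat.cast_card_eq_zero F
  have h2F : (2 : F) ≠ 0 := by
    intro h2
    obtain ⟨k, hk⟩ := hodd
    rw [hk] at hqF
    push_cast at hqF
    rw [h2, zero_mul, zero_add] at hqF
    exact one_ne_zero hqF
  have hp2 : p ≠ 2 := by
    rintro rfl
    apply h2F
    have := CharP.cast_eq_zero F 2
    exact_mod_cast this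
  have hd1 : 1 ≤ d := by omega
  -- group elements from symplectic matrices
  have mk : ∀ M : Matrix (Fin d ⊕ Fin d) (Fin d ⊕ Fin d) F, M ∈ Matrix.symplecticGroup (Fin d) F →
      ∃ x : GL (Fin d ⊕ Fin d) F, x ∈ Cfsg.spGL d F ∧
        (x : Matrix (Fin d ⊕ Fin d) (Fin d ⊕ Fin d) F) = M := by
    intro M hM
    have hdet : M.det ≠ 0 := by
      rw [SymplecticGroup.det_eq_one hM]
      exact one_ne_zero
    refine ⟨Matrix.GeneralLinearGroup.mkOfDetNeZero M hdet, ?_, rfl⟩
    rw [Cfsg.Agent.Lib.Helper98.TD2.mem_spGL_iff_symplectic]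
    exact hM
  constructor
  · intro hall
    by_contra hR
    rcases eq_or_ne r p with hrp | hrp
    · -- a transvection
      obtain ⟨M, hMsp, hpow, hrank, hMns⟩ :=
        Cfsg.Agent.Lib.Helper98.TD2.exists_sp_transv (F := F) p d hd1
      obtain ⟨x, hxS, hxM⟩ := mk M hMsp
      have hns : ∀ z : F, (x : Matrix (Fin d ⊕ Fin d) (Fin d ⊕ Fin d) F) ≠
          z • (1 : Matrix (Fin d ⊕ Fin d) (Fin d ⊕ Fin d) F) := by
        intro z hz
        exact hMns z (by rw [← hxM, hz])
      obtain ⟨g, -, hg⟩ := hall x hxS
        ⟨1, by rw [Units.val_pow_eq_pow_val, hxM, hrp, hpow, one_smul]⟩ hns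
      exact Cfsg.Agent.Lib.Helper98.TD2.not_conj_of_rank_min e P x 1 one_ne_zero
        (by
          rw [hxM, one_smul]
          have : 2 ≤ min a b := le_min ha2 (by omega)
          omega) hns g hg
    · have hrF : (r : F) ≠ 0 := by
        rw [Ne, CharP.cast_eq_zero_iff F p r]
        intro hdvd
        exact hrp ((Nat.prime_dvd_prime_iff_eq hp hr).mp hdvd).symm
      rcases eq_or_ne r 2 with hr2 | hr2
      · -- involutions, `a ≥ 4`
        have ha4 : 4 ≤ a := by
          have hane : a ≠ 2 := fun h => hR ⟨hr2, h⟩
          obtain ⟨k, hk⟩ := ha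
          omega
        obtain ⟨M, hMsp, hpow, hrank, hMns⟩ :=
          Cfsg.Agent.Lib.Helper98.TD2.exists_sp_diag_neg h2F d hd
        obtain ⟨x, hxS, hxM⟩ := mk M hMsp
        have hns : ∀ z : F, (x : Matrix (Fin d ⊕ Fin d) (Fin d ⊕ Fin d) F) ≠
            z • (1 : Matrix (Fin d ⊕ Fin d) (Fin d ⊕ Fin d) F) := by
          intro z hz
          exact hMns z (by rw [← hxM, hz])
        obtain ⟨g, -, hg⟩ := hall x hxS
          ⟨1, by rw [Units.val_pow_eq_pow_val, hxM, hr2, hpow, one_smul]⟩ hns
        exact Cfsg.Agent.Lib.Helper98.TD2.not_conj_of_rank_min e P x 1 one_ne_zero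
          (by
            rw [hxM, one_smul]
            have : 3 ≤ min a b := le_min (by omega) hb
            omega) hns g hg
      · -- odd `r ≠ p`
        obtain ⟨i, hi⟩ : ∃ i : ℕ, i = orderOf (q : ZMod r) := ⟨_, rfl⟩
        obtain ⟨g₀, hg₀⟩ := Cfsg.Agent.Lib.Helper98.TD2.exists_isCycFactor (F := F) r hr
        obtain ⟨s, hs, hdual, hsep, hs1, hsdeg1, hsdeg⟩ :=
          Cfsg.Agent.Lib.Helper98.TD2.exists_cyc_multiset hq hr hr2 hrp g₀ hg₀
        rw [← hi] at hsdeg
        have hi1 : 1 ≤ i := by
          by_contra h0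
          have hi0 : i = 0 := by omega
          rw [hi0] at hsdeg
          simp at hsdeg
          omega
        have hδle : s.prod.natDegree ≤ 2 * i := by
          rw [hsdeg]
          split_ifs <;> omega
        -- the good element, when it exists
        have key : s.prod.natDegree ≤ 2 * d →
            (min a b < 2 * d - s.prod.natDegree ∨
              (∀ g : Polynomial F, g.Monic → g ∣ Polynomial.X ^ r - 1 → g.eval 1 ≠ 0 →
                g.natDegree ≤ a → g = 1)) → False := by
          intro hle hcase
          obtain ⟨M, hMsp, hMr, hMcp⟩ :=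
            Cfsg.Agent.Lib.Helper98.TD2.exists_sp_cyc (p := p) hr hr2 hrp d s hs hdual hle
          obtain ⟨x, hxS, hxM⟩ := mk M hMsp
          have hnot := Cfsg.Agent.Lib.Helper98.TD2.not_conj_of_charpoly ha2 (by omega) e P x r hrF
            (by rw [hxM, hMr]) (2 * d - s.prod.natDegree) s.prod hsep hs1 hsdeg1
            (by rw [hxM, hMcp]) hcase
          have hns : ∀ z : F, (x : Matrix (Fin d ⊕ Fin d) (Fin d ⊕ Fin d) F) ≠
              z • (1 : Matrix (Fin d ⊕ Fin d) (Fin d ⊕ Fin d) F) := by
            intro z hz
            have hz0 : z ≠ 0 := by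
              rintro rfl
              have h1 := hMr
              rw [← hxM, hz, zero_smul, zero_pow hr.ne_zero] at h1
              have h2 := congrFun (congrFun h1 (Sum.inl ⟨0, by omega⟩)) (Sum.inl ⟨0, by omega⟩)
              simp at h2
            apply hnot 1
            rw [inv_one, one_mul, mul_one]
            exact Cfsg.Agent.Lib.Helper98.TD2.scalar_mem_tensor e P x z hz0 hz
          obtain ⟨g, -, hg⟩ := hall x hxS
            ⟨1, by rw [Units.val_pow_eq_pow_val, hxM, hMr, one_smul]⟩ hns
          exact hnot g hg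
        by_cases hia : i ≤ a
        · -- the spectral count
          refine key ?_ (Or.inl ?_)
          · have : 2 * a ≤ a * b := by nlinarith
            omega
          · rcases Nat.lt_or_ge a 3 with ha3 | ha3
            · have ha2' : a = 2 := by omega
              have hδ2 : s.prod.natDegree = 2 := by
                rw [hsdeg]
                have hi12 : i = 1 ∨ i = 2 := by omega
                rcases hi12 with h1 | h1
                · rw [h1]; simp
                · rw [h1]; simp
              have hd2 : 2 * d = 2 * b := by rw [hab, ha2']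
              rw [hδ2, ha2', min_eq_left (by omega)]
              omega
            · have ha4 : 4 ≤ a := by
                obtain ⟨k, hk⟩ := ha
                omega
              rcases Nat.lt_or_ge b 4 with hb4 | hb4
              · have hb3 : b = 3 := by omega
                rw [hb3] at hab ⊢
                rw [min_eq_right (by omega)]
                omega
              · have h1 : min a b ≤ a := min_le_left a b
                have h2 : 4 * a ≤ a * b := by nlinarith
                omega
        · rw [not_le] at hia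
          have hC2a := Cfsg.Agent.Lib.Helper98.TD2.c2_of_lt_order hq hr hrp a (by rw [← hi]; exact hia)
          by_cases hib : i ≤ b
          · refine key ?_ (Or.inr hC2a)
            have : 2 * b ≤ a * b := by nlinarith
            omega
          · rw [not_le] at hib
            have hC2 := Cfsg.Agent.Lib.Helper98.TD2.c2_of_lt_order hq hr hrp (max a b)
              (by rw [← hi]; exact max_lt hia hib)
            have hnoroot : ∀ lam : F, lam ^ r = 1 → lam = 1 :=
              Cfsg.Agent.Lib.Helper98.TD.tdc2_root_one r (max a b) (by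
                have := le_max_left a b
                omega) hC2
            have hdvd : r ∣ Nat.card (Cfsg.spGL d F) :=
              hΩ.trans (Subgroup.relIndex_dvd_card _ _)
            obtain ⟨x0, hx0⟩ := exists_prime_orderOf_dvd_card' r hdvd
            have hx0r : x0 ^ r = 1 := by rw [← hx0]; exact pow_orderOf_eq_one x0
            have hx01 : x0 ≠ 1 := by
              rintro rfl
              rw [orderOf_one] at hx0
              exact hr.one_lt.ne hx0
            have hxr : ((x0 : GL (Fin d ⊕ Fin d) F) : Matrix (Fin d ⊕ Fin d) (Fin d ⊕ Fin d) F) ^ r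
                = 1 := by
              have := congrArg (fun y : ↥(Cfsg.spGL d F) =>
                ((y : GL (Fin d ⊕ Fin d) F) : Matrix (Fin d ⊕ Fin d) (Fin d ⊕ Fin d) F)) hx0r
              simpa using this
            have hns : ∀ z : F,
                ((x0 : GL (Fin d ⊕ Fin d) F) : Matrix (Fin d ⊕ Fin d) (Fin d ⊕ Fin d) F) ≠
                z • (1 : Matrix (Fin d ⊕ Fin d) (Fin d ⊕ Fin d) F) := by
              intro z hz
              have hzr : z ^ r = 1 := by
                have h1 := hxr
                rw [hz, smul_pow, one_pow] at h1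
                have h2 := congrFun (congrFun h1 (Sum.inl ⟨0, by omega⟩)) (Sum.inl ⟨0, by omega⟩)
                simpa using h2
              have hz1 := hnoroot z hzr
              apply hx01
              apply Subtype.ext
              apply Units.ext
              rw [hz, hz1, one_smul]
              rfl
            obtain ⟨g, -, hg⟩ := hall (x0 : GL (Fin d ⊕ Fin d) F) x0.2
              ⟨1, by rw [Units.val_pow_eq_pow_val, hxr, one_smul]⟩ hns
            exact Cfsg.Agent.Lib.Helper98.TD2.not_conj_of_c2 (by omega) (by omega)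
              (le_max_left a b) (le_max_right a b) e P r hrF hC2
              (x0 : GL (Fin d ⊕ Fin d) F) 1 one_ne_zero (by rw [hxr, one_smul]) hns g hg
  · rintro ⟨hr2, ha2'⟩ x hx ⟨z, hz⟩ -
    subst hr2
    subst ha2'
    obtain rfl : d = b := by omega
    exact Cfsg.Agent.Lib.Helper98.TD2.conj_into_of_sq_sp h2F hp2 hd1 e P f₁ f₂ hf₁ hf₂ hS x hx z hz

end Cfsg.Agent.S5980
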