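import Cfsg.Statements.S5981
import Cfsg.Agent.Lib.Helper96.OqFwd
import Cfsg.Agent.Lib.Helper96.OqBack

set_option autoImplicit false
open scoped MatrixGroups
open Cfsg

namespace Cfsg.Agent.S5981

/-- Elements of prime order of PSL_n(q), q odd, and the subgroups of orthogonal type. Here `T = PSL_n(F)` for a field `F` with `q` elements, `q` odd, `n ≥ 3`; `Q` is a non-degenerate quadratic form on `F^n` (of either type when `n` is even) and `H` is the subgroup of matrices of determinant 1 that preserve `Q` up to a scalar — a subgroup of type O^ε_n(q) (maximality is not assumed); Ω is the set of cosets of `H` in `T`, so an element of `T` of prime order `r` (a matrix `x` of determinant 1 with `x^r` scalar, `x` not scalar) fixes a point of Ω exactly when some conjugate of `x` by a matrix of determinant 1 preserves `Q` up to a scalar. Let `r` be a prime dividing the index of `H`, with `(n, r) ≠ (6, 3)`. Then every element of `T` of order `r` fixes a point of Ω if and only if `r = 2`, or `r ∈ {3,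 5}`, `n = r` and `(q − 1)_r = r` (the `r`-part of `q − 1` is exactly `r`). The case `(n, r) = (6, 3)` is not covered by this statement. -/
theorem result {F : Type*} [Field F] [Fintype F] {p : ℕ} [Fact p.Prime] [CharP F p] {q : ℕ} (hq : Fintype.card F = q)
    (hodd : Odd q) (n : ℕ) (hn : 3 ≤ n) (Q : (Fin n → F) → F) (hQ : Cfsg.Geo.IsNondegenerateQuadraticForm Q)
    (r : ℕ) [Fact r.Prime] (hgap : ¬ (n = 6 ∧ r = 3))
    (hΩ : r ∣ (Cfsg.Geo.quadSimilarityGroup Q).relIndex (Cfsg.Geo.specialLinear (Fin n) F)) :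
    (∀ x ∈ Cfsg.Geo.specialLinear (Fin n) F, (∃ z : F, ((x ^ r : GL (Fin n) F) : Matrix (Fin n) (Fin n) F) = z • (1 : Matrix (Fin n) (Fin n) F)) →
      (∀ z : F, (x : Matrix (Fin n) (Fin n) F) ≠ z • (1 : Matrix (Fin n) (Fin n) F)) →
      ∃ g ∈ Cfsg.Geo.specialLinear (Fin n) F, g⁻¹ * x * g ∈ Cfsg.Geo.quadSimilarityGroup Q) ↔
    (r = 2 ∨ ((r = 3 ∨ r = 5) ∧ n = r ∧ padicValNat r (q - 1) = 1)) := by
  subst hq
  have h2 : (2 : F) ≠ 0 := Cfsg.Agent.Lib.Helper47.two_ne_zero_of_odd_card' rfl hodd
  constructor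
  · intro hall
    by_contra hcon
    rw [not_or] at hcon
    exact Cfsg.Agent.Lib.Helper96.Oq.forward_odd (p := p) hodd n hn Q hQ r hcon.1 hgap hΩ hall hcon.2
  · rintro (hr2 | ⟨hr35, hnr, hv⟩) x hx ⟨z, hz⟩ hns
    · subst hr2
      exact Cfsg.Agent.Lib.Helper96.Oq.backward_two h2 n hn Q hQ x hx z hz
    · subst hnr
      exact Cfsg.Agent.Lib.Helper96.Oq.backward_special (p := p) h2 n hr35 hv Q hQ x hx z hz hns

end Cfsg.Agent.S5981
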