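import Cfsg.Statements.S5984
import Cfsg.Agent.Lib.Helper98.U84Main

set_option autoImplicit false
open scoped MatrixGroups
open Cfsg

namespace Cfsg.Agent.S5984

/-- Elements of prime order of PSU_n(q) and the stabilizers of pairs of complementary totally singular subspaces. Here `T = PSU_n(q)` is realised through `SU_n(q)`, the matrices of determinant 1 over the field `F` with `q²` elements preserving the hermitian form `Σ uᵢ vᵢ^q`, with `n ≥ 4` even; `D` is a pair of complementary subspaces of dimension `n/2` on each of which the form vanishes identically, and `H` is the subgroup of `SU_n(q)` fixing or interchanging the two members — a subgroup of type GL_{n/2}(q²).2 (maximality is not assumed). Ω is the set of cosets of `H`, so an element of `T` of prime order `r` (`x ∈ SU_n(q)` with `x^r` scalar, `x` not scalar) fixes a point of Ω exactly when some `SU_n(q)`-conjugate of `x` lies in `H`. Let `r` be a prime dividing the index of `H`. Then every element of `T` of order `r` fixes a point of Ω if and only if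 `r = 2`, `q` is odd and `(q + 1)_2 ≤ (n)_2` (2-parts). -/
theorem result {F : Type*} [Field F] [Fintype F] {p : ℕ} [Fact p.Prime] [CharP F p] {q : ℕ} (hq : Fintype.card F = q ^ 2)
    (n : ℕ) (hn : 4 ≤ n) (he : Even n) (D : Fin 2 → Submodule F (Fin n → F)) (hD : Cfsg.Geo.IsMDecomposition (n / 2) D)
    (hDs : ∀ i, Cfsg.Geo.IsTotallySingularFor (Cfsg.hermForm n F q) (D i))
    (r : ℕ) [Fact r.Prime]
    (hΩ : r ∣ (Cfsg.Geo.decompositionStabilizer D).relIndex (Cfsg.GU n F q ⊓ Cfsg.Geo.specialLinear (Fin n) F)) :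
    (∀ x ∈ Cfsg.GU n F q ⊓ Cfsg.Geo.specialLinear (Fin n) F, (∃ z : F, ((x ^ r : GL (Fin n) F) : Matrix (Fin n) (Fin n) F) = z • (1 : Matrix (Fin n) (Fin n) F)) →
      (∀ z : F, (x : Matrix (Fin n) (Fin n) F) ≠ z • (1 : Matrix (Fin n) (Fin n) F)) →
      ∃ g ∈ Cfsg.GU n F q ⊓ Cfsg.Geo.specialLinear (Fin n) F, g⁻¹ * x * g ∈ Cfsg.Geo.decompositionStabilizer D) ↔
    (r = 2 ∧ Odd q ∧ padicValNat 2 (q + 1) ≤ padicValNat 2 n) := by
  classical
  have hp : p.Prime := Fact.out
  have hr : r.Prime := Fact.out
  have hnm : n = 2 * (n / 2) := by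
    obtain ⟨k, hk⟩ := he
    omega
  have hm : 2 ≤ n / 2 := by omega
  constructor
  · intro hall
    by_contra hR
    rcases eq_or_ne r p with hrp | hrp
    · subst hrp
      exact Cfsg.Agent.Lib.Helper98.U84.fwd_p hq hm D hD hDs (by omega) hall
    · rcases eq_or_ne r 2 with hr2 | hr2
      · subst hr2
        have hqodd : Odd q := by
          rw [← Nat.not_even_iff_odd]
          intro hev
          obtain ⟨k, -, hk⟩ := FiniteField.card F p
          have h1 : 2 ∣ p ^ (k : ℕ) := by
            rw [← hk, hq]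
            exact dvd_pow hev.two_dvd two_ne_zero
          exact hrp ((Nat.prime_dvd_prime_iff_eq Nat.prime_two hp).mp
            (Nat.prime_two.dvd_of_dvd_pow h1))
        exact Cfsg.Agent.Lib.Helper98.U84.fwd_two hq hm D hD hDs (by omega) (Ne.symm hrp) hqodd
          (fun h => hR ⟨rfl, hqodd, h⟩) hall
      · exact Cfsg.Agent.Lib.Helper98.U84.fwd_odd hq hnm hm D hD hDs hr hr2 hrp hΩ hall
  · rintro ⟨rfl, hodd, hv⟩ x hx ⟨z, hz⟩ -
    exact Cfsg.Agent.Lib.Helper98.U84.bwd (p := p) hq hnm hm D hD hDs hodd hv x hx z hz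

end Cfsg.Agent.S5984
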