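import Cfsg.Statements.S5985
import Mathlib
import Cfsg.Agent.Lib.Helper98.NsPoint
import Cfsg.Agent.Lib.Helper52.OmegaPlus
-- import your own Cfsg.Agent.* helpers here

set_option autoImplicit false
open scoped MatrixGroups
open Cfsg

namespace Cfsg.Agent.S5985

/-- Elements of prime order of Ω⁺_n(q), q even, with no fixed nonsingular 1-space. Here `T = PΩ⁺_n(F)`, `n = 2d ≥ 8`, realised through `Ω⁺_n(q)`, the commutator subgroup of the isometry group of `Q = Σ xᵢyᵢ` over the field `F` with `q` elements; an element of `T` of prime order `r` is an element `x` of `Ω⁺_n(q)` with `x^r` scalar and `x` not scalar; `q` is even (so the centre is trivial). Let Ω be the set of 1-dimensional subspaces spanned by a vector `v` with `Q(v) ≠ 0`, and let `r` be a prime dividing their number. Then every element of `T` of order `r` fixes some nonsingular 1-space if and only if `r = 2` and `n ≡ 2 (mod 4)` (that is, `d` is odd). -/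
theorem result {F : Type*} [Field F] [Fintype F] {p : ℕ} [Fact p.Prime] [CharP F p] {q : ℕ} (hq : Fintype.card F = q)
    (hp : p = 2) (d : ℕ) (hd : 4 ≤ d) (r : ℕ) [Fact r.Prime]
    (hrΩ : r ∣ Nat.card {W : Submodule F (Fin d ⊕ Fin d → F) // Module.finrank F ↥W = 1 ∧ ∃ v ∈ W, Cfsg.quadFormPlus d F v ≠ 0}) :
    (∀ x : GL (Fin d ⊕ Fin d) F, x ∈ Cfsg.Geo.omegaGL (Cfsg.quadFormPlus d F) →
      (∃ z : F, ((x ^ r : GL (Fin d ⊕ Fin d) F) : Matrix (Fin d ⊕ Fin d) (Fin d ⊕ Fin d) F) = z • (1 : Matrix (Fin d ⊕ Fin d) (Fin d ⊕ Fin d) F)) →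
      (∀ z : F, (x : Matrix (Fin d ⊕ Fin d) (Fin d ⊕ Fin d) F) ≠ z • (1 : Matrix (Fin d ⊕ Fin d) (Fin d ⊕ Fin d) F)) →
      ∃ W : Submodule F (Fin d ⊕ Fin d → F), (Module.finrank F ↥W = 1 ∧ ∃ v ∈ W, Cfsg.quadFormPlus d F v ≠ 0) ∧ W.map (Matrix.toLin' (x : Matrix (Fin d ⊕ Fin d) (Fin d ⊕ Fin d) F)) ≤ W) ↔ (r = 2 ∧ Odd d) := by
  classical
  subst hp
  have h2 : (2 : F) = 0 := by
    have h := CharP.cast_eq_zero F 2
    exact_mod_cast h
  have hd1 : 1 ≤ d := by omega
  have hq2 : 2 ≤ q := by rw [← hq]; exact Fintype.one_lt_card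
  have hcount := Cfsg.Agent.Lib.Helper98.card_nonsingular_points_plus hq d hd1
  rw [hcount] at hrΩ
  obtain ⟨Q, hQdef⟩ : ∃ Q : QuadraticForm F (Fin d ⊕ Fin d → F),
      Q = Cfsg.Agent.Lib.Helper51.QPlus d F := ⟨_, rfl⟩
  have hQc : ⇑Q = Cfsg.quadFormPlus d F := by
    rw [hQdef]; exact Cfsg.Agent.Lib.Helper51.coe_QPlus d F
  have hnd : (QuadraticMap.polarBilin Q).Nondegenerate := by
    rw [hQdef]; exact Cfsg.Agent.Lib.Helper52.QPlus_nondegenerate
  rw [← hQc]
  obtain ⟨v₀, hv₀⟩ := Cfsg.Agent.Lib.Helper98.exists_nonsingular_plus (F := F) d hd1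
  have hQv₀ : Q v₀ ≠ 0 := by rw [hQc, hv₀]; exact one_ne_zero
  have hcard4 : Fintype.card F ≠ 2 ∨ Fintype.card (Fin d ⊕ Fin d) ≠ 4 :=
    Or.inr (by rw [Fintype.card_sum, Fintype.card_fin]; omega)
  haveI : Nonempty (Fin d ⊕ Fin d) := ⟨Sum.inl ⟨0, by omega⟩⟩
  have hΩ : ∀ g : ↥(Cfsg.isometryGroup F ⇑Q), g ∈ commutator ↥(Cfsg.isometryGroup F ⇑Q) ↔
      Even (((g : GL (Fin d ⊕ Fin d) F) : Matrix (Fin d ⊕ Fin d) (Fin d ⊕ Fin d) F) - 1).rank :=
    fun g => Cfsg.Agent.Lib.Helper44.mem_commutator_iff_even_rank Q h2 hnd hcard4 g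
  have hiso : ∀ g : GL (Fin d ⊕ Fin d) F, g ∈ Cfsg.isometryGroup F ⇑Q ↔
      ∀ v, Q ((g : Matrix (Fin d ⊕ Fin d) (Fin d ⊕ Fin d) F).mulVec v) = Q v :=
    fun g => Cfsg.Agent.Lib.Helper51.mem_isometryGroup_iff Q g
  constructor
  · intro hyp
    have hr2 : r = 2 := by
      by_contra hr
      have hrp : r.Prime := Fact.out
      have hdvd : r ∣ q ^ d - 1 := by
        rcases (Nat.Prime.dvd_mul hrp).mp hrΩ with h | h
        · exfalso
          have h3 := hrp.dvd_of_dvd_pow h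
          obtain ⟨n, -, hn⟩ := FiniteField.card F 2
          rw [hq] at hn
          rw [hn] at h3
          have h4 := hrp.dvd_of_dvd_pow h3
          exact hr ((Nat.prime_dvd_prime_iff_eq hrp Nat.prime_two).mp h4)
        · exact h
      obtain ⟨A, hAr, hAu⟩ := Cfsg.Agent.Lib.Helper98.exists_matrix_no_fixed (F := F) 2 d
        (by omega) r (by rw [hq]; exact hdvd)
      obtain ⟨U, hU⟩ : ∃ U : GL (Fin d ⊕ Fin d) F,
          U = Cfsg.Agent.Lib.Helper47.hypMat.toHomUnits A := ⟨_, rfl⟩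
      have hUval : (U : Matrix (Fin d ⊕ Fin d) (Fin d ⊕ Fin d) F)
          = Cfsg.Agent.Lib.Helper47.hypMat A := by
        rw [hU]; rfl
      have hUiso : U ∈ Cfsg.isometryGroup F ⇑Q := by
        rw [hiso]
        intro v
        rw [hQc, hUval]
        exact Cfsg.Agent.Lib.Helper47.hypMat_dot A v
      have hUunit : IsUnit ((U : Matrix (Fin d ⊕ Fin d) (Fin d ⊕ Fin d) F) - 1) := by
        have h3 : ((A⁻¹ : GL (Fin d) F) : Matrix (Fin d) (Fin d) F) - 1
            = ((A⁻¹ : GL (Fin d) F) : Matrix (Fin d) (Fin d) F)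
              * (-((A : Matrix (Fin d) (Fin d) F) - 1)) := by
          rw [mul_neg, mul_sub, mul_one, ← Units.val_mul, inv_mul_cancel, Units.val_one]
          abel
        have h4 : IsUnit (((A⁻¹ : GL (Fin d) F) : Matrix (Fin d) (Fin d) F) - 1) := by
          rw [h3]; exact (Units.isUnit _).mul hAu.neg
        have h5 : (U : Matrix (Fin d ⊕ Fin d) (Fin d ⊕ Fin d) F) - 1
            = Matrix.fromBlocks ((A : Matrix (Fin d) (Fin d) F) - 1) 0 0
              (Matrix.transpose (((A⁻¹ : GL (Fin d) F) : Matrix (Fin d) (Fin d) F) - 1)) := by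
          rw [hUval, Cfsg.Agent.Lib.Helper47.hypMat_apply]
          ext (i | i) (j | j) <;> simp [Matrix.one_apply, Matrix.sub_apply]
        rw [h5, Matrix.isUnit_iff_isUnit_det, Matrix.det_fromBlocks_zero₂₁, Matrix.det_transpose]
        exact ((Matrix.isUnit_iff_isUnit_det _).mp hAu).mul ((Matrix.isUnit_iff_isUnit_det _).mp h4)
      have hUΩ : U ∈ Cfsg.Geo.omegaGL ⇑Q := by
        refine ⟨⟨U, hUiso⟩, (hΩ ⟨U, hUiso⟩).mpr ?_, rfl⟩
        show Even ((U : Matrix (Fin d ⊕ Fin d) (Fin d ⊕ Fin d) F) - 1).rank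
        rw [Matrix.rank_of_isUnit _ hUunit, Fintype.card_sum, Fintype.card_fin]
        exact ⟨d, rfl⟩
      obtain ⟨W, ⟨hfr, v, hvW, hQv⟩, hmap⟩ := hyp U hUΩ ⟨1, by
          rw [hU, ← map_pow, hAr, map_one, Units.val_one, one_smul]⟩ (by
          intro z hz
          have hz1 := Cfsg.Agent.Lib.Helper98.scalar_isometry_eq_one h2 Q v₀ hQv₀ _
            ((hiso U).mp hUiso) z hz
          rw [hz1, one_smul] at hz
          rw [hz, sub_self] at hUunit
          exact not_isUnit_zero hUunit)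
      have hfix := Cfsg.Agent.Lib.Helper98.fixed_vector_of_fixed_point h2 Q _
        ((hiso U).mp hUiso) W hfr v hvW hQv hmap
      have h6 : ((U : Matrix (Fin d ⊕ Fin d) (Fin d ⊕ Fin d) F) - 1).mulVec v = 0 := by
        rw [Matrix.sub_mulVec, hfix, Matrix.one_mulVec, sub_self]
      have h7 : v = 0 := by
        apply Matrix.mulVec_injective_iff_isUnit.mpr hUunit
        rw [h6, Matrix.mulVec_zero]
      rw [h7] at hQv
      exact hQv (map_zero Q)
    subst hr2
    refine ⟨rfl, ?_⟩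
    by_contra hdo
    have hde : Even d := Nat.not_odd_iff_even.mp hdo
    obtain ⟨m, hm⟩ := hde
    obtain ⟨e, -⟩ : ∃ e : Fin m ⊕ Fin m ≃ Fin d, e = e :=
      ⟨finSumFinEquiv.trans (finCongr hm.symm), rfl⟩
    obtain ⟨σ, hσ⟩ : ∃ σ : Fin d → Fin d, σ = fun i => e (Sum.swap (e.symm i)) := ⟨_, rfl⟩
    have hσσ : ∀ i, σ (σ i) = i := by intro i; rw [hσ]; simp
    obtain ⟨S, hS⟩ : ∃ S : Matrix (Fin d) (Fin d) F,
        S = Matrix.of fun i j => if j = σ i then 1 else 0 := ⟨_, rfl⟩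
    have hSv : ∀ (w : Fin d → F) i, (S.mulVec w) i = w (σ i) := by
      intro w i
      rw [hS]
      simp [Matrix.mulVec, dotProduct]
    obtain ⟨M, hM⟩ : ∃ M : Matrix (Fin d ⊕ Fin d) (Fin d ⊕ Fin d) F,
        M = Matrix.fromBlocks 1 S 0 1 := ⟨_, rfl⟩
    have hMl : ∀ v i, (M.mulVec v) (Sum.inl i) = v (Sum.inl i) + v (Sum.inr (σ i)) := by
      intro v i
      rw [hM, Matrix.fromBlocks_mulVec]
      simp [hSv]
    have hMr : ∀ v i, (M.mulVec v) (Sum.inr i) = v (Sum.inr i) := by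
      intro v i
      rw [hM, Matrix.fromBlocks_mulVec]
      simp
    have hSS : S + S = 0 := by rw [← two_smul F S, h2, zero_smul]
    have hMM : M * M = 1 := by
      rw [hM, Matrix.fromBlocks_multiply]
      simp [hSS, Matrix.fromBlocks_one]
    obtain ⟨U, hU⟩ : ∃ U : GL (Fin d ⊕ Fin d) F,
        (U : Matrix (Fin d ⊕ Fin d) (Fin d ⊕ Fin d) F) = M := ⟨⟨M, M, hMM, hMM⟩, rfl⟩
    have hsum0 : ∀ w : Fin d → F, ∑ i, w (σ i) * w i = 0 := by
      intro w
      rw [← Equiv.sum_comp e, Fintype.sum_sum_type]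
      have h3 : ∀ j : Fin m, w (σ (e (Sum.inl j))) * w (e (Sum.inl j))
          = w (e (Sum.inr j)) * w (e (Sum.inl j)) := by intro j; rw [hσ]; simp
      have h4 : ∀ j : Fin m, w (σ (e (Sum.inr j))) * w (e (Sum.inr j))
          = w (e (Sum.inl j)) * w (e (Sum.inr j)) := by intro j; rw [hσ]; simp
      rw [Finset.sum_congr rfl (fun j _ => h3 j), Finset.sum_congr rfl (fun j _ => h4 j),
        ← Finset.sum_add_distrib]
      apply Finset.sum_eq_zero
      intro j _
      linear_combination (w (e (Sum.inl j)) * w (e (Sum.inr j))) * h2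
    have hUiso : U ∈ Cfsg.isometryGroup F ⇑Q := by
      rw [hiso, hU]
      intro v
      rw [hQc]
      unfold Cfsg.quadFormPlus
      rw [Finset.sum_congr rfl (fun i _ => by rw [hMl, hMr, add_mul])]
      rw [Finset.sum_add_distrib, hsum0 (fun i => v (Sum.inr i)), add_zero]
    have hker : LinearMap.ker (M - 1).mulVecLin = Cfsg.Agent.S0832.X0 d F := by
      ext v
      rw [LinearMap.mem_ker, Cfsg.Agent.S0832.mem_X0, Matrix.mulVecLin_apply, Matrix.sub_mulVec,
        Matrix.one_mulVec, sub_eq_zero]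
      constructor
      · intro h i
        have h3 := congrFun h (Sum.inl (σ i))
        rw [hMl, hσσ] at h3
        linear_combination h3
      · intro h
        funext j
        rcases j with i | i
        · rw [hMl, h (σ i), add_zero]
        · rw [hMr]
    have hrank : (M - 1).rank = d := by
      have h3 := LinearMap.finrank_range_add_finrank_ker (M - 1).mulVecLin
      rw [hker, Cfsg.Agent.S0832.X0_finrank, Cfsg.Agent.S0832.finrank_V] at h3
      unfold Matrix.rank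
      omega
    have hUΩ : U ∈ Cfsg.Geo.omegaGL ⇑Q := by
      refine ⟨⟨U, hUiso⟩, (hΩ ⟨U, hUiso⟩).mpr ?_, rfl⟩
      show Even ((U : Matrix (Fin d ⊕ Fin d) (Fin d ⊕ Fin d) F) - 1).rank
      rw [hU, hrank]
      exact ⟨m, hm⟩
    obtain ⟨i0⟩ : Nonempty (Fin d) := ⟨⟨0, by omega⟩⟩
    obtain ⟨W, ⟨hfr, v, hvW, hQv⟩, hmap⟩ := hyp U hUΩ ⟨1, by
        rw [pow_two, Units.val_mul, hU, hMM, one_smul]⟩ (by
        intro z hz
        rw [hU] at hz
        have h3 := congrFun (congrFun hz (Sum.inl i0)) (Sum.inr (σ i0))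
        rw [hM, hS] at h3
        simp at h3)
    have hfix := Cfsg.Agent.Lib.Helper98.fixed_vector_of_fixed_point h2 Q _
      ((hiso U).mp hUiso) W hfr v hvW hQv hmap
    rw [hU] at hfix
    have h6 : v ∈ Cfsg.Agent.S0832.X0 d F := by
      rw [← hker, LinearMap.mem_ker, Matrix.mulVecLin_apply, Matrix.sub_mulVec, hfix,
        Matrix.one_mulVec, sub_self]
    apply hQv
    rw [hQc]
    exact Cfsg.Agent.S0832.X0_Q v h6
  · rintro ⟨rfl, hdodd⟩ x hxΩ ⟨z, hz⟩ hns
    obtain ⟨g, hgΩ, rfl⟩ := hxΩ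
    obtain ⟨M, hMdef⟩ : ∃ M : Matrix (Fin d ⊕ Fin d) (Fin d ⊕ Fin d) F,
        M = ((g : GL (Fin d ⊕ Fin d) F) : Matrix (Fin d ⊕ Fin d) (Fin d ⊕ Fin d) F) := ⟨_, rfl⟩
    have hMiso : ∀ v, Q (M.mulVec v) = Q v := by rw [hMdef]; exact (hiso _).mp g.2
    have heven : Even (M - 1).rank := by rw [hMdef]; exact (hΩ g).mp hgΩ
    have hMM : M * M = z • 1 := by
      rw [hMdef, ← hz, pow_two, Units.val_mul]
      rfl
    have hMM' : ∀ v, Q ((M * M).mulVec v) = Q v := by
      intro v; rw [← Matrix.mulVec_mulVec, hMiso, hMiso]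
    have hz1 : z = 1 :=
      Cfsg.Agent.Lib.Helper98.scalar_isometry_eq_one h2 Q v₀ hQv₀ (M * M) hMM' z hMM
    rw [hz1, one_smul] at hMM
    have hNN : (M - 1) * (M - 1) = 0 := by
      have h3 : (M - 1) * (M - 1) = M * M - (2 : F) • M + 1 := by
        rw [two_smul]; noncomm_ring
      rw [h3, hMM, h2, zero_smul, sub_zero, ← two_smul F (1 : Matrix (Fin d ⊕ Fin d) (Fin d ⊕ Fin d) F),
        h2, zero_smul]
    have h3 := LinearMap.finrank_range_add_finrank_ker (M - 1).mulVecLin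
    rw [Cfsg.Agent.S0832.finrank_V] at h3
    have h4 : LinearMap.range (M - 1).mulVecLin ≤ LinearMap.ker (M - 1).mulVecLin := by
      rintro _ ⟨v, rfl⟩
      rw [LinearMap.mem_ker, Matrix.mulVecLin_apply, Matrix.mulVecLin_apply, Matrix.mulVec_mulVec,
        hNN, Matrix.zero_mulVec]
    have h5 := Submodule.finrank_mono h4
    have h6 : (M - 1).rank = Module.finrank F (LinearMap.range (M - 1).mulVecLin) := rfl
    have hker : d + 1 ≤ Module.finrank F (LinearMap.ker (M - 1).mulVecLin) := by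
      obtain ⟨a, ha⟩ := heven
      obtain ⟨b, hb⟩ := hdodd
      omega
    obtain ⟨v, hvker, hQv⟩ : ∃ v ∈ LinearMap.ker (M - 1).mulVecLin,
        Cfsg.quadFormPlus d F v ≠ 0 := by
      by_contra hcon
      push Not at hcon
      have := Cfsg.Agent.Lib.Helper98.finrank_le_of_ts_plus d _ hcon
      omega
    have hMv : M.mulVec v = v := by
      rw [LinearMap.mem_ker, Matrix.mulVecLin_apply, Matrix.sub_mulVec, Matrix.one_mulVec,
        sub_eq_zero] at hvker
      exact hvker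
    have hv0 : v ≠ 0 := by
      rintro rfl
      apply hQv
      rw [← hQc]; exact map_zero Q
    refine ⟨Submodule.span F {v}, ⟨finrank_span_singleton hv0, v,
      Submodule.mem_span_singleton_self v, by rw [hQc]; exact hQv⟩, ?_⟩
    rw [Submodule.map_span, Set.image_singleton, Matrix.toLin'_apply]
    rw [hMdef] at hMv
    show Submodule.span F {((g : GL (Fin d ⊕ Fin d) F) :
      Matrix (Fin d ⊕ Fin d) (Fin d ⊕ Fin d) F).mulVec v} ≤ _
    rw [hMv]

end Cfsg.Agent.S5985
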