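import Cfsg.Statements.S5986
import Mathlib
import Cfsg.Agent.Lib.Helper98.NsPoint
import Cfsg.Agent.Lib.Helper44.OrthForms
import Cfsg.Agent.Lib.Helper44.OrthSplit
import Cfsg.Agent.Lib.Helper96.NsMinusIso
import Cfsg.Agent.Lib.Helper96.NsMinusCount
-- import your own Cfsg.Agent.* helpers here

set_option autoImplicit false
open scoped MatrixGroups
open Cfsg

namespace Cfsg.Agent.S5986

/-- Elements of prime order of Ω⁻_n(q), q even, with no fixed nonsingular 1-space. Here `T = PΩ⁻_n(F)`, `n = 2d ≥ 8`, realised through `Ω⁻_n(q)`, the commutator subgroup of the isometry group of `Q = Σ_{i<d−1} xᵢyᵢ + z₁² + a z₁z₂ + b z₂²` with `z₁² + a z₁z₂ + b z₂²` anisotropic, over the field `F` with `q` elements; an element of `T` of prime order `r` is an element `x` of `Ω⁻_n(q)` with `x^r` scalar and `x` not scalar; `q` is even (so the centre is trivial). Let Ω be the set of 1-dimensional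 subspaces spanned by a vector `v` with `Q(v) ≠ 0`, and let `r` be a prime dividing their number. Then every element of `T` of order `r` fixes some nonsingular 1-space if and only if `r = 2`. -/
theorem result {F : Type*} [Field F] [Fintype F] {p : ℕ} [Fact p.Prime] [CharP F p] {q : ℕ} (hq : Fintype.card F = q)
    (hp : p = 2) (d : ℕ) (hd : 4 ≤ d) (a b : F) (hab : ∀ x y : F, x ^ 2 + a * x * y + b * y ^ 2 = 0 → x = 0 ∧ y = 0) (r : ℕ) [Fact r.Prime]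
    (hrΩ : r ∣ Nat.card {W : Submodule F ((Fin (d - 1) ⊕ Fin (d - 1)) ⊕ Fin 2 → F) // Module.finrank F ↥W = 1 ∧ ∃ v ∈ W, Cfsg.quadFormMinus (d - 1) F a b v ≠ 0}) :
    (∀ x : GL ((Fin (d - 1) ⊕ Fin (d - 1)) ⊕ Fin 2) F, x ∈ Cfsg.Geo.omegaGL (Cfsg.quadFormMinus (d - 1) F a b) →
      (∃ z : F, ((x ^ r : GL ((Fin (d - 1) ⊕ Fin (d - 1)) ⊕ Fin 2) F) : Matrix ((Fin (d - 1) ⊕ Fin (d - 1)) ⊕ Fin 2) ((Fin (d - 1) ⊕ Fin (d - 1)) ⊕ Fin 2) F) = z • (1 : Matrix ((Fin (d - 1) ⊕ Fin (d - 1)) ⊕ Fin 2) ((Fin (d - 1) ⊕ Fin (d - 1)) ⊕ Fin 2) F)) →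
      (∀ z : F, (x : Matrix ((Fin (d - 1) ⊕ Fin (d - 1)) ⊕ Fin 2) ((Fin (d - 1) ⊕ Fin (d - 1)) ⊕ Fin 2) F) ≠ z • (1 : Matrix ((Fin (d - 1) ⊕ Fin (d - 1)) ⊕ Fin 2) ((Fin (d - 1) ⊕ Fin (d - 1)) ⊕ Fin 2) F)) →
      ∃ W : Submodule F ((Fin (d - 1) ⊕ Fin (d - 1)) ⊕ Fin 2 → F), (Module.finrank F ↥W = 1 ∧ ∃ v ∈ W, Cfsg.quadFormMinus (d - 1) F a b v ≠ 0) ∧ W.map (Matrix.toLin' (x : Matrix ((Fin (d - 1) ⊕ Fin (d - 1)) ⊕ Fin 2) ((Fin (d - 1) ⊕ Fin (d - 1)) ⊕ Fin 2) F)) ≤ W) ↔ r = 2 := by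
  classical
  subst hp
  have h2 : (2 : F) = 0 := by
    have h := CharP.cast_eq_zero F 2
    exact_mod_cast h
  have hd1 : 1 ≤ d := by omega
  have hq2 : 2 ≤ q := by rw [← hq]; exact Fintype.one_lt_card
  have hcount := Cfsg.Agent.Lib.Helper96.NsMinus.card_nonsingular_points_minus hq d hd1 a b hab
  rw [hcount] at hrΩ
  obtain ⟨Q, hQdef⟩ : ∃ Q : QuadraticForm F ((Fin (d - 1) ⊕ Fin (d - 1)) ⊕ Fin 2 → F),
      Q = Cfsg.Agent.Lib.Helper51.QMinus (d - 1) F a b := ⟨_, rfl⟩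
  have hQc : ⇑Q = Cfsg.quadFormMinus (d - 1) F a b := by
    rw [hQdef]; exact Cfsg.Agent.Lib.Helper51.coe_QMinus (d - 1) F a b
  have hnd : (QuadraticMap.polarBilin Q).Nondegenerate := by
    rw [hQdef]; exact Cfsg.Agent.Lib.Helper44.nondeg_QMinus_two (d - 1) a b hab
  rw [← hQc]
  have hQv₀ : Q (Pi.single (Sum.inr 0) 1) ≠ 0 := by
    rw [hQc]
    unfold Cfsg.quadFormMinus
    simp
  have hcardι : Fintype.card ((Fin (d - 1) ⊕ Fin (d - 1)) ⊕ Fin 2) = 2 * d := by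
    rw [Fintype.card_sum, Fintype.card_sum, Fintype.card_fin, Fintype.card_fin]
    omega
  have hcard4 : Fintype.card F ≠ 2 ∨ Fintype.card ((Fin (d - 1) ⊕ Fin (d - 1)) ⊕ Fin 2) ≠ 4 :=
    Or.inr (by rw [hcardι]; omega)
  haveI : Nonempty ((Fin (d - 1) ⊕ Fin (d - 1)) ⊕ Fin 2) := ⟨Sum.inr 0⟩
  have hΩ : ∀ g : ↥(Cfsg.isometryGroup F ⇑Q), g ∈ commutator ↥(Cfsg.isometryGroup F ⇑Q) ↔
      Even (((g : GL ((Fin (d - 1) ⊕ Fin (d - 1)) ⊕ Fin 2) F) :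
        Matrix ((Fin (d - 1) ⊕ Fin (d - 1)) ⊕ Fin 2) ((Fin (d - 1) ⊕ Fin (d - 1)) ⊕ Fin 2) F)
          - 1).rank :=
    fun g => Cfsg.Agent.Lib.Helper44.mem_commutator_iff_even_rank Q h2 hnd hcard4 g
  have hiso : ∀ g : GL ((Fin (d - 1) ⊕ Fin (d - 1)) ⊕ Fin 2) F, g ∈ Cfsg.isometryGroup F ⇑Q ↔
      ∀ v, Q ((g : Matrix ((Fin (d - 1) ⊕ Fin (d - 1)) ⊕ Fin 2)
        ((Fin (d - 1) ⊕ Fin (d - 1)) ⊕ Fin 2) F).mulVec v) = Q v :=
    fun g => Cfsg.Agent.Lib.Helper51.mem_isometryGroup_iff Q g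
  constructor
  · intro hyp
    by_contra hr
    have hrp : r.Prime := Fact.out
    have hdvd : r ∣ q ^ d + 1 := by
      rcases (Nat.Prime.dvd_mul hrp).mp hrΩ with h | h
      · exfalso
        have h3 := hrp.dvd_of_dvd_pow h
        obtain ⟨n, -, hn⟩ := FiniteField.card F 2
        rw [hq] at hn
        rw [hn] at h3
        have h4 := hrp.dvd_of_dvd_pow h3
        exact hr ((Nat.prime_dvd_prime_iff_eq hrp Nat.prime_two).mp h4)
      · exact h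
    obtain ⟨M, hMiso, hMr, hMu⟩ := Cfsg.Agent.Lib.Helper96.NsMinus.exists_minus_isometry
      (F := F) d hd1 a b hab r (by rw [hq]; exact hdvd) hr
    obtain ⟨U, hU⟩ : ∃ U : GL ((Fin (d - 1) ⊕ Fin (d - 1)) ⊕ Fin 2) F,
        (U : Matrix ((Fin (d - 1) ⊕ Fin (d - 1)) ⊕ Fin 2)
          ((Fin (d - 1) ⊕ Fin (d - 1)) ⊕ Fin 2) F) = M :=
      ⟨⟨M, M ^ (r - 1), by rw [← pow_succ', Nat.sub_add_cancel hrp.one_le, hMr],
        by rw [← pow_succ, Nat.sub_add_cancel hrp.one_le, hMr]⟩, rfl⟩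
    have hUiso : U ∈ Cfsg.isometryGroup F ⇑Q := by
      rw [hiso, hU]
      intro v
      rw [hQc]
      exact hMiso v
    have hUunit : IsUnit ((U : Matrix ((Fin (d - 1) ⊕ Fin (d - 1)) ⊕ Fin 2)
        ((Fin (d - 1) ⊕ Fin (d - 1)) ⊕ Fin 2) F) - 1) := by
      rw [hU]; exact hMu
    have hUΩ : U ∈ Cfsg.Geo.omegaGL ⇑Q := by
      refine ⟨⟨U, hUiso⟩, (hΩ ⟨U, hUiso⟩).mpr ?_, rfl⟩
      show Even ((U : Matrix ((Fin (d - 1) ⊕ Fin (d - 1)) ⊕ Fin 2)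
        ((Fin (d - 1) ⊕ Fin (d - 1)) ⊕ Fin 2) F) - 1).rank
      rw [Matrix.rank_of_isUnit _ hUunit, hcardι]
      exact ⟨d, by ring⟩
    obtain ⟨W, ⟨hfr, v, hvW, hQv⟩, hmap⟩ := hyp U hUΩ ⟨1, by
        rw [Units.val_pow_eq_pow_val, hU, hMr, one_smul]⟩ (by
        intro z hz
        have hz1 := Cfsg.Agent.Lib.Helper98.scalar_isometry_eq_one h2 Q _ hQv₀ _
          ((hiso U).mp hUiso) z hz
        rw [hz1, one_smul] at hz
        rw [hz, sub_self] at hUunit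
        exact not_isUnit_zero hUunit)
    have hfix := Cfsg.Agent.Lib.Helper98.fixed_vector_of_fixed_point h2 Q _
      ((hiso U).mp hUiso) W hfr v hvW hQv hmap
    have h6 : ((U : Matrix ((Fin (d - 1) ⊕ Fin (d - 1)) ⊕ Fin 2)
        ((Fin (d - 1) ⊕ Fin (d - 1)) ⊕ Fin 2) F) - 1).mulVec v = 0 := by
      rw [Matrix.sub_mulVec, hfix, Matrix.one_mulVec, sub_self]
    have h7 : v = 0 := by
      apply Matrix.mulVec_injective_iff_isUnit.mpr hUunit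
      rw [h6, Matrix.mulVec_zero]
    rw [h7] at hQv
    exact hQv (map_zero Q)
  · rintro rfl x hxΩ ⟨z, hz⟩ hns
    obtain ⟨g, hgΩ, rfl⟩ := hxΩ
    obtain ⟨M, hMdef⟩ : ∃ M : Matrix ((Fin (d - 1) ⊕ Fin (d - 1)) ⊕ Fin 2)
        ((Fin (d - 1) ⊕ Fin (d - 1)) ⊕ Fin 2) F,
        M = ((g : GL ((Fin (d - 1) ⊕ Fin (d - 1)) ⊕ Fin 2) F) :
          Matrix ((Fin (d - 1) ⊕ Fin (d - 1)) ⊕ Fin 2) ((Fin (d - 1) ⊕ Fin (d - 1)) ⊕ Fin 2) F) :=
      ⟨_, rfl⟩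
    have hMiso : ∀ v, Q (M.mulVec v) = Q v := by rw [hMdef]; exact (hiso _).mp g.2
    have hMM : M * M = z • 1 := by
      rw [hMdef, ← hz, pow_two, Units.val_mul]
      rfl
    have hMM' : ∀ v, Q ((M * M).mulVec v) = Q v := by
      intro v; rw [← Matrix.mulVec_mulVec, hMiso, hMiso]
    have hz1 : z = 1 :=
      Cfsg.Agent.Lib.Helper98.scalar_isometry_eq_one h2 Q _ hQv₀ (M * M) hMM' z hMM
    rw [hz1, one_smul] at hMM
    have hNN : (M - 1) * (M - 1) = 0 := by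
      have h3 : (M - 1) * (M - 1) = M * M - (2 : F) • M + 1 := by
        rw [two_smul]; noncomm_ring
      rw [h3, hMM, h2, zero_smul, sub_zero, ← two_smul F (1 : Matrix ((Fin (d - 1) ⊕ Fin (d - 1)) ⊕ Fin 2)
        ((Fin (d - 1) ⊕ Fin (d - 1)) ⊕ Fin 2) F), h2, zero_smul]
    have h3 := LinearMap.finrank_range_add_finrank_ker (M - 1).mulVecLin
    rw [Module.finrank_fintype_fun_eq_card, hcardι] at h3
    have h4 : LinearMap.range (M - 1).mulVecLin ≤ LinearMap.ker (M - 1).mulVecLin := by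
      rintro _ ⟨v, rfl⟩
      rw [LinearMap.mem_ker, Matrix.mulVecLin_apply, Matrix.mulVecLin_apply, Matrix.mulVec_mulVec,
        hNN, Matrix.zero_mulVec]
    have h5 := Submodule.finrank_mono h4
    obtain ⟨v, hvker, hQv⟩ : ∃ v ∈ LinearMap.ker (M - 1).mulVecLin,
        Cfsg.quadFormMinus (d - 1) F a b v ≠ 0 := by
      by_contra hcon
      push Not at hcon
      have := Cfsg.Agent.Lib.Helper44.finrank_le_of_singular_minus (d - 1) a b hab _ hcon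
      omega
    have hMv : M.mulVec v = v := by
      rw [LinearMap.mem_ker, Matrix.mulVecLin_apply, Matrix.sub_mulVec, Matrix.one_mulVec,
        sub_eq_zero] at hvker
      exact hvker
    have hv0 : v ≠ 0 := by
      rintro rfl
      apply hQv
      rw [← hQc]; exact map_zero Q
    refine ⟨Submodule.span F {v}, ⟨finrank_span_singleton hv0, v,
      Submodule.mem_span_singleton_self v, by rw [hQc]; exact hQv⟩, ?_⟩
    rw [Submodule.map_span, Set.image_singleton, Matrix.toLin'_apply]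
    rw [hMdef] at hMv
    show Submodule.span F {((g : GL ((Fin (d - 1) ⊕ Fin (d - 1)) ⊕ Fin 2) F) :
      Matrix ((Fin (d - 1) ⊕ Fin (d - 1)) ⊕ Fin 2) ((Fin (d - 1) ⊕ Fin (d - 1)) ⊕ Fin 2) F).mulVec v} ≤ _
    rw [hMv]

end Cfsg.Agent.S5986
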