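import Cfsg.Statements.S5987
import Cfsg.Agent.Lib.Helper98.T73Main
import Cfsg.Agent.Lib.Helper98.T73Glue
import Cfsg.Agent.Lib.Helper36.T73CNTPA
import Cfsg.Agent.Lib.Helper88.T73CNTPB
import Cfsg.Agent.Lib.Helper56.T73INVM
import Cfsg.Agent.Lib.Helper88.T73CPXM
import Cfsg.Agent.Lib.Helper30.T73CPX2M
import Cfsg.Agent.Lib.Helper17.T73SPINM
import Cfsg.Agent.Lib.Helper67.T73DERM

set_option autoImplicit false
open scoped MatrixGroups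
open Cfsg

namespace Cfsg.Agent.S5987

open Cfsg.Agent.Lib.Helper47 Cfsg.Agent.Lib.Helper98.T73 Module

/-- Elements of prime order of PΩ⁻_n(q) with no fixed totally singular `m`-space. Here `T = PΩ⁻_n(F)`, `n = 2d ≥ 8`, realised through `Ω⁻_n(q)`, the commutator subgroup of the isometry group of `Q = Σ_{i<d−1} xᵢyᵢ + z₁² + a z₁z₂ + b z₂²` with `z₁² + a z₁z₂ + b z₂²` anisotropic, over the field `F` with `q` elements; an element of `T` of prime order `r` is an element `x` of `Ω⁻_n(q)` with `x^r` scalar and `x` not scalar. Let `1 ≤ m ≤ d − 1` and let `r` be a prime dividing the number of totally singular `m`-spaces (subspaces of dimension `m` on which `Q` vanishes); for `r ≠ p` let `i` be the multiplicative order of `q` modulo `r`, `c = i` for `i` even and `c = 2i` for `i` odd, and write `k = n mod c`, `ℓ = m mod i`, `n' = ⌊n/i⌋`, `m' = ⌊m/i⌋`, `t = (r−1)/i`. Then every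 element of `T` of order `r` fixes some totally singular `m`-space if and only if one of: (i) `r = 2 ≠ p` and (`n ≡ 0 (mod 4)`, or `m` is even, or `q ≢ 7 (mod 8)`); (ii) `r ≠ p` odd, `i` odd, `i ≤ m` and (`k = 0` or `k > 2ℓ`); (iii) `r ≠ p` odd, `i` even, `i ≤ m`, `n' − 2m' ≥ t`, and one of: (a) `i ≥ 2ℓ`, `k = 0`, `n/i` even and `n' − 2m' > t` (all four); (b) `k ≥ 2ℓ` and `n'` odd; (c) `k > 2ℓ` and `n'` even. -/
theorem result {F : Type*} [Field F] [Fintype F] {p : ℕ} [Fact p.Prime] [CharP F p] {q : ℕ} (hq : Fintype.card F = q)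
    (d m : ℕ) (hd : 4 ≤ d) (hm : 1 ≤ m) (hmd : m + 1 ≤ d) (a b : F) (hab : ∀ x y : F, x ^ 2 + a * x * y + b * y ^ 2 = 0 → x = 0 ∧ y = 0)
    (r : ℕ) [Fact r.Prime]
    (hrΩ : r ∣ Nat.card {W : Submodule F ((Fin (d - 1) ⊕ Fin (d - 1)) ⊕ Fin 2 → F) // Module.finrank F ↥W = m ∧ Cfsg.Geo.IsTotallySingularQuad (Cfsg.quadFormMinus (d - 1) F a b) W})
    (i c : ℕ) (hi : i = orderOf (q : ZMod r)) (hc : c = if Even i then i else 2 * i) :
    (∀ x : GL ((Fin (d - 1) ⊕ Fin (d - 1)) ⊕ Fin 2) F, x ∈ Cfsg.Geo.omegaGL (Cfsg.quadFormMinus (d - 1) F a b) →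
      (∃ z : F, ((x ^ r : GL ((Fin (d - 1) ⊕ Fin (d - 1)) ⊕ Fin 2) F) : Matrix ((Fin (d - 1) ⊕ Fin (d - 1)) ⊕ Fin 2) ((Fin (d - 1) ⊕ Fin (d - 1)) ⊕ Fin 2) F) = z • (1 : Matrix ((Fin (d - 1) ⊕ Fin (d - 1)) ⊕ Fin 2) ((Fin (d - 1) ⊕ Fin (d - 1)) ⊕ Fin 2) F)) →
      (∀ z : F, (x : Matrix ((Fin (d - 1) ⊕ Fin (d - 1)) ⊕ Fin 2) ((Fin (d - 1) ⊕ Fin (d - 1)) ⊕ Fin 2) F) ≠ z • (1 : Matrix ((Fin (d - 1) ⊕ Fin (d - 1)) ⊕ Fin 2) ((Fin (d - 1) ⊕ Fin (d - 1)) ⊕ Fin 2) F)) →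
      ∃ W : Submodule F ((Fin (d - 1) ⊕ Fin (d - 1)) ⊕ Fin 2 → F), (Module.finrank F ↥W = m ∧ Cfsg.Geo.IsTotallySingularQuad (Cfsg.quadFormMinus (d - 1) F a b) W) ∧ W.map (Matrix.toLin' (x : Matrix ((Fin (d - 1) ⊕ Fin (d - 1)) ⊕ Fin 2) ((Fin (d - 1) ⊕ Fin (d - 1)) ⊕ Fin 2) F)) ≤ W) ↔
    ((r = 2 ∧ p ≠ 2 ∧ (Even d ∨ Even m ∨ q % 8 ≠ 7)) ∨
     (r ≠ p ∧ 2 < r ∧ Odd i ∧ i ≤ m ∧ ((2 * d) % c = 0 ∨ 2 * (m % i) < (2 * d) % c)) ∨
     (r ≠ p ∧ 2 < r ∧ Even i ∧ i ≤ m ∧ (r - 1) / i + 2 * (m / i) ≤ (2 * d) / i ∧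
       ((2 * (m % i) ≤ i ∧ (2 * d) % c = 0 ∧ Even ((2 * d) / i) ∧ (r - 1) / i + 2 * (m / i) < (2 * d) / i) ∨
        (2 * (m % i) ≤ (2 * d) % c ∧ Odd ((2 * d) / i)) ∨
        (2 * (m % i) < (2 * d) % c ∧ Even ((2 * d) / i))))) := by
  classical
  subst hq
  subst hi
  have hr : r.Prime := Fact.out
  have hp : p.Prime := Fact.out
  have hQ : IsQuad (Cfsg.quadFormMinus (d - 1) F a b) (Cfsg.Agent.Lib.Helper66.QuadSTD.minusB (d - 1) F a b) :=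
    Cfsg.Agent.Lib.Helper66.QuadSTD.quadFormMinus_isQuad (d - 1) a b
  have hnd : Nondeg (Cfsg.Agent.Lib.Helper66.QuadSTD.minusB (d - 1) F a b) :=
    Cfsg.Agent.Lib.Helper66.QuadSTD.minusB_nondeg (d - 1) a b hab
  have hf : QFacts F := qfacts p
  have htyp : IsTyp (Cfsg.quadFormMinus (d - 1) F a b) (d - 1) (-1) :=
    Cfsg.Agent.Lib.Helper2.QuadMINUSTYP.isTyp_quadFormMinus_of (d - 1) a b
      (fun Q₁ Q₂ _ _ _ _ h₁ h₂ => Cfsg.Agent.Lib.Helper78.Quad.isTyp_prod Q₁ Q₂ h₁ h₂)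
      Cfsg.Agent.Lib.Helper23.Quad.isTyp_quadFormPlus
      (Cfsg.Agent.Lib.Helper5.QuadAC.isTyp_aniso a b hab)
  have hcardι : Fintype.card ((Fin (d - 1) ⊕ Fin (d - 1)) ⊕ Fin 2) = 2 * (d - 1) + 2 := by
    rw [Fintype.card_sum, Fintype.card_sum, Fintype.card_fin, Fintype.card_fin]
    omega
  have hdim : finrank F ((Fin (d - 1) ⊕ Fin (d - 1)) ⊕ Fin 2 → F) = 2 * d := by
    rw [Module.finrank_fintype_fun_eq_card, hcardι]
    omega
  haveI : Nonempty ((Fin (d - 1) ⊕ Fin (d - 1)) ⊕ Fin 2) := ⟨Sum.inr 0⟩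
  have hrΩ' : r ∣ Nat.card {W : Submodule F ((Fin (d - 1) ⊕ Fin (d - 1)) ⊕ Fin 2 → F) //
      finrank F W = m ∧ TS (Cfsg.quadFormMinus (d - 1) F a b) W} := hrΩ
  have hshape : (∀ x : GL ((Fin (d - 1) ⊕ Fin (d - 1)) ⊕ Fin 2) F, x ∈ Cfsg.Geo.omegaGL (Cfsg.quadFormMinus (d - 1) F a b) →
      (∃ z : F, ((x ^ r : GL ((Fin (d - 1) ⊕ Fin (d - 1)) ⊕ Fin 2) F) : Matrix ((Fin (d - 1) ⊕ Fin (d - 1)) ⊕ Fin 2) ((Fin (d - 1) ⊕ Fin (d - 1)) ⊕ Fin 2) F) = z • (1 : Matrix ((Fin (d - 1) ⊕ Fin (d - 1)) ⊕ Fin 2) ((Fin (d - 1) ⊕ Fin (d - 1)) ⊕ Fin 2) F)) →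
      (∀ z : F, (x : Matrix ((Fin (d - 1) ⊕ Fin (d - 1)) ⊕ Fin 2) ((Fin (d - 1) ⊕ Fin (d - 1)) ⊕ Fin 2) F) ≠ z • (1 : Matrix ((Fin (d - 1) ⊕ Fin (d - 1)) ⊕ Fin 2) ((Fin (d - 1) ⊕ Fin (d - 1)) ⊕ Fin 2) F)) →
      ∃ W : Submodule F ((Fin (d - 1) ⊕ Fin (d - 1)) ⊕ Fin 2 → F), (Module.finrank F ↥W = m ∧
        Cfsg.Geo.IsTotallySingularQuad (Cfsg.quadFormMinus (d - 1) F a b) W) ∧ W.map (Matrix.toLin' (x : Matrix ((Fin (d - 1) ⊕ Fin (d - 1)) ⊕ Fin 2) ((Fin (d - 1) ⊕ Fin (d - 1)) ⊕ Fin 2) F)) ≤ W) ↔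
    (∀ x : GL ((Fin (d - 1) ⊕ Fin (d - 1)) ⊕ Fin 2) F, x ∈ Cfsg.Geo.omegaGL (Cfsg.quadFormMinus (d - 1) F a b) →
      (∃ z : F, ((x ^ r : GL ((Fin (d - 1) ⊕ Fin (d - 1)) ⊕ Fin 2) F) : Matrix ((Fin (d - 1) ⊕ Fin (d - 1)) ⊕ Fin 2) ((Fin (d - 1) ⊕ Fin (d - 1)) ⊕ Fin 2) F) = z • (1 : Matrix ((Fin (d - 1) ⊕ Fin (d - 1)) ⊕ Fin 2) ((Fin (d - 1) ⊕ Fin (d - 1)) ⊕ Fin 2) F)) →
      (∀ z : F, (x : Matrix ((Fin (d - 1) ⊕ Fin (d - 1)) ⊕ Fin 2) ((Fin (d - 1) ⊕ Fin (d - 1)) ⊕ Fin 2) F) ≠ z • (1 : Matrix ((Fin (d - 1) ⊕ Fin (d - 1)) ⊕ Fin 2) ((Fin (d - 1) ⊕ Fin (d - 1)) ⊕ Fin 2) F)) →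
      ∃ W : Submodule F ((Fin (d - 1) ⊕ Fin (d - 1)) ⊕ Fin 2 → F), finrank F W = m ∧ (∀ w ∈ W, Cfsg.quadFormMinus (d - 1) F a b w = 0) ∧
        W.map (Matrix.toLin' (x : Matrix ((Fin (d - 1) ⊕ Fin (d - 1)) ⊕ Fin 2) ((Fin (d - 1) ⊕ Fin (d - 1)) ⊕ Fin 2) F)) ≤ W) := by
    constructor
    · intro h x hx hz hns
      obtain ⟨W, ⟨h1, h2⟩, h3⟩ := h x hx hz hns
      exact ⟨W, h1, h2, h3⟩
    · intro h x hx hz hns
      obtain ⟨W, h1, h2, h3⟩ := h x hx hz hns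
      exact ⟨W, ⟨h1, h2⟩, h3⟩
  refine hshape.trans ?_
  by_cases hrp : r = p
  · -- r = p: the number of totally singular m-spaces is prime to p
    exfalso
    subst hrp
    exact not_dvd_card_ts hQ r d
      (fun U hU j hj hjd => card_ts_ext_modEq hf hQ hnd d hdim r U hU j hj hjd)
      m hmd hrΩ'
  by_cases hr2 : r = 2
  · -- r = 2, p odd
    subst hr2
    have hp2 : p ≠ 2 := fun h => hrp h.symm
    have h2F : (2 : F) ≠ 0 := by
      intro h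
      have h1 : ((2 : ℕ) : F) = 0 := by exact_mod_cast h
      have h3 := (CharP.cast_eq_zero_iff F p 2).mp h1
      exact hp2 ((Nat.prime_dvd_prime_iff_eq hp Nat.prime_two).mp h3)
    have hcardodd : Fintype.card F % 2 = 1 := by
      obtain ⟨n, -, hn⟩ := FiniteField.card F p
      rw [hn]
      have hpodd : p % 2 = 1 := by
        rcases hp.eq_two_or_odd with h | h
        · exact absurd h hp2
        · exact h
      rw [Nat.pow_mod, hpodd, one_pow]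
      norm_num
    have hsq_iff : IsSquare (-1 : F) ↔ Fintype.card F % 4 ≠ 3 :=
      FiniteField.isSquare_neg_one_iff
    have hxx : ∀ x : GL ((Fin (d - 1) ⊕ Fin (d - 1)) ⊕ Fin 2) F, ((x ^ 2 : GL ((Fin (d - 1) ⊕ Fin (d - 1)) ⊕ Fin 2) F) : Matrix ((Fin (d - 1) ⊕ Fin (d - 1)) ⊕ Fin 2) ((Fin (d - 1) ⊕ Fin (d - 1)) ⊕ Fin 2) F) = (x : Matrix ((Fin (d - 1) ⊕ Fin (d - 1)) ⊕ Fin 2) ((Fin (d - 1) ⊕ Fin (d - 1)) ⊕ Fin 2) F) * (x : Matrix ((Fin (d - 1) ⊕ Fin (d - 1)) ⊕ Fin 2) ((Fin (d - 1) ⊕ Fin (d - 1)) ⊕ Fin 2) F) := by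
      intro x
      rw [pow_two, Units.val_mul]
    constructor
    · intro hL
      refine Or.inl ⟨rfl, hp2, ?_⟩
      by_contra hcon
      rw [not_or, not_or] at hcon
      obtain ⟨hdodd, hmodd, h87⟩ := hcon
      have h8 : Fintype.card F % 8 = 7 := not_not.mp h87
      have hk : Even (d - 1) := by
        rw [Nat.even_iff] at hdodd ⊢
        omega
      obtain ⟨x, hx, hx2, hxns, hbd⟩ := exists_cpx_der_minus h2F (d - 1) a b hab hk h8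
      obtain ⟨W, h1, h2, h3⟩ := hL x hx ⟨-1, by rw [hxx, hx2]⟩ hxns
      have := hbd W h3
      rw [h1] at this
      exact hmodd this
    · rintro (⟨-, -, hcond⟩ | ⟨-, h, -⟩ | ⟨-, h, -⟩)
      · intro x hx hz hxns
        obtain ⟨z, hz⟩ := hz
        have hxi := mem_iso_of_mem_omega (Cfsg.quadFormMinus (d - 1) F a b) hx
        have hz2 : z * z = 1 := scalar_sq _ _ hQ hnd hxi 2 z hz
        rw [hxx] at hz
        rcases mul_self_eq_one_iff.mp hz2 with hz1 | hz1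
        · -- involution
          have hx2 : x * x = 1 := by
            apply Units.ext
            rw [Units.val_mul, hz, hz1, one_smul]
            rfl
          exact invol_fix_minus h2F (d - 1) m a b hab (by omega) x hx hx2
        · -- x² = -1
          rw [hz1] at hz
          obtain ⟨hns, hk⟩ := cpx_minus_facts h2F (d - 1) a b hab x hx hz
          rcases hcond with h | h | h
          · exfalso
            rw [Nat.even_iff] at h hk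
            omega
          · exact cpx_fix_even_minus h2F hns (d - 1) m a b hab h (by omega) x hx hz
          · exfalso
            have h43 : Fintype.card F % 4 = 3 := by
              by_contra h4
              exact hns (hsq_iff.mpr h4)
            exact cpx_not_mem_omega_minus h2F (d - 1) a b hab hk (by omega) x hx hz
      · omega
      · omega
  · -- r odd, r ≠ p
    have hr3 : 2 < r := by
      have := hr.two_le
      omega
    rw [lhs_iff (Cfsg.quadFormMinus (d - 1) F a b) _ hf hQ hnd (d - 1) hcardι p r hr hr2 hrp m,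
      odd_iff hf hQ hnd d (by omega) hdim (-1) (Or.inr rfl) htyp p r hr hr2 hrp m hm hmd hrΩ']
    unfold Cond par
    have hneg : ¬ ((-1 : ℤ) = 1) := by norm_num
    by_cases hev : Even (orderOf ((Fintype.card F : ℕ) : ZMod r))
    · have hodd : ¬ Odd (orderOf ((Fintype.card F : ℕ) : ZMod r)) := by
        rw [Nat.not_odd_iff_even]
        exact hev
      rw [if_pos hev] at hc
      subst hc
      simp only [if_pos hev, if_neg hneg, Nat.not_odd_iff_even]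
      constructor
      · rintro ⟨h1, h2, h3⟩
        exact Or.inr (Or.inr ⟨hrp, hr3, hev, h1, h2, h3⟩)
      · rintro (⟨h, -⟩ | ⟨-, -, h, -⟩ | ⟨-, -, -, h1, h2, h3⟩)
        · exact absurd h hr2
        · exact absurd h hodd
        · exact ⟨h1, h2, h3⟩
    · have hodd : Odd (orderOf ((Fintype.card F : ℕ) : ZMod r)) := Nat.not_even_iff_odd.mp hev
      rw [if_neg hev] at hc
      subst hc
      simp only [if_neg hev, if_neg hneg]
      constructor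
      · rintro ⟨h1, h2⟩
        exact Or.inr (Or.inl ⟨hrp, hr3, hodd, h1, h2⟩)
      · rintro (⟨h, -⟩ | ⟨-, -, -, h1, h2⟩ | ⟨-, -, h, -⟩)
        · exact absurd h hr2
        · exact ⟨h1, h2⟩
        · exact absurd h hev

end Cfsg.Agent.S5987
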