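import Cfsg.Statements.S5988
import Cfsg.Agent.Lib.Helper98.H74Defs
import Cfsg.Agent.Lib.Helper96.PiOmega
import Cfsg.Agent.Lib.Helper96.HeMain
import Cfsg.Agent.Lib.Helper12.PeAR88F
import Cfsg.Agent.Lib.Helper13.PeSIEGPLUS
import Cfsg.Agent.Lib.Helper21.PeAR88O
import Cfsg.Agent.Lib.Helper38.PeGLUEH
import Cfsg.Agent.Lib.Helper39.PeSIEGGL
import Cfsg.Agent.Lib.Helper39.PeSIEGS
import Cfsg.Agent.Lib.Helper42.H74SIEGOM
import Cfsg.Agent.Lib.Helper57.PeX2EX
import Cfsg.Agent.Lib.Helper61.PeAR88B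
import Cfsg.Agent.Lib.Helper67.PeINVELL
import Cfsg.Agent.Lib.Helper77.H74HYPTYP
import Cfsg.Agent.Lib.Helper94.PeELLTYP
import Cfsg.Agent.Lib.Helper98.H74Gen
import Cfsg.Agent.Lib.Helper98.H74Of
import Cfsg.Agent.Lib.Helper98.T73Glue
import Cfsg.Agent.Lib.Helper10.PiX2CRIT
import Cfsg.Agent.Lib.Helper21.PiZSQ
import Cfsg.Agent.Lib.Helper37.PiX2PLANE
import Cfsg.Agent.Lib.Helper42.PiEXA
import Cfsg.Agent.Lib.Helper43.PiX2PLANE0
import Cfsg.Agent.Lib.Helper62.PiX2REFL
import Cfsg.Agent.Lib.Helper62.PiX2STEP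
import Cfsg.Agent.Lib.Helper62.PiX2TYPE
import Cfsg.Agent.Lib.Helper64.PiEXB
import Cfsg.Agent.Lib.Helper79.PiX2DECOMP
import Cfsg.Agent.Lib.Helper91.PiGLUEF
import Cfsg.Agent.Lib.Helper91.PiGLUET

set_option autoImplicit false
set_option linter.unusedSectionVars false
set_option linter.unusedSimpArgs false
set_option linter.unusedVariables false
open scoped MatrixGroups
open Cfsg

namespace Cfsg.Agent.S5988

open Cfsg.Agent.Lib.Helper96.Sp Cfsg.Agent.Lib.Helper96.BG Cfsg.Agent.Lib.Helper96.Hy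
  Cfsg.Agent.Lib.Helper96.Pi Module Matrix

universe u

section Aux

variable {F : Type u} [Field F] [Fintype F]

theorem quad_of_mem_omega (d : ℕ) (x : GL (Fin d ⊕ Fin d) F)
    (hx : x ∈ Cfsg.Geo.omegaGL (Cfsg.quadFormPlus d F)) :
    ∀ v, Cfsg.quadFormPlus d F ((x : Matrix (Fin d ⊕ Fin d) (Fin d ⊕ Fin d) F) *ᵥ v)
      = Cfsg.quadFormPlus d F v := by
  obtain ⟨y, -, rfl⟩ := hx
  intro u
  exact y.2 u u

theorem isom_of_quad (d : ℕ) (x : Matrix (Fin d ⊕ Fin d) (Fin d ⊕ Fin d) F)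
    (hxQ : ∀ v, Cfsg.quadFormPlus d F (x *ᵥ v) = Cfsg.quadFormPlus d F v) :
    Isom (QuadraticMap.polarBilin (Cfsg.Agent.Lib.Helper51.QPlus d F)) (Matrix.toLin' x) := by
  have hcoe := Cfsg.Agent.Lib.Helper51.coe_QPlus d F
  intro u v
  rw [QuadraticMap.polarBilin_apply_apply, QuadraticMap.polarBilin_apply_apply]
  unfold QuadraticMap.polar
  rw [← map_add]
  simp only [Matrix.toLin'_apply, hcoe]
  rw [hxQ, hxQ, hxQ]

theorem toLin_mul_self (d : ℕ) (x : Matrix (Fin d ⊕ Fin d) (Fin d ⊕ Fin d) F)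
    (hxx : x * x = -1) :
    Matrix.toLin' x * Matrix.toLin' x = (-1 : Module.End F (Fin d ⊕ Fin d → F)) := by
  rw [Module.End.mul_eq_comp, ← Matrix.toLin'_mul, hxx, map_neg, Matrix.toLin'_one]
  rfl

/-- A scalar matrix that preserves `quadFormPlus` and squares to `-1` does not exist. -/
theorem not_scalar_of_sq_neg (h2 : (2 : F) ≠ 0) (d : ℕ) (hd : 1 ≤ d)
    (x : Matrix (Fin d ⊕ Fin d) (Fin d ⊕ Fin d) F)
    (hxQ : ∀ v, Cfsg.quadFormPlus d F (x *ᵥ v) = Cfsg.quadFormPlus d F v)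
    (hxx : x * x = -1) (z : F) : x ≠ z • (1 : Matrix (Fin d ⊕ Fin d) (Fin d ⊕ Fin d) F) := by
  intro hxz
  obtain ⟨v, hv⟩ := Cfsg.Agent.Lib.Helper54.hv_plus (F := F) (m := d) hd
  have h1 := hxQ v
  rw [hxz, Matrix.smul_mulVec, Matrix.one_mulVec, ← Cfsg.Agent.Lib.Helper51.coe_QPlus,
    QuadraticMap.map_smul, smul_eq_mul] at h1
  have hzz : z * z = 1 := by
    have h3 : (z * z - 1) * Cfsg.Agent.Lib.Helper51.QPlus d F v = 0 := by
      rw [sub_mul, one_mul, h1, sub_self]
    rcases mul_eq_zero.mp h3 with h | h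
    · exact sub_eq_zero.mp h
    · exact absurd h hv
  rw [hxz] at hxx
  have h4 := congrFun (congrFun hxx (Sum.inl ⟨0, hd⟩)) (Sum.inl ⟨0, hd⟩)
  simp only [Matrix.smul_mul, Matrix.mul_smul, Matrix.one_mul, Matrix.smul_apply,
    Matrix.one_apply_eq, Matrix.neg_apply, smul_eq_mul, mul_one] at h4
  apply h2
  have h5 : (1 : F) = -1 := hzz.symm.trans h4
  calc (2 : F) = 1 + 1 := by norm_num
    _ = 1 + -1 := by rw [← h5]
    _ = 0 := by ring

end Aux

section Glue

open Cfsg.Agent.Lib.Helper47 Cfsg.Agent.Lib.Helper98.T73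

variable {F : Type u} [Field F] [Fintype F] {ι : Type} [Fintype ι] [DecidableEq ι]
  (Q : (ι → F) → F) (B : (ι → F) → (ι → F) → F)

/-- The statement about elements of `Ω` with `x ^ r` scalar, `r` odd, in terms of isometries of
order `r` (any predicate on subspaces; after `Helper98.T73.lhs_iff`). -/
theorem lhs_iff_pred (hf : QFacts F) (hQ : IsQuad Q B) (hnd : Nondeg B) (k : ℕ)
    (hι : Fintype.card ι = 2 * k + 2) (p : ℕ) [Fact p.Prime] [CharP F p] (r : ℕ)
    (hr : r.Prime) (hr2 : r ≠ 2) (hrp : r ≠ p) (P : Submodule F (ι → F) → Prop) :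
    (∀ x : GL ι F, x ∈ Cfsg.Geo.omegaGL Q →
      (∃ z : F, ((x ^ r : GL ι F) : Matrix ι ι F) = z • (1 : Matrix ι ι F)) →
      (∀ z : F, (x : Matrix ι ι F) ≠ z • (1 : Matrix ι ι F)) →
      ∃ W : Submodule F (ι → F), P W ∧
        W.map (Matrix.toLin' (x : Matrix ι ι F)) ≤ W) ↔
    (∀ g : Module.End F (ι → F), QI Q g → g ^ r = 1 → g ≠ 1 →
      ∃ W : Submodule F (ι → F), P W ∧ W.map g ≤ W) := by
  haveI : Nonempty ι := by
    rw [← Fintype.card_pos_iff, hι]
    omega
  obtain ⟨e, he⟩ := hr.odd_of_ne_two hr2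
  constructor
  · intro hL g hgQ hg hg1
    obtain ⟨x, hx, hxg, hxr⟩ := omega_of_odd hf Q B hQ hnd k hι p r hr hr2 hrp g hgQ hg
    have hns : ∀ z : F, (x : Matrix ι ι F) ≠ z • (1 : Matrix ι ι F) := by
      intro z hz
      have hz2 : z * z = 1 :=
        scalar_sq Q B hQ hnd (mem_iso_of_mem_omega Q hx) 1 z (by rw [pow_one]; exact hz)
      have hzr : z ^ r = 1 := by
        have h1 : ((x ^ r : GL ι F) : Matrix ι ι F) = 1 := by rw [hxr]; rfl
        rw [Units.val_pow_eq_pow_val, hz, _root_.smul_pow, one_pow] at h1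
        obtain ⟨a⟩ := ‹Nonempty ι›
        have h2 := congrFun (congrFun h1 a) a
        rw [Matrix.smul_apply, Matrix.one_apply_eq, smul_eq_mul, mul_one] at h2
        exact h2
      have hz1 : z = 1 := by
        rw [he, pow_succ, pow_mul, pow_two, hz2, one_pow, one_mul] at hzr
        exact hzr
      apply hg1
      rw [← hxg, hz, hz1, one_smul]
      exact Matrix.toLin'_one
    obtain ⟨W, h1, h3⟩ := hL x hx ⟨1, by rw [hxr, one_smul]; rfl⟩ hns
    refine ⟨W, h1, ?_⟩
    rw [← hxg]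
    exact h3
  · intro hL' x hx hz hns
    obtain ⟨z, hz⟩ := hz
    have hxi := mem_iso_of_mem_omega Q hx
    have hz2 : z * z = 1 := scalar_sq Q B hQ hnd hxi r z hz
    have hzr1 : z ^ (r + 1) = 1 := by
      rw [he, show 2 * e + 1 + 1 = 2 * (e + 1) by ring, pow_mul, pow_two, hz2, one_pow]
    obtain ⟨T, hT⟩ : ∃ T : Module.End F (ι → F), T = Matrix.toLin' (x : Matrix ι ι F) := ⟨_, rfl⟩
    have hTr : T ^ r = z • (1 : Module.End F (ι → F)) := by
      rw [hT, ← Cfsg.Agent.Lib.Helper98.O72.brb_toLin'_pow, ← Units.val_pow_eq_pow_val, hz,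
        map_smul, Matrix.toLin'_one]
      rfl
    have hTQ : ∀ v, Q (T v) = Q v := by
      intro v
      rw [hT, Matrix.toLin'_apply]
      exact (mem_isometryGroup_iff' Q x).mp hxi v
    have hgQ : QI Q (z • T) := by
      intro v
      rw [LinearMap.smul_apply, hQ.smul, hTQ, pow_two, hz2, one_mul]
    have hgr : (z • T) ^ r = 1 := by
      rw [_root_.smul_pow, hTr, smul_smul, ← pow_succ, hzr1, one_smul]
    have hg1 : z • T ≠ 1 := by
      intro h
      have h1 : T = z • (1 : Module.End F (ι → F)) := by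
        have h2 := congrArg (fun S : Module.End F (ι → F) => z • S) h
        simp only [smul_smul, hz2, one_smul] at h2
        exact h2
      apply hns z
      apply Matrix.toLin'.injective
      rw [← hT, h1, map_smul, Matrix.toLin'_one]
      rfl
    obtain ⟨W, h1, h3⟩ := hL' (z • T) hgQ hgr hg1
    refine ⟨W, h1, ?_⟩
    rintro y ⟨w, hw, rfl⟩
    have h4 : (z • T) w ∈ W := h3 ⟨w, hw, rfl⟩
    have h5 : Matrix.toLin' (x : Matrix ι ι F) w = z • ((z • T) w) := by
      rw [LinearMap.smul_apply, smul_smul, hz2, one_smul, hT]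
    rw [h5]
    exact W.smul_mem z h4

end Glue

/-- Elements of prime order of PΩ⁺_n(q) with no fixed elliptic `m`-space. Here `T = PΩ⁺_n(F)`, `n = 2d ≥ 8`, realised through `Ω⁺_n(q)`, the commutator subgroup of the isometry group of `Q = Σ xᵢyᵢ` over the field `F` with `q` elements; an element of `T` of prime order `r` is an element `x` of `Ω⁺_n(q)` with `x^r` scalar and `x` not scalar; a nondegenerate `m`-space (even `m`) is a subspace on which the polar form of `Q` is nondegenerate; it is hyperbolic if it contains an `m/2`-dimensional subspace on which `Q` vanishes, elliptic otherwise. Let `m` be even with `2 ≤ m < n/2` and let `r` be a prime dividing the number of elliptic `m`-spaces; for `r ≠ p` let `i` be the multiplicative order of `q` modulo `r`, `c = i` for `i` even and `c = 2i` for `i` odd, and write `k = n mod c`, `ℓ = m mod i`, `ℓ' = m mod c`, `n' = ⌊n/i⌋`, `m' = ⌊m/i⌋`, `t = (r−1)/i`. Then every element of `T` of order `r` fixes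 some elliptic `m`-space if and only if one of: (i) `r = 2 ≠ p` and either `n ≡ 0 (mod 4)`, `q ≡ 3 (mod 4)` and `m ≡ 2 (mod 4)`, or `n ≡ 2 (mod 4)` and `q ≢ 1 (mod 8)`; (ii) `r ≠ p` odd, `i` odd, `c ≤ m` and `k > ℓ' > 0`; (iii) `r ≠ p` odd, `i` even, and either `k = 0` and (`n/i` odd, or `ℓ' = 0` and `m/i` odd), or `i ≤ m` and (`k > ℓ' > 0`, or `k = ℓ' > 0` and `(n + m − 2k)/i` odd, or `k > ℓ' = 0` and `m/i` odd). (For `r = p` there is always an element of order `p` fixing no elliptic `m`-space.) -/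
theorem result {F : Type*} [Field F] [Fintype F] {p : ℕ} [Fact p.Prime] [CharP F p] {q : ℕ} (hq : Fintype.card F = q)
    (d m : ℕ) (hd : 4 ≤ d) (hm : 2 ≤ m) (hme : Even m) (hmd : m < d)
    (r : ℕ) [Fact r.Prime]
    (hrΩ : r ∣ Nat.card {W : Submodule F (Fin d ⊕ Fin d → F) // Module.finrank F ↥W = m ∧ Cfsg.Geo.IsNondegenerateOn (QuadraticMap.polar (Cfsg.quadFormPlus d F)) W ∧ ¬ Cfsg.Geo.IsPlusTypeOn (Cfsg.quadFormPlus d F) W})
    (i c : ℕ) (hi : i = orderOf (q : ZMod r)) (hc : c = if Even i then i else 2 * i) :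
    (∀ x : GL (Fin d ⊕ Fin d) F, x ∈ Cfsg.Geo.omegaGL (Cfsg.quadFormPlus d F) →
      (∃ z : F, ((x ^ r : GL (Fin d ⊕ Fin d) F) : Matrix (Fin d ⊕ Fin d) (Fin d ⊕ Fin d) F) = z • (1 : Matrix (Fin d ⊕ Fin d) (Fin d ⊕ Fin d) F)) →
      (∀ z : F, (x : Matrix (Fin d ⊕ Fin d) (Fin d ⊕ Fin d) F) ≠ z • (1 : Matrix (Fin d ⊕ Fin d) (Fin d ⊕ Fin d) F)) →
      ∃ W : Submodule F (Fin d ⊕ Fin d → F), (Module.finrank F ↥W = m ∧ Cfsg.Geo.IsNondegenerateOn (QuadraticMap.polar (Cfsg.quadFormPlus d F)) W ∧ ¬ Cfsg.Geo.IsPlusTypeOn (Cfsg.quadFormPlus d F) W) ∧ W.map (Matrix.toLin' (x : Matrix (Fin d ⊕ Fin d) (Fin d ⊕ Fin d) F)) ≤ W) ↔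
    ((r = 2 ∧ p ≠ 2 ∧ ((Even d ∧ q % 4 = 3 ∧ m % 4 = 2) ∨ (Odd d ∧ q % 8 ≠ 1))) ∨
     (r ≠ p ∧ 2 < r ∧ Odd i ∧ c ≤ m ∧ 0 < m % c ∧ m % c < (2 * d) % c) ∨
     (r ≠ p ∧ 2 < r ∧ Even i ∧
       (((2 * d) % c = 0 ∧ (Odd ((2 * d) / i) ∨ (m % c = 0 ∧ Odd (m / i)))) ∨
        (i ≤ m ∧ ((0 < m % c ∧ m % c < (2 * d) % c) ∨
                  (0 < m % c ∧ m % c = (2 * d) % c ∧ Odd ((2 * d + m - 2 * ((2 * d) % c)) / i)) ∨
                  (m % c = 0 ∧ 0 < (2 * d) % c ∧ Odd (m / i))))))) := by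
  classical
  subst hq
  subst hi
  have hr : r.Prime := Fact.out
  have hp : p.Prime := Fact.out
  have hcardι : Fintype.card (Fin d ⊕ Fin d) = 2 * d := by
    simp only [Fintype.card_sum, Fintype.card_fin]
    omega
  have hfin : finrank F (Fin d ⊕ Fin d → F) = 2 * d := by
    rw [Module.finrank_fintype_fun_eq_card, hcardι]
  obtain ⟨k, hk⟩ : ∃ k, m = 2 * k + 2 := by
    obtain ⟨w, hw⟩ := hme
    exact ⟨w - 1, by omega⟩
  by_cases hrp : r = p
  · -- `r = p`: a Siegel element fixes only spaces of plus type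
    constructor
    · intro hall
      exfalso
      obtain ⟨S, f₀, hS0, hSt, hSne, hker⟩ := Cfsg.Agent.Lib.Helper39.Pe.exists_alt_corank (F := F) d (by omega)
      obtain ⟨x, hxval, hxQ, hxpow⟩ := Cfsg.Agent.Lib.Helper39.Pe.siegel_gl d S hS0 hSt
      have hxr : x ^ r = 1 := by
        apply Units.ext
        rw [hxpow r, Units.val_one]
        have h0 : (r • S : Matrix (Fin d) (Fin d) F) = 0 := by
          ext a b
          rw [Matrix.smul_apply, nsmul_eq_mul, hrp, CharP.cast_eq_zero F p, zero_mul]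
          rfl
        rw [h0, Matrix.fromBlocks_one]
      have hxΩ : x ∈ Cfsg.Geo.omegaGL (Cfsg.quadFormPlus d F) := by
        by_cases hp2 : p = 2
        · haveI : CharP F 2 := hp2 ▸ (inferInstance : CharP F p)
          have hSt' : S.transpose = S := by
            rw [hSt]
            ext a b
            rw [Matrix.neg_apply]
            exact CharTwo.neg_eq (S a b)
          obtain ⟨x', hx'Ω, hx'val⟩ := Cfsg.Agent.Lib.Helper98.H74.siegel_mem_omega (F := F) d (by omega) S hS0 hSt'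
          have hxx' : x' = x := Units.ext (by rw [hx'val, hxval])
          rw [← hxx']
          exact hx'Ω
        · have h2 : (2 : F) ≠ 0 := by
            intro h
            have h1 : ((2 : ℕ) : F) = 0 := by exact_mod_cast h
            rw [CharP.cast_eq_zero_iff F p] at h1
            exact hp2 ((Nat.prime_dvd_prime_iff_eq hp Nat.prime_two).mp h1)
          have hrodd : Odd r := by
            rcases hr.eq_two_or_odd' with h | h
            · exact absurd (hrp ▸ h) hp2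
            · exact h
          exact mem_omegaGL_plus_of_odd h2 d x hxQ r hrodd hxr
      have hns : ∀ z : F, (x : Matrix (Fin d ⊕ Fin d) (Fin d ⊕ Fin d) F)
          ≠ z • (1 : Matrix (Fin d ⊕ Fin d) (Fin d ⊕ Fin d) F) := by
        intro z hz
        apply hSne
        ext a b
        have h3 := congrFun (congrFun hz (Sum.inl a)) (Sum.inr b)
        rw [hxval] at h3
        simpa using h3
      obtain ⟨W, ⟨hWm, hWnd, hWnp⟩, hWx⟩ := hall x hxΩ ⟨1, by rw [hxr, one_smul]; rfl⟩ hns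
      apply hWnp
      refine Cfsg.Agent.Lib.Helper13.Pe.siegel_plus_type d S f₀ hker W hWnd (by rw [hWm]; exact hme) ?_
      rw [← hxval]
      exact hWx
    · rintro (⟨h2r, hp2, -⟩ | ⟨h, -⟩ | ⟨h, -⟩)
      · exact absurd (hrp ▸ h2r) hp2
      · exact absurd hrp h
      · exact absurd hrp h
  by_cases hr2 : r = 2
  · -- `r = 2 ≠ p`: involutions and elements with square `-1`
    have hp2 : p ≠ 2 := fun h => hrp (hr2.trans h.symm)
    have h2 : (2 : F) ≠ 0 := by
      intro h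
      have h1 : ((2 : ℕ) : F) = 0 := by exact_mod_cast h
      rw [CharP.cast_eq_zero_iff F p] at h1
      exact hp2 ((Nat.prime_dvd_prime_iff_eq hp Nat.prime_two).mp h1)
    have hcardodd : Fintype.card F % 2 = 1 := by
      obtain ⟨n, -, hn⟩ := FiniteField.card F p
      rw [hn]
      have hpodd : p % 2 = 1 := by
        rcases hp.eq_two_or_odd with h | h
        · exact absurd h hp2
        · exact h
      rw [Nat.pow_mod, hpodd, one_pow]
      norm_num
    obtain ⟨hS, hdiag, hglND, hglIso⟩ := Cfsg.Agent.Lib.Helper91.Pi.glue_form_plus (F := F) h2 d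
    have hN := glue_nd_top_plus (F := F) d
    obtain ⟨hisoΩ, hgl⟩ := glue_isom_plus (F := F) h2 d
    have htyp1 := Cfsg.Agent.Lib.Helper91.Pi.typ_top_plus (F := F) p h2 d (by omega)
    have hF := facts p hS h2 hN
    have hpos : 0 < finrank F (Fin d ⊕ Fin d → F) := by rw [hfin]; omega
    have hell : ∀ W : Submodule F (Fin d ⊕ Fin d → F),
        (Module.finrank F ↥W = m ∧ Cfsg.Geo.IsNondegenerateOn (QuadraticMap.polar (Cfsg.quadFormPlus d F)) W ∧ ¬ Cfsg.Geo.IsPlusTypeOn (Cfsg.quadFormPlus d F) W) ↔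
        (finrank F W = m ∧ ND (QuadraticMap.polarBilin (Cfsg.Agent.Lib.Helper51.QPlus d F)) W ∧
          Typ (QuadraticMap.polarBilin (Cfsg.Agent.Lib.Helper51.QPlus d F)) W (-1)) := by
      intro W
      constructor
      · rintro ⟨h1, h3, h4⟩
        have h5 := (Cfsg.Agent.Lib.Helper96.He.ell_iff hF W k (by rw [h1, hk])).mp ⟨(hglND W).mp h3, fun hh =>
          h4 ((Cfsg.Agent.Lib.Helper38.Pe.glue_hyp_plus h2 d W).mpr hh).2⟩
        exact ⟨h1, h5⟩
      · rintro ⟨h1, h3, h4⟩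
        have h5 := (Cfsg.Agent.Lib.Helper96.He.ell_iff hF W k (by rw [h1, hk])).mpr ⟨h3, h4⟩
        exact ⟨h1, (hglND W).mpr h3, fun hpl =>
          h5.2 ((Cfsg.Agent.Lib.Helper38.Pe.glue_hyp_plus h2 d W).mp ⟨(hglND W).mpr h3, hpl⟩)⟩
    have hpowz : ∀ (x : GL (Fin d ⊕ Fin d) F) (k : ℕ) (z : F),
        ((x ^ k : GL (Fin d ⊕ Fin d) F) : Matrix (Fin d ⊕ Fin d) (Fin d ⊕ Fin d) F)
          = z • (1 : Matrix (Fin d ⊕ Fin d) (Fin d ⊕ Fin d) F) →
        (Matrix.toLin' (x : Matrix (Fin d ⊕ Fin d) (Fin d ⊕ Fin d) F)) ^ k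
          = z • (1 : Module.End F (Fin d ⊕ Fin d → F)) := by
      intro x k z hx
      rw [← Matrix.toLin'_pow, ← Units.val_pow_eq_pow_val, hx, map_smul, Matrix.toLin'_one]
      rfl
    -- the spinor criterion for elements with square `-1`
    have hx2crit : ∀ x : GL (Fin d ⊕ Fin d) F,
        (∀ v, Cfsg.quadFormPlus d F ((x : Matrix (Fin d ⊕ Fin d) (Fin d ⊕ Fin d) F) *ᵥ v)
          = Cfsg.quadFormPlus d F v) →
        (x : Matrix (Fin d ⊕ Fin d) (Fin d ⊕ Fin d) F) * (x : Matrix (Fin d ⊕ Fin d) (Fin d ⊕ Fin d) F)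
          = -1 →
        (x ∈ Cfsg.Geo.omegaGL (Cfsg.quadFormPlus d F) ↔ (Even d ∨ IsSquare (2 : F))) := by
      intro x hxQ hxx
      have hxQ' : ∀ v, Cfsg.Agent.Lib.Helper51.QPlus d F
          ((x : Matrix (Fin d ⊕ Fin d) (Fin d ⊕ Fin d) F) *ᵥ v)
          = Cfsg.Agent.Lib.Helper51.QPlus d F v := by
        intro v
        have := hxQ v
        rw [← Cfsg.Agent.Lib.Helper51.coe_QPlus] at this
        exact this
      have hxmem : x ∈ Cfsg.isometryGroup F ⇑(Cfsg.Agent.Lib.Helper51.QPlus d F) :=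
        fun u v => hxQ' u
      have hT := isom_of_quad d (x : Matrix (Fin d ⊕ Fin d) (Fin d ⊕ Fin d) F) hxQ
      have hTT := toLin_mul_self d (x : Matrix (Fin d ⊕ Fin d) (Fin d ⊕ Fin d) F) hxx
      obtain ⟨vs, s, hvs, hlen, hs, hprod, hxeq⟩ :=
        Cfsg.Agent.Lib.Helper79.Pi.exists_refl_decomp (Cfsg.Agent.Lib.Helper51.QPlus d F) h2
          (Cfsg.Agent.Lib.Helper54.polarSep_plus (F := F) (m := d)) d hcardι
          (x : Matrix (Fin d ⊕ Fin d) (Fin d ⊕ Fin d) F) hxQ' hxx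
          (fun v hv => Cfsg.Agent.Lib.Helper62.Pi.refl_pair (Cfsg.Agent.Lib.Helper51.QPlus d F) h2
            (x : Matrix (Fin d ⊕ Fin d) (Fin d ⊕ Fin d) F) hxQ' hxx v hv)
          (fun W hW hWx v hvW hv => Cfsg.Agent.Lib.Helper62.Pi.sq_neg_step hS h2 hN _ hT hTT W hW hWx v hvW hv
            (Cfsg.Agent.Lib.Helper43.Pi.plane_basic hS h2 _ hT hTT v hv))
      have hcrit := Cfsg.Agent.Lib.Helper10.Pi.mem_commutator_sq_neg_iff (Cfsg.Agent.Lib.Helper51.QPlus d F) h2 d
        ⟨x, hxmem⟩ vs s hvs hlen hs hprod hxeq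
      rw [mem_omegaGL_plus_iff]
      constructor
      · rintro ⟨g, hg, hgx⟩
        have hgeq : g = ⟨x, hxmem⟩ := Subtype.ext hgx
        rw [hgeq] at hg
        exact hcrit.mp hg
      · intro h
        exact ⟨⟨x, hxmem⟩, hcrit.mpr h, rfl⟩
    -- the type of an invariant nondegenerate subspace of an element with square `-1`
    have htypW : ∀ (T : Module.End F (Fin d ⊕ Fin d → F)),
        Isom (QuadraticMap.polarBilin (Cfsg.Agent.Lib.Helper51.QPlus d F)) T → T * T = -1 →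
        ∀ W : Submodule F (Fin d ⊕ Fin d → F),
        ND (QuadraticMap.polarBilin (Cfsg.Agent.Lib.Helper51.QPlus d F)) W → W.map T ≤ W →
        ∀ e : ℕ, finrank F W = 2 * e + 2 →
        Typ (QuadraticMap.polarBilin (Cfsg.Agent.Lib.Helper51.QPlus d F)) W ((epsNeg F) ^ (e + 1)) := by
      intro T hT hTT W hW hWT e hfinW
      exact Cfsg.Agent.Lib.Helper62.Pi.typ_of_sq_neg hS h2 hN hF _ hT hTT
        (fun v hv => by
          have hP := Cfsg.Agent.Lib.Helper43.Pi.plane_basic hS h2 _ hT hTT v hv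
          exact ⟨hP.1, hP.2.1, hP.2.2.1, Cfsg.Agent.Lib.Helper37.Pi.typ_plane hS h2 hN hF _ hT hTT v hv hP⟩)
        (fun W hW hWx v hvW hv => Cfsg.Agent.Lib.Helper62.Pi.sq_neg_step hS h2 hN _ hT hTT W hW hWx v hvW hv
          (Cfsg.Agent.Lib.Helper43.Pi.plane_basic hS h2 _ hT hTT v hv))
        e W hW hWT hfinW
    constructor
    · intro hall
      refine Or.inl ⟨hr2, hp2, ?_⟩
      by_contra hcon
      have hcase : Even d ∨ Fintype.card F % 8 = 1 := by
        by_contra h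
        push Not at h
        exact hcon (Or.inr ⟨Nat.not_even_iff_odd.mp h.1, h.2⟩)
      have hsqcase : Even d ∨ IsSquare (2 : F) := by
        rcases hcase with h | h
        · exact Or.inl h
        · right
          rw [FiniteField.isSquare_two_iff]
          omega
      obtain ⟨x, hxQ, hxx⟩ : ∃ x : GL (Fin d ⊕ Fin d) F,
          (∀ v, Cfsg.quadFormPlus d F ((x : Matrix (Fin d ⊕ Fin d) (Fin d ⊕ Fin d) F) *ᵥ v)
            = Cfsg.quadFormPlus d F v) ∧
          (x : Matrix (Fin d ⊕ Fin d) (Fin d ⊕ Fin d) F)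
            * (x : Matrix (Fin d ⊕ Fin d) (Fin d ⊕ Fin d) F) = -1 := by
        rcases hcase with h | h
        · exact Cfsg.Agent.Lib.Helper42.Pi.exists_sq_neg_even d h
        · apply Cfsg.Agent.Lib.Helper64.Pi.exists_sq_neg_of_sq d
          rw [FiniteField.isSquare_neg_one_iff]
          omega
      have hxΩ := (hx2crit x hxQ hxx).mpr hsqcase
      have hxz : ((x ^ r : GL (Fin d ⊕ Fin d) F) : Matrix (Fin d ⊕ Fin d) (Fin d ⊕ Fin d) F)
          = (-1 : F) • (1 : Matrix (Fin d ⊕ Fin d) (Fin d ⊕ Fin d) F) := by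
        rw [hr2, Units.val_pow_eq_pow_val, pow_two, hxx, neg_one_smul]
      obtain ⟨W, hW, hWT⟩ := hall x hxΩ ⟨-1, hxz⟩
        (fun z => not_scalar_of_sq_neg h2 d (by omega) _ hxQ hxx z)
      obtain ⟨hWm, hWnd, hWtyp⟩ := (hell W).mp hW
      have hT := isom_of_quad d (x : Matrix (Fin d ⊕ Fin d) (Fin d ⊕ Fin d) F) hxQ
      have hTT := toLin_mul_self d (x : Matrix (Fin d ⊕ Fin d) (Fin d ⊕ Fin d) F) hxx
      have hty := htypW _ hT hTT W hWnd hWT k (by rw [hWm, hk])
      have heq := typ_unique hty hWtyp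
      have hns1 : ¬ IsSquare (-1 : F) := by
        intro hsq
        rw [epsNeg_of_sq hsq, one_pow] at heq
        norm_num at heq
      rw [epsNeg_of_not_sq hns1] at heq
      have hkev : Even k := by
        by_contra hk1
        have hk2 : Even (k + 1) := by
          rw [Nat.even_add_one]
          exact hk1
        rw [Even.neg_one_pow hk2] at heq
        norm_num at heq
      have h43 : Fintype.card F % 4 = 3 := by
        by_contra h
        exact hns1 (FiniteField.isSquare_neg_one_iff.mpr h)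
      have hm4 : m % 4 = 2 := by
        obtain ⟨t, ht⟩ := hkev
        omega
      rcases hcase with hde | h8
      · exact hcon (Or.inl ⟨hde, h43, hm4⟩)
      · omega
    · rintro (⟨-, -, hcond⟩ | ⟨-, h, -⟩ | ⟨-, h, -⟩)
      · intro x hxΩ ⟨z, hz⟩ hns
        rw [hr2] at hz
        have hT := hisoΩ x hxΩ
        have hTz := hpowz x 2 z hz
        have hzz := Cfsg.Agent.Lib.Helper21.Pi.scalar_sq_one hN hpos _ hT 2 z hTz
        have hz1 : z = 1 ∨ z = -1 := by
          have h3 : (z - 1) * (z + 1) = 0 := by linear_combination hzz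
          rcases mul_eq_zero.mp h3 with h | h
          · left; linear_combination h
          · right; linear_combination h
        rcases hz1 with rfl | rfl
        · rw [one_smul, pow_two] at hTz
          obtain ⟨W, hWm, hWnd, hWtyp, hWT⟩ := Cfsg.Agent.Lib.Helper67.Pe.invol_fix_ell hS h2 hN hF _ hT hTz m hme hm
            (by rw [hfin]; omega)
          exact ⟨W, (hell W).mpr ⟨hWm, hWnd, hWtyp⟩, hWT⟩
        · have hxx : (x : Matrix (Fin d ⊕ Fin d) (Fin d ⊕ Fin d) F)
              * (x : Matrix (Fin d ⊕ Fin d) (Fin d ⊕ Fin d) F) = -1 := by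
            rw [Units.val_pow_eq_pow_val, pow_two, neg_one_smul] at hz
            exact hz
          have hxQ := quad_of_mem_omega d x hxΩ
          have hTT := toLin_mul_self d (x : Matrix (Fin d ⊕ Fin d) (Fin d ⊕ Fin d) F) hxx
          rcases hcond with ⟨hde, h43, hm4⟩ | ⟨hdodd, hq8⟩
          · have hns1 : ¬ IsSquare (-1 : F) := by
              rw [FiniteField.isSquare_neg_one_iff]
              omega
            obtain ⟨W, hWnd, hWT, hWfin⟩ := Cfsg.Agent.Lib.Helper57.Pe.exists_inv_nd_sq_neg hS h2 hN _ hT hTT (k + 1)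
              (by rw [hfin]; omega)
            have hty := htypW _ hT hTT W hWnd hWT k (by rw [hWfin]; ring)
            rw [epsNeg_of_not_sq hns1] at hty
            have hkev : Even k := by
              rw [Nat.even_iff]
              omega
            have hpw : ((-1 : ℤ)) ^ (k + 1) = -1 := Odd.neg_one_pow (Even.add_one hkev)
            rw [hpw] at hty
            exact ⟨W, (hell W).mpr ⟨by rw [hWfin, hk]; ring, hWnd, hty⟩, hWT⟩
          · exfalso
            have hty := htypW _ hT hTT ⊤ hN le_top (d - 1) (by rw [finrank_top, hfin]; omega)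
            have heq := typ_unique hty htyp1
            have hdd : d - 1 + 1 = d := by omega
            rw [hdd] at heq
            have hsqm1 : IsSquare (-1 : F) := by
              by_contra hns1
              rw [epsNeg_of_not_sq hns1, Odd.neg_one_pow hdodd] at heq
              norm_num at heq
            have hcr := (hx2crit x hxQ hxx).mp hxΩ
            have hsq2 : IsSquare (2 : F) := hcr.resolve_left (Nat.not_even_iff_odd.mpr hdodd)
            have h4 := FiniteField.isSquare_neg_one_iff.mp hsqm1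
            have h8 := FiniteField.isSquare_two_iff.mp hsq2
            omega
      · omega
      · omega
  · -- `r` odd, `r ≠ p`: the arithmetic model of helper98's project H74 with `(ε, τ) = (1, -1)`
    have hr3 : 2 < r := by
      have := hr.two_le
      omega
    have hQ : Cfsg.Agent.Lib.Helper47.IsQuad (Cfsg.quadFormPlus d F)
        (Cfsg.Agent.Lib.Helper66.QuadSTD.plusB d F) :=
      Cfsg.Agent.Lib.Helper66.QuadSTD.quadFormPlus_isQuad d
    have hnd : Cfsg.Agent.Lib.Helper47.Nondeg (Cfsg.Agent.Lib.Helper66.QuadSTD.plusB d F) :=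
      Cfsg.Agent.Lib.Helper66.QuadSTD.plusB_nondeg d
    have hf : Cfsg.Agent.Lib.Helper47.QFacts F := Cfsg.Agent.Lib.Helper47.qfacts p
    have htyp : Cfsg.Agent.Lib.Helper47.IsTyp (Cfsg.quadFormPlus d F) (d - 1) 1 := by
      obtain ⟨k', rfl⟩ : ∃ k', d = k' + 1 := ⟨d - 1, by omega⟩
      exact Cfsg.Agent.Lib.Helper23.Quad.isTyp_quadFormPlus k'
    have hcardι' : Fintype.card (Fin d ⊕ Fin d) = 2 * (d - 1) + 2 := by
      rw [hcardι]
      omega
    have hi1 : 1 ≤ orderOf ((Fintype.card F : ℕ) : ZMod r) := by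
      rw [Nat.one_le_iff_ne_zero]
      intro h0
      rw [orderOf_eq_zero_iff] at h0
      apply h0
      have hunit : IsUnit ((Fintype.card F : ℕ) : ZMod r) := by
        rw [ZMod.isUnit_iff_coprime]
        obtain ⟨n, hpp, hn⟩ := FiniteField.card F p
        rw [hn]
        apply Nat.Coprime.pow_left
        rw [Nat.coprime_primes hp hr]
        exact fun h => hrp h.symm
      exact hunit.isOfFinOrder
    have hellT : ∀ W : Submodule F (Fin d ⊕ Fin d → F),
        (Module.finrank F ↥W = m ∧ Cfsg.Geo.IsNondegenerateOn (QuadraticMap.polar (Cfsg.quadFormPlus d F)) W ∧ ¬ Cfsg.Geo.IsPlusTypeOn (Cfsg.quadFormPlus d F) W) ↔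
        Cfsg.Agent.Lib.Helper98.T73.SubTyp (Cfsg.quadFormPlus d F)
          (Cfsg.Agent.Lib.Helper66.QuadSTD.plusB d F) W k (-1) := by
      intro W
      rw [← Cfsg.Agent.Lib.Helper94.Pe.ell_iff_subtyp hf hQ p W k (Cfsg.Agent.Lib.Helper98.H74.hyp_iff hf hQ p W k)]
      constructor
      · rintro ⟨h1, h3, h4⟩
        refine ⟨by rw [h1, hk], fun u hu hu0 => ?_, ?_⟩
        · obtain ⟨-, ⟨v, hv, hne⟩⟩ := h3 u hu hu0
          exact ⟨v, hv, hne⟩
        · rintro ⟨U, hUW, hU2, hU0⟩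
          exact h4 ⟨U, hUW, hU0, by rw [hU2, h1, hk]⟩
      · rintro ⟨h1, h3, h4⟩
        refine ⟨by rw [h1, hk], fun w hw hw0 => ?_, ?_⟩
        · obtain ⟨v, hv, hne⟩ := h3 w hw hw0
          exact ⟨⟨v, hv, by rw [QuadraticMap.polar_comm]; exact hne⟩, ⟨v, hv, hne⟩⟩
        · rintro ⟨U, hUW, hU0, hU2⟩
          exact h4 ⟨U, hUW, by rw [hU2, h1], hU0⟩
    have hcard : Nat.card {W : Submodule F (Fin d ⊕ Fin d → F) // Module.finrank F ↥W = m ∧ Cfsg.Geo.IsNondegenerateOn (QuadraticMap.polar (Cfsg.quadFormPlus d F)) W ∧ ¬ Cfsg.Geo.IsPlusTypeOn (Cfsg.quadFormPlus d F) W}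
        = Nat.card {W : Submodule F (Fin d ⊕ Fin d → F) //
            Cfsg.Agent.Lib.Helper98.T73.SubTyp (Cfsg.quadFormPlus d F)
              (Cfsg.Agent.Lib.Helper66.QuadSTD.plusB d F) W k (-1)} :=
      Nat.card_congr (Equiv.subtypeEquivRight hellT)
    rw [hcard] at hrΩ
    rw [lhs_iff_pred (Cfsg.quadFormPlus d F) _ hf hQ hnd (d - 1) hcardι' p r hr hr2 hrp
      (fun W => Module.finrank F ↥W = m ∧ Cfsg.Geo.IsNondegenerateOn (QuadraticMap.polar (Cfsg.quadFormPlus d F)) W ∧ ¬ Cfsg.Geo.IsPlusTypeOn (Cfsg.quadFormPlus d F) W)]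
    have hiff : (∀ g : Module.End F (Fin d ⊕ Fin d → F),
          Cfsg.Agent.Lib.Helper98.T73.QI (Cfsg.quadFormPlus d F) g → g ^ r = 1 → g ≠ 1 →
          ∃ W : Submodule F (Fin d ⊕ Fin d → F),
            (Module.finrank F ↥W = m ∧ Cfsg.Geo.IsNondegenerateOn (QuadraticMap.polar (Cfsg.quadFormPlus d F)) W ∧ ¬ Cfsg.Geo.IsPlusTypeOn (Cfsg.quadFormPlus d F) W) ∧ W.map g ≤ W) ↔
        (∀ g : Module.End F (Fin d ⊕ Fin d → F),
          Cfsg.Agent.Lib.Helper98.T73.QI (Cfsg.quadFormPlus d F) g → g ^ r = 1 → g ≠ 1 →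
          ∃ W : Submodule F (Fin d ⊕ Fin d → F),
            Cfsg.Agent.Lib.Helper98.T73.SubTyp (Cfsg.quadFormPlus d F)
              (Cfsg.Agent.Lib.Helper66.QuadSTD.plusB d F) W k (-1) ∧ W.map g ≤ W) := by
      constructor
      · intro h g h1 h2' h3
        obtain ⟨W, hW, hWg⟩ := h g h1 h2' h3
        exact ⟨W, (hellT W).mp hW, hWg⟩
      · intro h g h1 h2' h3
        obtain ⟨W, hW, hWg⟩ := h g h1 h2' h3
        exact ⟨W, (hellT W).mpr hW, hWg⟩
    rw [hiff]
    constructor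
    · intro hall
      have hM := (Cfsg.Agent.Lib.Helper98.H74.odd_iff_typ hf hQ hnd d (by omega) hfin 1 (Or.inl rfl) htyp p r hr hr2
        hrp (-1) (Or.inr rfl) k).mp hall
      rw [← hk] at hM
      by_cases hev : Even (orderOf ((Fintype.card F : ℕ) : ZMod r))
      · rw [if_pos hev] at hc
        subst hc
        by_cases him : orderOf ((Fintype.card F : ℕ) : ZMod r) ≤ m
        · have h := Cfsg.Agent.Lib.Helper12.Pe.ar88_even_fwd _ d m hi1 hev hd hm hme hmd him hM
          exact Or.inr (Or.inr ⟨hrp, hr3, hev, h⟩)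
        · exfalso
          exact Cfsg.Agent.Lib.Helper98.H74.lcnt_typ hf hQ hnd d (by omega) hfin 1 (Or.inl rfl) htyp p r hr hr2 hrp
            k (-1) (Or.inr rfl) (by omega) (by rw [if_pos hev, ← hk]; omega) hrΩ hall
      · rw [if_neg hev] at hc
        subst hc
        by_cases him : 2 * orderOf ((Fintype.card F : ℕ) : ZMod r) ≤ m
        · have h := (Cfsg.Agent.Lib.Helper21.Pe.ar88_odd _ d m hi1 hev hd hm hme hmd).mp ⟨him, hM⟩
          exact Or.inr (Or.inl ⟨hrp, hr3, Nat.not_even_iff_odd.mp hev, h⟩)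
        · exfalso
          exact Cfsg.Agent.Lib.Helper98.H74.lcnt_typ hf hQ hnd d (by omega) hfin 1 (Or.inl rfl) htyp p r hr hr2 hrp
            k (-1) (Or.inr rfl) (by omega) (by rw [if_neg hev, ← hk]; omega) hrΩ hall
    · intro hR
      have hM : Cfsg.Agent.Lib.Helper98.H74.ModelH 1 (-1)
          (orderOf ((Fintype.card F : ℕ) : ZMod r)) d m := by
        rcases hR with ⟨h, -⟩ | ⟨-, -, hodd, h⟩ | ⟨-, -, hev, h⟩
        · exact absurd h hr2
        · have hne : ¬ Even (orderOf ((Fintype.card F : ℕ) : ZMod r)) :=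
            Nat.not_even_iff_odd.mpr hodd
          rw [if_neg hne] at hc
          subst hc
          exact ((Cfsg.Agent.Lib.Helper21.Pe.ar88_odd _ d m hi1 hne hd hm hme hmd).mpr h).2
        · rw [if_pos hev] at hc
          subst hc
          exact Cfsg.Agent.Lib.Helper61.Pe.ar88_even_bwd _ d m hi1 hev hd hm hme hmd h
      rw [hk] at hM
      exact (Cfsg.Agent.Lib.Helper98.H74.odd_iff_typ hf hQ hnd d (by omega) hfin 1 (Or.inl rfl) htyp p r hr hr2
        hrp (-1) (Or.inr rfl) k).mpr hM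

end Cfsg.Agent.S5988
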