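import Cfsg.Statements.S5990
import Cfsg.Agent.Lib.Helper98.H90Asm
import Cfsg.Agent.Lib.Helper98.H90Of
import Cfsg.Agent.Lib.Helper25.H90ELLTYP
import Cfsg.Agent.Lib.Helper34.H90SIEGINVM
import Cfsg.Agent.Lib.Helper41.H90SIEGOMM
import Cfsg.Agent.Lib.Helper52.H90DETM
import Cfsg.Agent.Lib.Helper53.H90CPXT
import Cfsg.Agent.Lib.Helper79.H90INVE
import Cfsg.Agent.Lib.Helper94.H90C2FMx
import Cfsg.Agent.Lib.Helper23.H74SIEGEX
import Cfsg.Agent.Lib.Helper98.H74Glue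
import Cfsg.Agent.Lib.Helper88.T73CPXM
import Cfsg.Agent.Lib.Helper17.T73SPINM
import Cfsg.Agent.Lib.Helper67.T73DERM

set_option autoImplicit false
open scoped MatrixGroups
open Cfsg

namespace Cfsg.Agent.S5990

open Cfsg.Agent.Lib.Helper47 Cfsg.Agent.Lib.Helper98.T73 Cfsg.Agent.Lib.Helper98.H74 Module

/-- Elements of prime order of PΩ⁻_n(q) with no fixed elliptic `m`-space. Here `T = PΩ⁻_n(F)`, `n = 2d ≥ 8`, realised through `Ω⁻_n(q)`, the commutator subgroup of the isometry group of `Q = Σ_{i<d−1} xᵢyᵢ + z₁² + a z₁z₂ + b z₂²` with `z₁² + a z₁z₂ + b z₂²` anisotropic, over the field `F` with `q` elements; an element of `T` of prime order `r` is an element `x` of `Ω⁻_n(q)` with `x^r` scalar and `x` not scalar; a nondegenerate `m`-space (even `m`) is a subspace on which the polar form of `Q` is nondegenerate; it is hyperbolic if it contains an `m/2`-dimensional subspace on which `Q` vanishes, elliptic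 otherwise. Let `m` be even with `2 ≤ m ≤ n − 2` (no restriction `m < n/2`: fixing an elliptic `m`-space is the same as fixing its hyperbolic orthogonal complement) and let `r` be a prime dividing the number of elliptic `m`-spaces, with `r = 2` or `r ≠ p`; for `r ≠ p` let `i` be the multiplicative order of `q` modulo `r`, `c = i` for `i` even and `c = 2i` for `i` odd, and write `k = n mod c`, `ℓ = m mod i`, `ℓ' = m mod c`, `n' = ⌊n/i⌋`, `m' = ⌊m/i⌋`, `t = (r−1)/i`. Then every element of `T` of order `r` fixes some elliptic `m`-space if and only if one of: (i) `r = p = 2` and (`n ≡ 0 (mod 4)` or `m ≡ 2 (mod 4)`); (ii) `r = 2 ≠ p` and (`n ≡ 0 (mod 4)`, or `q ≢ 7 (mod 8)`, or `m ≡ 2 (mod 4)`); (iii) `r ≠ p` odd, `i` odd, and `k = 0` or (`c ≤ m` and `k ≥ ℓ' > 0`); (iv) `r ≠ p` odd, `i` even, and either `k = 0` and (`n/i` even, or `ℓ' = 0` and `m/i` odd), or `k > 0`, `i ≤ m` and (`k > ℓ' > 0`, or `ℓ' = 0`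 and `m/i` odd, or `k = ℓ'` and `(n + m − 2k)/i` even). (Odd `r = p` is not covered by this statement.) -/
theorem result {F : Type*} [Field F] [Fintype F] {p : ℕ} [Fact p.Prime] [CharP F p] {q : ℕ} (hq : Fintype.card F = q)
    (d m : ℕ) (hd : 4 ≤ d) (hm : 2 ≤ m) (hme : Even m) (hmn : m + 2 ≤ 2 * d) (a b : F) (hab : ∀ x y : F, x ^ 2 + a * x * y + b * y ^ 2 = 0 → x = 0 ∧ y = 0)
    (r : ℕ) [Fact r.Prime] (hr : r = 2 ∨ r ≠ p)
    (hrΩ : r ∣ Nat.card {W : Submodule F ((Fin (d - 1) ⊕ Fin (d - 1)) ⊕ Fin 2 → F) // Module.finrank F ↥W = m ∧ Cfsg.Geo.IsNondegenerateOn (QuadraticMap.polar (Cfsg.quadFormMinus (d - 1) F a b)) W ∧ ¬ Cfsg.Geo.IsPlusTypeOn (Cfsg.quadFormMinus (d - 1) F a b) W})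
    (i c : ℕ) (hi : i = orderOf (q : ZMod r)) (hc : c = if Even i then i else 2 * i) :
    (∀ x : GL ((Fin (d - 1) ⊕ Fin (d - 1)) ⊕ Fin 2) F, x ∈ Cfsg.Geo.omegaGL (Cfsg.quadFormMinus (d - 1) F a b) →
      (∃ z : F, ((x ^ r : GL ((Fin (d - 1) ⊕ Fin (d - 1)) ⊕ Fin 2) F) : Matrix ((Fin (d - 1) ⊕ Fin (d - 1)) ⊕ Fin 2) ((Fin (d - 1) ⊕ Fin (d - 1)) ⊕ Fin 2) F) = z • (1 : Matrix ((Fin (d - 1) ⊕ Fin (d - 1)) ⊕ Fin 2) ((Fin (d - 1) ⊕ Fin (d - 1)) ⊕ Fin 2) F)) →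
      (∀ z : F, (x : Matrix ((Fin (d - 1) ⊕ Fin (d - 1)) ⊕ Fin 2) ((Fin (d - 1) ⊕ Fin (d - 1)) ⊕ Fin 2) F) ≠ z • (1 : Matrix ((Fin (d - 1) ⊕ Fin (d - 1)) ⊕ Fin 2) ((Fin (d - 1) ⊕ Fin (d - 1)) ⊕ Fin 2) F)) →
      ∃ W : Submodule F ((Fin (d - 1) ⊕ Fin (d - 1)) ⊕ Fin 2 → F), (Module.finrank F ↥W = m ∧ Cfsg.Geo.IsNondegenerateOn (QuadraticMap.polar (Cfsg.quadFormMinus (d - 1) F a b)) W ∧ ¬ Cfsg.Geo.IsPlusTypeOn (Cfsg.quadFormMinus (d - 1) F a b) W) ∧ W.map (Matrix.toLin' (x : Matrix ((Fin (d - 1) ⊕ Fin (d - 1)) ⊕ Fin 2) ((Fin (d - 1) ⊕ Fin (d - 1)) ⊕ Fin 2) F)) ≤ W) ↔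
    ((r = 2 ∧ p = 2 ∧ (Even d ∨ m % 4 = 2)) ∨
     (r = 2 ∧ p ≠ 2 ∧ (Even d ∨ q % 8 ≠ 7 ∨ m % 4 = 2)) ∨
     (r ≠ p ∧ 2 < r ∧ Odd i ∧ ((2 * d) % c = 0 ∨ (c ≤ m ∧ 0 < m % c ∧ m % c ≤ (2 * d) % c))) ∨
     (r ≠ p ∧ 2 < r ∧ Even i ∧
       (((2 * d) % c = 0 ∧ (Even ((2 * d) / i) ∨ (m % c = 0 ∧ Odd (m / i)))) ∨
        (0 < (2 * d) % c ∧ i ≤ m ∧ ((0 < m % c ∧ m % c < (2 * d) % c) ∨ (m % c = 0 ∧ Odd (m / i)) ∨
                                    (m % c = (2 * d) % c ∧ Even ((2 * d + m - 2 * ((2 * d) % c)) / i))))))) := by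
  classical
  subst hq
  subst hi
  have hr' : r.Prime := Fact.out
  have hp : p.Prime := Fact.out
  have hQ : IsQuad (Cfsg.quadFormMinus (d - 1) F a b) (Cfsg.Agent.Lib.Helper66.QuadSTD.minusB (d - 1) F a b) :=
    Cfsg.Agent.Lib.Helper66.QuadSTD.quadFormMinus_isQuad (d - 1) a b
  have hnd : Nondeg (Cfsg.Agent.Lib.Helper66.QuadSTD.minusB (d - 1) F a b) :=
    Cfsg.Agent.Lib.Helper66.QuadSTD.minusB_nondeg (d - 1) a b hab
  have hf : QFacts F := qfacts p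
  have htyp : IsTyp (Cfsg.quadFormMinus (d - 1) F a b) (d - 1) (-1) :=
    Cfsg.Agent.Lib.Helper2.QuadMINUSTYP.isTyp_quadFormMinus_of (d - 1) a b
      (fun Q₁ Q₂ _ _ _ _ h₁ h₂ => Cfsg.Agent.Lib.Helper78.Quad.isTyp_prod Q₁ Q₂ h₁ h₂)
      Cfsg.Agent.Lib.Helper23.Quad.isTyp_quadFormPlus
      (Cfsg.Agent.Lib.Helper5.QuadAC.isTyp_aniso a b hab)
  have hcardι : Fintype.card ((Fin (d - 1) ⊕ Fin (d - 1)) ⊕ Fin 2) = 2 * (d - 1) + 2 := by
    rw [Fintype.card_sum, Fintype.card_sum, Fintype.card_fin, Fintype.card_fin]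
    omega
  have hdim : finrank F (((Fin (d - 1) ⊕ Fin (d - 1)) ⊕ Fin 2) → F) = 2 * d := by
    rw [Module.finrank_fintype_fun_eq_card, hcardι]
    omega
  haveI : Nonempty ((Fin (d - 1) ⊕ Fin (d - 1)) ⊕ Fin 2) := ⟨Sum.inr 0⟩
  -- m = 2k+2
  obtain ⟨k, hk⟩ : ∃ k, m = 2 * k + 2 := by
    obtain ⟨a', ha'⟩ := hme
    exact ⟨a' - 1, by omega⟩
  subst hk
  have hkd : k + 2 ≤ d := by omega
  -- the statement's predicate
  have hP : ∀ W : Submodule F (((Fin (d - 1) ⊕ Fin (d - 1)) ⊕ Fin 2) → F),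
      EllM (Cfsg.quadFormMinus (d - 1) F a b) (2 * k + 2) W ↔
        SubTyp (Cfsg.quadFormMinus (d - 1) F a b) (Cfsg.Agent.Lib.Helper66.QuadSTD.minusB (d - 1) F a b) W k (-1) :=
    fun W => ell_iff hf hQ p W k
  have hrΩ' : r ∣ Nat.card {W : Submodule F (((Fin (d - 1) ⊕ Fin (d - 1)) ⊕ Fin 2) → F) //
      SubTyp (Cfsg.quadFormMinus (d - 1) F a b) (Cfsg.Agent.Lib.Helper66.QuadSTD.minusB (d - 1) F a b) W k (-1)} := by
    have hcongr : Nat.card {W : Submodule F (((Fin (d - 1) ⊕ Fin (d - 1)) ⊕ Fin 2) → F) //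
          EllM (Cfsg.quadFormMinus (d - 1) F a b) (2 * k + 2) W}
        = Nat.card {W : Submodule F (((Fin (d - 1) ⊕ Fin (d - 1)) ⊕ Fin 2) → F) //
          SubTyp (Cfsg.quadFormMinus (d - 1) F a b) (Cfsg.Agent.Lib.Helper66.QuadSTD.minusB (d - 1) F a b) W k (-1)} :=
      Nat.card_congr (Equiv.subtypeEquivRight hP)
    rw [← hcongr]
    exact hrΩ
  -- restate the left-hand side
  have hLHS : (∀ x : GL ((Fin (d - 1) ⊕ Fin (d - 1)) ⊕ Fin 2) F, x ∈ Cfsg.Geo.omegaGL (Cfsg.quadFormMinus (d - 1) F a b) →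
      (∃ z : F, ((x ^ r : GL ((Fin (d - 1) ⊕ Fin (d - 1)) ⊕ Fin 2) F) : Matrix ((Fin (d - 1) ⊕ Fin (d - 1)) ⊕ Fin 2) ((Fin (d - 1) ⊕ Fin (d - 1)) ⊕ Fin 2) F) = z • (1 : Matrix ((Fin (d - 1) ⊕ Fin (d - 1)) ⊕ Fin 2) ((Fin (d - 1) ⊕ Fin (d - 1)) ⊕ Fin 2) F)) →
      (∀ z : F, (x : Matrix ((Fin (d - 1) ⊕ Fin (d - 1)) ⊕ Fin 2) ((Fin (d - 1) ⊕ Fin (d - 1)) ⊕ Fin 2) F) ≠ z • (1 : Matrix ((Fin (d - 1) ⊕ Fin (d - 1)) ⊕ Fin 2) ((Fin (d - 1) ⊕ Fin (d - 1)) ⊕ Fin 2) F)) →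
      ∃ W : Submodule F (((Fin (d - 1) ⊕ Fin (d - 1)) ⊕ Fin 2) → F), (Module.finrank F ↥W = 2 * k + 2 ∧ Cfsg.Geo.IsNondegenerateOn (QuadraticMap.polar (Cfsg.quadFormMinus (d - 1) F a b)) W ∧ ¬ Cfsg.Geo.IsPlusTypeOn (Cfsg.quadFormMinus (d - 1) F a b) W) ∧ W.map (Matrix.toLin' (x : Matrix ((Fin (d - 1) ⊕ Fin (d - 1)) ⊕ Fin 2) ((Fin (d - 1) ⊕ Fin (d - 1)) ⊕ Fin 2) F)) ≤ W) ↔
    (∀ x : GL ((Fin (d - 1) ⊕ Fin (d - 1)) ⊕ Fin 2) F, x ∈ Cfsg.Geo.omegaGL (Cfsg.quadFormMinus (d - 1) F a b) →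
      (∃ z : F, ((x ^ r : GL ((Fin (d - 1) ⊕ Fin (d - 1)) ⊕ Fin 2) F) : Matrix ((Fin (d - 1) ⊕ Fin (d - 1)) ⊕ Fin 2) ((Fin (d - 1) ⊕ Fin (d - 1)) ⊕ Fin 2) F) = z • (1 : Matrix ((Fin (d - 1) ⊕ Fin (d - 1)) ⊕ Fin 2) ((Fin (d - 1) ⊕ Fin (d - 1)) ⊕ Fin 2) F)) →
      (∀ z : F, (x : Matrix ((Fin (d - 1) ⊕ Fin (d - 1)) ⊕ Fin 2) ((Fin (d - 1) ⊕ Fin (d - 1)) ⊕ Fin 2) F) ≠ z • (1 : Matrix ((Fin (d - 1) ⊕ Fin (d - 1)) ⊕ Fin 2) ((Fin (d - 1) ⊕ Fin (d - 1)) ⊕ Fin 2) F)) →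
      ∃ W : Submodule F (((Fin (d - 1) ⊕ Fin (d - 1)) ⊕ Fin 2) → F),
        SubTyp (Cfsg.quadFormMinus (d - 1) F a b) (Cfsg.Agent.Lib.Helper66.QuadSTD.minusB (d - 1) F a b) W k (-1) ∧
        W.map (Matrix.toLin' (x : Matrix ((Fin (d - 1) ⊕ Fin (d - 1)) ⊕ Fin 2) ((Fin (d - 1) ⊕ Fin (d - 1)) ⊕ Fin 2) F)) ≤ W) := by
    constructor
    · intro h x hx hz hns
      obtain ⟨W, hW, hWx⟩ := h x hx hz hns
      exact ⟨W, (hP W).mp hW, hWx⟩
    · intro h x hx hz hns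
      obtain ⟨W, hW, hWx⟩ := h x hx hz hns
      exact ⟨W, (hP W).mpr hW, hWx⟩
  rw [hLHS]
  have hxx : ∀ x : GL ((Fin (d - 1) ⊕ Fin (d - 1)) ⊕ Fin 2) F,
      ((x ^ 2 : GL ((Fin (d - 1) ⊕ Fin (d - 1)) ⊕ Fin 2) F) : Matrix ((Fin (d - 1) ⊕ Fin (d - 1)) ⊕ Fin 2) ((Fin (d - 1) ⊕ Fin (d - 1)) ⊕ Fin 2) F) = (x : Matrix ((Fin (d - 1) ⊕ Fin (d - 1)) ⊕ Fin 2) ((Fin (d - 1) ⊕ Fin (d - 1)) ⊕ Fin 2) F) * (x : Matrix ((Fin (d - 1) ⊕ Fin (d - 1)) ⊕ Fin 2) ((Fin (d - 1) ⊕ Fin (d - 1)) ⊕ Fin 2) F) := by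
    intro x
    rw [pow_two, Units.val_mul]
  have hTT : ∀ (x : GL ((Fin (d - 1) ⊕ Fin (d - 1)) ⊕ Fin 2) F) (z : F),
      (x : Matrix ((Fin (d - 1) ⊕ Fin (d - 1)) ⊕ Fin 2) ((Fin (d - 1) ⊕ Fin (d - 1)) ⊕ Fin 2) F) * (x : Matrix ((Fin (d - 1) ⊕ Fin (d - 1)) ⊕ Fin 2) ((Fin (d - 1) ⊕ Fin (d - 1)) ⊕ Fin 2) F) = z • (1 : Matrix ((Fin (d - 1) ⊕ Fin (d - 1)) ⊕ Fin 2) ((Fin (d - 1) ⊕ Fin (d - 1)) ⊕ Fin 2) F) →
      Matrix.toLin' (x : Matrix ((Fin (d - 1) ⊕ Fin (d - 1)) ⊕ Fin 2) ((Fin (d - 1) ⊕ Fin (d - 1)) ⊕ Fin 2) F) * Matrix.toLin' (x : Matrix ((Fin (d - 1) ⊕ Fin (d - 1)) ⊕ Fin 2) ((Fin (d - 1) ⊕ Fin (d - 1)) ⊕ Fin 2) F)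
        = z • (1 : Module.End F (((Fin (d - 1) ⊕ Fin (d - 1)) ⊕ Fin 2) → F)) := by
    intro x z hz
    rw [Module.End.mul_eq_comp, ← Matrix.toLin'_mul, hz, map_smul, Matrix.toLin'_one]
    rfl
  by_cases hr2 : r = 2
  · subst hr2
    have hkpar : (2 * k + 2) % 4 = 2 ↔ Even k := by
      rw [Nat.even_iff]
      omega
    by_cases hp2 : p = 2
    · -- characteristic 2
      subst hp2
      have h2F : (2 : F) = 0 := by
        have := CharP.cast_eq_zero F 2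
        exact_mod_cast this
      constructor
      · intro hL
        refine Or.inl ⟨rfl, rfl, ?_⟩
        by_contra hcon
        rw [not_or] at hcon
        obtain ⟨hdo, hm4⟩ := hcon
        have hde : Even (d - 1) := by
          rw [Nat.even_iff] at hdo ⊢
          omega
        obtain ⟨S, hS0, hSt, hSdet, hSne⟩ := exists_alt_unit (F := F) (d - 1) hde (by omega)
        obtain ⟨x, hx, hxS⟩ := siegel_mem_omega_minus (d - 1) (by omega) a b S hS0 hSt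
        have hx2 : (x : Matrix ((Fin (d - 1) ⊕ Fin (d - 1)) ⊕ Fin 2) ((Fin (d - 1) ⊕ Fin (d - 1)) ⊕ Fin 2) F) * (x : Matrix ((Fin (d - 1) ⊕ Fin (d - 1)) ⊕ Fin 2) ((Fin (d - 1) ⊕ Fin (d - 1)) ⊕ Fin 2) F)
            = (1 : F) • (1 : Matrix ((Fin (d - 1) ⊕ Fin (d - 1)) ⊕ Fin 2) ((Fin (d - 1) ⊕ Fin (d - 1)) ⊕ Fin 2) F) := by
          rw [hxS, Matrix.fromBlocks_multiply, Matrix.fromBlocks_multiply, one_smul]
          have hSS : S + S = 0 := by
            rw [← two_smul F S, h2F, zero_smul]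
          simp only [Matrix.one_mul, Matrix.mul_one, Matrix.zero_mul, Matrix.mul_zero, add_zero,
            zero_add, hSS, Matrix.fromBlocks_one]
        have hxns : ∀ z : F, (x : Matrix ((Fin (d - 1) ⊕ Fin (d - 1)) ⊕ Fin 2) ((Fin (d - 1) ⊕ Fin (d - 1)) ⊕ Fin 2) F) ≠ z • (1 : Matrix ((Fin (d - 1) ⊕ Fin (d - 1)) ⊕ Fin 2) ((Fin (d - 1) ⊕ Fin (d - 1)) ⊕ Fin 2) F) := by
          intro z hz
          apply hSne
          ext a' b'
          have h1 := congrFun (congrFun hz (Sum.inl (Sum.inl a'))) (Sum.inl (Sum.inr b'))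
          rw [hxS, Matrix.fromBlocks_apply₁₁, Matrix.fromBlocks_apply₁₂, Matrix.smul_apply,
            Matrix.one_apply_ne (by simp), smul_zero] at h1
          rw [h1]
          rfl
        obtain ⟨W, hW, hWx⟩ := hL x hx ⟨1, by rw [hxx, hx2]⟩ hxns
        have hWe := (hP W).mpr hW
        rw [hxS] at hWx
        have h4 : 4 ∣ finrank F W := by
          rw [hWe.1]
          omega
        exact hWe.2.2 (siegel_plus_of_four_dvd (d - 1) a b hab S hS0 hSt hSdet W hWe.2.1 hWx h4)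
      · rintro (⟨-, -, hcond⟩ | ⟨-, h, -⟩ | ⟨h, -⟩ | ⟨h, -⟩)
        · intro x hx hz hxns
          obtain ⟨z, hz⟩ := hz
          have hxi := mem_iso_of_mem_omega (Cfsg.quadFormMinus (d - 1) F a b) hx
          have hz2 : z * z = 1 := scalar_sq _ _ hQ hnd hxi 2 z hz
          have hz1 : z = 1 := by
            have h1 : (z - 1) * (z - 1) = 0 := by
              linear_combination hz2 - (z - 1) * h2F
            have h3 := mul_self_eq_zero.mp h1
            linear_combination h3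
          rw [hxx, hz1] at hz
          have hT := hTT x 1 hz
          rw [one_smul] at hT
          have hc : Even d ∨ Even k := by
            rcases hcond with h | h
            · exact Or.inl h
            · exact Or.inr (hkpar.mp h)
          exact char2_fix_minus hf hQ hnd d (by omega) hdim htyp _ (qi_of_mem_omega _ hx) hT k hkd hc
        · exact absurd rfl h
        · exact absurd rfl h
        · exact absurd rfl h
    · -- odd characteristic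
      have h2F : (2 : F) ≠ 0 := by
        intro h
        have h1 : ((2 : ℕ) : F) = 0 := by exact_mod_cast h
        have h3 := (CharP.cast_eq_zero_iff F p 2).mp h1
        exact hp2 ((Nat.prime_dvd_prime_iff_eq hp Nat.prime_two).mp h3)
      have hcardodd : Fintype.card F % 2 = 1 := by
        obtain ⟨n, -, hn⟩ := FiniteField.card F p
        rw [hn]
        have hpodd : p % 2 = 1 := by
          rcases hp.eq_two_or_odd with h | h
          · exact absurd h hp2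
          · exact h
        rw [Nat.pow_mod, hpodd, one_pow]
        norm_num
      have hsq_iff : IsSquare (-1 : F) ↔ Fintype.card F % 4 ≠ 3 :=
        FiniteField.isSquare_neg_one_iff
      have hpow : ∀ n : ℕ, Even n → ((-1 : ℤ)) ^ (n + 1) = -1 := by
        intro n hn
        exact (hn.add_one).neg_one_pow
      constructor
      · intro hL
        refine Or.inr (Or.inl ⟨rfl, fun h => hp2 h, ?_⟩)
        by_contra hcon
        rw [not_or, not_or] at hcon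
        obtain ⟨hdo, hq8, hm4⟩ := hcon
        have hq8' : Fintype.card F % 8 = 7 := by omega
        have hde : Even (d - 1) := by
          rw [Nat.even_iff] at hdo ⊢
          omega
        have hns : ¬ IsSquare (-1 : F) := by
          rw [hsq_iff]
          omega
        obtain ⟨x, hx, hx2, hxns, -⟩ := exists_cpx_der_minus h2F (d - 1) a b hab hde hq8'
        obtain ⟨W, hW, hWx⟩ := hL x hx ⟨-1, by rw [hxx, hx2]⟩ hxns
        have hT : Matrix.toLin' (x : Matrix ((Fin (d - 1) ⊕ Fin (d - 1)) ⊕ Fin 2) ((Fin (d - 1) ⊕ Fin (d - 1)) ⊕ Fin 2) F) * Matrix.toLin' (x : Matrix ((Fin (d - 1) ⊕ Fin (d - 1)) ⊕ Fin 2) ((Fin (d - 1) ⊕ Fin (d - 1)) ⊕ Fin 2) F) = -1 := by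
          rw [hTT x (-1) hx2]
          ext v
          simp
        have hτ := cpx_typ hf h2F hns hQ hnd p _ (qi_of_mem_omega _ hx) hT k (-1) W hW hWx
        have hke : Even k := by
          by_contra hko
          rw [Nat.not_even_iff_odd] at hko
          have : ((-1 : ℤ)) ^ (k + 1) = 1 := (hko.add_one).neg_one_pow
          rw [this] at hτ
          norm_num at hτ
        exact hm4 (hkpar.mpr hke)
      · rintro (⟨-, h, -⟩ | ⟨-, -, hcond⟩ | ⟨-, h', -⟩ | ⟨-, h', -⟩)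
        · exact absurd h hp2
        · intro x hx hz hxns
          obtain ⟨z, hz⟩ := hz
          have hxi := mem_iso_of_mem_omega (Cfsg.quadFormMinus (d - 1) F a b) hx
          have hz2 : z * z = 1 := scalar_sq _ _ hQ hnd hxi 2 z hz
          rw [hxx] at hz
          have hgQ := qi_of_mem_omega (Cfsg.quadFormMinus (d - 1) F a b) hx
          rcases mul_self_eq_one_iff.mp hz2 with hz1 | hz1
          · -- involution
            rw [hz1] at hz
            have hT := hTT x 1 hz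
            rw [one_smul] at hT
            have hx2 : x * x = 1 := by
              apply Units.ext
              rw [Units.val_mul, hz, one_smul]
              rfl
            have hev := even_ker_of_mem_omega_minus h2F (d - 1) a b hab x hx hx2
            exact invol_fix_ell hf h2F hQ hnd d (by omega) hdim p _ hgQ hT hev k hkd
          · -- x² = -1
            rw [hz1] at hz
            have hT : Matrix.toLin' (x : Matrix ((Fin (d - 1) ⊕ Fin (d - 1)) ⊕ Fin 2) ((Fin (d - 1) ⊕ Fin (d - 1)) ⊕ Fin 2) F) * Matrix.toLin' (x : Matrix ((Fin (d - 1) ⊕ Fin (d - 1)) ⊕ Fin 2) ((Fin (d - 1) ⊕ Fin (d - 1)) ⊕ Fin 2) F) = -1 := by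
              rw [hTT x (-1) hz]
              ext v
              simp
            obtain ⟨hns, hde⟩ := cpx_minus_facts h2F (d - 1) a b hab x hx hz
            have hq4 : Fintype.card F % 4 = 3 := by
              by_contra h
              exact hns (hsq_iff.mpr h)
            have hke : Even k := by
              rcases hcond with h | h | h
              · exfalso
                rw [Nat.even_iff] at h hde
                omega
              · exfalso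
                have h8 : Fintype.card F % 8 = 3 := by omega
                exact cpx_not_mem_omega_minus h2F (d - 1) a b hab hde h8 x hx hz
              · exact hkpar.mp h
            obtain ⟨W, hW, hWg⟩ := cpx_fix hf h2F hns hQ hnd d hdim p _ hgQ hT k (by omega)
            rw [hpow k hke] at hW
            exact ⟨W, hW, hWg⟩
        · omega
        · omega
  · -- r odd
    have hrp : r ≠ p := by
      rcases hr with h | h
      · exact absurd h hr2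
      · exact h
    have hr3 : 2 < r := by
      have := hr'.two_le
      omega
    rw [lhs_gen (Cfsg.quadFormMinus (d - 1) F a b) _ hf hQ hnd (d - 1) hcardι p r hr' hr2 hrp
        (fun W => SubTyp (Cfsg.quadFormMinus (d - 1) F a b) (Cfsg.Agent.Lib.Helper66.QuadSTD.minusB (d - 1) F a b) W k (-1)),
      odd_iff90 hf hQ hnd d hd hdim htyp p r hr' hr2 hrp k hkd hrΩ']
    unfold Cond90
    by_cases hev : Even (orderOf ((Fintype.card F : ℕ) : ZMod r))
    · have hodd : ¬ Odd (orderOf ((Fintype.card F : ℕ) : ZMod r)) := by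
        rw [Nat.not_odd_iff_even]
        exact hev
      rw [if_pos hev] at hc
      subst hc
      rw [if_pos hev]
      constructor
      · intro h
        exact Or.inr (Or.inr (Or.inr ⟨hrp, hr3, hev, h⟩))
      · rintro (⟨h, -⟩ | ⟨h, -⟩ | ⟨-, -, h, -⟩ | ⟨-, -, -, h⟩)
        · exact absurd h hr2
        · exact absurd h hr2
        · exact absurd h hodd
        · exact h
    · have hodd : Odd (orderOf ((Fintype.card F : ℕ) : ZMod r)) := Nat.not_even_iff_odd.mp hev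
      rw [if_neg hev] at hc
      subst hc
      rw [if_neg hev]
      constructor
      · intro h
        exact Or.inr (Or.inr (Or.inl ⟨hrp, hr3, hodd, h⟩))
      · rintro (⟨h, -⟩ | ⟨h, -⟩ | ⟨-, -, -, h⟩ | ⟨-, -, h, -⟩)
        · exact absurd h hr2
        · exact absurd h hr2
        · exact h
        · exact absurd h hev

end Cfsg.Agent.S5990
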