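import Cfsg.Statements.S5991
import Cfsg.Agent.Lib.Helper96.PmMain
import Cfsg.Agent.Lib.Helper14.PmUNIV
import Cfsg.Agent.Lib.Helper43.PmMCOND
import Cfsg.Agent.Lib.Helper57.PmMCONB
import Cfsg.Agent.Lib.Helper68.PmMGLUET
import Cfsg.Agent.Lib.Helper77.PmMGLUEF
import Cfsg.Agent.Lib.Helper85.PmMEXM
import Cfsg.Agent.Lib.Helper91.PmMCONC
import Cfsg.Agent.Lib.Helper10.PiX2CRIT
import Cfsg.Agent.Lib.Helper21.PiZNORM
import Cfsg.Agent.Lib.Helper21.PiZSQ
import Cfsg.Agent.Lib.Helper37.PiX2PLANE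
import Cfsg.Agent.Lib.Helper43.PiX2PLANE0
import Cfsg.Agent.Lib.Helper5.PiX2NOFIX
import Cfsg.Agent.Lib.Helper53.PiU3
import Cfsg.Agent.Lib.Helper62.PiX2REFL
import Cfsg.Agent.Lib.Helper62.PiX2STEP
import Cfsg.Agent.Lib.Helper62.PiX2TYPE
import Cfsg.Agent.Lib.Helper79.PiX2DECOMP
import Cfsg.Agent.Lib.Helper85.PiX2INV
import Cfsg.Agent.Lib.Helper87.PiUNIA
import Cfsg.Agent.Lib.Helper87.PiUNIB
import Cfsg.Agent.Lib.Helper87.PiUNIC
import Cfsg.Agent.Lib.Lead.PiU1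
import Cfsg.Agent.Lib.Lead.PiU2
import Cfsg.Agent.Lib.Lead.PiU4

set_option autoImplicit false
set_option linter.unusedSectionVars false
set_option linter.unusedSimpArgs false
open scoped MatrixGroups
open Cfsg

namespace Cfsg.Agent.S5991

open Cfsg.Agent.Lib.Helper96.Sp Cfsg.Agent.Lib.Helper96.BG Cfsg.Agent.Lib.Helper96.Hy
  Cfsg.Agent.Lib.Helper96.Pi Cfsg.Agent.Lib.Helper96.Pm Module Matrix

theorem arith_minus (i c m d : ℕ) (hc : c = if Even i then i else 2 * i) (hi : 1 ≤ i)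
    (hm : Odd m) (T : Prop) (hT : T ↔ (Even i ∧ Odd (2 * d / c))) :
    ((0 < 2 * d % c ∧ c ≤ m ∧ m % c < 2 * d % c) ∨ (2 * d % c = 0 ∧ ¬ T)) ↔
    ((Odd i ∧ (2 * d % c = 0 ∨ (c ≤ m ∧ 0 < m % c ∧ m % c < 2 * d % c))) ∨
     (Even i ∧ ((2 * d % c = 0 ∧ Even (2 * d / i)) ∨
        (0 < 2 * d % c ∧ i ≤ m ∧ 0 < m % c ∧ m % c < 2 * d % c)))) := by
  have hceven : Even c := by
    rw [hc]; split_ifs with h
    · exact h
    · exact even_two_mul i
  have hmc : 0 < m % c := by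
    have := odd_mod_of_even hm hceven
    omega
  rcases Nat.even_or_odd i with he | ho
  · rw [if_pos he] at hc
    subst hc
    have hT' : ¬ T ↔ Even (2 * d / c) := by
      constructor
      · intro h
        by_contra hne
        exact h (hT.mpr ⟨he, Nat.not_even_iff_odd.mp hne⟩)
      · intro h h'
        exact (Nat.not_even_iff_odd.mpr (hT.mp h').2) h
    rw [hT']
    constructor
    · rintro (⟨h1, h2, h3⟩ | ⟨h1, h2⟩)
      · exact Or.inr ⟨he, Or.inr ⟨h1, h2, hmc, h3⟩⟩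
      · exact Or.inr ⟨he, Or.inl ⟨h1, h2⟩⟩
    · rintro (⟨ho, -⟩ | ⟨-, ⟨h1, h2⟩ | ⟨h1, h2, -, h4⟩⟩)
      · exact absurd he (Nat.not_even_iff_odd.mpr ho)
      · exact Or.inr ⟨h1, h2⟩
      · exact Or.inl ⟨h1, h2, h4⟩
  · have hne : ¬ Even i := Nat.not_even_iff_odd.mpr ho
    have hTf : ¬ T := fun h => hne (hT.mp h).1
    constructor
    · rintro (⟨h1, h2, h3⟩ | ⟨h1, -⟩)
      · exact Or.inl ⟨ho, Or.inr ⟨h2, hmc, h3⟩⟩
      · exact Or.inl ⟨ho, Or.inl h1⟩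
    · rintro (⟨-, h1 | ⟨h1, -, h3⟩⟩ | ⟨he, -⟩)
      · exact Or.inr ⟨h1, hTf⟩
      · exact Or.inl ⟨by omega, h1, h3⟩
      · exact absurd he hne

universe u

section Aux

variable {F : Type u} [Field F] [Fintype F]

theorem quad_of_mem_omega (e : ℕ) (a b : F) (x : GL ((Fin e ⊕ Fin e) ⊕ Fin 2) F)
    (hx : x ∈ Cfsg.Geo.omegaGL (Cfsg.quadFormMinus e F a b)) :
    ∀ v, Cfsg.quadFormMinus e F a b
        ((x : Matrix ((Fin e ⊕ Fin e) ⊕ Fin 2) ((Fin e ⊕ Fin e) ⊕ Fin 2) F) *ᵥ v)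
      = Cfsg.quadFormMinus e F a b v := by
  obtain ⟨y, -, rfl⟩ := hx
  intro u
  exact y.2 u u

theorem isom_of_quad (e : ℕ) (a b : F)
    (x : Matrix ((Fin e ⊕ Fin e) ⊕ Fin 2) ((Fin e ⊕ Fin e) ⊕ Fin 2) F)
    (hxQ : ∀ v, Cfsg.quadFormMinus e F a b (x *ᵥ v) = Cfsg.quadFormMinus e F a b v) :
    Isom (QuadraticMap.polarBilin (Cfsg.Agent.Lib.Helper51.QMinus e F a b)) (Matrix.toLin' x) := by
  have hcoe := Cfsg.Agent.Lib.Helper51.coe_QMinus e F a b
  intro u v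
  rw [QuadraticMap.polarBilin_apply_apply, QuadraticMap.polarBilin_apply_apply]
  unfold QuadraticMap.polar
  rw [← map_add]
  simp only [Matrix.toLin'_apply, hcoe]
  rw [hxQ, hxQ, hxQ]

theorem toLin_mul_self (e : ℕ)
    (x : Matrix ((Fin e ⊕ Fin e) ⊕ Fin 2) ((Fin e ⊕ Fin e) ⊕ Fin 2) F)
    (hxx : x * x = -1) :
    Matrix.toLin' x * Matrix.toLin' x
      = (-1 : Module.End F ((Fin e ⊕ Fin e) ⊕ Fin 2 → F)) := by
  rw [Module.End.mul_eq_comp, ← Matrix.toLin'_mul, hxx, map_neg, Matrix.toLin'_one]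
  rfl

/-- A scalar matrix that preserves `quadFormMinus` and squares to `-1` does not exist. -/
theorem not_scalar_of_sq_neg (h2 : (2 : F) ≠ 0) (e : ℕ) (a b : F)
    (x : Matrix ((Fin e ⊕ Fin e) ⊕ Fin 2) ((Fin e ⊕ Fin e) ⊕ Fin 2) F)
    (hxQ : ∀ v, Cfsg.quadFormMinus e F a b (x *ᵥ v) = Cfsg.quadFormMinus e F a b v)
    (hxx : x * x = -1) (z : F) :
    x ≠ z • (1 : Matrix ((Fin e ⊕ Fin e) ⊕ Fin 2) ((Fin e ⊕ Fin e) ⊕ Fin 2) F) := by
  intro hxz
  obtain ⟨v, hv⟩ := Cfsg.Agent.Lib.Helper54.hv_minus (F := F) (m := e) a b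
  have h1 := hxQ v
  rw [hxz, Matrix.smul_mulVec, Matrix.one_mulVec, ← Cfsg.Agent.Lib.Helper51.coe_QMinus,
    QuadraticMap.map_smul, smul_eq_mul] at h1
  have hzz : z * z = 1 := by
    have h3 : (z * z - 1) * Cfsg.Agent.Lib.Helper51.QMinus e F a b v = 0 := by
      rw [sub_mul, one_mul, h1, sub_self]
    rcases mul_eq_zero.mp h3 with h | h
    · exact sub_eq_zero.mp h
    · exact absurd h hv
  rw [hxz] at hxx
  have h4 := congrFun (congrFun hxx (Sum.inr 0)) (Sum.inr 0)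
  simp only [Matrix.smul_mul, Matrix.mul_smul, Matrix.one_mul, Matrix.smul_apply,
    Matrix.one_apply_eq, Matrix.neg_apply, smul_eq_mul, mul_one] at h4
  apply h2
  have h5 : (1 : F) = -1 := hzz.symm.trans h4
  calc (2 : F) = 1 + 1 := by norm_num
    _ = 1 + -1 := by rw [← h5]
    _ = 0 := by ring

end Aux

theorem result {F : Type*} [Field F] [Fintype F] {p : ℕ} [Fact p.Prime] [CharP F p] {q : ℕ} (hq : Fintype.card F = q)
    (hodd : Odd q) (d m : ℕ) (hd : 4 ≤ d) (hm : Odd m) (hmd : m < d) (a b : F) (hab : ∀ x y : F, x ^ 2 + a * x * y + b * y ^ 2 = 0 → x = 0 ∧ y = 0)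
    (W₀ : Submodule F ((Fin (d - 1) ⊕ Fin (d - 1)) ⊕ Fin 2 → F)) (hW₀ : Module.finrank F ↥W₀ = m ∧ Cfsg.Geo.IsNondegenerateOn (QuadraticMap.polar (Cfsg.quadFormMinus (d - 1) F a b)) W₀)
    (r : ℕ) [Fact r.Prime]
    (hrΩ : r ∣ Nat.card {W : Submodule F ((Fin (d - 1) ⊕ Fin (d - 1)) ⊕ Fin 2 → F) // Module.finrank F ↥W = m ∧ Cfsg.Geo.IsNondegenerateOn (QuadraticMap.polar (Cfsg.quadFormMinus (d - 1) F a b)) W ∧ Cfsg.Geo.AreIsometricFor (Cfsg.quadFormMinus (d - 1) F a b) W W₀})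
    (i c : ℕ) (hi : i = orderOf (q : ZMod r)) (hc : c = if Even i then i else 2 * i) :
    (∀ x : GL ((Fin (d - 1) ⊕ Fin (d - 1)) ⊕ Fin 2) F, x ∈ Cfsg.Geo.omegaGL (Cfsg.quadFormMinus (d - 1) F a b) →
      (∃ z : F, ((x ^ r : GL ((Fin (d - 1) ⊕ Fin (d - 1)) ⊕ Fin 2) F) : Matrix ((Fin (d - 1) ⊕ Fin (d - 1)) ⊕ Fin 2) ((Fin (d - 1) ⊕ Fin (d - 1)) ⊕ Fin 2) F) = z • (1 : Matrix ((Fin (d - 1) ⊕ Fin (d - 1)) ⊕ Fin 2) ((Fin (d - 1) ⊕ Fin (d - 1)) ⊕ Fin 2) F)) →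
      (∀ z : F, (x : Matrix ((Fin (d - 1) ⊕ Fin (d - 1)) ⊕ Fin 2) ((Fin (d - 1) ⊕ Fin (d - 1)) ⊕ Fin 2) F) ≠ z • (1 : Matrix ((Fin (d - 1) ⊕ Fin (d - 1)) ⊕ Fin 2) ((Fin (d - 1) ⊕ Fin (d - 1)) ⊕ Fin 2) F)) →
      ∃ W : Submodule F ((Fin (d - 1) ⊕ Fin (d - 1)) ⊕ Fin 2 → F), (Module.finrank F ↥W = m ∧ Cfsg.Geo.IsNondegenerateOn (QuadraticMap.polar (Cfsg.quadFormMinus (d - 1) F a b)) W ∧ Cfsg.Geo.AreIsometricFor (Cfsg.quadFormMinus (d - 1) F a b) W W₀) ∧ W.map (Matrix.toLin' (x : Matrix ((Fin (d - 1) ⊕ Fin (d - 1)) ⊕ Fin 2) ((Fin (d - 1) ⊕ Fin (d - 1)) ⊕ Fin 2) F)) ≤ W) ↔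
    ((r = 2 ∧ (Even d ∨ q % 8 ≠ 7)) ∨
     (r ≠ p ∧ 2 < r ∧ Odd i ∧ ((2 * d) % c = 0 ∨ (c ≤ m ∧ 0 < m % c ∧ m % c < (2 * d) % c))) ∨
     (r ≠ p ∧ 2 < r ∧ Even i ∧ (((2 * d) % c = 0 ∧ Even ((2 * d) / i)) ∨ (0 < (2 * d) % c ∧ i ≤ m ∧ 0 < m % c ∧ m % c < (2 * d) % c)))) := by
  classical
  have hr : r.Prime := Fact.out
  have hp : p.Prime := Fact.out
  have hq2 : ¬ 2 ∣ Fintype.card F := by
    rw [hq]
    intro h
    exact (Nat.not_even_iff_odd.mpr hodd) (even_iff_two_dvd.mpr h)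
  have h2 : (2 : F) ≠ 0 := by
    intro h
    have h1 : ((2 : ℕ) : F) = 0 := by exact_mod_cast h
    rw [CharP.cast_eq_zero_iff F p] at h1
    have h3 : p = 2 := (Nat.prime_dvd_prime_iff_eq hp Nat.prime_two).mp h1
    apply hq2
    rw [← h3]
    exact p_dvd_card p
  have hp2 : p ≠ 2 := by
    intro h
    apply hq2
    rw [← h]
    exact p_dvd_card p
  have hqo : q % 2 = 1 := Nat.odd_iff.mp hodd
  obtain ⟨hS, hdiag, hglND, hglIso⟩ := Cfsg.Agent.Lib.Helper77.Pm.glue_form_minus (F := F) h2 (d - 1) a b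
  have hN := glue_nd_top_minus (F := F) h2 (d - 1) a b hab
  obtain ⟨hisoΩ, hgl⟩ := glue_isom_minus (F := F) h2 (d - 1) a b hab
  have htyp1 := Cfsg.Agent.Lib.Helper68.Pm.typ_top_minus (F := F) p h2 (d - 1) a b hab
  have hF := facts p hS h2 hN
  have hcardι : Fintype.card ((Fin (d - 1) ⊕ Fin (d - 1)) ⊕ Fin 2) = 2 * d := by
    simp only [Fintype.card_sum, Fintype.card_fin]
    omega
  have hfin : finrank F ((Fin (d - 1) ⊕ Fin (d - 1)) ⊕ Fin 2 → F) = 2 * d := by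
    rw [Module.finrank_fintype_fun_eq_card, hcardι]
  have hpos : 0 < finrank F ((Fin (d - 1) ⊕ Fin (d - 1)) ⊕ Fin 2 → F) := by rw [hfin]; omega
  have hW₀nd := (hglND W₀).mp hW₀.2
  have hmemiff : ∀ W : Submodule F ((Fin (d - 1) ⊕ Fin (d - 1)) ⊕ Fin 2 → F),
      (Module.finrank F ↥W = m ∧ Cfsg.Geo.IsNondegenerateOn (QuadraticMap.polar (Cfsg.quadFormMinus (d - 1) F a b)) W ∧ Cfsg.Geo.AreIsometricFor (Cfsg.quadFormMinus (d - 1) F a b) W W₀) ↔
      Mem (QuadraticMap.polarBilin (Cfsg.Agent.Lib.Helper51.QMinus (d - 1) F a b)) W₀ m W := by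
    intro W
    unfold Mem
    rw [hglND W, hglIso W W₀]
  have hcard : Nat.card {W : Submodule F ((Fin (d - 1) ⊕ Fin (d - 1)) ⊕ Fin 2 → F) // Module.finrank F ↥W = m ∧ Cfsg.Geo.IsNondegenerateOn (QuadraticMap.polar (Cfsg.quadFormMinus (d - 1) F a b)) W ∧ Cfsg.Geo.AreIsometricFor (Cfsg.quadFormMinus (d - 1) F a b) W W₀}
      = Nat.card {W : Submodule F ((Fin (d - 1) ⊕ Fin (d - 1)) ⊕ Fin 2 → F) //
          Mem (QuadraticMap.polarBilin (Cfsg.Agent.Lib.Helper51.QMinus (d - 1) F a b)) W₀ m W} :=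
    Nat.card_congr (Equiv.subtypeEquivRight hmemiff)
  rw [hcard] at hrΩ
  have hpowz : ∀ (x : GL ((Fin (d - 1) ⊕ Fin (d - 1)) ⊕ Fin 2) F) (k : ℕ) (z : F),
      ((x ^ k : GL ((Fin (d - 1) ⊕ Fin (d - 1)) ⊕ Fin 2) F) : Matrix ((Fin (d - 1) ⊕ Fin (d - 1)) ⊕ Fin 2) ((Fin (d - 1) ⊕ Fin (d - 1)) ⊕ Fin 2) F)
        = z • (1 : Matrix ((Fin (d - 1) ⊕ Fin (d - 1)) ⊕ Fin 2) ((Fin (d - 1) ⊕ Fin (d - 1)) ⊕ Fin 2) F) →
      (Matrix.toLin' (x : Matrix ((Fin (d - 1) ⊕ Fin (d - 1)) ⊕ Fin 2) ((Fin (d - 1) ⊕ Fin (d - 1)) ⊕ Fin 2) F)) ^ k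
        = z • (1 : Module.End F ((Fin (d - 1) ⊕ Fin (d - 1)) ⊕ Fin 2 → F)) := by
    intro x k z hx
    rw [← Matrix.toLin'_pow, ← Units.val_pow_eq_pow_val, hx, map_smul, Matrix.toLin'_one]
    rfl
  -- the spinor criterion for elements with square `-1`
  have hx2crit : ∀ x : GL ((Fin (d - 1) ⊕ Fin (d - 1)) ⊕ Fin 2) F,
      (∀ v, Cfsg.quadFormMinus (d - 1) F a b ((x : Matrix ((Fin (d - 1) ⊕ Fin (d - 1)) ⊕ Fin 2) ((Fin (d - 1) ⊕ Fin (d - 1)) ⊕ Fin 2) F) *ᵥ v)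
        = Cfsg.quadFormMinus (d - 1) F a b v) →
      (x : Matrix ((Fin (d - 1) ⊕ Fin (d - 1)) ⊕ Fin 2) ((Fin (d - 1) ⊕ Fin (d - 1)) ⊕ Fin 2) F) * (x : Matrix ((Fin (d - 1) ⊕ Fin (d - 1)) ⊕ Fin 2) ((Fin (d - 1) ⊕ Fin (d - 1)) ⊕ Fin 2) F)
        = -1 →
      (x ∈ Cfsg.Geo.omegaGL (Cfsg.quadFormMinus (d - 1) F a b) ↔ (Even d ∨ IsSquare (2 : F))) := by
    intro x hxQ hxx
    have hxQ' : ∀ v, Cfsg.Agent.Lib.Helper51.QMinus (d - 1) F a b
        ((x : Matrix ((Fin (d - 1) ⊕ Fin (d - 1)) ⊕ Fin 2) ((Fin (d - 1) ⊕ Fin (d - 1)) ⊕ Fin 2) F) *ᵥ v)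
        = Cfsg.Agent.Lib.Helper51.QMinus (d - 1) F a b v := by
      intro v
      have := hxQ v
      rw [← Cfsg.Agent.Lib.Helper51.coe_QMinus] at this
      exact this
    have hxmem : x ∈ Cfsg.isometryGroup F ⇑(Cfsg.Agent.Lib.Helper51.QMinus (d - 1) F a b) :=
      fun u v => hxQ' u
    have hT := isom_of_quad (d - 1) a b (x : Matrix ((Fin (d - 1) ⊕ Fin (d - 1)) ⊕ Fin 2) ((Fin (d - 1) ⊕ Fin (d - 1)) ⊕ Fin 2) F) hxQ
    have hTT := toLin_mul_self (d - 1) (x : Matrix ((Fin (d - 1) ⊕ Fin (d - 1)) ⊕ Fin 2) ((Fin (d - 1) ⊕ Fin (d - 1)) ⊕ Fin 2) F) hxx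
    obtain ⟨vs, s, hvs, hlen, hs, hprod, hxeq⟩ :=
      Cfsg.Agent.Lib.Helper79.Pi.exists_refl_decomp (Cfsg.Agent.Lib.Helper51.QMinus (d - 1) F a b) h2
        (Cfsg.Agent.Lib.Helper54.polarSep_minus (F := F) (m := d - 1) h2 a b hab) d hcardι
        (x : Matrix ((Fin (d - 1) ⊕ Fin (d - 1)) ⊕ Fin 2) ((Fin (d - 1) ⊕ Fin (d - 1)) ⊕ Fin 2) F) hxQ' hxx
        (fun v hv => Cfsg.Agent.Lib.Helper62.Pi.refl_pair (Cfsg.Agent.Lib.Helper51.QMinus (d - 1) F a b) h2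
          (x : Matrix ((Fin (d - 1) ⊕ Fin (d - 1)) ⊕ Fin 2) ((Fin (d - 1) ⊕ Fin (d - 1)) ⊕ Fin 2) F) hxQ' hxx v hv)
        (fun W hW hWx v hvW hv => Cfsg.Agent.Lib.Helper62.Pi.sq_neg_step hS h2 hN _ hT hTT W hW hWx v hvW hv
          (Cfsg.Agent.Lib.Helper43.Pi.plane_basic hS h2 _ hT hTT v hv))
    have hcrit := Cfsg.Agent.Lib.Helper10.Pi.mem_commutator_sq_neg_iff (Cfsg.Agent.Lib.Helper51.QMinus (d - 1) F a b) h2 d
      ⟨x, hxmem⟩ vs s hvs hlen hs hprod hxeq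
    rw [mem_omegaGL_minus_iff]
    constructor
    · rintro ⟨g, hg, hgx⟩
      have hgeq : g = ⟨x, hxmem⟩ := Subtype.ext hgx
      rw [hgeq] at hg
      exact hcrit.mp hg
    · intro h
      exact ⟨⟨x, hxmem⟩, hcrit.mpr h, rfl⟩
  by_cases hr2 : r = 2
  · -- involutions and elements with square `-1`
    constructor
    · intro hall
      by_contra hcon
      have hcase : Odd d ∧ q % 8 = 7 := by
        by_contra h
        apply hcon
        left
        refine ⟨hr2, ?_⟩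
        by_cases hde : Even d
        · exact Or.inl hde
        · right
          intro h7
          exact h ⟨Nat.not_even_iff_odd.mp hde, h7⟩
      obtain ⟨hdodd, hq7⟩ := hcase
      have hns1 : ¬ IsSquare (-1 : F) := by
        rw [FiniteField.isSquare_neg_one_iff, hq]
        omega
      have hsq2 : IsSquare (2 : F) := by
        rw [FiniteField.isSquare_two_iff, hq]
        omega
      have hde1 : Even (d - 1) := by
        obtain ⟨k, hk⟩ := hdodd
        exact ⟨k, by omega⟩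
      obtain ⟨x, hxQ, hxx⟩ := Cfsg.Agent.Lib.Helper85.Pm.exists_sq_neg_minus (F := F) h2 (d - 1) hde1 a b hab hns1
      have hxΩ := (hx2crit x hxQ hxx).mpr (Or.inr hsq2)
      have hxz : ((x ^ r : GL ((Fin (d - 1) ⊕ Fin (d - 1)) ⊕ Fin 2) F) : Matrix ((Fin (d - 1) ⊕ Fin (d - 1)) ⊕ Fin 2) ((Fin (d - 1) ⊕ Fin (d - 1)) ⊕ Fin 2) F)
          = (-1 : F) • (1 : Matrix ((Fin (d - 1) ⊕ Fin (d - 1)) ⊕ Fin 2) ((Fin (d - 1) ⊕ Fin (d - 1)) ⊕ Fin 2) F) := by
        rw [hr2, Units.val_pow_eq_pow_val, pow_two, hxx, neg_one_smul]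
      obtain ⟨W, hW, hWT⟩ := hall x hxΩ ⟨-1, hxz⟩
        (fun z => not_scalar_of_sq_neg h2 (d - 1) a b _ hxQ hxx z)
      have hWm := (hmemiff W).mp hW
      have hT := isom_of_quad (d - 1) a b (x : Matrix ((Fin (d - 1) ⊕ Fin (d - 1)) ⊕ Fin 2) ((Fin (d - 1) ⊕ Fin (d - 1)) ⊕ Fin 2) F) hxQ
      have hTT := toLin_mul_self (d - 1) (x : Matrix ((Fin (d - 1) ⊕ Fin (d - 1)) ⊕ Fin 2) ((Fin (d - 1) ⊕ Fin (d - 1)) ⊕ Fin 2) F) hxx
      have hev := Cfsg.Agent.Lib.Helper5.Pi.even_of_inv_sq_neg hS h2 _ hT hTT W hWm.2.1 hWT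
      rw [hWm.1] at hev
      exact (Nat.not_even_iff_odd.mpr hm) hev
    · rintro (⟨-, hcase⟩ | ⟨-, h, -⟩ | ⟨-, h, -⟩)
      · intro x hxΩ ⟨z, hz⟩ hns
        rw [hr2] at hz
        have hT := hisoΩ x hxΩ
        have hTz := hpowz x 2 z hz
        have hzz := Cfsg.Agent.Lib.Helper21.Pi.scalar_sq_one hN hpos _ hT 2 z hTz
        have hz1 : z = 1 ∨ z = -1 := by
          have h3 : (z - 1) * (z + 1) = 0 := by linear_combination hzz
          rcases mul_eq_zero.mp h3 with h | h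
          · left; linear_combination h
          · right; linear_combination h
        rcases hz1 with rfl | rfl
        · rw [one_smul] at hTz
          obtain ⟨W, hW, hWT⟩ := Cfsg.Agent.Lib.Helper85.Pi.invol_fix_iso hS h2 hN hq2 W₀ hW₀nd m hW₀.1
            (by rw [hfin]; omega) _ hT hTz
          exact ⟨W, (hmemiff W).mpr hW, hWT⟩
        · exfalso
          have hxx : (x : Matrix ((Fin (d - 1) ⊕ Fin (d - 1)) ⊕ Fin 2) ((Fin (d - 1) ⊕ Fin (d - 1)) ⊕ Fin 2) F) * (x : Matrix ((Fin (d - 1) ⊕ Fin (d - 1)) ⊕ Fin 2) ((Fin (d - 1) ⊕ Fin (d - 1)) ⊕ Fin 2) F) = -1 := by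
            rw [Units.val_pow_eq_pow_val, pow_two, neg_one_smul] at hz
            exact hz
          have hxQ := quad_of_mem_omega (d - 1) a b x hxΩ
          have hTT := toLin_mul_self (d - 1) (x : Matrix ((Fin (d - 1) ⊕ Fin (d - 1)) ⊕ Fin 2) ((Fin (d - 1) ⊕ Fin (d - 1)) ⊕ Fin 2) F) hxx
          have hty := Cfsg.Agent.Lib.Helper62.Pi.typ_of_sq_neg hS h2 hN hF _ hT hTT
            (fun v hv => by
              have hP := Cfsg.Agent.Lib.Helper43.Pi.plane_basic hS h2 _ hT hTT v hv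
              exact ⟨hP.1, hP.2.1, hP.2.2.1, Cfsg.Agent.Lib.Helper37.Pi.typ_plane hS h2 hN hF _ hT hTT v hv hP⟩)
            (fun W hW hWx v hvW hv => Cfsg.Agent.Lib.Helper62.Pi.sq_neg_step hS h2 hN _ hT hTT W hW hWx v hvW hv
              (Cfsg.Agent.Lib.Helper43.Pi.plane_basic hS h2 _ hT hTT v hv))
            (d - 1) ⊤ hN le_top (by rw [finrank_top, hfin]; omega)
          have heq := typ_unique hty htyp1
          have hdd : d - 1 + 1 = d := by omega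
          rw [hdd] at heq
          have hns1 : ¬ IsSquare (-1 : F) := by
            intro hsq
            rw [epsNeg_of_sq hsq, one_pow] at heq
            norm_num at heq
          rw [epsNeg_of_not_sq hns1] at heq
          have hdodd : Odd d := by
            by_contra hne
            rw [Nat.not_odd_iff_even] at hne
            rw [Even.neg_one_pow hne] at heq
            norm_num at heq
          have hcr := (hx2crit x hxQ hxx).mp hxΩ
          have hsq2 : IsSquare (2 : F) := hcr.resolve_left (Nat.not_even_iff_odd.mpr hdodd)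
          have h4 : Fintype.card F % 4 = 3 := by
            by_contra h4'
            exact hns1 (FiniteField.isSquare_neg_one_iff.mpr h4')
          have h8 := FiniteField.isSquare_two_iff.mp hsq2
          rw [hq] at h4 h8
          rcases hcase with hde | hq7
          · exact (Nat.not_even_iff_odd.mpr hdodd) hde
          · omega
      · omega
      · omega
  · by_cases hrp : r = p
    · -- `r = p`: a unipotent derangement
      constructor
      · intro hall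
        exfalso
        have key : ∃ x : GL ((Fin (d - 1) ⊕ Fin (d - 1)) ⊕ Fin 2) F,
            (∀ v, Cfsg.quadFormMinus (d - 1) F a b ((x : Matrix ((Fin (d - 1) ⊕ Fin (d - 1)) ⊕ Fin 2) ((Fin (d - 1) ⊕ Fin (d - 1)) ⊕ Fin 2) F) *ᵥ v)
              = Cfsg.quadFormMinus (d - 1) F a b v) ∧
            (∀ z : F, (x : Matrix ((Fin (d - 1) ⊕ Fin (d - 1)) ⊕ Fin 2) ((Fin (d - 1) ⊕ Fin (d - 1)) ⊕ Fin 2) F) ≠ z • (1 : Matrix ((Fin (d - 1) ⊕ Fin (d - 1)) ⊕ Fin 2) ((Fin (d - 1) ⊕ Fin (d - 1)) ⊕ Fin 2) F)) ∧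
            (Matrix.toLin' (x : Matrix ((Fin (d - 1) ⊕ Fin (d - 1)) ⊕ Fin 2) ((Fin (d - 1) ⊕ Fin (d - 1)) ⊕ Fin 2) F) - 1) ^ 3 = 0 ∧
            (∀ W : Submodule F ((Fin (d - 1) ⊕ Fin (d - 1)) ⊕ Fin 2 → F),
              Mem (QuadraticMap.polarBilin (Cfsg.Agent.Lib.Helper51.QMinus (d - 1) F a b)) W₀ m W →
              W.map (Matrix.toLin' (x : Matrix ((Fin (d - 1) ⊕ Fin (d - 1)) ⊕ Fin 2) ((Fin (d - 1) ⊕ Fin (d - 1)) ⊕ Fin 2) F)) ≤ W → False) := by
          rcases Nat.even_or_odd d with hde | hdo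
          · have hde1 : Odd (d - 1) := by
              obtain ⟨k, hk⟩ := hde
              exact ⟨k - 1, by omega⟩
            obtain ⟨c₁, hc₁, hD⟩ := no_member_D p hS h2 hN (by rw [hfin]; exact even_two_mul d)
              W₀ hW₀nd m hW₀.1 hm (by rw [hfin]; omega)
            obtain ⟨s, t, hst⟩ := Cfsg.Agent.Lib.Helper14.Pm.exists_rep_binary (F := F) h2 a b hab (c₁ / 2)
            have hst0 : s ≠ 0 ∨ t ≠ 0 := by
              by_contra h
              push Not at h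
              rw [h.1, h.2] at hst
              have h5 : c₁ / 2 = 0 := by rw [← hst]; ring
              rcases div_eq_zero_iff.mp h5 with h6 | h6
              · exact hc₁ h6
              · exact h2 h6
            obtain ⟨x, hxQ, hxns, hN3, hNu, hker, hrk2⟩ :=
              Cfsg.Agent.Lib.Helper43.Pm.exists_unip_minus_D (F := F) h2 (d - 1) hde1 a b hab s t hst0
            refine ⟨x, hxQ, hxns, hN3, ?_⟩
            intro W hW hWT
            have hT := isom_of_quad (d - 1) a b (x : Matrix ((Fin (d - 1) ⊕ Fin (d - 1)) ⊕ Fin 2) ((Fin (d - 1) ⊕ Fin (d - 1)) ⊕ Fin 2) F) hxQ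
            have hBu : QuadraticMap.polarBilin (Cfsg.Agent.Lib.Helper51.QMinus (d - 1) F a b)
                (Sum.elim (fun _ => 0) ![s, t]) (Sum.elim (fun _ => 0) ![s, t]) = c₁ := by
              rw [hdiag]
              have h7 : Cfsg.quadFormMinus (d - 1) F a b (Sum.elim (fun _ => 0) ![s, t])
                  = s ^ 2 + a * s * t + b * t ^ 2 := by
                simp [Cfsg.quadFormMinus]
              rw [h7, hst]
              field_simp
            exact hD _ hT hN3 _ hNu hBu hker hrk2 W hW hWT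
          · have hde1 : Even (d - 1) := by
              obtain ⟨k, hk⟩ := hdo
              exact ⟨k, by omega⟩
            have hm4 : m % 4 = 1 ∨ m % 4 = 3 := by
              obtain ⟨k, hk⟩ := hm
              omega
            rcases hm4 with h4 | h4
            · obtain ⟨x, hxQ, hxns, hN3, hker, hrk2⟩ :=
                Cfsg.Agent.Lib.Helper91.Pm.exists_unip_minus_C (F := F) h2 (d - 1) hde1 (by omega) a b hab
              refine ⟨x, hxQ, hxns, hN3, ?_⟩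
              intro W hW hWT
              have hT := isom_of_quad (d - 1) a b (x : Matrix ((Fin (d - 1) ⊕ Fin (d - 1)) ⊕ Fin 2) ((Fin (d - 1) ⊕ Fin (d - 1)) ⊕ Fin 2) F) hxQ
              have h3 := Cfsg.Agent.Lib.Helper87.Pi.unip_C hS h2 hN _ hT hN3 hker hrk2
                (fun N W W' hc hW hW' => Cfsg.Agent.Lib.Lead.Pi.finrank_range_of_compl N W W' hc hW hW')
                (fun N W hW => Cfsg.Agent.Lib.Lead.Pi.two_rank_le N W hW)
                (fun W hW hWT => Cfsg.Agent.Lib.Helper53.Pi.even_rank_unip hS h2 _ hT hN3 W hW hWT)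
                (fun N => Cfsg.Agent.Lib.Lead.Pi.finrank_ker_inf_range N) W hW.2.1 hWT
                (by rw [hW.1]; exact hm)
              rw [hW.1] at h3
              omega
            · obtain ⟨x, hxQ, hxns, hN2, Y, hY, hker⟩ :=
                Cfsg.Agent.Lib.Helper57.Pm.exists_unip_minus_B (F := F) h2 (d - 1) hde1 (by omega) a b
              have hN3 : (Matrix.toLin' (x : Matrix ((Fin (d - 1) ⊕ Fin (d - 1)) ⊕ Fin 2) ((Fin (d - 1) ⊕ Fin (d - 1)) ⊕ Fin 2) F) - 1) ^ 3 = 0 := by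
                rw [pow_succ, pow_two, hN2, zero_mul]
              refine ⟨x, hxQ, hxns, hN3, ?_⟩
              intro W hW hWT
              have hT := isom_of_quad (d - 1) a b (x : Matrix ((Fin (d - 1) ⊕ Fin (d - 1)) ⊕ Fin 2) ((Fin (d - 1) ⊕ Fin (d - 1)) ⊕ Fin 2) F) hxQ
              have h3 := Cfsg.Agent.Lib.Helper87.Pi.unip_B hS h2 hN _ hT hN2 Y hY hker
                (fun N W W' hc hW hW' => Cfsg.Agent.Lib.Lead.Pi.finrank_range_of_compl N W W' hc hW hW')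
                (fun N W hW => Cfsg.Agent.Lib.Lead.Pi.two_rank_le N W hW)
                (fun W hW hWT => Cfsg.Agent.Lib.Helper53.Pi.even_rank_unip hS h2 _ hT hN3 W hW hWT)
                W hW.2.1 hWT (by rw [hW.1]; exact hm)
              rw [hW.1] at h3
              omega
        obtain ⟨x, hxQ, hxns, hN3, hno⟩ := key
        have hTp : (Matrix.toLin' (x : Matrix ((Fin (d - 1) ⊕ Fin (d - 1)) ⊕ Fin 2) ((Fin (d - 1) ⊕ Fin (d - 1)) ⊕ Fin 2) F)) ^ p = 1 := by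
          have h5 := Cfsg.Agent.Lib.Helper9.He.one_add_pow_prime p hp2 _ hN3
          rwa [add_sub_cancel] at h5
        have hxp : x ^ p = 1 := by
          apply Units.ext
          rw [Units.val_pow_eq_pow_val, Units.val_one]
          apply Matrix.toLin'.injective
          rw [Matrix.toLin'_pow, hTp, Matrix.toLin'_one]
          rfl
        have hxΩ := mem_omegaGL_minus_of_odd h2 (d - 1) a b hab x hxQ p (hp.odd_of_ne_two hp2) hxp
        have hxz : ((x ^ r : GL ((Fin (d - 1) ⊕ Fin (d - 1)) ⊕ Fin 2) F) : Matrix ((Fin (d - 1) ⊕ Fin (d - 1)) ⊕ Fin 2) ((Fin (d - 1) ⊕ Fin (d - 1)) ⊕ Fin 2) F) = (1 : F) • (1 : Matrix ((Fin (d - 1) ⊕ Fin (d - 1)) ⊕ Fin 2) ((Fin (d - 1) ⊕ Fin (d - 1)) ⊕ Fin 2) F) := by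
          rw [hrp, hxp, Units.val_one, one_smul]
        obtain ⟨W, hW, hWT⟩ := hall x hxΩ ⟨1, hxz⟩ hxns
        exact hno W ((hmemiff W).mp hW) hWT
      · rintro (⟨h, -⟩ | ⟨h, -⟩ | ⟨h, -⟩)
        · exact absurd h hr2
        · exact absurd hrp h
        · exact absurd hrp h
    · -- odd `r ≠ p`
      obtain ⟨hrq, hr0, hi1⟩ := Cfsg.Agent.Lib.Helper96.BG.facts (F := F) p r hrp
      have hi1' : 1 ≤ i := by rw [hi, ← hq]; exact hi1
      have hblk : blk (Fintype.card F) r = c := by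
        unfold blk
        rw [hq, ← hi, hc]
      have hr2' : 2 < r := lt_of_le_of_ne hr.two_le (Ne.symm hr2)
      have hrodd : Odd r := hr.odd_of_ne_two hr2
      have hmain := main_odd_iso p hS h2 hN (by rw [hfin]; exact even_two_mul d) W₀ hW₀nd m
        hW₀.1 hm (by rw [hfin]; omega) r hr2 hrp hrΩ
      rw [hblk, hfin, hq, ← hi] at hmain
      have hTy : Typ (QuadraticMap.polarBilin (Cfsg.Agent.Lib.Helper51.QMinus (d - 1) F a b)) ⊤
          (if Even i then (-1) ^ (2 * d / c) else 1) ↔ (Even i ∧ Odd (2 * d / c)) := by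
        constructor
        · intro h
          by_cases hev : Even i
          · rw [if_pos hev] at h
            have h3 := typ_unique h htyp1
            refine ⟨hev, ?_⟩
            by_contra hne
            rw [Nat.not_odd_iff_even] at hne
            rw [Even.neg_one_pow hne] at h3
            norm_num at h3
          · rw [if_neg hev] at h
            have h3 := typ_unique h htyp1
            norm_num at h3
        · rintro ⟨hev, hoddk⟩
          rw [if_pos hev, Odd.neg_one_pow hoddk]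
          exact htyp1
      have hcrit := arith_minus i c m d hc hi1' hm _ hTy
      constructor
      · intro hall
        right
        have habs := hmain.mp (fun T hT hTr hT1 => by
          obtain ⟨x, hx, hxQ⟩ := hgl T hT
          have hxr : x ^ r = 1 := by
            apply Units.ext
            rw [Units.val_pow_eq_pow_val, Units.val_one]
            apply Matrix.toLin'.injective
            rw [Matrix.toLin'_pow, hx, hTr, Matrix.toLin'_one]
            rfl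
          have hxΩ := mem_omegaGL_minus_of_odd h2 (d - 1) a b hab x hxQ r hrodd hxr
          have hxz : ((x ^ r : GL ((Fin (d - 1) ⊕ Fin (d - 1)) ⊕ Fin 2) F) : Matrix ((Fin (d - 1) ⊕ Fin (d - 1)) ⊕ Fin 2) ((Fin (d - 1) ⊕ Fin (d - 1)) ⊕ Fin 2) F)
              = (1 : F) • (1 : Matrix ((Fin (d - 1) ⊕ Fin (d - 1)) ⊕ Fin 2) ((Fin (d - 1) ⊕ Fin (d - 1)) ⊕ Fin 2) F) := by
            rw [hxr, Units.val_one, one_smul]
          have hxns : ∀ z : F, (x : Matrix ((Fin (d - 1) ⊕ Fin (d - 1)) ⊕ Fin 2) ((Fin (d - 1) ⊕ Fin (d - 1)) ⊕ Fin 2) F)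
              ≠ z • (1 : Matrix ((Fin (d - 1) ⊕ Fin (d - 1)) ⊕ Fin 2) ((Fin (d - 1) ⊕ Fin (d - 1)) ⊕ Fin 2) F) := by
            intro z hxz'
            have hTz : T = z • (1 : Module.End F ((Fin (d - 1) ⊕ Fin (d - 1)) ⊕ Fin 2 → F)) := by
              rw [← hx, hxz', map_smul, Matrix.toLin'_one]
              rfl
            have hzz := Cfsg.Agent.Lib.Helper21.Pi.scalar_sq_one hN hpos T hT 1 z (by rw [pow_one]; exact hTz)
            have hzr : z ^ r = 1 := by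
              have h1 : ((x ^ r : GL ((Fin (d - 1) ⊕ Fin (d - 1)) ⊕ Fin 2) F) : Matrix ((Fin (d - 1) ⊕ Fin (d - 1)) ⊕ Fin 2) ((Fin (d - 1) ⊕ Fin (d - 1)) ⊕ Fin 2) F)
                  = 1 := by rw [hxr, Units.val_one]
              rw [Units.val_pow_eq_pow_val, hxz', smul_pow, one_pow] at h1
              have h3 := congrFun (congrFun h1 (Sum.inr 0)) (Sum.inr 0)
              simpa using h3
            have hz1 : z = 1 := by
              obtain ⟨k, hk⟩ := hrodd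
              rw [hk, pow_succ, pow_mul, pow_two, hzz, one_pow, one_mul] at hzr
              exact hzr
            apply hT1
            rw [hTz, hz1, one_smul]
          obtain ⟨W, hW, hWx⟩ := hall x hxΩ ⟨1, hxz⟩ hxns
          exact ⟨W, (hmemiff W).mp hW, by rw [← hx]; exact hWx⟩)
        rcases hcrit.mp habs with h | h
        · exact Or.inl ⟨hrp, hr2', h⟩
        · exact Or.inr ⟨hrp, hr2', h⟩
      · intro hrhs x hxΩ ⟨z, hz⟩ hns
        have habs := hcrit.mpr (by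
          rcases hrhs with ⟨h, -⟩ | ⟨-, -, h⟩ | ⟨-, -, h⟩
          · exact absurd h hr2
          · exact Or.inl h
          · exact Or.inr h)
        have hT := hisoΩ x hxΩ
        have hTz := hpowz x r z hz
        have hzz := Cfsg.Agent.Lib.Helper21.Pi.scalar_sq_one hN hpos _ hT r z hTz
        have hTns : ∀ c' : F, Matrix.toLin' (x : Matrix ((Fin (d - 1) ⊕ Fin (d - 1)) ⊕ Fin 2) ((Fin (d - 1) ⊕ Fin (d - 1)) ⊕ Fin 2) F)
            ≠ c' • (1 : Module.End F ((Fin (d - 1) ⊕ Fin (d - 1)) ⊕ Fin 2 → F)) := by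
          intro c' hc'
          apply hns c'
          apply Matrix.toLin'.injective
          rw [hc', map_smul, Matrix.toLin'_one]
          rfl
        obtain ⟨T', hT', hT'r, hT'1, hinv⟩ :=
          Cfsg.Agent.Lib.Helper21.Pi.exists_normalized _ hT r hrodd z hTz hzz hTns
        obtain ⟨W, hW, hWT⟩ := hmain.mpr habs T' hT' hT'r hT'1
        exact ⟨W, (hmemiff W).mpr hW, hinv W hWT⟩

end Cfsg.Agent.S5991
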