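import Cfsg.Statements.S5992
import Cfsg.Agent.Lib.Helper96.HyMain
import Cfsg.Agent.Lib.Helper47.HyGLUEA
import Cfsg.Agent.Lib.Helper96.HyGLUEB
import Cfsg.Agent.Lib.Helper6.HyOMEGA

set_option autoImplicit false
open scoped MatrixGroups
open Cfsg

namespace Cfsg.Agent.S5992

open Cfsg.Agent.Lib.Helper96.Sp Cfsg.Agent.Lib.Helper96.BG Cfsg.Agent.Lib.Helper96.Hy Module

theorem arith (i c m n : ℕ) (hc : c = if Even i then i else 2 * i) (hi : 1 ≤ i) (hn : Odd n) :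
    ((Odd i ∧ c ≤ m ∧ (m % c = 0 ∨ (0 < m % c ∧ m % c < n % c))) ∨
     (Even i ∧ i ≤ m ∧ m % c < n % c ∧ (0 < m % c ∨ Even (m / i)))) ↔
    (c ≤ m ∧ m % c < n % c ∧ (Even i → m % c = 0 → Even (m / c))) := by
  rcases Nat.even_or_odd i with he | ho
  · rw [if_pos he] at hc
    subst hc
    constructor
    · rintro (⟨ho, -⟩ | ⟨-, h1, h2, h3⟩)
      · exact absurd he (Nat.not_even_iff_odd.mpr ho)
      · refine ⟨h1, h2, fun _ h0 => ?_⟩
        rcases h3 with h3 | h3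
        · omega
        · exact h3
    · rintro ⟨h1, h2, h3⟩
      right
      refine ⟨he, h1, h2, ?_⟩
      by_cases h0 : c % c = 0 ∧ m % c = 0
      · exact Or.inr (h3 he h0.2)
      · by_cases h00 : m % c = 0
        · exact Or.inr (h3 he h00)
        · exact Or.inl (Nat.pos_of_ne_zero h00)
  · have hne : ¬ Even i := Nat.not_even_iff_odd.mpr ho
    rw [if_neg hne] at hc
    have hpos : 0 < n % c := by
      apply Nat.pos_of_ne_zero
      intro h0
      have h1 : c ∣ n := Nat.dvd_of_mod_eq_zero h0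
      have h2 : 2 ∣ n := dvd_trans ⟨i, hc⟩ h1
      exact (Nat.not_even_iff_odd.mpr hn) (even_iff_two_dvd.mpr h2)
    constructor
    · rintro (⟨-, h1, h2⟩ | ⟨he, -⟩)
      · refine ⟨h1, ?_, fun he => absurd he hne⟩
        rcases h2 with h2 | h2
        · omega
        · exact h2.2
      · exact absurd he hne
    · rintro ⟨h1, h2, -⟩
      left
      refine ⟨ho, h1, ?_⟩
      by_cases h0 : m % c = 0
      · exact Or.inl h0
      · exact Or.inr ⟨Nat.pos_of_ne_zero h0, h2⟩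

theorem result {F : Type*} [Field F] [Fintype F] {p : ℕ} [Fact p.Prime] [CharP F p] {q : ℕ} (hq : Fintype.card F = q) (hqodd : Odd q)
    (d m : ℕ) (hd : 3 ≤ d) (hm : 2 ≤ m) (hme : Even m) (hmn : m ≤ 2 * d)
    (r : ℕ) [Fact r.Prime] (hrp : r ≠ p)
    (hrΩ : r ∣ Nat.card {W : Submodule F (Unit ⊕ (Fin d ⊕ Fin d) → F) // Module.finrank F ↥W = m ∧ Cfsg.Geo.IsNondegenerateOn (QuadraticMap.polar (Cfsg.quadFormOdd d F)) W ∧ Cfsg.Geo.IsPlusTypeOn (Cfsg.quadFormOdd d F) W})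
    (i c : ℕ) (hi : i = orderOf (q : ZMod r)) (hc : c = if Even i then i else 2 * i) :
    (∀ x : GL (Unit ⊕ (Fin d ⊕ Fin d)) F, x ∈ Cfsg.Geo.omegaGL (Cfsg.quadFormOdd d F) → orderOf x = r →
      ∃ W : Submodule F (Unit ⊕ (Fin d ⊕ Fin d) → F), (Module.finrank F ↥W = m ∧ Cfsg.Geo.IsNondegenerateOn (QuadraticMap.polar (Cfsg.quadFormOdd d F)) W ∧ Cfsg.Geo.IsPlusTypeOn (Cfsg.quadFormOdd d F) W) ∧ W.map (Matrix.toLin' (x : Matrix (Unit ⊕ (Fin d ⊕ Fin d)) (Unit ⊕ (Fin d ⊕ Fin d)) F)) ≤ W) ↔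
    (r = 2 ∨
     (2 < r ∧ Odd i ∧ c ≤ m ∧ (m % c = 0 ∨ (0 < m % c ∧ m % c < (2 * d + 1) % c))) ∨
     (2 < r ∧ Even i ∧ i ≤ m ∧ m % c < (2 * d + 1) % c ∧ (0 < m % c ∨ Even (m / i)))) := by
  classical
  have hr : r.Prime := Fact.out
  have hp : p.Prime := Fact.out
  have hq2 : ¬ 2 ∣ Fintype.card F := by
    rw [hq]
    intro h
    exact (Nat.not_even_iff_odd.mpr hqodd) (even_iff_two_dvd.mpr h)
  have h2 : (2 : F) ≠ 0 := by
    intro h
    have h1 : ((2 : ℕ) : F) = 0 := by exact_mod_cast h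
    rw [CharP.cast_eq_zero_iff F p] at h1
    have h3 : p = 2 := (Nat.prime_dvd_prime_iff_eq hp Nat.prime_two).mp h1
    apply hq2
    rw [← h3]
    exact p_dvd_card p
  obtain ⟨hS0, hN, hdiag, hglue⟩ := Cfsg.Agent.Lib.Helper47.Hy.glue_form (F := F) h2 d
  have hS : LinearMap.BilinForm.IsSymm
      (QuadraticMap.polarBilin (Cfsg.Agent.Lib.Helper51.QOdd d F)) := ⟨fun x y => hS0.eq x y⟩
  obtain ⟨hisoΩ, hgl⟩ := Cfsg.Agent.Lib.Helper96.Hy.glue_isom (F := F) h2 d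
  have hfin : finrank F (Unit ⊕ (Fin d ⊕ Fin d) → F) = 2 * d + 1 := by
    rw [Module.finrank_fintype_fun_eq_card]
    simp only [Fintype.card_sum, Fintype.card_unit, Fintype.card_fin]
    omega
  have hodd : Odd (finrank F (Unit ⊕ (Fin d ⊕ Fin d) → F)) := by
    rw [hfin]; exact ⟨d, rfl⟩
  have hmn' : m + 1 ≤ finrank F (Unit ⊕ (Fin d ⊕ Fin d) → F) := by rw [hfin]; omega
  have hblk : blk (Fintype.card F) r = c := by
    unfold blk
    rw [hq, ← hi, hc]
  obtain ⟨hrq, hr0, hi1⟩ := Cfsg.Agent.Lib.Helper96.BG.facts (F := F) p r hrp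
  have hi1' : 1 ≤ i := by rw [hi, ← hq]; exact hi1
  have hcard : Nat.card {W : Submodule F (Unit ⊕ (Fin d ⊕ Fin d) → F) // Module.finrank F ↥W = m ∧ Cfsg.Geo.IsNondegenerateOn (QuadraticMap.polar (Cfsg.quadFormOdd d F)) W ∧ Cfsg.Geo.IsPlusTypeOn (Cfsg.quadFormOdd d F) W}
      = Nat.card {W : Submodule F (Unit ⊕ (Fin d ⊕ Fin d) → F) // finrank F W = m ∧
          Hyp (QuadraticMap.polarBilin (Cfsg.Agent.Lib.Helper51.QOdd d F)) W} :=
    Nat.card_congr (Equiv.subtypeEquivRight (fun W => by rw [hglue W]))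
  rw [hcard] at hrΩ
  have hpow : ∀ (x : GL (Unit ⊕ (Fin d ⊕ Fin d)) F) (k : ℕ), x ^ k = 1 →
      (Matrix.toLin' (x : Matrix (Unit ⊕ (Fin d ⊕ Fin d)) (Unit ⊕ (Fin d ⊕ Fin d)) F)) ^ k
        = 1 := by
    intro x k hx
    rw [← Matrix.toLin'_pow, ← Units.val_pow_eq_pow_val, hx, Units.val_one, Matrix.toLin'_one]
    rfl
  have hone : ∀ (x : GL (Unit ⊕ (Fin d ⊕ Fin d)) F),
      Matrix.toLin' (x : Matrix (Unit ⊕ (Fin d ⊕ Fin d)) (Unit ⊕ (Fin d ⊕ Fin d)) F) = 1 →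
      x = 1 := by
    intro x hx
    apply Units.ext
    rw [Units.val_one]
    apply Matrix.toLin'.injective
    rw [hx, Matrix.toLin'_one]
    rfl
  have hcrit : r ≠ 2 →
      ((∀ T : Module.End F (Unit ⊕ (Fin d ⊕ Fin d) → F),
          Isom (QuadraticMap.polarBilin (Cfsg.Agent.Lib.Helper51.QOdd d F)) T → T ^ r = 1 →
          T ≠ 1 → ∃ W : Submodule F (Unit ⊕ (Fin d ⊕ Fin d) → F), finrank F W = m ∧
            Hyp (QuadraticMap.polarBilin (Cfsg.Agent.Lib.Helper51.QOdd d F)) W ∧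
            W.map T ≤ W) ↔
        (c ≤ m ∧ m % c < (2 * d + 1) % c ∧ (Even i → m % c = 0 → Even (m / c)))) := by
    intro hr2
    have h := main_odd p hS h2 hN hodd m hme hm hmn' r hr2 hrp hrΩ
    rw [hblk, hfin, hq, ← hi] at h
    exact h
  have hodd_n : Odd (2 * d + 1) := ⟨d, rfl⟩
  constructor
  · intro hall
    by_cases hr2 : r = 2
    · exact Or.inl hr2
    · right
      have hr2' : 2 < r := lt_of_le_of_ne hr.two_le (Ne.symm hr2)
      have hcr := (hcrit hr2).mp (fun T hT hTr hT1 => by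
        obtain ⟨x, hx, hxQ⟩ := hgl T hT
        have hxr : x ^ r = 1 := by
          apply Units.ext
          rw [Units.val_pow_eq_pow_val, Units.val_one]
          apply Matrix.toLin'.injective
          rw [Matrix.toLin'_pow, hx, hTr, Matrix.toLin'_one]
          rfl
        have hx1 : x ≠ 1 := by
          intro h1
          apply hT1
          rw [← hx, h1, Units.val_one, Matrix.toLin'_one]
          rfl
        have hxΩ := Cfsg.Agent.Lib.Helper6.Hy.mem_omegaGL_of_odd h2 d x hxQ r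
          (hr.odd_of_ne_two hr2) hxr
        obtain ⟨W, hW, hWx⟩ := hall x hxΩ (orderOf_eq_prime hxr hx1)
        exact ⟨W, hW.1, (hglue W).mp hW.2, by rw [← hx]; exact hWx⟩)
      rcases (arith i c m (2 * d + 1) hc hi1' hodd_n).mpr hcr with h | h
      · exact Or.inl ⟨hr2', h⟩
      · exact Or.inr ⟨hr2', h⟩
  · intro hrhs x hxΩ hord
    have hT := hisoΩ x hxΩ
    have hxr : x ^ r = 1 := by rw [← hord]; exact pow_orderOf_eq_one x
    have hTr := hpow x r hxr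
    by_cases hr2 : r = 2
    · subst hr2
      obtain ⟨W, hW1, hW2, hW3⟩ := main_two p hS h2 hN hq2 hodd m hme hm hmn' _ hT hTr
      exact ⟨W, ⟨hW1, (hglue W).mpr hW2⟩, hW3⟩
    · have hcr : c ≤ m ∧ m % c < (2 * d + 1) % c ∧ (Even i → m % c = 0 → Even (m / c)) := by
        apply (arith i c m (2 * d + 1) hc hi1' hodd_n).mp
        rcases hrhs with h | ⟨-, h⟩ | ⟨-, h⟩
        · exact absurd h hr2
        · exact Or.inl h
        · exact Or.inr h
      have hT1 : Matrix.toLin' (x : Matrix (Unit ⊕ (Fin d ⊕ Fin d)) (Unit ⊕ (Fin d ⊕ Fin d)) F)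
          ≠ 1 := by
        intro h1
        have hx1 := hone x h1
        rw [hx1, orderOf_one] at hord
        exact hr.one_lt.ne hord
      obtain ⟨W, hW1, hW2, hW3⟩ := (hcrit hr2).mpr hcr _ hT hTr hT1
      exact ⟨W, ⟨hW1, (hglue W).mpr hW2⟩, hW3⟩

end Cfsg.Agent.S5992
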