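import Cfsg.Statements.S5993
import Cfsg.Agent.Lib.Helper96.HeMain
import Cfsg.Agent.Lib.Helper47.HyGLUEA
import Cfsg.Agent.Lib.Helper96.HyGLUEB
import Cfsg.Agent.Lib.Helper6.HyOMEGA
import Cfsg.Agent.Lib.Helper23.HeUNIPODD
import Cfsg.Agent.Lib.Helper34.HeUNIPHYP
import Cfsg.Agent.Lib.Helper80.HeUNIPEVEN
import Cfsg.Agent.Lib.Helper9.HeUNIPPOW

set_option autoImplicit false
open scoped MatrixGroups
open Cfsg

namespace Cfsg.Agent.S5993

open Cfsg.Agent.Lib.Helper96.Sp Cfsg.Agent.Lib.Helper96.BG Cfsg.Agent.Lib.Helper96.Hy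
  Cfsg.Agent.Lib.Helper96.He Module

theorem arithE (i c m n : ℕ) (hc : c = if Even i then i else 2 * i) :
    ((Odd i ∧ c ≤ m ∧ 0 < m % c ∧ m % c < n % c) ∨
     (Even i ∧ i ≤ m ∧ m % c < n % c ∧ (0 < m % c ∨ Odd (m / i)))) ↔
    (c ≤ m ∧ m % c < n % c ∧ (m % c = 0 → Even i ∧ Odd (m / c))) := by
  rcases Nat.even_or_odd i with he | ho
  · rw [if_pos he] at hc
    subst hc
    constructor
    · rintro (⟨ho, -⟩ | ⟨-, h1, h2, h3⟩)
      · exact absurd he (Nat.not_even_iff_odd.mpr ho)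
      · refine ⟨h1, h2, fun h0 => ⟨he, ?_⟩⟩
        rcases h3 with h3 | h3
        · omega
        · exact h3
    · rintro ⟨h1, h2, h3⟩
      right
      refine ⟨he, h1, h2, ?_⟩
      by_cases h00 : m % c = 0
      · exact Or.inr (h3 h00).2
      · exact Or.inl (Nat.pos_of_ne_zero h00)
  · have hne : ¬ Even i := Nat.not_even_iff_odd.mpr ho
    rw [if_neg hne] at hc
    constructor
    · rintro (⟨-, h1, h2, h3⟩ | ⟨he, -⟩)
      · exact ⟨h1, h3, fun h0 => by omega⟩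
      · exact absurd he hne
    · rintro ⟨h1, h2, h3⟩
      left
      refine ⟨ho, h1, ?_, h2⟩
      apply Nat.pos_of_ne_zero
      intro h0
      exact hne (h3 h0).1

theorem glue_nd {F : Type*} [Field F] (d : ℕ) (W : Submodule F (Unit ⊕ (Fin d ⊕ Fin d) → F)) :
    Cfsg.Geo.IsNondegenerateOn (QuadraticMap.polar (Cfsg.quadFormOdd d F)) W ↔
      ND (QuadraticMap.polarBilin (Cfsg.Agent.Lib.Helper51.QOdd d F)) W := by
  have hcoe := Cfsg.Agent.Lib.Helper51.coe_QOdd d F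
  have hB : ∀ u v, QuadraticMap.polarBilin (Cfsg.Agent.Lib.Helper51.QOdd d F) u v
      = QuadraticMap.polar (Cfsg.quadFormOdd d F) u v := by
    intro u v
    rw [QuadraticMap.polarBilin_apply_apply, hcoe]
  constructor
  · intro h u hu huv
    by_contra hne
    obtain ⟨-, x, hx, hx2⟩ := h u hu hne
    apply hx2
    rw [← hB]
    exact huv x hx
  · intro h w hw hne
    have h1 : ∃ x ∈ W, QuadraticMap.polar (Cfsg.quadFormOdd d F) w x ≠ 0 := by
      by_contra hcon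
      push Not at hcon
      apply hne
      apply h w hw
      intro v hv
      rw [hB]
      exact hcon v hv
    obtain ⟨x, hx, hx2⟩ := h1
    refine ⟨⟨x, hx, ?_⟩, ⟨x, hx, hx2⟩⟩
    rw [QuadraticMap.polar_comm]
    exact hx2

theorem result {F : Type*} [Field F] [Fintype F] {p : ℕ} [Fact p.Prime] [CharP F p] {q : ℕ} (hq : Fintype.card F = q) (hqodd : Odd q)
    (d m : ℕ) (hd : 3 ≤ d) (hm : 2 ≤ m) (hme : Even m) (hmn : m ≤ 2 * d)
    (r : ℕ) [Fact r.Prime]
    (hrΩ : r ∣ Nat.card {W : Submodule F (Unit ⊕ (Fin d ⊕ Fin d) → F) // Module.finrank F ↥W = m ∧ Cfsg.Geo.IsNondegenerateOn (QuadraticMap.polar (Cfsg.quadFormOdd d F)) W ∧ ¬ Cfsg.Geo.IsPlusTypeOn (Cfsg.quadFormOdd d F) W})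
    (i c : ℕ) (hi : i = orderOf (q : ZMod r)) (hc : c = if Even i then i else 2 * i) :
    (∀ x : GL (Unit ⊕ (Fin d ⊕ Fin d)) F, x ∈ Cfsg.Geo.omegaGL (Cfsg.quadFormOdd d F) → orderOf x = r →
      ∃ W : Submodule F (Unit ⊕ (Fin d ⊕ Fin d) → F), (Module.finrank F ↥W = m ∧ Cfsg.Geo.IsNondegenerateOn (QuadraticMap.polar (Cfsg.quadFormOdd d F)) W ∧ ¬ Cfsg.Geo.IsPlusTypeOn (Cfsg.quadFormOdd d F) W) ∧ W.map (Matrix.toLin' (x : Matrix (Unit ⊕ (Fin d ⊕ Fin d)) (Unit ⊕ (Fin d ⊕ Fin d)) F)) ≤ W) ↔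
    (r = 2 ∨
     (r ≠ p ∧ 2 < r ∧ Odd i ∧ c ≤ m ∧ 0 < m % c ∧ m % c < (2 * d + 1) % c) ∨
     (r ≠ p ∧ 2 < r ∧ Even i ∧ i ≤ m ∧ m % c < (2 * d + 1) % c ∧ (0 < m % c ∨ Odd (m / i)))) := by
  classical
  have hr : r.Prime := Fact.out
  have hp : p.Prime := Fact.out
  have hq2 : ¬ 2 ∣ Fintype.card F := by
    rw [hq]
    intro h
    exact (Nat.not_even_iff_odd.mpr hqodd) (even_iff_two_dvd.mpr h)
  have hp2 : p ≠ 2 := by
    intro h3
    apply hq2
    rw [← h3]
    exact p_dvd_card p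
  have h2 : (2 : F) ≠ 0 := by
    intro h
    have h1 : ((2 : ℕ) : F) = 0 := by exact_mod_cast h
    rw [CharP.cast_eq_zero_iff F p] at h1
    exact hp2 ((Nat.prime_dvd_prime_iff_eq hp Nat.prime_two).mp h1)
  obtain ⟨hS0, hN, hdiag, hglue⟩ := Cfsg.Agent.Lib.Helper47.Hy.glue_form (F := F) h2 d
  have hS : LinearMap.BilinForm.IsSymm
      (QuadraticMap.polarBilin (Cfsg.Agent.Lib.Helper51.QOdd d F)) := ⟨fun x y => hS0.eq x y⟩
  obtain ⟨hisoΩ, hgl⟩ := Cfsg.Agent.Lib.Helper96.Hy.glue_isom (F := F) h2 d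
  have hfin : finrank F (Unit ⊕ (Fin d ⊕ Fin d) → F) = 2 * d + 1 := by
    rw [Module.finrank_fintype_fun_eq_card]
    simp only [Fintype.card_sum, Fintype.card_unit, Fintype.card_fin]
    omega
  have hodd : Odd (finrank F (Unit ⊕ (Fin d ⊕ Fin d) → F)) := by
    rw [hfin]; exact ⟨d, rfl⟩
  have hmn' : m + 1 ≤ finrank F (Unit ⊕ (Fin d ⊕ Fin d) → F) := by rw [hfin]; omega
  have hF := facts p hS h2 hN
  -- elliptic spaces in both languages
  have hell : ∀ W : Submodule F (Unit ⊕ (Fin d ⊕ Fin d) → F),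
      (Module.finrank F ↥W = m ∧ Cfsg.Geo.IsNondegenerateOn (QuadraticMap.polar (Cfsg.quadFormOdd d F)) W ∧ ¬ Cfsg.Geo.IsPlusTypeOn (Cfsg.quadFormOdd d F) W) ↔
      (finrank F W = m ∧ ND (QuadraticMap.polarBilin (Cfsg.Agent.Lib.Helper51.QOdd d F)) W ∧
        Typ (QuadraticMap.polarBilin (Cfsg.Agent.Lib.Helper51.QOdd d F)) W (-1)) := by
    intro W
    constructor
    · rintro ⟨h1, h3, h4⟩
      obtain ⟨k, hk⟩ : ∃ k, finrank F W = 2 * k + 2 := by
        obtain ⟨w, hw⟩ := hme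
        exact ⟨w - 1, by omega⟩
      have h5 := (ell_iff hF W k hk).mp ⟨(glue_nd d W).mp h3, fun hh =>
        h4 ((hglue W).mpr hh).2⟩
      exact ⟨h1, h5⟩
    · rintro ⟨h1, h3, h4⟩
      obtain ⟨k, hk⟩ : ∃ k, finrank F W = 2 * k + 2 := by
        obtain ⟨w, hw⟩ := hme
        exact ⟨w - 1, by omega⟩
      have h5 := (ell_iff hF W k hk).mpr ⟨h3, h4⟩
      exact ⟨h1, (glue_nd d W).mpr h3, fun hpl => h5.2 ((hglue W).mp ⟨(glue_nd d W).mpr h3, hpl⟩)⟩
  have hcard : Nat.card {W : Submodule F (Unit ⊕ (Fin d ⊕ Fin d) → F) // Module.finrank F ↥W = m ∧ Cfsg.Geo.IsNondegenerateOn (QuadraticMap.polar (Cfsg.quadFormOdd d F)) W ∧ ¬ Cfsg.Geo.IsPlusTypeOn (Cfsg.quadFormOdd d F) W}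
      = Nat.card {W : Submodule F (Unit ⊕ (Fin d ⊕ Fin d) → F) // finrank F W = m ∧
          ND (QuadraticMap.polarBilin (Cfsg.Agent.Lib.Helper51.QOdd d F)) W ∧
          Typ (QuadraticMap.polarBilin (Cfsg.Agent.Lib.Helper51.QOdd d F)) W (-1)} :=
    Nat.card_congr (Equiv.subtypeEquivRight hell)
  rw [hcard] at hrΩ
  have hpow : ∀ (x : GL (Unit ⊕ (Fin d ⊕ Fin d)) F) (k : ℕ), x ^ k = 1 →
      (Matrix.toLin' (x : Matrix (Unit ⊕ (Fin d ⊕ Fin d)) (Unit ⊕ (Fin d ⊕ Fin d)) F)) ^ k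
        = 1 := by
    intro x k hx
    rw [← Matrix.toLin'_pow, ← Units.val_pow_eq_pow_val, hx, Units.val_one, Matrix.toLin'_one]
    rfl
  have hone : ∀ (x : GL (Unit ⊕ (Fin d ⊕ Fin d)) F),
      Matrix.toLin' (x : Matrix (Unit ⊕ (Fin d ⊕ Fin d)) (Unit ⊕ (Fin d ⊕ Fin d)) F) = 1 →
      x = 1 := by
    intro x hx
    apply Units.ext
    rw [Units.val_one]
    apply Matrix.toLin'.injective
    rw [hx, Matrix.toLin'_one]
    rfl
  -- from an isometry of prime order `s` (odd) to an element of `Ω` of order `s`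
  have hlift : ∀ (s : ℕ), s.Prime → s ≠ 2 →
      ∀ T : Module.End F (Unit ⊕ (Fin d ⊕ Fin d) → F),
      Isom (QuadraticMap.polarBilin (Cfsg.Agent.Lib.Helper51.QOdd d F)) T → T ^ s = 1 → T ≠ 1 →
      ∃ x : GL (Unit ⊕ (Fin d ⊕ Fin d)) F, x ∈ Cfsg.Geo.omegaGL (Cfsg.quadFormOdd d F) ∧
        orderOf x = s ∧
        Matrix.toLin' (x : Matrix (Unit ⊕ (Fin d ⊕ Fin d)) (Unit ⊕ (Fin d ⊕ Fin d)) F) = T := by
    intro s hs hs2 T hT hTs hT1
    have : Fact s.Prime := ⟨hs⟩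
    obtain ⟨x, hx, hxQ⟩ := hgl T hT
    have hxs : x ^ s = 1 := by
      apply Units.ext
      rw [Units.val_pow_eq_pow_val, Units.val_one]
      apply Matrix.toLin'.injective
      rw [Matrix.toLin'_pow, hx, hTs, Matrix.toLin'_one]
      rfl
    have hx1 : x ≠ 1 := by
      intro h1
      apply hT1
      rw [← hx, h1, Units.val_one, Matrix.toLin'_one]
      rfl
    exact ⟨x, Cfsg.Agent.Lib.Helper6.Hy.mem_omegaGL_of_odd h2 d x hxQ s (hs.odd_of_ne_two hs2) hxs,
      orderOf_eq_prime hxs hx1, hx⟩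
  have hcrit : r ≠ 2 → r ≠ p →
      ((∀ T : Module.End F (Unit ⊕ (Fin d ⊕ Fin d) → F),
          Isom (QuadraticMap.polarBilin (Cfsg.Agent.Lib.Helper51.QOdd d F)) T → T ^ r = 1 →
          T ≠ 1 → ∃ W : Submodule F (Unit ⊕ (Fin d ⊕ Fin d) → F), finrank F W = m ∧
            (ND (QuadraticMap.polarBilin (Cfsg.Agent.Lib.Helper51.QOdd d F)) W ∧
              Typ (QuadraticMap.polarBilin (Cfsg.Agent.Lib.Helper51.QOdd d F)) W (-1)) ∧
            W.map T ≤ W) ↔
        (c ≤ m ∧ m % c < (2 * d + 1) % c ∧ (m % c = 0 → Even i ∧ Odd (m / c)))) := by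
    intro hr2 hrp
    have hblk : blk (Fintype.card F) r = c := by
      unfold blk
      rw [hq, ← hi, hc]
    have h := main_odd_ell p hS h2 hN hodd m hme hm hmn' r hr2 hrp hrΩ
    rw [hblk, hfin, hq, ← hi] at h
    exact h
  constructor
  · intro hall
    by_cases hr2 : r = 2
    · exact Or.inl hr2
    · right
      have hr2' : 2 < r := lt_of_le_of_ne hr.two_le (Ne.symm hr2)
      by_cases hrp : r = p
      · -- the unipotent derangement
        exfalso
        obtain ⟨N, hNQ, hN3, hrank⟩ : ∃ N : Module.End F (Unit ⊕ (Fin d ⊕ Fin d) → F),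
            (∀ v, Cfsg.quadFormOdd d F (v + N v) = Cfsg.quadFormOdd d F v) ∧ N ^ 3 = 0 ∧
            (finrank F (Unit ⊕ (Fin d ⊕ Fin d) → F) + 2 * finrank F (LinearMap.range (N ^ 2))
              = 2 * finrank F (LinearMap.range N) + 1 ∧ 1 ≤ finrank F (LinearMap.range N)) := by
          rcases Nat.even_or_odd d with hde | hdo
          · obtain ⟨N, h1, h3, h4⟩ :=
              Cfsg.Agent.Lib.Helper80.He.exists_unip_even (F := F) h2 d hde (by omega)
            refine ⟨N, h1, by rw [pow_succ, h3, zero_mul], ?_, by omega⟩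
            have h5 : finrank F (LinearMap.range (N ^ 2)) = 0 := by
              rw [h3, LinearMap.range_zero, finrank_bot]
            rw [h5, h4, hfin]
          · obtain ⟨N, h1, h3, h4, h5⟩ :=
              Cfsg.Agent.Lib.Helper23.He.exists_unip_odd (F := F) h2 d hdo
            refine ⟨N, h1, h3, ?_, by omega⟩
            rw [h5, h4, hfin]
            ring
        have hT : Isom (QuadraticMap.polarBilin (Cfsg.Agent.Lib.Helper51.QOdd d F)) (1 + N) := by
          intro u v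
          rw [QuadraticMap.polarBilin_apply_apply, QuadraticMap.polarBilin_apply_apply,
            Cfsg.Agent.Lib.Helper51.coe_QOdd]
          unfold QuadraticMap.polar
          rw [← map_add]
          simp only [LinearMap.add_apply, Module.End.one_apply]
          rw [hNQ, hNQ, hNQ]
        have hTp : (1 + N) ^ p = 1 :=
          Cfsg.Agent.Lib.Helper9.He.one_add_pow_prime p hp2 N hN3
        have hT1 : (1 + N) ≠ 1 := by
          intro h1
          have hN0 : N = 0 := by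
            have := congrArg (fun X => X - 1) h1
            simpa using this
          rw [hN0, LinearMap.range_zero, finrank_bot] at hrank
          omega
        obtain ⟨x, hxΩ, hxo, hx⟩ := hlift p hp hp2 (1 + N) hT hTp hT1
        rw [← hrp] at hxo
        obtain ⟨W, hW, hWx⟩ := hall x hxΩ hxo
        rw [hx] at hWx
        have hWe : Even (finrank F W) := by rw [hW.1]; exact hme
        have hhyp := Cfsg.Agent.Lib.Helper34.He.hyp_of_unip_inv hS h2 hN N hT hN3 hrank.1 W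
          hWx ((glue_nd d W).mp hW.2.1) hWe
        exact hW.2.2 ((hglue W).mpr hhyp).2
      · have hcr := (hcrit hr2 hrp).mp (fun T hT hTr hT1 => by
          obtain ⟨x, hxΩ, hxo, hx⟩ := hlift r hr hr2 T hT hTr hT1
          obtain ⟨W, hW, hWx⟩ := hall x hxΩ hxo
          exact ⟨W, ((hell W).mp hW).1, ((hell W).mp hW).2, by rw [← hx]; exact hWx⟩)
        rcases (arithE i c m (2 * d + 1) hc).mpr hcr with h | h
        · exact Or.inl ⟨hrp, hr2', h⟩
        · exact Or.inr ⟨hrp, hr2', h⟩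
  · intro hrhs x hxΩ hord
    have hT := hisoΩ x hxΩ
    have hxr : x ^ r = 1 := by rw [← hord]; exact pow_orderOf_eq_one x
    have hTr := hpow x r hxr
    by_cases hr2 : r = 2
    · subst hr2
      obtain ⟨W, hW1, hW2, hW3⟩ := main_two_ell p hS h2 hN hq2 hodd m hme hm hmn' _ hT hTr
      exact ⟨W, (hell W).mpr ⟨hW1, hW2⟩, hW3⟩
    · have hrp : r ≠ p := by
        rcases hrhs with h | ⟨h, -⟩ | ⟨h, -⟩
        · exact absurd h hr2
        · exact h
        · exact h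
      have hcr : c ≤ m ∧ m % c < (2 * d + 1) % c ∧ (m % c = 0 → Even i ∧ Odd (m / c)) := by
        apply (arithE i c m (2 * d + 1) hc).mp
        rcases hrhs with h | ⟨-, -, h⟩ | ⟨-, -, h⟩
        · exact absurd h hr2
        · exact Or.inl h
        · exact Or.inr h
      have hT1 : Matrix.toLin' (x : Matrix (Unit ⊕ (Fin d ⊕ Fin d)) (Unit ⊕ (Fin d ⊕ Fin d)) F)
          ≠ 1 := by
        intro h1
        have hx1 := hone x h1
        rw [hx1, orderOf_one] at hord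
        exact hr.one_lt.ne hord
      obtain ⟨W, hW1, hW2, hW3⟩ := (hcrit hr2 hrp).mpr hcr _ hT hTr hT1
      exact ⟨W, (hell W).mpr ⟨hW1, hW2⟩, hW3⟩

end Cfsg.Agent.S5993
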