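import Cfsg.Statements.S5994
import Cfsg.Agent.Lib.Helper51.OMinus
import Cfsg.Agent.Lib.Helper51.OSub2
import Cfsg.Agent.Lib.Helper51.OUnip

set_option autoImplicit false
open scoped MatrixGroups
open Cfsg

namespace Cfsg.Agent.S5994

open Cfsg.Agent.Lib.Helper51 (QMinus coe_QMinus QMinus_apply polar_QMinus two_ne_zero_of_odd_card)
open Cfsg.Agent.Lib.Helper51.Jordan Cfsg.Agent.Lib.Helper51.JOrth Cfsg.Agent.Lib.Helper51.ODisc
open Cfsg.Agent.Lib.Helper51.OTransport Cfsg.Agent.Lib.Helper51.OMinus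
open Cfsg.Agent.Lib.Helper51.OSub2 Cfsg.Agent.Lib.Helper51.OUnip
open scoped Matrix

/-- The sub-partition statement for the all-ones partition. -/
theorem all_ones (μ : Multiset ℕ) (hpos : ∀ e ∈ μ, 0 < e) (hbig : ¬ ∃ c ∈ μ, 2 ≤ c) (m : ℕ)
    (hm0 : 0 < m) (hm : m ≤ μ.sum) :
    ∃ ν : Multiset ℕ, ν ≤ μ ∧ ν.sum = m ∧ (∀ e : ℕ, Even e → Even (ν.count e)) ∧
      ¬ (∀ c ∈ ν, c = 2) := by
  have hall : ∀ b ∈ μ, b = 1 := fun b hb => by
    have h1 := hpos b hb
    have h2 : ¬ 2 ≤ b := fun h => hbig ⟨b, hb, h⟩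
    omega
  have hrep : μ = Multiset.replicate μ.card 1 := Multiset.eq_replicate.mpr ⟨rfl, hall⟩
  have hcard : μ.sum = μ.card := by
    conv_lhs => rw [hrep]
    simp
  refine ⟨Multiset.replicate m 1, ?_, by simp, fun e he => ?_, fun h => ?_⟩
  · rw [hrep, Multiset.replicate_le_replicate]
    omega
  · rw [Multiset.count_replicate]
    split_ifs with h
    · subst h
      exact absurd he (by decide)
    · exact ⟨0, rfl⟩
  · have := h 1 (Multiset.mem_replicate.mpr ⟨by omega, rfl⟩)
    omega

/-- The sum of a multiset with two kinds of elements. -/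
theorem sum_two (ν : Multiset ℕ) (x y : ℕ) (hxy : x ≠ y) (h : ∀ c ∈ ν, c = x ∨ c = y) :
    ν.sum = ν.count x * x + ν.count y * y := by
  rw [Finset.sum_multiset_count_of_subset ν {x, y} (fun c hc => by
    rcases h c (Multiset.mem_toFinset.mp hc) with rfl | rfl <;> simp)]
  rw [Finset.sum_pair hxy]
  simp

/-- The sum of a multiset with three kinds of elements. -/
theorem sum_three (ν : Multiset ℕ) (x y z : ℕ) (hxy : x ≠ y) (hxz : x ≠ z) (hyz : y ≠ z)
    (h : ∀ c ∈ ν, c = x ∨ c = y ∨ c = z) :
    ν.sum = ν.count x * x + ν.count y * y + ν.count z * z := by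
  rw [Finset.sum_multiset_count_of_subset ν {x, y, z} (fun c hc => by
    rcases h c (Multiset.mem_toFinset.mp hc) with rfl | rfl | rfl <;> simp)]
  rw [Finset.sum_insert (by simp [hxy, hxz]), Finset.sum_pair hyz]
  simp
  ring

/-- Passing from `(a+1, a-1, …)` back to `(a, a, …)`. -/
theorem even_reduce (μ : Multiset ℕ) (a : ℕ) (ha2 : 2 ≤ μ.count a) (hae : Even a) (ha0 : 0 < a)
    (hall : ∀ c ∈ μ, Even c) (m : ℕ) (hm : Even m)
    (ν' : Multiset ℕ) (h1 : ν' ≤ (a + 1) ::ₘ (a - 1) ::ₘ (μ.erase a).erase a) (h2 : ν'.sum = m)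
    (h3 : ∀ e, Even e → Even (ν'.count e)) :
    ∃ ν : Multiset ℕ, ν ≤ μ ∧ ν.sum = m ∧ ∀ e, Even e → Even (ν.count e) := by
  have ha : a ∈ μ := Multiset.count_pos.mp (by omega)
  have ha' : a ∈ μ.erase a := by
    rw [← Multiset.count_pos, Multiset.count_erase_self]
    omega
  have hμ : a ::ₘ a ::ₘ (μ.erase a).erase a = μ := by
    rw [Multiset.cons_erase ha', Multiset.cons_erase ha]
  obtain ⟨r, hr⟩ := hae
  have hno1 : ¬ Even (a + 1) := by
    rw [Nat.not_even_iff_odd]
    exact ⟨r, by omega⟩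
  have hno2 : ¬ Even (a - 1) := by
    rw [Nat.not_even_iff_odd]
    exact ⟨r - 1, by omega⟩
  obtain ⟨νe, hνe⟩ : ∃ νe, νe = ν'.filter (fun c => Even c) := ⟨_, rfl⟩
  obtain ⟨νo, hνo⟩ : ∃ νo, νo = ν'.filter (fun c => ¬ Even c) := ⟨_, rfl⟩
  have hsplit : νe + νo = ν' := by
    rw [hνe, hνo]
    exact Multiset.filter_add_not _ _
  have hνe_le : νe ≤ (μ.erase a).erase a := by
    have := Multiset.filter_le_filter (fun c => Even c) h1
    rw [Multiset.filter_cons_of_neg _ hno1, Multiset.filter_cons_of_neg _ hno2] at this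
    rw [hνe]
    exact this.trans (Multiset.filter_le _ _)
  have hνo_le : νo ≤ (a + 1) ::ₘ (a - 1) ::ₘ 0 := by
    have := Multiset.filter_le_filter (fun c => ¬ Even c) h1
    rw [Multiset.filter_cons_of_pos (p := fun c => ¬ Even c) _ hno1,
      Multiset.filter_cons_of_pos (p := fun c => ¬ Even c) _ hno2] at this
    have h0 : ((μ.erase a).erase a).filter (fun c => ¬ Even c) = 0 :=
      (Multiset.filter_eq_nil (p := fun c => ¬ Even c)).mpr (fun c hc => not_not.mpr
        (hall c (Multiset.mem_of_mem_erase (Multiset.mem_of_mem_erase hc))))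
    rw [h0] at this
    rw [hνo]
    exact this
  have hne : a + 1 ≠ a - 1 := by omega
  have hsum_o : νo.sum = νo.count (a + 1) * (a + 1) + νo.count (a - 1) * (a - 1) :=
    sum_two νo (a + 1) (a - 1) hne (fun c hc => by
      have := Multiset.mem_of_le hνo_le hc
      simpa using this)
  have hc1 : νo.count (a + 1) ≤ 1 := by
    have := Multiset.count_le_of_le (a + 1) hνo_le
    rw [Multiset.count_cons_self, Multiset.count_cons_of_ne hne, Multiset.count_zero] at this
    exact this
  have hc2 : νo.count (a - 1) ≤ 1 := by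
    have := Multiset.count_le_of_le (a - 1) hνo_le
    rw [Multiset.count_cons_of_ne (Ne.symm hne), Multiset.count_cons_self, Multiset.count_zero]
      at this
    exact this
  have hsum_e : Even νe.sum := by
    rw [even_iff_two_dvd]
    apply Multiset.dvd_sum
    intro c hc
    rw [hνe] at hc
    exact even_iff_two_dvd.mp (Multiset.of_mem_filter hc)
  have htot : νe.sum + νo.sum = m := by rw [← Multiset.sum_add, hsplit, h2]
  obtain ⟨t, ht⟩ := hsum_e
  obtain ⟨u, hu⟩ := hm
  have hcases : (νo.count (a + 1) = 0 ∧ νo.count (a - 1) = 0)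
      ∨ (νo.count (a + 1) = 1 ∧ νo.count (a - 1) = 1) := by
    have hA : νo.count (a + 1) = 0 ∨ νo.count (a + 1) = 1 := by omega
    have hB : νo.count (a - 1) = 0 ∨ νo.count (a - 1) = 1 := by omega
    rcases hA with hA | hA <;> rcases hB with hB | hB
    · exact Or.inl ⟨hA, hB⟩
    · rw [hA, hB] at hsum_o
      omega
    · rw [hA, hB] at hsum_o
      omega
    · exact Or.inr ⟨hA, hB⟩
  rcases hcases with ⟨hA, hB⟩ | ⟨hA, hB⟩
  · refine ⟨νe, hνe_le.trans ((Multiset.erase_le _ _).trans (Multiset.erase_le _ _)), ?_, ?_⟩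
    · rw [hA, hB] at hsum_o
      omega
    · intro e he
      rw [hνe, Multiset.count_filter_of_pos he]
      exact h3 e he
  · refine ⟨a ::ₘ a ::ₘ νe, ?_, ?_, ?_⟩
    · rw [← hμ]
      exact Multiset.cons_le_cons a (Multiset.cons_le_cons a hνe_le)
    · rw [Multiset.sum_cons, Multiset.sum_cons]
      rw [hA, hB] at hsum_o
      omega
    · intro e he
      rw [Multiset.count_cons, Multiset.count_cons, hνe, Multiset.count_filter_of_pos he]
      obtain ⟨j, hj⟩ := h3 e he
      split_ifs
      · exact ⟨j + 1, by omega⟩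
      · exact ⟨j, by omega⟩


/-- A necessary condition for every element of order p of PΩ⁻_n(q), q odd, to fix an elliptic `m`-space. Here `T = PΩ⁻_n(F)`, `n = 2d ≥ 8`, realised through `Ω⁻_n(q)`, the commutator subgroup of the isometry group of `Q = Σ_{i<d−1} xᵢyᵢ + z₁² + a z₁z₂ + b z₂²` with `z₁² + a z₁z₂ + b z₂²` anisotropic, over the field `F` with `q` elements; an element of `T` of prime order `r` is an element `x` of `Ω⁻_n(q)` with `x^r` scalar and `x` not scalar; `q` is odd; a nondegenerate `m`-space (even `m`) is a subspace on which the polar form of `Q` is nondegenerate; it is hyperbolic if it contains an `m/2`-dimensional subspace on which `Q` vanishes, elliptic otherwise. Let `m` be even with `2 ≤ m ≤ n − 2` and suppose `p` divides the number of elliptic `m`-spaces. If every element of `T` of order `p` fixes some elliptic `m`-space, then `n ≡ m (mod 4)` and every partition of `n` into parts of size at most `p` in which every even part has even multiplicity contains (as a sub-multiset)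 a partition of `m` in which every even part has even multiplicity. -/
theorem result {F : Type*} [Field F] [Fintype F] {p : ℕ} [Fact p.Prime] [CharP F p] {q : ℕ} (hq : Fintype.card F = q) (hqodd : Odd q)
    (d m : ℕ) (hd : 4 ≤ d) (hm : 2 ≤ m) (hme : Even m) (hmn : m + 2 ≤ 2 * d) (a b : F) (hab : ∀ x y : F, x ^ 2 + a * x * y + b * y ^ 2 = 0 → x = 0 ∧ y = 0)
    (hpΩ : p ∣ Nat.card {W : Submodule F ((Fin (d - 1) ⊕ Fin (d - 1)) ⊕ Fin 2 → F) // Module.finrank F ↥W = m ∧ Cfsg.Geo.IsNondegenerateOn (QuadraticMap.polar (Cfsg.quadFormMinus (d - 1) F a b)) W ∧ ¬ Cfsg.Geo.IsPlusTypeOn (Cfsg.quadFormMinus (d - 1) F a b) W}) :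
    (∀ x : GL ((Fin (d - 1) ⊕ Fin (d - 1)) ⊕ Fin 2) F, x ∈ Cfsg.Geo.omegaGL (Cfsg.quadFormMinus (d - 1) F a b) →
      (∃ z : F, ((x ^ p : GL ((Fin (d - 1) ⊕ Fin (d - 1)) ⊕ Fin 2) F) : Matrix ((Fin (d - 1) ⊕ Fin (d - 1)) ⊕ Fin 2) ((Fin (d - 1) ⊕ Fin (d - 1)) ⊕ Fin 2) F) = z • (1 : Matrix ((Fin (d - 1) ⊕ Fin (d - 1)) ⊕ Fin 2) ((Fin (d - 1) ⊕ Fin (d - 1)) ⊕ Fin 2) F)) →
      (∀ z : F, (x : Matrix ((Fin (d - 1) ⊕ Fin (d - 1)) ⊕ Fin 2) ((Fin (d - 1) ⊕ Fin (d - 1)) ⊕ Fin 2) F) ≠ z • (1 : Matrix ((Fin (d - 1) ⊕ Fin (d - 1)) ⊕ Fin 2) ((Fin (d - 1) ⊕ Fin (d - 1)) ⊕ Fin 2) F)) →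
      ∃ W : Submodule F ((Fin (d - 1) ⊕ Fin (d - 1)) ⊕ Fin 2 → F), (Module.finrank F ↥W = m ∧ Cfsg.Geo.IsNondegenerateOn (QuadraticMap.polar (Cfsg.quadFormMinus (d - 1) F a b)) W ∧ ¬ Cfsg.Geo.IsPlusTypeOn (Cfsg.quadFormMinus (d - 1) F a b) W) ∧ W.map (Matrix.toLin' (x : Matrix ((Fin (d - 1) ⊕ Fin (d - 1)) ⊕ Fin 2) ((Fin (d - 1) ⊕ Fin (d - 1)) ⊕ Fin 2) F)) ≤ W) →
    ((2 * d) % 4 = m % 4 ∧ (∀ μ : Multiset ℕ, (∀ e ∈ μ, 0 < e ∧ e ≤ p) → (∀ e : ℕ, Even e → Even (μ.count e)) → μ.sum = 2 * d →
        ∃ ν : Multiset ℕ, ν ≤ μ ∧ ν.sum = m ∧ ∀ e : ℕ, Even e → Even (ν.count e))) := by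
  classical
  intro hyp
  have hF : Odd (Fintype.card F) := hq ▸ hqodd
  have h2 : (2 : F) ≠ 0 := two_ne_zero_of_odd_card hF
  have hpp : p.Prime := Fact.out
  have hpodd : Odd p := by
    rcases hpp.eq_two_or_odd' with h | h
    · exfalso
      apply h2
      have := CharP.cast_eq_zero F p
      rw [h] at this
      exact_mod_cast this
    · exact h
  have hp3 : 3 ≤ p := by
    have := hpp.two_le
    obtain ⟨t, ht⟩ := hpodd
    omega
  have hD : a ^ 2 - 4 * b ≠ 0 := by
    intro h0
    have := (hab (-a / 2) 1 (by field_simp; linear_combination (-1 : F) * h0)).2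
    exact one_ne_zero this
  have key : ∀ μ : Multiset ℕ, (∀ e ∈ μ, 0 < e ∧ e ≤ p) → (∀ e : ℕ, Even e → Even (μ.count e)) →
      μ.sum = 2 * d → (∃ c ∈ μ, Odd c) →
        ∃ ν : Multiset ℕ, ν ≤ μ ∧ ν.sum = m ∧ (∀ e : ℕ, Even e → Even (ν.count e)) ∧
          ¬ (∀ c ∈ ν, c = 2) := by
    intro μ hμ hcond hsum hodd
    by_cases hbig : ∃ c ∈ μ, 2 ≤ c
    · have hord := ord_any h2 μ (fun c hc => (hμ c hc).1) hcond hodd d hsum
        ((-1) ^ d * (a ^ 2 - 4 * b))
        (mul_ne_zero (pow_ne_zero _ (neg_ne_zero.mpr one_ne_zero)) hD)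
      obtain ⟨U, hU1, hU2⟩ := exists_minus h2 a b hab μ d (by omega) hsum hord
      have : Nonempty ((Fin (d - 1) ⊕ Fin (d - 1)) ⊕ Fin 2) := ⟨Sum.inr 0⟩
      have hsumc : μ.sum = Fintype.card ((Fin (d - 1) ⊕ Fin (d - 1)) ⊕ Fin 2) := by
        rw [hsum, Fintype.card_sum, Fintype.card_sum, Fintype.card_fin, Fintype.card_fin]
        omega
      obtain ⟨u, huU, huΩ, hup, hns⟩ := exists_unip_omega (QMinus (d - 1) F a b) h2
        (QMinus_nondeg h2 (d - 1) a b hab)
        (by rw [← hsumc, hsum]; omega) μ (fun e he => (hμ e he).2) hsumc U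
        (fun v => by rw [coe_QMinus]; exact hU1 v) hU2
      rw [coe_QMinus] at huΩ
      obtain ⟨W, ⟨hWm, hWnd, hWnp⟩, hWinv⟩ := hyp u huΩ ⟨1, by rw [hup, one_smul]; rfl⟩
        (fun z => by rw [huU]; exact hns hbig z)
      rw [huU] at hWinv
      have e1 : (Matrix.toLin' U - 1 :
          Module.End F (((Fin (d - 1) ⊕ Fin (d - 1)) ⊕ Fin 2) → F))
          = Matrix.toLin' (U - 1) := by
        rw [map_sub, Matrix.toLin'_one]
        rfl
      have hiso : ∀ x y : ((Fin (d - 1) ⊕ Fin (d - 1)) ⊕ Fin 2) → F,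
          QuadraticMap.polarBilin (QMinus (d - 1) F a b) (Matrix.toLin' U x) (Matrix.toLin' U y)
            = QuadraticMap.polarBilin (QMinus (d - 1) F a b) x y := by
        intro x y
        rw [QuadraticMap.polarBilin_apply_apply, QuadraticMap.polarBilin_apply_apply]
        simp only [QuadraticMap.polar, Matrix.toLin'_apply, ← Matrix.mulVec_add, coe_QMinus, hU1]
      obtain ⟨ν, hν1, hν2, hν3, hNW, hνk⟩ := sub_type'
        (QuadraticMap.polarBilin (QMinus (d - 1) F a b))
        (fun x y => by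
          rw [QuadraticMap.polarBilin_apply_apply, QuadraticMap.polarBilin_apply_apply,
            QuadraticMap.polar_comm])
        h2 (Matrix.toLin' U) hiso
        μ (fun c hc => (hμ c hc).1)
        (by rw [Module.finrank_fintype_fun_eq_card]; exact hsumc)
        (fun j => by rw [e1]; exact hU2 j)
        W (fun x hx => hWinv (Submodule.mem_map_of_mem hx))
        (fun w hw hw0 => by
          obtain ⟨x, hx, hne⟩ := (hWnd w hw hw0).1
          exact ⟨x, hx, by rw [QuadraticMap.polarBilin_apply_apply, coe_QMinus]; exact hne⟩)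
      refine ⟨ν, hν1, by rw [hν2, hWm], hν3, fun hall => hWnp ?_⟩
      obtain ⟨U', hU'W, hU'0, hU'dim⟩ := plus_of_all_two
        (QuadraticMap.polarBilin (QMinus (d - 1) F a b)) (Matrix.toLin' U) hiso W hNW ν hall hν2 hνk
      refine Exists.intro U' ⟨hU'W, fun w hw => ?_, hU'dim⟩
      have h4 := hU'0 w hw
      rw [QuadraticMap.polarBilin_apply_apply, QuadraticMap.polar_self, nsmul_eq_mul] at h4
      have h5 : (2 : F) * QMinus (d - 1) F a b w = 0 := by exact_mod_cast h4
      rw [← coe_QMinus]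
      exact (mul_eq_zero.mp h5).resolve_left h2
    · exact all_ones μ (fun e he => (hμ e he).1) hbig m (by omega) (by omega)
  have key2 : ∀ μ : Multiset ℕ, (∀ e ∈ μ, 0 < e ∧ e ≤ p) →
      (∀ e : ℕ, Even e → Even (μ.count e)) → μ.sum = 2 * d →
        ∃ ν : Multiset ℕ, ν ≤ μ ∧ ν.sum = m ∧ ∀ e : ℕ, Even e → Even (ν.count e) := by
    intro μ hμ hcond hsum
    by_cases hodd : ∃ c ∈ μ, Odd c
    · obtain ⟨ν, h1, h2, h3, -⟩ := key μ hμ hcond hsum hodd
      exact ⟨ν, h1, h2, h3⟩
    · push Not at hodd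
      have hall : ∀ c ∈ μ, Even c := fun c hc => Nat.not_odd_iff_even.mp (hodd c hc)
      obtain ⟨c, hc⟩ : ∃ c, c ∈ μ := by
        rcases Multiset.empty_or_exists_mem μ with rfl | h
        · simp at hsum
          omega
        · exact h
      have hce := hall c hc
      have hc0 := (hμ c hc).1
      have hcp := (hμ c hc).2
      have hcount : 2 ≤ μ.count c := by
        obtain ⟨r, hr⟩ := hcond c hce
        have := Multiset.count_pos.mpr hc
        omega
      have hc' : c ∈ μ.erase c := by
        rw [← Multiset.count_pos, Multiset.count_erase_self]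
        omega
      have hμeq : c ::ₘ c ::ₘ (μ.erase c).erase c = μ := by
        rw [Multiset.cons_erase hc', Multiset.cons_erase hc]
      obtain ⟨r, hr⟩ := hce
      obtain ⟨t, ht⟩ := hpodd
      have hodd1 : Odd (c + 1) := ⟨r, by omega⟩
      have hodd2 : Odd (c - 1) := ⟨r - 1, by omega⟩
      obtain ⟨ν', h1, h2', h3, -⟩ := key ((c + 1) ::ₘ (c - 1) ::ₘ (μ.erase c).erase c)
        (fun e he => by
          rcases Multiset.mem_cons.mp he with rfl | he
          · constructor <;> omega
          · rcases Multiset.mem_cons.mp he with rfl | he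
            · constructor <;> omega
            · exact hμ e (Multiset.mem_of_mem_erase (Multiset.mem_of_mem_erase he)))
        (fun e he => by
          have hn1 : e ≠ c + 1 := by
            rintro rfl
            exact absurd hodd1 (by rw [Nat.not_odd_iff_even]; exact he)
          have hn2 : e ≠ c - 1 := by
            rintro rfl
            exact absurd hodd2 (by rw [Nat.not_odd_iff_even]; exact he)
          rw [Multiset.count_cons_of_ne hn1, Multiset.count_cons_of_ne hn2]
          by_cases hec : e = c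
          · subst hec
            rw [Multiset.count_erase_self, Multiset.count_erase_self]
            obtain ⟨j, hj⟩ := hcond e he
            exact ⟨j - 1, by omega⟩
          · rw [Multiset.count_erase_of_ne hec, Multiset.count_erase_of_ne hec]
            exact hcond e he)
        (by
          rw [Multiset.sum_cons, Multiset.sum_cons]
          have h5 := congrArg Multiset.sum hμeq
          rw [Multiset.sum_cons, Multiset.sum_cons] at h5
          omega)
        ⟨c + 1, Multiset.mem_cons_self _ _, hodd1⟩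
      exact even_reduce μ c hcount ⟨r, hr⟩ hc0 hall m hme ν' h1 h2' h3
  refine ⟨?_, key2⟩
  rcases Nat.even_or_odd d with hde | hdo
  · obtain ⟨r, hr⟩ := hde
    obtain ⟨ν, h1, h2', h3, -⟩ := key (Multiset.replicate (d - 2) 2 + (3 ::ₘ 1 ::ₘ 0))
      (fun e he => by
        rcases Multiset.mem_add.mp he with h | h
        · rw [Multiset.eq_of_mem_replicate h]
          omega
        · simp at h
          rcases h with rfl | rfl <;> omega)
      (fun e he => by
        have hn1 : e ≠ 3 := by
          rintro rfl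
          exact absurd he (by decide)
        have hn2 : e ≠ 1 := by
          rintro rfl
          exact absurd he (by decide)
        rw [Multiset.count_add, Multiset.count_replicate, Multiset.count_cons_of_ne hn1,
          Multiset.count_cons_of_ne hn2, Multiset.count_zero, add_zero]
        split_ifs
        · exact ⟨r - 1, by omega⟩
        · exact ⟨0, rfl⟩)
      (by
        rw [Multiset.sum_add, Multiset.sum_replicate, smul_eq_mul]
        simp
        omega)
      ⟨1, by simp, by decide⟩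
    have hmem : ∀ c ∈ ν, c = 2 ∨ c = 3 ∨ c = 1 := by
      intro c hc
      have := Multiset.mem_of_le h1 hc
      rcases Multiset.mem_add.mp this with h | h
      · exact Or.inl (Multiset.eq_of_mem_replicate h)
      · simp at h
        exact Or.inr h
    have hs := sum_three ν 2 3 1 (by decide) (by decide) (by decide) hmem
    have hc3 : ν.count 3 ≤ 1 := by
      have := Multiset.count_le_of_le 3 h1
      simpa [Multiset.count_replicate] using this
    have hc1 : ν.count 1 ≤ 1 := by
      have := Multiset.count_le_of_le 1 h1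
      simpa [Multiset.count_replicate] using this
    obtain ⟨j, hj⟩ := h3 2 (by decide)
    obtain ⟨t, ht⟩ := hme
    have hA : ν.count 3 = 0 ∨ ν.count 3 = 1 := by omega
    have hB : ν.count 1 = 0 ∨ ν.count 1 = 1 := by omega
    rcases hA with hA | hA <;> rcases hB with hB | hB <;> rw [hA, hB] at hs <;> omega
  · obtain ⟨r, hr⟩ := hdo
    obtain ⟨ν, h1, h2', h3, h4⟩ := key (Multiset.replicate (d - 1) 2 + (1 ::ₘ 1 ::ₘ 0))
      (fun e he => by
        rcases Multiset.mem_add.mp he with h | h
        · rw [Multiset.eq_of_mem_replicate h]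
          omega
        · simp at h
          omega)
      (fun e he => by
        have hn2 : e ≠ 1 := by
          rintro rfl
          exact absurd he (by decide)
        rw [Multiset.count_add, Multiset.count_replicate, Multiset.count_cons_of_ne hn2,
          Multiset.count_cons_of_ne hn2, Multiset.count_zero, add_zero]
        split_ifs
        · exact ⟨r, by omega⟩
        · exact ⟨0, rfl⟩)
      (by
        rw [Multiset.sum_add, Multiset.sum_replicate, smul_eq_mul]
        simp
        omega)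
      ⟨1, by simp, by decide⟩
    have hmem : ∀ c ∈ ν, c = 2 ∨ c = 1 := by
      intro c hc
      have := Multiset.mem_of_le h1 hc
      rcases Multiset.mem_add.mp this with h | h
      · exact Or.inl (Multiset.eq_of_mem_replicate h)
      · simp at h
        exact Or.inr h
    have hs := sum_two ν 2 1 (by decide) hmem
    have hc1 : ν.count 1 ≤ 2 := by
      have := Multiset.count_le_of_le 1 h1
      simpa [Multiset.count_replicate] using this
    have hc10 : ν.count 1 ≠ 0 := by
      intro h0
      apply h4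
      intro c hc
      rcases hmem c hc with h | h
      · exact h
      · subst h
        exact absurd hc (Multiset.count_eq_zero.mp h0)
    obtain ⟨j, hj⟩ := h3 2 (by decide)
    obtain ⟨t, ht⟩ := hme
    have hB : ν.count 1 = 1 ∨ ν.count 1 = 2 := by omega
    rcases hB with hB | hB <;> rw [hB] at hs <;> omega

end Cfsg.Agent.S5994
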