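import Cfsg.Statements.S5995
import Cfsg.Agent.Lib.Helper51.OTransportOdd
import Cfsg.Agent.Lib.Helper51.OSub
import Cfsg.Agent.Lib.Helper51.OUnip

set_option autoImplicit false
open scoped MatrixGroups
open Cfsg

namespace Cfsg.Agent.S5995

open Cfsg.Agent.Lib.Helper51 (QOdd coe_QOdd QOdd_apply polar_QOdd two_ne_zero_of_odd_card)
open Cfsg.Agent.Lib.Helper51.Jordan Cfsg.Agent.Lib.Helper51.JOrth
open Cfsg.Agent.Lib.Helper51.OTransport Cfsg.Agent.Lib.Helper51.OTransportOdd
open Cfsg.Agent.Lib.Helper51.OSub Cfsg.Agent.Lib.Helper51.OUnip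
open scoped Matrix

/-- The sub-partition statement for the all-ones partition. -/
theorem all_ones (μ : Multiset ℕ) (hpos : ∀ e ∈ μ, 0 < e) (hbig : ¬ ∃ a ∈ μ, 2 ≤ a) (m : ℕ)
    (hm : m ≤ μ.sum) :
    ∃ ν : Multiset ℕ, ν ≤ μ ∧ ν.sum = m ∧ ∀ e : ℕ, Even e → Even (ν.count e) := by
  have hall : ∀ b ∈ μ, b = 1 := fun b hb => by
    have h1 := hpos b hb
    have h2 : ¬ 2 ≤ b := fun h => hbig ⟨b, hb, h⟩
    omega
  have hrep : μ = Multiset.replicate μ.card 1 := Multiset.eq_replicate.mpr ⟨rfl, hall⟩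
  have hcard : μ.sum = μ.card := by
    conv_lhs => rw [hrep]
    simp
  refine ⟨Multiset.replicate m 1, ?_, by simp, fun e he => ?_⟩
  · rw [hrep, Multiset.replicate_le_replicate]
    omega
  · rw [Multiset.count_replicate]
    split_ifs with h
    · subst h
      exact absurd he (by decide)
    · exact ⟨0, rfl⟩

/-- A sub-multiset of `{2, …, 2, o}`. -/
theorem sum_two_kinds (ν : Multiset ℕ) (k o : ℕ) (ho : o ≠ 2)
    (h : ν ≤ Multiset.replicate k 2 + {o}) :
    ν.sum = 2 * ν.count 2 + o * ν.count o ∧ ν.count o ≤ 1 := by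
  have hco : ν.count o ≤ 1 := by
    have := Multiset.count_le_of_le o h
    rw [Multiset.count_add, Multiset.count_replicate, if_neg (Ne.symm ho),
      Multiset.count_singleton_self] at this
    omega
  refine ⟨?_, hco⟩
  have e : ν = Multiset.replicate (ν.count 2) 2 + Multiset.replicate (ν.count o) o := by
    ext a
    rw [Multiset.count_add, Multiset.count_replicate, Multiset.count_replicate]
    by_cases h2 : 2 = a
    · subst h2
      rw [if_pos rfl, if_neg ho, add_zero]
    · by_cases h3 : o = a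
      · subst h3
        rw [if_neg h2, if_pos rfl, zero_add]
      · rw [if_neg h2, if_neg h3]
        have := Multiset.count_le_of_le a h
        rw [Multiset.count_add, Multiset.count_replicate, if_neg h2,
          Multiset.count_singleton, if_neg (Ne.symm h3)] at this
        omega
  conv_lhs => rw [e]
  rw [Multiset.sum_add, Multiset.sum_replicate, Multiset.sum_replicate, smul_eq_mul, smul_eq_mul]
  ring


/-- A necessary condition for every element of order p of Ω_n(q), nq odd, to fix a hyperbolic `m`-space. Here `T = Ω_n(F)`, `n = 2d+1 ≥ 7`, `q` odd, realised as the commutator subgroup of the isometry group of `Q = x₀² + Σ xᵢyᵢ` over the field `F` with `q` elements (trivial centre, so its elements of prime order `r` are used directly); a nondegenerate `m`-space (even `m`) is a subspace on which the polar form of `Q` is nondegenerate; it is hyperbolic if it contains an `m/2`-dimensional subspace on which `Q` vanishes, elliptic otherwise. Let `m` be even with `2 ≤ m ≤ n − 1` and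 suppose `p` divides the number of hyperbolic `m`-spaces. If every element of `T` of order `p` fixes some hyperbolic `m`-space, then `m ≡ 0 (mod 4)` and every partition of `n` into parts of size at most `p` in which every even part has even multiplicity contains (as a sub-multiset) a partition of `m` in which every even part has even multiplicity. -/
theorem result {F : Type*} [Field F] [Fintype F] {p : ℕ} [Fact p.Prime] [CharP F p] {q : ℕ} (hq : Fintype.card F = q) (hqodd : Odd q)
    (d m : ℕ) (hd : 3 ≤ d) (hm : 2 ≤ m) (hme : Even m) (hmn : m ≤ 2 * d)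
    (hpΩ : p ∣ Nat.card {W : Submodule F (Unit ⊕ (Fin d ⊕ Fin d) → F) // Module.finrank F ↥W = m ∧ Cfsg.Geo.IsNondegenerateOn (QuadraticMap.polar (Cfsg.quadFormOdd d F)) W ∧ Cfsg.Geo.IsPlusTypeOn (Cfsg.quadFormOdd d F) W}) :
    (∀ x : GL (Unit ⊕ (Fin d ⊕ Fin d)) F, x ∈ Cfsg.Geo.omegaGL (Cfsg.quadFormOdd d F) → orderOf x = p →
      ∃ W : Submodule F (Unit ⊕ (Fin d ⊕ Fin d) → F), (Module.finrank F ↥W = m ∧ Cfsg.Geo.IsNondegenerateOn (QuadraticMap.polar (Cfsg.quadFormOdd d F)) W ∧ Cfsg.Geo.IsPlusTypeOn (Cfsg.quadFormOdd d F) W) ∧ W.map (Matrix.toLin' (x : Matrix (Unit ⊕ (Fin d ⊕ Fin d)) (Unit ⊕ (Fin d ⊕ Fin d)) F)) ≤ W) →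
    (m % 4 = 0 ∧ (∀ μ : Multiset ℕ, (∀ e ∈ μ, 0 < e ∧ e ≤ p) → (∀ e : ℕ, Even e → Even (μ.count e)) → μ.sum = 2 * d + 1 →
        ∃ ν : Multiset ℕ, ν ≤ μ ∧ ν.sum = m ∧ ∀ e : ℕ, Even e → Even (ν.count e))) := by
  classical
  intro hyp
  have hF : Odd (Fintype.card F) := hq ▸ hqodd
  have h2 : (2 : F) ≠ 0 := two_ne_zero_of_odd_card hF
  have hpp : p.Prime := Fact.out
  have hp3 : 3 ≤ p := by
    rcases hpp.eq_two_or_odd' with h | h
    · exfalso
      apply h2
      have := CharP.cast_eq_zero F p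
      rw [h] at this
      exact_mod_cast this
    · have := hpp.two_le
      obtain ⟨t, ht⟩ := h
      omega
  have key : ∀ μ : Multiset ℕ, (∀ e ∈ μ, 0 < e ∧ e ≤ p) → (∀ e : ℕ, Even e → Even (μ.count e)) →
      μ.sum = 2 * d + 1 →
        ∃ ν : Multiset ℕ, ν ≤ μ ∧ ν.sum = m ∧ ∀ e : ℕ, Even e → Even (ν.count e) := by
    intro μ hμ hcond hsum
    by_cases hbig : ∃ a ∈ μ, 2 ≤ a
    · have hO : OReal F μ := Cfsg.Agent.S2583.oReal_of_cond h2 _ μ rfl (fun c hc => (hμ c hc).1)
        (fun j hj _ => hcond j hj)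
      obtain ⟨U, hU1, hU2⟩ := exists_odd h2 μ d hsum hO
      have : Nonempty (Unit ⊕ (Fin d ⊕ Fin d)) := ⟨Sum.inl ()⟩
      have hsumc : μ.sum = Fintype.card (Unit ⊕ (Fin d ⊕ Fin d)) := by
        rw [hsum, Fintype.card_sum, Fintype.card_sum, Fintype.card_fin, Fintype.card_unit]
        ring
      obtain ⟨u, huU, huΩ, hup, hns⟩ := exists_unip_omega (QOdd d F) h2 (QOdd_nondeg h2 d)
        (by rw [← hsumc, hsum]; omega) μ (fun e he => (hμ e he).2) hsumc U
        (fun v => by rw [coe_QOdd]; exact hU1 v) hU2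
      rw [coe_QOdd] at huΩ
      have hu1 : u ≠ 1 := by
        intro h1
        apply hns hbig 1
        rw [← huU, h1, one_smul]
        rfl
      obtain ⟨W, ⟨hWm, hWnd, -⟩, hWinv⟩ := hyp u huΩ (orderOf_eq_prime hup hu1)
      rw [huU] at hWinv
      have e1 : (Matrix.toLin' U - 1 : Module.End F (Unit ⊕ (Fin d ⊕ Fin d) → F))
          = Matrix.toLin' (U - 1) := by
        rw [map_sub, Matrix.toLin'_one]
        rfl
      obtain ⟨ν, hν1, hν2, hν3⟩ := sub_type (QuadraticMap.polarBilin (QOdd d F))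
        (fun x y => by
          rw [QuadraticMap.polarBilin_apply_apply, QuadraticMap.polarBilin_apply_apply,
            QuadraticMap.polar_comm])
        h2 (Matrix.toLin' U)
        (fun x y => by
          rw [QuadraticMap.polarBilin_apply_apply, QuadraticMap.polarBilin_apply_apply]
          simp only [QuadraticMap.polar, Matrix.toLin'_apply, ← Matrix.mulVec_add, coe_QOdd, hU1])
        μ (fun c hc => (hμ c hc).1)
        (by rw [Module.finrank_fintype_fun_eq_card]; exact hsumc)
        (fun j => by rw [e1]; exact hU2 j)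
        W (fun x hx => hWinv (Submodule.mem_map_of_mem hx))
        (fun w hw hw0 => by
          obtain ⟨x, hx, hne⟩ := (hWnd w hw hw0).1
          exact ⟨x, hx, by rw [QuadraticMap.polarBilin_apply_apply, coe_QOdd]; exact hne⟩)
      exact ⟨ν, hν1, by rw [hν2, hWm], hν3⟩
    · exact all_ones μ (fun e he => (hμ e he).1) hbig m (by omega)
  refine ⟨?_, key⟩
  obtain ⟨k, o, hko, hk, ho, hop⟩ : ∃ k o : ℕ, 2 * k + o = 2 * d + 1 ∧ Even k ∧ Odd o ∧ o ≤ p := by
    rcases Nat.even_or_odd d with hde | hdo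
    · exact ⟨d, 1, by omega, hde, by decide, by omega⟩
    · obtain ⟨r, hr⟩ := hdo
      exact ⟨d - 1, 3, by omega, ⟨r, by omega⟩, by decide, hp3⟩
  have ho2 : o ≠ 2 := by
    rintro rfl
    exact absurd ho (by decide)
  obtain ⟨ν, hν1, hν2, hν3⟩ := key (Multiset.replicate k 2 + {o})
    (fun e he => by
      rcases Multiset.mem_add.mp he with h | h
      · rw [Multiset.eq_of_mem_replicate h]
        omega
      · rw [Multiset.mem_singleton.mp h]
        obtain ⟨r, hr⟩ := ho
        omega)
    (fun e he => by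
      rw [Multiset.count_add, Multiset.count_replicate]
      have hoe : e ≠ o := by
        rintro rfl
        exact absurd ho (by rw [Nat.not_odd_iff_even]; exact he)
      rw [Multiset.count_singleton, if_neg hoe, add_zero]
      split_ifs
      · exact hk
      · exact ⟨0, rfl⟩)
    (by
      rw [Multiset.sum_add, Multiset.sum_replicate, Multiset.sum_singleton, smul_eq_mul]
      omega)
  obtain ⟨hs, hc1⟩ := sum_two_kinds ν k o ho2 hν1
  obtain ⟨j, hj⟩ := hν3 2 (by decide)
  obtain ⟨t, ht⟩ := hme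
  obtain ⟨r, hr⟩ := ho
  have hc : ν.count o = 0 ∨ ν.count o = 1 := by omega
  rcases hc with hc | hc
  · rw [hc] at hs
    omega
  · rw [hc] at hs
    omega

end Cfsg.Agent.S5995
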