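import Cfsg.Statements.S5996
import Cfsg.Agent.Lib.Helper51.OTransport
import Cfsg.Agent.Lib.Helper51.OSub
import Cfsg.Agent.Lib.Helper51.OUnip

set_option autoImplicit false
open scoped MatrixGroups
open Cfsg

namespace Cfsg.Agent.S5996

open Cfsg.Agent.Lib.Helper51 (QPlus coe_QPlus QPlus_apply polar_QPlus two_ne_zero_of_odd_card)
open Cfsg.Agent.Lib.Helper51.Jordan Cfsg.Agent.Lib.Helper51.ODisc
open Cfsg.Agent.Lib.Helper51.OTransport Cfsg.Agent.Lib.Helper51.OSub Cfsg.Agent.Lib.Helper51.OUnip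
open scoped Matrix

theorem QPlus_nondeg' {F : Type*} [Field F] (d : ℕ) :
    (QuadraticMap.polarBilin (QPlus d F)).Nondegenerate := by
  constructor
  · intro x hx
    funext k
    rcases k with i | i
    · have := hx (Pi.single (Sum.inr i) 1)
      rw [QuadraticMap.polarBilin_apply_apply, polar_QPlus] at this
      simpa [Pi.single_apply] using this
    · have := hx (Pi.single (Sum.inl i) 1)
      rw [QuadraticMap.polarBilin_apply_apply, polar_QPlus] at this
      simpa [Pi.single_apply] using this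
  · intro y hy
    funext k
    rcases k with i | i
    · have := hy (Pi.single (Sum.inr i) 1)
      rw [QuadraticMap.polarBilin_apply_apply, polar_QPlus] at this
      simpa [Pi.single_apply] using this
    · have := hy (Pi.single (Sum.inl i) 1)
      rw [QuadraticMap.polarBilin_apply_apply, polar_QPlus] at this
      simpa [Pi.single_apply] using this

/-- The sub-partition statement for the all-ones partition. -/
theorem all_ones (μ : Multiset ℕ) (hpos : ∀ e ∈ μ, 0 < e) (hbig : ¬ ∃ a ∈ μ, 2 ≤ a) (m : ℕ)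
    (hm : m ≤ μ.sum) :
    ∃ ν : Multiset ℕ, ν ≤ μ ∧ ν.sum = m ∧ ∀ e : ℕ, Even e → Even (ν.count e) := by
  have hall : ∀ b ∈ μ, b = 1 := fun b hb => by
    have h1 := hpos b hb
    have h2 : ¬ 2 ≤ b := fun h => hbig ⟨b, hb, h⟩
    omega
  have hrep : μ = Multiset.replicate μ.card 1 := Multiset.eq_replicate.mpr ⟨rfl, hall⟩
  have hcard : μ.sum = μ.card := by
    conv_lhs => rw [hrep]
    simp
  refine ⟨Multiset.replicate m 1, ?_, by simp, fun e he => ?_⟩
  · rw [hrep, Multiset.replicate_le_replicate]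
    omega
  · rw [Multiset.count_replicate]
    split_ifs with h
    · subst h
      exact absurd he (by decide)
    · exact ⟨0, rfl⟩


/-- A necessary condition for every element of order p of PΩ⁺_n(q), q odd, to fix a hyperbolic `m`-space. Here `T = PΩ⁺_n(F)`, `n = 2d ≥ 8`, realised through `Ω⁺_n(q)`, the commutator subgroup of the isometry group of `Q = Σ xᵢyᵢ` over the field `F` with `q` elements; an element of `T` of prime order `r` is an element `x` of `Ω⁺_n(q)` with `x^r` scalar and `x` not scalar; `q` is odd; a nondegenerate `m`-space (even `m`) is a subspace on which the polar form of `Q` is nondegenerate; it is hyperbolic if it contains an `m/2`-dimensional subspace on which `Q` vanishes, elliptic otherwise. Let `m` be even with `2 ≤ m < n/2` and suppose `p` divides the number of hyperbolic `m`-spaces. If every element of `T` of order `p` fixes some hyperbolic `m`-space, then every partition of `n` into parts of size at most `p` in which every even part has even multiplicity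 contains (as a sub-multiset) a partition of `m` in which every even part has even multiplicity. -/
theorem result {F : Type*} [Field F] [Fintype F] {p : ℕ} [Fact p.Prime] [CharP F p] {q : ℕ} (hq : Fintype.card F = q) (hqodd : Odd q)
    (d m : ℕ) (hd : 4 ≤ d) (hm : 2 ≤ m) (hme : Even m) (hmd : m < d)
    (hpΩ : p ∣ Nat.card {W : Submodule F (Fin d ⊕ Fin d → F) // Module.finrank F ↥W = m ∧ Cfsg.Geo.IsNondegenerateOn (QuadraticMap.polar (Cfsg.quadFormPlus d F)) W ∧ Cfsg.Geo.IsPlusTypeOn (Cfsg.quadFormPlus d F) W}) :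
    (∀ x : GL (Fin d ⊕ Fin d) F, x ∈ Cfsg.Geo.omegaGL (Cfsg.quadFormPlus d F) →
      (∃ z : F, ((x ^ p : GL (Fin d ⊕ Fin d) F) : Matrix (Fin d ⊕ Fin d) (Fin d ⊕ Fin d) F) = z • (1 : Matrix (Fin d ⊕ Fin d) (Fin d ⊕ Fin d) F)) →
      (∀ z : F, (x : Matrix (Fin d ⊕ Fin d) (Fin d ⊕ Fin d) F) ≠ z • (1 : Matrix (Fin d ⊕ Fin d) (Fin d ⊕ Fin d) F)) →
      ∃ W : Submodule F (Fin d ⊕ Fin d → F), (Module.finrank F ↥W = m ∧ Cfsg.Geo.IsNondegenerateOn (QuadraticMap.polar (Cfsg.quadFormPlus d F)) W ∧ Cfsg.Geo.IsPlusTypeOn (Cfsg.quadFormPlus d F) W) ∧ W.map (Matrix.toLin' (x : Matrix (Fin d ⊕ Fin d) (Fin d ⊕ Fin d) F)) ≤ W) →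
    (∀ μ : Multiset ℕ, (∀ e ∈ μ, 0 < e ∧ e ≤ p) → (∀ e : ℕ, Even e → Even (μ.count e)) → μ.sum = 2 * d →
        ∃ ν : Multiset ℕ, ν ≤ μ ∧ ν.sum = m ∧ ∀ e : ℕ, Even e → Even (ν.count e)) := by
  classical
  intro hyp μ hμ hcond hsum
  have hF : Odd (Fintype.card F) := hq ▸ hqodd
  have h2 : (2 : F) ≠ 0 := two_ne_zero_of_odd_card hF
  by_cases hbig : ∃ a ∈ μ, 2 ≤ a
  · have hord := ord_final h2 μ (fun c hc => (hμ c hc).1) hcond d hsum
    obtain ⟨U, hU1, hU2⟩ := exists_plus h2 μ d (by omega) hsum hord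
    have : Nonempty (Fin d ⊕ Fin d) := ⟨Sum.inl ⟨0, by omega⟩⟩
    have hsumc : μ.sum = Fintype.card (Fin d ⊕ Fin d) := by
      rw [hsum, Fintype.card_sum, Fintype.card_fin]
      ring
    obtain ⟨u, huU, huΩ, hup, hns⟩ := exists_unip_omega (QPlus d F) h2 (QPlus_nondeg' d)
      (by rw [Fintype.card_sum, Fintype.card_fin]; omega) μ (fun e he => (hμ e he).2) hsumc U
      (fun v => by rw [coe_QPlus]; exact hU1 v) hU2
    rw [coe_QPlus] at huΩ
    obtain ⟨W, ⟨hWm, hWnd, -⟩, hWinv⟩ := hyp u huΩ ⟨1, by rw [hup, one_smul]; rfl⟩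
      (fun z => by rw [huU]; exact hns hbig z)
    rw [huU] at hWinv
    have e1 : (Matrix.toLin' U - 1 : Module.End F (Fin d ⊕ Fin d → F))
        = Matrix.toLin' (U - 1) := by
      rw [map_sub, Matrix.toLin'_one]
      rfl
    obtain ⟨ν, hν1, hν2, hν3⟩ := sub_type (QuadraticMap.polarBilin (QPlus d F))
      (fun x y => by
        rw [QuadraticMap.polarBilin_apply_apply, QuadraticMap.polarBilin_apply_apply,
          QuadraticMap.polar_comm])
      h2 (Matrix.toLin' U)
      (fun x y => by
        rw [QuadraticMap.polarBilin_apply_apply, QuadraticMap.polarBilin_apply_apply]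
        simp only [QuadraticMap.polar, Matrix.toLin'_apply, ← Matrix.mulVec_add, coe_QPlus, hU1])
      μ (fun c hc => (hμ c hc).1)
      (by rw [Module.finrank_fintype_fun_eq_card]; exact hsumc)
      (fun j => by rw [e1]; exact hU2 j)
      W (fun x hx => hWinv (Submodule.mem_map_of_mem hx))
      (fun w hw hw0 => by
        obtain ⟨x, hx, hne⟩ := (hWnd w hw hw0).1
        exact ⟨x, hx, by rw [QuadraticMap.polarBilin_apply_apply, coe_QPlus]; exact hne⟩)
    exact ⟨ν, hν1, by rw [hν2, hWm], hν3⟩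
  · exact all_ones μ (fun e he => (hμ e he).1) hbig m (by omega)

end Cfsg.Agent.S5996
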