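import Cfsg.Statements.S5997
import Cfsg.Agent.Lib.Helper99.Q8

set_option autoImplicit false
open scoped MatrixGroups
open Cfsg

namespace Cfsg.Agent.S5997

open Cfsg.Agent.Lib.Helper99 in
/-- Elements of prime order of PSL_2(p) and the normalizer of a quaternion subgroup. Here `T = PSL_2(F)` for the field `F` with `p` elements, `p ≥ 5` prime; `R` is a subgroup of GL_2(F) isomorphic to the quaternion group of order 8 (an absolutely irreducible 2-group of symplectic type), and `H` is the subgroup of matrices of determinant 1 normalizing `R` — a subgroup of type 2^{1+2}.O₂⁻(2), isomorphic modulo scalars to A₄ or S₄ (maximality is not assumed). Ω is the set of cosets of `H` in `T`, so an element of `T` of prime order `r` (a matrix `x` of determinant 1 with `x^r` scalar, `x` not scalar) fixes a point of Ω exactly when some conjugate of `x` by a matrix of determinant 1 normalizes `R`. Let `r` be a prime dividing the index of `H`. Then every element of `T` of order `r` fixes a point of Ω if and only if `r = 2` or `r = 3`. -/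
theorem result {F : Type*} [Field F] [Fintype F] {p : ℕ} [Fact p.Prime] [CharP F p] (hF : Fintype.card F = p) (hp : 5 ≤ p)
    (R : Subgroup (GL (Fin 2) F)) (hR : Nonempty (↥R ≃* QuaternionGroup 2))
    (r : ℕ) [Fact r.Prime]
    (hΩ : r ∣ (Cfsg.Geo.subgroupNormalizer R).relIndex (Cfsg.Geo.specialLinear (Fin 2) F)) :
    (∀ x ∈ Cfsg.Geo.specialLinear (Fin 2) F, (∃ z : F, ((x ^ r : GL (Fin 2) F) : Matrix (Fin 2) (Fin 2) F) = z • (1 : Matrix (Fin 2) (Fin 2) F)) →
      (∀ z : F, (x : Matrix (Fin 2) (Fin 2) F) ≠ z • (1 : Matrix (Fin 2) (Fin 2) F)) →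
      ∃ g ∈ Cfsg.Geo.specialLinear (Fin 2) F, g⁻¹ * x * g ∈ Cfsg.Geo.subgroupNormalizer R) ↔ (r = 2 ∨ r = 3) := by
  have hpp : p.Prime := Fact.out
  have hrp : r.Prime := Fact.out
  have hpF : Fintype.card F % 2 = 1 := by
    rw [hF]
    rcases hpp.eq_two_or_odd with h | h
    · omega
    · exact h
  have hnat : ∀ k : ℕ, 0 < k → k < 5 → ((k : ℕ) : F) ≠ 0 := by
    intro k hk0 hk5 h
    rw [CharP.cast_eq_zero_iff F p k] at h
    have := Nat.le_of_dvd hk0 h
    omega
  have h2 : (2 : F) ≠ 0 := by exact_mod_cast hnat 2 (by norm_num) (by norm_num)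
  have h3 : (3 : F) ≠ 0 := by exact_mod_cast hnat 3 (by norm_num) (by norm_num)
  have h4 : (4 : F) ≠ 0 := by exact_mod_cast hnat 4 (by norm_num) (by norm_num)
  obtain ⟨α, β, hαR, hβR, hA, hB, hBA, hAt, hAd, hBt, hBd, hcl, hcard⟩ := q8_structure R hR
  haveI : Finite R := Nat.finite_of_card_ne_zero (by rw [hcard]; norm_num)
  obtain ⟨W, hWd, hWt, hWA, hWB⟩ := q8_hurwitz h2 _ _ hA hB hBA hAt hBt
  let w : GL (Fin 2) F := Matrix.GeneralLinearGroup.mkOfDetNeZero W (by rw [hWd]; exact one_ne_zero)
  have hwW : (w : Matrix (Fin 2) (Fin 2) F) = W := rfl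
  have hRN : R ≤ Cfsg.Geo.subgroupNormalizer R := Subgroup.le_normalizer
  have hwN : w ∈ Cfsg.Geo.subgroupNormalizer R := by
    apply mem_normalizer_of_finite
    apply conj_mem_of_closure R _ hcl
    intro s hs
    rcases hs with rfl | hs
    · have : w * s * w⁻¹ = s * β := by
        rw [mul_inv_eq_iff_eq_mul]
        apply Units.ext
        simp only [Units.val_mul]
        rw [hwW]; exact hWA
      rw [this]; exact mul_mem hαR hβR
    · rw [Set.mem_singleton_iff] at hs
      subst hs
      have : w * s * w⁻¹ = α := by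
        rw [mul_inv_eq_iff_eq_mul]
        apply Units.ext
        simp only [Units.val_mul]
        rw [hwW]; exact hWB
      rw [this]; exact hαR
  have hαSL : α ∈ Cfsg.Geo.specialLinear (Fin 2) F := (mem_specialLinear_iff _).mpr hAd
  have hwSL : w ∈ Cfsg.Geo.specialLinear (Fin 2) F := (mem_specialLinear_iff _).mpr (by rw [hwW]; exact hWd)
  constructor
  · intro hall
    by_contra hr
    push_neg at hr
    obtain ⟨hr2, hr3⟩ := hr
    have hr5 : 5 ≤ r := by
      have := hrp.two_le
      by_contra hlt
      have h4' : r = 4 := by omega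
      rw [h4'] at hrp
      exact absurd hrp (by norm_num)
    have hdvd : r ∣ Nat.card ↥(Cfsg.Geo.specialLinear (Fin 2) F) := hΩ.trans (Subgroup.relIndex_dvd_card _ _)
    obtain ⟨x, hx⟩ := exists_prime_orderOf_dvd_card' r hdvd
    have hx0 : orderOf (x : GL (Fin 2) F) = r := by rw [Subgroup.orderOf_coe]; exact hx
    have hxr : (x : GL (Fin 2) F) ^ r = 1 := by rw [← hx0]; exact pow_orderOf_eq_one _
    have hns : ∀ z : F, ((x : GL (Fin 2) F) : Matrix (Fin 2) (Fin 2) F) ≠ z • (1 : Matrix (Fin 2) (Fin 2) F) := by
      intro z hz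
      have hd : ((x : GL (Fin 2) F) : Matrix (Fin 2) (Fin 2) F).det = 1 := (mem_specialLinear_iff _).mp x.2
      rw [hz, Matrix.det_smul, Matrix.det_one, Fintype.card_fin, mul_one] at hd
      have hsq : (x : GL (Fin 2) F) ^ 2 = 1 := by
        apply Units.ext
        rw [Units.val_pow_eq_pow_val, hz, pow_two, smul_mul_smul_comm, mul_one, ← pow_two, hd, one_smul]
        rfl
      have := orderOf_dvd_of_pow_eq_one hsq
      rw [hx0] at this
      have := Nat.le_of_dvd (by norm_num) this
      omega
    obtain ⟨g, hg, hgN⟩ := hall x x.2 ⟨1, by rw [hxr]; simp⟩ hns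
    set y : GL (Fin 2) F := g⁻¹ * x * g with hy
    have hyr : y ^ r = 1 := by
      have hy' : y = g⁻¹ * x * (g⁻¹)⁻¹ := by rw [hy, inv_inv]
      rw [hy', conj_pow, hxr]; group
    have hmod := card_modEq_card_centralizer R y hgN r hyr
    rw [hcard] at hmod
    set C := R ⊓ Subgroup.centralizer {y} with hC
    have hCdvd : Nat.card C ∣ 8 := by
      rw [← hcard]; exact Subgroup.card_dvd_of_le inf_le_left
    have hz0 : α * α ∈ C := by
      refine ⟨mul_mem hαR hαR, ?_⟩
      show α * α ∈ Subgroup.centralizer {y}
      rw [Subgroup.mem_centralizer_iff]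
      intro h hh
      apply Units.ext
      simp only [Units.val_mul]
      rw [hA]; simp
    have hz1 : α * α ≠ 1 := by
      intro h
      have h' := congrArg (fun u : GL (Fin 2) F => (u : Matrix (Fin 2) (Fin 2) F)) h
      simp only [Units.val_mul, Units.val_one] at h'
      rw [hA] at h'
      have h'' := congrFun (congrFun h' 0) 0
      simp at h''
      apply h2
      linear_combination -h''
    have hC1 : Nat.card C ≠ 1 := by
      intro h
      have hbot := Subgroup.eq_bot_of_card_eq C h
      rw [hbot] at hz0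
      exact hz1 (Subgroup.mem_bot.mp hz0)
    have hCR : C = R := by
      obtain ⟨m, hm, hCm⟩ := (Nat.dvd_prime_pow Nat.prime_two).mp (show Nat.card C ∣ 2 ^ 3 from hCdvd)
      have hle : Nat.card C ≤ 8 := Nat.le_of_dvd (by norm_num) hCdvd
      have hd := (Nat.modEq_iff_dvd' hle).mp hmod.symm
      interval_cases m
      · exact absurd hCm hC1
      · exfalso
        rw [hCm] at hd
        have hd' : r ∣ 6 := by norm_num at hd; exact hd
        have := Nat.le_of_dvd (by norm_num) hd'
        have h56 : r = 5 ∨ r = 6 := by omega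
        rcases h56 with h56 | h56
        · rw [h56] at hd'; omega
        · rw [h56] at hrp; exact absurd hrp (by norm_num)
      · exfalso
        rw [hCm] at hd
        have hd' : r ∣ 4 := by norm_num at hd; exact hd
        have := Nat.le_of_dvd (by norm_num) hd'
        omega
      · apply Subgroup.eq_of_le_of_card_ge inf_le_left
        rw [hcard, hCm]; norm_num
    have hRc : R ≤ Subgroup.centralizer {y} := by
      rw [← hCR]; exact inf_le_right
    have hyA : (y : Matrix (Fin 2) (Fin 2) F) * α = α * (y : Matrix (Fin 2) (Fin 2) F) := by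
      have := Subgroup.mem_centralizer_iff.mp (hRc hαR) y rfl
      have h' := congrArg (fun u : GL (Fin 2) F => (u : Matrix (Fin 2) (Fin 2) F)) this
      simpa only [Units.val_mul] using h'
    have hyB : (y : Matrix (Fin 2) (Fin 2) F) * β = β * (y : Matrix (Fin 2) (Fin 2) F) := by
      have := Subgroup.mem_centralizer_iff.mp (hRc hβR) y rfl
      have h' := congrArg (fun u : GL (Fin 2) F => (u : Matrix (Fin 2) (Fin 2) F)) this
      simpa only [Units.val_mul] using h'
    obtain ⟨c, hc⟩ := q8_commutant h2 _ _ _ hA hB hBA hAt hyA hyB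
    apply hns c
    have hxy : (x : GL (Fin 2) F) = g * y * g⁻¹ := by rw [hy]; group
    rw [hxy, Units.val_mul, Units.val_mul, hc, Matrix.mul_smul, Matrix.smul_mul, mul_one, ← Units.val_mul,
      mul_inv_cancel, Units.val_one]
  · rintro (rfl | rfl)
    · intro x hx ⟨z, hz⟩ hns
      have hXd := (mem_specialLinear_iff _).mp hx
      set X : Matrix (Fin 2) (Fin 2) F := (x : Matrix (Fin 2) (Fin 2) F) with hX
      have e := mat2_sq X
      rw [hXd, one_smul] at e
      rw [Units.val_pow_eq_pow_val, pow_two, e] at hz
      have ht : X.trace = 0 := by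
        by_contra hne
        apply hns ((z + 1) / X.trace)
        have : X.trace • X = (z + 1) • (1 : Matrix (Fin 2) (Fin 2) F) := by
          rw [add_smul, one_smul, ← hz]; abel
        rw [div_eq_inv_mul, mul_smul, ← this, smul_smul, inv_mul_cancel₀ hne, one_smul]
      obtain ⟨g, hg, hgx⟩ := exists_sl2_conj hpF x α hx hαSL (by rw [← hX, ht, hAt]) (by
        rw [← hX, ht]
        intro h
        apply h4
        linear_combination -h)
      exact ⟨g, hg, by rw [hgx]; exact hRN hαR⟩
    · intro x hx ⟨z, hz⟩ hns
      have hXd := (mem_specialLinear_iff _).mp hx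
      set X : Matrix (Fin 2) (Fin 2) F := (x : Matrix (Fin 2) (Fin 2) F) with hX
      have e := mat2_sq X
      rw [hXd, one_smul] at e
      have e3 : X ^ 3 = (X.trace ^ 2 - 1) • X - X.trace • (1 : Matrix (Fin 2) (Fin 2) F) := by
        have : X ^ 3 = X * X * X := by noncomm_ring
        rw [this, e]
        simp only [sub_mul, smul_mul_assoc, one_mul, e]
        module
      rw [Units.val_pow_eq_pow_val, e3] at hz
      have ht : X.trace ^ 2 - 1 = 0 := by
        by_contra hne
        apply hns ((z + X.trace) / (X.trace ^ 2 - 1))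
        have : (X.trace ^ 2 - 1) • X = (z + X.trace) • (1 : Matrix (Fin 2) (Fin 2) F) := by
          rw [add_smul, ← hz]; abel
        rw [div_eq_inv_mul, mul_smul, ← this, smul_smul, inv_mul_cancel₀ hne, one_smul]
      have ht' : (X.trace - 1) * (X.trace + 1) = 0 := by linear_combination ht
      rcases mul_eq_zero.mp ht' with h1 | h1
      · -- trace 1: conjugate to (α * α) * w
        have htr : X.trace = 1 := by linear_combination h1
        have hw' : ((α * α * w : GL (Fin 2) F) : Matrix (Fin 2) (Fin 2) F) = -W := by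
          simp only [Units.val_mul]
          rw [hA, hwW]; simp
        have hw'SL : α * α * w ∈ Cfsg.Geo.specialLinear (Fin 2) F :=
          mul_mem (mul_mem hαSL hαSL) hwSL
        obtain ⟨g, hg, hgx⟩ := exists_sl2_conj hpF x (α * α * w) hx hw'SL (by
          rw [← hX, htr, hw', Matrix.trace_neg, hWt]; simp) (by
          rw [← hX, htr]
          intro h
          apply h3
          linear_combination -h)
        exact ⟨g, hg, by rw [hgx]; exact mul_mem (mul_mem (hRN hαR) (hRN hαR)) hwN⟩
      · have htr : X.trace = -1 := by linear_combination h1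
        obtain ⟨g, hg, hgx⟩ := exists_sl2_conj hpF x w hx hwSL (by
          rw [← hX, htr, hwW, hWt]) (by
          rw [← hX, htr]
          intro h
          apply h3
          linear_combination -h)
        exact ⟨g, hg, by rw [hgx]; exact hwN⟩

end Cfsg.Agent.S5997
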