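import Cfsg.Statements.S5998
import Cfsg.Agent.Lib.Helper98.E27G
-- import your own Cfsg.Agent.* helpers here

set_option autoImplicit false
open scoped MatrixGroups
open Cfsg

namespace Cfsg.Agent.S5998

/-- Elements of prime order of PSL_3(p), p ≡ 1 (mod 3), and the normalizer of an extraspecial subgroup of order 27. Here `T = PSL_3(F)` for the field `F` with `p` elements, `p` a prime with `p ≡ 1 (mod 3)`; `R` is a non-abelian subgroup of GL_3(F) of order 27 and exponent 3 (an extraspecial group 3^{1+2}, acting absolutely irreducibly), and `H` is the subgroup of matrices of determinant 1 normalizing `R` — a subgroup of type 3^{1+2}.Sp₂(3) (maximality is not assumed). Ω is the set of cosets of `H` in `T`, so an element of `T` of prime order `r` (a matrix `x` of determinant 1 with `x^r` scalar, `x` not scalar) fixes a point of Ω exactly when some conjugate of `x` by a matrix of determinant 1 normalizes `R`. Let `r` be a prime dividing the index of `H`. Then every element of `T` of order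 `r` fixes a point of Ω if and only if `r = 2`, or `r = 3` and `p ≡ 1 (mod 9)`. -/
theorem result {F : Type*} [Field F] [Fintype F] {p : ℕ} [Fact p.Prime] [CharP F p] (hF : Fintype.card F = p) (hp3 : p % 3 = 1)
    (R : Subgroup (GL (Fin 3) F)) (hR : Nat.card R = 27) (hRe : Monoid.exponent R = 3) (hRna : ¬ IsMulCommutative R)
    (r : ℕ) [Fact r.Prime]
    (hΩ : r ∣ (Cfsg.Geo.subgroupNormalizer R).relIndex (Cfsg.Geo.specialLinear (Fin 3) F)) :
    (∀ x ∈ Cfsg.Geo.specialLinear (Fin 3) F, (∃ z : F, ((x ^ r : GL (Fin 3) F) : Matrix (Fin 3) (Fin 3) F) = z • (1 : Matrix (Fin 3) (Fin 3) F)) →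
      (∀ z : F, (x : Matrix (Fin 3) (Fin 3) F) ≠ z • (1 : Matrix (Fin 3) (Fin 3) F)) →
      ∃ g ∈ Cfsg.Geo.specialLinear (Fin 3) F, g⁻¹ * x * g ∈ Cfsg.Geo.subgroupNormalizer R) ↔ (r = 2 ∨ (r = 3 ∧ p % 9 = 1)) := by
  have hpp : p.Prime := Fact.out
  have hrp : r.Prime := Fact.out
  have hp3' : p ≠ 3 := by
    intro h
    rw [h] at hp3
    norm_num at hp3
  have hp2' : p ≠ 2 := by
    intro h
    rw [h] at hp3
    norm_num at hp3
  have hchar3 : (3 : F) ≠ 0 := by
    intro h0
    have h1 : ((3 : ℕ) : F) = 0 := by exact_mod_cast h0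
    have h2 : p ∣ 3 := (CharP.cast_eq_zero_iff F p 3).mp h1
    exact hp3' ((Nat.prime_dvd_prime_iff_eq hpp Nat.prime_three).mp h2)
  have h2 : (2 : F) ≠ 0 := by
    intro h0
    have h1 : ((2 : ℕ) : F) = 0 := by exact_mod_cast h0
    have h2 : p ∣ 2 := (CharP.cast_eq_zero_iff F p 2).mp h1
    exact hp2' ((Nat.prime_dvd_prime_iff_eq hpp Nat.prime_two).mp h2)
  obtain ⟨ω, hω⟩ := Cfsg.Agent.Lib.Helper98.e27_omega (F := F) (by rw [hF]; exact hp3)
  haveI : Finite R := Nat.finite_of_card_ne_zero (by rw [hR]; norm_num)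
  obtain ⟨μ, P, a, b, c, hμ, ha, hb, hc, hcl, haP, hbP, hcμ⟩ :=
    Cfsg.Agent.Lib.Helper98.e27_structure hchar3 ω hω R hR hRe hRna
  constructor
  · intro hall
    by_cases hr2 : r = 2
    · exact Or.inl hr2
    by_cases hr3 : r = 3
    · right
      refine ⟨hr3, ?_⟩
      by_contra h9
      rw [hr3] at hΩ
      exact Cfsg.Agent.Lib.Helper98.e27_index (F := F) (by rw [hF]; exact hp3) (by rw [hF]; exact h9) R hR
        (Cfsg.Agent.Lib.Helper98.e27_le_sl μ hμ R P a b hcl haP hbP) hΩ
    · exfalso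
      have hr5 : 5 ≤ r := by
        have h1 := hrp.two_le
        by_contra hlt
        have h4' : r = 4 := by omega
        rw [h4'] at hrp
        exact absurd hrp (by norm_num)
      have hdvd : r ∣ Nat.card ↥(Cfsg.Geo.specialLinear (Fin 3) F) :=
        hΩ.trans (Subgroup.relIndex_dvd_card _ _)
      obtain ⟨x, hx⟩ := exists_prime_orderOf_dvd_card' r hdvd
      have hx0 : orderOf (x : GL (Fin 3) F) = r := by
        rw [Subgroup.orderOf_coe]
        exact hx
      have hxr : (x : GL (Fin 3) F) ^ r = 1 := by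
        rw [← hx0]
        exact pow_orderOf_eq_one _
      have hns : ∀ z : F, ((x : GL (Fin 3) F) : Matrix (Fin 3) (Fin 3) F)
          ≠ z • (1 : Matrix (Fin 3) (Fin 3) F) := by
        intro z hz
        have hd : ((x : GL (Fin 3) F) : Matrix (Fin 3) (Fin 3) F).det = 1 :=
          (Cfsg.Agent.Lib.Helper99.mem_specialLinear_iff _).mp x.2
        rw [hz, Matrix.det_smul, Matrix.det_one, Fintype.card_fin, mul_one] at hd
        have hcu : (x : GL (Fin 3) F) ^ 3 = 1 := by
          apply Units.ext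
          rw [Units.val_pow_eq_pow_val, hz, smul_pow, one_pow, hd, one_smul]
          rfl
        have h1 := orderOf_dvd_of_pow_eq_one hcu
        rw [hx0] at h1
        have h2 := Nat.le_of_dvd (by norm_num) h1
        omega
      obtain ⟨g, hg, hgN⟩ := hall x x.2 ⟨1, by rw [hxr]; simp⟩ hns
      obtain ⟨y, hy⟩ : ∃ y : GL (Fin 3) F, y = g⁻¹ * x * g := ⟨_, rfl⟩
      rw [← hy] at hgN
      have hyr : y ^ r = 1 := by
        have hy' : y = g⁻¹ * x * (g⁻¹)⁻¹ := by rw [hy, inv_inv]
        rw [hy', conj_pow, hxr]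
        group
      obtain ⟨z, hz⟩ := Cfsg.Agent.Lib.Helper98.e27_large hchar3 μ hμ R hR P a b c ha hb hc haP hbP
        hcμ r hr5 y hgN hyr
      apply hns z
      have hxy : (x : GL (Fin 3) F) = g * y * g⁻¹ := by
        rw [hy]
        group
      rw [hxy, Units.val_mul, Units.val_mul, hz, Matrix.mul_smul, Matrix.smul_mul, mul_one,
        ← Units.val_mul, mul_inv_cancel, Units.val_one]
  · rintro (rfl | ⟨rfl, h9⟩)
    · intro x hx ⟨z, hz⟩ hns
      exact Cfsg.Agent.Lib.Helper98.e27_main_two h2 hchar3 μ hμ R P a b ha hb hcl haP hbP x hx z hz hns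
    · intro x hx ⟨z, hz⟩ hns
      exact Cfsg.Agent.Lib.Helper98.e27_main_three (by rw [hF]; exact h9) h2 hchar3 μ hμ R P a b ha hb hcl
        haP hbP x hx z hz hns

end Cfsg.Agent.S5998
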