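import Cfsg.Statements.S5999
import Cfsg.Agent.Lib.Helper98.E27U
-- import your own Cfsg.Agent.* helpers here

set_option autoImplicit false
open scoped MatrixGroups
open Cfsg

namespace Cfsg.Agent.S5999

/-- Elements of prime order of PSU_3(p), p ≡ 2 (mod 3), and the normalizer of an extraspecial subgroup of order 27. Here `T = PSU_3(p)` for a prime `p ≥ 5` with `p ≡ 2 (mod 3)`, realised through `SU_3(p)`, the matrices of determinant 1 over the field `F` with `p²` elements preserving the hermitian form `Σ uᵢvᵢ^p`; `R` is a non-abelian subgroup of order 27 and exponent 3 of the full unitary group of that form (an extraspecial group 3^{1+2}, acting absolutely irreducibly), and `H` is the subgroup of `SU_3(p)` normalizing `R` — a subgroup of type 3^{1+2}.Sp₂(3) (maximality is not assumed). Ω is the set of cosets of `H`, so an element of `T` of prime order `r` (`x ∈ SU_3(p)` with `x^r` scalar, `x` not scalar) fixes a point of Ω exactly when some `SU_3(p)`-conjugate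 of `x` normalizes `R`. Let `r` be a prime dividing the index of `H`. Then every element of `T` of order `r` fixes a point of Ω if and only if `r = 2`, or `r = 3` and `p ≡ 8 (mod 9)`. -/
theorem result {F : Type*} [Field F] [Fintype F] {p : ℕ} [Fact p.Prime] [CharP F p] (hF : Fintype.card F = p ^ 2) (hp : 5 ≤ p) (hp3 : p % 3 = 2)
    (R : Subgroup (GL (Fin 3) F)) (hRU : R ≤ Cfsg.GU 3 F p) (hR : Nat.card R = 27) (hRe : Monoid.exponent R = 3) (hRna : ¬ IsMulCommutative R)
    (r : ℕ) [Fact r.Prime]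
    (hΩ : r ∣ (Cfsg.Geo.subgroupNormalizer R).relIndex (Cfsg.GU 3 F p ⊓ Cfsg.Geo.specialLinear (Fin 3) F)) :
    (∀ x ∈ Cfsg.GU 3 F p ⊓ Cfsg.Geo.specialLinear (Fin 3) F, (∃ z : F, ((x ^ r : GL (Fin 3) F) : Matrix (Fin 3) (Fin 3) F) = z • (1 : Matrix (Fin 3) (Fin 3) F)) →
      (∀ z : F, (x : Matrix (Fin 3) (Fin 3) F) ≠ z • (1 : Matrix (Fin 3) (Fin 3) F)) →
      ∃ g ∈ Cfsg.GU 3 F p ⊓ Cfsg.Geo.specialLinear (Fin 3) F, g⁻¹ * x * g ∈ Cfsg.Geo.subgroupNormalizer R) ↔ (r = 2 ∨ (r = 3 ∧ p % 9 = 8)) := by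
  have hpp : p.Prime := Fact.out
  have hrp : r.Prime := Fact.out
  have hchar3 : (3 : F) ≠ 0 := by
    intro h0
    have h1 : ((3 : ℕ) : F) = 0 := by exact_mod_cast h0
    have h2 : p ∣ 3 := (CharP.cast_eq_zero_iff F p 3).mp h1
    have h3 := Nat.le_of_dvd (by norm_num) h2
    omega
  have h2 : (2 : F) ≠ 0 := by
    intro h0
    have h1 : ((2 : ℕ) : F) = 0 := by exact_mod_cast h0
    have h2 : p ∣ 2 := (CharP.cast_eq_zero_iff F p 2).mp h1
    have h3 := Nat.le_of_dvd (by norm_num) h2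
    omega
  have hF3 : Fintype.card F % 3 = 1 := by
    rw [hF, Nat.pow_mod, hp3]
  obtain ⟨ω, hω⟩ := Cfsg.Agent.Lib.Helper98.e27_omega (F := F) hF3
  obtain ⟨σ, hσq, hσ, -, -, x₀, -, -, -, hx₀⟩ := Cfsg.Agent.Lib.Helper47.exists_unitary_data F p hF
  have hne : ∃ c, σ c ≠ c := ⟨x₀, hx₀⟩
  haveI : Finite R := Nat.finite_of_card_ne_zero (by rw [hR]; norm_num)
  obtain ⟨μ, P, a, b, c, hμ, ha, hb, hc, hcl, haP, hbP, hcμ⟩ :=
    Cfsg.Agent.Lib.Helper98.e27_structure hchar3 ω hω R hR hRe hRna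
  constructor
  · intro hall
    by_cases hr2 : r = 2
    · exact Or.inl hr2
    by_cases hr3 : r = 3
    · right
      refine ⟨hr3, ?_⟩
      by_contra h9
      rw [hr3] at hΩ
      have h9' : Fintype.card F % 9 ≠ 1 := by
        rw [hF, Nat.pow_mod]
        rcases (by omega : p % 9 = 2 ∨ p % 9 = 5) with h | h <;> rw [h] <;> norm_num
      exact Cfsg.Agent.Lib.Helper98.e27_index_le (F := F) hF3 h9' R hR _ inf_le_right
        (le_inf hRU (Cfsg.Agent.Lib.Helper98.e27_le_sl μ hμ R P a b hcl haP hbP)) hΩ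
    · exfalso
      have hr5 : 5 ≤ r := by
        have h1 := hrp.two_le
        by_contra hlt
        have h4' : r = 4 := by omega
        rw [h4'] at hrp
        exact absurd hrp (by norm_num)
      have hdvd : r ∣ Nat.card ↥(Cfsg.GU 3 F p ⊓ Cfsg.Geo.specialLinear (Fin 3) F) :=
        hΩ.trans (Subgroup.relIndex_dvd_card _ _)
      obtain ⟨x, hx⟩ := exists_prime_orderOf_dvd_card' r hdvd
      have hx0 : orderOf (x : GL (Fin 3) F) = r := by
        rw [Subgroup.orderOf_coe]
        exact hx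
      have hxr : (x : GL (Fin 3) F) ^ r = 1 := by
        rw [← hx0]
        exact pow_orderOf_eq_one _
      have hns : ∀ z : F, ((x : GL (Fin 3) F) : Matrix (Fin 3) (Fin 3) F)
          ≠ z • (1 : Matrix (Fin 3) (Fin 3) F) := by
        intro z hz
        have hd : ((x : GL (Fin 3) F) : Matrix (Fin 3) (Fin 3) F).det = 1 :=
          (Cfsg.Agent.Lib.Helper99.mem_specialLinear_iff _).mp (Subgroup.mem_inf.mp x.2).2
        rw [hz, Matrix.det_smul, Matrix.det_one, Fintype.card_fin, mul_one] at hd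
        have hcu : (x : GL (Fin 3) F) ^ 3 = 1 := by
          apply Units.ext
          rw [Units.val_pow_eq_pow_val, hz, smul_pow, one_pow, hd, one_smul]
          rfl
        have h1 := orderOf_dvd_of_pow_eq_one hcu
        rw [hx0] at h1
        have h2 := Nat.le_of_dvd (by norm_num) h1
        omega
      obtain ⟨g, hg, hgN⟩ := hall x x.2 ⟨1, by rw [hxr]; simp⟩ hns
      obtain ⟨y, hy⟩ : ∃ y : GL (Fin 3) F, y = g⁻¹ * x * g := ⟨_, rfl⟩
      rw [← hy] at hgN
      have hyr : y ^ r = 1 := by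
        have hy' : y = g⁻¹ * x * (g⁻¹)⁻¹ := by rw [hy, inv_inv]
        rw [hy', conj_pow, hxr]
        group
      obtain ⟨z, hz⟩ := Cfsg.Agent.Lib.Helper98.e27_large hchar3 μ hμ R hR P a b c ha hb hc haP hbP
        hcμ r hr5 y hgN hyr
      apply hns z
      have hxy : (x : GL (Fin 3) F) = g * y * g⁻¹ := by
        rw [hy]
        group
      rw [hxy, Units.val_mul, Units.val_mul, hz, Matrix.mul_smul, Matrix.smul_mul, mul_one,
        ← Units.val_mul, mul_inv_cancel, Units.val_one]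
  · rintro (rfl | ⟨rfl, h9⟩)
    · intro x hx ⟨z, hz⟩ hns
      exact Cfsg.Agent.Lib.Helper98.e27u_main_two hσ hne p hp3 hσq h2 hchar3 μ hμ R P a b ha hb hcl
        haP hbP hRU x hx z hz hns
    · intro x hx ⟨z, hz⟩ hns
      exact Cfsg.Agent.Lib.Helper98.e27u_main_three hσ hne p hF h9 hσq h2 hchar3 μ hμ R P a b ha hb
        hcl haP hbP hRU x hx z hz hns

end Cfsg.Agent.S5999
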