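import Cfsg.Statements.S6000
import Cfsg.Agent.Lib.Helper98.SympH

set_option autoImplicit false
open scoped MatrixGroups
open Cfsg

namespace Cfsg.Agent.S6000

/-- Elements of prime order of PSL_4(p), p ≡ 1 (mod 4), and the normalizer of a 2-group of symplectic type of order 2⁶. Here `T = PSL_4(F)` for the field `F` with `p` elements, `p` a prime with `p ≡ 1 (mod 4)`; `R` is an absolutely irreducible subgroup of GL_4(F) of order 2⁶ that is a 2-group of symplectic type of exponent 4 with centre of order 4 (the central product of the scalars of order 4 with an extraspecial group 2^{1+4}), and `H` is the subgroup of matrices of determinant 1 normalizing `R` — a subgroup of type 2⁴.Sp₄(2) (maximality is not assumed). Ω is the set of cosets of `H` in `T`, so an element of `T` of prime order `r` (a matrix `x` of determinant 1 with `x^r` scalar, `x` not scalar) fixes a point of Ω exactly when some conjugate of `x` by a matrix of determinant 1 normalizes `R`. Let `r` be a prime dividing the index of `H`. Then every element of `T` of order `r` fixes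 a point of Ω if and only if `r = 2`, or `r = 3` and `p ≡ 2 (mod 3)`, or `r = 5` and `p ≡ ±2 (mod 5)` (`p` has multiplicative order 4 modulo 5). -/
theorem result {F : Type*} [Field F] [Fintype F] {p : ℕ} [Fact p.Prime] [CharP F p] (hF : Fintype.card F = p) (hp4 : p % 4 = 1)
    (R : Subgroup (GL (Fin 4) F)) (hR : Cfsg.Geo.IsLinearSymplecticTypeData 2 R) (hR6 : Nat.card R = 2 ^ 6)
    (r : ℕ) [Fact r.Prime]
    (hΩ : r ∣ (Cfsg.Geo.subgroupNormalizer R).relIndex (Cfsg.Geo.specialLinear (Fin 4) F)) :
    (∀ x ∈ Cfsg.Geo.specialLinear (Fin 4) F, (∃ z : F, ((x ^ r : GL (Fin 4) F) : Matrix (Fin 4) (Fin 4) F) = z • (1 : Matrix (Fin 4) (Fin 4) F)) →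
      (∀ z : F, (x : Matrix (Fin 4) (Fin 4) F) ≠ z • (1 : Matrix (Fin 4) (Fin 4) F)) →
      ∃ g ∈ Cfsg.Geo.specialLinear (Fin 4) F, g⁻¹ * x * g ∈ Cfsg.Geo.subgroupNormalizer R) ↔ (r = 2 ∨ (r = 3 ∧ p % 3 = 2) ∨ (r = 5 ∧ orderOf (p : ZMod 5) = 4)) := by
  classical
  obtain ⟨i, c, hG⟩ := Cfsg.Agent.Lib.Helper98.Symp.exists_good p hF hp4 R hR hR6
  have hp : p.Prime := Fact.out
  have hr : r.Prime := Fact.out
  have h2 := hG.h2
  obtain ⟨t, ht⟩ : ∃ t : F, 2 * t = 1 := ⟨2⁻¹, mul_inv_cancel₀ h2⟩
  have hp5 : 5 ≤ p := by
    have := hp.two_le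
    omega
  have h3F : (3 : F) ≠ 0 := by
    have := Cfsg.Agent.Lib.Helper98.Symp.prime_cast_ne_zero (F := F) p hp 3 Nat.prime_three
      (by omega)
    exact_mod_cast this
  constructor
  · intro hall
    by_contra hcon
    push Not at hcon
    obtain ⟨hr2, hr3, hr5⟩ := hcon
    by_cases hrp : r = p
    · subst hrp
      exact hG.fwd_unip r h3F (Nat.odd_iff.mpr (by omega)) hall
    · by_cases hr3' : r = 3
      · subst hr3'
        have hp3 : p % 3 = 1 := by
          have h1 := hr3 rfl
          have h0 : p % 3 ≠ 0 := by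
            intro h0
            have hd : 3 ∣ p := Nat.dvd_of_mod_eq_zero h0
            have := (Nat.prime_dvd_prime_iff_eq Nat.prime_three hp).mp hd
            omega
          omega
        have h5F : (5 : F) ≠ 0 := by
          have := Cfsg.Agent.Lib.Helper98.Symp.prime_cast_ne_zero (F := F) p hp 5
            (by norm_num) (by omega)
          exact_mod_cast this
        obtain ⟨ω, hω⟩ := Cfsg.Agent.Lib.Helper98.Symp.exists_omega (F := F)
          (by rw [hF]; omega)
        exact hG.fwd_three h3F h5F ω hω hall
      · by_cases hr5' : r = 5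
        · subst hr5'
          have hord := hr5 rfl
          have hp5m : p % 5 = 1 ∨ p % 5 = 4 := by
            have h0 : p % 5 ≠ 0 := by
              intro h0
              have hd : 5 ∣ p := Nat.dvd_of_mod_eq_zero h0
              have := (Nat.prime_dvd_prime_iff_eq (by norm_num) hp).mp hd
              exact hrp this
            have h23 : ¬ (p % 5 = 2 ∨ p % 5 = 3) := by
              intro h23
              exact hord (Cfsg.Agent.Lib.Helper98.Symp.orderOf_p_five p h23)
            omega
          have h5F : (5 : F) ≠ 0 := by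
            have := Cfsg.Agent.Lib.Helper98.Symp.prime_cast_ne_zero (F := F) p hp 5
              (by norm_num) (fun h => hrp h.symm)
            exact_mod_cast this
          have h11F : (11 : F) ≠ 0 := by
            have := Cfsg.Agent.Lib.Helper98.Symp.prime_cast_ne_zero (F := F) p hp 11
              (by norm_num) (by omega)
            exact_mod_cast this
          obtain ⟨τ, hτ⟩ := Cfsg.Agent.Lib.Helper98.Symp.exists_tau (F := F) p hp4 hp5m t ht
          exact hG.fwd_five h3F h5F h11F τ hτ hall
        · have hr7 : 7 ≤ r :=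
            Cfsg.Agent.Lib.Helper98.Symp.seven_le_of_prime r hr hr2 hr3' hr5'
          exact hG.fwd_large r hr7 (hΩ.trans (Subgroup.relIndex_dvd_card _ _)) hall
  · rintro (rfl | ⟨rfl, hp3⟩ | ⟨rfl, hord⟩)
    · intro x hx ⟨z, hz⟩ hns
      exact hG.back_two x hx z hz hns
    · intro x hx ⟨z, hz⟩ hns
      have hirr : Irreducible (Polynomial.cyclotomic 3 F) :=
        Cfsg.Agent.Lib.Helper98.Symp.irreducible_cyclotomic_field p 3 hF (by omega)
          (Cfsg.Agent.Lib.Helper98.Symp.orderOf_p_three p hp3)
      have hcop : (Fintype.card F - 1).Coprime 3 := by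
        rw [hF]
        exact Nat.Coprime.symm ((Nat.Prime.coprime_iff_not_dvd Nat.prime_three).mpr (by omega))
      exact hG.back_three h3F hirr hcop t ht x z hz hns
    · intro x hx ⟨z, hz⟩ hns
      obtain ⟨hm0, hm1⟩ := Cfsg.Agent.Lib.Helper98.Symp.mod_five_of_order p hord
      have hp5ne : p ≠ 5 := by
        intro h
        rw [h] at hm0
        exact hm0 rfl
      have h5F : (5 : F) ≠ 0 := by
        have := Cfsg.Agent.Lib.Helper98.Symp.prime_cast_ne_zero (F := F) p hp 5
          (by norm_num) hp5ne
        exact_mod_cast this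
      have hirr : Irreducible (Polynomial.cyclotomic 5 F) :=
        Cfsg.Agent.Lib.Helper98.Symp.irreducible_cyclotomic_field p 5 hF hp5ne hord
      have hcop : (Fintype.card F - 1).Coprime 5 := by
        rw [hF]
        exact Nat.Coprime.symm
          ((Nat.Prime.coprime_iff_not_dvd (by norm_num : Nat.Prime 5)).mpr (by omega))
      exact hG.back_five h5F hirr hcop t ht x z hz hns

end Cfsg.Agent.S6000
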