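import Cfsg.Statements.S6001
import Cfsg.Agent.Lib.Helper98.SympU4

set_option autoImplicit false
open scoped MatrixGroups
open Cfsg

namespace Cfsg.Agent.S6001

/-- Elements of prime order of PSU_4(p), p ≡ 3 (mod 4), and the normalizer of a 2-group of symplectic type of order 2⁶. Here `T = PSU_4(p)` for a prime `p ≡ 3 (mod 4)`, realised through `SU_4(p)`, the matrices of determinant 1 over the field `F` with `p²` elements preserving the hermitian form `f = Σ uᵢvᵢ^p`; `R` is an absolutely irreducible subgroup of the full unitary group of `f` of order 2⁶ that is a 2-group of symplectic type of exponent 4 with centre of order 4, and `H` is the subgroup of `SU_4(p)` normalizing `R` — a subgroup of type 2⁴.Sp₄(2) (maximality is not assumed). Ω is the set of cosets of `H`, so an element of `T` of prime order `r` (`x ∈ SU_4(p)` with `x^r` scalar, `x` not scalar) fixes a point of Ω exactly when some `SU_4(p)`-conjugate of `x` normalizes `R`. Let `r` be a prime dividing the index of `H`. Then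 every element of `T` of order `r` fixes a point of Ω if and only if `r = 2`, or `r = 3` and `p ≡ 1 (mod 3)`, or `r = 5` and `p ≡ ±2 (mod 5)` (`p` has multiplicative order 4 modulo 5). -/
theorem result {F : Type*} [Field F] [Fintype F] {p : ℕ} [Fact p.Prime] [CharP F p] (hF : Fintype.card F = p ^ 2) (hp4 : p % 4 = 3)
    (R : Subgroup (GL (Fin 4) F)) (hRs : Cfsg.Geo.IsSymplecticTypeGroup 2 R) (hRi : Cfsg.Geo.ActsAbsolutelyIrreducibly (Cfsg.Geo.matrixSet R))
    (hRU : R ≤ Cfsg.GU 4 F p) (hR6 : Nat.card R = 2 ^ 6) (hRZ : Nat.card (Subgroup.center R) = 4)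
    (r : ℕ) [Fact r.Prime]
    (hΩ : r ∣ (Cfsg.Geo.subgroupNormalizer R).relIndex (Cfsg.GU 4 F p ⊓ Cfsg.Geo.specialLinear (Fin 4) F)) :
    (∀ x ∈ Cfsg.GU 4 F p ⊓ Cfsg.Geo.specialLinear (Fin 4) F, (∃ z : F, ((x ^ r : GL (Fin 4) F) : Matrix (Fin 4) (Fin 4) F) = z • (1 : Matrix (Fin 4) (Fin 4) F)) →
      (∀ z : F, (x : Matrix (Fin 4) (Fin 4) F) ≠ z • (1 : Matrix (Fin 4) (Fin 4) F)) →
      ∃ g ∈ Cfsg.GU 4 F p ⊓ Cfsg.Geo.specialLinear (Fin 4) F, g⁻¹ * x * g ∈ Cfsg.Geo.subgroupNormalizer R) ↔ (r = 2 ∨ (r = 3 ∧ p % 3 = 1) ∨ (r = 5 ∧ orderOf (p : ZMod 5) = 4)) := by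
  classical
  have hp : p.Prime := Fact.out
  have hr : r.Prime := Fact.out
  obtain ⟨σ, hσq, hσ, a, b, x₀, ha, hb, hab, hx₀⟩ :=
    Cfsg.Agent.Lib.Helper47.exists_unitary_data F p hF
  have hab' : a * a + b * b = -1 := by linear_combination hab
  have hp3le : 3 ≤ p := by
    have := hp.two_le
    omega
  have h2 : (2 : F) ≠ 0 := by
    have := Cfsg.Agent.Lib.Helper98.Symp.prime_cast_ne_zero (F := F) p hp 2 Nat.prime_two
      (by omega)
    exact_mod_cast this
  obtain ⟨t, ht⟩ : ∃ t : F, 2 * t = 1 := ⟨2⁻¹, mul_inv_cancel₀ h2⟩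
  have hcard4 : Fintype.card F % 4 ≠ 3 := by
    rw [hF, Nat.pow_mod, hp4]
    norm_num
  obtain ⟨i, hi⟩ := (FiniteField.isSquare_neg_one_iff (F := F)).mpr hcard4
  have hi2 : i ^ 2 = -1 := by rw [pow_two]; exact hi.symm
  obtain ⟨j, c, hG⟩ := Cfsg.Agent.Lib.Helper98.Symp.good_of_parts h2 i hi2 R hRs hRi hR6 hRZ
  have hσj : σ j = -j := by
    rw [hσq]
    exact Cfsg.Agent.Lib.Helper98.Symp.sigma_i j hG.hi p hp4
  have hRU' : ∀ g ∈ R, Cfsg.Agent.Lib.Helper47.sT σ (g : Matrix (Fin 4) (Fin 4) F)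
      * (g : Matrix (Fin 4) (Fin 4) F) = 1 :=
    fun g hg => (Cfsg.Agent.Lib.Helper47.mem_GU_iff_sT hσq hσ g).mp (hRU hg)
  have hU : Cfsg.Agent.Lib.Helper98.Symp.GoodU σ p j R c :=
    ⟨hG, hσ, hσq, ⟨x₀, hx₀⟩, hσj, hRU'⟩
  constructor
  · intro hall
    by_contra hcon
    push Not at hcon
    obtain ⟨hr2, hr3, hr5⟩ := hcon
    by_cases hrp : r = p
    · subst hrp
      exact hU.fwd_unipU (Nat.odd_iff.mpr (by omega)) a b x₀ ha hb hab' hx₀ hall
    · by_cases hr3' : r = 3
      · subst hr3'
        have hp3 : p % 3 = 2 := by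
          have h1 := hr3 rfl
          have h0 : p % 3 ≠ 0 := by
            intro h0
            have hd : 3 ∣ p := Nat.dvd_of_mod_eq_zero h0
            have := (Nat.prime_dvd_prime_iff_eq Nat.prime_three hp).mp hd
            exact hrp this
          omega
        have h3F : (3 : F) ≠ 0 := by
          have := Cfsg.Agent.Lib.Helper98.Symp.prime_cast_ne_zero (F := F) p hp 3
            Nat.prime_three (fun h => hrp h.symm)
          exact_mod_cast this
        exact hU.fwd_threeU hF h3F hp3 hall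
      · by_cases hr5' : r = 5
        · subst hr5'
          have hord := hr5 rfl
          have hp5m : p % 5 = 1 ∨ p % 5 = 4 := by
            have h0 : p % 5 ≠ 0 := by
              intro h0
              have hd : 5 ∣ p := Nat.dvd_of_mod_eq_zero h0
              have := (Nat.prime_dvd_prime_iff_eq (by norm_num) hp).mp hd
              exact hrp this
            have h23 : ¬ (p % 5 = 2 ∨ p % 5 = 3) := by
              intro h23
              exact hord (Cfsg.Agent.Lib.Helper98.Symp.orderOf_p_five p h23)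
            omega
          have h5F : (5 : F) ≠ 0 := by
            have := Cfsg.Agent.Lib.Helper98.Symp.prime_cast_ne_zero (F := F) p hp 5
              (by norm_num) (fun h => hrp h.symm)
            exact_mod_cast this
          exact hU.fwd_fiveU hF hp4 h5F hp5m t ht hall
        · have hr7 : 7 ≤ r :=
            Cfsg.Agent.Lib.Helper98.Symp.seven_le_of_prime r hr hr2 hr3' hr5'
          exact hU.fwd_largeU r hr7 (hΩ.trans (Subgroup.relIndex_dvd_card _ _)) hall
  · rintro (rfl | ⟨rfl, hp3⟩ | ⟨rfl, hord⟩)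
    · intro x hx ⟨z, hz⟩ hns
      exact hU.back_two x hx z hz hns
    · intro x hx ⟨z, hz⟩ hns
      have h3F : (3 : F) ≠ 0 := by
        have := Cfsg.Agent.Lib.Helper98.Symp.prime_cast_ne_zero (F := F) p hp 3
          Nat.prime_three (by omega)
        exact_mod_cast this
      have e1 : ((p : ℕ) : ZMod 3) = 1 := by
        rw [← ZMod.natCast_mod p 3, hp3, Nat.cast_one]
      have hord : orderOf ((p : ℕ) : ZMod 3) % 4 ≠ 2 := by
        rw [e1, orderOf_one]
        norm_num
      have hdeg : orderOf ((p ^ 2 : ℕ) : ZMod 3) = 1 := by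
        rw [Nat.cast_pow, e1, one_pow, orderOf_one]
      exact hU.back_three hF h3F (by omega) hord hdeg t ht x hx z hz hns
    · intro x hx ⟨z, hz⟩ hns
      obtain ⟨hm0, hm1⟩ := Cfsg.Agent.Lib.Helper98.Symp.mod_five_of_order p hord
      have hp5ne : p ≠ 5 := by
        intro h
        rw [h] at hm0
        exact hm0 rfl
      have h5F : (5 : F) ≠ 0 := by
        have := Cfsg.Agent.Lib.Helper98.Symp.prime_cast_ne_zero (F := F) p hp 5
          (by norm_num) hp5ne
        exact_mod_cast this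
      have hord' : orderOf ((p : ℕ) : ZMod 5) % 4 ≠ 2 := by
        rw [hord]
        norm_num
      exact hU.back_five hF h5F (fun h => hp5ne h.symm) hord'
        (Cfsg.Agent.Lib.Helper98.Symp.order_sq_five p hord) t ht x hx z hz hns

end Cfsg.Agent.S6001
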