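import Cfsg.Statements.S6002
import Cfsg.Agent.Lib.Helper98.SympM3
import Cfsg.Agent.Lib.Helper98.SympU4
import Cfsg.Agent.Lib.Helper4.SMN5F
import Cfsg.Agent.Lib.Helper56.SMFWD2
import Cfsg.Agent.Lib.Helper58.SMB2
import Cfsg.Agent.Lib.Helper77.SMB5
import Cfsg.Agent.Lib.Helper12.SMN5R
import Cfsg.Agent.Lib.Helper6.SMPARTS
import Cfsg.Agent.Lib.Helper85.SMFWD1

set_option autoImplicit false
open scoped MatrixGroups
open Cfsg

namespace Cfsg.Agent.S6002

/-- Elements of prime order of PSp_4(p), p odd, and the normalizer of an extraspecial 2-group of order 2⁵ of minus type. Here `T = PSp_4(F)` for the field `F` with `p` elements, `p` an odd prime, realised through the matrices preserving the standard alternating form `f`; `R` is an absolutely irreducible subgroup of `T` (it preserves `f`) that is a 2-group of symplectic type of exponent 4, order 2⁵ and centre of order 2, of minus type (no elementary abelian subgroup of order 2³), and `H` is the subgroup of `T` normalizing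 `R` — a subgroup of type 2^{1+4}.O₄⁻(2) (maximality is not assumed). Ω is the set of cosets of `H` in `T`, so an element of `T` of prime order `r` (`x ∈ T` with `x^r` scalar, `x` not scalar) fixes a point of Ω exactly when some `T`-conjugate of `x` normalizes `R`. Let `r` be a prime dividing the index of `H`. Then every element of `T` of order `r` fixes a point of Ω if and only if `r = 2`, or `r = 5` and `p` has multiplicative order 4 modulo 5. -/
theorem result {F : Type*} [Field F] [Fintype F] {p : ℕ} [Fact p.Prime] [CharP F p] (hF : Fintype.card F = p) (hodd : Odd p)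
    (R : Subgroup (GL (Fin 2 ⊕ Fin 2) F)) (hRs : Cfsg.Geo.IsSymplecticTypeGroup 2 R) (hRi : Cfsg.Geo.ActsAbsolutelyIrreducibly (Cfsg.Geo.matrixSet R))
    (hRf : R ≤ Cfsg.spGL 2 F) (hR5 : Nat.card R = 2 ^ 5) (hRZ : Nat.card (Subgroup.center R) = 2) (hRm : Cfsg.Geo.IsOfMinusType 2 R)
    (r : ℕ) [Fact r.Prime]
    (hΩ : r ∣ (Cfsg.Geo.subgroupNormalizer R).relIndex (Cfsg.spGL 2 F)) :
    (∀ x ∈ Cfsg.spGL 2 F, (∃ z : F, ((x ^ r : GL (Fin 2 ⊕ Fin 2) F) : Matrix (Fin 2 ⊕ Fin 2) (Fin 2 ⊕ Fin 2) F) = z • (1 : Matrix (Fin 2 ⊕ Fin 2) (Fin 2 ⊕ Fin 2) F)) →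
      (∀ z : F, (x : Matrix (Fin 2 ⊕ Fin 2) (Fin 2 ⊕ Fin 2) F) ≠ z • (1 : Matrix (Fin 2 ⊕ Fin 2) (Fin 2 ⊕ Fin 2) F)) →
      ∃ g ∈ Cfsg.spGL 2 F, g⁻¹ * x * g ∈ Cfsg.Geo.subgroupNormalizer R) ↔ (r = 2 ∨ (r = 5 ∧ orderOf (p : ZMod 5) = 4)) := by
  classical
  have hp : p.Prime := Fact.out
  have hr : r.Prime := Fact.out
  have hp2 : p ≠ 2 := by
    rintro rfl
    exact absurd hodd (by decide)
  have h2 : (2 : F) ≠ 0 := by
    have := Cfsg.Agent.Lib.Helper98.Symp.prime_cast_ne_zero (F := F) p hp 2 Nat.prime_two hp2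
    exact_mod_cast this
  obtain ⟨t, ht⟩ : ∃ t : F, 2 * t = 1 := ⟨2⁻¹, mul_inv_cancel₀ h2⟩
  have hG := Cfsg.Agent.Lib.Helper98.SM.goodM_of_parts h2 R hRs hRi hR5 hRZ
  have hK := Cfsg.Agent.Lib.Helper98.SM.noKlein_of_minus hG hRm
  obtain ⟨u₁, u₂, u₃, u₄, hu1, hu2, hu3, hu4, h11, h22, h33, h44, h12, h13, h14, h23, h24, h34,
    hgen⟩ := Cfsg.Agent.Lib.Helper98.SM.exists_gens hG hK
  constructor
  · intro hall
    by_contra hcon
    push Not at hcon
    obtain ⟨hr2, hr5⟩ := hcon
    by_cases hrp : r = p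
    · subst hrp
      exact Cfsg.Agent.Lib.Helper98.SM.fwd_unip hG r hodd hall
    · by_cases hr3' : r = 3
      · subst hr3'
        have h3F : (3 : F) ≠ 0 := by
          have := Cfsg.Agent.Lib.Helper98.Symp.prime_cast_ne_zero (F := F) p hp 3
            Nat.prime_three (fun h => hrp h.symm)
          exact_mod_cast this
        exact Cfsg.Agent.Lib.Helper98.SM.fwd_three hG hK h3F hall
      · by_cases hr5' : r = 5
        · subst hr5'
          have hord := hr5 rfl
          have hp5m : p % 5 = 1 ∨ p % 5 = 4 := by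
            have h0 : p % 5 ≠ 0 := by
              intro h0
              have hd : 5 ∣ p := Nat.dvd_of_mod_eq_zero h0
              have := (Nat.prime_dvd_prime_iff_eq (by norm_num) hp).mp hd
              exact hrp this
            have h23 : ¬ (p % 5 = 2 ∨ p % 5 = 3) := by
              intro h23
              exact hord (Cfsg.Agent.Lib.Helper98.Symp.orderOf_p_five p h23)
            omega
          have h5F : (5 : F) ≠ 0 := by
            have := Cfsg.Agent.Lib.Helper98.Symp.prime_cast_ne_zero (F := F) p hp 5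
              (by norm_num) (fun h => hrp h.symm)
            exact_mod_cast this
          have hp4 : p % 4 = 1 ∨ p % 4 = 3 := by
            obtain ⟨k, hk⟩ := hodd
            omega
          obtain ⟨τ, hτ⟩ : ∃ τ : F, τ * τ + τ - 1 = 0 := by
            rcases hp4 with h4 | h4
            · exact Cfsg.Agent.Lib.Helper98.Symp.exists_tau (F := F) p h4 hp5m t ht
            · obtain ⟨τ, hτ, -⟩ := Cfsg.Agent.Lib.Helper98.Symp.exists_tauU (F := F) p
                (RingHom.id F) (fun x => by rw [RingHom.id_apply, ← hF, FiniteField.pow_card])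
                h4 hp5m t ht rfl
              exact ⟨τ, hτ⟩
          exact Cfsg.Agent.Lib.Helper98.SM.fwd_five hG h5F τ hτ hall
        · have hr7 : 7 ≤ r :=
            Cfsg.Agent.Lib.Helper98.Symp.seven_le_of_prime r hr hr2 hr3' hr5'
          exact Cfsg.Agent.Lib.Helper98.SM.fwd_large hG r hr7
            (hΩ.trans (Subgroup.relIndex_dvd_card _ _)) hall
  · rintro (rfl | ⟨rfl, hord⟩)
    · intro x hx ⟨z, hz⟩ hns
      have hvv : (u₁ * u₂) * (u₁ * u₂) = -1 := by
        calc (u₁ * u₂) * (u₁ * u₂) = u₁ * (u₂ * u₁) * u₂ := by group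
          _ = -1 := by
            rw [Cfsg.Agent.Lib.Helper98.SM.anti_symm h12, mul_neg, neg_mul, ← mul_assoc, h11,
              one_mul, h22]
      exact Cfsg.Agent.Lib.Helper98.SM.back_two hG hRf p hodd (u₁ * u₂) (R.mul_mem hu1 hu2) hvv
        x hx z hz hns
    · intro x hx ⟨z, hz⟩ hns
      obtain ⟨m₀, hm₀, r1, r2, r3, r4, r5⟩ := Cfsg.Agent.Lib.Helper98.SM.n5_rel h2 u₁ u₂ u₃ u₄
        (hRf hu1) (hRf hu2) (hRf hu3) (hRf hu4) h11 h22 h33 h44 h12 h13 h14 h23 h24 h34
      obtain ⟨m, hm, hmN, hm5, hm1⟩ := Cfsg.Agent.Lib.Helper98.SM.n5_of_rel hG hRf u₁ u₂ u₃ u₄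
        hu1 hu2 hu3 hu4 h12 hgen m₀ hm₀ r1 r2 r3 r4 r5
      obtain ⟨hm0, -⟩ := Cfsg.Agent.Lib.Helper98.Symp.mod_five_of_order p hord
      have hp5ne : p ≠ 5 := by
        intro h
        rw [h] at hm0
        exact hm0 rfl
      have hirr : Irreducible (Polynomial.cyclotomic 5 F) :=
        Cfsg.Agent.Lib.Helper98.Symp.irreducible_cyclotomic_field p 5 hF hp5ne hord
      exact Cfsg.Agent.Lib.Helper98.SM.back_five R p hp5ne hirr m hm hmN hm5 hm1 x hx z hz hns

end Cfsg.Agent.S6002
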